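import Cfsg.Agent.Lib.H97K9

/-!
A pair of totally singular planes in a unitary space of dimension four over `F_4` or `F_9`: the stabiliser is contained in
a symplectic subfield subgroup.
-/

set_option autoImplicit false
set_option linter.unusedSectionVars false
set_option linter.style.haveILetI false

namespace Cfsg.Agent.H97.Asch

open Matrix Cfsg Cfsg.Geo
open scoped MatrixGroups

variable {F : Type*} [Field F] {f : (Fin 4 → F) → (Fin 4 → F) → F} {σ : F ≃+* F}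

/-- a dual pair of bases of a pair of totally singular planes -/
structure DualPair (f : (Fin 4 → F) → (Fin 4 → F) → F) (a₁ a₂ c₁ c₂ : Fin 4 → F) : Prop where
  aa₁₁ : f a₁ a₁ = 0
  aa₁₂ : f a₁ a₂ = 0
  aa₂₁ : f a₂ a₁ = 0
  aa₂₂ : f a₂ a₂ = 0
  cc₁₁ : f c₁ c₁ = 0
  cc₁₂ : f c₁ c₂ = 0
  cc₂₁ : f c₂ c₁ = 0
  cc₂₂ : f c₂ c₂ = 0
  ac₁₁ : f a₁ c₁ = 1
  ac₁₂ : f a₁ c₂ = 0
  ac₂₁ : f a₂ c₁ = 0
  ac₂₂ : f a₂ c₂ = 1
  ca₁₁ : f c₁ a₁ = 1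
  ca₁₂ : f c₁ a₂ = 0
  ca₂₁ : f c₂ a₁ = 0
  ca₂₂ : f c₂ a₂ = 1

variable {a₁ a₂ c₁ c₂ x₁ x₂ y₁ y₂ : Fin 4 → F}

theorem DualPair.swap (h : DualPair f a₁ a₂ c₁ c₂) : DualPair f c₁ c₂ a₁ a₂ :=
  ⟨h.cc₁₁, h.cc₁₂, h.cc₂₁, h.cc₂₂, h.aa₁₁, h.aa₁₂, h.aa₂₁, h.aa₂₂, h.ca₁₁, h.ca₁₂, h.ca₂₁, h.ca₂₂, h.ac₁₁, h.ac₁₂, h.ac₂₁, h.ac₂₂⟩

/-- the semilinear involution attached to a dual pair -/
noncomputable def tauOf (σ : F ≃+* F) (f : (Fin 4 → F) → (Fin 4 → F) → F) (a₁ a₂ c₁ c₂ v : Fin 4 → F) : Fin 4 → F :=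
  σ (f v a₂) • a₁ - σ (f v a₁) • a₂ - σ (f v c₂) • c₁ + σ (f v c₁) • c₂

theorem tauOf_add (hS : Sesq (σ : F →+* F) f) (x y : Fin 4 → F) :
    tauOf σ f a₁ a₂ c₁ c₂ (x + y) = tauOf σ f a₁ a₂ c₁ c₂ x + tauOf σ f a₁ a₂ c₁ c₂ y := by
  unfold tauOf
  simp only [hS.add_left, map_add, add_smul]
  abel

theorem tauOf_smul (hS : Sesq (σ : F →+* F) f) (c : F) (x : Fin 4 → F) :
    tauOf σ f a₁ a₂ c₁ c₂ (c • x) = σ c • tauOf σ f a₁ a₂ c₁ c₂ x := by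
  unfold tauOf
  simp only [hS.smul_left, map_mul, smul_add, smul_sub, smul_smul]

theorem tauOf_a₁ (h : DualPair f a₁ a₂ c₁ c₂) : tauOf σ f a₁ a₂ c₁ c₂ a₁ = c₂ := by
  simp [tauOf, h.aa₁₁, h.aa₁₂, h.ac₁₁, h.ac₁₂]

theorem tauOf_a₂ (h : DualPair f a₁ a₂ c₁ c₂) : tauOf σ f a₁ a₂ c₁ c₂ a₂ = -c₁ := by
  simp [tauOf, h.aa₂₁, h.aa₂₂, h.ac₂₁, h.ac₂₂]

theorem tauOf_c₁ (h : DualPair f a₁ a₂ c₁ c₂) : tauOf σ f a₁ a₂ c₁ c₂ c₁ = -a₂ := by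
  simp [tauOf, h.cc₁₁, h.cc₁₂, h.ca₁₁, h.ca₁₂]

theorem tauOf_c₂ (h : DualPair f a₁ a₂ c₁ c₂) : tauOf σ f a₁ a₂ c₁ c₂ c₂ = a₁ := by
  simp [tauOf, h.cc₂₁, h.cc₂₂, h.ca₂₁, h.ca₂₂]

theorem tauOf_self (hU : IsUnitaryForm σ f) (u : Fin 4 → F) : f (tauOf σ f a₁ a₂ c₁ c₂ u) u = 0 := by
  have hS := sesq_of_unitary hU
  unfold tauOf
  rw [hS.add_left, hS.sub_left, hS.sub_left, hS.smul_left, hS.smul_left, hS.smul_left, hS.smul_left, hU.herm a₁ u, hU.herm a₂ u, hU.herm c₁ u,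
    hU.herm c₂ u]
  ring

theorem tauOf_anti (hU : IsUnitaryForm σ f) (u v : Fin 4 → F) :
    f (tauOf σ f a₁ a₂ c₁ c₂ u) v = - f (tauOf σ f a₁ a₂ c₁ c₂ v) u := by
  have hS := sesq_of_unitary hU
  have h1 := tauOf_self (a₁ := a₁) (a₂ := a₂) (c₁ := c₁) (c₂ := c₂) hU (u + v)
  rw [tauOf_add hS, hS.add_left, hS.add_right, hS.add_right, tauOf_self hU, tauOf_self hU] at h1
  linear_combination h1

theorem tauOf_tau (hU : IsUnitaryForm σ f) (h : DualPair f a₁ a₂ c₁ c₂)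
    (hexp : ∀ v : Fin 4 → F, v = f v c₁ • a₁ + f v c₂ • a₂ + f v a₁ • c₁ + f v a₂ • c₂) (v : Fin 4 → F) :
    tauOf σ f a₁ a₂ c₁ c₂ (tauOf σ f a₁ a₂ c₁ c₂ v) = v := by
  have hS := sesq_of_unitary hU
  have hinv := hU.involutive
  have e : ∀ w, f (tauOf σ f a₁ a₂ c₁ c₂ v) w = σ (f v a₂) * f a₁ w - σ (f v a₁) * f a₂ w - σ (f v c₂) * f c₁ w + σ (f v c₁) * f c₂ w := by
    intro w
    unfold tauOf
    rw [hS.add_left, hS.sub_left, hS.sub_left, hS.smul_left, hS.smul_left, hS.smul_left, hS.smul_left]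
  conv_rhs => rw [hexp v]
  have e1 : f (tauOf σ f a₁ a₂ c₁ c₂ v) a₁ = - σ (f v c₂) := by
    rw [e, h.aa₁₁, h.aa₂₁, h.ca₁₁, h.ca₂₁]
    ring
  have e2 : f (tauOf σ f a₁ a₂ c₁ c₂ v) a₂ = σ (f v c₁) := by
    rw [e, h.aa₁₂, h.aa₂₂, h.ca₁₂, h.ca₂₂]
    ring
  have e3 : f (tauOf σ f a₁ a₂ c₁ c₂ v) c₁ = σ (f v a₂) := by
    rw [e, h.ac₁₁, h.ac₂₁, h.cc₁₁, h.cc₂₁]
    ring
  have e4 : f (tauOf σ f a₁ a₂ c₁ c₂ v) c₂ = - σ (f v a₁) := by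
    rw [e, h.ac₁₂, h.ac₂₂, h.cc₁₂, h.cc₂₂]
    ring
  have e5 : tauOf σ f a₁ a₂ c₁ c₂ (tauOf σ f a₁ a₂ c₁ c₂ v) = σ (f (tauOf σ f a₁ a₂ c₁ c₂ v) a₂) • a₁ - σ (f (tauOf σ f a₁ a₂ c₁ c₂ v) a₁) • a₂ -
      σ (f (tauOf σ f a₁ a₂ c₁ c₂ v) c₂) • c₁ + σ (f (tauOf σ f a₁ a₂ c₁ c₂ v) c₁) • c₂ := rfl
  rw [e5, e1, e2, e3, e4]
  simp only [map_neg, hinv]
  module

theorem tauOf_form (hU : IsUnitaryForm σ f) (h : DualPair f a₁ a₂ c₁ c₂)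
    (hexp : ∀ v : Fin 4 → F, v = f v c₁ • a₁ + f v c₂ • a₂ + f v a₁ • c₁ + f v a₂ • c₂) (u v : Fin 4 → F) :
    f (tauOf σ f a₁ a₂ c₁ c₂ u) (tauOf σ f a₁ a₂ c₁ c₂ v) = - σ (f u v) := by
  rw [tauOf_anti hU, tauOf_tau hU h hexp, hU.herm v u]

theorem dualPair_pair (hS : Sesq (σ : F →+* F) f) (h : DualPair f x₁ x₂ y₁ y₂) (α γ α' γ' : F) :
    f (α • x₁ + γ • x₂) (α' • y₁ + γ' • y₂) = α * σ α' + γ * σ γ' := by
  simp only [hS.add_left, hS.add_right, hS.smul_left, hS.smul_right, h.ac₁₁, h.ac₁₂, h.ac₂₁, h.ac₂₂]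
  simp

/-- coefficient relations -/
theorem coef_key (hinv : ∀ a : F, σ (σ a) = a) {α β γ δ α' β' γ' δ' : F}
    (E1 : α * σ α' + γ * σ γ' = 1) (E2 : α * σ β' + γ * σ δ' = 0) (E3 : β * σ α' + δ * σ γ' = 0) (E4 : β * σ β' + δ * σ δ' = 1)
    (hdet : (α * δ - β * γ) * (α' * δ' - β' * γ') = 1) :
    σ (α * δ - β * γ) = α * δ - β * γ ∧ (α * δ - β * γ) * σ α' = δ ∧ (α * δ - β * γ) * σ γ' = -β ∧
      (α * δ - β * γ) * σ β' = -γ ∧ (α * δ - β * γ) * σ δ' = α := by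
  obtain ⟨Δ, hΔ⟩ : ∃ Δ, Δ = α * δ - β * γ := ⟨_, rfl⟩
  rw [← hΔ] at hdet ⊢
  have k1 : Δ * σ α' = δ := by rw [hΔ]; linear_combination δ * E1 - γ * E3
  have k2 : Δ * σ γ' = -β := by rw [hΔ]; linear_combination α * E3 - β * E1
  have k3 : Δ * σ β' = -γ := by rw [hΔ]; linear_combination δ * E2 - γ * E4
  have k4 : Δ * σ δ' = α := by rw [hΔ]; linear_combination α * E4 - β * E2
  refine ⟨?_, k1, k2, k3, k4⟩
  have hΔ0 : Δ ≠ 0 := by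
    intro h0
    rw [h0, zero_mul] at hdet
    exact zero_ne_one hdet
  have hs : σ Δ * σ (α' * δ' - β' * γ') = 1 := by
    rw [← map_mul, hdet, map_one]
  have h3 : Δ * σ (α' * δ' - β' * γ') = 1 := by
    have h4 : Δ * Δ * σ (α' * δ' - β' * γ') = Δ := by
      rw [map_sub, map_mul, map_mul]
      calc Δ * Δ * (σ α' * σ δ' - σ β' * σ γ') = (Δ * σ α') * (Δ * σ δ') - (Δ * σ β') * (Δ * σ γ') := by ring
        _ = δ * α - (-γ) * (-β) := by rw [k1, k2, k3, k4]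
        _ = Δ := by rw [hΔ]; ring
    have h5 : Δ * (Δ * σ (α' * δ' - β' * γ')) = Δ * 1 := by
      rw [← mul_assoc, h4, mul_one]
    exact mul_left_cancel₀ hΔ0 h5
  have h6 : σ (α' * δ' - β' * γ') ≠ 0 := by
    intro h7
    rw [h7, mul_zero] at h3
    exact zero_ne_one h3
  exact mul_right_cancel₀ h6 (hs.trans h3.symm)

/-- the conjugation formula for the semilinear involution -/
theorem conj_tau {τ : (Fin 4 → F) → (Fin 4 → F)} (hinv : ∀ a : F, σ (σ a) = a)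
    (hadd : ∀ x y, τ (x + y) = τ x + τ y) (hsmul : ∀ (c : F) x, τ (c • x) = σ c • τ x) {s : F} (hs : s * s = 1)
    (ta₁ : τ a₁ = c₂) (ta₂ : τ a₂ = -c₁) (tc₁ : τ c₁ = -a₂) (tc₂ : τ c₂ = a₁)
    (tx₁ : τ x₁ = s • y₂) (tx₂ : τ x₂ = -(s • y₁)) (ty₁ : τ y₁ = -(s • x₂)) (ty₂ : τ y₂ = s • x₁)
    (hexp : ∀ v : Fin 4 → F, ∃ r₁ r₂ r₃ r₄ : F, v = r₁ • a₁ + r₂ • a₂ + r₃ • c₁ + r₄ • c₂)
    {h : Matrix (Fin 4) (Fin 4) F} {α β γ δ α' β' γ' δ' : F}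
    (ha₁ : h *ᵥ a₁ = α • x₁ + γ • x₂) (ha₂ : h *ᵥ a₂ = β • x₁ + δ • x₂)
    (hc₁ : h *ᵥ c₁ = α' • y₁ + γ' • y₂) (hc₂ : h *ᵥ c₂ = β' • y₁ + δ' • y₂)
    (hfix : σ (α * δ - β * γ) = α * δ - β * γ) (h2 : (α * δ - β * γ) * (α * δ - β * γ) = 1)
    (k1 : (α * δ - β * γ) * σ α' = δ) (k2 : (α * δ - β * γ) * σ γ' = -β)
    (k3 : (α * δ - β * γ) * σ β' = -γ) (k4 : (α * δ - β * γ) * σ δ' = α) (v : Fin 4 → F) :
    h *ᵥ τ v = (s * (α * δ - β * γ)) • τ (h *ᵥ v) := by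
  obtain ⟨Δ, hΔ⟩ : ∃ Δ, Δ = α * δ - β * γ := ⟨_, rfl⟩
  rw [← hΔ] at hfix h2 k1 k2 k3 k4 ⊢
  -- the second set of coefficients
  have m1 : α' = Δ * σ δ := by
    have := congrArg σ k1
    rw [map_mul, hinv, hfix] at this
    calc α' = (Δ * Δ) * α' := by rw [h2, one_mul]
      _ = Δ * (Δ * α') := by ring
      _ = _ := by rw [this]
  have m2 : γ' = - (Δ * σ β) := by
    have := congrArg σ k2
    rw [map_mul, hinv, hfix, map_neg] at this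
    calc γ' = (Δ * Δ) * γ' := by rw [h2, one_mul]
      _ = Δ * (Δ * γ') := by ring
      _ = _ := by rw [this]; ring
  have m3 : β' = - (Δ * σ γ) := by
    have := congrArg σ k3
    rw [map_mul, hinv, hfix, map_neg] at this
    calc β' = (Δ * Δ) * β' := by rw [h2, one_mul]
      _ = Δ * (Δ * β') := by ring
      _ = _ := by rw [this]; ring
  have m4 : δ' = Δ * σ α := by
    have := congrArg σ k4
    rw [map_mul, hinv, hfix] at this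
    calc δ' = (Δ * Δ) * δ' := by rw [h2, one_mul]
      _ = Δ * (Δ * δ') := by ring
      _ = _ := by rw [this]
  have hneg : ∀ x, τ (-x) = - τ x := by
    intro x
    have := hsmul (-1) x
    simpa using this
  have b1 : h *ᵥ τ a₁ = (s * Δ) • τ (h *ᵥ a₁) := by
    rw [ta₁, hc₂, ha₁, hadd, hsmul, hsmul, tx₁, tx₂, m3, m4]
    have e : s * Δ * s = Δ := by linear_combination Δ * hs
    simp only [smul_add, smul_neg, smul_smul]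
    have e1 : s * Δ * (σ α * s) = Δ * σ α := by linear_combination (Δ * σ α) * hs
    have e2 : s * Δ * (σ γ * s) = Δ * σ γ := by linear_combination (Δ * σ γ) * hs
    rw [e1, e2]
    module
  have b2 : h *ᵥ τ a₂ = (s * Δ) • τ (h *ᵥ a₂) := by
    rw [ta₂, Matrix.mulVec_neg, hc₁, ha₂, hadd, hsmul, hsmul, tx₁, tx₂, m1, m2]
    simp only [smul_add, smul_neg, smul_smul]
    have e1 : s * Δ * (σ β * s) = Δ * σ β := by linear_combination (Δ * σ β) * hs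
    have e2 : s * Δ * (σ δ * s) = Δ * σ δ := by linear_combination (Δ * σ δ) * hs
    rw [e1, e2]
    module
  have b3 : h *ᵥ τ c₁ = (s * Δ) • τ (h *ᵥ c₁) := by
    rw [tc₁, Matrix.mulVec_neg, ha₂, hc₁, hadd, hsmul, hsmul, ty₁, ty₂]
    simp only [smul_add, smul_neg, smul_smul]
    have e1 : s * Δ * (σ α' * s) = Δ * σ α' := by linear_combination (Δ * σ α') * hs
    have e2 : s * Δ * (σ γ' * s) = Δ * σ γ' := by linear_combination (Δ * σ γ') * hs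
    rw [e1, e2, k1, k2]
    module
  have b4 : h *ᵥ τ c₂ = (s * Δ) • τ (h *ᵥ c₂) := by
    rw [tc₂, ha₁, hc₂, hadd, hsmul, hsmul, ty₁, ty₂]
    simp only [smul_add, smul_neg, smul_smul]
    have e1 : s * Δ * (σ β' * s) = Δ * σ β' := by linear_combination (Δ * σ β') * hs
    have e2 : s * Δ * (σ δ' * s) = Δ * σ δ' := by linear_combination (Δ * σ δ') * hs
    rw [e1, e2, k3, k4]
    module
  obtain ⟨r₁, r₂, r₃, r₄, rfl⟩ := hexp v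
  simp only [hadd, hsmul, Matrix.mulVec_add, Matrix.mulVec_smul, b1, b2, b3, b4]
  module

/-- expansions with respect to a dual pair -/
theorem dualPair_coord (hS : Sesq (σ : F →+* F) f) (h : DualPair f a₁ a₂ c₁ c₂) (x y r t : F) :
    f (x • a₁ + y • a₂ + r • c₁ + t • c₂) c₁ = x ∧ f (x • a₁ + y • a₂ + r • c₁ + t • c₂) c₂ = y ∧
    f (x • a₁ + y • a₂ + r • c₁ + t • c₂) a₁ = r ∧ f (x • a₁ + y • a₂ + r • c₁ + t • c₂) a₂ = t := by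
  simp only [hS.add_left, hS.smul_left, h.ac₁₁, h.ac₁₂, h.ac₂₁, h.ac₂₂, h.cc₁₁, h.cc₁₂, h.cc₂₁, h.cc₂₂, h.aa₁₁, h.aa₁₂, h.aa₂₁, h.aa₂₂,
    h.ca₁₁, h.ca₁₂, h.ca₂₁, h.ca₂₂]
  simp

/-- Dual bases of a totally singular pair for a hermitian form. -/
theorem unitary_pair_basis [Fintype F] (hU : IsUnitaryForm σ f) {D : Fin 2 → Submodule F (Fin 4 → F)}
    (hD : IsMDecomposition 2 D) (hts : ∀ i, IsTotallySingularFor f (D i)) :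
    ∃ a₁ a₂ c₁ c₂ : Fin 4 → F, a₁ ∈ D 0 ∧ a₂ ∈ D 0 ∧ c₁ ∈ D 1 ∧ c₂ ∈ D 1 ∧ DualPair f a₁ a₂ c₁ c₂ ∧
      (∀ w ∈ D 0, ∃ x y : F, w = x • a₁ + y • a₂) ∧ (∀ w ∈ D 1, ∃ x y : F, w = x • c₁ + y • c₂) ∧
      (∀ v : Fin 4 → F, v = f v c₁ • a₁ + f v c₂ • a₂ + f v a₁ • c₁ + f v a₂ • c₂) := by
  classical
  have hS := sesq_of_unitary hU
  obtain ⟨a₁, a₂, h1, h2, hexp⟩ := plane_basis (hD.finrank_eq 0)
  have hsup : ∀ z : Fin 4 → F, ∃ u ∈ D 0, ∃ v ∈ D 1, z = u + v := by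
    intro z
    have hz : z ∈ ⨆ i, D i := by
      rw [hD.iSup_eq_top]
      exact Submodule.mem_top
    have hsup2 : (⨆ i, D i) = D 0 ⊔ D 1 := le_antisymm
      (iSup_le fun i => by fin_cases i; exacts [le_sup_left, le_sup_right]) (sup_le (le_iSup D 0) (le_iSup D 1))
    rw [hsup2] at hz
    obtain ⟨u, hu, v, hv, rfl⟩ := Submodule.mem_sup.mp hz
    exact ⟨u, hu, v, hv, rfl⟩
  let Φ : D 1 →ₗ[F] (Fin 2 → F) :=
    { toFun := fun y => ![f y a₁, f y a₂]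
      map_add' := fun x y => by
        ext i
        fin_cases i
        · simp [hS.add_left]
        · simp [hS.add_left]
      map_smul' := fun c x => by
        ext i
        fin_cases i
        · simp [hS.smul_left]
        · simp [hS.smul_left] }
  have hinj : Function.Injective Φ := by
    rw [← LinearMap.ker_eq_bot, LinearMap.ker_eq_bot']
    rintro ⟨y, hy⟩ hΦ
    have h3 : f y a₁ = 0 := congrFun hΦ 0
    have h4 : f y a₂ = 0 := congrFun hΦ 1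
    apply Subtype.ext
    by_contra h0
    obtain ⟨z, hz⟩ := (hU.nondegenerate y h0).2
    obtain ⟨u, hu, v, hv, rfl⟩ := hsup z
    apply hz
    obtain ⟨s, r, rfl⟩ := hexp u hu
    rw [hS.add_right, hS.add_right, hS.smul_right, hS.smul_right, h3, h4, hts 1 y hy v hv]
    simp
  have hsurj : Function.Surjective Φ := by
    apply (LinearMap.injective_iff_surjective_of_finrank_eq_finrank (by simp [hD.finrank_eq 1])).mp hinj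
  obtain ⟨c₁, hc₁⟩ := hsurj ![1, 0]
  obtain ⟨c₂, hc₂⟩ := hsurj ![0, 1]
  have e11 : f c₁ a₁ = 1 := congrFun hc₁ 0
  have e21 : f c₁ a₂ = 0 := congrFun hc₁ 1
  have e12 : f c₂ a₁ = 0 := congrFun hc₂ 0
  have e22 : f c₂ a₂ = 1 := congrFun hc₂ 1
  have hP : DualPair f a₁ a₂ c₁ c₂ := by
    refine ⟨hts 0 _ h1 _ h1, hts 0 _ h1 _ h2, hts 0 _ h2 _ h1, hts 0 _ h2 _ h2, hts 1 _ c₁.2 _ c₁.2, hts 1 _ c₁.2 _ c₂.2, hts 1 _ c₂.2 _ c₁.2,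
      hts 1 _ c₂.2 _ c₂.2, ?_, ?_, ?_, ?_, e11, e21, e12, e22⟩
    · rw [hU.herm, e11, map_one]
    · rw [hU.herm, e12, map_zero]
    · rw [hU.herm, e21, map_zero]
    · rw [hU.herm, e22, map_one]
  have hexpc : ∀ w ∈ D 1, ∃ x y : F, w = x • (c₁ : Fin 4 → F) + y • (c₂ : Fin 4 → F) := by
    intro w hw
    refine ⟨f w a₁, f w a₂, ?_⟩
    have h5 : Φ ⟨w, hw⟩ = Φ ((f w a₁) • c₁ + (f w a₂) • c₂) := by
      rw [map_add, map_smul, map_smul, hc₁, hc₂]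
      ext i
      fin_cases i
      · simp [Φ]
      · simp [Φ]
    have h6 := hinj h5
    have h7 := congrArg Subtype.val h6
    simpa using h7
  refine ⟨a₁, a₂, c₁, c₂, h1, h2, c₁.2, c₂.2, hP, hexp, hexpc, fun v => ?_⟩
  obtain ⟨u, hu, w, hw, rfl⟩ := hsup v
  obtain ⟨x, y, rfl⟩ := hexp u hu
  obtain ⟨r, t, rfl⟩ := hexpc w hw
  have e0 : x • a₁ + y • a₂ + (r • (c₁ : Fin 4 → F) + t • (c₂ : Fin 4 → F)) = x • a₁ + y • a₂ + r • (c₁ : Fin 4 → F) + t • (c₂ : Fin 4 → F) := by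
    abel
  rw [e0]
  obtain ⟨k1, k2, k3, k4⟩ := dualPair_coord hS hP x y r t
  rw [k1, k2, k3, k4]

/-- the matrix with given columns -/
def frameM (a₁ a₂ c₁ c₂ : Fin 4 → F) : Matrix (Fin 4) (Fin 4) F := Matrix.of fun i j => (![a₁, a₂, c₁, c₂] : Fin 4 → Fin 4 → F) j i

theorem frameM_mulVec (x : Fin 4 → F) : frameM a₁ a₂ c₁ c₂ *ᵥ x = x 0 • a₁ + x 1 • a₂ + x 2 • c₁ + x 3 • c₂ := by
  funext i
  simp [frameM, Matrix.mulVec, dotProduct, Fin.sum_univ_four]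
  ring

theorem frameM_isUnit (hS : Sesq (σ : F →+* F) f) (h : DualPair f a₁ a₂ c₁ c₂) : IsUnit (frameM a₁ a₂ c₁ c₂) := by
  rw [← Matrix.mulVec_injective_iff_isUnit]
  intro x y hxy
  have hxy' : frameM a₁ a₂ c₁ c₂ *ᵥ x = frameM a₁ a₂ c₁ c₂ *ᵥ y := hxy
  rw [frameM_mulVec, frameM_mulVec] at hxy'
  obtain ⟨k1, k2, k3, k4⟩ := dualPair_coord hS h (x 0) (x 1) (x 2) (x 3)
  obtain ⟨l1, l2, l3, l4⟩ := dualPair_coord hS h (y 0) (y 1) (y 2) (y 3)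
  rw [hxy'] at k1 k2 k3 k4
  funext i
  fin_cases i
  · exact k1.symm.trans l1
  · exact k2.symm.trans l2
  · exact k3.symm.trans l3
  · exact k4.symm.trans l4

theorem det_of_frame (hu : IsUnit (frameM a₁ a₂ c₁ c₂)) {h M : Matrix (Fin 4) (Fin 4) F}
    (h0 : h *ᵥ a₁ = M 0 0 • a₁ + M 1 0 • a₂ + M 2 0 • c₁ + M 3 0 • c₂)
    (h1 : h *ᵥ a₂ = M 0 1 • a₁ + M 1 1 • a₂ + M 2 1 • c₁ + M 3 1 • c₂)
    (h2 : h *ᵥ c₁ = M 0 2 • a₁ + M 1 2 • a₂ + M 2 2 • c₁ + M 3 2 • c₂)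
    (h3 : h *ᵥ c₂ = M 0 3 • a₁ + M 1 3 • a₂ + M 2 3 • c₁ + M 3 3 • c₂) : h.det = M.det := by
  have e : h * frameM a₁ a₂ c₁ c₂ = frameM a₁ a₂ c₁ c₂ * M := by
    apply gl_ext_basis (Pi.basisFun F (Fin 4))
    intro j
    rw [← Matrix.mulVec_mulVec, ← Matrix.mulVec_mulVec, frameM_mulVec, frameM_mulVec]
    fin_cases j
    · simpa [Pi.single_apply, Matrix.mulVec, dotProduct, Fin.sum_univ_four] using h0
    · simpa [Pi.single_apply, Matrix.mulVec, dotProduct, Fin.sum_univ_four] using h1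
    · simpa [Pi.single_apply, Matrix.mulVec, dotProduct, Fin.sum_univ_four] using h2
    · simpa [Pi.single_apply, Matrix.mulVec, dotProduct, Fin.sum_univ_four] using h3
  have e2 := congrArg Matrix.det e
  rw [Matrix.det_mul, Matrix.det_mul, mul_comm] at e2
  have hd : (frameM a₁ a₂ c₁ c₂).det ≠ 0 := ((Matrix.isUnit_iff_isUnit_det _).mp hu).ne_zero
  exact mul_left_cancel₀ hd e2

theorem det_block₁ (α β γ δ α' β' γ' δ' : F) :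
    (!![α, β, 0, 0; γ, δ, 0, 0; 0, 0, α', β'; 0, 0, γ', δ'] : Matrix (Fin 4) (Fin 4) F).det = (α * δ - β * γ) * (α' * δ' - β' * γ') := by
  simp [Matrix.det_succ_row_zero, Fin.sum_univ_succ, Fin.succAbove]
  ring

theorem det_block₂ (α β γ δ α' β' γ' δ' : F) :
    (!![0, 0, α', β'; 0, 0, γ', δ'; α, β, 0, 0; γ, δ, 0, 0] : Matrix (Fin 4) (Fin 4) F).det = (α * δ - β * γ) * (α' * δ' - β' * γ') := by
  simp [Matrix.det_succ_row_zero, Fin.sum_univ_succ, Fin.succAbove]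
  ring

theorem det_rat (a b : F) :
    (!![1, 0, a, 0; 0, 1, 0, a; 0, -1, 0, -b; 1, 0, b, 0] : Matrix (Fin 4) (Fin 4) F).det = (b - a) ^ 2 := by
  simp [Matrix.det_succ_row_zero, Fin.sum_univ_succ, Fin.succAbove]
  ring

section main

variable [Fintype F] {q : ℕ}

/-- norm-one elements over the prime field -/
theorem sq_of_fixed (hq23 : q = 2 ∨ q = 3) (hq : ∀ x, σ x = x ^ q) {Δ : F} (h0 : Δ ≠ 0) (hfix : σ Δ = Δ) : Δ * Δ = 1 := by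
  rw [hq] at hfix
  rcases hq23 with rfl | rfl
  · have h1 : Δ = 1 := by
      have h2 : Δ * Δ = Δ * 1 := by
        rw [mul_one]
        calc Δ * Δ = Δ ^ 2 := by ring
          _ = Δ := hfix
      exact mul_left_cancel₀ h0 h2
    rw [h1, one_mul]
  · have h2 : Δ * (Δ * Δ) = Δ * 1 := by
      rw [mul_one]
      calc Δ * (Δ * Δ) = Δ ^ 3 := by ring
        _ = Δ := hfix
    exact mul_left_cancel₀ h0 h2

theorem Su.conj_core (C : SUCtx σ q f) (hq23 : q = 2 ∨ q = 3) (hX : DualPair f x₁ x₂ y₁ y₂) {τ : (Fin 4 → F) → (Fin 4 → F)}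
    (hadd : ∀ x y, τ (x + y) = τ x + τ y) (hsmul : ∀ (c : F) x, τ (c • x) = σ c • τ x) {s : F} (hs : s * s = 1) (hsσ : σ s = s)
    (ta₁ : τ a₁ = c₂) (ta₂ : τ a₂ = -c₁) (tc₁ : τ c₁ = -a₂) (tc₂ : τ c₂ = a₁)
    (tx₁ : τ x₁ = s • y₂) (tx₂ : τ x₂ = -(s • y₁)) (ty₁ : τ y₁ = -(s • x₂)) (ty₂ : τ y₂ = s • x₁)
    (hexp : ∀ v : Fin 4 → F, ∃ r₁ r₂ r₃ r₄ : F, v = r₁ • a₁ + r₂ • a₂ + r₃ • c₁ + r₄ • c₂)
    (hP : DualPair f a₁ a₂ c₁ c₂)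
    {h : Matrix (Fin 4) (Fin 4) F} (hiso : ∀ u v, f (h *ᵥ u) (h *ᵥ v) = f u v) {α β γ δ α' β' γ' δ' : F}
    (ha₁ : h *ᵥ a₁ = α • x₁ + γ • x₂) (ha₂ : h *ᵥ a₂ = β • x₁ + δ • x₂)
    (hc₁ : h *ᵥ c₁ = α' • y₁ + γ' • y₂) (hc₂ : h *ᵥ c₂ = β' • y₁ + δ' • y₂)
    (hdet : (α * δ - β * γ) * (α' * δ' - β' * γ') = 1) :
    ∃ ε : F, ε * σ ε = 1 ∧ ∀ v, h *ᵥ τ v = ε • τ (h *ᵥ v) := by
  have hU := C.unitary
  have hS := sesq_of_unitary hU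
  have hinv := hU.involutive
  have E1 : α * σ α' + γ * σ γ' = 1 := by
    rw [← dualPair_pair hS hX, ← ha₁, ← hc₁, hiso, hP.ac₁₁]
  have E2 : α * σ β' + γ * σ δ' = 0 := by
    rw [← dualPair_pair hS hX, ← ha₁, ← hc₂, hiso, hP.ac₁₂]
  have E3 : β * σ α' + δ * σ γ' = 0 := by
    rw [← dualPair_pair hS hX, ← ha₂, ← hc₁, hiso, hP.ac₂₁]
  have E4 : β * σ β' + δ * σ δ' = 1 := by
    rw [← dualPair_pair hS hX, ← ha₂, ← hc₂, hiso, hP.ac₂₂]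
  obtain ⟨hfix, k1, k2, k3, k4⟩ := coef_key hinv E1 E2 E3 E4 hdet
  have h0 : α * δ - β * γ ≠ 0 := by
    intro h1
    rw [h1, zero_mul] at hdet
    exact zero_ne_one hdet
  have h2 := sq_of_fixed hq23 C.pow h0 hfix
  refine ⟨s * (α * δ - β * γ), ?_, fun v => ?_⟩
  · rw [map_mul, hsσ, hfix]
    linear_combination (α * δ - β * γ) * (α * δ - β * γ) * hs + h2
  · exact conj_tau hinv hadd hsmul hs ta₁ ta₂ tc₁ tc₂ tx₁ tx₂ ty₁ ty₂ hexp ha₁ ha₂ hc₁ hc₂ hfix h2 k1 k2 k3 k4 v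

set_option maxRecDepth 100000 in
theorem perm_two_cases : ∀ π : Equiv.Perm (Fin 2), (π 0 = 0 ∧ π 1 = 1) ∨ (π 0 = 1 ∧ π 1 = 0) := by decide

/-- The elements of the stabiliser commute with the involution up to a scalar. -/
theorem Su.stab_conj (C : SUCtx σ q f) (hq23 : q = 2 ∨ q = 3) (hP : DualPair f a₁ a₂ c₁ c₂) {D : Fin 2 → Submodule F (Fin 4 → F)}
    (h1 : a₁ ∈ D 0) (h2 : a₂ ∈ D 0) (h3 : c₁ ∈ D 1) (h4 : c₂ ∈ D 1)
    (hexpa : ∀ w ∈ D 0, ∃ x y : F, w = x • a₁ + y • a₂) (hexpc : ∀ w ∈ D 1, ∃ x y : F, w = x • c₁ + y • c₂)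
    (hexp : ∀ v : Fin 4 → F, v = f v c₁ • a₁ + f v c₂ • a₂ + f v a₁ • c₁ + f v a₂ • c₂)
    {h : GL (Fin 4) F} (hiso : ∀ u v, f ((h : Matrix (Fin 4) (Fin 4) F) *ᵥ u) ((h : Matrix (Fin 4) (Fin 4) F) *ᵥ v) = f u v)
    (hdet : (h : Matrix (Fin 4) (Fin 4) F).det = 1) (hstab : h ∈ decompositionStabilizer D) :
    ∃ ε : F, ε * σ ε = 1 ∧ ∀ v, (h : Matrix (Fin 4) (Fin 4) F) *ᵥ tauOf σ f a₁ a₂ c₁ c₂ v = ε • tauOf σ f a₁ a₂ c₁ c₂ ((h : Matrix (Fin 4) (Fin 4) F) *ᵥ v) := by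
  classical
  have hU := C.unitary
  have hS := sesq_of_unitary hU
  obtain ⟨π, hπ⟩ := hstab
  have hmem : ∀ i, ∀ x ∈ D i, (h : Matrix (Fin 4) (Fin 4) F) *ᵥ x ∈ D (π i) := by
    intro i x hx
    rw [← hπ i]
    exact ⟨x, hx, by simp [Matrix.toLin'_apply]⟩
  have hexp' : ∀ v : Fin 4 → F, ∃ r₁ r₂ r₃ r₄ : F, v = r₁ • a₁ + r₂ • a₂ + r₃ • c₁ + r₄ • c₂ := fun v => ⟨_, _, _, _, hexp v⟩
  have hadd := tauOf_add (a₁ := a₁) (a₂ := a₂) (c₁ := c₁) (c₂ := c₂) hS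
  have hsmul := tauOf_smul (a₁ := a₁) (a₂ := a₂) (c₁ := c₁) (c₂ := c₂) hS
  have hu := frameM_isUnit hS hP
  rcases perm_two_cases π with ⟨e0, e1⟩ | ⟨e0, e1⟩
  · obtain ⟨α, γ, ha₁⟩ := hexpa _ (e0 ▸ hmem 0 _ h1)
    obtain ⟨β, δ, ha₂⟩ := hexpa _ (e0 ▸ hmem 0 _ h2)
    obtain ⟨α', γ', hc₁⟩ := hexpc _ (e1 ▸ hmem 1 _ h3)
    obtain ⟨β', δ', hc₂⟩ := hexpc _ (e1 ▸ hmem 1 _ h4)
    have hd := det_of_frame (M := !![α, β, 0, 0; γ, δ, 0, 0; 0, 0, α', β'; 0, 0, γ', δ']) hu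
      (by simpa using ha₁) (by simpa using ha₂) (by simpa using hc₁) (by simpa using hc₂)
    rw [det_block₁, hdet] at hd
    exact Su.conj_core C hq23 hP hadd hsmul (s := 1) (by simp) (by simp) (tauOf_a₁ hP) (tauOf_a₂ hP) (tauOf_c₁ hP) (tauOf_c₂ hP)
      (by simpa using tauOf_a₁ hP) (by simpa using tauOf_a₂ hP) (by simpa using tauOf_c₁ hP) (by simpa using tauOf_c₂ hP) hexp' hP hiso ha₁ ha₂ hc₁ hc₂ hd.symm
  · obtain ⟨α, γ, ha₁⟩ := hexpc _ (e0 ▸ hmem 0 _ h1)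
    obtain ⟨β, δ, ha₂⟩ := hexpc _ (e0 ▸ hmem 0 _ h2)
    obtain ⟨α', γ', hc₁⟩ := hexpa _ (e1 ▸ hmem 1 _ h3)
    obtain ⟨β', δ', hc₂⟩ := hexpa _ (e1 ▸ hmem 1 _ h4)
    have hd := det_of_frame (M := !![0, 0, α', β'; 0, 0, γ', δ'; α, β, 0, 0; γ, δ, 0, 0]) hu
      (by simpa using ha₁) (by simpa using ha₂) (by simpa using hc₁) (by simpa using hc₂)
    rw [det_block₂, hdet] at hd
    exact Su.conj_core C hq23 hP.swap hadd hsmul (s := -1) (by simp) (by simp) (tauOf_a₁ hP) (tauOf_a₂ hP) (tauOf_c₁ hP) (tauOf_c₂ hP)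
      (by simpa using tauOf_c₁ hP) (by simpa using tauOf_c₂ hP) (by simpa using tauOf_a₁ hP) (by simpa using tauOf_a₂ hP) hexp' hP hiso ha₁ ha₂ hc₁ hc₂ hd.symm

/-- A basis of fixed vectors of the involution. -/
theorem Su.exists_rational (C : SUCtx σ q f) (hP : DualPair f a₁ a₂ c₁ c₂) :
    ∃ P : GL (Fin 4) F, ∀ u : Fin 4 → F, tauOf σ f a₁ a₂ c₁ c₂ ((P : Matrix (Fin 4) (Fin 4) F) *ᵥ u) = (P : Matrix (Fin 4) (Fin 4) F) *ᵥ fun i => σ (u i) := by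
  classical
  have hU := C.unitary
  have hS := sesq_of_unitary hU
  have hinv := hU.involutive
  obtain ⟨ε₀, hε₀⟩ := C.exists_ne
  obtain ⟨Q, hQ⟩ := frameM_isUnit hS hP
  have hdet : (!![1, 0, ε₀, 0; 0, 1, 0, ε₀; 0, -1, 0, -σ ε₀; 1, 0, σ ε₀, 0] : Matrix (Fin 4) (Fin 4) F).det ≠ 0 := by
    rw [det_rat]
    exact pow_ne_zero _ (sub_ne_zero.mpr hε₀)
  obtain ⟨T, hT⟩ : IsUnit (!![1, 0, ε₀, 0; 0, 1, 0, ε₀; 0, -1, 0, -σ ε₀; 1, 0, σ ε₀, 0] : Matrix (Fin 4) (Fin 4) F) :=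
    (Matrix.isUnit_iff_isUnit_det _).mpr (isUnit_iff_ne_zero.mpr hdet)
  have hval : ∀ u : Fin 4 → F, ((Q * T : GL (Fin 4) F) : Matrix (Fin 4) (Fin 4) F) *ᵥ u =
      (u 0 + ε₀ * u 2) • a₁ + (u 1 + ε₀ * u 3) • a₂ + (- u 1 - σ ε₀ * u 3) • c₁ + (u 0 + σ ε₀ * u 2) • c₂ := by
    intro u
    rw [Units.val_mul, ← Matrix.mulVec_mulVec, hQ, hT, frameM_mulVec]
    simp [Matrix.mulVec, dotProduct, Fin.sum_univ_four]
    ring_nf
  refine ⟨Q * T, fun u => ?_⟩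
  rw [hval, hval]
  simp only [tauOf_add hS, tauOf_smul hS, tauOf_a₁ hP, tauOf_a₂ hP, tauOf_c₁ hP, tauOf_c₂ hP, map_add, map_sub, map_mul, map_neg, hinv]
  module

/-- The stabiliser of a pair of totally singular planes over `F_4` and `F_9` lies in a symplectic subfield subgroup. -/
theorem Su.ts_pair_rational (C : SUCtx σ q f) (hq23 : q = 2 ∨ q = 3) {D : Fin 2 → Submodule F (Fin 4 → F)}
    (hD : IsMDecomposition 2 D) (hts : ∀ i, IsTotallySingularFor f (D i)) {H : Subgroup (GL (Fin 4) F)} (hfix : FFix f H)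
    (hdet : ∀ h ∈ H, (h : Matrix (Fin 4) (Fin 4) F).det = 1) (hle : H ≤ decompositionStabilizer D) :
    ∃ (P : GL (Fin 4) F) (ζ : F), ζ ≠ 0 ∧ ζ + ζ ^ q = 0 ∧ IsFormRationalStructure f (SUCtx.fixF σ) ζ P ∧
      (∀ u : Fin 4 → F, (∀ i, u i ∈ SUCtx.fixF σ) → f ((P : Matrix (Fin 4) (Fin 4) F) *ᵥ u) ((P : Matrix (Fin 4) (Fin 4) F) *ᵥ u) = 0) ∧
      H ≤ subfieldSubgroup (SUCtx.fixF σ) P := by
  classical
  have hU := C.unitary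
  have hS := sesq_of_unitary hU
  have hinv := hU.involutive
  obtain ⟨a₁, a₂, c₁, c₂, h1, h2, h3, h4, hP, hexpa, hexpc, hexp⟩ := unitary_pair_basis hU hD hts
  obtain ⟨P, hPτ⟩ := Su.exists_rational C hP
  obtain ⟨ζ, hζ0, hζ⟩ := C.exists_zeta
  have hfixP : ∀ u : Fin 4 → F, (∀ i, u i ∈ SUCtx.fixF σ) →
      tauOf σ f a₁ a₂ c₁ c₂ ((P : Matrix (Fin 4) (Fin 4) F) *ᵥ u) = (P : Matrix (Fin 4) (Fin 4) F) *ᵥ u := by
    intro u hu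
    rw [hPτ]
    congr 1
    funext i
    exact hu i
  refine ⟨P, ζ, hζ0, ?_, ?_, ?_, ?_⟩
  · rw [← C.pow, hζ]
    ring
  · intro u v hu hv
    rw [SUCtx.mem_fixF, map_mul, hζ]
    have e := tauOf_form hU hP hexp ((P : Matrix (Fin 4) (Fin 4) F) *ᵥ u) ((P : Matrix (Fin 4) (Fin 4) F) *ᵥ v)
    rw [hfixP u hu, hfixP v hv] at e
    linear_combination (-ζ) * e
  · intro u hu
    have := tauOf_self (a₁ := a₁) (a₂ := a₂) (c₁ := c₁) (c₂ := c₂) hU ((P : Matrix (Fin 4) (Fin 4) F) *ᵥ u)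
    rwa [hfixP u hu] at this
  · intro h hh
    obtain ⟨ε, hε, hconj⟩ := Su.stab_conj C hq23 hP h1 h2 h3 h4 hexpa hexpc hexp (hfix h hh) (hdet h hh) (hle hh)
    obtain ⟨z, hz0, hz⟩ := C.hilbert90 hε
    refine ⟨P⁻¹ * h * P, mem_range_sup_scalars hz0 (fun k l => ?_), ?_⟩
    · have hsingle : ∀ i, (Pi.single l (1 : F) : Fin 4 → F) i ∈ SUCtx.fixF σ := by
        intro i
        rw [Pi.single_apply]
        split_ifs
        · exact (SUCtx.fixF σ).one_mem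
        · exact (SUCtx.fixF σ).zero_mem
      obtain ⟨w, hw⟩ : ∃ w, w = (h : Matrix (Fin 4) (Fin 4) F) *ᵥ ((P : Matrix (Fin 4) (Fin 4) F) *ᵥ Pi.single l 1) := ⟨_, rfl⟩
      have hτw : w = ε • tauOf σ f a₁ a₂ c₁ c₂ w := by
        have e1 := hconj ((P : Matrix (Fin 4) (Fin 4) F) *ᵥ Pi.single l 1)
        rw [hfixP _ hsingle, ← hw] at e1
        exact e1
      obtain ⟨u, hu⟩ : ∃ u, u = z • (((P⁻¹ : GL (Fin 4) F) : Matrix (Fin 4) (Fin 4) F) *ᵥ w) := ⟨_, rfl⟩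
      have hPu : (P : Matrix (Fin 4) (Fin 4) F) *ᵥ u = z • w := by
        rw [hu, Matrix.mulVec_smul, gl_mulVec_inv]
      have hfixu : (fun i => σ (u i)) = u := by
        apply gl_mulVec_injective P
        show (P : Matrix (Fin 4) (Fin 4) F) *ᵥ (fun i => σ (u i)) = (P : Matrix (Fin 4) (Fin 4) F) *ᵥ u
        rw [← hPτ, hPu, tauOf_smul hS, hz, mul_comm, mul_smul, ← hτw]
      have hent : (z • ((P⁻¹ * h * P : GL (Fin 4) F) : Matrix (Fin 4) (Fin 4) F)) k l = u k := by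
        rw [hu, hw, Matrix.smul_apply, Pi.smul_apply]
        congr 1
        rw [Matrix.mulVec_mulVec, Matrix.mulVec_mulVec, Matrix.mulVec_single_one]
        rfl
      rw [hent, SUCtx.mem_fixF]
      exact congrFun hfixu k
    · show P * (P⁻¹ * h * P) * P⁻¹ = h
      group

/-- The stabiliser of a pair of totally singular planes over `F_4` and `F_9`, as a maximal subgroup, is a symplectic subfield subgroup. -/
theorem Su.ts_pair_q23 {K : Subgroup (GL (Fin 4) F)} (C : UCtx σ f K) (hq : ∀ x, σ x = x ^ q) (hF : Fintype.card F = q ^ 2)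
    (hq23 : q = 2 ∨ q = 3) (hdet : ∀ g ∈ K, (g : Matrix (Fin 4) (Fin 4) F).det = 1) {H : Subgroup (GL (Fin 4) F)} (hH : IsMaximalIn K H)
    {D : Fin 2 → Submodule F (Fin 4 → F)} (hD : IsMDecomposition 2 D) (hts : ∀ i, IsTotallySingularFor f (D i))
    (hle : H ≤ decompositionStabilizer D) :
    ∃ (F₀ : Subfield F) (P : GL (Fin 4) F) (ζ : F), Fintype.card F = Nat.card F₀ ^ 2 ∧ ζ ≠ 0 ∧ ζ + ζ ^ q = 0 ∧
      IsFormRationalStructure f F₀ ζ P ∧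
      (∀ u : Fin 4 → F, (∀ i, u i ∈ F₀) → f ((P : Matrix (Fin 4) (Fin 4) F) *ᵥ u) ((P : Matrix (Fin 4) (Fin 4) F) *ᵥ u) = 0) ∧
      H = subfieldSubgroup F₀ P ⊓ K := by
  have hC : SUCtx σ q f := ⟨C.unitary, hq, hF⟩
  obtain ⟨P, ζ, h0, h1, h2, h3, h4⟩ := Su.ts_pair_rational hC hq23 hD hts (fun g hg u v => C.fix g (hH.1.le hg) u v)
    (fun g hg => hdet g (hH.1.le hg)) hle
  have hcard := hC.card_eq
  refine ⟨SUCtx.fixF σ, P, ζ, hcard, h0, h1, h2, h3, maximal_eq' hH h4 ?_⟩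
  exact C.not_le_subfield' (by simp) (subfield_ne_top_of_card le_rfl hcard) P

end main

end Cfsg.Agent.H97.Asch
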