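import Cfsg.Agent.Lib.H97K1

/-!
Symplectic groups over the field with three elements in dimension four: stabilisers of totally singular pairs of planes stabilise
decompositions into non-degenerate planes.
-/

set_option autoImplicit false
set_option linter.unusedSectionVars false
set_option linter.style.haveILetI false

namespace Cfsg.Agent.H97.Asch

open Matrix Cfsg Cfsg.Geo
open scoped MatrixGroups commutatorElement Kronecker

variable {ι : Type} [Fintype ι] [DecidableEq ι] {F : Type*} [Field F] [Fintype F]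
  {f : (ι → F) → (ι → F) → F} {K : Subgroup (GL ι F)}

/-- bases of planes -/
theorem plane_basis {W : Submodule F (ι → F)} (hW : Module.finrank F W = 2) :
    ∃ a b : ι → F, a ∈ W ∧ b ∈ W ∧ ∀ w ∈ W, ∃ x y : F, w = x • a + y • b := by
  classical
  let B := Module.finBasisOfFinrankEq F W hW
  refine ⟨B 0, B 1, (B 0).2, (B 1).2, fun w hw => ?_⟩
  refine ⟨B.repr ⟨w, hw⟩ 0, B.repr ⟨w, hw⟩ 1, ?_⟩
  have := congrArg Subtype.val (B.sum_repr ⟨w, hw⟩)
  rw [Fin.sum_univ_two] at this
  simpa using this.symm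

/-- Dual bases of a totally singular pair. -/
theorem ts_pair_basis (C : FCtx (RingHom.id F) (-1) f) (hcard : Fintype.card ι = 4) {D : Fin 2 → Submodule F (ι → F)}
    (hD : IsMDecomposition 2 D) (hts : ∀ i, IsTotallySingularFor f (D i)) :
    ∃ a₁ a₂ c₁ c₂ : ι → F, a₁ ∈ D 0 ∧ a₂ ∈ D 0 ∧ c₁ ∈ D 1 ∧ c₂ ∈ D 1 ∧ f a₁ c₁ = 1 ∧ f a₁ c₂ = 0 ∧ f a₂ c₁ = 0 ∧ f a₂ c₂ = 1 ∧
      (∀ w ∈ D 0, ∃ x y : F, w = x • a₁ + y • a₂) ∧ (∀ w ∈ D 1, ∃ x y : F, w = x • c₁ + y • c₂) := by
  classical
  have hS := C.sesq
  obtain ⟨a₁, a₂, h1, h2, hexp⟩ := plane_basis (hD.finrank_eq 0)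
  have hsup : ∀ z : ι → F, ∃ u ∈ D 0, ∃ v ∈ D 1, z = u + v := by
    intro z
    have hz : z ∈ ⨆ i, D i := by
      rw [hD.iSup_eq_top]
      exact Submodule.mem_top
    have hsup2 : (⨆ i, D i) = D 0 ⊔ D 1 := le_antisymm
      (iSup_le fun i => by fin_cases i; exacts [le_sup_left, le_sup_right]) (sup_le (le_iSup D 0) (le_iSup D 1))
    rw [hsup2] at hz
    obtain ⟨u, hu, v, hv, rfl⟩ := Submodule.mem_sup.mp hz
    exact ⟨u, hu, v, hv, rfl⟩
  let Φ : D 1 →ₗ[F] (Fin 2 → F) :=
    { toFun := fun y => ![f a₁ y, f a₂ y]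
      map_add' := fun x y => by
        ext i
        fin_cases i
        · simp [hS.add_right]
        · simp [hS.add_right]
      map_smul' := fun c x => by
        ext i
        fin_cases i
        · simp [hS.smul_right]
        · simp [hS.smul_right] }
  have hinj : Function.Injective Φ := by
    rw [← LinearMap.ker_eq_bot, LinearMap.ker_eq_bot']
    rintro ⟨y, hy⟩ hΦ
    have h3 : f a₁ y = 0 := congrFun hΦ 0
    have h4 : f a₂ y = 0 := congrFun hΦ 1
    apply Subtype.ext
    by_contra h0
    obtain ⟨z, hz⟩ := C.ndl y h0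
    obtain ⟨u, hu, v, hv, rfl⟩ := hsup z
    apply hz
    obtain ⟨s, r, rfl⟩ := hexp u hu
    rw [hS.add_left, hS.add_left, hS.smul_left, hS.smul_left, h3, h4, hts 1 v hv y hy]
    simp
  have hsurj : Function.Surjective Φ := by
    apply (LinearMap.injective_iff_surjective_of_finrank_eq_finrank (by simp [hD.finrank_eq 1])).mp hinj
  obtain ⟨c₁, hc₁⟩ := hsurj ![1, 0]
  obtain ⟨c₂, hc₂⟩ := hsurj ![0, 1]
  have e11 : f a₁ c₁ = 1 := congrFun hc₁ 0
  have e21 : f a₂ c₁ = 0 := congrFun hc₁ 1
  have e12 : f a₁ c₂ = 0 := congrFun hc₂ 0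
  have e22 : f a₂ c₂ = 1 := congrFun hc₂ 1
  refine ⟨a₁, a₂, c₁, c₂, h1, h2, c₁.2, c₂.2, e11, e12, e21, e22, hexp, fun w hw => ?_⟩
  refine ⟨f a₁ w, f a₂ w, ?_⟩
  have h5 : Φ ⟨w, hw⟩ = Φ ((f a₁ w) • c₁ + (f a₂ w) • c₂) := by
    rw [map_add, map_smul, map_smul, hc₁, hc₂]
    ext i
    fin_cases i
    · simp [Φ]
    · simp [Φ]
  have h6 := hinj h5
  have h7 := congrArg Subtype.val h6
  simpa using h7

/-- At the field with three elements, a pair of totally singular planes gives a decomposition into non-degenerate planes. -/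
theorem ts_pair_three (C : FCtx (RingHom.id F) (-1) f) (halt : ∀ v, f v v = 0) (hq : Fintype.card F = 3) (hcard : Fintype.card ι = 4)
    {D : Fin 2 → Submodule F (ι → F)} (hD : IsMDecomposition 2 D) (hts : ∀ i, IsTotallySingularFor f (D i))
    {H : Subgroup (GL ι F)} (hfix : FFix f H) (hle : H ≤ decompositionStabilizer D) :
    ∃ D' : Fin 2 → Submodule F (ι → F), IsNondegenerateMDecomposition f 2 D' ∧ H ≤ decompositionStabilizer D' := by
  classical
  have hS := C.sesq
  have h30 : (3 : F) = 0 := f3_three hq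
  have h2 : (2 : F) ≠ 0 := by
    intro h
    have : (1 : F) = 0 := by linear_combination h30 - h
    exact one_ne_zero this
  have hsk : ∀ x y, f x y = - f y x := fun x y => by
    have := C.herm x y
    simpa using this
  obtain ⟨a₁, a₂, c₁, c₂, ha₁, ha₂, hc₁, hc₂, e11, e12, e21, e22, hexp₀, hexp₁⟩ := ts_pair_basis C hcard hD hts
  have t00 : f a₁ a₂ = 0 := hts 0 _ ha₁ _ ha₂
  have t00' : f a₂ a₁ = 0 := hts 0 _ ha₂ _ ha₁
  have t11 : f c₁ c₂ = 0 := hts 1 _ hc₁ _ hc₂
  have t11' : f c₂ c₁ = 0 := hts 1 _ hc₂ _ hc₁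
  have b11 : f c₁ a₁ = -1 := by rw [hsk, e11]
  have b12 : f c₂ a₁ = 0 := by rw [hsk, e12, neg_zero]
  have b21 : f c₁ a₂ = 0 := by rw [hsk, e21, neg_zero]
  have b22 : f c₂ a₂ = -1 := by rw [hsk, e22]
  -- the two planes
  let p : F → (ι → F) := fun s => a₁ + s • c₂
  let r : F → (ι → F) := fun s => a₂ - s • c₁
  let U : F → Submodule F (ι → F) := fun s => Submodule.span F {p s, r s}
  have hpp : ∀ s s', f (p s) (p s') = 0 := by
    intro s s'
    simp only [p, hS.add_left, hS.add_right, hS.smul_left, hS.smul_right, halt, e12, b12, RingHom.id_apply]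
    ring
  have hrr : ∀ s s', f (r s) (r s') = 0 := by
    intro s s'
    simp only [r, hS.sub_left, C.sub_right, hS.smul_left, hS.smul_right, halt, e21, b21, RingHom.id_apply]
    ring
  have hpr : ∀ s s', f (p s) (r s') = - s' - s := by
    intro s s'
    simp only [p, r, hS.add_left, C.sub_right, hS.smul_left, hS.smul_right, t00, e11, t11', b22, RingHom.id_apply]
    ring
  have hrp : ∀ s s', f (r s) (p s') = s' + s := by
    intro s s'
    simp only [p, r, hS.sub_left, hS.add_right, hS.smul_left, hS.smul_right, t00', e22, t11, b11, RingHom.id_apply]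
    ring
  have hUexp : ∀ s, ∀ z ∈ U s, ∃ x y : F, z = x • p s + y • r s := by
    intro s z hz
    obtain ⟨x, y, rfl⟩ := Submodule.mem_span_pair.mp hz
    exact ⟨x, y, rfl⟩
  have hpU : ∀ s, p s ∈ U s := fun s => Submodule.subset_span (by simp)
  have hrU : ∀ s, r s ∈ U s := fun s => Submodule.subset_span (by simp)
  have hne1 : (1 : F) ≠ -1 := by
    intro h
    apply h2
    linear_combination h
  -- nondegeneracy for `s ≠ 0`
  have hUnd : ∀ s : F, s ≠ 0 → IsNondegenerateOn f (U s) := by
    intro s hs w hw hw0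
    obtain ⟨x, y, rfl⟩ := hUexp s w hw
    have h2s : - s - s ≠ 0 := by
      intro h
      apply mul_ne_zero h2 hs
      linear_combination -h
    have h2s' : s + s ≠ 0 := by
      intro h
      apply mul_ne_zero h2 hs
      linear_combination h
    by_cases hx : x = 0
    · have hy : y ≠ 0 := by
        rintro rfl
        apply hw0
        rw [hx]
        simp
      refine ⟨⟨p s, hpU s, ?_⟩, ⟨p s, hpU s, ?_⟩⟩
      · rw [hS.add_right, hS.smul_right, hS.smul_right, hx, hpr]
        simp only [RingHom.id_apply, zero_mul, zero_add]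
        exact mul_ne_zero hy h2s
      · rw [hS.add_left, hS.smul_left, hS.smul_left, hx, hrp]
        simp only [zero_mul, zero_add]
        exact mul_ne_zero hy h2s'
    · refine ⟨⟨r s, hrU s, ?_⟩, ⟨r s, hrU s, ?_⟩⟩
      · rw [hS.add_right, hS.smul_right, hS.smul_right, hrp, hrr]
        simp only [RingHom.id_apply, mul_zero, add_zero]
        exact mul_ne_zero hx h2s'
      · rw [hS.add_left, hS.smul_left, hS.smul_left, hpr, hrr]
        simp only [mul_zero, add_zero]
        exact mul_ne_zero hx h2s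
  have hUfin : ∀ s : F, s ≠ 0 → Module.finrank F (U s) = 2 := by
    intro s hs
    have hind : LinearIndependent F ![p s, r s] := by
      rw [LinearIndependent.pair_iff]
      intro x y hxy
      have h3 := congrArg (fun z => f z (r s)) hxy
      have h4 := congrArg (fun z => f z (p s)) hxy
      simp only [hS.add_left, hS.smul_left, hpr, hrr, hrp, hpp, hS.zero_left, mul_zero, add_zero, zero_add] at h3 h4
      have h2s : - s - s ≠ 0 := by
        intro h
        apply mul_ne_zero h2 hs
        linear_combination -h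
      have h2s' : s + s ≠ 0 := by
        intro h
        apply mul_ne_zero h2 hs
        linear_combination h
      exact ⟨(mul_eq_zero.mp h3).resolve_right h2s, (mul_eq_zero.mp h4).resolve_right h2s'⟩
    have h1 := finrank_span_eq_card hind
    rw [Matrix.range_cons, Matrix.range_cons, Matrix.range_empty, Set.union_empty, Fintype.card_fin] at h1
    exact h1
  have hUorth : ∀ u ∈ U 1, ∀ v ∈ U (-1), f u v = 0 := by
    intro u hu v hv
    obtain ⟨x, y, rfl⟩ := hUexp 1 u hu
    obtain ⟨x', y', rfl⟩ := hUexp (-1) v hv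
    simp only [hS.add_left, hS.add_right, hS.smul_left, hS.smul_right, hpp, hrr, hpr, hrp, RingHom.id_apply]
    ring
  have hUorth' : ∀ u ∈ U (-1), ∀ v ∈ U 1, f u v = 0 := by
    intro u hu v hv
    rw [hsk, hUorth v hv u hu, neg_zero]
  have hdisj : U 1 ⊓ U (-1) = ⊥ := by
    rw [eq_bot_iff]
    rintro z ⟨hz1, hz2⟩
    rw [Submodule.mem_bot]
    by_contra h0
    obtain ⟨⟨x, hx, hx0⟩, -⟩ := hUnd 1 one_ne_zero z hz1 h0
    exact hx0 (hUorth x hx z hz2)
  have hf1 := hUfin 1 one_ne_zero
  have hf2 := hUfin (-1) (neg_ne_zero.mpr one_ne_zero)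
  have hsupU : U 1 ⊔ U (-1) = ⊤ := by
    apply Submodule.eq_top_of_finrank_eq
    have h1 := Submodule.finrank_sup_add_finrank_inf_eq (U 1) (U (-1))
    rw [hdisj, finrank_bot, hf1, hf2] at h1
    simp only [Module.finrank_fintype_fun_eq_card]
    omega
  -- values in the field with three elements
  have hunit : ∀ x : F, x ≠ 0 → x = 1 ∨ x = -1 := by
    intro x hx
    have h3 : (x - 1) * (x + 1) = 0 := by
      have := f3_sq hq hx
      linear_combination this
    rcases mul_eq_zero.mp h3 with h4 | h4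
    · left
      exact sub_eq_zero.mp h4
    · right
      exact eq_neg_of_add_eq_zero_left h4
  have hstab : ∀ g ∈ H, ∀ Δ : F, Δ ≠ 0 → (∀ s : F, s ≠ 0 → ∀ z ∈ U s, (g : Matrix ι ι F) *ᵥ z ∈ U (s * Δ)) →
      g ∈ decompositionStabilizer ![U 1, U (-1)] := by
    intro g hg Δ hΔ hact
    have hn1 : (-1 : F) ≠ 0 := neg_ne_zero.mpr one_ne_zero
    have key : ∀ s s' : F, s ≠ 0 → s' ≠ 0 → (∀ z ∈ U s, (g : Matrix ι ι F) *ᵥ z ∈ U s') →
        (U s).map (Matrix.toLin' (g : Matrix ι ι F)) = U s' := fun s s' hs hs' h =>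
      map_eq_of_le (by rw [hUfin s hs, hUfin s' hs']) h
    rcases hunit Δ hΔ with rfl | rfl
    · refine ⟨1, fun i => ?_⟩
      fin_cases i
      · exact key 1 1 one_ne_zero one_ne_zero (fun z hz => by simpa using hact 1 one_ne_zero z hz)
      · exact key (-1) (-1) hn1 hn1 (fun z hz => by simpa using hact (-1) hn1 z hz)
    · refine ⟨Equiv.swap 0 1, fun i => ?_⟩
      fin_cases i
      · exact key 1 (-1) one_ne_zero hn1 (fun z hz => by simpa using hact 1 one_ne_zero z hz)
      · exact key (-1) 1 hn1 one_ne_zero (fun z hz => by simpa using hact (-1) hn1 z hz)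
  refine ⟨![U 1, U (-1)], ⟨two_mdecomp (by norm_num) hf1 hf2 hdisj hsupU, ?_, ?_⟩, fun g hg => ?_⟩
  · intro i
    fin_cases i
    · exact hUnd 1 one_ne_zero
    · exact hUnd (-1) (neg_ne_zero.mpr one_ne_zero)
  · intro i j hij
    fin_cases i <;> fin_cases j
    · exact absurd rfl hij
    · exact hUorth
    · exact hUorth'
    · exact absurd rfl hij
  · -- the action
    obtain ⟨π, hπ⟩ := hle hg
    have hmem : ∀ i, ∀ z ∈ D i, (g : Matrix ι ι F) *ᵥ z ∈ D (π i) := by
      intro i z hz
      rw [← hπ]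
      exact ⟨z, hz, rfl⟩
    have hinv : ∀ s : F, s ≠ 0 → s * s = 1 := fun s hs => by
      have := f3_sq hq hs
      linear_combination this
    have hπ0 : π 1 ≠ π 0 := by
      intro h
      exact absurd (π.injective h) (by decide)
    by_cases hcase : π 0 = 0
    · have hcase1 : π 1 = 1 := by
        have h3 : π 1 ≠ 0 := by rw [← hcase]; exact hπ0
        omega
      obtain ⟨α, γ, hA1⟩ := hexp₀ _ (hcase ▸ hmem 0 a₁ ha₁)
      obtain ⟨β, δ, hA2⟩ := hexp₀ _ (hcase ▸ hmem 0 a₂ ha₂)
      obtain ⟨α', γ', hC1⟩ := hexp₁ _ (hcase1 ▸ hmem 1 c₁ hc₁)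
      obtain ⟨β', δ', hC2⟩ := hexp₁ _ (hcase1 ▸ hmem 1 c₂ hc₂)
      have r11 := hfix g hg a₁ c₁
      have r12 := hfix g hg a₁ c₂
      have r21 := hfix g hg a₂ c₁
      have r22 := hfix g hg a₂ c₂
      rw [hA1, hC1, e11] at r11
      rw [hA1, hC2, e12] at r12
      rw [hA2, hC1, e21] at r21
      rw [hA2, hC2, e22] at r22
      simp only [hS.add_left, hS.add_right, hS.smul_left, hS.smul_right, e11, e12, e21, e22, RingHom.id_apply, mul_one, mul_zero, add_zero, zero_add] at r11 r12 r21 r22
      set Δ := α * δ - β * γ with hΔd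
      have i1 : Δ * α' = δ := by rw [hΔd]; linear_combination δ * r11 - γ * r21
      have i2 : Δ * β' = -γ := by rw [hΔd]; linear_combination δ * r12 - γ * r22
      have i3 : Δ * γ' = -β := by rw [hΔd]; linear_combination α * r21 - β * r11
      have i4 : Δ * δ' = α := by rw [hΔd]; linear_combination α * r22 - β * r12
      have hΔ : Δ ≠ 0 := by
        intro h0
        rw [h0, zero_mul] at i1 i2 i3 i4
        have h9 : α = 0 := i4.symm
        have h10 : γ = 0 := by linear_combination i2
        rw [h9, h10] at r11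
        simp at r11
      have hΔinv := hinv Δ hΔ
      refine hstab g hg Δ hΔ fun s hs z hz => ?_
      obtain ⟨x, y, rfl⟩ := hUexp s z hz
      rw [Matrix.mulVec_add, Matrix.mulVec_smul, Matrix.mulVec_smul]
      refine Submodule.add_mem _ (Submodule.smul_mem _ _ ?_) (Submodule.smul_mem _ _ ?_)
      · have e1 : (g : Matrix ι ι F) *ᵥ p s = α • p (s * Δ) + γ • r (s * Δ) := by
          simp only [p, r]
          rw [Matrix.mulVec_add, Matrix.mulVec_smul, hA1, hC2]
          ext k
          simp only [Pi.add_apply, Pi.smul_apply, Pi.sub_apply, smul_eq_mul]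
          have e2 : s * β' = - (γ * (s * Δ)) := by
            have : β' = Δ * (Δ * β') := by linear_combination (-β') * hΔinv
            rw [this, i2]
            ring
          have e3 : s * δ' = α * (s * Δ) := by
            have : δ' = Δ * (Δ * δ') := by linear_combination (-δ') * hΔinv
            rw [this, i4]
            ring
          linear_combination (c₁ k) * e2 + (c₂ k) * e3
        rw [e1]
        exact Submodule.add_mem _ (Submodule.smul_mem _ _ (hpU _)) (Submodule.smul_mem _ _ (hrU _))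
      · have e1 : (g : Matrix ι ι F) *ᵥ r s = β • p (s * Δ) + δ • r (s * Δ) := by
          simp only [p, r]
          rw [sub_eq_add_neg, Matrix.mulVec_add, Matrix.mulVec_neg, Matrix.mulVec_smul, hA2, hC1]
          ext k
          simp only [Pi.add_apply, Pi.neg_apply, Pi.smul_apply, Pi.sub_apply, smul_eq_mul]
          have e2 : s * α' = δ * (s * Δ) := by
            have : α' = Δ * (Δ * α') := by linear_combination (-α') * hΔinv
            rw [this, i1]
            ring
          have e3 : s * γ' = - (β * (s * Δ)) := by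
            have : γ' = Δ * (Δ * γ') := by linear_combination (-γ') * hΔinv
            rw [this, i3]
            ring
          linear_combination (-(c₁ k)) * e2 - (c₂ k) * e3
        rw [e1]
        exact Submodule.add_mem _ (Submodule.smul_mem _ _ (hpU _)) (Submodule.smul_mem _ _ (hrU _))
    · have hcase0 : π 0 = 1 := by omega
      have hcase1 : π 1 = 0 := by
        by_contra h3
        apply hπ0
        rw [hcase0]
        omega
      obtain ⟨α, γ, hA1⟩ := hexp₁ _ (hcase0 ▸ hmem 0 a₁ ha₁)
      obtain ⟨β, δ, hA2⟩ := hexp₁ _ (hcase0 ▸ hmem 0 a₂ ha₂)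
      obtain ⟨α', γ', hC1⟩ := hexp₀ _ (hcase1 ▸ hmem 1 c₁ hc₁)
      obtain ⟨β', δ', hC2⟩ := hexp₀ _ (hcase1 ▸ hmem 1 c₂ hc₂)
      have r11 := hfix g hg a₁ c₁
      have r12 := hfix g hg a₁ c₂
      have r21 := hfix g hg a₂ c₁
      have r22 := hfix g hg a₂ c₂
      rw [hA1, hC1, e11] at r11
      rw [hA1, hC2, e12] at r12
      rw [hA2, hC1, e21] at r21
      rw [hA2, hC2, e22] at r22
      simp only [hS.add_left, hS.add_right, hS.smul_left, hS.smul_right, b11, b12, b21, b22, RingHom.id_apply, mul_one, mul_zero, add_zero, zero_add] at r11 r12 r21 r22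
      set Δ := α * δ - β * γ with hΔd
      have i1 : Δ * α' = -δ := by rw [hΔd]; linear_combination -δ * r11 + γ * r21
      have i2 : Δ * β' = γ := by rw [hΔd]; linear_combination -δ * r12 + γ * r22
      have i3 : Δ * γ' = β := by rw [hΔd]; linear_combination -α * r21 + β * r11
      have i4 : Δ * δ' = -α := by rw [hΔd]; linear_combination -α * r22 + β * r12
      have hΔ : Δ ≠ 0 := by
        intro h0
        rw [h0, zero_mul] at i1 i2 i3 i4
        have h9 : α = 0 := by linear_combination i4
        have h10 : γ = 0 := i2.symm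
        rw [h9, h10] at r11
        simp at r11
      have hΔinv := hinv Δ hΔ
      refine hstab g hg Δ hΔ fun s hs z hz => ?_
      obtain ⟨x, y, rfl⟩ := hUexp s z hz
      have hsinv := hinv s hs
      rw [Matrix.mulVec_add, Matrix.mulVec_smul, Matrix.mulVec_smul]
      refine Submodule.add_mem _ (Submodule.smul_mem _ _ ?_) (Submodule.smul_mem _ _ ?_)
      · have e1 : (g : Matrix ι ι F) *ᵥ p s = (s * β') • p (s * Δ) + (s * δ') • r (s * Δ) := by
          simp only [p, r]
          rw [Matrix.mulVec_add, Matrix.mulVec_smul, hA1, hC2]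
          ext k
          simp only [Pi.add_apply, Pi.smul_apply, Pi.sub_apply, smul_eq_mul]
          have e2 : γ = s * β' * (s * Δ) := by linear_combination -i2 + (-(β' * Δ)) * hsinv
          have e3 : α = -(s * δ' * (s * Δ)) := by linear_combination i4 + (δ' * Δ) * hsinv
          rw [e2, e3]
          ring
        rw [e1]
        exact Submodule.add_mem _ (Submodule.smul_mem _ _ (hpU _)) (Submodule.smul_mem _ _ (hrU _))
      · have e1 : (g : Matrix ι ι F) *ᵥ r s = (-(s * α')) • p (s * Δ) + (-(s * γ')) • r (s * Δ) := by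
          simp only [p, r]
          rw [sub_eq_add_neg, Matrix.mulVec_add, Matrix.mulVec_neg, Matrix.mulVec_smul, hA2, hC1]
          ext k
          simp only [Pi.add_apply, Pi.neg_apply, Pi.smul_apply, Pi.sub_apply, smul_eq_mul]
          have e2 : δ = -(s * α' * (s * Δ)) := by linear_combination i1 + (α' * Δ) * hsinv
          have e3 : β = s * γ' * (s * Δ) := by linear_combination -i3 + (-(γ' * Δ)) * hsinv
          rw [e2, e3]
          ring
        rw [e1]
        exact Submodule.add_mem _ (Submodule.smul_mem _ _ (hpU _)) (Submodule.smul_mem _ _ (hrU _))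

end Cfsg.Agent.H97.Asch
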