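import Cfsg.Agent.Lib.H97K3

/-!
Transfer of the computation over the field with three elements to an adapted basis.
-/

set_option autoImplicit false
set_option linter.unusedSectionVars false
set_option linter.style.haveILetI false

namespace Cfsg.Agent.H97.Asch

open Matrix Cfsg Cfsg.Geo
open scoped MatrixGroups commutatorElement Kronecker

theorem q3_classify {G : Matrix (Fin 4) (Fin 4) (ZMod 3)} (hX : (G * q3X = q3X * G) ∨ (G * q3X = -(q3X * G)))
    (hiso : Gᵀ * q3J * G = q3J) (hinv : G * G = 1) : ∃ k, G = q3L k := by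
  have h2 : (2 : ZMod 3) = -1 := by decide
  obtain ⟨s, hs, hX'⟩ : ∃ s : ZMod 3, (s = 1 ∨ s = -1) ∧ ∀ i j, (G * q3X) i j = s * (q3X * G) i j := by
    rcases hX with h | h
    · exact ⟨1, Or.inl rfl, fun i j => by rw [h, one_mul]⟩
    · exact ⟨-1, Or.inr rfl, fun i j => by rw [h, neg_one_mul]; rfl⟩
  have e01 := hX' 0 0
  have e11 := hX' 1 0
  have e21 := hX' 2 0
  have e31 := hX' 3 0
  have e03 := hX' 0 2
  have e13 := hX' 1 2
  have e23 := hX' 2 2
  have e33 := hX' 3 2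
  simp [Matrix.mul_apply, Fin.sum_univ_four, q3X, h2] at e01 e11 e21 e31 e03 e13 e23 e33
  have hG : G = q3M s (G 0 0) (G 1 0) (G 2 0) (G 3 0) (G 0 2) (G 1 2) (G 2 2) (G 3 2) := by
    ext i j
    fin_cases i <;> fin_cases j <;> simp [q3M, e01, e11, e21, e31, e03, e13, e23, e33]
  rw [hG] at hiso hinv ⊢
  exact q3_classify_aux s _ _ _ _ _ _ _ _ hs hiso hinv

section Transfer

variable {ι : Type} [Fintype ι] [DecidableEq ι] {F : Type*} [Field F] [Fintype F] {f : (ι → F) → (ι → F) → F}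

/-- the complex structure over the field -/
def q3XF (F : Type*) [Field F] : Matrix (Fin 4) (Fin 4) F := !![0, -1, 0, 0; 1, 0, 0, 0; 0, 0, 0, -1; 0, 0, 1, 0]

/-- the form over the field -/
def q3JF (F : Type*) [Field F] : Matrix (Fin 4) (Fin 4) F := !![0, 1, 0, 0; -1, 0, 0, 0; 0, 0, 0, 1; 0, 0, -1, 0]

/-- the identification -/
noncomputable def q3Psi (h3 : Fintype.card F = 3) : Matrix (Fin 4) (Fin 4) (ZMod 3) ≃+* Matrix (Fin 4) (Fin 4) F :=
  (ZMod.ringEquivOfPrime F Nat.prime_three h3).mapMatrix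

theorem q3_psi_two (h3 : Fintype.card F = 3) : ZMod.ringEquivOfPrime F Nat.prime_three h3 2 = -1 := by
  rw [map_ofNat]
  linear_combination three_eq_zero h3

theorem q3Psi_X (h3 : Fintype.card F = 3) : q3Psi h3 q3X = q3XF F := by
  have h := q3_psi_two h3
  ext i j
  fin_cases i <;> fin_cases j <;> simp [q3Psi, q3X, q3XF, RingEquiv.mapMatrix_apply, h]

theorem q3Psi_J (h3 : Fintype.card F = 3) : q3Psi h3 q3J = q3JF F := by
  have h := q3_psi_two h3
  ext i j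
  fin_cases i <;> fin_cases j <;> simp [q3Psi, q3J, q3JF, RingEquiv.mapMatrix_apply, h]

theorem q3Psi_transpose (h3 : Fintype.card F = 3) (M : Matrix (Fin 4) (Fin 4) (ZMod 3)) : q3Psi h3 Mᵀ = (q3Psi h3 M)ᵀ := by
  ext i j
  rfl

/-- adapted bases -/
structure Q3Basis (f : (ι → F) → (ι → F) → F) (x : Matrix ι ι F) (B : Matrix ι (Fin 4) F) (B' : Matrix (Fin 4) ι F) : Prop where
  left : B' * B = 1
  right : B * B' = 1
  hx : x * B = B * q3XF F
  hf : ∀ u v, f (B *ᵥ u) (B *ᵥ v) = u ⬝ᵥ (q3JF F *ᵥ v)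

/-- conjugation by an adapted basis -/
def q3T (B : Matrix ι (Fin 4) F) (B' : Matrix (Fin 4) ι F) (M : Matrix (Fin 4) (Fin 4) F) : Matrix ι ι F := B * M * B'

variable {x : Matrix ι ι F} {B : Matrix ι (Fin 4) F} {B' : Matrix (Fin 4) ι F}

theorem Q3Basis.T_mul (C : Q3Basis f x B B') (M N : Matrix (Fin 4) (Fin 4) F) : q3T B B' (M * N) = q3T B B' M * q3T B B' N := by
  unfold q3T
  calc B * (M * N) * B' = B * M * (B' * B) * N * B' := by rw [C.left, Matrix.mul_one]; simp only [Matrix.mul_assoc]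
    _ = _ := by simp only [Matrix.mul_assoc]

theorem Q3Basis.T_one (C : Q3Basis f x B B') : q3T B B' 1 = 1 := by
  unfold q3T
  rw [Matrix.mul_one, C.right]

theorem q3T_neg (M : Matrix (Fin 4) (Fin 4) F) : q3T B B' (-M) = - q3T B B' M := by
  unfold q3T
  rw [Matrix.mul_neg, Matrix.neg_mul]

theorem q3T_add (M N : Matrix (Fin 4) (Fin 4) F) : q3T B B' (M + N) = q3T B B' M + q3T B B' N := by
  unfold q3T
  rw [Matrix.mul_add, Matrix.add_mul]

theorem q3T_smul (c : F) (M : Matrix (Fin 4) (Fin 4) F) : q3T B B' (c • M) = c • q3T B B' M := by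
  unfold q3T
  rw [Matrix.mul_smul, Matrix.smul_mul]

theorem q3T_sum {α : Type*} (s : Finset α) (M : α → Matrix (Fin 4) (Fin 4) F) : q3T B B' (∑ a ∈ s, M a) = ∑ a ∈ s, q3T B B' (M a) := by
  unfold q3T
  rw [Matrix.mul_sum, Matrix.sum_mul]

theorem Q3Basis.x_eq (C : Q3Basis f x B B') : x = q3T B B' (q3XF F) := by
  unfold q3T
  rw [← C.hx, Matrix.mul_assoc, C.right, Matrix.mul_one]

theorem Q3Basis.T_surj (C : Q3Basis f x B B') (g : Matrix ι ι F) : q3T B B' (B' * g * B) = g := by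
  unfold q3T
  calc B * (B' * g * B) * B' = (B * B') * g * (B * B') := by simp only [Matrix.mul_assoc]
    _ = g := by rw [C.right, Matrix.one_mul, Matrix.mul_one]

theorem Q3Basis.T_inj (C : Q3Basis f x B B') {M N : Matrix (Fin 4) (Fin 4) F} (h : q3T B B' M = q3T B B' N) : M = N := by
  have e : ∀ M : Matrix (Fin 4) (Fin 4) F, B' * q3T B B' M * B = M := fun M => by
    unfold q3T
    calc B' * (B * M * B') * B = (B' * B) * M * (B' * B) := by simp only [Matrix.mul_assoc]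
      _ = M := by rw [C.left, Matrix.one_mul, Matrix.mul_one]
  rw [← e M, h, e N]

theorem Q3Basis.T_mulVec (C : Q3Basis f x B B') (M : Matrix (Fin 4) (Fin 4) F) (w : Fin 4 → F) : q3T B B' M *ᵥ (B *ᵥ w) = B *ᵥ (M *ᵥ w) := by
  unfold q3T
  rw [Matrix.mulVec_mulVec, Matrix.mul_assoc, C.left, Matrix.mul_one, Matrix.mulVec_mulVec]

theorem Q3Basis.exists_w (C : Q3Basis f x B B') (u : ι → F) : ∃ w, B *ᵥ w = u :=
  ⟨B' *ᵥ u, by rw [Matrix.mulVec_mulVec, C.right, Matrix.one_mulVec]⟩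

theorem mat_ext_dot {M N : Matrix (Fin 4) (Fin 4) F} (h : ∀ u v : Fin 4 → F, u ⬝ᵥ (M *ᵥ v) = u ⬝ᵥ (N *ᵥ v)) : M = N := by
  ext i j
  have := h (Pi.single i 1) (Pi.single j 1)
  simpa [single_one_dotProduct, Matrix.mulVec_single_one] using this

theorem dot_transpose_form (G J : Matrix (Fin 4) (Fin 4) F) (u v : Fin 4 → F) :
    u ⬝ᵥ ((Gᵀ * J * G) *ᵥ v) = (G *ᵥ u) ⬝ᵥ (J *ᵥ (G *ᵥ v)) := by
  rw [← Matrix.mulVec_mulVec, ← Matrix.mulVec_mulVec, Matrix.dotProduct_mulVec u Gᵀ, Matrix.vecMul_transpose]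

/-- the isometry condition in coordinates -/
theorem Q3Basis.iso (C : Q3Basis f x B B') {g : Matrix ι ι F} (hg : ∀ u v, f (g *ᵥ u) (g *ᵥ v) = f u v) :
    (B' * g * B)ᵀ * q3JF F * (B' * g * B) = q3JF F := by
  apply mat_ext_dot
  intro u v
  have e : ∀ w, B *ᵥ ((B' * g * B) *ᵥ w) = g *ᵥ (B *ᵥ w) := fun w => by
    rw [Matrix.mulVec_mulVec, Matrix.mulVec_mulVec, ← Matrix.mul_assoc, ← Matrix.mul_assoc, C.right, Matrix.one_mul]
  rw [dot_transpose_form, ← C.hf, ← C.hf, e, e, hg]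

theorem Q3Basis.iso_of (C : Q3Basis f x B B') {M : Matrix (Fin 4) (Fin 4) F} (hM : Mᵀ * q3JF F * M = q3JF F) (u v : ι → F) :
    f (q3T B B' M *ᵥ u) (q3T B B' M *ᵥ v) = f u v := by
  obtain ⟨u', rfl⟩ := C.exists_w u
  obtain ⟨v', rfl⟩ := C.exists_w v
  rw [C.T_mulVec, C.T_mulVec, C.hf, C.hf, ← dot_transpose_form, hM]

/-- the generating set -/
def q3S (f : (ι → F) → (ι → F) → F) (x : Matrix ι ι F) : Set (GL ι F) :=
  {g | (∀ u v, f ((g : Matrix ι ι F) *ᵥ u) ((g : Matrix ι ι F) *ᵥ v) = f u v) ∧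
    ((g : Matrix ι ι F) * x = x * (g : Matrix ι ι F) ∨ (g : Matrix ι ι F) * x = -(x * (g : Matrix ι ι F))) ∧ g * g = 1}

/-- matrices in the list, mapped to the field -/
noncomputable def q3LT (h3 : Fintype.card F = 3) (B : Matrix ι (Fin 4) F) (B' : Matrix (Fin 4) ι F) (k : Fin 12) : Matrix ι ι F :=
  q3T B B' (q3Psi h3 (q3L k))

theorem Q3Basis.classify (C : Q3Basis f x B B') (h3 : Fintype.card F = 3) {g : GL ι F} (hg : g ∈ q3S f x) :
    ∃ k, (g : Matrix ι ι F) = q3LT h3 B B' k := by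
  obtain ⟨h1, h2, h4⟩ := hg
  set Ψ := q3Psi h3 with hΨ
  set G₃ := Ψ.symm (B' * (g : Matrix ι ι F) * B) with hG₃
  have hG : Ψ G₃ = B' * (g : Matrix ι ι F) * B := by rw [hG₃, RingEquiv.apply_symm_apply]
  have hcomm : B' * x = q3XF F * B' := by
    have : B' * (x * B) * B' = B' * (B * q3XF F) * B' := by rw [C.hx]
    calc B' * x = B' * x * (B * B') := by rw [C.right, Matrix.mul_one]
      _ = B' * (x * B) * B' := by simp only [Matrix.mul_assoc]
      _ = (B' * B) * q3XF F * B' := by rw [this]; simp only [Matrix.mul_assoc]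
      _ = _ := by rw [C.left, Matrix.one_mul]
  have e1 : (B' * (g : Matrix ι ι F) * B) * q3XF F = B' * ((g : Matrix ι ι F) * x) * B := by
    simp only [Matrix.mul_assoc]
    rw [← C.hx]
  have e2 : q3XF F * (B' * (g : Matrix ι ι F) * B) = B' * (x * (g : Matrix ι ι F)) * B := by
    simp only [← Matrix.mul_assoc]
    rw [hcomm]
  have hX : (G₃ * q3X = q3X * G₃) ∨ (G₃ * q3X = -(q3X * G₃)) := by
    rcases h2 with h2 | h2
    · left
      apply Ψ.injective
      rw [map_mul, map_mul, hG, hΨ, q3Psi_X, e1, e2, h2]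
    · right
      apply Ψ.injective
      rw [map_mul, map_neg, map_mul, hG, hΨ, q3Psi_X, e1, e2, h2]
      simp only [Matrix.mul_neg, Matrix.neg_mul]
  have hiso : G₃ᵀ * q3J * G₃ = q3J := by
    apply Ψ.injective
    rw [map_mul, map_mul, hΨ, q3Psi_transpose, ← hΨ, hG, hΨ, q3Psi_J]
    exact C.iso h1
  have hinv : G₃ * G₃ = 1 := by
    apply Ψ.injective
    rw [map_mul, hG, map_one]
    have h5 : (g : Matrix ι ι F) * (g : Matrix ι ι F) = 1 := by
      rw [← Units.val_mul, h4, Units.val_one]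
    calc (B' * (g : Matrix ι ι F) * B) * (B' * (g : Matrix ι ι F) * B)
        = B' * (g : Matrix ι ι F) * (B * B') * (g : Matrix ι ι F) * B := by simp only [Matrix.mul_assoc]
      _ = B' * ((g : Matrix ι ι F) * (g : Matrix ι ι F)) * B := by rw [C.right, Matrix.mul_one]; simp only [Matrix.mul_assoc]
      _ = 1 := by rw [h5, Matrix.mul_one, C.left]
  obtain ⟨k, hk⟩ := q3_classify hX hiso hinv
  refine ⟨k, ?_⟩
  rw [q3LT, ← hΨ, ← hk, hG, C.T_surj]

theorem Q3Basis.LT_sq (C : Q3Basis f x B B') (h3 : Fintype.card F = 3) (k : Fin 12) : q3LT h3 B B' k * q3LT h3 B B' k = 1 := by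
  obtain ⟨-, h2, -⟩ := q3_gen_aux k
  unfold q3LT
  rw [← C.T_mul, ← map_mul, h2, map_one, C.T_one]

/-- the elements of the list, as units -/
noncomputable def Q3Basis.unit (C : Q3Basis f x B B') (h3 : Fintype.card F = 3) (k : Fin 12) : GL ι F :=
  ⟨q3LT h3 B B' k, q3LT h3 B B' k, C.LT_sq h3 k, C.LT_sq h3 k⟩

theorem Q3Basis.unit_mem (C : Q3Basis f x B B') (h3 : Fintype.card F = 3) (k : Fin 12) : C.unit h3 k ∈ q3S f x := by
  obtain ⟨h1, h2, h4⟩ := q3_gen_aux k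
  refine ⟨?_, ?_, ?_⟩
  · intro u v
    refine C.iso_of ?_ u v
    have := congrArg (q3Psi h3) h1
    rwa [map_mul, map_mul, q3Psi_transpose, q3Psi_J] at this
  · show q3LT h3 B B' k * x = x * q3LT h3 B B' k ∨ q3LT h3 B B' k * x = -(x * q3LT h3 B B' k)
    rw [C.x_eq]
    unfold q3LT
    rw [← C.T_mul, ← C.T_mul, ← q3Psi_X h3, ← map_mul, ← map_mul]
    rcases h4 with h4 | h4
    · left
      rw [h4]
    · right
      rw [h4, map_neg, q3T_neg]
  · apply Units.ext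
    exact C.LT_sq h3 k

/-- Being commuting up to scalars. -/
def cmSub (b : GL ι F) : Subgroup (GL ι F) where
  carrier := {a | ∃ c : Fˣ, a * b = scU c * (b * a)}
  one_mem' := ⟨1, by simp⟩
  mul_mem' := by
    rintro a₁ a₂ ⟨c₁, h₁⟩ ⟨c₂, h₂⟩
    refine ⟨c₁ * c₂, ?_⟩
    calc a₁ * a₂ * b = a₁ * (a₂ * b) := by group
      _ = a₁ * (scU c₂ * (b * a₂)) := by rw [h₂]
      _ = scU c₂ * (a₁ * b) * a₂ := by rw [← mul_assoc, scU_central]; group
      _ = scU c₂ * (scU c₁ * (b * a₁)) * a₂ := by rw [h₁]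
      _ = scU (c₁ * c₂) * (b * (a₁ * a₂)) := by
        rw [map_mul]
        rw [← mul_assoc (scU c₂) (scU c₁), ← map_mul, mul_comm c₂ c₁, map_mul]
        group
  inv_mem' := by
    rintro a ⟨c, h⟩
    refine ⟨c⁻¹, ?_⟩
    have h1 : b * a⁻¹ = scU c * (a⁻¹ * b) := by
      have : a⁻¹ * (a * b) * a⁻¹ = a⁻¹ * (scU c * (b * a)) * a⁻¹ := by rw [h]
      calc b * a⁻¹ = a⁻¹ * (a * b) * a⁻¹ := by group
        _ = a⁻¹ * (scU c * (b * a)) * a⁻¹ := this
        _ = (a⁻¹ * scU c) * b := by group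
        _ = scU c * (a⁻¹ * b) := by rw [scU_central]; group
    calc a⁻¹ * b = (scU c⁻¹ * scU c) * (a⁻¹ * b) := by rw [← map_mul]; simp
      _ = scU c⁻¹ * (scU c * (a⁻¹ * b)) := by group
      _ = _ := by rw [← h1]

theorem mem_cmSub {a b : GL ι F} : a ∈ cmSub b ↔ ∃ c : Fˣ, a * b = scU c * (b * a) := Iff.rfl

theorem cmSub_symm {a b : GL ι F} (h : a ∈ cmSub b) : b ∈ cmSub a := by
  obtain ⟨c, hc⟩ := h
  refine ⟨c⁻¹, ?_⟩
  rw [hc]
  calc b * a = (scU c⁻¹ * scU c) * (b * a) := by rw [← map_mul]; simp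
    _ = _ := by group

theorem der_closure_le {S : Set (GL ι F)} (hS : ∀ a ∈ S, ∀ b ∈ S, a ∈ cmSub b) :
    ⁅Subgroup.closure S, Subgroup.closure S⁆ ≤ scalars ι F := by
  rw [Subgroup.commutator_le]
  intro a ha b hb
  have h1 : ∀ b ∈ S, Subgroup.closure S ≤ cmSub b := fun b hb =>
    (Subgroup.closure_le _).mpr fun a ha => hS a ha b hb
  have h2 : Subgroup.closure S ≤ cmSub a := (Subgroup.closure_le _).mpr fun b hb => cmSub_symm (h1 b hb ha)
  obtain ⟨c, hc⟩ := cmSub_symm (h2 hb)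
  have h3 : ⁅a, b⁆ = scU c := by
    rw [commutatorElement_def, hc]
    group
  rw [h3]
  exact scU_mem c

end Transfer

end Cfsg.Agent.H97.Asch
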