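import Cfsg.Agent.Lib.H97K4

/-!
The normaliser of a quadratic extension in the symplectic group of dimension four over the field with three elements lies in the
normaliser of an extraspecial group.
-/

set_option autoImplicit false
set_option linter.unusedSectionVars false
set_option linter.style.haveILetI false

namespace Cfsg.Agent.H97.Asch

open Matrix Cfsg Cfsg.Geo
open scoped MatrixGroups commutatorElement Kronecker

variable {ι : Type} [Fintype ι] [DecidableEq ι] {F : Type*} [Field F] [Fintype F] {f : (ι → F) → (ι → F) → F}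
variable {x : Matrix ι ι F} {B : Matrix ι (Fin 4) F} {B' : Matrix (Fin 4) ι F}

theorem q3_units_one {A : Matrix ι ι F} (S : Subalgebra F (Matrix ι ι F)) (h : A ∈ S) (b : Prop) [Decidable b] :
    (if b then A else 1) ∈ S := by
  split_ifs
  · exact h
  · exact S.one_mem

theorem Q3Basis.span (C : Q3Basis f x B B') (h3 : Fintype.card F = 3) : spanG (Subgroup.closure (q3S f x)) = ⊤ := by
  classical
  set A := spanG (Subgroup.closure (q3S f x)) with hA
  have hL : ∀ k, q3LT h3 B B' k ∈ A := fun k =>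
    mem_spanG (N := Subgroup.closure (q3S f x)) (g := C.unit h3 k) (Subgroup.subset_closure (C.unit_mem h3 k))
  have hif : ∀ (b : Prop) [Decidable b] (k : Fin 12), q3T B B' (q3Psi h3 (if b then q3L k else 1)) ∈ A := by
    intro b _ k
    split_ifs
    · exact hL k
    · rw [map_one, C.T_one]
      exact A.one_mem
  have hP : ∀ T, q3T B B' (q3Psi h3 (q3P T)) ∈ A := by
    intro T
    unfold q3P
    simp only [map_mul, C.T_mul]
    exact A.mul_mem (A.mul_mem (A.mul_mem (by simpa using hif _ 0) (by simpa using hif _ 2)) (by simpa using hif _ 5)) (by simpa using hif _ 8)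
  have hsingle : ∀ i j, q3T B B' (Matrix.single i j (1 : F)) ∈ A := by
    intro i j
    have h1 : Matrix.single i j (1 : F) = ∑ T, (ZMod.ringEquivOfPrime F Nat.prime_three h3 (q3Q T j i)) • q3Psi h3 (q3P T) := by
      ext a b
      have h2 := q3_span_aux i j a b
      have h4 := congrArg (ZMod.ringEquivOfPrime F Nat.prime_three h3) h2
      rw [map_sum] at h4
      simp only [map_mul] at h4
      rw [Matrix.sum_apply]
      simp only [Matrix.smul_apply, smul_eq_mul]
      have e5 : ∀ T, q3Psi h3 (q3P T) a b = ZMod.ringEquivOfPrime F Nat.prime_three h3 (q3P T a b) := fun T => rfl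
      simp only [e5]
      rw [h4, Matrix.single_apply]
      by_cases h : a = i ∧ b = j
      · obtain ⟨rfl, rfl⟩ := h
        simp
      · rw [if_neg h, map_zero, if_neg (by tauto)]
    rw [h1, q3T_sum]
    refine A.sum_mem fun T _ => ?_
    rw [q3T_smul]
    exact A.smul_mem (hP T) _
  have hall : ∀ M, q3T B B' M ∈ A := by
    intro M
    have e : M = ∑ i, ∑ j, M i j • Matrix.single i j (1 : F) := by
      conv_lhs => rw [Matrix.matrix_eq_sum_single M]
      refine Finset.sum_congr rfl fun i _ => Finset.sum_congr rfl fun j _ => ?_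
      rw [Matrix.smul_single, smul_eq_mul, mul_one]
    rw [e, q3T_sum]
    refine A.sum_mem fun i _ => ?_
    rw [q3T_sum]
    refine A.sum_mem fun j _ => ?_
    rw [q3T_smul]
    exact A.smul_mem (hsingle i j) _
  rw [eq_top_iff]
  intro g _
  rw [← C.T_surj g]
  exact hall _

theorem Q3Basis.der (C : Q3Basis f x B B') (h3 : Fintype.card F = 3) : ⁅Subgroup.closure (q3S f x), Subgroup.closure (q3S f x)⁆ ≤ scalars ι F := by
  apply der_closure_le
  intro a ha b hb
  obtain ⟨k, hk⟩ := C.classify h3 ha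
  obtain ⟨l, hl⟩ := C.classify h3 hb
  rcases q3_comm_aux k l with h | h
  · refine ⟨1, ?_⟩
    rw [map_one, one_mul]
    apply Units.ext
    rw [Units.val_mul, Units.val_mul, hk, hl]
    unfold q3LT
    rw [← C.T_mul, ← C.T_mul, ← map_mul, ← map_mul, h]
  · refine ⟨-1, ?_⟩
    apply Units.ext
    rw [Units.val_mul, Units.val_mul, Units.val_mul, scU_val, hk, hl]
    unfold q3LT
    rw [← C.T_mul, ← C.T_mul, ← map_mul, ← map_mul, h, map_neg, q3T_neg]
    simp

theorem q3_fix (h : ∀ g ∈ q3S f x, ∀ u v, f ((g : Matrix ι ι F) *ᵥ u) ((g : Matrix ι ι F) *ᵥ v) = f u v) :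
    FFix f (Subgroup.closure (q3S f x)) := by
  intro g hg
  induction hg using Subgroup.closure_induction with
  | mem g hg => exact h g hg
  | one => intro u v; simp
  | mul a b _ _ ha hb =>
    intro u v
    rw [Units.val_mul, ← Matrix.mulVec_mulVec, ← Matrix.mulVec_mulVec, ha, hb]
  | inv a _ ha =>
    intro u v
    have := ha (((a⁻¹ : GL ι F) : Matrix ι ι F) *ᵥ u) (((a⁻¹ : GL ι F) : Matrix ι ι F) *ᵥ v)
    rw [gl_mulVec_inv, gl_mulVec_inv] at this
    exact this.symm

/-- an adapted basis exists -/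
theorem exists_q3Basis (C : FCtx (RingHom.id F) (-1) f) (halt : ∀ v, f v v = 0) (h3 : Fintype.card F = 3) (hcard : Fintype.card ι = 4)
    (hxx : x * x = -1) (hskew : ∀ u v, f (x *ᵥ u) v = - f u (x *ᵥ v)) : ∃ B B', Q3Basis f x B B' := by
  classical
  have hS := C.sesq
  have h30 := three_eq_zero h3
  have h2 : (2 : F) ≠ 0 := by
    intro h
    have : (1 : F) = 0 := by linear_combination h30 - h
    exact one_ne_zero this
  have hneg : ∀ u v, f u (-v) = - f u v := fun u v => by
    have := hS.smul_right (-1) u v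
    rw [neg_one_smul] at this
    simpa using this
  have hxv : ∀ u, x *ᵥ (x *ᵥ u) = -u := fun u => by
    rw [Matrix.mulVec_mulVec, hxx, Matrix.neg_mulVec, Matrix.one_mulVec]
  have hsk : ∀ u v, f u v = - f v u := fun u v => by
    have := C.herm u v
    simpa using this
  have hne : ∀ v : ι → F, v ≠ 0 → x *ᵥ v ≠ 0 := by
    intro v hv h
    have := hxv v
    rw [h, Matrix.mulVec_zero] at this
    exact hv (neg_eq_zero.mp this.symm)
  have hsymm : ∀ u v, f u (x *ᵥ v) = f v (x *ᵥ u) := fun u v => by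
    have h1 := hskew u v
    have h4 := hsk (x *ᵥ u) v
    linear_combination h1 - h4
  have hss : ∀ u v, f (x *ᵥ u) (x *ᵥ (x *ᵥ v)) = f u (x *ᵥ v) := fun u v => by
    rw [hxv, hneg, hskew]
    simp
  have hsx : ∀ u, f u (x *ᵥ (x *ᵥ u)) = 0 := fun u => by
    rw [hxv, hneg, halt]
    simp
  have haniso : ∀ u w, f u (x *ᵥ w) ≠ 0 → ∃ v, (v = u ∨ v = w ∨ v = u + w) ∧ f v (x *ᵥ v) ≠ 0 := by
    intro u w h
    by_contra hcon
    push Not at hcon
    have h1 := hcon u (Or.inl rfl)
    have h4 := hcon w (Or.inr (Or.inl rfl))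
    have h5 := hcon (u + w) (Or.inr (Or.inr rfl))
    rw [Matrix.mulVec_add, hS.add_left, hS.add_right, hS.add_right, h1, h4, hsymm w u] at h5
    have h6 : 2 * f u (x *ᵥ w) = 0 := by linear_combination h5
    exact h (mul_eq_zero.mp h6 |>.resolve_left h2)
  have hnorm : ∀ v, f v (x *ᵥ v) ≠ 0 → ∃ v', (v' = v ∨ v' = v + x *ᵥ v) ∧ f v' (x *ᵥ v') = 1 := by
    intro v hv
    have h1 := f3_sq h3 hv
    have h4 : (f v (x *ᵥ v) - 1) * (f v (x *ᵥ v) + 1) = 0 := by linear_combination h1
    rcases mul_eq_zero.mp h4 with h5 | h5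
    · exact ⟨v, Or.inl rfl, sub_eq_zero.mp h5⟩
    · refine ⟨v + x *ᵥ v, Or.inr rfl, ?_⟩
      rw [Matrix.mulVec_add, hS.add_left, hS.add_right, hS.add_right, hsx, hss, add_zero]
      have h6 : f (x *ᵥ v) (x *ᵥ v) = 0 := halt _
      rw [h6]
      linear_combination 2 * h5 - h30
  -- the first vector
  haveI : Nonempty ι := Fintype.card_pos_iff.mp (by omega)
  obtain ⟨v₀, hv₀⟩ := exists_ne (0 : ι → F)
  obtain ⟨w₀, hw₀⟩ := C.ndl _ (hne v₀ hv₀)
  obtain ⟨v₁, -, hv₁⟩ := haniso w₀ v₀ hw₀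
  obtain ⟨a₁, -, h11⟩ := hnorm v₁ hv₁
  set A₁ := x *ᵥ a₁ with hA₁
  have hA1A1 : f A₁ (x *ᵥ A₁) = 1 := by rw [hA₁, hss]; exact h11
  have h1A1 : f a₁ (x *ᵥ A₁) = 0 := hsx a₁
  have hA11 : f A₁ (x *ᵥ a₁) = 0 := halt _
  -- the projection
  let pr : (ι → F) → (ι → F) := fun z => z - f z (x *ᵥ a₁) • a₁ - f z (x *ᵥ A₁) • A₁
  have hpr1 : ∀ z, f (pr z) (x *ᵥ a₁) = 0 := fun z => by
    simp only [pr]
    rw [hS.sub_left, hS.sub_left, hS.smul_left, hS.smul_left, h11, hA11]
    ring
  have hpr2 : ∀ z, f (pr z) (x *ᵥ A₁) = 0 := fun z => by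
    simp only [pr]
    rw [hS.sub_left, hS.sub_left, hS.smul_left, hS.smul_left, h1A1, hA1A1]
    ring
  -- a vector outside the plane
  have hspan : Submodule.span F ({a₁, A₁} : Set (ι → F)) ≠ ⊤ := by
    intro h
    have h4 : Module.finrank F (Submodule.span F ({a₁, A₁} : Set (ι → F))) ≤ 2 := by
      have := finrank_span_finset_le_card (R := F) ({a₁, A₁} : Finset (ι → F))
      have h5 : (({a₁, A₁} : Finset (ι → F)) : Set (ι → F)) = {a₁, A₁} := by simp
      rw [h5] at this
      exact this.trans (Finset.card_le_two)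
    rw [h, finrank_top, Module.finrank_fintype_fun_eq_card, hcard] at h4
    omega
  obtain ⟨v, hv⟩ := SetLike.exists_not_mem_of_ne_top _ hspan rfl
  have hz0 : pr v ≠ 0 := by
    intro h
    apply hv
    have e : v = f v (x *ᵥ a₁) • a₁ + f v (x *ᵥ A₁) • A₁ := by
      have : v - f v (x *ᵥ a₁) • a₁ - f v (x *ᵥ A₁) • A₁ = 0 := h
      funext k
      have h7 := congrFun this k
      simp only [Pi.sub_apply, Pi.smul_apply, Pi.zero_apply, smul_eq_mul] at h7
      simp only [Pi.add_apply, Pi.smul_apply, smul_eq_mul]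
      linear_combination h7
    rw [e]
    exact Submodule.add_mem _ (Submodule.smul_mem _ _ (Submodule.subset_span (by simp))) (Submodule.smul_mem _ _ (Submodule.subset_span (by simp)))
  set z := pr v with hz
  obtain ⟨w, hw⟩ := C.ndl _ (hne z hz0)
  have hzw : f (pr w) (x *ᵥ z) ≠ 0 := by
    have h5 : f (pr w) (x *ᵥ z) = f w (x *ᵥ z) := by
      simp only [pr]
      rw [hS.sub_left, hS.sub_left, hS.smul_left, hS.smul_left, hsymm a₁ z, hsymm A₁ z, hpr1, hpr2]
      ring
    rwa [h5]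
  obtain ⟨v₂, hv₂, hv₂'⟩ := haniso _ _ hzw
  have hv₂1 : f v₂ (x *ᵥ a₁) = 0 := by
    rcases hv₂ with rfl | rfl | rfl
    · exact hpr1 _
    · exact hpr1 _
    · rw [hS.add_left, hpr1, hpr1, add_zero]
  have hv₂2 : f v₂ (x *ᵥ A₁) = 0 := by
    rcases hv₂ with rfl | rfl | rfl
    · exact hpr2 _
    · exact hpr2 _
    · rw [hS.add_left, hpr2, hpr2, add_zero]
  obtain ⟨a₂, ha₂, h22⟩ := hnorm v₂ hv₂'
  have h21 : f a₂ (x *ᵥ a₁) = 0 := by
    rcases ha₂ with rfl | rfl
    · exact hv₂1
    · rw [hS.add_left, hv₂1, hskew, hv₂2]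
      simp
  have h2A1 : f a₂ (x *ᵥ A₁) = 0 := by
    rcases ha₂ with rfl | rfl
    · exact hv₂2
    · rw [hS.add_left, hv₂2, hskew, hxv, hneg, hv₂1]
      simp
  set A₂ := x *ᵥ a₂ with hA₂
  have hxA₁ : x *ᵥ A₁ = -a₁ := hxv a₁
  have hxA₂ : x *ᵥ A₂ = -a₂ := hxv a₂
  have g21 : f a₂ a₁ = 0 := by
    have := h2A1
    rw [hxA₁, hneg] at this
    simpa using this
  have g12 : f a₁ a₂ = 0 := by rw [hsk, g21, neg_zero]
  have g1A2 : f a₁ A₂ = 0 := by rw [hA₂, hsymm a₁ a₂]; exact h21
  have gA21 : f A₂ a₁ = 0 := by rw [hsk, g1A2, neg_zero]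
  have gA12 : f A₁ a₂ = 0 := by rw [hsk, h21, neg_zero]
  have gA1A2 : f A₁ A₂ = 0 := by
    have := hskew a₁ A₂
    rw [hxA₂, hneg, g12] at this
    simpa using this
  have gA2A1 : f A₂ A₁ = 0 := by rw [hsk, gA1A2, neg_zero]
  have gA11 : f A₁ a₁ = -1 := by rw [hsk, h11]
  have gA22 : f A₂ a₂ = -1 := by rw [hsk, h22]
  have h21' : f a₂ A₁ = 0 := h21
  have h1A : f a₁ a₁ = 0 := halt _
  have h2A : f a₂ a₂ = 0 := halt _
  have h3A : f A₁ A₁ = 0 := halt _
  have h4A : f A₂ A₂ = 0 := halt _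
  let b : Fin 4 → ι → F := ![a₁, A₁, a₂, A₂]
  let B : Matrix ι (Fin 4) F := Matrix.of fun i k => b k i
  have hB : ∀ u, B *ᵥ u = u 0 • a₁ + u 1 • A₁ + u 2 • a₂ + u 3 • A₂ := by
    intro u
    funext i
    simp [B, b, Matrix.mulVec, dotProduct, Fin.sum_univ_four]
    ring
  have hf : ∀ u v, f (B *ᵥ u) (B *ᵥ v) = u ⬝ᵥ (q3JF F *ᵥ v) := by
    intro u v
    rw [hB, hB]
    simp only [hS.add_left, hS.add_right, hS.smul_left, hS.smul_right, RingHom.id_apply, h1A, h2A, h3A, h4A, h11, h22, h21', g21, g12, g1A2, gA21, gA12,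
      gA1A2, gA2A1, gA11, gA22]
    simp [q3JF, dotProduct, Matrix.mulVec, Fin.sum_univ_four, Matrix.vecHead, Matrix.vecTail]
  have hinj : Function.Injective (Matrix.toLin' B) := by
    rw [← LinearMap.ker_eq_bot, LinearMap.ker_eq_bot']
    intro u hu
    have hu' : B *ᵥ u = 0 := by simpa [Matrix.toLin'_apply] using hu
    have e : ∀ v, u ⬝ᵥ (q3JF F *ᵥ v) = 0 := fun v => by
      rw [← hf, hu', hS.zero_left]
    have e0 := e (Pi.single 1 1)
    have e1 := e (Pi.single 0 1)
    have e2 := e (Pi.single 3 1)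
    have e3 := e (Pi.single 2 1)
    simp [q3JF, dotProduct, Matrix.mulVec, Fin.sum_univ_four, Matrix.vecHead, Matrix.vecTail, Pi.single_apply] at e0 e1 e2 e3
    funext k
    fin_cases k
    · exact e0
    · exact e1
    · exact e2
    · exact e3
  obtain ⟨g, hg⟩ := LinearMap.exists_leftInverse_of_injective (Matrix.toLin' B) (LinearMap.ker_eq_bot.mpr hinj)
  let B' : Matrix (Fin 4) ι F := LinearMap.toMatrix' g
  have hleft : B' * B = 1 := by
    have h5 := congrArg LinearMap.toMatrix' hg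
    rwa [LinearMap.toMatrix'_comp, LinearMap.toMatrix'_toLin', LinearMap.toMatrix'_id] at h5
  have hright : B * B' = 1 := (Matrix.mul_eq_one_comm_of_equiv (Fintype.equivFinOfCardEq hcard).symm).mp hleft
  refine ⟨B, B', hleft, hright, ?_, hf⟩
  apply Matrix.mulVec_injective
  funext u
  rw [← Matrix.mulVec_mulVec, ← Matrix.mulVec_mulVec, hB, hB]
  simp only [Matrix.mulVec_add, Matrix.mulVec_smul]
  have e1 : x *ᵥ a₁ = A₁ := rfl
  have e2 : x *ᵥ a₂ = A₂ := rfl
  rw [e1, e2, hxA₁, hxA₂]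
  have hXu : ∀ j, (q3XF F *ᵥ u) j = ![-u 1, u 0, -u 3, u 2] j := by
    intro j
    fin_cases j <;> simp [q3XF, Matrix.mulVec, dotProduct, Fin.sum_univ_four]
  simp only [hXu]
  funext k
  simp
  ring

/-- elements squaring to minus one -/
theorem exists_skew_sq [Nonempty ι] (C : FCtx (RingHom.id F) (-1) f) (h3 : Fintype.card F = 3) {K' : Subalgebra F (Matrix ι ι F)}
    (hK : IsFieldSubalgebra 2 K') (hclosed : IsAdjointClosedFor f K') (hns : ¬ IsSelfAdjointFor f K') :
    ∃ x ∈ K', x * x = -1 ∧ ∀ u v, f (x *ᵥ u) v = - f u (x *ᵥ v) := by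
  classical
  have hs : FStar C K' := by
    intro k hk
    obtain ⟨k', hk', h⟩ := hclosed k hk
    rw [← C.eq_adj_of' h]
    exact hk'
  have h30 := three_eq_zero h3
  have h2 : (2 : F) ≠ 0 := by
    intro h
    have : (1 : F) = 0 := by linear_combination h30 - h
    exact one_ne_zero this
  rw [selfAdjoint_iff C] at hns
  push Not at hns
  obtain ⟨k, hk, hkne⟩ := hns
  obtain ⟨-, hfixed⟩ := degree_two_of_nontrivial C (fun c => rfl) hK Nat.prime_two hs hk hkne
  set y := k - C.adj k with hy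
  have hyK : y ∈ K' := K'.sub_mem hk (hs k hk)
  have hy0 : y ≠ 0 := fun h => hkne (sub_eq_zero.mp h).symm
  have hadj : C.adj y = -y := by
    rw [hy, C.adj_sub, C.adj_adj, neg_sub]
  obtain ⟨c, hc⟩ := hfixed (y * y) (K'.mul_mem hyK hyK) (by rw [C.adj_mul, hadj, neg_mul_neg])
  have hfield : ∀ a ∈ K', ∀ b ∈ K', a * b = 0 → a = 0 ∨ b = 0 := by
    intro a ha b hb hab
    by_cases ha0 : a = 0
    · exact Or.inl ha0
    · right
      obtain ⟨z, hz, hza⟩ := hK.inv a ha ha0
      have : z * (a * b) = b := by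
        rw [← Matrix.mul_assoc, hK.comm z hz a ha, hza, Matrix.one_mul]
      rw [← this, hab, Matrix.mul_zero]
  have hc0 : c ≠ 0 := by
    rintro rfl
    rw [zero_smul] at hc
    exact hy0 ((hfield y hyK y hyK hc).elim id id)
  have h4 : (c - 1) * (c + 1) = 0 := by
    have := f3_sq h3 hc0
    linear_combination this
  have hone_ne : ∀ a : F, a • (1 : Matrix ι ι F) = 0 → a = 0 := by
    intro a h
    obtain ⟨i⟩ := ‹Nonempty ι›
    have := congrFun (congrFun h i) i
    simpa using this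
  have hcm : c = -1 := by
    rcases mul_eq_zero.mp h4 with h5 | h5
    · exfalso
      have hc1 : c = 1 := sub_eq_zero.mp h5
      rw [hc1, one_smul] at hc
      have h6 : (y - 1) * (y + 1) = 0 := by
        have : (y - 1) * (y + 1) = y * y - 1 := by noncomm_ring
        rw [this, hc, sub_self]
      have h7 : y - 1 ∈ K' := K'.sub_mem hyK K'.one_mem
      have h8 : y + 1 ∈ K' := K'.add_mem hyK K'.one_mem
      have h9 : C.adj (y - 1) = -(y + 1) := by
        rw [C.adj_sub, hadj, C.adj_one]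
        noncomm_ring
      rcases hfield _ h7 _ h8 h6 with h10 | h10
      · have h11 : y = 1 := sub_eq_zero.mp h10
        have h12 : C.adj y = 1 := by rw [h11, C.adj_one]
        rw [h12, h11] at hadj
        have h13 : (2 : F) • (1 : Matrix ι ι F) = 0 := by
          rw [two_smul]
          nth_rewrite 1 [hadj]
          simp
        exact h2 (hone_ne _ h13)
      · have h11 : y = -1 := eq_neg_of_add_eq_zero_left h10
        have h12 : C.adj y = -1 := by
          rw [h11]
          have := C.adj_smul (-1 : F) (1 : Matrix ι ι F)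
          rw [C.adj_one] at this
          simpa using this
        rw [h12, h11] at hadj
        have h13 : (2 : F) • (1 : Matrix ι ι F) = 0 := by
          have h14 : (-1 : Matrix ι ι F) = 1 := by simpa using hadj
          rw [two_smul]
          nth_rewrite 1 [← h14]
          simp
        exact h2 (hone_ne _ h13)
    · exact eq_neg_of_add_eq_zero_left h5
  refine ⟨y, hyK, ?_, fun u v => ?_⟩
  · rw [hc, hcm]
    simp
  · rw [C.adj_spec', hadj, Matrix.neg_mulVec]
    have := C.sesq.smul_right (-1) u (y *ᵥ v)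
    rw [neg_one_smul] at this
    simpa using this

theorem conj_sign {H G I x : Matrix ι ι F} {τ σ : F} (hτ : τ * τ = 1) (h1 : H * x = τ • (x * H)) (h2 : I * x = τ • (x * I))
    (h3 : G * x = σ • (x * G)) : H * G * I * x = σ • (x * (H * G * I)) := by
  calc H * G * I * x = H * G * (I * x) := by rw [Matrix.mul_assoc]
    _ = τ • (H * (G * x) * I) := by rw [h2, Matrix.mul_smul]; simp only [Matrix.mul_assoc]
    _ = τ • σ • (H * x * G * I) := by rw [h3, Matrix.mul_smul, Matrix.smul_mul]; simp only [Matrix.mul_assoc]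
    _ = τ • σ • τ • (x * H * G * I) := by rw [h1, Matrix.smul_mul, Matrix.smul_mul]
    _ = σ • (x * (H * G * I)) := by
      simp only [smul_smul, Matrix.mul_assoc]
      congr 1
      linear_combination σ * hτ

/-- The main theorem for non-self-adjoint fields. -/
theorem nonselfadj_three (C : FCtx (RingHom.id F) (-1) f) (halt : ∀ v, f v v = 0) (h3 : Fintype.card F = 3) (hcard : Fintype.card ι = 4)
    {K' : Subalgebra F (Matrix ι ι F)} (hK : IsFieldSubalgebra 2 K') (hclosed : IsAdjointClosedFor f K') (hns : ¬ IsSelfAdjointFor f K')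
    {H : Subgroup (GL ι F)} (hfix : FFix f H) (hle : H ≤ subalgebraNormalizer K') :
    ∃ R : Subgroup (GL ι F), XCtx f R ∧ H ≤ subgroupNormalizer R := by
  classical
  haveI : Nonempty ι := Fintype.card_pos_iff.mp (by omega)
  have h30 := three_eq_zero h3
  have h2 : (2 : F) ≠ 0 := by
    intro h
    have : (1 : F) = 0 := by linear_combination h30 - h
    exact one_ne_zero this
  obtain ⟨x, hxK, hxx, hskew⟩ := exists_skew_sq C h3 hK hclosed hns
  obtain ⟨B, B', hB⟩ := exists_q3Basis C halt h3 hcard hxx hskew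
  refine ⟨Subgroup.closure (q3S f x), ⟨C, h2, q3_fix fun g hg => hg.1, hB.span h3, hB.der h3⟩, fun h hh => ?_⟩
  have hconj : ∀ h ∈ H, (h : Matrix ι ι F) * x = x * (h : Matrix ι ι F) ∨ (h : Matrix ι ι F) * x = -(x * (h : Matrix ι ι F)) := by
    intro h hh
    set w := (h : Matrix ι ι F) * x * ((h⁻¹ : GL ι F) : Matrix ι ι F) with hw
    have hwK : w ∈ K' := ((hle hh) x).mp hxK
    have hhi : ((h⁻¹ : GL ι F) : Matrix ι ι F) * (h : Matrix ι ι F) = 1 := by rw [← Units.val_mul, inv_mul_cancel, Units.val_one]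
    have hhi' : (h : Matrix ι ι F) * ((h⁻¹ : GL ι F) : Matrix ι ι F) = 1 := by rw [← Units.val_mul, mul_inv_cancel, Units.val_one]
    have hww : w * w = -1 := by
      calc w * w = (h : Matrix ι ι F) * x * (((h⁻¹ : GL ι F) : Matrix ι ι F) * (h : Matrix ι ι F)) * x * ((h⁻¹ : GL ι F) : Matrix ι ι F) := by
            rw [hw]; simp only [Matrix.mul_assoc]
        _ = (h : Matrix ι ι F) * (x * x) * ((h⁻¹ : GL ι F) : Matrix ι ι F) := by rw [hhi, Matrix.mul_one]; simp only [Matrix.mul_assoc]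
        _ = -1 := by rw [hxx, Matrix.mul_neg, Matrix.neg_mul, Matrix.mul_one, hhi']
    have hfield : (w - x) * (w + x) = 0 := by
      have e : (w - x) * (w + x) = w * w + w * x - x * w - x * x := by noncomm_ring
      rw [e, hww, hxx, hK.comm w hwK x hxK]
      noncomm_ring
    have hwh : w * (h : Matrix ι ι F) = (h : Matrix ι ι F) * x := by
      rw [hw, Matrix.mul_assoc, hhi, Matrix.mul_one]
    by_cases h0 : w - x = 0
    · left
      rw [← hwh, sub_eq_zero.mp h0]
    · right
      obtain ⟨z, hz, hza⟩ := hK.inv _ (K'.sub_mem hwK hxK) h0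
      have h6 : z * ((w - x) * (w + x)) = w + x := by
        rw [← Matrix.mul_assoc, hK.comm z hz _ (K'.sub_mem hwK hxK), hza, Matrix.one_mul]
      rw [hfield, Matrix.mul_zero] at h6
      have h7 : w = -x := eq_neg_of_add_eq_zero_left h6.symm
      rw [← hwh, h7, Matrix.neg_mul]
  have hstep : ∀ h ∈ H, ∀ g ∈ q3S f x, h * g * h⁻¹ ∈ q3S f x := by
    intro h hh g hg
    obtain ⟨h1, h4, h5⟩ := hg
    have hinvH := H.inv_mem hh
    refine ⟨?_, ?_, ?_⟩
    · intro u v
      rw [Units.val_mul, Units.val_mul, ← Matrix.mulVec_mulVec, ← Matrix.mulVec_mulVec, ← Matrix.mulVec_mulVec, ← Matrix.mulVec_mulVec, hfix h hh, h1, hfix _ hinvH]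
    · simp only [Units.val_mul]
      have hhi : ((h⁻¹ : GL ι F) : Matrix ι ι F) * (h : Matrix ι ι F) = 1 := by rw [← Units.val_mul, inv_mul_cancel, Units.val_one]
      have hhi' : (h : Matrix ι ι F) * ((h⁻¹ : GL ι F) : Matrix ι ι F) = 1 := by rw [← Units.val_mul, mul_inv_cancel, Units.val_one]
      obtain ⟨τ, hτ, hτ1, hτ2⟩ : ∃ τ : F, τ * τ = 1 ∧ (h : Matrix ι ι F) * x = τ • (x * (h : Matrix ι ι F)) ∧
          ((h⁻¹ : GL ι F) : Matrix ι ι F) * x = τ • (x * ((h⁻¹ : GL ι F) : Matrix ι ι F)) := by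
        rcases hconj h hh with h6 | h6
        · refine ⟨1, one_mul 1, by rw [one_smul, h6], ?_⟩
          rw [one_smul]
          calc ((h⁻¹ : GL ι F) : Matrix ι ι F) * x
              = ((h⁻¹ : GL ι F) : Matrix ι ι F) * x * ((h : Matrix ι ι F) * ((h⁻¹ : GL ι F) : Matrix ι ι F)) := by rw [hhi', Matrix.mul_one]
            _ = ((h⁻¹ : GL ι F) : Matrix ι ι F) * ((h : Matrix ι ι F) * x) * ((h⁻¹ : GL ι F) : Matrix ι ι F) := by rw [h6]; simp only [Matrix.mul_assoc]
            _ = _ := by rw [← Matrix.mul_assoc, hhi, Matrix.one_mul]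
        · refine ⟨-1, by ring, by rw [neg_one_smul, h6], ?_⟩
          rw [neg_one_smul]
          calc ((h⁻¹ : GL ι F) : Matrix ι ι F) * x
              = ((h⁻¹ : GL ι F) : Matrix ι ι F) * x * ((h : Matrix ι ι F) * ((h⁻¹ : GL ι F) : Matrix ι ι F)) := by rw [hhi', Matrix.mul_one]
            _ = -(((h⁻¹ : GL ι F) : Matrix ι ι F) * ((h : Matrix ι ι F) * x) * ((h⁻¹ : GL ι F) : Matrix ι ι F)) := by
                rw [h6]
                simp only [Matrix.mul_assoc, Matrix.mul_neg, Matrix.neg_mul, neg_neg]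
            _ = _ := by rw [← Matrix.mul_assoc _ (h : Matrix ι ι F) x, hhi, Matrix.one_mul]
      rcases h4 with h4 | h4
      · left
        have := conj_sign hτ hτ1 hτ2 (σ := 1) (by rw [one_smul, h4])
        rwa [one_smul] at this
      · right
        have := conj_sign hτ hτ1 hτ2 (σ := -1) (by rw [neg_one_smul, h4])
        rwa [neg_one_smul] at this
    · calc h * g * h⁻¹ * (h * g * h⁻¹) = h * (g * g) * h⁻¹ := by group
        _ = 1 := by rw [h5]; group
  have hR : ∀ h ∈ H, ∀ r ∈ Subgroup.closure (q3S f x), h * r * h⁻¹ ∈ Subgroup.closure (q3S f x) := by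
    intro h hh r hr
    induction hr using Subgroup.closure_induction with
    | mem g hg => exact Subgroup.subset_closure (hstep h hh g hg)
    | one => simp
    | mul a b _ _ ha hb =>
      have : h * (a * b) * h⁻¹ = (h * a * h⁻¹) * (h * b * h⁻¹) := by group
      rw [this]
      exact Subgroup.mul_mem _ ha hb
    | inv a _ ha =>
      have : h * a⁻¹ * h⁻¹ = (h * a * h⁻¹)⁻¹ := by group
      rw [this]
      exact Subgroup.inv_mem _ ha
  refine Subgroup.mem_normalizer_iff.mpr fun r => ⟨hR h hh r, fun hr => ?_⟩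
  have := hR _ (H.inv_mem hh) _ hr
  have e : h⁻¹ * (h * r * h⁻¹) * h⁻¹⁻¹ = r := by group
  rwa [e] at this

/-- The normaliser of a non-self-adjoint field over the field with three elements. -/
theorem Sp.q3_nonselfadj {K : Subgroup (GL ι F)} (C : SCtx f K) (h3 : Fintype.card F = 3) (hcard : Fintype.card ι = 4)
    {H : Subgroup (GL ι F)} (hH : IsMaximalIn K H)
    {K' : Subalgebra F (Matrix ι ι F)} (hK : IsFieldSubalgebra 2 K') (hclosed : IsAdjointClosedFor f K') (hns : ¬ IsSelfAdjointFor f K')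
    (hle : H ≤ subalgebraNormalizer K') :
    ∃ R : Subgroup (GL ι F), IsSymplecticTypeGroup 2 R ∧ ActsAbsolutelyIrreducibly (matrixSet R) ∧ R ≤ similarityGroup f ∧
      Nat.card R = 32 ∧ Nat.card (Subgroup.center R) = 2 ∧ IsOfMinusType 2 R ∧ H = subgroupNormalizer R ⊓ K := by
  classical
  haveI : Nonempty ι := Fintype.card_pos_iff.mp (by omega)
  obtain ⟨R, hX, hN⟩ := nonselfadj_three C.ctx C.alt h3 hcard hK hclosed hns (fun g hg => C.fix g (hH.1.le hg)) hle
  obtain ⟨k, hk, hcardR⟩ := hX.exists_k (by omega)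
  have hk2 : k = 2 := by
    rw [hcard] at hk
    have h4 : (2 : ℕ) ^ k = 2 ^ 2 := by rw [← hk]; norm_num
    exact Nat.pow_right_injective (le_refl 2) h4
  subst hk2
  obtain ⟨a, ha0⟩ := exists_ne (0 : ι → F)
  have htv := C.dual_self a 1
  have hφ := C.dual_ne ha0 one_ne_zero
  have hmem := C.tv a 1 htv
  have habs : ActsAbsolutelyIrreducibly (matrixSet R) := actsAbs_of_spanG hX.span
  refine ⟨R, hX.symplecticType (by omega), habs, fun g hg => ⟨1, fun u v => ?_⟩, by rw [hcardR]; norm_num, hX.card_center (by omega),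
    hX.minus_type (by omega) hk, maximal_eq' hH hN ?_⟩
  · rw [hX.fix g hg, Units.val_one, one_mul]
  · intro hle'
    refine tv_not_nrm (by omega) ((actsIrreducibly_iff R).mp habs.1) (fun g hg => scalars_of_absIrred habs hg)
      (fun x hx y hy => (hX.comm' hx hy).imp fun _ h => h.2) htv ha0 hφ ?_
    intro x hx
    have h12 : tvG htv ∈ Subgroup.normalizer (R : Set (GL ι F)) := hle' hmem
    exact (Subgroup.mem_normalizer_iff.mp h12 x).mp hx

end Cfsg.Agent.H97.Asch
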