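import Cfsg.Agent.Lib.H97K5

/-!
Similarities of the split quadratic form of dimension four, viewed on the tensor square of a plane: they are tensor products,
possibly followed by the swap of the two factors.
-/

set_option autoImplicit false
set_option linter.unusedSectionVars false
set_option linter.style.haveILetI false

namespace Cfsg.Agent.H97.Asch

open Matrix Cfsg Cfsg.Geo
open scoped MatrixGroups commutatorElement Kronecker

section Hyp

variable {F : Type*} [Field F]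

/-- the bracket of two vectors of the plane -/
def br2 (v w : Fin 2 → F) : F := v 0 * w 1 - v 1 * w 0

/-- the split form on the tensor square of the plane -/
def hypB (x y : Fin 2 × Fin 2 → F) : F :=
  x (0, 0) * y (1, 1) - x (0, 1) * y (1, 0) - x (1, 0) * y (0, 1) + x (1, 1) * y (0, 0)

theorem hypB_tvP (v w v' w' : Fin 2 → F) : hypB (tvP v w) (tvP v' w') = br2 v v' * br2 w w' := by
  simp only [hypB, tvP, br2]
  ring

theorem hypB_self (x : Fin 2 × Fin 2 → F) : hypB x x = 2 * (x (0, 0) * x (1, 1) - x (0, 1) * x (1, 0)) := by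
  simp only [hypB]
  ring

theorem hypB_single (z w : Fin 2 × Fin 2) : hypB (Pi.single z (1 : F)) (Pi.single w 1) = detJ z.1 w.1 * detJ z.2 w.2 := by
  obtain ⟨a, b⟩ := z
  obtain ⟨c, d⟩ := w
  fin_cases a <;> fin_cases b <;> fin_cases c <;> fin_cases d <;> simp [hypB, detJ, Pi.single_apply]

theorem exists_rank_one (x : Fin 2 × Fin 2 → F) (h : x (0, 0) * x (1, 1) = x (0, 1) * x (1, 0)) :
    ∃ v w : Fin 2 → F, x = tvP v w := by
  by_cases h00 : x (0, 0) = 0
  · by_cases h01 : x (0, 1) = 0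
    · refine ⟨![0, 1], ![x (1, 0), x (1, 1)], ?_⟩
      funext ⟨i, j⟩
      fin_cases i <;> fin_cases j <;> simp [tvP, h00, h01]
    · have h10 : x (1, 0) = 0 := by
        rw [h00, zero_mul] at h
        exact (mul_eq_zero.mp h.symm).resolve_left h01
      refine ⟨![1, x (1, 1) / x (0, 1)], ![0, x (0, 1)], ?_⟩
      funext ⟨i, j⟩
      fin_cases i <;> fin_cases j <;> simp [tvP, h00, h10]
      field_simp
  · refine ⟨![x (0, 0), x (1, 0)], ![1, x (0, 1) / x (0, 0)], ?_⟩
    funext ⟨i, j⟩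
    fin_cases i <;> fin_cases j <;> simp [tvP]
    · field_simp
    · field_simp
      linear_combination h

theorem prop_of_br2 {a b : Fin 2 → F} (h : br2 a b = 0) (ha : a ≠ 0) : ∃ α : F, b = α • a := by
  simp only [br2] at h
  by_cases h0 : a 0 = 0
  · have h1 : a 1 ≠ 0 := by
      intro h1
      apply ha
      funext i
      fin_cases i
      · exact h0
      · exact h1
    rw [h0, zero_mul] at h
    refine ⟨b 1 / a 1, ?_⟩
    have hb0 : b 0 = 0 := by
      have : a 1 * b 0 = 0 := by linear_combination -h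
      exact (mul_eq_zero.mp this).resolve_left h1
    funext i
    fin_cases i
    · simp [hb0, h0]
    · simp
      field_simp
  · refine ⟨b 0 / a 0, ?_⟩
    funext i
    fin_cases i
    · simp
      field_simp
    · simp
      field_simp
      linear_combination h

theorem tvP_smul_move (c : F) (v w : Fin 2 → F) : tvP (c • v) w = tvP v (c • w) := by
  funext z
  simp only [tvP, Pi.smul_apply, smul_eq_mul]
  ring

theorem br2_smul_right (c : F) (v w : Fin 2 → F) : br2 v (c • w) = c * br2 v w := by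
  simp only [br2, Pi.smul_apply, smul_eq_mul]
  ring

theorem br2_smul_left (c : F) (v w : Fin 2 → F) : br2 (c • v) w = c * br2 v w := by
  simp only [br2, Pi.smul_apply, smul_eq_mul]
  ring

theorem br2_swap (v w : Fin 2 → F) : br2 v w = - br2 w v := by
  simp only [br2]
  ring

theorem ne_zero_of_br2 {a b : Fin 2 → F} (h : br2 a b ≠ 0) : a ≠ 0 := by
  rintro rfl
  simp [br2] at h

/-- a matrix from two columns -/
noncomputable def col2 (v w : Fin 2 → F) (h : br2 v w ≠ 0) : GL (Fin 2) F :=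
  Matrix.GeneralLinearGroup.mkOfDetNeZero !![v 0, w 0; v 1, w 1] (by
    rw [Matrix.det_fin_two_of]
    intro h0
    apply h
    simp only [br2]
    linear_combination h0)

theorem hyp_sim_core (h2 : (2 : F) ≠ 0) {M : Matrix (Fin 2 × Fin 2) (Fin 2 × Fin 2) F} {μ : F} (hμ : μ ≠ 0)
    (hM : ∀ x y, hypB (M *ᵥ x) (M *ᵥ y) = μ * hypB x y) {v w w' : Fin 2 → F}
    (h0 : M *ᵥ (Pi.single (0, 0) 1) = tvP v w) (h1 : M *ᵥ (Pi.single (0, 1) 1) = tvP v w') :
    ∃ a b : GL (Fin 2) F, M = (a : Matrix (Fin 2) (Fin 2) F) ⊗ₖ (b : Matrix (Fin 2) (Fin 2) F) := by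
  classical
  have hQ : ∀ z w : Fin 2 × Fin 2, z = w → (M *ᵥ (Pi.single z 1)) (0, 0) * (M *ᵥ (Pi.single z 1)) (1, 1) =
      (M *ᵥ (Pi.single z 1)) (0, 1) * (M *ᵥ (Pi.single z 1)) (1, 0) := by
    rintro ⟨a, b⟩ _ rfl
    have h3 := hM (Pi.single (a, b) 1) (Pi.single (a, b) 1)
    rw [hypB_self, hypB_self] at h3
    have h4 : ((Pi.single (a, b) (1 : F) : Fin 2 × Fin 2 → F) (0, 0) * (Pi.single (a, b) (1 : F) : Fin 2 × Fin 2 → F) (1, 1) -
        (Pi.single (a, b) (1 : F) : Fin 2 × Fin 2 → F) (0, 1) * (Pi.single (a, b) (1 : F) : Fin 2 × Fin 2 → F) (1, 0)) = 0 := by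
      fin_cases a <;> fin_cases b <;> simp [Pi.single_apply]
    rw [h4, mul_zero, mul_zero] at h3
    have h5 := (mul_eq_zero.mp h3).resolve_left h2
    linear_combination h5
  obtain ⟨y, t, hy⟩ := exists_rank_one _ (hQ (1, 0) (1, 0) rfl)
  obtain ⟨y', t', hy'⟩ := exists_rank_one _ (hQ (1, 1) (1, 1) rfl)
  have r1 := hM (Pi.single (0, 0) 1) (Pi.single (1, 0) 1)
  have r2 := hM (Pi.single (0, 1) 1) (Pi.single (1, 0) 1)
  have r3 := hM (Pi.single (0, 0) 1) (Pi.single (1, 1) 1)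
  have r4 := hM (Pi.single (0, 1) 1) (Pi.single (1, 1) 1)
  rw [h0, hy, hypB_tvP, hypB_single] at r1
  rw [h1, hy, hypB_tvP, hypB_single] at r2
  rw [h0, hy', hypB_tvP, hypB_single] at r3
  rw [h1, hy', hypB_tvP, hypB_single] at r4
  simp [detJ] at r1 r2 r3 r4
  have hvy : br2 v y ≠ 0 := by
    intro h
    rw [h, zero_mul] at r2
    exact hμ (neg_eq_zero.mp r2.symm)
  have hw't : br2 w' t ≠ 0 := by
    intro h
    rw [h, mul_zero] at r2
    exact hμ (neg_eq_zero.mp r2.symm)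
  have hvy' : br2 v y' ≠ 0 := by
    intro h
    rw [h, zero_mul] at r3
    exact hμ r3.symm
  have hwt' : br2 w t' ≠ 0 := by
    intro h
    rw [h, mul_zero] at r3
    exact hμ r3.symm
  have hwt : br2 w t = 0 := by
    rcases r1 with r1 | r1
    · exact absurd r1 hvy
    · exact r1
  have hw't' : br2 w' t' = 0 := by
    rcases r4 with r4 | r4
    · exact absurd r4 hvy'
    · exact r4
  obtain ⟨α, rfl⟩ := prop_of_br2 hwt (ne_zero_of_br2 hwt')
  obtain ⟨β, rfl⟩ := prop_of_br2 hw't' (ne_zero_of_br2 hw't)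
  rw [← tvP_smul_move] at hy hy'
  set y₁ := α • y with hy₁
  set y₂ := β • y' with hy₂
  rw [br2_smul_right] at hw't hwt' r2 r3
  have r2' := hM (Pi.single (0, 1) 1) (Pi.single (1, 0) 1)
  have r3' := hM (Pi.single (0, 0) 1) (Pi.single (1, 1) 1)
  have r5' := hM (Pi.single (1, 0) 1) (Pi.single (1, 1) 1)
  rw [h1, hy, hypB_tvP, hypB_single] at r2'
  rw [h0, hy', hypB_tvP, hypB_single] at r3'
  rw [hy, hy', hypB_tvP, hypB_single] at r5'
  simp [detJ] at r2' r3' r5'
  have hww' : br2 w w' ≠ 0 := by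
    intro h
    rw [h, mul_zero] at r3'
    exact hμ r3'.symm
  have hy12 : br2 y₁ y₂ = 0 := by
    rcases r5' with h | h
    · exact h
    · exact absurd h hww'
  have hvy₁ : br2 v y₁ ≠ 0 := by
    intro h
    rw [h, zero_mul] at r2'
    exact hμ (neg_eq_zero.mp r2'.symm)
  obtain ⟨γ, hγ⟩ := prop_of_br2 hy12 (fun h => by
    apply hvy₁
    rw [h]
    simp [br2])
  have hγ1 : γ = 1 := by
    rw [hγ, br2_smul_right] at r3'
    rw [br2_swap w' w] at r2'
    have h5 : (γ - 1) * (br2 v y₁ * br2 w w') = 0 := by linear_combination r3' + r2'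
    have h6 := (mul_eq_zero.mp h5).resolve_right (mul_ne_zero hvy₁ hww')
    exact sub_eq_zero.mp h6
  rw [hγ1, one_smul] at hγ
  rw [hγ] at hy'
  refine ⟨col2 v y₁ hvy₁, col2 w w' hww', ?_⟩
  have e1 : ∀ k l i j, M (i, j) (k, l) = (M *ᵥ (Pi.single (k, l) 1)) (i, j) := by
    intro k l i j
    rw [Matrix.mulVec_single_one]
    rfl
  ext ⟨i, j⟩ ⟨k, l⟩
  rw [e1, Matrix.kroneckerMap_apply]
  fin_cases k <;> fin_cases l
  · show (M *ᵥ Pi.single (0, 0) 1) (i, j) = _
    rw [h0]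
    fin_cases i <;> fin_cases j <;> simp [tvP, col2]
  · show (M *ᵥ Pi.single (0, 1) 1) (i, j) = _
    rw [h1]
    fin_cases i <;> fin_cases j <;> simp [tvP, col2]
  · show (M *ᵥ Pi.single (1, 0) 1) (i, j) = _
    rw [hy]
    fin_cases i <;> fin_cases j <;> simp [tvP, col2]
  · show (M *ᵥ Pi.single (1, 1) 1) (i, j) = _
    rw [hy']
    fin_cases i <;> fin_cases j <;> simp [tvP, col2]

/-- The classification of the similarities of the split form. -/
theorem hyp_sim (h2 : (2 : F) ≠ 0) {M : Matrix (Fin 2 × Fin 2) (Fin 2 × Fin 2) F} {μ : F} (hμ : μ ≠ 0)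
    (hM : ∀ x y, hypB (M *ᵥ x) (M *ᵥ y) = μ * hypB x y) :
    ∃ a b : GL (Fin 2) F, M = (a : Matrix (Fin 2) (Fin 2) F) ⊗ₖ (b : Matrix (Fin 2) (Fin 2) F) ∨
      M = ((a : Matrix (Fin 2) (Fin 2) F) ⊗ₖ (b : Matrix (Fin 2) (Fin 2) F)).submatrix id Prod.swap := by
  classical
  have hQ : ∀ z : Fin 2 × Fin 2, (M *ᵥ (Pi.single z 1)) (0, 0) * (M *ᵥ (Pi.single z 1)) (1, 1) =
      (M *ᵥ (Pi.single z 1)) (0, 1) * (M *ᵥ (Pi.single z 1)) (1, 0) := by
    rintro ⟨a, b⟩
    have h3 := hM (Pi.single (a, b) 1) (Pi.single (a, b) 1)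
    rw [hypB_self, hypB_self] at h3
    have h4 : ((Pi.single (a, b) (1 : F) : Fin 2 × Fin 2 → F) (0, 0) * (Pi.single (a, b) (1 : F) : Fin 2 × Fin 2 → F) (1, 1) -
        (Pi.single (a, b) (1 : F) : Fin 2 × Fin 2 → F) (0, 1) * (Pi.single (a, b) (1 : F) : Fin 2 × Fin 2 → F) (1, 0)) = 0 := by
      fin_cases a <;> fin_cases b <;> simp [Pi.single_apply]
    rw [h4, mul_zero, mul_zero] at h3
    have h5 := (mul_eq_zero.mp h3).resolve_left h2
    linear_combination h5
  obtain ⟨p, r, hp⟩ := exists_rank_one _ (hQ (0, 0))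
  obtain ⟨p', r', hp'⟩ := exists_rank_one _ (hQ (0, 1))
  have r0 := hM (Pi.single (0, 0) 1) (Pi.single (0, 1) 1)
  rw [hp, hp', hypB_tvP, hypB_single] at r0
  simp [detJ] at r0
  have hne : M *ᵥ (Pi.single (0, 0) 1) ≠ 0 := by
    intro h
    have h3 := hM (Pi.single (0, 0) 1) (Pi.single (1, 1) 1)
    rw [h, hypB_single] at h3
    simp [detJ, hypB] at h3
    exact hμ h3.symm
  rcases r0 with r0 | r0
  · have hp0 : p ≠ 0 := by
      rintro rfl
      apply hne
      rw [hp]
      funext z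
      simp [tvP]
    obtain ⟨α, rfl⟩ := prop_of_br2 r0 hp0
    rw [tvP_smul_move] at hp'
    obtain ⟨a, b, hab⟩ := hyp_sim_core h2 hμ hM hp hp'
    exact ⟨a, b, Or.inl hab⟩
  · have hr0 : r ≠ 0 := by
      rintro rfl
      apply hne
      rw [hp]
      funext z
      simp [tvP]
    obtain ⟨α, rfl⟩ := prop_of_br2 r0 hr0
    have hS : ∀ x, (M.submatrix Prod.swap id) *ᵥ x = (M *ᵥ x) ∘ Prod.swap := by
      intro x
      funext z
      rfl
    have hsw : ∀ x y : Fin 2 × Fin 2 → F, hypB (x ∘ Prod.swap) (y ∘ Prod.swap) = hypB x y := by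
      intro x y
      simp only [hypB, Function.comp_apply, Prod.swap_prod_mk]
      ring
    have hM' : ∀ x y, hypB ((M.submatrix Prod.swap id) *ᵥ x) ((M.submatrix Prod.swap id) *ᵥ y) = μ * hypB x y := by
      intro x y
      rw [hS, hS, hsw, hM]
    have htv : ∀ u v : Fin 2 → F, (tvP u v) ∘ Prod.swap = tvP v u := by
      intro u v
      funext z
      simp only [tvP, Function.comp_apply, Prod.fst_swap, Prod.snd_swap]
      ring
    have h₀ : (M.submatrix Prod.swap id) *ᵥ (Pi.single (0, 0) 1) = tvP r p := by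
      rw [hS, hp, htv]
    have h₁ : (M.submatrix Prod.swap id) *ᵥ (Pi.single (0, 1) 1) = tvP r (α • p') := by
      rw [hS, hp', htv, tvP_smul_move]
    obtain ⟨a, b, hab⟩ := hyp_sim_core h2 hμ hM' h₀ h₁
    refine ⟨b, a, Or.inr ?_⟩
    ext ⟨i, j⟩ ⟨k, l⟩
    have := congrFun (congrFun hab (j, i)) (k, l)
    simp only [Matrix.submatrix_apply, Prod.swap_prod_mk, id, Matrix.kroneckerMap_apply] at this ⊢
    rw [this]
    ring

end Hyp

end Cfsg.Agent.H97.Asch
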