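import Cfsg.Agent.Lib.H97K6

/-!
A tensor decomposition with a plus type factor of dimension four refines to a tensor cube.
-/

set_option autoImplicit false
set_option linter.unusedSectionVars false
set_option linter.style.haveILetI false

namespace Cfsg.Agent.H97.Asch

open Matrix Cfsg Cfsg.Geo
open scoped MatrixGroups commutatorElement Kronecker

variable {F : Type*} [Field F] [Fintype F]

/-- A Witt basis of a plus type form. -/
theorem exists_plus_basis {f₂ : (Fin 4 → F) → (Fin 4 → F) → F} (h2 : (2 : F) ≠ 0) (h₂ : IsSymmetricForm f₂)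
    (hplus : IsPlusTypeOn (fun v : Fin 4 → F => f₂ v v) ⊤) :
    ∃ a b c d : Fin 4 → F, f₂ a a = 0 ∧ f₂ a b = 0 ∧ f₂ a c = 0 ∧ f₂ a d = 1 ∧ f₂ b b = 0 ∧ f₂ b c = -1 ∧ f₂ b d = 0 ∧
      f₂ c c = 0 ∧ f₂ c d = 0 ∧ f₂ d d = 0 := by
  classical
  have hS := sesq_of_bilinear h₂.bilinear
  have hsy := h₂.symm
  have hsubr : ∀ u v w, f₂ u (v - w) = f₂ u v - f₂ u w := fun u v w => by
    have h3 := hS.add_right u (v - w) w
    rw [sub_add_cancel] at h3
    rw [h3, add_sub_cancel_right]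
  obtain ⟨U, -, hts, hdim⟩ := hplus
  have hU2 : Module.finrank F U = 2 := by
    rw [finrank_top, Module.finrank_fintype_fun_eq_card, Fintype.card_fin] at hdim
    omega
  let Bs := Module.finBasisOfFinrankEq F U hU2
  set a₀ : Fin 4 → F := ((Bs 0 : U) : Fin 4 → F) with ha₀
  set b₀ : Fin 4 → F := ((Bs 1 : U) : Fin 4 → F) with hb₀
  have haa : f₂ a₀ a₀ = 0 := hts _ (Bs 0).2
  have hbb : f₂ b₀ b₀ = 0 := hts _ (Bs 1).2
  have hab : f₂ a₀ b₀ = 0 := by
    have h3 : f₂ (a₀ + b₀) (a₀ + b₀) = 0 := hts _ (U.add_mem (Bs 0).2 (Bs 1).2)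
    rw [hS.add_left, hS.add_right, hS.add_right, haa, hbb, hsy b₀ a₀] at h3
    have h4 : 2 * f₂ a₀ b₀ = 0 := by linear_combination h3
    exact (mul_eq_zero.mp h4).resolve_left h2
  have hba : f₂ b₀ a₀ = 0 := by rw [hsy, hab]
  have hind : ∀ α β : F, α • a₀ + β • b₀ = 0 → α = 0 ∧ β = 0 := by
    intro α β h
    have h3 := Fintype.linearIndependent_iff.mp Bs.linearIndependent ![α, β] (by
      rw [Fin.sum_univ_two]
      apply Subtype.ext
      simpa using h)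
    exact ⟨h3 0, h3 1⟩
  let Φ : (Fin 4 → F) →ₗ[F] (Fin 2 → F) :=
    { toFun := fun z => ![f₂ a₀ z, f₂ b₀ z]
      map_add' := fun x y => by
        ext i
        fin_cases i
        · simp [hS.add_right]
        · simp [hS.add_right]
      map_smul' := fun c x => by
        ext i
        fin_cases i
        · simp [hS.smul_right]
        · simp [hS.smul_right] }
  have hsurj : Function.Surjective Φ := by
    rw [← LinearMap.range_eq_top]
    by_contra hne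
    obtain ⟨φ, hφ, hle⟩ := Submodule.exists_le_ker_of_lt_top _ (lt_top_iff_ne_top.mpr hne)
    set α := φ ![1, 0] with hα
    set β := φ ![0, 1] with hβ
    have hφv : ∀ v : Fin 2 → F, φ v = v 0 * α + v 1 * β := by
      intro v
      have e : v = v 0 • ![1, 0] + v 1 • ![0, 1] := by
        funext i
        fin_cases i <;> simp
      conv_lhs => rw [e]
      rw [map_add, map_smul, map_smul, smul_eq_mul, smul_eq_mul]
    have h5 : ∀ z, f₂ (α • a₀ + β • b₀) z = 0 := by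
      intro z
      have h6 : φ (Φ z) = 0 := hle ⟨z, rfl⟩
      rw [hφv] at h6
      rw [hS.add_left, hS.smul_left, hS.smul_left]
      have e0 : (Φ z) 0 = f₂ a₀ z := rfl
      have e1 : (Φ z) 1 = f₂ b₀ z := rfl
      rw [e0, e1] at h6
      linear_combination h6
    have h7 : α • a₀ + β • b₀ = 0 := by
      by_contra h8
      obtain ⟨-, ⟨z, hz⟩⟩ := h₂.nondegenerate _ h8
      exact hz (h5 z)
    obtain ⟨h8, h9⟩ := hind α β h7
    apply hφ
    ext v
    · simp only [LinearMap.coe_comp, LinearMap.coe_single, Function.comp_apply, LinearMap.zero_apply]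
      rw [hφv]
      simp [h8, h9]
  obtain ⟨z₁, hz₁⟩ := hsurj ![1, 0]
  obtain ⟨z₂, hz₂⟩ := hsurj ![0, 1]
  have e1 : f₂ a₀ z₁ = 1 := congrFun hz₁ 0
  have e2 : f₂ b₀ z₁ = 0 := congrFun hz₁ 1
  have e3 : f₂ a₀ z₂ = 0 := congrFun hz₂ 0
  have e4 : f₂ b₀ z₂ = 1 := congrFun hz₂ 1
  have e1' : f₂ z₁ a₀ = 1 := by rw [hsy, e1]
  have e2' : f₂ z₁ b₀ = 0 := by rw [hsy, e2]
  have e3' : f₂ z₂ a₀ = 0 := by rw [hsy, e3]
  have e4' : f₂ z₂ b₀ = 1 := by rw [hsy, e4]
  set s₁ := f₂ z₁ z₁ / 2 with hs₁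
  set s₂ := f₂ z₂ z₂ / 2 with hs₂
  have hs₁' : 2 * s₁ = f₂ z₁ z₁ := by rw [hs₁]; field_simp
  have hs₂' : 2 * s₂ = f₂ z₂ z₂ := by rw [hs₂]; field_simp
  obtain ⟨z₁', hz₁'⟩ : ∃ z, z = z₁ - s₁ • a₀ := ⟨_, rfl⟩
  obtain ⟨z₂', hz₂'⟩ : ∃ z, z = z₂ - s₂ • b₀ := ⟨_, rfl⟩
  have d1 : f₂ a₀ z₁' = 1 := by
    rw [hz₁', hsubr, hS.smul_right, haa, e1]
    simp
  have d2 : f₂ b₀ z₁' = 0 := by
    rw [hz₁', hsubr, hS.smul_right, hba, e2]
    simp
  have d3 : f₂ a₀ z₂' = 0 := by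
    rw [hz₂', hsubr, hS.smul_right, hab, e3]
    simp
  have d4 : f₂ b₀ z₂' = 1 := by
    rw [hz₂', hsubr, hS.smul_right, hbb, e4]
    simp
  have d5 : f₂ z₁' z₁' = 0 := by
    rw [hz₁', hS.sub_left, hsubr, hsubr, hS.smul_left, hS.smul_right, hS.smul_right, hS.smul_left, haa, e1, e1', ← hs₁']
    simp
    ring
  have d6 : f₂ z₂' z₂' = 0 := by
    rw [hz₂', hS.sub_left, hsubr, hsubr, hS.smul_left, hS.smul_right, hS.smul_right, hS.smul_left, hbb, e4, e4', ← hs₂']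
    simp
    ring
  obtain ⟨d, hd⟩ : ∃ d, d = f₂ z₁' z₂' := ⟨_, rfl⟩
  obtain ⟨z₃, hz₃⟩ : ∃ z, z = z₂' - d • a₀ := ⟨_, rfl⟩
  have d7 : f₂ z₁' a₀ = 1 := by rw [hsy, d1]
  have d8 : f₂ z₂' a₀ = 0 := by rw [hsy, d3]
  have d9 : f₂ a₀ z₃ = 0 := by
    rw [hz₃, hsubr, hS.smul_right, haa, d3]
    simp
  have d10 : f₂ b₀ z₃ = 1 := by
    rw [hz₃, hsubr, hS.smul_right, hba, d4]
    simp
  have d11 : f₂ z₃ z₃ = 0 := by
    rw [hz₃, hS.sub_left, hsubr, hsubr, hS.smul_left, hS.smul_right, hS.smul_right, hS.smul_left, haa, d3, d8, d6]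
    simp
  have d12 : f₂ z₁' z₃ = 0 := by
    rw [hz₃, hsubr, hS.smul_right, ← hd, d7]
    simp
  have hneg : ∀ u v, f₂ u (-v) = - f₂ u v := fun u v => by
    have := hS.smul_right (-1) u v
    rw [neg_one_smul] at this
    simpa using this
  have hneg' : ∀ u v, f₂ (-u) v = - f₂ u v := fun u v => by
    have := hS.smul_left (-1) u v
    rw [neg_one_smul] at this
    simpa using this
  refine ⟨a₀, b₀, -z₃, z₁', haa, hab, ?_, d1, hbb, ?_, d2, ?_, ?_, d5⟩
  · rw [hneg, d9, neg_zero]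
  · rw [hneg, d10]
  · rw [hneg, hneg', d11]
    simp
  · rw [hneg', hsy, d12, neg_zero]

/-- the identification of index sets -/
def plusEquiv : Fin 2 × Fin 2 ≃ Fin 4 := finProdFinEquiv

theorem exists_plus_matrix {f₂ : (Fin 4 → F) → (Fin 4 → F) → F} (h2 : (2 : F) ≠ 0) (h₂ : IsSymmetricForm f₂)
    (hplus : IsPlusTypeOn (fun v : Fin 4 → F => f₂ v v) ⊤) :
    ∃ W : GL (Fin 4) F, ∀ x y : Fin 2 × Fin 2 → F,
      f₂ ((W : Matrix (Fin 4) (Fin 4) F) *ᵥ (x ∘ plusEquiv.symm)) ((W : Matrix (Fin 4) (Fin 4) F) *ᵥ (y ∘ plusEquiv.symm)) = hypB x y := by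
  classical
  have hS := sesq_of_bilinear h₂.bilinear
  have hsy := h₂.symm
  obtain ⟨a, b, c, d, g1, g2, g3, g4, g5, g6, g7, g8, g9, g10⟩ := exists_plus_basis h2 h₂ hplus
  let u : Fin 2 × Fin 2 → (Fin 4 → F) := fun z => ![![a, b], ![c, d]] z.1 z.2
  let W : Matrix (Fin 4) (Fin 4) F := Matrix.of fun k l => u (plusEquiv.symm l) k
  have hWx : ∀ x : Fin 2 × Fin 2 → F, W *ᵥ (x ∘ plusEquiv.symm) = x (0, 0) • a + x (0, 1) • b + x (1, 0) • c + x (1, 1) • d := by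
    intro x
    funext k
    have e1 : (W *ᵥ (x ∘ plusEquiv.symm)) k = ∑ l, u (plusEquiv.symm l) k * x (plusEquiv.symm l) := rfl
    rw [e1, plusEquiv.symm.sum_comp (fun z => u z k * x z), Fintype.sum_prod_type, Fin.sum_univ_two, Fin.sum_univ_two, Fin.sum_univ_two]
    simp [u]
    ring
  have hform : ∀ x y : Fin 2 × Fin 2 → F, f₂ (W *ᵥ (x ∘ plusEquiv.symm)) (W *ᵥ (y ∘ plusEquiv.symm)) = hypB x y := by
    intro x y
    rw [hWx, hWx]
    have g2' : f₂ b a = 0 := by rw [hsy, g2]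
    have g3' : f₂ c a = 0 := by rw [hsy, g3]
    have g4' : f₂ d a = 1 := by rw [hsy, g4]
    have g6' : f₂ c b = -1 := by rw [hsy, g6]
    have g7' : f₂ d b = 0 := by rw [hsy, g7]
    have g9' : f₂ d c = 0 := by rw [hsy, g9]
    simp only [hS.add_left, hS.add_right, hS.smul_left, hS.smul_right, RingHom.id_apply, g1, g2, g3, g4, g5, g6, g7, g8, g9, g10, g2', g3', g4', g6', g7', g9', hypB]
    ring
  have hinj0 : ∀ v, W *ᵥ v = 0 → v = 0 := by
    intro v hv'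
    have hv2 : W *ᵥ ((v ∘ plusEquiv) ∘ plusEquiv.symm) = 0 := by
      have : (v ∘ plusEquiv) ∘ plusEquiv.symm = v := by
        funext k
        simp
      rw [this, hv']
    have h0 : ∀ y, hypB (v ∘ plusEquiv) y = 0 := by
      intro y
      rw [← hform, hv2, hS.zero_left]
    have h1 := h0 (Pi.single (1, 1) 1)
    have h3 := h0 (Pi.single (1, 0) 1)
    have h4 := h0 (Pi.single (0, 1) 1)
    have h5 := h0 (Pi.single (0, 0) 1)
    simp [hypB, Pi.single_apply] at h1 h3 h4 h5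
    funext k
    obtain ⟨⟨i, j⟩, rfl⟩ := plusEquiv.surjective k
    fin_cases i <;> fin_cases j
    · exact h1
    · exact h3
    · exact h4
    · exact h5
  have hinj : Function.Injective W.mulVec := by
    intro v₁ v₂ h
    have h' : W *ᵥ (v₁ - v₂) = 0 := by
      rw [Matrix.mulVec_sub]
      exact sub_eq_zero.mpr h
    exact sub_eq_zero.mp (hinj0 _ h')
  have hunit : IsUnit W := Matrix.mulVec_injective_iff_isUnit.mp hinj
  refine ⟨hunit.unit, fun x y => ?_⟩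
  have : ((hunit.unit : GL (Fin 4) F) : Matrix (Fin 4) (Fin 4) F) = W := hunit.unit_spec
  rw [this]
  exact hform x y

end Cfsg.Agent.H97.Asch
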