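import Cfsg.Agent.Lib.H97K7

/-!
A tensor decomposition with a plus type factor of dimension four refines to a tensor cube: the assembly.
-/

set_option autoImplicit false
set_option linter.unusedSectionVars false
set_option linter.style.haveILetI false

namespace Cfsg.Agent.H97.Asch

open Matrix Cfsg Cfsg.Geo
open scoped MatrixGroups commutatorElement Kronecker

variable {ι : Type} [Fintype ι] [DecidableEq ι] {F : Type*} [Field F] [Fintype F] {f : (ι → F) → (ι → F) → F}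

/-- triples of indices -/
def triEquiv : Fin 2 × (Fin 2 × Fin 2) ≃ (Fin 3 → Fin 2) where
  toFun p := ![p.1, p.2.1, p.2.2]
  invFun a := (a 0, (a 1, a 2))
  left_inv p := rfl
  right_inv a := by
    funext i
    fin_cases i <;> rfl

/-- the index map -/
def rhoEquiv : Fin 2 × Fin 4 ≃ (Fin 3 → Fin 2) :=
  (Equiv.prodCongr (Equiv.refl _) plusEquiv.symm).trans triEquiv

theorem rhoEquiv_zero (a : Fin 2) (k : Fin 4) : rhoEquiv (a, k) 0 = a := rfl
theorem rhoEquiv_one (a : Fin 2) (k : Fin 4) : rhoEquiv (a, k) 1 = (plusEquiv.symm k).1 := rfl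
theorem rhoEquiv_two (a : Fin 2) (k : Fin 4) : rhoEquiv (a, k) 2 = (plusEquiv.symm k).2 := rfl

theorem detJ_ctx (h2 : (2 : F) ≠ 0) : FCtx (RingHom.id F) (-1) (formOfGram ((RingHom.id F : F →+* F) : F → F) (detJ : Matrix (Fin 2) (Fin 2) F)) := by
  have hval : ∀ u v : Fin 2 → F, formOfGram ((RingHom.id F : F →+* F) : F → F) (detJ : Matrix (Fin 2) (Fin 2) F) u v = u 0 * v 1 - u 1 * v 0 := by
    intro u v
    simp [formOfGram, Fin.sum_univ_two, detJ]
    ring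
  refine ⟨⟨?_, ?_, ?_, ?_⟩, ?_, ?_, fun _ => rfl, ?_⟩
  · intro x y v
    simp only [hval, Pi.add_apply]
    ring
  · intro c x v
    simp only [hval, Pi.smul_apply, smul_eq_mul]
    ring
  · intro v x y
    simp only [hval, Pi.add_apply]
    ring
  · intro c v x
    simp only [hval, Pi.smul_apply, smul_eq_mul, RingHom.id_apply]
    ring
  · intro v hv
    by_contra hcon
    push Not at hcon
    apply hv
    have h0 := hcon ![1, 0]
    have h1 := hcon ![0, 1]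
    rw [hval] at h0 h1
    simp at h0 h1
    funext i
    fin_cases i
    · exact h1
    · exact h0
  · intro v hv
    by_contra hcon
    push Not at hcon
    apply hv
    have h0 := hcon ![1, 0]
    have h1 := hcon ![0, 1]
    rw [hval] at h0 h1
    simp at h0 h1
    funext i
    fin_cases i
    · exact h1
    · exact h0
  · intro u v
    simp only [hval, RingHom.id_apply]
    ring

theorem symplectic_gram {f₁ : (Fin 2 → F) → (Fin 2 → F) → F} (h₁ : IsSymplecticForm f₁) :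
    ∃ t : F, t ≠ 0 ∧ gramMatrix f₁ = t • (detJ : Matrix (Fin 2) (Fin 2) F) := by
  have hJ : gramMatrix f₁ = f₁ (Pi.single 0 1) (Pi.single 1 1) • (detJ : Matrix (Fin 2) (Fin 2) F) := by
    apply mat2_ext
    · simp [gramMatrix, detJ, h₁.alternating]
    · simp [gramMatrix, detJ]
    · simp [gramMatrix, detJ]
      exact h₁.skew _ _
    · simp [gramMatrix, detJ, h₁.alternating]
  refine ⟨_, ?_, hJ⟩
  intro h0
  rw [h0, zero_smul] at hJ
  have hS := sesq_of_bilinear h₁.bilinear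
  have hzero : ∀ x y, f₁ x y = 0 := by
    intro x y
    rw [form_eq_gram hS, hJ]
    simp [formOfGram]
  obtain ⟨x₀, hx₀⟩ := exists_ne (0 : Fin 2 → F)
  obtain ⟨-, ⟨z, hz⟩⟩ := h₁.nondegenerate x₀ hx₀
  exact hz (hzero _ _)

/-- A tensor decomposition with a plus type factor of dimension four refines to a tensor cube. -/
theorem tensor_plus_wreath (C : FCtx (RingHom.id F) (-1) f) (h2 : (2 : F) ≠ 0) {e : ι ≃ Fin 2 × Fin 4} {P : GL ι F}
    {f₁ : (Fin 2 → F) → (Fin 2 → F) → F} {f₂ : (Fin 4 → F) → (Fin 4 → F) → F}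
    (h₁ : IsSymplecticForm f₁) (h₂ : IsSymmetricForm f₂) (hplus : IsPlusTypeOn (fun v : Fin 4 → F => f₂ v v) ⊤)
    (hT : IsTensorFormStructure id f f₁ f₂ e P) {H : Subgroup (GL ι F)} (hfix : FFix f H)
    (hle : H ≤ tensorProductSubgroup 2 4 e P) :
    ∃ (e' : ι ≃ (Fin 3 → Fin 2)) (P' : GL ι F) (κ : F), FWreath (RingHom.id F) (-1) f H e' P' detJ κ (-1) := by
  classical
  have hS := C.sesq
  have hS₁ := sesq_of_bilinear h₁.bilinear
  have hS₂ := sesq_of_bilinear h₂.bilinear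
  obtain ⟨c, hc, hcf⟩ := hT
  have hid : (id : F → F) = ((RingHom.id F : F →+* F) : F → F) := rfl
  have heq : ∀ x x' y y', f ((P : Matrix ι ι F) *ᵥ (tvP x y ∘ e)) ((P : Matrix ι ι F) *ᵥ (tvP x' y' ∘ e)) = c * (f₁ x x' * f₂ y y') := by
    intro x x' y y'
    rw [hcf, hid, form_eq_gram hS₁, form_eq_gram hS₂, ← gram_tvP]
    rfl
  obtain ⟨W, hW⟩ := exists_plus_matrix h2 h₂ hplus
  obtain ⟨t, ht, hG₁⟩ := symplectic_gram h₁
  have hdetW : (W : Matrix (Fin 4) (Fin 4) F).det ≠ 0 := ((Matrix.isUnit_iff_isUnit_det _).mp W.isUnit).ne_zero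
  let g₀ : GL (Fin 2 × Fin 4) F := Matrix.GeneralLinearGroup.mkOfDetNeZero ((1 : Matrix (Fin 2) (Fin 2) F) ⊗ₖ (W : Matrix (Fin 4) (Fin 4) F)) (by
    rw [Matrix.det_kronecker]
    simp [hdetW])
  have hg₀v : (g₀ : Matrix (Fin 2 × Fin 4) (Fin 2 × Fin 4) F) = (1 : Matrix (Fin 2) (Fin 2) F) ⊗ₖ (W : Matrix (Fin 4) (Fin 4) F) := rfl
  let P' : GL ι F := P * glReindex e.symm g₀
  have hP' : ∀ z : Fin 2 × Fin 4 → F, (P' : Matrix ι ι F) *ᵥ (z ∘ e) = (P : Matrix ι ι F) *ᵥ (((g₀ : Matrix (Fin 2 × Fin 4) (Fin 2 × Fin 4) F) *ᵥ z) ∘ e) := by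
    intro z
    simp only [P']
    rw [Units.val_mul, ← Matrix.mulVec_mulVec, reindex_mulVec]
  refine ⟨e.trans rhoEquiv, P', c * t, FWreath.of_eqn C ?_ (fun x y => ?_) (mul_ne_zero hc ht) (detJ_ctx h2)⟩
  · -- the containment
    intro g hg
    obtain ⟨a, c', hact⟩ := tensor_action (hle hg)
    obtain ⟨x₀, hx₀⟩ := exists_ne (0 : Fin 2 → F)
    obtain ⟨-, ⟨x₁, hx₁⟩⟩ := h₁.nondegenerate x₀ hx₀
    have hiso : ∀ u v, f₁ ((a : Matrix (Fin 2) (Fin 2) F) *ᵥ x₀) ((a : Matrix (Fin 2) (Fin 2) F) *ᵥ x₁) *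
        f₂ ((c' : Matrix (Fin 4) (Fin 4) F) *ᵥ u) ((c' : Matrix (Fin 4) (Fin 4) F) *ᵥ v) = f₁ x₀ x₁ * f₂ u v := by
      intro u v
      have h3 := hfix g hg ((P : Matrix ι ι F) *ᵥ (tvP x₀ u ∘ e)) ((P : Matrix ι ι F) *ᵥ (tvP x₁ v ∘ e))
      rw [hact, hact, kron_mulVec_tvP, kron_mulVec_tvP, heq, heq] at h3
      exact mul_left_cancel₀ hc h3
    obtain ⟨y₀, hy₀⟩ := exists_ne (0 : Fin 4 → F)
    obtain ⟨-, ⟨v₀, hv₀⟩⟩ := h₂.nondegenerate y₀ hy₀
    have hl0 : f₁ ((a : Matrix (Fin 2) (Fin 2) F) *ᵥ x₀) ((a : Matrix (Fin 2) (Fin 2) F) *ᵥ x₁) ≠ 0 := by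
      intro h0
      have h3 := hiso y₀ v₀
      rw [h0, zero_mul] at h3
      exact mul_ne_zero hx₁ hv₀ h3.symm
    obtain ⟨l, hl⟩ : ∃ l, l = f₁ ((a : Matrix (Fin 2) (Fin 2) F) *ᵥ x₀) ((a : Matrix (Fin 2) (Fin 2) F) *ᵥ x₁) := ⟨_, rfl⟩
    rw [← hl] at hl0 hiso
    obtain ⟨μ, hμ⟩ : ∃ μ, μ = f₁ x₀ x₁ / l := ⟨_, rfl⟩
    have hμ0 : μ ≠ 0 := by
      rw [hμ]
      exact div_ne_zero hx₁ hl0
    have hsim : ∀ u v, f₂ ((c' : Matrix (Fin 4) (Fin 4) F) *ᵥ u) ((c' : Matrix (Fin 4) (Fin 4) F) *ᵥ v) = μ * f₂ u v := by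
      intro u v
      have h3 := hiso u v
      rw [hμ]
      field_simp
      linear_combination h3
    let M₄ : GL (Fin 4) F := W⁻¹ * c' * W
    have hWM : ∀ z, (W : Matrix (Fin 4) (Fin 4) F) *ᵥ ((M₄ : Matrix (Fin 4) (Fin 4) F) *ᵥ z) = (c' : Matrix (Fin 4) (Fin 4) F) *ᵥ ((W : Matrix (Fin 4) (Fin 4) F) *ᵥ z) := by
      intro z
      simp only [M₄]
      rw [gl_mulVec_mul, gl_mulVec_mul, gl_mulVec_inv]
    have hWM' : (c' : Matrix (Fin 4) (Fin 4) F) * (W : Matrix (Fin 4) (Fin 4) F) = (W : Matrix (Fin 4) (Fin 4) F) * (M₄ : Matrix (Fin 4) (Fin 4) F) := by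
      rw [← Units.val_mul, ← Units.val_mul]
      congr 1
      simp only [M₄]
      group
    let M : Matrix (Fin 2 × Fin 2) (Fin 2 × Fin 2) F := (M₄ : Matrix (Fin 4) (Fin 4) F).submatrix plusEquiv plusEquiv
    have hMx : ∀ x, (M *ᵥ x) ∘ plusEquiv.symm = (M₄ : Matrix (Fin 4) (Fin 4) F) *ᵥ (x ∘ plusEquiv.symm) := by
      intro x
      simp only [M]
      rw [Matrix.submatrix_mulVec_equiv]
      funext k
      simp
    have hMB : ∀ x y, hypB (M *ᵥ x) (M *ᵥ y) = μ * hypB x y := by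
      intro x y
      rw [← hW (M *ᵥ x) (M *ᵥ y), ← hW x y, hMx, hMx, hWM, hWM, hsim]
    obtain ⟨b₁, b₂, hb⟩ := hyp_sim h2 hμ0 hMB
    have key : ∀ g₃ : GL (Fin 3 → Fin 2) F, g₃ ∈ tensorWreathStandard 2 3 F →
        (∀ a' k b' l, (a : Matrix (Fin 2) (Fin 2) F) a' b' * (M₄ : Matrix (Fin 4) (Fin 4) F) k l =
          (g₃ : Matrix (Fin 3 → Fin 2) (Fin 3 → Fin 2) F) (rhoEquiv (a', k)) (rhoEquiv (b', l))) →
        g ∈ tensorWreathSubgroup 2 3 (e.trans rhoEquiv) P' := by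
      intro g₃ hg₃ hent
      refine ⟨glReindex (e.trans rhoEquiv).symm g₃, ⟨g₃, hg₃, rfl⟩, ?_⟩
      apply Units.ext
      apply mat_eq_of_pv (e.trans rhoEquiv) P'
      intro x
      show ((P' * glReindex (e.trans rhoEquiv).symm g₃ * P'⁻¹ : GL ι F) : Matrix ι ι F) *ᵥ _ = _
      rw [gl_mulVec_mul, gl_mulVec_mul, gl_inv_mulVec, reindex_mulVec]
      have ex : x ∘ (e.trans rhoEquiv) = (x ∘ rhoEquiv) ∘ e := rfl
      have ex2 : ((g₃ : Matrix (Fin 3 → Fin 2) (Fin 3 → Fin 2) F) *ᵥ x) ∘ (e.trans rhoEquiv) =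
        (((g₃ : Matrix (Fin 3 → Fin 2) (Fin 3 → Fin 2) F) *ᵥ x) ∘ rhoEquiv) ∘ e := rfl
      rw [ex, ex2, hP', hP', hact]
      congr 2
      have hk1 : ((g₃ : Matrix (Fin 3 → Fin 2) (Fin 3 → Fin 2) F) *ᵥ x) ∘ rhoEquiv =
          ((a : Matrix (Fin 2) (Fin 2) F) ⊗ₖ (M₄ : Matrix (Fin 4) (Fin 4) F)) *ᵥ (x ∘ rhoEquiv) := by
        funext z
        obtain ⟨a', k⟩ := z
        simp only [Function.comp_apply, Matrix.mulVec, dotProduct]
        rw [← rhoEquiv.sum_comp]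
        refine Finset.sum_congr rfl fun z _ => ?_
        obtain ⟨b', l⟩ := z
        rw [Matrix.kroneckerMap_apply, hent]
      have hk2 : ((a : Matrix (Fin 2) (Fin 2) F) ⊗ₖ (c' : Matrix (Fin 4) (Fin 4) F)) * (g₀ : Matrix (Fin 2 × Fin 4) (Fin 2 × Fin 4) F) =
          (g₀ : Matrix (Fin 2 × Fin 4) (Fin 2 × Fin 4) F) * ((a : Matrix (Fin 2) (Fin 2) F) ⊗ₖ (M₄ : Matrix (Fin 4) (Fin 4) F)) := by
        rw [hg₀v, ← Matrix.mul_kronecker_mul, ← Matrix.mul_kronecker_mul, Matrix.one_mul, Matrix.mul_one, hWM']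
      rw [hk1, Matrix.mulVec_mulVec, Matrix.mulVec_mulVec, hk2]
    have hM₄ : ∀ k l, (M₄ : Matrix (Fin 4) (Fin 4) F) k l = M (plusEquiv.symm k) (plusEquiv.symm l) := by
      intro k l
      simp [M]
    rcases hb with hb | hb
    · refine key (pureG ![a, b₁, b₂]) (pureG_mem _) fun a' k b' l => ?_
      rw [pureG_val, pureM_apply, Fin.prod_univ_three, hM₄, hb, Matrix.kroneckerMap_apply]
      simp only [rhoEquiv_zero, rhoEquiv_one, rhoEquiv_two]
      simp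
      ring
    · refine key (permG (Equiv.swap 1 2) * pureG ![a, b₂, b₁]) (Subgroup.mul_mem _ (permG_mem _) (pureG_mem _)) fun a' k b' l => ?_
      have hval : ((permG (Equiv.swap 1 2) * pureG ![a, b₂, b₁] : GL (Fin 3 → Fin 2) F) : Matrix (Fin 3 → Fin 2) (Fin 3 → Fin 2) F) =
          permM (Equiv.swap 1 2) * pureM (fun i => ((![a, b₂, b₁] : Fin 3 → GL (Fin 2) F) i : Matrix (Fin 2) (Fin 2) F)) := by
        rw [Units.val_mul, permG_val, pureG_val]
      rw [hval, permM_mul_left, pureM_apply, Fin.prod_univ_three, hM₄, hb, Matrix.submatrix_apply, Matrix.kroneckerMap_apply]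
      have s0 : (Equiv.swap (1 : Fin 3) 2) 0 = 0 := by decide
      have s1 : (Equiv.swap (1 : Fin 3) 2) 1 = 2 := by decide
      have s2 : (Equiv.swap (1 : Fin 3) 2) 2 = 1 := by decide
      simp only [Function.comp_apply, s0, s1, s2, rhoEquiv_zero, rhoEquiv_one, rhoEquiv_two, id, Prod.fst_swap, Prod.snd_swap]
      simp
      ring
  · -- the form
    have ex : x ∘ (e.trans rhoEquiv) = (x ∘ rhoEquiv) ∘ e := rfl
    have ey : y ∘ (e.trans rhoEquiv) = (y ∘ rhoEquiv) ∘ e := rfl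
    rw [ex, ey, hP', hP', hcf, hid, formOfGram_mulVec]
    let H₂ : Matrix (Fin 4) (Fin 4) F := fun k l => detJ (plusEquiv.symm k).1 (plusEquiv.symm l).1 * detJ (plusEquiv.symm k).2 (plusEquiv.symm l).2
    have hmapid : ∀ {κ : Type} (M : Matrix κ κ F), M.map (RingHom.id F) = M := fun M => by
      ext i j
      rfl
    have hWG : (W : Matrix (Fin 4) (Fin 4) F)ᵀ * gramMatrix f₂ * (W : Matrix (Fin 4) (Fin 4) F) = H₂ := by
      ext k l
      have h3 := hW (Pi.single (plusEquiv.symm k) 1) (Pi.single (plusEquiv.symm l) 1)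
      have hsingle : ∀ k : Fin 4, (Pi.single (plusEquiv.symm k) (1 : F) : Fin 2 × Fin 2 → F) ∘ plusEquiv.symm = Pi.single k 1 := by
        intro k
        funext j
        simp [Pi.single_apply, plusEquiv.symm.injective.eq_iff]
      rw [hsingle, hsingle, form_eq_gram hS₂, formOfGram_mulVec, formOfGram_single, hypB_single, hmapid] at h3
      exact h3
    have e1 : (g₀ : Matrix (Fin 2 × Fin 4) (Fin 2 × Fin 4) F)ᵀ * (gramMatrix f₁ ⊗ₖ gramMatrix f₂) * (g₀ : Matrix (Fin 2 × Fin 4) (Fin 2 × Fin 4) F).map (RingHom.id F) = (t • (detJ : Matrix (Fin 2) (Fin 2) F)) ⊗ₖ H₂ := by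
      rw [hmapid, hg₀v]
      have e3 : ((1 : Matrix (Fin 2) (Fin 2) F) ⊗ₖ (W : Matrix (Fin 4) (Fin 4) F))ᵀ = (1 : Matrix (Fin 2) (Fin 2) F) ⊗ₖ (W : Matrix (Fin 4) (Fin 4) F)ᵀ := by
        ext a b
        simp [Matrix.kroneckerMap_apply, Matrix.one_apply, eq_comm]
      rw [e3, ← Matrix.mul_kronecker_mul, ← Matrix.mul_kronecker_mul, Matrix.one_mul, Matrix.mul_one, hWG, hG₁]
    rw [e1]
    have e4 : formOfGram ((RingHom.id F : F →+* F) : F → F) ((t • (detJ : Matrix (Fin 2) (Fin 2) F)) ⊗ₖ H₂) (x ∘ rhoEquiv) (y ∘ rhoEquiv) =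
        t * ∑ a, ∑ b, x a * (∏ i, (detJ : Matrix (Fin 2) (Fin 2) F) (a i) (b i)) * (RingHom.id F) (y b) := by
      simp only [formOfGram, Matrix.kroneckerMap_apply]
      rw [← rhoEquiv.sum_comp, Finset.mul_sum]
      refine Finset.sum_congr rfl fun a _ => ?_
      rw [← rhoEquiv.sum_comp, Finset.mul_sum]
      refine Finset.sum_congr rfl fun b _ => ?_
      rw [Fin.prod_univ_three]
      obtain ⟨a₁, k⟩ := a
      obtain ⟨b₁, l⟩ := b
      simp only [rhoEquiv_zero, rhoEquiv_one, rhoEquiv_two, Function.comp_apply, Matrix.smul_apply, smul_eq_mul, H₂]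
      ring
    rw [e4]
    ring

/-- The class of extraspecial normalisers, for maximal subgroups. -/
theorem Sp.xctx_max {K : Subgroup (GL ι F)} (C : SCtx f K) {H R : Subgroup (GL ι F)} (hH : IsMaximalIn K H) (hX : XCtx f R)
    (hN : H ≤ subgroupNormalizer R) (hn : 4 ≤ Fintype.card ι) {k : ℕ} (hk : Fintype.card ι = 2 ^ k) :
    IsSymplecticTypeGroup 2 R ∧ ActsAbsolutelyIrreducibly (matrixSet R) ∧ R ≤ similarityGroup f ∧
      Nat.card R = 2 ^ (1 + 2 * k) ∧ Nat.card (Subgroup.center R) = 2 ∧ IsOfMinusType k R ∧ H = subgroupNormalizer R ⊓ K := by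
  classical
  haveI : Nonempty ι := Fintype.card_pos_iff.mp (by omega)
  obtain ⟨k', hk', hcardR⟩ := hX.exists_k (by omega)
  have hkk : k' = k := by
    have h4 : (2 : ℕ) ^ k' = 2 ^ k := by rw [← hk', hk]
    exact Nat.pow_right_injective (le_refl 2) h4
  subst hkk
  obtain ⟨a, ha0⟩ := exists_ne (0 : ι → F)
  have htv := C.dual_self a 1
  have hφ := C.dual_ne ha0 one_ne_zero
  have hmem := C.tv a 1 htv
  have habs : ActsAbsolutelyIrreducibly (matrixSet R) := actsAbs_of_spanG hX.span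
  refine ⟨hX.symplecticType (by omega), habs, fun g hg => ⟨1, fun u v => ?_⟩, hcardR, hX.card_center (by omega),
    hX.minus_type (by omega) hk, maximal_eq' hH hN ?_⟩
  · rw [hX.fix g hg, Units.val_one, one_mul]
  · intro hle'
    refine tv_not_nrm (by omega) ((actsIrreducibly_iff R).mp habs.1) (fun g hg => scalars_of_absIrred habs hg)
      (fun x hx y hy => (hX.comm' hx hy).imp fun _ h => h.2) htv ha0 hφ ?_
    intro x hx
    have h12 : tvG htv ∈ Subgroup.normalizer (R : Set (GL ι F)) := hle' hmem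
    exact (Subgroup.mem_normalizer_iff.mp h12 x).mp hx

/-- Tensor cubes of planes, over the field with three elements. -/
theorem Sp.cube_q3 {K : Subgroup (GL ι F)} (C : SCtx f K) {H : Subgroup (GL ι F)} (hH : IsMaximalIn K H) (h3 : Fintype.card F = 3)
    (hcard : Fintype.card ι = 8) {e : ι ≃ (Fin 3 → Fin 2)} {P : GL ι F} {κ : F}
    (hW : FWreath (RingHom.id F) (-1) f H e P detJ κ (-1)) :
    ∃ R : Subgroup (GL ι F), IsSymplecticTypeGroup 2 R ∧ ActsAbsolutelyIrreducibly (matrixSet R) ∧ R ≤ similarityGroup f ∧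
      Nat.card R = 128 ∧ Nat.card (Subgroup.center R) = 2 ∧ IsOfMinusType 3 R ∧ H = subgroupNormalizer R ⊓ K := by
  have hq : Odd (Fintype.card F) := by rw [h3]; decide
  have h2 := two_ne_of_odd_card hq
  have hX : XCtx f (qR h3 e P) := ⟨C.ctx, h2, qR_fix h3 h2 hW, qR_span h3 e P, qR_der⟩
  obtain ⟨a1, a2, a3, a4, a5, a6, a7⟩ := Sp.xctx_max C hH hX (nrm_normalizer (qR_normal hW.le)) (by omega) (k := 3) (by rw [hcard]; norm_num)
  exact ⟨_, a1, a2, a3, by rw [a4]; norm_num, a5, a6, a7⟩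

/-- Tensor cubes of planes, over other fields. -/
theorem Sp.cube_odd {K : Subgroup (GL ι F)} (C : SCtx f K) {H : Subgroup (GL ι F)} (hH : IsMaximalIn K H) (h2 : (2 : F) ≠ 0)
    (hcard : Fintype.card ι = 8) {e : ι ≃ (Fin 3 → Fin 2)} {P : GL ι F} {κ : F}
    (hW : FWreath (RingHom.id F) (-1) f H e P detJ κ (-1)) :
    IsSymplecticForm (formOfGram ((RingHom.id F : F →+* F) : F → F) (detJ : Matrix (Fin 2) (Fin 2) F)) ∧
      IsTensorPowerFormStructure id f (formOfGram ((RingHom.id F : F →+* F) : F → F) (detJ : Matrix (Fin 2) (Fin 2) F)) e P ∧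
      H = tensorWreathSubgroup 2 3 e P ⊓ K := by
  classical
  haveI : Nonempty ι := Fintype.card_pos_iff.mp (by omega)
  refine ⟨(detJ_ctx h2).toSymplectic h2, ⟨κ, hW.ne, fun x y => ?_⟩, maximal_eq' hH hW.le ?_⟩
  · rw [hW.eqn, gramMatrix_formOfGram]
    rfl
  · obtain ⟨a, ha0⟩ := exists_ne (0 : ι → F)
    have htv := C.dual_self a 1
    have hφ := C.dual_ne ha0 one_ne_zero
    have hmem := C.tv a 1 htv
    intro hle
    exact tv_not_mem_wreath (le_refl 2) (by norm_num) (Or.inr (le_refl 3)) e P htv ha0 hφ (hle hmem)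

end Cfsg.Agent.H97.Asch
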