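import Cfsg.Agent.Lib.H97K8

/-!
Orthonormal frames in dimension four over `F_9`: the monomial group normalises a group of symplectic type.
-/

set_option autoImplicit false
set_option linter.unusedSectionVars false
set_option linter.style.haveILetI false

namespace Cfsg.Agent.H97.Asch

open Matrix Cfsg Cfsg.Geo
open scoped MatrixGroups

variable {ι : Type} [Fintype ι] [DecidableEq ι] {F : Type*} [Field F]

/-- the carrier of the group of symplectic type attached to a frame, with entries of order dividing four -/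
def frameSetU (b : Module.Basis (Fin 4) F (ι → F)) : Set (GL ι F) :=
  {g | ∃ (π : Equiv.Perm (Fin 4)) (c : Fin 4 → F), IsV4 π ∧ IsChi c ∧ (∀ w, c w ^ 4 = 1) ∧ ∀ w, (g : Matrix ι ι F) *ᵥ b w = c w • b (π w)}

theorem frameSetU_mul {b : Module.Basis (Fin 4) F (ι → F)} {g g' : GL ι F} (hg : g ∈ frameSetU b) (hg' : g' ∈ frameSetU b) :
    g * g' ∈ frameSetU b := by
  obtain ⟨π, c, hπ, hc, hc4, hgb⟩ := hg
  obtain ⟨ρ, d, hρ, hd, hd4, hgb'⟩ := hg'
  refine ⟨π * ρ, fun w => d w * c (ρ w), (isV4_mul π ρ hπ hρ).1, ⟨?_, fun w w' => ?_⟩, fun w => ?_, fun w => ?_⟩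
  · rw [Finset.prod_mul_distrib, hd.1, one_mul, Equiv.prod_comp ρ c, hc.1]
  · rw [mul_pow, mul_pow, hd.2 w w', hc.2 (ρ w) (ρ w')]
  · show (d w * c (ρ w)) ^ 4 = 1
    rw [mul_pow, hd4, hc4, one_mul]
  · rw [Units.val_mul, ← Matrix.mulVec_mulVec, hgb', Matrix.mulVec_smul, hgb, smul_smul]
    rfl

theorem frameSetU_one (b : Module.Basis (Fin 4) F (ι → F)) : (1 : GL ι F) ∈ frameSetU b := by
  refine ⟨1, fun _ => 1, by decide, ⟨by simp, fun _ _ => rfl⟩, fun _ => one_pow _, fun w => ?_⟩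
  simp

theorem frameSetU_pow {b : Module.Basis (Fin 4) F (ι → F)} {g : GL ι F} (hg : g ∈ frameSetU b) :
    g * g * (g * g) = 1 := by
  obtain ⟨π, c, hπ, hc, hc4, hgb⟩ := hg
  have hpp : ∀ w, π (π w) = w := fun w => by
    have := congrArg (fun τ : Equiv.Perm (Fin 4) => τ w) hπ.1
    simpa using this
  have h2 : ∀ w, ((g * g : GL ι F) : Matrix ι ι F) *ᵥ b w = (c w * c (π w)) • b w := by
    intro w
    rw [Units.val_mul, ← Matrix.mulVec_mulVec, hgb, Matrix.mulVec_smul, hgb, hpp, smul_smul]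
  apply Units.ext
  apply gl_ext_basis b
  intro w
  rw [Units.val_mul, ← Matrix.mulVec_mulVec, h2, Matrix.mulVec_smul, h2, smul_smul, Units.val_one, Matrix.one_mulVec]
  have e1 : c w * c (π w) * (c w * c (π w)) = c w ^ 2 * c (π w) ^ 2 := by ring
  rw [e1, ← hc.2 w (π w), ← pow_add]
  rw [show 2 + 2 = 4 from rfl, hc4 w, one_smul]

/-- the group of symplectic type attached to a frame -/
def frameGroupU (b : Module.Basis (Fin 4) F (ι → F)) : Subgroup (GL ι F) where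
  carrier := frameSetU b
  mul_mem' := frameSetU_mul
  one_mem' := frameSetU_one b
  inv_mem' := fun {g} hg => by
    have h : g⁻¹ = g * g * g := by
      rw [inv_eq_iff_mul_eq_one]
      have := frameSetU_pow hg
      rw [← this]
      group
    show g⁻¹ ∈ frameSetU b
    rw [h]
    exact frameSetU_mul (frameSetU_mul hg hg) hg

theorem frameGroupU_conj {b : Module.Basis (Fin 4) F (ι → F)} {h : GL ι F} {σ : Equiv.Perm (Fin 4)}
    {d : Fin 4 → F} (hdet : (h : Matrix ι ι F).det = 1) (hd : ∀ k, (h : Matrix ι ι F) *ᵥ b k = d k • b (σ k))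
    (hd4 : ∀ k, d k ^ 4 = 1) {x : GL ι F}
    (hx : x ∈ frameSetU b) : h * x * h⁻¹ ∈ frameSetU b := by
  obtain ⟨π, c, hπ, hc, hc4, hxb⟩ := hx
  have hd0 : ∀ k, d k ≠ 0 := by
    intro k h0
    have := hd k
    rw [h0, zero_smul] at this
    exact b.ne_zero k (gl_mulVec_injective h (by simpa using this))
  have hinv : ∀ u, ((h⁻¹ : GL ι F) : Matrix ι ι F) *ᵥ b u = (d (σ⁻¹ u))⁻¹ • b (σ⁻¹ u) := by
    intro u
    have h1 := hd (σ⁻¹ u)
    have h2 : σ (σ⁻¹ u) = u := by simp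
    rw [h2] at h1
    have h3 : ((h⁻¹ : GL ι F) : Matrix ι ι F) *ᵥ ((h : Matrix ι ι F) *ᵥ b (σ⁻¹ u)) = b (σ⁻¹ u) := by
      simp
    rw [h1, Matrix.mulVec_smul] at h3
    rw [← h3, smul_smul, inv_mul_cancel₀ (hd0 _), one_smul]
  refine ⟨σ * π * σ⁻¹, fun u => c (σ⁻¹ u) * d (π (σ⁻¹ u)) * (d (σ⁻¹ u))⁻¹, isV4_conj σ hπ, ⟨?_, fun u u' => ?_⟩, fun u => ?_, fun u => ?_⟩
  · have hprod : ∏ k, d k ≠ 0 := Finset.prod_ne_zero_iff.mpr fun k _ => hd0 k
    rw [Equiv.prod_comp σ⁻¹ (fun w => c w * d (π w) * (d w)⁻¹), Finset.prod_mul_distrib, Finset.prod_mul_distrib, hc.1, one_mul,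
      Equiv.prod_comp π d, Finset.prod_inv_distrib, mul_inv_cancel₀ hprod]
  · have hD : IsChi (fun w => d w ^ 2) := by
      refine ⟨?_, fun w w' => ?_⟩
      · rw [Finset.prod_pow, ← det_sq_of_mono b hd, hdet, one_pow]
      · rw [← pow_mul, ← pow_mul, hd4, hd4]
    have hk := hD.const (by
      show (d 0 ^ 2) ^ 4 = 1
      rw [show (d 0 ^ 2) ^ 4 = (d 0 ^ 4) ^ 2 by ring, hd4, one_pow]) hπ (σ⁻¹ u) (σ⁻¹ u')
    have hc2 := hc.2 (σ⁻¹ u) (σ⁻¹ u')
    have e1 := hd0 (σ⁻¹ u)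
    have e2 := hd0 (σ⁻¹ u')
    field_simp
    linear_combination (d (π (σ⁻¹ u)) ^ 2 * d (σ⁻¹ u') ^ 2) * hc2 + (c (σ⁻¹ u') ^ 2) * hk
  · show (c (σ⁻¹ u) * d (π (σ⁻¹ u)) * (d (σ⁻¹ u))⁻¹) ^ 4 = 1
    rw [mul_pow, mul_pow, inv_pow, hc4, hd4, hd4]
    simp
  · rw [Units.val_mul, Units.val_mul, ← Matrix.mulVec_mulVec, ← Matrix.mulVec_mulVec, hinv, Matrix.mulVec_smul, Matrix.mulVec_smul, hxb,
      Matrix.mulVec_smul, hd, smul_smul, smul_smul]
    congr 1
    ring

theorem frameGroupU_comm {b : Module.Basis (Fin 4) F (ι → F)} {x y : GL ι F}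
    (hx : x ∈ frameSetU b) (hy : y ∈ frameSetU b) : ∃ ξ : Fˣ, ξ ^ 2 = 1 ∧ x * y = scU ξ * (y * x) := by
  obtain ⟨π, c, hπ, hc, hc4, hxb⟩ := hx
  obtain ⟨ρ, d, hρ, hd, hd4, hyb⟩ := hy
  have hc0 := hc.ne_zero
  have hd0 := hd.ne_zero
  have hξ : c (ρ 0) * (c 0)⁻¹ * d 0 * (d (π 0))⁻¹ ≠ 0 := by
    simp [hc0, hd0]
  refine ⟨Units.mk0 _ hξ, ?_, ?_⟩
  · apply Units.ext
    simp only [Units.val_pow_eq_pow_val, Units.val_mk0, Units.val_one]
    have e1 := hc.2 (ρ 0) 0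
    have e2 := hd.2 (π 0) 0
    have e3 := hc0 0
    have e4 := hd0 (π 0)
    field_simp
    linear_combination (d 0 ^ 2) * e1 - (c 0 ^ 2) * e2
  · apply Units.ext
    apply gl_ext_basis b
    intro w
    rw [Units.val_mul, Units.val_mul, Units.val_mul, ← Matrix.mulVec_mulVec, ← Matrix.mulVec_mulVec, ← Matrix.mulVec_mulVec, hyb, hxb,
      Matrix.mulVec_smul, Matrix.mulVec_smul, hxb, hyb, scU_val, Matrix.smul_mulVec, Matrix.one_mulVec]
    have e1 : π (ρ w) = ρ (π w) := by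
      have := congrArg (fun τ : Equiv.Perm (Fin 4) => τ w) (isV4_mul π ρ hπ hρ).2
      simpa using this
    rw [e1, smul_smul, smul_smul, smul_smul]
    congr 1
    have k1 := hc.const (hc4 0) hρ w 0
    have k2 := hd.const (hd4 0) hπ w 0
    simp only [Units.val_mk0]
    have e3 := hc0 0
    have e4 := hd0 (π 0)
    field_simp
    linear_combination (d w * d (π 0)) * k1 - (c (ρ 0) * c w) * k2

theorem frameGroupU_span (b : Module.Basis (Fin 4) F (ι → F)) (h40 : (4 : F) ≠ 0) :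
    spanG (frameGroupU b) = ⊤ := by
  classical
  have h20 : (2 : F) ≠ 0 := by
    intro h
    apply h40
    have : (4 : F) = 2 * 2 := by norm_num
    rw [this, h, zero_mul]
  have h1ne : (-1 : F) ≠ 0 := neg_ne_zero.mpr one_ne_zero
  let χ₁ : Fin 4 → F := ![1, 1, -1, -1]
  let χ₂ : Fin 4 → F := ![1, -1, 1, -1]
  let χ₃ : Fin 4 → F := ![1, -1, -1, 1]
  have hs : ∀ (χ : Fin 4 → F), (∀ w, χ w = 1 ∨ χ w = -1) → ∀ w w', χ w ^ 2 = χ w' ^ 2 := by
    intro χ h w w'
    rcases h w with e | e <;> rcases h w' with e' | e' <;> rw [e, e'] <;> norm_num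
  have hq : ∀ (χ : Fin 4 → F), (∀ w, χ w = 1 ∨ χ w = -1) → ∀ w, χ w ^ 4 = 1 := by
    intro χ h w
    rcases h w with e | e <;> rw [e] <;> norm_num
  have h₁ : ∀ w, χ₁ w = 1 ∨ χ₁ w = -1 := fun w => by fin_cases w <;> simp [χ₁]
  have h₂ : ∀ w, χ₂ w = 1 ∨ χ₂ w = -1 := fun w => by fin_cases w <;> simp [χ₂]
  have h₃ : ∀ w, χ₃ w = 1 ∨ χ₃ w = -1 := fun w => by fin_cases w <;> simp [χ₃]
  have hχ₁ : IsChi χ₁ := ⟨by simp [Fin.prod_univ_four, χ₁], hs _ h₁⟩
  have hχ₂ : IsChi χ₂ := ⟨by simp [Fin.prod_univ_four, χ₂], hs _ h₂⟩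
  have hχ₃ : IsChi χ₃ := ⟨by simp [Fin.prod_univ_four, χ₃], hs _ h₃⟩
  have hZ : ∀ χ : Fin 4 → F, IsChi χ → (∀ w, χ w ^ 4 = 1) → ∃ T ∈ spanG (frameGroupU b), ∀ w, T *ᵥ b w = χ w • b w := by
    intro χ hχ hχ4
    refine ⟨(monoG b 1 χ hχ.ne_zero : GL ι F), mem_spanG (N := frameGroupU b) ⟨1, χ, by decide, hχ, hχ4, fun w => ?_⟩, fun w => ?_⟩
    · exact monoG_apply b 1 χ hχ.ne_zero w
    · exact monoG_apply b 1 χ hχ.ne_zero w
  obtain ⟨Z₁, hZ₁, hZ₁'⟩ := hZ χ₁ hχ₁ (hq _ h₁)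
  obtain ⟨Z₂, hZ₂, hZ₂'⟩ := hZ χ₂ hχ₂ (hq _ h₂)
  obtain ⟨Z₃, hZ₃, hZ₃'⟩ := hZ χ₃ hχ₃ (hq _ h₃)
  apply eq_top_of_matrixUnits b
  intro x y
  obtain ⟨π, hπ, hπy⟩ := isV4_trans x y
  have hone : IsChi (fun _ : Fin 4 => (1 : F)) := ⟨by simp, fun _ _ => rfl⟩
  let X : GL ι F := monoG b π (fun _ => 1) hone.ne_zero
  have hX : X ∈ frameGroupU b := ⟨π, fun _ => 1, hπ, hone, fun _ => one_pow _, monoG_apply b π _ hone.ne_zero⟩
  let E : Matrix ι ι F := (4 : F)⁻¹ • (1 + χ₁ y • Z₁ + χ₂ y • Z₂ + χ₃ y • Z₃)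
  have hE : E ∈ spanG (frameGroupU b) := by
    refine Subalgebra.smul_mem _ (Subalgebra.add_mem _ (Subalgebra.add_mem _ (Subalgebra.add_mem _ (Subalgebra.one_mem _) (Subalgebra.smul_mem _ hZ₁ _))
      (Subalgebra.smul_mem _ hZ₂ _)) (Subalgebra.smul_mem _ hZ₃ _)) _
  have hEb : ∀ w, E *ᵥ b w = if w = y then b w else 0 := by
    intro w
    have e1 : E *ᵥ b w = ((4 : F)⁻¹ * (1 + χ₁ y * χ₁ w + χ₂ y * χ₂ w + χ₃ y * χ₃ w)) • b w := by
      simp only [E, Matrix.smul_mulVec, Matrix.add_mulVec, Matrix.one_mulVec, hZ₁', hZ₂', hZ₃', smul_add, smul_smul, add_smul, mul_add, mul_one, mul_assoc]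
    rw [e1]
    have e2 : (4 : F)⁻¹ * (1 + χ₁ y * χ₁ w + χ₂ y * χ₂ w + χ₃ y * χ₃ w) = if w = y then 1 else 0 := by
      fin_cases y <;> fin_cases w <;> simp [χ₁, χ₂, χ₃] <;> first | (field_simp; norm_num) | (norm_num)
    rw [e2]
    split_ifs <;> simp
  refine ⟨(X : Matrix ι ι F) * E, Subalgebra.mul_mem _ (mem_spanG hX) hE, fun w => ?_⟩
  rw [← Matrix.mulVec_mulVec, hEb]
  split_ifs with h
  · subst h
    rw [monoG_apply, one_smul, hπy]
  · rw [Matrix.mulVec_zero]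

/-- the context of symplectic type attached to a frame with fourth roots of unity -/
theorem frameGroupU_symCtx (b : Module.Basis (Fin 4) F (ι → F)) (h40 : (4 : F) ≠ 0) : SymCtx 2 (frameGroupU b) := by
  refine ⟨Nat.prime_two, ?_, ?_, ?_, frameGroupU_span b h40⟩
  · intro x hx
    have : x ^ (2 * Nat.gcd 2 2) = x * x * (x * x) := by
      have e4 : 2 * Nat.gcd 2 2 = 4 := by norm_num
      rw [e4, pow_succ, pow_succ, pow_two]
      simp only [mul_assoc]
    rw [this]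
    exact frameSetU_pow hx
  · intro x hx y hy
    exact frameGroupU_comm hx hy
  · intro c hc
    have hc' : c ^ 4 = 1 := by simpa using hc
    have hc'' : (c : F) ^ 4 = 1 := by
      have := congrArg (Units.val) hc'
      simpa using this
    refine ⟨1, fun _ => (c : F), by decide, ⟨?_, fun _ _ => rfl⟩, fun _ => hc'', fun w => ?_⟩
    · rw [Finset.prod_const, Finset.card_univ, Fintype.card_fin]
      exact hc''
    · rw [scU_val, Matrix.smul_mulVec, Matrix.one_mulVec]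
      rfl

section

variable [Fintype F] {f : (ι → F) → (ι → F) → F} {σ : F ≃+* F} {K : Subgroup (GL ι F)}

/-- isometries can be checked on a basis -/
theorem isometry_of_basis {κ : Type} [Fintype κ] {τ : F →+* F} (hS : Sesq τ f) (b : Module.Basis κ F (ι → F)) (T : Matrix ι ι F)
    (h : ∀ i j, f (T *ᵥ b i) (T *ᵥ b j) = f (b i) (b j)) (u v : ι → F) : f (T *ᵥ u) (T *ᵥ v) = f u v := by
  classical
  have e : ∀ x : ι → F, T *ᵥ x = ∑ i, b.repr x i • (T *ᵥ b i) := by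
    intro x
    conv_lhs => rw [← b.sum_repr x]
    rw [Matrix.mulVec_sum]
    refine Finset.sum_congr rfl fun i _ => ?_
    rw [Matrix.mulVec_smul]
  rw [e u, e v]
  conv_rhs => rw [← b.sum_repr u, ← b.sum_repr v]
  rw [hS.sum_left, hS.sum_left]
  refine Finset.sum_congr rfl fun i _ => ?_
  rw [hS.smul_left, hS.smul_left, hS.sum_right, hS.sum_right]
  congr 1
  refine Finset.sum_congr rfl fun j _ => ?_
  rw [hS.smul_right, hS.smul_right, h]

/-- Orthonormal frames in dimension four over `F_9` lie in the normaliser of a group of symplectic type. -/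
theorem Su.frame_q3 [Nonempty ι] (C : UCtx σ f K) (hq : ∀ x, σ x = x ^ 3) (hF : Fintype.card F = 9) (hn : 4 ≤ Fintype.card ι)
    (hdet : ∀ g ∈ K, (g : Matrix ι ι F).det = 1) {H : Subgroup (GL ι F)} (hH : IsMaximalIn K H)
    {D : Fin 4 → Submodule F (ι → F)} (hD : IsNondegenerateMDecomposition f 1 D) (hle : H ≤ decompositionStabilizer D) :
    ∃ R : Subgroup (GL ι F), IsSymplecticTypeGroup 2 R ∧ ActsAbsolutelyIrreducibly (matrixSet R) ∧ R ≤ similarityGroup f ∧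
      Nat.card R = 64 ∧ Nat.card (Subgroup.center R) = 4 ∧ H = subgroupNormalizer R ⊓ K := by
  classical
  have hU := C.unitary
  have hS := sesq_of_unitary hU
  obtain ⟨b₀, hb₀⟩ := exists_basis_of_mdecomp1 hD.decomp
  have hb₀m : ∀ i, b₀ i ∈ D i := fun i => by
    rw [hb₀]
    exact Submodule.mem_span_singleton_self _
  have horth₀ : ∀ i j, i ≠ j → f (b₀ i) (b₀ j) = 0 := fun i j hij => hD.orthogonal i j hij _ (hb₀m i) _ (hb₀m j)
  have hd₀ : ∀ i, f (b₀ i) (b₀ i) ≠ 0 := by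
    intro i hi
    obtain ⟨⟨x, hx, hx0⟩, -⟩ := hD.nondegenerate i (b₀ i) (hb₀m i) (b₀.ne_zero i)
    rw [hb₀] at hx
    obtain ⟨s, rfl⟩ := Submodule.mem_span_singleton.mp hx
    apply hx0
    rw [hS.smul_left, hi, mul_zero]
  have hfix : ∀ i, σ (f (b₀ i) (b₀ i)) = f (b₀ i) (b₀ i) := fun i => herm_self_fixed hU _
  have hnorm : ∀ i, ∃ x : F, x ≠ 0 ∧ x * σ x = (f (b₀ i) (b₀ i))⁻¹ := fun i =>
    C.norm _ (inv_ne_zero (hd₀ i)) (by rw [map_inv₀, hfix])
  choose x hx0 hx using hnorm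
  let b : Module.Basis (Fin 4) F (ι → F) := b₀.unitsSMul (fun i => Units.mk0 (x i) (hx0 i))
  have hbv : ∀ i, b i = x i • b₀ i := fun i => by
    simp only [b, Module.Basis.unitsSMul_apply]
    rfl
  have hbb : ∀ i j, f (b i) (b j) = if i = j then 1 else 0 := by
    intro i j
    rw [hbv, hbv, hS.smul_left, hS.smul_right]
    by_cases hij : i = j
    · subst hij
      rw [if_pos rfl, ← mul_assoc]
      show x i * σ (x i) * _ = 1
      rw [hx, inv_mul_cancel₀ (hd₀ i)]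
    · rw [if_neg hij, horth₀ i j hij, mul_zero, mul_zero]
  have hbD : ∀ i, D i = Submodule.span F {b i} := by
    intro i
    rw [hb₀, hbv]
    exact (Submodule.span_singleton_smul_eq (Ne.isUnit (hx0 i)) _).symm
  have h40 : (4 : F) ≠ 0 := by
    intro h
    have h9 : (9 : F) = 0 := by
      have := FiniteField.cast_card_eq_zero F
      rw [hF] at this
      exact_mod_cast this
    have e : (9 : F) = 2 * 4 + 1 := by norm_num
    rw [e, h, mul_zero, zero_add] at h9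
    exact one_ne_zero h9
  have h20 : (2 : F) ≠ 0 := by
    intro h
    apply h40
    have : (4 : F) = 2 * 2 := by norm_num
    rw [this, h, zero_mul]
  have S := frameGroupU_symCtx b h40
  -- a primitive root of order four
  have hω : ∃ ω : F, IsPrimitiveRoot ω (2 * Nat.gcd 2 2) := by
    have hgcd : Nat.gcd 2 2 = 2 := by norm_num
    rw [hgcd]
    have hsq : IsSquare (-1 : F) := by
      rw [FiniteField.isSquare_neg_one_iff, hF]
      norm_num
    obtain ⟨c, hc⟩ := hsq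
    refine ⟨c, ?_⟩
    have hc2 : c ^ 2 = -1 := by rw [pow_two]; exact hc.symm
    have h4 : c ^ (2 * 2) = 1 := by
      rw [pow_mul, hc2]
      norm_num
    have h5 : ¬ (c ^ 2 = 1) := by
      rw [hc2]
      intro h6
      apply h20
      linear_combination -h6
    have : Fact (Nat.Prime 2) := ⟨Nat.prime_two⟩
    have hoc : orderOf c = 2 ^ (1 + 1) := orderOf_eq_prime_pow (by simpa using h5) (by simpa using h4)
    have h6 := IsPrimitiveRoot.orderOf c
    rw [hoc] at h6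
    exact h6
  obtain ⟨ω, hω⟩ := hω
  have hι : Fintype.card ι = 4 := by
    have := card_of_mdecomp hD.decomp
    omega
  obtain ⟨m, hm, hcardR⟩ := S.card_eq
  have hm2 : m = 2 := by
    rw [hι] at hm
    have h22 : (2 : ℕ) ^ 2 = 2 ^ m := by
      rw [← hm]
      norm_num
    exact (Nat.pow_right_injective (le_refl 2) h22).symm
  subst hm2
  have hZ := S.card_center hω
  have hZ' := S.card_center' hω
  have hgcd : Nat.gcd 2 2 = 2 := by norm_num
  rw [hgcd] at hZ hZ'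
  have hpow4 : ∀ y : F, y * σ y = 1 → y ^ 4 = 1 := by
    intro y hy
    rw [hq] at hy
    have e : y ^ 4 = y * y ^ 3 := by ring
    rw [e, hy]
  have hsim : frameGroupU b ≤ similarityGroup f := by
    intro g hg
    obtain ⟨π, c, hπ, hc, hc4, hgb⟩ := hg
    refine ⟨1, fun u v => ?_⟩
    rw [Units.val_one, one_mul]
    refine isometry_of_basis hS b _ (fun i j => ?_) u v
    rw [hgb, hgb, hS.smul_left, hS.smul_right, hbb, hbb]
    by_cases hij : i = j
    · subst hij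
      simp only [if_true, mul_one]
      show c i * σ (c i) = 1
      rw [hq, ← pow_succ', hc4]
    · rw [if_neg hij, if_neg]
      · rw [mul_zero, mul_zero]
      · intro h
        exact hij (π.injective h)
  have hNrm : Nrm H (frameGroupU b) := by
    intro h hh y hy
    obtain ⟨τ, hτ⟩ := hle hh
    have h2 : ∀ k, ∃ c : F, (h : Matrix ι ι F) *ᵥ b k = c • b (τ k) := by
      intro k
      have h3 : (h : Matrix ι ι F) *ᵥ b k ∈ D (τ k) := by
        rw [← hτ k]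
        exact ⟨b k, by rw [hbD]; exact Submodule.mem_span_singleton_self _, by simp [Matrix.toLin'_apply]⟩
      rw [hbD, Submodule.mem_span_singleton] at h3
      obtain ⟨c, hc⟩ := h3
      exact ⟨c, hc.symm⟩
    choose d hd using h2
    have hK := hH.1.le hh
    refine frameGroupU_conj (hdet _ hK) hd (fun k => hpow4 _ ?_) hy
    have h3 := C.fix h hK (b k) (b k)
    rw [hd, hS.smul_left, hS.smul_right, hbb, hbb] at h3
    simpa using h3
  obtain ⟨φ, a, htv, ha0, hφ, hmem⟩ := C.exists_tv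
  have hAbs := actsAbs_of_spanG S.span
  have hcomm : ∀ y ∈ frameGroupU b, ∀ z ∈ frameGroupU b, ∃ ξ : Fˣ, y * z = scU ξ * (z * y) := fun y hy z hz => by
    obtain ⟨ξ, -, h⟩ := S.comm y hy z hz
    exact ⟨ξ, h⟩
  refine ⟨frameGroupU b, S.symplecticType (by rwa [hgcd]), hAbs, hsim, ?_, hZ', maximal_eq' hH (nrm_normalizer hNrm) ?_⟩
  · rw [hcardR, hZ]
    norm_num
  · intro hle'
    refine tv_not_nrm hn ((actsIrreducibly_iff _).mp hAbs.1) (fun g hg => scalars_of_absIrred hAbs hg) hcomm htv ha0 hφ ?_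
    intro y hy
    have h9 : tvG htv ∈ Subgroup.normalizer (frameGroupU b : Set (GL ι F)) := hle' hmem
    exact (Subgroup.mem_normalizer_iff.mp h9 y).mp hy

end

end Cfsg.Agent.H97.Asch
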