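import Cfsg.Agent.Lib.OmCalc

/-!
Siegel transformations generate the commutator subgroup in dimension at least seven.
-/

set_option autoImplicit false
set_option linter.unusedSectionVars false
set_option linter.unusedVariables false

namespace Cfsg.Agent.H97.Asch

open Matrix QuadraticMap Cfsg Cfsg.Geo
open Cfsg.Agent.Lib.OrthoBasic Cfsg.Agent.Lib.OrthoSiegel Cfsg.Agent.Lib.OrthoGen
  Cfsg.Agent.Lib.OrthoCount Cfsg.Agent.Lib.OrthoFinal Cfsg.Agent.Lib.OmCalc
open Cfsg.Agent.Lib.QuadFF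
open Cfsg.Agent.Lib.SympT (GL_ext mulVec_mul_GL mulVec_inv_GL inv_mulVec_GL)

local notation:70 g:71 " ⋆ " x:70 => Matrix.mulVec (Units.val g) x

variable {ι : Type} [Fintype ι] [DecidableEq ι] {F : Type*} [Field F] [Fintype F]
variable {Q : QuadraticForm F (ι → F)}

theorem exists_frame7 (hQ : Nondeg Q) (h7 : 7 ≤ Fintype.card ι) : Nonempty (Frame Q) := by
  classical
  have hd : Module.finrank F (ι → F) = Fintype.card ι := by simp
  have hND := nd_of hQ
  obtain ⟨a, b, hab, -⟩ := Cfsg.Agent.Lib.OmGeo.exists_hyp_perp hND ∅ (by simp; omega)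
  have hd1 := hab.finrank_perp2
  have hND1 := hab.ND_perp2 hND
  obtain ⟨a', b', hab', -⟩ := Cfsg.Agent.Lib.OmGeo.exists_hyp_perp hND1 ∅ (by simp; omega)
  have hd2 := hab'.finrank_perp2
  have hND2 := hab'.ND_perp2 hND1
  obtain ⟨u, z, huz, -⟩ := Cfsg.Agent.Lib.OmGeo.exists_hyp_perp hND2 ∅ (by simp; omega)
  have ma := mem_perp2.1 a'.2
  have mb := mem_perp2.1 b'.2
  have mu := mem_perp2.1 u.2
  have mz := mem_perp2.1 z.2
  have mu1 := mem_perp2.1 u.1.2
  have mz1 := mem_perp2.1 z.1.2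
  have e1 : polar Q (a' : ι → F) (u.1 : ι → F) = 0 := mu.1
  have e2 : polar Q (b' : ι → F) (u.1 : ι → F) = 0 := mu.2
  have e3 : polar Q (a' : ι → F) (z.1 : ι → F) = 0 := mz.1
  have e4 : polar Q (b' : ι → F) (z.1 : ι → F) = 0 := mz.2
  exact ⟨{ e₁ := a, f₁ := b, e₂ := a', f₂ := b', u₀ := u.1, z₀ := z.1,
           h₁ := ⟨hab.Qv, hab.Qw, hab.vw⟩, h₂ := ⟨hab'.Qv, hab'.Qw, hab'.vw⟩,
           e₁e₂ := ma.1, e₁f₂ := mb.1, f₁e₂ := ma.2, f₁f₂ := mb.2,
           u₀e₁ := by rw [polar_comm]; exact mu1.1,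
           u₀f₁ := by rw [polar_comm]; exact mu1.2,
           u₀e₂ := by rw [polar_comm]; exact e1,
           u₀f₂ := by rw [polar_comm]; exact e2,
           z₀e₁ := by rw [polar_comm]; exact mz1.1,
           z₀f₁ := by rw [polar_comm]; exact mz1.2,
           z₀e₂ := by rw [polar_comm]; exact e3,
           z₀f₂ := by rw [polar_comm]; exact e4,
           uz := by
            have : polar Q (u.1 : ι → F) (z.1 : ι → F) = 1 := huz.vw
            rw [this]; exact one_ne_zero }⟩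

theorem sE_mem7 (hQ : Nondeg Q) (h7 : 7 ≤ Fintype.card ι) {e y : ι → F} (he : Q e = 0)
    (hy : polar Q e y = 0) : sE hQ he hy ∈ omegaGL ⇑Q := by
  obtain ⟨fr⟩ := exists_frame7 hQ h7
  have h1 : commutator (OG Q) = siegelE Q := omega_eq_E hQ (genR_top hQ (by omega)) fr
  have h2 : siegel hQ he hy ∈ commutator (OG Q) := by
    rw [h1]
    exact siegel_mem hQ he hy
  rw [← map_commutator_equiv (isoOG ⇑Q Q (fun _ => rfl))] at h2
  obtain ⟨h₀, hh₀, h3⟩ := h2
  refine ⟨h₀, hh₀, ?_⟩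
  have h4 : glEquiv (h₀ : GL ι F) = ((siegel hQ he hy : OG Q) : (ι → F) ≃ₗ[F] (ι → F)) := by
    rw [← isoOG_coe]
    exact congrArg Subtype.val h3
  show (h₀ : GL ι F) = _
  rw [sE, ← h4, MulEquiv.symm_apply_apply]

end Cfsg.Agent.H97.Asch
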