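import Cfsg.Agent.Lib.H97G7
import Cfsg.Agent.Lib.H97L0

/-!
A context for isometry groups of quadratic forms in all characteristics.
-/

set_option autoImplicit false
set_option linter.unusedSectionVars false
set_option linter.unusedSimpArgs false
set_option linter.style.haveILetI false

namespace Cfsg.Agent.H97.Asch

open Matrix Cfsg Cfsg.Geo
open scoped MatrixGroups commutatorElement Kronecker

variable {ι : Type} [Fintype ι] [DecidableEq ι] {F : Type*} [Field F] {Q : (ι → F) → F} {K : Subgroup (GL ι F)}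

/-- The context: a group of isometries of determinant one containing the long root elements. -/
structure ECtx (Q : (ι → F) → F) (K : Subgroup (GL ι F)) : Prop where
  quad : IsNondegenerateQuadraticForm Q
  fix : ∀ g ∈ K, ∀ v, Q ((g : Matrix ι ι F) *ᵥ v) = Q v
  siegel : ∀ (u v : ι → F) (c : F), Q u = 0 → Q v = 0 → QuadraticMap.polar Q u v = 0 →
    ∃ g ∈ K, ∀ x, (g : Matrix ι ι F) *ᵥ x = x + (c * QuadraticMap.polar Q x u) • v - (c * QuadraticMap.polar Q x v) • u
  span : Submodule.span F {a : ι → F | Q a = 0} = ⊤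
  det : ∀ g ∈ K, (g : Matrix ι ι F).det = 1

theorem ECtx.Q_zero (C : ECtx Q K) : Q (0 : ι → F) = 0 := by
  have := C.quad.smul 0 0
  simpa using this

theorem ECtx.pS (C : ECtx Q K) : Sesq (RingHom.id F) (QuadraticMap.polar Q) := sesq_of_bilinear C.quad.polar_bilinear

theorem ECtx.nd (C : ECtx Q K) {v : ι → F} (hv : v ≠ 0) : ∃ x, QuadraticMap.polar Q v x ≠ 0 :=
  (C.quad.nondegenerate v hv).2

theorem ECtx.self (C : ECtx Q K) (v : ι → F) : QuadraticMap.polar Q v v = 2 * Q v := polar_self C.quad v

theorem ECtx.polar_smul_left (C : ECtx Q K) (c : F) (x y : ι → F) :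
    QuadraticMap.polar Q (c • x) y = c * QuadraticMap.polar Q x y := C.quad.polar_bilinear.smul_left c x y

theorem ECtx.polar_smul_right (C : ECtx Q K) (c : F) (x y : ι → F) :
    QuadraticMap.polar Q x (c • y) = c * QuadraticMap.polar Q x y := C.quad.polar_bilinear.smul_right c x y

theorem ECtx.polar_add_left (C : ECtx Q K) (x y z : ι → F) :
    QuadraticMap.polar Q (x + y) z = QuadraticMap.polar Q x z + QuadraticMap.polar Q y z := C.quad.polar_bilinear.add_left x y z

theorem ECtx.polar_add_right (C : ECtx Q K) (x y z : ι → F) :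
    QuadraticMap.polar Q x (y + z) = QuadraticMap.polar Q x y + QuadraticMap.polar Q x z := C.quad.polar_bilinear.add_right x y z

theorem ECtx.polar_sub_left (C : ECtx Q K) (x y z : ι → F) :
    QuadraticMap.polar Q (x - y) z = QuadraticMap.polar Q x z - QuadraticMap.polar Q y z := C.pS.sub_left x y z

theorem ECtx.polar_sub_right (C : ECtx Q K) (x y z : ι → F) :
    QuadraticMap.polar Q x (y - z) = QuadraticMap.polar Q x y - QuadraticMap.polar Q x z := by
  have e : y - z = y + (-1 : F) • z := by simp [sub_eq_add_neg]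
  rw [e, C.polar_add_right, C.polar_smul_right]
  ring

theorem ECtx.Q_smul (C : ECtx Q K) (c : F) (x : ι → F) : Q (c • x) = c ^ 2 * Q x := C.quad.smul c x

theorem ECtx.Q_sub_smul (C : ECtx Q K) (s : F) (x y : ι → F) :
    Q (x - s • y) = Q x + s ^ 2 * Q y - s * QuadraticMap.polar Q x y := by
  have e : x - s • y = x + (-s) • y := by simp [sub_eq_add_neg]
  rw [e, Q_add' Q, C.Q_smul, C.polar_smul_right]
  ring

/-- the functional `u ↦ f(u, x)`. -/
noncomputable def ECtx.polD (C : ECtx Q K) (x : ι → F) : Module.Dual F (ι → F) where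
  toFun u := QuadraticMap.polar Q u x
  map_add' a b := C.polar_add_left a b x
  map_smul' c a := by
    simpa using C.polar_smul_left c a x

theorem ECtx.polD_apply (C : ECtx Q K) (x u : ι → F) : C.polD x u = QuadraticMap.polar Q u x := rfl

/-- the orthogonal complement. -/
noncomputable def ECtx.perp (C : ECtx Q K) (W : Submodule F (ι → F)) : Submodule F (ι → F) where
  carrier := {v | ∀ w ∈ W, QuadraticMap.polar Q w v = 0}
  add_mem' {x y} hx hy w hw := by
    rw [C.polar_add_right, hx w hw, hy w hw, add_zero]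
  zero_mem' w _ := C.pS.zero_right w
  smul_mem' c v hv w hw := by
    rw [C.polar_smul_right, hv w hw, mul_zero]

theorem ECtx.mem_perp (C : ECtx Q K) {W : Submodule F (ι → F)} {v : ι → F} :
    v ∈ C.perp W ↔ ∀ w ∈ W, QuadraticMap.polar Q w v = 0 := Iff.rfl

/-- a subspace of dimension at least three contains a non-zero singular vector. -/
theorem ECtx.exists_singular [Fintype F] (C : ECtx Q K) {U : Submodule F (ι → F)} (hU : 3 ≤ Module.finrank F U) :
    ∃ a ∈ U, a ≠ 0 ∧ Q a = 0 := by
  classical
  let Q' : QuadraticForm F (ι → F) := Cfsg.Agent.Lib.OmCalc.toQF Q C.quad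
  obtain ⟨v, hv, h0⟩ := Cfsg.Agent.Lib.QuadFF.exists_singular (QuadraticMap.comp Q' U.subtype) hU
  exact ⟨v, v.2, fun h => hv (Subtype.ext h), h0⟩

theorem ECtx.exists_singular_not_perp (C : ECtx Q K) {x : ι → F} (hx : x ≠ 0) :
    ∃ a, Q a = 0 ∧ QuadraticMap.polar Q x a ≠ 0 := by
  by_contra hall
  push Not at hall
  obtain ⟨y, hy⟩ := C.nd hx
  apply hy
  have hle : (⊤ : Submodule F (ι → F)) ≤ LinearMap.ker (C.polD x) := by
    rw [← C.span, Submodule.span_le]
    intro a ha
    show C.polD x a = 0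
    rw [C.polD_apply, QuadraticMap.polar_comm]
    exact hall a ha
  have h1 : C.polD x y = 0 := hle Submodule.mem_top
  rwa [C.polD_apply, QuadraticMap.polar_comm] at h1

/-- The context group stabilises no proper non-zero subspace. -/
theorem ECtx.not_le_stab [Fintype F] (C : ECtx Q K) (hn : 5 ≤ Fintype.card ι) {W : Submodule F (ι → F)} (h0 : W ≠ ⊥)
    (h1 : W ≠ ⊤) : ¬ K ≤ subspaceStabilizer W := by
  classical
  intro hle
  have hW : ∀ g ∈ K, ∀ w ∈ W, (g : Matrix ι ι F) *ᵥ w ∈ W := fun g hg w hw => ((mem_stab_iff W g).mp (hle hg) w).mp hw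
  have step : ∀ u v, Q u = 0 → Q v = 0 → QuadraticMap.polar Q u v = 0 → ∀ w ∈ W,
      QuadraticMap.polar Q w u • v - QuadraticMap.polar Q w v • u ∈ W := by
    intro u v hu hv huv w hw
    obtain ⟨g, hg, hgx⟩ := C.siegel u v 1 hu hv huv
    have h2 := W.sub_mem (hW g hg w hw) hw
    rw [hgx] at h2
    have e : w + (1 * QuadraticMap.polar Q w u) • v - (1 * QuadraticMap.polar Q w v) • u - w =
        QuadraticMap.polar Q w u • v - QuadraticMap.polar Q w v • u := by
      simp only [one_mul]
      abel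
    rwa [e] at h2
  have hdim : ∀ a x : ι → F, 3 ≤ Module.finrank F (LinearMap.ker ((C.polD a).prod (C.polD x))) := by
    intro a x
    have := finrank_ker2 (C.polD a) (C.polD x)
    omega
  have hker : ∀ {a x b : ι → F}, b ∈ LinearMap.ker ((C.polD a).prod (C.polD x)) →
      QuadraticMap.polar Q a b = 0 ∧ QuadraticMap.polar Q x b = 0 := by
    intro a x b hb
    have h2 := LinearMap.mem_ker.mp hb
    have h3 : C.polD a b = 0 := congrArg Prod.fst h2
    have h4 : C.polD x b = 0 := congrArg Prod.snd h2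
    rw [C.polD_apply, QuadraticMap.polar_comm] at h3 h4
    exact ⟨h3, h4⟩
  -- a first singular vector
  obtain ⟨x, hx, hx0⟩ := (Submodule.ne_bot_iff W).mp h0
  obtain ⟨a, haS, hxa⟩ := C.exists_singular_not_perp hx0
  obtain ⟨b, hbU, hb0, hbS⟩ := C.exists_singular (hdim a x)
  obtain ⟨hab, hxb⟩ := hker hbU
  have hbW : b ∈ W := by
    have h2 := step a b haS hbS hab x hx
    rw [hxb, zero_smul, sub_zero] at h2
    have h3 := W.smul_mem (QuadraticMap.polar Q x a)⁻¹ h2
    rwa [smul_smul, inv_mul_cancel₀ hxa, one_smul] at h3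
  -- the singular vectors not orthogonal to `b`
  have hy : ∀ y, Q y = 0 → QuadraticMap.polar Q b y ≠ 0 → y ∈ W := by
    intro y hyS hby
    obtain ⟨w, hwU, hw0, hwS⟩ := C.exists_singular (hdim b y)
    obtain ⟨hbw, hyw⟩ := hker hwU
    have hwW : w ∈ W := by
      have h2 := step y w hyS hwS hyw b hbW
      rw [hbw, zero_smul, sub_zero] at h2
      have h3 := W.smul_mem (QuadraticMap.polar Q b y)⁻¹ h2
      rwa [smul_smul, inv_mul_cancel₀ hby, one_smul] at h3
    obtain ⟨v, hv⟩ := C.nd hw0
    have hyy : QuadraticMap.polar Q y y = 0 := by rw [C.self, hyS, mul_zero]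
    have hbb : QuadraticMap.polar Q b b = 0 := by rw [C.self, hbS, mul_zero]
    have hyb : QuadraticMap.polar Q y b ≠ 0 := by rwa [QuadraticMap.polar_comm]
    set α := QuadraticMap.polar Q v y / QuadraticMap.polar Q b y with hα
    set β := QuadraticMap.polar Q v b / QuadraticMap.polar Q y b with hβ
    set v' := v - α • b - β • y with hv'
    have hv'y : QuadraticMap.polar Q v' y = 0 := by
      rw [hv', C.polar_sub_left, C.polar_sub_left, C.polar_smul_left, C.polar_smul_left, hyy, hα]
      field_simp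
      ring
    have hv'b : QuadraticMap.polar Q v' b = 0 := by
      rw [hv', C.polar_sub_left, C.polar_sub_left, C.polar_smul_left, C.polar_smul_left, hbb, hβ]
      field_simp
      ring
    have hwv' : QuadraticMap.polar Q w v' = QuadraticMap.polar Q w v := by
      rw [hv', C.polar_sub_right, C.polar_sub_right, C.polar_smul_right, C.polar_smul_right,
        QuadraticMap.polar_comm Q w b, hbw, QuadraticMap.polar_comm Q w y, hyw]
      ring
    have hww : QuadraticMap.polar Q w w = 0 := by rw [C.self, hwS, mul_zero]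
    have hwv'0 : QuadraticMap.polar Q w v' ≠ 0 := by rwa [hwv']
    have hv'w0 : QuadraticMap.polar Q v' w ≠ 0 := by rwa [QuadraticMap.polar_comm]
    set s := Q v' / QuadraticMap.polar Q v' w with hs
    set z := v' - s • w with hz
    have hzS : Q z = 0 := by
      rw [hz, C.Q_sub_smul, hwS, hs]
      field_simp
      ring
    have hzy : QuadraticMap.polar Q z y = 0 := by
      rw [hz, C.polar_sub_left, C.polar_smul_left, hv'y, QuadraticMap.polar_comm Q w y, hyw]
      ring
    have hwz : QuadraticMap.polar Q w z ≠ 0 := by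
      have : QuadraticMap.polar Q w z = QuadraticMap.polar Q w v' := by
        rw [hz, C.polar_sub_right, C.polar_smul_right, hww]
        ring
      rwa [this]
    have hwy : QuadraticMap.polar Q w y = 0 := by rwa [QuadraticMap.polar_comm]
    have h2 := step z y hzS hyS hzy w hwW
    rw [hwy, zero_smul, sub_zero] at h2
    have h3 := W.smul_mem (QuadraticMap.polar Q w z)⁻¹ h2
    rwa [smul_smul, inv_mul_cancel₀ hwz, one_smul] at h3
  obtain ⟨y₀, hy₀S, hby₀⟩ := C.exists_singular_not_perp hb0
  have hy₀W := hy y₀ hy₀S hby₀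
  have hall : ∀ s, Q s = 0 → s ∈ W := by
    intro s hsS
    by_cases hbs : QuadraticMap.polar Q b s = 0
    · have hy₀b : QuadraticMap.polar Q y₀ b ≠ 0 := by rwa [QuadraticMap.polar_comm]
      have hsb : QuadraticMap.polar Q s b = 0 := by rwa [QuadraticMap.polar_comm]
      have hbb : QuadraticMap.polar Q b b = 0 := by rw [C.self, hbS, mul_zero]
      set κ := QuadraticMap.polar Q y₀ s / QuadraticMap.polar Q y₀ b with hκ
      set z := y₀ + s - κ • b with hz
      have hzS : Q z = 0 := by
        rw [hz, C.Q_sub_smul, hbS, Q_add' Q, hy₀S, hsS, C.polar_add_left, hsb, hκ]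
        field_simp
        ring
      have hbz : QuadraticMap.polar Q b z ≠ 0 := by
        have : QuadraticMap.polar Q b z = QuadraticMap.polar Q b y₀ := by
          rw [hz, C.polar_sub_right, C.polar_add_right, C.polar_smul_right, hbb, hbs]
          ring
        rwa [this]
      have hzW := hy z hzS hbz
      have e : s = z - y₀ + κ • b := by
        rw [hz]
        abel
      rw [e]
      exact W.add_mem (W.sub_mem hzW hy₀W) (W.smul_mem _ hbW)
    · exact hy s hsS hbs
  apply h1
  rw [eq_top_iff, ← C.span, Submodule.span_le]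
  exact fun s hs => hall s hs

/-- The context group lies in no subfield group. -/
theorem ECtx.not_le_subfield [Fintype F] (C : ECtx Q K) (hn : 5 ≤ Fintype.card ι) {F₀ : Subfield F} (hF₀ : F₀ ≠ ⊤)
    (P : GL ι F) : ¬ K ≤ subfieldSubgroup F₀ P := by
  classical
  intro hle
  have hne : Nonempty ι := Fintype.card_pos_iff.mp (by omega)
  obtain ⟨x, hx0⟩ := exists_ne (0 : ι → F)
  obtain ⟨u, huS, hxu⟩ := C.exists_singular_not_perp hx0
  have hdim : 3 ≤ Module.finrank F (LinearMap.ker ((C.polD u).prod (C.polD x))) := by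
    have := finrank_ker2 (C.polD u) (C.polD x)
    omega
  obtain ⟨v, hvU, hv0, hvS⟩ := C.exists_singular hdim
  have hv' := LinearMap.mem_ker.mp hvU
  have huv : QuadraticMap.polar Q u v = 0 := by
    have h3 : C.polD u v = 0 := congrArg Prod.fst hv'
    rwa [C.polD_apply, QuadraticMap.polar_comm] at h3
  have hxv : QuadraticMap.polar Q x v = 0 := by
    have h3 : C.polD x v = 0 := congrArg Prod.snd hv'
    rwa [C.polD_apply, QuadraticMap.polar_comm] at h3
  let W : ι → (ι → F) := fun l =>
    QuadraticMap.polar Q ((P : Matrix ι ι F) *ᵥ Pi.single l 1) u • (((P⁻¹ : GL ι F) : Matrix ι ι F) *ᵥ v) -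
      QuadraticMap.polar Q ((P : Matrix ι ι F) *ᵥ Pi.single l 1) v • (((P⁻¹ : GL ι F) : Matrix ι ι F) *ᵥ u)
  -- the entries
  have hent : ∀ (c : F) (k l : ι), c * W l k ∈ F₀ := by
    intro c k l
    obtain ⟨g, hg, hgx⟩ := C.siegel u v c huS hvS huv
    have hact₀ : ∀ y, (g : Matrix ι ι F) *ᵥ y = y + (c • C.polD u) y • v + ((-c) • C.polD v) y • u := by
      intro y
      rw [hgx]
      simp only [LinearMap.smul_apply, C.polD_apply, smul_eq_mul]
      rw [neg_mul, neg_smul]
      abel
    have h1 := rank2_rational hn (hle hg) hact₀ k l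
    have h2 : ((P⁻¹ * g * P : GL ι F) : Matrix ι ι F) *ᵥ Pi.single l 1 = Pi.single l 1 + c • W l := by
      rw [gl_mulVec_mul, gl_mulVec_mul, hgx, Matrix.mulVec_sub, Matrix.mulVec_add, gl_inv_mulVec, Matrix.mulVec_smul,
        Matrix.mulVec_smul]
      simp only [W, smul_sub, smul_smul]
      abel
    have h3 := congrFun h2 k
    rw [Matrix.mulVec_single_one] at h3
    simp only [Matrix.col_apply, Pi.add_apply, Pi.smul_apply, smul_eq_mul] at h3
    rw [h3] at h1
    have h4 : (Pi.single l (1 : F) : ι → F) k ∈ F₀ := by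
      rw [Pi.single_apply]
      split_ifs
      · exact F₀.one_mem
      · exact F₀.zero_mem
    have := F₀.sub_mem h1 h4
    simpa using this
  -- a non-zero entry
  have hW : ∃ k l, W l k ≠ 0 := by
    by_contra hall
    push Not at hall
    have hx' : x = (P : Matrix ι ι F) *ᵥ (((P⁻¹ : GL ι F) : Matrix ι ι F) *ᵥ x) := (gl_mulVec_inv P x).symm
    have hexp : ∀ z, QuadraticMap.polar Q x z = ∑ l, (((P⁻¹ : GL ι F) : Matrix ι ι F) *ᵥ x) l * QuadraticMap.polar Q ((P : Matrix ι ι F) *ᵥ Pi.single l 1) z := by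
      intro z
      conv_lhs => rw [hx', gl_mulVec_eq_sum, C.pS.sum_left]
      exact Finset.sum_congr rfl fun l _ => C.polar_smul_left _ _ _
    have hsum : ∑ l, (((P⁻¹ : GL ι F) : Matrix ι ι F) *ᵥ x) l • W l =
        QuadraticMap.polar Q x u • (((P⁻¹ : GL ι F) : Matrix ι ι F) *ᵥ v) - QuadraticMap.polar Q x v • (((P⁻¹ : GL ι F) : Matrix ι ι F) *ᵥ u) := by
      rw [hexp u, hexp v, Finset.sum_smul, Finset.sum_smul, ← Finset.sum_sub_distrib]
      refine Finset.sum_congr rfl fun l _ => ?_
      simp only [W, smul_sub, smul_smul]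
    rw [hxv, zero_smul, sub_zero] at hsum
    have h0 : ∑ l, (((P⁻¹ : GL ι F) : Matrix ι ι F) *ᵥ x) l • W l = 0 := by
      refine Finset.sum_eq_zero fun l _ => ?_
      have : W l = 0 := funext fun k => hall k l
      rw [this, smul_zero]
    rw [h0] at hsum
    have h2 : ((P⁻¹ : GL ι F) : Matrix ι ι F) *ᵥ v = 0 := by
      rcases smul_eq_zero.mp hsum.symm with h | h
      · exact absurd h hxu
      · exact h
    apply hv0
    have := gl_mulVec_inv P v
    rw [h2, Matrix.mulVec_zero] at this
    exact this.symm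
  obtain ⟨k, l, hkl⟩ := hW
  apply hF₀
  rw [eq_top_iff]
  intro c _
  have h1 := hent c k l
  have h2 := hent 1 k l
  rw [one_mul] at h2
  have h3 := F₀.div_mem h1 h2
  rwa [mul_div_cancel_right₀ _ hkl] at h3

theorem ECtx.siegelCtx (C : ECtx Q K) : ECtx Q (Subgroup.closure (siegelGens Q K)) where
  quad := C.quad
  fix g hg := C.fix g (siegel_closure_le Q K hg)
  siegel u v c hu hv huv := by
    obtain ⟨g, hg, h⟩ := C.siegel u v c hu hv huv
    exact ⟨g, Subgroup.subset_closure ⟨hg, u, v, c, hu, hv, huv, h⟩, h⟩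
  span := C.span
  det g hg := C.det g (siegel_closure_le Q K hg)

/-- the generators cannot all stabilise a proper subspace -/
theorem ECtx.gens_not_stab [Fintype F] (C : ECtx Q K) (hn : 5 ≤ Fintype.card ι) {W : Submodule F (ι → F)} (h0 : W ≠ ⊥)
    (h1 : W ≠ ⊤) : ¬ ∀ g ∈ siegelGens Q K, g ∈ subspaceStabilizer W := by
  intro h
  exact C.siegelCtx.not_le_stab hn h0 h1 ((Subgroup.closure_le _).mpr h)

/-- some generator is not trivial -/
theorem ECtx.exists_gen_ne [Fintype F] (C : ECtx Q K) (hn : 5 ≤ Fintype.card ι) : ∃ g ∈ siegelGens Q K, g ≠ 1 := by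
  classical
  by_contra hall
  push Not at hall
  have hne : Nonempty ι := Fintype.card_pos_iff.mp (by omega)
  obtain ⟨x, hx0⟩ := exists_ne (0 : ι → F)
  have hW0 : Submodule.span F {x} ≠ ⊥ := by
    simpa using hx0
  have hfr : Module.finrank F (Submodule.span F {x}) = 1 := finrank_span_singleton hx0
  have hW1 : Submodule.span F {x} ≠ ⊤ := by
    intro h
    rw [h, finrank_top] at hfr
    simp at hfr
    omega
  apply C.gens_not_stab hn hW0 hW1
  intro g hg
  rw [hall g hg]
  exact Subgroup.one_mem _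

/-- For a generator `(g-1)² = 0`. -/
theorem ECtx.gen_sq (C : ECtx Q K) {g : GL ι F} (hg : g ∈ siegelGens Q K) :
    ((g : Matrix ι ι F) - 1) * ((g : Matrix ι ι F) - 1) = 0 := by
  classical
  obtain ⟨-, u, v, c, hu, hv, huv, h⟩ := hg
  apply Matrix.toLin'.injective
  apply LinearMap.ext
  intro x
  simp only [Matrix.toLin'_apply, map_zero, LinearMap.zero_apply]
  rw [← Matrix.mulVec_mulVec]
  simp only [Matrix.sub_mulVec, Matrix.one_mulVec]
  have hvv : QuadraticMap.polar Q v v = 0 := by rw [C.self, hv, mul_zero]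
  have huu : QuadraticMap.polar Q u u = 0 := by rw [C.self, hu, mul_zero]
  have hvu : QuadraticMap.polar Q v u = 0 := by rw [QuadraticMap.polar_comm, huv]
  have e1 : (g : Matrix ι ι F) *ᵥ u = u := by
    rw [h, huu, huv]
    simp
  have e2 : (g : Matrix ι ι F) *ᵥ v = v := by
    rw [h, hvu, hvv]
    simp
  rw [h x]
  simp only [Matrix.mulVec_sub, Matrix.mulVec_add, Matrix.mulVec_smul, e1, e2, h x]
  abel

/-- Isometry subgroups: the decomposition with big parts. -/
theorem ECtx.not_le_decomp [Fintype F] (C : ECtx Q K) (hn : 5 ≤ Fintype.card ι) {t k : ℕ} {D : Fin t → Submodule F (ι → F)}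
    (hD : IsMDecomposition k D) (hk : 3 ≤ k) : ¬ K ≤ decompositionStabilizer D := by
  classical
  intro hle
  have ht := hD.two_le
  let i₀ : Fin t := ⟨0, by omega⟩
  let i₁ : Fin t := ⟨1, by omega⟩
  have hi : i₁ ≠ i₀ := by
    intro h
    have := congrArg Fin.val h
    simp [i₀, i₁] at this
  have hdisj : ∀ i j, i ≠ j → D i ⊓ D j = ⊥ := fun i j hij =>
    (hD.indep.pairwiseDisjoint hij).eq_bot
  have hne : ∀ i, D i ≠ ⊥ := by
    intro i h
    have := hD.finrank_eq i
    rw [h, finrank_bot] at this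
    omega
  have hW1 : D i₀ ≠ ⊤ := by
    intro h
    have := hdisj i₀ i₁ hi.symm
    rw [h, top_inf_eq] at this
    exact hne i₁ this
  apply C.gens_not_stab hn (hne i₀) hW1
  intro g hg
  obtain ⟨π, hπ⟩ := hle hg.1
  by_cases hfix : π i₀ = i₀
  · have hst : ∀ w ∈ D i₀, (g : Matrix ι ι F) *ᵥ w ∈ D i₀ := by
      intro w hw
      have := hπ i₀
      rw [hfix] at this
      rw [← this]
      exact ⟨w, hw, rfl⟩
    have hinv : ∀ w ∈ D i₀, ((g⁻¹ : GL ι F) : Matrix ι ι F) *ᵥ w ∈ D i₀ := by
      intro w hw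
      have h2 := hπ i₀
      rw [hfix] at h2
      rw [← h2] at hw
      obtain ⟨y, hy, rfl⟩ := hw
      simp only [Matrix.toLin'_apply]
      rw [gl_inv_mulVec]
      exact hy
    exact (mem_stab_iff _ _).mpr fun w => ⟨hst w, fun hw => by
      have := hinv _ hw
      rwa [gl_inv_mulVec] at this⟩
  · exfalso
    -- `g - 1` is injective on `D i₀`
    let L : (D i₀) →ₗ[F] LinearMap.range (Matrix.toLin' ((g : Matrix ι ι F) - 1)) :=
      { toFun := fun w => ⟨Matrix.toLin' ((g : Matrix ι ι F) - 1) w, LinearMap.mem_range_self _ _⟩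
        map_add' := fun x y => by
          apply Subtype.ext
          simp only [Submodule.coe_add, map_add]
        map_smul' := fun c x => by
          apply Subtype.ext
          simp only [Submodule.coe_smul, map_smul, RingHom.id_apply] }
    have hinj : Function.Injective L := by
      rw [← LinearMap.ker_eq_bot, eq_bot_iff]
      intro w hw
      have h2 : Matrix.toLin' ((g : Matrix ι ι F) - 1) (w : ι → F) = 0 := congrArg Subtype.val (LinearMap.mem_ker.mp hw)
      rw [Matrix.toLin'_apply, Matrix.sub_mulVec, Matrix.one_mulVec, sub_eq_zero] at h2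
      have h3 : (w : ι → F) ∈ D (π i₀) := by
        rw [← hπ]
        exact ⟨w, w.2, by simpa [Matrix.toLin'_apply] using h2⟩
      have h4 : (w : ι → F) ∈ D i₀ ⊓ D (π i₀) := ⟨w.2, h3⟩
      rw [hdisj i₀ (π i₀) (Ne.symm hfix)] at h4
      exact (Submodule.mem_bot F).mpr (Subtype.ext h4)
    have h5 := LinearMap.finrank_le_finrank_of_injective hinj
    have h6 := gen_rank hg
    have h7 := hD.finrank_eq i₀
    omega

/-- Isometry subgroups: extension fields of large degree -/
theorem ECtx.not_le_field [Fintype F] (C : ECtx Q K) (hn : 5 ≤ Fintype.card ι) {r : ℕ} (hr : 3 ≤ r) {K' : Subalgebra F (Matrix ι ι F)}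
    (hK' : IsFieldSubalgebra r K') : ¬ K ≤ subalgebraNormalizer K' := by
  classical
  intro hle
  obtain ⟨g, hg, hg1⟩ := C.exists_gen_ne hn
  have hgN : g ∈ subalgebraNormalizer K' := hle hg.1
  have hrk := gen_rank hg
  have hmem : ∀ k ∈ K', (g : Matrix ι ι F) * k * ((g⁻¹ : GL ι F) : Matrix ι ι F) ∈ K' := fun k hk => (hgN k).mp hk
  by_cases hcomm : ∀ k ∈ K', (g : Matrix ι ι F) * k * ((g⁻¹ : GL ι F) : Matrix ι ι F) = k
  · -- `g` centralises the field
    have hcomm' : ∀ k ∈ K', (g : Matrix ι ι F) * k = k * g := by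
      intro k hk
      have := hcomm k hk
      calc (g : Matrix ι ι F) * k = ((g : Matrix ι ι F) * k * ((g⁻¹ : GL ι F) : Matrix ι ι F)) * g := by
            rw [Matrix.mul_assoc, ← Units.val_mul, inv_mul_cancel, Units.val_one, Matrix.mul_one]
        _ = k * g := by rw [this]
    have hne1 : (g : Matrix ι ι F) - 1 ≠ 0 := by
      intro h
      apply hg1
      apply Units.ext
      rw [Units.val_one]
      exact sub_eq_zero.mp h
    obtain ⟨w₀, hw₀⟩ : ∃ x, ((g : Matrix ι ι F) - 1) *ᵥ x ≠ 0 := by
      by_contra hall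
      push Not at hall
      apply hne1
      apply Matrix.toLin'.injective
      apply LinearMap.ext
      intro x
      simpa [Matrix.toLin'_apply, Matrix.sub_mulVec] using hall x
    set w := ((g : Matrix ι ι F) - 1) *ᵥ w₀ with hw
    -- the map `k ↦ k w` is injective with values in the image
    let L : K' →ₗ[F] LinearMap.range (Matrix.toLin' ((g : Matrix ι ι F) - 1)) :=
      { toFun := fun k => ⟨(k : Matrix ι ι F) *ᵥ w, by
          refine ⟨(k : Matrix ι ι F) *ᵥ w₀, ?_⟩
          rw [Matrix.toLin'_apply, hw, Matrix.mulVec_mulVec, Matrix.mulVec_mulVec, Matrix.sub_mul, Matrix.mul_sub, hcomm' k k.2]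
          simp⟩
        map_add' := fun x y => by
          apply Subtype.ext
          simp only [Subalgebra.coe_add, Submodule.coe_add, Matrix.add_mulVec]
        map_smul' := fun c x => by
          apply Subtype.ext
          simp only [Subalgebra.coe_smul, Submodule.coe_smul, Matrix.smul_mulVec, RingHom.id_apply] }
    have hinj : Function.Injective L := by
      rw [← LinearMap.ker_eq_bot, eq_bot_iff]
      intro k hk
      have h2 : (k : Matrix ι ι F) *ᵥ w = 0 := congrArg Subtype.val (LinearMap.mem_ker.mp hk)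
      by_contra hk0
      have hk0' : (k : Matrix ι ι F) ≠ 0 := fun h => hk0 (by
        rw [Submodule.mem_bot]
        exact Subtype.ext h)
      obtain ⟨y, hy, hky⟩ := hK'.inv _ k.2 hk0'
      apply hw₀
      have h3 : y *ᵥ ((k : Matrix ι ι F) *ᵥ w) = w := by
        rw [Matrix.mulVec_mulVec, hK'.comm y hy _ k.2, hky, Matrix.one_mulVec]
      rw [h2, Matrix.mulVec_zero] at h3
      exact h3.symm
    have h5 := LinearMap.finrank_le_finrank_of_injective hinj
    rw [hK'.finrank_eq] at h5
    omega
  · push Not at hcomm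
    obtain ⟨k, hk, hne⟩ := hcomm
    set d := (g : Matrix ι ι F) * k * ((g⁻¹ : GL ι F) : Matrix ι ι F) - k with hd
    have hdK : d ∈ K' := K'.sub_mem (hmem k hk) hk
    have hd0 : d ≠ 0 := sub_ne_zero.mpr hne
    obtain ⟨y, hy, hdy⟩ := hK'.inv _ hdK hd0
    -- `v ↦ d v` embeds the fixed vectors in the image
    let L : (LinearMap.ker (Matrix.toLin' ((g : Matrix ι ι F) - 1))) →ₗ[F] LinearMap.range (Matrix.toLin' ((g : Matrix ι ι F) - 1)) :=
      { toFun := fun v => ⟨d *ᵥ (v : ι → F), by
          refine ⟨k *ᵥ (v : ι → F), ?_⟩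
          have hv : (g : Matrix ι ι F) *ᵥ (v : ι → F) = v := by
            have := LinearMap.mem_ker.mp v.2
            rwa [Matrix.toLin'_apply, Matrix.sub_mulVec, Matrix.one_mulVec, sub_eq_zero] at this
          have hv' : ((g⁻¹ : GL ι F) : Matrix ι ι F) *ᵥ (v : ι → F) = v := by
            conv_lhs => rw [← hv]
            exact gl_inv_mulVec g _
          have e5 : ((g : Matrix ι ι F) * k * ((g⁻¹ : GL ι F) : Matrix ι ι F)) *ᵥ (v : ι → F) =
              (g : Matrix ι ι F) *ᵥ (k *ᵥ (((g⁻¹ : GL ι F) : Matrix ι ι F) *ᵥ (v : ι → F))) := by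
            rw [Matrix.mulVec_mulVec, Matrix.mulVec_mulVec]
          rw [Matrix.toLin'_apply, hd, Matrix.sub_mulVec, Matrix.sub_mulVec, Matrix.one_mulVec, e5, hv']⟩
        map_add' := fun x y => by
          apply Subtype.ext
          simp only [Submodule.coe_add, Matrix.mulVec_add]
        map_smul' := fun c x => by
          apply Subtype.ext
          simp only [Submodule.coe_smul, Matrix.mulVec_smul, RingHom.id_apply] }
    have hinj : Function.Injective L := by
      rw [← LinearMap.ker_eq_bot, eq_bot_iff]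
      intro v hv
      have h2 : d *ᵥ (v : ι → F) = 0 := congrArg Subtype.val (LinearMap.mem_ker.mp hv)
      have h3 : y *ᵥ (d *ᵥ (v : ι → F)) = v := by
        rw [Matrix.mulVec_mulVec, hK'.comm y hy d hdK, hdy, Matrix.one_mulVec]
      rw [h2, Matrix.mulVec_zero] at h3
      exact (Submodule.mem_bot F).mpr (Subtype.ext h3.symm)
    have h5 := LinearMap.finrank_le_finrank_of_injective hinj
    have h6 := LinearMap.finrank_range_add_finrank_ker (Matrix.toLin' ((g : Matrix ι ι F) - 1))
    have h7 : Module.finrank F (ι → F) = Fintype.card ι := by simp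
    omega

end Cfsg.Agent.H97.Asch
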