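import Mathlib
import Cfsg.Prelude.Def_GeometricClasses
import Cfsg.Agent.Lib.SympT

/-!
# Pure tensors and the stabiliser of a tensor decomposition

`tn u w` is the pure tensor, `psi e P` the identification of coordinate vectors on `Fin n₁ × Fin n₂` with vectors of `F^ι`.
Elements of `tensorProductSubgroup` act on pure tensors factorwise; tensor forms are products on pure tensors.
-/

set_option autoImplicit false
set_option linter.unusedSectionVars false
set_option linter.unusedVariables false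

namespace Cfsg.Agent.Lib.TensorForm

open Matrix Cfsg Cfsg.Geo Module Cfsg.Agent.Lib.SympT
open scoped Kronecker

local notation:70 g:71 " ⋆ " x:70 => Matrix.mulVec (Units.val g) x

variable {ι : Type} [Fintype ι] [DecidableEq ι] {F : Type*} [Field F] {n₁ n₂ : ℕ}

/-- Pure tensors. -/
def tn (u : Fin n₁ → F) (w : Fin n₂ → F) : Fin n₁ × Fin n₂ → F := fun a => u a.1 * w a.2

/-- Coordinates on the tensor product. -/
def psi (e : ι ≃ Fin n₁ × Fin n₂) (P : GL ι F) (x : Fin n₁ × Fin n₂ → F) : ι → F :=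
  (P : Matrix ι ι F) *ᵥ (x ∘ e)

variable (e : ι ≃ Fin n₁ × Fin n₂) (P : GL ι F)

theorem psi_add (x y : Fin n₁ × Fin n₂ → F) : psi e P (x + y) = psi e P x + psi e P y := by
  unfold psi
  rw [← Matrix.mulVec_add]
  rfl

theorem psi_smul (c : F) (x : Fin n₁ × Fin n₂ → F) : psi e P (c • x) = c • psi e P x := by
  unfold psi
  rw [← Matrix.mulVec_smul]
  rfl

theorem psi_zero : psi e P (0 : Fin n₁ × Fin n₂ → F) = 0 := by
  unfold psi
  have : ((0 : Fin n₁ × Fin n₂ → F) ∘ e) = 0 := rfl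
  rw [this, Matrix.mulVec_zero]

theorem psi_inj : Function.Injective (psi e P : (Fin n₁ × Fin n₂ → F) → ι → F) := by
  intro x y h
  have h1 := congrArg (fun v => P⁻¹ ⋆ v) h
  simp only [psi] at h1
  simp only [inv_mulVec_GL] at h1
  exact (e.surjective.injective_comp_right) h1

theorem psi_surj : Function.Surjective (psi e P : (Fin n₁ × Fin n₂ → F) → ι → F) := by
  intro v
  refine ⟨(P⁻¹ ⋆ v) ∘ e.symm, ?_⟩
  unfold psi
  have : ((P⁻¹ ⋆ v) ∘ e.symm) ∘ e = P⁻¹ ⋆ v := by
    ext i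
    simp
  rw [this, mulVec_inv_GL]

theorem tn_add_left (u u' : Fin n₁ → F) (w : Fin n₂ → F) : tn (u + u') w = tn u w + tn u' w := by
  ext a
  simp [tn, add_mul]

theorem tn_add_right (u : Fin n₁ → F) (w w' : Fin n₂ → F) : tn u (w + w') = tn u w + tn u w' := by
  ext a
  simp [tn, mul_add]

theorem tn_smul_left (c : F) (u : Fin n₁ → F) (w : Fin n₂ → F) : tn (c • u) w = c • tn u w := by
  ext a
  simp [tn, mul_assoc]

theorem tn_smul_right (c : F) (u : Fin n₁ → F) (w : Fin n₂ → F) : tn u (c • w) = c • tn u w := by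
  ext a
  simp only [tn, Pi.smul_apply, smul_eq_mul]
  ring

theorem tn_zero_right (u : Fin n₁ → F) : tn u (0 : Fin n₂ → F) = 0 := by
  ext a
  simp [tn]

theorem tn_zero_left (w : Fin n₂ → F) : tn (0 : Fin n₁ → F) w = 0 := by
  ext a
  simp [tn]

/-- An equality of pure tensors. -/
theorem tn_eq {x x' : Fin n₁ → F} {y y' : Fin n₂ → F} (hx' : x' ≠ 0) (hy' : y' ≠ 0)
    (h : tn x y = tn x' y') : ∃ l : F, l ≠ 0 ∧ x = l • x' ∧ l • y = y' := by
  obtain ⟨i, hi⟩ : ∃ i, x' i ≠ 0 := by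
    by_contra hcon
    push Not at hcon
    exact hx' (funext hcon)
  obtain ⟨j, hj⟩ : ∃ j, y' j ≠ 0 := by
    by_contra hcon
    push Not at hcon
    exact hy' (funext hcon)
  have hij : x i * y j = x' i * y' j := congrFun h (i, j)
  have hne : x i * y j ≠ 0 := by
    rw [hij]
    exact mul_ne_zero hi hj
  have hxi : x i ≠ 0 := left_ne_zero_of_mul hne
  have hyj : y j ≠ 0 := right_ne_zero_of_mul hne
  refine ⟨y' j / y j, div_ne_zero hj hyj, ?_, ?_⟩
  · ext k
    have hk : x k * y j = x' k * y' j := congrFun h (k, j)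
    simp only [Pi.smul_apply, smul_eq_mul]
    field_simp
    linear_combination hk
  · ext k
    have hk : x i * y k = x' i * y' k := congrFun h (i, k)
    simp only [Pi.smul_apply, smul_eq_mul]
    field_simp
    have h5 : x' i ≠ 0 := hi
    apply mul_left_cancel₀ h5
    linear_combination (-(y k)) * hij + y j * hk

/-- The action of Kronecker products on pure tensors. -/
theorem kron_mulVec (a : Matrix (Fin n₁) (Fin n₁) F) (b : Matrix (Fin n₂) (Fin n₂) F) (u : Fin n₁ → F)
    (w : Fin n₂ → F) : (a ⊗ₖ b) *ᵥ tn u w = tn (a *ᵥ u) (b *ᵥ w) := by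
  ext ⟨i, j⟩
  simp only [Matrix.mulVec, dotProduct, tn, Matrix.kroneckerMap_apply]
  rw [Fintype.sum_prod_type, Finset.sum_mul_sum]
  refine Finset.sum_congr rfl (fun k _ => Finset.sum_congr rfl (fun l _ => ?_))
  ring

/-- The action of the elements of the tensor stabiliser. -/
theorem mem_tensor {g : GL ι F} (hg : g ∈ tensorProductSubgroup n₁ n₂ e P) :
    ∃ (a : GL (Fin n₁) F) (b : GL (Fin n₂) F), ∀ x, g ⋆ psi e P x = psi e P (((a : Matrix _ _ F) ⊗ₖ (b : Matrix _ _ F)) *ᵥ x) := by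
  classical
  obtain ⟨g', hg', rfl⟩ := hg
  obtain ⟨h, ⟨a, b, hab⟩, rfl⟩ := hg'
  refine ⟨a, b, fun x => ?_⟩
  unfold psi
  show (((MulAut.conj P) ((glReindex e.symm) h) : GL ι F) : Matrix ι ι F) *ᵥ _ = _
  rw [MulAut.conj_apply, mulVec_mul_GL, mulVec_mul_GL, inv_mulVec_GL]
  congr 1
  rw [← hab]
  ext i
  show ((Matrix.reindex e.symm e.symm (h : Matrix _ _ F)) *ᵥ (x ∘ e)) i = _
  simp only [Matrix.mulVec, dotProduct, Matrix.reindex_apply, Matrix.submatrix_apply, Equiv.symm_symm, Function.comp]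
  exact e.sum_comp (fun k => (h : Matrix _ _ F) (e i) k * x k)

theorem mem_tensor_tn {g : GL ι F} (hg : g ∈ tensorProductSubgroup n₁ n₂ e P) :
    ∃ (a : GL (Fin n₁) F) (b : GL (Fin n₂) F), ∀ u w,
      g ⋆ psi e P (tn u w) = psi e P (tn ((a : Matrix _ _ F) *ᵥ u) ((b : Matrix _ _ F) *ᵥ w)) := by
  obtain ⟨a, b, h⟩ := mem_tensor e P hg
  refine ⟨a, b, fun u w => ?_⟩
  rw [h, kron_mulVec]

/-- The Gram formula for a tensor form on pure tensors. -/
theorem form_tn_gram (σ : F → F) (hσ : ∀ a b, σ (a * b) = σ a * σ b) (G₁ : Matrix (Fin n₁) (Fin n₁) F)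
    (G₂ : Matrix (Fin n₂) (Fin n₂) F) (u u' : Fin n₁ → F) (w w' : Fin n₂ → F) :
    formOfGram σ (G₁ ⊗ₖ G₂) (tn u w) (tn u' w') = formOfGram σ G₁ u u' * formOfGram σ G₂ w w' := by
  classical
  simp only [formOfGram, Fintype.sum_prod_type, Matrix.kroneckerMap_apply, tn, hσ, Finset.sum_mul, Finset.mul_sum]
  rw [Finset.sum_comm]
  apply Finset.sum_congr rfl
  intro j _
  rw [Finset.sum_congr rfl (fun i _ => Finset.sum_comm), Finset.sum_comm]
  apply Finset.sum_congr rfl
  intro l _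
  apply Finset.sum_congr rfl
  intro i _
  apply Finset.sum_congr rfl
  intro k _
  ring

/-- A tensor structure gives the product formula. -/
theorem form_tn (σ : F → F) (hσ : ∀ a b, σ (a * b) = σ a * σ b) {f : (ι → F) → (ι → F) → F}
    {f₁ : (Fin n₁ → F) → (Fin n₁ → F) → F} {f₂ : (Fin n₂ → F) → (Fin n₂ → F) → F}
    (h₁ : ∀ u u', f₁ u u' = formOfGram σ (gramMatrix f₁) u u')
    (h₂ : ∀ u u', f₂ u u' = formOfGram σ (gramMatrix f₂) u u')
    (hT : IsTensorFormStructure σ f f₁ f₂ e P) :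
    ∃ c : F, c ≠ 0 ∧ ∀ u w u' w', f (psi e P (tn u w)) (psi e P (tn u' w')) = c * (f₁ u u' * f₂ w w') := by
  obtain ⟨c, hc, h⟩ := hT
  refine ⟨c, hc, fun u w u' w' => ?_⟩
  show f ((P : Matrix ι ι F) *ᵥ (tn u w ∘ e)) ((P : Matrix ι ι F) *ᵥ (tn u' w' ∘ e)) = _
  rw [h, form_tn_gram σ hσ, ← h₁, ← h₂]

/-- The Gram formula for a form that is additive and homogeneous on the left. -/
theorem gram_of_left {κ : Type} [Fintype κ] [DecidableEq κ] (σ : F → F) (f : (κ → F) → (κ → F) → F)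
    (hadd : ∀ x y v, f (x + y) v = f x v + f y v) (hsmul : ∀ (c : F) (x v : κ → F), f (c • x) v = c * f x v)
    (hR : ∀ (x : κ → F) (a : κ), f (Pi.single a 1) x = ∑ b, f (Pi.single a 1) (Pi.single b 1) * σ (x b))
    (x y : κ → F) : f x y = formOfGram σ (gramMatrix f) x y := by
  classical
  have h0 : ∀ v, f 0 v = 0 := by
    intro v
    have := hsmul 0 0 v
    simpa using this
  have hs : ∀ (s : Finset κ) (u : κ → κ → F), f (∑ a ∈ s, u a) y = ∑ a ∈ s, f (u a) y := by
    intro s u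
    induction s using Finset.induction_on with
    | empty => simp [h0]
    | insert a s ha ih => rw [Finset.sum_insert ha, Finset.sum_insert ha, hadd, ih]
  have hx : x = ∑ a, x a • (Pi.single a 1 : κ → F) := by
    ext j
    simp [Finset.sum_apply, Pi.single_apply]
  conv_lhs => rw [hx]
  rw [hs]
  unfold formOfGram
  refine Finset.sum_congr rfl (fun a _ => ?_)
  rw [hsmul, hR, Finset.mul_sum]
  refine Finset.sum_congr rfl (fun b _ => ?_)
  simp only [gramMatrix]
  ring

end Cfsg.Agent.Lib.TensorForm
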