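import Mathlib
import Cfsg.Prelude.Def_GeometricClasses
import Cfsg.Agent.Lib.TensorForm
import Cfsg.Agent.Lib.OmFrame2

/-!
# Tensor products with an orthogonal space of dimension three over `𝔽₃`: the stabiliser is not maximal

The isometries (and similarities) of a non-degenerate form on `𝔽₃³` permute the axes of an orthogonal frame, so that the
tensor stabiliser lies in the stabiliser of the decomposition `x_i ⊗ F^κ`.
-/

set_option autoImplicit false
set_option linter.unusedSectionVars false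
set_option linter.unusedVariables false
set_option linter.unusedSimpArgs false

namespace Cfsg.Agent.Lib.TensorFrame

open Matrix QuadraticMap Cfsg Cfsg.Geo Module Cfsg.Agent.Lib.OrthoBasic Cfsg.Agent.Lib.OmCalc
  Cfsg.Agent.Lib.QuadFF Cfsg.Agent.Lib.OmGeo Cfsg.Agent.Lib.TvGL Cfsg.Agent.Lib.TensorForm
open Cfsg.Agent.Lib.SympT (GL_ext mulVec_mul_GL mulVec_inv_GL inv_mulVec_GL tvS tvS_apply tvS_pres pres_apply)
open Cfsg.Agent.Lib.OmFrame (tri three_eq two_ne₃ sq₃)

local notation:70 g:71 " ⋆ " x:70 => Matrix.mulVec (Units.val g) x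

variable {F : Type*} [Field F] [Fintype F]

theorem gram_bilin {κ : Type} [Fintype κ] [DecidableEq κ] {f : (κ → F) → (κ → F) → F} (h : IsBilinearForm f)
    (x y : κ → F) : f x y = formOfGram id (gramMatrix f) x y := by
  classical
  refine gram_of_left id f h.add_left h.smul_left ?_ x y
  intro z a
  have hs : ∀ (s : Finset κ) (u : κ → κ → F), f (Pi.single a 1) (∑ b ∈ s, u b) = ∑ b ∈ s, f (Pi.single a 1) (u b) := by
    intro s u
    induction s using Finset.induction_on with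
    | empty =>
      have := h.smul_right 0 (Pi.single a 1) 0
      simpa using this
    | insert b s hb ih => rw [Finset.sum_insert hb, Finset.sum_insert hb, h.add_right, ih]
  have hz : z = ∑ b, z b • (Pi.single b 1 : κ → F) := by
    ext j
    simp [Finset.sum_apply, Pi.single_apply]
  conv_lhs => rw [hz]
  rw [hs]
  refine Finset.sum_congr rfl (fun b _ => ?_)
  rw [h.smul_right, id]
  ring

section frame

variable {f₁ : (Fin 3 → F) → (Fin 3 → F) → F}

/-- The frame on `𝔽₃³`. -/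
theorem exists_frame₃ (hq : Fintype.card F = 3) (hf₁ : IsSymmetricForm f₁) :
    ∃ (ε : F) (x : Fin 3 → Fin 3 → F), ε ≠ 0 ∧ (∀ i j, f₁ (x i) (x j) = if i = j then ε else 0) ∧
      ∀ u, ∃ c : Fin 3 → F, u = c 0 • x 0 + c 1 • x 1 + c 2 • x 2 := by
  classical
  have h2 := two_ne₃ hq
  have h3 := three_eq hq
  have hb := hf₁.bilinear
  have : Invertible (2 : F) := invertibleOfNonzero h2
  let B : LinearMap.BilinForm F (Fin 3 → F) := LinearMap.mk₂ F f₁ hb.add_left hb.smul_left hb.add_right hb.smul_right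
  have hB : LinearMap.IsSymm B := ⟨fun x y => hf₁.symm _ _⟩
  obtain ⟨v₀, hv₀⟩ := LinearMap.BilinForm.exists_orthogonal_basis hB
  have hN : finrank F (Fin 3 → F) = 3 := by simp
  let v := v₀.reindex (finCongr hN)
  have hv : ∀ i j, i ≠ j → f₁ (v i) (v j) = 0 := by
    intro i j hij
    have h1 := @hv₀ ((finCongr hN).symm i) ((finCongr hN).symm j) (by simpa using hij)
    simpa [B, v, Basis.reindex_apply] using h1
  have hsp : ∀ u, ∃ c : Fin 3 → F, u = c 0 • v 0 + c 1 • v 1 + c 2 • v 2 := by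
    intro u
    have hs := v.sum_repr u
    rw [Fin.sum_univ_three] at hs
    exact ⟨_, hs.symm⟩
  have hp : ∀ i, f₁ (v i) (v i) ≠ 0 := by
    intro i h0
    obtain ⟨y, hy⟩ := (hf₁.nondegenerate _ (v.ne_zero i)).2
    apply hy
    obtain ⟨c, rfl⟩ := hsp y
    rw [hb.add_right, hb.add_right, hb.smul_right, hb.smul_right, hb.smul_right]
    fin_cases i
    · simp only [Fin.zero_eta, Fin.isValue] at h0 ⊢
      rw [h0, hv 0 1 (by simp), hv 0 2 (by simp)]
      ring
    · simp only [Fin.mk_one, Fin.isValue] at h0 ⊢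
      rw [h0, hv 1 0 (by simp), hv 1 2 (by simp)]
      ring
    · simp only [Fin.reduceFinMk, Fin.isValue] at h0 ⊢
      rw [h0, hv 2 0 (by simp), hv 2 1 (by simp)]
      ring
  -- frames from three orthogonal vectors with the same value
  have hframe : ∀ {a b d : Fin 3 → F} {ε : F}, ε ≠ 0 → f₁ a a = ε → f₁ b b = ε → f₁ d d = ε → f₁ a b = 0 → f₁ a d = 0 →
      f₁ b d = 0 → (∀ u, ∃ α β γ : F, u = α • a + β • b + γ • d) →
      ∃ (ε : F) (x : Fin 3 → Fin 3 → F), ε ≠ 0 ∧ (∀ i j, f₁ (x i) (x j) = if i = j then ε else 0) ∧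
        ∀ u, ∃ c : Fin 3 → F, u = c 0 • x 0 + c 1 • x 1 + c 2 • x 2 := by
    intro a b d ε hε haa hbb hdd hab had hbd hc
    refine ⟨ε, ![a, b, d], hε, ?_, ?_⟩
    · intro i j
      have hba : f₁ b a = 0 := by rw [hf₁.symm]; exact hab
      have hda : f₁ d a = 0 := by rw [hf₁.symm]; exact had
      have hdb : f₁ d b = 0 := by rw [hf₁.symm]; exact hbd
      fin_cases i <;> fin_cases j <;> simp [haa, hbb, hdd, hab, had, hbd, hba, hda, hdb]
    · intro u
      obtain ⟨α, β, γ, h⟩ := hc u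
      exact ⟨![α, β, γ], by simpa using h⟩
  have hmix : ∀ {a b d : Fin 3 → F} {p : F}, p ≠ 0 → f₁ a a = p → f₁ b b = p → f₁ d d = -p → f₁ a b = 0 → f₁ a d = 0 →
      f₁ b d = 0 → (∀ u, ∃ α β γ : F, u = α • a + β • b + γ • d) →
      ∃ (ε : F) (x : Fin 3 → Fin 3 → F), ε ≠ 0 ∧ (∀ i j, f₁ (x i) (x j) = if i = j then ε else 0) ∧
        ∀ u, ∃ c : Fin 3 → F, u = c 0 • x 0 + c 1 • x 1 + c 2 • x 2 := by
    intro a b d p hp' haa hbb hdd hab had hbd hc
    have hba : f₁ b a = 0 := by rw [hf₁.symm]; exact hab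
    refine hframe (a := a + b) (b := a + (-1 : F) • b) (d := d) (ε := -p) (neg_ne_zero.2 hp') ?_ ?_ hdd ?_ ?_ ?_ ?_
    · simp only [hb.add_left, hb.add_right, haa, hbb, hab, hba]
      linear_combination p * h3
    · simp only [hb.add_left, hb.add_right, hb.smul_left, hb.smul_right, haa, hbb, hab, hba]
      linear_combination p * h3
    · simp only [hb.add_left, hb.add_right, hb.smul_left, hb.smul_right, haa, hbb, hab, hba]
      ring
    · simp only [hb.add_left, had, hbd, add_zero]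
    · simp only [hb.add_left, hb.smul_left, had, hbd]
      ring
    · intro u
      obtain ⟨α, β, γ, rfl⟩ := hc u
      refine ⟨(α + β) * 2⁻¹, (α - β) * 2⁻¹, γ, ?_⟩
      ext i
      simp only [Pi.add_apply, Pi.smul_apply, smul_eq_mul]
      field_simp
      ring
  have hp0 := hp 0
  have hp1 := hp 1
  have hp2 := hp 2
  have h01 := hv 0 1 (by simp)
  have h02 := hv 0 2 (by simp)
  have h12 := hv 1 2 (by simp)
  have hco : ∀ u, ∃ α β γ : F, u = α • v 0 + β • v 1 + γ • v 2 := by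
    intro u
    obtain ⟨c, hc⟩ := hsp u
    exact ⟨c 0, c 1, c 2, hc⟩
  have htri : ∀ {p r : F}, p ≠ 0 → r ≠ 0 → p ≠ r → r = -p := by
    intro p r hp hr hpr
    rcases tri hq p with h | h | h
    · exact absurd h hp
    · rcases tri hq r with h' | h' | h'
      · exact absurd h' hr
      · exact absurd (h.trans h'.symm) hpr
      · rw [h, h']
    · rcases tri hq r with h' | h' | h'
      · exact absurd h' hr
      · rw [h, h']
        ring
      · exact absurd (h.trans h'.symm) hpr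
  by_cases h01v : f₁ (v 0) (v 0) = f₁ (v 1) (v 1)
  · by_cases h02v : f₁ (v 0) (v 0) = f₁ (v 2) (v 2)
    · exact hframe hp0 rfl h01v.symm h02v.symm h01 h02 h12 hco
    · exact hmix hp0 rfl h01v.symm (htri hp0 hp2 h02v) h01 h02 h12 hco
  · by_cases h02v : f₁ (v 0) (v 0) = f₁ (v 2) (v 2)
    · refine hmix hp0 rfl h02v.symm (htri hp0 hp1 h01v) h02 h01 (by rw [hf₁.symm]; exact h12) ?_
      intro u
      obtain ⟨α, β, γ, rfl⟩ := hco u
      refine ⟨α, γ, β, ?_⟩
      abel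
    · have h12v : f₁ (v 1) (v 1) = f₁ (v 2) (v 2) := by
        have h4 := htri hp0 hp1 h01v
        have h5 := htri hp0 hp2 h02v
        rw [h4, h5]
      refine hmix hp1 rfl h12v.symm ?_ h12 (by rw [hf₁.symm]; exact h01) (by rw [hf₁.symm]; exact h02) ?_
      · have h4 := htri hp0 hp1 h01v
        rw [h4]
        ring
      · intro u
        obtain ⟨α, β, γ, rfl⟩ := hco u
        refine ⟨β, γ, α, ?_⟩
        abel

/-- The vectors of value `ε` are the axes of the frame. -/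
theorem value_axis (hq : Fintype.card F = 3) (hf₁ : IsSymmetricForm f₁) {ε : F} {x : Fin 3 → Fin 3 → F} (hε : ε ≠ 0)
    (hfr : ∀ i j, f₁ (x i) (x j) = if i = j then ε else 0)
    (hsp : ∀ u, ∃ c : Fin 3 → F, u = c 0 • x 0 + c 1 • x 1 + c 2 • x 2) {v : Fin 3 → F} (hv : f₁ v v = ε) :
    ∃ (j : Fin 3) (s : F), s ≠ 0 ∧ v = s • x j := by
  have h2 := two_ne₃ hq
  have hb := hf₁.bilinear
  obtain ⟨c, rfl⟩ := hsp v
  have h01 : f₁ (x 0) (x 1) = 0 := by simp [hfr]
  have h02 : f₁ (x 0) (x 2) = 0 := by simp [hfr]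
  have h12 : f₁ (x 1) (x 2) = 0 := by simp [hfr]
  have h10 : f₁ (x 1) (x 0) = 0 := by simp [hfr]
  have h20 : f₁ (x 2) (x 0) = 0 := by simp [hfr]
  have h21 : f₁ (x 2) (x 1) = 0 := by simp [hfr]
  have h00 : f₁ (x 0) (x 0) = ε := by simp [hfr]
  have h11 : f₁ (x 1) (x 1) = ε := by simp [hfr]
  have h22 : f₁ (x 2) (x 2) = ε := by simp [hfr]
  have hval : c 0 ^ 2 + c 1 ^ 2 + c 2 ^ 2 = 1 := by
    have h5 : f₁ (c 0 • x 0 + c 1 • x 1 + c 2 • x 2) (c 0 • x 0 + c 1 • x 1 + c 2 • x 2) =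
        (c 0 ^ 2 + c 1 ^ 2 + c 2 ^ 2) * ε := by
      simp only [hb.add_left, hb.add_right, hb.smul_left, hb.smul_right, h01, h02, h12, h10, h20, h21, h00, h11, h22]
      ring
    rw [hv] at h5
    exact mul_right_cancel₀ hε (by rw [one_mul]; exact h5.symm)
  by_cases h0 : c 0 = 0
  · by_cases h1 : c 1 = 0
    · have h5 : c 2 ≠ 0 := by
        intro h5
        rw [h0, h1, h5] at hval
        norm_num at hval
      exact ⟨2, c 2, h5, by rw [h0, h1]; simp⟩
    · have h5 : c 2 = 0 := by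
        by_contra h5
        rw [h0, sq₃ hq _ h1, sq₃ hq _ h5] at hval
        have : (1 : F) = 0 := by linear_combination hval
        exact one_ne_zero this
      exact ⟨1, c 1, h1, by rw [h0, h5]; simp⟩
  · by_cases h1 : c 1 = 0
    · have h5 : c 2 = 0 := by
        by_contra h5
        rw [h1, sq₃ hq _ h0, sq₃ hq _ h5] at hval
        have : (1 : F) = 0 := by linear_combination hval
        exact one_ne_zero this
      exact ⟨0, c 0, h0, by rw [h1, h5]; simp⟩
    · exfalso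
      rw [sq₃ hq _ h0, sq₃ hq _ h1] at hval
      by_cases h5 : c 2 = 0
      · rw [h5] at hval
        have : (1 : F) = 0 := by linear_combination hval
        exact one_ne_zero this
      · rw [sq₃ hq _ h5] at hval
        exact h2 (by linear_combination hval)

/-- A similarity of the form permutes the axes of the frame. -/
theorem frame_perm (hq : Fintype.card F = 3) (hf₁ : IsSymmetricForm f₁) {ε : F} {x : Fin 3 → Fin 3 → F} (hε : ε ≠ 0)
    (hfr : ∀ i j, f₁ (x i) (x j) = if i = j then ε else 0)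
    (hsp : ∀ u, ∃ c : Fin 3 → F, u = c 0 • x 0 + c 1 • x 1 + c 2 • x 2) {ν : F} (hν : ν ≠ 0)
    {a : (Fin 3 → F) → (Fin 3 → F)} (ha : ∀ u u', f₁ (a u) (a u') = ν * f₁ u u') :
    ∃ π : Equiv.Perm (Fin 3), ∀ i, ∃ s : F, s ≠ 0 ∧ a (x i) = s • x (π i) := by
  classical
  have h2 := two_ne₃ hq
  have h3 := three_eq hq
  have hb := hf₁.bilinear
  have h01 : f₁ (x 0) (x 1) = 0 := by simp [hfr]
  have h02 : f₁ (x 0) (x 2) = 0 := by simp [hfr]
  have h12 : f₁ (x 1) (x 2) = 0 := by simp [hfr]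
  have h10 : f₁ (x 1) (x 0) = 0 := by simp [hfr]
  have h20 : f₁ (x 2) (x 0) = 0 := by simp [hfr]
  have h21 : f₁ (x 2) (x 1) = 0 := by simp [hfr]
  have h00 : f₁ (x 0) (x 0) = ε := by simp [hfr]
  have h11 : f₁ (x 1) (x 1) = ε := by simp [hfr]
  have h22 : f₁ (x 2) (x 2) = ε := by simp [hfr]
  have hν1 : ν = 1 := by
    rcases tri hq ν with h | h | h
    · exact absurd h hν
    · exact h
    · exfalso
      have hy : ∀ d, f₁ (x 0 + d) (x 0 + d) = ε + f₁ d d + f₁ (x 0) d + f₁ d (x 0) := by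
        intro d
        simp only [hb.add_left, hb.add_right, h00]
        ring
      have hy₁ : f₁ (a (x 0 + x 1)) (a (x 0 + x 1)) = ε := by
        rw [ha, hy, h11, h01, h10, h]
        linear_combination (-ε) * h3
      have hy₂ : f₁ (a (x 0 + x 2)) (a (x 0 + x 2)) = ε := by
        rw [ha, hy, h22, h02, h20, h]
        linear_combination (-ε) * h3
      obtain ⟨j, s, hs, hj⟩ := value_axis hq hf₁ hε hfr hsp hy₁
      obtain ⟨k, s', hs', hk⟩ := value_axis hq hf₁ hε hfr hsp hy₂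
      have h12' : f₁ (a (x 0 + x 1)) (a (x 0 + x 2)) = -ε := by
        rw [ha, h]
        simp only [hb.add_left, hb.add_right, h00, h01, h02, h10, h12]
        ring
      have hjk : j = k := by
        by_contra hjk
        rw [hj, hk, hb.smul_left, hb.smul_right, hfr, if_neg hjk] at h12'
        apply hε
        linear_combination h12'
      subst hjk
      have h5 : f₁ (a (x 0 + x 1)) (a (x 1)) = -ε := by
        rw [ha, h]
        simp only [hb.add_left, h01, h11]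
        ring
      have h6 : f₁ (a (x 0 + x 2)) (a (x 1)) = 0 := by
        rw [ha]
        simp only [hb.add_left, h01, h21]
        ring
      rw [hk, hb.smul_left] at h6
      have h7 : f₁ (x j) (a (x 1)) = 0 := (mul_eq_zero.1 h6).resolve_left hs'
      rw [hj, hb.smul_left, h7, mul_zero] at h5
      apply hε
      linear_combination h5
  subst hν1
  have hval : ∀ i, f₁ (a (x i)) (a (x i)) = ε := by
    intro i
    rw [ha, hfr, if_pos rfl, one_mul]
  choose j s hs hj using fun i => value_axis hq hf₁ hε hfr hsp (hval i)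
  have hinj : Function.Injective j := by
    intro i i' hii
    by_contra hne
    have h5 := ha (x i) (x i')
    rw [hj i, hj i', hb.smul_left, hb.smul_right, hfr, hfr, if_neg hne, ← hii, if_pos rfl, one_mul] at h5
    have h6 : s i * (s i' * ε) ≠ 0 := mul_ne_zero (hs i) (mul_ne_zero (hs i') hε)
    exact h6 h5
  refine ⟨Equiv.ofBijective j (Finite.injective_iff_bijective.1 hinj), fun i => ⟨s i, hs i, ?_⟩⟩
  exact hj i

end frame

section core

variable {ι : Type} [Fintype ι] [DecidableEq ι] {κ : Type} [Fintype κ] [DecidableEq κ]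

/-- The data of a tensor decomposition with a frame on the first factor. -/
structure TD (f : (ι → F) → (ι → F) → F) (f₁ : (Fin 3 → F) → (Fin 3 → F) → F) (f₂ : (κ → F) → (κ → F) → F)
    (T : (Fin 3 → F) → (κ → F) → (ι → F)) (c ε : F) (x : Fin 3 → Fin 3 → F) : Prop where
  hc : c ≠ 0
  hε : ε ≠ 0
  form : ∀ u w u' w', f (T u w) (T u' w') = c * (f₁ u u' * f₂ w w')
  addl : ∀ u u' w, T (u + u') w = T u w + T u' w
  addr : ∀ u w w', T u (w + w') = T u w + T u w'
  smull : ∀ (a : F) u w, T (a • u) w = a • T u w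
  smulr : ∀ (a : F) u w, T u (a • w) = a • T u w
  inj : ∀ {u u' w w'}, T u w = T u' w' → u' ≠ 0 → w' ≠ 0 → ∃ l : F, l ≠ 0 ∧ u = l • u' ∧ l • w = w'
  fr : ∀ i j, f₁ (x i) (x j) = if i = j then ε else 0
  sp : ∀ u, ∃ c : Fin 3 → F, u = c 0 • x 0 + c 1 • x 1 + c 2 • x 2
  f₂ne : ∃ w w', f₂ w w' ≠ 0
  symm₁ : IsSymmetricForm f₁

/-- The members of the decomposition. -/
def W (T : (Fin 3 → F) → (κ → F) → (ι → F)) (x : Fin 3 → Fin 3 → F) (j : Fin 3) : Submodule F (ι → F) :=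
  Submodule.span F (Set.range (T (x j)))

variable {f : (ι → F) → (ι → F) → F} {f₁ : (Fin 3 → F) → (Fin 3 → F) → F} {f₂ : (κ → F) → (κ → F) → F}
  {T : (Fin 3 → F) → (κ → F) → (ι → F)} {c ε : F} {x : Fin 3 → Fin 3 → F}

theorem TD.zero_right (h : TD f f₁ f₂ T c ε x) (u : Fin 3 → F) : T u 0 = 0 := by
  have := h.smulr 0 u 0
  simpa using this

theorem TD.mem_W (h : TD f f₁ f₂ T c ε x) {j : Fin 3} {z : ι → F} : z ∈ W T x j ↔ ∃ w, z = T (x j) w := by
  constructor
  · intro hz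
    induction hz using Submodule.span_induction with
    | mem z hz =>
      obtain ⟨w, rfl⟩ := hz
      exact ⟨w, rfl⟩
    | zero => exact ⟨0, (h.zero_right _).symm⟩
    | add a b _ _ ha hb =>
      obtain ⟨w, rfl⟩ := ha
      obtain ⟨w', rfl⟩ := hb
      exact ⟨w + w', (h.addr _ _ _).symm⟩
    | smul s a _ ha =>
      obtain ⟨w, rfl⟩ := ha
      exact ⟨s • w, (h.smulr _ _ _).symm⟩
  · rintro ⟨w, rfl⟩
    exact Submodule.subset_span ⟨w, rfl⟩

theorem TD.x_ne (h : TD f f₁ f₂ T c ε x) (j : Fin 3) : x j ≠ 0 := by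
  intro h0
  have h1 := h.fr j j
  rw [if_pos rfl, h0] at h1
  have h2 := h.symm₁.bilinear.smul_left 0 0 0
  simp only [zero_smul, zero_mul] at h2
  rw [h2] at h1
  exact h.hε h1.symm

/-- The tensor stabiliser permutes the members of the decomposition. -/
theorem TD.le_decomp (h : TD f f₁ f₂ T c ε x) (hq : Fintype.card F = 3) {g : GL ι F} {a : GL (Fin 3) F} {b : GL κ F}
    (hg : ∀ u v, f (g ⋆ u) (g ⋆ v) = f u v) (hab : ∀ u w, g ⋆ T u w = T (a ⋆ u) (b ⋆ w)) :
    g ∈ decompositionStabilizer (W T x) := by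
  obtain ⟨w₁, w₂, h12⟩ := h.f₂ne
  have hrel : ∀ u u' w w', f₁ (a ⋆ u) (a ⋆ u') * f₂ (b ⋆ w) (b ⋆ w') = f₁ u u' * f₂ w w' := by
    intro u u' w w'
    have h3 := hg (T u w) (T u' w')
    rw [hab, hab, h.form, h.form] at h3
    exact mul_left_cancel₀ h.hc h3
  have hd : f₂ (b ⋆ w₁) (b ⋆ w₂) ≠ 0 := by
    intro h0
    have h3 := hrel (x 0) (x 0) w₁ w₂
    rw [h0, mul_zero, h.fr, if_pos rfl] at h3
    exact mul_ne_zero h.hε h12 h3.symm
  obtain ⟨π, hπ⟩ := frame_perm (a := fun u => a ⋆ u) hq h.symm₁ h.hε h.fr h.sp (ν := f₂ w₁ w₂ / f₂ (b ⋆ w₁) (b ⋆ w₂))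
    (div_ne_zero h12 hd) (by
      intro u u'
      have h3 := hrel u u' w₁ w₂
      field_simp
      linear_combination h3)
  refine ⟨π, fun i => ?_⟩
  obtain ⟨s, hs, hsi⟩ := hπ i
  have hact : ∀ w, g ⋆ T (x i) w = T (x (π i)) (s • (b ⋆ w)) := by
    intro w
    rw [hab, hsi, h.smull, h.smulr]
  apply le_antisymm
  · rintro _ ⟨z, hz, rfl⟩
    obtain ⟨w, rfl⟩ := h.mem_W.1 hz
    show g ⋆ T (x i) w ∈ _
    rw [hact]
    exact h.mem_W.2 ⟨_, rfl⟩
  · intro z hz
    obtain ⟨w, rfl⟩ := h.mem_W.1 hz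
    refine ⟨T (x i) (b⁻¹ ⋆ (s⁻¹ • w)), h.mem_W.2 ⟨_, rfl⟩, ?_⟩
    show g ⋆ T (x i) (b⁻¹ ⋆ (s⁻¹ • w)) = _
    rw [hact, mulVec_inv_GL, smul_smul, mul_inv_cancel₀ hs, one_smul]

/-- The main criterion. -/
theorem TD.not_max (h : TD f f₁ f₂ T c ε x) (hq : Fintype.card F = 3) {Gr H : Subgroup (GL ι F)}
    (hGr : ∀ g ∈ Gr, ∀ u v, f (g ⋆ u) (g ⋆ v) = f u v)
    (hH : ∀ g ∈ H, ∃ (a : GL (Fin 3) F) (b : GL κ F), ∀ u w, g ⋆ T u w = T (a ⋆ u) (b ⋆ w))
    {g₁ : GL ι F} (h1G : g₁ ∈ Gr) {β : (κ → F) → (κ → F)} (h1a : ∀ w, g₁ ⋆ T (x 0) w = T (x 0) (β w))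
    (h1b : ∀ j, j ≠ 0 → ∀ w, g₁ ⋆ T (x j) w = T (x j) w) {w₀ : κ → F} (hw₀ : w₀ ≠ 0)
    (h1c : ∀ l : F, β w₀ ≠ l • w₀)
    {g₂ : GL ι F} (h2G : g₂ ∈ Gr) {u₀ : ι → F} (hu₀ : u₀ ∈ W T x 0) {p₀ p₁ : κ → F}
    (h2a : f (g₂ ⋆ u₀) (T (x 0) p₀) ≠ 0) (h2b : f (g₂ ⋆ u₀) (T (x 1) p₁) ≠ 0) :
    ∃ K : Subgroup (GL ι F), H ⊓ Gr < K ∧ K < Gr := by
  refine ⟨decompositionStabilizer (W T x) ⊓ Gr, ?_, ?_⟩
  · rw [SetLike.lt_iff_le_and_exists]
    refine ⟨?_, g₁, ⟨?_, h1G⟩, ?_⟩
    · rintro g ⟨hgH, hgG⟩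
      obtain ⟨a, b, hab⟩ := hH g hgH
      exact ⟨h.le_decomp hq (hGr g hgG) hab, hgG⟩
    · refine ⟨1, fun j => ?_⟩
      have hst : g₁ ∈ subspaceStabilizer (W T x j) := by
        apply mem_stab_of_map_le
        intro z hz
        obtain ⟨w, rfl⟩ := h.mem_W.1 hz
        by_cases hj : j = 0
        · subst hj
          rw [h1a]
          exact h.mem_W.2 ⟨_, rfl⟩
        · rw [h1b j hj]
          exact h.mem_W.2 ⟨_, rfl⟩
      rw [mem_stab_iff] at hst
      apply le_antisymm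
      · rintro _ ⟨z, hz, rfl⟩
        exact (hst z).1 hz
      · intro z hz
        refine ⟨g₁⁻¹ ⋆ z, ?_, ?_⟩
        · apply (hst _).2
          rw [mulVec_inv_GL]
          exact hz
        · show g₁ ⋆ (g₁⁻¹ ⋆ z) = z
          rw [mulVec_inv_GL]
    · rintro ⟨hgH, -⟩
      obtain ⟨a, b, hab⟩ := hH g₁ hgH
      have h3 := hab (x 1) w₀
      rw [h1b 1 (by simp)] at h3
      obtain ⟨l, hl, -, hl'⟩ := h.inj h3.symm (h.x_ne 1) hw₀
      have hne : β w₀ ≠ 0 := by
        have := h1c 0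
        simpa using this
      have h4 := hab (x 0) w₀
      rw [h1a] at h4
      obtain ⟨l₂, hl₂, -, hl₂'⟩ := h.inj h4.symm (h.x_ne 0) hne
      apply h1c (l₂ * l⁻¹)
      calc β w₀ = l₂ • (b ⋆ w₀) := hl₂'.symm
        _ = (l₂ * l⁻¹) • (l • (b ⋆ w₀)) := by
          rw [smul_smul, mul_assoc, inv_mul_cancel₀ hl, mul_one]
        _ = (l₂ * l⁻¹) • w₀ := by rw [hl']
  · rw [SetLike.lt_iff_le_and_exists]
    refine ⟨inf_le_right, g₂, h2G, ?_⟩
    rintro ⟨⟨π, hπ⟩, -⟩
    have hz : g₂ ⋆ u₀ ∈ W T x (π 0) := by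
      rw [← hπ 0]
      exact ⟨u₀, hu₀, rfl⟩
    obtain ⟨w, hw⟩ := h.mem_W.1 hz
    rw [hw] at h2a h2b
    rw [h.form, h.fr] at h2a h2b
    by_cases h0 : π 0 = 0
    · rw [if_neg (by rw [h0]; simp), zero_mul, mul_zero] at h2b
      exact h2b rfl
    · rw [if_neg h0, zero_mul, mul_zero] at h2a
      exact h2a rfl

end core

section omega

variable {ι : Type} [Fintype ι] [DecidableEq ι] {Q : QuadraticForm F (ι → F)} {n₂ : ℕ}

/-- In `Ω`. -/
theorem tensor_omega (hq : Fintype.card F = 3) (hQ : Nondeg Q) (h11 : 11 ≤ Fintype.card ι) (hn₂ : 4 ≤ n₂)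
    (e : ι ≃ Fin 3 × Fin n₂) (P : GL ι F) {f₁ : (Fin 3 → F) → (Fin 3 → F) → F} {f₂ : (Fin n₂ → F) → (Fin n₂ → F) → F}
    (hf₁ : IsSymmetricForm f₁) (hf₂ : IsSymmetricForm f₂) (hT : IsTensorFormStructure id (polar ⇑Q) f₁ f₂ e P) :
    ∃ K : Subgroup (GL ι F), tensorProductSubgroup 3 n₂ e P ⊓ omegaGL ⇑Q < K ∧ K < omegaGL ⇑Q := by
  classical
  have h2 := two_ne₃ hq
  obtain ⟨c, hc, hform⟩ := form_tn e P id (fun _ _ => rfl) (gram_bilin hf₁.bilinear) (gram_bilin hf₂.bilinear) hT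
  obtain ⟨ε, x, hε, hfr, hsp⟩ := exists_frame₃ hq hf₁
  have hb₂ := hf₂.bilinear
  set T : (Fin 3 → F) → (Fin n₂ → F) → (ι → F) := fun u w => psi e P (tn u w) with hTdef
  have hTD : TD (polar ⇑Q) f₁ f₂ T c ε x :=
    { hc := hc
      hε := hε
      form := hform
      addl := fun u u' w => by
        simp only [hTdef]
        rw [tn_add_left, psi_add]
      addr := fun u w w' => by
        simp only [hTdef]
        rw [tn_add_right, psi_add]
      smull := fun a u w => by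
        simp only [hTdef]
        rw [tn_smul_left, psi_smul]
      smulr := fun a u w => by
        simp only [hTdef]
        rw [tn_smul_right, psi_smul]
      inj := fun {u u' w w'} h hu hw => tn_eq hu hw (psi_inj e P h)
      fr := hfr
      sp := hsp
      f₂ne := by
        have hne : (Pi.single ⟨0, by omega⟩ 1 : Fin n₂ → F) ≠ 0 := by
          intro h0
          have := congrFun h0 ⟨0, by omega⟩
          simp at this
        obtain ⟨y, hy⟩ := (hf₂.nondegenerate _ hne).1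
        exact ⟨_, _, hy⟩
      symm₁ := hf₁ }
  have hb₁ := hf₁.bilinear
  let L : (Fin n₂ → F) →ₗ[F] (ι → F) :=
    { toFun := T (x 0)
      map_add' := hTD.addr _
      map_smul' := fun a w => hTD.smulr a _ w }
  obtain ⟨e', he'0, hQe'⟩ := exists_singular (Q.comp L) (by simp; omega)
  have hQe : Q (T (x 0) e') = 0 := hQe'
  have h00 : f₁ (x 0) (x 0) = ε := by simp [hfr]
  have h01 : f₁ (x 0) (x 1) = 0 := by simp [hfr]
  have h10 : f₁ (x 1) (x 0) = 0 := by simp [hfr]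
  have h11' : f₁ (x 1) (x 1) = ε := by simp [hfr]
  have hce : c * ε ≠ 0 := mul_ne_zero hc hε
  have hfee : f₂ e' e' = 0 := by
    have h3 := hform (x 0) e' (x 0) e'
    rw [polar_self_eq, hQe, mul_zero, h00, ← mul_assoc] at h3
    exact (mul_eq_zero.1 h3.symm).resolve_left hce
  obtain ⟨w₀, hw₀⟩ := (hf₂.nondegenerate e' he'0).1
  have hw₀0 : w₀ ≠ 0 := by
    rintro rfl
    apply hw₀
    have := hb₂.smul_left 0 0 e'
    simpa using this
  obtain ⟨y', hy'e, hy'⟩ : ∃ y', f₂ e' y' = 0 ∧ ∀ l : F, y' ≠ l • e' := by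
    let φ : (Fin n₂ → F) →ₗ[F] F :=
      { toFun := f₂ e'
        map_add' := hb₂.add_right e'
        map_smul' := fun a w => hb₂.smul_right a e' w }
    have h1 := LinearMap.finrank_range_add_finrank_ker φ
    have h3 : finrank F (LinearMap.range φ) ≤ 1 := by
      have := Submodule.finrank_le (LinearMap.range φ)
      simpa using this
    have h4 : finrank F (Fin n₂ → F) = n₂ := by simp
    have h5 : ¬ LinearMap.ker φ ≤ Submodule.span F {e'} := by
      intro hle
      have h6 := Submodule.finrank_mono hle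
      rw [finrank_span_singleton he'0] at h6
      omega
    obtain ⟨y, hy, hy2⟩ := SetLike.not_le_iff_exists.1 h5
    refine ⟨y, hy, fun l hl => hy2 ?_⟩
    rw [hl]
    exact Submodule.smul_mem _ _ (Submodule.mem_span_singleton_self e')
  have hy'e' : f₂ y' e' = 0 := by
    rw [hf₂.symm]
    exact hy'e
  have hy : polar Q (T (x 0) e') (T (x 0) y') = 0 := by
    rw [hform, hy'e, mul_zero, mul_zero]
  have hy₂ : polar Q (T (x 0) e') (T (x 1) e') = 0 := by
    rw [hform, h01, zero_mul, mul_zero]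
  have hQy₂ : Q (T (x 1) e') = 0 := by
    have h3 := hform (x 1) e' (x 1) e'
    rw [polar_self_eq, hfee, mul_zero, mul_zero] at h3
    exact (mul_eq_zero.1 h3).resolve_left h2
  have hlam : polar Q (T (x 0) w₀) (T (x 0) e') ≠ 0 := by
    rw [hform, h00]
    exact mul_ne_zero hc (mul_ne_zero hε hw₀)
  refine hTD.not_max hq (Gr := omegaGL ⇑Q) (H := tensorProductSubgroup 3 n₂ e P)
    (fun g hg u v => polar_iso (fun w => iso_omega hg w) u v)
    (fun g hg => mem_tensor_tn e P hg)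
    (g₁ := sE hQ hQe hy) (sE_mem_omegaGL hQ h11 hQe hy)
    (β := fun w => w + polar Q (T (x 0) w) (T (x 0) e') • y' +
      (-(polar Q (T (x 0) w) (T (x 0) y') + Q (T (x 0) y') * polar Q (T (x 0) w) (T (x 0) e'))) • e') ?_ ?_ hw₀0 ?_
    (g₂ := sE hQ hQe hy₂) (sE_mem_omegaGL hQ h11 hQe hy₂) (u₀ := T (x 0) w₀) (hTD.mem_W.2 ⟨_, rfl⟩) (p₀ := e') (p₁ := w₀)
    ?_ ?_
  · intro w
    rw [sE_apply', hTD.addr, hTD.addr, hTD.smulr, hTD.smulr, sub_eq_add_neg, neg_smul]
  · intro j hj w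
    have h3 : f₁ (x j) (x 0) = 0 := by simp [hfr, hj]
    rw [sE_apply', hform, hform, h3]
    simp
  · intro l hl
    have h3 := congrArg (fun z => f₂ z e') hl
    simp only [hb₂.add_left, hb₂.smul_left, hy'e', hfee, mul_zero, add_zero] at h3
    have hl1 : l = 1 := by
      have : (1 - l) * f₂ w₀ e' = 0 := by linear_combination h3
      have h5 := (mul_eq_zero.1 this).resolve_right hw₀
      linear_combination -h5
    subst hl1
    apply hy' ((polar Q (T (x 0) w₀) (T (x 0) e'))⁻¹ * (polar Q (T (x 0) w₀) (T (x 0) y') +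
      Q (T (x 0) y') * polar Q (T (x 0) w₀) (T (x 0) e')))
    have h5 : polar Q (T (x 0) w₀) (T (x 0) e') • y' = (polar Q (T (x 0) w₀) (T (x 0) y') +
      Q (T (x 0) y') * polar Q (T (x 0) w₀) (T (x 0) e')) • e' := by
      rw [one_smul] at hl
      ext i
      have h6 := congrFun hl i
      simp only [Pi.add_apply, Pi.smul_apply, smul_eq_mul] at h6 ⊢
      linear_combination h6
    rw [mul_smul, ← h5, smul_smul, inv_mul_cancel₀ hlam, one_smul]
  · rw [sE_apply', hQy₂, hform (x 0) w₀ (x 1) e', h01]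
    simp only [zero_mul, mul_zero, add_zero, zero_smul, sub_zero]
    rw [polar_add_left, polar_sm_l, hform (x 1) e' (x 0) e', h10]
    simp only [zero_mul, mul_zero, add_zero]
    exact hlam
  · rw [sE_apply', hQy₂, hform (x 0) w₀ (x 1) e', h01]
    simp only [zero_mul, mul_zero, add_zero, zero_smul, sub_zero]
    rw [polar_add_left, polar_sm_l, hform (x 0) w₀ (x 1) w₀, h01, hform (x 1) e' (x 1) w₀, h11', hf₂.symm e' w₀]
    simp only [zero_mul, mul_zero, zero_add]
    exact mul_ne_zero hlam (mul_ne_zero hc (mul_ne_zero hε hw₀))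

end omega

section symp

variable {m n₁ : ℕ}

/-- In the symplectic group. -/
theorem tensor_sp (hq : Fintype.card F = 3) (hn₁ : 0 < n₁) (e : (Fin m ⊕ Fin m) ≃ Fin n₁ × Fin 3)
    (P : GL (Fin m ⊕ Fin m) F) {f₁ : (Fin n₁ → F) → (Fin n₁ → F) → F} {f₂ : (Fin 3 → F) → (Fin 3 → F) → F}
    (hf₁ : IsSymplecticForm f₁) (hf₂ : IsSymmetricForm f₂) (hT : IsTensorFormStructure id (sympForm m F) f₁ f₂ e P) :
    ∃ K : Subgroup (GL (Fin m ⊕ Fin m) F), tensorProductSubgroup n₁ 3 e P ⊓ spGL m F < K ∧ K < spGL m F := by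
  classical
  have hs : IsSymplecticForm (sympForm m F) := Cfsg.Agent.Lib.SympT.sympForm_isSymplectic (m := m) (F := F)
  obtain ⟨c, hc, hform⟩ := form_tn e P id (fun _ _ => rfl) (gram_bilin hf₁.bilinear) (gram_bilin hf₂.bilinear) hT
  obtain ⟨ε, x, hε, hfr, hsp⟩ := exists_frame₃ hq hf₂
  have hb₁ := hf₁.bilinear
  have hb₂ := hf₂.bilinear
  have hb := hs.bilinear
  set f := sympForm m F with hf
  set T : (Fin 3 → F) → (Fin n₁ → F) → (Fin m ⊕ Fin m → F) := fun u w => psi e P (tn w u) with hTdef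
  have hform' : ∀ u w u' w', f (T u w) (T u' w') = c * (f₂ u u' * f₁ w w') := by
    intro u w u' w'
    simp only [hTdef]
    rw [hform, mul_comm (f₁ _ _)]
  have hne : (Pi.single ⟨0, hn₁⟩ 1 : Fin n₁ → F) ≠ 0 := by
    intro h0
    have := congrFun h0 ⟨0, hn₁⟩
    simp at this
  obtain ⟨w₁, hw₁⟩ : ∃ w₁ : Fin n₁ → F, w₁ ≠ 0 := ⟨_, hne⟩
  obtain ⟨w₀, hw₀⟩ := (hf₁.nondegenerate w₁ hw₁).1
  have hTD : TD f f₂ f₁ T c ε x :=
    { hc := hc
      hε := hε
      form := hform'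
      addl := fun u u' w => by
        simp only [hTdef]
        rw [tn_add_right, psi_add]
      addr := fun u w w' => by
        simp only [hTdef]
        rw [tn_add_left, psi_add]
      smull := fun a u w => by
        simp only [hTdef]
        rw [tn_smul_right, psi_smul]
      smulr := fun a u w => by
        simp only [hTdef]
        rw [tn_smul_left, psi_smul]
      inj := fun {u u' w w'} h hu hw => by
        obtain ⟨l, hl, h3, h4⟩ := tn_eq hw hu (psi_inj e P h)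
        refine ⟨l⁻¹, inv_ne_zero hl, ?_, ?_⟩
        · rw [← h4, smul_smul, inv_mul_cancel₀ hl, one_smul]
        · rw [h3, smul_smul, inv_mul_cancel₀ hl, one_smul]
      fr := hfr
      sp := hsp
      f₂ne := ⟨_, _, hw₀⟩
      symm₁ := hf₂ }
  have h00 : f₂ (x 0) (x 0) = ε := by simp [hfr]
  have h01 : f₂ (x 0) (x 1) = 0 := by simp [hfr]
  have h10 : f₂ (x 1) (x 0) = 0 := by simp [hfr]
  have h11' : f₂ (x 1) (x 1) = ε := by simp [hfr]
  have hw₀0 : w₀ ≠ 0 := by
    rintro rfl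
    apply hw₀
    have := hb₁.smul_left 0 0 w₁
    simpa using this
  have hw₁₀ : f₁ w₁ w₀ ≠ 0 := by
    rw [hf₁.skew]
    exact neg_ne_zero.2 hw₀
  refine hTD.not_max hq (Gr := spGL m F) (H := tensorProductSubgroup n₁ 3 e P)
    (fun g hg u v => pres_apply hg u v)
    (fun g hg => by
      obtain ⟨a, b, hab⟩ := mem_tensor_tn e P hg
      exact ⟨b, a, fun u w => hab w u⟩)
    (g₁ := tvS hs (T (x 0) w₁) 1) (tvS_pres hs _ _)
    (β := fun w => w + (1 * (c * (ε * f₁ w w₁))) • w₁) ?_ ?_ hw₀0 ?_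
    (g₂ := tvS hs (T (x 0 + x 1) w₁) 1) (tvS_pres hs _ _) (u₀ := T (x 0) w₀) (hTD.mem_W.2 ⟨_, rfl⟩) (p₀ := w₁) (p₁ := w₀)
    ?_ ?_
  · intro w
    rw [tvS_apply, hform', h00, hTD.addr, hTD.smulr]
  · intro j hj w
    have h3 : f₂ (x j) (x 0) = 0 := by simp [hfr, hj]
    rw [tvS_apply, hform', h3]
    simp
  · intro l hl
    have h3 := congrArg (fun z => f₁ z w₀) hl
    simp only [hb₁.add_left, hb₁.smul_left, hf₁.alternating, mul_zero, zero_add] at h3
    have h4 : (1 * (c * (ε * f₁ w₀ w₁))) * f₁ w₁ w₀ ≠ 0 :=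
      mul_ne_zero (by
        rw [one_mul]
        exact mul_ne_zero hc (mul_ne_zero hε hw₀)) hw₁₀
    exact h4 h3
  · rw [tvS_apply, hb.add_left, hb.smul_left]
    simp only [hform', hb₂.add_left, hb₂.add_right, h00, h01, h10, h11', hf₁.alternating, mul_zero, add_zero, zero_mul,
      one_mul, zero_add]
    exact mul_ne_zero hc (mul_ne_zero hε hw₀)
  · rw [tvS_apply, hb.add_left, hb.smul_left]
    simp only [hform', hb₂.add_left, hb₂.add_right, h00, h01, h10, h11', hf₁.alternating, mul_zero, add_zero, zero_mul,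
      one_mul, zero_add]
    exact mul_ne_zero (mul_ne_zero hc (mul_ne_zero hε hw₀)) (mul_ne_zero hc (mul_ne_zero hε hw₁₀))

end symp

end Cfsg.Agent.Lib.TensorFrame
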