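import Mathlib
import Cfsg.Prelude.Def_GeometricClasses
import Cfsg.Agent.Lib.TensorFrame
import Cfsg.Agent.S5638

/-!
# The tensor decomposition `Sp₂(2) ⊗ Sp_{n/2}(2)` inside `Ω⁺_n(2)` is not maximal

The group lies in the normaliser of the element `ω ⊗ 1` of order three, which contains Siegel transformations that are not
tensors.
-/

set_option autoImplicit false
set_option linter.unusedSectionVars false
set_option linter.unusedVariables false
set_option linter.unusedSimpArgs false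

namespace Cfsg.Agent.Lib.OmTensor2

open Matrix QuadraticMap Cfsg Cfsg.Geo Module Cfsg.Agent.Lib.OrthoBasic Cfsg.Agent.Lib.OmCalc
  Cfsg.Agent.Lib.QuadFF Cfsg.Agent.Lib.OmGeo Cfsg.Agent.Lib.TvGL Cfsg.Agent.Lib.TensorForm
open Cfsg.Agent.Lib.SympT (GL_ext mulVec_mul_GL mulVec_inv_GL inv_mulVec_GL)
open Cfsg.Agent.S5638 (om elts two_zero om_mul_om om_cube conj_om invNorm)
open Cfsg.Agent.Lib.TensorFrame (gram_bilin)
open scoped Kronecker

local notation:70 g:71 " ⋆ " x:70 => Matrix.mulVec (Units.val g) x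

variable {ι : Type} [Fintype ι] [DecidableEq ι] {F : Type*} [Field F] [Fintype F] {n₁ n₂ : ℕ}

theorem conj_action (e : ι ≃ Fin n₁ × Fin n₂) (P : GL ι F) (h : GL (Fin n₁ × Fin n₂) F) (x : Fin n₁ × Fin n₂ → F) :
    ((MulAut.conj P) ((glReindex e.symm) h) : GL ι F) ⋆ psi e P x = psi e P ((h : Matrix _ _ F) *ᵥ x) := by
  unfold psi
  show (((MulAut.conj P) ((glReindex e.symm) h) : GL ι F) : Matrix ι ι F) *ᵥ _ = _
  rw [MulAut.conj_apply, mulVec_mul_GL, mulVec_mul_GL, inv_mulVec_GL]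
  congr 1
  ext i
  show ((Matrix.reindex e.symm e.symm (h : Matrix _ _ F)) *ᵥ (x ∘ e)) i = _
  simp only [Matrix.mulVec, dotProduct, Matrix.reindex_apply, Matrix.submatrix_apply, Equiv.symm_symm, Function.comp]
  exact e.sum_comp (fun k => (h : Matrix _ _ F) (e i) k * x k)

/-- The element `ω ⊗ 1`. -/
theorem exists_z (hq : Fintype.card F = 2) (e : ι ≃ Fin 2 × Fin n₂) (P : GL ι F) :
    ∃ z : GL ι F, ∀ x, z ⋆ psi e P x = psi e P ((om F ⊗ₖ (1 : Matrix (Fin n₂) (Fin n₂) F)) *ᵥ x) := by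
  let Om : Matrix (Fin 2 × Fin n₂) (Fin 2 × Fin n₂) F := om F ⊗ₖ (1 : Matrix (Fin n₂) (Fin n₂) F)
  have hOm : Om * (Om * Om) = 1 := by
    simp only [Om]
    rw [← Matrix.mul_kronecker_mul, ← Matrix.mul_kronecker_mul, om_cube hq]
    simp
  have hOm' : (Om * Om) * Om = 1 := by
    rw [mul_assoc]
    have hc : Commute (Om * Om) Om := (Commute.refl Om).mul_left (Commute.refl Om)
    rw [← mul_assoc, hc.eq, hOm]
  let W : GL (Fin 2 × Fin n₂) F := ⟨Om, Om * Om, hOm, hOm'⟩
  exact ⟨_, fun x => conj_action e P W x⟩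

/-- A vector orthogonal to a given one and independent of it. -/
theorem exists_perp_indep {n : ℕ} (hn : 3 ≤ n) {f : (Fin n → F) → (Fin n → F) → F} (hb : IsBilinearForm f) {a : Fin n → F}
    (ha : a ≠ 0) : ∃ y, f a y = 0 ∧ ∀ l : F, y ≠ l • a := by
  let φ : (Fin n → F) →ₗ[F] F :=
    { toFun := f a
      map_add' := hb.add_right a
      map_smul' := fun c w => hb.smul_right c a w }
  have h1 := LinearMap.finrank_range_add_finrank_ker φ
  have h3 : finrank F (LinearMap.range φ) ≤ 1 := by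
    have := Submodule.finrank_le (LinearMap.range φ)
    simpa using this
  have h4 : finrank F (Fin n → F) = n := by simp
  have h5 : ¬ LinearMap.ker φ ≤ Submodule.span F {a} := by
    intro hle
    have h6 := Submodule.finrank_mono hle
    rw [finrank_span_singleton ha] at h6
    omega
  obtain ⟨y, hy, hy2⟩ := SetLike.not_le_iff_exists.1 h5
  refine ⟨y, hy, fun l hl => hy2 ?_⟩
  rw [hl]
  exact Submodule.smul_mem _ _ (Submodule.mem_span_singleton_self a)

/-- Separation of independent vectors by a non-degenerate form. -/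
theorem exists_sep {n : ℕ} {f : (Fin n → F) → (Fin n → F) → F} (hb : IsBilinearForm f) (hnd : IsNondegenerateForm f)
    {a b : Fin n → F} (hb0 : b ≠ 0) (hab : ∀ l : F, a ≠ l • b) : ∃ y, f y b = 0 ∧ f y a ≠ 0 := by
  by_contra hno
  push Not at hno
  obtain ⟨y₁, hy₁⟩ := (hnd b hb0).1
  obtain ⟨y₂, hy₂⟩ : ∃ y₂, f y₂ b = 1 :=
    ⟨(f y₁ b)⁻¹ • y₁, by rw [hb.smul_left]; exact inv_mul_cancel₀ hy₁⟩
  have h1 : ∀ z, f z a = f z b * f y₂ a := by
    intro z
    have h3 := hno (z + (-(f z b)) • y₂) (by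
      rw [hb.add_left, hb.smul_left, hy₂]
      ring)
    rw [hb.add_left, hb.smul_left] at h3
    linear_combination h3
  have h2 : a + (-(f y₂ a)) • b = 0 := by
    by_contra hne
    obtain ⟨z, hz⟩ := (hnd _ hne).1
    apply hz
    rw [hb.add_right, hb.smul_right, h1]
    ring
  apply hab (f y₂ a)
  have h4 := eq_neg_of_add_eq_zero_left h2
  rw [neg_smul, neg_neg] at h4
  exact h4

section main

variable {Q : QuadraticForm F (ι → F)}

theorem tensor_two (hq : Fintype.card F = 2) (hQ : Nondeg Q) (h11 : 11 ≤ Fintype.card ι) (hn₂ : 3 ≤ n₂)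
    (e : ι ≃ Fin 2 × Fin n₂) (P : GL ι F) {f₁ : (Fin 2 → F) → (Fin 2 → F) → F} {f₂ : (Fin n₂ → F) → (Fin n₂ → F) → F}
    (hf₁ : IsSymplecticForm f₁) (hf₂ : IsSymplecticForm f₂) (hT : IsTensorFormStructure id (polar ⇑Q) f₁ f₂ e P)
    (hpure : ∀ u w, Q (psi e P (tn u w)) = 0) :
    ∃ K : Subgroup (GL ι F), tensorProductSubgroup 2 n₂ e P ⊓ omegaGL ⇑Q < K ∧ K < omegaGL ⇑Q := by
  classical
  have h2' := two_zero hq
  have hc2 : (2 : F) = 0 := by rw [← one_add_one_eq_two, h2']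
  obtain ⟨c, hc, hform⟩ := form_tn e P id (fun _ _ => rfl) (gram_bilin hf₁.bilinear) (gram_bilin hf₂.bilinear) hT
  have hc1 : c = 1 := (elts hq c).resolve_left hc
  subst hc1
  simp only [one_mul] at hform
  obtain ⟨z, hz⟩ := exists_z hq e P
  set T : (Fin 2 → F) → (Fin n₂ → F) → (ι → F) := fun u w => psi e P (tn u w) with hTdef
  have hT_addl : ∀ u u' w, T (u + u') w = T u w + T u' w := by
    intro u u' w
    simp only [hTdef]
    rw [tn_add_left, psi_add]
  have hT_addr : ∀ u w w', T u (w + w') = T u w + T u w' := by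
    intro u w w'
    simp only [hTdef]
    rw [tn_add_right, psi_add]
  have hT_smulr : ∀ (a : F) u w, T u (a • w) = a • T u w := by
    intro a u w
    simp only [hTdef]
    rw [tn_smul_right, psi_smul]
  have hT_inj : ∀ {u u' w w'}, T u w = T u' w' → u' ≠ 0 → w' ≠ 0 → ∃ l : F, l ≠ 0 ∧ u = l • u' ∧ l • w = w' := by
    intro u u' w w' h hu hw
    exact tn_eq hu hw (psi_inj e P h)
  have hb₁ := hf₁.bilinear
  have hb₂ := hf₂.bilinear
  -- the element `z`
  have hz_pure : ∀ u w, z ⋆ T u w = T (om F *ᵥ u) w := by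
    intro u w
    simp only [hTdef]
    rw [hz, kron_mulVec, Matrix.one_mulVec]
  have hzz : ∀ v, z ⋆ (z ⋆ v) = v + z ⋆ v := by
    intro v
    obtain ⟨x, rfl⟩ := psi_surj e P v
    rw [hz, hz, ← psi_add, Matrix.mulVec_mulVec, ← Matrix.mul_kronecker_mul, om_mul_om hq]
    congr 1
    rw [Matrix.mul_one, Matrix.add_kronecker, Matrix.add_mulVec, Matrix.one_kronecker_one, Matrix.one_mulVec]
  have hzinv : z⁻¹ = z * z := by
    apply inv_eq_of_mul_eq_one_right
    apply GL_ext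
    intro v
    rw [mulVec_mul_GL, mulVec_mul_GL, hzz, hzz]
    simp only [Units.val_one, Matrix.one_mulVec]
    ext i
    simp only [Pi.add_apply]
    linear_combination ((z ⋆ v) i) * hc2
  -- the standard basis of `F²`
  set e₀ : Fin 2 → F := ![1, 0] with he₀
  set e₁ : Fin 2 → F := ![0, 1] with he₁
  have hu_dec : ∀ u : Fin 2 → F, u = u 0 • e₀ + u 1 • e₁ := by
    intro u
    ext i
    fin_cases i <;> simp [he₀, he₁]
  have hom₀ : om F *ᵥ e₀ = e₁ := by
    ext i
    fin_cases i <;> simp [om, he₀, he₁, Matrix.mulVec, dotProduct, Fin.sum_univ_two]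
  have hom₁ : om F *ᵥ e₁ = e₀ + e₁ := by
    ext i
    fin_cases i <;> simp [om, he₀, he₁, Matrix.mulVec, dotProduct, Fin.sum_univ_two]
  have he₀0 : e₀ ≠ 0 := by
    intro h
    have := congrFun h 0
    simp [he₀] at this
  have he₁0 : e₁ ≠ 0 := by
    intro h
    have := congrFun h 1
    simp [he₁] at this
  have hf00 : f₁ e₀ e₀ = 0 := hf₁.alternating _
  have hf11 : f₁ e₁ e₁ = 0 := hf₁.alternating _
  have hf01 : f₁ e₀ e₁ = 1 := by
    apply (elts hq _).resolve_left
    intro h0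
    obtain ⟨y, hy⟩ := (hf₁.nondegenerate e₀ he₀0).2
    apply hy
    rw [hu_dec y, hb₁.add_right, hb₁.smul_right, hb₁.smul_right, hf00, h0]
    ring
  have hf10 : f₁ e₁ e₀ = 1 := by
    rw [hf₁.skew, hf01]
    linear_combination -h2'
  have hf_om : ∀ u u', f₁ (om F *ᵥ u) (om F *ᵥ u') = f₁ u u' := by
    intro u u'
    obtain ⟨α, β, rfl⟩ : ∃ α β : F, u = α • e₀ + β • e₁ := ⟨_, _, hu_dec u⟩
    obtain ⟨γ, δ, rfl⟩ : ∃ α β : F, u' = α • e₀ + β • e₁ := ⟨_, _, hu_dec u'⟩
    rw [Matrix.mulVec_add, Matrix.mulVec_add, Matrix.mulVec_smul, Matrix.mulVec_smul,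
      Matrix.mulVec_smul, Matrix.mulVec_smul, hom₀, hom₁]
    simp only [hb₁.add_left, hb₁.add_right, hb₁.smul_left, hb₁.smul_right, hf00, hf01, hf10, hf11]
    linear_combination (β * δ) * h2'
  have hform' : ∀ u w u' w', polar Q (T u w) (T u' w') = f₁ u u' * f₂ w w' := hform
  have hTp : ∀ u w, Q (T u w) = 0 := hpure
  have hind : ∀ (p : (ι → F) → Prop), p 0 → (∀ a b, p a → p b → p (a + b)) → (∀ (c : F) a, p a → p (c • a)) →
      (∀ u w, p (T u w)) → ∀ v, p v := by
    intro p h0 hadd hsmul hpu v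
    obtain ⟨x, rfl⟩ := psi_surj e P v
    have hx : x = ∑ a, x a • tn (Pi.single a.1 1 : Fin 2 → F) (Pi.single a.2 1 : Fin n₂ → F) := by
      ext ⟨i, j⟩
      simp only [Finset.sum_apply, Pi.smul_apply, smul_eq_mul, tn]
      rw [Finset.sum_eq_single (i, j)]
      · simp
      · rintro ⟨i', j'⟩ _ hne
        have h3 : (Pi.single i' 1 : Fin 2 → F) i * (Pi.single j' 1 : Fin n₂ → F) j = 0 := by
          by_cases h1 : i = i'
          · have h4 : j ≠ j' := fun h => hne (by rw [h1, h])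
            rw [Pi.single_eq_of_ne h4, mul_zero]
          · rw [Pi.single_eq_of_ne h1, zero_mul]
        simp only [h3, mul_zero]
      · simp
    have hs : ∀ s : Finset (Fin 2 × Fin n₂),
        p (psi e P (∑ a ∈ s, x a • tn (Pi.single a.1 1 : Fin 2 → F) (Pi.single a.2 1 : Fin n₂ → F))) := by
      intro s
      induction s using Finset.induction_on with
      | empty =>
        rw [Finset.sum_empty, psi_zero]
        exact h0
      | insert a s ha ih =>
        rw [Finset.sum_insert ha, psi_add, psi_smul]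
        exact hadd _ _ (hsmul _ _ (hpu _ _)) ih
    rw [hx]
    exact hs _
  have hpol0r : ∀ a, polar Q a 0 = 0 := fun a => by simp [polar]
  have hpol0l : ∀ a, polar Q 0 a = 0 := fun a => by simp [polar]
  have hzpol₁ : ∀ u w y, polar Q (z ⋆ T u w) (z ⋆ y) = polar Q (T u w) y := by
    intro u w y
    refine hind (fun y => polar Q (z ⋆ T u w) (z ⋆ y) = polar Q (T u w) y) ?_ ?_ ?_ ?_ y
    · simp only [Matrix.mulVec_zero, hpol0r]
    · intro a b ha hb
      simp only [Matrix.mulVec_add, polar_add_right, ha, hb]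
    · intro c a ha
      simp only [Matrix.mulVec_smul, polar_sm_r, ha]
    · intro u' w'
      rw [hz_pure, hz_pure, hform', hform', hf_om]
  have hzpol : ∀ x y, polar Q (z ⋆ x) (z ⋆ y) = polar Q x y := by
    intro x y
    refine hind (fun x => polar Q (z ⋆ x) (z ⋆ y) = polar Q x y) ?_ ?_ ?_ ?_ x
    · simp only [Matrix.mulVec_zero, hpol0l]
    · intro a b ha hb
      simp only [Matrix.mulVec_add, polar_add_left, ha, hb]
    · intro c a ha
      simp only [Matrix.mulVec_smul, polar_sm_l, ha]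
    · intro u w
      exact hzpol₁ u w y
  -- vectors of the second factor
  have hw₁0 : (Pi.single ⟨0, by omega⟩ 1 : Fin n₂ → F) ≠ 0 := by
    intro h0
    have := congrFun h0 ⟨0, by omega⟩
    simp at this
  obtain ⟨w₁, hw₁⟩ : ∃ w₁ : Fin n₂ → F, w₁ ≠ 0 := ⟨_, hw₁0⟩
  obtain ⟨w₂, hw₁₂, hw₂⟩ := exists_perp_indep hn₂ hb₂ hw₁
  have hw₂0 : w₂ ≠ 0 := by
    intro h0
    apply hw₂ 0
    rw [h0, zero_smul]
  have hw₂₁ : f₂ w₂ w₁ = 0 := by
    rw [hf₂.skew, hw₁₂, neg_zero]
  have hw₁w₂ : ∀ l : F, w₁ ≠ l • w₂ := by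
    intro l hl
    have hl0 : l ≠ 0 := by
      rintro rfl
      rw [zero_smul] at hl
      exact hw₁ hl
    apply hw₂ l⁻¹
    rw [hl, smul_smul, inv_mul_cancel₀ hl0, one_smul]
  obtain ⟨t', ht'₂, ht'₁⟩ := exists_sep hb₂ hf₂.nondegenerate hw₂0 hw₁w₂
  obtain ⟨t, ht₁, ht₂⟩ := exists_sep hb₂ hf₂.nondegenerate hw₁ hw₂
  have ht'₁' : f₂ t' w₁ = 1 := (elts hq _).resolve_left ht'₁
  have ht₂' : f₂ t w₂ = 1 := (elts hq _).resolve_left ht₂
  have ht'0 : t' ≠ 0 := by
    rintro rfl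
    apply ht'₁
    have := hb₂.smul_left 0 0 w₁
    simpa using this
  -- the vector `v`
  obtain ⟨v, hv⟩ : ∃ v, v = T e₀ w₁ + T e₁ w₂ := ⟨_, rfl⟩
  have hQv : Q v = 0 := by
    rw [hv, Q_ad, hTp, hTp, hform', hw₁₂]
    ring
  have hzv : z ⋆ v = T e₁ w₁ + (T e₀ w₂ + T e₁ w₂) := by
    rw [hv, Matrix.mulVec_add, hz_pure, hz_pure, hom₀, hom₁, hT_addl]
  have hpvz : polar Q v (z ⋆ v) = 0 := by
    rw [hzv, hv]
    simp only [polar_add_left, polar_add_right, hform', hf₂.alternating, hw₁₂, hw₂₁, hf00, hf11]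
    ring
  have hQzv : Q (z ⋆ v) = 0 := by
    rw [hzv, Q_ad, Q_ad, hTp, hTp, hTp, polar_add_right, hform', hform', hform', hw₁₂, hf₂.alternating]
    ring
  have hvec : ∀ (x y₁ y₂ : ι → F) (a b : F), x + a • y₁ - (b + 0 * a) • y₂ = x + a • y₁ + b • y₂ := by
    intro x y₁ y₂ a b
    ext i
    simp only [Pi.add_apply, Pi.sub_apply, Pi.smul_apply, smul_eq_mul]
    linear_combination (-(b * y₂ i)) * hc2
  have hg₁act : ∀ x, sE hQ hQv hpvz ⋆ x = x + polar Q x v • (z ⋆ v) + polar Q x (z ⋆ v) • v := by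
    intro x
    rw [sE_apply', hQzv, hvec]
  have hg₁z : sE hQ hQv hpvz * z = z * sE hQ hQv hpvz := by
    apply GL_ext
    intro x
    rw [mulVec_mul_GL, mulVec_mul_GL, hg₁act, hg₁act, Matrix.mulVec_add, Matrix.mulVec_add, Matrix.mulVec_smul,
      Matrix.mulVec_smul, hzz v, hzpol]
    have h3 : polar Q (z ⋆ x) v = polar Q x (z ⋆ v) + polar Q x v := by
      have h4 := hzpol (z ⋆ x) v
      rw [hzz x, polar_add_left, hzpol] at h4
      exact h4.symm
    rw [h3]
    ext i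
    simp only [Pi.add_apply, Pi.smul_apply, smul_eq_mul]
    ring
  -- not a tensor
  have hg₁T : sE hQ hQv hpvz ∉ tensorProductSubgroup 2 n₂ e P := by
    intro hg
    obtain ⟨a, b, hab⟩ := mem_tensor_tn e P hg
    have hact : ∀ u w, sE hQ hQv hpvz ⋆ T u w = T ((a : Matrix _ _ F) *ᵥ u) ((b : Matrix _ _ F) *ᵥ w) := hab
    have h3 := hact e₀ w₁
    have h4 : polar Q (T e₀ w₁) v = 0 := by
      rw [hv, polar_add_right, hform', hform', hf₂.alternating, hw₁₂]
      ring
    have h5 : polar Q (T e₀ w₁) (z ⋆ v) = 0 := by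
      rw [hzv, polar_add_right, polar_add_right, hform', hform', hform', hf₂.alternating, hw₁₂]
      ring
    rw [hg₁act, h4, h5, zero_smul, zero_smul, add_zero, add_zero] at h3
    obtain ⟨l, hl, h6, -⟩ := hT_inj h3.symm he₀0 hw₁
    have hl1 : l = 1 := (elts hq l).resolve_left hl
    rw [hl1, one_smul] at h6
    have h7 := hact e₀ t
    have h8 : polar Q (T e₀ t) v = 1 := by
      rw [hv, polar_add_right, hform', hform', hf00, hf01, ht₂']
      ring
    have h9 : polar Q (T e₀ t) (z ⋆ v) = 1 := by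
      rw [hzv, polar_add_right, polar_add_right, hform', hform', hform', hf00, hf01, ht₁, ht₂']
      ring
    rw [hg₁act, h8, h9, one_smul, one_smul, hzv, hv, h6] at h7
    set Y := (b : Matrix _ _ F) *ᵥ t + (t + (w₂ + w₁)) with hY
    have h10 : T e₀ Y = T e₁ w₁ := by
      rw [hY, hT_addr, hT_addr, hT_addr]
      ext i
      have := congrFun h7 i
      simp only [Pi.add_apply] at this ⊢
      linear_combination -this + (T e₀ t i + T e₀ w₂ i + T e₀ w₁ i + T e₁ w₂ i) * hc2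
    obtain ⟨l', -, h11', -⟩ := hT_inj h10 he₁0 hw₁
    have h12 := congrFun h11' 0
    simp [he₀, he₁] at h12
  -- outside the normaliser
  have hQe : Q (T e₀ w₁) = 0 := hTp _ _
  have hey : polar Q (T e₀ w₁) (T e₀ w₂) = 0 := by
    rw [hform', hf00, zero_mul]
  have hQy : Q (T e₀ w₂) = 0 := hTp _ _
  have hT0 : T e₀ 0 = 0 := by
    simp only [hTdef]
    rw [tn_zero_right, psi_zero]
  have hg₂ : sE hQ hQe hey ∉ invNorm z := by
    intro hn
    have hx₀ : sE hQ hQe hey ⋆ T e₀ t' = T e₀ t' := by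
      rw [sE_apply', hform', hform', hf00]
      simp
    have hzx₀ : z ⋆ T e₀ t' = T e₁ t' := by
      rw [hz_pure, hom₀]
    have hzzx₀ : sE hQ hQe hey ⋆ T e₁ t' = T e₁ t' + T e₀ w₂ := by
      rw [sE_apply', hform', hform', hf10, ht'₁', ht'₂, hQy]
      simp
    rcases hn with hn | hn
    · have h3 : sE hQ hQe hey * z = z * sE hQ hQe hey := by
        rwa [mul_inv_eq_iff_eq_mul] at hn
      have h4 := congrArg (fun g : GL ι F => g ⋆ T e₀ t') h3
      simp only [mulVec_mul_GL] at h4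
      rw [hx₀, hzx₀, hzzx₀] at h4
      have h5 : T e₀ w₂ = T e₀ 0 := by
        rw [hT0]
        exact add_left_cancel (a := T e₁ t') (by rw [h4, add_zero])
      have h6 : T e₀ 0 = T e₀ w₂ := h5.symm
      obtain ⟨l, -, -, h7⟩ := hT_inj h6 he₀0 hw₂0
      rw [smul_zero] at h7
      exact hw₂0 h7.symm
    · have h3 : sE hQ hQe hey * z = (z * z) * sE hQ hQe hey := by
        rw [mul_inv_eq_iff_eq_mul] at hn
        rw [← hzinv]
        exact hn
      have h4 := congrArg (fun g : GL ι F => g ⋆ T e₀ t') h3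
      simp only [mulVec_mul_GL] at h4
      rw [hx₀, hzz, hzx₀, hzzx₀] at h4
      have h5 : T e₀ w₂ = T e₀ t' := add_left_cancel (a := T e₁ t') (by rw [h4, add_comm])
      obtain ⟨l, hl, -, h7⟩ := hT_inj h5 he₀0 ht'0
      have hl1 : l = 1 := (elts hq l).resolve_left hl
      rw [hl1, one_smul] at h7
      rw [← h7] at ht'₁
      exact ht'₁ hw₂₁
  -- the tensor stabiliser normalises
  have hle : tensorProductSubgroup 2 n₂ e P ⊓ omegaGL ⇑Q ≤ invNorm z := by
    rintro g ⟨hg, -⟩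
    obtain ⟨a, b, hab⟩ := mem_tensor e P hg
    rcases conj_om hq (a : Matrix _ _ F) a.isUnit with h3 | h3
    · left
      rw [mul_inv_eq_iff_eq_mul]
      apply GL_ext
      intro v'
      obtain ⟨x, rfl⟩ := psi_surj e P v'
      rw [mulVec_mul_GL, mulVec_mul_GL, hz, hab, hab, hz, Matrix.mulVec_mulVec, Matrix.mulVec_mulVec,
        ← Matrix.mul_kronecker_mul, ← Matrix.mul_kronecker_mul, h3, mul_one, one_mul]
    · right
      rw [mul_inv_eq_iff_eq_mul, hzinv]
      apply GL_ext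
      intro v'
      obtain ⟨x, rfl⟩ := psi_surj e P v'
      rw [mulVec_mul_GL, mulVec_mul_GL, mulVec_mul_GL, hz, hab, hab, hz, hz, Matrix.mulVec_mulVec, Matrix.mulVec_mulVec,
        Matrix.mulVec_mulVec, ← Matrix.mul_kronecker_mul, ← Matrix.mul_kronecker_mul, ← Matrix.mul_kronecker_mul,
        h3, mul_one, one_mul, one_mul, mul_assoc]
  refine ⟨invNorm z ⊓ omegaGL ⇑Q, ?_, ?_⟩
  · rw [SetLike.lt_iff_le_and_exists]
    refine ⟨le_inf hle inf_le_right, sE hQ hQv hpvz, ⟨?_, sE_mem_omegaGL hQ h11 hQv hpvz⟩, fun h => hg₁T h.1⟩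
    left
    rw [mul_inv_eq_iff_eq_mul]
    exact hg₁z
  · rw [SetLike.lt_iff_le_and_exists]
    exact ⟨inf_le_right, _, sE_mem_omegaGL hQ h11 hQe hey, fun h => hg₂ h.1⟩

end main

end Cfsg.Agent.Lib.OmTensor2
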