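import Cfsg.Agent.Lib.H97L9
import Cfsg.Agent.Lib.OmTensor2
import Cfsg.Agent.Lib.H97K8

/-!
Even dimensional orthogonal groups: the group is contained in neither fields nor tensor decompositions.
-/

set_option autoImplicit false
set_option linter.unusedSectionVars false
set_option linter.unusedSimpArgs false
set_option linter.style.haveILetI false

namespace Cfsg.Agent.H97.Asch

open Matrix Cfsg Cfsg.Geo
open scoped MatrixGroups commutatorElement Kronecker

variable {ι : Type} [Fintype ι] [DecidableEq ι] {F : Type*} [Field F] [Fintype F] {Q : (ι → F) → F} {K : Subgroup (GL ι F)}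

/-- Siegel elements normalising a field subalgebra centralise it. -/
theorem ECtx.gen_central (C : ECtx Q K) (hn : 5 ≤ Fintype.card ι) {r : ℕ} {K' : Subalgebra F (Matrix ι ι F)}
    (hK' : IsFieldSubalgebra r K') {g : GL ι F} (hg : g ∈ siegelGens Q K) (hgN : g ∈ subalgebraNormalizer K') :
    ∀ k ∈ K', (g : Matrix ι ι F) * k = k * g := by
  classical
  have hrk := gen_rank hg
  have hmem : ∀ k ∈ K', (g : Matrix ι ι F) * k * ((g⁻¹ : GL ι F) : Matrix ι ι F) ∈ K' := fun k hk => (hgN k).mp hk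
  by_cases hcomm : ∀ k ∈ K', (g : Matrix ι ι F) * k * ((g⁻¹ : GL ι F) : Matrix ι ι F) = k
  · intro k hk
    have := hcomm k hk
    calc (g : Matrix ι ι F) * k = ((g : Matrix ι ι F) * k * ((g⁻¹ : GL ι F) : Matrix ι ι F)) * g := by
          rw [Matrix.mul_assoc, ← Units.val_mul, inv_mul_cancel, Units.val_one, Matrix.mul_one]
      _ = k * g := by rw [this]
  · exfalso
    push Not at hcomm
    obtain ⟨k, hk, hne⟩ := hcomm
    set d := (g : Matrix ι ι F) * k * ((g⁻¹ : GL ι F) : Matrix ι ι F) - k with hd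
    have hdK : d ∈ K' := K'.sub_mem (hmem k hk) hk
    have hd0 : d ≠ 0 := sub_ne_zero.mpr hne
    obtain ⟨y, hy, hdy⟩ := hK'.inv _ hdK hd0
    let L : (LinearMap.ker (Matrix.toLin' ((g : Matrix ι ι F) - 1))) →ₗ[F] LinearMap.range (Matrix.toLin' ((g : Matrix ι ι F) - 1)) :=
      { toFun := fun v => ⟨d *ᵥ (v : ι → F), by
          refine ⟨k *ᵥ (v : ι → F), ?_⟩
          have hv : (g : Matrix ι ι F) *ᵥ (v : ι → F) = v := by
            have := LinearMap.mem_ker.mp v.2
            rwa [Matrix.toLin'_apply, Matrix.sub_mulVec, Matrix.one_mulVec, sub_eq_zero] at this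
          have hv' : ((g⁻¹ : GL ι F) : Matrix ι ι F) *ᵥ (v : ι → F) = v := by
            conv_lhs => rw [← hv]
            exact gl_inv_mulVec g _
          have e5 : ((g : Matrix ι ι F) * k * ((g⁻¹ : GL ι F) : Matrix ι ι F)) *ᵥ (v : ι → F) =
              (g : Matrix ι ι F) *ᵥ (k *ᵥ (((g⁻¹ : GL ι F) : Matrix ι ι F) *ᵥ (v : ι → F))) := by
            rw [Matrix.mulVec_mulVec, Matrix.mulVec_mulVec]
          rw [Matrix.toLin'_apply, hd, Matrix.sub_mulVec, Matrix.sub_mulVec, Matrix.one_mulVec, e5, hv']⟩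
        map_add' := fun x y => by
          apply Subtype.ext
          simp only [Submodule.coe_add, Matrix.mulVec_add]
        map_smul' := fun c x => by
          apply Subtype.ext
          simp only [Submodule.coe_smul, Matrix.mulVec_smul, RingHom.id_apply] }
    have hinj : Function.Injective L := by
      rw [← LinearMap.ker_eq_bot, eq_bot_iff]
      intro v hv
      have h2 : d *ᵥ (v : ι → F) = 0 := congrArg Subtype.val (LinearMap.mem_ker.mp hv)
      have h3 : y *ᵥ (d *ᵥ (v : ι → F)) = v := by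
        rw [Matrix.mulVec_mulVec, hK'.comm y hy d hdK, hdy, Matrix.one_mulVec]
      rw [h2, Matrix.mulVec_zero] at h3
      exact (Submodule.mem_bot F).mpr (Subtype.ext h3.symm)
    have h5 := LinearMap.finrank_le_finrank_of_injective hinj
    have h6 := LinearMap.finrank_range_add_finrank_ker (Matrix.toLin' ((g : Matrix ι ι F) - 1))
    have h7 : Module.finrank F (ι → F) = Fintype.card ι := by simp
    omega

/-- fields of degree at least two are not normalised -/
theorem ECtx.not_le_field' (C : ECtx Q K) (hn : 7 ≤ Fintype.card ι) {r : ℕ} (hr : 2 ≤ r) {K' : Subalgebra F (Matrix ι ι F)}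
    (hK' : IsFieldSubalgebra r K') : ¬ K ≤ subalgebraNormalizer K' := by
  classical
  intro hle
  have hall : ∀ k ∈ K', ∃ c : F, k = c • 1 := by
    intro k hk
    apply C.scalar_of_commute hn
    rintro g hg ⟨u, v, c, h1, h2, h3, h4⟩
    exact C.gen_central (by omega) hK' ⟨hg, u, v, c, h1, h2, h3, h4⟩ (hle hg) k hk
  have hbot : K' ≤ ⊥ := by
    intro k hk
    obtain ⟨c, rfl⟩ := hall k hk
    rw [Algebra.mem_bot]
    exact ⟨c, by rw [Algebra.algebraMap_eq_smul_one]⟩
  have hne : Nonempty ι := Fintype.card_pos_iff.mp (by omega)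
  have h3 : Subalgebra.toSubmodule K' ≤ Subalgebra.toSubmodule (⊥ : Subalgebra F (Matrix ι ι F)) := hbot
  have h4 := Submodule.finrank_mono h3
  have h5 : Module.finrank F (Subalgebra.toSubmodule (⊥ : Subalgebra F (Matrix ι ι F))) = 1 := Subalgebra.finrank_bot
  have h6 : Module.finrank F (Subalgebra.toSubmodule K') = r := hK'.finrank_eq
  omega

/-- elements of tensor products of rank at most two are scalars -/
theorem ECtx.not_le_tensor_big (C : ECtx Q K) (hn : 5 ≤ Fintype.card ι) {d m : ℕ} (hd : 3 ≤ d) (hm : 3 ≤ m) (e : ι ≃ Fin d × Fin m) (P : GL ι F) :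
    ¬ K ≤ tensorProductSubgroup d m e P := by
  classical
  intro hle
  obtain ⟨g, hg, hg1⟩ := C.exists_gen_ne hn
  have hrk := gen_rank hg
  obtain ⟨a, c, hac⟩ := tensor_action (hle hg.1)
  have hact : ∀ (x : Fin d → F) (y : Fin m → F), ((g : Matrix ι ι F) - 1) *ᵥ ((P : Matrix ι ι F) *ᵥ (tvP x y ∘ e)) =
      (P : Matrix ι ι F) *ᵥ ((tvP ((a : Matrix (Fin d) (Fin d) F) *ᵥ x) ((c : Matrix (Fin m) (Fin m) F) *ᵥ y) - tvP x y) ∘ e) := by
    intro x y
    rw [Matrix.sub_mulVec, Matrix.one_mulVec, hac, kron_mulVec_tvP]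
    have e1 : (tvP ((a : Matrix (Fin d) (Fin d) F) *ᵥ x) ((c : Matrix (Fin m) (Fin m) F) *ᵥ y) - tvP x y) ∘ e =
        tvP ((a : Matrix (Fin d) (Fin d) F) *ᵥ x) ((c : Matrix (Fin m) (Fin m) F) *ᵥ y) ∘ e - tvP x y ∘ e := rfl
    rw [e1, Matrix.mulVec_sub]
  have hPinj : ∀ z : Fin d × Fin m → F, (P : Matrix ι ι F) *ᵥ (z ∘ e) = 0 → z = 0 := by
    intro z h
    by_contra hz
    exact pv_ne_zero e P hz h
  have hT_addr : ∀ (x : Fin d → F) (y y' : Fin m → F), tvP x (y + y') = tvP x y + tvP x y' := by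
    intro x y y'
    funext z
    simp only [tvP, Pi.add_apply]
    ring
  have hT_smr : ∀ (s : F) (x : Fin d → F) (y : Fin m → F), tvP x (s • y) = s • tvP x y := by
    intro s x y
    funext z
    simp only [tvP, Pi.smul_apply, smul_eq_mul]
    ring
  have hT_addl : ∀ (x x' : Fin d → F) (y : Fin m → F), tvP (x + x') y = tvP x y + tvP x' y := by
    intro x x' y
    funext z
    simp only [tvP, Pi.add_apply]
    ring
  have hT_sml : ∀ (s : F) (x : Fin d → F) (y : Fin m → F), tvP (s • x) y = s • tvP x y := by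
    intro s x y
    funext z
    simp only [tvP, Pi.smul_apply, smul_eq_mul]
    ring
  have hcomp : ∀ (u v : Fin d × Fin m → F), (u + v) ∘ e = u ∘ e + v ∘ e := fun _ _ => rfl
  have hcomps : ∀ (s : F) (u : Fin d × Fin m → F), (s • u) ∘ e = s • (u ∘ e) := fun _ _ => rfl
  have ha : ∃ s : F, (a : Matrix (Fin d) (Fin d) F) = s • 1 := by
    apply scalar_of_all_eigen
    intro x
    by_contra hx
    push Not at hx
    let L : (Fin m → F) →ₗ[F] LinearMap.range (Matrix.toLin' ((g : Matrix ι ι F) - 1)) :=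
      { toFun := fun y => ⟨Matrix.toLin' ((g : Matrix ι ι F) - 1) ((P : Matrix ι ι F) *ᵥ (tvP x y ∘ e)), LinearMap.mem_range_self _ _⟩
        map_add' := fun y y' => by
          apply Subtype.ext
          simp only [hT_addr, hcomp, Matrix.mulVec_add, map_add, Submodule.coe_add]
        map_smul' := fun s y => by
          apply Subtype.ext
          simp only [hT_smr, hcomps, Matrix.mulVec_smul, map_smul, Submodule.coe_smul, RingHom.id_apply] }
    have hinj : Function.Injective L := by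
      rw [← LinearMap.ker_eq_bot, eq_bot_iff]
      intro y hy
      have h1 : Matrix.toLin' ((g : Matrix ι ι F) - 1) ((P : Matrix ι ι F) *ᵥ (tvP x y ∘ e)) = 0 := congrArg Subtype.val (LinearMap.mem_ker.mp hy)
      rw [Matrix.toLin'_apply, hact] at h1
      have h1' := sub_eq_zero.mp (hPinj _ h1)
      rw [Submodule.mem_bot]
      by_contra hy0
      obtain ⟨j, hj⟩ := Function.ne_iff.mp hy0
      have hj' : y j ≠ 0 := hj
      have h2 : ∀ i, ((a : Matrix (Fin d) (Fin d) F) *ᵥ x) i * ((c : Matrix (Fin m) (Fin m) F) *ᵥ y) j = x i * y j := by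
        intro i
        exact congrFun h1' (i, j)
      by_cases h3 : ((c : Matrix (Fin m) (Fin m) F) *ᵥ y) j = 0
      · apply hx 0
        have hx0 : x = 0 := by
          funext i
          have h4 := h2 i
          rw [h3, mul_zero] at h4
          exact (mul_eq_zero.mp h4.symm).resolve_right hj'
        rw [hx0]
        simp
      · apply hx (y j / ((c : Matrix (Fin m) (Fin m) F) *ᵥ y) j)
        funext i
        have h4 := h2 i
        simp only [Pi.smul_apply, smul_eq_mul]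
        field_simp
        linear_combination h4
    have h5 := LinearMap.finrank_le_finrank_of_injective hinj
    simp at h5
    omega
  have hc : ∃ s : F, (c : Matrix (Fin m) (Fin m) F) = s • 1 := by
    apply scalar_of_all_eigen
    intro y
    by_contra hx
    push Not at hx
    let L : (Fin d → F) →ₗ[F] LinearMap.range (Matrix.toLin' ((g : Matrix ι ι F) - 1)) :=
      { toFun := fun x => ⟨Matrix.toLin' ((g : Matrix ι ι F) - 1) ((P : Matrix ι ι F) *ᵥ (tvP x y ∘ e)), LinearMap.mem_range_self _ _⟩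
        map_add' := fun x x' => by
          apply Subtype.ext
          simp only [hT_addl, hcomp, Matrix.mulVec_add, map_add, Submodule.coe_add]
        map_smul' := fun s x => by
          apply Subtype.ext
          simp only [hT_sml, hcomps, Matrix.mulVec_smul, map_smul, Submodule.coe_smul, RingHom.id_apply] }
    have hinj : Function.Injective L := by
      rw [← LinearMap.ker_eq_bot, eq_bot_iff]
      intro x hy
      have h1 : Matrix.toLin' ((g : Matrix ι ι F) - 1) ((P : Matrix ι ι F) *ᵥ (tvP x y ∘ e)) = 0 := congrArg Subtype.val (LinearMap.mem_ker.mp hy)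
      rw [Matrix.toLin'_apply, hact] at h1
      have h1' := sub_eq_zero.mp (hPinj _ h1)
      rw [Submodule.mem_bot]
      by_contra hy0
      obtain ⟨i, hi⟩ := Function.ne_iff.mp hy0
      have hi' : x i ≠ 0 := hi
      have h2 : ∀ j, ((a : Matrix (Fin d) (Fin d) F) *ᵥ x) i * ((c : Matrix (Fin m) (Fin m) F) *ᵥ y) j = x i * y j := by
        intro j
        exact congrFun h1' (i, j)
      by_cases h3 : ((a : Matrix (Fin d) (Fin d) F) *ᵥ x) i = 0
      · apply hx 0
        have hx0 : y = 0 := by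
          funext j
          have h4 := h2 j
          rw [h3, zero_mul] at h4
          exact (mul_eq_zero.mp h4.symm).resolve_left hi'
        rw [hx0]
        simp
      · apply hx (x i / ((a : Matrix (Fin d) (Fin d) F) *ᵥ x) i)
        funext j
        have h4 := h2 j
        simp only [Pi.smul_apply, smul_eq_mul]
        field_simp
        linear_combination h4
    have h5 := LinearMap.finrank_le_finrank_of_injective hinj
    simp at h5
    omega
  obtain ⟨s, hs⟩ := ha
  obtain ⟨t, ht⟩ := hc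
  have hg' : (g : Matrix ι ι F) = (s * t) • 1 := by
    apply mat_eq_of_pv e P
    intro x
    rw [hac, hs, ht, Matrix.smul_kronecker, Matrix.kronecker_smul, smul_smul, Matrix.smul_mulVec, Matrix.smul_mulVec, Matrix.one_mulVec]
    have e1 : (1 : Matrix (Fin d) (Fin d) F) ⊗ₖ (1 : Matrix (Fin m) (Fin m) F) = 1 := Matrix.kroneckerMap_one_one _ (by simp) (by simp) (by simp)
    rw [e1, Matrix.one_mulVec]
    have e2 : ∀ y : Fin d × Fin m → F, ((s * t) • y) ∘ e = (s * t) • (y ∘ e) := fun _ => rfl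
    rw [e2, Matrix.mulVec_smul]
  have h3 := C.gen_sq hg
  rw [hg'] at h3
  have h4 : (g : Matrix ι ι F) - 1 = (s * t - 1) • (1 : Matrix ι ι F) := by
    rw [hg', sub_smul, one_smul]
  have hne : Nonempty ι := Fintype.card_pos_iff.mp (by omega)
  obtain ⟨i⟩ := hne
  have h5 : (s * t - 1) * (s * t - 1) = 0 := by
    have h6 := congrFun (congrFun h3 i) i
    rw [← hg', h4] at h6
    simpa [Matrix.smul_apply] using h6
  have h7 := sub_eq_zero.mp (mul_self_eq_zero.mp h5)
  apply hg1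
  apply Units.ext
  rw [hg', h7, one_smul, Units.val_one]

/-- the alternating tensor product of a plane with a space of dimension at least three -/
theorem ECtx.not_le_tensor_alt (C : ECtx Q K) {m : ℕ} (hm : 3 ≤ m) (e : ι ≃ Fin 2 × Fin m) (P : GL ι F)
    {f₁ : (Fin 2 → F) → (Fin 2 → F) → F} {f₂ : (Fin m → F) → (Fin m → F) → F} (hf₁ : IsSymplecticForm f₁) (hf₂ : IsSymplecticForm f₂)
    (hT : IsTensorFormStructure id (QuadraticMap.polar Q) f₁ f₂ e P)
    (hpure : ∀ (x₁ : Fin 2 → F) (x₂ : Fin m → F), Q ((P : Matrix ι ι F) *ᵥ ((fun a : Fin 2 × Fin m => x₁ a.1 * x₂ a.2) ∘ e)) = 0) :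
    ¬ K ≤ tensorProductSubgroup 2 m e P := by
  classical
  intro hle
  have hS₁ := sesq_of_bilinear hf₁.bilinear
  have hS₂ := sesq_of_bilinear hf₂.bilinear
  obtain ⟨c₀, hc₀, hcf⟩ := hT
  have hid : (id : F → F) = ((RingHom.id F : F →+* F) : F → F) := rfl
  let T : (Fin 2 → F) → (Fin m → F) → (ι → F) := fun u w => (P : Matrix ι ι F) *ᵥ (tvP u w ∘ e)
  have hform : ∀ x x' y y', QuadraticMap.polar Q (T x y) (T x' y') = c₀ * (f₁ x x' * f₂ y y') := by
    intro x x' y y'
    simp only [T]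
    rw [hcf, hid, form_eq_gram hS₁, form_eq_gram hS₂, ← gram_tvP]
    rfl
  have hQT : ∀ x y, Q (T x y) = 0 := fun x y => hpure x y
  obtain ⟨t, ht, hG⟩ := symplectic_gram hf₁
  let e₁ : Fin 2 → F := Pi.single 0 1
  let e₂ : Fin 2 → F := Pi.single 1 1
  have h12 : f₁ e₁ e₂ ≠ 0 := by
    have h3 := congrFun (congrFun hG 0) 1
    simp only [gramMatrix, Matrix.of_apply, Matrix.smul_apply, smul_eq_mul, detJ] at h3
    simp only [e₁, e₂]
    rw [h3]
    simpa using ht
  have h21 : f₁ e₂ e₁ ≠ 0 := by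
    rw [hf₁.skew]
    exact neg_ne_zero.mpr h12
  haveI : Nonempty (Fin m) := ⟨⟨0, by omega⟩⟩
  obtain ⟨y₂, hy₂⟩ := exists_ne (0 : Fin m → F)
  obtain ⟨y₁, h21', hy₁⟩ := Cfsg.Agent.Lib.OmTensor2.exists_perp_indep hm hf₂.bilinear hy₂
  have hy₁0 : y₁ ≠ 0 := by
    intro h
    apply hy₁ 0
    rw [h, zero_smul]
  have hy₂' : ∀ l : F, y₂ ≠ l • y₁ := by
    intro l h
    by_cases hl : l = 0
    · rw [hl, zero_smul] at h
      exact hy₂ h
    · apply hy₁ l⁻¹
      rw [h, smul_smul, inv_mul_cancel₀ hl, one_smul]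
  obtain ⟨y', hy'1, hy'2⟩ := Cfsg.Agent.Lib.OmTensor2.exists_sep hf₂.bilinear hf₂.nondegenerate hy₁0 hy₂'
  have h12' : f₂ y₁ y₂ = 0 := by
    rw [hf₂.skew, h21', neg_zero]
  have hQadd : ∀ x y : ι → F, Q (x + y) = Q x + Q y + QuadraticMap.polar Q x y := by
    intro x y
    simp only [QuadraticMap.polar]
    ring
  have hcompadd : ∀ (u v : Fin 2 × Fin m → F), (u + v) ∘ e = u ∘ e + v ∘ e := fun _ _ => rfl
  have hcompsm : ∀ (s : F) (u : Fin 2 × Fin m → F), (s • u) ∘ e = s • (u ∘ e) := fun _ _ => rfl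
  let u₀ := T e₁ y₁ + T e₂ y₂
  let v₀ := T e₁ y₂
  have hQu : Q u₀ = 0 := by
    simp only [u₀]
    rw [hQadd, hQT, hQT, hform, h12', mul_zero, mul_zero]
    ring
  have hQv : Q v₀ = 0 := hQT _ _
  have hpuv : QuadraticMap.polar Q u₀ v₀ = 0 := by
    simp only [u₀, v₀]
    rw [C.polar_add_left, hform, hform, hf₂.alternating, hf₁.alternating]
    ring
  obtain ⟨g, hg, hgx⟩ := C.siegel u₀ v₀ 1 hQu hQv hpuv
  let t₀ := T e₂ y'
  have hpt1 : QuadraticMap.polar Q t₀ u₀ = 0 := by
    simp only [t₀, u₀]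
    rw [C.polar_add_right, hform, hform, hy'1, hf₁.alternating]
    ring
  obtain ⟨κ, hκ⟩ : ∃ κ, κ = QuadraticMap.polar Q t₀ v₀ := ⟨_, rfl⟩
  have hκ0 : κ ≠ 0 := by
    rw [hκ]
    simp only [t₀, v₀]
    rw [hform]
    exact mul_ne_zero hc₀ (mul_ne_zero h21 hy'2)
  have hgt : (g : Matrix ι ι F) *ᵥ t₀ = t₀ - κ • u₀ := by
    rw [hgx, hpt1, ← hκ, one_mul, one_mul, zero_smul, add_zero]
  obtain ⟨a, c, hac⟩ := tensor_action (hle hg)
  have h1 : (g : Matrix ι ι F) *ᵥ t₀ = T ((a : Matrix (Fin 2) (Fin 2) F) *ᵥ e₂) ((c : Matrix (Fin m) (Fin m) F) *ᵥ y') := by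
    simp only [t₀, T]
    rw [hac, kron_mulVec_tvP]
  obtain ⟨p, hp⟩ : ∃ p, p = (a : Matrix (Fin 2) (Fin 2) F) *ᵥ e₂ := ⟨_, rfl⟩
  obtain ⟨r, hr⟩ : ∃ r, r = (c : Matrix (Fin m) (Fin m) F) *ᵥ y' := ⟨_, rfl⟩
  rw [← hp, ← hr, hgt] at h1
  -- compare coordinates
  have h3 : (P : Matrix ι ι F) *ᵥ ((tvP e₂ y' - κ • (tvP e₁ y₁ + tvP e₂ y₂) - tvP p r) ∘ e) = 0 := by
    have e1 : (tvP e₂ y' - κ • (tvP e₁ y₁ + tvP e₂ y₂) - tvP p r) ∘ e =
        tvP e₂ y' ∘ e - κ • (tvP e₁ y₁ ∘ e + tvP e₂ y₂ ∘ e) - tvP p r ∘ e := rfl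
    rw [e1, Matrix.mulVec_sub, Matrix.mulVec_sub, Matrix.mulVec_smul, Matrix.mulVec_add]
    exact sub_eq_zero.mpr h1
  have h4 : tvP e₂ y' - κ • (tvP e₁ y₁ + tvP e₂ y₂) - tvP p r = 0 := by
    by_contra hz
    exact pv_ne_zero e P hz h3
  have h0j : ∀ j, p 0 * r j = -κ * y₁ j := by
    intro j
    have h5 := congrFun h4 (0, j)
    simp [tvP, e₁, e₂] at h5
    linear_combination -h5
  have h1j : ∀ j, p 1 * r j = y' j - κ * y₂ j := by
    intro j
    have h5 := congrFun h4 (1, j)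
    simp [tvP, e₁, e₂] at h5
    linear_combination -h5
  obtain ⟨j₀, hj₀⟩ := Function.ne_iff.mp hy₁0
  have hj₀' : y₁ j₀ ≠ 0 := hj₀
  have hp0 : p 0 ≠ 0 := by
    intro h
    have h5 := h0j j₀
    rw [h, zero_mul] at h5
    exact mul_ne_zero (neg_ne_zero.mpr hκ0) hj₀' h5.symm
  have hy'eq : y' = κ • y₂ + (-κ * p 1 / p 0) • y₁ := by
    funext j
    have h5 := h0j j
    have h6 := h1j j
    simp only [Pi.add_apply, Pi.smul_apply, smul_eq_mul]
    field_simp
    linear_combination -(p 0) * h6 + (p 1) * h5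
  apply hy'2
  rw [hy'eq, hS₂.add_left, hS₂.smul_left, hS₂.smul_left, hf₂.alternating, h12']
  ring

end Cfsg.Agent.H97.Asch
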