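import Cfsg.Agent.Lib.H97L10
import Cfsg.Agent.Lib.OmSubfield3

/-!
Even dimensional orthogonal groups: types of the spaces in tensor decompositions and rational structures; frames.
-/

set_option autoImplicit false
set_option linter.unusedSectionVars false
set_option linter.unusedSimpArgs false
set_option linter.style.haveILetI false

namespace Cfsg.Agent.H97.Asch

open Matrix Cfsg Cfsg.Geo
open scoped MatrixGroups commutatorElement Kronecker

variable {ι : Type} [Fintype ι] [DecidableEq ι] {F : Type*} [Field F] [Fintype F] {Q : (ι → F) → F} {K : Subgroup (GL ι F)}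

section TV

variable {d m : ℕ}

/-- pure tensors -/
noncomputable def TV (e : ι ≃ Fin d × Fin m) (P : GL ι F) (u : Fin d → F) (w : Fin m → F) : ι → F :=
  (P : Matrix ι ι F) *ᵥ (tvP u w ∘ e)

theorem TV_add_r (e : ι ≃ Fin d × Fin m) (P : GL ι F) (u : Fin d → F) (w w' : Fin m → F) :
    TV e P u (w + w') = TV e P u w + TV e P u w' := by
  have h : tvP u (w + w') ∘ e = tvP u w ∘ e + tvP u w' ∘ e := by
    funext z
    simp only [tvP, Function.comp_apply, Pi.add_apply]
    ring
  simp only [TV]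
  rw [h, Matrix.mulVec_add]

theorem TV_add_l (e : ι ≃ Fin d × Fin m) (P : GL ι F) (u u' : Fin d → F) (w : Fin m → F) :
    TV e P (u + u') w = TV e P u w + TV e P u' w := by
  have h : tvP (u + u') w ∘ e = tvP u w ∘ e + tvP u' w ∘ e := by
    funext z
    simp only [tvP, Function.comp_apply, Pi.add_apply]
    ring
  simp only [TV]
  rw [h, Matrix.mulVec_add]

theorem TV_smul_r (e : ι ≃ Fin d × Fin m) (P : GL ι F) (c : F) (u : Fin d → F) (w : Fin m → F) :
    TV e P u (c • w) = c • TV e P u w := by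
  have h : tvP u (c • w) ∘ e = c • (tvP u w ∘ e) := by
    funext z
    simp only [tvP, Function.comp_apply, Pi.smul_apply, smul_eq_mul]
    ring
  simp only [TV]
  rw [h, Matrix.mulVec_smul]

theorem TV_smul_l (e : ι ≃ Fin d × Fin m) (P : GL ι F) (c : F) (u : Fin d → F) (w : Fin m → F) :
    TV e P (c • u) w = c • TV e P u w := by
  have h : tvP (c • u) w ∘ e = c • (tvP u w ∘ e) := by
    funext z
    simp only [tvP, Function.comp_apply, Pi.smul_apply, smul_eq_mul]
    ring
  simp only [TV]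
  rw [h, Matrix.mulVec_smul]

theorem TV_eq_zero (e : ι ≃ Fin d × Fin m) (P : GL ι F) {u : Fin d → F} {w : Fin m → F} (h : TV e P u w = 0) : u = 0 ∨ w = 0 := by
  have h1 : tvP u w = 0 := by
    by_contra hz
    exact pv_ne_zero e P hz h
  by_contra hn
  push Not at hn
  obtain ⟨i, hi⟩ := Function.ne_iff.mp hn.1
  obtain ⟨j, hj⟩ := Function.ne_iff.mp hn.2
  have h2 := congrFun h1 (i, j)
  simp only [tvP, Pi.zero_apply] at h2
  exact (mul_ne_zero hi hj) h2

/-- the linear map of pure tensors with a fixed left factor -/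
noncomputable def TVr (e : ι ≃ Fin d × Fin m) (P : GL ι F) (u : Fin d → F) : (Fin m → F) →ₗ[F] (ι → F) where
  toFun w := TV e P u w
  map_add' := TV_add_r e P u
  map_smul' c w := TV_smul_r e P c u w

theorem TVr_apply (e : ι ≃ Fin d × Fin m) (P : GL ι F) (u : Fin d → F) (w : Fin m → F) : TVr e P u w = TV e P u w := rfl

theorem TVr_inj (e : ι ≃ Fin d × Fin m) (P : GL ι F) {u : Fin d → F} (hu : u ≠ 0) : Function.Injective (TVr e P u) := by
  rw [← LinearMap.ker_eq_bot, eq_bot_iff]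
  intro w hw
  have h : TV e P u w = 0 := LinearMap.mem_ker.mp hw
  exact (Submodule.mem_bot F).mpr ((TV_eq_zero e P h).resolve_left hu)

theorem finrank_range_TVr (e : ι ≃ Fin d × Fin m) (P : GL ι F) {u : Fin d → F} (hu : u ≠ 0) :
    Module.finrank F (LinearMap.range (TVr e P u)) = m := by
  rw [LinearMap.finrank_range_of_inj (TVr_inj e P hu)]
  simp

/-- the form on pure tensors -/
theorem tensor_form_TV {f : (ι → F) → (ι → F) → F} {f₁ : (Fin d → F) → (Fin d → F) → F} {f₂ : (Fin m → F) → (Fin m → F) → F}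
    (hb₁ : IsBilinearForm f₁) (hb₂ : IsBilinearForm f₂) {e : ι ≃ Fin d × Fin m} {P : GL ι F} (hT : IsTensorFormStructure id f f₁ f₂ e P) :
    ∃ c : F, c ≠ 0 ∧ ∀ x x' y y', f (TV e P x y) (TV e P x' y') = c * (f₁ x x' * f₂ y y') := by
  have hS₁ := sesq_of_bilinear hb₁
  have hS₂ := sesq_of_bilinear hb₂
  obtain ⟨c, hc, hcf⟩ := hT
  have hid : (id : F → F) = ((RingHom.id F : F →+* F) : F → F) := rfl
  refine ⟨c, hc, fun x x' y y' => ?_⟩
  simp only [TV]
  rw [hcf, hid, form_eq_gram hS₁, form_eq_gram hS₂, ← gram_tvP]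
  rfl

/-- A tensor product of a plane with a space on which the pure tensors are singular is of plus type. -/
theorem tensor_alt_plus (hm0 : 0 < m) {e : ι ≃ Fin 2 × Fin m} {P : GL ι F}
    (hpure : ∀ (x₁ : Fin 2 → F) (x₂ : Fin m → F), Q ((P : Matrix ι ι F) *ᵥ ((fun a : Fin 2 × Fin m => x₁ a.1 * x₂ a.2) ∘ e)) = 0) :
    IsPlusTypeOn Q ⊤ := by
  have hu : (Pi.single 0 1 : Fin 2 → F) ≠ 0 := by
    intro h
    have := congrFun h 0
    simp at this
  refine ⟨LinearMap.range (TVr e P (Pi.single 0 1)), le_top, ?_, ?_⟩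
  · rintro _ ⟨w, rfl⟩
    exact hpure _ _
  · rw [finrank_range_TVr e P hu, finrank_top, Module.finrank_fintype_fun_eq_card, Fintype.card_congr e]
    simp

/-- A tensor product of a space with a space of plus type and dimension four has plus type. -/
theorem ECtx.tensor_sym_plus (C : ECtx Q K) (h2 : (2 : F) ≠ 0) {e : ι ≃ Fin 3 × Fin 4} {P : GL ι F}
    {f₁ : (Fin 3 → F) → (Fin 3 → F) → F} {f₂ : (Fin 4 → F) → (Fin 4 → F) → F} (h₁ : IsSymmetricForm f₁) (h₂ : IsSymmetricForm f₂)
    (hT : IsTensorFormStructure id (QuadraticMap.polar Q) f₁ f₂ e P) (hplus : IsPlusTypeOn (fun v : Fin 4 → F => f₂ v v) ⊤) :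
    IsPlusTypeOn Q ⊤ := by
  classical
  obtain ⟨a, b, c, d', g1, g2, g3, g4, g5, g6, g7, g8, g9, g10⟩ := exists_plus_basis h2 h₂ hplus
  obtain ⟨c₀, hc₀, hform⟩ := tensor_form_TV h₁.bilinear h₂.bilinear hT
  let L : ((Fin 3 → F) × (Fin 3 → F)) →ₗ[F] (ι → F) :=
    { toFun := fun p => TV e P p.1 a + TV e P p.2 b
      map_add' := fun p p' => by
        simp only [Prod.fst_add, Prod.snd_add, TV_add_l]
        abel
      map_smul' := fun s p => by
        simp only [Prod.smul_fst, Prod.smul_snd, TV_smul_l, RingHom.id_apply, smul_add] }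
  have hLv : ∀ p, L p = TV e P p.1 a + TV e P p.2 b := fun _ => rfl
  have hinj : Function.Injective L := by
    rw [← LinearMap.ker_eq_bot, eq_bot_iff]
    rintro ⟨α, β⟩ hp
    have h0 : TV e P α a + TV e P β b = 0 := LinearMap.mem_ker.mp hp
    have hα : α = 0 := by
      by_contra hne
      obtain ⟨x, hx⟩ := (h₁.nondegenerate α hne).2
      have h3 : QuadraticMap.polar Q (TV e P α a + TV e P β b) (TV e P x d') = 0 := by
        rw [h0]
        exact C.pS.zero_left _
      rw [C.polar_add_left, hform, hform, g4, g7] at h3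
      apply hx
      have h4 : c₀ * f₁ α x = 0 := by linear_combination h3
      exact (mul_eq_zero.mp h4).resolve_left hc₀
    have hβ : β = 0 := by
      by_contra hne
      obtain ⟨x, hx⟩ := (h₁.nondegenerate β hne).2
      have h3 : QuadraticMap.polar Q (TV e P α a + TV e P β b) (TV e P x c) = 0 := by
        rw [h0]
        exact C.pS.zero_left _
      rw [C.polar_add_left, hform, hform, g3, g6] at h3
      apply hx
      have h4 : c₀ * f₁ β x = 0 := by linear_combination -h3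
      exact (mul_eq_zero.mp h4).resolve_left hc₀
    rw [hα, hβ]
    exact (Submodule.mem_bot F).mpr rfl
  refine ⟨LinearMap.range L, le_top, ?_, ?_⟩
  · rintro _ ⟨⟨α, β⟩, rfl⟩
    rw [hLv]
    simp only
    have h3 := C.self (TV e P α a + TV e P β b)
    rw [C.polar_add_left, C.polar_add_right, C.polar_add_right, hform, hform, hform, hform, g1, h₂.symm b a, g2, g5] at h3
    have h4 : (2 : F) * Q (TV e P α a + TV e P β b) = 0 := by
      rw [← h3]
      ring
    exact (mul_eq_zero.mp h4).resolve_left h2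
  · rw [LinearMap.finrank_range_of_inj hinj, finrank_top, Module.finrank_fintype_fun_eq_card, Fintype.card_congr e]
    simp

end TV

/-- three pairwise orthogonal anisotropic vectors for a symmetric form on a space of dimension three -/
theorem exists_orth_three (h2 : (2 : F) ≠ 0) {f₁ : (Fin 3 → F) → (Fin 3 → F) → F} (hf₁ : IsSymmetricForm f₁) :
    ∃ x : Fin 3 → Fin 3 → F, (∀ i j, i ≠ j → f₁ (x i) (x j) = 0) ∧ ∀ i, f₁ (x i) (x i) ≠ 0 := by
  classical
  have hb := hf₁.bilinear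
  have : Invertible (2 : F) := invertibleOfNonzero h2
  let B : LinearMap.BilinForm F (Fin 3 → F) := LinearMap.mk₂ F f₁ hb.add_left hb.smul_left hb.add_right hb.smul_right
  have hB : LinearMap.IsSymm B := ⟨fun x y => hf₁.symm _ _⟩
  obtain ⟨v₀, hv₀⟩ := LinearMap.BilinForm.exists_orthogonal_basis hB
  have hN : Module.finrank F (Fin 3 → F) = 3 := by simp
  let v := v₀.reindex (finCongr hN)
  have hv : ∀ i j, i ≠ j → f₁ (v i) (v j) = 0 := by
    intro i j hij
    have h1 := @hv₀ ((finCongr hN).symm i) ((finCongr hN).symm j) (by simpa using hij)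
    simpa [B, v, Module.Basis.reindex_apply] using h1
  refine ⟨v, hv, fun i h0 => ?_⟩
  obtain ⟨y, hy⟩ := (hf₁.nondegenerate _ (v.ne_zero i)).2
  apply hy
  have hs := v.sum_repr y
  rw [← hs]
  have hS := sesq_of_bilinear hb
  rw [hS.sum_right]
  refine Finset.sum_eq_zero fun j _ => ?_
  rw [hS.smul_right]
  by_cases hij : i = j
  · subst hij
    rw [h0, mul_zero]
  · rw [hv i j hij, mul_zero]

/-- the form `v ↦ f v v` of a symmetric form -/
theorem sym_quad (h2 : (2 : F) ≠ 0) {κ : Type} [Fintype κ] [DecidableEq κ] {f : (κ → F) → (κ → F) → F} (hf : IsSymmetricForm f) :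
    IsNondegenerateQuadraticForm (fun v : κ → F => f v v) := by
  have hb := hf.bilinear
  have hpol : ∀ u v, QuadraticMap.polar (fun v : κ → F => f v v) u v = 2 * f u v := by
    intro u v
    simp only [QuadraticMap.polar]
    rw [hb.add_left, hb.add_right, hb.add_right, hf.symm v u]
    ring
  refine ⟨fun c v => ?_, ⟨fun x y v => ?_, fun c x v => ?_, fun v x y => ?_, fun c v x => ?_⟩, fun v hv => ⟨?_, ?_⟩⟩
  · show f (c • v) (c • v) = c ^ 2 * f v v
    rw [hb.smul_left, hb.smul_right]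
    ring
  · rw [hpol, hpol, hpol, hb.add_left]
    ring
  · rw [hpol, hpol, hb.smul_left]
    ring
  · rw [hpol, hpol, hpol, hb.add_right]
    ring
  · rw [hpol, hpol, hb.smul_right]
    ring
  · obtain ⟨x, hx⟩ := (hf.nondegenerate v hv).1
    exact ⟨x, by rw [hpol]; exact mul_ne_zero h2 hx⟩
  · obtain ⟨x, hx⟩ := (hf.nondegenerate v hv).2
    exact ⟨x, by rw [hpol]; exact mul_ne_zero h2 hx⟩

/-- A tensor product of a space of dimension three with a space of minus type and dimension four has minus type. -/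
theorem ECtx.tensor_sym_minus (C : ECtx Q K) (h2 : (2 : F) ≠ 0) {e : ι ≃ Fin 3 × Fin 4} {P : GL ι F}
    {f₁ : (Fin 3 → F) → (Fin 3 → F) → F} {f₂ : (Fin 4 → F) → (Fin 4 → F) → F} (h₁ : IsSymmetricForm f₁) (h₂ : IsSymmetricForm f₂)
    (hT : IsTensorFormStructure id (QuadraticMap.polar Q) f₁ f₂ e P) (hminus : ¬ IsPlusTypeOn (fun v : Fin 4 → F => f₂ v v) ⊤) :
    ¬ IsPlusTypeOn Q ⊤ := by
  classical
  obtain ⟨c₀, hc₀, hform⟩ := tensor_form_TV h₁.bilinear h₂.bilinear hT
  obtain ⟨x, hx1, hx2⟩ := exists_orth_three h2 h₁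
  have hq2 := sym_quad h2 h₂
  obtain ⟨Q₂, hQ₂⟩ := Cfsg.Agent.Lib.OmCalc.exists_toQF _ hq2
  have hQ₂v : ∀ v, Q₂ v = f₂ v v := fun v => congrFun hQ₂ v
  have hpol₂ : ∀ u v, QuadraticMap.polar Q₂ u v = 2 * f₂ u v := by
    intro u v
    simp only [QuadraticMap.polar, hQ₂v]
    rw [h₂.bilinear.add_left, h₂.bilinear.add_right, h₂.bilinear.add_right, h₂.symm v u]
    ring
  have hnd₂ : Cfsg.Agent.Lib.QuadFF.ND (Cfsg.Agent.Lib.QuadFF.restr Q₂ ⊤) := by
    apply Ty.nd_restr
    intro w _ hw0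
    obtain ⟨y, hy⟩ := (h₂.nondegenerate w hw0).2
    exact ⟨y, Submodule.mem_top, by rw [hpol₂]; exact mul_ne_zero h2 hy⟩
  have hM₂ : Ty.Minus Q₂ (⊤ : Submodule F (Fin 4 → F)) := by
    have hd : Module.finrank F (⊤ : Submodule F (Fin 4 → F)) = 2 * 2 := by simp
    rcases Ty.cases hd hnd₂ with h | h
    · exfalso
      apply hminus
      obtain ⟨U, h3, h4, h5⟩ := h
      exact ⟨U, h3, fun u hu => by have h6 := h4 u hu; rwa [hQ₂v] at h6, h5⟩
    · exact h
  obtain ⟨Q', rfl⟩ := Cfsg.Agent.Lib.OmCalc.exists_toQF Q C.quad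
  have hx0 : ∀ i, x i ≠ 0 := by
    intro i h0
    apply hx2 i
    rw [h0]
    exact (sesq_of_bilinear h₁.bilinear).zero_left _
  let s : Fin 3 → F := fun i => c₀ * f₁ (x i) (x i) / 2
  have hs : ∀ i, s i ≠ 0 := fun i => div_ne_zero (mul_ne_zero hc₀ (hx2 i)) h2
  have hQTV : ∀ i w, Q' (TV e P (x i) w) = s i * Q₂ w := by
    intro i w
    have h3 := C.self (TV e P (x i) w)
    rw [hform] at h3
    simp only [s]
    rw [hQ₂v]
    field_simp
    linear_combination -h3
  let D : Fin 3 → Submodule F (ι → F) := fun i => LinearMap.range (TVr e P (x i))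
  have hDm : ∀ i w, TV e P (x i) w ∈ D i := fun i w => ⟨w, rfl⟩
  have hMD : ∀ i, Ty.Minus Q' (D i) := by
    intro i
    let E : (⊤ : Submodule F (Fin 4 → F)) ≃ₗ[F] D i :=
      (Submodule.topEquiv (R := F) (M := Fin 4 → F)).trans (LinearEquiv.ofInjective (TVr e P (x i)) (TVr_inj e P (hx0 i)))
    have hE : ∀ w : (⊤ : Submodule F (Fin 4 → F)), Q' ((E w : D i) : ι → F) = (s i • Q₂) (w : Fin 4 → F) := by
      intro w
      rw [QuadraticMap.smul_apply, smul_eq_mul]
      exact hQTV i w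
    exact Ty.Minus.of_iso (minus_scale hM₂ (hs i)) E hE (Ty.polar_of_iso E hE)
  have horth : ∀ i j, i ≠ j → ∀ u ∈ D i, ∀ v ∈ D j, QuadraticMap.polar Q' u v = 0 := by
    rintro i j hij _ ⟨w, rfl⟩ _ ⟨w', rfl⟩
    rw [TVr_apply, TVr_apply, hform, hx1 i j hij]
    ring
  -- a vector of `D i` orthogonal to `D i` is zero
  have hnondeg : ∀ i, ∀ v ∈ D i, (∀ u ∈ D i, QuadraticMap.polar Q' v u = 0) → v = 0 := by
    rintro i _ ⟨w, rfl⟩ hall
    by_contra hv
    have hw0 : w ≠ 0 := by
      rintro rfl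
      apply hv
      rw [map_zero]
    obtain ⟨y, hy⟩ := (h₂.nondegenerate w hw0).2
    have h3 := hall _ (hDm i y)
    rw [TVr_apply, hform] at h3
    exact mul_ne_zero hc₀ (mul_ne_zero (hx2 i) hy) h3
  have hd01 : D 0 ⊓ D 1 = ⊥ := by
    rw [eq_bot_iff]
    rintro v ⟨h3, h4⟩
    exact (Submodule.mem_bot F).mpr (hnondeg 0 v h3 fun u hu => by
      rw [QuadraticMap.polar_comm]
      exact horth 0 1 (by decide) u hu v h4)
  have hO : ∀ u ∈ D 0 ⊔ D 1, ∀ v ∈ D 2, QuadraticMap.polar Q' u v = 0 := by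
    intro u hu v hv
    obtain ⟨a, ha, b, hb, rfl⟩ := Submodule.mem_sup.mp hu
    rw [QuadraticMap.polar_add_left, horth 0 2 (by decide) a ha v hv, horth 1 2 (by decide) b hb v hv, add_zero]
  have hd012 : (D 0 ⊔ D 1) ⊓ D 2 = ⊥ := by
    rw [eq_bot_iff]
    rintro v ⟨h3, h4⟩
    exact (Submodule.mem_bot F).mpr (hnondeg 2 v h4 fun u hu => hO v h3 u hu)
  have hP01 : Ty.Plus Q' (D 0 ⊔ D 1) := Ty.Minus.sup (hMD 0) (hMD 1) hd01 (horth 0 1 (by decide))
  have hM : Ty.Minus Q' (D 0 ⊔ D 1 ⊔ D 2) := Ty.Plus.sup_minus hP01 (hMD 2) hd012 hO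
  have htop : D 0 ⊔ D 1 ⊔ D 2 = ⊤ := by
    apply Submodule.eq_top_of_finrank_eq
    rw [Ty.finrank_sup_disj hd012, Ty.finrank_sup_disj hd01, finrank_range_TVr e P (hx0 0), finrank_range_TVr e P (hx0 1), finrank_range_TVr e P (hx0 2),
      Module.finrank_fintype_fun_eq_card, Fintype.card_congr e]
    simp
  rw [htop] at hM
  have hND : Cfsg.Agent.Lib.QuadFF.ND (Cfsg.Agent.Lib.QuadFF.restr Q' ⊤) := by
    apply Ty.nd_restr
    intro w _ hw0
    obtain ⟨y, hy⟩ := C.nd hw0
    exact ⟨y, Submodule.mem_top, hy⟩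
  exact Ty.Minus.not_plus hM hND

end Cfsg.Agent.H97.Asch
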