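import Mathlib
import Cfsg.Agent.Lib.TvGL

/-!
# Subfield subgroups of `SL_n`: the rank reduction trick

For a transvection `t = 1 + v fᵀ` and a square-zero rank-two element `b = 1 + w₁ h₁ᵀ + w₂ h₂ᵀ`, the
element `(t b)^(q² - 1)` is again a transvection, as soon as `c = f(B v) ≠ 0, -4`: the product
`t b` acts on the plane spanned by `v, B v` with determinant one and trace `2 + c` (hence with
order dividing `q² - 1`) and on a complement as `b` (of order prime to `q² - 1`).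
-/

set_option autoImplicit false
set_option linter.unusedSectionVars false
set_option linter.unusedVariables false

namespace Cfsg.Agent.Lib.SubfieldMax

open Matrix Cfsg Cfsg.Geo Polynomial Cfsg.Agent.Lib.TvGL
open scoped MatrixGroups

section Poly

variable {F : Type*} [Field F] [Fintype F]

theorem quad_dvd_X_pow_sub_X (τ : F) (hτ : τ ^ 2 ≠ 4) :
    (X ^ 2 - C τ * X + 1 : F[X]) ∣ X ^ (Fintype.card F ^ 2) - X := by
  classical
  set g : F[X] := X ^ 2 - C τ * X + 1 with hg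
  have hdeg : g.natDegree = 2 := by rw [hg]; compute_degree!
  have hmon : g.Monic := by rw [hg]; monicity!
  set q := Fintype.card F with hq
  by_cases hroot : ∃ a, g.IsRoot a
  · obtain ⟨a, ha⟩ := hroot
    have ha' : a ^ 2 - τ * a + 1 = 0 := by simpa [hg] using ha
    set b := τ - a with hb
    have hba : a * b = 1 := by rw [hb]; linear_combination -ha'
    have hfac : g = (X - C a) * (X - C b) := by
      have h1 : C τ = C a + C b := by rw [← C_add, hb]; congr 1; ring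
      have h2 : C a * C b = (1 : F[X]) := by rw [← C_mul, hba, C_1]
      rw [hg, h1]
      linear_combination -h2
    have hne : a ≠ b := by
      intro hab
      apply hτ
      have h1 : τ = 2 * a := by
        have : b = τ - a := hb
        rw [← hab] at this
        linear_combination -this
      have h2 : a ^ 2 = 1 := by rw [pow_two]; nth_rewrite 2 [hab]; exact hba
      rw [h1]
      linear_combination 4 * h2
    rw [hfac]
    have hcop : IsCoprime (X - C a) (X - C b) := by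
      apply Polynomial.isCoprime_X_sub_C_of_isUnit_sub
      exact (sub_ne_zero.mpr hne).isUnit
    have hpow : ∀ x : F, x ^ (q ^ 2) = x := by
      intro x
      rw [pow_two, pow_mul, hq, FiniteField.pow_card, FiniteField.pow_card]
    apply hcop.mul_dvd
    · rw [dvd_iff_isRoot, IsRoot.def]
      simp [hpow]
    · rw [dvd_iff_isRoot, IsRoot.def]
      simp [hpow]
  · have hirr : Irreducible g := by
      apply Polynomial.irreducible_of_degree_le_three_of_not_isRoot
      · rw [hdeg]; simp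
      · rintro a ha
        exact hroot ⟨a, ha⟩
    have := (hirr.natDegree_dvd_iff_dvd_X_pow_card_pow_sub_X (k := F) (n := 2)).mp (by rw [hdeg])
    rw [Nat.card_eq_fintype_card] at this
    exact this

theorem quad_dvd_X_pow (τ : F) (hτ : τ ^ 2 ≠ 4) :
    (X ^ 2 - C τ * X + 1 : F[X]) ∣ X ^ (Fintype.card F ^ 2 - 1) - 1 := by
  have h1 := quad_dvd_X_pow_sub_X τ hτ
  have hq : 1 ≤ Fintype.card F ^ 2 := Nat.one_le_pow _ _ Fintype.card_pos
  have h2 : (X ^ (Fintype.card F ^ 2) - X : F[X]) = X * (X ^ (Fintype.card F ^ 2 - 1) - 1) := by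
    rw [mul_sub, mul_one, ← pow_succ', Nat.sub_add_cancel hq]
  rw [h2] at h1
  have hcop : IsCoprime (X ^ 2 - C τ * X + 1 : F[X]) X :=
    ⟨1, C τ - X, by ring⟩
  exact hcop.dvd_of_dvd_mul_left h1

end Poly

section Linear

variable {ι : Type} [Fintype ι] [DecidableEq ι] {F : Type*} [Field F] [Fintype F]

theorem pow_mulVec_of_quad (T : Matrix ι ι F) (τ : F) (hτ : τ ^ 2 ≠ 4) (a : ι → F)
    (ha : T *ᵥ (T *ᵥ a) - τ • (T *ᵥ a) + a = 0) :
    (T ^ (Fintype.card F ^ 2 - 1)) *ᵥ a = a := by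
  obtain ⟨h, hh⟩ := quad_dvd_X_pow τ hτ
  have h1 : aeval T (X ^ (Fintype.card F ^ 2 - 1) - 1 : F[X]) =
      aeval T h * aeval T (X ^ 2 - C τ * X + 1 : F[X]) := by
    rw [hh, mul_comm, map_mul]
  have h2 : aeval T (X ^ 2 - C τ * X + 1 : F[X]) *ᵥ a = 0 := by
    have : aeval T (X ^ 2 - C τ * X + 1 : F[X]) = T * T - τ • T + 1 := by
      simp [pow_two, Algebra.algebraMap_eq_smul_one, map_add, map_sub, map_mul]
    rw [this, Matrix.add_mulVec, Matrix.sub_mulVec, Matrix.smul_mulVec, Matrix.one_mulVec,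
      ← Matrix.mulVec_mulVec, ha]
  have h3 : (aeval T (X ^ (Fintype.card F ^ 2 - 1) - 1 : F[X])) *ᵥ a = 0 := by
    rw [h1, ← Matrix.mulVec_mulVec, h2, Matrix.mulVec_zero]
  have h4 : aeval T (X ^ (Fintype.card F ^ 2 - 1) - 1 : F[X]) = T ^ (Fintype.card F ^ 2 - 1) - 1 := by
    simp
  rw [h4, Matrix.sub_mulVec, Matrix.one_mulVec, sub_eq_zero] at h3
  exact h3

theorem pow_mulVec_of_step (T : Matrix ι ι F) (y d : ι → F) (hy : T *ᵥ y = y + d) (hd : T *ᵥ d = d)
    (k : ℕ) : (T ^ k) *ᵥ y = y + (k : F) • d := by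
  induction k with
  | zero => simp
  | succ k ih =>
    rw [pow_succ', ← Matrix.mulVec_mulVec, ih, Matrix.mulVec_add, Matrix.mulVec_smul, hy, hd]
    push_cast
    rw [add_smul, one_smul]
    abel

/-- The core computation. -/
theorem pow_formula (T : Matrix ι ι F) {v f w₁ h₁ w₂ h₂ : ι → F}
    (hT : ∀ x, T *ᵥ x = x + (h₁ ⬝ᵥ x) • w₁ + (h₂ ⬝ᵥ x) • w₂ +
      ((f ⬝ᵥ x) + (h₁ ⬝ᵥ x) * (f ⬝ᵥ w₁) + (h₂ ⬝ᵥ x) * (f ⬝ᵥ w₂)) • v)
    (hfv : f ⬝ᵥ v = 0) (h11 : h₁ ⬝ᵥ w₁ = 0) (h12 : h₁ ⬝ᵥ w₂ = 0) (h21 : h₂ ⬝ᵥ w₁ = 0)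
    (h22 : h₂ ⬝ᵥ w₂ = 0)
    (hc : (f ⬝ᵥ w₁) * (h₁ ⬝ᵥ v) + (f ⬝ᵥ w₂) * (h₂ ⬝ᵥ v) ≠ 0)
    (hc4 : (f ⬝ᵥ w₁) * (h₁ ⬝ᵥ v) + (f ⬝ᵥ w₂) * (h₂ ⬝ᵥ v) + 4 ≠ 0) (x : ι → F) :
    (T ^ (Fintype.card F ^ 2 - 1)) *ᵥ x = x +
      ((h₂ ⬝ᵥ v) * (h₁ ⬝ᵥ x) - (h₁ ⬝ᵥ v) * (h₂ ⬝ᵥ x)) •
        ((-((f ⬝ᵥ w₁) * (h₁ ⬝ᵥ v) + (f ⬝ᵥ w₂) * (h₂ ⬝ᵥ v))⁻¹) • ((f ⬝ᵥ w₂) • w₁ - (f ⬝ᵥ w₁) • w₂)) := by
  set α₁ := f ⬝ᵥ w₁ with hα₁
  set α₂ := f ⬝ᵥ w₂ with hα₂
  set β₁ := h₁ ⬝ᵥ v with hβ₁
  set β₂ := h₂ ⬝ᵥ v with hβ₂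
  set c := α₁ * β₁ + α₂ * β₂ with hcdef
  set m := Fintype.card F ^ 2 - 1 with hm
  have hτ : (2 + c) ^ 2 ≠ 4 := by
    intro h
    have : c * (c + 4) = 0 := by linear_combination h
    exact (mul_ne_zero hc hc4) this
  set u : ι → F := β₁ • w₁ + β₂ • w₂ with hu
  have hh1u : h₁ ⬝ᵥ u = 0 := by
    rw [hu, dotProduct_add, dotProduct_smul, dotProduct_smul, h11, h12]; simp
  have hh2u : h₂ ⬝ᵥ u = 0 := by
    rw [hu, dotProduct_add, dotProduct_smul, dotProduct_smul, h21, h22]; simp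
  have hfu : f ⬝ᵥ u = c := by
    rw [hu, dotProduct_add, dotProduct_smul, dotProduct_smul, hcdef, smul_eq_mul, smul_eq_mul,
      ← hα₁, ← hα₂]
    ring
  have hTv : T *ᵥ v = (1 + c) • v + u := by
    rw [hT, hfv, ← hβ₁, ← hβ₂, hu, hcdef]
    ext i
    simp only [Pi.add_apply, Pi.smul_apply, smul_eq_mul]
    ring
  have hTu : T *ᵥ u = c • v + u := by
    rw [hT, hh1u, hh2u, hfu]
    simp only [zero_smul, add_zero, zero_mul]
    abel
  have hmv : (T ^ m) *ᵥ v = v := by
    apply pow_mulVec_of_quad T (2 + c) hτ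
    rw [hTv, Matrix.mulVec_add, Matrix.mulVec_smul, hTv, hTu]
    ext i
    simp only [Pi.add_apply, Pi.sub_apply, Pi.smul_apply, smul_eq_mul, Pi.zero_apply]
    ring
  have hmu : (T ^ m) *ᵥ u = u := by
    apply pow_mulVec_of_quad T (2 + c) hτ
    rw [hTu, Matrix.mulVec_add, Matrix.mulVec_smul, hTv, hTu]
    ext i
    simp only [Pi.add_apply, Pi.sub_apply, Pi.smul_apply, smul_eq_mul, Pi.zero_apply]
    ring
  -- the decomposition
  set A := h₁ ⬝ᵥ x with hA
  set B := h₂ ⬝ᵥ x with hB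
  set C := f ⬝ᵥ x with hC
  set a := (A * α₁ + B * α₂) / c with ha
  set b := C / c with hb
  set y : ι → F := x - a • v - b • u with hy
  have hfy : f ⬝ᵥ y = 0 := by
    rw [hy, dotProduct_sub, dotProduct_sub, dotProduct_smul, dotProduct_smul, hfv, hfu, smul_eq_mul,
      smul_eq_mul, hb]
    field_simp
    simp [← hC]
  have hh1y : h₁ ⬝ᵥ y = A - a * β₁ := by
    rw [hy, dotProduct_sub, dotProduct_sub, dotProduct_smul, dotProduct_smul, hh1u, smul_eq_mul,
      smul_eq_mul, ← hβ₁, mul_zero, sub_zero]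
  have hh2y : h₂ ⬝ᵥ y = B - a * β₂ := by
    rw [hy, dotProduct_sub, dotProduct_sub, dotProduct_smul, dotProduct_smul, hh2u, smul_eq_mul,
      smul_eq_mul, ← hβ₂, mul_zero, sub_zero]
  set d : ι → F := (A - a * β₁) • w₁ + (B - a * β₂) • w₂ with hd
  have hzero : (A - a * β₁) * α₁ + (B - a * β₂) * α₂ = 0 := by
    have hc' := hc
    rw [ha]
    field_simp
    rw [hcdef]
    ring
  have hTy : T *ᵥ y = y + d := by
    rw [hT, hh1y, hh2y, hfy, zero_add, hzero, hd]
    simp only [zero_smul, add_zero]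
    abel
  have hTd : T *ᵥ d = d := by
    have h1 : h₁ ⬝ᵥ d = 0 := by
      rw [hd, dotProduct_add, dotProduct_smul, dotProduct_smul, h11, h12]; simp
    have h2 : h₂ ⬝ᵥ d = 0 := by
      rw [hd, dotProduct_add, dotProduct_smul, dotProduct_smul, h21, h22]; simp
    have h3 : f ⬝ᵥ d = 0 := by
      rw [hd, dotProduct_add, dotProduct_smul, dotProduct_smul, smul_eq_mul, smul_eq_mul, ← hα₁, ← hα₂]
      exact hzero
    rw [hT, h1, h2, h3]
    simp
  have hmy := pow_mulVec_of_step T y d hTy hTd m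
  have hmc : (m : F) = -1 := by
    have hq : 1 ≤ Fintype.card F ^ 2 := Nat.one_le_pow _ _ Fintype.card_pos
    rw [hm, Nat.cast_sub hq, Nat.cast_pow, FiniteField.cast_card_eq_zero]
    simp
  rw [hmc] at hmy
  have hx : x = a • v + b • u + y := by
    rw [hy]; abel
  calc (T ^ m) *ᵥ x = (T ^ m) *ᵥ (a • v + b • u + y) := by rw [← hx]
    _ = a • v + b • u + (y + (-1 : F) • d) := by
      rw [Matrix.mulVec_add, Matrix.mulVec_add, Matrix.mulVec_smul, Matrix.mulVec_smul, hmv, hmu, hmy]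
    _ = x + (β₂ * A - β₁ * B) • ((-c⁻¹) • (α₂ • w₁ - α₁ • w₂)) := by
      have e : a • v + b • u + (y + (-1 : F) • d) = x - d := by
        rw [hy]
        ext i
        simp only [Pi.add_apply, Pi.sub_apply, Pi.smul_apply, smul_eq_mul]
        ring
      rw [e, hd, ha]
      ext i
      simp only [Pi.add_apply, Pi.sub_apply, Pi.smul_apply, smul_eq_mul]
      rw [hcdef] at hc ⊢
      field_simp
      ring

/-- The GL form of the core computation. -/
theorem tv_pow {v f w₁ h₁ w₂ h₂ : ι → F}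
    (hfv : f ⬝ᵥ v = 0) (h11 : h₁ ⬝ᵥ w₁ = 0) (h12 : h₁ ⬝ᵥ w₂ = 0) (h21 : h₂ ⬝ᵥ w₁ = 0)
    (h22 : h₂ ⬝ᵥ w₂ = 0)
    (hc : (f ⬝ᵥ w₁) * (h₁ ⬝ᵥ v) + (f ⬝ᵥ w₂) * (h₂ ⬝ᵥ v) ≠ 0)
    (hc4 : (f ⬝ᵥ w₁) * (h₁ ⬝ᵥ v) + (f ⬝ᵥ w₂) * (h₂ ⬝ᵥ v) + 4 ≠ 0) :
    ∃ H : ((h₂ ⬝ᵥ v) • h₁ - (h₁ ⬝ᵥ v) • h₂) ⬝ᵥ
        ((-((f ⬝ᵥ w₁) * (h₁ ⬝ᵥ v) + (f ⬝ᵥ w₂) * (h₂ ⬝ᵥ v))⁻¹) • ((f ⬝ᵥ w₂) • w₁ - (f ⬝ᵥ w₁) • w₂)) = 0,
      (tv v f hfv * tv w₁ h₁ h11 * tv w₂ h₂ h22) ^ (Fintype.card F ^ 2 - 1) =
        tv ((-((f ⬝ᵥ w₁) * (h₁ ⬝ᵥ v) + (f ⬝ᵥ w₂) * (h₂ ⬝ᵥ v))⁻¹) • ((f ⬝ᵥ w₂) • w₁ - (f ⬝ᵥ w₁) • w₂))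
          ((h₂ ⬝ᵥ v) • h₁ - (h₁ ⬝ᵥ v) • h₂) H := by
  have H : ((h₂ ⬝ᵥ v) • h₁ - (h₁ ⬝ᵥ v) • h₂) ⬝ᵥ
        ((-((f ⬝ᵥ w₁) * (h₁ ⬝ᵥ v) + (f ⬝ᵥ w₂) * (h₂ ⬝ᵥ v))⁻¹) • ((f ⬝ᵥ w₂) • w₁ - (f ⬝ᵥ w₁) • w₂)) = 0 := by
    simp only [dotProduct_smul, sub_dotProduct, smul_dotProduct, dotProduct_sub, h11, h12, h21, h22]
    simp
  refine ⟨H, ?_⟩
  apply Units.ext
  apply Matrix.ext_of_mulVec_single
  intro j
  rw [Units.val_pow_eq_pow_val, tv_mulVec]
  have key := pow_formula (((tv v f hfv * tv w₁ h₁ h11 * tv w₂ h₂ h22 : GL ι F)) : Matrix ι ι F)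
    (v := v) (f := f) (w₁ := w₁) (h₁ := h₁) (w₂ := w₂) (h₂ := h₂) ?_ hfv h11 h12 h21 h22 hc hc4
    (Pi.single j 1)
  · rw [key]
    simp only [sub_dotProduct, smul_dotProduct, smul_eq_mul]
  · intro x
    rw [Units.val_mul, Units.val_mul, ← Matrix.mulVec_mulVec, ← Matrix.mulVec_mulVec, tv_mulVec, tv_mulVec,
      tv_mulVec]
    simp only [dotProduct_add, dotProduct_smul, h12, hfv, smul_eq_mul, mul_zero, add_zero]
    ext i
    simp only [Pi.add_apply, Pi.smul_apply, smul_eq_mul]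
    ring

end Linear

section Elem

variable {ι : Type} [Fintype ι] [DecidableEq ι] {F : Type*} [Field F]

/-- Elementary transvections. -/
noncomputable def E {i j : ι} (hij : i ≠ j) (a : F) : GL ι F :=
  tv (Pi.single i a) (Pi.single j 1) (single_dot_single hij a)

theorem tv_eq_E {i j : ι} (hij : i ≠ j) (a : F) {x y : ι → F} (hx : x = Pi.single i a)
    (hy : y = Pi.single j 1) (h : y ⬝ᵥ x = 0) : tv x y h = E hij a := by
  subst hx; subst hy; rfl

theorem E_mul {i j : ι} (hij : i ≠ j) (a b : F) : E hij a * E hij b = E hij (a + b) := by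
  unfold E
  rw [tv_mul_same_axis _ _ (by rw [← Pi.single_add]; exact single_dot_single hij _)]
  exact tv_eq_E hij _ (by rw [Pi.single_add]) rfl _

theorem E_comm {i j k : ι} (hij : i ≠ j) (hjk : j ≠ k) (hik : i ≠ k) (a b : F) :
    E hij a * E hjk b * (E hij a)⁻¹ * (E hjk b)⁻¹ = E hik (a * b) := by
  unfold E
  rw [comm_tv_left (Pi.single i a) (Pi.single j 1) (Pi.single j b) (Pi.single k 1) _ _
    (single_dot_single hik a) (by
      simp [dotProduct_smul, single_dot_single hik a])]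
  apply tv_eq_E hik _ _ rfl
  ext l
  simp [Pi.single_apply, mul_comm]

variable {M : Subgroup (GL ι F)} {F₀ : Subfield F}

theorem exists_fresh (S : Finset ι) (hS : S.card < Fintype.card ι) : ∃ x, x ∉ S := by
  by_contra h
  push Not at h
  have : (Finset.univ : Finset ι) ⊆ S := fun x _ => h x
  have := Finset.card_le_card this
  rw [Finset.card_univ] at this
  omega

theorem move_right (hT : ∀ (i j : ι) (hij : i ≠ j) (a : F), a ∈ F₀ → E hij a ∈ M) {i j k : ι} (hij : i ≠ j)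
    (hjk : j ≠ k) (hik : i ≠ k) {a : F} (h : E hij a ∈ M) : E hik a ∈ M := by
  have h1 := E_comm hij hjk hik a 1
  rw [mul_one] at h1
  rw [← h1]
  have h2 := hT j k hjk 1 F₀.one_mem
  exact M.mul_mem (M.mul_mem (M.mul_mem h h2) (M.inv_mem h)) (M.inv_mem h2)

theorem move_left (hT : ∀ (i j : ι) (hij : i ≠ j) (a : F), a ∈ F₀ → E hij a ∈ M) {i j k : ι} (hij : i ≠ j)
    (hki : k ≠ i) (hkj : k ≠ j) {a : F} (h : E hij a ∈ M) : E hkj a ∈ M := by
  have h1 := E_comm hki hij hkj 1 a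
  rw [one_mul] at h1
  rw [← h1]
  have h2 := hT k i hki 1 F₀.one_mem
  exact M.mul_mem (M.mul_mem (M.mul_mem h2 h) (M.inv_mem h2)) (M.inv_mem h)

theorem move_any (hn : 5 ≤ Fintype.card ι) (hT : ∀ (i j : ι) (hij : i ≠ j) (a : F), a ∈ F₀ → E hij a ∈ M)
    {p s i j : ι} (hps : p ≠ s) (hij : i ≠ j) {a : F} (h : E hps a ∈ M) : E hij a ∈ M := by
  obtain ⟨x, hx⟩ := exists_fresh (ι := ι) {p, s, i, j} (lt_of_le_of_lt Finset.card_le_four (by omega))
  simp only [Finset.mem_insert, Finset.mem_singleton, not_or] at hx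
  obtain ⟨hxp, hxs, hxi, hxj⟩ := hx
  have h1 : E (Ne.symm hxp) a ∈ M := move_right hT hps (Ne.symm hxs) (Ne.symm hxp) h
  have h2 : E (Ne.symm hxi) a ∈ M := by
    by_cases hip : i = p
    · subst hip; exact h1
    · exact move_left hT (Ne.symm hxp) hip (Ne.symm hxi) h1
  exact move_right hT (Ne.symm hxi) hxj hij h2

/-- A subfield from the elementary transvections. -/
theorem all_elem [Fintype F] {r : ℕ} (hr : r.Prime) (hcard : Fintype.card F = Nat.card F₀ ^ r)
    (hn : 5 ≤ Fintype.card ι) (hT : ∀ (i j : ι) (hij : i ≠ j) (a : F), a ∈ F₀ → E hij a ∈ M)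
    {p s : ι} (hps : p ≠ s) {a : F} (ha : a ∉ F₀) (haM : E hps a ∈ M) {i j : ι} (hij : i ≠ j) (b : F) :
    E hij b ∈ M := by
  classical
  have hmul : ∀ x y : F, E hps x ∈ M → E hps y ∈ M → E hps (x * y) ∈ M := by
    intro x y hx hy
    obtain ⟨z, hz⟩ := exists_fresh (ι := ι) {p, s} (lt_of_le_of_lt Finset.card_le_two (by omega))
    simp only [Finset.mem_insert, Finset.mem_singleton, not_or] at hz
    have h1 : E (Ne.symm hz.1) x ∈ M := move_right hT hps (Ne.symm hz.2) (Ne.symm hz.1) hx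
    have h2 : E (hz.2 : z ≠ s) y ∈ M := move_left hT hps hz.1 hz.2 hy
    rw [← E_comm (Ne.symm hz.1) (hz.2 : z ≠ s) hps x y]
    exact M.mul_mem (M.mul_mem (M.mul_mem h1 h2) (M.inv_mem h1)) (M.inv_mem h2)
  have hadd : ∀ x y : F, E hps x ∈ M → E hps y ∈ M → E hps (x + y) ∈ M := by
    intro x y hx hy
    rw [← E_mul]
    exact M.mul_mem hx hy
  have hneg : ∀ x : F, E hps x ∈ M → E hps (-x) ∈ M := by
    intro x hx
    have h1 := hmul _ _ (hT p s hps (-1) (F₀.neg_mem F₀.one_mem)) hx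
    simpa using h1
  let R : Subring F :=
    { carrier := {x | E hps x ∈ M}
      mul_mem' := fun {x y} hx hy => hmul x y hx hy
      one_mem' := hT p s hps 1 F₀.one_mem
      add_mem' := fun {x y} hx hy => hadd x y hx hy
      zero_mem' := hT p s hps 0 F₀.zero_mem
      neg_mem' := fun {x} hx => hneg x hx }
  let S : Subfield F :=
    { R with
      inv_mem' := by
        intro x hx
        by_cases hx0 : x = 0
        · subst hx0
          rw [_root_.inv_zero]
          exact R.zero_mem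
        · have h1 : x ^ (Fintype.card F - 1) = 1 := FiniteField.pow_card_sub_one_eq_one x hx0
          have hq : 2 ≤ Fintype.card F := Fintype.one_lt_card
          have h2 : x⁻¹ = x ^ (Fintype.card F - 2) := by
            have : Fintype.card F - 1 = (Fintype.card F - 2) + 1 := by omega
            rw [this, pow_succ] at h1
            exact (eq_inv_of_mul_eq_one_left h1).symm
          rw [h2]
          exact R.pow_mem hx _ }
  have hSmem : ∀ x, x ∈ S ↔ E hps x ∈ M := fun x => Iff.rfl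
  let E₁ : IntermediateField F₀ F := S.toIntermediateField (fun x => (hSmem _).2 (hT p s hps _ x.2))
  have hE₁ : ∀ x, x ∈ E₁ ↔ E hps x ∈ M := fun x => Iff.rfl
  have hfr : Module.finrank F₀ F = r := by
    have h1 : Nat.card F = Nat.card F₀ ^ Module.finrank F₀ F := Module.natCard_eq_pow_finrank
    rw [Nat.card_eq_fintype_card, hcard] at h1
    exact (Nat.pow_right_injective (Finite.one_lt_card (α := F₀))) h1.symm
  have htower := Module.finrank_mul_finrank F₀ E₁ F
  rw [hfr] at htower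
  have hbig : E₁ = ⊤ := by
    have hd : Module.finrank F₀ E₁ ∣ r := ⟨_, htower.symm⟩
    rcases (Nat.dvd_prime hr).mp hd with h1 | h1
    · exfalso
      have := IntermediateField.finrank_eq_one_iff.mp h1
      have haE : a ∈ E₁ := (hE₁ a).2 haM
      rw [this, IntermediateField.mem_bot] at haE
      obtain ⟨y, rfl⟩ := haE
      exact ha y.2
    · rw [h1] at htower
      have hr0 := hr.pos
      have : Module.finrank E₁ F = 1 := by
        have h2 : r * Module.finrank E₁ F = r * 1 := by rw [htower, mul_one]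
        exact Nat.eq_of_mul_eq_mul_left hr0 h2
      exact IntermediateField.finrank_eq_one_iff_eq_top.mp this
  have hb : b ∈ E₁ := by rw [hbig]; trivial
  exact move_any hn hT hps hij ((hE₁ b).1 hb)

set_option backward.isDefEq.respectTransparency.types false in
/-- A subgroup of `GL` containing all elementary transvections contains the special linear group. -/
theorem specialLinear_le_of_E (M : Subgroup (GL ι F))
    (hM : ∀ (i j : ι) (hij : i ≠ j) (a : F), E hij a ∈ M) : specialLinear ι F ≤ M := by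
  intro g hg
  rw [mem_specialLinear_iff] at hg
  by_cases hn : Nontrivial ι
  swap
  · have hs : Subsingleton ι := not_nontrivial_iff_subsingleton.mp hn
    have : g = 1 := by
      apply Units.ext
      ext i j
      have hij : i = j := Subsingleton.elim _ _
      subst hij
      have h1 : ((g : GL ι F) : Matrix ι ι F).det = (g : Matrix ι ι F) i i := by
        rw [Matrix.det_eq_elem_of_subsingleton _ i]
      rw [h1] at hg
      simp [hg]
    rw [this]
    exact M.one_mem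
  let G : SpecialLinearGroup ι F := ⟨(g : Matrix ι ι F), hg⟩
  let P : SpecialLinearGroup ι F → Prop := fun A => SpecialLinearGroup.toGL A ∈ M
  have key : P G := by
    have htrans : ∀ (i j : ι) (hij : i ≠ j) (a : F), P (SpecialLinearGroup.transvection hij a) := by
      intro i j hij a
      have hdot : (Pi.single j (1 : F) : ι → F) ⬝ᵥ (Pi.single i a : ι → F) = 0 :=
        single_dot_single hij a
      have : SpecialLinearGroup.toGL (SpecialLinearGroup.transvection hij a) = E hij a := by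
        apply Units.ext
        show (SpecialLinearGroup.transvection hij a : Matrix ι ι F) = _
        unfold E
        rw [SpecialLinearGroup.transvection_coe, tv_val]
        congr 1
        ext k l
        simp only [Matrix.single_apply, vecMulVec_apply, Pi.single_apply]
        by_cases h1 : i = k <;> by_cases h2 : j = l
        · subst h1; subst h2; simp
        · subst h1; simp [h2, Ne.symm h2]
        · subst h2; simp [h1, Ne.symm h1]
        · simp [h1, h2, Ne.symm h1, Ne.symm h2]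
      show SpecialLinearGroup.toGL _ ∈ M
      rw [this]
      exact hM _ _ _ _
    have hmul : ∀ A B : SpecialLinearGroup ι F, P A → P B → P (A * B) := by
      intro A B hA hB
      show SpecialLinearGroup.toGL (A * B) ∈ M
      rw [map_mul]
      exact M.mul_mem hA hB
    refine SpecialLinearGroup.diagonal_transvection_induction' P G ?_ htrans hmul
    intro i j hij c hc
    have e : SpecialLinearGroup.diag2n hij c hc =
        SpecialLinearGroup.transvection hij c * SpecialLinearGroup.transvection hij.symm (-c⁻¹) *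
          SpecialLinearGroup.transvection hij c * SpecialLinearGroup.transvection hij (-1) *
          SpecialLinearGroup.transvection hij.symm 1 * SpecialLinearGroup.transvection hij (-1) := by
      have hstep : ∀ (a b : ι) (hab : a ≠ b) (t : F) (u : ι → F),
          ((SpecialLinearGroup.transvection hab t : SpecialLinearGroup ι F) : Matrix ι ι F) *ᵥ u =
            Function.update u a (u a + t * u b) := by
        intro a b hab t u
        rw [SpecialLinearGroup.transvection_coe, add_mulVec, one_mulVec, single_mulVec]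
        ext k
        by_cases hk : k = a
        · subst hk; simp
        · simp [Function.update_of_ne hk, Pi.single_apply, hk]
      apply SpecialLinearGroup.coeMonoidHom_injective
      simp only [map_mul]
      apply Matrix.ext_of_mulVec_single
      intro l
      generalize (Pi.single l (1 : F) : ι → F) = u
      simp only [SpecialLinearGroup.coeMonoidHom_apply, ← mulVec_mulVec, hstep]
      rw [SpecialLinearGroup.diag2n_coe]
      ext k
      rw [mulVec_diagonal]
      by_cases h1 : k = i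
      · subst h1
        simp [Function.update_of_ne hij.symm, Function.update_self, Function.update_of_ne hij]
        field_simp
        ring
      · by_cases h2 : k = j
        · subst h2
          simp [Function.update_of_ne hij.symm, Function.update_self, Function.update_of_ne hij, h1]
          field_simp
          ring
        · simp [Function.update_of_ne h1, Function.update_of_ne h2, h1, h2]
    rw [e]
    exact hmul _ _ (hmul _ _ (hmul _ _ (hmul _ _ (hmul _ _ (htrans _ _ _ _) (htrans _ _ _ _))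
      (htrans _ _ _ _)) (htrans _ _ _ _)) (htrans _ _ _ _)) (htrans _ _ _ _)
  have : SpecialLinearGroup.toGL G = g := by
    apply Units.ext
    rfl
  rw [← this]
  exact key

end Elem

section Main

variable {ι : Type} [Fintype ι] [DecidableEq ι] {F : Type*} [Field F] [Fintype F]
  {M : Subgroup (GL ι F)} {F₀ : Subfield F}

/-- From a transvection with centre `e_p` to an elementary transvection. -/
theorem elem_of_center (hT : ∀ (i j : ι) (hij : i ≠ j) (a : F), a ∈ F₀ → E hij a ∈ M) {p u s : ι}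
    {φ : ι → F} (hφ : φ ⬝ᵥ (Pi.single p 1 : ι → F) = 0)
    (hM : tv (Pi.single p 1) φ hφ ∈ M) (hps : p ≠ s) (hus : u ≠ s) : E hps (φ u) ∈ M := by
  have h2 := hT u s hus 1 F₀.one_mem
  have h3 := M.mul_mem (M.mul_mem (M.mul_mem hM h2) (M.inv_mem hM)) (M.inv_mem h2)
  unfold E at h3
  have h00 : (Pi.single s (1 : F) : ι → F) ⬝ᵥ ((φ ⬝ᵥ (Pi.single u 1 : ι → F)) • (Pi.single p 1 : ι → F)) = 0 := by
    rw [dotProduct_smul, single_dot_single hps (1 : F), smul_zero]
  rw [comm_tv_left (Pi.single p 1) φ (Pi.single u 1) (Pi.single s 1) hφ _ (single_dot_single hps (1 : F)) h00] at h3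
  have h4 : tv ((φ ⬝ᵥ (Pi.single u 1 : ι → F)) • (Pi.single p 1 : ι → F)) (Pi.single s 1) h00 = E hps (φ u) := by
    apply tv_eq_E hps _ _ rfl
    ext l
    simp [Pi.single_apply]
  rwa [h4] at h3

/-- A centre `e_p` and two coordinates with ratio outside `F₀`. -/
theorem elem_of_ratio (hT : ∀ (i j : ι) (hij : i ≠ j) (a : F), a ∈ F₀ → E hij a ∈ M) {p i j s : ι}
    {φ : ι → F} (hφ : φ ⬝ᵥ (Pi.single p 1 : ι → F) = 0)
    (hM : tv (Pi.single p 1) φ hφ ∈ M) (hps : p ≠ s) (his : i ≠ s) (hjs : j ≠ s)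
    (hρ : φ i / φ j ∉ F₀) : ∃ (p' s' : ι) (h : p' ≠ s') (a : F), a ∉ F₀ ∧ E h a ∈ M := by
  by_cases h1 : φ i ∈ F₀
  · by_cases h2 : φ j ∈ F₀
    · exact absurd (F₀.div_mem h1 h2) hρ
    · exact ⟨p, s, hps, φ j, h2, elem_of_center hT hφ hM hps hjs⟩
  · exact ⟨p, s, hps, φ i, h1, elem_of_center hT hφ hM hps his⟩

theorem single_rat {i : ι} {a : F} (ha : a ∈ F₀) (j : ι) : (Pi.single i a : ι → F) j ∈ F₀ := by
  by_cases h : j = i
  · subst h; simpa using ha
  · rw [Pi.single_eq_of_ne h]; exact F₀.zero_mem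

theorem vecMul_tv (x e y : ι → F) (h : e ⬝ᵥ x = 0) :
    y ᵥ* ((tv x e h : GL ι F) : Matrix ι ι F) = y + (y ⬝ᵥ x) • e := by
  rw [tv_val, Matrix.vecMul_add, Matrix.vecMul_one]
  congr 1
  ext l
  simp only [Matrix.vecMul, dotProduct, vecMulVec_apply, Pi.smul_apply, smul_eq_mul, Finset.sum_mul]
  refine Finset.sum_congr rfl fun k _ => ?_
  ring

/-- Case of a rational centre. -/
theorem exists_elem_of_rational_center
    (hn : 3 ≤ Fintype.card ι)
    (hR : ∀ (x y : ι → F) (h : y ⬝ᵥ x = 0), (∀ i, x i ∈ F₀) → (∀ i, y i ∈ F₀) → tv x y h ∈ M)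
    {v f : ι → F} (hfv : f ⬝ᵥ v = 0) (ht : tv v f hfv ∈ M) (hnr : ∃ a b, v a * f b ∉ F₀)
    {i : ι} (hi : v i ≠ 0) (hrat : ∀ j, v j / v i ∈ F₀) :
    ∃ (p' s' : ι) (h : p' ≠ s') (a : F), a ∉ F₀ ∧ E h a ∈ M := by
  classical
  have hT : ∀ (i j : ι) (hij : i ≠ j) (a : F), a ∈ F₀ → E hij a ∈ M := fun i j hij a ha =>
    hR _ _ _ (single_rat ha) (single_rat F₀.one_mem)
  set d := v i with hd
  set v' : ι → F := d⁻¹ • v with hv'
  set f' : ι → F := d • f with hf'
  have hv'rat : ∀ j, v' j ∈ F₀ := by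
    intro j
    have := hrat j
    simpa [hv', div_eq_inv_mul] using this
  have hv'i : v' i = 1 := by simp [hv', ← hd, hi]
  have hfv' : f' ⬝ᵥ v' = 0 := by
    rw [hv', hf', dotProduct_smul, smul_dotProduct, hfv]; simp
  have htv : tv v' f' hfv' = tv v f hfv := by
    apply tv_ext
    ext a b
    simp only [vecMulVec_apply, hv', hf', Pi.smul_apply, smul_eq_mul]
    field_simp
  have ht' : tv v' f' hfv' ∈ M := htv ▸ ht
  set e : ι → F := Pi.single i 1 with he
  set x : ι → F := v' - e with hx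
  have hex : e ⬝ᵥ x = 0 := by
    rw [hx, dotProduct_sub, he]
    simp [hv'i]
  have hxrat : ∀ j, x j ∈ F₀ := fun j => F₀.sub_mem (hv'rat j) (single_rat F₀.one_mem j)
  have hA : tv (-x) e (neg_dot hex) ∈ M :=
    hR _ _ _ (fun j => F₀.neg_mem (hxrat j)) (single_rat F₀.one_mem)
  set φ : ι → F := f' + (f' ⬝ᵥ x) • e with hφ
  have hφx : φ ⬝ᵥ x = f' ⬝ᵥ x := by
    rw [hφ, add_dotProduct, smul_dotProduct (f' ⬝ᵥ x) e x, hex]; simp
  have hfi : f' ⬝ᵥ x = - f' i := by
    rw [hx, dotProduct_sub, hfv', he]; simp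
  have hφi : φ ⬝ᵥ e = 0 := by
    have h1 : φ i = 0 := by
      rw [hφ]; simp [hfi, he]
    rw [he]; simp [h1]
  have hconj := conj_tv (tv (-x) e (neg_dot hex)) v' f' e φ hfv' hφi
    (by
      rw [tv_mulVec, he]
      rw [single_one_dotProduct, hv'i, one_smul, ← he, hx]
      abel)
    (by
      rw [vecMul_tv, dotProduct_neg, hφx, hφ]
      ext l
      simp only [Pi.add_apply, Pi.smul_apply, smul_eq_mul, neg_mul]
      ring)
  have h2 : tv e φ hφi ∈ M := by
    rw [← hconj]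
    exact M.mul_mem (M.mul_mem hA ht') (M.inv_mem hA)
  -- a non rational coordinate
  obtain ⟨u, hu⟩ : ∃ u, φ u ∉ F₀ := by
    by_contra hall
    push Not at hall
    obtain ⟨a, b, hab⟩ := hnr
    apply hab
    have h3 : f' b ∈ F₀ := by
      have h4 : f' b = φ b - (φ ⬝ᵥ x) * e b := by
        rw [hφx, hφ]
        simp
      rw [h4]
      refine F₀.sub_mem (hall b) (F₀.mul_mem ?_ (single_rat F₀.one_mem b))
      exact F₀.sum_mem fun k _ => F₀.mul_mem (hall k) (hxrat k)
    have h5 : v a * f b = v' a * f' b := by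
      simp only [hv', hf', Pi.smul_apply, smul_eq_mul]
      field_simp
    rw [h5]
    exact F₀.mul_mem (hv'rat a) h3
  have hui : u ≠ i := by
    rintro rfl
    apply hu
    have : φ u = 0 := by
      have := hφi
      rw [he] at this
      simpa using this
    rw [this]
    exact F₀.zero_mem
  obtain ⟨s, hs⟩ := exists_fresh (ι := ι) {i, u} (lt_of_le_of_lt Finset.card_le_two (by omega))
  simp only [Finset.mem_insert, Finset.mem_singleton, not_or] at hs
  exact ⟨i, s, Ne.symm hs.1, φ u, hu, elem_of_center hT hφi h2 (Ne.symm hs.1) (Ne.symm hs.2)⟩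

/-- The main case: a centre which is not rational. -/
theorem exists_elem_of_ratio
    (hn : 5 ≤ Fintype.card ι)
    (hR : ∀ (x y : ι → F) (h : y ⬝ᵥ x = 0), (∀ i, x i ∈ F₀) → (∀ i, y i ∈ F₀) → tv x y h ∈ M)
    {v f : ι → F} (hfv : f ⬝ᵥ v = 0) (ht : tv v f hfv ∈ M) (hf0 : f ≠ 0)
    {i j : ι} (hi : v i ≠ 0) (hj : v j ≠ 0) (hρ : v j / v i ∉ F₀) :
    ∃ (p' s' : ι) (h : p' ≠ s') (a : F), a ∉ F₀ ∧ E h a ∈ M := by
  classical
  have hT : ∀ (i j : ι) (hij : i ≠ j) (a : F), a ∈ F₀ → E hij a ∈ M := fun i j hij a ha =>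
    hR _ _ _ (single_rat ha) (single_rat F₀.one_mem)
  have hij : i ≠ j := by
    rintro rfl
    apply hρ
    rw [div_self hi]
    exact F₀.one_mem
  by_cases hsupp : ∀ k, k ≠ i → k ≠ j → f k = 0
  · -- the support of `f` is `{i, j}`
    obtain ⟨p, hp⟩ := exists_fresh (ι := ι) {i, j} (lt_of_le_of_lt Finset.card_le_two (by omega))
    simp only [Finset.mem_insert, Finset.mem_singleton, not_or] at hp
    obtain ⟨s, hs⟩ := exists_fresh (ι := ι) {i, j, p} (lt_of_le_of_lt Finset.card_le_three (by omega))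
    simp only [Finset.mem_insert, Finset.mem_singleton, not_or] at hs
    have hdot : f i * v i + f j * v j = 0 := by
      rw [← hfv, dotProduct]
      have hpair : ∑ k ∈ ({i, j} : Finset ι), f k * v k = f i * v i + f j * v j := Finset.sum_pair hij
      rw [← hpair]
      apply Finset.sum_subset (Finset.subset_univ _)
      intro k _ hk
      simp only [Finset.mem_insert, Finset.mem_singleton, not_or] at hk
      rw [hsupp k hk.1 hk.2, zero_mul]
    have hfj : f j ≠ 0 := by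
      intro h0
      apply hf0
      rw [h0, zero_mul, add_zero] at hdot
      have h1 : f i = 0 := (mul_eq_zero.mp hdot).resolve_right hi
      ext k
      by_cases hki : k = i
      · subst hki; exact h1
      · by_cases hkj : k = j
        · subst hkj; exact h0
        · exact hsupp k hki hkj
    have hfp : f ⬝ᵥ (Pi.single p 1 : ι → F) = 0 := by
      simp [hsupp p hp.1 hp.2]
    have h1 := hR (Pi.single p 1) (Pi.single j 1) (single_dot_single hp.2 (1 : F))
      (single_rat F₀.one_mem) (single_rat F₀.one_mem)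
    have h2 := M.mul_mem (M.mul_mem (M.mul_mem h1 ht) (M.inv_mem h1)) (M.inv_mem ht)
    rw [comm_tv_left (Pi.single p 1) (Pi.single j 1) v f _ hfv hfp (by
      simp [dotProduct_smul, hfp])] at h2
    have hφ : (v j • f) ⬝ᵥ (Pi.single p 1 : ι → F) = 0 := by
      rw [smul_dotProduct, hfp]; simp
    have h3 : tv (Pi.single p 1) (v j • f) hφ ∈ M := by
      have e1 : vecMulVec ((Pi.single j 1 ⬝ᵥ v) • (Pi.single p 1 : ι → F)) f =
          vecMulVec (Pi.single p 1) (v j • f) := by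
        ext a b
        simp [vecMulVec_apply, Pi.single_apply]
      rwa [tv_ext e1] at h2
    refine elem_of_ratio hT hφ h3 (s := s) (i := i) (j := j) (Ne.symm hs.2.2) (Ne.symm hs.1)
      (Ne.symm hs.2.1) ?_
    intro hmem
    apply hρ
    have h4 : (v j • f) i / (v j • f) j = - (v j / v i) := by
      simp only [Pi.smul_apply, smul_eq_mul]
      have h5 : f i = - (f j * v j) / v i := by
        field_simp
        linear_combination hdot
      rw [h5]
      field_simp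
    rw [h4] at hmem
    simpa using F₀.neg_mem hmem
  -- general position
  push Not at hsupp
  obtain ⟨k₀, hk₀i, hk₀j, hfk₀⟩ := hsupp
  obtain ⟨l₀, hl₀⟩ := exists_fresh (ι := ι) {i, j, k₀} (lt_of_le_of_lt Finset.card_le_three (by omega))
  simp only [Finset.mem_insert, Finset.mem_singleton, not_or] at hl₀
  obtain ⟨k, l, hki, hkj, hli, hlj, hkl, hc₀⟩ : ∃ k l, k ≠ i ∧ k ≠ j ∧ l ≠ i ∧ l ≠ j ∧ k ≠ l ∧
      f k * v i + f l * v j ≠ 0 := by
    by_contra hcon
    push Not at hcon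
    have h1 := hcon k₀ l₀ hk₀i hk₀j hl₀.1 hl₀.2.1 (Ne.symm hl₀.2.2)
    have h2 := hcon l₀ k₀ hl₀.1 hl₀.2.1 hk₀i hk₀j hl₀.2.2
    have h3 : f k₀ * (v i ^ 2 - v j ^ 2) = 0 := by
      linear_combination v i * h1 - v j * h2
    have h4 : v i ^ 2 - v j ^ 2 = 0 := (mul_eq_zero.mp h3).resolve_left hfk₀
    have h5 : (v i - v j) * (v i + v j) = 0 := by linear_combination h4
    apply hρ
    rcases mul_eq_zero.mp h5 with h6 | h6
    · rw [show v j = v i by linear_combination -h6, div_self hi]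
      exact F₀.one_mem
    · rw [show v j = - v i by linear_combination h6, neg_div, div_self hi]
      exact F₀.neg_mem F₀.one_mem
  -- the sign
  obtain ⟨ε, hε, hε2, hε4⟩ : ∃ ε : F, ε ∈ F₀ ∧ ε * ε = 1 ∧ ε * (f k * v i + f l * v j) + 4 ≠ 0 := by
    by_cases h4 : f k * v i + f l * v j + 4 = 0
    · refine ⟨-1, F₀.neg_mem F₀.one_mem, by ring, ?_⟩
      intro h5
      have h6 : (2 : F) ^ 3 = 0 := by linear_combination h5 + h4
      have h7 : (2 : F) = 0 := pow_eq_zero_iff (by norm_num) |>.mp h6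
      apply hc₀
      linear_combination h4 - 2 * h7
    · exact ⟨1, F₀.one_mem, by ring, by rwa [one_mul]⟩
  obtain ⟨p, hp⟩ := exists_fresh (ι := ι) {i, j, k, l} (lt_of_le_of_lt Finset.card_le_four (by omega))
  simp only [Finset.mem_insert, Finset.mem_singleton, not_or] at hp
  obtain ⟨hpi, hpj, hpk, hpl⟩ := hp
  set w₁ : ι → F := Pi.single k ε with hw₁
  set w₂ : ι → F := Pi.single l ε with hw₂
  set h₁ : ι → F := Pi.single i 1 with hh₁
  set h₂ : ι → F := Pi.single j 1 with hh₂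
  have h11 : h₁ ⬝ᵥ w₁ = 0 := single_dot_single hki ε
  have h12 : h₁ ⬝ᵥ w₂ = 0 := single_dot_single hli ε
  have h21 : h₂ ⬝ᵥ w₁ = 0 := single_dot_single hkj ε
  have h22 : h₂ ⬝ᵥ w₂ = 0 := single_dot_single hlj ε
  have hα₁ : f ⬝ᵥ w₁ = f k * ε := by simp [hw₁]
  have hα₂ : f ⬝ᵥ w₂ = f l * ε := by simp [hw₂]
  have hβ₁ : h₁ ⬝ᵥ v = v i := by simp [hh₁]
  have hβ₂ : h₂ ⬝ᵥ v = v j := by simp [hh₂]
  have hcc : (f ⬝ᵥ w₁) * (h₁ ⬝ᵥ v) + (f ⬝ᵥ w₂) * (h₂ ⬝ᵥ v) = ε * (f k * v i + f l * v j) := by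
    rw [hα₁, hα₂, hβ₁, hβ₂]; ring
  have hε0 : ε ≠ 0 := by
    rintro rfl
    simp at hε2
  have hc : (f ⬝ᵥ w₁) * (h₁ ⬝ᵥ v) + (f ⬝ᵥ w₂) * (h₂ ⬝ᵥ v) ≠ 0 := by
    rw [hcc]; exact mul_ne_zero hε0 hc₀
  have hc4 : (f ⬝ᵥ w₁) * (h₁ ⬝ᵥ v) + (f ⬝ᵥ w₂) * (h₂ ⬝ᵥ v) + 4 ≠ 0 := by
    rw [hcc]; exact hε4
  obtain ⟨H, hpow⟩ := tv_pow hfv h11 h12 h21 h22 hc hc4
  have hT₁ : tv w₁ h₁ h11 ∈ M := hR _ _ _ (single_rat hε) (single_rat F₀.one_mem)
  have hT₂ : tv w₂ h₂ h22 ∈ M := hR _ _ _ (single_rat hε) (single_rat F₀.one_mem)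
  have hz := M.pow_mem (M.mul_mem (M.mul_mem ht hT₁) hT₂) (Fintype.card F ^ 2 - 1)
  rw [hpow] at hz
  set c := (f ⬝ᵥ w₁) * (h₁ ⬝ᵥ v) + (f ⬝ᵥ w₂) * (h₂ ⬝ᵥ v) with hcdef
  set x' : ι → F := (-c⁻¹) • ((f ⬝ᵥ w₂) • w₁ - (f ⬝ᵥ w₁) • w₂) with hx'
  set h' : ι → F := (h₂ ⬝ᵥ v) • h₁ - (h₁ ⬝ᵥ v) • h₂ with hh'
  have hh'p : h' ⬝ᵥ (Pi.single p 1 : ι → F) = 0 := by
    rw [hh', hβ₁, hβ₂, sub_dotProduct, smul_dotProduct, smul_dotProduct, hh₁, hh₂,
      single_dot_single hpi (1 : F), single_dot_single hpj (1 : F)]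
    simp
  -- the rational partner
  obtain ⟨k', hpk', hk'i, hk'j, hγ⟩ : ∃ k', p ≠ k' ∧ k' ≠ i ∧ k' ≠ j ∧ (Pi.single k' (1 : F) : ι → F) ⬝ᵥ x' ≠ 0 := by
    have hc' : c ≠ 0 := hc
    by_cases hfl : f l = 0
    · refine ⟨l, hpl, hli, hlj, ?_⟩
      have hfk : f k ≠ 0 := by
        intro h0
        apply hc₀
        rw [h0, hfl]; ring
      have : (Pi.single l (1 : F) : ι → F) ⬝ᵥ x' = c⁻¹ * (f k * ε * ε) := by
        rw [hx', dotProduct_smul, dotProduct_sub, dotProduct_smul, dotProduct_smul, hα₁, hα₂, hw₁, hw₂,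
          single_dot_single hkl ε]
        simp
      rw [this, mul_assoc, hε2, mul_one]
      exact mul_ne_zero (inv_ne_zero hc') hfk
    · refine ⟨k, hpk, hki, hkj, ?_⟩
      have : (Pi.single k (1 : F) : ι → F) ⬝ᵥ x' = - c⁻¹ * (f l * ε * ε) := by
        rw [hx', dotProduct_smul, dotProduct_sub, dotProduct_smul, dotProduct_smul, hα₁, hα₂, hw₁, hw₂,
          single_dot_single (Ne.symm hkl) ε]
        simp
      rw [this, mul_assoc, hε2, mul_one]
      exact mul_ne_zero (neg_ne_zero.mpr (inv_ne_zero hc')) hfl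
  set γ := (Pi.single k' (1 : F) : ι → F) ⬝ᵥ x' with hγdef
  have h1 := hR (Pi.single p 1) (Pi.single k' 1) (single_dot_single hpk' 1)
      (single_rat F₀.one_mem) (single_rat F₀.one_mem)
  have h2 := M.mul_mem (M.mul_mem (M.mul_mem h1 hz) (M.inv_mem h1)) (M.inv_mem hz)
  rw [comm_tv_left (Pi.single p 1) (Pi.single k' 1) x' h' _ H hh'p (by
      simp [dotProduct_smul, hh'p])] at h2
  have hφ : (γ • h') ⬝ᵥ (Pi.single p 1 : ι → F) = 0 := by
    rw [smul_dotProduct, hh'p]; simp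
  have h3 : tv (Pi.single p 1) (γ • h') hφ ∈ M := by
    have e1 : vecMulVec (γ • (Pi.single p 1 : ι → F)) h' =
        vecMulVec (Pi.single p 1) (γ • h') := by
      rw [vecMulVec_smul_left, vecMulVec_smul_right]
    rwa [tv_ext e1] at h2
  refine elem_of_ratio hT hφ h3 (s := k') (i := i) (j := j) hpk' (Ne.symm hk'i) (Ne.symm hk'j) ?_
  intro hmem
  apply hρ
  have hh'i : h' i = v j := by
    simp [hh', hβ₁, hβ₂, hh₁, hh₂, Pi.single_apply, hij, Ne.symm hij]
  have hh'j : h' j = - v i := by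
    simp [hh', hβ₁, hβ₂, hh₁, hh₂, Pi.single_apply, hij, Ne.symm hij]
  have h4 : (γ • h') i / (γ • h') j = - (v j / v i) := by
    simp only [Pi.smul_apply, smul_eq_mul, hh'i, hh'j]
    field_simp
  rw [h4] at hmem
  simpa using F₀.neg_mem hmem

/-- Non rational transvections yield non rational elementary transvections. -/
theorem exists_elem
    (hn : 5 ≤ Fintype.card ι)
    (hR : ∀ (x y : ι → F) (h : y ⬝ᵥ x = 0), (∀ i, x i ∈ F₀) → (∀ i, y i ∈ F₀) → tv x y h ∈ M)
    {v f : ι → F} (hfv : f ⬝ᵥ v = 0) (ht : tv v f hfv ∈ M) (hnr : ∃ a b, v a * f b ∉ F₀) :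
    ∃ (p' s' : ι) (h : p' ≠ s') (a : F), a ∉ F₀ ∧ E h a ∈ M := by
  by_cases hrat : ∃ i, v i ≠ 0 ∧ ∀ j, v j / v i ∈ F₀
  · obtain ⟨i, hi, hj⟩ := hrat
    exact exists_elem_of_rational_center (by omega) hR hfv ht hnr hi hj
  · push Not at hrat
    obtain ⟨a, b, hab⟩ := hnr
    have hva : v a ≠ 0 := by
      intro h0
      rw [h0, zero_mul] at hab
      exact hab F₀.zero_mem
    have hfb : f b ≠ 0 := by
      intro h0
      rw [h0, mul_zero] at hab
      exact hab F₀.zero_mem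
    obtain ⟨j, hj⟩ := hrat a hva
    have hvj : v j ≠ 0 := by
      intro h0
      rw [h0, zero_div] at hj
      exact hj F₀.zero_mem
    have hf0 : f ≠ 0 := by
      rintro rfl
      exact hfb rfl
    exact exists_elem_of_ratio hn hR hfv ht hf0 hva hvj hj

/-- **Overgroups of the rational transvections.** If `M` contains the transvections rational over `F₀`
(of prime index in `F`) and a transvection which is not rational, then it contains `SL`. -/
theorem specialLinear_le_of_nonrational {r : ℕ} (hr : r.Prime) (hcard : Fintype.card F = Nat.card F₀ ^ r)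
    (hn : 5 ≤ Fintype.card ι)
    (hR : ∀ (x y : ι → F) (h : y ⬝ᵥ x = 0), (∀ i, x i ∈ F₀) → (∀ i, y i ∈ F₀) → tv x y h ∈ M)
    {v f : ι → F} (hfv : f ⬝ᵥ v = 0) (ht : tv v f hfv ∈ M) (hnr : ∃ a b, v a * f b ∉ F₀) :
    specialLinear ι F ≤ M := by
  obtain ⟨p, s, hps, a, ha, haM⟩ := exists_elem hn hR hfv ht hnr
  have hT : ∀ (i j : ι) (hij : i ≠ j) (a : F), a ∈ F₀ → E hij a ∈ M := fun i j hij a ha =>
    hR _ _ _ (single_rat ha) (single_rat F₀.one_mem)
  apply specialLinear_le_of_E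
  intro i j hij b
  exact all_elem hr hcard hn hT hps ha haM hij b

end Main

section Final

variable {ι : Type} [Fintype ι] [DecidableEq ι] {F : Type*} [Field F] {F₀ : Subfield F}

/-- the group `GL(F₀) · F^×` contains everything that is a scalar times a matrix over `F₀`. -/
theorem mem_sup_scalars_of_entries {A : GL ι F} {d : F} (hd : d ≠ 0)
    (hent : ∀ k l, d * (A : Matrix ι ι F) k l ∈ F₀) :
    A ∈ (Matrix.GeneralLinearGroup.map (F₀.subtype : F₀ →+* F)).range ⊔ scalars ι F := by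
  classical
  set A' : Matrix ι ι F := d • (A : Matrix ι ι F) with hA'
  let M₀ : Matrix ι ι F₀ := fun k l => ⟨A' k l, hent k l⟩
  have hmap : M₀.map (F₀.subtype : F₀ →+* F) = A' := by
    ext k l
    rfl
  have hdet : M₀.det ≠ 0 := by
    intro h0
    have h1 : (M₀.map (F₀.subtype : F₀ →+* F)).det = 0 := by
      have := RingHom.map_det (F₀.subtype : F₀ →+* F) M₀
      rw [h0, map_zero] at this
      exact this.symm
    rw [hmap, hA', Matrix.det_smul] at h1
    have hA0 : (A : Matrix ι ι F).det ≠ 0 :=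
      ((Matrix.isUnit_iff_isUnit_det _).mp A.isUnit).ne_zero
    exact (mul_ne_zero (pow_ne_zero _ hd) hA0) h1
  let G₀ : GL ι F₀ := Matrix.GeneralLinearGroup.mkOfDetNeZero M₀ hdet
  have hG₀ : ((Matrix.GeneralLinearGroup.map (F₀.subtype : F₀ →+* F) G₀ : GL ι F) : Matrix ι ι F) = A' := by
    rw [← hmap]
    rfl
  let zs : GL ι F := (Units.map (Matrix.scalar ι : F →+* Matrix ι ι F).toMonoidHom) (Units.mk0 d hd)⁻¹
  have hzs : zs ∈ scalars ι F := ⟨_, rfl⟩
  have hzsv : (zs : Matrix ι ι F) = d⁻¹ • 1 := by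
    simp [zs, Matrix.smul_one_eq_diagonal]
  have e : A = Matrix.GeneralLinearGroup.map (F₀.subtype : F₀ →+* F) G₀ * zs := by
    apply Units.ext
    rw [Units.val_mul, hG₀, hzsv, hA', Matrix.mul_smul, Matrix.mul_one, smul_smul, inv_mul_cancel₀ hd, one_smul]
  rw [e]
  exact Subgroup.mul_mem_sup ⟨G₀, rfl⟩ hzs

/-- Elements of `GL(F₀) · F^×`: a scalar times a rational matrix. -/
theorem exists_entries_of_mem_sup {A : GL ι F}
    (h : A ∈ (Matrix.GeneralLinearGroup.map (F₀.subtype : F₀ →+* F)).range ⊔ scalars ι F) :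
    ∃ d : F, d ≠ 0 ∧ ∀ k l, d * (A : Matrix ι ι F) k l ∈ F₀ := by
  have hy' : A ∈ (((Matrix.GeneralLinearGroup.map (F₀.subtype : F₀ →+* F)).range ⊔ scalars ι F :
      Subgroup (GL ι F)) : Set (GL ι F)) := h
  rw [Subgroup.mul_normal] at hy'
  obtain ⟨r, hr, s, hs, hrs⟩ := Set.mem_mul.mp hy'
  obtain ⟨G₀, rfl⟩ := hr
  obtain ⟨d, hd⟩ := (mem_scalars_iff s).mp hs
  refine ⟨(d : F)⁻¹, inv_ne_zero d.ne_zero, fun k l => ?_⟩
  have h1 := congrArg Units.val hrs
  rw [Units.val_mul, hd, Matrix.mul_smul, Matrix.mul_one] at h1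
  rw [← h1]
  simp only [Matrix.smul_apply, smul_eq_mul]
  rw [← mul_assoc, inv_mul_cancel₀ d.ne_zero, one_mul]
  simp

/-- An elementary transvection is a rational one only if its parameter is rational. -/
theorem entry_mem_of_E_mem_sup {i j : ι} (hij : i ≠ j) {a : F}
    (h : E hij a ∈ (Matrix.GeneralLinearGroup.map (F₀.subtype : F₀ →+* F)).range ⊔ scalars ι F) :
    a ∈ F₀ := by
  obtain ⟨d, hd, hent⟩ := exists_entries_of_mem_sup h
  have h1 := hent i i
  have h2 := hent i j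
  have e1 : ((E hij a : GL ι F) : Matrix ι ι F) i i = 1 := by
    simp [E, tv_val, vecMulVec_apply, hij, Ne.symm hij]
  have e2 : ((E hij a : GL ι F) : Matrix ι ι F) i j = a := by
    simp [E, tv_val, vecMulVec_apply, hij]
  rw [e1, mul_one] at h1
  rw [e2] at h2
  have : a = d⁻¹ * (d * a) := by field_simp
  rw [this]
  exact F₀.mul_mem (F₀.inv_mem h1) h2

/-- If the conjugates by `g` of elementary rational transvections are rational, `g` is a scalar
times a rational matrix. -/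
theorem mem_sup_of_rational_conj [Nontrivial ι] {g : GL ι F}
    (h : ∀ i j, i ≠ j → ∀ k l, (g : Matrix ι ι F) k i * ((g⁻¹ : GL ι F) : Matrix ι ι F) j l ∈ F₀) :
    g ∈ (Matrix.GeneralLinearGroup.map (F₀.subtype : F₀ →+* F)).range ⊔ scalars ι F := by
  classical
  have hne : ((g⁻¹ : GL ι F) : Matrix ι ι F) ≠ 0 := by
    intro h0
    have h1 : ((g⁻¹ : GL ι F) : Matrix ι ι F) * (g : Matrix ι ι F) = 1 := by
      rw [← Units.val_mul, inv_mul_cancel, Units.val_one]
    rw [h0, zero_mul] at h1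
    exact zero_ne_one h1
  obtain ⟨j₀, l₀, hκ⟩ : ∃ j₀ l₀, ((g⁻¹ : GL ι F) : Matrix ι ι F) j₀ l₀ ≠ 0 := by
    by_contra hcon
    push Not at hcon
    exact hne (Matrix.ext hcon)
  refine mem_sup_scalars_of_entries hκ fun k i => ?_
  by_cases hi : i = j₀
  · subst hi
    obtain ⟨i', hi'⟩ := exists_ne i
    have h1 : ((g⁻¹ : GL ι F) : Matrix ι ι F) * (g : Matrix ι ι F) = 1 := by
      rw [← Units.val_mul, inv_mul_cancel, Units.val_one]
    have h2 : ∑ s, ((g⁻¹ : GL ι F) : Matrix ι ι F) i' s * (g : Matrix ι ι F) s i' = 1 := by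
      have := congrFun (congrFun h1 i') i'
      rwa [Matrix.mul_apply, Matrix.one_apply_eq] at this
    have h3 : ((g⁻¹ : GL ι F) : Matrix ι ι F) i l₀ * (g : Matrix ι ι F) k i =
        ∑ s, ((g : Matrix ι ι F) k i * ((g⁻¹ : GL ι F) : Matrix ι ι F) i' s) *
          ((g : Matrix ι ι F) s i' * ((g⁻¹ : GL ι F) : Matrix ι ι F) i l₀) := by
      calc _ = ((g⁻¹ : GL ι F) : Matrix ι ι F) i l₀ * (g : Matrix ι ι F) k i *
            ∑ s, ((g⁻¹ : GL ι F) : Matrix ι ι F) i' s * (g : Matrix ι ι F) s i' := by rw [h2, mul_one]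
        _ = _ := by
          rw [Finset.mul_sum]
          refine Finset.sum_congr rfl fun s _ => ?_
          ring
    rw [h3]
    exact F₀.sum_mem fun s _ => F₀.mul_mem (h i i' (Ne.symm hi') k s) (h i' i hi' s l₀)
  · rw [mul_comm]
    exact h i j₀ hi k l₀

theorem conj_mem_specialLinear {x : GL ι F} (hx : x ∈ specialLinear ι F) (P : GL ι F) :
    P * x * P⁻¹ ∈ specialLinear ι F :=
  (MonoidHom.normal_ker (Matrix.GeneralLinearGroup.det : GL ι F →* Fˣ)).conj_mem x hx P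

/-- The subfield group is maximal in `SL`. -/
theorem subfield_isMaximalIn [Fintype F] {r : ℕ} (hr : r.Prime) (hcard : Fintype.card F = Nat.card F₀ ^ r)
    (hn : 5 ≤ Fintype.card ι) (P : GL ι F) :
    IsMaximalIn (specialLinear ι F) (subfieldSubgroup F₀ P ⊓ specialLinear ι F) := by
  classical
  have hnt : Nontrivial ι := Fintype.one_lt_card_iff_nontrivial.mp (by omega)
  set K₀ := (Matrix.GeneralLinearGroup.map (F₀.subtype : F₀ →+* F)).range ⊔ scalars ι F with hK₀
  have hmemS : ∀ x, x ∈ K₀ → P * x * P⁻¹ ∈ subfieldSubgroup F₀ P := by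
    intro x hx
    exact ⟨x, hx, rfl⟩
  have hmemS' : ∀ x, x ∈ subfieldSubgroup F₀ P → P⁻¹ * x * P ∈ K₀ := by
    rintro _ ⟨y, hy, rfl⟩
    have : P⁻¹ * ((MulAut.conj P).toMonoidHom y) * P = y := by
      simp [MulAut.conj_apply]
      group
    rw [this]
    exact hy
  constructor
  · -- properness
    refine lt_of_le_of_ne inf_le_right ?_
    intro heq
    obtain ⟨a, ha⟩ : ∃ a, a ∉ F₀ := by
      by_contra hall
      push Not at hall
      have h1 : Nat.card F₀ = Nat.card F :=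
        Nat.card_congr (Equiv.subtypeUnivEquiv hall)
      rw [Nat.card_eq_fintype_card (α := F), hcard] at h1
      have h2 : 1 < Nat.card F₀ := Finite.one_lt_card
      have h3 : 2 ≤ r := hr.two_le
      have h4 : Nat.card F₀ ^ 1 < Nat.card F₀ ^ r := Nat.pow_lt_pow_right h2 (by omega)
      rw [pow_one] at h4
      omega
    obtain ⟨i, j, hij⟩ := exists_pair_ne ι
    have h1 : E hij a ∈ specialLinear ι F := tv_mem_specialLinear _ _ _
    have h2 : P * E hij a * P⁻¹ ∈ specialLinear ι F := conj_mem_specialLinear h1 P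
    rw [← heq] at h2
    have h3 := hmemS' _ h2.1
    have h4 : P⁻¹ * (P * E hij a * P⁻¹) * P = E hij a := by group
    rw [h4] at h3
    exact ha (entry_mem_of_E_mem_sup hij h3)
  · intro M hHM hMG
    by_cases hMH : M ≤ subfieldSubgroup F₀ P ⊓ specialLinear ι F
    · exact Or.inl (le_antisymm hMH hHM)
    right
    apply le_antisymm hMG
    obtain ⟨g, hgM, hgH⟩ := SetLike.not_le_iff_exists.mp hMH
    set M' : Subgroup (GL ι F) := M.comap (MulAut.conj P).toMonoidHom with hM'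
    have hM'mem : ∀ x, x ∈ M' ↔ P * x * P⁻¹ ∈ M := fun x => Iff.rfl
    have hR : ∀ (x y : ι → F) (h : y ⬝ᵥ x = 0), (∀ i, x i ∈ F₀) → (∀ i, y i ∈ F₀) → tv x y h ∈ M' := by
      intro x y h hx hy
      rw [hM'mem]
      apply hHM
      refine ⟨hmemS _ ?_, conj_mem_specialLinear (tv_mem_specialLinear x y h) P⟩
      refine mem_sup_scalars_of_entries one_ne_zero fun k l => ?_
      rw [one_mul, tv_val]
      simp only [Matrix.add_apply, Matrix.one_apply, vecMulVec_apply]
      refine F₀.add_mem ?_ (F₀.mul_mem (hx k) (hy l))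
      split_ifs
      · exact F₀.one_mem
      · exact F₀.zero_mem
    set g' := P⁻¹ * g * P with hg'
    have hg'M : g' ∈ M' := by
      rw [hM'mem, hg']
      have : P * (P⁻¹ * g * P) * P⁻¹ = g := by group
      rwa [this]
    have hg'K : g' ∉ K₀ := by
      intro hmem
      apply hgH
      refine ⟨?_, hMG hgM⟩
      have h1 := hmemS _ hmem
      have : P * g' * P⁻¹ = g := by rw [hg']; group
      rwa [this] at h1
    -- a non rational conjugate
    have hex : ∃ i j, i ≠ j ∧ ∃ k l, (g' : Matrix ι ι F) k i * ((g'⁻¹ : GL ι F) : Matrix ι ι F) j l ∉ F₀ := by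
      by_contra hcon
      push Not at hcon
      exact hg'K (mem_sup_of_rational_conj hcon)
    obtain ⟨i, j, hij, k, l, hkl⟩ := hex
    set v : ι → F := (g' : Matrix ι ι F) *ᵥ Pi.single i 1 with hv
    set f : ι → F := Pi.single j 1 ᵥ* ((g'⁻¹ : GL ι F) : Matrix ι ι F) with hf
    have hfv : f ⬝ᵥ v = 0 := by
      rw [hf, hv, Matrix.dotProduct_mulVec, Matrix.vecMul_vecMul, ← Units.val_mul, inv_mul_cancel,
        Units.val_one, Matrix.vecMul_one]
      exact single_dot_single hij 1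
    have hconj := conj_tv g' (Pi.single i 1) (Pi.single j 1) v f (single_dot_single hij (1 : F)) hfv rfl
      (by
        rw [hf, Matrix.vecMul_vecMul, ← Units.val_mul, inv_mul_cancel, Units.val_one, Matrix.vecMul_one])
    have ht : tv v f hfv ∈ M' := by
      rw [← hconj]
      refine M'.mul_mem (M'.mul_mem hg'M (hR _ _ _ (single_rat F₀.one_mem) (single_rat F₀.one_mem)))
        (M'.inv_mem hg'M)
    have hnr : ∃ a b, v a * f b ∉ F₀ := by
      refine ⟨k, l, ?_⟩
      have h1 : v k = (g' : Matrix ι ι F) k i := by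
        rw [hv]; simp
      have h2 : f l = ((g'⁻¹ : GL ι F) : Matrix ι ι F) j l := by
        rw [hf]; simp
      rwa [h1, h2]
    have hle := specialLinear_le_of_nonrational hr hcard hn hR hfv ht hnr
    intro x hx
    have h1 : P⁻¹ * x * P ∈ specialLinear ι F := by
      have := conj_mem_specialLinear hx P⁻¹
      rwa [inv_inv] at this
    have h2 := (hM'mem _).1 (hle h1)
    have h3 : P * (P⁻¹ * x * P) * P⁻¹ = x := by group
    rwa [h3] at h2

end Final

end Cfsg.Agent.Lib.SubfieldMax
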