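import Mathlib
import Cfsg.Agent.Lib.SubfieldMax
import Cfsg.Agent.Lib.SympT
import Cfsg.Agent.Lib.SympEquiv

/-!
# Subfield subgroups of the symplectic groups
-/

set_option autoImplicit false
set_option linter.unusedSectionVars false
set_option linter.unusedVariables false

namespace Cfsg.Agent.Lib.SpSubfield

open Matrix Cfsg Cfsg.Geo Cfsg.Agent.Lib.TvGL Cfsg.Agent.Lib.SympT Cfsg.Agent.Lib.SubfieldMax

local notation:70 g:71 " ⋆ " x:70 => Matrix.mulVec (Units.val g) x

section Abstract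

/-- The subfield argument for an abstract family of elementary elements. -/
theorem all_X {G : Type*} [Group G] {ι : Type} [Fintype ι] [DecidableEq ι] {F : Type*} [Field F] [Fintype F]
    {F₀ : Subfield F} {M : Subgroup G} (X : ι → ι → F → G)
    (hXmul : ∀ i j, i ≠ j → ∀ a b, X i j a * X i j b = X i j (a + b))
    (hXcomm : ∀ i j k, i ≠ j → j ≠ k → i ≠ k → ∀ a b, X i j a * X j k b * (X i j a)⁻¹ * (X j k b)⁻¹ = X i k (a * b))
    {r : ℕ} (hr : r.Prime) (hcard : Fintype.card F = Nat.card F₀ ^ r) (hn : 5 ≤ Fintype.card ι)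
    (hT : ∀ i j, i ≠ j → ∀ a ∈ F₀, X i j a ∈ M)
    {p s : ι} (hps : p ≠ s) {a : F} (ha : a ∉ F₀) (haM : X p s a ∈ M) {i j : ι} (hij : i ≠ j) (b : F) :
    X i j b ∈ M := by
  classical
  have move_right : ∀ {i j k : ι} {a : F}, i ≠ j → j ≠ k → i ≠ k → X i j a ∈ M → X i k a ∈ M := by
    intro i j k a hij hjk hik h
    have h1 := hXcomm i j k hij hjk hik a 1
    rw [mul_one] at h1
    rw [← h1]
    have h2 := hT j k hjk 1 F₀.one_mem
    exact M.mul_mem (M.mul_mem (M.mul_mem h h2) (M.inv_mem h)) (M.inv_mem h2)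
  have move_left : ∀ {i j k : ι} {a : F}, i ≠ j → k ≠ i → k ≠ j → X i j a ∈ M → X k j a ∈ M := by
    intro i j k a hij hki hkj h
    have h1 := hXcomm k i j hki hij hkj 1 a
    rw [one_mul] at h1
    rw [← h1]
    have h2 := hT k i hki 1 F₀.one_mem
    exact M.mul_mem (M.mul_mem (M.mul_mem h2 h) (M.inv_mem h2)) (M.inv_mem h)
  have move_any : ∀ {i j : ι} {a : F}, i ≠ j → X p s a ∈ M → X i j a ∈ M := by
    intro i j a hij h
    obtain ⟨x, hx⟩ := exists_fresh (ι := ι) {p, s, i, j} (lt_of_le_of_lt Finset.card_le_four (by omega))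
    simp only [Finset.mem_insert, Finset.mem_singleton, not_or] at hx
    obtain ⟨hxp, hxs, hxi, hxj⟩ := hx
    have h1 : X p x a ∈ M := move_right hps (Ne.symm hxs) (Ne.symm hxp) h
    have h2 : X i x a ∈ M := by
      by_cases hip : i = p
      · subst hip; exact h1
      · exact move_left (Ne.symm hxp) hip (Ne.symm hxi) h1
    exact move_right (Ne.symm hxi) hxj hij h2
  have hmul : ∀ x y : F, X p s x ∈ M → X p s y ∈ M → X p s (x * y) ∈ M := by
    intro x y hx hy
    obtain ⟨z, hz⟩ := exists_fresh (ι := ι) {p, s} (lt_of_le_of_lt Finset.card_le_two (by omega))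
    simp only [Finset.mem_insert, Finset.mem_singleton, not_or] at hz
    have h1 : X p z x ∈ M := move_right hps (Ne.symm hz.2) (Ne.symm hz.1) hx
    have h2 : X z s y ∈ M := move_left hps hz.1 hz.2 hy
    rw [← hXcomm p z s (Ne.symm hz.1) hz.2 hps x y]
    exact M.mul_mem (M.mul_mem (M.mul_mem h1 h2) (M.inv_mem h1)) (M.inv_mem h2)
  have hadd : ∀ x y : F, X p s x ∈ M → X p s y ∈ M → X p s (x + y) ∈ M := by
    intro x y hx hy
    rw [← hXmul p s hps]
    exact M.mul_mem hx hy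
  have hneg : ∀ x : F, X p s x ∈ M → X p s (-x) ∈ M := by
    intro x hx
    have h1 := hmul _ _ (hT p s hps (-1) (F₀.neg_mem F₀.one_mem)) hx
    simpa using h1
  let R : Subring F :=
    { carrier := {x | X p s x ∈ M}
      mul_mem' := fun {x y} hx hy => hmul x y hx hy
      one_mem' := hT p s hps 1 F₀.one_mem
      add_mem' := fun {x y} hx hy => hadd x y hx hy
      zero_mem' := hT p s hps 0 F₀.zero_mem
      neg_mem' := fun {x} hx => hneg x hx }
  let S : Subfield F :=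
    { R with
      inv_mem' := by
        intro x hx
        by_cases hx0 : x = 0
        · subst hx0
          rw [_root_.inv_zero]
          exact R.zero_mem
        · have h1 : x ^ (Fintype.card F - 1) = 1 := FiniteField.pow_card_sub_one_eq_one x hx0
          have hq : 2 ≤ Fintype.card F := Fintype.one_lt_card
          have h2 : x⁻¹ = x ^ (Fintype.card F - 2) := by
            have : Fintype.card F - 1 = (Fintype.card F - 2) + 1 := by omega
            rw [this, pow_succ] at h1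
            exact (eq_inv_of_mul_eq_one_left h1).symm
          rw [h2]
          exact R.pow_mem hx _ }
  have hSmem : ∀ x, x ∈ S ↔ X p s x ∈ M := fun x => Iff.rfl
  let E₁ : IntermediateField F₀ F := S.toIntermediateField (fun x => (hSmem _).2 (hT p s hps _ x.2))
  have hE₁ : ∀ x, x ∈ E₁ ↔ X p s x ∈ M := fun x => Iff.rfl
  have hfr : Module.finrank F₀ F = r := by
    have h1 : Nat.card F = Nat.card F₀ ^ Module.finrank F₀ F := Module.natCard_eq_pow_finrank
    rw [Nat.card_eq_fintype_card, hcard] at h1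
    exact (Nat.pow_right_injective (Finite.one_lt_card (α := F₀))) h1.symm
  have htower := Module.finrank_mul_finrank F₀ E₁ F
  rw [hfr] at htower
  have hbig : E₁ = ⊤ := by
    have hd : Module.finrank F₀ E₁ ∣ r := ⟨_, htower.symm⟩
    rcases (Nat.dvd_prime hr).mp hd with h1 | h1
    · exfalso
      have := IntermediateField.finrank_eq_one_iff.mp h1
      have haE : a ∈ E₁ := (hE₁ a).2 haM
      rw [this, IntermediateField.mem_bot] at haE
      obtain ⟨y, rfl⟩ := haE
      exact ha y.2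
    · rw [h1] at htower
      have hr0 := hr.pos
      have : Module.finrank E₁ F = 1 := by
        have h2 : r * Module.finrank E₁ F = r * 1 := by rw [htower, mul_one]
        exact Nat.eq_of_mul_eq_mul_left hr0 h2
      exact IntermediateField.finrank_eq_one_iff_eq_top.mp this
  have hb : b ∈ E₁ := by rw [hbig]; trivial
  exact move_any hij ((hE₁ b).1 hb)

end Abstract

section General

variable {ι : Type} [Fintype ι] [DecidableEq ι] {F : Type*} [Field F]
  {f : (ι → F) → (ι → F) → F} (hf : IsSymplecticForm f)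
include hf

theorem sg_symm {a b : ι → F} (hab : f a b = 0) (c : F) : sg hf a b c = sg hf b a c := by
  have hba : f b a = 0 := by rw [hf.skew, hab, neg_zero]
  apply GL_ext
  intro x
  rw [sg_apply hf hab, sg_apply hf hba]
  abel

theorem sg_smul {a b : ι → F} (hab : f a b = 0) (l m d : F) :
    sg hf (l • a) (m • b) d = sg hf a b (l * m * d) := by
  have hb := hf.bilinear
  have hab' : f (l • a) (m • b) = 0 := by
    rw [hb.smul_left, hb.smul_right, hab]; simp
  apply GL_ext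
  intro x
  rw [sg_apply hf hab', sg_apply hf hab]
  simp only [hb.smul_right]
  ext i
  simp only [Pi.add_apply, Pi.smul_apply, smul_eq_mul]
  ring

theorem sg_mul {a b : ι → F} (hab : f a b = 0) (s t : F) :
    sg hf a b s * sg hf a b t = sg hf a b (s + t) := by
  have hb := hf.bilinear
  have hba : f b a = 0 := by rw [hf.skew, hab, neg_zero]
  apply GL_ext
  intro x
  rw [mulVec_mul_GL, sg_apply hf hab, sg_apply hf hab, sg_apply hf hab]
  simp only [hb.add_left, hb.smul_left, hf.alternating, hab, hba]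
  ext i
  simp only [Pi.add_apply, Pi.smul_apply, smul_eq_mul]
  ring

theorem sg_zero {a b : ι → F} (hab : f a b = 0) : sg hf a b 0 = 1 := by
  apply GL_ext
  intro x
  rw [sg_apply hf hab]
  simp

theorem sg_inv {a b : ι → F} (hab : f a b = 0) (s : F) : (sg hf a b s)⁻¹ = sg hf a b (-s) := by
  apply inv_eq_of_mul_eq_one_right
  rw [sg_mul hf hab, add_neg_cancel, sg_zero hf hab]

theorem sg_comm {a b c d : ι → F} (hab : f a b = 0) (hac : f a c = 0) (had : f a d = 0) (hbd : f b d = 0)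
    (hcd : f c d = 0) (s t : F) :
    sg hf a b s * sg hf c d t * (sg hf a b s)⁻¹ * (sg hf c d t)⁻¹ = sg hf a d (s * t * f c b) := by
  have hb := hf.bilinear
  have hba : f b a = 0 := by rw [hf.skew, hab, neg_zero]
  have hca : f c a = 0 := by rw [hf.skew, hac, neg_zero]
  have hda : f d a = 0 := by rw [hf.skew, had, neg_zero]
  have hdb : f d b = 0 := by rw [hf.skew, hbd, neg_zero]
  have hdc : f d c = 0 := by rw [hf.skew, hcd, neg_zero]
  have hbc : f b c = - f c b := hf.skew b c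
  rw [mul_inv_eq_iff_eq_mul, mul_inv_eq_iff_eq_mul]
  apply GL_ext
  intro x
  rw [mulVec_mul_GL, mulVec_mul_GL, mulVec_mul_GL, sg_apply hf hab, sg_apply hf hcd, sg_apply hf had, sg_apply hf hcd,
    sg_apply hf hab]
  simp only [hb.add_left, hb.smul_left, hf.alternating, hab, hba, hac, hca, had, hda, hbd, hdb, hcd, hdc, hbc]
  ext i
  simp only [Pi.add_apply, Pi.smul_apply, smul_eq_mul]
  ring

theorem second_diff {y a b : ι → F} (hya : f y a = 0) (hyb : f y b = 0) (hab : f a b = 0) (d : F) :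
    tvS hf (y + a + b) d * tvS hf (y + b) (-d) * tvS hf y d * tvS hf (y + a) (-d) = sg hf a b d := by
  have hb := hf.bilinear
  have hay : f a y = 0 := by rw [hf.skew, hya, neg_zero]
  have hby : f b y = 0 := by rw [hf.skew, hyb, neg_zero]
  have hba : f b a = 0 := by rw [hf.skew, hab, neg_zero]
  apply GL_ext
  intro x
  rw [mulVec_mul_GL, mulVec_mul_GL, mulVec_mul_GL, sg_apply hf hab]
  simp only [tvS_apply]
  simp only [hb.add_left, hb.add_right, hb.smul_left, hf.alternating, hya, hyb, hab, hay, hby, hba]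
  ext i
  simp only [Pi.add_apply, Pi.smul_apply, smul_eq_mul]
  ring

/-- The form of the rank reduction for symplectic transvections. -/
theorem tvS_pow [Fintype F] {v u₁ u₂ : ι → F} (c a₁ a₂ : F) (h12 : f u₁ u₂ = 0)
    (hc : c * (a₁ * f v u₁ ^ 2 + a₂ * f v u₂ ^ 2) ≠ 0)
    (hc4 : - (c * (a₁ * f v u₁ ^ 2 + a₂ * f v u₂ ^ 2)) + 4 ≠ 0) :
    (tvS hf v c * tvS hf u₁ a₁ * tvS hf u₂ a₂) ^ (Fintype.card F ^ 2 - 1) =
      tvS hf (f v u₂ • u₁ - f v u₁ • u₂) (- (a₁ * a₂) / (a₁ * f v u₁ ^ 2 + a₂ * f v u₂ ^ 2)) := by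
  have hb := hf.bilinear
  have h21 : f u₂ u₁ = 0 := by rw [hf.skew, h12, neg_zero]
  have hu1 : f u₁ v = - f v u₁ := hf.skew u₁ v
  have hu2 : f u₂ v = - f v u₂ := hf.skew u₂ v
  set ρ₁ := f v u₁ with hρ₁
  set ρ₂ := f v u₂ with hρ₂
  set D := a₁ * ρ₁ ^ 2 + a₂ * ρ₂ ^ 2 with hD
  have hD0 : D ≠ 0 := fun h => hc (by rw [h, mul_zero])
  have hc0 : c ≠ 0 := fun h => hc (by rw [h, zero_mul])
  apply GL_ext
  intro x
  rw [Units.val_pow_eq_pow_val, tvS_apply]
  have hval : ∀ y, (((tvS hf v c * tvS hf u₁ a₁ * tvS hf u₂ a₂ : GL ι F)) : Matrix ι ι F) *ᵥ y =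
      y + (cov f u₁ ⬝ᵥ y) • (a₁ • u₁) + (cov f u₂ ⬝ᵥ y) • (a₂ • u₂) +
        ((cov f v ⬝ᵥ y) + (cov f u₁ ⬝ᵥ y) * (cov f v ⬝ᵥ (a₁ • u₁)) + (cov f u₂ ⬝ᵥ y) * (cov f v ⬝ᵥ (a₂ • u₂))) • (c • v) := by
    intro y
    rw [mulVec_mul_GL, mulVec_mul_GL]
    simp only [tvS_apply, cov_dot hb]
    simp only [hb.add_left, hb.smul_left, h12, h21, hf.alternating, hu1, hu2]
    ext i
    simp only [Pi.add_apply, Pi.smul_apply, smul_eq_mul]
    ring
  have key := pow_formula _ hval (by rw [cov_dot hb, hb.smul_left, hf.alternating, mul_zero])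
    (by rw [cov_dot hb, hb.smul_left, hf.alternating, mul_zero])
    (by rw [cov_dot hb, hb.smul_left, h21, mul_zero])
    (by rw [cov_dot hb, hb.smul_left, h12, mul_zero])
    (by rw [cov_dot hb, hb.smul_left, hf.alternating, mul_zero])
    (by
      simp only [cov_dot hb, hb.smul_left, hu1, hu2]
      rw [← hρ₁, ← hρ₂]
      intro h
      apply hc
      rw [hD]
      linear_combination -h)
    (by
      simp only [cov_dot hb, hb.smul_left, hu1, hu2]
      rw [← hρ₁, ← hρ₂]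
      intro h
      apply hc4
      rw [hD]
      linear_combination h)
    x
  rw [key]
  simp only [cov_dot hb, hb.smul_left, f_sub_right hb, hu1, hu2, hb.smul_right]
  rw [← hρ₁, ← hρ₂]
  have hden : -(a₁ * -ρ₁ * (c * ρ₁) + a₂ * -ρ₂ * (c * ρ₂))⁻¹ = (c * D)⁻¹ * (-1) * (-1) * (-1) * (-1) := by
    rw [hD]
    have : a₁ * -ρ₁ * (c * ρ₁) + a₂ * -ρ₂ * (c * ρ₂) = - (c * (a₁ * ρ₁ ^ 2 + a₂ * ρ₂ ^ 2)) := by ring
    rw [this, inv_neg, neg_neg]
    ring
  ext i
  simp only [Pi.add_apply, Pi.smul_apply, Pi.sub_apply, smul_eq_mul]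
  rw [hden]
  field_simp
  ring

end General

section Std

variable {F : Type*} [Field F] [Fintype F] {m : ℕ} {F₀ : Subfield F}

local notation "hfS" => (sympForm_isSymplectic (m := m) (F := F))

/-- The standard basis. -/
abbrev ee (a : Fin m ⊕ Fin m) : Fin m ⊕ Fin m → F := Pi.single a 1

/-- The sign in the standard form. -/
def sgn (a : Fin m ⊕ Fin m) : F := Sum.elim (fun _ => 1) (fun _ => -1) a

theorem sgn_mul_self (a : Fin m ⊕ Fin m) : (sgn a : F) * sgn a = 1 := by
  rcases a with i | i <;> simp [sgn]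

theorem sgn_ne_zero (a : Fin m ⊕ Fin m) : (sgn a : F) ≠ 0 := by
  intro h
  have := sgn_mul_self (F := F) a
  rw [h, zero_mul] at this
  exact zero_ne_one this

theorem sgn_mem (a : Fin m ⊕ Fin m) : (sgn a : F) ∈ F₀ := by
  rcases a with i | i
  · exact F₀.one_mem
  · exact F₀.neg_mem F₀.one_mem

theorem f_ee (x : Fin m ⊕ Fin m → F) (a : Fin m ⊕ Fin m) :
    sympForm m F x (ee a) = sgn a * x a.swap := by
  rcases a with i | i
  · simp [SympGen.sympForm_e_inl, sgn, ee, SympGen.e] 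
  · simp [SympGen.sympForm_e_inr, sgn, ee, SympGen.e]

theorem f_ee_ee (a b : Fin m ⊕ Fin m) :
    sympForm m F (ee a) (ee b) = if a = b.swap then sgn b else 0 := by
  rw [f_ee]
  by_cases h : a = b.swap
  · subst h; simp
  · simp [h, Ne.symm h]

theorem f_ee_ee_zero {a b : Fin m ⊕ Fin m} (h : b.swap ≠ a) : sympForm m F (ee a) (ee b) = 0 := by
  rw [f_ee_ee, if_neg (Ne.symm h)]

theorem swap_swap' (a : Fin m ⊕ Fin m) : a.swap.swap = a := Sum.swap_swap a

/-- Rational vectors. -/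
def IsRat (F₀ : Subfield F) {ι : Type} (x : ι → F) : Prop := ∀ i, x i ∈ F₀

theorem rat_ee (a : Fin m ⊕ Fin m) : IsRat F₀ (ee a : Fin m ⊕ Fin m → F) := single_rat F₀.one_mem

theorem IsRat.smul {ι : Type} {x : ι → F} (h : IsRat F₀ x) {c : F} (hc : c ∈ F₀) : IsRat F₀ (c • x) :=
  fun i => F₀.mul_mem hc (h i)

theorem IsRat.add {ι : Type} {x y : ι → F} (h : IsRat F₀ x) (h' : IsRat F₀ y) : IsRat F₀ (x + y) :=
  fun i => F₀.add_mem (h i) (h' i)

theorem IsRat.sub {ι : Type} {x y : ι → F} (h : IsRat F₀ x) (h' : IsRat F₀ y) : IsRat F₀ (x - y) :=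
  fun i => F₀.sub_mem (h i) (h' i)

theorem rat_f {x y : Fin m ⊕ Fin m → F} (hx : IsRat F₀ x) (hy : IsRat F₀ y) : sympForm m F x y ∈ F₀ := by
  rw [SympForm.sympForm_apply]
  exact F₀.sum_mem fun i _ => F₀.sub_mem (F₀.mul_mem (hx _) (hy _)) (F₀.mul_mem (hx _) (hy _))

theorem rat_cov {u : Fin m ⊕ Fin m → F} (hu : IsRat F₀ u) : IsRat F₀ (cov (sympForm m F) u) :=
  fun l => rat_f (single_rat F₀.one_mem) hu

/-- Rational transvections lie in the subfield group. -/
theorem tvS_mem_sup {u : Fin m ⊕ Fin m → F} (hu : IsRat F₀ u) {c : F} (hc : c ∈ F₀) :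
    tvS hfS u c ∈ (Matrix.GeneralLinearGroup.map (F₀.subtype : F₀ →+* F)).range ⊔ scalars (Fin m ⊕ Fin m) F := by
  refine mem_sup_scalars_of_entries one_ne_zero fun k l => ?_
  rw [one_mul]
  unfold tvS
  rw [tv_val]
  simp only [Matrix.add_apply, Matrix.one_apply, vecMulVec_apply, Pi.smul_apply, smul_eq_mul]
  refine F₀.add_mem ?_ (F₀.mul_mem (F₀.mul_mem hc (hu k)) (rat_cov hu l))
  split_ifs
  · exact F₀.one_mem
  · exact F₀.zero_mem

theorem cov_conj {g : GL (Fin m ⊕ Fin m) F} (hg : g ∈ spGL m F) (u : Fin m ⊕ Fin m → F) (l : Fin m ⊕ Fin m) :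
    cov (sympForm m F) (g ⋆ u) l = cov (sympForm m F) u ⬝ᵥ (((g⁻¹ : GL (Fin m ⊕ Fin m) F) : Matrix (Fin m ⊕ Fin m) (Fin m ⊕ Fin m) F) *ᵥ Pi.single l 1) := by
  rw [cov_dot (hfS).bilinear]
  have h1 := pres_apply hg (((g⁻¹ : GL (Fin m ⊕ Fin m) F) : Matrix (Fin m ⊕ Fin m) (Fin m ⊕ Fin m) F) *ᵥ Pi.single l 1) u
  rw [mulVec_inv_GL] at h1
  exact h1

/-- If all conjugates of rational transvections are rational, `g` lies in the subfield group. -/
theorem mem_sup_of_conj_rat (hm : 2 ≤ m) {g : GL (Fin m ⊕ Fin m) F} (hg : g ∈ spGL m F)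
    (h : ∀ u : Fin m ⊕ Fin m → F, IsRat F₀ u → ∀ k l, (g ⋆ u) k * cov (sympForm m F) (g ⋆ u) l ∈ F₀) :
    g ∈ (Matrix.GeneralLinearGroup.map (F₀.subtype : F₀ →+* F)).range ⊔ scalars (Fin m ⊕ Fin m) F := by
  classical
  have hnt : Nontrivial (Fin m ⊕ Fin m) := ⟨⟨Sum.inl ⟨0, by omega⟩, Sum.inr ⟨0, by omega⟩, by simp⟩⟩
  set G : Matrix (Fin m ⊕ Fin m) (Fin m ⊕ Fin m) F := (g : Matrix (Fin m ⊕ Fin m) (Fin m ⊕ Fin m) F) with hG
  set I : Matrix (Fin m ⊕ Fin m) (Fin m ⊕ Fin m) F := ((g⁻¹ : GL (Fin m ⊕ Fin m) F) : Matrix (Fin m ⊕ Fin m) (Fin m ⊕ Fin m) F) with hI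
  have hIG : I * G = 1 := by
    rw [hI, hG, ← Units.val_mul, inv_mul_cancel, Units.val_one]
  have hcolumn : ∀ a k, (g ⋆ (ee a : Fin m ⊕ Fin m → F)) k = G k a := by
    intro a k
    simp [hG, ee]
  have hcov : ∀ a l, cov (sympForm m F) (g ⋆ (ee a : Fin m ⊕ Fin m → F)) l = sgn a * I a.swap l := by
    intro a l
    rw [cov_conj hg, cov_dot (hfS).bilinear, f_ee]
    simp [hI]
  -- first relation
  have R1 : ∀ a k l, G k a * I a.swap l ∈ F₀ := by
    intro a k l
    have h1 := h _ (rat_ee a) k l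
    rw [hcolumn, hcov] at h1
    have h2 := F₀.mul_mem (sgn_mem (F := F) (F₀ := F₀) a) h1
    have h3 : (sgn a : F) * (G k a * (sgn a * I a.swap l)) = (sgn a * sgn a) * (G k a * I a.swap l) := by ring
    rwa [h3, sgn_mul_self, one_mul] at h2
  -- second relation
  have R2 : ∀ a b k l, sgn b * (G k a * I b.swap l) + sgn a * (G k b * I a.swap l) ∈ F₀ := by
    intro a b k l
    have h1 := h _ ((rat_ee a).add (rat_ee b)) k l
    have e1 : (g ⋆ ((ee a : Fin m ⊕ Fin m → F) + ee b)) k = G k a + G k b := by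
      rw [Matrix.mulVec_add, Pi.add_apply, hcolumn, hcolumn]
    have e2 : cov (sympForm m F) (g ⋆ ((ee a : Fin m ⊕ Fin m → F) + ee b)) l = sgn a * I a.swap l + sgn b * I b.swap l := by
      rw [cov_conj hg, cov_dot (hfS).bilinear, (hfS).bilinear.add_right, f_ee, f_ee]
      simp [hI]
    rw [e1, e2] at h1
    have h2 := F₀.mul_mem (sgn_mem (F := F) (F₀ := F₀) a) (R1 a k l)
    have h3 := F₀.mul_mem (sgn_mem (F := F) (F₀ := F₀) b) (R1 b k l)
    have h4 := F₀.sub_mem (F₀.sub_mem h1 h2) h3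
    convert h4 using 1
    ring
  apply mem_sup_of_rational_conj
  intro i j hij k l
  -- the product formula
  have hsum : ∀ a b : Fin m ⊕ Fin m, ∑ s, I a s * G s b = if a = b then 1 else 0 := by
    intro a b
    have := congrFun (congrFun hIG a) b
    rwa [Matrix.mul_apply, Matrix.one_apply] at this
  have hne : i.swap ≠ j.swap := fun h => hij (Sum.swap_leftInverse.injective h)
  have key : G k i * I j l * sgn j.swap =
      ∑ s, (G k i * I i.swap s) * (sgn j.swap * (G s i.swap * I j.swap.swap l) + sgn i.swap * (G s j.swap * I i.swap.swap l)) := by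
    have e : ∀ s, (G k i * I i.swap s) * (sgn j.swap * (G s i.swap * I j.swap.swap l) + sgn i.swap * (G s j.swap * I i.swap.swap l)) =
        (G k i * I j.swap.swap l * sgn j.swap) * (I i.swap s * G s i.swap) +
          (G k i * I i.swap.swap l * sgn i.swap) * (I i.swap s * G s j.swap) := by
      intro s
      ring
    simp only [e, Finset.sum_add_distrib, ← Finset.mul_sum, hsum]
    simp [hne, Sum.swap_swap]
  have h5 : G k i * I j l * sgn j.swap ∈ F₀ := by
    rw [key]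
    exact F₀.sum_mem fun s _ => F₀.mul_mem (R1 i k s) (R2 _ _ s l)
  have h6 := F₀.mul_mem h5 (sgn_mem (F := F) (F₀ := F₀) j.swap)
  rwa [mul_assoc, sgn_mul_self, mul_one] at h6

end Std

section Diff

variable {ι : Type} [Fintype ι] [DecidableEq ι] {F : Type*} [Field F]
  {f : (ι → F) → (ι → F) → F} (hf : IsSymplecticForm f)
include hf

theorem sg_mem_of_diff {M : Subgroup (GL ι F)} {y a b : ι → F} {d : F} (hy : tvS hf y d ∈ M)
    {g₁ g₂ : GL ι F} (hg₁ : g₁ ∈ M) (hg₁' : g₁ ∈ preserving (glToMat ι F) f) (hg₂ : g₂ ∈ M)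
    (hg₂' : g₂ ∈ preserving (glToMat ι F) f) (h1 : g₁ ⋆ y = y + a) (h2 : g₂ ⋆ y = y + b) (h3 : g₂ ⋆ a = a)
    (hya : f y a = 0) (hyb : f y b = 0) (hab : f a b = 0) : sg hf a b d ∈ M := by
  have e1 : tvS hf (y + a) d ∈ M := by
    have := M.mul_mem (M.mul_mem hg₁ hy) (M.inv_mem hg₁)
    rwa [tvS_conj hf hg₁', h1] at this
  have e2 : tvS hf (y + b) d ∈ M := by
    have := M.mul_mem (M.mul_mem hg₂ hy) (M.inv_mem hg₂)
    rwa [tvS_conj hf hg₂', h2] at this
  have e3 : tvS hf (y + a + b) d ∈ M := by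
    have := M.mul_mem (M.mul_mem hg₂ e1) (M.inv_mem hg₂)
    rw [tvS_conj hf hg₂', Matrix.mulVec_add, h2, h3] at this
    have e : y + b + a = y + a + b := by abel
    rwa [e] at this
  rw [← second_diff hf hya hyb hab d, ← tvS_inv hf (y + b), ← tvS_inv hf (y + a)]
  exact M.mul_mem (M.mul_mem (M.mul_mem e3 (M.inv_mem e2)) hy) (M.inv_mem e1)

theorem sg_one_apply {a b : ι → F} (hab : f a b = 0) (x : ι → F) :
    sg hf a b 1 ⋆ x = x + f x a • b + f x b • a := by
  rw [sg_apply hf hab, one_mul, one_mul]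

end Diff

section Core

variable {F : Type*} [Field F] [Fintype F] {m : ℕ} {F₀ : Subfield F} {M : Subgroup (GL (Fin m ⊕ Fin m) F)}

local notation "hfS" => (sympForm_isSymplectic (m := m) (F := F))

/-- The index of a basis vector. -/
def idx (a : Fin m ⊕ Fin m) : Fin m := Sum.elim id id a

@[simp] theorem idx_inl (i : Fin m) : idx (Sum.inl i : Fin m ⊕ Fin m) = i := rfl
@[simp] theorem idx_inr (i : Fin m) : idx (Sum.inr i : Fin m ⊕ Fin m) = i := rfl
@[simp] theorem idx_swap (a : Fin m ⊕ Fin m) : idx a.swap = idx a := by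
  rcases a with i | i <;> rfl

theorem eq_swap_of_idx {a c : Fin m ⊕ Fin m} (h : idx c = idx a) (hne : c ≠ a) : c = a.swap := by
  rcases a with i | i <;> rcases c with j | j
  · simp only [idx_inl] at h; subst h; exact absurd rfl hne
  · simp only [idx_inr, idx_inl] at h; subst h; rfl
  · simp only [idx_inl, idx_inr] at h; subst h; rfl
  · simp only [idx_inr] at h; subst h; exact absurd rfl hne

theorem f_idx {a b : Fin m ⊕ Fin m} (h : idx a ≠ idx b) : sympForm m F (ee a) (ee b) = 0 := by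
  apply f_ee_ee_zero
  rintro rfl
  exact h (idx_swap b)

theorem f_ee_swap' (a : Fin m ⊕ Fin m) : sympForm m F (ee a.swap) (ee a) = sgn a := by
  rw [f_ee]
  simp [swap_swap']

theorem f_ee_swap (a : Fin m ⊕ Fin m) : sympForm m F (ee a) (ee a.swap) = sgn a.swap := by
  rw [f_ee_ee, if_pos (swap_swap' a).symm]

/-- The vector with value `1` against `ee a`. -/
def pp (a : Fin m ⊕ Fin m) : Fin m ⊕ Fin m → F := (sgn a.swap : F) • ee a.swap

theorem rat_pp (a : Fin m ⊕ Fin m) : IsRat F₀ (pp a : Fin m ⊕ Fin m → F) :=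
  (rat_ee a.swap).smul (sgn_mem a.swap)

theorem f_ee_pp (a : Fin m ⊕ Fin m) : sympForm m F (ee a) (pp a) = 1 := by
  rw [pp, (hfS).bilinear.smul_right, f_ee_swap, sgn_mul_self]

theorem f_idx_pp {a b : Fin m ⊕ Fin m} (h : idx a ≠ idx b) : sympForm m F (ee a) (pp b) = 0 := by
  rw [pp, (hfS).bilinear.smul_right, f_idx (by simpa using h), mul_zero]

theorem f_pp_idx {a b : Fin m ⊕ Fin m} (h : idx a ≠ idx b) : sympForm m F (pp a) (ee b) = 0 := by
  rw [pp, (hfS).bilinear.smul_left, f_idx (by simpa using h), mul_zero]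

/-- Rational short root elements. -/
theorem sg_rat (hR : ∀ u : Fin m ⊕ Fin m → F, IsRat F₀ u → ∀ c ∈ F₀, tvS hfS u c ∈ M)
    {a b : Fin m ⊕ Fin m → F} (ha : IsRat F₀ a) (hb : IsRat F₀ b) {c : F} (hc : c ∈ F₀) : sg hfS a b c ∈ M :=
  M.mul_mem (M.mul_mem (hR _ (ha.add hb) _ hc) (hR _ ha _ (F₀.neg_mem hc))) (hR _ hb _ (F₀.neg_mem hc))

theorem exists_other_idx (hm : 2 ≤ m) (t : Fin m) : ∃ i : Fin m, i ≠ t := by
  obtain ⟨i, hi⟩ := exists_fresh (ι := Fin m) {t} (by simp; omega)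
  exact ⟨i, by simpa using hi⟩

/-- The case of a rational centre. -/
theorem exists_short_of_rat_center (hm : 3 ≤ m)
    (hR : ∀ u : Fin m ⊕ Fin m → F, IsRat F₀ u → ∀ c ∈ F₀, tvS hfS u c ∈ M)
    {u : Fin m ⊕ Fin m → F} (hu : IsRat F₀ u) {A : Fin m ⊕ Fin m} (hA : sympForm m F u (ee A) ≠ 0)
    {c : F} (hc : c ∉ F₀) (ht : tvS hfS u c ∈ M) :
    ∃ i j : Fin m, i ≠ j ∧ ∃ s, s ∉ F₀ ∧ sg hfS (ee (Sum.inl i)) (ee (Sum.inr j)) s ∈ M := by
  have hb := (hfS).bilinear
  set κ := (sympForm m F u (ee A))⁻¹ with hκ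
  have hκ0 : κ ∈ F₀ := F₀.inv_mem (rat_f hu (rat_ee A))
  set g := tvS hfS (ee A - u) κ with hg
  have hgM : g ∈ M := hR _ ((rat_ee A).sub hu) _ hκ0
  have hgu : g ⋆ u = ee A := by
    rw [hg, tvS_apply, f_sub_right hb, (hfS).alternating, sub_zero, hκ, inv_mul_cancel₀ hA, one_smul]
    abel
  have h1 : tvS hfS (ee A) c ∈ M := by
    have := M.mul_mem (M.mul_mem hgM ht) (M.inv_mem hgM)
    rwa [tvS_conj hfS (tvS_pres hfS _ _), hgu] at this
  obtain ⟨i, hi⟩ := exists_fresh (ι := Fin m) {idx A} (by simp; omega)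
  obtain ⟨j, hj⟩ := exists_fresh (ι := Fin m) {idx A, i} (lt_of_le_of_lt Finset.card_le_two (by simp; omega))
  simp only [Finset.mem_singleton, Finset.mem_insert, not_or] at hi hj
  set x : Fin m ⊕ Fin m → F := ee (Sum.inl i) with hx
  set w : Fin m ⊕ Fin m → F := ee (Sum.inr j) with hw
  have h2 : sympForm m F (pp A) x = 0 := f_pp_idx (by simpa using Ne.symm hi)
  have h3 : sympForm m F (pp A) w = 0 := f_pp_idx (by simpa using Ne.symm hj.1)
  have h4 : sympForm m F (ee A) x = 0 := f_idx (by simpa using Ne.symm hi)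
  have h5 : sympForm m F (ee A) w = 0 := f_idx (by simpa using Ne.symm hj.1)
  have h6 : sympForm m F x (pp A) = 0 := by
    rw [(hfS).skew, h2, neg_zero]
  have h7 : sympForm m F x w = 0 := f_idx (by simpa using Ne.symm hj.2)
  refine ⟨i, j, Ne.symm hj.2, c, hc, ?_⟩
  refine sg_mem_of_diff hfS (g₁ := sg hfS (pp A) x 1) (g₂ := sg hfS (pp A) w 1) h1
    (sg_rat hR (rat_pp A) (rat_ee _) F₀.one_mem) (sg_pres hfS _ _ _)
    (sg_rat hR (rat_pp A) (rat_ee _) F₀.one_mem) (sg_pres hfS _ _ _) ?_ ?_ ?_ h4 h5 h7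
  · rw [sg_one_apply hfS h2, f_ee_pp, h4, one_smul, zero_smul, add_zero]
  · rw [sg_one_apply hfS h3, f_ee_pp, h5, one_smul, zero_smul, add_zero]
  · rw [sg_one_apply hfS h3, h6, h7]
    simp

/-- The case of a centre in general position: two commuting coordinates. -/
theorem exists_short_of_pair (hm : 4 ≤ m)
    (hR : ∀ u : Fin m ⊕ Fin m → F, IsRat F₀ u → ∀ c ∈ F₀, tvS hfS u c ∈ M)
    {v : Fin m ⊕ Fin m → F} {A B : Fin m ⊕ Fin m} (hAB : idx A ≠ idx B)
    (hρA : sympForm m F v (ee A) ≠ 0) (hρB : sympForm m F v (ee B) ≠ 0)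
    (hρ : sympForm m F v (ee B) / sympForm m F v (ee A) ∉ F₀) (ht : tvS hfS v 1 ∈ M) :
    ∃ i j : Fin m, i ≠ j ∧ ∃ s, s ∉ F₀ ∧ sg hfS (ee (Sum.inl i)) (ee (Sum.inr j)) s ∈ M := by
  have hb := (hfS).bilinear
  set ρ₁ := sympForm m F v (ee A) with hρ₁
  set ρ₂ := sympForm m F v (ee B) with hρ₂
  have h12 : sympForm m F (ee A) (ee B) = 0 := f_idx hAB
  have hne : ρ₁ ^ 2 - ρ₂ ^ 2 ≠ 0 := by
    intro h0
    have h5 : (ρ₁ - ρ₂) * (ρ₁ + ρ₂) = 0 := by linear_combination h0
    apply hρ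
    rcases mul_eq_zero.mp h5 with h6 | h6
    · rw [show ρ₂ = ρ₁ by linear_combination -h6, div_self hρA]
      exact F₀.one_mem
    · rw [show ρ₂ = - ρ₁ by linear_combination h6, neg_div, div_self hρA]
      exact F₀.neg_mem F₀.one_mem
  -- the sign
  obtain ⟨ε, hε, hε2, hε4⟩ : ∃ ε : F, ε ∈ F₀ ∧ ε * ε = 1 ∧ - (ε * (ρ₁ ^ 2 - ρ₂ ^ 2)) + 4 ≠ 0 := by
    by_cases h4 : - (ρ₁ ^ 2 - ρ₂ ^ 2) + 4 = 0
    · refine ⟨-1, F₀.neg_mem F₀.one_mem, by ring, ?_⟩
      intro h5
      have h6 : (2 : F) ^ 3 = 0 := by linear_combination h5 + h4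
      have h7 : (2 : F) = 0 := pow_eq_zero_iff (by norm_num) |>.mp h6
      apply hne
      linear_combination - h4 + 2 * h7
    · exact ⟨1, F₀.one_mem, by ring, by rwa [one_mul]⟩
  have hε0 : ε ≠ 0 := by
    rintro rfl
    simp at hε2
  have hD : 1 * (ε * ρ₁ ^ 2 + (-ε) * ρ₂ ^ 2) = ε * (ρ₁ ^ 2 - ρ₂ ^ 2) := by ring
  have hpow := tvS_pow hfS (v := v) (u₁ := ee A) (u₂ := ee B) 1 ε (-ε) h12
    (by rw [← hρ₁, ← hρ₂, hD]; exact mul_ne_zero hε0 hne)
    (by rw [← hρ₁, ← hρ₂, hD]; exact hε4)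
  rw [← hρ₁, ← hρ₂] at hpow
  set d := - (ε * -ε) / (ε * ρ₁ ^ 2 + -ε * ρ₂ ^ 2) with hd
  have hd0 : d ≠ 0 := by
    rw [hd]
    apply div_ne_zero
    · rw [show -(ε * -ε) = ε * ε by ring, hε2]
      exact one_ne_zero
    · rw [show ε * ρ₁ ^ 2 + -ε * ρ₂ ^ 2 = ε * (ρ₁ ^ 2 - ρ₂ ^ 2) by ring]
      exact mul_ne_zero hε0 hne
  set y : Fin m ⊕ Fin m → F := ρ₂ • ee A - ρ₁ • ee B with hy
  have hz : tvS hfS y d ∈ M := by
    rw [← hpow]
    exact M.pow_mem (M.mul_mem (M.mul_mem ht (hR _ (rat_ee A) _ hε)) (hR _ (rat_ee B) _ (F₀.neg_mem hε))) _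
  obtain ⟨i, hi⟩ := exists_fresh (ι := Fin m) {idx A, idx B} (lt_of_le_of_lt Finset.card_le_two (by simp; omega))
  obtain ⟨j, hj⟩ := exists_fresh (ι := Fin m) {idx A, idx B, i} (lt_of_le_of_lt Finset.card_le_three (by simp; omega))
  simp only [Finset.mem_singleton, Finset.mem_insert, not_or] at hi hj
  set x : Fin m ⊕ Fin m → F := ee (Sum.inl i) with hx
  set w : Fin m ⊕ Fin m → F := ee (Sum.inr j) with hw
  have hfy : ∀ z, sympForm m F y z = ρ₂ * sympForm m F (ee A) z - ρ₁ * sympForm m F (ee B) z := by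
    intro z
    rw [hy, f_sub_left hb, hb.smul_left, hb.smul_left]
  have hAx : sympForm m F (ee A) x = 0 := f_idx (by simpa using Ne.symm hi.1)
  have hBx : sympForm m F (ee B) x = 0 := f_idx (by simpa using Ne.symm hi.2)
  have hAw : sympForm m F (ee A) w = 0 := f_idx (by simpa using Ne.symm hj.1)
  have hBw : sympForm m F (ee B) w = 0 := f_idx (by simpa using Ne.symm hj.2.1)
  have hyx : sympForm m F y x = 0 := by rw [hfy, hAx, hBx]; simp
  have hyw : sympForm m F y w = 0 := by rw [hfy, hAw, hBw]; simp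
  have hpBx : sympForm m F (pp B) x = 0 := f_pp_idx (by simpa using Ne.symm hi.2)
  have hpBw : sympForm m F (pp B) w = 0 := f_pp_idx (by simpa using Ne.symm hj.2.1)
  have hpAw : sympForm m F (pp A) w = 0 := f_pp_idx (by simpa using Ne.symm hj.1)
  have hxw : sympForm m F x w = 0 := f_idx (by simpa using Ne.symm hj.2.2)
  have hxpB : sympForm m F x (pp B) = 0 := by rw [(hfS).skew, hpBx, neg_zero]
  have hxpA : sympForm m F x (pp A) = 0 := by
    have : sympForm m F (pp A) x = 0 := f_pp_idx (by simpa using Ne.symm hi.1)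
    rw [(hfS).skew, this, neg_zero]
  have hypB : sympForm m F y (pp B) = - ρ₁ := by
    rw [hfy, f_idx_pp hAB, f_ee_pp]; ring
  have hypA : sympForm m F y (pp A) = ρ₂ := by
    rw [hfy, f_idx_pp hAB.symm, f_ee_pp]; ring
  set a : Fin m ⊕ Fin m → F := (-ρ₁) • x with ha
  have hax : ∀ z, sympForm m F a z = (-ρ₁) * sympForm m F x z := fun z => by rw [ha, hb.smul_left]
  have hg1 : sg hfS (pp B) x 1 ⋆ y = y + a := by
    rw [sg_one_apply hfS hpBx, hypB, hyx, zero_smul, add_zero]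
  have hg2 : sg hfS (pp B) w 1 ⋆ y = y + (-ρ₁) • w := by
    rw [sg_one_apply hfS hpBw, hypB, hyw, zero_smul, add_zero]
  have hg3 : sg hfS (pp A) w 1 ⋆ y = y + ρ₂ • w := by
    rw [sg_one_apply hfS hpAw, hypA, hyw, zero_smul, add_zero]
  have hg2a : sg hfS (pp B) w 1 ⋆ a = a := by
    rw [sg_one_apply hfS hpBw, hax, hax, hxpB, hxw]
    simp
  have hg3a : sg hfS (pp A) w 1 ⋆ a = a := by
    rw [sg_one_apply hfS hpAw, hax, hax, hxpA, hxw]
    simp
  have hya : sympForm m F y a = 0 := by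
    rw [ha, hb.smul_right, hyx, mul_zero]
  have hab : sympForm m F a ((-ρ₁) • w) = 0 := by
    rw [hb.smul_right, hax, hxw]; simp
  have hab' : sympForm m F a (ρ₂ • w) = 0 := by
    rw [hb.smul_right, hax, hxw]; simp
  have r1 : sg hfS a ((-ρ₁) • w) d ∈ M := sg_mem_of_diff hfS hz
    (sg_rat hR (rat_pp B) (rat_ee _) F₀.one_mem) (sg_pres hfS _ _ _)
    (sg_rat hR (rat_pp B) (rat_ee _) F₀.one_mem) (sg_pres hfS _ _ _) hg1 hg2 hg2a hya
    (by rw [hb.smul_right, hyw, mul_zero]) hab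
  have r2 : sg hfS a (ρ₂ • w) d ∈ M := sg_mem_of_diff hfS hz
    (sg_rat hR (rat_pp B) (rat_ee _) F₀.one_mem) (sg_pres hfS _ _ _)
    (sg_rat hR (rat_pp A) (rat_ee _) F₀.one_mem) (sg_pres hfS _ _ _) hg1 hg3 hg3a hya
    (by rw [hb.smul_right, hyw, mul_zero]) hab'
  rw [ha, sg_smul hfS hxw] at r1 r2
  by_cases hs1 : -ρ₁ * -ρ₁ * d ∈ F₀
  · by_cases hs2 : -ρ₁ * ρ₂ * d ∈ F₀
    · exfalso
      apply hρ
      have e : ρ₂ / ρ₁ = - ((-ρ₁ * ρ₂ * d) / (-ρ₁ * -ρ₁ * d)) := by
        field_simp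
      rw [e]
      exact F₀.neg_mem (F₀.div_mem hs2 hs1)
    · exact ⟨i, j, Ne.symm hj.2.2, _, hs2, r2⟩
  · exact ⟨i, j, Ne.symm hj.2.2, _, hs1, r1⟩

end Core

section Core2

variable {F : Type*} [Field F] [Fintype F] {m : ℕ} {F₀ : Subfield F} {M : Subgroup (GL (Fin m ⊕ Fin m) F)}

local notation "hfS" => (sympForm_isSymplectic (m := m) (F := F))

/-- Finding commuting coordinates, after a rational change. -/
theorem exists_pair (hm : 2 ≤ m)
    (hR : ∀ u : Fin m ⊕ Fin m → F, IsRat F₀ u → ∀ c ∈ F₀, tvS hfS u c ∈ M)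
    {v : Fin m ⊕ Fin m → F} {A B : Fin m ⊕ Fin m}
    (hρA : sympForm m F v (ee A) ≠ 0) (hρB : sympForm m F v (ee B) ≠ 0)
    (hρ : sympForm m F v (ee B) / sympForm m F v (ee A) ∉ F₀) (ht : tvS hfS v 1 ∈ M) :
    ∃ (v' : Fin m ⊕ Fin m → F) (A' B' : Fin m ⊕ Fin m), idx A' ≠ idx B' ∧ sympForm m F v' (ee A') ≠ 0 ∧
      sympForm m F v' (ee B') ≠ 0 ∧ sympForm m F v' (ee B') / sympForm m F v' (ee A') ∉ F₀ ∧
        tvS hfS v' 1 ∈ M := by
  have hb := (hfS).bilinear
  by_cases hidx : idx A = idx B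
  swap
  · exact ⟨v, A, B, hidx, hρA, hρB, hρ, ht⟩
  obtain ⟨t, ht'⟩ := exists_other_idx hm (idx A)
  by_cases hc : sympForm m F v (ee (Sum.inl t)) ≠ 0 ∨ sympForm m F v (ee (Sum.inr t)) ≠ 0
  · -- a third non-zero coordinate
    obtain ⟨c, hct, hcne⟩ : ∃ c : Fin m ⊕ Fin m, idx c = t ∧ sympForm m F v (ee c) ≠ 0 := by
      rcases hc with h | h
      · exact ⟨_, rfl, h⟩
      · exact ⟨_, rfl, h⟩
    by_cases h1 : sympForm m F v (ee c) / sympForm m F v (ee A) ∈ F₀
    · refine ⟨v, B, c, ?_, hρB, hcne, ?_, ht⟩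
      · rw [hct, ← hidx]; exact Ne.symm ht'
      · intro h2
        apply hρ
        have e : sympForm m F v (ee B) / sympForm m F v (ee A) =
            (sympForm m F v (ee c) / sympForm m F v (ee A)) / (sympForm m F v (ee c) / sympForm m F v (ee B)) := by
          field_simp
        rw [e]
        exact F₀.div_mem h1 h2
    · exact ⟨v, A, c, by rw [hct]; exact Ne.symm ht', hρA, hcne, h1, ht⟩
  · -- the vector lies in a hyperbolic plane
    push Not at hc
    set c : Fin m ⊕ Fin m := Sum.inl t with hc'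
    have h1 : sympForm m F (ee c) (ee A) = 0 := f_idx (by rw [hc']; exact ht')
    have hc2 : sympForm m F v (ee c.swap) = 0 := hc.2
    have hg := sg_rat (F₀ := F₀) hR (rat_ee c) (rat_ee A) F₀.one_mem
    set g := sg hfS (ee c) (ee A) 1 with hgdef
    have hgv : g ⋆ v = v + sympForm m F v (ee A) • ee c := by
      rw [hgdef, sg_one_apply hfS h1, hc.1, zero_smul, add_zero]
    have ht2 : tvS hfS (g ⋆ v) 1 ∈ M := by
      have := M.mul_mem (M.mul_mem hg ht) (M.inv_mem hg)
      rwa [tvS_conj hfS (sg_pres hfS _ _ _)] at this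
    refine ⟨g ⋆ v, B, c.swap, ?_, ?_, ?_, ?_, ht2⟩
    · rw [idx_swap, ← hidx, hc']
      exact Ne.symm ht'
    · rw [hgv, hb.add_left, hb.smul_left, f_idx (a := c) (b := B) (by rw [← hidx, hc']; exact ht'), mul_zero, add_zero]
      exact hρB
    · rw [hgv, hb.add_left, hb.smul_left, f_ee_swap, hc2, zero_add]
      exact mul_ne_zero hρA (sgn_ne_zero _)
    · rw [hgv, hb.add_left, hb.add_left, hb.smul_left, hb.smul_left, f_ee_swap, hc2, zero_add,
        f_idx (a := c) (b := B) (by rw [← hidx, hc']; exact ht'), mul_zero, add_zero]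
      intro h2
      apply hρ
      have e : sympForm m F v (ee B) / sympForm m F v (ee A) =
          (sgn c.swap : F) / (sympForm m F v (ee A) * sgn c.swap / sympForm m F v (ee B)) := by
        have := sgn_ne_zero (F := F) c.swap
        field_simp
      rw [e]
      exact F₀.div_mem (sgn_mem _) h2

/-- From a non rational transvection to a non rational short root element. -/
theorem exists_short (hm : 4 ≤ m)
    (hR : ∀ u : Fin m ⊕ Fin m → F, IsRat F₀ u → ∀ c ∈ F₀, tvS hfS u c ∈ M)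
    {v : Fin m ⊕ Fin m → F} (ht : tvS hfS v 1 ∈ M)
    (hnr : ∃ k l, v k * cov (sympForm m F) v l ∉ F₀) :
    ∃ i j : Fin m, i ≠ j ∧ ∃ s, s ∉ F₀ ∧ sg hfS (ee (Sum.inl i)) (ee (Sum.inr j)) s ∈ M := by
  have hb := (hfS).bilinear
  obtain ⟨k, l, hkl⟩ := hnr
  by_cases hrat : ∃ a, v a ≠ 0 ∧ ∀ b, v b / v a ∈ F₀
  · obtain ⟨a, ha, hab⟩ := hrat
    set lam := v a with hlam
    set u : Fin m ⊕ Fin m → F := lam⁻¹ • v with hu
    have hur : IsRat F₀ u := by
      intro b
      have := hab b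
      simpa [hu, div_eq_inv_mul] using this
    have hvu : v = lam • u := by
      rw [hu, smul_smul, mul_inv_cancel₀ ha, one_smul]
    have hua : u a = 1 := by
      simp [hu, ← hlam, ha]
    have ht' : tvS hfS u (lam ^ 2 * 1) ∈ M := by
      rw [← tvS_smul, ← hvu]
      exact ht
    refine exists_short_of_rat_center (by omega) hR hur (A := a.swap) ?_ ?_ ht'
    · rw [f_ee, swap_swap', hua, mul_one]
      exact sgn_ne_zero _
    · intro hmem
      apply hkl
      have e1 : cov (sympForm m F) v l = lam * cov (sympForm m F) u l := by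
        have : cov (sympForm m F) (lam • u) l = lam * cov (sympForm m F) u l := by
          simp only [cov, hb.smul_right]
        rwa [← hvu] at this
      have e2 : v k = lam * u k := by
        have := congrFun hvu k
        simpa using this
      rw [e1, e2]
      have e3 : lam * u k * (lam * cov (sympForm m F) u l) = (lam ^ 2 * 1) * (u k * cov (sympForm m F) u l) := by ring
      rw [e3]
      exact F₀.mul_mem hmem (F₀.mul_mem (hur k) (rat_cov hur l))
  · push Not at hrat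
    have hvk : v k ≠ 0 := by
      intro h0
      rw [h0, zero_mul] at hkl
      exact hkl F₀.zero_mem
    obtain ⟨b, hb'⟩ := hrat k hvk
    have hvb : v b ≠ 0 := by
      intro h0
      rw [h0, zero_div] at hb'
      exact hb' F₀.zero_mem
    have hfa : ∀ x : Fin m ⊕ Fin m, sympForm m F v (ee x.swap) = sgn x.swap * v x := by
      intro x
      rw [f_ee, swap_swap']
    obtain ⟨v', A', B', h1, h2, h3, h4, h5⟩ := exists_pair (F₀ := F₀) (by omega) hR (A := k.swap) (B := b.swap)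
      (by rw [hfa]; exact mul_ne_zero (sgn_ne_zero _) hvk)
      (by rw [hfa]; exact mul_ne_zero (sgn_ne_zero _) hvb)
      (by
        rw [hfa, hfa]
        intro hmem
        apply hb'
        have e : v b / v k = (sgn k.swap / sgn b.swap : F) * (sgn b.swap * v b / (sgn k.swap * v k)) := by
          have h1 := sgn_ne_zero (F := F) k.swap
          have h2 := sgn_ne_zero (F := F) b.swap
          field_simp
        rw [e]
        exact F₀.mul_mem (F₀.div_mem (sgn_mem _) (sgn_mem _)) hmem) ht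
    exact exists_short_of_pair hm hR h1 h2 h3 h4 h5

end Core2

section Core3

variable {F : Type*} [Field F] [Fintype F] {m : ℕ} {F₀ : Subfield F} {M : Subgroup (GL (Fin m ⊕ Fin m) F)}

local notation "hfS" => (sympForm_isSymplectic (m := m) (F := F))

/-- The Levi elementary elements. -/
noncomputable def XX (i j : Fin m) (s : F) : GL (Fin m ⊕ Fin m) F :=
  sg hfS (ee (Sum.inl i)) (ee (Sum.inr j)) (-s)

theorem XX_mul {i j : Fin m} (h : i ≠ j) (a b : F) : XX i j a * XX i j b = XX i j (a + b) := by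
  unfold XX
  rw [sg_mul hfS (f_idx (by simpa using h))]
  congr 1
  ring

theorem XX_comm {i j k : Fin m} (hij : i ≠ j) (hjk : j ≠ k) (hik : i ≠ k) (a b : F) :
    XX i j a * XX j k b * (XX i j a)⁻¹ * (XX j k b)⁻¹ = XX i k (a * b) := by
  unfold XX
  rw [sg_comm hfS (f_idx (by simpa using hij)) (f_idx (by simpa using hij)) (f_idx (by simpa using hik))
    (f_idx (by simpa using hjk)) (f_idx (by simpa using hjk))]
  congr 1
  have : sympForm m F (ee (Sum.inl j)) (ee (Sum.inr j)) = -1 := by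
    have := f_ee_swap (m := m) (F := F) (Sum.inl j)
    simpa [sgn] using this
  rw [this]
  ring

theorem all_levi (hm : 5 ≤ m) {r : ℕ} (hr : r.Prime) (hcard : Fintype.card F = Nat.card F₀ ^ r)
    (hR : ∀ u : Fin m ⊕ Fin m → F, IsRat F₀ u → ∀ c ∈ F₀, tvS hfS u c ∈ M)
    (h : ∃ i j : Fin m, i ≠ j ∧ ∃ s, s ∉ F₀ ∧ sg hfS (ee (Sum.inl i)) (ee (Sum.inr j)) s ∈ M)
    {i j : Fin m} (hij : i ≠ j) (s : F) : sg hfS (ee (Sum.inl i)) (ee (Sum.inr j)) s ∈ M := by
  obtain ⟨p, q, hpq, s₀, hs₀, hM⟩ := h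
  have := all_X (F₀ := F₀) (M := M) (XX (m := m) (F := F))
    (fun i j h a b => XX_mul h a b) (fun i j k h1 h2 h3 a b => XX_comm h1 h2 h3 a b) hr hcard (by simpa using hm)
    (fun i j h a ha => sg_rat hR (rat_ee _) (rat_ee _) (F₀.neg_mem ha)) hpq (a := -s₀)
    (fun hmem => hs₀ (by simpa using F₀.neg_mem hmem)) (by unfold XX; rwa [neg_neg]) hij (-s)
  unfold XX at this
  rwa [neg_neg] at this

theorem all_short (hm : 5 ≤ m)
    (hR : ∀ u : Fin m ⊕ Fin m → F, IsRat F₀ u → ∀ c ∈ F₀, tvS hfS u c ∈ M)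
    (hL : ∀ i j : Fin m, i ≠ j → ∀ s, sg hfS (ee (Sum.inl i)) (ee (Sum.inr j)) s ∈ M)
    {a b : Fin m ⊕ Fin m} (hab : idx a ≠ idx b) (s : F) : sg hfS (ee a) (ee b) s ∈ M := by
  rcases a with i | i <;> rcases b with j | j
  · have hij : i ≠ j := by simpa using hab
    obtain ⟨k, hk⟩ := exists_fresh (ι := Fin m) {i, j} (lt_of_le_of_lt Finset.card_le_two (by simp; omega))
    simp only [Finset.mem_singleton, Finset.mem_insert, not_or] at hk
    have h1 := hL i k (Ne.symm hk.1) (-s)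
    have h2 := sg_rat (F₀ := F₀) hR (rat_ee (Sum.inl k)) (rat_ee (Sum.inl j)) F₀.one_mem
    have h3 := M.mul_mem (M.mul_mem (M.mul_mem h1 h2) (M.inv_mem h1)) (M.inv_mem h2)
    rw [sg_comm hfS (f_idx (by simpa using Ne.symm hk.1)) (f_idx (by simpa using Ne.symm hk.1))
      (f_idx (by simpa using hij)) (f_idx (by simpa using hk.2)) (f_idx (by simpa using hk.2))] at h3
    have : sympForm m F (ee (Sum.inl k)) (ee (Sum.inr k)) = -1 := by
      have := f_ee_swap (m := m) (F := F) (Sum.inl k)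
      simpa [sgn] using this
    rw [this] at h3
    convert h3 using 2
    ring
  · exact hL i j (by simpa using hab) s
  · rw [sg_symm hfS (f_idx hab)]
    exact hL j i (by simpa using Ne.symm hab) s
  · have hij : i ≠ j := by simpa using hab
    obtain ⟨k, hk⟩ := exists_fresh (ι := Fin m) {i, j} (lt_of_le_of_lt Finset.card_le_two (by simp; omega))
    simp only [Finset.mem_singleton, Finset.mem_insert, not_or] at hk
    have h1 : sg hfS (ee (Sum.inr i)) (ee (Sum.inl k)) s ∈ M := by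
      rw [sg_symm hfS (f_idx (by simpa using Ne.symm hk.1))]
      exact hL k i hk.1 s
    have h2 := sg_rat (F₀ := F₀) hR (rat_ee (Sum.inr k)) (rat_ee (Sum.inr j)) F₀.one_mem
    have h3 := M.mul_mem (M.mul_mem (M.mul_mem h1 h2) (M.inv_mem h1)) (M.inv_mem h2)
    rw [sg_comm hfS (f_idx (by simpa using Ne.symm hk.1)) (f_idx (by simpa using Ne.symm hk.1))
      (f_idx (by simpa using hij)) (f_idx (by simpa using hk.2)) (f_idx (by simpa using hk.2))] at h3
    have : sympForm m F (ee (Sum.inr k)) (ee (Sum.inl k)) = 1 := by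
      have := f_ee_swap (m := m) (F := F) (Sum.inr k)
      simpa [sgn] using this
    rw [this] at h3
    convert h3 using 2
    ring

theorem ee_mem_TS (hm : 2 ≤ m)
    (hR : ∀ u : Fin m ⊕ Fin m → F, IsRat F₀ u → ∀ c ∈ F₀, tvS hfS u c ∈ M)
    (hS : ∀ {a b : Fin m ⊕ Fin m}, idx a ≠ idx b → ∀ s, sg hfS (ee a) (ee b) s ∈ M)
    (a : Fin m ⊕ Fin m) : (ee a : Fin m ⊕ Fin m → F) ∈ TS hfS M := by
  classical
  have hb' := (hfS).bilinear
  obtain ⟨t, ht⟩ := exists_other_idx hm (idx a)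
  set b : Fin m ⊕ Fin m := Sum.inl t with hb
  have hba : idx b ≠ idx a := ht
  have hsq : ∀ s : F, tvS hfS (ee a) (-(s ^ 2)) ∈ M := by
    intro s
    set s₁ := s * sgn b.swap with hs₁
    have hss : s₁ * sgn b.swap = s := by rw [hs₁, mul_assoc, sgn_mul_self, mul_one]
    have hg := hS (a := a) (b := b.swap) (by simpa using hba.symm) s₁
    have hpres := sg_pres hfS (ee a : Fin m ⊕ Fin m → F) (ee b.swap) s₁
    have h1 : sympForm m F (ee a) (ee b.swap) = 0 := f_idx (by simpa using hba.symm)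
    have hgb : sg hfS (ee a) (ee b.swap) s₁ ⋆ (ee b : Fin m ⊕ Fin m → F) = ee b + s • ee a := by
      rw [sg_apply hfS h1, f_idx hba, f_ee_swap, hss]
      simp
    have h2 : tvS hfS (ee b + s • ee a) 1 ∈ M := by
      have := M.mul_mem (M.mul_mem hg (hR _ (rat_ee b) 1 F₀.one_mem)) (M.inv_mem hg)
      rwa [tvS_conj hfS hpres, hgb] at this
    have h3 : sg hfS (ee b) (s • ee a) 1 ∈ M := by
      have e : sg hfS (ee b) (s • ee a) 1 = sg hfS ((1 : F) • ee b) (s • ee a) 1 := by rw [one_smul]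
      rw [e, sg_smul hfS (f_idx hba)]
      exact hS hba _
    have h4 : tvS hfS (s • ee a) (-1) ∈ M := by
      have e : sg hfS (ee b) (s • ee a) 1 = tvS hfS (ee b + s • ee a) 1 * tvS hfS (ee b) (-1) * tvS hfS (s • ee a) (-1) := rfl
      rw [e] at h3
      have h5 := M.mul_mem (M.inv_mem (M.mul_mem h2 (hR _ (rat_ee b) (-1) (F₀.neg_mem F₀.one_mem)))) h3
      rwa [inv_mul_cancel_left] at h5
    rw [tvS_smul] at h4
    convert h4 using 2
    ring
  intro c
  have hsq' : ∀ s : F, tvS hfS (ee a) (s ^ 2) ∈ M := by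
    intro s
    have := M.inv_mem (hsq s)
    rwa [tvS_inv, neg_neg] at this
  by_cases h2 : (2 : F) = 0
  · have hch : ringChar F = 2 := CharP.ringChar_of_prime_eq_zero Nat.prime_two (by exact_mod_cast h2)
    obtain ⟨s, hs⟩ := FiniteField.isSquare_of_char_two hch c
    have := hsq' s
    rwa [pow_two, ← hs] at this
  · set x := c / 2 with hx
    have e : c = (x + 1) ^ 2 + (-(x ^ 2)) + (-(1 ^ 2)) := by
      have : c = 2 * x := by rw [hx]; field_simp
      rw [this]
      ring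
    rw [e, ← tvS_add, ← tvS_add]
    exact M.mul_mem (M.mul_mem (hsq' _) (hsq _)) (hsq _)

theorem mem_TS (hm : 2 ≤ m)
    (hR : ∀ u : Fin m ⊕ Fin m → F, IsRat F₀ u → ∀ c ∈ F₀, tvS hfS u c ∈ M)
    (hS : ∀ {a b : Fin m ⊕ Fin m}, idx a ≠ idx b → ∀ s, sg hfS (ee a) (ee b) s ∈ M)
    (v : Fin m ⊕ Fin m → F) : v ∈ TS hfS M := by
  classical
  have hb' := (hfS).bilinear
  have hT := ee_mem_TS (F₀ := F₀) hm hR hS
  by_cases hv : v = 0
  · rw [hv]
    exact TS_zero hfS
  obtain ⟨a₀, ha₀⟩ : ∃ a₀, v a₀ ≠ 0 := by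
    by_contra hcon
    push Not at hcon
    exact hv (funext hcon)
  set a := a₀.swap with ha
  have hfv : sympForm m F v (ee a) ≠ 0 := by
    rw [f_ee, ha, swap_swap']
    exact mul_ne_zero (sgn_ne_zero _) ha₀
  set lam := sympForm m F v (ee a) with hlam
  set v' : Fin m ⊕ Fin m → F := lam⁻¹ • v with hv'
  have hv'a : sympForm m F v' (ee a) = 1 := by
    rw [hv', hb'.smul_left, ← hlam, inv_mul_cancel₀ hfv]
  have hv'swap : v' a.swap = sgn a := by
    rw [f_ee] at hv'a
    have h1 : (sgn a : F) * (sgn a * v' a.swap) = sgn a := by rw [hv'a, mul_one]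
    rwa [← mul_assoc, sgn_mul_self, one_mul] at h1
  set E0 : Fin m ⊕ Fin m → F := (sgn a : F) • ee a.swap with hE0
  have hswapne : a.swap ≠ a := by
    rcases a with i | i <;> simp
  have hchain : ∀ T : Finset (Fin m ⊕ Fin m), (∀ b ∈ T, idx b ≠ idx a) →
      ∃ κ : F, E0 + ∑ b ∈ T, v' b • ee b + κ • ee a ∈ TS hfS M := by
    intro T
    induction T using Finset.induction_on with
    | empty =>
      intro _
      refine ⟨0, ?_⟩
      simp only [Finset.sum_empty, add_zero, zero_smul]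
      exact TS_smul hfS (hT _) _
    | insert b T hbT ih =>
      intro hT'
      obtain ⟨κ, hκ⟩ := ih fun c hc => hT' c (Finset.mem_insert_of_mem hc)
      have hba : idx a ≠ idx b := Ne.symm (hT' b (Finset.mem_insert_self _ _))
      set w := E0 + ∑ b ∈ T, v' b • ee b + κ • ee a with hw
      have hwa : sympForm m F w (ee a) = 1 := by
        rw [f_ee]
        have h1 : w a.swap = sgn a := by
          have h2 : (∑ c ∈ T, v' c • (ee c : Fin m ⊕ Fin m → F)) a.swap = 0 := by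
            rw [Finset.sum_apply]
            apply Finset.sum_eq_zero
            intro c hc
            have h3 : c ≠ a.swap := by
              rintro rfl
              exact hT' _ (Finset.mem_insert_of_mem hc) (idx_swap a)
            simp [Pi.single_apply, Ne.symm h3]
          rw [hw, Pi.add_apply, Pi.add_apply, h2, hE0]
          simp [Pi.single_apply, hswapne]
        rw [h1, sgn_mul_self]
      have h5 := TS_conj hfS (hS (a := a) (b := b) hba (v' b)) (sg_pres hfS _ _ _) hκ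
      rw [sg_apply hfS (f_idx hba), hwa, mul_one] at h5
      refine ⟨κ + v' b * sympForm m F w (ee b), ?_⟩
      rw [Finset.sum_insert hbT]
      convert h5 using 1
      rw [hw, add_smul]
      abel
  obtain ⟨κ, hκ⟩ := hchain (Finset.univ.filter fun b => idx b ≠ idx a) (fun b hb => (Finset.mem_filter.mp hb).2)
  set w := E0 + ∑ b ∈ Finset.univ.filter (fun b => idx b ≠ idx a), v' b • ee b + κ • ee a with hw
  have hfwa : sympForm m F w (ee a) = 1 := by
    rw [f_ee]
    have h1 : w a.swap = sgn a := by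
      have h2 : (∑ c ∈ Finset.univ.filter (fun b => idx b ≠ idx a), v' c • (ee c : Fin m ⊕ Fin m → F)) a.swap = 0 := by
        rw [Finset.sum_apply]
        apply Finset.sum_eq_zero
        intro c hc
        have h3 : c ≠ a.swap := by
          rintro rfl
          exact (Finset.mem_filter.mp hc).2 (idx_swap a)
        simp [Pi.single_apply, Ne.symm h3]
      rw [hw, Pi.add_apply, Pi.add_apply, h2, hE0]
      simp [Pi.single_apply, hswapne]
    rw [h1, sgn_mul_self]
  have h7 := TS_step hfS hκ (hT a) (by rw [hfwa]; exact one_ne_zero) (v' a - κ)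
  have h8 : w + (v' a - κ) • ee a = v' := by
    ext c
    simp only [hw, Pi.add_apply, Pi.smul_apply, smul_eq_mul, Finset.sum_apply]
    have hsum : ∑ b ∈ Finset.univ.filter (fun b => idx b ≠ idx a), v' b * (ee b : Fin m ⊕ Fin m → F) c =
        if idx c ≠ idx a then v' c else 0 := by
      by_cases hc : idx c ≠ idx a
      · rw [if_pos hc, Finset.sum_eq_single c]
        · simp
        · intro b _ hbc
          simp [Pi.single_apply, Ne.symm hbc]
        · intro hmem
          exact absurd (Finset.mem_filter.mpr ⟨Finset.mem_univ c, hc⟩ : c ∈ Finset.univ.filter (fun b => idx b ≠ idx a)) hmem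
      · rw [if_neg hc]
        apply Finset.sum_eq_zero
        intro b hb
        have h3 : b ≠ c := by
          rintro rfl
          exact hc (Finset.mem_filter.mp hb).2
        simp [Pi.single_apply, Ne.symm h3]
    rw [hsum]
    by_cases hc : idx c = idx a
    · -- `c` is `a` or its partner
      by_cases hca : c = a
      · subst hca
        simp [hE0, Pi.single_apply, Ne.symm hswapne]
      · have hcs : c = a.swap := eq_swap_of_idx hc hca
        subst hcs
        simp [hE0, Pi.single_apply, hswapne, hv'swap]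
    · have h1 : c ≠ a := by
        rintro rfl
        exact hc rfl
      have h2 : c ≠ a.swap := by
        rintro rfl
        exact hc (idx_swap a)
      simp [hE0, Pi.single_apply, h1, h2, hc]
  rw [h8] at h7
  have h9 := TS_smul hfS h7 lam
  rwa [hv', smul_smul, mul_inv_cancel₀ hfv, one_smul] at h9

/-- **The core of the symplectic case.** -/
theorem core_sp (hm : 5 ≤ m) {r : ℕ} (hr : r.Prime) (hcard : Fintype.card F = Nat.card F₀ ^ r)
    (hR : ∀ u : Fin m ⊕ Fin m → F, IsRat F₀ u → ∀ c ∈ F₀, tvS hfS u c ∈ M)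
    {g : GL (Fin m ⊕ Fin m) F} (hgM : g ∈ M) (hgS : g ∈ spGL m F)
    (hgK : g ∉ (Matrix.GeneralLinearGroup.map (F₀.subtype : F₀ →+* F)).range ⊔ scalars (Fin m ⊕ Fin m) F) :
    spGL m F ≤ M := by
  obtain ⟨u, hu, k, l, hkl⟩ : ∃ u : Fin m ⊕ Fin m → F, IsRat F₀ u ∧ ∃ k l,
      (g ⋆ u) k * cov (sympForm m F) (g ⋆ u) l ∉ F₀ := by
    by_contra hcon
    push Not at hcon
    exact hgK (mem_sup_of_conj_rat (by omega) hgS hcon)
  have ht : tvS hfS (g ⋆ u) 1 ∈ M := by
    have := M.mul_mem (M.mul_mem hgM (hR u hu 1 F₀.one_mem)) (M.inv_mem hgM)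
    rwa [tvS_conj hfS hgS] at this
  have h1 := exists_short (by omega) hR ht ⟨k, l, hkl⟩
  have hL := fun i j (hij : i ≠ j) s => all_levi hm hr hcard hR h1 hij s
  apply spGL_le
  intro v c
  exact mem_TS (F₀ := F₀) (by omega) hR (fun h s => all_short hm hR hL h s) v c

end Core3

section Top

variable {F : Type*} [Field F] [Fintype F] {m : ℕ} {F₀ : Subfield F}

local notation "hfS" => (sympForm_isSymplectic (m := m) (F := F))

open Cfsg.Agent.Lib.SympForm in
/-- A rational frame adapted to the form. -/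
theorem exists_frame (P : GL (Fin m ⊕ Fin m) F) (ζ : F) (hζ : ζ ≠ 0)
    (hP : IsFormRationalStructure (sympForm m F) F₀ ζ P) :
    ∃ Q₁ ∈ (Matrix.GeneralLinearGroup.map (F₀.subtype : F₀ →+* F)).range,
      ∀ u w : Fin m ⊕ Fin m → F, ζ * sympForm m F (((P * Q₁ : GL _ F)) ⋆ u) ((P * Q₁ : GL _ F) ⋆ w) = sympForm m F u w := by
  classical
  let cc : (Fin m ⊕ Fin m → F₀) → (Fin m ⊕ Fin m → F) := fun u i => (u i : F)
  have cc_add : ∀ u v, cc (u + v) = cc u + cc v := fun u v => by ext i; simp [cc]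
  have cc_smul : ∀ (c : F₀) u, cc (c • u) = (c : F) • cc u := fun c u => by ext i; simp [cc]
  have cc_rat : ∀ u i, cc u i ∈ F₀ := fun u i => (u i).2
  let B₀ : (Fin m ⊕ Fin m → F₀) →ₗ[F₀] (Fin m ⊕ Fin m → F₀) →ₗ[F₀] F₀ :=
    LinearMap.mk₂ F₀ (fun u w => (⟨ζ * sympForm m F (P ⋆ cc u) (P ⋆ cc w), hP _ _ (cc_rat u) (cc_rat w)⟩ : F₀))
      (fun u u' w => by
        apply Subtype.ext
        simp only [cc_add, Matrix.mulVec_add, sympForm_add_left]
        push_cast
        ring)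
      (fun c u w => by
        apply Subtype.ext
        simp only [cc_smul, Matrix.mulVec_smul, sympForm_smul_left, smul_eq_mul]
        push_cast
        ring)
      (fun u w w' => by
        apply Subtype.ext
        simp only [cc_add, Matrix.mulVec_add, sympForm_add_right]
        push_cast
        ring)
      (fun c u w => by
        apply Subtype.ext
        simp only [cc_smul, Matrix.mulVec_smul, sympForm_smul_right, smul_eq_mul]
        push_cast
        ring)
  have hB₀ : ∀ u w, ((B₀ u w : F₀) : F) = ζ * sympForm m F (P ⋆ cc u) (P ⋆ cc w) := fun u w => rfl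
  have halt : ∀ v, B₀ v v = 0 := by
    intro v
    apply Subtype.ext
    rw [hB₀, sympForm_self]
    simp
  have hnd : ∀ v, (∀ w, B₀ v w = 0) → v = 0 := by
    intro v hv
    by_contra hne
    have h1 : P ⋆ cc v ≠ 0 := by
      intro h0
      apply hne
      have h2 : cc v = 0 := by
        have := congrArg (fun x => P⁻¹ ⋆ x) h0
        simp only [Matrix.mulVec_mulVec, Matrix.mulVec_zero] at this
        rw [← Units.val_mul, inv_mul_cancel, Units.val_one, Matrix.one_mulVec] at this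
        exact this
      ext i
      have := congrFun h2 i
      simpa [cc] using this
    obtain ⟨y, hy⟩ := exists_sympForm_ne_zero h1
    apply hy
    -- every vector is an image of a combination of the rational basis
    have hbasis : ∀ x : Fin m ⊕ Fin m → F, sympForm m F (P ⋆ cc v) (P ⋆ x) = 0 := by
      intro x
      have h2 : ∀ a, sympForm m F (P ⋆ cc v) (P ⋆ (Pi.single a 1 : Fin m ⊕ Fin m → F)) = 0 := by
        intro a
        have h3 := congrArg (fun z : F₀ => (z : F)) (hv (Pi.single a 1))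
        simp only [hB₀] at h3
        have h4 : cc (Pi.single a 1) = (Pi.single a 1 : Fin m ⊕ Fin m → F) := by
          ext i
          by_cases h : i = a
          · subst h; simp [cc]
          · simp [cc, h]
        rw [h4] at h3
        have h5 := mul_eq_zero.mp (h3.trans (by simp))
        exact h5.resolve_left hζ
      have hx : x = ∑ a, x a • (Pi.single a 1 : Fin m ⊕ Fin m → F) := by
        ext i
        simp [Finset.sum_apply, Pi.single_apply]
      rw [hx, Matrix.mulVec_sum]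
      have : ∀ (s : Finset (Fin m ⊕ Fin m)), sympForm m F (P ⋆ cc v) (∑ a ∈ s, (P : Matrix _ _ F) *ᵥ (x a • (Pi.single a 1 : Fin m ⊕ Fin m → F))) = 0 := by
        intro s
        induction s using Finset.induction_on with
        | empty => simp [sympForm_zero_right]
        | insert a s ha ih =>
          rw [Finset.sum_insert ha, sympForm_add_right, ih, Matrix.mulVec_smul, sympForm_smul_right, h2]
          simp
      exact this _
    have := hbasis (P⁻¹ ⋆ y)
    rwa [Matrix.mulVec_mulVec, ← Units.val_mul, mul_inv_cancel, Units.val_one, Matrix.one_mulVec] at this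
  have hfin : Module.finrank F₀ (Fin m ⊕ Fin m → F₀) = 2 * m := by
    simp [Module.finrank_fintype_fun_eq_card]
    omega
  obtain ⟨E, hE⟩ := Cfsg.Agent.Lib.SympEquiv.exists_symp_equiv B₀ halt hnd hfin
  let Q₀ : GL (Fin m ⊕ Fin m) F₀ :=
    { val := LinearMap.toMatrix' (E : (Fin m ⊕ Fin m → F₀) →ₗ[F₀] (Fin m ⊕ Fin m → F₀))
      inv := LinearMap.toMatrix' (E.symm : (Fin m ⊕ Fin m → F₀) →ₗ[F₀] (Fin m ⊕ Fin m → F₀))
      val_inv := by
        rw [← LinearMap.toMatrix'_comp]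
        simp
      inv_val := by
        rw [← LinearMap.toMatrix'_comp]
        simp }
  let Q₁ : GL (Fin m ⊕ Fin m) F := Matrix.GeneralLinearGroup.map (F₀.subtype : F₀ →+* F) Q₀
  have hQ₁ : ∀ u, Q₁ ⋆ cc u = cc (E u) := by
    intro u
    ext i
    have h1 : (Q₀ : Matrix _ _ F₀) *ᵥ u = E u := by
      show LinearMap.toMatrix' (E : (Fin m ⊕ Fin m → F₀) →ₗ[F₀] (Fin m ⊕ Fin m → F₀)) *ᵥ u = E u
      rw [LinearMap.toMatrix'_mulVec]
      rfl
    have h2 := congrFun h1 i
    show (Q₁ ⋆ cc u) i = ((E u i : F₀) : F)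
    rw [← h2]
    simp [Q₁, Matrix.mulVec, dotProduct, cc, Matrix.GeneralLinearGroup.map]
  refine ⟨Q₁, ⟨Q₀, rfl⟩, ?_⟩
  have hrat : ∀ u w, ζ * sympForm m F ((P * Q₁ : GL _ F) ⋆ cc u) ((P * Q₁ : GL _ F) ⋆ cc w) = sympForm m F (cc u) (cc w) := by
    intro u w
    have hPQ : ∀ x, (P * Q₁ : GL _ F) ⋆ x = P ⋆ (Q₁ ⋆ x) := by
      intro x
      rw [Units.val_mul, Matrix.mulVec_mulVec]
    rw [hPQ, hPQ, hQ₁, hQ₁, ← hB₀, hE, sympForm_apply, sympForm_apply]
    simp [cc]
  -- extend by bilinearity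
  have hx : ∀ x : Fin m ⊕ Fin m → F, x = ∑ a, x a • (Pi.single a 1 : Fin m ⊕ Fin m → F) := by
    intro x
    ext i
    simp [Finset.sum_apply, Pi.single_apply]
  have hcc : ∀ a, cc (Pi.single a 1) = (Pi.single a 1 : Fin m ⊕ Fin m → F) := by
    intro a
    ext i
    by_cases h : i = a
    · subst h; simp [cc]
    · simp [cc, h]
  let B₁ : (Fin m ⊕ Fin m → F) →ₗ[F] (Fin m ⊕ Fin m → F) →ₗ[F] F :=
    LinearMap.mk₂ F (fun u w => ζ * sympForm m F ((P * Q₁ : GL _ F) ⋆ u) ((P * Q₁ : GL _ F) ⋆ w))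
      (fun u u' w => by simp only [Matrix.mulVec_add, sympForm_add_left]; ring)
      (fun c u w => by simp only [Matrix.mulVec_smul, sympForm_smul_left, smul_eq_mul]; ring)
      (fun u w w' => by simp only [Matrix.mulVec_add, sympForm_add_right]; ring)
      (fun c u w => by simp only [Matrix.mulVec_smul, sympForm_smul_right, smul_eq_mul]; ring)
  let B₂ : (Fin m ⊕ Fin m → F) →ₗ[F] (Fin m ⊕ Fin m → F) →ₗ[F] F :=
    LinearMap.mk₂ F (fun u v => sympForm m F u v) sympForm_add_left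
      (fun c u v => by rw [sympForm_smul_left]; rfl) sympForm_add_right
      (fun c u v => by rw [sympForm_smul_right]; rfl)
  have hB : B₁ = B₂ := by
    apply (Pi.basisFun F (Fin m ⊕ Fin m)).ext
    intro a
    apply (Pi.basisFun F (Fin m ⊕ Fin m)).ext
    intro b
    have ha : (Pi.basisFun F (Fin m ⊕ Fin m)) a = Pi.single a 1 := by simp
    have hb : (Pi.basisFun F (Fin m ⊕ Fin m)) b = Pi.single b 1 := by simp
    rw [ha, hb]
    show ζ * sympForm m F ((P * Q₁ : GL _ F) ⋆ _) ((P * Q₁ : GL _ F) ⋆ _) = sympForm m F _ _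
    have := hrat (Pi.single a 1) (Pi.single b 1)
    rwa [hcc, hcc] at this
  intro u w
  exact LinearMap.congr_fun (LinearMap.congr_fun hB u) w

end Top

section Final

variable {F : Type*} [Field F] [Fintype F] {m : ℕ} {F₀ : Subfield F}

local notation "hfS" => (sympForm_isSymplectic (m := m) (F := F))

theorem tvS_entry_mem_of_mem_sup {a : Fin m ⊕ Fin m} {c : F}
    (h : tvS hfS (ee a) c ∈ (Matrix.GeneralLinearGroup.map (F₀.subtype : F₀ →+* F)).range ⊔ scalars (Fin m ⊕ Fin m) F) :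
    c ∈ F₀ := by
  obtain ⟨d, hd, hent⟩ := exists_entries_of_mem_sup h
  have hval : ∀ k l, ((tvS hfS (ee a) c : GL (Fin m ⊕ Fin m) F) : Matrix (Fin m ⊕ Fin m) (Fin m ⊕ Fin m) F) k l
      = ((ee l : Fin m ⊕ Fin m → F) + (c * sympForm m F (ee l) (ee a)) • (ee a : Fin m ⊕ Fin m → F)) k := by
    intro k l
    have := congrFun (tvS_apply hfS (ee a : Fin m ⊕ Fin m → F) c (ee l)) k
    rw [← this]
    simp
  have h1 := hent a a
  have h2 := hent a a.swap
  rw [hval, Cfsg.Agent.Lib.SympForm.sympForm_self] at h1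
  rw [hval, f_ee_swap' a] at h2
  have hne : a.swap ≠ a := by
    rcases a with i | i <;> simp
  simp only [Pi.add_apply, Pi.smul_apply, smul_eq_mul, mul_zero, zero_mul, add_zero, Pi.single_eq_same, mul_one,
    Pi.single_eq_of_ne (Ne.symm hne), zero_add] at h1 h2
  have h3 : d * (c * sgn a) ∈ F₀ := h2
  have h4 : (d * (c * sgn a)) * (d⁻¹) * sgn a ∈ F₀ :=
    F₀.mul_mem (F₀.mul_mem h3 (F₀.inv_mem h1)) (sgn_mem a)
  have h5 : (d * (c * sgn a)) * (d⁻¹) * sgn a = c := by
    have := sgn_mul_self (F := F) a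
    field_simp
    rw [sq, this, mul_one]
  rwa [h5] at h4

theorem subfield_sp_isMaximalIn (hm : 5 ≤ m) {r : ℕ} (hr : r.Prime) (hcard : Fintype.card F = Nat.card F₀ ^ r)
    (P : GL (Fin m ⊕ Fin m) F) (ζ : F) (hζ : ζ ≠ 0)
    (hP : IsFormRationalStructure (sympForm m F) F₀ ζ P) :
    IsMaximalIn (spGL m F) (subfieldSubgroup F₀ P ⊓ spGL m F) := by
  classical
  obtain ⟨Q₁, hQ₁, hQ⟩ := exists_frame P ζ hζ hP
  set K₀ := (Matrix.GeneralLinearGroup.map (F₀.subtype : F₀ →+* F)).range ⊔ scalars (Fin m ⊕ Fin m) F with hK₀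
  have hQ₁K : Q₁ ∈ K₀ := Subgroup.mem_sup_left hQ₁
  set Q := P * Q₁ with hQdef
  have hmemS : ∀ x, x ∈ K₀ → Q * x * Q⁻¹ ∈ subfieldSubgroup F₀ P := by
    intro x hx
    refine ⟨Q₁ * x * Q₁⁻¹, K₀.mul_mem (K₀.mul_mem hQ₁K hx) (K₀.inv_mem hQ₁K), ?_⟩
    simp [MulAut.conj_apply, hQdef]
    group
  have hmemS' : ∀ x, x ∈ subfieldSubgroup F₀ P → Q⁻¹ * x * Q ∈ K₀ := by
    rintro _ ⟨y, hy, rfl⟩
    have : Q⁻¹ * ((MulAut.conj P).toMonoidHom y) * Q = Q₁⁻¹ * y * Q₁ := by
      simp [MulAut.conj_apply, hQdef]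
      group
    rw [this]
    exact K₀.mul_mem (K₀.mul_mem (K₀.inv_mem hQ₁K) hy) hQ₁K
  clear_value Q
  have hmv : ∀ (g h : GL (Fin m ⊕ Fin m) F) (x : Fin m ⊕ Fin m → F), (g * h) ⋆ x = g ⋆ (h ⋆ x) := by
    intro g h x
    rw [Units.val_mul, Matrix.mulVec_mulVec]
  have hQQ : ∀ y, Q ⋆ (Q⁻¹ ⋆ y) = y := by
    intro y
    rw [← hmv, mul_inv_cancel, Units.val_one, Matrix.one_mulVec]
  have hsp1 : ∀ x, x ∈ spGL m F → Q⁻¹ * x * Q ∈ spGL m F := by
    intro x hx u w
    show sympForm m F ((Q⁻¹ * x * Q) ⋆ u) ((Q⁻¹ * x * Q) ⋆ w) = sympForm m F u w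
    have e : ∀ y, (Q⁻¹ * x * Q) ⋆ y = Q⁻¹ ⋆ (x ⋆ (Q ⋆ y)) := fun y => by rw [hmv, hmv]
    rw [← hQ ((Q⁻¹ * x * Q) ⋆ u) ((Q⁻¹ * x * Q) ⋆ w), e, e, hQQ, hQQ, ← hQ u w]
    congr 1
    exact hx _ _
  have hsp2 : ∀ x, x ∈ spGL m F → Q * x * Q⁻¹ ∈ spGL m F := by
    intro x hx u w
    show sympForm m F ((Q * x * Q⁻¹) ⋆ u) ((Q * x * Q⁻¹) ⋆ w) = sympForm m F u w
    apply mul_left_cancel₀ hζ
    have e : ∀ y, (Q * x * Q⁻¹) ⋆ y = Q ⋆ (x ⋆ (Q⁻¹ ⋆ y)) := fun y => by rw [hmv, hmv]
    rw [e, e, hQ]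
    have h1 := hQ (Q⁻¹ ⋆ u) (Q⁻¹ ⋆ w)
    rw [hQQ, hQQ] at h1
    rw [h1]
    exact hx _ _
  constructor
  · refine lt_of_le_of_ne inf_le_right ?_
    intro heq
    obtain ⟨c, hc⟩ : ∃ a, a ∉ F₀ := by
      by_contra hall
      push Not at hall
      have h1 : Nat.card F₀ = Nat.card F :=
        Nat.card_congr (Equiv.subtypeUnivEquiv hall)
      rw [Nat.card_eq_fintype_card (α := F), hcard] at h1
      have h2 : 1 < Nat.card F₀ := Finite.one_lt_card
      have h3 : 2 ≤ r := hr.two_le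
      have h4 : Nat.card F₀ ^ 1 < Nat.card F₀ ^ r := Nat.pow_lt_pow_right h2 (by omega)
      rw [pow_one] at h4
      omega
    let a : Fin m ⊕ Fin m := Sum.inl ⟨0, by omega⟩
    have h1 : tvS hfS (ee a) c ∈ spGL m F := tvS_pres hfS _ _
    have h2 := hsp2 _ h1
    rw [← heq] at h2
    have h3 := hmemS' _ h2.1
    have h4 : Q⁻¹ * (Q * tvS hfS (ee a) c * Q⁻¹) * Q = tvS hfS (ee a) c := by group
    rw [h4] at h3
    exact hc (tvS_entry_mem_of_mem_sup h3)
  · intro M hHM hMG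
    by_cases hMH : M ≤ subfieldSubgroup F₀ P ⊓ spGL m F
    · exact Or.inl (le_antisymm hMH hHM)
    right
    apply le_antisymm hMG
    obtain ⟨g, hgM, hgH⟩ := SetLike.not_le_iff_exists.mp hMH
    set M' : Subgroup (GL (Fin m ⊕ Fin m) F) := M.comap (MulAut.conj Q).toMonoidHom with hM'
    have hM'mem : ∀ x, x ∈ M' ↔ Q * x * Q⁻¹ ∈ M := fun x => Iff.rfl
    have hR : ∀ u : Fin m ⊕ Fin m → F, IsRat F₀ u → ∀ c ∈ F₀, tvS hfS u c ∈ M' := by
      intro u hu c hc
      rw [hM'mem]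
      apply hHM
      exact ⟨hmemS _ (tvS_mem_sup hu hc), hsp2 _ (tvS_pres hfS _ _)⟩
    set g' := Q⁻¹ * g * Q with hg'
    have hg'M : g' ∈ M' := by
      rw [hM'mem, hg']
      have : Q * (Q⁻¹ * g * Q) * Q⁻¹ = g := by group
      rwa [this]
    have hg'S : g' ∈ spGL m F := hsp1 _ (hMG hgM)
    have hg'K : g' ∉ K₀ := by
      intro hmem
      apply hgH
      refine ⟨?_, hMG hgM⟩
      have h1 := hmemS _ hmem
      have : Q * g' * Q⁻¹ = g := by rw [hg']; group
      rwa [this] at h1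
    have hle := core_sp hm hr hcard hR hg'M hg'S hg'K
    intro x hx
    have h1 := hle (hsp1 _ hx)
    have h2 := (hM'mem _).1 h1
    have h3 : Q * (Q⁻¹ * x * Q) * Q⁻¹ = x := by group
    rwa [h3] at h2

end Final

end Cfsg.Agent.Lib.SpSubfield
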