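import Mathlib
import Cfsg.Agent.Lib.UWitt
import Cfsg.Agent.Lib.SympTIPair

/-!
# Pairs of complementary totally isotropic subspaces of a unitary space

Calculus of the elements `z ↦ z + f(z, y) x - f(z, x) y` with `x, y` isotropic and orthogonal, and the propagation
argument: a subgroup of the isometry group containing the stabiliser of a pair of complementary totally
isotropic subspaces and one further element contains the unitary transvections at all isotropic centres.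
-/

set_option autoImplicit false
set_option linter.unusedSectionVars false
set_option linter.unusedVariables false

namespace Cfsg.Agent.Lib.UTIPair

open Matrix Cfsg Cfsg.Geo Cfsg.Agent.Lib.TvGL Cfsg.Agent.Lib.UForm Cfsg.Agent.Lib.UTrans
open Cfsg.Agent.Lib.SympT (cov GL_ext mulVec_mul_GL mulVec_inv_GL inv_mulVec_GL pres_apply linOf linOf_apply
  finrank_le_of_maps)
open Cfsg.Agent.Lib.QForm (unip unip_val unip_apply unip_inv_val vv_mul)
open Cfsg.Agent.Lib.SympTIPair (comm_unip_gen le_or_le_of_union finrank_span_three finrank_span_two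
  finrank_span_one)
open Cfsg.Agent.Lib.SympDecomp (glOf glOf_apply)

local notation:70 g:71 " ⋆ " x:70 => Matrix.mulVec (Units.val g) x

variable {ι : Type} [Fintype ι] [DecidableEq ι] {F : Type*} [Field F] [Fintype F]
  {σ : F ≃+* F} {f : (ι → F) → (ι → F) → F} (hf : IsUnitaryForm σ f)

/-- The matrix `x y* - y x*`. -/
def Ym (f : (ι → F) → (ι → F) → F) (x y : ι → F) : Matrix ι ι F :=
  vecMulVec x (cov f y) - vecMulVec y (cov f x)

include hf

theorem Ym_apply (x y z : ι → F) : Ym f x y *ᵥ z = f z y • x - f z x • y := by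
  rw [Ym, sub_mulVec, vecMulVec_mulVec', vecMulVec_mulVec', cov_dot hf, cov_dot hf]

theorem Ym_sq {x y : ι → F} (h : f x x = 0 ∧ f y y = 0 ∧ f x y = 0) : Ym f x y * Ym f x y = 0 := by
  obtain ⟨hx, hy, hxy⟩ := h
  have hyx := f_swap_zero hf hxy
  unfold Ym
  rw [sub_mul, mul_sub, mul_sub, vv_mul, vv_mul, vv_mul, vv_mul]
  simp only [cov_dot hf, hx, hy, hxy, hyx, zero_smul, sub_zero]

omit hf in
/-- The pair `(x, y)` gives an element of `M`. -/
def PY (hf : IsUnitaryForm σ f) (M : Subgroup (GL ι F)) (x y : ι → F) : Prop :=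
  ∃ h : f x x = 0 ∧ f y y = 0 ∧ f x y = 0, unip (Ym f x y) (Ym_sq hf h) ∈ M

variable {M : Subgroup (GL ι F)}

theorem PY_symm {x y : ι → F} (h : PY hf M x y) : PY hf M y x := by
  obtain ⟨⟨h1, h2, h3⟩, h4⟩ := h
  have h5 : f y y = 0 ∧ f x x = 0 ∧ f y x = 0 := ⟨h2, h1, f_swap_zero hf h3⟩
  refine ⟨h5, ?_⟩
  have h6 : unip (Ym f y x) (Ym_sq hf h5) = (unip (Ym f x y) (Ym_sq hf ⟨h1, h2, h3⟩))⁻¹ := by
    apply Units.ext
    rw [unip_val, unip_inv_val, Ym, Ym]
    abel
  rw [h6]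
  exact M.inv_mem h4

theorem unipY_pres {x y : ι → F} (h : f x x = 0 ∧ f y y = 0 ∧ f x y = 0) :
    unip (Ym f x y) (Ym_sq hf h) ∈ preserving (glToMat ι F) f := by
  obtain ⟨hx, hy, hxy⟩ := h
  have hyx := f_swap_zero hf hxy
  intro a b
  show f (unip (Ym f x y) (Ym_sq hf ⟨hx, hy, hxy⟩) ⋆ a) (unip (Ym f x y) (Ym_sq hf ⟨hx, hy, hxy⟩) ⋆ b) = f a b
  rw [unip_apply, unip_apply, Ym_apply hf, Ym_apply hf, sub_eq_add_neg (f a y • x), sub_eq_add_neg (f b y • x)]
  simp only [hf.add_left, f_add_right hf, f_neg_left hf, f_neg_right hf, hf.smul_left, f_smul_right hf, hx, hy,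
    hxy, hyx]
  rw [hf.herm x b, hf.herm y b]
  ring

theorem unipY_mem_SL {x y : ι → F} (h : f x x = 0 ∧ f y y = 0 ∧ f x y = 0) :
    unip (Ym f x y) (Ym_sq hf h) ∈ specialLinear ι F := by
  obtain ⟨hx, hy, hxy⟩ := h
  have hyx := f_swap_zero hf hxy
  have h1 : cov f y ⬝ᵥ x = 0 := by rw [cov_dot hf, hxy]
  have h2 : cov f x ⬝ᵥ (-y) = 0 := by rw [cov_dot hf, f_neg_left hf, hyx, neg_zero]
  have h3 : unip (Ym f x y) (Ym_sq hf ⟨hx, hy, hxy⟩) = tv x (cov f y) h1 * tv (-y) (cov f x) h2 := by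
    apply GL_ext
    intro z
    rw [mulVec_mul_GL, unip_apply, Ym_apply hf, tv_mulVec, tv_mulVec, cov_dot hf, cov_dot hf]
    rw [hf.add_left, hf.smul_left, f_neg_left hf, hy]
    simp only [mul_neg, mul_zero, neg_zero, add_zero, smul_neg]
    abel
  rw [h3]
  exact Subgroup.mul_mem _ (tv_mem_specialLinear _ _ _) (tv_mem_specialLinear _ _ _)

theorem unip_conj {t : GL ι F} (ht : t ∈ preserving (glToMat ι F) f) {x y : ι → F}
    (h : f x x = 0 ∧ f y y = 0 ∧ f x y = 0) (h' : f (t ⋆ x) (t ⋆ x) = 0 ∧ f (t ⋆ y) (t ⋆ y) = 0 ∧ f (t ⋆ x) (t ⋆ y) = 0) :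
    t * unip (Ym f x y) (Ym_sq hf h) * t⁻¹ = unip (Ym f (t ⋆ x) (t ⋆ y)) (Ym_sq hf h') := by
  apply GL_ext
  intro z
  rw [mulVec_mul_GL, mulVec_mul_GL, unip_apply, unip_apply, Ym_apply hf, Ym_apply hf, Matrix.mulVec_add,
    Matrix.mulVec_sub, Matrix.mulVec_smul, Matrix.mulVec_smul, mulVec_inv_GL]
  rw [← pres_apply ht (t⁻¹ ⋆ z) y, ← pres_apply ht (t⁻¹ ⋆ z) x, mulVec_inv_GL]

theorem PY_conj {t : GL ι F} (ht : t ∈ preserving (glToMat ι F) f) (htM : t ∈ M) {x y : ι → F}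
    (h : PY hf M x y) : PY hf M (t ⋆ x) (t ⋆ y) := by
  obtain ⟨h0, h1⟩ := h
  have h2 : f (t ⋆ x) (t ⋆ x) = 0 ∧ f (t ⋆ y) (t ⋆ y) = 0 ∧ f (t ⋆ x) (t ⋆ y) = 0 := by
    rw [pres_apply ht, pres_apply ht, pres_apply ht]
    exact h0
  refine ⟨h2, ?_⟩
  rw [← unip_conj hf ht h0 h2]
  exact M.mul_mem (M.mul_mem htM h1) (M.inv_mem htM)

theorem cov_smul (c : F) (x : ι → F) : cov f (c • x) = σ c • cov f x := by
  ext i
  simp [cov, f_smul_right hf]

theorem Ym_smul_left (c : F) (x y : ι → F) :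
    Ym f (c • x) y = c • vecMulVec x (cov f y) - σ c • vecMulVec y (cov f x) := by
  unfold Ym
  rw [cov_smul hf, vecMulVec_smul_left, vecMulVec_smul_right]

/-- The commutator rule. -/
theorem PY_comm {x y a b : ι → F} (h : PY hf M x y) (h' : PY hf M a b) (hxa : f x a = 0)
    (hxb : f x b = 0) (hyb : f y b = 0) : PY hf M (f a y • x) b := by
  obtain ⟨h0, h1⟩ := h
  obtain ⟨h0', h1'⟩ := h'
  obtain ⟨hxx, hyy, hxy⟩ := h0
  obtain ⟨haa, hbb, hab⟩ := h0'
  have hax := f_swap_zero hf hxa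
  have hbx := f_swap_zero hf hxb
  have hby := f_swap_zero hf hyb
  have hba := f_swap_zero hf hab
  have hyx := f_swap_zero hf hxy
  have h2 : f (f a y • x) (f a y • x) = 0 ∧ f b b = 0 ∧ f (f a y • x) b = 0 := by
    refine ⟨?_, hbb, ?_⟩
    · rw [hf.smul_left, f_smul_right hf, hxx, mul_zero, mul_zero]
    · rw [hf.smul_left, hxb, mul_zero]
  refine ⟨h2, ?_⟩
  have hXY : Ym f x y * Ym f a b = f a y • vecMulVec x (cov f b) := by
    unfold Ym
    rw [sub_mul, mul_sub, mul_sub, vv_mul, vv_mul, vv_mul, vv_mul]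
    simp only [cov_dot hf, hby, hbx, hax, zero_smul, sub_zero, zero_sub, sub_self]
  have hYX : Ym f a b * Ym f x y = f y a • vecMulVec b (cov f x) := by
    unfold Ym
    rw [sub_mul, mul_sub, mul_sub, vv_mul, vv_mul, vv_mul, vv_mul]
    simp only [cov_dot hf, hxa, hxb, hyb, zero_smul, sub_zero, zero_sub, sub_self, neg_neg]
  have hZ0 : Ym f x y * Ym f a b - Ym f a b * Ym f x y = Ym f (f a y • x) b := by
    rw [hXY, hYX, Ym_smul_left hf, ← hf.herm y a]
  have hZ : (Ym f x y * Ym f a b - Ym f a b * Ym f x y) * (Ym f x y * Ym f a b - Ym f a b * Ym f x y) = 0 := by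
    rw [hZ0]
    exact Ym_sq hf h2
  have hXYX : Ym f x y * Ym f a b * Ym f x y = 0 := by
    rw [hXY, smul_mul_assoc]
    unfold Ym
    rw [mul_sub, vv_mul, vv_mul]
    simp only [cov_dot hf, hxb, hyb, zero_smul, sub_zero, smul_zero]
  have hYXY : Ym f a b * Ym f x y * Ym f a b = 0 := by
    rw [hYX, smul_mul_assoc]
    unfold Ym
    rw [mul_sub, vv_mul, vv_mul]
    simp only [cov_dot hf, hbx, hax, zero_smul, sub_zero, smul_zero]
  have h3 := M.mul_mem (M.mul_mem (M.mul_mem h1 h1') (M.inv_mem h1)) (M.inv_mem h1')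
  rw [comm_unip_gen _ _ _ _ hXYX hYXY hZ] at h3
  convert h3 using 2
  exact hZ0.symm

/-- A solution of `γ - σ γ = κ` for `κ` of trace zero. -/
theorem exists_gamma {κ : F} (hκ : κ + σ κ = 0) : ∃ γ : F, γ - σ γ = κ := by
  obtain ⟨θ, hθ⟩ := exists_trace_one hf
  refine ⟨κ * θ, ?_⟩
  rw [map_mul]
  have : σ κ = -κ := eq_neg_of_add_eq_zero_right hκ
  rw [this]
  linear_combination κ * hθ

/-- Removing a piece of the first vector. -/
theorem PY_sub {x x' b : ι → F} (h : PY hf M x b) (h' : PY hf M x' b) (hd : f (x - x') (x - x') = 0) {γ : F}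
    (hγ : γ - σ γ = f x' x) : PY hf M (x - x' + γ • b) b := by
  obtain ⟨⟨hxx, hbb, hxb⟩, h1⟩ := h
  obtain ⟨⟨hxx', hbb', hxb'⟩, h1'⟩ := h'
  have hbx := f_swap_zero hf hxb
  have hbx' := f_swap_zero hf hxb'
  have h3 : f (x - x' + γ • b) (x - x' + γ • b) = 0 ∧ f b b = 0 ∧ f (x - x' + γ • b) b = 0 := by
    refine ⟨?_, hbb, ?_⟩
    · rw [hf.add_left, f_add_right hf, f_add_right hf, hd, hf.smul_left, hf.smul_left, f_smul_right hf,
        f_smul_right hf, hbb, f_sub_right hf, f_sub_left hf, hbx, hbx', hxb, hxb']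
      ring
    · rw [hf.add_left, f_sub_left hf, hf.smul_left, hxb, hxb', hbb]
      ring
  refine ⟨h3, ?_⟩
  have h4 := M.mul_mem h1 (M.inv_mem h1')
  convert h4 using 1
  apply GL_ext
  intro z
  have hinv : (unip (Ym f x' b) (Ym_sq hf ⟨hxx', hbb', hxb'⟩))⁻¹ ⋆ z = z - Ym f x' b *ᵥ z := by
    rw [unip_inv_val, sub_mulVec, one_mulVec]
  rw [mulVec_mul_GL, hinv, unip_apply, unip_apply, Ym_apply hf, Ym_apply hf, Ym_apply hf]
  have hb0 : f (f z b • x' - f z x' • b) b = f z b * f x' b - f z x' * f b b := by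
    rw [f_sub_left hf, hf.smul_left, hf.smul_left]
  have hx0 : f (f z b • x' - f z x' • b) x = f z b * f x' x - f z x' * f b x := by
    rw [f_sub_left hf, hf.smul_left, hf.smul_left]
  have hb1 : f (z - (f z b • x' - f z x' • b)) b = f z b := by
    rw [f_sub_left hf, hb0, hxb', hbb]
    ring
  have hx1 : f (z - (f z b • x' - f z x' • b)) x = f z x - f z b * f x' x := by
    rw [f_sub_left hf, hx0, hbx]
    ring
  rw [hb1, hx1, f_add_right hf, f_sub_right hf, f_smul_right hf]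
  ext i
  simp only [Pi.add_apply, Pi.sub_apply, Pi.smul_apply, smul_eq_mul]
  linear_combination (f z b * b i) * hγ

/-- A transvection from a degenerate pair. -/
theorem PY_tv {x : ι → F} {c : F} (h : PY hf M (c • x) x) : P hf M ((c - σ c) • x) x := by
  obtain ⟨⟨h1, h2, h3⟩, h4⟩ := h
  have h0 : f ((c - σ c) • x) x = 0 := by rw [hf.smul_left, h2, mul_zero]
  refine ⟨h0, ?_⟩
  convert h4 using 1
  apply GL_ext
  intro z
  rw [tau_apply, unip_apply, Ym_apply hf, f_smul_right hf]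
  ext i
  simp only [Pi.add_apply, Pi.sub_apply, Pi.smul_apply, smul_eq_mul]
  ring

/-- Closure of the set of centres under sums of non-orthogonal vectors. -/
theorem TU_add {x y : ι → F} (hx : x ∈ TU hf M) (hy : y ∈ TU hf M) (hxy : f x y ≠ 0)
    (hs : f (x + y) (x + y) = 0) : x + y ∈ TU hf M := by
  have h1 : f x y + σ (f x y) = 0 := by
    rw [hf.add_left, f_add_right hf, f_add_right hf, hx.1, hy.1, hf.herm y x] at hs
    linear_combination hs
  have hc : (f x y)⁻¹ + σ ((f x y)⁻¹) = 0 := by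
    have h2 : σ (f x y) = - f x y := eq_neg_of_add_eq_zero_right h1
    rw [map_inv₀, h2]
    field_simp
    ring
  obtain ⟨h0, h3⟩ := hy.2 _ hc
  have h4 := TU_conj hf (tauU_pres hf hy.1 hc h0) h3 hx
  have h5 : tau hf ((f x y)⁻¹ • y) y h0 ⋆ x = x + y := by
    rw [tau_apply, smul_smul, mul_inv_cancel₀ hxy, one_smul]
  rwa [h5] at h4

/-! ### Pairs of complementary totally isotropic subspaces -/

omit hf in
/-- Complementary totally isotropic subspaces. -/
structure UTP (f : (ι → F) → (ι → F) → F) (D D' : Submodule F (ι → F)) : Prop where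
  ti : ∀ u ∈ D, ∀ v ∈ D, f u v = 0
  ti' : ∀ u ∈ D', ∀ v ∈ D', f u v = 0
  compl : IsCompl D D'

omit hf in
theorem UTP.symm {D D' : Submodule F (ι → F)} (h : UTP f D D') : UTP f D' D :=
  ⟨h.ti', h.ti, h.compl.symm⟩

omit hf in
theorem UTP.decomp {D D' : Submodule F (ι → F)} (h : UTP f D D') (x : ι → F) :
    ∃ x₀ ∈ D, ∃ x₁ ∈ D', x = x₀ + x₁ := by
  have hx : x ∈ D ⊔ D' := by
    rw [h.compl.sup_eq_top]
    trivial
  obtain ⟨y, hy, z, hz, rfl⟩ := Submodule.mem_sup.1 hx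
  exact ⟨y, hy, z, hz, rfl⟩

variable {D D' : Submodule F (ι → F)}

/-- A vector orthogonal to `D` is in `D`. -/
theorem UTP.perp_sub (hp : UTP f D D') {a : ι → F} (ha : ∀ w ∈ D, f w a = 0) : a ∈ D := by
  obtain ⟨a₀, ha₀, a₁, ha₁, rfl⟩ := hp.decomp a
  have h1 : a₁ = 0 := by
    by_contra h0
    obtain ⟨z, hz⟩ := (hf.nondegenerate a₁ h0).1
    obtain ⟨z₀, hz₀, z₁, hz₁, rfl⟩ := hp.decomp z
    apply hz
    have h3 := ha z₀ hz₀
    rw [f_add_right hf, hp.ti z₀ hz₀ a₀ ha₀, zero_add] at h3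
    rw [hf.add_left, h3, hp.ti' z₁ hz₁ a₁ ha₁, add_zero]
  rw [h1, add_zero]
  exact ha₀

/-- Separation: a vector of `D'` outside a subspace is detected by a vector of `D`. -/
theorem UTP.sep (hp : UTP f D D') {W : Submodule F (ι → F)} {u : ι → F} (hW : W ≤ D') (hu : u ∈ D')
    (huW : u ∉ W) : ∃ a ∈ D, (∀ w ∈ W, f a w = 0) ∧ f a u ≠ 0 := by
  have h1 : u ∉ W ⊔ D := by
    intro hmem
    obtain ⟨w, hw, d, hd, hwd⟩ := Submodule.mem_sup.1 hmem
    have h3 : d ∈ D' := by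
      have : d = u - w := by rw [← hwd]; abel
      rw [this]
      exact D'.sub_mem hu (hW hw)
    have h4 : d = 0 := by
      have := Submodule.disjoint_def.1 hp.compl.disjoint d hd h3
      exact this
    rw [h4, add_zero] at hwd
    exact huW (hwd ▸ hw)
  obtain ⟨a, ha, hua⟩ := exists_perp_of_notMem hf h1
  have ha' : ∀ z ∈ W ⊔ D, f z a = 0 := ha
  refine ⟨a, hp.perp_sub hf (fun w hw => ha' w (Submodule.mem_sup_right hw)), fun w hw => ?_,
    f_swap_ne hf hua⟩
  exact f_swap_zero hf (ha' w (Submodule.mem_sup_left hw))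

/-- Separation with a prescribed value. -/
theorem UTP.sep_val (hp : UTP f D D') {W : Submodule F (ι → F)} {u : ι → F} (hW : W ≤ D') (hu : u ∈ D')
    (huW : u ∉ W) (c : F) : ∃ a ∈ D, (∀ w ∈ W, f a w = 0) ∧ f a u = c := by
  obtain ⟨a, ha, h1, h3⟩ := hp.sep hf hW hu huW
  refine ⟨(c / f a u) • a, D.smul_mem _ ha, fun w hw => ?_, ?_⟩
  · rw [hf.smul_left, h1 w hw, mul_zero]
  · rw [hf.smul_left]
    field_simp

theorem finrank_inf_perp (U S : Submodule F (ι → F)) :
    Module.finrank F U ≤ Module.finrank F (U ⊓ perpU hf S : Submodule F (ι → F)) + Module.finrank F S := by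
  have h1 := Submodule.finrank_sup_add_finrank_inf_eq U (perpU hf S)
  have h2 := finrank_perpU hf S
  have h4 : Module.finrank F (U ⊔ perpU hf S : Submodule F (ι → F)) ≤ Fintype.card ι := by
    have := Submodule.finrank_le (U ⊔ perpU hf S : Submodule F (ι → F))
    rwa [Module.finrank_fintype_fun_eq_card] at this
  have h5 : Module.finrank F S ≤ Fintype.card ι := by
    have := Submodule.finrank_le S
    rwa [Module.finrank_fintype_fun_eq_card] at this
  omega

/-- Stage A: an element whose span avoids `D` gives a transvection with centre in `D'`. -/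
theorem stageA (hp : UTP f D D') (hm : 6 ≤ Module.finrank F D')
    (hH : ∀ a ∈ D, ∀ b ∈ D', f a b = 0 → PY hf M a b) {x y : ι → F} (hxy : PY hf M x y)
    (hind : ∀ α β : F, α • x + β • y ∈ D → α = 0 ∧ β = 0) :
    ∃ u ∈ D', u ≠ 0 ∧ u ∈ TU hf M := by
  classical
  obtain ⟨x₀, hx₀, x₁, hx₁, hx⟩ := hp.decomp x
  obtain ⟨y₀, hy₀, y₁, hy₁, hy⟩ := hp.decomp y
  have hx₁0 : x₁ ≠ 0 := by
    rintro rfl
    have h1 := hind 1 0 (by
      rw [hx]
      simpa using hx₀)
    exact one_ne_zero h1.1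
  have hy₁x₁ : y₁ ∉ Submodule.span F {x₁} := by
    intro hmem
    obtain ⟨γ, hγ⟩ := Submodule.mem_span_singleton.1 hmem
    have h1 := hind (-γ) 1 (by
      have : -γ • x + (1 : F) • y = y₀ + (-γ) • x₀ := by
        rw [hx, hy, ← hγ, smul_add, one_smul, neg_smul, neg_smul]
        abel
      rw [this]
      exact D.add_mem hy₀ (D.smul_mem _ hx₀))
    exact one_ne_zero h1.2
  have hspan : Submodule.span F {x₁} ≤ D' := by
    rw [Submodule.span_singleton_le_iff_mem]
    exact hx₁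
  obtain ⟨a, haD, ha1, hay⟩ := hp.sep hf hspan hy₁ hy₁x₁
  have hax₁ : f a x₁ = 0 := ha1 x₁ (Submodule.mem_span_singleton_self x₁)
  have hax₀ : f a x₀ = 0 := hp.ti a haD x₀ hx₀
  have hay₀ : f a y₀ = 0 := hp.ti a haD y₀ hy₀
  -- the vector b
  set S : Submodule F (ι → F) := Submodule.span F ({a, x₀, y₀} : Set (ι → F)) with hS
  have hK := finrank_inf_perp hf D' S
  have hS3 : Module.finrank F S ≤ 3 := finrank_span_three _ _ _
  obtain ⟨b, hbK, hbx₁⟩ : ∃ b ∈ (D' ⊓ perpU hf S : Submodule F (ι → F)), b ∉ Submodule.span F {x₁} := by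
    by_contra hcon
    push Not at hcon
    have h1 := Submodule.finrank_mono (show (D' ⊓ perpU hf S : Submodule F (ι → F)) ≤ Submodule.span F {x₁} from hcon)
    have h3 := finrank_span_one (F := F) x₁
    omega
  have hbD' : b ∈ D' := hbK.1
  have hb' : ∀ w ∈ S, f w b = 0 := hbK.2
  have hab : f a b = 0 := hb' a (Submodule.subset_span (by simp))
  have hx₀b : f x₀ b = 0 := hb' x₀ (Submodule.subset_span (by simp))
  have hy₀b : f y₀ b = 0 := hb' y₀ (Submodule.subset_span (by simp))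
  have hx₁b : f x₁ b = 0 := hp.ti' x₁ hx₁ b hbD'
  have hy₁b : f y₁ b = 0 := hp.ti' y₁ hy₁ b hbD'
  have hay' : f a y ≠ 0 := by
    rw [hy, f_add_right hf, hay₀, zero_add]
    exact hay
  have hxa : f x a = 0 := by
    rw [hx, hf.add_left, f_swap_zero hf hax₀, f_swap_zero hf hax₁, add_zero]
  have hxb : f x b = 0 := by rw [hx, hf.add_left, hx₀b, hx₁b, add_zero]
  have hyb : f y b = 0 := by rw [hy, hf.add_left, hy₀b, hy₁b, add_zero]
  have h1 := PY_comm hf hxy (hH a haD b hbD' hab) hxa hxb hyb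
  set lam : F := f a y with hlam
  -- remove the D part
  have h1' := hH (lam • x₀) (D.smul_mem _ hx₀) b hbD' (by rw [hf.smul_left, hx₀b, mul_zero])
  have hdiff : lam • x - lam • x₀ = lam • x₁ := by
    rw [hx, smul_add]
    abel
  have hd : f (lam • x - lam • x₀) (lam • x - lam • x₀) = 0 := by
    rw [hdiff]
    exact hp.ti' _ (D'.smul_mem _ hx₁) _ (D'.smul_mem _ hx₁)
  have hκ : f (lam • x₀) (lam • x) + σ (f (lam • x₀) (lam • x)) = 0 := by
    rw [← hf.herm]
    have e1 := hd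
    rw [f_sub_left hf, f_sub_right hf, f_sub_right hf] at e1
    have e2 : f (lam • x) (lam • x) = 0 := h1.1.1
    have e3 : f (lam • x₀) (lam • x₀) = 0 := hp.ti _ (D.smul_mem _ hx₀) _ (D.smul_mem _ hx₀)
    rw [e2, e3] at e1
    linear_combination -e1
  obtain ⟨γ, hγ⟩ := exists_gamma hf hκ
  have h3 := PY_sub hf h1 h1' hd hγ
  set u : ι → F := lam • x - lam • x₀ + γ • b with hu
  have hu1 : u = lam • x₁ + γ • b := by
    rw [hu, hdiff]
  have huD' : u ∈ D' := by
    rw [hu1]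
    exact D'.add_mem (D'.smul_mem _ hx₁) (D'.smul_mem _ hbD')
  have hbu : b ∉ Submodule.span F {u} := by
    intro hmem
    obtain ⟨δ, hδ⟩ := Submodule.mem_span_singleton.1 hmem
    have h5 : (δ * lam) • x₁ = (1 - δ * γ) • b := by
      have h6 : δ • (lam • x₁ + γ • b) = b := by rw [← hu1]; exact hδ
      rw [smul_add, smul_smul, smul_smul] at h6
      rw [sub_smul, one_smul]
      exact eq_sub_of_add_eq h6
    by_cases hc : 1 - δ * γ = 0
    · rw [hc, zero_smul] at h5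
      have h6 : δ * lam = 0 := by
        by_contra h7
        exact hx₁0 ((smul_eq_zero.1 h5).resolve_left h7)
      have hδ0 : δ = 0 := (mul_eq_zero.1 h6).resolve_right hay'
      rw [hδ0] at hc
      simp at hc
    · apply hbx₁
      rw [Submodule.mem_span_singleton]
      refine ⟨(1 - δ * γ)⁻¹ * (δ * lam), ?_⟩
      rw [mul_smul, h5, smul_smul, inv_mul_cancel₀ hc, one_smul]
  have hu0 : u ≠ 0 := by
    intro h0
    have h5 : lam • x₁ = (-γ) • b := by
      rw [hu1] at h0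
      rw [neg_smul]
      exact eq_neg_of_add_eq_zero_left h0
    by_cases hc : γ = 0
    · rw [hc, neg_zero, zero_smul] at h5
      exact hx₁0 ((smul_eq_zero.1 h5).resolve_left hay')
    · apply hbx₁
      rw [Submodule.mem_span_singleton]
      refine ⟨(-γ)⁻¹ * lam, ?_⟩
      rw [mul_smul, h5, smul_smul, inv_mul_cancel₀ (neg_ne_zero.2 hc), one_smul]
  refine ⟨u, huD', hu0, hp.ti' u huD' u huD', fun c hc => ?_⟩
  -- Stage B
  have hspanu : Submodule.span F {u} ≤ D' := by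
    rw [Submodule.span_singleton_le_iff_mem]
    exact huD'
  obtain ⟨θ, hθ⟩ := exists_trace_one hf
  obtain ⟨a', ha'D, ha'1, ha'b⟩ := hp.sep_val hf hspanu hbD' hbu (c * θ)
  have ha'u : f a' u = 0 := ha'1 u (Submodule.mem_span_singleton_self u)
  have h5 := PY_comm hf h3 (hH a' ha'D u huD' ha'u) (f_swap_zero hf ha'u) (hp.ti' u huD' u huD')
    (hp.ti' b hbD' u huD')
  rw [ha'b] at h5
  have h6 := PY_tv hf h5
  have h7 : c * θ - σ (c * θ) = c := by
    rw [map_mul]
    have : σ c = -c := eq_neg_of_add_eq_zero_right hc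
    rw [this]
    linear_combination c * hθ
  rwa [h7] at h6

/-- Stage C: from one centre in `D'` to all of `D'`. -/
theorem stageC (hp : UTP f D D') (hH : ∀ a ∈ D, ∀ b ∈ D', f a b = 0 → PY hf M a b) {u : ι → F}
    (hu : u ∈ D') (hu0 : u ≠ 0) (huT : u ∈ TU hf M) {v : ι → F} (hv : v ∈ D') : v ∈ TU hf M := by
  classical
  by_cases hmem : v ∈ Submodule.span F {u}
  · obtain ⟨γ, rfl⟩ := Submodule.mem_span_singleton.1 hmem
    exact TU_smul hf huT γ
  have hspanu : Submodule.span F {u} ≤ D' := by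
    rw [Submodule.span_singleton_le_iff_mem]
    exact hu
  have hspanv : Submodule.span F {v} ≤ D' := by
    rw [Submodule.span_singleton_le_iff_mem]
    exact hv
  have huv : u ∉ Submodule.span F {v} := by
    intro hmem'
    obtain ⟨γ, hγ⟩ := Submodule.mem_span_singleton.1 hmem'
    have hγ0 : γ ≠ 0 := by
      rintro rfl
      rw [zero_smul] at hγ
      exact hu0 hγ.symm
    apply hmem
    rw [Submodule.mem_span_singleton]
    refine ⟨γ⁻¹, ?_⟩
    rw [← hγ, smul_smul, inv_mul_cancel₀ hγ0, one_smul]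
  obtain ⟨a₁, ha₁, h1, h3⟩ := hp.sep_val hf hspanu hv hmem (-1)
  obtain ⟨a₂, ha₂, h4, h5⟩ := hp.sep_val hf hspanv hu huv (-1)
  have ha₁u : f a₁ u = 0 := h1 u (Submodule.mem_span_singleton_self u)
  have ha₂v : f a₂ v = 0 := h4 v (Submodule.mem_span_singleton_self v)
  set a := a₁ + a₂ with ha
  have haD : a ∈ D := D.add_mem ha₁ ha₂
  have hau : f a u = -1 := by rw [ha, hf.add_left, ha₁u, h5, zero_add]
  have hav : f a v = -1 := by rw [ha, hf.add_left, h3, ha₂v, add_zero]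
  have hvu : v - u ∈ D' := D'.sub_mem hv hu
  have hav' : f a (v - u) = 0 := by
    rw [f_sub_right hf, hau, hav, sub_self]
  obtain ⟨h0, h6⟩ := hH a haD (v - u) hvu hav'
  have h7 := TU_conj hf (unipY_pres hf h0) h6 huT
  have h8 : unip (Ym f a (v - u)) (Ym_sq hf h0) ⋆ u = v := by
    rw [unip_apply, Ym_apply hf, hp.ti' u hu _ hvu, zero_smul, zero_sub, hf.herm u a, hau, map_neg, map_one]
    simp
  rwa [h8] at h7

/-- Last stage: everything from the two subspaces. -/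
theorem all_TU (hp : UTP f D D') (hD : ∀ v ∈ D, v ∈ TU hf M) (hD' : ∀ v ∈ D', v ∈ TU hf M) {x : ι → F}
    (hxx : f x x = 0) : x ∈ TU hf M := by
  obtain ⟨a, ha, b, hb, rfl⟩ := hp.decomp x
  by_cases ha0 : a = 0
  · rw [ha0, zero_add]
    exact hD' b hb
  -- a vector of D' not orthogonal to a
  obtain ⟨c, hc, hac⟩ : ∃ c ∈ D', f a c ≠ 0 := by
    obtain ⟨z, hz⟩ := (hf.nondegenerate a ha0).2
    obtain ⟨z₀, hz₀, z₁, hz₁, rfl⟩ := hp.decomp z
    refine ⟨z₁, hz₁, ?_⟩
    rw [f_add_right hf, hp.ti a ha z₀ hz₀, zero_add] at hz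
    exact hz
  by_cases hab : f a b = 0
  · obtain ⟨c₀, hc₀0, hc₀⟩ := exists_traceless hf
    set μ := σ (c₀ / f a c) with hμ
    have hσμ : σ μ = c₀ / f a c := by rw [hμ, hf.involutive]
    have hc₁ : μ • c ∈ D' := D'.smul_mem _ hc
    have e1 : f a (μ • c) = c₀ := by
      rw [f_smul_right hf, hσμ]
      field_simp
    have e2 : f (μ • c) a = σ c₀ := by
      rw [hf.herm, e1]
    have h1 : a + μ • c ∈ TU hf M := by
      refine TU_add hf (hD a ha) (hD' _ hc₁) (by rw [e1]; exact hc₀0) ?_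
      rw [hf.add_left, f_add_right hf, f_add_right hf, e1, e2, hp.ti a ha a ha, hp.ti' _ hc₁ _ hc₁]
      linear_combination hc₀
    have hs : a + μ • c + (b - μ • c) = a + b := by abel
    have h3 : f (a + μ • c) (b - μ • c) ≠ 0 := by
      rw [hf.add_left, f_sub_right hf, f_sub_right hf, hab, e1, hp.ti' _ hc₁ _ hb, hp.ti' _ hc₁ _ hc₁]
      simpa using hc₀0
    have h4 := TU_add hf h1 (hD' _ (D'.sub_mem hb hc₁)) h3 (by rw [hs]; exact hxx)
    rwa [hs] at h4
  · exact TU_add hf (hD a ha) (hD' b hb) hab hxx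

/-- Existence of an element interchanging the two subspaces. -/
theorem exists_swap (hp : UTP f D D') (hdim : Module.finrank F D = Module.finrank F D') :
    ∃ s : GL ι F, s ∈ preserving (glToMat ι F) f ∧ (∀ x ∈ D, s ⋆ x ∈ D') ∧ ∀ x ∈ D', s ⋆ x ∈ D := by
  classical
  obtain ⟨φ⟩ : Nonempty (↥D ≃ₗ[F] ↥D') := ⟨LinearEquiv.ofFinrankEq _ _ hdim⟩
  let π₀ := Submodule.projectionOnto D D' hp.compl
  let π₁ := Submodule.projectionOnto D' D hp.compl.symm
  have hπ₀l : ∀ x (hx : x ∈ D), π₀ x = ⟨x, hx⟩ := fun x hx =>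
    Submodule.projectionOnto_apply_left hp.compl ⟨x, hx⟩
  have hπ₀r : ∀ x (hx : x ∈ D'), π₀ x = 0 := fun x hx =>
    Submodule.projectionOnto_apply_right hp.compl ⟨x, hx⟩
  have hπ₁l : ∀ x (hx : x ∈ D'), π₁ x = ⟨x, hx⟩ := fun x hx =>
    Submodule.projectionOnto_apply_left hp.compl.symm ⟨x, hx⟩
  have hπ₁r : ∀ x (hx : x ∈ D), π₁ x = 0 := fun x hx =>
    Submodule.projectionOnto_apply_right hp.compl.symm ⟨x, hx⟩
  -- the linear forms
  let ℓ : (ι → F) → ((ι → F) →ₗ[F] F) := fun b =>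
    { toFun := fun z => f ((φ.symm (π₁ z) : ↥D) : ι → F) b
      map_add' := by
        intro x y
        simp only [map_add, Submodule.coe_add]
        exact hf.add_left _ _ _
      map_smul' := by
        intro c x
        simp only [map_smul, Submodule.coe_smul, RingHom.id_apply, smul_eq_mul]
        exact hf.smul_left _ _ _ }
  choose T hT using fun b => exists_rep hf (ℓ b)
  have hT' : ∀ b z, f z (T b) = f ((φ.symm (π₁ z) : ↥D) : ι → F) b := fun b z => hT b z
  have huniq : ∀ u v : ι → F, (∀ z, f z u = f z v) → u = v := by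
    intro u v h
    by_contra hne
    obtain ⟨x, hx⟩ := (hf.nondegenerate (u - v) (sub_ne_zero.2 hne)).1
    apply hx
    rw [f_sub_right hf, h, sub_self]
  let TL : (ι → F) →ₗ[F] (ι → F) :=
    { toFun := T
      map_add' := by
        intro a b
        apply huniq
        intro z
        rw [hT', f_add_right hf, f_add_right hf, hT', hT']
      map_smul' := by
        intro c b
        apply huniq
        intro z
        simp only [RingHom.id_apply]
        rw [hT', f_smul_right hf, f_smul_right hf, hT'] }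
  have hTD : ∀ b, T b ∈ D := by
    intro b
    refine hp.perp_sub hf (fun w hw => ?_)
    rw [hT', hπ₁r w hw, map_zero]
    exact f_zero_left hf b
  let s₀ : (ι → F) →ₗ[F] (ι → F) :=
    D'.subtype ∘ₗ φ.toLinearMap ∘ₗ π₀ + TL ∘ₗ D'.subtype ∘ₗ π₁
  have hs₀ : ∀ z, s₀ z = ((φ (π₀ z) : ↥D') : ι → F) + T ((π₁ z : ↥D') : ι → F) := fun z => rfl
  have hsum : ∀ z, z = ((π₀ z : ↥D) : ι → F) + ((π₁ z : ↥D') : ι → F) := by
    intro z
    obtain ⟨z₀, hz₀, z₁, hz₁, rfl⟩ := hp.decomp z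
    rw [map_add, map_add, hπ₀l z₀ hz₀, hπ₀r z₁ hz₁, hπ₁r z₀ hz₀, hπ₁l z₁ hz₁]
    simp
  have hpres : ∀ u v, f (s₀ u) (s₀ v) = f u v := by
    intro u v
    rw [hs₀, hs₀]
    set a := π₀ u with ha
    set b := π₁ u with hb
    set a' := π₀ v with ha'
    set b' := π₁ v with hb'
    have hu : u = (a : ι → F) + (b : ι → F) := hsum u
    have hv : v = (a' : ι → F) + (b' : ι → F) := hsum v
    have e1 : f ((φ a : ↥D') : ι → F) ((φ a' : ↥D') : ι → F) = 0 := hp.ti' _ (φ a).2 _ (φ a').2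
    have e2 : f (T (b : ι → F)) (T (b' : ι → F)) = 0 := hp.ti _ (hTD _) _ (hTD _)
    have e4 : f ((φ a : ↥D') : ι → F) (T (b' : ι → F)) = f (a : ι → F) (b' : ι → F) := by
      rw [hT', hπ₁l _ (φ a).2]
      simp
    have e3 : f (T (b : ι → F)) ((φ a' : ↥D') : ι → F) = f (b : ι → F) (a' : ι → F) := by
      rw [hf.herm, hT', hπ₁l _ (φ a').2]
      simp only [Subtype.coe_eta, LinearEquiv.symm_apply_apply]
      rw [← hf.herm]
    rw [hf.add_left, f_add_right hf, f_add_right hf, e1, e2, e3, e4]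
    rw [hu, hv, hf.add_left, f_add_right hf, f_add_right hf]
    rw [hp.ti _ a.2 _ a'.2, hp.ti' _ b.2 _ b'.2]
  have hinj : Function.Injective s₀ := by
    rw [injective_iff_map_eq_zero]
    intro z hz
    by_contra h0
    obtain ⟨w, hw⟩ := (hf.nondegenerate z h0).2
    apply hw
    rw [← hpres, hz, f_zero_left hf]
  let e : (ι → F) ≃ₗ[F] (ι → F) := LinearEquiv.ofInjectiveEndo s₀ hinj
  have he : ∀ x, glOf e ⋆ x = s₀ x := fun x => by
    rw [glOf_apply]
    rfl
  refine ⟨glOf e, ?_, ?_, ?_⟩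
  · intro u v
    show f (glOf e ⋆ u) (glOf e ⋆ v) = f u v
    rw [he, he, hpres]
  · intro x hx
    rw [he, hs₀, hπ₁r x hx]
    have h0 : T ((0 : ↥D') : ι → F) = 0 := TL.map_zero
    rw [h0, add_zero]
    exact (φ _).2
  · intro x hx
    rw [he, hs₀, hπ₀r x hx]
    simp only [map_zero, ZeroMemClass.coe_zero, zero_add]
    exact hTD _

/-- If every "mixed" 2-space has its image meeting both targets, vectors go to the union of the targets. -/
theorem mem_union_of_mixed (hp : UTP f D D') (hm : 4 ≤ Module.finrank F D') {C C' : Submodule F (ι → F)}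
    (hC : IsCompl C C') (g : GL ι F)
    (hg : ∀ a ∈ D, ∀ b ∈ D', f a b = 0 →
      (∃ α β : F, (α ≠ 0 ∨ β ≠ 0) ∧ α • (g ⋆ a) + β • (g ⋆ b) ∈ C) ∧
      (∃ α β : F, (α ≠ 0 ∨ β ≠ 0) ∧ α • (g ⋆ a) + β • (g ⋆ b) ∈ C'))
    {a : ι → F} (ha : a ∈ D) : g ⋆ a ∈ C ∨ g ⋆ a ∈ C' := by
  classical
  by_contra hcon
  push Not at hcon
  obtain ⟨hC1, hC2⟩ := hcon
  have hdec : ∀ x : ι → F, ∃ x₀ ∈ C, ∃ x₁ ∈ C', x = x₀ + x₁ := by
    intro x
    have hx : x ∈ C ⊔ C' := by
      rw [hC.sup_eq_top]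
      trivial
    obtain ⟨y, hy, z, hz, rfl⟩ := Submodule.mem_sup.1 hx
    exact ⟨y, hy, z, hz, rfl⟩
  obtain ⟨s, hs, t, ht, hst⟩ := hdec (g ⋆ a)
  set B : Submodule F (ι → F) := D' ⊓ perpU hf (Submodule.span F {a}) with hB
  have hmaps : ∀ b ∈ B, g ⋆ b ∈ Submodule.span F ({s, t} : Set (ι → F)) := by
    intro b hb
    have hab : f a b = 0 := hb.2 a (Submodule.mem_span_singleton_self a)
    obtain ⟨⟨α, β, hαβ, h1⟩, ⟨α', β', hαβ', h2⟩⟩ := hg a ha b hb.1 hab
    have hβ : β ≠ 0 := by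
      rintro rfl
      have hα : α ≠ 0 := by simpa using hαβ
      apply hC1
      rw [zero_smul, add_zero] at h1
      have := C.smul_mem α⁻¹ h1
      rwa [smul_smul, inv_mul_cancel₀ hα, one_smul] at this
    have hβ' : β' ≠ 0 := by
      rintro rfl
      have hα : α' ≠ 0 := by simpa using hαβ'
      apply hC2
      rw [zero_smul, add_zero] at h2
      have := C'.smul_mem α'⁻¹ h2
      rwa [smul_smul, inv_mul_cancel₀ hα, one_smul] at this
    obtain ⟨p, hp', q, hq, hpq⟩ := hdec (g ⋆ b)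
    -- the component in C' of the first relation vanishes
    have hq0 : α • t + β • q = 0 := by
      have h3 : α • t + β • q = (α • (g ⋆ a) + β • (g ⋆ b)) - (α • s + β • p) := by
        rw [hst, hpq, smul_add, smul_add]
        abel
      have h4 : α • t + β • q ∈ C := by
        rw [h3]
        exact C.sub_mem h1 (C.add_mem (C.smul_mem _ hs) (C.smul_mem _ hp'))
      have h5 : α • t + β • q ∈ C' := C'.add_mem (C'.smul_mem _ ht) (C'.smul_mem _ hq)
      exact Submodule.disjoint_def.1 hC.disjoint _ h4 h5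
    have hp0 : α' • s + β' • p = 0 := by
      have h3 : α' • s + β' • p = (α' • (g ⋆ a) + β' • (g ⋆ b)) - (α' • t + β' • q) := by
        rw [hst, hpq, smul_add, smul_add]
        abel
      have h4 : α' • s + β' • p ∈ C' := by
        rw [h3]
        exact C'.sub_mem h2 (C'.add_mem (C'.smul_mem _ ht) (C'.smul_mem _ hq))
      have h5 : α' • s + β' • p ∈ C := C.add_mem (C.smul_mem _ hs) (C.smul_mem _ hp')
      exact Submodule.disjoint_def.1 hC.disjoint _ h5 h4
    have hq1 : q = (-(α / β)) • t := by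
      have h3 : β • q = -(α • t) := eq_neg_of_add_eq_zero_right hq0
      have h4 := congrArg (fun w => β⁻¹ • w) h3
      simp only [smul_smul, inv_mul_cancel₀ hβ, one_smul] at h4
      rw [h4, smul_neg, smul_smul, neg_smul, div_eq_inv_mul]
    have hp1 : p = (-(α' / β')) • s := by
      have h3 : β' • p = -(α' • s) := eq_neg_of_add_eq_zero_right hp0
      have h4 := congrArg (fun w => β'⁻¹ • w) h3
      simp only [smul_smul, inv_mul_cancel₀ hβ', one_smul] at h4
      rw [h4, smul_neg, smul_smul, neg_smul, div_eq_inv_mul]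
    rw [hpq, hq1, hp1]
    exact Submodule.add_mem _ (Submodule.smul_mem _ _ (Submodule.subset_span (by simp)))
      (Submodule.smul_mem _ _ (Submodule.subset_span (by simp)))
  have h1 := finrank_le_of_maps g hmaps
  have h2 := finrank_span_two (F := F) s t
  have h3 : Module.finrank F D' ≤ Module.finrank F B + Module.finrank F (Submodule.span F {a}) :=
    finrank_inf_perp hf D' (Submodule.span F {a})
  have h4 := finrank_span_one (F := F) a
  omega

/-- The main theorem: a subgroup containing the stabiliser of the pair and one further element contains the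
unitary transvections with all isotropic centres. -/
theorem all_iso (hp : UTP f D D') (hm : 6 ≤ Module.finrank F D') (hdim : Module.finrank F D = Module.finrank F D')
    (hMp : M ≤ preserving (glToMat ι F) f)
    (hH : ∀ a ∈ D, ∀ b ∈ D', f a b = 0 → PY hf M a b)
    (hswap : ∃ s ∈ M, (∀ x ∈ D, s ⋆ x ∈ D') ∧ ∀ x ∈ D', s ⋆ x ∈ D)
    {g : GL ι F} (hgM : g ∈ M)
    (hg : ¬ (((∀ x ∈ D, g ⋆ x ∈ D) ∧ ∀ x ∈ D', g ⋆ x ∈ D') ∨ ((∀ x ∈ D, g ⋆ x ∈ D') ∧ ∀ x ∈ D', g ⋆ x ∈ D))) :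
    ∀ v, f v v = 0 → v ∈ TU hf M := by
  classical
  have hgp := hMp hgM
  have hH' : ∀ a ∈ D', ∀ b ∈ D, f a b = 0 → PY hf M a b := fun a ha b hb hab =>
    PY_symm hf (hH b hb a ha (f_swap_zero hf hab))
  obtain ⟨s, hsM, hs1, hs2⟩ := hswap
  -- conclusion from a centre in either subspace
  have hfin : ∀ (A A' : Submodule F (ι → F)), UTP f A A' → (A = D ∧ A' = D' ∨ A = D' ∧ A' = D) →
      (∃ u ∈ A', u ≠ 0 ∧ u ∈ TU hf M) → ∀ v, f v v = 0 → v ∈ TU hf M := by
    intro A A' hpA hAA ⟨u, hu, hu0, huT⟩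
    have hA'T : ∀ v ∈ A', v ∈ TU hf M := by
      intro v hv
      rcases hAA with ⟨rfl, rfl⟩ | ⟨rfl, rfl⟩
      · exact stageC hf hp hH hu hu0 huT hv
      · exact stageC hf hp.symm hH' hu hu0 huT hv
    have hAT : ∀ v ∈ A, v ∈ TU hf M := by
      intro v hv
      rcases hAA with ⟨rfl, rfl⟩ | ⟨rfl, rfl⟩
      · -- v ∈ D: it is the image of an element of D' under s
        have hle : A'.map (linOf s).toLinearMap ≤ A := by
          rintro _ ⟨w, hw, rfl⟩
          exact hs2 w hw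
        have heq : A'.map (linOf s).toLinearMap = A := by
          refine Submodule.eq_of_le_of_finrank_eq hle ?_
          rw [LinearEquiv.finrank_map_eq, hdim]
        rw [← heq] at hv
        obtain ⟨w, hw, rfl⟩ := hv
        exact TU_conj hf (hMp hsM) hsM (hA'T w hw)
      · have hle : A'.map (linOf s).toLinearMap ≤ A := by
          rintro _ ⟨w, hw, rfl⟩
          exact hs1 w hw
        have heq : A'.map (linOf s).toLinearMap = A := by
          refine Submodule.eq_of_le_of_finrank_eq hle ?_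
          rw [LinearEquiv.finrank_map_eq, hdim]
        rw [← heq] at hv
        obtain ⟨w, hw, rfl⟩ := hv
        exact TU_conj hf (hMp hsM) hsM (hA'T w hw)
    intro v hv
    exact all_TU hf hpA hAT hA'T hv
  -- the alternative
  by_cases hmix : ∃ a ∈ D, ∃ b ∈ D', f a b = 0 ∧
      ((∀ α β : F, α • (g ⋆ a) + β • (g ⋆ b) ∈ D → α = 0 ∧ β = 0) ∨
        (∀ α β : F, α • (g ⋆ a) + β • (g ⋆ b) ∈ D' → α = 0 ∧ β = 0))
  · obtain ⟨a, ha, b, hb, hab, hmix⟩ := hmix
    have hxy : PY hf M (g ⋆ a) (g ⋆ b) := PY_conj hf hgp hgM (hH a ha b hb hab)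
    rcases hmix with h1 | h1
    · exact hfin D D' hp (Or.inl ⟨rfl, rfl⟩) (stageA hf hp hm hH hxy h1)
    · exact hfin D' D hp.symm (Or.inr ⟨rfl, rfl⟩) (stageA hf hp.symm (by omega) hH' hxy h1)
  · exfalso
    push Not at hmix
    apply hg
    have hk : ∀ a ∈ D, ∀ b ∈ D', f a b = 0 →
        (∃ α β : F, (α ≠ 0 ∨ β ≠ 0) ∧ α • (g ⋆ a) + β • (g ⋆ b) ∈ D) ∧
        (∃ α β : F, (α ≠ 0 ∨ β ≠ 0) ∧ α • (g ⋆ a) + β • (g ⋆ b) ∈ D') := by
      intro a ha b hb hab
      obtain ⟨⟨α, β, h1, h3⟩, ⟨α', β', h1', h3'⟩⟩ := hmix a ha b hb hab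
      refine ⟨⟨α, β, ?_, h1⟩, ⟨α', β', ?_, h1'⟩⟩
      · by_contra h0
        push Not at h0
        exact h3 h0.1 h0.2
      · by_contra h0
        push Not at h0
        exact h3' h0.1 h0.2
    have hk' : ∀ a ∈ D', ∀ b ∈ D, f a b = 0 →
        (∃ α β : F, (α ≠ 0 ∨ β ≠ 0) ∧ α • (g ⋆ a) + β • (g ⋆ b) ∈ D) ∧
        (∃ α β : F, (α ≠ 0 ∨ β ≠ 0) ∧ α • (g ⋆ a) + β • (g ⋆ b) ∈ D') := by
      intro a ha b hb hab
      obtain ⟨⟨α, β, h1, h3⟩, ⟨α', β', h1', h3'⟩⟩ := hk b hb a ha (f_swap_zero hf hab)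
      refine ⟨⟨β, α, h1.symm, ?_⟩, ⟨β', α', h1'.symm, ?_⟩⟩
      · rwa [add_comm]
      · rwa [add_comm]
    have hU0 : ∀ x ∈ D.map (linOf g).toLinearMap, x ∈ D ∨ x ∈ D' := by
      rintro _ ⟨w, hw, rfl⟩
      exact mem_union_of_mixed hf hp (by omega) hp.compl g hk hw
    have hU1 : ∀ x ∈ D'.map (linOf g).toLinearMap, x ∈ D ∨ x ∈ D' := by
      rintro _ ⟨w, hw, rfl⟩
      exact mem_union_of_mixed hf hp.symm (by omega) hp.compl g hk' hw
    have hnone : ∀ C : Submodule F (ι → F), D.map (linOf g).toLinearMap ≤ C →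
        D'.map (linOf g).toLinearMap ≤ C → C = ⊤ := by
      intro C h0 h1
      rw [eq_top_iff]
      intro x _
      obtain ⟨x₀, hx₀, x₁, hx₁, hx⟩ := hp.decomp (g⁻¹ ⋆ x)
      have hx' : x = g ⋆ x₀ + g ⋆ x₁ := by
        rw [← Matrix.mulVec_add, ← hx, mulVec_inv_GL]
      rw [hx']
      exact C.add_mem (h0 ⟨x₀, hx₀, rfl⟩) (h1 ⟨x₁, hx₁, rfl⟩)
    have hDne : D ≠ ⊤ := by
      intro h0
      have h1 := hp.compl.disjoint
      rw [h0, top_disjoint] at h1
      rw [h1, finrank_bot] at hm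
      omega
    have hD'ne : D' ≠ ⊤ := by
      intro h0
      have h1 := hp.compl.disjoint
      rw [h0, disjoint_top] at h1
      rw [h1, finrank_bot] at hdim
      omega
    rcases le_or_le_of_union _ _ _ hU0 with h0 | h0 <;> rcases le_or_le_of_union _ _ _ hU1 with h1 | h1
    · exact absurd (hnone D h0 h1) hDne
    · exact Or.inl ⟨fun x hx => h0 ⟨x, hx, rfl⟩, fun x hx => h1 ⟨x, hx, rfl⟩⟩
    · exact Or.inr ⟨fun x hx => h0 ⟨x, hx, rfl⟩, fun x hx => h1 ⟨x, hx, rfl⟩⟩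
    · exact absurd (hnone D' h0 h1) hD'ne

end Cfsg.Agent.Lib.UTIPair
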