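import Mathlib
import Cfsg.Agent.Lib.UTIPair
import Cfsg.Agent.Lib.SpSubfield

/-!
# Subfield subgroups of the special unitary groups

Rational structures of a unitary form: a non rational transvection in an overgroup of the rational group gives, by
rank reduction, a non rational root element, and then all the unitary transvections.
-/

set_option autoImplicit false
set_option linter.unusedSectionVars false
set_option linter.unusedVariables false
set_option linter.unusedSimpArgs false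

namespace Cfsg.Agent.Lib.USubfield

open Matrix Cfsg Cfsg.Geo Cfsg.Agent.Lib.TvGL Cfsg.Agent.Lib.UForm Cfsg.Agent.Lib.UTrans
  Cfsg.Agent.Lib.UTIPair
open Cfsg.Agent.Lib.SympT (cov GL_ext mulVec_mul_GL mulVec_inv_GL inv_mulVec_GL pres_apply)
open Cfsg.Agent.Lib.QForm (unip unip_val unip_apply unip_inv_val vv_mul)
open Cfsg.Agent.Lib.SympTIPair (comm_unip_gen)

local notation:70 g:71 " ⋆ " x:70 => Matrix.mulVec (Units.val g) x

section Generic

variable {ι : Type} [Fintype ι] [DecidableEq ι] {F : Type*} [Field F] [Fintype F]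
  {σ : F ≃+* F} {f : (ι → F) → (ι → F) → F} (hf : IsUnitaryForm σ f)

include hf

theorem f_sum_left {α : Type*} (s : Finset α) (g : α → ι → F) (v : ι → F) :
    f (∑ i ∈ s, g i) v = ∑ i ∈ s, f (g i) v := by
  classical
  induction s using Finset.induction_on with
  | empty => simp [f_zero_left hf]
  | insert a s ha ih => rw [Finset.sum_insert ha, Finset.sum_insert ha, hf.add_left, ih]

/-- An isotropic vector orthogonal to a small set. -/
theorem exists_iso_perp (C : Finset (ι → F)) (h : C.card + 2 ≤ Fintype.card ι) :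
    ∃ y, y ≠ 0 ∧ f y y = 0 ∧ ∀ c ∈ C, f c y = 0 := by
  classical
  have hS : Module.finrank F (Submodule.span F (C : Set (ι → F))) ≤ C.card :=
    finrank_span_finset_le_card C
  have hU : 0 < Module.finrank F (perpU hf (Submodule.span F (C : Set (ι → F)))) := by
    rw [finrank_perpU hf]
    omega
  obtain ⟨⟨a, haU⟩, ha00⟩ := Module.finrank_pos_iff_exists_ne_zero.1 hU
  have ha0 : a ≠ 0 := fun e => ha00 (Subtype.ext e)
  have haC : ∀ c ∈ C, f c a = 0 := fun c hc => haU c (Submodule.subset_span hc)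
  by_cases haa : f a a = 0
  · exact ⟨a, ha0, haa, haC⟩
  have hS' : Module.finrank F (Submodule.span F ((insert a C : Finset (ι → F)) : Set (ι → F))) ≤ C.card + 1 :=
    (finrank_span_finset_le_card _).trans (Finset.card_insert_le _ _)
  have hU' : 0 < Module.finrank F (perpU hf (Submodule.span F ((insert a C : Finset (ι → F)) : Set (ι → F)))) := by
    rw [finrank_perpU hf]
    omega
  obtain ⟨⟨b, hbU⟩, hb00⟩ := Module.finrank_pos_iff_exists_ne_zero.1 hU'
  have hb0 : b ≠ 0 := fun e => hb00 (Subtype.ext e)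
  have hbC : ∀ c ∈ C, f c b = 0 := fun c hc => hbU c (Submodule.subset_span (by simp [hc]))
  have hab : f a b = 0 := hbU a (Submodule.subset_span (by simp))
  have hba : f b a = 0 := f_swap_zero hf hab
  by_cases hbb : f b b = 0
  · exact ⟨b, hb0, hbb, hbC⟩
  have hfix : σ (- f a a / f b b) = - f a a / f b b := by
    rw [map_div₀, map_neg, Q_fixed hf, Q_fixed hf]
  obtain ⟨μ, hμ⟩ := exists_norm hf hfix
  refine ⟨a + μ • b, ?_, ?_, ?_⟩
  · intro h0
    have h1 : f (a + μ • b) b = 0 := by rw [h0, f_zero_left hf]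
    rw [hf.add_left, hf.smul_left, hab, zero_add] at h1
    have hμ0 : μ = 0 := (mul_eq_zero.1 h1).resolve_right hbb
    rw [hμ0, zero_smul, add_zero] at h0
    exact ha0 h0
  · rw [hf.add_left, f_add_right hf, f_add_right hf, hf.smul_left, hf.smul_left, f_smul_right hf,
      f_smul_right hf, hab, hba]
    have : μ * (σ μ * f b b) = - f a a := by
      rw [← mul_assoc, hμ]
      field_simp
    rw [this]
    ring
  · intro c hc
    rw [f_add_right hf, f_smul_right hf, haC c hc, hbC c hc]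
    ring

/-- The hyperbolic partner. -/
theorem exists_partner_of {y z : ι → F} (hyy : f y y = 0) (hzy : f z y ≠ 0) :
    ∃ c d : F, f (c • z + d • y) (c • z + d • y) = 0 ∧ f (c • z + d • y) y = 1 := by
  have hfix : σ (- f ((f z y)⁻¹ • z) ((f z y)⁻¹ • z)) = - f ((f z y)⁻¹ • z) ((f z y)⁻¹ • z) := by
    rw [map_neg, Q_fixed hf]
  obtain ⟨d, hd⟩ := exists_trace_eq hf hfix
  have h1 : f ((f z y)⁻¹ • z) y = 1 := by
    rw [hf.smul_left, inv_mul_cancel₀ hzy]
  have h2 : f y ((f z y)⁻¹ • z) = 1 := by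
    rw [hf.herm, h1, map_one]
  refine ⟨(f z y)⁻¹, d, ?_, ?_⟩
  · rw [hf.add_left, f_add_right hf, f_add_right hf, hf.smul_left d, hf.smul_left d, f_smul_right hf d,
      f_smul_right hf d, h1, h2, hyy]
    linear_combination hd
  · rw [hf.add_left, h1, hf.smul_left, hyy]
    ring

omit hf in
/-- Hyperbolic families. -/
def IsHyp (f : (ι → F) → (ι → F) → F) (k : ℕ) (x y : ℕ → ι → F) : Prop :=
  ∀ i < k, ∀ j < k, f (x i) (x j) = 0 ∧ f (y i) (y j) = 0 ∧ f (x i) (y j) = if i = j then 1 else 0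

/-- A hyperbolic pair orthogonal to a hyperbolic family. -/
theorem IsHyp.extend {k : ℕ} {x y : ℕ → ι → F} (h : IsHyp f k x y) (hk : 2 * k + 2 ≤ Fintype.card ι) :
    ∃ a b, f a a = 0 ∧ f b b = 0 ∧ f a b = 1 ∧
      ∀ i < k, f a (x i) = 0 ∧ f a (y i) = 0 ∧ f b (x i) = 0 ∧ f b (y i) = 0 := by
  classical
  set C : Finset (ι → F) := (Finset.range k).image x ∪ (Finset.range k).image y with hC
  have hcard : C.card ≤ 2 * k := by
    refine (Finset.card_union_le _ _).trans ?_
    have h1 := Finset.card_image_le (s := Finset.range k) (f := x)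
    have h2 := Finset.card_image_le (s := Finset.range k) (f := y)
    rw [Finset.card_range] at h1 h2
    omega
  obtain ⟨a, ha0, haa, haC⟩ := exists_iso_perp hf C (by omega)
  have hax : ∀ i < k, f a (x i) = 0 := fun i hi => f_swap_zero hf (haC _ (by
    rw [hC, Finset.mem_union, Finset.mem_image]
    exact Or.inl ⟨i, Finset.mem_range.2 hi, rfl⟩))
  have hay : ∀ i < k, f a (y i) = 0 := fun i hi => f_swap_zero hf (haC _ (by
    rw [hC, Finset.mem_union, Finset.mem_image, Finset.mem_image]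
    exact Or.inr ⟨i, Finset.mem_range.2 hi, rfl⟩))
  obtain ⟨w, hw⟩ := (hf.nondegenerate a ha0).1
  set w' : ι → F := w - ∑ i ∈ Finset.range k, (f w (y i) • x i + f w (x i) • y i) with hw'
  have hyx : ∀ i < k, ∀ j < k, f (y i) (x j) = if i = j then 1 else 0 := by
    intro i hi j hj
    rw [hf.herm, (h j hj i hi).2.2]
    by_cases hij : i = j
    · subst hij
      simp
    · have : ¬ j = i := fun e => hij e.symm
      simp [hij, this]
  have hw'x : ∀ j < k, f w' (x j) = 0 := by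
    intro j hj
    rw [hw', f_sub_left hf, f_sum_left hf]
    have h1 : ∑ i ∈ Finset.range k, f (f w (y i) • x i + f w (x i) • y i) (x j) =
        ∑ i ∈ Finset.range k, if i = j then f w (x i) else 0 := by
      refine Finset.sum_congr rfl fun i hi => ?_
      have hi' := Finset.mem_range.1 hi
      rw [hf.add_left, hf.smul_left, hf.smul_left, (h i hi' j hj).1, hyx i hi' j hj]
      split_ifs <;> simp
    rw [h1, Finset.sum_ite_eq' , if_pos (Finset.mem_range.2 hj), sub_self]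
  have hw'y : ∀ j < k, f w' (y j) = 0 := by
    intro j hj
    rw [hw', f_sub_left hf, f_sum_left hf]
    have h1 : ∑ i ∈ Finset.range k, f (f w (y i) • x i + f w (x i) • y i) (y j) =
        ∑ i ∈ Finset.range k, if i = j then f w (y i) else 0 := by
      refine Finset.sum_congr rfl fun i hi => ?_
      have hi' := Finset.mem_range.1 hi
      rw [hf.add_left, hf.smul_left, hf.smul_left, (h i hi' j hj).2.1, (h i hi' j hj).2.2]
      split_ifs <;> simp
    rw [h1, Finset.sum_ite_eq', if_pos (Finset.mem_range.2 hj), sub_self]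
  have hw'a : f w' a ≠ 0 := by
    have h1 : f w' a = f w a := by
      rw [hw', f_sub_left hf, f_sum_left hf, Finset.sum_eq_zero, sub_zero]
      intro i hi
      have hi' := Finset.mem_range.1 hi
      rw [hf.add_left, hf.smul_left, hf.smul_left, f_swap_zero hf (hax i hi'), f_swap_zero hf (hay i hi')]
      ring
    rwa [h1]
  obtain ⟨c, d, hb1, hb2⟩ := exists_partner_of hf haa hw'a
  refine ⟨a, c • w' + d • a, haa, hb1, ?_, ?_⟩
  · rw [hf.herm, hb2, map_one]
  · intro i hi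
    refine ⟨hax i hi, hay i hi, ?_, ?_⟩
    · rw [hf.add_left, hf.smul_left, hf.smul_left, hw'x i hi, hax i hi]
      ring
    · rw [hf.add_left, hf.smul_left, hf.smul_left, hw'y i hi, hay i hi]
      ring

/-- Hyperbolic partners of two orthogonal isotropic vectors. -/
theorem exists_two_partners (hn : 9 ≤ Fintype.card ι) {z₁ z₂ : ι → F} (h1 : f z₁ z₁ = 0) (h2 : f z₂ z₂ = 0)
    (h12 : f z₁ z₂ = 0) (hi : ∀ a b : F, a • z₁ + b • z₂ = 0 → a = 0 ∧ b = 0) :
    ∃ y₁ y₂, f y₁ y₁ = 0 ∧ f y₂ y₂ = 0 ∧ f y₁ y₂ = 0 ∧ f z₁ y₁ = 1 ∧ f z₁ y₂ = 0 ∧ f z₂ y₁ = 0 ∧ f z₂ y₂ = 1 := by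
  classical
  have h21 : f z₂ z₁ = 0 := f_swap_zero hf h12
  -- first partner
  have hn1 : z₁ ∉ Submodule.span F {z₂} := by
    intro hm
    obtain ⟨c, hc⟩ := Submodule.mem_span_singleton.1 hm
    have := hi 1 (-c) (by rw [← hc]; simp)
    exact one_ne_zero this.1
  obtain ⟨a, haS, ha⟩ := exists_perp_of_notMem hf hn1
  have ha2 : f z₂ a = 0 := haS z₂ (Submodule.mem_span_singleton_self z₂)
  have ha' : f a z₁ ≠ 0 := f_swap_ne hf ha
  obtain ⟨y₁, hy1, hy2⟩ := prescribed hf ({z₁, z₂} : Finset (ι → F)) ((f a z₁)⁻¹ • a) 0 (map_zero σ) (by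
    have : ({z₁, z₂} : Finset (ι → F)).card ≤ 2 := Finset.card_le_two
    omega)
  have hy11 : f y₁ z₁ = 1 := by
    rw [hy1 z₁ (by simp), hf.smul_left, inv_mul_cancel₀ ha']
  have hy12 : f y₁ z₂ = 0 := by
    rw [hy1 z₂ (by simp), hf.smul_left, f_swap_zero hf ha2, mul_zero]
  -- second partner
  have hn2 : z₂ ∉ Submodule.span F ({z₁, y₁} : Set (ι → F)) := by
    intro hm
    obtain ⟨c, d, hc⟩ := Submodule.mem_span_pair.1 hm
    have h3 : f (c • z₁ + d • y₁) z₁ = 0 := by rw [hc, h21]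
    rw [hf.add_left, hf.smul_left, hf.smul_left, h1, hy11] at h3
    have hd : d = 0 := by linear_combination h3
    have := hi (-c) 1 (by rw [← hc, hd]; simp)
    exact one_ne_zero this.2
  obtain ⟨b, hbS, hb⟩ := exists_perp_of_notMem hf hn2
  have hb1 : f z₁ b = 0 := hbS z₁ (Submodule.subset_span (by simp))
  have hb2 : f y₁ b = 0 := hbS y₁ (Submodule.subset_span (by simp))
  have hb' : f b z₂ ≠ 0 := f_swap_ne hf hb
  obtain ⟨y₂, hy3, hy4⟩ := prescribed hf ({z₁, z₂, y₁} : Finset (ι → F)) ((f b z₂)⁻¹ • b) 0 (map_zero σ) (by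
    have : ({z₁, z₂, y₁} : Finset (ι → F)).card ≤ 3 := Finset.card_le_three
    omega)
  have hy21 : f y₂ z₂ = 1 := by
    rw [hy3 z₂ (by simp), hf.smul_left, inv_mul_cancel₀ hb']
  have hy22 : f y₂ z₁ = 0 := by
    rw [hy3 z₁ (by simp), hf.smul_left, f_swap_zero hf hb1, mul_zero]
  have hy23 : f y₂ y₁ = 0 := by
    rw [hy3 y₁ (by simp), hf.smul_left, f_swap_zero hf hb2, mul_zero]
  refine ⟨y₁, y₂, hy2, hy4, f_swap_zero hf hy23, ?_, f_swap_zero hf hy22, f_swap_zero hf hy12, ?_⟩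
  · rw [hf.herm, hy11, map_one]
  · rw [hf.herm, hy21, map_one]

/-- A hyperbolic family of five pairs through two orthogonal isotropic vectors. -/
theorem exists_frame (hn : 13 ≤ Fintype.card ι) {z₁ z₂ : ι → F} (h1 : f z₁ z₁ = 0) (h2 : f z₂ z₂ = 0)
    (h12 : f z₁ z₂ = 0) (hi : ∀ a b : F, a • z₁ + b • z₂ = 0 → a = 0 ∧ b = 0) :
    ∃ x y : ℕ → ι → F, x 0 = z₁ ∧ x 1 = z₂ ∧ IsHyp f 5 x y := by
  classical
  have h21 : f z₂ z₁ = 0 := f_swap_zero hf h12
  obtain ⟨y₁, y₂, p1, p2, p3, p4, p5, p6, p7⟩ := exists_two_partners hf (by omega) h1 h2 h12 hi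
  have key : ∀ k, 2 ≤ k → k ≤ 5 → ∃ x y : ℕ → ι → F, x 0 = z₁ ∧ x 1 = z₂ ∧ IsHyp f k x y := by
    intro k hk
    induction k, hk using Nat.le_induction with
    | base =>
      intro _
      refine ⟨fun i => if i = 0 then z₁ else z₂, fun i => if i = 0 then y₁ else y₂, by simp, by simp, ?_⟩
      intro i hi' j hj
      have hi2 : i = 0 ∨ i = 1 := by omega
      have hj2 : j = 0 ∨ j = 1 := by omega
      rcases hi2 with rfl | rfl <;> rcases hj2 with rfl | rfl <;>
        simp [h1, h2, h12, h21, p1, p2, p3, f_swap_zero hf p3, p4, p5, p6, p7]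
    | succ k hk ih =>
      intro hk5
      obtain ⟨x, y, hx0, hx1, hH⟩ := ih (by omega)
      obtain ⟨a, b, haa, hbb, hab, hrest⟩ := hH.extend hf (by omega)
      refine ⟨Function.update x k a, Function.update y k b, ?_, ?_, ?_⟩
      · rw [Function.update_of_ne (by omega), hx0]
      · rw [Function.update_of_ne (by omega), hx1]
      · intro i hi' j hj
        have hi3 : i < k ∨ i = k := by omega
        have hj3 : j < k ∨ j = k := by omega
        rcases hi3 with hi3 | rfl <;> rcases hj3 with hj3 | rfl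
        · rw [Function.update_of_ne (by omega), Function.update_of_ne (by omega),
            Function.update_of_ne (by omega), Function.update_of_ne (by omega)]
          exact hH i hi3 j hj3
        · rw [Function.update_of_ne (by omega), Function.update_self, Function.update_of_ne (by omega),
            Function.update_self]
          obtain ⟨r1, r2, r3, r4⟩ := hrest i hi3
          have hne : i ≠ j := by omega
          rw [if_neg hne]
          exact ⟨f_swap_zero hf r1, f_swap_zero hf r4, f_swap_zero hf r3⟩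
        · rw [Function.update_self, Function.update_of_ne (by omega), Function.update_self,
            Function.update_of_ne (by omega)]
          obtain ⟨r1, r2, r3, r4⟩ := hrest j hj3
          have hne : i ≠ j := by omega
          rw [if_neg hne]
          exact ⟨r1, r4, r2⟩
        · simp only [Function.update_self, if_true]
          exact ⟨haa, hbb, hab⟩
  exact key 5 (by omega) le_rfl

/-- Isotropic vectors span. -/
theorem span_iso (hn : 5 ≤ Fintype.card ι) :
    Submodule.span F {v : ι → F | f v v = 0} = ⊤ := by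
  classical
  by_contra hne
  obtain ⟨u, hu⟩ : ∃ u, u ∉ Submodule.span F {v : ι → F | f v v = 0} := by
    by_contra hcon
    push Not at hcon
    exact hne (eq_top_iff.2 fun x _ => hcon x)
  obtain ⟨a, haS, ha⟩ := exists_perp_of_notMem hf hu
  have ha0 : a ≠ 0 := by
    rintro rfl
    exact ha (f_zero_right hf u)
  obtain ⟨w, hw⟩ := (hf.nondegenerate a ha0).1
  obtain ⟨z, hz1, hz2⟩ := prescribed hf ({a} : Finset (ι → F)) w 0 (map_zero σ) (by simp; omega)
  have h1 : f z a = 0 := haS z (Submodule.subset_span hz2)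
  rw [hz1 a (by simp)] at h1
  exact hw h1

/-- Separation: an isotropic vector orthogonal to two given vectors and a vector orthogonal to these two. -/
theorem exists_iso_sep (hn : 9 ≤ Fintype.card ι) (u₁ u₂ : ι → F) :
    ∃ x b, f x x = 0 ∧ f x u₁ = 0 ∧ f x u₂ = 0 ∧ f u₁ b = 0 ∧ f u₂ b = 0 ∧ f x b ≠ 0 := by
  classical
  set S : Submodule F (ι → F) := Submodule.span F ({u₁, u₂} : Set (ι → F)) with hS
  have hfS : Module.finrank F S ≤ 2 := by
    have h1 : Module.finrank F (Submodule.span F (({u₁, u₂} : Finset (ι → F)) : Set (ι → F))) ≤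
        ({u₁, u₂} : Finset (ι → F)).card := finrank_span_finset_le_card _
    have h2 : (({u₁, u₂} : Finset (ι → F)) : Set (ι → F)) = {u₁, u₂} := by simp
    rw [h2] at h1
    exact h1.trans Finset.card_le_two
  have hfP : Module.finrank F (perpU hf S) = Fintype.card ι - Module.finrank F S := finrank_perpU hf S
  obtain ⟨b, hbP, hbS⟩ : ∃ b ∈ perpU hf S, b ∉ S := by
    by_contra hcon
    push Not at hcon
    have h1 : perpU hf S ≤ S := hcon
    have h2 := Submodule.finrank_mono h1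
    omega
  have hb1 : f u₁ b = 0 := hbP u₁ (Submodule.subset_span (by simp))
  have hb2 : f u₂ b = 0 := hbP u₂ (Submodule.subset_span (by simp))
  obtain ⟨a, haP, ha⟩ := exists_perp_of_notMem hf hbS
  have ha1 : f u₁ a = 0 := haP u₁ (Submodule.subset_span (by simp))
  have ha2 : f u₂ a = 0 := haP u₂ (Submodule.subset_span (by simp))
  obtain ⟨x, hx1, hx2⟩ := prescribed hf ({u₁, u₂, b} : Finset (ι → F)) a 0 (map_zero σ) (by
    have : ({u₁, u₂, b} : Finset (ι → F)).card ≤ 3 := Finset.card_le_three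
    omega)
  refine ⟨x, b, hx2, ?_, ?_, hb1, hb2, ?_⟩
  · rw [hx1 u₁ (by simp)]
    exact f_swap_zero hf ha1
  · rw [hx1 u₂ (by simp)]
    exact f_swap_zero hf ha2
  · rw [hx1 b (by simp)]
    exact f_swap_ne hf ha

/-- A hyperbolic pair orthogonal to two given vectors. -/
theorem exists_hyp_perp_two (hn : 9 ≤ Fintype.card ι) (u₁ u₂ : ι → F) :
    ∃ a b, f a a = 0 ∧ f b b = 0 ∧ f b a = 1 ∧ f a u₁ = 0 ∧ f a u₂ = 0 ∧ f b u₁ = 0 ∧ f b u₂ = 0 := by
  classical
  obtain ⟨x, b, h1, h2, h3, h4, h5, h6⟩ := exists_iso_sep hf hn u₁ u₂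
  have hnot : x ∉ Submodule.span F ({u₁, u₂} : Set (ι → F)) := by
    intro hm
    obtain ⟨c, d, hc⟩ := Submodule.mem_span_pair.1 hm
    apply h6
    rw [← hc, hf.add_left, hf.smul_left, hf.smul_left, h4, h5]
    ring
  obtain ⟨a, haP, ha⟩ := exists_perp_of_notMem hf hnot
  have ha1 : f u₁ a = 0 := haP u₁ (Submodule.subset_span (by simp))
  have ha2 : f u₂ a = 0 := haP u₂ (Submodule.subset_span (by simp))
  have ha' : f a x ≠ 0 := f_swap_ne hf ha
  obtain ⟨y, hy1, hy2⟩ := prescribed hf ({u₁, u₂, x} : Finset (ι → F)) ((f a x)⁻¹ • a) 0 (map_zero σ) (by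
    have : ({u₁, u₂, x} : Finset (ι → F)).card ≤ 3 := Finset.card_le_three
    omega)
  refine ⟨x, y, h1, hy2, ?_, h2, h3, ?_, ?_⟩
  · rw [hy1 x (by simp), hf.smul_left, inv_mul_cancel₀ ha']
  · rw [hy1 u₁ (by simp), hf.smul_left, f_swap_zero hf ha1, mul_zero]
  · rw [hy1 u₂ (by simp), hf.smul_left, f_swap_zero hf ha2, mul_zero]

end Generic

section Rational

variable {ι : Type} [Fintype ι] [DecidableEq ι] {F : Type*} [Field F] [Fintype F]
  {σ : F ≃+* F} {f : (ι → F) → (ι → F) → F} {F₀ : Subfield F}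

/-- The embedding of the rational vectors. -/
def emb (x : ι → F₀) : ι → F := fun i => (x i : F)

@[simp] theorem emb_apply (x : ι → F₀) (i : ι) : emb x i = (x i : F) := rfl

theorem emb_add (x y : ι → F₀) : emb (x + y) = emb x + emb y := by
  ext i; simp [emb]

theorem emb_sub (x y : ι → F₀) : emb (x - y) = emb x - emb y := by
  ext i; simp [emb]

theorem emb_neg (x : ι → F₀) : emb (-x) = - emb x := by
  ext i; simp [emb]

theorem emb_zero : emb (0 : ι → F₀) = 0 := by
  ext i; simp [emb]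

theorem emb_smul (c : F₀) (x : ι → F₀) : emb (c • x) = (c : F) • emb x := by
  ext i; simp [emb]

theorem emb_single (i : ι) : (Pi.single i 1 : ι → F) = emb (Pi.single i (1 : F₀)) := by
  ext j
  by_cases h : j = i
  · subst h; simp [emb]
  · simp [emb, Pi.single_apply, h]

theorem emb_inj {x y : ι → F₀} (h : emb x = emb y) : x = y := by
  ext i
  have := congrFun h i
  simpa [emb] using this

/-- A rational structure of a unitary form. -/
structure RatForm (σ : F ≃+* F) (f : (ι → F) → (ι → F) → F) (F₀ : Subfield F) : Prop where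
  σ_mem : ∀ a ∈ F₀, σ a ∈ F₀
  ex : ∃ ω ∈ F₀, σ ω ≠ ω
  f_mem : ∀ x y : ι → F₀, f (emb x) (emb y) ∈ F₀

variable (hf : IsUnitaryForm σ f) (hS : RatForm σ f F₀)

/-- The involution on the subfield. -/
def sig : F₀ ≃+* F₀ where
  toFun a := ⟨σ a, hS.σ_mem _ a.2⟩
  invFun a := ⟨σ a, hS.σ_mem _ a.2⟩
  left_inv a := Subtype.ext (hf.involutive a)
  right_inv a := Subtype.ext (hf.involutive a)
  map_mul' a b := Subtype.ext (by simp)
  map_add' a b := Subtype.ext (by simp)

@[simp] theorem sig_coe (a : F₀) : ((sig hf hS a : F₀) : F) = σ a := rfl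

/-- The rational form. -/
def fr (x y : ι → F₀) : F₀ := ⟨f (emb x) (emb y), hS.f_mem x y⟩

@[simp] theorem fr_coe (x y : ι → F₀) : ((fr hS x y : F₀) : F) = f (emb x) (emb y) := rfl

theorem fr_unitary : IsUnitaryForm (sig hf hS) (fr hS) where
  ne_refl := by
    obtain ⟨ω, hω, hne⟩ := hS.ex
    intro h
    apply hne
    have := congrArg (fun τ : F₀ ≃+* F₀ => ((τ ⟨ω, hω⟩ : F₀) : F)) h
    simpa using this
  involutive a := Subtype.ext (hf.involutive a)
  add_left x y v := Subtype.ext (by simp [emb_add, hf.add_left])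
  smul_left c x v := Subtype.ext (by simp [emb_smul, hf.smul_left])
  herm v w := Subtype.ext (by simpa using hf.herm (emb v) (emb w))
  nondegenerate := by
    intro v hv
    have hv' : emb v ≠ 0 := fun h => hv (emb_inj (by rw [h, emb_zero]))
    have hex : ∃ i, f (Pi.single i 1) (emb v) ≠ 0 := by
      by_contra hcon
      push Not at hcon
      apply hv'
      apply cov_injective hf
      ext i
      have h0 : cov f (0 : ι → F) i = 0 := f_zero_right hf _
      rw [h0]
      exact hcon i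
    obtain ⟨i, hi⟩ := hex
    rw [emb_single] at hi
    refine ⟨⟨Pi.single i 1, fun h0 => hi ?_⟩, ⟨Pi.single i 1, fun h0 => ?_⟩⟩
    · have := congrArg Subtype.val h0
      simpa using this
    · apply hi
      have h1 := congrArg Subtype.val h0
      have h2 : f (emb v) (emb (Pi.single i (1 : F₀))) = 0 := by simpa using h1
      exact f_swap_zero hf h2

include hS in
theorem cov_rat (x : ι → F₀) (i : ι) : cov f (emb x) i ∈ F₀ := by
  show f (Pi.single i 1) (emb x) ∈ F₀
  rw [emb_single]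
  exact hS.f_mem _ _

variable {M : Subgroup (GL ι F)}

/-- The hypothesis on `M`. -/
structure Ctx (hf : IsUnitaryForm σ f) (F₀ : Subfield F) (M : Subgroup (GL ι F)) : Prop where
  pres : M ≤ preserving (glToMat ι F) f
  rat : ∀ g : GL ι F, (∀ k l, (g : Matrix ι ι F) k l ∈ F₀) → g ∈ preserving (glToMat ι F) f →
    g ∈ specialLinear ι F → g ∈ M

variable (hM : Ctx hf F₀ M)

include hf hS hM

theorem P_rat {x : ι → F₀} (hx : f (emb x) (emb x) = 0) {c : F} (hc : c ∈ F₀) (hc0 : c + σ c = 0) :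
    P hf M (c • emb x) (emb x) := by
  have h0 : f (c • emb x) (emb x) = 0 := by rw [hf.smul_left, hx, mul_zero]
  refine ⟨h0, hM.rat _ ?_ (tauU_pres hf hx hc0 h0) (tv_mem_specialLinear _ _ _)⟩
  intro k l
  show ((tv (c • emb x) (cov f (emb x)) (dot_ok hf h0) : GL ι F) : Matrix ι ι F) k l ∈ F₀
  rw [tv_val]
  simp only [Matrix.add_apply, Matrix.one_apply, vecMulVec_apply, Pi.smul_apply, smul_eq_mul]
  refine F₀.add_mem ?_ (F₀.mul_mem (F₀.mul_mem hc (x k).2) (cov_rat hS x l))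
  split_ifs
  · exact F₀.one_mem
  · exact F₀.zero_mem

theorem PY_rat {x y : ι → F₀} (h : f (emb x) (emb x) = 0 ∧ f (emb y) (emb y) = 0 ∧ f (emb x) (emb y) = 0) :
    PY hf M (emb x) (emb y) := by
  refine ⟨h, hM.rat _ ?_ (unipY_pres hf h) (unipY_mem_SL hf h)⟩
  intro k l
  rw [unip_val]
  simp only [Ym, Matrix.add_apply, Matrix.sub_apply, Matrix.one_apply, vecMulVec_apply]
  refine F₀.add_mem ?_ (F₀.sub_mem (F₀.mul_mem (x k).2 (cov_rat hS y l)) (F₀.mul_mem (y k).2 (cov_rat hS x l)))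
  split_ifs
  · exact F₀.one_mem
  · exact F₀.zero_mem

omit hS hM in
theorem emb_iso_zero {x : ι → F₀} (hS' : RatForm σ f F₀) (h : fr hS' x x = 0) : f (emb x) (emb x) = 0 := by
  have := congrArg Subtype.val h
  simpa using this

omit hf hM in
theorem fr_eq_zero {x y : ι → F₀} : fr hS x y = 0 ↔ f (emb x) (emb y) = 0 := by
  constructor
  · intro h
    have := congrArg Subtype.val h
    simpa using this
  · intro h
    exact Subtype.ext (by simpa using h)

end Rational

section StageI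

variable {ι : Type} [Fintype ι] [DecidableEq ι] {F : Type*} [Field F] [Fintype F]
  {σ : F ≃+* F} {f : (ι → F) → (ι → F) → F} {F₀ : Subfield F}
  (hf : IsUnitaryForm σ f) (hS : RatForm σ f F₀)

include hf hS

omit hf hS in
theorem emb_ne_zero {x : ι → F₀} (hx : x ≠ 0) : emb x ≠ 0 :=
  fun h => hx (emb_inj (by rw [h, emb_zero]))

/-- An element of `GL` outside the rational group times the scalars moves a rational isotropic vector
to a vector which is not a multiple of a rational vector. -/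
theorem exists_not_prop (hn : 13 ≤ Fintype.card ι) {g : GL ι F}
    (hg : g ∉ (Matrix.GeneralLinearGroup.map (F₀.subtype : F₀ →+* F)).range ⊔ scalars ι F) :
    ∃ x : ι → F₀, f (emb x) (emb x) = 0 ∧ ∀ (c : F) (y : ι → F₀), g ⋆ emb x ≠ c • emb y := by
  classical
  let _ : Fintype F₀ := Fintype.ofFinite _
  have hf₀ := fr_unitary hf hS
  by_contra hcon
  push Not at hcon
  apply hg
  have hginj : ∀ {x : ι → F}, g ⋆ x = 0 → x = 0 := by
    intro x hx
    have h1 := inv_mulVec_GL g x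
    rw [hx, Matrix.mulVec_zero] at h1
    exact h1.symm
  obtain ⟨x₀, hx₀, hx₀x₀, -⟩ := exists_iso_perp hf₀ (∅ : Finset (ι → F₀)) (by simp; omega)
  obtain ⟨c₀, y₀, h₀⟩ := hcon x₀ ((fr_eq_zero hS).1 hx₀x₀)
  have hc₀ : c₀ ≠ 0 := by
    rintro rfl
    rw [zero_smul] at h₀
    exact emb_ne_zero hx₀ (hginj h₀)
  set R : (ι → F₀) → Prop := fun z => ∃ y : ι → F₀, g ⋆ emb z = c₀ • emb y with hR
  have hA : ∀ u w, fr hS u u = 0 → fr hS w w = 0 → fr hS u w = 0 →
      (∀ α β : F, α • emb u + β • emb w = 0 → α = 0 ∧ β = 0) → R u → R w := by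
    rintro u w huu hww huw hind ⟨y₁, hy₁⟩
    have huu' := (fr_eq_zero hS).1 huu
    have hww' := (fr_eq_zero hS).1 hww
    have huw' := (fr_eq_zero hS).1 huw
    have hwu' := f_swap_zero hf huw'
    have hw0 : emb w ≠ 0 := by
      intro h
      have := hind 0 1 (by simp [h])
      exact one_ne_zero this.2
    obtain ⟨c₂, y₂, hy₂⟩ := hcon w hww'
    have hc₂ : c₂ ≠ 0 := by
      rintro rfl
      rw [zero_smul] at hy₂
      exact hw0 (hginj hy₂)
    obtain ⟨c, y, hy⟩ := hcon (u + w) (by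
      rw [emb_add, hf.add_left, f_add_right hf, f_add_right hf, huu', hww', huw', hwu']
      ring)
    have hsum : c₀ • emb y₁ + c₂ • emb y₂ = c • emb y := by
      rw [← hy₁, ← hy₂, ← hy, emb_add, Matrix.mulVec_add]
    have hind' : ∀ a b : F, a • emb y₁ + b • emb y₂ = 0 → a = 0 ∧ b = 0 := by
      intro a b hab
      have h1 : (a * c₀⁻¹) • emb u + (b * c₂⁻¹) • emb w = 0 := by
        apply hginj
        rw [Matrix.mulVec_add, Matrix.mulVec_smul, Matrix.mulVec_smul, hy₁, hy₂, smul_smul, smul_smul,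
          mul_assoc, mul_assoc, inv_mul_cancel₀ hc₀, inv_mul_cancel₀ hc₂, mul_one, mul_one]
        exact hab
      obtain ⟨h2, h3⟩ := hind _ _ h1
      exact ⟨(mul_eq_zero.1 h2).resolve_right (inv_ne_zero hc₀), (mul_eq_zero.1 h3).resolve_right (inv_ne_zero hc₂)⟩
    have n1 : y₁ ∉ Submodule.span F₀ {y₂} := by
      intro hm
      obtain ⟨l, hl⟩ := Submodule.mem_span_singleton.1 hm
      have := hind' 1 (-(l : F)) (by rw [← hl, emb_smul]; simp)
      exact one_ne_zero this.1
    have n2 : y₂ ∉ Submodule.span F₀ {y₁} := by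
      intro hm
      obtain ⟨l, hl⟩ := Submodule.mem_span_singleton.1 hm
      have := hind' (-(l : F)) 1 (by rw [← hl, emb_smul]; simp)
      exact one_ne_zero this.2
    obtain ⟨a₁, ha₁S, ha₁⟩ := exists_perp_of_notMem hf₀ n1
    obtain ⟨a₂, ha₂S, ha₂⟩ := exists_perp_of_notMem hf₀ n2
    have ha₁2 : f (emb y₂) (emb a₁) = 0 := (fr_eq_zero hS).1 (ha₁S y₂ (Submodule.mem_span_singleton_self y₂))
    have ha₂1 : f (emb y₁) (emb a₂) = 0 := (fr_eq_zero hS).1 (ha₂S y₁ (Submodule.mem_span_singleton_self y₁))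
    have hA₁ : f (emb y₁) (emb a₁) ≠ 0 := fun h => ha₁ ((fr_eq_zero hS).2 h)
    have hA₂ : f (emb y₂) (emb a₂) ≠ 0 := fun h => ha₂ ((fr_eq_zero hS).2 h)
    have e1 : c₀ * f (emb y₁) (emb a₁) = c * f (emb y) (emb a₁) := by
      have := congrArg (fun v => f v (emb a₁)) hsum
      simp only [hf.add_left, hf.smul_left, ha₁2, mul_zero, add_zero] at this
      exact this
    have e2 : c₂ * f (emb y₂) (emb a₂) = c * f (emb y) (emb a₂) := by
      have := congrArg (fun v => f v (emb a₂)) hsum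
      simp only [hf.add_left, hf.smul_left, ha₂1, mul_zero, zero_add] at this
      exact this
    have hB₁ : f (emb y) (emb a₁) ≠ 0 := by
      intro h0
      rw [h0, mul_zero] at e1
      exact (mul_ne_zero hc₀ hA₁) e1
    have hr : f (emb y₁) (emb a₁) * f (emb y) (emb a₂) / (f (emb y) (emb a₁) * f (emb y₂) (emb a₂)) ∈ F₀ :=
      F₀.div_mem (F₀.mul_mem (hS.f_mem _ _) (hS.f_mem _ _)) (F₀.mul_mem (hS.f_mem _ _) (hS.f_mem _ _))
    refine ⟨(⟨_, hr⟩ : F₀) • y₂, ?_⟩
    rw [hy₂, emb_smul, smul_smul]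
    congr 1
    show c₂ = c₀ * (f (emb y₁) (emb a₁) * f (emb y) (emb a₂) / (f (emb y) (emb a₁) * f (emb y₂) (emb a₂)))
    field_simp
    linear_combination f (emb y) (emb a₁) * e2 - f (emb y) (emb a₂) * e1
  have hall : ∀ z, fr hS z z = 0 → R z := by
    intro z hz
    by_cases hz0 : z = 0
    · refine ⟨0, ?_⟩
      rw [hz0, emb_zero, Matrix.mulVec_zero, smul_zero]
    obtain ⟨x, b, p1, p2, p3, p4, p5, p6⟩ := exists_iso_sep hf₀ (by omega) x₀ z
    have p4' := (fr_eq_zero hS).1 p4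
    have p5' := (fr_eq_zero hS).1 p5
    have p6' : f (emb x) (emb b) ≠ 0 := fun h => p6 ((fr_eq_zero hS).2 h)
    have hRx : R x := by
      refine hA x₀ x hx₀x₀ p1 (f_swap_zero hf₀ p2) ?_ ⟨y₀, h₀⟩
      intro α β h
      have h1 := congrArg (fun v => f v (emb b)) h
      simp only [hf.add_left, hf.smul_left, p4', mul_zero, zero_add, f_zero_left hf] at h1
      have hβ : β = 0 := (mul_eq_zero.1 h1).resolve_right p6'
      rw [hβ, zero_smul, add_zero] at h
      exact ⟨(smul_eq_zero.1 h).resolve_right (emb_ne_zero hx₀), hβ⟩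
    refine hA x z p1 hz p3 ?_ hRx
    intro α β h
    have h1 := congrArg (fun v => f v (emb b)) h
    simp only [hf.add_left, hf.smul_left, p5', mul_zero, add_zero, f_zero_left hf] at h1
    have hα : α = 0 := (mul_eq_zero.1 h1).resolve_right p6'
    rw [hα, zero_smul, zero_add] at h
    exact ⟨hα, (smul_eq_zero.1 h).resolve_right (emb_ne_zero hz0)⟩
  let S₁ : Submodule F₀ (ι → F₀) :=
    { carrier := {z | R z}
      add_mem' := by
        rintro a b ⟨y, hy⟩ ⟨y', hy'⟩
        refine ⟨y + y', ?_⟩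
        rw [emb_add, emb_add, Matrix.mulVec_add, hy, hy', smul_add]
      zero_mem' := ⟨0, by rw [emb_zero, Matrix.mulVec_zero, smul_zero]⟩
      smul_mem' := by
        rintro c a ⟨y, hy⟩
        refine ⟨c • y, ?_⟩
        rw [emb_smul, emb_smul, Matrix.mulVec_smul, hy, smul_smul, smul_smul, mul_comm] }
  have hle : Submodule.span F₀ {v : ι → F₀ | fr hS v v = 0} ≤ S₁ := Submodule.span_le.2 hall
  rw [span_iso hf₀ (by omega)] at hle
  refine Cfsg.Agent.Lib.SubfieldMax.mem_sup_scalars_of_entries (inv_ne_zero hc₀) ?_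
  intro k l
  obtain ⟨y, hy⟩ : R (Pi.single l 1) := hle (Submodule.mem_top)
  rw [← emb_single] at hy
  have h1 : (g : Matrix ι ι F) k l = c₀ * y k := by
    have := congrFun hy k
    simpa using this
  rw [h1, ← mul_assoc, inv_mul_cancel₀ hc₀, one_mul]
  exact (y k).2

end StageI

section StageII

variable {ι : Type} [Fintype ι] [DecidableEq ι] {F : Type*} [Field F] [Fintype F]
  {σ : F ≃+* F} {f : (ι → F) → (ι → F) → F} {F₀ : Subfield F}
  (hf : IsUnitaryForm σ f) (hS : RatForm σ f F₀) {M : Subgroup (GL ι F)} (hM : Ctx hf F₀ M)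

/-- Transvections with centre `v` and rational coefficients. -/
def Good (hf : IsUnitaryForm σ f) (F₀ : Subfield F) (M : Subgroup (GL ι F)) (v : ι → F) : Prop :=
  f v v = 0 ∧ ∀ c ∈ F₀, c + σ c = 0 → P hf M (c • v) v

omit [Fintype F] in
theorem Good.conj [Fintype F] {t : GL ι F} (ht : t ∈ M) (htp : t ∈ preserving (glToMat ι F) f) {v : ι → F}
    (h : Good hf F₀ M v) : Good hf F₀ M (t ⋆ v) := by
  refine ⟨by rw [pres_apply htp, h.1], fun c hc hc0 => ?_⟩
  have := P_conj hf htp ht (h.2 c hc hc0)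
  rwa [Matrix.mulVec_smul] at this

include hf hS

/-- A vector which is not a multiple of a rational one has two rational isotropic coordinates with
non rational ratio. -/
theorem exists_ratio (hn : 13 ≤ Fintype.card ι) {v : ι → F} (hnp : ∀ (c : F) (y : ι → F₀), v ≠ c • emb y) :
    ∃ z z' : ι → F₀, fr hS z z = 0 ∧ fr hS z' z' = 0 ∧ f (emb z) v ≠ 0 ∧ f (emb z') v ≠ 0 ∧
      f (emb z) v / f (emb z') v ∉ F₀ := by
  classical
  let _ : Fintype F₀ := Fintype.ofFinite _
  have hf₀ := fr_unitary hf hS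
  by_contra hcon
  push Not at hcon
  have hv0 : v ≠ 0 := by
    intro h0
    apply hnp 0 0
    rw [h0, zero_smul]
  let L : (ι → F₀) →ₗ[F₀] F :=
    { toFun := fun z => f (emb z) v
      map_add' := fun a b => by rw [emb_add, hf.add_left]
      map_smul' := fun c a => by
        rw [emb_smul, hf.smul_left]
        rfl }
  have hL : ∀ z, L z = f (emb z) v := fun z => rfl
  have hspan := span_iso hf₀ (by omega : 5 ≤ Fintype.card ι)
  -- a non-zero coordinate
  obtain ⟨z₁, hz₁, hz₁0⟩ : ∃ z₁, fr hS z₁ z₁ = 0 ∧ L z₁ ≠ 0 := by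
    by_contra hno
    push Not at hno
    have hle : Submodule.span F₀ {v : ι → F₀ | fr hS v v = 0} ≤ LinearMap.ker L :=
      Submodule.span_le.2 (fun z hz => hno z hz)
    rw [hspan] at hle
    apply hv0
    apply cov_injective hf
    ext i
    have h0 : cov f (0 : ι → F) i = 0 := f_zero_right hf _
    rw [h0]
    show f (Pi.single i 1) v = 0
    rw [emb_single, ← hL]
    exact hle Submodule.mem_top
  set c := L z₁ with hc
  let S₃ : Submodule F₀ (ι → F₀) :=
    { carrier := {z | L z / c ∈ F₀}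
      add_mem' := by
        intro a b ha hb
        show L (a + b) / c ∈ F₀
        rw [map_add, add_div]
        exact F₀.add_mem ha hb
      zero_mem' := by
        show L 0 / c ∈ F₀
        rw [map_zero, zero_div]
        exact F₀.zero_mem
      smul_mem' := by
        intro d a ha
        show L (d • a) / c ∈ F₀
        rw [map_smul, Subfield.smul_def, smul_eq_mul, mul_div_assoc]
        exact F₀.mul_mem d.2 ha }
  have hle : Submodule.span F₀ {v : ι → F₀ | fr hS v v = 0} ≤ S₃ := by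
    refine Submodule.span_le.2 (fun z hz => ?_)
    show L z / c ∈ F₀
    by_cases h0 : L z = 0
    · rw [h0, zero_div]
      exact F₀.zero_mem
    · exact hcon z z₁ hz hz₁ h0 hz₁0
  rw [hspan] at hle
  have hmem : ∀ z, L z / c ∈ F₀ := fun z => hle Submodule.mem_top
  let ℓ : (ι → F₀) →ₗ[F₀] F₀ :=
    { toFun := fun z => ⟨L z / c, hmem z⟩
      map_add' := fun a b => Subtype.ext (by simp [add_div])
      map_smul' := fun d a => Subtype.ext (by simp [mul_div_assoc, Subfield.smul_def]) }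
  obtain ⟨ψ, hψ⟩ := exists_rep hf₀ ℓ
  have hμ : emb ψ = σ c⁻¹ • v := by
    apply cov_injective hf
    ext i
    show f (Pi.single i 1) (emb ψ) = f (Pi.single i 1) (σ c⁻¹ • v)
    rw [f_smul_right hf, hf.involutive, emb_single]
    have h1 := congrArg Subtype.val (hψ (Pi.single i 1))
    simp only [fr_coe] at h1
    rw [h1]
    show L (Pi.single i 1) / c = _
    rw [hL, div_eq_inv_mul]
  have hσc : σ c⁻¹ ≠ 0 := by
    rw [Ne, map_eq_zero]
    exact inv_ne_zero hz₁0
  apply hnp (σ c⁻¹)⁻¹ ψ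
  rw [hμ, smul_smul, inv_mul_cancel₀ hσc, one_smul]

include hM

/-- A good centre with two commuting rational coordinates of non rational ratio. -/
theorem exists_good_pair (hn : 13 ≤ Fintype.card ι) {v : ι → F} (hv : Good hf F₀ M v)
    (hnp : ∀ (c : F) (y : ι → F₀), v ≠ c • emb y) :
    ∃ (v' : ι → F) (z₁ z₂ : ι → F₀), Good hf F₀ M v' ∧ fr hS z₁ z₁ = 0 ∧ fr hS z₂ z₂ = 0 ∧ fr hS z₁ z₂ = 0 ∧
      f (emb z₁) v' ≠ 0 ∧ f (emb z₂) v' ≠ 0 ∧ f (emb z₁) v' / f (emb z₂) v' ∉ F₀ := by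
  classical
  let _ : Fintype F₀ := Fintype.ofFinite _
  have hf₀ := fr_unitary hf hS
  obtain ⟨z, z', hz, hz', h1, h2, h3⟩ := exists_ratio hf hS hn hnp
  by_cases hex : ∃ w : ι → F₀, fr hS w w = 0 ∧ fr hS w z = 0 ∧ fr hS w z' = 0 ∧ f (emb w) v ≠ 0
  · obtain ⟨w, hw, hwz, hwz', hw0⟩ := hex
    by_cases hr : f (emb w) v / f (emb z) v ∈ F₀
    · refine ⟨v, w, z', hv, hw, hz', hwz', hw0, h2, ?_⟩
      intro hr'
      apply h3
      have e : f (emb z) v / f (emb z') v = (f (emb w) v / f (emb z') v) / (f (emb w) v / f (emb z) v) := by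
        field_simp
      rw [e]
      exact F₀.div_mem hr' hr
    · exact ⟨v, w, z, hv, hw, hz, hwz, hw0, h1, hr⟩
  · push Not at hex
    obtain ⟨a, b, haa, hbb, hba, ha1, ha2, hb1, hb2⟩ := exists_hyp_perp_two hf₀ (by omega) z z'
    have hρa : f (emb a) v = 0 := hex a haa ha1 ha2
    have hρb : f (emb b) v = 0 := hex b hbb hb1 hb2
    have hza : f (emb z) (emb a) = 0 := f_swap_zero hf ((fr_eq_zero hS).1 ha1)
    have haz' : f (emb a) (emb z') = 0 := (fr_eq_zero hS).1 ha2
    have hzb : fr hS z b = 0 := f_swap_zero hf₀ hb1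
    have hY : f (emb a) (emb a) = 0 ∧ f (emb z') (emb z') = 0 ∧ f (emb a) (emb z') = 0 :=
      ⟨(fr_eq_zero hS).1 haa, (fr_eq_zero hS).1 hz', haz'⟩
    obtain ⟨h0, hmem⟩ := PY_rat hf hS hM hY
    set t := unip (Ym f (emb a) (emb z')) (Ym_sq hf h0) with ht
    have htp : t ∈ preserving (glToMat ι F) f := unipY_pres hf h0
    have hv' : t ⋆ v = v + f v (emb z') • emb a := by
      rw [ht, unip_apply, Ym_apply hf, hf.herm v (emb a), hρa, map_zero, zero_smul, sub_zero]
    have hval : ∀ u : ι → F₀, f (emb u) (t ⋆ v) = f (emb u) v + f (emb z') v * f (emb u) (emb a) := by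
      intro u
      rw [hv', f_add_right hf, f_smul_right hf, ← hf.herm]
    refine ⟨t ⋆ v, z, b, hv.conj hf hmem htp, hz, hbb, hzb, ?_, ?_, ?_⟩
    · rw [hval, hza, mul_zero, add_zero]
      exact h1
    · rw [hval, hρb, zero_add]
      have hba' : f (emb b) (emb a) = 1 := by
        have := congrArg Subtype.val hba
        simpa using this
      rw [hba', mul_one]
      exact h2
    · have hba' : f (emb b) (emb a) = 1 := by
        have := congrArg Subtype.val hba
        simpa using this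
      rw [hval, hval, hza, hρb, hba', mul_zero, add_zero, zero_add, mul_one]
      exact h3

end StageII

section StageIII

variable {ι : Type} [Fintype ι] [DecidableEq ι] {F : Type*} [Field F] [Fintype F]
  {σ : F ≃+* F} {f : (ι → F) → (ι → F) → F} {F₀ : Subfield F}
  (hf : IsUnitaryForm σ f) (hS : RatForm σ f F₀) {M : Subgroup (GL ι F)} (hM : Ctx hf F₀ M)

include hf hS

/-- The shift making the norm ratio non rational. -/
theorem exists_shift {t : F} (ht : t ∉ F₀) : ∃ μ ∈ F₀, (t + μ) * σ (t + μ) ∉ F₀ := by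
  by_contra hcon
  push Not at hcon
  obtain ⟨ω, hω, hne⟩ := hS.ex
  have h0 := hcon 0 F₀.zero_mem
  have h1 := hcon 1 F₀.one_mem
  have h2 := hcon ω hω
  simp only [add_zero] at h0
  have hσω := hS.σ_mem ω hω
  have hA : t + σ t ∈ F₀ := by
    have e : t + σ t = (t + 1) * σ (t + 1) - t * σ t - 1 := by
      simp only [map_add, map_one]
      ring
    rw [e]
    exact F₀.sub_mem (F₀.sub_mem h1 h0) F₀.one_mem
  have hB : t * σ ω + ω * σ t ∈ F₀ := by
    have e : t * σ ω + ω * σ t = (t + ω) * σ (t + ω) - t * σ t - ω * σ ω := by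
      simp only [map_add]
      ring
    rw [e]
    exact F₀.sub_mem (F₀.sub_mem h2 h0) (F₀.mul_mem hω hσω)
  apply ht
  have hd : σ ω - ω ≠ 0 := sub_ne_zero.2 hne
  have e : t = ((t * σ ω + ω * σ t) - ω * (t + σ t)) / (σ ω - ω) := by
    rw [eq_div_iff hd]
    ring
  rw [e]
  exact F₀.div_mem (F₀.sub_mem hB (F₀.mul_mem hω hA)) (F₀.sub_mem hσω hω)

include hM

/-- The rank reduction: a transvection with centre on a rational totally isotropic line. -/
theorem exists_root {v : ι → F} {z₁ z₂ : ι → F₀} (hv : Good hf F₀ M v) (hz₁ : fr hS z₁ z₁ = 0)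
    (hz₂ : fr hS z₂ z₂ = 0) (h12 : fr hS z₁ z₂ = 0) (h1 : f (emb z₁) v ≠ 0) (h2 : f (emb z₂) v ≠ 0)
    (h3 : f (emb z₁) v / f (emb z₂) v ∉ F₀) :
    ∃ (z : ι → F₀) (u u' d : F), fr hS z z = 0 ∧ fr hS z z₂ = 0 ∧ u ≠ 0 ∧ u' ≠ 0 ∧ u' / u ∉ F₀ ∧ d ≠ 0 ∧
      d + σ d = 0 ∧ P hf M (d • (u • emb z + u' • emb z₂)) (u • emb z + u' • emb z₂) ∧
      ∀ a b : F₀, a • z + b • z₂ = 0 → a = 0 ∧ b = 0 := by
  classical
  let _ : Fintype F₀ := Fintype.ofFinite _
  have hf₀ := fr_unitary hf hS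
  obtain ⟨μ, hμ, hN⟩ := exists_shift hf hS h3
  set z := z₁ + (⟨μ, hμ⟩ : F₀) • z₂ with hz
  have hezz : emb z = emb z₁ + μ • emb z₂ := by
    rw [hz, emb_add, emb_smul]
  have e11 := (fr_eq_zero hS).1 hz₁
  have e22 := (fr_eq_zero hS).1 hz₂
  have e12 := (fr_eq_zero hS).1 h12
  have e21 := f_swap_zero hf e12
  have ezz : f (emb z) (emb z) = 0 := by
    rw [hezz, hf.add_left, f_add_right hf, f_add_right hf, hf.smul_left, hf.smul_left, f_smul_right hf,
      f_smul_right hf, e11, e12, e21, e22]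
    ring
  have ez2 : f (emb z) (emb z₂) = 0 := by
    rw [hezz, hf.add_left, hf.smul_left, e12, e22]
    ring
  have e2z : f (emb z₂) (emb z) = 0 := f_swap_zero hf ez2
  set r₁ := f (emb z) v with hr₁
  set r₂ := f (emb z₂) v with hr₂
  have hr₁' : r₁ = f (emb z₁) v + μ * r₂ := by
    rw [hr₁, hezz, hf.add_left, hf.smul_left]
  have hq : r₁ / r₂ = f (emb z₁) v / r₂ + μ := by
    rw [hr₁']
    field_simp
  have hq' : r₁ / r₂ ∉ F₀ := by
    intro hm
    apply h3
    have : f (emb z₁) v / r₂ = r₁ / r₂ - μ := by rw [hq]; ring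
    rw [this]
    exact F₀.sub_mem hm hμ
  have hr₁0 : r₁ ≠ 0 := by
    intro h0
    apply hq'
    rw [h0, zero_div]
    exact F₀.zero_mem
  have hσr₂ : σ r₂ ≠ 0 := by
    rw [Ne, map_eq_zero]
    exact h2
  have hσr₁ : σ r₁ ≠ 0 := by
    rw [Ne, map_eq_zero]
    exact hr₁0
  set N₁ := r₁ * σ r₁ with hN₁
  set N₂ := r₂ * σ r₂ with hN₂
  have hN₂0 : N₂ ≠ 0 := mul_ne_zero h2 hσr₂
  have hσN₁ : σ N₁ = N₁ := by
    rw [hN₁, map_mul, hf.involutive, mul_comm]
  have hσN₂ : σ N₂ = N₂ := by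
    rw [hN₂, map_mul, hf.involutive, mul_comm]
  have hNq : N₁ / N₂ ∉ F₀ := by
    intro hm
    apply hN
    rw [← hq]
    have : r₁ / r₂ * σ (r₁ / r₂) = N₁ / N₂ := by
      rw [map_div₀, hN₁, hN₂]
      field_simp
    rw [this]
    exact hm
  have hDp : N₁ + N₂ ≠ 0 := by
    intro h0
    apply hNq
    have : N₁ / N₂ = -1 := by
      rw [div_eq_iff hN₂0]
      linear_combination h0
    rw [this]
    exact F₀.neg_mem F₀.one_mem
  have hDm : N₁ - N₂ ≠ 0 := by
    intro h0
    apply hNq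
    have : N₁ / N₂ = 1 := by
      rw [div_eq_iff hN₂0]
      linear_combination h0
    rw [this]
    exact F₀.one_mem
  obtain ⟨c₀', hc₀0', hc₀tr'⟩ := exists_traceless hf₀
  set c₀ : F := (c₀' : F) with hc₀
  have hc₀0 : c₀ ≠ 0 := fun h => hc₀0' (Subtype.ext h)
  have hc₀tr : c₀ + σ c₀ = 0 := by
    have := congrArg Subtype.val hc₀tr'
    simpa using this
  have hσc₀ : σ c₀ = - c₀ := by linear_combination hc₀tr
  have hc₀F : c₀ ∈ F₀ := c₀'.2
  -- the sign
  obtain ⟨ε, hε, hε4⟩ : ∃ ε : F, (ε = 1 ∨ ε = -1) ∧ c₀ ^ 2 * (N₁ + ε * N₂) + 4 ≠ 0 := by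
    by_cases h4 : c₀ ^ 2 * (N₁ + N₂) + 4 = 0
    · refine ⟨-1, Or.inr rfl, ?_⟩
      intro h5
      have h6 : 2 * c₀ ^ 2 * N₂ = 0 := by linear_combination h4 - h5
      have h7 : (2 : F) = 0 := by
        by_contra h8
        exact (mul_ne_zero (mul_ne_zero h8 (pow_ne_zero _ hc₀0)) hN₂0) h6
      have h9 : c₀ ^ 2 * (N₁ + N₂) = 0 := by linear_combination h4 - 2 * h7
      exact (mul_ne_zero (pow_ne_zero _ hc₀0) hDp) h9
    · exact ⟨1, Or.inl rfl, by rwa [one_mul]⟩
  have hεF : ε ∈ F₀ := by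
    rcases hε with rfl | rfl
    · exact F₀.one_mem
    · exact F₀.neg_mem F₀.one_mem
  have hσε : σ ε = ε := by
    rcases hε with rfl | rfl <;> simp
  have hε0 : ε ≠ 0 := by
    rcases hε with rfl | rfl
    · exact one_ne_zero
    · exact neg_ne_zero.2 one_ne_zero
  have hD : N₁ + ε * N₂ ≠ 0 := by
    rcases hε with rfl | rfl
    · rwa [one_mul]
    · intro h0
      apply hDm
      linear_combination h0
  have hκ0 : c₀ ^ 2 * (N₁ + ε * N₂) ≠ 0 := mul_ne_zero (pow_ne_zero _ hc₀0) hD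
  -- the three transvections
  obtain ⟨p0, m0⟩ := hv.2 c₀ hc₀F hc₀tr
  obtain ⟨p1, m1⟩ := P_rat hf hS hM ezz hc₀F hc₀tr
  have hεc₀tr : ε * c₀ + σ (ε * c₀) = 0 := by
    rw [map_mul, hσε]
    linear_combination ε * hc₀tr
  obtain ⟨p2, m2⟩ := P_rat hf hS hM e22 (F₀.mul_mem hεF hc₀F) hεc₀tr
  have hA1 : cov f v ⬝ᵥ (c₀ • emb z) = c₀ * r₁ := by rw [cov_dot hf, hf.smul_left]
  have hA2 : cov f v ⬝ᵥ ((ε * c₀) • emb z₂) = ε * c₀ * r₂ := by rw [cov_dot hf, hf.smul_left]
  have hB1 : cov f (emb z) ⬝ᵥ (c₀ • v) = c₀ * σ r₁ := by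
    rw [cov_dot hf, hf.smul_left, hf.herm v]
  have hB2 : cov f (emb z₂) ⬝ᵥ (c₀ • v) = c₀ * σ r₂ := by
    rw [cov_dot hf, hf.smul_left, hf.herm v]
  have h12' : cov f (emb z) ⬝ᵥ ((ε * c₀) • emb z₂) = 0 := by
    rw [cov_dot hf, hf.smul_left, e2z, mul_zero]
  have h21' : cov f (emb z₂) ⬝ᵥ (c₀ • emb z) = 0 := by
    rw [cov_dot hf, hf.smul_left, ez2, mul_zero]
  have hκ : (cov f v ⬝ᵥ (c₀ • emb z)) * (cov f (emb z) ⬝ᵥ (c₀ • v)) +
      (cov f v ⬝ᵥ ((ε * c₀) • emb z₂)) * (cov f (emb z₂) ⬝ᵥ (c₀ • v)) = c₀ ^ 2 * (N₁ + ε * N₂) := by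
    rw [hA1, hA2, hB1, hB2, hN₁, hN₂]
    ring
  obtain ⟨H, hpow⟩ := Cfsg.Agent.Lib.SubfieldMax.tv_pow (v := c₀ • v) (f := cov f v) (w₁ := c₀ • emb z)
    (h₁ := cov f (emb z)) (w₂ := (ε * c₀) • emb z₂) (h₂ := cov f (emb z₂)) (dot_ok hf p0) (dot_ok hf p1)
    h12' h21' (dot_ok hf p2) (by rw [hκ]; exact hκ0) (by rw [hκ]; exact hε4)
  have hmem : tv (c₀ • v) (cov f v) (dot_ok hf p0) * tv (c₀ • emb z) (cov f (emb z)) (dot_ok hf p1) *
      tv ((ε * c₀) • emb z₂) (cov f (emb z₂)) (dot_ok hf p2) ∈ M := M.mul_mem (M.mul_mem m0 m1) m2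
  have hmem2 := M.pow_mem hmem (Fintype.card F ^ 2 - 1)
  rw [hpow] at hmem2
  set W : ι → F := r₂ • emb z + (- r₁) • emb z₂ with hW
  set d : F := - (c₀ ^ 2 * (N₁ + ε * N₂))⁻¹ * (ε * c₀ ^ 3) with hd
  have hWW : f W W = 0 := by
    simp only [hW, hf.add_left, f_add_right hf, hf.smul_left, f_smul_right hf, ezz, ez2, e2z, e22, mul_zero,
      add_zero]
  have hdW : f (d • W) W = 0 := by rw [hf.smul_left, hWW, mul_zero]
  have hdz : ∀ y : ι → F, f y W = σ r₂ * f y (emb z) - σ r₁ * f y (emb z₂) := by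
    intro y
    rw [hW, f_add_right hf, f_smul_right hf, f_smul_right hf, map_neg]
    ring
  have helem : tau hf (d • W) W hdW ∈ M := by
    convert hmem2 using 1
    apply GL_ext
    intro y
    rw [tau_apply, tv_mulVec]
    rw [hκ, hA1, hA2, hB1, hB2]
    simp only [sub_dotProduct, smul_dotProduct, cov_dot hf, hdz, smul_eq_mul]
    rw [hW, hd]
    ext i
    simp only [Pi.add_apply, Pi.sub_apply, Pi.smul_apply, smul_eq_mul, Pi.neg_apply]
    have hinv : (c₀ ^ 2 * (N₁ + ε * N₂))⁻¹ * (c₀ ^ 2 * (N₁ + ε * N₂)) = 1 := inv_mul_cancel₀ hκ0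
    ring
  refine ⟨z, r₂, -r₁, d, (fr_eq_zero hS).2 ezz, (fr_eq_zero hS).2 ez2, h2, neg_ne_zero.2 hr₁0, ?_, ?_, ?_, ⟨hdW, helem⟩, ?_⟩
  · intro hm
    apply hq'
    have h5 : r₁ / r₂ = ((-r₁ / r₂) ^ 1 * (-1)) := by
      field_simp
    rw [h5, pow_one]
    exact F₀.mul_mem hm (F₀.neg_mem F₀.one_mem)
  · rw [hd]
    exact mul_ne_zero (neg_ne_zero.2 (inv_ne_zero hκ0)) (mul_ne_zero hε0 (pow_ne_zero _ hc₀0))
  · have hσκ : σ (c₀ ^ 2 * (N₁ + ε * N₂)) = c₀ ^ 2 * (N₁ + ε * N₂) := by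
      have e : σ (N₁ + ε * N₂) = N₁ + ε * N₂ := by
        rw [map_add, hσN₁, map_mul, hσε, hσN₂]
      rw [map_mul, map_pow, hσc₀, e]
      ring
    rw [hd, map_mul, map_neg, map_inv₀, hσκ, map_mul, map_pow, hσc₀, hσε]
    ring
  · intro a b hab
    have h5 : (a : F) * r₁ + (b : F) * r₂ = 0 := by
      have h6 := congrArg (fun y : ι → F₀ => f (emb y) v) hab
      simp only [emb_add, emb_smul, hf.add_left, hf.smul_left, emb_zero, f_zero_left hf] at h6
      exact h6
    have ha : a = 0 := by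
      by_contra ha
      have ha' : (a : F) ≠ 0 := fun h => ha (Subtype.ext h)
      apply hq'
      have : r₁ / r₂ = - (b : F) / a := by
        rw [div_eq_div_iff h2 ha']
        linear_combination h5
      rw [this]
      exact F₀.div_mem (F₀.neg_mem b.2) a.2
    refine ⟨ha, ?_⟩
    rw [ha] at h5
    simp only [ZeroMemClass.coe_zero, zero_mul, zero_add] at h5
    exact Subtype.ext ((mul_eq_zero.1 h5).resolve_right h2)

end StageIII

section StageIV

variable {ι : Type} [Fintype ι] [DecidableEq ι] {F : Type*} [Field F] [Fintype F]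
  {σ : F ≃+* F} {f : (ι → F) → (ι → F) → F} {F₀ : Subfield F}
  (hf : IsUnitaryForm σ f) {M : Subgroup (GL ι F)}

include hf

/-- The second difference. -/
theorem PY_second_diff {w a b : ι → F} {d : F} (hd : d + σ d = 0) (hww : f w w = 0) (haa : f a a = 0)
    (hbb : f b b = 0) (hwa : f w a = 0) (hwb : f w b = 0) (hab : f a b = 0) (hw : P hf M (d • w) w)
    {g₁ g₂ : GL ι F} (hg₁M : g₁ ∈ M) (hg₁p : g₁ ∈ preserving (glToMat ι F) f) (hg₂M : g₂ ∈ M)
    (hg₂p : g₂ ∈ preserving (glToMat ι F) f) (e1 : g₁ ⋆ w = w + a) (e2 : g₂ ⋆ w = w + b) (e3 : g₂ ⋆ a = a) :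
    PY hf M (d • a) b := by
  have haw := f_swap_zero hf hwa
  have hbw := f_swap_zero hf hwb
  have hba := f_swap_zero hf hab
  have hσd : σ d = - d := by linear_combination hd
  have p1 := P_conj hf hg₁p hg₁M hw
  rw [Matrix.mulVec_smul, e1] at p1
  have p2 := P_conj hf hg₂p hg₂M hw
  rw [Matrix.mulVec_smul, e2] at p2
  have p3 := P_conj hf hg₂p hg₂M p1
  rw [Matrix.mulVec_smul, Matrix.mulVec_add, e2, e3] at p3
  obtain ⟨h0, m0⟩ := hw
  obtain ⟨h1, m1⟩ := p1
  obtain ⟨h2, m2⟩ := p2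
  obtain ⟨h3, m3⟩ := p3
  have hY : f (d • a) (d • a) = 0 ∧ f b b = 0 ∧ f (d • a) b = 0 := by
    refine ⟨?_, hbb, ?_⟩
    · rw [hf.smul_left, f_smul_right hf, haa]
      ring
    · rw [hf.smul_left, hab, mul_zero]
  refine ⟨hY, ?_⟩
  have hid : tau hf (d • (w + b + a)) (w + b + a) h3 * tau hf (d • w) w h0 =
      tau hf (d • (w + a)) (w + a) h1 * (tau hf (d • (w + b)) (w + b) h2 * unip (Ym f (d • a) b) (Ym_sq hf hY)) := by
    apply GL_ext
    intro z
    rw [mulVec_mul_GL, mulVec_mul_GL, mulVec_mul_GL, tau_apply, tau_apply, tau_apply, tau_apply, unip_apply,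
      Ym_apply hf]
    simp only [hf.add_left, hf.smul_left, f_add_right hf, f_smul_right hf, f_sub_left hf, hww, haa, hbb, hwa, hwb,
      hab, haw, hbw, hba, hσd, mul_zero, zero_mul, add_zero, zero_add, sub_zero, mul_neg, neg_zero, smul_zero]
    ext i
    simp only [Pi.add_apply, Pi.sub_apply, Pi.smul_apply, smul_eq_mul, neg_mul]
    ring
  have hY' : unip (Ym f (d • a) b) (Ym_sq hf hY) =
      (tau hf (d • (w + b)) (w + b) h2)⁻¹ * ((tau hf (d • (w + a)) (w + a) h1)⁻¹ *
        (tau hf (d • (w + b + a)) (w + b + a) h3 * tau hf (d • w) w h0)) := by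
    rw [hid]
    group
  rw [hY']
  exact M.mul_mem (M.inv_mem m2) (M.mul_mem (M.inv_mem m1) (M.mul_mem m3 m0))

/-- Moving a scalar across. -/
theorem PY_smul_right {x y : ι → F} {c : F} (hy : f y y = 0) (h : PY hf M x (c • y)) : PY hf M (σ c • x) y := by
  obtain ⟨⟨h1, h2, h3⟩, h4⟩ := h
  have h5 : f (σ c • x) (σ c • x) = 0 ∧ f y y = 0 ∧ f (σ c • x) y = 0 := by
    refine ⟨by rw [hf.smul_left, f_smul_right hf, h1]; ring, hy, ?_⟩
    rw [hf.smul_left]
    rw [f_smul_right hf] at h3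
    have : σ c * f x y = 0 := h3
    exact this
  refine ⟨h5, ?_⟩
  convert h4 using 1
  apply GL_ext
  intro z
  rw [unip_apply, unip_apply, Ym_apply hf, Ym_apply hf, f_smul_right hf, f_smul_right hf, hf.involutive]
  ext i
  simp only [Pi.add_apply, Pi.sub_apply, Pi.smul_apply, smul_eq_mul]
  ring

/-- The group law of the root elements in the first vector. -/
theorem unipY_add {x x' y : ι → F} (h : f x x = 0 ∧ f y y = 0 ∧ f x y = 0) (h' : f x' x' = 0 ∧ f y y = 0 ∧ f x' y = 0)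
    (hxx' : f x x' = 0) (h'' : f (x + x') (x + x') = 0 ∧ f y y = 0 ∧ f (x + x') y = 0) :
    unip (Ym f x y) (Ym_sq hf h) * unip (Ym f x' y) (Ym_sq hf h') = unip (Ym f (x + x') y) (Ym_sq hf h'') := by
  obtain ⟨hx, hy, hxy⟩ := h
  obtain ⟨hx', -, hx'y⟩ := h'
  have hyx := f_swap_zero hf hxy
  have hyx' := f_swap_zero hf hx'y
  have hx'x := f_swap_zero hf hxx'
  apply GL_ext
  intro z
  rw [mulVec_mul_GL, unip_apply, unip_apply, unip_apply, Ym_apply hf, Ym_apply hf, Ym_apply hf]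
  simp only [hf.add_left, hf.smul_left, f_add_right hf, f_smul_right hf, f_sub_left hf, hx, hy, hxy, hx', hx'y, hyx,
    hyx', hxx', hx'x, mul_zero, zero_mul, add_zero, zero_add, sub_zero]
  ext i
  simp only [Pi.add_apply, Pi.sub_apply, Pi.smul_apply, smul_eq_mul]
  ring

/-- The commutator identity. -/
theorem unipY_comm {x y a b : ι → F} (h : f x x = 0 ∧ f y y = 0 ∧ f x y = 0) (h' : f a a = 0 ∧ f b b = 0 ∧ f a b = 0)
    (hxa : f x a = 0) (hxb : f x b = 0) (hyb : f y b = 0)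
    (h2 : f (f a y • x) (f a y • x) = 0 ∧ f b b = 0 ∧ f (f a y • x) b = 0) :
    unip (Ym f x y) (Ym_sq hf h) * unip (Ym f a b) (Ym_sq hf h') * (unip (Ym f x y) (Ym_sq hf h))⁻¹ *
      (unip (Ym f a b) (Ym_sq hf h'))⁻¹ = unip (Ym f (f a y • x) b) (Ym_sq hf h2) := by
  obtain ⟨hxx, hyy, hxy⟩ := h
  obtain ⟨haa, hbb, hab⟩ := h'
  have hax := f_swap_zero hf hxa
  have hbx := f_swap_zero hf hxb
  have hby := f_swap_zero hf hyb
  have hba := f_swap_zero hf hab
  have hyx := f_swap_zero hf hxy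
  have hXY : Ym f x y * Ym f a b = f a y • vecMulVec x (cov f b) := by
    unfold Ym
    rw [sub_mul, mul_sub, mul_sub, vv_mul, vv_mul, vv_mul, vv_mul]
    simp only [cov_dot hf, hby, hbx, hax, zero_smul, sub_zero, zero_sub, sub_self]
  have hYX : Ym f a b * Ym f x y = f y a • vecMulVec b (cov f x) := by
    unfold Ym
    rw [sub_mul, mul_sub, mul_sub, vv_mul, vv_mul, vv_mul, vv_mul]
    simp only [cov_dot hf, hxa, hxb, hyb, zero_smul, sub_zero, zero_sub, sub_self, neg_neg]
  have hZ0 : Ym f x y * Ym f a b - Ym f a b * Ym f x y = Ym f (f a y • x) b := by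
    rw [hXY, hYX, Ym_smul_left hf, ← hf.herm y a]
  have hZ : (Ym f x y * Ym f a b - Ym f a b * Ym f x y) * (Ym f x y * Ym f a b - Ym f a b * Ym f x y) = 0 := by
    rw [hZ0]
    exact Ym_sq hf h2
  have hXYX : Ym f x y * Ym f a b * Ym f x y = 0 := by
    rw [hXY, smul_mul_assoc]
    unfold Ym
    rw [mul_sub, vv_mul, vv_mul]
    simp only [cov_dot hf, hxb, hyb, zero_smul, sub_zero, smul_zero]
  have hYXY : Ym f a b * Ym f x y * Ym f a b = 0 := by
    rw [hYX, smul_mul_assoc]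
    unfold Ym
    rw [mul_sub, vv_mul, vv_mul]
    simp only [cov_dot hf, hbx, hax, zero_smul, sub_zero, smul_zero]
  rw [comm_unip_gen _ _ _ _ hXYX hYXY hZ]
  apply Units.ext
  rw [unip_val, unip_val, hZ0]

end StageIV

section StageV

variable {ι : Type} [Fintype ι] [DecidableEq ι] {F : Type*} [Field F] [Fintype F]
  {σ : F ≃+* F} {f : (ι → F) → (ι → F) → F} {F₀ : Subfield F}
  (hf : IsUnitaryForm σ f) (hS : RatForm σ f F₀) {M : Subgroup (GL ι F)} (hM : Ctx hf F₀ M)

omit [Fintype F] in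
/-- The rational hyperbolic family over `F`. -/
theorem hyp_emb [Fintype F] (hS : RatForm σ f F₀) {x y : ℕ → ι → F₀} {k : ℕ} (hH : IsHyp (fr hS) k x y) :
    IsHyp f k (fun i => emb (x i)) (fun i => emb (y i)) := by
  intro i hi j hj
  obtain ⟨h1, h2, h3⟩ := hH i hi j hj
  refine ⟨(fr_eq_zero hS).1 h1, (fr_eq_zero hS).1 h2, ?_⟩
  have := congrArg Subtype.val h3
  rw [fr_coe] at this
  rw [this]
  split_ifs <;> simp

include hf hS hM

/-- A non rational root element in the frame. -/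
theorem exists_nonrat_in_frame {x y : ℕ → ι → F₀} (hH : IsHyp (fr hS) 5 x y) {u u' d : F} (hu : u ≠ 0) (hu' : u' ≠ 0)
    (hq : u' / u ∉ F₀) (hd0 : d ≠ 0) (hd : d + σ d = 0)
    (hP : P hf M (d • (u • emb (x 0) + u' • emb (x 1))) (u • emb (x 0) + u' • emb (x 1))) :
    ∃ α, α ∉ F₀ ∧ PY hf M (α • emb (x 2)) (emb (y 3)) := by
  have hE := hyp_emb hS hH
  have hEE : ∀ i j, i < 5 → j < 5 → f (emb (x i)) (emb (x j)) = 0 := fun i j hi hj => (hE i hi j hj).1
  have hGG : ∀ i j, i < 5 → j < 5 → f (emb (y i)) (emb (y j)) = 0 := fun i j hi hj => (hE i hi j hj).2.1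
  have hEG : ∀ i j, i < 5 → j < 5 → i ≠ j → f (emb (x i)) (emb (y j)) = 0 := fun i j hi hj hij => by
    have := (hE i hi j hj).2.2
    rwa [if_neg hij] at this
  have hEG1 : ∀ i, i < 5 → f (emb (x i)) (emb (y i)) = 1 := fun i hi => by
    have := (hE i hi i hi).2.2
    rwa [if_pos rfl] at this
  set W := u • emb (x 0) + u' • emb (x 1) with hW
  have hWW : f W W = 0 := by
    simp only [hW, hf.add_left, f_add_right hf, hf.smul_left, f_smul_right hf,
      hEE 0 0 (by norm_num) (by norm_num), hEE 0 1 (by norm_num) (by norm_num),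
      hEE 1 0 (by norm_num) (by norm_num), hEE 1 1 (by norm_num) (by norm_num), mul_zero, add_zero]
  have hWE2 : f W (emb (x 2)) = 0 := by
    simp only [hW, hf.add_left, hf.smul_left, hEE 0 2 (by norm_num) (by norm_num),
      hEE 1 2 (by norm_num) (by norm_num), mul_zero, add_zero]
  have hWG3 : f W (emb (y 3)) = 0 := by
    simp only [hW, hf.add_left, hf.smul_left, hEG 0 3 (by norm_num) (by norm_num) (by norm_num),
      hEG 1 3 (by norm_num) (by norm_num) (by norm_num), mul_zero, add_zero]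
  have hWG0 : f W (emb (y 0)) = u := by
    simp only [hW, hf.add_left, hf.smul_left, hEG1 0 (by norm_num),
      hEG 1 0 (by norm_num) (by norm_num) (by norm_num), mul_zero, add_zero, mul_one]
  have hWG1 : f W (emb (y 1)) = u' := by
    simp only [hW, hf.add_left, hf.smul_left, hEG1 1 (by norm_num),
      hEG 0 1 (by norm_num) (by norm_num) (by norm_num), mul_zero, zero_add, mul_one]
  have e22 := hEE 2 2 (by norm_num) (by norm_num)
  have g33 := hGG 3 3 (by norm_num) (by norm_num)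
  have e2g3 := hEG 2 3 (by norm_num) (by norm_num) (by norm_num)
  have e2g0 := hEG 2 0 (by norm_num) (by norm_num) (by norm_num)
  have e2g1 := hEG 2 1 (by norm_num) (by norm_num) (by norm_num)
  -- the rational moves
  have hy1 : f (emb (x 2)) (emb (x 2)) = 0 ∧ f (emb (y 0)) (emb (y 0)) = 0 ∧ f (emb (x 2)) (emb (y 0)) = 0 :=
    ⟨e22, hGG 0 0 (by norm_num) (by norm_num), e2g0⟩
  obtain ⟨p1, m1⟩ := PY_rat hf hS hM hy1
  have hy2 : f (emb (y 3)) (emb (y 3)) = 0 ∧ f (emb (y 1)) (emb (y 1)) = 0 ∧ f (emb (y 3)) (emb (y 1)) = 0 :=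
    ⟨g33, hGG 1 1 (by norm_num) (by norm_num), hGG 3 1 (by norm_num) (by norm_num)⟩
  obtain ⟨p2, m2⟩ := PY_rat hf hS hM hy2
  have hy3 : f (emb (y 3)) (emb (y 3)) = 0 ∧ f (emb (y 0)) (emb (y 0)) = 0 ∧ f (emb (y 3)) (emb (y 0)) = 0 :=
    ⟨g33, hGG 0 0 (by norm_num) (by norm_num), hGG 3 0 (by norm_num) (by norm_num)⟩
  obtain ⟨p3, m3⟩ := PY_rat hf hS hM hy3
  have pp1 : unip (Ym f (emb (x 2)) (emb (y 0))) (Ym_sq hf p1) ∈ preserving (glToMat ι F) f := unipY_pres hf p1
  have pp2 : unip (Ym f (emb (y 3)) (emb (y 1))) (Ym_sq hf p2) ∈ preserving (glToMat ι F) f := unipY_pres hf p2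
  have pp3 : unip (Ym f (emb (y 3)) (emb (y 0))) (Ym_sq hf p3) ∈ preserving (glToMat ι F) f := unipY_pres hf p3
  have a1 : unip (Ym f (emb (x 2)) (emb (y 0))) (Ym_sq hf p1) ⋆ W = W + u • emb (x 2) := by
    rw [unip_apply, Ym_apply hf, hWG0, hWE2, zero_smul, sub_zero]
  have a2 : unip (Ym f (emb (y 3)) (emb (y 1))) (Ym_sq hf p2) ⋆ W = W + u' • emb (y 3) := by
    rw [unip_apply, Ym_apply hf, hWG1, hWG3, zero_smul, sub_zero]
  have a3 : unip (Ym f (emb (y 3)) (emb (y 0))) (Ym_sq hf p3) ⋆ W = W + u • emb (y 3) := by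
    rw [unip_apply, Ym_apply hf, hWG0, hWG3, zero_smul, sub_zero]
  have b2 : unip (Ym f (emb (y 3)) (emb (y 1))) (Ym_sq hf p2) ⋆ (u • emb (x 2)) = u • emb (x 2) := by
    rw [Matrix.mulVec_smul, unip_apply, Ym_apply hf, e2g1, e2g3, zero_smul, zero_smul, sub_zero, add_zero]
  have b3 : unip (Ym f (emb (y 3)) (emb (y 0))) (Ym_sq hf p3) ⋆ (u • emb (x 2)) = u • emb (x 2) := by
    rw [Matrix.mulVec_smul, unip_apply, Ym_apply hf, e2g0, e2g3, zero_smul, zero_smul, sub_zero, add_zero]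
  have haa : f (u • emb (x 2)) (u • emb (x 2)) = 0 := by
    rw [hf.smul_left, f_smul_right hf, e22]
    ring
  have hwa : f W (u • emb (x 2)) = 0 := by rw [f_smul_right hf, hWE2, mul_zero]
  have hbb : ∀ c : F, f (c • emb (y 3)) (c • emb (y 3)) = 0 := fun c => by
    rw [hf.smul_left, f_smul_right hf, g33]
    ring
  have hwb : ∀ c : F, f W (c • emb (y 3)) = 0 := fun c => by rw [f_smul_right hf, hWG3, mul_zero]
  have hab : ∀ c : F, f (u • emb (x 2)) (c • emb (y 3)) = 0 := fun c => by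
    rw [hf.smul_left, f_smul_right hf, e2g3]
    ring
  have r1 := PY_second_diff hf hd hWW haa (hbb u') hwa (hwb u') (hab u') hP m1 pp1 m2 pp2 a1 a2 b2
  have r2 := PY_second_diff hf hd hWW haa (hbb u) hwa (hwb u) (hab u) hP m1 pp1 m3 pp3 a1 a3 b3
  have s1 := PY_smul_right hf g33 r1
  have s2 := PY_smul_right hf g33 r2
  rw [smul_smul, smul_smul, mul_assoc] at s1 s2
  have hσu : σ u ≠ 0 := by
    rw [Ne, map_eq_zero]
    exact hu
  by_cases hA : σ u * (d * u) ∈ F₀
  · refine ⟨σ u' * (d * u), ?_, s1⟩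
    intro hB
    apply hq
    have e : σ (u' / u) = (σ u' * (d * u)) / (σ u * (d * u)) := by
      rw [map_div₀]
      field_simp
    have h5 : σ (u' / u) ∈ F₀ := by
      rw [e]
      exact F₀.div_mem hB hA
    have h6 := hS.σ_mem _ h5
    rwa [hf.involutive] at h6
  · exact ⟨_, hA, s2⟩

/-- All the root elements of the frame. -/
theorem all_frame {r : ℕ} (hr : r.Prime) (hcard : Fintype.card F = Nat.card F₀ ^ r) {x y : ℕ → ι → F₀}
    (hH : IsHyp (fr hS) 5 x y) {α : F} (hα : α ∉ F₀) (hαM : PY hf M (α • emb (x 2)) (emb (y 3))) :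
    ∀ i j, i < 5 → j < 5 → i ≠ j → ∀ b : F, PY hf M (b • emb (x i)) (emb (y j)) := by
  classical
  have hE := hyp_emb hS hH
  set E : Fin 5 → ι → F := fun i => emb (x i) with hEd
  set G : Fin 5 → ι → F := fun i => emb (y i) with hGd
  have hEE : ∀ i j : Fin 5, f (E i) (E j) = 0 := fun i j => (hE i i.2 j j.2).1
  have hGG : ∀ i j : Fin 5, f (G i) (G j) = 0 := fun i j => (hE i i.2 j j.2).2.1
  have hEG : ∀ i j : Fin 5, i ≠ j → f (E i) (G j) = 0 := fun i j hij => by
    have := (hE i i.2 j j.2).2.2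
    have hne : (i : ℕ) ≠ j := fun h => hij (Fin.ext h)
    rwa [if_neg hne] at this
  have hEG1 : ∀ i : Fin 5, f (E i) (G i) = 1 := fun i => by
    have := (hE i i.2 i i.2).2.2
    rwa [if_pos rfl] at this
  have hh : ∀ (i j : Fin 5), i ≠ j → ∀ a : F, f (a • E i) (a • E i) = 0 ∧ f (G j) (G j) = 0 ∧ f (a • E i) (G j) = 0 := by
    intro i j hij a
    refine ⟨?_, hGG j j, ?_⟩
    · rw [hf.smul_left, f_smul_right hf, hEE]
      ring
    · rw [hf.smul_left, hEG i j hij, mul_zero]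
  let X : Fin 5 → Fin 5 → F → GL ι F := fun i j a =>
    if h : i ≠ j then unip (Ym f (a • E i) (G j)) (Ym_sq hf (hh i j h a)) else 1
  have hXv : ∀ i j (h : i ≠ j) a, X i j a = unip (Ym f (a • E i) (G j)) (Ym_sq hf (hh i j h a)) := by
    intro i j h a
    exact dif_pos h
  have hmul : ∀ i j, i ≠ j → ∀ a b, X i j a * X i j b = X i j (a + b) := by
    intro i j hij a b
    rw [hXv i j hij, hXv i j hij, hXv i j hij]
    have h1 : f (a • E i + b • E i) (a • E i + b • E i) = 0 ∧ f (G j) (G j) = 0 ∧ f (a • E i + b • E i) (G j) = 0 := by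
      rw [← add_smul]
      exact hh i j hij _
    rw [unipY_add hf (hh i j hij a) (hh i j hij b) (by rw [hf.smul_left, f_smul_right hf, hEE]; ring) h1]
    apply Units.ext
    rw [unip_val, unip_val, add_smul]
  have hcomm : ∀ i j k, i ≠ j → j ≠ k → i ≠ k → ∀ a b, X i j a * X j k b * (X i j a)⁻¹ * (X j k b)⁻¹ = X i k (a * b) := by
    intro i j k hij hjk hik a b
    rw [hXv i j hij, hXv j k hjk, hXv i k hik]
    have h2 : f (f (b • E j) (G j) • a • E i) (f (b • E j) (G j) • a • E i) = 0 ∧ f (G k) (G k) = 0 ∧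
        f (f (b • E j) (G j) • a • E i) (G k) = 0 := by
      rw [smul_smul]
      exact hh i k hik _
    rw [unipY_comm hf (hh i j hij a) (hh j k hjk b) (by rw [hf.smul_left, f_smul_right hf, hEE]; ring)
      (by rw [hf.smul_left, hEG i k hik, mul_zero]) (hGG j k) h2]
    apply Units.ext
    rw [unip_val, unip_val]
    have e : f (b • E j) (G j) • a • E i = (a * b) • E i := by
      rw [hf.smul_left, hEG1, mul_one, smul_smul, mul_comm]
    rw [e]
  have hT : ∀ i j, i ≠ j → ∀ a ∈ F₀, X i j a ∈ M := by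
    intro i j hij a ha
    rw [hXv i j hij]
    have h1 := PY_rat hf hS hM (x := (⟨a, ha⟩ : F₀) • x i) (y := y j) (by
      rw [emb_smul]
      exact hh i j hij a)
    obtain ⟨h2, h3⟩ := h1
    have e : emb ((⟨a, ha⟩ : F₀) • x i) = a • E i := emb_smul _ _
    have h4 : unip (Ym f (a • E i) (G j)) (Ym_sq hf (hh i j hij a)) =
        unip (Ym f (emb ((⟨a, ha⟩ : F₀) • x i)) (emb (y j))) (Ym_sq hf h2) := by
      apply Units.ext
      rw [unip_val, unip_val, e]
    rw [h4]
    exact h3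
  have h23 : (2 : Fin 5) ≠ 3 := by decide
  have hstart : X 2 3 α ∈ M := by
    rw [hXv 2 3 h23]
    obtain ⟨h1, h2⟩ := hαM
    exact h2
  intro i j hi hj hij b
  have hij' : (⟨i, hi⟩ : Fin 5) ≠ ⟨j, hj⟩ := fun h => hij (congrArg Fin.val h)
  have hfin := Cfsg.Agent.Lib.SpSubfield.all_X X hmul hcomm hr hcard (by simp) hT h23 hα hstart hij' b
  rw [hXv _ _ hij'] at hfin
  exact ⟨hh _ _ hij' b, hfin⟩

end StageV

section StageVI

variable {ι : Type} [Fintype ι] [DecidableEq ι] {F : Type*} [Field F] [Fintype F]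
  {σ : F ≃+* F} {f : (ι → F) → (ι → F) → F} (hf : IsUnitaryForm σ f) {M : Subgroup (GL ι F)}

include hf

/-- A transvection from a sum. -/
theorem P_of_sum {u w : ι → F} {c : F} (hc : c + σ c = 0) (huu : f u u = 0) (hww : f w w = 0) (huw : f u w = 0)
    (h1 : P hf M (c • (u + w)) (u + w)) (h2 : P hf M (c • u) u) (h3 : PY hf M (c • w) u) : P hf M (c • w) w := by
  have hwu := f_swap_zero hf huw
  have hσ : σ c = - c := by linear_combination hc
  obtain ⟨p1, m1⟩ := h1
  obtain ⟨p2, m2⟩ := h2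
  obtain ⟨p3, m3⟩ := h3
  have p0 : f (c • w) w = 0 := by rw [hf.smul_left, hww, mul_zero]
  refine ⟨p0, ?_⟩
  have hid : tau hf (c • (u + w)) (u + w) p1 =
      tau hf (c • w) w p0 * (unip (Ym f (c • w) u) (Ym_sq hf p3) * tau hf (c • u) u p2) := by
    apply GL_ext
    intro z
    rw [mulVec_mul_GL, mulVec_mul_GL, tau_apply, tau_apply, tau_apply, unip_apply, Ym_apply hf]
    simp only [hf.add_left, hf.smul_left, f_add_right hf, f_smul_right hf, f_sub_left hf, huu, hww, huw, hwu, hσ,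
      mul_zero, zero_mul, add_zero, zero_add, sub_zero, mul_neg, neg_zero, smul_zero]
    ext i
    simp only [Pi.add_apply, Pi.sub_apply, Pi.smul_apply, smul_eq_mul, neg_mul]
    ring
  have h4 : tau hf (c • w) w p0 = tau hf (c • (u + w)) (u + w) p1 * (tau hf (c • u) u p2)⁻¹ *
      (unip (Ym f (c • w) u) (Ym_sq hf p3))⁻¹ := by
    rw [hid]
    group
  rw [h4]
  exact M.mul_mem (M.mul_mem m1 (M.inv_mem m2)) (M.inv_mem m3)

/-- Removing a scalar from the centre of a transvection. -/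
theorem P_unsmul {v : ι → F} {c a : F} (hvv : f v v = 0) (h : P hf M (c • a • v) (a • v)) :
    P hf M ((c * (a * σ a)) • v) v := by
  obtain ⟨p, m⟩ := h
  have p0 : f ((c * (a * σ a)) • v) v = 0 := by rw [hf.smul_left, hvv, mul_zero]
  refine ⟨p0, ?_⟩
  convert m using 1
  apply GL_ext
  intro z
  rw [tau_apply, tau_apply, f_smul_right hf]
  ext i
  simp only [Pi.add_apply, Pi.smul_apply, smul_eq_mul]
  ring

/-- The additivity of the root elements in the second vector. -/
theorem PY_add_right {x y₁ y₂ : ι → F} (h : PY hf M x (y₁ + y₂)) (h₁ : PY hf M x y₁)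
    (hy₂ : f y₂ y₂ = 0) (hxy₂ : f x y₂ = 0) (ht : P hf M (f y₂ y₁ • x) x) : PY hf M x y₂ := by
  obtain ⟨p, m⟩ := h
  obtain ⟨p₁, m₁⟩ := h₁
  obtain ⟨p₃, m₃⟩ := ht
  have hq : f x x = 0 ∧ f y₂ y₂ = 0 ∧ f x y₂ = 0 := ⟨p.1, hy₂, hxy₂⟩
  refine ⟨hq, ?_⟩
  have hxy₁ := p₁.2.2
  have hyx₁ := f_swap_zero hf hxy₁
  have hyx₂ := f_swap_zero hf hxy₂
  have hxx := p.1
  have hy₁ := p₁.2.1
  have hid : unip (Ym f x (y₁ + y₂)) (Ym_sq hf p) =
      unip (Ym f x y₁) (Ym_sq hf p₁) * (unip (Ym f x y₂) (Ym_sq hf hq) * tau hf (f y₂ y₁ • x) x p₃) := by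
    apply GL_ext
    intro z
    rw [mulVec_mul_GL, mulVec_mul_GL, unip_apply, unip_apply, unip_apply, Ym_apply hf, Ym_apply hf, Ym_apply hf, tau_apply]
    simp only [hf.add_left, hf.smul_left, f_add_right hf, f_smul_right hf, f_sub_left hf, hxx, hxy₁, hxy₂, hyx₁, hyx₂,
      mul_zero, zero_mul, add_zero, zero_add, sub_zero]
    ext i
    simp only [Pi.add_apply, Pi.sub_apply, Pi.smul_apply, smul_eq_mul]
    ring
  have h4 : unip (Ym f x y₂) (Ym_sq hf hq) = (unip (Ym f x y₁) (Ym_sq hf p₁))⁻¹ *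
      unip (Ym f x (y₁ + y₂)) (Ym_sq hf p) * (tau hf (f y₂ y₁ • x) x p₃)⁻¹ := by
    rw [hid]
    group
  rw [h4]
  exact M.mul_mem (M.mul_mem (M.inv_mem m₁) m) (M.inv_mem m₃)

/-- From the root elements of a frame to root elements between the vectors of a totally isotropic family,
and to transvections. -/
theorem frame_step {A B : ℕ → ι → F} (hH : IsHyp f 5 A B) {c₀ : F} (hc₀ : c₀ ≠ 0) (hc₀tr : c₀ + σ c₀ = 0)
    (hX : ∀ i j, i < 5 → j < 5 → i ≠ j → ∀ b : F, PY hf M (b • A i) (B j))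
    (hR : ∀ i j, i < 5 → j < 5 → i ≠ j → PY hf M (A i) (A j))
    (hRc : ∀ i, i < 5 → P hf M (c₀ • A i) (A i)) (hMp : M ≤ preserving (glToMat ι F) f) :
    (∀ i j, i < 5 → j < 5 → i ≠ j → ∀ β : F, PY hf M (β • A i) (A j)) ∧ ∀ i, i < 5 → A i ∈ TU hf M := by
  have hAA : ∀ i j, i < 5 → j < 5 → f (A i) (A j) = 0 := fun i j hi hj => (hH i hi j hj).1
  have hAB : ∀ i j, i < 5 → j < 5 → i ≠ j → f (A i) (B j) = 0 := fun i j hi hj hij => by
    have := (hH i hi j hj).2.2
    rwa [if_neg hij] at this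
  have hAB1 : ∀ i, i < 5 → f (A i) (B i) = 1 := fun i hi => by
    have := (hH i hi i hi).2.2
    rwa [if_pos rfl] at this
  have first : ∀ i j, i < 5 → j < 5 → i ≠ j → ∀ β : F, PY hf M (β • A i) (A j) := by
    intro i j hi hj hij β
    obtain ⟨k, hk, hki, hkj⟩ : ∃ k, k < 5 ∧ k ≠ i ∧ k ≠ j := by
      by_cases h0 : i ≠ 0 ∧ j ≠ 0
      · exact ⟨0, by norm_num, h0.1.symm, h0.2.symm⟩
      by_cases h1 : i ≠ 1 ∧ j ≠ 1
      · exact ⟨1, by norm_num, h1.1.symm, h1.2.symm⟩
      · exact ⟨2, by norm_num, by omega, by omega⟩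
    obtain ⟨p, m⟩ := hX i k hi hk hki.symm β
    have htp : unip (Ym f (β • A i) (B k)) (Ym_sq hf p) ∈ preserving (glToMat ι F) f := unipY_pres hf p
    have h1 := PY_conj hf htp m (hR k j hk hj hkj)
    have e1 : unip (Ym f (β • A i) (B k)) (Ym_sq hf p) ⋆ A k = A k + β • A i := by
      rw [unip_apply, Ym_apply hf, hAB1 k hk, f_smul_right hf, hAA k i hk hi, mul_zero, zero_smul, sub_zero, one_smul]
    have e2 : unip (Ym f (β • A i) (B k)) (Ym_sq hf p) ⋆ A j = A j := by
      rw [unip_apply, Ym_apply hf, hAB j k hj hk hkj.symm, f_smul_right hf, hAA j i hj hi, mul_zero, zero_smul, zero_smul,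
        sub_zero, add_zero]
    rw [e1, e2] at h1
    have h2 := PY_sub hf h1 (hR k j hk hj hkj) (γ := 0) (by
      have : A k + β • A i - A k = β • A i := by abel
      rw [this, hf.smul_left, f_smul_right hf, hAA i i hi hi]
      ring) (by
      rw [f_add_right hf, hAA k k hk hk, f_smul_right hf, hAA k i hk hi]
      simp)
    have : A k + β • A i - A k + (0 : F) • A j = β • A i := by
      rw [zero_smul, add_zero]
      abel
    rwa [this] at h2
  refine ⟨first, ?_⟩
  intro i hi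
  refine ⟨hAA i i hi hi, fun c hc => ?_⟩
  obtain ⟨j, hj, hji⟩ : ∃ j, j < 5 ∧ j ≠ i := by
    by_cases h0 : i = 0
    · exact ⟨1, by norm_num, by omega⟩
    · exact ⟨0, by norm_num, by omega⟩
  have hfix : σ (c / c₀) = c / c₀ := by
    have hσc : σ c = - c := by linear_combination hc
    have hσc₀ : σ c₀ = - c₀ := by linear_combination hc₀tr
    rw [map_div₀, hσc, hσc₀, neg_div_neg_eq]
  obtain ⟨a, ha⟩ := exists_norm hf hfix
  obtain ⟨p, m⟩ := hX i j hi hj hji.symm a
  have htp : unip (Ym f (a • A i) (B j)) (Ym_sq hf p) ∈ preserving (glToMat ι F) f := unipY_pres hf p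
  have h1 := P_conj hf htp m (hRc j hj)
  have e1 : unip (Ym f (a • A i) (B j)) (Ym_sq hf p) ⋆ A j = A j + a • A i := by
    rw [unip_apply, Ym_apply hf, hAB1 j hj, f_smul_right hf, hAA j i hj hi, mul_zero, zero_smul, sub_zero, one_smul]
  rw [Matrix.mulVec_smul, e1] at h1
  have h2 := P_of_sum hf hc₀tr (hAA j j hj hj) (by rw [hf.smul_left, f_smul_right hf, hAA i i hi hi]; ring)
    (by rw [f_smul_right hf, hAA j i hj hi, mul_zero]) h1 (hRc j hj)
    (by
      rw [smul_smul]
      exact first i j hi hj hji.symm _ |> fun h => by simpa [smul_smul] using h)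
  have h3 := P_unsmul hf (hAA i i hi hi) (by simpa [smul_smul] using h2)
  have e3 : c₀ * (a * σ a) = c := by
    rw [ha]
    field_simp
  rwa [e3] at h3

end StageVI

section StageVII

variable {ι : Type} [Fintype ι] [DecidableEq ι] {F : Type*} [Field F] [Fintype F]
  {σ : F ≃+* F} {f : (ι → F) → (ι → F) → F} {F₀ : Subfield F}
  (hf : IsUnitaryForm σ f) (hS : RatForm σ f F₀) {M : Subgroup (GL ι F)} (hM : Ctx hf F₀ M)

include hf hS hM

/-- From all the root elements of a rational frame to all the transvections. -/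
theorem all_TU_of_frame (hn : 13 ≤ Fintype.card ι) {x y : ℕ → ι → F₀} (hH : IsHyp (fr hS) 5 x y)
    (hX : ∀ i j, i < 5 → j < 5 → i ≠ j → ∀ b : F, PY hf M (b • emb (x i)) (emb (y j))) :
    ∀ v, f v v = 0 → v ∈ TU hf M := by
  classical
  let _ : Fintype F₀ := Fintype.ofFinite _
  have hf₀ := fr_unitary hf hS
  have hE := hyp_emb hS hH
  have hEE : ∀ i j, i < 5 → j < 5 → f (emb (x i)) (emb (x j)) = 0 := fun i j hi hj => (hE i hi j hj).1
  have hGG : ∀ i j, i < 5 → j < 5 → f (emb (y i)) (emb (y j)) = 0 := fun i j hi hj => (hE i hi j hj).2.1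
  have hEG : ∀ i j, i < 5 → j < 5 → i ≠ j → f (emb (x i)) (emb (y j)) = 0 := fun i j hi hj hij => by
    have := (hE i hi j hj).2.2
    rwa [if_neg hij] at this
  have hEG1 : ∀ i, i < 5 → f (emb (x i)) (emb (y i)) = 1 := fun i hi => by
    have := (hE i hi i hi).2.2
    rwa [if_pos rfl] at this
  obtain ⟨c₀', hc₀0', hc₀tr'⟩ := exists_traceless hf₀
  set c₀ : F := (c₀' : F) with hc₀
  have hc₀0 : c₀ ≠ 0 := fun h => hc₀0' (Subtype.ext h)
  have hc₀tr : c₀ + σ c₀ = 0 := by
    have := congrArg Subtype.val hc₀tr'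
    simpa using this
  have hc₀F : c₀ ∈ F₀ := c₀'.2
  obtain ⟨hEE', hEt⟩ := frame_step hf hE hc₀0 hc₀tr hX
    (fun i j hi hj hij => PY_rat hf hS hM ⟨hEE i i hi hi, hEE j j hj hj, hEE i j hi hj⟩)
    (fun i hi => P_rat hf hS hM (hEE i i hi hi) hc₀F hc₀tr) hM.pres
  have hH' : IsHyp f 5 (fun i => emb (y i)) (fun i => emb (x i)) := by
    intro i hi j hj
    refine ⟨hGG i j hi hj, hEE i j hi hj, ?_⟩
    rw [hf.herm, (hE j hj i hi).2.2]
    by_cases hij : i = j
    · subst hij
      simp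
    · have : ¬ j = i := fun e => hij e.symm
      simp [hij, this]
  obtain ⟨-, hGt⟩ := frame_step hf hH' hc₀0 hc₀tr
    (fun i j hi hj hij b => by
      have h1 := hX j i hj hi hij.symm (σ b)
      have h2 := PY_smul_right hf (hEE j j hj hj) (PY_symm hf h1)
      rwa [hf.involutive] at h2)
    (fun i j hi hj hij => PY_rat hf hS hM ⟨hGG i i hi hi, hGG j j hj hj, hGG i j hi hj⟩)
    (fun i hi => P_rat hf hS hM (hGG i i hi hi) hc₀F hc₀tr) hM.pres
  set e := emb (x 0) with he
  set e' := emb (y 0) with he'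
  have hee : f e e = 0 := hEE 0 0 (by norm_num) (by norm_num)
  have he'e' : f e' e' = 0 := hGG 0 0 (by norm_num) (by norm_num)
  have hee' : f e e' = 1 := hEG1 0 (by norm_num)
  have he'e : f e' e = 1 := by rw [hf.herm, hee', map_one]
  have heT : e ∈ TU hf M := hEt 0 (by norm_num)
  have he'T : e' ∈ TU hf M := hGt 0 (by norm_num)
  set R₀ : Set (ι → F₀) := {r | fr hS r r = 0 ∧ fr hS r (x 0) = 0 ∧ fr hS r (y 0) = 0 ∧ fr hS (y 1) r ≠ 0} with hR₀
  -- claim 1
  have claim1 : ∀ r ∈ R₀, ∀ β : F, PY hf M (β • e) (emb r) := by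
    rintro r ⟨r1, r2, r3, r4⟩ β'
    have hrr := (fr_eq_zero hS).1 r1
    have hre := (fr_eq_zero hS).1 r2
    have hre' := (fr_eq_zero hS).1 r3
    have her := f_swap_zero hf hre
    have hGr : f (emb (y 1)) (emb r) ≠ 0 := fun h => r4 ((fr_eq_zero hS).2 h)
    obtain ⟨ps, ms⟩ := P_rat hf hS hM hrr hc₀F hc₀tr
    have hsp : tau hf (c₀ • emb r) (emb r) ps ∈ preserving (glToMat ι F) f := tauU_pres hf hrr hc₀tr ps
    set κ := f (emb (y 1)) (emb r) * c₀ with hκ
    have hκ0 : κ ≠ 0 := mul_ne_zero hGr hc₀0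
    have hs1 : tau hf (c₀ • emb r) (emb r) ps ⋆ emb (y 1) = emb (y 1) + κ • emb r := by
      rw [tau_apply, smul_smul]
    have hs2 : tau hf (c₀ • emb r) (emb r) ps ⋆ e = e := by
      rw [tau_apply, her, zero_smul, add_zero]
    have hiso : f (emb (y 1) + κ • emb r) (emb (y 1) + κ • emb r) = 0 := by
      rw [← hs1, pres_apply hsp]
      exact hGG 1 1 (by norm_num) (by norm_num)
    have key : ∀ β : F, PY hf M (β • e) (κ • emb r) := by
      intro β
      have h1 := hX 0 1 (by norm_num) (by norm_num) (by norm_num) β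
      have h2 := PY_conj hf hsp ms h1
      rw [Matrix.mulVec_smul, hs2, hs1] at h2
      have htr : f (κ • emb r) (emb (y 1)) + σ (f (κ • emb r) (emb (y 1))) = 0 := by
        rw [← hf.herm]
        simp only [hf.add_left, f_add_right hf, f_smul_right hf, hf.smul_left, hrr,
          hGG 1 1 (by norm_num) (by norm_num), mul_zero, add_zero, zero_add] at hiso
        simp only [hf.smul_left, f_smul_right hf]
        linear_combination hiso
      have h3 := ((TU_smul hf heT β).2 _ htr)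
      refine PY_add_right hf h2 h1 ?_ ?_ h3
      · rw [hf.smul_left, f_smul_right hf, hrr]
        ring
      · rw [hf.smul_left, f_smul_right hf, her]
        ring
    have hσκ : σ κ ≠ 0 := by
      rw [Ne, map_eq_zero]
      exact hκ0
    have h5 := PY_smul_right hf hrr (key ((σ κ)⁻¹ * β'))
    rw [smul_smul] at h5
    have e5 : σ κ * ((σ κ)⁻¹ * β') = β' := by
      field_simp
    rwa [e5] at h5
  -- claim 2
  have hx0y0 : fr hS (x 0) (y 0) = 1 := by
    have := (hH 0 (by norm_num) 0 (by norm_num)).2.2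
    simpa using this
  have hy0x0 : fr hS (y 0) (x 0) = 1 := by
    rw [hf₀.herm, hx0y0, map_one]
  have hS₀ : Submodule.span F₀ (R₀ ∪ {x 0, y 0}) = ⊤ := by
    by_contra hne
    obtain ⟨u, hu⟩ : ∃ u, u ∉ Submodule.span F₀ (R₀ ∪ {x 0, y 0}) := by
      by_contra hcon
      push Not at hcon
      exact hne (eq_top_iff.2 fun a _ => hcon a)
    obtain ⟨a, haS, ha⟩ := exists_perp_of_notMem hf₀ hu
    have ha0 : a ≠ 0 := by
      rintro rfl
      exact ha (f_zero_right hf₀ u)
    have hax : fr hS (x 0) a = 0 := haS _ (Submodule.subset_span (Or.inr (by simp)))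
    have hay : fr hS (y 0) a = 0 := haS _ (Submodule.subset_span (Or.inr (by simp)))
    set U := perpU hf₀ (Submodule.span F₀ ({x 0, y 0} : Set (ι → F₀))) with hU
    have memU : ∀ z, fr hS (x 0) z = 0 → fr hS (y 0) z = 0 → z ∈ U := by
      intro z h1 h2 w hw
      obtain ⟨α, β, rfl⟩ := Submodule.mem_span_pair.1 hw
      rw [hf₀.add_left, hf₀.smul_left, hf₀.smul_left, h1, h2]
      ring
    have h1 : ∃ z ∈ U, fr hS (y 1) z ≠ 0 := by
      refine ⟨x 1, memU _ ?_ ?_, ?_⟩
      · exact (hH 0 (by norm_num) 1 (by norm_num)).1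
      · exact f_swap_zero hf₀ (by simpa using (hH 1 (by norm_num) 0 (by norm_num)).2.2)
      · rw [hf₀.herm]
        have : fr hS (x 1) (y 1) = 1 := by simpa using (hH 1 (by norm_num) 1 (by norm_num)).2.2
        rw [this, map_one]
        exact one_ne_zero
    have h2 : ∃ z ∈ U, fr hS a z ≠ 0 := by
      obtain ⟨w, hw⟩ := (hf₀.nondegenerate a ha0).2
      set A := fr hS w (y 0) with hA
      set B := fr hS w (x 0) with hB
      have hxx := (hH 0 (by norm_num) 0 (by norm_num)).1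
      have hyy := (hH 0 (by norm_num) 0 (by norm_num)).2.1
      refine ⟨w - A • x 0 - B • y 0, memU _ ?_ ?_, ?_⟩
      · apply f_swap_zero hf₀
        rw [f_sub_left hf₀, f_sub_left hf₀, hf₀.smul_left, hf₀.smul_left, hxx, hy0x0, ← hB]
        ring
      · apply f_swap_zero hf₀
        rw [f_sub_left hf₀, f_sub_left hf₀, hf₀.smul_left, hf₀.smul_left, hyy, hx0y0, ← hA]
        ring
      · rw [f_sub_right hf₀, f_sub_right hf₀, f_smul_right hf₀, f_smul_right hf₀, f_swap_zero hf₀ hax,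
          f_swap_zero hf₀ hay]
        simpa using hw
    obtain ⟨z, hzU, hz1, hz2⟩ := exists_two hf₀ U h1 h2
    have hz3 : fr hS (x 0) z = 0 := hzU _ (Submodule.subset_span (by simp))
    have hz4 : fr hS (y 0) z = 0 := hzU _ (Submodule.subset_span (by simp))
    obtain ⟨r, hr1, hr2⟩ := prescribed hf₀ ({x 0, y 0, y 1, a} : Finset (ι → F₀)) z 0 (map_zero _) (by
      have : ({x 0, y 0, y 1, a} : Finset (ι → F₀)).card ≤ 4 := Finset.card_le_four
      omega)
    have hrR : r ∈ R₀ := by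
      refine ⟨hr2, ?_, ?_, ?_⟩
      · rw [hr1 _ (by simp)]
        exact f_swap_zero hf₀ hz3
      · rw [hr1 _ (by simp)]
        exact f_swap_zero hf₀ hz4
      · apply f_swap_ne hf₀
        rw [hr1 _ (by simp)]
        exact f_swap_ne hf₀ hz1
    have h5 : fr hS r a = 0 := haS r (Submodule.subset_span (Or.inl hrR))
    rw [hr1 a (by simp)] at h5
    exact hz2 (f_swap_zero hf₀ h5)
  set T₁ : Submodule F (ι → F) := Submodule.span F (emb '' R₀) with hT₁
  have hT₁e : ∀ s ∈ T₁, f s e = 0 ∧ f s e' = 0 := by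
    intro s hs
    induction hs using Submodule.span_induction with
    | mem s hs =>
      obtain ⟨r, hr, rfl⟩ := hs
      exact ⟨(fr_eq_zero hS).1 hr.2.1, (fr_eq_zero hS).1 hr.2.2.1⟩
    | zero => exact ⟨f_zero_left hf _, f_zero_left hf _⟩
    | add a b _ _ ha hb =>
      rw [hf.add_left, hf.add_left, ha.1, ha.2, hb.1, hb.2]
      simp
    | smul c a _ ha =>
      rw [hf.smul_left, hf.smul_left, ha.1, ha.2]
      simp
  have claim2 : ∀ w, f w e = 0 → f w e' = 0 → w ∈ T₁ := by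
    intro w hw1 hw2
    set T₂ := T₁ ⊔ Submodule.span F ({e, e'} : Set (ι → F)) with hT₂
    have hemb : ∀ s : ι → F₀, emb s ∈ T₂ := by
      intro s
      have hs : s ∈ Submodule.span F₀ (R₀ ∪ {x 0, y 0}) := by
        rw [hS₀]
        exact Submodule.mem_top
      induction hs using Submodule.span_induction with
      | mem s hs =>
        rcases hs with hs | hs
        · exact Submodule.mem_sup_left (Submodule.subset_span ⟨s, hs, rfl⟩)
        · rcases hs with rfl | hs
          · exact Submodule.mem_sup_right (Submodule.subset_span (by simp [he]))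
          · rw [Set.mem_singleton_iff] at hs
            subst hs
            exact Submodule.mem_sup_right (Submodule.subset_span (by simp [he']))
      | zero =>
        rw [emb_zero]
        exact T₂.zero_mem
      | add a b _ _ ha hb =>
        rw [emb_add]
        exact T₂.add_mem ha hb
      | smul c a _ ha =>
        rw [emb_smul]
        exact T₂.smul_mem _ ha
    have hw : w ∈ T₂ := by
      have h1 : w = ∑ i, w i • (Pi.single i 1 : ι → F) := by
        ext j
        simp [Finset.sum_apply, Pi.single_apply]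
      rw [h1]
      refine T₂.sum_mem fun i _ => T₂.smul_mem _ ?_
      rw [emb_single]
      exact hemb _
    obtain ⟨s, hs, t, ht, hst⟩ := Submodule.mem_sup.1 hw
    obtain ⟨a, b, rfl⟩ := Submodule.mem_span_pair.1 ht
    obtain ⟨h1, h2⟩ := hT₁e s hs
    have hb : b = 0 := by
      have := hw1
      rw [← hst, hf.add_left, hf.add_left, hf.smul_left, hf.smul_left, h1, hee, he'e] at this
      linear_combination this
    have ha : a = 0 := by
      have := hw2
      rw [← hst, hf.add_left, hf.add_left, hf.smul_left, hf.smul_left, h2, hee', he'e'] at this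
      linear_combination this
    rw [← hst, ha, hb]
    simpa using hs
  -- claim 3
  let Q : (ι → F) → Prop := fun w => f w e = 0 ∧ ∃ t ∈ M, t ⋆ e = e ∧ (∃ α : F, t ⋆ e' = e' + w + α • e) ∧
    ∀ z, f z e = 0 → ∃ c : F, t ⋆ z = z + c • e
  have hQadd : ∀ w₁ w₂, Q w₁ → Q w₂ → Q (w₁ + w₂) := by
    rintro w₁ w₂ ⟨h1, t₁, ht₁, a1, ⟨α₁, a2⟩, a3⟩ ⟨h2, t₂, ht₂, b1, ⟨α₂, b2⟩, b3⟩
    refine ⟨by rw [hf.add_left, h1, h2, add_zero], t₁ * t₂, M.mul_mem ht₁ ht₂, ?_, ?_, ?_⟩
    · rw [mulVec_mul_GL, b1, a1]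
    · obtain ⟨c, hc⟩ := a3 w₂ h2
      refine ⟨α₁ + c + α₂, ?_⟩
      rw [mulVec_mul_GL, b2, Matrix.mulVec_add, Matrix.mulVec_add, a2, hc, Matrix.mulVec_smul, a1]
      ext i
      simp only [Pi.add_apply, Pi.smul_apply, smul_eq_mul]
      ring
    · intro z hz
      obtain ⟨c₂, hc₂⟩ := b3 z hz
      obtain ⟨c₁, hc₁⟩ := a3 z hz
      refine ⟨c₁ + c₂, ?_⟩
      rw [mulVec_mul_GL, hc₂, Matrix.mulVec_add, hc₁, Matrix.mulVec_smul, a1]
      ext i
      simp only [Pi.add_apply, Pi.smul_apply, smul_eq_mul]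
      ring
  have claim3 : ∀ w ∈ T₁, ∀ c : F, Q (c • w) := by
    intro w hw
    induction hw using Submodule.span_induction with
    | mem s hs =>
      obtain ⟨r, hr, rfl⟩ := hs
      intro c
      have hre : f (emb r) e = 0 := (fr_eq_zero hS).1 hr.2.1
      have hre' : f (emb r) e' = 0 := (fr_eq_zero hS).1 hr.2.2.1
      have her := f_swap_zero hf hre
      have he'r := f_swap_zero hf hre'
      refine ⟨by rw [hf.smul_left, hre, mul_zero], ?_⟩
      obtain ⟨p, m⟩ := claim1 r hr (- σ c)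
      refine ⟨_, m, ?_, ⟨0, ?_⟩, ?_⟩
      · rw [unip_apply, Ym_apply hf, her, f_smul_right hf, hee]
        simp
      · rw [unip_apply, Ym_apply hf, he'r, f_smul_right hf, he'e, map_neg, hf.involutive]
        simp only [zero_smul, mul_one, sub_neg_eq_add, add_zero, zero_add, neg_smul, sub_zero]
      · intro z hz
        refine ⟨f z (emb r) * - σ c, ?_⟩
        rw [unip_apply, Ym_apply hf, f_smul_right hf, hz, mul_zero, zero_smul, sub_zero, smul_smul]
    | zero =>
      intro c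
      rw [smul_zero]
      refine ⟨f_zero_left hf _, 1, M.one_mem, ?_, ⟨0, ?_⟩, ?_⟩
      · simp
      · simp
      · intro z _
        exact ⟨0, by simp⟩
    | add a b _ _ ha hb =>
      intro c
      rw [smul_add]
      exact hQadd _ _ (ha c) (hb c)
    | smul a b _ hb =>
      intro c
      rw [smul_smul]
      exact hb (c * a)
  -- claim 4
  have claim4 : ∀ v, f v v = 0 → f v e ≠ 0 → v ∈ TU hf M := by
    intro v hvv hve
    set v₁ := (f v e)⁻¹ • v with hv₁
    have hv₁e : f v₁ e = 1 := by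
      rw [hv₁, hf.smul_left, inv_mul_cancel₀ hve]
    have hev₁ : f e v₁ = 1 := by rw [hf.herm, hv₁e, map_one]
    have hv₁v₁ : f v₁ v₁ = 0 := by
      rw [hv₁, hf.smul_left, f_smul_right hf, hvv]
      ring
    set α := f v₁ e' with hα
    have hw : v₁ - e' - α • e ∈ T₁ := by
      apply claim2
      · rw [f_sub_left hf, f_sub_left hf, hf.smul_left α, hv₁e, he'e, hee]
        ring
      · rw [f_sub_left hf, f_sub_left hf, hf.smul_left α, he'e', hee', ← hα]
        ring
    obtain ⟨h0, t, ht, a1, ⟨α₁, a2⟩, a3⟩ := claim3 _ hw 1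
    rw [one_smul] at a2
    have htp := hM.pres ht
    set δ := α - α₁ with hδ
    have hv₁' : v₁ = t ⋆ e' + δ • e := by
      rw [a2, hδ]
      ext i
      simp only [Pi.add_apply, Pi.sub_apply, Pi.smul_apply, smul_eq_mul]
      ring
    have hte : f (t ⋆ e') e = 1 := by
      have := pres_apply htp e' e
      rw [a1, he'e] at this
      exact this
    have het : f e (t ⋆ e') = 1 := by rw [hf.herm, hte, map_one]
    have htt : f (t ⋆ e') (t ⋆ e') = 0 := by rw [pres_apply htp, he'e']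
    have hδtr : δ + σ δ = 0 := by
      have := hv₁v₁
      rw [hv₁', hf.add_left, f_add_right hf, f_add_right hf, hf.smul_left, hf.smul_left, f_smul_right hf,
        f_smul_right hf, htt, hte, het, hee] at this
      linear_combination this
    obtain ⟨p, m⟩ := heT.2 δ hδtr
    have hτ : tau hf (δ • e) e p ∈ preserving (glToMat ι F) f := tauU_pres hf hee hδtr p
    have h1 := TU_conj hf hτ m (TU_conj hf htp ht he'T)
    have h2 : tau hf (δ • e) e p ⋆ (t ⋆ e') = v₁ := by
      rw [tau_apply, hte, one_smul, ← hv₁']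
    rw [h2] at h1
    have h3 := TU_smul hf h1 (f v e)
    rwa [hv₁, smul_smul, mul_inv_cancel₀ hve, one_smul] at h3
  -- the end
  intro v hvv
  by_cases hv0 : v = 0
  · rw [hv0]
    exact TU_zero hf
  by_cases hve : f v e = 0
  swap
  · exact claim4 v hvv hve
  have he0 : e ≠ 0 := by
    intro h0
    rw [h0, f_zero_left hf] at hee'
    exact zero_ne_one hee'
  obtain ⟨z₀, -, hz1, hz2⟩ := exists_two hf ⊤ (a := e) (b := v)
    (by
      obtain ⟨z, hz⟩ := (hf.nondegenerate e he0).2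
      exact ⟨z, Submodule.mem_top, hz⟩)
    (by
      obtain ⟨z, hz⟩ := (hf.nondegenerate v hv0).2
      exact ⟨z, Submodule.mem_top, hz⟩)
  obtain ⟨u, hu1, hu2⟩ := prescribed hf ({e, v} : Finset (ι → F)) z₀ 0 (map_zero σ) (by
    have : ({e, v} : Finset (ι → F)).card ≤ 2 := Finset.card_le_two
    omega)
  have hue : f u e ≠ 0 := by
    rw [hu1 e (by simp)]
    exact f_swap_ne hf hz1
  have huv : f u v ≠ 0 := by
    rw [hu1 v (by simp)]
    exact f_swap_ne hf hz2
  have huT := claim4 u hu2 hue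
  obtain ⟨c, hc0, hctr⟩ := exists_traceless hf
  obtain ⟨p, m⟩ := huT.2 c hctr
  set s := tau hf (c • u) u p with hs
  have hsp : s ∈ preserving (glToMat ι F) f := hM.pres m
  have hsv : s ⋆ v = v + f v u • c • u := tau_apply hf _ _ _ _
  have h1 : s ⋆ v ∈ TU hf M := by
    apply claim4
    · rw [pres_apply hsp, hvv]
    · rw [hsv, hf.add_left, hve, zero_add, hf.smul_left, hf.smul_left]
      exact mul_ne_zero (f_swap_ne hf huv) (mul_ne_zero hc0 hue)
  have h2 := TU_conj hf (hM.pres (M.inv_mem m)) (M.inv_mem m) h1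
  rwa [inv_mulVec_GL] at h2

/-- The main theorem in the abstract setting. -/
theorem main_abstract (hn : 13 ≤ Fintype.card ι) {r : ℕ} (hr : r.Prime) (hcard : Fintype.card F = Nat.card F₀ ^ r)
    {g : GL ι F} (hgM : g ∈ M)
    (hg : g ∉ (Matrix.GeneralLinearGroup.map (F₀.subtype : F₀ →+* F)).range ⊔ scalars ι F) :
    ∀ v, f v v = 0 → v ∈ TU hf M := by
  classical
  let _ : Fintype F₀ := Fintype.ofFinite _
  have hf₀ := fr_unitary hf hS
  obtain ⟨x₀, hx₀, hnp⟩ := exists_not_prop hf hS hn hg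
  have hgp := hM.pres hgM
  have hgood : Good hf F₀ M (g ⋆ emb x₀) := by
    refine Good.conj hf hgM hgp ⟨hx₀, fun c hc hc0 => P_rat hf hS hM hx₀ hc hc0⟩
  obtain ⟨v, z₁, z₂, hv, h1, h2, h3, h4, h5, h6⟩ := exists_good_pair hf hS hM hn hgood hnp
  obtain ⟨z, u, u', d, a1, a2, a3, a4, a5, a6, a7, a8, a9⟩ := exists_root hf hS hM hv h1 h2 h3 h4 h5 h6
  obtain ⟨x, y, hx0, hx1, hH⟩ := exists_frame hf₀ hn a1 h2 a2 a9
  rw [← hx0, ← hx1] at a8
  obtain ⟨α, hα, hαM⟩ := exists_nonrat_in_frame hf hS hM hH a3 a4 a5 a6 a7 a8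
  exact all_TU_of_frame hf hS hM hn hH (all_frame hf hS hM hr hcard hH hα hαM)

end StageVII

section Final

variable {ι : Type} [Fintype ι] [DecidableEq ι] {F : Type*} [Field F] [Fintype F]
  {σ : F ≃+* F} {f : (ι → F) → (ι → F) → F} {F₀ : Subfield F}

/-- Subfields of a finite field as fixed points. -/
theorem mem_iff (F₀ : Subfield F) (a : F) : a ∈ F₀ ↔ a ^ (Nat.card F₀) = a := by
  classical
  let _ : Fintype F₀ := Fintype.ofFinite _
  have hQ : Nat.card F₀ = Fintype.card F₀ := Nat.card_eq_fintype_card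
  constructor
  · intro ha
    have h1 := FiniteField.pow_card (⟨a, ha⟩ : F₀)
    rw [← hQ] at h1
    exact congrArg Subtype.val h1
  · intro ha
    by_contra hno
    set Q := Nat.card F₀ with hQdef
    have hQ2 : 1 < Q := Finite.one_lt_card
    set p : Polynomial F := Polynomial.X ^ Q - Polynomial.X with hp
    have hdeg : p.natDegree = Q := by
      rw [hp]
      exact FiniteField.X_pow_card_sub_X_natDegree_eq F hQ2
    have hp0 : p ≠ 0 := by
      intro h0
      rw [h0, Polynomial.natDegree_zero] at hdeg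
      omega
    let Z : Finset F := insert a (Finset.univ.image (fun x : F₀ => (x : F)))
    have hZ : Z.val ⊆ p.roots := by
      intro x hx
      have hx' : x ∈ Z := hx
      rw [Polynomial.mem_roots hp0, Polynomial.IsRoot.def, hp]
      simp only [Polynomial.eval_sub, Polynomial.eval_pow, Polynomial.eval_X]
      rcases Finset.mem_insert.1 hx' with rfl | hx'
      · rw [ha, sub_self]
      · obtain ⟨y, -, rfl⟩ := Finset.mem_image.1 hx'
        have h1 := FiniteField.pow_card y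
        rw [← hQ] at h1
        have h2 := congrArg Subtype.val h1
        simp only [SubmonoidClass.coe_pow] at h2
        rw [h2, sub_self]
    have h1 := Polynomial.card_le_degree_of_subset_roots hZ
    have h2 : Z.card = Q + 1 := by
      have h3 : a ∉ Finset.univ.image (fun x : F₀ => (x : F)) := by
        intro hm
        obtain ⟨y, -, hy⟩ := Finset.mem_image.1 hm
        exact hno (hy ▸ y.2)
      rw [Finset.card_insert_of_notMem h3, Finset.card_image_of_injective _ Subtype.val_injective, Finset.card_univ, ← hQ]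
    omega

theorem exists_notMem_of_card {r : ℕ} (hr : r.Prime) (hcard : Fintype.card F = Nat.card F₀ ^ r) : ∃ a : F, a ∉ F₀ := by
  by_contra hall
  push Not at hall
  have h1 : Nat.card F₀ = Nat.card F :=
    Nat.card_congr (Equiv.subtypeUnivEquiv hall)
  rw [Nat.card_eq_fintype_card (α := F), hcard] at h1
  have h2 : 1 < Nat.card F₀ := Finite.one_lt_card
  have h3 : 2 ≤ r := hr.two_le
  have h4 : Nat.card F₀ ^ 1 < Nat.card F₀ ^ r := Nat.pow_lt_pow_right h2 (by omega)
  rw [pow_one] at h4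
  omega

/-- The involution moves the subfield of odd index. -/
theorem exists_moved (hf : IsUnitaryForm σ f) {r : ℕ} (hro : Odd r)
    (hcard : Fintype.card F = Nat.card F₀ ^ r) : ∃ ω ∈ F₀, σ ω ≠ ω := by
  classical
  by_contra hcon
  push Not at hcon
  let τ : F ≃ₐ[F₀] F := AlgEquiv.ofRingEquiv (f := σ) (fun c => hcon c c.2)
  have hτ : ∀ a, τ a = σ a := fun a => rfl
  have hτ2 : τ ^ 2 = 1 := by
    ext a
    show τ (τ a) = a
    rw [hτ, hτ, hf.involutive]
  have hτ1 : τ ≠ 1 := by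
    intro h
    apply hf.ne_refl
    ext a
    have := congrArg (fun t : F ≃ₐ[F₀] F => t a) h
    exact this
  have hord : orderOf τ = 2 := orderOf_eq_prime hτ2 hτ1
  have hdvd : orderOf τ ∣ Nat.card (F ≃ₐ[F₀] F) := orderOf_dvd_natCard τ
  rw [hord, IsGalois.card_aut_eq_finrank] at hdvd
  have hfr : Module.finrank F₀ F = r := by
    have h1 := Module.natCard_eq_pow_finrank (K := F₀) (V := F)
    rw [Nat.card_eq_fintype_card, hcard] at h1
    exact (Nat.pow_right_injective (Finite.one_lt_card (α := F₀)) h1).symm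
  rw [hfr] at hdvd
  exact (Nat.not_even_iff_odd.2 hro) (even_iff_two_dvd.2 hdvd)

/-- Transport of a unitary form. -/
theorem transport (hf : IsUnitaryForm σ f) (P : GL ι F) :
    IsUnitaryForm σ (fun x y => f (P ⋆ x) (P ⋆ y)) where
  ne_refl := hf.ne_refl
  involutive := hf.involutive
  add_left x y v := by
    show f (P ⋆ (x + y)) (P ⋆ v) = _
    rw [Matrix.mulVec_add, hf.add_left]
  smul_left c x v := by
    show f (P ⋆ (c • x)) (P ⋆ v) = _
    rw [Matrix.mulVec_smul, hf.smul_left]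
  herm v w := hf.herm _ _
  nondegenerate := by
    intro v hv
    have hPv : P ⋆ v ≠ 0 := by
      intro h0
      have h1 := inv_mulVec_GL P v
      rw [h0, Matrix.mulVec_zero] at h1
      exact hv h1.symm
    obtain ⟨⟨x, hx⟩, ⟨y, hy⟩⟩ := hf.nondegenerate _ hPv
    refine ⟨⟨(P⁻¹ : GL ι F) ⋆ x, ?_⟩, ⟨(P⁻¹ : GL ι F) ⋆ y, ?_⟩⟩
    · show f (P ⋆ ((P⁻¹ : GL ι F) ⋆ x)) (P ⋆ v) ≠ 0
      rw [mulVec_inv_GL]
      exact hx
    · show f (P ⋆ v) (P ⋆ ((P⁻¹ : GL ι F) ⋆ y)) ≠ 0
      rw [mulVec_inv_GL]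
      exact hy

/-- Transport of centres. -/
theorem TU_of_comap (hf : IsUnitaryForm σ f) (P : GL ι F) {M : Subgroup (GL ι F)} {x : ι → F}
    (hx : x ∈ TU (transport hf P) (M.comap (MulAut.conj P).toMonoidHom)) : P ⋆ x ∈ TU hf M := by
  refine ⟨hx.1, fun c hc => ?_⟩
  obtain ⟨h, m⟩ := hx.2 c hc
  have h' : f (c • (P ⋆ x)) (P ⋆ x) = 0 := by
    have h1 : f (P ⋆ x) (P ⋆ x) = 0 := hx.1
    rw [hf.smul_left, h1, mul_zero]
  refine ⟨h', ?_⟩
  have m' : P * tau (transport hf P) (c • x) x h * P⁻¹ ∈ M := m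
  convert m' using 1
  apply GL_ext
  intro z
  rw [mulVec_mul_GL, mulVec_mul_GL, tau_apply hf, tau_apply (transport hf P), Matrix.mulVec_add, mulVec_inv_GL,
    Matrix.mulVec_smul, Matrix.mulVec_smul]

/-- A non rational isometry. -/
theorem exists_nonrational (hf : IsUnitaryForm σ f) (hS : RatForm σ f F₀) (hn : 13 ≤ Fintype.card ι) {l : F} (hl : l ∉ F₀) :
    ∃ g : GL ι F, g ∈ preserving (glToMat ι F) f ∧ g ∈ specialLinear ι F ∧
      g ∉ (Matrix.GeneralLinearGroup.map (F₀.subtype : F₀ →+* F)).range ⊔ scalars ι F := by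
  classical
  let _ : Fintype F₀ := Fintype.ofFinite _
  have hf₀ := fr_unitary hf hS
  obtain ⟨a, b, haa, hbb, hba, -⟩ := exists_hyp_perp_two hf₀ (by omega) 0 0
  obtain ⟨a₂, b₂, ha₂, hb₂, hb₂a₂, h1, h2, h3, h4⟩ := exists_hyp_perp_two hf₀ (by omega) a b
  obtain ⟨c₀', hc₀0', hc₀tr'⟩ := exists_traceless hf₀
  have hc₀0 : (c₀' : F) ≠ 0 := fun h => hc₀0' (Subtype.ext h)
  have hc₀tr : (c₀' : F) + σ c₀' = 0 := by
    have := congrArg Subtype.val hc₀tr'
    simpa using this
  have e1 := (fr_eq_zero hS).1 haa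
  have e2 := (fr_eq_zero hS).1 ha₂
  have e3 := (fr_eq_zero hS).1 h1
  have e4 := f_swap_zero hf e3
  have e5 : f (emb b) (emb a) = 1 := by
    have := congrArg Subtype.val hba
    simpa using this
  have e6 : f (emb b₂) (emb a₂) = 1 := by
    have := congrArg Subtype.val hb₂a₂
    simpa using this
  have e7 : f (emb a₂) (emb b₂) = 1 := by rw [hf.herm, e6, map_one]
  have e8 : f (emb a) (emb b₂) = 0 := f_swap_zero hf ((fr_eq_zero hS).1 h3)
  have e9 : f (emb b) (emb a₂) = 0 := f_swap_zero hf ((fr_eq_zero hS).1 h2)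
  set u : ι → F := emb a + l • emb a₂ with hu
  have huu : f u u = 0 := by
    simp only [hu, hf.add_left, f_add_right hf, hf.smul_left, f_smul_right hf, e1, e2, e3, e4, mul_zero, add_zero]
  have h0 : f ((c₀' : F) • u) u = 0 := by rw [hf.smul_left, huu, mul_zero]
  refine ⟨tau hf ((c₀' : F) • u) u h0, tauU_pres hf huu hc₀tr h0, tv_mem_specialLinear _ _ _, ?_⟩
  intro hmem
  obtain ⟨d, hd, hent⟩ := Cfsg.Agent.Lib.SubfieldMax.exists_entries_of_mem_sup hmem
  -- the image of a rational vector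
  have himg : ∀ s : ι → F₀, ∃ ρ : ι → F₀, d • (tau hf ((c₀' : F) • u) u h0 ⋆ emb s) = emb ρ := by
    intro s
    refine ⟨fun k => ⟨d * ∑ l, ((tau hf ((c₀' : F) • u) u h0 : GL ι F) : Matrix ι ι F) k l * (s l : F), ?_⟩, ?_⟩
    · rw [Finset.mul_sum]
      refine F₀.sum_mem fun l _ => ?_
      rw [← mul_assoc]
      exact F₀.mul_mem (hent k l) (s l).2
    · ext k
      simp [Matrix.mulVec, dotProduct, emb]
  obtain ⟨ρ, hρ⟩ := himg b
  have hv : tau hf ((c₀' : F) • u) u h0 ⋆ emb b = emb b + (c₀' : F) • u := by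
    rw [tau_apply]
    have : f (emb b) u = 1 := by
      rw [hu, f_add_right hf, f_smul_right hf, e5, e9]
      ring
    rw [this, one_smul]
  rw [hv] at hρ
  have hd1 : d ∈ F₀ := by
    have h5 := hS.f_mem ρ a
    rw [← hρ] at h5
    simp only [hf.smul_left, hf.add_left, hu, e5, e1, e3, mul_zero, add_zero, mul_one] at h5
    exact h5
  have hd2 : d * ((c₀' : F) * l) ∈ F₀ := by
    have h5 := hS.f_mem ρ b₂
    rw [← hρ] at h5
    simp only [hf.smul_left, hf.add_left, hu, e7, e8, mul_zero, add_zero, mul_one, zero_add,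
      (fr_eq_zero hS).1 hb₂ ] at h5
    have e10 : f (emb b) (emb b₂) = 0 := f_swap_zero hf ((fr_eq_zero hS).1 h4)
    rw [e10] at h5
    simpa using h5
  apply hl
  have e : l = (d * ((c₀' : F) * l)) / (d * c₀') := by
    field_simp
  rw [e]
  exact F₀.div_mem hd2 (F₀.mul_mem hd1 c₀'.2)

end Final

end Cfsg.Agent.Lib.USubfield
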