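import Mathlib
import Cfsg.Agent.Lib.OmCalc
import Cfsg.Agent.Lib.USubfield
import Cfsg.Agent.Lib.SpSubfield
import Cfsg.Agent.Lib.SubfieldMax

/-!
# Subfield subgroups of the orthogonal groups, first part

Hyperbolic families for a quadratic form, rational quadratic forms, the Frobenius map on vectors, and the
non-rational root element with a non-rational ratio on a rational totally singular triple.
-/

set_option autoImplicit false
set_option linter.unusedSectionVars false
set_option linter.unusedVariables false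

namespace Cfsg.Agent.Lib.OmSubfield

open Matrix QuadraticMap Cfsg Cfsg.Geo Module
open Cfsg.Agent.Lib.OrthoBasic Cfsg.Agent.Lib.OmCalc
open Cfsg.Agent.Lib.USubfield (emb emb_add emb_sub emb_neg emb_zero emb_smul emb_single emb_inj mem_iff)
open Cfsg.Agent.Lib.SympT (GL_ext mulVec_mul_GL mulVec_inv_GL inv_mulVec_GL)

local notation:70 g:71 " ⋆ " x:70 => Matrix.mulVec (Units.val g) x

section Generic

variable {K : Type*} [Field K] {V : Type*} [AddCommGroup V] [Module K V] {Q : QuadraticForm K V}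

/-- Hyperbolic families of a quadratic form. -/
def HF (Q : QuadraticForm K V) (k : ℕ) (x y : ℕ → V) : Prop :=
  ∀ i < k, ∀ j < k, Q (x i) = 0 ∧ Q (y i) = 0 ∧ polar Q (x i) (x j) = 0 ∧ polar Q (y i) (y j) = 0 ∧
    polar Q (x i) (y j) = if i = j then 1 else 0

theorem polar_sum_left {α : Type*} (s : Finset α) (g : α → V) (w : V) :
    polar Q (∑ i ∈ s, g i) w = ∑ i ∈ s, polar Q (g i) w := by
  classical
  induction s using Finset.induction_on with
  | empty => simp
  | insert a s ha ih => rw [Finset.sum_insert ha, Finset.sum_insert ha, polar_add_left, ih]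

theorem polar_sum_right {α : Type*} (s : Finset α) (g : α → V) (w : V) :
    polar Q w (∑ i ∈ s, g i) = ∑ i ∈ s, polar Q w (g i) := by
  rw [polar_comm, polar_sum_left]
  exact Finset.sum_congr rfl fun i _ => polar_comm _ _ _

/-- The component of `s` orthogonal to the family. -/
def pr (Q : QuadraticForm K V) (k : ℕ) (x y : ℕ → V) (s : V) : V :=
  s - ∑ i ∈ Finset.range k, (polar Q s (y i) • x i + polar Q s (x i) • y i)

theorem HF.yx {k : ℕ} {x y : ℕ → V} (h : HF Q k x y) {i j : ℕ} (hi : i < k) (hj : j < k) :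
    polar Q (y i) (x j) = if i = j then 1 else 0 := by
  rw [polar_comm, (h j hj i hi).2.2.2.2]
  by_cases hij : i = j
  · subst hij
    simp
  · have : ¬ j = i := fun e => hij e.symm
    simp [hij, this]

theorem HF.pr_x {k : ℕ} {x y : ℕ → V} (h : HF Q k x y) (s : V) {j : ℕ} (hj : j < k) :
    polar Q (pr Q k x y s) (x j) = 0 := by
  rw [pr, polar_sub_left, polar_sum_left]
  have h1 : ∑ i ∈ Finset.range k, polar Q (polar Q s (y i) • x i + polar Q s (x i) • y i) (x j) =
      ∑ i ∈ Finset.range k, if i = j then polar Q s (x i) else 0 := by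
    refine Finset.sum_congr rfl fun i hi => ?_
    have hi' := Finset.mem_range.1 hi
    rw [polar_add_left, polar_smul_l, polar_smul_l, (h i hi' j hj).2.2.1, h.yx hi' hj]
    split_ifs <;> simp
  rw [h1, Finset.sum_ite_eq', if_pos (Finset.mem_range.2 hj), sub_self]

theorem HF.pr_y {k : ℕ} {x y : ℕ → V} (h : HF Q k x y) (s : V) {j : ℕ} (hj : j < k) :
    polar Q (pr Q k x y s) (y j) = 0 := by
  rw [pr, polar_sub_left, polar_sum_left]
  have h1 : ∑ i ∈ Finset.range k, polar Q (polar Q s (y i) • x i + polar Q s (x i) • y i) (y j) =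
      ∑ i ∈ Finset.range k, if i = j then polar Q s (y i) else 0 := by
    refine Finset.sum_congr rfl fun i hi => ?_
    have hi' := Finset.mem_range.1 hi
    rw [polar_add_left, polar_smul_l, polar_smul_l, (h i hi' j hj).2.2.2.1, (h i hi' j hj).2.2.2.2]
    split_ifs <;> simp
  rw [h1, Finset.sum_ite_eq', if_pos (Finset.mem_range.2 hj), sub_self]

/-- Vectors orthogonal to the family and in its span vanish. -/
theorem HF.eq_zero_of_span [DecidableEq V] {k : ℕ} {x y : ℕ → V} (h : HF Q k x y) {s : V}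
    (hs : s ∈ Submodule.span K (((Finset.range k).image x ∪ (Finset.range k).image y : Finset V) : Set V))
    (hperp : ∀ c ∈ (Finset.range k).image x ∪ (Finset.range k).image y, polar Q c s = 0) : s = 0 := by
  have key : ∀ s ∈ Submodule.span K (((Finset.range k).image x ∪ (Finset.range k).image y : Finset V) : Set V),
      pr Q k x y s = 0 := by
    intro s hs
    induction hs using Submodule.span_induction with
    | mem s hs =>
      have hs' : s ∈ (Finset.range k).image x ∪ (Finset.range k).image y := hs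
      rw [Finset.mem_union, Finset.mem_image, Finset.mem_image] at hs'
      rcases hs' with ⟨j, hj, rfl⟩ | ⟨j, hj, rfl⟩
      · have hj' := Finset.mem_range.1 hj
        rw [pr, sub_eq_zero]
        have h1 : ∑ i ∈ Finset.range k, (polar Q (x j) (y i) • x i + polar Q (x j) (x i) • y i) =
            ∑ i ∈ Finset.range k, if j = i then x i else 0 := by
          refine Finset.sum_congr rfl fun i hi => ?_
          have hi' := Finset.mem_range.1 hi
          rw [(h j hj' i hi').2.2.1, (h j hj' i hi').2.2.2.2]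
          split_ifs <;> simp
        rw [h1, Finset.sum_ite_eq, if_pos hj]
      · have hj' := Finset.mem_range.1 hj
        rw [pr, sub_eq_zero]
        have h1 : ∑ i ∈ Finset.range k, (polar Q (y j) (y i) • x i + polar Q (y j) (x i) • y i) =
            ∑ i ∈ Finset.range k, if j = i then y i else 0 := by
          refine Finset.sum_congr rfl fun i hi => ?_
          have hi' := Finset.mem_range.1 hi
          rw [(h j hj' i hi').2.2.2.1, h.yx hj' hi']
          split_ifs <;> simp
        rw [h1, Finset.sum_ite_eq, if_pos hj]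
    | zero => simp [pr]
    | add a b _ _ ha hb =>
      have e : pr Q k x y (a + b) = pr Q k x y a + pr Q k x y b := by
        simp only [pr, polar_add_left, add_smul, Finset.sum_add_distrib]
        abel
      rw [e, ha, hb, add_zero]
    | smul c a _ ha =>
      have e : pr Q k x y (c • a) = c • pr Q k x y a := by
        simp only [pr, polar_smul_l, smul_sub, Finset.smul_sum, smul_add, smul_smul]
      rw [e, ha, smul_zero]
  have h1 := key s hs
  rw [pr, sub_eq_zero] at h1
  rw [h1]
  refine Finset.sum_eq_zero fun i hi => ?_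
  have hi' := Finset.mem_range.1 hi
  have e1 : polar Q s (y i) = 0 := by
    rw [polar_comm]
    exact hperp _ (Finset.mem_union_right _ (Finset.mem_image_of_mem _ hi))
  have e2 : polar Q s (x i) = 0 := by
    rw [polar_comm]
    exact hperp _ (Finset.mem_union_left _ (Finset.mem_image_of_mem _ hi))
  rw [e1, e2]
  simp

theorem HF.mono {k l : ℕ} {x y : ℕ → V} (h : HF Q k x y) (hl : l ≤ k) : HF Q l x y :=
  fun i hi j hj => h i (by omega) j (by omega)

theorem polar_pr_right {k : ℕ} {x y : ℕ → V} {z : V} (hx : ∀ i < k, polar Q z (x i) = 0)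
    (hy : ∀ i < k, polar Q z (y i) = 0) (w : V) : polar Q z (pr Q k x y w) = polar Q z w := by
  rw [pr, polar_sub_right, polar_sum_right, Finset.sum_eq_zero, sub_zero]
  intro i hi
  have hi' := Finset.mem_range.1 hi
  rw [polar_add_right, polar_smul_r, polar_smul_r, hx i hi', hy i hi']
  ring

theorem polar_pr_left {k : ℕ} {x y : ℕ → V} {z : V} (hx : ∀ i < k, polar Q (x i) z = 0)
    (hy : ∀ i < k, polar Q (y i) z = 0) (w : V) : polar Q (pr Q k x y w) z = polar Q w z := by
  rw [pr, polar_sub_left, polar_sum_left, Finset.sum_eq_zero, sub_zero]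
  intro i hi
  have hi' := Finset.mem_range.1 hi
  rw [polar_add_left, polar_smul_l, polar_smul_l, hx i hi', hy i hi']
  ring

/-- A vector is a combination of a hyperbolic pair and a singular vector. -/
theorem exists_sing_split {g g' : V} (hg : Q g = 0) (hg' : Q g' = 0) (hgg' : polar Q g g' = 1) (s : V) :
    ∃ (t : V) (a b : K), Q t = 0 ∧ s = t + a • g + b • g' ∧
      ∀ w, polar Q g w = 0 → polar Q g' w = 0 → polar Q s w = 0 → polar Q t w = 0 := by
  set s₂ : V := s - polar Q s g' • g - polar Q s g • g' with hs₂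
  have h1 : polar Q s₂ g = 0 := by
    rw [hs₂, polar_sub_left, polar_sub_left, polar_smul_l, polar_smul_l, polar_self', hg, polar_comm Q g' g, hgg']
    ring
  have h2 : polar Q s₂ g' = 0 := by
    rw [hs₂, polar_sub_left, polar_sub_left, polar_smul_l, polar_smul_l, polar_self', hg', hgg']
    ring
  clear_value s₂
  set q : K := Q s₂ with hq
  refine ⟨s₂ + (g - q • g'), polar Q s g' - 1, polar Q s g + q, ?_, ?_, ?_⟩
  · rw [Q_add, Q_sub, Q_smul, hg, hg', polar_smul_r, hgg', polar_sub_right, polar_smul_r, h1, h2, ← hq]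
    ring
  · rw [hs₂]
    module
  · intro w h3 h4 h5
    rw [polar_add_left, polar_sub_left, polar_smul_l, hs₂, polar_sub_left, polar_sub_left, polar_smul_l, polar_smul_l,
      h3, h4, h5]
    ring

variable [FiniteDimensional K V]

theorem exists_sep (hQ : Cfsg.Agent.Lib.QuadFF.ND Q) (C : Finset V) {a : V}
    (ha : a ∉ Submodule.span K (C : Set V)) :
    ∃ z, (∀ c ∈ C, polar Q c z = 0) ∧ polar Q a z ≠ 0 := by
  classical
  set B : LinearMap.BilinForm K V := polarBilin Q with hBdef
  have hB : B.Nondegenerate := Cfsg.Agent.Lib.QuadFF.nondegenerate_of_ND hQ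
  have hrefl : B.IsRefl := by
    intro x y hxy
    have : polar Q x y = 0 := hxy
    show polar Q y x = 0
    rwa [polar_comm]
  set S : Submodule K V := Submodule.span K (C : Set V) with hS
  have horth : B.orthogonal (B.orthogonal S) = S :=
    LinearMap.BilinForm.orthogonal_orthogonal hB hrefl S
  have hex : ∃ u ∈ B.orthogonal S, polar Q u a ≠ 0 := by
    by_contra hcon
    push Not at hcon
    apply ha
    rw [← horth, LinearMap.BilinForm.mem_orthogonal_iff]
    exact hcon
  obtain ⟨u, hu, hua⟩ := hex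
  refine ⟨u, fun c hc => LinearMap.BilinForm.mem_orthogonal_iff.1 hu c (Submodule.subset_span hc), ?_⟩
  rwa [polar_comm]

/-- A singular partner orthogonal to a small set. -/
theorem exists_partner [Finite K] (hQ : Cfsg.Agent.Lib.QuadFF.ND Q) (C : Finset V) {a : V}
    (ha : a ∉ Submodule.span K (C : Set V)) (h : 2 * (C.card + 1) + 3 ≤ finrank K V) :
    ∃ a', Q a' = 0 ∧ polar Q a a' = 1 ∧ ∀ c ∈ C, polar Q c a' = 0 := by
  classical
  obtain ⟨z, hz, hza⟩ := exists_sep hQ C ha
  set z₀ : V := (polar Q a z)⁻¹ • z with hz₀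
  have hcard : (insert a C).card ≤ C.card + 1 := Finset.card_insert_le _ _
  obtain ⟨w, hw, hw0⟩ := Cfsg.Agent.Lib.OmGeo.prescribed hQ (insert a C) z₀ 0 (by omega)
  refine ⟨w, hw0, ?_, fun c hc => ?_⟩
  · rw [hw a (Finset.mem_insert_self _ _), hz₀, polar_smul_r, inv_mul_cancel₀ hza]
  · rw [hw c (Finset.mem_insert_of_mem hc), hz₀, polar_smul_r, hz c hc, mul_zero]

/-- A hyperbolic pair orthogonal to a set whose span meets its orthogonal trivially. -/
theorem exists_hyp_perp_nd [Finite K] (hQ : Cfsg.Agent.Lib.QuadFF.ND Q) (C : Finset V)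
    (hC : ∀ s ∈ Submodule.span K (C : Set V), (∀ c ∈ C, polar Q c s = 0) → s = 0)
    (h : C.card + 3 ≤ finrank K V) :
    ∃ a b, Cfsg.Agent.Lib.QuadFF.IsHyp Q a b ∧ ∀ c ∈ C, polar Q c a = 0 ∧ polar Q c b = 0 := by
  classical
  set B : LinearMap.BilinForm K V := polarBilin Q with hBdef
  have hB : B.Nondegenerate := Cfsg.Agent.Lib.QuadFF.nondegenerate_of_ND hQ
  have hrefl : B.IsRefl := by
    intro x y hxy
    have : polar Q x y = 0 := hxy
    show polar Q y x = 0
    rwa [polar_comm]
  set S : Submodule K V := Submodule.span K (C : Set V) with hS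
  have hfS : finrank K S ≤ C.card := finrank_span_finset_le_card C
  set U : Submodule K V := B.orthogonal S with hU
  have hmemU : ∀ x, x ∈ U ↔ ∀ s ∈ S, polar Q s x = 0 := by
    intro x
    exact LinearMap.BilinForm.mem_orthogonal_iff
  have hfU : finrank K U = finrank K V - finrank K S :=
    LinearMap.BilinForm.finrank_orthogonal hB S
  have horth : B.orthogonal U = S :=
    LinearMap.BilinForm.orthogonal_orthogonal hB hrefl S
  have hSle : finrank K S ≤ finrank K V := Submodule.finrank_le S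
  have h3 : 3 ≤ finrank K U := by omega
  obtain ⟨a', ha'0, ha'Q⟩ := Cfsg.Agent.Lib.QuadFF.exists_singular (Cfsg.Agent.Lib.QuadFF.restr Q U) h3
  set a : V := (a' : V) with ha
  have haQ : Q a = 0 := ha'Q
  have haU : a ∈ U := a'.2
  have ha0 : a ≠ 0 := fun h0 => ha'0 (Subtype.ext h0)
  have haS : a ∉ S := by
    intro hmem
    exact ha0 (hC a hmem fun c hc => (hmemU a).1 haU c (Submodule.subset_span hc))
  have hex : ∃ u ∈ U, polar Q u a ≠ 0 := by
    by_contra hcon
    push Not at hcon
    apply haS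
    rw [← horth, LinearMap.BilinForm.mem_orthogonal_iff]
    exact hcon
  obtain ⟨u, huU, hu⟩ := hex
  have hu' : polar Q a u ≠ 0 := by rwa [polar_comm]
  set z : V := (polar Q a u)⁻¹ • u with hz
  have hzU : z ∈ U := U.smul_mem _ huU
  have haz : polar Q a z = 1 := by
    rw [hz, polar_smul_r, inv_mul_cancel₀ hu']
  clear_value z
  have hb : Cfsg.Agent.Lib.QuadFF.IsHyp Q a (z - Q z • a) := by
    refine ⟨haQ, ?_, ?_⟩
    · rw [Q_sub, Q_smul, haQ, polar_smul_r, polar_comm, haz]
      ring
    · rw [polar_sub_right, polar_smul_r, polar_self', haQ, haz]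
      ring
  refine ⟨a, z - Q z • a, hb, fun c hc => ?_⟩
  have hcS : c ∈ S := Submodule.subset_span hc
  exact ⟨(hmemU a).1 haU c hcS, (hmemU _).1 (U.sub_mem hzU (U.smul_mem _ haU)) c hcS⟩

/-- A hyperbolic pair orthogonal to a hyperbolic family. -/
theorem HF.extend [Finite K] (hQ : Cfsg.Agent.Lib.QuadFF.ND Q) {k : ℕ} {x y : ℕ → V} (h : HF Q k x y)
    (hk : 2 * k + 3 ≤ finrank K V) :
    ∃ a b, Cfsg.Agent.Lib.QuadFF.IsHyp Q a b ∧
      ∀ i < k, polar Q (x i) a = 0 ∧ polar Q (y i) a = 0 ∧ polar Q (x i) b = 0 ∧ polar Q (y i) b = 0 := by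
  classical
  set C : Finset V := (Finset.range k).image x ∪ (Finset.range k).image y with hCd
  have hcard : C.card ≤ 2 * k := by
    refine (Finset.card_union_le _ _).trans ?_
    have h1 := Finset.card_image_le (s := Finset.range k) (f := x)
    have h2 := Finset.card_image_le (s := Finset.range k) (f := y)
    rw [Finset.card_range] at h1 h2
    omega
  obtain ⟨a, b, hab, hC⟩ := exists_hyp_perp_nd hQ C (fun s hs hp => h.eq_zero_of_span hs hp) (by omega)
  refine ⟨a, b, hab, fun i hi => ?_⟩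
  have h1 := hC (x i) (Finset.mem_union_left _ (Finset.mem_image_of_mem _ (Finset.mem_range.2 hi)))
  have h2 := hC (y i) (Finset.mem_union_right _ (Finset.mem_image_of_mem _ (Finset.mem_range.2 hi)))
  exact ⟨h1.1, h2.1, h1.2, h2.2⟩

/-- Appending a pair to a hyperbolic family. -/
theorem HF.snoc {k : ℕ} {x y : ℕ → V} (h : HF Q k x y) {a b : V} (hab : Cfsg.Agent.Lib.QuadFF.IsHyp Q a b)
    (hr : ∀ i < k, polar Q (x i) a = 0 ∧ polar Q (y i) a = 0 ∧ polar Q (x i) b = 0 ∧ polar Q (y i) b = 0) :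
    HF Q (k + 1) (Function.update x k a) (Function.update y k b) := by
  intro i hi' j hj
  simp only [Function.update_apply]
  by_cases hik : i = k <;> by_cases hjk : j = k
  · subst hik
    subst hjk
    simp only [if_true]
    refine ⟨hab.Qv, hab.Qw, ?_, ?_, hab.vw⟩
    · rw [polar_self', hab.Qv, mul_zero]
    · rw [polar_self', hab.Qw, mul_zero]
  · subst hik
    have hj3 : j < i := by omega
    obtain ⟨r1, r2, r3, r4⟩ := hr j hj3
    have hne : i ≠ j := by omega
    simp only [if_true, if_neg hjk, if_neg hne]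
    refine ⟨hab.Qv, hab.Qw, ?_, ?_, ?_⟩
    · rw [polar_comm]
      exact r1
    · rw [polar_comm]
      exact r4
    · rw [polar_comm]
      exact r2
  · subst hjk
    have hi3 : i < j := by omega
    obtain ⟨r1, r2, r3, r4⟩ := hr i hi3
    have hne : i ≠ j := by omega
    simp only [if_true, if_neg hik, if_neg hne]
    exact ⟨(h i hi3 i hi3).1, (h i hi3 i hi3).2.1, r1, r4, r3⟩
  · simp only [if_neg hik, if_neg hjk]
    exact h i (by omega) j (by omega)

/-- A hyperbolic family of five pairs through three independent orthogonal singular vectors. -/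
theorem exists_frame [Finite K] (hQ : Cfsg.Agent.Lib.QuadFF.ND Q) (hn : 13 ≤ finrank K V) {a b c : V}
    (ha : Q a = 0) (hb : Q b = 0) (hc : Q c = 0) (hab : polar Q a b = 0) (hac : polar Q a c = 0)
    (hbc : polar Q b c = 0) (hi : ∀ l m n : K, l • a + m • b + n • c = 0 → l = 0 ∧ m = 0 ∧ n = 0) :
    ∃ x y : ℕ → V, x 0 = a ∧ x 1 = b ∧ x 2 = c ∧ HF Q 5 x y := by
  classical
  -- the first partner
  have hn1 : a ∉ Submodule.span K (({b, c} : Finset V) : Set V) := by
    intro hm
    rw [Finset.coe_insert, Finset.coe_singleton] at hm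
    obtain ⟨m, n, hmn⟩ := Submodule.mem_span_pair.1 hm
    have := hi 1 (-m) (-n) (by rw [← hmn]; simp only [one_smul, neg_smul]; abel)
    exact one_ne_zero this.1
  obtain ⟨a', p1, p2, p3⟩ := exists_partner hQ {b, c} hn1 (by
    have : ({b, c} : Finset V).card ≤ 2 := Finset.card_le_two
    omega)
  have a'b : polar Q b a' = 0 := p3 b (by simp)
  have a'c : polar Q c a' = 0 := p3 c (by simp)
  -- the second partner
  have hn2 : b ∉ Submodule.span K (({a, a', c} : Finset V) : Set V) := by
    intro hm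
    rw [Finset.coe_insert, Finset.coe_insert, Finset.coe_singleton, Submodule.mem_span_insert] at hm
    obtain ⟨l, z, hz, hbz⟩ := hm
    obtain ⟨m, n, hmn⟩ := Submodule.mem_span_pair.1 hz
    have h1 : polar Q a b = 0 := hab
    rw [hbz, ← hmn, polar_add_right, polar_add_right, polar_smul_r, polar_smul_r, polar_smul_r, p2, hac,
      polar_self', ha] at h1
    have hm0 : m = 0 := by linear_combination h1
    have := hi (-l) 1 (-n) (by
      rw [hbz, ← hmn, hm0]
      simp only [zero_smul, zero_add, one_smul, neg_smul]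
      abel)
    exact one_ne_zero this.2.1
  obtain ⟨b', q1, q2, q3⟩ := exists_partner hQ {a, a', c} hn2 (by
    have : ({a, a', c} : Finset V).card ≤ 3 := Finset.card_le_three
    omega)
  have b'a : polar Q a b' = 0 := q3 a (by simp)
  have b'a' : polar Q a' b' = 0 := q3 a' (by simp)
  have b'c : polar Q c b' = 0 := q3 c (by simp)
  -- the third partner
  have hn3 : c ∉ Submodule.span K (({a, a', b, b'} : Finset V) : Set V) := by
    intro hm
    rw [Finset.coe_insert, Finset.coe_insert, Finset.coe_insert, Finset.coe_singleton,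
      Submodule.mem_span_insert] at hm
    obtain ⟨l, z, hz, hcz⟩ := hm
    rw [Submodule.mem_span_insert] at hz
    obtain ⟨m, z', hz', hzz⟩ := hz
    obtain ⟨n, o, hno⟩ := Submodule.mem_span_pair.1 hz'
    have h1 : polar Q a c = 0 := hac
    rw [hcz, hzz, ← hno, polar_add_right, polar_add_right, polar_add_right, polar_smul_r, polar_smul_r,
      polar_smul_r, polar_smul_r, p2, hab, b'a, polar_self', ha] at h1
    have hm0 : m = 0 := by linear_combination h1
    have h2 : polar Q b c = 0 := hbc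
    rw [hcz, hzz, ← hno, polar_add_right, polar_add_right, polar_add_right, polar_smul_r, polar_smul_r,
      polar_smul_r, polar_smul_r, q2, polar_comm Q b a, hab, a'b, polar_self', hb] at h2
    have ho0 : o = 0 := by linear_combination h2
    have := hi (-l) (-n) 1 (by
      rw [hcz, hzz, ← hno, hm0, ho0]
      simp only [zero_smul, zero_add, add_zero, one_smul, neg_smul]
      abel)
    exact one_ne_zero this.2.2
  obtain ⟨c', r1, r2, r3⟩ := exists_partner hQ {a, a', b, b'} hn3 (by
    have : ({a, a', b, b'} : Finset V).card ≤ 4 := Finset.card_le_four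
    omega)
  have c'a : polar Q a c' = 0 := r3 a (by simp)
  have c'a' : polar Q a' c' = 0 := r3 a' (by simp)
  have c'b : polar Q b c' = 0 := r3 b (by simp)
  have c'b' : polar Q b' c' = 0 := r3 b' (by simp)
  have haa : polar Q a a = 0 := by rw [polar_self', ha, mul_zero]
  have hbb : polar Q b b = 0 := by rw [polar_self', hb, mul_zero]
  have hcc : polar Q c c = 0 := by rw [polar_self', hc, mul_zero]
  have ha'a' : polar Q a' a' = 0 := by rw [polar_self', p1, mul_zero]
  have hb'b' : polar Q b' b' = 0 := by rw [polar_self', q1, mul_zero]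
  have hc'c' : polar Q c' c' = 0 := by rw [polar_self', r1, mul_zero]
  have sw : ∀ {u v : V}, polar Q u v = 0 → polar Q v u = 0 := fun h => by rw [polar_comm]; exact h
  have key : ∀ k, 3 ≤ k → k ≤ 5 → ∃ x y : ℕ → V, x 0 = a ∧ x 1 = b ∧ x 2 = c ∧ HF Q k x y := by
    intro k hk
    induction k, hk using Nat.le_induction with
    | base =>
      intro _
      refine ⟨fun i => if i = 0 then a else if i = 1 then b else c,
        fun i => if i = 0 then a' else if i = 1 then b' else c', by simp, by simp, by simp, ?_⟩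
      intro i hi' j hj
      have hi2 : i = 0 ∨ i = 1 ∨ i = 2 := by omega
      have hj2 : j = 0 ∨ j = 1 ∨ j = 2 := by omega
      rcases hi2 with rfl | rfl | rfl <;> rcases hj2 with rfl | rfl | rfl <;>
        simp [ha, hb, hc, p1, q1, r1, hab, hac, hbc, sw hab, sw hac, sw hbc, haa, hbb, hcc, ha'a', hb'b', hc'c',
          p2, q2, r2, a'b, a'c, b'a, b'a', b'c, c'a, c'a', c'b, c'b', sw b'a', sw c'a', sw c'b']
    | succ k hk ih =>
      intro hk5
      obtain ⟨x, y, hx0, hx1, hx2, hH⟩ := ih (by omega)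
      obtain ⟨u, v, huv, hrest⟩ := hH.extend hQ (by omega)
      refine ⟨Function.update x k u, Function.update y k v, ?_, ?_, ?_, hH.snoc huv hrest⟩
      · rw [Function.update_of_ne (by omega), hx0]
      · rw [Function.update_of_ne (by omega), hx1]
      · rw [Function.update_of_ne (by omega), hx2]
  exact key 5 (by omega) le_rfl

end Generic

section Rational

variable {ι : Type} [Fintype ι] [DecidableEq ι] {F : Type*} [Field F] [Fintype F]
  {Q : QuadraticForm F (ι → F)} {F₀ : Subfield F}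

/-- The quadratic form is rational for the standard structure over `F₀`. -/
def RatQ (Q : QuadraticForm F (ι → F)) (F₀ : Subfield F) : Prop := ∀ x : ι → F₀, Q (emb x) ∈ F₀

theorem polar_emb_mem (h : RatQ Q F₀) (x y : ι → F₀) : polar Q (emb x) (emb y) ∈ F₀ := by
  have e : polar Q (emb x) (emb y) = Q (emb (x + y)) - Q (emb x) - Q (emb y) := by
    rw [emb_add]
    rfl
  rw [e]
  exact F₀.sub_mem (F₀.sub_mem (h _) (h _)) (h _)

/-- The rational form. -/
noncomputable def Q0 (h : RatQ Q F₀) : QuadraticForm F₀ (ι → F₀) where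
  toFun x := ⟨Q (emb x), h x⟩
  toFun_smul c x := by
    apply Subtype.ext
    show Q (emb (c • x)) = ((c * c : F₀) : F) * Q (emb x)
    rw [emb_smul, QuadraticMap.map_smul, smul_eq_mul]
    rfl
  exists_companion' := by
    refine ⟨LinearMap.mk₂ F₀ (fun x y => ⟨polar Q (emb x) (emb y), polar_emb_mem h x y⟩) ?_ ?_ ?_ ?_, ?_⟩
    · intro x x' y
      apply Subtype.ext
      show polar Q (emb (x + x')) (emb y) = polar Q (emb x) (emb y) + polar Q (emb x') (emb y)
      rw [emb_add, polar_add_left]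
    · intro c x y
      apply Subtype.ext
      show polar Q (emb (c • x)) (emb y) = (c : F) * polar Q (emb x) (emb y)
      rw [emb_smul, polar_smul_l]
    · intro x y y'
      apply Subtype.ext
      show polar Q (emb x) (emb (y + y')) = polar Q (emb x) (emb y) + polar Q (emb x) (emb y')
      rw [emb_add, polar_add_right]
    · intro c x y
      apply Subtype.ext
      show polar Q (emb x) (emb (c • y)) = (c : F) * polar Q (emb x) (emb y)
      rw [emb_smul, polar_smul_r]
    · intro x y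
      apply Subtype.ext
      show Q (emb (x + y)) = Q (emb x) + Q (emb y) + polar Q (emb x) (emb y)
      rw [emb_add, Q_add]

theorem Q0_coe (h : RatQ Q F₀) (x : ι → F₀) : ((Q0 h x : F₀) : F) = Q (emb x) := rfl

theorem polar_Q0 (h : RatQ Q F₀) (x y : ι → F₀) : ((polar (Q0 h) x y : F₀) : F) = polar Q (emb x) (emb y) := by
  show ((Q0 h (x + y) - Q0 h x - Q0 h y : F₀) : F) = _
  push_cast
  rw [Q0_coe, Q0_coe, Q0_coe, emb_add]
  rfl

theorem Q0_eq_zero (h : RatQ Q F₀) {x : ι → F₀} : Q0 h x = 0 ↔ Q (emb x) = 0 := by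
  rw [← Q0_coe h x]
  exact ⟨fun e => by rw [e]; rfl, fun e => Subtype.ext e⟩

theorem polar_Q0_eq_zero (h : RatQ Q F₀) {x y : ι → F₀} : polar (Q0 h) x y = 0 ↔ polar Q (emb x) (emb y) = 0 := by
  rw [← polar_Q0 h x y]
  exact ⟨fun e => by rw [e]; rfl, fun e => Subtype.ext e⟩

theorem HF_emb (h : RatQ Q F₀) {k : ℕ} {x y : ℕ → ι → F₀} (hH : HF (Q0 h) k x y) :
    HF Q k (fun i => emb (x i)) (fun i => emb (y i)) := by
  intro i hi j hj
  obtain ⟨h1, h2, h3, h4, h5⟩ := hH i hi j hj
  refine ⟨(Q0_eq_zero h).1 h1, (Q0_eq_zero h).1 h2, (polar_Q0_eq_zero h).1 h3, (polar_Q0_eq_zero h).1 h4, ?_⟩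
  have := congrArg Subtype.val h5
  rw [polar_Q0] at this
  show polar Q (emb (x i)) (emb (y j)) = _
  rw [this]
  split_ifs <;> simp

theorem vec_expand (p : ι → F) : p = ∑ j, p j • emb (Pi.single j (1 : F₀)) := by
  ext i
  rw [Finset.sum_apply]
  simp only [Pi.smul_apply, smul_eq_mul]
  rw [Finset.sum_eq_single i]
  · simp [emb]
  · intro j _ hj
    simp [emb, Pi.single_apply, Ne.symm hj]
  · simp

theorem polar_expand (p s : ι → F) : polar Q p s = ∑ j, p j * polar Q (emb (Pi.single j (1 : F₀))) s := by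
  conv_lhs => rw [vec_expand (F₀ := F₀) p]
  rw [polar_sum_left]
  exact Finset.sum_congr rfl fun j _ => polar_smul_l _ _ _ _

theorem eq_zero_of_rat (hQ : Nondeg Q) (F₀ : Subfield F) {z : ι → F} (hz : ∀ s : ι → F₀, polar Q (emb s) z = 0) : z = 0 := by
  by_contra h0
  obtain ⟨y, hy⟩ := hQ z h0
  apply hy
  rw [polar_comm, polar_expand (F₀ := F₀)]
  refine Finset.sum_eq_zero fun j _ => ?_
  rw [hz, mul_zero]

theorem Q0_ND (hQ : Nondeg Q) (h : RatQ Q F₀) : Cfsg.Agent.Lib.QuadFF.ND (Q0 h) := by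
  intro x hx
  apply emb_inj
  rw [emb_zero]
  apply eq_zero_of_rat hQ F₀
  intro s
  rw [polar_comm]
  exact (polar_Q0_eq_zero h).1 (hx s)

theorem finrank_emb : finrank F₀ (ι → F₀) = Fintype.card ι := by
  simp

/-- The Frobenius map of `F` over `F₀`. -/
noncomputable def fro (F₀ : Subfield F) : F →+* F :=
  letI : Fintype F₀ := Fintype.ofFinite _
  ((FiniteField.frobeniusAlgHom F₀ F : F →ₐ[F₀] F) : F →+* F)

theorem fro_apply (a : F) : fro F₀ a = a ^ Nat.card F₀ := by
  let _ : Fintype F₀ := Fintype.ofFinite _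
  rw [Nat.card_eq_fintype_card]
  show (FiniteField.frobeniusAlgHom F₀ F) a = _
  rw [FiniteField.coe_frobeniusAlgHom]

theorem fro_eq_iff (a : F) : fro F₀ a = a ↔ a ∈ F₀ := by
  rw [fro_apply, mem_iff F₀ a]

/-- Frobenius on vectors. -/
noncomputable def tv (F₀ : Subfield F) (v : ι → F) : ι → F := fun i => fro F₀ (v i)

theorem tv_add (v w : ι → F) : tv F₀ (v + w) = tv F₀ v + tv F₀ w := by
  ext i
  simp [tv]

theorem tv_sub (v w : ι → F) : tv F₀ (v - w) = tv F₀ v - tv F₀ w := by
  ext i
  simp [tv]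

theorem tv_zero : tv F₀ (0 : ι → F) = 0 := by
  ext i
  simp [tv]

theorem tv_smul (c : F) (v : ι → F) : tv F₀ (c • v) = fro F₀ c • tv F₀ v := by
  ext i
  simp [tv]

theorem tv_emb (x : ι → F₀) : tv F₀ (emb x) = emb x := by
  ext i
  exact (fro_eq_iff _).2 (x i).2

theorem tv_single (j : ι) : tv F₀ (emb (Pi.single j (1 : F₀)) : ι → F) = emb (Pi.single j (1 : F₀)) := tv_emb _

/-- Frobenius and the polar form. -/
theorem polar_tv (h : RatQ Q F₀) (p : ι → F) (s : ι → F₀) :
    polar Q (tv F₀ p) (emb s) = fro F₀ (polar Q p (emb s)) := by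
  rw [polar_expand (F₀ := F₀) (tv F₀ p), polar_expand (F₀ := F₀) p, map_sum]
  refine Finset.sum_congr rfl fun j _ => ?_
  rw [map_mul, (fro_eq_iff _).2 (polar_emb_mem h _ _)]
  rfl

/-- The spanning test. -/
theorem span_test (hQ : Nondeg Q) (h : RatQ Q F₀) {k : ℕ} {x y : ℕ → ι → F₀} (hH : HF (Q0 h) (k + 1) x y)
    {z : ι → F} (hz : ∀ s : ι → F₀, Q0 h s = 0 → (∀ i < k, polar (Q0 h) s (x i) = 0 ∧ polar (Q0 h) s (y i) = 0) →
      polar Q (emb s) z = 0) :
    z = ∑ i ∈ Finset.range k, (polar Q z (emb (y i)) • emb (x i) + polar Q z (emb (x i)) • emb (y i)) := by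
  classical
  set E : ℕ → ι → F := fun i => emb (x i) with hE
  set G : ℕ → ι → F := fun i => emb (y i) with hG
  have hEG : HF Q (k + 1) E G := HF_emb h hH
  have hEG' : HF Q k E G := hEG.mono (by omega)
  have hH' : HF (Q0 h) k x y := hH.mono (by omega)
  have key : pr Q k E G z = 0 := by
    apply eq_zero_of_rat hQ F₀
    intro s
    set s₁ : ι → F₀ := pr (Q0 h) k x y s with hs₁
    have hx₁ : ∀ j < k, polar (Q0 h) s₁ (x j) = 0 := fun j hj => hH'.pr_x s hj
    have hy₁ : ∀ j < k, polar (Q0 h) s₁ (y j) = 0 := fun j hj => hH'.pr_y s hj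
    have hz₀x : ∀ j < k, polar Q (pr Q k E G z) (E j) = 0 := fun j hj => hEG'.pr_x z hj
    have hz₀y : ∀ j < k, polar Q (pr Q k E G z) (G j) = 0 := fun j hj => hEG'.pr_y z hj
    have hemb : emb s₁ = pr Q k E G (emb s) := by
      rw [hs₁, pr, pr, emb_sub]
      congr 1
      ext t
      simp only [emb, Finset.sum_apply, Pi.add_apply, Pi.smul_apply, smul_eq_mul, AddSubmonoidClass.coe_finsetSum,
        Subfield.coe_add, Subfield.coe_mul, polar_Q0]
      rfl
    have e1 : polar Q (emb s) (pr Q k E G z) = polar Q (emb s₁) (pr Q k E G z) := by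
      rw [polar_comm, ← polar_pr_right hz₀x hz₀y (emb s), ← hemb, polar_comm]
    have e2 : polar Q (emb s₁) (pr Q k E G z) = polar Q (emb s₁) z := by
      refine polar_pr_right (fun j hj => ?_) (fun j hj => ?_) z
      · exact (polar_Q0_eq_zero h).1 (hx₁ j hj)
      · exact (polar_Q0_eq_zero h).1 (hy₁ j hj)
    rw [e1, e2]
    -- the extra pair
    obtain ⟨p1, p2, p3, p4, p5⟩ := hH k (by omega) k (by omega)
    rw [if_pos rfl] at p5
    obtain ⟨t, a, b, ht, hst, htw⟩ := exists_sing_split p1 p2 p5 s₁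
    have hgperp : ∀ j < k, polar (Q0 h) (x k) (x j) = 0 ∧ polar (Q0 h) (x k) (y j) = 0 := by
      intro j hj
      obtain ⟨_, _, q3, _, q5⟩ := hH k (by omega) j (by omega)
      rw [if_neg (by omega)] at q5
      exact ⟨q3, q5⟩
    have hg'perp : ∀ j < k, polar (Q0 h) (y k) (x j) = 0 ∧ polar (Q0 h) (y k) (y j) = 0 := by
      intro j hj
      obtain ⟨_, _, _, q4, _⟩ := hH k (by omega) j (by omega)
      have q5 := hH.yx (i := k) (j := j) (by omega) (by omega)
      rw [if_neg (by omega)] at q5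
      exact ⟨q5, q4⟩
    have h1 := hz (x k) p1 hgperp
    have h2 := hz (y k) p2 hg'perp
    have h3 := hz t ht (fun j hj => ⟨htw _ (hgperp j hj).1 (hg'perp j hj).1 (hx₁ j hj),
      htw _ (hgperp j hj).2 (hg'perp j hj).2 (hy₁ j hj)⟩)
    rw [hst, emb_add, emb_add, emb_smul, emb_smul, polar_add_left, polar_add_left, polar_smul_l, polar_smul_l, h1, h2, h3]
    ring
  rw [pr, sub_eq_zero] at key
  exact key

/-- A hyperbolic pair of the rational form. -/
theorem exists_rat_pair (hQ : Nondeg Q) (h : RatQ Q F₀) (hn : 13 ≤ Fintype.card ι) (C : Finset (ι → F₀))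
    (hC : 2 * C.card + 3 ≤ Fintype.card ι) :
    ∃ a b : ι → F₀, Q0 h a = 0 ∧ Q0 h b = 0 ∧ polar (Q0 h) a b = 1 ∧ ∀ c ∈ C, polar (Q0 h) c a = 0 ∧ polar (Q0 h) c b = 0 := by
  obtain ⟨a, b, hab, hc⟩ := Cfsg.Agent.Lib.OmGeo.exists_hyp_perp (Q0_ND hQ h) C (by
    rw [finrank_emb]
    exact hC)
  exact ⟨a, b, hab.Qv, hab.Qw, hab.vw, hc⟩

/-- Rational singular vectors detect non-zero vectors. -/
theorem exists_rat_sing_ne (hQ : Nondeg Q) (h : RatQ Q F₀) (hn : 13 ≤ Fintype.card ι) {z : ι → F} (hz : z ≠ 0) :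
    ∃ s : ι → F₀, Q0 h s = 0 ∧ polar Q (emb s) z ≠ 0 := by
  by_contra hcon
  push Not at hcon
  obtain ⟨a, b, h1, h2, h3, -⟩ := exists_rat_pair hQ h hn ∅ (by simp; omega)
  have hH : HF (Q0 h) 1 (fun _ => a) (fun _ => b) := by
    intro i hi j hj
    have hi0 : i = 0 := by omega
    have hj0 : j = 0 := by omega
    subst hi0
    subst hj0
    simp only [if_true]
    refine ⟨h1, h2, ?_, ?_, h3⟩
    · rw [polar_self', h1, mul_zero]
    · rw [polar_self', h2, mul_zero]
  have := span_test hQ h (k := 0) hH (z := z) (fun s hs _ => hcon s hs)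
  simp only [Finset.range_zero, Finset.sum_empty] at this
  exact hz this

/-- A partner of a rational singular vector, with another pair. -/
theorem exists_rat_two (hQ : Nondeg Q) (h : RatQ Q F₀) (hn : 13 ≤ Fintype.card ι) {a : ι → F₀} (ha : Q0 h a = 0)
    (ha0 : a ≠ 0) : ∃ x y : ℕ → ι → F₀, x 0 = a ∧ HF (Q0 h) 2 x y := by
  classical
  have hnd := Q0_ND hQ h
  have hr : finrank F₀ (ι → F₀) = Fintype.card ι := finrank_emb
  obtain ⟨a', p1, p2, -⟩ := exists_partner hnd (∅ : Finset (ι → F₀)) (a := a) (by simpa using ha0) (by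
    rw [hr]
    simp
    omega)
  have hH : HF (Q0 h) 1 (fun _ => a) (fun _ => a') := by
    intro i hi j hj
    have hi0 : i = 0 := by omega
    have hj0 : j = 0 := by omega
    subst hi0
    subst hj0
    simp only [if_true]
    refine ⟨ha, p1, ?_, ?_, p2⟩
    · rw [polar_self', ha, mul_zero]
    · rw [polar_self', p1, mul_zero]
  obtain ⟨u, v, huv, hr'⟩ := hH.extend hnd (by rw [hr]; omega)
  exact ⟨Function.update (fun _ => a) 1 u, Function.update (fun _ => a') 1 v, by simp, hH.snoc huv hr'⟩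

/-- Rational singular vectors in the orthogonal of a rational singular vector detect vectors outside its line. -/
theorem exists_rat_sing_perp (hQ : Nondeg Q) (h : RatQ Q F₀) (hn : 13 ≤ Fintype.card ι) {a : ι → F₀} (ha : Q0 h a = 0)
    (ha0 : a ≠ 0) {z : ι → F} (hz : ∀ c : F, z ≠ c • emb a) :
    ∃ s : ι → F₀, Q0 h s = 0 ∧ polar (Q0 h) s a = 0 ∧ polar Q (emb s) z ≠ 0 := by
  by_contra hcon
  push Not at hcon
  obtain ⟨x, y, rfl, hH⟩ := exists_rat_two hQ h hn ha ha0
  have h1 := span_test hQ h (k := 1) hH (z := z) (fun s hs hp => hcon s hs (hp 0 (by omega)).1)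
  have h2 : polar Q z (emb (x 0)) = 0 := by
    rw [polar_comm]
    refine hcon _ ha ?_
    rw [polar_self', ha, mul_zero]
  simp only [Finset.sum_range_one, h2, zero_smul, add_zero] at h1
  exact hz _ h1

/-- Rational singular vectors orthogonal to a line and a hyperbolic pair. -/
theorem exists_rat_sing_perp2 (hQ : Nondeg Q) (h : RatQ Q F₀) (hn : 13 ≤ Fintype.card ι) {a b c : ι → F₀} (ha : Q0 h a = 0)
    (hb : Q0 h b = 0) (hc : Q0 h c = 0) (ha0 : a ≠ 0) (hab : polar (Q0 h) a b = 0) (hac : polar (Q0 h) a c = 0)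
    (hbc : polar (Q0 h) b c ≠ 0) {z : ι → F} (hz : ∀ l m n : F, z ≠ l • emb a + m • emb b + n • emb c) :
    ∃ s : ι → F₀, Q0 h s = 0 ∧ polar (Q0 h) s a = 0 ∧ polar (Q0 h) s b = 0 ∧ polar (Q0 h) s c = 0 ∧
      polar Q (emb s) z ≠ 0 := by
  classical
  by_contra hcon
  push Not at hcon
  have hnd := Q0_ND hQ h
  have hr : finrank F₀ (ι → F₀) = Fintype.card ι := finrank_emb
  set d : F₀ := polar (Q0 h) b c with hd
  set c' : ι → F₀ := d⁻¹ • c with hc'
  have hbc' : polar (Q0 h) b c' = 1 := by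
    rw [hc', polar_smul_r, ← hd, inv_mul_cancel₀ hbc]
  have hc'0 : Q0 h c' = 0 := by rw [hc', Q_smul, hc, mul_zero]
  have hac' : polar (Q0 h) a c' = 0 := by rw [hc', polar_smul_r, hac, mul_zero]
  have hn1 : a ∉ Submodule.span F₀ (({b, c'} : Finset (ι → F₀)) : Set (ι → F₀)) := by
    intro hm
    rw [Finset.coe_insert, Finset.coe_singleton] at hm
    obtain ⟨m, n, hmn⟩ := Submodule.mem_span_pair.1 hm
    have e1 : polar (Q0 h) a c' = 0 := hac'
    rw [← hmn, polar_add_left, polar_smul_l, polar_smul_l, hbc', polar_self', hc'0] at e1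
    have hm0 : m = 0 := by linear_combination e1
    have e2 : polar (Q0 h) a b = 0 := hab
    rw [← hmn, polar_add_left, polar_smul_l, polar_smul_l, polar_comm (Q0 h) c' b, hbc', polar_self', hb] at e2
    have hn0 : n = 0 := by linear_combination e2
    apply ha0
    rw [← hmn, hm0, hn0]
    simp
  obtain ⟨a', p1, p2, p3⟩ := exists_partner hnd {b, c'} hn1 (by
    have : ({b, c'} : Finset (ι → F₀)).card ≤ 2 := Finset.card_le_two
    rw [hr]
    omega)
  have ha'b : polar (Q0 h) b a' = 0 := p3 b (by simp)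
  have ha'c : polar (Q0 h) c' a' = 0 := p3 c' (by simp)
  have hH : HF (Q0 h) 2 (fun i => if i = 0 then a else b) (fun i => if i = 0 then a' else c') := by
    intro i hi j hj
    have hi2 : i = 0 ∨ i = 1 := by omega
    have hj2 : j = 0 ∨ j = 1 := by omega
    have e1 : polar (Q0 h) a a = 0 := by rw [polar_self', ha, mul_zero]
    have e2 : polar (Q0 h) b b = 0 := by rw [polar_self', hb, mul_zero]
    have e3 : polar (Q0 h) a' a' = 0 := by rw [polar_self', p1, mul_zero]
    have e4 : polar (Q0 h) c' c' = 0 := by rw [polar_self', hc'0, mul_zero]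
    have e5 : polar (Q0 h) a' c' = 0 := by rw [polar_comm]; exact ha'c
    have e6 : polar (Q0 h) c' a' = 0 := ha'c
    have e7 : polar (Q0 h) b a = 0 := by rw [polar_comm]; exact hab
    rcases hi2 with rfl | rfl <;> rcases hj2 with rfl | rfl <;>
      simp [ha, hb, hc'0, p1, hab, p2, hbc', hac', ha'b, e1, e2, e3, e4, e5, e6, e7]
  obtain ⟨u, v, huv, hr'⟩ := hH.extend hnd (by rw [hr]; omega)
  have hH3 := hH.snoc huv hr'
  have h1 := span_test hQ h (k := 2) hH3 (z := z) (fun s hs hp => by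
    have e0 := hp 0 (by omega)
    have e1 := hp 1 (by omega)
    simp only [Function.update_of_ne (show (0 : ℕ) ≠ 2 by omega), Function.update_of_ne (show (1 : ℕ) ≠ 2 by omega)] at e0 e1
    simp only [if_true, one_ne_zero, if_false] at e0 e1
    refine hcon s hs e0.1 e1.1 ?_
    have e2 := e1.2
    rw [hc', polar_smul_r] at e2
    have hd0 : d⁻¹ ≠ 0 := inv_ne_zero hbc
    exact (mul_eq_zero.1 e2).resolve_left hd0)
  have h2 : polar Q z (emb a) = 0 := by
    rw [polar_comm]
    refine hcon _ ha ?_ hab hac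
    rw [polar_self', ha, mul_zero]
  simp only [Finset.sum_range_succ, Finset.sum_range_zero, zero_add, Function.update_of_ne (show (0 : ℕ) ≠ 2 by omega),
    Function.update_of_ne (show (1 : ℕ) ≠ 2 by omega), if_true, one_ne_zero, if_false, h2, zero_smul, add_zero] at h1
  have e : (emb c' : ι → F) = ((d : F)⁻¹) • emb c := by
    rw [hc', emb_smul]
    simp
  generalize polar Q z (emb a') = A at h1
  generalize polar Q z (emb c') = B at h1
  generalize polar Q z (emb b) = C at h1
  rw [e, smul_smul] at h1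
  exact hz A B (C * (d : F)⁻¹) (by rw [add_assoc]; exact h1)

/-- Every rational vector is a combination of singular ones. -/
theorem mem_of_sing (hQ : Nondeg Q) (h : RatQ Q F₀) (hn : 13 ≤ Fintype.card ι) (S : Submodule F₀ (ι → F₀))
    (hS : ∀ v, Q0 h v = 0 → v ∈ S) (s : ι → F₀) : s ∈ S := by
  obtain ⟨a, b, h1, h2, h3, -⟩ := exists_rat_pair hQ h hn ∅ (by simp; omega)
  obtain ⟨t, c, d, ht, hst, -⟩ := exists_sing_split h1 h2 h3 s
  rw [hst]
  exact S.add_mem (S.add_mem (hS t ht) (S.smul_mem _ (hS a h1))) (S.smul_mem _ (hS b h2))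

end Rational

section StageI

variable {ι : Type} [Fintype ι] [DecidableEq ι] {F : Type*} [Field F] [Fintype F]
  {Q : QuadraticForm F (ι → F)} {F₀ : Subfield F}

theorem emb_ne_zero {x : ι → F₀} (hx : x ≠ 0) : (emb x : ι → F) ≠ 0 :=
  fun h => hx (emb_inj (by rw [h, emb_zero]))

/-- An element outside the rational group times the scalars moves a rational totally singular line
to a line which is not stable under Frobenius. -/
theorem exists_line (hQ : Nondeg Q) (h : RatQ Q F₀) (hn : 13 ≤ Fintype.card ι) {g : GL ι F}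
    (hg : g ∉ (Matrix.GeneralLinearGroup.map (F₀.subtype : F₀ →+* F)).range ⊔ scalars ι F) :
    ∃ x y : ι → F₀, Q0 h x = 0 ∧ Q0 h y = 0 ∧ polar (Q0 h) x y = 0 ∧
      (∀ a b : F, a • emb x + b • emb y = 0 → a = 0 ∧ b = 0) ∧
      ¬ ∃ p q : F, tv F₀ (g ⋆ emb x) = p • (g ⋆ emb x) + q • (g ⋆ emb y) := by
  classical
  let _ : Fintype F₀ := Fintype.ofFinite _
  by_contra hcon
  push Not at hcon
  apply hg
  have hnd := Q0_ND hQ h
  have hr : finrank F₀ (ι → F₀) = Fintype.card ι := finrank_emb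
  have hginj : ∀ {x : ι → F}, g ⋆ x = 0 → x = 0 := by
    intro x hx
    have h1 := inv_mulVec_GL g x
    rw [hx, Matrix.mulVec_zero] at h1
    exact h1.symm
  -- Frobenius acts by a scalar on the image of a rational singular vector
  have hlam : ∀ x : ι → F₀, Q0 h x = 0 → x ≠ 0 → ∃ l : F, tv F₀ (g ⋆ emb x) = l • (g ⋆ emb x) := by
    intro x hx hx0
    obtain ⟨X, Y, rfl, hH⟩ := exists_rat_two hQ h hn hx hx0
    obtain ⟨u, v, huv, hr'⟩ := hH.extend hnd (by rw [hr]; omega)
    have hH3 := hH.snoc huv hr'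
    have e00 := hH 0 (by omega) 0 (by omega)
    have e01 := hH 0 (by omega) 1 (by omega)
    have e11 := hH 1 (by omega) 1 (by omega)
    have e10 := hH 1 (by omega) 0 (by omega)
    obtain ⟨r1, r2, r3, r4⟩ := hr' 0 (by omega)
    obtain ⟨s1, s2, s3, s4⟩ := hr' 1 (by omega)
    simp only [if_true, zero_ne_one, if_false, one_ne_zero] at e00 e01 e11 e10
    -- the two lines
    have hYv : polar Q (emb (X 1)) (emb v) = 0 := (polar_Q0_eq_zero h).1 s3
    have hXv : polar Q (emb (X 0)) (emb v) = 0 := (polar_Q0_eq_zero h).1 r3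
    have huv1 : polar Q (emb u) (emb v) = 1 := by
      have := congrArg Subtype.val huv.vw
      rw [polar_Q0] at this
      simpa using this
    have hX0Y0 : polar Q (emb (X 0)) (emb (Y 0)) = 1 := by
      have := congrArg Subtype.val e00.2.2.2.2
      rw [polar_Q0] at this
      simpa using this
    have hX1Y1 : polar Q (emb (X 1)) (emb (Y 1)) = 1 := by
      have := congrArg Subtype.val e11.2.2.2.2
      rw [polar_Q0] at this
      simpa using this
    have hX0Y1 : polar Q (emb (X 0)) (emb (Y 1)) = 0 := (polar_Q0_eq_zero h).1 e01.2.2.2.2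
    have hX1Y0 : polar Q (emb (X 1)) (emb (Y 0)) = 0 := (polar_Q0_eq_zero h).1 e10.2.2.2.2
    have huY0 : polar Q (emb u) (emb (Y 0)) = 0 := by
      rw [polar_comm]
      exact (polar_Q0_eq_zero h).1 r2
    have huY1 : polar Q (emb u) (emb (Y 1)) = 0 := by
      rw [polar_comm]
      exact (polar_Q0_eq_zero h).1 s2
    have i1 : ∀ a b : F, a • emb (X 0) + b • emb (X 1) = 0 → a = 0 ∧ b = 0 := by
      intro a b hab
      have t1 := congrArg (fun w => polar Q w (emb (Y 0))) hab
      have t2 := congrArg (fun w => polar Q w (emb (Y 1))) hab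
      simp only [polar_add_left, polar_smul_l, polar_zero_left, hX0Y0, hX1Y0, hX0Y1, hX1Y1, mul_zero, mul_one, add_zero,
        zero_add] at t1 t2
      exact ⟨t1, t2⟩
    have i2 : ∀ a b : F, a • emb (X 0) + b • emb u = 0 → a = 0 ∧ b = 0 := by
      intro a b hab
      have t1 := congrArg (fun w => polar Q w (emb (Y 0))) hab
      have t2 := congrArg (fun w => polar Q w (emb v)) hab
      simp only [polar_add_left, polar_smul_l, polar_zero_left, hX0Y0, huY0, hXv, huv1, mul_zero, mul_one, add_zero,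
        zero_add] at t1 t2
      exact ⟨t1, t2⟩
    obtain ⟨p₁, q₁, e1⟩ := hcon (X 0) (X 1) hx e11.1 e01.2.2.1 i1
    obtain ⟨p₂, q₂, e2⟩ := hcon (X 0) u hx huv.Qv r1 i2
    have e3 : g ⋆ ((p₁ - p₂) • emb (X 0) + q₁ • emb (X 1) - q₂ • emb u) = 0 := by
      rw [Matrix.mulVec_sub, Matrix.mulVec_add, Matrix.mulVec_smul, Matrix.mulVec_smul, Matrix.mulVec_smul, sub_smul]
      have : p₁ • (g ⋆ emb (X 0)) + q₁ • (g ⋆ emb (X 1)) = p₂ • (g ⋆ emb (X 0)) + q₂ • (g ⋆ emb u) := by
        rw [← e1, ← e2]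
      rw [sub_eq_zero, sub_add_eq_add_sub, sub_eq_iff_eq_add, this]
      abel
    have e4 := hginj e3
    have t := congrArg (fun w => polar Q w (emb (Y 1))) e4
    simp only [polar_sub_left, polar_add_left, polar_smul_l, polar_zero_left, hX0Y1, hX1Y1, huY1, mul_zero, mul_one,
      add_zero, zero_add, sub_zero] at t
    refine ⟨p₁, ?_⟩
    rw [e1, t, zero_smul, add_zero]
  -- a base point
  obtain ⟨x₀, b₀, hx₀, hb₀, hx₀b₀, -⟩ := exists_rat_pair hQ h hn ∅ (by simp; omega)
  have hx₀0 : x₀ ≠ 0 := by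
    rintro rfl
    rw [polar_zero_left] at hx₀b₀
    exact zero_ne_one hx₀b₀
  obtain ⟨l₀, hl₀⟩ := hlam x₀ hx₀ hx₀0
  set R : (ι → F₀) → Prop := fun z => tv F₀ (g ⋆ emb z) = l₀ • (g ⋆ emb z) with hR
  have hA : ∀ u w : ι → F₀, Q0 h u = 0 → Q0 h w = 0 → polar (Q0 h) u w = 0 →
      (∀ α β : F, α • emb u + β • emb w = 0 → α = 0 ∧ β = 0) → R u → R w := by
    intro u w hu hw huw hind hRu
    have hu0 : u ≠ 0 := by
      rintro rfl
      have := hind 1 0 (by simp [emb_zero])
      exact one_ne_zero this.1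
    have hw0 : w ≠ 0 := by
      rintro rfl
      have := hind 0 1 (by simp [emb_zero])
      exact one_ne_zero this.2
    have huw0 : u + w ≠ 0 := by
      intro h0
      have h1 : emb u + emb w = (0 : ι → F) := by rw [← emb_add, h0, emb_zero]
      have := hind 1 1 (by simpa using h1)
      exact one_ne_zero this.1
    have hQuw : Q0 h (u + w) = 0 := by rw [Q_add, hu, hw, huw]; ring
    obtain ⟨l₁, hl₁⟩ := hlam w hw hw0
    obtain ⟨l₂, hl₂⟩ := hlam (u + w) hQuw huw0
    have e1 : tv F₀ (g ⋆ emb (u + w)) = tv F₀ (g ⋆ emb u) + tv F₀ (g ⋆ emb w) := by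
      rw [emb_add, Matrix.mulVec_add, tv_add]
    rw [hl₂, hRu, hl₁, emb_add, Matrix.mulVec_add] at e1
    have e2 : g ⋆ ((l₂ - l₀) • emb u + (l₂ - l₁) • emb w) = 0 := by
      rw [Matrix.mulVec_add, Matrix.mulVec_smul, Matrix.mulVec_smul, sub_smul, sub_smul]
      rw [smul_add] at e1
      rw [sub_add_sub_comm, e1]
      abel
    obtain ⟨c1, c2⟩ := hind _ _ (hginj e2)
    have hl : l₁ = l₀ := by linear_combination c1 - c2
    show tv F₀ (g ⋆ emb w) = l₀ • (g ⋆ emb w)
    rw [hl₁, hl]
  have hall : ∀ z, Q0 h z = 0 → R z := by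
    intro z hz
    by_cases hz0 : z = 0
    · subst hz0
      show tv F₀ (g ⋆ emb 0) = l₀ • (g ⋆ emb 0)
      rw [emb_zero, Matrix.mulVec_zero, tv_zero, smul_zero]
    obtain ⟨a, b, p1, p2, p3, p4⟩ := exists_rat_pair hQ h hn {x₀, z} (by
      have : ({x₀, z} : Finset (ι → F₀)).card ≤ 2 := Finset.card_le_two
      omega)
    obtain ⟨q1, q2⟩ := p4 x₀ (by simp)
    obtain ⟨q3, q4⟩ := p4 z (by simp)
    have hab : polar Q (emb a) (emb b) = 1 := by
      have := congrArg Subtype.val p3
      rw [polar_Q0] at this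
      simpa using this
    have hRa : R a := by
      refine hA x₀ a hx₀ p1 q1 ?_ hl₀
      intro α β hαβ
      have t := congrArg (fun w => polar Q w (emb b)) hαβ
      simp only [polar_add_left, polar_smul_l, polar_zero_left, (polar_Q0_eq_zero h).1 q2, hab, mul_zero, mul_one,
        zero_add] at t
      rw [t, zero_smul, add_zero] at hαβ
      exact ⟨(smul_eq_zero.1 hαβ).resolve_right (emb_ne_zero hx₀0), t⟩
    refine hA a z p1 hz ?_ ?_ hRa
    · rw [polar_comm]
      exact q3
    · intro α β hαβ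
      have t := congrArg (fun w => polar Q w (emb b)) hαβ
      simp only [polar_add_left, polar_smul_l, polar_zero_left, (polar_Q0_eq_zero h).1 q4, hab, mul_zero, mul_one,
        add_zero] at t
      rw [t, zero_smul, zero_add] at hαβ
      exact ⟨t, (smul_eq_zero.1 hαβ).resolve_right (emb_ne_zero hz0)⟩
  let S₁ : Submodule F₀ (ι → F₀) :=
    { carrier := {z | R z}
      add_mem' := by
        intro a b ha hb
        show tv F₀ (g ⋆ emb (a + b)) = l₀ • (g ⋆ emb (a + b))
        rw [emb_add, Matrix.mulVec_add, tv_add, smul_add]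
        exact congrArg₂ _ ha hb
      zero_mem' := by
        show tv F₀ (g ⋆ emb 0) = l₀ • (g ⋆ emb 0)
        rw [emb_zero, Matrix.mulVec_zero, tv_zero, smul_zero]
      smul_mem' := by
        intro c a ha
        show tv F₀ (g ⋆ emb (c • a)) = l₀ • (g ⋆ emb (c • a))
        have ha' : tv F₀ (g ⋆ emb a) = l₀ • (g ⋆ emb a) := ha
        rw [emb_smul, Matrix.mulVec_smul, tv_smul, ha', (fro_eq_iff _).2 c.2, smul_smul, smul_smul, mul_comm] }
  have hent : ∀ k l, fro F₀ ((g : Matrix ι ι F) k l) = l₀ * (g : Matrix ι ι F) k l := by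
    intro k l
    have h1 : R (Pi.single l 1) := mem_of_sing hQ h hn S₁ hall _
    have h2 := congrFun h1 k
    rw [← emb_single] at h2
    simpa [tv] using h2
  -- a non-zero entry
  obtain ⟨k₀, l₀', hk⟩ : ∃ k l, (g : Matrix ι ι F) k l ≠ 0 := by
    by_contra hno
    push Not at hno
    have hne : Nonempty ι := by
      by_contra hne
      rw [not_nonempty_iff] at hne
      have := Fintype.card_eq_zero (α := ι)
      omega
    obtain ⟨i⟩ := hne
    have h1 : g ⋆ (Pi.single i 1) = 0 := by
      ext k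
      simp [hno]
    have h2 := hginj h1
    have h3 := congrFun h2 i
    simp at h3
  have hl₀0 : l₀ ≠ 0 := by
    intro h0
    have h1 := hent k₀ l₀'
    rw [h0, zero_mul, map_eq_zero] at h1
    exact hk h1
  refine Cfsg.Agent.Lib.SubfieldMax.mem_sup_scalars_of_entries (inv_ne_zero hk) fun k l => ?_
  rw [← fro_eq_iff, map_mul, map_inv₀, hent, hent]
  field_simp

end StageI

section Triple

variable {ι : Type} [Fintype ι] [DecidableEq ι] {F : Type*} [Field F] [Fintype F]
  {Q : QuadraticForm F (ι → F)} {F₀ : Subfield F}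

/-- The Plücker form of a pair of vectors. -/
def pp (Q : QuadraticForm F (ι → F)) (u v s t : ι → F) : F :=
  polar Q s u * polar Q t v - polar Q s v * polar Q t u

/-- A rational totally singular triple on which the Plücker form of a non-rational line has a non-rational ratio. -/
theorem exists_triple (hQ : Nondeg Q) (h : RatQ Q F₀) (hn : 13 ≤ Fintype.card ι) {u v : ι → F} (hu : Q u = 0) (hv : Q v = 0)
    (huv : polar Q u v = 0) (hind : ∀ a b : F, a • u + b • v = 0 → a = 0 ∧ b = 0)
    (htv : ¬ ∃ p q : F, tv F₀ u = p • u + q • v) :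
    ∃ a b c : ι → F₀, Q0 h a = 0 ∧ Q0 h b = 0 ∧ Q0 h c = 0 ∧ polar (Q0 h) a b = 0 ∧ polar (Q0 h) a c = 0 ∧
      polar (Q0 h) b c = 0 ∧ pp Q u v (emb a) (emb b) ≠ 0 ∧ pp Q u v (emb a) (emb c) / pp Q u v (emb a) (emb b) ∉ F₀ := by
  classical
  have hN := nd_of hQ
  have hfr : finrank F (ι → F) = Fintype.card ι := by simp
  obtain ⟨d₁, d₂, hd, hC⟩ := Cfsg.Agent.Lib.OmGeo.exists_hyp_perp hN {u, v, tv F₀ u, tv F₀ v} (by
    have : ({u, v, tv F₀ u, tv F₀ v} : Finset (ι → F)).card ≤ 4 := Finset.card_le_four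
    rw [hfr]
    omega)
  have hu0 : u ≠ 0 := by
    rintro rfl
    have := hind 1 0 (by simp)
    exact one_ne_zero this.1
  obtain ⟨hud₁, hud₂⟩ := hC u (by simp)
  obtain ⟨hvd₁, hvd₂⟩ := hC v (by simp)
  obtain ⟨htud₁, htud₂⟩ := hC (tv F₀ u) (by simp)
  obtain ⟨htvd₁, htvd₂⟩ := hC (tv F₀ v) (by simp)
  set P : (ι → F₀) → Prop := fun a => Q0 h a = 0 ∧ (polar Q (emb a) d₁ ≠ 0 ∨ polar Q (emb a) d₂ ≠ 0) with hP
  -- step 1
  have hstep1 : ∃ a₁ a₂, P a₁ ∧ P a₂ ∧ pp Q u v (emb a₁) (emb a₂) ≠ 0 := by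
    by_contra hno
    push Not at hno
    obtain ⟨z, hz0, hz⟩ : ∃ z : ι → F, z ≠ 0 ∧ ∀ a, P a → polar Q (emb a) z = 0 := by
      by_cases hex : ∃ a₁, P a₁ ∧ (polar Q (emb a₁) u ≠ 0 ∨ polar Q (emb a₁) v ≠ 0)
      · obtain ⟨a₁, h1, h2⟩ := hex
        refine ⟨polar Q (emb a₁) u • v - polar Q (emb a₁) v • u, ?_, fun a ha => ?_⟩
        · intro h0
          have := hind (- polar Q (emb a₁) v) (polar Q (emb a₁) u) (by
            rw [neg_smul, neg_add_eq_sub]
            exact h0)
          rcases h2 with h2 | h2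
          · exact h2 this.2
          · exact h2 (neg_eq_zero.1 this.1)
        · rw [polar_sub_right, polar_smul_r, polar_smul_r]
          have := hno a₁ a h1 ha
          rw [pp] at this
          linear_combination this
      · push Not at hex
        exact ⟨u, hu0, fun a ha => (hex a ha).1⟩
    obtain ⟨a₀, ha₀, ha₀z⟩ := exists_rat_sing_ne hQ h hn hz0
    have hnP : ¬ P a₀ := fun hp => ha₀z (hz a₀ hp)
    have hd1 : polar Q (emb a₀) d₁ = 0 := by
      by_contra hne
      exact hnP ⟨ha₀, Or.inl hne⟩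
    have hd2 : polar Q (emb a₀) d₂ = 0 := by
      by_contra hne
      exact hnP ⟨ha₀, Or.inr hne⟩
    have ha₀0 : a₀ ≠ 0 := by
      rintro rfl
      rw [emb_zero, polar_zero_left] at ha₀z
      exact ha₀z rfl
    have haa : polar Q (emb a₀) (emb a₀) = 0 := by
      rw [polar_self', (Q0_eq_zero h).1 ha₀, mul_zero]
    obtain ⟨d, hdor, hdnp⟩ : ∃ d, (d = d₁ ∨ d = d₂) ∧ ∀ c : F, d ≠ c • emb a₀ := by
      by_contra hcon
      push Not at hcon
      obtain ⟨c₁, e₁⟩ := hcon d₁ (Or.inl rfl)
      obtain ⟨c₂, e₂⟩ := hcon d₂ (Or.inr rfl)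
      have := hd.vw
      rw [e₁, e₂, polar_smul_l, polar_smul_r, haa] at this
      simp at this
    obtain ⟨s, hs, hsa, hsd⟩ := exists_rat_sing_perp hQ h hn ha₀ ha₀0 hdnp
    have hsa' : polar Q (emb s) (emb a₀) = 0 := (polar_Q0_eq_zero h).1 hsa
    have hd0 : polar Q (emb a₀) d = 0 := by
      rcases hdor with rfl | rfl
      · exact hd1
      · exact hd2
    have hPs : P s := by
      refine ⟨hs, ?_⟩
      rcases hdor with rfl | rfl
      · exact Or.inl hsd
      · exact Or.inr hsd
    have hPs' : P (a₀ + s) := by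
      refine ⟨?_, ?_⟩
      · rw [Q_add, ha₀, hs, polar_comm, hsa]
        ring
      · have : polar Q (emb (a₀ + s)) d ≠ 0 := by
          rw [emb_add, polar_add_left, hd0, zero_add]
          exact hsd
        rcases hdor with rfl | rfl
        · exact Or.inl this
        · exact Or.inr this
    have e1 := hz s hPs
    have e2 := hz _ hPs'
    rw [emb_add, polar_add_left, e1, add_zero] at e2
    exact ha₀z e2
  obtain ⟨a₁, a₂, hP1, hP2, hpp⟩ := hstep1
  -- step 2
  set W : (ι → F₀) → ι → F := fun a => polar Q (emb a) u • v - polar Q (emb a) v • u with hW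
  have hstep2 : ∃ a, P a ∧ ¬ ∃ p q : F, tv F₀ (W a) = p • u + q • v := by
    by_contra hno
    push Not at hno
    obtain ⟨p₁, q₁, e₁⟩ := hno a₁ hP1
    obtain ⟨p₂, q₂, e₂⟩ := hno a₂ hP2
    apply htv
    have hid : polar Q (emb a₂) u • W a₁ - polar Q (emb a₁) u • W a₂ = pp Q u v (emb a₁) (emb a₂) • u := by
      simp only [hW, pp]
      module
    have hid2 := congrArg (tv F₀) hid
    rw [tv_sub, tv_smul, tv_smul, tv_smul, e₁, e₂] at hid2
    set π := fro F₀ (pp Q u v (emb a₁) (emb a₂)) with hπ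
    have hπ0 : π ≠ 0 := by
      rw [hπ, Ne, map_eq_zero]
      exact hpp
    refine ⟨π⁻¹ * (fro F₀ (polar Q (emb a₂) u) * p₁ - fro F₀ (polar Q (emb a₁) u) * p₂),
      π⁻¹ * (fro F₀ (polar Q (emb a₂) u) * q₁ - fro F₀ (polar Q (emb a₁) u) * q₂), ?_⟩
    have e3 : tv F₀ u = π⁻¹ • (π • tv F₀ u) := by
      rw [smul_smul, inv_mul_cancel₀ hπ0, one_smul]
    rw [e3, ← hid2]
    module
  obtain ⟨a, hPa, hw⟩ := hstep2
  set w : ι → F := W a with hwdef
  have hQw : Q w = 0 := by
    rw [hwdef, hW]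
    simp only
    rw [Q_sub, Q_smul, Q_smul, hu, hv, polar_smul_l, polar_smul_r, polar_comm Q v u, huv]
    ring
  have hppw : ∀ t : ι → F, pp Q u v (emb a) t = polar Q t w := by
    intro t
    rw [hwdef, hW]
    simp only
    rw [polar_sub_right, polar_smul_r, polar_smul_r, pp]
  have hawa : polar Q (emb a) w = 0 := by
    rw [← hppw, pp]
    ring
  have hw' : tv F₀ w = fro F₀ (polar Q (emb a) u) • tv F₀ v - fro F₀ (polar Q (emb a) v) • tv F₀ u := by
    rw [hwdef, hW]
    simp only
    rw [tv_sub, tv_smul, tv_smul]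
  obtain ⟨d, hd1, hd2, hdne⟩ : ∃ d, (∀ z : ι → F, (∀ i, i = u ∨ i = v ∨ i = tv F₀ u ∨ i = tv F₀ v → polar Q i d = 0) →
      True) ∧ (polar Q u d = 0 ∧ polar Q v d = 0 ∧ polar Q (tv F₀ u) d = 0 ∧ polar Q (tv F₀ v) d = 0) ∧
      polar Q (emb a) d ≠ 0 := by
    rcases hPa.2 with hh | hh
    · exact ⟨d₁, fun _ _ => trivial, ⟨hud₁, hvd₁, htud₁, htvd₁⟩, hh⟩
    · exact ⟨d₂, fun _ _ => trivial, ⟨hud₂, hvd₂, htud₂, htvd₂⟩, hh⟩
  obtain ⟨hud, hvd, htud, htvd⟩ := hd2
  have hwd : polar Q w d = 0 := by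
    rw [hwdef, hW]
    simp only
    rw [polar_sub_left, polar_smul_l, polar_smul_l, hud, hvd]
    ring
  have hw'd : polar Q (tv F₀ w) d = 0 := by
    rw [hw', polar_sub_left, polar_smul_l, polar_smul_l, htud, htvd]
    ring
  have ha0 : a ≠ 0 := by
    rintro rfl
    rw [emb_zero, polar_zero_left] at hdne
    exact hdne rfl
  have hw_ne : ∀ c : F, w ≠ c • emb a := by
    intro c hc
    have e1 := hwd
    rw [hc, polar_smul_l] at e1
    have hc0 : c = 0 := (mul_eq_zero.1 e1).resolve_right hdne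
    rw [hc0, zero_smul] at hc
    apply hw
    refine ⟨0, 0, ?_⟩
    show tv F₀ w = _
    rw [hc, tv_zero]
    simp
  obtain ⟨b, hb, hba, hbw⟩ := exists_rat_sing_perp hQ h hn hPa.1 ha0 hw_ne
  set x : F := polar Q (emb b) w with hx
  have hfroP : ∀ t : ι → F₀, polar Q (emb t) (tv F₀ w) = fro F₀ (polar Q (emb t) w) := by
    intro t
    rw [polar_comm, polar_tv h, polar_comm]
  set z : ι → F := fro F₀ x • w - x • tv F₀ w with hz
  have hz_ne : ∀ c : F, z ≠ c • emb a := by
    intro c hc
    have e1 : polar Q z d = 0 := by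
      rw [hz, polar_sub_left, polar_smul_l, polar_smul_l, hwd, hw'd]
      ring
    rw [hc, polar_smul_l] at e1
    have hc0 : c = 0 := (mul_eq_zero.1 e1).resolve_right hdne
    rw [hc0, zero_smul] at hc
    apply hw
    refine ⟨- (x⁻¹ * fro F₀ x * polar Q (emb a) v), x⁻¹ * fro F₀ x * polar Q (emb a) u, ?_⟩
    show tv F₀ w = _
    have e2 : tv F₀ w = (x⁻¹ * fro F₀ x) • w := by
      have e3 : x • tv F₀ w = fro F₀ x • w := by
        rw [hz, sub_eq_zero] at hc
        exact hc.symm
      calc tv F₀ w = x⁻¹ • (x • tv F₀ w) := by rw [smul_smul, inv_mul_cancel₀ hbw, one_smul]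
        _ = _ := by rw [e3, smul_smul]
    rw [e2, hwdef, hW]
    simp only
    module
  obtain ⟨c, hc, hca, hcz⟩ := exists_rat_sing_perp hQ h hn hPa.1 ha0 hz_ne
  set y : F := polar Q (emb c) w with hy
  have hdet : fro F₀ x * y - x * fro F₀ y ≠ 0 := by
    have e1 : polar Q (emb c) z = fro F₀ x * y - x * fro F₀ y := by
      rw [hz, polar_sub_right, polar_smul_r, polar_smul_r, hfroP]
    rwa [e1] at hcz
  have hy0 : y ≠ 0 := by
    intro h0
    apply hdet
    rw [h0]
    simp
  have hratio : ∀ {x₁ y₁ : F}, x₁ ≠ 0 → fro F₀ x₁ * y₁ - x₁ * fro F₀ y₁ ≠ 0 → y₁ / x₁ ∉ F₀ := by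
    intro x₁ y₁ hx₁ hd hm
    apply hd
    have e1 := (fro_eq_iff _).2 hm
    rw [map_div₀] at e1
    have hfx : fro F₀ x₁ ≠ 0 := by
      rw [Ne, map_eq_zero]
      exact hx₁
    field_simp at e1
    linear_combination -e1
  have hab0 : polar (Q0 h) a b = 0 := by
    rw [polar_comm]
    exact hba
  have hac0 : polar (Q0 h) a c = 0 := by
    rw [polar_comm]
    exact hca
  by_cases hbc : polar (Q0 h) b c = 0
  · refine ⟨a, b, c, hPa.1, hb, hc, hab0, hac0, hbc, ?_, ?_⟩
    · rw [hppw]
      exact hbw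
    · rw [hppw, hppw]
      exact hratio hbw hdet
  -- the third vector
  have hbc' : polar Q (emb b) (emb c) ≠ 0 := fun e => hbc ((polar_Q0_eq_zero h).2 e)
  have hbb : polar Q (emb b) (emb b) = 0 := by
    rw [polar_self', (Q0_eq_zero h).1 hb, mul_zero]
  have hcc : polar Q (emb c) (emb c) = 0 := by
    rw [polar_self', (Q0_eq_zero h).1 hc, mul_zero]
  have hba' : polar Q (emb b) (emb a) = 0 := (polar_Q0_eq_zero h).1 hba
  have hca' : polar Q (emb c) (emb a) = 0 := (polar_Q0_eq_zero h).1 hca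
  have hw3 : ∀ l m n : F, w ≠ l • emb a + m • emb b + n • emb c := by
    intro l m n hlmn
    have hQ0 : m * n * polar Q (emb b) (emb c) = 0 := by
      have e1 := hQw
      rw [hlmn, Q_add, Q_add, Q_smul, Q_smul, Q_smul, (Q0_eq_zero h).1 hPa.1, (Q0_eq_zero h).1 hb,
        (Q0_eq_zero h).1 hc, polar_smul_l, polar_smul_r, polar_add_left, polar_smul_l, polar_smul_l, polar_smul_r,
        polar_smul_r, polar_comm Q (emb a) (emb b), hba', polar_comm Q (emb a) (emb c), hca'] at e1
      linear_combination e1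
    have e2 : x = n * polar Q (emb b) (emb c) := by
      rw [hx, hlmn, polar_add_right, polar_add_right, polar_smul_r, polar_smul_r, polar_smul_r, hba', hbb]
      ring
    have e3 : y = m * polar Q (emb b) (emb c) := by
      rw [hy, hlmn, polar_add_right, polar_add_right, polar_smul_r, polar_smul_r, polar_smul_r, hca', hcc,
        polar_comm Q (emb c) (emb b)]
      ring
    rcases mul_eq_zero.1 ((mul_eq_zero.1 hQ0).resolve_right hbc') with h0 | h0
    · apply hy0
      rw [e3, h0, zero_mul]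
    · apply hbw
      show x = 0
      rw [e2, h0, zero_mul]
  obtain ⟨d', hd', hd'a, hd'b, hd'c, hd'w⟩ := exists_rat_sing_perp2 hQ h hn hPa.1 hb hc ha0 hab0 hac0 hbc hw3
  set y' : F := polar Q (emb d') w with hy'
  by_cases hk : y' / x ∈ F₀
  · refine ⟨a, d', c, hPa.1, hd', hc, ?_, hac0, hd'c, ?_, ?_⟩
    · rw [polar_comm]
      exact hd'a
    · rw [hppw]
      exact hd'w
    · rw [hppw, hppw]
      intro hm
      apply hratio hbw hdet
      have e : y / x = (y / y') * (y' / x) := by
        field_simp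
      rw [e]
      exact F₀.mul_mem hm hk
  · refine ⟨a, b, d', hPa.1, hb, hd', hab0, ?_, ?_, ?_, ?_⟩
    · rw [polar_comm]
      exact hd'a
    · rw [polar_comm]
      exact hd'b
    · rw [hppw]
      exact hbw
    · rw [hppw, hppw]
      exact hk

end Triple

end Cfsg.Agent.Lib.OmSubfield
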