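import Cfsg.Agent.Lib.H97L0
import Cfsg.Agent.Lib.OmNotMax
import Cfsg.Agent.Lib.OmSubfield
import Cfsg.Agent.Lib.TvGL

/-!
Subgroups of the commutator subgroup that are not maximal: small fields, dimension at least seven.
-/

set_option autoImplicit false
set_option linter.unusedSectionVars false
set_option linter.unusedVariables false

namespace Cfsg.Agent.H97.NM

open Matrix QuadraticMap Cfsg Cfsg.Geo Module Cfsg.Agent.Lib.OrthoBasic Cfsg.Agent.Lib.OmCalc
  Cfsg.Agent.Lib.QuadFF Cfsg.Agent.Lib.OmGeo Cfsg.Agent.Lib.TvGL Cfsg.Agent.Lib.OmNotMax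
open Cfsg.Agent.Lib.OmSubfield (HF HF.extend HF.snoc)
open Cfsg.Agent.Lib.SympT (GL_ext mulVec_mul_GL mulVec_inv_GL inv_mulVec_GL)

local notation:70 g:71 " ⋆ " x:70 => Matrix.mulVec (Units.val g) x

variable {ι : Type} [Fintype ι] [DecidableEq ι] {F : Type*} [Field F] [Fintype F]
  {Q : QuadraticForm F (ι → F)}

theorem exists_triple (hND : ND Q) (h7 : 7 ≤ finrank F (ι → F)) {e f : ι → F} (hee : Q e = 0) (hff : Q f = 0) (hef : polar Q e f = 1) :
    ∃ z y b, polar Q e z = 0 ∧ polar Q f z = 0 ∧ Q z = 1 ∧ IsHyp Q y b ∧ polar Q e y = 0 ∧ polar Q f y = 0 ∧ polar Q z y = 0 := by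
  have hee' : polar Q e e = 0 := polar_self_of_singular hee
  have hff' : polar Q f f = 0 := polar_self_of_singular hff
  have h1 : HF Q 1 (fun _ => e) (fun _ => f) := by
    intro i hi j hj
    obtain rfl : i = 0 := by omega
    obtain rfl : j = 0 := by omega
    exact ⟨hee, hff, hee', hff', by simpa using hef⟩
  obtain ⟨a, b, hab, hr⟩ := HF.extend hND h1 (by omega)
  have h2 := HF.snoc h1 hab hr
  obtain ⟨a', b', hab', hr'⟩ := HF.extend hND h2 (by omega)
  have e0 := hr 0 (by omega)
  have e1 := hr' 0 (by omega)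
  have e2 := hr' 1 (by omega)
  simp only [Function.update_apply] at e1 e2
  norm_num at e1 e2
  refine ⟨a + b, a', b', ?_, ?_, ?_, hab', e1.1, e1.2.1, ?_⟩
  · rw [polar_add_right, e0.1, e0.2.2.1, add_zero]
  · rw [polar_add_right, e0.2.1, e0.2.2.2, add_zero]
  · rw [Q_ad, hab.Qv, hab.Qw, hab.vw]
    ring
  · rw [polar_add_left, e2.1, e2.2.1, add_zero]

/-- The plane spanned by a hyperbolic pair over a small field: the vectors of value one lie on a line. -/
theorem plus_plane7 (hQ : Nondeg Q) (h11 : 7 ≤ Fintype.card ι) (hq : Fintype.card F ≤ 3)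
    {W : Submodule F (ι → F)} (hdim : finrank F W = 2) (hW : IsNondegenerateOn (polar ⇑Q) W)
    (hp : IsPlusTypeOn ⇑Q W) :
    ∃ K : Subgroup (GL ι F), subspaceStabilizer W ⊓ omegaGL ⇑Q < K ∧ K < omegaGL ⇑Q := by
  classical
  have hND := nd_of hQ
  have hfr : finrank F (ι → F) = Fintype.card ι := Module.finrank_fintype_fun_eq_card F
  obtain ⟨U, hUW, hUts, hUd⟩ := hp
  have hUd' : finrank F U = 1 := by omega
  obtain ⟨⟨e, heU⟩, he0⟩ : ∃ e : U, e ≠ 0 := by
    have : 0 < finrank F U := by omega
    exact Module.finrank_pos_iff_exists_ne_zero.1 this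
  have he0' : e ≠ 0 := fun h => he0 (Subtype.ext h)
  have heW : e ∈ W := hUW heU
  have hee : Q e = 0 := hUts e heU
  have hpee : polar Q e e = 0 := polar_self_of_singular hee
  obtain ⟨f, hfW, hff, hfe⟩ : ∃ f ∈ W, Q f = 0 ∧ polar Q f e = 1 := by
    obtain ⟨x, hxW, hx⟩ := (hW e heW he0').1
    have h1 : polar Q ((polar Q x e)⁻¹ • x) e = 1 := by
      rw [polar_sm_l]
      exact inv_mul_cancel₀ hx
    refine ⟨(polar Q x e)⁻¹ • x + (-(Q ((polar Q x e)⁻¹ • x))) • e,
      W.add_mem (W.smul_mem _ hxW) (W.smul_mem _ heW), ?_, ?_⟩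
    · generalize (polar Q x e)⁻¹ • x = y at h1
      rw [Q_ad, Q_sm, hee, polar_sm_r, polar_comm] at *
      rw [h1]
      ring
    · generalize (polar Q x e)⁻¹ • x = y at h1
      rw [polar_add_left, polar_sm_l, h1, hpee]
      ring
  have hef : polar Q e f = 1 := by
    rw [polar_comm]
    exact hfe
  have hpff : polar Q f f = 0 := polar_self_of_singular hff
  -- coordinates in `W`
  have hcoord : ∀ w ∈ W, ∃ α β : F, w = α • e + β • f := by
    have hli : LinearIndependent F ![e, f] := by
      rw [LinearIndependent.pair_iff]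
      intro s t hst
      have h1 := congrArg (fun v => polar Q v e) hst
      simp only [polar_add_left, polar_sm_l, hpee, hfe, mul_zero, mul_one, zero_add] at h1
      have h0 : polar Q (0 : ι → F) e = 0 := by
        simp [polar]
      rw [h0] at h1
      refine ⟨?_, h1⟩
      rw [h1, zero_smul, add_zero] at hst
      exact (smul_eq_zero.1 hst).resolve_right he0'
    have hle : Submodule.span F (Set.range ![e, f]) ≤ W := by
      rw [Submodule.span_le]
      rintro _ ⟨i, rfl⟩
      fin_cases i
      · exact heW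
      · exact hfW
    have he := Submodule.eq_of_le_of_finrank_eq hle (by
      rw [finrank_span_eq_card hli, hdim]
      simp)
    intro w hw
    rw [← he] at hw
    obtain ⟨c, hc⟩ := (Submodule.mem_span_range_iff_exists_fun F).1 hw
    refine ⟨c 0, c 1, ?_⟩
    rw [← hc, Fin.sum_univ_two]
    simp
  set u := e + f with hu
  have huW : u ∈ W := W.add_mem heW hfW
  have hQu : Q u = 1 := by
    rw [hu, Q_ad, hee, hff, hef]
    ring
  have hue : polar Q u e = 1 := by
    rw [hu, polar_add_left, hpee, hfe, zero_add]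
  have huf : polar Q u f = 1 := by
    rw [hu, polar_add_left, hef, hpff, add_zero]
  -- the vectors of value one in `W`
  have hone : ∀ w ∈ W, Q w = 1 → ∃ a : F, w = a • u := by
    intro w hw hw1
    obtain ⟨α, β, rfl⟩ := hcoord w hw
    rw [Q_ad, Q_sm, Q_sm, hee, hff, polar_sm_l, polar_sm_r, hef] at hw1
    have h2 : α * β = 1 := by
      linear_combination hw1
    have hα : α ≠ 0 := left_ne_zero_of_mul_eq_one h2
    have h3 := sq_eq_one hq α hα
    have hβ : β = α := by
      apply mul_left_cancel₀ hα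
      rw [h2, ← h3]
      ring
    refine ⟨α, ?_⟩
    rw [hβ, hu, smul_add]
  set L := Submodule.span F {u} with hL
  have hmemL : ∀ x, x ∈ L ↔ ∃ a : F, a • u = x := fun x => Submodule.mem_span_singleton
  have hle : subspaceStabilizer W ⊓ omegaGL ⇑Q ≤ subspaceStabilizer L ⊓ omegaGL ⇑Q := by
    rintro g ⟨hg1, hg2⟩
    refine ⟨mem_stab_of_map_le L g ?_, hg2⟩
    intro l hl
    obtain ⟨a, rfl⟩ := (hmemL l).1 hl
    rw [Matrix.mulVec_smul]
    refine L.smul_mem _ ?_
    have h1 : g ⋆ u ∈ W := ((mem_stab_iff W g).1 hg1 u).1 huW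
    have h2 : Q (g ⋆ u) = 1 := by
      rw [iso_omega hg2, hQu]
    obtain ⟨b, hb⟩ := hone _ h1 h2
    change g ⋆ u ∈ L
    rw [hb]
    exact L.smul_mem _ (Submodule.mem_span_singleton_self u)
  refine ⟨subspaceStabilizer L ⊓ omegaGL ⇑Q, ?_, ?_⟩
  · rw [SetLike.lt_iff_le_and_exists]
    refine ⟨hle, ?_⟩
    -- a Siegel transformation fixing `u` but not stabilising `W`
    obtain ⟨z, y, b, hez, hfz, hQz, hyb, hey, hfy, hzy⟩ := exists_triple hND (by omega) hee hff hef
    set e₁ := e + (-1 : F) • f + z with he₁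
    have hQe₁ : Q e₁ = 0 := by
      rw [he₁, Q_ad, Q_ad, Q_sm, hee, hff, polar_sm_r, hef, polar_add_left, polar_sm_l, hez, hfz, hQz]
      ring
    have hy0 : y ≠ 0 := by
      rintro rfl
      have := hyb.vw
      simp [polar] at this
    have he₁y : polar Q e₁ y = 0 := by
      rw [he₁, polar_add_left, polar_add_left, polar_sm_l, hey, hfy, hzy]
      ring
    have hue₁ : polar Q u e₁ = 0 := by
      rw [he₁, polar_add_right, polar_add_right, polar_sm_r, hue, huf]
      have : polar Q u z = 0 := by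
        rw [hu, polar_add_left, hez, hfz, add_zero]
      rw [this]
      ring
    have huy : polar Q u y = 0 := by
      rw [hu, polar_add_left, hey, hfy, add_zero]
    have hee₁ : polar Q e e₁ = -1 := by
      rw [he₁, polar_add_right, polar_add_right, polar_sm_r, hpee, hef, hez]
      ring
    refine ⟨sE hQ hQe₁ he₁y, ⟨mem_stab_of_map_le L _ ?_, Cfsg.Agent.H97.Asch.sE_mem7 hQ h11 hQe₁ he₁y⟩, ?_⟩
    · intro l hl
      obtain ⟨a, rfl⟩ := (hmemL l).1 hl
      rw [Matrix.mulVec_smul]
      refine L.smul_mem _ ?_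
      change sE hQ hQe₁ he₁y ⋆ u ∈ L
      rw [sE_apply', hue₁, huy]
      simp only [zero_smul, add_zero, mul_zero, sub_zero]
      exact Submodule.mem_span_singleton_self u
    · rintro ⟨hg, -⟩
      have h1 := ((mem_stab_iff W _).1 hg e).1 heW
      change sE hQ hQe₁ he₁y ⋆ e ∈ W at h1
      rw [sE_apply', hee₁, hey, hyb.Qv] at h1
      simp only [zero_mul, add_zero, zero_smul, sub_zero] at h1
      have h2 := W.sub_mem heW h1
      have h3 : e - (e + (-1 : F) • y) = y := by
        rw [neg_smul, one_smul]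
        abel
      rw [h3] at h2
      apply hy0
      by_contra hy00
      obtain ⟨w, hw, hwy⟩ := (hW y h2 hy00).1
      obtain ⟨α, β, rfl⟩ := hcoord w hw
      apply hwy
      rw [polar_add_left, polar_sm_l, polar_sm_l, hey, hfy]
      ring
  · refine lt_of_le_of_ne inf_le_right ?_
    intro he'
    -- a Siegel transformation moving `u`
    obtain ⟨y, hyC, hQy⟩ := prescribed hND ({e, f} : Finset (ι → F)) 0 1 (by
      have := Finset.card_le_two (a := e) (b := f)
      omega)
    have hey : polar Q e y = 0 := by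
      rw [hyC e (by simp)]
      simp [polar]
    have hfy : polar Q f y = 0 := by
      rw [hyC f (by simp)]
      simp [polar]
    have hmem := Cfsg.Agent.H97.Asch.sE_mem7 hQ h11 hee hey
    rw [← he'] at hmem
    have h1 := ((mem_stab_iff L _).1 hmem.1 u).1 (Submodule.mem_span_singleton_self u)
    change sE hQ hee hey ⋆ u ∈ L at h1
    have huy : polar Q u y = 0 := by
      rw [hu, polar_add_left, hey, hfy, add_zero]
    rw [sE_apply', hue, huy, hQy] at h1
    obtain ⟨a, ha⟩ := (hmemL _).1 h1
    have h2 := congrArg (fun v => polar Q v e) ha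
    simp only [polar_sm_l, polar_add_left, polar_sub_left, hue, mul_one, hpee, hey, hfy, polar_comm Q y e] at h2
    have h3 := congrArg (fun v => polar Q v f) ha
    simp only [polar_sm_l, polar_add_left, polar_sub_left, huf, mul_one, hef, hfy, polar_comm Q y f] at h3
    simp at h2 h3
    rw [h2] at h3
    simp at h3

end Cfsg.Agent.H97.NM
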