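import Cfsg.Agent.Lib.H97L11
import Cfsg.Agent.Lib.H97NM1

/-!
Even dimensional orthogonal groups: rational structures of index two, frames over non-prime fields, non-degenerate subspaces of
at most half the dimension.
-/

set_option autoImplicit false
set_option linter.unusedSectionVars false
set_option linter.unusedSimpArgs false
set_option linter.style.haveILetI false

namespace Cfsg.Agent.H97.Asch

open Matrix Cfsg Cfsg.Geo
open scoped MatrixGroups commutatorElement Kronecker

variable {ι : Type} [Fintype ι] [DecidableEq ι] {F : Type*} [Field F] [Fintype F] {Q : (ι → F) → F} {K : Subgroup (GL ι F)}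

open Polynomial in
/-- A quadratic polynomial with coefficients in a subfield of index two has a root. -/
theorem exists_root_quad (F₀ : Subfield F) (hcard : Fintype.card F = Nat.card F₀ ^ 2) (z : F₀) :
    ∃ t : F, t ^ 2 + t + (z : F) = 0 := by
  classical
  by_cases h : ∃ t : F₀, t ^ 2 + t + z = 0
  · obtain ⟨t, ht⟩ := h
    exact ⟨t, by exact_mod_cast congrArg (Subtype.val) ht⟩
  · push Not at h
    have : Finite F₀ := inferInstance
    let f : F₀[X] := X ^ 2 + X + C z
    have hdeg : f.natDegree = 2 := by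
      simp only [f]
      compute_degree!
    have hmon : f.Monic := by
      simp only [f]
      monicity!
    have hirr : Irreducible f := by
      rw [Polynomial.Monic.irreducible_iff_roots_eq_zero_of_degree_le_three hmon (by omega) (by omega)]
      rw [Multiset.eq_zero_iff_forall_notMem]
      intro t ht
      have := (Polynomial.mem_roots'.mp ht).2
      simp [f, Polynomial.IsRoot] at this
      exact h t this
    have hdvd : f ∣ X ^ (Nat.card F₀) ^ 2 - X := (hirr.natDegree_dvd_iff_dvd_X_pow_card_pow_sub_X (n := 2)).mp (by rw [hdeg])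
    let φ : F₀ →+* F := F₀.subtype
    have h1 : f.map φ ∣ X ^ (Nat.card F) - X := by
      have := Polynomial.map_dvd φ hdvd
      simpa [hcard, Nat.card_eq_fintype_card] using this
    have hs : (f.map φ).Splits := by
      refine Polynomial.Splits.of_dvd ?_ ?_ h1
      · exact Polynomial.splits_X_pow_nat_card_sub_X
      · rw [Nat.card_eq_fintype_card]
        exact FiniteField.X_pow_card_sub_X_ne_zero F Fintype.one_lt_card
    have hd2 : (f.map φ).natDegree = 2 := by rw [Polynomial.natDegree_map, hdeg]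
    have hr := hs.roots_ne_zero (by omega)
    obtain ⟨t, ht⟩ := Multiset.exists_mem_of_ne_zero hr
    have := (Polynomial.mem_roots'.mp ht).2
    refine ⟨t, ?_⟩
    simpa [f, φ, Polynomial.IsRoot] using this

/-- A family of pairwise orthogonal singular vectors with dual vectors spans a totally singular subspace. -/
theorem exists_ts_of_family {V : Type*} [AddCommGroup V] [Module F V] {Q : QuadraticForm F V} {κ : Type*} [Fintype κ] [DecidableEq κ]
    (x y : κ → V) (hs : ∀ i, Q (x i) = 0) (ho : ∀ i j, QuadraticMap.polar Q (x i) (x j) = 0)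
    (hd : ∀ i j, QuadraticMap.polar Q (x i) (y j) = if i = j then 1 else 0) :
    ∃ U : Submodule F V, (∀ u ∈ U, Q u = 0) ∧ Module.finrank F U = Fintype.card κ := by
  classical
  refine ⟨Submodule.span F (Set.range x), Ty.ts_span ?_ ?_, ?_⟩
  · rintro _ ⟨i, rfl⟩
    exact hs i
  · rintro _ ⟨i, rfl⟩ _ ⟨j, rfl⟩
    exact ho i j
  · have hli : LinearIndependent F x := by
      rw [Fintype.linearIndependent_iff]
      intro c hc j
      have h1 : QuadraticMap.polar Q (∑ i, c i • x i) (y j) = QuadraticMap.polar Q 0 (y j) := by rw [hc]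
      rw [Cfsg.Agent.Lib.OmSubfield.polar_sum_left, QuadraticMap.polar_zero_left] at h1
      simpa only [Cfsg.Agent.Lib.QuadFF.polar_sm_l, hd, mul_ite, mul_one, mul_zero, Finset.sum_ite_eq', Finset.mem_univ, if_true] using h1
    rw [finrank_span_eq_card hli]

section Rational2

open Cfsg.Agent.Lib.OmSubfield Cfsg.Agent.Lib.OmCalc Cfsg.Agent.Lib.QuadClass Cfsg.Agent.Lib.QuadFF Cfsg.Agent.Lib.USubfield Cfsg.Agent.Lib.OrthoBasic

/-- A form with a rational structure over a subfield of index two is of plus type. -/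
theorem rational_two_plus (C : ECtx Q K) {a : ℕ} (hcard : Fintype.card ι = 2 * a) {F₀ : Subfield F} (hF : Fintype.card F = Nat.card F₀ ^ 2)
    {ζ : F} (hζ : ζ ≠ 0) {P : GL ι F} (hrat : IsQuadFormRationalStructure (fun v => ζ * Q v) F₀ P) : IsPlusTypeOn Q ⊤ := by
  classical
  have hQ' := transport_nd C.quad hζ P
  obtain ⟨Qf, hQf⟩ := exists_toQF _ hQ'
  have hQfa : ∀ v, Qf v = ζ * Q ((P : Matrix ι ι F) *ᵥ v) := fun v => congrFun hQf v
  have hN : Nondeg Qf := nondeg_of (by rw [hQf]; exact hQ')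
  have hR : RatQ Qf F₀ := fun x => by
    rw [hQfa]
    exact hrat (emb x) (fun i => (x i).2)
  have hnd := Q0_ND hN hR
  have hV : Module.finrank F₀ (ι → F₀) = 2 * a := by rw [finrank_emb, hcard]
  have hpol : ∀ u v : ι → F₀, QuadraticMap.polar Qf (emb u) (emb v) = ((QuadraticMap.polar (Q0 hR) u v : F₀) : F) := fun u v => (polar_Q0 hR u v).symm
  have hQ0 : ∀ u : ι → F₀, Qf (emb u) = ((Q0 hR u : F₀) : F) := fun u => (Q0_coe hR u).symm
  have hU : ∃ U : Submodule F (ι → F), (∀ u ∈ U, Qf u = 0) ∧ Module.finrank F U = a := by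
    rcases std_cases hV (Q0 hR) hnd with ⟨b, h1, h2, h3⟩ | ⟨k, rfl, b, z, h0, h1, h2, h3, h4, h5, h6, h7⟩
    · obtain ⟨U, hU1, hU2⟩ := exists_ts_of_family (Q := Qf) (fun i : Fin a => emb (b (Sum.inl i))) (fun i : Fin a => emb (b (Sum.inr i)))
        (fun i => by rw [hQ0, (h1 i).1]; rfl) (fun i j => by rw [hpol, (h3 i j).1]; rfl)
        (fun i j => by
          rw [hpol, h2 i j]
          split_ifs <;> rfl)
      exact ⟨U, hU1, by simpa using hU2⟩
    · obtain ⟨t, ht⟩ := exists_root_quad F₀ hF z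
      have htn : ∀ c : F₀, (c : F) ≠ t := by
        rintro c rfl
        apply h0 c
        apply Subtype.ext
        push_cast
        exact ht
      obtain ⟨r, hr⟩ : ∃ r, r = emb (b (Sum.inr 0)) := ⟨_, rfl⟩
      obtain ⟨s, hs⟩ : ∃ s, s = emb (b (Sum.inr 1)) := ⟨_, rfl⟩
      have hQr : Qf r = 1 := by rw [hr, hQ0, h5]; rfl
      have hrs : QuadraticMap.polar Qf r s = 1 := by rw [hr, hs, hpol, h6]; rfl
      have hQs : Qf s = z := by rw [hs, hQ0, h7]
      have hrr : QuadraticMap.polar Qf r r = 2 := by rw [polar_self_eq, hQr, mul_one]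
      have h2t : 2 * t + 1 ≠ 0 := by
        intro h
        have h20 : (2 : F) ≠ 0 := by
          intro h20
          rw [h20, zero_mul, zero_add] at h
          exact one_ne_zero h
        have e2 : (((1 : F₀) + 1 : F₀) : F) = 2 := by
          push_cast
          norm_num
        have e3 : (((-((1 : F₀) + 1)⁻¹ : F₀)) : F) = -(2 : F)⁻¹ := by
          push_cast
          norm_num
        apply htn (-((1 : F₀) + 1)⁻¹)
        rw [e3]
        field_simp
        linear_combination -h
      obtain ⟨w, hw⟩ : ∃ w, w = t • r + s := ⟨_, rfl⟩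
      have hQw : Qf w = 0 := by
        rw [hw, Q_ad, Q_sm, polar_sm_l, hQr, hrs, hQs]
        linear_combination ht
      have hwr : QuadraticMap.polar Qf w r = 2 * t + 1 := by
        rw [hw, QuadraticMap.polar_add_left, polar_sm_l, hrr, QuadraticMap.polar_comm, hrs]
        ring
      have hxr : ∀ i, QuadraticMap.polar Qf (emb (b (Sum.inl (Sum.inl i)))) r = 0 := fun i => by
        rw [hr, hpol, (h4 i 0).1]; rfl
      have hxs : ∀ i, QuadraticMap.polar Qf (emb (b (Sum.inl (Sum.inl i)))) s = 0 := fun i => by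
        rw [hs, hpol, (h4 i 1).1]; rfl
      have hyr : ∀ i, QuadraticMap.polar Qf (emb (b (Sum.inl (Sum.inr i)))) r = 0 := fun i => by
        rw [hr, hpol, (h4 i 0).2]; rfl
      have hys : ∀ i, QuadraticMap.polar Qf (emb (b (Sum.inl (Sum.inr i)))) s = 0 := fun i => by
        rw [hs, hpol, (h4 i 1).2]; rfl
      have hxw : ∀ i, QuadraticMap.polar Qf (emb (b (Sum.inl (Sum.inl i)))) w = 0 := fun i => by
        rw [hw, QuadraticMap.polar_add_right, polar_sm_r, hxr, hxs]
        ring
      have hyw : ∀ i, QuadraticMap.polar Qf (emb (b (Sum.inl (Sum.inr i)))) w = 0 := fun i => by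
        rw [hw, QuadraticMap.polar_add_right, polar_sm_r, hyr, hys]
        ring
      obtain ⟨U, hU1, hU2⟩ := exists_ts_of_family (Q := Qf) (κ := Fin k ⊕ Unit)
        (Sum.elim (fun i => emb (b (Sum.inl (Sum.inl i)))) (fun _ => w))
        (Sum.elim (fun i => emb (b (Sum.inl (Sum.inr i)))) (fun _ => (2 * t + 1)⁻¹ • r))
        (by
          rintro (i | i)
          · simp only [Sum.elim_inl]
            rw [hQ0, (h1 i).1]; rfl
          · simp only [Sum.elim_inr]
            exact hQw)
        (by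
          rintro (i | i) (j | j)
          · simp only [Sum.elim_inl]
            rw [hpol, (h3 i j).1]; rfl
          · simp only [Sum.elim_inl, Sum.elim_inr]
            exact hxw i
          · simp only [Sum.elim_inl, Sum.elim_inr]
            rw [QuadraticMap.polar_comm]
            exact hxw j
          · simp only [Sum.elim_inr]
            rw [polar_self_eq, hQw, mul_zero])
        (by
          rintro (i | i) (j | j)
          · simp only [Sum.elim_inl, Sum.inl.injEq]
            rw [hpol, h2 i j]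
            split_ifs <;> rfl
          · simp only [Sum.elim_inl, Sum.elim_inr, reduceCtorEq, if_false]
            rw [polar_sm_r, hxr, mul_zero]
          · simp only [Sum.elim_inl, Sum.elim_inr, reduceCtorEq, if_false]
            rw [QuadraticMap.polar_comm]
            exact hyw j
          · simp only [Sum.elim_inr, Sum.inr.injEq]
            rw [polar_sm_r, hwr, inv_mul_cancel₀ h2t]
            simp)
      exact ⟨U, hU1, by simpa using hU2⟩
  obtain ⟨U, hU1, hU2⟩ := hU
  have hinj : Function.Injective (Matrix.toLin' (P : Matrix ι ι F)) := fun x y hxy => gl_mulVec_injective P (by simpa [Matrix.toLin'_apply] using hxy)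
  refine ⟨U.map (Matrix.toLin' (P : Matrix ι ι F)), le_top, ?_, ?_⟩
  · rintro _ ⟨u, hu, rfl⟩
    have h1 := hU1 u hu
    rw [hQfa] at h1
    exact (mul_eq_zero.mp h1).resolve_left hζ
  · rw [← (Submodule.equivMapOfInjective _ hinj U).finrank_eq, hU2, finrank_top, Module.finrank_fintype_fun_eq_card, hcard]

end Rational2

/-- The stabiliser of a frame is defined over a prime-index subfield. -/
theorem ECtx.frame_subfield (C : ECtx Q K) {t : ℕ} {D : Fin t → Submodule F (ι → F)} (hD : IsOrthogonalMDecomposition Q 1 D)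
    {H : Subgroup (GL ι F)} (hHK : H ≤ K) (hle : H ≤ decompositionStabilizer D) (hp : ¬ (Fintype.card F).Prime) :
    ∃ (F₀ : Subfield F) (r : ℕ) (P : GL ι F) (ζ : F), r.Prime ∧ Fintype.card F = Nat.card F₀ ^ r ∧ ζ ≠ 0 ∧
      IsQuadFormRationalStructure (fun v => ζ * Q v) F₀ P ∧ H ≤ subfieldSubgroup F₀ P := by
  classical
  have hfix : ∀ g ∈ H, ∀ v, Q ((g : Matrix ι ι F) *ᵥ v) = Q v := fun g hg => C.fix g (hHK hg)
  have ht := hD.decomp.decomp.two_le
  obtain ⟨p, hp'⟩ := CharP.exists F
  obtain ⟨e, hpp, hcp⟩ := FiniteField.card F p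
  have : Fact p.Prime := ⟨hpp⟩
  have hF₀' : (iterateFrobenius F p 1).eqLocusField (RingHom.id F) ≠ ⊤ := by
    intro htop
    have hall : ∀ x : F, x ^ p ^ 1 = x := by
      intro x
      have hx : x ∈ (iterateFrobenius F p 1).eqLocusField (RingHom.id F) := by
        rw [htop]; trivial
      have hx' : iterateFrobenius F p 1 x = x := hx
      rwa [iterateFrobenius_def] at hx'
    have h1 : 1 < p ^ 1 := by simpa using hpp.one_lt
    have h2 := card_le_of_forall_pow h1 hall
    rw [hcp, pow_one] at h2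
    have he1 : (e : ℕ) = 1 := by
      by_contra hne1
      have he2 : 2 ≤ (e : ℕ) := by
        have := e.pos
        omega
      have h3 : p ^ 2 ≤ p ^ (e : ℕ) := Nat.pow_le_pow_right hpp.pos he2
      have h4 := hpp.two_le
      nlinarith
    apply hp
    rw [hcp, he1, pow_one]
    exact hpp
  obtain ⟨F₁, r, hr, -, hcard'⟩ := exists_prime_index_subfield hF₀'
  refine ⟨F₁, r, ?_⟩
  obtain ⟨b₀, hb₀⟩ := basis_of_lines hD.decomp.decomp
  have hcardι : Fintype.card (Fin t) = Fintype.card ι := by
    simpa using card_of_mdecomp hD.decomp.decomp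
  let i₀ : Fin t := ⟨0, by omega⟩
  have hmemD : ∀ i, b₀ i ∈ D i := fun i => by
    rw [hb₀]
    exact Submodule.mem_span_singleton_self _
  have hlineP : ∀ i, QuadraticMap.polar Q (b₀ i) (b₀ i) ≠ 0 := by
    intro i h0
    obtain ⟨⟨x, hx, hxn⟩, -⟩ := hD.decomp.nondegenerate i _ (hmemD i) (b₀.ne_zero i)
    rw [hb₀] at hx
    obtain ⟨c, rfl⟩ := Submodule.mem_span_singleton.mp hx
    apply hxn
    rw [C.polar_smul_left, h0, mul_zero]
  have hlineQ : ∀ i, Q (b₀ i) ≠ 0 := fun i h0 => hlineP i (by rw [C.self, h0, mul_zero])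
  have h2 : (2 : F) ≠ 0 := fun h20 => hlineP i₀ (by rw [C.self, h20, zero_mul])
  obtain ⟨a₀, ha₀⟩ : ∃ a₀, a₀ = Q (b₀ i₀) := ⟨_, rfl⟩
  have ha₀0 : a₀ ≠ 0 := by
    rw [ha₀]
    exact hlineQ i₀
  have hsc : ∀ i, ∃ c : F, c ≠ 0 ∧ c ^ 2 * Q (b₀ i) = a₀ := by
    intro i
    obtain ⟨E, hE⟩ := hD.isometric i₀ i
    have h1 := hE ⟨b₀ i₀, hmemD i₀⟩
    have h3 : ∀ w : D i, ∃ c : F, c • b₀ i = (w : ι → F) := by
      intro w
      have h4 : (w : ι → F) ∈ Submodule.span F {b₀ i} := (hb₀ i).le w.2
      exact Submodule.mem_span_singleton.mp h4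
    obtain ⟨c, hc⟩ := h3 (E ⟨b₀ i₀, hmemD i₀⟩)
    refine ⟨c, ?_, ?_⟩
    · rintro rfl
      rw [zero_smul] at hc
      rw [← hc, C.Q_zero] at h1
      exact hlineQ i₀ h1.symm
    · rw [← C.Q_smul, hc, ha₀]
      exact h1
  choose cc hcc0 hcc using hsc
  let b₁ : Module.Basis (Fin t) F (ι → F) := b₀.isUnitSMul (w := cc) (fun i => isUnit_iff_ne_zero.mpr (hcc0 i))
  have hb₁ : ∀ i, b₁ i = cc i • b₀ i := fun i => Module.Basis.isUnitSMul_apply _ _
  have hb₁m : ∀ i, b₁ i ∈ D i := fun i => by
    rw [hb₁]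
    exact (D i).smul_mem _ (hmemD i)
  have hQb₁ : ∀ i, Q (b₁ i) = a₀ := fun i => by
    rw [hb₁, C.Q_smul, hcc]
  let eι : Fin t ≃ ι := Fintype.equivOfCardEq hcardι
  let b : Module.Basis ι F (ι → F) := b₁.reindex eι
  have hb : ∀ i, b (eι i) = b₁ i := fun i => by simp [b]
  have hQb : ∀ k, Q (b k) = a₀ := fun k => by
    have := hb (eι.symm k)
    rw [Equiv.apply_symm_apply] at this
    rw [this, hQb₁]
  have horth : ∀ k l, k ≠ l → QuadraticMap.polar Q (b k) (b l) = 0 := by
    intro k l hkl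
    have h3 := hb (eι.symm k)
    have h4 := hb (eι.symm l)
    rw [Equiv.apply_symm_apply] at h3 h4
    rw [h3, h4]
    exact hD.decomp.orthogonal _ _ (fun h => hkl (eι.symm.injective h)) _ (hb₁m _) _ (hb₁m _)
  obtain ⟨P'', hP''⟩ := exists_gl_of_bases (Pi.basisFun F ι) b
  have hP''' : ∀ k, (P'' : Matrix ι ι F) *ᵥ Pi.single k 1 = b k := fun k => by
    have := hP'' k
    simpa using this
  have hmem : ∀ h ∈ H, h ∈ subfieldSubgroup F₁ P'' := by
    intro h hh
    set A : GL ι F := P''⁻¹ * h * P'' with hA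
    have hent : ∀ k l, (A : Matrix ι ι F) k l ∈ F₁ := by
      intro k l
      obtain ⟨σ, hσ⟩ := hle hh
      have hm : (h : Matrix ι ι F) *ᵥ b l ∈ D (σ (eι.symm l)) := by
        rw [← hσ]
        refine ⟨b l, ?_, rfl⟩
        have h3 := hb (eι.symm l)
        rw [Equiv.apply_symm_apply] at h3
        rw [h3]
        exact hb₁m _
      have h3 : ∃ j : ι, ∃ c' : F, (h : Matrix ι ι F) *ᵥ b l = c' • b j := by
        refine ⟨eι (σ (eι.symm l)), ?_⟩
        rw [hb₀] at hm
        obtain ⟨c, hc⟩ := Submodule.mem_span_singleton.mp hm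
        refine ⟨c / cc (σ (eι.symm l)), ?_⟩
        rw [hb, hb₁, smul_smul, ← hc]
        congr 1
        have := hcc0 (σ (eι.symm l))
        field_simp
      obtain ⟨j, c', h1⟩ := h3
      have h2' : c' ^ 2 = 1 := by
        have h3 := hfix h hh (b l)
        rw [h1, C.Q_smul, hQb, hQb] at h3
        have h4 : c' ^ 2 * a₀ = 1 * a₀ := by rw [h3, one_mul]
        exact mul_right_cancel₀ ha₀0 h4
      have hc'm : c' ∈ F₁ := by
        have h3 : (c' - 1) * (c' + 1) = 0 := by linear_combination h2'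
        rcases mul_eq_zero.mp h3 with h4 | h4
        · rw [sub_eq_zero.mp h4]
          exact F₁.one_mem
        · rw [eq_neg_of_add_eq_zero_left h4]
          exact F₁.neg_mem F₁.one_mem
      have h5 : (A : Matrix ι ι F) *ᵥ Pi.single l 1 = c' • Pi.single j 1 := by
        rw [hA, gl_mulVec_mul, gl_mulVec_mul, hP''', h1, Matrix.mulVec_smul, ← hP''' j, gl_inv_mulVec]
      have h6 := congrFun h5 k
      rw [Matrix.mulVec_single_one] at h6
      simp only [Matrix.col_apply, Pi.smul_apply, smul_eq_mul, Pi.single_apply] at h6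
      rw [h6]
      split_ifs
      · rw [mul_one]
        exact hc'm
      · rw [mul_zero]
        exact F₁.zero_mem
    have hm := mem_range_sup_scalars (F₁ := F₁) (A := A) (d := 1) one_ne_zero (by simpa using hent)
    refine ⟨A, hm, ?_⟩
    show P'' * A * P''⁻¹ = h
    rw [hA]
    group
  have hQsum : ∀ u, Q ((P'' : Matrix ι ι F) *ᵥ u) = (∑ k, u k ^ 2) * a₀ := by
    intro u
    have h3 := C.self ((P'' : Matrix ι ι F) *ᵥ u)
    have hS := C.pS
    rw [gl_mulVec_eq_sum P'' u] at h3 ⊢
    simp only [hP'''] at h3 ⊢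
    rw [hS.sum_left] at h3
    simp only [hS.smul_left, hS.sum_right, hS.smul_right] at h3
    have h4 : ∀ k : ι, (∑ l, u l * QuadraticMap.polar Q (b k) (b l)) = u k * (2 * a₀) := by
      intro k
      rw [Finset.sum_eq_single k (fun l _ hl => by rw [horth k l hl.symm, mul_zero]) (by simp), C.self, hQb]
    simp only [RingHom.id_apply, h4] at h3
    have h5 : (2 : F) * ((∑ k, u k ^ 2) * a₀) = 2 * Q (∑ l, u l • b l) := by
      rw [← h3, Finset.sum_mul, Finset.mul_sum]
      refine Finset.sum_congr rfl fun k _ => ?_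
      ring
    exact (mul_left_cancel₀ h2 h5).symm
  refine ⟨P'', a₀⁻¹, hr, by rw [← Nat.card_eq_fintype_card]; exact hcard', inv_ne_zero ha₀0, ?_, hmem⟩
  intro u hu
  show a₀⁻¹ * Q ((P'' : Matrix ι ι F) *ᵥ u) ∈ F₁
  rw [hQsum]
  have h3 : a₀⁻¹ * ((∑ k, u k ^ 2) * a₀) = ∑ k, u k ^ 2 := by
    field_simp
  rw [h3]
  exact F₁.sum_mem fun k _ => F₁.pow_mem (hu k) 2

/-- A stabilised non-degenerate subspace of at most half the dimension. -/
theorem ECtx.nondeg_half (C : ECtx Q K) {H : Subgroup (GL ι F)} (hHK : H ≤ K) {W : Submodule F (ι → F)} (h0 : W ≠ ⊥) (h1 : W ≠ ⊤)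
    (hnd : IsNondegenerateOn (QuadraticMap.polar Q) W) (hle : H ≤ subspaceStabilizer W) :
    ∃ W' : Submodule F (ι → F), W' ≠ ⊥ ∧ W' ≠ ⊤ ∧ IsNondegenerateOn (QuadraticMap.polar Q) W' ∧ H ≤ subspaceStabilizer W' ∧
      2 * Module.finrank F W' ≤ Fintype.card ι := by
  classical
  have hC := C.fctx
  have hd := hC.disj_of_nondeg hnd
  have hdims := (hC.perp_dims hd).1
  by_cases h : 2 * Module.finrank F W ≤ Fintype.card ι
  · exact ⟨W, h0, h1, hnd, hle, h⟩
  · have hW : Stable H W := fun g hg w hw => ((mem_stab_iff W g).mp (hle hg) w).mp hw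
    have hfix : FFix (QuadraticMap.polar Q) H := fun g hg u v => fixes_polar (C.fix g (hHK hg)) u v
    have hW' := hC.stable_perp hfix hW
    refine ⟨hC.perp W, hC.perp_ne_bot hd h1, hC.perp_ne_top hd h0, hC.nondeg_perp_of_disj hd, fun h hh => mem_stab_of_stable hW' hh, ?_⟩
    omega

/-- A non-degenerate space of odd dimension needs odd characteristic. -/
theorem ECtx.odd_of_odd_dim (C : ECtx Q K) {W : Submodule F (ι → F)} (hnd : IsNondegenerateOn (QuadraticMap.polar Q) W)
    (hodd : Odd (Module.finrank F W)) : Odd (Fintype.card F) := by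
  by_contra hq
  have h2 := two_eq_zero_of_not_odd hq
  have halt : ∀ v, QuadraticMap.polar Q v v = 0 := fun v => by rw [C.self, h2, zero_mul]
  exact (Nat.not_even_iff_odd.mpr hodd) (finrank_even_of_nondeg C.pS halt hnd)

end Cfsg.Agent.H97.Asch
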