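import Cfsg.Agent.Lib.H97L12

/-!
Even dimensional orthogonal groups: tools for the lists of maximal subgroups.
-/

set_option autoImplicit false
set_option linter.unusedSectionVars false
set_option linter.unusedSimpArgs false
set_option linter.style.haveILetI false

namespace Cfsg.Agent.H97.Asch

open Matrix Cfsg Cfsg.Geo
open scoped MatrixGroups commutatorElement Kronecker

variable {ι : Type} [Fintype ι] [DecidableEq ι] {F : Type*} [Field F] [Fintype F] {Q : (ι → F) → F} {K : Subgroup (GL ι F)}

/-- A subgroup lying strictly between the intersection and the whole group excludes maximality. -/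
theorem not_max_helper {K H X : Subgroup (GL ι F)} (hH : IsMaximalIn K H) (hle : H ≤ X) (hX : ¬ K ≤ X)
    (hK : ∃ K₁ : Subgroup (GL ι F), X ⊓ K < K₁ ∧ K₁ < K) : False := by
  have hHX := maximal_eq' hH hle hX
  obtain ⟨K₁, h1, h2⟩ := hK
  rw [← hHX] at h1
  rcases hH.2 K₁ h1.le h2.le with h | h
  · exact h1.ne h.symm
  · exact h2.ne h

/-- A totally singular subspace is proper. -/
theorem ECtx.ts_ne_top [Nonempty ι] (C : ECtx Q K) {W : Submodule F (ι → F)} (h : IsTotallySingularQuad Q W) : W ≠ ⊤ := by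
  rintro rfl
  obtain ⟨v, hv⟩ := exists_ne (0 : ι → F)
  obtain ⟨y, hy⟩ := C.nd hv
  apply hy
  simp only [QuadraticMap.polar]
  rw [h _ Submodule.mem_top, h _ Submodule.mem_top, h _ Submodule.mem_top]
  ring

/-- The planes that may occur. -/
theorem plane_cases (Q' : QuadraticForm F (ι → F)) (hQ : IsNondegenerateQuadraticForm ⇑Q') (h7 : 7 ≤ Fintype.card ι) {H : Subgroup (GL ι F)}
    (hH : IsMaximalIn (omegaGL ⇑Q') H) {W : Submodule F (ι → F)} (hdim : Module.finrank F W = 2)
    (hnd : IsNondegenerateOn (QuadraticMap.polar ⇑Q') W) (hle : H ≤ subspaceStabilizer W) (hplus : IsPlusTypeOn ⇑Q' W) :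
    4 ≤ Fintype.card F := by
  by_contra hq
  have C := ectx_omega Q' h7 hQ
  have h0 : W ≠ ⊥ := by
    rintro rfl
    simp at hdim
  have h1 : W ≠ ⊤ := by
    rintro rfl
    simp at hdim
    omega
  exact not_max_helper hH hle (C.not_le_stab (by omega) h0 h1)
    (NM.plus_plane7 (Cfsg.Agent.Lib.OmCalc.nondeg_of hQ) h7 (by omega) hdim hnd hplus)

/-- There are no symplectic forms in odd dimension. -/
theorem symplectic_odd {κ : Type} [Fintype κ] [DecidableEq κ] {f : (κ → F) → (κ → F) → F} (hf : IsSymplecticForm f) {n : ℕ} (hn : Fintype.card κ = n) (hodd : Odd n) : False := by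
  have hN : IsNondegenerateOn f (⊤ : Submodule F (κ → F)) := by
    intro w _ hw0
    obtain ⟨⟨x, hx⟩, ⟨y, hy⟩⟩ := hf.nondegenerate w hw0
    exact ⟨⟨x, Submodule.mem_top, hx⟩, ⟨y, Submodule.mem_top, hy⟩⟩
  have h := finrank_even_of_nondeg (sesq_of_bilinear hf.bilinear) hf.alternating hN
  rw [finrank_top, Module.finrank_fintype_fun_eq_card, hn] at h
  exact (Nat.not_even_iff_odd.mpr hodd) h

end Cfsg.Agent.H97.Asch
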