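import Cfsg.Agent.Lib.H97L13

/-!
Even dimensional orthogonal groups: a tensor decomposition with factors of dimensions three and four, the latter of plus type,
refines to a decomposition with alternating factors of dimensions two and six.
-/

set_option autoImplicit false
set_option linter.unusedSectionVars false
set_option linter.unusedSimpArgs false
set_option linter.style.haveILetI false

namespace Cfsg.Agent.H97.Asch

open Matrix Cfsg Cfsg.Geo
open scoped MatrixGroups commutatorElement Kronecker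

variable {ι : Type} [Fintype ι] [DecidableEq ι] {F : Type*} [Field F] [Fintype F] {Q : (ι → F) → F} {K : Subgroup (GL ι F)}

theorem card_ne_six : Fintype.card F ≠ 6 := by
  intro h
  obtain ⟨p, hp⟩ := CharP.exists F
  obtain ⟨n, hpp, hc⟩ := FiniteField.card F p
  rw [h] at hc
  have h2 : 2 ∣ p ^ (n : ℕ) := by rw [← hc]; norm_num
  have h3 : 3 ∣ p ^ (n : ℕ) := by rw [← hc]; norm_num
  have e2 := (Nat.prime_dvd_prime_iff_eq Nat.prime_two hpp).mp (Nat.prime_two.dvd_of_dvd_pow h2)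
  have e3 := (Nat.prime_dvd_prime_iff_eq Nat.prime_three hpp).mp (Nat.prime_three.dvd_of_dvd_pow h3)
  omega

/-- The complement of a stabilised non-degenerate subspace of half the dimension is isometric to it. -/
theorem ECtx.half_block {Q' : QuadraticForm F (ι → F)} (C : ECtx ⇑Q' K) (hplus : IsPlusTypeOn ⇑Q' ⊤) {H : Subgroup (GL ι F)} (hHK : H ≤ K) {W : Submodule F (ι → F)}
    {a : ℕ} (ha : 0 < a) (hdim : Module.finrank F W = 2 * a) (hcard : Fintype.card ι = 2 * (2 * a))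
    (hnd : IsNondegenerateOn (QuadraticMap.polar ⇑Q') W) (hle : H ≤ subspaceStabilizer W) :
    ∃ D : Fin 2 → Submodule F (ι → F), IsOrthogonalMDecomposition ⇑Q' (2 * a) D ∧ H ≤ decompositionStabilizer D := by
  classical
  have hC := C.fctx
  have hd := hC.disj_of_nondeg hnd
  obtain ⟨hdims, hsup⟩ := hC.perp_dims hd
  have hnd' := hC.nondeg_perp_of_disj hd
  have hdim' : Module.finrank F (hC.perp W) = 2 * a := by omega
  have hW : Stable H W := fun g hg w hw => ((mem_stab_iff W g).mp (hle hg) w).mp hw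
  have hfix : FFix (QuadraticMap.polar ⇑Q') H := fun g hg u v => fixes_polar (C.fix g (hHK hg)) u v
  have hW' := hC.stable_perp hfix hW
  have hrW := Ty.nd_of_on hnd
  have hrW' := Ty.nd_of_on hnd'
  have horth : ∀ x ∈ W, ∀ y ∈ hC.perp W, QuadraticMap.polar ⇑Q' x y = 0 := fun x hx y hy => (hC.mem_perp'.mp hy) x hx
  have horth' : ∀ x ∈ hC.perp W, ∀ y ∈ W, QuadraticMap.polar ⇑Q' x y = 0 := fun x hx y hy => (hC.mem_perp.mp hx) y hy
  have hND : Cfsg.Agent.Lib.QuadFF.ND (Cfsg.Agent.Lib.QuadFF.restr Q' ⊤) := by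
    apply Ty.nd_restr
    intro w _ hw0
    obtain ⟨y, hy⟩ := C.nd hw0
    exact ⟨y, Submodule.mem_top, hy⟩
  have hnotM : ¬ Ty.Minus Q' (⊤ : Submodule F (ι → F)) := fun h => Ty.Minus.not_plus h hND hplus
  have hiso : AreIsometricFor ⇑Q' W (hC.perp W) := by
    rcases Ty.cases hdim hrW with hP | hM <;> rcases Ty.cases hdim' hrW' with hP' | hM'
    · exact Ty.Plus.iso hP hP' hdim hdim' hrW hrW'
    · exfalso
      apply hnotM
      have := Ty.Plus.sup_minus hP hM' hd horth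
      rwa [hsup] at this
    · exfalso
      apply hnotM
      have := Ty.Plus.sup_minus hP' hM (by rw [inf_comm]; exact hd) horth'
      rwa [sup_comm, hsup] at this
    · obtain ⟨k, rfl⟩ : ∃ k, a = k + 1 := ⟨a - 1, by omega⟩
      exact Ty.Minus.iso hM hM' hdim hdim' hrW hrW'
  obtain ⟨E, hE⟩ := hiso
  have hE' : ∀ w : hC.perp W, Q' ((E.symm w : W) : ι → F) = Q' (w : ι → F) := by
    intro w
    have := hE (E.symm w)
    rw [LinearEquiv.apply_symm_apply] at this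
    exact this.symm
  refine ⟨![W, hC.perp W], ⟨⟨two_mdecomp (by omega) hdim hdim' hd hsup, ?_, ?_⟩, ?_⟩, ?_⟩
  · intro i
    fin_cases i
    · exact hnd
    · exact hnd'
  · intro i j hij
    fin_cases i <;> fin_cases j
    · exact absurd rfl hij
    · exact horth
    · exact horth'
    · exact absurd rfl hij
  · intro i j
    fin_cases i <;> fin_cases j
    · exact ⟨LinearEquiv.refl F _, fun _ => rfl⟩
    · exact ⟨E, hE⟩
    · exact ⟨E.symm, hE'⟩
    · exact ⟨LinearEquiv.refl F _, fun _ => rfl⟩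
  · intro h hh
    have hg : ∀ {U : Submodule F (ι → F)}, Stable H U → U.map (Matrix.toLin' (h : Matrix ι ι F)) = U := by
      intro U hU
      apply map_eq_of_le rfl
      exact fun z hz => hU h hh z hz
    refine ⟨1, fun i => ?_⟩
    fin_cases i
    · exact hg hW
    · exact hg hW'

/-- A non-degenerate skew form from its Gram matrix -/
theorem ctx_of_skew_gram {κ : Type} [Fintype κ] [DecidableEq κ] {C₀ : Matrix κ κ F} (hdet : C₀.det ≠ 0) (hskew : ∀ a b, C₀ b a = - C₀ a b) :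
    FCtx (RingHom.id F) (-1) (formOfGram ((RingHom.id F : F →+* F) : F → F) C₀) := by
  classical
  refine ⟨formOfGram_sesq _ C₀, fun v hv => ?_, fun v hv => ?_, fun _ => rfl, fun u w => ?_⟩
  · by_contra hall
    push Not at hall
    apply hv
    apply Matrix.eq_zero_of_vecMul_eq_zero hdet
    funext b
    have h1 := hall (Pi.single b 1)
    simp only [formOfGram, RingHom.id_apply, Pi.single_apply, mul_ite, mul_one, mul_zero, Finset.sum_ite_eq', Finset.mem_univ, if_true] at h1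
    simpa [Matrix.vecMul, dotProduct] using h1
  · by_contra hall
    push Not at hall
    apply hv
    apply Matrix.eq_zero_of_mulVec_eq_zero hdet
    funext a
    have h1 := hall (Pi.single a 1)
    simp only [formOfGram, RingHom.id_apply, Pi.single_apply, ite_mul, one_mul, zero_mul, Finset.sum_ite_eq', Finset.mem_univ, if_true, Finset.sum_ite_eq, ite_true] at h1
    simpa [Matrix.mulVec, dotProduct] using h1
  · simp only [formOfGram, RingHom.id_apply]
    rw [Finset.mul_sum, Finset.sum_comm]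
    refine Finset.sum_congr rfl fun b _ => ?_
    rw [Finset.mul_sum]
    refine Finset.sum_congr rfl fun a _ => ?_
    rw [hskew a b]
    ring

/-- The Gram determinant of a non-degenerate form. -/
theorem gram_det_ne_of_form {κ : Type} [Fintype κ] [DecidableEq κ] {f₁ : (κ → F) → (κ → F) → F} (hS : Sesq (RingHom.id F) f₁)
    (hn : IsNondegenerateForm f₁) : (gramMatrix f₁).det ≠ 0 := by
  classical
  intro h0
  obtain ⟨v, hv, hv0⟩ := Matrix.exists_mulVec_eq_zero_iff.mpr h0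
  obtain ⟨⟨x, hx⟩, -⟩ := hn v hv
  apply hx
  rw [form_eq_gram hS]
  simp only [formOfGram, RingHom.id_apply]
  refine Finset.sum_eq_zero fun a _ => ?_
  have h1 := congrFun hv0 a
  simp only [Matrix.mulVec, dotProduct, Pi.zero_apply] at h1
  calc ∑ b, x a * gramMatrix f₁ a b * v b = x a * ∑ b, gramMatrix f₁ a b * v b := by
        rw [Finset.mul_sum]
        refine Finset.sum_congr rfl fun b _ => ?_
        ring
    _ = 0 := by rw [h1, mul_zero]

theorem det_conj_reindex {X : Type} [Fintype X] [DecidableEq X] (e : ι ≃ X) (P : GL ι F) (h : GL X F) :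
    ((P * glReindex e.symm h * P⁻¹ : GL ι F) : Matrix ι ι F).det = (h : Matrix X X F).det := by
  have h1 : (glReindex e.symm h : Matrix ι ι F) = (h : Matrix X X F).submatrix e e := by
    ext k j
    rw [glReindex_apply]
    rfl
  have h2 : (P : Matrix ι ι F).det * ((P⁻¹ : GL ι F) : Matrix ι ι F).det = 1 := by
    rw [← Matrix.det_mul, ← Units.val_mul, mul_inv_cancel, Units.val_one, Matrix.det_one]
  rw [Units.val_mul, Units.val_mul, Matrix.det_mul, Matrix.det_mul, h1, Matrix.det_submatrix_equiv_self]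
  linear_combination (h : Matrix X X F).det * h2

/-- the index map of the second factor -/
def rho6 : Fin 3 × Fin 2 ≃ Fin 6 := finProdFinEquiv

/-- the index map of a tensor decomposition with factors of dimensions three and four -/
def tau34 : Fin 3 × Fin 4 ≃ Fin 2 × Fin 6 where
  toFun z := ((plusEquiv.symm z.2).1, rho6 (z.1, (plusEquiv.symm z.2).2))
  invFun w := ((rho6.symm w.2).1, plusEquiv (w.1, (rho6.symm w.2).2))
  left_inv z := by simp
  right_inv w := by simp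

theorem tau34_fst (i : Fin 3) (k : Fin 4) : (tau34 (i, k)).1 = (plusEquiv.symm k).1 := rfl

theorem tau34_snd (i : Fin 3) (k : Fin 4) : rho6.symm (tau34 (i, k)).2 = (i, (plusEquiv.symm k).2) := by
  simp [tau34]

theorem br2_mulVec (b : Matrix (Fin 2) (Fin 2) F) (v w : Fin 2 → F) : br2 (b *ᵥ v) (b *ᵥ w) = b.det * br2 v w := by
  simp only [br2, Matrix.mulVec, dotProduct, Fin.sum_univ_two, Matrix.det_fin_two]
  ring

theorem sign_swap_prod : Equiv.Perm.sign (Equiv.prodComm (Fin 2) (Fin 2)) = -1 := by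
  have h : (Equiv.prodComm (Fin 2) (Fin 2)) = Equiv.swap ((0 : Fin 2), (1 : Fin 2)) ((1 : Fin 2), (0 : Fin 2)) := by
    decide
  rw [h, Equiv.Perm.sign_swap (by decide)]

/-- The tensor decomposition refines. -/
theorem ECtx.tensor34_refine (C : ECtx Q K) (h2 : (2 : F) ≠ 0) {e : ι ≃ Fin 3 × Fin 4} {P : GL ι F}
    {f₁ : (Fin 3 → F) → (Fin 3 → F) → F} {f₂ : (Fin 4 → F) → (Fin 4 → F) → F} (h₁ : IsSymmetricForm f₁) (h₂ : IsSymmetricForm f₂)
    (hplus : IsPlusTypeOn (fun v : Fin 4 → F => f₂ v v) ⊤) (hT : IsTensorFormStructure id (QuadraticMap.polar Q) f₁ f₂ e P)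
    {H : Subgroup (GL ι F)} (hHK : H ≤ K) (hle : H ≤ tensorProductSubgroup 3 4 e P) :
    ∃ (P' : GL ι F) (C₀ : Matrix (Fin 6) (Fin 6) F), FTensor (RingHom.id F) 1 (QuadraticMap.polar Q) H (e.trans tau34) P' detJ C₀ (-1) (-1) := by
  classical
  have hS := C.pS
  have hS₁ := sesq_of_bilinear h₁.bilinear
  have hS₂ := sesq_of_bilinear h₂.bilinear
  obtain ⟨c, hc, hcf⟩ := hT
  have hid : (id : F → F) = ((RingHom.id F : F →+* F) : F → F) := rfl
  have heq : ∀ x x' y y', QuadraticMap.polar Q ((P : Matrix ι ι F) *ᵥ (tvP x y ∘ e)) ((P : Matrix ι ι F) *ᵥ (tvP x' y' ∘ e)) = c * (f₁ x x' * f₂ y y') := by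
    intro x x' y y'
    rw [hcf, hid, form_eq_gram hS₁, form_eq_gram hS₂, ← gram_tvP]
    rfl
  obtain ⟨W, hW⟩ := exists_plus_matrix h2 h₂ hplus
  have hdetW : (W : Matrix (Fin 4) (Fin 4) F).det ≠ 0 := ((Matrix.isUnit_iff_isUnit_det _).mp W.isUnit).ne_zero
  let g₀ : GL (Fin 3 × Fin 4) F := Matrix.GeneralLinearGroup.mkOfDetNeZero ((1 : Matrix (Fin 3) (Fin 3) F) ⊗ₖ (W : Matrix (Fin 4) (Fin 4) F)) (by
    rw [Matrix.det_kronecker]
    simp [hdetW])
  have hg₀v : (g₀ : Matrix (Fin 3 × Fin 4) (Fin 3 × Fin 4) F) = (1 : Matrix (Fin 3) (Fin 3) F) ⊗ₖ (W : Matrix (Fin 4) (Fin 4) F) := rfl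
  let P' : GL ι F := P * glReindex e.symm g₀
  have hP' : ∀ z : Fin 3 × Fin 4 → F, (P' : Matrix ι ι F) *ᵥ (z ∘ e) = (P : Matrix ι ι F) *ᵥ (((g₀ : Matrix (Fin 3 × Fin 4) (Fin 3 × Fin 4) F) *ᵥ z) ∘ e) := by
    intro z
    simp only [P']
    rw [Units.val_mul, ← Matrix.mulVec_mulVec, reindex_mulVec]
  let ρ : Fin 6 ≃ Fin 3 × Fin 2 := rho6.symm
  let C₀ : Matrix (Fin 6) (Fin 6) F := fun k l => c * (gramMatrix f₁ (ρ k).1 (ρ l).1 * (detJ : Matrix (Fin 2) (Fin 2) F) (ρ k).2 (ρ l).2)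
  have hC₀ : C₀ = (c • (gramMatrix f₁ ⊗ₖ (detJ : Matrix (Fin 2) (Fin 2) F))).submatrix ρ ρ := by
    ext k l
    simp [C₀, Matrix.kroneckerMap_apply]
  have hG₁ := gram_det_ne_of_form hS₁ h₁.nondegenerate
  have hC₀det : C₀.det ≠ 0 := by
    rw [hC₀, Matrix.det_submatrix_equiv_self, Matrix.det_smul, Matrix.det_kronecker]
    have hJ : (detJ : Matrix (Fin 2) (Fin 2) F).det ≠ 0 := by
      simp [detJ, Matrix.det_fin_two]
    exact mul_ne_zero (pow_ne_zero _ hc) (mul_ne_zero (pow_ne_zero _ hG₁) (pow_ne_zero _ hJ))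
  have hskewJ : ∀ a b : Fin 2, (detJ : Matrix (Fin 2) (Fin 2) F) b a = - (detJ : Matrix (Fin 2) (Fin 2) F) a b := by
    intro a b
    fin_cases a <;> fin_cases b <;> simp [detJ]
  have hsymG : ∀ a b, gramMatrix f₁ b a = gramMatrix f₁ a b := fun a b => h₁.symm _ _
  have hskew : ∀ a b, C₀ b a = - C₀ a b := by
    intro a b
    simp only [C₀]
    rw [hsymG, hskewJ]
    ring
  refine ⟨P', C₀, ?_, fun x y => ?_, detJ_ctx h2, ctx_of_skew_gram hC₀det hskew, by ring⟩
  · -- the containment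
    intro g hg
    obtain ⟨a, c', hgv⟩ := tensor_elt (hle hg)
    have hact : ∀ x : Fin 3 × Fin 4 → F, (g : Matrix ι ι F) *ᵥ ((P : Matrix ι ι F) *ᵥ (x ∘ e)) =
        (P : Matrix ι ι F) *ᵥ ((((a : Matrix (Fin 3) (Fin 3) F) ⊗ₖ (c' : Matrix (Fin 4) (Fin 4) F)) *ᵥ x) ∘ e) := by
      intro x
      rw [hgv, gl_mulVec_mul, gl_mulVec_mul, gl_inv_mulVec, reindex_mulVec]
      rfl
    obtain ⟨x₀, hx₀⟩ := exists_ne (0 : Fin 3 → F)
    obtain ⟨-, ⟨x₁, hx₁⟩⟩ := h₁.nondegenerate x₀ hx₀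
    have hiso₀ : ∀ x x' u v, f₁ ((a : Matrix (Fin 3) (Fin 3) F) *ᵥ x) ((a : Matrix (Fin 3) (Fin 3) F) *ᵥ x') *
        f₂ ((c' : Matrix (Fin 4) (Fin 4) F) *ᵥ u) ((c' : Matrix (Fin 4) (Fin 4) F) *ᵥ v) = f₁ x x' * f₂ u v := by
      intro x x' u v
      have h3 := fixes_polar (C.fix g (hHK hg)) ((P : Matrix ι ι F) *ᵥ (tvP x u ∘ e)) ((P : Matrix ι ι F) *ᵥ (tvP x' v ∘ e))
      rw [hact, hact, kron_mulVec_tvP, kron_mulVec_tvP, heq, heq] at h3
      exact mul_left_cancel₀ hc h3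
    obtain ⟨y₀, hy₀⟩ := exists_ne (0 : Fin 4 → F)
    obtain ⟨-, ⟨v₀, hv₀⟩⟩ := h₂.nondegenerate y₀ hy₀
    have hl0 : f₁ ((a : Matrix (Fin 3) (Fin 3) F) *ᵥ x₀) ((a : Matrix (Fin 3) (Fin 3) F) *ᵥ x₁) ≠ 0 := by
      intro h0
      have h3 := hiso₀ x₀ x₁ y₀ v₀
      rw [h0, zero_mul] at h3
      exact mul_ne_zero hx₁ hv₀ h3.symm
    obtain ⟨l, hl⟩ : ∃ l, l = f₁ ((a : Matrix (Fin 3) (Fin 3) F) *ᵥ x₀) ((a : Matrix (Fin 3) (Fin 3) F) *ᵥ x₁) := ⟨_, rfl⟩
    rw [← hl] at hl0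
    obtain ⟨μ, hμ⟩ : ∃ μ, μ = f₁ x₀ x₁ / l := ⟨_, rfl⟩
    have hμ0 : μ ≠ 0 := by
      rw [hμ]
      exact div_ne_zero hx₁ hl0
    have hsim : ∀ u v, f₂ ((c' : Matrix (Fin 4) (Fin 4) F) *ᵥ u) ((c' : Matrix (Fin 4) (Fin 4) F) *ᵥ v) = μ * f₂ u v := by
      intro u v
      have h3 := hiso₀ x₀ x₁ u v
      rw [← hl] at h3
      rw [hμ]
      field_simp
      linear_combination h3
    have hsim₁ : ∀ x x', μ * f₁ ((a : Matrix (Fin 3) (Fin 3) F) *ᵥ x) ((a : Matrix (Fin 3) (Fin 3) F) *ᵥ x') = f₁ x x' := by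
      intro x x'
      have h3 := hiso₀ x x' y₀ v₀
      rw [hsim] at h3
      have h4 : f₂ y₀ v₀ ≠ 0 := hv₀
      apply mul_right_cancel₀ h4
      linear_combination h3
    have hdeta : (a : Matrix (Fin 3) (Fin 3) F).det ^ 2 * μ ^ 3 = 1 := by
      have hm : μ • ((a : Matrix (Fin 3) (Fin 3) F)ᵀ * gramMatrix f₁ * (a : Matrix (Fin 3) (Fin 3) F)) = gramMatrix f₁ := by
        ext i j
        have h3 := hsim₁ (Pi.single i 1) (Pi.single j 1)
        have hmapid : (a : Matrix (Fin 3) (Fin 3) F).map (RingHom.id F) = (a : Matrix (Fin 3) (Fin 3) F) := by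
          ext i j
          rfl
        have h4 := formOfGram_mulVec (RingHom.id F) (gramMatrix f₁) (a : Matrix (Fin 3) (Fin 3) F) (a : Matrix (Fin 3) (Fin 3) F) (Pi.single i 1) (Pi.single j 1)
        rw [← form_eq_gram hS₁, formOfGram_single, hmapid] at h4
        rw [Matrix.smul_apply, smul_eq_mul, ← h4]
        exact h3
      have h3 := congrArg Matrix.det hm
      rw [Matrix.det_smul, Matrix.det_mul, Matrix.det_mul, Matrix.det_transpose, Fintype.card_fin] at h3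
      apply mul_right_cancel₀ hG₁
      linear_combination h3
    let M₄ : GL (Fin 4) F := W⁻¹ * c' * W
    have hWM : ∀ z, (W : Matrix (Fin 4) (Fin 4) F) *ᵥ ((M₄ : Matrix (Fin 4) (Fin 4) F) *ᵥ z) = (c' : Matrix (Fin 4) (Fin 4) F) *ᵥ ((W : Matrix (Fin 4) (Fin 4) F) *ᵥ z) := by
      intro z
      simp only [M₄]
      rw [gl_mulVec_mul, gl_mulVec_mul, gl_mulVec_inv]
    have hWM' : (c' : Matrix (Fin 4) (Fin 4) F) * (W : Matrix (Fin 4) (Fin 4) F) = (W : Matrix (Fin 4) (Fin 4) F) * (M₄ : Matrix (Fin 4) (Fin 4) F) := by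
      rw [← Units.val_mul, ← Units.val_mul]
      congr 1
      simp only [M₄]
      group
    let M : Matrix (Fin 2 × Fin 2) (Fin 2 × Fin 2) F := (M₄ : Matrix (Fin 4) (Fin 4) F).submatrix plusEquiv plusEquiv
    have hMx : ∀ x, (M *ᵥ x) ∘ plusEquiv.symm = (M₄ : Matrix (Fin 4) (Fin 4) F) *ᵥ (x ∘ plusEquiv.symm) := by
      intro x
      simp only [M]
      rw [Matrix.submatrix_mulVec_equiv]
      funext k
      simp
    have hMB : ∀ x y, hypB (M *ᵥ x) (M *ᵥ y) = μ * hypB x y := by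
      intro x y
      rw [← hW (M *ᵥ x) (M *ᵥ y), ← hW x y, hMx, hMx, hWM, hWM, hsim]
    obtain ⟨b₁, b₂, hb⟩ := hyp_sim h2 hμ0 hMB
    have hM₄ : ∀ k l, (M₄ : Matrix (Fin 4) (Fin 4) F) k l = M (plusEquiv.symm k) (plusEquiv.symm l) := by
      intro k l
      simp [M]
    rcases hb with hb | hb
    · -- the elements of the smaller group
      have hd6 : ((a : Matrix (Fin 3) (Fin 3) F) ⊗ₖ (b₂ : Matrix (Fin 2) (Fin 2) F)).det ≠ 0 := by
        rw [Matrix.det_kronecker]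
        have h3 : (a : Matrix (Fin 3) (Fin 3) F).det ≠ 0 := ((Matrix.isUnit_iff_isUnit_det _).mp a.isUnit).ne_zero
        have h4 : (b₂ : Matrix (Fin 2) (Fin 2) F).det ≠ 0 := ((Matrix.isUnit_iff_isUnit_det _).mp b₂.isUnit).ne_zero
        exact mul_ne_zero (pow_ne_zero _ h3) (pow_ne_zero _ h4)
      let A₆ : GL (Fin 6) F := glReindex ρ.symm (Matrix.GeneralLinearGroup.mkOfDetNeZero ((a : Matrix (Fin 3) (Fin 3) F) ⊗ₖ (b₂ : Matrix (Fin 2) (Fin 2) F)) hd6)
      have hA₆ : ∀ k l, (A₆ : Matrix (Fin 6) (Fin 6) F) k l = (a : Matrix (Fin 3) (Fin 3) F) (ρ k).1 (ρ l).1 * (b₂ : Matrix (Fin 2) (Fin 2) F) (ρ k).2 (ρ l).2 := by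
        intro k l
        simp only [A₆]
        rw [glReindex_apply]
        rfl
      have hd₁₂ : ((b₁ : Matrix (Fin 2) (Fin 2) F) ⊗ₖ (A₆ : Matrix (Fin 6) (Fin 6) F)).det ≠ 0 := by
        rw [Matrix.det_kronecker]
        have h3 : (b₁ : Matrix (Fin 2) (Fin 2) F).det ≠ 0 := ((Matrix.isUnit_iff_isUnit_det _).mp b₁.isUnit).ne_zero
        have h4 : (A₆ : Matrix (Fin 6) (Fin 6) F).det ≠ 0 := ((Matrix.isUnit_iff_isUnit_det _).mp A₆.isUnit).ne_zero
        exact mul_ne_zero (pow_ne_zero _ h3) (pow_ne_zero _ h4)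
      let g₃ : GL (Fin 2 × Fin 6) F := Matrix.GeneralLinearGroup.mkOfDetNeZero ((b₁ : Matrix (Fin 2) (Fin 2) F) ⊗ₖ (A₆ : Matrix (Fin 6) (Fin 6) F)) hd₁₂
      have hg₃ : g₃ ∈ kroneckerSubgroup 2 6 F := ⟨b₁, A₆, rfl⟩
      have hent : ∀ a' k b' l, (a : Matrix (Fin 3) (Fin 3) F) a' b' * (M₄ : Matrix (Fin 4) (Fin 4) F) k l =
          (g₃ : Matrix (Fin 2 × Fin 6) (Fin 2 × Fin 6) F) (tau34 (a', k)) (tau34 (b', l)) := by
        intro a' k b' l
        have e1 : (g₃ : Matrix (Fin 2 × Fin 6) (Fin 2 × Fin 6) F) (tau34 (a', k)) (tau34 (b', l)) =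
            (b₁ : Matrix (Fin 2) (Fin 2) F) (tau34 (a', k)).1 (tau34 (b', l)).1 * (A₆ : Matrix (Fin 6) (Fin 6) F) (tau34 (a', k)).2 (tau34 (b', l)).2 := rfl
        rw [e1, hA₆, hM₄, hb, Matrix.kroneckerMap_apply]
        have e2 : ρ (tau34 (a', k)).2 = (a', (plusEquiv.symm k).2) := tau34_snd a' k
        have e3 : ρ (tau34 (b', l)).2 = (b', (plusEquiv.symm l).2) := tau34_snd b' l
        rw [e2, e3, tau34_fst, tau34_fst]
        ring
      refine ⟨glReindex (e.trans tau34).symm g₃, ⟨g₃, hg₃, rfl⟩, ?_⟩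
      apply Units.ext
      apply mat_eq_of_pv (e.trans tau34) P'
      intro x
      show ((P' * glReindex (e.trans tau34).symm g₃ * P'⁻¹ : GL ι F) : Matrix ι ι F) *ᵥ _ = _
      rw [gl_mulVec_mul, gl_mulVec_mul, gl_inv_mulVec, reindex_mulVec]
      have ex : x ∘ (e.trans tau34) = (x ∘ tau34) ∘ e := rfl
      have ex2 : ((g₃ : Matrix (Fin 2 × Fin 6) (Fin 2 × Fin 6) F) *ᵥ x) ∘ (e.trans tau34) =
        (((g₃ : Matrix (Fin 2 × Fin 6) (Fin 2 × Fin 6) F) *ᵥ x) ∘ tau34) ∘ e := rfl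
      rw [ex, ex2, hP', hP', hact]
      congr 2
      have hk1 : ((g₃ : Matrix (Fin 2 × Fin 6) (Fin 2 × Fin 6) F) *ᵥ x) ∘ tau34 =
          ((a : Matrix (Fin 3) (Fin 3) F) ⊗ₖ (M₄ : Matrix (Fin 4) (Fin 4) F)) *ᵥ (x ∘ tau34) := by
        funext z
        obtain ⟨a', k⟩ := z
        simp only [Function.comp_apply, Matrix.mulVec, dotProduct]
        rw [← tau34.sum_comp]
        refine Finset.sum_congr rfl fun z _ => ?_
        obtain ⟨b', l⟩ := z
        rw [Matrix.kroneckerMap_apply, hent]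
      have hk2 : ((a : Matrix (Fin 3) (Fin 3) F) ⊗ₖ (c' : Matrix (Fin 4) (Fin 4) F)) * (g₀ : Matrix (Fin 3 × Fin 4) (Fin 3 × Fin 4) F) =
          (g₀ : Matrix (Fin 3 × Fin 4) (Fin 3 × Fin 4) F) * ((a : Matrix (Fin 3) (Fin 3) F) ⊗ₖ (M₄ : Matrix (Fin 4) (Fin 4) F)) := by
        rw [hg₀v, ← Matrix.mul_kronecker_mul, ← Matrix.mul_kronecker_mul, Matrix.one_mul, Matrix.mul_one, hWM']
      rw [hk1, Matrix.mulVec_mulVec, Matrix.mulVec_mulVec, hk2]
    · -- the elements interchanging the two factors have determinant minus one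
      exfalso
      have hdet := C.det g (hHK hg)
      rw [hgv, det_conj_reindex] at hdet
      have e0 : (Matrix.GeneralLinearGroup.mkOfDetNeZero ((a : Matrix (Fin 3) (Fin 3) F) ⊗ₖ (c' : Matrix (Fin 4) (Fin 4) F)) (by
        rw [Matrix.det_kronecker]
        have h1 : (a : Matrix (Fin 3) (Fin 3) F).det ≠ 0 := ((Matrix.isUnit_iff_isUnit_det _).mp a.isUnit).ne_zero
        have h2 : (c' : Matrix (Fin 4) (Fin 4) F).det ≠ 0 := ((Matrix.isUnit_iff_isUnit_det _).mp c'.isUnit).ne_zero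
        exact mul_ne_zero (pow_ne_zero _ h1) (pow_ne_zero _ h2)) : GL (Fin 3 × Fin 4) F).val = (a : Matrix (Fin 3) (Fin 3) F) ⊗ₖ (c' : Matrix (Fin 4) (Fin 4) F) := rfl
      rw [e0, Matrix.det_kronecker] at hdet
      simp only [Fintype.card_fin] at hdet
      -- the determinant of `c'`
      have hdetM₄ : (M₄ : Matrix (Fin 4) (Fin 4) F).det = (c' : Matrix (Fin 4) (Fin 4) F).det := by
        have h3 := congrArg Matrix.det hWM'
        rw [Matrix.det_mul, Matrix.det_mul] at h3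
        apply mul_left_cancel₀ hdetW
        linear_combination -h3
      have hdetM : M.det = (M₄ : Matrix (Fin 4) (Fin 4) F).det := Matrix.det_submatrix_equiv_self _ _
      have hMdet : M.det = -((b₁ : Matrix (Fin 2) (Fin 2) F).det * (b₂ : Matrix (Fin 2) (Fin 2) F).det) ^ 2 := by
        rw [hb]
        have h3 := Matrix.det_permute' (Equiv.prodComm (Fin 2) (Fin 2)) ((b₁ : Matrix (Fin 2) (Fin 2) F) ⊗ₖ (b₂ : Matrix (Fin 2) (Fin 2) F))
        have h4 : ((b₁ : Matrix (Fin 2) (Fin 2) F) ⊗ₖ (b₂ : Matrix (Fin 2) (Fin 2) F)).submatrix id Prod.swap =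
            ((b₁ : Matrix (Fin 2) (Fin 2) F) ⊗ₖ (b₂ : Matrix (Fin 2) (Fin 2) F)).submatrix id (Equiv.prodComm (Fin 2) (Fin 2)) := rfl
        rw [h4, h3, sign_swap_prod, Matrix.det_kronecker]
        simp only [Fintype.card_fin]
        simp
        ring
      -- the multiplier
      have hμdet : μ = (b₁ : Matrix (Fin 2) (Fin 2) F).det * (b₂ : Matrix (Fin 2) (Fin 2) F).det := by
        let u₀ : Fin 2 → F := ![1, 0]
        let u₁ : Fin 2 → F := ![0, 1]
        have h3 := hMB (tvP u₀ u₀) (tvP u₁ u₁)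
        have h4 : ∀ v w : Fin 2 → F, M *ᵥ tvP v w = tvP ((b₁ : Matrix (Fin 2) (Fin 2) F) *ᵥ w) ((b₂ : Matrix (Fin 2) (Fin 2) F) *ᵥ v) := by
          intro v w
          rw [hb, ← kron_mulVec_tvP]
          funext z
          simp only [Matrix.mulVec, dotProduct, Matrix.submatrix_apply, id]
          rw [← (Equiv.prodComm (Fin 2) (Fin 2)).sum_comp]
          refine Finset.sum_congr rfl fun w' _ => ?_
          simp only [Equiv.prodComm_apply, Prod.swap_swap, tvP, Prod.fst_swap, Prod.snd_swap]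
          ring
        rw [h4, h4, hypB_tvP, hypB_tvP, br2_mulVec, br2_mulVec] at h3
        simp [u₀, u₁, br2] at h3
        linear_combination -h3
      have hc'det : (c' : Matrix (Fin 4) (Fin 4) F).det = -μ ^ 2 := by
        rw [← hdetM₄, ← hdetM, hMdet, hμdet]
      rw [hc'det] at hdet
      apply h2
      linear_combination -((a : Matrix (Fin 3) (Fin 3) F).det ^ 2 * μ ^ 3 + 1) * hdeta - hdet
  · -- the form
    have ex : x ∘ (e.trans tau34) = (x ∘ tau34) ∘ e := rfl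
    have ey : y ∘ (e.trans tau34) = (y ∘ tau34) ∘ e := rfl
    rw [ex, ey, hP', hP', hcf, hid, formOfGram_mulVec]
    let H₂ : Matrix (Fin 4) (Fin 4) F := fun k l => (detJ : Matrix (Fin 2) (Fin 2) F) (plusEquiv.symm k).1 (plusEquiv.symm l).1 * (detJ : Matrix (Fin 2) (Fin 2) F) (plusEquiv.symm k).2 (plusEquiv.symm l).2
    have hmapid : ∀ {κ : Type} (M : Matrix κ κ F), M.map (RingHom.id F) = M := fun M => by
      ext i j
      rfl
    have hWG : (W : Matrix (Fin 4) (Fin 4) F)ᵀ * gramMatrix f₂ * (W : Matrix (Fin 4) (Fin 4) F) = H₂ := by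
      ext k l
      have h3 := hW (Pi.single (plusEquiv.symm k) 1) (Pi.single (plusEquiv.symm l) 1)
      have hsingle : ∀ k : Fin 4, (Pi.single (plusEquiv.symm k) (1 : F) : Fin 2 × Fin 2 → F) ∘ plusEquiv.symm = Pi.single k 1 := by
        intro k
        funext j
        simp [Pi.single_apply, plusEquiv.symm.injective.eq_iff]
      rw [hsingle, hsingle, form_eq_gram hS₂, formOfGram_mulVec, formOfGram_single, hypB_single, hmapid] at h3
      exact h3
    have e1 : (g₀ : Matrix (Fin 3 × Fin 4) (Fin 3 × Fin 4) F)ᵀ * (gramMatrix f₁ ⊗ₖ gramMatrix f₂) * (g₀ : Matrix (Fin 3 × Fin 4) (Fin 3 × Fin 4) F).map (RingHom.id F) = gramMatrix f₁ ⊗ₖ H₂ := by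
      rw [hmapid, hg₀v]
      have e3 : ((1 : Matrix (Fin 3) (Fin 3) F) ⊗ₖ (W : Matrix (Fin 4) (Fin 4) F))ᵀ = (1 : Matrix (Fin 3) (Fin 3) F) ⊗ₖ (W : Matrix (Fin 4) (Fin 4) F)ᵀ := by
        ext a b
        simp [Matrix.kroneckerMap_apply, Matrix.one_apply, eq_comm]
      rw [e3, ← Matrix.mul_kronecker_mul, ← Matrix.mul_kronecker_mul, Matrix.one_mul, Matrix.mul_one, hWG]
    rw [e1]
    simp only [formOfGram, Matrix.kroneckerMap_apply, Finset.mul_sum]
    rw [← tau34.sum_comp]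
    refine Finset.sum_congr rfl fun a _ => ?_
    rw [← tau34.sum_comp]
    refine Finset.sum_congr rfl fun b _ => ?_
    obtain ⟨a₁, k⟩ := a
    obtain ⟨b₁, l⟩ := b
    simp only [Function.comp_apply, RingHom.id_apply, H₂, C₀]
    have e2 : ρ (tau34 (a₁, k)).2 = (a₁, (plusEquiv.symm k).2) := tau34_snd a₁ k
    have e3 : ρ (tau34 (b₁, l)).2 = (b₁, (plusEquiv.symm l).2) := tau34_snd b₁ l
    rw [e2, e3, tau34_fst, tau34_fst]
    ring

/-- The data of a decomposition with alternating factors. -/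
theorem ECtx.tensor_alt_data (C : ECtx Q K) (h2 : (2 : F) ≠ 0) {H : Subgroup (GL ι F)} {d m : ℕ}
    {e : ι ≃ Fin d × Fin m} {P : GL ι F} {A₀ : Matrix (Fin d) (Fin d) F} {C₀ : Matrix (Fin m) (Fin m) F}
    (hT : FTensor (RingHom.id F) 1 (QuadraticMap.polar Q) H e P A₀ C₀ (-1) (-1)) :
    ∃ (f₁ : (Fin d → F) → (Fin d → F) → F) (f₂ : (Fin m → F) → (Fin m → F) → F), IsSymplecticForm f₁ ∧ IsSymplecticForm f₂ ∧
      IsTensorFormStructure id (QuadraticMap.polar Q) f₁ f₂ e P ∧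
      (∀ (x₁ : Fin d → F) (x₂ : Fin m → F), Q ((P : Matrix ι ι F) *ᵥ ((fun a : Fin d × Fin m => x₁ a.1 * x₂ a.2) ∘ e)) = 0) ∧
      H ≤ tensorProductSubgroup d m e P := by
  refine ⟨formOfGram ((RingHom.id F : F →+* F) : F → F) A₀, formOfGram ((RingHom.id F : F →+* F) : F → F) C₀,
      FCtx.toSymplectic hT.ctx₁ h2, FCtx.toSymplectic hT.ctx₂ h2, ⟨1, one_ne_zero, fun x y => ?_⟩, fun x₁ x₂ => ?_, hT.le⟩
  · rw [hT.eqn, gramMatrix_formOfGram, gramMatrix_formOfGram, one_mul]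
    rfl
  · have h3 := hT.form_tv x₁ x₁ x₂ x₂
    rw [(FCtx.toSymplectic hT.ctx₁ h2).alternating x₁, zero_mul, C.self] at h3
    exact (mul_eq_zero.mp h3).resolve_left h2

end Cfsg.Agent.H97.Asch
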