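import Cfsg.Agent.Lib.H97L1

/-!
The commutator subgroup of the isometry group is an instance of the context; non-containment results.
-/

set_option autoImplicit false
set_option linter.unusedSectionVars false
set_option linter.unusedSimpArgs false
set_option linter.style.haveILetI false

namespace Cfsg.Agent.H97.Asch

open Matrix Cfsg Cfsg.Geo
open scoped MatrixGroups commutatorElement Kronecker

variable {ι : Type} [Fintype ι] [DecidableEq ι] {F : Type*} [Field F] {Q : (ι → F) → F} {K : Subgroup (GL ι F)}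

section Omega

variable [Fintype F]

theorem span_singular (Q' : QuadraticForm F (ι → F)) (hQ : IsNondegenerateQuadraticForm ⇑Q') (hn : 5 ≤ Fintype.card ι) :
    Submodule.span F {a : ι → F | Q' a = 0} = ⊤ := by
  classical
  have hND := Cfsg.Agent.Lib.OmCalc.nd_of (Cfsg.Agent.Lib.OmCalc.nondeg_of hQ)
  rw [eq_top_iff]
  intro x _
  by_cases hx : x = 0
  · rw [hx]
    exact Submodule.zero_mem _
  obtain ⟨z, hz, hxz⟩ := Cfsg.Agent.Lib.OmGeo.exists_sing_opp hND (by simpa using hn) hx
  have hzm : z ∈ Submodule.span F {a : ι → F | Q' a = 0} := Submodule.subset_span hz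
  set c := Q' x / QuadraticMap.polar Q' x z with hc
  have hw : Q' (x - c • z) = 0 := by
    have e : x - c • z = x + (-c) • z := by simp [sub_eq_add_neg]
    rw [e, Cfsg.Agent.Lib.QuadFF.Q_ad, Cfsg.Agent.Lib.QuadFF.Q_sm, Cfsg.Agent.Lib.QuadFF.polar_sm_r, hz, hc]
    field_simp
    ring
  have hwm : x - c • z ∈ Submodule.span F {a : ι → F | Q' a = 0} := Submodule.subset_span hw
  have := Submodule.add_mem _ hwm (Submodule.smul_mem _ c hzm)
  simpa using this

/-- The context. -/
theorem ectx_omega (Q' : QuadraticForm F (ι → F)) (hn : 7 ≤ Fintype.card ι) (hQ : IsNondegenerateQuadraticForm ⇑Q') :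
    ECtx ⇑Q' (omegaGL ⇑Q') := by
  have hN := Cfsg.Agent.Lib.OmCalc.nondeg_of hQ
  refine ⟨hQ, fun g hg v => omegaGL_isometry hg v, fun u v c hu hv huv => ?_, span_singular Q' hQ (by omega),
    fun g hg => omegaGL_det hg⟩
  have hw : QuadraticMap.polar ⇑Q' u (c • v) = 0 := by
    rw [Cfsg.Agent.Lib.QuadFF.polar_sm_r, huv, mul_zero]
  refine ⟨_, sE_mem7 hN hn hu hw, fun x => ?_⟩
  rw [Cfsg.Agent.Lib.OmCalc.sE_apply', Cfsg.Agent.Lib.QuadFF.Q_sm, hv, Cfsg.Agent.Lib.QuadFF.polar_sm_r, smul_smul]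
  have e : QuadraticMap.polar ⇑Q' x u * c = c * QuadraticMap.polar ⇑Q' x u := mul_comm _ _
  rw [e]
  congr 2
  ring

end Omega

section Geometry

variable [Fintype F]

/-- A singular vector orthogonal to `v` and not to `x`. -/
theorem ECtx.exists_sing_perp_opp (C : ECtx Q K) (hn : 7 ≤ Fintype.card ι) {v x : ι → F} (hv : Q v = 0) (hv0 : v ≠ 0)
    (hvx : QuadraticMap.polar Q v x = 0) (hx : ∀ c : F, x ≠ c • v) :
    ∃ u, Q u = 0 ∧ QuadraticMap.polar Q v u = 0 ∧ QuadraticMap.polar Q x u ≠ 0 := by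
  classical
  let Q' : QuadraticForm F (ι → F) := Cfsg.Agent.Lib.OmCalc.toQF Q C.quad
  have hND := Cfsg.Agent.Lib.OmCalc.nd_of (Cfsg.Agent.Lib.OmCalc.nondeg_of (Q := Q') C.quad)
  obtain ⟨w, hw⟩ := Cfsg.Agent.Lib.QuadFF.exists_hyp_partner hND hv0 hv
  have hd := hw.finrank_perp2
  have hND1 := hw.ND_perp2 hND
  have hm := hw.decomp x
  set x' := x - QuadraticMap.polar Q' w x • v - QuadraticMap.polar Q' v x • w with hx'
  have hvx' : QuadraticMap.polar Q' v x = 0 := hvx
  have hx'0 : (⟨x', hm⟩ : Cfsg.Agent.Lib.QuadFF.perp2 Q' v w) ≠ 0 := by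
    intro h
    have h1 : x' = 0 := congrArg Subtype.val h
    apply hx (QuadraticMap.polar Q' w x)
    rw [hx', hvx', zero_smul, sub_zero, sub_eq_zero] at h1
    exact h1
  have hfr : Module.finrank F (ι → F) = Fintype.card ι := by simp
  obtain ⟨z, hz, hxz⟩ := Cfsg.Agent.Lib.OmGeo.exists_sing_opp hND1 (by omega) hx'0
  have hzm := Cfsg.Agent.Lib.QuadFF.mem_perp2.1 z.2
  refine ⟨z.1, hz, hzm.1, ?_⟩
  have h1 : QuadraticMap.polar Q' x' z.1 ≠ 0 := hxz
  have h2 : QuadraticMap.polar Q' x' z.1 = QuadraticMap.polar Q' x z.1 := by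
    rw [hx', hvx', zero_smul, sub_zero]
    have e : x - QuadraticMap.polar Q' w x • v = x + (-QuadraticMap.polar Q' w x) • v := by simp [sub_eq_add_neg]
    rw [e, QuadraticMap.polar_add_left, Cfsg.Agent.Lib.QuadFF.polar_sm_l, hzm.1]
    ring
  rw [h2] at h1
  exact h1

/-- A decomposition into pairwise orthogonal non-degenerate spaces is not stabilised. -/
theorem ECtx.not_le_decomp_orth (C : ECtx Q K) (hn : 7 ≤ Fintype.card ι) {t k : ℕ} {D : Fin t → Submodule F (ι → F)}
    (hD : IsNondegenerateMDecomposition (QuadraticMap.polar Q) k D) (hk : k + 3 ≤ Fintype.card ι) :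
    ¬ K ≤ decompositionStabilizer D := by
  classical
  intro hle
  have hS := C.pS
  have ht := hD.decomp.two_le
  have hkpos := hD.decomp.pos
  let i₀ : Fin t := ⟨0, by omega⟩
  have hne : (D i₀) ≠ ⊥ := by
    intro h
    have := hD.decomp.finrank_eq i₀
    rw [h, finrank_bot] at this
    omega
  obtain ⟨x, hxD, hx0⟩ := (Submodule.ne_bot_iff _).mp hne
  -- the orthogonal of the block
  have hperpdim : 3 ≤ Module.finrank F (C.perp (D i₀)) := by
    have h1 := hD.decomp.finrank_eq i₀
    let φ : (ι → F) →ₗ[F] Module.Dual F (D i₀) :=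
      { toFun := fun z => { toFun := fun w => QuadraticMap.polar Q (w : ι → F) z
                            map_add' := fun a b => by simp [C.polar_add_left]
                            map_smul' := fun c a => by simp [C.polar_smul_left] }
        map_add' := fun a b => by
          ext w
          simp [C.polar_add_right]
        map_smul' := fun c a => by
          ext w
          simp [C.polar_smul_right] }
    have hker : LinearMap.ker φ = C.perp (D i₀) := by
      ext z
      constructor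
      · intro hz w hw
        have := LinearMap.mem_ker.mp hz
        exact congrArg (fun ψ : Module.Dual F (D i₀) => ψ ⟨w, hw⟩) this
      · intro hz
        apply LinearMap.mem_ker.mpr
        ext w
        exact hz _ w.2
    have h2 := LinearMap.finrank_range_add_finrank_ker φ
    have h3 : Module.finrank F (LinearMap.range φ) ≤ Module.finrank F (Module.Dual F (D i₀)) := Submodule.finrank_le _
    rw [Subspace.dual_finrank_eq, h1] at h3
    rw [hker] at h2
    have h4 : Module.finrank F (ι → F) = Fintype.card ι := by simp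
    omega
  obtain ⟨v, hvP, hv0, hvS⟩ := C.exists_singular hperpdim
  have hxv : QuadraticMap.polar Q x v = 0 := hvP x hxD
  have hvx : QuadraticMap.polar Q v x = 0 := by rw [QuadraticMap.polar_comm]; exact hxv
  -- `x` is not a multiple of `v`
  have hnd := hD.nondegenerate i₀ x hxD hx0
  obtain ⟨y, hy, hyx⟩ := hnd.2
  have hxnot : ∀ c : F, x ≠ c • v := by
    intro c hc
    apply hyx
    rw [hc, C.polar_smul_left, QuadraticMap.polar_comm, hvP y hy, mul_zero]
  obtain ⟨u, huS, hvu, hxu⟩ := C.exists_sing_perp_opp hn hvS hv0 hvx hxnot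
  have huv : QuadraticMap.polar Q u v = 0 := by rw [QuadraticMap.polar_comm]; exact hvu
  obtain ⟨g, hg, hgx⟩ := C.siegel u v 1 huS hvS huv
  obtain ⟨π, hπ⟩ := hle hg
  have h1 : (g : Matrix ι ι F) *ᵥ x ∈ D (π i₀) := by
    rw [← hπ]
    exact ⟨x, hxD, by simp [Matrix.toLin'_apply]⟩
  rw [hgx, hxv, mul_zero, zero_smul, sub_zero, one_mul] at h1
  set c := QuadraticMap.polar Q x u with hc
  by_cases hj : π i₀ = i₀
  · rw [hj] at h1
    have h2 : c • v ∈ D i₀ := by
      have := (D i₀).sub_mem h1 hxD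
      simpa using this
    have h3 : v ∈ D i₀ := by
      have := (D i₀).smul_mem c⁻¹ h2
      rwa [smul_smul, inv_mul_cancel₀ hxu, one_smul] at this
    obtain ⟨y', hy', hyv⟩ := (hD.nondegenerate i₀ v h3 hv0).2
    exact hyv (by rw [QuadraticMap.polar_comm]; exact hvP y' hy')
  · have hort := hD.orthogonal i₀ (π i₀) (Ne.symm hj)
    -- `x + c v` lies in another block so is orthogonal to the block `i₀`
    apply hyx
    have h2 := hort y hy _ h1
    rw [C.polar_add_right, C.polar_smul_right, hvP y hy, mul_zero, add_zero] at h2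
    rw [QuadraticMap.polar_comm]
    exact h2

/-- A matrix commuting with all Siegel transformations is a scalar. -/
theorem ECtx.scalar_of_commute (C : ECtx Q K) (hn : 7 ≤ Fintype.card ι) {k : Matrix ι ι F}
    (hk : ∀ g ∈ K, (∃ (u v : ι → F) (c : F), Q u = 0 ∧ Q v = 0 ∧ QuadraticMap.polar Q u v = 0 ∧
      ∀ x, (g : Matrix ι ι F) *ᵥ x = x + (c * QuadraticMap.polar Q x u) • v - (c * QuadraticMap.polar Q x v) • u) →
      (g : Matrix ι ι F) * k = k * g) : ∃ c : F, k = c • 1 := by
  classical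
  let Q' : QuadraticForm F (ι → F) := Cfsg.Agent.Lib.OmCalc.toQF Q C.quad
  have hND := Cfsg.Agent.Lib.OmCalc.nd_of (Cfsg.Agent.Lib.OmCalc.nondeg_of (Q := Q') C.quad)
  have hfr : Module.finrank F (ι → F) = Fintype.card ι := by simp
  have hS := C.pS
  -- the action relation
  have hrel : ∀ u v x : ι → F, Q u = 0 → Q v = 0 → QuadraticMap.polar Q u v = 0 →
      QuadraticMap.polar Q (k *ᵥ x) u • v - QuadraticMap.polar Q (k *ᵥ x) v • u =
        QuadraticMap.polar Q x u • (k *ᵥ v) - QuadraticMap.polar Q x v • (k *ᵥ u) := by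
    intro u v x hu hv huv
    obtain ⟨g, hg, hgx⟩ := C.siegel u v 1 hu hv huv
    have h1 := hk g hg ⟨u, v, 1, hu, hv, huv, hgx⟩
    have h2 : (g : Matrix ι ι F) *ᵥ (k *ᵥ x) = k *ᵥ ((g : Matrix ι ι F) *ᵥ x) := by
      rw [Matrix.mulVec_mulVec, Matrix.mulVec_mulVec, h1]
    rw [hgx, hgx, Matrix.mulVec_sub, Matrix.mulVec_add, Matrix.mulVec_smul, Matrix.mulVec_smul] at h2
    simp only [one_mul] at h2
    have h3 := congrArg (fun z => z - k *ᵥ x) h2
    have e1 : k *ᵥ x + QuadraticMap.polar Q (k *ᵥ x) u • v - QuadraticMap.polar Q (k *ᵥ x) v • u - k *ᵥ x =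
        QuadraticMap.polar Q (k *ᵥ x) u • v - QuadraticMap.polar Q (k *ᵥ x) v • u := by abel
    have e2 : k *ᵥ x + QuadraticMap.polar Q x u • k *ᵥ v - QuadraticMap.polar Q x v • k *ᵥ u - k *ᵥ x =
        QuadraticMap.polar Q x u • k *ᵥ v - QuadraticMap.polar Q x v • k *ᵥ u := by abel
    rw [e1, e2] at h3
    exact h3
  -- singular vectors are eigenvectors
  have heig : ∀ v, Q v = 0 → v ≠ 0 → ∃ l : F, k *ᵥ v = l • v := by
    intro v hv hv0
    obtain ⟨w, hw⟩ := Cfsg.Agent.Lib.QuadFF.exists_hyp_partner hND hv0 hv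
    have hd := hw.finrank_perp2
    have hND1 := hw.ND_perp2 hND
    obtain ⟨u₁, hu₁0, hu₁S⟩ := Cfsg.Agent.Lib.QuadFF.exists_singular (Cfsg.Agent.Lib.QuadFF.restr Q' (Cfsg.Agent.Lib.QuadFF.perp2 Q' v w))
      (by omega)
    obtain ⟨u₂, hu₂⟩ := Cfsg.Agent.Lib.QuadFF.exists_hyp_partner hND1 hu₁0 hu₁S
    have m₁ := Cfsg.Agent.Lib.QuadFF.mem_perp2.1 u₁.2
    have m₂ := Cfsg.Agent.Lib.QuadFF.mem_perp2.1 u₂.2
    have hQ₁ : Q u₁.1 = 0 := hu₁S
    have hQ₂ : Q u₂.1 = 0 := hu₂.Qw
    have h12 : QuadraticMap.polar Q u₁.1 u₂.1 = 1 := hu₂.vw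
    have h21 : QuadraticMap.polar Q u₂.1 u₁.1 = 1 := by rw [QuadraticMap.polar_comm]; exact h12
    have hv1 : QuadraticMap.polar Q u₁.1 v = 0 := by rw [QuadraticMap.polar_comm]; exact m₁.1
    have hv2 : QuadraticMap.polar Q u₂.1 v = 0 := by rw [QuadraticMap.polar_comm]; exact m₂.1
    have h11 : QuadraticMap.polar Q u₁.1 u₁.1 = 0 := by rw [C.self, hQ₁, mul_zero]
    have h22 : QuadraticMap.polar Q u₂.1 u₂.1 = 0 := by rw [C.self, hQ₂, mul_zero]
    -- first relation: `k v` in the span of `u₁, v`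
    have r1 := hrel u₁.1 v u₂.1 hQ₁ hv hv1
    rw [h21, hv2, one_smul, zero_smul, sub_zero] at r1
    have r2 := hrel u₂.1 v u₁.1 hQ₂ hv hv2
    rw [h12, hv1, one_smul, zero_smul, sub_zero] at r2
    set a₁ := QuadraticMap.polar Q (k *ᵥ u₂.1) u₁.1
    set b₁ := QuadraticMap.polar Q (k *ᵥ u₂.1) v
    set a₂ := QuadraticMap.polar Q (k *ᵥ u₁.1) u₂.1
    set b₂ := QuadraticMap.polar Q (k *ᵥ u₁.1) v
    -- pair the two expressions against `u₁`
    have hvu1 : QuadraticMap.polar Q v u₁.1 = 0 := m₁.1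
    have h3 : QuadraticMap.polar Q (k *ᵥ v) u₁.1 = 0 := by
      rw [← r1, C.polar_sub_left, C.polar_smul_left, C.polar_smul_left, hvu1, h11]
      ring
    have h5 : b₂ = 0 := by
      have h4 : QuadraticMap.polar Q (k *ᵥ v) u₁.1 = -b₂ := by
        rw [← r2, C.polar_sub_left, C.polar_smul_left, C.polar_smul_left, hvu1, h21]
        ring
      rw [h3] at h4
      linear_combination h4
    refine ⟨a₂, ?_⟩
    rw [← r2, h5, zero_smul, sub_zero]
  -- all eigenvalues agree
  have hne : Nonempty ι := Fintype.card_pos_iff.mp (by omega)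
  obtain ⟨v₀, hv₀0, hv₀⟩ : ∃ v : ι → F, v ≠ 0 ∧ Q v = 0 := by
    have hU : 3 ≤ Module.finrank F (⊤ : Submodule F (ι → F)) := by
      rw [finrank_top, hfr]
      omega
    obtain ⟨a, -, h0, h1⟩ := C.exists_singular hU
    exact ⟨a, h0, h1⟩
  obtain ⟨l₀, hl₀⟩ := heig v₀ hv₀ hv₀0
  have horth : ∀ a b : ι → F, Q a = 0 → Q b = 0 → a ≠ 0 → b ≠ 0 → QuadraticMap.polar Q a b = 0 → ∀ la lb : F,
      k *ᵥ a = la • a → k *ᵥ b = lb • b → la = lb := by
    intro a b ha hb ha0 hb0 hab la lb hla hlb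
    by_contra hne
    have hab' : Q (a + b) = 0 := by
      rw [Q_add' Q, ha, hb, hab]
      ring
    by_cases hab0 : a + b = 0
    · have e : b = (-1 : F) • a := by
        rw [neg_smul, one_smul]
        exact (eq_neg_of_add_eq_zero_right hab0)
      have h3 : k *ᵥ b = la • b := by
        conv_lhs => rw [e]
        rw [Matrix.mulVec_smul, hla, smul_comm, ← e]
      rw [hlb] at h3
      exact hne (smul_left_injective F hb0 h3).symm
    obtain ⟨l, hl⟩ := heig _ hab' hab0
    rw [Matrix.mulVec_add, hla, hlb, smul_add] at hl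
    have h1 : (la - l) • a = (l - lb) • b := by
      linear_combination (norm := module) hl
    by_cases h2 : la = l
    · have h3 : l = lb := by
        rw [h2, sub_self, zero_smul] at h1
        rcases smul_eq_zero.mp h1.symm with h | h
        · exact sub_eq_zero.mp h
        · exact absurd h hb0
      exact hne (h2.trans h3)
    · have e : a = ((la - l)⁻¹ * (l - lb)) • b := by
        rw [mul_smul, ← h1, smul_smul, inv_mul_cancel₀ (sub_ne_zero.mpr h2), one_smul]
      have h3 : k *ᵥ a = lb • a := by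
        conv_lhs => rw [e]
        rw [Matrix.mulVec_smul, hlb, smul_comm, ← e]
      rw [hla] at h3
      exact hne (smul_left_injective F ha0 h3)
  have hall : ∀ v, Q v = 0 → k *ᵥ v = l₀ • v := by
    intro v hv
    by_cases hv0 : v = 0
    · rw [hv0]
      simp
    obtain ⟨l, hl⟩ := heig v hv hv0
    have key : l = l₀ := by
      -- a singular vector orthogonal to both
      have hdim : 3 ≤ Module.finrank F (LinearMap.ker ((C.polD v).prod (C.polD v₀))) := by
        have := finrank_ker2 (C.polD v) (C.polD v₀)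
        omega
      obtain ⟨z, hzU, hz0, hzS⟩ := C.exists_singular hdim
      have hz' := LinearMap.mem_ker.mp hzU
      have h3 : C.polD v z = 0 := congrArg Prod.fst hz'
      have h4 : C.polD v₀ z = 0 := congrArg Prod.snd hz'
      rw [C.polD_apply] at h3 h4
      obtain ⟨l', hl'⟩ := heig z hzS hz0
      have e1 := horth z v hzS hv hz0 hv0 h3 l' l hl' hl
      have e2 := horth z v₀ hzS hv₀ hz0 hv₀0 h4 l' l₀ hl' hl₀
      rw [← e1, e2]
    rw [hl, key]
  refine ⟨l₀, ?_⟩
  apply Matrix.toLin'.injective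
  have hspan := C.span
  have heq : ∀ x, x ∈ Submodule.span F {a : ι → F | Q a = 0} → k *ᵥ x = (l₀ • (1 : Matrix ι ι F)) *ᵥ x := by
    intro x hx
    induction hx using Submodule.span_induction with
    | mem a ha =>
      rw [hall a ha, Matrix.smul_mulVec, Matrix.one_mulVec]
    | zero => simp
    | add a b _ _ ha hb => rw [Matrix.mulVec_add, Matrix.mulVec_add, ha, hb]
    | smul c a _ ha => rw [Matrix.mulVec_smul, Matrix.mulVec_smul, ha]
  apply LinearMap.ext
  intro x
  simp only [Matrix.toLin'_apply]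
  exact heq x (by rw [hspan]; trivial)

end Geometry

end Cfsg.Agent.H97.Asch
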