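import Cfsg.Agent.Lib.QuadClass2
import Cfsg.Agent.Lib.QuadFF2

/-!
Types of non-degenerate quadratic spaces of even dimension over finite fields: additivity.
-/

set_option autoImplicit false
set_option linter.unusedSectionVars false
set_option linter.unusedSimpArgs false
set_option linter.unusedVariables false

universe u v

namespace Cfsg.Agent.H97.Ty

open Module QuadraticMap Cfsg.Agent.Lib.QuadFF Cfsg.Agent.Lib.QuadClass Cfsg.Agent.Lib.QuadClass2

variable {F : Type u} [Field F] {V : Type v} [AddCommGroup V] [Module F V] {Q : QuadraticForm F V}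

/-- plus type -/
def Plus (Q : QuadraticForm F V) (W : Submodule F V) : Prop :=
  ∃ U : Submodule F V, U ≤ W ∧ (∀ u ∈ U, Q u = 0) ∧ 2 * finrank F U = finrank F W

/-- minus type -/
def Minus (Q : QuadraticForm F V) (W : Submodule F V) : Prop :=
  ∃ A U : Submodule F V, A ≤ W ∧ U ≤ W ∧ finrank F A = 2 ∧ (∀ a ∈ A, Q a = 0 → a = 0) ∧ (∀ u ∈ U, Q u = 0) ∧
    2 * finrank F U + 2 = finrank F W ∧ ∀ u ∈ U, ∀ a ∈ A, polar Q u a = 0

theorem polar_of_ts {U : Submodule F V} (hU : ∀ u ∈ U, Q u = 0) {a b : V} (ha : a ∈ U) (hb : b ∈ U) :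
    polar Q a b = 0 := by
  rw [polar, hU _ (U.add_mem ha hb), hU _ ha, hU _ hb]
  ring

theorem ts_span {S : Set V} (h1 : ∀ s ∈ S, Q s = 0) (h2 : ∀ s ∈ S, ∀ t ∈ S, polar Q s t = 0) :
    ∀ u ∈ Submodule.span F S, Q u = 0 := by
  have key : ∀ u ∈ Submodule.span F S, Q u = 0 ∧ ∀ t ∈ S, polar Q u t = 0 := by
    intro u hu
    induction hu using Submodule.span_induction with
    | mem x hx => exact ⟨h1 x hx, h2 x hx⟩
    | zero => exact ⟨map_zero Q, fun t _ => polar_zero_left Q t⟩
    | add a b _ _ ha hb =>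
      refine ⟨?_, fun t ht => ?_⟩
      · have hab : polar Q a b = 0 := by
          have hle : ∀ z ∈ Submodule.span F S, polar Q a z = 0 := by
            intro z hz
            induction hz using Submodule.span_induction with
            | mem x hx => exact ha.2 x hx
            | zero => exact polar_zero_right Q a
            | add c d _ _ hc hd => rw [polar_add_right, hc, hd, add_zero]
            | smul c d _ hd => rw [polar_sm_r, hd, mul_zero]
          exact hle b ‹_›
        rw [Q_ad, ha.1, hb.1, hab]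
        ring
      · rw [polar_add_left, ha.2 t ht, hb.2 t ht, add_zero]
    | smul c a _ ha =>
      exact ⟨by rw [Q_sm, ha.1, mul_zero], fun t ht => by rw [polar_sm_l, ha.2 t ht, mul_zero]⟩
  exact fun u hu => (key u hu).1

theorem polar_span {S T : Set V} (h : ∀ s ∈ S, ∀ t ∈ T, polar Q s t = 0) :
    ∀ u ∈ Submodule.span F S, ∀ v ∈ Submodule.span F T, polar Q u v = 0 := by
  intro u hu v hv
  induction hu using Submodule.span_induction with
  | mem x hx =>
    induction hv using Submodule.span_induction with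
    | mem y hy => exact h x hx y hy
    | zero => exact polar_zero_right Q x
    | add c d _ _ hc hd => rw [polar_add_right, hc, hd, add_zero]
    | smul c d _ hd => rw [polar_sm_r, hd, mul_zero]
  | zero => exact polar_zero_left Q v
  | add a b _ _ ha hb => rw [polar_add_left, ha, hb, add_zero]
  | smul c a _ ha => rw [polar_sm_l, ha, mul_zero]

section Sup

variable [FiniteDimensional F V]

theorem finrank_sup_disj {W W' : Submodule F V} (h : W ⊓ W' = ⊥) :
    finrank F ↥(W ⊔ W') = finrank F W + finrank F W' := by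
  have := Submodule.finrank_sup_add_finrank_inf_eq W W'
  rw [h, finrank_bot, add_zero] at this
  exact this

theorem ts_sup {U U' : Submodule F V} (hU : ∀ u ∈ U, Q u = 0) (hU' : ∀ u ∈ U', Q u = 0)
    (horth : ∀ u ∈ U, ∀ u' ∈ U', polar Q u u' = 0) : ∀ x ∈ U ⊔ U', Q x = 0 := by
  intro x hx
  obtain ⟨u, hu, u', hu', rfl⟩ := Submodule.mem_sup.mp hx
  rw [Q_ad, hU u hu, hU' u' hu', horth u hu u' hu']
  ring

/-- plus and plus -/
theorem Plus.sup {W W' : Submodule F V} (h : Plus Q W) (h' : Plus Q W') (hd : W ⊓ W' = ⊥)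
    (horth : ∀ w ∈ W, ∀ w' ∈ W', polar Q w w' = 0) : Plus Q (W ⊔ W') := by
  obtain ⟨U, h1, h2, h3⟩ := h
  obtain ⟨U', h1', h2', h3'⟩ := h'
  have hdU : U ⊓ U' = ⊥ := by
    rw [eq_bot_iff, ← hd]
    exact inf_le_inf h1 h1'
  refine ⟨U ⊔ U', sup_le_sup h1 h1', ts_sup h2 h2' fun u hu u' hu' => horth u (h1 hu) u' (h1' hu'), ?_⟩
  rw [finrank_sup_disj hdU, finrank_sup_disj hd]
  omega

/-- plus and minus -/
theorem Plus.sup_minus {W W' : Submodule F V} (h : Plus Q W) (h' : Minus Q W') (hd : W ⊓ W' = ⊥)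
    (horth : ∀ w ∈ W, ∀ w' ∈ W', polar Q w w' = 0) : Minus Q (W ⊔ W') := by
  obtain ⟨U, h1, h2, h3⟩ := h
  obtain ⟨A, U', hA, h1', hA2, hani, h2', h3', hUA⟩ := h'
  have hdU : U ⊓ U' = ⊥ := by
    rw [eq_bot_iff, ← hd]
    exact inf_le_inf h1 h1'
  refine ⟨A, U ⊔ U', hA.trans le_sup_right, sup_le_sup h1 h1', hA2, hani,
    ts_sup h2 h2' fun u hu u' hu' => horth u (h1 hu) u' (h1' hu'), ?_, ?_⟩
  · rw [finrank_sup_disj hdU, finrank_sup_disj hd]
    omega
  · intro x hx a ha
    obtain ⟨u, hu, u', hu', rfl⟩ := Submodule.mem_sup.mp hx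
    rw [polar_add_left, horth u (h1 hu) a (hA ha), hUA u' hu' a ha, add_zero]

/-- anisotropic planes are non-degenerate -/
theorem ani_nd [Finite F] {A : Submodule F V} (hA2 : finrank F A = 2) (hani : ∀ a ∈ A, Q a = 0 → a = 0) :
    ∀ w ∈ A, (∀ u ∈ A, polar Q w u = 0) → w = 0 := by
  classical
  intro w hw hall
  by_contra hw0
  have hQw : Q w ≠ 0 := fun h => hw0 (hani w hw h)
  -- another vector
  obtain ⟨a, haA, hind⟩ : ∃ a ∈ A, a ∉ Submodule.span F {w} := by
    by_contra hno
    push Not at hno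
    have hle : A ≤ Submodule.span F {w} := hno
    have h1 := Submodule.finrank_mono hle
    rw [hA2, finrank_span_singleton hw0] at h1
    omega
  have h2 : polar Q w w = 0 := hall w hw
  rw [polar_self_eq] at h2
  have h20 : (2 : F) = 0 := (mul_eq_zero.mp h2).resolve_right hQw
  -- squares are surjective
  have : Fintype F := Fintype.ofFinite F
  have hinj : Function.Injective (fun y : F => y * y) := by
    intro x y hxy
    have hxy' : x * x = y * y := hxy
    have h3 : (x - y) * (x - y) = 0 := by linear_combination hxy' - x * y * h20 + y * y * h20 - 0 * h20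
    exact sub_eq_zero.mp (mul_self_eq_zero.mp h3)
  obtain ⟨s, hs⟩ := (Finite.injective_iff_surjective.mp hinj) (Q a / Q w)
  have hs' : s * s = Q a / Q w := hs
  have h3 : Q (a + s • w) = 0 := by
    rw [Q_ad, Q_sm, polar_sm_r, polar_comm, hall a haA, pow_two, hs']
    field_simp
    linear_combination Q a * h20
  have h4 := hani _ (A.add_mem haA (A.smul_mem _ hw)) h3
  apply hind
  have e : a = (-s) • w := by
    rw [neg_smul]
    exact eq_neg_of_add_eq_zero_left h4
  rw [e]
  exact Submodule.smul_mem _ _ (Submodule.mem_span_singleton_self _)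

/-- two orthogonal anisotropic planes span a space with a totally singular plane. -/
theorem exists_ts_planes [Finite F] {A A' : Submodule F V} (hA2 : finrank F A = 2) (hA2' : finrank F A' = 2)
    (hani : ∀ a ∈ A, Q a = 0 → a = 0) (hani' : ∀ a ∈ A', Q a = 0 → a = 0) (hd : A ⊓ A' = ⊥)
    (horth : ∀ a ∈ A, ∀ a' ∈ A', polar Q a a' = 0) :
    ∃ T : Submodule F V, T ≤ A ⊔ A' ∧ (∀ t ∈ T, Q t = 0) ∧ finrank F T = 2 := by
  classical
  have : Fintype F := Fintype.ofFinite F
  obtain ⟨x, y, ζ, hx, hy, hQx, hxy, hQy, hli, hζ⟩ := exists_plane (Q := Q) hA2 hani (fun w hw h => ani_nd hA2 hani w hw h)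
  have hani'' : ∀ a ∈ A', (-Q) a = 0 → a = 0 := by
    intro a ha h
    apply hani' a ha
    simpa using h
  have hpolneg : ∀ a b : V, polar (-Q) a b = -polar Q a b := by
    intro a b
    simp only [polar, QuadraticMap.neg_apply]
    ring
  obtain ⟨x', y', ζ', hx', hy', hQx', hxy', hQy', hli', hζ'⟩ := exists_plane (Q := -Q) hA2' hani''
    (fun w hw h => ani_nd hA2' hani' w hw fun u hu => by
      have := h u hu
      rw [hpolneg] at this
      simpa using this)
  obtain ⟨α, β, hαβ, hval⟩ := zeta_match hζ hζ'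
  obtain ⟨z', hz'⟩ : ∃ z', z' = α • x' + β • y' := ⟨_, rfl⟩
  have hz'm : z' ∈ A' := hz' ▸ A'.add_mem (A'.smul_mem _ hx') (A'.smul_mem _ hy')
  have hQx'' : Q x' = -1 := by
    have : (-Q) x' = 1 := hQx'
    simp only [QuadraticMap.neg_apply] at this
    linear_combination -this
  have hQy'' : Q y' = -ζ' := by
    have : (-Q) y' = ζ' := hQy'
    simp only [QuadraticMap.neg_apply] at this
    linear_combination -this
  have hxy'' : polar Q x' y' = -1 := by
    have := hpolneg x' y'
    rw [hxy'] at this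
    linear_combination this
  have hpoly : polar Q x' x' = -2 := by
    rw [polar_self_eq, hQx'']
    ring
  have hQz : Q z' = -ζ := by
    rw [hz', Q_ad, Q_sm, Q_sm, polar_sm_l, polar_sm_r, hxy'', hQx'', hQy'']
    linear_combination -hval
  have hxz : polar Q x' z' = -1 := by
    rw [hz', polar_add_right, polar_sm_r, polar_sm_r, hxy'', hpoly]
    linear_combination -hαβ
  set p := x + x' with hp
  set r := y + z' with hr
  have hQp : Q p = 0 := by
    rw [hp, Q_ad, hQx, hQx'', horth x hx x' hx']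
    ring
  have hQr : Q r = 0 := by
    rw [hr, Q_ad, hQy, hQz, horth y hy z' hz'm]
    ring
  have hpr : polar Q p r = 0 := by
    rw [hp, hr, polar_add_left, polar_add_right, polar_add_right, hxy, hxz, horth x hx z' hz'm,
      polar_comm Q x' y, horth y hy x' hx']
    ring
  refine ⟨Submodule.span F {p, r}, ?_, ?_, ?_⟩
  · rw [Submodule.span_le]
    rintro _ (rfl | rfl)
    · exact Submodule.add_mem_sup hx hx'
    · exact Submodule.add_mem_sup hy hz'm
  · apply ts_span
    · rintro _ (rfl | rfl)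
      · exact hQp
      · exact hQr
    · rintro _ (rfl | rfl) _ (rfl | rfl)
      · rw [polar_self_eq, hQp, mul_zero]
      · exact hpr
      · rw [polar_comm]
        exact hpr
      · rw [polar_self_eq, hQr, mul_zero]
  · have hli2 : LinearIndependent F ![p, r] := by
      rw [LinearIndependent.pair_iff]
      intro s t hst
      have hsplit : (s • x + t • y) + (s • x' + t • z') = 0 := by
        rw [← hst, hp, hr]
        module
      have h1 : s • x + t • y ∈ A := A.add_mem (A.smul_mem _ hx) (A.smul_mem _ hy)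
      have h2 : s • x + t • y ∈ A' := by
        rw [eq_neg_of_add_eq_zero_left hsplit]
        exact A'.neg_mem (A'.add_mem (A'.smul_mem _ hx') (A'.smul_mem _ hz'm))
      have h3 : s • x + t • y ∈ A ⊓ A' := ⟨h1, h2⟩
      rw [hd] at h3
      have h4 : s • x + t • y = 0 := by simpa using h3
      exact (LinearIndependent.pair_iff.mp hli) s t h4
    have h5 := finrank_span_eq_card hli2
    simp only [Fintype.card_fin] at h5
    have e : Set.range ![p, r] = {p, r} := by
      ext z
      constructor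
      · rintro ⟨i, rfl⟩
        fin_cases i <;> simp
      · rintro (rfl | rfl)
        · exact ⟨0, rfl⟩
        · exact ⟨1, rfl⟩
    rwa [e] at h5

/-- minus and minus -/
theorem Minus.sup [Finite F] {W W' : Submodule F V} (h : Minus Q W) (h' : Minus Q W') (hd : W ⊓ W' = ⊥)
    (horth : ∀ w ∈ W, ∀ w' ∈ W', polar Q w w' = 0) : Plus Q (W ⊔ W') := by
  obtain ⟨A, U, hA, h1, hA2, hani, h2, h3, hUA⟩ := h
  obtain ⟨A', U', hA', h1', hA2', hani', h2', h3', hUA'⟩ := h'
  have hdU : U ⊓ U' = ⊥ := by
    rw [eq_bot_iff, ← hd]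
    exact inf_le_inf h1 h1'
  have hdA : A ⊓ A' = ⊥ := by
    rw [eq_bot_iff, ← hd]
    exact inf_le_inf hA hA'
  obtain ⟨T, hT, hTs, hT2⟩ := exists_ts_planes hA2 hA2' hani hani' hdA fun a ha a' ha' => horth a (hA ha) a' (hA' ha')
  have hU2 := ts_sup h2 h2' fun u hu u' hu' => horth u (h1 hu) u' (h1' hu')
  have hTU : ∀ t ∈ T, ∀ u ∈ U ⊔ U', polar Q t u = 0 := by
    intro t ht x hx
    obtain ⟨a, ha, a', ha', rfl⟩ := Submodule.mem_sup.mp (hT ht)
    obtain ⟨u, hu, u', hu', rfl⟩ := Submodule.mem_sup.mp hx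
    rw [polar_add_left, polar_add_right, polar_add_right, polar_comm Q a u, hUA u hu a ha, horth a (hA ha) u' (h1' hu'),
      polar_comm Q a' u, horth u (h1 hu) a' (hA' ha'), polar_comm Q a' u', hUA' u' hu' a' ha']
    ring
  have hdTU : T ⊓ (U ⊔ U') = ⊥ := by
    rw [eq_bot_iff]
    rintro t ⟨ht, hx⟩
    obtain ⟨a, ha, a', ha', hta⟩ := Submodule.mem_sup.mp (hT ht)
    obtain ⟨u, hu, u', hu', hxu⟩ := Submodule.mem_sup.mp hx
    have e : a - u = u' - a' := by
      have : a + a' = u + u' := by rw [hta, hxu]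
      linear_combination (norm := module) this
    have h4 : a - u ∈ W ⊓ W' := ⟨W.sub_mem (hA ha) (h1 hu), by rw [e]; exact W'.sub_mem (h1' hu') (hA' ha')⟩
    rw [hd] at h4
    have h5 : a - u = 0 := by simpa using h4
    have h6 : u' - a' = 0 := by rw [← e, h5]
    have ha0 : a = u := sub_eq_zero.mp h5
    have ha'0 : a' = u' := (sub_eq_zero.mp h6).symm
    have h7 : a = 0 := hani a ha (by rw [ha0]; exact h2 u hu)
    have h8 : a' = 0 := hani' a' ha' (by rw [ha'0]; exact h2' u' hu')
    rw [← hta, h7, h8, add_zero]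
    exact Submodule.zero_mem _
  refine ⟨T ⊔ (U ⊔ U'), sup_le (hT.trans (sup_le_sup hA hA')) (sup_le_sup h1 h1'), ts_sup hTs hU2 hTU, ?_⟩
  rw [finrank_sup_disj hdTU, finrank_sup_disj hdU, finrank_sup_disj hd, hT2]
  omega

end Sup

section Restr

variable [FiniteDimensional F V] [Fintype F]

theorem nd_restr {W : Submodule F V} (h : ∀ w ∈ W, w ≠ 0 → ∃ x ∈ W, polar Q w x ≠ 0) : ND (restr Q W) := by
  rintro ⟨x, hx⟩ hall
  by_contra hne
  have hx0 : x ≠ 0 := fun h0 => hne (Subtype.ext h0)
  obtain ⟨y, hy, hxy⟩ := h x hx hx0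
  exact hxy (hall ⟨y, hy⟩)

/-- type cases -/
theorem cases {W : Submodule F V} {a : ℕ} (hW : finrank F W = 2 * a) (hnd : ND (restr Q W)) : Plus Q W ∨ Minus Q W := by
  classical
  rcases std_cases hW (restr Q W) hnd with ⟨b, hb⟩ | ⟨k, hk, b, ζ, hb⟩
  · left
    obtain ⟨K, h1, h2⟩ := exists_ts_of_hyp hb
    refine ⟨K.map W.subtype, Submodule.map_subtype_le _ _, ?_, ?_⟩
    · rintro _ ⟨x, hx, rfl⟩
      exact h1 x hx
    · rw [Submodule.finrank_map_subtype_eq, h2, hW]
  · right
    obtain ⟨hζ, hh1, hh2, hh3, hh4, hx, hxy, hy⟩ := hb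
    set x : W := b (Sum.inr 0) with hxd
    set y : W := b (Sum.inr 1) with hyd
    have hQ' : ∀ z : W, restr Q W z = Q (z : V) := fun _ => rfl
    -- the anisotropic plane
    let A : Submodule F V := Submodule.span F {(x : V), (y : V)}
    let e : Fin k → V := fun i => (b (Sum.inl (Sum.inl i)) : V)
    let U : Submodule F V := Submodule.span F (Set.range e)
    have hxW : (x : V) ∈ W := x.2
    have hyW : (y : V) ∈ W := y.2
    have hAW : A ≤ W := by
      rw [Submodule.span_le]
      rintro _ (rfl | rfl)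
      · exact hxW
      · exact hyW
    have hUW : U ≤ W := by
      rw [Submodule.span_le]
      rintro _ ⟨i, rfl⟩
      exact (b _).2
    have hval : ∀ s t : F, Q (s • (x : V) + t • (y : V)) = s ^ 2 + 1 * s * t + ζ * t ^ 2 := by
      intro s t
      have h1 : polar Q (x : V) (y : V) = 1 := hxy
      have h2 : Q (x : V) = 1 := hx
      have h3 : Q (y : V) = ζ := hy
      rw [Q_ad, Q_sm, Q_sm, polar_sm_l, polar_sm_r, h1, h2, h3]
      ring
    have hli : ∀ s t : F, s • (x : V) + t • (y : V) = 0 → s = 0 ∧ t = 0 := by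
      intro s t h
      have h1 := hval s t
      rw [h, map_zero] at h1
      exact ani_of_zeta hζ s t h1.symm
    refine ⟨A, U, hAW, hUW, ?_, ?_, ?_, ?_, ?_⟩
    · have hli2 : LinearIndependent F ![(x : V), (y : V)] := by
        rw [LinearIndependent.pair_iff]
        exact hli
      have h5 := finrank_span_eq_card hli2
      simp only [Fintype.card_fin] at h5
      have e' : Set.range ![(x : V), (y : V)] = {(x : V), (y : V)} := by
        ext z
        constructor
        · rintro ⟨i, rfl⟩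
          fin_cases i <;> simp
        · rintro (rfl | rfl)
          · exact ⟨0, rfl⟩
          · exact ⟨1, rfl⟩
      rwa [e'] at h5
    · intro a ha h0
      obtain ⟨s, t, rfl⟩ := Submodule.mem_span_pair.mp ha
      rw [hval] at h0
      obtain ⟨h1, h2⟩ := ani_of_zeta hζ s t h0
      rw [h1, h2]
      simp
    · apply ts_span
      · rintro _ ⟨i, rfl⟩
        exact (hh1 i).1
      · rintro _ ⟨i, rfl⟩ _ ⟨j, rfl⟩
        exact (hh3 i j).1
    · have hli3 : LinearIndependent F e := by
        have h1 : LinearIndependent F (fun i : Fin k => b (Sum.inl (Sum.inl i))) :=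
          b.linearIndependent.comp _ (fun i j h => by simpa using h)
        exact h1.map' W.subtype (Submodule.ker_subtype W)
      have h5 := finrank_span_eq_card hli3
      simp only [Fintype.card_fin] at h5
      show 2 * finrank F (Submodule.span F (Set.range e)) + 2 = finrank F W
      rw [h5, hW, hk]
      ring
    · apply polar_span
      rintro _ ⟨i, rfl⟩ _ (rfl | rfl)
      · exact (hh4 i 0).1
      · exact (hh4 i 1).1

/-- bound on totally singular subspaces in minus type spaces -/
theorem Minus.ts_le {W : Submodule F V} (h : Minus Q W) (hnd : ND (restr Q W)) {K : Submodule F V} (hKW : K ≤ W)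
    (hK : ∀ k ∈ K, Q k = 0) : 2 * finrank F K + 2 ≤ finrank F W := by
  classical
  obtain ⟨A, U, hA, h1, hA2, hani, h2, h3, hUA⟩ := h
  have eA : finrank F (A.comap W.subtype) = finrank F A := by
    rw [← Submodule.finrank_map_subtype_eq W (A.comap W.subtype), Submodule.map_comap_subtype, inf_eq_right.mpr hA]
  have eU : finrank F (U.comap W.subtype) = finrank F U := by
    rw [← Submodule.finrank_map_subtype_eq W (U.comap W.subtype), Submodule.map_comap_subtype, inf_eq_right.mpr h1]
  have eK : finrank F (K.comap W.subtype) = finrank F K := by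
    rw [← Submodule.finrank_map_subtype_eq W (K.comap W.subtype), Submodule.map_comap_subtype, inf_eq_right.mpr hKW]
  have hV : finrank F W = 2 * finrank F U + 2 := h3.symm
  have := finrank_le_of_witness (m := finrank F U) (Q := restr Q W) hnd hV (A.comap W.subtype) (U.comap W.subtype)
    (fun v hv h0 => Subtype.ext (hani _ hv h0)) (by rw [eA, hA2]) (fun v hv => h2 _ hv) eU
    (fun u hu a ha => hUA _ hu _ ha) (K.comap W.subtype) (fun v hv => hK _ hv)
  rw [eK] at this
  omega

theorem Minus.not_plus {W : Submodule F V} (h : Minus Q W) (hnd : ND (restr Q W)) : ¬ Plus Q W := by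
  rintro ⟨U, h1, h2, h3⟩
  have := h.ts_le hnd h1 h2
  omega

/-- isometries preserve types -/
theorem Plus.of_iso {V' : Type*} [AddCommGroup V'] [Module F V'] {Q' : QuadraticForm F V'} {W : Submodule F V} {W' : Submodule F V'}
    (h : Plus Q W) (e : W ≃ₗ[F] W') (he : ∀ w : W, Q' (e w : V') = Q (w : V)) : Plus Q' W' := by
  classical
  obtain ⟨U, h1, h2, h3⟩ := h
  refine ⟨((U.comap W.subtype).map e.toLinearMap).map W'.subtype, Submodule.map_subtype_le _ _, ?_, ?_⟩
  · rintro _ ⟨_, ⟨x, hx, rfl⟩, rfl⟩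
    show Q' (e x : V') = 0
    rw [he]
    exact h2 _ hx
  · rw [Submodule.finrank_map_subtype_eq, LinearEquiv.finrank_map_eq, ← LinearEquiv.finrank_eq e]
    rw [← h3, ← Submodule.finrank_map_subtype_eq W (U.comap W.subtype), Submodule.map_comap_subtype, inf_eq_right.mpr h1]

theorem Minus.of_iso {V' : Type*} [AddCommGroup V'] [Module F V'] {Q' : QuadraticForm F V'} {W : Submodule F V} {W' : Submodule F V'}
    (h : Minus Q W) (e : W ≃ₗ[F] W') (he : ∀ w : W, Q' (e w : V') = Q (w : V)) (hpol : ∀ a b : W, polar Q' (e a : V') (e b : V') = polar Q (a : V) (b : V)) :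
    Minus Q' W' := by
  classical
  obtain ⟨A, U, hA, h1, hA2, hani, h2, h3, hUA⟩ := h
  have hfr : ∀ {S : Submodule F V}, S ≤ W → finrank F (((S.comap W.subtype).map e.toLinearMap).map W'.subtype) = finrank F S := by
    intro S hS
    rw [Submodule.finrank_map_subtype_eq, LinearEquiv.finrank_map_eq, ← Submodule.finrank_map_subtype_eq W (S.comap W.subtype),
      Submodule.map_comap_subtype, inf_eq_right.mpr hS]
  refine ⟨((A.comap W.subtype).map e.toLinearMap).map W'.subtype, ((U.comap W.subtype).map e.toLinearMap).map W'.subtype,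
    Submodule.map_subtype_le _ _, Submodule.map_subtype_le _ _, ?_, ?_, ?_, ?_, ?_⟩
  · rw [hfr hA, hA2]
  · rintro _ ⟨_, ⟨x, hx, rfl⟩, rfl⟩ h0
    have h0' : Q' (e x : V') = 0 := h0
    rw [he] at h0'
    have h5 := hani _ hx h0'
    have h6 : x = 0 := Subtype.ext h5
    subst h6
    simp
  · rintro _ ⟨_, ⟨x, hx, rfl⟩, rfl⟩
    show Q' (e x : V') = 0
    rw [he]
    exact h2 _ hx
  · rw [hfr h1, h3, LinearEquiv.finrank_eq e]
  · rintro _ ⟨_, ⟨x, hx, rfl⟩, rfl⟩ _ ⟨_, ⟨y, hy, rfl⟩, rfl⟩
    show polar Q' (e x : V') (e y : V') = 0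
    rw [hpol]
    exact hUA _ hx _ hy

theorem polar_of_iso {V' : Type*} [AddCommGroup V'] [Module F V'] {Q' : QuadraticForm F V'} {W : Submodule F V} {W' : Submodule F V'}
    (e : W ≃ₗ[F] W') (he : ∀ w : W, Q' (e w : V') = Q (w : V)) (a b : W) : polar Q' (e a : V') (e b : V') = polar Q (a : V) (b : V) := by
  have h1 := he (a + b)
  have h2 := he a
  have h3 := he b
  simp only [map_add, Submodule.coe_add] at h1
  rw [polar, polar, h1, h2, h3]

/-- spaces of the same type are isometric -/
theorem Plus.iso {W W' : Submodule F V} {a : ℕ} (h : Plus Q W) (h' : Plus Q W') (hW : finrank F W = 2 * a)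
    (hW' : finrank F W' = 2 * a) (hnd : ND (restr Q W)) (hnd' : ND (restr Q W')) :
    ∃ e : W ≃ₗ[F] W', ∀ w : W, Q (e w : V) = Q (w : V) := by
  classical
  have mk : ∀ {X : Submodule F V}, Plus Q X → finrank F X = 2 * a → ND (restr Q X) → ∃ b : Basis (Fin a ⊕ Fin a) F X, IsHypBasis (restr Q X) b := by
    intro X hX hd hn
    obtain ⟨U, h1, h2, h3⟩ := hX
    refine hyp_of_ts hd hn (U.comap X.subtype) (fun v hv => h2 _ hv) ?_
    rw [← Submodule.finrank_map_subtype_eq X (U.comap X.subtype), Submodule.map_comap_subtype, inf_eq_right.mpr h1]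
    omega
  obtain ⟨b, hb⟩ := mk h hW hnd
  obtain ⟨b', hb'⟩ := mk h' hW' hnd'
  obtain ⟨e, he⟩ := isometry_of_hyp hb hb'
  exact ⟨e, he⟩

theorem Minus.iso {W W' : Submodule F V} {k : ℕ} (h : Minus Q W) (h' : Minus Q W') (hW : finrank F W = 2 * (k + 1))
    (hW' : finrank F W' = 2 * (k + 1)) (hnd : ND (restr Q W)) (hnd' : ND (restr Q W')) :
    ∃ e : W ≃ₗ[F] W', ∀ w : W, Q (e w : V) = Q (w : V) := by
  classical
  have mk : ∀ {X : Submodule F V}, Minus Q X → finrank F X = 2 * (k + 1) → ND (restr Q X) →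
      ∃ (b : Basis ((Fin k ⊕ Fin k) ⊕ Fin 2) F X) (ζ : F), IsMinusBasis (restr Q X) b ζ := by
    intro X hX hd hn
    refine minus_of_no_ts hd hn fun K hK hKd => ?_
    have h1 := hX.ts_le hn (K := K.map X.subtype) (Submodule.map_subtype_le _ _) (by
      rintro _ ⟨x, hx, rfl⟩
      exact hK x hx)
    rw [Submodule.finrank_map_subtype_eq, hKd, hd] at h1
    omega
  obtain ⟨b, ζ, hb⟩ := mk h hW hnd
  obtain ⟨b', ζ', hb'⟩ := mk h' hW' hnd'
  obtain ⟨e, he⟩ := isometry_of_minus hnd hb hb'
  exact ⟨e, he⟩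

end Restr

end Cfsg.Agent.H97.Ty
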