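import Cfsg.Agent.Lib.H97L2
import Cfsg.Agent.Lib.H97L3

/-!
Types of orthogonal sums of isometric spaces.
-/

set_option autoImplicit false
set_option linter.unusedSectionVars false
set_option linter.unusedSimpArgs false
set_option linter.unusedVariables false

universe u v

namespace Cfsg.Agent.H97.Ty

open Module QuadraticMap Cfsg.Agent.Lib.QuadFF Cfsg.Agent.Lib.QuadClass Cfsg.Agent.Lib.QuadClass2
open Cfsg Cfsg.Geo

variable {F : Type u} [Field F] {V : Type v} [AddCommGroup V] [Module F V] {Q : QuadraticForm F V}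

section Chain

variable {t : ℕ} {D : Fin t → Submodule F V}

/-- the partial sums -/
def WW (D : Fin t → Submodule F V) (k : ℕ) : Submodule F V := ⨆ i ∈ {i : Fin t | i.val < k}, D i

theorem WW_zero : WW D 0 = ⊥ := by
  simp [WW]

theorem WW_succ {k : ℕ} (hk : k < t) : WW D (k + 1) = WW D k ⊔ D ⟨k, hk⟩ := by
  apply le_antisymm
  · refine iSup₂_le fun i hi => ?_
    by_cases h : i.val < k
    · exact le_sup_of_le_left (le_iSup₂_of_le i h le_rfl)
    · have : i = ⟨k, hk⟩ := Fin.ext (by
        have hi' : i.val < k + 1 := hi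
        show i.val = k
        omega)
      rw [this]
      exact le_sup_right
  · refine sup_le (iSup₂_le fun i hi => ?_) ?_
    · have hi' : i.val < k := hi
      exact le_iSup₂_of_le i (show i.val < k + 1 by omega) le_rfl
    · exact le_iSup₂_of_le (⟨k, hk⟩ : Fin t) (show k < k + 1 by omega) le_rfl

theorem WW_top : WW D t = ⨆ i, D i := by
  apply le_antisymm
  · exact iSup₂_le fun i _ => le_iSup D i
  · exact iSup_le fun i => le_iSup₂_of_le i i.2 le_rfl

theorem WW_disj (hind : iSupIndep D) {k : ℕ} (hk : k < t) : WW D k ⊓ D ⟨k, hk⟩ = ⊥ := by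
  have h1 := hind.disjoint_biSup (x := (⟨k, hk⟩ : Fin t)) (y := {i : Fin t | i.val < k}) (by
    show ¬ (k < k)
    omega)
  exact (disjoint_comm.mp h1).eq_bot

theorem WW_orth (horth : ∀ i j, i ≠ j → ∀ x ∈ D i, ∀ y ∈ D j, polar Q x y = 0) {k l : ℕ} (hk : k ≤ l) (hl : l < t) :
    ∀ x ∈ WW D k, ∀ y ∈ D ⟨l, hl⟩, polar Q x y = 0 := by
  intro x hx y hy
  let O : Submodule F V :=
    { carrier := {x | polar Q x y = 0}
      add_mem' := fun {a b} ha hb => by
        simp only [Set.mem_setOf_eq] at ha hb ⊢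
        rw [polar_add_left, ha, hb, add_zero]
      zero_mem' := polar_zero_left Q y
      smul_mem' := fun c a ha => by
        simp only [Set.mem_setOf_eq] at ha ⊢
        rw [polar_sm_l, ha, mul_zero] }
  have hle : WW D k ≤ O := by
    refine iSup₂_le fun i hi => ?_
    intro z hz
    have hi' : i.val < k := hi
    exact horth i ⟨l, hl⟩ (fun h => by
      have := congrArg Fin.val h
      simp at this
      omega) z hz y hy
  exact hle hx

theorem Plus.bot : Plus Q (⊥ : Submodule F V) := ⟨⊥, le_rfl, fun u hu => by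
  rw [(Submodule.mem_bot F).mp hu]
  exact map_zero Q, by simp⟩

variable [FiniteDimensional F V] [Finite F]

theorem chain_plus (hind : iSupIndep D) (horth : ∀ i j, i ≠ j → ∀ x ∈ D i, ∀ y ∈ D j, polar Q x y = 0)
    (hP : ∀ i, Plus Q (D i)) : ∀ k, k ≤ t → Plus Q (WW D k) := by
  intro k
  induction k with
  | zero =>
    intro _
    rw [WW_zero]
    exact Plus.bot
  | succ k ih =>
    intro hk
    have hk' : k < t := by omega
    rw [WW_succ hk']
    exact (ih (by omega)).sup (hP _) (WW_disj hind hk') (WW_orth horth le_rfl hk')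

theorem chain_minus (hind : iSupIndep D) (horth : ∀ i j, i ≠ j → ∀ x ∈ D i, ∀ y ∈ D j, polar Q x y = 0)
    (hM : ∀ i, Minus Q (D i)) : ∀ k, k ≤ t → (Even k → Plus Q (WW D k)) ∧ (Odd k → Minus Q (WW D k)) := by
  intro k
  induction k with
  | zero =>
    intro _
    rw [WW_zero]
    exact ⟨fun _ => Plus.bot, fun h => absurd h (by decide)⟩
  | succ k ih =>
    intro hk
    have hk' : k < t := by omega
    obtain ⟨h1, h2⟩ := ih (by omega)
    rw [WW_succ hk']
    constructor
    · intro he
      have hodd : Odd k := by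
        rcases Nat.even_or_odd k with h | h
        · exact absurd he (by
            rw [Nat.even_add_one]
            exact not_not.mpr h)
        · exact h
      exact (h2 hodd).sup (hM _) (WW_disj hind hk') (WW_orth horth le_rfl hk')
    · intro ho
      have hev : Even k := by
        rcases Nat.even_or_odd k with h | h
        · exact h
        · exact absurd ho (by
            rw [Nat.odd_add_one]
            exact not_not.mpr h)
      exact (h1 hev).sup_minus (hM _) (WW_disj hind hk') (WW_orth horth le_rfl hk')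

end Chain

section SupIso

/-- the sum of disjoint subspaces as a product -/
noncomputable def sumEquiv {S T : Submodule F V} (h : S ⊓ T = ⊥) : (S × T) ≃ₗ[F] ↥(S ⊔ T) :=
  LinearEquiv.ofBijective
    { toFun := fun p => ⟨(p.1 : V) + p.2, Submodule.add_mem_sup p.1.2 p.2.2⟩
      map_add' := fun a b => by
        apply Subtype.ext
        simp only [Prod.fst_add, Prod.snd_add, Submodule.coe_add, AddSubmonoid.mk_add_mk]
        abel
      map_smul' := fun c a => by
        apply Subtype.ext
        simp only [Prod.smul_fst, Prod.smul_snd, Submodule.coe_smul, RingHom.id_apply, smul_add] }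
    (by
      constructor
      · rintro ⟨a, b⟩ ⟨a', b'⟩ hab
        have h1 : (a : V) + b = a' + b' := congrArg Subtype.val hab
        have h2 : (a : V) - a' = b' - b := by
          linear_combination (norm := module) h1
        have h3 : (a : V) - a' ∈ S ⊓ T := ⟨S.sub_mem a.2 a'.2, by rw [h2]; exact T.sub_mem b'.2 b.2⟩
        rw [h] at h3
        have h4 : (a : V) - a' = 0 := by simpa using h3
        have h5 : a = a' := Subtype.ext (sub_eq_zero.mp h4)
        have h6 : b = b' := by
          apply Subtype.ext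
          rw [h4] at h2
          exact (sub_eq_zero.mp h2.symm).symm
        rw [h5, h6]
      · rintro ⟨w, hw⟩
        obtain ⟨x, hx, y, hy, rfl⟩ := Submodule.mem_sup.mp hw
        exact ⟨(⟨x, hx⟩, ⟨y, hy⟩), rfl⟩)

theorem sumEquiv_apply {S T : Submodule F V} (h : S ⊓ T = ⊥) (p : S × T) :
    ((sumEquiv h p : ↥(S ⊔ T)) : V) = (p.1 : V) + p.2 := rfl

/-- sums of isometric pairs are isometric -/
theorem sup_iso {S T S' T' : Submodule F V} (h : S ⊓ T = ⊥) (h' : S' ⊓ T' = ⊥)
    (horth : ∀ x ∈ S, ∀ y ∈ T, polar Q x y = 0) (horth' : ∀ x ∈ S', ∀ y ∈ T', polar Q x y = 0)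
    {φ : S ≃ₗ[F] S'} {ψ : T ≃ₗ[F] T'} (hφ : ∀ w, Q (φ w : V) = Q (w : V)) (hψ : ∀ w, Q (ψ w : V) = Q (w : V)) :
    ∃ e : ↥(S ⊔ T) ≃ₗ[F] ↥(S' ⊔ T'), ∀ w, Q (e w : V) = Q (w : V) := by
  refine ⟨(sumEquiv h).symm.trans ((φ.prodCongr ψ).trans (sumEquiv h')), fun w => ?_⟩
  obtain ⟨p, rfl⟩ := (sumEquiv h).surjective w
  simp only [LinearEquiv.trans_apply, LinearEquiv.symm_apply_apply]
  rw [sumEquiv_apply, sumEquiv_apply]
  simp only [LinearEquiv.prodCongr_apply]
  rw [Q_ad, Q_ad, hφ, hψ, horth _ p.1.2 _ p.2.2, horth' _ (φ p.1).2 _ (ψ p.2).2]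

end SupIso

section Blocks

variable {ι : Type} [Fintype ι] [DecidableEq ι] [Fintype F] {Q : QuadraticForm F (ι → F)}

theorem nd_of_on {W : Submodule F (ι → F)} (h : IsNondegenerateOn (polar ⇑Q) W) : ND (restr Q W) :=
  nd_restr fun w hw hw0 => (h w hw hw0).2

theorem top_of_decomp {t k : ℕ} {D : Fin t → Submodule F (ι → F)} (hD : IsMDecomposition k D) : WW D t = ⊤ := by
  rw [WW_top]
  exact hD.iSup_eq_top

theorem orth_of_decomp {t k : ℕ} {D : Fin t → Submodule F (ι → F)} (hD : IsNondegenerateMDecomposition (polar ⇑Q) k D) :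
    ∀ i j, i ≠ j → ∀ x ∈ D i, ∀ y ∈ D j, polar Q x y = 0 := fun i j hij => hD.orthogonal i j hij

/-- an orthogonal sum of spaces of plus type is of plus type -/
theorem plus_of_all_plus {t k : ℕ} {D : Fin t → Submodule F (ι → F)} (hD : IsNondegenerateMDecomposition (polar ⇑Q) k D)
    (hP : ∀ i, Plus Q (D i)) : Plus Q ⊤ := by
  have := chain_plus hD.decomp.indep (orth_of_decomp hD) hP t le_rfl
  rwa [top_of_decomp hD.decomp] at this

theorem minus_of_all_minus {t k : ℕ} {D : Fin t → Submodule F (ι → F)} (hD : IsNondegenerateMDecomposition (polar ⇑Q) k D)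
    (hM : ∀ i, Minus Q (D i)) : (Even t → Plus Q ⊤) ∧ (Odd t → Minus Q ⊤) := by
  have := chain_minus hD.decomp.indep (orth_of_decomp hD) hM t le_rfl
  rwa [top_of_decomp hD.decomp] at this

/-- The isometric blocks of even dimension. -/
theorem blocks_even {t a : ℕ} {D : Fin t → Submodule F (ι → F)} (hD : IsOrthogonalMDecomposition ⇑Q (2 * a) D) :
    ((∀ i, Plus Q (D i)) ∧ Plus Q ⊤) ∨ ((∀ i, Minus Q (D i)) ∧ (Even t → Plus Q ⊤) ∧ (Odd t → Minus Q ⊤)) := by
  classical
  have ht := hD.decomp.decomp.two_le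
  let i₀ : Fin t := ⟨0, by omega⟩
  have hnd := nd_of_on (Q := Q) (hD.decomp.nondegenerate i₀)
  rcases cases (hD.decomp.decomp.finrank_eq i₀) hnd with h | h
  · left
    have hall : ∀ i, Plus Q (D i) := by
      intro i
      obtain ⟨e, he⟩ := hD.isometric i₀ i
      exact h.of_iso e he
    exact ⟨hall, plus_of_all_plus hD.decomp hall⟩
  · right
    have hall : ∀ i, Minus Q (D i) := by
      intro i
      obtain ⟨e, he⟩ := hD.isometric i₀ i
      exact h.of_iso e he (polar_of_iso e he)
    exact ⟨hall, minus_of_all_minus hD.decomp hall⟩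

/-- Four or more isometric blocks, in even number of pairs. -/
theorem blocks_pairs {t k s : ℕ} {D : Fin t → Submodule F (ι → F)} (hD : IsOrthogonalMDecomposition ⇑Q k D) (hts : t = 2 * s)
    (hs : Even s) : Plus Q ⊤ := by
  classical
  have hdec := hD.decomp
  have hind := hdec.decomp.indep
  have horth := orth_of_decomp hdec
  have ht := hdec.decomp.two_le
  have hspos : 0 < s := by omega
  have hdisj : ∀ i j : Fin t, i ≠ j → D i ⊓ D j = ⊥ := fun i j hij => (hind.pairwiseDisjoint hij).eq_bot
  -- the pairs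
  have hl : ∀ {j : ℕ}, j < s → 2 * j < t := fun {j} hj => by omega
  have hl' : ∀ {j : ℕ}, j < s → 2 * j + 1 < t := fun {j} hj => by omega
  let X : ∀ j, j < s → Submodule F (ι → F) := fun j hj => D ⟨2 * j, hl hj⟩ ⊔ D ⟨2 * j + 1, hl' hj⟩
  have hne : ∀ {j : ℕ} (hj : j < s), (⟨2 * j, hl hj⟩ : Fin t) ≠ ⟨2 * j + 1, hl' hj⟩ := fun {j} hj h => by
    have := congrArg Fin.val h
    simp at this
  have hiso : ∀ {j l : ℕ} (hj : j < s) (hl₀ : l < s), ∃ e : ↥(X j hj) ≃ₗ[F] ↥(X l hl₀), ∀ w, Q (e w : ι → F) = Q (w : ι → F) := by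
    intro j l hj hl₀
    obtain ⟨φ, hφ⟩ := hD.isometric ⟨2 * j, hl hj⟩ ⟨2 * l, hl hl₀⟩
    obtain ⟨ψ, hψ⟩ := hD.isometric ⟨2 * j + 1, hl' hj⟩ ⟨2 * l + 1, hl' hl₀⟩
    exact sup_iso (hdisj _ _ (hne hj)) (hdisj _ _ (hne hl₀)) (horth _ _ (hne hj)) (horth _ _ (hne hl₀)) hφ hψ
  -- non-degeneracy of the first pair
  have hnd : ND (restr Q (X 0 hspos)) := by
    apply nd_restr
    intro w hw hw0
    obtain ⟨a, ha, b, hb, rfl⟩ := Submodule.mem_sup.mp hw
    by_cases ha0 : a = 0
    · have hb0 : b ≠ 0 := by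
        intro h
        apply hw0
        rw [ha0, h, add_zero]
      obtain ⟨x, hx, hxb⟩ := (hdec.nondegenerate _ b hb hb0).2
      refine ⟨x, Submodule.mem_sup_right hx, ?_⟩
      rw [polar_add_left, ha0, polar_zero_left, zero_add]
      exact hxb
    · obtain ⟨x, hx, hxa⟩ := (hdec.nondegenerate _ a ha ha0).2
      refine ⟨x, Submodule.mem_sup_left hx, ?_⟩
      rw [polar_add_left, polar_comm Q b x, horth _ _ (hne hspos) x hx b hb, add_zero]
      exact hxa
  have hdim : finrank F ↥(X 0 hspos) = 2 * k := by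
    show finrank F ↥(D _ ⊔ D _) = 2 * k
    rw [finrank_sup_disj (hdisj _ _ (hne hspos)), hdec.decomp.finrank_eq, hdec.decomp.finrank_eq]
    ring
  -- the chain
  have hstep : ∀ {j : ℕ} (hj : j < s), WW D (2 * (j + 1)) = WW D (2 * j) ⊔ X j hj := by
    intro j hj
    have e : 2 * (j + 1) = (2 * j + 1) + 1 := by ring
    rw [e, WW_succ (hl' hj), WW_succ (hl hj), sup_assoc]
  have hdisj' : ∀ {j : ℕ} (hj : j < s), WW D (2 * j) ⊓ X j hj = ⊥ := by
    intro j hj
    rw [eq_bot_iff]
    rintro x ⟨hx, hxX⟩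
    obtain ⟨a, ha, b, hb, rfl⟩ := Submodule.mem_sup.mp hxX
    have h1 : a + b - a ∈ WW D (2 * j) ⊔ D ⟨2 * j, hl hj⟩ := Submodule.sub_mem _ (Submodule.mem_sup_left hx) (Submodule.mem_sup_right ha)
    rw [← WW_succ (hl hj)] at h1
    have h2 : b ∈ WW D (2 * j + 1) ⊓ D ⟨2 * j + 1, hl' hj⟩ := ⟨by simpa using h1, hb⟩
    rw [WW_disj hind (hl' hj)] at h2
    have hb0 : b = 0 := by simpa using h2
    rw [hb0, add_zero] at hx ⊢
    have h3 : a ∈ WW D (2 * j) ⊓ D ⟨2 * j, hl hj⟩ := ⟨hx, ha⟩
    rw [WW_disj hind (hl hj)] at h3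
    simpa using h3
  have horth' : ∀ {j : ℕ} (hj : j < s), ∀ x ∈ WW D (2 * j), ∀ y ∈ X j hj, polar Q x y = 0 := by
    intro j hj x hx y hy
    obtain ⟨a, ha, b, hb, rfl⟩ := Submodule.mem_sup.mp hy
    rw [polar_add_right, WW_orth horth (by omega) (hl hj) x hx a ha, WW_orth horth (by omega) (hl' hj) x hx b hb, add_zero]
  have htop : WW D (2 * s) = ⊤ := by
    rw [← hts]
    exact top_of_decomp hdec.decomp
  rcases cases hdim hnd with h | h
  · have hall : ∀ {j : ℕ} (hj : j < s), Plus Q (X j hj) := by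
      intro j hj
      obtain ⟨e, he⟩ := hiso hspos hj
      exact h.of_iso e he
    have key : ∀ j, j ≤ s → Plus Q (WW D (2 * j)) := by
      intro j
      induction j with
      | zero =>
        intro _
        rw [mul_zero, WW_zero]
        exact Plus.bot
      | succ j ih =>
        intro hj
        have hj' : j < s := by omega
        rw [hstep hj']
        exact (ih (by omega)).sup (hall hj') (hdisj' hj') (horth' hj')
    have := key s le_rfl
    rwa [htop] at this
  · have hall : ∀ {j : ℕ} (hj : j < s), Minus Q (X j hj) := by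
      intro j hj
      obtain ⟨e, he⟩ := hiso hspos hj
      exact h.of_iso e he (polar_of_iso e he)
    have key : ∀ j, j ≤ s → (Even j → Plus Q (WW D (2 * j))) ∧ (Odd j → Minus Q (WW D (2 * j))) := by
      intro j
      induction j with
      | zero =>
        intro _
        rw [mul_zero, WW_zero]
        exact ⟨fun _ => Plus.bot, fun h => absurd h (by decide)⟩
      | succ j ih =>
        intro hj
        have hj' : j < s := by omega
        obtain ⟨h1, h2⟩ := ih (by omega)
        rw [hstep hj']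
        constructor
        · intro he
          have hodd : Odd j := by
            rcases Nat.even_or_odd j with h | h
            · exact absurd he (by
                rw [Nat.even_add_one]
                exact not_not.mpr h)
            · exact h
          exact (h2 hodd).sup (hall hj') (hdisj' hj') (horth' hj')
        · intro ho
          have hev : Even j := by
            rcases Nat.even_or_odd j with h | h
            · exact h
            · exact absurd ho (by
                rw [Nat.odd_add_one]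
                exact not_not.mpr h)
          exact (h1 hev).sup_minus (hall hj') (hdisj' hj') (horth' hj')
    have := (key s le_rfl).1 hs
    rwa [htop] at this

end Blocks

end Cfsg.Agent.H97.Ty
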