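import Cfsg.Agent.Lib.H97L4
import Cfsg.Agent.Lib.H97H2

/-!
Subfield groups and reducible groups for isometries of quadratic forms in all characteristics.
-/

set_option autoImplicit false
set_option linter.unusedSectionVars false
set_option linter.unusedSimpArgs false
set_option linter.style.haveILetI false

namespace Cfsg.Agent.H97.Asch

open Matrix Cfsg Cfsg.Geo
open scoped MatrixGroups commutatorElement Kronecker

variable {ι : Type} [Fintype ι] [DecidableEq ι] {F : Type*} [Field F] {Q : (ι → F) → F} {K : Subgroup (GL ι F)}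

theorem ECtx.fctx (C : ECtx Q K) : FCtx (RingHom.id F) 1 (QuadraticMap.polar Q) where
  sesq := C.pS
  ndr v hv := C.nd hv
  ndl v hv := by
    obtain ⟨x, hx⟩ := C.nd hv
    exact ⟨x, by rwa [QuadraticMap.polar_comm]⟩
  invol _ := rfl
  herm u v := by
    rw [one_mul, RingHom.id_apply, QuadraticMap.polar_comm]

section Defect

variable [Fintype F]

/-- An additive semilinear function invariant under an irreducible group vanishes. -/
theorem defect_zero (hn : 2 ≤ Fintype.card ι) {P : Subgroup (GL ι F)} (hirr : Irr P) {D : (ι → F) → F}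
    (hadd : ∀ u v, D (u + v) = D u + D v) (hsm : ∀ (c : F) v, D (c • v) = c ^ 2 * D v)
    (hP : ∀ x ∈ P, ∀ v, D ((x : Matrix ι ι F) *ᵥ v) = D v) : ∀ v, D v = 0 := by
  classical
  by_cases h2 : (2 : F) = 0
  · have hD0 : D 0 = 0 := by
      have := hsm 0 0
      simpa using this
    let W : Submodule F (ι → F) :=
      { carrier := {v | D v = 0}
        add_mem' := by
          intro a b ha hb
          simp only [Set.mem_setOf_eq] at ha hb ⊢
          rw [hadd, ha, hb, add_zero]
        zero_mem' := hD0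
        smul_mem' := by
          intro c v hv
          simp only [Set.mem_setOf_eq] at hv ⊢
          rw [hsm, hv, mul_zero] }
    have hWs : Stable P W := by
      intro x hx v hv
      show D _ = 0
      rw [hP x hx]
      exact hv
    have hW : W = ⊤ := by
      rcases hirr W hWs with h0 | h1
      · exfalso
        have hW0 : ∀ v, D v = 0 → v = 0 := by
          intro v hv
          have : v ∈ W := hv
          rw [h0] at this
          simpa using this
        haveI : Nontrivial ι := Fintype.one_lt_card_iff_nontrivial.mp (by omega)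
        obtain ⟨i, j, hij⟩ := exists_pair_ne ι
        let a : ι → F := Pi.single i 1
        let b : ι → F := Pi.single j 1
        have ha : a ≠ 0 := by
          intro h
          have := congrFun h i
          simp [a] at this
        have hDa : D a ≠ 0 := fun h => ha (hW0 a h)
        obtain ⟨s, hs⟩ := exists_sq_of_even h2 (D b / D a)
        have h3 : D (s • a + b) = 0 := by
          rw [hadd, hsm, pow_two, hs]
          field_simp
          linear_combination (D b) * h2
        have h4 := hW0 _ h3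
        have h5 := congrFun h4 j
        simp [a, b, Pi.single_apply, hij.symm] at h5
      · exact h1
    intro v
    have hv : v ∈ W := hW ▸ Submodule.mem_top
    exact hv
  · intro v
    have h1 : D (v + v) = (2 : F) ^ 2 * D v := by
      have e : v + v = (2 : F) • v := by
        rw [two_smul]
      rw [e, hsm]
    rw [hadd] at h1
    have h3 : (2 : F) * D v = 0 := by linear_combination -h1
    exact (mul_eq_zero.mp h3).resolve_left h2

/-- a vector rational over every subfield on which the form does not vanish -/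
theorem ECtx.exists_rational_value [Nonempty ι] (C : ECtx Q K) (Y : GL ι F) :
    ∃ v : ι → F, (∀ (F₀ : Subfield F) (i : ι), v i ∈ F₀) ∧ Q ((Y : Matrix ι ι F) *ᵥ v) ≠ 0 := by
  classical
  by_contra hall
  push Not at hall
  have hr1 : ∀ (F₀ : Subfield F) (i k : ι), (Pi.single i (1 : F) : ι → F) k ∈ F₀ := by
    intro F₀ i k
    rw [Pi.single_apply]
    split_ifs
    · exact F₀.one_mem
    · exact F₀.zero_mem
  have hp : ∀ i j, QuadraticMap.polar Q ((Y : Matrix ι ι F) *ᵥ Pi.single i 1) ((Y : Matrix ι ι F) *ᵥ Pi.single j 1) = 0 := by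
    intro i j
    have h1 := hall (Pi.single i 1) (hr1 · i)
    have h2 := hall (Pi.single j 1) (hr1 · j)
    have h3 := hall (Pi.single i 1 + Pi.single j 1) (fun F₀ k => F₀.add_mem (hr1 F₀ i k) (hr1 F₀ j k))
    rw [Matrix.mulVec_add] at h3
    simp only [QuadraticMap.polar]
    rw [h1, h2, h3]
    ring
  have hS := C.pS
  have hp2 : ∀ x y, QuadraticMap.polar Q ((Y : Matrix ι ι F) *ᵥ x) ((Y : Matrix ι ι F) *ᵥ y) = 0 := by
    intro x y
    rw [gl_mulVec_eq_sum, gl_mulVec_eq_sum, hS.sum_left]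
    refine Finset.sum_eq_zero fun i _ => ?_
    rw [hS.sum_right]
    refine Finset.sum_eq_zero fun j _ => ?_
    rw [C.polar_smul_left, C.polar_smul_right, hp, mul_zero, mul_zero]
  obtain ⟨i⟩ := ‹Nonempty ι›
  have hv : (Pi.single i (1 : F) : ι → F) ≠ 0 := by
    intro h
    have := congrFun h i
    simp at this
  obtain ⟨x, hx⟩ := C.nd hv
  apply hx
  have e1 := gl_mulVec_inv Y x
  have e2 : (Pi.single i (1 : F) : ι → F) = (Y : Matrix ι ι F) *ᵥ (((Y⁻¹ : GL ι F) : Matrix ι ι F) *ᵥ Pi.single i 1) := (gl_mulVec_inv Y _).symm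
  rw [e2, ← e1]
  exact hp2 _ _

/-- The subfield branch. -/
theorem ECtx.subfield_branch (C : ECtx Q K) (hn : 5 ≤ Fintype.card ι)
    {H P : Subgroup (GL ι F)} (hHK : H ≤ K) (hPH : P ≤ H) (hnorm : ∀ h ∈ H, ∀ x ∈ P, h * x * h⁻¹ ∈ P) (hirr : Irr P)
    (habs : ∀ M : Matrix ι ι F, (∀ g ∈ P, M * (g : Matrix ι ι F) = (g : Matrix ι ι F) * M) → ∃ c : F, M = c • 1)
    {F₀ : Subfield F} (hF₀ : F₀ ≠ ⊤) {B : GL ι F}
    (hreal : ∀ s ∈ P, ∀ i j, ((B : Matrix ι ι F) * (s : Matrix ι ι F) * ((B⁻¹ : GL ι F) : Matrix ι ι F)) i j ∈ F₀) :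
    ∃ (F₁ : Subfield F) (r : ℕ) (P' : GL ι F) (ζ : F), r.Prime ∧ Fintype.card F = Nat.card F₁ ^ r ∧ ζ ≠ 0 ∧
      IsQuadFormRationalStructure (fun v : ι → F => ζ * Q v) F₁ P' ∧ H ≤ subfieldSubgroup F₁ P' := by
  classical
  have hne : Nonempty ι := Fintype.card_pos_iff.mp (by omega)
  have hS := C.pS
  have hfixQ : ∀ g ∈ P, ∀ v, Q ((g : Matrix ι ι F) *ᵥ v) = Q v := fun g hg => C.fix g (hHK (hPH hg))
  have hfixP : ∀ g ∈ P, ∀ u v, QuadraticMap.polar Q ((g : Matrix ι ι F) *ᵥ u) ((g : Matrix ι ι F) *ᵥ v) = QuadraticMap.polar Q u v :=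
    fun g hg u v => fixes_polar (hfixQ g hg) u v
  obtain ⟨F₁, r, hr, hle, hcard⟩ := exists_prime_index_subfield hF₀
  have hcard' : Fintype.card F = Nat.card F₁ ^ r := by
    rw [← Nat.card_eq_fintype_card]
    exact hcard
  have hreal₁ : ∀ s ∈ P, ∀ i j, ((B : Matrix ι ι F) * (s : Matrix ι ι F) * ((B⁻¹ : GL ι F) : Matrix ι ι F)) i j ∈ F₁ :=
    fun s hs i j => hle (hreal s hs i j)
  -- the Galois twist
  obtain ⟨τ, hτp, hτ⟩ := exists_ringEquiv_fixed F₁
  set Y : GL ι F := B⁻¹ with hY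
  let T : (ι → F) → (ι → F) := fun u => (Y : Matrix ι ι F) *ᵥ svec τ ((B : Matrix ι ι F) *ᵥ u)
  have hTadd : ∀ u v, T (u + v) = T u + T v := by
    intro u v
    simp only [T]
    rw [Matrix.mulVec_add, svec_add, Matrix.mulVec_add]
  have hTsm : ∀ (c : F) u, T (c • u) = τ c • T u := by
    intro c u
    simp only [T]
    rw [Matrix.mulVec_smul, svec_smul, Matrix.mulVec_smul]
  let g : (ι → F) → (ι → F) → F := fun u v => τ.symm (QuadraticMap.polar Q (T u) (T v))
  have hg : Sesq (RingHom.id F) g :=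
    ⟨fun x y v => by
      simp only [g]
      rw [hTadd, hS.add_left, map_add],
     fun c x v => by
      simp only [g]
      rw [hTsm, hS.smul_left, map_mul, τ.symm_apply_apply],
     fun v x y => by
      simp only [g]
      rw [hTadd, hS.add_right, map_add],
     fun c v x => by
      simp only [g]
      rw [hTsm, hS.smul_right, map_mul]
      simp⟩
  have hsv : ∀ s ∈ P, ∀ w : ι → F, svec τ (((B * s * Y : GL ι F) : Matrix ι ι F) *ᵥ w) =
      ((B * s * Y : GL ι F) : Matrix ι ι F) *ᵥ svec τ w := by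
    intro s hs w
    ext k
    simp only [svec_apply, Matrix.mulVec, dotProduct, map_sum, map_mul]
    refine Finset.sum_congr rfl fun l _ => ?_
    have hr' : ((B * s * Y : GL ι F) : Matrix ι ι F) k l ∈ F₁ := hreal₁ s hs k l
    rw [(hτ _).mpr hr']
  have hTs : ∀ s ∈ P, ∀ u, T ((s : Matrix ι ι F) *ᵥ u) = (s : Matrix ι ι F) *ᵥ T u := by
    intro s hs u
    simp only [T]
    have e1 : ∀ w : ι → F, (B : Matrix ι ι F) *ᵥ ((s : Matrix ι ι F) *ᵥ w) =
        ((B * s * Y : GL ι F) : Matrix ι ι F) *ᵥ ((B : Matrix ι ι F) *ᵥ w) := by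
      intro w
      rw [gl_mulVec_mul, gl_mulVec_mul, hY, gl_inv_mulVec]
    have e2 : ∀ w : ι → F, (Y : Matrix ι ι F) *ᵥ (((B * s * Y : GL ι F) : Matrix ι ι F) *ᵥ w) =
        (s : Matrix ι ι F) *ᵥ ((Y : Matrix ι ι F) *ᵥ w) := by
      intro w
      rw [gl_mulVec_mul, gl_mulVec_mul, hY, gl_inv_mulVec]
    rw [e1, hsv s hs, e2]
  have hginv : ∀ s ∈ P, ∀ u v, g ((s : Matrix ι ι F) *ᵥ u) ((s : Matrix ι ι F) *ᵥ v) = g u v := by
    intro s hs u v
    simp only [g]
    rw [hTs s hs, hTs s hs, hfixP s hs]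
  obtain ⟨c, hc⟩ := form_schur habs hS hg (fun v hv => C.nd hv) hfixP hginv
  -- the form itself
  let Q' : (ι → F) → F := fun v => τ.symm (Q (T v))
  have hQ'add : ∀ u v, Q' (u + v) = Q' u + Q' v + g u v := by
    intro u v
    simp only [Q', g]
    rw [hTadd, Q_add' Q, map_add, map_add]
  let D : (ι → F) → F := fun v => Q' v - c * Q v
  have hDadd : ∀ u v, D (u + v) = D u + D v := by
    intro u v
    simp only [D]
    rw [hQ'add, hc, Q_add' Q]
    ring
  have hDsm : ∀ (a : F) v, D (a • v) = a ^ 2 * D v := by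
    intro a v
    simp only [D, Q']
    rw [hTsm, C.Q_smul, C.Q_smul, map_mul, map_pow, τ.symm_apply_apply]
    ring
  have hDP : ∀ x ∈ P, ∀ v, D ((x : Matrix ι ι F) *ᵥ v) = D v := by
    intro x hx v
    simp only [D, Q']
    rw [hTs x hx, hfixQ x hx, hfixQ x hx]
  have hD0 := defect_zero (by omega) hirr hDadd hDsm hDP
  have hQ'c : ∀ v, Q' v = c * Q v := fun v => sub_eq_zero.mp (hD0 v)
  have hR : ∀ u : ι → F, (∀ i, u i ∈ F₁) → τ.symm (Q ((Y : Matrix ι ι F) *ᵥ u)) = c * Q ((Y : Matrix ι ι F) *ᵥ u) := by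
    intro u hu
    have h1 := hQ'c ((Y : Matrix ι ι F) *ᵥ u)
    have e3 : (B : Matrix ι ι F) *ᵥ ((Y : Matrix ι ι F) *ᵥ u) = u := by
      rw [hY]
      exact gl_mulVec_inv B u
    have e4 : svec τ u = u := by
      ext i
      exact (hτ _).mpr (hu i)
    simp only [Q', T] at h1
    rw [e3, e4] at h1
    exact h1
  obtain ⟨v₁, hv₁r, hv₁⟩ := C.exists_rational_value Y
  set a := Q ((Y : Matrix ι ι F) *ᵥ v₁) with ha
  have hRa : τ.symm a = c * a := hR v₁ (hv₁r F₁)
  have hτa : τ.symm a ≠ 0 := (map_ne_zero τ.symm).mpr hv₁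
  have hc0 : c ≠ 0 := by
    rintro rfl
    rw [zero_mul] at hRa
    exact hτa hRa
  refine ⟨F₁, r, Y, a⁻¹, hr, hcard', inv_ne_zero hv₁, ?_, ?_⟩
  · intro u hu
    show a⁻¹ * Q ((Y : Matrix ι ι F) *ᵥ u) ∈ F₁
    rw [← hτ]
    have hfixed : τ.symm (a⁻¹ * Q ((Y : Matrix ι ι F) *ᵥ u)) = a⁻¹ * Q ((Y : Matrix ι ι F) *ᵥ u) := by
      rw [map_mul, map_inv₀, hRa, hR u hu]
      field_simp
    conv_lhs => rw [← hfixed]
    exact τ.apply_symm_apply _
  · intro h hh
    exact mem_subfieldSubgroup_of_normalize habs hreal₁ (hnorm h hh)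

end Defect

end Cfsg.Agent.H97.Asch
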