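import Cfsg.Agent.Lib.H97L5
import Cfsg.Agent.Lib.H97H9

/-!
The reduction theorem for isometries of a quadratic form in even dimension: the conclusion; reducible groups, decompositions,
fields, almost simple groups.
-/

set_option autoImplicit false
set_option linter.unusedSectionVars false
set_option linter.unusedSimpArgs false
set_option linter.style.haveILetI false

namespace Cfsg.Agent.H97.Asch

open Matrix Cfsg Cfsg.Geo
open scoped MatrixGroups commutatorElement Kronecker

variable {ι : Type} [Fintype ι] [DecidableEq ι] {F : Type*} [Field F] {Q : (ι → F) → F} {K : Subgroup (GL ι F)}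

/-- The conclusion of the reduction theorem in even dimension. -/
def EvenOutcome [Fintype F] (Q : (ι → F) → F) (H : Subgroup (GL ι F)) : Prop :=
  (∃ W : Submodule F (ι → F), W ≠ ⊥ ∧ IsTotallySingularQuad Q W ∧ H ≤ subspaceStabilizer W) ∨
  (∃ W : Submodule F (ι → F), W ≠ ⊥ ∧ W ≠ ⊤ ∧ IsNondegenerateOn (QuadraticMap.polar Q) W ∧ H ≤ subspaceStabilizer W) ∨
  (¬ Odd (Fintype.card F) ∧ ∃ v : ι → F, Q v ≠ 0 ∧ H ≤ subspaceStabilizer (Submodule.span F {v})) ∨
  (∃ (t k : ℕ) (D : Fin t → Submodule F (ι → F)), IsOrthogonalMDecomposition Q k D ∧ H ≤ decompositionStabilizer D) ∨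
  (∃ (k : ℕ) (D : Fin 2 → Submodule F (ι → F)), IsMDecomposition k D ∧ (∀ i, IsTotallySingularQuad Q (D i)) ∧
      H ≤ decompositionStabilizer D) ∨
  (∃ (ℓ : ℕ) (K' : Subalgebra F (Matrix ι ι F)), ℓ.Prime ∧ IsFieldSubalgebra ℓ K' ∧
      IsAdjointClosedFor (QuadraticMap.polar Q) K' ∧ H ≤ subalgebraNormalizer K' ∧
      (ℓ = 2 ∨ ∃ g ∈ H, g ∉ scalars ι F ∧ ∀ k ∈ K', (g : Matrix ι ι F) * k = k * g)) ∨
  (∃ (d m : ℕ) (e : ι ≃ Fin d × Fin m) (P : GL ι F) (f₁ : (Fin d → F) → (Fin d → F) → F) (f₂ : (Fin m → F) → (Fin m → F) → F),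
      2 ≤ d ∧ d ≤ m ∧ IsSymplecticForm f₁ ∧ IsSymplecticForm f₂ ∧ IsTensorFormStructure id (QuadraticMap.polar Q) f₁ f₂ e P ∧
      (∀ (x₁ : Fin d → F) (x₂ : Fin m → F), Q ((P : Matrix ι ι F) *ᵥ ((fun a : Fin d × Fin m => x₁ a.1 * x₂ a.2) ∘ e)) = 0) ∧
      H ≤ tensorProductSubgroup d m e P) ∨
  (∃ (d m : ℕ) (e : ι ≃ Fin d × Fin m) (P : GL ι F) (f₁ : (Fin d → F) → (Fin d → F) → F) (f₂ : (Fin m → F) → (Fin m → F) → F),
      Odd (Fintype.card F) ∧ 3 ≤ d ∧ d < m ∧ IsSymmetricForm f₁ ∧ IsSymmetricForm f₂ ∧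
      IsTensorFormStructure id (QuadraticMap.polar Q) f₁ f₂ e P ∧ H ≤ tensorProductSubgroup d m e P) ∨
  (∃ (F₀ : Subfield F) (r : ℕ) (P : GL ι F) (ζ : F), r.Prime ∧ Fintype.card F = Nat.card F₀ ^ r ∧ ζ ≠ 0 ∧
      IsQuadFormRationalStructure (fun v => ζ * Q v) F₀ P ∧ H ≤ subfieldSubgroup F₀ P) ∨
  (Fintype.card ι = 8 ∧ IsPlusTypeOn Q ⊤) ∨
  InOrthogonalResidualClass H

section Sing

/-- The singular vectors of a totally isotropic subspace form a subspace. -/
theorem ECtx.exists_singPart (C : ECtx Q K) {R : Submodule F (ι → F)} (hR : IsTotallySingularFor (QuadraticMap.polar Q) R) :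
    ∃ S : Submodule F (ι → F), ∀ x, x ∈ S ↔ x ∈ R ∧ Q x = 0 := by
  refine ⟨{ carrier := {x | x ∈ R ∧ Q x = 0}
            add_mem' := ?_
            zero_mem' := ⟨R.zero_mem, ?_⟩
            smul_mem' := ?_ }, fun x => Iff.rfl⟩
  · rintro a b ⟨ha, ha'⟩ ⟨hb, hb'⟩
    refine ⟨R.add_mem ha hb, ?_⟩
    have h1 := hR a ha b hb
    simp only [QuadraticMap.polar] at h1
    linear_combination h1 + ha' + hb'
  · have := C.Q_smul 0 (0 : ι → F)
    simpa using this
  · rintro c a ⟨ha, ha'⟩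
    exact ⟨R.smul_mem c ha, by rw [C.Q_smul, ha', mul_zero]⟩

/-- In characteristic two, a totally isotropic subspace with no singular vector is at most a line. -/
theorem ECtx.line_of_no_sing [Fintype F] (C : ECtx Q K) (h2 : (2 : F) = 0) {R : Submodule F (ι → F)}
    (hR : IsTotallySingularFor (QuadraticMap.polar Q) R) (hS : ∀ x ∈ R, Q x = 0 → x = 0) {x : ι → F} (hx : x ∈ R) (hx0 : x ≠ 0) :
    R = Submodule.span F {x} := by
  apply le_antisymm
  · intro y hy
    have hQx : Q x ≠ 0 := fun h => hx0 (hS x hx h)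
    obtain ⟨c, hc⟩ := exists_sq_of_even h2 (Q y / Q x)
    have h3 : Q (c • x + y) = 0 := by
      have h1 := hR (c • x) (R.smul_mem c hx) y hy
      simp only [QuadraticMap.polar] at h1
      have h4 : Q (c • x) = Q y := by
        rw [C.Q_smul, pow_two, hc]
        field_simp
      linear_combination h1 + h4 + (Q y) * h2
    have h4 := hS _ (R.add_mem (R.smul_mem c hx) hy) h3
    have h5 : y = (-c) • x := by
      rw [neg_smul]
      exact eq_neg_of_add_eq_zero_right h4
    rw [h5]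
    exact Submodule.smul_mem _ _ (Submodule.mem_span_singleton_self x)
  · rw [Submodule.span_singleton_le_iff_mem]
    exact hx

end Sing

section Main

variable [Fintype F]

theorem ECtx.reducible_case (C : ECtx Q K) {H : Subgroup (GL ι F)} (hHK : H ≤ K) (hirr : ¬ Irr H) : EvenOutcome Q H := by
  classical
  have hC := C.fctx
  have hfixQ : ∀ g ∈ H, ∀ v, Q ((g : Matrix ι ι F) *ᵥ v) = Q v := fun g hg => C.fix g (hHK hg)
  have hfix : FFix (QuadraticMap.polar Q) H := fun g hg u v => fixes_polar (hfixQ g hg) u v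
  unfold Irr at hirr
  push Not at hirr
  obtain ⟨W, hW, h0, h1⟩ := hirr
  rcases hC.reducible hfix hW h0 h1 with ⟨R, hR0, hRs, hRt⟩ | ⟨U, hU0, hU1, hUs, hUd⟩
  · by_cases hq : Odd (Fintype.card F)
    · have h2 := two_ne_of_odd_card hq
      refine Or.inl ⟨R, hR0, fun w hw => ?_, fun g hg => mem_stab_of_stable hRs hg⟩
      have h3 := hRt w hw w hw
      rw [C.self] at h3
      exact (mul_eq_zero.mp h3).resolve_left h2
    · have h2 := two_eq_zero_of_not_odd hq
      obtain ⟨S, hS⟩ := C.exists_singPart hRt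
      have hSs : Stable H S := by
        intro g hg x hx
        obtain ⟨h3, h4⟩ := (hS x).mp hx
        exact (hS _).mpr ⟨hRs g hg x h3, by rw [hfixQ g hg, h4]⟩
      by_cases hS0 : S = ⊥
      · have hno : ∀ x ∈ R, Q x = 0 → x = 0 := by
          intro x hx hQx
          have : x ∈ S := (hS x).mpr ⟨hx, hQx⟩
          rw [hS0] at this
          simpa using this
        obtain ⟨x, hx, hx0⟩ := Submodule.exists_mem_ne_zero_of_ne_bot hR0
        have hspan := C.line_of_no_sing h2 hRt hno hx hx0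
        refine Or.inr <| Or.inr <| Or.inl ⟨hq, x, fun h => hx0 (hno x hx h), fun g hg => ?_⟩
        rw [← hspan]
        exact mem_stab_of_stable hRs hg
      · exact Or.inl ⟨S, hS0, fun w hw => ((hS w).mp hw).2, fun g hg => mem_stab_of_stable hSs hg⟩
  · exact Or.inr <| Or.inl ⟨U, hU0, hU1, hC.nondeg_of_disj hUd, fun g hg => mem_stab_of_stable hUs hg⟩

/-- Totally isotropic pairs are totally singular pairs for irreducible groups. -/
theorem ECtx.pair_case (C : ECtx Q K) (hn : 3 ≤ Fintype.card ι) {H : Subgroup (GL ι F)} (hHK : H ≤ K) (hirr : Irr H) {k : ℕ}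
    {D : Fin 2 → Submodule F (ι → F)} (hD : IsMDecomposition k D) (hts : ∀ i, IsTotallySingularFor (QuadraticMap.polar Q) (D i))
    (hle : H ≤ decompositionStabilizer D) : EvenOutcome Q H := by
  classical
  have hfixQ : ∀ g ∈ H, ∀ v, Q ((g : Matrix ι ι F) *ᵥ v) = Q v := fun g hg => C.fix g (hHK hg)
  suffices hall : ∀ i, IsTotallySingularQuad Q (D i) from
    Or.inr <| Or.inr <| Or.inr <| Or.inr <| Or.inl ⟨k, D, hD, hall, hle⟩
  by_cases hq : Odd (Fintype.card F)
  · have h2 := two_ne_of_odd_card hq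
    intro i w hw
    have h3 := hts i w hw w hw
    rw [C.self] at h3
    exact (mul_eq_zero.mp h3).resolve_left h2
  · have h2 := two_eq_zero_of_not_odd hq
    choose S hS using fun i => C.exists_singPart (hts i)
    have hdisj : D 0 ⊓ D 1 = ⊥ := (hD.indep.pairwiseDisjoint (by simp)).eq_bot
    have hstable : Stable H (S 0 ⊔ S 1) := by
      have hone : ∀ g ∈ H, ∀ i, ∀ x ∈ S i, (g : Matrix ι ι F) *ᵥ x ∈ S 0 ⊔ S 1 := by
        intro g hg i x hx
        obtain ⟨h3, h4⟩ := (hS i x).mp hx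
        obtain ⟨σ, hσ⟩ := hle hg
        have h5 : (g : Matrix ι ι F) *ᵥ x ∈ D (σ i) := by
          rw [← hσ i]
          exact ⟨x, h3, by simp [Matrix.toLin'_apply]⟩
        have h6 : (g : Matrix ι ι F) *ᵥ x ∈ S (σ i) := (hS _ _).mpr ⟨h5, by rw [hfixQ g hg, h4]⟩
        generalize σ i = j at h6
        fin_cases j
        · exact Submodule.mem_sup_left h6
        · exact Submodule.mem_sup_right h6
      intro g hg w hw
      obtain ⟨a, ha, b, hb, rfl⟩ := Submodule.mem_sup.mp hw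
      rw [Matrix.mulVec_add]
      exact Submodule.add_mem _ (hone g hg 0 a ha) (hone g hg 1 b hb)
    rcases hirr _ hstable with h0 | h1
    · exfalso
      have hS0 : S 0 = ⊥ := by
        rw [eq_bot_iff, ← h0]
        exact le_sup_left
      have hno : ∀ x ∈ D 0, Q x = 0 → x = 0 := by
        intro x hx hQx
        have : x ∈ S 0 := (hS 0 x).mpr ⟨hx, hQx⟩
        rw [hS0] at this
        simpa using this
      have hfr := hD.finrank_eq 0
      have hpos := hD.pos
      have hD0 : D 0 ≠ ⊥ := by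
        intro h
        rw [h, finrank_bot] at hfr
        omega
      obtain ⟨x, hx, hx0⟩ := Submodule.exists_mem_ne_zero_of_ne_bot hD0
      have hspan := C.line_of_no_sing h2 (hts 0) hno hx hx0
      rw [hspan, finrank_span_singleton hx0] at hfr
      have hk := card_of_mdecomp hD
      omega
    · have hmem : ∀ y : ι → F, ∃ a ∈ S 0, ∃ b ∈ S 1, a + b = y := by
        intro y
        have : y ∈ S 0 ⊔ S 1 := by rw [h1]; trivial
        exact Submodule.mem_sup.mp this
      have hS0 : ∀ w ∈ D 0, Q w = 0 := by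
        intro w hw
        obtain ⟨a, ha, b, hb, rfl⟩ := hmem w
        have ha' := (hS 0 a).mp ha
        have hb' := (hS 1 b).mp hb
        have hb0 : b ∈ D 0 ⊓ D 1 := by
          refine ⟨?_, hb'.1⟩
          have : b = (a + b) - a := by abel
          rw [this]
          exact Submodule.sub_mem _ hw ha'.1
        rw [hdisj, Submodule.mem_bot] at hb0
        rw [hb0, add_zero]
        exact ha'.2
      have hS1 : ∀ w ∈ D 1, Q w = 0 := by
        intro w hw
        obtain ⟨a, ha, b, hb, rfl⟩ := hmem w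
        have ha' := (hS 0 a).mp ha
        have hb' := (hS 1 b).mp hb
        have ha0 : a ∈ D 0 ⊓ D 1 := by
          refine ⟨ha'.1, ?_⟩
          have : a = (a + b) - b := by abel
          rw [this]
          exact Submodule.sub_mem _ hw hb'.1
        rw [hdisj, Submodule.mem_bot] at ha0
        rw [ha0, zero_add]
        exact hb'.2
      intro i
      fin_cases i
      · exact hS0
      · exact hS1

theorem ECtx.class2_case (C : ECtx Q K) (hn : 3 ≤ Fintype.card ι) {H : Subgroup (GL ι F)} (hHK : H ≤ K) (hirr : Irr H)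
    (h : FClass2 (QuadraticMap.polar Q) H) : EvenOutcome Q H := by
  classical
  have hfixQ : ∀ g ∈ H, ∀ v, Q ((g : Matrix ι ι F) *ᵥ v) = Q v := fun g hg => C.fix g (hHK hg)
  rcases h with ⟨t, k, D, hD, hle, htr⟩ | ⟨k, D, hD, hts, hle⟩
  · exact Or.inr <| Or.inr <| Or.inr <| Or.inl ⟨t, k, D, ⟨hD, OCtx.isometric_of_trans hfixQ htr⟩, hle⟩
  · exact C.pair_case hn hHK hirr hD hts hle

/-- almost simple groups -/
theorem ECtx.core_case (C : ECtx Q K) (hn : 5 ≤ Fintype.card ι) {H P : Subgroup (GL ι F)} (hHK : H ≤ K) (hP : CoreNS H P) :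
    EvenOutcome Q H := by
  classical
  have hne : Nonempty ι := Fintype.card_pos_iff.mp (by omega)
  have hfixQ : ∀ g ∈ H, ∀ v, Q ((g : Matrix ι ι F) *ᵥ v) = Q v := fun g hg => C.fix g (hHK hg)
  have hfix : FFix (QuadraticMap.polar Q) H := fun g hg u v => fixes_polar (hfixQ g hg) u v
  have habs := habs_of_matrixSet hP.absIrred
  by_cases hsub : ∃ F₀ : Subfield F, F₀ ≠ ⊤ ∧ RealisableOver F₀ (matrixSet P)
  · obtain ⟨F₀, hF₀, B, hB⟩ := hsub
    obtain ⟨F₁, r, P', ζ, h3, h4, h5, h6, h7⟩ := C.subfield_branch hn hHK hP.le hP.normal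
      ((actsIrreducibly_iff P).mp hP.absIrred.1) habs hF₀ (fun s hs i j => hB _ ⟨s, hs, rfl⟩ i j)
    exact Or.inr <| Or.inr <| Or.inr <| Or.inr <| Or.inr <| Or.inr <| Or.inr <| Or.inr <| Or.inl ⟨F₁, r, P', ζ, h3, h4, h5, h6, h7⟩
  · push Not at hsub
    refine Or.inr <| Or.inr <| Or.inr <| Or.inr <| Or.inr <| Or.inr <| Or.inr <| Or.inr <| Or.inr <| Or.inr ⟨P, hP.toCore hsub, ?_⟩
    rintro ⟨σ, f', hf', hfixf⟩
    obtain ⟨F₀, hF₀, hreal⟩ := descent hf' (norm_of_unitary hf') habs (fun g hg u v => hfixf _ ⟨g, hg, rfl⟩ u v)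
      C.pS C.fctx.ndl (fun g hg u v => hfix g (hP.le hg) u v)
    exact hsub F₀ hF₀ hreal

/-- pure vectors are singular for irreducible groups in characteristic two -/
theorem ECtx.pure_singular (C : ECtx Q K) (h2 : (2 : F) = 0) (hn : 2 ≤ Fintype.card ι) {H : Subgroup (GL ι F)} (hHK : H ≤ K) (hirr : Irr H)
    {S : Set (ι → F)} (hspan : Submodule.span F S = ⊤) (hact : ∀ g ∈ H, ∀ v ∈ S, (g : Matrix ι ι F) *ᵥ v ∈ S)
    {Q' : (ι → F) → F} (hsm : ∀ (c : F) v, Q' (c • v) = c ^ 2 * Q' v) (hpol : ∀ u v, QuadraticMap.polar Q' u v = QuadraticMap.polar Q u v)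
    (hval : ∀ v ∈ S, Q' v = 0) : ∀ v ∈ S, Q v = 0 := by
  classical
  have hfixQ : ∀ g ∈ H, ∀ v, Q ((g : Matrix ι ι F) *ᵥ v) = Q v := fun g hg => C.fix g (hHK hg)
  let D : (ι → F) → F := fun v => Q v - Q' v
  have hadd : ∀ u v, D (u + v) = D u + D v := by
    intro u v
    have h1 := hpol u v
    simp only [QuadraticMap.polar] at h1
    simp only [D]
    linear_combination -h1
  have hsmul : ∀ (c : F) v, D (c • v) = c ^ 2 * D v := by
    intro c v
    simp only [D]
    rw [C.Q_smul, hsm]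
    ring
  have hD0 : D 0 = 0 := by
    have := hsmul 0 0
    simpa using this
  have hP : ∀ g ∈ H, ∀ v, D ((g : Matrix ι ι F) *ᵥ v) = D v := by
    intro g hg v
    have hv : v ∈ Submodule.span F S := by rw [hspan]; trivial
    induction hv using Submodule.span_induction with
    | mem x hx =>
      simp only [D]
      rw [hval _ (hact g hg x hx), hval x hx, hfixQ g hg]
    | zero => rw [Matrix.mulVec_zero]
    | add a b _ _ ha hb => rw [Matrix.mulVec_add, hadd, hadd, ha, hb]
    | smul c a _ ha => rw [Matrix.mulVec_smul, hsmul, hsmul, ha]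
  have hall := defect_zero hn hirr hadd hsmul hP
  intro v hv
  have h1 := hall v
  simp only [D] at h1
  rw [hval v hv] at h1
  linear_combination h1

end Main

end Cfsg.Agent.H97.Asch
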