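import Cfsg.Agent.Lib.H97L6

/-!
The reduction theorem for isometries of a quadratic form in even dimension: tensor decompositions.
-/

set_option autoImplicit false
set_option linter.unusedSectionVars false
set_option linter.unusedSimpArgs false
set_option linter.style.haveILetI false

namespace Cfsg.Agent.H97.Asch

open Matrix Cfsg Cfsg.Geo
open scoped MatrixGroups commutatorElement Kronecker

variable {ι : Type} [Fintype ι] [DecidableEq ι] {F : Type*} [Field F] [Fintype F] {Q : (ι → F) → F} {K : Subgroup (GL ι F)}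

section Tensor

variable {d m : ℕ} {f : (ι → F) → (ι → F) → F} {ε : F}

/-- The square of the skew element of a symmetric form on a plane is a scalar. -/
theorem skew_sq_two {C₀ J₀ : Matrix (Fin 2) (Fin 2) F} (hCJ : C₀ * J₀ = detJ) (hJC : J₀ᵀ * C₀ = -detJ) :
    J₀ * J₀ = (-J₀.det) • (1 : Matrix (Fin 2) (Fin 2) F) := by
  have h1 := detJ_conj J₀
  have h2 : J₀ᵀ * detJ = -(detJ * J₀) := by
    rw [← hCJ, ← Matrix.mul_assoc, hJC, hCJ, Matrix.neg_mul]
  rw [h2, Matrix.neg_mul] at h1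
  have h3 : (detJ : Matrix (Fin 2) (Fin 2) F) * (J₀ * J₀) = detJ * ((-J₀.det) • (1 : Matrix (Fin 2) (Fin 2) F)) := by
    rw [Matrix.mul_smul, Matrix.mul_one, neg_smul, ← h1, ← Matrix.mul_assoc, neg_neg]
  have hd : ∀ M : Matrix (Fin 2) (Fin 2) F, (detJ : Matrix (Fin 2) (Fin 2) F) * ((detJ : Matrix (Fin 2) (Fin 2) F) * M) = -M := by
    intro M
    have hdd : (detJ : Matrix (Fin 2) (Fin 2) F) * detJ = -1 := by
      ext i j
      fin_cases i <;> fin_cases j <;> simp [detJ, Matrix.mul_apply, Fin.sum_univ_two]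
    rw [← Matrix.mul_assoc, hdd, Matrix.neg_mul, Matrix.one_mul]
  have h4 := congrArg (fun M => (detJ : Matrix (Fin 2) (Fin 2) F) * M) h3
  simp only [hd] at h4
  exact neg_injective h4

/-- A commutative algebra generated by an element whose square is a scalar has dimension at most two. -/
theorem finrank_adjoin_le_two {X : Matrix ι ι F} {c : F} (hX : X * X = c • 1) :
    Module.finrank F (Algebra.adjoin F {X}) ≤ 2 := by
  classical
  let S : Submodule F (Matrix ι ι F) := Submodule.span F ({1, X} : Set (Matrix ι ι F))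
  have h1 : (1 : Matrix ι ι F) ∈ S := Submodule.subset_span (by simp)
  have hXS : X ∈ S := Submodule.subset_span (by simp)
  have hform : ∀ y ∈ S, ∃ a b : F, y = a • 1 + b • X := by
    intro y hy
    obtain ⟨a, b, rfl⟩ := Submodule.mem_span_pair.mp hy
    exact ⟨a, b, rfl⟩
  have hle : ∀ y ∈ Algebra.adjoin F {X}, y ∈ S := by
    intro y hy
    induction hy using Algebra.adjoin_induction with
    | mem x hx =>
      obtain rfl := Set.mem_singleton_iff.mp hx
      exact hXS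
    | algebraMap r =>
      rw [Algebra.algebraMap_eq_smul_one]
      exact S.smul_mem _ h1
    | add x y _ _ hx hy => exact S.add_mem hx hy
    | mul x y _ _ hx hy =>
      obtain ⟨a, b, rfl⟩ := hform x hx
      obtain ⟨a', b', rfl⟩ := hform y hy
      have e : (a • (1 : Matrix ι ι F) + b • X) * (a' • 1 + b' • X) = (a * a' + b * b' * c) • 1 + (a * b' + b * a') • X := by
        simp only [Matrix.add_mul, Matrix.mul_add, Matrix.smul_mul, Matrix.mul_smul, Matrix.one_mul, Matrix.mul_one, hX]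
        module
      rw [e]
      exact S.add_mem (S.smul_mem _ h1) (S.smul_mem _ hXS)
  have h3 : Subalgebra.toSubmodule (Algebra.adjoin F {X}) ≤ S := hle
  have h4 := Submodule.finrank_mono h3
  have h5 : Module.finrank F S ≤ 2 := by
    have := finrank_span_le_card (R := F) ({1, X} : Set (Matrix ι ι F))
    refine this.trans ?_
    rw [Set.toFinset_insert, Set.toFinset_singleton]
    exact Finset.card_le_two
  exact h4.trans h5

/-- A symmetric factor of dimension two: the normaliser of a commutative algebra of dimension two. -/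
theorem tensor_J_gen [Nonempty ι] (C : FCtx (RingHom.id F) ε f) {H : Subgroup (GL ι F)} (hq : Odd (Fintype.card F))
    (hfix : FFix f H) (hirr : Irr H) (hd : 0 < d)
    {e : ι ≃ Fin d × Fin 2} {P : GL ι F} {A₀ : Matrix (Fin d) (Fin d) F} {C₀ : Matrix (Fin 2) (Fin 2) F} {ε₁ : F}
    (hT : FTensor (RingHom.id F) ε f H e P A₀ C₀ ε₁ 1) :
    FClass2 f H ∨ ∃ K' : Subalgebra F (Matrix ι ι F), IsFieldSubalgebra 2 K' ∧ FStar C K' ∧ H ≤ subalgebraNormalizer K' := by
  classical
  have h2 := two_ne_of_odd_card hq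
  have hS := C.sesq
  haveI hned : Nonempty (Fin d) := ⟨⟨0, hd⟩⟩
  have hCs : ∀ a b, C₀ a b = C₀ b a := by
    intro a b
    have := hT.ctx₂.herm (Pi.single a 1) (Pi.single b 1)
    rw [formOfGram_single, formOfGram_single, one_mul] at this
    exact this
  have hCT : C₀ᵀ = C₀ := by
    ext a b
    exact hCs b a
  have hCdet : IsUnit C₀.det := by
    rw [isUnit_iff_ne_zero]
    intro h0
    obtain ⟨y, hy0, hy⟩ := Matrix.exists_mulVec_eq_zero_iff.mpr h0
    obtain ⟨x, hx⟩ := hT.ctx₂.ndl y hy0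
    apply hx
    have e1 : formOfGram (((RingHom.id F : F →+* F)) : F → F) C₀ x y = x ⬝ᵥ (C₀ *ᵥ y) := by
      simp only [formOfGram, dotProduct, Matrix.mulVec, Finset.mul_sum, mul_assoc, RingHom.id_apply]
    rw [e1, hy, dotProduct_zero]
  set J₀ : Matrix (Fin 2) (Fin 2) F := C₀⁻¹ * detJ with hJ₀
  have hCJ : C₀ * J₀ = detJ := Matrix.mul_nonsing_inv_cancel_left _ _ hCdet
  have hJC : J₀ᵀ * C₀ = -detJ := by
    rw [hJ₀, Matrix.transpose_mul, Matrix.transpose_nonsing_inv, hCT, Matrix.mul_assoc, Matrix.nonsing_inv_mul _ hCdet, Matrix.mul_one]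
    ext a b
    rw [Matrix.transpose_apply, detJ_transpose, Matrix.neg_apply]
  -- the conjugation formula
  have hconj : ∀ (c : GL (Fin 2) F) (lam : F), lam ≠ 0 → (c : Matrix (Fin 2) (Fin 2) F)ᵀ * C₀ * (c : Matrix (Fin 2) (Fin 2) F) = lam • C₀ →
      J₀ * (c : Matrix (Fin 2) (Fin 2) F) = ((c : Matrix (Fin 2) (Fin 2) F).det / lam) • ((c : Matrix (Fin 2) (Fin 2) F) * J₀) := by
    intro c lam hlam hc
    have hdc : IsUnit (c : Matrix (Fin 2) (Fin 2) F).det := (Matrix.isUnit_iff_isUnit_det _).mp c.isUnit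
    have hM : IsUnit ((c : Matrix (Fin 2) (Fin 2) F)ᵀ * C₀).det := by
      rw [Matrix.det_mul, Matrix.det_transpose]
      exact hdc.mul hCdet
    have e1 : (c : Matrix (Fin 2) (Fin 2) F)ᵀ * C₀ * (J₀ * (c : Matrix (Fin 2) (Fin 2) F)) = (c : Matrix (Fin 2) (Fin 2) F).det • detJ := by
      rw [Matrix.mul_assoc (c : Matrix (Fin 2) (Fin 2) F)ᵀ, ← Matrix.mul_assoc C₀, hCJ, ← Matrix.mul_assoc, detJ_conj]
    have e2 : (c : Matrix (Fin 2) (Fin 2) F)ᵀ * C₀ * (((c : Matrix (Fin 2) (Fin 2) F).det / lam) • ((c : Matrix (Fin 2) (Fin 2) F) * J₀)) =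
        (c : Matrix (Fin 2) (Fin 2) F).det • detJ := by
      rw [Matrix.mul_smul, ← Matrix.mul_assoc, hc, Matrix.smul_mul, hCJ, smul_smul, div_mul_cancel₀ _ hlam]
    calc J₀ * (c : Matrix (Fin 2) (Fin 2) F) = ((c : Matrix (Fin 2) (Fin 2) F)ᵀ * C₀)⁻¹ * ((c : Matrix (Fin 2) (Fin 2) F)ᵀ * C₀ * (J₀ * (c : Matrix (Fin 2) (Fin 2) F))) :=
          (Matrix.nonsing_inv_mul_cancel_left _ _ hM).symm
      _ = _ := by
          rw [e1, ← e2]
          exact Matrix.nonsing_inv_mul_cancel_left _ _ hM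
  -- the matrix
  obtain ⟨X, hX⟩ : ∃ X : Matrix ι ι F, X = (P : Matrix ι ι F) * Matrix.reindex e.symm e.symm ((1 : Matrix (Fin d) (Fin d) F) ⊗ₖ J₀) * ((P⁻¹ : GL ι F) : Matrix ι ι F) := ⟨_, rfl⟩
  have hXv : ∀ x : Fin d × Fin 2 → F, X *ᵥ ((P : Matrix ι ι F) *ᵥ (x ∘ e)) = (P : Matrix ι ι F) *ᵥ ((((1 : Matrix (Fin d) (Fin d) F) ⊗ₖ J₀) *ᵥ x) ∘ e) := by
    intro x
    rw [hX, ← Matrix.mulVec_mulVec, gl_inv_mulVec, ← Matrix.mulVec_mulVec, reindexM_mulVec]
  have hG : ∀ x y : Fin d × Fin 2 → F, f ((P : Matrix ι ι F) *ᵥ (x ∘ e)) ((P : Matrix ι ι F) *ᵥ (y ∘ e)) =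
      formOfGram (((RingHom.id F : F →+* F)) : F → F) (A₀ ⊗ₖ C₀) x y := by
    intro x y
    rw [hT.eqn]
    rfl
  have hadj : C.adj X = -X := by
    symm
    refine C.eq_adj_of' fun u v => ?_
    obtain ⟨x, rfl⟩ := pv_surj e P u
    obtain ⟨y, rfl⟩ := pv_surj e P v
    have e0 : (-X) *ᵥ ((P : Matrix ι ι F) *ᵥ (y ∘ e)) = (-1 : F) • (X *ᵥ ((P : Matrix ι ι F) *ᵥ (y ∘ e))) := by
      rw [Matrix.neg_mulVec, neg_one_smul]
    rw [e0, hS.smul_right, hXv, hXv, hG, hG]
    have e1 := formOfGram_mulVec (RingHom.id F) (A₀ ⊗ₖ C₀) ((1 : Matrix (Fin d) (Fin d) F) ⊗ₖ J₀) 1 x y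
    have e2 := formOfGram_mulVec (RingHom.id F) (A₀ ⊗ₖ C₀) 1 ((1 : Matrix (Fin d) (Fin d) F) ⊗ₖ J₀) x y
    rw [Matrix.one_mulVec] at e1 e2
    rw [e1, e2]
    have e3 : ((1 : Matrix (Fin d) (Fin d) F) ⊗ₖ J₀)ᵀ = (1 : Matrix (Fin d) (Fin d) F) ⊗ₖ J₀ᵀ := by
      ext a b
      simp [Matrix.kroneckerMap_apply, Matrix.one_apply, eq_comm]
    have e4 : ((1 : Matrix (Fin d) (Fin d) F) ⊗ₖ J₀).map (RingHom.id F) = (1 : Matrix (Fin d) (Fin d) F) ⊗ₖ J₀ := by
      ext a b
      simp
    have e5 : (1 : Matrix (Fin d × Fin 2) (Fin d × Fin 2) F).map (RingHom.id F) = 1 := by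
      ext a b
      simp [Matrix.one_apply]
    rw [e3, e4, e5, Matrix.mul_one, Matrix.transpose_one, Matrix.one_mul, ← Matrix.mul_kronecker_mul, ← Matrix.mul_kronecker_mul,
      Matrix.one_mul, Matrix.mul_one, hCJ, hJC, RingHom.id_apply]
    have e6 : A₀ ⊗ₖ (-detJ : Matrix (Fin 2) (Fin 2) F) = (-1 : F) • (A₀ ⊗ₖ (detJ : Matrix (Fin 2) (Fin 2) F)) := by
      ext a b
      simp [Matrix.kroneckerMap_apply]
    rw [e6, formOfGram_smul]
  -- conjugation by the group
  have hnorm : ∀ g ∈ H, ∃ μ : F, (g : Matrix ι ι F) * X * ((g⁻¹ : GL ι F) : Matrix ι ι F) = μ • X := by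
    intro g hg
    obtain ⟨a, c, hac⟩ := tensor_action (hT.le hg)
    have hrel : ∀ (u u' : Fin d → F) (w w' : Fin 2 → F),
        formOfGram (((RingHom.id F : F →+* F)) : F → F) A₀ ((a : Matrix (Fin d) (Fin d) F) *ᵥ u) ((a : Matrix (Fin d) (Fin d) F) *ᵥ u') *
          formOfGram (((RingHom.id F : F →+* F)) : F → F) C₀ ((c : Matrix (Fin 2) (Fin 2) F) *ᵥ w) ((c : Matrix (Fin 2) (Fin 2) F) *ᵥ w') =
        formOfGram (((RingHom.id F : F →+* F)) : F → F) A₀ u u' * formOfGram (((RingHom.id F : F →+* F)) : F → F) C₀ w w' := by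
      intro u u' w w'
      have h3 := hfix g hg ((P : Matrix ι ι F) *ᵥ (tvP u w ∘ e)) ((P : Matrix ι ι F) *ᵥ (tvP u' w' ∘ e))
      rw [hac, hac, kron_mulVec_tvP, kron_mulVec_tvP, hT.form_tv, hT.form_tv] at h3
      exact h3
    obtain ⟨u₀, u₀', hu₀⟩ := hT.ctx₁.exists_ne_of_nonempty
    obtain ⟨w₀, w₀', hw₀⟩ := hT.ctx₂.exists_ne_of_nonempty
    have hne := hrel u₀ u₀' w₀ w₀'
    set α := formOfGram (((RingHom.id F : F →+* F)) : F → F) A₀ ((a : Matrix (Fin d) (Fin d) F) *ᵥ u₀) ((a : Matrix (Fin d) (Fin d) F) *ᵥ u₀') with hα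
    have hα0 : α ≠ 0 := by
      intro h0
      rw [h0, zero_mul] at hne
      exact mul_ne_zero hu₀ hw₀ hne.symm
    set lam := formOfGram (((RingHom.id F : F →+* F)) : F → F) A₀ u₀ u₀' / α with hlam
    have hlam0 : lam ≠ 0 := div_ne_zero hu₀ hα0
    have hsim : (c : Matrix (Fin 2) (Fin 2) F)ᵀ * C₀ * (c : Matrix (Fin 2) (Fin 2) F) = lam • C₀ := by
      ext i j
      have h3 := hrel u₀ u₀' (Pi.single i 1) (Pi.single j 1)
      rw [formOfGram_mulVec (RingHom.id F) C₀ (c : Matrix (Fin 2) (Fin 2) F) (c : Matrix (Fin 2) (Fin 2) F)] at h3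
      have e5 : (c : Matrix (Fin 2) (Fin 2) F).map (RingHom.id F) = (c : Matrix (Fin 2) (Fin 2) F) := by
        ext a b
        simp
      rw [e5, formOfGram_single, formOfGram_single] at h3
      rw [Matrix.smul_apply, smul_eq_mul, hlam]
      field_simp
      linear_combination h3
    have hJc := hconj c lam hlam0 hsim
    have hdc : (c : Matrix (Fin 2) (Fin 2) F).det ≠ 0 := ((Matrix.isUnit_iff_isUnit_det _).mp c.isUnit).ne_zero
    set μ₀ := (c : Matrix (Fin 2) (Fin 2) F).det / lam with hμ₀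
    have hμ0 : μ₀ ≠ 0 := div_ne_zero hdc hlam0
    have hcomm : X * (g : Matrix ι ι F) = μ₀ • ((g : Matrix ι ι F) * X) := by
      apply mat_eq_of_pv e P
      intro x
      have e1 : ((1 : Matrix (Fin d) (Fin d) F) ⊗ₖ J₀) *ᵥ (((a : Matrix (Fin d) (Fin d) F) ⊗ₖ (c : Matrix (Fin 2) (Fin 2) F)) *ᵥ x) =
          μ₀ • (((a : Matrix (Fin d) (Fin d) F) ⊗ₖ (c : Matrix (Fin 2) (Fin 2) F)) *ᵥ (((1 : Matrix (Fin d) (Fin d) F) ⊗ₖ J₀) *ᵥ x)) := by
        rw [Matrix.mulVec_mulVec, Matrix.mulVec_mulVec, ← Matrix.mul_kronecker_mul, ← Matrix.mul_kronecker_mul, Matrix.one_mul, Matrix.mul_one, hJc,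
          Matrix.kronecker_smul, Matrix.smul_mulVec]
      rw [Matrix.smul_mulVec, ← Matrix.mulVec_mulVec, ← Matrix.mulVec_mulVec, hac, hXv, hXv, hac, e1]
      have e2 : ∀ y : Fin d × Fin 2 → F, (μ₀ • y) ∘ e = μ₀ • (y ∘ e) := fun _ => rfl
      rw [e2, Matrix.mulVec_smul]
    refine ⟨μ₀⁻¹, ?_⟩
    have h3 : (g : Matrix ι ι F) * X * ((g⁻¹ : GL ι F) : Matrix ι ι F) = μ₀⁻¹ • (μ₀ • ((g : Matrix ι ι F) * X)) * ((g⁻¹ : GL ι F) : Matrix ι ι F) := by
      rw [smul_smul, inv_mul_cancel₀ hμ0, one_smul]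
    rw [h3, ← hcomm, Matrix.smul_mul, Matrix.mul_assoc, ← Units.val_mul, mul_inv_cancel, Units.val_one, Matrix.mul_one]
  -- the algebra
  let A' : Subalgebra F (Matrix ι ι F) := Algebra.adjoin F {X}
  have hXA : X ∈ A' := Algebra.subset_adjoin (Set.mem_singleton X)
  have hNA : NormAlg H A' := by
    intro h hh b hb
    induction hb using Algebra.adjoin_induction with
    | mem x hx =>
      obtain rfl := Set.mem_singleton_iff.mp hx
      obtain ⟨μ, hμ⟩ := hnorm h hh
      rw [hμ]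
      exact A'.smul_mem hXA _
    | algebraMap r =>
      rw [Algebra.algebraMap_eq_smul_one, Matrix.mul_smul, Matrix.smul_mul, Matrix.mul_one, ← Units.val_mul, mul_inv_cancel, Units.val_one]
      exact A'.smul_mem A'.one_mem _
    | add x y _ _ hx hy =>
      rw [Matrix.mul_add, Matrix.add_mul]
      exact A'.add_mem hx hy
    | mul x y _ _ hx hy =>
      have e1 : (h : Matrix ι ι F) * (x * y) * ((h⁻¹ : GL ι F) : Matrix ι ι F) =
          ((h : Matrix ι ι F) * x * ((h⁻¹ : GL ι F) : Matrix ι ι F)) * ((h : Matrix ι ι F) * y * ((h⁻¹ : GL ι F) : Matrix ι ι F)) := by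
        have e2 : ((h⁻¹ : GL ι F) : Matrix ι ι F) * (h : Matrix ι ι F) = 1 := by
          rw [← Units.val_mul, inv_mul_cancel, Units.val_one]
        calc (h : Matrix ι ι F) * (x * y) * ((h⁻¹ : GL ι F) : Matrix ι ι F)
            = (h : Matrix ι ι F) * x * (((h⁻¹ : GL ι F) : Matrix ι ι F) * (h : Matrix ι ι F)) * y * ((h⁻¹ : GL ι F) : Matrix ι ι F) := by
              rw [e2]; simp only [Matrix.mul_one, Matrix.mul_assoc]
          _ = _ := by simp only [Matrix.mul_assoc]
      rw [e1]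
      exact A'.mul_mem hx hy
  have hst : FStar C A' := by
    intro x hx
    induction hx using Algebra.adjoin_induction with
    | mem x hx =>
      obtain rfl := Set.mem_singleton_iff.mp hx
      rw [hadj]
      exact A'.neg_mem hXA
    | algebraMap r =>
      rw [Algebra.algebraMap_eq_smul_one, C.adj_smul, C.adj_one]
      exact A'.smul_mem A'.one_mem _
    | add x y _ _ hx hy =>
      rw [C.adj_add]
      exact A'.add_mem hx hy
    | mul x y _ _ hx hy =>
      rw [C.adj_mul]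
      exact A'.mul_mem hy hx
  have hcomm : ∀ x ∈ A', ∀ y ∈ A', x * y = y * x := by
    intro x hx y hy
    letI := Algebra.adjoinCommRingOfComm F (s := {X}) (by
      intro a ha b hb
      rw [Set.mem_singleton_iff.mp ha, Set.mem_singleton_iff.mp hb])
    exact congrArg Subtype.val (mul_comm (⟨x, hx⟩ : A') ⟨y, hy⟩)
  have hX0 : X ≠ 0 := by
    intro h0
    have hJ0 : J₀ = 0 := by
      ext i j
      let a₀ : Fin d := ⟨0, hd⟩
      have h3 := hXv (tvP (Pi.single a₀ 1) (Pi.single j 1))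
      rw [h0, Matrix.zero_mulVec, kron_mulVec_tvP] at h3
      by_contra hne
      refine pv_ne_zero e P ?_ h3.symm
      intro h4
      have h5 := congrFun h4 (a₀, i)
      simp only [tvP, Matrix.one_mulVec, Pi.single_eq_same, one_mul, Pi.zero_apply] at h5
      rw [Matrix.mulVec_single_one] at h5
      exact hne h5
    rw [hJ0, Matrix.mul_zero] at hCJ
    have := congrFun (congrFun hCJ 0) 1
    simp [detJ] at this
  have hfin : Module.finrank F A' ≠ 1 := by
    intro h1
    have hbot : A' = ⊥ := Subalgebra.finrank_eq_one_iff.mp h1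
    have hmem : X ∈ (⊥ : Subalgebra F (Matrix ι ι F)) := hbot ▸ hXA
    obtain ⟨s, hs⟩ := Algebra.mem_bot.mp hmem
    rw [Algebra.algebraMap_eq_smul_one] at hs
    have h3 : C.adj X = X := by
      rw [← hs, C.adj_smul, C.adj_one]
      rfl
    rw [h3] at hadj
    apply hX0
    have h4 : (2 : F) • X = 0 := by
      rw [two_smul]
      nth_rw 1 [hadj]
      simp
    exact (smul_eq_zero.mp h4).resolve_left h2
  rcases star_comm C hirr hfix hNA hst hcomm hfin with h | ⟨ℓ, K', hℓ, hK', hst', hle, hK'A⟩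
  · exact Or.inl h
  · refine Or.inr ?_
    have hsq : X * X = (-J₀.det) • (1 : Matrix ι ι F) := by
      apply mat_eq_of_pv e P
      intro x
      rw [← Matrix.mulVec_mulVec, hXv, hXv, Matrix.mulVec_mulVec, ← Matrix.mul_kronecker_mul, Matrix.one_mul, skew_sq_two hCJ hJC,
        Matrix.kronecker_smul, Matrix.smul_mulVec, Matrix.smul_mulVec, Matrix.one_mulVec]
      have e1 : (1 : Matrix (Fin d) (Fin d) F) ⊗ₖ (1 : Matrix (Fin 2) (Fin 2) F) = 1 := Matrix.kroneckerMap_one_one _ (by simp) (by simp) (by simp)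
      rw [e1, Matrix.one_mulVec]
      have e2 : ∀ y : Fin d × Fin 2 → F, ((-J₀.det) • y) ∘ e = (-J₀.det) • (y ∘ e) := fun _ => rfl
      rw [e2, Matrix.mulVec_smul]
    have h1 := finrank_adjoin_le_two hsq
    have h3 : Subalgebra.toSubmodule K' ≤ Subalgebra.toSubmodule A' := hK'A
    have h4 := Submodule.finrank_mono h3
    have h5 : ℓ ≤ 2 := by
      rw [← hK'.finrank_eq]
      exact h4.trans h1
    have h6 : ℓ = 2 := le_antisymm h5 hℓ.two_le
    subst h6
    exact ⟨K', hK', hst', hle⟩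

/-- symplectic forms in characteristic two -/
theorem FCtx.toSymplectic_even {κ : Type} [Fintype κ] [DecidableEq κ] {g : (κ → F) → (κ → F) → F} (C : FCtx (RingHom.id F) 1 g)
    (h2 : (2 : F) = 0) (halt : ∀ v, g v v = 0) : IsSymplecticForm g where
  bilinear := ⟨C.sesq.add_left, C.sesq.smul_left, C.sesq.add_right, fun c v x => by
    have := C.sesq.smul_right c v x
    simpa using this⟩
  skew u v := by
    have := C.herm u v
    simp only [one_mul, RingHom.id_apply] at this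
    linear_combination this + (g v u) * h2
  alternating := halt
  nondegenerate v hv := ⟨C.ndl v hv, C.ndr v hv⟩

/-- alternating factors in odd characteristic -/
theorem ECtx.tensor_alt_odd (C : ECtx Q K) (h2 : (2 : F) ≠ 0) {H : Subgroup (GL ι F)} {d m : ℕ} (hd : 2 ≤ d) (hdm : d ≤ m)
    {e : ι ≃ Fin d × Fin m} {P : GL ι F} {A₀ : Matrix (Fin d) (Fin d) F} {C₀ : Matrix (Fin m) (Fin m) F}
    (hT : FTensor (RingHom.id F) 1 (QuadraticMap.polar Q) H e P A₀ C₀ (-1) (-1)) : EvenOutcome Q H := by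
  refine Or.inr <| Or.inr <| Or.inr <| Or.inr <| Or.inr <| Or.inr <| Or.inl
    ⟨d, m, e, P, formOfGram ((RingHom.id F : F →+* F) : F → F) A₀, formOfGram ((RingHom.id F : F →+* F) : F → F) C₀, hd, hdm,
      FCtx.toSymplectic hT.ctx₁ h2, FCtx.toSymplectic hT.ctx₂ h2, ⟨1, one_ne_zero, fun x y => ?_⟩, fun x₁ x₂ => ?_, hT.le⟩
  · rw [hT.eqn, gramMatrix_formOfGram, gramMatrix_formOfGram, one_mul]
    rfl
  · have h3 := hT.form_tv x₁ x₁ x₂ x₂
    rw [(FCtx.toSymplectic hT.ctx₁ h2).alternating x₁, zero_mul, C.self] at h3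
    exact (mul_eq_zero.mp h3).resolve_left h2

/-- symmetric factors -/
theorem ECtx.tensor_sym_odd (hq : Odd (Fintype.card F)) {H : Subgroup (GL ι F)} {d m : ℕ} (hd : 3 ≤ d) (hdm : d < m)
    {e : ι ≃ Fin d × Fin m} {P : GL ι F} {A₀ : Matrix (Fin d) (Fin d) F} {C₀ : Matrix (Fin m) (Fin m) F}
    (hT : FTensor (RingHom.id F) 1 (QuadraticMap.polar Q) H e P A₀ C₀ 1 1) : EvenOutcome Q H := by
  refine Or.inr <| Or.inr <| Or.inr <| Or.inr <| Or.inr <| Or.inr <| Or.inr <| Or.inl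
    ⟨d, m, e, P, formOfGram ((RingHom.id F : F →+* F) : F → F) A₀, formOfGram ((RingHom.id F : F →+* F) : F → F) C₀, hq, hd, hdm,
      FCtx.toSymmetric hT.ctx₁, FCtx.toSymmetric hT.ctx₂, ⟨1, one_ne_zero, fun x y => ?_⟩, hT.le⟩
  rw [hT.eqn, gramMatrix_formOfGram, gramMatrix_formOfGram, one_mul]
  rfl

/-- a symmetric factor of dimension two -/
theorem ECtx.tensor_two_odd (C : ECtx Q K) (hn : 3 ≤ Fintype.card ι) (hq : Odd (Fintype.card F)) {H : Subgroup (GL ι F)} (hHK : H ≤ K) (hirr : Irr H)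
    {d : ℕ} (hd : 0 < d) {e : ι ≃ Fin d × Fin 2} {P : GL ι F} {A₀ : Matrix (Fin d) (Fin d) F} {C₀ : Matrix (Fin 2) (Fin 2) F}
    (hT : FTensor (RingHom.id F) 1 (QuadraticMap.polar Q) H e P A₀ C₀ 1 1) : EvenOutcome Q H := by
  have hne : Nonempty ι := Fintype.card_pos_iff.mp (by omega)
  have hfix : FFix (QuadraticMap.polar Q) H := fun g hg u v => fixes_polar (C.fix g (hHK hg)) u v
  rcases tensor_J_gen C.fctx hq hfix hirr hd hT with h | ⟨K', hK', hst, hle⟩
  · exact C.class2_case hn hHK hirr h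
  · exact Or.inr <| Or.inr <| Or.inr <| Or.inr <| Or.inr <| Or.inl
      ⟨2, K', Nat.prime_two, hK', adjointClosed_of_star C.fctx hst, hle, Or.inl rfl⟩

/-- alternating factors in characteristic two -/
theorem ECtx.tensor_alt_even (C : ECtx Q K) (hq : ¬ Odd (Fintype.card F)) (hn : 2 ≤ Fintype.card ι) {H : Subgroup (GL ι F)} (hHK : H ≤ K) (hirr : Irr H)
    {d m : ℕ} (hd : 2 ≤ d) (hdm : d ≤ m) {e : ι ≃ Fin d × Fin m} {P : GL ι F} {A₀ : Matrix (Fin d) (Fin d) F} {C₀ : Matrix (Fin m) (Fin m) F}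
    (hT : FTensor (RingHom.id F) 1 (QuadraticMap.polar Q) H e P A₀ C₀ 1 1)
    (hA : ∀ u, formOfGram ((RingHom.id F : F →+* F) : F → F) A₀ u u = 0) (hC : ∀ w, formOfGram ((RingHom.id F : F →+* F) : F → F) C₀ w w = 0) :
    EvenOutcome Q H := by
  classical
  have h2 := two_eq_zero_of_not_odd hq
  have hAs : ∀ a b, A₀ a b = A₀ b a := by
    intro a b
    have := hT.ctx₁.herm (Pi.single a 1) (Pi.single b 1)
    rw [formOfGram_single, formOfGram_single, one_mul] at this
    exact this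
  have hCs : ∀ a b, C₀ a b = C₀ b a := by
    intro a b
    have := hT.ctx₂.herm (Pi.single a 1) (Pi.single b 1)
    rw [formOfGram_single, formOfGram_single, one_mul] at this
    exact this
  have hA0 : ∀ a, A₀ a a = 0 := by
    intro a
    have := hA (Pi.single a 1)
    rwa [formOfGram_single] at this
  let Γ : Matrix (Fin d × Fin m) (Fin d × Fin m) F := fun a b => A₀ a.1 b.1 * C₀ a.2 b.2
  obtain ⟨Q', hsm, hpol, hval⟩ := exists_level_quad (f := QuadraticMap.polar Q) e P (Γ := Γ) (ℓ := Prod.fst)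
    (fun a b => by simp only [Γ]; rw [hAs, hCs]) (fun a b h => by simp only [Γ]; rw [h, hA0, zero_mul])
    (fun x y => by rw [hT.eqn]; rfl)
  have hpure := C.pure_singular h2 hn hHK hirr (span_tv e P) (by
    rintro g hg _ ⟨u, w, rfl⟩
    obtain ⟨a, c, hac⟩ := tensor_action (hT.le hg)
    exact ⟨(a : Matrix (Fin d) (Fin d) F) *ᵥ u, (c : Matrix (Fin m) (Fin m) F) *ᵥ w, by rw [hac, kron_mulVec_tvP]⟩) hsm hpol (by
    rintro _ ⟨u, w, rfl⟩
    rw [hval]
    have e1 : levelQ Γ Prod.fst (tvP u w) = (∑ a, ∑ a', if a < a' then u a * A₀ a a' * u a' else 0) *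
        formOfGram (((RingHom.id F : F →+* F)) : F → F) C₀ w w := by
      simp only [levelQ, formOfGram, Fintype.sum_prod_type, Finset.sum_mul]
      refine Finset.sum_congr rfl fun a _ => ?_
      rw [Finset.sum_comm]
      refine Finset.sum_congr rfl fun a' _ => ?_
      by_cases h : a < a'
      · simp only [h, if_true, Finset.mul_sum]
        refine Finset.sum_congr rfl fun c _ => Finset.sum_congr rfl fun c' _ => ?_
        simp only [Γ, tvP, RingHom.id_apply]
        ring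
      · simp [h]
    rw [e1, hC, mul_zero])
  refine Or.inr <| Or.inr <| Or.inr <| Or.inr <| Or.inr <| Or.inr <| Or.inl
    ⟨d, m, e, P, formOfGram ((RingHom.id F : F →+* F) : F → F) A₀, formOfGram ((RingHom.id F : F →+* F) : F → F) C₀, hd, hdm,
      FCtx.toSymplectic_even hT.ctx₁ h2 hA, FCtx.toSymplectic_even hT.ctx₂ h2 hC, ⟨1, one_ne_zero, fun x y => ?_⟩, fun x₁ x₂ => ?_, hT.le⟩
  · rw [hT.eqn, gramMatrix_formOfGram, gramMatrix_formOfGram, one_mul]
    rfl
  · exact hpure _ ⟨x₁, x₂, rfl⟩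

/-- Tensor decompositions. -/
theorem ECtx.tensor_case (C : ECtx Q K) (hn : 3 ≤ Fintype.card ι) (hsq : ∀ s, Fintype.card ι ≠ s * s) {H : Subgroup (GL ι F)} (hHK : H ≤ K)
    (hirr : Irr H) {d m : ℕ} (hd : 2 ≤ d) (hm : 2 ≤ m) (hcard : Fintype.card ι = d * m) {e : ι ≃ Fin d × Fin m} {P : GL ι F}
    {A₀ : Matrix (Fin d) (Fin d) F} {C₀ : Matrix (Fin m) (Fin m) F} {ε₁ ε₂ : F}
    (hT : FTensor (RingHom.id F) 1 (QuadraticMap.polar Q) H e P A₀ C₀ ε₁ ε₂) : EvenOutcome Q H := by
  classical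
  have hne : Nonempty ι := Fintype.card_pos_iff.mp (by omega)
  have hfix : FFix (QuadraticMap.polar Q) H := fun g hg u v => fixes_polar (C.fix g (hHK hg)) u v
  haveI hned : Nonempty (Fin d) := ⟨⟨0, by omega⟩⟩
  haveI hnem : Nonempty (Fin m) := ⟨⟨0, by omega⟩⟩
  have hmul := hT.mul
  have hnorm := hT.ctx₁.eps_norm
  simp only [RingHom.id_apply] at hnorm
  by_cases hq : Odd (Fintype.card F)
  · have h2 := two_ne_of_odd_card hq
    have hfac : (ε₁ - 1) * (ε₁ + 1) = 0 := by linear_combination hnorm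
    rcases mul_eq_zero.mp hfac with h | h
    · have h₁ : ε₁ = 1 := sub_eq_zero.mp h
      subst h₁
      have h₂ : ε₂ = 1 := by linear_combination hmul
      subst h₂
      by_cases hm2 : m = 2
      · subst hm2
        exact C.tensor_two_odd hn hq hHK hirr (by omega) hT
      · by_cases hd2 : d = 2
        · subst hd2
          exact C.tensor_two_odd hn hq hHK hirr (by omega) hT.swap
        · have hne' : d ≠ m := by
            rintro rfl
            exact hsq d hcard
          rcases lt_or_gt_of_ne hne' with hlt | hgt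
          · exact ECtx.tensor_sym_odd hq (by omega) hlt hT
          · exact ECtx.tensor_sym_odd hq (by omega) hgt hT.swap
    · have h₁ : ε₁ = -1 := eq_neg_of_add_eq_zero_left h
      subst h₁
      have h₂ : ε₂ = -1 := by linear_combination -hmul
      subst h₂
      rcases le_total d m with hle | hle
      · exact C.tensor_alt_odd h2 hd hle hT
      · exact C.tensor_alt_odd h2 hm hle hT.swap
  · have h2 := two_eq_zero_of_not_odd hq
    have h₁ : ε₁ = 1 := by
      have h3 : (ε₁ - 1) * (ε₁ - 1) = 0 := by linear_combination hnorm + (1 - ε₁) * h2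
      exact sub_eq_zero.mp (mul_self_eq_zero.mp h3)
    subst h₁
    have h₂ : ε₂ = 1 := by linear_combination hmul
    subst h₂
    have hT' : FTensor (RingHom.id F) (-1) (QuadraticMap.polar Q) H e P A₀ C₀ 1 1 :=
      ⟨hT.le, hT.eqn, hT.ctx₁, hT.ctx₂, by linear_combination h2⟩
    have hAs : ∀ a b, A₀ a b = A₀ b a := by
      intro a b
      have := hT.ctx₁.herm (Pi.single a 1) (Pi.single b 1)
      rw [formOfGram_single, formOfGram_single, one_mul] at this
      exact this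
    have hCs : ∀ a b, C₀ a b = C₀ b a := by
      intro a b
      have := hT.ctx₂.herm (Pi.single a 1) (Pi.single b 1)
      rw [formOfGram_single, formOfGram_single, one_mul] at this
      exact this
    by_cases hA : ∀ u, formOfGram ((RingHom.id F : F →+* F) : F → F) A₀ u u = 0
    · by_cases hC : ∀ w, formOfGram ((RingHom.id F : F →+* F) : F → F) C₀ w w = 0
      · rcases le_total d m with hle | hle
        · exact C.tensor_alt_even hq (by omega) hHK hirr hd hle hT hA hC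
        · exact C.tensor_alt_even hq (by omega) hHK hirr hm hle hT.swap hC hA
      · push Not at hC
        obtain ⟨w, hw⟩ := hC
        exact (Sp.tensor_even_nonalt hq hfix hirr hm (by omega) hT'.swap hCs hw).elim
    · push Not at hA
      obtain ⟨u, hu⟩ := hA
      exact (Sp.tensor_even_nonalt hq hfix hirr hd (by omega) hT' hAs hu).elim

end Tensor

end Cfsg.Agent.H97.Asch
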