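import Cfsg.Agent.Lib.H97L7

/-!
The reduction theorem for isometries of a quadratic form in even dimension: symplectic type groups and tensor powers.
-/

set_option autoImplicit false
set_option linter.unusedSectionVars false
set_option linter.unusedSimpArgs false
set_option linter.style.haveILetI false

namespace Cfsg.Agent.H97.Asch

open Matrix Cfsg Cfsg.Geo
open scoped MatrixGroups commutatorElement Kronecker

variable {ι : Type} [Fintype ι] [DecidableEq ι] {F : Type*} [Field F]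

section Blocks

theorem plus_scale {V : Type*} [AddCommGroup V] [Module F V] {Q : QuadraticForm F V} {W : Submodule F V}
    (h : Ty.Plus Q W) (c : F) : Ty.Plus (c • Q) W := by
  obtain ⟨U, h1, h2, h3⟩ := h
  exact ⟨U, h1, fun u hu => by rw [QuadraticMap.smul_apply, h2 u hu, smul_zero], h3⟩

theorem minus_scale {V : Type*} [AddCommGroup V] [Module F V] {Q : QuadraticForm F V} {W : Submodule F V}
    (h : Ty.Minus Q W) {c : F} (hc : c ≠ 0) : Ty.Minus (c • Q) W := by
  obtain ⟨A, U, hA, h1, hA2, hani, h2, h3, hUA⟩ := h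
  refine ⟨A, U, hA, h1, hA2, fun a ha h0 => hani a ha ?_, fun u hu => by rw [QuadraticMap.smul_apply, h2 u hu, smul_zero], h3, fun u hu a ha => ?_⟩
  · rw [QuadraticMap.smul_apply, smul_eq_mul] at h0
    exact (mul_eq_zero.mp h0).resolve_left hc
  · have h4 := hUA u hu a ha
    simp only [QuadraticMap.polar, QuadraticMap.smul_apply, smul_eq_mul] at h4 ⊢
    linear_combination c * h4

variable [Fintype F]

/-- An involution and an anticommuting similarity split the space into two orthogonal summands of the same type. -/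
theorem two_block_plus {Q : QuadraticForm F (ι → F)} (h2 : (2 : F) ≠ 0)
    (hnd : ∀ v : ι → F, v ≠ 0 → ∃ x, QuadraticMap.polar Q v x ≠ 0) (X Y : GL ι F)
    (hXX : (X : Matrix ι ι F) * X = 1) (hXQ : ∀ v, Q ((X : Matrix ι ι F) *ᵥ v) = Q v) {c : F} (hc : c ≠ 0)
    (hYQ : ∀ v, Q ((Y : Matrix ι ι F) *ᵥ v) = c * Q v) (hrel : (X : Matrix ι ι F) * Y = -((Y : Matrix ι ι F) * X))
    {a : ℕ} (hcard : Fintype.card ι = 2 * (2 * a)) : Ty.Plus Q ⊤ := by
  classical
  let Vp : Submodule F (ι → F) :=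
    { carrier := {v | (X : Matrix ι ι F) *ᵥ v = v}
      add_mem' := fun {a b} (ha : (X : Matrix ι ι F) *ᵥ a = a) (hb : (X : Matrix ι ι F) *ᵥ b = b) =>
        show (X : Matrix ι ι F) *ᵥ (a + b) = a + b by rw [Matrix.mulVec_add, ha, hb]
      zero_mem' := show (X : Matrix ι ι F) *ᵥ 0 = 0 by rw [Matrix.mulVec_zero]
      smul_mem' := fun s a (ha : (X : Matrix ι ι F) *ᵥ a = a) =>
        show (X : Matrix ι ι F) *ᵥ (s • a) = s • a by rw [Matrix.mulVec_smul, ha] }
  let Vm : Submodule F (ι → F) :=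
    { carrier := {v | (X : Matrix ι ι F) *ᵥ v = -v}
      add_mem' := fun {a b} (ha : (X : Matrix ι ι F) *ᵥ a = -a) (hb : (X : Matrix ι ι F) *ᵥ b = -b) =>
        show (X : Matrix ι ι F) *ᵥ (a + b) = -(a + b) by rw [Matrix.mulVec_add, ha, hb, neg_add]
      zero_mem' := show (X : Matrix ι ι F) *ᵥ 0 = -0 by rw [Matrix.mulVec_zero, neg_zero]
      smul_mem' := fun s a (ha : (X : Matrix ι ι F) *ᵥ a = -a) =>
        show (X : Matrix ι ι F) *ᵥ (s • a) = -(s • a) by rw [Matrix.mulVec_smul, ha, smul_neg] }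
  have hp : ∀ v, v ∈ Vp ↔ (X : Matrix ι ι F) *ᵥ v = v := fun v => Iff.rfl
  have hm : ∀ v, v ∈ Vm ↔ (X : Matrix ι ι F) *ᵥ v = -v := fun v => Iff.rfl
  have hXX' : ∀ v, (X : Matrix ι ι F) *ᵥ ((X : Matrix ι ι F) *ᵥ v) = v := fun v => by
    rw [Matrix.mulVec_mulVec, hXX, Matrix.one_mulVec]
  have hhalf : (2⁻¹ : F) + 2⁻¹ = 1 := by
    field_simp
    norm_num
  have hdec : ∀ v : ι → F, ∃ p ∈ Vp, ∃ m ∈ Vm, p + m = v := by
    intro v
    refine ⟨(2⁻¹ : F) • (v + (X : Matrix ι ι F) *ᵥ v), ?_, (2⁻¹ : F) • (v - (X : Matrix ι ι F) *ᵥ v), ?_, ?_⟩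
    · rw [hp, Matrix.mulVec_smul, Matrix.mulVec_add, hXX', add_comm]
    · rw [hm, Matrix.mulVec_smul, Matrix.mulVec_sub, hXX', ← smul_neg, neg_sub]
    · calc (2⁻¹ : F) • (v + (X : Matrix ι ι F) *ᵥ v) + (2⁻¹ : F) • (v - (X : Matrix ι ι F) *ᵥ v) = ((2⁻¹ : F) + 2⁻¹) • v := by module
        _ = v := by rw [hhalf, one_smul]
  have hinf : Vp ⊓ Vm = ⊥ := by
    rw [eq_bot_iff]
    rintro v ⟨h3, h4⟩
    have h3' : (X : Matrix ι ι F) *ᵥ v = v := h3
    have h4' : (X : Matrix ι ι F) *ᵥ v = -v := h4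
    have h5 : (2 : F) • v = 0 := by
      rw [two_smul]
      nth_rw 1 [← h3']
      rw [h4', neg_add_cancel]
    exact (Submodule.mem_bot F).mpr ((smul_eq_zero.mp h5).resolve_left h2)
  have htop : Vp ⊔ Vm = ⊤ := by
    rw [eq_top_iff]
    intro v _
    obtain ⟨p, hp', m, hm', rfl⟩ := hdec v
    exact Submodule.add_mem_sup hp' hm'
  have hpolX : ∀ u v, QuadraticMap.polar Q ((X : Matrix ι ι F) *ᵥ u) ((X : Matrix ι ι F) *ᵥ v) = QuadraticMap.polar Q u v := by
    intro u v
    simp only [QuadraticMap.polar]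
    rw [← Matrix.mulVec_add, hXQ, hXQ, hXQ]
  have horth : ∀ u ∈ Vp, ∀ v ∈ Vm, QuadraticMap.polar Q u v = 0 := by
    intro u hu v hv
    have h3 := hpolX u v
    rw [(hp u).mp hu, (hm v).mp hv, QuadraticMap.polar_neg_right] at h3
    have h4 : (2 : F) * QuadraticMap.polar Q u v = 0 := by linear_combination -h3
    exact (mul_eq_zero.mp h4).resolve_left h2
  have hXY : ∀ v, (X : Matrix ι ι F) *ᵥ ((Y : Matrix ι ι F) *ᵥ v) = -((Y : Matrix ι ι F) *ᵥ ((X : Matrix ι ι F) *ᵥ v)) := by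
    intro v
    rw [Matrix.mulVec_mulVec, hrel, Matrix.neg_mulVec, Matrix.mulVec_mulVec]
  have hYpm : ∀ v ∈ Vp, (Y : Matrix ι ι F) *ᵥ v ∈ Vm := by
    intro v hv
    rw [hm, hXY, (hp v).mp hv]
  have hYmp : ∀ v ∈ Vm, (Y : Matrix ι ι F) *ᵥ v ∈ Vp := by
    intro v hv
    rw [hp, hXY, (hm v).mp hv, Matrix.mulVec_neg, neg_neg]
  have hinj : Function.Injective (Matrix.toLin' (Y : Matrix ι ι F)) := by
    intro x y hxy
    apply gl_mulVec_injective Y
    simpa [Matrix.toLin'_apply] using hxy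
  have hmp : Vp.map (Matrix.toLin' (Y : Matrix ι ι F)) ≤ Vm := by
    rintro _ ⟨v, hv, rfl⟩
    exact hYpm v hv
  have hmm : Vm.map (Matrix.toLin' (Y : Matrix ι ι F)) ≤ Vp := by
    rintro _ ⟨v, hv, rfl⟩
    exact hYmp v hv
  have hfp : Module.finrank F (Vp.map (Matrix.toLin' (Y : Matrix ι ι F))) = Module.finrank F Vp :=
    (Submodule.equivMapOfInjective _ hinj Vp).finrank_eq.symm
  have hfm : Module.finrank F (Vm.map (Matrix.toLin' (Y : Matrix ι ι F))) = Module.finrank F Vm :=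
    (Submodule.equivMapOfInjective _ hinj Vm).finrank_eq.symm
  have h3 := Submodule.finrank_mono hmp
  have h4 := Submodule.finrank_mono hmm
  rw [hfp] at h3
  rw [hfm] at h4
  have hsum := Submodule.finrank_sup_add_finrank_inf_eq Vp Vm
  rw [htop, hinf, finrank_top, finrank_bot, Module.finrank_fintype_fun_eq_card] at hsum
  have hdp : Module.finrank F Vp = 2 * a := by omega
  have hdm : Module.finrank F Vm = 2 * a := by omega
  have hmap : Vp.map (Matrix.toLin' (Y : Matrix ι ι F)) = Vm :=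
    Submodule.eq_of_le_of_finrank_eq hmp (by rw [hfp, hdp, hdm])
  let E : Vp ≃ₗ[F] Vm := (Submodule.equivMapOfInjective _ hinj Vp).trans (LinearEquiv.ofEq _ _ hmap)
  have hE : ∀ w : Vp, Q ((E w : Vm) : ι → F) = (c • Q) (w : ι → F) := by
    intro w
    rw [QuadraticMap.smul_apply, smul_eq_mul]
    exact hYQ _
  have hndp : Cfsg.Agent.Lib.QuadFF.ND (Cfsg.Agent.Lib.QuadFF.restr Q Vp) := by
    apply Ty.nd_restr
    intro w hw hw0
    obtain ⟨x, hx⟩ := hnd w hw0
    obtain ⟨p, hp', m, hm', rfl⟩ := hdec x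
    refine ⟨p, hp', fun h0 => hx ?_⟩
    rw [QuadraticMap.polar_add_right, h0, horth w hw m hm', add_zero]
  rcases Ty.cases hdp hndp with h | h
  · have h' := Ty.Plus.of_iso (plus_scale h c) E hE
    have h5 := Ty.Plus.sup h h' hinf horth
    rwa [htop] at h5
  · have h' := Ty.Minus.of_iso (minus_scale h hc) E hE (Ty.polar_of_iso E hE)
    have h5 := Ty.Minus.sup h h' hinf horth
    rwa [htop] at h5

end Blocks

section Y

variable {f : (ι → F) → (ι → F) → F}

open XCtx (negU negU_central negU_sq negU_ne)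

/-- A group of isometries of a symmetric form, in odd characteristic, acting absolutely irreducibly, with central
commutators. -/
structure YCtx (f : (ι → F) → (ι → F) → F) (R : Subgroup (GL ι F)) : Prop where
  ctx : FCtx (RingHom.id F) 1 f
  two : (2 : F) ≠ 0
  fix : FFix f R
  span : spanG R = ⊤
  der : ⁅R, R⁆ ≤ scalars ι F

namespace YCtx

variable {R : Subgroup (GL ι F)}

theorem central_scalar (C : YCtx f R) {g : GL ι F} (h : ∀ x ∈ R, g * x = x * g) : g ∈ scalars ι F :=
  scalars_of_commute_span C.span h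

theorem scal_sq [Nonempty ι] (C : YCtx f R) {c : Fˣ} (hc : (scU c : GL ι F) ∈ R) : c ^ 2 = 1 := by
  obtain ⟨u, v, huv⟩ := C.ctx.exists_ne_of_nonempty
  have h1 := C.fix _ hc u v
  rw [scU_val, Matrix.smul_mulVec, Matrix.smul_mulVec, Matrix.one_mulVec, Matrix.one_mulVec, C.ctx.sesq.smul_left, C.ctx.sesq.smul_right,
    RingHom.id_apply] at h1
  apply Units.ext
  have h3 : ((c : F) * c - 1) * f u v = 0 := by linear_combination h1
  have h4 := (mul_eq_zero.mp h3).resolve_right huv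
  simp only [Units.val_pow_eq_pow_val, Units.val_one]
  linear_combination h4

theorem eq_or_neg [Nonempty ι] (C : YCtx f R) {c : Fˣ} (hc : (scU c : GL ι F) ∈ R) : c = 1 ∨ c = -1 := by
  have h1 := C.scal_sq hc
  have h2 : ((c : F) - 1) * ((c : F) + 1) = 0 := by
    have := congrArg Units.val h1
    simp only [Units.val_pow_eq_pow_val, Units.val_one] at this
    linear_combination this
  rcases mul_eq_zero.mp h2 with h | h
  · left
    exact Units.ext (sub_eq_zero.mp h)
  · right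
    apply Units.ext
    simp only [Units.val_neg, Units.val_one]
    exact eq_neg_of_add_eq_zero_left h

theorem comm' [Nonempty ι] (C : YCtx f R) {x y : GL ι F} (hx : x ∈ R) (hy : y ∈ R) : ∃ ξ : Fˣ, (scU ξ : GL ι F) ∈ R ∧ x * y = scU ξ * (y * x) := by
  have h1 : ⁅x, y⁆ ∈ scalars ι F := C.der (Subgroup.commutator_mem_commutator hx hy)
  obtain ⟨ξ, hξ⟩ := exists_scU h1
  have hmem : ⁅x, y⁆ ∈ R := by
    rw [commutatorElement_def]
    exact R.mul_mem (R.mul_mem (R.mul_mem hx hy) (R.inv_mem hx)) (R.inv_mem hy)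
  refine ⟨ξ, by rw [hξ]; exact hmem, ?_⟩
  rw [hξ, commutatorElement_def]
  group

theorem toW [Nonempty ι] (C : YCtx f R) : WCtx R :=
  ⟨fun x hx y hy => by
    obtain ⟨ξ, -, h⟩ := C.comm' hx hy
    exact ⟨ξ, h⟩, C.span⟩

theorem comm_or [Nonempty ι] (C : YCtx f R) {x y : GL ι F} (hx : x ∈ R) (hy : y ∈ R) : x * y = y * x ∨ x * y = negU ι F * (y * x) := by
  obtain ⟨ξ, hξ, h⟩ := C.comm' hx hy
  rcases C.eq_or_neg hξ with rfl | rfl
  · left
    rw [h, map_one, one_mul]
  · right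
    exact h

theorem exists_noncomm [Nonempty ι] (hn : 2 ≤ Fintype.card ι) (C : YCtx f R) : ∃ x ∈ R, ∃ y ∈ R, x * y ≠ y * x := by
  by_contra hall
  push Not at hall
  have hcomm : ∀ x y : Matrix ι ι F, x * y = y * x := by
    intro x y
    exact spanG_commute hall (by rw [C.span]; trivial) (by rw [C.span]; trivial)
  haveI : Nontrivial ι := Fintype.one_lt_card_iff_nontrivial.mp (by omega)
  obtain ⟨i, j, hj⟩ := exists_pair_ne ι
  have h3 := congrFun (congrFun (hcomm (Matrix.single i j 1) (Matrix.single j i 1)) i) i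
  simp [Matrix.mul_apply, Matrix.single_apply, hj, hj.symm] at h3

theorem negU_mem [Nonempty ι] (hn : 2 ≤ Fintype.card ι) (C : YCtx f R) : negU ι F ∈ R := by
  obtain ⟨x, hx, y, hy, hne⟩ := C.exists_noncomm hn
  rcases C.comm_or hx hy with h | h
  · exact absurd h hne
  · obtain ⟨ξ, hξ, h'⟩ := C.comm' hx hy
    rcases C.eq_or_neg hξ with rfl | rfl
    · exfalso
      apply hne
      rw [h', map_one, one_mul]
    · exact hξ

theorem sq_or [Nonempty ι] (C : YCtx f R) {x : GL ι F} (hx : x ∈ R) : x * x = 1 ∨ x * x = negU ι F := by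
  have hs : x * x ∈ scalars ι F := by
    apply C.central_scalar
    intro y hy
    obtain ⟨ξ, hξ, h⟩ := C.comm' hx hy
    have h1 := C.scal_sq hξ
    have h2 : (scU ξ : GL ι F) * scU ξ = 1 := by
      rw [← map_mul, ← pow_two, h1, map_one]
    calc x * x * y = x * (x * y) := mul_assoc _ _ _
      _ = x * (scU ξ * (y * x)) := by rw [h]
      _ = scU ξ * ((x * y) * x) := by
          rw [← mul_assoc, scU_central, mul_assoc, mul_assoc]
      _ = scU ξ * (scU ξ * (y * x) * x) := by rw [h]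
      _ = (scU ξ * scU ξ) * (y * (x * x)) := by simp only [mul_assoc]
      _ = y * (x * x) := by rw [h2, one_mul]
  obtain ⟨c, hc⟩ := exists_scU hs
  have hmem : (scU c : GL ι F) ∈ R := by
    rw [hc]
    exact R.mul_mem hx hx
  rcases C.eq_or_neg hmem with rfl | rfl
  · left
    rw [← hc, map_one]
  · right
    rw [← hc]

theorem pow_four [Nonempty ι] (C : YCtx f R) {x : GL ι F} (hx : x ∈ R) : x ^ 4 = 1 := by
  have e : x ^ 4 = (x * x) * (x * x) := by simp only [pow_succ, pow_zero, one_mul, mul_assoc]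
  rw [e]
  rcases C.sq_or hx with h | h
  · rw [h, one_mul]
  · rw [h, negU_sq]

theorem isPGroup [Nonempty ι] (C : YCtx f R) : IsPGroup 2 R := by
  intro g
  refine ⟨2, ?_⟩
  apply Subtype.ext
  rw [Subgroup.coe_pow]
  exact C.pow_four g.2

theorem card_scal [Nonempty ι] (hn : 2 ≤ Fintype.card ι) (C : YCtx f R) : Nat.card ((scalars ι F).subgroupOf R) = 2 := by
  classical
  rw [Nat.card_eq_two_iff]
  refine ⟨1, ⟨⟨negU ι F, C.negU_mem hn⟩, Subgroup.mem_subgroupOf.mpr (scU_mem _)⟩, ?_, ?_⟩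
  · intro h
    have := congrArg (fun x : (scalars ι F).subgroupOf R => ((x : R) : GL ι F)) h
    exact negU_ne C.two this.symm
  · ext ⟨⟨x, hx⟩, hs⟩
    simp only [Set.mem_insert_iff, Set.mem_singleton_iff, Set.mem_univ, iff_true]
    obtain ⟨c, rfl⟩ := exists_scU (Subgroup.mem_subgroupOf.mp hs)
    rcases C.eq_or_neg hx with rfl | rfl
    · left
      apply Subtype.ext
      apply Subtype.ext
      simp
    · right
      rfl

theorem card_center [Nonempty ι] (hn : 2 ≤ Fintype.card ι) (C : YCtx f R) : Nat.card (Subgroup.center R) = 2 := by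
  rw [C.toW.center_eq]
  exact C.card_scal hn

theorem exists_k [Finite F] [Nonempty ι] (hn : 2 ≤ Fintype.card ι) (C : YCtx f R) :
    ∃ k : ℕ, Fintype.card ι = 2 ^ k ∧ Nat.card R = 2 ^ (1 + 2 * k) := by
  have : Fact (Nat.Prime 2) := ⟨Nat.prime_two⟩
  have hQ : IsPGroup 2 (R ⧸ (scalars ι F).subgroupOf R) := C.isPGroup.to_quotient _
  obtain ⟨j, hj⟩ := IsPGroup.iff_card.mp hQ
  have h1 := C.toW.card_quot
  rw [hj] at h1
  have h2 : Fintype.card ι ∣ 2 ^ j := ⟨_, h1⟩
  obtain ⟨k, -, hk⟩ := (Nat.dvd_prime_pow Nat.prime_two).mp h2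
  refine ⟨k, hk, ?_⟩
  have h3 : (2 : ℕ) ^ j = 2 ^ (2 * k) := by
    rw [h1, hk, two_mul, pow_add]
  have h4 := Subgroup.card_eq_card_quotient_mul_card_subgroup ((scalars ι F).subgroupOf R)
  rw [h4, hj, h3, C.card_scal hn, mul_comm, pow_add, pow_one]

theorem exists_sep [Finite F] [Nonempty ι] (hn : 4 ≤ Fintype.card ι) (C : YCtx f R) (a c : R) (hac' : (a : GL ι F) * c ≠ c * a) :
    ∃ x v : R, (x : GL ι F) * a = a * x ∧ (x : GL ι F) * c = c * x ∧ (x : GL ι F) * v ≠ v * x := by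
  classical
  have hn2 : 2 ≤ Fintype.card ι := by omega
  have hneg := negU_central (ι := ι) (F := F)
  have hnn := negU_sq (ι := ι) (F := F)
  have hnR := C.negU_mem hn2
  choose χ hχ using fun x : R => C.toW.exists_char x
  have hone : ∀ x y : R, χ x y = 1 → (y : GL ι F) * x = x * y := by
    intro x y h
    rw [hχ, h, map_one, one_mul]
  have hone' : ∀ x y : R, (y : GL ι F) * x = x * y → χ x y = 1 := by
    intro x y h
    have h1 := hχ x y
    rw [h] at h1
    have h2 : (scU (χ x y) : GL ι F) = 1 := by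
      have h3 : (1 : GL ι F) * ((x : GL ι F) * (y : GL ι F)) = scU (χ x y) * ((x : GL ι F) * (y : GL ι F)) := by rw [one_mul]; exact h1
      exact (mul_right_cancel h3).symm
    apply scU_injective (ι := ι)
    rw [h2, map_one]
  have hvals : ∀ x y : R, χ x y = 1 ∨ χ x y = -1 := by
    intro x y
    apply C.eq_or_neg
    have h1 : (scU (χ x y) : GL ι F) = (y * x * (x * y)⁻¹ : R) := by
      simp only [Subgroup.coe_mul, Subgroup.coe_inv]
      rw [hχ x y]
      group
    rw [h1]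
    exact Subtype.coe_prop _
  have hneg1 : ∀ x y : R, (y : GL ι F) * x ≠ x * y → χ x y = -1 := by
    intro x y h
    rcases hvals x y with h1 | h1
    · exact absurd (hone x y h1) h
    · exact h1
  have hsymm : ∀ x y : R, χ x y = 1 ↔ χ y x = 1 := by
    intro x y
    exact ⟨fun h => hone' _ _ (hone _ _ h).symm, fun h => hone' _ _ (hone _ _ h).symm⟩
  have hχac : χ a c = -1 := hneg1 a c (Ne.symm hac')
  have hχca : χ c a = -1 := hneg1 c a hac'
  have hχaa : χ a a = 1 := hone' a a rfl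
  have hχcc : χ c c = 1 := hone' c c rfl
  have hnegneg : (-1 : Fˣ) * (-1) = 1 := by simp
  -- the centraliser of the pair is not abelian
  have hex : ∃ x v : R, χ a x = 1 ∧ χ c x = 1 ∧ χ a v = 1 ∧ χ c v = 1 ∧ χ x v ≠ 1 := by
    by_contra hall
    push Not at hall
    have hS : ∀ y : R, ∃ s : R, (s = 1 ∨ s = a ∨ s = c ∨ s = a * c) ∧ χ a (y * s) = 1 ∧ χ c (y * s) = 1 := by
      intro y
      rcases hvals a y with h1 | h1 <;> rcases hvals c y with h2 | h2
      · exact ⟨1, Or.inl rfl, by simp [h1], by simp [h2]⟩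
      · exact ⟨a, Or.inr (Or.inl rfl), by simp [h1, hχaa], by simp [h2, hχca]⟩
      · exact ⟨c, Or.inr (Or.inr (Or.inl rfl)), by simp [h1, hχac], by simp [h2, hχcc]⟩
      · exact ⟨a * c, Or.inr (Or.inr (Or.inr rfl)), by simp [h1, hχaa, hχac], by simp [h2, hχca, hχcc]⟩
    -- elements of the centraliser are central
    have hcentral : ∀ d : R, χ a d = 1 → χ c d = 1 → ∀ y : R, χ d y = 1 := by
      intro d h1 h2 y
      obtain ⟨s, hs, h3, h4⟩ := hS y
      have h5 := hall d (y * s) h1 h2 h3 h4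
      have h6 : χ d s = 1 := by
        rcases hs with rfl | rfl | rfl | rfl
        · simp
        · exact (hsymm _ _).mp h1
        · exact (hsymm _ _).mp h2
        · rw [map_mul, (hsymm _ _).mp h1, (hsymm _ _).mp h2, one_mul]
      rw [map_mul, h6, mul_one] at h5
      exact h5
    have hscal : ∀ y : R, ∃ s : R, (s = 1 ∨ s = a ∨ s = c ∨ s = a * c) ∧ ((y * s : R) : GL ι F) ∈ scalars ι F := by
      intro y
      obtain ⟨s, hs, h3, h4⟩ := hS y
      refine ⟨s, hs, C.central_scalar fun x hx => ?_⟩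
      exact (hone _ _ (hcentral _ h3 h4 ⟨x, hx⟩)).symm
    -- the quotient has at most four elements
    let g : Fin 4 → R ⧸ (scalars ι F).subgroupOf R := fun i =>
      (QuotientGroup.mk (![1, a, c, a * c] i) : R ⧸ (scalars ι F).subgroupOf R)⁻¹
    have hg : Function.Surjective g := by
      intro t
      obtain ⟨y, rfl⟩ := QuotientGroup.mk_surjective t
      obtain ⟨s, hs, hy⟩ := hscal y
      have hmk : (QuotientGroup.mk y : R ⧸ (scalars ι F).subgroupOf R) = (QuotientGroup.mk s)⁻¹ := by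
        rw [eq_inv_iff_mul_eq_one, ← QuotientGroup.mk_mul, QuotientGroup.eq_one_iff, Subgroup.mem_subgroupOf]
        exact hy
      rcases hs with rfl | rfl | rfl | rfl
      · exact ⟨0, by simp only [g, hmk]; rfl⟩
      · exact ⟨1, by simp only [g, hmk]; rfl⟩
      · exact ⟨2, by simp only [g, hmk]; rfl⟩
      · exact ⟨3, by simp only [g, hmk]; rfl⟩
    have hcard := Nat.card_le_card_of_surjective g hg
    rw [C.toW.card_quot, Nat.card_eq_fintype_card, Fintype.card_fin] at hcard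
    nlinarith
  obtain ⟨x, v, hx1, hx2, hv1, hv2, hxv⟩ := hex
  exact ⟨x, v, hone _ _ hx1, hone _ _ hx2, fun h => hxv (hone' _ _ h.symm)⟩


theorem exists_involution [Finite F] [Nonempty ι] (hn : 4 ≤ Fintype.card ι) (C : YCtx f R) :
    ∃ a ∈ R, ∃ b ∈ R, a * a = 1 ∧ a * b = negU ι F * (b * a) := by
  have hn2 : 2 ≤ Fintype.card ι := by omega
  obtain ⟨x, hx, y, hy, hne⟩ := C.exists_noncomm hn2
  have hxy := (C.comm_or hx hy).resolve_left hne
  have hyx := (C.comm_or hy hx).resolve_left (fun h => hne h.symm)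
  rcases C.sq_or hx with h | h
  · exact ⟨x, hx, y, hy, h, hxy⟩
  rcases C.sq_or hy with h' | h'
  · exact ⟨y, hy, x, hx, h', hyx⟩
  obtain ⟨z, v, h1, h3, h4⟩ := C.exists_sep hn ⟨x, hx⟩ ⟨y, hy⟩ hne
  have hzc : (z : GL ι F) ∈ R := z.2
  rcases C.sq_or z.2 with h5 | h5
  · exact ⟨z, z.2, v, v.2, h5, (C.comm_or z.2 v.2).resolve_left h4⟩
  · refine ⟨x * z, R.mul_mem hx z.2, y, hy, ?_, ?_⟩
    · have h1' : (z : GL ι F) * x = x * z := h1
      calc x * (z : GL ι F) * (x * z) = x * (z * x) * z := by group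
        _ = x * (x * z) * z := by rw [h1']
        _ = (x * x) * (z * z) := by group
        _ = 1 := by rw [h, h5, negU_sq]
    · have h1' : (z : GL ι F) * x = x * z := h1
      have h3' : (z : GL ι F) * y = y * z := h3
      calc x * (z : GL ι F) * y = x * (z * y) := by group
        _ = x * (y * z) := by rw [h3']
        _ = (x * y) * z := by group
        _ = negU ι F * (y * x) * z := by rw [hxy]
        _ = _ := by group

end YCtx

end Y

end Cfsg.Agent.H97.Asch
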