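import Cfsg.Agent.Lib.H97L8

/-!
The reduction theorem for isometries of a quadratic form in even dimension: the main theorem.
-/

set_option autoImplicit false
set_option linter.unusedSectionVars false
set_option linter.unusedSimpArgs false
set_option linter.style.haveILetI false

namespace Cfsg.Agent.H97.Asch

open Matrix Cfsg Cfsg.Geo
open scoped MatrixGroups commutatorElement Kronecker

variable {ι : Type} [Fintype ι] [DecidableEq ι] {F : Type*} [Field F] [Fintype F] {Q : (ι → F) → F} {K : Subgroup (GL ι F)}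

open XCtx (negU negU_central negU_sq negU_ne)

/-- Groups with central commutators acting absolutely irreducibly on a space with a quadratic form. -/
theorem ECtx.sym_case (C : ECtx Q K) (hn : 4 ≤ Fintype.card ι) {H N : Subgroup (GL ι F)}
    (hHK : H ≤ K) (hNH : N ≤ H) (hNt : spanG N = ⊤) (hNc : ⁅N, N⁆ ≤ scalars ι F) :
    (∃ k : ℕ, Fintype.card ι = 2 ^ k) ∧ ∀ a : ℕ, Fintype.card ι = 2 * (2 * a) → IsPlusTypeOn Q ⊤ := by
  classical
  have hne : Nonempty ι := Fintype.card_pos_iff.mp (by omega)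
  have hfixQ : ∀ g ∈ H, ∀ v, Q ((g : Matrix ι ι F) *ᵥ v) = Q v := fun g hg => C.fix g (hHK hg)
  have hfix : FFix (QuadraticMap.polar Q) H := fun g hg u v => fixes_polar (hfixQ g hg) u v
  by_cases hq : Odd (Fintype.card F)
  · have h2 := two_ne_of_odd_card hq
    have hY : YCtx (QuadraticMap.polar Q) N := ⟨C.fctx, h2, fun g hg u v => hfix g (hNH hg) u v, hNt, hNc⟩
    obtain ⟨k, hk, -⟩ := hY.exists_k (by omega)
    refine ⟨⟨k, hk⟩, fun a h4 => ?_⟩
    obtain ⟨x, hx, y, hy, hxx, hxy⟩ := hY.exists_involution hn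
    obtain ⟨Q', rfl⟩ := Cfsg.Agent.Lib.OmCalc.exists_toQF Q C.quad
    refine two_block_plus h2 (fun v hv => C.nd hv) x y ?_ (fun v => hfixQ x (hNH hx) v) one_ne_zero
      (fun v => by rw [one_mul]; exact hfixQ y (hNH hy) v) ?_ h4
    · rw [← Units.val_mul, hxx, Units.val_one]
    · rw [← Units.val_mul, hxy, Units.val_mul, scU_val, Matrix.smul_mul, Matrix.one_mul, Units.val_mul]
      simp
  · exfalso
    have h2 := two_eq_zero_of_not_odd hq
    have hcommN : ∀ a ∈ N, ∀ b ∈ N, a * b = b * a := by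
      intro a ha b hb
      have hz : ⁅a, b⁆ ∈ scalars ι F := hNc (Subgroup.commutator_mem_commutator ha hb)
      obtain ⟨ξ, hξ⟩ := (mem_scalars_iff _).mp hz
      have hzN : ⁅a, b⁆ ∈ N := by
        rw [commutatorElement_def]
        exact N.mul_mem (N.mul_mem (N.mul_mem ha hb) (N.inv_mem ha)) (N.inv_mem hb)
      have hv : ∃ v : ι → F, Q v ≠ 0 := by
        by_contra hall
        push Not at hall
        obtain ⟨v, hv⟩ := exists_ne (0 : ι → F)
        obtain ⟨x, hx⟩ := C.nd hv
        apply hx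
        simp only [QuadraticMap.polar]
        rw [hall, hall, hall]
        ring
      obtain ⟨v, hv⟩ := hv
      have h1 := hfixQ _ (hNH hzN) v
      rw [hξ, Matrix.smul_mulVec, Matrix.one_mulVec, C.Q_smul] at h1
      have h3 : (ξ : F) ^ 2 = 1 := by
        have : (ξ : F) ^ 2 * Q v = 1 * Q v := by rw [h1, one_mul]
        exact mul_right_cancel₀ hv this
      have h5 : (ξ : F) = 1 := by
        have h6 : ((ξ : F) - 1) * ((ξ : F) - 1) = 0 := by linear_combination h3 + (1 - (ξ : F)) * h2
        exact sub_eq_zero.mp (mul_self_eq_zero.mp h6)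
      have h4' : a * b = ⁅a, b⁆ * (b * a) := by
        rw [commutatorElement_def]; group
      apply Units.ext
      have h7 := congrArg Units.val h4'
      rw [Units.val_mul, Units.val_mul, hξ, h5, one_smul, Matrix.one_mul] at h7
      rw [Units.val_mul, h7]
    have hall : ∀ x y : Matrix ι ι F, x * y = y * x := by
      intro x y
      exact spanG_commute hcommN (by rw [hNt]; trivial) (by rw [hNt]; trivial)
    have : Nontrivial ι := Fintype.one_lt_card_iff_nontrivial.mp (by omega)
    obtain ⟨i, j, hj⟩ := exists_pair_ne ι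
    have h3 := congrFun (congrFun (hall (Matrix.single i j 1) (Matrix.single j i 1)) i) i
    simp [Matrix.mul_apply, Matrix.single_apply, hj, hj.symm] at h3

/-- an involution and an anticommuting similarity for a symmetric form on the plane -/
theorem exists_RS (h2 : (2 : F) ≠ 0) (A₀ : Matrix (Fin 2) (Fin 2) F) (hs : A₀ 0 1 = A₀ 1 0) (hdet : A₀.det ≠ 0) :
    ∃ (R S : GL (Fin 2) F) (c : F), c ≠ 0 ∧ (R : Matrix (Fin 2) (Fin 2) F) * R = 1 ∧
      (R : Matrix (Fin 2) (Fin 2) F)ᵀ * A₀ * R = A₀ ∧ (S : Matrix (Fin 2) (Fin 2) F)ᵀ * A₀ * S = c • A₀ ∧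
      (R : Matrix (Fin 2) (Fin 2) F) * S = -((S : Matrix (Fin 2) (Fin 2) F) * R) := by
  obtain ⟨p, hp⟩ : ∃ p, p = A₀ 0 0 := ⟨_, rfl⟩
  obtain ⟨q, hq⟩ : ∃ q, q = A₀ 0 1 := ⟨_, rfl⟩
  obtain ⟨r, hr⟩ : ∃ r, r = A₀ 1 1 := ⟨_, rfl⟩
  have hA : A₀ = !![p, q; q, r] := by
    rw [Matrix.eta_fin_two A₀, ← hs, ← hp, ← hq, ← hr]
  have hD : p * r - q * q ≠ 0 := by
    rw [hA, Matrix.det_fin_two] at hdet
    simpa using hdet
  have hne1 : (-1 : F) ≠ 0 := neg_ne_zero.mpr one_ne_zero
  by_cases hp0 : p = 0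
  · by_cases hr0 : r = 0
    · have hq0 : q ≠ 0 := by
        intro h
        apply hD
        rw [hp0, h]
        ring
      refine ⟨Matrix.GeneralLinearGroup.mkOfDetNeZero !![0, 1; 1, 0] (by simp [Matrix.det_fin_two]),
        Matrix.GeneralLinearGroup.mkOfDetNeZero !![1, 0; 0, -1] (by simp [Matrix.det_fin_two]), -1, hne1, ?_, ?_, ?_, ?_⟩
      all_goals
        simp only [Matrix.GeneralLinearGroup.val_mkOfDetNeZero, hA, hp0, hr0]
        ext i j
        fin_cases i <;> fin_cases j <;> simp [Matrix.mul_apply, Fin.sum_univ_two]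
    · have hq' : -1 * (p * r - q * q) = q * q - p * r := by ring
      refine ⟨Matrix.GeneralLinearGroup.mkOfDetNeZero !![-1, 0; 2 * q / r, 1] (by simp [Matrix.det_fin_two]),
        Matrix.GeneralLinearGroup.mkOfDetNeZero !![q, r; -p, -q] (by
          simp only [Matrix.det_fin_two, Matrix.of_apply, Matrix.cons_val', Matrix.cons_val_zero, Matrix.cons_val_one, Matrix.cons_val_fin_one]
          intro h
          apply hD
          linear_combination h), p * r - q * q, hD, ?_, ?_, ?_, ?_⟩
      all_goals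
        simp only [Matrix.GeneralLinearGroup.val_mkOfDetNeZero, hA]
        ext i j
        fin_cases i <;> fin_cases j <;> simp [Matrix.mul_apply, Fin.sum_univ_two] <;> field_simp <;> ring
  · refine ⟨Matrix.GeneralLinearGroup.mkOfDetNeZero !![1, 2 * q / p; 0, -1] (by simp [Matrix.det_fin_two]),
      Matrix.GeneralLinearGroup.mkOfDetNeZero !![-q, -r; p, q] (by
        simp only [Matrix.det_fin_two, Matrix.of_apply, Matrix.cons_val', Matrix.cons_val_zero, Matrix.cons_val_one, Matrix.cons_val_fin_one]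
        intro h
        apply hD
        linear_combination h), p * r - q * q, hD, ?_, ?_, ?_, ?_⟩
    all_goals
      simp only [Matrix.GeneralLinearGroup.val_mkOfDetNeZero, hA]
      ext i j
      fin_cases i <;> fin_cases j <;> simp [Matrix.mul_apply, Fin.sum_univ_two] <;> field_simp <;> ring

theorem m_t_of_card {m t : ℕ} (hm : 2 ≤ m) (ht : 2 ≤ t) (h : m ^ t = 8 ∨ m ^ t = 10 ∨ m ^ t = 12) : m = 2 ∧ t = 3 := by
  have hle : m ^ t ≤ 12 := by omega
  have h1 : t ≤ 3 := by
    by_contra hc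
    have h3 : 2 ^ 4 ≤ m ^ t := (Nat.pow_le_pow_right (by norm_num) (by omega : 4 ≤ t)).trans (Nat.pow_le_pow_left hm t)
    omega
  have h2 : m ≤ 3 := by
    by_contra hc
    have h3 : 4 ^ 2 ≤ m ^ t := (Nat.pow_le_pow_left (by omega : 4 ≤ m) 2).trans (Nat.pow_le_pow_right (by omega) ht)
    omega
  interval_cases m <;> interval_cases t <;> simp_all

theorem card_sub_first : Fintype.card {a : Fin 3 → Fin 2 // a 0 = 0} = 4 := by decide

/-- Tensor cubes of a plane carry forms of plus type. -/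
theorem ECtx.wreath_case (C : ECtx Q K) (hcard : Fintype.card ι = 8 ∨ Fintype.card ι = 10 ∨ Fintype.card ι = 12) {H : Subgroup (GL ι F)} (hHK : H ≤ K)
    (hirr : Irr H) {m t : ℕ} (hm : 2 ≤ m) (ht : 2 ≤ t) (hcm : Fintype.card ι = m ^ t) {e : ι ≃ (Fin t → Fin m)} {P : GL ι F}
    {A₀ : Matrix (Fin m) (Fin m) F} {κ ε₁ : F} (hW : FWreath (RingHom.id F) 1 (QuadraticMap.polar Q) H e P A₀ κ ε₁) :
    Fintype.card ι = 8 ∧ IsPlusTypeOn Q ⊤ := by
  classical
  obtain ⟨rfl, rfl⟩ := m_t_of_card hm ht (by rw [← hcm]; exact hcard)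
  have h8 : Fintype.card ι = 8 := by rw [hcm]; norm_num
  refine ⟨h8, ?_⟩
  have hne : Nonempty ι := Fintype.card_pos_iff.mp (by omega)
  have hnorm := hW.ctx.eps_norm
  simp only [RingHom.id_apply] at hnorm
  by_cases hq : Odd (Fintype.card F)
  · have h2 := two_ne_of_odd_card hq
    have hrel := hW.rel
    simp only [RingHom.id_apply] at hrel
    have hε : ε₁ ^ 3 = 1 := by
      have h3 : κ * (ε₁ ^ 3 - 1) = 0 := by linear_combination hrel
      exact sub_eq_zero.mp ((mul_eq_zero.mp h3).resolve_left hW.ne)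
    have hε₁ : ε₁ = 1 := by linear_combination hε - ε₁ * hnorm
    subst hε₁
    have hAs : ∀ a b, A₀ a b = A₀ b a := by
      intro a b
      have := hW.ctx.herm (Pi.single a 1) (Pi.single b 1)
      rw [formOfGram_single, formOfGram_single, one_mul] at this
      exact this
    have hdet : A₀.det ≠ 0 := by
      intro h0
      obtain ⟨y, hy0, hy⟩ := Matrix.exists_mulVec_eq_zero_iff.mpr h0
      obtain ⟨x, hx⟩ := hW.ctx.ndl y hy0
      apply hx
      have e1 : formOfGram (((RingHom.id F : F →+* F)) : F → F) A₀ x y = x ⬝ᵥ (A₀ *ᵥ y) := by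
        simp only [formOfGram, dotProduct, Matrix.mulVec, Finset.mul_sum, mul_assoc, RingHom.id_apply]
      rw [e1, hy, dotProduct_zero]
    obtain ⟨R, S, c, hc, hRR, hRA, hSA, hRS⟩ := exists_RS h2 A₀ (hAs 0 1) hdet
    have hpolar : ∀ (G : Fin 3 → GL (Fin 2) F) (d : Fin 3 → F),
        (∀ i, (G i : Matrix (Fin 2) (Fin 2) F)ᵀ * A₀ * (G i : Matrix (Fin 2) (Fin 2) F) = d i • A₀) → ∀ u v,
        QuadraticMap.polar Q ((rhoHom e P G : Matrix ι ι F) *ᵥ u) ((rhoHom e P G : Matrix ι ι F) *ᵥ v) = (∏ i, d i) * QuadraticMap.polar Q u v := by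
      intro G d hG u v
      obtain ⟨x', rfl⟩ := pv_surj e P u
      obtain ⟨y', rfl⟩ := pv_surj e P v
      rw [rho_mulVec, rho_mulVec, hW.eqn, hW.eqn, wreath_eqn_gram, wreath_eqn_gram, formOfGram_mulVec]
      have e1 : (pureM fun i => (G i : Matrix (Fin 2) (Fin 2) F))ᵀ * (pureM fun _ => A₀) *
          (pureM fun i => (G i : Matrix (Fin 2) (Fin 2) F)).map (RingHom.id F) = (∏ i, d i) • pureM (fun _ : Fin 3 => A₀) := by
        rw [pureM_transpose, pureM_map, pureM_mul, pureM_mul, ← pureM_smul']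
        congr 1
        funext i
        simp only [Pi.mul_apply]
        have : (G i : Matrix (Fin 2) (Fin 2) F).map (RingHom.id F) = (G i : Matrix (Fin 2) (Fin 2) F) := by
          ext a b
          simp
        rw [this]
        exact hG i
      rw [e1, formOfGram_smul]
      ring
    have hQof : ∀ (G : Fin 3 → GL (Fin 2) F) (d : Fin 3 → F),
        (∀ i, (G i : Matrix (Fin 2) (Fin 2) F)ᵀ * A₀ * (G i : Matrix (Fin 2) (Fin 2) F) = d i • A₀) → ∀ v,
        Q ((rhoHom e P G : Matrix ι ι F) *ᵥ v) = (∏ i, d i) * Q v := by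
      intro G d hG v
      have h3 := hpolar G d hG v v
      rw [C.self, C.self] at h3
      apply mul_left_cancel₀ h2
      linear_combination h3
    have hA1 : ((1 : GL (Fin 2) F) : Matrix (Fin 2) (Fin 2) F)ᵀ * A₀ * ((1 : GL (Fin 2) F) : Matrix (Fin 2) (Fin 2) F) = (1 : F) • A₀ := by
      simp
    let gs : Fin 3 → GL (Fin 2) F := ![R, 1, 1]
    let hs : Fin 3 → GL (Fin 2) F := ![S, 1, 1]
    have hgs : ∀ i, (gs i : Matrix (Fin 2) (Fin 2) F)ᵀ * A₀ * (gs i : Matrix (Fin 2) (Fin 2) F) = (![1, 1, 1] : Fin 3 → F) i • A₀ := by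
      intro i
      fin_cases i
      · simpa [gs] using hRA
      · simp [gs]
      · simp [gs]
    have hhs : ∀ i, (hs i : Matrix (Fin 2) (Fin 2) F)ᵀ * A₀ * (hs i : Matrix (Fin 2) (Fin 2) F) = (![c, 1, 1] : Fin 3 → F) i • A₀ := by
      intro i
      fin_cases i
      · simpa [hs] using hSA
      · simp [hs]
      · simp [hs]
    have hXQ := hQof gs _ hgs
    have hYQ := hQof hs _ hhs
    have hp1 : ∏ i, (![1, 1, 1] : Fin 3 → F) i = 1 := by simp [Fin.prod_univ_three]
    have hp2 : ∏ i, (![c, 1, 1] : Fin 3 → F) i = c := by simp [Fin.prod_univ_three]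
    rw [hp1] at hXQ
    rw [hp2] at hYQ
    have hgg : gs * gs = 1 := by
      funext i
      apply Units.ext
      fin_cases i
      · simpa [gs] using hRR
      · simp [gs]
      · simp [gs]
    have hkey : pureM (fun i => (gs i : Matrix (Fin 2) (Fin 2) F)) * pureM (fun i => (hs i : Matrix (Fin 2) (Fin 2) F)) =
        -(pureM (fun i => (hs i : Matrix (Fin 2) (Fin 2) F)) * pureM (fun i => (gs i : Matrix (Fin 2) (Fin 2) F))) := by
      rw [pureM_mul, pureM_mul]
      have e1 : (fun i => (gs i : Matrix (Fin 2) (Fin 2) F)) * (fun i => (hs i : Matrix (Fin 2) (Fin 2) F)) =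
          fun i => (![-1, 1, 1] : Fin 3 → F) i • ((fun i => (hs i : Matrix (Fin 2) (Fin 2) F)) * (fun i => (gs i : Matrix (Fin 2) (Fin 2) F))) i := by
        funext i
        fin_cases i
        · simpa [gs, hs] using hRS
        · simp [gs, hs]
        · simp [gs, hs]
      rw [e1, pureM_smul']
      have hp3 : ∏ i, (![-1, 1, 1] : Fin 3 → F) i = -1 := by simp [Fin.prod_univ_three]
      rw [hp3, neg_one_smul]
    obtain ⟨Q', rfl⟩ := Cfsg.Agent.Lib.OmCalc.exists_toQF Q C.quad
    refine two_block_plus h2 (fun v hv => C.nd hv) (rhoHom e P gs) (rhoHom e P hs) ?_ (fun v => ?_) hc hYQ ?_ (a := 2) (by omega)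
    · rw [← Units.val_mul, ← map_mul, hgg, map_one, Units.val_one]
    · rw [hXQ, one_mul]
    · apply mat_eq_of_pv e P
      intro z
      rw [Matrix.neg_mulVec, ← Matrix.mulVec_mulVec, ← Matrix.mulVec_mulVec, rho_mulVec, rho_mulVec, rho_mulVec, rho_mulVec,
        Matrix.mulVec_mulVec, Matrix.mulVec_mulVec, hkey, Matrix.neg_mulVec]
      have e2 : ∀ y : (Fin 3 → Fin 2) → F, (-y) ∘ e = -(y ∘ e) := fun _ => rfl
      rw [e2, Matrix.mulVec_neg]
  · have h2 := two_eq_zero_of_not_odd hq
    have hε₁ : ε₁ = 1 := by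
      have h3 : (ε₁ - 1) * (ε₁ - 1) = 0 := by linear_combination hnorm + (1 - ε₁) * h2
      exact sub_eq_zero.mp (mul_self_eq_zero.mp h3)
    subst hε₁
    have hAs : ∀ a b, A₀ a b = A₀ b a := by
      intro a b
      have := hW.ctx.herm (Pi.single a 1) (Pi.single b 1)
      rw [formOfGram_single, formOfGram_single, one_mul] at this
      exact this
    have halt' : ∀ u, formOfGram (((RingHom.id F : F →+* F)) : F → F) A₀ u u = 0 := by
      intro u
      have h3 := hW.form_tv (fun _ => u) (fun _ => u)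
      rw [C.self, Finset.prod_const, Finset.card_univ, Fintype.card_fin] at h3
      have h3' : κ * (formOfGram (((RingHom.id F : F →+* F)) : F → F) A₀ u u) ^ 3 = 0 := by
        rw [← h3, h2, zero_mul]
      have h4 := (mul_eq_zero.mp h3').resolve_left hW.ne
      exact pow_eq_zero_iff (by omega) |>.mp h4
    have hA : ∀ a, A₀ a a = 0 := by
      intro a
      have := halt' (Pi.single a 1)
      rwa [formOfGram_single] at this
    let i₀ : Fin 3 := 0
    let i₁ : Fin 3 := 1
    have hi : i₁ ≠ i₀ := by decide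
    let Γ : Matrix (Fin 3 → Fin 2) (Fin 3 → Fin 2) F := fun a b => κ * ∏ i, A₀ (a i) (b i)
    obtain ⟨Q'', hsm, hpol, hval⟩ := exists_level_quad (f := QuadraticMap.polar Q) e P (Γ := Γ) (ℓ := fun x => x i₀)
      (fun a b => by
        simp only [Γ]
        congr 1
        exact Finset.prod_congr rfl fun i _ => hAs _ _)
      (fun a b h => by
        simp only [Γ]
        rw [Finset.prod_eq_zero (Finset.mem_univ i₀) (by rw [show a i₀ = b i₀ from h, hA]), mul_zero])
      (fun x y => by
        rw [hW.eqn, Finset.mul_sum]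
        refine Finset.sum_congr rfl fun a _ => ?_
        rw [Finset.mul_sum]
        refine Finset.sum_congr rfl fun b _ => ?_
        simp only [Γ, RingHom.id_apply]
        ring)
    have hpure := C.pure_singular h2 (by omega) hHK hirr (span_tvW e P) (by
      rintro g hg _ ⟨u, rfl⟩
      obtain ⟨τ, gs, hτ⟩ := wreath_action_tv (hW.le hg)
      exact ⟨_, hτ u⟩) hsm hpol (by
      rintro _ ⟨u, rfl⟩
      rw [hval]
      let h : Fin 3 → Fin 2 → Fin 2 → F := fun i c c' =>
        if i = i₀ then (if c < c' then u i c * A₀ c c' * u i c' else 0) else u i c * A₀ c c' * u i c'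
      have e1 : levelQ Γ (fun x => x i₀) (tvW u) = κ * ∏ i, ∑ c, ∑ c', h i c c' := by
        rw [← sum_sum_prod_pi]
        simp only [levelQ, Finset.mul_sum]
        refine Finset.sum_congr rfl fun a _ => Finset.sum_congr rfl fun b _ => ?_
        have e2 : ∏ i, h i (a i) (b i) = if a i₀ < b i₀ then ∏ i, (u i (a i) * A₀ (a i) (b i) * u i (b i)) else 0 := by
          split_ifs with hlt
          · refine Finset.prod_congr rfl fun i _ => ?_
            by_cases hii : i = i₀
            · subst hii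
              simp [h, hlt]
            · simp [h, hii]
          · refine Finset.prod_eq_zero (Finset.mem_univ i₀) ?_
            simp [h, hlt]
        rw [e2]
        split_ifs
        · simp only [Γ, tvW, Finset.prod_mul_distrib]
          ring
        · simp
      rw [e1, Finset.prod_eq_zero (Finset.mem_univ i₁), mul_zero]
      have e3 := halt' (u i₁)
      simp only [formOfGram, RingHom.id_apply] at e3
      simpa [h, hi] using e3)
    -- the totally singular subspace
    let b' : {a : Fin 3 → Fin 2 // a 0 = 0} → (ι → F) := fun a => (P : Matrix ι ι F) *ᵥ ((Pi.single a.1 (1 : F) : (Fin 3 → Fin 2) → F) ∘ e)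
    have hb'tv : ∀ a, b' a = (P : Matrix ι ι F) *ᵥ (tvW (fun i => Pi.single (a.1 i) (1 : F)) ∘ e) := by
      intro a
      simp only [b']
      rw [tvW_single]
    have hli : LinearIndependent F b' := by
      rw [Fintype.linearIndependent_iff]
      intro c hc a
      by_contra hca
      have e1 : ∑ a, c a • b' a = (P : Matrix ι ι F) *ᵥ ((∑ a, c a • (Pi.single a.1 (1 : F) : (Fin 3 → Fin 2) → F)) ∘ e) := by
        have e2 : (∑ a, c a • (Pi.single a.1 (1 : F) : (Fin 3 → Fin 2) → F)) ∘ e = ∑ a, c a • ((Pi.single a.1 (1 : F) : (Fin 3 → Fin 2) → F) ∘ e) := by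
          funext k
          simp [Finset.sum_apply]
        rw [e2, Matrix.mulVec_sum]
        refine Finset.sum_congr rfl fun a _ => ?_
        have e3 : (c a • ((Pi.single a.1 (1 : F) : (Fin 3 → Fin 2) → F) ∘ e)) = c a • ((Pi.single a.1 (1 : F) : (Fin 3 → Fin 2) → F) ∘ e) := rfl
        rw [e3, Matrix.mulVec_smul]
      rw [e1] at hc
      refine pv_ne_zero e P ?_ hc
      intro h0
      apply hca
      have h3 := congrFun h0 a.1
      simp only [Finset.sum_apply, Pi.smul_apply, smul_eq_mul, Pi.zero_apply] at h3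
      rw [Finset.sum_eq_single a] at h3
      · simpa using h3
      · intro b _ hb
        have : a.1 ≠ b.1 := fun h => hb (Subtype.ext h.symm)
        simp [Pi.single_eq_of_ne this]
      · simp
    obtain ⟨Q', rfl⟩ := Cfsg.Agent.Lib.OmCalc.exists_toQF Q C.quad
    have hts := Ty.ts_span (Q := Q') (S := Set.range b') (by
      rintro _ ⟨a, rfl⟩
      rw [hb'tv]
      exact hpure _ ⟨_, rfl⟩) (by
      rintro _ ⟨a, rfl⟩ _ ⟨a', rfl⟩
      rw [hb'tv, hb'tv, hW.form_tv, Finset.prod_eq_zero (Finset.mem_univ (0 : Fin 3)), mul_zero]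
      rw [formOfGram_single, a.2, a'.2, hA])
    refine ⟨Submodule.span F (Set.range b'), le_top, hts, ?_⟩
    rw [finrank_span_eq_card hli, finrank_top, Module.finrank_fintype_fun_eq_card, h8]
    have : Fintype.card {a : Fin 3 → Fin 2 // a 0 = 0} = 4 := by
      convert card_sub_first
    rw [this]

/-- The reduction theorem in even dimension. -/
theorem ECtx.main (C : ECtx Q K) (hcard : Fintype.card ι = 8 ∨ Fintype.card ι = 10 ∨ Fintype.card ι = 12) {H : Subgroup (GL ι F)} (hHK : H ≤ K) :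
    EvenOutcome Q H := by
  classical
  have hn : 8 ≤ Fintype.card ι := by omega
  have hne : Nonempty ι := Fintype.card_pos_iff.mp (by omega)
  have hC := C.fctx
  have hfix : FFix (QuadraticMap.polar Q) H := fun g hg u v => fixes_polar (C.fix g (hHK hg)) u v
  have hsq : ∀ s, Fintype.card ι ≠ s * s := by
    intro s hs
    have h1 : s ≤ 3 := by
      by_contra hc
      have : 4 * 4 ≤ s * s := Nat.mul_le_mul (by omega) (by omega)
      omega
    interval_cases s <;> omega
  by_cases hirr : Irr H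
  · rcases star_flow hC (by omega) hirr hfix with h | ⟨ℓ, K', N, hℓ, hK', hst, hle, hNH, hNs, hcomm⟩ |
      ⟨d, m, e, P, A₀, C₀, ε₁, ε₂, hd, hm, hcd, hT⟩ | ⟨N, hNH, hNn, hNt, hNc, -, -⟩ | ⟨m, t, e, P, A₀, κ, ε₁, hm, ht, hcm, hW⟩ | ⟨P, hP⟩
    · exact C.class2_case (by omega) hHK hirr h
    · obtain ⟨g, hgN, hgs⟩ := SetLike.not_le_iff_exists.mp hNs
      exact Or.inr <| Or.inr <| Or.inr <| Or.inr <| Or.inr <| Or.inl
        ⟨ℓ, K', hℓ, hK', adjointClosed_of_star hC hst, hle, Or.inr ⟨g, hNH hgN, hgs, hcomm g hgN⟩⟩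
    · exact C.tensor_case (by omega) hsq hHK hirr hd hm hcd hT
    · obtain ⟨⟨k, hk⟩, h2⟩ := C.sym_case (by omega) hHK hNH hNt hNc
      have h8 : Fintype.card ι = 8 := by
        have hk3 : k ≤ 3 := by
          by_contra hc
          have : 2 ^ 4 ≤ 2 ^ k := Nat.pow_le_pow_right (by norm_num) (by omega)
          omega
        interval_cases k <;> omega
      exact Or.inr <| Or.inr <| Or.inr <| Or.inr <| Or.inr <| Or.inr <| Or.inr <| Or.inr <| Or.inr <| Or.inl ⟨h8, h2 2 (by omega)⟩
    · exact Or.inr <| Or.inr <| Or.inr <| Or.inr <| Or.inr <| Or.inr <| Or.inr <| Or.inr <| Or.inr <| Or.inl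
        (C.wreath_case hcard hHK hirr hm ht hcm hW)
    · exact C.core_case (by omega) hHK hP
  · exact C.reducible_case hHK hirr

end Cfsg.Agent.H97.Asch
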