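import Cfsg.Agent.Lib.H97L4

/-!
Types of sums of ten pairwise orthogonal lines; quadratic forms on ten dimensions.
-/

set_option autoImplicit false
set_option linter.unusedSectionVars false
set_option linter.unusedSimpArgs false
set_option linter.unusedVariables false

universe u v

namespace Cfsg.Agent.H97.Ty

open Module QuadraticMap Cfsg.Agent.Lib.QuadFF Cfsg.Agent.Lib.QuadClass Cfsg.Agent.Lib.QuadClass2
open Cfsg Cfsg.Geo

variable {F : Type u} [Field F] {V : Type v} [AddCommGroup V] [Module F V] {Q : QuadraticForm F V}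

theorem isSquare_mul_nn [Finite F] {a b : F} (ha : ¬ IsSquare a) (hb : ¬ IsSquare b) : IsSquare (a * b) := by
  classical
  have := Fintype.ofFinite F
  have ha0 : a ≠ 0 := fun h => ha (h ▸ IsSquare.zero)
  have hb0 : b ≠ 0 := fun h => hb (h ▸ IsSquare.zero)
  rw [← quadraticChar_one_iff_isSquare (mul_ne_zero ha0 hb0), map_mul,
    (quadraticChar_neg_one_iff_not_isSquare (F := F)).mpr ha,
    (quadraticChar_neg_one_iff_not_isSquare (F := F)).mpr hb]
  norm_num

/-- an anisotropic or hyperbolic plane spanned by orthogonal vectors -/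
theorem plane_plus_iff (h2 : (2 : F) ≠ 0) {u v : V} (huv : polar Q u v = 0) (hu : Q u ≠ 0) (hv : Q v ≠ 0) :
    Plus Q (Submodule.span F {u, v}) ↔ IsSquare (-(Q u * Q v)) := by
  classical
  have hli : LinearIndependent F ![u, v] := by
    rw [LinearIndependent.pair_iff]
    intro s t hst
    have h1 : polar Q (s • u + t • v) u = 0 := by rw [hst, polar_zero_left]
    have h3 : polar Q (s • u + t • v) v = 0 := by rw [hst, polar_zero_left]
    rw [polar_add_left, polar_smul_left, polar_smul_left, polar_self_eq, polar_comm Q v u, huv] at h1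
    rw [polar_add_left, polar_smul_left, polar_smul_left, polar_self_eq, huv] at h3
    simp only [smul_eq_mul, mul_zero, add_zero, zero_add] at h1 h3
    have e1 : s = 0 := by
      rcases mul_eq_zero.mp h1 with h | h
      · exact h
      · exact absurd h (mul_ne_zero h2 hu)
    have e2 : t = 0 := by
      rcases mul_eq_zero.mp h3 with h | h
      · exact h
      · exact absurd h (mul_ne_zero h2 hv)
    exact ⟨e1, e2⟩
  have hfr : finrank F (Submodule.span F {u, v}) = 2 := by
    have := finrank_span_eq_card hli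
    have hr : Set.range ![u, v] = {u, v} := by
      ext x
      simp [Fin.exists_fin_two, eq_comm, or_comm]
    rw [hr] at this
    simpa using this
  have hQuadd : ∀ s t : F, Q (s • u + t • v) = s ^ 2 * Q u + t ^ 2 * Q v := by
    intro s t
    have h1 := polar_smul_left Q s u (t • v)
    have h3 : polar Q (s • u) (t • v) = 0 := by
      rw [polar_smul_left, polar_smul_right, huv]
      simp
    simp only [polar] at h3
    rw [QuadraticMap.map_smul, QuadraticMap.map_smul] at h3
    simp only [smul_eq_mul] at h3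
    linear_combination h3
  constructor
  · rintro ⟨U, hU, hts, hd⟩
    rw [hfr] at hd
    obtain ⟨w, hw, hw0⟩ := Submodule.exists_mem_ne_zero_of_ne_bot (p := U) (by
      rintro rfl
      simp at hd)
    obtain ⟨s, t, rfl⟩ := Submodule.mem_span_pair.mp (hU hw)
    have h0 := hts _ hw
    rw [hQuadd] at h0
    have ht : t ≠ 0 := by
      rintro rfl
      have hs : s = 0 := by
        have h3 : s ^ 2 * Q u = 0 := by simpa using h0
        have h4 := (mul_eq_zero.mp h3).resolve_right hu
        exact pow_eq_zero_iff (by norm_num) |>.mp h4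
      subst hs
      simp at hw0
    refine ⟨s * Q u / t, ?_⟩
    rw [div_mul_div_comm, eq_div_iff (mul_ne_zero ht ht)]
    linear_combination (-Q u) * h0
  · rintro ⟨c, hc⟩
    refine ⟨Submodule.span F {c • u + Q u • v}, ?_, ?_, ?_⟩
    · rw [Submodule.span_singleton_le_iff_mem]
      exact Submodule.mem_span_pair.mpr ⟨c, Q u, rfl⟩
    · intro w hw
      obtain ⟨r, rfl⟩ := Submodule.mem_span_singleton.mp hw
      rw [QuadraticMap.map_smul, hQuadd]
      have : c ^ 2 * Q u + Q u ^ 2 * Q v = 0 := by linear_combination (-Q u) * hc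
      rw [this]
      simp
    · have hne : c • u + Q u • v ≠ 0 := by
        intro h
        have := (LinearIndependent.pair_iff.mp hli) c (Q u) h
        exact hu this.2
      rw [finrank_span_singleton hne, hfr]

theorem indep_of_orth_nd {t : ℕ} {X : Fin t → Submodule F V}
    (horth : ∀ i j, i ≠ j → ∀ x ∈ X i, ∀ y ∈ X j, polar Q x y = 0)
    (hnd : ∀ i, ∀ w ∈ X i, w ≠ 0 → ∃ x ∈ X i, polar Q w x ≠ 0) : iSupIndep X := by
  intro i
  rw [Submodule.disjoint_def]
  intro x hx hx'
  by_contra hne
  obtain ⟨y, hy, hxy⟩ := hnd i x hx hne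
  apply hxy
  have hle : (⨆ (j) (_ : j ≠ i), X j) ≤ LinearMap.ker (polarBilin Q y) := by
    refine iSup₂_le fun j hj z hz => ?_
    rw [LinearMap.mem_ker, polarBilin_apply_apply, polar_comm]
    exact horth j i hj z hz y hy
  have := hle hx'
  rw [LinearMap.mem_ker, polarBilin_apply_apply, polar_comm] at this
  exact this

theorem finrank_WW [FiniteDimensional F V] {t d : ℕ} {X : Fin t → Submodule F V} (hind : iSupIndep X) (hd : ∀ i, finrank F (X i) = d) :
    ∀ k, k ≤ t → finrank F (WW X k) = k * d := by
  intro k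
  induction k with
  | zero =>
    intro _
    rw [WW_zero]
    simp
  | succ k ih =>
    intro hk
    have hk' : k < t := by omega
    rw [WW_succ hk', finrank_sup_disj (WW_disj hind hk'), ih (by omega), hd]
    ring

/-- The type of a sum of five orthogonal planes, four of them of the same type. -/
theorem five_planes_type [Fintype F] [FiniteDimensional F V] {X : Fin 5 → Submodule F V}
    (horth : ∀ i j, i ≠ j → ∀ x ∈ X i, ∀ y ∈ X j, polar Q x y = 0)
    (hnd : ∀ i, ∀ w ∈ X i, w ≠ 0 → ∃ x ∈ X i, polar Q w x ≠ 0) (hd : ∀ i, finrank F (X i) = 2)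
    (htop : finrank F V = 10) (hND : ND (restr Q ⊤))
    (hsame : ∀ j : Fin 5, j ≠ 4 → (Plus Q (X j) ↔ Plus Q (X 0))) : Plus Q ⊤ ↔ Plus Q (X 4) := by
  classical
  have hind := indep_of_orth_nd horth hnd
  have hfr := finrank_WW hind hd 5 le_rfl
  have hWtop : WW X 5 = ⊤ := Submodule.eq_top_of_finrank_eq (by rw [hfr, htop])
  have hcases : ∀ i, Plus Q (X i) ∨ Minus Q (X i) := fun i =>
    cases (a := 1) (hd i) (nd_restr (hnd i))
  have hstep : Plus Q (WW X 4) := by
    have h4 : (4 : ℕ) < 5 := by norm_num
    by_cases hP : Plus Q (X 0)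
    · have key : ∀ k, k ≤ 4 → Plus Q (WW X k) := by
        intro k
        induction k with
        | zero =>
          intro _
          rw [WW_zero]
          exact Plus.bot
        | succ k ih =>
          intro hk
          have hk' : k < 5 := by omega
          rw [WW_succ hk']
          refine (ih (by omega)).sup ?_ (WW_disj hind hk') (fun x hx y hy => WW_orth horth le_rfl hk' x hx y hy)
          refine (hsame _ ?_).mpr hP
          intro h
          have := congrArg Fin.val h
          simp at this
          omega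
      exact key 4 le_rfl
    · have hM : ∀ j : Fin 5, j ≠ 4 → Minus Q (X j) := by
        intro j hj
        rcases hcases j with h | h
        · exact absurd ((hsame j hj).mp h) hP
        · exact h
      have key : ∀ k, k ≤ 4 → (Even k → Plus Q (WW X k)) ∧ (Odd k → Minus Q (WW X k)) := by
        intro k
        induction k with
        | zero =>
          intro _
          rw [WW_zero]
          exact ⟨fun _ => Plus.bot, fun h => absurd h (by decide)⟩
        | succ k ih =>
          intro hk
          have hk' : k < 5 := by omega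
          have hMk : Minus Q (X ⟨k, hk'⟩) := by
            refine hM _ ?_
            intro h
            have := congrArg Fin.val h
            simp at this
            omega
          obtain ⟨h1, h3⟩ := ih (by omega)
          rw [WW_succ hk']
          constructor
          · intro he
            have hodd : Odd k := by
              rcases Nat.even_or_odd k with h | h
              · exact absurd he (by
                  rw [Nat.even_add_one]
                  exact not_not.mpr h)
              · exact h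
            exact (h3 hodd).sup hMk (WW_disj hind hk') (fun x hx y hy => WW_orth horth le_rfl hk' x hx y hy)
          · intro ho
            have hev : Even k := by
              rcases Nat.even_or_odd k with h | h
              · exact h
              · exact absurd ho (by
                  rw [Nat.odd_add_one]
                  exact not_not.mpr h)
            exact (h1 hev).sup_minus hMk (WW_disj hind hk') (fun x hx y hy => WW_orth horth le_rfl hk' x hx y hy)
      exact (key 4 le_rfl).1 (by decide)
  have h45 : WW X 5 = WW X 4 ⊔ X ⟨4, by norm_num⟩ := WW_succ (by norm_num)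
  constructor
  · intro hT
    rcases hcases 4 with h | h
    · exact h
    · exfalso
      have hm : Minus Q (⊤ : Submodule F V) := by
        rw [← hWtop, h45]
        exact hstep.sup_minus h (WW_disj hind (by norm_num)) (fun x hx y hy => WW_orth horth le_rfl (by norm_num) x hx y hy)
      exact hm.not_plus hND hT
  · intro h
    rw [← hWtop, h45]
    exact hstep.sup h (WW_disj hind (by norm_num)) (fun x hx y hy => WW_orth horth le_rfl (by norm_num) x hx y hy)

/-- The type of an orthogonal sum of ten lines. -/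
theorem ten_lines_type [Fintype F] [FiniteDimensional F V] (h2 : (2 : F) ≠ 0) (htop : finrank F V = 10)
    (hND : ND (restr Q ⊤)) {c c' : Fin 5 → V} (h1 : ∀ i j, i ≠ j → polar Q (c i) (c j) = 0)
    (h1' : ∀ i j, i ≠ j → polar Q (c' i) (c' j) = 0) (h3 : ∀ i j, polar Q (c i) (c' j) = 0)
    (hc : ∀ i, Q (c i) ≠ 0) (hc' : ∀ i, Q (c' i) ≠ 0)
    (hsame : ∀ j : Fin 5, j ≠ 4 → (IsSquare (-(Q (c j) * Q (c' j))) ↔ IsSquare (-(Q (c 0) * Q (c' 0))))) :
    Plus Q ⊤ ↔ IsSquare (-(Q (c 4) * Q (c' 4))) := by
  classical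
  let X : Fin 5 → Submodule F V := fun j => Submodule.span F {c j, c' j}
  have hP : ∀ j, Plus Q (X j) ↔ IsSquare (-(Q (c j) * Q (c' j))) := fun j =>
    plane_plus_iff h2 (h3 j j) (hc j) (hc' j)
  have horth : ∀ i j, i ≠ j → ∀ x ∈ X i, ∀ y ∈ X j, polar Q x y = 0 := by
    intro i j hij x hx y hy
    refine polar_span (S := {c i, c' i}) (T := {c j, c' j}) ?_ x hx y hy
    rintro s (rfl | rfl) t (rfl | rfl)
    · exact h1 i j hij
    · exact h3 i j
    · rw [polar_comm]
      exact h3 j i
    · exact h1' i j hij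
  have hnd : ∀ i, ∀ w ∈ X i, w ≠ 0 → ∃ x ∈ X i, polar Q w x ≠ 0 := by
    intro i w hw hw0
    obtain ⟨s, t, rfl⟩ := Submodule.mem_span_pair.mp hw
    have h4 : polar Q (c' i) (c i) = 0 := by
      rw [polar_comm]
      exact h3 i i
    by_cases hs : s = 0
    · have ht : t ≠ 0 := by
        rintro rfl
        apply hw0
        rw [hs]
        simp
      refine ⟨c' i, Submodule.mem_span_pair.mpr ⟨0, 1, by simp⟩, ?_⟩
      rw [polar_add_left, polar_smul_left, polar_smul_left, polar_self_eq, h3 i i]
      simp only [smul_eq_mul, mul_zero, zero_add]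
      exact mul_ne_zero ht (mul_ne_zero h2 (hc' i))
    · refine ⟨c i, Submodule.mem_span_pair.mpr ⟨1, 0, by simp⟩, ?_⟩
      rw [polar_add_left, polar_smul_left, polar_smul_left, polar_self_eq, h4]
      simp only [smul_eq_mul, mul_zero, add_zero]
      exact mul_ne_zero hs (mul_ne_zero h2 (hc i))
  have hd : ∀ i, finrank F (X i) = 2 := by
    intro i
    have hli : LinearIndependent F ![c i, c' i] := by
      rw [LinearIndependent.pair_iff]
      intro s t hst
      have e1 : polar Q (s • c i + t • c' i) (c i) = 0 := by rw [hst, polar_zero_left]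
      have e2 : polar Q (s • c i + t • c' i) (c' i) = 0 := by rw [hst, polar_zero_left]
      rw [polar_add_left, polar_smul_left, polar_smul_left, polar_self_eq, polar_comm Q (c' i) (c i), h3] at e1
      rw [polar_add_left, polar_smul_left, polar_smul_left, polar_self_eq, h3] at e2
      simp only [smul_eq_mul, mul_zero, add_zero, zero_add] at e1 e2
      exact ⟨(mul_eq_zero.mp e1).resolve_right (mul_ne_zero h2 (hc i)),
        (mul_eq_zero.mp e2).resolve_right (mul_ne_zero h2 (hc' i))⟩
    have := finrank_span_eq_card hli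
    have hr : Set.range ![c i, c' i] = {c i, c' i} := by
      ext x
      simp [Fin.exists_fin_two, eq_comm, or_comm]
    rw [hr] at this
    simpa [X] using this
  have hmain := five_planes_type (X := X) horth hnd hd htop hND (fun j hj => by
    rw [hP, hP]
    exact hsame j hj)
  rw [hmain, hP]

theorem isSquare_neg_mul_self {a : F} (ha : a ≠ 0) : IsSquare (-(a * a)) ↔ IsSquare (-1 : F) := by
  constructor
  · rintro ⟨r, hr⟩
    refine ⟨r / a, ?_⟩
    rw [div_mul_div_comm, ← hr]
    field_simp
  · rintro ⟨r, hr⟩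
    refine ⟨r * a, ?_⟩
    have : r * r = -1 := hr.symm
    linear_combination (-(a * a)) * this

section Ten

variable {ι : Type} [Fintype ι] [DecidableEq ι] [Fintype F] {Q : QuadraticForm F (ι → F)}

theorem Q_ne_of_line {W : Submodule F (ι → F)} (hdim : finrank F W = 1) (hnd : IsNondegenerateOn (polar ⇑Q) W) {u : ι → F}
    (hu : u ∈ W) (hu0 : u ≠ 0) : Q u ≠ 0 := by
  intro h
  obtain ⟨x, hx, hxu⟩ := (hnd u hu hu0).2
  apply hxu
  have hW : Submodule.span F {u} = W := by
    apply Submodule.eq_of_le_of_finrank_eq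
    · rwa [Submodule.span_singleton_le_iff_mem]
    · rw [hdim, finrank_span_singleton hu0]
  rw [← hW] at hx
  obtain ⟨c, rfl⟩ := Submodule.mem_span_singleton.mp hx
  rw [polar_smul_right, polar_self_eq, h]
  simp

/-- A frame of ten isometric lines. -/
theorem frame_ten_type (hcard : Fintype.card ι = 10) (hND : ND (restr Q ⊤)) (h2 : (2 : F) ≠ 0) {D : Fin 10 → Submodule F (ι → F)}
    (hD : IsOrthogonalMDecomposition ⇑Q 1 D) : Plus Q ⊤ ↔ IsSquare (-1 : F) := by
  classical
  have hfr : finrank F (ι → F) = 10 := by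
    rw [Module.finrank_fintype_fun_eq_card, hcard]
  obtain ⟨u₀, hu₀, hu₀0⟩ := Submodule.exists_mem_ne_zero_of_ne_bot (p := D 0) (by
    intro h
    have := hD.decomp.decomp.finrank_eq 0
    rw [h] at this
    simp at this)
  have hQu₀ := Q_ne_of_line (hD.decomp.decomp.finrank_eq 0) (hD.decomp.nondegenerate 0) hu₀ hu₀0
  have hiso : ∀ i, ∃ u ∈ D i, Q u = Q u₀ := by
    intro i
    obtain ⟨e, he⟩ := hD.isometric 0 i
    exact ⟨(e ⟨u₀, hu₀⟩ : ι → F), (e ⟨u₀, hu₀⟩).2, he ⟨u₀, hu₀⟩⟩
  choose u hu hQu using hiso
  let c : Fin 5 → ι → F := fun j => u ⟨2 * j.val, by omega⟩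
  let c' : Fin 5 → ι → F := fun j => u ⟨2 * j.val + 1, by omega⟩
  have hort := hD.decomp.orthogonal
  have h := ten_lines_type (Q := Q) (c := c) (c' := c') h2 hfr hND
    (fun i j hij => hort _ _ (fun h => hij (Fin.ext (by simpa using congrArg Fin.val h))) _ (hu _) _ (hu _))
    (fun i j hij => hort _ _ (fun h => hij (Fin.ext (by simpa using congrArg Fin.val h))) _ (hu _) _ (hu _))
    (fun i j => hort _ _ (fun h => by
      have := congrArg Fin.val h
      simp at this
      omega) _ (hu _) _ (hu _))
    (fun i => by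
      show Q (u _) ≠ 0
      rw [hQu]
      exact hQu₀)
    (fun i => by
      show Q (u _) ≠ 0
      rw [hQu]
      exact hQu₀)
    (fun j _ => by
      simp only [c, c', hQu])
  rw [h]
  simp only [c, c', hQu]
  exact isSquare_neg_mul_self hQu₀

/-- Two orthogonal five-spaces with diagonal bases. -/
theorem two_fives_aux (hcard : Fintype.card ι = 10) (hND : ND (restr Q ⊤)) (h2 : (2 : F) ≠ 0) {c c' : Fin 5 → ι → F}
    (h1 : ∀ i j, i ≠ j → polar Q (c i) (c j) = 0)
    (h1' : ∀ i j, i ≠ j → polar Q (c' i) (c' j) = 0) (h3 : ∀ i j, polar Q (c i) (c' j) = 0)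
    (hc : ∀ i, i ≠ 4 → Q (c i) = 1) (hc' : ∀ i, i ≠ 4 → Q (c' i) = 1) (ha : Q (c 4) ≠ 0) (ha' : Q (c' 4) ≠ 0) :
    Plus Q ⊤ ↔ IsSquare (-(Q (c 4) * Q (c' 4))) := by
  classical
  have hfr : finrank F (ι → F) = 10 := by
    rw [Module.finrank_fintype_fun_eq_card, hcard]
  have hne1 : (1 : F) ≠ 0 := one_ne_zero
  refine ten_lines_type h2 hfr hND h1 h1' h3 (fun i => ?_) (fun i => ?_) (fun j hj => ?_)
  · by_cases hi : i = 4
    · rw [hi]
      exact ha
    · rw [hc i hi]
      exact hne1
  · by_cases hi : i = 4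
    · rw [hi]
      exact ha'
    · rw [hc' i hi]
      exact hne1
  · have e0 : (0 : Fin 5) ≠ 4 := by decide
    rw [hc j hj, hc' j hj, hc 0 e0, hc' 0 e0]

theorem exists_diag_five {W : Submodule F (ι → F)} (h2 : (2 : F) ≠ 0) (hdim : finrank F W = 5) (hnd : IsNondegenerateOn (polar ⇑Q) W) :
    ∃ b : Fin 5 → W, (∀ i j, i ≠ j → polar Q (b i : ι → F) (b j : ι → F) = 0) ∧ (∀ i, i ≠ 4 → Q (b i : ι → F) = 1) ∧ Q (b 4 : ι → F) ≠ 0 := by
  obtain ⟨b, h1, h3, h4⟩ := Cfsg.Agent.Lib.QuadFF2.exists_diag h2 4 W (restr Q W) hdim (nd_of_on hnd)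
  refine ⟨b, fun i j hij => h1 i j hij, fun i hi => ?_, h4⟩
  have hlt : i.val < 4 := by
    have h5 := i.2
    have h6 : i.val ≠ 4 := fun h => hi (Fin.ext h)
    omega
  exact h3 ⟨i.val, hlt⟩

theorem two_fives_iso (hcard : Fintype.card ι = 10) (hND : ND (restr Q ⊤)) (h2 : (2 : F) ≠ 0) {D : Fin 2 → Submodule F (ι → F)}
    (hD : IsNondegenerateMDecomposition (polar ⇑Q) 5 D) (hiso : AreIsometricFor ⇑Q (D 0) (D 1)) :
    Plus Q ⊤ ↔ IsSquare (-1 : F) := by
  classical
  obtain ⟨b, h1, h3, h4⟩ := exists_diag_five h2 (hD.decomp.finrank_eq 0) (hD.nondegenerate 0)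
  obtain ⟨e, he⟩ := hiso
  have hpol := polar_of_iso (Q := Q) (Q' := Q) e he
  have hort := hD.orthogonal 0 1 (by decide)
  have := two_fives_aux (Q := Q) (c := fun i => (b i : ι → F)) (c' := fun i => (e (b i) : ι → F)) hcard hND h2 h1
    (fun i j hij => by
      rw [hpol]
      exact h1 i j hij)
    (fun i j => hort _ (b i).2 _ (e (b j)).2)
    h3
    (fun i hi => by
      rw [he]
      exact h3 i hi)
    h4
    (by
      rw [he]
      exact h4)
  rw [this, he]
  exact isSquare_neg_mul_self h4

theorem two_fives_noniso (hcard : Fintype.card ι = 10) (hND : ND (restr Q ⊤)) (h2 : (2 : F) ≠ 0) {D : Fin 2 → Submodule F (ι → F)}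
    (hD : IsNondegenerateMDecomposition (polar ⇑Q) 5 D) (hiso : ¬ AreIsometricFor ⇑Q (D 0) (D 1)) :
    Plus Q ⊤ ↔ ¬ IsSquare (-1 : F) := by
  classical
  obtain ⟨b, h1, h3, h4⟩ := exists_diag_five h2 (hD.decomp.finrank_eq 0) (hD.nondegenerate 0)
  obtain ⟨b', h1', h3', h4'⟩ := exists_diag_five h2 (hD.decomp.finrank_eq 1) (hD.nondegenerate 1)
  have hort := hD.orthogonal 0 1 (by decide)
  have hmain := two_fives_aux (Q := Q) (c := fun i => (b i : ι → F)) (c' := fun i => (b' i : ι → F)) hcard hND h2 h1 h1'
    (fun i j => hort _ (b i).2 _ (b' j).2) h3 h3' h4 h4'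
  rw [hmain]
  have hns : ¬ IsSquare (Q (b 4 : ι → F) * Q (b' 4 : ι → F)) := by
    rintro ⟨s, hs⟩
    apply hiso
    have hs0 : s ≠ 0 := by
      rintro rfl
      rw [mul_zero] at hs
      exact mul_ne_zero h4 h4' hs
    -- the rescaled second basis
    let b'' : Fin 5 → D 1 := Function.update b' 4 ((Q (b 4 : ι → F) / s) • b' 4)
    have hb''ne : ∀ i, i ≠ 4 → b'' i = b' i := fun i hi => Function.update_of_ne hi _ _
    have hb''4 : b'' 4 = (Q (b 4 : ι → F) / s) • b' 4 := Function.update_self _ _ _
    have hQ4 : Q (b'' 4 : ι → F) = Q (b 4 : ι → F) := by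
      rw [hb''4, Submodule.coe_smul, QuadraticMap.map_smul]
      simp only [smul_eq_mul]
      rw [div_mul_div_comm, div_mul_eq_mul_div, div_eq_iff (mul_ne_zero hs0 hs0)]
      linear_combination (Q (b 4 : ι → F)) * hs
    have hQ'' : ∀ i, Q (b'' i : ι → F) = Q (b i : ι → F) := by
      intro i
      by_cases hi : i = 4
      · rw [hi]
        exact hQ4
      · rw [hb''ne i hi, h3 i hi, h3' i hi]
    have hpol'' : ∀ i j, i ≠ j → polar Q (b'' i : ι → F) (b'' j : ι → F) = 0 := by
      intro i j hij
      by_cases hi : i = 4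
      · have hj : j ≠ 4 := fun h => hij (hi.trans h.symm)
        rw [hi, hb''4, hb''ne j hj, Submodule.coe_smul, polar_smul_left, ← hi, h1' i j hij]
        simp
      · by_cases hj : j = 4
        · rw [hj, hb''4, hb''ne i hi, Submodule.coe_smul, polar_smul_right, ← hj, h1' i j hij]
          simp
        · rw [hb''ne i hi, hb''ne j hj]
          exact h1' i j hij
    have hne : ∀ i, Q (b i : ι → F) ≠ 0 := by
      intro i
      by_cases hi : i = 4
      · rw [hi]
        exact h4
      · rw [h3 i hi]
        exact one_ne_zero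
    have hli : LinearIndependent F b := by
      refine Cfsg.Agent.Lib.QuadFF2.linearIndependent_diag (Q := restr Q (D 0)) h2 (fun i j hij => h1 i j hij) (fun i => hne i)
    have hli' : LinearIndependent F b'' := by
      refine Cfsg.Agent.Lib.QuadFF2.linearIndependent_diag (Q := restr Q (D 1)) h2 (fun i j hij => hpol'' i j hij) (fun i => ?_)
      show Q (b'' i : ι → F) ≠ 0
      rw [hQ'']
      exact hne i
    have hcard5 : Fintype.card (Fin 5) = 5 := by simp
    let β₁ : Module.Basis (Fin 5) F (D 0) := basisOfLinearIndependentOfCardEqFinrank hli (by rw [hD.decomp.finrank_eq 0, hcard5])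
    let β₂ : Module.Basis (Fin 5) F (D 1) := basisOfLinearIndependentOfCardEqFinrank hli' (by rw [hD.decomp.finrank_eq 1, hcard5])
    obtain ⟨g, hg⟩ := Cfsg.Agent.Lib.QuadFF2.exists_isometry_of_diag β₁ β₂ (Q₁ := restr Q (D 0)) (Q₂ := restr Q (D 1))
      (fun i j hij => by
        simp only [β₁, coe_basisOfLinearIndependentOfCardEqFinrank]
        exact h1 i j hij)
      (fun i j hij => by
        simp only [β₂, coe_basisOfLinearIndependentOfCardEqFinrank]
        exact hpol'' i j hij)
      (fun i => by
        simp only [β₁, β₂, coe_basisOfLinearIndependentOfCardEqFinrank]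
        exact hQ'' i)
    exact ⟨g, hg⟩
  constructor
  · rintro h hm
    apply hns
    obtain ⟨r, hr⟩ := h
    obtain ⟨m, hm⟩ := hm
    have hm0 : m ≠ 0 := by
      rintro rfl
      simp at hm
    refine ⟨r / m, ?_⟩
    rw [div_mul_div_comm, eq_div_iff (mul_ne_zero hm0 hm0), ← hr, ← hm]
    ring
  · intro h
    have := isSquare_mul_nn h hns
    convert this using 1
    ring

end Ten

end Cfsg.Agent.H97.Ty
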