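import Cfsg.Agent.Lib.H97L14

/-!
Modules over a field subalgebra of the matrix algebra: lines, elements acting by scalars.
-/

set_option autoImplicit false
set_option linter.unusedSectionVars false
set_option linter.unusedSimpArgs false
set_option linter.unusedVariables false
set_option linter.style.haveILetI false

namespace Cfsg.Agent.H97.Asch

open Matrix Cfsg Cfsg.Geo

variable {ι : Type} [Fintype ι] [DecidableEq ι] {F : Type*} [Field F]

section Lines

variable {r : ℕ} {K' : Subalgebra F (Matrix ι ι F)}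

theorem fs_inv (hK : IsFieldSubalgebra r K') {k : Matrix ι ι F} (hk : k ∈ K') (h0 : k ≠ 0) :
    ∃ k' ∈ K', k' * k = 1 ∧ k * k' = 1 := by
  obtain ⟨y, hy, hky⟩ := hK.inv k hk h0
  exact ⟨y, hy, by rw [hK.comm y hy k hk]; exact hky, hky⟩

theorem fs_inj (hK : IsFieldSubalgebra r K') {k : Matrix ι ι F} (hk : k ∈ K') (h0 : k ≠ 0) {v : ι → F}
    (h : k *ᵥ v = 0) : v = 0 := by
  obtain ⟨y, hy, h1, h2⟩ := fs_inv hK hk h0
  have := congrArg (fun x => y *ᵥ x) h
  simpa [Matrix.mulVec_mulVec, h1] using this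

/-- the evaluation map of a subalgebra at a vector -/
def lineMap (K' : Subalgebra F (Matrix ι ι F)) (v : ι → F) : K' →ₗ[F] (ι → F) where
  toFun k := (k : Matrix ι ι F) *ᵥ v
  map_add' a b := by simp [Matrix.add_mulVec]
  map_smul' c a := by simp [Matrix.smul_mulVec]

/-- the line over the subalgebra through a vector -/
def lineOf (K' : Subalgebra F (Matrix ι ι F)) (v : ι → F) : Submodule F (ι → F) := LinearMap.range (lineMap K' v)

theorem mem_lineOf {v x : ι → F} : x ∈ lineOf K' v ↔ ∃ k ∈ K', k *ᵥ v = x := by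
  constructor
  · rintro ⟨k, rfl⟩
    exact ⟨k, k.2, rfl⟩
  · rintro ⟨k, hk, rfl⟩
    exact ⟨⟨k, hk⟩, rfl⟩

theorem self_mem_lineOf (v : ι → F) : v ∈ lineOf K' v :=
  mem_lineOf.mpr ⟨1, K'.one_mem, by simp⟩

theorem stable_lineOf (v : ι → F) {k : Matrix ι ι F} (hk : k ∈ K') {x : ι → F} (hx : x ∈ lineOf K' v) :
    k *ᵥ x ∈ lineOf K' v := by
  obtain ⟨k₁, hk₁, rfl⟩ := mem_lineOf.mp hx
  exact mem_lineOf.mpr ⟨k * k₁, K'.mul_mem hk hk₁, by rw [Matrix.mulVec_mulVec]⟩

theorem finrank_lineOf (hK : IsFieldSubalgebra r K') {v : ι → F} (hv : v ≠ 0) : Module.finrank F (lineOf K' v) = r := by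
  have hinj : Function.Injective (lineMap K' v) := by
    rw [← LinearMap.ker_eq_bot, LinearMap.ker_eq_bot']
    rintro ⟨k, hk⟩ h
    by_contra hne
    have hk0 : k ≠ 0 := fun h0 => hne (Subtype.ext h0)
    exact hv (fs_inj hK hk hk0 h)
  rw [lineOf, LinearMap.finrank_range_of_inj hinj, hK.finrank_eq]

theorem lineOf_le {U : Submodule F (ι → F)} (hU : ∀ k ∈ K', ∀ u ∈ U, k *ᵥ u ∈ U) {v : ι → F} (hv : v ∈ U) : lineOf K' v ≤ U := by
  intro x hx
  obtain ⟨k, hk, rfl⟩ := mem_lineOf.mp hx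
  exact hU k hk v hv

theorem eq_lineOf (hK : IsFieldSubalgebra r K') {U : Submodule F (ι → F)} (hU : ∀ k ∈ K', ∀ u ∈ U, k *ᵥ u ∈ U)
    (hd : Module.finrank F U = r) {v : ι → F} (hv : v ∈ U) (hv0 : v ≠ 0) : U = lineOf K' v :=
  (Submodule.eq_of_le_of_finrank_eq (lineOf_le hU hv) (by rw [finrank_lineOf hK hv0, hd])).symm

theorem stable_ne_bot_le (hK : IsFieldSubalgebra r K') {U : Submodule F (ι → F)} (hU : ∀ k ∈ K', ∀ u ∈ U, k *ᵥ u ∈ U)
    (h0 : U ≠ ⊥) : r ≤ Module.finrank F U := by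
  obtain ⟨v, hv, hv0⟩ := Submodule.exists_mem_ne_zero_of_ne_bot h0
  rw [← finrank_lineOf hK hv0]
  exact Submodule.finrank_mono (lineOf_le hU hv)

theorem eq_zero_of_forall_mulVec {z : Matrix ι ι F} (h : ∀ v : ι → F, z *ᵥ v = 0) : z = 0 := by
  apply Matrix.toLin'.injective
  apply LinearMap.ext
  intro v
  simpa using h v

/-- An element commuting with the field and preserving all its lines belongs to the field. -/
theorem mem_of_lines (hK : IsFieldSubalgebra r K') [Nonempty ι] {z : Matrix ι ι F} (hz : ∀ k ∈ K', z * k = k * z)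
    (h : ∀ v, z *ᵥ v ∈ lineOf K' v) : z ∈ K' := by
  classical
  obtain ⟨v, hv⟩ : ∃ v : ι → F, v ≠ 0 := exists_ne 0
  obtain ⟨a, ha, hza⟩ := mem_lineOf.mp (h v)
  have hkill : ∀ w, (z - a) *ᵥ w = 0 := by
    intro w
    have hzv : (z - a) *ᵥ v = 0 := by
      rw [Matrix.sub_mulVec, hza, sub_self]
    have hcomm : ∀ k ∈ K', (z - a) * k = k * (z - a) := by
      intro k hk
      rw [sub_mul, mul_sub, hz k hk, hK.comm a ha k hk]
    have hW : w ∈ lineOf K' v → (z - a) *ᵥ w = 0 := by
      intro hw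
      obtain ⟨k, hk, rfl⟩ := mem_lineOf.mp hw
      rw [Matrix.mulVec_mulVec, hcomm k hk, ← Matrix.mulVec_mulVec, hzv, Matrix.mulVec_zero]
    by_cases hw : w ∈ lineOf K' v
    · exact hW hw
    · -- eigenvalues on `w` and on `v + w`
      have key : ∀ x : ι → F, (z - a) *ᵥ x ∈ lineOf K' x := by
        intro x
        rw [Matrix.sub_mulVec]
        refine Submodule.sub_mem _ (h x) ?_
        exact mem_lineOf.mpr ⟨a, ha, rfl⟩
      obtain ⟨b, hb, hbw⟩ := mem_lineOf.mp (key w)
      obtain ⟨c, hc, hcw⟩ := mem_lineOf.mp (key (v + w))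
      have hcw' : c *ᵥ v + c *ᵥ w = b *ᵥ w := by
        rw [← Matrix.mulVec_add, hcw, hbw, Matrix.mulVec_add, hzv, zero_add]
      -- `(b - c) w = c v`
      have e : (b - c) *ᵥ w = c *ᵥ v := by
        rw [Matrix.sub_mulVec, ← hcw']
        simp
      by_cases hbc : b - c = 0
      · rw [hbc, Matrix.zero_mulVec] at e
        have hc0 : c = 0 := by
          by_contra hne
          exact hv (fs_inj hK hc hne e.symm)
        have hb0 : b = 0 := by
          rw [hc0, sub_zero] at hbc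
          exact hbc
        rw [← hbw, hb0, Matrix.zero_mulVec]
      · exfalso
        apply hw
        obtain ⟨m, hm, h1, h2⟩ := fs_inv hK (K'.sub_mem hb hc) hbc
        refine mem_lineOf.mpr ⟨m * c, K'.mul_mem hm hc, ?_⟩
        rw [← Matrix.mulVec_mulVec, ← e, Matrix.mulVec_mulVec, h1, Matrix.one_mulVec]
  have h0 := eq_zero_of_forall_mulVec hkill
  rw [sub_eq_zero] at h0
  rw [h0]
  exact ha

/-- Field subalgebras in characteristic two consist of squares. -/
theorem exists_sq_root [Fintype F] (hK : IsFieldSubalgebra r K') (h2 : (2 : F) = 0) {k : Matrix ι ι F} (hk : k ∈ K') :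
    ∃ m ∈ K', m * m = k := by
  classical
  have hinj : Function.Injective (fun m : K' => (⟨(m : Matrix ι ι F) * m, K'.mul_mem m.2 m.2⟩ : K')) := by
    rintro ⟨a, ha⟩ ⟨b, hb⟩ hab
    have h1 : a * a = b * b := congrArg Subtype.val hab
    have hc : a * b = b * a := hK.comm a ha b hb
    have h3 : (a - b) * (a - b) = 0 := by
      have e2 : (2 : F) • (b * a) = 0 := by rw [h2, zero_smul]
      have e3 : (2 : F) • (b * b) = 0 := by rw [h2, zero_smul]
      have e4 : (2 : Matrix ι ι F) = (2 : F) • 1 := by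
        rw [two_smul, one_add_one_eq_two]
      have e5 : (2 : ℕ) • (b * b) = 0 := by
        rw [← Nat.cast_smul_eq_nsmul F]
        simpa using e3
      have e6 : (2 : ℕ) • (b * a) = 0 := by
        rw [← Nat.cast_smul_eq_nsmul F]
        simpa using e2
      rw [two_nsmul] at e5 e6
      calc (a - b) * (a - b) = a * a - a * b - b * a + b * b := by noncomm_ring
        _ = (b * b + b * b) - (b * a + b * a) := by rw [h1, hc]; abel
        _ = 0 := by rw [e5, e6, sub_zero]
    by_contra hne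
    have hne' : a - b ≠ 0 := fun h => hne (Subtype.ext (sub_eq_zero.mp h))
    obtain ⟨m, hm, h4, -⟩ := fs_inv hK (K'.sub_mem ha hb) hne'
    apply hne'
    calc a - b = (m * (a - b)) * (a - b) := by rw [h4, one_mul]
      _ = m * ((a - b) * (a - b)) := by rw [mul_assoc]
      _ = 0 := by rw [h3, mul_zero]
  have hsurj := Finite.surjective_of_injective hinj
  obtain ⟨m, hm⟩ := hsurj ⟨k, hk⟩
  exact ⟨m, m.2, congrArg Subtype.val hm⟩

end Lines

end Cfsg.Agent.H97.Asch
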