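import Cfsg.Agent.Lib.H97M2

/-!
Quadratic extensions of a field subalgebra carrying the quadratic form.
-/

set_option autoImplicit false
set_option linter.unusedSectionVars false
set_option linter.unusedSimpArgs false
set_option linter.unusedVariables false
set_option linter.style.haveILetI false

namespace Cfsg.Agent.H97.Asch

open Matrix Cfsg Cfsg.Geo

variable {ι : Type} [Fintype ι] [DecidableEq ι] {F : Type*} [Field F] {Q : (ι → F) → F} {K : Subgroup (GL ι F)}

/-- the eigenspace of a matrix for an element of the matrix algebra -/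
def eigT (t s : Matrix ι ι F) : Submodule F (ι → F) := LinearMap.ker (Matrix.toLin' (t - s))

theorem mem_eigT {t s : Matrix ι ι F} {v : ι → F} : v ∈ eigT t s ↔ t *ᵥ v = s *ᵥ v := by
  rw [eigT, LinearMap.mem_ker, Matrix.toLin'_apply, Matrix.sub_mulVec, sub_eq_zero]

theorem conj_mem_of_norm {K' : Subalgebra F (Matrix ι ι F)} {H : Subgroup (GL ι F)} (hNH : H ≤ subalgebraNormalizer K') {h : GL ι F}
    (hh : h ∈ H) {k : Matrix ι ι F} (hk : k ∈ K') : (h : Matrix ι ι F) * k * ((h⁻¹ : GL ι F) : Matrix ι ι F) ∈ K' :=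
  (hNH hh k).mp hk

theorem conj_mem_of_norm' {K' : Subalgebra F (Matrix ι ι F)} {H : Subgroup (GL ι F)} (hNH : H ≤ subalgebraNormalizer K') {h : GL ι F}
    (hh : h ∈ H) {k : Matrix ι ι F} (hk : k ∈ K') : ((h⁻¹ : GL ι F) : Matrix ι ι F) * k * (h : Matrix ι ι F) ∈ K' := by
  have := conj_mem_of_norm hNH (H.inv_mem hh) hk
  rwa [inv_inv] at this

/-- The data of a quadratic extension of a field subalgebra carrying the quadratic form -/
structure TData (C : ECtx Q K) (K' : Subalgebra F (Matrix ι ι F)) (H : Subgroup (GL ι F)) (t N : Matrix ι ι F) : Prop where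
  comm : ∀ k ∈ K', t * k = k * t
  not_mem : t ∉ K'
  hN : N ∈ K'
  sq : t * t = t - N
  adj : ∀ u v, QuadraticMap.polar Q (t *ᵥ u) v = QuadraticMap.polar Q u v - QuadraticMap.polar Q u (t *ᵥ v)
  quad : ∀ v, Q v = QuadraticMap.polar Q v (t *ᵥ v)
  sep : ∀ s ∈ K', s * s = s - N → (2 : F) • s - 1 ≠ 0
  norm : ∀ h ∈ H, ∃ a ∈ K', ∃ b ∈ K', (h : Matrix ι ι F) * t * ((h⁻¹ : GL ι F) : Matrix ι ι F) = a + b * t

section T

variable [Fintype F] {C : ECtx Q K} {K' : Subalgebra F (Matrix ι ι F)} {H : Subgroup (GL ι F)} {t N : Matrix ι ι F} {r : ℕ}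

theorem TData.eig_stable (T : TData C K' H t N) (hK : IsFieldSubalgebra r K') {s : Matrix ι ι F} (hs : s ∈ K') {k : Matrix ι ι F}
    (hk : k ∈ K') {v : ι → F} (hv : v ∈ eigT t s) : k *ᵥ v ∈ eigT t s := by
  rw [mem_eigT] at hv ⊢
  rw [Matrix.mulVec_mulVec, T.comm k hk, ← Matrix.mulVec_mulVec, hv, Matrix.mulVec_mulVec, Matrix.mulVec_mulVec, hK.comm k hk s hs]

theorem one_sub_root {R : Type*} [Ring R] {s N : R} (h : s * s = s - N) : (1 - s) * (1 - s) = (1 - s) - N := by
  have : (1 - s) * (1 - s) = 1 - s - s + s * s := by noncomm_ring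
  rw [this, h]
  abel

theorem TData.eig_ts (T : TData C K' H t N) (hK : IsFieldSubalgebra r K') (hsa : IsSelfAdjointFor (QuadraticMap.polar Q) K')
    {s : Matrix ι ι F} (hs : s ∈ K') (hroot : s * s = s - N) {u v : ι → F} (hu : u ∈ eigT t s) (hv : v ∈ eigT t s) :
    QuadraticMap.polar Q u v = 0 := by
  have hδ := T.sep s hs hroot
  have hδK : (2 : F) • s - 1 ∈ K' := K'.sub_mem (K'.smul_mem hs 2) K'.one_mem
  obtain ⟨ρ, hρ, h1, h1'⟩ := fs_inv hK hδK hδ
  have key : ∀ x ∈ eigT t s, QuadraticMap.polar Q (((2 : F) • s - 1) *ᵥ x) v = 0 := by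
    intro x hx
    have e1 := T.adj x v
    rw [mem_eigT.mp hx, mem_eigT.mp hv] at e1
    have e2 := hsa s hs x v
    rw [Matrix.sub_mulVec, Matrix.smul_mulVec, Matrix.one_mulVec, C.polar_sub_left, C.polar_smul_left]
    rw [← e2] at e1
    linear_combination e1
  have h3 := key (ρ *ᵥ u) (T.eig_stable hK hs hρ hu)
  rwa [Matrix.mulVec_mulVec, h1', Matrix.one_mulVec] at h3

theorem TData.eig_Q (T : TData C K' H t N) (hK : IsFieldSubalgebra r K') (hsa : IsSelfAdjointFor (QuadraticMap.polar Q) K')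
    {s : Matrix ι ι F} (hs : s ∈ K') (hroot : s * s = s - N) {u : ι → F} (hu : u ∈ eigT t s) : Q u = 0 := by
  rw [T.quad, mem_eigT.mp hu]
  exact T.eig_ts hK hsa hs hroot hu (T.eig_stable hK hs hs hu)

theorem TData.eig_disj (T : TData C K' H t N) (hK : IsFieldSubalgebra r K') {s : Matrix ι ι F} (hs : s ∈ K') (hroot : s * s = s - N) :
    eigT t s ⊓ eigT t (1 - s) = ⊥ := by
  rw [eq_bot_iff]
  rintro v ⟨h1, h3⟩
  have h1' := mem_eigT.mp h1
  have h3' := mem_eigT.mp h3
  rw [Submodule.mem_bot]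
  refine fs_inj hK (K'.sub_mem (K'.smul_mem hs 2) K'.one_mem) (T.sep s hs hroot) ?_
  rw [h1', Matrix.sub_mulVec, Matrix.one_mulVec] at h3'
  rw [Matrix.sub_mulVec, Matrix.smul_mulVec, Matrix.one_mulVec, two_smul, sub_eq_zero]
  rw [eq_sub_iff_add_eq] at h3'
  exact h3'

theorem TData.eig_sup (T : TData C K' H t N) (hK : IsFieldSubalgebra r K') {s : Matrix ι ι F} (hs : s ∈ K') (hroot : s * s = s - N) :
    eigT t s ⊔ eigT t (1 - s) = ⊤ := by
  rw [eq_top_iff]
  intro v _
  have hδK : (2 : F) • s - 1 ∈ K' := K'.sub_mem (K'.smul_mem hs 2) K'.one_mem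
  obtain ⟨ρ, hρ, h1, h1'⟩ := fs_inv hK hδK (T.sep s hs hroot)
  have hts : t * s = s * t := T.comm s hs
  have hρt : t * ρ = ρ * t := T.comm ρ hρ
  have hρs : s * ρ = ρ * s := hK.comm s hs ρ hρ
  have e0 : (t - s) * (t - (1 - s)) = 0 := by
    have : (t - s) * (t - (1 - s)) = t * t - t - s * t + t * s + s - s * s := by noncomm_ring
    rw [this, T.sq, hroot, hts]
    abel
  have e0' : (t - (1 - s)) * (t - s) = 0 := by
    have : (t - (1 - s)) * (t - s) = t * t - t + s * t - t * s + s - s * s := by noncomm_ring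
    rw [this, T.sq, hroot, hts]
    abel
  -- the two components
  have hu₁ : (ρ * (t - (1 - s))) *ᵥ v ∈ eigT t s := by
    rw [mem_eigT, Matrix.mulVec_mulVec, Matrix.mulVec_mulVec, ← sub_eq_zero, ← Matrix.sub_mulVec]
    have : t * (ρ * (t - (1 - s))) - s * (ρ * (t - (1 - s))) = ρ * ((t - s) * (t - (1 - s))) := by
      rw [← mul_assoc, ← mul_assoc, ← sub_mul, hρt, hρs, ← mul_sub, mul_assoc]
    rw [this, e0, mul_zero, Matrix.zero_mulVec]
  have hu₂ : (ρ * (t - s)) *ᵥ v ∈ eigT t (1 - s) := by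
    rw [mem_eigT, Matrix.mulVec_mulVec, Matrix.mulVec_mulVec, ← sub_eq_zero, ← Matrix.sub_mulVec]
    have hρ1 : (1 - s) * ρ = ρ * (1 - s) := by
      rw [sub_mul, mul_sub, hρs, one_mul, mul_one]
    have : t * (ρ * (t - s)) - (1 - s) * (ρ * (t - s)) = ρ * ((t - (1 - s)) * (t - s)) := by
      rw [← mul_assoc, ← mul_assoc, ← sub_mul, hρt, hρ1, ← mul_sub, mul_assoc]
    rw [this, e0', mul_zero, Matrix.zero_mulVec]
  have hsum : v = (ρ * (t - (1 - s))) *ᵥ v + (-1 : F) • ((ρ * (t - s)) *ᵥ v) := by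
    have e1 : ρ * (t - (1 - s)) - ρ * (t - s) = 1 := by
      rw [← mul_sub]
      have : t - (1 - s) - (t - s) = (2 : F) • s - 1 := by
        rw [two_smul]
        abel
      rw [this, h1]
    have e2 : (ρ * (t - (1 - s))) *ᵥ v - (ρ * (t - s)) *ᵥ v = v := by
      rw [← Matrix.sub_mulVec, e1, Matrix.one_mulVec]
    rw [neg_smul, one_smul, ← sub_eq_add_neg]
    exact e2.symm
  rw [hsum]
  exact Submodule.add_mem _ (Submodule.mem_sup_left hu₁) (Submodule.mem_sup_right (Submodule.smul_mem _ _ hu₂))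

theorem TData.eig_ne_bot (T : TData C K' H t N) (hK : IsFieldSubalgebra r K') {s : Matrix ι ι F} (hs : s ∈ K') (hroot : s * s = s - N) :
    eigT t s ≠ ⊥ := by
  intro h0
  have h1 := T.eig_sup hK hs hroot
  rw [h0, bot_sup_eq] at h1
  apply T.not_mem
  have h3 : t - (1 - s) = 0 := by
    apply eq_zero_of_forall_mulVec
    intro v
    have : v ∈ eigT t (1 - s) := by
      rw [h1]
      trivial
    rw [Matrix.sub_mulVec, mem_eigT.mp this, sub_self]
  rw [sub_eq_zero] at h3
  rw [h3]
  exact K'.sub_mem K'.one_mem hs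

/-- An element of the group moves eigenspaces to eigenspaces. -/
theorem TData.map_eig (T : TData C K' H t N) (hK : IsFieldSubalgebra r K') (hNH : H ≤ subalgebraNormalizer K')
    {s : Matrix ι ι F} (hs : s ∈ K') (hroot : s * s = s - N) {h : GL ι F} (hh : h ∈ H) :
    (∀ u ∈ eigT t s, (h : Matrix ι ι F) *ᵥ u ∈ eigT t s) ∨ (∀ u ∈ eigT t s, (h : Matrix ι ι F) *ᵥ u ∈ eigT t (1 - s)) := by
  obtain ⟨a, ha, b, hb, hab⟩ := T.norm h⁻¹ (H.inv_mem hh)
  rw [inv_inv] at hab
  set c := a + b * s with hc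
  have hcK : c ∈ K' := K'.add_mem ha (K'.mul_mem hb hs)
  set σ := (h : Matrix ι ι F) * c * ((h⁻¹ : GL ι F) : Matrix ι ι F) with hσ
  have hσK : σ ∈ K' := conj_mem_of_norm hNH hh hcK
  have hhi : ((h⁻¹ : GL ι F) : Matrix ι ι F) * (h : Matrix ι ι F) = 1 := by
    rw [← Units.val_mul, inv_mul_cancel, Units.val_one]
  have hih : (h : Matrix ι ι F) * ((h⁻¹ : GL ι F) : Matrix ι ι F) = 1 := by
    rw [← Units.val_mul, mul_inv_cancel, Units.val_one]
  have hact : ∀ u ∈ eigT t s, (h : Matrix ι ι F) *ᵥ u ∈ eigT t σ := by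
    intro u hu
    rw [mem_eigT]
    have e1 : t * (h : Matrix ι ι F) = (h : Matrix ι ι F) * (a + b * t) := by
      rw [← hab, ← mul_assoc, ← mul_assoc, hih, one_mul]
    rw [Matrix.mulVec_mulVec, e1, ← Matrix.mulVec_mulVec, Matrix.add_mulVec, ← Matrix.mulVec_mulVec u b t, mem_eigT.mp hu,
      Matrix.mulVec_mulVec u b s, ← Matrix.add_mulVec, ← hc, hσ, Matrix.mulVec_mulVec, Matrix.mulVec_mulVec]
    congr 1
    rw [mul_assoc, hhi, mul_one]
  -- the value is a root
  obtain ⟨u, hu, hu0⟩ := Submodule.exists_mem_ne_zero_of_ne_bot (T.eig_ne_bot hK hs hroot)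
  have hx := hact u hu
  set x := (h : Matrix ι ι F) *ᵥ u with hxd
  have hx0 : x ≠ 0 := fun h0 => hu0 (gl_mulVec_injective h (show (h : Matrix ι ι F) *ᵥ u = (h : Matrix ι ι F) *ᵥ 0 by rw [← hxd, h0, Matrix.mulVec_zero]))
  have hσt : t * σ = σ * t := T.comm σ hσK
  have hσroot : σ * σ = σ - N := by
    have hmem := K'.sub_mem (K'.sub_mem (K'.mul_mem hσK hσK) hσK) T.hN
    by_contra hne
    have h3 : σ * σ - σ + N ≠ 0 := by
      intro h0
      apply hne
      rw [eq_sub_iff_add_eq, ← sub_eq_zero, ← h0]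
      abel
    have hmem' : σ * σ - σ + N ∈ K' := K'.add_mem (K'.sub_mem (K'.mul_mem hσK hσK) hσK) T.hN
    refine hx0 (fs_inj hK hmem' h3 ?_)
    have e1 : (t * t) *ᵥ x = (σ * σ) *ᵥ x := by
      rw [← Matrix.mulVec_mulVec, mem_eigT.mp hx, Matrix.mulVec_mulVec, hσt, ← Matrix.mulVec_mulVec, mem_eigT.mp hx,
        Matrix.mulVec_mulVec]
    rw [T.sq, Matrix.sub_mulVec, mem_eigT.mp hx] at e1
    rw [Matrix.add_mulVec, Matrix.sub_mulVec, ← e1]
    abel
  have hfac : (σ - s) * (σ - (1 - s)) = 0 := by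
    have hsσ : s * σ = σ * s := hK.comm s hs σ hσK
    have : (σ - s) * (σ - (1 - s)) = σ * σ - σ + σ * s - s * σ + s - s * s := by noncomm_ring
    rw [this, hσroot, hroot, hsσ]
    abel
  by_cases h1 : σ - s = 0
  · left
    rw [sub_eq_zero] at h1
    intro u hu
    have := hact u hu
    rwa [h1] at this
  · right
    have h3 : σ - (1 - s) = 0 := by
      obtain ⟨m, hm, hm1, -⟩ := fs_inv hK (K'.sub_mem hσK hs) h1
      calc σ - (1 - s) = (m * (σ - s)) * (σ - (1 - s)) := by rw [hm1, one_mul]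
        _ = m * ((σ - s) * (σ - (1 - s))) := by rw [mul_assoc]
        _ = 0 := by rw [hfac, mul_zero]
    rw [sub_eq_zero] at h3
    intro u hu
    have := hact u hu
    rwa [h3] at this

/-- A root in the field gives a pair of totally singular spaces. -/
theorem TData.split_case (T : TData C K' H t N) (hK : IsFieldSubalgebra r K') (hsa : IsSelfAdjointFor (QuadraticMap.polar Q) K')
    (hNH : H ≤ subalgebraNormalizer K') (hr : 0 < r) (hcard : Fintype.card ι = 2 * r) {s : Matrix ι ι F} (hs : s ∈ K') (hroot : s * s = s - N) :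
    ∃ D : Fin 2 → Submodule F (ι → F), IsMDecomposition r D ∧ (∀ i, IsTotallySingularQuad Q (D i)) ∧ H ≤ decompositionStabilizer D := by
  classical
  have hs' : 1 - s ∈ K' := K'.sub_mem K'.one_mem hs
  have hroot' := one_sub_root hroot
  have hd := T.eig_disj hK hs hroot
  have hu := T.eig_sup hK hs hroot
  have h1 := stable_ne_bot_le hK (fun k hk u hu => T.eig_stable hK hs hk hu) (T.eig_ne_bot hK hs hroot)
  have h3 := stable_ne_bot_le hK (fun k hk u hu => T.eig_stable hK hs' hk hu) (T.eig_ne_bot hK hs' hroot')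
  have hsum := Ty.finrank_sup_disj hd
  rw [hu, finrank_top, Module.finrank_fintype_fun_eq_card, hcard] at hsum
  have hd1 : Module.finrank F (eigT t s) = r := by omega
  have hd2 : Module.finrank F (eigT t (1 - s)) = r := by omega
  have hone : (1 : Matrix ι ι F) - (1 - s) = s := by abel
  refine ⟨![eigT t s, eigT t (1 - s)], two_mdecomp hr hd1 hd2 hd hu, ?_, ?_⟩
  · intro i
    fin_cases i
    · exact fun w hw => T.eig_Q hK hsa hs hroot hw
    · exact fun w hw => T.eig_Q hK hsa hs' hroot' hw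
  · intro h hh
    have hinj : Function.Injective (Matrix.toLin' (h : Matrix ι ι F)) := by
      intro x y hxy
      apply gl_mulVec_injective h
      simpa [Matrix.toLin'_apply] using hxy
    have e0 := T.map_eig hK hNH hs hroot hh
    have e1 := T.map_eig hK hNH hs' hroot' hh
    rw [hone] at e1
    rcases e0 with e0 | e0 <;> rcases e1 with e1 | e1
    · refine ⟨1, fun i => ?_⟩
      fin_cases i
      · exact map_eq_of_le (g := h) (D := eigT t s) (D' := eigT t s) rfl e0
      · exact map_eq_of_le (g := h) (D := eigT t (1 - s)) (D' := eigT t (1 - s)) rfl e1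
    · exfalso
      have m0 := map_eq_of_le (g := h) (D := eigT t s) (D' := eigT t s) rfl e0
      have m1 := map_eq_of_le (g := h) (D := eigT t (1 - s)) (D' := eigT t s) (by rw [hd1, hd2]) e1
      have := Submodule.map_injective_of_injective hinj (m0.trans m1.symm)
      rw [← this, inf_idem] at hd
      exact T.eig_ne_bot hK hs hroot hd
    · exfalso
      have m0 := map_eq_of_le (g := h) (D := eigT t s) (D' := eigT t (1 - s)) (by rw [hd1, hd2]) e0
      have m1 := map_eq_of_le (g := h) (D := eigT t (1 - s)) (D' := eigT t (1 - s)) rfl e1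
      have := Submodule.map_injective_of_injective hinj (m0.trans m1.symm)
      rw [← this, inf_idem] at hd
      exact T.eig_ne_bot hK hs hroot hd
    · refine ⟨Equiv.swap 0 1, fun i => ?_⟩
      fin_cases i
      · have h5 : (Equiv.swap (0 : Fin 2) 1) 0 = 1 := by decide
        show (eigT t s).map _ = ![eigT t s, eigT t (1 - s)] (Equiv.swap (0 : Fin 2) 1 0)
        rw [h5]
        exact map_eq_of_le (g := h) (D := eigT t s) (D' := eigT t (1 - s)) (by rw [hd1, hd2]) e0
      · have h5 : (Equiv.swap (0 : Fin 2) 1) 1 = 0 := by decide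
        show (eigT t (1 - s)).map _ = ![eigT t s, eigT t (1 - s)] (Equiv.swap (0 : Fin 2) 1 1)
        rw [h5]
        exact map_eq_of_le (g := h) (D := eigT t (1 - s)) (D' := eigT t s) (by rw [hd1, hd2]) e1

theorem mul_expand {R : Type*} [Ring R] {a b c d t N : R} (h1 : t * c = c * t) (h2 : t * d = d * t) (hsq : t * t = t - N) :
    (a + b * t) * (c + d * t) = (a * c - b * d * N) + (a * d + b * c + b * d) * t := by
  have e1 : b * t * c = b * c * t := by rw [mul_assoc, h1, ← mul_assoc]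
  have e2 : b * t * (d * t) = b * d * (t * t) := by
    rw [mul_assoc b t, ← mul_assoc t d t, h2, mul_assoc d t t, ← mul_assoc b d]
  rw [add_mul, mul_add, mul_add, e1, e2, hsq]
  noncomm_ring

/-- The subalgebra generated by the field and the extra element. -/
theorem TData.exists_alg (T : TData C K' H t N) (hK : IsFieldSubalgebra r K') :
    ∃ L : Subalgebra F (Matrix ι ι F), ∀ x, x ∈ L ↔ ∃ a ∈ K', ∃ b ∈ K', x = a + b * t := by
  refine ⟨{ carrier := {x | ∃ a ∈ K', ∃ b ∈ K', x = a + b * t}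
            mul_mem' := ?_
            add_mem' := ?_
            algebraMap_mem' := ?_ }, fun x => Iff.rfl⟩
  · rintro _ _ ⟨a, ha, b, hb, rfl⟩ ⟨c, hc, d, hd, rfl⟩
    refine ⟨a * c - b * d * N, K'.sub_mem (K'.mul_mem ha hc) (K'.mul_mem (K'.mul_mem hb hd) T.hN),
      a * d + b * c + b * d, K'.add_mem (K'.add_mem (K'.mul_mem ha hd) (K'.mul_mem hb hc)) (K'.mul_mem hb hd), ?_⟩
    exact mul_expand (T.comm c hc) (T.comm d hd) T.sq
  · rintro _ _ ⟨a, ha, b, hb, rfl⟩ ⟨c, hc, d, hd, rfl⟩
    refine ⟨a + c, K'.add_mem ha hc, b + d, K'.add_mem hb hd, ?_⟩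
    rw [add_mul]
    abel
  · intro c
    refine ⟨algebraMap F _ c, K'.algebraMap_mem c, 0, K'.zero_mem, ?_⟩
    rw [zero_mul, add_zero]

/-- Without a root in the field, the extension is a field. -/
theorem TData.field_case (T : TData C K' H t N) (hK : IsFieldSubalgebra r K') (hsa : IsSelfAdjointFor (QuadraticMap.polar Q) K')
    (hNH : H ≤ subalgebraNormalizer K') (hno : ∀ s ∈ K', s * s ≠ s - N) :
    ∃ L : Subalgebra F (Matrix ι ι F), FieldAlg L ∧ Module.finrank F L = 2 * r ∧ FStar C.fctx L ∧ NormAlg H L := by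
  classical
  obtain ⟨L, hL⟩ := T.exists_alg hK
  have hindep : ∀ a ∈ K', ∀ b ∈ K', a + b * t = 0 → a = 0 ∧ b = 0 := by
    intro a ha b hb h0
    by_cases hb0 : b = 0
    · rw [hb0, zero_mul, add_zero] at h0
      exact ⟨h0, hb0⟩
    · exfalso
      apply T.not_mem
      obtain ⟨m, hm, h1, -⟩ := fs_inv hK hb hb0
      have : t = -(m * a) := by
        have e : m * (a + b * t) = 0 := by rw [h0, mul_zero]
        rw [mul_add, ← mul_assoc, h1, one_mul] at e
        rw [eq_neg_iff_add_eq_zero, add_comm]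
        exact e
      rw [this]
      exact K'.neg_mem (K'.mul_mem hm ha)
  refine ⟨L, ⟨?_, ?_⟩, ?_, ?_, ?_⟩
  · intro x hx y hy
    obtain ⟨a, ha, b, hb, rfl⟩ := (hL x).mp hx
    obtain ⟨c, hc, d, hd, rfl⟩ := (hL y).mp hy
    rw [mul_expand (T.comm c hc) (T.comm d hd) T.sq, mul_expand (T.comm a ha) (T.comm b hb) T.sq,
      hK.comm a ha c hc, hK.comm b hb d hd, hK.comm a ha d hd, hK.comm b hb c hc, add_comm (d * a) (c * b)]
  · intro x hx hx0
    obtain ⟨a, ha, b, hb, rfl⟩ := (hL x).mp hx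
    set n := a * (a + b) + b * b * N with hn
    have hnK : n ∈ K' := K'.add_mem (K'.mul_mem ha (K'.add_mem ha hb)) (K'.mul_mem (K'.mul_mem hb hb) T.hN)
    have hn0 : n ≠ 0 := by
      intro h0
      by_cases hb0 : b = 0
      · have ha0 : a ≠ 0 := by
          rintro rfl
          apply hx0
          rw [hb0]
          simp
        rw [hn, hb0] at h0
        simp only [add_zero, zero_mul] at h0
        obtain ⟨m, hm, h1, -⟩ := fs_inv hK ha ha0
        apply ha0
        calc a = (m * a) * a := by rw [h1, one_mul]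
          _ = m * (a * a) := by rw [mul_assoc]
          _ = 0 := by rw [h0, mul_zero]
      · obtain ⟨m, hm, h1, h1'⟩ := fs_inv hK hb hb0
        apply hno (-(m * a)) (K'.neg_mem (K'.mul_mem hm ha))
        have hab : a * b = b * a := hK.comm a ha b hb
        have ham : a * m = m * a := hK.comm a ha m hm
        -- multiply the relation by the inverse square
        have e1 : m * m * n = 0 := by rw [h0, mul_zero]
        have e2 : m * m * n = (m * a) * (m * a) + m * a + N := by
          rw [hn, mul_add (m * m) (a * (a + b)), mul_add a a b, mul_add (m * m) (a * a)]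
          have e3 : m * m * (a * a) = m * a * (m * a) := by
            simp only [mul_assoc]
            rw [← mul_assoc a m a, ham, mul_assoc m a a]
          have e4 : m * m * (a * b) = m * a := by
            rw [hab, ← mul_assoc, mul_assoc m m b, h1, mul_one]
          have e5 : m * m * (b * b * N) = N := by
            rw [← mul_assoc, ← mul_assoc, mul_assoc m m b, h1, mul_one, h1, one_mul]
          rw [e3, e4, e5]
        rw [e1] at e2
        have e3 : (-(m * a)) * (-(m * a)) = (m * a) * (m * a) := by noncomm_ring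
        rw [e3, eq_sub_iff_add_eq, ← sub_eq_zero, sub_eq_add_neg, neg_neg]
        rw [e2]
        abel
    obtain ⟨m, hm, h1, h1'⟩ := fs_inv hK hnK hn0
    have hcomm : (a + b - b * t) = (a + b) + (-b) * t := by
      noncomm_ring
    refine ⟨(a + b - b * t) * m, ?_, ?_⟩
    · refine (hL _).mpr ⟨(a + b) * m, K'.mul_mem (K'.add_mem ha hb) hm, -b * m, K'.mul_mem (K'.neg_mem hb) hm, ?_⟩
      rw [hcomm, add_mul, mul_assoc (-b) t m, T.comm m hm, ← mul_assoc, mul_assoc (-b) m t]
    · rw [← mul_assoc, hcomm, mul_expand (T.comm _ (K'.add_mem ha hb)) (T.comm _ (K'.neg_mem hb)) T.sq]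
      have hab : a * b = b * a := hK.comm a ha b hb
      have e1 : a * (a + b) - b * -b * N = n := by
        rw [hn]
        noncomm_ring
      have e2 : a * -b + b * (a + b) + b * -b = 0 := by
        have : a * -b + b * (a + b) + b * -b = b * a - a * b := by noncomm_ring
        rw [this, hab, sub_self]
      rw [e1, e2, zero_mul, add_zero, h1']
  · -- the dimension
    let φ : (K' × K') →ₗ[F] Matrix ι ι F :=
      { toFun := fun p => (p.1 : Matrix ι ι F) + (p.2 : Matrix ι ι F) * t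
        map_add' := fun p p' => by
          simp only [Prod.fst_add, Prod.snd_add, Subalgebra.coe_add, add_mul]
          abel
        map_smul' := fun c p => by
          simp only [Prod.smul_fst, Prod.smul_snd, Subalgebra.coe_smul, RingHom.id_apply, smul_add, smul_mul_assoc] }
    have hinj : Function.Injective φ := by
      rw [← LinearMap.ker_eq_bot, LinearMap.ker_eq_bot']
      rintro ⟨⟨a, ha⟩, ⟨b, hb⟩⟩ h0
      obtain ⟨e1, e2⟩ := hindep a ha b hb h0
      subst e1
      subst e2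
      rfl
    have hrange : Subalgebra.toSubmodule L = LinearMap.range φ := by
      ext x
      rw [Subalgebra.mem_toSubmodule, hL]
      constructor
      · rintro ⟨a, ha, b, hb, rfl⟩
        exact ⟨(⟨a, ha⟩, ⟨b, hb⟩), rfl⟩
      · rintro ⟨⟨⟨a, ha⟩, ⟨b, hb⟩⟩, rfl⟩
        exact ⟨a, ha, b, hb, rfl⟩
    have h1 := LinearMap.finrank_range_of_inj hinj
    rw [← hrange, Module.finrank_prod, hK.finrank_eq] at h1
    have h3 : Module.finrank F L = Module.finrank F (Subalgebra.toSubmodule L) := rfl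
    rw [h3, h1]
    ring
  · intro x hx
    obtain ⟨a, ha, b, hb, rfl⟩ := (hL x).mp hx
    have hC := C.fctx
    have hadj : ∀ k ∈ K', hC.adj k = k := (selfAdjoint_iff hC).mp hsa
    have hadjt : hC.adj t = 1 - t := by
      symm
      apply hC.eq_adj_of'
      intro u v
      rw [T.adj, Matrix.sub_mulVec, Matrix.one_mulVec, C.polar_sub_right]
    rw [hC.adj_add, hC.adj_mul, hadj a ha, hadj b hb, hadjt]
    refine (hL _).mpr ⟨a + b, K'.add_mem ha hb, -b, K'.neg_mem hb, ?_⟩
    rw [sub_mul, one_mul, T.comm b hb]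
    noncomm_ring
  · intro h hh x hx
    obtain ⟨a, ha, b, hb, rfl⟩ := (hL x).mp hx
    obtain ⟨c, hc, d, hd, hcd⟩ := T.norm h hh
    have hih : ((h⁻¹ : GL ι F) : Matrix ι ι F) * (h : Matrix ι ι F) = 1 := by
      rw [← Units.val_mul, inv_mul_cancel, Units.val_one]
    have e1 : (h : Matrix ι ι F) * (a + b * t) * ((h⁻¹ : GL ι F) : Matrix ι ι F) =
        (h : Matrix ι ι F) * a * ((h⁻¹ : GL ι F) : Matrix ι ι F) +
        ((h : Matrix ι ι F) * b * ((h⁻¹ : GL ι F) : Matrix ι ι F)) * ((h : Matrix ι ι F) * t * ((h⁻¹ : GL ι F) : Matrix ι ι F)) := by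
      have : ((h : Matrix ι ι F) * b * ((h⁻¹ : GL ι F) : Matrix ι ι F)) * ((h : Matrix ι ι F) * t * ((h⁻¹ : GL ι F) : Matrix ι ι F)) =
          (h : Matrix ι ι F) * (b * t) * ((h⁻¹ : GL ι F) : Matrix ι ι F) := by
        calc _ = (h : Matrix ι ι F) * b * (((h⁻¹ : GL ι F) : Matrix ι ι F) * (h : Matrix ι ι F)) * t * ((h⁻¹ : GL ι F) : Matrix ι ι F) := by
              simp only [mul_assoc]
          _ = _ := by
              rw [hih, mul_one]
              simp only [mul_assoc]
      rw [this, mul_add, add_mul]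
    rw [e1, hcd]
    have m1 := conj_mem_of_norm hNH hh ha
    have m2 := conj_mem_of_norm hNH hh hb
    rw [mul_add, ← mul_assoc]
    refine (hL _).mpr ⟨_, K'.add_mem m1 (K'.mul_mem m2 hc), _, K'.mul_mem m2 hd, ?_⟩
    rw [add_assoc]


end T

end Cfsg.Agent.H97.Asch
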