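import Cfsg.Agent.Lib.H97M3

/-!
The extra element in characteristic two: quadratic extensions of self-adjoint field subalgebras.
-/

set_option autoImplicit false
set_option linter.unusedSectionVars false
set_option linter.unusedSimpArgs false
set_option linter.unusedVariables false
set_option linter.style.haveILetI false

namespace Cfsg.Agent.H97.Asch

open Matrix Cfsg Cfsg.Geo

variable {ι : Type} [Fintype ι] [DecidableEq ι] {F : Type*} [Field F] [Fintype F] {Q : (ι → F) → F} {K : Subgroup (GL ι F)}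
variable {K' : Subalgebra F (Matrix ι ι F)} {H : Subgroup (GL ι F)} {r : ℕ}

theorem conj_comm (hNH : H ≤ subalgebraNormalizer K') {h : GL ι F} (hh : h ∈ H) {z : Matrix ι ι F} (hz : ∀ k ∈ K', z * k = k * z) :
    ∀ k ∈ K', ((h : Matrix ι ι F) * z * ((h⁻¹ : GL ι F) : Matrix ι ι F)) * k = k * ((h : Matrix ι ι F) * z * ((h⁻¹ : GL ι F) : Matrix ι ι F)) := by
  intro k hk
  have hk' := conj_mem_of_norm' hNH hh hk
  have hih : (h : Matrix ι ι F) * ((h⁻¹ : GL ι F) : Matrix ι ι F) = 1 := by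
    rw [← Units.val_mul, mul_inv_cancel, Units.val_one]
  have hz' := hz _ hk'
  have e1 : z * ((h⁻¹ : GL ι F) : Matrix ι ι F) * k = ((h⁻¹ : GL ι F) : Matrix ι ι F) * k * (h : Matrix ι ι F) * z * ((h⁻¹ : GL ι F) : Matrix ι ι F) := by
    rw [← hz']
    simp only [mul_assoc]
    rw [hih, mul_one]
  calc (h : Matrix ι ι F) * z * ((h⁻¹ : GL ι F) : Matrix ι ι F) * k
      = (h : Matrix ι ι F) * (z * ((h⁻¹ : GL ι F) : Matrix ι ι F) * k) := by simp only [mul_assoc]
    _ = ((h : Matrix ι ι F) * ((h⁻¹ : GL ι F) : Matrix ι ι F)) * k * (h : Matrix ι ι F) * z * ((h⁻¹ : GL ι F) : Matrix ι ι F) := by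
        rw [e1]
        simp only [mul_assoc]
    _ = _ := by
        rw [hih, one_mul]
        simp only [mul_assoc]

/-- The adjoint preserves the centraliser of a self-adjoint field -/
theorem adj_comm (C : ECtx Q K) (hsa : IsSelfAdjointFor (QuadraticMap.polar Q) K') {x : Matrix ι ι F} (hx : ∀ k ∈ K', x * k = k * x) :
    ∀ k ∈ K', C.fctx.adj x * k = k * C.fctx.adj x := by
  intro k hk
  have hC := C.fctx
  have h1 : hC.adj k = k := (selfAdjoint_iff hC).mp hsa k hk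
  have h3 := congrArg hC.adj (hx k hk)
  rw [hC.adj_mul, hC.adj_mul, h1] at h3
  exact h3.symm

section Two

theorem alt_field (C : ECtx Q K) (hK : IsFieldSubalgebra r K') (hsa : IsSelfAdjointFor (QuadraticMap.polar Q) K') (h2 : (2 : F) = 0)
    {k : Matrix ι ι F} (hk : k ∈ K') (v : ι → F) : QuadraticMap.polar Q (k *ᵥ v) v = 0 := by
  obtain ⟨m, hm, rfl⟩ := exists_sq_root hK h2 hk
  rw [← Matrix.mulVec_mulVec, hsa m hm, C.self, h2, zero_mul]

theorem line_perp (C : ECtx Q K) (hK : IsFieldSubalgebra r K') (hsa : IsSelfAdjointFor (QuadraticMap.polar Q) K') (h2 : (2 : F) = 0)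
    (hcard : Fintype.card ι = 2 * r) {v : ι → F} (hv : v ≠ 0) {x : ι → F} (hx : ∀ k ∈ K', QuadraticMap.polar Q (k *ᵥ v) x = 0) :
    x ∈ lineOf K' v := by
  classical
  have hC := C.fctx
  have hfr := finrank_lineOf hK hv
  have h1 := hC.finrank_perp (lineOf K' v)
  have hle : lineOf K' v ≤ hC.perp (lineOf K' v) := by
    intro y hy w hw
    obtain ⟨k, hk, rfl⟩ := mem_lineOf.mp hy
    obtain ⟨k', hk', rfl⟩ := mem_lineOf.mp hw
    rw [hsa k hk, Matrix.mulVec_mulVec, QuadraticMap.polar_comm]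
    exact alt_field C hK hsa h2 (K'.mul_mem hk hk') v
  have heq : lineOf K' v = hC.perp (lineOf K' v) := Submodule.eq_of_le_of_finrank_eq hle (by omega)
  rw [heq, hC.mem_perp']
  intro w hw
  obtain ⟨k, hk, rfl⟩ := mem_lineOf.mp hw
  exact hx k hk

theorem mem_of_alt (C : ECtx Q K) (hK : IsFieldSubalgebra r K') (hsa : IsSelfAdjointFor (QuadraticMap.polar Q) K') (h2 : (2 : F) = 0)
    (hcard : Fintype.card ι = 2 * r) (hr : 0 < r) {z : Matrix ι ι F} (hz : ∀ k ∈ K', z * k = k * z)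
    (halt : ∀ v, QuadraticMap.polar Q v (z *ᵥ v) = 0) : z ∈ K' := by
  classical
  have hne : Nonempty ι := Fintype.card_pos_iff.mp (by omega)
  refine mem_of_lines hK hz fun v => ?_
  by_cases hv : v = 0
  · rw [hv, Matrix.mulVec_zero]
    exact Submodule.zero_mem _
  refine line_perp C hK hsa h2 hcard hv fun k hk => ?_
  obtain ⟨m, hm, rfl⟩ := exists_sq_root hK h2 hk
  rw [← Matrix.mulVec_mulVec, hsa m hm, Matrix.mulVec_mulVec, ← hz m hm, ← Matrix.mulVec_mulVec]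
  exact halt _

theorem tr_mem (C : ECtx Q K) (hK : IsFieldSubalgebra r K') (hsa : IsSelfAdjointFor (QuadraticMap.polar Q) K') (h2 : (2 : F) = 0)
    (hcard : Fintype.card ι = 2 * r) (hr : 0 < r) {x : Matrix ι ι F} (hx : ∀ k ∈ K', x * k = k * x) : x + C.fctx.adj x ∈ K' := by
  refine mem_of_alt C hK hsa h2 hcard hr (fun k hk => ?_) fun v => ?_
  · rw [add_mul, mul_add, hx k hk, adj_comm C hsa hx k hk]
  · rw [Matrix.add_mulVec, C.polar_add_right, ← C.fctx.adj_spec', QuadraticMap.polar_comm]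
    have : QuadraticMap.polar Q (x *ᵥ v) v + QuadraticMap.polar Q (x *ᵥ v) v = 2 * QuadraticMap.polar Q (x *ᵥ v) v := by ring
    rw [this, h2, zero_mul]

end Two

section TEven

/-- Commuting elements of order at most two generate a group fixing a vector. -/
theorem not_irr_of_invol (h2 : (2 : F) = 0) [Nonempty ι] (hNH : H ≤ subalgebraNormalizer K') {g : GL ι F} (hg : g ∈ H)
    (hgc : ∀ k ∈ K', (g : Matrix ι ι F) * k = k * g) (hg1 : g ≠ 1)
    (hall : ∀ h ∈ H, (∀ k ∈ K', (h : Matrix ι ι F) * k = k * h) → h * h = 1) : ¬ Irr H := by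
  classical
  -- the centraliser
  let H₀ : Subgroup (GL ι F) :=
    { carrier := {h | h ∈ H ∧ ∀ k ∈ K', (h : Matrix ι ι F) * k = k * h}
      mul_mem' := by
        rintro a b ⟨ha, ha'⟩ ⟨hb, hb'⟩
        refine ⟨H.mul_mem ha hb, fun k hk => ?_⟩
        rw [Units.val_mul, mul_assoc, hb' k hk, ← mul_assoc, ha' k hk, mul_assoc]
      one_mem' := ⟨H.one_mem, fun k _ => by simp⟩
      inv_mem' := by
        rintro a ⟨ha, ha'⟩
        refine ⟨H.inv_mem ha, fun k hk => ?_⟩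
        have e1 : ((a⁻¹ : GL ι F) : Matrix ι ι F) * (a : Matrix ι ι F) = 1 := by
          rw [← Units.val_mul, inv_mul_cancel, Units.val_one]
        have e2 : (a : Matrix ι ι F) * ((a⁻¹ : GL ι F) : Matrix ι ι F) = 1 := by
          rw [← Units.val_mul, mul_inv_cancel, Units.val_one]
        calc ((a⁻¹ : GL ι F) : Matrix ι ι F) * k = ((a⁻¹ : GL ι F) : Matrix ι ι F) * k * ((a : Matrix ι ι F) * ((a⁻¹ : GL ι F) : Matrix ι ι F)) := by
              rw [e2, mul_one]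
          _ = ((a⁻¹ : GL ι F) : Matrix ι ι F) * (k * (a : Matrix ι ι F)) * ((a⁻¹ : GL ι F) : Matrix ι ι F) := by
              simp only [mul_assoc]
          _ = ((a⁻¹ : GL ι F) : Matrix ι ι F) * ((a : Matrix ι ι F) * k) * ((a⁻¹ : GL ι F) : Matrix ι ι F) := by
              rw [ha' k hk]
          _ = k * ((a⁻¹ : GL ι F) : Matrix ι ι F) := by
              rw [← mul_assoc, e1, one_mul] }
  let Fx : Submodule F (ι → F) :=
    { carrier := {v | ∀ x ∈ H₀, (x : Matrix ι ι F) *ᵥ v = v}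
      add_mem' := fun {a b} ha hb x hx => by rw [Matrix.mulVec_add, ha x hx, hb x hx]
      zero_mem' := fun x _ => Matrix.mulVec_zero _
      smul_mem' := fun c a ha x hx => by rw [Matrix.mulVec_smul, ha x hx] }
  have hstable : Stable H Fx := by
    intro h hh v hv x hx
    have hx' : h⁻¹ * x * h ∈ H₀ := by
      refine ⟨H.mul_mem (H.mul_mem (H.inv_mem hh) hx.1) hh, fun k hk => ?_⟩
      have hk' : (h : Matrix ι ι F) * k * ((h⁻¹ : GL ι F) : Matrix ι ι F) ∈ K' := conj_mem_of_norm hNH hh hk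
      have e1 := hx.2 _ hk'
      have e2 : ((h⁻¹ : GL ι F) : Matrix ι ι F) * (h : Matrix ι ι F) = 1 := by
        rw [← Units.val_mul, inv_mul_cancel, Units.val_one]
      calc ((h⁻¹ * x * h : GL ι F) : Matrix ι ι F) * k
          = ((h⁻¹ : GL ι F) : Matrix ι ι F) * ((x : Matrix ι ι F) * ((h : Matrix ι ι F) * k * ((h⁻¹ : GL ι F) : Matrix ι ι F))) * (h : Matrix ι ι F) := by
            simp only [Units.val_mul, mul_assoc]
            rw [e2, mul_one]
        _ = ((h⁻¹ : GL ι F) : Matrix ι ι F) * (((h : Matrix ι ι F) * k * ((h⁻¹ : GL ι F) : Matrix ι ι F)) * (x : Matrix ι ι F)) * (h : Matrix ι ι F) := by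
            rw [e1]
        _ = (((h⁻¹ : GL ι F) : Matrix ι ι F) * (h : Matrix ι ι F)) * k * (((h⁻¹ : GL ι F) : Matrix ι ι F) * (x : Matrix ι ι F) * (h : Matrix ι ι F)) := by
            simp only [mul_assoc]
        _ = k * ((h⁻¹ * x * h : GL ι F) : Matrix ι ι F) := by
            rw [e2, one_mul]
            simp only [Units.val_mul]
    have e3 := hv _ hx'
    have e4 : (x : Matrix ι ι F) *ᵥ ((h : Matrix ι ι F) *ᵥ v) = (h : Matrix ι ι F) *ᵥ (((h⁻¹ * x * h : GL ι F) : Matrix ι ι F) *ᵥ v) := by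
      have e5 : x * h = h * (h⁻¹ * x * h) := by group
      rw [Matrix.mulVec_mulVec, Matrix.mulVec_mulVec, ← Units.val_mul, ← Units.val_mul, e5]
    rw [e4, e3]
  intro hirr
  rcases hirr Fx hstable with h0 | h1
  · -- fixed points of a 2-group
    letI act : MulAction H₀ (ι → F) :=
      { smul := fun x v => (x.1 : Matrix ι ι F) *ᵥ v
        one_smul := fun v => by
          show ((1 : GL ι F) : Matrix ι ι F) *ᵥ v = v
          simp
        mul_smul := fun a b v => by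
          show ((a.1 * b.1 : GL ι F) : Matrix ι ι F) *ᵥ v = (a.1 : Matrix ι ι F) *ᵥ ((b.1 : Matrix ι ι F) *ᵥ v)
          rw [Units.val_mul, Matrix.mulVec_mulVec] }
    haveI : Fact (Nat.Prime 2) := ⟨Nat.prime_two⟩
    have hp : IsPGroup 2 H₀ := by
      rintro ⟨x, hx⟩
      refine ⟨1, Subtype.ext ?_⟩
      have := hall x hx.1 hx.2
      simp only [pow_one, Subgroup.coe_pow, Subgroup.coe_one, pow_two]
      exact this
    have hdvd : 2 ∣ Nat.card (ι → F) := by
      rw [Nat.card_eq_fintype_card, Fintype.card_fun]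
      have hq : ¬ Odd (Fintype.card F) := fun ho => two_ne_of_odd_card ho h2
      rw [Nat.not_odd_iff_even, even_iff_two_dvd] at hq
      exact dvd_pow hq Fintype.card_ne_zero
    have h00 : (0 : ι → F) ∈ MulAction.fixedPoints H₀ (ι → F) := fun x => Matrix.mulVec_zero _
    obtain ⟨b, hb, hb0⟩ := hp.exists_fixed_point_of_prime_dvd_card_of_fixed_point (ι → F) hdvd h00
    have hbF : b ∈ Fx := fun x hx => hb ⟨x, hx⟩
    rw [h0, Submodule.mem_bot] at hbF
    exact hb0 hbF.symm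
  · -- `g` would be trivial
    apply hg1
    apply Units.ext
    have h3 : (g : Matrix ι ι F) - 1 = 0 := by
      apply eq_zero_of_forall_mulVec
      intro v
      have hv : v ∈ Fx := by
        rw [h1]
        trivial
      rw [Matrix.sub_mulVec, Matrix.one_mulVec, hv g ⟨hg, hgc⟩, sub_self]
    rw [Units.val_one]
    exact sub_eq_zero.mp h3

/-- The extra element in characteristic two. -/
theorem tdata_even (C : ECtx Q K) (hHK : H ≤ K) (hK : IsFieldSubalgebra r K') (hsa : IsSelfAdjointFor (QuadraticMap.polar Q) K')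
    (hNH : H ≤ subalgebraNormalizer K') (h2 : (2 : F) = 0) (hcard : Fintype.card ι = 2 * r) (hr : 0 < r) {g : GL ι F} (hg : g ∈ H)
    (hgc : ∀ k ∈ K', (g : Matrix ι ι F) * k = k * g) (hgg : g * g ≠ 1) : ∃ t N, TData C K' H t N := by
  classical
  have hne : Nonempty ι := Fintype.card_pos_iff.mp (by omega)
  have hA := C.fctx
  have hfixQ : ∀ h ∈ H, ∀ v, Q ((h : Matrix ι ι F) *ᵥ v) = Q v := fun h hh => C.fix h (hHK hh)
  have hfix : ∀ h ∈ H, ∀ u v, QuadraticMap.polar Q ((h : Matrix ι ι F) *ᵥ u) ((h : Matrix ι ι F) *ᵥ v) = QuadraticMap.polar Q u v :=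
    fun h hh u v => fixes_polar (hfixQ h hh) u v
  have hadjg : hA.adj (g : Matrix ι ι F) = ((g⁻¹ : GL ι F) : Matrix ι ι F) := hA.adj_gl (hfix g hg)
  have hgi : (g : Matrix ι ι F) * ((g⁻¹ : GL ι F) : Matrix ι ι F) = 1 := by
    rw [← Units.val_mul, mul_inv_cancel, Units.val_one]
  have hig : ((g⁻¹ : GL ι F) : Matrix ι ι F) * (g : Matrix ι ι F) = 1 := by
    rw [← Units.val_mul, inv_mul_cancel, Units.val_one]
  have hτK : (g : Matrix ι ι F) + ((g⁻¹ : GL ι F) : Matrix ι ι F) ∈ K' := by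
    have := tr_mem C hK hsa h2 hcard hr hgc
    rwa [show C.fctx.adj (g : Matrix ι ι F) = ((g⁻¹ : GL ι F) : Matrix ι ι F) from hadjg] at this
  set τ := (g : Matrix ι ι F) + ((g⁻¹ : GL ι F) : Matrix ι ι F) with hτ
  have h11 : (1 : Matrix ι ι F) + 1 = 0 := by
    rw [one_add_one_eq_two]
    have : (2 : Matrix ι ι F) = (2 : F) • 1 := by
      rw [two_smul, one_add_one_eq_two]
    rw [this, h2, zero_smul]
  have hτ0 : τ ≠ 0 := by
    intro h0
    apply hgg
    apply Units.ext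
    have e : (g : Matrix ι ι F) * τ = 0 := by rw [h0, mul_zero]
    rw [hτ, mul_add, hgi] at e
    rw [Units.val_mul, Units.val_one]
    have e2 : (g : Matrix ι ι F) * g = -1 := eq_neg_of_add_eq_zero_left e
    rw [e2]
    exact neg_eq_of_add_eq_zero_left h11
  obtain ⟨ρ, hρ, hρτ, hτρ⟩ := fs_inv hK hτK hτ0
  have hgτ : (g : Matrix ι ι F) * τ = τ * g := (hgc τ hτK)
  have hgρ : (g : Matrix ι ι F) * ρ = ρ * g := hgc ρ hρ
  have hgg' : (g : Matrix ι ι F) * g = τ * g - 1 := by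
    rw [hτ, add_mul, hig]
    abel
  refine ⟨ρ * g, ρ * ρ, ?_⟩
  have hcomm : ∀ k ∈ K', (ρ * (g : Matrix ι ι F)) * k = k * (ρ * g) := by
    intro k hk
    rw [mul_assoc, hgc k hk, ← mul_assoc, hK.comm ρ hρ k hk, mul_assoc]
  have hsqt : (ρ * (g : Matrix ι ι F)) * (ρ * g) = ρ * g - ρ * ρ := by
    have e : (ρ * (g : Matrix ι ι F)) * (ρ * g) = ρ * ρ * ((g : Matrix ι ι F) * g) := by
      rw [mul_assoc ρ (g : Matrix ι ι F), ← mul_assoc (g : Matrix ι ι F) ρ, hgρ]
      simp only [mul_assoc]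
    rw [e, hgg', mul_sub, mul_one, ← mul_assoc, mul_assoc ρ ρ τ, hρτ, mul_one]
  have higρ : ((g⁻¹ : GL ι F) : Matrix ι ι F) * ρ = ρ * ((g⁻¹ : GL ι F) : Matrix ι ι F) := by
    calc ((g⁻¹ : GL ι F) : Matrix ι ι F) * ρ = ((g⁻¹ : GL ι F) : Matrix ι ι F) * ρ * ((g : Matrix ι ι F) * ((g⁻¹ : GL ι F) : Matrix ι ι F)) := by
          rw [hgi, mul_one]
      _ = ((g⁻¹ : GL ι F) : Matrix ι ι F) * (ρ * (g : Matrix ι ι F)) * ((g⁻¹ : GL ι F) : Matrix ι ι F) := by
          simp only [mul_assoc]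
      _ = ρ * ((g⁻¹ : GL ι F) : Matrix ι ι F) := by
          rw [← hgρ, ← mul_assoc, hig, one_mul]
  have hadjt : ∀ u v, QuadraticMap.polar Q ((ρ * (g : Matrix ι ι F)) *ᵥ u) v =
      QuadraticMap.polar Q u v - QuadraticMap.polar Q u ((ρ * (g : Matrix ι ι F)) *ᵥ v) := by
    intro u v
    have e1 : QuadraticMap.polar Q ((ρ * (g : Matrix ι ι F)) *ᵥ u) v = QuadraticMap.polar Q u ((ρ * ((g⁻¹ : GL ι F) : Matrix ι ι F)) *ᵥ v) := by
      rw [← Matrix.mulVec_mulVec, hsa ρ hρ, hA.adj_spec', hadjg, Matrix.mulVec_mulVec, higρ]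
    have e2 : (ρ * ((g⁻¹ : GL ι F) : Matrix ι ι F)) *ᵥ v + (ρ * (g : Matrix ι ι F)) *ᵥ v = v := by
      rw [← Matrix.add_mulVec, ← mul_add, add_comm, ← hτ, hρτ, Matrix.one_mulVec]
    have e3 := C.polar_add_right u ((ρ * ((g⁻¹ : GL ι F) : Matrix ι ι F)) *ᵥ v) ((ρ * (g : Matrix ι ι F)) *ᵥ v)
    rw [e2] at e3
    rw [e1, e3]
    ring
  -- the defect vanishes
  have hDadd : ∀ u v, Q (u + v) - QuadraticMap.polar Q (u + v) ((ρ * (g : Matrix ι ι F)) *ᵥ (u + v)) =
      (Q u - QuadraticMap.polar Q u ((ρ * (g : Matrix ι ι F)) *ᵥ u)) + (Q v - QuadraticMap.polar Q v ((ρ * (g : Matrix ι ι F)) *ᵥ v)) := by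
    intro u v
    have e1 : QuadraticMap.polar Q u v = Q (u + v) - Q u - Q v := rfl
    have e2 := hadjt u v
    rw [QuadraticMap.polar_comm] at e2
    rw [Matrix.mulVec_add, C.polar_add_left, C.polar_add_right, C.polar_add_right, e2, e1]
    ring
  have hgt : (ρ * (g : Matrix ι ι F)) * (g : Matrix ι ι F) = (g : Matrix ι ι F) * (ρ * (g : Matrix ι ι F)) := by
    rw [← mul_assoc, hgρ]
  have hDg : ∀ v, Q ((g : Matrix ι ι F) *ᵥ v) - QuadraticMap.polar Q ((g : Matrix ι ι F) *ᵥ v) ((ρ * (g : Matrix ι ι F)) *ᵥ ((g : Matrix ι ι F) *ᵥ v)) =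
      Q v - QuadraticMap.polar Q v ((ρ * (g : Matrix ι ι F)) *ᵥ v) := by
    intro v
    rw [hfixQ g hg, Matrix.mulVec_mulVec, hgt, ← Matrix.mulVec_mulVec, hfix g hg]
  have hquad : ∀ v, Q v = QuadraticMap.polar Q v ((ρ * (g : Matrix ι ι F)) *ᵥ v) := by
    intro w
    obtain ⟨z, hz⟩ : ∃ z, (g : Matrix ι ι F) *ᵥ z + z = w := by
      refine ⟨(((g⁻¹ : GL ι F) : Matrix ι ι F) * ρ + ρ) *ᵥ w, ?_⟩
      have e : (g : Matrix ι ι F) * (((g⁻¹ : GL ι F) : Matrix ι ι F) * ρ + ρ) + (((g⁻¹ : GL ι F) : Matrix ι ι F) * ρ + ρ) = 1 := by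
        have e1 : (g : Matrix ι ι F) * (((g⁻¹ : GL ι F) : Matrix ι ι F) * ρ + ρ) + (((g⁻¹ : GL ι F) : Matrix ι ι F) * ρ + ρ)
            = ((1 : Matrix ι ι F) + 1) * ρ + τ * ρ := by
          rw [mul_add, ← mul_assoc, hgi, one_mul, hτ, add_mul, add_mul, one_mul]
          abel
        rw [e1, h11, zero_mul, zero_add, hτρ]
      rw [Matrix.mulVec_mulVec, ← Matrix.one_mulVec ((((g⁻¹ : GL ι F) : Matrix ι ι F) * ρ + ρ) *ᵥ w), Matrix.mulVec_mulVec, ← Matrix.add_mulVec]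
      rw [Matrix.one_mul, e, Matrix.one_mulVec]
    have e1 := hDadd ((g : Matrix ι ι F) *ᵥ z) z
    rw [hz, hDg] at e1
    have e2 : Q w - QuadraticMap.polar Q w ((ρ * (g : Matrix ι ι F)) *ᵥ w) = 0 := by
      rw [e1, ← two_mul, h2, zero_mul]
    exact sub_eq_zero.mp e2
  have hconj : ∀ h ∈ H, ∀ v, QuadraticMap.polar Q v (((h : Matrix ι ι F) * (ρ * (g : Matrix ι ι F)) * ((h⁻¹ : GL ι F) : Matrix ι ι F)) *ᵥ v) = Q v := by
    intro h hh v
    have e0 : v = (h : Matrix ι ι F) *ᵥ (((h⁻¹ : GL ι F) : Matrix ι ι F) *ᵥ v) := by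
      rw [Matrix.mulVec_mulVec, ← Units.val_mul, mul_inv_cancel, Units.val_one, Matrix.one_mulVec]
    have e1 : ((h : Matrix ι ι F) * (ρ * (g : Matrix ι ι F)) * ((h⁻¹ : GL ι F) : Matrix ι ι F)) *ᵥ v =
        (h : Matrix ι ι F) *ᵥ ((ρ * (g : Matrix ι ι F)) *ᵥ (((h⁻¹ : GL ι F) : Matrix ι ι F) *ᵥ v)) := by
      rw [Matrix.mulVec_mulVec, Matrix.mulVec_mulVec, mul_assoc]
    rw [e1]
    conv_lhs => arg 2; rw [e0]
    rw [hfix h hh, ← hquad, hfixQ _ (H.inv_mem hh)]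
  refine ⟨hcomm, ?_, K'.mul_mem hρ hρ, hsqt, hadjt, hquad, ?_, ?_⟩
  · intro hmem
    obtain ⟨v, hv⟩ : ∃ v : ι → F, v ≠ 0 := exists_ne 0
    obtain ⟨x, hx⟩ := C.nd hv
    apply hx
    have e1 := hsa _ hmem v x
    have e2 := hadjt v x
    rw [e1] at e2
    have e3 : (2 : F) * QuadraticMap.polar Q v ((ρ * (g : Matrix ι ι F)) *ᵥ x) = QuadraticMap.polar Q v x := by
      linear_combination e2
    rw [← e3, h2, zero_mul]
  · intro s _ _ h0
    rw [h2, zero_smul, zero_sub] at h0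
    exact one_ne_zero (neg_eq_zero.mp h0)
  · intro h hh
    have hz : (h : Matrix ι ι F) * (ρ * (g : Matrix ι ι F)) * ((h⁻¹ : GL ι F) : Matrix ι ι F) - ρ * (g : Matrix ι ι F) ∈ K' := by
      refine mem_of_alt C hK hsa h2 hcard hr (fun k hk => ?_) fun v => ?_
      · rw [sub_mul, mul_sub, conj_comm hNH hh hcomm k hk, hcomm k hk]
      · rw [Matrix.sub_mulVec, C.polar_sub_right, hconj h hh, ← hquad, sub_self]
    refine ⟨_, hz, 1, K'.one_mem, ?_⟩
    rw [one_mul]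
    abel

end TEven

end Cfsg.Agent.H97.Asch
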