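import Cfsg.Agent.Lib.H97M4

/-!
The extra element in odd characteristic.
-/

set_option autoImplicit false
set_option linter.unusedSectionVars false
set_option linter.unusedSimpArgs false
set_option linter.unusedVariables false
set_option linter.style.haveILetI false

namespace Cfsg.Agent.H97.Asch

open Matrix Cfsg Cfsg.Geo

variable {ι : Type} [Fintype ι] [DecidableEq ι] {F : Type*} [Field F] [Fintype F] {Q : (ι → F) → F} {K : Subgroup (GL ι F)}
variable {K' : Subalgebra F (Matrix ι ι F)} {H : Subgroup (GL ι F)} {r : ℕ}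

/-- skew elements of the centraliser -/
structure SkEl (Q : (ι → F) → F) (K' : Subalgebra F (Matrix ι ι F)) (y : Matrix ι ι F) : Prop where
  comm : ∀ k ∈ K', y * k = k * y
  skew : ∀ u v, QuadraticMap.polar Q (y *ᵥ u) v = - QuadraticMap.polar Q u (y *ᵥ v)

theorem SkEl.perp (C : ECtx Q K) (hsa : IsSelfAdjointFor (QuadraticMap.polar Q) K') (h2 : (2 : F) ≠ 0) {y : Matrix ι ι F} (hy : SkEl Q K' y)
    {k : Matrix ι ι F} (hk : k ∈ K') (v : ι → F) : QuadraticMap.polar Q (k *ᵥ v) (y *ᵥ v) = 0 := by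
  have e1 := hy.skew (k *ᵥ v) v
  rw [Matrix.mulVec_mulVec, hy.comm k hk, ← Matrix.mulVec_mulVec, hsa k hk, QuadraticMap.polar_comm] at e1
  have e2 : (2 : F) * QuadraticMap.polar Q (k *ᵥ v) (y *ᵥ v) = 0 := by
    linear_combination e1
  exact (mul_eq_zero.mp e2).resolve_left h2

theorem SkEl.sub {y z : Matrix ι ι F} (C : ECtx Q K) (hy : SkEl Q K' y) (hz : SkEl Q K' z) : SkEl Q K' (y - z) := by
  refine ⟨fun k hk => ?_, fun u v => ?_⟩
  · rw [sub_mul, mul_sub, hy.comm k hk, hz.comm k hk]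
  · rw [Matrix.sub_mulVec, Matrix.sub_mulVec, C.polar_sub_left, C.polar_sub_right, hy.skew, hz.skew]
    ring

theorem SkEl.mul_left (hK : IsFieldSubalgebra r K') (hsa : IsSelfAdjointFor (QuadraticMap.polar Q) K') {y b : Matrix ι ι F} (hy : SkEl Q K' y)
    (hb : b ∈ K') : SkEl Q K' (b * y) := by
  refine ⟨fun k hk => ?_, fun u v => ?_⟩
  · rw [mul_assoc, hy.comm k hk, ← mul_assoc, hK.comm b hb k hk, mul_assoc]
  · rw [← Matrix.mulVec_mulVec, hsa b hb, hy.skew, Matrix.mulVec_mulVec, hy.comm b hb]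

section Odd

variable {Q' : (ι → F) → F}

/-- The geometry of a self-adjoint field acting on a plane over it in odd characteristic. -/
structure OddGeo (C : ECtx Q K) (K' : Subalgebra F (Matrix ι ι F)) (r : ℕ) (v₀ : ι → F) : Prop where
  hK : IsFieldSubalgebra r K'
  hsa : IsSelfAdjointFor (QuadraticMap.polar Q) K'
  h2 : (2 : F) ≠ 0
  hcard : Fintype.card ι = 2 * r
  hr : 0 < r
  hv₀ : Q v₀ ≠ 0

variable {C : ECtx Q K} {v₀ : ι → F}

theorem OddGeo.fv₀ (G : OddGeo C K' r v₀) : QuadraticMap.polar Q v₀ v₀ ≠ 0 := by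
  rw [C.self]
  exact mul_ne_zero G.h2 G.hv₀

theorem OddGeo.v₀_ne (G : OddGeo C K' r v₀) : v₀ ≠ 0 := by
  rintro rfl
  exact G.hv₀ C.Q_zero

theorem OddGeo.disj (G : OddGeo C K' r v₀) : lineOf K' v₀ ⊓ C.fctx.perp (lineOf K' v₀) = ⊥ := by
  rw [eq_bot_iff]
  rintro x ⟨hx, hxp⟩
  obtain ⟨k, hk, rfl⟩ := mem_lineOf.mp hx
  rw [Submodule.mem_bot]
  by_cases hk0 : k = 0
  · rw [hk0, Matrix.zero_mulVec]
  · exfalso
    obtain ⟨m, hm, h1, h3⟩ := fs_inv G.hK hk hk0
    have e := (C.fctx.mem_perp.mp hxp) (m *ᵥ v₀) (mem_lineOf.mpr ⟨m, hm, rfl⟩)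
    rw [G.hsa k hk, Matrix.mulVec_mulVec, h3, Matrix.one_mulVec] at e
    exact G.fv₀ e

theorem OddGeo.dims (G : OddGeo C K' r v₀) : Module.finrank F (C.fctx.perp (lineOf K' v₀)) = r := by
  have h1 := (C.fctx.perp_dims G.disj).1
  rw [finrank_lineOf G.hK G.v₀_ne, G.hcard] at h1
  omega

theorem OddGeo.stable (G : OddGeo C K' r v₀) : ∀ k ∈ K', ∀ w ∈ C.fctx.perp (lineOf K' v₀), k *ᵥ w ∈ C.fctx.perp (lineOf K' v₀) := by
  intro k hk w hw x hx
  rw [G.hsa k hk]
  exact (C.fctx.mem_perp.mp hw) _ (stable_lineOf v₀ hk hx)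

theorem OddGeo.mem_P (G : OddGeo C K' r v₀) {x : ι → F} (hx : ∀ w ∈ C.fctx.perp (lineOf K' v₀), QuadraticMap.polar Q x w = 0) :
    x ∈ lineOf K' v₀ := by
  have hC := C.fctx
  have hle : lineOf K' v₀ ≤ hC.perp (hC.perp (lineOf K' v₀)) := by
    intro y hy w hw
    exact (hC.mem_perp'.mp hw) y hy
  have h1 := hC.finrank_perp (hC.perp (lineOf K' v₀))
  rw [G.dims, G.hcard] at h1
  have h3 : lineOf K' v₀ = hC.perp (hC.perp (lineOf K' v₀)) :=
    Submodule.eq_of_le_of_finrank_eq hle (by rw [finrank_lineOf G.hK G.v₀_ne]; omega)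
  rw [h3]
  exact hx

theorem OddGeo.sup (G : OddGeo C K' r v₀) : lineOf K' v₀ ⊔ C.fctx.perp (lineOf K' v₀) = ⊤ := (C.fctx.perp_dims G.disj).2

/-- A skew element of the centraliser vanishing at the base vector is zero. -/
theorem OddGeo.skew_zero (G : OddGeo C K' r v₀) {y : Matrix ι ι F} (hy : SkEl Q K' y) (hv : y *ᵥ v₀ = 0) : y = 0 := by
  apply eq_zero_of_forall_mulVec
  have hP : ∀ x ∈ lineOf K' v₀, y *ᵥ x = 0 := by
    intro x hx
    obtain ⟨k, hk, rfl⟩ := mem_lineOf.mp hx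
    rw [Matrix.mulVec_mulVec, hy.comm k hk, ← Matrix.mulVec_mulVec, hv, Matrix.mulVec_zero]
  have hW : ∀ w ∈ C.fctx.perp (lineOf K' v₀), y *ᵥ w = 0 := by
    intro w hw
    by_cases hw0 : w = 0
    · rw [hw0, Matrix.mulVec_zero]
    have hyw : y *ᵥ w ∈ C.fctx.perp (lineOf K' v₀) := by
      intro x hx
      show QuadraticMap.polar Q (y *ᵥ w) x = 0
      rw [hy.skew, hP x hx, C.pS.zero_right, neg_zero]
    have hyP : y *ᵥ w ∈ lineOf K' v₀ := by
      refine G.mem_P fun w' hw' => ?_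
      rw [eq_lineOf G.hK G.stable G.dims hw hw0] at hw'
      obtain ⟨k, hk, rfl⟩ := mem_lineOf.mp hw'
      rw [QuadraticMap.polar_comm]
      exact hy.perp C G.hsa G.h2 hk w
    have : y *ᵥ w ∈ lineOf K' v₀ ⊓ C.fctx.perp (lineOf K' v₀) := ⟨hyP, hyw⟩
    rw [G.disj] at this
    simpa using this
  intro v
  have hv' : v ∈ lineOf K' v₀ ⊔ C.fctx.perp (lineOf K' v₀) := by
    rw [G.sup]
    trivial
  obtain ⟨x, hx, w, hw, rfl⟩ := Submodule.mem_sup.mp hv'
  rw [Matrix.mulVec_add, hP x hx, hW w hw, add_zero]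

theorem OddGeo.skew_mem (G : OddGeo C K' r v₀) {y : Matrix ι ι F} (hy : SkEl Q K' y) : y *ᵥ v₀ ∈ C.fctx.perp (lineOf K' v₀) := by
  intro x hx
  obtain ⟨k, hk, rfl⟩ := mem_lineOf.mp hx
  show QuadraticMap.polar Q (y *ᵥ v₀) (k *ᵥ v₀) = 0
  rw [QuadraticMap.polar_comm]
  exact hy.perp C G.hsa G.h2 hk v₀

/-- All skew elements are multiples of one of them. -/
theorem OddGeo.skew_mul (G : OddGeo C K' r v₀) {J y : Matrix ι ι F} (hJ : SkEl Q K' J) (hJ0 : J ≠ 0) (hy : SkEl Q K' y) :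
    ∃ b ∈ K', y = b * J := by
  have hw₀ : J *ᵥ v₀ ≠ 0 := fun h => hJ0 (G.skew_zero hJ h)
  have hW := eq_lineOf G.hK G.stable G.dims (G.skew_mem hJ) hw₀
  have hm := G.skew_mem hy
  rw [hW] at hm
  obtain ⟨b, hb, hbw⟩ := mem_lineOf.mp hm
  refine ⟨b, hb, ?_⟩
  have := G.skew_zero ((hy).sub C (hJ.mul_left G.hK G.hsa hb)) (by
    rw [Matrix.sub_mulVec, ← hbw, Matrix.mulVec_mulVec, sub_self])
  exact sub_eq_zero.mp this

/-- The square of a skew element lies in the field. -/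
theorem OddGeo.skew_sq (G : OddGeo C K' r v₀) {J : Matrix ι ι F} (hJ : SkEl Q K' J) (hJ0 : J ≠ 0) :
    ∃ a ∈ K', J * J = a ∧ a ≠ 0 := by
  have hw₀ : J *ᵥ v₀ ≠ 0 := fun h => hJ0 (G.skew_zero hJ h)
  have hW := eq_lineOf G.hK G.stable G.dims (G.skew_mem hJ) hw₀
  have hJw : J *ᵥ (J *ᵥ v₀) ∈ lineOf K' v₀ := by
    refine G.mem_P fun w hw => ?_
    rw [hW] at hw
    obtain ⟨k, hk, rfl⟩ := mem_lineOf.mp hw
    rw [QuadraticMap.polar_comm]
    exact hJ.perp C G.hsa G.h2 hk _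
  obtain ⟨a, ha, haw⟩ := mem_lineOf.mp hJw
  refine ⟨a, ha, ?_, ?_⟩
  · have hcomm : ∀ k ∈ K', (J * J - a) * k = k * (J * J - a) := by
      intro k hk
      rw [sub_mul, mul_sub, mul_assoc, hJ.comm k hk, ← mul_assoc, hJ.comm k hk, mul_assoc, G.hK.comm a ha k hk]
    have hkill : J * J - a = 0 := by
      apply eq_zero_of_forall_mulVec
      intro v
      have hv' : v ∈ lineOf K' v₀ ⊔ C.fctx.perp (lineOf K' v₀) := by
        rw [G.sup]
        trivial
      obtain ⟨x, hx, w, hw, rfl⟩ := Submodule.mem_sup.mp hv'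
      rw [hW] at hw
      obtain ⟨k, hk, rfl⟩ := mem_lineOf.mp hx
      obtain ⟨k', hk', rfl⟩ := mem_lineOf.mp hw
      rw [Matrix.mulVec_add, Matrix.mulVec_mulVec, Matrix.mulVec_mulVec, hcomm k hk, hcomm k' hk', ← Matrix.mulVec_mulVec,
        ← Matrix.mulVec_mulVec (J *ᵥ v₀) k' (J * J - a)]
      have e1 : (J * J - a) *ᵥ v₀ = 0 := by
        rw [Matrix.sub_mulVec, ← Matrix.mulVec_mulVec, haw, sub_self]
      have e2 : (J * J - a) *ᵥ (J *ᵥ v₀) = 0 := by
        rw [Matrix.sub_mulVec, ← Matrix.mulVec_mulVec, ← haw, Matrix.mulVec_mulVec, Matrix.mulVec_mulVec, hJ.comm a ha, sub_self]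
      rw [e1, e2, Matrix.mulVec_zero, Matrix.mulVec_zero, add_zero]
    exact sub_eq_zero.mp hkill
  · rintro rfl
    have hJw0 : J *ᵥ (J *ᵥ v₀) = 0 := by
      rw [← haw, Matrix.zero_mulVec]
    have hinP : J *ᵥ v₀ ∈ lineOf K' v₀ := by
      refine G.mem_P fun w hw => ?_
      rw [hW] at hw
      obtain ⟨k, hk, rfl⟩ := mem_lineOf.mp hw
      rw [hJ.skew, Matrix.mulVec_mulVec, hJ.comm k hk, ← Matrix.mulVec_mulVec, hJw0, Matrix.mulVec_zero, C.pS.zero_right, neg_zero]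
    have : J *ᵥ v₀ ∈ lineOf K' v₀ ⊓ C.fctx.perp (lineOf K' v₀) := ⟨hinP, G.skew_mem hJ⟩
    rw [G.disj] at this
    exact hw₀ (by simpa using this)

theorem exists_Q_ne (C : ECtx Q K) [Nonempty ι] : ∃ v : ι → F, Q v ≠ 0 := by
  by_contra hall
  push Not at hall
  obtain ⟨v, hv⟩ : ∃ v : ι → F, v ≠ 0 := exists_ne 0
  obtain ⟨x, hx⟩ := C.nd hv
  apply hx
  simp only [QuadraticMap.polar]
  rw [hall, hall, hall]
  ring

/-- The extra element in odd characteristic. -/
theorem tdata_odd (C : ECtx Q K) (hHK : H ≤ K) (hK : IsFieldSubalgebra r K') (hsa : IsSelfAdjointFor (QuadraticMap.polar Q) K')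
    (hNH : H ≤ subalgebraNormalizer K') (h2 : (2 : F) ≠ 0) (hcard : Fintype.card ι = 2 * r) (hr : 0 < r) {g : GL ι F} (hg : g ∈ H)
    (hgc : ∀ k ∈ K', (g : Matrix ι ι F) * k = k * g) (hgg : g * g ≠ 1) : ∃ t N, TData C K' H t N := by
  classical
  have hne : Nonempty ι := Fintype.card_pos_iff.mp (by omega)
  have hA := C.fctx
  have hfixQ : ∀ h ∈ H, ∀ v, Q ((h : Matrix ι ι F) *ᵥ v) = Q v := fun h hh => C.fix h (hHK hh)
  have hfix : ∀ h ∈ H, ∀ u v, QuadraticMap.polar Q ((h : Matrix ι ι F) *ᵥ u) ((h : Matrix ι ι F) *ᵥ v) = QuadraticMap.polar Q u v :=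
    fun h hh u v => fixes_polar (hfixQ h hh) u v
  have hgi : (g : Matrix ι ι F) * ((g⁻¹ : GL ι F) : Matrix ι ι F) = 1 := by
    rw [← Units.val_mul, mul_inv_cancel, Units.val_one]
  have hig : ((g⁻¹ : GL ι F) : Matrix ι ι F) * (g : Matrix ι ι F) = 1 := by
    rw [← Units.val_mul, inv_mul_cancel, Units.val_one]
  have hgic : ∀ k ∈ K', ((g⁻¹ : GL ι F) : Matrix ι ι F) * k = k * ((g⁻¹ : GL ι F) : Matrix ι ι F) := by
    intro k hk
    calc ((g⁻¹ : GL ι F) : Matrix ι ι F) * k = ((g⁻¹ : GL ι F) : Matrix ι ι F) * k * ((g : Matrix ι ι F) * ((g⁻¹ : GL ι F) : Matrix ι ι F)) := by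
          rw [hgi, mul_one]
      _ = ((g⁻¹ : GL ι F) : Matrix ι ι F) * (k * (g : Matrix ι ι F)) * ((g⁻¹ : GL ι F) : Matrix ι ι F) := by
          simp only [mul_assoc]
      _ = k * ((g⁻¹ : GL ι F) : Matrix ι ι F) := by
          rw [← hgc k hk, ← mul_assoc, hig, one_mul]
  set J : Matrix ι ι F := (g : Matrix ι ι F) - ((g⁻¹ : GL ι F) : Matrix ι ι F) with hJd
  have hadj1 : ∀ u v, QuadraticMap.polar Q ((g : Matrix ι ι F) *ᵥ u) v = QuadraticMap.polar Q u (((g⁻¹ : GL ι F) : Matrix ι ι F) *ᵥ v) := by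
    intro u v
    have := hfix g hg u (((g⁻¹ : GL ι F) : Matrix ι ι F) *ᵥ v)
    rwa [Matrix.mulVec_mulVec, hgi, Matrix.one_mulVec] at this
  have hadj2 : ∀ u v, QuadraticMap.polar Q (((g⁻¹ : GL ι F) : Matrix ι ι F) *ᵥ u) v = QuadraticMap.polar Q u ((g : Matrix ι ι F) *ᵥ v) := by
    intro u v
    have := hfix g hg (((g⁻¹ : GL ι F) : Matrix ι ι F) *ᵥ u) v
    rw [Matrix.mulVec_mulVec, hgi, Matrix.one_mulVec] at this
    exact this.symm
  have hJ : SkEl Q K' J := by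
    refine ⟨fun k hk => ?_, fun u v => ?_⟩
    · rw [hJd, sub_mul, mul_sub, hgc k hk, hgic k hk]
    · rw [hJd, Matrix.sub_mulVec, Matrix.sub_mulVec, C.polar_sub_left, C.polar_sub_right, hadj1, hadj2]
      ring
  have hJ0 : J ≠ 0 := by
    intro h0
    apply hgg
    apply Units.ext
    rw [Units.val_mul, Units.val_one]
    have e1 : (g : Matrix ι ι F) = ((g⁻¹ : GL ι F) : Matrix ι ι F) := sub_eq_zero.mp h0
    calc (g : Matrix ι ι F) * g = (g : Matrix ι ι F) * ((g⁻¹ : GL ι F) : Matrix ι ι F) := by rw [← e1]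
      _ = 1 := hgi
  obtain ⟨v₀, hv₀⟩ := exists_Q_ne C
  have G : OddGeo C K' r v₀ := ⟨hK, hsa, h2, hcard, hr, hv₀⟩
  obtain ⟨a, ha, hJJ, ha0⟩ := G.skew_sq hJ hJ0
  obtain ⟨c, hc⟩ : ∃ c : F, c = 2⁻¹ := ⟨_, rfl⟩
  have hcc : c + c = 1 := by
    rw [hc]
    field_simp
    norm_num
  have hcc' : c * c + c * c = c := by
    have : c * c + c * c = c * (c + c) := by ring
    rw [this, hcc, mul_one]
  have hc2 : (c * c) • (1 : Matrix ι ι F) + (c * c) • (1 : Matrix ι ι F) = c • (1 : Matrix ι ι F) := by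
    rw [← add_smul, hcc']
  have hcJ : c • J + c • J = J := by
    rw [← add_smul, hcc, one_smul]
  have h1K : c • (1 : Matrix ι ι F) ∈ K' := K'.smul_mem K'.one_mem c
  refine ⟨c • 1 + J, (c * c) • 1 - a, ?_⟩
  have hcomm : ∀ k ∈ K', (c • (1 : Matrix ι ι F) + J) * k = k * (c • 1 + J) := by
    intro k hk
    rw [add_mul, mul_add, hJ.comm k hk, smul_mul_assoc, mul_smul_comm, one_mul, mul_one]
  have hsq : (c • (1 : Matrix ι ι F) + J) * (c • 1 + J) = (c • 1 + J) - ((c * c) • 1 - a) := by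
    have e0 : (c • (1 : Matrix ι ι F) + J) * (c • 1 + J) = (c * c) • 1 + (c • J + c • J) + J * J := by
      simp only [add_mul, mul_add, smul_mul_assoc, mul_smul_comm, one_mul, mul_one, smul_add, smul_smul]
      abel
    rw [e0, hcJ, hJJ, ← hc2]
    abel
  have hadjt : ∀ u v, QuadraticMap.polar Q ((c • (1 : Matrix ι ι F) + J) *ᵥ u) v =
      QuadraticMap.polar Q u v - QuadraticMap.polar Q u ((c • (1 : Matrix ι ι F) + J) *ᵥ v) := by
    intro u v
    rw [Matrix.add_mulVec, Matrix.add_mulVec, Matrix.smul_mulVec, Matrix.smul_mulVec, Matrix.one_mulVec, Matrix.one_mulVec,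
      C.polar_add_left, C.polar_add_right, C.polar_smul_left, C.polar_smul_right, hJ.skew]
    linear_combination (QuadraticMap.polar Q u v) * hcc
  have hquad : ∀ v, Q v = QuadraticMap.polar Q v ((c • (1 : Matrix ι ι F) + J) *ᵥ v) := by
    intro v
    rw [Matrix.add_mulVec, Matrix.smul_mulVec, Matrix.one_mulVec, C.polar_add_right, C.polar_smul_right, C.self]
    have e := hJ.perp C hsa h2 K'.one_mem v
    rw [Matrix.one_mulVec] at e
    rw [e]
    linear_combination (- Q v) * hcc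
  refine ⟨hcomm, ?_, K'.sub_mem (K'.smul_mem K'.one_mem _) ha, hsq, hadjt, hquad, ?_, ?_⟩
  · intro hmem
    have hJK : J ∈ K' := by
      have := K'.sub_mem hmem h1K
      simpa using this
    apply hJ0
    apply eq_zero_of_forall_mulVec
    intro v
    by_contra hv
    obtain ⟨x, hx⟩ := C.nd hv
    apply hx
    have e1 := hJ.skew x v
    rw [hsa J hJK, QuadraticMap.polar_comm] at e1
    have e2 : (2 : F) * QuadraticMap.polar Q (J *ᵥ v) x = 0 := by
      rw [QuadraticMap.polar_comm Q (J *ᵥ v)]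
      rw [QuadraticMap.polar_comm] at e1
      linear_combination e1
    exact (mul_eq_zero.mp e2).resolve_left h2
  · intro s hs hroot h0
    have hs' : s = c • (1 : Matrix ι ι F) := by
      have e1 : (2 : F) • s = 1 := sub_eq_zero.mp h0
      have e2 := congrArg (fun m => c • m) e1
      simp only [smul_smul] at e2
      have e3 : c * 2 = 1 := by
        rw [← hcc]
        ring
      rwa [e3, one_smul] at e2
    apply ha0
    rw [hs'] at hroot
    rw [smul_mul_smul_comm, one_mul] at hroot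
    have e1 : a = (c * c) • (1 : Matrix ι ι F) + (c * c) • (1 : Matrix ι ι F) - c • 1 := by
      have e5 := hroot
      rw [eq_sub_iff_add_eq] at e5
      calc a = ((c * c) • (1 : Matrix ι ι F) + (c * c) • (1 : Matrix ι ι F)) - ((c * c) • (1 : Matrix ι ι F) + ((c * c) • (1 : Matrix ι ι F) - a)) := by abel
        _ = _ := by rw [e5]
    rw [e1, hc2, sub_self]
  · intro h hh
    have hih : (h : Matrix ι ι F) * ((h⁻¹ : GL ι F) : Matrix ι ι F) = 1 := by
      rw [← Units.val_mul, mul_inv_cancel, Units.val_one]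
    have hhi : ((h⁻¹ : GL ι F) : Matrix ι ι F) * (h : Matrix ι ι F) = 1 := by
      rw [← Units.val_mul, inv_mul_cancel, Units.val_one]
    have hsk : SkEl Q K' ((h : Matrix ι ι F) * J * ((h⁻¹ : GL ι F) : Matrix ι ι F)) := by
      refine ⟨conj_comm hNH hh hJ.comm, fun u v => ?_⟩
      have e1 : ((h : Matrix ι ι F) * J * ((h⁻¹ : GL ι F) : Matrix ι ι F)) *ᵥ u = (h : Matrix ι ι F) *ᵥ (J *ᵥ (((h⁻¹ : GL ι F) : Matrix ι ι F) *ᵥ u)) := by
        rw [Matrix.mulVec_mulVec, Matrix.mulVec_mulVec, mul_assoc]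
      have e2 : ((h : Matrix ι ι F) * J * ((h⁻¹ : GL ι F) : Matrix ι ι F)) *ᵥ v = (h : Matrix ι ι F) *ᵥ (J *ᵥ (((h⁻¹ : GL ι F) : Matrix ι ι F) *ᵥ v)) := by
        rw [Matrix.mulVec_mulVec, Matrix.mulVec_mulVec, mul_assoc]
      have e3 : ∀ x : ι → F, x = (h : Matrix ι ι F) *ᵥ (((h⁻¹ : GL ι F) : Matrix ι ι F) *ᵥ x) := by
        intro x
        rw [Matrix.mulVec_mulVec, hih, Matrix.one_mulVec]
      rw [e1, e2]
      conv_lhs => rw [e3 v]
      conv_rhs => rw [e3 u]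
      rw [hfix h hh, hfix h hh, hJ.skew]
    obtain ⟨b, hb, hbJ⟩ := G.skew_mul hJ hJ0 hsk
    refine ⟨c • 1 - b * (c • 1), K'.sub_mem h1K (K'.mul_mem hb h1K), b, hb, ?_⟩
    rw [mul_add, add_mul, hbJ, mul_smul_comm, mul_one, smul_mul_assoc, hih, mul_add]
    abel

end Odd

section Det

/-- An involution with two eigenspaces of the same odd dimension has determinant `-1`. -/
theorem det_of_eigen (h2 : (2 : F) ≠ 0) {g : Matrix ι ι F} {U V : Submodule F (ι → F)} (hc : IsCompl U V)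
    (hU : ∀ u ∈ U, g *ᵥ u = u) (hV : ∀ v ∈ V, g *ᵥ v = -v) (hodd : Odd (Module.finrank F V)) : g.det = -1 := by
  classical
  let e := Submodule.prodEquivOfIsCompl U V hc
  let f : Module.End F (U × V) := LinearMap.prodMap LinearMap.id ((-1 : F) • LinearMap.id)
  have hconj : Matrix.toLin' g = (e : (U × V) →ₗ[F] (ι → F)) ∘ₗ f ∘ₗ (e.symm : (ι → F) →ₗ[F] (U × V)) := by
    apply LinearMap.ext
    intro v
    obtain ⟨p, rfl⟩ := e.surjective v
    simp only [LinearMap.comp_apply, LinearEquiv.coe_coe, LinearEquiv.symm_apply_apply, Matrix.toLin'_apply]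
    obtain ⟨⟨u, hu⟩, ⟨w, hw⟩⟩ := p
    simp only [e, f, Submodule.coe_prodEquivOfIsCompl', LinearMap.prodMap_apply, LinearMap.id_apply, LinearMap.smul_apply]
    simp only [Matrix.mulVec_add, hU u hu, hV w hw]
    simp
  have hdet : LinearMap.det (Matrix.toLin' g) = LinearMap.det f := by
    rw [hconj]
    exact LinearMap.det_conj f e
  rw [LinearMap.det_toLin'] at hdet
  rw [hdet, LinearMap.det_prodMap, LinearMap.det_id, LinearMap.det_smul, LinearMap.det_id, hodd.neg_one_pow]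
  simp

/-- A non-scalar element of the centraliser of a field has order different from two. -/
theorem sq_ne_one_odd (C : ECtx Q K) (hHK : H ≤ K) (hK : IsFieldSubalgebra r K') (h2 : (2 : F) ≠ 0) (hcard : Fintype.card ι = 2 * r)
    (hr : Odd r) {g : GL ι F} (hg : g ∈ H) (hgc : ∀ k ∈ K', (g : Matrix ι ι F) * k = k * g) (hns : g ∉ scalars ι F) : g * g ≠ 1 := by
  classical
  intro hgg
  have hgg' : (g : Matrix ι ι F) * g = 1 := by
    have := congrArg (fun x : GL ι F => (x : Matrix ι ι F)) hgg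
    simpa using this
  have hst : ∀ {s : F}, ∀ k ∈ K', ∀ u ∈ eigT (g : Matrix ι ι F) (s • 1), k *ᵥ u ∈ eigT (g : Matrix ι ι F) (s • 1) := by
    intro s k hk u hu
    rw [mem_eigT] at hu ⊢
    rw [Matrix.mulVec_mulVec, hgc k hk, ← Matrix.mulVec_mulVec, hu, Matrix.smul_mulVec, Matrix.smul_mulVec, Matrix.one_mulVec,
      Matrix.one_mulVec, Matrix.mulVec_smul]
  set U := eigT (g : Matrix ι ι F) ((1 : F) • 1) with hU
  set V := eigT (g : Matrix ι ι F) ((-1 : F) • 1) with hV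
  have hUm : ∀ u ∈ U, (g : Matrix ι ι F) *ᵥ u = u := by
    intro u hu
    rw [mem_eigT.mp hu, Matrix.smul_mulVec, Matrix.one_mulVec, one_smul]
  have hVm : ∀ u ∈ V, (g : Matrix ι ι F) *ᵥ u = -u := by
    intro u hu
    rw [mem_eigT.mp hu, Matrix.smul_mulVec, Matrix.one_mulVec, neg_smul, one_smul]
  have hd : U ⊓ V = ⊥ := by
    rw [eq_bot_iff]
    rintro x ⟨h1, h3⟩
    have e := (hUm x h1).symm.trans (hVm x h3)
    have : (2 : F) • x = 0 := by
      rw [two_smul]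
      nth_rewrite 1 [e]
      simp
    rw [Submodule.mem_bot]
    exact (smul_eq_zero.mp this).resolve_left h2
  have hs : U ⊔ V = ⊤ := by
    rw [eq_top_iff]
    intro v _
    obtain ⟨c, hc⟩ : ∃ c : F, c = 2⁻¹ := ⟨_, rfl⟩
    have hcc : c + c = 1 := by
      rw [hc]
      field_simp
      norm_num
    have h1 : c • (v + (g : Matrix ι ι F) *ᵥ v) ∈ U := by
      rw [hU, mem_eigT, Matrix.smul_mulVec, Matrix.one_mulVec, one_smul, Matrix.mulVec_smul, Matrix.mulVec_add, Matrix.mulVec_mulVec, hgg',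
        Matrix.one_mulVec, add_comm]
    have h3 : c • (v - (g : Matrix ι ι F) *ᵥ v) ∈ V := by
      rw [hV, mem_eigT, Matrix.smul_mulVec, Matrix.one_mulVec, Matrix.mulVec_smul, Matrix.mulVec_sub, Matrix.mulVec_mulVec, hgg',
        Matrix.one_mulVec, neg_smul, one_smul, ← smul_neg, neg_sub]
    have e : v = c • (v + (g : Matrix ι ι F) *ᵥ v) + c • (v - (g : Matrix ι ι F) *ᵥ v) := by
      rw [← smul_add]
      have : v + (g : Matrix ι ι F) *ᵥ v + (v - (g : Matrix ι ι F) *ᵥ v) = (2 : F) • v := by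
        rw [two_smul]
        abel
      rw [this, smul_smul]
      have : c * 2 = 1 := by
        rw [← hcc]
        ring
      rw [this, one_smul]
    rw [e]
    exact Submodule.add_mem _ (Submodule.mem_sup_left h1) (Submodule.mem_sup_right h3)
  have hU0 : U ≠ ⊥ := by
    intro h0
    rw [h0, bot_sup_eq] at hs
    apply hns
    rw [mem_scalars_iff]
    refine ⟨-1, ?_⟩
    have : (g : Matrix ι ι F) - (-1 : F) • 1 = 0 := by
      apply eq_zero_of_forall_mulVec
      intro v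
      have hv : v ∈ V := by
        rw [hs]
        trivial
      rw [Matrix.sub_mulVec, mem_eigT.mp hv, sub_self]
    simpa using sub_eq_zero.mp this
  have hV0 : V ≠ ⊥ := by
    intro h0
    rw [h0, sup_bot_eq] at hs
    apply hns
    rw [mem_scalars_iff]
    refine ⟨1, ?_⟩
    have : (g : Matrix ι ι F) - (1 : F) • 1 = 0 := by
      apply eq_zero_of_forall_mulVec
      intro v
      have hv : v ∈ U := by
        rw [hs]
        trivial
      rw [Matrix.sub_mulVec, mem_eigT.mp hv, sub_self]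
    simpa using sub_eq_zero.mp this
  have h1 : r ≤ Module.finrank F U := stable_ne_bot_le hK hst hU0
  have h3 : r ≤ Module.finrank F V := stable_ne_bot_le hK hst hV0
  have hsum := Ty.finrank_sup_disj hd
  rw [hs, finrank_top, Module.finrank_fintype_fun_eq_card, hcard] at hsum
  have hdV : Module.finrank F V = r := by omega
  have hdet := det_of_eigen h2 (g := (g : Matrix ι ι F)) ⟨disjoint_iff.mpr hd, codisjoint_iff.mpr hs⟩ hUm hVm (by rwa [hdV])
  rw [C.det g (hHK hg)] at hdet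
  apply h2
  have : (1 : F) + 1 = 0 := by
    nth_rewrite 1 [hdet]
    ring
  rw [← this]
  norm_num

end Det

end Cfsg.Agent.H97.Asch
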