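import Cfsg.Agent.Lib.H97M5

/-!
Subfields of degree two and their similarities.
-/

set_option autoImplicit false
set_option linter.unusedSectionVars false
set_option linter.unusedSimpArgs false
set_option linter.unusedVariables false
set_option linter.style.haveILetI false

namespace Cfsg.Agent.H97.Asch

open Matrix Cfsg Cfsg.Geo

variable {ι : Type} [Fintype ι] [DecidableEq ι] {F : Type*} [Field F]

theorem class3_of_prime [Fintype F] [Nonempty ι] {H : Subgroup (GL ι F)}
    {A : Subalgebra F (Matrix ι ι F)} (hNA : NormAlg H A) (hA : FieldAlg A) {ℓ : ℕ} (hℓ : ℓ.Prime)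
    (hℓd : ℓ ∣ Module.finrank F A) :
    ∃ (Q : ℕ) (K : Subalgebra F (Matrix ι ι F)), IsFieldSubalgebra ℓ K ∧
      (∀ x, x ∈ K ↔ x ∈ A ∧ x ^ Q = x) ∧ H ≤ subalgebraNormalizer K := by
  classical
  obtain ⟨p, hp⟩ := CharP.exists F
  obtain ⟨e, hpp, hcard⟩ := FiniteField.card F p
  have : Fact p.Prime := ⟨hpp⟩
  set q := Fintype.card F with hq
  have hq1 : 1 < q := Fintype.one_lt_card
  set Q := q ^ ℓ with hQdef
  have hQ1 : 1 < Q := Nat.one_lt_pow hℓ.ne_zero hq1
  have hQp : Q = p ^ ((e : ℕ) * ℓ) := by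
    rw [hQdef, hcard, pow_mul]
  have hcharM : CharP (Matrix ι ι F) p := inferInstance
  have hfix : ∀ c : F, c ^ Q = c := fun c => FiniteField.pow_card_pow ℓ c
  let K₁ : Subalgebra F (Matrix ι ι F) :=
    { carrier := {x | x ∈ A ∧ x ^ Q = x}
      mul_mem' := by
        rintro a b ⟨ha, ha'⟩ ⟨hb, hb'⟩
        refine ⟨A.mul_mem ha hb, ?_⟩
        have hc : Commute a b := hA.1 a ha b hb
        rw [hc.mul_pow, ha', hb']
      add_mem' := by
        rintro a b ⟨ha, ha'⟩ ⟨hb, hb'⟩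
        refine ⟨A.add_mem ha hb, ?_⟩
        have hc : Commute a b := hA.1 a ha b hb
        rw [hQp, add_pow_char_pow_of_commute p _ hc, ← hQp, ha', hb']
      algebraMap_mem' := fun c => by
        refine ⟨A.algebraMap_mem c, ?_⟩
        rw [← map_pow, hfix] }
  have hK₁ : ∀ x, x ∈ K₁ ↔ x ∈ A ∧ x ^ Q = x := fun x => Iff.rfl
  -- the field structure of `A`
  have hAfield : IsField A := by
    refine ⟨⟨⟨0, A.zero_mem⟩, ⟨1, A.one_mem⟩, ?_⟩, fun u v => Subtype.ext (hA.1 u u.2 v v.2), ?_⟩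
    · intro h
      exact zero_ne_one (congrArg Subtype.val h)
    · intro u hu
      obtain ⟨y, hy, hxy⟩ := hA.2 u u.2 (fun h => hu (Subtype.ext h))
      exact ⟨⟨y, hy⟩, Subtype.ext hxy⟩
  letI : Field A := hAfield.toField
  haveI : Finite A := inferInstance
  have hAcard : Nat.card A = q ^ Module.finrank F A := by
    rw [Module.natCard_eq_pow_finrank (K := F), Nat.card_eq_fintype_card]
  obtain ⟨k, hk⟩ := hℓd
  have hdvd : Q - 1 ∣ Nat.card A - 1 := by
    rw [hAcard, hk]
    exact Nat.pow_sub_one_dvd_pow_sub_one q (Dvd.intro k rfl)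
  have hcount := card_fixed_pow (K := A) hQ1 hdvd
  have hequiv : K₁ ≃ {x : A // x ^ Q = x} :=
    { toFun := fun x => ⟨⟨x.1, x.2.1⟩, Subtype.ext (by simpa using x.2.2)⟩
      invFun := fun x => ⟨x.1.1, x.1.2, by simpa using congrArg Subtype.val x.2⟩
      left_inv := fun x => rfl
      right_inv := fun x => rfl }
  have hK₁card : Nat.card K₁ = Q := by
    rw [Nat.card_congr hequiv, hcount]
  have hfr : Module.finrank F K₁ = ℓ := by
    have h1 : Nat.card K₁ = Nat.card F ^ Module.finrank F K₁ := Module.natCard_eq_pow_finrank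
    rw [hK₁card, Nat.card_eq_fintype_card] at h1
    exact (Nat.pow_right_injective hq1 h1).symm
  refine ⟨Q, K₁, ⟨fun x hx y hy => hA.1 x hx.1 y hy.1, ?_, hfr⟩, hK₁, ?_⟩
  · intro x hx hx0
    obtain ⟨y, hy, hxy⟩ := hA.2 x hx.1 hx0
    refine ⟨y, ⟨hy, ?_⟩, hxy⟩
    have hc : Commute x y := hA.1 x hx.1 y hy
    have h1 : x * y ^ Q = 1 := by
      have h2 := hc.mul_pow Q
      rw [hxy, one_pow, hx.2] at h2
      exact h2.symm
    calc y ^ Q = (y * x) * y ^ Q := by
          rw [mul_eq_one_comm.mp hxy, Matrix.one_mul]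
      _ = y * (x * y ^ Q) := by rw [Matrix.mul_assoc]
      _ = y := by rw [h1, Matrix.mul_one]
  · intro h hh k
    constructor
    · rintro ⟨hkA, hkQ⟩
      refine ⟨hNA h hh k hkA, ?_⟩
      rw [Units.conj_pow, hkQ]
    · rintro ⟨hkA, hkQ⟩
      rw [Units.conj_pow] at hkQ
      have h1 := hNA h⁻¹ (H.inv_mem hh) _ hkA
      rw [inv_inv, conj_inv_conj] at h1
      refine ⟨h1, ?_⟩
      have h2 := congrArg (fun x => ((h⁻¹ : GL ι F) : Matrix ι ι F) * x * (h : Matrix ι ι F)) hkQ
      simp only [conj_inv_conj] at h2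
      exact h2



variable [Fintype F] {Q : (ι → F) → F} {K : Subgroup (GL ι F)} {H : Subgroup (GL ι F)}

/-- Reducible groups. -/
theorem ECtx.reducible_case' (C : ECtx Q K) (hHK : H ≤ K) (hirr : ¬ Irr H) :
    (∃ W : Submodule F (ι → F), W ≠ ⊥ ∧ IsTotallySingularQuad Q W ∧ H ≤ subspaceStabilizer W) ∨
    (∃ W : Submodule F (ι → F), W ≠ ⊥ ∧ W ≠ ⊤ ∧ IsNondegenerateOn (QuadraticMap.polar Q) W ∧ H ≤ subspaceStabilizer W) ∨
    (¬ Odd (Fintype.card F) ∧ ∃ v : ι → F, Q v ≠ 0 ∧ H ≤ subspaceStabilizer (Submodule.span F {v})) := by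
  classical
  have hC := C.fctx
  have hfixQ : ∀ g ∈ H, ∀ v, Q ((g : Matrix ι ι F) *ᵥ v) = Q v := fun g hg => C.fix g (hHK hg)
  have hfix : FFix (QuadraticMap.polar Q) H := fun g hg u v => fixes_polar (hfixQ g hg) u v
  unfold Irr at hirr
  push Not at hirr
  obtain ⟨W, hW, h0, h1⟩ := hirr
  rcases hC.reducible hfix hW h0 h1 with ⟨R, hR0, hRs, hRt⟩ | ⟨U, hU0, hU1, hUs, hUd⟩
  · by_cases hq : Odd (Fintype.card F)
    · have h2 := two_ne_of_odd_card hq
      refine Or.inl ⟨R, hR0, fun w hw => ?_, fun g hg => mem_stab_of_stable hRs hg⟩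
      have h3 := hRt w hw w hw
      rw [C.self] at h3
      exact (mul_eq_zero.mp h3).resolve_left h2
    · have h2 := two_eq_zero_of_not_odd hq
      obtain ⟨S, hS⟩ := C.exists_singPart hRt
      have hSs : Stable H S := by
        intro g hg x hx
        obtain ⟨h3, h4⟩ := (hS x).mp hx
        exact (hS _).mpr ⟨hRs g hg x h3, by rw [hfixQ g hg, h4]⟩
      by_cases hS0 : S = ⊥
      · have hno : ∀ x ∈ R, Q x = 0 → x = 0 := by
          intro x hx hQx
          have : x ∈ S := (hS x).mpr ⟨hx, hQx⟩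
          rw [hS0] at this
          simpa using this
        obtain ⟨x, hx, hx0⟩ := Submodule.exists_mem_ne_zero_of_ne_bot hR0
        have hspan := C.line_of_no_sing h2 hRt hno hx hx0
        refine Or.inr <| Or.inr ⟨hq, x, fun h => hx0 (hno x hx h), fun g hg => ?_⟩
        rw [← hspan]
        exact mem_stab_of_stable hRs hg
      · exact Or.inl ⟨S, hS0, fun w hw => ((hS w).mp hw).2, fun g hg => mem_stab_of_stable hSs hg⟩
  · exact Or.inr <| Or.inl ⟨U, hU0, hU1, hC.nondeg_of_disj hUd, fun g hg => mem_stab_of_stable hUs hg⟩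

/-- Degree two subfields. -/
theorem ECtx.field2_case (C : ECtx Q K) (hHK : H ≤ K) (hirr : Irr H) {K₂ : Subalgebra F (Matrix ι ι F)} (hK : IsFieldSubalgebra 2 K₂)
    (hs : FStar C.fctx K₂) (hNH : H ≤ subalgebraNormalizer K₂) (hn : 2 ≤ Fintype.card ι) (h4 : ¬ (2 * 2 ∣ Fintype.card ι)) :
    (Odd (Fintype.card F) ∧ IsSelfAdjointFor (QuadraticMap.polar Q) K₂) ∨
    (¬ IsSelfAdjointFor (QuadraticMap.polar Q) K₂ ∧ ∀ k ∈ K₂, ∃ c : F, ∀ v, Q (k *ᵥ v) = c * Q v) := by
  classical
  have hne : Nonempty ι := Fintype.card_pos_iff.mp (by omega)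
  have hA := C.fctx
  have hfixQ : ∀ h ∈ H, ∀ v, Q ((h : Matrix ι ι F) *ᵥ v) = Q v := fun h hh => C.fix h (hHK hh)
  have hfix : ∀ h ∈ H, ∀ u v, QuadraticMap.polar Q ((h : Matrix ι ι F) *ᵥ u) ((h : Matrix ι ι F) *ᵥ v) = QuadraticMap.polar Q u v :=
    fun h hh u v => fixes_polar (hfixQ h hh) u v
  by_cases hsa : IsSelfAdjointFor (QuadraticMap.polar Q) K₂
  · left
    refine ⟨?_, hsa⟩
    by_contra hq
    have h2 := two_eq_zero_of_not_odd hq
    apply h4
    have halt : ∀ v, QuadraticMap.polar Q v v = 0 := fun v => by rw [C.self, h2, zero_mul]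
    have hneg : (-1 : F) = 1 := by
      have : (1 : F) + 1 = 0 := by
        rw [one_add_one_eq_two, h2]
      exact neg_eq_of_add_eq_zero_left this
    have hC' : FCtx (RingHom.id F) (-1) (QuadraticMap.polar Q) := by
      rw [hneg]
      exact C.fctx
    exact selfadj_dvd hC' halt hK hsa (fun k hk v => alt_field C hK hsa h2 hk v)
  · right
    refine ⟨hsa, ?_⟩
    obtain ⟨x₀, hx₀K, hx₀⟩ : ∃ x₀ ∈ K₂, hA.adj x₀ ≠ x₀ := by
      by_contra hall
      push Not at hall
      exact hsa ((selfAdjoint_iff hA).mpr hall)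
    have hfs := (degree_two_of_nontrivial hA (fun c => rfl) hK Nat.prime_two hs hx₀K hx₀).2
    -- norms are scalars
    have hnorm : ∀ k ∈ K₂, ∃ c : F, k * hA.adj k = c • 1 := by
      intro k hk
      refine hfs _ (K₂.mul_mem hk (hs k hk)) ?_
      rw [hA.adj_mul, hA.adj_adj]
    have hpol : ∀ k ∈ K₂, ∀ c : F, k * hA.adj k = c • 1 → ∀ u w, QuadraticMap.polar Q (k *ᵥ u) (k *ᵥ w) = c * QuadraticMap.polar Q u w := by
      intro k hk c hc u w
      rw [hA.adj_spec', Matrix.mulVec_mulVec, hK.comm _ (hs k hk) _ hk, hc, Matrix.smul_mulVec, Matrix.one_mulVec, C.polar_smul_right]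
    by_cases hq : Odd (Fintype.card F)
    · have h2 := two_ne_of_odd_card hq
      intro k hk
      obtain ⟨c, hc⟩ := hnorm k hk
      refine ⟨c, fun v => ?_⟩
      have e := hpol k hk c hc v v
      rw [C.self, C.self] at e
      have e2 : (2 : F) * (Q (k *ᵥ v) - c * Q v) = 0 := by linear_combination e
      exact sub_eq_zero.mp ((mul_eq_zero.mp e2).resolve_left h2)
    · have h2 := two_eq_zero_of_not_odd hq
      -- an element of trace one
      obtain ⟨T₀, hT₀⟩ := hfs (x₀ + hA.adj x₀) (K₂.add_mem hx₀K (hs _ hx₀K)) (by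
        rw [hA.adj_add, hA.adj_adj, add_comm])
      have h11 : ∀ x : Matrix ι ι F, x + x = 0 := by
        intro x
        rw [← two_smul F x, h2, zero_smul]
      have hT0 : T₀ ≠ 0 := by
        rintro rfl
        rw [zero_smul] at hT₀
        apply hx₀
        have e1 : hA.adj x₀ = - x₀ := eq_neg_of_add_eq_zero_right hT₀
        rw [e1]
        exact neg_eq_of_add_eq_zero_left (h11 x₀)
      obtain ⟨x₁, hx₁⟩ : ∃ x₁, x₁ = T₀⁻¹ • x₀ := ⟨_, rfl⟩
      have hx₁K : x₁ ∈ K₂ := by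
        rw [hx₁]
        exact K₂.smul_mem hx₀K _
      have htr : x₁ + hA.adj x₁ = 1 := by
        rw [hx₁, hA.adj_smul, RingHom.id_apply, ← smul_add, hT₀, smul_smul, inv_mul_cancel₀ hT0, one_smul]
      -- the defect
      have hadd : ∀ u v, Q (u + v) - QuadraticMap.polar Q (u + v) (x₁ *ᵥ (u + v)) =
          (Q u - QuadraticMap.polar Q u (x₁ *ᵥ u)) + (Q v - QuadraticMap.polar Q v (x₁ *ᵥ v)) := by
        intro u v
        have e1 : QuadraticMap.polar Q u v = Q (u + v) - Q u - Q v := rfl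
        have e2 : QuadraticMap.polar Q v (x₁ *ᵥ u) = QuadraticMap.polar Q u (hA.adj x₁ *ᵥ v) := by
          rw [QuadraticMap.polar_comm, hA.adj_spec']
        have e3 : QuadraticMap.polar Q u (x₁ *ᵥ v) + QuadraticMap.polar Q u (hA.adj x₁ *ᵥ v) = QuadraticMap.polar Q u v := by
          rw [← C.polar_add_right, ← Matrix.add_mulVec, htr, Matrix.one_mulVec]
        rw [Matrix.mulVec_add, C.polar_add_left, C.polar_add_right, C.polar_add_right, e2]
        linear_combination -e1 - e3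
      have hsm : ∀ (c : F) v, Q (c • v) - QuadraticMap.polar Q (c • v) (x₁ *ᵥ (c • v)) =
          c ^ 2 * (Q v - QuadraticMap.polar Q v (x₁ *ᵥ v)) := by
        intro c v
        rw [Matrix.mulVec_smul, C.polar_smul_left, C.polar_smul_right, C.Q_smul]
        ring
      have hinv : ∀ x ∈ H, ∀ v, Q ((x : Matrix ι ι F) *ᵥ v) - QuadraticMap.polar Q ((x : Matrix ι ι F) *ᵥ v) (x₁ *ᵥ ((x : Matrix ι ι F) *ᵥ v)) =
          Q v - QuadraticMap.polar Q v (x₁ *ᵥ v) := by
        intro x hx v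
        have hih : (x : Matrix ι ι F) * ((x⁻¹ : GL ι F) : Matrix ι ι F) = 1 := by
          rw [← Units.val_mul, mul_inv_cancel, Units.val_one]
        -- the conjugate of `x₁`
        set y := ((x⁻¹ : GL ι F) : Matrix ι ι F) * x₁ * (x : Matrix ι ι F) with hy
        have hyK : y ∈ K₂ := conj_mem_of_norm' hNH hx hx₁K
        have hadjx : hA.adj (x : Matrix ι ι F) = ((x⁻¹ : GL ι F) : Matrix ι ι F) := hA.adj_gl (hfix x hx)
        have hadjx' : hA.adj ((x⁻¹ : GL ι F) : Matrix ι ι F) = (x : Matrix ι ι F) := hA.adj_gl_inv (hfix x hx)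
        have hty : y + hA.adj y = 1 := by
          rw [hy, hA.adj_mul, hA.adj_mul, hadjx, hadjx', ← mul_assoc]
          rw [← add_mul, ← mul_add, htr, mul_one]
          rw [← Units.val_mul, inv_mul_cancel, Units.val_one]
        obtain ⟨c, hc⟩ := hfs (y + x₁) (K₂.add_mem hyK hx₁K) (by
          have e1 : hA.adj x₁ = 1 + x₁ := by
            rw [← htr]
            rw [add_comm x₁, add_assoc, h11, add_zero]
          have e2 : hA.adj y = 1 + y := by
            rw [← hty]
            rw [add_comm y, add_assoc, h11, add_zero]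
          rw [hA.adj_add, e1, e2]
          have e3 : (1 : Matrix ι ι F) + y + (1 + x₁) = ((1 : Matrix ι ι F) + 1) + (y + x₁) := by abel
          rw [e3, h11, zero_add])
        have hyv : y = c • 1 + x₁ := by
          rw [← hc, add_assoc, h11, add_zero]
        have e1 : x₁ *ᵥ ((x : Matrix ι ι F) *ᵥ v) = (x : Matrix ι ι F) *ᵥ (y *ᵥ v) := by
          rw [hy, Matrix.mulVec_mulVec, Matrix.mulVec_mulVec]
          congr 1
          simp only [← mul_assoc]
          rw [hih, one_mul]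
        rw [hfixQ x hx, e1, hfix x hx, hyv, Matrix.add_mulVec, Matrix.smul_mulVec, Matrix.one_mulVec, C.polar_add_right, C.polar_smul_right,
          C.self, h2]
        ring
      have hD := defect_zero (D := fun v => Q v - QuadraticMap.polar Q v (x₁ *ᵥ v)) hn hirr hadd hsm hinv
      have hquad : ∀ v, Q v = QuadraticMap.polar Q v (x₁ *ᵥ v) := fun v => sub_eq_zero.mp (hD v)
      intro k hk
      obtain ⟨c, hc⟩ := hnorm k hk
      refine ⟨c, fun v => ?_⟩
      rw [hquad (k *ᵥ v), Matrix.mulVec_mulVec, hK.comm x₁ hx₁K k hk, ← Matrix.mulVec_mulVec, hpol k hk c hc, ← hquad]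

end Cfsg.Agent.H97.Asch
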