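import Cfsg.Agent.Lib.H97M6
import Cfsg.Agent.Lib.H97M1

/-!
The reduction theorem in dimension ten.
-/

set_option autoImplicit false
set_option linter.unusedSectionVars false
set_option linter.unusedSimpArgs false
set_option linter.unusedVariables false
set_option linter.style.haveILetI false

namespace Cfsg.Agent.H97.Asch

open Matrix Cfsg Cfsg.Geo

variable {ι : Type} [Fintype ι] [DecidableEq ι] {F : Type*} [Field F] [Fintype F] {Q : (ι → F) → F} {K : Subgroup (GL ι F)} {H : Subgroup (GL ι F)}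

/-- Hermitian structures: types of stable non-degenerate spaces. -/
theorem ECtx.herm_type {Q' : QuadraticForm F (ι → F)} (C : ECtx ⇑Q' K) {K₂ : Subalgebra F (Matrix ι ι F)} (hK : IsFieldSubalgebra 2 K₂)
    (hs : FStar C.fctx K₂) (hsim : ∀ k ∈ K₂, ∃ c : F, ∀ v, Q' (k *ᵥ v) = c * Q' v) :
    ∀ (m : ℕ) (W : Submodule F (ι → F)), (∀ k ∈ K₂, ∀ w ∈ W, k *ᵥ w ∈ W) → IsNondegenerateOn (QuadraticMap.polar ⇑Q') W →
      Module.finrank F W = 2 * m → (Even m → Ty.Plus Q' W) ∧ (Odd m → Ty.Minus Q' W) := by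
  classical
  have hA := C.fctx
  intro m
  induction m with
  | zero =>
    intro W _ _ hd
    have hW : W = ⊥ := Submodule.finrank_eq_zero.mp (by simpa using hd)
    rw [hW]
    exact ⟨fun _ => Ty.Plus.bot, fun h => absurd h (by decide)⟩
  | succ m ih =>
    intro W hWs hnd hd
    have hW0 : W ≠ ⊥ := by
      rintro rfl
      simp at hd
    -- a non-singular vector
    obtain ⟨v, hvW, hv⟩ : ∃ v ∈ W, Q' v ≠ 0 := by
      by_contra hall
      push Not at hall
      obtain ⟨w, hw, hw0⟩ := Submodule.exists_mem_ne_zero_of_ne_bot hW0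
      obtain ⟨x, hx, hxw⟩ := (hnd w hw hw0).2
      apply hxw
      simp only [QuadraticMap.polar]
      rw [hall _ (W.add_mem hw hx), hall _ hw, hall _ hx]
      ring
    have hv0 : v ≠ 0 := by
      rintro rfl
      exact hv (map_zero Q')
    set P := lineOf K₂ v with hP
    have hPd : Module.finrank F P = 2 := finrank_lineOf hK hv0
    have hPW : P ≤ W := lineOf_le hWs hvW
    have hani : ∀ a ∈ P, Q' a = 0 → a = 0 := by
      intro a ha h0
      obtain ⟨k, hk, rfl⟩ := mem_lineOf.mp ha
      by_cases hk0 : k = 0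
      · rw [hk0, Matrix.zero_mulVec]
      · exfalso
        obtain ⟨m', hm', h1, -⟩ := fs_inv hK hk hk0
        obtain ⟨c, hc⟩ := hsim m' hm'
        have e := hc (k *ᵥ v)
        rw [Matrix.mulVec_mulVec, h1, Matrix.one_mulVec, h0, mul_zero] at e
        exact hv e
    have hPminus : Ty.Minus Q' P := by
      refine ⟨P, ⊥, le_rfl, bot_le, hPd, hani, ?_, ?_, ?_⟩
      · intro u hu
        rw [Submodule.mem_bot] at hu
        rw [hu, map_zero]
      · simp [hPd]
      · intro u hu a _
        rw [Submodule.mem_bot] at hu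
        rw [hu]
        exact QuadraticMap.polar_zero_left _ _
    have hPnd := Ty.ani_nd hPd hani
    have hdisj : P ⊓ hA.perp P = ⊥ := by
      rw [eq_bot_iff]
      rintro x ⟨h1, h3⟩
      rw [Submodule.mem_bot]
      exact hPnd x h1 fun u hu => (hA.mem_perp.mp h3) u hu
    obtain ⟨-, hsup⟩ := hA.perp_dims hdisj
    set W' := W ⊓ hA.perp P with hW'
    have hWeq : P ⊔ W' = W := by
      have := sup_inf_assoc_of_le (hA.perp P) hPW
      rw [hsup, top_inf_eq, inf_comm] at this
      exact this.symm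
    have hdisj' : P ⊓ W' = ⊥ := by
      rw [eq_bot_iff, ← hdisj]
      exact inf_le_inf_left _ inf_le_right
    have hdW' : Module.finrank F W' = 2 * m := by
      have h1 := Ty.finrank_sup_disj hdisj'
      rw [hWeq, hd, hPd] at h1
      omega
    have hW's : ∀ k ∈ K₂, ∀ w ∈ W', k *ᵥ w ∈ W' := by
      intro k hk w hw
      refine ⟨hWs k hk w hw.1, ?_⟩
      intro x hx
      show QuadraticMap.polar (⇑Q') (k *ᵥ w) x = 0
      rw [hA.adj_spec']
      exact (hA.mem_perp.mp hw.2) _ (stable_lineOf v (hs k hk) hx)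
    have hW'nd : IsNondegenerateOn (QuadraticMap.polar ⇑Q') W' := by
      intro w hw hw0
      obtain ⟨y, hy, hwy⟩ := (hnd w hw.1 hw0).2
      rw [← hWeq] at hy
      obtain ⟨p, hp, w', hw', rfl⟩ := Submodule.mem_sup.mp hy
      have e0 : QuadraticMap.polar (⇑Q') w p = 0 := (hA.mem_perp.mp hw.2) p hp
      have e1 : QuadraticMap.polar (⇑Q') w w' ≠ 0 := by
        rw [C.polar_add_right, e0, zero_add] at hwy
        exact hwy
      exact ⟨⟨w', hw', by rwa [QuadraticMap.polar_comm]⟩, ⟨w', hw', e1⟩⟩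
    obtain ⟨h1, h3⟩ := ih W' hW's hW'nd hdW'
    have horth : ∀ w ∈ W', ∀ p ∈ P, QuadraticMap.polar Q' w p = 0 := fun w hw p hp => (hA.mem_perp.mp hw.2) p hp
    have hdisj'' : W' ⊓ P = ⊥ := by rwa [inf_comm]
    have hWeq' : W' ⊔ P = W := by rwa [sup_comm]
    constructor
    · intro he
      have hodd : Odd m := by
        rcases Nat.even_or_odd m with h | h
        · exact absurd he (by
            rw [Nat.even_add_one]
            exact not_not.mpr h)
        · exact h
      have := (h3 hodd).sup hPminus hdisj'' horth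
      rwa [hWeq'] at this
    · intro ho
      have hev : Even m := by
        rcases Nat.even_or_odd m with h | h
        · exact h
        · exact absurd ho (by
            rw [Nat.odd_add_one]
            exact not_not.mpr h)
      have := (h1 hev).sup_minus hPminus hdisj'' horth
      rwa [hWeq'] at this

/-- A degree two field acting by similarities gives a hermitian space of odd dimension. -/
theorem ECtx.herm_minus {Q' : QuadraticForm F (ι → F)} (C : ECtx ⇑Q' K) (hcard : Fintype.card ι = 10) {K₂ : Subalgebra F (Matrix ι ι F)}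
    (hK : IsFieldSubalgebra 2 K₂) (hs : FStar C.fctx K₂) (hsim : ∀ k ∈ K₂, ∃ c : F, ∀ v, Q' (k *ᵥ v) = c * Q' v) :
    ¬ IsPlusTypeOn ⇑Q' ⊤ := by
  intro hplus
  have hm := (C.herm_type hK hs hsim 5 ⊤ (fun _ _ _ _ => Submodule.mem_top)
    (fun w _ hw => by
      obtain ⟨x, hx⟩ := C.nd hw
      exact ⟨⟨x, Submodule.mem_top, by rwa [QuadraticMap.polar_comm]⟩, ⟨x, Submodule.mem_top, hx⟩⟩)
    (by rw [finrank_top, Module.finrank_fintype_fun_eq_card, hcard])).2 (by decide)
  have hND : Cfsg.Agent.Lib.QuadFF.ND (Cfsg.Agent.Lib.QuadFF.restr Q' ⊤) := by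
    apply Ty.nd_restr
    intro w _ hw0
    obtain ⟨y, hy⟩ := C.nd hw0
    exact ⟨y, Submodule.mem_top, hy⟩
  exact hm.not_plus hND hplus

/-- The conclusion of the reduction theorem in dimension ten. -/
def Outcome10 (Q : (ι → F) → F) (H : Subgroup (GL ι F)) : Prop :=
  (∃ W : Submodule F (ι → F), W ≠ ⊥ ∧ IsTotallySingularQuad Q W ∧ H ≤ subspaceStabilizer W) ∨
  (∃ W : Submodule F (ι → F), W ≠ ⊥ ∧ W ≠ ⊤ ∧ IsNondegenerateOn (QuadraticMap.polar Q) W ∧ H ≤ subspaceStabilizer W) ∨
  (¬ Odd (Fintype.card F) ∧ ∃ v : ι → F, Q v ≠ 0 ∧ H ≤ subspaceStabilizer (Submodule.span F {v})) ∨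
  (∃ (t k : ℕ) (D : Fin t → Submodule F (ι → F)), IsOrthogonalMDecomposition Q k D ∧ H ≤ decompositionStabilizer D) ∨
  (∃ (k : ℕ) (D : Fin 2 → Submodule F (ι → F)), IsMDecomposition k D ∧ (∀ i, IsTotallySingularQuad Q (D i)) ∧
      H ≤ decompositionStabilizer D) ∨
  (Odd (Fintype.card F) ∧ ∃ K₂ : Subalgebra F (Matrix ι ι F), IsFieldSubalgebra 2 K₂ ∧ IsSelfAdjointFor (QuadraticMap.polar Q) K₂ ∧
      H ≤ subalgebraNormalizer K₂) ∨
  (∃ K₂ : Subalgebra F (Matrix ι ι F), IsFieldSubalgebra 2 K₂ ∧ IsAdjointClosedFor (QuadraticMap.polar Q) K₂ ∧ ¬ IsSelfAdjointFor (QuadraticMap.polar Q) K₂ ∧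
      (∀ k ∈ K₂, ∃ c : F, ∀ v, Q (k *ᵥ v) = c * Q v) ∧ H ≤ subalgebraNormalizer K₂) ∨
  (∃ (F₀ : Subfield F) (r : ℕ) (P : GL ι F) (ζ : F), r.Prime ∧ Fintype.card F = Nat.card F₀ ^ r ∧ ζ ≠ 0 ∧
      IsQuadFormRationalStructure (fun v => ζ * Q v) F₀ P ∧ H ≤ subfieldSubgroup F₀ P) ∨
  InOrthogonalResidualClass H

theorem ECtx.fstar_of_closed (C : ECtx Q K) {K₂ : Subalgebra F (Matrix ι ι F)} (h : IsAdjointClosedFor (QuadraticMap.polar Q) K₂) :
    FStar C.fctx K₂ := by
  intro k hk
  obtain ⟨k', hk', he⟩ := h k hk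
  have := C.fctx.eq_adj_of' he
  rwa [← this]

theorem ECtx.main10 (C : ECtx Q K) (hcard : Fintype.card ι = 10) (hHK : H ≤ K) : Outcome10 Q H := by
  classical
  have hne : Nonempty ι := Fintype.card_pos_iff.mp (by omega)
  have hA := C.fctx
  have hred : ¬ Irr H → Outcome10 Q H := by
    intro hirr
    rcases C.reducible_case' hHK hirr with h | h | h
    · exact Or.inl h
    · exact Or.inr (Or.inl h)
    · exact Or.inr (Or.inr (Or.inl h))
  have h24 : ¬ (2 * 2 ∣ Fintype.card ι) := by
    rw [hcard]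
    decide
  have h2case : ∀ {K₂ : Subalgebra F (Matrix ι ι F)}, IsFieldSubalgebra 2 K₂ → FStar C.fctx K₂ → H ≤ subalgebraNormalizer K₂ → Irr H → Outcome10 Q H := by
    intro K₂ hK hs hNH hirr
    rcases C.field2_case hHK hirr hK hs hNH (by omega) h24 with ⟨hq, hsa⟩ | ⟨hsa, hsim⟩
    · exact Or.inr <| Or.inr <| Or.inr <| Or.inr <| Or.inr <| Or.inl ⟨hq, K₂, hK, hsa, hNH⟩
    · exact Or.inr <| Or.inr <| Or.inr <| Or.inr <| Or.inr <| Or.inr <| Or.inl ⟨K₂, hK, adjointClosed_of_star hA hs, hsa, hsim, hNH⟩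
  rcases C.main (Or.inr (Or.inl hcard)) hHK with h | h | h | h | h |
    ⟨ℓ, K', hℓ, hK', hadj, hNH, halt⟩ | ⟨d, m, e, P, f₁, f₂, hd, hdm, hf₁, hf₂, hT, hpure, hle⟩ | ⟨d, m, e, P, f₁, f₂, hqo, hd, hdm, hf₁, hf₂, hT, hle⟩ |
    h | ⟨h8, -⟩ | h
  · exact Or.inl h
  · exact Or.inr (Or.inl h)
  · exact Or.inr (Or.inr (Or.inl h))
  · exact Or.inr (Or.inr (Or.inr (Or.inl h)))
  · exact Or.inr (Or.inr (Or.inr (Or.inr (Or.inl h))))
  · by_cases hirr : Irr H
    · have hdv : ℓ ∣ 10 := by
        rw [← hcard]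
        exact dvd_of_fieldSubalgebra hK'
      have hcases : ℓ = 2 ∨ ℓ = 5 := by
        have hle := Nat.le_of_dvd (by norm_num) hdv
        have hl2 := hℓ.two_le
        interval_cases ℓ
        · exact Or.inl rfl
        · exact absurd hdv (by norm_num)
        · exact absurd hdv (by norm_num)
        · exact Or.inr rfl
        · exact absurd hdv (by norm_num)
        · exact absurd hdv (by norm_num)
        · exact absurd hdv (by norm_num)
        · exact absurd hdv (by norm_num)
        · exact absurd hℓ (by norm_num)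
      have hs := C.fstar_of_closed hadj
      rcases hcases with rfl | rfl
      · exact h2case hK' hs hNH hirr
      · obtain ⟨g, hg, hgs, hgc⟩ : ∃ g ∈ H, g ∉ scalars ι F ∧ ∀ k ∈ K', (g : Matrix ι ι F) * k = k * g := by
          rcases halt with h | h
          · exact absurd h (by norm_num)
          · exact h
        have hsa : IsSelfAdjointFor (QuadraticMap.polar Q) K' := by
          rw [selfAdjoint_iff hA]
          intro k hk
          by_contra hne
          have := (degree_two_of_nontrivial hA (fun c => rfl) hK' hℓ hs hk hne).1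
          omega
        have hc5 : Fintype.card ι = 2 * 5 := by omega
        have hT : ∃ t N, TData C K' H t N := by
          by_cases h2 : (2 : F) = 0
          · by_cases hA' : ∀ h ∈ H, (∀ k ∈ K', (h : Matrix ι ι F) * k = k * h) → h * h = 1
            · exfalso
              refine not_irr_of_invol h2 hNH hg hgc ?_ hA' hirr
              rintro rfl
              exact hgs (Subgroup.one_mem _)
            · push Not at hA'
              obtain ⟨g', hg', hgc', hgg'⟩ := hA'
              exact tdata_even C hHK hK' hsa hNH h2 hc5 (by norm_num) hg' hgc' hgg'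
          · exact tdata_odd C hHK hK' hsa hNH h2 hc5 (by norm_num) hg hgc
              (sq_ne_one_odd C hHK hK' h2 hc5 (by decide) hg hgc hgs)
        obtain ⟨t, N, T⟩ := hT
        by_cases hroot : ∃ s ∈ K', s * s = s - N
        · obtain ⟨s, hs', hroot'⟩ := hroot
          obtain ⟨D, hD, hts, hle⟩ := T.split_case hK' hsa hNH (by norm_num) hc5 hs' hroot'
          exact Or.inr <| Or.inr <| Or.inr <| Or.inr <| Or.inl ⟨5, D, hD, hts, hle⟩
        · push Not at hroot
          obtain ⟨L, hLf, hLd, hLs, hLn⟩ := T.field_case hK' hsa hNH hroot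
          obtain ⟨Q₀, K₂, hK₂, hmem, hNH₂⟩ := class3_of_prime hLn hLf Nat.prime_two (by
            rw [hLd]
            exact Dvd.intro 5 rfl)
          exact h2case hK₂ (FStar.of_pow hA hLs hmem) hNH₂ hirr
    · exact hred hirr
  · exfalso
    have hp : d * m = 10 := by
      have := Fintype.card_congr e
      simp only [Fintype.card_prod, Fintype.card_fin, hcard] at this
      exact this.symm
    have hd3 : d ≤ 3 := by nlinarith
    interval_cases d
    · have hm : m = 5 := by omega
      subst hm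
      exact symplectic_odd hf₂ (n := 5) (by simp) (by decide)
    · omega
  · exfalso
    have hp : d * m = 10 := by
      have := Fintype.card_congr e
      simp only [Fintype.card_prod, Fintype.card_fin, hcard] at this
      exact this.symm
    nlinarith
  · exact Or.inr <| Or.inr <| Or.inr <| Or.inr <| Or.inr <| Or.inr <| Or.inr <| Or.inl h
  · omega
  · exact Or.inr <| Or.inr <| Or.inr <| Or.inr <| Or.inr <| Or.inr <| Or.inr <| Or.inr h

end Cfsg.Agent.H97.Asch
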