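import Mathlib
import Cfsg.Prelude.Def_GeometricClasses
import Cfsg.Agent.Lib.H97OF1

/-!
# Decompositions of plus type over small fields of characteristic two: not maximal in `Ω`
-/

set_option autoImplicit false
set_option linter.unusedSectionVars false
set_option linter.unusedVariables false
set_option linter.unusedSimpArgs false

namespace Cfsg.Agent.H97.OF2

open Matrix QuadraticMap Cfsg Cfsg.Geo Module Cfsg.Agent.Lib.OrthoBasic Cfsg.Agent.Lib.OmCalc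
  Cfsg.Agent.Lib.QuadFF Cfsg.Agent.Lib.OmGeo Cfsg.Agent.Lib.TvGL
open Cfsg.Agent.Lib.SympT (GL_ext mulVec_mul_GL mulVec_inv_GL inv_mulVec_GL)

local notation:70 g:71 " ⋆ " x:70 => Matrix.mulVec (Units.val g) x

variable {ι : Type} [Fintype ι] [DecidableEq ι] {F : Type*} [Field F] [Fintype F]
  {Q : QuadraticForm F (ι → F)} {t : ℕ} {D : Fin t → Submodule F (ι → F)}

/-- A group element mapping a set into itself stabilises it (everything is finite). -/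
theorem stab_of_maps {X : Set (ι → F)} {g : GL ι F} (h : ∀ v ∈ X, g ⋆ v ∈ X) :
    g ∈ stabilizing (glToMat ι F) X := by
  classical
  have hk : ∀ k : ℕ, ∀ v ∈ X, (g ^ k) ⋆ v ∈ X := by
    intro k
    induction k with
    | zero =>
      intro v hv
      simpa using hv
    | succ k ih =>
      intro v hv
      rw [pow_succ', mulVec_mul_GL]
      exact h _ (ih v hv)
  intro v
  refine ⟨h v, fun hv => ?_⟩
  have hn : 0 < orderOf g := orderOf_pos g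
  have h1 := hk (orderOf g - 1) _ hv
  change (g ^ (orderOf g - 1)) ⋆ (g ⋆ v) ∈ X at h1
  rw [← mulVec_mul_GL, ← pow_succ, Nat.sub_add_cancel hn, pow_orderOf_eq_one] at h1
  simpa using h1

theorem two_blocks (hort : ∀ i j, i ≠ j → ∀ x ∈ D i, ∀ y ∈ D j, polar Q x y = 0) {i j j' : Fin t} (hjj : j ≠ j')
    {x p p' : ι → F} (hx : x ∈ D i) (hp : p ∈ D j) (hp' : p' ∈ D j') (h1 : polar Q x p ≠ 0)
    (h2 : polar Q x p' ≠ 0) : False := by
  by_cases h : i = j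
  · subst h
    exact h2 (hort _ _ hjj _ hx _ hp')
  · exact h1 (hort _ _ h _ hx _ hp)

/-- The vectors of value `1` in the blocks. -/
def X₀ (Q : QuadraticForm F (ι → F)) (D : Fin t → Submodule F (ι → F)) : Set (ι → F) :=
  {x | ∃ i, x ∈ D i ∧ Q x = 1}

theorem le_stab : decompositionStabilizer D ⊓ omegaGL ⇑Q ≤ stabilizing (glToMat ι F) (X₀ Q D) := by
  rintro g ⟨⟨π, hπ⟩, hg⟩
  refine stab_of_maps ?_
  rintro v ⟨i, hvi, hvn⟩
  refine ⟨π i, ?_, by rwa [iso_omega hg]⟩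
  rw [← hπ i]
  exact ⟨v, hvi, rfl⟩

/-- From the data: the subgroup. -/
theorem between {X : Set (ι → F)} (hle : decompositionStabilizer D ⊓ omegaGL ⇑Q ≤ stabilizing (glToMat ι F) X)
    {g₁ g₂ : GL ι F} (h1s : g₁ ∈ stabilizing (glToMat ι F) X) (h1o : g₁ ∈ omegaGL ⇑Q)
    (h1d : g₁ ∉ decompositionStabilizer D) (h2o : g₂ ∈ omegaGL ⇑Q) (h2s : g₂ ∉ stabilizing (glToMat ι F) X) :
    ∃ K : Subgroup (GL ι F), decompositionStabilizer D ⊓ omegaGL ⇑Q < K ∧ K < omegaGL ⇑Q := by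
  refine ⟨stabilizing (glToMat ι F) X ⊓ omegaGL ⇑Q, ?_, ?_⟩
  · rw [SetLike.lt_iff_le_and_exists]
    refine ⟨le_inf hle inf_le_right, g₁, ⟨h1s, h1o⟩, fun h => h1d h.1⟩
  · rw [SetLike.lt_iff_le_and_exists]
    exact ⟨inf_le_right, g₂, h2o, fun h => h2s h.1⟩

/-- A Siegel transformation moving a vector of the set out of the blocks. -/
theorem exists_out (hQ : Nondeg Q) (h11 : 10 ≤ Fintype.card ι) (h2 : (2 : F) = 0)
    (hort : ∀ i j, i ≠ j → ∀ x ∈ D i, ∀ y ∈ D j, polar Q x y = 0) {X : Set (ι → F)}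
    (hX : ∀ x ∈ X, ∃ i, x ∈ D i) {i₀ i₁ : Fin t} (hi : i₀ ≠ i₁) {a₀ b₀ a₁ b₁ : ι → F} (ha₀ : a₀ ∈ D i₀)
    (hb₀ : b₀ ∈ D i₀) (ha₁ : a₁ ∈ D i₁) (hb₁ : b₁ ∈ D i₁) (haX : a₀ ∈ X) (hQa₁ : Q a₁ = 1)
    (h0 : polar Q a₀ b₀ = 1) (h1 : polar Q a₁ b₁ = 1) :
    ∃ g ∈ omegaGL ⇑Q, g ∉ stabilizing (glToMat ι F) X := by
  classical
  have hND := nd_of hQ
  have hfr : finrank F (ι → F) = Fintype.card ι := Module.finrank_fintype_fun_eq_card F
  obtain ⟨e₁, he₁C, hQe₁⟩ := prescribed hND ({a₀, a₁, b₁} : Finset (ι → F)) b₀ 0 (by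
    have := Finset.card_le_three (a := a₀) (b := a₁) (c := b₁)
    omega)
  have h3 : polar Q a₀ e₁ = 1 := by
    rw [he₁C a₀ (by simp), h0]
  have h4 : polar Q a₁ e₁ = 0 := by
    rw [he₁C a₁ (by simp), hort _ _ hi.symm _ ha₁ _ hb₀]
  have h5 : polar Q b₁ e₁ = 0 := by
    rw [he₁C b₁ (by simp), hort _ _ hi.symm _ hb₁ _ hb₀]
  have he₁a₁ : polar Q e₁ a₁ = 0 := by
    rw [polar_comm]
    exact h4
  refine ⟨sE hQ hQe₁ he₁a₁, Cfsg.Agent.H97.Asch.sE_mem7 hQ (by omega) hQe₁ he₁a₁, fun hg => ?_⟩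
  have h6 := (hg a₀).1 haX
  change sE hQ hQe₁ he₁a₁ ⋆ a₀ ∈ X at h6
  rw [sE_apply', h3, hort _ _ hi _ ha₀ _ ha₁, hQa₁] at h6
  obtain ⟨i, hz⟩ := hX _ h6
  refine two_blocks hort hi.symm hz hb₁ ha₀ ?_ ?_
  · rw [polar_sub_left, polar_add_left, polar_sm_l, polar_sm_l, hort _ _ hi _ ha₀ _ hb₁, h1,
      polar_comm Q e₁ b₁, h5]
    simp
  · rw [polar_sub_left, polar_add_left, polar_sm_l, polar_sm_l, polar_self_eq, polar_comm Q a₁ a₀,
      hort _ _ hi _ ha₀ _ ha₁, polar_comm Q e₁ a₀, h3, h2]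
    simp

/-- The transformation `sE (a₀ + a₁) y` with `y` in a third block does not permute the blocks. -/
theorem g₁_not_decomp (hQ : Nondeg Q) (h2 : (2 : F) = 0)
    (hort : ∀ i j, i ≠ j → ∀ x ∈ D i, ∀ y ∈ D j, polar Q x y = 0) {i₀ i₁ i₂ : Fin t} (h01 : i₀ ≠ i₁)
    (h02 : i₀ ≠ i₂) (h12 : i₁ ≠ i₂) {a₀ b₀ a₁ b₁ a₂ b₂ : ι → F} (ha₀ : a₀ ∈ D i₀)
    (hb₀ : b₀ ∈ D i₀) (ha₁ : a₁ ∈ D i₁) (hb₁ : b₁ ∈ D i₁) (ha₂ : a₂ ∈ D i₂) (hb₂ : b₂ ∈ D i₂) (hQa₂ : Q a₂ = 1)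
    (h0 : polar Q a₀ b₀ = 1) (h1 : polar Q a₁ b₁ = 1) (h22 : polar Q a₂ b₂ = 1)
    (he : Q (a₀ + a₁) = 0) (hy : polar Q (a₀ + a₁) a₂ = 0) :
    sE hQ he hy ∉ decompositionStabilizer D := by
  rintro ⟨π, hπ⟩
  have hz : sE hQ he hy ⋆ b₀ ∈ D (π i₀) := by
    rw [← hπ i₀]
    exact ⟨b₀, hb₀, rfl⟩
  rw [sE_apply', hQa₂, polar_add_right, polar_comm Q b₀ a₀, h0, hort _ _ h01.symm.symm _ hb₀ _ ha₁,
    hort _ _ h02 _ hb₀ _ ha₂] at hz
  refine two_blocks hort h12 hz hb₁ hb₂ ?_ ?_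
  · rw [polar_sub_left, polar_add_left, polar_sm_l, polar_sm_l, polar_add_left, hort _ _ h01 _ hb₀ _ hb₁,
      hort _ _ h12.symm _ ha₂ _ hb₁, hort _ _ h01 _ ha₀ _ hb₁, h1]
    simp
  · rw [polar_sub_left, polar_add_left, polar_sm_l, polar_sm_l, polar_add_left, hort _ _ h02 _ hb₀ _ hb₂,
      h22, hort _ _ h02 _ ha₀ _ hb₂, hort _ _ h12 _ ha₁ _ hb₂]
    simp

/-- The case of a unique vector of value one in each block. -/
theorem not_max_a (hQ : Nondeg Q) (h11 : 10 ≤ Fintype.card ι) (h2 : (2 : F) = 0)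
    (hort : ∀ i j, i ≠ j → ∀ x ∈ D i, ∀ y ∈ D j, polar Q x y = 0) {i₀ i₁ i₂ : Fin t} (h01 : i₀ ≠ i₁)
    (h02 : i₀ ≠ i₂) (h12 : i₁ ≠ i₂) {a₀ b₀ a₁ b₁ a₂ b₂ : ι → F} (ha₀ : a₀ ∈ D i₀)
    (hb₀ : b₀ ∈ D i₀) (ha₁ : a₁ ∈ D i₁) (hb₁ : b₁ ∈ D i₁) (ha₂ : a₂ ∈ D i₂) (hb₂ : b₂ ∈ D i₂)
    (hQa₀ : Q a₀ = 1) (hQa₁ : Q a₁ = 1) (hQa₂ : Q a₂ = 1)
    (h0 : polar Q a₀ b₀ = 1) (h1 : polar Q a₁ b₁ = 1) (h22 : polar Q a₂ b₂ = 1)
    (hF : ∀ i, ∀ x ∈ D i, Q x = 1 → polar Q x a₀ = 0 ∧ polar Q x a₁ = 0 ∧ polar Q x a₂ = 0) :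
    ∃ K : Subgroup (GL ι F), decompositionStabilizer D ⊓ omegaGL ⇑Q < K ∧ K < omegaGL ⇑Q := by
  have he : Q (a₀ + a₁) = 0 := by
    rw [Q_ad, hQa₀, hQa₁, hort _ _ h01 _ ha₀ _ ha₁]
    linear_combination h2
  have hy : polar Q (a₀ + a₁) a₂ = 0 := by
    rw [polar_add_left, hort _ _ h02 _ ha₀ _ ha₂, hort _ _ h12 _ ha₁ _ ha₂, add_zero]
  obtain ⟨g₂, hg₂, hg₂'⟩ := exists_out hQ h11 h2 hort (X := X₀ Q D) (fun x ⟨i, hx, _⟩ => ⟨i, hx⟩) h01 ha₀ hb₀ ha₁ hb₁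
    ⟨_, ha₀, hQa₀⟩ hQa₁ h0 h1
  refine between le_stab (g₁ := sE hQ he hy) ?_ (Cfsg.Agent.H97.Asch.sE_mem7 hQ (by omega) he hy)
    (g₁_not_decomp hQ h2 hort h01 h02 h12 ha₀ hb₀ ha₁ hb₁ ha₂ hb₂ hQa₂ h0 h1 h22 he hy) hg₂ hg₂'
  refine stab_of_maps ?_
  rintro v ⟨i, hvi, hvn⟩
  obtain ⟨h3, h4, h5⟩ := hF i v hvi hvn
  refine ⟨i, ?_, ?_⟩
  · rw [sE_apply', polar_add_right, h3, h4, h5]
    simpa using hvi
  · rw [sE_iso]
    exact hvn

/-- The elements of the prime subfield in characteristic two. -/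
theorem T_add (h2 : (2 : F) = 0) {x y : F} (hx : x ^ 2 = x) (hy : y ^ 2 = y) : (x + y) ^ 2 = x + y := by
  linear_combination hx + hy + x * y * h2

theorem T_sub (h2 : (2 : F) = 0) {x y : F} (hx : x ^ 2 = x) (hy : y ^ 2 = y) : (x - y) ^ 2 = x - y := by
  linear_combination hx + hy + (y - x * y) * h2

theorem T_mul {x y : F} (hx : x ^ 2 = x) (hy : y ^ 2 = y) : (x * y) ^ 2 = x * y := by
  linear_combination y ^ 2 * hx + x * hy

/-- The case of `𝔽₄`. -/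
theorem not_max_b (hQ : Nondeg Q) (h11 : 10 ≤ Fintype.card ι) (h2 : (2 : F) = 0)
    (hort : ∀ i j, i ≠ j → ∀ x ∈ D i, ∀ y ∈ D j, polar Q x y = 0) {i₀ i₁ i₂ : Fin t} (h01 : i₀ ≠ i₁)
    (h02 : i₀ ≠ i₂) (h12 : i₁ ≠ i₂) {a₀ b₀ a₁ b₁ a₂ b₂ : ι → F} (ha₀ : a₀ ∈ D i₀)
    (hb₀ : b₀ ∈ D i₀) (ha₁ : a₁ ∈ D i₁) (hb₁ : b₁ ∈ D i₁) (ha₂ : a₂ ∈ D i₂) (hb₂ : b₂ ∈ D i₂)
    (hQa₀ : Q a₀ = 1) (hQa₁ : Q a₁ = 1) (hQa₂ : Q a₂ = 1) (hQb₀ : Q b₀ = 1) (hQb₂ : Q b₂ = 1)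
    (h0 : polar Q a₀ b₀ = 1) (h1 : polar Q a₁ b₁ = 1) (h22 : polar Q a₂ b₂ = 1)
    {ω : F} (hω : ω ^ 2 + ω + 1 = 0)
    (hT : ∀ i, ∀ x ∈ D i, ∀ x' ∈ D i, Q x = 1 → Q x' = 1 → (polar Q x x') ^ 2 = polar Q x x') :
    ∃ K : Subgroup (GL ι F), decompositionStabilizer D ⊓ omegaGL ⇑Q < K ∧ K < omegaGL ⇑Q := by
  set Λ : Set (ι → F) := {z | ∀ w ∈ X₀ Q D, (polar Q z w) ^ 2 = polar Q z w} with hΛ
  have hT' : ∀ x ∈ X₀ Q D, ∀ y ∈ X₀ Q D, (polar Q x y) ^ 2 = polar Q x y := by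
    rintro x ⟨i, hx, hQx⟩ y ⟨j, hy, hQy⟩
    by_cases hij : i = j
    · subst hij
      exact hT _ _ hx _ hy hQx hQy
    · rw [hort _ _ hij _ hx _ hy]
      simp
  have hXΛ : ∀ x ∈ X₀ Q D, x ∈ Λ := fun x hx y hy => hT' x hx y hy
  have he : Q (a₀ + a₁) = 0 := by
    rw [Q_ad, hQa₀, hQa₁, hort _ _ h01 _ ha₀ _ ha₁]
    linear_combination h2
  have hy : polar Q (a₀ + a₁) a₂ = 0 := by
    rw [polar_add_left, hort _ _ h02 _ ha₀ _ ha₂, hort _ _ h12 _ ha₁ _ ha₂, add_zero]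
  have hy' : polar Q (a₀ + a₁) (ω • a₂) = 0 := by
    rw [polar_sm_r, hy, mul_zero]
  have ha₀X : a₀ ∈ X₀ Q D := ⟨_, ha₀, hQa₀⟩
  have ha₁X : a₁ ∈ X₀ Q D := ⟨_, ha₁, hQa₁⟩
  have ha₂X : a₂ ∈ X₀ Q D := ⟨_, ha₂, hQa₂⟩
  have hb₀X : b₀ ∈ X₀ Q D := ⟨_, hb₀, hQb₀⟩
  have hb₂X : b₂ ∈ X₀ Q D := ⟨_, hb₂, hQb₂⟩
  have hle : decompositionStabilizer D ⊓ omegaGL ⇑Q ≤ stabilizing (glToMat ι F) Λ := by
    intro g hg
    have hs : g ∈ stabilizing (glToMat ι F) (X₀ Q D) := le_stab hg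
    refine stab_of_maps ?_
    intro v hv w hw
    have hw' : g⁻¹ ⋆ w ∈ X₀ Q D := by
      apply (hs (g⁻¹ ⋆ w)).2
      change g ⋆ (g⁻¹ ⋆ w) ∈ X₀ Q D
      rwa [mulVec_inv_GL]
    have h3 := polar_iso (Q := Q) (t := g) (fun u => iso_omega hg.2 u) v (g⁻¹ ⋆ w)
    rw [mulVec_inv_GL] at h3
    rw [h3]
    exact hv _ hw'
  refine between hle (g₁ := sE hQ he hy) (g₂ := sE hQ he hy') ?_ (Cfsg.Agent.H97.Asch.sE_mem7 hQ (by omega) he hy)
    (g₁_not_decomp hQ h2 hort h01 h02 h12 ha₀ hb₀ ha₁ hb₁ ha₂ hb₂ hQa₂ h0 h1 h22 he hy)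
    (Cfsg.Agent.H97.Asch.sE_mem7 hQ (by omega) he hy') ?_
  · refine stab_of_maps ?_
    intro z hz w hw
    rw [sE_apply', hQa₂, polar_sub_left, polar_add_left, polar_sm_l, polar_sm_l, polar_add_left, polar_add_right]
    have h3 := hz w hw
    have h4 := hz a₀ ha₀X
    have h5 := hz a₁ ha₁X
    have h6 := hz a₂ ha₂X
    have h7 := hT' a₀ ha₀X w hw
    have h8 := hT' a₁ ha₁X w hw
    have h9 := hT' a₂ ha₂X w hw
    have h10 : (1 : F) ^ 2 = 1 := one_pow 2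
    exact T_sub h2 (T_add h2 h3 (T_mul (T_add h2 h4 h5) h9))
      (T_mul (T_add h2 h6 (T_mul h10 (T_add h2 h4 h5))) (T_add h2 h7 h8))
  · intro hs
    have h3 := (hs b₀).1 (hXΛ _ hb₀X) b₂ hb₂X
    change (polar Q (sE hQ he hy' ⋆ b₀) b₂) ^ 2 = polar Q (sE hQ he hy' ⋆ b₀) b₂ at h3
    have h4 : polar Q (sE hQ he hy' ⋆ b₀) b₂ = ω := by
      rw [sE_apply', polar_sub_left, polar_add_left, polar_sm_l, polar_sm_l, polar_sm_l, polar_add_left,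
        polar_add_right, h22, hort _ _ h02 _ hb₀ _ hb₂, hort _ _ h02 _ ha₀ _ hb₂, hort _ _ h12 _ ha₁ _ hb₂,
        polar_comm Q b₀ a₀, h0, hort _ _ h01 _ hb₀ _ ha₁]
      ring
    rw [h4] at h3
    have : (1 : F) = 0 := by linear_combination hω - h3 - ω * h2
    exact one_ne_zero this

/-- The case of blocks of dimension four over `𝔽₂`. -/
theorem not_max_c (hQ : Nondeg Q) (h11 : 10 ≤ Fintype.card ι) (h2 : (2 : F) = 0)
    (hort : ∀ i j, i ≠ j → ∀ x ∈ D i, ∀ y ∈ D j, polar Q x y = 0)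
    (hnd : ∀ i, IsNondegenerateOn (polar ⇑Q) (D i)) {i₀ i₁ : Fin t} (h01 : i₀ ≠ i₁)
    {a₀ b₀ a₁ b₁ d : ι → F} (ha₀ : a₀ ∈ D i₀)
    (hb₀ : b₀ ∈ D i₀) (ha₁ : a₁ ∈ D i₁) (hb₁ : b₁ ∈ D i₁) (hd : d ∈ D i₀) (hd0 : d ≠ 0)
    (hQa₀ : Q a₀ = 1) (hQa₁ : Q a₁ = 1) (hQb₀ : Q b₀ = 1) (hQb₁ : Q b₁ = 1)
    (h0 : polar Q a₀ b₀ = 1) (h1 : polar Q a₁ b₁ = 1) (hda : polar Q d a₀ = 0) (hdb : polar Q d b₀ = 0)
    (hk₀ : ∀ x ∈ D i₀, Q x = 1 → (polar Q x a₀ = 0 ∧ polar Q x b₀ = 0) ∨ x = a₀ ∨ x = b₀ ∨ x = a₀ + b₀)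
    (hk₁ : ∀ x ∈ D i₁, Q x = 1 → (polar Q x a₁ = 0 ∧ polar Q x b₁ = 0) ∨ x = a₁ ∨ x = b₁ ∨ x = a₁ + b₁) :
    ∃ K : Subgroup (GL ι F), decompositionStabilizer D ⊓ omegaGL ⇑Q < K ∧ K < omegaGL ⇑Q := by
  have he : Q (a₀ + a₁) = 0 := by
    rw [Q_ad, hQa₀, hQa₁, hort _ _ h01 _ ha₀ _ ha₁]
    linear_combination h2
  have hQy : Q (b₀ + b₁) = 0 := by
    rw [Q_ad, hQb₀, hQb₁, hort _ _ h01 _ hb₀ _ hb₁]
    linear_combination h2
  have hy : polar Q (a₀ + a₁) (b₀ + b₁) = 0 := by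
    rw [polar_add_left, polar_add_right, polar_add_right, hort _ _ h01 _ ha₀ _ hb₁, hort _ _ h01.symm _ ha₁ _ hb₀,
      h0, h1]
    linear_combination h2
  have hself : ∀ x, Q x = 1 → polar Q x x = 0 := by
    intro x hx
    rw [polar_self_eq, hx, h2, zero_mul]
  have hfix : ∀ v, polar Q v a₀ = 0 → polar Q v a₁ = 0 → polar Q v b₀ = 0 → polar Q v b₁ = 0 →
      sE hQ he hy ⋆ v = v := by
    intro v h3 h4 h5 h6
    rw [sE_apply', polar_add_right, polar_add_right, h3, h4, h5, h6]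
    simp
  have hvec : ∀ u w : ι → F, u - (1 : F) • (u + w) = w := by
    intro u w
    ext i
    simp only [Pi.sub_apply, Pi.smul_apply, Pi.add_apply, smul_eq_mul]
    linear_combination (-(w i)) * h2
  have hvec' : ∀ u w : ι → F, u + (1 : F) • (u + w) = w := by
    intro u w
    ext i
    simp only [Pi.smul_apply, Pi.add_apply, smul_eq_mul]
    linear_combination (u i) * h2
  have hA₀ : sE hQ he hy ⋆ a₀ = a₁ := by
    rw [sE_apply', polar_add_right, polar_add_right, hself _ hQa₀, hort _ _ h01 _ ha₀ _ ha₁, h0,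
      hort _ _ h01 _ ha₀ _ hb₁, hQy]
    simpa using hvec a₀ a₁
  have hA₁ : sE hQ he hy ⋆ a₁ = a₀ := by
    rw [sE_apply', polar_add_right, polar_add_right, hself _ hQa₁, hort _ _ h01.symm _ ha₁ _ ha₀, h1,
      hort _ _ h01.symm _ ha₁ _ hb₀, hQy]
    have := hvec a₁ a₀
    rw [add_comm a₁ a₀] at this
    simpa using this
  have hB₀ : sE hQ he hy ⋆ b₀ = b₁ := by
    rw [sE_apply', polar_add_right, polar_add_right, hself _ hQb₀, hort _ _ h01 _ hb₀ _ hb₁,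
      polar_comm Q b₀ a₀, h0, hort _ _ h01 _ hb₀ _ ha₁, hQy]
    simpa using hvec' b₀ b₁
  have hB₁ : sE hQ he hy ⋆ b₁ = b₀ := by
    rw [sE_apply', polar_add_right, polar_add_right, hself _ hQb₁, hort _ _ h01.symm _ hb₁ _ hb₀,
      polar_comm Q b₁ a₁, h1, hort _ _ h01.symm _ hb₁ _ ha₀, hQy]
    have := hvec' b₁ b₀
    rw [add_comm b₁ b₀] at this
    simpa using this
  have hQs₀ : Q (a₀ + b₀) = 1 := by
    rw [Q_ad, hQa₀, hQb₀, h0]
    linear_combination h2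
  have hQs₁ : Q (a₁ + b₁) = 1 := by
    rw [Q_ad, hQa₁, hQb₁, h1]
    linear_combination h2
  obtain ⟨g₂, hg₂, hg₂'⟩ := exists_out hQ h11 h2 hort (X := X₀ Q D) (fun x ⟨i, hx, _⟩ => ⟨i, hx⟩) h01 ha₀ hb₀ ha₁ hb₁
    ⟨_, ha₀, hQa₀⟩ hQa₁ h0 h1
  refine between le_stab (g₁ := sE hQ he hy) ?_ (Cfsg.Agent.H97.Asch.sE_mem7 hQ (by omega) he hy) ?_ hg₂ hg₂'
  · refine stab_of_maps ?_
    rintro v ⟨i, hvi, hvn⟩
    have hstay : sE hQ he hy ⋆ v = v → sE hQ he hy ⋆ v ∈ X₀ Q D := by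
      intro h3
      rw [h3]
      exact ⟨i, hvi, hvn⟩
    by_cases hi0 : i = i₀
    · subst hi0
      rcases hk₀ v hvi hvn with ⟨h3, h4⟩ | rfl | rfl | rfl
      · exact hstay (hfix v h3 (hort _ _ h01 _ hvi _ ha₁) h4 (hort _ _ h01 _ hvi _ hb₁))
      · rw [hA₀]
        exact ⟨_, ha₁, hQa₁⟩
      · rw [hB₀]
        exact ⟨_, hb₁, hQb₁⟩
      · rw [Matrix.mulVec_add, hA₀, hB₀]
        exact ⟨_, (D i₁).add_mem ha₁ hb₁, hQs₁⟩
    by_cases hi1 : i = i₁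
    · subst hi1
      rcases hk₁ v hvi hvn with ⟨h3, h4⟩ | rfl | rfl | rfl
      · exact hstay (hfix v (hort _ _ h01.symm _ hvi _ ha₀) h3 (hort _ _ h01.symm _ hvi _ hb₀) h4)
      · rw [hA₁]
        exact ⟨_, ha₀, hQa₀⟩
      · rw [hB₁]
        exact ⟨_, hb₀, hQb₀⟩
      · rw [Matrix.mulVec_add, hA₁, hB₁]
        exact ⟨_, (D i₀).add_mem ha₀ hb₀, hQs₀⟩
    exact hstay (hfix v (hort _ _ hi0 _ hvi _ ha₀) (hort _ _ hi1 _ hvi _ ha₁) (hort _ _ hi0 _ hvi _ hb₀)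
      (hort _ _ hi1 _ hvi _ hb₁))
  · rintro ⟨π, hπ⟩
    have h3 : sE hQ he hy ⋆ a₀ ∈ D (π i₀) := by
      rw [← hπ i₀]
      exact ⟨a₀, ha₀, rfl⟩
    have h4 : sE hQ he hy ⋆ d ∈ D (π i₀) := by
      rw [← hπ i₀]
      exact ⟨d, hd, rfl⟩
    rw [hA₀] at h3
    rw [hfix d hda (hort _ _ h01 _ hd _ ha₁) hdb (hort _ _ h01 _ hd _ hb₁)] at h4
    obtain ⟨y, hyD, hne⟩ := (hnd i₀ d hd hd0).2
    have h5 : π i₀ = i₁ := by
      by_contra h
      have h6 := hort _ _ h _ h3 _ hb₁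
      rw [h1] at h6
      exact one_ne_zero h6
    have h6 : π i₀ = i₀ := by
      by_contra h
      exact hne (hort _ _ h _ h4 _ hyD)
    exact h01 (h6.symm.trans h5)

/-! ### Blocks -/

theorem exists_partner {W : Submodule F (ι → F)} (hW : IsNondegenerateOn (polar ⇑Q) W) {e : ι → F} (heW : e ∈ W)
    (he0 : e ≠ 0) (hee : Q e = 0) : ∃ f ∈ W, Q f = 0 ∧ polar Q f e = 1 := by
  have hpee : polar Q e e = 0 := polar_self_of_singular hee
  obtain ⟨x, hxW, hx⟩ := (hW e heW he0).1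
  have h1 : polar Q ((polar Q x e)⁻¹ • x) e = 1 := by
    rw [polar_sm_l]
    exact inv_mul_cancel₀ hx
  refine ⟨(polar Q x e)⁻¹ • x + (-(Q ((polar Q x e)⁻¹ • x))) • e,
    W.add_mem (W.smul_mem _ hxW) (W.smul_mem _ heW), ?_, ?_⟩
  · generalize (polar Q x e)⁻¹ • x = y at h1
    rw [Q_ad, Q_sm, hee, polar_sm_r, polar_comm] at *
    rw [h1]
    ring
  · generalize (polar Q x e)⁻¹ • x = y at h1
    rw [polar_add_left, polar_sm_l, h1, hpee]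
    ring

theorem exists_hyp_plane {W : Submodule F (ι → F)} (hdim : finrank F W = 2)
    (hW : IsNondegenerateOn (polar ⇑Q) W) (hp : IsPlusTypeOn ⇑Q W) :
    ∃ e ∈ W, ∃ f ∈ W, Q e = 0 ∧ Q f = 0 ∧ polar Q e f = 1 ∧ ∀ w ∈ W, ∃ α β : F, w = α • e + β • f := by
  classical
  obtain ⟨U, hUW, hUts, hUd⟩ := hp
  have hUd' : finrank F U = 1 := by omega
  obtain ⟨⟨e, heU⟩, he0⟩ : ∃ e : U, e ≠ 0 := by
    have : 0 < finrank F U := by omega
    exact Module.finrank_pos_iff_exists_ne_zero.1 this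
  have he0' : e ≠ 0 := fun h => he0 (Subtype.ext h)
  have heW : e ∈ W := hUW heU
  have hee : Q e = 0 := hUts e heU
  have hpee : polar Q e e = 0 := polar_self_of_singular hee
  obtain ⟨f, hfW, hff, hfe⟩ := exists_partner hW heW he0' hee
  have hef : polar Q e f = 1 := by
    rw [polar_comm]
    exact hfe
  refine ⟨e, heW, f, hfW, hee, hff, hef, ?_⟩
  have hli : LinearIndependent F ![e, f] := by
    rw [LinearIndependent.pair_iff]
    intro s t hst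
    have h1 := congrArg (fun v => polar Q v e) hst
    simp only [polar_add_left, polar_sm_l, hpee, hfe, mul_zero, mul_one, zero_add] at h1
    have h0 : polar Q (0 : ι → F) e = 0 := by
      simp [polar]
    rw [h0] at h1
    refine ⟨?_, h1⟩
    rw [h1, zero_smul, add_zero] at hst
    exact (smul_eq_zero.1 hst).resolve_right he0'
  have hle : Submodule.span F (Set.range ![e, f]) ≤ W := by
    rw [Submodule.span_le]
    rintro _ ⟨i, rfl⟩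
    fin_cases i
    · exact heW
    · exact hfW
  have he := Submodule.eq_of_le_of_finrank_eq hle (by
    rw [finrank_span_eq_card hli, hdim]
    simp)
  intro w hw
  rw [← he] at hw
  obtain ⟨c, hc⟩ := (Submodule.mem_span_range_iff_exists_fun F).1 hw
  refine ⟨c 0, c 1, ?_⟩
  rw [← hc, Fin.sum_univ_two]
  simp

theorem bi (hq : Fintype.card F = 2) (x : F) : x = 0 ∨ x = 1 := by
  by_cases h : x = 0
  · exact Or.inl h
  · right
    have := FiniteField.pow_card_sub_one_eq_one x h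
    rw [hq] at this
    simpa using this

theorem two_eq₂ (hq : Fintype.card F = 2) : (2 : F) = 0 := by
  have := FiniteField.cast_card_eq_zero F
  rw [hq] at this
  exact_mod_cast this

theorem two_eq₄ (hq : Fintype.card F = 4) : (2 : F) = 0 := by
  have := FiniteField.cast_card_eq_zero F
  rw [hq] at this
  have h2 : (2 : F) ^ 2 = 0 := by
    push_cast at this
    linear_combination this
  exact pow_eq_zero_iff (by norm_num) |>.1 h2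

theorem exists_omega (hq : Fintype.card F = 4) : ∃ ω : F, ω ^ 2 + ω + 1 = 0 := by
  classical
  have h : ∃ x : F, x ≠ 0 ∧ x ≠ 1 := by
    by_contra hno
    push Not at hno
    have h1 : (Finset.univ : Finset F) ⊆ {0, 1} := by
      intro x _
      by_cases hx : x = 0
      · simp [hx]
      · simp [hno x hx]
    have h2 := Finset.card_le_card h1
    have h3 := Finset.card_le_two (a := (0 : F)) (b := 1)
    rw [Finset.card_univ, hq] at h2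
    omega
  obtain ⟨x, hx0, hx1⟩ := h
  refine ⟨x, ?_⟩
  have h1 := FiniteField.pow_card_sub_one_eq_one x hx0
  rw [hq] at h1
  have h2 : (x - 1) * (x ^ 2 + x + 1) = 0 := by
    linear_combination h1
  exact (mul_eq_zero.1 h2).resolve_left (sub_ne_zero.2 hx1)

/-- A hyperbolic plane over the field of two elements. -/
theorem blk_q2 (hq : Fintype.card F = 2) {W : Submodule F (ι → F)} (hdim : finrank F W = 2)
    (hW : IsNondegenerateOn (polar ⇑Q) W) (hp : IsPlusTypeOn ⇑Q W) :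
    ∃ a ∈ W, ∃ b ∈ W, Q a = 1 ∧ polar Q a b = 1 ∧ ∀ x ∈ W, Q x = 1 → x = a := by
  obtain ⟨e, he, f, hf, hee, hff, hef, hco⟩ := exists_hyp_plane hdim hW hp
  have hpee : polar Q e e = 0 := polar_self_of_singular hee
  have hfe : polar Q f e = 1 := by
    rw [polar_comm]
    exact hef
  refine ⟨e + f, W.add_mem he hf, e, he, ?_, ?_, ?_⟩
  · rw [Q_ad, hee, hff, hef]
    ring
  · rw [polar_add_left, hpee, hfe, zero_add]
  · intro x hx hQx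
    obtain ⟨α, β, rfl⟩ := hco x hx
    rw [Q_ad, Q_sm, Q_sm, hee, hff, polar_sm_l, polar_sm_r, hef] at hQx
    have hαβ : α * β = 1 := by linear_combination hQx
    have hα : α ≠ 0 := by
      rintro rfl
      rw [zero_mul] at hαβ
      exact zero_ne_one hαβ
    have hβ : β ≠ 0 := by
      rintro rfl
      rw [mul_zero] at hαβ
      exact zero_ne_one hαβ
    rw [(bi hq α).resolve_left hα, (bi hq β).resolve_left hβ, one_smul, one_smul]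

/-- A hyperbolic plane over the field of four elements. -/
theorem blk_q4 (hq : Fintype.card F = 4) {ω : F} (hω : ω ^ 2 + ω + 1 = 0) {W : Submodule F (ι → F)} (hdim : finrank F W = 2)
    (hW : IsNondegenerateOn (polar ⇑Q) W) (hp : IsPlusTypeOn ⇑Q W) :
    ∃ a ∈ W, ∃ b ∈ W, Q a = 1 ∧ Q b = 1 ∧ polar Q a b = 1 := by
  obtain ⟨e, he, f, hf, hee, hff, hef, hco⟩ := exists_hyp_plane hdim hW hp
  have h2 := two_eq₄ hq
  have hpee : polar Q e e = 0 := polar_self_of_singular hee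
  have hpff : polar Q f f = 0 := polar_self_of_singular hff
  have hfe : polar Q f e = 1 := by
    rw [polar_comm]
    exact hef
  refine ⟨e + f, W.add_mem he hf, ω • e + ω ^ 2 • f, W.add_mem (W.smul_mem _ he) (W.smul_mem _ hf), ?_, ?_, ?_⟩
  · rw [Q_ad, hee, hff, hef]
    ring
  · rw [Q_ad, Q_sm, Q_sm, hee, hff, polar_sm_l, polar_sm_r, hef]
    linear_combination (ω - 1) * hω
  · rw [polar_add_left, polar_add_right, polar_add_right, polar_sm_r, polar_sm_r, polar_sm_r, polar_sm_r, hpee, hef, hfe,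
      hpff]
    linear_combination hω - h2

theorem T_block (hq : Fintype.card F = 4) {W : Submodule F (ι → F)} (hdim : finrank F W = 2)
    (hW : IsNondegenerateOn (polar ⇑Q) W) (hp : IsPlusTypeOn ⇑Q W) :
    ∀ x ∈ W, ∀ x' ∈ W, Q x = 1 → Q x' = 1 → (polar Q x x') ^ 2 = polar Q x x' := by
  obtain ⟨e, he, f, hf, hee, hff, hef, hco⟩ := exists_hyp_plane hdim hW hp
  have h2 := two_eq₄ hq
  have hpee : polar Q e e = 0 := polar_self_of_singular hee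
  have hpff : polar Q f f = 0 := polar_self_of_singular hff
  have hfe : polar Q f e = 1 := by
    rw [polar_comm]
    exact hef
  intro x hx x' hx' hQx hQx'
  obtain ⟨α, β, rfl⟩ := hco x hx
  obtain ⟨γ, δ, rfl⟩ := hco x' hx'
  rw [Q_ad, Q_sm, Q_sm, hee, hff, polar_sm_l, polar_sm_r, hef] at hQx hQx'
  have hαβ : α * β = 1 := by linear_combination hQx
  have hγδ : γ * δ = 1 := by linear_combination hQx'
  have hα : α ≠ 0 := by
    rintro rfl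
    rw [zero_mul] at hαβ
    exact zero_ne_one hαβ
  have hγ : γ ≠ 0 := by
    rintro rfl
    rw [zero_mul] at hγδ
    exact zero_ne_one hγδ
  have hα3 : α ^ 3 = 1 := by
    have := FiniteField.pow_card_sub_one_eq_one α hα
    rwa [hq] at this
  have hγ3 : γ ^ 3 = 1 := by
    have := FiniteField.pow_card_sub_one_eq_one γ hγ
    rwa [hq] at this
  have hβ : β = α ^ 2 := by linear_combination (-β) * hα3 + α ^ 2 * hαβ
  have hδ : δ = γ ^ 2 := by linear_combination (-δ) * hγ3 + γ ^ 2 * hγδ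
  subst hβ hδ
  have : polar Q (α • e + α ^ 2 • f) (γ • e + γ ^ 2 • f) = α * γ ^ 2 + α ^ 2 * γ := by
    simp only [polar_add_left, polar_add_right, polar_sm_l, polar_sm_r, hpee, hef, hfe, hpff]
    ring
  rw [this]
  linear_combination α ^ 2 * γ * hγ3 + α * γ ^ 2 * hα3 + α ^ 3 * γ ^ 3 * h2

/-- A hyperbolic basis of a block of dimension four. -/
theorem exists_hyp_four {W : Submodule F (ι → F)} (hdim : finrank F W = 4)
    (hW : IsNondegenerateOn (polar ⇑Q) W) (hp : IsPlusTypeOn ⇑Q W) :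
    ∃ e₁ ∈ W, ∃ f₁ ∈ W, ∃ e₂ ∈ W, ∃ f₂ ∈ W, Q e₁ = 0 ∧ Q f₁ = 0 ∧ Q e₂ = 0 ∧ Q f₂ = 0 ∧ polar Q e₁ f₁ = 1 ∧
      polar Q e₂ f₂ = 1 ∧ polar Q e₁ e₂ = 0 ∧ polar Q e₁ f₂ = 0 ∧ polar Q f₁ e₂ = 0 ∧ polar Q f₁ f₂ = 0 ∧
      ∀ w ∈ W, ∃ α β γ δ : F, w = α • e₁ + β • f₁ + γ • e₂ + δ • f₂ := by
  classical
  obtain ⟨U, hUW, hUts, hUd⟩ := hp
  have hUd' : finrank F U = 2 := by omega
  let bU := Module.finBasisOfFinrankEq F U hUd'
  set e₁ : ι → F := ((bU 0 : U) : ι → F) with he₁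
  set x₂ : ι → F := ((bU 1 : U) : ι → F) with hx₂
  have he₁U : e₁ ∈ U := (bU 0).2
  have hx₂U : x₂ ∈ U := (bU 1).2
  have he₁0 : e₁ ≠ 0 := fun h => bU.ne_zero 0 (Subtype.ext h)
  have he₁W := hUW he₁U
  have hQe₁ : Q e₁ = 0 := hUts _ he₁U
  have hQx₂ : Q x₂ = 0 := hUts _ hx₂U
  have hpU : ∀ u ∈ U, ∀ v ∈ U, polar Q u v = 0 := by
    intro u hu v hv
    rw [polar, hUts _ (U.add_mem hu hv), hUts _ hu, hUts _ hv]
    ring
  obtain ⟨f₁, hf₁, hQf₁, hf₁e₁⟩ := exists_partner hW he₁W he₁0 hQe₁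
  have he₁f₁ : polar Q e₁ f₁ = 1 := by
    rw [polar_comm]
    exact hf₁e₁
  set e₂ : ι → F := x₂ + (-(polar Q x₂ f₁)) • e₁ with he₂
  have he₂U : e₂ ∈ U := U.add_mem hx₂U (U.smul_mem _ he₁U)
  have he₂W := hUW he₂U
  have hQe₂ : Q e₂ = 0 := hUts _ he₂U
  have he₁e₂ : polar Q e₁ e₂ = 0 := hpU _ he₁U _ he₂U
  have he₂f₁ : polar Q e₂ f₁ = 0 := by
    rw [he₂, polar_add_left, polar_sm_l, he₁f₁]
    ring
  have he₂0 : e₂ ≠ 0 := by
    intro h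
    have h1 := bU.linearIndependent
    rw [Fintype.linearIndependent_iff] at h1
    have h3 := h1 ![-(polar Q x₂ f₁), 1] (by
      rw [Fin.sum_univ_two]
      apply Subtype.ext
      have : (-(polar Q x₂ f₁)) • e₁ + x₂ = 0 := by
        rw [add_comm]
        exact h
      simpa using this) 1
    simp at h3
  obtain ⟨f', hf', hQf', hf'e₂⟩ := exists_partner hW he₂W he₂0 hQe₂
  set f'' : ι → F := f' + (-(polar Q f' f₁)) • e₁ + (-(polar Q f' e₁)) • f₁ with hf''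
  have hf''W : f'' ∈ W := W.add_mem (W.add_mem hf' (W.smul_mem _ he₁W)) (W.smul_mem _ hf₁)
  have hpe₁ : polar Q e₁ e₁ = 0 := polar_self_of_singular hQe₁
  have hpf₁ : polar Q f₁ f₁ = 0 := polar_self_of_singular hQf₁
  have hpe₂ : polar Q e₂ e₂ = 0 := polar_self_of_singular hQe₂
  have h1 : polar Q f'' e₁ = 0 := by
    rw [hf'', polar_add_left, polar_add_left, polar_sm_l, polar_sm_l, hpe₁, hf₁e₁]
    ring
  have h2 : polar Q f'' f₁ = 0 := by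
    rw [hf'', polar_add_left, polar_add_left, polar_sm_l, polar_sm_l, he₁f₁, hpf₁]
    ring
  have h3 : polar Q f'' e₂ = 1 := by
    rw [hf'', polar_add_left, polar_add_left, polar_sm_l, polar_sm_l, he₁e₂, polar_comm Q f₁ e₂, he₂f₁, hf'e₂]
    ring
  set f₂ : ι → F := f'' + (-(Q f'')) • e₂ with hf₂
  have hf₂W : f₂ ∈ W := W.add_mem hf''W (W.smul_mem _ he₂W)
  have hQf₂ : Q f₂ = 0 := by
    rw [hf₂, Q_ad, Q_sm, hQe₂, polar_sm_r, h3]
    ring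
  have h4 : polar Q f₂ e₁ = 0 := by
    rw [hf₂, polar_add_left, polar_sm_l, h1, polar_comm Q e₂ e₁, he₁e₂]
    ring
  have h5 : polar Q f₂ f₁ = 0 := by
    rw [hf₂, polar_add_left, polar_sm_l, h2, he₂f₁]
    ring
  have h6 : polar Q f₂ e₂ = 1 := by
    rw [hf₂, polar_add_left, polar_sm_l, h3, hpe₂]
    ring
  have hpf₂ : polar Q f₂ f₂ = 0 := polar_self_of_singular hQf₂
  have he₂f₂ : polar Q e₂ f₂ = 1 := by
    rw [polar_comm]
    exact h6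
  have he₁f₂ : polar Q e₁ f₂ = 0 := by
    rw [polar_comm]
    exact h4
  have hf₁e₂ : polar Q f₁ e₂ = 0 := by
    rw [polar_comm]
    exact he₂f₁
  have hf₁f₂ : polar Q f₁ f₂ = 0 := by
    rw [polar_comm]
    exact h5
  refine ⟨e₁, he₁W, f₁, hf₁, e₂, he₂W, f₂, hf₂W, hQe₁, hQf₁, hQe₂, hQf₂, he₁f₁, he₂f₂, he₁e₂, he₁f₂, hf₁e₂, hf₁f₂, ?_⟩
  have hli : LinearIndependent F ![e₁, f₁, e₂, f₂] := by
    rw [Fintype.linearIndependent_iff]
    intro c hc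
    rw [Fin.sum_univ_four] at hc
    simp only [Matrix.cons_val_zero, Matrix.cons_val_one, Matrix.cons_val] at hc
    have hv : ∀ z, polar Q (c 0 • e₁ + c 1 • f₁ + c 2 • e₂ + c 3 • f₂) z = 0 := by
      intro z
      rw [hc]
      simp [polar]
    have c0 := hv f₁
    have c1 := hv e₁
    have c2 := hv f₂
    have c3 := hv e₂
    simp only [polar_add_left, polar_sm_l, he₁f₁, hpf₁, hpe₁, hf₁e₁, he₂f₁, hf₁e₂, he₁e₂, he₁f₂, hf₁f₂, he₂f₂,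
      hpf₂, hpe₂, h4, h5, h6, polar_comm Q e₂ e₁] at c0 c1 c2 c3
    intro i
    fin_cases i
    · simpa using c0
    · simpa using c1
    · simpa using c2
    · simpa using c3
  have hle : Submodule.span F (Set.range ![e₁, f₁, e₂, f₂]) ≤ W := by
    rw [Submodule.span_le]
    rintro _ ⟨i, rfl⟩
    fin_cases i
    · exact he₁W
    · exact hf₁
    · exact he₂W
    · exact hf₂W
  have he := Submodule.eq_of_le_of_finrank_eq hle (by
    rw [finrank_span_eq_card hli, hdim]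
    simp)
  intro w hw
  rw [← he] at hw
  obtain ⟨c, hc⟩ := (Submodule.mem_span_range_iff_exists_fun F).1 hw
  refine ⟨c 0, c 1, c 2, c 3, ?_⟩
  rw [← hc, Fin.sum_univ_four]
  simp

/-- Blocks of dimension four over the field of two elements. -/
theorem blk_k4 (hq : Fintype.card F = 2) {W : Submodule F (ι → F)} (hdim : finrank F W = 4)
    (hW : IsNondegenerateOn (polar ⇑Q) W) (hp : IsPlusTypeOn ⇑Q W) :
    ∃ a ∈ W, ∃ b ∈ W, ∃ d ∈ W, Q a = 1 ∧ Q b = 1 ∧ polar Q a b = 1 ∧ d ≠ 0 ∧ polar Q d a = 0 ∧ polar Q d b = 0 ∧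
      ∀ x ∈ W, Q x = 1 → (polar Q x a = 0 ∧ polar Q x b = 0) ∨ x = a ∨ x = b ∨ x = a + b := by
  obtain ⟨e₁, he₁, f₁, hf₁, e₂, he₂, f₂, hf₂, hQe₁, hQf₁, hQe₂, hQf₂, h1, h2, h3, h4, h5, h6, hco⟩ :=
    exists_hyp_four hdim hW hp
  have hc2 := two_eq₂ hq
  have p1 : polar Q e₁ e₁ = 0 := polar_self_of_singular hQe₁
  have p2 : polar Q f₁ f₁ = 0 := polar_self_of_singular hQf₁
  have p3 : polar Q e₂ e₂ = 0 := polar_self_of_singular hQe₂
  have p4 : polar Q f₂ f₂ = 0 := polar_self_of_singular hQf₂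
  have q1 : polar Q f₁ e₁ = 1 := by rw [polar_comm]; exact h1
  have q2 : polar Q f₂ e₂ = 1 := by rw [polar_comm]; exact h2
  have q3 : polar Q e₂ e₁ = 0 := by rw [polar_comm]; exact h3
  have q4 : polar Q f₂ e₁ = 0 := by rw [polar_comm]; exact h4
  have q5 : polar Q e₂ f₁ = 0 := by rw [polar_comm]; exact h5
  have q6 : polar Q f₂ f₁ = 0 := by rw [polar_comm]; exact h6
  have hQd : Q (e₂ + f₂) = 1 := by
    rw [Q_ad, hQe₂, hQf₂, h2]
    ring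
  refine ⟨e₁ + f₁, W.add_mem he₁ hf₁, e₁ + (e₂ + f₂), W.add_mem he₁ (W.add_mem he₂ hf₂), e₂ + f₂, W.add_mem he₂ hf₂,
    ?_, ?_, ?_, ?_, ?_, ?_, ?_⟩
  · rw [Q_ad, hQe₁, hQf₁, h1]
    ring
  · rw [Q_ad, hQe₁, hQd, polar_add_right, h3, h4]
    ring
  · rw [polar_add_left, polar_add_right, polar_add_right, polar_add_right, polar_add_right, p1, h3, h4, q1, h5, h6]
    ring
  · intro h
    rw [h] at hQd
    simp at hQd
  · rw [polar_add_left, polar_add_right, polar_add_right, q3, q5, q4, q6]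
    ring
  · rw [polar_add_left, polar_add_right, polar_add_right, polar_add_right, polar_add_right, q3, q4, p3, h2, q2, p4]
    linear_combination hc2
  · intro x hx hQx
    obtain ⟨α, β, γ, δ, rfl⟩ := hco x hx
    have hval : α * β + γ * δ = 1 := by
      rw [← hQx, Q_ad, Q_ad, Q_ad, Q_sm, Q_sm, Q_sm, Q_sm, hQe₁, hQf₁, hQe₂, hQf₂]
      simp only [polar_add_left, polar_sm_l, polar_sm_r, h1, h2, h3, h4, h5, h6, p1, p2, p3, p4, q1, q2, q3, q4, q5, q6]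
      ring
    have hpa : polar Q (α • e₁ + β • f₁ + γ • e₂ + δ • f₂) (e₁ + f₁) = α + β := by
      simp only [polar_add_left, polar_add_right, polar_sm_l, polar_sm_r, h1, h2, h3, h4, h5, h6, p1, p2, p3, p4, q1, q2, q3, q4, q5, q6]
      ring
    have hpb : polar Q (α • e₁ + β • f₁ + γ • e₂ + δ • f₂) (e₁ + (e₂ + f₂)) = β + γ + δ := by
      simp only [polar_add_left, polar_add_right, polar_sm_l, polar_sm_r, h1, h2, h3, h4, h5, h6, p1, p2, p3, p4, q1, q2, q3, q4, q5, q6]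
      ring
    rw [hpa, hpb]
    have h11 : (1 : F) + 1 = 0 := by linear_combination hc2
    have h10 : (1 : F) ≠ 0 := one_ne_zero
    rcases bi hq α with rfl | rfl <;> rcases bi hq β with rfl | rfl <;> rcases bi hq γ with rfl | rfl <;>
      rcases bi hq δ with rfl | rfl <;>
      simp only [mul_zero, zero_mul, mul_one, add_zero, zero_add, h11, zero_smul, one_smul] at hval ⊢
    all_goals first
      | exact absurd hval zero_ne_one
      | exact Or.inl ⟨trivial, trivial⟩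
      | exact Or.inr (Or.inl trivial)
      | exact Or.inr (Or.inr (Or.inl (add_assoc _ _ _)))
      | (refine Or.inr (Or.inr (Or.inr ?_))
         ext i
         simp only [Pi.add_apply]
         linear_combination (-(e₁ i)) * hc2)

/-- The three cases of characteristic two. -/
theorem not_max_q2 (hq : Fintype.card F = 2) (hQ : Nondeg Q) (h11 : 10 ≤ Fintype.card ι)
    (hD : IsOrthogonalMDecomposition ⇑Q 2 D) (ht : 3 ≤ t) (hp : ∀ i, IsPlusTypeOn ⇑Q (D i)) :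
    ∃ K : Subgroup (GL ι F), decompositionStabilizer D ⊓ omegaGL ⇑Q < K ∧ K < omegaGL ⇑Q := by
  have hc2 := two_eq₂ hq
  have hort : ∀ i j, i ≠ j → ∀ x ∈ D i, ∀ y ∈ D j, polar Q x y = 0 := fun i j hij => hD.decomp.orthogonal i j hij
  have hB := fun i => blk_q2 hq (hD.decomp.decomp.finrank_eq i) (hD.decomp.nondegenerate i) (hp i)
  let i₀ : Fin t := ⟨0, by omega⟩
  let i₁ : Fin t := ⟨1, by omega⟩
  let i₂ : Fin t := ⟨2, by omega⟩
  have h01 : i₀ ≠ i₁ := by simp [i₀, i₁, Fin.ext_iff]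
  have h02 : i₀ ≠ i₂ := by simp [i₀, i₂, Fin.ext_iff]
  have h12 : i₁ ≠ i₂ := by simp [i₁, i₂, Fin.ext_iff]
  obtain ⟨a₀, ha₀, b₀, hb₀, hQa₀, h0, hu₀⟩ := hB i₀
  obtain ⟨a₁, ha₁, b₁, hb₁, hQa₁, h1, hu₁⟩ := hB i₁
  obtain ⟨a₂, ha₂, b₂, hb₂, hQa₂, h22, hu₂⟩ := hB i₂
  refine not_max_a hQ h11 hc2 hort h01 h02 h12 ha₀ hb₀ ha₁ hb₁ ha₂ hb₂ hQa₀ hQa₁ hQa₂ h0 h1 h22 ?_
  intro i x hx hQx
  have hself : ∀ y, Q y = 1 → polar Q y y = 0 := by
    intro y hy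
    rw [polar_self_eq, hy, hc2, zero_mul]
  refine ⟨?_, ?_, ?_⟩
  · by_cases h : i = i₀
    · subst h
      rw [hu₀ x hx hQx]
      exact hself _ hQa₀
    · exact hort _ _ h _ hx _ ha₀
  · by_cases h : i = i₁
    · subst h
      rw [hu₁ x hx hQx]
      exact hself _ hQa₁
    · exact hort _ _ h _ hx _ ha₁
  · by_cases h : i = i₂
    · subst h
      rw [hu₂ x hx hQx]
      exact hself _ hQa₂
    · exact hort _ _ h _ hx _ ha₂

theorem not_max_q4 (hq : Fintype.card F = 4) (hQ : Nondeg Q) (h11 : 10 ≤ Fintype.card ι)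
    (hD : IsOrthogonalMDecomposition ⇑Q 2 D) (ht : 3 ≤ t) (hp : ∀ i, IsPlusTypeOn ⇑Q (D i)) :
    ∃ K : Subgroup (GL ι F), decompositionStabilizer D ⊓ omegaGL ⇑Q < K ∧ K < omegaGL ⇑Q := by
  have hc2 := two_eq₄ hq
  obtain ⟨ω, hω⟩ := exists_omega hq
  have hort : ∀ i j, i ≠ j → ∀ x ∈ D i, ∀ y ∈ D j, polar Q x y = 0 := fun i j hij => hD.decomp.orthogonal i j hij
  have hB := fun i => blk_q4 hq hω (hD.decomp.decomp.finrank_eq i) (hD.decomp.nondegenerate i) (hp i)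
  let i₀ : Fin t := ⟨0, by omega⟩
  let i₁ : Fin t := ⟨1, by omega⟩
  let i₂ : Fin t := ⟨2, by omega⟩
  have h01 : i₀ ≠ i₁ := by simp [i₀, i₁, Fin.ext_iff]
  have h02 : i₀ ≠ i₂ := by simp [i₀, i₂, Fin.ext_iff]
  have h12 : i₁ ≠ i₂ := by simp [i₁, i₂, Fin.ext_iff]
  obtain ⟨a₀, ha₀, b₀, hb₀, hQa₀, hQb₀, h0⟩ := hB i₀
  obtain ⟨a₁, ha₁, b₁, hb₁, hQa₁, hQb₁, h1⟩ := hB i₁
  obtain ⟨a₂, ha₂, b₂, hb₂, hQa₂, hQb₂, h22⟩ := hB i₂
  exact not_max_b hQ h11 hc2 hort h01 h02 h12 ha₀ hb₀ ha₁ hb₁ ha₂ hb₂ hQa₀ hQa₁ hQa₂ hQb₀ hQb₂ h0 h1 h22 hω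
    (fun i => T_block hq (hD.decomp.decomp.finrank_eq i) (hD.decomp.nondegenerate i) (hp i))

theorem not_max_k4 (hq : Fintype.card F = 2) (hQ : Nondeg Q) (h11 : 10 ≤ Fintype.card ι)
    (hD : IsOrthogonalMDecomposition ⇑Q 4 D) (hp : ∀ i, IsPlusTypeOn ⇑Q (D i)) :
    ∃ K : Subgroup (GL ι F), decompositionStabilizer D ⊓ omegaGL ⇑Q < K ∧ K < omegaGL ⇑Q := by
  have hc2 := two_eq₂ hq
  have ht := hD.decomp.decomp.two_le
  have hort : ∀ i j, i ≠ j → ∀ x ∈ D i, ∀ y ∈ D j, polar Q x y = 0 := fun i j hij => hD.decomp.orthogonal i j hij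
  have hB := fun i => blk_k4 hq (hD.decomp.decomp.finrank_eq i) (hD.decomp.nondegenerate i) (hp i)
  let i₀ : Fin t := ⟨0, by omega⟩
  let i₁ : Fin t := ⟨1, by omega⟩
  have h01 : i₀ ≠ i₁ := by simp [i₀, i₁, Fin.ext_iff]
  obtain ⟨a₀, ha₀, b₀, hb₀, d, hd, hQa₀, hQb₀, h0, hd0, hda, hdb, hk₀⟩ := hB i₀
  obtain ⟨a₁, ha₁, b₁, hb₁, -, -, hQa₁, hQb₁, h1, -, -, -, hk₁⟩ := hB i₁
  exact not_max_c hQ h11 hc2 hort hD.decomp.nondegenerate h01 ha₀ hb₀ ha₁ hb₁ hd hd0 hQa₀ hQa₁ hQb₀ hQb₁ h0 h1 hda hdb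
    hk₀ hk₁

end Cfsg.Agent.H97.OF2
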