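import Mathlib
import Cfsg.Prelude.Def_GeometricClasses
import Cfsg.Agent.Lib.OmCalc
import Cfsg.Agent.Lib.H97L0
import Cfsg.Agent.Lib.TvGL
import Cfsg.Agent.Lib.OrthLagr
import Cfsg.Agent.Lib.OrthMatrix

/-!
# Maximal totally singular subspaces and `Ω`

Elements of `Ω` preserve the two families of maximal totally singular subspaces. Consequences: the stabiliser in `Ω` of a
pair of complementary subspaces with `n/2` odd, and the stabiliser of a totally singular subspace of dimension `n/2 - 1`, are not maximal.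
-/

set_option autoImplicit false
set_option linter.unusedSectionVars false
set_option linter.unusedVariables false
set_option linter.unusedSimpArgs false

namespace Cfsg.Agent.H97.OF3

open Matrix QuadraticMap Cfsg Cfsg.Geo Module Cfsg.Agent.Lib.OrthoBasic Cfsg.Agent.Lib.OmCalc
  Cfsg.Agent.Lib.QuadFF Cfsg.Agent.Lib.OmGeo Cfsg.Agent.Lib.TvGL
open Cfsg.Agent.Lib.SympT (GL_ext mulVec_mul_GL mulVec_inv_GL inv_mulVec_GL)
open Cfsg.Agent.Lib.OrthLagr (IsLag parity_lag TS mem_orth finrank_orth orth)
open Cfsg.Agent.Lib.OrthOmega (prodR prodO exists_list_of_mem_commutator)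
open Cfsg.Agent.Lib.OrthGroup (B O G O_le_G)
open Cfsg.Agent.Lib.OrthMatrix (toO toO_apply mem_Omega_iff)

local notation:70 g:71 " ⋆ " x:70 => Matrix.mulVec (Units.val g) x

variable {ι : Type} [Fintype ι] [DecidableEq ι] {F : Type*} [Field F] [Fintype F]
  {Q : QuadraticForm F (ι → F)}

theorem hnd_of (hQ : Nondeg Q) : (B Q).Nondegenerate := nondegenerate_of_ND (nd_of hQ)

/-- Elements of `Ω` preserve the parity of `dim U - dim (U ∩ gU)`. -/
theorem omega_parity (hQ : Nondeg Q) (h4 : Fintype.card ι ≠ 4) {m : ℕ} (hV : Fintype.card ι = 2 * m)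
    {U : Submodule F (ι → F)} (hU : IsLag Q m U) {g : GL ι F} (hg : g ∈ omegaGL ⇑Q) :
    Even (m - finrank F ↥(U ⊓ U.map (Matrix.toLin' (g : Matrix ι ι F)))) := by
  classical
  have hnd := hnd_of hQ
  have hfr : finrank F (ι → F) = Fintype.card ι := Module.finrank_fintype_fun_eq_card F
  obtain ⟨g', hg', rfl⟩ := hg
  have h1 := (mem_Omega_iff Q g').1 hg'
  obtain ⟨L, hL, hgL, he, -⟩ := exists_list_of_mem_commutator (O_le_G hnd (Or.inr (by rw [hfr]; exact h4))) h1
  have h2 := parity_lag hnd (by rw [hfr, hV]) hU hU L hL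
  have hmap : U.map ((prodR Q L : (ι → F) ≃ₗ[F] (ι → F)) : (ι → F) →ₗ[F] (ι → F)) =
      U.map (Matrix.toLin' (((g' : ↥(isometryGroup F ⇑Q)) : GL ι F) : Matrix ι ι F)) := by
    have h3 : (prodR Q L : (ι → F) ≃ₗ[F] (ι → F)) = (toO Q g' : (ι → F) ≃ₗ[F] (ι → F)) := by
      rw [hgL]
      rfl
    ext x
    simp only [Submodule.mem_map, h3]
    constructor
    · rintro ⟨y, hy, rfl⟩
      exact ⟨y, hy, rfl⟩
    · rintro ⟨y, hy, rfl⟩
      exact ⟨y, hy, rfl⟩
  rw [hmap, inf_idem, hU.dim] at h2
  simp only [Nat.sub_self, add_zero] at h2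
  have h3 := Nat.even_add.1 h2
  exact h3.2 he

/-- Some element of `Ω` does not stabilise a totally singular subspace of half the dimension. -/
theorem exists_not_stab (hQ : Nondeg Q) (h11 : 7 ≤ Fintype.card ι) {U : Submodule F (ι → F)} {m : ℕ}
    (hdim : finrank F U = m) (hV : Fintype.card ι = 2 * m) (hUts : ∀ u ∈ U, Q u = 0) :
    ∃ g ∈ omegaGL ⇑Q, g ∉ subspaceStabilizer U := by
  classical
  have hND := nd_of hQ
  have hfr : finrank F (ι → F) = Fintype.card ι := Module.finrank_fintype_fun_eq_card F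
  obtain ⟨⟨u, huU⟩, hu0⟩ : ∃ u : U, u ≠ 0 := by
    have : 0 < finrank F U := by omega
    exact Module.finrank_pos_iff_exists_ne_zero.1 this
  have hu0' : u ≠ 0 := fun h => hu0 (Subtype.ext h)
  obtain ⟨y₁, hy₁⟩ := hQ u hu0'
  obtain ⟨e, heC, hQe⟩ := prescribed hND ({u} : Finset (ι → F)) ((polar Q u y₁)⁻¹ • y₁) 0 (by
    rw [Finset.card_singleton]
    omega)
  have hue : polar Q u e = 1 := by
    rw [heC u (by simp), polar_sm_r]
    exact inv_mul_cancel₀ hy₁
  have hlt : U ⊔ Submodule.span F {e} < ⊤ := by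
    rw [lt_top_iff_ne_top]
    intro htop
    have h1 := Submodule.finrank_add_le_finrank_add_finrank U (Submodule.span F {e})
    rw [htop, finrank_top, hfr, hdim] at h1
    have h2 := finrank_span_le_card (R := F) ({e} : Set (ι → F))
    simp only [Set.toFinset_card, Set.card_singleton] at h2
    omega
  obtain ⟨y₀, -, hy₀⟩ := SetLike.exists_of_lt hlt
  set y := y₀ + (-(polar Q y₀ e)) • u with hy
  have hey : polar Q e y = 0 := by
    rw [hy, polar_add_right, polar_sm_r, polar_comm Q e y₀, polar_comm Q e u, hue]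
    ring
  refine ⟨sE hQ hQe hey, Cfsg.Agent.H97.Asch.sE_mem7 hQ h11 hQe hey, fun hg => ?_⟩
  rw [mem_stab_iff] at hg
  have h1 := (hg u).1 huU
  rw [sE_apply', hue, one_smul] at h1
  apply hy₀
  set μ := polar Q u y + Q y * 1 with hμ
  have h2 : y₀ = (u + y - μ • e + (-1 : F) • u + (polar Q y₀ e) • u) + μ • e := by
    rw [hy]
    ext i
    simp only [Pi.add_apply, Pi.sub_apply, Pi.smul_apply, smul_eq_mul]
    ring
  rw [h2]
  refine Submodule.add_mem _ ?_ (Submodule.mem_sup_right (Submodule.smul_mem _ _ (Submodule.mem_span_singleton_self e)))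
  refine Submodule.mem_sup_left ?_
  exact U.add_mem (U.add_mem h1 (U.smul_mem _ huU)) (U.smul_mem _ huU)

section pair

variable {k : ℕ} {D : Fin 2 → Submodule F (ι → F)}

theorem not_max_pair (hQ : Nondeg Q) (h11 : 7 ≤ Fintype.card ι) (hV : Fintype.card ι = 2 * k) (hk : Odd k)
    (hD : IsMDecomposition k D) (hts : ∀ i, ∀ x ∈ D i, Q x = 0) :
    ∃ K : Subgroup (GL ι F), decompositionStabilizer D ⊓ omegaGL ⇑Q < K ∧ K < omegaGL ⇑Q := by
  classical
  have hdisj : D 0 ⊓ D 1 = ⊥ := (hD.indep.pairwiseDisjoint (by simp)).eq_bot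
  have hinter : ∀ x, x ∈ D 0 → x ∈ D 1 → x = 0 := by
    intro x h0 h1
    have : x ∈ D 0 ⊓ D 1 := ⟨h0, h1⟩
    rw [hdisj] at this
    simpa using this
  have hlag : IsLag Q k (D 0) := ⟨hts 0, hD.finrank_eq 0⟩
  have hsup : D 0 ⊔ D 1 = ⊤ := by
    rw [eq_top_iff, ← hD.iSup_eq_top]
    refine iSup_le fun i => ?_
    fin_cases i
    · exact le_sup_left
    · exact le_sup_right
  obtain ⟨g₂, hg₂, hg₂'⟩ := exists_not_stab hQ h11 (hD.finrank_eq 0) hV (hts 0)
  refine ⟨subspaceStabilizer (D 0) ⊓ omegaGL ⇑Q, ?_, ?_⟩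
  · rw [SetLike.lt_iff_le_and_exists]
    refine ⟨?_, ?_⟩
    · rintro g ⟨⟨σ, hσ⟩, hg⟩
      refine ⟨?_, hg⟩
      have h0 : σ 0 = 0 := by
        by_contra h
        have h1 : σ 0 = 1 := by
          have h3 : ∀ s : Fin 2, s ≠ 0 → s = 1 := by decide
          exact h3 _ h
        have h2 := omega_parity hQ (by omega) hV hlag hg
        rw [hσ 0, h1, hdisj, finrank_bot, Nat.sub_zero] at h2
        exact (Nat.not_even_iff_odd.2 hk) h2
      apply mem_stab_of_map_le
      intro w hw
      have h1 := hσ 0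
      rw [h0] at h1
      rw [← h1]
      exact ⟨w, hw, rfl⟩
    · -- independent vectors in `D 0`
      have hkpos := hD.pos
      have hk2 : 2 ≤ k := by
        obtain ⟨r, hr⟩ := hk
        omega
      obtain ⟨⟨e, heU⟩, he0⟩ : ∃ e : D 0, e ≠ 0 := by
        have : 0 < finrank F (D 0) := by
          rw [hD.finrank_eq]
          omega
        exact Module.finrank_pos_iff_exists_ne_zero.1 this
      have he0' : e ≠ 0 := fun h => he0 (Subtype.ext h)
      have hlt : Submodule.span F {e} < D 0 := by
        refine lt_of_le_of_ne ((Submodule.span_singleton_le_iff_mem _ _).2 heU) ?_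
        intro h
        have h1 := hD.finrank_eq 0
        rw [← h, finrank_span_singleton he0'] at h1
        omega
      obtain ⟨y, hyU, hy⟩ := SetLike.exists_of_lt hlt
      have hQe := hts 0 e heU
      have hQy := hts 0 y hyU
      have hpol : ∀ a ∈ D 0, ∀ b ∈ D 0, polar Q a b = 0 := by
        intro a ha b hb
        rw [polar, hts 0 _ ((D 0).add_mem ha hb), hts 0 _ ha, hts 0 _ hb]
        ring
      have hey := hpol e heU y hyU
      refine ⟨sE hQ hQe hey, ⟨?_, Cfsg.Agent.H97.Asch.sE_mem7 hQ h11 hQe hey⟩, ?_⟩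
      · apply mem_stab_of_map_le
        intro w hw
        rw [sE_apply', hpol w hw e heU, hpol w hw y hyU]
        simpa using hw
      · rintro ⟨⟨σ, hσ⟩, -⟩
        obtain ⟨v, hv⟩ := hQ e he0'
        have hvm : v ∈ D 0 ⊔ D 1 := by
          rw [hsup]
          exact Submodule.mem_top
        obtain ⟨v₀, hv₀, x, hx, rfl⟩ := Submodule.mem_sup.1 hvm
        have hex : polar Q e x ≠ 0 := by
          rw [polar_add_right, hpol e heU v₀ hv₀, zero_add] at hv
          exact hv
        have hxe : polar Q x e ≠ 0 := by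
          rw [polar_comm]
          exact hex
        have h1 : sE hQ hQe hey ⋆ x ∈ D (σ 1) := by
          rw [← hσ 1]
          exact ⟨x, hx, rfl⟩
        rw [sE_apply', hQy, zero_mul, add_zero] at h1
        have hw : polar Q x e • y - polar Q x y • e ∈ D 0 :=
          (D 0).sub_mem ((D 0).smul_mem _ hyU) ((D 0).smul_mem _ heU)
        have hσ1 : σ 1 = 0 ∨ σ 1 = 1 := by
          generalize σ 1 = s
          fin_cases s
          · exact Or.inl rfl
          · exact Or.inr rfl
        rcases hσ1 with h2 | h2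
        · rw [h2] at h1
          have h3 : x ∈ D 0 := by
            have := (D 0).sub_mem h1 hw
            have h4 : x + polar Q x e • y - polar Q x y • e - (polar Q x e • y - polar Q x y • e) = x := by
              abel
            rwa [h4] at this
          have h5 := hinter x h3 hx
          rw [h5] at hxe
          apply hxe
          simp [polar]
        · rw [h2] at h1
          have h3 : polar Q x e • y - polar Q x y • e ∈ D 1 := by
            have := (D 1).sub_mem h1 hx
            have h4 : x + polar Q x e • y - polar Q x y • e - x = polar Q x e • y - polar Q x y • e := by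
              abel
            rwa [h4] at this
          have h5 := hinter _ hw h3
          apply hy
          have h6 : y = ((polar Q x e)⁻¹ * polar Q x y) • e := by
            have h7 : polar Q x e • y = polar Q x y • e := sub_eq_zero.1 h5
            rw [mul_smul, ← h7, smul_smul, inv_mul_cancel₀ hxe, one_smul]
          rw [h6]
          exact Submodule.smul_mem _ _ (Submodule.mem_span_singleton_self e)
  · rw [SetLike.lt_iff_le_and_exists]
    exact ⟨inf_le_right, g₂, hg₂, fun h => hg₂' h.1⟩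

end pair

section hyperline

variable {W : Submodule F (ι → F)} {m : ℕ}

/-- The stabiliser of a totally singular subspace of dimension `n/2 - 1`. -/
theorem not_max_hyperline (hQ : Nondeg Q) (h11 : 7 ≤ Fintype.card ι) (hV : Fintype.card ι = 2 * m)
    (hplus : IsPlusTypeOn ⇑Q ⊤) (hW : ∀ w ∈ W, Q w = 0) (hdim : finrank F W + 1 = m) :
    ∃ K : Subgroup (GL ι F), subspaceStabilizer W ⊓ omegaGL ⇑Q < K ∧ K < omegaGL ⇑Q := by
  classical
  have hnd := hnd_of hQ
  have hND := nd_of hQ
  have hfr : finrank F (ι → F) = Fintype.card ι := Module.finrank_fintype_fun_eq_card F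
  have hV' : finrank F (ι → F) = 2 * m := by rw [hfr, hV]
  have hpolW : ∀ a ∈ W, ∀ b ∈ W, polar Q a b = 0 := by
    intro a ha b hb
    rw [polar, hW _ (W.add_mem ha hb), hW _ ha, hW _ hb]
    ring
  -- a Lagrangian
  obtain ⟨L, -, hLts, hLd⟩ := hplus
  have hLd' : finrank F L = m := by
    rw [finrank_top, hfr] at hLd
    omega
  have hLlag : IsLag Q m L := ⟨hLts, hLd'⟩
  have hLorth := hLlag.orth_eq hnd hV'
  -- the singular vector in `W^⊥` outside `W`
  obtain ⟨v, hvL, hvW', hvW⟩ : ∃ v, v ∈ L ∧ v ∈ orth Q W ∧ v ∉ W := by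
    have h1 : orth Q (L ⊔ W) = L ⊓ orth Q W := by
      ext x
      constructor
      · intro h
        refine ⟨?_, mem_orth.2 fun u hu => mem_orth.1 h u (Submodule.mem_sup_right hu)⟩
        rw [← hLorth]
        exact mem_orth.2 fun u hu => mem_orth.1 h u (Submodule.mem_sup_left hu)
      · rintro ⟨h3, h4⟩
        refine mem_orth.2 fun u hu => ?_
        obtain ⟨a, ha, b, hb, rfl⟩ := Submodule.mem_sup.1 hu
        rw [map_add, LinearMap.add_apply, mem_orth.1 h4 b hb]
        have h5 : x ∈ orth Q L := by rwa [hLorth]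
        rw [mem_orth.1 h5 a ha, add_zero]
    have h2 := finrank_orth hnd (L ⊔ W)
    have h3 := Submodule.finrank_sup_add_finrank_inf_eq L W
    have h4 : finrank F ↥(L ⊔ W) ≤ finrank F (ι → F) := Submodule.finrank_le _
    by_contra hno
    push Not at hno
    have hle : L ⊓ orth Q W ≤ L ⊓ W := fun x hx => ⟨hx.1, hno x hx.1 hx.2⟩
    have h5 := Submodule.finrank_mono hle
    rw [← h1, h2, hfr, hV] at h5
    rw [hfr, hV] at h4
    omega
  have hQv := hLts v hvL
  have hpvv : polar Q v v = 0 := polar_self_of_singular hQv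
  have hvWp : ∀ w ∈ W, polar Q w v = 0 := fun w hw => mem_orth.1 hvW' w hw
  have hvWp' : ∀ w ∈ W, polar Q v w = 0 := by
    intro w hw
    rw [polar_comm]
    exact hvWp w hw
  have hv0 : v ≠ 0 := by
    rintro rfl
    exact hvW W.zero_mem
  -- `U₁ = W + ⟨v⟩`
  set U₁ := W ⊔ Submodule.span F {v} with hU₁
  have hmemU : ∀ {x}, x ∈ U₁ ↔ ∃ w ∈ W, ∃ a : F, x = w + a • v := by
    intro x
    rw [hU₁, Submodule.mem_sup]
    constructor
    · rintro ⟨w, hw, z, hz, rfl⟩
      obtain ⟨a, rfl⟩ := Submodule.mem_span_singleton.1 hz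
      exact ⟨w, hw, a, rfl⟩
    · rintro ⟨w, hw, a, rfl⟩
      exact ⟨w, hw, a • v, Submodule.smul_mem _ _ (Submodule.mem_span_singleton_self v), rfl⟩
  have hU₁ts : ∀ u ∈ U₁, Q u = 0 := by
    intro u hu
    obtain ⟨w, hw, a, rfl⟩ := hmemU.1 hu
    rw [Q_ad, Q_sm, hW w hw, hQv, polar_sm_r, hvWp w hw]
    ring
  have hU₁d : finrank F U₁ = m := by
    have h1 := Submodule.finrank_sup_add_finrank_inf_eq W (Submodule.span F {v})
    have h2 : W ⊓ Submodule.span F {v} = ⊥ := by
      rw [eq_bot_iff]
      rintro x ⟨hx, hx'⟩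
      obtain ⟨a, rfl⟩ := Submodule.mem_span_singleton.1 hx'
      by_contra hne
      have ha : a ≠ 0 := by
        rintro rfl
        simp at hne
      apply hvW
      have := W.smul_mem a⁻¹ hx
      rwa [smul_smul, inv_mul_cancel₀ ha, one_smul] at this
    rw [h2, finrank_bot, finrank_span_singleton hv0, add_zero] at h1
    rw [← hdim, ← h1]
  have hlag : IsLag Q m U₁ := ⟨hU₁ts, hU₁d⟩
  have hU₁orth := hlag.orth_eq hnd hV'
  have hWU₁ : W ≤ U₁ := le_sup_left
  have hvU₁ : v ∈ U₁ := Submodule.mem_sup_right (Submodule.mem_span_singleton_self v)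
  -- the partner `f`
  obtain ⟨f, hfW, hQf, hvf⟩ : ∃ f ∈ orth Q W, Q f = 0 ∧ polar Q v f = 1 := by
    have hlt : U₁ < orth Q W := by
      refine lt_of_le_of_ne ?_ ?_
      · intro u hu
        obtain ⟨w, hw, a, rfl⟩ := hmemU.1 hu
        refine mem_orth.2 fun w' hw' => ?_
        show polar Q w' (w + a • v) = 0
        rw [polar_add_right, polar_sm_r, hpolW w' hw' w hw, hvWp w' hw']
        ring
      · intro h
        have h1 := finrank_orth hnd W
        rw [← h, hU₁d, hfr, hV] at h1
        omega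
    obtain ⟨x, hx, hxU⟩ := SetLike.exists_of_lt hlt
    have hxv : polar Q v x ≠ 0 := by
      intro h0
      apply hxU
      rw [← hU₁orth]
      refine mem_orth.2 fun u hu => ?_
      obtain ⟨w, hw, a, rfl⟩ := hmemU.1 hu
      show polar Q (w + a • v) x = 0
      have h3 : polar Q w x = 0 := mem_orth.1 hx w hw
      rw [polar_add_left, polar_sm_l, h0, h3]
      ring
    obtain ⟨x', hvx', hx'W⟩ : ∃ x', polar Q v x' = 1 ∧ x' ∈ orth Q W := by
      refine ⟨(polar Q v x)⁻¹ • x, ?_, (orth Q W).smul_mem _ hx⟩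
      rw [polar_sm_r]
      exact inv_mul_cancel₀ hxv
    refine ⟨x' + (-(Q x')) • v, (orth Q W).add_mem hx'W ((orth Q W).smul_mem _ hvW'), ?_, ?_⟩
    · rw [Q_ad, Q_sm, hQv, polar_sm_r, polar_comm Q x' v, hvx']
      ring
    · rw [polar_add_right, polar_sm_r, hvx', hpvv]
      ring
  have hfv : polar Q f v = 1 := by
    rw [polar_comm]
    exact hvf
  have hpff : polar Q f f = 0 := polar_self_of_singular hQf
  have hfWp : ∀ w ∈ W, polar Q w f = 0 := fun w hw => mem_orth.1 hfW w hw
  have hfWp' : ∀ w ∈ W, polar Q f w = 0 := by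
    intro w hw
    rw [polar_comm]
    exact hfWp w hw
  -- coordinates on `W^⊥`
  have hco : ∀ x ∈ orth Q W, ∃ w ∈ W, ∃ α β : F, x = w + α • v + β • f := by
    intro x hx
    set α := polar Q x f with hα
    set β := polar Q x v with hβ
    set x' := x + (-α) • v + (-β) • f with hx'
    have h1 : polar Q x' v = 0 := by
      rw [hx', polar_add_left, polar_add_left, polar_sm_l, polar_sm_l, hpvv, hfv, ← hβ]
      ring
    have h2 : polar Q x' f = 0 := by
      rw [hx', polar_add_left, polar_add_left, polar_sm_l, polar_sm_l, hvf, hpff, ← hα]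
      ring
    have h3 : ∀ w ∈ W, polar Q w x' = 0 := by
      intro w hw
      have h5 : polar Q w x = 0 := mem_orth.1 hx w hw
      rw [hx', polar_add_right, polar_add_right, polar_sm_r, polar_sm_r, hvWp w hw, hfWp w hw, h5]
      ring
    have h4 : x' ∈ U₁ := by
      rw [← hU₁orth]
      refine mem_orth.2 fun u hu => ?_
      obtain ⟨w, hw, a, rfl⟩ := hmemU.1 hu
      show polar Q (w + a • v) x' = 0
      rw [polar_add_left, polar_sm_l, h3 w hw, polar_comm Q v x', h1]
      ring
    obtain ⟨w, hw, a, ha⟩ := hmemU.1 h4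
    have h5 : a = 0 := by
      have := congrArg (fun z => polar Q z f) ha
      simp only [h2, polar_add_left, polar_sm_l, hvf, hfWp w hw] at this
      linear_combination -this
    refine ⟨w, hw, α, β, ?_⟩
    rw [h5, zero_smul, add_zero] at ha
    rw [← ha, hx']
    ext i
    simp only [Pi.add_apply, Pi.smul_apply, smul_eq_mul]
    ring
  obtain ⟨g₂, hg₂, hg₂'⟩ := exists_not_stab hQ h11 hU₁d hV hU₁ts
  refine ⟨subspaceStabilizer U₁ ⊓ omegaGL ⇑Q, ?_, ?_⟩
  · rw [SetLike.lt_iff_le_and_exists]
    refine ⟨?_, ?_⟩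
    · rintro g ⟨hgW', hg⟩
      have hgW : g ∈ subspaceStabilizer W := hgW'
      refine ⟨?_, hg⟩
      show g ∈ subspaceStabilizer U₁
      rw [mem_stab_iff] at hgW
      have hiso : ∀ u, Q (g ⋆ u) = Q u := fun u => iso_omega hg u
      have hpol' : ∀ a b, polar Q (g ⋆ a) (g ⋆ b) = polar Q a b := polar_iso hiso
      have hgvW : g ⋆ v ∈ orth Q W := by
        refine mem_orth.2 fun w hw => ?_
        show polar Q w (g ⋆ v) = 0
        have h1 : g⁻¹ ⋆ w ∈ W := by
          apply (hgW _).2
          rw [mulVec_inv_GL]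
          exact hw
        have h2 := hpol' (g⁻¹ ⋆ w) v
        rw [mulVec_inv_GL, hvWp _ h1] at h2
        exact h2
      have hgvs : Q (g ⋆ v) = 0 := by rw [hiso, hQv]
      have hgvn : g ⋆ v ∉ W := fun h => hvW ((hgW v).2 h)
      obtain ⟨w₁, hw₁, α, β, hgv⟩ := hco _ hgvW
      have hαβ : α * β = 0 := by
        rw [hgv, Q_ad, Q_ad, Q_sm, Q_sm, hW w₁ hw₁, hQv, hQf, polar_add_left, polar_sm_l, polar_sm_r, polar_sm_r,
          polar_sm_r, hvWp w₁ hw₁, hfWp w₁ hw₁, hvf] at hgvs
        linear_combination hgvs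
      by_cases hβ : β = 0
      · -- `g` stabilises `U₁`
        apply mem_stab_of_map_le
        intro u hu
        obtain ⟨w, hw, a, rfl⟩ := hmemU.1 hu
        rw [Matrix.mulVec_add, Matrix.mulVec_smul]
        change g ⋆ w + a • (g ⋆ v) ∈ U₁
        rw [hgv, hβ, zero_smul, add_zero]
        refine U₁.add_mem (hWU₁ ((hgW w).1 hw)) (U₁.smul_mem _ (U₁.add_mem (hWU₁ hw₁) (U₁.smul_mem _ hvU₁)))
      · -- `g` would move `U₁` to the other family
        exfalso
        have hα : α = 0 := (mul_eq_zero.1 hαβ).resolve_right hβ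
        have hpar := omega_parity hQ (by omega) hV hlag hg
        have heq : U₁ ⊓ U₁.map (Matrix.toLin' (g : Matrix ι ι F)) = W := by
          apply le_antisymm
          · rintro x ⟨hx, ⟨u, hu, rfl⟩⟩
            obtain ⟨w, hw, a, rfl⟩ := hmemU.1 hu
            change g ⋆ (w + a • v) ∈ U₁ at hx
            change g ⋆ (w + a • v) ∈ W
            have h1 : polar Q (g ⋆ (w + a • v)) v = 0 := by
              rw [polar, hU₁ts _ (U₁.add_mem hx hvU₁), hU₁ts _ hx, hQv]
              ring
            have hgw : g ⋆ w ∈ W := (hgW w).1 hw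
            have hexp : g ⋆ (w + a • v) = g ⋆ w + a • (w₁ + α • v + β • f) := by
              rw [Matrix.mulVec_add, Matrix.mulVec_smul, hgv]
            rw [hexp, polar_add_left, polar_sm_l, polar_add_left, polar_add_left, polar_sm_l, polar_sm_l, hα, hfv,
              hvWp _ hgw, hvWp _ hw₁] at h1
            have ha : a = 0 := by
              have h5 : a * β = 0 := by linear_combination h1
              exact (mul_eq_zero.1 h5).resolve_right hβ
            rw [hexp, ha, zero_smul, add_zero]
            exact hgw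
          · intro x hx
            refine ⟨hWU₁ hx, g⁻¹ ⋆ x, hWU₁ ?_, ?_⟩
            · apply (hgW _).2
              rw [mulVec_inv_GL]
              exact hx
            · show g ⋆ (g⁻¹ ⋆ x) = x
              rw [mulVec_inv_GL]
        rw [heq, ← hdim] at hpar
        have : finrank F W + 1 - finrank F W = 1 := by omega
        rw [this] at hpar
        exact Nat.not_even_one hpar
    · obtain ⟨⟨x₀, hx₀W⟩, hx₀0⟩ : ∃ x₀ : W, x₀ ≠ 0 := by
        have : 0 < finrank F W := by omega
        exact Module.finrank_pos_iff_exists_ne_zero.1 this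
      have hx₀0' : x₀ ≠ 0 := fun h => hx₀0 (Subtype.ext h)
      obtain ⟨y, hvy, hx₀y⟩ : ∃ y, polar Q v y = 0 ∧ polar Q x₀ y ≠ 0 := by
        by_contra hno
        push Not at hno
        obtain ⟨y₁, hy₁⟩ := hQ v hv0
        obtain ⟨y₂, hy₂⟩ : ∃ y₂, polar Q v y₂ = 1 :=
          ⟨(polar Q v y₁)⁻¹ • y₁, by rw [polar_sm_r]; exact inv_mul_cancel₀ hy₁⟩
        have h1 : ∀ z, polar Q x₀ z = polar Q v z * polar Q x₀ y₂ := by
          intro z
          have h3 := hno (z + (-(polar Q v z)) • y₂) (by
            rw [polar_add_right, polar_sm_r, hy₂]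
            ring)
          rw [polar_add_right, polar_sm_r] at h3
          linear_combination h3
        have h2 : x₀ + (-(polar Q x₀ y₂)) • v = 0 := by
          by_contra hne
          obtain ⟨z, hz⟩ := hQ _ hne
          apply hz
          rw [polar_add_left, polar_sm_l, h1]
          ring
        have hne : polar Q x₀ y₂ ≠ 0 := by
          intro h0
          rw [h0] at h2
          simp only [neg_zero, zero_smul, add_zero] at h2
          exact hx₀0' h2
        apply hvW
        generalize polar Q x₀ y₂ = c at h2 hne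
        have h3 : v = c⁻¹ • x₀ := by
          have h4 : x₀ = c • v := by
            have := eq_neg_of_add_eq_zero_left h2
            rw [this, neg_smul, neg_neg]
          rw [h4, smul_smul, inv_mul_cancel₀ hne, one_smul]
        rw [h3]
        exact W.smul_mem _ hx₀W
      refine ⟨sE hQ hQv hvy, ⟨?_, Cfsg.Agent.H97.Asch.sE_mem7 hQ h11 hQv hvy⟩, ?_⟩
      · show sE hQ hQv hvy ∈ subspaceStabilizer U₁
        apply mem_stab_of_map_le
        intro u hu
        have h1 : polar Q u v = 0 := by
          rw [polar, hU₁ts _ (U₁.add_mem hu hvU₁), hU₁ts _ hu, hQv]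
          ring
        rw [sE_apply', h1]
        simp only [zero_smul, add_zero, mul_zero]
        exact U₁.sub_mem hu (U₁.smul_mem _ hvU₁)
      · intro hst'
        have hst : sE hQ hQv hvy ∈ subspaceStabilizer W := hst'.1
        rw [mem_stab_iff] at hst
        have h1 := (hst x₀).1 hx₀W
        rw [sE_apply', hvWp _ hx₀W] at h1
        simp only [zero_smul, add_zero, mul_zero] at h1
        have h2 : polar Q x₀ y • v ∈ W := by
          have := W.sub_mem hx₀W h1
          simpa using this
        apply hvW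
        have := W.smul_mem (polar Q x₀ y)⁻¹ h2
        rwa [smul_smul, inv_mul_cancel₀ hx₀y, one_smul] at this
  · rw [SetLike.lt_iff_le_and_exists]
    exact ⟨inf_le_right, g₂, hg₂, fun h => hg₂' h.1⟩

end hyperline

end Cfsg.Agent.H97.OF3
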