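import Cfsg.Agent.Lib.H97M7
import Cfsg.Agent.Lib.H97OF2
import Cfsg.Agent.Lib.H97OF3

/-!
Pairs of non-degenerate five-spaces.
-/

set_option autoImplicit false
set_option linter.unusedSectionVars false
set_option linter.unusedSimpArgs false
set_option linter.unusedVariables false
set_option linter.style.haveILetI false

namespace Cfsg.Agent.H97.Asch

open Matrix Cfsg Cfsg.Geo

variable {ι : Type} [Fintype ι] [DecidableEq ι] {F : Type*} [Field F] [Fintype F] {Q : (ι → F) → F} {K : Subgroup (GL ι F)} {H : Subgroup (GL ι F)}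

theorem ECtx.five_block (C : ECtx Q K) (hHK : H ≤ K) {W : Submodule F (ι → F)} (hdim : Module.finrank F W = 5)
    (hcard : Fintype.card ι = 10) (hnd : IsNondegenerateOn (QuadraticMap.polar Q) W) (hle : H ≤ subspaceStabilizer W) :
    ∃ D : Fin 2 → Submodule F (ι → F), IsNondegenerateMDecomposition (QuadraticMap.polar Q) 5 D ∧ H ≤ decompositionStabilizer D := by
  classical
  have hC := C.fctx
  have hd := hC.disj_of_nondeg hnd
  obtain ⟨hdims, hsup⟩ := hC.perp_dims hd
  have hnd' := hC.nondeg_perp_of_disj hd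
  have hdim' : Module.finrank F (hC.perp W) = 5 := by omega
  have hW : Stable H W := fun g hg w hw => ((mem_stab_iff W g).mp (hle hg) w).mp hw
  have hfix : FFix (QuadraticMap.polar Q) H := fun g hg u v => fixes_polar (C.fix g (hHK hg)) u v
  have hW' := hC.stable_perp hfix hW
  have horth : ∀ x ∈ W, ∀ y ∈ hC.perp W, QuadraticMap.polar Q x y = 0 := fun x hx y hy => (hC.mem_perp'.mp hy) x hx
  have horth' : ∀ x ∈ hC.perp W, ∀ y ∈ W, QuadraticMap.polar Q x y = 0 := fun x hx y hy => (hC.mem_perp.mp hx) y hy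
  refine ⟨![W, hC.perp W], ⟨two_mdecomp (by omega) hdim hdim' hd hsup, ?_, ?_⟩, ?_⟩
  · intro i
    fin_cases i
    · exact hnd
    · exact hnd'
  · intro i j hij
    fin_cases i <;> fin_cases j
    · exact absurd rfl hij
    · exact horth
    · exact horth'
    · exact absurd rfl hij
  · intro h hh
    have hg : ∀ {U : Submodule F (ι → F)}, Stable H U → U.map (Matrix.toLin' (h : Matrix ι ι F)) = U := by
      intro U hU
      apply map_eq_of_le rfl
      exact fun z hz => hU h hh z hz
    refine ⟨1, fun i => ?_⟩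
    fin_cases i
    · exact hg hW
    · exact hg hW'

theorem isOrth_of_two {D : Fin 2 → Submodule F (ι → F)} {k : ℕ} (hD : IsNondegenerateMDecomposition (QuadraticMap.polar Q) k D)
    (hiso : AreIsometricFor Q (D 0) (D 1)) : IsOrthogonalMDecomposition Q k D := by
  refine ⟨hD, fun i j => ?_⟩
  obtain ⟨e, he⟩ := hiso
  have he' : ∀ w : D 1, Q ((e.symm w : D 0) : ι → F) = Q (w : ι → F) := by
    intro w
    have := he (e.symm w)
    rw [LinearEquiv.apply_symm_apply] at this
    exact this.symm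
  fin_cases i <;> fin_cases j
  · exact ⟨LinearEquiv.refl F _, fun _ => rfl⟩
  · exact ⟨e, he⟩
  · exact ⟨e.symm, he'⟩
  · exact ⟨LinearEquiv.refl F _, fun _ => rfl⟩

theorem card_mod_four_of_square (hq : Odd (Fintype.card F)) (h : IsSquare (-1 : F)) : Fintype.card F % 4 = 1 := by
  have h1 := FiniteField.isSquare_neg_one_iff.mp h
  obtain ⟨c, hc⟩ := hq
  omega

theorem card_mod_four_of_nonsquare (h : ¬ IsSquare (-1 : F)) : Fintype.card F % 4 = 3 := by
  rw [FiniteField.isSquare_neg_one_iff] at h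
  omega

theorem ECtx.ndtop {Q' : QuadraticForm F (ι → F)} (C : ECtx ⇑Q' K) : Cfsg.Agent.Lib.QuadFF.ND (Cfsg.Agent.Lib.QuadFF.restr Q' ⊤) := by
  apply Ty.nd_restr
  intro w _ hw0
  obtain ⟨y, hy⟩ := C.nd hw0
  exact ⟨y, Submodule.mem_top, hy⟩

end Cfsg.Agent.H97.Asch
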