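import Cfsg.Agent.Lib.H97Sym4

/-!
The Aschbacher classification of subgroups of `GL_n(F)`, `n ≥ 3`, without form.
-/

set_option autoImplicit false
set_option linter.unusedSectionVars false
set_option linter.style.haveILetI false

namespace Cfsg.Agent.H97.Asch

open Matrix Cfsg Cfsg.Geo
open scoped MatrixGroups commutatorElement

variable {F : Type*} [Field F] [Fintype F]

/-- The classes of subgroups of `GL_n(F)`, `n ≥ 3`. -/
theorem linear_subgroup_main {n : ℕ} (hn : 3 ≤ n) (H : Subgroup (GL (Fin n) F)) :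
    (∃ M : Subgroup (GL (Fin n) F), InLinearClass n F M ∧ H ≤ M) ∨ InLinearResidualClass H := by
  classical
  have hne : Nonempty (Fin n) := ⟨⟨0, by omega⟩⟩
  have hcard : Fintype.card (Fin n) = n := Fintype.card_fin n
  have hn3' : 3 ≤ Fintype.card (Fin n) := by omega
  have cl_symp : ∀ f : (Fin n → F) → (Fin n → F) → F, IsSymplecticForm f → H ≤ similarityGroup f →
      ∃ M : Subgroup (GL (Fin n) F), InLinearClass n F M ∧ H ≤ M := by
    intro f hf hle
    have he : Even n := by
      have := IsSymplecticForm.even hf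
      rwa [hcard] at this
    have h4 : 4 ≤ n := by
      obtain ⟨k, hk⟩ := he
      omega
    exact ⟨_, Or.inr <| Or.inr <| Or.inr <| Or.inr <| Or.inr <| Or.inr <| Or.inr <| Or.inr <| Or.inr <| Or.inl ⟨f, hf, he, h4, rfl⟩, hle⟩
  have cl_uni : ∀ (σ : F ≃+* F) (f : (Fin n → F) → (Fin n → F) → F), IsUnitaryForm σ f → H ≤ similarityGroup f →
      ∃ M : Subgroup (GL (Fin n) F), InLinearClass n F M ∧ H ≤ M := by
    intro σ f hf hle
    exact ⟨_, Or.inr <| Or.inr <| Or.inr <| Or.inr <| Or.inr <| Or.inr <| Or.inr <| Or.inr <| Or.inr <| Or.inr <| Or.inl ⟨σ, f, hf, hn, rfl⟩, hle⟩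
  have cl_quad : ∀ Q : (Fin n → F) → F, IsNondegenerateQuadraticForm Q → Odd (Fintype.card F) → H ≤ quadSimilarityGroup Q →
      ∃ M : Subgroup (GL (Fin n) F), InLinearClass n F M ∧ H ≤ M := by
    intro Q hQ hodd hle
    exact ⟨_, Or.inr <| Or.inr <| Or.inr <| Or.inr <| Or.inr <| Or.inr <| Or.inr <| Or.inr <| Or.inr <| Or.inr <| Or.inr ⟨Q, hQ, hodd, hn, rfl⟩, hle⟩
  have cl_wreath : ∀ (m t : ℕ) (e : Fin n ≃ (Fin t → Fin m)) (P : GL (Fin n) F), 2 ≤ m → 2 ≤ t → H ≤ tensorWreathSubgroup m t e P →
      ∃ M : Subgroup (GL (Fin n) F), InLinearClass n F M ∧ H ≤ M := by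
    intro m t e P hm ht hle
    by_cases hm3 : 3 ≤ m
    · exact ⟨_, Or.inr <| Or.inr <| Or.inr <| Or.inr <| Or.inr <| Or.inr <| Or.inr <| Or.inr <| Or.inl ⟨m, t, e, P, hm3, ht, rfl⟩, hle⟩
    · have hm2 : m = 2 := by omega
      subst hm2
      rcases wreath2_form (by omega : t ≠ 0) e P with ⟨f, hf, hle'⟩ | ⟨Q, hQ, hodd, hle'⟩
      · exact cl_symp f hf (hle.trans hle')
      · exact cl_quad Q hQ hodd (hle.trans hle')
  have cl_sub : ∀ (F₁ : Subfield F) (q : ℕ) (P : GL (Fin n) F), q.Prime → Fintype.card F = Nat.card F₁ ^ q → H ≤ subfieldSubgroup F₁ P →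
      ∃ M : Subgroup (GL (Fin n) F), InLinearClass n F M ∧ H ≤ M := by
    intro F₁ q P hq hc hle
    exact ⟨_, Or.inr <| Or.inr <| Or.inr <| Or.inr <| Or.inr <| Or.inr <| Or.inl ⟨F₁, q, P, hq, hc, rfl⟩, hle⟩
  by_cases hirr : Irr H
  · rcases normalised_trivial hirr with ⟨t, m, D, hD, hle⟩ | ⟨r, K, hr, hK, hle⟩ | hgeo | hB
    · exact Or.inl ⟨_, Or.inr <| Or.inr <| Or.inr <| Or.inl ⟨t, m, D, hD, rfl⟩, hle⟩
    · exact Or.inl ⟨_, Or.inr <| Or.inr <| Or.inr <| Or.inr <| Or.inl ⟨r, K, hr, hK, rfl⟩, hle⟩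
    · rcases hgeo with ⟨n₁, n₂, e, P, h1, h2, hle⟩ | ⟨m, t, e, P, hm, ht, hle⟩
      · exact Or.inl ⟨_, Or.inr <| Or.inr <| Or.inr <| Or.inr <| Or.inr <| Or.inl ⟨n₁, n₂, e, P, h1, h2, rfl⟩, hle⟩
      · exact Or.inl (cl_wreath m t e P hm ht hle)
    · have hT : ∀ N, Nrm H N → N ≤ scalars (Fin n) F ∨ spanG N = ⊤ := by
        intro N hN
        rcases hB (spanG N) (normAlg_spanG hN) with h | h
        · exact Or.inl (le_scalars_of_spanG_bot h)
        · exact Or.inr h
      rcases tri2 (by omega) hirr hT with ⟨N, -, hNn, hspan, hcomm, hZN, hmin⟩ | ⟨m, t, e, P, hm, ht, hle⟩ | ⟨P, hP⟩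
      · obtain ⟨r, R, C, hR⟩ := exists_symCtx (by omega) hNn hspan hcomm hZN hmin
        rcases sym_branch hn3' C hR with ⟨F₁, q, P, hq, hc, hle⟩ | ⟨r', R', hd, hle⟩ | ⟨σ, f, hf, hle⟩ | ⟨f, hf, hle⟩ | ⟨Q, hQ, hodd, hle⟩
        · exact Or.inl (cl_sub F₁ q P hq hc hle)
        · exact Or.inl ⟨_, Or.inr <| Or.inr <| Or.inr <| Or.inr <| Or.inr <| Or.inr <| Or.inr <| Or.inl ⟨r', R', hd, rfl⟩, hle⟩
        · exact Or.inl (cl_uni σ f hf hle)
        · exact Or.inl (cl_symp f hf hle)
        · exact Or.inl (cl_quad Q hQ hodd hle)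
      · exact Or.inl (cl_wreath m t e P hm ht hle)
      · -- almost simple
        have habs := habs_of_matrixSet hP.absIrred
        by_cases hsub : ∃ F₀ : Subfield F, F₀ ≠ ⊤ ∧ RealisableOver F₀ (matrixSet P)
        · obtain ⟨F₀, hF₀, B, hB'⟩ := hsub
          obtain ⟨F₁, r, hr, hle, hc⟩ := exists_prime_index_subfield hF₀
          refine Or.inl (cl_sub F₁ r B⁻¹ hr (by rw [← Nat.card_eq_fintype_card]; exact hc) fun h hh => ?_)
          exact mem_subfieldSubgroup_of_normalize habs (fun s hs i j => hle (hB' _ ⟨s, hs, rfl⟩ i j)) (hP.normal h hh)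
        · push Not at hsub
          by_cases hQ : ∃ Q : (Fin n → F) → F, IsNondegenerateQuadraticForm Q ∧ FixesQuadForm (matrixSet P) Q
          · left
            obtain ⟨Q, hQ, hfix⟩ := hQ
            by_cases h2 : (2 : F) = 0
            · -- the polar form is symplectic
              have hS := sesq_of_bilinear hQ.polar_bilinear
              refine cl_symp (QuadraticMap.polar Q) ⟨hQ.polar_bilinear, fun v w => ?_, fun v => ?_, hQ.nondegenerate⟩ fun h hh => ?_
              · have hsym : QuadraticMap.polar Q v w = QuadraticMap.polar Q w v := by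
                  simp only [QuadraticMap.polar, add_comm v w]
                  ring
                rw [hsym]
                have h2' : ∀ x : F, x = - x := fun x => by
                  have : x + x = 0 := by
                    rw [← two_mul, h2, zero_mul]
                  exact eq_neg_of_add_eq_zero_left this
                exact h2' _
              · rw [polar_self hQ, h2, zero_mul]
              · exact normalize_mem_sim habs hS (fun v hv => (hQ.nondegenerate v hv).2)
                  (fun g hg u v => fixes_polar (fun v => hfix _ ⟨g, hg, rfl⟩ v) u v) (hP.normal h hh)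
            · have hodd : Odd (Fintype.card F) := by
                have hne : ringChar F ≠ 2 := by
                  intro h
                  apply h2
                  have : CharP F 2 := by
                    rw [← h]
                    exact ringChar.charP F
                  exact CharTwo.two_eq_zero
                exact Nat.odd_iff.mpr (FiniteField.odd_card_of_char_ne_two hne)
              refine cl_quad Q hQ hodd fun h hh => ?_
              exact normalize_mem_quadSim habs hQ h2 (fun g hg v => hfix _ ⟨g, hg, rfl⟩ v) (hP.normal h hh)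
          · by_cases hS : ∃ f : (Fin n → F) → (Fin n → F) → F, IsSymplecticForm f ∧ FixesForm (matrixSet P) f
            · left
              obtain ⟨f, hf, hfix⟩ := hS
              refine cl_symp f hf fun h hh => ?_
              exact normalize_mem_sim habs (sesq_of_bilinear hf.bilinear) (fun v hv => (hf.nondegenerate v hv).2)
                (fun g hg u v => hfix _ ⟨g, hg, rfl⟩ u v) (hP.normal h hh)
            · by_cases hU : ∃ (σ : F ≃+* F) (f : (Fin n → F) → (Fin n → F) → F), IsUnitaryForm σ f ∧ FixesForm (matrixSet P) f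
              · left
                obtain ⟨σ, f, hf, hfix⟩ := hU
                refine cl_uni σ f hf fun h hh => ?_
                exact normalize_mem_sim habs (sesq_of_unitary hf) (fun v hv => (hf.nondegenerate v hv).2)
                  (fun g hg u v => hfix _ ⟨g, hg, rfl⟩ u v) (hP.normal h hh)
              · right
                exact ⟨P, hP.toCore hsub, hQ, hS, hU⟩
  · left
    unfold Irr at hirr
    push Not at hirr
    obtain ⟨W, hW, h0, h1⟩ := hirr
    refine ⟨_, Or.inl ⟨W, h0, h1, rfl⟩, fun h hh v => ?_⟩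
    constructor
    · exact hW h hh v
    · intro hv
      have := hW h⁻¹ (H.inv_mem hh) _ hv
      simpa using this

end Cfsg.Agent.H97.Asch
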