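import Cfsg.Agent.Lib.H97Main

/-!
The special linear group is contained in no member of the geometric classes, in all dimensions; arithmetic of
decompositions and field subalgebras.
-/

set_option autoImplicit false
set_option linter.unusedSectionVars false
set_option linter.style.haveILetI false

namespace Cfsg.Agent.H97.Asch

open Matrix Cfsg Cfsg.Geo
open scoped MatrixGroups Kronecker

variable {ι : Type} [Fintype ι] [DecidableEq ι] {F : Type*} [Field F]

/-- decompositions of the whole space are not normalised by `SL`. -/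
theorem sl_not_le_decompM {t m : ℕ} {D : Fin t → Submodule F (ι → F)} (hD : IsMDecomposition m D) :
    ¬ specialLinear ι F ≤ decompositionStabilizer D := by
  classical
  intro hle
  have ht := hD.two_le
  let i0 : Fin t := ⟨0, by omega⟩
  let i1 : Fin t := ⟨1, by omega⟩
  have hne : i0 ≠ i1 := by simp [i0, i1, Fin.ext_iff]
  have hDne : ∀ i, D i ≠ ⊥ := by
    intro i h
    have := hD.finrank_eq i
    rw [h, finrank_bot] at this
    have := hD.pos
    omega
  obtain ⟨v, hv, hv0⟩ := (Submodule.ne_bot_iff _).mp (hDne i0)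
  obtain ⟨w, hw, hw0⟩ := (Submodule.ne_bot_iff _).mp (hDne i1)
  have hdisj : ∀ (i : Fin t) (x : ι → F), x ∈ D i → ∀ (y : ι → F), y ∈ ⨆ (j) (_ : j ≠ i), D j → x = y → x = 0 := by
    intro i x hx y hy hxy
    have h1 := (hD.indep i).le_bot ⟨hx, hxy ▸ hy⟩
    exact (Submodule.mem_bot F).mp h1
  have hle' : ∀ (i j : Fin t), j ≠ i → D j ≤ ⨆ (j) (_ : j ≠ i), D j := fun i j h => le_iSup₂_of_le j h le_rfl
  have hvw : v ∉ Submodule.span F {w} := by
    intro hm
    have h1 : v ∈ ⨆ (j) (_ : j ≠ i0), D j := hle' i0 i1 hne.symm ((Submodule.span_singleton_le_iff_mem _ _).mpr hw hm)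
    exact hv0 (hdisj i0 v hv v h1 rfl)
  obtain ⟨φ, hφ1, hφ0⟩ := exists_dual_of_notMem hvw
  have hφw : φ w = 0 := hφ0 w (Submodule.mem_span_singleton_self w)
  obtain ⟨σ, hσ⟩ := hle (tvG_mem hφw)
  have h1 := hσ i0
  have h2 : ((tvG hφw : GL ι F) : Matrix ι ι F) *ᵥ v ∈ D (σ i0) := by
    rw [← h1]
    exact ⟨v, hv, by simp [Matrix.toLin'_apply]⟩
  rw [tvG_mulVec, hφ1, one_smul] at h2
  by_cases hj : σ i0 = i0
  · rw [hj] at h2
    have h3 : w ∈ D i0 := by
      have := (D i0).sub_mem h2 hv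
      simpa using this
    have h4 : w ∈ ⨆ (j) (_ : j ≠ i1), D j := hle' i1 i0 hne h3
    exact hw0 (hdisj i1 w hw w h4 rfl)
  · have h3 : v ∈ ⨆ (j) (_ : j ≠ i0), D j := by
      have h4 := hle' i0 _ hj h2
      have h5 := hle' i0 i1 hne.symm hw
      have := Submodule.sub_mem _ h4 h5
      simpa using this
    exact hv0 (hdisj i0 v hv v h3 rfl)

/-- the dimension of a decomposed space -/
theorem card_of_mdecomp [Finite F] {t m : ℕ} {D : Fin t → Submodule F (ι → F)} (hD : IsMDecomposition m D) :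
    t * m = Fintype.card ι := by
  classical
  have : Fintype.card ι = Module.finrank F (ι → F) := (Module.finrank_fintype_fun_eq_card F).symm
  rw [this]
  have h := DirectSum.isInternal_submodule_of_iSupIndep_of_iSup_eq_top hD.indep hD.iSup_eq_top
  have e := (LinearEquiv.ofBijective (DirectSum.coeLinearMap D) h)
  rw [← e.finrank_eq, Module.finrank_directSum]
  simp [hD.finrank_eq]

/-- degrees of field subalgebras divide the dimension. -/
theorem dvd_of_fieldSubalgebra [Nonempty ι] {r : ℕ} {K : Subalgebra F (Matrix ι ι F)} (hK : IsFieldSubalgebra r K) :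
    r ∣ Fintype.card ι := by
  classical
  have hF : IsField K := by
    refine ⟨⟨0, 1, ?_⟩, fun a b => Subtype.ext (hK.comm a a.2 b b.2), fun {a} ha => ?_⟩
    · exact zero_ne_one
    · obtain ⟨y, hy, hay⟩ := hK.inv a a.2 fun h => ha (Subtype.ext h)
      exact ⟨⟨y, hy⟩, Subtype.ext hay⟩
  letI := algModule K
  have : IsScalarTower F K (ι → F) := ⟨fun c k v => by
    show ((c • k : K) : Matrix ι ι F) *ᵥ v = c • ((k : Matrix ι ι F) *ᵥ v)
    simp [Matrix.smul_mulVec]⟩
  haveI hfree : Module.Free K (ι → F) := by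
    letI := hF.toField
    exact @Module.Free.of_divisionRing K (ι → F) _ _ (algModule K)
  have hsrc : StrongRankCondition K := by
    letI := hF.toField
    infer_instance
  have := @Module.finrank_mul_finrank F K (ι → F) _ (Subalgebra.toSemiring K) _ _ (algModule K) _ this _ hsrc _ hfree
  rw [hK.finrank_eq, Module.finrank_fintype_fun_eq_card] at this
  exact ⟨_, this.symm⟩

/-- the transvection in the coordinates of a reindexed conjugate. -/
theorem exists_transvection_in_map {κ : Type} [Fintype κ] [DecidableEq κ] (e : ι ≃ κ) (P : GL ι F) {X : Subgroup (GL κ F)}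
    (hle : specialLinear ι F ≤ (X.map (glReindex e.symm).toMonoidHom).map (MulAut.conj P).toMonoidHom) {x₀ y₀ : κ} (hxy : x₀ ≠ y₀) :
    ∃ k ∈ X, (k : Matrix κ κ F) = Matrix.transvection x₀ y₀ 1 := by
  classical
  have hdet : (Matrix.transvection x₀ y₀ (1 : F)).det = 1 := Matrix.det_transvection_of_ne _ _ hxy _
  let t₀ : GL κ F := Matrix.GeneralLinearGroup.mkOfDetNeZero _ (by rw [hdet]; exact one_ne_zero)
  have ht₀ : (t₀ : Matrix κ κ F) = Matrix.transvection x₀ y₀ 1 := rfl
  let g : GL ι F := P * glReindex e.symm t₀ * P⁻¹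
  have hg : g ∈ specialLinear ι F := by
    rw [mem_sl_iff]
    have h1 : (g : Matrix ι ι F) = (P : Matrix ι ι F) * (glReindex e.symm t₀ : GL ι F) * ((P⁻¹ : GL ι F) : Matrix ι ι F) := rfl
    rw [h1, Matrix.det_mul, Matrix.det_mul, mul_right_comm, ← Matrix.det_mul, ← Units.val_mul, mul_inv_cancel, Units.val_one,
      Matrix.det_one, one_mul]
    have h2 : ((glReindex e.symm t₀ : GL ι F) : Matrix ι ι F) = Matrix.reindex e.symm e.symm (t₀ : Matrix κ κ F) := by
      ext i j
      rw [glReindex_apply]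
      simp
    rw [h2, Matrix.det_reindex_self, ht₀, hdet]
  obtain ⟨_, ⟨k, hk, rfl⟩, hk'⟩ := hle hg
  refine ⟨k, hk, ?_⟩
  have h1 : glReindex e.symm k = glReindex e.symm t₀ := by
    have h2 : P * glReindex e.symm k * P⁻¹ = P * glReindex e.symm t₀ * P⁻¹ := hk'
    have h3 := mul_left_cancel (mul_right_cancel h2)
    exact h3
  have h2 : k = t₀ := (glReindex e.symm).injective h1
  rw [h2, ht₀]

theorem transvection_apply' {κ : Type} [Fintype κ] [DecidableEq κ] (x₀ y₀ x y : κ) :
    (Matrix.transvection x₀ y₀ (1 : F)) x y = (1 : Matrix κ κ F) x y + if x = x₀ ∧ y = y₀ then 1 else 0 := by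
  simp [Matrix.transvection, Matrix.add_apply, Matrix.single_apply, eq_comm]

/-- tensor product stabilisers do not contain `SL`. -/
theorem sl_not_le_tensor {n₁ n₂ : ℕ} (h1 : 2 ≤ n₁) (h2 : 2 ≤ n₂) (e : ι ≃ Fin n₁ × Fin n₂) (P : GL ι F) :
    ¬ specialLinear ι F ≤ tensorProductSubgroup n₁ n₂ e P := by
  classical
  intro hle
  let a0 : Fin n₁ := ⟨0, by omega⟩
  let a1 : Fin n₁ := ⟨1, by omega⟩
  let b0 : Fin n₂ := ⟨0, by omega⟩
  let b1 : Fin n₂ := ⟨1, by omega⟩
  have ha : a0 ≠ a1 := by simp [a0, a1, Fin.ext_iff]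
  have hb : b0 ≠ b1 := by simp [b0, b1, Fin.ext_iff]
  have hxy : ((a0, b0) : Fin n₁ × Fin n₂) ≠ (a0, b1) := by simp [hb]
  obtain ⟨k, ⟨A, B, hk⟩, hk'⟩ := exists_transvection_in_map e P hle hxy
  have hent : ∀ x y, (A : Matrix (Fin n₁) (Fin n₁) F) x.1 y.1 * (B : Matrix (Fin n₂) (Fin n₂) F) x.2 y.2 =
      (1 : Matrix (Fin n₁ × Fin n₂) (Fin n₁ × Fin n₂) F) x y + if x = (a0, b0) ∧ y = (a0, b1) then 1 else 0 := by
    intro x y
    rw [← transvection_apply', ← hk', hk]
    rfl
  have e1 := hent (a0, b1) (a0, b1)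
  have e2 := hent (a0, b0) (a0, b1)
  have e3 := hent (a1, b0) (a1, b1)
  have e4 := hent (a1, b0) (a1, b0)
  simp [ha.symm, hb, hb.symm] at e1 e2 e3 e4
  rcases e3 with h | h
  · rw [h] at e4
    simp at e4
  · rw [h] at e2
    simp at e2

end Cfsg.Agent.H97.Asch
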