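import Cfsg.Agent.Lib.H97Max1

/-!
More on the special linear group versus the geometric classes: tensor wreath products, groups of symplectic type.
-/

set_option autoImplicit false
set_option linter.unusedSectionVars false
set_option linter.style.haveILetI false

namespace Cfsg.Agent.H97.Asch

open Matrix Cfsg Cfsg.Geo
open scoped MatrixGroups Kronecker

variable {ι : Type} [Fintype ι] [DecidableEq ι] {F : Type*} [Field F]

/-- all elements of the tensor wreath product are a pure tensor times a permutation. -/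
theorem exists_pure_perm {m t : ℕ} {k : GL (Fin t → Fin m) F} (hk : k ∈ tensorWreathStandard m t F) :
    ∃ (T : Fin t → GL (Fin m) F) (σ : Equiv.Perm (Fin t)),
      (k : Matrix (Fin t → Fin m) (Fin t → Fin m) F) = pureM (fun i => ((T i : GL (Fin m) F) : Matrix (Fin m) (Fin m) F)) * permM σ := by
  classical
  induction hk using Subgroup.closure_induction with
  | mem x hx =>
    rcases hx with ⟨gs, hgs⟩ | ⟨σ, hσ⟩
    · refine ⟨gs, 1, ?_⟩
      rw [permM_one, Matrix.mul_one]
      ext x' y'
      rw [hgs, pureM_apply]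
    · refine ⟨1, σ, ?_⟩
      have h1 : pureM (fun i => (((1 : Fin t → GL (Fin m) F) i : GL (Fin m) F) : Matrix (Fin m) (Fin m) F)) = 1 := by
        rw [← pureM_one]
        congr 1
      rw [h1, Matrix.one_mul]
      ext x' y'
      rw [hσ, permM_apply]
  | one =>
    refine ⟨1, 1, ?_⟩
    have h1 : pureM (fun i => (((1 : Fin t → GL (Fin m) F) i : GL (Fin m) F) : Matrix (Fin m) (Fin m) F)) = 1 := by
      rw [← pureM_one]
      congr 1
    rw [h1, permM_one, Matrix.one_mul]
    rfl
  | mul x y _ _ hx hy =>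
    obtain ⟨T, σ, hT⟩ := hx
    obtain ⟨T', τ, hT'⟩ := hy
    refine ⟨fun i => T i * T' (σ.symm i), σ * τ, ?_⟩
    rw [Units.val_mul, hT, hT']
    calc pureM (fun i => ((T i : GL (Fin m) F) : Matrix (Fin m) (Fin m) F)) * permM σ *
          (pureM (fun i => ((T' i : GL (Fin m) F) : Matrix (Fin m) (Fin m) F)) * permM τ)
        = pureM (fun i => ((T i : GL (Fin m) F) : Matrix (Fin m) (Fin m) F)) *
          (permM σ * pureM (fun i => ((T' i : GL (Fin m) F) : Matrix (Fin m) (Fin m) F))) * permM τ := by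
          simp only [Matrix.mul_assoc]
      _ = pureM (fun i => ((T i : GL (Fin m) F) : Matrix (Fin m) (Fin m) F)) *
          (pureM ((fun i => ((T' i : GL (Fin m) F) : Matrix (Fin m) (Fin m) F)) ∘ σ.symm) * permM σ) * permM τ := by
          rw [permM_pureM]
      _ = _ := by
          rw [← permM_mul, ← Matrix.mul_assoc, ← Matrix.mul_assoc, pureM_mul]
          congr 2
  | inv x _ hx =>
    obtain ⟨T, σ, hT⟩ := hx
    refine ⟨fun i => (T (σ i))⁻¹, σ⁻¹, ?_⟩
    apply Units.inv_eq_of_mul_eq_one_right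
    rw [hT]
    have h1 : pureM (fun i => (((T (σ i))⁻¹ : GL (Fin m) F) : Matrix (Fin m) (Fin m) F)) * permM σ⁻¹ =
        permM σ⁻¹ * pureM (fun i => (((T i)⁻¹ : GL (Fin m) F) : Matrix (Fin m) (Fin m) F)) := by
      rw [permM_pureM]
      congr 1
    rw [h1]
    calc pureM (fun i => ((T i : GL (Fin m) F) : Matrix (Fin m) (Fin m) F)) * permM σ *
          (permM σ⁻¹ * pureM (fun i => (((T i)⁻¹ : GL (Fin m) F) : Matrix (Fin m) (Fin m) F)))
        = pureM (fun i => ((T i : GL (Fin m) F) : Matrix (Fin m) (Fin m) F)) *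
          (permM σ * permM σ⁻¹) * pureM (fun i => (((T i)⁻¹ : GL (Fin m) F) : Matrix (Fin m) (Fin m) F)) := by
          simp only [Matrix.mul_assoc]
      _ = 1 := by
          rw [permM_mul, mul_inv_cancel, permM_one, Matrix.mul_one, pureM_mul, ← pureM_one]
          congr 1
          funext i
          rw [Pi.mul_apply, ← Units.val_mul, mul_inv_cancel, Units.val_one, Pi.one_apply]

/-- tensor wreath products do not contain `SL`. -/
theorem sl_not_le_wreath {m t : ℕ} (hm : 2 ≤ m) (ht : 2 ≤ t) (e : ι ≃ (Fin t → Fin m)) (P : GL ι F) :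
    ¬ specialLinear ι F ≤ tensorWreathSubgroup m t e P := by
  classical
  intro hle
  let a0 : Fin m := ⟨0, by omega⟩
  let a1 : Fin m := ⟨1, by omega⟩
  let i0 : Fin t := ⟨0, by omega⟩
  let i1 : Fin t := ⟨1, by omega⟩
  have ha : a0 ≠ a1 := by simp [a0, a1, Fin.ext_iff]
  have hi : i0 ≠ i1 := by simp [i0, i1, Fin.ext_iff]
  let x₀ : Fin t → Fin m := fun _ => a0
  let y₀ : Fin t → Fin m := Function.update x₀ i0 a1
  have hxy : x₀ ≠ y₀ := by
    intro h
    have := congrFun h i0
    simp [x₀, y₀, ha] at this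
  obtain ⟨k, hk, hk'⟩ := exists_transvection_in_map e P hle hxy
  obtain ⟨T, σ, hT⟩ := exists_pure_perm hk
  set A : Fin t → Matrix (Fin m) (Fin m) F := fun i => ((T i : GL (Fin m) F) : Matrix (Fin m) (Fin m) F) with hA
  have hE : ∀ x y : Fin t → Fin m, ∏ i, A i (x i) (y (σ.symm i)) =
      (1 : Matrix (Fin t → Fin m) (Fin t → Fin m) F) x y + if x = x₀ ∧ y = y₀ then 1 else 0 := by
    intro x y
    rw [← transvection_apply', ← hk', hT, permM_mul_right, pureM_apply]
    rfl
  let x₁ : Fin t → Fin m := Function.update x₀ i1 a1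
  have hx₁ : x₁ ≠ x₀ := by
    intro h
    have := congrFun h i1
    simp [x₁, x₀, ha.symm] at this
  have hdiag : ∀ x : Fin t → Fin m, ∏ i, A i (x i) (x (σ.symm i)) = 1 := by
    intro x
    rw [hE, Matrix.one_apply_eq]
    have : ¬ (x = x₀ ∧ x = y₀) := fun h => hxy (h.1.symm.trans h.2)
    rw [if_neg this, add_zero]
  have hdiag0 : ∀ (x : Fin t → Fin m) (i : Fin t), A i (x i) (x (σ.symm i)) ≠ 0 := by
    intro x i h0
    have := hdiag x
    rw [Finset.prod_eq_zero (Finset.mem_univ i) h0] at this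
    exact zero_ne_one this
  by_cases hσ : σ = 1
  · subst hσ
    have hE' : ∀ x y : Fin t → Fin m, ∏ i, A i (x i) (y i) =
        (1 : Matrix (Fin t → Fin m) (Fin t → Fin m) F) x y + if x = x₀ ∧ y = y₀ then 1 else 0 := hE
    let y₁ : Fin t → Fin m := Function.update y₀ i1 a1
    have e2 := hE' x₀ y₀
    rw [Matrix.one_apply_ne hxy, if_pos ⟨rfl, rfl⟩, zero_add] at e2
    have hne : x₁ ≠ y₁ := by
      intro h
      have := congrFun h i0
      simp [x₁, y₁, y₀, x₀, hi, ha] at this
    have e3 := hE' x₁ y₁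
    rw [Matrix.one_apply_ne hne, if_neg (fun h => hx₁ h.1), zero_add] at e3
    obtain ⟨i, -, hi0⟩ := Finset.prod_eq_zero_iff.mp e3
    by_cases h1 : i = i1
    · subst h1
      have : A i1 (x₁ i1) (x₁ i1) ≠ 0 := hdiag0 x₁ i1
      apply this
      have e4 : y₁ i1 = x₁ i1 := by simp [x₁, y₁]
      rw [e4] at hi0
      exact hi0
    · by_cases h0 : i = i0
      · subst h0
        have e4 : x₁ i0 = x₀ i0 := by simp [x₁, hi]
        have e5 : y₁ i0 = y₀ i0 := by simp [y₁, hi]
        rw [e4, e5] at hi0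
        rw [Finset.prod_eq_zero (Finset.mem_univ i0) hi0] at e2
        exact zero_ne_one e2
      · have : A i (x₁ i) (x₁ i) ≠ 0 := hdiag0 x₁ i
        apply this
        have e5 : y₁ i = x₁ i := by simp [x₁, y₁, y₀, x₀, h1, h0]
        rw [e5] at hi0
        exact hi0
  · obtain ⟨i₀, hi₀⟩ : ∃ i₀, σ.symm i₀ ≠ i₀ := by
      by_contra hall
      push Not at hall
      apply hσ
      ext i
      have := hall i
      rw [Equiv.symm_apply_eq] at this
      simp [← this]
    set j₀ := σ.symm i₀ with hj₀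
    have hall : ∀ u v, A i₀ u v ≠ 0 := by
      intro u v
      have := hdiag0 (Function.update (Function.update x₀ i₀ u) j₀ v) i₀
      rw [← hj₀, Function.update_self, Function.update_of_ne hi₀.symm, Function.update_self] at this
      exact this
    obtain ⟨w, hw⟩ : ∃ w : Fin m, w ≠ x₁ j₀ := by
      by_cases h : a0 = x₁ j₀
      · exact ⟨a1, fun h' => ha (h.trans h'.symm)⟩
      · exact ⟨a0, h⟩
    let y : Fin t → Fin m := Function.update x₁ j₀ w
    have hne : x₁ ≠ y := by
      intro h
      have := congrFun h j₀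
      simp [y] at this
      exact hw this.symm
    have e3 := hE x₁ y
    rw [Matrix.one_apply_ne hne, if_neg (fun h => hx₁ h.1), zero_add] at e3
    obtain ⟨i, -, hi0⟩ := Finset.prod_eq_zero_iff.mp e3
    by_cases h1 : i = i₀
    · subst h1
      exact hall _ _ hi0
    · have hne2 : σ.symm i ≠ j₀ := fun h => h1 (σ.symm.injective h)
      have e5 : y (σ.symm i) = x₁ (σ.symm i) := by
        simp [y, Function.update_of_ne hne2]
      rw [e5] at hi0
      exact hdiag0 x₁ i hi0

/-- `SL` does not normalise a group of symplectic type. -/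
theorem SymCtx.sl_not_le [Nonempty ι] [Finite F] {r : ℕ} {R : Subgroup (GL ι F)} (C : SymCtx r R) {ω : F}
    (hω : IsPrimitiveRoot ω (r * Nat.gcd 2 r)) (hn : 2 ≤ Fintype.card ι) : ¬ specialLinear ι F ≤ subgroupNormalizer R := by
  classical
  intro hle
  have hρ0 : (r * Nat.gcd 2 r) ≠ 0 := (Nat.mul_pos C.prime.pos (Nat.gcd_pos_of_pos_left _ (by norm_num))).ne'
  have : Nontrivial ι := Fintype.one_lt_card_iff_nontrivial.mp (by omega)
  obtain ⟨b, hb⟩ := C.exists_monomial hω
  obtain ⟨x, hx, hxs⟩ := exists_nonscalar_of_irr hn C.irr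
  obtain ⟨π, hπ, c, hc1, hc2⟩ := hb x hx
  have hc0 : ∀ k, c k ≠ 0 := by
    intro k h0
    have := hc1 k
    rw [h0, zero_pow hρ0] at this
    exact zero_ne_one this
  have hconj : ∀ {φ : Module.Dual F (ι → F)} {a : ι → F} (h : φ a = 0), tvG h * x * (tvG h)⁻¹ ∈ R := by
    intro φ a h
    have h1 : tvG h ∈ subgroupNormalizer R := hle (tvG_mem h)
    exact (Subgroup.mem_normalizer_iff.mp h1 x).mp hx
  have hmono2 : ∀ {y : GL ι F} {i j l : ι} {α β : F}, y ∈ R → j ≠ l → α ≠ 0 → β ≠ 0 →
      (y : Matrix ι ι F) *ᵥ b i = α • b j + β • b l → False := by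
    intro y i j l α β hy hjl hα hβ h
    obtain ⟨π', -, c', -, hc'⟩ := hb y hy
    rw [hc'] at h
    have e0 := congrArg (fun u => b.repr u j) h
    have e1 := congrArg (fun u => b.repr u l) h
    simp only [map_add, map_smul, Finsupp.add_apply, Finsupp.smul_apply, Module.Basis.repr_self, smul_eq_mul,
      Finsupp.single_apply] at e0 e1
    by_cases h3 : π' i = j
    · rw [h3] at e1
      simp [hjl] at e1
      exact hβ e1.symm
    · simp [h3, hjl.symm] at e0
      exact hα e0.symm
  by_cases hid : ∀ i, π i = i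
  · -- diagonal
    have hne : ∃ i j, c i ≠ c j := by
      by_contra hall
      push Not at hall
      apply hxs
      obtain ⟨i₀⟩ := ‹Nonempty ι›
      refine (mem_scalars_iff x).mpr ⟨Units.mk0 (c i₀) (hc0 i₀), ?_⟩
      apply gl_ext_basis b
      intro k
      rw [hc2, hid, hall k i₀, Matrix.smul_mulVec, Matrix.one_mulVec]
      rfl
    obtain ⟨i, j, hij⟩ := hne
    have hij' : i ≠ j := fun h => hij (by rw [h])
    have hφ : (b.coord i) (b j) = 0 := by
      simp [Module.Basis.coord_apply, hij'.symm]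
    have hφ1 : (b.coord i) (b i) = 1 := by simp [Module.Basis.coord_apply]
    refine hmono2 (i := i) (j := i) (l := j) (α := c i) (β := c i - c j) (hconj hφ) hij' (hc0 i) (sub_ne_zero.mpr hij) ?_
    rw [gl_mulVec_mul, gl_mulVec_mul, tvG_inv_mulVec, hφ1, one_smul, Matrix.mulVec_sub, hc2, hc2, hid, hid, Matrix.mulVec_sub,
      Matrix.mulVec_smul, Matrix.mulVec_smul, tvG_mulVec, tvG_mulVec, hφ1, hφ, one_smul, zero_smul, add_zero, smul_add, sub_smul]
    abel
  · push Not at hid
    obtain ⟨i, hi⟩ := hid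
    obtain ⟨l, hl⟩ := exists_ne (π i)
    have hφ : (b.coord (π i)) (b l) = 0 := by
      simp [Module.Basis.coord_apply, hl]
    have hφ1 : (b.coord (π i)) (b (π i)) = 1 := by simp [Module.Basis.coord_apply]
    have hφi : (b.coord (π i)) (b i) = 0 := by
      simp [Module.Basis.coord_apply, hi]
    refine hmono2 (i := i) (j := π i) (l := l) (α := c i) (β := c i) (hconj hφ) hl.symm (hc0 i) (hc0 i) ?_
    rw [gl_mulVec_mul, gl_mulVec_mul, tvG_inv_mulVec, hφi, zero_smul, sub_zero, hc2, Matrix.mulVec_smul, tvG_mulVec, hφ1, one_smul,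
      smul_add]

end Cfsg.Agent.H97.Asch
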