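import Cfsg.Agent.Lib.H97Max2

/-!
Decompositions over small fields: frames over small fields and pairs of planes over `F_2`; tensor factors of
dimension two over `F_2`.
-/

set_option autoImplicit false
set_option linter.unusedSectionVars false
set_option linter.style.haveILetI false

namespace Cfsg.Agent.H97.Asch

open Matrix Cfsg Cfsg.Geo
open scoped MatrixGroups Kronecker

variable {ι : Type} [Fintype ι] [DecidableEq ι] {F : Type*} [Field F]

/-- a decomposition into lines comes from a basis -/
theorem exists_basis_of_mdecomp1 {t : ℕ} {D : Fin t → Submodule F (ι → F)} (hD : IsMDecomposition 1 D) :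
    ∃ b : Module.Basis (Fin t) F (ι → F), ∀ i, D i = Submodule.span F {b i} := by
  classical
  have h1 : ∀ i, ∃ v : ι → F, v ≠ 0 ∧ D i = Submodule.span F {v} := by
    intro i
    obtain ⟨v, hv0, hv⟩ := finrank_eq_one_iff'.mp (hD.finrank_eq i)
    refine ⟨v, fun h => hv0 (Subtype.ext h), ?_⟩
    apply le_antisymm
    · intro w hw
      obtain ⟨c, hc⟩ := hv ⟨w, hw⟩
      have := congrArg Subtype.val hc
      exact Submodule.mem_span_singleton.mpr ⟨c, this⟩
    · rw [Submodule.span_singleton_le_iff_mem]
      exact v.2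
  choose v hv0 hv using h1
  have hli : LinearIndependent F v := hD.indep.linearIndependent _ (fun i => by
    rw [hv]
    exact Submodule.mem_span_singleton_self _) hv0
  have hsp : (⊤ : Submodule F (ι → F)) ≤ Submodule.span F (Set.range v) := by
    rw [← hD.iSup_eq_top, iSup_le_iff]
    intro i
    rw [hv, Submodule.span_singleton_le_iff_mem]
    exact Submodule.subset_span ⟨i, rfl⟩
  refine ⟨Module.Basis.mk hli hsp, fun i => ?_⟩
  rw [Module.Basis.mk_apply]
  exact hv i

/-- Stabilisers of frames over small fields. -/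
theorem lines_branch [Fintype F] {H : Subgroup (GL ι F)} (hH : IsMaximalIn (specialLinear ι F) H)
    (hn3 : 3 ≤ Fintype.card ι) {t : ℕ} {D : Fin t → Submodule F (ι → F)} (hD : IsMDecomposition 1 D)
    (hle : H ≤ decompositionStabilizer D) :
    (5 ≤ Fintype.card F ∧ H = decompositionStabilizer D ⊓ specialLinear ι F) ∨
    (∃ W : Submodule F (ι → F), W ≠ ⊥ ∧ W ≠ ⊤ ∧ H = subspaceStabilizer W ⊓ specialLinear ι F) ∨
    (Odd (Fintype.card F) ∧ ∃ Q : (ι → F) → F, IsNondegenerateQuadraticForm Q ∧
        H = quadSimilarityGroup Q ⊓ specialLinear ι F) ∨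
    (∃ (σ : F ≃+* F) (f : (ι → F) → (ι → F) → F), IsUnitaryForm σ f ∧
        H = similarityGroup f ⊓ specialLinear ι F) := by
  classical
  obtain ⟨b, hb⟩ := exists_basis_of_mdecomp1 hD
  have ht2 := hD.two_le
  have hcard2 : 2 ≤ Fintype.card F := Fintype.one_lt_card
  have hb2 : ∀ h ∈ H, ∀ k, ∃ (k' : Fin t) (c : F), (h : Matrix ι ι F) *ᵥ b k = c • b k' := by
    intro h hh k
    obtain ⟨σ, hσ⟩ := hle hh
    have h1 := hσ k
    have h2 : (h : Matrix ι ι F) *ᵥ b k ∈ D (σ k) := by
      rw [← h1]
      exact ⟨b k, by rw [hb]; exact Submodule.mem_span_singleton_self _, by simp [Matrix.toLin'_apply]⟩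
    rw [hb, Submodule.mem_span_singleton] at h2
    obtain ⟨c, hc⟩ := h2
    exact ⟨σ k, c, hc.symm⟩
  have hHmono : ∀ h ∈ H, ∃ (π : Fin t → Fin t) (c : Fin t → F), Function.Injective π ∧ (∀ k, c k ≠ 0) ∧
      ∀ k, (h : Matrix ι ι F) *ᵥ b k = c k • b (π k) := by
    intro h hh
    choose π c hc using hb2 h hh
    refine ⟨π, c, mono_inj b h hc, fun i h0 => ?_, hc⟩
    have := hc i
    rw [h0, zero_smul] at this
    exact b.ne_zero i (gl_mulVec_injective h (by simpa using this))
  by_cases hc5 : 5 ≤ Fintype.card F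
  · left
    exact ⟨hc5, maximal_eq hH hle (sl_not_le_decompM hD)⟩
  · have hcases : Fintype.card F = 2 ∨ Fintype.card F = 3 ∨ Fintype.card F = 4 := by omega
    rcases hcases with hc2 | hc3 | hc4
    · -- reducible
      right; left
      have hall : ∀ c : F, c ≠ 0 → c = 1 := by
        intro c hc
        have := FiniteField.pow_card_sub_one_eq_one c hc
        rw [hc2] at this
        simpa using this
      set s : ι → F := ∑ k, b k with hs
      have hs0 : s ≠ 0 := by
        intro h
        let i0 : Fin t := ⟨0, by omega⟩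
        have h1 := congrArg (fun u => b.repr u i0) h
        simp [hs, map_sum, Finsupp.finsetSum_apply, Finsupp.single_apply] at h1
      let W : Submodule F (ι → F) := Submodule.span F {s}
      have hWs : Stable H W := by
        intro h hh w hw
        obtain ⟨π, c, hπ, hc0, hc⟩ := hHmono h hh
        obtain ⟨d, rfl⟩ := Submodule.mem_span_singleton.mp hw
        rw [Matrix.mulVec_smul]
        apply Submodule.smul_mem
        have : (h : Matrix ι ι F) *ᵥ s = s := by
          rw [hs, Matrix.mulVec_sum]
          have h1 : ∀ k, (h : Matrix ι ι F) *ᵥ b k = b (π k) := by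
            intro k
            rw [hc, hall _ (hc0 k), one_smul]
          simp_rw [h1]
          exact Equiv.sum_comp (Equiv.ofBijective π (Finite.injective_iff_bijective.mp hπ)) (fun k => b k)
        rw [this]
        exact Submodule.mem_span_singleton_self _
      have hW0 : W ≠ ⊥ := by
        intro h
        have : s ∈ W := Submodule.mem_span_singleton_self _
        rw [h, Submodule.mem_bot] at this
        exact hs0 this
      have hW1 : W ≠ ⊤ := by
        intro h
        have h1 : Module.finrank F W = 1 := finrank_span_singleton hs0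
        rw [h, finrank_top, Module.finrank_fintype_fun_eq_card] at h1
        omega
      refine ⟨W, hW0, hW1, maximal_eq hH (fun h hh v => ?_) (sl_not_le_stab hW0 hW1)⟩
      constructor
      · exact hWs h hh v
      · intro hv
        have := hWs h⁻¹ (H.inv_mem hh) _ hv
        simpa using this
    · -- the quadratic form
      right; right; left
      have h2 : (2 : F) ≠ 0 := by
        intro h20
        have h6 : (3 : F) = 0 := by
          have := FiniteField.cast_card_eq_zero F
          rw [hc3] at this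
          exact_mod_cast this
        have h7 : (1 : F) = 0 := by
          have e : (3 : F) = 2 + 1 := by norm_num
          rw [e, h20, zero_add] at h6
          exact h6
        exact one_ne_zero h7
      refine ⟨?_, stdQuad b, stdQuad_nondeg b h2, ?_⟩
      · rw [hc3]; decide
      · refine maximal_eq hH ?_ (sl_not_le_quad hn3 (stdQuad_nondeg b h2))
        intro h hh
        obtain ⟨π, c, hπ, hc0, hc⟩ := hHmono h hh
        refine ⟨1, fun v => ?_⟩
        have hsq : ∀ k, c k * (RingHom.id F) (c k) = 1 := by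
          intro k
          have := FiniteField.pow_card_sub_one_eq_one (c k) (hc0 k)
          rw [hc3] at this
          simpa [pow_two] using this
        have := stdForm_mono b (RingHom.id F) hπ hsq hc v v
        simp only [stdQuad, this, Units.val_one, one_mul]
    · -- the unitary form
      right; right; right
      obtain ⟨p, hp⟩ := CharP.exists F
      obtain ⟨e, hpp, hcp⟩ := FiniteField.card F p
      have hp2 : p = 2 := by
        have h1 : p ∣ 2 ^ 2 := by
          have : p ∣ p ^ (e : ℕ) := dvd_pow_self _ e.ne_zero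
          rw [← hcp, hc4] at this
          exact this
        exact (Nat.prime_dvd_prime_iff_eq hpp Nat.prime_two).mp (hpp.dvd_of_dvd_pow h1)
      subst hp2
      have : Fact (Nat.Prime 2) := ⟨Nat.prime_two⟩
      let σ : F ≃+* F := RingEquiv.ofBijective (frobenius F 2) (Finite.injective_iff_bijective.mp (frobenius F 2).injective)
      have hσ : ∀ a, σ a = a ^ 2 := fun a => by
        show frobenius F 2 a = _
        rw [frobenius_def]
      have hinv : ∀ a, σ (σ a) = a := by
        intro a
        rw [hσ, hσ, ← pow_mul]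
        have := FiniteField.pow_card a
        rwa [hc4] at this
      have hne : σ ≠ RingEquiv.refl F := by
        intro hrefl
        have h4 : ∀ x : F, x ^ 2 = x := by
          intro x
          rw [← hσ, hrefl]
          rfl
        have h8 := card_le_of_forall_pow (by norm_num) h4
        omega
      have hU := stdForm_unitary b σ hne hinv
      refine ⟨σ, _, hU, ?_⟩
      have hS := stdForm_sesq b (σ : F →+* F)
      have hnd : ∀ v, v ≠ 0 → ∃ x, stdForm b (σ : F →+* F) v x ≠ 0 := fun v hv => (hU.nondegenerate v hv).2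
      refine maximal_eq hH ?_ (sl_not_le_sim hn3 hS hnd)
      intro h hh
      obtain ⟨π, c, hπ, hc0, hc⟩ := hHmono h hh
      refine ⟨1, fun u v => ?_⟩
      have hsq : ∀ k, c k * (σ : F →+* F) (c k) = 1 := by
        intro k
        have := FiniteField.pow_card_sub_one_eq_one (c k) (hc0 k)
        rw [hc4] at this
        show c k * σ (c k) = 1
        rw [hσ, ← pow_succ']
        simpa using this
      have := stdForm_mono b (σ : F →+* F) hπ hsq hc u v
      rw [this, Units.val_one, one_mul]

/-- Over `F_2` a decomposition into planes preserves a symplectic form. -/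
theorem planes_symp [Fintype F] (hq : Fintype.card F = 2) {t : ℕ} {D : Fin t → Submodule F (ι → F)}
    (hD : IsMDecomposition 2 D) :
    ∃ f : (ι → F) → (ι → F) → F, IsSymplecticForm f ∧ decompositionStabilizer D ≤ similarityGroup f := by
  classical
  have hall : ∀ c : F, c ≠ 0 → c = 1 := by
    intro c hc
    have := FiniteField.pow_card_sub_one_eq_one c hc
    rw [hq] at this
    simpa using this
  let B : ∀ i, Module.Basis (Fin 2) F (D i) := fun i => Module.finBasisOfFinrankEq F (D i) (hD.finrank_eq i)
  have hint := DirectSum.isInternal_submodule_of_iSupIndep_of_iSup_eq_top hD.indep hD.iSup_eq_top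
  let b : Module.Basis (Σ _ : Fin t, Fin 2) F (ι → F) := hint.collectedBasis B
  have hb : ∀ i a, b ⟨i, a⟩ = (B i a : ι → F) := fun i a => by
    show hint.collectedBasis B ⟨i, a⟩ = _
    rw [DirectSum.IsInternal.collectedBasis_coe]
  have hexp : ∀ i w, w ∈ D i → ∃ α β : F, w = α • b ⟨i, 0⟩ + β • b ⟨i, 1⟩ := by
    intro i w hw
    refine ⟨(B i).repr ⟨w, hw⟩ 0, (B i).repr ⟨w, hw⟩ 1, ?_⟩
    have h1 := (B i).sum_repr ⟨w, hw⟩
    rw [Fin.sum_univ_two] at h1
    have h2 := congrArg Subtype.val h1
    simp only [Submodule.coe_add, Submodule.coe_smul] at h2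
    rw [hb, hb]
    exact h2.symm
  let f : (ι → F) → (ι → F) → F := fun u v =>
    ∑ i, (b.repr u ⟨i, 0⟩ * b.repr v ⟨i, 1⟩ - b.repr u ⟨i, 1⟩ * b.repr v ⟨i, 0⟩)
  have hS : Sesq (RingHom.id F) f := by
    refine ⟨fun x y v => ?_, fun c x v => ?_, fun v x y => ?_, fun c v x => ?_⟩
    · simp only [f, map_add, Finsupp.add_apply]
      rw [← Finset.sum_add_distrib]
      exact Finset.sum_congr rfl fun i _ => by ring
    · simp only [f, map_smul, Finsupp.smul_apply, smul_eq_mul]
      rw [Finset.mul_sum]
      exact Finset.sum_congr rfl fun i _ => by ring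
    · simp only [f, map_add, Finsupp.add_apply]
      rw [← Finset.sum_add_distrib]
      exact Finset.sum_congr rfl fun i _ => by ring
    · simp only [f, map_smul, Finsupp.smul_apply, smul_eq_mul, RingHom.id_apply]
      rw [Finset.mul_sum]
      exact Finset.sum_congr rfl fun i _ => by ring
  have hskew : ∀ u v, f u v = - f v u := by
    intro u v
    simp only [f]
    rw [← Finset.sum_neg_distrib]
    exact Finset.sum_congr rfl fun i _ => by ring
  have halt : ∀ v, f v v = 0 := by
    intro v
    simp only [f]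
    apply Finset.sum_eq_zero
    intro i _
    ring
  have hsingle : ∀ (i j : Fin t) (a c : Fin 2), b.repr (b ⟨i, a⟩) ⟨j, c⟩ = if i = j ∧ a = c then 1 else 0 := by
    intro i j a c
    rw [Module.Basis.repr_self, Finsupp.single_apply]
    simp only [Sigma.mk.injEq, heq_eq_eq]
  have hR1 : ∀ v i, f v (b ⟨i, 1⟩) = b.repr v ⟨i, 0⟩ := by
    intro v i
    simp only [f, hsingle]
    rw [Finset.sum_eq_single i]
    · simp
    · intro j _ hj
      simp [hj.symm]
    · simp
  have hR0 : ∀ v i, f v (b ⟨i, 0⟩) = - b.repr v ⟨i, 1⟩ := by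
    intro v i
    simp only [f, hsingle]
    rw [Finset.sum_eq_single i]
    · simp
    · intro j _ hj
      simp [hj.symm]
    · simp
  have hnd : IsNondegenerateForm f := by
    intro v hv
    obtain ⟨⟨i, a⟩, hk⟩ := exists_repr_ne b hv
    have hR : ∃ x, f v x ≠ 0 := by
      fin_cases a
      · exact ⟨b ⟨i, 1⟩, by rw [hR1]; exact hk⟩
      · refine ⟨b ⟨i, 0⟩, ?_⟩
        rw [hR0]
        exact neg_ne_zero.mpr hk
    obtain ⟨x, hx⟩ := hR
    refine ⟨⟨x, ?_⟩, ⟨x, hx⟩⟩
    rw [hskew]
    exact neg_ne_zero.mpr hx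
  have hsymp : IsSymplecticForm f :=
    ⟨⟨hS.add_left, hS.smul_left, hS.add_right, fun c v x => by simpa using hS.smul_right c v x⟩, hskew, halt, hnd⟩
  refine ⟨f, hsymp, fun h hh => ⟨1, fun u v => ?_⟩⟩
  rw [Units.val_one, one_mul]
  obtain ⟨σ, hσ⟩ := hh
  have hmem : ∀ i a, (h : Matrix ι ι F) *ᵥ b ⟨i, a⟩ ∈ D (σ i) := by
    intro i a
    rw [← hσ i]
    refine ⟨b ⟨i, a⟩, ?_, by simp [Matrix.toLin'_apply]⟩
    rw [hb]
    exact (B i a).2
  have hS₁ : Sesq (RingHom.id F) (fun u v => f ((h : Matrix ι ι F) *ᵥ u) ((h : Matrix ι ι F) *ᵥ v)) :=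
    ⟨fun x y v => by rw [Matrix.mulVec_add, hS.add_left],
     fun c x v => by rw [Matrix.mulVec_smul, hS.smul_left],
     fun v x y => by rw [Matrix.mulVec_add, hS.add_right],
     fun c x v => by rw [Matrix.mulVec_smul, hS.smul_right]⟩
  refine Sesq.ext_basis hS₁ hS b ?_ u v
  rintro ⟨i, a⟩ ⟨j, c⟩
  obtain ⟨α₁, β₁, h1⟩ := hexp _ _ (hmem i a)
  obtain ⟨α₂, β₂, h2⟩ := hexp _ _ (hmem j c)
  show f ((h : Matrix ι ι F) *ᵥ b ⟨i, a⟩) ((h : Matrix ι ι F) *ᵥ b ⟨j, c⟩) = f (b ⟨i, a⟩) (b ⟨j, c⟩)
  have hval : f ((h : Matrix ι ι F) *ᵥ b ⟨i, a⟩) ((h : Matrix ι ι F) *ᵥ b ⟨j, c⟩) =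
      α₂ * (- b.repr ((h : Matrix ι ι F) *ᵥ b ⟨i, a⟩) ⟨σ j, 1⟩) + β₂ * b.repr ((h : Matrix ι ι F) *ᵥ b ⟨i, a⟩) ⟨σ j, 0⟩ := by
    conv_lhs => rw [h2, hS.add_right, hS.smul_right, hS.smul_right, hR0, hR1]
    simp
  by_cases hij : i = j
  · subst hij
    by_cases hac : a = c
    · subst hac
      rw [halt, halt]
    · -- the determinant does not vanish
      have hc' : f (b ⟨i, a⟩) (b ⟨i, c⟩) = 1 := by
        apply hall
        have key : ∀ a c : Fin 2, a ≠ c → (a = 0 ∧ c = 1) ∨ (a = 1 ∧ c = 0) := by decide
        have hac' := key a c hac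
        rcases hac' with ⟨rfl, rfl⟩ | ⟨rfl, rfl⟩
        · rw [hR1, hsingle]
          simp
        · rw [hR0, hsingle]
          simp
      rw [hc', hval, h1]
      simp only [map_add, map_smul, Finsupp.add_apply, Finsupp.smul_apply, smul_eq_mul, hsingle]
      simp only [true_and, Fin.isValue, zero_ne_one, one_ne_zero, if_true, if_false, mul_one, mul_zero, add_zero, zero_add]
      apply hall
      intro hdet
      have hli := b.linearIndependent
      have hinj := gl_mulVec_injective h
      -- independence of the images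
      have hx : ∀ d e : F, d • ((h : Matrix ι ι F) *ᵥ b ⟨i, a⟩) + e • ((h : Matrix ι ι F) *ᵥ b ⟨i, c⟩) = 0 → d = 0 ∧ e = 0 := by
        intro d e hde
        rw [← Matrix.mulVec_smul, ← Matrix.mulVec_smul, ← Matrix.mulVec_add] at hde
        have h3 : d • b ⟨i, a⟩ + e • b ⟨i, c⟩ = 0 := by
          apply hinj
          simp only [Matrix.mulVec_zero]
          exact hde
        have e1 := congrArg (fun w => b.repr w ⟨i, a⟩) h3
        have e2 := congrArg (fun w => b.repr w ⟨i, c⟩) h3
        simp only [map_add, map_smul, Finsupp.add_apply, Finsupp.smul_apply, smul_eq_mul, hsingle, map_zero, Finsupp.coe_zero, Pi.zero_apply] at e1 e2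
        have hca : c ≠ a := fun h => hac h.symm
        simp [hac, hca] at e1 e2
        exact ⟨e1, e2⟩
      have e1 := hx β₂ (-β₁) (by
        rw [h1, h2]
        have e3 : β₂ * α₁ = β₁ * α₂ := by linear_combination hdet
        simp only [smul_add, smul_smul, neg_mul, neg_smul]
        rw [e3, mul_comm β₂ β₁]
        abel)
      have e2 := hx α₂ (-α₁) (by
        rw [h1, h2]
        have e3 : α₂ * β₁ = α₁ * β₂ := by linear_combination -hdet
        simp only [smul_add, smul_smul, neg_mul, neg_smul]
        rw [e3, mul_comm α₂ α₁]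
        abel)
      have h0 : (h : Matrix ι ι F) *ᵥ b ⟨i, a⟩ = 0 := by
        rw [h1, neg_eq_zero.mp e1.2, neg_eq_zero.mp e2.2, zero_smul, zero_smul, add_zero]
      apply b.ne_zero ⟨i, a⟩
      apply hinj
      simp only [Matrix.mulVec_zero]
      exact h0
  · have hσij : σ i ≠ σ j := fun e => hij (σ.injective e)
    have hzero : ∀ d, b.repr ((h : Matrix ι ι F) *ᵥ b ⟨i, a⟩) ⟨σ j, d⟩ = 0 := by
      intro d
      rw [h1]
      simp only [map_add, map_smul, Finsupp.add_apply, Finsupp.smul_apply, smul_eq_mul, hsingle]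
      simp [hσij]
    rw [hval, hzero, hzero]
    have hrhs : f (b ⟨i, a⟩) (b ⟨j, c⟩) = 0 := by
      have key : ∀ c : Fin 2, c = 0 ∨ c = 1 := by decide
      have hc' := key c
      rcases hc' with rfl | rfl
      · rw [hR0, hsingle]
        simp [hij]
      · rw [hR1, hsingle]
        simp [hij]
    rw [hrhs]
    simp

end Cfsg.Agent.H97.Asch
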