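import Cfsg.Agent.Lib.H97Max3

/-!
Tensor factors of dimension two over `F_2`: the normaliser of `F_4` in `GL_2(2)` is everything.
-/

set_option autoImplicit false
set_option linter.unusedSectionVars false
set_option linter.style.haveILetI false

namespace Cfsg.Agent.H97.Asch

open Matrix Cfsg Cfsg.Geo
open scoped MatrixGroups Kronecker

variable {ι : Type} [Fintype ι] [DecidableEq ι] {F : Type*} [Field F]

theorem gl2_f2_aux (hall : ∀ c : F, c = 0 ∨ c = 1) (h2 : (1 : F) + 1 = 0) (x y z w : F) (hd : x * w - y * z ≠ 0) :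
    !![x, y; z, w] * !![0, 1; 1, 1] = !![0, 1; 1, 1] * !![x, y; z, w] ∨
    !![x, y; z, w] * !![0, 1; 1, 1] = !![1, 1; 1, 0] * !![x, y; z, w] := by
  have hneg : (-1 : F) = 1 := by linear_combination -h2
  rcases hall x with rfl | rfl <;> rcases hall y with rfl | rfl <;> rcases hall z with rfl | rfl <;> rcases hall w with rfl | rfl <;>
    simp [h2, hneg] at hd ⊢

/-- the group `GL_2(2)` normalises `F_4`. -/
theorem tensor2_class3 [Fintype F] [Nonempty ι] (hq : Fintype.card F = 2) {m : ℕ} (e : ι ≃ Fin 2 × Fin m) (P : GL ι F)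
    {H : Subgroup (GL ι F)} (hle : H ≤ tensorProductSubgroup 2 m e P) : Class3 H := by
  classical
  have hall' : ∀ c : F, c ≠ 0 → c = 1 := by
    intro c hc
    have := FiniteField.pow_card_sub_one_eq_one c hc
    rw [hq] at this
    simpa using this
  have hall : ∀ c : F, c = 0 ∨ c = 1 := fun c => by
    by_cases h : c = 0
    · exact Or.inl h
    · exact Or.inr (hall' c h)
  have h2 : (1 : F) + 1 = 0 := by
    rcases hall (1 + 1) with h | h
    · exact h
    · exfalso
      exact one_ne_zero (add_eq_right.mp h)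
  have hadd : ∀ c : F, c + c = 0 := fun c => by
    rw [← mul_one c, ← mul_add, h2, mul_zero]
  let Θ : Matrix (Fin 2 × Fin m) (Fin 2 × Fin m) F → Matrix ι ι F := fun M =>
    (P : Matrix ι ι F) * (Matrix.reindexAlgEquiv F F e.symm M) * ((P⁻¹ : GL ι F) : Matrix ι ι F)
  have hΘmul : ∀ M N, Θ (M * N) = Θ M * Θ N := by
    intro M N
    simp only [Θ]
    rw [conj_conj_inv, map_mul]
  have hΘadd : ∀ M N, Θ (M + N) = Θ M + Θ N := by
    intro M N
    simp only [Θ]
    rw [map_add, Matrix.mul_add, Matrix.add_mul]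
  have hΘone : Θ 1 = 1 := by
    simp only [Θ]
    rw [map_one, Matrix.mul_one, ← Units.val_mul, mul_inv_cancel, Units.val_one]
  let ω : Matrix (Fin 2) (Fin 2) F := !![0, 1; 1, 1]
  let ω' : Matrix (Fin 2) (Fin 2) F := !![1, 1; 1, 0]
  have hω' : ω' = ω + 1 := by
    ext i j
    fin_cases i <;> fin_cases j <;> simp [ω, ω', h2]
  have hωω : ω * ω = ω' := by
    simp only [ω, ω', Matrix.mul_fin_two]
    simp [h2]
  let Y : Matrix (Fin 2 × Fin m) (Fin 2 × Fin m) F := ω ⊗ₖ (1 : Matrix (Fin m) (Fin m) F)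
  have hYY : Y * Y = Y + 1 := by
    simp only [Y]
    rw [← Matrix.mul_kronecker_mul, hωω, hω', Matrix.one_mul, Matrix.add_kronecker, Matrix.one_kronecker_one]
  set X : Matrix ι ι F := Θ Y with hX
  have hXX : X * X = X + 1 := by
    rw [hX, ← hΘmul, hYY, hΘadd, hΘone]
  -- normalisation
  have hg : ∀ g ∈ H, (g : Matrix ι ι F) * X = X * (g : Matrix ι ι F) ∨ (g : Matrix ι ι F) * X = (X + 1) * (g : Matrix ι ι F) := by
    intro g hgH
    obtain ⟨_, ⟨k, ⟨a, b, hk⟩, rfl⟩, hgk⟩ := hle hgH
    have hgm : (g : Matrix ι ι F) = Θ (k : Matrix (Fin 2 × Fin m) (Fin 2 × Fin m) F) := by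
      rw [← hgk]
      simp only [Θ]
      have : ((glReindex e.symm k : GL ι F) : Matrix ι ι F) = Matrix.reindexAlgEquiv F F e.symm (k : Matrix (Fin 2 × Fin m) (Fin 2 × Fin m) F) := rfl
      show (((P * (glReindex e.symm k) * P⁻¹ : GL ι F)) : Matrix ι ι F) = _
      rw [Units.val_mul, Units.val_mul, this]
    have hdet : (a : Matrix (Fin 2) (Fin 2) F).det ≠ 0 := by
      have := a.isUnit
      rw [Matrix.isUnit_iff_isUnit_det] at this
      exact this.ne_zero
    have haeta := Matrix.eta_fin_two (a : Matrix (Fin 2) (Fin 2) F)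
    rw [Matrix.det_fin_two] at hdet
    have hcases := gl2_f2_aux hall h2 _ _ _ _ hdet
    rw [← haeta] at hcases
    rw [hgm, hX, ← hΘmul]
    rcases hcases with h | h
    · left
      rw [← hΘmul]
      congr 1
      simp only [Y]
      rw [hk, ← Matrix.mul_kronecker_mul, ← Matrix.mul_kronecker_mul, Matrix.mul_one, Matrix.one_mul]
      congr 1
    · right
      have e1 : Θ Y + 1 = Θ (Y + 1) := by rw [hΘadd, hΘone]
      rw [e1, ← hΘmul]
      congr 1
      have e2 : Y + 1 = ω' ⊗ₖ (1 : Matrix (Fin m) (Fin m) F) := by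
        simp only [Y]
        rw [hω', Matrix.add_kronecker, Matrix.one_kronecker_one]
      rw [e2]
      simp only [Y]
      rw [hk, ← Matrix.mul_kronecker_mul, ← Matrix.mul_kronecker_mul, Matrix.mul_one, Matrix.one_mul]
      congr 1
  let A : Subalgebra F (Matrix ι ι F) := Algebra.adjoin F {X}
  have hXA : X ∈ A := Algebra.subset_adjoin rfl
  have hform : ∀ x ∈ A, ∃ α β : F, x = α • (1 : Matrix ι ι F) + β • X := by
    intro x hx
    induction hx using Algebra.adjoin_induction with
    | mem y hy =>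
      rw [Set.mem_singleton_iff] at hy
      subst hy
      exact ⟨0, 1, by simp⟩
    | algebraMap c =>
      exact ⟨c, 0, by rw [Algebra.algebraMap_eq_smul_one]; simp⟩
    | add x y _ _ hx hy =>
      obtain ⟨a, b, rfl⟩ := hx
      obtain ⟨c, d, rfl⟩ := hy
      exact ⟨a + c, b + d, by rw [add_smul, add_smul]; abel⟩
    | mul x y _ _ hx hy =>
      obtain ⟨a, b, rfl⟩ := hx
      obtain ⟨c, d, rfl⟩ := hy
      refine ⟨a * c + b * d, a * d + b * c + b * d, ?_⟩
      simp only [Matrix.add_mul, Matrix.mul_add, Matrix.smul_mul, Matrix.mul_smul, Matrix.one_mul, Matrix.mul_one, hXX]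
      module
  have hNA : NormAlg H A := by
    intro h hh b hb
    induction hb using Algebra.adjoin_induction with
    | mem y hy =>
      rw [Set.mem_singleton_iff] at hy
      subst hy
      rcases hg h hh with e1 | e1
      · rw [e1, Matrix.mul_assoc, ← Units.val_mul, mul_inv_cancel, Units.val_one, Matrix.mul_one]
        exact hXA
      · rw [e1, Matrix.mul_assoc, ← Units.val_mul, mul_inv_cancel, Units.val_one, Matrix.mul_one]
        exact A.add_mem hXA A.one_mem
    | algebraMap c =>
      rw [Algebra.algebraMap_eq_smul_one, Matrix.mul_smul, Matrix.smul_mul, Matrix.mul_one, ← Units.val_mul,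
        mul_inv_cancel, Units.val_one]
      exact Subalgebra.smul_mem _ (Subalgebra.one_mem _) c
    | add x y _ _ hx hy =>
      rw [Matrix.mul_add, Matrix.add_mul]
      exact Subalgebra.add_mem _ hx hy
    | mul x y _ _ hx hy =>
      rw [← conj_conj_inv]
      exact Subalgebra.mul_mem _ hx hy
  have hFA : FieldAlg A := by
    refine ⟨fun x hx y hy => ?_, fun x hx hx0 => ?_⟩
    · obtain ⟨a, b, rfl⟩ := hform x hx
      obtain ⟨c, d, rfl⟩ := hform y hy
      simp only [Matrix.add_mul, Matrix.mul_add, Matrix.smul_mul, Matrix.mul_smul, Matrix.one_mul, Matrix.mul_one]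
      module
    · obtain ⟨a, b, rfl⟩ := hform x hx
      have hXm : X * (X + 1) = 1 := by
        rw [Matrix.mul_add, hXX, Matrix.mul_one, add_assoc, add_comm (1 : Matrix ι ι F), ← add_assoc]
        have : X + X = (1 + 1 : F) • X := by rw [add_smul, one_smul]
        rw [this, h2, zero_smul, zero_add]
      rcases hall a with rfl | rfl <;> rcases hall b with rfl | rfl
      · exact absurd (by simp) hx0
      · exact ⟨X + 1, A.add_mem hXA A.one_mem, by simpa using hXm⟩
      · exact ⟨1, A.one_mem, by simp⟩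
      · refine ⟨X, hXA, ?_⟩
        simp only [one_smul]
        rw [add_comm, Matrix.add_mul, Matrix.one_mul, hXX, add_assoc, add_comm (1 : Matrix ι ι F), ← add_assoc]
        have : X + X = (1 + 1 : F) • X := by rw [add_smul, one_smul]
        rw [this, h2, zero_smul, zero_add]
  have hd : Module.finrank F A ≠ 1 := by
    intro h1
    have hbot := Subalgebra.finrank_eq_one_iff.mp h1
    have hX' : X ∈ (⊥ : Subalgebra F (Matrix ι ι F)) := hbot ▸ hXA
    rw [Algebra.mem_bot] at hX'
    obtain ⟨c, hc⟩ := hX'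
    obtain ⟨i₀⟩ := ‹Nonempty ι›
    have hm : Nonempty (Fin m) := ⟨(e i₀).2⟩
    obtain ⟨j⟩ := hm
    -- `Y` would be scalar
    have hY : Matrix.reindexAlgEquiv F F e.symm Y = c • (1 : Matrix ι ι F) := by
      have h3 : (P : Matrix ι ι F) * (Matrix.reindexAlgEquiv F F e.symm Y) * ((P⁻¹ : GL ι F) : Matrix ι ι F) = c • (1 : Matrix ι ι F) := by
        rw [← Algebra.algebraMap_eq_smul_one, hc]
      have h4 := congrArg (fun M => ((P⁻¹ : GL ι F) : Matrix ι ι F) * M * (P : Matrix ι ι F)) h3
      calc Matrix.reindexAlgEquiv F F e.symm Y = ((P⁻¹ : GL ι F) : Matrix ι ι F) * ((P : Matrix ι ι F) * (Matrix.reindexAlgEquiv F F e.symm Y) * ((P⁻¹ : GL ι F) : Matrix ι ι F)) * (P : Matrix ι ι F) := by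
            simp only [Matrix.mul_assoc]
            rw [← Units.val_mul, inv_mul_cancel, Units.val_one, Matrix.mul_one, ← Matrix.mul_assoc, ← Units.val_mul, inv_mul_cancel,
              Units.val_one, Matrix.one_mul]
        _ = _ := by
            rw [h4, Matrix.mul_smul, Matrix.smul_mul, Matrix.mul_one, ← Units.val_mul, inv_mul_cancel, Units.val_one]
    have hent : ∀ x : Fin 2 × Fin m, Y x x = c := by
      intro x
      have := congrFun (congrFun hY (e.symm x)) (e.symm x)
      simpa [Matrix.coe_reindexAlgEquiv] using this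
    have h0 := hent (0, j)
    have h1' := hent (1, j)
    simp [Y, ω] at h0 h1'
    rw [← h0] at h1'
    exact one_ne_zero h1'
  exact class3_of_fieldAlg hNA hFA hd

end Cfsg.Agent.H97.Asch
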