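import Cfsg.Agent.Lib.H97Sym5
import Cfsg.Agent.Lib.H97Max4
import Cfsg.Agent.Lib.H97Main

/-!
The list of candidate maximal subgroups of `SL_n(F)`, `n ≥ 3`.
-/

set_option autoImplicit false
set_option linter.unusedSectionVars false
set_option linter.style.haveILetI false

namespace Cfsg.Agent.H97.Asch

open Matrix Cfsg Cfsg.Geo
open scoped MatrixGroups commutatorElement

variable {F : Type*} [Field F] [Fintype F]

/-- The outcomes for a maximal subgroup of `SL_n(F)`. -/
def MaxOutcome (n : ℕ) (F : Type*) [Field F] [Fintype F] (H : Subgroup (GL (Fin n) F)) : Prop :=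
  (∃ W : Submodule F (Fin n → F), W ≠ ⊥ ∧ W ≠ ⊤ ∧ H = subspaceStabilizer W ⊓ specialLinear (Fin n) F) ∨
  (∃ (t m : ℕ) (D : Fin t → Submodule F (Fin n → F)), IsMDecomposition m D ∧ t * m = n ∧
    (m = 1 → 5 ≤ Fintype.card F) ∧ (m = 2 → 3 ≤ Fintype.card F) ∧ H = decompositionStabilizer D ⊓ specialLinear (Fin n) F) ∨
  (∃ (r : ℕ) (K : Subalgebra F (Matrix (Fin n) (Fin n) F)), r.Prime ∧ r ∣ n ∧ IsFieldSubalgebra r K ∧
    H = subalgebraNormalizer K ⊓ specialLinear (Fin n) F) ∨
  (∃ (n₁ n₂ : ℕ) (e : Fin n ≃ Fin n₁ × Fin n₂) (P : GL (Fin n) F), 2 ≤ n₁ ∧ n₁ < n₂ ∧ (n₁ = 2 → 3 ≤ Fintype.card F) ∧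
    H = tensorProductSubgroup n₁ n₂ e P ⊓ specialLinear (Fin n) F) ∨
  (∃ (F₀ : Subfield F) (r : ℕ) (P : GL (Fin n) F), r.Prime ∧ Fintype.card F = Nat.card F₀ ^ r ∧
    H = subfieldSubgroup F₀ P ⊓ specialLinear (Fin n) F) ∨
  (∃ (r m : ℕ) (R : Subgroup (GL (Fin n) F)), r.Prime ∧ n = r ^ m ∧ IsLinearSymplecticTypeData r R ∧
    H = subgroupNormalizer R ⊓ specialLinear (Fin n) F) ∨
  (∃ (m t : ℕ) (e : Fin n ≃ (Fin t → Fin m)) (P : GL (Fin n) F), 3 ≤ m ∧ 2 ≤ t ∧
    H = tensorWreathSubgroup m t e P ⊓ specialLinear (Fin n) F) ∨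
  (Odd (Fintype.card F) ∧ ∃ Q : (Fin n → F) → F, IsNondegenerateQuadraticForm Q ∧
    H = quadSimilarityGroup Q ⊓ specialLinear (Fin n) F) ∨
  (∃ f : (Fin n → F) → (Fin n → F) → F, IsSymplecticForm f ∧ H = similarityGroup f ⊓ specialLinear (Fin n) F) ∨
  (∃ (σ : F ≃+* F) (f : (Fin n → F) → (Fin n → F) → F), IsUnitaryForm σ f ∧
    H = similarityGroup f ⊓ specialLinear (Fin n) F) ∨
  InLinearResidualClass H

/-- The classes of maximal subgroups of `SL_n(F)`, `n ≥ 3`. -/
theorem linear_maximal_main {n : ℕ} (hn : 3 ≤ n) {H : Subgroup (GL (Fin n) F)}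
    (hH : IsMaximalIn (specialLinear (Fin n) F) H) : MaxOutcome n F H := by
  classical
  have hne : Nonempty (Fin n) := ⟨⟨0, by omega⟩⟩
  have hcard : Fintype.card (Fin n) = n := Fintype.card_fin n
  have hn3' : 3 ≤ Fintype.card (Fin n) := by omega
  have hq2 : 2 ≤ Fintype.card F := Fintype.one_lt_card
  have cl_stab : ∀ W : Submodule F (Fin n → F), W ≠ ⊥ → W ≠ ⊤ → H ≤ subspaceStabilizer W → MaxOutcome n F H := by
    intro W h0 h1 hle
    exact Or.inl ⟨W, h0, h1, maximal_eq hH hle (sl_not_le_stab h0 h1)⟩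
  have cl_symp : ∀ f : (Fin n → F) → (Fin n → F) → F, IsSymplecticForm f → H ≤ similarityGroup f → MaxOutcome n F H := by
    intro f hf hle
    refine Or.inr <| Or.inr <| Or.inr <| Or.inr <| Or.inr <| Or.inr <| Or.inr <| Or.inr <| Or.inl ⟨f, hf, maximal_eq hH hle ?_⟩
    exact sl_not_le_sim hn3' (sesq_of_bilinear hf.bilinear) (fun v hv => (hf.nondegenerate v hv).2)
  have cl_uni : ∀ (σ : F ≃+* F) (f : (Fin n → F) → (Fin n → F) → F), IsUnitaryForm σ f → H ≤ similarityGroup f → MaxOutcome n F H := by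
    intro σ f hf hle
    refine Or.inr <| Or.inr <| Or.inr <| Or.inr <| Or.inr <| Or.inr <| Or.inr <| Or.inr <| Or.inr <| Or.inl ⟨σ, f, hf, maximal_eq hH hle ?_⟩
    exact sl_not_le_sim hn3' (sesq_of_unitary hf) (fun v hv => (hf.nondegenerate v hv).2)
  have cl_quad : ∀ Q : (Fin n → F) → F, IsNondegenerateQuadraticForm Q → Odd (Fintype.card F) → H ≤ quadSimilarityGroup Q → MaxOutcome n F H := by
    intro Q hQ hodd hle
    refine Or.inr <| Or.inr <| Or.inr <| Or.inr <| Or.inr <| Or.inr <| Or.inr <| Or.inl ⟨hodd, Q, hQ, maximal_eq hH hle ?_⟩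
    exact sl_not_le_quad hn3' hQ
  have cl_wreath : ∀ (m t : ℕ) (e : Fin n ≃ (Fin t → Fin m)) (P : GL (Fin n) F), 2 ≤ m → 2 ≤ t → H ≤ tensorWreathSubgroup m t e P → MaxOutcome n F H := by
    intro m t e P hm ht hle
    by_cases hm3 : 3 ≤ m
    · exact Or.inr <| Or.inr <| Or.inr <| Or.inr <| Or.inr <| Or.inr <| Or.inl ⟨m, t, e, P, hm3, ht, maximal_eq hH hle (sl_not_le_wreath hm ht e P)⟩
    · have hm2 : m = 2 := by omega
      subst hm2
      rcases wreath2_form (by omega : t ≠ 0) e P with ⟨f, hf, hle'⟩ | ⟨Q, hQ, hodd, hle'⟩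
      · exact cl_symp f hf (hle.trans hle')
      · exact cl_quad Q hQ hodd (hle.trans hle')
  have cl_sub : ∀ (F₁ : Subfield F) (q : ℕ) (P : GL (Fin n) F), q.Prime → Fintype.card F = Nat.card F₁ ^ q → H ≤ subfieldSubgroup F₁ P → MaxOutcome n F H := by
    intro F₁ q P hq hc hle
    refine Or.inr <| Or.inr <| Or.inr <| Or.inr <| Or.inl ⟨F₁, q, P, hq, hc, maximal_eq hH hle ?_⟩
    refine sl_not_le_subfield ?_ (by omega) P
    rintro rfl
    have h1 : Nat.card (⊤ : Subfield F) = Fintype.card F := by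
      rw [← Nat.card_eq_fintype_card]
      exact Nat.card_congr Subfield.topEquiv.toEquiv
    rw [h1] at hc
    have h2 : Fintype.card F < Fintype.card F ^ q := lt_self_pow₀ (by omega) hq.one_lt
    omega
  have cl_class3 : Class3 H → MaxOutcome n F H := by
    rintro ⟨r, K, hr, hK, hle⟩
    refine Or.inr <| Or.inr <| Or.inl ⟨r, K, hr, ?_, hK, maximal_eq hH hle (sl_not_le_field hr.two_le hn3' hK)⟩
    have := dvd_of_fieldSubalgebra hK
    rwa [hcard] at this
  by_cases hirr : Irr H
  · rcases normalised_trivial hirr with ⟨t, m, D, hD, hle⟩ | hK | hgeo | hB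
    · have hmul := card_of_mdecomp hD
      rw [hcard] at hmul
      by_cases hm1 : m = 1
      · subst hm1
        rcases lines_branch hH hn3' hD hle with ⟨h5, h⟩ | ⟨W, h0, h1, h⟩ | ⟨hodd, Q, hQ, h⟩ | ⟨σ, f, hf, h⟩
        · exact Or.inr (Or.inl ⟨t, 1, D, hD, hmul, fun _ => h5, fun h => by omega, h⟩)
        · exact Or.inl ⟨W, h0, h1, h⟩
        · exact Or.inr <| Or.inr <| Or.inr <| Or.inr <| Or.inr <| Or.inr <| Or.inr <| Or.inl ⟨hodd, Q, hQ, h⟩
        · exact Or.inr <| Or.inr <| Or.inr <| Or.inr <| Or.inr <| Or.inr <| Or.inr <| Or.inr <| Or.inr <| Or.inl ⟨σ, f, hf, h⟩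
      · by_cases hq : m = 2 ∧ Fintype.card F = 2
        · obtain ⟨rfl, hq⟩ := hq
          obtain ⟨f, hf, hle'⟩ := planes_symp hq hD
          exact cl_symp f hf (hle.trans hle')
        · refine Or.inr (Or.inl ⟨t, m, D, hD, hmul, fun h => absurd h hm1, fun h => ?_, maximal_eq hH hle (sl_not_le_decompM hD)⟩)
          have : Fintype.card F ≠ 2 := fun h' => hq ⟨h, h'⟩
          omega
    · exact cl_class3 hK
    · rcases hgeo with ⟨n₁, n₂, e, P, h1, h2, hle⟩ | ⟨m, t, e, P, hm, ht, hle⟩
      · by_cases hq : n₁ = 2 ∧ Fintype.card F = 2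
        · obtain ⟨rfl, hq⟩ := hq
          exact cl_class3 (tensor2_class3 hq e P hle)
        · refine Or.inr <| Or.inr <| Or.inr <| Or.inl ⟨n₁, n₂, e, P, h1, h2, fun h => ?_, maximal_eq hH hle (sl_not_le_tensor h1 (by omega) e P)⟩
          have : Fintype.card F ≠ 2 := fun h' => hq ⟨h, h'⟩
          omega
      · exact cl_wreath m t e P hm ht hle
    · have hT : ∀ N, Nrm H N → N ≤ scalars (Fin n) F ∨ spanG N = ⊤ := by
        intro N hN
        rcases hB (spanG N) (normAlg_spanG hN) with h | h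
        · exact Or.inl (le_scalars_of_spanG_bot h)
        · exact Or.inr h
      rcases tri2 (by omega) hirr hT with ⟨N, -, hNn, hspan, hcomm, hZN, hmin⟩ | ⟨m, t, e, P, hm, ht, hle⟩ | ⟨P, hP⟩
      · obtain ⟨r, R, C, hR⟩ := exists_symCtx (by omega) hNn hspan hcomm hZN hmin
        rcases sym_branch' hn3' C hR with ⟨F₁, q, P, hq, hc, hle⟩ | ⟨⟨ω, hω⟩, hd, hle⟩ | ⟨σ, f, hf, hle⟩ | ⟨f, hf, hle⟩ | ⟨Q, hQ, hodd, hle⟩
        · exact cl_sub F₁ q P hq hc hle
        · obtain ⟨m, hm, -⟩ := C.card_eq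
          rw [hcard] at hm
          exact Or.inr <| Or.inr <| Or.inr <| Or.inr <| Or.inr <| Or.inl ⟨r, m, R, C.prime, hm, hd, maximal_eq hH hle (C.sl_not_le hω (by omega))⟩
        · exact cl_uni σ f hf hle
        · exact cl_symp f hf hle
        · exact cl_quad Q hQ hodd hle
      · exact cl_wreath m t e P hm ht hle
      · -- almost simple
        have habs := habs_of_matrixSet hP.absIrred
        by_cases hsub : ∃ F₀ : Subfield F, F₀ ≠ ⊤ ∧ RealisableOver F₀ (matrixSet P)
        · obtain ⟨F₀, hF₀, B, hB'⟩ := hsub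
          obtain ⟨F₁, r, hr, hle, hc⟩ := exists_prime_index_subfield hF₀
          refine cl_sub F₁ r B⁻¹ hr (by rw [← Nat.card_eq_fintype_card]; exact hc) fun h hh => ?_
          exact mem_subfieldSubgroup_of_normalize habs (fun s hs i j => hle (hB' _ ⟨s, hs, rfl⟩ i j)) (hP.normal h hh)
        · push Not at hsub
          by_cases hQ : ∃ Q : (Fin n → F) → F, IsNondegenerateQuadraticForm Q ∧ FixesQuadForm (matrixSet P) Q
          · obtain ⟨Q, hQ, hfix⟩ := hQ
            by_cases h2 : (2 : F) = 0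
            · -- the polar form is symplectic
              have hS := sesq_of_bilinear hQ.polar_bilinear
              refine cl_symp (QuadraticMap.polar Q) ⟨hQ.polar_bilinear, fun v w => ?_, fun v => ?_, hQ.nondegenerate⟩ fun h hh => ?_
              · have hsym : QuadraticMap.polar Q v w = QuadraticMap.polar Q w v := by
                  simp only [QuadraticMap.polar, add_comm v w]
                  ring
                rw [hsym]
                have h2' : ∀ x : F, x = - x := fun x => by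
                  have : x + x = 0 := by
                    rw [← two_mul, h2, zero_mul]
                  exact eq_neg_of_add_eq_zero_left this
                exact h2' _
              · rw [polar_self hQ, h2, zero_mul]
              · exact normalize_mem_sim habs hS (fun v hv => (hQ.nondegenerate v hv).2)
                  (fun g hg u v => fixes_polar (fun v => hfix _ ⟨g, hg, rfl⟩ v) u v) (hP.normal h hh)
            · have hodd : Odd (Fintype.card F) := by
                have hne : ringChar F ≠ 2 := by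
                  intro h
                  apply h2
                  have : CharP F 2 := by
                    rw [← h]
                    exact ringChar.charP F
                  exact CharTwo.two_eq_zero
                exact Nat.odd_iff.mpr (FiniteField.odd_card_of_char_ne_two hne)
              refine cl_quad Q hQ hodd fun h hh => ?_
              exact normalize_mem_quadSim habs hQ h2 (fun g hg v => hfix _ ⟨g, hg, rfl⟩ v) (hP.normal h hh)
          · by_cases hS : ∃ f : (Fin n → F) → (Fin n → F) → F, IsSymplecticForm f ∧ FixesForm (matrixSet P) f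
            · obtain ⟨f, hf, hfix⟩ := hS
              refine cl_symp f hf fun h hh => ?_
              exact normalize_mem_sim habs (sesq_of_bilinear hf.bilinear) (fun v hv => (hf.nondegenerate v hv).2)
                (fun g hg u v => hfix _ ⟨g, hg, rfl⟩ u v) (hP.normal h hh)
            · by_cases hU : ∃ (σ : F ≃+* F) (f : (Fin n → F) → (Fin n → F) → F), IsUnitaryForm σ f ∧ FixesForm (matrixSet P) f
              · obtain ⟨σ, f, hf, hfix⟩ := hU
                refine cl_uni σ f hf fun h hh => ?_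
                exact normalize_mem_sim habs (sesq_of_unitary hf) (fun v hv => (hf.nondegenerate v hv).2)
                  (fun g hg u v => hfix _ ⟨g, hg, rfl⟩ u v) (hP.normal h hh)
              · exact Or.inr <| Or.inr <| Or.inr <| Or.inr <| Or.inr <| Or.inr <| Or.inr <| Or.inr <| Or.inr <| Or.inr ⟨P, hP.toCore hsub, hQ, hS, hU⟩
  · unfold Irr at hirr
    push Not at hirr
    obtain ⟨W, hW, h0, h1⟩ := hirr
    refine cl_stab W h0 h1 fun h hh v => ?_
    constructor
    · exact hW h hh v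
    · intro hv
      have := hW h⁻¹ (H.inv_mem hh) _ hv
      simpa using this

end Cfsg.Agent.H97.Asch
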