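import Cfsg.Agent.Lib.H97Max5

/-!
Arithmetic side conditions for the composite maximal subgroup lists.
-/

set_option autoImplicit false
set_option linter.unusedSectionVars false
set_option linter.style.haveILetI false

namespace Cfsg.Agent.H97.Asch

open Matrix Cfsg Cfsg.Geo
open scoped MatrixGroups

variable {ι : Type} [Fintype ι] [DecidableEq ι] {F : Type*} [Field F] [Fintype F]

theorem tensor_dims {n a b : ℕ} (e : Fin n ≃ Fin a × Fin b) : a * b = n := by
  have := Fintype.card_congr e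
  simpa [Fintype.card_fin, Fintype.card_prod] using this.symm

theorem wreath_dims {n m t : ℕ} (e : Fin n ≃ (Fin t → Fin m)) : m ^ t = n := by
  have := Fintype.card_congr e
  simpa [Fintype.card_fin, Fintype.card_fun] using this.symm

theorem no_prime_pow_of_two_primes {a b N r m : ℕ} (ha : a.Prime) (hb : b.Prime) (hab : a ≠ b) (haN : a ∣ N) (hbN : b ∣ N)
    (hr : r.Prime) (hm : N = r ^ m) : False := by
  subst hm
  have h1 := (Nat.prime_dvd_prime_iff_eq ha hr).1 (ha.dvd_of_dvd_pow haN)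
  have h2 := (Nat.prime_dvd_prime_iff_eq hb hr).1 (hb.dvd_of_dvd_pow hbN)
  exact hab (h1.trans h2.symm)

theorem prime_of_dvd_pow {a N r m : ℕ} (ha : a.Prime) (haN : a ∣ N) (hr : r.Prime) (hm : N = r ^ m) : r = a := by
  subst hm
  exact ((Nat.prime_dvd_prime_iff_eq ha hr).1 (ha.dvd_of_dvd_pow haN)).symm

/-- class `6` with `r = 2`. -/
theorem class6_two (hn : Fintype.card ι ≠ 2) {R : Subgroup (GL ι F)} (hd : IsLinearSymplecticTypeData 2 R) :
    ∃ p : ℕ, p.Prime ∧ Fintype.card F = p ∧ p % 4 = 1 := by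
  obtain ⟨p, e, -, hmin, hcase⟩ := hd.field
  rcases hcase with ⟨h, -⟩ | ⟨-, rfl, h4, -⟩ | ⟨-, -, h2, -⟩
  · exact absurd h (by decide)
  · obtain ⟨hp, -, hc, hdvd, -⟩ := hmin
    rw [h4, pow_one] at hdvd
    rw [pow_one] at hc
    refine ⟨p, hp, hc, ?_⟩
    have := hp.two_le
    omega
  · exact absurd h2 hn

/-- class `6` with `r = 3`. -/
theorem class6_three {R : Subgroup (GL ι F)} (hd : IsLinearSymplecticTypeData 3 R) :
    ∃ p : ℕ, p.Prime ∧ Fintype.card F = p ∧ p % 3 = 1 := by
  obtain ⟨p, e, hrp, hmin, hcase⟩ := hd.field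
  rcases hcase with ⟨-, he, h3, -⟩ | ⟨h, -⟩ | ⟨h, -⟩
  · obtain ⟨hp, -, hc, hdvd, hno⟩ := hmin
    rw [h3] at hdvd hno
    have hp3 : p % 3 ≠ 0 := by
      intro h0
      have h1 := (Nat.prime_dvd_prime_iff_eq Nat.prime_three hp).1 (Nat.dvd_of_mod_eq_zero h0)
      exact hrp h1
    have hsq : 3 ∣ p ^ 2 - 1 := by
      apply (Nat.modEq_iff_dvd' (Nat.one_le_pow _ _ hp.pos)).mp
      unfold Nat.ModEq
      have hlt : p % 3 < 3 := Nat.mod_lt _ (by norm_num)
      rw [Nat.pow_mod]
      interval_cases h : p % 3 <;> simp_all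
    have he1 : e = 1 := by
      by_contra hne
      obtain ⟨k, rfl⟩ := he
      have : 2 < 2 * k + 1 := by
        by_contra hlt
        have : k = 0 := by omega
        subst this
        exact hne rfl
      exact hno 2 (by norm_num) this hsq
    subst he1
    rw [pow_one] at hc hdvd
    refine ⟨p, hp, hc, ?_⟩
    have := hp.two_le
    omega
  · omega
  · omega

end Cfsg.Agent.H97.Asch
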