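import Cfsg.Agent.Lib.H97Max6

/-!
Frames in dimension four over `F_5`: the monomial group normalises a group of symplectic type.
-/

set_option autoImplicit false
set_option linter.unusedSectionVars false
set_option linter.style.haveILetI false

namespace Cfsg.Agent.H97.Asch

open Matrix Cfsg Cfsg.Geo
open scoped MatrixGroups

variable {ι : Type} [Fintype ι] [DecidableEq ι] {F : Type*} [Field F]

section mono

variable {κ : Type} [Fintype κ] [DecidableEq κ]

/-- the monomial matrix attached to a basis -/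
noncomputable def monoM (b : Module.Basis κ F (ι → F)) (π : κ → κ) (c : κ → F) : Matrix ι ι F :=
  LinearMap.toMatrix' (b.constr F fun k => c k • b (π k))

theorem monoM_apply (b : Module.Basis κ F (ι → F)) (π : κ → κ) (c : κ → F) (k : κ) :
    monoM b π c *ᵥ b k = c k • b (π k) := by
  rw [monoM, ← Matrix.toLin'_apply, Matrix.toLin'_toMatrix']
  simp

/-- the monomial group element attached to a basis -/
noncomputable def monoG (b : Module.Basis κ F (ι → F)) (π : Equiv.Perm κ) (c : κ → F) (hc : ∀ k, c k ≠ 0) : GL ι F where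
  val := monoM b π c
  inv := monoM b π.symm (fun k => (c (π.symm k))⁻¹)
  val_inv := by
    apply gl_ext_basis b
    intro k
    rw [← Matrix.mulVec_mulVec, monoM_apply, Matrix.mulVec_smul, monoM_apply, smul_smul, Matrix.one_mulVec]
    simp [hc]
  inv_val := by
    apply gl_ext_basis b
    intro k
    rw [← Matrix.mulVec_mulVec, monoM_apply, Matrix.mulVec_smul, monoM_apply, smul_smul, Matrix.one_mulVec]
    simp [hc]

theorem monoG_apply (b : Module.Basis κ F (ι → F)) (π : Equiv.Perm κ) (c : κ → F) (hc : ∀ k, c k ≠ 0) (k : κ) :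
    ((monoG b π c hc : GL ι F) : Matrix ι ι F) *ᵥ b k = c k • b (π k) :=
  monoM_apply b π c k

/-- the square of the determinant of a monomial matrix -/
theorem det_sq_of_mono (b : Module.Basis κ F (ι → F)) {h : Matrix ι ι F} {π : Equiv.Perm κ} {d : κ → F}
    (hd : ∀ k, h *ᵥ b k = d k • b (π k)) : h.det ^ 2 = (∏ k, d k) ^ 2 := by
  classical
  have h1 : h.det = (LinearMap.toMatrix b b (Matrix.toLin' h)).det := by
    rw [LinearMap.det_toMatrix, LinearMap.det_toLin']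
  have hM : ∀ x y, LinearMap.toMatrix b b (Matrix.toLin' h) x y = if x = π y then d y else 0 := by
    intro x y
    rw [LinearMap.toMatrix_apply, Matrix.toLin'_apply, hd, map_smul, Module.Basis.repr_self, Finsupp.smul_apply,
      Finsupp.single_apply]
    by_cases hxy : π y = x
    · subst hxy
      simp
    · simp [hxy, Ne.symm hxy]
  have h2 : (LinearMap.toMatrix b b (Matrix.toLin' h)).det = (Equiv.Perm.sign π : ℤ) * ∏ k, d k := by
    rw [Matrix.det_apply']
    rw [Finset.sum_eq_single π]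
    · congr 1
      apply Finset.prod_congr rfl
      intro k _
      rw [hM]
      simp
    · intro σ _ hσ
      apply mul_eq_zero_of_right
      obtain ⟨k, hk⟩ : ∃ k, σ k ≠ π k := by
        by_contra hall
        push Not at hall
        exact hσ (Equiv.ext hall)
      apply Finset.prod_eq_zero (Finset.mem_univ k)
      rw [hM, if_neg hk]
    · intro h
      exact absurd (Finset.mem_univ π) h
  rw [h1, h2, mul_pow]
  have h3 : (((Equiv.Perm.sign π : ℤ) : F)) ^ 2 = 1 := by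
    rcases Int.units_eq_one_or (Equiv.Perm.sign π) with e | e <;> simp [e]
  rw [h3, one_mul]

end mono

/-- the Klein four subgroup of `S_4`, as a predicate -/
def IsV4 (π : Equiv.Perm (Fin 4)) : Prop := π * π = 1 ∧ (π = 1 ∨ ∀ w, π w ≠ w)

instance : DecidablePred IsV4 := fun _ => by unfold IsV4; infer_instance

set_option maxRecDepth 100000 in
theorem isV4_mul : ∀ π ρ : Equiv.Perm (Fin 4), IsV4 π → IsV4 ρ → IsV4 (π * ρ) ∧ π * ρ = ρ * π := by decide

set_option maxRecDepth 100000 in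
theorem isV4_trans : ∀ x y : Fin 4, ∃ π : Equiv.Perm (Fin 4), IsV4 π ∧ π y = x := by decide

set_option maxRecDepth 100000 in
theorem isV4_cases : ∀ π : Equiv.Perm (Fin 4), IsV4 π →
    (∀ w, π w = w) ∨ (π 0 = 1 ∧ π 1 = 0 ∧ π 2 = 3 ∧ π 3 = 2) ∨ (π 0 = 2 ∧ π 1 = 3 ∧ π 2 = 0 ∧ π 3 = 1) ∨
    (π 0 = 3 ∧ π 1 = 2 ∧ π 2 = 1 ∧ π 3 = 0) := by decide

theorem isV4_conj {π : Equiv.Perm (Fin 4)} (σ : Equiv.Perm (Fin 4)) (hπ : IsV4 π) : IsV4 (σ * π * σ⁻¹) := by
  obtain ⟨h1, h2⟩ := hπ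
  constructor
  · calc σ * π * σ⁻¹ * (σ * π * σ⁻¹) = σ * (π * π) * σ⁻¹ := by group
      _ = 1 := by rw [h1]; group
  · rcases h2 with rfl | h2
    · left
      group
    · right
      intro w h
      apply h2 (σ⁻¹ w)
      have : σ (π (σ⁻¹ w)) = w := h
      exact Equiv.Perm.eq_inv_iff_eq.mpr this

/-- the condition on the entries of elements of the group -/
def IsChi (c : Fin 4 → F) : Prop := (∏ w, c w = 1) ∧ ∀ w w', c w ^ 2 = c w' ^ 2

theorem IsChi.ne_zero {c : Fin 4 → F} (hc : IsChi c) (w : Fin 4) : c w ≠ 0 := by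
  intro h
  have := hc.1
  rw [Finset.prod_eq_zero (Finset.mem_univ w) h] at this
  exact zero_ne_one this

theorem IsChi.const {c : Fin 4 → F} (hc : IsChi c) (h4 : c 0 ^ 4 = 1) {ρ : Equiv.Perm (Fin 4)} (hρ : IsV4 ρ) (w z : Fin 4) :
    c (ρ w) * c z = c (ρ z) * c w := by
  obtain ⟨hp, hs⟩ := hc
  rw [Fin.prod_univ_four] at hp
  have e1 := hs 0 1
  have e2 := hs 0 2
  have e3 := hs 0 3
  have hk1 : c 1 * c 2 = c 0 * c 3 := by
    have hsq : (c 1 * c 2) * (c 1 * c 2) = 1 := by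
      linear_combination (c 2 ^ 2) * (-e1) - c 0 ^ 2 * e2 + h4
    linear_combination (c 0 * c 3) * hsq - (c 1 * c 2) * hp
  have hk2 : c 1 * c 3 = c 0 * c 2 := by
    have hsq : (c 1 * c 3) * (c 1 * c 3) = 1 := by
      linear_combination (c 3 ^ 2) * (-e1) - c 0 ^ 2 * e3 + h4
    linear_combination (c 0 * c 2) * hsq - (c 1 * c 3) * hp
  have hk3 : c 2 * c 3 = c 0 * c 1 := by
    have hsq : (c 2 * c 3) * (c 2 * c 3) = 1 := by
      linear_combination (c 3 ^ 2) * (-e2) - c 0 ^ 2 * e3 + h4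
    linear_combination (c 0 * c 1) * hsq - (c 2 * c 3) * hp
  have e4 : c 1 ^ 2 = c 2 ^ 2 := hs 1 2
  have e5 : c 1 ^ 2 = c 3 ^ 2 := hs 1 3
  have e6 : c 2 ^ 2 = c 3 ^ 2 := hs 2 3
  rcases isV4_cases ρ hρ with h | ⟨h0, h1, h2, h3⟩ | ⟨h0, h1, h2, h3⟩ | ⟨h0, h1, h2, h3⟩
  · rw [h, h]
    ring
  all_goals
    fin_cases w <;> fin_cases z <;> simp only [Fin.zero_eta, Fin.isValue, Fin.mk_one, Fin.reduceFinMk, h0, h1, h2, h3] <;>
    first
      | ring1
      | linear_combination e1 | linear_combination -e1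
      | linear_combination e2 | linear_combination -e2
      | linear_combination e3 | linear_combination -e3
      | linear_combination e4 | linear_combination -e4
      | linear_combination e5 | linear_combination -e5
      | linear_combination e6 | linear_combination -e6
      | linear_combination hk1 | linear_combination -hk1
      | linear_combination hk2 | linear_combination -hk2
      | linear_combination hk3 | linear_combination -hk3

section frame

/-- the carrier of the group of symplectic type attached to a frame -/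
def frameSet (b : Module.Basis (Fin 4) F (ι → F)) : Set (GL ι F) :=
  {g | ∃ (π : Equiv.Perm (Fin 4)) (c : Fin 4 → F), IsV4 π ∧ IsChi c ∧ ∀ w, (g : Matrix ι ι F) *ᵥ b w = c w • b (π w)}

theorem frameSet_mul {b : Module.Basis (Fin 4) F (ι → F)} {g g' : GL ι F} (hg : g ∈ frameSet b) (hg' : g' ∈ frameSet b) :
    g * g' ∈ frameSet b := by
  obtain ⟨π, c, hπ, hc, hgb⟩ := hg
  obtain ⟨ρ, d, hρ, hd, hgb'⟩ := hg'
  refine ⟨π * ρ, fun w => d w * c (ρ w), (isV4_mul π ρ hπ hρ).1, ⟨?_, fun w w' => ?_⟩, fun w => ?_⟩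
  · rw [Finset.prod_mul_distrib, hd.1, one_mul, Equiv.prod_comp ρ c, hc.1]
  · rw [mul_pow, mul_pow, hd.2 w w', hc.2 (ρ w) (ρ w')]
  · rw [Units.val_mul, ← Matrix.mulVec_mulVec, hgb', Matrix.mulVec_smul, hgb, smul_smul]
    rfl

theorem frameSet_one (b : Module.Basis (Fin 4) F (ι → F)) : (1 : GL ι F) ∈ frameSet b := by
  refine ⟨1, fun _ => 1, by decide, ⟨by simp, fun _ _ => rfl⟩, fun w => ?_⟩
  simp

theorem frameSet_pow {b : Module.Basis (Fin 4) F (ι → F)} (h4 : ∀ x : F, x ≠ 0 → x ^ 4 = 1) {g : GL ι F} (hg : g ∈ frameSet b) :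
    g * g * (g * g) = 1 := by
  obtain ⟨π, c, hπ, hc, hgb⟩ := hg
  have hpp : ∀ w, π (π w) = w := fun w => by
    have := congrArg (fun τ : Equiv.Perm (Fin 4) => τ w) hπ.1
    simpa using this
  have h2 : ∀ w, ((g * g : GL ι F) : Matrix ι ι F) *ᵥ b w = (c w * c (π w)) • b w := by
    intro w
    rw [Units.val_mul, ← Matrix.mulVec_mulVec, hgb, Matrix.mulVec_smul, hgb, hpp, smul_smul]
  apply Units.ext
  apply gl_ext_basis b
  intro w
  rw [Units.val_mul, ← Matrix.mulVec_mulVec, h2, Matrix.mulVec_smul, h2, smul_smul, Units.val_one, Matrix.one_mulVec]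
  have e1 : c w * c (π w) * (c w * c (π w)) = c w ^ 2 * c (π w) ^ 2 := by ring
  rw [e1, ← hc.2 w (π w), ← pow_add]
  have := h4 (c w) (hc.ne_zero w)
  rw [show 2 + 2 = 4 from rfl, this, one_smul]

/-- the group of symplectic type attached to a frame -/
def frameGroup (b : Module.Basis (Fin 4) F (ι → F)) (h4 : ∀ x : F, x ≠ 0 → x ^ 4 = 1) : Subgroup (GL ι F) where
  carrier := frameSet b
  mul_mem' := frameSet_mul
  one_mem' := frameSet_one b
  inv_mem' := fun {g} hg => by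
    have h : g⁻¹ = g * g * g := by
      rw [inv_eq_iff_mul_eq_one]
      have := frameSet_pow h4 hg
      rw [← this]
      group
    show g⁻¹ ∈ frameSet b
    rw [h]
    exact frameSet_mul (frameSet_mul hg hg) hg

theorem frameGroup_conj {b : Module.Basis (Fin 4) F (ι → F)} (h4 : ∀ x : F, x ≠ 0 → x ^ 4 = 1) {h : GL ι F} {σ : Equiv.Perm (Fin 4)}
    {d : Fin 4 → F} (hdet : (h : Matrix ι ι F).det = 1) (hd : ∀ k, (h : Matrix ι ι F) *ᵥ b k = d k • b (σ k)) {x : GL ι F}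
    (hx : x ∈ frameSet b) : h * x * h⁻¹ ∈ frameSet b := by
  obtain ⟨π, c, hπ, hc, hxb⟩ := hx
  have hd0 : ∀ k, d k ≠ 0 := by
    intro k h0
    have := hd k
    rw [h0, zero_smul] at this
    exact b.ne_zero k (gl_mulVec_injective h (by simpa using this))
  have hinv : ∀ u, ((h⁻¹ : GL ι F) : Matrix ι ι F) *ᵥ b u = (d (σ⁻¹ u))⁻¹ • b (σ⁻¹ u) := by
    intro u
    have h1 := hd (σ⁻¹ u)
    have h2 : σ (σ⁻¹ u) = u := by simp
    rw [h2] at h1
    have h3 : ((h⁻¹ : GL ι F) : Matrix ι ι F) *ᵥ ((h : Matrix ι ι F) *ᵥ b (σ⁻¹ u)) = b (σ⁻¹ u) := by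
      simp
    rw [h1, Matrix.mulVec_smul] at h3
    rw [← h3, smul_smul, inv_mul_cancel₀ (hd0 _), one_smul]
  refine ⟨σ * π * σ⁻¹, fun u => c (σ⁻¹ u) * d (π (σ⁻¹ u)) * (d (σ⁻¹ u))⁻¹, isV4_conj σ hπ, ⟨?_, fun u u' => ?_⟩, fun u => ?_⟩
  · have hprod : ∏ k, d k ≠ 0 := Finset.prod_ne_zero_iff.mpr fun k _ => hd0 k
    rw [Equiv.prod_comp σ⁻¹ (fun w => c w * d (π w) * (d w)⁻¹), Finset.prod_mul_distrib, Finset.prod_mul_distrib, hc.1, one_mul,
      Equiv.prod_comp π d, Finset.prod_inv_distrib, mul_inv_cancel₀ hprod]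
  · have hD : IsChi (fun w => d w ^ 2) := by
      refine ⟨?_, fun w w' => ?_⟩
      · rw [Finset.prod_pow, ← det_sq_of_mono b hd, hdet, one_pow]
      · rw [← pow_mul, ← pow_mul, h4 _ (hd0 w), h4 _ (hd0 w')]
    have hk := hD.const (by
      show (d 0 ^ 2) ^ 4 = 1
      rw [show (d 0 ^ 2) ^ 4 = (d 0 ^ 4) ^ 2 by ring, h4 _ (hd0 0), one_pow]) hπ (σ⁻¹ u) (σ⁻¹ u')
    have hc2 := hc.2 (σ⁻¹ u) (σ⁻¹ u')
    have e1 := hd0 (σ⁻¹ u)
    have e2 := hd0 (σ⁻¹ u')
    field_simp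
    linear_combination (d (π (σ⁻¹ u)) ^ 2 * d (σ⁻¹ u') ^ 2) * hc2 + (c (σ⁻¹ u') ^ 2) * hk
  · rw [Units.val_mul, Units.val_mul, ← Matrix.mulVec_mulVec, ← Matrix.mulVec_mulVec, hinv, Matrix.mulVec_smul, Matrix.mulVec_smul, hxb,
      Matrix.mulVec_smul, hd, smul_smul, smul_smul]
    congr 1
    ring

theorem frameGroup_comm {b : Module.Basis (Fin 4) F (ι → F)} (h4 : ∀ x : F, x ≠ 0 → x ^ 4 = 1) {x y : GL ι F}
    (hx : x ∈ frameSet b) (hy : y ∈ frameSet b) : ∃ ξ : Fˣ, ξ ^ 2 = 1 ∧ x * y = scU ξ * (y * x) := by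
  obtain ⟨π, c, hπ, hc, hxb⟩ := hx
  obtain ⟨ρ, d, hρ, hd, hyb⟩ := hy
  have hc0 := hc.ne_zero
  have hd0 := hd.ne_zero
  have hξ : c (ρ 0) * (c 0)⁻¹ * d 0 * (d (π 0))⁻¹ ≠ 0 := by
    simp [hc0, hd0]
  refine ⟨Units.mk0 _ hξ, ?_, ?_⟩
  · apply Units.ext
    simp only [Units.val_pow_eq_pow_val, Units.val_mk0, Units.val_one]
    have e1 := hc.2 (ρ 0) 0
    have e2 := hd.2 (π 0) 0
    have e3 := hc0 0
    have e4 := hd0 (π 0)
    field_simp
    linear_combination (d 0 ^ 2) * e1 - (c 0 ^ 2) * e2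
  · apply Units.ext
    apply gl_ext_basis b
    intro w
    rw [Units.val_mul, Units.val_mul, Units.val_mul, ← Matrix.mulVec_mulVec, ← Matrix.mulVec_mulVec, ← Matrix.mulVec_mulVec, hyb, hxb,
      Matrix.mulVec_smul, Matrix.mulVec_smul, hxb, hyb, scU_val, Matrix.smul_mulVec, Matrix.one_mulVec]
    have e1 : π (ρ w) = ρ (π w) := by
      have := congrArg (fun τ : Equiv.Perm (Fin 4) => τ w) (isV4_mul π ρ hπ hρ).2
      simpa using this
    rw [e1, smul_smul, smul_smul, smul_smul]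
    congr 1
    have k1 := hc.const (h4 _ (hc0 0)) hρ w 0
    have k2 := hd.const (h4 _ (hd0 0)) hπ w 0
    simp only [Units.val_mk0]
    have e3 := hc0 0
    have e4 := hd0 (π 0)
    field_simp
    linear_combination (d w * d (π 0)) * k1 - (c (ρ 0) * c w) * k2

theorem eq_top_of_matrixUnits {κ : Type} [Fintype κ] [DecidableEq κ] (b : Module.Basis κ F (ι → F)) (A : Subalgebra F (Matrix ι ι F))
    (hA : ∀ x y, ∃ T ∈ A, ∀ w, T *ᵥ b w = if w = y then b x else 0) : A = ⊤ := by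
  classical
  choose T hTA hT using hA
  rw [eq_top_iff]
  intro M _
  have hM : M = ∑ x, ∑ y, (b.repr (M *ᵥ b y) x) • T x y := by
    apply gl_ext_basis b
    intro w
    have e1 : ∀ (S : Finset κ) (f : κ → Matrix ι ι F), (∑ i ∈ S, f i) *ᵥ b w = ∑ i ∈ S, (f i) *ᵥ b w := by
      intro S f
      induction S using Finset.induction_on with
      | empty => simp
      | insert a S ha ih => rw [Finset.sum_insert ha, Finset.sum_insert ha, Matrix.add_mulVec, ih]
    rw [e1]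
    conv_lhs => rw [← b.sum_repr (M *ᵥ b w)]
    apply Finset.sum_congr rfl
    intro x _
    rw [e1, Finset.sum_eq_single w]
    · rw [Matrix.smul_mulVec, hT, if_pos rfl]
    · intro y _ hy
      rw [Matrix.smul_mulVec, hT, if_neg (Ne.symm hy), smul_zero]
    · intro h
      exact absurd (Finset.mem_univ w) h
  rw [hM]
  exact A.sum_mem fun x _ => A.sum_mem fun y _ => A.smul_mem (hTA x y) _

theorem frameGroup_span (b : Module.Basis (Fin 4) F (ι → F)) (h4 : ∀ x : F, x ≠ 0 → x ^ 4 = 1) (h40 : (4 : F) ≠ 0) :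
    spanG (frameGroup b h4) = ⊤ := by
  classical
  have h20 : (2 : F) ≠ 0 := by
    intro h
    apply h40
    have : (4 : F) = 2 * 2 := by norm_num
    rw [this, h, zero_mul]
  have h1ne : (-1 : F) ≠ 0 := neg_ne_zero.mpr one_ne_zero
  let χ₁ : Fin 4 → F := ![1, 1, -1, -1]
  let χ₂ : Fin 4 → F := ![1, -1, 1, -1]
  let χ₃ : Fin 4 → F := ![1, -1, -1, 1]
  have hs : ∀ (χ : Fin 4 → F), (∀ w, χ w = 1 ∨ χ w = -1) → ∀ w w', χ w ^ 2 = χ w' ^ 2 := by
    intro χ h w w'
    rcases h w with e | e <;> rcases h w' with e' | e' <;> rw [e, e'] <;> norm_num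
  have hχ₁ : IsChi χ₁ := ⟨by simp [Fin.prod_univ_four, χ₁], hs _ fun w => by fin_cases w <;> simp [χ₁]⟩
  have hχ₂ : IsChi χ₂ := ⟨by simp [Fin.prod_univ_four, χ₂], hs _ fun w => by fin_cases w <;> simp [χ₂]⟩
  have hχ₃ : IsChi χ₃ := ⟨by simp [Fin.prod_univ_four, χ₃], hs _ fun w => by fin_cases w <;> simp [χ₃]⟩
  have hZ : ∀ χ : Fin 4 → F, IsChi χ → ∃ T ∈ spanG (frameGroup b h4), ∀ w, T *ᵥ b w = χ w • b w := by
    intro χ hχ
    refine ⟨(monoG b 1 χ hχ.ne_zero : GL ι F), mem_spanG (N := frameGroup b h4) ⟨1, χ, by decide, hχ, fun w => ?_⟩, fun w => ?_⟩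
    · exact monoG_apply b 1 χ hχ.ne_zero w
    · exact monoG_apply b 1 χ hχ.ne_zero w
  obtain ⟨Z₁, hZ₁, hZ₁'⟩ := hZ χ₁ hχ₁
  obtain ⟨Z₂, hZ₂, hZ₂'⟩ := hZ χ₂ hχ₂
  obtain ⟨Z₃, hZ₃, hZ₃'⟩ := hZ χ₃ hχ₃
  apply eq_top_of_matrixUnits b
  intro x y
  obtain ⟨π, hπ, hπy⟩ := isV4_trans x y
  have hone : IsChi (fun _ : Fin 4 => (1 : F)) := ⟨by simp, fun _ _ => rfl⟩
  let X : GL ι F := monoG b π (fun _ => 1) hone.ne_zero
  have hX : X ∈ frameGroup b h4 := ⟨π, fun _ => 1, hπ, hone, monoG_apply b π _ hone.ne_zero⟩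
  let E : Matrix ι ι F := (4 : F)⁻¹ • (1 + χ₁ y • Z₁ + χ₂ y • Z₂ + χ₃ y • Z₃)
  have hE : E ∈ spanG (frameGroup b h4) := by
    refine Subalgebra.smul_mem _ (Subalgebra.add_mem _ (Subalgebra.add_mem _ (Subalgebra.add_mem _ (Subalgebra.one_mem _) (Subalgebra.smul_mem _ hZ₁ _))
      (Subalgebra.smul_mem _ hZ₂ _)) (Subalgebra.smul_mem _ hZ₃ _)) _
  have hEb : ∀ w, E *ᵥ b w = if w = y then b w else 0 := by
    intro w
    have e1 : E *ᵥ b w = ((4 : F)⁻¹ * (1 + χ₁ y * χ₁ w + χ₂ y * χ₂ w + χ₃ y * χ₃ w)) • b w := by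
      simp only [E, Matrix.smul_mulVec, Matrix.add_mulVec, Matrix.one_mulVec, hZ₁', hZ₂', hZ₃', smul_add, smul_smul, add_smul, mul_add, mul_one, mul_assoc]
    rw [e1]
    have e2 : (4 : F)⁻¹ * (1 + χ₁ y * χ₁ w + χ₂ y * χ₂ w + χ₃ y * χ₃ w) = if w = y then 1 else 0 := by
      fin_cases y <;> fin_cases w <;> simp [χ₁, χ₂, χ₃] <;> first | (field_simp; norm_num) | (norm_num)
    rw [e2]
    split_ifs <;> simp
  refine ⟨(X : Matrix ι ι F) * E, Subalgebra.mul_mem _ (mem_spanG hX) hE, fun w => ?_⟩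
  rw [← Matrix.mulVec_mulVec, hEb]
  split_ifs with h
  · subst h
    rw [monoG_apply, one_smul, hπy]
  · rw [Matrix.mulVec_zero]

/-- the group of symplectic type attached to a frame over `F_5`. -/
theorem frame4_symCtx [Fintype F] (hq : Fintype.card F = 5) (b : Module.Basis (Fin 4) F (ι → F)) :
    ∃ R : Subgroup (GL ι F), SymCtx 2 R ∧ ∀ (h : GL ι F) (σ : Equiv.Perm (Fin 4)) (d : Fin 4 → F),
      (h : Matrix ι ι F).det = 1 → (∀ k, (h : Matrix ι ι F) *ᵥ b k = d k • b (σ k)) → ∀ x ∈ R, h * x * h⁻¹ ∈ R := by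
  classical
  have h4 : ∀ x : F, x ≠ 0 → x ^ 4 = 1 := by
    intro x hx
    have := FiniteField.pow_card_sub_one_eq_one x hx
    rwa [hq] at this
  have h50 : (5 : F) = 0 := by
    have := FiniteField.cast_card_eq_zero F
    rw [hq] at this
    exact_mod_cast this
  have h40 : (4 : F) ≠ 0 := by
    intro h
    have e : (5 : F) = 4 + 1 := by norm_num
    rw [e, h, zero_add] at h50
    exact one_ne_zero h50
  refine ⟨frameGroup b h4, ⟨Nat.prime_two, ?_, ?_, ?_, frameGroup_span b h4 h40⟩, ?_⟩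
  · intro x hx
    have : x ^ (2 * Nat.gcd 2 2) = x * x * (x * x) := by
      have e4 : 2 * Nat.gcd 2 2 = 4 := by norm_num
      rw [e4, pow_succ, pow_succ, pow_two]
      simp only [mul_assoc]
    rw [this]
    exact frameSet_pow h4 hx
  · intro x hx y hy
    exact frameGroup_comm h4 hx hy
  · intro c hc
    have hc' : c ^ 4 = 1 := by simpa using hc
    refine ⟨1, fun _ => (c : F), by decide, ⟨?_, fun _ _ => rfl⟩, fun w => ?_⟩
    · rw [Finset.prod_const, Finset.card_univ, Fintype.card_fin]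
      have := congrArg (Units.val) hc'
      simpa using this
    · rw [scU_val, Matrix.smul_mulVec, Matrix.one_mulVec]
      rfl
  · intro h σ d hdet hd x hx
    exact frameGroup_conj h4 hdet hd hx

end frame

end Cfsg.Agent.H97.Asch
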