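import Cfsg.Agent.Lib.H97Max7

/-!
Pairs of planes over `F_3`, and the outcomes of the symplectic type branch for maximal subgroups.
-/

set_option autoImplicit false
set_option linter.unusedSectionVars false
set_option linter.style.haveILetI false
set_option linter.unusedSimpArgs false

namespace Cfsg.Agent.H97.Asch

open Matrix Cfsg Cfsg.Geo
open scoped MatrixGroups

variable {ι : Type} [Fintype ι] [DecidableEq ι] {F : Type*} [Field F]

theorem det4_block1 (a b c d e f g h : F) :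
    Matrix.det !![a, b, 0, 0; c, d, 0, 0; 0, 0, e, f; 0, 0, g, h] = (a * d - b * c) * (e * h - f * g) := by
  simp [Matrix.det_succ_row_zero, Fin.sum_univ_succ, Fin.succAbove]
  ring

theorem det4_block2 (a b c d e f g h : F) :
    Matrix.det !![0, 0, a, b; 0, 0, c, d; e, f, 0, 0; g, h, 0, 0] = (a * d - b * c) * (e * h - f * g) := by
  simp [Matrix.det_succ_row_zero, Fin.sum_univ_succ, Fin.succAbove]
  ring

/-- the identification of the index set of two planes with `Fin 4` -/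
def sigma22 : (Σ _ : Fin 2, Fin 2) ≃ Fin 4 where
  toFun := fun x => ⟨2 * x.1.val + x.2.val, by omega⟩
  invFun := fun k => ⟨⟨k.val / 2, by omega⟩, ⟨k.val % 2, by omega⟩⟩
  left_inv := by
    rintro ⟨i, j⟩
    fin_cases i <;> fin_cases j <;> rfl
  right_inv := by
    intro k
    fin_cases k <;> rfl

/-- Over `F_3` the unimodular stabiliser of a pair of planes preserves a symplectic form up to scalars. -/
theorem planes_symp3 [Fintype F] (hq : Fintype.card F = 3) {D : Fin 2 → Submodule F (ι → F)}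
    (hD : IsMDecomposition 2 D) :
    ∃ f : (ι → F) → (ι → F) → F, IsSymplecticForm f ∧ decompositionStabilizer D ⊓ specialLinear ι F ≤ similarityGroup f := by
  classical
  have hsq : ∀ c : F, c ≠ 0 → c ^ 2 = 1 := by
    intro c hc
    have := FiniteField.pow_card_sub_one_eq_one c hc
    rwa [hq] at this
  let B : ∀ i, Module.Basis (Fin 2) F (D i) := fun i => Module.finBasisOfFinrankEq F (D i) (hD.finrank_eq i)
  have hint := DirectSum.isInternal_submodule_of_iSupIndep_of_iSup_eq_top hD.indep hD.iSup_eq_top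
  let b : Module.Basis (Fin 4) F (ι → F) := (hint.collectedBasis B).reindex sigma22
  have hb : ∀ x : Σ _ : Fin 2, Fin 2, b (sigma22 x) = (B x.1 x.2 : ι → F) := fun x => by
    simp only [b, Module.Basis.reindex_apply, Equiv.symm_apply_apply]
    rw [DirectSum.IsInternal.collectedBasis_coe]
  have hb0 : b 0 = (B 0 0 : ι → F) := hb ⟨0, 0⟩
  have hb1 : b 1 = (B 0 1 : ι → F) := hb ⟨0, 1⟩
  have hb2 : b 2 = (B 1 0 : ι → F) := hb ⟨1, 0⟩
  have hb3 : b 3 = (B 1 1 : ι → F) := hb ⟨1, 1⟩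
  have hexp : ∀ i w, w ∈ D i → ∃ α β : F, w = α • (B i 0 : ι → F) + β • (B i 1 : ι → F) := by
    intro i w hw
    refine ⟨(B i).repr ⟨w, hw⟩ 0, (B i).repr ⟨w, hw⟩ 1, ?_⟩
    have h1 := (B i).sum_repr ⟨w, hw⟩
    rw [Fin.sum_univ_two] at h1
    have h2 := congrArg Subtype.val h1
    simp only [Submodule.coe_add, Submodule.coe_smul] at h2
    exact h2.symm
  have hsingle : ∀ i j : Fin 4, b.repr (b i) j = if i = j then 1 else 0 := by
    intro i j
    rw [Module.Basis.repr_self, Finsupp.single_apply]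
  have hD0 : ∀ w ∈ D 0, b.repr w 2 = 0 ∧ b.repr w 3 = 0 := by
    intro w hw
    obtain ⟨α, β, rfl⟩ := hexp 0 w hw
    rw [← hb0, ← hb1]
    simp [hsingle]
  have hD1 : ∀ w ∈ D 1, b.repr w 0 = 0 ∧ b.repr w 1 = 0 := by
    intro w hw
    obtain ⟨α, β, rfl⟩ := hexp 1 w hw
    rw [← hb2, ← hb3]
    simp [hsingle]
  let f : (ι → F) → (ι → F) → F := fun u v =>
    (b.repr u 0 * b.repr v 1 - b.repr u 1 * b.repr v 0) + (b.repr u 2 * b.repr v 3 - b.repr u 3 * b.repr v 2)
  have hS : Sesq (RingHom.id F) f := by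
    refine ⟨fun x y v => ?_, fun c x v => ?_, fun v x y => ?_, fun c v x => ?_⟩
    · simp only [f, map_add, Finsupp.add_apply]
      ring
    · simp only [f, map_smul, Finsupp.smul_apply, smul_eq_mul]
      ring
    · simp only [f, map_add, Finsupp.add_apply]
      ring
    · simp only [f, map_smul, Finsupp.smul_apply, smul_eq_mul, RingHom.id_apply]
      ring
  have hskew : ∀ u v, f u v = - f v u := by
    intro u v
    simp only [f]
    ring
  have halt : ∀ v, f v v = 0 := by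
    intro v
    simp only [f]
    ring
  have hnd : IsNondegenerateForm f := by
    intro v hv
    obtain ⟨k, hk⟩ := exists_repr_ne b hv
    have hR : ∃ x, f v x ≠ 0 := by
      fin_cases k
      · refine ⟨b 1, ?_⟩
        simpa [f, hsingle] using hk
      · refine ⟨b 0, ?_⟩
        simpa [f, hsingle] using hk
      · refine ⟨b 3, ?_⟩
        simpa [f, hsingle] using hk
      · refine ⟨b 2, ?_⟩
        simpa [f, hsingle] using hk
    obtain ⟨x, hx⟩ := hR
    refine ⟨⟨x, ?_⟩, ⟨x, hx⟩⟩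
    rw [hskew]
    exact neg_ne_zero.mpr hx
  have hsymp : IsSymplecticForm f :=
    ⟨⟨hS.add_left, hS.smul_left, hS.add_right, fun c v x => by simpa using hS.smul_right c v x⟩, hskew, halt, hnd⟩
  refine ⟨f, hsymp, fun h hh => ?_⟩
  obtain ⟨⟨σ, hσ⟩, hdet'⟩ := hh
  have hdet : (h : Matrix ι ι F).det = 1 := (mem_sl_iff h).mp hdet'
  have hmem : ∀ i a, (h : Matrix ι ι F) *ᵥ (B i a : ι → F) ∈ D (σ i) := by
    intro i a
    rw [← hσ i]
    exact ⟨_, (B i a).2, by simp [Matrix.toLin'_apply]⟩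
  let M : Matrix (Fin 4) (Fin 4) F := LinearMap.toMatrix b b (Matrix.toLin' (h : Matrix ι ι F))
  have hM : ∀ i j, M i j = b.repr ((h : Matrix ι ι F) *ᵥ b j) i := by
    intro i j
    simp only [M, LinearMap.toMatrix_apply, Matrix.toLin'_apply]
  have hdetM : M.det = 1 := by
    simp only [M]
    rw [LinearMap.det_toMatrix, LinearMap.det_toLin', hdet]
  have hfb : ∀ i j, f ((h : Matrix ι ι F) *ᵥ b i) ((h : Matrix ι ι F) *ᵥ b j) =
      M 0 i * M 1 j - M 1 i * M 0 j + (M 2 i * M 3 j - M 3 i * M 2 j) := by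
    intro i j
    simp only [f, hM]
  have hperm : ∀ τ : Equiv.Perm (Fin 2), (τ 0 = 0 ∧ τ 1 = 1) ∨ (τ 0 = 1 ∧ τ 1 = 0) := by decide
  have hkey : ∃ δ : F, δ ≠ 0 ∧ ∀ i j, f ((h : Matrix ι ι F) *ᵥ b i) ((h : Matrix ι ι F) *ᵥ b j) = δ * f (b i) (b j) := by
    have e0 := hmem 0 0
    have e1 := hmem 0 1
    have e2 := hmem 1 0
    have e3 := hmem 1 1
    rw [← hb0] at e0
    rw [← hb1] at e1
    rw [← hb2] at e2
    rw [← hb3] at e3
    rcases hperm σ with ⟨h0, h1⟩ | ⟨h0, h1⟩
    · rw [h0] at e0 e1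
      rw [h1] at e2 e3
      have z1 : M 2 0 = 0 := by rw [hM]; exact (hD0 _ e0).1
      have z2 : M 3 0 = 0 := by rw [hM]; exact (hD0 _ e0).2
      have z3 : M 2 1 = 0 := by rw [hM]; exact (hD0 _ e1).1
      have z4 : M 3 1 = 0 := by rw [hM]; exact (hD0 _ e1).2
      have z5 : M 0 2 = 0 := by rw [hM]; exact (hD1 _ e2).1
      have z6 : M 1 2 = 0 := by rw [hM]; exact (hD1 _ e2).2
      have z7 : M 0 3 = 0 := by rw [hM]; exact (hD1 _ e3).1
      have z8 : M 1 3 = 0 := by rw [hM]; exact (hD1 _ e3).2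
      have hdd : (M 0 0 * M 1 1 - M 0 1 * M 1 0) * (M 2 2 * M 3 3 - M 2 3 * M 3 2) = 1 := by
        rw [← det4_block1, ← hdetM]
        congr 1
        ext i j
        fin_cases i <;> fin_cases j <;> simp [z1, z2, z3, z4, z5, z6, z7, z8]
      set δ₁ := M 0 0 * M 1 1 - M 0 1 * M 1 0 with hδ₁
      set δ₂ := M 2 2 * M 3 3 - M 2 3 * M 3 2 with hδ₂
      have hδ0 : δ₂ ≠ 0 := right_ne_zero_of_mul_eq_one hdd
      have hδδ : δ₁ = δ₂ := by
        have := hsq δ₂ hδ0
        linear_combination δ₂ * hdd - δ₁ * this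
      refine ⟨δ₁, hδδ ▸ hδ0, fun i j => ?_⟩
      rw [hfb]
      fin_cases i <;> fin_cases j <;>
        simp (decide := true) only [Fin.zero_eta, Fin.isValue, Fin.mk_one, Fin.reduceFinMk, f, hsingle, z1, z2, z3, z4, z5, z6, z7, z8, if_true, if_false] <;>
        first
          | ring1
          | linear_combination hδ₁
          | linear_combination -hδ₁
          | linear_combination hδδ + hδ₂
          | linear_combination -hδδ - hδ₂
    · rw [h0] at e0 e1
      rw [h1] at e2 e3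
      have z1 : M 0 0 = 0 := by rw [hM]; exact (hD1 _ e0).1
      have z2 : M 1 0 = 0 := by rw [hM]; exact (hD1 _ e0).2
      have z3 : M 0 1 = 0 := by rw [hM]; exact (hD1 _ e1).1
      have z4 : M 1 1 = 0 := by rw [hM]; exact (hD1 _ e1).2
      have z5 : M 2 2 = 0 := by rw [hM]; exact (hD0 _ e2).1
      have z6 : M 3 2 = 0 := by rw [hM]; exact (hD0 _ e2).2
      have z7 : M 2 3 = 0 := by rw [hM]; exact (hD0 _ e3).1
      have z8 : M 3 3 = 0 := by rw [hM]; exact (hD0 _ e3).2
      have hdd : (M 0 2 * M 1 3 - M 0 3 * M 1 2) * (M 2 0 * M 3 1 - M 2 1 * M 3 0) = 1 := by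
        rw [← det4_block2, ← hdetM]
        congr 1
        ext i j
        fin_cases i <;> fin_cases j <;> simp [z1, z2, z3, z4, z5, z6, z7, z8]
      set δ₁ := M 0 2 * M 1 3 - M 0 3 * M 1 2 with hδ₁
      set δ₂ := M 2 0 * M 3 1 - M 2 1 * M 3 0 with hδ₂
      have hδ0 : δ₂ ≠ 0 := right_ne_zero_of_mul_eq_one hdd
      have hδδ : δ₁ = δ₂ := by
        have := hsq δ₂ hδ0
        linear_combination δ₂ * hdd - δ₁ * this
      refine ⟨δ₁, hδδ ▸ hδ0, fun i j => ?_⟩
      rw [hfb]
      fin_cases i <;> fin_cases j <;>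
        simp (decide := true) only [Fin.zero_eta, Fin.isValue, Fin.mk_one, Fin.reduceFinMk, f, hsingle, z1, z2, z3, z4, z5, z6, z7, z8, if_true, if_false] <;>
        first
          | ring1
          | linear_combination hδ₁
          | linear_combination -hδ₁
          | linear_combination hδδ + hδ₂
          | linear_combination -hδδ - hδ₂
  obtain ⟨δ, hδ, hfb'⟩ := hkey
  refine ⟨Units.mk0 δ hδ, fun u v => ?_⟩
  have hS₁ : Sesq (RingHom.id F) (fun u v => f ((h : Matrix ι ι F) *ᵥ u) ((h : Matrix ι ι F) *ᵥ v)) :=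
    ⟨fun x y v => by rw [Matrix.mulVec_add, hS.add_left],
     fun c x v => by rw [Matrix.mulVec_smul, hS.smul_left],
     fun v x y => by rw [Matrix.mulVec_add, hS.add_right],
     fun c x v => by rw [Matrix.mulVec_smul, hS.smul_right]⟩
  have hS₂ : Sesq (RingHom.id F) (fun u v => δ * f u v) :=
    ⟨fun x y v => by rw [hS.add_left]; ring,
     fun c x v => by rw [hS.smul_left]; ring,
     fun v x y => by rw [hS.add_right]; ring,
     fun c x v => by rw [hS.smul_right]; ring⟩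
  exact Sesq.ext_basis hS₁ hS₂ b hfb' u v

/-- the outcomes of the symplectic type branch for maximal subgroups of `SL_n`. -/
theorem sym_outcomes [Fintype F] {n : ℕ} (hn : 3 ≤ n) {H R : Subgroup (GL (Fin n) F)}
    (hH : IsMaximalIn (specialLinear (Fin n) F) H) {r : ℕ} (C : SymCtx r R) (hR : Nrm H R) :
    (∃ (F₀ : Subfield F) (r : ℕ) (P : GL (Fin n) F), r.Prime ∧ Fintype.card F = Nat.card F₀ ^ r ∧
      H = subfieldSubgroup F₀ P ⊓ specialLinear (Fin n) F) ∨
    (∃ (m : ℕ), r.Prime ∧ n = r ^ m ∧ IsLinearSymplecticTypeData r R ∧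
      H = subgroupNormalizer R ⊓ specialLinear (Fin n) F) ∨
    (Odd (Fintype.card F) ∧ ∃ Q : (Fin n → F) → F, IsNondegenerateQuadraticForm Q ∧
      H = quadSimilarityGroup Q ⊓ specialLinear (Fin n) F) ∨
    (∃ f : (Fin n → F) → (Fin n → F) → F, IsSymplecticForm f ∧ H = similarityGroup f ⊓ specialLinear (Fin n) F) ∨
    (∃ (σ : F ≃+* F) (f : (Fin n → F) → (Fin n → F) → F), IsUnitaryForm σ f ∧
      H = similarityGroup f ⊓ specialLinear (Fin n) F) := by
  classical
  have hne : Nonempty (Fin n) := ⟨⟨0, by omega⟩⟩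
  have hcard : Fintype.card (Fin n) = n := Fintype.card_fin n
  have hn3' : 3 ≤ Fintype.card (Fin n) := by omega
  have hq2 : 2 ≤ Fintype.card F := Fintype.one_lt_card
  rcases sym_branch' hn3' C hR with ⟨F₁, q, P, hq, hc, hle⟩ | ⟨⟨ω, hω⟩, hd, hle⟩ | ⟨σ, f, hf, hle⟩ | ⟨f, hf, hle⟩ | ⟨Q, hQ, hodd, hle⟩
  · refine Or.inl ⟨F₁, q, P, hq, hc, maximal_eq hH hle ?_⟩
    refine sl_not_le_subfield ?_ (by omega) P
    rintro rfl
    have h1 : Nat.card (⊤ : Subfield F) = Fintype.card F := by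
      rw [← Nat.card_eq_fintype_card]
      exact Nat.card_congr Subfield.topEquiv.toEquiv
    rw [h1] at hc
    have h2 : Fintype.card F < Fintype.card F ^ q := lt_self_pow₀ (by omega) hq.one_lt
    omega
  · obtain ⟨m, hm, -⟩ := C.card_eq
    rw [hcard] at hm
    exact Or.inr <| Or.inl ⟨m, C.prime, hm, hd, maximal_eq hH hle (C.sl_not_le hω (by omega))⟩
  · refine Or.inr <| Or.inr <| Or.inr <| Or.inr ⟨σ, f, hf, maximal_eq hH hle ?_⟩
    exact sl_not_le_sim hn3' (sesq_of_unitary hf) (fun v hv => (hf.nondegenerate v hv).2)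
  · refine Or.inr <| Or.inr <| Or.inr <| Or.inl ⟨f, hf, maximal_eq hH hle ?_⟩
    exact sl_not_le_sim hn3' (sesq_of_bilinear hf.bilinear) (fun v hv => (hf.nondegenerate v hv).2)
  · exact Or.inr <| Or.inr <| Or.inl ⟨hodd, Q, hQ, maximal_eq hH hle (sl_not_le_quad hn3' hQ)⟩

/-- frames in dimension four over `F_5` lie in the normaliser of a group of symplectic type. -/
theorem frame4_nrm [Fintype F] (hq : Fintype.card F = 5) {H : Subgroup (GL (Fin 4) F)}
    (hH : IsMaximalIn (specialLinear (Fin 4) F) H) {D : Fin 4 → Submodule F (Fin 4 → F)} (hD : IsMDecomposition 1 D)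
    (hle : H ≤ decompositionStabilizer D) : ∃ R : Subgroup (GL (Fin 4) F), SymCtx 2 R ∧ Nrm H R := by
  classical
  obtain ⟨b, hb⟩ := exists_basis_of_mdecomp1 hD
  obtain ⟨R, C, hnorm⟩ := frame4_symCtx hq b
  refine ⟨R, C, fun h hh x hx => ?_⟩
  obtain ⟨σ, hσ⟩ := hle hh
  have h2 : ∀ k, ∃ c : F, (h : Matrix (Fin 4) (Fin 4) F) *ᵥ b k = c • b (σ k) := by
    intro k
    have h3 : (h : Matrix (Fin 4) (Fin 4) F) *ᵥ b k ∈ D (σ k) := by
      rw [← hσ k]
      exact ⟨b k, by rw [hb]; exact Submodule.mem_span_singleton_self _, by simp [Matrix.toLin'_apply]⟩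
    rw [hb, Submodule.mem_span_singleton] at h3
    obtain ⟨c, hc⟩ := h3
    exact ⟨c, hc.symm⟩
  choose d hd using h2
  exact hnorm h σ d ((mem_sl_iff h).mp (hH.1.le hh)) hd x hx

end Cfsg.Agent.H97.Asch
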