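import Cfsg.Agent.Lib.H97Uni5
import Cfsg.Agent.Lib.OrthSiegel2

/-!
Orthogonal geometry: a group of isometries containing the long root elements of a quadratic form lies in none of
the geometric subgroups.
-/

set_option autoImplicit false
set_option linter.unusedSectionVars false
set_option linter.unusedSimpArgs false

namespace Cfsg.Agent.H97.Asch

open Matrix Cfsg Cfsg.Geo
open scoped MatrixGroups

variable {ι : Type} [Fintype ι] [DecidableEq ι] {F : Type*} [Field F] {Q : (ι → F) → F} {K : Subgroup (GL ι F)}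

/-- The context: a group of isometries of determinant one containing the long root elements. -/
structure OCtx (Q : (ι → F) → F) (K : Subgroup (GL ι F)) : Prop where
  quad : IsNondegenerateQuadraticForm Q
  two : (2 : F) ≠ 0
  fix : ∀ g ∈ K, ∀ v, Q ((g : Matrix ι ι F) *ᵥ v) = Q v
  siegel : ∀ (u v : ι → F) (c : F), Q u = 0 → Q v = 0 → QuadraticMap.polar Q u v = 0 →
    ∃ g ∈ K, ∀ x, (g : Matrix ι ι F) *ᵥ x = x + (c * QuadraticMap.polar Q x u) • v - (c * QuadraticMap.polar Q x v) • u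
  span : Submodule.span F {a : ι → F | Q a = 0} = ⊤
  det : ∀ g ∈ K, (g : Matrix ι ι F).det = 1
  rat : ∀ (F₀ : Subfield F) (v : ι → F), (∀ i, v i ∈ F₀) → Q v ∈ F₀

section Basic

theorem Q_add' (Q : (ι → F) → F) (x y : ι → F) : Q (x + y) = Q x + Q y + QuadraticMap.polar Q x y := by
  simp only [QuadraticMap.polar]
  ring

theorem OCtx.Q_zero (C : OCtx Q K) : Q (0 : ι → F) = 0 := by
  have := C.quad.smul 0 0
  simpa using this

theorem OCtx.pS (C : OCtx Q K) : Sesq (RingHom.id F) (QuadraticMap.polar Q) := sesq_of_bilinear C.quad.polar_bilinear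

theorem OCtx.nd (C : OCtx Q K) {v : ι → F} (hv : v ≠ 0) : ∃ x, QuadraticMap.polar Q v x ≠ 0 :=
  (C.quad.nondegenerate v hv).2

theorem OCtx.self (C : OCtx Q K) (v : ι → F) : QuadraticMap.polar Q v v = 2 * Q v := polar_self C.quad v

theorem OCtx.polar_smul_left (C : OCtx Q K) (c : F) (x y : ι → F) :
    QuadraticMap.polar Q (c • x) y = c * QuadraticMap.polar Q x y := C.quad.polar_bilinear.smul_left c x y

theorem OCtx.polar_smul_right (C : OCtx Q K) (c : F) (x y : ι → F) :
    QuadraticMap.polar Q x (c • y) = c * QuadraticMap.polar Q x y := C.quad.polar_bilinear.smul_right c x y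

theorem OCtx.polar_add_left (C : OCtx Q K) (x y z : ι → F) :
    QuadraticMap.polar Q (x + y) z = QuadraticMap.polar Q x z + QuadraticMap.polar Q y z := C.quad.polar_bilinear.add_left x y z

theorem OCtx.polar_add_right (C : OCtx Q K) (x y z : ι → F) :
    QuadraticMap.polar Q x (y + z) = QuadraticMap.polar Q x y + QuadraticMap.polar Q x z := C.quad.polar_bilinear.add_right x y z

theorem OCtx.polar_sub_left (C : OCtx Q K) (x y z : ι → F) :
    QuadraticMap.polar Q (x - y) z = QuadraticMap.polar Q x z - QuadraticMap.polar Q y z := C.pS.sub_left x y z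

theorem OCtx.polar_sub_right (C : OCtx Q K) (x y z : ι → F) :
    QuadraticMap.polar Q x (y - z) = QuadraticMap.polar Q x y - QuadraticMap.polar Q x z := by
  have e : y - z = y + (-1 : F) • z := by simp [sub_eq_add_neg]
  rw [e, C.polar_add_right, C.polar_smul_right]
  ring

theorem OCtx.Q_smul (C : OCtx Q K) (c : F) (x : ι → F) : Q (c • x) = c ^ 2 * Q x := C.quad.smul c x

theorem OCtx.Q_sub_smul (C : OCtx Q K) (s : F) (x y : ι → F) :
    Q (x - s • y) = Q x + s ^ 2 * Q y - s * QuadraticMap.polar Q x y := by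
  have e : x - s • y = x + (-s) • y := by simp [sub_eq_add_neg]
  rw [e, Q_add' Q, C.Q_smul, C.polar_smul_right]
  ring

/-- the functional `u ↦ f(u, x)`. -/
noncomputable def OCtx.polD (C : OCtx Q K) (x : ι → F) : Module.Dual F (ι → F) where
  toFun u := QuadraticMap.polar Q u x
  map_add' a b := C.polar_add_left a b x
  map_smul' c a := by
    simpa using C.polar_smul_left c a x

theorem OCtx.polD_apply (C : OCtx Q K) (x u : ι → F) : C.polD x u = QuadraticMap.polar Q u x := rfl

/-- the orthogonal complement. -/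
noncomputable def OCtx.perp (C : OCtx Q K) (W : Submodule F (ι → F)) : Submodule F (ι → F) where
  carrier := {v | ∀ w ∈ W, QuadraticMap.polar Q w v = 0}
  add_mem' {x y} hx hy w hw := by
    rw [C.polar_add_right, hx w hw, hy w hw, add_zero]
  zero_mem' w _ := C.pS.zero_right w
  smul_mem' c v hv w hw := by
    rw [C.polar_smul_right, hv w hw, mul_zero]

theorem OCtx.mem_perp (C : OCtx Q K) {W : Submodule F (ι → F)} {v : ι → F} :
    v ∈ C.perp W ↔ ∀ w ∈ W, QuadraticMap.polar Q w v = 0 := Iff.rfl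

theorem exists_mem_ker1 {U : Submodule F (ι → F)} (h2 : 2 ≤ Module.finrank F U) (φ : Module.Dual F (ι → F)) :
    ∃ y ∈ U, y ≠ 0 ∧ φ y = 0 := by
  have hker : LinearMap.ker (φ ∘ₗ U.subtype) ≠ ⊥ := by
    apply LinearMap.ker_ne_bot_of_finrank_lt
    simp
    omega
  obtain ⟨v, hv, hv0⟩ := (Submodule.ne_bot_iff _).mp hker
  refine ⟨v, v.2, fun h => hv0 (Subtype.ext h), ?_⟩
  simpa using hv

theorem exists_mem_ker2 {U : Submodule F (ι → F)} (h3 : 3 ≤ Module.finrank F U) (φ₁ φ₂ : Module.Dual F (ι → F)) :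
    ∃ y ∈ U, y ≠ 0 ∧ φ₁ y = 0 ∧ φ₂ y = 0 := by
  let ψ : U →ₗ[F] F × F := (φ₁ ∘ₗ U.subtype).prod (φ₂ ∘ₗ U.subtype)
  have hker : LinearMap.ker ψ ≠ ⊥ := by
    apply LinearMap.ker_ne_bot_of_finrank_lt
    simp
    omega
  obtain ⟨v, hv, hv0⟩ := (Submodule.ne_bot_iff _).mp hker
  have hv' := LinearMap.mem_ker.mp hv
  refine ⟨v, v.2, fun h => hv0 (Subtype.ext h), ?_, ?_⟩
  · exact congrArg Prod.fst hv'
  · exact congrArg Prod.snd hv'

theorem finrank_ker2 (φ₁ φ₂ : Module.Dual F (ι → F)) :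
    Fintype.card ι ≤ Module.finrank F (LinearMap.ker (φ₁.prod φ₂)) + 2 := by
  have h1 := LinearMap.finrank_range_add_finrank_ker (φ₁.prod φ₂)
  have h2 : Module.finrank F (LinearMap.range (φ₁.prod φ₂)) ≤ 2 := by
    have := Submodule.finrank_le (LinearMap.range (φ₁.prod φ₂))
    simpa using this
  simp at h1
  omega

/-- a subspace of dimension at least three contains a non-zero singular vector. -/
theorem OCtx.exists_singular [Fintype F] (C : OCtx Q K) {U : Submodule F (ι → F)} (hU : 3 ≤ Module.finrank F U) :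
    ∃ a ∈ U, a ≠ 0 ∧ Q a = 0 := by
  classical
  obtain ⟨x, hxU, hx0⟩ := (Submodule.ne_bot_iff U).mp (by
    intro h
    rw [h] at hU
    simp at hU)
  by_cases hQx : Q x = 0
  · exact ⟨x, hxU, hx0, hQx⟩
  obtain ⟨y, hyU, hy0, hyx⟩ := exists_mem_ker1 (by omega) (C.polD x) (U := U)
  by_cases hQy : Q y = 0
  · exact ⟨y, hyU, hy0, hQy⟩
  obtain ⟨z, hzU, hz0, hzx, hzy⟩ := exists_mem_ker2 hU (C.polD x) (C.polD y)
  by_cases hQz : Q z = 0
  · exact ⟨z, hzU, hz0, hQz⟩
  rw [C.polD_apply] at hyx hzx hzy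
  obtain ⟨α, β, hαβ⟩ := Cfsg.Agent.Lib.OrthSiegel2.exists_sum_eq C.two hQx hQy (-Q z)
  refine ⟨α • x + β • y + z, U.add_mem (U.add_mem (U.smul_mem _ hxU) (U.smul_mem _ hyU)) hzU, ?_, ?_⟩
  · intro h0
    have h1 : QuadraticMap.polar Q (α • x + β • y + z) z = 2 * Q z := by
      rw [C.polar_add_left, C.polar_add_left, C.polar_smul_left, C.polar_smul_left, C.self,
        QuadraticMap.polar_comm Q x z, QuadraticMap.polar_comm Q y z, hzx, hzy]
      ring
    rw [h0, C.pS.zero_left] at h1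
    exact mul_ne_zero C.two hQz h1.symm
  · rw [Q_add' Q, Q_add' Q, C.Q_smul, C.Q_smul, C.polar_smul_left, C.polar_smul_right, C.polar_add_left,
      C.polar_smul_left, C.polar_smul_left, QuadraticMap.polar_comm Q x y, hyx, QuadraticMap.polar_comm Q x z, hzx,
      QuadraticMap.polar_comm Q y z, hzy]
    linear_combination hαβ

theorem OCtx.exists_singular_not_perp (C : OCtx Q K) {x : ι → F} (hx : x ≠ 0) :
    ∃ a, Q a = 0 ∧ QuadraticMap.polar Q x a ≠ 0 := by
  by_contra hall
  push Not at hall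
  obtain ⟨y, hy⟩ := C.nd hx
  apply hy
  have hle : (⊤ : Submodule F (ι → F)) ≤ LinearMap.ker (C.polD x) := by
    rw [← C.span, Submodule.span_le]
    intro a ha
    show C.polD x a = 0
    rw [C.polD_apply, QuadraticMap.polar_comm]
    exact hall a ha
  have h1 : C.polD x y = 0 := hle Submodule.mem_top
  rwa [C.polD_apply, QuadraticMap.polar_comm] at h1

end Basic

section Geometry

/-- The context group stabilises no proper non-zero subspace. -/
theorem OCtx.not_le_stab [Fintype F] (C : OCtx Q K) (hn : 5 ≤ Fintype.card ι) {W : Submodule F (ι → F)} (h0 : W ≠ ⊥)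
    (h1 : W ≠ ⊤) : ¬ K ≤ subspaceStabilizer W := by
  classical
  intro hle
  have hW : ∀ g ∈ K, ∀ w ∈ W, (g : Matrix ι ι F) *ᵥ w ∈ W := fun g hg w hw => ((mem_stab_iff W g).mp (hle hg) w).mp hw
  have step : ∀ u v, Q u = 0 → Q v = 0 → QuadraticMap.polar Q u v = 0 → ∀ w ∈ W,
      QuadraticMap.polar Q w u • v - QuadraticMap.polar Q w v • u ∈ W := by
    intro u v hu hv huv w hw
    obtain ⟨g, hg, hgx⟩ := C.siegel u v 1 hu hv huv
    have h2 := W.sub_mem (hW g hg w hw) hw
    rw [hgx] at h2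
    have e : w + (1 * QuadraticMap.polar Q w u) • v - (1 * QuadraticMap.polar Q w v) • u - w =
        QuadraticMap.polar Q w u • v - QuadraticMap.polar Q w v • u := by
      simp only [one_mul]
      abel
    rwa [e] at h2
  have hdim : ∀ a x : ι → F, 3 ≤ Module.finrank F (LinearMap.ker ((C.polD a).prod (C.polD x))) := by
    intro a x
    have := finrank_ker2 (C.polD a) (C.polD x)
    omega
  have hker : ∀ {a x b : ι → F}, b ∈ LinearMap.ker ((C.polD a).prod (C.polD x)) →
      QuadraticMap.polar Q a b = 0 ∧ QuadraticMap.polar Q x b = 0 := by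
    intro a x b hb
    have h2 := LinearMap.mem_ker.mp hb
    have h3 : C.polD a b = 0 := congrArg Prod.fst h2
    have h4 : C.polD x b = 0 := congrArg Prod.snd h2
    rw [C.polD_apply, QuadraticMap.polar_comm] at h3 h4
    exact ⟨h3, h4⟩
  -- a first singular vector
  obtain ⟨x, hx, hx0⟩ := (Submodule.ne_bot_iff W).mp h0
  obtain ⟨a, haS, hxa⟩ := C.exists_singular_not_perp hx0
  obtain ⟨b, hbU, hb0, hbS⟩ := C.exists_singular (hdim a x)
  obtain ⟨hab, hxb⟩ := hker hbU
  have hbW : b ∈ W := by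
    have h2 := step a b haS hbS hab x hx
    rw [hxb, zero_smul, sub_zero] at h2
    have h3 := W.smul_mem (QuadraticMap.polar Q x a)⁻¹ h2
    rwa [smul_smul, inv_mul_cancel₀ hxa, one_smul] at h3
  -- the singular vectors not orthogonal to `b`
  have hy : ∀ y, Q y = 0 → QuadraticMap.polar Q b y ≠ 0 → y ∈ W := by
    intro y hyS hby
    obtain ⟨w, hwU, hw0, hwS⟩ := C.exists_singular (hdim b y)
    obtain ⟨hbw, hyw⟩ := hker hwU
    have hwW : w ∈ W := by
      have h2 := step y w hyS hwS hyw b hbW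
      rw [hbw, zero_smul, sub_zero] at h2
      have h3 := W.smul_mem (QuadraticMap.polar Q b y)⁻¹ h2
      rwa [smul_smul, inv_mul_cancel₀ hby, one_smul] at h3
    obtain ⟨v, hv⟩ := C.nd hw0
    have hyy : QuadraticMap.polar Q y y = 0 := by rw [C.self, hyS, mul_zero]
    have hbb : QuadraticMap.polar Q b b = 0 := by rw [C.self, hbS, mul_zero]
    have hyb : QuadraticMap.polar Q y b ≠ 0 := by rwa [QuadraticMap.polar_comm]
    set α := QuadraticMap.polar Q v y / QuadraticMap.polar Q b y with hα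
    set β := QuadraticMap.polar Q v b / QuadraticMap.polar Q y b with hβ
    set v' := v - α • b - β • y with hv'
    have hv'y : QuadraticMap.polar Q v' y = 0 := by
      rw [hv', C.polar_sub_left, C.polar_sub_left, C.polar_smul_left, C.polar_smul_left, hyy, hα]
      field_simp
      ring
    have hv'b : QuadraticMap.polar Q v' b = 0 := by
      rw [hv', C.polar_sub_left, C.polar_sub_left, C.polar_smul_left, C.polar_smul_left, hbb, hβ]
      field_simp
      ring
    have hwv' : QuadraticMap.polar Q w v' = QuadraticMap.polar Q w v := by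
      rw [hv', C.polar_sub_right, C.polar_sub_right, C.polar_smul_right, C.polar_smul_right,
        QuadraticMap.polar_comm Q w b, hbw, QuadraticMap.polar_comm Q w y, hyw]
      ring
    have hww : QuadraticMap.polar Q w w = 0 := by rw [C.self, hwS, mul_zero]
    have hwv'0 : QuadraticMap.polar Q w v' ≠ 0 := by rwa [hwv']
    have hv'w0 : QuadraticMap.polar Q v' w ≠ 0 := by rwa [QuadraticMap.polar_comm]
    set s := Q v' / QuadraticMap.polar Q v' w with hs
    set z := v' - s • w with hz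
    have hzS : Q z = 0 := by
      rw [hz, C.Q_sub_smul, hwS, hs]
      field_simp
      ring
    have hzy : QuadraticMap.polar Q z y = 0 := by
      rw [hz, C.polar_sub_left, C.polar_smul_left, hv'y, QuadraticMap.polar_comm Q w y, hyw]
      ring
    have hwz : QuadraticMap.polar Q w z ≠ 0 := by
      have : QuadraticMap.polar Q w z = QuadraticMap.polar Q w v' := by
        rw [hz, C.polar_sub_right, C.polar_smul_right, hww]
        ring
      rwa [this]
    have hwy : QuadraticMap.polar Q w y = 0 := by rwa [QuadraticMap.polar_comm]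
    have h2 := step z y hzS hyS hzy w hwW
    rw [hwy, zero_smul, sub_zero] at h2
    have h3 := W.smul_mem (QuadraticMap.polar Q w z)⁻¹ h2
    rwa [smul_smul, inv_mul_cancel₀ hwz, one_smul] at h3
  obtain ⟨y₀, hy₀S, hby₀⟩ := C.exists_singular_not_perp hb0
  have hy₀W := hy y₀ hy₀S hby₀
  have hall : ∀ s, Q s = 0 → s ∈ W := by
    intro s hsS
    by_cases hbs : QuadraticMap.polar Q b s = 0
    · have hy₀b : QuadraticMap.polar Q y₀ b ≠ 0 := by rwa [QuadraticMap.polar_comm]
      have hsb : QuadraticMap.polar Q s b = 0 := by rwa [QuadraticMap.polar_comm]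
      have hbb : QuadraticMap.polar Q b b = 0 := by rw [C.self, hbS, mul_zero]
      set κ := QuadraticMap.polar Q y₀ s / QuadraticMap.polar Q y₀ b with hκ
      set z := y₀ + s - κ • b with hz
      have hzS : Q z = 0 := by
        rw [hz, C.Q_sub_smul, hbS, Q_add' Q, hy₀S, hsS, C.polar_add_left, hsb, hκ]
        field_simp
        ring
      have hbz : QuadraticMap.polar Q b z ≠ 0 := by
        have : QuadraticMap.polar Q b z = QuadraticMap.polar Q b y₀ := by
          rw [hz, C.polar_sub_right, C.polar_add_right, C.polar_smul_right, hbb, hbs]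
          ring
        rwa [this]
      have hzW := hy z hzS hbz
      have e : s = z - y₀ + κ • b := by
        rw [hz]
        abel
      rw [e]
      exact W.add_mem (W.sub_mem hzW hy₀W) (W.smul_mem _ hbW)
    · exact hy s hsS hbs
  apply h1
  rw [eq_top_iff, ← C.span, Submodule.span_le]
  exact fun s hs => hall s hs

/-- The context group does not stabilise an orthogonal frame. -/
theorem OCtx.not_le_frame [Fintype F] (C : OCtx Q K) {t : ℕ} (ht6 : 6 ≤ t) (b : Module.Basis (Fin t) F (ι → F))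
    (horth : ∀ i j, i ≠ j → QuadraticMap.polar Q (b i) (b j) = 0) (hd : ∀ i, Q (b i) ≠ 0) :
    ¬ K ≤ decompositionStabilizer (fun i => Submodule.span F {b i}) := by
  classical
  intro hle
  let i₁ : Fin t := ⟨0, by omega⟩
  let i₂ : Fin t := ⟨1, by omega⟩
  let i₃ : Fin t := ⟨2, by omega⟩
  let i₄ : Fin t := ⟨3, by omega⟩
  let i₅ : Fin t := ⟨4, by omega⟩
  let i₆ : Fin t := ⟨5, by omega⟩
  have h12 : i₁ ≠ i₂ := by simp [i₁, i₂, Fin.ext_iff]
  have h13 : i₁ ≠ i₃ := by simp [i₁, i₃, Fin.ext_iff]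
  have h14 : i₁ ≠ i₄ := by simp [i₁, i₄, Fin.ext_iff]
  have h15 : i₁ ≠ i₅ := by simp [i₁, i₅, Fin.ext_iff]
  have h16 : i₁ ≠ i₆ := by simp [i₁, i₆, Fin.ext_iff]
  have h23 : i₂ ≠ i₃ := by simp [i₂, i₃, Fin.ext_iff]
  have h24 : i₂ ≠ i₄ := by simp [i₂, i₄, Fin.ext_iff]
  have h25 : i₂ ≠ i₅ := by simp [i₂, i₅, Fin.ext_iff]
  have h26 : i₂ ≠ i₆ := by simp [i₂, i₆, Fin.ext_iff]
  have h34 : i₃ ≠ i₄ := by simp [i₃, i₄, Fin.ext_iff]
  have h35 : i₃ ≠ i₅ := by simp [i₃, i₅, Fin.ext_iff]
  have h36 : i₃ ≠ i₆ := by simp [i₃, i₆, Fin.ext_iff]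
  have h45 : i₄ ≠ i₅ := by simp [i₄, i₅, Fin.ext_iff]
  have h46 : i₄ ≠ i₆ := by simp [i₄, i₆, Fin.ext_iff]
  have h56 : i₅ ≠ i₆ := by simp [i₅, i₆, Fin.ext_iff]
  have hform : ∀ (i j k : Fin t), i ≠ j → i ≠ k → j ≠ k → ∀ α β : F,
      Q (b i + α • b j + β • b k) = Q (b i) + α * α * Q (b j) + β * β * Q (b k) := by
    intro i j k hij hik hjk α β
    rw [Q_add' Q, Q_add' Q, C.Q_smul, C.Q_smul, C.polar_smul_right, C.polar_smul_right, C.polar_add_left,
      C.polar_smul_left, horth _ _ hij, horth _ _ hik, horth _ _ hjk]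
    ring
  obtain ⟨α, β, hαβ⟩ := Cfsg.Agent.Lib.OrthSiegel2.exists_sum_eq C.two (hd i₂) (hd i₃) (-Q (b i₁))
  obtain ⟨γ, κ, hγκ⟩ := Cfsg.Agent.Lib.OrthSiegel2.exists_sum_eq C.two (hd i₅) (hd i₆) (-Q (b i₄))
  set u := b i₁ + α • b i₂ + β • b i₃ with hu
  set v := b i₄ + γ • b i₅ + κ • b i₆ with hv
  have huS : Q u = 0 := by
    rw [hu, hform _ _ _ h12 h13 h23]
    linear_combination hαβ
  have hvS : Q v = 0 := by
    rw [hv, hform _ _ _ h45 h46 h56]
    linear_combination hγκ
  have hpv : ∀ j, j ≠ i₄ → j ≠ i₅ → j ≠ i₆ → QuadraticMap.polar Q (b j) v = 0 := by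
    intro j h4 h5 h6
    rw [hv, C.polar_add_right, C.polar_add_right, C.polar_smul_right, C.polar_smul_right, horth _ _ h4, horth _ _ h5, horth _ _ h6]
    ring
  have huv : QuadraticMap.polar Q u v = 0 := by
    rw [hu, C.polar_add_left, C.polar_add_left, C.polar_smul_left, C.polar_smul_left, hpv _ h14 h15 h16, hpv _ h24 h25 h26,
      hpv _ h34 h35 h36]
    ring
  have hb1u : QuadraticMap.polar Q (b i₁) u = 2 * Q (b i₁) := by
    rw [hu, C.polar_add_right, C.polar_add_right, C.polar_smul_right, C.polar_smul_right, horth _ _ h12, horth _ _ h13, C.self]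
    ring
  obtain ⟨g, hg, hgx⟩ := C.siegel u v 1 huS hvS huv
  obtain ⟨π, hπ⟩ := hle hg
  have h1 := hπ i₁
  have h2 : (g : Matrix ι ι F) *ᵥ b i₁ ∈ Submodule.span F {b (π i₁)} := by
    simp only at h1
    rw [← h1]
    refine ⟨b i₁, Submodule.mem_span_singleton_self _, ?_⟩
    simp [Matrix.toLin'_apply]
  rw [hgx, hb1u, hpv _ h14 h15 h16, mul_zero, zero_smul, sub_zero, one_mul] at h2
  obtain ⟨e, he⟩ := Submodule.mem_span_singleton.mp h2
  have hc0 : 2 * Q (b i₁) ≠ 0 := mul_ne_zero C.two (hd i₁)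
  have e1 := congrArg (fun w => b.repr w i₁) he
  have e4 := congrArg (fun w => b.repr w i₄) he
  simp only [hv, map_smul, Finsupp.smul_apply, smul_eq_mul, map_add, Finsupp.add_apply, Module.Basis.repr_self,
    Finsupp.single_apply, h14, h15, h16, h45, h46, h14.symm, h15.symm, h16.symm, h45.symm, h46.symm,
    if_false, if_true, add_zero, zero_add, mul_zero, mul_one] at e1 e4
  by_cases hj : π i₁ = i₁
  · rw [hj] at e4
    simp [h14] at e4
    exact hc0 (mul_eq_zero.mpr e4)
  · simp [hj] at e1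

/-- elements of a subfield group with a fixed subspace of small codimension are rational on the nose. -/
theorem rank2_rational [Finite F] (hn : 5 ≤ Fintype.card ι) {F₀ : Subfield F} {P t : GL ι F} (ht : t ∈ subfieldSubgroup F₀ P)
    {φ₁ φ₂ : Module.Dual F (ι → F)} {a₁ a₂ : ι → F}
    (hact₀ : ∀ x, (t : Matrix ι ι F) *ᵥ x = x + φ₁ x • a₁ + φ₂ x • a₂) :
    ∀ k l, ((P⁻¹ * t * P : GL ι F) : Matrix ι ι F) k l ∈ F₀ := by
  classical
  obtain ⟨y, hy, hyt⟩ := ht
  have hy2 : y = P⁻¹ * t * P := by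
    have : P * y * P⁻¹ = t := hyt
    rw [← this]
    group
  rw [← hy2]
  have hy' : y ∈ (((Matrix.GeneralLinearGroup.map (F₀.subtype : F₀ →+* F)).range ⊔ scalars ι F : Subgroup (GL ι F)) : Set (GL ι F)) := hy
  rw [Subgroup.mul_normal] at hy'
  obtain ⟨r, hr, s, hs, hrs⟩ := Set.mem_mul.mp hy'
  obtain ⟨G₀, rfl⟩ := hr
  obtain ⟨d, hd⟩ := (mem_scalars_iff s).mp hs
  have key : ∀ k l, (y : Matrix ι ι F) k l = (d : F) * ((G₀ : Matrix ι ι F₀) k l : F) := by
    intro k l
    have h1 := congrArg Units.val hrs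
    rw [Units.val_mul, hd, Matrix.mul_smul, Matrix.mul_one] at h1
    rw [← h1]
    simp
  obtain ⟨τ, hτ⟩ := exists_ringHom_fixed F₀
  set ρ : F := τ d / d with hρ
  have hd0 : (d : F) ≠ 0 := d.ne_zero
  have hmap : ∀ k l, τ ((y : Matrix ι ι F) k l) = ρ * (y : Matrix ι ι F) k l := by
    intro k l
    rw [key, map_mul, (hτ _).mpr (SetLike.coe_mem _), hρ]
    field_simp
  let φ₁' : Module.Dual F (ι → F) := φ₁ ∘ₗ Matrix.toLin' (P : Matrix ι ι F)
  let φ₂' : Module.Dual F (ι → F) := φ₂ ∘ₗ Matrix.toLin' (P : Matrix ι ι F)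
  let a₁' : ι → F := ((P⁻¹ : GL ι F) : Matrix ι ι F) *ᵥ a₁
  let a₂' : ι → F := ((P⁻¹ : GL ι F) : Matrix ι ι F) *ᵥ a₂
  have hact : ∀ u, (y : Matrix ι ι F) *ᵥ u = u + φ₁' u • a₁' + φ₂' u • a₂' := by
    intro u
    rw [hy2, gl_mulVec_mul, gl_mulVec_mul, hact₀, Matrix.mulVec_add, Matrix.mulVec_add, gl_inv_mulVec, Matrix.mulVec_smul, Matrix.mulVec_smul]
    simp [φ₁', φ₂', a₁', a₂', Matrix.toLin'_apply]
  let w₁ : ι → F := fun l => φ₁' (Pi.single l 1)
  let w₂ : ι → F := fun l => φ₂' (Pi.single l 1)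
  have hentry : ∀ k l, (y : Matrix ι ι F) k l = (if k = l then 1 else 0) + w₁ l * a₁' k + w₂ l * a₂' k := by
    intro k l
    have := congrFun (hact (Pi.single l 1)) k
    rw [Matrix.mulVec_single_one] at this
    simp only [Matrix.col_apply, Pi.add_apply, Pi.single_apply, Pi.smul_apply, smul_eq_mul] at this
    exact this
  let φ₃ : Module.Dual F (ι → F) :=
    { toFun := fun v => ∑ l, v l * τ (w₁ l)
      map_add' := fun x y => by simp [add_mul, Finset.sum_add_distrib]
      map_smul' := fun c x => by simp [Finset.mul_sum, mul_assoc] }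
  let φ₄ : Module.Dual F (ι → F) :=
    { toFun := fun v => ∑ l, v l * τ (w₂ l)
      map_add' := fun x y => by simp [add_mul, Finset.sum_add_distrib]
      map_smul' := fun c x => by simp [Finset.mul_sum, mul_assoc] }
  let ψ : (ι → F) →ₗ[F] F × F × F × F := φ₁'.prod (φ₂'.prod (φ₃.prod φ₄))
  have hker : LinearMap.ker ψ ≠ ⊥ := by
    apply LinearMap.ker_ne_bot_of_finrank_lt
    simp
    omega
  obtain ⟨v, hv, hv0⟩ := (Submodule.ne_bot_iff _).mp hker
  have hv' := LinearMap.mem_ker.mp hv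
  have hv1 : φ₁' v = 0 := congrArg Prod.fst hv'
  have hv2 : φ₂' v = 0 := congrArg (fun z => z.2.1) hv'
  have hv3 : ∑ l, v l * τ (w₁ l) = 0 := congrArg (fun z => z.2.2.1) hv'
  have hv4 : ∑ l, v l * τ (w₂ l) = 0 := congrArg (fun z => z.2.2.2) hv'
  have hρ1 : ρ = 1 := by
    obtain ⟨k, hk⟩ : ∃ k, v k ≠ 0 := by
      by_contra hall
      push Not at hall
      exact hv0 (funext hall)
    have h1 : ∑ l, τ ((y : Matrix ι ι F) k l) * v l = v k := by
      have e : ∀ l, τ ((y : Matrix ι ι F) k l) * v l = (if k = l then v l else 0) + τ (a₁' k) * (v l * τ (w₁ l)) +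
          τ (a₂' k) * (v l * τ (w₂ l)) := by
        intro l
        rw [hentry, map_add, map_add, map_mul, map_mul]
        split_ifs <;> simp <;> ring
      rw [Finset.sum_congr rfl fun l _ => e l, Finset.sum_add_distrib, Finset.sum_add_distrib, ← Finset.mul_sum,
        ← Finset.mul_sum, hv3, hv4, mul_zero, mul_zero, add_zero, add_zero]
      simp
    have h2 : ∑ l, τ ((y : Matrix ι ι F) k l) * v l = ρ * v k := by
      have e : ∀ l, τ ((y : Matrix ι ι F) k l) * v l = ρ * ((y : Matrix ι ι F) k l * v l) := by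
        intro l
        rw [hmap]
        ring
      rw [Finset.sum_congr rfl fun l _ => e l, ← Finset.mul_sum]
      congr 1
      have := congrFun (hact v) k
      rw [hv1, hv2, zero_smul, zero_smul, add_zero, add_zero] at this
      exact this
    have h3 : ρ * v k = 1 * v k := by rw [← h2, h1, one_mul]
    exact mul_right_cancel₀ hk h3
  intro k l
  rw [← hτ, hmap, hρ1, one_mul]

/-- The context group lies in no subfield group. -/
theorem OCtx.not_le_subfield [Fintype F] (C : OCtx Q K) (hn : 5 ≤ Fintype.card ι) {F₀ : Subfield F} (hF₀ : F₀ ≠ ⊤)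
    (P : GL ι F) : ¬ K ≤ subfieldSubgroup F₀ P := by
  classical
  intro hle
  have hne : Nonempty ι := Fintype.card_pos_iff.mp (by omega)
  obtain ⟨x, hx0⟩ := exists_ne (0 : ι → F)
  obtain ⟨u, huS, hxu⟩ := C.exists_singular_not_perp hx0
  have hdim : 3 ≤ Module.finrank F (LinearMap.ker ((C.polD u).prod (C.polD x))) := by
    have := finrank_ker2 (C.polD u) (C.polD x)
    omega
  obtain ⟨v, hvU, hv0, hvS⟩ := C.exists_singular hdim
  have hv' := LinearMap.mem_ker.mp hvU
  have huv : QuadraticMap.polar Q u v = 0 := by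
    have h3 : C.polD u v = 0 := congrArg Prod.fst hv'
    rwa [C.polD_apply, QuadraticMap.polar_comm] at h3
  have hxv : QuadraticMap.polar Q x v = 0 := by
    have h3 : C.polD x v = 0 := congrArg Prod.snd hv'
    rwa [C.polD_apply, QuadraticMap.polar_comm] at h3
  let W : ι → (ι → F) := fun l =>
    QuadraticMap.polar Q ((P : Matrix ι ι F) *ᵥ Pi.single l 1) u • (((P⁻¹ : GL ι F) : Matrix ι ι F) *ᵥ v) -
      QuadraticMap.polar Q ((P : Matrix ι ι F) *ᵥ Pi.single l 1) v • (((P⁻¹ : GL ι F) : Matrix ι ι F) *ᵥ u)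
  -- the entries
  have hent : ∀ (c : F) (k l : ι), c * W l k ∈ F₀ := by
    intro c k l
    obtain ⟨g, hg, hgx⟩ := C.siegel u v c huS hvS huv
    have hact₀ : ∀ y, (g : Matrix ι ι F) *ᵥ y = y + (c • C.polD u) y • v + ((-c) • C.polD v) y • u := by
      intro y
      rw [hgx]
      simp only [LinearMap.smul_apply, C.polD_apply, smul_eq_mul]
      rw [neg_mul, neg_smul]
      abel
    have h1 := rank2_rational hn (hle hg) hact₀ k l
    have h2 : ((P⁻¹ * g * P : GL ι F) : Matrix ι ι F) *ᵥ Pi.single l 1 = Pi.single l 1 + c • W l := by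
      rw [gl_mulVec_mul, gl_mulVec_mul, hgx, Matrix.mulVec_sub, Matrix.mulVec_add, gl_inv_mulVec, Matrix.mulVec_smul,
        Matrix.mulVec_smul]
      simp only [W, smul_sub, smul_smul]
      abel
    have h3 := congrFun h2 k
    rw [Matrix.mulVec_single_one] at h3
    simp only [Matrix.col_apply, Pi.add_apply, Pi.smul_apply, smul_eq_mul] at h3
    rw [h3] at h1
    have h4 : (Pi.single l (1 : F) : ι → F) k ∈ F₀ := by
      rw [Pi.single_apply]
      split_ifs
      · exact F₀.one_mem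
      · exact F₀.zero_mem
    have := F₀.sub_mem h1 h4
    simpa using this
  -- a non-zero entry
  have hW : ∃ k l, W l k ≠ 0 := by
    by_contra hall
    push Not at hall
    have hx' : x = (P : Matrix ι ι F) *ᵥ (((P⁻¹ : GL ι F) : Matrix ι ι F) *ᵥ x) := (gl_mulVec_inv P x).symm
    have hexp : ∀ z, QuadraticMap.polar Q x z = ∑ l, (((P⁻¹ : GL ι F) : Matrix ι ι F) *ᵥ x) l * QuadraticMap.polar Q ((P : Matrix ι ι F) *ᵥ Pi.single l 1) z := by
      intro z
      conv_lhs => rw [hx', gl_mulVec_eq_sum, C.pS.sum_left]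
      exact Finset.sum_congr rfl fun l _ => C.polar_smul_left _ _ _
    have hsum : ∑ l, (((P⁻¹ : GL ι F) : Matrix ι ι F) *ᵥ x) l • W l =
        QuadraticMap.polar Q x u • (((P⁻¹ : GL ι F) : Matrix ι ι F) *ᵥ v) - QuadraticMap.polar Q x v • (((P⁻¹ : GL ι F) : Matrix ι ι F) *ᵥ u) := by
      rw [hexp u, hexp v, Finset.sum_smul, Finset.sum_smul, ← Finset.sum_sub_distrib]
      refine Finset.sum_congr rfl fun l _ => ?_
      simp only [W, smul_sub, smul_smul]
    rw [hxv, zero_smul, sub_zero] at hsum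
    have h0 : ∑ l, (((P⁻¹ : GL ι F) : Matrix ι ι F) *ᵥ x) l • W l = 0 := by
      refine Finset.sum_eq_zero fun l _ => ?_
      have : W l = 0 := funext fun k => hall k l
      rw [this, smul_zero]
    rw [h0] at hsum
    have h2 : ((P⁻¹ : GL ι F) : Matrix ι ι F) *ᵥ v = 0 := by
      rcases smul_eq_zero.mp hsum.symm with h | h
      · exact absurd h hxu
      · exact h
    apply hv0
    have := gl_mulVec_inv P v
    rw [h2, Matrix.mulVec_zero] at this
    exact this.symm
  obtain ⟨k, l, hkl⟩ := hW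
  apply hF₀
  rw [eq_top_iff]
  intro c _
  have h1 := hent c k l
  have h2 := hent 1 k l
  rw [one_mul] at h2
  have h3 := F₀.div_mem h1 h2
  rwa [mul_div_cancel_right₀ _ hkl] at h3

end Geometry

end Cfsg.Agent.H97.Asch
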