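import Cfsg.Agent.Lib.H97Ort

/-!
Orthogonal geometry, continued: reducible subgroups, Gram matrices, frames.
-/

set_option autoImplicit false
set_option linter.unusedSectionVars false
set_option linter.unusedSimpArgs false

namespace Cfsg.Agent.H97.Asch

open Matrix Cfsg Cfsg.Geo
open scoped MatrixGroups

variable {ι : Type} [Fintype ι] [DecidableEq ι] {F : Type*} [Field F] {Q : (ι → F) → F} {K : Subgroup (GL ι F)}

theorem OCtx.stable_perp (C : OCtx Q K) {H : Subgroup (GL ι F)}
    (hfix : ∀ g ∈ H, ∀ v, Q ((g : Matrix ι ι F) *ᵥ v) = Q v) {W : Submodule F (ι → F)}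
    (hW : Stable H W) : Stable H (C.perp W) := by
  intro g hg v hv w hw
  have h1 := hv _ (hW g⁻¹ (H.inv_mem hg) w hw)
  have h2 := fixes_polar (hfix g hg) (((g⁻¹ : GL ι F) : Matrix ι ι F) *ᵥ w) v
  rw [gl_mulVec_inv] at h2
  rw [h2, h1]

theorem OCtx.perp_dims (C : OCtx Q K) {W : Submodule F (ι → F)} (hdisj : W ⊓ C.perp W = ⊥) :
    Module.finrank F W + Module.finrank F (C.perp W) = Fintype.card ι ∧ W ⊔ C.perp W = ⊤ := by
  classical
  have hS := C.pS
  let bW := Module.finBasis F W
  let Φ : (ι → F) →ₗ[F] (Fin (Module.finrank F W) → F) :=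
    { toFun := fun v i => QuadraticMap.polar Q v (bW i)
      map_add' := fun x y => by
        ext i
        exact hS.add_left _ _ _
      map_smul' := fun c x => by
        ext i
        exact hS.smul_left _ _ _ }
  have hker : LinearMap.ker Φ ≤ C.perp W := by
    intro v hv w hw
    have hv' : ∀ i, QuadraticMap.polar Q v (bW i) = 0 := fun i => congrFun (LinearMap.mem_ker.mp hv) i
    have hvw : QuadraticMap.polar Q v w = 0 := by
      have e : w = ∑ i, bW.repr ⟨w, hw⟩ i • ((bW i : W) : ι → F) := by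
        have := congrArg Subtype.val (bW.sum_repr ⟨w, hw⟩)
        simp only [Submodule.coe_sum, Submodule.coe_smul] at this
        exact this.symm
      rw [e, hS.sum_right]
      exact Finset.sum_eq_zero fun i _ => by rw [hS.smul_right, hv', mul_zero]
    rwa [QuadraticMap.polar_comm]
  have h1 := LinearMap.finrank_range_add_finrank_ker Φ
  have h2 : Module.finrank F (LinearMap.range Φ) ≤ Module.finrank F W := by
    have := Submodule.finrank_le (LinearMap.range Φ)
    simpa using this
  have h3 := Submodule.finrank_mono hker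
  have h4 : Module.finrank F (ι → F) = Fintype.card ι := by simp
  have h5 := Submodule.finrank_sup_add_finrank_inf_eq W (C.perp W)
  rw [hdisj, finrank_bot, add_zero] at h5
  have h6 := Submodule.finrank_le (W ⊔ C.perp W)
  have h7 : Module.finrank F W + Module.finrank F (C.perp W) = Fintype.card ι := by omega
  refine ⟨h7, ?_⟩
  apply Submodule.eq_top_of_finrank_eq
  omega

theorem OCtx.nondeg_of_disj (C : OCtx Q K) {W : Submodule F (ι → F)} (hdisj : W ⊓ C.perp W = ⊥) :
    IsNondegenerateOn (QuadraticMap.polar Q) W := by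
  intro w hw hw0
  have hnot : w ∉ C.perp W := fun hm => hw0 (by
    have : w ∈ W ⊓ C.perp W := ⟨hw, hm⟩
    rw [hdisj] at this
    simpa using this)
  rw [C.mem_perp] at hnot
  push Not at hnot
  obtain ⟨x, hx, hxw⟩ := hnot
  refine ⟨⟨x, hx, hxw⟩, ⟨x, hx, ?_⟩⟩
  rwa [QuadraticMap.polar_comm]

theorem OCtx.nondeg_perp_of_disj (C : OCtx Q K) {W : Submodule F (ι → F)} (hdisj : W ⊓ C.perp W = ⊥) :
    IsNondegenerateOn (QuadraticMap.polar Q) (C.perp W) := by
  obtain ⟨-, hsup⟩ := C.perp_dims hdisj
  intro w hw hw0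
  obtain ⟨x, hx⟩ := C.nd hw0
  rw [QuadraticMap.polar_comm] at hx
  have hxm : x ∈ W ⊔ C.perp W := hsup ▸ Submodule.mem_top
  obtain ⟨x₁, hx₁, x₂, hx₂, rfl⟩ := Submodule.mem_sup.mp hxm
  rw [C.polar_add_left, (C.mem_perp).mp hw x₁ hx₁, zero_add] at hx
  refine ⟨⟨x₂, hx₂, hx⟩, ⟨x₂, hx₂, ?_⟩⟩
  rwa [QuadraticMap.polar_comm]

/-- In a hyperbolic plane over the field with three elements, an invariant anisotropic line. -/
theorem OCtx.plus_plane_line [Fintype F] (C : OCtx Q K) (hq3 : Fintype.card F = 3) {H : Subgroup (GL ι F)}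
    (hfix : ∀ g ∈ H, ∀ v, Q ((g : Matrix ι ι F) *ᵥ v) = Q v) {W : Submodule F (ι → F)} (hW : Stable H W)
    (hdim : Module.finrank F W = 2) (hnd : IsNondegenerateOn (QuadraticMap.polar Q) W) (hplus : IsPlusTypeOn Q W) :
    ∃ c : ι → F, Q c ≠ 0 ∧ Stable H (Submodule.span F {c}) := by
  classical
  obtain ⟨U, hUW, hUs, hUd⟩ := hplus
  have hU0 : U ≠ ⊥ := by
    intro h
    rw [h] at hUd
    simp at hUd
    omega
  obtain ⟨e, heU, he0⟩ := (Submodule.ne_bot_iff U).mp hU0
  have heS : Q e = 0 := hUs e heU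
  have heW := hUW heU
  obtain ⟨⟨x, hxW, hxe⟩, -⟩ := hnd e heW he0
  have hee : QuadraticMap.polar Q e e = 0 := by rw [C.self, heS, mul_zero]
  set f₀ := (QuadraticMap.polar Q x e)⁻¹ • x with hf₀
  have hf₀e : QuadraticMap.polar Q f₀ e = 1 := by
    rw [hf₀, C.polar_smul_left, inv_mul_cancel₀ hxe]
  set f := f₀ - Q f₀ • e with hf
  have hfS : Q f = 0 := by
    rw [hf, C.Q_sub_smul, heS, hf₀e]
    ring
  have hfe : QuadraticMap.polar Q f e = 1 := by
    rw [hf, C.polar_sub_left, C.polar_smul_left (Q f₀) e e, hf₀e, hee]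
    ring
  have hef : QuadraticMap.polar Q e f = 1 := by rwa [QuadraticMap.polar_comm]
  have hfW : f ∈ W := W.sub_mem (W.smul_mem _ hxW) (W.smul_mem _ heW)
  -- `e, f` span
  have hli : LinearIndependent F ![e, f] := by
    rw [LinearIndependent.pair_iff]
    intro s t h
    have h1 : QuadraticMap.polar Q (s • e + t • f) e = 0 := by rw [h, C.pS.zero_left]
    rw [C.polar_add_left, C.polar_smul_left, C.polar_smul_left, hee, hfe] at h1
    have ht : t = 0 := by simpa using h1
    subst ht
    refine ⟨?_, rfl⟩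
    simp only [zero_smul, add_zero] at h
    exact (smul_eq_zero.mp h).resolve_right he0
  have hfs : Module.finrank F (Submodule.span F (Set.range ![e, f])) = 2 := by
    simpa using finrank_span_eq_card hli
  have hle : Submodule.span F (Set.range ![e, f]) ≤ W := by
    rw [Submodule.span_le]
    rintro _ ⟨i, rfl⟩
    fin_cases i
    · exact heW
    · exact hfW
  have hspan : Submodule.span F (Set.range ![e, f]) = W :=
    Submodule.eq_of_le_of_finrank_eq hle (by omega)
  have hmem : ∀ w ∈ W, ∃ α β : F, w = α • e + β • f := by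
    intro w hw
    rw [← hspan] at hw
    have hr : Set.range ![e, f] = {e, f} := by
      ext z
      simp only [Set.mem_range, Fin.exists_fin_two, Set.mem_insert_iff, Set.mem_singleton_iff, Matrix.cons_val_zero,
        Matrix.cons_val_one]
      constructor <;> rintro (h | h) <;> simp [h]
    rw [hr] at hw
    obtain ⟨α, β, h⟩ := Submodule.mem_span_pair.mp hw
    exact ⟨α, β, h.symm⟩
  have hcS : Q (e + f) = 1 := by
    rw [Q_add' Q, heS, hfS, hef]
    ring
  refine ⟨e + f, by rw [hcS]; exact one_ne_zero, ?_⟩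
  intro g hg w hw
  obtain ⟨d, rfl⟩ := Submodule.mem_span_singleton.mp hw
  rw [Matrix.mulVec_smul]
  apply Submodule.smul_mem
  obtain ⟨α, β, hαβ⟩ := hmem _ (hW g hg (e + f) (W.add_mem heW hfW))
  have h1 : Q (α • e + β • f) = 1 := by
    rw [← hαβ, hfix g hg, hcS]
  rw [Q_add' Q, C.Q_smul, C.Q_smul, heS, hfS, C.polar_smul_left, C.polar_smul_right, hef] at h1
  have h2 : α * β = 1 := by linear_combination h1
  have hα0 : α ≠ 0 := by
    rintro rfl
    simp at h2
  have h3 : α ^ 2 = 1 := by
    have := FiniteField.pow_card_sub_one_eq_one α hα0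
    rwa [hq3] at this
  have h4 : β = α := by
    have : α * β = α * α := by rw [h2, ← pow_two, h3]
    exact mul_left_cancel₀ hα0 this
  rw [hαβ, h4, ← smul_add]
  exact Submodule.smul_mem _ _ (Submodule.mem_span_singleton_self _)

theorem OCtx.reducible_case [Fintype F] (C : OCtx Q K) (hn : 5 ≤ Fintype.card ι) (hodd : ¬ Even (Fintype.card ι))
    {H : Subgroup (GL ι F)} (hH : IsMaximalIn K H) {W : Submodule F (ι → F)} (hW : Stable H W) (h0 : W ≠ ⊥) (h1 : W ≠ ⊤) :
    (∃ W' : Submodule F (ι → F), W' ≠ ⊥ ∧ IsTotallySingularQuad Q W' ∧ H = subspaceStabilizer W' ⊓ K) ∨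
    (∃ W' : Submodule F (ι → F), W' ≠ ⊥ ∧ Even (Module.finrank F W') ∧ IsNondegenerateOn (QuadraticMap.polar Q) W' ∧
      ¬ (Fintype.card F = 3 ∧ Module.finrank F W' = 2 ∧ IsPlusTypeOn Q W') ∧ H = subspaceStabilizer W' ⊓ K) := by
  classical
  have hHK : H ≤ K := hH.1.le
  have hfix : ∀ g ∈ H, ∀ v, Q ((g : Matrix ι ι F) *ᵥ v) = Q v := fun g hg => C.fix g (hHK hg)
  have hP := C.stable_perp hfix hW
  have hfinal : ∀ W₁ : Submodule F (ι → F), Stable H W₁ → W₁ ≠ ⊥ → W₁ ≠ ⊤ → H = subspaceStabilizer W₁ ⊓ K := fun W₁ hs h2 h3 =>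
    maximal_eq' hH (fun h hh => mem_stab_of_stable hs hh) (C.not_le_stab hn h2 h3)
  by_cases hdisj : W ⊓ C.perp W = ⊥
  · right
    obtain ⟨hdim, hsup⟩ := C.perp_dims hdisj
    have hP0 : C.perp W ≠ ⊥ := by
      intro hb
      rw [hb, finrank_bot, add_zero] at hdim
      apply h1
      apply Submodule.eq_top_of_finrank_eq
      simpa using hdim
    have hP1 : C.perp W ≠ ⊤ := by
      intro ht
      rw [ht, inf_top_eq] at hdisj
      exact h0 hdisj
    have key : ∀ W₁ : Submodule F (ι → F), Stable H W₁ → W₁ ≠ ⊥ → W₁ ≠ ⊤ → Even (Module.finrank F W₁) →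
        IsNondegenerateOn (QuadraticMap.polar Q) W₁ →
        ∃ W' : Submodule F (ι → F), W' ≠ ⊥ ∧ Even (Module.finrank F W') ∧ IsNondegenerateOn (QuadraticMap.polar Q) W' ∧
        ¬ (Fintype.card F = 3 ∧ Module.finrank F W' = 2 ∧ IsPlusTypeOn Q W') ∧ H = subspaceStabilizer W' ⊓ K := by
      intro W₁ hs h2 h3 he hnd
      by_cases hsp : Fintype.card F = 3 ∧ Module.finrank F W₁ = 2 ∧ IsPlusTypeOn Q W₁
      · obtain ⟨hq3, hd2, hplus⟩ := hsp
        obtain ⟨c, hc, hcs⟩ := C.plus_plane_line hq3 hfix hs hd2 hnd hplus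
        have hc0 : c ≠ 0 := by
          rintro rfl
          exact hc C.Q_zero
        have hdisj' : Submodule.span F {c} ⊓ C.perp (Submodule.span F {c}) = ⊥ := by
          rw [Submodule.eq_bot_iff]
          rintro v ⟨hv1, hv2⟩
          obtain ⟨d, rfl⟩ := Submodule.mem_span_singleton.mp hv1
          have h4 := (C.mem_perp).mp hv2 c (Submodule.mem_span_singleton_self _)
          rw [C.polar_smul_right, C.self] at h4
          have hd0 : d = 0 := by
            rcases mul_eq_zero.mp h4 with h5 | h5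
            · exact h5
            · exact absurd h5 (mul_ne_zero C.two hc)
          simp [hd0]
        obtain ⟨hdim', hsup'⟩ := C.perp_dims hdisj'
        have hl1 : Module.finrank F (Submodule.span F {c}) = 1 := finrank_span_singleton hc0
        rw [hl1] at hdim'
        have hodd' : Odd (Fintype.card ι) := Nat.not_even_iff_odd.mp hodd
        refine ⟨C.perp (Submodule.span F {c}), ?_, ?_, C.nondeg_perp_of_disj hdisj', ?_, ?_⟩
        · intro hb
          rw [hb, finrank_bot] at hdim'
          omega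
        · obtain ⟨k, hk⟩ := hodd'
          exact ⟨k, by omega⟩
        · rintro ⟨-, h5, -⟩
          omega
        · refine hfinal _ (C.stable_perp hfix hcs) ?_ ?_
          · intro hb
            rw [hb, finrank_bot] at hdim'
            omega
          · intro ht
            rw [ht] at hdim'
            simp at hdim'
      · exact ⟨W₁, h2, he, hnd, hsp, hfinal W₁ hs h2 h3⟩
    by_cases he : Even (Module.finrank F W)
    · exact key W hW h0 h1 he (C.nondeg_of_disj hdisj)
    · refine key (C.perp W) hP hP0 hP1 ?_ (C.nondeg_perp_of_disj hdisj)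
      rw [← hdim, Nat.even_add] at hodd
      by_contra he2
      exact hodd ⟨fun h => absurd h he, fun h => absurd h he2⟩
  · left
    refine ⟨W ⊓ C.perp W, hdisj, ?_, hfinal _ (hW.inf hP) hdisj ?_⟩
    · intro r hr
      have h2 := hr.2 r hr.1
      rw [C.self] at h2
      exact (mul_eq_zero.mp h2).resolve_left C.two
    · intro ht
      apply h1
      rw [eq_top_iff, ← ht]
      exact inf_le_left

/-! ### Gram matrices -/

theorem OCtx.polar_eq_dot (C : OCtx Q K) (x y : ι → F) :
    QuadraticMap.polar Q x y = x ⬝ᵥ (gramMatrix (QuadraticMap.polar Q) *ᵥ y) := by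
  classical
  let G := gramMatrix (QuadraticMap.polar Q)
  let g : (ι → F) → (ι → F) → F := fun u v => u ⬝ᵥ (G *ᵥ v)
  have hg : Sesq (RingHom.id F) g :=
    ⟨fun x y v => by simp [g, add_dotProduct],
     fun c x v => by simp [g, smul_dotProduct],
     fun v x y => by simp [g, Matrix.mulVec_add, dotProduct_add],
     fun c x v => by simp [g, Matrix.mulVec_smul, dotProduct_smul]⟩
  have hfg : ∀ u v, QuadraticMap.polar Q u v = g u v := by
    refine Sesq.ext_basis C.pS hg (Pi.basisFun F ι) (fun k l => ?_)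
    simp only [Pi.basisFun_apply, g]
    rw [Matrix.mulVec_single_one, single_one_dotProduct]
    rfl
  exact hfg x y

theorem OCtx.gram_conj (C : OCtx Q K) (P : GL ι F) (i j : ι) :
    ((P : Matrix ι ι F)ᵀ * gramMatrix (QuadraticMap.polar Q) * (P : Matrix ι ι F)) i j =
      QuadraticMap.polar Q ((P : Matrix ι ι F) *ᵥ Pi.single i 1) ((P : Matrix ι ι F) *ᵥ Pi.single j 1) := by
  rw [C.polar_eq_dot, Matrix.mulVec_mulVec, Matrix.mulVec_single_one, Matrix.mulVec_single_one, Matrix.mul_assoc,
    Matrix.mul_apply]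
  rfl

theorem OCtx.gram_det_ne [Nonempty ι] (C : OCtx Q K) : (gramMatrix (QuadraticMap.polar Q)).det ≠ 0 := by
  have hinj : Function.Injective (gramMatrix (QuadraticMap.polar Q)).mulVec := by
    intro x y hxy
    by_contra hne
    obtain ⟨w, hw⟩ := (C.quad.nondegenerate (x - y) (sub_ne_zero.mpr hne)).1
    apply hw
    have hv' : gramMatrix (QuadraticMap.polar Q) *ᵥ (x - y) = 0 := by
      have hxy' : gramMatrix (QuadraticMap.polar Q) *ᵥ x = gramMatrix (QuadraticMap.polar Q) *ᵥ y := hxy
      rw [Matrix.mulVec_sub, hxy', sub_self]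
    rw [C.polar_eq_dot, hv', dotProduct_zero]
  have hunit : IsUnit (gramMatrix (QuadraticMap.polar Q)) := Matrix.mulVec_injective_iff_isUnit.mp hinj
  exact ((Matrix.isUnit_iff_isUnit_det _).mp hunit).ne_zero

theorem det_mem_subfield {F₀ : Subfield F} {M : Matrix ι ι F} (h : ∀ i j, M i j ∈ F₀) : M.det ∈ F₀ := by
  let M₀ : Matrix ι ι F₀ := fun i j => ⟨M i j, h i j⟩
  have e : (F₀.subtype : F₀ →+* F).mapMatrix M₀ = M := by
    ext i j
    rfl
  rw [← e, ← RingHom.map_det]
  exact SetLike.coe_mem _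

theorem OCtx.gram_det_mem (C : OCtx Q K) (F₀ : Subfield F) : (gramMatrix (QuadraticMap.polar Q)).det ∈ F₀ := by
  apply det_mem_subfield
  intro a b
  have hs : ∀ i k, (Pi.single i (1 : F) : ι → F) k ∈ F₀ := by
    intro i k
    rw [Pi.single_apply]
    split_ifs
    · exact F₀.one_mem
    · exact F₀.zero_mem
  show QuadraticMap.polar Q (Pi.single a 1) (Pi.single b 1) ∈ F₀
  simp only [QuadraticMap.polar]
  refine F₀.sub_mem (F₀.sub_mem (C.rat F₀ _ fun k => ?_) (C.rat F₀ _ (hs a))) (C.rat F₀ _ (hs b))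
  simp only [Pi.add_apply]
  exact F₀.add_mem (hs a k) (hs b k)

theorem two_mem_subfield (F₀ : Subfield F) : (2 : F) ∈ F₀ := by
  have := F₀.add_mem F₀.one_mem F₀.one_mem
  rwa [one_add_one_eq_two] at this

theorem OCtx.rat_of_gram (C : OCtx Q K) {F₀ : Subfield F} {P : GL ι F}
    (hG : ∀ k l, QuadraticMap.polar Q ((P : Matrix ι ι F) *ᵥ Pi.single k 1) ((P : Matrix ι ι F) *ᵥ Pi.single l 1) ∈ F₀) :
    IsQuadFormRationalStructure Q F₀ P := by
  intro u hu
  have h1 : QuadraticMap.polar Q ((P : Matrix ι ι F) *ᵥ u) ((P : Matrix ι ι F) *ᵥ u) ∈ F₀ := by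
    rw [gl_mulVec_eq_sum, C.pS.sum_left]
    refine F₀.sum_mem fun k _ => ?_
    rw [C.polar_smul_left, C.pS.sum_right]
    refine F₀.mul_mem (hu k) (F₀.sum_mem fun l _ => ?_)
    rw [C.polar_smul_right]
    exact F₀.mul_mem (hu l) (hG k l)
  rw [C.self] at h1
  have h2 := F₀.mul_mem (F₀.inv_mem (two_mem_subfield F₀)) h1
  rwa [inv_mul_cancel_left₀ C.two] at h2

theorem sq_class {n : ℕ} (hn : Odd n) {a w t : F} (ha : a ≠ 0) (h : a ^ n = w ^ 2 * t) : ∃ z : F, a = z ^ 2 * t := by
  obtain ⟨k, rfl⟩ := hn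
  refine ⟨w / a ^ k, ?_⟩
  have h1 : a ^ (2 * k + 1) = (a ^ k) ^ 2 * a := by ring
  rw [h1] at h
  have h2 : a ^ k ≠ 0 := pow_ne_zero _ ha
  field_simp
  linear_combination h

/-- The group permutes the frame transitively. -/
theorem frame_trans {H : Subgroup (GL ι F)} (hirr : Irr H) (b : Module.Basis ι F (ι → F))
    (hb2 : ∀ h ∈ H, ∀ i, ∃ j, ∃ c : F, (h : Matrix ι ι F) *ᵥ b i = c • b j) (i j : ι) :
    ∃ h ∈ H, ∃ c : F, c ≠ 0 ∧ (h : Matrix ι ι F) *ᵥ b i = c • b j := by
  classical
  let O : Set ι := {k | ∃ h ∈ H, ∃ c : F, c ≠ 0 ∧ (h : Matrix ι ι F) *ᵥ b i = c • b k}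
  let W : Submodule F (ι → F) := Submodule.span F (b '' O)
  have hcne : ∀ (g : GL ι F) (k l : ι) (c : F), (g : Matrix ι ι F) *ᵥ b k = c • b l → c ≠ 0 := by
    intro g k l c hc h0
    rw [h0, zero_smul] at hc
    exact b.ne_zero k (gl_mulVec_injective g (by simpa using hc))
  have hW : Stable H W := by
    intro g hg w hw
    have : W ≤ W.comap (Matrix.toLin' (g : Matrix ι ι F)) := by
      rw [Submodule.span_le]
      rintro _ ⟨k, ⟨h, hh, c, hc0, hc⟩, rfl⟩
      simp only [Submodule.comap_coe, Set.mem_preimage, SetLike.mem_coe, Matrix.toLin'_apply]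
      obtain ⟨l, c', hc'⟩ := hb2 g hg k
      rw [hc']
      refine W.smul_mem _ (Submodule.subset_span ⟨l, ⟨g * h, H.mul_mem hg hh, c * c', mul_ne_zero hc0 (hcne g k l c' hc'), ?_⟩, rfl⟩)
      rw [gl_mulVec_mul, hc, Matrix.mulVec_smul, hc', smul_smul]
    simpa [Matrix.toLin'_apply] using this hw
  have hiO : i ∈ O := ⟨1, H.one_mem, 1, one_ne_zero, by simp⟩
  have hjO : j ∈ O := by
    rcases hirr W hW with hb | ht
    · exfalso
      have h1 : b i ∈ W := Submodule.subset_span ⟨i, hiO, rfl⟩
      rw [hb] at h1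
      exact b.ne_zero i (by simpa using h1)
    · have h1 : b j ∈ W := ht ▸ Submodule.mem_top
      by_contra hj
      exact b.linearIndependent.notMem_span_image hj h1
  exact hjO

/-- A frame permuted by an irreducible group of isometries. -/
theorem OCtx.frame_orth [Finite F] (C : OCtx Q K) (hodd : ¬ Even (Fintype.card ι)) {H N : Subgroup (GL ι F)}
    (hNH : N ≤ H) (hfixH : ∀ g ∈ H, ∀ v, Q ((g : Matrix ι ι F) *ᵥ v) = Q v)
    (hirr : Irr H) (b : Module.Basis ι F (ι → F)) (hb1 : ∀ i, IsCommonEig N (b i))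
    (hb2 : ∀ h ∈ H, ∀ i, ∃ j, ∃ c : F, (h : Matrix ι ι F) *ᵥ b i = c • b j)
    (hb3 : ∀ i j, i ≠ j → ∃ g ∈ N, ∃ c : F, (g : Matrix ι ι F) *ᵥ b i = c • b i ∧ (g : Matrix ι ι F) *ᵥ b j ≠ c • b j) :
    (∀ i j, i ≠ j → QuadraticMap.polar Q (b i) (b j) = 0) ∧ ∀ i, QuadraticMap.polar Q (b i) (b i) ≠ 0 := by
  classical
  have hS := C.pS
  have hfp : ∀ g ∈ H, ∀ u v, QuadraticMap.polar Q ((g : Matrix ι ι F) *ᵥ u) ((g : Matrix ι ι F) *ᵥ v) = QuadraticMap.polar Q u v :=
    fun g hg u v => fixes_polar (hfixH g hg) u v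
  have huniq : ∀ i j k, QuadraticMap.polar Q (b i) (b j) ≠ 0 → QuadraticMap.polar Q (b i) (b k) ≠ 0 → j = k := by
    intro i j k hj hk
    by_contra hne
    obtain ⟨g, hg, c, h1, h2⟩ := hb3 j k hne
    obtain ⟨e, he⟩ := hb1 i g hg
    obtain ⟨c', hc'⟩ := hb1 k g hg
    have e1 := hfp g (hNH hg) (b i) (b j)
    have e2 := hfp g (hNH hg) (b i) (b k)
    rw [he, h1, C.polar_smul_left, C.polar_smul_right] at e1
    rw [he, hc', C.polar_smul_left, C.polar_smul_right] at e2
    have e3 : e * c = 1 := by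
      have : e * c * QuadraticMap.polar Q (b i) (b j) = 1 * QuadraticMap.polar Q (b i) (b j) := by rw [one_mul, mul_assoc, e1]
      exact mul_right_cancel₀ hj this
    have e4 : e * c' = 1 := by
      have : e * c' * QuadraticMap.polar Q (b i) (b k) = 1 * QuadraticMap.polar Q (b i) (b k) := by rw [one_mul, mul_assoc, e2]
      exact mul_right_cancel₀ hk this
    have he0 : e ≠ 0 := by
      rintro rfl
      simp at e3
    have e6 : c = c' := mul_left_cancel₀ he0 (e3.trans e4.symm)
    apply h2
    rw [hc', e6]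
  let Fx : Set ι := {i | QuadraticMap.polar Q (b i) (b i) ≠ 0}
  let W : Submodule F (ι → F) := Submodule.span F (b '' Fx)
  have hW : Stable H W := by
    intro g hg w hw
    have : W ≤ W.comap (Matrix.toLin' (g : Matrix ι ι F)) := by
      rw [Submodule.span_le]
      rintro _ ⟨i, hi, rfl⟩
      simp only [Submodule.comap_coe, Set.mem_preimage, SetLike.mem_coe, Matrix.toLin'_apply]
      obtain ⟨j, c, hc⟩ := hb2 g hg i
      rw [hc]
      have hi' := hfp g hg (b i) (b i)
      rw [hc, C.polar_smul_left, C.polar_smul_right] at hi'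
      have hj : QuadraticMap.polar Q (b j) (b j) ≠ 0 := by
        intro h0
        rw [h0] at hi'
        simp at hi'
        exact hi hi'.symm
      exact W.smul_mem _ (Submodule.subset_span ⟨j, hj, rfl⟩)
    simpa [Matrix.toLin'_apply] using this hw
  have hall : ∀ i, QuadraticMap.polar Q (b i) (b i) ≠ 0 := by
    rcases hirr W hW with hb | ht
    · exfalso
      have hnone : ∀ i, QuadraticMap.polar Q (b i) (b i) = 0 := by
        intro i
        by_contra hi
        have h1 : b i ∈ W := Submodule.subset_span ⟨i, hi, rfl⟩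
        rw [hb] at h1
        exact b.ne_zero i (by simpa using h1)
      have hpart : ∀ i, ∃ j, QuadraticMap.polar Q (b i) (b j) ≠ 0 := by
        intro i
        by_contra hall
        push Not at hall
        obtain ⟨x, hx⟩ := C.nd (b.ne_zero i)
        apply hx
        rw [hS.expand_right b]
        exact Finset.sum_eq_zero fun l _ => by rw [hall, mul_zero]
      choose π hπ using hpart
      have hinv : Function.Involutive π := by
        intro i
        have h1 : QuadraticMap.polar Q (b (π i)) (b i) ≠ 0 := by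
          rw [QuadraticMap.polar_comm]
          exact hπ i
        exact huniq _ _ _ (hπ (π i)) h1
      have hnofix : ∀ i, π i ≠ i := by
        intro i h
        have := hπ i
        rw [h] at this
        exact this (hnone i)
      have h2 := Equiv.Perm.two_dvd_card_support (σ := hinv.toPerm) (by
        ext i
        simp [pow_two, hinv (i)])
      have h3 : hinv.toPerm.support = Finset.univ := by
        ext i
        simp [Equiv.Perm.mem_support, hnofix]
      rw [h3, Finset.card_univ] at h2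
      exact hodd ((even_iff_two_dvd).mpr h2)
    · intro i
      have h1 : b i ∈ W := ht ▸ Submodule.mem_top
      by_contra hi
      have hnot : i ∉ Fx := by simpa [Fx] using hi
      exact b.linearIndependent.notMem_span_image hnot h1
  refine ⟨fun i j hij => ?_, hall⟩
  by_contra h0
  exact hij (huniq i i j (hall i) h0)

/-- The frame case: a decomposition into isometric lines, or a subfield structure. -/
theorem OCtx.diag_case [Fintype F] (C : OCtx Q K) {n : ℕ} (hcard : Fintype.card ι = n) (hodd : Odd n) (hn6 : 6 ≤ n)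
    {H : Subgroup (GL ι F)} (hH : IsMaximalIn K H) (hirr : Irr H) (b : Module.Basis ι F (ι → F))
    (horth : ∀ i j, i ≠ j → QuadraticMap.polar Q (b i) (b j) = 0) (hd : ∀ i, QuadraticMap.polar Q (b i) (b i) ≠ 0)
    (hb2 : ∀ h ∈ H, ∀ i, ∃ j, ∃ c : F, (h : Matrix ι ι F) *ᵥ b i = c • b j) :
    ((Fintype.card F).Prime ∧ ∃ D : Fin n → Submodule F (ι → F), IsOrthogonalMDecomposition Q 1 D ∧
        H = decompositionStabilizer D ⊓ K) ∨
    (∃ (F₀ : Subfield F) (r : ℕ) (P : GL ι F), r.Prime ∧ Fintype.card F = Nat.card F₀ ^ r ∧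
        IsQuadFormRationalStructure Q F₀ P ∧ H = subfieldSubgroup F₀ P ⊓ K) := by
  classical
  have hHK : H ≤ K := hH.1.le
  have hne : Nonempty ι := Fintype.card_pos_iff.mp (by omega)
  have hfix : ∀ g ∈ H, ∀ v, Q ((g : Matrix ι ι F) *ᵥ v) = Q v := fun g hg => C.fix g (hHK hg)
  have hQd : ∀ i, Q (b i) ≠ 0 := fun i h => hd i (by rw [C.self, h, mul_zero])
  have htrans := frame_trans hirr b hb2
  by_cases hp : (Fintype.card F).Prime
  · left
    refine ⟨hp, ?_⟩
    let e : ι ≃ Fin n := Fintype.equivFinOfCardEq hcard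
    let b' := b.reindex e
    have hb' : ∀ k, b' k = b (e.symm k) := fun k => by simp [b']
    have horth' : ∀ k l, k ≠ l → QuadraticMap.polar Q (b' k) (b' l) = 0 := by
      intro k l hkl
      rw [hb', hb']
      exact horth _ _ (fun h => hkl (e.symm.injective h))
    have hd' : ∀ k, Q (b' k) ≠ 0 := fun k => by
      rw [hb']
      exact hQd _
    refine ⟨fun k => Submodule.span F {b' k}, ⟨⟨isMDecomposition_of_basis (by omega) b', ?_, ?_⟩, ?_⟩, ?_⟩
    · intro k w hw hw0
      obtain ⟨c, rfl⟩ := Submodule.mem_span_singleton.mp hw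
      have hc0 : c ≠ 0 := by
        rintro rfl
        exact hw0 (zero_smul _ _)
      have hself : QuadraticMap.polar Q (b' k) (b' k) ≠ 0 := by
        rw [C.self]
        exact mul_ne_zero C.two (hd' k)
      refine ⟨⟨b' k, Submodule.mem_span_singleton_self _, ?_⟩, ⟨b' k, Submodule.mem_span_singleton_self _, ?_⟩⟩
      · rw [C.polar_smul_right]
        exact mul_ne_zero hc0 hself
      · rw [C.polar_smul_left]
        exact mul_ne_zero hc0 hself
    · intro k l hkl u hu v hv
      obtain ⟨c, rfl⟩ := Submodule.mem_span_singleton.mp hu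
      obtain ⟨d, rfl⟩ := Submodule.mem_span_singleton.mp hv
      rw [C.polar_smul_left, C.polar_smul_right, horth' k l hkl]
      simp
    · intro k l
      obtain ⟨h, hh, c, hc0, hc⟩ := htrans (e.symm k) (e.symm l)
      have hmap : (Submodule.span F {b' k}).map (Matrix.toLin' (h : Matrix ι ι F)) = Submodule.span F {b' l} := by
        rw [Submodule.map_span, Set.image_singleton, Matrix.toLin'_apply, hb' k, hc, hb' l]
        exact Submodule.span_singleton_smul_eq (isUnit_iff_ne_zero.mpr hc0) _
      have hinj : Function.Injective (Matrix.toLin' (h : Matrix ι ι F)) := by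
        intro x y hxy
        apply gl_mulVec_injective h
        simpa [Matrix.toLin'_apply] using hxy
      refine ⟨(Submodule.equivMapOfInjective _ hinj _).trans (LinearEquiv.ofEq _ _ hmap), fun w => ?_⟩
      show Q ((h : Matrix ι ι F) *ᵥ (w : ι → F)) = _
      exact hfix h hh _
    · refine maximal_eq' hH (fun h hh => mem_decompositionStabilizer_of_basis b' h (fun k => ?_)) (C.not_le_frame hn6 b' horth' hd')
      obtain ⟨j, c, hc⟩ := hb2 h hh (e.symm k)
      refine ⟨e j, c, ?_⟩
      rw [hb', hb', hc]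
      simp
  · right
    obtain ⟨p, hp'⟩ := CharP.exists F
    obtain ⟨e, hpp, hcp⟩ := FiniteField.card F p
    have : Fact p.Prime := ⟨hpp⟩
    have hF₀' : (iterateFrobenius F p 1).eqLocusField (RingHom.id F) ≠ ⊤ := by
      intro htop
      have hall : ∀ x : F, x ^ p ^ 1 = x := by
        intro x
        have hx : x ∈ (iterateFrobenius F p 1).eqLocusField (RingHom.id F) := by
          rw [htop]; trivial
        have hx' : iterateFrobenius F p 1 x = x := hx
        rwa [iterateFrobenius_def] at hx'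
      have h1 : 1 < p ^ 1 := by simpa using hpp.one_lt
      have h2 := card_le_of_forall_pow h1 hall
      rw [hcp, pow_one] at h2
      have he1 : (e : ℕ) = 1 := by
        by_contra hne1
        have he2 : 2 ≤ (e : ℕ) := by
          have := e.pos
          omega
        have h3 : p ^ 2 ≤ p ^ (e : ℕ) := Nat.pow_le_pow_right hpp.pos he2
        have h4 := hpp.two_le
        nlinarith
      apply hp
      rw [hcp, he1, pow_one]
      exact hpp
    obtain ⟨F₁, r, hr, -, hcard'⟩ := exists_prime_index_subfield hF₀'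
    have hF₁ : F₁ ≠ ⊤ := by
      rintro rfl
      have h1 : Nat.card (⊤ : Subfield F) = Nat.card F := Nat.card_congr Subfield.topEquiv.toEquiv
      rw [h1] at hcard'
      have h2 : 1 < Nat.card F := Finite.one_lt_card
      have h3 : Nat.card F ^ 1 = Nat.card F ^ r := by rw [pow_one]; exact hcard'
      have h4 := Nat.pow_right_injective h2 h3
      exact hr.one_lt.ne h4
    refine ⟨F₁, r, ?_⟩
    -- normalise the frame
    let i₀ : ι := Classical.arbitrary ι
    set a₀ := Q (b i₀) with ha₀
    have ha₀0 : a₀ ≠ 0 := hQd i₀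
    have hsc : ∀ i, ∃ c : F, c ≠ 0 ∧ a₀ = c ^ 2 * Q (b i) := by
      intro i
      obtain ⟨h, hh, c, hc0, hc⟩ := htrans i₀ i
      refine ⟨c, hc0, ?_⟩
      rw [ha₀, ← hfix h hh, hc, C.Q_smul]
    choose cc hcc0 hcc using hsc
    obtain ⟨P, hP⟩ := exists_gl_of_bases (Pi.basisFun F ι) b
    have hP' : ∀ k, (P : Matrix ι ι F) *ᵥ Pi.single k 1 = b k := fun k => by
      have := hP k
      simpa using this
    set G := gramMatrix (QuadraticMap.polar Q) with hG
    have hconj : (P : Matrix ι ι F)ᵀ * G * (P : Matrix ι ι F) = Matrix.diagonal (fun i => 2 * Q (b i)) := by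
      ext i j
      rw [C.gram_conj, hP', hP', Matrix.diagonal_apply]
      split_ifs with hij
      · subst hij
        exact C.self _
      · exact horth _ _ hij
    have hdet : (P : Matrix ι ι F).det ^ 2 * G.det = ∏ i, (2 * Q (b i)) := by
      have := congrArg Matrix.det hconj
      rw [Matrix.det_mul, Matrix.det_mul, Matrix.det_transpose, Matrix.det_diagonal] at this
      rw [← this]
      ring
    have hpow : (2 * a₀) ^ n = ((P : Matrix ι ι F).det * ∏ i, cc i) ^ 2 * G.det := by
      have e1 : (2 * a₀) ^ n = ∏ _i : ι, (2 * a₀) := by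
        rw [Finset.prod_const, Finset.card_univ, hcard]
      have e2 : ∏ i : ι, (2 * a₀) = (∏ i, (2 * Q (b i))) * (∏ i, cc i) ^ 2 := by
        rw [← Finset.prod_pow, ← Finset.prod_mul_distrib]
        refine Finset.prod_congr rfl fun i _ => ?_
        rw [hcc i]
        ring
      rw [e1, e2, ← hdet]
      ring
    obtain ⟨z, hz⟩ := sq_class hodd (mul_ne_zero C.two ha₀0) hpow
    have hG0 : G.det ≠ 0 := C.gram_det_ne
    have hz0 : z ≠ 0 := by
      rintro rfl
      simp at hz
      rcases hz with h | h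
      · exact C.two h
      · exact ha₀0 h
    set ν := G.det / 2 with hν
    have hν0 : ν ≠ 0 := div_ne_zero hG0 C.two
    have hνm : ν ∈ F₁ := F₁.div_mem (C.gram_det_mem F₁) (two_mem_subfield F₁)
    have ha₀ν : a₀ = z ^ 2 * ν := by
      rw [hν]
      have h2 := C.two
      field_simp
      linear_combination hz
    let s : ι → F := fun i => cc i / z
    have hs0 : ∀ i, s i ≠ 0 := fun i => div_ne_zero (hcc0 i) hz0
    have hsQ : ∀ i, s i ^ 2 * Q (b i) = ν := by
      intro i
      have h1 := hcc i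
      show (cc i / z) ^ 2 * Q (b i) = ν
      have h2 : (cc i) ^ 2 * Q (b i) = z ^ 2 * ν := by rw [← h1, ha₀ν]
      field_simp
      linear_combination h2
    let b'' : Module.Basis ι F (ι → F) := b.isUnitSMul (w := s) (fun i => isUnit_iff_ne_zero.mpr (hs0 i))
    have hb'' : ∀ i, b'' i = s i • b i := fun i => Module.Basis.isUnitSMul_apply _ _
    have hQb'' : ∀ i, Q (b'' i) = ν := fun i => by
      rw [hb'', C.Q_smul, hsQ]
    obtain ⟨P'', hP''⟩ := exists_gl_of_bases (Pi.basisFun F ι) b''
    have hP''' : ∀ k, (P'' : Matrix ι ι F) *ᵥ Pi.single k 1 = b'' k := fun k => by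
      have := hP'' k
      simpa using this
    have hmem : ∀ h ∈ H, h ∈ subfieldSubgroup F₁ P'' := by
      intro h hh
      set A : GL ι F := P''⁻¹ * h * P'' with hA
      have hent : ∀ k l, (A : Matrix ι ι F) k l ∈ F₁ := by
        intro k l
        obtain ⟨j, c, hc⟩ := hb2 h hh l
        set c' := s l * c / s j with hc'
        have h1 : (h : Matrix ι ι F) *ᵥ b'' l = c' • b'' j := by
          rw [hb'', hb'', Matrix.mulVec_smul, hc, smul_smul, smul_smul, hc']
          have := hs0 j
          congr 1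
          field_simp
        have h2 : c' ^ 2 = 1 := by
          have h3 := hfix h hh (b'' l)
          rw [h1, C.Q_smul, hQb'', hQb''] at h3
          have h4 : c' ^ 2 * ν = 1 * ν := by rw [h3, one_mul]
          exact mul_right_cancel₀ hν0 h4
        have hc'm : c' ∈ F₁ := by
          have h3 : (c' - 1) * (c' + 1) = 0 := by linear_combination h2
          rcases mul_eq_zero.mp h3 with h4 | h4
          · rw [sub_eq_zero.mp h4]
            exact F₁.one_mem
          · rw [eq_neg_of_add_eq_zero_left h4]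
            exact F₁.neg_mem F₁.one_mem
        have h5 : (A : Matrix ι ι F) *ᵥ Pi.single l 1 = c' • Pi.single j 1 := by
          rw [hA, gl_mulVec_mul, gl_mulVec_mul, hP''', h1, Matrix.mulVec_smul, ← hP''' j, gl_inv_mulVec]
        have h6 := congrFun h5 k
        rw [Matrix.mulVec_single_one] at h6
        simp only [Matrix.col_apply, Pi.smul_apply, smul_eq_mul, Pi.single_apply] at h6
        rw [h6]
        split_ifs
        · rw [mul_one]
          exact hc'm
        · rw [mul_zero]
          exact F₁.zero_mem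
      have hm := mem_range_sup_scalars (F₁ := F₁) (A := A) (d := 1) one_ne_zero (by simpa using hent)
      refine ⟨A, hm, ?_⟩
      show P'' * A * P''⁻¹ = h
      rw [hA]
      group
    refine ⟨P'', hr, by rw [← Nat.card_eq_fintype_card]; exact hcard', ?_, ?_⟩
    · apply C.rat_of_gram
      intro k l
      rw [hP''', hP''', hb'', hb'', C.polar_smul_left, C.polar_smul_right]
      by_cases hkl : k = l
      · subst hkl
        rw [C.self]
        have : s k * (s k * (2 * Q (b k))) = 2 * (s k ^ 2 * Q (b k)) := by ring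
        rw [this, hsQ]
        exact F₁.mul_mem (two_mem_subfield F₁) hνm
      · rw [horth _ _ hkl]
        simp [F₁.zero_mem]
    · exact maximal_eq' hH hmem (C.not_le_subfield (by omega) hF₁ P'')

end Cfsg.Agent.H97.Asch
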