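import Cfsg.Agent.Lib.H97Ort2

/-!
The prime-dimensional Aschbacher theorem for the orthogonal groups in odd dimension.
-/

set_option autoImplicit false
set_option linter.unusedSectionVars false
set_option linter.unusedSimpArgs false

namespace Cfsg.Agent.H97.Asch

open Matrix Cfsg Cfsg.Geo
open scoped MatrixGroups commutatorElement

variable {ι : Type} [Fintype ι] [DecidableEq ι] {F : Type*} [Field F] {Q : (ι → F) → F} {K : Subgroup (GL ι F)}

/-- An isometry of determinant one in odd dimension has a non-zero fixed vector. -/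
theorem OCtx.fixed_vector [Nonempty ι] (C : OCtx Q K) (hodd : ¬ Even (Fintype.card ι)) {g : GL ι F} (hg : g ∈ K) :
    ∃ v : ι → F, v ≠ 0 ∧ (g : Matrix ι ι F) *ᵥ v = v := by
  classical
  set G := gramMatrix (QuadraticMap.polar Q) with hG
  have hG0 : G.det ≠ 0 := C.gram_det_ne
  have hconj : (g : Matrix ι ι F)ᵀ * G * (g : Matrix ι ι F) = G := by
    ext i j
    rw [C.gram_conj, fixes_polar (C.fix g hg)]
    rfl
  have hdet : (g : Matrix ι ι F).det = 1 := C.det g hg
  have hkey : G * ((g : Matrix ι ι F) - 1) = (1 - (g : Matrix ι ι F)ᵀ) * G * (g : Matrix ι ι F) := by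
    rw [Matrix.mul_sub, Matrix.sub_mul, Matrix.sub_mul, hconj, Matrix.one_mul, Matrix.mul_one]
  have hdd := congrArg Matrix.det hkey
  rw [Matrix.det_mul, Matrix.det_mul, Matrix.det_mul, hdet, mul_one] at hdd
  have e1 : (1 - (g : Matrix ι ι F)ᵀ) = ((1 - (g : Matrix ι ι F)))ᵀ := by
    rw [Matrix.transpose_sub, Matrix.transpose_one]
  have e2 : (1 - (g : Matrix ι ι F)) = (-1 : F) • ((g : Matrix ι ι F) - 1) := by
    simp
  rw [e1, Matrix.det_transpose, e2, Matrix.det_smul] at hdd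
  have hodd' : Odd (Fintype.card ι) := Nat.not_even_iff_odd.mp hodd
  rw [hodd'.neg_one_pow] at hdd
  have h0 : ((g : Matrix ι ι F) - 1).det = 0 := by
    have h3 : G.det * (2 * ((g : Matrix ι ι F) - 1).det) = 0 := by linear_combination hdd
    rcases mul_eq_zero.mp h3 with h | h
    · exact absurd h hG0
    · exact (mul_eq_zero.mp h).resolve_left C.two
  obtain ⟨v, hv0, hv⟩ := Matrix.exists_mulVec_eq_zero_iff.mpr h0
  refine ⟨v, hv0, ?_⟩
  rw [Matrix.sub_mulVec, Matrix.one_mulVec, sub_eq_zero] at hv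
  exact hv

/-- The relation of the discriminants of a form and of a scalar multiple over a base change. -/
theorem OCtx.exists_rational_aniso (C : OCtx Q K) (Y : GL ι F) [Nonempty ι] :
    ∃ v₁ : ι → F, (∀ (F₁ : Subfield F) (i : ι), v₁ i ∈ F₁) ∧
      QuadraticMap.polar Q ((Y : Matrix ι ι F) *ᵥ v₁) ((Y : Matrix ι ι F) *ᵥ v₁) ≠ 0 := by
  classical
  by_contra hall
  push Not at hall
  have hsingle : ∀ (F₁ : Subfield F) (i k : ι), (Pi.single i (1 : F) : ι → F) k ∈ F₁ := by
    intro F₁ i k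
    rw [Pi.single_apply]
    split_ifs
    · exact F₁.one_mem
    · exact F₁.zero_mem
  have h1 : ∀ i, QuadraticMap.polar Q ((Y : Matrix ι ι F) *ᵥ Pi.single i 1) ((Y : Matrix ι ι F) *ᵥ Pi.single i 1) = 0 :=
    fun i => hall _ (fun F₁ k => hsingle F₁ i k)
  have h2 : ∀ i j, QuadraticMap.polar Q ((Y : Matrix ι ι F) *ᵥ Pi.single i 1) ((Y : Matrix ι ι F) *ᵥ Pi.single j 1) = 0 := by
    intro i j
    have h3 := hall (Pi.single i 1 + Pi.single j 1) (fun F₁ k => by
      simp only [Pi.add_apply]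
      exact F₁.add_mem (hsingle F₁ i k) (hsingle F₁ j k))
    rw [Matrix.mulVec_add, C.polar_add_left, C.polar_add_right, C.polar_add_right, h1, h1,
      QuadraticMap.polar_comm Q _ ((Y : Matrix ι ι F) *ᵥ Pi.single i 1)] at h3
    have h4 : 2 * QuadraticMap.polar Q ((Y : Matrix ι ι F) *ᵥ Pi.single i 1) ((Y : Matrix ι ι F) *ᵥ Pi.single j 1) = 0 := by
      linear_combination h3
    exact (mul_eq_zero.mp h4).resolve_left C.two
  have h3 : ∀ u v : ι → F, QuadraticMap.polar Q ((Y : Matrix ι ι F) *ᵥ u) ((Y : Matrix ι ι F) *ᵥ v) = 0 := by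
    intro u v
    rw [gl_mulVec_eq_sum Y u, C.pS.sum_left]
    refine Finset.sum_eq_zero fun k _ => ?_
    rw [C.polar_smul_left, gl_mulVec_eq_sum Y v, C.pS.sum_right]
    rw [Finset.sum_eq_zero, mul_zero]
    intro l _
    rw [C.polar_smul_right, h2, mul_zero]
  obtain ⟨v, hv⟩ := exists_ne (0 : ι → F)
  obtain ⟨x, hx⟩ := C.nd hv
  apply hx
  have := h3 (((Y⁻¹ : GL ι F) : Matrix ι ι F) *ᵥ v) (((Y⁻¹ : GL ι F) : Matrix ι ι F) *ᵥ x)
  rwa [gl_mulVec_inv, gl_mulVec_inv] at this

theorem OCtx.subfield_branch [Fintype F] (C : OCtx Q K) (hodd : ¬ Even (Fintype.card ι)) (hn : 5 ≤ Fintype.card ι)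
    {H P : Subgroup (GL ι F)} (hH : IsMaximalIn K H) (hPH : P ≤ H) (hnorm : ∀ h ∈ H, ∀ x ∈ P, h * x * h⁻¹ ∈ P)
    (habs : ∀ M : Matrix ι ι F, (∀ g ∈ P, M * (g : Matrix ι ι F) = (g : Matrix ι ι F) * M) → ∃ c : F, M = c • 1)
    {F₀ : Subfield F} (hF₀ : F₀ ≠ ⊤) {B : GL ι F}
    (hreal : ∀ s ∈ P, ∀ i j, ((B : Matrix ι ι F) * (s : Matrix ι ι F) * ((B⁻¹ : GL ι F) : Matrix ι ι F)) i j ∈ F₀) :
    ∃ (F₁ : Subfield F) (r : ℕ) (P' : GL ι F), r.Prime ∧ Fintype.card F = Nat.card F₁ ^ r ∧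
      IsQuadFormRationalStructure Q F₁ P' ∧ H = subfieldSubgroup F₁ P' ⊓ K := by
  classical
  have hne : Nonempty ι := Fintype.card_pos_iff.mp (by omega)
  have hS := C.pS
  have hfixP : ∀ g ∈ P, ∀ u v, QuadraticMap.polar Q ((g : Matrix ι ι F) *ᵥ u) ((g : Matrix ι ι F) *ᵥ v) = QuadraticMap.polar Q u v :=
    fun g hg u v => fixes_polar (C.fix g (hH.1.le (hPH hg))) u v
  obtain ⟨F₁, r, hr, hle, hcard⟩ := exists_prime_index_subfield hF₀
  have hF₁ : F₁ ≠ ⊤ := by
    rintro rfl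
    have h1 : Nat.card (⊤ : Subfield F) = Nat.card F := Nat.card_congr Subfield.topEquiv.toEquiv
    rw [h1] at hcard
    have h2 : 1 < Nat.card F := Finite.one_lt_card
    have h3 : Nat.card F ^ 1 = Nat.card F ^ r := by rw [pow_one]; exact hcard
    have h4 := Nat.pow_right_injective h2 h3
    exact hr.one_lt.ne h4
  have hcard' : Fintype.card F = Nat.card F₁ ^ r := by
    rw [← Nat.card_eq_fintype_card]
    exact hcard
  have hreal₁ : ∀ s ∈ P, ∀ i j, ((B : Matrix ι ι F) * (s : Matrix ι ι F) * ((B⁻¹ : GL ι F) : Matrix ι ι F)) i j ∈ F₁ :=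
    fun s hs i j => hle (hreal s hs i j)
  -- the Galois twist
  obtain ⟨τ, hτp, hτ⟩ := exists_ringEquiv_fixed F₁
  set Y : GL ι F := B⁻¹ with hY
  let g : (ι → F) → (ι → F) → F := fun u v =>
    τ.symm (QuadraticMap.polar Q ((Y : Matrix ι ι F) *ᵥ svec τ ((B : Matrix ι ι F) *ᵥ u)) ((Y : Matrix ι ι F) *ᵥ svec τ ((B : Matrix ι ι F) *ᵥ v)))
  have hg : Sesq (RingHom.id F) g :=
    ⟨fun x y v => by
      simp only [g]
      rw [Matrix.mulVec_add, svec_add, Matrix.mulVec_add, hS.add_left, map_add],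
     fun c x v => by
      simp only [g]
      rw [Matrix.mulVec_smul, svec_smul, Matrix.mulVec_smul, hS.smul_left, map_mul, τ.symm_apply_apply],
     fun v x y => by
      simp only [g]
      rw [Matrix.mulVec_add, svec_add, Matrix.mulVec_add, hS.add_right, map_add],
     fun c v x => by
      simp only [g]
      rw [Matrix.mulVec_smul, svec_smul, Matrix.mulVec_smul, hS.smul_right, map_mul]
      simp⟩
  have hsv : ∀ s ∈ P, ∀ w : ι → F, svec τ (((B * s * Y : GL ι F) : Matrix ι ι F) *ᵥ w) =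
      ((B * s * Y : GL ι F) : Matrix ι ι F) *ᵥ svec τ w := by
    intro s hs w
    ext k
    simp only [svec_apply, Matrix.mulVec, dotProduct, map_sum, map_mul]
    refine Finset.sum_congr rfl fun l _ => ?_
    have hr' : ((B * s * Y : GL ι F) : Matrix ι ι F) k l ∈ F₁ := hreal₁ s hs k l
    rw [(hτ _).mpr hr']
  have hginv : ∀ s ∈ P, ∀ u v, g ((s : Matrix ι ι F) *ᵥ u) ((s : Matrix ι ι F) *ᵥ v) = g u v := by
    intro s hs u v
    simp only [g]
    congr 1
    have e1 : ∀ w : ι → F, (B : Matrix ι ι F) *ᵥ ((s : Matrix ι ι F) *ᵥ w) =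
        ((B * s * Y : GL ι F) : Matrix ι ι F) *ᵥ ((B : Matrix ι ι F) *ᵥ w) := by
      intro w
      rw [gl_mulVec_mul, gl_mulVec_mul, hY, gl_inv_mulVec]
    have e2 : ∀ w : ι → F, (Y : Matrix ι ι F) *ᵥ (((B * s * Y : GL ι F) : Matrix ι ι F) *ᵥ w) =
        (s : Matrix ι ι F) *ᵥ ((Y : Matrix ι ι F) *ᵥ w) := by
      intro w
      rw [gl_mulVec_mul, gl_mulVec_mul, hY, gl_inv_mulVec]
    rw [e1, e1, hsv s hs, hsv s hs, e2, e2, hfixP s hs]
  obtain ⟨c, hc⟩ := form_schur habs hS hg (fun v hv => C.nd hv) hfixP hginv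
  have hR : ∀ u v : ι → F, (∀ i, u i ∈ F₁) → (∀ i, v i ∈ F₁) →
      τ.symm (QuadraticMap.polar Q ((Y : Matrix ι ι F) *ᵥ u) ((Y : Matrix ι ι F) *ᵥ v)) =
        c * QuadraticMap.polar Q ((Y : Matrix ι ι F) *ᵥ u) ((Y : Matrix ι ι F) *ᵥ v) := by
    intro u v hu hv
    have h1 := hc ((Y : Matrix ι ι F) *ᵥ u) ((Y : Matrix ι ι F) *ᵥ v)
    simp only [g] at h1
    have e : ∀ w : ι → F, (∀ i, w i ∈ F₁) → svec τ ((B : Matrix ι ι F) *ᵥ ((Y : Matrix ι ι F) *ᵥ w)) = w := by
      intro w hw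
      have e3 : (B : Matrix ι ι F) *ᵥ ((Y : Matrix ι ι F) *ᵥ w) = w := by
        rw [hY]
        exact gl_mulVec_inv B w
      rw [e3]
      ext i
      exact (hτ _).mpr (hw i)
    rw [e u hu, e v hv] at h1
    exact h1
  obtain ⟨v₁, hv₁r, hv₁⟩ := C.exists_rational_aniso Y
  set a := QuadraticMap.polar Q ((Y : Matrix ι ι F) *ᵥ v₁) ((Y : Matrix ι ι F) *ᵥ v₁) with ha
  have hRa : τ.symm a = c * a := hR v₁ v₁ (hv₁r F₁) (hv₁r F₁)
  have hrat : ∀ u v : ι → F, (∀ i, u i ∈ F₁) → (∀ i, v i ∈ F₁) →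
      a⁻¹ * QuadraticMap.polar Q ((Y : Matrix ι ι F) *ᵥ u) ((Y : Matrix ι ι F) *ᵥ v) ∈ F₁ := by
    intro u v hu hv
    rw [← hτ]
    have hτa : τ.symm a ≠ 0 := (map_ne_zero τ.symm).mpr hv₁
    have hc0 : c ≠ 0 := by
      rintro rfl
      rw [zero_mul] at hRa
      exact hτa hRa
    have hfixed : τ.symm (a⁻¹ * QuadraticMap.polar Q ((Y : Matrix ι ι F) *ᵥ u) ((Y : Matrix ι ι F) *ᵥ v)) =
        a⁻¹ * QuadraticMap.polar Q ((Y : Matrix ι ι F) *ᵥ u) ((Y : Matrix ι ι F) *ᵥ v) := by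
      rw [map_mul, map_inv₀, hRa, hR u v hu hv]
      field_simp
    conv_lhs => rw [← hfixed]
    exact τ.apply_symm_apply _
  -- the discriminants
  have hsingle : ∀ (i k : ι), (Pi.single i (1 : F) : ι → F) k ∈ F₁ := by
    intro i k
    rw [Pi.single_apply]
    split_ifs
    · exact F₁.one_mem
    · exact F₁.zero_mem
  set G := gramMatrix (QuadraticMap.polar Q) with hG
  have hG0 : G.det ≠ 0 := C.gram_det_ne
  have hE : a⁻¹ • ((Y : Matrix ι ι F)ᵀ * G * (Y : Matrix ι ι F)) = Matrix.of (fun i j =>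
      a⁻¹ * QuadraticMap.polar Q ((Y : Matrix ι ι F) *ᵥ Pi.single i 1) ((Y : Matrix ι ι F) *ᵥ Pi.single j 1)) := by
    ext i j
    rw [Matrix.smul_apply, C.gram_conj]
    rfl
  have hEm : (a⁻¹ • ((Y : Matrix ι ι F)ᵀ * G * (Y : Matrix ι ι F))).det ∈ F₁ := by
    rw [hE]
    apply det_mem_subfield
    intro i j
    exact hrat _ _ (hsingle i) (hsingle j)
  have hEd : (a⁻¹ • ((Y : Matrix ι ι F)ᵀ * G * (Y : Matrix ι ι F))).det = (a⁻¹) ^ Fintype.card ι * ((Y : Matrix ι ι F).det ^ 2 * G.det) := by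
    rw [Matrix.det_smul, Matrix.det_mul, Matrix.det_mul, Matrix.det_transpose]
    ring
  have hYd : (Y : Matrix ι ι F).det ≠ 0 := by
    have := (Matrix.isUnit_iff_isUnit_det _).mp Y.isUnit
    exact this.ne_zero
  set δ' := (a⁻¹ • ((Y : Matrix ι ι F)ᵀ * G * (Y : Matrix ι ι F))).det with hδ'
  have hδ'0 : δ' ≠ 0 := by
    rw [hEd]
    exact mul_ne_zero (pow_ne_zero _ (inv_ne_zero hv₁)) (mul_ne_zero (pow_ne_zero _ hYd) hG0)
  have hpow : a ^ Fintype.card ι = (Y : Matrix ι ι F).det ^ 2 * (G.det / δ') := by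
    have hδ'a : δ' * a ^ Fintype.card ι = (Y : Matrix ι ι F).det ^ 2 * G.det := by
      rw [hEd, mul_assoc, mul_comm ((Y : Matrix ι ι F).det ^ 2 * G.det), ← mul_assoc, ← mul_pow, inv_mul_cancel₀ hv₁, one_pow, one_mul]
    field_simp
    linear_combination hδ'a
  obtain ⟨z, hz⟩ := sq_class (Nat.not_even_iff_odd.mp hodd) hv₁ hpow
  have hz0 : z ≠ 0 := by
    rintro rfl
    simp at hz
    exact hv₁ hz
  set t := G.det / δ' with ht
  have htm : t ∈ F₁ := F₁.div_mem (C.gram_det_mem F₁) hEm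
  -- the scalar
  set x := z⁻¹ with hx
  have hx0 : x ≠ 0 := inv_ne_zero hz0
  have hxa : x ^ 2 * a = t := by
    rw [hz, hx]
    field_simp
  set w : GL ι F := scalG x hx0 with hw
  set P' : GL ι F := Y * w with hP'
  have hwc : ∀ g : GL ι F, g * w = w * g := scalar_central (scalG_mem x hx0)
  have hP'v : ∀ u, (P' : Matrix ι ι F) *ᵥ u = x • ((Y : Matrix ι ι F) *ᵥ u) := by
    intro u
    rw [hP', gl_mulVec_mul, hw, scalG_val, Matrix.smul_mulVec, Matrix.one_mulVec, Matrix.mulVec_smul]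
  have hform : ∀ u v, QuadraticMap.polar Q ((P' : Matrix ι ι F) *ᵥ u) ((P' : Matrix ι ι F) *ᵥ v) =
      t * (a⁻¹ * QuadraticMap.polar Q ((Y : Matrix ι ι F) *ᵥ u) ((Y : Matrix ι ι F) *ᵥ v)) := by
    intro u v
    rw [hP'v, hP'v, C.polar_smul_left, C.polar_smul_right, ← hxa]
    field_simp
  have hrs : IsQuadFormRationalStructure Q F₁ P' := by
    apply C.rat_of_gram
    intro k l
    rw [hform]
    exact F₁.mul_mem htm (hrat _ _ (hsingle k) (hsingle l))
  have hinv' : P'⁻¹⁻¹ = P' := inv_inv _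
  have hconj : ∀ s : GL ι F, P'⁻¹ * s * P'⁻¹⁻¹ = B * s * B⁻¹ := by
    intro s
    rw [hinv', hP', hY]
    have e : (B⁻¹ * w)⁻¹ = w⁻¹ * B := by group
    rw [e]
    calc w⁻¹ * B * s * (B⁻¹ * w) = w⁻¹ * ((B * s * B⁻¹) * w) := by group
      _ = w⁻¹ * (w * (B * s * B⁻¹)) := by rw [hwc]
      _ = B * s * B⁻¹ := by group
  have hreal' : ∀ s ∈ P, ∀ i j, (((P'⁻¹ : GL ι F) : Matrix ι ι F) * (s : Matrix ι ι F) * (((P'⁻¹)⁻¹ : GL ι F) : Matrix ι ι F)) i j ∈ F₁ := by
    intro s hs i j
    have h1 := hreal₁ s hs i j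
    have h2 : ((P'⁻¹ * s * P'⁻¹⁻¹ : GL ι F) : Matrix ι ι F) = ((B * s * B⁻¹ : GL ι F) : Matrix ι ι F) := by rw [hconj]
    have h3 : ((P'⁻¹ * s * P'⁻¹⁻¹ : GL ι F) : Matrix ι ι F) i j = ((B * s * B⁻¹ : GL ι F) : Matrix ι ι F) i j := by rw [h2]
    show ((P'⁻¹ * s * P'⁻¹⁻¹ : GL ι F) : Matrix ι ι F) i j ∈ F₁
    rw [h3]
    exact h1
  refine ⟨F₁, r, P', hr, hcard', hrs, ?_⟩
  refine maximal_eq' hH (fun h hh => ?_) (C.not_le_subfield hn hF₁ P')
  have := mem_subfieldSubgroup_of_normalize habs hreal' (hnorm h hh)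
  rwa [hinv'] at this

/-- The norm is surjective for any involutory automorphism of a finite field. -/
theorem norm_of_unitary [Fintype F] {σ : F ≃+* F} {f : (ι → F) → (ι → F) → F} (hU : IsUnitaryForm σ f) :
    ∀ μ : F, μ ≠ 0 → σ μ = μ → ∃ x : F, x ≠ 0 ∧ x * σ x = μ := by
  classical
  have hinv := hU.involutive
  let F₀ : Subfield F := (σ : F →+* F).eqLocusField (RingHom.id F)
  have hF₀ : ∀ y, y ∈ F₀ ↔ σ y = y := fun y => Iff.rfl
  obtain ⟨τ, hτp, hτ⟩ := exists_ringEquiv_fixed F₀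
  set q := Nat.card F₀ with hq
  have hσ : ∀ y, σ y = y ^ q := by
    intro y
    rw [← hτp]
    by_cases hy : σ y = y
    · rw [hy, ((hτ y).mpr ((hF₀ y).mpr hy))]
    · have h1 : τ (y + σ y) = y + σ y := (hτ _).mpr ((hF₀ _).mpr (by rw [map_add, hinv, add_comm]))
      have h2 : τ (y * σ y) = y * σ y := (hτ _).mpr ((hF₀ _).mpr (by rw [map_mul, hinv, mul_comm]))
      have h3 : (τ y - y) * (τ y - σ y) = 0 := by
        have e : τ y * τ y - τ (y + σ y) * τ y + τ (y * σ y) = τ (y * y - (y + σ y) * y + y * σ y) := by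
          simp only [map_add, map_sub, map_mul]
        have e0 : y * y - (y + σ y) * y + y * σ y = 0 := by ring
        rw [e0, map_zero, h1, h2] at e
        linear_combination e
      rcases mul_eq_zero.mp h3 with h4 | h4
      · exfalso
        have h5 : y ∈ F₀ := (hτ y).mp (sub_eq_zero.mp h4)
        exact hy ((hF₀ y).mp h5)
      · exact (sub_eq_zero.mp h4).symm
  have hq1 : 1 < q := Finite.one_lt_card
  have hpow : ∀ y : F, y ^ (q ^ 2) = y := by
    intro y
    have h1 := hinv y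
    rw [hσ, hσ, ← pow_mul, ← pow_two] at h1
    exact h1
  have hle : Fintype.card F ≤ q ^ 2 := card_le_of_forall_pow (by nlinarith) hpow
  have hge : q ^ 2 ≤ Fintype.card F := by
    have hcardd : Nat.card F = Nat.card F₀ ^ Module.finrank F₀ F := Module.natCard_eq_pow_finrank
    rw [Nat.card_eq_fintype_card] at hcardd
    have hd : 2 ≤ Module.finrank F₀ F := by
      by_contra hlt
      have hd0 : 0 < Module.finrank F₀ F := Module.finrank_pos
      have hd1 : Module.finrank F₀ F = 1 := by omega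
      rw [hd1, pow_one] at hcardd
      -- then everything is fixed
      have hall : ∀ y : F, y ∈ F₀ := by
        intro y
        have hbij : Function.Bijective (Subtype.val : F₀ → F) :=
          Subtype.val_injective.bijective_of_nat_card_le (by rw [Nat.card_eq_fintype_card, hcardd])
        obtain ⟨y₀, rfl⟩ := hbij.2 y
        exact y₀.2
      apply hU.ne_refl
      ext y
      exact (hF₀ y).mp (hall y)
    rw [hcardd]
    exact Nat.pow_le_pow_right (by omega) hd
  have hF : Fintype.card F = q ^ 2 := le_antisymm hle hge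
  intro μ hμ hσμ
  obtain ⟨x, hx0, hx⟩ := Cfsg.Agent.Lib.FFNorm.exists_norm_eq hF hμ (by rw [← hσ, hσμ])
  refine ⟨x, hx0, ?_⟩
  rw [hσ, ← pow_succ', hx]

/-- The prime-dimensional Aschbacher theorem for the orthogonal groups. -/
theorem orth_prime_main [Fintype F] (C : OCtx Q K) {n : ℕ} (hcard : Fintype.card ι = n) (hn : n.Prime) (hodd : Odd n)
    (hn6 : 6 ≤ n) {H : Subgroup (GL ι F)} (hH : IsMaximalIn K H) :
    (∃ W : Submodule F (ι → F), W ≠ ⊥ ∧ IsTotallySingularQuad Q W ∧ H = subspaceStabilizer W ⊓ K) ∨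
    (∃ W : Submodule F (ι → F), W ≠ ⊥ ∧ Even (Module.finrank F W) ∧ IsNondegenerateOn (QuadraticMap.polar Q) W ∧
      ¬ (Fintype.card F = 3 ∧ Module.finrank F W = 2 ∧ IsPlusTypeOn Q W) ∧ H = subspaceStabilizer W ⊓ K) ∨
    ((Fintype.card F).Prime ∧ ∃ D : Fin n → Submodule F (ι → F), IsOrthogonalMDecomposition Q 1 D ∧
        H = decompositionStabilizer D ⊓ K) ∨
    (∃ (F₀ : Subfield F) (r : ℕ) (P : GL ι F), r.Prime ∧ Fintype.card F = Nat.card F₀ ^ r ∧
        IsQuadFormRationalStructure Q F₀ P ∧ H = subfieldSubgroup F₀ P ⊓ K) ∨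
    InOrthogonalResidualClass H := by
  classical
  have hnp' : (Fintype.card ι).Prime := by rw [hcard]; exact hn
  have hn5 : 5 ≤ Fintype.card ι := by omega
  have hne : Nonempty ι := Fintype.card_pos_iff.mp (by omega)
  have hnotEven : ¬ Even (Fintype.card ι) := by
    rw [hcard]
    exact Nat.not_even_iff_odd.mpr hodd
  have hHK : H ≤ K := hH.1.le
  have hfixH : ∀ g ∈ H, ∀ v, Q ((g : Matrix ι ι F) *ᵥ v) = Q v := fun g hg => C.fix g (hHK hg)
  by_cases hirr : Irr H
  · rcases tri hnp' hirr with ⟨N, hNH, hnrm, hns, hcomm⟩ | ⟨N, hNH, hnrm, hNirr, hnc, hder⟩ | ⟨P, hP⟩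
    · -- abelian
      rcases irr_or_diag hnp' hirr hnrm with hNirr | hD
      · exfalso
        -- an abelian irreducible group of isometries in odd dimension is trivial
        have hns' : ∃ g ∈ N, g ∉ scalars ι F := by
          by_contra hall
          push Not at hall
          exact hns hall
        obtain ⟨g, hg, hgs⟩ := hns'
        obtain ⟨v, hv0, hv⟩ := C.fixed_vector hnotEven (hHK (hNH hg))
        let W : Submodule F (ι → F) := LinearMap.ker (Matrix.toLin' ((g : Matrix ι ι F) - 1))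
        have hmemW : ∀ w, w ∈ W ↔ (g : Matrix ι ι F) *ᵥ w = w := by
          intro w
          show Matrix.toLin' ((g : Matrix ι ι F) - 1) w = 0 ↔ _
          rw [Matrix.toLin'_apply, Matrix.sub_mulVec, Matrix.one_mulVec, sub_eq_zero]
        have hWs : Stable N W := by
          intro x hx w hw
          rw [hmemW] at hw ⊢
          have h1 : g * x = x * g := hcomm g hg x hx
          rw [← gl_mulVec_mul, h1, gl_mulVec_mul, hw]
        rcases hNirr W hWs with hb | ht
        · have : v ∈ W := (hmemW v).mpr hv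
          rw [hb] at this
          exact hv0 (by simpa using this)
        · apply hgs
          rw [mem_scalars_iff]
          refine ⟨1, ?_⟩
          apply Matrix.toLin'.injective
          apply LinearMap.ext
          intro u
          have hu : u ∈ W := ht ▸ Submodule.mem_top
          simp only [Matrix.toLin'_apply, Units.val_one, one_smul, Matrix.one_mulVec]
          exact (hmemW u).mp hu
      · have hns' : ∃ g ∈ N, g ∉ scalars ι F := by
          by_contra hall
          push Not at hall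
          exact hns hall
        obtain ⟨b, hb1, hb2, hb3⟩ := diag_basis hnp' hirr hnrm hD hns'
        obtain ⟨horth, hd⟩ := C.frame_orth hnotEven hNH hfixH hirr b hb1 hb2 hb3
        rcases C.diag_case hcard hodd hn6 hH hirr b horth hd hb2 with h | h
        · right; right; left; exact h
        · right; right; right; left; exact h
    · -- no extraspecial group in odd dimension
      exfalso
      obtain ⟨a, ha, b, hb, hab⟩ := hnc
      have hz : ⁅a, b⁆ ∈ scalars ι F := hder (Subgroup.commutator_mem_commutator ha hb)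
      obtain ⟨ξ, hξ⟩ := (mem_scalars_iff _).mp hz
      have hzN : ⁅a, b⁆ ∈ N := by
        rw [commutatorElement_def]
        exact N.mul_mem (N.mul_mem (N.mul_mem ha hb) (N.inv_mem ha)) (N.inv_mem hb)
      have hv : ∃ v : ι → F, Q v ≠ 0 := by
        by_contra hall
        push Not at hall
        obtain ⟨v, hv⟩ := exists_ne (0 : ι → F)
        obtain ⟨x, hx⟩ := C.nd hv
        apply hx
        simp only [QuadraticMap.polar]
        rw [hall, hall, hall]
        ring
      obtain ⟨v, hv⟩ := hv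
      have h1 := hfixH _ (hNH hzN) v
      rw [hξ, Matrix.smul_mulVec, Matrix.one_mulVec, C.Q_smul] at h1
      have h2 : (ξ : F) ^ 2 = 1 := by
        have : (ξ : F) ^ 2 * Q v = 1 * Q v := by rw [h1, one_mul]
        exact mul_right_cancel₀ hv this
      have hrel : (a : Matrix ι ι F) * b = (ξ : F) • ((b : Matrix ι ι F) * a) := by
        have h3 : a * b = ⁅a, b⁆ * (b * a) := by
          rw [commutatorElement_def]; group
        have h4 := congrArg Units.val h3
        rw [Units.val_mul, Units.val_mul, Units.val_mul, hξ] at h4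
        rw [h4, Matrix.smul_mul, Matrix.one_mul]
      have hξ1 : (ξ : F) ≠ 1 := by
        intro h
        apply hab
        apply Units.ext
        rw [Units.val_mul, Units.val_mul, hrel, h, one_smul]
      have hξm : (ξ : F) = -1 := by
        have h3 : ((ξ : F) - 1) * ((ξ : F) + 1) = 0 := by linear_combination h2
        rcases mul_eq_zero.mp h3 with h4 | h4
        · exact absurd (sub_eq_zero.mp h4) hξ1
        · exact eq_neg_of_add_eq_zero_left h4
      have hdd := congrArg Matrix.det hrel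
      rw [Matrix.det_smul, hξm, Matrix.det_mul, Matrix.det_mul, C.det a (hHK (hNH ha)), C.det b (hHK (hNH hb)),
        (Nat.not_even_iff_odd.mp hnotEven).neg_one_pow] at hdd
      apply C.two
      linear_combination hdd
    · -- almost simple
      have habs := habs_of_matrixSet hP.absIrred
      by_cases hsub : ∃ F₀ : Subfield F, F₀ ≠ ⊤ ∧ RealisableOver F₀ (matrixSet P)
      · obtain ⟨F₀, hF₀, B, hB⟩ := hsub
        right; right; right; left
        exact C.subfield_branch hnotEven hn5 hH hP.le hP.normal habs hF₀ (fun s hs i j => hB _ ⟨s, hs, rfl⟩ i j)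
      · push Not at hsub
        right; right; right; right
        refine ⟨P, hP.toCore hsub, ?_⟩
        rintro ⟨σ, f', hf', hfix⟩
        obtain ⟨F₀, hF₀, hreal⟩ := descent hf' (norm_of_unitary hf') habs (fun g hg u v => hfix _ ⟨g, hg, rfl⟩ u v)
          C.pS (fun v hv => (C.quad.nondegenerate v hv).1)
          (fun g hg u v => fixes_polar (hfixH g (hP.le hg)) u v)
        exact hsub F₀ hF₀ hreal
  · unfold Irr at hirr
    push Not at hirr
    obtain ⟨W, hW, h0, h1⟩ := hirr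
    rcases C.reducible_case hn5 hnotEven hH hW h0 h1 with h | h
    · left; exact h
    · right; left; exact h

end Cfsg.Agent.H97.Asch
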