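import Cfsg.Agent.Lib.H97Lin

/-!
The cubic extension field in `SL₃(4)`: its normaliser lies in a subfield group.
-/

set_option autoImplicit false
set_option linter.unusedSectionVars false

namespace Cfsg.Agent.H97.Asch

open Matrix Cfsg Cfsg.Geo
open scoped MatrixGroups

section Abstract

variable {F L : Type*} [Field F] [Field L] [Algebra F L]

theorem q4_char (hF : Nat.card F = 4) : CharP F 2 := by
  classical
  have : Finite F := Nat.finite_of_card_ne_zero (by omega)
  have : Fintype F := Fintype.ofFinite F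
  obtain ⟨p, hp⟩ := CharP.exists F
  obtain ⟨e, hpp, hcp⟩ := FiniteField.card F p
  have hp2 : p = 2 := by
    have h1 : p ∣ 2 ^ 2 := by
      have : p ∣ p ^ (e : ℕ) := dvd_pow_self _ e.ne_zero
      rw [← hcp, ← Nat.card_eq_fintype_card, hF] at this
      exact this
    exact (Nat.prime_dvd_prime_iff_eq hpp Nat.prime_two).mp (hpp.dvd_of_dvd_pow h1)
  exact hp2 ▸ hp

theorem q4_pow4 (hF : Nat.card F = 4) (a : F) : a ^ 4 = a := by
  classical
  have : Finite F := Nat.finite_of_card_ne_zero (by omega)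
  have : Fintype F := Fintype.ofFinite F
  have := FiniteField.pow_card a
  rwa [← Nat.card_eq_fintype_card, hF] at this

theorem q4_abstract (hF : Nat.card F = 4) [Finite L] (hL : Module.finrank F L = 3) :
    ∃ θ : L, θ ^ 8 = θ ∧ LinearIndependent F (fun i : Fin 3 => θ ^ (i : ℕ)) ∧
      (∀ x : L, x ^ 8 = x → ∃ a : Fin 3 → F, (∀ j, a j ^ 2 = a j) ∧ x = ∑ j, a j • θ ^ (j : ℕ)) ∧
      (∀ k : L, k ^ 21 = 1 → ∃ (c : F) (k₀ : L), c ≠ 0 ∧ k = algebraMap F L c * k₀ ∧ k₀ ^ 8 = k₀) := by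
  classical
  have : Finite F := Nat.finite_of_card_ne_zero (by omega)
  have : Fintype F := Fintype.ofFinite F
  have : Fintype L := Fintype.ofFinite L
  have hcardL : Nat.card L = 64 := by
    have : Nat.card L = Nat.card F ^ Module.finrank F L := Module.natCard_eq_pow_finrank
    rw [this, hF, hL]
    norm_num
  have : CharP F 2 := q4_char hF
  have : CharP L 2 := charP_of_injective_algebraMap (algebraMap F L).injective 2
  have : Fact (Nat.Prime 2) := ⟨Nat.prime_two⟩
  have : FiniteDimensional F L := Module.Finite.of_finite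
  have hunits : Nat.card Lˣ = 63 := by
    rw [Nat.card_units, hcardL]
  have : Fintype Lˣ := Fintype.ofFinite _
  obtain ⟨u, hu⟩ := @exists_prime_orderOf_dvd_card Lˣ _ _ 7 ⟨by norm_num⟩ (by
    rw [← Nat.card_eq_fintype_card, hunits]
    norm_num)
  set θ : L := (u : L) with hθdef
  have hθ7 : θ ^ 7 = 1 := by
    have := pow_orderOf_eq_one u
    rw [hu] at this
    have h2 := congrArg Units.val this
    simpa using h2
  have hθ1 : θ ≠ 1 := by
    intro h1
    have : u = 1 := Units.ext h1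
    rw [this, orderOf_one] at hu
    omega
  have hθ8 : θ ^ 8 = θ := by
    rw [pow_succ, hθ7, one_mul]
  have hθF : θ ∉ (algebraMap F L).range := by
    rintro ⟨c, hc⟩
    have hc7 : c ^ 7 = 1 := by
      apply (algebraMap F L).injective
      rw [map_pow, hc, hθ7, map_one]
    have hc4 := q4_pow4 hF c
    have hc0 : c ≠ 0 := by
      rintro rfl
      simp at hc7
    have hc3 : c ^ 3 = 1 := by
      have : c * c ^ 3 = c * 1 := by
        rw [mul_one]
        calc c * c ^ 3 = c ^ 4 := by ring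
          _ = c := hc4
      exact mul_left_cancel₀ hc0 this
    have hc1 : c = 1 := by
      have h9 : c ^ 7 = c ^ 4 * c ^ 3 := by ring
      rw [h9, hc3, hc4, mul_one] at hc7
      exact hc7
    apply hθ1
    rw [← hc, hc1, map_one]
  have hint : IsIntegral F θ := Algebra.IsIntegral.isIntegral θ
  have hdeg : (minpoly F θ).natDegree = 3 := by
    have h1 : (minpoly F θ).natDegree ∣ Module.finrank F L := minpoly.degree_dvd hint
    rw [hL] at h1
    rcases (Nat.dvd_prime Nat.prime_three).mp h1 with h2 | h2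
    · exact absurd (minpoly.natDegree_eq_one_iff.mp h2) hθF
    · exact h2
  have hind : LinearIndependent F (fun i : Fin 3 => θ ^ (i : ℕ)) := by
    have h1 := linearIndependent_pow (K := F) θ
    rw [hdeg] at h1
    exact h1
  refine ⟨θ, hθ8, hind, ?_, ?_⟩
  · intro x hx
    let b : Module.Basis (Fin 3) F L := basisOfLinearIndependentOfCardEqFinrank hind (by simp [hL])
    have hb : ∀ i : Fin 3, b i = θ ^ (i : ℕ) := fun i => by simp [b]
    have hsum : x = ∑ j, b.repr x j • θ ^ (j : ℕ) := by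
      conv_lhs => rw [← b.sum_repr x]
      exact Finset.sum_congr rfl fun j _ => by rw [hb]
    set a := fun j => b.repr x j with ha
    refine ⟨a, ?_, hsum⟩
    -- the eighth power
    have hfrob : x ^ 8 = ∑ j, (a j ^ 2) • θ ^ (j : ℕ) := by
      have h8 : ∀ y z : L, (y + z) ^ 8 = y ^ 8 + z ^ 8 := by
        intro y z
        have := add_pow_char_pow (R := L) (p := 2) (n := 3) y z
        simpa using this
      have hsm : ∀ (c : F) (j : ℕ) , j ≤ 2 → (c • θ ^ j) ^ 8 = (c ^ 2) • θ ^ j := by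
        intro c j _
        rw [smul_pow, ← pow_mul, mul_comm j 8, pow_mul, hθ8]
        congr 1
        have h4 := q4_pow4 hF c
        calc c ^ 8 = (c ^ 4) ^ 2 := by ring
          _ = c ^ 2 := by rw [h4]
      conv_lhs => rw [hsum]
      rw [Fin.sum_univ_three, Fin.sum_univ_three, h8, h8, hsm _ _ (by simp), hsm _ _ (by simp), hsm _ _ (by simp)]
    have hy : ∑ j, (a j ^ 2) • b j = x := by
      rw [← hx, hfrob]
      exact Finset.sum_congr rfl fun j _ => by rw [hb]
    intro j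
    have h1 := congrArg (fun w => b.repr w j) hy
    simp only [map_sum, map_smul, Module.Basis.repr_self, Finsupp.coe_finsetSum, Finset.sum_apply,
      Finsupp.smul_apply, Finsupp.single_apply, smul_eq_mul, mul_ite, mul_one, mul_zero,
      Finset.sum_ite_eq', Finset.mem_univ, if_true] at h1
    exact h1
  · intro k hk
    have hk0 : k ≠ 0 := by
      rintro rfl
      simp at hk
    -- `k ^ 7` lies in `F`
    let F₁ : Subfield L := (algebraMap F L).fieldRange
    have hF₁ : Nat.card F₁ = 4 := by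
      rw [← hF]
      exact (Nat.card_eq_of_bijective _ (algebraMap F L).rangeRestrictField_bijective).symm
    have h7 : (k ^ 7) ^ Nat.card F₁ = k ^ 7 := by
      rw [hF₁]
      calc (k ^ 7) ^ 4 = k ^ 21 * k ^ 7 := by ring
        _ = k ^ 7 := by rw [hk, one_mul]
    obtain ⟨c, hc⟩ := mem_subfield_of_pow_card F₁ h7
    refine ⟨c, k ^ 15, ?_, ?_, ?_⟩
    · rintro rfl
      rw [map_zero] at hc
      exact pow_ne_zero 7 hk0 hc.symm
    · rw [show algebraMap F L c = k ^ 7 from hc]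
      calc k = k ^ 21 * k := by rw [hk, one_mul]
        _ = k ^ 7 * k ^ 15 := by ring
    · calc (k ^ 15) ^ 8 = (k ^ 21) ^ 5 * k ^ 15 := by ring
        _ = k ^ 15 := by rw [hk, one_pow, one_mul]

end Abstract

section Mat

variable {F : Type*} [Field F] [Fintype F]

/-- the determinant of an element of a field subalgebra of maximal degree is its norm. -/
theorem norm_eq_det {K : Subalgebra F (Matrix (Fin 3) (Fin 3) F)} (hK : IsFieldSubalgebra 3 K) (k : K) :
    Algebra.norm F k = (k : Matrix (Fin 3) (Fin 3) F).det := by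
  classical
  have hfa : FieldAlg K := ⟨hK.comm, hK.inv⟩
  let v₀ : Fin 3 → F := Pi.single 0 1
  have hv₀ : v₀ ≠ 0 := by
    intro h
    have := congrFun h 0
    simp [v₀] at this
  have hinj := orbMap_injective hfa hv₀
  have hfin : Module.finrank F K = Module.finrank F (Fin 3 → F) := by
    rw [hK.finrank_eq]; simp
  let e : K ≃ₗ[F] (Fin 3 → F) := LinearEquiv.ofInjectiveOfFinrankEq (orbMap K v₀) hinj hfin
  have he : ∀ x : K, e x = (x : Matrix (Fin 3) (Fin 3) F) *ᵥ v₀ := fun x => rfl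
  have hconj : (Matrix.toLin' (k : Matrix (Fin 3) (Fin 3) F)) =
      (e : K →ₗ[F] (Fin 3 → F)) ∘ₗ (LinearMap.mulLeft F k) ∘ₗ (e.symm : (Fin 3 → F) →ₗ[F] K) := by
    apply LinearMap.ext
    intro v
    obtain ⟨x, rfl⟩ := e.surjective v
    show (k : Matrix (Fin 3) (Fin 3) F) *ᵥ (e x) = e (k * e.symm (e x))
    rw [e.symm_apply_apply, he, he]
    show (k : Matrix (Fin 3) (Fin 3) F) *ᵥ ((x : Matrix (Fin 3) (Fin 3) F) *ᵥ v₀) = ((k : Matrix (Fin 3) (Fin 3) F) * (x : Matrix (Fin 3) (Fin 3) F)) *ᵥ v₀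
    rw [Matrix.mulVec_mulVec]
  rw [Algebra.norm_apply, ← LinearMap.det_toLin' (k : Matrix (Fin 3) (Fin 3) F), hconj]
  exact (LinearMap.det_conj _ e).symm

/-- matrix form of the abstract lemma. -/
theorem q4_matrix (hq : Fintype.card F = 4) {K : Subalgebra F (Matrix (Fin 3) (Fin 3) F)} (hK : IsFieldSubalgebra 3 K) :
    ∃ θ ∈ K, θ ^ 8 = θ ∧ LinearIndependent F (fun i : Fin 3 => θ ^ (i : ℕ)) ∧
      (∀ x ∈ K, x ^ 8 = x → ∃ a : Fin 3 → F, (∀ j, a j ^ 2 = a j) ∧ x = ∑ j, a j • θ ^ (j : ℕ)) ∧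
      (∀ k ∈ K, k ^ 21 = 1 → ∃ (c : F) (k₀ : Matrix (Fin 3) (Fin 3) F), c ≠ 0 ∧ k₀ ∈ K ∧ k = c • k₀ ∧ k₀ ^ 8 = k₀) ∧
      (∀ k ∈ K, k ^ 21 = k.det • 1) := by
  classical
  have hF : Nat.card F = 4 := by rwa [Nat.card_eq_fintype_card]
  have hIsField : IsField K :=
    { exists_pair_ne := ⟨0, 1, by
        intro h
        have h2 := congrArg Subtype.val h
        have h3 : (0 : Matrix (Fin 3) (Fin 3) F) = 1 := h2
        have h4 := congrFun (congrFun h3 0) 0
        simp at h4⟩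
      mul_comm := fun x y => Subtype.ext (hK.comm x x.2 y y.2)
      mul_inv_cancel := fun {a} ha => by
        have ha' : (a : Matrix (Fin 3) (Fin 3) F) ≠ 0 := fun h => ha (Subtype.ext h)
        obtain ⟨y, hy, hxy⟩ := hK.inv a a.2 ha'
        exact ⟨⟨y, hy⟩, Subtype.ext hxy⟩ }
  let _ : Field K := hIsField.toField
  have hfinite : Finite K := inferInstance
  have hcardK : Nat.card K = 64 := by
    have : Nat.card K = Nat.card F ^ Module.finrank F K := Module.natCard_eq_pow_finrank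
    rw [this, hF, hK.finrank_eq]
    norm_num
  obtain ⟨θ, hθ8, hind, hfrob, hsplit⟩ := q4_abstract (F := F) (L := K) hF hK.finrank_eq
  have hpow : ∀ (x : K) (m : ℕ), ((x ^ m : K) : Matrix (Fin 3) (Fin 3) F) = (x : Matrix (Fin 3) (Fin 3) F) ^ m := by
    intro x m
    induction m with
    | zero => rfl
    | succ m ih =>
      rw [pow_succ, pow_succ, ← ih]
      rfl
  refine ⟨θ, θ.2, ?_, ?_, ?_, ?_, ?_⟩
  · rw [← hpow, hθ8]
  · have h1 := hind.map' (K.val.toLinearMap) (LinearMap.ker_eq_bot.mpr Subtype.val_injective)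
    have h2 : (fun i : Fin 3 => (θ : Matrix (Fin 3) (Fin 3) F) ^ (i : ℕ)) = (K.val.toLinearMap ∘ fun i : Fin 3 => θ ^ (i : ℕ)) := by
      funext i
      exact (hpow θ i).symm
    rw [h2]
    exact h1
  · intro x hx hx8
    have hx8' : (⟨x, hx⟩ : K) ^ 8 = ⟨x, hx⟩ := by
      apply Subtype.ext
      rw [hpow]
      exact hx8
    obtain ⟨a, ha, hax⟩ := hfrob _ hx8'
    refine ⟨a, ha, ?_⟩
    have h2 := congrArg Subtype.val hax
    have h3 : x = ((∑ j, a j • θ ^ (j : ℕ) : K) : Matrix (Fin 3) (Fin 3) F) := h2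
    have t : ∀ j : Fin 3, ((a j • θ ^ (j : ℕ) : K) : Matrix (Fin 3) (Fin 3) F) =
        a j • (θ : Matrix (Fin 3) (Fin 3) F) ^ (j : ℕ) := fun j => by
      show a j • ((θ ^ (j : ℕ) : K) : Matrix (Fin 3) (Fin 3) F) = _
      rw [hpow]
    rw [h3, Fin.sum_univ_three, Fin.sum_univ_three, ← t 0, ← t 1, ← t 2]
    rfl
  · intro k hk hk21
    have h' : (⟨k, hk⟩ : K) ^ 21 = 1 := by
      apply Subtype.ext
      rw [hpow]
      exact hk21
    obtain ⟨c, k₀, hc, hk0, hk08⟩ := hsplit _ h'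
    refine ⟨c, k₀, hc, k₀.2, ?_, ?_⟩
    · have h2 := congrArg Subtype.val hk0
      have h3 : k = (((algebraMap F K c) * k₀ : K) : Matrix (Fin 3) (Fin 3) F) := h2
      rw [h3]
      show ((algebraMap F K c : K) : Matrix (Fin 3) (Fin 3) F) * (k₀ : Matrix (Fin 3) (Fin 3) F) = _
      show (algebraMap F (Matrix (Fin 3) (Fin 3) F) c) * (k₀ : Matrix (Fin 3) (Fin 3) F) = _
      rw [Algebra.algebraMap_eq_smul_one, Matrix.smul_mul, Matrix.one_mul]
    · rw [← hpow, hk08]
  · intro k hk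
    have h1 := FiniteField.algebraMap_norm_eq_pow (K := F) (K' := K) (x := ⟨k, hk⟩)
    rw [hcardK, hF] at h1
    have h2 := congrArg Subtype.val h1
    rw [hpow] at h2
    have h3 : Algebra.norm F (⟨k, hk⟩ : K) = k.det := norm_eq_det hK ⟨k, hk⟩
    rw [h3] at h2
    have h4 : k ^ 21 = algebraMap F (Matrix (Fin 3) (Fin 3) F) k.det := h2.symm
    rw [h4, Algebra.algebraMap_eq_smul_one]

theorem orb_surj {K : Subalgebra F (Matrix (Fin 3) (Fin 3) F)} (hK : IsFieldSubalgebra 3 K) {v₀ : Fin 3 → F}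
    (hv₀ : v₀ ≠ 0) (u : Fin 3 → F) : ∃ k ∈ K, k *ᵥ v₀ = u := by
  classical
  have hfa : FieldAlg K := ⟨hK.comm, hK.inv⟩
  have hinj := orbMap_injective hfa hv₀
  have hfin : Module.finrank F K = Module.finrank F (Fin 3 → F) := by
    rw [hK.finrank_eq]; simp
  obtain ⟨k, hk⟩ := (LinearMap.injective_iff_surjective_of_finrank_eq_finrank hfin).mp hinj u
  exact ⟨k, k.2, hk⟩

/-- The normaliser of the cubic field in `SL₃(4)` lies in a subfield group. -/
theorem q4_main (hq : Fintype.card F = 4) {K : Subalgebra F (Matrix (Fin 3) (Fin 3) F)} (hK : IsFieldSubalgebra 3 K) :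
    ∃ (F₀ : Subfield F) (P : GL (Fin 3) F), Nat.card F₀ = 2 ∧ ∀ g ∈ subalgebraNormalizer K,
      g ∈ specialLinear (Fin 3) F → g ∈ subfieldSubgroup F₀ P := by
  classical
  have hF : Nat.card F = 4 := by rwa [Nat.card_eq_fintype_card]
  have hchar : CharP F 2 := q4_char hF
  have : Fact (Nat.Prime 2) := ⟨Nat.prime_two⟩
  obtain ⟨θ, hθK, hθ8, hind, hfrob, hsplit, hnorm⟩ := q4_matrix hq hK
  let F₀ : Subfield F := (frobenius F 2).eqLocusField (RingHom.id F)
  have hF₀ : ∀ x, x ∈ F₀ ↔ x ^ 2 = x := fun x => by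
    show frobenius F 2 x = x ↔ _
    rw [frobenius_def]
  have hcard2 : Nat.card F₀ = 2 := by
    rw [Nat.card_eq_two_iff' (0 : F₀)]
    refine ⟨1, one_ne_zero, ?_⟩
    rintro ⟨y, hy⟩ hy0
    have h1 := (hF₀ y).mp hy
    have hy0' : y ≠ 0 := fun h => hy0 (Subtype.ext h)
    have h2 : y = 1 := by
      have : y * y = y * 1 := by rw [mul_one, ← pow_two, h1]
      exact mul_left_cancel₀ hy0' this
    exact Subtype.ext h2
  let v₀ : Fin 3 → F := Pi.single 0 1
  have hv₀ : v₀ ≠ 0 := by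
    intro h
    have := congrFun h 0
    simp [v₀] at this
  let w : Fin 3 → (Fin 3 → F) := fun i => θ ^ (i : ℕ) *ᵥ v₀
  have hw : LinearIndependent F w := by
    rw [Fintype.linearIndependent_iff]
    intro c hc
    have hx : (∑ i, c i • θ ^ (i : ℕ)) *ᵥ v₀ = 0 := by
      rw [Matrix.sum_mulVec]
      simp only [Matrix.smul_mulVec]
      exact hc
    have hxK : ∑ i, c i • θ ^ (i : ℕ) ∈ K := K.sum_mem fun i _ => K.smul_mem (K.pow_mem hθK _) _
    have h0 := field_zero_of_not_inj hK hxK hv₀ hx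
    exact (Fintype.linearIndependent_iff.mp hind) c h0
  let b : Module.Basis (Fin 3) F (Fin 3 → F) := basisOfLinearIndependentOfCardEqFinrank hw (by simp)
  have hb : ∀ i, b i = w i := fun i => by simp [b]
  obtain ⟨P, hP⟩ := exists_gl_of_bases (Pi.basisFun F (Fin 3)) b
  have hPe : ∀ i, (P : Matrix (Fin 3) (Fin 3) F) *ᵥ Pi.single i 1 = w i := by
    intro i
    have := hP i
    rw [hb, Pi.basisFun_apply] at this
    exact this
  have hPa : ∀ a : Fin 3 → F, (P : Matrix (Fin 3) (Fin 3) F) *ᵥ a = ∑ j, a j • w j := by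
    intro a
    have e : a = ∑ j, a j • (Pi.single j (1 : F) : Fin 3 → F) := by
      conv_lhs => rw [← (Pi.basisFun F (Fin 3)).sum_repr a]
      refine Finset.sum_congr rfl fun j _ => ?_
      simp
    conv_lhs => rw [e]
    rw [Matrix.mulVec_sum]
    exact Finset.sum_congr rfl fun j _ => by rw [Matrix.mulVec_smul, hPe]
  have hR : ∀ (M : Matrix (Fin 3) (Fin 3) F) (x : Fin 3 → Matrix (Fin 3) (Fin 3) F), (∀ i, x i ∈ K) →
      (∀ i, (x i) ^ 8 = x i) → (∀ i, M *ᵥ w i = x i *ᵥ v₀) →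
      ∀ j i, (((P⁻¹ : GL (Fin 3) F) : Matrix (Fin 3) (Fin 3) F) * M * (P : Matrix (Fin 3) (Fin 3) F)) j i ^ 2 =
        (((P⁻¹ : GL (Fin 3) F) : Matrix (Fin 3) (Fin 3) F) * M * (P : Matrix (Fin 3) (Fin 3) F)) j i := by
    intro M x hxK hx8 hM j i
    obtain ⟨a, ha, hax⟩ := hfrob (x i) (hxK i) (hx8 i)
    have h1 : M *ᵥ w i = (P : Matrix (Fin 3) (Fin 3) F) *ᵥ a := by
      rw [hM, hax, hPa, Matrix.sum_mulVec]
      exact Finset.sum_congr rfl fun j _ => by rw [Matrix.smul_mulVec]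
    have h2 : (((P⁻¹ : GL (Fin 3) F) : Matrix (Fin 3) (Fin 3) F) * M * (P : Matrix (Fin 3) (Fin 3) F)) *ᵥ Pi.single i 1 = a := by
      rw [← Matrix.mulVec_mulVec, hPe, ← Matrix.mulVec_mulVec, h1, gl_inv_mulVec]
    have h3 : (((P⁻¹ : GL (Fin 3) F) : Matrix (Fin 3) (Fin 3) F) * M * (P : Matrix (Fin 3) (Fin 3) F)) j i = a j := by
      rw [← h2, Matrix.mulVec_single_one]
      rfl
    rw [h3]
    exact ha j
  refine ⟨F₀, P, hcard2, fun g hgN hgS => ?_⟩
  obtain ⟨k₁, hk₁K, hk₁⟩ := orb_surj hK hv₀ ((g : Matrix (Fin 3) (Fin 3) F) *ᵥ v₀)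
  have hk₁0 : k₁ ≠ 0 := by
    rintro rfl
    rw [Matrix.zero_mulVec] at hk₁
    apply hv₀
    apply gl_mulVec_injective g
    simp only [Matrix.mulVec_zero]
    exact hk₁.symm
  obtain ⟨k', hk'K, hk'⟩ := hK.inv k₁ hk₁K hk₁0
  have hk'' : k' * k₁ = 1 := mul_eq_one_comm.mp hk'
  set gi : Matrix (Fin 3) (Fin 3) F := ((g⁻¹ : GL (Fin 3) F) : Matrix (Fin 3) (Fin 3) F) with hgi
  set gm : Matrix (Fin 3) (Fin 3) F := (g : Matrix (Fin 3) (Fin 3) F) with hgm
  have hgig : gi * gm = 1 := by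
    rw [hgi, hgm, ← Units.val_mul, inv_mul_cancel, Units.val_one]
  have hggi : gm * gi = 1 := mul_eq_one_comm.mp hgig
  set T : Matrix (Fin 3) (Fin 3) F := gm * θ * gi with hT
  have hTK : T ∈ K := (hgN θ).mp hθK
  have hTpow : ∀ m : ℕ, T ^ m = gm * θ ^ m * gi := by
    intro m
    induction m with
    | zero => simp [hggi]
    | succ m ih =>
      rw [pow_succ, ih, hT, pow_succ]
      calc gm * θ ^ m * gi * (gm * θ * gi) = gm * θ ^ m * (gi * gm) * θ * gi := by noncomm_ring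
        _ = _ := by rw [hgig]; noncomm_ring
  have hT8 : T ^ 8 = T := by
    rw [hTpow, hθ8]
  have hTi8 : ∀ m : ℕ, (T ^ m) ^ 8 = T ^ m := by
    intro m
    rw [← pow_mul, mul_comm, pow_mul, hT8]
  have hTiK : ∀ m : ℕ, T ^ m ∈ K := fun m => K.pow_mem hTK m
  have hgw : ∀ i, gm *ᵥ w i = (T ^ (i : ℕ) * k₁) *ᵥ v₀ := by
    intro i
    have h1 : (T ^ (i : ℕ) * k₁) *ᵥ v₀ = T ^ (i : ℕ) *ᵥ (gm *ᵥ v₀) := by rw [← Matrix.mulVec_mulVec, hk₁]
    have h2 : T ^ (i : ℕ) *ᵥ (gm *ᵥ v₀) = gm *ᵥ (θ ^ (i : ℕ) *ᵥ v₀) := by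
      rw [hTpow, Matrix.mulVec_mulVec, Matrix.mul_assoc (gm * θ ^ (i : ℕ)) gi gm, hgig, Matrix.mul_one, Matrix.mulVec_mulVec]
    exact (h1.trans h2).symm
  -- first step: the determinant of `k₁` is one
  have hdetk : k₁.det = 1 := by
    have hM := hR (k' * gm) (fun i => T ^ (i : ℕ)) (fun i => hTiK i) (fun i => hTi8 i) (by
      intro i
      rw [← Matrix.mulVec_mulVec, hgw, Matrix.mulVec_mulVec, ← Matrix.mul_assoc,
        hK.comm k' hk'K _ (hTiK i), Matrix.mul_assoc, hk'', Matrix.mul_one])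
    set A : Matrix (Fin 3) (Fin 3) F := ((P⁻¹ : GL (Fin 3) F) : Matrix (Fin 3) (Fin 3) F) * (k' * gm) * (P : Matrix (Fin 3) (Fin 3) F) with hA
    have hdA : A.det = k'.det := by
      have hgd : gm.det = 1 := (mem_sl_iff g).mp hgS
      have hPd : ((P⁻¹ : GL (Fin 3) F) : Matrix (Fin 3) (Fin 3) F).det * (P : Matrix (Fin 3) (Fin 3) F).det = 1 := by
        rw [← Matrix.det_mul, ← Units.val_mul, inv_mul_cancel, Units.val_one, Matrix.det_one]
      rw [hA, Matrix.det_mul, Matrix.det_mul, Matrix.det_mul, hgd, mul_one]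
      calc _ = (((P⁻¹ : GL (Fin 3) F) : Matrix (Fin 3) (Fin 3) F).det * (P : Matrix (Fin 3) (Fin 3) F).det) * k'.det := by ring
        _ = k'.det := by rw [hPd, one_mul]
    have hkk : k₁.det * k'.det = 1 := by
      rw [← Matrix.det_mul, hk', Matrix.det_one]
    have hk0 : k'.det ≠ 0 := fun h => by
      rw [h, mul_zero] at hkk
      exact zero_ne_one hkk
    have hsq : A.det ^ 2 = A.det := by
      have h1 := RingHom.map_det (frobenius F 2) A
      rw [frobenius_def] at h1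
      rw [h1]
      congr 1
      ext j i
      simp only [RingHom.mapMatrix_apply, Matrix.map_apply, frobenius_def]
      exact hM j i
    have hone : A.det = 1 := by
      have hA0 : A.det ≠ 0 := by rw [hdA]; exact hk0
      have : A.det * A.det = A.det * 1 := by rw [mul_one, ← pow_two, hsq]
      exact mul_left_cancel₀ hA0 this
    rw [hdA] at hone
    rw [hone, mul_one] at hkk
    exact hkk
  have h21 : k₁ ^ 21 = 1 := by
    rw [hnorm k₁ hk₁K, hdetk, one_smul]
  obtain ⟨c, k₀, hc, hk₀K, hk₁c, hk₀8⟩ := hsplit k₁ hk₁K h21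
  -- second step: rationality
  have hM2 := hR (c⁻¹ • gm) (fun i => T ^ (i : ℕ) * k₀) (fun i => K.mul_mem (hTiK i) hk₀K)
    (fun i => by
      have hc : Commute (T ^ (i : ℕ)) k₀ := hK.comm _ (hTiK i) _ hk₀K
      rw [hc.mul_pow, hTi8, hk₀8])
    (fun i => by
      rw [Matrix.smul_mulVec, hgw, hk₁c, Matrix.mul_smul, Matrix.smul_mulVec, smul_smul, inv_mul_cancel₀ hc, one_smul])
  let A : GL (Fin 3) F := P⁻¹ * g * P
  have hAval : (A : Matrix (Fin 3) (Fin 3) F) = ((P⁻¹ : GL (Fin 3) F) : Matrix (Fin 3) (Fin 3) F) * gm * (P : Matrix (Fin 3) (Fin 3) F) := rfl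
  have hmem := mem_range_sup_scalars (F₁ := F₀) (A := A) (inv_ne_zero hc) (fun k l => by
    rw [hF₀]
    have := hM2 k l
    rw [Matrix.mul_smul, Matrix.smul_mul] at this
    rw [hAval]
    exact this)
  refine ⟨A, hmem, ?_⟩
  show P * A * P⁻¹ = g
  simp only [A]
  group

end Mat

end Cfsg.Agent.H97.Asch
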