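import Cfsg.Agent.Lib.H97Comp

/-!
Groups of symplectic type: an automorphism of transvection type, and the construction of the
symplectic-type normal subgroup from a minimal normal overgroup of the scalars with scalar commutators.
-/

set_option autoImplicit false
set_option linter.unusedSectionVars false
set_option linter.style.haveILetI false

namespace Cfsg.Agent.H97.Asch

open Matrix Cfsg Cfsg.Geo
open scoped MatrixGroups commutatorElement

section Abstract

variable {G : Type*} [Group G]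

theorem choose2_succ (v : ℕ) : (v + 1).choose 2 = v.choose 2 + v := by
  rw [Nat.choose_succ_succ' v 1, Nat.choose_one_right]
  ring

theorem choose2_add (u v : ℕ) : (u + v).choose 2 = u.choose 2 + v.choose 2 + u * v := by
  induction v with
  | zero => simp
  | succ v ih =>
    rw [← add_assoc, choose2_succ, ih, choose2_succ]
    ring

theorem central_pow {z : G} (hz : ∀ g, g * z = z * g) (m : ℕ) (g : G) : g * z ^ m = z ^ m * g := by
  induction m with
  | zero => simp
  | succ m ih => rw [pow_succ, ← mul_assoc, ih, mul_assoc, hz, mul_assoc]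

/-- commutation of central-commutator powers -/
theorem pow_mul_of_central {z b y : G} (hz : ∀ g, g * z = z * g) {k : ℕ} (h : b * y = z ^ k * (y * b)) (u : ℕ) :
    b ^ u * y = z ^ (u * k) * (y * b ^ u) := by
  have hzp := central_pow hz
  induction u with
  | zero => simp
  | succ u ih =>
    have e1 : b ^ (u + 1) * y = z ^ k * (b ^ u * y * b) := by
      rw [pow_succ, mul_assoc, h, ← mul_assoc (b ^ u), hzp k (b ^ u)]
      simp only [mul_assoc]
    rw [e1, ih, Nat.succ_mul, add_comm (u * k) k, pow_add, pow_succ b]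
    simp only [mul_assoc]

theorem mul_pow_of_comm {x y z : G} (hz : ∀ g, g * z = z * g) (h : y * x = z * (x * y)) (k : ℕ) :
    (x * y) ^ k = x ^ k * y ^ k * z ^ k.choose 2 := by
  have hzp := central_pow hz
  have hyk : ∀ u : ℕ, y ^ u * x = z ^ u * (x * y ^ u) := by
    intro u
    have h' : y * x = z ^ 1 * (x * y) := by rwa [pow_one]
    have := pow_mul_of_central hz h' u
    rwa [mul_one] at this
  induction k with
  | zero => simp
  | succ k ih =>
    rw [pow_succ, ih, choose2_succ]
    have e1 : x ^ k * y ^ k * z ^ k.choose 2 * (x * y) = x ^ k * (y ^ k * x) * y * z ^ k.choose 2 := by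
      rw [mul_assoc (x ^ k * y ^ k), ← hzp (k.choose 2) (x * y)]
      simp only [mul_assoc]
    rw [e1, hyk, ← mul_assoc (x ^ k), hzp k (x ^ k), mul_assoc (z ^ k), mul_assoc (z ^ k), ← hzp k]
    rw [mul_assoc _ (z ^ k) (z ^ k.choose 2), ← pow_add, add_comm k, pow_succ x, pow_succ y]
    simp only [mul_assoc]

/-- The transvection-type automorphism of a group with central commutators. -/
theorem exists_transvection_aut [Finite G] {r : ℕ} (hr : 1 < r) {ζ b a : G} (hζc : ∀ g, g * ζ = ζ * g)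
    (hord : orderOf ζ = r) (hb : ∀ y, ∃ u, b * y = ζ ^ u * (y * b)) (hbr : b ^ r * ζ ^ r.choose 2 = 1)
    (ha : b * a = ζ * (a * b)) : ∃ τ : G ≃* G, τ a = a * b := by
  classical
  have hr0 : 0 < r := by omega
  have hzp := central_pow hζc
  have hζr : ζ ^ r = 1 := by rw [← hord]; exact pow_orderOf_eq_one ζ
  have hmod : ∀ u : ℕ, ζ ^ (u % r) = ζ ^ u := by
    intro u
    rw [← hord]
    exact pow_mod_orderOf ζ u
  have huniq : ∀ u v : ℕ, u < r → v < r → ζ ^ u = ζ ^ v → u = v := by
    intro u v hu hv h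
    have : Set.InjOn (fun n : ℕ => ζ ^ n) (Set.Iio (orderOf ζ)) := pow_injOn_Iio_orderOf
    rw [hord] at this
    exact this hu hv h
  -- the function k
  have hb' : ∀ y, ∃ u, u < r ∧ b * y = ζ ^ u * (y * b) := by
    intro y
    obtain ⟨u, hu⟩ := hb y
    exact ⟨u % r, Nat.mod_lt _ hr0, by rw [hmod, hu]⟩
  choose k hklt hk using hb'
  have hka : k a = 1 := by
    apply huniq _ _ (hklt a) hr
    have h1 := hk a
    rw [ha] at h1
    rw [pow_one]
    exact (mul_right_cancel h1).symm
  have hkmul : ∀ x y, k (x * y) = (k x + k y) % r := by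
    intro x y
    apply huniq _ _ (hklt _) (Nat.mod_lt _ hr0)
    rw [hmod, pow_add]
    have h1 : b * (x * y) = ζ ^ k x * ζ ^ k y * (x * y * b) := by
      rw [← mul_assoc, hk x, mul_assoc, mul_assoc, hk y, ← mul_assoc x, hzp (k y) x]
      simp only [mul_assoc]
    rw [hk (x * y)] at h1
    exact mul_right_cancel h1
  let f : ℕ → G := fun u => b ^ u * ζ ^ u.choose 2
  have hf0 : f 0 = 1 := by simp [f]
  have hf1 : f 1 = b := by simp [f]
  have hfr : f r = 1 := hbr
  have hfy : ∀ u y, f u * y = ζ ^ (u * k y) * (y * f u) := by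
    intro u y
    simp only [f]
    rw [mul_assoc, ← hzp (u.choose 2) y, ← mul_assoc, pow_mul_of_central hζc (hk y) u]
    simp only [mul_assoc]
  have hff : ∀ u v, ζ ^ (u * v) * (f u * f v) = f (u + v) := by
    intro u v
    simp only [f]
    have e1 : b ^ u * ζ ^ u.choose 2 * (b ^ v * ζ ^ v.choose 2) = b ^ u * b ^ v * (ζ ^ u.choose 2 * ζ ^ v.choose 2) := by
      rw [mul_assoc, ← mul_assoc (ζ ^ u.choose 2), ← hzp (u.choose 2) (b ^ v)]
      simp only [mul_assoc]
    rw [e1, choose2_add, pow_add b, pow_add ζ _ (u * v), pow_add ζ (u.choose 2), ← mul_assoc, ← hzp (u * v) (b ^ u * b ^ v),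
      mul_assoc, ← hzp (u * v) (ζ ^ u.choose 2 * ζ ^ v.choose 2)]
  have hfper : Function.Periodic f r := by
    intro u
    rw [← hff, hfr, mul_one, mul_comm u r, pow_mul, hζr, one_pow, one_mul]
  have hfmod : ∀ u, f (u % r) = f u := fun u => hfper.map_mod_nat u
  let τ : G →* G := MonoidHom.mk' (fun x => x * f (k x)) (by
    intro x y
    rw [hkmul, hfmod, ← hff]
    have e1 : x * f (k x) * (y * f (k y)) = x * (f (k x) * y) * f (k y) := by simp only [mul_assoc]
    have hzl : ∀ m g h, g * (ζ ^ m * h) = ζ ^ m * (g * h) := fun m g h => by rw [← mul_assoc, hzp, mul_assoc]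
    rw [e1, hfy (k x) y]
    simp only [mul_assoc, hzl])
  have hτ : ∀ x, τ x = x * f (k x) := fun x => rfl
  have hinj : Function.Injective τ := by
    rw [injective_iff_map_eq_one]
    intro x hx
    rw [hτ] at hx
    have hxe : x = (f (k x))⁻¹ := eq_inv_of_mul_eq_one_left hx
    have hcomm : b * f (k x) = f (k x) * b := by
      simp only [f]
      rw [← mul_assoc, ← pow_succ', mul_assoc (b ^ (k x)), ← hzp _ b, ← mul_assoc, ← pow_succ]
    have hbx : b * x = x * b := by
      rw [hxe]
      exact (Commute.inv_right hcomm)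
    have h0 : k x = 0 := by
      apply huniq _ _ (hklt x) hr0
      have h1 := hk x
      rw [hbx] at h1
      rw [pow_zero]
      exact mul_eq_right.mp h1.symm
    rw [h0, hf0, mul_one] at hx
    exact hx
  have hbij : Function.Bijective τ := Finite.injective_iff_bijective.mp hinj
  refine ⟨MulEquiv.ofBijective τ hbij, ?_⟩
  show τ a = a * b
  rw [hτ, hka, hf1]

end Abstract

variable {ι : Type} [Fintype ι] [DecidableEq ι] {F : Type*} [Field F]

/-- scalar matrices as a homomorphism -/
noncomputable def scU : Fˣ →* GL ι F := Units.map (Matrix.scalar ι : F →+* Matrix ι ι F).toMonoidHom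

theorem scU_val (c : Fˣ) : ((scU c : GL ι F) : Matrix ι ι F) = (c : F) • 1 := by
  simp [scU, Matrix.smul_one_eq_diagonal]

theorem scU_mem (c : Fˣ) : (scU c : GL ι F) ∈ scalars ι F := ⟨c, rfl⟩

theorem exists_scU {g : GL ι F} (hg : g ∈ scalars ι F) : ∃ c : Fˣ, scU c = g := hg

theorem scU_central (c : Fˣ) (g : GL ι F) : g * scU c = scU c * g := scalar_central (scU_mem c) g

theorem scU_injective [Nonempty ι] : Function.Injective (scU : Fˣ → GL ι F) := by
  intro c d h
  obtain ⟨i⟩ := ‹Nonempty ι›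
  have h1 := congrArg (fun g : GL ι F => (g : Matrix ι ι F) i i) h
  simp only [scU_val, Matrix.smul_apply, Matrix.one_apply_eq, smul_eq_mul, mul_one] at h1
  exact Units.ext h1

theorem scalars_of_commute_span {N : Subgroup (GL ι F)} (hspan : spanG N = ⊤) {g : GL ι F}
    (h : ∀ x ∈ N, g * x = x * g) : g ∈ scalars ι F := by
  obtain ⟨c, hc⟩ := habs_of_spanG hspan (g : Matrix ι ι F) fun x hx => congrArg Units.val (h x hx)
  refine (mem_scalars_iff g).mpr ?_
  by_cases hne : Nonempty ι
  · have hc0 : c ≠ 0 := by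
      rintro rfl
      have hu := g.isUnit
      rw [hc, zero_smul] at hu
      exact not_isUnit_zero hu
    exact ⟨Units.mk0 c hc0, hc⟩
  · have : IsEmpty ι := not_nonempty_iff.mp hne
    refine ⟨1, ?_⟩
    ext i
    exact isEmptyElim i

theorem exists_comm_of_le {N : Subgroup (GL ι F)} (hcomm : ⁅N, N⁆ ≤ scalars ι F) {x y : GL ι F} (hx : x ∈ N)
    (hy : y ∈ N) : ∃ c : Fˣ, x * y = scU c * (y * x) := by
  obtain ⟨c, hc⟩ := exists_scU (hcomm (Subgroup.commutator_mem_commutator hx hy))
  refine ⟨c, ?_⟩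
  rw [hc, commutatorElement_def]
  group

theorem comm_pow_scU {x y : GL ι F} {c : Fˣ} (h : x * y = scU c * (y * x)) (k : ℕ) :
    x ^ k * y = scU (c ^ k) * (y * x ^ k) := by
  have h' : x * y = (scU c) ^ 1 * (y * x) := by rwa [pow_one]
  have := pow_mul_of_central (fun g => scU_central c g) h' k
  rwa [mul_one, ← map_pow] at this

theorem root_of_scalar_pow [Nonempty ι] {x y : GL ι F} {c : Fˣ} (h : x * y = scU c * (y * x)) {k : ℕ}
    (hk : x ^ k ∈ scalars ι F) : c ^ k = 1 := by
  have h1 := comm_pow_scU h k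
  rw [scalar_central hk y |>.symm] at h1
  have h2 : scU (c ^ k) = (1 : GL ι F) := by
    have : y * x ^ k = 1 * (y * x ^ k) := by rw [one_mul]
    exact mul_right_cancel (h1.symm.trans this)
  apply scU_injective (ι := ι)
  rw [h2, map_one]

theorem dvd_choose_rho {r : ℕ} (hr : r.Prime) : r ∣ (r * Nat.gcd 2 r).choose 2 := by
  by_cases h2 : r = 2
  · subst h2
    decide
  · have h3 : 2 < r := by
      have := hr.two_le
      omega
    have hc : Nat.gcd 2 r = 1 := (Nat.coprime_primes Nat.prime_two hr).mpr (Ne.symm h2)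
    rw [hc, mul_one]
    exact hr.dvd_choose_self (by norm_num) h3

/-- The data of a group of symplectic type -/
structure SymCtx (r : ℕ) (R : Subgroup (GL ι F)) : Prop where
  prime : r.Prime
  pow : ∀ x ∈ R, x ^ (r * Nat.gcd 2 r) = 1
  comm : ∀ x ∈ R, ∀ y ∈ R, ∃ ξ : Fˣ, ξ ^ r = 1 ∧ x * y = scU ξ * (y * x)
  scal : ∀ c : Fˣ, c ^ (r * Nat.gcd 2 r) = 1 → (scU c : GL ι F) ∈ R
  span : spanG R = ⊤

/-- Minimal normal overgroups of scalars with scalar commutators yield groups of symplectic type. -/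
theorem exists_symCtx [Fintype F] [Nonempty ι] (hn : 2 ≤ Fintype.card ι) {H N : Subgroup (GL ι F)}
    (hNn : Nrm H N) (hspan : spanG N = ⊤) (hcomm : ⁅N, N⁆ ≤ scalars ι F) (hZN : H ⊓ scalars ι F ≤ N)
    (hmin : ∀ M, M ≤ N → Nrm H M → ¬ M ≤ scalars ι F → M ⊔ (H ⊓ scalars ι F) = N) :
    ∃ (r : ℕ) (R : Subgroup (GL ι F)), SymCtx r R ∧ Nrm H R := by
  classical
  set Sc := scalars ι F with hSc
  have hminle : ∀ M : Subgroup (GL ι F), M ≤ N → Nrm H M → ¬ M ≤ Sc → H ⊓ Sc ≤ M → M = N := by
    intro M h1 h2 h3 h4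
    have := hmin M h1 h2 h3
    rwa [sup_eq_left.mpr h4] at this
  -- a nonscalar element and a noncommuting pair
  obtain ⟨a, ha, hans⟩ := exists_nonscalar_of_irr hn (irr_of_spanG hspan)
  obtain ⟨b, hb, hab⟩ : ∃ b ∈ N, a * b ≠ b * a := by
    by_contra hall
    push Not at hall
    exact hans (scalars_of_commute_span hspan hall)
  -- Step 1: the prime
  obtain ⟨r, hr, hrN⟩ : ∃ r : ℕ, r.Prime ∧ ∀ x ∈ N, x ^ r ∈ Sc := by
    have hex : ∃ k : ℕ, 0 < k ∧ a ^ k ∈ Sc :=
      ⟨orderOf a, orderOf_pos a, by rw [pow_orderOf_eq_one]; exact Sc.one_mem⟩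
    set k := Nat.find hex with hk
    obtain ⟨hk0, hkS⟩ := Nat.find_spec hex
    have hk1 : k ≠ 1 := by
      intro h
      rw [← hk, h, pow_one] at hkS
      exact hans hkS
    set r := k.minFac with hrdef
    have hr : r.Prime := Nat.minFac_prime hk1
    obtain ⟨m, hm⟩ : r ∣ k := Nat.minFac_dvd k
    have hm0 : 0 < m := by
      rcases Nat.eq_zero_or_pos m with h | h
      · rw [h, mul_zero] at hm
        omega
      · exact h
    have hmk : m < k := by
      rw [hm]
      calc m = 1 * m := (one_mul m).symm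
        _ < r * m := Nat.mul_lt_mul_of_pos_right hr.one_lt hm0
    have hx1 : a ^ m ∉ Sc := fun h => Nat.find_min hex hmk ⟨hm0, h⟩
    let M : Subgroup (GL ι F) :=
      { carrier := {x | x ∈ N ∧ x ^ r ∈ Sc}
        one_mem' := ⟨N.one_mem, by rw [one_pow]; exact Sc.one_mem⟩
        mul_mem' := by
          rintro x y ⟨hx, hxr⟩ ⟨hy, hyr⟩
          refine ⟨N.mul_mem hx hy, ?_⟩
          obtain ⟨c, hc⟩ := exists_comm_of_le hcomm hy hx
          rw [mul_pow_of_comm (fun g => scU_central c g) hc]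
          exact Sc.mul_mem (Sc.mul_mem hxr hyr) (Sc.pow_mem (scU_mem c) _)
        inv_mem' := by
          rintro x ⟨hx, hxr⟩
          refine ⟨N.inv_mem hx, ?_⟩
          rw [inv_pow]
          exact Sc.inv_mem hxr }
    have hMN : M = N := by
      apply hminle M (fun x hx => hx.1)
      · rintro h hh x ⟨hx, hxr⟩
        refine ⟨hNn h hh x hx, ?_⟩
        rw [conj_pow]
        exact mem_scalars_conj.mpr hxr
      · intro hle
        apply hx1
        apply hle
        refine ⟨N.pow_mem ha m, ?_⟩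
        rw [← pow_mul, mul_comm, ← hm]
        exact hkS
      · rintro x ⟨hxH, hxS⟩
        exact ⟨hZN ⟨hxH, hxS⟩, Sc.pow_mem hxS r⟩
    refine ⟨r, hr, fun x hx => ?_⟩
    rw [← hMN] at hx
    exact hx.2
  set ρ := r * Nat.gcd 2 r with hρ
  have hρ0 : 0 < ρ := Nat.mul_pos hr.pos (Nat.gcd_pos_of_pos_left _ (by norm_num))
  have hrρ : r ∣ ρ := Dvd.intro _ rfl
  -- the big group
  set N' : Subgroup (GL ι F) := N ⊔ Sc with hN'
  have hNN' : N ≤ N' := le_sup_left
  have hScN' : Sc ≤ N' := le_sup_right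
  have hN'r : ∀ x ∈ N', x ^ r ∈ Sc := by
    intro x hx
    obtain ⟨m, hm, z, hz, rfl⟩ := (mem_sup_central le_rfl).mp hx
    have hc : Commute m z := (scalar_central hz m)
    rw [hc.mul_pow]
    exact Sc.mul_mem (hrN m hm) (Sc.pow_mem hz r)
  have hN'comm : ∀ x ∈ N', ∀ y ∈ N', ∃ ξ : Fˣ, ξ ^ r = 1 ∧ x * y = scU ξ * (y * x) := by
    intro x hx y hy
    have hle : (⁅N', N'⁆ : Subgroup (GL ι F)) ≤ Sc := (commutator_sup_central_le le_rfl).trans hcomm
    obtain ⟨c, hc⟩ := exists_comm_of_le hle hx hy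
    exact ⟨c, root_of_scalar_pow hc (hN'r x hx), hc⟩
  have hN'mul : ∀ x ∈ N', ∀ y ∈ N', (x * y) ^ ρ = x ^ ρ * y ^ ρ := by
    intro x hx y hy
    obtain ⟨ξ, hξ, hc⟩ := hN'comm y hy x hx
    rw [mul_pow_of_comm (fun g => scU_central ξ g) hc, ← map_pow]
    obtain ⟨t, ht⟩ := dvd_choose_rho hr
    rw [← hρ] at ht
    rw [ht, pow_mul ξ r t, hξ, one_pow, map_one, mul_one]
  -- Step 3: all elements of `N` have `ρ`-th power the `ρ`-th power of a scalar
  have hN₁ : ∀ x ∈ N, ∃ c : Fˣ, x ^ ρ = scU (c ^ ρ) := by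
    let N₁ : Subgroup (GL ι F) :=
      { carrier := {x | x ∈ N ∧ ∃ c : Fˣ, x ^ ρ = scU (c ^ ρ)}
        one_mem' := ⟨N.one_mem, 1, by simp⟩
        mul_mem' := by
          rintro x y ⟨hx, c, hc⟩ ⟨hy, d, hd⟩
          refine ⟨N.mul_mem hx hy, c * d, ?_⟩
          rw [hN'mul x (hNN' hx) y (hNN' hy), hc, hd, _root_.mul_pow, map_mul]
        inv_mem' := by
          rintro x ⟨hx, c, hc⟩
          refine ⟨N.inv_mem hx, c⁻¹, ?_⟩
          rw [inv_pow, hc, inv_pow, map_inv] }
    have hN₁N : N₁ = N := by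
      apply hminle N₁ (fun x hx => hx.1)
      · rintro h hh x ⟨hx, c, hc⟩
        refine ⟨hNn h hh x hx, c, ?_⟩
        rw [conj_pow, hc, scalar_central (scU_mem _) h]
        group
      · -- a nonscalar element of `N₁`
        intro hle
        obtain ⟨g, hg⟩ : ∃ g : Fˣ, ∀ y : Fˣ, y ∈ Submonoid.powers g := IsCyclic.exists_monoid_generator
        obtain ⟨α, hα⟩ := exists_scU (hrN a ha)
        obtain ⟨β, hβ⟩ := exists_scU (hrN b hb)
        obtain ⟨u, hu⟩ := Submonoid.mem_powers_iff _ _ |>.mp (hg α)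
        obtain ⟨v, hv⟩ := Submonoid.mem_powers_iff _ _ |>.mp (hg β)
        set e := Nat.gcd 2 r with he
        have haρ : a ^ ρ = scU (g ^ (u * e)) := by
          rw [hρ, pow_mul, ← hα, ← hu, ← map_pow, pow_mul]
        have hbρ : b ^ ρ = scU (g ^ (v * e)) := by
          rw [hρ, pow_mul, ← hβ, ← hv, ← map_pow, pow_mul]
        by_cases hru : r ∣ u
        · obtain ⟨t, rfl⟩ := hru
          have hmem : a ∈ N₁ := by
            refine ⟨ha, g ^ t, ?_⟩
            rw [haρ, ← pow_mul, hρ]
            congr 2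
            ring
          exact hans (hle hmem)
        · -- choose `j` with `r ∣ v + u * j`
          have hcop : Nat.Coprime u r := ((Nat.Prime.coprime_iff_not_dvd hr).mpr hru).symm
          obtain ⟨j₀, -, hj₀⟩ := Nat.exists_mul_mod_eq_one_of_coprime hcop hr.one_lt
          set j := j₀ * ((r - 1) * v) with hj
          obtain ⟨t, ht⟩ : r ∣ v + u * j := by
            have h1 : (u * j) % r = ((r - 1) * v) % r := by
              rw [hj, ← mul_assoc, Nat.mul_mod, hj₀, one_mul, Nat.mod_mod]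
            apply (Nat.modEq_zero_iff_dvd).mp
            have h2 : v + u * j ≡ v + (r - 1) * v [MOD r] := Nat.ModEq.add_left v h1
            refine h2.trans ?_
            have h3 : v + (r - 1) * v = r * v := by
              obtain ⟨r', hr'⟩ : ∃ r', r = r' + 1 := ⟨r - 1, by have := hr.pos; omega⟩
              rw [hr']
              simp only [Nat.add_sub_cancel]
              ring
            rw [h3]
            exact (Nat.modEq_zero_iff_dvd).mpr (Dvd.intro _ rfl)
          have hy : b * a ^ j ∈ N := N.mul_mem hb (N.pow_mem ha j)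
          have hyρ : (b * a ^ j) ^ ρ = scU ((g ^ t) ^ ρ) := by
            rw [hN'mul _ (hNN' hb) _ (hNN' (N.pow_mem ha j)), ← pow_mul, mul_comm j, pow_mul a ρ j, hbρ, haρ, ← map_pow, ← map_mul]
            congr 1
            rw [← pow_mul, ← pow_add, ← pow_mul, hρ]
            congr 1
            calc v * e + u * e * j = (v + u * j) * e := by ring
              _ = t * (r * e) := by rw [ht]; ring
          have hmem : b * a ^ j ∈ N₁ := ⟨hy, g ^ t, hyρ⟩
          have hsc := hle hmem
          apply hab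
          have h1 := scalar_central hsc a
          have h2 : a ^ j * a = a * a ^ j := by rw [← pow_succ, ← pow_succ']
          have h3 : a * b * a ^ j = b * a * a ^ j := by
            calc a * b * a ^ j = a * (b * a ^ j) := by group
              _ = (b * a ^ j) * a := h1
              _ = b * (a ^ j * a) := by group
              _ = b * (a * a ^ j) := by rw [h2]
              _ = b * a * a ^ j := by group
          exact mul_right_cancel h3
      · rintro x ⟨hxH, hxS⟩
        obtain ⟨c, rfl⟩ := exists_scU hxS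
        exact ⟨hZN ⟨hxH, hxS⟩, c, by rw [map_pow]⟩
    intro x hx
    rw [← hN₁N] at hx
    exact hx.2
  -- the group `R`
  let R : Subgroup (GL ι F) :=
    { carrier := {x | x ∈ N' ∧ x ^ ρ = 1}
      one_mem' := ⟨N'.one_mem, by simp⟩
      mul_mem' := by
        rintro x y ⟨hx, hx1⟩ ⟨hy, hy1⟩
        exact ⟨N'.mul_mem hx hy, by rw [hN'mul x hx y hy, hx1, hy1, one_mul]⟩
      inv_mem' := by
        rintro x ⟨hx, hx1⟩
        exact ⟨N'.inv_mem hx, by rw [inv_pow, hx1, inv_one]⟩ }
  have hcover : ∀ x ∈ N, ∃ c : Fˣ, x * scU c ∈ R := by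
    intro x hx
    obtain ⟨c, hc⟩ := hN₁ x hx
    refine ⟨c⁻¹, N'.mul_mem (hNN' hx) (hScN' (scU_mem _)), ?_⟩
    have hcm : Commute x (scU c⁻¹) := scU_central c⁻¹ x
    rw [hcm.mul_pow, hc, ← map_pow, ← map_mul, inv_pow, mul_inv_cancel, map_one]
  refine ⟨r, R, ⟨hr, fun x hx => hx.2, fun x hx y hy => hN'comm x hx.1 y hy.1, ?_, ?_⟩, ?_⟩
  · intro c hc
    exact ⟨hScN' (scU_mem c), by rw [← map_pow, hc, map_one]⟩
  · -- span
    rw [eq_top_iff, ← hspan, spanG, Algebra.adjoin_le_iff]
    rintro _ ⟨x, hx, rfl⟩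
    obtain ⟨c, hc⟩ := hcover x hx
    have h1 := mem_spanG hc
    have h2 : ((x : GL ι F) : Matrix ι ι F) = ((c⁻¹ : Fˣ) : F) • (((x * scU c : GL ι F)) : Matrix ι ι F) := by
      rw [Units.val_mul, scU_val, Matrix.mul_smul, Matrix.mul_one, smul_smul]
      simp
    show ((x : GL ι F) : Matrix ι ι F) ∈ spanG R
    rw [h2]
    exact Subalgebra.smul_mem _ h1 _
  · rintro h hh x ⟨hx, hx1⟩
    refine ⟨Nrm.sup_central hNn le_rfl h hh x hx, ?_⟩
    rw [conj_pow, hx1]
    group

end Cfsg.Agent.H97.Asch
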