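import Cfsg.Agent.Lib.H97Sym1

/-!
Groups of symplectic type in the full matrix algebra: transversals of the scalars are bases, orders, centres,
characteristic abelian subgroups.
-/

set_option autoImplicit false
set_option linter.unusedSectionVars false
set_option linter.style.haveILetI false

namespace Cfsg.Agent.H97.Asch

open Matrix Cfsg Cfsg.Geo
open scoped MatrixGroups commutatorElement

variable {ι : Type} [Fintype ι] [DecidableEq ι] {F : Type*} [Field F]

namespace SymCtx

variable {r : ℕ} {R : Subgroup (GL ι F)}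

theorem central_scalar (C : SymCtx r R) {g : GL ι F} (h : ∀ x ∈ R, g * x = x * g) : g ∈ scalars ι F :=
  scalars_of_commute_span C.span h

theorem pow_r_scalar [Nonempty ι] (C : SymCtx r R) {x : GL ι F} (hx : x ∈ R) : x ^ r ∈ scalars ι F := by
  apply C.central_scalar
  intro y hy
  obtain ⟨ξ, hξ, h⟩ := C.comm x hx y hy
  rw [comm_pow_scU h, hξ, map_one, one_mul]

/-- commutator characters -/
theorem exists_char [Nonempty ι] (C : SymCtx r R) (x : R) :
    ∃ χ : R →* Fˣ, ∀ y : R, (y : GL ι F) * (x : GL ι F) = scU (χ y) * ((x : GL ι F) * (y : GL ι F)) := by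
  classical
  have h : ∀ y : R, ∃ ξ : Fˣ, (y : GL ι F) * (x : GL ι F) = scU ξ * ((x : GL ι F) * (y : GL ι F)) := fun y => by
    obtain ⟨ξ, -, h⟩ := C.comm y y.2 x x.2
    exact ⟨ξ, h⟩
  choose f hf using h
  refine ⟨MonoidHom.mk' f fun y y' => ?_, hf⟩
  apply scU_injective (ι := ι)
  have h1 : ((y * y' : R) : GL ι F) * (x : GL ι F) = scU (f y') * scU (f y) * ((x : GL ι F) * ((y * y' : R) : GL ι F)) := by
    calc ((y * y' : R) : GL ι F) * (x : GL ι F) = (y : GL ι F) * ((y' : GL ι F) * (x : GL ι F)) := by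
          rw [Subgroup.coe_mul, mul_assoc]
      _ = (y : GL ι F) * (scU (f y') * ((x : GL ι F) * (y' : GL ι F))) := by rw [hf y']
      _ = scU (f y') * (((y : GL ι F) * (x : GL ι F)) * (y' : GL ι F)) := by
          rw [← mul_assoc, scU_central, mul_assoc, mul_assoc]
      _ = scU (f y') * (scU (f y) * ((x : GL ι F) * (y : GL ι F)) * (y' : GL ι F)) := by rw [hf y]
      _ = _ := by rw [Subgroup.coe_mul]; simp only [mul_assoc]
  rw [hf (y * y')] at h1
  have h2 := mul_right_cancel h1
  rw [h2, map_mul]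
  exact (scU_central _ _)

theorem scalarsQuot_normal : ((scalars ι F).subgroupOf R).Normal := inferInstance

/-- transversal of the scalars. -/
noncomputable def trv (t : R ⧸ (scalars ι F).subgroupOf R) : R := Quotient.out t

theorem mk_trv (t : R ⧸ (scalars ι F).subgroupOf R) : (QuotientGroup.mk (trv t) : R ⧸ (scalars ι F).subgroupOf R) = t :=
  QuotientGroup.out_eq' t

theorem exists_scalar_trv (g : R) :
    ∃ c : Fˣ, (g : GL ι F) = (trv (QuotientGroup.mk g : R ⧸ (scalars ι F).subgroupOf R) : GL ι F) * scU c := by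
  have h : (QuotientGroup.mk (trv (QuotientGroup.mk g : R ⧸ (scalars ι F).subgroupOf R)) : R ⧸ (scalars ι F).subgroupOf R) = QuotientGroup.mk g :=
    mk_trv _
  rw [QuotientGroup.eq] at h
  obtain ⟨c, hc⟩ := exists_scU (Subgroup.mem_subgroupOf.mp h)
  refine ⟨c, ?_⟩
  rw [hc]
  simp

theorem trv_linearIndependent [Nonempty ι] [Finite F] (C : SymCtx r R) :
    LinearIndependent F (fun t : R ⧸ (scalars ι F).subgroupOf R => (((trv t : R) : GL ι F) : Matrix ι ι F)) := by
  classical
  have : Fintype (R ⧸ (scalars ι F).subgroupOf R) := Fintype.ofFinite _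
  have hch := fun t : R ⧸ (scalars ι F).subgroupOf R => C.exists_char (trv t)
  choose χ hχ using hch
  let g : (R ⧸ (scalars ι F).subgroupOf R) → (R →* F) := fun t => (Units.coeHom F).comp (χ t)
  have hg : Function.Injective g := by
    intro t t' htt
    have hχχ : ∀ y, χ t y = χ t' y := fun y => Units.ext (DFunLike.congr_fun htt y)
    rw [← mk_trv t, ← mk_trv t', QuotientGroup.eq, Subgroup.mem_subgroupOf]
    apply C.central_scalar
    intro y hy
    have h1 := hχ t ⟨y, hy⟩
    have h2 := hχ t' ⟨y, hy⟩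
    rw [hχχ] at h1
    simp only at h1 h2
    set s : GL ι F := ((trv t : R) : GL ι F) with hs
    set s' : GL ι F := ((trv t' : R) : GL ι F) with hs'
    set c : GL ι F := scU (χ t' ⟨y, hy⟩) with hc
    have hcc : ∀ g : GL ι F, g * c = c * g := fun g => scU_central _ g
    have e1 : s⁻¹ * y = c * (y * s⁻¹) := by
      have : s⁻¹ * (y * s) * s⁻¹ = s⁻¹ * (c * (s * y)) * s⁻¹ := by rw [h1]
      rw [← mul_assoc s⁻¹ c, hcc s⁻¹] at this
      simpa [mul_assoc] using this
    have e2 : s' * y = c⁻¹ * (y * s') := by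
      rw [h2]
      simp [mul_assoc]
    show ((trv t : R)⁻¹ * trv t' : R).1 * y = y * ((trv t : R)⁻¹ * trv t' : R).1
    rw [Subgroup.coe_mul, Subgroup.coe_inv, ← hs, ← hs', mul_assoc, e2]
    have hcc' : ∀ g : GL ι F, g * c⁻¹ = c⁻¹ * g := fun g => by
      have : c⁻¹ = scU (χ t' ⟨y, hy⟩)⁻¹ := by rw [hc, map_inv]
      rw [this]
      exact scU_central _ g
    rw [← mul_assoc, hcc', mul_assoc, ← mul_assoc s⁻¹ y, e1]
    rw [mul_assoc, mul_assoc, inv_mul_cancel_left]
  have hli := (linearIndependent_monoidHom R F).comp g hg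
  rw [Fintype.linearIndependent_iff]
  intro c hc t
  -- conjugate the relation
  have hrel : ∀ y : R, ∑ t, (c t * (χ t y : F)) • (((trv t : R) : GL ι F) : Matrix ι ι F) = 0 := by
    intro y
    have h1 : ((y : GL ι F) : Matrix ι ι F) * (∑ t, c t • (((trv t : R) : GL ι F) : Matrix ι ι F)) * (((y : GL ι F)⁻¹ : GL ι F) : Matrix ι ι F) = 0 := by
      rw [hc, Matrix.mul_zero, Matrix.zero_mul]
    rw [Finset.mul_sum, Finset.sum_mul] at h1
    rw [← h1]
    refine Finset.sum_congr rfl fun t _ => ?_
    rw [Matrix.mul_smul, Matrix.smul_mul, ← Units.val_mul, ← Units.val_mul, hχ t y, mul_smul]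
    congr 1
    rw [mul_assoc, mul_assoc, mul_inv_cancel, mul_one, Units.val_mul, scU_val, Matrix.smul_mul, Matrix.one_mul]
  rw [Fintype.linearIndependent_iff] at hli
  have hent : ∀ i j, c t * (((trv t : R) : GL ι F) : Matrix ι ι F) i j = 0 := by
    intro i j
    have := hli (fun t => c t * (((trv t : R) : GL ι F) : Matrix ι ι F) i j) (by
      funext y
      have h2 := congrFun (congrFun (hrel y) i) j
      rw [Matrix.sum_apply] at h2
      simp only [Finset.sum_apply, Pi.smul_apply, Pi.zero_apply]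
      rw [Matrix.zero_apply] at h2
      refine Eq.trans ?_ h2
      refine Finset.sum_congr rfl fun t _ => ?_
      simp only [g, Function.comp, MonoidHom.coe_comp, Units.coeHom_apply, Matrix.smul_apply, smul_eq_mul]
      ring) t
    exact this
  by_contra hct
  have h0 : (((trv t : R) : GL ι F) : Matrix ι ι F) = 0 := by
    ext i j
    exact (mul_eq_zero.mp (hent i j)).resolve_left hct
  have hu := ((trv t : R) : GL ι F).isUnit
  rw [h0] at hu
  exact not_isUnit_zero hu

theorem trv_span (C : SymCtx r R) :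
    Submodule.span F (Set.range (fun t : R ⧸ (scalars ι F).subgroupOf R => (((trv t : R) : GL ι F) : Matrix ι ι F))) = ⊤ := by
  classical
  rw [eq_top_iff]
  have h1 : (⊤ : Submodule F (Matrix ι ι F)) = Subalgebra.toSubmodule (spanG R) := by
    rw [C.span]
    rfl
  rw [h1, spanG, Algebra.adjoin_eq_span]
  apply Submodule.span_le.mpr
  intro m hm
  have h2 : ∀ m ∈ Submonoid.closure (matrixSet R), ∃ g ∈ R, (g : Matrix ι ι F) = m := by
    intro m hm
    induction hm using Submonoid.closure_induction with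
    | mem x hx =>
      obtain ⟨g, hg, rfl⟩ := hx
      exact ⟨g, hg, rfl⟩
    | one => exact ⟨1, R.one_mem, rfl⟩
    | mul x y _ _ hx hy =>
      obtain ⟨g, hg, rfl⟩ := hx
      obtain ⟨g', hg', rfl⟩ := hy
      exact ⟨g * g', R.mul_mem hg hg', rfl⟩
  obtain ⟨g, hg, rfl⟩ := h2 m hm
  obtain ⟨c, hc⟩ := exists_scalar_trv (⟨g, hg⟩ : R)
  simp only at hc
  rw [SetLike.mem_coe, hc, Units.val_mul, scU_val, Matrix.mul_smul, Matrix.mul_one]
  exact Submodule.smul_mem _ _ (Submodule.subset_span ⟨_, rfl⟩)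

theorem card_quot [Nonempty ι] [Finite F] (C : SymCtx r R) :
    Nat.card (R ⧸ (scalars ι F).subgroupOf R) = Fintype.card ι * Fintype.card ι := by
  classical
  have : Fintype (R ⧸ (scalars ι F).subgroupOf R) := Fintype.ofFinite _
  let b := Module.Basis.mk C.trv_linearIndependent (top_le_iff.mpr C.trv_span)
  rw [Nat.card_eq_fintype_card, ← Module.finrank_eq_card_basis b, Module.finrank_matrix]
  simp

theorem isPGroup (C : SymCtx r R) : IsPGroup r R := by
  intro g
  refine ⟨2, ?_⟩
  have h1 : r * Nat.gcd 2 r ∣ r ^ 2 := by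
    rw [pow_two]
    exact Nat.mul_dvd_mul_left r (Nat.gcd_dvd_right 2 r)
  obtain ⟨t, ht⟩ := h1
  apply Subtype.ext
  rw [Subgroup.coe_pow, ht, pow_mul, C.pow g g.2, one_pow]
  rfl

theorem card_eq [Nonempty ι] [Finite F] (C : SymCtx r R) :
    ∃ m : ℕ, Fintype.card ι = r ^ m ∧ Nat.card R = Nat.card ((scalars ι F).subgroupOf R) * r ^ (2 * m) := by
  have : Fact r.Prime := ⟨C.prime⟩
  have hQ : IsPGroup r (R ⧸ (scalars ι F).subgroupOf R) := C.isPGroup.to_quotient _
  obtain ⟨k, hk⟩ := IsPGroup.iff_card.mp hQ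
  have h1 := C.card_quot
  rw [hk] at h1
  have h2 : Fintype.card ι ∣ r ^ k := ⟨_, h1⟩
  obtain ⟨m, -, hm⟩ := (Nat.dvd_prime_pow C.prime).mp h2
  refine ⟨m, hm, ?_⟩
  have h3 : r ^ k = r ^ (2 * m) := by
    rw [h1, hm, two_mul, pow_add]
  have h4 := Subgroup.card_eq_card_quotient_mul_card_subgroup ((scalars ι F).subgroupOf R)
  rw [h4, hk, h3, mul_comm]

/-- the centre of `R` consists of the scalars. -/
theorem center_eq (C : SymCtx r R) : Subgroup.center R = (scalars ι F).subgroupOf R := by
  ext x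
  rw [Subgroup.mem_center_iff, Subgroup.mem_subgroupOf]
  constructor
  · intro h
    apply C.central_scalar
    intro y hy
    have := h ⟨y, hy⟩
    exact (congrArg Subtype.val this).symm
  · intro h y
    apply Subtype.ext
    exact (scalar_central h y)

theorem card_center [Nonempty ι] [Finite F] (C : SymCtx r R) {ω : F} (hω : IsPrimitiveRoot ω (r * Nat.gcd 2 r)) :
    Nat.card ((scalars ι F).subgroupOf R) = r * Nat.gcd 2 r := by
  classical
  have : NeZero (r * Nat.gcd 2 r) := ⟨(Nat.mul_pos C.prime.pos (Nat.gcd_pos_of_pos_left _ (by norm_num))).ne'⟩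
  have : Fintype (rootsOfUnity (r * Nat.gcd 2 r) F) := Fintype.ofFinite _
  have h0 := hω.card_rootsOfUnity
  rw [← h0]
  apply Nat.card_congr
  symm
  refine Equiv.ofBijective (fun c => ⟨⟨scU (c : Fˣ), C.scal _ ((mem_rootsOfUnity _ _).mp c.2)⟩,
    Subgroup.mem_subgroupOf.mpr (scU_mem _)⟩) ⟨?_, ?_⟩
  · intro c d h
    have h1 := congrArg (fun x => ((x : R) : GL ι F)) (congrArg Subtype.val h)
    exact Subtype.ext (scU_injective h1)
  · rintro ⟨⟨x, hx⟩, hs⟩
    obtain ⟨c, rfl⟩ := exists_scU (Subgroup.mem_subgroupOf.mp hs)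
    refine ⟨⟨c, ?_⟩, rfl⟩
    rw [mem_rootsOfUnity]
    apply scU_injective (ι := ι)
    rw [map_pow, C.pow _ hx, map_one]

theorem card_center' [Nonempty ι] [Finite F] (C : SymCtx r R) {ω : F} (hω : IsPrimitiveRoot ω (r * Nat.gcd 2 r)) :
    Nat.card (Subgroup.center R) = r * Nat.gcd 2 r := by
  rw [C.center_eq]
  exact C.card_center hω

/-- characteristic abelian subgroups are central -/
theorem char_central [Nonempty ι] [Finite F] (C : SymCtx r R) {ω : F} (hω : IsPrimitiveRoot ω (r * Nat.gcd 2 r))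
    (A : Subgroup R) (hA : A.Characteristic) (hc : IsMulCommutative A) {a : R} (ha : a ∈ A) (b : R) :
    a * b = b * a := by
  classical
  have hr := C.prime
  by_contra hne
  obtain ⟨ξ, hξ, hba⟩ := C.comm b b.2 a a.2
  have hξ1 : ξ ≠ 1 := by
    rintro rfl
    apply hne
    rw [map_one, one_mul] at hba
    exact Subtype.ext hba.symm
  have : Fact r.Prime := ⟨hr⟩
  have hord : orderOf ξ = r := orderOf_eq_prime hξ hξ1
  have hrρ : r ∣ r * Nat.gcd 2 r := Dvd.intro _ rfl
  have hξρ : ξ ^ (r * Nat.gcd 2 r) = 1 := by rw [pow_mul, hξ, one_pow]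
  have hprim : IsPrimitiveRoot (ξ : F) r := by
    have h1 := IsPrimitiveRoot.orderOf ξ
    rw [hord] at h1
    exact (IsPrimitiveRoot.coe_units_iff).mpr h1
  let ζ : R := ⟨scU ξ, C.scal ξ hξρ⟩
  have hζc : ∀ g : R, g * ζ = ζ * g := fun g => Subtype.ext (scU_central ξ (g : GL ι F))
  have hζord : orderOf ζ = r := by
    rw [← hord]
    have hinj : Function.Injective (fun x : R => ((x : R) : GL ι F)) := Subtype.val_injective
    have h1 : orderOf ((ζ : R) : GL ι F) = orderOf ζ := Subgroup.orderOf_coe ζ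
    have h2 : orderOf ((scU ξ : GL ι F)) = orderOf ξ := orderOf_injective scU scU_injective ξ
    rw [← h1]
    exact h2
  -- the modified element
  have hpowers : ∀ η : Fˣ, η ^ r = 1 → ∃ u : ℕ, η = ξ ^ u := by
    intro η hη
    have h1 : ((η : F)) ^ r = 1 := by
      rw [← Units.val_pow_eq_pow_val, hη, Units.val_one]
    obtain ⟨i, -, hi⟩ := hprim.eq_pow_of_pow_eq_one h1
    exact ⟨i, Units.ext (by rw [Units.val_pow_eq_pow_val, hi])⟩
  obtain ⟨b', hb'a, hb'y, hb'r⟩ : ∃ b' : R, b' * a = ζ * (a * b') ∧ (∀ y : R, ∃ u : ℕ, b' * y = ζ ^ u * (y * b')) ∧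
      b' ^ r * ζ ^ r.choose 2 = 1 := by
    have hbcomm : ∀ (c : Fˣ) (hc : scU c ∈ R) (y : R) (η : Fˣ), (b : GL ι F) * (y : GL ι F) = scU η * ((y : GL ι F) * (b : GL ι F)) →
        (⟨scU c, hc⟩ * b : R).1 * (y : GL ι F) = scU η * ((y : GL ι F) * (⟨scU c, hc⟩ * b : R).1) := by
      intro c hc y η h
      simp only [Subgroup.coe_mul]
      calc (scU c : GL ι F) * (b : GL ι F) * (y : GL ι F) = scU c * ((b : GL ι F) * (y : GL ι F)) := mul_assoc _ _ _
        _ = scU c * (scU η * ((y : GL ι F) * (b : GL ι F))) := by rw [h]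
        _ = scU η * (scU c * ((y : GL ι F) * (b : GL ι F))) := by
            rw [← mul_assoc (scU c), ← mul_assoc (scU η), ← map_mul, ← map_mul, mul_comm c]
        _ = scU η * ((y : GL ι F) * (scU c * (b : GL ι F))) := by
            rw [← mul_assoc (scU c), ← scU_central c (y : GL ι F), mul_assoc (y : GL ι F)]
    by_cases hr2 : r = 2
    · subst hr2
      -- `ρ = 4`
      have hgcd : Nat.gcd 2 2 = 2 := by norm_num
      rw [hgcd] at hω
      have hω2 : ω ^ 2 = -1 := by
        have h1 : (ω ^ 2 - 1) * (ω ^ 2 + 1) = 0 := by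
          have := hω.pow_eq_one
          linear_combination this
        rcases mul_eq_zero.mp h1 with h | h
        · exfalso
          have := hω.pow_ne_one_of_pos_of_lt (by norm_num : (2 : ℕ) ≠ 0) (by norm_num : 2 < 2 * 2)
          exact this (sub_eq_zero.mp h)
        · exact eq_neg_of_add_eq_zero_left h
      have hω0 : ω ≠ 0 := hω.ne_zero (by norm_num)
      have hξm : (ξ : F) = -1 := by
        have h1 : ((ξ : F) - 1) * ((ξ : F) + 1) = 0 := by
          have h2 := hprim.pow_eq_one
          linear_combination h2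
        rcases mul_eq_zero.mp h1 with h | h
        · exfalso
          apply hξ1
          exact Units.ext (by rw [sub_eq_zero.mp h, Units.val_one])
        · exact eq_neg_of_add_eq_zero_left h
      obtain ⟨c, hc⟩ := exists_scU (C.pow_r_scalar b.2)
      have hc2 : c ^ 2 = 1 := by
        have h1 := C.pow _ b.2
        rw [hgcd, pow_mul, ← hc, ← map_pow] at h1
        apply scU_injective (ι := ι)
        rw [h1, map_one]
      have hω04 : (Units.mk0 ω hω0) ^ (2 * Nat.gcd 2 2) = 1 := by
        rw [hgcd]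
        exact Units.ext (by simpa using hω.pow_eq_one)
      obtain ⟨d, hdR, hd⟩ : ∃ d : Fˣ, (scU d : GL ι F) ∈ R ∧ d ^ 2 * c * ξ = 1 := by
        have hcc : ((c : F) - 1) * ((c : F) + 1) = 0 := by
          have h1 : (c : F) ^ 2 = 1 := by
            rw [← Units.val_pow_eq_pow_val, hc2, Units.val_one]
          linear_combination h1
        rcases mul_eq_zero.mp hcc with h | h
        · refine ⟨Units.mk0 ω hω0, C.scal _ hω04, Units.ext ?_⟩
          simp only [Units.val_mul, Units.val_pow_eq_pow_val, Units.val_mk0, Units.val_one]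
          rw [hω2, sub_eq_zero.mp h, hξm]
          ring
        · refine ⟨1, R.one_mem |> fun h => by rw [map_one]; exact h, Units.ext ?_⟩
          simp only [Units.val_mul, Units.val_pow_eq_pow_val, Units.val_one]
          rw [eq_neg_of_add_eq_zero_left h, hξm]
          ring
      refine ⟨⟨scU d, hdR⟩ * b, ?_, ?_, ?_⟩
      · exact Subtype.ext (hbcomm d hdR a ξ hba)
      · intro y
        obtain ⟨η, hη, hy⟩ := C.comm b b.2 y y.2
        obtain ⟨u, rfl⟩ := hpowers η hη
        refine ⟨u, Subtype.ext ?_⟩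
        have := hbcomm d hdR y _ hy
        rw [map_pow] at this
        exact this
      · apply Subtype.ext
        have hcm : Commute (scU d : GL ι F) (b : GL ι F) := (scU_central d (b : GL ι F)).symm
        show ((scU d : GL ι F) * (b : GL ι F)) ^ 2 * (scU ξ) ^ (Nat.choose 2 2) = 1
        rw [hcm.mul_pow, ← hc, Nat.choose_self, pow_one, ← map_pow, ← map_mul, ← map_mul, hd, map_one]
    · -- odd case
      have hgcd : Nat.gcd 2 r = 1 := (Nat.coprime_primes Nat.prime_two hr).mpr (Ne.symm hr2)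
      refine ⟨b, ?_, ?_, ?_⟩
      · exact Subtype.ext hba
      · intro y
        obtain ⟨η, hη, hy⟩ := C.comm b b.2 y y.2
        obtain ⟨u, rfl⟩ := hpowers η hη
        refine ⟨u, Subtype.ext ?_⟩
        rw [map_pow] at hy
        exact hy
      · have h3 : 2 < r := by
          have := hr.two_le
          omega
        obtain ⟨t, ht⟩ := hr.dvd_choose_self (by norm_num : (2 : ℕ) ≠ 0) h3
        have h1 := C.pow _ b.2
        rw [hgcd, mul_one] at h1
        have hζr : ζ ^ r = 1 := by
          rw [← hζord]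
          exact pow_orderOf_eq_one ζ
        rw [ht, pow_mul ζ r t, hζr, one_pow, mul_one]
        exact Subtype.ext h1
  have hr1 : 1 < r := hr.one_lt
  obtain ⟨τ, hτ⟩ := exists_transvection_aut hr1 hζc hζord hb'y hb'r hb'a
  have hmem : a * b' ∈ A := by
    have h1 : A.comap τ.toMonoidHom = A := hA.fixed τ
    have h2 : a ∈ A.comap τ.toMonoidHom := by rw [h1]; exact ha
    have h3 : τ a ∈ A := h2
    rwa [hτ] at h3
  have hcomm := hc.is_comm.comm (⟨a, ha⟩ : A) ⟨a * b', hmem⟩
  have h1 : a * (a * b') = a * b' * a := congrArg Subtype.val hcomm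
  have h2 : a * b' = b' * a := by
    have : a * (a * b') = a * (b' * a) := by rw [h1, mul_assoc]
    exact mul_left_cancel this
  rw [hb'a] at h2
  have h3 : ζ = 1 := by
    have : 1 * (a * b') = ζ * (a * b') := by rw [one_mul]; exact h2
    exact (mul_right_cancel this).symm
  have h4 : orderOf ζ = 1 := by rw [h3, orderOf_one]
  rw [hζord] at h4
  omega

theorem symplecticType [Nonempty ι] [Finite F] (C : SymCtx r R) {ω : F} (hω : IsPrimitiveRoot ω (r * Nat.gcd 2 r)) :
    IsSymplecticTypeGroup r R := by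
  classical
  have hρ0 : (r * Nat.gcd 2 r) ≠ 0 := (Nat.mul_pos C.prime.pos (Nat.gcd_pos_of_pos_left _ (by norm_num))).ne'
  refine ⟨C.prime, C.isPGroup, ?_, ?_⟩
  · intro A hA hc
    have hscal : ∀ a : A, ((a : R) : GL ι F) ∈ scalars ι F := by
      intro a
      apply C.central_scalar
      intro y hy
      have := C.char_central hω A hA hc a.2 ⟨y, hy⟩
      exact congrArg Subtype.val this
    obtain ⟨i⟩ := ‹Nonempty ι›
    let f : A →* F :=
      { toFun := fun a => (((a : R) : GL ι F) : Matrix ι ι F) i i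
        map_one' := by simp
        map_mul' := by
          intro a a'
          obtain ⟨c, hc⟩ := exists_scU (hscal a)
          obtain ⟨d, hd⟩ := exists_scU (hscal a')
          simp only [Subgroup.coe_mul, Units.val_mul, ← hc, ← hd, scU_val]
          simp [Matrix.smul_apply]
          ring }
    have hf : Function.Injective f := by
      intro a a' h
      obtain ⟨c, hc⟩ := exists_scU (hscal a)
      obtain ⟨d, hd⟩ := exists_scU (hscal a')
      simp only [f, MonoidHom.coe_mk, OneHom.coe_mk, ← hc, ← hd, scU_val] at h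
      simp only [Matrix.smul_apply, Matrix.one_apply_eq, smul_eq_mul, mul_one] at h
      have h1 : c = d := Units.ext h
      apply Subtype.ext
      apply Subtype.ext
      rw [← hc, ← hd, h1]
    exact isCyclic_of_injective_ringHom f hf
  · apply Nat.dvd_antisymm
    · apply Monoid.exponent_dvd_of_forall_pow_eq_one
      intro g
      apply Subtype.ext
      rw [Subgroup.coe_pow, C.pow g g.2]
      rfl
    · have hω0 : ω ≠ 0 := hω.ne_zero hρ0
      have hω4 : (Units.mk0 ω hω0) ^ (r * Nat.gcd 2 r) = 1 := Units.ext (by simpa using hω.pow_eq_one)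
      have h1 := Monoid.order_dvd_exponent (⟨scU (Units.mk0 ω hω0), C.scal _ hω4⟩ : R)
      have h2 : orderOf (⟨scU (Units.mk0 ω hω0), C.scal _ hω4⟩ : R) = r * Nat.gcd 2 r := by
        rw [← Subgroup.orderOf_coe]
        show orderOf (scU (Units.mk0 ω hω0) : GL ι F) = _
        rw [orderOf_injective scU scU_injective, ← orderOf_units, Units.val_mk0]
        exact hω.eq_orderOf.symm
      rwa [h2] at h1

end SymCtx

end Cfsg.Agent.H97.Asch
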