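import Cfsg.Agent.Lib.H97Sym2

/-!
Groups of symplectic type: common eigenvectors, maximal abelian subgroups, the monomial basis.
-/

set_option autoImplicit false
set_option linter.unusedSectionVars false
set_option linter.style.haveILetI false

namespace Cfsg.Agent.H97.Asch

open Matrix Cfsg Cfsg.Geo
open scoped MatrixGroups commutatorElement

variable {ι : Type} [Fintype ι] [DecidableEq ι] {F : Type*} [Field F]

/-- eigenvectors of elements of finite order with split polynomial -/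
theorem exists_eigen_of_pow_one {W : Submodule F (ι → F)} (hW : W ≠ ⊥) {a : GL ι F} {ρ : ℕ} (hρ : ρ ≠ 0) (ha : a ^ ρ = 1)
    (hstab : ∀ w ∈ W, (a : Matrix ι ι F) *ᵥ w ∈ W) {ω : F} (hω : IsPrimitiveRoot ω ρ) :
    ∃ μ : F, ∃ w ∈ W, w ≠ 0 ∧ (a : Matrix ι ι F) *ᵥ w = μ • w := by
  classical
  have hnt : Nontrivial W := Submodule.nontrivial_iff_ne_bot.mpr hW
  let T : Module.End F W := LinearMap.restrict (Matrix.toLin' (a : Matrix ι ι F)) (fun w hw => by
    simpa [Matrix.toLin'_apply] using hstab w hw)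
  have hTv : ∀ w : W, ((T w : W) : ι → F) = (a : Matrix ι ι F) *ᵥ (w : ι → F) := fun w => rfl
  have hTp : ∀ (m : ℕ) (w : W), (((T ^ m) w : W) : ι → F) = ((a ^ m : GL ι F) : Matrix ι ι F) *ᵥ (w : ι → F) := by
    intro m w
    induction m with
    | zero => simp
    | succ m ih =>
      rw [pow_succ', Module.End.mul_apply, hTv, ih, pow_succ', gl_mulVec_mul]
  have hT1 : T ^ ρ = 1 := by
    apply LinearMap.ext
    intro w
    apply Subtype.ext
    rw [hTp, ha]
    simp
  have hdvd : minpoly F T ∣ (Polynomial.X ^ ρ - Polynomial.C (1 : F)) := by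
    apply minpoly.dvd
    simp [hT1]
  have hsp : Polynomial.Splits (Polynomial.X ^ ρ - Polynomial.C (1 : F)) := Polynomial.X_pow_sub_one_splits hω
  have hne : (Polynomial.X ^ ρ - Polynomial.C (1 : F)) ≠ 0 := Polynomial.X_pow_sub_C_ne_zero (Nat.pos_of_ne_zero hρ) 1
  have hsm := hsp.of_dvd hne hdvd
  have hint : IsIntegral F T := Algebra.IsIntegral.isIntegral T
  have hdeg : (minpoly F T).degree ≠ 0 := (minpoly.degree_pos hint).ne'
  obtain ⟨μ, hμ⟩ := hsm.exists_eval_eq_zero hdeg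
  obtain ⟨v, hv⟩ := (Module.End.hasEigenvalue_of_isRoot hμ).exists_hasEigenvector
  refine ⟨μ, (v : ι → F), v.2, ?_, ?_⟩
  · intro h
    exact hv.2 (Subtype.ext h)
  · have := hv.apply_eq_smul
    have h2 := congrArg Subtype.val this
    rw [hTv] at h2
    exact h2

theorem gl_pow_mulVec_of_eig {a : GL ι F} {v : ι → F} {μ : F} (h : (a : Matrix ι ι F) *ᵥ v = μ • v) (m : ℕ) :
    ((a ^ m : GL ι F) : Matrix ι ι F) *ᵥ v = μ ^ m • v := by
  induction m with
  | zero => simp
  | succ m ih =>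
    rw [pow_succ, gl_mulVec_mul, h, Matrix.mulVec_smul, ih, smul_smul, pow_succ, mul_comm]

/-- Commuting groups of split elements have common eigenvectors. -/
theorem exists_common_eig [Finite F] [Nonempty ι] {A : Subgroup (GL ι F)} (hcomm : ∀ a ∈ A, ∀ b ∈ A, a * b = b * a)
    {ρ : ℕ} (hρ : ρ ≠ 0) (hpow : ∀ a ∈ A, a ^ ρ = 1) {ω : F} (hω : IsPrimitiveRoot ω ρ) :
    ∃ v : ι → F, v ≠ 0 ∧ ∀ a ∈ A, ∃ μ : F, (a : Matrix ι ι F) *ᵥ v = μ • v := by
  classical
  obtain ⟨W, hW0, hWs, hWmin⟩ := exists_minStable A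
  have hall : ∀ a ∈ A, ∃ μ : F, ∀ w ∈ W, (a : Matrix ι ι F) *ᵥ w = μ • w := by
    intro a ha
    obtain ⟨μ, w, hw, hw0, hwe⟩ := exists_eigen_of_pow_one hW0 hρ (hpow a ha) (hWs a ha) hω
    refine ⟨μ, ?_⟩
    let U : Submodule F (ι → F) := W ⊓ Module.End.eigenspace (Matrix.toLin' (a : Matrix ι ι F)) μ
    have hmemU : ∀ x, x ∈ U ↔ x ∈ W ∧ (a : Matrix ι ι F) *ᵥ x = μ • x := by
      intro x
      simp [U, Matrix.toLin'_apply]
    have hUs : Stable A U := by
      intro g hg x hx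
      rw [hmemU] at hx ⊢
      refine ⟨hWs g hg x hx.1, ?_⟩
      rw [← gl_mulVec_mul, hcomm a ha g hg, gl_mulVec_mul, hx.2, Matrix.mulVec_smul]
    have hU : U = ⊥ ∨ U = W := hWmin U hUs inf_le_left
    rcases hU with h | h
    · exfalso
      have : w ∈ U := (hmemU w).mpr ⟨hw, hwe⟩
      rw [h, Submodule.mem_bot] at this
      exact hw0 this
    · intro x hx
      rw [← h] at hx
      exact ((hmemU x).mp hx).2
  obtain ⟨v, hv, hv0⟩ := (Submodule.ne_bot_iff W).mp hW0
  refine ⟨v, hv0, fun a ha => ?_⟩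
  obtain ⟨μ, hμ⟩ := hall a ha
  exact ⟨μ, hμ v hv⟩

theorem closure_comm_of_comm {G : Type*} [Group G] {k : Set G} (hcomm : ∀ x ∈ k, ∀ y ∈ k, x * y = y * x) {x y : G}
    (hx : x ∈ Subgroup.closure k) (hy : y ∈ Subgroup.closure k) : x * y = y * x := by
  have h := Subgroup.isMulCommutative_closure hcomm
  have := h.is_comm.comm (⟨x, hx⟩ : Subgroup.closure k) ⟨y, hy⟩
  exact congrArg Subtype.val this

/-- maximal abelian subgroups -/
theorem exists_maximal_abelian [Finite F] (R : Subgroup (GL ι F)) :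
    ∃ A : Subgroup (GL ι F), A ≤ R ∧ (∀ a ∈ A, ∀ b ∈ A, a * b = b * a) ∧ ∀ x ∈ R, (∀ a ∈ A, x * a = a * x) → x ∈ A := by
  classical
  let S : Set (Subgroup (GL ι F)) := {A | A ≤ R ∧ ∀ a ∈ A, ∀ b ∈ A, a * b = b * a}
  have hne : S.Nonempty := ⟨⊥, bot_le, fun a ha b hb => by
    rw [Subgroup.mem_bot] at ha hb
    rw [ha, hb]⟩
  obtain ⟨A, ⟨hAR, hAc⟩, hmax⟩ := (wellFounded_gt (α := Subgroup (GL ι F))).has_min S hne
  refine ⟨A, hAR, hAc, fun x hx hxc => ?_⟩
  let k : Set (GL ι F) := (A : Set (GL ι F)) ∪ {x}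
  have hk : ∀ a ∈ k, ∀ b ∈ k, a * b = b * a := by
    rintro a (ha | rfl) b (hb | rfl)
    · exact hAc a ha b hb
    · exact (hxc a ha).symm
    · exact hxc b hb
    · rfl
  have hle : Subgroup.closure k ∈ S := by
    refine ⟨(Subgroup.closure_le R).mpr ?_, fun a ha b hb => closure_comm_of_comm hk ha hb⟩
    rintro a (ha | rfl)
    · exact hAR ha
    · exact hx
  have hAle : A ≤ Subgroup.closure k := by
    intro a ha
    exact Subgroup.subset_closure (Or.inl ha)
  have hxm : x ∈ Subgroup.closure k := Subgroup.subset_closure (Or.inr rfl)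
  by_contra hxA
  apply hmax _ hle
  exact lt_of_le_of_ne hAle fun h => hxA (h ▸ hxm)

theorem comm_of_same_char {G : Type*} [Group G] {a s s' c : G} (hc : ∀ g, g * c = c * g) (h1 : a * s = c * (s * a))
    (h2 : a * s' = c * (s' * a)) : s⁻¹ * s' * a = a * (s⁻¹ * s') := by
  have hci : ∀ g, g * c⁻¹ = c⁻¹ * g := fun g => by
    rw [eq_inv_mul_iff_mul_eq, ← mul_assoc, ← hc, mul_assoc, mul_inv_cancel, mul_one]
  have e1 : s⁻¹ * a = c * (a * s⁻¹) := by
    calc s⁻¹ * a = s⁻¹ * (a * s) * s⁻¹ := by group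
      _ = s⁻¹ * (c * (s * a)) * s⁻¹ := by rw [h1]
      _ = c * (s⁻¹ * (s * a)) * s⁻¹ := by rw [← mul_assoc s⁻¹ c, hc s⁻¹, mul_assoc c]
      _ = c * (a * s⁻¹) := by simp [mul_assoc]
  have e2 : s' * a = c⁻¹ * (a * s') := by
    rw [h2]
    simp
  calc s⁻¹ * s' * a = s⁻¹ * (s' * a) := mul_assoc _ _ _
    _ = s⁻¹ * (c⁻¹ * (a * s')) := by rw [e2]
    _ = c⁻¹ * (s⁻¹ * a * s') := by rw [← mul_assoc s⁻¹, hci s⁻¹]; simp [mul_assoc]
    _ = c⁻¹ * (c * (a * s⁻¹) * s') := by rw [e1]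
    _ = a * (s⁻¹ * s') := by simp [mul_assoc]

namespace SymCtx

variable {r : ℕ} {R : Subgroup (GL ι F)}

theorem irr (C : SymCtx r R) : Irr R := irr_of_spanG C.span

/-- the monomial basis -/
theorem exists_monomial [Nonempty ι] [Finite F] (C : SymCtx r R) {ω : F} (hω : IsPrimitiveRoot ω (r * Nat.gcd 2 r)) :
    ∃ b : Module.Basis ι F (ι → F), ∀ g ∈ R, ∃ π : ι → ι, Function.Injective π ∧ ∃ c : ι → F,
      (∀ k, c k ^ (r * Nat.gcd 2 r) = 1) ∧ ∀ k, (g : Matrix ι ι F) *ᵥ b k = c k • b (π k) := by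
  classical
  have hρ0 : (r * Nat.gcd 2 r) ≠ 0 := (Nat.mul_pos C.prime.pos (Nat.gcd_pos_of_pos_left _ (by norm_num))).ne'
  set ρ := r * Nat.gcd 2 r with hρ
  obtain ⟨A, hAR, hAc, hAmax⟩ := exists_maximal_abelian R
  obtain ⟨v, hv0, hv⟩ := exists_common_eig hAc hρ0 (fun a ha => C.pow a (hAR ha)) hω
  choose lam hlam using hv
  have hlam0 : ∀ a (ha : a ∈ A), lam a ha ≠ 0 := by
    intro a ha h0
    have h1 := hlam a ha
    rw [h0, zero_smul] at h1
    apply hv0
    apply gl_mulVec_injective a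
    simp only [h1, Matrix.mulVec_zero]
  have hlampow : ∀ a (ha : a ∈ A), lam a ha ^ ρ = 1 := by
    intro a ha
    have h1 := gl_pow_mulVec_of_eig (hlam a ha) ρ
    rw [C.pow a (hAR ha), Units.val_one, Matrix.one_mulVec] at h1
    obtain ⟨i, hi⟩ := Function.ne_iff.mp hv0
    have h2 := congrFun h1 i
    rw [Pi.smul_apply, smul_eq_mul] at h2
    exact (mul_right_cancel₀ (b := v i) (a := lam a ha ^ ρ) (c := 1) hi (by rw [one_mul]; exact h2.symm))
  let κ := R ⧸ A.subgroupOf R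
  have : Fintype κ := Fintype.ofFinite _
  let s : κ → R := fun k => Quotient.out k
  have hsmk : ∀ k : κ, (QuotientGroup.mk (s k) : κ) = k := fun k => QuotientGroup.out_eq' k
  let fam : κ → (ι → F) := fun k => (((s k : R) : GL ι F) : Matrix ι ι F) *ᵥ v
  have hfam0 : ∀ k, fam k ≠ 0 := by
    intro k h
    apply hv0
    apply gl_mulVec_injective ((s k : R) : GL ι F)
    simp only [Matrix.mulVec_zero]
    exact h
  -- `A`-eigenvalues of `fam`
  have hξ : ∀ (k : κ) (a : A), ∃ ξ : Fˣ, (a : GL ι F) * (s k : GL ι F) = scU ξ * ((s k : GL ι F) * (a : GL ι F)) := by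
    intro k a
    obtain ⟨ξ, -, h⟩ := C.comm a (hAR a.2) (s k) (s k).2
    exact ⟨ξ, h⟩
  choose ξ hξ using hξ
  let χ : κ → A → F := fun k a => (ξ k a : F) * lam a a.2
  have hmemE : ∀ k, fam k ∈ Ech A (χ k) := by
    intro k
    rw [mem_Ech]
    intro a
    show ((a : GL ι F) : Matrix ι ι F) *ᵥ ((((s k : R) : GL ι F) : Matrix ι ι F) *ᵥ v) = _ • ((((s k : R) : GL ι F) : Matrix ι ι F) *ᵥ v)
    rw [← gl_mulVec_mul, hξ k a, Units.val_mul, scU_val, Matrix.smul_mul, Matrix.one_mul, Matrix.smul_mulVec,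
      gl_mulVec_mul, hlam a a.2, Matrix.mulVec_smul, smul_smul]
  have hχinj : Function.Injective χ := by
    intro k l h
    rw [← hsmk k, ← hsmk l, QuotientGroup.eq, Subgroup.mem_subgroupOf]
    apply hAmax _ (R.mul_mem (R.inv_mem (s k).2) (s l).2)
    intro a ha
    have h1 := congrFun h ⟨a, ha⟩
    simp only [χ] at h1
    have h2 : ξ k ⟨a, ha⟩ = ξ l ⟨a, ha⟩ := Units.ext (mul_right_cancel₀ (hlam0 a ha) h1)
    have h3 := hξ k ⟨a, ha⟩
    have h4 := hξ l ⟨a, ha⟩
    rw [← h2] at h4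
    have := comm_of_same_char (fun g => scU_central (ξ k ⟨a, ha⟩) g) h3 h4
    simpa using this
  have hli : LinearIndependent F fam :=
    ((iSupIndep_Ech hAc).comp hχinj).linearIndependent _ hmemE hfam0
  -- the action on `fam`
  have hstep : ∀ (g : R) (k : κ), ∃ a ∈ A, (g : GL ι F) * (s k : GL ι F) = (s (QuotientGroup.mk (g * s k)) : GL ι F) * a := by
    intro g k
    have h1 := hsmk (QuotientGroup.mk (g * s k))
    rw [QuotientGroup.eq, Subgroup.mem_subgroupOf] at h1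
    refine ⟨_, h1, ?_⟩
    simp
  have hfamstep : ∀ (g : R) (k : κ), ∃ a, ∃ ha : a ∈ A, ((g : GL ι F) : Matrix ι ι F) *ᵥ fam k = lam a ha • fam (QuotientGroup.mk (g * s k)) := by
    intro g k
    obtain ⟨a, ha, he⟩ := hstep g k
    refine ⟨a, ha, ?_⟩
    show ((g : GL ι F) : Matrix ι ι F) *ᵥ ((((s k : R) : GL ι F) : Matrix ι ι F) *ᵥ v) = lam a ha • ((((s (QuotientGroup.mk (g * s k)) : R) : GL ι F) : Matrix ι ι F) *ᵥ v)
    rw [← gl_mulVec_mul, he, gl_mulVec_mul, hlam a ha, Matrix.mulVec_smul]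
  have hsp : Submodule.span F (Set.range fam) = ⊤ := by
    have hst : Stable R (Submodule.span F (Set.range fam)) := by
      intro g hg w hw
      induction hw using Submodule.span_induction with
      | mem x hx =>
        obtain ⟨k, rfl⟩ := hx
        obtain ⟨a, ha, he⟩ := hfamstep ⟨g, hg⟩ k
        simp only at he
        rw [he]
        exact Submodule.smul_mem _ _ (Submodule.subset_span ⟨_, rfl⟩)
      | zero => simp
      | add x y _ _ hx hy =>
        rw [Matrix.mulVec_add]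
        exact Submodule.add_mem _ hx hy
      | smul c x _ hx =>
        rw [Matrix.mulVec_smul]
        exact Submodule.smul_mem _ _ hx
    rcases C.irr _ hst with h | h
    · exfalso
      have h1 : fam (QuotientGroup.mk 1) ∈ Submodule.span F (Set.range fam) := Submodule.subset_span ⟨_, rfl⟩
      rw [h, Submodule.mem_bot] at h1
      exact hfam0 _ h1
    · exact h
  let b' : Module.Basis κ F (ι → F) := Module.Basis.mk hli (top_le_iff.mpr hsp)
  have hb' : ∀ k, b' k = fam k := fun k => Module.Basis.mk_apply hli _ k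
  have hcard : Fintype.card κ = Fintype.card ι := by
    rw [← Module.finrank_eq_card_basis b', Module.finrank_fintype_fun_eq_card]
  let e : κ ≃ ι := Fintype.equivOfCardEq hcard
  refine ⟨b'.reindex e, fun g hg => ?_⟩
  have hst := hfamstep ⟨g, hg⟩
  choose a ha hfa using hst
  refine ⟨fun i => e (QuotientGroup.mk ((⟨g, hg⟩ : R) * s (e.symm i))), ?_, fun i => lam _ (ha (e.symm i)), ?_, ?_⟩
  · intro i j hij
    have h1 := e.injective hij
    rw [QuotientGroup.eq] at h1
    have h2 : (s (e.symm i))⁻¹ * s (e.symm j) ∈ A.subgroupOf R := by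
      simpa [mul_assoc] using h1
    have h3 : (QuotientGroup.mk (s (e.symm i)) : κ) = QuotientGroup.mk (s (e.symm j)) := QuotientGroup.eq.mpr h2
    rw [hsmk, hsmk] at h3
    exact e.symm.injective h3
  · intro i
    exact hlampow _ _
  · intro i
    rw [Module.Basis.reindex_apply, Module.Basis.reindex_apply, hb', hb', hfa, Equiv.symm_apply_apply]

end SymCtx

end Cfsg.Agent.H97.Asch
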