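import Cfsg.Agent.Lib.H97Sym3
import Cfsg.Agent.Lib.H97ES

/-!
Groups of symplectic type: invariant bilinear forms in the absence of primitive fourth roots of unity, and the
final outcome for the normaliser of a group of symplectic type.
-/

set_option autoImplicit false
set_option linter.unusedSectionVars false
set_option linter.style.haveILetI false

namespace Cfsg.Agent.H97.Asch

open Matrix Cfsg Cfsg.Geo
open scoped MatrixGroups commutatorElement

variable {ι : Type} [Fintype ι] [DecidableEq ι] {F : Type*} [Field F]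

namespace SymCtx

variable {r : ℕ} {R : Subgroup (GL ι F)}

theorem exists_inv_matrix [Nonempty ι] [Finite F] (C : SymCtx r R) (hsc : ∀ c : Fˣ, (scU c : GL ι F) ∈ R → c * c = 1) :
    ∃ G : Matrix ι ι F, G ≠ 0 ∧ ∀ g ∈ R, (g : Matrix ι ι F)ᵀ * G * (g : Matrix ι ι F) = G := by
  classical
  let Q := R ⧸ (scalars ι F).subgroupOf R
  have : Fintype Q := Fintype.ofFinite _
  let s : Q → Matrix ι ι F := fun t => (((trv t : R) : GL ι F) : Matrix ι ι F)
  let Φ : Matrix ι ι F → Matrix ι ι F := fun G₀ => ∑ t, (s t)ᵀ * G₀ * s t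
  have hΦ : ∀ (G₀ : Matrix ι ι F), ∀ g ∈ R, (g : Matrix ι ι F)ᵀ * Φ G₀ * (g : Matrix ι ι F) = Φ G₀ := by
    intro G₀ g hg
    simp only [Φ]
    rw [Finset.mul_sum, Finset.sum_mul]
    let q : Q := QuotientGroup.mk (⟨g, hg⟩ : R)
    rw [← Equiv.sum_comp (Equiv.mulRight q) (fun t => (s t)ᵀ * G₀ * s t)]
    refine Finset.sum_congr rfl fun t _ => ?_
    obtain ⟨c, hc⟩ := exists_scalar_trv ((trv t : R) * (⟨g, hg⟩ : R))
    have hq : (QuotientGroup.mk ((trv t : R) * (⟨g, hg⟩ : R)) : Q) = t * q := by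
      rw [QuotientGroup.mk_mul, mk_trv]
    rw [hq] at hc
    have hcR : (scU c : GL ι F) ∈ R := by
      have : (scU c : GL ι F) = (((trv (t * q) : R) : GL ι F))⁻¹ * (((trv t : R) * (⟨g, hg⟩ : R) : R) : GL ι F) := by
        rw [hc]
        group
      rw [this]
      exact R.mul_mem (R.inv_mem (trv (t * q)).2) ((trv t * ⟨g, hg⟩ : R)).2
    have hcc := hsc c hcR
    have hm : s t * (g : Matrix ι ι F) = (c : F) • s (t * q) := by
      have := congrArg (fun x : GL ι F => (x : Matrix ι ι F)) hc
      simp only [Subgroup.coe_mul, Units.val_mul, scU_val] at this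
      simp only [s]
      rw [this, Matrix.mul_smul, Matrix.mul_one]
    have hccF : (c : F) * (c : F) = 1 := by
      rw [← Units.val_mul, hcc, Units.val_one]
    show (g : Matrix ι ι F)ᵀ * ((s t)ᵀ * G₀ * s t) * (g : Matrix ι ι F) = (s (t * q))ᵀ * G₀ * s (t * q)
    calc (g : Matrix ι ι F)ᵀ * ((s t)ᵀ * G₀ * s t) * (g : Matrix ι ι F)
        = (s t * (g : Matrix ι ι F))ᵀ * G₀ * (s t * (g : Matrix ι ι F)) := by
          rw [Matrix.transpose_mul]
          simp only [Matrix.mul_assoc]
      _ = (s (t * q))ᵀ * G₀ * s (t * q) := by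
          rw [hm, Matrix.transpose_smul, Matrix.smul_mul, Matrix.smul_mul, Matrix.mul_smul, smul_smul, hccF, one_smul]
  by_contra hall
  push Not at hall
  have hzero : ∀ G₀, Φ G₀ = 0 := by
    intro G₀
    by_contra hne
    obtain ⟨g, hg, h⟩ := hall _ hne
    exact h (hΦ G₀ g hg)
  have h1 : ∀ j j' k l, ∑ t, s t j k * s t j' l = 0 := by
    intro j j' k l
    have h2 := congrFun (congrFun (hzero (Matrix.single j j' 1)) k) l
    simp only [Φ, Matrix.sum_apply, Matrix.zero_apply] at h2
    rw [← h2]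
    refine Finset.sum_congr rfl fun t _ => ?_
    simp only [Matrix.mul_apply, Matrix.single_apply, Matrix.transpose_apply]
    have hinner : ∀ x, (∑ j_1, s t j_1 k * (if j = j_1 ∧ j' = x then (1 : F) else 0)) = if j' = x then s t j k else 0 := by
      intro x
      by_cases hx : j' = x
      · simp [hx]
      · simp [hx]
    simp_rw [hinner]
    simp
  have h3 : ∀ t j' l, s t j' l = 0 := by
    intro t j' l
    have hli := Fintype.linearIndependent_iff.mp C.trv_linearIndependent
    apply hli (fun t => s t j' l) _ t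
    ext j k
    rw [Matrix.sum_apply, Matrix.zero_apply, ← h1 j j' k l]
    refine Finset.sum_congr rfl fun t _ => ?_
    simp only [Matrix.smul_apply, smul_eq_mul]
    exact mul_comm _ _
  have h4 : s 1 = 0 := by
    ext j l
    exact h3 1 j l
  have hu : IsUnit (s 1) := ((trv (1 : Q) : R) : GL ι F).isUnit
  rw [h4] at hu
  exact not_isUnit_zero hu

/-- the invariant bilinear form -/
theorem exists_inv_form [Nonempty ι] [Finite F] (C : SymCtx r R) (hsc : ∀ c : Fˣ, (scU c : GL ι F) ∈ R → c * c = 1) :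
    ∃ f : (ι → F) → (ι → F) → F, Sesq (RingHom.id F) f ∧
      (∀ g ∈ R, ∀ u v, f ((g : Matrix ι ι F) *ᵥ u) ((g : Matrix ι ι F) *ᵥ v) = f u v) ∧ IsNondegenerateForm f := by
  classical
  obtain ⟨G, hG0, hG⟩ := C.exists_inv_matrix hsc
  let f : (ι → F) → (ι → F) → F := fun u v => u ⬝ᵥ (G *ᵥ v)
  have hS : Sesq (RingHom.id F) f := by
    refine ⟨fun x y v => ?_, fun c x v => ?_, fun v x y => ?_, fun c v x => ?_⟩
    · simp [f, add_dotProduct]
    · simp [f, smul_dotProduct]
    · simp [f, Matrix.mulVec_add, dotProduct_add]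
    · simp [f, Matrix.mulVec_smul, dotProduct_smul]
  have hinv : ∀ g ∈ R, ∀ u v, f ((g : Matrix ι ι F) *ᵥ u) ((g : Matrix ι ι F) *ᵥ v) = f u v := by
    intro g hg u v
    simp only [f]
    have e : ((g : Matrix ι ι F) *ᵥ u) ⬝ᵥ (G *ᵥ ((g : Matrix ι ι F) *ᵥ v)) =
        u ⬝ᵥ (((g : Matrix ι ι F)ᵀ * G * (g : Matrix ι ι F)) *ᵥ v) := by
      rw [← Matrix.mulVec_mulVec, ← Matrix.mulVec_mulVec, Matrix.dotProduct_mulVec u (g : Matrix ι ι F)ᵀ,
        Matrix.vecMul_transpose]
    rw [e, hG g hg]
  have hG_ij : ∀ i j, f (Pi.single i 1) (Pi.single j 1) = G i j := by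
    intro i j
    simp [f]
  -- left radical
  have hleft : ∀ v, v ≠ 0 → ∃ x, f v x ≠ 0 := by
    let L : Submodule F (ι → F) :=
      { carrier := {u | ∀ v, f u v = 0}
        add_mem' := by
          intro a b ha hb v
          rw [hS.add_left, ha v, hb v, add_zero]
        zero_mem' := fun v => hS.zero_left v
        smul_mem' := by
          intro c a ha v
          rw [hS.smul_left, ha v, mul_zero] }
    have hL : Stable R L := by
      intro g hg u hu v
      have := hinv g hg u (((g⁻¹ : GL ι F) : Matrix ι ι F) *ᵥ v)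
      rw [gl_mulVec_inv] at this
      rw [this]
      exact hu _
    rcases C.irr L hL with h | h
    · intro v hv
      by_contra hall
      push Not at hall
      have : v ∈ L := hall
      rw [h, Submodule.mem_bot] at this
      exact hv this
    · exfalso
      apply hG0
      ext i j
      rw [← hG_ij, Matrix.zero_apply]
      have : (Pi.single i 1 : ι → F) ∈ L := by rw [h]; trivial
      exact this _
  have hright : ∀ v, v ≠ 0 → ∃ x, f x v ≠ 0 := by
    let L : Submodule F (ι → F) :=
      { carrier := {u | ∀ v, f v u = 0}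
        add_mem' := by
          intro a b ha hb v
          rw [hS.add_right, ha v, hb v, add_zero]
        zero_mem' := fun v => hS.zero_right v
        smul_mem' := by
          intro c a ha v
          rw [hS.smul_right, ha v, mul_zero] }
    have hL : Stable R L := by
      intro g hg u hu v
      have := hinv g hg (((g⁻¹ : GL ι F) : Matrix ι ι F) *ᵥ v) u
      rw [gl_mulVec_inv] at this
      rw [this]
      exact hu _
    rcases C.irr L hL with h | h
    · intro v hv
      by_contra hall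
      push Not at hall
      have : v ∈ L := hall
      rw [h, Submodule.mem_bot] at this
      exact hv this
    · exfalso
      apply hG0
      ext i j
      rw [← hG_ij, Matrix.zero_apply]
      have : (Pi.single j 1 : ι → F) ∈ L := by rw [h]; trivial
      exact this _
  exact ⟨f, hS, hinv, fun v hv => ⟨hright v hv, hleft v hv⟩⟩

/-- the form is symplectic or symmetric -/
theorem form_branch [Nonempty ι] [Finite F] (C : SymCtx r R) (hsc : ∀ c : Fˣ, (scU c : GL ι F) ∈ R → c * c = 1)
    (h2 : (2 : F) ≠ 0) :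
    (∃ f : (ι → F) → (ι → F) → F, IsSymplecticForm f ∧
      ∀ g ∈ R, ∀ u v, f ((g : Matrix ι ι F) *ᵥ u) ((g : Matrix ι ι F) *ᵥ v) = f u v) ∨
    (∃ Q : (ι → F) → F, IsNondegenerateQuadraticForm Q ∧ ∀ g ∈ R, ∀ v, Q ((g : Matrix ι ι F) *ᵥ v) = Q v) := by
  classical
  obtain ⟨f, hS, hinv, hnd⟩ := C.exists_inv_form hsc
  have hS₁ : Sesq (RingHom.id F) (fun u v => f v u) :=
    ⟨fun x y v => hS.add_right v x y, fun c x v => by simpa using hS.smul_right c v x,
     fun v x y => hS.add_left x y v, fun c v x => by simpa using hS.smul_left c x v⟩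
  obtain ⟨c, hc⟩ := form_schur (habs_of_spanG C.span) hS hS₁ (fun v hv => (hnd v hv).2) hinv
    (fun g hg u v => hinv g hg v u)
  have hcc : c * c = 1 := by
    obtain ⟨v, hv⟩ : ∃ v : ι → F, v ≠ 0 := exists_ne 0
    obtain ⟨x, hx⟩ := (hnd v hv).2
    have e1 := hc v x
    have e2 := hc x v
    have e3 : f v x = c * c * f v x := by
      calc f v x = c * f x v := e2
        _ = c * (c * f v x) := by rw [e1]
        _ = c * c * f v x := by ring
    have e4 : (c * c - 1) * f v x = 0 := by linear_combination -e3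
    rcases mul_eq_zero.mp e4 with h | h
    · exact sub_eq_zero.mp h
    · exact absurd h hx
  have hc01 : (c - 1) * (c + 1) = 0 := by linear_combination hcc
  rcases mul_eq_zero.mp hc01 with h | h
  · -- symmetric
    right
    have hc1 : c = 1 := sub_eq_zero.mp h
    have hsym : ∀ u v, f u v = f v u := by
      intro u v
      have := hc v u
      rw [hc1, one_mul] at this
      exact this
    have hpol : ∀ u v, QuadraticMap.polar (fun v => f v v) u v = 2 * f u v := by
      intro u v
      simp only [QuadraticMap.polar]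
      rw [hS.add_left, hS.add_right, hS.add_right, hsym v u]
      ring
    refine ⟨fun v => f v v, ⟨fun c v => ?_, ⟨fun x y v => ?_, fun c x v => ?_, fun v x y => ?_, fun c v x => ?_⟩, fun v hv => ?_⟩,
      fun g hg v => hinv g hg v v⟩
    · show f (c • v) (c • v) = c ^ 2 * f v v
      rw [hS.smul_left, hS.smul_right]
      simp only [RingHom.id_apply]
      ring
    · simp only [hpol]
      rw [hS.add_left]; ring
    · simp only [hpol]
      rw [hS.smul_left]; ring
    · simp only [hpol]
      rw [hS.add_right]; ring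
    · simp only [hpol]
      rw [hS.smul_right]
      simp only [RingHom.id_apply]
      ring
    · obtain ⟨⟨x, hx⟩, ⟨y, hy⟩⟩ := hnd v hv
      exact ⟨⟨x, by rw [hpol]; exact mul_ne_zero h2 hx⟩, ⟨y, by rw [hpol]; exact mul_ne_zero h2 hy⟩⟩
  · -- skew
    left
    have hc1 : c = -1 := eq_neg_of_add_eq_zero_left h
    have hskew : ∀ u v, f u v = - f v u := by
      intro u v
      have := hc v u
      rw [hc1] at this
      rw [this]
      ring
    refine ⟨f, ⟨⟨hS.add_left, hS.smul_left, hS.add_right, fun c v x => by simpa using hS.smul_right c v x⟩, hskew, fun v => ?_, hnd⟩, hinv⟩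
    have e := hskew v v
    have e2 : 2 * f v v = 0 := by linear_combination e
    exact (mul_eq_zero.mp e2).resolve_left h2

end SymCtx

/-- the analysis of the field for `ρ = 4`. -/
theorem field_analysis4 [Fintype F] {i : F} (hi : IsPrimitiveRoot i 4) :
    (∃ F₀ : Subfield F, F₀ ≠ ⊤ ∧ i ∈ F₀) ∨
    (∃ p : ℕ, 2 ≠ p ∧ IsMinimalFieldFor 4 p 1 F) ∨
    (∃ σ : F ≃+* F, σ ≠ RingEquiv.refl F ∧ (∀ a, σ (σ a) = a) ∧ i * σ i = 1) := by
  classical
  obtain ⟨p, hp⟩ := CharP.exists F
  obtain ⟨e, hpp, hcard⟩ := FiniteField.card F p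
  have : Fact p.Prime := ⟨hpp⟩
  have hi0 : i ≠ 0 := hi.ne_zero (by norm_num)
  have hi1 : i ≠ 1 := hi.ne_one (by norm_num)
  have hp2 : 2 ≠ p := by
    rintro rfl
    apply hi1
    have h1 : i ^ 4 = 1 := hi.pow_eq_one
    have h2 : Function.Injective (fun x : F => x ^ 2) := frobenius_inj F 2
    apply h2
    apply h2
    simp only
    rw [← pow_mul, one_pow, one_pow]
    exact h1
  have hdvd : ∀ d : ℕ, 4 ∣ p ^ d - 1 → i ^ p ^ d = i := by
    intro d hd
    have h1 : i ^ (p ^ d - 1) = 1 := (hi.pow_eq_one_iff_dvd _).mpr hd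
    have hpos : 1 ≤ p ^ d := Nat.one_le_pow _ _ hpp.pos
    calc i ^ p ^ d = i ^ (p ^ d - 1 + 1) := by rw [Nat.sub_add_cancel hpos]
      _ = i := by rw [pow_succ, h1, one_mul]
  have hndvd : 4 ∣ p ^ (e : ℕ) - 1 := by
    rw [← hi.pow_eq_one_iff_dvd, ← hcard]
    exact FiniteField.pow_card_sub_one_eq_one i hi0
  by_cases hmin : ∃ d : ℕ, 0 < d ∧ d < (e : ℕ) ∧ 4 ∣ p ^ d - 1
  · -- a proper subfield
    left
    obtain ⟨d, hd0, hde, hnd⟩ := hmin
    refine ⟨(iterateFrobenius F p d).eqLocusField (RingHom.id F), ?_, ?_⟩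
    · intro htop
      have hall : ∀ x : F, x ^ p ^ d = x := by
        intro x
        have hx : x ∈ (iterateFrobenius F p d).eqLocusField (RingHom.id F) := by
          rw [htop]; trivial
        have := hx
        simpa [RingHom.eqLocusField, iterateFrobenius_def] using this
      have h1 : 1 < p ^ d := Nat.one_lt_pow hd0.ne' hpp.one_lt
      have h2 := card_le_of_forall_pow h1 hall
      rw [hcard] at h2
      have h3 : p ^ d < p ^ (e : ℕ) := Nat.pow_lt_pow_right hpp.one_lt hde
      omega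
    · show iterateFrobenius F p d i = i
      rw [iterateFrobenius_def]
      exact hdvd d hnd
  · push Not at hmin
    have hoddp : p % 2 = 1 := by
      rcases Nat.Prime.eq_two_or_odd hpp with h | h
      · exact absurd h.symm hp2
      · exact h
    have h41 : p ^ 2 % 4 = 1 := by
      have : p % 4 = 1 ∨ p % 4 = 3 := by omega
      rcases this with h | h <;> simp [Nat.pow_mod, h]
    have h42 : 4 ∣ p ^ 2 - 1 := by
      have hpos : 1 ≤ p ^ 2 := Nat.one_le_pow _ _ hpp.pos
      omega
    have he0 : 0 < (e : ℕ) := e.pos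
    by_cases he1 : (e : ℕ) = 1
    · -- prime field
      right; left
      refine ⟨p, hp2, hpp, hp, ?_, ?_, fun d h0 h1 => by omega⟩
      · rw [hcard, he1]
      · rw [he1] at hndvd
        exact hndvd
    · -- `F = F_{p²}`
      right; right
      have hne1 : ¬ 4 ∣ p ^ 1 - 1 := hmin 1 (by norm_num) (by omega)
      have he2 : (e : ℕ) = 2 := by
        by_contra h
        exact hmin 2 (by norm_num) (by omega) h42
      rw [pow_one] at hne1
      have hp3 : p % 4 = 3 := by omega
      have hbij : Function.Bijective (iterateFrobenius F p 1) :=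
        Finite.injective_iff_bijective.mp (RingHom.injective _)
      let σ : F ≃+* F := RingEquiv.ofBijective (iterateFrobenius F p 1) hbij
      have hσ : ∀ a, σ a = a ^ p := fun a => by
        show iterateFrobenius F p 1 a = _
        rw [iterateFrobenius_def, pow_one]
      have hinv : ∀ a, σ (σ a) = a := by
        intro a
        rw [hσ, hσ, ← pow_mul, ← pow_two, ← he2, ← hcard, FiniteField.pow_card]
      have hi4 : i * σ i = 1 := by
        rw [hσ, ← pow_succ']
        exact (hi.pow_eq_one_iff_dvd _).mpr (by omega)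
      refine ⟨σ, ?_, hinv, hi4⟩
      intro hrefl
      have h1 : σ i = i := by rw [hrefl]; rfl
      rw [h1] at hi4
      have h2 : 4 ∣ 2 := by
        rw [← hi.pow_eq_one_iff_dvd, pow_two]
        exact hi4
      omega

theorem nrm_normalizer {H R : Subgroup (GL ι F)} (hH : Nrm H R) : H ≤ subgroupNormalizer R := by
  intro h hh
  show h ∈ Subgroup.normalizer (R : Set (GL ι F))
  rw [Subgroup.mem_normalizer_iff]
  intro x
  constructor
  · exact hH h hh x
  · intro hx
    have h1 := hH h⁻¹ (H.inv_mem hh) _ hx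
    have e : h⁻¹ * (h * x * h⁻¹) * h⁻¹⁻¹ = x := by group
    rwa [e] at h1

/-- The outcome for the normaliser of a group of symplectic type. -/
theorem sym_branch [Fintype F] [Nonempty ι] (hn : 3 ≤ Fintype.card ι) {H R : Subgroup (GL ι F)} {r : ℕ}
    (C : SymCtx r R) (hH : Nrm H R) :
    (∃ (F₁ : Subfield F) (q : ℕ) (P : GL ι F), q.Prime ∧ Fintype.card F = Nat.card F₁ ^ q ∧ H ≤ subfieldSubgroup F₁ P) ∨
    (∃ (r : ℕ) (R : Subgroup (GL ι F)), IsLinearSymplecticTypeData r R ∧ H ≤ subgroupNormalizer R) ∨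
    (∃ (σ : F ≃+* F) (f : (ι → F) → (ι → F) → F), IsUnitaryForm σ f ∧ H ≤ similarityGroup f) ∨
    (∃ f : (ι → F) → (ι → F) → F, IsSymplecticForm f ∧ H ≤ similarityGroup f) ∨
    (∃ Q : (ι → F) → F, IsNondegenerateQuadraticForm Q ∧ Odd (Fintype.card F) ∧ H ≤ quadSimilarityGroup Q) := by
  classical
  have hr := C.prime
  have hhabs := habs_of_spanG C.span
  have hι1 : 1 < Fintype.card ι := by omega
  obtain ⟨a, ha, hans⟩ := exists_nonscalar_of_irr (by omega) C.irr
  obtain ⟨b, hb, hab⟩ : ∃ b ∈ R, a * b ≠ b * a := by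
    by_contra hall
    push Not at hall
    exact hans (C.central_scalar hall)
  obtain ⟨ξ, hξ, hc⟩ := C.comm a ha b hb
  have hξ1 : ξ ≠ 1 := by
    rintro rfl
    apply hab
    rw [hc, map_one, one_mul]
  have : Fact r.Prime := ⟨hr⟩
  have hord : orderOf ξ = r := orderOf_eq_prime hξ hξ1
  have hprim : IsPrimitiveRoot (ξ : F) r := by
    have h1 := IsPrimitiveRoot.orderOf ξ
    rw [hord] at h1
    exact (IsPrimitiveRoot.coe_units_iff).mpr h1
  have hρ0 : (r * Nat.gcd 2 r) ≠ 0 := (Nat.mul_pos hr.pos (Nat.gcd_pos_of_pos_left _ (by norm_num))).ne'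
  by_cases hω : ∃ ω : F, IsPrimitiveRoot ω (r * Nat.gcd 2 r)
  · obtain ⟨ω, hω⟩ := hω
    obtain ⟨bs, hbs⟩ := C.exists_monomial hω
    have hpowω : ∀ x : F, x ^ (r * Nat.gcd 2 r) = 1 → ∃ u : ℕ, ω ^ u = x := by
      intro x hx
      have : NeZero (r * Nat.gcd 2 r) := ⟨hρ0⟩
      obtain ⟨i, -, hi⟩ := hω.eq_pow_of_pow_eq_one hx
      exact ⟨i, hi⟩
    obtain ⟨P₀, hP₀⟩ := exists_gl_of_bases (Pi.basisFun F ι) bs
    have hP₀' : ∀ j, (P₀ : Matrix ι ι F) *ᵥ Pi.single j 1 = bs j := by
      intro j
      have := hP₀ j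
      simpa only [Pi.basisFun_apply] using this
    have hreal : ∀ F₀ : Subfield F, ω ∈ F₀ → ∀ s ∈ R, ∀ i j,
        (((P₀⁻¹ : GL ι F) : Matrix ι ι F) * (s : Matrix ι ι F) * (((P₀⁻¹)⁻¹ : GL ι F) : Matrix ι ι F)) i j ∈ F₀ := by
      intro F₀ hωF s hs i j
      obtain ⟨π, -, c, hc1, hc2⟩ := hbs s hs
      rw [inv_inv]
      have e2 : (((P₀⁻¹ : GL ι F) : Matrix ι ι F) * (s : Matrix ι ι F) * (P₀ : Matrix ι ι F)) i j =
          ((((P₀⁻¹ : GL ι F) : Matrix ι ι F) * (s : Matrix ι ι F) * (P₀ : Matrix ι ι F)) *ᵥ Pi.single j 1) i := by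
        rw [Matrix.mulVec_single_one]
        rfl
      rw [e2, ← Matrix.mulVec_mulVec, ← Matrix.mulVec_mulVec, hP₀', hc2, Matrix.mulVec_smul, ← hP₀', gl_inv_mulVec]
      simp only [Pi.smul_apply, Pi.single_apply, smul_eq_mul]
      obtain ⟨u, hu⟩ := hpowω _ (hc1 j)
      rw [← hu]
      split_ifs
      · rw [mul_one]
        exact F₀.pow_mem hωF _
      · rw [mul_zero]
        exact F₀.zero_mem
    have hsub : ∀ F₀ : Subfield F, F₀ ≠ ⊤ → ω ∈ F₀ →
        ∃ (F₁ : Subfield F) (q : ℕ) (P : GL ι F), q.Prime ∧ Fintype.card F = Nat.card F₁ ^ q ∧ H ≤ subfieldSubgroup F₁ P := by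
      intro F₀ hF₀ hωF
      obtain ⟨F₁, q, hq, hle, hcard⟩ := exists_prime_index_subfield hF₀
      refine ⟨F₁, q, (P₀⁻¹)⁻¹, hq, by rw [← Nat.card_eq_fintype_card]; exact hcard, fun h hh => ?_⟩
      exact mem_subfieldSubgroup_of_normalize hhabs (fun s hs i j => hreal F₁ (hle hωF) s hs i j) (hH h hh)
    have huni : ∀ σ : F ≃+* F, σ ≠ RingEquiv.refl F → (∀ a, σ (σ a) = a) → ω * σ ω = 1 →
        ∃ (σ : F ≃+* F) (f : (ι → F) → (ι → F) → F), IsUnitaryForm σ f ∧ H ≤ similarityGroup f := by
      intro σ h1 h2 h3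
      refine ⟨σ, stdForm bs (σ : F →+* F), stdForm_unitary bs σ h1 h2, fun h hh => ?_⟩
      refine normalize_mem_sim hhabs (stdForm_sesq bs (σ : F →+* F)) (fun v hv => (stdForm_nondeg bs _ v hv).2)
        (fun g hg u v => ?_) (hH h hh)
      obtain ⟨π, hπ, c, hc1, hc2⟩ := hbs g hg
      refine stdForm_mono bs (σ : F →+* F) hπ (fun k => ?_) hc2 u v
      obtain ⟨m, hm⟩ := hpowω _ (hc1 k)
      rw [← hm, map_pow, ← _root_.mul_pow]
      simp only [RingEquiv.coe_toRingHom]
      rw [h3, one_pow]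
    obtain ⟨m, hm, hcardR⟩ := C.card_eq
    have hm0 : m ≠ 0 := by
      rintro rfl
      rw [pow_zero] at hm
      omega
    have hZ := C.card_center hω
    have hZ' := C.card_center' hω
    by_cases hr2 : r = 2
    · subst hr2
      have hgcd : Nat.gcd 2 2 = 2 := by norm_num
      rw [hgcd] at hω hZ hZ'
      rcases field_analysis4 hω with ⟨F₀, h1, h2⟩ | ⟨p, hp2, hmin⟩ | ⟨σ, h1, h2, h3⟩
      · exact Or.inl (hsub F₀ h1 h2)
      · refine Or.inr (Or.inl ⟨2, R, ⟨C.symplecticType (by rwa [hgcd]), actsAbs_of_spanG C.span, p, 1, hp2, ?_, Or.inr (Or.inl ⟨rfl, rfl, hZ', ?_, m, ?_⟩)⟩, nrm_normalizer hH⟩)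
        · rw [hZ']
          exact hmin
        · rw [hm]
          rcases m with _ | _ | m
          · exact absurd rfl hm0
          · rw [hm] at hn
            simp at hn
          · rw [pow_add, pow_add]
            have : 1 ≤ 2 ^ m := Nat.one_le_two_pow
            omega
        · rw [hcardR, hZ, pow_add]
          norm_num
      · exact Or.inr (Or.inr (Or.inl (huni σ h1 h2 h3)))
    · have hgcd : Nat.gcd 2 r = 1 := (Nat.coprime_primes Nat.prime_two hr).mpr (Ne.symm hr2)
      have hodd : Odd r := hr.odd_of_ne_two hr2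
      rw [hgcd, mul_one] at hZ hZ'
      have hω1 : IsPrimitiveRoot ω r := by
        rwa [hgcd, mul_one] at hω
      have : NeZero r := ⟨hr.ne_zero⟩
      rcases field_analysis hω1 hr hodd with ⟨F₀, h1, h2⟩ | ⟨p, e, hrp, he, hmin⟩ | ⟨σ, h1, h2, h3⟩
      · exact Or.inl (hsub F₀ h1 h2)
      · refine Or.inr (Or.inl ⟨r, R, ⟨C.symplecticType hω, actsAbs_of_spanG C.span, p, e, hrp, ?_, Or.inl ⟨hodd, he, hZ', m, ?_, ?_⟩⟩, nrm_normalizer hH⟩)
        · rw [hZ']
          exact hmin
        · omega
        · rw [hcardR, hZ, pow_add, pow_one]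
      · exact Or.inr (Or.inr (Or.inl (huni σ h1 h2 h3)))
  · -- no primitive root: `r = 2`
    have hr2 : r = 2 := by
      by_contra hr2
      apply hω
      have hgcd : Nat.gcd 2 r = 1 := (Nat.coprime_primes Nat.prime_two hr).mpr (Ne.symm hr2)
      rw [hgcd, mul_one]
      exact ⟨_, hprim⟩
    subst hr2
    have hgcd : Nat.gcd 2 2 = 2 := by norm_num
    have hξm : (ξ : F) = -1 := by
      have h1 : ((ξ : F) - 1) * ((ξ : F) + 1) = 0 := by
        have h2 := hprim.pow_eq_one
        linear_combination h2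
      rcases mul_eq_zero.mp h1 with h | h
      · exfalso
        apply hξ1
        exact Units.ext (by rw [sub_eq_zero.mp h, Units.val_one])
      · exact eq_neg_of_add_eq_zero_left h
    have h2ne : (2 : F) ≠ 0 := by
      intro h
      apply hξ1
      apply Units.ext
      rw [hξm, Units.val_one]
      linear_combination -h
    have hsc : ∀ c : Fˣ, (scU c : GL ι F) ∈ R → c * c = 1 := by
      intro c hc
      have h1 := C.pow _ hc
      rw [hgcd, ← map_pow] at h1
      have h2 : c ^ (2 * 2) = 1 := by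
        apply scU_injective (ι := ι)
        rw [h1, map_one]
      have h3 : ((c : F) ^ 2 - 1) * ((c : F) ^ 2 + 1) = 0 := by
        have h4 : (c : F) ^ (2 * 2) = 1 := by
          rw [← Units.val_pow_eq_pow_val, h2, Units.val_one]
        linear_combination h4
      rcases mul_eq_zero.mp h3 with h | h
      · apply Units.ext
        rw [Units.val_mul, Units.val_one, ← pow_two]
        exact sub_eq_zero.mp h
      · exfalso
        apply hω
        rw [hgcd]
        refine ⟨c, ?_⟩
        have hc2 : (c : F) ^ 2 = -1 := eq_neg_of_add_eq_zero_left h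
        have h4 : (c : F) ^ (2 * 2) = 1 := by
          rw [pow_mul, hc2]
          norm_num
        have h5 : ¬ ((c : F) ^ 2 = 1) := by
          rw [hc2]
          intro h6
          apply h2ne
          linear_combination -h6
        have : Fact (Nat.Prime 2) := ⟨Nat.prime_two⟩
        have hoc : orderOf (c : F) = 2 ^ (1 + 1) := orderOf_eq_prime_pow (by simpa using h5) (by simpa using h4)
        have h6 := IsPrimitiveRoot.orderOf (c : F)
        rw [hoc] at h6
        exact h6
    have hoddF : Odd (Fintype.card F) := by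
      have hne : ringChar F ≠ 2 := by
        intro h
        apply h2ne
        have : CharP F 2 := by
          rw [← h]
          exact ringChar.charP F
        exact CharTwo.two_eq_zero
      exact Nat.odd_iff.mpr (FiniteField.odd_card_of_char_ne_two hne)
    rcases C.form_branch hsc h2ne with ⟨f, hf, hinv⟩ | ⟨Q, hQ, hinv⟩
    · refine Or.inr (Or.inr (Or.inr (Or.inl ⟨f, hf, fun h hh => ?_⟩)))
      exact normalize_mem_sim hhabs (sesq_of_bilinear hf.bilinear) (fun v hv => (hf.nondegenerate v hv).2) hinv (hH h hh)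
    · refine Or.inr (Or.inr (Or.inr (Or.inr ⟨Q, hQ, hoddF, fun h hh => ?_⟩)))
      exact normalize_mem_quadSim hhabs hQ h2ne hinv (hH h hh)

end Cfsg.Agent.H97.Asch
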