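import Cfsg.Agent.Lib.H97Alg

/-!
Matrix units, the Skolem-Noether theorem for matrix algebras, change of coordinates, tensor factorisations.
-/

set_option autoImplicit false
set_option linter.unusedSectionVars false
set_option linter.style.haveILetI false

namespace Cfsg.Agent.H97.Asch

open Matrix Cfsg Cfsg.Geo
open scoped MatrixGroups Kronecker

variable {F : Type*} [Field F]

section units

variable {κ : Type} [Fintype κ] [DecidableEq κ] {R : Type*} [Ring R] [Algebra F R]

theorem single_mul_single_ite (a b c d : κ) :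
    (Matrix.single a b (1 : F)) * Matrix.single c d 1 = if b = c then Matrix.single a d 1 else 0 := by
  split_ifs with h
  · subst h
    simp
  · simp [h]

theorem single_mulVec_single (a c d : κ) :
    (Matrix.single a c (1 : F)) *ᵥ (Pi.single d 1 : κ → F) = if c = d then Pi.single a 1 else 0 := by
  rw [Matrix.single_mulVec]
  funext i
  by_cases hcd : c = d
  · subst hcd
    simp [Function.update_apply, Pi.single_apply]
  · simp [Function.update_apply, hcd, Pi.single_apply, Ne.symm hcd]

theorem algHom_single_mul (φ : Matrix κ κ F →ₐ[F] R) (a b c d : κ) :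
    φ (Matrix.single a b 1) * φ (Matrix.single c d 1) =
      if b = c then φ (Matrix.single a d 1) else 0 := by
  rw [← map_mul, single_mul_single_ite]
  split_ifs <;> simp

theorem algHom_sum_single (φ : Matrix κ κ F →ₐ[F] R) : ∑ a, φ (Matrix.single a a 1) = 1 := by
  rw [← map_sum, Matrix.sum_single_one, map_one]

/-- two linear maps on matrices agreeing on matrix units agree. -/
theorem linearMap_ext_single {V : Type*} [AddCommMonoid V] [Module F V] {f g : Matrix κ κ F →ₗ[F] V}
    (h : ∀ a c, f (Matrix.single a c 1) = g (Matrix.single a c 1)) : f = g := by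
  apply LinearMap.ext
  intro M
  rw [Matrix.matrix_eq_sum_single M, map_sum, map_sum]
  refine Finset.sum_congr rfl fun a _ => ?_
  rw [map_sum, map_sum]
  refine Finset.sum_congr rfl fun c _ => ?_
  have e : Matrix.single a c (M a c) = (M a c) • Matrix.single a c (1 : F) := by
    rw [Matrix.smul_single, smul_eq_mul, mul_one]
  rw [e, map_smul, map_smul, h]

/-- **Skolem-Noether** for matrix algebras over a field. -/
theorem sn_matrix [Nonempty κ] (φ : Matrix κ κ F →ₐ[F] Matrix κ κ F) :
    ∃ T : GL κ F, ∀ x, φ x = (T : Matrix κ κ F) * x * ((T⁻¹ : GL κ F) : Matrix κ κ F) := by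
  classical
  obtain ⟨a₀⟩ := ‹Nonempty κ›
  set f : κ → κ → Matrix κ κ F := fun a b => φ (Matrix.single a b 1) with hf
  have hrel : ∀ a b c d, f a b * f c d = if b = c then f a d else 0 := fun a b c d => algHom_single_mul φ a b c d
  have hsum : ∑ a, f a a = 1 := algHom_sum_single φ
  have h00 : f a₀ a₀ ≠ 0 := by
    intro h0
    have h1 : ∀ a, f a a = 0 := by
      intro a
      have e : f a a = f a a₀ * f a₀ a₀ * f a₀ a := by
        rw [hrel, if_pos rfl, hrel, if_pos rfl]
      rw [e, h0]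
      simp
    rw [Finset.sum_eq_zero (fun a _ => h1 a)] at hsum
    haveI : Nonempty κ := ⟨a₀⟩
    exact zero_ne_one hsum
  obtain ⟨w, hw⟩ : ∃ w, f a₀ a₀ *ᵥ w ≠ 0 := by
    by_contra hall
    push Not at hall
    apply h00
    apply Matrix.toLin'.injective
    apply LinearMap.ext
    intro v
    simpa [Matrix.toLin'_apply] using hall v
  set u := f a₀ a₀ *ᵥ w with hu
  have hact : ∀ a b c, f a b *ᵥ (f c a₀ *ᵥ u) = if b = c then f a a₀ *ᵥ u else 0 := by
    intro a b c
    rw [Matrix.mulVec_mulVec, hrel]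
    split_ifs <;> simp
  have h0u : f a₀ a₀ *ᵥ u = u := by
    rw [hu, Matrix.mulVec_mulVec, hrel, if_pos rfl]
  have hind : LinearIndependent F (fun a => f a a₀ *ᵥ u) := by
    rw [Fintype.linearIndependent_iff]
    intro g hg b
    have h1 := congrArg (fun v => f a₀ b *ᵥ v) hg
    simp only [Matrix.mulVec_sum, Matrix.mulVec_smul, hact, Matrix.mulVec_zero] at h1
    rw [Finset.sum_eq_single b] at h1
    · rw [if_pos rfl, h0u] at h1
      exact (smul_eq_zero.mp h1).resolve_right hw
    · intro c _ hc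
      rw [if_neg (Ne.symm hc), smul_zero]
    · simp
  let b := basisOfLinearIndependentOfCardEqFinrank hind (by simp)
  obtain ⟨T, hT⟩ := exists_gl_of_bases (Pi.basisFun F κ) b
  have hTb : ∀ a, (T : Matrix κ κ F) *ᵥ Pi.single a 1 = f a a₀ *ᵥ u := by
    intro a
    have := hT a
    simpa [b] using this
  refine ⟨T, fun x => ?_⟩
  have key : ∀ x, φ x * (T : Matrix κ κ F) = (T : Matrix κ κ F) * x := by
    intro x
    have hlin : (LinearMap.mulRight F (T : Matrix κ κ F)).comp φ.toLinearMap =
        LinearMap.mulLeft F (T : Matrix κ κ F) := by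
      apply linearMap_ext_single
      intro a c
      simp only [LinearMap.comp_apply, LinearMap.mulRight_apply, LinearMap.mulLeft_apply, AlgHom.toLinearMap_apply]
      apply Matrix.toLin'.injective
      apply LinearMap.pi_ext'
      intro d
      apply LinearMap.ext_ring
      simp only [LinearMap.comp_apply, LinearMap.single_apply, Matrix.toLin'_apply]
      rw [← Matrix.mulVec_mulVec, ← Matrix.mulVec_mulVec, hTb]
      change f a c *ᵥ (f d a₀ *ᵥ u) = _
      rw [hact, single_mulVec_single]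
      split_ifs
      · rw [hTb]
      · rw [Matrix.mulVec_zero]
    exact LinearMap.congr_fun hlin x
  calc φ x = φ x * ((T : Matrix κ κ F) * ((T⁻¹ : GL κ F) : Matrix κ κ F)) := by
        rw [← Units.val_mul, mul_inv_cancel, Units.val_one, Matrix.mul_one]
    _ = _ := by rw [← Matrix.mul_assoc, key]

end units

section coords

variable {ι X : Type} [Fintype ι] [DecidableEq ι] [Fintype X] [DecidableEq X]

/-- the matrix of a linear map in the basis `b`. -/
noncomputable def coordA (b : Module.Basis X F (ι → F)) : Matrix ι ι F ≃ₐ[F] Matrix X X F :=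
  (Matrix.toLinAlgEquiv' : Matrix ι ι F ≃ₐ[F] Module.End F (ι → F)).trans (LinearMap.toMatrixAlgEquiv b)

theorem coordA_apply (b : Module.Basis X F (ι → F)) (A : Matrix ι ι F) (x y : X) :
    coordA b A x y = b.repr (A *ᵥ b y) x := by
  simp [coordA, LinearMap.toMatrixAlgEquiv_apply, Matrix.toLinAlgEquiv'_apply]

/-- the matrix of an invertible linear map in the basis `b`. -/
noncomputable def coordG (b : Module.Basis X F (ι → F)) : GL ι F ≃* GL X F :=
  Units.mapEquiv (coordA b).toMulEquiv

theorem coordG_val (b : Module.Basis X F (ι → F)) (g : GL ι F) :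
    (coordG b g : Matrix X X F) = coordA b (g : Matrix ι ι F) := rfl

theorem glReindex_apply (e : ι ≃ X) (h : GL X F) (k j : ι) :
    (glReindex e.symm h : Matrix ι ι F) k j = (h : Matrix X X F) (e k) (e j) := by
  simp [glReindex, Matrix.coe_reindexAlgEquiv]

theorem exists_conj_coord (b : Module.Basis X F (ι → F)) (e : ι ≃ X) :
    ∃ P : GL ι F, ∀ g : GL ι F, P * glReindex e.symm (coordG b g) * P⁻¹ = g := by
  classical
  obtain ⟨P, hP⟩ := exists_gl_of_bases (Pi.basisFun F ι) (b.reindex e.symm)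
  have hPb : ∀ j, (P : Matrix ι ι F) *ᵥ Pi.single j 1 = b (e j) := by
    intro j
    have := hP j
    simpa using this
  refine ⟨P, fun g => ?_⟩
  have key : (P * glReindex e.symm (coordG b g) : GL ι F) = g * P := by
    apply Units.ext
    apply Matrix.toLin'.injective
    apply LinearMap.pi_ext'
    intro j
    apply LinearMap.ext_ring
    simp only [LinearMap.comp_apply, LinearMap.single_apply, Matrix.toLin'_apply, Units.val_mul]
    rw [← Matrix.mulVec_mulVec, ← Matrix.mulVec_mulVec, hPb]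
    -- expand
    have h1 : ((glReindex e.symm (coordG b g) : GL ι F) : Matrix ι ι F) *ᵥ Pi.single j 1 =
        ∑ k, (coordA b (g : Matrix ι ι F) (e k) (e j)) • Pi.single k 1 := by
      funext i
      rw [Matrix.mulVec_single_one]
      simp only [Finset.sum_apply, Pi.smul_apply, Pi.single_apply, smul_eq_mul, mul_ite, mul_one, mul_zero,
        Finset.sum_ite_eq, Finset.mem_univ, if_true, Matrix.col_apply]
      rw [glReindex_apply, coordG_val]
    rw [h1, Matrix.mulVec_sum]
    simp only [Matrix.mulVec_smul, hPb]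
    have h2 := b.sum_repr ((g : Matrix ι ι F) *ᵥ b (e j))
    rw [← h2, ← e.sum_comp]
    refine Finset.sum_congr rfl fun k _ => ?_
    rw [coordA_apply]
  rw [key, mul_inv_cancel_right]

theorem mem_tensorProduct_of_coord {n₁ n₂ : ℕ} {b : Module.Basis (Fin n₁ × Fin n₂) F (ι → F)} {e : ι ≃ Fin n₁ × Fin n₂}
    {P : GL ι F} (hP : ∀ g : GL ι F, P * glReindex e.symm (coordG b g) * P⁻¹ = g) {g : GL ι F}
    (hg : coordG b g ∈ kroneckerSubgroup n₁ n₂ F) : g ∈ tensorProductSubgroup n₁ n₂ e P :=
  ⟨glReindex e.symm (coordG b g), ⟨coordG b g, hg, rfl⟩, hP g⟩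

theorem mem_tensorWreath_of_coord {m t : ℕ} {b : Module.Basis (Fin t → Fin m) F (ι → F)} {e : ι ≃ (Fin t → Fin m)}
    {P : GL ι F} (hP : ∀ g : GL ι F, P * glReindex e.symm (coordG b g) * P⁻¹ = g) {g : GL ι F}
    (hg : coordG b g ∈ tensorWreathStandard m t F) : g ∈ tensorWreathSubgroup m t e P :=
  ⟨glReindex e.symm (coordG b g), ⟨coordG b g, hg, rfl⟩, hP g⟩

end coords

section twofold

variable {ι : Type} [Fintype ι] [DecidableEq ι]

/-- Matrix units of a central simple subalgebra produce a tensor basis. -/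
theorem exists_tensor_basis {d : ℕ} [NeZero d] (ψ : Matrix (Fin d) (Fin d) F →ₐ[F] Matrix ι ι F) :
    ∃ (m : ℕ) (b : Module.Basis (Fin d × Fin m) F (ι → F)), ∀ (a c : Fin d) (x : Fin d × Fin m),
      ψ (Matrix.single a c 1) *ᵥ b x = if c = x.1 then b (a, x.2) else 0 := by
  classical
  set E : Fin d → Fin d → Matrix ι ι F := fun a c => ψ (Matrix.single a c 1) with hE
  have hrel : ∀ a b c e, E a b * E c e = if b = c then E a e else 0 := fun a b c e => algHom_single_mul ψ a b c e
  have hsum : ∑ a, E a a = 1 := algHom_sum_single ψ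
  let W : Submodule F (ι → F) := LinearMap.range (Matrix.toLin' (E 0 0))
  let wb := Module.finBasis F W
  set m := Module.finrank F W with hm
  let v : Fin d × Fin m → (ι → F) := fun x => E x.1 0 *ᵥ (wb x.2 : ι → F)
  have hWfix : ∀ w ∈ W, E 0 0 *ᵥ w = w := by
    rintro _ ⟨u, rfl⟩
    simp only [Matrix.toLin'_apply, Matrix.mulVec_mulVec]
    rw [hrel, if_pos rfl]
  have hact : ∀ a c x, E a c *ᵥ v x = if c = x.1 then v (a, x.2) else 0 := by
    intro a c x
    simp only [v]
    rw [Matrix.mulVec_mulVec, hrel]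
    split_ifs <;> simp
  have hind : LinearIndependent F v := by
    rw [Fintype.linearIndependent_iff]
    intro g hg x
    have h1 := congrArg (fun u => E 0 x.1 *ᵥ u) hg
    simp only [Matrix.mulVec_sum, Matrix.mulVec_smul, hact, Matrix.mulVec_zero] at h1
    rw [Fintype.sum_prod_type, Finset.sum_eq_single x.1] at h1
    · simp only [if_true] at h1
      have h2 : ∀ c : Fin m, v (0, c) = (wb c : ι → F) := fun c => hWfix _ (wb c).2
      simp only [h2] at h1
      have h3 : ∑ c, g (x.1, c) • wb c = 0 := by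
        apply Subtype.ext
        simpa using h1
      exact (Fintype.linearIndependent_iff.mp wb.linearIndependent _ h3) x.2
    · intro a _ ha
      simp [Ne.symm ha]
    · simp
  have hspan : ⊤ ≤ Submodule.span F (Set.range v) := by
    intro u _
    have h1 : u = ∑ a, E a a *ᵥ u := by
      rw [← Matrix.sum_mulVec, hsum, Matrix.one_mulVec]
    rw [h1]
    refine Submodule.sum_mem _ fun a _ => ?_
    have h2 : E a a *ᵥ u = E a 0 *ᵥ (E 0 0 *ᵥ (E 0 a *ᵥ u)) := by
      rw [Matrix.mulVec_mulVec, Matrix.mulVec_mulVec, hrel, if_pos rfl, hrel, if_pos rfl]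
    rw [h2]
    have h3 : E 0 0 *ᵥ (E 0 a *ᵥ u) ∈ W := ⟨_, rfl⟩
    have h4 := wb.sum_repr ⟨_, h3⟩
    have h5 : E 0 0 *ᵥ (E 0 a *ᵥ u) = ∑ c, (wb.repr ⟨_, h3⟩ c) • (wb c : ι → F) := by
      have h6 := congrArg Subtype.val h4
      rw [Submodule.coe_sum] at h6
      exact h6.symm
    rw [h5, Matrix.mulVec_sum]
    refine Submodule.sum_mem _ fun c _ => ?_
    rw [Matrix.mulVec_smul]
    exact Submodule.smul_mem _ _ (Submodule.subset_span ⟨(a, c), rfl⟩)
  let b := Module.Basis.mk hind hspan
  refine ⟨m, b, fun a c x => ?_⟩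
  have hb : ∀ x, b x = v x := fun x => by simp [b]
  rw [hb, hb]
  exact hact a c x

/-- Matrices commuting with `M ⊗ 1` are of the form `1 ⊗ N`. -/
theorem commute_kron_one {d m : ℕ} [NeZero d] (s : Matrix (Fin d × Fin m) (Fin d × Fin m) F)
    (h : ∀ a c : Fin d, (Matrix.single a c (1 : F) ⊗ₖ (1 : Matrix (Fin m) (Fin m) F)) * s =
      s * (Matrix.single a c (1 : F) ⊗ₖ (1 : Matrix (Fin m) (Fin m) F))) :
    s = (1 : Matrix (Fin d) (Fin d) F) ⊗ₖ (Matrix.of fun u v => s (0, u) (0, v)) := by
  classical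
  have hl : ∀ (a c : Fin d) (M : Matrix (Fin d × Fin m) (Fin d × Fin m) F) (x y : Fin d × Fin m),
      ((Matrix.single a c (1 : F) ⊗ₖ (1 : Matrix (Fin m) (Fin m) F)) * M) x y =
        if x.1 = a then M (c, x.2) y else 0 := by
    rintro a c M ⟨x₁, x₂⟩ y
    rw [Matrix.mul_apply, Finset.sum_eq_single (c, x₂)]
    · simp only [Matrix.kronecker_apply, Matrix.one_apply_eq, mul_one, Matrix.single_apply]
      by_cases hx : x₁ = a
      · simp [hx]
      · simp [hx, Ne.symm hx]
    · rintro ⟨e, u⟩ _ hne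
      simp only [Matrix.kronecker_apply, Matrix.single_apply, Matrix.one_apply]
      by_cases he : e = c
      · subst he
        have hu : x₂ ≠ u := fun hh => hne (by rw [hh])
        simp [hu]
      · simp [Ne.symm he]
    · simp
  have hr : ∀ (a c : Fin d) (M : Matrix (Fin d × Fin m) (Fin d × Fin m) F) (x y : Fin d × Fin m),
      (M * (Matrix.single a c (1 : F) ⊗ₖ (1 : Matrix (Fin m) (Fin m) F))) x y =
        if y.1 = c then M x (a, y.2) else 0 := by
    rintro a c M x ⟨y₁, y₂⟩
    rw [Matrix.mul_apply, Finset.sum_eq_single (a, y₂)]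
    · simp only [Matrix.kronecker_apply, Matrix.one_apply_eq, mul_one, Matrix.single_apply]
      by_cases hy : y₁ = c
      · simp [hy]
      · simp [hy, Ne.symm hy]
    · rintro ⟨e, u⟩ _ hne
      simp only [Matrix.kronecker_apply, Matrix.single_apply, Matrix.one_apply]
      by_cases he : e = a
      · subst he
        have hu : u ≠ y₂ := fun hh => hne (by rw [hh])
        simp [hu]
      · simp [Ne.symm he]
    · simp
  have key : ∀ (a c : Fin d) (x y : Fin d × Fin m),
      (if x.1 = a then s (c, x.2) y else 0) = if y.1 = c then s x (a, y.2) else 0 := by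
    intro a c x y
    rw [← hl, ← hr, h]
  ext ⟨a, u⟩ ⟨c, v⟩
  simp only [Matrix.kronecker_apply, Matrix.one_apply, Matrix.of_apply]
  by_cases hac : a = c
  · subst hac
    have h1 := key a 0 (a, u) (0, v)
    simp at h1
    simp [h1]
  · have h1 := key a a (a, u) (c, v)
    simp [Ne.symm hac] at h1
    simp [hac, h1]

theorem kron_one_inj {d m : ℕ} [NeZero m] {M N : Matrix (Fin d) (Fin d) F}
    (h : M ⊗ₖ (1 : Matrix (Fin m) (Fin m) F) = N ⊗ₖ (1 : Matrix (Fin m) (Fin m) F)) : M = N := by
  ext a c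
  have := congrFun (congrFun h (a, 0)) (c, 0)
  simpa using this

/-- If `g` normalises `M_d ⊗ 1`, then it is a Kronecker product. -/
theorem mem_kronecker_of_normalize {d m : ℕ} [NeZero d] [NeZero m] (g : GL (Fin d × Fin m) F)
    (h : ∀ M : Matrix (Fin d) (Fin d) F, ∃ M' : Matrix (Fin d) (Fin d) F,
      (g : Matrix (Fin d × Fin m) (Fin d × Fin m) F) * (M ⊗ₖ (1 : Matrix (Fin m) (Fin m) F)) *
        ((g⁻¹ : GL (Fin d × Fin m) F) : Matrix (Fin d × Fin m) (Fin d × Fin m) F) = M' ⊗ₖ (1 : Matrix (Fin m) (Fin m) F)) :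
    g ∈ kroneckerSubgroup d m F := by
  classical
  set G : Matrix (Fin d × Fin m) (Fin d × Fin m) F := (g : Matrix (Fin d × Fin m) (Fin d × Fin m) F) with hG
  set Gi : Matrix (Fin d × Fin m) (Fin d × Fin m) F :=
    ((g⁻¹ : GL (Fin d × Fin m) F) : Matrix (Fin d × Fin m) (Fin d × Fin m) F) with hGi
  have hGG : Gi * G = 1 := by
    rw [hG, hGi, ← Units.val_mul, inv_mul_cancel, Units.val_one]
  choose φf hφf using h
  let φ : Matrix (Fin d) (Fin d) F →ₐ[F] Matrix (Fin d) (Fin d) F :=
    AlgHom.ofLinearMap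
      { toFun := φf
        map_add' := fun M N => by
          apply kron_one_inj (m := m)
          rw [← hφf, Matrix.add_kronecker, Matrix.mul_add, Matrix.add_mul, hφf, hφf, Matrix.add_kronecker]
        map_smul' := fun c M => by
          apply kron_one_inj (m := m)
          rw [← hφf, Matrix.smul_kronecker, Matrix.mul_smul, Matrix.smul_mul, hφf, RingHom.id_apply,
            Matrix.smul_kronecker] }
      (by
        apply kron_one_inj (m := m)
        show φf 1 ⊗ₖ (1 : Matrix (Fin m) (Fin m) F) = _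
        rw [← hφf, Matrix.one_kronecker_one, Matrix.mul_one, hG, hGi, ← Units.val_mul, mul_inv_cancel,
          Units.val_one])
      (fun M N => by
        apply kron_one_inj (m := m)
        show φf (M * N) ⊗ₖ (1 : Matrix (Fin m) (Fin m) F) = (φf M * φf N) ⊗ₖ (1 : Matrix (Fin m) (Fin m) F)
        have e1 : (M * N) ⊗ₖ (1 : Matrix (Fin m) (Fin m) F) =
            (M ⊗ₖ (1 : Matrix (Fin m) (Fin m) F)) * (N ⊗ₖ (1 : Matrix (Fin m) (Fin m) F)) := by
          rw [← Matrix.mul_kronecker_mul, Matrix.mul_one]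
        have e2 : (φf M * φf N) ⊗ₖ (1 : Matrix (Fin m) (Fin m) F) =
            (φf M ⊗ₖ (1 : Matrix (Fin m) (Fin m) F)) * (φf N ⊗ₖ (1 : Matrix (Fin m) (Fin m) F)) := by
          rw [← Matrix.mul_kronecker_mul, Matrix.mul_one]
        rw [← hφf, e1, e2, ← hφf, ← hφf]
        calc G * ((M ⊗ₖ (1 : Matrix (Fin m) (Fin m) F)) * (N ⊗ₖ (1 : Matrix (Fin m) (Fin m) F))) * Gi
            = G * (M ⊗ₖ (1 : Matrix (Fin m) (Fin m) F)) * (Gi * G) * (N ⊗ₖ (1 : Matrix (Fin m) (Fin m) F)) * Gi := by
              rw [hGG]; simp only [Matrix.mul_one, Matrix.mul_assoc]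
          _ = _ := by simp only [Matrix.mul_assoc])
  have hφ : ∀ M, φ M = φf M := fun M => rfl
  obtain ⟨T, hT⟩ := sn_matrix φ
  set Tm : Matrix (Fin d) (Fin d) F := (T : Matrix (Fin d) (Fin d) F) with hTm
  set Ti : Matrix (Fin d) (Fin d) F := ((T⁻¹ : GL (Fin d) F) : Matrix (Fin d) (Fin d) F) with hTi
  have hTT : Tm * Ti = 1 := by
    rw [hTm, hTi, ← Units.val_mul, mul_inv_cancel, Units.val_one]
  have hTT' : Ti * Tm = 1 := by
    rw [hTm, hTi, ← Units.val_mul, inv_mul_cancel, Units.val_one]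
  let A : Matrix (Fin d × Fin m) (Fin d × Fin m) F := Tm ⊗ₖ (1 : Matrix (Fin m) (Fin m) F)
  let Ai : Matrix (Fin d × Fin m) (Fin d × Fin m) F := Ti ⊗ₖ (1 : Matrix (Fin m) (Fin m) F)
  have hAAi : Ai * A = 1 := by
    simp only [A, Ai]
    rw [← Matrix.mul_kronecker_mul, hTT', Matrix.mul_one, Matrix.one_kronecker_one]
  have hAAi' : A * Ai = 1 := mul_eq_one_comm.mp hAAi
  set s : Matrix (Fin d × Fin m) (Fin d × Fin m) F := Ai * G with hs
  have hcomm : ∀ M : Matrix (Fin d) (Fin d) F,
      (M ⊗ₖ (1 : Matrix (Fin m) (Fin m) F)) * s = s * (M ⊗ₖ (1 : Matrix (Fin m) (Fin m) F)) := by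
    intro M
    have h1 : G * (M ⊗ₖ (1 : Matrix (Fin m) (Fin m) F)) = (φf M ⊗ₖ (1 : Matrix (Fin m) (Fin m) F)) * G := by
      rw [← hφf M]
      rw [Matrix.mul_assoc _ Gi G, hGG, Matrix.mul_one]
    have h2 : φf M ⊗ₖ (1 : Matrix (Fin m) (Fin m) F) = A * (M ⊗ₖ (1 : Matrix (Fin m) (Fin m) F)) * Ai := by
      simp only [A, Ai]
      rw [← hφ, hT, ← Matrix.mul_kronecker_mul, ← Matrix.mul_kronecker_mul]
      simp
    rw [hs, Matrix.mul_assoc Ai G, h1, h2]
    calc (M ⊗ₖ (1 : Matrix (Fin m) (Fin m) F)) * (Ai * G) = (Ai * A) * (M ⊗ₖ (1 : Matrix (Fin m) (Fin m) F)) * (Ai * G) := by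
          rw [hAAi, Matrix.one_mul]
      _ = _ := by simp only [Matrix.mul_assoc]
  have hsform := commute_kron_one s (fun a c => hcomm _)
  set N : Matrix (Fin m) (Fin m) F := Matrix.of fun u v => s (0, u) (0, v) with hN
  have hG' : G = Tm ⊗ₖ N := by
    have h1 : G = A * s := by
      rw [hs, ← Matrix.mul_assoc, hAAi', Matrix.one_mul]
    rw [h1, hsform]
    simp only [A]
    rw [← Matrix.mul_kronecker_mul, Matrix.mul_one, Matrix.one_mul]
  have hdetG : G.det ≠ 0 := by
    have := (Matrix.isUnit_iff_isUnit_det _).mp g.isUnit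
    exact this.ne_zero
  have hdetN : N.det ≠ 0 := by
    intro h0
    apply hdetG
    rw [hG', Matrix.det_kronecker, h0, zero_pow, mul_zero]
    simp
    exact NeZero.ne d
  exact ⟨T, Matrix.GeneralLinearGroup.mkOfDetNeZero N hdetN, hG'⟩

/-- a normalised matrix subalgebra forces a tensor factorisation. -/
theorem tensor_of_algEquiv [Nonempty ι] {H : Subgroup (GL ι F)} {B : Subalgebra F (Matrix ι ι F)} (hB : NormAlg H B)
    {d : ℕ} [NeZero d] (ψ : Matrix (Fin d) (Fin d) F ≃ₐ[F] B) :
    ∃ (m : ℕ) (e : ι ≃ Fin d × Fin m) (P : GL ι F), Fintype.card ι = d * m ∧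
      H ≤ tensorProductSubgroup d m e P := by
  classical
  let ψ' : Matrix (Fin d) (Fin d) F →ₐ[F] Matrix ι ι F := B.val.comp ψ.toAlgHom
  obtain ⟨m, b, hb⟩ := exists_tensor_basis ψ'
  have hcard : Fintype.card ι = d * m := by
    have h1 := Module.finrank_eq_card_basis b
    rw [Module.finrank_fintype_fun_eq_card] at h1
    simpa using h1
  have hm : NeZero m := ⟨by
    rintro rfl
    have : 0 < Fintype.card ι := Fintype.card_pos
    omega⟩
  have e : ι ≃ Fin d × Fin m := Fintype.equivOfCardEq (by simpa using hcard)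
  obtain ⟨P, hP⟩ := exists_conj_coord b e
  refine ⟨m, e, P, hcard, fun g hg => mem_tensorProduct_of_coord hP ?_⟩
  -- the coordinates of `ψ`
  have hcoord : ∀ M, coordA b (ψ' M) = M ⊗ₖ (1 : Matrix (Fin m) (Fin m) F) := by
    intro M
    have hlin : (coordA b).toLinearMap.comp ψ'.toLinearMap =
        { toFun := fun M => M ⊗ₖ (1 : Matrix (Fin m) (Fin m) F)
          map_add' := fun M N => Matrix.add_kronecker M N 1
          map_smul' := fun c M => Matrix.smul_kronecker c M 1 } := by
      apply linearMap_ext_single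
      intro a c
      ext ⟨x₁, x₂⟩ ⟨y₁, y₂⟩
      simp only [LinearMap.comp_apply, AlgEquiv.toLinearMap_apply, AlgHom.toLinearMap_apply,
        LinearMap.coe_mk, AddHom.coe_mk, Matrix.kronecker_apply, Matrix.single_apply, Matrix.one_apply]
      rw [coordA_apply, hb]
      by_cases hc : c = y₁
      · simp only [if_pos hc]
        rw [Module.Basis.repr_self, Finsupp.single_apply]
        by_cases ha : a = x₁
        · by_cases hu : y₂ = x₂
          · simp [ha, hu, hc]
          · simp [ha, hu, hc, Ne.symm hu]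
        · simp [ha, hc]
      · simp [hc]
    exact LinearMap.congr_fun hlin M
  apply mem_kronecker_of_normalize
  intro M
  have hmem : (g : Matrix ι ι F) * ψ' M * ((g⁻¹ : GL ι F) : Matrix ι ι F) ∈ B := hB g hg _ (ψ M).2
  refine ⟨ψ.symm ⟨_, hmem⟩, ?_⟩
  rw [← hcoord, ← hcoord, ← map_inv, coordG_val, coordG_val, ← map_mul, ← map_mul]
  congr 1
  show _ = ((ψ (ψ.symm ⟨_, hmem⟩) : B) : Matrix ι ι F)
  rw [AlgEquiv.apply_symm_apply]

/-- swapping the two tensor factors. -/
theorem tensorProduct_swap {d m : ℕ} (e : ι ≃ Fin d × Fin m) (P : GL ι F) :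
    tensorProductSubgroup d m e P ≤ tensorProductSubgroup m d (e.trans (Equiv.prodComm _ _)) P := by
  classical
  rintro _ ⟨_, ⟨k, ⟨a, b, hk⟩, rfl⟩, rfl⟩
  let k' : GL (Fin m × Fin d) F := glReindex (Equiv.prodComm _ _) k
  have hk' : ∀ x y, (k' : Matrix (Fin m × Fin d) (Fin m × Fin d) F) x y = (k : Matrix (Fin d × Fin m) (Fin d × Fin m) F) x.swap y.swap := by
    intro x y
    simp [k', glReindex, Matrix.coe_reindexAlgEquiv]
  refine ⟨glReindex (e.trans (Equiv.prodComm _ _)).symm k', ⟨k', ⟨b, a, ?_⟩, rfl⟩, ?_⟩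
  · ext x y
    rw [hk', hk]
    simp [Matrix.kronecker_apply, mul_comm]
  · have : glReindex (e.trans (Equiv.prodComm _ _)).symm k' = glReindex e.symm k := by
      apply Units.ext
      ext i j
      rw [glReindex_apply (e.trans (Equiv.prodComm _ _)), hk', glReindex_apply]
      simp
    simp only [MulEquiv.coe_toMonoidHom] at *
    rw [this]

/-- equal tensor factors. -/
theorem tensorProduct_wreath {d : ℕ} (e : ι ≃ Fin d × Fin d) (P : GL ι F) :
    tensorProductSubgroup d d e P ≤ tensorWreathSubgroup d 2 (e.trans (finTwoArrowEquiv (Fin d)).symm) P := by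
  classical
  rintro _ ⟨_, ⟨k, ⟨a, b, hk⟩, rfl⟩, rfl⟩
  let k' : GL (Fin 2 → Fin d) F := glReindex (finTwoArrowEquiv (Fin d)).symm k
  have hk' : ∀ x y, (k' : Matrix (Fin 2 → Fin d) (Fin 2 → Fin d) F) x y =
      (k : Matrix (Fin d × Fin d) (Fin d × Fin d) F) (x 0, x 1) (y 0, y 1) := by
    intro x y
    simp [k', glReindex, Matrix.coe_reindexAlgEquiv]
  refine ⟨glReindex (e.trans (finTwoArrowEquiv (Fin d)).symm).symm k', ⟨k', ?_, rfl⟩, ?_⟩
  · apply Subgroup.subset_closure
    left
    refine ⟨![a, b], fun x y => ?_⟩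
    rw [hk', hk, Fin.prod_univ_two]
    simp [Matrix.kronecker_apply]
  · have : glReindex (e.trans (finTwoArrowEquiv (Fin d)).symm).symm k' = glReindex e.symm k := by
      apply Units.ext
      ext i j
      rw [glReindex_apply (e.trans (finTwoArrowEquiv (Fin d)).symm), hk', glReindex_apply]
      simp
    simp only [MulEquiv.coe_toMonoidHom] at *
    rw [this]

end twofold

end Cfsg.Agent.H97.Asch
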