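import Mathlib

/-!
# Counting on the norm-one circle of a finite field

Elementary counting lemmas on the set of elements of relative norm one in `F` of order `q ^ 2`: two points
of the circle with a given nonzero difference are few, sums of four dilated circles cover the field, and six
suitable subsets of the field have a nontrivial zero sum.
-/

set_option autoImplicit false
set_option linter.unusedSectionVars false
set_option linter.unusedVariables false

namespace Cfsg.Agent.Lib.H97VA

open Finset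
open scoped Pointwise

variable {F : Type*} [Field F] [Fintype F] [DecidableEq F]

theorem card_quad_le (s : Finset F) {a b c : F} (ha : a ≠ 0)
    (h : ∀ x ∈ s, a * x ^ 2 + b * x + c = 0) : s.card ≤ 2 := by
  by_contra hcon
  push Not at hcon
  obtain ⟨x, hx, y, hy, z, hz, hxy, hxz, hyz⟩ := Finset.two_lt_card.1 hcon
  have h1 := h x hx
  have h2 := h y hy
  have h3 := h z hz
  have e1 : a * (x + y) + b = 0 := by
    apply mul_left_cancel₀ (sub_ne_zero.2 hxy)
    linear_combination h1 - h2
  have e2 : a * (x + z) + b = 0 := by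
    apply mul_left_cancel₀ (sub_ne_zero.2 hxz)
    linear_combination h1 - h3
  have e3 : a * (y - z) = 0 := by linear_combination e1 - e2
  exact (mul_ne_zero ha (sub_ne_zero.2 hyz)) e3

variable (σ : F ≃+* F)

/-- The norm-one circle. -/
def Cr : Finset F := univ.filter fun a => a * σ a = 1

theorem mem_Cr {σ : F ≃+* F} {a : F} : a ∈ Cr σ ↔ a * σ a = 1 := by
  simp [Cr]

variable {σ}

theorem Cr_ne_zero {a : F} (h : a ∈ Cr σ) : a ≠ 0 := by
  rintro rfl
  have := mem_Cr.1 h
  simp at this

/-- Two points of the circle with given nonzero difference: the first is one of two values. -/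
theorem chord_card {y : F} (hy : y ≠ 0) (s : Finset F) (hs : ∀ x ∈ s, x ∈ Cr σ ∧ x - y ∈ Cr σ) :
    s.card ≤ 2 := by
  have h1 : σ y ≠ 0 := by simpa using hy
  apply card_quad_le s (a := σ y) (b := - (y * σ y)) (c := y) h1
  intro x hx
  obtain ⟨h2, h3⟩ := hs x hx
  have h4 := mem_Cr.1 h2
  have h5 := mem_Cr.1 h3
  rw [map_sub] at h5
  linear_combination (-x) * h5 + (x - y) * h4

/-- The fibres of `(s₁, s₂) ↦ C₁ s₁ + C₂ s₂` over nonzero values have at most two elements. -/
theorem two_circle_fibre {C₁ C₂ v : F} (h1 : C₁ ≠ 0) (hv : v ≠ 0) (s : Finset (F × F))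
    (hs : ∀ p ∈ s, p.1 ∈ Cr σ ∧ p.2 ∈ Cr σ ∧ C₁ * p.1 + C₂ * p.2 = v) (hC₂ : C₂ ≠ 0) : s.card ≤ 2 := by
  have hinj : Set.InjOn Prod.fst (s : Set (F × F)) := by
    intro p hp p' hp' he
    obtain ⟨-, -, h3⟩ := hs p hp
    obtain ⟨-, -, h3'⟩ := hs p' hp'
    have he' : p.1 = p'.1 := he
    ext
    · exact he
    · apply mul_left_cancel₀ hC₂
      rw [he'] at h3
      linear_combination h3 - h3'
  rw [← Finset.card_image_of_injOn hinj]
  have hlead : C₁ * σ v ≠ 0 := mul_ne_zero h1 (by simpa using hv)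
  apply card_quad_le _ (a := - (C₁ * σ v)) (b := v * σ v + C₁ * σ C₁ - C₂ * σ C₂) (c := - (v * σ C₁))
    (neg_ne_zero.2 hlead)
  intro x hx
  obtain ⟨p, hp, rfl⟩ := Finset.mem_image.1 hx
  obtain ⟨h2, h3, h4⟩ := hs p hp
  have h2' := mem_Cr.1 h2
  have h3' := mem_Cr.1 h3
  have e : C₂ * p.2 = v - C₁ * p.1 := by linear_combination h4
  have e' : σ C₂ * σ p.2 = σ v - σ C₁ * σ p.1 := by
    rw [← map_mul, e, map_sub, map_mul]
  have e2 : (C₂ * p.2) * (σ C₂ * σ p.2) = C₂ * σ C₂ := by
    calc (C₂ * p.2) * (σ C₂ * σ p.2) = C₂ * σ C₂ * (p.2 * σ p.2) := by ring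
      _ = C₂ * σ C₂ := by rw [h3', mul_one]
  rw [e, e'] at e2
  linear_combination p.1 * e2 + (- C₁ * σ C₁ * p.1 + v * σ C₁) * h2'

theorem two_circle_large {q : ℕ} (hc : (Cr σ).card = q + 1) {C₁ C₂ : F} (h1 : C₁ ≠ 0) (h2 : C₂ ≠ 0) :
    q * (q + 1) ≤ 2 * ((Cr σ ×ˢ Cr σ).image fun p : F × F => C₁ * p.1 + C₂ * p.2).card := by
  set P := Cr σ ×ˢ Cr σ with hP
  set g : F × F → F := fun p => C₁ * p.1 + C₂ * p.2 with hg
  have hcardP : P.card = (q + 1) * (q + 1) := by
    rw [hP, Finset.card_product, hc]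
  set P₀ := P.filter fun p => g p ≠ 0 with hP₀
  set P₁ := P.filter fun p => ¬ g p ≠ 0 with hP₁
  have hsplit : P₀.card + P₁.card = P.card := Finset.card_filter_add_card_filter_not _
  have hP₁le : P₁.card ≤ q + 1 := by
    rw [← hc]
    apply Finset.card_le_card_of_injOn Prod.fst
    · intro p hp
      have : p ∈ P := (Finset.mem_filter.1 (Finset.mem_coe.1 hp)).1
      exact (Finset.mem_product.1 this).1
    · intro p hp p' hp' he
      have h3 : g p = 0 := by
        have := (Finset.mem_filter.1 (Finset.mem_coe.1 hp)).2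
        simpa using this
      have h3' : g p' = 0 := by
        have := (Finset.mem_filter.1 (Finset.mem_coe.1 hp')).2
        simpa using this
      have he' : p.1 = p'.1 := he
      ext
      · exact he
      · apply mul_left_cancel₀ h2
        simp only [hg] at h3 h3'
        rw [he'] at h3
        linear_combination h3 - h3'
  have hP₀le : P₀.card ≤ 2 * (P₀.image g).card := by
    apply Finset.card_le_mul_card_image
    intro a ha
    obtain ⟨p, hp, rfl⟩ := Finset.mem_image.1 ha
    have hne := (Finset.mem_filter.1 hp).2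
    refine two_circle_fibre (σ := σ) h1 hne _ (fun p' hp' => ?_) h2
    obtain ⟨hp1, hp2⟩ := Finset.mem_filter.1 hp'
    have hp3 := Finset.mem_product.1 (Finset.mem_filter.1 hp1).1
    exact ⟨hp3.1, hp3.2, hp2⟩
  have himg : (P₀.image g).card ≤ (P.image g).card :=
    Finset.card_le_card (Finset.image_subset_image (Finset.filter_subset _ _))
  have : (q + 1) * q ≤ P₀.card := by
    have h6 : (q + 1) * (q + 1) = (q + 1) * q + (q + 1) := by ring
    omega
  calc q * (q + 1) = (q + 1) * q := by ring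
    _ ≤ P₀.card := this
    _ ≤ 2 * (P₀.image g).card := hP₀le
    _ ≤ 2 * (P.image g).card := by omega

/-- Four dilated circles cover the field. -/
theorem four_circles {q : ℕ} (hF : Fintype.card F = q ^ 2) (hq : 1 ≤ q) (hc : (Cr σ).card = q + 1)
    {C₁ C₂ C₃ C₄ : F} (h1 : C₁ ≠ 0) (h2 : C₂ ≠ 0) (h3 : C₃ ≠ 0) (h4 : C₄ ≠ 0) (y : F) :
    ∃ s₁ ∈ Cr σ, ∃ s₂ ∈ Cr σ, ∃ s₃ ∈ Cr σ, ∃ s₄ ∈ Cr σ,
      C₁ * s₁ + C₂ * s₂ + C₃ * s₃ + C₄ * s₄ = y := by
  set S₁ := (Cr σ ×ˢ Cr σ).image fun p : F × F => C₁ * p.1 + C₂ * p.2 with hS₁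
  set S₂ := ((Cr σ ×ˢ Cr σ).image fun p : F × F => C₃ * p.1 + C₄ * p.2).image (fun z => y - z) with hS₂
  have hc1 := two_circle_large hc h1 h2
  have hc2 := two_circle_large hc h3 h4
  have hS₂card : S₂.card = ((Cr σ ×ˢ Cr σ).image fun p : F × F => C₃ * p.1 + C₄ * p.2).card := by
    apply Finset.card_image_of_injective
    intro a b hab
    have : y - a = y - b := hab
    linear_combination -this
  have hlt : (univ : Finset F).card < S₁.card + S₂.card := by
    rw [Finset.card_univ, hF, hS₂card]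
    nlinarith
  obtain ⟨z, hz⟩ := Finset.inter_nonempty_of_card_lt_card_add_card (Finset.subset_univ _)
    (Finset.subset_univ _) hlt
  obtain ⟨hz1, hz2⟩ := Finset.mem_inter.1 hz
  obtain ⟨p, hp, rfl⟩ := Finset.mem_image.1 hz1
  obtain ⟨w, hw, hwe⟩ := Finset.mem_image.1 hz2
  obtain ⟨p', hp', rfl⟩ := Finset.mem_image.1 hw
  obtain ⟨a1, a2⟩ := Finset.mem_product.1 hp
  obtain ⟨a3, a4⟩ := Finset.mem_product.1 hp'
  refine ⟨p.1, a1, p.2, a2, p'.1, a3, p'.2, a4, ?_⟩
  linear_combination -hwe

/-! ### Energy -/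

omit [Fintype F] in
theorem energy_le (s t : Finset F)
    (ht : ∀ y : F, y ≠ 0 → ((t ×ˢ t).filter fun p => p.1 - p.2 = y).card ≤ 2) :
    s.addEnergy t ≤ s.card * t.card + 2 * s.card ^ 2 := by
  unfold Finset.addEnergy
  rw [Finset.card_eq_sum_card_fiberwise (f := fun x : (F × F) × F × F => x.1) (t := s ×ˢ s)]
  · have hb : ∀ p ∈ s ×ˢ s,
        (((((s ×ˢ s) ×ˢ t ×ˢ t).filter fun x => x.1.1 + x.2.1 = x.1.2 + x.2.2)).filter
          fun x => x.1 = p).card ≤ (if p.1 = p.2 then t.card else 0) + 2 := by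
      intro p hp
      by_cases hpe : p.1 = p.2
      · rw [if_pos hpe]
        have : ((((s ×ˢ s) ×ˢ t ×ˢ t).filter fun x => x.1.1 + x.2.1 = x.1.2 + x.2.2).filter
            fun x => x.1 = p).card ≤ t.card := by
          apply Finset.card_le_card_of_injOn (fun x => x.2.1)
          · intro x hx
            have := (Finset.mem_filter.1 (Finset.mem_coe.1 hx)).1
            have := (Finset.mem_filter.1 this).1
            exact (Finset.mem_product.1 (Finset.mem_product.1 this).2).1
          · intro x hx x' hx' he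
            have h1 := Finset.mem_filter.1 (Finset.mem_coe.1 hx)
            have h2 := Finset.mem_filter.1 (Finset.mem_coe.1 hx')
            have h3 := (Finset.mem_filter.1 h1.1).2
            have h4 := (Finset.mem_filter.1 h2.1).2
            have h5 := h1.2
            have h6 := h2.2
            have he' : x.2.1 = x'.2.1 := he
            have h7 : x.1.1 = x.1.2 := by rw [h5]; exact hpe
            have h8 : x'.1.1 = x'.1.2 := by rw [h6]; exact hpe
            have h9 : x.2.2 = x.2.1 := by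
              rw [h7] at h3
              exact (add_left_cancel h3).symm
            have h10 : x'.2.2 = x'.2.1 := by
              rw [h8] at h4
              exact (add_left_cancel h4).symm
            ext
            · rw [h5, h6]
            · rw [h5, h6]
            · exact he
            · rw [h9, h10, he']
        omega
      · rw [if_neg hpe, zero_add]
        have hne : p.1 - p.2 ≠ 0 := sub_ne_zero.2 hpe
        refine le_trans ?_ (ht _ hne)
        apply Finset.card_le_card_of_injOn (fun x => (x.2.2, x.2.1))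
        · intro x hx
          have h1 := Finset.mem_filter.1 (Finset.mem_coe.1 hx)
          have h3 := Finset.mem_filter.1 h1.1
          have h4 := Finset.mem_product.1 (Finset.mem_product.1 h3.1).2
          apply Finset.mem_coe.2
          apply Finset.mem_filter.2
          refine ⟨Finset.mem_product.2 ⟨h4.2, h4.1⟩, ?_⟩
          have h5 := h1.2
          have h6 := h3.2
          rw [h5] at h6
          show x.2.2 - x.2.1 = p.1 - p.2
          linear_combination -h6
        · intro x hx x' hx' he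
          have h1 := Finset.mem_filter.1 (Finset.mem_coe.1 hx)
          have h2 := Finset.mem_filter.1 (Finset.mem_coe.1 hx')
          have he1 : x.2.2 = x'.2.2 := congrArg Prod.fst he
          have he2 : x.2.1 = x'.2.1 := congrArg Prod.snd he
          ext
          · rw [h1.2, h2.2]
          · rw [h1.2, h2.2]
          · exact he2
          · exact he1
    refine le_trans (Finset.sum_le_sum hb) ?_
    rw [Finset.sum_add_distrib, Finset.sum_const, Finset.card_product, smul_eq_mul]
    have h5 : ∑ p ∈ s ×ˢ s, (if p.1 = p.2 then t.card else 0) ≤ s.card * t.card := by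
      rw [Finset.sum_product]
      have : ∀ a ∈ s, ∑ b ∈ s, (if a = b then t.card else 0) ≤ t.card := by
        intro a ha
        rw [Finset.sum_ite_eq]
        simp [ha]
      calc ∑ a ∈ s, ∑ b ∈ s, (if (a, b).1 = (a, b).2 then t.card else 0)
          ≤ ∑ a ∈ s, t.card := Finset.sum_le_sum this
        _ = s.card * t.card := by simp
    nlinarith
  · intro x hx
    have := (Finset.mem_filter.1 (Finset.mem_coe.1 hx)).1
    exact Finset.mem_coe.2 (Finset.mem_product.1 this).1

omit [Fintype F] in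
theorem sum_step (s t : Finset F)
    (ht : ∀ y : F, y ≠ 0 → ((t ×ˢ t).filter fun p => p.1 - p.2 = y).card ≤ 2) (hs : s.Nonempty) :
    t.card ^ 2 * s.card ≤ (s + t).card * (t.card + 2 * s.card) := by
  have h1 := Finset.le_card_add_mul_addEnergy s t
  have h2 := energy_le s t ht
  have hs0 : 0 < s.card := Finset.card_pos.2 hs
  have h3 : s.card ^ 2 * t.card ^ 2 ≤ (s + t).card * (s.card * t.card + 2 * s.card ^ 2) :=
    le_trans h1 (Nat.mul_le_mul_left _ h2)
  have h4 : s.card * (t.card ^ 2 * s.card) ≤ s.card * ((s + t).card * (t.card + 2 * s.card)) := by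
    calc s.card * (t.card ^ 2 * s.card) = s.card ^ 2 * t.card ^ 2 := by ring
      _ ≤ (s + t).card * (s.card * t.card + 2 * s.card ^ 2) := h3
      _ = s.card * ((s + t).card * (t.card + 2 * s.card)) := by ring
  exact Nat.le_of_mul_le_mul_left h4 hs0

omit [Fintype F] in
theorem sum3_large {X Y W : Finset F} {m : ℕ} (hm : 0 < m) (hX : X.card = m) (hY : Y.card = m)
    (hW : W.card = m)
    (dY : ∀ y : F, y ≠ 0 → ((Y ×ˢ Y).filter fun p => p.1 - p.2 = y).card ≤ 2)
    (dW : ∀ y : F, y ≠ 0 → ((W ×ˢ W).filter fun p => p.1 - p.2 = y).card ≤ 2) :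
    m ^ 3 ≤ (X + Y + W).card * (3 + 2 * m) := by
  have hXne : X.Nonempty := Finset.card_pos.1 (by omega)
  have hYne : Y.Nonempty := Finset.card_pos.1 (by omega)
  have h1 := sum_step X Y dY hXne
  rw [hX, hY] at h1
  have h2 : m ^ 2 ≤ (X + Y).card * 3 := by
    have : m * m ^ 2 ≤ m * ((X + Y).card * 3) := by nlinarith
    exact Nat.le_of_mul_le_mul_left this hm
  have h3 := sum_step (X + Y) W dW (hXne.add hYne)
  rw [hW] at h3
  set S := (X + Y).card with hS
  set R := (X + Y + W).card with hR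
  by_contra hcon
  push Not at hcon
  have hS0 : 0 < S := Finset.card_pos.2 (hXne.add hYne)
  have h4 : R * (3 + 2 * m) * (m + 2 * S) < m ^ 3 * (m + 2 * S) :=
    Nat.mul_lt_mul_of_pos_right hcon (by omega)
  have h5 : m ^ 2 * S * (3 + 2 * m) ≤ R * (m + 2 * S) * (3 + 2 * m) :=
    Nat.mul_le_mul_right _ h3
  have h6 : m ^ 2 * (S * (3 + 2 * m)) < m ^ 2 * (m * (m + 2 * S)) := by
    calc m ^ 2 * (S * (3 + 2 * m)) = m ^ 2 * S * (3 + 2 * m) := by ring
      _ ≤ R * (m + 2 * S) * (3 + 2 * m) := h5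
      _ = R * (3 + 2 * m) * (m + 2 * S) := by ring
      _ < m ^ 3 * (m + 2 * S) := h4
      _ = m ^ 2 * (m * (m + 2 * S)) := by ring
  have h7 : S * (3 + 2 * m) < m * (m + 2 * S) := Nat.lt_of_mul_lt_mul_left h6
  nlinarith

/-- Six sets of `q + 1` elements of a field of order `q ^ 2`, with few representations of nonzero differences,
have a nontrivial zero sum. -/
theorem six_set {q : ℕ} (hF : Fintype.card F = q ^ 2) (hq : 2 ≤ q) (X : Fin 6 → Finset F)
    (hm : ∀ i, (X i).card = q + 1)
    (hd : ∀ i, ∀ y : F, y ≠ 0 → ((X i ×ˢ X i).filter fun p => p.1 - p.2 = y).card ≤ 2) :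
    ∃ x : Fin 6 → F, (∀ i, x i ∈ X i) ∧ ∑ i, x i = 0 ∧ ∃ i, x i ≠ 0 := by
  set A := X 0 + X 1 + X 2 with hA
  set B₀ := X 3 + X 4 + X 5 with hB₀
  set B := B₀.image (fun z => - z) with hB
  have hBcard : B.card = B₀.card := Finset.card_image_of_injective _ neg_injective
  have hA3 := sum3_large (m := q + 1) (by omega) (hm 0) (hm 1) (hm 2) (hd 1) (hd 2)
  have hB3 := sum3_large (m := q + 1) (by omega) (hm 3) (hm 4) (hm 5) (hd 4) (hd 5)
  have hlarge : q ^ 2 + 2 ≤ A.card + B.card := by
    rw [hBcard]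
    have h1 : (q ^ 2 + 2) * (3 + 2 * (q + 1)) ≤ (A.card + B₀.card) * (3 + 2 * (q + 1)) := by
      have h2 : (q ^ 2 + 2) * (3 + 2 * (q + 1)) ≤ (q + 1) ^ 3 + (q + 1) ^ 3 := by nlinarith [hq, sq_nonneg q]
      calc (q ^ 2 + 2) * (3 + 2 * (q + 1)) ≤ (q + 1) ^ 3 + (q + 1) ^ 3 := h2
        _ ≤ A.card * (3 + 2 * (q + 1)) + B₀.card * (3 + 2 * (q + 1)) := add_le_add hA3 hB3
        _ = (A.card + B₀.card) * (3 + 2 * (q + 1)) := by ring
    exact Nat.le_of_mul_le_mul_right h1 (by omega)
  have hA' : A.card - 1 ≤ (A.erase 0).card := Finset.pred_card_le_card_erase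
  have hB' : B.card - 1 ≤ (B.erase 0).card := Finset.pred_card_le_card_erase
  have hsub1 : A.erase 0 ⊆ (univ : Finset F).erase 0 := Finset.erase_subset_erase _ (Finset.subset_univ _)
  have hsub2 : B.erase 0 ⊆ (univ : Finset F).erase 0 := Finset.erase_subset_erase _ (Finset.subset_univ _)
  have hlt : ((univ : Finset F).erase 0).card < (A.erase 0).card + (B.erase 0).card := by
    rw [Finset.card_erase_of_mem (Finset.mem_univ _), Finset.card_univ, hF]
    have : 0 < q ^ 2 := by positivity
    omega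
  obtain ⟨y, hy⟩ := Finset.inter_nonempty_of_card_lt_card_add_card hsub1 hsub2 hlt
  obtain ⟨hy1, hy2⟩ := Finset.mem_inter.1 hy
  obtain ⟨hy0, hy1'⟩ := Finset.mem_erase.1 hy1
  obtain ⟨-, hy2'⟩ := Finset.mem_erase.1 hy2
  obtain ⟨z, hz, hze⟩ := Finset.mem_image.1 hy2'
  obtain ⟨u, hu, w, hw, huw⟩ := Finset.mem_add.1 hy1'
  obtain ⟨a0, ha0, a1, ha1, h01⟩ := Finset.mem_add.1 hu
  obtain ⟨u', hu', w', hw', huw'⟩ := Finset.mem_add.1 hz
  obtain ⟨a3, ha3, a4, ha4, h34⟩ := Finset.mem_add.1 hu'
  refine ⟨![a0, a1, w, a3, a4, w'], ?_, ?_, ?_⟩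
  · intro i
    fin_cases i
    · exact ha0
    · exact ha1
    · exact hw
    · exact ha3
    · exact ha4
    · exact hw'
  · simp only [Fin.sum_univ_six]
    show a0 + a1 + w + a3 + a4 + w' = 0
    have e1 : a0 + a1 + w = y := by rw [h01, huw]
    have e2 : a3 + a4 + w' = z := by rw [h34, huw']
    have e3 : -z = y := hze
    linear_combination e1 + e2 - e3
  · by_contra hcon
    push Not at hcon
    apply hy0
    have h0 := hcon 0
    have h1 := hcon 1
    have h2 := hcon 2
    simp at h0 h1 h2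
    rw [← huw, ← h01, h0, h1, h2]
    simp

end Cfsg.Agent.Lib.H97VA
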