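import Mathlib
import Cfsg.Agent.Lib.H97VA
import Cfsg.Agent.Lib.GLMon
import Cfsg.Agent.Lib.HermCount

/-!
# A nontrivial torus element killing a linear form

Given nonzero `C j` on at least thirteen coordinates, an element `τ` of the norm-one torus with `∏ τ = 1`, not
scalar, with `∑ (τ j - 1) C j = 0`.
-/

set_option autoImplicit false
set_option linter.unusedSectionVars false
set_option linter.unusedVariables false

namespace Cfsg.Agent.Lib.H97VB

open Finset Cfsg.Agent.Lib.H97VA Cfsg.Agent.Lib.GLMon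
open scoped Pointwise

variable {F : Type*} [Field F] [Fintype F] [DecidableEq F] {σ : F ≃+* F} {q : ℕ}

theorem sig_sig (hF : Fintype.card F = q ^ 2) (hq : ∀ x, σ x = x ^ q) (a : F) : σ (σ a) = a := by
  rw [hq, hq, ← pow_mul, ← sq, ← hF, FiniteField.pow_card]

theorem card_Cr (hF : Fintype.card F = q ^ 2) (hq : ∀ x, σ x = x ^ q) : (Cr σ).card = q + 1 := by
  have h := Cfsg.Agent.Lib.HermCount.card_nrm_fibre_ne hF (c := (1 : F)) one_ne_zero (one_pow q)
  rw [← h]
  apply Finset.card_bij (fun x _ => x)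
  · intro a ha
    have h1 := mem_Cr.1 ha
    rw [hq] at h1
    exact (@Finset.mem_filter _ _ (fun a => Classical.propDecidable _) _ _).2 ⟨Finset.mem_univ _, h1⟩
  · intro a _ b _ hab
    exact hab
  · intro b hb
    refine ⟨b, ?_, rfl⟩
    apply mem_Cr.2
    rw [hq]
    exact ((@Finset.mem_filter _ _ (fun a => Classical.propDecidable _) _ _).1 hb).2

theorem q_two_le (hF : Fintype.card F = q ^ 2) : 2 ≤ q := Cfsg.Agent.Lib.HermCount.two_le_q hF

theorem card_roots_le (p : Polynomial F) (hp : p ≠ 0) (s : Finset F) (h : ∀ x ∈ s, p.eval x = 0) :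
    s.card ≤ p.natDegree := by
  have h1 : s ⊆ p.roots.toFinset := by
    intro x hx
    rw [Multiset.mem_toFinset, Polynomial.mem_roots hp]
    exact h x hx
  calc s.card ≤ p.roots.toFinset.card := Finset.card_le_card h1
    _ ≤ Multiset.card p.roots := Multiset.toFinset_card_le _
    _ ≤ p.natDegree := Polynomial.card_roots' p

theorem card_fixed_le (hF : Fintype.card F = q ^ 2) (hq : ∀ x, σ x = x ^ q) (s : Finset F)
    (h : ∀ x ∈ s, σ x = x) : s.card ≤ q := by
  have h2 := q_two_le hF
  have hdeg : (Polynomial.X ^ q - Polynomial.X : Polynomial F).natDegree = q := by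
    rw [Polynomial.natDegree_sub_eq_left_of_natDegree_lt]
    · simp
    · simp; omega
  have hne : (Polynomial.X ^ q - Polynomial.X : Polynomial F) ≠ 0 := by
    intro h0
    rw [h0] at hdeg
    simp at hdeg
    omega
  have := card_roots_le _ hne s (fun x hx => by
    simp only [Polynomial.eval_sub, Polynomial.eval_pow, Polynomial.eval_X]
    rw [← hq, h x hx, sub_self])
  rwa [hdeg] at this

theorem card_traceless_le (hF : Fintype.card F = q ^ 2) (hq : ∀ x, σ x = x ^ q) (s : Finset F)
    (h : ∀ x ∈ s, x + σ x = 0) : s.card ≤ q := by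
  have h2 := q_two_le hF
  have hdeg : (Polynomial.X ^ q + Polynomial.X : Polynomial F).natDegree = q := by
    rw [Polynomial.natDegree_add_eq_left_of_natDegree_lt]
    · simp
    · simp; omega
  have hne : (Polynomial.X ^ q + Polynomial.X : Polynomial F) ≠ 0 := by
    intro h0
    rw [h0] at hdeg
    simp at hdeg
    omega
  have := card_roots_le _ hne s (fun x hx => by
    simp only [Polynomial.eval_add, Polynomial.eval_pow, Polynomial.eval_X]
    rw [← hq]
    linear_combination h x hx)
  rwa [hdeg] at this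

/-- There is a circle point different from `1` (indeed from any two given). -/
theorem exists_Cr_ne (hF : Fintype.card F = q ^ 2) (hq : ∀ x, σ x = x ^ q) (a b : F) :
    ∃ s ∈ Cr σ, s ≠ a ∧ s ≠ b := by
  have h := card_Cr hF hq
  have h2 := q_two_le hF
  by_contra hcon
  push Not at hcon
  have : Cr σ ⊆ {a, b} := by
    intro s hs
    by_cases h1 : s = a
    · simp [h1]
    · simp [hcon s hs h1]
  have h3 := Finset.card_le_card this
  have h4 : ({a, b} : Finset F).card ≤ 2 := Finset.card_le_two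
  omega

/-- Three circle points, not all `1`, with vanishing total trace defect. -/
theorem exists_three_trace (hF : Fintype.card F = q ^ 2) (hq : ∀ x, σ x = x ^ q) :
    ∃ s₁ ∈ Cr σ, ∃ s₂ ∈ Cr σ, ∃ s₃ ∈ Cr σ, s₃ ≠ 1 ∧
      (s₁ + σ s₁ - 2) + (s₂ + σ s₂ - 2) + (s₃ + σ s₃ - 2) = 0 := by
  have hc := card_Cr hF hq
  have h2 := q_two_le hF
  have hinv := sig_sig hF hq
  obtain ⟨s₃, hs₃, hs₃1, -⟩ := exists_Cr_ne hF hq (1 : F) 1
  set g : F → F := fun s => s + σ s - 2 with hg
  set R := (Cr σ).image g with hR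
  set r₃ := g s₃ with hr₃
  set R' := R.image (fun r => - r₃ - r) with hR'
  have hR'card : R'.card = R.card := by
    apply Finset.card_image_of_injective
    intro a b hab
    have : - r₃ - a = - r₃ - b := hab
    linear_combination -this
  have hRlarge : q + 1 ≤ 2 * R.card := by
    rw [← hc]
    apply Finset.card_le_mul_card_image
    intro a ha
    apply card_quad_le _ (a := 1) (b := - (a + 2)) (c := 1) one_ne_zero
    intro x hx
    obtain ⟨h3, h4⟩ := Finset.mem_filter.1 hx
    have h5 := mem_Cr.1 h3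
    have h6 : x + σ x - 2 = a := h4
    linear_combination x * h6 - h5
  have hfix : ∀ a ∈ R, σ a = a := by
    intro a ha
    obtain ⟨s, hs, rfl⟩ := Finset.mem_image.1 ha
    simp only [hg, map_sub, map_add, hinv, map_ofNat]
    ring
  set E := R ∪ R' with hE
  have hEle : E.card ≤ q := by
    apply card_fixed_le hF hq
    intro x hx
    rcases Finset.mem_union.1 hx with h | h
    · exact hfix x h
    · obtain ⟨r, hr, rfl⟩ := Finset.mem_image.1 h
      have h6 : σ r₃ = r₃ := hfix _ (Finset.mem_image.2 ⟨s₃, hs₃, rfl⟩)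
      simp only [map_sub, map_neg, h6, hfix r hr]
  have hlt : E.card < R.card + R'.card := by
    rw [hR'card]
    omega
  obtain ⟨z, hz⟩ := Finset.inter_nonempty_of_card_lt_card_add_card
    (Finset.subset_union_left (s₁ := R) (s₂ := R')) (Finset.subset_union_right (s₁ := R) (s₂ := R')) hlt
  obtain ⟨hz1, hz2⟩ := Finset.mem_inter.1 hz
  obtain ⟨s₁, hs₁, rfl⟩ := Finset.mem_image.1 hz1
  obtain ⟨r, hr, hre⟩ := Finset.mem_image.1 hz2
  obtain ⟨s₂, hs₂, rfl⟩ := Finset.mem_image.1 hr
  refine ⟨s₁, hs₁, s₂, hs₂, s₃, hs₃, hs₃1, ?_⟩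
  have hre' : - r₃ - g s₂ = g s₁ := hre
  have e : g s₁ + g s₂ + r₃ = 0 := by linear_combination -hre'
  exact e

/-! ### Torus elements -/

variable {ι : Type} [Fintype ι] [DecidableEq ι]

/-- A torus element with the given support and the given value of the form. -/
structure Good (σ : F ≃+* F) (C : ι → F) (τ : ι → Fˣ) (Z : Finset ι) (E : F) : Prop where
  cir : ∀ j, (τ j : F) * σ (τ j) = 1
  prod : ∏ j, τ j = 1
  supp : ∀ j, j ∉ Z → τ j = 1
  val : ∑ j, ((τ j : F) - 1) * C j = E

theorem Good.one (C : ι → F) : Good σ C (fun _ => 1) ∅ 0 where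
  cir j := by simp
  prod := by simp
  supp j _ := rfl
  val := by simp

theorem Good.mul {C : ι → F} {τ₁ τ₂ : ι → Fˣ} {Z₁ Z₂ : Finset ι} {E₁ E₂ : F} (h₁ : Good σ C τ₁ Z₁ E₁)
    (h₂ : Good σ C τ₂ Z₂ E₂) (hd : Disjoint Z₁ Z₂) : Good σ C (fun j => τ₁ j * τ₂ j) (Z₁ ∪ Z₂) (E₁ + E₂) where
  cir j := by
    have h1 := h₁.cir j
    have h2 := h₂.cir j
    simp only [Units.val_mul, map_mul]
    calc (τ₁ j : F) * τ₂ j * (σ (τ₁ j) * σ (τ₂ j))
        = ((τ₁ j : F) * σ (τ₁ j)) * ((τ₂ j : F) * σ (τ₂ j)) := by ring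
      _ = 1 := by rw [h1, h2, one_mul]
  prod := by rw [Finset.prod_mul_distrib, h₁.prod, h₂.prod, one_mul]
  supp j hj := by
    have hj1 : j ∉ Z₁ := fun h => hj (Finset.mem_union_left _ h)
    have hj2 : j ∉ Z₂ := fun h => hj (Finset.mem_union_right _ h)
    simp [h₁.supp j hj1, h₂.supp j hj2]
  val := by
    rw [← h₁.val, ← h₂.val, ← Finset.sum_add_distrib]
    apply Finset.sum_congr rfl
    intro j _
    by_cases hj : j ∈ Z₁
    · have hj2 : j ∉ Z₂ := Finset.disjoint_left.1 hd hj
      simp [h₂.supp j hj2]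
    · simp [h₁.supp j hj]

theorem Good.tt_pair (C : ι → F) {a b : ι} (hab : a ≠ b) (hinv : ∀ x : F, σ (σ x) = x) (u : Fˣ)
    (hu : (u : F) * σ u = 1) :
    Good σ C (tt a b u) {a, b} (((u : F) - 1) * C a + (σ u - 1) * C b) := by
  have hui : ((u⁻¹ : Fˣ) : F) = σ u := by
    rw [Units.val_inv_eq_inv_val]
    exact inv_eq_of_mul_eq_one_right hu
  refine ⟨fun j => ?_, prod_tt hab u, fun j hj => ?_, ?_⟩
  · by_cases h1 : j = a
    · subst h1
      rw [tt_left]
      exact hu
    · by_cases h2 : j = b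
      · subst h2
        rw [tt_right hab, hui, hinv, mul_comm]
        exact hu
      · simp [tt_other u h1 h2]
  · simp only [Finset.mem_insert, Finset.mem_singleton, not_or] at hj
    exact tt_other u hj.1 hj.2
  · rw [Finset.sum_eq_add a b hab]
    · rw [tt_left, tt_right hab, hui]
    · intro j _ hj
      rw [tt_other u hj.1 hj.2]
      simp
    · simp
    · simp

end Cfsg.Agent.Lib.H97VB
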