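import Mathlib
import Cfsg.Agent.Lib.H97VB

/-!
# A nontrivial torus element killing a linear form: the main statement
-/

set_option autoImplicit false
set_option linter.unusedSectionVars false
set_option linter.unusedVariables false

namespace Cfsg.Agent.Lib.H97VC

open Finset Cfsg.Agent.Lib.H97VA Cfsg.Agent.Lib.H97VB Cfsg.Agent.Lib.GLMon
open scoped Pointwise

variable {F : Type*} [Field F] [Fintype F] [DecidableEq F] {σ : F ≃+* F} {q : ℕ}

/-- The affine map of the circle attached to a pair of coordinates. -/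
def TT (σ : F ≃+* F) (A B s : F) : F := (s - 1) * A + (σ s - 1) * B

theorem TT_sub (A B s s' : F) : TT σ A B s - TT σ A B s' = (s - s') * A + σ (s - s') * B := by
  simp only [TT, map_sub]
  ring

theorem TT_ker (hinv : ∀ x : F, σ (σ x) = x) {A B z : F} (hAB : A * σ A ≠ B * σ B)
    (h : z * A + σ z * B = 0) : z = 0 := by
  by_contra hz
  have h1 : σ z * σ A + z * σ B = 0 := by
    have := congrArg σ h
    simpa only [map_add, map_mul, hinv, map_zero] using this
  have hz' : σ z ≠ 0 := by simpa using hz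
  apply hAB
  apply mul_left_cancel₀ (mul_ne_zero hz hz')
  linear_combination (σ z * σ A) * h - (σ z * B) * h1

theorem TT_inj (hinv : ∀ x : F, σ (σ x) = x) {A B : F} (hAB : A * σ A ≠ B * σ B) :
    Function.Injective (TT σ A B) := by
  intro s s' h
  have h1 := TT_sub (σ := σ) A B s s'
  rw [h, sub_self] at h1
  exact sub_eq_zero.1 (TT_ker hinv hAB h1.symm)

theorem X_card (hinv : ∀ x : F, σ (σ x) = x) (hc : (Cr σ).card = q + 1) {A B : F}
    (hAB : A * σ A ≠ B * σ B) : ((Cr σ).image (TT σ A B)).card = q + 1 := by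
  rw [Finset.card_image_of_injective _ (TT_inj hinv hAB), hc]

theorem X_diff (hinv : ∀ x : F, σ (σ x) = x) {A B : F} (hAB : A * σ A ≠ B * σ B) (y : F) (hy : y ≠ 0) :
    ((((Cr σ).image (TT σ A B)) ×ˢ ((Cr σ).image (TT σ A B))).filter fun p => p.1 - p.2 = y).card ≤ 2 := by
  set Q := (((Cr σ).image (TT σ A B)) ×ˢ ((Cr σ).image (TT σ A B))).filter fun p => p.1 - p.2 = y with hQ
  by_cases hne : Q.Nonempty
  swap
  · rw [Finset.not_nonempty_iff_eq_empty.1 hne]
    simp
  obtain ⟨p₀, hp₀⟩ := hne
  obtain ⟨h1, h2⟩ := Finset.mem_filter.1 hp₀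
  obtain ⟨h3, h4⟩ := Finset.mem_product.1 h1
  obtain ⟨s₀, hs₀, h5⟩ := Finset.mem_image.1 h3
  obtain ⟨s₀', hs₀', h6⟩ := Finset.mem_image.1 h4
  set z₀ := s₀ - s₀' with hz₀
  have hz₀0 : z₀ ≠ 0 := by
    intro h0
    apply hy
    rw [← h2, ← h5, ← h6, TT_sub, ← hz₀, h0]
    simp
  have hsub : Q ⊆ ((Cr σ).filter fun s => s - z₀ ∈ Cr σ).image
      (fun s => (TT σ A B s, TT σ A B (s - z₀))) := by
    intro p hp
    obtain ⟨h7, h8⟩ := Finset.mem_filter.1 hp
    obtain ⟨h9, h10⟩ := Finset.mem_product.1 h7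
    obtain ⟨s, hs, h11⟩ := Finset.mem_image.1 h9
    obtain ⟨s', hs', h12⟩ := Finset.mem_image.1 h10
    have h13 : s - s' = z₀ := by
      apply sub_eq_zero.1
      apply TT_ker hinv hAB
      have e1 := TT_sub (σ := σ) A B s s'
      have e2 := TT_sub (σ := σ) A B s₀ s₀'
      rw [h11, h12, h8] at e1
      rw [h5, h6, h2] at e2
      rw [map_sub]
      have e3 : (s - s') * A + σ (s - s') * B = (s₀ - s₀') * A + σ (s₀ - s₀') * B := by
        rw [← e1, ← e2]
      rw [← hz₀] at e3
      linear_combination e3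
    have h14 : s' = s - z₀ := by rw [← h13]; ring
    apply Finset.mem_image.2
    refine ⟨s, Finset.mem_filter.2 ⟨hs, ?_⟩, ?_⟩
    · rw [← h14]
      exact hs'
    · rw [← h14, h11, h12]
  refine le_trans (Finset.card_le_card hsub) (le_trans Finset.card_image_le ?_)
  apply chord_card (σ := σ) hz₀0
  intro x hx
  exact Finset.mem_filter.1 hx

variable {ι : Type} [Fintype ι] [DecidableEq ι]

theorem matching (C : ι → F) : ∀ (m : ℕ) (Z : Finset ι), 2 * m + 1 ≤ Z.card →
    (∀ v, (Z.filter fun j => C j = v).card + m ≤ Z.card) →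
    ∃ a b : Fin m → ι, (∀ i, a i ∈ Z) ∧ (∀ i, b i ∈ Z) ∧ (∀ i, C (a i) ≠ C (b i)) ∧
      ∀ i i', i ≠ i' → a i ≠ a i' ∧ a i ≠ b i' ∧ b i ≠ b i' := by
  intro m
  induction m with
  | zero =>
    intro Z _ _
    exact ⟨Fin.elim0, Fin.elim0, fun i => i.elim0, fun i => i.elim0, fun i => i.elim0,
      fun i => i.elim0⟩
  | succ m ih =>
    intro Z hZ hmul
    have hne : Z.Nonempty := Finset.card_pos.1 (by omega)
    obtain ⟨a₀, ha₀, hmax⟩ := Finset.exists_max_image Z (fun j => (Z.filter fun i => C i = C j).card) hne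
    obtain ⟨b₀, hb₀, hb₀ne⟩ : ∃ b₀ ∈ Z, C b₀ ≠ C a₀ := by
      by_contra hcon
      push Not at hcon
      have h1 : (Z.filter fun j => C j = C a₀) = Z := Finset.filter_true_of_mem hcon
      have h2 := hmul (C a₀)
      rw [h1] at h2
      omega
    have hab : b₀ ≠ a₀ := fun h => hb₀ne (by rw [h])
    set Z' := (Z.erase a₀).erase b₀ with hZ'
    have hcard : Z'.card + 2 = Z.card := by
      have h1 : Z'.card = (Z.erase a₀).card - 1 :=
        Finset.card_erase_of_mem (Finset.mem_erase.2 ⟨hab, hb₀⟩)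
      have h2 : (Z.erase a₀).card = Z.card - 1 := Finset.card_erase_of_mem ha₀
      omega
    have hZ'sub : ∀ j, j ∈ Z' ↔ j ≠ b₀ ∧ j ≠ a₀ ∧ j ∈ Z := by
      intro j
      simp [hZ', Finset.mem_erase]
    obtain ⟨a', b', h1, h2, h3, h4⟩ := ih Z' (by omega) (by
      intro v
      by_cases hv1 : v = C a₀
      · have h5 : (Z'.filter fun j => C j = v) ⊆ (Z.filter fun j => C j = v).erase a₀ := by
          intro j hj
          obtain ⟨h6, h7⟩ := Finset.mem_filter.1 hj
          obtain ⟨h8, h9, h10⟩ := (hZ'sub j).1 h6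
          exact Finset.mem_erase.2 ⟨h9, Finset.mem_filter.2 ⟨h10, h7⟩⟩
        have h6 := Finset.card_le_card h5
        rw [Finset.card_erase_of_mem (Finset.mem_filter.2 ⟨ha₀, hv1.symm⟩)] at h6
        have h7 := hmul v
        have h8 : 0 < (Z.filter fun j => C j = v).card :=
          Finset.card_pos.2 ⟨a₀, Finset.mem_filter.2 ⟨ha₀, hv1.symm⟩⟩
        omega
      by_cases hv2 : v = C b₀
      · have h5 : (Z'.filter fun j => C j = v) ⊆ (Z.filter fun j => C j = v).erase b₀ := by
          intro j hj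
          obtain ⟨h6, h7⟩ := Finset.mem_filter.1 hj
          obtain ⟨h8, h9, h10⟩ := (hZ'sub j).1 h6
          exact Finset.mem_erase.2 ⟨h8, Finset.mem_filter.2 ⟨h10, h7⟩⟩
        have h6 := Finset.card_le_card h5
        rw [Finset.card_erase_of_mem (Finset.mem_filter.2 ⟨hb₀, hv2.symm⟩)] at h6
        have h7 := hmul v
        have h8 : 0 < (Z.filter fun j => C j = v).card :=
          Finset.card_pos.2 ⟨b₀, Finset.mem_filter.2 ⟨hb₀, hv2.symm⟩⟩
        omega
      have h5 : (Z'.filter fun j => C j = v) ⊆ (Z.filter fun j => C j = v) := by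
        intro j hj
        obtain ⟨h6, h7⟩ := Finset.mem_filter.1 hj
        obtain ⟨h8, h9, h10⟩ := (hZ'sub j).1 h6
        exact Finset.mem_filter.2 ⟨h10, h7⟩
      have h6 := Finset.card_le_card h5
      by_cases hemp : (Z.filter fun j => C j = v).Nonempty
      · obtain ⟨j, hj⟩ := hemp
        obtain ⟨hj1, hj2⟩ := Finset.mem_filter.1 hj
        have h7 : (Z.filter fun i => C i = C j).card ≤ (Z.filter fun i => C i = C a₀).card := hmax j hj1
        rw [hj2] at h7
        -- disjointness
        have h8 : (Z.filter fun j => C j = v).card + (Z.filter fun j => C j = C a₀).card + 1 ≤ Z.card := by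
          have hd : Disjoint (Z.filter fun j => C j = v) (Z.filter fun j => C j = C a₀) := by
            apply Finset.disjoint_filter.2
            intro x _ h9 h10
            exact hv1 (h9.symm.trans h10)
          rw [← Finset.card_union_of_disjoint hd]
          have h9 : b₀ ∉ (Z.filter fun j => C j = v) ∪ (Z.filter fun j => C j = C a₀) := by
            intro h
            rcases Finset.mem_union.1 h with h | h
            · exact hv2 (Finset.mem_filter.1 h).2.symm
            · exact hb₀ne (Finset.mem_filter.1 h).2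
          have h10 : insert b₀ ((Z.filter fun j => C j = v) ∪ (Z.filter fun j => C j = C a₀)) ⊆ Z := by
            intro x hx
            rcases Finset.mem_insert.1 hx with rfl | hx
            · exact hb₀
            · rcases Finset.mem_union.1 hx with h | h
              · exact (Finset.mem_filter.1 h).1
              · exact (Finset.mem_filter.1 h).1
          have h11 := Finset.card_le_card h10
          rwa [Finset.card_insert_of_notMem h9] at h11
        omega
      · rw [Finset.not_nonempty_iff_eq_empty.1 hemp] at h6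
        simp only [Finset.card_empty] at h6
        omega)
    refine ⟨Fin.cons a₀ a', Fin.cons b₀ b', ?_, ?_, ?_, ?_⟩
    · intro i
      induction i using Fin.cases with
      | zero => simpa using ha₀
      | succ i => simpa using ((hZ'sub _).1 (h1 i)).2.2
    · intro i
      induction i using Fin.cases with
      | zero => simpa using hb₀
      | succ i => simpa using ((hZ'sub _).1 (h2 i)).2.2
    · intro i
      induction i using Fin.cases with
      | zero => simpa using hb₀ne.symm
      | succ i => simpa using h3 i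
    · intro i i' hii
      induction i using Fin.cases with
      | zero =>
        induction i' using Fin.cases with
        | zero => exact absurd rfl hii
        | succ i' =>
          simp only [Fin.cons_zero, Fin.cons_succ]
          have e1 := (hZ'sub _).1 (h1 i')
          have e2 := (hZ'sub _).1 (h2 i')
          exact ⟨e1.2.1.symm, e2.2.1.symm, e2.1.symm⟩
      | succ i =>
        induction i' using Fin.cases with
        | zero =>
          simp only [Fin.cons_zero, Fin.cons_succ]
          have e1 := (hZ'sub _).1 (h1 i)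
          have e2 := (hZ'sub _).1 (h2 i)
          exact ⟨e1.2.1, e1.1, e2.1⟩
        | succ i' =>
          simp only [Fin.cons_succ]
          exact h4 i i' (fun h => hii (by rw [h]))

theorem exists_not_mem (Z : Finset ι) (h : Z.card < Fintype.card ι) : ∃ l, l ∉ Z := by
  by_contra hcon
  push Not at hcon
  have : Z = Finset.univ := Finset.eq_univ_of_forall hcon
  rw [this, Finset.card_univ] at h
  exact lt_irrefl _ h

/-- The main statement. -/
theorem exists_ell (hF : Fintype.card F = q ^ 2) (hq : ∀ x, σ x = x ^ q) (C : ι → F) (hC : ∀ j, C j ≠ 0)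
    (hn : 13 ≤ Fintype.card ι) :
    ∃ τ : ι → Fˣ, (∀ j, (τ j : F) * σ (τ j) = 1) ∧ ∏ j, τ j = 1 ∧ ∑ j, ((τ j : F) - 1) * C j = 0 ∧
      (∃ j, τ j ≠ 1) ∧ ∃ j, τ j = 1 := by
  have hinv := sig_sig hF hq
  have hc := card_Cr hF hq
  have h2q := q_two_le hF
  by_cases ha : ∃ j j', j ≠ j' ∧ C j * σ (C j) = C j' * σ (C j') ∧ C j ≠ C j'
  · obtain ⟨j, j', hjj, hN, hne⟩ := ha
    have hu0 : C j' / C j ≠ 0 := div_ne_zero (hC j') (hC j)
    set u : Fˣ := Units.mk0 _ hu0 with hu
    have huv : (u : F) = C j' / C j := rfl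
    have hσj : σ (C j) ≠ 0 := by simpa using hC j
    have hucir : (u : F) * σ u = 1 := by
      rw [huv, map_div₀, div_mul_div_comm, div_eq_one_iff_eq (mul_ne_zero (hC j) hσj)]
      exact hN.symm
    have hG := Good.tt_pair (σ := σ) C hjj hinv u hucir
    refine ⟨_, hG.cir, hG.prod, ?_, ⟨j, ?_⟩, ?_⟩
    · have hσu : σ (C j' / C j) = C j / C j' := by
        rw [map_div₀, div_eq_div_iff hσj (hC j')]
        linear_combination -hN
      rw [hG.val, huv, hσu]
      have e1 : (C j' / C j - 1) * C j = C j' - C j := by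
        have := hC j
        field_simp
      have e2 : (C j / C j' - 1) * C j' = C j - C j' := by
        have := hC j'
        field_simp
      rw [e1, e2]
      ring
    · rw [tt_left]
      intro h
      apply hne
      have h1 : (u : F) = 1 := by rw [h]; rfl
      rw [huv, div_eq_one_iff_eq (hC j)] at h1
      exact h1.symm
    · obtain ⟨l, hl⟩ := exists_not_mem ({j, j'} : Finset ι)
        (lt_of_le_of_lt Finset.card_le_two (by omega))
      exact ⟨l, hG.supp l hl⟩
  push Not at ha
  by_cases hb : ∃ v, 6 ≤ (Finset.univ.filter fun j => C j = v).card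
  · obtain ⟨v, hv⟩ := hb
    obtain ⟨e⟩ : Nonempty (Fin 6 ↪ {j // j ∈ Finset.univ.filter fun j => C j = v}) :=
      Function.Embedding.nonempty_of_card_le (by rw [Fintype.card_fin, Fintype.card_coe]; exact hv)
    set x : Fin 6 → ι := fun i => (e i).1 with hx
    have hxinj : Function.Injective x := fun i i' h => e.injective (Subtype.ext h)
    have hxv : ∀ i, C (x i) = v := fun i => (Finset.mem_filter.1 (e i).2).2
    obtain ⟨s₁, hs₁, s₂, hs₂, s₃, hs₃, hs₃1, hsum⟩ := exists_three_trace (σ := σ) hF hq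
    have hne : ∀ i i' : Fin 6, i ≠ i' → x i ≠ x i' := fun i i' h h' => h (hxinj h')
    set u₁ : Fˣ := Units.mk0 s₁ (Cr_ne_zero hs₁)
    set u₂ : Fˣ := Units.mk0 s₂ (Cr_ne_zero hs₂)
    set u₃ : Fˣ := Units.mk0 s₃ (Cr_ne_zero hs₃)
    have g1 := Good.tt_pair (σ := σ) C (hne 0 1 (by decide)) hinv u₁ (mem_Cr.1 hs₁)
    have g2 := Good.tt_pair (σ := σ) C (hne 2 3 (by decide)) hinv u₂ (mem_Cr.1 hs₂)
    have g3 := Good.tt_pair (σ := σ) C (hne 4 5 (by decide)) hinv u₃ (mem_Cr.1 hs₃)
    have d1 : Disjoint ({x 0, x 1} : Finset ι) {x 2, x 3} := by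
      rw [Finset.disjoint_left]
      intro y hy hy'
      simp only [Finset.mem_insert, Finset.mem_singleton] at hy hy'
      rcases hy with rfl | rfl <;> rcases hy' with h | h <;> exact hne _ _ (by decide) h
    have g12 := g1.mul g2 d1
    have d2 : Disjoint (({x 0, x 1} : Finset ι) ∪ {x 2, x 3}) {x 4, x 5} := by
      rw [Finset.disjoint_left]
      intro y hy hy'
      simp only [Finset.mem_union, Finset.mem_insert, Finset.mem_singleton] at hy hy'
      rcases hy with (rfl | rfl) | (rfl | rfl) <;> rcases hy' with h | h <;>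
        exact hne _ _ (by decide) h
    have g := g12.mul g3 d2
    refine ⟨_, g.cir, g.prod, ?_, ⟨x 4, ?_⟩, ?_⟩
    · rw [g.val, hxv, hxv, hxv, hxv, hxv, hxv]
      show ((s₁ - 1) * v + (σ s₁ - 1) * v + ((s₂ - 1) * v + (σ s₂ - 1) * v)) +
        ((s₃ - 1) * v + (σ s₃ - 1) * v) = 0
      linear_combination v * hsum
    · have h4 : x 4 ∉ ({x 0, x 1} : Finset ι) ∪ {x 2, x 3} := by
        intro h
        simp only [Finset.mem_union, Finset.mem_insert, Finset.mem_singleton] at h
        rcases h with (h | h) | (h | h) <;> exact hne _ _ (by decide) h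
      have h5 : tt (x 0) (x 1) u₁ (x 4) * tt (x 2) (x 3) u₂ (x 4) = 1 := g12.supp _ h4
      show tt (x 0) (x 1) u₁ (x 4) * tt (x 2) (x 3) u₂ (x 4) * tt (x 4) (x 5) u₃ (x 4) ≠ 1
      rw [h5, one_mul, tt_left]
      intro h
      apply hs₃1
      have : (u₃ : F) = 1 := by rw [h]; rfl
      exact this
    · obtain ⟨l, hl⟩ := exists_not_mem (({x 0, x 1} : Finset ι) ∪ {x 2, x 3} ∪ {x 4, x 5}) (by
        have h1 := Finset.card_union_le (({x 0, x 1} : Finset ι) ∪ {x 2, x 3}) {x 4, x 5}
        have h2 := Finset.card_union_le ({x 0, x 1} : Finset ι) {x 2, x 3}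
        have h3 : ({x 0, x 1} : Finset ι).card ≤ 2 := Finset.card_le_two
        have h4 : ({x 2, x 3} : Finset ι).card ≤ 2 := Finset.card_le_two
        have h5 : ({x 4, x 5} : Finset ι).card ≤ 2 := Finset.card_le_two
        omega)
      exact ⟨l, g.supp l hl⟩
  push Not at hb
  obtain ⟨a, b, -, -, h3, h4⟩ := matching C 6 Finset.univ (by rw [Finset.card_univ]; omega) (by
    intro v
    have := hb v
    rw [Finset.card_univ]
    omega)
  have hN : ∀ i, C (a i) * σ (C (a i)) ≠ C (b i) * σ (C (b i)) := by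
    intro i h
    have hab : a i ≠ b i := fun h' => h3 i (by rw [h'])
    exact h3 i (ha _ _ hab h)
  obtain ⟨x, hx1, hx2, i₀, hi₀⟩ := six_set hF h2q (fun i => (Cr σ).image (TT σ (C (a i)) (C (b i))))
    (fun i => X_card hinv hc (hN i)) (fun i y hy => X_diff hinv (hN i) y hy)
  choose s hs hse using fun i => Finset.mem_image.1 (hx1 i)
  set u : Fin 6 → Fˣ := fun i => Units.mk0 (s i) (Cr_ne_zero (hs i)) with hu
  have hab : ∀ i, a i ≠ b i := fun i h' => h3 i (by rw [h'])
  have hG : ∀ S : Finset (Fin 6), Good σ C (fun j => ∏ i ∈ S, tt (a i) (b i) (u i) j)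
      (S.biUnion fun i => {a i, b i}) (∑ i ∈ S, x i) := by
    intro S
    induction S using Finset.induction_on with
    | empty => simpa using Good.one (σ := σ) C
    | insert i S hi ih =>
      have h1 := Good.tt_pair (σ := σ) C (hab i) hinv (u i) (mem_Cr.1 (hs i))
      have hxi : ((u i : F) - 1) * C (a i) + (σ (u i) - 1) * C (b i) = x i := hse i
      rw [hxi] at h1
      have hd : Disjoint ({a i, b i} : Finset ι) (S.biUnion fun i => {a i, b i}) := by
        rw [Finset.disjoint_biUnion_right]
        intro i' hi'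
        have hne : i ≠ i' := fun h => hi (h ▸ hi')
        obtain ⟨e1, e2, e3⟩ := h4 i i' hne
        obtain ⟨e4, e5, e6⟩ := h4 i' i hne.symm
        simp only [Finset.disjoint_insert_right, Finset.disjoint_insert_left, Finset.disjoint_singleton,
          Finset.mem_insert, Finset.mem_singleton, not_or, ne_eq]
        exact ⟨⟨e4, e5⟩, e2, e3⟩
      have h2 := h1.mul ih hd
      rw [Finset.sum_insert hi, Finset.biUnion_insert]
      convert h2 using 2 with j
      rw [Finset.prod_insert hi]
  have hg := hG Finset.univ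
  refine ⟨_, hg.cir, hg.prod, ?_, ⟨a i₀, ?_⟩, ?_⟩
  · rw [hg.val, hx2]
  · have h5 : ∏ i, tt (a i) (b i) (u i) (a i₀) = u i₀ := by
      rw [Finset.prod_eq_single i₀]
      · rw [tt_left]
      · intro i' _ hi'
        obtain ⟨e1, e2, e3⟩ := h4 i₀ i' hi'.symm
        exact tt_other _ e1 e2
      · simp
    show ∏ i, tt (a i) (b i) (u i) (a i₀) ≠ 1
    rw [h5]
    intro h
    apply hi₀
    have h6 : s i₀ = 1 := by
      have : (u i₀ : F) = 1 := by rw [h]; rfl
      exact this
    rw [← hse i₀, h6]
    simp [TT]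
  · obtain ⟨l, hl⟩ := exists_not_mem (Finset.univ.biUnion fun i => ({a i, b i} : Finset ι)) (by
      have h1 := Finset.card_biUnion_le (s := (Finset.univ : Finset (Fin 6))) (t := fun i => ({a i, b i} : Finset ι))
      have h2 : ∑ i : Fin 6, ({a i, b i} : Finset ι).card ≤ ∑ i : Fin 6, 2 :=
        Finset.sum_le_sum fun i _ => Finset.card_le_two
      simp at h2
      omega)
    exact ⟨l, hg.supp l hl⟩

end Cfsg.Agent.Lib.H97VC
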