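import Mathlib
import Cfsg.Agent.Lib.GLMon

/-!
# A monomial matrix close to a diagonal matrix

If a monomial matrix `y` differs from a diagonal matrix `D` by an operator with values in the span of a
finite set `W`, then at most `2 |W|` columns of `y` differ from those of `D`.
-/

set_option autoImplicit false
set_option linter.unusedSectionVars false
set_option linter.unusedVariables false

namespace Cfsg.Agent.Lib.H97VD

open Matrix Cfsg.Geo Cfsg.Agent.Lib.TvGL Cfsg.Agent.Lib.GLMon

variable {ι : Type} [Fintype ι] [DecidableEq ι] {F : Type*} [Field F] [DecidableEq F]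

/-- The acyclicity property used to choose coordinates. -/
def Acy (π : Equiv.Perm ι) (B : Finset ι) : Prop :=
  ∀ S, S ⊆ B → S.Nonempty → ∃ l ∈ S, π l ∉ S ∨ π l = l

theorem exists_acy (π : Equiv.Perm ι) (Z : Finset ι) :
    ∀ m : ℕ, 2 * m ≤ Z.card + 1 → ∃ B, B ⊆ Z ∧ B.card = m ∧ Acy π B := by
  intro m
  induction m with
  | zero =>
    intro _
    refine ⟨∅, by simp, by simp, ?_⟩
    intro S hS hne
    rw [Finset.subset_empty] at hS
    rw [hS] at hne
    exact absurd hne (by simp)
  | succ m ih =>
    intro h
    obtain ⟨B, hBZ, hBc, hB⟩ := ih (by omega)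
    have hcard : (B ∪ B.image π).card < Z.card := by
      have h1 := Finset.card_union_le B (B.image π)
      have h2 : (B.image π).card ≤ B.card := Finset.card_image_le
      omega
    obtain ⟨l, hlZ, hl⟩ : ∃ l ∈ Z, l ∉ B ∪ B.image π := by
      by_contra hcon
      push Not at hcon
      exact absurd (Finset.card_le_card hcon) (by omega)
    have hlB : l ∉ B := fun h => hl (Finset.mem_union_left _ h)
    have hlπ : ∀ i ∈ B, π i ≠ l := fun i hi h =>
      hl (Finset.mem_union_right _ (Finset.mem_image.2 ⟨i, hi, h⟩))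
    refine ⟨insert l B, Finset.insert_subset hlZ hBZ, by rw [Finset.card_insert_of_notMem hlB, hBc], ?_⟩
    intro S hS hne
    by_cases hlS : l ∈ S
    · by_cases hS' : (S.erase l).Nonempty
      · have hsub : S.erase l ⊆ B := by
          intro i hi
          obtain ⟨h1, h2⟩ := Finset.mem_erase.1 hi
          rcases Finset.mem_insert.1 (hS h2) with h3 | h3
          · exact absurd h3 h1
          · exact h3
        obtain ⟨i, hi, hi'⟩ := hB _ hsub hS'
        have hiB := hsub hi
        refine ⟨i, (Finset.mem_erase.1 hi).2, ?_⟩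
        rcases hi' with h3 | h3
        · left
          intro h4
          apply h3
          exact Finset.mem_erase.2 ⟨hlπ i hiB, h4⟩
        · right
          exact h3
      · have hS1 : S = {l} := by
          ext i
          simp only [Finset.mem_singleton]
          constructor
          · intro hi
            by_contra hil
            exact hS' ⟨i, Finset.mem_erase.2 ⟨hil, hi⟩⟩
          · rintro rfl
            exact hlS
        refine ⟨l, hlS, ?_⟩
        by_cases h5 : π l = l
        · right; exact h5
        · left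
          rw [hS1]
          simpa using h5
    · have hsub : S ⊆ B := by
        intro i hi
        rcases Finset.mem_insert.1 (hS hi) with h3 | h3
        · exact absurd (h3 ▸ hi) hlS
        · exact h3
      exact hB S hsub hne

theorem exists_functional (W : Finset (ι → F)) (B : Finset ι) (hB : B.card = W.card + 1) :
    ∃ ζ : ι → F, ζ ≠ 0 ∧ (∀ i, i ∉ B → ζ i = 0) ∧ ∀ w ∈ W, ζ ⬝ᵥ w = 0 := by
  classical
  let L : (↥B → F) →ₗ[F] (↥W → F) :=
    { toFun := fun z w => ∑ i : ↥B, z i * (w.1 i.1)
      map_add' := by
        intro a b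
        ext w
        simp [add_mul, Finset.sum_add_distrib]
      map_smul' := by
        intro c a
        ext w
        simp [Finset.mul_sum, mul_assoc] }
  have hk : LinearMap.ker L ≠ ⊥ := by
    apply LinearMap.ker_ne_bot_of_finrank_lt
    simp only [Module.finrank_fintype_fun_eq_card, Fintype.card_coe]
    omega
  obtain ⟨z, hz, hz0⟩ := Submodule.exists_mem_ne_zero_of_ne_bot hk
  let ζ : ι → F := fun i => if h : i ∈ B then z ⟨i, h⟩ else 0
  have hζ : ∀ i : ↥B, ζ i.1 = z i := by
    intro i
    simp [ζ, i.2]
  refine ⟨ζ, ?_, ?_, ?_⟩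
  · intro h0
    apply hz0
    ext i
    rw [← hζ i, h0]
    rfl
  · intro i hi
    simp [ζ, hi]
  · intro w hw
    have h1 : L z ⟨w, hw⟩ = 0 := by
      have := LinearMap.mem_ker.1 hz
      rw [this]
      rfl
    have h2 : ζ ⬝ᵥ w = ∑ i ∈ B, ζ i * w i := by
      simp only [dotProduct]
      symm
      apply Finset.sum_subset (Finset.subset_univ _)
      intro i _ hi
      simp [ζ, hi]
    rw [h2, ← Finset.sum_coe_sort]
    rw [← h1]
    show _ = ∑ i : ↥B, z i * (w i.1)
    apply Finset.sum_congr rfl
    intro i _
    rw [hζ]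

/-- The main statement: a monomial matrix is not close to a diagonal matrix. -/
theorem no_mon {y : GL ι F} (hy : IsMono y) (D : ι → F) (hD : ∀ l, D l ≠ 0) (W : Finset (ι → F))
    (hW : ∀ l, (y : Matrix ι ι F) *ᵥ Pi.single l 1 - D l • Pi.single l 1 ∈ Submodule.span F (W : Set (ι → F)))
    (Z : Finset ι) (hZ : ∀ l ∈ Z, (y : Matrix ι ι F) *ᵥ Pi.single l 1 ≠ D l • Pi.single l 1)
    (hcard : 2 * W.card + 1 ≤ Z.card) : False := by
  obtain ⟨π, hπ⟩ := hy
  obtain ⟨B, hBZ, hBc, hB⟩ := exists_acy π Z (W.card + 1) (by omega)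
  obtain ⟨ζ, hζ0, hζB, hζW⟩ := exists_functional W B hBc
  -- the functional vanishes on the span
  have hspan : ∀ v ∈ Submodule.span F (W : Set (ι → F)), ζ ⬝ᵥ v = 0 := by
    intro v hv
    induction hv using Submodule.span_induction with
    | mem x hx => exact hζW x hx
    | zero => simp
    | add x y _ _ hx hy => rw [dotProduct_add, hx, hy, add_zero]
    | smul c x _ hx => rw [dotProduct_smul, hx, smul_zero]
  have hcol : ∀ l, (y : Matrix ι ι F) *ᵥ Pi.single l 1 =
      Pi.single (π l) ((y : Matrix ι ι F) (π l) l) := by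
    intro l
    ext b
    rw [Matrix.mulVec_single_one]
    by_cases hb : b = π l
    · subst hb
      simp
    · rw [Pi.single_eq_of_ne hb]
      exact hπ l b hb
  have hkey : ∀ l, ζ (π l) * (y : Matrix ι ι F) (π l) l = D l * ζ l := by
    intro l
    have h1 := hspan _ (hW l)
    rw [dotProduct_sub, hcol, dotProduct_smul] at h1
    simp only [dotProduct_single, smul_eq_mul, mul_one] at h1
    linear_combination h1
  have hyne : ∀ l, (y : Matrix ι ι F) (π l) l ≠ 0 := by
    intro l h0
    obtain ⟨k, hk⟩ := col_ne_zero y l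
    by_cases hkl : k = π l
    · rw [hkl] at hk
      exact hk h0
    · exact hk (hπ l k hkl)
  set S := B.filter fun i => ζ i ≠ 0 with hS
  have hSne : S.Nonempty := by
    by_contra hcon
    apply hζ0
    ext i
    by_contra hi
    apply hcon
    have hiB : i ∈ B := by
      by_contra h
      exact hi (hζB i h)
    exact ⟨i, Finset.mem_filter.2 ⟨hiB, hi⟩⟩
  obtain ⟨l, hlS, hl⟩ := hB S (Finset.filter_subset _ _) hSne
  obtain ⟨hlB, hlζ⟩ := Finset.mem_filter.1 hlS
  have hk := hkey l
  have h1 : ζ (π l) ≠ 0 := by
    intro h0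
    rw [h0, zero_mul] at hk
    exact (mul_ne_zero (hD l) hlζ) hk.symm
  rcases hl with h2 | h2
  · apply h2
    refine Finset.mem_filter.2 ⟨?_, h1⟩
    by_contra h3
    exact h1 (hζB _ h3)
  · rw [h2] at hk
    have h3 : (y : Matrix ι ι F) l l = D l := by
      apply mul_left_cancel₀ hlζ
      linear_combination hk
    apply hZ l (hBZ hlB)
    rw [hcol, h2, h3]
    ext b
    by_cases hb : b = l
    · subst hb
      simp
    · simp [Pi.single_eq_of_ne hb]

end Cfsg.Agent.Lib.H97VD
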