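import Mathlib
import Cfsg.Agent.Lib.UWitt
import Cfsg.Agent.Lib.UTIPair
import Cfsg.Agent.Lib.HermOrtho
import Cfsg.Agent.Lib.GLMon
import Cfsg.Agent.Lib.GLMonStar
import Cfsg.Agent.Lib.H97VC
import Cfsg.Agent.Lib.H97VD

/-!
# Coordinates for the standard Hermitian form; conjugates of torus elements

Basic facts on the standard Hermitian form and unitary matrices, monomial unitary matrices, and conjugates of
diagonal matrices by unitary matrices; a rank-two element of the unitary group that is monomial has its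
eigenvectors in coordinate lines or a coordinate plane.
-/

set_option autoImplicit false
set_option linter.unusedSectionVars false
set_option linter.unusedVariables false

namespace Cfsg.Agent.Lib.H97VE

open Matrix Cfsg Cfsg.Geo Cfsg.Agent.Lib.TvGL Cfsg.Agent.Lib.SympT Cfsg.Agent.Lib.UForm
  Cfsg.Agent.Lib.UTrans Cfsg.Agent.Lib.GLMon Cfsg.Agent.Lib.HermForm
  Cfsg.Agent.Lib.H97VA Cfsg.Agent.Lib.H97VB Cfsg.Agent.Lib.H97VC Cfsg.Agent.Lib.H97VD
open Cfsg.Agent.H97.Asch (herm_unitary hermSigma hermSigma_apply)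
open scoped MatrixGroups

local notation:70 g:71 " ⋆ " x:70 => Matrix.mulVec (Units.val g) x

variable {n : ℕ} {F : Type*} [Field F] [Fintype F] {q : ℕ}

local notation "⟪" u ", " v "⟫" => hermForm n F q u v

/-- The coordinate vector. -/
local notation "𝐞" i => (Pi.single i (1 : F) : Fin n → F)

section Basics

variable (hF : Fintype.card F = q ^ 2)

local notation "σ" => hermSigma hF

include hF

theorem sig_sig' (a : F) : σ (σ a) = a := (herm_unitary (n := 0) hF).involutive a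

theorem form_e_right (u : Fin n → F) (i : Fin n) : ⟪u, 𝐞 i⟫ = u i := hermForm_single_right hF u i

theorem form_e_left (u : Fin n → F) (i : Fin n) : ⟪𝐞 i, u⟫ = σ (u i) := hermForm_single_left u i

theorem form_e_e (i j : Fin n) : ⟪𝐞 i, 𝐞 j⟫ = if i = j then 1 else 0 := by
  rw [form_e_right hF]
  by_cases h : i = j
  · subst h
    simp
  · rw [if_neg h, Pi.single_eq_of_ne (Ne.symm h)]

theorem gu_pres {x : GL (Fin n) F} (hx : x ∈ GU n F q) (u v : Fin n → F) : ⟪x ⋆ u, x ⋆ v⟫ = ⟪u, v⟫ :=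
  hx u v

theorem gu_pres' {x : GL (Fin n) F} (hx : x ∈ GU n F q) : x ∈ preserving (glToMat (Fin n) F) (hermForm n F q) :=
  hx

/-- Entries of the inverse of a unitary matrix. -/
theorem gu_inv_entry {x : GL (Fin n) F} (hx : x ∈ GU n F q) (j k : Fin n) :
    ((x⁻¹ : GL (Fin n) F) : Matrix (Fin n) (Fin n) F) j k = σ ((x : Matrix (Fin n) (Fin n) F) k j) := by
  have h1 : ((x⁻¹ : GL (Fin n) F) : Matrix (Fin n) (Fin n) F) j k = ⟪x⁻¹ ⋆ (𝐞 k), 𝐞 j⟫ := by
    rw [form_e_right hF, Matrix.mulVec_single_one, Matrix.col_apply]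
  have h2 := gu_pres hF hx (x⁻¹ ⋆ (𝐞 k)) (𝐞 j)
  rw [mulVec_inv_GL] at h2
  rw [h1, ← h2, form_e_left hF, Matrix.mulVec_single_one, Matrix.col_apply]

/-- Adjoint identity. -/
theorem gu_adj {x : GL (Fin n) F} (hx : x ∈ GU n F q) (u v : Fin n → F) : ⟪x⁻¹ ⋆ u, v⟫ = ⟪u, x ⋆ v⟫ := by
  have h2 := gu_pres hF hx (x⁻¹ ⋆ u) v
  rw [mulVec_inv_GL] at h2
  exact h2.symm

theorem gu_col (x : GL (Fin n) F) (k b : Fin n) :
    (x ⋆ (𝐞 k)) b = (x : Matrix (Fin n) (Fin n) F) b k := by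
  rw [Matrix.mulVec_single_one, Matrix.col_apply]

theorem gu_orth {x : GL (Fin n) F} (hx : x ∈ GU n F q) (i j : Fin n) :
    ⟪x ⋆ (𝐞 i), x ⋆ (𝐞 j)⟫ = if i = j then 1 else 0 := by
  rw [gu_pres hF hx, form_e_e hF]

/-- The expansion in an orthonormal frame. -/
theorem frame_expand {x : GL (Fin n) F} (hx : x ∈ GU n F q) (w : Fin n → F) :
    w = ∑ j, ⟪w, x ⋆ (𝐞 j)⟫ • (x ⋆ (𝐞 j)) := by
  have h1 : x⁻¹ ⋆ w = ∑ j, (x⁻¹ ⋆ w) j • (𝐞 j) := by
    ext b
    rw [Finset.sum_apply, Finset.sum_eq_single b]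
    · simp
    · intro j _ hj
      simp [Pi.single_eq_of_ne (Ne.symm hj)]
    · simp
  have h2 : ∀ j, (x⁻¹ ⋆ w) j = ⟪w, x ⋆ (𝐞 j)⟫ := by
    intro j
    rw [← gu_adj hF hx, form_e_right hF]
  have h3 : w = x ⋆ (x⁻¹ ⋆ w) := (mulVec_inv_GL x w).symm
  conv_lhs => rw [h3, h1]
  rw [Matrix.mulVec_sum]
  apply Finset.sum_congr rfl
  intro j _
  rw [h2, Matrix.mulVec_smul]

/-- A monomial matrix with entries on the circle is unitary. -/
theorem mon_mem_GU (π : Equiv.Perm (Fin n)) (s : Fin n → Fˣ) (hs : ∀ i, (s i : F) * σ (s i) = 1) :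
    (mon π s : GL (Fin n) F) ∈ GU n F q := by
  intro u v
  show ⟪(mon π s : GL (Fin n) F) ⋆ u, (mon π s : GL (Fin n) F) ⋆ v⟫ = ⟪u, v⟫
  unfold hermForm
  rw [← Equiv.sum_comp π]
  apply Finset.sum_congr rfl
  intro i _
  rw [mon_mulVec, mon_mulVec]
  simp only [Equiv.symm_apply_apply]
  rw [mul_pow]
  have h1 : (s i : F) * (s i : F) ^ q = 1 := hs i
  linear_combination (u i * v i ^ q) * h1

theorem mon_mem_K (π : Equiv.Perm (Fin n)) (s : Fin n → Fˣ) (hs : ∀ i, (s i : F) * σ (s i) = 1)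
    (h : (((Equiv.Perm.sign π : ℤˣ) : ℤ) : F) * ∏ a, (s a : F) = 1) :
    (mon π s : GL (Fin n) F) ∈ GU n F q ⊓ specialLinear (Fin n) F :=
  ⟨mon_mem_GU hF π s hs, mon_mem_SL π s h⟩

theorem dg_mem_K (s : Fin n → Fˣ) (hs : ∀ i, (s i : F) * σ (s i) = 1) (h : ∏ a, s a = 1) :
    dg s ∈ GU n F q ⊓ specialLinear (Fin n) F :=
  ⟨mon_mem_GU hF _ s hs, dg_mem_SL s h⟩

theorem tt_cir {a b : Fin n} (hab : a ≠ b) (u : Fˣ) (hu : (u : F) * σ u = 1) (i : Fin n) :
    ((tt a b u i : Fˣ) : F) * σ (tt a b u i) = 1 := by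
  classical
  exact (Good.tt_pair (fun _ => (0 : F)) hab (sig_sig' hF) u hu).cir i

/-- The action of a diagonal matrix. -/
theorem dg_mulVec_eq (s : Fin n → Fˣ) (u : Fin n → F) :
    dg s ⋆ u = u + ∑ j, (((s j : F) - 1) * u j) • (𝐞 j) := by
  ext b
  rw [dg_mulVec, Pi.add_apply, Finset.sum_apply, Finset.sum_eq_single b]
  · simp
    ring
  · intro j _ hj
    simp [Pi.single_eq_of_ne (Ne.symm hj)]
  · simp

/-- The conjugate of a diagonal matrix by a unitary matrix. -/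
theorem conj_dg {x : GL (Fin n) F} (hx : x ∈ GU n F q) (s : Fin n → Fˣ) (w : Fin n → F) :
    (x * dg s * x⁻¹) ⋆ w = w + ∑ j, (((s j : F) - 1) * ⟪w, x ⋆ (𝐞 j)⟫) • (x ⋆ (𝐞 j)) := by
  rw [mulVec_mul_GL, mulVec_mul_GL, dg_mulVec_eq hF, Matrix.mulVec_add, mulVec_inv_GL, Matrix.mulVec_sum]
  congr 1
  apply Finset.sum_congr rfl
  intro j _
  rw [Matrix.mulVec_smul, ← gu_adj hF hx, form_e_right hF]

/-- Entries of the conjugate. -/
theorem conj_entry' {x : GL (Fin n) F} (hx : x ∈ GU n F q) (s : Fin n → Fˣ) (c k : Fin n) :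
    ((x * dg s * x⁻¹ : GL (Fin n) F) : Matrix (Fin n) (Fin n) F) c k =
      ∑ j, (s j : F) * ((x : Matrix (Fin n) (Fin n) F) c j * σ ((x : Matrix (Fin n) (Fin n) F) k j)) := by
  rw [Units.val_mul, Units.val_mul, Matrix.mul_apply]
  apply Finset.sum_congr rfl
  intro j _
  rw [gu_inv_entry hF hx, Matrix.mul_apply, Finset.sum_eq_single j]
  · rw [dg_apply, if_pos rfl]
    ring
  · intro i _ hi
    rw [dg_apply, if_neg hi, mul_zero]
  · simp

/-- Orthogonality of rows. -/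
theorem row_orth {x : GL (Fin n) F} (hx : x ∈ GU n F q) {c k : Fin n} (h : c ≠ k) :
    ∑ j, (x : Matrix (Fin n) (Fin n) F) c j * σ ((x : Matrix (Fin n) (Fin n) F) k j) = 0 := by
  have h1 : (x * x⁻¹ : GL (Fin n) F) = 1 := mul_inv_cancel x
  have h2 : ((x * x⁻¹ : GL (Fin n) F) : Matrix (Fin n) (Fin n) F) c k = 0 := by
    rw [h1, Units.val_one, Matrix.one_apply_ne h]
  rw [Units.val_mul, Matrix.mul_apply] at h2
  rw [← h2]
  apply Finset.sum_congr rfl
  intro j _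
  rw [gu_inv_entry hF hx]

end Basics

end Cfsg.Agent.Lib.H97VE
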