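import Mathlib
import Cfsg.Agent.Lib.H97VE

/-!
# Monomial rank-two elements of the unitary group
-/

set_option autoImplicit false
set_option linter.unusedSectionVars false
set_option linter.unusedVariables false

namespace Cfsg.Agent.Lib.H97VF

open Matrix Cfsg Cfsg.Geo Cfsg.Agent.Lib.TvGL Cfsg.Agent.Lib.SympT Cfsg.Agent.Lib.UForm
  Cfsg.Agent.Lib.UTrans Cfsg.Agent.Lib.GLMon Cfsg.Agent.Lib.HermForm
  Cfsg.Agent.Lib.H97VA Cfsg.Agent.Lib.H97VB Cfsg.Agent.Lib.H97VC Cfsg.Agent.Lib.H97VD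
  Cfsg.Agent.Lib.H97VE
open Cfsg.Agent.H97.Asch (herm_unitary hermSigma hermSigma_apply)
open scoped MatrixGroups

local notation:70 g:71 " ⋆ " x:70 => Matrix.mulVec (Units.val g) x

variable {n : ℕ} {F : Type*} [Field F] [Fintype F] {q : ℕ}

local notation "⟪" u ", " v "⟫" => hermForm n F q u v

/-- The coordinate vector. -/
local notation "𝐞" i => (Pi.single i (1 : F) : Fin n → F)

variable (hF : Fintype.card F = q ^ 2)

local notation "σ" => hermSigma hF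

/-- A rank-two element: the data and its action. -/
structure Rk2 (y : GL (Fin n) F) (v v' : Fin n → F) (a : F) : Prop where
  act : ∀ w, y ⋆ w = w + ((a - 1) * ⟪w, v⟫) • v + ((σ a - 1) * ⟪w, v'⟫) • v'
  hv : ⟪v, v⟫ = 1
  hv' : ⟪v', v'⟫ = 1
  hvv' : ⟪v, v'⟫ = 0
  ha : a * σ a = 1
  ha2 : a ^ 2 ≠ 1
  ha3 : a ^ 3 ≠ 1

variable {hF}

variable {y : GL (Fin n) F} {v v' : Fin n → F} {a : F}

include hF

theorem Rk2.hv'v (h : Rk2 hF y v v' a) : ⟪v', v⟫ = 0 :=
  f_swap_zero (herm_unitary hF) h.hvv'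

theorem Rk2.act_v (h : Rk2 hF y v v' a) : y ⋆ v = a • v := by
  rw [h.act v, h.hv, h.hvv']
  module

theorem Rk2.act_v' (h : Rk2 hF y v v' a) : y ⋆ v' = σ a • v' := by
  rw [h.act v', h.hv', h.hv'v]
  module

theorem Rk2.ane (h : Rk2 hF y v v' a) : a ≠ σ a := by
  intro h0
  apply h.ha2
  rw [sq]
  nth_rewrite 2 [h0]
  exact h.ha

theorem Rk2.a1 (h : Rk2 hF y v v' a) : a ≠ 1 := by
  rintro rfl
  exact h.ha2 (one_pow 2)

theorem Rk2.act2 (h : Rk2 hF y v v' a) (w : Fin n → F) :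
    y ⋆ (y ⋆ w) = w + ((a ^ 2 - 1) * ⟪w, v⟫) • v + (((σ a) ^ 2 - 1) * ⟪w, v'⟫) • v' := by
  rw [h.act w, Matrix.mulVec_add, Matrix.mulVec_add, Matrix.mulVec_smul, Matrix.mulVec_smul, h.act_v, h.act_v',
    h.act w]
  module

theorem Rk2.cubic (h : Rk2 hF y v v' a) (w : Fin n → F) :
    y ⋆ (y ⋆ (y ⋆ w)) - (1 + a + σ a) • (y ⋆ (y ⋆ w)) + (1 + a + σ a) • (y ⋆ w) - w = 0 := by
  have h2 := h.act2 w
  have h3 : y ⋆ (y ⋆ (y ⋆ w)) =
      y ⋆ w + ((a ^ 2 - 1) * ⟪w, v⟫ * a) • v + (((σ a) ^ 2 - 1) * ⟪w, v'⟫ * σ a) • v' := by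
    rw [h2, Matrix.mulVec_add, Matrix.mulVec_add, Matrix.mulVec_smul, Matrix.mulVec_smul, h.act_v, h.act_v',
      smul_smul, smul_smul]
  rw [h3, h2, h.act w]
  have e : ∀ A : F, A * (a - 1) + A * (a ^ 2 - 1) * a - (1 + a + σ a) * (A * (a ^ 2 - 1)) +
      (1 + a + σ a) * (A * (a - 1)) = 0 := by
    intro A
    linear_combination (-(A * (a - 1))) * h.ha
  have e' : ∀ A : F, A * (σ a - 1) + A * ((σ a) ^ 2 - 1) * σ a - (1 + a + σ a) * (A * ((σ a) ^ 2 - 1)) +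
      (1 + a + σ a) * (A * (σ a - 1)) = 0 := by
    intro A
    linear_combination (-(A * (σ a - 1))) * h.ha
  have e1 := e ⟪w, v⟫
  have e2 := e' ⟪w, v'⟫
  linear_combination (norm := module) (e1 • v) + (e2 • v')


omit hF in
theorem mono_col {y : GL (Fin n) F} {π : Equiv.Perm (Fin n)}
    (hπ : ∀ a b, b ≠ π a → (y : Matrix (Fin n) (Fin n) F) b a = 0) (l : Fin n) :
    y ⋆ (𝐞 l) = (y : Matrix (Fin n) (Fin n) F) (π l) l • (𝐞 (π l)) := by
  ext b
  rw [Matrix.mulVec_single_one, Matrix.col_apply, Pi.smul_apply]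
  by_cases hb : b = π l
  · subst hb
    simp
  · rw [hπ l b hb, Pi.single_eq_of_ne hb]
    simp

omit hF in
theorem mono_ne {y : GL (Fin n) F} {π : Equiv.Perm (Fin n)}
    (hπ : ∀ a b, b ≠ π a → (y : Matrix (Fin n) (Fin n) F) b a = 0) (l : Fin n) :
    (y : Matrix (Fin n) (Fin n) F) (π l) l ≠ 0 := by
  intro h0
  obtain ⟨k, hk⟩ := col_ne_zero y l
  by_cases hkl : k = π l
  · rw [hkl] at hk
    exact hk h0
  · exact hk (hπ l k hkl)

omit hF in
theorem mono_mulVec {y : GL (Fin n) F} {π : Equiv.Perm (Fin n)}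
    (hπ : ∀ a b, b ≠ π a → (y : Matrix (Fin n) (Fin n) F) b a = 0) (u : Fin n → F) (l : Fin n) :
    (y ⋆ u) (π l) = (y : Matrix (Fin n) (Fin n) F) (π l) l * u l := by
  simp only [Matrix.mulVec, dotProduct]
  rw [Finset.sum_eq_single l]
  · intro j _ hj
    rw [hπ j (π l) (fun h => hj (π.injective h).symm), zero_mul]
  · simp

theorem Rk2.moved (h : Rk2 hF y v v' a) {π : Equiv.Perm (Fin n)}
    (hπ : ∀ a b, b ≠ π a → (y : Matrix (Fin n) (Fin n) F) b a = 0) {l : Fin n} (hl : π l ≠ l) :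
    a ^ 2 = -1 ∧ y ⋆ (y ⋆ (𝐞 l)) = -(𝐞 l) := by
  set s : Fin n → F := fun i => (y : Matrix (Fin n) (Fin n) F) (π i) i with hs
  have hs0 : ∀ i, s i ≠ 0 := fun i => mono_ne hπ i
  have col : ∀ i, y ⋆ (𝐞 i) = s i • (𝐞 (π i)) := fun i => mono_col hπ i
  have hy2 : y ⋆ (y ⋆ (𝐞 l)) = (s l * s (π l)) • (𝐞 (π (π l))) := by
    rw [col, Matrix.mulVec_smul, col, smul_smul]
  have hy3 : y ⋆ (y ⋆ (y ⋆ (𝐞 l))) = (s l * s (π l) * s (π (π l))) • (𝐞 (π (π (π l)))) := by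
    rw [hy2, Matrix.mulVec_smul, col, smul_smul]
  have hc := h.cubic (𝐞 l)
  rw [hy3, hy2, col] at hc
  set c := 1 + a + σ a with hcdef
  have ev : ∀ b, (s l * s (π l) * s (π (π l))) * (𝐞 (π (π (π l)))) b - c * ((s l * s (π l)) * (𝐞 (π (π l))) b)
      + c * (s l * (𝐞 (π l)) b) - (𝐞 l) b = 0 := by
    intro b
    have := congrFun hc b
    simpa using this
  have hl' : π l ≠ l := hl
  by_cases h2 : π (π l) = l
  · have h3 : π (π (π l)) = π l := by rw [h2]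
    have e1 := ev (π l)
    rw [h3, h2] at e1
    simp only [Pi.single_eq_same, Pi.single_eq_of_ne hl, mul_one, mul_zero, sub_zero] at e1
    have e2 := ev l
    rw [h3, h2] at e2
    simp only [Pi.single_eq_same, Pi.single_eq_of_ne (Ne.symm hl), mul_one, mul_zero, zero_add, add_zero] at e2
    have e3 : s l * s (π l) = - c := by
      apply mul_left_cancel₀ (hs0 l)
      linear_combination e1
    have e4 : c * c = 1 := by
      rw [e3] at e2
      linear_combination e2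
    have hcinv : (a + σ a) * (a + σ a + 2) = 0 := by
      rw [hcdef] at e4
      linear_combination e4
    have hfin : a ^ 2 = -1 := by
      rcases mul_eq_zero.1 hcinv with h5 | h5
      · linear_combination a * h5 - h.ha
      · exfalso
        have h6 : (a + 1) ^ 2 = 0 := by linear_combination a * h5 - h.ha
        have h7 : a = -1 := by
          have := pow_eq_zero_iff (two_ne_zero) |>.1 h6
          linear_combination this
        apply h.ha2
        rw [h7]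
        ring
    refine ⟨hfin, ?_⟩
    have hcc : c = 1 := by
      have h5 : a + σ a = 0 := by
        have h6 : a * (a + σ a) = 0 := by linear_combination hfin + h.ha
        have h7 : a ≠ 0 := by
          rintro rfl
          have := h.ha
          simp at this
        exact (mul_eq_zero.1 h6).resolve_left h7
      rw [hcdef]
      linear_combination h5
    rw [hy2, h2, e3, hcc]
    simp
  · exfalso
    have h3 : π (π l) ≠ π l := fun h' => hl (π.injective h')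
    have h4 : π (π (π l)) ≠ π l := fun h' => h2 (π.injective h')
    have e1 := ev (π l)
    simp only [Pi.single_eq_same, Pi.single_eq_of_ne (Ne.symm h4), Pi.single_eq_of_ne (Ne.symm h3),
      Pi.single_eq_of_ne hl, mul_one, mul_zero, sub_zero, zero_add] at e1
    have e2 : c = 0 := (mul_eq_zero.1 e1).resolve_right (hs0 l)
    apply h.ha3
    have e3 : a * a + a + 1 = 0 := by
      rw [hcdef] at e2
      linear_combination a * e2 - h.ha
    linear_combination (a - 1) * e3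

theorem Rk2.swap (h : Rk2 hF y v v' a) : Rk2 hF y v' v (σ a) where
  act w := by
    rw [h.act w, sig_sig' hF a]
    abel
  hv := h.hv'
  hv' := h.hv
  hvv' := h.hv'v
  ha := by
    rw [sig_sig' hF a, mul_comm]
    exact h.ha
  ha2 := by
    intro h0
    apply h.ha2
    have h1 : hermSigma hF (a ^ 2) = 1 := by rw [map_pow]; exact h0
    exact (map_eq_one_iff _ (RingEquiv.injective _)).1 h1
  ha3 := by
    intro h0
    apply h.ha3
    have h1 : hermSigma hF (a ^ 3) = 1 := by rw [map_pow]; exact h0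
    exact (map_eq_one_iff _ (RingEquiv.injective _)).1 h1

theorem Rk2.fixed (h : Rk2 hF y v v' a) {π : Equiv.Perm (Fin n)}
    (hπ : ∀ a b, b ≠ π a → (y : Matrix (Fin n) (Fin n) F) b a = 0) {m : Fin n} (hm : π m = m)
    (hvm : v m ≠ 0) : ∃ p : F, (𝐞 m) = p • v := by
  have hf := herm_unitary (n := n) hF
  have h1 := mono_mulVec hπ v m
  rw [h.act_v, hm, Pi.smul_apply, smul_eq_mul] at h1
  have h2 : (y : Matrix (Fin n) (Fin n) F) m m = a := (mul_right_cancel₀ hvm h1).symm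
  have h3 := mono_col hπ m
  rw [hm, h2] at h3
  have h4 := h.act (𝐞 m)
  rw [h3] at h4
  set p := ⟪𝐞 m, v⟫ with hp
  set p' := ⟪𝐞 m, v'⟫ with hp'
  have h5 : a * p' = p' + ((a - 1) * p) * 0 + ((σ a - 1) * p') * 1 := by
    have this : ⟪a • (𝐞 m), v'⟫ = ⟪(𝐞 m) + ((a - 1) * p) • v + ((σ a - 1) * p') • v', v'⟫ := by rw [h4]
    rw [hf.smul_left, hf.add_left, hf.add_left, hf.smul_left, hf.smul_left, h.hvv', h.hv'] at this
    exact this
  have h6 : (a - σ a) * p' = 0 := by linear_combination h5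
  have hp'0 : p' = 0 := (mul_eq_zero.1 h6).resolve_left (sub_ne_zero.2 h.ane)
  rw [hp'0, mul_zero, zero_smul, add_zero] at h4
  refine ⟨p, ?_⟩
  have h7 : (a - 1) • ((𝐞 m) - p • v) = 0 := by
    linear_combination (norm := module) h4
  rcases smul_eq_zero.1 h7 with h8 | h8
  · exact absurd (sub_eq_zero.1 h8) h.a1
  · exact sub_eq_zero.1 h8

theorem Rk2.in_plane (h : Rk2 hF y v v' a) (ha : a ^ 2 = -1) {l : Fin n}
    (hl : y ⋆ (y ⋆ (𝐞 l)) = -(𝐞 l)) : ∃ p p' : F, (𝐞 l) = p • v + p' • v' := by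
  have hs : (σ a) ^ 2 = -1 := by
    rw [← map_pow, ha]
    simp
  have h1 := h.act2 (𝐞 l)
  rw [hl, ha, hs] at h1
  have h2 : (2 : F) ≠ 0 := by
    intro h0
    apply h.ha2
    rw [ha]
    linear_combination -h0
  refine ⟨⟪𝐞 l, v⟫, ⟪𝐞 l, v'⟫, ?_⟩
  have h3 : (2 : F) • ((𝐞 l) - (⟪𝐞 l, v⟫ • v + ⟪𝐞 l, v'⟫ • v')) = 0 := by
    linear_combination (norm := module) -h1
  rcases smul_eq_zero.1 h3 with h4 | h4
  · exact absurd h4 h2
  · exact sub_eq_zero.1 h4

omit hF in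
theorem three_not_in_plane {v v' : Fin n → F} {l l₁ m : Fin n} (h1 : l ≠ l₁) (h2 : l ≠ m) (h3 : l₁ ≠ m)
    {p p' r r' t t' : F} (e1 : (𝐞 l) = p • v + p' • v') (e2 : (𝐞 l₁) = r • v + r' • v')
    (e3 : (𝐞 m) = t • v + t' • v') : False := by
  obtain ⟨d1, d2, d3, hd, h4, h5⟩ := Cfsg.Agent.Lib.GLMonStar.exists_delta p r t p' r' t'
  have h6 : d1 • (𝐞 l) + d2 • (𝐞 l₁) + d3 • (𝐞 m) = 0 := by
    rw [e1, e2, e3]
    linear_combination (norm := module) h4 • v + h5 • v'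
  have c1 := congrFun h6 l
  have c2 := congrFun h6 l₁
  have c3 := congrFun h6 m
  simp [Pi.single_eq_of_ne h1, Pi.single_eq_of_ne h2, Pi.single_eq_of_ne h3, Pi.single_eq_of_ne h1.symm,
    Pi.single_eq_of_ne h2.symm, Pi.single_eq_of_ne h3.symm] at c1 c2 c3
  rcases hd with h | h | h
  · exact h c1
  · exact h c2
  · exact h c3

/-- The monomial rank-two elements. -/
theorem Rk2.S1 (h : Rk2 hF y v v' a) (hm : IsMono y) :
    (∃ l, ∃ c : F, v = c • (𝐞 l)) ∨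
      ∃ l l₁ : Fin n, l ≠ l₁ ∧ (∀ m, m ≠ l → m ≠ l₁ → v m = 0 ∧ v' m = 0) ∧
        (∃ p p' : F, (𝐞 l) = p • v + p' • v') ∧ (∃ r r' : F, (𝐞 l₁) = r • v + r' • v') := by
  obtain ⟨π, hπ⟩ := hm
  by_cases hco : ∃ l, ∃ c : F, v = c • (𝐞 l)
  · exact Or.inl hco
  right
  have hf := herm_unitary (n := n) hF
  have hcoord : ∀ m, v m ≠ 0 → π m ≠ m := by
    intro m hvm hm'
    obtain ⟨p, hp⟩ := h.fixed hπ hm' hvm
    apply hco
    have hp0 : p ≠ 0 := by
      rintro rfl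
      have := congrFun hp m
      simp at this
    exact ⟨m, p⁻¹, by rw [hp, smul_smul, inv_mul_cancel₀ hp0, one_smul]⟩
  obtain ⟨l, hl⟩ : ∃ l, v l ≠ 0 := by
    by_contra hcon
    push Not at hcon
    have h0 : v = 0 := funext hcon
    have := h.hv
    rw [h0, f_zero_left hf] at this
    exact zero_ne_one this
  have hπl := hcoord l hl
  obtain ⟨ha, hy2⟩ := h.moved hπ hπl
  set l₁ := π l with hl₁
  have hπl₁ : π l₁ ≠ l₁ := fun h' => hπl (π.injective h')
  obtain ⟨-, hy2'⟩ := h.moved hπ hπl₁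
  obtain ⟨p, p', e1⟩ := h.in_plane ha hy2
  obtain ⟨r, r', e2⟩ := h.in_plane ha hy2'
  refine ⟨l, l₁, hπl.symm, ?_, ⟨p, p', e1⟩, ⟨r, r', e2⟩⟩
  intro m hml hml₁
  constructor
  · by_contra hvm
    obtain ⟨-, hy3⟩ := h.moved hπ (hcoord m hvm)
    obtain ⟨t, t', e3⟩ := h.in_plane ha hy3
    exact three_not_in_plane hπl.symm (Ne.symm hml) (Ne.symm hml₁) e1 e2 e3
  · by_contra hvm
    by_cases hπm : π m = m
    · obtain ⟨t, e3⟩ := h.swap.fixed hπ hπm hvm
      exact three_not_in_plane (t := 0) (t' := t) hπl.symm (Ne.symm hml) (Ne.symm hml₁) e1 e2 (by simpa using e3)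
    · obtain ⟨-, hy3⟩ := h.moved hπ hπm
      obtain ⟨t, t', e3⟩ := h.in_plane ha hy3
      exact three_not_in_plane hπl.symm (Ne.symm hml) (Ne.symm hml₁) e1 e2 e3

/-- The conjugate of a two-point torus element. -/
theorem rk2_of_conj {g : GL (Fin n) F} (hg : g ∈ GU n F q) {i j : Fin n} (hij : i ≠ j) {a : Fˣ}
    (ha : (a : F) * σ a = 1) (ha2 : (a : F) ^ 2 ≠ 1) (ha3 : (a : F) ^ 3 ≠ 1) :
    Rk2 hF (g * dg (tt i j a) * g⁻¹) (g ⋆ (𝐞 i)) (g ⋆ (𝐞 j)) a where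
  act w := by
    rw [conj_dg hF hg, Finset.sum_eq_add i j hij]
    · rw [tt_left, tt_right hij]
      have h1 : ((a⁻¹ : Fˣ) : F) = σ a := by
        rw [Units.val_inv_eq_inv_val]
        exact inv_eq_of_mul_eq_one_right ha
      rw [h1, add_assoc]
    · intro d _ hd
      rw [tt_other a hd.1 hd.2]
      simp
    · simp
    · simp
  hv := by rw [gu_orth hF hg, if_pos rfl]
  hv' := by rw [gu_orth hF hg, if_pos rfl]
  hvv' := by rw [gu_orth hF hg, if_neg hij]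
  ha := ha
  ha2 := ha2
  ha3 := ha3

theorem no_triple {u₁ u₂ u₃ : Fin n → F} (h1 : ⟪u₁, u₁⟫ = 1) (h2 : ⟪u₂, u₂⟫ = 1) (h3 : ⟪u₃, u₃⟫ = 1)
    (h12 : ⟪u₁, u₂⟫ = 0) (h13 : ⟪u₁, u₃⟫ = 0) (h23 : ⟪u₂, u₃⟫ = 0) {l l₁ : Fin n}
    (s1 : ∀ m, m ≠ l → m ≠ l₁ → u₁ m = 0) (s2 : ∀ m, m ≠ l → m ≠ l₁ → u₂ m = 0)
    (s3 : ∀ m, m ≠ l → m ≠ l₁ → u₃ m = 0) : False := by
  have hf := herm_unitary (n := n) hF
  obtain ⟨d1, d2, d3, hd, h4, h5⟩ := Cfsg.Agent.Lib.GLMonStar.exists_delta (u₁ l) (u₂ l) (u₃ l) (u₁ l₁) (u₂ l₁) (u₃ l₁)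
  have h6 : d1 • u₁ + d2 • u₂ + d3 • u₃ = 0 := by
    ext m
    simp only [Pi.add_apply, Pi.smul_apply, smul_eq_mul, Pi.zero_apply]
    by_cases hm : m = l
    · rw [hm]
      exact h4
    by_cases hm1 : m = l₁
    · rw [hm1]
      exact h5
    rw [s1 m hm hm1, s2 m hm hm1, s3 m hm hm1]
    ring
  have h21 := f_swap_zero hf h12
  have h31 := f_swap_zero hf h13
  have h32 := f_swap_zero hf h23
  have c1 := congrArg (fun u => ⟪u, u₁⟫) h6
  have c2 := congrArg (fun u => ⟪u, u₂⟫) h6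
  have c3 := congrArg (fun u => ⟪u, u₃⟫) h6
  simp only [hf.add_left, hf.smul_left, h1, h2, h3, h12, h13, h21, h23, h31, h32, f_zero_left hf] at c1 c2 c3
  simp only [mul_one, mul_zero, add_zero, zero_add] at c1 c2 c3
  rcases hd with h | h | h
  · exact h c1
  · exact h c2
  · exact h c3

/-- Two monomial conjugates force a coordinate column. -/
theorem coord_of_two_mono {g : GL (Fin n) F} (hg : g ∈ GU n F q) {i j j' : Fin n} (hij : i ≠ j)
    (hij' : i ≠ j') (hjj' : j ≠ j') {a : Fˣ} (ha : (a : F) * σ a = 1) (ha2 : (a : F) ^ 2 ≠ 1)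
    (ha3 : (a : F) ^ 3 ≠ 1) (h1 : IsMono (g * dg (tt i j a) * g⁻¹))
    (h2 : IsMono (g * dg (tt i j' a) * g⁻¹)) : ∃ l, ∃ c : F, g ⋆ (𝐞 i) = c • (𝐞 l) := by
  by_contra hco
  have R1 := rk2_of_conj hg hij ha ha2 ha3
  have R2 := rk2_of_conj hg hij' ha ha2 ha3
  rcases R1.S1 h1 with h3 | ⟨l, l₁, hll, hs, -, -⟩
  · exact hco h3
  rcases R2.S1 h2 with h3 | ⟨m, m₁, hmm, hs', -, -⟩
  · exact hco h3
  set v := g ⋆ (𝐞 i) with hv
  have hnz1 : v l ≠ 0 := by
    intro h0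
    apply hco
    refine ⟨l₁, v l₁, ?_⟩
    ext b
    by_cases hb : b = l₁
    · subst hb
      simp
    · rw [Pi.smul_apply, Pi.single_eq_of_ne hb]
      by_cases hb' : b = l
      · rw [hb', h0]
        simp
      · rw [(hs b hb' hb).1]
        simp
  have hnz2 : v l₁ ≠ 0 := by
    intro h0
    apply hco
    refine ⟨l, v l, ?_⟩
    ext b
    by_cases hb : b = l
    · subst hb
      simp
    · rw [Pi.smul_apply, Pi.single_eq_of_ne hb]
      by_cases hb' : b = l₁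
      · rw [hb', h0]
        simp
      · rw [(hs b hb hb').1]
        simp
  have hlm : l = m ∨ l = m₁ := by
    by_contra hcon
    push Not at hcon
    exact hnz1 (hs' l hcon.1 hcon.2).1
  have hl₁m : l₁ = m ∨ l₁ = m₁ := by
    by_contra hcon
    push Not at hcon
    exact hnz2 (hs' l₁ hcon.1 hcon.2).1
  refine no_triple (hF := hF) (u₁ := v) (u₂ := g ⋆ (𝐞 j)) (u₃ := g ⋆ (𝐞 j'))
    (by rw [hv, gu_orth hF hg, if_pos rfl]) (by rw [gu_orth hF hg, if_pos rfl])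
    (by rw [gu_orth hF hg, if_pos rfl]) (by rw [hv, gu_orth hF hg, if_neg hij])
    (by rw [hv, gu_orth hF hg, if_neg hij']) (by rw [gu_orth hF hg, if_neg hjj']) (l := l) (l₁ := l₁)
    (fun b h5 h6 => (hs b h5 h6).1) (fun b h5 h6 => (hs b h5 h6).2) ?_
  intro b h5 h6
  apply (hs' b _ _).2
  · rintro rfl
    rcases hlm with h7 | h7
    · exact h5 h7.symm
    · rcases hl₁m with h8 | h8
      · exact h6 h8.symm
      · exact hll (h7.trans h8.symm)
  · rintro rfl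
    rcases hlm with h7 | h7
    · rcases hl₁m with h8 | h8
      · exact hll (h7.trans h8.symm)
      · exact h6 h8.symm
    · exact h5 h7.symm

end Cfsg.Agent.Lib.H97VF
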