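import Mathlib
import Cfsg.Agent.Lib.H97VF
import Cfsg.Agent.Lib.GLMonLift

/-!
# Subgroups of `SU` over the monomial group with monomial point stabilisers: first steps
-/

set_option autoImplicit false
set_option linter.unusedSectionVars false
set_option linter.unusedVariables false

namespace Cfsg.Agent.Lib.H97VG

open Matrix Cfsg Cfsg.Geo Cfsg.Agent.Lib.TvGL Cfsg.Agent.Lib.SympT Cfsg.Agent.Lib.UForm
  Cfsg.Agent.Lib.UTrans Cfsg.Agent.Lib.GLMon Cfsg.Agent.Lib.HermForm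
  Cfsg.Agent.Lib.H97VA Cfsg.Agent.Lib.H97VB Cfsg.Agent.Lib.H97VC Cfsg.Agent.Lib.H97VD
  Cfsg.Agent.Lib.H97VE Cfsg.Agent.Lib.H97VF
open Cfsg.Agent.H97.Asch (herm_unitary hermSigma hermSigma_apply)
open scoped MatrixGroups

local notation:70 g:71 " ⋆ " x:70 => Matrix.mulVec (Units.val g) x

variable {n : ℕ} {F : Type*} [Field F] [Fintype F] {q : ℕ}

local notation "⟪" u ", " v "⟫" => hermForm n F q u v

/-- The coordinate vector. -/
local notation "𝐞" i => (Pi.single i (1 : F) : Fin n → F)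

variable (hF : Fintype.card F = q ^ 2)

local notation "σ" => hermSigma hF

/-- An element of the circle of full order. -/
theorem exists_order : ∃ b : Fˣ, (b : F) * σ b = 1 ∧ ∀ m : ℕ, b ^ m = 1 ↔ (q + 1) ∣ m := by
  classical
  have h2 := Cfsg.Agent.Lib.H97VB.q_two_le hF
  obtain ⟨g, hg⟩ := IsCyclic.exists_generator (α := Fˣ)
  have ho : orderOf g = q ^ 2 - 1 := by
    rw [orderOf_eq_card_of_forall_mem_zpowers hg, Nat.card_eq_fintype_card, Fintype.card_units, hF]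
  have hfac : q ^ 2 - 1 = (q - 1) * (q + 1) := by
    obtain ⟨r, rfl⟩ : ∃ r, q = r + 1 := ⟨q - 1, by omega⟩
    simp only [Nat.add_sub_cancel]
    have : (r + 1) ^ 2 = r * (r + 1 + 1) + 1 := by ring
    omega
  have hq1 : q - 1 ≠ 0 := by omega
  have hord : orderOf (g ^ (q - 1)) = q + 1 := by
    rw [orderOf_pow' g hq1, ho, hfac, Nat.gcd_mul_right_left]
    exact Nat.mul_div_cancel_left _ (by omega)
  refine ⟨g ^ (q - 1), ?_, fun m => ?_⟩
  · have h3 : ((g ^ (q - 1) : Fˣ) : F) ^ (q + 1) = 1 := by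
      rw [← Units.val_pow_eq_pow_val]
      have : (g ^ (q - 1)) ^ (q + 1) = 1 := by
        rw [← hord]
        exact pow_orderOf_eq_one _
      rw [this, Units.val_one]
    rw [hermSigma_apply, ← h3]
    ring
  · rw [← orderOf_dvd_iff_pow_eq_one, hord]

/-- The context. -/
structure SCtx (M : Subgroup (GL (Fin n) F)) : Prop where
  le : M ≤ GU n F q ⊓ specialLinear (Fin n) F
  mono : ∀ (π : Equiv.Perm (Fin n)) (s : Fin n → Fˣ), (∀ i, (s i : F) * σ (s i) = 1) →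
    (((Equiv.Perm.sign π : ℤˣ) : ℤ) : F) * ∏ a, (s a : F) = 1 → mon π s ∈ M
  star : ∀ x ∈ M, ∀ c k : Fin n, (∀ b, b ≠ c → (x : Matrix (Fin n) (Fin n) F) b k = 0) → IsMono x

variable {hF} {M : Subgroup (GL (Fin n) F)}

theorem SCtx.gu (C : SCtx hF M) {x : GL (Fin n) F} (hx : x ∈ M) : x ∈ GU n F q := (C.le hx).1

theorem SCtx.dg_mem (C : SCtx hF M) (s : Fin n → Fˣ) (hs : ∀ i, (s i : F) * σ (s i) = 1) (h : ∏ a, s a = 1) :
    dg s ∈ M := by
  apply C.mono 1 s hs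
  have : ∏ a, (s a : F) = 1 := by
    have := congrArg Units.val h
    simpa using this
  rw [this]
  simp

theorem SCtx.coord (C : SCtx hF M) {x : GL (Fin n) F} (hx : x ∈ M) {k l : Fin n} {c : F}
    (h : x ⋆ (𝐞 k) = c • (𝐞 l)) : IsMono x := by
  apply C.star x hx l k
  intro b hb
  have := congrFun h b
  rw [Matrix.mulVec_single_one, Matrix.col_apply] at this
  rw [this, Pi.smul_apply, Pi.single_eq_of_ne hb]
  simp

theorem SCtx.inv_mono {x : GL (Fin n) F} (h : IsMono x⁻¹) : IsMono x := by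
  have := isMono_inv h
  rwa [inv_inv] at this

omit hF in
theorem dg_tt_fix {p r : Fin n} {u : Fin n → F} (hp : u p = 0) (hr : u r = 0) (a : Fˣ) (hpr : p ≠ r) :
    dg (tt p r a) ⋆ u = u := by
  ext b
  rw [dg_mulVec]
  by_cases h1 : b = p
  · rw [h1, hp, mul_zero]
  by_cases h2 : b = r
  · rw [h2, hr, mul_zero]
  rw [tt_other a h1 h2]
  simp

variable {a : Fˣ}

theorem SCtx.conj_mono (C : SCtx hF M) (ha : (a : F) * σ a = 1) {X : GL (Fin n) F} (hX : X ∈ M)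
    {l p r : Fin n} (hpr : p ≠ r) (hp : (X ⋆ (𝐞 l)) p = 0) (hr : (X ⋆ (𝐞 l)) r = 0) :
    IsMono (X⁻¹ * dg (tt p r a) * (X⁻¹)⁻¹) := by
  rw [inv_inv]
  have hz : X⁻¹ * dg (tt p r a) * X ∈ M :=
    M.mul_mem (M.mul_mem (M.inv_mem hX) (C.dg_mem _ (tt_cir hF hpr a ha) (prod_tt hpr a))) hX
  apply C.coord hz (k := l) (l := l) (c := 1)
  rw [mulVec_mul_GL, mulVec_mul_GL, dg_tt_fix hp hr a hpr, inv_mulVec_GL, one_smul]

/-- Two zeros in a column force a monomial matrix. -/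
theorem SCtx.two_zero (C : SCtx hF M) (ha : (a : F) * σ a = 1) (ha2 : (a : F) ^ 2 ≠ 1) (ha3 : (a : F) ^ 3 ≠ 1)
    (hn : 5 ≤ n) {X : GL (Fin n) F} (hX : X ∈ M) {c d k : Fin n} (hcd : c ≠ d)
    (h1 : (X : Matrix (Fin n) (Fin n) F) c k = 0) (h2 : (X : Matrix (Fin n) (Fin n) F) d k = 0) : IsMono X := by
  have hX' : X⁻¹ ∈ M := M.inv_mem hX
  have hGU : X⁻¹ ∈ GU n F q := C.gu hX'
  have hc : (X ⋆ (𝐞 k)) c = 0 := by rw [gu_col hF, h1]
  have hd : (X ⋆ (𝐞 k)) d = 0 := by rw [gu_col hF, h2]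
  have hz := C.conj_mono ha hX hcd hc hd
  have R := rk2_of_conj hGU hcd ha ha2 ha3
  apply SCtx.inv_mono
  rcases R.S1 hz with ⟨l, c₀, h3⟩ | ⟨l, l₁, hll, -, ⟨p, p', e1⟩, -⟩
  · exact C.coord hX' h3
  have he : X ⋆ (𝐞 l) = p • (𝐞 c) + p' • (𝐞 d) := by
    rw [e1, Matrix.mulVec_add, Matrix.mulVec_smul, Matrix.mulVec_smul]
    have e2 : ∀ i : Fin n, X ⋆ (X⁻¹ ⋆ (𝐞 i)) = 𝐞 i := fun i => mulVec_inv_GL X _
    rw [e2, e2]
  obtain ⟨pp, r, r', h4, h5, h6, h7, h8, h9⟩ := Cfsg.Agent.Lib.GLMonStar.exists_three_avoid ({c, d} : Finset (Fin n))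
    (by
      have : ({c, d} : Finset (Fin n)).card ≤ 2 := Finset.card_le_two
      rw [Fintype.card_fin]
      omega)
  simp only [Finset.mem_insert, Finset.mem_singleton, not_or] at h4 h5 h6
  have hzero : ∀ b, b ≠ c → b ≠ d → (X ⋆ (𝐞 l)) b = 0 := by
    intro b hb1 hb2
    rw [he]
    simp [Pi.single_eq_of_ne hb1, Pi.single_eq_of_ne hb2]
  have m1 := C.conj_mono ha hX (l := l) h7 (hzero _ h4.1 h4.2) (hzero _ h5.1 h5.2)
  have m2 := C.conj_mono ha hX (l := l) h8 (hzero _ h4.1 h4.2) (hzero _ h6.1 h6.2)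
  obtain ⟨l', c', h10⟩ := coord_of_two_mono hGU h7 h8 h9 ha ha2 ha3 m1 m2
  exact C.coord hX' h10

theorem SCtx.col_zero_unique (C : SCtx hF M) (ha : (a : F) * σ a = 1) (ha2 : (a : F) ^ 2 ≠ 1)
    (ha3 : (a : F) ^ 3 ≠ 1) (hn : 5 ≤ n) {X : GL (Fin n) F} (hX : X ∈ M) (hnm : ¬ IsMono X) {c d k : Fin n}
    (h1 : (X : Matrix (Fin n) (Fin n) F) c k = 0) (h2 : (X : Matrix (Fin n) (Fin n) F) d k = 0) : c = d := by
  by_contra hcd
  exact hnm (C.two_zero ha ha2 ha3 hn hX hcd h1 h2)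

theorem SCtx.row_zero_unique (C : SCtx hF M) (ha : (a : F) * σ a = 1) (ha2 : (a : F) ^ 2 ≠ 1)
    (ha3 : (a : F) ^ 3 ≠ 1) (hn : 5 ≤ n) {X : GL (Fin n) F} (hX : X ∈ M) (hnm : ¬ IsMono X) {c j j' : Fin n}
    (h1 : (X : Matrix (Fin n) (Fin n) F) c j = 0) (h2 : (X : Matrix (Fin n) (Fin n) F) c j' = 0) : j = j' := by
  have hGU := C.gu hX
  have e1 : ((X⁻¹ : GL (Fin n) F) : Matrix (Fin n) (Fin n) F) j c = 0 := by
    rw [gu_inv_entry hF hGU, h1, map_zero]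
  have e2 : ((X⁻¹ : GL (Fin n) F) : Matrix (Fin n) (Fin n) F) j' c = 0 := by
    rw [gu_inv_entry hF hGU, h2, map_zero]
  exact C.col_zero_unique ha ha2 ha3 hn (M.inv_mem hX) (fun h => hnm (SCtx.inv_mono h)) e1 e2

/-- A non-monomial matrix has a column that is not a coordinate vector. -/
theorem exists_noncoord {g : GL (Fin n) F} (hg : ¬ IsMono g) : ∃ i, ¬ ∃ l, ∃ c : F, g ⋆ (𝐞 i) = c • (𝐞 l) := by
  by_contra hcon
  push Not at hcon
  choose l c h using hcon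
  apply hg
  apply isMono_of_fun g l
  intro i b hb
  have := congrFun (h i) b
  rw [Matrix.mulVec_single_one, Matrix.col_apply] at this
  rw [this, Pi.smul_apply, Pi.single_eq_of_ne hb]
  simp

/-- Stage 1: a non-monomial element with a zero entry. -/
theorem SCtx.exists_zero_entry (C : SCtx hF M) (ha : (a : F) * σ a = 1) (ha2 : (a : F) ^ 2 ≠ 1)
    (ha3 : (a : F) ^ 3 ≠ 1) (hn : 13 ≤ n) {g : GL (Fin n) F} (hg : g ∈ M) (hnm : ¬ IsMono g) :
    ∃ x ∈ M, ¬ IsMono x ∧ ∃ c k, (x : Matrix (Fin n) (Fin n) F) c k = 0 := by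
  classical
  have hGU := C.gu hg
  obtain ⟨i, hi⟩ := exists_noncoord hnm
  obtain ⟨j, j', -, hj, hj', -, hjj', -, -⟩ := Cfsg.Agent.Lib.GLMonStar.exists_three_avoid ({i} : Finset (Fin n))
    (by simp; omega)
  simp only [Finset.mem_singleton] at hj hj'
  obtain ⟨j₀, hj₀, hx⟩ : ∃ j₀, i ≠ j₀ ∧ ¬ IsMono (g * dg (tt i j₀ a) * g⁻¹) := by
    by_contra hcon
    push Not at hcon
    exact hi (coord_of_two_mono hGU (Ne.symm hj) (Ne.symm hj') hjj' ha ha2 ha3 (hcon j (Ne.symm hj))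
      (hcon j' (Ne.symm hj')))
  set x := g * dg (tt i j₀ a) * g⁻¹ with hxdef
  have R := rk2_of_conj hGU hj₀ ha ha2 ha3
  rw [← hxdef] at R
  have hxM : x ∈ M :=
    M.mul_mem (M.mul_mem hg (C.dg_mem _ (tt_cir hF hj₀ a ha) (prod_tt hj₀ a))) (M.inv_mem hg)
  have hxGU := C.gu hxM
  by_cases hz : ∃ c k, (x : Matrix (Fin n) (Fin n) F) c k = 0
  · exact ⟨x, hxM, hx, hz⟩
  push Not at hz
  obtain ⟨c, k, hck⟩ : ∃ c k : Fin n, c ≠ k := by
    refine ⟨⟨0, by omega⟩, ⟨1, by omega⟩, ?_⟩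
    simp [Fin.ext_iff]
  set Cc : Fin n → F := fun l => (x : Matrix (Fin n) (Fin n) F) c l * σ ((x : Matrix (Fin n) (Fin n) F) k l) with hCc
  have hCne : ∀ l, Cc l ≠ 0 := fun l => mul_ne_zero (hz c l) ((map_ne_zero (hermSigma hF)).2 (hz k l))
  obtain ⟨τ, hτ1, hτ2, hτ3, ⟨j₁, hj₁⟩, ⟨j₂, hj₂⟩⟩ := exists_ell hF (hermSigma_apply hF) Cc hCne (by simpa using hn)
  set y := x * dg τ * x⁻¹ with hy
  have hyM : y ∈ M := M.mul_mem (M.mul_mem hxM (C.dg_mem _ hτ1 hτ2)) (M.inv_mem hxM)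
  have hyzero : (y : Matrix (Fin n) (Fin n) F) c k = 0 := by
    rw [hy, conj_entry' hF hxGU]
    have h1 := row_orth hF hxGU hck
    have h2 : ∑ l, (τ l : F) * Cc l = ∑ l, ((τ l : F) - 1) * Cc l + ∑ l, Cc l := by
      rw [← Finset.sum_add_distrib]
      apply Finset.sum_congr rfl
      intro l _
      ring
    rw [h2, hτ3, h1, zero_add]
  refine ⟨y, hyM, ?_, c, k, hyzero⟩
  intro hym
  set v := g ⋆ (𝐞 i) with hv
  set v' := g ⋆ (𝐞 j₀) with hv'
  -- the span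
  set W : Finset (Fin n → F) := {v, v', dg τ ⋆ v, dg τ ⋆ v'} with hW
  have hWcard : W.card ≤ 4 := Finset.card_le_four
  have hmem : ∀ u ∈ W, u ∈ Submodule.span F (W : Set (Fin n → F)) := fun u hu =>
    Submodule.subset_span (Finset.mem_coe.2 hu)
  have hv1 := hmem v (by simp [hW])
  have hv2 := hmem v' (by simp [hW])
  have hv3 := hmem (dg τ ⋆ v) (by simp [hW])
  have hv4 := hmem (dg τ ⋆ v') (by simp [hW])
  have hxact : ∀ w, x ⋆ w = w + ((a - 1 : F) * ⟪w, v⟫) • v + ((σ a - 1) * ⟪w, v'⟫) • v' := R.act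
  have hdge : ∀ l, dg τ ⋆ (𝐞 l) = (τ l : F) • (𝐞 l) := by
    intro l
    ext b
    rw [dg_mulVec, Pi.smul_apply]
    by_cases hb : b = l
    · subst hb
      simp
    · simp [Pi.single_eq_of_ne hb]
  have hinvact : ∀ l, ∃ A B : F, x⁻¹ ⋆ (𝐞 l) = (𝐞 l) + A • v + B • v' := by
    intro l
    refine ⟨- ((a - 1 : F) * ⟪x⁻¹ ⋆ (𝐞 l), v⟫), - ((σ a - 1) * ⟪x⁻¹ ⋆ (𝐞 l), v'⟫), ?_⟩
    have h1 := hxact (x⁻¹ ⋆ (𝐞 l))
    rw [mulVec_inv_GL] at h1
    linear_combination (norm := module) -h1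
  have hyact : ∀ l, y ⋆ (𝐞 l) = x ⋆ (dg τ ⋆ (x⁻¹ ⋆ (𝐞 l))) := by
    intro l
    rw [hy, mulVec_mul_GL, mulVec_mul_GL]
  refine no_mon hym (fun l => (τ l : F)) (fun l => (τ l).ne_zero) W ?_ Finset.univ ?_ ?_
  · intro l
    obtain ⟨A, B, h1⟩ := hinvact l
    have h2 : y ⋆ (𝐞 l) - (τ l : F) • (𝐞 l) = A • (dg τ ⋆ v) + B • (dg τ ⋆ v') +
        ((a - 1 : F) * ⟪dg τ ⋆ (x⁻¹ ⋆ (𝐞 l)), v⟫) • v + ((σ a - 1) * ⟪dg τ ⋆ (x⁻¹ ⋆ (𝐞 l)), v'⟫) • v' := by
      rw [hyact, hxact]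
      have h3 : dg τ ⋆ (x⁻¹ ⋆ (𝐞 l)) = (τ l : F) • (𝐞 l) + A • (dg τ ⋆ v) + B • (dg τ ⋆ v') := by
        rw [h1, Matrix.mulVec_add, Matrix.mulVec_add, Matrix.mulVec_smul, Matrix.mulVec_smul, hdge]
      rw [h3]
      module
    rw [h2]
    exact Submodule.add_mem _ (Submodule.add_mem _ (Submodule.add_mem _ (Submodule.smul_mem _ _ hv3)
      (Submodule.smul_mem _ _ hv4)) (Submodule.smul_mem _ _ hv1)) (Submodule.smul_mem _ _ hv2)
  · intro l _ h0
    rw [hyact] at h0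
    have h1 : dg τ ⋆ (x⁻¹ ⋆ (𝐞 l)) = (τ l : F) • (x⁻¹ ⋆ (𝐞 l)) := by
      have h2 := congrArg (fun u => x⁻¹ ⋆ u) h0
      simp only [inv_mulVec_GL] at h2
      rw [h2, Matrix.mulVec_smul]
    have hall : ∀ b, τ b = τ l := by
      intro b
      have h2 := congrFun h1 b
      rw [dg_mulVec, Pi.smul_apply, smul_eq_mul, Matrix.mulVec_single_one, Matrix.col_apply,
        gu_inv_entry hF hxGU] at h2
      have h3 : σ ((x : Matrix (Fin n) (Fin n) F) l b) ≠ 0 := (map_ne_zero (hermSigma hF)).2 (hz l b)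
      exact Units.ext (mul_right_cancel₀ h3 h2)
    apply hj₁
    rw [hall j₁, ← hall j₂, hj₂]
  · rw [Finset.card_univ, Fintype.card_fin]
    omega

/-- Stage 2, first regime. -/
theorem SCtx.regime_A (C : SCtx hF M) (ha : (a : F) * σ a = 1) (ha2 : (a : F) ^ 2 ≠ 1)
    (ha3 : (a : F) ^ 3 ≠ 1) (hn : 13 ≤ n) {x : GL (Fin n) F} (hx : x ∈ M) (hnm : ¬ IsMono x) {c k : Fin n}
    (hck : (x : Matrix (Fin n) (Fin n) F) c k = 0) {b : Fˣ} (hb : (b : F) * σ b = 1) (hbn : b ^ n ≠ 1) : False := by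
  classical
  have hGU := C.gu hx
  set D : Fin n → Fˣ := Function.update (fun _ => b) k (b ^ (n - 1))⁻¹ with hD
  have hDk : D k = (b ^ (n - 1))⁻¹ := by simp [hD]
  have hDo : ∀ j, j ≠ k → D j = b := fun j hj => by simp [hD, hj]
  have hcirpow : ∀ m : ℕ, ((b ^ m : Fˣ) : F) * σ ((b ^ m : Fˣ) : F) = 1 := by
    intro m
    simp only [Units.val_pow_eq_pow_val, map_pow]
    rw [← mul_pow, hb, one_pow]
  have hDcir : ∀ j, (D j : F) * σ (D j) = 1 := by
    intro j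
    by_cases hj : j = k
    · rw [hj, hDk, Units.val_inv_eq_inv_val, map_inv₀, ← mul_inv, hcirpow, inv_one]
    · rw [hDo j hj]
      exact hb
  have hDprod : ∏ j, D j = 1 := by
    rw [hD, Finset.prod_update_of_mem (Finset.mem_univ k)]
    simp only [Finset.prod_const]
    have : (Finset.univ \ {k} : Finset (Fin n)).card = n - 1 := by
      rw [Finset.card_sdiff_of_subset (by simp)]
      simp
    rw [this]
    simp
  set w := x ⋆ (𝐞 k) with hw
  have hwc : w c = 0 := by rw [hw, gu_col hF, hck]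
  set z := x * dg D * x⁻¹ with hz
  have hzM : z ∈ M := M.mul_mem (M.mul_mem hx (C.dg_mem _ hDcir hDprod)) (M.inv_mem hx)
  have hact : ∀ u, z ⋆ u = (b : F) • u + (((D k : F) - b) * ⟪u, w⟫) • w := by
    intro u
    have h1 : dg D ⋆ (x⁻¹ ⋆ u) = (b : F) • (x⁻¹ ⋆ u) + (((D k : F) - b) * (x⁻¹ ⋆ u) k) • (𝐞 k) := by
      ext d
      rw [dg_mulVec]
      by_cases hd : d = k
      · subst hd
        simp
        ring
      · rw [hDo d hd]
        simp [Pi.single_eq_of_ne hd]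
    have h2 : (x⁻¹ ⋆ u) k = ⟪u, w⟫ := by
      rw [← form_e_right hF (x⁻¹ ⋆ u) k, gu_adj hF hGU]
    rw [hz, mulVec_mul_GL, mulVec_mul_GL, h1, Matrix.mulVec_add, Matrix.mulVec_smul, Matrix.mulVec_smul,
      mulVec_inv_GL, h2]
  have hzc : z ⋆ (𝐞 c) = (b : F) • (𝐞 c) := by
    rw [hact, form_e_left hF, hwc, map_zero]
    simp
  have hzm : IsMono z := C.coord hzM hzc
  have hne : (D k : F) ≠ b := by
    intro h0
    apply hbn
    have h1 : D k = b := Units.ext h0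
    rw [hDk] at h1
    have h2 : b ^ n = b ^ (n - 1) * b := by
      rw [← pow_succ]
      congr 1
      omega
    rw [h2]
    calc b ^ (n - 1) * b = b ^ (n - 1) * (b ^ (n - 1))⁻¹ := by rw [h1]
      _ = 1 := mul_inv_cancel _
  refine no_mon hzm (fun _ => (b : F)) (fun _ => b.ne_zero) {w} ?_ (Finset.univ.filter fun l => w l ≠ 0) ?_ ?_
  · intro l
    have : z ⋆ (𝐞 l) - (b : F) • (𝐞 l) = (((D k : F) - b) * ⟪𝐞 l, w⟫) • w := by
      rw [hact]
      abel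
    rw [this]
    apply Submodule.smul_mem
    apply Submodule.subset_span
    simp
  · intro l hl h0
    have hl' := (Finset.mem_filter.1 hl).2
    rw [hact] at h0
    have h1 : (((D k : F) - b) * ⟪𝐞 l, w⟫) • w = 0 := by
      have h2 := sub_eq_zero.2 h0
      rw [add_sub_right_comm, sub_self, zero_add] at h2
      exact h2
    rcases smul_eq_zero.1 h1 with h2 | h2
    · rw [form_e_left hF] at h2
      rcases mul_eq_zero.1 h2 with h3 | h3
      · exact hne (sub_eq_zero.1 h3)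
      · exact hl' ((map_eq_zero (hermSigma hF)).1 h3)
    · exact hl' (by rw [h2]; rfl)
  · have hsub : (Finset.univ.erase c) ⊆ Finset.univ.filter fun l => w l ≠ 0 := by
      intro l hl
      have hlc := (Finset.mem_erase.1 hl).1
      refine Finset.mem_filter.2 ⟨Finset.mem_univ _, fun h0 => hlc ?_⟩
      have e1 : (x : Matrix (Fin n) (Fin n) F) l k = 0 := by
        rw [← gu_col hF]
        exact h0
      exact C.col_zero_unique ha ha2 ha3 (by omega) hx hnm e1 hck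
    have h1 := Finset.card_le_card hsub
    rw [Finset.card_erase_of_mem (Finset.mem_univ _), Finset.card_univ, Fintype.card_fin] at h1
    simp only [Finset.card_singleton]
    omega

end Cfsg.Agent.Lib.H97VG
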