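import Mathlib
import Cfsg.Agent.Lib.H97VG

/-!
# Subgroups of `SU` over the monomial group with monomial point stabilisers: the second regime
-/

set_option autoImplicit false
set_option linter.unusedSectionVars false
set_option linter.unusedVariables false

namespace Cfsg.Agent.Lib.H97VH

open Matrix Cfsg Cfsg.Geo Cfsg.Agent.Lib.TvGL Cfsg.Agent.Lib.SympT Cfsg.Agent.Lib.UForm
  Cfsg.Agent.Lib.UTrans Cfsg.Agent.Lib.GLMon Cfsg.Agent.Lib.GLMonFull Cfsg.Agent.Lib.HermForm
  Cfsg.Agent.Lib.H97VA Cfsg.Agent.Lib.H97VB Cfsg.Agent.Lib.H97VC Cfsg.Agent.Lib.H97VD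
  Cfsg.Agent.Lib.H97VE Cfsg.Agent.Lib.H97VF Cfsg.Agent.Lib.H97VG
open Cfsg.Agent.H97.Asch (herm_unitary hermSigma hermSigma_apply)
open scoped MatrixGroups

local notation:70 g:71 " ⋆ " x:70 => Matrix.mulVec (Units.val g) x

section GoodStar

variable {F : Type*} [Field F] [Fintype F] [DecidableEq F] {σ' : F ≃+* F} {ι : Type} [Fintype ι] [DecidableEq ι]

theorem Good_mul' {C : ι → F} {τ₁ τ₂ : ι → Fˣ} {Z₁ Z₂ : Finset ι} {E₁ E₂ : F} (h₁ : Good σ' C τ₁ Z₁ E₁)
    (h₂ : Good σ' C τ₂ Z₂ E₂) (hd : ∀ j, j ∈ Z₁ → j ∈ Z₂ → C j = 0) :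
    Good σ' C (fun j => τ₁ j * τ₂ j) (Z₁ ∪ Z₂) (E₁ + E₂) where
  cir j := by
    have h1 := h₁.cir j
    have h2 := h₂.cir j
    simp only [Units.val_mul, map_mul]
    calc (τ₁ j : F) * τ₂ j * (σ' (τ₁ j) * σ' (τ₂ j))
        = ((τ₁ j : F) * σ' (τ₁ j)) * ((τ₂ j : F) * σ' (τ₂ j)) := by ring
      _ = 1 := by rw [h1, h2, one_mul]
  prod := by rw [Finset.prod_mul_distrib, h₁.prod, h₂.prod, one_mul]
  supp j hj := by
    have hj1 : j ∉ Z₁ := fun h => hj (Finset.mem_union_left _ h)
    have hj2 : j ∉ Z₂ := fun h => hj (Finset.mem_union_right _ h)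
    simp [h₁.supp j hj1, h₂.supp j hj2]
  val := by
    rw [← h₁.val, ← h₂.val, ← Finset.sum_add_distrib]
    apply Finset.sum_congr rfl
    intro j _
    by_cases hj : j ∈ Z₁
    · by_cases hj2 : j ∈ Z₂
      · simp [hd j hj hj2]
      · simp [h₂.supp j hj2]
    · simp [h₁.supp j hj]

theorem Good_star_prod {κ : Type} [Fintype κ] [DecidableEq κ] (C : ι → F) (hinv : ∀ x : F, σ' (σ' x) = x)
    (idx : κ → ι) (hinj : Function.Injective idx) (k : ι) (hk : ∀ i, idx i ≠ k) (hCk : C k = 0) (u : κ → Fˣ)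
    (hu : ∀ i, (u i : F) * σ' (u i) = 1) (S : Finset κ) :
    Good σ' C (fun j => ∏ i ∈ S, tt (idx i) k (u i) j) (insert k (S.image idx))
      (∑ i ∈ S, ((u i : F) - 1) * C (idx i)) := by
  induction S using Finset.induction_on with
  | empty =>
    refine ⟨fun j => by simp, by simp, fun j _ => by simp, by simp⟩
  | insert i S hi ih =>
    have h1 := Good.tt_pair (σ := σ') C (hk i) hinv (u i) (hu i)
    rw [hCk, mul_zero, add_zero] at h1
    have h2 := Good_mul' h1 ih (by
      intro j hj1 hj2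
      simp only [Finset.mem_insert, Finset.mem_singleton] at hj1
      rcases hj1 with rfl | rfl
      · exfalso
        rcases Finset.mem_insert.1 hj2 with h3 | h3
        · exact hk i h3
        · obtain ⟨i', hi', h4⟩ := Finset.mem_image.1 h3
          exact hi (by rwa [← hinj h4])
      · exact hCk)
    have e : ({idx i, k} : Finset ι) ∪ insert k (S.image idx) = insert k ((insert i S).image idx) := by
      ext j
      simp only [Finset.mem_union, Finset.mem_insert, Finset.mem_singleton, Finset.image_insert]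
      tauto
    rw [e] at h2
    rw [Finset.sum_insert hi]
    convert h2 using 2 with j
    rw [Finset.prod_insert hi]

end GoodStar

variable {n : ℕ} {F : Type*} [Field F] [Fintype F] {q : ℕ}

local notation "⟪" u ", " v "⟫" => hermForm n F q u v

/-- The coordinate vector. -/
local notation "𝐞" i => (Pi.single i (1 : F) : Fin n → F)

variable {hF : Fintype.card F = q ^ 2}

local notation "σ" => hermSigma hF

variable {M : Subgroup (GL (Fin n) F)} {a : Fˣ}

/-- A swap with phases, compensated at another coordinate. -/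
theorem psi_exists {c' d' c : Fin n} (h1 : c' ≠ d') (h2 : c' ≠ c) (h3 : d' ≠ c) (ub : Fˣ)
    (hub : (ub : F) * σ ub = 1) :
    ∃ (π : Equiv.Perm (Fin n)) (s : Fin n → Fˣ), (∀ i, (s i : F) * σ (s i) = 1) ∧
      (((Equiv.Perm.sign π : ℤˣ) : ℤ) : F) * ∏ a, (s a : F) = 1 ∧
      ∀ u : Fin n → F, (mon π s ⋆ u) c' = ((ub⁻¹ : Fˣ) : F) * u d' ∧ (mon π s ⋆ u) d' = (ub : F) * u c' ∧
        (mon π s ⋆ u) c = - u c ∧ ∀ i, i ≠ c' → i ≠ d' → i ≠ c → (mon π s ⋆ u) i = u i := by
  refine ⟨Equiv.swap c' d', fun i => tt c' d' ub i * ds c (-1) i, ?_, ?_, ?_⟩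
  · intro i
    have h4 := tt_cir hF h1 ub hub i
    simp only [Units.val_mul, map_mul]
    have h5 : ((ds c (-1 : Fˣ) i : Fˣ) : F) * σ (ds c (-1 : Fˣ) i) = 1 := by
      by_cases hi : i = c
      · subst hi
        rw [ds_same]
        simp
      · have : ds c (-1 : Fˣ) i = 1 := by simp [ds, hi]
        rw [this]
        simp
    calc (tt c' d' ub i : F) * (ds c (-1) i : Fˣ) * (σ (tt c' d' ub i) * σ (ds c (-1 : Fˣ) i : Fˣ))
        = ((tt c' d' ub i : F) * σ (tt c' d' ub i)) * (((ds c (-1 : Fˣ) i : Fˣ) : F) * σ (ds c (-1 : Fˣ) i)) := by ring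
      _ = 1 := by rw [h4, h5, one_mul]
  · rw [Equiv.Perm.sign_swap h1]
    have h4 : ∏ a, ((tt c' d' ub a * ds c (-1) a : Fˣ) : F) = -1 := by
      have h5 : ∏ a, (tt c' d' ub a * ds c (-1) a) = (-1 : Fˣ) := by
        rw [Finset.prod_mul_distrib, prod_tt h1, one_mul, Cfsg.Agent.Lib.GLMonLift.prod_ds]
      have := congrArg Units.val h5
      simpa using this
    rw [h4]
    simp
  · intro u
    refine ⟨?_, ?_, ?_, ?_⟩
    · rw [mon_mulVec, Equiv.symm_swap, Equiv.swap_apply_left]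
      simp only [Units.val_mul]
      have e : ds c (-1 : Fˣ) d' = 1 := by simp [ds, h3]
      rw [tt_right h1, e]
      simp
    · rw [mon_mulVec, Equiv.symm_swap, Equiv.swap_apply_right]
      simp only [Units.val_mul]
      have e : ds c (-1 : Fˣ) c' = 1 := by simp [ds, h2]
      rw [tt_left, e]
      simp
    · rw [mon_mulVec, Equiv.symm_swap, Equiv.swap_apply_of_ne_of_ne (Ne.symm h2) (Ne.symm h3)]
      simp only [Units.val_mul]
      rw [tt_other _ (Ne.symm h2) (Ne.symm h3), ds_same]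
      simp
    · intro i hi1 hi2 hi3
      rw [mon_mulVec, Equiv.symm_swap, Equiv.swap_apply_of_ne_of_ne hi1 hi2]
      simp only [Units.val_mul]
      have e : ds c (-1 : Fˣ) i = 1 := by simp [ds, hi3]
      rw [tt_other _ hi1 hi2, e]
      simp


/-- Stage 2, second regime. -/
theorem SCtx.regime_B (C : SCtx hF M) (ha : (a : F) * σ a = 1) (ha2 : (a : F) ^ 2 ≠ 1)
    (ha3 : (a : F) ^ 3 ≠ 1) (hn : 14 ≤ n) (hqn : q + 1 ≤ n) {x : GL (Fin n) F} (hx : x ∈ M) (hnm : ¬ IsMono x)
    {c k : Fin n} (hck : (x : Matrix (Fin n) (Fin n) F) c k = 0) : False := by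
  classical
  have hGU := C.gu hx
  have hinv := sig_sig' (q := q) hF
  have h2q := q_two_le hF
  set w := x ⋆ (𝐞 k) with hw
  have hwc : w c = 0 := by rw [hw, gu_col hF, hck]
  have hwne : ∀ d, d ≠ c → w d ≠ 0 := by
    intro d hd h0
    have e1 : (x : Matrix (Fin n) (Fin n) F) d k = 0 := by
      rw [← gu_col hF]
      exact h0
    exact hd (C.col_zero_unique ha ha2 ha3 (by omega) hx hnm e1 hck)
  -- the pigeonhole
  obtain ⟨c', hc', d', hd', hcd, hN⟩ : ∃ c' ∈ Finset.univ.erase c, ∃ d' ∈ Finset.univ.erase c, c' ≠ d' ∧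
      w c' * σ (w c') = w d' * σ (w d') := by
    set T := Finset.univ.filter fun z : F => σ z = z ∧ z ≠ 0 with hT
    have hTc : T.card + 1 ≤ q := by
      have h1 := card_fixed_le hF (hermSigma_apply hF) (insert 0 T) (by
        intro z hz
        rcases Finset.mem_insert.1 hz with rfl | hz
        · exact map_zero _
        · exact (Finset.mem_filter.1 hz).2.1)
      rwa [Finset.card_insert_of_notMem (fun h => (Finset.mem_filter.1 h).2.2 rfl)] at h1
    apply Finset.exists_ne_map_eq_of_card_lt_of_maps_to (t := T)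
    · rw [Finset.card_erase_of_mem (Finset.mem_univ _), Finset.card_univ, Fintype.card_fin]
      omega
    · intro i hi
      have hi' := (Finset.mem_erase.1 hi).1
      refine Finset.mem_filter.2 ⟨Finset.mem_univ _, ?_, ?_⟩
      · rw [map_mul, hinv, mul_comm]
      · exact mul_ne_zero (hwne i hi') ((map_ne_zero (hermSigma hF)).2 (hwne i hi'))
  have hc'c : c' ≠ c := (Finset.mem_erase.1 hc').1
  have hd'c : d' ≠ c := (Finset.mem_erase.1 hd').1
  have hwc'0 := hwne c' hc'c
  have hwd'0 := hwne d' hd'c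
  have hb0 : w d' / w c' ≠ 0 := div_ne_zero hwd'0 hwc'0
  set ub : Fˣ := Units.mk0 _ hb0 with hub
  have hubv : (ub : F) = w d' / w c' := rfl
  have hσc' : σ (w c') ≠ 0 := (map_ne_zero (hermSigma hF)).2 hwc'0
  have hubcir : (ub : F) * σ ub = 1 := by
    rw [hubv, map_div₀, div_mul_div_comm, div_eq_one_iff_eq (mul_ne_zero hwc'0 hσc')]
    exact hN.symm
  obtain ⟨π, s, hs1, hs2, hact⟩ := psi_exists (hF := hF) hcd hc'c hd'c ub hubcir
  set ψ : GL (Fin n) F := mon π s with hψ
  have hψM : ψ ∈ M := C.mono π s hs1 hs2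
  have hubinv : ((ub⁻¹ : Fˣ) : F) = w c' / w d' := by
    rw [Units.val_inv_eq_inv_val, hubv, inv_div]
  have hψw : ψ ⋆ w = w := by
    ext i
    by_cases h1 : i = c'
    · rw [h1, (hact w).1, hubinv]
      field_simp
    by_cases h2 : i = d'
    · rw [h2, (hact w).2.1, hubv]
      field_simp
    by_cases h3 : i = c
    · rw [h3, (hact w).2.2.1, hwc, neg_zero]
    exact (hact w).2.2.2 i h1 h2 h3
  set ψ' : GL (Fin n) F := x⁻¹ * ψ * x with hψ'
  have hψ'M : ψ' ∈ M := M.mul_mem (M.mul_mem (M.inv_mem hx) hψM) hx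
  have hψ'k : ψ' ⋆ (𝐞 k) = 𝐞 k := by
    rw [hψ', mulVec_mul_GL, mulVec_mul_GL, ← hw, hψw, hw, inv_mulVec_GL]
  have hψ'm : IsMono ψ' := C.coord hψ'M (k := k) (l := k) (c := 1) (by rw [hψ'k, one_smul])
  obtain ⟨π', hπ'⟩ := id hψ'm
  set Z' := Finset.univ.filter fun l => π' l ≠ l with hZ'
  have hZ'card : Z'.card ≤ 4 := by
    by_contra hcon
    set W₁ := x⁻¹ ⋆ ((𝐞 c') - (ub : F) • (𝐞 d')) with hW₁
    set W₂ := x⁻¹ ⋆ (𝐞 c) with hW₂
    have hWc : ({W₁, W₂} : Finset (Fin n → F)).card ≤ 2 := Finset.card_le_two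
    refine no_mon hψ'm (fun _ => 1) (fun _ => one_ne_zero) {W₁, W₂} ?_ Z' ?_ (by omega)
    · intro l
      set u := x ⋆ (𝐞 l) with hu
      have e1 : ψ ⋆ u - u = (((ub⁻¹ : Fˣ) : F) * u d' - u c') • ((𝐞 c') - (ub : F) • (𝐞 d')) +
          ((-2 : F) * u c) • (𝐞 c) := by
        ext i
        simp only [Pi.sub_apply, Pi.add_apply, Pi.smul_apply, smul_eq_mul]
        by_cases h1 : i = c'
        · subst h1
          rw [(hact u).1]
          simp [Pi.single_eq_of_ne hcd, Pi.single_eq_of_ne hc'c]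
        by_cases h2 : i = d'
        · subst h2
          rw [(hact u).2.1]
          simp only [Pi.single_eq_of_ne h1, Pi.single_eq_same, Pi.single_eq_of_ne hd'c]
          have := ub.ne_zero
          simp
          field_simp
          ring
        by_cases h3 : i = c
        · subst h3
          rw [(hact u).2.2.1]
          simp only [Pi.single_eq_of_ne h1, Pi.single_eq_of_ne h2, Pi.single_eq_same]
          ring
        · rw [(hact u).2.2.2 i h1 h2 h3]
          simp only [Pi.single_eq_of_ne h1, Pi.single_eq_of_ne h2, Pi.single_eq_of_ne h3]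
          ring
      have e2 : ψ' ⋆ (𝐞 l) - (1 : F) • (𝐞 l) = (((ub⁻¹ : Fˣ) : F) * u d' - u c') • W₁ + ((-2 : F) * u c) • W₂ := by
        have e3 : ψ' ⋆ (𝐞 l) = x⁻¹ ⋆ (ψ ⋆ u) := by
          rw [hψ', mulVec_mul_GL, mulVec_mul_GL]
        have e4 : (1 : F) • (𝐞 l) = x⁻¹ ⋆ u := by
          rw [hu, inv_mulVec_GL, one_smul]
        rw [e3, e4, ← Matrix.mulVec_sub, e1, Matrix.mulVec_add, Matrix.mulVec_smul, Matrix.mulVec_smul]
      rw [e2]
      exact Submodule.add_mem _ (Submodule.smul_mem _ _ (Submodule.subset_span (by simp)))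
        (Submodule.smul_mem _ _ (Submodule.subset_span (by simp)))
    · intro l hl h0
      have hl' := (Finset.mem_filter.1 hl).2
      rw [mono_col hπ' l] at h0
      have := congrFun h0 l
      simp [Pi.single_eq_of_ne (Ne.symm hl')] at this
  have hπ'k : π' k = k := by
    by_contra h0
    have := congrFun hψ'k k
    rw [mono_col hπ' k] at this
    simp [Pi.single_eq_of_ne (Ne.symm h0)] at this
  -- the coordinates
  set R₀ := Finset.univ.filter fun j => (x : Matrix (Fin n) (Fin n) F) c' j = 0 with hR₀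
  have hR₀c : R₀.card ≤ 1 := by
    apply Finset.card_le_one.2
    intro j hj j' hj'
    exact C.row_zero_unique ha ha2 ha3 (by omega) hx hnm (Finset.mem_filter.1 hj).2 (Finset.mem_filter.1 hj').2
  set Av := insert k (Z' ∪ R₀) with hAv
  have hAvc : Av.card ≤ 6 := by
    have h1 : Av.card ≤ (Z' ∪ R₀).card + 1 := Finset.card_insert_le k (Z' ∪ R₀)
    have h2 := Finset.card_union_le Z' R₀
    omega
  obtain ⟨e⟩ : Nonempty (Fin 5 ↪ ↥(Avᶜ)) := Function.Embedding.nonempty_of_card_le (by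
    rw [Fintype.card_fin, Fintype.card_coe, Finset.card_compl, Fintype.card_fin]
    omega)
  set idx : Fin 5 → Fin n := fun i => (e i).1 with hidx
  have hidxinj : Function.Injective idx := fun i i' h => e.injective (Subtype.ext h)
  have hidxAv : ∀ i, idx i ∉ Av := fun i => Finset.mem_compl.1 (e i).2
  have hidxk : ∀ i, idx i ≠ k := fun i h => hidxAv i (by rw [h]; exact Finset.mem_insert_self _ _)
  have hidxZ : ∀ i, idx i ∉ Z' := fun i h => hidxAv i (Finset.mem_insert_of_mem (Finset.mem_union_left _ h))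
  have hidxR : ∀ i, idx i ∉ R₀ := fun i h => hidxAv i (Finset.mem_insert_of_mem (Finset.mem_union_right _ h))
  set Cc : Fin n → F := fun j => (x : Matrix (Fin n) (Fin n) F) c' j * σ ((x : Matrix (Fin n) (Fin n) F) c j) with hCc
  have hCk : Cc k = 0 := by
    simp only [hCc, hck, map_zero, mul_zero]
  have hCne : ∀ i, Cc (idx i) ≠ 0 := by
    intro i
    apply mul_ne_zero
    · intro h0
      exact hidxR i (Finset.mem_filter.2 ⟨Finset.mem_univ _, h0⟩)
    · apply (map_ne_zero (hermSigma hF)).2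
      intro h0
      exact hidxk i (C.row_zero_unique ha ha2 ha3 (by omega) hx hnm h0 hck)
  have hcr := card_Cr hF (hermSigma_apply hF)
  obtain ⟨ξ, hξ, hξ1, -⟩ := exists_Cr_ne hF (hermSigma_apply hF) (1 : F) 1
  obtain ⟨s₁, hs₁, s₂, hs₂, s₃, hs₃, s₄, hs₄, hsum⟩ := four_circles hF (by omega) hcr (hCne 1) (hCne 2) (hCne 3)
    (hCne 4) (Cc (idx 1) + Cc (idx 2) + Cc (idx 3) + Cc (idx 4) - (ξ - 1) * Cc (idx 0))
  set u : Fin 5 → Fˣ := ![Units.mk0 ξ (Cr_ne_zero hξ), Units.mk0 s₁ (Cr_ne_zero hs₁), Units.mk0 s₂ (Cr_ne_zero hs₂),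
    Units.mk0 s₃ (Cr_ne_zero hs₃), Units.mk0 s₄ (Cr_ne_zero hs₄)] with hu
  have hucir : ∀ i, (u i : F) * σ (u i) = 1 := by
    intro i
    fin_cases i
    · exact mem_Cr.1 hξ
    · exact mem_Cr.1 hs₁
    · exact mem_Cr.1 hs₂
    · exact mem_Cr.1 hs₃
    · exact mem_Cr.1 hs₄
  have G := Good_star_prod (σ' := hermSigma hF) Cc hinv idx hidxinj k hidxk hCk u hucir Finset.univ
  set τ : Fin n → Fˣ := fun j => ∏ i, tt (idx i) k (u i) j with hτ
  have hGval : ∑ j, ((τ j : F) - 1) * Cc j = 0 := by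
    rw [G.val, Fin.sum_univ_five]
    show (ξ - 1) * Cc (idx 0) + (s₁ - 1) * Cc (idx 1) + (s₂ - 1) * Cc (idx 2) + (s₃ - 1) * Cc (idx 3) +
      (s₄ - 1) * Cc (idx 4) = 0
    linear_combination hsum
  have hτ0 : τ (idx 0) = u 0 := by
    show ∏ i, tt (idx i) k (u i) (idx 0) = u 0
    rw [Finset.prod_eq_single 0]
    · rw [tt_left]
    · intro i _ hi
      exact tt_other _ (fun h => hi (hidxinj h).symm) (hidxk 0)
    · simp
  have hτsupp : ∀ j, j ∉ insert k (Finset.univ.image idx) → τ j = 1 := G.supp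
  set y := x * dg τ * x⁻¹ with hy
  have hyM : y ∈ M := M.mul_mem (M.mul_mem hx (C.dg_mem _ G.cir G.prod)) (M.inv_mem hx)
  have hy1 : (y : Matrix (Fin n) (Fin n) F) c' c = 0 := by
    rw [hy, conj_entry' hF hGU]
    have h1 := row_orth hF hGU hc'c
    have h2 : ∑ l, (τ l : F) * Cc l = ∑ l, ((τ l : F) - 1) * Cc l + ∑ l, Cc l := by
      rw [← Finset.sum_add_distrib]
      apply Finset.sum_congr rfl
      intro l _
      ring
    rw [h2, hGval, h1, zero_add]
  -- `τ` is trivial on the moved points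
  have hτZ : ∀ j, j ∈ Z' → τ j = 1 := by
    intro j hj
    apply hτsupp
    intro h0
    rcases Finset.mem_insert.1 h0 with h1 | h1
    · rw [h1] at hj
      exact (Finset.mem_filter.1 hj).2 hπ'k
    · obtain ⟨i, -, h2⟩ := Finset.mem_image.1 h1
      exact hidxZ i (by rw [h2]; exact hj)
  have hcomm' : ψ' * dg τ = dg τ * ψ' := by
    obtain ⟨s', hs', -⟩ := eq_mon_of_isMono hπ'
    rw [hs']
    apply GL_ext
    intro w'
    rw [mulVec_mul_GL, mulVec_mul_GL]
    ext b
    rw [mon_mulVec, dg_mulVec, dg_mulVec, mon_mulVec]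
    have h1 : τ (π'.symm b) = τ b := by
      by_cases hb : π' (π'.symm b) = π'.symm b
      · rw [Equiv.apply_symm_apply] at hb
        rw [← hb]
      · have h2 : π'.symm b ∈ Z' := Finset.mem_filter.2 ⟨Finset.mem_univ _, hb⟩
        have h3 : b ∈ Z' := by
          refine Finset.mem_filter.2 ⟨Finset.mem_univ _, ?_⟩
          rw [Equiv.apply_symm_apply] at hb
          intro h4
          exact hb ((Equiv.eq_symm_apply π').2 h4)
        rw [hτZ _ h2, hτZ _ h3]
    rw [h1]
    ring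
  have hψeq : ψ = x * ψ' * x⁻¹ := by
    rw [hψ']
    group
  have hcomm : ψ * y = y * ψ := by
    rw [hψeq, hy]
    calc x * ψ' * x⁻¹ * (x * dg τ * x⁻¹) = x * (ψ' * dg τ) * x⁻¹ := by group
      _ = x * (dg τ * ψ') * x⁻¹ := by rw [hcomm']
      _ = x * dg τ * x⁻¹ * (x * ψ' * x⁻¹) := by group
  have hψe : ψ ⋆ (𝐞 c) = (-1 : F) • (𝐞 c) := by
    ext i
    by_cases h1 : i = c'
    · rw [h1, (hact _).1]
      simp [Pi.single_eq_of_ne hd'c, Pi.single_eq_of_ne hc'c]
    by_cases h2 : i = d'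
    · rw [h2, (hact _).2.1]
      simp [Pi.single_eq_of_ne hd'c, Pi.single_eq_of_ne hc'c]
    by_cases h3 : i = c
    · rw [h3, (hact _).2.2.1]
      simp
    · rw [(hact _).2.2.2 i h1 h2 h3]
      simp [Pi.single_eq_of_ne h3]
  have hy2 : (y : Matrix (Fin n) (Fin n) F) d' c = 0 := by
    have e1 : ψ ⋆ (y ⋆ (𝐞 c)) = (-1 : F) • (y ⋆ (𝐞 c)) := by
      rw [← mulVec_mul_GL, hcomm, mulVec_mul_GL, hψe, Matrix.mulVec_smul]
    have e2 := congrFun e1 d'
    rw [(hact _).2.1, Pi.smul_apply, gu_col hF, gu_col hF, hy1, mul_zero] at e2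
    simp only [smul_eq_mul, neg_mul, one_mul] at e2
    exact neg_eq_zero.1 e2.symm
  have hym := C.two_zero ha ha2 ha3 (by omega) hyM hcd hy1 hy2
  -- the contradiction
  set j₀ := idx 0 with hj₀
  have hWc : ((insert k (Finset.univ.image idx)).image fun j => x ⋆ (𝐞 j)).card ≤ 6 := by
    refine le_trans Finset.card_image_le (le_trans (Finset.card_insert_le _ _) ?_)
    have : (Finset.univ.image idx).card ≤ 5 := by
      refine le_trans Finset.card_image_le ?_
      simp
    omega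
  refine no_mon hym (fun _ => 1) (fun _ => one_ne_zero)
    ((insert k (Finset.univ.image idx)).image fun j => x ⋆ (𝐞 j)) ?_
    (Finset.univ.filter fun l => (x : Matrix (Fin n) (Fin n) F) l j₀ ≠ 0) ?_ ?_
  · intro l
    rw [hy, conj_dg hF hGU, one_smul, add_sub_cancel_left]
    apply Submodule.sum_mem
    intro j _
    by_cases hj : j ∈ insert k (Finset.univ.image idx)
    · apply Submodule.smul_mem
      apply Submodule.subset_span
      exact Finset.mem_coe.2 (Finset.mem_image.2 ⟨j, hj, rfl⟩)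
    · rw [hτsupp j hj]
      simp
  · intro l hl h0
    have hl' := (Finset.mem_filter.1 hl).2
    rw [one_smul, hy, mulVec_mul_GL, mulVec_mul_GL] at h0
    have h1 : dg τ ⋆ (x⁻¹ ⋆ (𝐞 l)) = x⁻¹ ⋆ (𝐞 l) := by
      have h2 := congrArg (fun u => x⁻¹ ⋆ u) h0
      simpa only [inv_mulVec_GL] using h2
    have h2 := congrFun h1 j₀
    rw [dg_mulVec, hτ0, Matrix.mulVec_single_one, Matrix.col_apply, gu_inv_entry hF hGU] at h2
    have h3 : σ ((x : Matrix (Fin n) (Fin n) F) l j₀) ≠ 0 := (map_ne_zero (hermSigma hF)).2 hl'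
    have h4 : ((u 0 : Fˣ) : F) = 1 := mul_right_cancel₀ h3 (by rw [h2, one_mul])
    exact hξ1 h4
  · have hsub : (Finset.univ.filter fun l => (x : Matrix (Fin n) (Fin n) F) l j₀ = 0).card ≤ 1 := by
      apply Finset.card_le_one.2
      intro l hl l' hl'
      exact C.col_zero_unique ha ha2 ha3 (by omega) hx hnm (Finset.mem_filter.1 hl).2 (Finset.mem_filter.1 hl').2
    have h1 : (Finset.univ.filter fun l => (x : Matrix (Fin n) (Fin n) F) l j₀ = 0).card +
        (Finset.univ.filter fun l => (x : Matrix (Fin n) (Fin n) F) l j₀ ≠ 0).card =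
        (Finset.univ : Finset (Fin n)).card := Finset.card_filter_add_card_filter_not _
    rw [Finset.card_univ, Fintype.card_fin] at h1
    omega

/-- If point stabilisers are monomial, then so is the whole subgroup. -/
theorem SCtx.star_false (C : SCtx hF M) (hq3 : 3 ≤ q) (hn : 13 ≤ n) {g : GL (Fin n) F} (hg : g ∈ M)
    (hnm : ¬ IsMono g) : False := by
  obtain ⟨b, hb, hbo⟩ := exists_order hF
  have hb2 : (b : F) ^ 2 ≠ 1 := by
    intro h0
    have : b ^ 2 = 1 := Units.ext (by simpa using h0)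
    have h1 := Nat.le_of_dvd (by norm_num) ((hbo 2).1 this)
    omega
  have hb3 : (b : F) ^ 3 ≠ 1 := by
    intro h0
    have : b ^ 3 = 1 := Units.ext (by simpa using h0)
    have h1 := Nat.le_of_dvd (by norm_num) ((hbo 3).1 this)
    omega
  obtain ⟨x, hx, hxnm, c, k, hck⟩ := C.exists_zero_entry hb hb2 hb3 hn hg hnm
  by_cases hbn : b ^ n = 1
  · have hd := (hbo n).1 hbn
    have h1 : q + 1 ≤ n := Nat.le_of_dvd (by omega) hd
    have hn14 : 14 ≤ n := by
      by_contra hcon
      have hn13 : n = 13 := by omega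
      rw [hn13] at hd h1
      have h2 : q + 1 = 13 := (Nat.dvd_prime (by norm_num)).1 hd |>.resolve_left (by omega)
      have h3 : q = 12 := by omega
      obtain ⟨p, m, hp, -, hq⟩ := exists_char_pow hF
      rw [h3] at hq
      have h4 : p ∣ 12 := by
        rw [hq]
        apply dvd_pow_self
        rintro rfl
        simp at hq
      have h5 : p ≤ 12 := Nat.le_of_dvd (by norm_num) h4
      have hm : m ≤ 12 := by
        by_contra h6
        have h7 : 2 ^ m ≤ p ^ m := Nat.pow_le_pow_left hp.two_le m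
        have h8 : m < 2 ^ m := Nat.lt_two_pow_self
        omega
      interval_cases p <;> first
        | (interval_cases m <;> norm_num at hq; done)
        | (norm_num at hp; done)
    exact SCtx.regime_B C hb hb2 hb3 hn14 h1 hx hxnm hck
  · exact C.regime_A hb hb2 hb3 hn hx hxnm hck hb hbn

end Cfsg.Agent.Lib.H97VH
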