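import Mathlib
import Cfsg.Agent.Lib.H97VH

/-!
# Centres of transvections: moves inside hyperbolic planes

If a subgroup contains all unitary transvections with isotropic centres in a coordinate plane, then a vector
is a centre of the subgroup if and only if a suitable modified vector is one: the two coordinates can be
concentrated into one, and the norm of a coordinate can be changed if the two coordinates are isotropic.
-/

set_option autoImplicit false
set_option linter.unusedSectionVars false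
set_option linter.unusedVariables false

namespace Cfsg.Agent.Lib.H97VI

open Matrix Cfsg Cfsg.Geo Cfsg.Agent.Lib.TvGL Cfsg.Agent.Lib.SympT Cfsg.Agent.Lib.UForm
  Cfsg.Agent.Lib.UTrans Cfsg.Agent.Lib.GLMon Cfsg.Agent.Lib.GLMonFull Cfsg.Agent.Lib.HermForm
  Cfsg.Agent.Lib.H97VA Cfsg.Agent.Lib.H97VB Cfsg.Agent.Lib.H97VC Cfsg.Agent.Lib.H97VD
  Cfsg.Agent.Lib.H97VE Cfsg.Agent.Lib.H97VF Cfsg.Agent.Lib.H97VG
open Cfsg.Agent.H97.Asch (herm_unitary hermSigma hermSigma_apply)
open scoped MatrixGroups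

local notation:70 g:71 " ⋆ " x:70 => Matrix.mulVec (Units.val g) x

variable {n : ℕ} {F : Type*} [Field F] [Fintype F] {q : ℕ}

local notation "⟪" u ", " v "⟫" => hermForm n F q u v

/-- The coordinate vector. -/
local notation "𝐞" i => (Pi.single i (1 : F) : Fin n → F)

variable {hF : Fintype.card F = q ^ 2}

local notation "σ" => hermSigma hF

local notation "𝐓" => TU (herm_unitary (n := n) hF)

variable {M : Subgroup (GL (Fin n) F)}

/-- A step with a transvection. -/
theorem tau_step {h v : Fin n → F} (hh : h ∈ 𝐓 M) (hv : v ∈ 𝐓 M) {l : F} (hl : l + σ l = 0) :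
    v + (l * ⟪v, h⟫) • h ∈ 𝐓 M := by
  have hf := herm_unitary (n := n) hF
  obtain ⟨h0, ht⟩ := hh.2 l hl
  have h1 := TU_conj hf (tauU_pres hf hh.1 hl h0) ht hv
  rw [tau_apply, smul_smul, mul_comm ⟪v, h⟫ l] at h1
  exact h1

theorem tau_step_iff {h v : Fin n → F} (hh : h ∈ 𝐓 M) {l : F} (hl : l + σ l = 0) :
    v + (l * ⟪v, h⟫) • h ∈ 𝐓 M ↔ v ∈ 𝐓 M := by
  have hf := herm_unitary (n := n) hF
  refine ⟨fun h1 => ?_, fun h1 => tau_step hh h1 hl⟩
  have hl' : (-l) + σ (-l) = 0 := by
    rw [map_neg]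
    linear_combination -hl
  have h2 := tau_step hh h1 hl'
  have h3 : ⟪v + (l * ⟪v, h⟫) • h, h⟫ = ⟪v, h⟫ := by
    rw [hf.add_left, hf.smul_left, hh.1, mul_zero, add_zero]
  rw [h3] at h2
  have h4 : v + (l * ⟪v, h⟫) • h + (-l * ⟪v, h⟫) • h = v := by module
  rwa [h4] at h2

/-- Transvections preserve norms. -/
theorem tau_norm {h v : Fin n → F} (hh : ⟪h, h⟫ = 0) {l : F} (hl : l + σ l = 0) :
    ⟪v + (l * ⟪v, h⟫) • h, v + (l * ⟪v, h⟫) • h⟫ = ⟪v, v⟫ := by
  have hf := herm_unitary (n := n) hF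
  rw [hf.add_left, f_add_right hf, f_add_right hf, hf.smul_left, hf.smul_left, f_smul_right hf, f_smul_right hf, hh,
    hf.herm h v, map_mul]
  have e : (hermSigma hF) ⟪v, h⟫ * ((l + σ l) * ⟪v, h⟫) = 0 := by rw [hl]; ring
  linear_combination e

/-- The transit lemma: two non-orthogonal centres `h`, `h'` act on the plane they span. -/
theorem transit {h h' r : Fin n → F} (hh : h ∈ 𝐓 M) (hh' : h' ∈ 𝐓 M) (h1 : ⟪h, h'⟫ = 1) (hr1 : ⟪r, h⟫ = 0)
    (hr2 : ⟪r, h'⟫ = 0) {α β α' β' : F} (hx : α * σ β + σ α * β = α' * σ β' + σ α' * β')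
    (hx0 : α * σ β + σ α * β ≠ 0) (hγ : β * σ β' ≠ σ (β * σ β')) :
    α • h + β • h' + r ∈ 𝐓 M ↔ α' • h + β' • h' + r ∈ 𝐓 M := by
  have hf := herm_unitary (n := n) hF
  have hinv := sig_sig' (q := q) hF
  have h1' : ⟪h', h⟫ = 1 := by
    rw [hf.herm h' h, h1, map_one]
  have hhh := hh.1
  have hhh' := hh'.1
  have hβ'0 : β' ≠ 0 := by
    rintro rfl
    apply hx0
    rw [hx, map_zero]
    ring
  set E := (α' - α) * σ β' with hE
  set γ := β * σ β' with hγdef
  set X := β' * σ β' with hX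
  have hXfix : σ X = X := by
    rw [hX, map_mul, hinv, mul_comm]
  have hX0 : X ≠ 0 := mul_ne_zero hβ'0 ((map_ne_zero (hermSigma hF)).2 hβ'0)
  have hσβ' : σ β' ≠ 0 := (map_ne_zero (hermSigma hF)).2 hβ'0
  have hγ0 : γ - σ γ ≠ 0 := sub_ne_zero.2 hγ
  set l := (E + σ E) / (γ - σ γ) with hl
  have hσγ0 : σ γ - γ ≠ 0 := sub_ne_zero.2 (Ne.symm hγ)
  have hσl : σ l = - l := by
    rw [hl, map_div₀, map_add, map_sub, hinv, hinv]
    rw [div_eq_iff hσγ0]
    field_simp
    ring
  have hltr : l + σ l = 0 := by rw [hσl]; ring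
  have hlγ : l * (γ - σ γ) = E + σ E := by
    rw [hl]
    field_simp
  set l₂ := (l * γ - E) / X with hl₂
  have hl₂tr : l₂ + σ l₂ = 0 := by
    rw [hl₂, map_div₀, hXfix, map_sub, map_mul, hσl, ← add_div, div_eq_zero_iff]
    left
    linear_combination hlγ
  have hl₂X : l₂ * X = l * γ - E := by
    rw [hl₂]
    field_simp
  have hrel : l * β - l₂ * β' = α' - α := by
    apply mul_right_cancel₀ hσβ'
    have e1 : l₂ * β' * σ β' = l₂ * X := by rw [hX]; ring
    have e2 : l * β * σ β' = l * γ := by rw [hγdef]; ring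
    rw [sub_mul, e1, e2, hl₂X]
    rw [hE]
    ring
  set α₁ := α + l * β with hα₁
  have hα₁' : α₁ = α' + l₂ * β' := by
    rw [hα₁]
    linear_combination hrel
  set x := α * σ β + σ α * β with hxdef
  have hα₁β : α₁ * σ β + σ α₁ * β = x := by
    rw [hα₁, map_add, map_mul, hσl, hxdef]
    have e : β * σ β * (l + - l) = 0 := by ring
    linear_combination e
  have hα₁β' : α₁ * σ β' + σ α₁ * β' = x := by
    rw [hα₁', map_add, map_mul, hx]
    have e1 : σ l₂ = - l₂ := by linear_combination hl₂tr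
    rw [e1]
    ring
  have hα₁0 : α₁ ≠ 0 := by
    intro h0
    apply hx0
    rw [← hα₁β, h0, map_zero]
    ring
  have hσα₁ : σ α₁ ≠ 0 := (map_ne_zero (hermSigma hF)).2 hα₁0
  set l' := (β' - β) / α₁ with hl'
  have hl'tr : l' + σ l' = 0 := by
    rw [hl', map_div₀, map_sub, div_add_div _ _ hα₁0 hσα₁, div_eq_zero_iff]
    left
    linear_combination hα₁β' - hα₁β
  have hl'α : l' * α₁ = β' - β := by
    rw [hl']
    field_simp
  -- the three steps
  have s1 : α • h + β • h' + r ∈ 𝐓 M ↔ α₁ • h + β • h' + r ∈ 𝐓 M := by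
    have e1 : ⟪α • h + β • h' + r, h⟫ = β := by
      rw [hf.add_left, hf.add_left, hf.smul_left, hf.smul_left, hhh, h1', hr1]
      ring
    have e2 := tau_step_iff (v := α • h + β • h' + r) hh hltr
    rw [e1] at e2
    rw [← e2]
    have e3 : α • h + β • h' + r + (l * β) • h = α₁ • h + β • h' + r := by
      rw [hα₁]
      module
    rw [e3]
  have s2 : α₁ • h + β • h' + r ∈ 𝐓 M ↔ α₁ • h + β' • h' + r ∈ 𝐓 M := by
    have e1 : ⟪α₁ • h + β • h' + r, h'⟫ = α₁ := by
      rw [hf.add_left, hf.add_left, hf.smul_left, hf.smul_left, hhh', h1, hr2]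
      ring
    have e2 := tau_step_iff (v := α₁ • h + β • h' + r) hh' hl'tr
    rw [e1, hl'α] at e2
    rw [← e2]
    have e3 : α₁ • h + β • h' + r + (β' - β) • h' = α₁ • h + β' • h' + r := by module
    rw [e3]
  have s3 : α₁ • h + β' • h' + r ∈ 𝐓 M ↔ α' • h + β' • h' + r ∈ 𝐓 M := by
    have e1 : ⟪α' • h + β' • h' + r, h⟫ = β' := by
      rw [hf.add_left, hf.add_left, hf.smul_left, hf.smul_left, hhh, h1', hr1]
      ring
    have e2 := tau_step_iff (v := α' • h + β' • h' + r) hh hl₂tr
    rw [e1] at e2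
    rw [← e2]
    have e3 : α' • h + β' • h' + r + (l₂ * β') • h = α₁ • h + β' • h' + r := by
      rw [hα₁']
      module
    rw [e3]
  exact s1.trans (s2.trans s3)


theorem form_two_two (a b : Fin n) (α β γ δ : F) (hab : a ≠ b) :
    ⟪α • (𝐞 a) + β • (𝐞 b), γ • (𝐞 a) + δ • (𝐞 b)⟫ = α * σ γ + β * σ δ := by
  have hf := herm_unitary (n := n) hF
  rw [hf.add_left, hf.smul_left, hf.smul_left, f_add_right hf, f_add_right hf, f_smul_right hf, f_smul_right hf,
    f_smul_right hf, f_smul_right hf, form_e_e hF, form_e_e hF, form_e_e hF, form_e_e hF, if_pos rfl, if_pos rfl,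
    if_neg hab, if_neg hab.symm]
  ring

theorem form_two_left (a b : Fin n) (α β : F) (u : Fin n → F) :
    ⟪α • (𝐞 a) + β • (𝐞 b), u⟫ = α * σ (u a) + β * σ (u b) := by
  have hf := herm_unitary (n := n) hF
  rw [hf.add_left, hf.smul_left, hf.smul_left, form_e_left hF, form_e_left hF]

theorem form_two_right (a b : Fin n) (α β : F) (u : Fin n → F) :
    ⟪u, α • (𝐞 a) + β • (𝐞 b)⟫ = u a * σ α + u b * σ β := by
  have hf := herm_unitary (n := n) hF
  rw [f_add_right hf, f_smul_right hf, f_smul_right hf, form_e_right hF, form_e_right hF]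
  ring

theorem exists_nonreal {x₀ : F} (hx₀ : x₀ ≠ 0) : ∃ β : F, β * σ β = x₀ * σ x₀ ∧ β ≠ σ β := by
  classical
  have hc := card_Cr hF (hermSigma_apply hF)
  have h2 := q_two_le hF
  by_contra hcon
  push Not at hcon
  have h3 := card_quad_le (Cr (hermSigma hF)) (a := x₀) (b := 0) (c := - σ x₀) hx₀ (by
    intro ρ hρ
    have h4 := mem_Cr.1 hρ
    have h5 := hcon (ρ * x₀) (by
      rw [map_mul]
      linear_combination (x₀ * σ x₀) * h4)
    rw [map_mul] at h5
    linear_combination ρ * h5 + (σ x₀) * h4)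
  omega

/-- Concentrating two coordinates into one. -/
theorem zero_out {a b : Fin n} (hab : a ≠ b)
    (hPl : ∀ α β : F, α * σ α + β * σ β = 0 → α • (𝐞 a) + β • (𝐞 b) ∈ 𝐓 M) (v : Fin n → F)
    (hx : v a * σ (v a) + v b * σ (v b) ≠ 0) :
    ∃ v' : Fin n → F, v' b = 0 ∧ v' a ≠ 0 ∧ (∀ i, i ≠ a → i ≠ b → v' i = v i) ∧ ⟪v', v'⟫ = ⟪v, v⟫ ∧
      (v ∈ 𝐓 M ↔ v' ∈ 𝐓 M) := by
  classical
  have hf := herm_unitary (n := n) hF
  have hinv := sig_sig' (q := q) hF
  have hc := card_Cr hF (hermSigma_apply hF)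
  have h2q := q_two_le hF
  obtain ⟨μ, hμ⟩ := exists_norm hf (a := (-1 : F)) (by simp)
  obtain ⟨d, hd⟩ := exists_trace_one hf
  have hσσμ : ∀ x : F, σ (σ x) = x := hinv
  set h := (1 : F) • (𝐞 a) + μ • (𝐞 b) with hh
  set h' := d • (𝐞 a) + (- μ * σ d) • (𝐞 b) with hh'
  have hhT : h ∈ 𝐓 M := hPl 1 μ (by rw [map_one, hμ]; ring)
  have hh'T : h' ∈ 𝐓 M := hPl d _ (by
    rw [map_mul, map_neg, hinv]
    linear_combination (d * σ d) * hμ)
  have h1 : ⟪h, h'⟫ = 1 := by
    rw [hh, hh', form_two_two (hF := hF) a b _ _ _ _ hab, map_mul, map_neg, hinv]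
    linear_combination hd - d * hμ
  set β := v a + v b * σ μ with hβ
  set α := v a - β * d with hα
  set p₀ := v a • (𝐞 a) + v b • (𝐞 b) with hp₀
  set r := v - p₀ with hr
  have hp₀a : p₀ a = v a := by
    simp [hp₀, Pi.single_eq_of_ne hab]
  have hp₀b : p₀ b = v b := by
    simp [hp₀, Pi.single_eq_of_ne hab.symm]
  have hra : r a = 0 := by simp [hr, hp₀a]
  have hrb : r b = 0 := by simp [hr, hp₀b]
  have hro : ∀ i, i ≠ a → i ≠ b → r i = v i := by
    intro i h3 h4
    simp [hr, hp₀, Pi.single_eq_of_ne h3, Pi.single_eq_of_ne h4]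
  have hvdec : v = α • h + β • h' + r := by
    have e1 : α + β * d = v a := by rw [hα]; ring
    have e2 : α * μ + β * (- μ * σ d) = v b := by
      rw [hα, hβ]
      linear_combination (- v b) * hμ + (-(μ * (v a + v b * σ μ))) * hd
    have e3 : α • h + β • h' = p₀ := by
      rw [hh, hh', hp₀, ← e1, ← e2]
      module
    rw [e3, hr]
    abel
  have hrh : ⟪r, h⟫ = 0 := by rw [hh, form_two_right (hF := hF), hra, hrb]; ring
  have hrh' : ⟪r, h'⟫ = 0 := by rw [hh', form_two_right (hF := hF), hra, hrb]; ring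
  have hxval : α * σ β + σ α * β = v a * σ (v a) + v b * σ (v b) := by
    rw [hα, map_sub, map_mul]
    have e1 : σ β = σ (v a) + σ (v b) * μ := by
      rw [hβ, map_add, map_mul, hinv]
    rw [e1, hβ]
    linear_combination (- (v a + v b * σ μ) * (σ (v a) + σ (v b) * μ)) * hd + (- v b * σ (v b)) * hμ
  have hx0 : α * σ β + σ α * β ≠ 0 := by rw [hxval]; exact hx
  set x := v a * σ (v a) + v b * σ (v b) with hxdef
  have hxfix : σ x = x := by
    rw [hxdef, map_add, map_mul, map_mul, hinv, hinv]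
    ring
  have hβ0 : β ≠ 0 := by
    intro h0
    apply hx0
    rw [h0, map_zero]
    ring
  obtain ⟨β₀, hβ₀⟩ := exists_norm hf hxfix
  have hβ₀0 : β₀ ≠ 0 := by
    rintro rfl
    apply hx
    rw [← hβ₀]
    simp
  set g := β * σ β₀ with hg
  have hg0 : g ≠ 0 := mul_ne_zero hβ0 ((map_ne_zero (hermSigma hF)).2 hβ₀0)
  have hσg0 : σ g ≠ 0 := (map_ne_zero (hermSigma hF)).2 hg0
  obtain ⟨ρ, hρ, hρ'⟩ : ∃ ρ ∈ Cr (hermSigma hF), g * σ ρ ≠ σ (g * σ ρ) := by
    by_contra hcon
    push Not at hcon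
    have h3 := card_quad_le (Cr (hermSigma hF)) (a := σ g) (b := 0) (c := - g) hσg0 (by
      intro ρ hρ
      have h4 := mem_Cr.1 hρ
      have h5 := hcon ρ hρ
      rw [map_mul, hinv] at h5
      linear_combination (-ρ) * h5 + g * h4)
    omega
  set β' := ρ * β₀ with hβ'
  have hβ'0 : β' ≠ 0 := mul_ne_zero (Cr_ne_zero hρ) hβ₀0
  have hNβ' : β' * σ β' = x := by
    rw [hβ', map_mul, ← hβ₀]
    linear_combination (β₀ * σ β₀) * (mem_Cr.1 hρ)
  have hγ : β * σ β' ≠ σ (β * σ β') := by
    have e : β * σ β' = g * σ ρ := by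
      rw [hβ', map_mul, hg]
      ring
    rw [e]
    exact hρ'
  set α' := β' * σ d with hα'
  have hx' : α * σ β + σ α * β = α' * σ β' + σ α' * β' := by
    have e : σ α' = σ β' * d := by rw [hα', map_mul, hinv]
    rw [hxval, e, hα']
    linear_combination (-(β' * σ β')) * hd - hNβ'
  have hv'dec : α' • h + β' • h' + r = β' • (𝐞 a) + r := by
    have e1 : α' + β' * d = β' := by
      rw [hα']
      linear_combination β' * hd
    have e2 : α' * μ + β' * (- μ * σ d) = 0 := by
      rw [hα']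
      ring
    have e3 : α' • h + β' • h' = β' • (𝐞 a) := by
      have e4 : α' • h + β' • h' = (α' + β' * d) • (𝐞 a) + (α' * μ + β' * (- μ * σ d)) • (𝐞 b) := by
        rw [hh, hh']
        module
      rw [e4, e1, e2, zero_smul, add_zero]
    rw [e3]
  have htr := transit hhT hh'T h1 hrh hrh' hx' hx0 hγ
  rw [← hvdec, hv'dec] at htr
  refine ⟨β' • (𝐞 a) + r, ?_, ?_, ?_, ?_, htr⟩
  · simp [hrb, Pi.single_eq_of_ne hab.symm]
  · simp [hra, hβ'0]
  · intro i h3 h4
    simp [hro i h3 h4, Pi.single_eq_of_ne h3]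
  · have e1 : ⟪β' • (𝐞 a) + r, β' • (𝐞 a) + r⟫ = β' * σ β' + ⟪r, r⟫ := by
      rw [hf.add_left, f_add_right hf, f_add_right hf, hf.smul_left, hf.smul_left, f_smul_right hf, f_smul_right hf,
        form_e_e hF, if_pos rfl, form_e_left hF, form_e_right hF, hra, map_zero]
      ring
    have e2 : ⟪v, v⟫ = x + ⟪r, r⟫ := by
      have e3 : v = p₀ + r := by rw [hr]; abel
      have e4 : ⟪p₀, p₀⟫ = x := by
        rw [hp₀, form_two_two (hF := hF) a b _ _ _ _ hab]
      have e5 : ⟪p₀, r⟫ = 0 := by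
        rw [hp₀, form_two_left (hF := hF), hra, hrb, map_zero]
        ring
      have e6 : ⟪r, p₀⟫ = 0 := by
        rw [hp₀, form_two_right (hF := hF), hra, hrb]
        ring
      conv_lhs => rw [e3]
      rw [hf.add_left p₀ r (p₀ + r), f_add_right hf p₀ p₀ r, f_add_right hf r p₀ r, e4, e5, e6]
      ring
    rw [e1, e2, hNβ']

/-- Changing the norm of a coordinate in an isotropic pair. -/
theorem norm_shift {a d : Fin n} (had : a ≠ d)
    (hPl : ∀ α β : F, α * σ α + β * σ β = 0 → α • (𝐞 a) + β • (𝐞 d) ∈ 𝐓 M) (v : Fin n → F)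
    (h0 : v a * σ (v a) + v d * σ (v d) = 0) (hva : v a ≠ 0) {x₀ : F} (hx₀ : x₀ ≠ 0) :
    ∃ v' : Fin n → F, v' a * σ (v' a) = x₀ * σ x₀ * (v a * σ (v a)) ∧ (∀ i, i ≠ a → i ≠ d → v' i = v i) ∧
      ⟪v', v'⟫ = ⟪v, v⟫ ∧ (v ∈ 𝐓 M ↔ v' ∈ 𝐓 M) := by
  have hf := herm_unitary (n := n) hF
  have hinv := sig_sig' (q := q) hF
  have hσva : σ (v a) ≠ 0 := (map_ne_zero (hermSigma hF)).2 hva
  have hvd : v d ≠ 0 := by
    intro h1
    rw [h1, map_zero, mul_zero, add_zero] at h0
    exact (mul_ne_zero hva hσva) h0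
  have hσvd : σ (v d) ≠ 0 := (map_ne_zero (hermSigma hF)).2 hvd
  obtain ⟨β, hβN, hβr⟩ := exists_nonreal (hF := hF) hx₀
  obtain ⟨c, hc⟩ : ∃ c, c = β - 1 := ⟨_, rfl⟩
  have hσc : σ c = σ β - 1 := by rw [hc, map_sub, map_one]
  have hcne : σ c - c ≠ 0 := by
    rw [hσc, hc]
    intro h1
    apply hβr
    linear_combination -h1
  have hc0 : c ≠ 0 := by
    intro h1
    apply hβr
    have h2 : β = 1 := by rw [hc] at h1; linear_combination h1
    rw [h2, map_one]
  have hσc0 : σ c ≠ 0 := (map_ne_zero (hermSigma hF)).2 hc0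
  set μ := - (σ c * σ (v a)) / (c * σ (v d)) with hμ
  have hσμ : σ μ = - (c * v a) / (σ c * v d) := by
    rw [hμ]
    simp only [map_div₀, map_neg, map_mul, hinv]
  have hNμ : (1 : F) * σ 1 + μ * σ μ = 0 := by
    rw [map_one, hσμ, hμ]
    field_simp
    linear_combination h0
  have hT := hPl 1 μ hNμ
  set h := (1 : F) • (𝐞 a) + μ • (𝐞 d) with hh
  have hvh : ⟪v, h⟫ = v a * (σ c - c) / σ c := by
    rw [hh, form_two_right (hF := hF), map_one, hσμ]
    field_simp
    ring
  set l := c * σ c / (σ c - c) with hl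
  have hltr : l + σ l = 0 := by
    rw [hl]
    simp only [map_div₀, map_mul, map_sub, hinv]
    have hcne' : c - σ c ≠ 0 := by
      intro h1
      apply hcne
      linear_combination -h1
    field_simp
    ring
  have hlv : l * ⟪v, h⟫ = c * v a := by
    rw [hvh, hl]
    field_simp
  have hstep := tau_step_iff (v := v) hT hltr
  rw [hlv] at hstep
  have hnorm := tau_norm (v := v) hT.1 hltr
  rw [hlv] at hnorm
  refine ⟨v + (c * v a) • h, ?_, ?_, hnorm, hstep.symm⟩
  · have e : (v + (c * v a) • h) a = β * v a := by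
      simp [hh, Pi.single_eq_of_ne had, hc]
      ring
    rw [e, map_mul]
    linear_combination (v a * σ (v a)) * hβN
  · intro i h3 h4
    simp [hh, Pi.single_eq_of_ne h3, Pi.single_eq_of_ne h4]

/-- All isotropic vectors are centres once the vectors of weight two are. -/
theorem closure (hq3 : 3 ≤ q) (hn : 2 ≤ n)
    (hPl : ∀ a b : Fin n, a ≠ b → ∀ α β : F, α * σ α + β * σ β = 0 → α • (𝐞 a) + β • (𝐞 b) ∈ 𝐓 M) :
    ∀ v : Fin n → F, ⟪v, v⟫ = 0 → v ∈ 𝐓 M := by
  classical
  have hf := herm_unitary (n := n) hF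
  have hinv := sig_sig' (q := q) hF
  obtain ⟨x₀, hx₀, hx₀1⟩ : ∃ x₀ : F, x₀ ≠ 0 ∧ x₀ * σ x₀ ≠ 1 := by
    by_contra hcon
    push Not at hcon
    have hsub : (Finset.univ.erase (0 : F)) ⊆ Cr (hermSigma hF) := by
      intro x hx
      exact mem_Cr.2 (hcon x (Finset.mem_erase.1 hx).1)
    have h1 := Finset.card_le_card hsub
    rw [Finset.card_erase_of_mem (Finset.mem_univ _), Finset.card_univ, hF, card_Cr hF (hermSigma_apply hF)] at h1
    have h2 : q ^ 2 = q * q := by ring
    have h3 : 3 * q ≤ q * q := Nat.mul_le_mul_right q hq3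
    rw [h2] at h1
    omega
  suffices H : ∀ (m : ℕ) (v : Fin n → F), (Finset.univ.filter fun i => v i ≠ 0).card ≤ m → ⟪v, v⟫ = 0 → v ∈ 𝐓 M from
    fun v hv => H _ v le_rfl hv
  intro m
  induction m with
  | zero =>
    intro v hv _
    have h0 : v = 0 := by
      ext i
      by_contra hi
      have h1 : i ∈ Finset.univ.filter fun i => v i ≠ 0 := Finset.mem_filter.2 ⟨Finset.mem_univ _, hi⟩
      have := Finset.card_pos.2 ⟨i, h1⟩
      omega
    rw [h0]
    exact TU_zero hf
  | succ m ih =>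
    intro v hv hiso
    have hreduce : ∀ (w : Fin n → F) (b : Fin n), v b ≠ 0 → w b = 0 → (∀ i, w i ≠ 0 → v i ≠ 0) → ⟪w, w⟫ = 0 → w ∈ 𝐓 M := by
      intro w b hvb hwb hsub hwiso
      apply ih w _ hwiso
      have hs : (Finset.univ.filter fun i => w i ≠ 0) ⊆ (Finset.univ.filter fun i => v i ≠ 0).erase b := by
        intro i hi
        have hi' := (Finset.mem_filter.1 hi).2
        refine Finset.mem_erase.2 ⟨?_, Finset.mem_filter.2 ⟨Finset.mem_univ _, hsub i hi'⟩⟩
        rintro rfl
        exact hi' hwb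
      have h1 := Finset.card_le_card hs
      have hbm : b ∈ Finset.univ.filter fun i => v i ≠ 0 := Finset.mem_filter.2 ⟨Finset.mem_univ _, hvb⟩
      rw [Finset.card_erase_of_mem hbm] at h1
      omega
    by_cases hc : 2 < (Finset.univ.filter fun i => v i ≠ 0).card
    · obtain ⟨a, ha, b, hb, d, hd, hab, had, hbd⟩ := Finset.two_lt_card.1 hc
      have hva := (Finset.mem_filter.1 ha).2
      have hvb := (Finset.mem_filter.1 hb).2
      have hvd := (Finset.mem_filter.1 hd).2
      by_cases h1 : v a * σ (v a) + v b * σ (v b) = 0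
      · by_cases h2 : v a * σ (v a) + v d * σ (v d) = 0
        · obtain ⟨v', e1, e2, e3, e4⟩ := norm_shift had (hPl a d had) v h2 hva hx₀
          have hv'b : v' b = v b := e2 b hab.symm hbd
          have hx' : v' a * σ (v' a) + v' b * σ (v' b) ≠ 0 := by
            rw [e1, hv'b]
            have h3 : x₀ * σ x₀ * (v a * σ (v a)) + v b * σ (v b) = (x₀ * σ x₀ - 1) * (v a * σ (v a)) := by
              linear_combination h1
            rw [h3]
            exact mul_ne_zero (sub_ne_zero.2 hx₀1) (mul_ne_zero hva ((map_ne_zero (hermSigma hF)).2 hva))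
          obtain ⟨w, f1, f2, f3, f4, f5⟩ := zero_out hab (hPl a b hab) v' hx'
          have hw := hreduce w b hvb f1 (by
            intro i hi
            by_cases hia : i = a
            · rw [hia]
              exact hva
            by_cases hib : i = b
            · rw [hib]
              exact hvb
            by_cases hid : i = d
            · rw [hid]
              exact hvd
            rw [f3 i hia hib, e2 i hia hid] at hi
            exact hi) (by rw [f4, e3, hiso])
          exact e4.2 (f5.2 hw)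
        · obtain ⟨w, f1, f2, f3, f4, f5⟩ := zero_out had (hPl a d had) v h2
          have hw := hreduce w d hvd f1 (by
            intro i hi
            by_cases hia : i = a
            · rw [hia]
              exact hva
            by_cases hid : i = d
            · exact absurd (by rw [hid]; exact f1) hi
            rw [f3 i hia hid] at hi
            exact hi) (by rw [f4, hiso])
          exact f5.2 hw
      · obtain ⟨w, f1, f2, f3, f4, f5⟩ := zero_out hab (hPl a b hab) v h1
        have hw := hreduce w b hvb f1 (by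
          intro i hi
          by_cases hia : i = a
          · rw [hia]
            exact hva
          by_cases hib : i = b
          · exact absurd (by rw [hib]; exact f1) hi
          rw [f3 i hia hib] at hi
          exact hi) (by rw [f4, hiso])
        exact f5.2 hw
    · -- weight at most two
      push Not at hc
      obtain ⟨a, b, hab, hsupp⟩ : ∃ a b : Fin n, a ≠ b ∧ ∀ i, v i ≠ 0 → i = a ∨ i = b := by
        have hn' : ∀ a : Fin n, ∃ b : Fin n, a ≠ b := by
          intro a
          by_contra hcon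
          push Not at hcon
          have : (⟨0, by omega⟩ : Fin n) = ⟨1, by omega⟩ := (hcon _).symm.trans (hcon _)
          simp [Fin.ext_iff] at this
        have hle := hc
        interval_cases hcard : (Finset.univ.filter fun i => v i ≠ 0).card
        · obtain ⟨b, hb⟩ := hn' ⟨0, by omega⟩
          refine ⟨_, b, hb, fun i hi => ?_⟩
          have h1 : i ∈ Finset.univ.filter fun i => v i ≠ 0 := Finset.mem_filter.2 ⟨Finset.mem_univ _, hi⟩
          rw [Finset.card_eq_zero.1 hcard] at h1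
          simp at h1
        · obtain ⟨a, ha⟩ := Finset.card_eq_one.1 hcard
          obtain ⟨b, hb⟩ := hn' a
          refine ⟨a, b, hb, fun i hi => ?_⟩
          have h1 : i ∈ Finset.univ.filter fun i => v i ≠ 0 := Finset.mem_filter.2 ⟨Finset.mem_univ _, hi⟩
          rw [ha] at h1
          left
          simpa using h1
        · obtain ⟨a, b, hab, hs⟩ := Finset.card_eq_two.1 hcard
          refine ⟨a, b, hab, fun i hi => ?_⟩
          have h1 : i ∈ Finset.univ.filter fun i => v i ≠ 0 := Finset.mem_filter.2 ⟨Finset.mem_univ _, hi⟩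
          rw [hs] at h1
          simpa using h1
      have hvdec : v = v a • (𝐞 a) + v b • (𝐞 b) := by
        ext i
        by_cases hia : i = a
        · subst hia
          simp [Pi.single_eq_of_ne hab]
        by_cases hib : i = b
        · subst hib
          simp [Pi.single_eq_of_ne (Ne.symm hab)]
        simp only [Pi.add_apply, Pi.smul_apply, Pi.single_eq_of_ne hia, Pi.single_eq_of_ne hib, smul_zero, add_zero]
        by_contra hi
        rcases hsupp i hi with h3 | h3
        · exact hia h3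
        · exact hib h3
      have hN : v a * σ (v a) + v b * σ (v b) = 0 := by
        rw [← hiso]
        conv_rhs => rw [hvdec]
        rw [form_two_two (hF := hF) a b _ _ _ _ hab]
      rw [hvdec]
      exact hPl a b hab _ _ hN

end Cfsg.Agent.Lib.H97VI
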