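import Mathlib
import Cfsg.Agent.Lib.H97VI
import Cfsg.Agent.Lib.GLMonDec

/-!
# Centres of transvections: from a centre to centres of weight two
-/

set_option autoImplicit false
set_option linter.unusedSectionVars false
set_option linter.unusedVariables false

namespace Cfsg.Agent.Lib.H97VJ

open Matrix Cfsg Cfsg.Geo Cfsg.Agent.Lib.TvGL Cfsg.Agent.Lib.SympT Cfsg.Agent.Lib.UForm
  Cfsg.Agent.Lib.UTrans Cfsg.Agent.Lib.GLMon Cfsg.Agent.Lib.GLMonFull Cfsg.Agent.Lib.GLMonLift Cfsg.Agent.Lib.HermForm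
  Cfsg.Agent.Lib.H97VA Cfsg.Agent.Lib.H97VB Cfsg.Agent.Lib.H97VC Cfsg.Agent.Lib.H97VD
  Cfsg.Agent.Lib.H97VE Cfsg.Agent.Lib.H97VF Cfsg.Agent.Lib.H97VG Cfsg.Agent.Lib.H97VI
open Cfsg.Agent.H97.Asch (herm_unitary hermSigma hermSigma_apply)
open scoped MatrixGroups

local notation:70 g:71 " ⋆ " x:70 => Matrix.mulVec (Units.val g) x

variable {n : ℕ} {F : Type*} [Field F] [Fintype F] {q : ℕ}

local notation "⟪" u ", " v "⟫" => hermForm n F q u v

/-- The coordinate vector. -/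
local notation "𝐞" i => (Pi.single i (1 : F) : Fin n → F)

variable {hF : Fintype.card F = q ^ 2}

local notation "σ" => hermSigma hF

local notation "𝐓" => TU (herm_unitary (n := n) hF)

variable {M : Subgroup (GL (Fin n) F)}

theorem cir_sig {ξ : F} (h : ξ * σ ξ = 1) : σ ξ * σ (σ ξ) = 1 := by
  rw [sig_sig' hF, mul_comm]
  exact h

theorem exists_nonreal_cir : ∃ ξ : F, ξ * σ ξ = 1 ∧ ξ ≠ σ ξ := by
  classical
  have hc := card_Cr hF (hermSigma_apply hF)
  have h2 := q_two_le hF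
  by_contra hcon
  push Not at hcon
  have h3 := card_quad_le (Cr (hermSigma hF)) (a := 1) (b := 0) (c := -1) one_ne_zero (by
    intro ρ hρ
    have h4 := mem_Cr.1 hρ
    have h5 := hcon ρ h4
    linear_combination (ρ) * h5 + h4)
  omega

/-- A pair of points of the circle for a pair of coordinates. -/
theorem ratio {xa xb : F} (hxa : xa ≠ 0) (hxb : xb ≠ 0) (fa : σ xa = xa) (fb : σ xb = xb) :
    ∃ ξ ξ' : F, ξ * σ ξ = 1 ∧ ξ' * σ ξ' = 1 ∧ ξ ≠ 1 ∧ ξ' ≠ 1 ∧
      (ξ - 1) * σ (ξ - 1) * xa + (ξ' - 1) * σ (ξ' - 1) * xb = 0 ∧ (ξ - 1) * xa + (ξ' - 1) * xb ≠ 0 := by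
  classical
  have hinv := sig_sig' (q := q) hF
  have hc := card_Cr hF (hermSigma_apply hF)
  have h2 := q_two_le hF
  set g : F → F := fun ξ => (ξ - 1) * σ (ξ - 1) with hg
  set Cr' := (Cr (hermSigma hF)).erase 1 with hCr'
  have hCr'c : Cr'.card = q := by
    rw [hCr', Finset.card_erase_of_mem (mem_Cr.2 (by simp)), hc]
    simp
  set S := Cr'.image g with hS
  have hSlarge : q ≤ 2 * S.card := by
    rw [← hCr'c]
    apply Finset.card_le_mul_card_image
    intro t ht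
    apply card_quad_le _ (a := 1) (b := t - 2) (c := 1) one_ne_zero
    intro x hx
    obtain ⟨h3, h4⟩ := Finset.mem_filter.1 hx
    have h5 := mem_Cr.1 (Finset.mem_erase.1 h3).2
    have h6 : (x - 1) * σ (x - 1) = t := h4
    rw [map_sub, map_one] at h6
    linear_combination (-x) * h6 + (x - 1) * h5
  set r := - xb / xa with hr
  have hr0 : r ≠ 0 := div_ne_zero (neg_ne_zero.2 hxb) hxa
  have hrfix : σ r = r := by
    rw [hr, map_div₀, map_neg, fa, fb]
  set S' := S.image (fun s => r * s) with hS'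
  have hS'c : S'.card = S.card := Finset.card_image_of_injective _ (fun a b h => mul_left_cancel₀ hr0 h)
  set E := Finset.univ.filter fun z : F => σ z = z ∧ z ≠ 0 with hE
  have hEc : E.card + 1 ≤ q := by
    have h1 := card_fixed_le hF (hermSigma_apply hF) (insert 0 E) (by
      intro z hz
      rcases Finset.mem_insert.1 hz with rfl | hz
      · exact map_zero _
      · exact (Finset.mem_filter.1 hz).2.1)
    rwa [Finset.card_insert_of_notMem (fun h => (Finset.mem_filter.1 h).2.2 rfl)] at h1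
  have hSE : S ⊆ E := by
    intro s hs
    obtain ⟨ξ, hξ, rfl⟩ := Finset.mem_image.1 hs
    have h3 := (Finset.mem_erase.1 hξ).1
    refine Finset.mem_filter.2 ⟨Finset.mem_univ _, ?_, ?_⟩
    · simp only [hg, map_mul, hinv]
      ring
    · exact mul_ne_zero (sub_ne_zero.2 h3) ((map_ne_zero (hermSigma hF)).2 (sub_ne_zero.2 h3))
  have hS'E : S' ⊆ E := by
    intro s hs
    obtain ⟨t, ht, rfl⟩ := Finset.mem_image.1 hs
    have h3 := Finset.mem_filter.1 (hSE ht)
    refine Finset.mem_filter.2 ⟨Finset.mem_univ _, ?_, mul_ne_zero hr0 h3.2.2⟩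
    rw [map_mul, hrfix, h3.2.1]
  obtain ⟨z, hz⟩ := Finset.inter_nonempty_of_card_lt_card_add_card hSE hS'E (by
    rw [hS'c]
    omega)
  obtain ⟨hz1, hz2⟩ := Finset.mem_inter.1 hz
  obtain ⟨ξ, hξ, rfl⟩ := Finset.mem_image.1 hz1
  obtain ⟨t, ht, hte⟩ := Finset.mem_image.1 hz2
  obtain ⟨ξ', hξ', rfl⟩ := Finset.mem_image.1 ht
  obtain ⟨hξ1, hξc⟩ := Finset.mem_erase.1 hξ
  obtain ⟨hξ'1, hξ'c⟩ := Finset.mem_erase.1 hξ'
  have hξc' := mem_Cr.1 hξc
  have hξ'c' := mem_Cr.1 hξ'c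
  have hiso : (ξ - 1) * σ (ξ - 1) * xa + (ξ' - 1) * σ (ξ' - 1) * xb = 0 := by
    have h3 : r * g ξ' = g ξ := hte
    have h4 : r * xa = - xb := by
      rw [hr]
      field_simp
    have h5 : g ξ = (ξ - 1) * σ (ξ - 1) := rfl
    have h6 : g ξ' = (ξ' - 1) * σ (ξ' - 1) := rfl
    rw [← h5, ← h6, ← h3]
    linear_combination (g ξ') * h4
  have hgsig : ∀ ζ : F, (σ ζ - 1) * σ (σ ζ - 1) = (ζ - 1) * σ (ζ - 1) := by
    intro ζ
    rw [map_sub, map_sub, map_one, hinv]
    ring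
  have hσne : ∀ ζ : F, ζ ≠ 1 → σ ζ ≠ 1 := by
    intro ζ hζ h0
    apply hζ
    have := congrArg (hermSigma hF) h0
    rwa [hinv, map_one] at this
  by_cases hA : (ξ - 1) * xa + (ξ' - 1) * xb = 0
  · by_cases hr1 : ξ = σ ξ
    · by_cases hr2 : ξ' = σ ξ'
      · -- both real
        have e1 : (ξ - 1) * (ξ + 1) = 0 := by
          have : ξ * ξ = 1 := by
            nth_rewrite 2 [hr1]
            exact hξc'
          linear_combination this
        have e2 : ξ = -1 := by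
          have := (mul_eq_zero.1 e1).resolve_left (sub_ne_zero.2 hξ1)
          linear_combination this
        have e3 : (ξ' - 1) * (ξ' + 1) = 0 := by
          have : ξ' * ξ' = 1 := by
            nth_rewrite 2 [hr2]
            exact hξ'c'
          linear_combination this
        have e4 : ξ' = -1 := by
          have := (mul_eq_zero.1 e3).resolve_left (sub_ne_zero.2 hξ'1)
          linear_combination this
        have h20 : (2 : F) ≠ 0 := by
          intro h0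
          apply hξ1
          rw [e2]
          linear_combination -h0
        have e5 : xa + xb = 0 := by
          rw [e2, e4] at hA
          apply mul_left_cancel₀ h20
          linear_combination -hA
        obtain ⟨ξ₀, h3, h4⟩ := exists_nonreal_cir (hF := hF)
        have h5 : ξ₀ ≠ 1 := by
          rintro rfl
          exact h4 (map_one _).symm
        refine ⟨ξ₀, σ ξ₀, h3, cir_sig h3, h5, hσne _ h5, ?_, ?_⟩
        · rw [hgsig]
          linear_combination ((ξ₀ - 1) * σ (ξ₀ - 1)) * e5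
        · have e6 : (ξ₀ - 1) * xa + (σ ξ₀ - 1) * xb = (ξ₀ - σ ξ₀) * xa := by
            linear_combination (σ ξ₀ - 1) * e5
          rw [e6]
          exact mul_ne_zero (sub_ne_zero.2 h4) hxa
      · refine ⟨ξ, σ ξ', hξc', cir_sig hξ'c', hξ1, hσne _ hξ'1, ?_, ?_⟩
        · rw [hgsig]
          exact hiso
        · have e6 : (ξ - 1) * xa + (σ ξ' - 1) * xb = (σ ξ' - ξ') * xb := by
            linear_combination hA
          rw [e6]
          exact mul_ne_zero (sub_ne_zero.2 (Ne.symm hr2)) hxb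
    · refine ⟨σ ξ, ξ', cir_sig hξc', hξ'c', hσne _ hξ1, hξ'1, ?_, ?_⟩
      · rw [hgsig]
        exact hiso
      · have e6 : (σ ξ - 1) * xa + (ξ' - 1) * xb = (σ ξ - ξ) * xa := by
          linear_combination hA
        rw [e6]
        exact mul_ne_zero (sub_ne_zero.2 (Ne.symm hr1)) hxa
  · exact ⟨ξ, ξ', hξc', hξ'c', hξ1, hξ'1, hiso, hA⟩

/-- A difference with an isometry. -/
theorem sub_step {t : GL (Fin n) F} (ht : t ∈ M) (htU : t ∈ GU n F q) {z : Fin n → F} (hz : z ∈ 𝐓 M)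
    (hyy : ⟪t ⋆ z - z, t ⋆ z - z⟫ = 0) (hyz : ⟪t ⋆ z - z, z⟫ ≠ 0) : t ⋆ z - z ∈ 𝐓 M := by
  have hf := herm_unitary (n := n) hF
  have h1 : t ⋆ z ∈ 𝐓 M := TU_conj hf (gu_pres' hF htU) ht hz
  have h2 : (-1 : F) • z ∈ 𝐓 M := TU_smul hf hz _
  have e : t ⋆ z + (-1 : F) • z = t ⋆ z - z := by
    rw [sub_eq_add_neg]
    simp
  rw [← e]
  apply Cfsg.Agent.Lib.UTIPair.TU_add hf h1 h2
  · rw [f_smul_right hf, map_neg, map_one]
    have e2 : ⟪t ⋆ z, z⟫ = ⟪t ⋆ z - z, z⟫ := by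
      rw [f_sub_left hf, hz.1, sub_zero]
    rw [e2]
    simpa using hyz
  · rw [e]
    exact hyy

theorem single_smul_eq {a : Fin n} (α : F) (i : Fin n) (h : i ≠ a) : (α • (𝐞 a)) i = 0 := by
  simp [Pi.single_eq_of_ne h]

/-- From a centre with a zero coordinate to a centre of weight two. -/
theorem W2 (hle : M ≤ GU n F q)
    (hD : ∀ s : Fin n → Fˣ, (∀ i, (s i : F) * σ (s i) = 1) → ∏ a, s a = 1 → dg s ∈ M) {z : Fin n → F}
    (hz : z ∈ 𝐓 M) {a b d : Fin n} (hab : a ≠ b) (had : a ≠ d) (hbd : b ≠ d) (hza : z a ≠ 0) (hzb : z b ≠ 0)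
    (hzd : z d = 0) : ∃ α β : F, α ≠ 0 ∧ β ≠ 0 ∧ α • (𝐞 a) + β • (𝐞 b) ∈ 𝐓 M := by
  classical
  have hf := herm_unitary (n := n) hF
  have hinv := sig_sig' (q := q) hF
  have hxa : z a * σ (z a) ≠ 0 := mul_ne_zero hza ((map_ne_zero (hermSigma hF)).2 hza)
  have hxb : z b * σ (z b) ≠ 0 := mul_ne_zero hzb ((map_ne_zero (hermSigma hF)).2 hzb)
  obtain ⟨ξ, ξ', h1, h2, h3, h4, h5, h6⟩ := ratio (hF := hF) hxa hxb
    (by rw [map_mul, hinv, mul_comm]) (by rw [map_mul, hinv, mul_comm])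
  have hξ0 : ξ ≠ 0 := by
    rintro rfl
    simp at h1
  have hξ'0 : ξ' ≠ 0 := by
    rintro rfl
    simp at h2
  set u : Fˣ := Units.mk0 ξ hξ0
  set u' : Fˣ := Units.mk0 ξ' hξ'0
  set s : Fin n → Fˣ := fun j => tt a d u j * tt b d u' j with hs
  have hscir : ∀ i, (s i : F) * σ (s i) = 1 := by
    intro i
    have e1 := tt_cir hF had u h1 i
    have e2 := tt_cir hF hbd u' h2 i
    simp only [hs, Units.val_mul, map_mul]
    linear_combination ((tt b d u' i : F) * σ (tt b d u' i)) * e1 + e2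
  have hsprod : ∏ j, s j = 1 := by
    rw [Finset.prod_mul_distrib, prod_tt had, prod_tt hbd, one_mul]
  have ht := hD s hscir hsprod
  set t := dg s with htdef
  have hsa : ((s a : Fˣ) : F) = ξ := by
    simp only [hs, Units.val_mul]
    rw [tt_left, tt_other _ hab had]
    simp [u]
  have hsb : ((s b : Fˣ) : F) = ξ' := by
    simp only [hs, Units.val_mul]
    rw [tt_other _ hab.symm hbd, tt_left]
    simp [u']
  have hso : ∀ i, i ≠ a → i ≠ b → i ≠ d → s i = 1 := by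
    intro i e1 e2 e3
    simp only [hs]
    rw [tt_other _ e1 e3, tt_other _ e2 e3, one_mul]
  have hy : t ⋆ z - z = ((ξ - 1) * z a) • (𝐞 a) + ((ξ' - 1) * z b) • (𝐞 b) := by
    ext i
    simp only [Pi.sub_apply, Pi.add_apply, Pi.smul_apply, smul_eq_mul]
    rw [dg_mulVec]
    by_cases e1 : i = a
    · rw [e1, hsa, Pi.single_eq_same, Pi.single_eq_of_ne hab]
      ring
    by_cases e2 : i = b
    · rw [e2, hsb, Pi.single_eq_same, Pi.single_eq_of_ne hab.symm]
      ring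
    rw [Pi.single_eq_of_ne e1, Pi.single_eq_of_ne e2]
    by_cases e3 : i = d
    · rw [e3, hzd]
      ring
    · rw [hso i e1 e2 e3]
      simp
  have hα : (ξ - 1) * z a ≠ 0 := mul_ne_zero (sub_ne_zero.2 h3) hza
  have hβ : (ξ' - 1) * z b ≠ 0 := mul_ne_zero (sub_ne_zero.2 h4) hzb
  refine ⟨_, _, hα, hβ, ?_⟩
  rw [← hy]
  apply sub_step ht (hle ht) hz
  · rw [hy, form_two_two (hF := hF) a b _ _ _ _ hab, map_mul, map_mul]
    linear_combination h5
  · rw [hy, form_two_left (hF := hF)]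
    have e : (ξ - 1) * z a * σ (z a) + (ξ' - 1) * z b * σ (z b) =
        (ξ - 1) * (z a * σ (z a)) + (ξ' - 1) * (z b * σ (z b)) := by ring
    rw [e]
    exact h6

/-- The same for two coordinates of opposite norms, without a zero coordinate. -/
theorem key_W2 (hle : M ≤ GU n F q)
    (hD : ∀ s : Fin n → Fˣ, (∀ i, (s i : F) * σ (s i) = 1) → ∏ a, s a = 1 → dg s ∈ M) {z : Fin n → F}
    (hz : z ∈ 𝐓 M) {a b : Fin n} (hab : a ≠ b) (hza : z a ≠ 0) (hzb : z b ≠ 0)
    (h0 : z a * σ (z a) + z b * σ (z b) = 0) : ∃ α β : F, α ≠ 0 ∧ β ≠ 0 ∧ α • (𝐞 a) + β • (𝐞 b) ∈ 𝐓 M := by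
  classical
  have hf := herm_unitary (n := n) hF
  have hinv := sig_sig' (q := q) hF
  obtain ⟨ξ, h1, h2⟩ := exists_nonreal_cir (hF := hF)
  have hξ0 : ξ ≠ 0 := by
    rintro rfl
    simp at h1
  have hξ1 : ξ ≠ 1 := by
    rintro rfl
    exact h2 (map_one _).symm
  have hσξ1 : σ ξ ≠ 1 := by
    intro h3
    apply hξ1
    have := congrArg (hermSigma hF) h3
    rwa [hinv, map_one] at this
  set u : Fˣ := Units.mk0 ξ hξ0
  have hucir : (u : F) * σ u = 1 := h1
  have ht := hD (tt a b u) (tt_cir hF hab u hucir) (prod_tt hab u)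
  set t := dg (tt a b u) with htdef
  have hui : ((u⁻¹ : Fˣ) : F) = σ ξ := by
    rw [Units.val_inv_eq_inv_val]
    exact inv_eq_of_mul_eq_one_right h1
  have hy : t ⋆ z - z = ((ξ - 1) * z a) • (𝐞 a) + ((σ ξ - 1) * z b) • (𝐞 b) := by
    ext i
    simp only [Pi.sub_apply, Pi.add_apply, Pi.smul_apply, smul_eq_mul]
    rw [dg_mulVec]
    by_cases e1 : i = a
    · rw [e1, tt_left, Pi.single_eq_same, Pi.single_eq_of_ne hab]
      simp [u]
      ring
    by_cases e2 : i = b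
    · rw [e2, tt_right hab, hui, Pi.single_eq_same, Pi.single_eq_of_ne hab.symm]
      ring
    rw [Pi.single_eq_of_ne e1, Pi.single_eq_of_ne e2, tt_other _ e1 e2]
    simp
  have hα : (ξ - 1) * z a ≠ 0 := mul_ne_zero (sub_ne_zero.2 hξ1) hza
  have hβ : (σ ξ - 1) * z b ≠ 0 := mul_ne_zero (sub_ne_zero.2 hσξ1) hzb
  refine ⟨_, _, hα, hβ, ?_⟩
  rw [← hy]
  apply sub_step ht (hle ht) hz
  · rw [hy, form_two_two (hF := hF) a b _ _ _ _ hab, map_mul, map_mul, map_sub, map_sub, map_one, hinv]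
    linear_combination ((ξ - 1) * (σ ξ - 1)) * h0
  · rw [hy, form_two_left (hF := hF)]
    have e : (ξ - 1) * z a * σ (z a) + (σ ξ - 1) * z b * σ (z b) = (ξ - σ ξ) * (z a * σ (z a)) := by
      linear_combination (σ ξ - 1) * h0
    rw [e]
    exact mul_ne_zero (sub_ne_zero.2 h2) (mul_ne_zero hza ((map_ne_zero (hermSigma hF)).2 hza))

end Cfsg.Agent.Lib.H97VJ
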