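import Mathlib
import Cfsg.Agent.Lib.H97VJ

/-!
# Overgroups of the stabiliser of an orthogonal decomposition in `SU`: blocks of size at least two, `q ≥ 3`
-/

set_option autoImplicit false
set_option linter.unusedSectionVars false
set_option linter.unusedVariables false

namespace Cfsg.Agent.Lib.H97VK

open Matrix Cfsg Cfsg.Geo Cfsg.Agent.Lib.TvGL Cfsg.Agent.Lib.SympT Cfsg.Agent.Lib.UForm
  Cfsg.Agent.Lib.UTrans Cfsg.Agent.Lib.GLMon Cfsg.Agent.Lib.GLMonFull Cfsg.Agent.Lib.GLMonLift Cfsg.Agent.Lib.HermForm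
  Cfsg.Agent.Lib.H97VA Cfsg.Agent.Lib.H97VB Cfsg.Agent.Lib.H97VC Cfsg.Agent.Lib.H97VD
  Cfsg.Agent.Lib.H97VE Cfsg.Agent.Lib.H97VF Cfsg.Agent.Lib.H97VG Cfsg.Agent.Lib.H97VI Cfsg.Agent.Lib.H97VJ
open Cfsg.Agent.H97.Asch (herm_unitary hermSigma hermSigma_apply)
open Cfsg.Agent.Lib.UWitt (tau_mem_K)
open scoped MatrixGroups

local notation:70 g:71 " ⋆ " x:70 => Matrix.mulVec (Units.val g) x

variable {n : ℕ} {F : Type*} [Field F] [Fintype F] {q : ℕ}

local notation "⟪" u ", " v "⟫" => hermForm n F q u v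

/-- The coordinate vector. -/
local notation "𝐞" i => (Pi.single i (1 : F) : Fin n → F)

variable {hF : Fintype.card F = q ^ 2}

local notation "σ" => hermSigma hF

local notation "𝐓" => TU (herm_unitary (n := n) hF)

variable {M : Subgroup (GL (Fin n) F)} {κ : Type} [Fintype κ] [DecidableEq κ]

/-- The context. -/
structure BCtx (hF : Fintype.card F = q ^ 2) (M : Subgroup (GL (Fin n) F)) (c : Fin n → κ) : Prop where
  le : M ≤ GU n F q ⊓ specialLinear (Fin n) F
  blk : ∀ x, x ∈ GU n F q ⊓ specialLinear (Fin n) F → BlockPres c x → x ∈ M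

variable {c : Fin n → κ}

theorem BCtx.gu (B : BCtx hF M c) : M ≤ GU n F q := fun x hx => (B.le hx).1

theorem BCtx.dg_mem (B : BCtx hF M c) (s : Fin n → Fˣ) (hs : ∀ i, (s i : F) * σ (s i) = 1) (h : ∏ a, s a = 1) :
    dg s ∈ M := by
  apply B.blk _ (dg_mem_K hF s hs h)
  refine ⟨1, fun a b hab => ?_⟩
  rw [dg_apply, if_neg]
  rintro rfl
  exact hab rfl

theorem signU_cir (π : Equiv.Perm (Fin n)) : ((signU π : Fˣ) : F) * σ ((signU π : Fˣ) : F) = 1 := by
  rw [signU_val]
  rcases Int.units_eq_one_or (Equiv.Perm.sign π) with h | h <;> rw [h] <;> simp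

theorem mon_e (π : Equiv.Perm (Fin n)) (s : Fin n → Fˣ) (i : Fin n) :
    mon π s ⋆ (𝐞 i) = (s i : F) • (𝐞 (π i)) := by
  have h := mono_col (y := mon π s) (π := π) (fun a b hb => by rw [mon_apply, if_neg hb]) i
  rw [h, mon_apply, if_pos rfl]

/-- Transport of weight-two centres across blocks. -/
theorem spread (B : BCtx hF M c)
    (hperm : ∀ p k p₁ k₁, c p ≠ c k → c p₁ ≠ c k₁ →
      ∃ (π : Equiv.Perm (Fin n)) (σ' : Equiv.Perm κ), (∀ a, c (π a) = σ' (c a)) ∧ π p = p₁ ∧ π k = k₁)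
    (hn : 3 ≤ n) {a b : Fin n} (hab : c a ≠ c b) {α β : F} (hα : α ≠ 0) (hβ : β ≠ 0)
    (hy : α • (𝐞 a) + β • (𝐞 b) ∈ 𝐓 M) {a' b' : Fin n} (hab' : c a' ≠ c b') {α' β' : F}
    (h0 : α' * σ α' + β' * σ β' = 0) : α' • (𝐞 a') + β' • (𝐞 b') ∈ 𝐓 M := by
  have hf := herm_unitary (n := n) hF
  have hinv := sig_sig' (q := q) hF
  have hne : a ≠ b := fun h => hab (by rw [h])
  by_cases hα' : α' = 0
  · have hβ' : β' = 0 := by
      rw [hα', map_zero, mul_zero, zero_add] at h0
      rcases mul_eq_zero.1 h0 with h | h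
      · exact h
      · exact (map_eq_zero (hermSigma hF)).1 h
    rw [hα', hβ', zero_smul, zero_smul, add_zero]
    exact TU_zero hf
  have hβ'0 : β' ≠ 0 := by
    intro h
    rw [h, map_zero, mul_zero, add_zero] at h0
    exact (mul_ne_zero hα' ((map_ne_zero (hermSigma hF)).2 hα')) h0
  have hσα := (map_ne_zero (hermSigma hF)).2 hα
  have hσα' := (map_ne_zero (hermSigma hF)).2 hα'
  have hiso : α * σ α + β * σ β = 0 := by
    have := hy.1
    rwa [form_two_two (hF := hF) a b _ _ _ _ hne] at this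
  set μ := β / α with hμ
  set μ' := β' / α' with hμ'
  have hμ0 : μ ≠ 0 := div_ne_zero hβ hα
  have hμ'0 : μ' ≠ 0 := div_ne_zero hβ'0 hα'
  have hNμ : μ * σ μ = -1 := by
    rw [hμ, map_div₀]
    field_simp
    linear_combination hiso
  have hNμ' : μ' * σ μ' = -1 := by
    rw [hμ', map_div₀]
    field_simp
    linear_combination h0
  have hub : μ' / μ ≠ 0 := div_ne_zero hμ'0 hμ0
  set ub : Fˣ := Units.mk0 _ hub with hubdef
  have hσμ := (map_ne_zero (hermSigma hF)).2 hμ0
  have hubcir : (ub : F) * σ ub = 1 := by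
    show μ' / μ * σ (μ' / μ) = 1
    rw [map_div₀, div_mul_div_comm, hNμ', hNμ]
    exact div_self (by simp)
  obtain ⟨π, σ', h1, h2, h3⟩ := hperm a b a' b' hab hab'
  obtain ⟨d, hda, hdb⟩ := exists_third (ι := Fin n) (by simpa using hn) a b
  set s : Fin n → Fˣ := fun i => tt b d ub i * ds d (signU π) i with hs
  have hscir : ∀ i, (s i : F) * σ (s i) = 1 := by
    intro i
    have e1 := tt_cir hF hdb.symm ub hubcir i
    have e2 : ((ds d (signU π) i : Fˣ) : F) * σ ((ds d (signU π) i : Fˣ) : F) = 1 := by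
      by_cases hi : i = d
      · rw [hi, ds_same]
        exact signU_cir π
      · rw [ds_ne _ hi]
        simp
    simp only [hs, Units.val_mul, map_mul]
    linear_combination (((ds d (signU π) i : Fˣ) : F) * σ ((ds d (signU π) i : Fˣ) : F)) * e1 + e2
  have hsdet : (((Equiv.Perm.sign π : ℤˣ) : ℤ) : F) * ∏ a, (s a : F) = 1 := by
    have e1 : ∏ a, s a = signU π := by
      rw [Finset.prod_mul_distrib, prod_tt hdb.symm, one_mul, prod_ds]
    have e2 : ∏ a, (s a : F) = ((signU π : Fˣ) : F) := by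
      have := congrArg Units.val e1
      simpa using this
    rw [e2]
    exact signU_sq π
  have hm : mon π s ∈ M := by
    apply B.blk _ (mon_mem_K hF π s hscir hsdet)
    refine ⟨σ', fun a0 b0 hb => ?_⟩
    rw [mon_apply, if_neg]
    rintro rfl
    exact hb (h1 a0)
  have hmU := B.gu hm
  have hsa : ((s a : Fˣ) : F) = 1 := by
    simp only [hs, Units.val_mul]
    rw [tt_other _ hne (Ne.symm hda), ds_ne _ (Ne.symm hda)]
    simp
  have hsb : ((s b : Fˣ) : F) = μ' / μ := by
    simp only [hs, Units.val_mul]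
    rw [tt_left, ds_ne _ (Ne.symm hdb)]
    simp [hubdef]
  have h4 : (1 : F) • (𝐞 a) + μ • (𝐞 b) ∈ 𝐓 M := by
    have := TU_smul hf hy α⁻¹
    have e : α⁻¹ • (α • (𝐞 a) + β • (𝐞 b)) = (1 : F) • (𝐞 a) + μ • (𝐞 b) := by
      rw [smul_add, smul_smul, smul_smul, inv_mul_cancel₀ hα, hμ]
      congr 2
      field_simp
    rwa [e] at this
  have h5 := TU_conj hf (gu_pres' hF hmU) hm h4
  rw [Matrix.mulVec_add, Matrix.mulVec_smul, Matrix.mulVec_smul, mon_e, mon_e, hsa, hsb, h2, h3, one_smul, smul_smul] at h5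
  have h6 := TU_smul hf h5 α'
  have e : α' • ((1 : F) • (𝐞 a') + (μ * (μ' / μ)) • (𝐞 b')) = α' • (𝐞 a') + β' • (𝐞 b') := by
    rw [smul_add, smul_smul, smul_smul, mul_one]
    congr 2
    rw [hμ']
    field_simp
  rwa [e] at h6

/-- Isotropic vectors inside a block are centres. -/
theorem block_T (B : BCtx hF M c) {z : Fin n → F} (hz : ⟪z, z⟫ = 0) {κ₀ : κ} (hs : ∀ i, c i ≠ κ₀ → z i = 0) :
    z ∈ 𝐓 M := by
  have hf := herm_unitary (n := n) hF
  refine ⟨hz, fun l hl => ?_⟩
  have h0 : ⟪l • z, z⟫ = 0 := by rw [hf.smul_left, hz, mul_zero]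
  refine ⟨h0, B.blk _ (tau_mem_K hF hz hl h0) ⟨1, fun a0 b0 hb => ?_⟩⟩
  have h1 := tau_apply hf (l • z) z h0 (𝐞 a0)
  have h2 := congrFun h1 b0
  rw [Matrix.mulVec_single_one, Matrix.col_apply] at h2
  rw [h2]
  have hb' : c b0 ≠ c a0 := hb
  have hb0a0 : b0 ≠ a0 := fun h => hb' (by rw [h])
  simp only [Pi.add_apply, Pi.smul_apply, smul_eq_mul, Pi.single_eq_of_ne hb0a0, zero_add]
  rw [form_e_left hF]
  by_cases h3 : c b0 = κ₀
  · have h4 : c a0 ≠ κ₀ := fun h => hb' (by rw [h3, h])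
    rw [hs a0 h4, map_zero]
    ring
  · rw [hs b0 h3]
    ring

/-- A matrix sending vectors of weight two inside blocks into blocks preserves the blocks. -/
theorem blockPres_of_single {g : GL (Fin n) F} (hg : g ∈ GU n F q) (hc : Function.Surjective c)
    (hk : ∀ a, ∃ b, b ≠ a ∧ c b = c a)
    (h : ∀ a b (μ : F), a ≠ b → c a = c b → μ * σ μ = -1 →
      ∃ κ₀, ∀ i, c i ≠ κ₀ → (g ⋆ ((𝐞 a) + μ • (𝐞 b))) i = 0) : BlockPres c g := by
  classical
  have hf := herm_unitary (n := n) hF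
  have hinv := sig_sig' (q := q) hF
  obtain ⟨μ₀, hμ₀⟩ := exists_norm hf (a := (-1 : F)) (by simp)
  have hμ₀0 : μ₀ ≠ 0 := by
    rintro rfl
    have : (0 : F) = -1 := by simpa using hμ₀
    exact neg_ne_zero.2 one_ne_zero this.symm
  obtain ⟨ξ, hξ, hξ1⟩ := exists_nonreal_cir (hF := hF)
  have hξne : ξ ≠ 1 := by
    rintro rfl
    exact hξ1 (map_one _).symm
  set μ₁ := μ₀ * ξ with hμ₁
  have hμ₁N : μ₁ * σ μ₁ = -1 := by
    rw [hμ₁, map_mul]
    linear_combination (ξ * σ ξ) * hμ₀ + (-1 : F) * hξ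
  have hμ₁ne : μ₀ ≠ μ₁ := by
    intro h0
    apply hξne
    apply mul_left_cancel₀ hμ₀0
    rw [mul_one, ← hμ₁, ← h0]
  -- the target of a block
  have key : ∀ a, ∃ T : κ, ∀ a', c a' = c a → ∀ i, c i ≠ T → (g : Matrix (Fin n) (Fin n) F) i a' = 0 := by
    intro a
    obtain ⟨b₀, hb₀, hcb₀⟩ := hk a
    set z₀ := (𝐞 a) + μ₀ • (𝐞 b₀) with hz₀
    obtain ⟨T, hT⟩ := h a b₀ μ₀ (Ne.symm hb₀) hcb₀.symm hμ₀
    -- all vectors of the family go to the same block
    have hsame : ∀ b (μ : F), b ≠ a → c b = c a → μ * σ μ = -1 → ∀ i, c i ≠ T → (g ⋆ ((𝐞 a) + μ • (𝐞 b))) i = 0 := by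
      intro b μ hb hcb hμ
      obtain ⟨T', hT'⟩ := h a b μ (Ne.symm hb) hcb.symm hμ
      by_cases hTT : T' = T
      · rw [← hTT]
        exact hT'
      exfalso
      -- the two vectors are orthogonal
      have e1 : ⟪g ⋆ ((𝐞 a) + μ • (𝐞 b)), g ⋆ z₀⟫ = 0 := by
        unfold hermForm
        apply Finset.sum_eq_zero
        intro i _
        by_cases hi : c i = T'
        · have : (g ⋆ z₀) i = 0 := hT i (by rw [hi]; exact hTT)
          rw [this, zero_pow (by have := q_two_le hF; omega), mul_zero]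
        · rw [hT' i hi, zero_mul]
      rw [gu_pres hF hg] at e1
      have e2 : ⟪(𝐞 a) + μ • (𝐞 b), z₀⟫ = (1 : F) + (if b = b₀ then μ * σ μ₀ else 0) := by
        rw [hz₀, hf.add_left, hf.smul_left, f_add_right hf, f_add_right hf, f_smul_right hf, f_smul_right hf,
          form_e_e hF, form_e_e hF, form_e_e hF, form_e_e hF, if_pos rfl, if_neg (Ne.symm hb₀), if_neg hb]
        by_cases hbb : b = b₀
        · rw [if_pos hbb, if_pos hbb]
          ring
        · rw [if_neg hbb, if_neg hbb]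
          ring
      rw [e2] at e1
      by_cases hbb : b = b₀
      · rw [if_pos hbb] at e1
        -- then `μ = μ₀`
        have e3 : μ = μ₀ := by
          have hμ0 : σ μ₀ ≠ 0 := (map_ne_zero (hermSigma hF)).2 hμ₀0
          have e4 : μ * σ μ₀ = -1 := by linear_combination e1
          apply mul_right_cancel₀ hμ0
          rw [e4, hμ₀]
        apply hTT
        -- the two vectors coincide, and a nonzero vector lies in one block only
        subst hbb
        rw [e3] at hT'
        have hne : g ⋆ z₀ ≠ 0 := by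
          intro h0
          have := inv_mulVec_GL g z₀
          rw [h0, Matrix.mulVec_zero] at this
          have h5 := congrFun this a
          simp [hz₀, Pi.single_eq_of_ne (Ne.symm hb₀)] at h5
        obtain ⟨i, hi⟩ : ∃ i, (g ⋆ z₀) i ≠ 0 := by
          by_contra hcon
          push Not at hcon
          exact hne (funext hcon)
        have h6 : c i = T' := by
          by_contra h7
          exact hi (hT' i h7)
        have h7 : c i = T := by
          by_contra h8
          exact hi (hT i h8)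
        rw [← h6, h7]
      · rw [if_neg hbb, add_zero] at e1
        exact one_ne_zero e1
    refine ⟨T, ?_⟩
    -- the columns
    have hcolb : ∀ b, b ≠ a → c b = c a → ∀ i, c i ≠ T → (g : Matrix (Fin n) (Fin n) F) i b = 0 := by
      intro b hb hcb i hi
      have e1 := hsame b μ₀ hb hcb hμ₀ i hi
      have e2 := hsame b μ₁ hb hcb hμ₁N i hi
      rw [Matrix.mulVec_add, Matrix.mulVec_smul, Pi.add_apply, Pi.smul_apply, smul_eq_mul, gu_col hF, gu_col hF] at e1 e2
      have e3 : (μ₀ - μ₁) * (g : Matrix (Fin n) (Fin n) F) i b = 0 := by linear_combination e1 - e2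
      exact (mul_eq_zero.1 e3).resolve_left (sub_ne_zero.2 hμ₁ne)
    intro a' ha' i hi
    by_cases haa : a' = a
    · have e1 := hsame b₀ μ₀ hb₀ hcb₀ hμ₀ i hi
      rw [Matrix.mulVec_add, Matrix.mulVec_smul, Pi.add_apply, Pi.smul_apply, smul_eq_mul, gu_col hF, gu_col hF,
        hcolb b₀ hb₀ hcb₀ i hi, mul_zero, add_zero] at e1
      rw [haa]
      exact e1
    · exact hcolb a' haa ha' i hi
  choose T hT using key
  have hr : ∀ k, c (Function.surjInv hc k) = k := Function.surjInv_eq hc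
  apply blockPres_of_fun hc g (fun k => T (Function.surjInv hc k))
  intro a b hb
  exact hT (Function.surjInv hc (c a)) a (hr _).symm b hb

end Cfsg.Agent.Lib.H97VK
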