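import Mathlib
import Cfsg.Agent.Lib.H97VK

/-!
# Overgroups of the stabiliser of an orthogonal decomposition in `SU`: the end of the block case
-/

set_option autoImplicit false
set_option linter.unusedSectionVars false
set_option linter.unusedVariables false

namespace Cfsg.Agent.Lib.H97VL

open Matrix Cfsg Cfsg.Geo Cfsg.Agent.Lib.TvGL Cfsg.Agent.Lib.SympT Cfsg.Agent.Lib.UForm
  Cfsg.Agent.Lib.UTrans Cfsg.Agent.Lib.GLMon Cfsg.Agent.Lib.GLMonFull Cfsg.Agent.Lib.GLMonLift Cfsg.Agent.Lib.HermForm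
  Cfsg.Agent.Lib.H97VA Cfsg.Agent.Lib.H97VB Cfsg.Agent.Lib.H97VC Cfsg.Agent.Lib.H97VD
  Cfsg.Agent.Lib.H97VE Cfsg.Agent.Lib.H97VF Cfsg.Agent.Lib.H97VG Cfsg.Agent.Lib.H97VI Cfsg.Agent.Lib.H97VJ
  Cfsg.Agent.Lib.H97VK
open Cfsg.Agent.H97.Asch (herm_unitary hermSigma hermSigma_apply)
open Cfsg.Agent.Lib.UWitt (tau_mem_K)
open scoped MatrixGroups

local notation:70 g:71 " ⋆ " x:70 => Matrix.mulVec (Units.val g) x

variable {n : ℕ} {F : Type*} [Field F] [Fintype F] {q : ℕ}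

local notation "⟪" u ", " v "⟫" => hermForm n F q u v

/-- The coordinate vector. -/
local notation "𝐞" i => (Pi.single i (1 : F) : Fin n → F)

variable {hF : Fintype.card F = q ^ 2}

local notation "σ" => hermSigma hF

local notation "𝐓" => TU (herm_unitary (n := n) hF)

variable {M : Subgroup (GL (Fin n) F)} {κ : Type} [Fintype κ] [DecidableEq κ] {c : Fin n → κ}

/-- Vectors of weight two inside a block are centres. -/
theorem block_two (B : BCtx hF M c) {a b : Fin n} (hab : a ≠ b) (hc : c a = c b) {α β : F}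
    (h0 : α * σ α + β * σ β = 0) : α • (𝐞 a) + β • (𝐞 b) ∈ 𝐓 M := by
  apply block_T B (κ₀ := c a)
  · rw [form_two_two (hF := hF) a b _ _ _ _ hab]
    exact h0
  · intro i hi
    have h1 : i ≠ a := by
      rintro rfl
      exact hi rfl
    have h2 : i ≠ b := by
      rintro rfl
      exact hi hc.symm
    simp [Pi.single_eq_of_ne h1, Pi.single_eq_of_ne h2]

/-- One vector of weight two across two blocks gives everything. -/
theorem finish (B : BCtx hF M c)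
    (hperm : ∀ p k p₁ k₁, c p ≠ c k → c p₁ ≠ c k₁ →
      ∃ (π : Equiv.Perm (Fin n)) (σ' : Equiv.Perm κ), (∀ a, c (π a) = σ' (c a)) ∧ π p = p₁ ∧ π k = k₁)
    (hq3 : 3 ≤ q) (hn : 3 ≤ n) {a b : Fin n} (hab : c a ≠ c b) {α β : F} (hα : α ≠ 0) (hβ : β ≠ 0)
    (hy : α • (𝐞 a) + β • (𝐞 b) ∈ 𝐓 M) : ∀ v : Fin n → F, ⟪v, v⟫ = 0 → v ∈ 𝐓 M := by
  apply H97VI.closure hq3 (by omega)
  intro a' b' hab' α' β' h0
  by_cases hc : c a' = c b'
  · exact block_two B hab' hc h0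
  · exact spread B hperm hn hab hα hβ hy hc h0

/-- The case of blocks of size at least two. -/
theorem block_case (B : BCtx hF M c) (hc : Function.Surjective c)
    (hperm : ∀ p k p₁ k₁, c p ≠ c k → c p₁ ≠ c k₁ →
      ∃ (π : Equiv.Perm (Fin n)) (σ' : Equiv.Perm κ), (∀ a, c (π a) = σ' (c a)) ∧ π p = p₁ ∧ π k = k₁)
    (hk : ∀ a, ∃ b, b ≠ a ∧ c b = c a) (hq3 : 3 ≤ q) (hn : 3 ≤ n) {g : GL (Fin n) F} (hg : g ∈ M)
    (hnb : ¬ BlockPres c g) : ∀ v : Fin n → F, ⟪v, v⟫ = 0 → v ∈ 𝐓 M := by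
  classical
  have hf := herm_unitary (n := n) hF
  have hinv := sig_sig' (q := q) hF
  have hgU := B.gu hg
  have hsel : ¬ ∀ a b (μ : F), a ≠ b → c a = c b → μ * σ μ = -1 →
      ∃ κ₀, ∀ i, c i ≠ κ₀ → (g ⋆ ((𝐞 a) + μ • (𝐞 b))) i = 0 :=
    fun h => hnb (blockPres_of_single hgU hc hk h)
  push Not at hsel
  obtain ⟨a, b, μ, hab, hcab, hμ, hw⟩ := hsel
  have hz : (𝐞 a) + μ • (𝐞 b) ∈ 𝐓 M := by
    have := block_two B hab hcab (α := 1) (β := μ) (by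
      rw [map_one, hμ]
      ring)
    rwa [one_smul] at this
  have hwT := TU_conj hf (gu_pres' hF hgU) hg hz
  set w := g ⋆ ((𝐞 a) + μ • (𝐞 b)) with hwdef
  obtain ⟨a', ha1, ha2⟩ := hw (c a)
  obtain ⟨b', hb1, hb2⟩ := hw (c a')
  have hab' : a' ≠ b' := by
    rintro rfl
    exact hb1 rfl
  obtain ⟨d, hd, hcd⟩ := hk a'
  have hb'd : b' ≠ d := by
    rintro rfl
    exact hb1 hcd
  have hPl : ∀ α β : F, α * σ α + β * σ β = 0 → α • (𝐞 a') + β • (𝐞 d) ∈ 𝐓 M :=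
    fun α β h => block_two B (Ne.symm hd) hcd.symm h
  have hfin : ∀ α β : F, α ≠ 0 → β ≠ 0 → α • (𝐞 a') + β • (𝐞 b') ∈ 𝐓 M →
      ∀ v : Fin n → F, ⟪v, v⟫ = 0 → v ∈ 𝐓 M := fun α β h1 h2 h3 =>
    finish B hperm hq3 hn (Ne.symm hb1) h1 h2 h3
  by_cases hx : w a' * σ (w a') + w d * σ (w d) = 0
  · -- shift the norm at `a'`
    have hσwa := (map_ne_zero (hermSigma hF)).2 ha2
    have hσwb := (map_ne_zero (hermSigma hF)).2 hb2
    have hNa : w a' * σ (w a') ≠ 0 := mul_ne_zero ha2 hσwa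
    have hNb : w b' * σ (w b') ≠ 0 := mul_ne_zero hb2 hσwb
    have hfix : σ (-(w b' * σ (w b')) / (w a' * σ (w a'))) = -(w b' * σ (w b')) / (w a' * σ (w a')) := by
      rw [map_div₀, map_neg, map_mul, map_mul, hinv, hinv, mul_comm (σ (w b')), mul_comm (σ (w a'))]
    obtain ⟨x₀, hx₀⟩ := exists_norm hf hfix
    have hx₀0 : x₀ ≠ 0 := by
      rintro rfl
      rw [zero_mul] at hx₀
      exact div_ne_zero (neg_ne_zero.2 hNb) hNa hx₀.symm
    obtain ⟨v', h1, h2, h3, h4⟩ := norm_shift (Ne.symm hd) hPl w hx ha2 hx₀0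
    have hv'T : v' ∈ 𝐓 M := h4.1 hwT
    have hv'b : v' b' = w b' := h2 b' (Ne.symm hab') hb'd
    have hv'a : v' a' ≠ 0 := by
      intro h5
      rw [h5, zero_mul] at h1
      exact (mul_ne_zero (mul_ne_zero hx₀0 ((map_ne_zero (hermSigma hF)).2 hx₀0)) hNa) h1.symm
    obtain ⟨α, β, h5, h6, h7⟩ := key_W2 B.gu B.dg_mem hv'T hab' hv'a (by rw [hv'b]; exact hb2) (by
      rw [h1, hv'b, hx₀]
      field_simp
      ring)
    exact hfin α β h5 h6 h7
  · -- clear the coordinate `d`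
    obtain ⟨v', h1, h2, h3, h4, h5⟩ := zero_out (Ne.symm hd) hPl w hx
    have hv'T : v' ∈ 𝐓 M := h5.1 hwT
    have hv'b : v' b' = w b' := h3 b' (Ne.symm hab') hb'd
    obtain ⟨α, β, h6, h7, h8⟩ := W2 B.gu B.dg_mem hv'T hab' (Ne.symm hd) hb'd h2 (by rw [hv'b]; exact hb2) h1
    exact hfin α β h6 h7 h8

end Cfsg.Agent.Lib.H97VL
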