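import Mathlib
import Cfsg.Agent.Lib.H97VL

/-!
# Overgroups of the monomial group in `SU`: reflections and Heisenberg commutators
-/

set_option autoImplicit false
set_option linter.unusedSectionVars false
set_option linter.unusedVariables false

namespace Cfsg.Agent.Lib.H97VM

open Matrix Cfsg Cfsg.Geo Cfsg.Agent.Lib.TvGL Cfsg.Agent.Lib.SympT Cfsg.Agent.Lib.UForm
  Cfsg.Agent.Lib.UTrans Cfsg.Agent.Lib.GLMon Cfsg.Agent.Lib.GLMonFull Cfsg.Agent.Lib.GLMonLift Cfsg.Agent.Lib.HermForm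
  Cfsg.Agent.Lib.H97VA Cfsg.Agent.Lib.H97VB Cfsg.Agent.Lib.H97VC Cfsg.Agent.Lib.H97VD
  Cfsg.Agent.Lib.H97VE Cfsg.Agent.Lib.H97VF Cfsg.Agent.Lib.H97VG Cfsg.Agent.Lib.H97VI Cfsg.Agent.Lib.H97VJ
  Cfsg.Agent.Lib.H97VK Cfsg.Agent.Lib.H97VL
open Cfsg.Agent.H97.Asch (herm_unitary hermSigma hermSigma_apply)
open Cfsg.Agent.Lib.UWitt (tau_mem_K)
open scoped MatrixGroups

local notation:70 g:71 " ⋆ " x:70 => Matrix.mulVec (Units.val g) x

variable {n : ℕ} {F : Type*} [Field F] [Fintype F] {q : ℕ}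

local notation "⟪" u ", " v "⟫" => hermForm n F q u v

/-- The coordinate vector. -/
local notation "𝐞" i => (Pi.single i (1 : F) : Fin n → F)

variable {hF : Fintype.card F = q ^ 2}

local notation "σ" => hermSigma hF

local notation "𝐓" => TU (herm_unitary (n := n) hF)

variable {M : Subgroup (GL (Fin n) F)}

/-- The reflection with a unit centre. -/
noncomputable def RR (hF : Fintype.card F = q ^ 2) {v : Fin n → F} (hv : ⟪v, v⟫ = 1) (a : Fˣ) : GL (Fin n) F :=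
  rf v (cov (hermForm n F q) v) (by rw [cov_dot (herm_unitary (n := n) hF)]; exact hv) a

theorem RR_apply {v : Fin n → F} (hv : ⟪v, v⟫ = 1) (a : Fˣ) (w : Fin n → F) :
    RR hF hv a ⋆ w = w + (((a : F) - 1) * ⟪w, v⟫) • v := by
  unfold RR
  rw [rf_mulVec, cov_dot (herm_unitary (n := n) hF)]

theorem RR_inv {v : Fin n → F} (hv : ⟪v, v⟫ = 1) (a : Fˣ) : (RR hF hv a)⁻¹ = RR hF hv a⁻¹ := by
  apply Units.ext
  unfold RR
  rw [rf_inv_val, rf_val]

theorem RR_smul {l : F} (hl : l * σ l = 1) {v : Fin n → F} (hv : ⟪v, v⟫ = 1) (hv' : ⟪l • v, l • v⟫ = 1) (a : Fˣ) :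
    RR hF hv' a = RR hF hv a := by
  have hf := herm_unitary (n := n) hF
  apply GL_ext
  intro w
  rw [RR_apply, RR_apply, f_smul_right hf, smul_smul]
  congr 2
  linear_combination (((a : F) - 1) * ⟪w, v⟫) * hl

theorem RR_conj {g : GL (Fin n) F} (hg : g ∈ GU n F q) {v : Fin n → F} (hv : ⟪v, v⟫ = 1)
    (hv' : ⟪g ⋆ v, g ⋆ v⟫ = 1) (a : Fˣ) : g * RR hF hv a * g⁻¹ = RR hF hv' a := by
  apply GL_ext
  intro w
  rw [mulVec_mul_GL, mulVec_mul_GL, RR_apply, RR_apply, Matrix.mulVec_add, Matrix.mulVec_smul, mulVec_inv_GL,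
    gu_adj hF hg]

theorem he (hF : Fintype.card F = q ^ 2) (c : Fin n) : ⟪𝐞 c, 𝐞 c⟫ = 1 := by
  rw [form_e_e hF, if_pos rfl]

/-- The unit vectors whose reflections are, up to `M`, those of `𝐞 c`. -/
def Rs (hF : Fintype.card F = q ^ 2) (M : Subgroup (GL (Fin n) F)) (c : Fin n) : Set (Fin n → F) :=
  {u | ∃ hu : ⟪u, u⟫ = 1, ∀ a : Fˣ, (a : F) * hermSigma hF (a : F) = 1 → RR hF hu a * RR hF (he hF c) a⁻¹ ∈ M}

theorem Rs_e (hD : ∀ s : Fin n → Fˣ, (∀ i, (s i : F) * σ (s i) = 1) → ∏ a, s a = 1 → dg s ∈ M) (j c : Fin n) :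
    (𝐞 j) ∈ Rs hF M c := by
  refine ⟨he hF j, fun a ha => ?_⟩
  by_cases hjc : j = c
  · subst hjc
    rw [← RR_inv, mul_inv_cancel]
    exact M.one_mem
  have e : RR hF (he hF j) a * RR hF (he hF c) a⁻¹ = dg (tt j c a) := by
    apply GL_ext
    intro w
    rw [mulVec_mul_GL, RR_apply, RR_apply, form_e_right hF, form_e_right hF]
    funext i
    rw [dg_mulVec]
    simp only [Pi.add_apply, Pi.smul_apply, smul_eq_mul, Pi.single_eq_of_ne hjc, mul_zero, add_zero]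
    by_cases hi : i = j
    · subst hi
      rw [tt_left, Pi.single_eq_same, Pi.single_eq_of_ne hjc]
      ring
    by_cases hi' : i = c
    · subst hi'
      rw [tt_right hjc, Pi.single_eq_same, Pi.single_eq_of_ne hi]
      ring
    · rw [tt_other _ hi hi', Pi.single_eq_of_ne hi, Pi.single_eq_of_ne hi']
      simp
  rw [e]
  exact hD _ (tt_cir hF hjc a ha) (prod_tt hjc a)

theorem Rs_smul {c : Fin n} {u : Fin n → F} (hu : u ∈ Rs hF M c) {l : F} (hl : l * σ l = 1) : l • u ∈ Rs hF M c := by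
  have hf := herm_unitary (n := n) hF
  obtain ⟨hu1, hu2⟩ := hu
  have hl' : ⟪l • u, l • u⟫ = 1 := by
    rw [hf.smul_left, f_smul_right hf, hu1, mul_one, hl]
  refine ⟨hl', fun a ha => ?_⟩
  rw [RR_smul hl hu1 hl']
  exact hu2 a ha

theorem Rs_conj (hle : M ≤ GU n F q) {y : GL (Fin n) F} (hy : y ∈ M) {c : Fin n} {s : F} (hs : s * σ s = 1)
    (hye : y ⋆ (𝐞 c) = s • (𝐞 c)) {u : Fin n → F} (hu : u ∈ Rs hF M c) : y ⋆ u ∈ Rs hF M c := by
  have hf := herm_unitary (n := n) hF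
  obtain ⟨hu1, hu2⟩ := hu
  have hyU := hle hy
  have hu1' : ⟪y ⋆ u, y ⋆ u⟫ = 1 := by rw [gu_pres hF hyU, hu1]
  refine ⟨hu1', fun a ha => ?_⟩
  have he1 : ⟪y ⋆ (𝐞 c), y ⋆ (𝐞 c)⟫ = 1 := by rw [gu_pres hF hyU, he hF c]
  have he2 : ⟪s • (𝐞 c), s • (𝐞 c)⟫ = 1 := by rw [← hye]; exact he1
  have e1 : RR hF (he hF c) a⁻¹ = y * RR hF (he hF c) a⁻¹ * y⁻¹ := by
    rw [RR_conj hyU (he hF c) he1]
    rw [← RR_smul hs (he hF c) he2]
    apply GL_ext
    intro w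
    rw [RR_apply, RR_apply, hye]
  rw [e1, ← RR_conj hyU hu1 hu1' a]
  have e2 : y * RR hF hu1 a * y⁻¹ * (y * RR hF (he hF c) a⁻¹ * y⁻¹) = y * (RR hF hu1 a * RR hF (he hF c) a⁻¹) * y⁻¹ := by
    group
  rw [e2]
  exact M.mul_mem (M.mul_mem hy (hu2 a ha)) (M.inv_mem hy)

theorem Rs_pair {c : Fin n} {u u' : Fin n → F} (hu : ⟪u, u⟫ = 1) (hu' : ⟪u', u'⟫ = 1) (h : u ∈ Rs hF M c)
    (h' : u' ∈ Rs hF M c) {a : Fˣ} (ha : (a : F) * σ a = 1) : RR hF hu a * RR hF hu' a⁻¹ ∈ M := by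
  obtain ⟨hu1, hu2⟩ := h
  obtain ⟨hu1', hu2'⟩ := h'
  have e : RR hF hu a * RR hF hu' a⁻¹ =
      (RR hF hu a * RR hF (he hF c) a⁻¹) * (RR hF hu' a * RR hF (he hF c) a⁻¹)⁻¹ := by
    rw [_root_.mul_inv_rev, ← RR_inv (he hF c), inv_inv, ← RR_inv hu']
    group
  rw [e]
  exact M.mul_mem (hu2 a ha) (M.inv_mem (hu2' a ha))

section Heis

variable {u z : Fin n → F}

theorem heis_action (hu : ⟪u, u⟫ = 1) (hu' : ⟪u + z, u + z⟫ = 1) (hzu : ⟪z, u⟫ = 0) {a : Fˣ}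
    (ha : (a : F) * σ a = 1) (w : Fin n → F) :
    (RR hF hu a * RR hF hu' a⁻¹) ⋆ w =
      w + ((1 - (a : F)) * ⟪w, z⟫) • u + ((σ (a : F) - 1) * (⟪w, u⟫ + ⟪w, z⟫)) • z := by
  have hf := herm_unitary (n := n) hF
  have hai : ((a⁻¹ : Fˣ) : F) = σ a := by
    apply mul_left_cancel₀ a.ne_zero
    rw [ha]
    simp
  rw [mulVec_mul_GL, RR_apply, RR_apply, hai, f_add_right hf]
  set p := ⟪w, u⟫ with hp
  set r := ⟪w, z⟫ with hr
  have e2 : ⟪w + ((σ (a : F) - 1) * (p + r)) • (u + z), u⟫ = p + (σ (a : F) - 1) * (p + r) := by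
    rw [hf.add_left, hf.smul_left, hf.add_left, hu, hzu, add_zero, mul_one]
  rw [e2]
  have e3 : (σ (a : F) - 1) * (p + r) + ((a : F) - 1) * (p + (σ (a : F) - 1) * (p + r)) = (1 - (a : F)) * r := by
    linear_combination (p + r) * ha
  rw [← e3]
  module

theorem heis_comm (hu : ⟪u, u⟫ = 1) (hu' : ⟪u + z, u + z⟫ = 1) (hzu : ⟪z, u⟫ = 0) (hzz : ⟪z, z⟫ = 0) {a b : Fˣ}
    (ha : (a : F) * σ a = 1) (hb : (b : F) * σ b = 1) (w : Fin n → F) :
    (RR hF hu a * RR hF hu' a⁻¹) ⋆ ((RR hF hu b * RR hF hu' b⁻¹) ⋆ w) =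
      w + (((1 - (a : F)) + (1 - (b : F))) * ⟪w, z⟫) • u +
        ((σ (b : F) - 1) * (⟪w, u⟫ + ⟪w, z⟫) +
          (σ (a : F) - 1) * (⟪w, u⟫ + ⟪w, z⟫) + (σ (a : F) - 1) * (1 - (b : F)) * ⟪w, z⟫) • z := by
  have hf := herm_unitary (n := n) hF
  have huz := f_swap_zero hf hzu
  rw [heis_action hu hu' hzu hb w, heis_action hu hu' hzu ha]
  set p := ⟪w, u⟫ with hp
  set r := ⟪w, z⟫ with hr
  have e1 : ⟪w + ((1 - (b : F)) * r) • u + ((σ (b : F) - 1) * (p + r)) • z, u⟫ = p + (1 - (b : F)) * r := by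
    rw [hf.add_left, hf.add_left, hf.smul_left, hf.smul_left, hu, hzu]
    ring
  have e2 : ⟪w + ((1 - (b : F)) * r) • u + ((σ (b : F) - 1) * (p + r)) • z, z⟫ = r := by
    rw [hf.add_left, hf.add_left, hf.smul_left, hf.smul_left, huz, hzz]
    ring
  rw [e1, e2]
  module

/-- The commutator of two Heisenberg elements is a transvection. -/
theorem heis_P (hle : M ≤ GU n F q) (hu : ⟪u, u⟫ = 1) (hu' : ⟪u + z, u + z⟫ = 1) (hzu : ⟪z, u⟫ = 0)
    (hzz : ⟪z, z⟫ = 0) {a b : Fˣ} (ha : (a : F) * σ a = 1) (hb : (b : F) * σ b = 1)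
    (hm : ∀ a : Fˣ, (a : F) * σ a = 1 → RR hF hu a * RR hF hu' a⁻¹ ∈ M) :
    P (herm_unitary (n := n) hF) M
      (((σ (a : F) - 1) * (1 - (b : F)) - (σ (b : F) - 1) * (1 - (a : F))) • z) z := by
  have hf := herm_unitary (n := n) hF
  have huz := f_swap_zero hf hzu
  set e := ((σ (a : F) - 1) * (1 - (b : F)) - (σ (b : F) - 1) * (1 - (a : F))) with he'
  have h0 : ⟪e • z, z⟫ = 0 := by rw [hf.smul_left, hzz, mul_zero]
  refine ⟨h0, ?_⟩
  set Ha := RR hF hu a * RR hF hu' a⁻¹ with hHa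
  set Hb := RR hF hu b * RR hF hu' b⁻¹ with hHb
  have key : tau hf (e • z) z h0 * (Hb * Ha) = Ha * Hb := by
    apply GL_ext
    intro w
    rw [mulVec_mul_GL (tau hf (e • z) z h0) (Hb * Ha) w, tau_apply, mulVec_mul_GL Hb Ha w, mulVec_mul_GL Ha Hb w,
      hHa, hHb, heis_comm hu hu' hzu hzz hb ha, heis_comm hu hu' hzu hzz ha hb]
    have e2 : ⟪w + (((1 - (b : F)) + (1 - (a : F))) * ⟪w, z⟫) • u +
        ((σ (a : F) - 1) * (⟪w, u⟫ + ⟪w, z⟫) +
          (σ (b : F) - 1) * (⟪w, u⟫ + ⟪w, z⟫) + (σ (b : F) - 1) * (1 - (a : F)) * ⟪w, z⟫) • z, z⟫ = ⟪w, z⟫ := by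
      rw [hf.add_left, hf.add_left, hf.smul_left, hf.smul_left, huz, hzz]
      ring
    rw [e2, he']
    module
  have e1 : tau hf (e • z) z h0 = Ha * Hb * (Hb * Ha)⁻¹ := by
    rw [← key]
    group
  rw [e1]
  exact M.mul_mem (M.mul_mem (hm a ha) (hm b hb)) (M.inv_mem (M.mul_mem (hm b hb) (hm a ha)))

/-- The Heisenberg argument: the centre belongs to `𝐓 M`. -/
theorem heisenberg (hle : M ≤ GU n F q) (hu : ⟪u, u⟫ = 1) (hu' : ⟪u + z, u + z⟫ = 1) (hzu : ⟪z, u⟫ = 0)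
    (hzz : ⟪z, z⟫ = 0) (hm : ∀ a : Fˣ, (a : F) * σ a = 1 → RR hF hu a * RR hF hu' a⁻¹ ∈ M) : z ∈ 𝐓 M := by
  classical
  have hf := herm_unitary (n := n) hF
  have hinv := sig_sig' (q := q) hF
  have hq := hermSigma_apply hF
  have hc := card_Cr hF hq
  have h2 := q_two_le hF
  refine ⟨hzz, fun e₀ he₀ => ?_⟩
  obtain ⟨b₀, hb₀, hb₀1, -⟩ := exists_Cr_ne hF hq (1 : F) 1
  have hb₀c := mem_Cr.1 hb₀
  have hb₀0 : b₀ ≠ 0 := Cr_ne_zero hb₀
  set b : Fˣ := Units.mk0 b₀ hb₀0 with hb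
  have hbv : (b : F) = b₀ := rfl
  have hbc : (b : F) * σ (b : F) = 1 := hb₀c
  set C : F → F := fun a => (σ a - 1) * (1 - b₀) - (σ b₀ - 1) * (1 - a) with hC
  have hP : ∀ a ∈ Cr (hermSigma hF), P hf M (C a • z) z := by
    intro a ha
    have ha0 := Cr_ne_zero ha
    have ha' : ((Units.mk0 a ha0 : Fˣ) : F) * σ ((Units.mk0 a ha0 : Fˣ) : F) = 1 := mem_Cr.1 ha
    exact heis_P hle hu hu' hzu hzz ha' hbc hm
  have htr : ∀ a ∈ Cr (hermSigma hF), C a + σ (C a) = 0 := by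
    intro a ha
    simp only [hC, map_sub, map_mul, map_one, hinv]
    ring
  set V := (Cr (hermSigma hF)).image C with hV
  have hVlarge : q + 1 ≤ 2 * V.card := by
    rw [← hc]
    apply Finset.card_le_mul_card_image
    intro v hv
    have hσb : σ b₀ - 1 ≠ 0 := by
      intro h
      apply hb₀1
      have : σ b₀ = 1 := by linear_combination h
      rw [← hinv b₀, this, map_one]
    apply card_quad_le _ (a := σ b₀ - 1) (b := -(1 - b₀) - (σ b₀ - 1) - v) (c := 1 - b₀) hσb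
    intro a ha
    obtain ⟨ha1, ha2⟩ := Finset.mem_filter.1 ha
    have ha3 := mem_Cr.1 ha1
    simp only [hC] at ha2
    linear_combination a * ha2 - (1 - b₀) * ha3
  -- the translated set
  set W := V.image (fun v => e₀ - v) with hW
  have hWcard : W.card = V.card := by
    apply Finset.card_image_of_injective
    intro x y hxy
    have hxy' : e₀ - x = e₀ - y := hxy
    linear_combination -hxy'
  have hnd : ¬ Disjoint V W := by
    intro hd
    have h3 : (V ∪ W).card ≤ q := by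
      apply card_traceless_le hF hq
      intro x hx
      rcases Finset.mem_union.1 hx with hx | hx
      · obtain ⟨a, ha, rfl⟩ := Finset.mem_image.1 hx
        exact htr a ha
      · obtain ⟨v, hv, rfl⟩ := Finset.mem_image.1 hx
        obtain ⟨a, ha, rfl⟩ := Finset.mem_image.1 hv
        have := htr a ha
        rw [map_sub]
        linear_combination he₀ - this
    rw [Finset.card_union_of_disjoint hd, hWcard] at h3
    omega
  rw [Finset.not_disjoint_iff] at hnd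
  obtain ⟨x, hx1, hx2⟩ := hnd
  obtain ⟨v, hv, rfl⟩ := Finset.mem_image.1 hx2
  obtain ⟨a, ha, hav⟩ := Finset.mem_image.1 hv
  obtain ⟨a', ha', hav'⟩ := Finset.mem_image.1 hx1
  have h5 := P_add_center hf (hP a ha) (hP a' ha')
  have e6 : C a • z + C a' • z = e₀ • z := by
    rw [← add_smul, hav, hav']
    congr 1
    ring
  rwa [e6] at h5

end Heis

end Cfsg.Agent.Lib.H97VM
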