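import Mathlib
import Cfsg.Agent.Lib.H97VM

/-!
# Overgroups of the monomial group in `SU`: the non-star case
-/

set_option autoImplicit false
set_option linter.unusedSectionVars false
set_option linter.unusedVariables false

namespace Cfsg.Agent.Lib.H97VN

open Matrix Cfsg Cfsg.Geo Cfsg.Agent.Lib.TvGL Cfsg.Agent.Lib.SympT Cfsg.Agent.Lib.UForm
  Cfsg.Agent.Lib.UTrans Cfsg.Agent.Lib.GLMon Cfsg.Agent.Lib.GLMonFull Cfsg.Agent.Lib.GLMonLift Cfsg.Agent.Lib.HermForm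
  Cfsg.Agent.Lib.H97VA Cfsg.Agent.Lib.H97VB Cfsg.Agent.Lib.H97VC Cfsg.Agent.Lib.H97VD
  Cfsg.Agent.Lib.H97VE Cfsg.Agent.Lib.H97VF Cfsg.Agent.Lib.H97VG Cfsg.Agent.Lib.H97VH Cfsg.Agent.Lib.H97VI
  Cfsg.Agent.Lib.H97VJ Cfsg.Agent.Lib.H97VK Cfsg.Agent.Lib.H97VL Cfsg.Agent.Lib.H97VM
open Cfsg.Agent.H97.Asch (herm_unitary hermSigma hermSigma_apply)
open Cfsg.Agent.Lib.UWitt (tau_mem_K)
open scoped MatrixGroups

local notation:70 g:71 " ⋆ " x:70 => Matrix.mulVec (Units.val g) x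

variable {n : ℕ} {F : Type*} [Field F] [Fintype F] {q : ℕ}

local notation "⟪" u ", " v "⟫" => hermForm n F q u v

/-- The coordinate vector. -/
local notation "𝐞" i => (Pi.single i (1 : F) : Fin n → F)

variable {hF : Fintype.card F = q ^ 2}

local notation "σ" => hermSigma hF

local notation "𝐓" => TU (herm_unitary (n := n) hF)

variable {M : Subgroup (GL (Fin n) F)}

/-- The support of a vector. -/
noncomputable def Sup (u : Fin n → F) : Finset (Fin n) := by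
  classical exact Finset.univ.filter fun j => u j ≠ 0

theorem mem_Sup {u : Fin n → F} {i : Fin n} : i ∈ Sup u ↔ u i ≠ 0 := by
  classical
  unfold Sup
  simp

theorem form_eq (u v : Fin n → F) : ⟪u, v⟫ = ∑ i, u i * σ (v i) := by
  unfold hermForm
  apply Finset.sum_congr rfl
  intro i _
  rw [hermSigma_apply hF]

/-- A pair of unit vectors with inner product one gives a centre. -/
theorem z_of_pair (hle : M ≤ GU n F q) {c : Fin n} {u w : Fin n → F} (hu : u ∈ Rs hF M c) (hw : w ∈ Rs hF M c)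
    (huw : ⟪w, u⟫ = 1) : w - u ∈ 𝐓 M := by
  have hf := herm_unitary (n := n) hF
  have hu1 := hu.1
  have hw1 := hw.1
  have hwu' : ⟪u, w⟫ = 1 := by rw [hf.herm u w, huw, map_one]
  have e : u + (w - u) = w := by abel
  have hw' : u + (w - u) ∈ Rs hF M c := by rwa [e]
  have hzu : ⟪w - u, u⟫ = 0 := by rw [f_sub_left hf, huw, hu1, sub_self]
  have hzz : ⟪w - u, w - u⟫ = 0 := by
    rw [f_sub_left hf, f_sub_right hf, f_sub_right hf, hw1, huw, hwu', hu1]
    ring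
  exact heisenberg hle hu1 hw'.1 hzu hzz (fun a ha => Rs_pair hu1 hw'.1 hu hw' ha)

/-- Case A: a coordinate of norm one. -/
theorem caseA (hle : M ≤ GU n F q)
    (hD : ∀ s : Fin n → Fˣ, (∀ i, (s i : F) * σ (s i) = 1) → ∏ a, s a = 1 → dg s ∈ M) {c : Fin n}
    {u : Fin n → F} (hu : u ∈ Rs hF M c) (huc : u c = 0) {j k : Fin n} (hjk : j ≠ k) (huk : u k ≠ 0)
    (hj : u j * σ (u j) = 1) : ∃ z, z ∈ 𝐓 M ∧ z ≠ 0 ∧ z c = 0 := by
  have hf := herm_unitary (n := n) hF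
  have hinv := sig_sig' (q := q) hF
  have hj0 : u j ≠ 0 := by
    intro h0
    rw [h0, zero_mul] at hj
    exact zero_ne_one hj
  have hjc : c ≠ j := by
    rintro rfl
    exact hj0 huc
  have h1 : u j • (𝐞 j) ∈ Rs hF M c := Rs_smul (Rs_e hD j c) hj
  refine ⟨u - u j • (𝐞 j), z_of_pair hle h1 hu ?_, ?_, ?_⟩
  · rw [f_smul_right hf, form_e_right hF, mul_comm]
    exact hj
  · intro h0
    have := congrFun h0 k
    simp [Pi.single_eq_of_ne (Ne.symm hjk), huk] at this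
  · simp [huc, Pi.single_eq_of_ne hjc]

/-- Case B: at least five nonzero coordinates. -/
theorem caseB (hle : M ≤ GU n F q)
    (hD : ∀ s : Fin n → Fˣ, (∀ i, (s i : F) * σ (s i) = 1) → ∏ a, s a = 1 → dg s ∈ M) {c : Fin n}
    {u : Fin n → F} (hu : u ∈ Rs hF M c) (huc : u c = 0)
    (h5 : 5 ≤ (Sup u).card) : ∃ z, z ∈ 𝐓 M ∧ z ≠ 0 ∧ z c = 0 := by
  classical
  have hf := herm_unitary (n := n) hF
  have hinv := sig_sig' (q := q) hF
  have h2q := q_two_le hF
  set S := Sup u with hS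
  set e := S.orderEmbOfCardLe h5 with he'
  set idx : Fin 5 → Fin n := fun i => e i with hidx
  have hidxinj : Function.Injective idx := e.injective
  have hidxS : ∀ i, u (idx i) ≠ 0 := fun i =>
    mem_Sup.1 (Finset.orderEmbOfCardLe_mem S h5 i)
  have hidxk : ∀ i, idx i ≠ c := by
    intro i h0
    apply hidxS i
    rw [h0, huc]
  set Cc : Fin n → F := fun j => u j * σ (u j) with hCc
  have hCk : Cc c = 0 := by simp only [hCc, huc, map_zero, mul_zero]
  have hCne : ∀ i, Cc (idx i) ≠ 0 := fun i =>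
    mul_ne_zero (hidxS i) ((map_ne_zero (hermSigma hF)).2 (hidxS i))
  have hcr := card_Cr hF (hermSigma_apply hF)
  obtain ⟨ξ, hξ, hξ1, -⟩ := exists_Cr_ne hF (hermSigma_apply hF) (1 : F) 1
  obtain ⟨s₁, hs₁, s₂, hs₂, s₃, hs₃, s₄, hs₄, hsum⟩ := four_circles hF (by omega) hcr (hCne 1) (hCne 2) (hCne 3)
    (hCne 4) (Cc (idx 1) + Cc (idx 2) + Cc (idx 3) + Cc (idx 4) - (ξ - 1) * Cc (idx 0))
  set v : Fin 5 → Fˣ := ![Units.mk0 ξ (Cr_ne_zero hξ), Units.mk0 s₁ (Cr_ne_zero hs₁), Units.mk0 s₂ (Cr_ne_zero hs₂),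
    Units.mk0 s₃ (Cr_ne_zero hs₃), Units.mk0 s₄ (Cr_ne_zero hs₄)] with hv
  have hvcir : ∀ i, (v i : F) * σ (v i) = 1 := by
    intro i
    fin_cases i
    · exact mem_Cr.1 hξ
    · exact mem_Cr.1 hs₁
    · exact mem_Cr.1 hs₂
    · exact mem_Cr.1 hs₃
    · exact mem_Cr.1 hs₄
  have G := Good_star_prod (σ' := hermSigma hF) Cc hinv idx hidxinj c hidxk hCk v hvcir Finset.univ
  set τ : Fin n → Fˣ := fun j => ∏ i, tt (idx i) c (v i) j with hτ
  have hGval : ∑ j, ((τ j : F) - 1) * Cc j = 0 := by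
    rw [G.val, Fin.sum_univ_five]
    show (ξ - 1) * Cc (idx 0) + (s₁ - 1) * Cc (idx 1) + (s₂ - 1) * Cc (idx 2) + (s₃ - 1) * Cc (idx 3) +
      (s₄ - 1) * Cc (idx 4) = 0
    linear_combination hsum
  have hτ0 : τ (idx 0) = v 0 := by
    show ∏ i, tt (idx i) c (v i) (idx 0) = v 0
    rw [Finset.prod_eq_single 0]
    · rw [tt_left]
    · intro i _ hi
      exact tt_other _ (fun h => hi (hidxinj h).symm) (hidxk 0)
    · simp
  have hdg : dg τ ∈ M := hD τ G.cir G.prod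
  have hτc := G.cir c
  have hyc : dg τ ⋆ (𝐞 c) = (τ c : F) • (𝐞 c) := by
    funext i
    rw [dg_mulVec]
    by_cases hi : i = c
    · subst hi
      simp
    · simp [Pi.single_eq_of_ne hi]
  have hu' : dg τ ⋆ u ∈ Rs hF M c := Rs_conj hle hdg hτc hyc hu
  have hform : ⟪dg τ ⋆ u, u⟫ = 1 := by
    have e1 : ⟪dg τ ⋆ u, u⟫ = ∑ j, ((τ j : F) - 1) * Cc j + ⟪u, u⟫ := by
      rw [form_eq (hF := hF), form_eq (hF := hF) u u, ← Finset.sum_add_distrib]
      apply Finset.sum_congr rfl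
      intro j _
      rw [dg_mulVec]
      simp only [hCc]
      ring
    rw [e1, hGval, zero_add, hu.1]
  refine ⟨dg τ ⋆ u - u, z_of_pair hle hu hu' hform, ?_, ?_⟩
  · intro h0
    have h1 := congrFun h0 (idx 0)
    rw [Pi.sub_apply, dg_mulVec, hτ0] at h1
    have h2 : ((v 0 : Fˣ) : F) = ξ := rfl
    rw [h2] at h1
    have h3 : (ξ - 1) * u (idx 0) = 0 := by
      have h1' : ξ * u (idx 0) - u (idx 0) = 0 := h1
      linear_combination h1'
    rcases mul_eq_zero.1 h3 with h4 | h4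
    · exact hξ1 (by linear_combination h4)
    · exact hidxS 0 h4
  · rw [Pi.sub_apply, dg_mulVec, huc]
    ring

/-- Case C: the weight can be increased. -/
theorem caseC (hle : M ≤ GU n F q)
    (hmono : ∀ (π : Equiv.Perm (Fin n)) (s : Fin n → Fˣ), (∀ i, (s i : F) * σ (s i) = 1) →
      (((Equiv.Perm.sign π : ℤˣ) : ℤ) : F) * ∏ a, (s a : F) = 1 → mon π s ∈ M)
    {c : Fin n} {u : Fin n → F} (hu : u ∈ Rs hF M c) (huc : u c = 0) {b r : Fin n} (hb : u b ≠ 0)
    (hNb : u b * σ (u b) ≠ 1) (hr : u r = 0) (hrc : r ≠ c) :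
    ∃ v ∈ Rs hF M c, v c = 0 ∧ v b ≠ 0 ∧ v r ≠ 0 ∧ ∀ i, i ≠ r → (v i ≠ 0 ↔ u i ≠ 0) := by
  classical
  have hf := herm_unitary (n := n) hF
  have hinv := sig_sig' (q := q) hF
  have hbc : b ≠ c := by
    rintro rfl
    exact hb huc
  have hbr : b ≠ r := by
    rintro rfl
    exact hb hr
  obtain ⟨π, s, hs1, hs2, hact⟩ := psi_exists (hF := hF) hbr hbc hrc 1 (by simp)
  set ρ : GL (Fin n) F := mon π s with hρ
  have hρM : ρ ∈ M := hmono π s hs1 hs2
  have hρe : ρ ⋆ (𝐞 c) = (-1 : F) • (𝐞 c) := by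
    funext i
    obtain ⟨h1, h2, h3, h4⟩ := hact (𝐞 c)
    by_cases hi1 : i = b
    · subst hi1
      rw [h1]
      simp [Pi.single_eq_of_ne hrc, Pi.single_eq_of_ne hbc]
    by_cases hi2 : i = r
    · subst hi2
      rw [h2]
      simp [Pi.single_eq_of_ne hrc, Pi.single_eq_of_ne hbc]
    by_cases hi3 : i = c
    · subst hi3
      rw [h3]
      simp
    · rw [h4 i hi1 hi2 hi3]
      simp [Pi.single_eq_of_ne hi3]
  have hu'R : ρ ⋆ u ∈ Rs hF M c := Rs_conj hle hρM (by simp) hρe hu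
  have hu'e : ρ ⋆ u = u - u b • (𝐞 b) + u b • (𝐞 r) := by
    funext i
    obtain ⟨h1, h2, h3, h4⟩ := hact u
    simp only [Pi.add_apply, Pi.sub_apply, Pi.smul_apply, smul_eq_mul]
    by_cases hi1 : i = b
    · subst hi1
      rw [h1, hr]
      simp [Pi.single_eq_of_ne hbr]
    by_cases hi2 : i = r
    · subst hi2
      rw [h2, hr]
      simp [Pi.single_eq_of_ne hi1]
    by_cases hi3 : i = c
    · subst hi3
      rw [h3, huc]
      simp [Pi.single_eq_of_ne hi1, Pi.single_eq_of_ne hi2]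
    · rw [h4 i hi1 hi2 hi3]
      simp [Pi.single_eq_of_ne hi1, Pi.single_eq_of_ne hi2]
  set u' := ρ ⋆ u with hu'def
  have hu'c : u' c = 0 := by
    rw [hu'e]
    simp [huc, Pi.single_eq_of_ne hbc.symm, Pi.single_eq_of_ne hrc.symm]
  have hφ : ⟪u, u'⟫ = 1 - u b * σ (u b) := by
    rw [hu'e, f_add_right hf, f_sub_right hf, f_smul_right hf, f_smul_right hf, form_e_right hF, form_e_right hF, hr,
      hu.1]
    ring
  set φ := ⟪u, u'⟫ with hφdef
  have hφ0 : φ ≠ 0 := by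
    rw [hφ]
    intro h0
    exact hNb (by linear_combination -h0)
  obtain ⟨ξ₀, hξ₀, hξ₀1, hξ₀2⟩ := exists_Cr_ne hF (hermSigma_apply hF) (1 : F) (1 - φ⁻¹)
  have hξ₀c := mem_Cr.1 hξ₀
  have hξ₀0 : ξ₀ ≠ 0 := Cr_ne_zero hξ₀
  set ξ : Fˣ := Units.mk0 ξ₀ hξ₀0 with hξdef
  have hξv : (ξ : F) = ξ₀ := rfl
  have hξc : (ξ : F) * σ (ξ : F) = 1 := hξ₀c
  have hξi : ((ξ⁻¹ : Fˣ) : F) = σ ξ₀ := by
    apply mul_left_cancel₀ hξ₀0
    rw [hξ₀c, Units.val_inv_eq_inv_val, hξv, mul_inv_cancel₀ hξ₀0]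
  have hne1 : 1 + (ξ₀ - 1) * φ ≠ 0 := by
    intro h0
    apply hξ₀2
    field_simp
    linear_combination h0
  have hyM : RR hF hu'R.1 ξ * RR hF (he hF c) ξ⁻¹ ∈ M := hu'R.2 ξ hξc
  set y := RR hF hu'R.1 ξ * RR hF (he hF c) ξ⁻¹ with hy
  have hyu : y ⋆ u = u + ((ξ₀ - 1) * φ) • u' := by
    rw [hy, mulVec_mul_GL, RR_apply, RR_apply, form_e_right hF, huc, mul_zero, zero_smul, add_zero, hξv]
  have hyc : y ⋆ (𝐞 c) = σ ξ₀ • (𝐞 c) := by
    rw [hy, mulVec_mul_GL, RR_apply, RR_apply, form_e_right hF, Pi.single_eq_same, mul_one, hξi]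
    have e1 : ⟪(𝐞 c) + (σ ξ₀ - 1) • (𝐞 c), u'⟫ = 0 := by
      rw [hf.add_left, hf.smul_left, form_e_left hF, hu'c, map_zero, mul_zero, add_zero]
    rw [e1, mul_zero, zero_smul, add_zero]
    module
  have hσc : σ ξ₀ * σ (σ ξ₀) = 1 := by
    rw [hinv, mul_comm]
    exact hξ₀c
  have hvR : y ⋆ u ∈ Rs hF M c := Rs_conj hle hyM hσc hyc hu
  have hξ1 : ξ₀ - 1 ≠ 0 := sub_ne_zero.2 hξ₀1
  have hvi : ∀ i, i ≠ b → i ≠ r → (y ⋆ u) i = (1 + (ξ₀ - 1) * φ) * u i := by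
    intro i hi1 hi2
    rw [hyu, hu'e]
    simp [Pi.single_eq_of_ne hi1, Pi.single_eq_of_ne hi2]
    ring
  have hvb : (y ⋆ u) b = u b := by
    rw [hyu, hu'e]
    simp [Pi.single_eq_of_ne hbr]
  have hvr : (y ⋆ u) r = (ξ₀ - 1) * φ * u b := by
    rw [hyu, hu'e]
    simp [Pi.single_eq_of_ne hbr.symm, hr]
  refine ⟨y ⋆ u, hvR, ?_, ?_, ?_, ?_⟩
  · rw [hvi c hbc.symm hrc.symm, huc, mul_zero]
  · rw [hvb]
    exact hb
  · rw [hvr]
    exact mul_ne_zero (mul_ne_zero hξ1 hφ0) hb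
  · intro i hi
    by_cases hib : i = b
    · rw [hib, hvb]
    · rw [hvi i hib hi]
      constructor
      · intro h
        exact right_ne_zero_of_mul h
      · intro h
        exact mul_ne_zero hne1 h

/-- Producing a centre from a unit vector of weight at least two with a zero coordinate. -/
theorem exists_centre (hle : M ≤ GU n F q)
    (hD : ∀ s : Fin n → Fˣ, (∀ i, (s i : F) * σ (s i) = 1) → ∏ a, s a = 1 → dg s ∈ M)
    (hmono : ∀ (π : Equiv.Perm (Fin n)) (s : Fin n → Fˣ), (∀ i, (s i : F) * σ (s i) = 1) →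
      (((Equiv.Perm.sign π : ℤˣ) : ℤ) : F) * ∏ a, (s a : F) = 1 → mon π s ∈ M)
    (hn : 6 ≤ n) {c : Fin n} :
    ∀ (m : ℕ) (u : Fin n → F), u ∈ Rs hF M c → u c = 0 → (∃ j k, j ≠ k ∧ u j ≠ 0 ∧ u k ≠ 0) →
      5 ≤ (Sup u).card + m → ∃ z, z ∈ 𝐓 M ∧ z ≠ 0 ∧ z c = 0 := by
  classical
  intro m
  induction m with
  | zero =>
    intro u hu huc htwo h5
    exact caseB hle hD hu huc (by simpa using h5)
  | succ m ih =>
    intro u hu huc htwo h5
    by_cases h5' : 5 ≤ (Sup u).card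
    · exact caseB hle hD hu huc h5'
    obtain ⟨j, k, hjk, hj, hk⟩ := htwo
    by_cases hNj : u j * σ (u j) = 1
    · exact caseA hle hD hu huc hjk hk hNj
    -- the free coordinate
    obtain ⟨r, hr⟩ : ∃ r, r ∉ insert c (Sup u) := by
      by_contra hcon
      push Not at hcon
      have h6 : (Finset.univ : Finset (Fin n)) ⊆ insert c (Sup u) :=
        fun i _ => hcon i
      have h7 := Finset.card_le_card h6
      have h8 := Finset.card_insert_le c (Sup u)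
      rw [Finset.card_univ, Fintype.card_fin] at h7
      omega
    have hrc : r ≠ c := fun h => hr (by rw [h]; exact Finset.mem_insert_self _ _)
    have hur : u r = 0 := by
      by_contra h0
      exact hr (Finset.mem_insert_of_mem (mem_Sup.2 h0))
    obtain ⟨v, hv1, hv2, hv3, hv4, hv5⟩ := caseC hle hmono hu huc hj hNj hur hrc
    have hjr : j ≠ r := by
      rintro rfl
      exact hj hur
    apply ih v hv1 hv2 ⟨j, r, hjr, hv3, hv4⟩
    have h9 : insert r (Sup u) ⊆ Sup v := by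
      intro i hi
      rcases Finset.mem_insert.1 hi with rfl | hi
      · exact mem_Sup.2 hv4
      · have hi' := mem_Sup.1 hi
        have hir : i ≠ r := by
          rintro rfl
          exact hi' hur
        exact mem_Sup.2 ((hv5 i hir).2 hi')
    have h10 := Finset.card_le_card h9
    rw [Finset.card_insert_of_notMem (fun h => mem_Sup.1 h hur)] at h10
    omega

/-- If the star condition fails, there is a nonzero centre with a zero coordinate. -/
theorem star_fail (hle : M ≤ GU n F q)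
    (hD : ∀ s : Fin n → Fˣ, (∀ i, (s i : F) * σ (s i) = 1) → ∏ a, s a = 1 → dg s ∈ M)
    (hmono : ∀ (π : Equiv.Perm (Fin n)) (s : Fin n → Fˣ), (∀ i, (s i : F) * σ (s i) = 1) →
      (((Equiv.Perm.sign π : ℤˣ) : ℤ) : F) * ∏ a, (s a : F) = 1 → mon π s ∈ M)
    (hn : 6 ≤ n) {x : GL (Fin n) F} (hx : x ∈ M) (hnm : ¬ IsMono x) {c k : Fin n}
    (hcol : ∀ b, b ≠ c → (x : Matrix (Fin n) (Fin n) F) b k = 0) : ∃ z, z ∈ 𝐓 M ∧ z ≠ 0 ∧ z c = 0 := by
  classical
  have hf := herm_unitary (n := n) hF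
  have hinv := sig_sig' (q := q) hF
  obtain ⟨d, hdc, hdk⟩ := exists_third (ι := Fin n) (by simp; omega) c k
  set π : Equiv.Perm (Fin n) := Equiv.swap c k with hπ
  set s : Fin n → Fˣ := ds d (signU π) with hs
  have hs1 : ∀ i, (s i : F) * σ (s i) = 1 := by
    intro i
    by_cases hi : i = d
    · rw [hi, hs, ds_same]
      exact signU_cir π
    · rw [hs, ds_ne _ hi]
      simp
  have hs2 : (((Equiv.Perm.sign π : ℤˣ) : ℤ) : F) * ∏ a, (s a : F) = 1 := by
    rw [hs, prod_ds_val]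
    exact signU_sq π
  have hρM : mon π s ∈ M := hmono π s hs1 hs2
  have hρe : mon π s ⋆ (𝐞 c) = (𝐞 k) := by
    rw [mon_e, hs, ds_ne _ (Ne.symm hdc), hπ, Equiv.swap_apply_left]
    simp
  set y := x * mon π s with hy
  have hyM : y ∈ M := M.mul_mem hx hρM
  have hyU := hle hyM
  have hxU := hle hx
  have hxk : x ⋆ (𝐞 k) = (x : Matrix (Fin n) (Fin n) F) c k • (𝐞 c) := by
    funext i
    rw [gu_col hF]
    by_cases hi : i = c
    · subst hi
      simp
    · rw [hcol i hi]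
      simp [Pi.single_eq_of_ne hi]
  have hye : y ⋆ (𝐞 c) = (x : Matrix (Fin n) (Fin n) F) c k • (𝐞 c) := by
    rw [hy, mulVec_mul_GL, hρe, hxk]
  set s₀ := (x : Matrix (Fin n) (Fin n) F) c k with hs₀
  have hs₀N : s₀ * σ s₀ = 1 := by
    have h1 := gu_pres hF hxU (𝐞 k) (𝐞 k)
    rw [hxk, hf.smul_left, f_smul_right hf, he hF c, he hF k, mul_one] at h1
    exact h1
  have hynm : ¬ IsMono y := by
    intro h
    apply hnm
    have h1 : x = y * (mon π s)⁻¹ := by rw [hy]; group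
    rw [h1]
    exact isMono_mul h (isMono_inv (isMono_mon π s))
  obtain ⟨i, hi⟩ := exists_noncoord hynm
  have huR : y ⋆ (𝐞 i) ∈ Rs hF M c := Rs_conj hle hyM hs₀N hye (Rs_e hD i c)
  set u := y ⋆ (𝐞 i) with hu
  have hic : i ≠ c := by
    rintro rfl
    exact hi ⟨_, _, hye⟩
  have huc : u c = 0 := by
    have h1 := gu_orth hF hyU i c
    rw [if_neg hic, hye, f_smul_right hf, form_e_right hF] at h1
    rcases mul_eq_zero.1 h1 with h2 | h2
    · exfalso
      have h3 : σ s₀ = 0 := h2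
      rw [h3, mul_zero] at hs₀N
      exact zero_ne_one hs₀N
    · exact h2
  have huN : ⟪u, u⟫ = 1 := huR.1
  have hu0 : ∃ j, u j ≠ 0 := by
    by_contra hcon
    push Not at hcon
    have : u = 0 := funext hcon
    rw [this, f_zero_left hf] at huN
    exact zero_ne_one huN
  obtain ⟨j, hj⟩ := hu0
  have htwo : ∃ k', k' ≠ j ∧ u k' ≠ 0 := by
    by_contra hcon
    push Not at hcon
    apply hi
    refine ⟨j, u j, ?_⟩
    funext b
    by_cases hb : b = j
    · subst hb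
      simp [hu]
    · rw [hcon b hb]
      simp [Pi.single_eq_of_ne hb]
  obtain ⟨k', hk', hk'0⟩ := htwo
  exact exists_centre hle hD hmono hn 5 u huR huc ⟨k', j, hk', hk'0, hj⟩ (by omega)

end Cfsg.Agent.Lib.H97VN
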