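import Mathlib
import Cfsg.Agent.Lib.H97VN

/-!
# Overgroups of the monomial group in `SU`, `q ≥ 3`
-/

set_option autoImplicit false
set_option linter.unusedSectionVars false
set_option linter.unusedVariables false

namespace Cfsg.Agent.Lib.H97VO

open Matrix Cfsg Cfsg.Geo Cfsg.Agent.Lib.TvGL Cfsg.Agent.Lib.SympT Cfsg.Agent.Lib.UForm
  Cfsg.Agent.Lib.UTrans Cfsg.Agent.Lib.GLMon Cfsg.Agent.Lib.GLMonFull Cfsg.Agent.Lib.GLMonLift Cfsg.Agent.Lib.HermForm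
  Cfsg.Agent.Lib.H97VA Cfsg.Agent.Lib.H97VB Cfsg.Agent.Lib.H97VC Cfsg.Agent.Lib.H97VD
  Cfsg.Agent.Lib.H97VE Cfsg.Agent.Lib.H97VF Cfsg.Agent.Lib.H97VG Cfsg.Agent.Lib.H97VI
  Cfsg.Agent.Lib.H97VJ Cfsg.Agent.Lib.H97VK Cfsg.Agent.Lib.H97VL Cfsg.Agent.Lib.H97VM Cfsg.Agent.Lib.H97VN
open Cfsg.Agent.H97.Asch (herm_unitary hermSigma hermSigma_apply)
open Cfsg.Agent.Lib.UWitt (tau_mem_K)
open scoped MatrixGroups

local notation:70 g:71 " ⋆ " x:70 => Matrix.mulVec (Units.val g) x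

variable {n : ℕ} {F : Type*} [Field F] [Fintype F] {q : ℕ}

local notation "⟪" u ", " v "⟫" => hermForm n F q u v

/-- The coordinate vector. -/
local notation "𝐞" i => (Pi.single i (1 : F) : Fin n → F)

variable {hF : Fintype.card F = q ^ 2}

local notation "σ" => hermSigma hF

local notation "𝐓" => TU (herm_unitary (n := n) hF)

variable {M : Subgroup (GL (Fin n) F)}

theorem hmono_of (B : BCtx hF M (id : Fin n → Fin n)) (π : Equiv.Perm (Fin n)) (s : Fin n → Fˣ)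
    (h1 : ∀ i, (s i : F) * σ (s i) = 1)
    (h2 : (((Equiv.Perm.sign π : ℤˣ) : ℤ) : F) * ∏ a, (s a : F) = 1) : mon π s ∈ M :=
  B.blk _ (mon_mem_K hF π s h1 h2) (isMono_mon π s)

theorem id_perm (p k p₁ k₁ : Fin n) (h1 : (id : Fin n → Fin n) p ≠ id k) (h2 : (id : Fin n → Fin n) p₁ ≠ id k₁) :
      ∃ (π : Equiv.Perm (Fin n)) (σ' : Equiv.Perm (Fin n)), (∀ a, (id : Fin n → Fin n) (π a) = σ' (id a)) ∧ π p = p₁ ∧ π k = k₁ := by
  obtain ⟨π, h3, h4⟩ := exists_perm_pair h1 h2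
  exact ⟨π, π, fun a => rfl, h3, h4⟩

/-- A nonzero isotropic vector has two nonzero coordinates. -/
theorem two_coords (hF : Fintype.card F = q ^ 2) {z : Fin n → F} (hz : ⟪z, z⟫ = 0) (h0 : z ≠ 0) : ∃ a b, a ≠ b ∧ z a ≠ 0 ∧ z b ≠ 0 := by
  classical
  have hne : ∃ a, z a ≠ 0 := by
    by_contra hcon
    push Not at hcon
    exact h0 (funext hcon)
  obtain ⟨a, ha⟩ := hne
  by_contra hcon
  push Not at hcon
  rw [form_eq (hF := hF), Finset.sum_eq_single a] at hz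
  · exact (mul_ne_zero ha ((map_ne_zero (hermSigma hF)).2 ha)) hz
  · intro b _ hb
    rw [hcon a b (Ne.symm hb) ha, zero_mul]
  · simp

/-- Overgroups of the monomial group, `q ≥ 3`. -/
theorem mono_case (B : BCtx hF M (id : Fin n → Fin n)) (hq3 : 3 ≤ q) (hn : 13 ≤ n) {g : GL (Fin n) F} (hg : g ∈ M)
    (hnm : ¬ IsMono g) : ∀ v : Fin n → F, ⟪v, v⟫ = 0 → v ∈ 𝐓 M := by
  by_cases hstar : ∀ x ∈ M, ∀ c k : Fin n, (∀ b, b ≠ c → (x : Matrix (Fin n) (Fin n) F) b k = 0) → IsMono x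
  · exact (Cfsg.Agent.Lib.H97VH.SCtx.star_false (⟨B.le, hmono_of B, hstar⟩ : SCtx hF M) hq3 hn hg hnm).elim
  · push Not at hstar
    obtain ⟨x, hx, c, k, hcol, hxnm⟩ := hstar
    obtain ⟨z, hz, hz0, hzc⟩ := star_fail B.gu B.dg_mem (hmono_of B) (by omega) hx hxnm hcol
    obtain ⟨a, b, hab, ha, hb⟩ := two_coords hF hz.1 hz0
    have hac : a ≠ c := by
      rintro rfl
      exact ha hzc
    have hbc : b ≠ c := by
      rintro rfl
      exact hb hzc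
    obtain ⟨α, β, h1, h2, h3⟩ := W2 B.gu B.dg_mem hz hab hac hbc ha hb hzc
    exact finish B id_perm hq3 (by omega) hab h1 h2 h3

end Cfsg.Agent.Lib.H97VO
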