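import Mathlib
import Cfsg.Agent.Lib.H97VO

/-!
# Overgroups of the monomial group in `SU_n(2)`
-/

set_option autoImplicit false
set_option linter.unusedSectionVars false
set_option linter.unusedVariables false

namespace Cfsg.Agent.Lib.H97VP

open Matrix Cfsg Cfsg.Geo Cfsg.Agent.Lib.TvGL Cfsg.Agent.Lib.SympT Cfsg.Agent.Lib.UForm
  Cfsg.Agent.Lib.UTrans Cfsg.Agent.Lib.GLMon Cfsg.Agent.Lib.GLMonFull Cfsg.Agent.Lib.GLMonLift Cfsg.Agent.Lib.HermForm
  Cfsg.Agent.Lib.H97VA Cfsg.Agent.Lib.H97VB Cfsg.Agent.Lib.H97VC Cfsg.Agent.Lib.H97VD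
  Cfsg.Agent.Lib.H97VE Cfsg.Agent.Lib.H97VF Cfsg.Agent.Lib.H97VG Cfsg.Agent.Lib.H97VH Cfsg.Agent.Lib.H97VI
  Cfsg.Agent.Lib.H97VJ Cfsg.Agent.Lib.H97VK Cfsg.Agent.Lib.H97VL Cfsg.Agent.Lib.H97VM Cfsg.Agent.Lib.H97VN
  Cfsg.Agent.Lib.H97VO
open Cfsg.Agent.H97.Asch (herm_unitary hermSigma hermSigma_apply)
open Cfsg.Agent.Lib.UWitt (tau_mem_K)
open scoped MatrixGroups

local notation:70 g:71 " ⋆ " x:70 => Matrix.mulVec (Units.val g) x

variable {n : ℕ} {F : Type*} [Field F] [Fintype F]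

local notation "⟪" u ", " v "⟫" => hermForm n F 2 u v

/-- The coordinate vector. -/
local notation "𝐞" i => (Pi.single i (1 : F) : Fin n → F)

theorem q2_two (hF : Fintype.card F = 2 ^ 2) : (2 : F) = 0 := by
  have h4 : (4 : F) = 0 := by
    have := FiniteField.cast_card_eq_zero F
    rw [hF] at this
    exact_mod_cast this
  have h3 : (2 : F) * 2 = 0 := by
    rw [← h4]
    norm_num
  exact mul_self_eq_zero.1 h3

theorem q2_dbl (hF : Fintype.card F = 2 ^ 2) (a : F) : a + a = 0 := by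
  rw [← two_mul, q2_two hF, zero_mul]

variable {hF : Fintype.card F = 2 ^ 2}

local notation "σ" => hermSigma hF

local notation "𝐓" => TU (herm_unitary (n := n) hF)

variable {M : Subgroup (GL (Fin n) F)}

theorem q2_N {α : F} (hα : α ≠ 0) : α * σ α = 1 := by
  rw [hermSigma_apply]
  have := FiniteField.pow_card_sub_one_eq_one α hα
  rw [hF] at this
  rw [← this]
  ring

theorem q2_sig (a : F) : σ a = a * a := by
  rw [hermSigma_apply]
  ring

theorem exists_omega (hF : Fintype.card F = 2 ^ 2) : ∃ ω : F, ω * ω + ω + 1 = 0 := by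
  obtain ⟨ξ, h1, h2⟩ := exists_nonreal_cir (hF := hF)
  have h3 := q2_sig (hF := hF) ξ
  refine ⟨ξ, ?_⟩
  have hξ1 : ξ - 1 ≠ 0 := by
    intro h0
    have : ξ = 1 := by linear_combination h0
    rw [this] at h2
    simp at h2
  apply mul_left_cancel₀ hξ1
  rw [h3] at h1
  linear_combination h1

theorem omega_facts {ω : F} (h : ω * ω + ω + 1 = 0) : ω ≠ 0 ∧ ω + 1 ≠ 0 ∧ ω * ω ≠ 0 ∧ ω * ω + 1 ≠ 0 ∧ σ ω = ω * ω ∧
    σ (ω * ω) = ω := by
  have h0 : ω ≠ 0 := by
    rintro rfl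
    simp at h
  have h1 : ω + 1 = - (ω * ω) := by linear_combination h
  have h2 : ω * ω + 1 = - ω := by linear_combination h
  have h3 : σ ω = ω * ω := q2_sig (hF := hF) ω
  refine ⟨h0, ?_, mul_ne_zero h0 h0, ?_, h3, ?_⟩
  · rw [h1]
    exact neg_ne_zero.2 (mul_ne_zero h0 h0)
  · rw [h2]
    exact neg_ne_zero.2 h0
  · rw [map_mul, h3]
    have h4 : ω * ω * ω = 1 := by
      have := q2_two hF
      linear_combination (ω - 1) * h
    linear_combination ω * h4

theorem form_card (hF : Fintype.card F = 2 ^ 2) (v : Fin n → F) : ⟪v, v⟫ = ((Sup v).card : F) := by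
  classical
  have e : ((Sup v).card : F) = ∑ i ∈ Sup v, (1 : F) := by simp
  rw [form_eq (hF := hF), e, ← Finset.sum_subset (Finset.subset_univ (Sup v))]
  · apply Finset.sum_congr rfl
    intro i hi
    exact q2_N (hF := hF) (mem_Sup.1 hi)
  · intro i _ hi
    have : v i = 0 := by
      by_contra h0
      exact hi (mem_Sup.2 h0)
    rw [this, zero_mul]

theorem card_cast (hF : Fintype.card F = 2 ^ 2) (m : ℕ) : (m : F) = 0 ↔ Even m := by
  have h2 := q2_two hF
  constructor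
  · intro h
    rcases Nat.even_or_odd m with h1 | h1
    · exact h1
    · exfalso
      obtain ⟨k, rfl⟩ := h1
      push_cast at h
      rw [h2, zero_mul, zero_add] at h
      exact one_ne_zero h
  · rintro ⟨k, rfl⟩
    push_cast
    rw [← two_mul, h2, zero_mul]

theorem even_of_iso (hF : Fintype.card F = 2 ^ 2) {v : Fin n → F} (h : ⟪v, v⟫ = 0) : Even (Sup v).card := by
  rw [form_card hF] at h
  exact (card_cast hF _).1 h

theorem odd_of_unit (hF : Fintype.card F = 2 ^ 2) {v : Fin n → F} (h : ⟪v, v⟫ = 1) : Odd (Sup v).card := by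
  rw [form_card hF] at h
  rcases Nat.even_or_odd (Sup v).card with h1 | h1
  · exfalso
    rw [(card_cast hF _).2 h1] at h
    exact zero_ne_one h
  · exact h1

/-- Vectors of weight two are centres. -/
theorem two_T (B : BCtx hF M (id : Fin n → Fin n)) {a b : Fin n} (hab : a ≠ b) {α β : F} (hα : α ≠ 0) (hβ : β ≠ 0) :
    α • (𝐞 a) + β • (𝐞 b) ∈ 𝐓 M := by
  classical
  have hf := herm_unitary (n := n) hF
  have h2 := q2_two hF
  set z := α • (𝐞 a) + β • (𝐞 b) with hz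
  have hNα := q2_N (hF := hF) hα
  have hNβ := q2_N (hF := hF) hβ
  have hzz : ⟪z, z⟫ = 0 := by
    rw [hz, form_two_two (hF := hF) a b _ _ _ _ hab, hNα, hNβ]
    exact q2_dbl hF 1
  have hza : z a = α := by
    simp [hz, Pi.single_eq_of_ne hab]
  have hzb : z b = β := by
    simp [hz, Pi.single_eq_of_ne (Ne.symm hab)]
  have hzo : ∀ j, j ≠ a → j ≠ b → z j = 0 := by
    intro j h1 h3
    simp [hz, Pi.single_eq_of_ne h1, Pi.single_eq_of_ne h3]
  refine ⟨hzz, fun l hl => ?_⟩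
  have h0 : ⟪l • z, z⟫ = 0 := by rw [hf.smul_left, hzz, mul_zero]
  refine ⟨h0, B.blk _ (tau_mem_K hF hzz hl h0) ?_⟩
  have hl2 : l = 0 ∨ l = 1 := by
    have h3 := q2_sig (hF := hF) l
    rw [h3] at hl
    have h4 : l * (l - 1) = 0 := by
      linear_combination hl - l * h2
    rcases mul_eq_zero.1 h4 with h5 | h5
    · exact Or.inl h5
    · exact Or.inr (by linear_combination h5)
  have hentry : ∀ j b', ((tau hf (l • z) z h0 : GL (Fin n) F) : Matrix (Fin n) (Fin n) F) b' j =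
      (𝐞 j) b' + σ (z j) * (l * z b') := by
    intro j b'
    have h1 := tau_apply hf (l • z) z h0 (𝐞 j)
    have h3 := congrFun h1 b'
    rw [Matrix.mulVec_single_one, Matrix.col_apply] at h3
    rw [h3, form_e_left hF]
    simp
  rcases hl2 with rfl | rfl
  · apply isMono_of_fun _ id
    intro j b' hb'
    have hb'' : b' ≠ j := hb'
    rw [hentry]
    simp [Pi.single_eq_of_ne hb'']
  · apply isMono_of_fun _ (Equiv.swap a b)
    intro j b' hb'
    rw [hentry, one_mul]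
    by_cases hja : j = a
    · subst hja
      rw [Equiv.swap_apply_left] at hb'
      rw [hza]
      by_cases hb'j : b' = j
      · subst hb'j
        rw [hza, Pi.single_eq_same, mul_comm]
        rw [hNα]
        exact q2_dbl hF 1
      · rw [Pi.single_eq_of_ne hb'j, hzo b' hb'j hb']
        simp
    by_cases hjb : j = b
    · subst hjb
      rw [Equiv.swap_apply_right] at hb'
      rw [hzb]
      by_cases hb'j : b' = j
      · subst hb'j
        rw [hzb, Pi.single_eq_same, mul_comm]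
        rw [hNβ]
        exact q2_dbl hF 1
      · rw [Pi.single_eq_of_ne hb'j, hzo b' hb' hb'j]
        simp
    · rw [Equiv.swap_apply_of_ne_of_ne hja hjb] at hb'
      rw [hzo j hja hjb, Pi.single_eq_of_ne hb', map_zero]
      simp

/-- A non-monomial isometry sends some vector of weight two to a vector of weight at least three. -/
theorem exists_heavy (hF : Fintype.card F = 2 ^ 2) {g : GL (Fin n) F} (hg : g ∈ GU n F 2) (hnm : ¬ IsMono g) (hn : 4 ≤ n) :
    ∃ a b : Fin n, ∃ μ : F, a ≠ b ∧ μ ≠ 0 ∧ 3 ≤ (Sup (g ⋆ ((𝐞 a) + μ • (𝐞 b)))).card := by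
  classical
  have hf := herm_unitary (n := n) hF
  have h2 := q2_two hF
  obtain ⟨a, ha⟩ := exists_noncoord hnm
  set v := g ⋆ (𝐞 a) with hv
  have hvN : ⟪v, v⟫ = 1 := by rw [hv, gu_pres hF hg, he hF a]
  have hodd := odd_of_unit hF hvN
  have hv3 : 2 < (Sup v).card := by
    obtain ⟨k, hk⟩ := hodd
    by_contra hcon
    have hk0 : k = 0 := by omega
    have hc1 : (Sup v).card = 1 := by omega
    obtain ⟨i, hi⟩ := Finset.card_eq_one.1 hc1
    apply ha
    refine ⟨i, v i, ?_⟩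
    funext j
    by_cases hj : j = i
    · subst hj
      simp
    · have : v j = 0 := by
        by_contra h0
        have h3 : j ∈ Sup v := mem_Sup.2 h0
        rw [hi] at h3
        exact hj (Finset.mem_singleton.1 h3)
      rw [this]
      simp [Pi.single_eq_of_ne hj]
  obtain ⟨i, hi, j, hj, k, hk, hij, hik, hjk⟩ := Finset.two_lt_card.1 hv3
  have hvi := mem_Sup.1 hi
  have hvj := mem_Sup.1 hj
  have hvk := mem_Sup.1 hk
  by_contra hcon
  push Not at hcon
  -- three coordinates in the support are impossible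
  have hthree : ∀ b (μ : F), a ≠ b → μ ≠ 0 → ∀ y₁ y₂ y₃ : Fin n, y₁ ≠ y₂ → y₁ ≠ y₃ → y₂ ≠ y₃ →
      (g ⋆ ((𝐞 a) + μ • (𝐞 b))) y₁ ≠ 0 → (g ⋆ ((𝐞 a) + μ • (𝐞 b))) y₂ ≠ 0 →
      (g ⋆ ((𝐞 a) + μ • (𝐞 b))) y₃ = 0 := by
    intro b μ hab hμ y₁ y₂ y₃ h12 h13 h23 h1 h3
    by_contra h4
    have := hcon a b μ hab hμ
    have h5 : 2 < (Sup (g ⋆ ((𝐞 a) + μ • (𝐞 b)))).card :=
      Finset.two_lt_card.2 ⟨y₁, mem_Sup.2 h1, y₂, mem_Sup.2 h3, y₃, mem_Sup.2 h4, h12, h13, h23⟩
    omega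
  -- a further coordinate
  obtain ⟨x, hx⟩ : ∃ x, x ∉ ({i, j, k} : Finset (Fin n)) := by
    by_contra h3
    push Not at h3
    have h4 : (Finset.univ : Finset (Fin n)) ⊆ {i, j, k} := fun y _ => h3 y
    have h5 := Finset.card_le_card h4
    have h6 : ({i, j, k} : Finset (Fin n)).card ≤ 3 := Finset.card_le_three
    rw [Finset.card_univ, Fintype.card_fin] at h5
    omega
  simp only [Finset.mem_insert, Finset.mem_singleton, not_or] at hx
  obtain ⟨hxi, hxj, hxk⟩ := hx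
  -- a column
  obtain ⟨b, hab, hPQ⟩ : ∃ b, a ≠ b ∧ (v x ≠ 0 ∨ (g ⋆ (𝐞 b)) x ≠ 0) := by
    obtain ⟨d, hd⟩ := row_ne_zero g x
    by_cases hda : d = a
    · have h3 : v x ≠ 0 := by
        rw [hv, gu_col hF, ← hda]
        exact hd
      obtain ⟨b, hb, -⟩ := exists_third (ι := Fin n) (by simp; omega) a a
      exact ⟨b, Ne.symm hb, Or.inl h3⟩
    · exact ⟨d, Ne.symm hda, Or.inr (by rw [gu_col hF]; exact hd)⟩
  set V := g ⋆ (𝐞 b) with hV
  have hw : ∀ (μ : F) (y : Fin n), (g ⋆ ((𝐞 a) + μ • (𝐞 b))) y = v y + μ * V y := by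
    intro μ y
    rw [Matrix.mulVec_add, Matrix.mulVec_smul]
    simp [hv, hV]
  set bad := v x / V x with hbad
  obtain ⟨μ₁, hμ₁, hμ₁b, -⟩ := exists_Cr_ne hF (hermSigma_apply hF) bad bad
  obtain ⟨μ₂, hμ₂, hμ₂b, hμ₂1⟩ := exists_Cr_ne hF (hermSigma_apply hF) bad μ₁
  have hgood : ∀ μ, μ ≠ bad → v x + μ * V x ≠ 0 := by
    intro μ hμ h0
    rcases hPQ with h3 | h3
    · by_cases hV0 : V x = 0
      · rw [hV0, mul_zero, add_zero] at h0
        exact h3 h0
      · apply hμ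
        rw [hbad, eq_div_iff hV0]
        linear_combination h0 - v x * h2
    · apply hμ
      rw [hbad, eq_div_iff h3]
      linear_combination h0 - v x * h2
  have hμ₁0 : μ₁ ≠ 0 := Cr_ne_zero hμ₁
  have hμ₂0 : μ₂ ≠ 0 := Cr_ne_zero hμ₂
  have hx1 := hgood μ₁ hμ₁b
  have hx2 := hgood μ₂ hμ₂b
  have hbadpair : ∀ y, v y ≠ 0 → v y + μ₁ * V y = 0 → v y + μ₂ * V y = 0 → False := by
    intro y hy h3 h4
    have h5 : (μ₁ - μ₂) * V y = 0 := by linear_combination h3 - h4
    rcases mul_eq_zero.1 h5 with h6 | h6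
    · exact hμ₂1 (by linear_combination -h6)
    · rw [h6, mul_zero, add_zero] at h3
      exact hy h3
  have hpair : ∀ μ, μ ≠ 0 → v x + μ * V x ≠ 0 → ∀ y y', y ≠ y' → y ≠ x → y' ≠ x →
      v y + μ * V y = 0 ∨ v y' + μ * V y' = 0 := by
    intro μ hμ h3 y y' hyy' hyx hy'x
    by_contra h4
    push Not at h4
    have h5 := hthree b μ hab hμ x y y' (Ne.symm hyx) (Ne.symm hy'x) hyy' (by rw [hw]; exact h3)
      (by rw [hw]; exact h4.1)
    rw [hw] at h5
    exact h4.2 h5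
  have a1 := hpair μ₁ hμ₁0 hx1 i j hij (Ne.symm hxi) (Ne.symm hxj)
  have a2 := hpair μ₁ hμ₁0 hx1 i k hik (Ne.symm hxi) (Ne.symm hxk)
  have a3 := hpair μ₁ hμ₁0 hx1 j k hjk (Ne.symm hxj) (Ne.symm hxk)
  have b1 := hpair μ₂ hμ₂0 hx2 i j hij (Ne.symm hxi) (Ne.symm hxj)
  have b2 := hpair μ₂ hμ₂0 hx2 i k hik (Ne.symm hxi) (Ne.symm hxk)
  have b3 := hpair μ₂ hμ₂0 hx2 j k hjk (Ne.symm hxj) (Ne.symm hxk)
  have c1 := hbadpair i hvi
  have c2 := hbadpair j hvj
  have c3 := hbadpair k hvk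
  rcases a1 with a1 | a1 <;> rcases a2 with a2 | a2 <;> rcases a3 with a3 | a3 <;> rcases b1 with b1 | b1 <;>
    rcases b2 with b2 | b2 <;> rcases b3 with b3 | b3 <;>
    first
      | exact c1 (by assumption) (by assumption)
      | exact c2 (by assumption) (by assumption)
      | exact c3 (by assumption) (by assumption)

end Cfsg.Agent.Lib.H97VP
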