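import Mathlib
import Cfsg.Agent.Lib.H97VP

/-!
# Overgroups of the monomial group in `SU_n(2)`: the centres
-/

set_option autoImplicit false
set_option linter.unusedSectionVars false
set_option linter.unusedVariables false

namespace Cfsg.Agent.Lib.H97VQ

open Matrix Cfsg Cfsg.Geo Cfsg.Agent.Lib.TvGL Cfsg.Agent.Lib.SympT Cfsg.Agent.Lib.UForm
  Cfsg.Agent.Lib.UTrans Cfsg.Agent.Lib.GLMon Cfsg.Agent.Lib.GLMonFull Cfsg.Agent.Lib.GLMonLift Cfsg.Agent.Lib.HermForm
  Cfsg.Agent.Lib.H97VA Cfsg.Agent.Lib.H97VB Cfsg.Agent.Lib.H97VC Cfsg.Agent.Lib.H97VD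
  Cfsg.Agent.Lib.H97VE Cfsg.Agent.Lib.H97VF Cfsg.Agent.Lib.H97VG Cfsg.Agent.Lib.H97VH Cfsg.Agent.Lib.H97VI
  Cfsg.Agent.Lib.H97VJ Cfsg.Agent.Lib.H97VK Cfsg.Agent.Lib.H97VL Cfsg.Agent.Lib.H97VM Cfsg.Agent.Lib.H97VN
  Cfsg.Agent.Lib.H97VO Cfsg.Agent.Lib.H97VP
open Cfsg.Agent.H97.Asch (herm_unitary hermSigma hermSigma_apply)
open Cfsg.Agent.Lib.UWitt (tau_mem_K)
open scoped MatrixGroups

local notation:70 g:71 " ⋆ " x:70 => Matrix.mulVec (Units.val g) x

variable {n : ℕ} {F : Type*} [Field F] [Fintype F]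

local notation "⟪" u ", " v "⟫" => hermForm n F 2 u v

/-- The coordinate vector. -/
local notation "𝐞" i => (Pi.single i (1 : F) : Fin n → F)

variable {hF : Fintype.card F = 2 ^ 2}

local notation "σ" => hermSigma hF

local notation "𝐓" => TU (herm_unitary (n := n) hF)

variable {M : Subgroup (GL (Fin n) F)}

/-- The basic step. -/
theorem good_step (hle : M ≤ GU n F 2)
    (hD : ∀ s : Fin n → Fˣ, (∀ i, (s i : F) * σ (s i) = 1) → ∏ a, s a = 1 → dg s ∈ M) {w : Fin n → F}
    (hw : w ∈ 𝐓 M) {τ : Fin n → Fˣ} {Z : Finset (Fin n)}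
    (G : Good (hermSigma hF) (fun j => w j * σ (w j)) τ Z 1) : dg τ ⋆ w - w ∈ 𝐓 M := by
  have hf := herm_unitary (n := n) hF
  have hdg : dg τ ∈ M := hD τ G.cir G.prod
  have hwu := hle hdg
  have hval : ⟪dg τ ⋆ w, w⟫ = 1 := by
    have e1 : ⟪dg τ ⋆ w, w⟫ = ∑ j, ((τ j : F) - 1) * (w j * σ (w j)) + ⟪w, w⟫ := by
      rw [form_eq (hF := hF), form_eq (hF := hF) w w, ← Finset.sum_add_distrib]
      apply Finset.sum_congr rfl
      intro j _
      rw [dg_mulVec]
      ring
    rw [e1, G.val, hw.1, add_zero]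
  have hval' : ⟪w, dg τ ⋆ w⟫ = 1 := by
    rw [hf.herm, hval, map_one]
  apply sub_step hdg hwu hw
  · rw [f_sub_left hf, f_sub_right hf, f_sub_right hf, gu_pres hF hwu, hval, hval', hw.1]
    have := q2_dbl hF 1
    linear_combination -this
  · rw [f_sub_left hf, hval, hw.1, sub_zero]
    exact one_ne_zero

/-- From weight at least four with a free coordinate to weight four. -/
theorem step4 (hle : M ≤ GU n F 2)
    (hD : ∀ s : Fin n → Fˣ, (∀ i, (s i : F) * σ (s i) = 1) → ∏ a, s a = 1 → dg s ∈ M) {ω : F}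
    (hω : ω * ω + ω + 1 = 0) {w : Fin n → F} (hw : w ∈ 𝐓 M) {a b d e f : Fin n} (hab : a ≠ b) (had : a ≠ d)
    (hae : a ≠ e) (hbd : b ≠ d) (hbe : b ≠ e) (hde : d ≠ e) (haf : a ≠ f) (hbf : b ≠ f) (hdf : d ≠ f) (hef : e ≠ f)
    (ha : w a ≠ 0) (hb : w b ≠ 0) (hd : w d ≠ 0) (he' : w e ≠ 0) (hwf : w f = 0) :
    ∃ y ∈ 𝐓 M, (Sup y).card = 4 := by
  classical
  have hinv := sig_sig' (q := 2) hF
  have h2 := q2_two hF
  obtain ⟨h0, h1, h02, h12, hσ1, hσ2⟩ := omega_facts (hF := hF) hω
  set u : Fˣ := Units.mk0 ω h0 with hu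
  set u₂ : Fˣ := Units.mk0 (ω * ω) h02 with hu₂
  have huv : (u : F) = ω := rfl
  have hu₂v : (u₂ : F) = ω * ω := rfl
  have huc : (u : F) * σ (u : F) = 1 := q2_N (hF := hF) h0
  have hu₂c : (u₂ : F) * σ (u₂ : F) = 1 := q2_N (hF := hF) h02
  set C : Fin n → F := fun j => w j * σ (w j) with hC
  have hCa : C a = 1 := q2_N (hF := hF) ha
  have hCb : C b = 1 := q2_N (hF := hF) hb
  have hCd : C d = 1 := q2_N (hF := hF) hd
  have hCe : C e = 1 := q2_N (hF := hF) he'
  have hCf : C f = 0 := by simp only [hC, hwf, map_zero, mul_zero]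
  have G1 := Good.tt_pair C hab hinv u huc
  have G2 := Good.tt_pair C hdf hinv u₂ hu₂c
  have G3 := Good.tt_pair C hef hinv u₂ hu₂c
  have G12 := Good_mul' G1 G2 (by
    intro j h3 h4
    simp only [Finset.mem_insert, Finset.mem_singleton] at h3 h4
    rcases h3 with rfl | rfl <;> rcases h4 with rfl | rfl <;> first | exact absurd rfl had | exact absurd rfl haf | exact absurd rfl hbd | exact absurd rfl hbf)
  have G123 := Good_mul' G12 G3 (by
    intro j h3 h4
    simp only [Finset.mem_insert, Finset.mem_singleton] at h4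
    rcases h4 with rfl | rfl
    · simp only [Finset.mem_union, Finset.mem_insert, Finset.mem_singleton] at h3
      rcases h3 with (h3 | h3) | (h3 | h3)
      · exact absurd h3.symm hae
      · exact absurd h3.symm hbe
      · exact absurd h3.symm hde
      · exact absurd h3 hef
    · exact hCf)
  have hE : ((u : F) - 1) * C a + (σ (u : F) - 1) * C b + (((u₂ : F) - 1) * C d + (σ (u₂ : F) - 1) * C f) +
      (((u₂ : F) - 1) * C e + (σ (u₂ : F) - 1) * C f) = 1 := by
    rw [hCa, hCb, hCd, hCe, hCf, huv, hu₂v, hσ1]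
    linear_combination hω + (ω * ω - 3) * h2
  rw [hE] at G123
  set τ : Fin n → Fˣ := fun j => tt a b u j * tt d f u₂ j * tt e f u₂ j with hτ
  have hy := good_step hle hD hw G123
  refine ⟨_, hy, ?_⟩
  have hui : ((u⁻¹ : Fˣ) : F) = ω * ω := by
    rw [Units.val_inv_eq_inv_val, huv]
    have := q2_N (hF := hF) h0
    rw [hσ1] at this
    exact inv_eq_of_mul_eq_one_right this
  have hτa : ((τ a : Fˣ) : F) = ω := by
    simp only [hτ, Units.val_mul]
    rw [tt_left, tt_other _ had haf, tt_other _ hae haf]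
    simp [huv]
  have hτb : ((τ b : Fˣ) : F) = ω * ω := by
    simp only [hτ, Units.val_mul]
    rw [tt_right hab, tt_other _ hbd hbf, tt_other _ hbe hbf, hui]
    simp
  have hτd : ((τ d : Fˣ) : F) = ω * ω := by
    simp only [hτ, Units.val_mul]
    rw [tt_other _ had.symm hbd.symm, tt_left, tt_other _ hde hdf, hu₂v]
    simp
  have hτe : ((τ e : Fˣ) : F) = ω * ω := by
    simp only [hτ, Units.val_mul]
    rw [tt_other _ hae.symm hbe.symm, tt_other _ hde.symm hef, tt_left, hu₂v]
    simp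
  have hτo : ∀ j, j ≠ a → j ≠ b → j ≠ d → j ≠ e → j ≠ f → ((τ j : Fˣ) : F) = 1 := by
    intro j h3 h4 h5 h6 h7
    simp only [hτ, Units.val_mul]
    rw [tt_other _ h3 h4, tt_other _ h5 h7, tt_other _ h6 h7]
    simp
  have hm1 : ω - 1 ≠ 0 := by
    intro h3
    apply h1
    linear_combination h3 + h2
  have hm2 : ω * ω - 1 ≠ 0 := by
    intro h3
    apply h12
    linear_combination h3 + h2
  have hS : Sup (dg τ ⋆ w - w) = {a, b, d, e} := by
    ext j
    rw [mem_Sup]
    simp only [Finset.mem_insert, Finset.mem_singleton, Pi.sub_apply]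
    rw [dg_mulVec]
    have e1 : (τ j : F) * w j - w j = ((τ j : F) - 1) * w j := by ring
    rw [e1]
    constructor
    · intro h3
      by_contra h4
      push Not at h4
      obtain ⟨h5, h6, h7, h8⟩ := h4
      by_cases h9 : j = f
      · rw [h9, hwf, mul_zero] at h3
        exact h3 rfl
      · rw [hτo j h5 h6 h7 h8 h9, sub_self, zero_mul] at h3
        exact h3 rfl
    · rintro (rfl | rfl | rfl | rfl)
      · rw [hτa]
        exact mul_ne_zero hm1 ha
      · rw [hτb]
        exact mul_ne_zero hm2 hb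
      · rw [hτd]
        exact mul_ne_zero hm2 hd
      · rw [hτe]
        exact mul_ne_zero hm2 he'
  rw [hS]
  simp [hab, had, hae, hbd, hbe, hde]

/-- From six coordinates to weight six. -/
theorem step6 (hle : M ≤ GU n F 2)
    (hD : ∀ s : Fin n → Fˣ, (∀ i, (s i : F) * σ (s i) = 1) → ∏ a, s a = 1 → dg s ∈ M) {ω : F}
    (hω : ω * ω + ω + 1 = 0) {w : Fin n → F} (hw : w ∈ 𝐓 M) (idx : Fin 6 → Fin n)
    (hinj : Function.Injective idx) (hne : ∀ i, w (idx i) ≠ 0) :
    ∃ y ∈ 𝐓 M, (Sup y).card = 6 := by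
  classical
  have hinv := sig_sig' (q := 2) hF
  have h2 := q2_two hF
  obtain ⟨h0, h1, h02, h12, hσ1, hσ2⟩ := omega_facts (hF := hF) hω
  set u : Fˣ := Units.mk0 ω h0 with hu
  have huv : (u : F) = ω := rfl
  have huc : (u : F) * σ (u : F) = 1 := q2_N (hF := hF) h0
  set C : Fin n → F := fun j => w j * σ (w j) with hC
  have hC1 : ∀ i, C (idx i) = 1 := fun i => q2_N (hF := hF) (hne i)
  have hd : ∀ {i j : Fin 6}, i ≠ j → idx i ≠ idx j := fun h h' => h (hinj h')
  have G1 := Good.tt_pair C (hd (i := 0) (j := 1) (by decide)) hinv u huc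
  have G2 := Good.tt_pair C (hd (i := 2) (j := 3) (by decide)) hinv u huc
  have G3 := Good.tt_pair C (hd (i := 4) (j := 5) (by decide)) hinv u huc
  have G12 := Good_mul' G1 G2 (by
    intro j h3 h4
    simp only [Finset.mem_insert, Finset.mem_singleton] at h3 h4
    exfalso
    rcases h3 with h3 | h3 <;> rcases h4 with h4 | h4 <;> first
      | exact hd (i := 0) (j := 2) (by decide) (h3.symm.trans h4)
      | exact hd (i := 0) (j := 3) (by decide) (h3.symm.trans h4)
      | exact hd (i := 1) (j := 2) (by decide) (h3.symm.trans h4)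
      | exact hd (i := 1) (j := 3) (by decide) (h3.symm.trans h4))
  have G123 := Good_mul' G12 G3 (by
    intro j h3 h4
    simp only [Finset.mem_insert, Finset.mem_singleton, Finset.mem_union] at h3 h4
    exfalso
    rcases h3 with (h3 | h3) | (h3 | h3) <;> rcases h4 with h4 | h4 <;> first
      | exact hd (i := 0) (j := 4) (by decide) (h3.symm.trans h4)
      | exact hd (i := 0) (j := 5) (by decide) (h3.symm.trans h4)
      | exact hd (i := 1) (j := 4) (by decide) (h3.symm.trans h4)
      | exact hd (i := 1) (j := 5) (by decide) (h3.symm.trans h4)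
      | exact hd (i := 2) (j := 4) (by decide) (h3.symm.trans h4)
      | exact hd (i := 2) (j := 5) (by decide) (h3.symm.trans h4)
      | exact hd (i := 3) (j := 4) (by decide) (h3.symm.trans h4)
      | exact hd (i := 3) (j := 5) (by decide) (h3.symm.trans h4))
  have hE : ((u : F) - 1) * C (idx 0) + (σ (u : F) - 1) * C (idx 1) + (((u : F) - 1) * C (idx 2) +
      (σ (u : F) - 1) * C (idx 3)) + (((u : F) - 1) * C (idx 4) + (σ (u : F) - 1) * C (idx 5)) = 1 := by
    rw [hC1, hC1, hC1, hC1, hC1, hC1, huv, hσ1]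
    linear_combination 3 * hω - 5 * h2
  rw [hE] at G123
  set τ : Fin n → Fˣ := fun j => tt (idx 0) (idx 1) u j * tt (idx 2) (idx 3) u j * tt (idx 4) (idx 5) u j with hτ
  have hy := good_step hle hD hw G123
  refine ⟨_, hy, ?_⟩
  have hui : ((u⁻¹ : Fˣ) : F) = ω * ω := by
    rw [Units.val_inv_eq_inv_val, huv]
    have := q2_N (hF := hF) h0
    rw [hσ1] at this
    exact inv_eq_of_mul_eq_one_right this
  have hτval : ∀ i, ((τ (idx i) : Fˣ) : F) = ω ∨ ((τ (idx i) : Fˣ) : F) = ω * ω := by
    intro i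
    simp only [hτ, Units.val_mul]
    fin_cases i
    · left
      show ((tt (idx 0) (idx 1) u (idx 0) : Fˣ) : F) * ((tt (idx 2) (idx 3) u (idx 0) : Fˣ) : F) *
        ((tt (idx 4) (idx 5) u (idx 0) : Fˣ) : F) = ω
      rw [tt_left, tt_other _ (hd (by decide)) (hd (by decide)), tt_other _ (hd (by decide)) (hd (by decide))]
      simp [huv]
    · right
      show ((tt (idx 0) (idx 1) u (idx 1) : Fˣ) : F) * ((tt (idx 2) (idx 3) u (idx 1) : Fˣ) : F) *
        ((tt (idx 4) (idx 5) u (idx 1) : Fˣ) : F) = ω * ω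
      rw [tt_right (hd (by decide)), tt_other _ (hd (by decide)) (hd (by decide)),
        tt_other _ (hd (by decide)) (hd (by decide)), hui]
      simp
    · left
      show ((tt (idx 0) (idx 1) u (idx 2) : Fˣ) : F) * ((tt (idx 2) (idx 3) u (idx 2) : Fˣ) : F) *
        ((tt (idx 4) (idx 5) u (idx 2) : Fˣ) : F) = ω
      rw [tt_left, tt_other _ (hd (by decide)) (hd (by decide)), tt_other _ (hd (by decide)) (hd (by decide))]
      simp [huv]
    · right
      show ((tt (idx 0) (idx 1) u (idx 3) : Fˣ) : F) * ((tt (idx 2) (idx 3) u (idx 3) : Fˣ) : F) *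
        ((tt (idx 4) (idx 5) u (idx 3) : Fˣ) : F) = ω * ω
      rw [tt_right (hd (by decide)), tt_other _ (hd (by decide)) (hd (by decide)),
        tt_other _ (hd (by decide)) (hd (by decide)), hui]
      simp
    · left
      show ((tt (idx 0) (idx 1) u (idx 4) : Fˣ) : F) * ((tt (idx 2) (idx 3) u (idx 4) : Fˣ) : F) *
        ((tt (idx 4) (idx 5) u (idx 4) : Fˣ) : F) = ω
      rw [tt_left, tt_other _ (hd (by decide)) (hd (by decide)), tt_other _ (hd (by decide)) (hd (by decide))]
      simp [huv]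
    · right
      show ((tt (idx 0) (idx 1) u (idx 5) : Fˣ) : F) * ((tt (idx 2) (idx 3) u (idx 5) : Fˣ) : F) *
        ((tt (idx 4) (idx 5) u (idx 5) : Fˣ) : F) = ω * ω
      rw [tt_right (hd (by decide)), tt_other _ (hd (by decide)) (hd (by decide)),
        tt_other _ (hd (by decide)) (hd (by decide)), hui]
      simp
  have hm1 : ω - 1 ≠ 0 := by
    intro h3
    apply h1
    linear_combination h3 + h2
  have hm2 : ω * ω - 1 ≠ 0 := by
    intro h3
    apply h12
    linear_combination h3 + h2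
  have hτo : ∀ j, j ∉ Finset.univ.image idx → ((τ j : Fˣ) : F) = 1 := by
    intro j hj
    have hj' : ∀ i, j ≠ idx i := fun i h => hj (Finset.mem_image.2 ⟨i, Finset.mem_univ _, h.symm⟩)
    simp only [hτ, Units.val_mul]
    rw [tt_other _ (hj' _) (hj' _), tt_other _ (hj' _) (hj' _), tt_other _ (hj' _) (hj' _)]
    simp
  have hS : Sup (dg τ ⋆ w - w) = Finset.univ.image idx := by
    ext j
    rw [mem_Sup]
    simp only [Pi.sub_apply]
    rw [dg_mulVec]
    have e1 : (τ j : F) * w j - w j = ((τ j : F) - 1) * w j := by ring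
    rw [e1]
    constructor
    · intro h3
      by_contra h4
      rw [hτo j h4, sub_self, zero_mul] at h3
      exact h3 rfl
    · intro h3
      obtain ⟨i, -, rfl⟩ := Finset.mem_image.1 h3
      rcases hτval i with h4 | h4
      · rw [h4]
        exact mul_ne_zero hm1 (hne i)
      · rw [h4]
        exact mul_ne_zero hm2 (hne i)
  rw [hS, Finset.card_image_of_injective _ hinj]
  simp

/-- Transport by the monomial group. -/
theorem transport (B : BCtx hF M (id : Fin n → Fin n)) {y y' : Fin n → F} (hy : y ∈ 𝐓 M)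
    (hc : (Sup y).card = (Sup y').card) (hfree : (Sup y).card < n) : y' ∈ 𝐓 M := by
  classical
  have hf := herm_unitary (n := n) hF
  obtain ⟨z, hz⟩ : ∃ z, z ∉ Sup y := by
    by_contra hcon
    push Not at hcon
    have h1 : (Finset.univ : Finset (Fin n)) ⊆ Sup y := fun i _ => hcon i
    have h2 := Finset.card_le_card h1
    rw [Finset.card_univ, Fintype.card_fin] at h2
    omega
  have hyz : y z = 0 := by
    by_contra h0
    exact hz (mem_Sup.2 h0)
  have hcard : Fintype.card {x // x ∈ Sup y} = Fintype.card {x // x ∈ Sup y'} := by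
    rw [Fintype.card_coe, Fintype.card_coe, hc]
  let e : {x // x ∈ Sup y} ≃ {x // x ∈ Sup y'} := Fintype.equivOfCardEq hcard
  set π : Equiv.Perm (Fin n) := e.extendSubtype with hπ
  have hπ1 : ∀ i, y i ≠ 0 → y' (π i) ≠ 0 := fun i hi => mem_Sup.1 (e.extendSubtype_mem i (mem_Sup.2 hi))
  have hπ2 : ∀ i, y i = 0 → y' (π i) = 0 := by
    intro i hi
    have h1 : i ∉ Sup y := fun h => (mem_Sup.1 h) hi
    have h2 := e.extendSubtype_not_mem i h1
    by_contra h3
    exact h2 (mem_Sup.2 h3)
  set s₀ : Fin n → Fˣ := fun i => if h : y' (π i) / y i ≠ 0 then Units.mk0 _ h else 1 with hs₀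
  set c : Fˣ := signU π * ∏ a, s₀ a with hcdef
  set s : Fin n → Fˣ := fun i => s₀ i * ds z c⁻¹ i with hs
  have hs1 : ∀ i, (s i : F) * σ (s i) = 1 := fun i => q2_N (hF := hF) (s i).ne_zero
  have hs2 : (((Equiv.Perm.sign π : ℤˣ) : ℤ) : F) * ∏ a, (s a : F) = 1 := by
    have e1 : ∏ a, s a = (∏ a, s₀ a) * c⁻¹ := by
      simp only [hs]
      rw [Finset.prod_mul_distrib, prod_ds]
    have e2 : ∏ a, (s a : F) = ((∏ a, s a : Fˣ) : F) := by simp
    rw [e2, e1, ← signU_val]
    have e3 : ((signU π : Fˣ) : F) * (((∏ a, s₀ a) * c⁻¹ : Fˣ) : F) =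
        ((signU π * ((∏ a, s₀ a) * c⁻¹) : Fˣ) : F) := by simp
    rw [e3]
    have e4 : signU π * ((∏ a, s₀ a) * c⁻¹) = 1 := by
      rw [← mul_assoc, ← hcdef, mul_inv_cancel]
    rw [e4]
    simp
  have hm := B.blk _ (mon_mem_K hF π s hs1 hs2) (isMono_mon π s)
  have h5 := TU_conj hf (gu_pres' hF (B.gu hm)) hm hy
  have e6 : mon π s ⋆ y = y' := by
    funext b
    rw [mon_mulVec]
    obtain ⟨i, rfl⟩ := π.surjective b
    rw [Equiv.symm_apply_apply]
    by_cases hi : y i = 0
    · rw [hi, mul_zero, hπ2 i hi]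
    · have hiz : i ≠ z := by
        rintro rfl
        exact hi hyz
      have h7 : y' (π i) / y i ≠ 0 := div_ne_zero (hπ1 i hi) hi
      have h8 : ((s i : Fˣ) : F) = y' (π i) / y i := by
        simp only [hs, Units.val_mul, hs₀]
        rw [ds_ne _ hiz, dif_pos h7]
        simp
      rw [h8]
      field_simp
  rwa [e6] at h5

/-- All isotropic vectors are centres once those of weight four are. -/
theorem closure₂ (B : BCtx hF M (id : Fin n → Fin n)) {ω : F} (hω : ω * ω + ω + 1 = 0)
    (h4 : ∀ v : Fin n → F, (Sup v).card = 4 → v ∈ 𝐓 M) :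
    ∀ (m : ℕ) (v : Fin n → F), (Sup v).card = m → ⟪v, v⟫ = 0 → v ∈ 𝐓 M := by
  classical
  have hf := herm_unitary (n := n) hF
  have hinv := sig_sig' (q := 2) hF
  have h2 := q2_two hF
  obtain ⟨h0, h1, h02, h12, hσ1, hσ2⟩ := omega_facts (hF := hF) hω
  intro m
  induction m using Nat.strong_induction_on with
  | _ m ih =>
    intro v hv hvv
    obtain ⟨k, hk⟩ := even_of_iso hF hvv
    by_cases hm0 : m = 0
    · have : v = 0 := by
        funext i
        by_contra h3
        have h5 : (Sup v).Nonempty := ⟨i, mem_Sup.2 h3⟩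
        have h6 := Finset.card_pos.2 h5
        omega
      rw [this]
      exact TU_zero hf
    by_cases hm2 : m = 2
    · obtain ⟨a, b, hab, hS⟩ := Finset.card_eq_two.1 (hv.trans hm2)
      have ha : v a ≠ 0 := mem_Sup.1 (by rw [hS]; simp)
      have hb : v b ≠ 0 := mem_Sup.1 (by rw [hS]; simp)
      have e1 : v = v a • (𝐞 a) + v b • (𝐞 b) := by
        funext j
        by_cases hja : j = a
        · subst hja
          simp [Pi.single_eq_of_ne hab]
        by_cases hjb : j = b
        · subst hjb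
          simp [Pi.single_eq_of_ne hab.symm]
        · have h3 : v j = 0 := by
            by_contra h5
            have h6 : j ∈ Sup v := mem_Sup.2 h5
            rw [hS] at h6
            simp only [Finset.mem_insert, Finset.mem_singleton] at h6
            tauto
          rw [h3]
          simp [Pi.single_eq_of_ne hja, Pi.single_eq_of_ne hjb]
      rw [e1]
      exact two_T B hab ha hb
    -- at least four coordinates
    have hm4 : 4 ≤ (Sup v).card := by omega
    set e := (Sup v).orderEmbOfCardLe hm4 with he'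
    have hne : ∀ i, v (e i) ≠ 0 := fun i => mem_Sup.1 (Finset.orderEmbOfCardLe_mem (Sup v) hm4 i)
    have hd : ∀ {i j : Fin 4}, i ≠ j → e i ≠ e j := fun h h' => h (e.injective h')
    obtain ⟨a, b, c, d, ha, hb, hc, hd', hab, hac, had, hbc, hbd, hcd⟩ : ∃ a b c d, v a ≠ 0 ∧ v b ≠ 0 ∧ v c ≠ 0 ∧ v d ≠ 0 ∧
      a ≠ b ∧ a ≠ c ∧ a ≠ d ∧ b ≠ c ∧ b ≠ d ∧ c ≠ d := ⟨e 0, e 1, e 2, e 3, hne 0, hne 1, hne 2, hne 3, hd (by decide),
        hd (by decide), hd (by decide), hd (by decide), hd (by decide), hd (by decide)⟩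
    set u : Fin n → F := v a • (𝐞 a) + v b • (𝐞 b) + (ω * v c) • (𝐞 c) + (ω * ω * v d) • (𝐞 d) with hu
    have hua : u a = v a := by
      simp [hu, Pi.single_eq_of_ne hab, Pi.single_eq_of_ne hac, Pi.single_eq_of_ne had]
    have hub : u b = v b := by
      simp [hu, Pi.single_eq_of_ne hab.symm, Pi.single_eq_of_ne hbc, Pi.single_eq_of_ne hbd]
    have huc : u c = ω * v c := by
      simp [hu, Pi.single_eq_of_ne hac.symm, Pi.single_eq_of_ne hbc.symm, Pi.single_eq_of_ne hcd]
    have hud : u d = ω * ω * v d := by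
      simp [hu, Pi.single_eq_of_ne had.symm, Pi.single_eq_of_ne hbd.symm, Pi.single_eq_of_ne hcd.symm]
    have huo : ∀ j, j ≠ a → j ≠ b → j ≠ c → j ≠ d → u j = 0 := by
      intro j h3 h5 h6 h7
      simp [hu, Pi.single_eq_of_ne h3, Pi.single_eq_of_ne h5, Pi.single_eq_of_ne h6, Pi.single_eq_of_ne h7]
    have hSu : Sup u = {a, b, c, d} := by
      ext j
      rw [mem_Sup]
      simp only [Finset.mem_insert, Finset.mem_singleton]
      constructor
      · intro h3
        by_contra h5
        push Not at h5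
        exact h3 (huo j h5.1 h5.2.1 h5.2.2.1 h5.2.2.2)
      · rintro (rfl | rfl | rfl | rfl)
        · rw [hua]
          exact ha
        · rw [hub]
          exact hb
        · rw [huc]
          exact mul_ne_zero h0 hc
        · rw [hud]
          exact mul_ne_zero h02 hd'
    have huT : u ∈ 𝐓 M := by
      apply h4
      rw [hSu]
      simp [hab, hac, had, hbc, hbd, hcd]
    have hvu : ⟪v, u⟫ = 1 := by
      rw [hu, f_add_right hf, f_add_right hf, f_add_right hf, f_smul_right hf, f_smul_right hf, f_smul_right hf,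
        f_smul_right hf, form_e_right hF, form_e_right hF, form_e_right hF, form_e_right hF, map_mul, map_mul, hσ1, hσ2]
      have e1 := q2_N (hF := hF) ha
      have e2 := q2_N (hF := hF) hb
      have e3 := q2_N (hF := hF) hc
      have e4 := q2_N (hF := hF) hd'
      linear_combination e1 + e2 + ω * ω * e3 + ω * e4 + hω
    have huv : ⟪u, v⟫ = 1 := by
      rw [hf.herm, hvu, map_one]
    have hvuS : ∀ j, (v + u) j ≠ 0 → j ∈ Sup v := by
      intro j h3
      apply mem_Sup.2
      intro h5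
      apply h3
      have h6 : j ≠ a := by
        rintro rfl
        exact ha h5
      have h7 : j ≠ b := by
        rintro rfl
        exact hb h5
      have h8 : j ≠ c := by
        rintro rfl
        exact hc h5
      have h9 : j ≠ d := by
        rintro rfl
        exact hd' h5
      rw [Pi.add_apply, h5, huo j h6 h7 h8 h9, add_zero]
    have hlt : (Sup (v + u)).card < m := by
      rw [← hv]
      apply Finset.card_lt_card
      refine ⟨fun j hj => hvuS j (mem_Sup.1 hj), fun h3 => ?_⟩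
      have h5 := h3 (mem_Sup.2 ha)
      apply mem_Sup.1 h5
      rw [Pi.add_apply, hua]
      exact q2_dbl hF _
    have hvuT : v + u ∈ 𝐓 M := by
      apply ih _ hlt _ rfl
      rw [hf.add_left, f_add_right hf v v u, f_add_right hf u v u, hvv, hvu, huv, huT.1]
      linear_combination h2
    have e1 : u + (v + u) = v := by
      funext j
      rw [Pi.add_apply, Pi.add_apply]
      have := q2_dbl hF (u j)
      linear_combination this
    have h5 := Cfsg.Agent.Lib.UTIPair.TU_add hf huT hvuT (by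
      rw [f_add_right hf u v u, huv, huT.1, add_zero]
      exact one_ne_zero) (by rw [e1]; exact hvv)
    rwa [e1] at h5

/-- Overgroups of the monomial group in `SU_n(2)`. -/
theorem q2_core (hF : Fintype.card F = 2 ^ 2) {M : Subgroup (GL (Fin n) F)} (B : BCtx hF M (id : Fin n → Fin n))
    (hn : 7 ≤ n) {g : GL (Fin n) F} (hg : g ∈ M) (hnm : ¬ IsMono g) :
    ∀ v : Fin n → F, hermForm n F 2 v v = 0 → v ∈ TU (herm_unitary (n := n) hF) M := by
  classical
  have hf := herm_unitary (n := n) hF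
  obtain ⟨ω, hω⟩ := exists_omega hF
  obtain ⟨a, b, μ, hab, hμ, h3⟩ := exists_heavy hF (B.gu hg) hnm (by omega)
  have hz : (1 : F) • (𝐞 a) + μ • (𝐞 b) ∈ TU (herm_unitary (n := n) hF) M := two_T B hab one_ne_zero hμ
  rw [one_smul] at hz
  have hw := TU_conj hf (gu_pres' hF (B.gu hg)) hg hz
  set w := g ⋆ ((𝐞 a) + μ • (𝐞 b)) with hwdef
  have hev := even_of_iso hF hw.1
  have h4 : 4 ≤ (Sup w).card := by
    obtain ⟨k, hk⟩ := hev
    omega
  -- the free step
  have hfree : ∀ y ∈ TU (herm_unitary (n := n) hF) M, 4 ≤ (Sup y).card → (Sup y).card < n →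
      ∃ y' ∈ TU (herm_unitary (n := n) hF) M, (Sup y').card = 4 := by
    intro y hy h5 h6
    obtain ⟨z, hz⟩ : ∃ z, z ∉ Sup y := by
      by_contra hcon
      push Not at hcon
      have h1 : (Finset.univ : Finset (Fin n)) ⊆ Sup y := fun i _ => hcon i
      have h2 := Finset.card_le_card h1
      rw [Finset.card_univ, Fintype.card_fin] at h2
      omega
    have hyz : y z = 0 := by
      by_contra h0
      exact hz (mem_Sup.2 h0)
    set e := (Sup y).orderEmbOfCardLe h5 with he'
    have hne : ∀ i, y (e i) ≠ 0 := fun i => mem_Sup.1 (Finset.orderEmbOfCardLe_mem (Sup y) h5 i)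
    have hd : ∀ {i j : Fin 4}, i ≠ j → e i ≠ e j := fun h h' => h (e.injective h')
    have hz' : ∀ i, e i ≠ z := by
      intro i h0
      apply hne i
      rw [h0, hyz]
    exact step4 B.gu B.dg_mem hω hy (hd (i := 0) (j := 1) (by decide)) (hd (i := 0) (j := 2) (by decide))
      (hd (i := 0) (j := 3) (by decide)) (hd (i := 1) (j := 2) (by decide)) (hd (i := 1) (j := 3) (by decide))
      (hd (i := 2) (j := 3) (by decide)) (hz' 0) (hz' 1) (hz' 2) (hz' 3) (hne 0) (hne 1) (hne 2) (hne 3) hyz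
  obtain ⟨y, hy, hy4⟩ : ∃ y ∈ TU (herm_unitary (n := n) hF) M, (Sup y).card = 4 := by
    by_cases hlt : (Sup w).card < n
    · exact hfree w hw h4 hlt
    · have hle : (Sup w).card ≤ n := by
        have := Finset.card_le_univ (Sup w)
        rwa [Fintype.card_fin] at this
      have h6 : 6 ≤ (Sup w).card := by omega
      set e := (Sup w).orderEmbOfCardLe h6 with he'
      obtain ⟨y, hy, hy6⟩ := step6 B.gu B.dg_mem hω hw e e.injective
        (fun i => mem_Sup.1 (Finset.orderEmbOfCardLe_mem (Sup w) h6 i))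
      exact hfree y hy (by omega) (by omega)
  intro v hv
  apply closure₂ B hω _ _ v rfl hv
  intro v' hv'
  exact transport B hy (by rw [hy4, hv']) (by omega)

end Cfsg.Agent.Lib.H97VQ
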