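import Mathlib
import Cfsg.Agent.Lib.H97VQ
import Cfsg.Agent.Lib.GLMonBlk

/-!
# Overgroups of the stabiliser of an orthogonal decomposition in `SU_n(2)`, blocks of size at least three
-/

set_option autoImplicit false
set_option linter.unusedSectionVars false
set_option linter.unusedVariables false

namespace Cfsg.Agent.Lib.H97VR

open Matrix Cfsg Cfsg.Geo Cfsg.Agent.Lib.TvGL Cfsg.Agent.Lib.SympT Cfsg.Agent.Lib.UForm
  Cfsg.Agent.Lib.UTrans Cfsg.Agent.Lib.GLMon Cfsg.Agent.Lib.GLMonFull Cfsg.Agent.Lib.GLMonLift Cfsg.Agent.Lib.HermForm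
  Cfsg.Agent.Lib.H97VA Cfsg.Agent.Lib.H97VB Cfsg.Agent.Lib.H97VC Cfsg.Agent.Lib.H97VD
  Cfsg.Agent.Lib.H97VE Cfsg.Agent.Lib.H97VF Cfsg.Agent.Lib.H97VG Cfsg.Agent.Lib.H97VH Cfsg.Agent.Lib.H97VI
  Cfsg.Agent.Lib.H97VJ Cfsg.Agent.Lib.H97VK Cfsg.Agent.Lib.H97VL Cfsg.Agent.Lib.H97VM Cfsg.Agent.Lib.H97VN
  Cfsg.Agent.Lib.H97VO Cfsg.Agent.Lib.H97VP Cfsg.Agent.Lib.H97VQ
open Cfsg.Agent.H97.Asch (herm_unitary hermSigma hermSigma_apply)
open Cfsg.Agent.Lib.UWitt (tau_mem_K)
open scoped MatrixGroups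

local notation:70 g:71 " ⋆ " x:70 => Matrix.mulVec (Units.val g) x

variable {n : ℕ} {F : Type*} [Field F] [Fintype F]

local notation "⟪" u ", " v "⟫" => hermForm n F 2 u v

/-- The coordinate vector. -/
local notation "𝐞" i => (Pi.single i (1 : F) : Fin n → F)

variable {hF : Fintype.card F = 2 ^ 2}

local notation "σ" => hermSigma hF

local notation "𝐓" => TU (herm_unitary (n := n) hF)

variable {M : Subgroup (GL (Fin n) F)} {κ : Type} [Fintype κ] [DecidableEq κ] {c : Fin n → κ}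

/-- All vectors of weight two are centres. -/
theorem all_two (B : BCtx hF M c) (hc : Function.Surjective c)
    (hperm : ∀ p k p₁ k₁, c p ≠ c k → c p₁ ≠ c k₁ →
      ∃ (π : Equiv.Perm (Fin n)) (σ' : Equiv.Perm κ), (∀ a, c (π a) = σ' (c a)) ∧ π p = p₁ ∧ π k = k₁)
    (hk : ∀ a, ∃ b, b ≠ a ∧ c b = c a) (hn : 3 ≤ n) {g : GL (Fin n) F} (hg : g ∈ M)
    (hnb : ¬ BlockPres c g) {a b : Fin n} (hab : a ≠ b) {α β : F} (hα : α ≠ 0) (hβ : β ≠ 0) :
    α • (𝐞 a) + β • (𝐞 b) ∈ 𝐓 M := by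
  classical
  have hf := herm_unitary (n := n) hF
  have hgU := B.gu hg
  have hsel : ¬ ∀ a b (μ : F), a ≠ b → c a = c b → μ * σ μ = -1 →
      ∃ κ₀, ∀ i, c i ≠ κ₀ → (g ⋆ ((𝐞 a) + μ • (𝐞 b))) i = 0 :=
    fun h => hnb (blockPres_of_single hgU hc hk h)
  push Not at hsel
  obtain ⟨a₀, b₀, μ, hab₀, hcab, hμ, hw⟩ := hsel
  have hz : (𝐞 a₀) + μ • (𝐞 b₀) ∈ 𝐓 M := by
    have := block_two B hab₀ hcab (α := 1) (β := μ) (by
      rw [map_one, hμ]
      ring)
    rwa [one_smul] at this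
  have hwT := TU_conj hf (gu_pres' hF hgU) hg hz
  set w := g ⋆ ((𝐞 a₀) + μ • (𝐞 b₀)) with hwdef
  obtain ⟨a', ha1, ha2⟩ := hw (c a₀)
  obtain ⟨b', hb1, hb2⟩ := hw (c a')
  have hab' : a' ≠ b' := by
    rintro rfl
    exact hb1 rfl
  obtain ⟨α₀, β₀, h5, h6, h7⟩ := key_W2 B.gu B.dg_mem hwT hab' ha2 hb2 (by
    rw [q2_N (hF := hF) ha2, q2_N (hF := hF) hb2]
    exact q2_dbl hF 1)
  have h0 : α * σ α + β * σ β = 0 := by
    rw [q2_N (hF := hF) hα, q2_N (hF := hF) hβ]
    exact q2_dbl hF 1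
  by_cases hcc : c a = c b
  · exact block_two B hab hcc h0
  · exact spread B hperm hn (Ne.symm hb1) h5 h6 h7 hcc h0

/-- The permutation matrix of a transposition. -/
theorem swap_mem {a b : Fin n} (hab : a ≠ b) (hz : (𝐞 a) + (𝐞 b) ∈ 𝐓 M) :
    mon (Equiv.swap a b) (fun _ => 1) ∈ M := by
  classical
  have hf := herm_unitary (n := n) hF
  have h2 := q2_two hF
  have htr : (1 : F) + σ (1 : F) = 0 := by
    rw [map_one]
    exact q2_dbl hF 1
  obtain ⟨h0, ht⟩ := hz.2 1 htr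
  have e : tau hf ((1 : F) • ((𝐞 a) + (𝐞 b))) ((𝐞 a) + (𝐞 b)) h0 = mon (Equiv.swap a b) (fun _ => 1) := by
    apply GL_ext
    intro w
    have e1 : ⟪w, (𝐞 a) + (𝐞 b)⟫ = w a + w b := by
      rw [f_add_right hf, form_e_right hF, form_e_right hF]
    rw [tau_apply, e1, one_smul]
    funext i
    rw [mon_mulVec, Equiv.symm_swap]
    simp only [Units.val_one, one_mul, Pi.add_apply, Pi.smul_apply, smul_eq_mul]
    by_cases hia : i = a
    · subst hia
      rw [Equiv.swap_apply_left]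
      simp [Pi.single_eq_of_ne hab]
      have := q2_dbl hF (w i)
      linear_combination this
    by_cases hib : i = b
    · subst hib
      rw [Equiv.swap_apply_right]
      simp [Pi.single_eq_of_ne hia]
      have := q2_dbl hF (w i)
      linear_combination this
    · rw [Equiv.swap_apply_of_ne_of_ne hia hib]
      simp [Pi.single_eq_of_ne hia, Pi.single_eq_of_ne hib]
  rw [← e]
  exact ht

theorem mon_one_mul (π π' : Equiv.Perm (Fin n)) :
    (mon (π * π') (fun _ => 1) : GL (Fin n) F) = mon π (fun _ => 1) * mon π' (fun _ => 1) := by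
  apply GL_ext
  intro w
  rw [mulVec_mul_GL]
  funext i
  rw [mon_mulVec, mon_mulVec, mon_mulVec]
  simp [Equiv.Perm.mul_def]

theorem mon_split (π : Equiv.Perm (Fin n)) (s : Fin n → Fˣ) :
    (mon π s : GL (Fin n) F) = mon π (fun _ => 1) * dg s := by
  apply GL_ext
  intro w
  rw [mulVec_mul_GL]
  funext i
  rw [mon_mulVec, mon_mulVec, dg_mulVec]
  simp

/-- Hence the whole monomial group of `SU` lies in `M`. -/
theorem mono_mem (B : BCtx hF M c) (hall : ∀ a b : Fin n, a ≠ b → (𝐞 a) + (𝐞 b) ∈ 𝐓 M) :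
    BCtx hF M (id : Fin n → Fin n) := by
  classical
  have h2 := q2_two hF
  have hP : ∀ π : Equiv.Perm (Fin n), (mon π (fun _ => 1) : GL (Fin n) F) ∈ M := by
    intro π
    induction π using Equiv.Perm.swap_induction_on with
    | one =>
      have e : (mon (1 : Equiv.Perm (Fin n)) (fun _ => 1) : GL (Fin n) F) = 1 := by
        apply GL_ext
        intro w
        funext i
        rw [mon_mulVec]
        simp
        rfl
      rw [e]
      exact M.one_mem
    | swap_mul f x y hxy hf =>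
      rw [mon_one_mul]
      exact M.mul_mem (swap_mem hxy (hall x y hxy)) hf
  refine ⟨B.le, fun x hx hxm => ?_⟩
  obtain ⟨π, hπ⟩ := hxm
  obtain ⟨s, rfl, -⟩ := eq_mon_of_isMono (π := π) (fun a b hb => hπ a b hb)
  rw [mon_split]
  refine M.mul_mem (hP π) (B.dg_mem s (fun i => q2_N (hF := hF) (s i).ne_zero) ?_)
  have hdet : (mon π s : GL (Fin n) F) ∈ specialLinear (Fin n) F := hx.2
  rw [mem_specialLinear_iff, det_mon] at hdet
  have hsign : (((Equiv.Perm.sign π : ℤˣ) : ℤ) : F) = 1 := by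
    rcases Int.units_eq_one_or (Equiv.Perm.sign π) with h | h <;> rw [h]
    · simp
    · have := q2_dbl hF 1
      simp
      linear_combination -this
  rw [hsign, one_mul] at hdet
  apply Units.ext
  simpa using hdet

/-- Unit reflections are isometries. -/
theorem RR_mem_GU {v : Fin n → F} (hv : ⟪v, v⟫ = 1) {a : Fˣ} (ha : (a : F) * σ (a : F) = 1) :
    RR hF hv a ∈ GU n F 2 := by
  have hf := herm_unitary (n := n) hF
  intro x y
  show ⟪RR hF hv a ⋆ x, RR hF hv a ⋆ y⟫ = ⟪x, y⟫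
  rw [RR_apply, RR_apply, hf.add_left, f_add_right hf, f_add_right hf, hf.smul_left, hf.smul_left, f_smul_right hf,
    f_smul_right hf, hv, hf.herm v y, map_mul, map_sub, map_one]
  linear_combination (⟪x, v⟫ * σ (⟪y, v⟫)) * ha

/-- A non-monomial element in a block, in `M`. -/
theorem exists_nonmono (B : BCtx hF M c) {i j l f : Fin n} (hij : i ≠ j) (hil : i ≠ l) (hjl : j ≠ l)
    (hfi : f ≠ i) (hfj : f ≠ j) (hfl : f ≠ l) (hcij : c i = c j) (hcil : c i = c l) :
    ∃ x ∈ M, ¬ IsMono x := by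
  classical
  have hf := herm_unitary (n := n) hF
  have h2 := q2_two hF
  obtain ⟨ω, hω⟩ := exists_omega hF
  obtain ⟨h0, h1, h02, h12, hσ1, hσ2⟩ := omega_facts (hF := hF) hω
  set u := (𝐞 i) + (𝐞 j) + (𝐞 l) with hu
  have hui : u i = 1 := by
    simp [hu, Pi.single_eq_of_ne hij, Pi.single_eq_of_ne hil]
  have huj : u j = 1 := by
    simp [hu, Pi.single_eq_of_ne hij.symm, Pi.single_eq_of_ne hjl]
  have hul : u l = 1 := by
    simp [hu, Pi.single_eq_of_ne hil.symm, Pi.single_eq_of_ne hjl.symm]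
  have huo : ∀ b, b ≠ i → b ≠ j → b ≠ l → u b = 0 := by
    intro b h3 h4 h5
    simp [hu, Pi.single_eq_of_ne h3, Pi.single_eq_of_ne h4, Pi.single_eq_of_ne h5]
  have huu : ⟪u, u⟫ = 1 := by
    have e1 : ⟪u, u⟫ = u i + u j + u l := by
      rw [hu, f_add_right hf ((𝐞 i) + (𝐞 j) + (𝐞 l)) ((𝐞 i) + (𝐞 j)) (𝐞 l), f_add_right hf ((𝐞 i) + (𝐞 j) + (𝐞 l)) (𝐞 i) (𝐞 j),
        form_e_right hF, form_e_right hF, form_e_right hF]
    rw [e1, hui, huj, hul]
    have := q2_dbl hF 1
    linear_combination this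
  set a : Fˣ := Units.mk0 ω h0 with ha
  have hav : (a : F) = ω := rfl
  have hac : (a : F) * σ (a : F) = 1 := q2_N (hF := hF) h0
  set s : Fin n → Fˣ := ds f a⁻¹ with hs
  have hscir : ∀ i, (s i : F) * σ (s i) = 1 := fun i => q2_N (hF := hF) (s i).ne_zero
  set x := RR hF huu a * dg s with hx
  have hm1 : ω - 1 ≠ 0 := by
    intro h3
    apply h1
    linear_combination h3 + h2
  have hU : x ∈ GU n F 2 := (GU n F 2).mul_mem (RR_mem_GU huu hac) (mon_mem_GU hF 1 s hscir)
  have hSL : x ∈ specialLinear (Fin n) F := by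
    rw [mem_specialLinear_iff, hx, Units.val_mul, Matrix.det_mul]
    unfold RR
    rw [Cfsg.Agent.Lib.GLMonBlk.det_rf]
    have e1 : ((dg s : GL (Fin n) F) : Matrix (Fin n) (Fin n) F).det = ((a⁻¹ : Fˣ) : F) := by
      have e2 := det_mon (1 : Equiv.Perm (Fin n)) s
      have e3 : (mon (1 : Equiv.Perm (Fin n)) s : GL (Fin n) F) = dg s := rfl
      rw [e3] at e2
      rw [e2, Equiv.Perm.sign_one, hs, prod_ds_val]
      simp
    rw [e1]
    simp
  have hentry : ∀ b d, (x : Matrix (Fin n) (Fin n) F) b d =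
      (s d : F) * ((𝐞 d) b + ((ω - 1) * σ (u d)) * u b) := by
    intro b d
    have e1 : x ⋆ (𝐞 d) = (s d : F) • ((𝐞 d) + ((ω - 1) * σ (u d)) • u) := by
      rw [hx, mulVec_mul_GL]
      have e2 : dg s ⋆ (𝐞 d) = (s d : F) • (𝐞 d) := by
        funext k
        rw [dg_mulVec]
        by_cases hk : k = d
        · subst hk
          simp
        · simp [Pi.single_eq_of_ne hk]
      rw [e2, Matrix.mulVec_smul, RR_apply, form_e_left hF, hav]
    rw [← gu_col hF, e1]
    simp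
  refine ⟨x, B.blk _ ⟨hU, hSL⟩ ⟨1, fun d b hb => ?_⟩, ?_⟩
  · -- block preservation
    have hb' : c b ≠ c d := hb
    have hbd : b ≠ d := fun h => hb' (by rw [h])
    rw [hentry, Pi.single_eq_of_ne hbd, zero_add]
    by_cases hud : u d = 0
    · rw [hud, map_zero]
      ring
    by_cases hub : u b = 0
    · rw [hub]
      ring
    · exfalso
      have hcd : c d = c i := by
        by_contra h3
        apply hud
        apply huo
        · rintro rfl
          exact h3 rfl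
        · rintro rfl
          exact h3 hcij.symm
        · rintro rfl
          exact h3 hcil.symm
      have hcb : c b = c i := by
        by_contra h3
        apply hub
        apply huo
        · rintro rfl
          exact h3 rfl
        · rintro rfl
          exact h3 hcij.symm
        · rintro rfl
          exact h3 hcil.symm
      exact hb' (hcb.trans hcd.symm)
  · -- not monomial
    rintro ⟨π, hπ⟩
    have hsi : ((s i : Fˣ) : F) = 1 := by
      rw [hs, ds_ne _ (Ne.symm hfi)]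
      simp
    have e1 : (x : Matrix (Fin n) (Fin n) F) j i ≠ 0 := by
      rw [hentry, hsi, Pi.single_eq_of_ne (Ne.symm hij), hui, huj, map_one]
      simpa using hm1
    have e2 : (x : Matrix (Fin n) (Fin n) F) l i ≠ 0 := by
      rw [hentry, hsi, Pi.single_eq_of_ne (Ne.symm hil), hui, hul, map_one]
      simpa using hm1
    have e3 : j = π i := by
      by_contra h3
      exact e1 (hπ i j h3)
    have e4 : l = π i := by
      by_contra h3
      exact e2 (hπ i l h3)
    exact hjl (e3.trans e4.symm)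

/-- The case `q = 2`, blocks of size at least three. -/
theorem q2_block (B : BCtx hF M c) (hc : Function.Surjective c)
    (hperm : ∀ p k p₁ k₁, c p ≠ c k → c p₁ ≠ c k₁ →
      ∃ (π : Equiv.Perm (Fin n)) (σ' : Equiv.Perm κ), (∀ a, c (π a) = σ' (c a)) ∧ π p = p₁ ∧ π k = k₁)
    (hk : ∀ a, ∃ b, b ≠ a ∧ c b = c a) (hn : 7 ≤ n) {i j l f : Fin n} (hij : i ≠ j) (hil : i ≠ l) (hjl : j ≠ l)
    (hfi : f ≠ i) (hfj : f ≠ j) (hfl : f ≠ l) (hcij : c i = c j) (hcil : c i = c l)
    {g : GL (Fin n) F} (hg : g ∈ M) (hnb : ¬ BlockPres c g) : ∀ v : Fin n → F, ⟪v, v⟫ = 0 → v ∈ 𝐓 M := by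
  have hall : ∀ a b : Fin n, a ≠ b → (𝐞 a) + (𝐞 b) ∈ 𝐓 M := by
    intro a b hab
    have := all_two B hc hperm hk (by omega) hg hnb hab (α := 1) (β := 1) one_ne_zero one_ne_zero
    rwa [one_smul, one_smul] at this
  obtain ⟨x, hx, hxm⟩ := exists_nonmono B hij hil hjl hfi hfj hfl hcij hcil
  exact q2_core hF (mono_mem B hall) hn hx hxm

end Cfsg.Agent.Lib.H97VR
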