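import Mathlib
import Cfsg.Agent.Lib.H97VR
import Cfsg.Agent.Lib.GLMonDec
import Cfsg.Agent.Lib.HermOrtho

/-!
# Maximality in `SU` of the stabiliser of an orthogonal decomposition: the coordinate version and the transfer
-/

set_option autoImplicit false
set_option linter.unusedSectionVars false
set_option linter.unusedVariables false

namespace Cfsg.Agent.Lib.H97VS

open Matrix Cfsg Cfsg.Geo Cfsg.Agent.Lib.TvGL Cfsg.Agent.Lib.SympT Cfsg.Agent.Lib.UForm
  Cfsg.Agent.Lib.UTrans Cfsg.Agent.Lib.GLMon Cfsg.Agent.Lib.GLMonFull Cfsg.Agent.Lib.GLMonLift Cfsg.Agent.Lib.HermForm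
  Cfsg.Agent.Lib.H97VA Cfsg.Agent.Lib.H97VB Cfsg.Agent.Lib.H97VC Cfsg.Agent.Lib.H97VD
  Cfsg.Agent.Lib.H97VE Cfsg.Agent.Lib.H97VF Cfsg.Agent.Lib.H97VG Cfsg.Agent.Lib.H97VH Cfsg.Agent.Lib.H97VI
  Cfsg.Agent.Lib.H97VJ Cfsg.Agent.Lib.H97VK Cfsg.Agent.Lib.H97VL Cfsg.Agent.Lib.H97VM Cfsg.Agent.Lib.H97VN
  Cfsg.Agent.Lib.H97VO Cfsg.Agent.Lib.H97VP Cfsg.Agent.Lib.H97VQ Cfsg.Agent.Lib.H97VR Cfsg.Agent.Lib.GLMonDec
  Cfsg.Agent.Lib.HermOrtho Module
open Cfsg.Agent.H97.Asch (herm_unitary hermSigma hermSigma_apply)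
open Cfsg.Agent.Lib.UWitt (tau_mem_K)
open scoped MatrixGroups

local notation:70 g:71 " ⋆ " x:70 => Matrix.mulVec (Units.val g) x

variable {n : ℕ} {F : Type*} [Field F] [Fintype F] {q : ℕ}

local notation "⟪" u ", " v "⟫" => hermForm n F q u v

/-- The coordinate vector. -/
local notation "𝐞" i => (Pi.single i (1 : F) : Fin n → F)

variable {t k : ℕ}

/-- The coordinate form of the maximality statement. -/
theorem main_coords (hF : Fintype.card F = q ^ 2) (hn : 13 ≤ n) (e : Fin n ≃ Fin t × Fin k) (hk0 : 0 < k)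
    (hex : ¬ (k = 2 ∧ q = 2)) {M : Subgroup (GL (Fin n) F)} (hle : M ≤ GU n F q ⊓ specialLinear (Fin n) F)
    (hH : ∀ x, x ∈ GU n F q ⊓ specialLinear (Fin n) F → BlockPres (cc e) x → x ∈ M) {g : GL (Fin n) F} (hg : g ∈ M)
    (hgb : ¬ BlockPres (cc e) g) : GU n F q ⊓ specialLinear (Fin n) F ≤ M := by
  classical
  have h2q := q_two_le hF
  have B : BCtx hF M (cc e) := ⟨hle, hH⟩
  have hperm : ∀ p k' p₁ k₁, cc e p ≠ cc e k' → cc e p₁ ≠ cc e k₁ →
      ∃ (π : Equiv.Perm (Fin n)) (σ' : Equiv.Perm (Fin t)), (∀ a, cc e (π a) = σ' (cc e a)) ∧ π p = p₁ ∧ π k' = k₁ :=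
    fun p k' p₁ k₁ h h' => block_perm e h h'
  apply su_le hF (by omega) (by omega)
  by_cases hk1 : k = 1
  · subst hk1
    let ec : Fin n ≃ Fin t := e.trans (Equiv.prodUnique (Fin t) (Fin 1))
    have hec : ∀ a, ec a = cc e a := fun a => rfl
    have hB : ∀ x : GL (Fin n) F, BlockPres (cc e) x ↔ IsMono x := by
      intro x
      constructor
      · rintro ⟨σ, hσ⟩
        refine ⟨ec.trans (σ.trans ec.symm), fun a b hb => hσ a b ?_⟩
        intro h
        apply hb
        apply ec.injective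
        simp only [Equiv.trans_apply, Equiv.apply_symm_apply]
        rw [hec, hec, h]
      · rintro ⟨π, hπ⟩
        refine ⟨ec.symm.trans (π.trans ec), fun a b hb => hπ a b ?_⟩
        intro h
        apply hb
        simp only [Equiv.trans_apply]
        rw [h, ← hec, ← hec]
        simp
    have B' : BCtx hF M (id : Fin n → Fin n) := ⟨hle, fun x hx hm => hH x hx ((hB x).2 hm)⟩
    have hnm : ¬ IsMono g := fun h => hgb ((hB g).2 h)
    by_cases hq3 : 3 ≤ q
    · exact mono_case B' hq3 hn hg hnm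
    · obtain rfl : q = 2 := by omega
      exact q2_core hF B' (by omega) hg hnm
  · -- blocks of size at least two
    have hk2 : 2 ≤ k := by omega
    have hfib : ∀ p : Fin n, ∃ p', p' ≠ p ∧ cc e p' = cc e p := by
      intro p
      obtain ⟨d, hd⟩ : ∃ d : Fin k, d ≠ (e p).2 := by
        by_cases h0 : (e p).2 = ⟨0, by omega⟩
        · exact ⟨⟨1, by omega⟩, by rw [h0]; simp [Fin.ext_iff]⟩
        · exact ⟨⟨0, by omega⟩, Ne.symm h0⟩
      refine ⟨e.symm ((e p).1, d), ?_, by simp [cc]⟩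
      intro h
      apply hd
      have := congrArg (fun z => (e z).2) h
      simpa using this
    by_cases hq3 : 3 ≤ q
    · exact block_case B (cc_surj e hk0) hperm hfib hq3 (by omega) hg hgb
    · obtain rfl : q = 2 := by omega
      have hk3 : 3 ≤ k := by
        by_contra h0
        exact hex ⟨by omega, rfl⟩
      -- three coordinates in one block
      set κ₀ := (e ⟨0, by omega⟩).1 with hκ₀
      set i := e.symm (κ₀, ⟨0, by omega⟩) with hi
      set j := e.symm (κ₀, ⟨1, by omega⟩) with hj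
      set l := e.symm (κ₀, ⟨2, by omega⟩) with hl
      have hij : i ≠ j := by
        intro h
        have := e.symm.injective h
        simp [Prod.ext_iff, Fin.ext_iff] at this
      have hil : i ≠ l := by
        intro h
        have := e.symm.injective h
        simp [Prod.ext_iff, Fin.ext_iff] at this
      have hjl : j ≠ l := by
        intro h
        have := e.symm.injective h
        simp [Prod.ext_iff, Fin.ext_iff] at this
      have hci : cc e i = κ₀ := by simp [cc, hi]
      have hcj : cc e j = κ₀ := by simp [cc, hj]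
      have hcl : cc e l = κ₀ := by simp [cc, hl]
      obtain ⟨f, hf⟩ : ∃ f, f ∉ ({i, j, l} : Finset (Fin n)) := by
        by_contra h3
        push Not at h3
        have h4 : (Finset.univ : Finset (Fin n)) ⊆ {i, j, l} := fun y _ => h3 y
        have h5 := Finset.card_le_card h4
        have h6 : ({i, j, l} : Finset (Fin n)).card ≤ 3 := Finset.card_le_three
        rw [Finset.card_univ, Fintype.card_fin] at h5
        omega
      simp only [Finset.mem_insert, Finset.mem_singleton, not_or] at hf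
      exact q2_block B (cc_surj e hk0) hperm hfib (by omega) hij hil hjl hf.1 hf.2.1 hf.2.2 (hci.trans hcj.symm)
        (hci.trans hcl.symm) hg hgb

/-- An element of `SU` which does not preserve the blocks. -/
theorem exists_not_block (hF : Fintype.card F = q ^ 2) (hn : 13 ≤ n) (e : Fin n ≃ Fin t × Fin k) (ht : 2 ≤ t)
    (hk0 : 0 < k) : ∃ y ∈ GU n F q ⊓ specialLinear (Fin n) F, ¬ BlockPres (cc e) y := by
  classical
  have hf := herm_unitary (n := n) hF
  obtain ⟨μ, hμ⟩ := exists_norm hf (a := (-1 : F)) (by simp)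
  have hμ0 : μ ≠ 0 := by
    rintro rfl
    have : (0 : F) = -1 := by simpa using hμ
    exact neg_ne_zero.2 one_ne_zero this.symm
  obtain ⟨c₀, hc₀, hc₀t⟩ := exists_traceless hf
  set i₀ : Fin t := ⟨0, by omega⟩ with hi₀
  set j₀ : Fin t := ⟨1, by omega⟩ with hj₀
  have hij : i₀ ≠ j₀ := by simp [hi₀, hj₀, Fin.ext_iff]
  set b := e.symm (i₀, ⟨0, hk0⟩) with hb
  set c := e.symm (j₀, ⟨0, hk0⟩) with hc
  have hcb : cc e b = i₀ := by simp [cc, hb]
  have hcc : cc e c = j₀ := by simp [cc, hc]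
  have hbc : b ≠ c := by
    intro h
    apply hij
    rw [← hcb, ← hcc, h]
  obtain ⟨a, hab, hac⟩ := exists_third (ι := Fin n) (by simp; omega) b c
  obtain ⟨d, hd⟩ : ∃ d, d ∉ ({a, b, c} : Finset (Fin n)) := by
    by_contra h3
    push Not at h3
    have h4 : (Finset.univ : Finset (Fin n)) ⊆ {a, b, c} := fun y _ => h3 y
    have h5 := Finset.card_le_card h4
    have h6 : ({a, b, c} : Finset (Fin n)).card ≤ 3 := Finset.card_le_three
    rw [Finset.card_univ, Fintype.card_fin] at h5
    omega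
  simp only [Finset.mem_insert, Finset.mem_singleton, not_or] at hd
  obtain ⟨hda, hdb, hdc⟩ := hd
  set z₁ := (1 : F) • (𝐞 a) + μ • (𝐞 b) with hz₁
  set z₂ := (1 : F) • (𝐞 c) + μ • (𝐞 d) with hz₂
  set z := z₁ + z₂ with hz
  have hza : z a = 1 := by
    simp [hz, hz₁, hz₂, Pi.single_eq_of_ne hab, Pi.single_eq_of_ne hac, Pi.single_eq_of_ne (Ne.symm hda)]
  have hzb : z b = μ := by
    simp [hz, hz₁, hz₂, Pi.single_eq_of_ne (Ne.symm hab), Pi.single_eq_of_ne hbc, Pi.single_eq_of_ne (Ne.symm hdb)]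
  have hzc : z c = 1 := by
    simp [hz, hz₁, hz₂, Pi.single_eq_of_ne (Ne.symm hac), Pi.single_eq_of_ne (Ne.symm hbc),
      Pi.single_eq_of_ne (Ne.symm hdc)]
  have hzd : z d = μ := by
    simp [hz, hz₁, hz₂, Pi.single_eq_of_ne hda, Pi.single_eq_of_ne hdb, Pi.single_eq_of_ne hdc]
  have hzz : ⟪z, z⟫ = 0 := by
    have e1 : ⟪z, z⟫ = (1 * hermSigma hF (z a) + μ * hermSigma hF (z b)) +
        (1 * hermSigma hF (z c) + μ * hermSigma hF (z d)) := by
      rw [show ⟪z, z⟫ = ⟪z₁ + z₂, z⟫ from rfl, hf.add_left, hz₁, hz₂, form_two_left (hF := hF), form_two_left (hF := hF)]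
    rw [e1, hza, hzb, hzc, hzd, map_one, hμ]
    ring
  have h0 : ⟪c₀ • z, z⟫ = 0 := by rw [hf.smul_left, hzz, mul_zero]
  refine ⟨tau hf (c₀ • z) z h0, tau_mem_K hF hzz hc₀t h0, ?_⟩
  have hentry : ∀ b' : Fin n, b' ≠ a → ((tau hf (c₀ • z) z h0 : GL (Fin n) F) : Matrix (Fin n) (Fin n) F) b' a =
      c₀ * z b' := by
    intro b' hb'
    have h1 := tau_apply hf (c₀ • z) z h0 (𝐞 a)
    have h3 := congrFun h1 b'
    rw [Matrix.mulVec_single_one, Matrix.col_apply] at h3
    rw [h3, form_e_left hF, hza, map_one]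
    simp [Pi.single_eq_of_ne hb']
  rintro ⟨π, hπ⟩
  have e1 : cc e b = π (cc e a) := by
    by_contra h3
    have := hπ a b h3
    rw [hentry b (Ne.symm hab), hzb] at this
    exact (mul_ne_zero hc₀ hμ0) this
  have e2 : cc e c = π (cc e a) := by
    by_contra h3
    have := hπ a c h3
    rw [hentry c (Ne.symm hac), hzc, mul_one] at this
    exact hc₀ this
  apply hij
  rw [← hcb, ← hcc, e1, e2]

/-- An orthonormal basis adapted to a non-degenerate decomposition. -/
theorem exists_ortho (hF : Fintype.card F = q ^ 2) (hn : 13 ≤ n) {D : Fin t → Submodule F (Fin n → F)}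
    (hD : IsNondegenerateMDecomposition (hermForm n F q) k D) :
    ∃ (e : Fin n ≃ Fin t × Fin k) (B : Basis (Fin n) F (Fin n → F)),
      (∀ a, B a ∈ D (e a).1) ∧ (∀ a b, ⟪B a, B b⟫ = if a = b then 1 else 0) ∧
      (∀ w i, w ∈ D i → ∀ a, (e a).1 ≠ i → B.repr w a = 0) := by
  classical
  have hf := herm_unitary (n := n) hF
  obtain ⟨e, -, -, -⟩ := exists_adapted hD.decomp
  have hND : ∀ i, ND q (D i) := by
    intro i u hu h0
    by_contra hu0
    obtain ⟨x, hx, hne⟩ := (hD.nondegenerate i u hu hu0).2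
    exact hne (h0 x hx)
  choose c hc hco using fun i => exists_orthonormal hF k (D i) (hD.decomp.finrank_eq i) (hND i)
  set b : Fin n → (Fin n → F) := fun a => c (e a).1 (e a).2 with hb
  have hb1 : ∀ a, b a ∈ D (e a).1 := fun a => hc _ _
  have horth : ∀ a a', ⟪b a, b a'⟫ = if a = a' then 1 else 0 := by
    intro a a'
    by_cases h1 : (e a).1 = (e a').1
    · have h3 : b a' = c (e a).1 (e a').2 := by
        simp only [hb]
        rw [h1]
      rw [h3]
      simp only [hb]
      rw [hco]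
      by_cases h4 : (e a).2 = (e a').2
      · have h5 : a = a' := e.injective (Prod.ext h1 h4)
        rw [if_pos h4, if_pos h5]
      · have h5 : a ≠ a' := by
          rintro rfl
          exact h4 rfl
        rw [if_neg h4, if_neg h5]
    · have h5 : a ≠ a' := by
        rintro rfl
        exact h1 rfl
      rw [if_neg h5]
      exact hD.orthogonal _ _ h1 _ (hb1 a) _ (hb1 a')
  have hli : LinearIndependent F b := by
    rw [Fintype.linearIndependent_iff]
    intro g hg i
    have h1 := congrArg (fun z => hermForm n F q z (b i)) hg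
    simp only [herm_sum_left, hermForm_smul_left, horth, hermForm_zero_left] at h1
    simpa using h1
  haveI : Nonempty (Fin n) := ⟨⟨0, by omega⟩⟩
  have hcard : Fintype.card (Fin n) = finrank F (Fin n → F) := by simp
  set B := basisOfLinearIndependentOfCardEqFinrank hli hcard with hB
  have hBb : ∀ a, B a = b a := fun a => by rw [hB, coe_basisOfLinearIndependentOfCardEqFinrank]
  refine ⟨e, B, fun a => by rw [hBb]; exact hb1 a, fun a a' => by rw [hBb, hBb]; exact horth a a', ?_⟩
  intro w i hw a ha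
  have h1 : ⟪w, B a⟫ = B.repr w a := by
    conv_lhs => rw [← B.sum_repr w]
    rw [herm_sum_left, Finset.sum_eq_single a]
    · rw [hermForm_smul_left, hBb, horth, if_pos rfl, mul_one]
    · intro x _ hx
      rw [hermForm_smul_left, hBb, hBb, horth, if_neg hx, mul_zero]
    · simp
  rw [← h1]
  rw [hBb]
  exact hD.orthogonal _ _ (Ne.symm ha) _ hw _ (hb1 a)

/-- An orthonormal basis gives an isometry. -/
theorem matOf_mem_GU (hF : Fintype.card F = q ^ 2) {B : Basis (Fin n) F (Fin n → F)}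
    (hB : ∀ a b, ⟪B a, B b⟫ = if a = b then 1 else 0) : matOf B ∈ GU n F q := by
  classical
  intro x y
  show ⟪matOf B ⋆ x, matOf B ⋆ y⟫ = ⟪x, y⟫
  rw [matOf_mulVec, matOf_mulVec, herm_sum_left]
  unfold hermForm
  apply Finset.sum_congr rfl
  intro a _
  have h1 : hermForm n F q (x a • B a) (∑ b, y b • B b) = x a * (y a) ^ q := by
    rw [herm_sum_right hF, Finset.sum_eq_single a]
    · rw [hermForm_smul_left, hermForm_smul_right, hB, if_pos rfl, mul_one]
    · intro b _ hb
      rw [hermForm_smul_left, hermForm_smul_right, hB, if_neg (Ne.symm hb), mul_zero, mul_zero]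
    · simp
  exact h1

theorem conj_K {P : GL (Fin n) F} (hP : P ∈ GU n F q) {y : GL (Fin n) F} (hy : y ∈ GU n F q ⊓ specialLinear (Fin n) F) :
    P * y * P⁻¹ ∈ GU n F q ⊓ specialLinear (Fin n) F := by
  refine ⟨(GU n F q).mul_mem ((GU n F q).mul_mem hP hy.1) ((GU n F q).inv_mem hP), ?_⟩
  have : P⁻¹ * (P * y * P⁻¹) * P = y := by group
  have h2 := (conj_mem_SL P (P * y * P⁻¹)).1 (by rw [this]; exact hy.2)
  exact h2

end Cfsg.Agent.Lib.H97VS
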