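import Mathlib
import Cfsg.Agent.Lib.OmBlk5

/-!
# Orthogonal decompositions in all characteristics: components, reflections classes, Siegel elements from pairs
-/

set_option autoImplicit false
set_option linter.unusedSectionVars false
set_option linter.unusedVariables false

namespace Cfsg.Agent.Lib.H97WA

open Matrix QuadraticMap Cfsg Cfsg.Geo Module
open Cfsg.Agent.Lib.OrthoBasic Cfsg.Agent.Lib.OrthoSiegel Cfsg.Agent.Lib.OmCalc Cfsg.Agent.Lib.TvGL
  Cfsg.Agent.Lib.OmPerp Cfsg.Agent.Lib.OmNd Cfsg.Agent.Lib.OmK Cfsg.Agent.Lib.OmPair Cfsg.Agent.Lib.OmBlk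
open Cfsg.Agent.Lib.OrthGroup Cfsg.Agent.Lib.OrthOmega
open Cfsg.Agent.Lib.SympT (GL_ext mulVec_mul_GL mulVec_inv_GL inv_mulVec_GL linOf linOf_apply)
open Cfsg.Agent.Lib.QuadFF (polar_sm_r polar_sm_l Q_ad Q_sm IsHyp ND restr polar_restr exists_singular)

local notation:70 g:71 " ⋆ " x:70 => Matrix.mulVec (Units.val g) x

variable {ι : Type} [Fintype ι] [DecidableEq ι] {F : Type*} [Field F] [Fintype F]
  {Q : QuadraticForm F (ι → F)} {P P' : Submodule F (ι → F)} {hQ : Nondeg Q} {M : Subgroup (GL ι F)}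

theorem r_eq (v x : ι → F) : refl Q v x = x - ((Q v)⁻¹ * polar Q x v) • v := refl_apply Q v x

theorem r_perp {v x : ι → F} (h : polar Q x v = 0) : refl Q v x = x := by
  rw [r_eq, h]
  simp

theorem pol2 (x : ι → F) : polar Q x x = 2 * Q x := by
  rw [QuadraticMap.polar_self, two_smul, ← two_mul]

theorem r_iso (v x : ι → F) : Q (refl Q v x) = Q x := refl_mem Q v x

theorem r_polar (v x y : ι → F) : polar Q (refl Q v x) (refl Q v y) = polar Q x y := by
  rw [polar, polar, ← map_add, r_iso, r_iso, r_iso]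

/-- The data of an orthogonal decomposition. -/
structure Dc (hQ : Nondeg Q) {t : ℕ} (D : Fin t → Submodule F (ι → F)) : Prop where
  hp : ∀ l, OPair Q (D l) (perpQ Q (D l))
  hle : ∀ i j, i ≠ j → D i ≤ perpQ Q (D j)
  hsep : ∀ x, (∀ l, x ∈ perpQ Q (D l)) → x = 0

section Pr

variable {t : ℕ} {D : Fin t → Submodule F (ι → F)}

/-- The component in a block. -/
noncomputable def pr (C : Dc hQ D) (l : Fin t) (x : ι → F) : ι → F := Classical.choose ((C.hp l).decomp x)

variable (C : Dc hQ D)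
include C

theorem pr_mem (l : Fin t) (x : ι → F) : pr C l x ∈ D l := (Classical.choose_spec ((C.hp l).decomp x)).1

theorem sub_pr_mem (l : Fin t) (x : ι → F) : x - pr C l x ∈ perpQ Q (D l) := by
  obtain ⟨h, z, hz, e⟩ := Classical.choose_spec ((C.hp l).decomp x)
  have : x - pr C l x = z := by
    rw [sub_eq_iff_eq_add']
    exact e
  rw [this]
  exact hz

theorem pr_eq {l : Fin t} {x a : ι → F} (ha : a ∈ D l) (h : x - a ∈ perpQ Q (D l)) : pr C l x = a := by
  have h1 : pr C l x - a ∈ D l := (D l).sub_mem (pr_mem C l x) ha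
  have h2 : pr C l x - a ∈ perpQ Q (D l) := by
    have := (perpQ Q (D l)).sub_mem h (sub_pr_mem C l x)
    convert this using 1
    abel
  exact sub_eq_zero.1 ((C.hp l).eq_zero h1 h2)

theorem pr_of_mem {l : Fin t} {z : ι → F} (hz : z ∈ D l) : pr C l z = z :=
  pr_eq C hz (by simp)

theorem pr_of_perp {l : Fin t} {x : ι → F} (hx : x ∈ perpQ Q (D l)) : pr C l x = 0 :=
  pr_eq C (D l).zero_mem (by simpa using hx)

theorem perp_of_pr {l : Fin t} {x : ι → F} (hx : pr C l x = 0) : x ∈ perpQ Q (D l) := by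
  have := sub_pr_mem C l x
  rwa [hx, sub_zero] at this

theorem pr_other {l j : Fin t} (hlj : j ≠ l) {z : ι → F} (hz : z ∈ D j) : pr C l z = 0 :=
  pr_of_perp C (C.hle j l hlj hz)

theorem pr_add (l : Fin t) (x y : ι → F) : pr C l (x + y) = pr C l x + pr C l y := by
  refine pr_eq C ((D l).add_mem (pr_mem C l x) (pr_mem C l y)) ?_
  have := (perpQ Q (D l)).add_mem (sub_pr_mem C l x) (sub_pr_mem C l y)
  convert this using 1
  abel

theorem pr_smul (l : Fin t) (c : F) (x : ι → F) : pr C l (c • x) = c • pr C l x := by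
  refine pr_eq C ((D l).smul_mem c (pr_mem C l x)) ?_
  have := (perpQ Q (D l)).smul_mem c (sub_pr_mem C l x)
  rwa [smul_sub] at this

theorem pr_zero (l : Fin t) : pr C l 0 = 0 := pr_of_mem C (D l).zero_mem

theorem pr_neg (l : Fin t) (x : ι → F) : pr C l (-x) = - pr C l x := by
  have := pr_smul C l (-1) x
  simpa using this

theorem pr_sub (l : Fin t) (x y : ι → F) : pr C l (x - y) = pr C l x - pr C l y := by
  rw [sub_eq_add_neg, pr_add, pr_neg, sub_eq_add_neg]

theorem polar_pr {l : Fin t} (x : ι → F) {z : ι → F} (hz : z ∈ D l) : polar Q x z = polar Q (pr C l x) z := by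
  have h1 := mem_perpQ.1 (sub_pr_mem C l x) z hz
  rw [polar_comm, polar_sub_left, sub_eq_zero] at h1
  exact h1

theorem polar_orth {i j : Fin t} (hij : i ≠ j) {x y : ι → F} (hx : x ∈ D i) (hy : y ∈ D j) : polar Q x y = 0 :=
  mem_perpQ.1 (C.hle i j hij hx) y hy |> fun h => by rw [polar_comm]; exact h

theorem polar_of_pr {l : Fin t} {x z : ι → F} (h : pr C l x = 0) (hz : z ∈ D l) : polar Q x z = 0 := by
  rw [polar_pr C x hz, h, polar_zero_left]

theorem exists_pr_ne {x : ι → F} (hx : x ≠ 0) : ∃ l, pr C l x ≠ 0 := by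
  by_contra hcon
  push Not at hcon
  exact hx (C.hsep x (fun l => perp_of_pr C (hcon l)))

theorem eq_of_pr {x y : ι → F} (h : ∀ l, pr C l x = pr C l y) : x = y := by
  apply sub_eq_zero.1
  apply C.hsep
  intro l
  apply perp_of_pr C
  rw [pr_sub, h, sub_self]

theorem Q_pr (l : Fin t) (x : ι → F) : Q x = Q (pr C l x) + Q (x - pr C l x) := by
  have h1 : polar Q (pr C l x) (x - pr C l x) = 0 := mem_perpQ.1 (sub_pr_mem C l x) _ (pr_mem C l x)
  have h2 := Q_ad Q (pr C l x) (x - pr C l x)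
  rw [h1, add_zero, add_sub_cancel] at h2
  exact h2

theorem pr_sum (m : Fin t) {κ : Type*} (S : Finset κ) (x : κ → ι → F) :
    pr C m (∑ l ∈ S, x l) = ∑ l ∈ S, pr C m (x l) := by
  classical
  induction S using Finset.induction_on with
  | empty => simp [pr_zero C]
  | insert a S ha ih => rw [Finset.sum_insert ha, Finset.sum_insert ha, pr_add, ih]

theorem eq_sum_pr (y : ι → F) : y = ∑ l, pr C l y := by
  classical
  apply eq_of_pr C
  intro m
  rw [pr_sum, Finset.sum_eq_single m]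
  · rw [pr_of_mem C (pr_mem C m y)]
  · intro b _ hb
    exact pr_other C hb (pr_mem C b y)
  · intro h
    exact absurd (Finset.mem_univ m) h

theorem block_unique {x : ι → F} {l l' : Fin t} (hx0 : x ≠ 0) (h : x ∈ D l) (h' : x ∈ D l') : l = l' := by
  by_contra hne
  apply hx0
  rw [← pr_of_mem C h']
  exact pr_other C hne h

/-- Norm as a sum of the norms of the components. -/
theorem Q_sum_pr (y : ι → F) : Q y = ∑ l, Q (pr C l y) := by
  classical
  have key : ∀ S : Finset (Fin t), Q (∑ l ∈ S, pr C l y) = ∑ l ∈ S, Q (pr C l y) := by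
    intro S
    induction S using Finset.induction_on with
    | empty => simp
    | insert a S ha ih =>
      rw [Finset.sum_insert ha, Finset.sum_insert ha, Q_ad, ih]
      have : polar Q (pr C a y) (∑ l ∈ S, pr C l y) = 0 := by
        rw [polar_comm]
        apply polar_of_pr C _ (pr_mem C a y)
        rw [pr_sum, Finset.sum_eq_zero]
        intro x hx
        refine pr_other C ?_ (pr_mem C x y)
        rintro rfl
        exact ha hx
      rw [this, add_zero]
  conv_lhs => rw [eq_sum_pr C y]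
  exact key _

/-- A vector of non-zero norm has a component of non-zero norm. -/
theorem exists_Q_pr_ne {y : ι → F} (h : Q y ≠ 0) : ∃ l, Q (pr C l y) ≠ 0 := by
  by_contra hcon
  push Not at hcon
  apply h
  rw [Q_sum_pr C y]
  exact Finset.sum_eq_zero (fun l _ => hcon l)

/-- Membership in a block through components. -/
theorem mem_of_pr {x : ι → F} {l : Fin t} (h : ∀ j, j ≠ l → pr C j x = 0) : x ∈ D l := by
  have : x = pr C l x := by
    apply eq_of_pr C
    intro j
    by_cases hj : j = l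
    · rw [hj, pr_of_mem C (pr_mem C l x)]
    · rw [h j hj, pr_other C (Ne.symm hj) (pr_mem C l x)]
  rw [this]
  exact pr_mem C l x

/-- A vector not in a block has a non-zero component away from any given block. -/
theorem exists_pr_other {x : ι → F} {l : Fin t} (h : x ∉ D l) : ∃ j, j ≠ l ∧ pr C j x ≠ 0 := by
  by_contra hcon
  push Not at hcon
  exact h (mem_of_pr C hcon)

theorem pr_mulVec_perp {x : ι → F} {l : Fin t} (hx : x ∈ perpQ Q (D l)) {y : ι → F} (hy : y ∈ D l) :
    polar Q y x = 0 := mem_perpQ.1 hx y hy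

theorem ne_zero_of_pr {x : ι → F} {l : Fin t} (h : pr C l x ≠ 0) : x ≠ 0 := by
  rintro rfl
  exact h (pr_zero C l)

end Pr

/-! ### The class relation -/

/-- Two vectors of the same non-zero norm whose reflections have a product in `M`. -/
def Cl (Q : QuadraticForm F (ι → F)) (M : Subgroup (GL ι F)) (u v : ι → F) : Prop :=
  Q u = Q v ∧ Q u ≠ 0 ∧ ∃ t ∈ M, ∀ x, t ⋆ x = refl Q u (refl Q v x)

theorem Cl_self {u : ι → F} (h : Q u ≠ 0) : Cl Q M u u :=
  ⟨rfl, h, 1, M.one_mem, fun x => by rw [refl_refl, Units.val_one, Matrix.one_mulVec]⟩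

theorem Cl.symm {u v : ι → F} (h : Cl Q M u v) : Cl Q M v u := by
  obtain ⟨h1, h2, t, ht, h3⟩ := h
  refine ⟨h1.symm, by rwa [← h1], t⁻¹, M.inv_mem ht, fun x => ?_⟩
  have e := h3 (refl Q v (refl Q u x))
  rw [refl_refl, refl_refl] at e
  conv_lhs => rw [← e]
  rw [inv_mulVec_GL]

theorem Cl.trans {u v w : ι → F} (h : Cl Q M u v) (h' : Cl Q M v w) : Cl Q M u w := by
  obtain ⟨h1, h2, t, ht, h3⟩ := h
  obtain ⟨h1', h2', t', ht', h3'⟩ := h'
  refine ⟨h1.trans h1', h2, t * t', M.mul_mem ht ht', fun x => ?_⟩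
  rw [mulVec_mul_GL, h3, h3', refl_refl]

/-- Conjugating a reflection. -/
theorem mul_refl {g : GL ι F} (hg : ∀ v, Q (g ⋆ v) = Q v) (v y : ι → F) :
    g ⋆ (refl Q v y) = refl Q (g ⋆ v) (g ⋆ y) := by
  rw [r_eq, r_eq, Matrix.mulVec_sub, Matrix.mulVec_smul, polar_iso hg, hg]

theorem Cl.conj {g : GL ι F} (hg : ∀ v, Q (g ⋆ v) = Q v) (hgM : g ∈ M) {u v : ι → F} (h : Cl Q M u v) :
    Cl Q M (g ⋆ u) (g ⋆ v) := by
  obtain ⟨h1, h2, t, ht, h3⟩ := h
  refine ⟨by rw [hg, hg, h1], by rwa [hg], g * t * g⁻¹, M.mul_mem (M.mul_mem hgM ht) (M.inv_mem hgM), fun x => ?_⟩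
  rw [mulVec_mul_GL, mulVec_mul_GL, h3, mul_refl hg, mul_refl hg, mulVec_inv_GL]

/-- The image of one class member under the reflection in another stays in the class. -/
theorem Cl.refl_image {u v : ι → F} (h : Cl Q M u v) : Cl Q M (refl Q u v) v := by
  obtain ⟨h1, h2, t, ht, h3⟩ := h
  have hQ' : Q (refl Q u v) = Q v := r_iso u v
  have hv : Q v ≠ 0 := by rwa [← h1]
  refine ⟨hQ', by rwa [hQ'], t * t, M.mul_mem ht ht, fun x => ?_⟩
  rw [mulVec_mul_GL, h3, h3]
  have e : ∀ y, refl Q (refl Q u v) y = refl Q u (refl Q v (refl Q u y)) := by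
    intro y
    have h5 : refl Q u ∈ O Q := refl_mem Q u
    have h6 := congrArg (fun f => f y) (conj_refl h5 v)
    simp only [LinearEquiv.mul_apply] at h6
    rw [← h6]
    congr 3
  rw [e]

/-- A Siegel transformation from a pair in a class. -/
theorem siegel_of_Cl {u z : ι → F} (h : Cl Q M u (u - z)) (hz : Q z = 0) (huz : polar Q u z = 0) :
    R hQ M z (-(Q u)⁻¹ • u) := by
  obtain ⟨h1, h2, t, ht, h3⟩ := h
  have hzu : polar Q z (-(Q u)⁻¹ • u) = 0 := by
    rw [polar_sm_r, polar_comm, huz, mul_zero]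
  refine R_of_mem hQ hz hzu ht (fun x => ?_)
  rw [h3, siegelLin_apply, r_eq (u - z) x, r_eq u, ← h1]
  have e1 : polar Q x (u - z) = polar Q x u - polar Q x z := polar_sub_right _ _ _ _
  have e2 : polar Q (x - ((Q u)⁻¹ * (polar Q x u - polar Q x z)) • (u - z)) u
      = polar Q x u - (Q u)⁻¹ * (polar Q x u - polar Q x z) * (2 * Q u) := by
    rw [polar_sub_left, polar_sm_l, polar_sub_left, pol2, polar_comm Q z u, huz, sub_zero]
  have e3 : polar Q x (-(Q u)⁻¹ • u) = -(Q u)⁻¹ * polar Q x u := polar_sm_r _ _ _ _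
  have e4 : Q (-(Q u)⁻¹ • u) = (Q u)⁻¹ := by
    rw [Q_sm]
    field_simp
  rw [e1, e2, e3, e4]
  have hc := h2
  generalize Q u = c at *
  generalize polar Q x u = a
  generalize polar Q x z = b
  have e5 : c⁻¹ * (a - c⁻¹ * (a - b) * (2 * c)) = c⁻¹ * (2 * b - a) := by
    field_simp
    ring
  rw [e5]
  module

end Cfsg.Agent.Lib.H97WA
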