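import Mathlib
import Cfsg.Agent.Lib.H97WA
import Cfsg.Agent.Lib.SympBasis

/-!
# Orthogonal decompositions: the environment and elements interchanging two blocks
-/

set_option autoImplicit false
set_option linter.unusedSectionVars false
set_option linter.unusedVariables false

namespace Cfsg.Agent.Lib.H97WB

open Matrix QuadraticMap Cfsg Cfsg.Geo Module
open Cfsg.Agent.Lib.OrthoBasic Cfsg.Agent.Lib.OrthoSiegel Cfsg.Agent.Lib.OmCalc Cfsg.Agent.Lib.TvGL
  Cfsg.Agent.Lib.OmPerp Cfsg.Agent.Lib.OmNd Cfsg.Agent.Lib.OmK Cfsg.Agent.Lib.OmPair Cfsg.Agent.Lib.OmBlk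
  Cfsg.Agent.Lib.H97WA
open Cfsg.Agent.Lib.OrthGroup Cfsg.Agent.Lib.OrthOmega
open Cfsg.Agent.Lib.OmBlk5 (opair_block mul_card refl_mem_block exists_refl2 sE_mem_H prodR_fix polar_isom)
open Cfsg.Agent.Lib.SympT (GL_ext mulVec_mul_GL mulVec_inv_GL inv_mulVec_GL linOf linOf_apply)
open Cfsg.Agent.Lib.QuadFF (polar_sm_r polar_sm_l Q_ad Q_sm IsHyp ND restr polar_restr exists_singular)

local notation:70 g:71 " ⋆ " x:70 => Matrix.mulVec (Units.val g) x

variable {ι : Type} [Fintype ι] [DecidableEq ι] {F : Type*} [Field F] [Fintype F]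
  {Q : QuadraticForm F (ι → F)} {hQ : Nondeg Q} {M : Subgroup (GL ι F)}

section Blocks

variable {t k : ℕ} {D : Fin t → Submodule F (ι → F)}

theorem dc_of (hQ : Nondeg Q) (hD : IsOrthogonalMDecomposition ⇑Q k D) : Dc hQ D := by
  refine ⟨opair_block hQ hD, ?_, ?_⟩
  · exact fun i j hij x hx => mem_perpQ.2 (fun v hv => hD.decomp.orthogonal j i hij.symm v hv x hx)
  · intro x hx
    by_contra hx0
    obtain ⟨y, hy⟩ := hQ x hx0
    apply hy
    have htop : y ∈ iSup D := by
      rw [hD.decomp.decomp.iSup_eq_top]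
      trivial
    rw [polar_comm]
    refine Submodule.iSup_induction D (motive := fun y => polar Q y x = 0) htop (fun l y hy => mem_perpQ.1 (hx l) y hy)
      (polar_zero_left _ _) (fun a b ha hb => ?_)
    rw [polar_add_left, ha, hb, add_zero]

theorem map_mem_of_basis' {κ : Type*} [Fintype κ] {W W' : Submodule F (ι → F)} (v : Basis κ F W)
    (τ : (ι → F) →ₗ[F] (ι → F))
    (h : ∀ i, τ (v i : ι → F) ∈ W') {x : ι → F} (hx : x ∈ W) : τ x ∈ W' := by
  classical
  have e : x = ((⟨x, hx⟩ : W) : ι → F) := rfl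
  rw [e, ← v.sum_repr ⟨x, hx⟩]
  simp only [Submodule.coe_sum, map_sum, Submodule.coe_smul, map_smul]
  exact Submodule.sum_mem _ (fun i _ => W'.smul_mem _ (h i))

/-- Linear map given by an invertible matrix. -/
noncomputable def toL (g : GL ι F) : (ι → F) →ₗ[F] (ι → F) := Matrix.mulVecLin (Units.val g)

theorem toL_apply (g : GL ι F) (x : ι → F) : toL g x = g ⋆ x := rfl

/-- Swaps in odd characteristic, for blocks of any dimension. -/
theorem exists_swap_odd (hQ : Nondeg Q) (h11 : 11 ≤ Fintype.card ι) (h2 : (2 : F) ≠ 0) (hD : IsOrthogonalMDecomposition ⇑Q k D)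
    (h2k : 2 ≤ k) {l m : Fin t} (hlm : l ≠ m) :
    ∃ s ∈ decompositionStabilizer D ⊓ omegaGL ⇑Q, (∀ x ∈ D l, s ⋆ x ∈ D m) ∧ (∀ x ∈ D m, s ⋆ x ∈ D l) ∧
      ∀ i, i ≠ l → i ≠ m → ∀ x ∈ D i, s ⋆ x = x := by
  classical
  have hfin := hD.decomp.decomp.finrank_eq
  obtain ⟨φ, hφ⟩ := hD.isometric l m
  obtain ⟨v, hv⟩ := Cfsg.Agent.Lib.OmFrame.exists_orth_basis (Q := Q) h2 (D l) (hfin l)
  have hval : ∀ i, Q (v i : ι → F) ≠ 0 := Cfsg.Agent.Lib.OmFrame.value_ne_of_orth (hD.decomp.nondegenerate l) v hv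
  have horth := hD.decomp.orthogonal
  obtain ⟨a, ha⟩ : ∃ a : Fin k → ι → F, a = fun i => (v i : ι → F) := ⟨_, rfl⟩
  obtain ⟨b, hb⟩ : ∃ b : Fin k → ι → F, b = fun i => (φ (v i) : ι → F) := ⟨_, rfl⟩
  have haD : ∀ i, a i ∈ D l := fun i => by rw [ha]; exact (v i).2
  have hbD : ∀ i, b i ∈ D m := fun i => by rw [hb]; exact (φ (v i)).2
  have hab : ∀ i j, polar Q (a i) (b j) = 0 := fun i j => horth l m hlm _ (haD i) _ (hbD j)
  have hba : ∀ i j, polar Q (b i) (a j) = 0 := fun i j => horth m l hlm.symm _ (hbD i) _ (haD j)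
  have hQb : ∀ i, Q (b i) = Q (a i) := fun i => by rw [ha, hb]; exact hφ (v i)
  have haa : ∀ i j, i ≠ j → polar Q (a i) (a j) = 0 := fun i j hij => by rw [ha]; exact hv i j hij
  have hbb : ∀ i j, i ≠ j → polar Q (b i) (b j) = 0 := fun i j hij => by
    rw [hb]
    simp only
    rw [polar_isom φ hφ]
    exact hv i j hij
  have hQa : ∀ i, Q (a i) ≠ 0 := fun i => by rw [ha]; exact hval i
  obtain ⟨u, hu⟩ : ∃ u : Fin k → ι → F, u = fun i => a i - b i := ⟨_, rfl⟩
  have hQu : ∀ i, Q (u i) = 2 * Q (a i) := by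
    intro i
    rw [hu]
    simp only
    rw [sub_eq_add_neg, Q_ad, QuadraticMap.map_neg, polar_neg_right, hab, hQb]
    ring
  have hQu0 : ∀ i, Q (u i) ≠ 0 := fun i => by
    rw [hQu]
    exact mul_ne_zero h2 (hQa i)
  have h1 : ∀ i, refl Q (u i) (a i) = b i := by
    intro i
    have e : polar Q (a i) (u i) = 2 * Q (a i) := by
      rw [hu]
      simp only
      rw [polar_sub_right, pol2, hab, sub_zero]
    rw [r_eq, e, ← hQu, inv_mul_cancel₀ (hQu0 i), one_smul, hu]
    simp only
    abel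
  have h1' : ∀ i, refl Q (u i) (b i) = a i := by
    intro i
    have e : polar Q (b i) (u i) = -(2 * Q (a i)) := by
      rw [hu]
      simp only
      rw [polar_sub_right, pol2, hba, hQb]
      ring
    rw [r_eq, e, ← hQu, mul_neg, inv_mul_cancel₀ (hQu0 i), hu]
    simp only
    module
  have h3 : ∀ i j, i ≠ j → refl Q (u i) (a j) = a j := by
    intro i j hij
    refine r_perp ?_
    rw [hu]
    simp only
    rw [polar_sub_right, haa j i hij.symm, hab, sub_zero]
  have h4 : ∀ i j, i ≠ j → refl Q (u i) (b j) = b j := by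
    intro i j hij
    refine r_perp ?_
    rw [hu]
    simp only
    rw [polar_sub_right, hba, hbb j i hij.symm, sub_zero]
  obtain ⟨L, hL⟩ : ∃ L, L = (List.finRange k).map u := ⟨_, rfl⟩
  have hτa : ∀ j, prodR Q L (a j) = b j := by
    intro j
    rw [hL, prodR_swap u a b h1 h3 h4 _ (List.nodup_finRange k) j, if_pos (List.mem_finRange j)]
  have hτb : ∀ j, prodR Q L (b j) = a j := by
    intro j
    rw [hL, prodR_swap u b a h1' h4 h3 _ (List.nodup_finRange k) j, if_pos (List.mem_finRange j)]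
  have hLne : ∀ w ∈ L, Q w ≠ 0 := by
    intro w hw
    rw [hL, List.mem_map] at hw
    obtain ⟨i, -, rfl⟩ := hw
    exact hQu0 i
  have hδ : (L.map Q).prod ≠ 0 := by
    apply List.prod_ne_zero
    intro h
    rw [List.mem_map] at h
    obtain ⟨w, hw, hw'⟩ := h
    exact hLne w hw hw'
  have hlen : L.length = k := by rw [hL, List.length_map, List.length_finRange]
  obtain ⟨w, hwD, hw⟩ := value_in hQ (opair_block hQ hD l) (by rw [hfin]; exact h2k) hδ
  obtain ⟨w', hwD', hw'⟩ := value_in hQ (opair_block hQ hD l) (by rw [hfin]; exact h2k) (one_ne_zero (α := F))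
  -- an even list of reflections
  obtain ⟨L', hL'1, hL'2, hL'3, hL'4⟩ : ∃ L' : List (ι → F), (∀ v ∈ L', v ∈ D l) ∧ (∀ v ∈ L', Q v ≠ 0) ∧
      Even (L' ++ L).length ∧ IsSquare ((L' ++ L).map Q).prod := by
    by_cases hk : Even k
    · refine ⟨[w, w'], ?_, ?_, ?_, ?_⟩
      · intro v hv
        simp only [List.mem_cons, List.not_mem_nil, or_false] at hv
        rcases hv with rfl | rfl
        · exact hwD
        · exact hwD'
      · intro v hv
        simp only [List.mem_cons, List.not_mem_nil, or_false] at hv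
        rcases hv with rfl | rfl
        · rw [hw]; exact hδ
        · rw [hw']; exact one_ne_zero
      · rw [List.length_append, hlen]
        simp only [List.length_cons, List.length_nil]
        exact Even.add (by decide) hk
      · simp only [List.cons_append, List.nil_append, List.map_cons, List.prod_cons, hw, hw', one_mul]
        exact ⟨_, rfl⟩
    · refine ⟨[w], ?_, ?_, ?_, ?_⟩
      · intro v hv
        simp only [List.mem_cons, List.not_mem_nil, or_false] at hv
        rw [hv]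
        exact hwD
      · intro v hv
        simp only [List.mem_cons, List.not_mem_nil, or_false] at hv
        rw [hv, hw]
        exact hδ
      · rw [List.length_append, hlen]
        simp only [List.length_cons, List.length_nil]
        rw [zero_add, add_comm]
        exact (Nat.not_even_iff_odd.1 hk).add_one
      · simp only [List.cons_append, List.nil_append, List.map_cons, List.prod_cons, hw]
        exact ⟨_, rfl⟩
  obtain ⟨s, hs⟩ := exists_gl_prodR (Q := Q) (L' ++ L)
  have hse : ∀ x, s ⋆ x = prodR Q L' (prodR Q L x) := by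
    intro x
    rw [hs, prodR_append, LinearEquiv.mul_apply]
  have hO : s ∈ omegaGL ⇑Q := by
    refine mem_omegaGL_of_list hQ h11 (L' ++ L) ?_ hL'3 hL'4 hs
    intro v' hv'
    rcases List.mem_append.1 hv' with h | h
    · exact hL'2 _ h
    · exact hLne _ h
  have hpres : ∀ (L₀ : List (ι → F)), (∀ v ∈ L₀, v ∈ D l) → ∀ j, ∀ x ∈ D j, prodR Q L₀ x ∈ D j := by
    intro L₀
    induction L₀ with
    | nil => intro _ j x hx; simpa using hx
    | cons v L₀ ih =>
      intro hv j x hx
      rw [prodR_cons, LinearEquiv.mul_apply]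
      exact refl_mem_block hD (hv v List.mem_cons_self) (ih (fun w hw => hv w (List.mem_cons_of_mem _ hw)) j x hx)
  have hml : ∀ x ∈ D l, s ⋆ x ∈ D m := by
    intro x hx
    rw [hse]
    refine hpres L' hL'1 m _ ?_
    refine Cfsg.Agent.Lib.OmBlk5.map_mem_of_basis v (prodR Q L : (ι → F) ≃ₗ[F] (ι → F)).toLinearMap (fun i => ?_) hx
    change prodR Q L (v i : ι → F) ∈ D m
    have e : (v i : ι → F) = a i := by rw [ha]
    rw [e, hτa]
    exact hbD i
  have hlm' : ∀ x ∈ D m, s ⋆ x ∈ D l := by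
    intro x hx
    rw [hse]
    refine hpres L' hL'1 l _ ?_
    refine Cfsg.Agent.Lib.OmBlk5.map_mem_of_basis (v.map φ) (prodR Q L : (ι → F) ≃ₗ[F] (ι → F)).toLinearMap (fun i => ?_) hx
    change prodR Q L ((v.map φ) i : ι → F) ∈ D l
    have e : ((v.map φ) i : ι → F) = b i := by
      rw [hb]
      simp
    rw [e, hτb]
    exact haD i
  have hoth : ∀ i, i ≠ l → i ≠ m → ∀ x ∈ D i, s ⋆ x = x := by
    intro i hil him x hx
    have e1 : prodR Q L x = x := by
      refine prodR_fix L ?_
      intro w' hw'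
      rw [hL, List.mem_map] at hw'
      obtain ⟨j, -, rfl⟩ := hw'
      rw [hu]
      simp only
      rw [polar_sub_right, horth i l hil x hx _ (haD j), horth i m him x hx _ (hbD j), sub_zero]
    rw [hse, e1]
    refine prodR_fix L' ?_
    intro w' hw'
    exact horth i l hil x hx _ (hL'1 _ hw')
  refine ⟨s, ⟨?_, hO⟩, hml, hlm', hoth⟩
  refine Cfsg.Agent.Lib.SympDecomp.decomp_of_maps (k := k) hfin s (Equiv.swap l m) (fun i x hx => ?_)
  by_cases hil : i = l
  · subst hil
    rw [Equiv.swap_apply_left]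
    exact hml x hx
  by_cases him : i = m
  · subst him
    rw [Equiv.swap_apply_right]
    exact hlm' x hx
  rw [Equiv.swap_apply_of_ne_of_ne hil him, hoth i hil him x hx]
  exact hx

/-- Swaps in characteristic two. -/
theorem exists_swap_char2 (hQ : Nondeg Q) (h11 : 11 ≤ Fintype.card ι) (h2 : (2 : F) = 0) (hD : IsOrthogonalMDecomposition ⇑Q k D)
    {l m : Fin t} (hlm : l ≠ m) :
    ∃ s ∈ decompositionStabilizer D ⊓ omegaGL ⇑Q, (∀ x ∈ D l, s ⋆ x ∈ D m) ∧ (∀ x ∈ D m, s ⋆ x ∈ D l) ∧
      ∀ i, i ≠ l → i ≠ m → ∀ x ∈ D i, s ⋆ x = x := by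
  classical
  have hfin := hD.decomp.decomp.finrank_eq
  obtain ⟨φ, hφ⟩ := hD.isometric l m
  have horth := hD.decomp.orthogonal
  have hself : ∀ x : ι → F, polar Q x x = 0 := fun x => by rw [pol2, h2, zero_mul]
  let B' : (D l) →ₗ[F] (D l) →ₗ[F] F := LinearMap.BilinForm.restrict (polarBilin Q) (D l)
  have hB' : ∀ x y : D l, B' x y = polar Q (x : ι → F) (y : ι → F) := fun x y => rfl
  obtain ⟨r, s, hs⟩ := Cfsg.Agent.Lib.SympBasis.exists_symp_basis B' (fun v => by rw [hB']; exact hself _)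
    (fun v hv => by
      by_contra hv0
      have hv1 : (v : ι → F) ≠ 0 := fun h => hv0 (Subtype.ext h)
      obtain ⟨y, hy, hy'⟩ := (hD.decomp.nondegenerate l _ v.2 hv1).2
      exact hy' (hv ⟨y, hy⟩))
  have hJ : ∀ i i' j j', polar Q (s (i, j) : ι → F) (s (i', j') : ι → F) = if j = j' then Cfsg.Agent.Lib.SympBasis.J i i' else 0 :=
    fun i i' j j' => by rw [← hB']; exact hs i i' j j'
  obtain ⟨a, ha⟩ : ∃ a : Fin r → ι → F, a = fun j => (s (0, j) : ι → F) := ⟨_, rfl⟩
  obtain ⟨b, hb⟩ : ∃ b : Fin r → ι → F, b = fun j => (s (1, j) : ι → F) := ⟨_, rfl⟩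
  obtain ⟨a', ha'⟩ : ∃ a' : Fin r → ι → F, a' = fun j => (φ (s (0, j)) : ι → F) := ⟨_, rfl⟩
  obtain ⟨b', hb'⟩ : ∃ b' : Fin r → ι → F, b' = fun j => (φ (s (1, j)) : ι → F) := ⟨_, rfl⟩
  have haD : ∀ j, a j ∈ D l := fun j => by rw [ha]; exact (s (0, j)).2
  have hbD : ∀ j, b j ∈ D l := fun j => by rw [hb]; exact (s (1, j)).2
  have ha'D : ∀ j, a' j ∈ D m := fun j => by rw [ha']; exact (φ (s (0, j))).2
  have hb'D : ∀ j, b' j ∈ D m := fun j => by rw [hb']; exact (φ (s (1, j))).2
  have haa : ∀ i j, polar Q (a i) (a j) = 0 := fun i j => by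
    rw [ha]
    simp only
    rw [hJ]
    split_ifs <;> rfl
  have hbb : ∀ i j, polar Q (b i) (b j) = 0 := fun i j => by
    rw [hb]
    simp only
    rw [hJ]
    split_ifs <;> rfl
  have hab : ∀ i j, polar Q (a i) (b j) = if i = j then 1 else 0 := fun i j => by
    rw [ha, hb]
    simp only
    rw [hJ]
    rfl
  have hba : ∀ i j, polar Q (b i) (a j) = if i = j then -1 else 0 := fun i j => by
    rw [ha, hb]
    simp only
    rw [hJ]
    rfl
  have hpφ : ∀ (x y : D l), polar Q (φ x : ι → F) (φ y : ι → F) = polar Q (x : ι → F) (y : ι → F) :=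
    fun x y => polar_isom φ hφ x y
  have ha'a' : ∀ i j, polar Q (a' i) (a' j) = 0 := fun i j => by
    rw [ha']
    simp only
    rw [hpφ, hJ]
    split_ifs <;> rfl
  have hb'b' : ∀ i j, polar Q (b' i) (b' j) = 0 := fun i j => by
    rw [hb']
    simp only
    rw [hpφ, hJ]
    split_ifs <;> rfl
  have ha'b' : ∀ i j, polar Q (a' i) (b' j) = if i = j then 1 else 0 := fun i j => by
    rw [ha', hb']
    simp only
    rw [hpφ, hJ]
    rfl
  have hb'a' : ∀ i j, polar Q (b' i) (a' j) = if i = j then -1 else 0 := fun i j => by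
    rw [ha', hb']
    simp only
    rw [hpφ, hJ]
    rfl
  have hcross : ∀ {x y : ι → F}, x ∈ D l → y ∈ D m → polar Q x y = 0 := fun hx hy => horth l m hlm _ hx _ hy
  have hcross' : ∀ {x y : ι → F}, x ∈ D m → y ∈ D l → polar Q x y = 0 := fun hx hy => horth m l hlm.symm _ hx _ hy
  obtain ⟨e, he⟩ : ∃ e : Fin r → ι → F, e = fun j => a j + a' j := ⟨_, rfl⟩
  obtain ⟨y, hy⟩ : ∃ y : Fin r → ι → F, y = fun j => b j + b' j := ⟨_, rfl⟩
  have hQe : ∀ j, Q (e j) = 0 := fun j => by
    rw [he]
    simp only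
    rw [Q_ad, hcross (haD j) (ha'D j), add_zero, ha, ha']
    simp only
    rw [hφ, ← two_mul, h2, zero_mul]
  have hQy : ∀ j, Q (y j) = 0 := fun j => by
    rw [hy]
    simp only
    rw [Q_ad, hcross (hbD j) (hb'D j), add_zero, hb, hb']
    simp only
    rw [hφ, ← two_mul, h2, zero_mul]
  have hee : ∀ i j, polar Q (e i) (e j) = 0 := fun i j => by
    rw [he]
    simp only
    rw [polar_add_left, polar_add_right, polar_add_right, haa, ha'a', hcross (haD i) (ha'D j), hcross' (ha'D i) (haD j)]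
    simp
  have hyy : ∀ i j, polar Q (y i) (y j) = 0 := fun i j => by
    rw [hy]
    simp only
    rw [polar_add_left, polar_add_right, polar_add_right, hbb, hb'b', hcross (hbD i) (hb'D j), hcross' (hb'D i) (hbD j)]
    simp
  have hey : ∀ i j, polar Q (e i) (y j) = 0 := fun i j => by
    rw [he, hy]
    simp only
    rw [polar_add_left, polar_add_right, polar_add_right, hab, ha'b', hcross (haD i) (hb'D j), hcross' (ha'D i) (hbD j)]
    split_ifs
    · rw [zero_add, add_zero, ← two_mul, h2, zero_mul]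
    · simp
  have hye : ∀ i j, polar Q (y i) (e j) = 0 := fun i j => by
    rw [polar_comm]
    exact hey j i
  -- the product of the Siegel transformations over a set of indices
  have hG : ∀ S : Finset (Fin r), ∃ g ∈ omegaGL ⇑Q, ∀ x, g ⋆ x = x + ∑ j ∈ S, (polar Q x (e j) • y j - polar Q x (y j) • e j) := by
    intro S
    induction S using Finset.induction_on with
    | empty => exact ⟨1, (omegaGL ⇑Q).one_mem, fun x => by simp⟩
    | insert i S hi ih =>
      obtain ⟨g, hg, hg'⟩ := ih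
      refine ⟨sE hQ (hQe i) (hey i i) * g, (omegaGL ⇑Q).mul_mem (sE_mem_omegaGL hQ h11 _ _) hg, fun x => ?_⟩
      rw [mulVec_mul_GL, sE_apply', hg', Finset.sum_insert hi]
      have hz : ∀ w, (∀ j, polar Q (y j) w = 0) → (∀ j, polar Q (e j) w = 0) →
          polar Q (x + ∑ j ∈ S, (polar Q x (e j) • y j - polar Q x (y j) • e j)) w = polar Q x w := by
        intro w h1 h2
        have key : ∀ S' : Finset (Fin r), polar Q (∑ j ∈ S', (polar Q x (e j) • y j - polar Q x (y j) • e j)) w = 0 := by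
          intro S'
          induction S' using Finset.induction_on with
          | empty => simp [polar_zero_left]
          | insert c S' hc ihS =>
            rw [Finset.sum_insert hc, polar_add_left, ihS, polar_sub_left, polar_sm_l, polar_sm_l, h1, h2]
            simp
        rw [polar_add_left, key, add_zero]
      rw [hz _ (fun j => hye j i) (fun j => hee j i), hz _ (fun j => hyy j i) (fun j => hey j i), hQy]
      simp only [zero_mul, add_zero]
      abel
  obtain ⟨g, hg, hg'⟩ := hG Finset.univ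
  have hsum : ∀ x, ∀ (u v : Fin r → F), (∀ j, polar Q x (e j) = u j) → (∀ j, polar Q x (y j) = v j) →
      g ⋆ x = x + ∑ j, (u j • y j - v j • e j) := by
    intro x u v hu hv
    rw [hg']
    simp only [hu, hv]
  have ga : ∀ i, g ⋆ a i = -a' i := by
    intro i
    rw [hsum (a i) (fun _ => 0) (fun j => if i = j then 1 else 0)
      (fun j => by rw [he]; simp only; rw [polar_add_right, haa, hcross (haD i) (ha'D j), add_zero])
      (fun j => by rw [hy]; simp only; rw [polar_add_right, hab, hcross (haD i) (hb'D j), add_zero]), Finset.sum_eq_single i]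
    · rw [he]
      simp
    · intro j _ hj
      simp [Ne.symm hj]
    · simp
  have gb : ∀ i, g ⋆ b i = -b' i := by
    intro i
    rw [hsum (b i) (fun j => if i = j then -1 else 0) (fun _ => 0)
      (fun j => by rw [he]; simp only; rw [polar_add_right, hba, hcross (hbD i) (ha'D j), add_zero])
      (fun j => by rw [hy]; simp only; rw [polar_add_right, hbb, hcross (hbD i) (hb'D j), add_zero]), Finset.sum_eq_single i]
    · rw [hy]
      simp
    · intro j _ hj
      simp [Ne.symm hj]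
    · simp
  have ga' : ∀ i, g ⋆ a' i = -a i := by
    intro i
    rw [hsum (a' i) (fun _ => 0) (fun j => if i = j then 1 else 0)
      (fun j => by rw [he]; simp only; rw [polar_add_right, ha'a', hcross' (ha'D i) (haD j), zero_add])
      (fun j => by rw [hy]; simp only; rw [polar_add_right, ha'b', hcross' (ha'D i) (hbD j), zero_add]), Finset.sum_eq_single i]
    · rw [he]
      simp
    · intro j _ hj
      simp [Ne.symm hj]
    · simp
  have gb' : ∀ i, g ⋆ b' i = -b i := by
    intro i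
    rw [hsum (b' i) (fun j => if i = j then -1 else 0) (fun _ => 0)
      (fun j => by rw [he]; simp only; rw [polar_add_right, hb'a', hcross' (hb'D i) (haD j), zero_add])
      (fun j => by rw [hy]; simp only; rw [polar_add_right, hb'b', hcross' (hb'D i) (hbD j), zero_add]), Finset.sum_eq_single i]
    · rw [hy]
      simp
    · intro j _ hj
      simp [Ne.symm hj]
    · simp
  have hml : ∀ x ∈ D l, g ⋆ x ∈ D m := by
    intro x hx
    refine map_mem_of_basis' s (toL g) (fun i => ?_) hx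
    rw [toL_apply]
    obtain ⟨i, j⟩ := i
    fin_cases i
    · have : ((s (0, j) : D l) : ι → F) = a j := by rw [ha]
      change g ⋆ ((s (0, j) : D l) : ι → F) ∈ D m
      rw [this, ga]
      exact (D m).neg_mem (ha'D j)
    · have : ((s (1, j) : D l) : ι → F) = b j := by rw [hb]
      change g ⋆ ((s (1, j) : D l) : ι → F) ∈ D m
      rw [this, gb]
      exact (D m).neg_mem (hb'D j)
  have hlm' : ∀ x ∈ D m, g ⋆ x ∈ D l := by
    intro x hx
    refine map_mem_of_basis' (s.map φ) (toL g) (fun i => ?_) hx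
    rw [toL_apply]
    obtain ⟨i, j⟩ := i
    fin_cases i
    · have : (((s.map φ) (0, j) : D m) : ι → F) = a' j := by
        rw [ha']
        simp
      change g ⋆ (((s.map φ) (0, j) : D m) : ι → F) ∈ D l
      rw [this, ga']
      exact (D l).neg_mem (haD j)
    · have : (((s.map φ) (1, j) : D m) : ι → F) = b' j := by
        rw [hb']
        simp
      change g ⋆ (((s.map φ) (1, j) : D m) : ι → F) ∈ D l
      rw [this, gb']
      exact (D l).neg_mem (hbD j)
  have hoth : ∀ i, i ≠ l → i ≠ m → ∀ x ∈ D i, g ⋆ x = x := by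
    intro i hil him x hx
    rw [hsum x (fun _ => 0) (fun _ => 0)
      (fun j => by rw [he]; simp only; rw [polar_add_right, horth i l hil x hx _ (haD j), horth i m him x hx _ (ha'D j), add_zero])
      (fun j => by rw [hy]; simp only; rw [polar_add_right, horth i l hil x hx _ (hbD j), horth i m him x hx _ (hb'D j), add_zero])]
    simp
  refine ⟨g, ⟨?_, hg⟩, hml, hlm', hoth⟩
  refine Cfsg.Agent.Lib.SympDecomp.decomp_of_maps (k := k) hfin g (Equiv.swap l m) (fun i x hx => ?_)
  by_cases hil : i = l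
  · subst hil
    rw [Equiv.swap_apply_left]
    exact hml x hx
  by_cases him : i = m
  · subst him
    rw [Equiv.swap_apply_right]
    exact hlm' x hx
  rw [Equiv.swap_apply_of_ne_of_ne hil him, hoth i hil him x hx]
  exact hx

theorem exists_swap_all (hQ : Nondeg Q) (h11 : 11 ≤ Fintype.card ι) (hD : IsOrthogonalMDecomposition ⇑Q k D)
    (h2k : 2 ≤ k) {l m : Fin t} (hlm : l ≠ m) :
    ∃ s ∈ decompositionStabilizer D ⊓ omegaGL ⇑Q, (∀ x ∈ D l, s ⋆ x ∈ D m) ∧ (∀ x ∈ D m, s ⋆ x ∈ D l) ∧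
      ∀ i, i ≠ l → i ≠ m → ∀ x ∈ D i, s ⋆ x = x := by
  by_cases h2 : (2 : F) = 0
  · exact exists_swap_char2 hQ h11 h2 hD hlm
  · exact exists_swap_odd hQ h11 h2 hD h2k hlm

/-- A matrix sending blocks into blocks permutes them. -/
theorem stab_of_maps (C : Dc hQ D) (hfin : ∀ i, finrank F (D i) = k) (hk : 0 < k) (g : GL ι F) (σ : Fin t → Fin t)
    (hσ : ∀ i, ∀ x ∈ D i, g ⋆ x ∈ D (σ i)) : g ∈ decompositionStabilizer D := by
  classical
  have himg : ∀ i, (D i).map (Matrix.toLin' (g : Matrix ι ι F)) = D (σ i) := by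
    intro i
    have hle : (D i).map (Matrix.toLin' (g : Matrix ι ι F)) ≤ D (σ i) := by
      rintro _ ⟨w, hw, rfl⟩
      exact hσ i w hw
    refine Submodule.eq_of_le_of_finrank_eq hle ?_
    have h2 : (D i).map (Matrix.toLin' (g : Matrix ι ι F)) = (D i).map (linOf g).toLinearMap := rfl
    rw [h2, LinearEquiv.finrank_map_eq, hfin, hfin]
  have hinj : Function.Injective σ := by
    intro i j hij
    by_contra hne
    obtain ⟨x, hx, hx0⟩ : ∃ x ∈ D j, x ≠ 0 := Cfsg.Agent.Lib.QForm.exists_ne_zero_mem (by rw [hfin]; omega)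
    have h1 : g ⋆ x ∈ (D i).map (Matrix.toLin' (g : Matrix ι ι F)) := by
      rw [himg, hij]
      exact hσ j x hx
    obtain ⟨w, hw, hw'⟩ := h1
    have h2 : w = x := by
      have h3 : g ⋆ w = g ⋆ x := hw'
      have h4 := congrArg (fun y => g⁻¹ ⋆ y) h3
      simpa [inv_mulVec_GL] using h4
    rw [h2] at hw
    exact hne (block_unique C hx0 hw hx)
  exact ⟨Equiv.ofBijective σ (Finite.injective_iff_bijective.1 hinj), fun i => by simpa using himg i⟩

end Blocks

/-- The environment of the maximality proofs. -/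
structure Env (hQ : Nondeg Q) (k : ℕ) {t : ℕ} (D : Fin t → Submodule F (ι → F)) (M : Subgroup (GL ι F)) : Prop where
  h11 : 11 ≤ Fintype.card ι
  hD : IsOrthogonalMDecomposition ⇑Q k D
  hk : 2 ≤ k
  hHM : decompositionStabilizer D ⊓ omegaGL ⇑Q ≤ M
  hMK : M ≤ omegaGL ⇑Q

section Env

variable {t k : ℕ} {D : Fin t → Submodule F (ι → F)} (E : Env hQ k D M)
include E

theorem Env.dc : Dc hQ D := dc_of hQ E.hD

theorem Env.iso {g : GL ι F} (hg : g ∈ M) (v : ι → F) : Q (g ⋆ v) = Q v := iso_omega (E.hMK hg) v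

theorem Env.hfin (i : Fin t) : finrank F (D i) = k := E.hD.decomp.decomp.finrank_eq i

theorem Env.cl_block {i j : Fin t} {a c : ι → F} (ha : a ∈ D i) (hc : c ∈ D j) (hac : Q a = Q c) (hQa : Q a ≠ 0) :
    Cl Q M a c := by
  obtain ⟨s, hs, hs'⟩ := exists_refl2 hQ E.h11 E.hD ha hc hac hQa
  exact ⟨hac, hQa, s, E.hHM hs, hs'⟩

theorem Env.R_block {l : Fin t} {a y : ι → F} (ha : a ∈ D l) (hQa : Q a = 0) (hy : y ∈ D l) (hay : polar Q a y = 0) :
    R hQ M a y := ⟨hQa, hay, E.hHM (sE_mem_H hQ E.h11 E.hD ha hQa hy hay)⟩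

theorem Env.swap {l m : Fin t} (hlm : l ≠ m) :
    ∃ s ∈ decompositionStabilizer D ⊓ omegaGL ⇑Q, (∀ x ∈ D l, s ⋆ x ∈ D m) ∧ (∀ x ∈ D m, s ⋆ x ∈ D l) ∧
      ∀ i, i ≠ l → i ≠ m → ∀ x ∈ D i, s ⋆ x = x := exists_swap_all hQ E.h11 E.hD E.hk hlm

/-- A non-singular vector in a block with a prescribed value. -/
theorem Env.value (l : Fin t) {δ : F} (hδ : δ ≠ 0) : ∃ v ∈ D l, Q v = δ :=
  value_in hQ ((Env.dc E).hp l) (by rw [Env.hfin E]; exact E.hk) hδ

/-- The product of two reflections in block vectors as an element of the stabiliser. -/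
theorem Env.refl2_H {i j : Fin t} {a c : ι → F} (ha : a ∈ D i) (hc : c ∈ D j) (hac : Q a = Q c) (hQa : Q a ≠ 0) :
    ∃ s ∈ decompositionStabilizer D ⊓ omegaGL ⇑Q, ∀ x, s ⋆ x = refl Q a (refl Q c x) :=
  exists_refl2 hQ E.h11 E.hD ha hc hac hQa

end Env

end Cfsg.Agent.Lib.H97WB
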