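import Mathlib
import Cfsg.Agent.Lib.H97WB

/-!
# Orthogonal decompositions with blocks of dimension at least four: Siegel elements in a block
-/

set_option autoImplicit false
set_option linter.unusedSectionVars false
set_option linter.unusedVariables false

namespace Cfsg.Agent.Lib.H97WC

open Matrix QuadraticMap Cfsg Cfsg.Geo Module
open Cfsg.Agent.Lib.OrthoBasic Cfsg.Agent.Lib.OrthoSiegel Cfsg.Agent.Lib.OmCalc Cfsg.Agent.Lib.TvGL
  Cfsg.Agent.Lib.OmPerp Cfsg.Agent.Lib.OmNd Cfsg.Agent.Lib.OmK Cfsg.Agent.Lib.OmPair Cfsg.Agent.Lib.OmBlk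
  Cfsg.Agent.Lib.H97WA Cfsg.Agent.Lib.H97WB
open Cfsg.Agent.Lib.OrthGroup Cfsg.Agent.Lib.OrthOmega
open Cfsg.Agent.Lib.SympT (GL_ext mulVec_mul_GL mulVec_inv_GL inv_mulVec_GL linOf linOf_apply)
open Cfsg.Agent.Lib.QuadFF (polar_sm_r polar_sm_l Q_ad Q_sm IsHyp ND restr polar_restr exists_singular)

local notation:70 g:71 " ⋆ " x:70 => Matrix.mulVec (Units.val g) x

variable {ι : Type} [Fintype ι] [DecidableEq ι] {F : Type*} [Field F] [Fintype F]
  {Q : QuadraticForm F (ι → F)} {P P' : Submodule F (ι → F)} {hQ : Nondeg Q} {M : Subgroup (GL ι F)}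

theorem GL_ne (g : GL ι F) {x : ι → F} (hx : x ≠ 0) : g ⋆ x ≠ 0 := by
  intro h
  apply hx
  rw [← inv_mulVec_GL g x, h, Matrix.mulVec_zero]

theorem GL_inj (g : GL ι F) {x y : ι → F} (h : g ⋆ x = g ⋆ y) : x = y := by
  rw [← inv_mulVec_GL g x, h, inv_mulVec_GL]

/-- The orthogonal complement of a hyperbolic pair in a summand. -/
theorem opair_hyp (hQ : Nondeg Q) (hp : OPair Q P P') {a f : ι → F} (ha : a ∈ P) (hf : f ∈ P) (hQa : Q a = 0)
    (hQf : Q f = 0) (haf : polar Q a f = 1) :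
    OPair Q (P ⊓ perpQ Q (Submodule.span F {a, f})) (perpQ Q (P ⊓ perpQ Q (Submodule.span F {a, f}))) ∧
      finrank F P ≤ finrank F ↥(P ⊓ perpQ Q (Submodule.span F {a, f})) + 2 := by
  classical
  constructor
  · refine (opair_of_nondeg hQ (fun x hx h => ?_)).symm
    by_contra hx0
    have hxa : polar Q x a = 0 := by
      rw [polar_comm]
      exact mem_perpQ.1 hx.2 a (Submodule.subset_span (by simp))
    have hxf : polar Q x f = 0 := by
      rw [polar_comm]
      exact mem_perpQ.1 hx.2 f (Submodule.subset_span (by simp))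
    obtain ⟨y, hy, hya, hyf, hxy⟩ := exists_adjust hQ hp ha hf hQa hQf haf hx.1 hxa hxf hx0
    refine hxy (h y ⟨hy, mem_perpQ.2 (fun s hs => ?_)⟩)
    refine Submodule.span_induction (p := fun s _ => polar Q s y = 0) ?_ (polar_zero_left _ _) ?_ ?_ hs
    · intro s hs
      simp only [Set.mem_insert_iff, Set.mem_singleton_iff] at hs
      rcases hs with rfl | rfl
      · rw [polar_comm]; exact hya
      · rw [polar_comm]; exact hyf
    · intro s s' _ _ h1 h2
      rw [polar_add_left, h1, h2, add_zero]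
    · intro c s _ h1
      rw [polar_sm_l, h1, mul_zero]
  · have h1 : finrank F P ≤ finrank F ↥(P ⊓ perpQ Q (Submodule.span F {a, f})) + finrank F (Submodule.span F {a, f}) :=
      finrank_inf_perp hQ P _
    have h2 : finrank F (Submodule.span F ({a, f} : Set (ι → F))) ≤ 2 := by
      have := finrank_span_finset_le_card (R := F) ({a, f} : Finset (ι → F))
      simp only [Finset.coe_insert, Finset.coe_singleton] at this
      exact this.trans Finset.card_le_two
    omega

/-- Multiples of a singular vector in a block of dimension at least four. -/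
theorem R_multiple (hp : OPair Q P P') (h4 : 4 ≤ finrank F P) (hQ' : Nondeg Q)
    (hH : ∀ a ∈ P, Q a = 0 → ∀ y ∈ P, polar Q a y = 0 → R hQ M a y)
    {X : ι → F} (hX : ∀ z ∈ P, polar Q X z = 0) {a v : ι → F} (ha : a ∈ P) (hQa : Q a = 0) (ha0 : a ≠ 0)
    (hv : R hQ M X v) (hva : polar Q v a ≠ 0) (μ : F) : R hQ M X (μ • a) := by
  classical
  obtain ⟨f, hf, hQf, haf⟩ := exists_partner hQ' hp ha ha0 hQa
  obtain ⟨hN, hfN⟩ := opair_hyp hQ' hp ha hf hQa hQf haf
  obtain ⟨c, hc, hc0⟩ : ∃ c ∈ P ⊓ perpQ Q (Submodule.span F {a, f}), c ≠ 0 :=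
    Cfsg.Agent.Lib.QForm.exists_ne_zero_mem (by omega)
  have hca : polar Q c a = 0 := by
    rw [polar_comm]
    exact mem_perpQ.1 hc.2 a (Submodule.subset_span (by simp))
  have hcf : polar Q c f = 0 := by
    rw [polar_comm]
    exact mem_perpQ.1 hc.2 f (Submodule.subset_span (by simp))
  obtain ⟨y, hy, hya, hyf, hcy⟩ := exists_adjust hQ' hp ha hf hQa hQf haf hc.1 hca hcf hc0
  have hG : ∀ z ∈ P, polar Q a z = 0 → R hQ M X (polar Q v a • z - (polar Q v z + Q z * polar Q v a) • a) := by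
    intro z hz haz
    obtain ⟨h1, h3, h5⟩ := hH a ha hQa z hz haz
    have h6 := R_conj (sE_iso hQ h1 h3) h5 hv
    rw [sE_apply', sE_apply', hX a ha, hX z hz] at h6
    simp only [zero_smul, add_zero, mul_zero, sub_zero] at h6
    have h7 := R_sub h6 hv
    convert h7 using 1
    abel
  set π := polar Q v a with hπ
  have hne : polar Q c y * π ≠ 0 := mul_ne_zero hcy hva
  set γ : F := μ / (polar Q c y * π) with hγ
  have hz1 : γ • y ∈ P := P.smul_mem _ hy
  have hay : polar Q a y = 0 := by rw [polar_comm]; exact hya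
  have hac : polar Q a c = 0 := by rw [polar_comm]; exact hca
  have hay' : polar Q a (γ • y) = 0 := by rw [polar_sm_r, hay, mul_zero]
  have h1 := hG c hc.1 hac
  have h2 := hG (γ • y) hz1 hay'
  have h3 := hG (c + γ • y) (P.add_mem hc.1 hz1) (by rw [polar_add_right, hac, hay', add_zero])
  have h4' := R_sub (R_add h1 h2) h3
  convert h4' using 1
  rw [Q_ad, polar_add_right, polar_sm_r, polar_sm_r]
  have e : μ = polar Q c y * γ * π := by
    rw [hγ]
    field_simp
  rw [e]
  generalize Q c = A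
  generalize Q (γ • y) = B'
  module

/-- All second vectors in a block of dimension at least four. -/
theorem left_all4 (hp : OPair Q P P') (h4 : 4 ≤ finrank F P) (hQ' : Nondeg Q)
    (hH : ∀ a ∈ P, Q a = 0 → ∀ y ∈ P, polar Q a y = 0 → R hQ M a y)
    {X Y : ι → F} (hX : ∀ z ∈ P, polar Q X z = 0) (hR : R hQ M X Y) {z₀ : ι → F} (hz₀ : z₀ ∈ P) (hYz : polar Q Y z₀ ≠ 0)
    {w : ι → F} (hw : w ∈ P) : R hQ M X w := by
  have h3 : 3 ≤ finrank F P := by omega
  have hstep : ∀ {a v : ι → F}, a ∈ P → Q a = 0 → a ≠ 0 → R hQ M X v → polar Q v a ≠ 0 → ∀ μ : F, R hQ M X (μ • a) :=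
    fun ha hQa ha0 hv hva μ => R_multiple hp h4 hQ' hH hX ha hQa ha0 hv hva μ
  obtain ⟨Y₀, hY₀, Y₁, hY₁, hYd⟩ := hp.decomp Y
  have hY₀0 : Y₀ ≠ 0 := by
    rintro rfl
    apply hYz
    rw [hYd, zero_add]
    rw [polar_comm]
    exact hp.orth z₀ hz₀ Y₁ hY₁
  have hpolY : ∀ z ∈ P, polar Q Y z = polar Q Y₀ z := by
    intro z hz
    rw [hYd, polar_add_left, polar_comm Q Y₁ z, hp.orth z hz Y₁ hY₁, add_zero]
  obtain ⟨a₀, ha₀, hQa₀, hYa₀⟩ := exists_sing_non_perp hQ' hp h3 hY₀ hY₀0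
  have ha₀0 : a₀ ≠ 0 := by
    rintro rfl
    exact hYa₀ (polar_zero_right _ _)
  have h1 : R hQ M X ((1 : F) • a₀) := hstep ha₀ hQa₀ ha₀0 hR (by rw [hpolY a₀ ha₀]; exact hYa₀) 1
  rw [one_smul] at h1
  have hsing : ∀ {a : ι → F}, a ∈ P → Q a = 0 → R hQ M X a := by
    intro a ha hQa
    by_cases ha0 : a = 0
    · rw [ha0]
      exact R_zero hR.sing
    have one_of : ∀ {b : ι → F}, (∀ μ : F, R hQ M X (μ • b)) → R hQ M X b := by
      intro b h
      have := h 1
      rwa [one_smul] at this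
    by_cases h5 : polar Q a₀ a = 0
    · obtain ⟨f, hf, hQf, haf⟩ := exists_partner hQ' hp ha ha0 hQa
      by_cases h6 : polar Q a₀ f = 0
      · obtain ⟨y, hy, hya, hyf, hxy⟩ := exists_adjust hQ' hp ha hf hQa hQf haf ha₀ h5 h6 ha₀0
        have hb : f + y - Q y • a ∈ P := P.sub_mem (P.add_mem hf hy) (P.smul_mem _ ha)
        have hQb : Q (f + y - Q y • a) = 0 := Q_flip hQa hQf haf hya hyf
        have h7 : polar Q a₀ (f + y - Q y • a) ≠ 0 := by
          rw [polar_sub_right, polar_add_right, polar_sm_r, h5, h6]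
          simpa using hxy
        have h8 : polar Q (f + y - Q y • a) a = 1 := by
          rw [polar_sub_left, polar_add_left, polar_sm_l, polar_self_zero hQa, hya, polar_comm Q f a, haf]
          ring
        have hb0 : f + y - Q y • a ≠ 0 := by
          intro h
          rw [h, polar_zero_right] at h7
          exact h7 rfl
        have h9 := one_of (hstep hb hQb hb0 h1 h7)
        exact one_of (hstep ha hQa ha0 h9 (by rw [h8]; exact one_ne_zero))
      · have hf0 : f ≠ 0 := by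
          rintro rfl
          exact h6 (polar_zero_right _ _)
        have h9 := one_of (hstep hf hQf hf0 h1 h6)
        exact one_of (hstep ha hQa ha0 h9 (by rw [polar_comm, haf]; exact one_ne_zero))
    · exact one_of (hstep ha hQa ha0 h1 h5)
  obtain ⟨s, hs, e, he, c, hQs, hQe, rfl⟩ := split_two hQ' hp h3 hw
  refine R_add (hsing hs hQs) ?_
  have := hsing (P.smul_mem c he) (by rw [Q_sm, hQe, mul_zero])
  exact this

section Main

variable {t k : ℕ} {D : Fin t → Submodule F (ι → F)} (E : Env hQ k D M)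
include E

/-- Second vectors in a block, from a non-zero component. -/
theorem Env.all4 (h4 : 4 ≤ k) {X Y : ι → F} {l : Fin t} (hXl : pr (Env.dc E) l X = 0) (hYl : pr (Env.dc E) l Y ≠ 0)
    (hR : R hQ M X Y) {w : ι → F} (hw : w ∈ D l) : R hQ M X w := by
  have C := Env.dc E
  obtain ⟨z, hz, hz'⟩ := ((Env.dc E).hp l).nondeg hQ (pr_mem (Env.dc E) l Y) hYl
  refine left_all4 ((Env.dc E).hp l) (by rw [Env.hfin E]; exact h4) hQ
    (fun a ha hQa y hy hay => Env.R_block E ha hQa hy hay) (fun z hz => polar_of_pr (Env.dc E) hXl hz) hR hz ?_ hw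
  rwa [polar_pr (Env.dc E) Y hz]

/-- A mixed family gives the whole of `Ω`. -/
theorem Env.omega_le4 (h4 : 4 ≤ k) {i j : Fin t} (hij : i ≠ j) {b : ι → F} (hb : b ∈ D i) (hb0 : b ≠ 0) (hQb : Q b = 0)
    (hw : ∀ w ∈ D j, R hQ M b w) : omegaGL ⇑Q ≤ M := by
  classical
  have C := Env.dc E
  have hall : ∀ l, l ≠ i → ∀ w ∈ D l, R hQ M b w := by
    intro l hli w hw'
    by_cases hlj : l = j
    · rw [hlj] at hw'
      exact hw _ hw'
    obtain ⟨s, hs, hsj, -, hso⟩ := Env.swap E (Ne.symm hlj)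
    obtain ⟨z, hz, hz0⟩ : ∃ z ∈ D j, z ≠ 0 := Cfsg.Agent.Lib.QForm.exists_ne_zero_mem (by rw [Env.hfin E]; omega)
    have h1 := R_conj (Env.iso E (E.hHM hs)) (E.hHM hs) (hw z hz)
    rw [hso i hij (Ne.symm hli) b hb] at h1
    have hsz := hsj z hz
    have hne : s ⋆ z ≠ 0 := GL_ne s hz0
    refine Env.all4 E h4 (pr_other (Env.dc E) (Ne.symm hli) hb) ?_ h1 hw'
    rwa [pr_of_mem (Env.dc E) hsz]
  have hT : T hQ M b := by
    refine ⟨hQb, fun y hy => ?_⟩
    rw [eq_sum_pr (Env.dc E) y]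
    have key : ∀ S : Finset (Fin t), R hQ M b (∑ l ∈ S, pr (Env.dc E) l y) := by
      intro S
      induction S using Finset.induction_on with
      | empty =>
        rw [Finset.sum_empty]
        exact R_zero hQb
      | insert a S ha ih =>
        rw [Finset.sum_insert ha]
        refine R_add ?_ ih
        by_cases hai : a = i
        · rw [hai]
          refine Env.R_block E hb hQb (pr_mem (Env.dc E) i y) ?_
          rw [polar_comm, ← polar_pr (Env.dc E) y hb, polar_comm]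
          exact hy
        · exact hall a hai _ (pr_mem (Env.dc E) a y)
    exact key _
  have hp := (Env.dc E).hp i
  have h3 : 3 ≤ finrank F (D i) := by rw [Env.hfin E]; omega
  obtain ⟨f, hf, hQf, hbf⟩ := exists_partner hQ hp hb hb0 hQb
  obtain ⟨c, hc, hbc, hfc, hQc⟩ := exists_nonsing_perp hQ hp h3 hb hf hQb hQf hbf
  obtain ⟨h3', h4', h5⟩ := Env.R_block E hf hQf hc hfc
  have hT' := T_conj (sE_iso hQ h3' h4') h5 hT
  refine omega_le_of_opp E.h11 hT hT' ?_
  rw [sE_apply', hbf, hbc, polar_sub_left, polar_add_left, polar_sm_l, polar_sm_l, polar_self_zero hQb, polar_comm Q c b, hbc,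
    polar_comm Q f b, hbf]
  simpa using hQc

/-- A non-block vector in the class of a block vector gives `Ω`. -/
theorem Env.case2_ge4 (h4 : 4 ≤ k) {u b : ι → F} {j : Fin t} (hb : b ∈ D j) (hu : Cl Q M u b)
    (hub : ∀ l, u ∉ D l) : omegaGL ⇑Q ≤ M := by
  classical
  have C := Env.dc E
  obtain ⟨i, hi⟩ := exists_Q_pr_ne (Env.dc E) hu.2.1
  set A := pr (Env.dc E) i u with hA
  have hAm : A ∈ D i := pr_mem (Env.dc E) i u
  have hp := (Env.dc E).hp i
  have hfin : finrank F (D i) = k := Env.hfin E i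
  -- a singular vector orthogonal to `A`
  have hS : finrank F (D i) ≤ finrank F ↥(D i ⊓ perpQ Q (Submodule.span F {A})) + finrank F (Submodule.span F {A}) :=
    finrank_inf_perp hQ _ _
  have hA0 : A ≠ 0 := by
    intro h
    rw [h, map_zero] at hi
    exact hi rfl
  rw [finrank_span_singleton hA0] at hS
  obtain ⟨z₀, hz₀0, hQz₀⟩ := exists_singular (restr Q (D i ⊓ perpQ Q (Submodule.span F {A}))) (by omega)
  have hzm : (z₀ : ι → F) ∈ D i := z₀.2.1
  have hz0 : (z₀ : ι → F) ≠ 0 := fun h => hz₀0 (Subtype.ext h)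
  have hQz : Q (z₀ : ι → F) = 0 := hQz₀
  have hAz : polar Q A (z₀ : ι → F) = 0 := mem_perpQ.1 z₀.2.2 A (Submodule.mem_span_singleton_self A)
  generalize (z₀ : ι → F) = z at hzm hz0 hQz hAz
  -- a second vector
  have hsp : Submodule.span F {z} ≤ D i := by
    rw [Submodule.span_singleton_le_iff_mem]
    exact hzm
  have hAns : A ∉ Submodule.span F {z} := by
    intro h
    obtain ⟨s, hs⟩ := Submodule.mem_span_singleton.1 h
    apply hi
    rw [← hs, Q_sm, hQz, mul_zero]
  obtain ⟨y₀, hy₀, h1, h2⟩ := hp.sep_in hQ hsp hAm hAns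
  have hzy₀ : polar Q z y₀ = 0 := h1 z (Submodule.mem_span_singleton_self z)
  set y := (polar Q A y₀)⁻¹ • y₀ with hy
  have hym : y ∈ D i := (D i).smul_mem _ hy₀
  have hzy : polar Q z y = 0 := by rw [hy, polar_sm_r, hzy₀, mul_zero]
  have hAy : polar Q A y = 1 := by
    rw [hy, polar_sm_r]
    exact inv_mul_cancel₀ h2
  have huz : polar Q u z = 0 := by
    rw [polar_pr (Env.dc E) u hzm, ← hA]
    exact hAz
  have huy : polar Q u y = 1 := by
    rw [polar_pr (Env.dc E) u hym, ← hA]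
    exact hAy
  obtain ⟨h3, h5, h6⟩ := Env.R_block E hzm hQz hym hzy
  have hhu : sE hQ h3 h5 ⋆ u = u - z := by
    rw [sE_apply', huz, huy]
    simp
  have hhi := Env.iso E h6
  -- the class
  have hhb : sE hQ h3 h5 ⋆ b ∈ D j := by
    rw [sE_apply']
    by_cases hji : j = i
    · subst hji
      exact (D j).sub_mem ((D j).add_mem hb ((D j).smul_mem _ hym)) ((D j).smul_mem _ hzm)
    · have e1 : polar Q b z = 0 := polar_orth (Env.dc E) hji hb hzm
      have e2 : polar Q b y = 0 := polar_orth (Env.dc E) hji hb hym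
      rw [e1, e2]
      simpa using hb
  have hcl1 : Cl Q M (sE hQ h3 h5 ⋆ u) (sE hQ h3 h5 ⋆ b) := Cl.conj hhi h6 hu
  have hcl2 : Cl Q M (sE hQ h3 h5 ⋆ b) b :=
    Env.cl_block E hhb hb (hhi b) (by rw [hhi, ← hu.1]; exact hu.2.1)
  have hcl3 : Cl Q M u (u - z) := by
    rw [← hhu]
    exact (hu.trans hcl2.symm).trans hcl1.symm
  have hR : R hQ M z (-(Q u)⁻¹ • u) := siegel_of_Cl hcl3 hQz huz
  have hR2 : R hQ M z ((Q u)⁻¹ • A) :=
    Env.R_block E hzm hQz ((D i).smul_mem _ hAm) (by rw [polar_sm_r, polar_comm, hAz, mul_zero])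
  have hR3 := R_add hR hR2
  obtain ⟨j', hj', hj'ne⟩ := exists_pr_other (Env.dc E) (hub i)
  refine Env.omega_le4 E h4 hj'.symm hzm hz0 hQz (fun w hw => ?_)
  refine Env.all4 E h4 (pr_other (Env.dc E) hj'.symm hzm) ?_ hR3 hw
  rw [pr_add, pr_smul, pr_smul, pr_other (Env.dc E) hj'.symm hAm, smul_zero, add_zero]
  refine smul_ne_zero ?_ hj'ne
  exact neg_ne_zero.2 (inv_ne_zero hu.2.1)

end Main

end Cfsg.Agent.Lib.H97WC
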