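import Mathlib
import Cfsg.Agent.Lib.H97WC

/-!
# Orthogonal decompositions: rank two elements of the stabiliser; maximality for blocks of dimension at least four
-/

set_option autoImplicit false
set_option linter.unusedSectionVars false
set_option linter.unusedVariables false

namespace Cfsg.Agent.Lib.H97WD

open Matrix QuadraticMap Cfsg Cfsg.Geo Module
open Cfsg.Agent.Lib.OrthoBasic Cfsg.Agent.Lib.OrthoSiegel Cfsg.Agent.Lib.OmCalc Cfsg.Agent.Lib.TvGL
  Cfsg.Agent.Lib.OmPerp Cfsg.Agent.Lib.OmNd Cfsg.Agent.Lib.OmK Cfsg.Agent.Lib.OmPair Cfsg.Agent.Lib.OmBlk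
  Cfsg.Agent.Lib.H97WA Cfsg.Agent.Lib.H97WB Cfsg.Agent.Lib.H97WC
open Cfsg.Agent.Lib.OrthGroup Cfsg.Agent.Lib.OrthOmega
open Cfsg.Agent.Lib.SympT (GL_ext mulVec_mul_GL mulVec_inv_GL inv_mulVec_GL linOf linOf_apply)
open Cfsg.Agent.Lib.QuadFF (polar_sm_r polar_sm_l Q_ad Q_sm IsHyp ND restr polar_restr exists_singular)

local notation:70 g:71 " ⋆ " x:70 => Matrix.mulVec (Units.val g) x

variable {ι : Type} [Fintype ι] [DecidableEq ι] {F : Type*} [Field F] [Fintype F]
  {Q : QuadraticForm F (ι → F)} {P P' : Submodule F (ι → F)} {hQ : Nondeg Q} {M : Subgroup (GL ι F)}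

theorem sq_of_two (h2 : (2 : F) = 0) (x : F) : ∃ y : F, y * y = x := by
  have h3 : ringChar F = 2 := by
    have h4 : ringChar F ∣ 2 := by
      apply ringChar.dvd
      exact_mod_cast h2
    rcases (Nat.dvd_prime Nat.prime_two).1 h4 with h5 | h5
    · exact absurd h5 (by
        have := CharP.ringChar_ne_one (R := F)
        exact this)
    · exact h5
  obtain ⟨y, hy⟩ := FiniteField.isSquare_of_char_two h3 x
  exact ⟨y, hy.symm⟩

/-- The formula for a product of two reflections. -/
theorem refl2_formula {p p' : ι → F} {c : F} (hQp : Q p = c) (hQp' : Q p' = c) (v : ι → F) :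
    refl Q p (refl Q p' v) = v - (c⁻¹ * polar Q p' v) • p' - (c⁻¹ * (polar Q p v - c⁻¹ * polar Q p' v * polar Q p' p)) • p := by
  rw [r_eq p, r_eq p' v, hQp, hQp', polar_sub_left, polar_sm_l, polar_comm Q v p', polar_comm Q v p]

section Main

variable {t k : ℕ} {D : Fin t → Submodule F (ι → F)} (C : Dc hQ D)
include C

/-- A product of two non-commuting reflections preserving every block has its vectors in a block. -/
theorem refl_pair_block {g : GL ι F} {p p' : ι → F} {c : F} (hQp : Q p = c) (hQp' : Q p' = c) (hc : c ≠ 0)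
    (hτ : polar Q p' p ≠ 0) (hind : ∀ s : F, p' ≠ s • p)
    (hg : ∀ x, g ⋆ x = refl Q p (refl Q p' x)) (hpres : ∀ l, ∀ v ∈ D l, g ⋆ v ∈ D l) : ∃ l, p ∈ D l := by
  classical
  by_contra hno
  push Not at hno
  set τ := polar Q p' p with hτdef
  obtain ⟨A, hA⟩ : ∃ A : Fin t → ι → F, A = fun l => pr C l p := ⟨_, rfl⟩
  obtain ⟨A', hA'⟩ : ∃ A' : Fin t → ι → F, A' = fun l => pr C l p' := ⟨_, rfl⟩
  have hAm : ∀ l, A l ∈ D l := fun l => by rw [hA]; exact pr_mem C l p
  have hA'm : ∀ l, A' l ∈ D l := fun l => by rw [hA']; exact pr_mem C l p'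
  have key : ∀ l l', l ≠ l' → ∀ v ∈ D l,
      (c⁻¹ * polar Q (A' l) v) • A' l' + (c⁻¹ * (polar Q (A l) v - c⁻¹ * polar Q (A' l) v * τ)) • A l' = 0 := by
    intro l l' hll v hv
    have h1 := pr_other C hll (hpres l v hv)
    rw [hg, refl2_formula hQp hQp', pr_sub, pr_sub, pr_smul, pr_smul, pr_other C hll hv, ← hτdef,
      polar_pr C p' hv, polar_pr C p hv] at h1
    have e1 : pr C l p' = A' l := by rw [hA']
    have e2 : pr C l p = A l := by rw [hA]
    have e3 : pr C l' p' = A' l' := by rw [hA']
    have e4 : pr C l' p = A l' := by rw [hA]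
    rw [e1, e2, e3, e4] at h1
    have h2 := neg_eq_zero.2 h1
    rw [← h2]
    abel
  have hp0 : p ≠ 0 := by
    rintro rfl
    rw [map_zero] at hQp
    exact hc hQp.symm
  obtain ⟨l₁, hl₁⟩ := exists_pr_ne C hp0
  obtain ⟨l₂, hl₂, hl₂'⟩ := exists_pr_other C (hno l₁)
  have hA1 : A l₁ ≠ 0 := by rw [hA]; exact hl₁
  have hA2 : A l₂ ≠ 0 := by rw [hA]; exact hl₂'
  -- proportional components
  have stepA : ∀ l l', l ≠ l' → A l ≠ 0 → A l' ≠ 0 → ∃ μ : F, A' l = μ • A l := by
    intro l l' hll h1 h2
    by_cases h : A l ∈ Submodule.span F {A' l}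
    · obtain ⟨ν, hν⟩ := Submodule.mem_span_singleton.1 h
      have hν0 : ν ≠ 0 := by
        rintro rfl
        rw [zero_smul] at hν
        exact h1 hν.symm
      exact ⟨ν⁻¹, by rw [← hν, smul_smul, inv_mul_cancel₀ hν0, one_smul]⟩
    · have hsp : Submodule.span F {A' l} ≤ D l := by
        rw [Submodule.span_singleton_le_iff_mem]
        exact hA'm l
      obtain ⟨z, hz, h3, h4⟩ := ((C.hp l)).sep_in hQ hsp (hAm l) h
      have h5 := key l l' hll z hz
      rw [h3 _ (Submodule.mem_span_singleton_self _)] at h5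
      simp only [mul_zero, zero_smul, zero_add, sub_zero] at h5
      rcases smul_eq_zero.1 h5 with h6 | h6
      · rcases mul_eq_zero.1 h6 with h7 | h7
        · exact absurd h7 (inv_ne_zero hc)
        · exact absurd (by simpa using h7) h4
      · exact absurd h6 h2
  have unit : ∀ l, A l ≠ 0 → ∃ v ∈ D l, polar Q (A l) v = 1 := by
    intro l h
    obtain ⟨z, hz, hz'⟩ := (C.hp l).nondeg hQ (hAm l) h
    exact ⟨(polar Q (A l) z)⁻¹ • z, (D l).smul_mem _ hz, by rw [polar_sm_r, inv_mul_cancel₀ hz']⟩
  have stepB : ∀ l l' (μ μ' : F), l ≠ l' → A l ≠ 0 → A l' ≠ 0 → A' l = μ • A l → A' l' = μ' • A l' →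
      c * μ * μ' + c - μ * τ = 0 := by
    intro l l' μ μ' hll h1 h2 h3 h4
    obtain ⟨v, hv, hv1⟩ := unit l h1
    have h5 := key l l' hll v hv
    rw [h3, h4, polar_sm_l, hv1, smul_smul, ← add_smul] at h5
    rcases smul_eq_zero.1 h5 with h6 | h6
    · have h7 : c * c * (c⁻¹ * (μ * 1) * μ' + c⁻¹ * (1 - c⁻¹ * (μ * 1) * τ)) = 0 := by rw [h6, mul_zero]
      field_simp at h7
      linear_combination h7
    · exact absurd h6 h2
  obtain ⟨μ₁, hμ₁⟩ := stepA l₁ l₂ hl₂.symm hA1 hA2
  obtain ⟨μ₂, hμ₂⟩ := stepA l₂ l₁ hl₂ hA2 hA1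
  have h12 := stepB l₁ l₂ μ₁ μ₂ hl₂.symm hA1 hA2 hμ₁ hμ₂
  have h21 := stepB l₂ l₁ μ₂ μ₁ hl₂ hA2 hA1 hμ₂ hμ₁
  have hμ₁0 : μ₁ ≠ 0 := by
    rintro rfl
    apply hc
    linear_combination h12
  have hall : ∀ l, A' l = μ₁ • A l := by
    intro l
    by_cases hl0 : A l = 0
    · have hll : l₁ ≠ l := by
        rintro rfl
        exact hA1 hl0
      obtain ⟨v, hv, hv1⟩ := unit l₁ hA1
      have h5 := key l₁ l hll v hv
      rw [hl0, smul_zero, add_zero, hμ₁, polar_sm_l, hv1] at h5
      rcases smul_eq_zero.1 h5 with h6 | h6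
      · rcases mul_eq_zero.1 h6 with h7 | h7
        · exact absurd h7 (inv_ne_zero hc)
        · rw [mul_one] at h7
          exact absurd h7 hμ₁0
      · rw [hl0, smul_zero]
        exact h6
    · by_cases hll : l = l₁
      · rw [hll]
        exact hμ₁
      · obtain ⟨μ, hμ⟩ := stepA l l₁ hll hl0 hA1
        have h3 := stepB l l₁ μ μ₁ hll hl0 hA1 hμ hμ₁
        have h4 := stepB l₁ l μ₁ μ (Ne.symm hll) hA1 hl0 hμ₁ hμ
        have h5 : τ * (μ - μ₁) = 0 := by linear_combination h4 - h3
        have h6 : μ = μ₁ := by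
          rcases mul_eq_zero.1 h5 with h7 | h7
          · exact absurd h7 hτ
          · exact sub_eq_zero.1 h7
        rw [hμ, h6]
  apply hind μ₁
  apply eq_of_pr C
  intro l
  have h1 := hall l
  rw [hA, hA'] at h1
  rw [pr_smul]
  exact h1

/-- The same for an element of the stabiliser of blocks of dimension at least three. -/
theorem refl_pair_H (hfin : ∀ i, finrank F (D i) = k) (h3 : 3 ≤ k) {g : GL ι F} {p p' : ι → F} {c : F} (hQp : Q p = c)
    (hQp' : Q p' = c) (hc : c ≠ 0) (hτ : polar Q p' p ≠ 0) (hind : ∀ s : F, p' ≠ s • p)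
    (hg : ∀ x, g ⋆ x = refl Q p (refl Q p' x)) (hgH : g ∈ decompositionStabilizer D) : ∃ l, p ∈ D l := by
  classical
  obtain ⟨σ, hσ⟩ := hgH
  have hmaps : ∀ i, ∀ x ∈ D i, g ⋆ x ∈ D (σ i) := by
    intro i x hx
    rw [← hσ i]
    exact ⟨x, hx, rfl⟩
  by_cases hall : ∀ i, σ i = i
  · refine refl_pair_block C hQp hQp' hc hτ hind hg (fun l v hv => ?_)
    have := hmaps l v hv
    rwa [hall] at this
  exfalso
  push Not at hall
  obtain ⟨i, hi⟩ := hall
  set S : Submodule F (ι → F) := Submodule.span F {p, p'} with hS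
  have hdiff : ∀ x, g ⋆ x - x ∈ S := by
    intro x
    rw [hg, refl2_formula hQp hQp']
    have h1 : p ∈ S := Submodule.subset_span (by simp)
    have h2 : p' ∈ S := Submodule.subset_span (by simp)
    have e : x - (c⁻¹ * polar Q p' x) • p' - (c⁻¹ * (polar Q p x - c⁻¹ * polar Q p' x * polar Q p' p)) • p - x =
        -((c⁻¹ * polar Q p' x) • p') - (c⁻¹ * (polar Q p x - c⁻¹ * polar Q p' x * polar Q p' p)) • p := by abel
    rw [e]
    exact S.sub_mem (S.neg_mem (S.smul_mem _ h2)) (S.smul_mem _ h1)
  let T : (D i) →ₗ[F] S := LinearMap.codRestrict S ((toL g - LinearMap.id).comp (D i).subtype) (fun x => hdiff x)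
  have hT : Function.Injective T := by
    rw [injective_iff_map_eq_zero]
    intro x hx
    have h1 : g ⋆ (x : ι → F) - x = 0 := congrArg Subtype.val hx
    have h2 : g ⋆ (x : ι → F) = x := sub_eq_zero.1 h1
    have h4 := hmaps i x x.2
    rw [h2] at h4
    by_contra hx0
    have hx1 : (x : ι → F) ≠ 0 := fun h => hx0 (Subtype.ext h)
    exact hi (block_unique C hx1 h4 x.2)
  have h5 := LinearMap.finrank_le_finrank_of_injective hT
  have h6 : finrank F S ≤ 2 := by
    have := finrank_span_finset_le_card (R := F) ({p, p'} : Finset (ι → F))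
    simp only [Finset.coe_insert, Finset.coe_singleton] at this
    exact this.trans Finset.card_le_two
  rw [hfin] at h5
  omega

/-- The general reduction: sending vectors of a norm into blocks implies lying in the stabiliser. -/
theorem block_span_gen (hfin : ∀ i, finrank F (D i) = k) (hk : 0 < k) {g : GL ι F} (hiso : ∀ v, Q (g ⋆ v) = Q v) {c : F}
    (hval : ∀ l, ∃ b ∈ D l, Q b = c)
    (hconn : ∀ l, ∀ b ∈ D l, ∀ b' ∈ D l, Q b = c → Q b' = c → polar Q b b' = 0 →
      b = b' ∨ ∃ b'' ∈ D l, Q b'' = c ∧ polar Q b'' b ≠ 0 ∧ polar Q b'' b' ≠ 0)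
    (hnon : ∀ l, ∀ w ∈ D l, w ≠ 0 → ∃ b ∈ D l, Q b = c ∧ polar Q b w ≠ 0)
    (hg : ∀ l, ∀ b ∈ D l, Q b = c → ∃ l', g ⋆ b ∈ D l') : g ∈ decompositionStabilizer D := by
  classical
  have hsameblock : ∀ {x y : ι → F} {l₁ l₂ : Fin t}, polar Q x y ≠ 0 → g ⋆ x ∈ D l₁ → g ⋆ y ∈ D l₂ → l₁ = l₂ := by
    intro x y l₁ l₂ h h1 h2
    by_contra hne
    apply h
    rw [← polar_iso hiso x y]
    exact polar_orth C hne h1 h2
  choose b₀ hb₀ hb₀' using hval
  choose σ' hσ' using fun l => hg l (b₀ l) (hb₀ l) (hb₀' l)
  have hsame : ∀ l, ∀ b ∈ D l, Q b = c → g ⋆ b ∈ D (σ' l) := by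
    intro l b hb hQb
    obtain ⟨l', hl'⟩ := hg l b hb hQb
    by_cases h00 : polar Q (b₀ l) b = 0
    · rcases hconn l _ (hb₀ l) _ hb (hb₀' l) hQb h00 with h1 | ⟨b'', hb'', h1, h2, h3⟩
      · rw [← h1]
        exact hσ' l
      · obtain ⟨l'', hl''⟩ := hg l b'' hb'' h1
        have e1 := hsameblock h2 hl'' (hσ' l)
        have e2 := hsameblock h3 hl'' hl'
        rw [← e1, e2]
        exact hl'
    · have e1 := hsameblock h00 (hσ' l) hl'
      rw [e1]
      exact hl'
  refine stab_of_maps C hfin hk g σ' (fun l x hx => ?_)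
  set W : Submodule F (ι → F) := Submodule.span F {b | b ∈ D l ∧ Q b = c} with hW
  have hWle : W ≤ D l := by
    rw [hW, Submodule.span_le]
    exact fun b hb => hb.1
  have hxW : x ∈ W := by
    by_contra hxW
    obtain ⟨z, hz, h1, h2⟩ := (C.hp l).sep_in hQ hWle hx hxW
    have hz0 : z ≠ 0 := by
      rintro rfl
      exact h2 (polar_zero_right _ _)
    obtain ⟨b, hb, hQb, hbz⟩ := hnon l z hz hz0
    exact hbz (h1 b (Submodule.subset_span ⟨hb, hQb⟩))
  refine Submodule.span_induction (p := fun x _ => g ⋆ x ∈ D (σ' l)) ?_ ?_ ?_ ?_ hxW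
  · intro b hb
    exact hsame l b hb.1 hb.2
  · rw [Matrix.mulVec_zero]
    exact (D _).zero_mem
  · intro a b _ _ h1 h2
    rw [Matrix.mulVec_add]
    exact (D _).add_mem h1 h2
  · intro a b _ h1
    rw [Matrix.mulVec_smul]
    exact (D _).smul_mem _ h1

end Main

/-! ### Vectors in blocks of dimension at least four -/

/-- A vector of given norm not orthogonal to a given vector. -/
theorem nonorth4 (hQ : Nondeg Q) (hp : OPair Q P P') (h4 : 4 ≤ finrank F P) {c : F} (hc : c ≠ 0) {w : ι → F} (hw : w ∈ P)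
    (hw0 : w ≠ 0) : ∃ b ∈ P, Q b = c ∧ polar Q b w ≠ 0 := by
  obtain ⟨a, ha, hQa, hwa⟩ := exists_sing_non_perp hQ hp (by omega) hw hw0
  have ha0 : a ≠ 0 := by
    rintro rfl
    exact hwa (polar_zero_right _ _)
  obtain ⟨f, hf, hQf, haf⟩ := exists_partner hQ hp ha ha0 hQa
  obtain ⟨hN, hfN⟩ := opair_hyp hQ hp ha hf hQa hQf haf
  obtain ⟨s, hs, hQs⟩ := value_in hQ hN (by omega) hc
  have hsa : polar Q s a = 0 := by
    rw [polar_comm]
    exact mem_perpQ.1 hs.2 a (Submodule.subset_span (by simp))
  by_cases h1 : polar Q s w = 0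
  · refine ⟨s + a, P.add_mem hs.1 ha, ?_, ?_⟩
    · rw [Q_ad, hQs, hQa, hsa]
      ring
    · rw [polar_add_left, h1, zero_add, polar_comm]
      exact hwa
  · exact ⟨s, hs.1, hQs, h1⟩

/-- Connecting two orthogonal vectors of the same norm. -/
theorem connect4 (hQ : Nondeg Q) (hp : OPair Q P P') (h4 : 4 ≤ finrank F P) {c : F} (hc : c ≠ 0)
    (hm : finrank F P = 4 → Fintype.card F = 2 → ¬ IsPlusTypeOn ⇑Q P)
    {b b' : ι → F} (hb : b ∈ P) (hb' : b' ∈ P) (hQb : Q b = c) (hQb' : Q b' = c) (hbb : polar Q b b' = 0) :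
    b = b' ∨ ∃ b'' ∈ P, Q b'' = c ∧ polar Q b'' b ≠ 0 ∧ polar Q b'' b' ≠ 0 := by
  classical
  by_cases h2 : (2 : F) = 0
  · by_cases hne : b = b'
    · exact Or.inl hne
    right
    have hb'b : polar Q b' b = 0 := by rw [polar_comm]; exact hbb
    have hself : ∀ x : ι → F, polar Q x x = 0 := fun x => by rw [pol2, h2, zero_mul]
    have hsq1 : ∀ s : F, s * s = 1 → s = 1 := by
      intro s hs
      have : (s - 1) * (s - 1) = 0 := by linear_combination hs + (1 - s) * h2
      exact sub_eq_zero.1 (mul_self_eq_zero.1 this)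
    have hb'nsp : b' ∉ Submodule.span F {b} := by
      intro h
      obtain ⟨s, hs⟩ := Submodule.mem_span_singleton.1 h
      have h3 : Q b' = s * s * c := by rw [← hs, Q_sm, hQb]; ring
      rw [hQb'] at h3
      have h5 : s * s = 1 := by
        have : (s * s - 1) * c = 0 := by linear_combination -h3
        rcases mul_eq_zero.1 this with h6 | h6
        · exact sub_eq_zero.1 h6
        · exact absurd h6 hc
      rw [hsq1 s h5, one_smul] at hs
      exact hne hs
    have hbnsp : b ∉ Submodule.span F {b'} := by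
      intro h
      obtain ⟨s, hs⟩ := Submodule.mem_span_singleton.1 h
      have h3 : Q b = s * s * c := by rw [← hs, Q_sm, hQb']; ring
      rw [hQb] at h3
      have h5 : s * s = 1 := by
        have : (s * s - 1) * c = 0 := by linear_combination -h3
        rcases mul_eq_zero.1 this with h6 | h6
        · exact sub_eq_zero.1 h6
        · exact absurd h6 hc
      rw [hsq1 s h5, one_smul] at hs
      exact hne hs.symm
    have hspb : Submodule.span F {b} ≤ P := by
      rw [Submodule.span_singleton_le_iff_mem]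
      exact hb
    have hspb' : Submodule.span F {b'} ≤ P := by
      rw [Submodule.span_singleton_le_iff_mem]
      exact hb'
    obtain ⟨z₁, hz₁, h1, h3⟩ := hp.sep_in hQ hspb hb' hb'nsp
    obtain ⟨z₂, hz₂, h5, h6⟩ := hp.sep_in hQ hspb' hb hbnsp
    have hbz₁ : polar Q b z₁ = 0 := h1 b (Submodule.mem_span_singleton_self b)
    have hb'z₂ : polar Q b' z₂ = 0 := h5 b' (Submodule.mem_span_singleton_self b')
    -- a vector non-orthogonal to both
    obtain ⟨y, hy, hby, hb'y⟩ : ∃ y ∈ P, polar Q b y = 1 ∧ polar Q b' y = 1 := by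
      refine ⟨(polar Q b z₂)⁻¹ • z₂ + (polar Q b' z₁)⁻¹ • z₁, P.add_mem (P.smul_mem _ hz₂) (P.smul_mem _ hz₁), ?_, ?_⟩
      · rw [polar_add_right, polar_sm_r, polar_sm_r, inv_mul_cancel₀ h6, hbz₁, mul_zero, add_zero]
      · rw [polar_add_right, polar_sm_r, polar_sm_r, inv_mul_cancel₀ h3, hb'z₂, mul_zero, zero_add]
    -- it suffices to find a non-singular one
    have hscale : ∀ y' ∈ P, Q y' ≠ 0 → polar Q b y' ≠ 0 → polar Q b' y' ≠ 0 →
        ∃ b'' ∈ P, Q b'' = c ∧ polar Q b'' b ≠ 0 ∧ polar Q b'' b' ≠ 0 := by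
      intro y' hy' h7 h8 h9
      obtain ⟨s, hs⟩ := sq_of_two h2 (c / Q y')
      have hs0 : s ≠ 0 := by
        rintro rfl
        rw [mul_zero] at hs
        exact (div_ne_zero hc h7) hs.symm
      refine ⟨s • y', P.smul_mem _ hy', ?_, ?_, ?_⟩
      · have e : s ^ 2 = c / Q y' := by rw [_root_.sq]; exact hs
        rw [Q_sm, e]
        field_simp
      · rw [polar_sm_l, polar_comm]
        exact mul_ne_zero hs0 h8
      · rw [polar_sm_l, polar_comm]
        exact mul_ne_zero hs0 h9
    by_cases hQy : Q y = 0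
    · by_cases hcard : Fintype.card F = 2
      · -- the field with two elements
        have hQb2 : Q (b + b') = 0 := by
          rw [Q_ad, hQb, hQb', hbb, add_zero, ← two_mul, h2, zero_mul]
        have hyz : polar Q y (b + b') = 0 := by
          rw [polar_add_right, polar_comm Q y b, polar_comm Q y b', hby, hb'y, ← two_mul, mul_one]
          exact h2
        by_cases hf4 : finrank F P = 4
        · exfalso
          refine hm hf4 hcard ⟨Submodule.span F {y, b + b'}, ?_, ?_, ?_⟩
          · rw [Submodule.span_le]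
            intro x hx
            simp only [Set.mem_insert_iff, Set.mem_singleton_iff] at hx
            rcases hx with rfl | rfl
            · exact hy
            · exact P.add_mem hb hb'
          · intro x hx
            obtain ⟨α, β, rfl⟩ := Submodule.mem_span_pair.1 hx
            rw [Q_ad, Q_sm, Q_sm, hQy, hQb2, polar_sm_l, polar_sm_r, hyz]
            ring
          · rw [hf4]
            have hli : LinearIndependent F ![y, b + b'] := by
              rw [LinearIndependent.pair_iff]
              intro α β h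
              have h7 := congrArg (fun x => polar Q b x) h
              simp only [polar_add_right, polar_sm_r, polar_zero_right, hby, hself, hbb] at h7
              have hα : α = 0 := by simpa using h7
              rw [hα, zero_smul, zero_add] at h
              have hne2 : b + b' ≠ 0 := by
                intro h8
                have h9 := congrArg (fun x => polar Q x y) h8
                simp only [polar_add_left, hby, hb'y, polar_zero_left] at h9
                rw [← two_mul, mul_one] at h9
                have h10 := congrArg (fun x => polar Q x y) h8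
                apply hne
                have : b = -b' := eq_neg_of_add_eq_zero_left h8
                have h2' : b' + b' = 0 := by rw [← two_smul F b', h2, zero_smul]
                rw [this]
                exact neg_eq_of_add_eq_zero_left h2'
              rcases smul_eq_zero.1 h with h8 | h8
              · exact ⟨hα, h8⟩
              · exact absurd h8 hne2
            have hc2 := finrank_span_eq_card hli
            have e : Set.range ![y, b + b'] = {y, b + b'} := by
              ext x
              simp only [Set.mem_range, Fin.exists_fin_two, Matrix.cons_val_zero, Matrix.cons_val_one, Set.mem_insert_iff,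
                Set.mem_singleton_iff, eq_comm]
            rw [e] at hc2
            rw [hc2]
            simp
        · -- dimension at least five
          have h5' : 5 ≤ finrank F P := by omega
          set S : Submodule F (ι → F) := Submodule.span F {b, b'} with hS
          have hSf : finrank F S ≤ 2 := by
            have := finrank_span_finset_le_card (R := F) ({b, b'} : Finset (ι → F))
            simp only [Finset.coe_insert, Finset.coe_singleton] at this
            exact this.trans Finset.card_le_two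
          have hT := finrank_inf_perp hQ P S
          have hSle : S ≤ P := by
            rw [hS, Submodule.span_le]
            intro x hx
            simp only [Set.mem_insert_iff, Set.mem_singleton_iff] at hx
            rcases hx with rfl | rfl
            · exact hb
            · exact hb'
          obtain ⟨t₀, ht₀, ht₀S⟩ : ∃ t₀ ∈ P ⊓ perpQ Q S, t₀ ∉ S := by
            by_contra hcon
            push Not at hcon
            have := Submodule.finrank_mono (show P ⊓ perpQ Q S ≤ S from hcon)
            omega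
          obtain ⟨t', ht', h7, h8⟩ := hp.sep_in hQ hSle ht₀.1 ht₀S
          have h9 : polar Q b t' = 0 := h7 b (Submodule.subset_span (by simp))
          have h10 : polar Q b' t' = 0 := h7 b' (Submodule.subset_span (by simp))
          have h11 : polar Q b t₀ = 0 := mem_perpQ.1 ht₀.2 b (Submodule.subset_span (by simp))
          have h12 : polar Q b' t₀ = 0 := mem_perpQ.1 ht₀.2 b' (Submodule.subset_span (by simp))
          by_cases h13 : Q (y + t₀) = 0
          · by_cases h14 : Q (y + t') = 0
            · refine hscale (y + t₀ + t') (P.add_mem (P.add_mem hy ht₀.1) ht') ?_ ?_ ?_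
              · have e1 := h14
                rw [Q_ad, hQy] at e1
                have e2 : Q t' + polar Q y t' = 0 := by linear_combination e1
                have e3 : Q (y + t₀ + t') = polar Q t₀ t' := by
                  rw [Q_ad, h13, polar_add_left]
                  linear_combination e2
                rw [e3]
                exact h8
              · rw [polar_add_right, polar_add_right, hby, h11, h9]
                simp
              · rw [polar_add_right, polar_add_right, hb'y, h12, h10]
                simp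
            · refine hscale (y + t') (P.add_mem hy ht') h14 ?_ ?_
              · rw [polar_add_right, hby, h9]
                simp
              · rw [polar_add_right, hb'y, h10]
                simp
          · refine hscale (y + t₀) (P.add_mem hy ht₀.1) h13 ?_ ?_
            · rw [polar_add_right, hby, h11]
              simp
            · rw [polar_add_right, hb'y, h12]
              simp
      · -- more elements in the field
        have hex : ∃ s : F, Q (y + s • b) ≠ 0 := by
          by_contra hcon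
          push Not at hcon
          have h7 : ∀ s : F, s + s * s * c = 0 := by
            intro s
            have := hcon s
            rw [Q_ad, Q_sm, hQy, hQb, polar_sm_r, polar_comm Q y b, hby] at this
            linear_combination this
          have h8 : 1 + c = 0 := by simpa using h7 1
          have h9 : ∀ s : F, s = 0 ∨ s = 1 := by
            intro s
            have h10 := h7 s
            have h11 : c = 1 := by linear_combination h8 - h2
            rw [h11] at h10
            have h12 : s * (s - 1) = 0 := by linear_combination h10 - s * h2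
            rcases mul_eq_zero.1 h12 with h13 | h13
            · exact Or.inl h13
            · exact Or.inr (sub_eq_zero.1 h13)
          apply hcard
          have h13 : (Finset.univ : Finset F) = {0, 1} := by
            ext s
            simp only [Finset.mem_univ, Finset.mem_insert, Finset.mem_singleton, true_iff]
            exact h9 s
          rw [← Finset.card_univ, h13, Finset.card_pair zero_ne_one]
        obtain ⟨s, hs⟩ := hex
        refine hscale (y + s • b) (P.add_mem hy (P.smul_mem _ hb)) hs ?_ ?_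
        · rw [polar_add_right, polar_sm_r, hself, hby]
          simp
        · rw [polar_add_right, polar_sm_r, hb'b, hb'y]
          simp
    · refine hscale y hy hQy ?_ ?_
      · rw [hby]
        exact one_ne_zero
      · rw [hb'y]
        exact one_ne_zero
  · right
    obtain ⟨hN, hfN⟩ := opair_perp hQ h2 hp hb (by rw [hQb]; exact hc)
    have hb'N : b' ∈ P ⊓ perpQ Q (Submodule.span F {b}) := Cfsg.Agent.Lib.OmBlk3.mem_perp hb' (by rw [polar_comm]; exact hbb)
    obtain ⟨hN2, hfN2⟩ := opair_perp hQ h2 hN hb'N (by rw [hQb']; exact hc)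
    obtain ⟨w, hw, hQw⟩ := value_in hQ hN2 (by omega) (neg_ne_zero.2 hc)
    have hwb' : polar Q w b' = 0 := Cfsg.Agent.Lib.OmBlk3.perp_mem hw
    have hwb : polar Q w b = 0 := Cfsg.Agent.Lib.OmBlk3.perp_mem hw.1
    refine ⟨b + b' + w, P.add_mem (P.add_mem hb hb') hw.1.1, ?_, ?_, ?_⟩
    · rw [Q_ad, Q_ad, hQb, hQb', hQw, hbb, polar_add_left, polar_comm Q b w, polar_comm Q b' w, hwb, hwb']
      ring
    · rw [polar_add_left, polar_add_left, pol2, polar_comm Q b' b, hbb, hwb, hQb]
      simpa using mul_ne_zero h2 hc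
    · rw [polar_add_left, polar_add_left, pol2, hbb, hwb', hQb']
      simpa using mul_ne_zero h2 hc

/-- A pair of vectors of the same norm, independent and not orthogonal, orthogonal to a non-singular vector. -/
theorem exists_pair4 (hQ : Nondeg Q) (hp : OPair Q P P') (h4 : 4 ≤ finrank F P) {A : ι → F} (hA : A ∈ P) (hQA : Q A ≠ 0) :
    ∃ w ∈ P, ∃ w' ∈ P, polar Q w A = 0 ∧ polar Q w' A = 0 ∧ Q w = Q w' ∧ Q w ≠ 0 ∧ polar Q w' w ≠ 0 ∧ ∀ s : F, w' ≠ s • w := by
  classical
  by_cases h2 : (2 : F) = 0
  · have hself : ∀ x : ι → F, polar Q x x = 0 := fun x => by rw [pol2, h2, zero_mul]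
    have hA0 : A ≠ 0 := by
      rintro rfl
      exact hQA (map_zero _)
    have hS := finrank_inf_perp hQ P (Submodule.span F {A})
    rw [finrank_span_singleton hA0] at hS
    obtain ⟨a, ha, haS⟩ : ∃ a ∈ P ⊓ perpQ Q (Submodule.span F {A}), a ∉ Submodule.span F {A} := by
      by_contra hcon
      push Not at hcon
      have := Submodule.finrank_mono (show P ⊓ perpQ Q (Submodule.span F {A}) ≤ _ from hcon)
      rw [finrank_span_singleton hA0] at this
      omega
    have hspA : Submodule.span F {A} ≤ P := by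
      rw [Submodule.span_singleton_le_iff_mem]
      exact hA
    obtain ⟨z, hz, h1, h3⟩ := hp.sep_in hQ hspA ha.1 haS
    have hAz : polar Q A z = 0 := h1 A (Submodule.mem_span_singleton_self A)
    have haA : polar Q a A = 0 := Cfsg.Agent.Lib.OmBlk3.perp_mem ha
    obtain ⟨b, hb⟩ : ∃ b, b = (polar Q a z)⁻¹ • z := ⟨_, rfl⟩
    have hbP : b ∈ P := by rw [hb]; exact P.smul_mem _ hz
    have hab : polar Q a b = 1 := by rw [hb, polar_sm_r, inv_mul_cancel₀ h3]
    have hbA : polar Q b A = 0 := by rw [hb, polar_sm_l, polar_comm Q z A, hAz, mul_zero]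
    obtain ⟨s, hs⟩ := sq_of_two h2 ((1 - Q a) / Q A)
    obtain ⟨s', hs'⟩ := sq_of_two h2 ((1 - Q b) / Q A)
    have hw : Q (a + s • A) = 1 := by
      have e : s ^ 2 = (1 - Q a) / Q A := by rw [_root_.sq]; exact hs
      rw [Q_ad, Q_sm, polar_sm_r, haA, e]
      field_simp
      ring
    have hw' : Q (b + s' • A) = 1 := by
      have e : s' ^ 2 = (1 - Q b) / Q A := by rw [_root_.sq]; exact hs'
      rw [Q_ad, Q_sm, polar_sm_r, hbA, e]
      field_simp
      ring
    have hpw : polar Q (b + s' • A) (a + s • A) = 1 := by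
      rw [polar_add_left, polar_add_right, polar_add_right, polar_sm_l, polar_sm_r, polar_sm_r, polar_sm_l, hself A, hbA,
        polar_comm Q A a, haA, polar_comm Q b a, hab]
      ring
    refine ⟨a + s • A, P.add_mem ha.1 (P.smul_mem _ hA), b + s' • A, P.add_mem hbP (P.smul_mem _ hA), ?_, ?_, ?_, ?_, ?_, ?_⟩
    · rw [polar_add_left, polar_sm_l, haA, hself]
      ring
    · rw [polar_add_left, polar_sm_l, hbA, hself]
      ring
    · rw [hw, hw']
    · rw [hw]
      exact one_ne_zero
    · rw [hpw]
      exact one_ne_zero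
    · intro r h
      rw [h, polar_sm_l, hself, mul_zero] at hpw
      exact zero_ne_one hpw
  · obtain ⟨hN, hfN⟩ := opair_perp hQ h2 hp hA hQA
    obtain ⟨e₀, he₀0, hQe₀⟩ := exists_singular (restr Q (P ⊓ perpQ Q (Submodule.span F {A}))) (by omega)
    have he : (e₀ : ι → F) ∈ P ⊓ perpQ Q (Submodule.span F {A}) := e₀.2
    have he0 : (e₀ : ι → F) ≠ 0 := fun h => he₀0 (Subtype.ext h)
    have hQe : Q (e₀ : ι → F) = 0 := hQe₀
    generalize (e₀ : ι → F) = e at he he0 hQe
    obtain ⟨f, hf, hQf, hef⟩ := exists_partner hQ hN he he0 hQe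
    obtain ⟨c, hc, hec, hfc, hQc⟩ := exists_nonsing_perp hQ hN (by omega) he hf hQe hQf hef
    have hce : polar Q c e = 0 := by rw [polar_comm]; exact hec
    refine ⟨c, hc.1, c + e, P.add_mem hc.1 he.1, Cfsg.Agent.Lib.OmBlk3.perp_mem hc, ?_, ?_, hQc, ?_, ?_⟩
    · rw [polar_add_left, Cfsg.Agent.Lib.OmBlk3.perp_mem hc, Cfsg.Agent.Lib.OmBlk3.perp_mem he, add_zero]
    · rw [Q_ad, hQe, hce]
      ring
    · rw [polar_add_left, pol2, hec]
      simpa using mul_ne_zero h2 hQc
    · intro s h
      have h1 : e = (s - 1) • c := by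
        rw [sub_smul, one_smul, ← h]
        abel
      have h3 : (s - 1) * (s - 1) * Q c = 0 := by
        have e5 := congrArg Q h1
        rw [Q_sm, hQe] at e5
        linear_combination -e5
      have h5 : s - 1 = 0 := by
        rcases mul_eq_zero.1 h3 with h6 | h6
        · exact mul_self_eq_zero.1 h6
        · exact absurd h6 hQc
      rw [h5, zero_smul] at h1
      exact he0 h1

/-- The property that sending a non-singular block vector into a block forces membership of the stabiliser. -/
def Star (Q : QuadraticForm F (ι → F)) {t : ℕ} (D : Fin t → Submodule F (ι → F)) (M : Subgroup (GL ι F)) : Prop :=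
  ∀ g ∈ M, ∀ i l, ∀ a ∈ D i, Q a ≠ 0 → g ⋆ a ∈ D l → g ∈ decompositionStabilizer D

section Env

variable {t k : ℕ} {D : Fin t → Submodule F (ι → F)} (E : Env hQ k D M)
include E

/-- Conjugating a product of two reflections. -/
theorem conj_pair {x : GL ι F} (hx : x ∈ M) {h : GL ι F} {w w' : ι → F} (hh : ∀ v, h ⋆ v = refl Q w (refl Q w' v)) (v : ι → F) :
    (x⁻¹ * h * x) ⋆ v = refl Q (x⁻¹ ⋆ w) (refl Q (x⁻¹ ⋆ w') v) := by
  have hy : ∀ v, Q (x⁻¹ ⋆ v) = Q v := iso_inv (Env.iso E hx)
  rw [mulVec_mul_GL, mulVec_mul_GL, hh, mul_refl hy, mul_refl hy, inv_mulVec_GL]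

/-- Under `Star`, with blocks of dimension at least four, every element of `M` lies in the stabiliser. -/
theorem Env.case1_ge4 (h4 : 4 ≤ k) (ht0 : 0 < t) (hS : Star Q D M) {x : GL ι F} (hx : x ∈ M) : x ∈ decompositionStabilizer D := by
  classical
  have hC := Env.dc E
  let i₀ : Fin t := ⟨0, ht0⟩
  obtain ⟨a, ha, hQa⟩ := Env.value E i₀ (one_ne_zero (α := F))
  set u := x ⋆ a with hu
  have hQu : Q u ≠ 0 := by
    rw [hu, Env.iso E hx, hQa]
    exact one_ne_zero
  obtain ⟨m, hm⟩ := exists_Q_pr_ne (Env.dc E) hQu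
  obtain ⟨w, hw, w', hw', h1, h2, h3, h5, h6, h7⟩ :=
    exists_pair4 hQ ((Env.dc E).hp m) (by rw [Env.hfin E]; exact h4) (pr_mem (Env.dc E) m u) hm
  obtain ⟨h, hh, hh'⟩ := Env.refl2_H E hw hw' h3 h5
  have huw : polar Q u w = 0 := by
    rw [polar_pr (Env.dc E) u hw, polar_comm]
    exact h1
  have huw' : polar Q u w' = 0 := by
    rw [polar_pr (Env.dc E) u hw', polar_comm]
    exact h2
  have hhu : h ⋆ u = u := by rw [hh', r_perp huw', r_perp huw]
  have hG : x⁻¹ * h * x ∈ M := M.mul_mem (M.mul_mem (M.inv_mem hx) (E.hHM hh)) hx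
  have hGa : (x⁻¹ * h * x) ⋆ a = a := by
    rw [mulVec_mul_GL, mulVec_mul_GL, ← hu, hhu, hu, inv_mulVec_GL]
  have hGH : x⁻¹ * h * x ∈ decompositionStabilizer D := hS _ hG i₀ i₀ a ha (by rw [hQa]; exact one_ne_zero) (by rw [hGa]; exact ha)
  have hy : ∀ v, Q (x⁻¹ ⋆ v) = Q v := iso_inv (Env.iso E hx)
  obtain ⟨l, hl⟩ := refl_pair_H (Env.dc E) (Env.hfin E) (by omega) (p := x⁻¹ ⋆ w) (p' := x⁻¹ ⋆ w') (c := Q w) (hy w)
    (by rw [hy, h3]) h5 (by rw [polar_iso hy]; exact h6)
    (fun s h' => h7 s (by
      apply GL_inj x⁻¹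
      rw [h', Matrix.mulVec_smul]))
    (conj_pair E hx hh') hGH
  have hyH := hS _ (M.inv_mem hx) m l w hw h5 hl
  have := (decompositionStabilizer D).inv_mem hyH
  rwa [inv_inv] at this

end Env

end Cfsg.Agent.Lib.H97WD
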