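import Mathlib
import Cfsg.Agent.Lib.H97WD

/-!
# Orthogonal decompositions: maximality for blocks of dimension three and at least four
-/

set_option autoImplicit false
set_option linter.unusedSectionVars false
set_option linter.unusedVariables false

namespace Cfsg.Agent.Lib.H97WE

open Matrix QuadraticMap Cfsg Cfsg.Geo Module
open Cfsg.Agent.Lib.OrthoBasic Cfsg.Agent.Lib.OrthoSiegel Cfsg.Agent.Lib.OmCalc Cfsg.Agent.Lib.TvGL
  Cfsg.Agent.Lib.OmPerp Cfsg.Agent.Lib.OmNd Cfsg.Agent.Lib.OmK Cfsg.Agent.Lib.OmPair Cfsg.Agent.Lib.OmBlk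
  Cfsg.Agent.Lib.H97WA Cfsg.Agent.Lib.H97WB Cfsg.Agent.Lib.H97WC Cfsg.Agent.Lib.H97WD
open Cfsg.Agent.Lib.OrthGroup Cfsg.Agent.Lib.OrthOmega
open Cfsg.Agent.Lib.SympT (GL_ext mulVec_mul_GL mulVec_inv_GL inv_mulVec_GL linOf linOf_apply)
open Cfsg.Agent.Lib.QuadFF (polar_sm_r polar_sm_l Q_ad Q_sm IsHyp ND restr polar_restr exists_singular)

local notation:70 g:71 " ⋆ " x:70 => Matrix.mulVec (Units.val g) x

variable {ι : Type} [Fintype ι] [DecidableEq ι] {F : Type*} [Field F] [Fintype F]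
  {Q : QuadraticForm F (ι → F)} {P P' : Submodule F (ι → F)} {hQ : Nondeg Q} {M : Subgroup (GL ι F)}

section Main

variable {t k : ℕ} {D : Fin t → Submodule F (ι → F)}

/-- The stabiliser is proper, as soon as there is a singular vector with a zero component. -/
theorem H_lt (hQ : Nondeg Q) (h11 : 11 ≤ Fintype.card ι) (hD : IsOrthogonalMDecomposition ⇑Q k D) (hk : 0 < k)
    {e : ι → F} {j : Fin t} (he0 : e ≠ 0) (hQe : Q e = 0) (hej : pr (dc_of hQ hD) j e = 0) :
    decompositionStabilizer D ⊓ omegaGL ⇑Q < omegaGL ⇑Q := by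
  classical
  have C := dc_of hQ hD
  refine lt_of_le_of_ne inf_le_right ?_
  intro heq
  have hfin := hD.decomp.decomp.finrank_eq
  obtain ⟨y, hy, hy0⟩ : ∃ y ∈ D j, y ≠ 0 := Cfsg.Agent.Lib.QForm.exists_ne_zero_mem (by rw [hfin]; omega)
  obtain ⟨x, hx, hxy⟩ := ((dc_of hQ hD).hp j).nondeg hQ hy hy0
  have hey : polar Q e y = 0 := polar_of_pr (dc_of hQ hD) hej hy
  have hO := sE_mem_omegaGL hQ h11 hQe hey
  have hmem : sE hQ hQe hey ∈ decompositionStabilizer D ⊓ omegaGL ⇑Q := by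
    rw [heq]
    exact hO
  obtain ⟨σ, hσ⟩ := hmem.1
  have hxe : polar Q x e = 0 := by
    rw [polar_comm]
    exact polar_of_pr (dc_of hQ hD) hej hx
  have hs : sE hQ hQe hey ⋆ x = x - polar Q x y • e := by
    rw [sE_apply', hxe]
    simp
  have h1 : sE hQ hQe hey ⋆ x ∈ D (σ j) := by
    rw [← hσ j]
    exact ⟨x, hx, rfl⟩
  have hx0 : x ≠ 0 := by
    rintro rfl
    exact hxy (polar_zero_right _ _)
  have h2 : pr (dc_of hQ hD) j (sE hQ hQe hey ⋆ x) = x := by
    rw [hs, pr_sub, pr_smul, hej, smul_zero, sub_zero, pr_of_mem (dc_of hQ hD) hx]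
  have h3 : σ j = j := by
    by_contra hne
    rw [pr_other (dc_of hQ hD) hne h1] at h2
    exact hx0 h2.symm
  rw [h3] at h1
  have h4 : pr (dc_of hQ hD) j (sE hQ hQe hey ⋆ x) = sE hQ hQe hey ⋆ x := pr_of_mem (dc_of hQ hD) h1
  rw [h2, hs] at h4
  have hxy' : polar Q x y • e = 0 := by
    have := sub_eq_self.1 h4.symm
    exact this
  rcases smul_eq_zero.1 hxy' with h5 | h5
  · rw [polar_comm] at h5
    exact hxy h5
  · exact he0 h5

variable (E : Env hQ k D M)
include E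

/-- Blocks of dimension at least four. -/
theorem Env.main_ge4 (h4 : 4 ≤ k) (ht0 : 0 < t) (hm : k = 4 → Fintype.card F = 2 → ∀ l, ¬ IsPlusTypeOn ⇑Q (D l)) {x : GL ι F} (hx : x ∈ M)
    (hxH : x ∉ decompositionStabilizer D) : omegaGL ⇑Q ≤ M := by
  classical
  by_cases hS : H97WD.Star Q D M
  · exact absurd (Env.case1_ge4 E h4 ht0 hS hx) hxH
  · unfold H97WD.Star at hS
    push Not at hS
    obtain ⟨g, hg, i, l, a, ha, hQa, hal, hgH⟩ := hS
    have hp := (Env.dc E).hp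
    have hfin := Env.hfin E
    by_cases hall : ∀ l', ∀ b ∈ D l', Q b = Q a → ∃ l'', g ⋆ b ∈ D l''
    · exfalso
      apply hgH
      refine block_span_gen (Env.dc E) hfin (by omega) (Env.iso E hg) (c := Q a) (fun l' => Env.value E l' hQa) ?_ ?_ hall
      · intro l' b hb b' hb' hQb hQb' hbb
        refine connect4 hQ (hp l') (by rw [hfin]; exact h4) hQa ?_ hb hb' hQb hQb' hbb
        intro h5 h6
        rw [hfin] at h5
        exact hm h5 h6 l'
      · intro l' w hw hw0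
        exact nonorth4 hQ (hp l') (by rw [hfin]; exact h4) hQa hw hw0
    · push Not at hall
      obtain ⟨l', b, hb, hQb, hno⟩ := hall
      have hcl : Cl Q M b a := Env.cl_block E hb ha hQb (by rw [hQb]; exact hQa)
      exact Env.case2_ge4 E h4 hal (Cl.conj (Env.iso E hg) hg hcl) hno

end Main

section Final

variable {t k : ℕ} {D : Fin t → Submodule F (ι → F)}

/-- The maximality theorem for blocks of dimension at least four. -/
theorem blocks_max_ge4 (hQ : Nondeg Q) (h11 : 11 ≤ Fintype.card ι) (hD : IsOrthogonalMDecomposition ⇑Q k D) (h4 : 4 ≤ k)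
    (hm : k = 4 → Fintype.card F = 2 → ∀ l, ¬ IsPlusTypeOn ⇑Q (D l)) :
    IsMaximalIn (omegaGL ⇑Q) (decompositionStabilizer D ⊓ omegaGL ⇑Q) := by
  classical
  have hfin := hD.decomp.decomp.finrank_eq
  have ht := hD.decomp.decomp.two_le
  have C := dc_of hQ hD
  let i₀ : Fin t := ⟨0, by omega⟩
  let i₁ : Fin t := ⟨1, by omega⟩
  have hi : i₀ ≠ i₁ := by
    intro h
    have := congrArg Fin.val h
    simp [i₀, i₁] at this
  refine ⟨?_, ?_⟩
  · obtain ⟨a, ha0, hQa⟩ := exists_singular (restr Q (D i₀)) (by rw [hfin]; omega)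
    refine H_lt hQ h11 hD (by omega) (e := (a : ι → F)) (j := i₁) (fun h => ha0 (Subtype.ext h)) hQa ?_
    exact pr_other (dc_of hQ hD) hi a.2
  · intro M hHM hMK
    by_cases hMH : M = decompositionStabilizer D ⊓ omegaGL ⇑Q
    · exact Or.inl hMH
    right
    refine le_antisymm hMK ?_
    have E : Env hQ k D M := ⟨h11, hD, by omega, hHM, hMK⟩
    obtain ⟨g, hg, hgH⟩ : ∃ g ∈ M, g ∉ decompositionStabilizer D ⊓ omegaGL ⇑Q := by
      by_contra hcon
      push Not at hcon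
      exact hMH (le_antisymm hcon hHM)
    refine Env.main_ge4 E h4 (by omega) hm hg (fun h => hgH ⟨h, hMK hg⟩)

/-- The context of the odd case, for odd `k`. -/
theorem ctx_of' (hQ : Nondeg Q) (h11 : 11 ≤ Fintype.card ι) (hF : Odd (Fintype.card F)) (h2 : (2 : F) ≠ 0)
    (hkodd : Odd k) (hk : 1 < k) (h3t : 3 ≤ t) (hD : IsOrthogonalMDecomposition ⇑Q k D)
    (hex : ¬ (Fintype.card F = 3 ∧ k = 3)) {M : Subgroup (GL ι F)} (hHM : decompositionStabilizer D ⊓ omegaGL ⇑Q ≤ M)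
    (hMK : M ≤ omegaGL ⇑Q) : Cfsg.Agent.Lib.OmBlk2.Ctx hQ D M := by
  classical
  have hfin := hD.decomp.decomp.finrank_eq
  have h3k : 3 ≤ k := by
    obtain ⟨r, hr⟩ := hkodd
    omega
  refine ⟨h2, Cfsg.Agent.Lib.OmBlk5.opair_block hQ hD, fun l => by rw [hfin]; exact h3k, fun l => ?_, ?_, ?_, ?_, ?_, ?_, ?_, ?_⟩
  · rw [hfin]
    by_cases h : k = 3
    · right
      have h5 : Fintype.card F ≠ 3 := fun h' => hex ⟨h', h⟩
      have h6 : 1 < Fintype.card F := Fintype.one_lt_card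
      obtain ⟨r, hr⟩ := hF
      omega
    · left
      obtain ⟨r, hr⟩ := hkodd
      omega
  · exact fun i j hij x hx => mem_perpQ.2 (fun v hv => hD.decomp.orthogonal j i hij.symm v hv x hx)
  · exact (dc_of hQ hD).hsep
  · exact fun s hs v => iso_omega (hMK hs) v
  · intro l a ha hQa y hy hay
    exact ⟨hQa, hay, hHM (Cfsg.Agent.Lib.OmBlk5.sE_mem_H hQ h11 hD ha hQa hy hay)⟩
  · intro i j a ha c hc hac hQa
    obtain ⟨s, hs, hs'⟩ := Cfsg.Agent.Lib.OmBlk5.exists_refl2 hQ h11 hD ha hc hac hQa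
    exact ⟨s, hHM hs, hs'⟩
  · intro l m hlm
    obtain ⟨s, hs, h'⟩ := Cfsg.Agent.Lib.OmBlk5.exists_swap hQ h11 h2 hD hkodd (by omega) hlm
    exact ⟨s, hHM hs, h'⟩
  · intro j l
    by_contra hcon
    push Not at hcon
    have h3 : (Finset.univ : Finset (Fin t)) ⊆ {j, l} := by
      intro x _
      by_cases hxj : x = j
      · simp [hxj]
      · simp [hcon x hxj]
    have h4 := Finset.card_le_card h3
    have h5 : ({j, l} : Finset (Fin t)).card ≤ 2 := Finset.card_le_two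
    rw [Finset.card_univ, Fintype.card_fin] at h4
    omega

/-- The maximality theorem for odd `k` in odd characteristic. -/
theorem blocks_max_odd (hQ : Nondeg Q) (h11 : 11 ≤ Fintype.card ι) (hF : Odd (Fintype.card F)) (h2 : (2 : F) ≠ 0)
    (hkodd : Odd k) (hk : 1 < k) (h3t : 3 ≤ t) (hD : IsOrthogonalMDecomposition ⇑Q k D)
    (hex : ¬ (Fintype.card F = 3 ∧ k = 3)) :
    IsMaximalIn (omegaGL ⇑Q) (decompositionStabilizer D ⊓ omegaGL ⇑Q) := by
  classical
  have hfin := hD.decomp.decomp.finrank_eq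
  have C₀ := dc_of hQ hD
  let i₀ : Fin t := ⟨0, by omega⟩
  let i₁ : Fin t := ⟨1, by omega⟩
  have hi : i₀ ≠ i₁ := by
    intro h
    have := congrArg Fin.val h
    simp [i₀, i₁] at this
  have h3k : 3 ≤ k := by
    obtain ⟨r, hr⟩ := hkodd
    omega
  refine ⟨?_, ?_⟩
  · obtain ⟨a, ha0, hQa⟩ := exists_singular (restr Q (D i₀)) (by rw [hfin]; omega)
    refine H_lt hQ h11 hD (by omega) (e := (a : ι → F)) (j := i₁) (fun h => ha0 (Subtype.ext h)) hQa ?_
    exact pr_other (dc_of hQ hD) hi a.2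
  · intro M hHM hMK
    by_cases hMH : M = decompositionStabilizer D ⊓ omegaGL ⇑Q
    · exact Or.inl hMH
    right
    refine le_antisymm hMK ?_
    have C := ctx_of' hQ h11 hF h2 hkodd hk h3t hD hex hHM hMK
    by_contra hno'
    have hno : ¬ Cfsg.Agent.Lib.OmBlk2.G₀ C := fun h => hno' (Cfsg.Agent.Lib.OmBlk4.omega_le C h11 h)
    obtain ⟨g, hg, hgH⟩ : ∃ g ∈ M, g ∉ decompositionStabilizer D ⊓ omegaGL ⇑Q := by
      by_contra hcon
      push Not at hcon
      exact hMH (le_antisymm hcon hHM)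
    apply hgH
    refine ⟨?_, hMK hg⟩
    choose σ hσ using Cfsg.Agent.Lib.OmBlk4.pres C hg hno
    exact stab_of_maps (dc_of hQ hD) hfin (by omega) g σ hσ

end Final

end Cfsg.Agent.Lib.H97WE
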