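import Mathlib
import Cfsg.Agent.Lib.H97WE

/-!
# Planes: values, the filling lemma, solving two-component equations
-/

set_option autoImplicit false
set_option linter.unusedSectionVars false
set_option linter.unusedVariables false

namespace Cfsg.Agent.Lib.H97WF

open Matrix QuadraticMap Cfsg Cfsg.Geo Module
open Cfsg.Agent.Lib.OrthoBasic Cfsg.Agent.Lib.OrthoSiegel Cfsg.Agent.Lib.OmCalc Cfsg.Agent.Lib.TvGL
  Cfsg.Agent.Lib.OmPerp Cfsg.Agent.Lib.OmNd Cfsg.Agent.Lib.OmK Cfsg.Agent.Lib.OmPair Cfsg.Agent.Lib.OmBlk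
  Cfsg.Agent.Lib.H97WA Cfsg.Agent.Lib.H97WB Cfsg.Agent.Lib.H97WC Cfsg.Agent.Lib.H97WD
open Cfsg.Agent.Lib.OrthGroup Cfsg.Agent.Lib.OrthOmega
open Cfsg.Agent.Lib.SympT (GL_ext mulVec_mul_GL mulVec_inv_GL inv_mulVec_GL linOf linOf_apply)
open Cfsg.Agent.Lib.QuadFF (polar_sm_r polar_sm_l Q_ad Q_sm IsHyp ND restr polar_restr exists_singular)

local notation:70 g:71 " ⋆ " x:70 => Matrix.mulVec (Units.val g) x

section Field

variable {F : Type*} [Field F] [Fintype F]

theorem exists_notin (S : Finset F) (h : S.card < Fintype.card F) : ∃ x, x ∉ S := by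
  by_contra hcon
  push Not at hcon
  have h1 : S = Finset.univ := Finset.eq_univ_iff_forall.2 hcon
  rw [h1, Finset.card_univ] at h
  exact lt_irrefl _ h

theorem quad_avoid {A B C : F} (hC : C ≠ 0) (h3 : 3 ≤ Fintype.card F) : ∃ s : F, A + B * s + C * s ^ 2 ≠ 0 := by
  classical
  by_contra hcon
  push Not at hcon
  have h0 := hcon 0
  have h1 := hcon 1
  obtain ⟨x, hx⟩ := exists_notin ({0, 1} : Finset F) (lt_of_le_of_lt Finset.card_le_two (by omega))
  simp only [Finset.mem_insert, Finset.mem_singleton, not_or] at hx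
  have h2 := hcon x
  simp only [mul_zero, add_zero, ne_eq, OfNat.ofNat_ne_zero, not_false_eq_true, zero_pow] at h0
  have e : x * (C * (x - 1)) = 0 := by
    rw [h0] at h1 h2
    linear_combination h2 - x * h1
  rcases mul_eq_zero.1 e with h4 | h4
  · exact hx.1 h4
  · rcases mul_eq_zero.1 h4 with h5 | h5
    · exact hC h5
    · exact hx.2 (sub_eq_zero.1 h5)

theorem quad_avoid' {A B C : F} (hC : C ≠ 0) (h5 : 5 ≤ Fintype.card F) : ∃ s : F, s ≠ 0 ∧ A + B * s + C * s ^ 2 ≠ 0 := by
  classical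
  by_contra hcon
  push Not at hcon
  obtain ⟨x, hx⟩ := exists_notin ({0} : Finset F) (by simp; omega)
  obtain ⟨y, hy⟩ := exists_notin ({0, x} : Finset F) (lt_of_le_of_lt Finset.card_le_two (by omega))
  obtain ⟨z, hz⟩ := exists_notin ({0, x, y} : Finset F) (lt_of_le_of_lt Finset.card_le_three (by omega))
  simp only [Finset.mem_insert, Finset.mem_singleton, not_or] at hx hy hz
  have h1 := hcon x hx
  have h2 := hcon y hy.1
  have h3 := hcon z hz.1
  have e1 : (x - y) * (B + C * (x + y)) = 0 := by linear_combination h1 - h2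
  have e2 : (x - z) * (B + C * (x + z)) = 0 := by linear_combination h1 - h3
  have e3 : B + C * (x + y) = 0 := by
    rcases mul_eq_zero.1 e1 with h4 | h4
    · exact absurd (sub_eq_zero.1 h4) (Ne.symm hy.2)
    · exact h4
  have e4 : B + C * (x + z) = 0 := by
    rcases mul_eq_zero.1 e2 with h4 | h4
    · exact absurd (sub_eq_zero.1 h4) (Ne.symm hz.2.1)
    · exact h4
  have e5 : C * (y - z) = 0 := by linear_combination e3 - e4
  rcases mul_eq_zero.1 e5 with h4 | h4
  · exact hC h4
  · exact hz.2.2 (sub_eq_zero.1 h4).symm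

/-- Two quadratic functions without zeros have a common value. -/
theorem pigeon {A B C A' B' C' : F} (hC : C ≠ 0) (hC' : C' ≠ 0) (h : ∀ s : F, A + B * s + C * s ^ 2 ≠ 0)
    (h' : ∀ s : F, A' + B' * s + C' * s ^ 2 ≠ 0) : ∃ s s' : F, A + B * s + C * s ^ 2 = A' + B' * s' + C' * s' ^ 2 := by
  classical
  by_contra hcon
  push Not at hcon
  set g : F → F := fun s => A + B * s + C * s ^ 2 with hg
  set g' : F → F := fun s => A' + B' * s + C' * s ^ 2 with hg'
  have fib : ∀ (a b c : F), c ≠ 0 → ∀ y, ((Finset.univ : Finset F).filter (fun s => a + b * s + c * s ^ 2 = y)).card ≤ 2 := by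
    intro a b c hc y
    by_cases hne : ((Finset.univ : Finset F).filter (fun s => a + b * s + c * s ^ 2 = y)).Nonempty
    · obtain ⟨x, hx⟩ := hne
      have hx' : a + b * x + c * x ^ 2 = y := by simpa using hx
      have hsub : ((Finset.univ : Finset F).filter (fun s => a + b * s + c * s ^ 2 = y)) ⊆ {x, -(b / c) - x} := by
        intro s hs
        have hs' : a + b * s + c * s ^ 2 = y := by simpa using hs
        have e : (s - x) * (c * s + c * x + b) = 0 := by linear_combination hs' - hx'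
        simp only [Finset.mem_insert, Finset.mem_singleton]
        rcases mul_eq_zero.1 e with h1 | h1
        · exact Or.inl (sub_eq_zero.1 h1)
        · right
          field_simp
          linear_combination h1
      exact (Finset.card_le_card hsub).trans Finset.card_le_two
    · rw [Finset.not_nonempty_iff_eq_empty.1 hne]
      simp
  have h1 : Fintype.card F ≤ 2 * (Finset.univ.image g).card := by
    rw [← Finset.card_univ]
    refine Finset.card_le_mul_card_image _ 2 (fun y _ => ?_)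
    exact fib A B C hC y
  have h2 : Fintype.card F ≤ 2 * (Finset.univ.image g').card := by
    rw [← Finset.card_univ]
    refine Finset.card_le_mul_card_image _ 2 (fun y _ => ?_)
    exact fib A' B' C' hC' y
  have hdisj : Disjoint (Finset.univ.image g) (Finset.univ.image g') := by
    rw [Finset.disjoint_left]
    intro y hy hy'
    obtain ⟨s, -, hs⟩ := Finset.mem_image.1 hy
    obtain ⟨s', -, hs'⟩ := Finset.mem_image.1 hy'
    exact hcon s s' (hs.trans hs'.symm)
  have h3 : (Finset.univ.image g ∪ Finset.univ.image g') ⊆ Finset.univ.erase (0 : F) := by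
    intro y hy
    rw [Finset.mem_erase]
    refine ⟨?_, Finset.mem_univ _⟩
    rcases Finset.mem_union.1 hy with h4 | h4
    · obtain ⟨s, -, hs⟩ := Finset.mem_image.1 h4
      rw [← hs]
      exact h s
    · obtain ⟨s, -, hs⟩ := Finset.mem_image.1 h4
      rw [← hs]
      exact h' s
  have h4 := Finset.card_le_card h3
  rw [Finset.card_union_of_disjoint hdisj, Finset.card_erase_of_mem (Finset.mem_univ _), Finset.card_univ] at h4
  have h5 : 0 < Fintype.card F := Fintype.card_pos
  omega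

theorem nonsq_mul (h2 : (2 : F) ≠ 0) {a b : F} (ha : a ≠ 0) (hb : b ≠ 0) (ha' : ¬ IsSquare a) (hb' : ¬ IsSquare b) :
    IsSquare (a * b) := by
  classical
  have hc : ringChar F ≠ 2 := by
    intro h
    apply h2
    have := ringChar.Nat.cast_ringChar (R := F)
    rw [h] at this
    exact_mod_cast this
  have h1 : quadraticChar F a = -1 := (quadraticChar_neg_one_iff_not_isSquare).2 ha'
  have h3 : quadraticChar F b = -1 := (quadraticChar_neg_one_iff_not_isSquare).2 hb'
  have h4 : quadraticChar F (a * b) = 1 := by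
    rw [map_mul, h1, h3]
    norm_num
  exact (quadraticChar_one_iff_isSquare (mul_ne_zero ha hb)).1 h4

theorem exists_s2 {d : F} (hd : d ≠ 0) (h4 : 4 ≤ Fintype.card F) : ∃ s : F, s ≠ 0 ∧ d * s ^ 2 ≠ 1 := by
  classical
  by_cases hr : ∃ r : F, d * r ^ 2 = 1
  · obtain ⟨r, hr⟩ := hr
    obtain ⟨s, hs⟩ := exists_notin ({0, r, -r} : Finset F) (lt_of_le_of_lt Finset.card_le_three (by omega))
    simp only [Finset.mem_insert, Finset.mem_singleton, not_or] at hs
    refine ⟨s, hs.1, fun h => ?_⟩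
    have e : d * ((s - r) * (s + r)) = 0 := by linear_combination h - hr
    rcases mul_eq_zero.1 e with h1 | h1
    · exact hd h1
    · rcases mul_eq_zero.1 h1 with h3 | h3
      · exact hs.2.1 (sub_eq_zero.1 h3)
      · exact hs.2.2 (eq_neg_of_add_eq_zero_left h3)
  · push Not at hr
    exact ⟨1, one_ne_zero, hr 1⟩

theorem exists_s3 {d : F} (hd : d ≠ 0) (h6 : 6 ≤ Fintype.card F) : ∃ s : F, s ≠ 0 ∧ 1 + d * s ^ 2 ≠ 0 ∧ d * s ^ 2 ≠ 1 := by
  classical
  have hsub : ∃ S : Finset F, S.card ≤ 5 ∧ 0 ∈ S ∧ (∀ s, d * s ^ 2 = 1 → s ∈ S) ∧ (∀ s, 1 + d * s ^ 2 = 0 → s ∈ S) := by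
    have h1 : ∃ S₁ : Finset F, S₁.card ≤ 2 ∧ ∀ s, d * s ^ 2 = 1 → s ∈ S₁ := by
      by_cases hr : ∃ r : F, d * r ^ 2 = 1
      · obtain ⟨r, hr⟩ := hr
        refine ⟨{r, -r}, Finset.card_le_two, fun s h => ?_⟩
        have e : d * ((s - r) * (s + r)) = 0 := by linear_combination h - hr
        simp only [Finset.mem_insert, Finset.mem_singleton]
        rcases mul_eq_zero.1 e with h1 | h1
        · exact absurd h1 hd
        · rcases mul_eq_zero.1 h1 with h3 | h3
          · exact Or.inl (sub_eq_zero.1 h3)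
          · exact Or.inr (eq_neg_of_add_eq_zero_left h3)
      · push Not at hr
        exact ⟨∅, by simp, fun s h => absurd h (hr s)⟩
    have h2 : ∃ S₂ : Finset F, S₂.card ≤ 2 ∧ ∀ s, 1 + d * s ^ 2 = 0 → s ∈ S₂ := by
      by_cases hr : ∃ r : F, 1 + d * r ^ 2 = 0
      · obtain ⟨r, hr⟩ := hr
        refine ⟨{r, -r}, Finset.card_le_two, fun s h => ?_⟩
        have e : d * ((s - r) * (s + r)) = 0 := by linear_combination h - hr
        simp only [Finset.mem_insert, Finset.mem_singleton]
        rcases mul_eq_zero.1 e with h1 | h1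
        · exact absurd h1 hd
        · rcases mul_eq_zero.1 h1 with h3 | h3
          · exact Or.inl (sub_eq_zero.1 h3)
          · exact Or.inr (eq_neg_of_add_eq_zero_left h3)
      · push Not at hr
        exact ⟨∅, by simp, fun s h => absurd h (hr s)⟩
    obtain ⟨S₁, h3, h4⟩ := h1
    obtain ⟨S₂, h5, h6⟩ := h2
    refine ⟨insert 0 (S₁ ∪ S₂), ?_, Finset.mem_insert_self _ _, fun s h => ?_, fun s h => ?_⟩
    · have := Finset.card_insert_le (0 : F) (S₁ ∪ S₂)
      have h7 := Finset.card_union_le S₁ S₂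
      omega
    · exact Finset.mem_insert_of_mem (Finset.mem_union_left _ (h4 s h))
    · exact Finset.mem_insert_of_mem (Finset.mem_union_right _ (h6 s h))
  obtain ⟨S, hS, h0, h1, h2⟩ := hsub
  obtain ⟨s, hs⟩ := exists_notin S (by omega)
  exact ⟨s, fun h => hs (h ▸ h0), fun h => hs (h2 s h), fun h => hs (h1 s h)⟩

end Field

variable {ι : Type} [Fintype ι] [DecidableEq ι] {F : Type*} [Field F] [Fintype F]
  {Q : QuadraticForm F (ι → F)} {P P' : Submodule F (ι → F)} {hQ : Nondeg Q} {M : Subgroup (GL ι F)}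

/-- Planes without singular vectors. -/
def PlaneMinus (Q : QuadraticForm F (ι → F)) (P : Submodule F (ι → F)) : Prop := ∀ x ∈ P, x ≠ 0 → Q x ≠ 0

/-- Planes with a hyperbolic pair. -/
def PlanePlus (Q : QuadraticForm F (ι → F)) (P : Submodule F (ι → F)) : Prop :=
  ∃ e ∈ P, ∃ f ∈ P, Q e = 0 ∧ Q f = 0 ∧ polar Q e f = 1

/-- The type of the plane, with the restriction on the field. -/
def PlaneTy (Q : QuadraticForm F (ι → F)) (P : Submodule F (ι → F)) : Prop :=
  (PlaneMinus Q P ∧ Fintype.card F ≠ 3) ∨ (PlanePlus Q P ∧ 7 ≤ Fintype.card F)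

theorem li_pair {x y : ι → F} (hx0 : x ≠ 0) (hxy : ∀ s : F, y ≠ s • x) : LinearIndependent F ![x, y] := by
  rw [LinearIndependent.pair_iff]
  intro α β h
  have hβ : β = 0 := by
    by_contra hβ
    apply hxy (-(β⁻¹ * α))
    have e : y = β⁻¹ • (β • y) := by rw [smul_smul, inv_mul_cancel₀ hβ, one_smul]
    rw [e, eq_neg_of_add_eq_zero_right h, smul_neg, smul_smul, neg_smul]
  rw [hβ, zero_smul, add_zero] at h
  exact ⟨(smul_eq_zero.1 h).resolve_right hx0, hβ⟩

theorem finrank_pair {x y : ι → F} (hx0 : x ≠ 0) (hxy : ∀ s : F, y ≠ s • x) :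
    finrank F (Submodule.span F {x, y}) = 2 := by
  have hc2 := finrank_span_eq_card (li_pair hx0 hxy)
  have e : Set.range ![x, y] = {x, y} := by
    ext z
    simp only [Set.mem_range, Fin.exists_fin_two, Matrix.cons_val_zero, Matrix.cons_val_one, Set.mem_insert_iff,
      Set.mem_singleton_iff, eq_comm]
  rw [e] at hc2
  rw [hc2]
  simp

/-- Two independent vectors span a space of dimension at most two. -/
theorem plane_span {S : Submodule F (ι → F)} (hS : finrank F S ≤ 2) {x y : ι → F} (hx : x ∈ S) (hy : y ∈ S) (hx0 : x ≠ 0)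
    (hxy : ∀ s : F, y ≠ s • x) {v : ι → F} (hv : v ∈ S) : ∃ α β : F, v = α • x + β • y := by
  have hle : Submodule.span F {x, y} ≤ S := by
    rw [Submodule.span_le]
    intro z hz
    simp only [Set.mem_insert_iff, Set.mem_singleton_iff] at hz
    rcases hz with rfl | rfl
    · exact hx
    · exact hy
  have h1 := finrank_pair hx0 hxy
  have heq : Submodule.span F {x, y} = S := Submodule.eq_of_le_of_finrank_le hle (by omega)
  rw [← heq] at hv
  obtain ⟨α, β, h⟩ := Submodule.mem_span_pair.1 hv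
  exact ⟨α, β, h.symm⟩

theorem perp_mul (hQ : Nondeg Q) (hp : OPair Q P P') (hf : finrank F P = 2) {u w x : ι → F} (hu : u ∈ P) (hw : w ∈ P) (hx : x ∈ P)
    (hu0 : u ≠ 0) (hw0 : w ≠ 0) (hwu : polar Q w u = 0) (hxu : polar Q x u = 0) : ∃ s : F, x = s • w := by
  by_contra hcon
  push Not at hcon
  obtain ⟨z, hz, hz'⟩ := hp.nondeg hQ hu hu0
  obtain ⟨α, β, rfl⟩ := plane_span (by omega) hw hx hw0 hcon hz
  apply hz'
  rw [polar_add_right, polar_sm_r, polar_sm_r, polar_comm Q u w, polar_comm Q u x, hwu, hxu]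
  ring

theorem perp_ex (hQ : Nondeg Q) (hp : OPair Q P P') (hf : finrank F P = 2) {u : ι → F} (hu0 : u ≠ 0) :
    ∃ w ∈ P, w ≠ 0 ∧ polar Q w u = 0 := by
  have h1 := finrank_inf_perp hQ P (Submodule.span F {u})
  rw [finrank_span_singleton hu0] at h1
  obtain ⟨w, hw, hw0⟩ : ∃ w ∈ P ⊓ perpQ Q (Submodule.span F {u}), w ≠ 0 :=
    Cfsg.Agent.Lib.QForm.exists_ne_zero_mem (by omega)
  exact ⟨w, hw.1, hw0, Cfsg.Agent.Lib.OmBlk3.perp_mem hw⟩

theorem unit_ex (hQ : Nondeg Q) (hp : OPair Q P P') {u : ι → F} (hu : u ∈ P) (hu0 : u ≠ 0) : ∃ v ∈ P, polar Q u v = 1 := by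
  obtain ⟨z, hz, hz'⟩ := hp.nondeg hQ hu hu0
  exact ⟨(polar Q u z)⁻¹ • z, P.smul_mem _ hz, by rw [polar_sm_r, inv_mul_cancel₀ hz']⟩

/-- The vector orthogonal to a non-singular vector in a plane is non-singular. -/
theorem perp_nonsing (hQ : Nondeg Q) (hp : OPair Q P P') (hf : finrank F P = 2) {u w : ι → F} (hu : u ∈ P) (hw : w ∈ P)
    (hQu : Q u ≠ 0) (hw0 : w ≠ 0) (hwu : polar Q w u = 0) : Q w ≠ 0 := by
  intro hQw
  have hu0 : u ≠ 0 := by
    rintro rfl
    exact hQu (map_zero _)
  by_cases hdep : ∃ s : F, w = s • u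
  · obtain ⟨s, rfl⟩ := hdep
    rw [Q_sm] at hQw
    have hs : s = 0 := by
      rcases mul_eq_zero.1 hQw with h | h
      · exact pow_eq_zero_iff (two_ne_zero) |>.1 h
      · exact absurd h hQu
    rw [hs, zero_smul] at hw0
    exact hw0 rfl
  · push Not at hdep
    obtain ⟨z, hz, hz'⟩ := hp.nondeg hQ hw hw0
    obtain ⟨α, β, rfl⟩ := plane_span (by omega) hu hw hu0 hdep hz
    apply hz'
    rw [polar_add_right, polar_sm_r, polar_sm_r, hwu, pol2, hQw]
    ring

/-- A good vector: orthogonal to a vector which is zero or non-singular. -/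
theorem good_vec (hQ : Nondeg Q) (hp : OPair Q P P') (hf : finrank F P = 2) {A : ι → F} (hA : A ∈ P) (h : A = 0 ∨ Q A ≠ 0) :
    ∃ w ∈ P, polar Q w A = 0 ∧ Q w ≠ 0 := by
  rcases h with rfl | h
  · obtain ⟨w, hw, hw'⟩ := value_in hQ hp (by omega) (one_ne_zero (α := F))
    exact ⟨w, hw, polar_zero_right _ _, by rw [hw']; exact one_ne_zero⟩
  · have hA0 : A ≠ 0 := by
      rintro rfl
      exact h (map_zero _)
    obtain ⟨w, hw, hw0, hwA⟩ := perp_ex hQ hp hf hA0
    exact ⟨w, hw, hwA, perp_nonsing hQ hp hf hA hw h hw0 hwA⟩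

/-- The reflection between two vectors of the same norm in a plane. -/
theorem plane_refl (hQ : Nondeg Q) (hp : OPair Q P P') (hf : finrank F P = 2) {u b : ι → F} (hu : u ∈ P) (hb : b ∈ P)
    (hub : Q u = Q b) (hQu : Q u ≠ 0) (hne : u ≠ b) : Q (u - b) ≠ 0 ∧ refl Q (u - b) u = b := by
  have e1 : Q (u - b) = 2 * Q u - polar Q u b := by
    rw [sub_eq_add_neg, Q_ad, QuadraticMap.map_neg, polar_neg_right, ← hub]
    ring
  have e2 : polar Q u (u - b) = 2 * Q u - polar Q u b := by
    rw [polar_sub_right, pol2]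
  have h0 : Q (u - b) ≠ 0 := by
    intro h
    have hv0 : u - b ≠ 0 := sub_ne_zero.2 hne
    have hvu : polar Q (u - b) u = 0 := by
      rw [polar_comm, e2, ← e1, h]
    exact perp_nonsing hQ hp hf hu (P.sub_mem hu hb) hQu hv0 hvu h
  refine ⟨h0, ?_⟩
  rw [r_eq, e2, ← e1, inv_mul_cancel₀ h0, one_smul]
  abel

/-- Transferring a vector along an isometry of planes. -/
theorem transfer (hQ : Nondeg Q) (hp' : OPair Q P' (perpQ Q P')) (hf' : finrank F P' = 2) (e : P ≃ₗ[F] P')
    (he : ∀ w : P, Q ((e w : P') : ι → F) = Q (w : ι → F)) {u u' : ι → F} (hu : u ∈ P) (hu' : u' ∈ P') (hQ' : Q u = Q u')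
    (hQ0 : Q u ≠ 0) {x : ι → F} (hx : x ∈ P) : ∃ x' ∈ P', Q x' = Q x ∧ polar Q u' x' = polar Q u x := by
  have hb : polar Q (e ⟨u, hu⟩ : ι → F) (e ⟨x, hx⟩ : ι → F) = polar Q u x :=
    Cfsg.Agent.Lib.OmBlk5.polar_isom e he ⟨u, hu⟩ ⟨x, hx⟩
  have hQe : Q (e ⟨u, hu⟩ : ι → F) = Q u := he ⟨u, hu⟩
  have hQx : Q (e ⟨x, hx⟩ : ι → F) = Q x := he ⟨x, hx⟩
  have hem : (e ⟨u, hu⟩ : ι → F) ∈ P' := (e ⟨u, hu⟩).2
  have hxm : (e ⟨x, hx⟩ : ι → F) ∈ P' := (e ⟨x, hx⟩).2
  generalize (e ⟨u, hu⟩ : ι → F) = ue at hb hQe hem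
  generalize (e ⟨x, hx⟩ : ι → F) = xe at hb hQx hxm
  by_cases hne : ue = u'
  · subst hne
    exact ⟨xe, hxm, hQx, hb⟩
  · obtain ⟨h1, h2⟩ := plane_refl hQ hp' hf' hem hu' (by rw [hQe, hQ']) (by rw [hQe]; exact hQ0) hne
    refine ⟨refl Q (ue - u') xe, ?_, ?_, ?_⟩
    · rw [r_eq]
      exact P'.sub_mem hxm (P'.smul_mem _ (P'.sub_mem hem hu'))
    · rw [r_iso, hQx]
    · have h3 := r_polar (Q := Q) (ue - u') ue xe
      rw [h2] at h3
      rw [h3, hb]

/-- A non-singular vector non-orthogonal to a given non-zero vector. -/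
theorem exists_nonsing_nonperp (hQ : Nondeg Q) (hp : OPair Q P P') (hty : PlaneTy Q P) {y : ι → F} (hy : y ∈ P) (hy0 : y ≠ 0) :
    ∃ a ∈ P, Q a ≠ 0 ∧ polar Q y a ≠ 0 := by
  obtain ⟨z, hz, hz'⟩ := hp.nondeg hQ hy hy0
  rcases hty with ⟨hm, -⟩ | ⟨⟨e, he, f, hf, hQe, hQf, hef⟩, h7⟩
  · have hz0 : z ≠ 0 := by
      rintro rfl
      exact hz' (polar_zero_right _ _)
    exact ⟨z, hz, hm z hz hz0, hz'⟩
  · have hQn : Q (e + f) = 1 := by
      rw [Q_ad, hQe, hQf, hef]
      ring
    by_cases hn : polar Q y (e + f) = 0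
    · obtain ⟨s, hs⟩ := quad_avoid (A := Q z) (B := polar Q z (e + f)) (C := Q (e + f)) (by rw [hQn]; exact one_ne_zero) (by omega)
      refine ⟨z + s • (e + f), P.add_mem hz (P.smul_mem _ (P.add_mem he hf)), ?_, ?_⟩
      · rw [Q_ad, Q_sm, polar_sm_r]
        intro h
        apply hs
        linear_combination h
      · rw [polar_add_right, polar_sm_r, hn]
        simpa using hz'
    · exact ⟨e + f, P.add_mem he hf, by rw [hQn]; exact one_ne_zero, hn⟩

/-- A second non-singular vector. -/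
theorem exists_second (hQ : Nondeg Q) (hp : OPair Q P P') (hf : finrank F P = 2) (hty : PlaneTy Q P) {v : ι → F} (hv : v ∈ P)
    (hQv : Q v ≠ 0) : ∃ a ∈ P, Q a ≠ 0 ∧ polar Q v a ≠ 0 ∧ ∀ s : F, a ≠ s • v := by
  have hv0 : v ≠ 0 := by
    rintro rfl
    exact hQv (map_zero _)
  by_cases h2 : (2 : F) = 0
  · have hself : polar Q v v = 0 := by rw [pol2, h2, zero_mul]
    obtain ⟨t₀, ht₀, hvt⟩ := unit_ex hQ hp hv hv0
    have hind : ∀ a, polar Q v a = 1 → ∀ s : F, a ≠ s • v := by
      intro a ha s h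
      rw [h, polar_sm_r, hself, mul_zero] at ha
      exact zero_ne_one ha
    rcases hty with ⟨hm, -⟩ | ⟨-, h7⟩
    · have ht0 : t₀ ≠ 0 := by
        rintro rfl
        rw [polar_zero_right] at hvt
        exact zero_ne_one hvt
      exact ⟨t₀, ht₀, hm _ ht₀ ht0, by rw [hvt]; exact one_ne_zero, hind _ hvt⟩
    · obtain ⟨s, hs⟩ := quad_avoid (A := Q t₀) (B := polar Q t₀ v) (C := Q v) hQv (by omega)
      have e1 : polar Q v (t₀ + s • v) = 1 := by
        rw [polar_add_right, polar_sm_r, hself, hvt]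
        ring
      refine ⟨t₀ + s • v, P.add_mem ht₀ (P.smul_mem _ hv), ?_, by rw [e1]; exact one_ne_zero, hind _ e1⟩
      rw [Q_ad, Q_sm, polar_sm_r]
      intro h
      apply hs
      linear_combination h
  · obtain ⟨w, hw, hw0, hwv⟩ := perp_ex hQ hp hf hv0
    have hQw := perp_nonsing hQ hp hf hv hw hQv hw0 hwv
    have hvw : polar Q v w = 0 := by rw [polar_comm]; exact hwv
    have hmain : ∀ s : F, s ≠ 0 → Q (v + s • w) ≠ 0 → ∃ a ∈ P, Q a ≠ 0 ∧ polar Q v a ≠ 0 ∧ ∀ s : F, a ≠ s • v := by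
      intro s hs h
      refine ⟨v + s • w, P.add_mem hv (P.smul_mem _ hw), h, ?_, ?_⟩
      · rw [polar_add_right, polar_sm_r, hvw, pol2]
        simpa using mul_ne_zero h2 hQv
      · intro r hr
        have e1 : polar Q (v + s • w) v = r * polar Q v v := by rw [hr, polar_sm_l]
        rw [polar_add_left, polar_sm_l, hwv, pol2] at e1
        have e2 : (1 - r) * (2 * Q v) = 0 := by linear_combination e1
        have e3 : r = 1 := by
          rcases mul_eq_zero.1 e2 with h3 | h3
          · exact (sub_eq_zero.1 h3).symm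
          · exact absurd h3 (mul_ne_zero h2 hQv)
        rw [e3, one_smul] at hr
        have e4 : s • w = 0 := by simpa using hr
        rcases smul_eq_zero.1 e4 with h3 | h3
        · exact hs h3
        · exact hw0 h3
    rcases hty with ⟨hm, -⟩ | ⟨-, h7⟩
    · refine hmain 1 one_ne_zero (hm _ (P.add_mem hv (P.smul_mem _ hw)) ?_)
      intro h
      have e1 := congrArg (fun x => polar Q x v) h
      simp only [polar_add_left, polar_sm_l, hwv, pol2, polar_zero_left, mul_zero, add_zero] at e1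
      exact (mul_ne_zero h2 hQv) e1
    · obtain ⟨s, hs, hs'⟩ := quad_avoid' (A := Q v) (B := polar Q v w) (C := Q w) hQw (by omega)
      refine hmain s hs ?_
      rw [Q_ad, Q_sm, polar_sm_r]
      intro h
      apply hs'
      linear_combination h

/-- A vector of the same norm, not proportional and not orthogonal. -/
theorem exists_nonpar (hQ : Nondeg Q) (hp : OPair Q P P') (hf : finrank F P = 2) (hty : PlaneTy Q P) {u : ι → F} (hu : u ∈ P)
    (hQu : Q u ≠ 0) : ∃ b ∈ P, Q b = Q u ∧ (∀ s : F, b ≠ s • u) ∧ polar Q u b ≠ 0 := by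
  have hu0 : u ≠ 0 := by
    rintro rfl
    exact hQu (map_zero _)
  by_cases h2 : (2 : F) = 0
  · have hself : polar Q u u = 0 := by rw [pol2, h2, zero_mul]
    obtain ⟨t₀, ht₀, hut⟩ := unit_ex hQ hp hu hu0
    obtain ⟨v, hv, hQv, huv⟩ : ∃ v ∈ P, Q v ≠ 0 ∧ polar Q u v = 1 := by
      rcases hty with ⟨hm, -⟩ | ⟨-, h7⟩
      · have ht0 : t₀ ≠ 0 := by
          rintro rfl
          rw [polar_zero_right] at hut
          exact zero_ne_one hut
        exact ⟨t₀, ht₀, hm _ ht₀ ht0, hut⟩
      · obtain ⟨s, hs⟩ := quad_avoid (A := Q t₀) (B := polar Q t₀ u) (C := Q u) hQu (by omega)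
        refine ⟨t₀ + s • u, P.add_mem ht₀ (P.smul_mem _ hu), ?_, ?_⟩
        · rw [Q_ad, Q_sm, polar_sm_r]
          intro h
          apply hs
          linear_combination h
        · rw [polar_add_right, polar_sm_r, hself, hut]
          ring
    refine ⟨refl Q v u, ?_, r_iso v u, ?_, ?_⟩
    · rw [r_eq]
      exact P.sub_mem hu (P.smul_mem _ hv)
    · intro s hs
      have e1 : polar Q u (refl Q v u) = s * polar Q u u := by rw [hs, polar_sm_r]
      rw [r_eq, polar_sub_right, polar_sm_r, hself, huv] at e1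
      exact inv_ne_zero hQv (by linear_combination -e1)
    · rw [r_eq, polar_sub_right, polar_sm_r, hself, huv]
      simpa using inv_ne_zero hQv
  · obtain ⟨w, hw, hw0, hwu⟩ := perp_ex hQ hp hf hu0
    have hQw := perp_nonsing hQ hp hf hu hw hQu hw0 hwu
    have huw : polar Q u w = 0 := by rw [polar_comm]; exact hwu
    set d := Q w / Q u with hd
    have hd0 : d ≠ 0 := div_ne_zero hQw hQu
    have hmain : ∀ s : F, s ≠ 0 → 1 + d * s ^ 2 ≠ 0 → d * s ^ 2 ≠ 1 → ∃ b ∈ P, Q b = Q u ∧ (∀ s : F, b ≠ s • u) ∧ polar Q u b ≠ 0 := by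
      intro s hs h3 h5
      have hQw' : Q w = d * Q u := by
        rw [hd]
        field_simp
      have h6 : d * s ^ 2 - 1 ≠ 0 := sub_ne_zero.2 h5
      refine ⟨((d * s ^ 2 - 1) / (1 + d * s ^ 2)) • u + (-2 * s / (1 + d * s ^ 2)) • w, P.add_mem (P.smul_mem _ hu) (P.smul_mem _ hw), ?_, ?_, ?_⟩
      · rw [Q_ad, Q_sm, Q_sm, polar_sm_l, polar_sm_r, huw, hQw']
        field_simp
        ring
      · intro r hr
        have e1 := congrArg (fun x => polar Q x w) hr
        simp only [polar_add_left, polar_sm_l, huw, pol2, mul_zero, zero_add] at e1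
        have e2 : -2 * s / (1 + d * s ^ 2) * (2 * Q w) = 0 := e1
        have e3 : -2 * s / (1 + d * s ^ 2) ≠ 0 := div_ne_zero (mul_ne_zero (neg_ne_zero.2 h2) hs) h3
        rcases mul_eq_zero.1 e2 with h7 | h7
        · exact e3 h7
        · exact (mul_ne_zero h2 hQw) h7
      · rw [polar_add_right, polar_sm_r, polar_sm_r, huw, pol2]
        simp only [mul_zero, add_zero]
        exact mul_ne_zero (div_ne_zero h6 h3) (mul_ne_zero h2 hQu)
    rcases hty with ⟨hm, h3'⟩ | ⟨-, h7⟩
    · have h4 : 4 ≤ Fintype.card F := by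
        by_contra hcon
        have h5 : 1 < Fintype.card F := Fintype.one_lt_card
        have h6 : Fintype.card F = 2 := by omega
        apply h2
        have h7 : ((Fintype.card F : ℕ) : F) = 0 := FiniteField.cast_card_eq_zero F
        rw [h6] at h7
        exact_mod_cast h7
      obtain ⟨s, hs, hs'⟩ := exists_s2 hd0 h4
      refine hmain s hs ?_ hs'
      intro h
      have h5 : Q (u + s • w) = 0 := by
        have e : Q w = d * Q u := by
          rw [hd]
          field_simp
        rw [Q_ad, Q_sm, polar_sm_r, huw, e]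
        linear_combination Q u * h
      refine hm _ (P.add_mem hu (P.smul_mem _ hw)) ?_ h5
      intro h6
      have e1 := congrArg (fun x => polar Q x u) h6
      simp only [polar_add_left, polar_sm_l, hwu, pol2, polar_zero_left, mul_zero, add_zero] at e1
      exact (mul_ne_zero h2 hQu) e1
    · obtain ⟨s, hs, h5, h6⟩ := exists_s3 hd0 (by omega)
      exact hmain s hs h5 h6

/-! ### The filling lemma -/

/-- Subfields containing the squares. -/
theorem top_odd (R : Subfield F) (h2 : (2 : F) ≠ 0) {d : F} (hd : d ≠ 0) (h : ∀ t : F, d * t ^ 2 ∈ R) (z : F) : z ∈ R := by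
  have h1 : d ∈ R := by simpa using h 1
  have h3 : ∀ t : F, t ^ 2 ∈ R := by
    intro t
    have := R.mul_mem (R.inv_mem h1) (h t)
    rwa [← mul_assoc, inv_mul_cancel₀ hd, one_mul] at this
  have e : z = ((z + 1) / 2) ^ 2 - ((z - 1) / 2) ^ 2 := by
    field_simp
    ring
  rw [e]
  exact R.sub_mem (h3 _) (h3 _)

theorem top_char2_minus (R : Subfield F) (h2 : (2 : F) = 0) {γ : F} (h : ∀ w : F, w ^ 2 + w + γ ∈ R)
    (hne : ∀ w : F, w ^ 2 + w + γ ≠ 0) (x : F) : x ∈ R := by
  have hγ : γ ∈ R := by simpa using h 0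
  have hK : ∀ w : F, w ^ 2 + w ∈ R := by
    intro w
    have := R.sub_mem (h w) hγ
    simpa using this
  by_cases hx : ∃ w : F, x = w ^ 2 + w
  · obtain ⟨w, rfl⟩ := hx
    exact hK w
  · push Not at hx
    obtain ⟨s, s', hs⟩ := pigeon (A := γ) (B := 1) (C := 1) (A' := x) (B' := 1) (C' := 1) one_ne_zero one_ne_zero
      (fun s h' => hne s (by linear_combination h'))
      (fun s h' => hx s (by
        have e : x = -(s ^ 2 + s) := by linear_combination h'
        rw [e]
        have e2 : ∀ y : F, -y = y := fun y => by linear_combination (-y) * h2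
        rw [e2]))
    have e : x = γ + (s ^ 2 + s) - (s' ^ 2 + s') := by linear_combination -hs
    rw [e]
    exact R.sub_mem (R.add_mem hγ (hK s)) (hK s')

theorem top_char2_plus (R : Subfield F) (h2 : (2 : F) = 0) (h8 : 8 ≤ Fintype.card F) (hK : ∀ w : F, w ^ 2 + w ∈ R) (x : F) : x ∈ R := by
  classical
  by_contra hxR
  have e2 : ∀ y : F, -y = y := fun y => by linear_combination (-y) * h2
  have hroots : ∀ w w' : F, w ^ 2 + w = w' ^ 2 + w' → w' = w ∨ w' = w + 1 := by
    intro w w' h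
    have e : (w' - w) * (w' - w - 1) = 0 := by linear_combination -h + (w ^ 2 + w - w' - w * w') * h2
    rcases mul_eq_zero.1 e with h1 | h1
    · exact Or.inl (sub_eq_zero.1 h1)
    · right
      linear_combination h1
  -- an element of the image other than `0`, `1`
  obtain ⟨r, hrR, hr0, hr1⟩ : ∃ r ∈ R, r ≠ 0 ∧ r ≠ 1 := by
    obtain ⟨w₀, hw₀⟩ := exists_notin ({0, 1} : Finset F) (lt_of_le_of_lt Finset.card_le_two (by omega))
    simp only [Finset.mem_insert, Finset.mem_singleton, not_or] at hw₀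
    have hnz : ∀ w : F, w ≠ 0 → w ≠ 1 → w ^ 2 + w ≠ 0 := by
      intro w h3 h4 h5
      rcases hroots 0 w (by simpa using h5.symm) with h6 | h6
      · exact h3 h6
      · exact h4 (by simpa using h6)
    by_cases hc : w₀ ^ 2 + w₀ = 1
    · obtain ⟨w₁, hw₁⟩ := exists_notin ({0, 1, w₀, w₀ + 1} : Finset F) (lt_of_le_of_lt Finset.card_le_four (by omega))
      simp only [Finset.mem_insert, Finset.mem_singleton, not_or] at hw₁
      refine ⟨w₁ ^ 2 + w₁, hK w₁, hnz w₁ hw₁.1 hw₁.2.1, fun h => ?_⟩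
      rcases hroots w₀ w₁ (by rw [hc, h]) with h6 | h6
      · exact hw₁.2.2.1 h6
      · exact hw₁.2.2.2 h6
    · exact ⟨w₀ ^ 2 + w₀, hK w₀, hnz w₀ hw₀.1 hw₀.2, hc⟩
  have hnK : ∀ y : F, y ∉ R → ∀ w : F, y + w + 1 * w ^ 2 ≠ 0 := by
    intro y hy w h
    apply hy
    have e : y = w ^ 2 + w := by
      have : y = -(w ^ 2 + w) := by linear_combination h
      rw [this, e2]
    rw [e]
    exact hK w
  have hrx : r * x ∉ R := by
    intro h
    apply hxR
    have := R.mul_mem (R.inv_mem hrR) h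
    rwa [← mul_assoc, inv_mul_cancel₀ hr0, one_mul] at this
  obtain ⟨s, s', hs⟩ := pigeon (A := r * x) (B := 1) (C := 1) (A' := x) (B' := 1) (C' := 1) one_ne_zero one_ne_zero
    (fun s => by simpa [mul_comm] using hnK _ hrx s) (fun s => by simpa [mul_comm] using hnK _ hxR s)
  have e : (r - 1) * x = (s' ^ 2 + s') - (s ^ 2 + s) := by linear_combination hs
  have h3 : (r - 1) * x ∈ R := by
    rw [e]
    exact R.sub_mem (hK s') (hK s)
  have h4 : r - 1 ∈ R := R.sub_mem hrR R.one_mem
  have h5 := R.mul_mem (R.inv_mem h4) h3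
  rw [← mul_assoc, inv_mul_cancel₀ (sub_ne_zero.2 hr1), one_mul] at h5
  exact hxR h5

/-- The filling lemma: an additive subgroup of a plane closed under the projections on non-singular lines. -/
theorem plane_fill (hQ : Nondeg Q) (hp : OPair Q P P') (hf : finrank F P = 2) (hty : PlaneTy Q P)
    (A : (ι → F) → Prop) (h0 : A 0) (hadd : ∀ x y, A x → A y → A (x + y)) (hneg : ∀ x, A x → A (-x))
    (hP : ∀ y ∈ P, A y → ∀ a ∈ P, Q a ≠ 0 → A (((Q a)⁻¹ * polar Q y a) • a))
    {y₀ : ι → F} (hy₀ : y₀ ∈ P) (hy₀0 : y₀ ≠ 0) (hA : A y₀) {x : ι → F} (hx : x ∈ P) : A x := by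
  classical
  obtain ⟨a₀, ha₀, hQa₀, hya₀⟩ := exists_nonsing_nonperp hQ hp hty hy₀ hy₀0
  have hv1 := hP y₀ hy₀ hA a₀ ha₀ hQa₀
  have hκ : (Q a₀)⁻¹ * polar Q y₀ a₀ ≠ 0 := mul_ne_zero (inv_ne_zero hQa₀) hya₀
  obtain ⟨v, hvd⟩ : ∃ v, v = ((Q a₀)⁻¹ * polar Q y₀ a₀) • a₀ := ⟨_, rfl⟩
  rw [← hvd] at hv1
  have hv : v ∈ P := by rw [hvd]; exact P.smul_mem _ ha₀
  have hQv : Q v ≠ 0 := by
    rw [hvd, Q_sm]
    exact mul_ne_zero (pow_ne_zero _ hκ) hQa₀
  have hv0 : v ≠ 0 := by
    rintro rfl
    exact hQv (map_zero _)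
  have hAv : A v := hv1
  -- the ring of scalars
  let car : Set F := {ρ | ∀ l : F, A (l • v) → A ((ρ * l) • v)}
  have hmul : ∀ {a b : F}, a ∈ car → b ∈ car → a * b ∈ car := fun {a b} ha hb l hl => by
    have := ha _ (hb l hl)
    rwa [← mul_assoc] at this
  have hone : (1 : F) ∈ car := fun l hl => by rwa [one_mul]
  have hpow : ∀ {a : F}, a ∈ car → ∀ n : ℕ, a ^ n ∈ car := by
    intro a ha n
    induction n with
    | zero => rw [pow_zero]; exact hone
    | succ n ih => rw [pow_succ]; exact hmul ih ha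
  let R : Subfield F :=
    { carrier := car
      mul_mem' := hmul
      one_mem' := hone
      add_mem' := fun {a b} ha hb l hl => by
        have := hadd _ _ (ha l hl) (hb l hl)
        rwa [← add_smul, ← add_mul] at this
      zero_mem' := fun l hl => by rwa [zero_mul, zero_smul]
      neg_mem' := fun {a} ha l hl => by
        have := hneg _ (ha l hl)
        rwa [← neg_smul, ← neg_mul] at this
      inv_mem' := fun a ha => by
        by_cases ha0 : a = 0
        · rw [ha0, _root_.inv_zero]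
          exact fun l hl => by rwa [zero_mul, zero_smul]
        · have h1 := FiniteField.pow_card_sub_one_eq_one a ha0
          have h3 : 1 < Fintype.card F := Fintype.one_lt_card
          have e : a⁻¹ = a ^ (Fintype.card F - 2) := by
            have e1 : Fintype.card F - 1 = (Fintype.card F - 2) + 1 := by omega
            rw [e1, pow_succ] at h1
            field_simp
            linear_combination -h1
          rw [e]
          exact hpow ha _ }
  have hRmem : ∀ {ρ : F}, ρ ∈ R ↔ ρ ∈ car := Iff.rfl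
  have hn : ∀ a ∈ P, Q a ≠ 0 → (Q a)⁻¹ * polar Q v a * ((Q v)⁻¹ * polar Q a v) ∈ R := by
    intro a ha hQa l hl
    have h1 := hP _ (P.smul_mem l hv) hl a ha hQa
    rw [polar_sm_l] at h1
    have h3 := hP _ (P.smul_mem _ ha) h1 v hv hQv
    rw [polar_sm_l] at h3
    convert h3 using 2
    ring
  -- all scalars
  have hRtop : ∀ z : F, z ∈ R := by
    by_cases h2 : (2 : F) = 0
    · have hself : polar Q v v = 0 := by rw [pol2, h2, zero_mul]
      obtain ⟨t₀, ht₀, hvt⟩ := unit_ex hQ hp hv hv0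
      have key : ∀ ξ : F, Q v * Q (ξ • v + t₀) ∈ R := by
        intro ξ
        by_cases h3 : Q (ξ • v + t₀) = 0
        · rw [h3, mul_zero]
          exact R.zero_mem
        · have h4 := hn _ (P.add_mem (P.smul_mem _ hv) ht₀) h3
          have e1 : polar Q v (ξ • v + t₀) = 1 := by
            rw [polar_add_right, polar_sm_r, hself, hvt]
            ring
          rw [polar_comm Q (ξ • v + t₀) v, e1] at h4
          have h5 := R.inv_mem h4
          have e2 : ((Q (ξ • v + t₀))⁻¹ * 1 * ((Q v)⁻¹ * 1))⁻¹ = Q v * Q (ξ • v + t₀) := by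
            field_simp
          rwa [e2] at h5
      have key2 : ∀ w : F, w ^ 2 + w + Q v * Q t₀ ∈ R := by
        intro w
        have h3 := key (w / Q v)
        have e1 : Q v * Q ((w / Q v) • v + t₀) = w ^ 2 + w + Q v * Q t₀ := by
          rw [Q_ad, Q_sm, polar_sm_l, hvt]
          field_simp
          ring
        rwa [e1] at h3
      rcases hty with ⟨hm, -⟩ | ⟨-, h7⟩
      · refine top_char2_minus R h2 key2 (fun w h3 => ?_)
        have e1 : Q v * Q ((w / Q v) • v + t₀) = w ^ 2 + w + Q v * Q t₀ := by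
          rw [Q_ad, Q_sm, polar_sm_l, hvt]
          field_simp
          ring
        have hne0 : (w / Q v) • v + t₀ ≠ 0 := by
          intro h4
          have e3 : polar Q v ((w / Q v) • v + t₀) = 1 := by
            rw [polar_add_right, polar_sm_r, hself, hvt]
            ring
          rw [h4, polar_zero_right] at e3
          exact zero_ne_one e3
        have h5 := hm _ (P.add_mem (P.smul_mem _ hv) ht₀) hne0
        rw [h3] at e1
        exact (mul_ne_zero hQv h5) e1
      · have h8 : 8 ≤ Fintype.card F := by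
          by_contra hcon
          have h9 : Fintype.card F = 7 := by omega
          have h10 : ((Fintype.card F : ℕ) : F) = 0 := FiniteField.cast_card_eq_zero F
          rw [h9] at h10
          have h11 : (1 : F) = 0 := by
            have e3 : (7 : F) = 1 + 3 * 2 := by norm_num
            have h12 : (7 : F) = 0 := by exact_mod_cast h10
            rw [e3, h2] at h12
            simpa using h12
          exact one_ne_zero h11
        refine top_char2_plus R h2 h8 (fun w => ?_)
        have h3 := R.sub_mem (key2 w) (by simpa using key2 0)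
        simpa using h3
    · obtain ⟨w, hw, hw0, hwv⟩ := perp_ex hQ hp hf hv0
      have hQw := perp_nonsing hQ hp hf hv hw hQv hw0 hwv
      have hvw : polar Q v w = 0 := by rw [polar_comm]; exact hwv
      refine top_odd R h2 (d := Q w / Q v) (div_ne_zero hQw hQv) (fun t => ?_)
      have hd : Q (v + t • w) = Q v * (1 + Q w / Q v * t ^ 2) := by
        rw [Q_ad, Q_sm, polar_sm_r, hvw]
        field_simp
        ring
      by_cases h3 : 1 + Q w / Q v * t ^ 2 = 0
      · have e : Q w / Q v * t ^ 2 = -1 := by linear_combination h3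
        rw [e]
        exact R.neg_mem R.one_mem
      · have hQa : Q (v + t • w) ≠ 0 := by
          rw [hd]
          exact mul_ne_zero hQv h3
        have h4 := hn _ (P.add_mem hv (P.smul_mem _ hw)) hQa
        have e1 : polar Q v (v + t • w) = 2 * Q v := by
          rw [polar_add_right, polar_sm_r, hvw, pol2]
          ring
        rw [polar_comm Q (v + t • w) v, e1, hd] at h4
        have e2 : (Q v * (1 + Q w / Q v * t ^ 2))⁻¹ * (2 * Q v) * ((Q v)⁻¹ * (2 * Q v)) = 4 * (1 + Q w / Q v * t ^ 2)⁻¹ := by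
          field_simp
          ring
        rw [e2] at h4
        have h5 : (4 : F) ∈ R := by
          have : ((4 : ℕ) : F) ∈ R := natCast_mem R 4
          exact_mod_cast this
        have h6 : (2 : F) * 2 ≠ 0 := mul_ne_zero h2 h2
        have h40 : (4 : F) ≠ 0 := by
          have e : (4 : F) = 2 * 2 := by norm_num
          rw [e]
          exact h6
        have h7 := R.mul_mem h5 (R.inv_mem h4)
        have e3 : 4 * (4 * (1 + Q w / Q v * t ^ 2)⁻¹)⁻¹ = 1 + Q w / Q v * t ^ 2 := by
          field_simp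
        rw [e3] at h7
        have h8 := R.sub_mem h7 R.one_mem
        simpa using h8
  have hall : ∀ l : F, A (l • v) := by
    intro l
    have h3 := hRtop l _ (by rwa [one_smul] : A ((1 : F) • v))
    rwa [mul_one] at h3
  obtain ⟨a, ha, hQa, hva, hind⟩ := exists_second hQ hp hf hty hv hQv
  have hall2 : ∀ l : F, A (l • a) := by
    intro l
    have hc : (Q a)⁻¹ * polar Q v a ≠ 0 := mul_ne_zero (inv_ne_zero hQa) hva
    have h3 := hP _ (P.smul_mem (l * ((Q a)⁻¹ * polar Q v a)⁻¹) hv) (hall _) a ha hQa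
    rw [polar_sm_l] at h3
    convert h3 using 2
    field_simp
  obtain ⟨α, β, rfl⟩ := plane_span (by omega) hv ha hv0 hind hx
  exact hadd _ _ (hall α) (hall2 β)

end Cfsg.Agent.Lib.H97WF
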