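import Mathlib
import Cfsg.Agent.Lib.H97WF

/-!
# Decompositions into planes: rotations, the filling of blocks and Siegel elements with a mixed centre
-/

set_option autoImplicit false
set_option linter.unusedSectionVars false
set_option linter.unusedVariables false

namespace Cfsg.Agent.Lib.H97WG

open Matrix QuadraticMap Cfsg Cfsg.Geo Module
open Cfsg.Agent.Lib.OrthoBasic Cfsg.Agent.Lib.OrthoSiegel Cfsg.Agent.Lib.OmCalc Cfsg.Agent.Lib.TvGL
  Cfsg.Agent.Lib.OmPerp Cfsg.Agent.Lib.OmNd Cfsg.Agent.Lib.OmK Cfsg.Agent.Lib.OmPair Cfsg.Agent.Lib.OmBlk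
  Cfsg.Agent.Lib.H97WA Cfsg.Agent.Lib.H97WB Cfsg.Agent.Lib.H97WC Cfsg.Agent.Lib.H97WD Cfsg.Agent.Lib.H97WF
open Cfsg.Agent.Lib.OrthGroup Cfsg.Agent.Lib.OrthOmega
open Cfsg.Agent.Lib.SympT (GL_ext mulVec_mul_GL mulVec_inv_GL inv_mulVec_GL linOf linOf_apply)
open Cfsg.Agent.Lib.QuadFF (polar_sm_r polar_sm_l Q_ad Q_sm IsHyp ND restr polar_restr exists_singular)

local notation:70 g:71 " ⋆ " x:70 => Matrix.mulVec (Units.val g) x

variable {ι : Type} [Fintype ι] [DecidableEq ι] {F : Type*} [Field F] [Fintype F]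
  {Q : QuadraticForm F (ι → F)} {P P' : Submodule F (ι → F)} {hQ : Nondeg Q} {M : Subgroup (GL ι F)}

/-- The type of a decomposition into planes. -/
def Ty2 (Q : QuadraticForm F (ι → F)) {t : ℕ} (D : Fin t → Submodule F (ι → F)) : Prop :=
  ((∀ l, PlaneMinus Q (D l)) ∧ Fintype.card F ≠ 3) ∨ ((∀ l, PlanePlus Q (D l)) ∧ 7 ≤ Fintype.card F)

theorem Ty2.ty {t : ℕ} {D : Fin t → Submodule F (ι → F)} (h : Ty2 Q D) (l : Fin t) : PlaneTy Q (D l) := by
  rcases h with ⟨h1, h2⟩ | ⟨h1, h2⟩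
  · exact Or.inl ⟨h1 l, h2⟩
  · exact Or.inr ⟨h1 l, h2⟩

/-- Solutions for planes without singular vectors. -/
theorem solver_minus (hQ : Nondeg Q) {R₁ R₂ : Submodule F (ι → F)} (hp : OPair Q P R₁) (hf : finrank F P = 2) (hm : PlaneMinus Q P)
    (hp' : OPair Q P' R₂) (hf' : finrank F P' = 2) (hm' : PlaneMinus Q P') {u u' : ι → F} (hu : u ∈ P) (hu' : u' ∈ P') (hu0 : u ≠ 0)
    (hu'0 : u' ≠ 0) {c₁ c₂ : F} (hc₁ : c₁ ≠ 0) (hc₂ : c₂ ≠ 0) :
    ∃ x ∈ P, ∃ x' ∈ P', Q x ≠ 0 ∧ Q x' ≠ 0 ∧ Q x = polar Q u x ∧ Q x' = polar Q u' x' ∧ c₁ * Q x + c₂ * Q x' = 0 := by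
  obtain ⟨t, ht, hut⟩ := unit_ex hQ hp hu hu0
  obtain ⟨w, hw, hw0, hwu⟩ := perp_ex hQ hp hf hu0
  obtain ⟨t', ht', hut'⟩ := unit_ex hQ hp' hu' hu'0
  obtain ⟨w', hw', hw'0, hwu'⟩ := perp_ex hQ hp' hf' hu'0
  have huw : polar Q u w = 0 := by rw [polar_comm]; exact hwu
  have huw' : polar Q u' w' = 0 := by rw [polar_comm]; exact hwu'
  have hQw := hm w hw hw0
  have hQw' := hm' w' hw' hw'0
  have hne : ∀ s : F, t + s • w ≠ 0 := by
    intro s h
    have e := congrArg (fun x => polar Q u x) h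
    simp only [polar_add_right, polar_sm_r, huw, hut, polar_zero_right, mul_zero, add_zero] at e
    exact one_ne_zero e
  have hne' : ∀ s : F, t' + s • w' ≠ 0 := by
    intro s h
    have e := congrArg (fun x => polar Q u' x) h
    simp only [polar_add_right, polar_sm_r, huw', hut', polar_zero_right, mul_zero, add_zero] at e
    exact one_ne_zero e
  have hfv : ∀ s : F, Q (t + s • w) = Q t + polar Q t w * s + Q w * s ^ 2 := by
    intro s
    rw [Q_ad, Q_sm, polar_sm_r]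
    ring
  have hfv' : ∀ s : F, Q (t' + s • w') = Q t' + polar Q t' w' * s + Q w' * s ^ 2 := by
    intro s
    rw [Q_ad, Q_sm, polar_sm_r]
    ring
  have hfne : ∀ s : F, Q t + polar Q t w * s + Q w * s ^ 2 ≠ 0 := by
    intro s
    rw [← hfv]
    exact hm _ (P.add_mem ht (P.smul_mem _ hw)) (hne s)
  have hfne' : ∀ s : F, Q t' + polar Q t' w' * s + Q w' * s ^ 2 ≠ 0 := by
    intro s
    rw [← hfv']
    exact hm' _ (P'.add_mem ht' (P'.smul_mem _ hw')) (hne' s)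
  obtain ⟨s, s', hs⟩ := pigeon (A := -c₂ * Q t) (B := -c₂ * polar Q t w) (C := -c₂ * Q w) (A' := c₁ * Q t') (B' := c₁ * polar Q t' w')
    (C' := c₁ * Q w') (mul_ne_zero (neg_ne_zero.2 hc₂) hQw) (mul_ne_zero hc₁ hQw')
    (fun s h => by
      apply mul_ne_zero (neg_ne_zero.2 hc₂) (hfne s)
      linear_combination h)
    (fun s h => by
      apply mul_ne_zero hc₁ (hfne' s)
      linear_combination h)
  have hf1 := hfne s
  have hf2 := hfne' s'
  rw [← hfv] at hf1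
  rw [← hfv'] at hf2
  have hrel : c₁ * Q (t' + s' • w') + c₂ * Q (t + s • w) = 0 := by
    rw [hfv, hfv']
    linear_combination -hs
  have hp1 : polar Q u (t + s • w) = 1 := by
    rw [polar_add_right, polar_sm_r, huw, hut]
    ring
  have hp2 : polar Q u' (t' + s' • w') = 1 := by
    rw [polar_add_right, polar_sm_r, huw', hut']
    ring
  refine ⟨(Q (t + s • w))⁻¹ • (t + s • w), P.smul_mem _ (P.add_mem ht (P.smul_mem _ hw)),
    (Q (t' + s' • w'))⁻¹ • (t' + s' • w'), P'.smul_mem _ (P'.add_mem ht' (P'.smul_mem _ hw')), ?_, ?_, ?_, ?_, ?_⟩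
  · rw [Q_sm]
    exact mul_ne_zero (pow_ne_zero _ (inv_ne_zero hf1)) hf1
  · rw [Q_sm]
    exact mul_ne_zero (pow_ne_zero _ (inv_ne_zero hf2)) hf2
  · rw [Q_sm, polar_sm_r, hp1]
    field_simp
  · rw [Q_sm, polar_sm_r, hp2]
    field_simp
  · rw [Q_sm, Q_sm]
    generalize Q (t + s • w) = f₁ at *
    generalize Q (t' + s' • w') = f₂ at *
    field_simp
    linear_combination hrel

theorem exists_rho {a₁ a₂ : F} (h1 : a₁ ≠ 0) (h7 : 7 ≤ Fintype.card F) :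
    ∃ ρ : F, ρ ≠ 0 ∧ ρ ≠ 1 ∧ a₁ * ρ + a₂ ≠ 0 ∧ a₁ * ρ ^ 2 + a₂ ≠ 0 := by
  classical
  obtain ⟨S₁, hS₁, hS₁'⟩ : ∃ S₁ : Finset F, S₁.card ≤ 2 ∧ ∀ s, a₁ * s ^ 2 + a₂ = 0 → s ∈ S₁ := by
    by_cases hr : ∃ r : F, a₁ * r ^ 2 + a₂ = 0
    · obtain ⟨r, hr⟩ := hr
      refine ⟨{r, -r}, Finset.card_le_two, fun s h => ?_⟩
      have e : a₁ * ((s - r) * (s + r)) = 0 := by linear_combination h - hr
      simp only [Finset.mem_insert, Finset.mem_singleton]
      rcases mul_eq_zero.1 e with h3 | h3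
      · exact absurd h3 h1
      · rcases mul_eq_zero.1 h3 with h4 | h4
        · exact Or.inl (sub_eq_zero.1 h4)
        · exact Or.inr (eq_neg_of_add_eq_zero_left h4)
    · push Not at hr
      exact ⟨∅, by simp, fun s h => absurd h (hr s)⟩
  obtain ⟨ρ, hρ⟩ := exists_notin (insert 0 (insert 1 (insert (-(a₂ / a₁)) S₁))) (by
    have e1 := Finset.card_insert_le (0 : F) (insert 1 (insert (-(a₂ / a₁)) S₁))
    have e2 := Finset.card_insert_le (1 : F) (insert (-(a₂ / a₁)) S₁)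
    have e3 := Finset.card_insert_le (-(a₂ / a₁)) S₁
    omega)
  simp only [Finset.mem_insert, not_or] at hρ
  refine ⟨ρ, hρ.1, hρ.2.1, fun h => hρ.2.2.1 ?_, fun h => hρ.2.2.2 (hS₁' ρ h)⟩
  field_simp
  linear_combination h

/-- Solutions for hyperbolic planes. -/
theorem solver_plus (hQ : Nondeg Q) (hf : finrank F P = 2) (hf' : finrank F P' = 2) (h7 : 7 ≤ Fintype.card F)
    {e f e' f' : ι → F} (he : e ∈ P) (hef : f ∈ P) (hQe : Q e = 0) (hQf : Q f = 0) (hpef : polar Q e f = 1)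
    (he' : e' ∈ P') (hef' : f' ∈ P') (hQe' : Q e' = 0) (hQf' : Q f' = 0) (hpef' : polar Q e' f' = 1)
    {u u' : ι → F} (hu : u ∈ P) (hu' : u' ∈ P') (hQu : Q u ≠ 0) (hQu' : Q u' ≠ 0) {c₁ c₂ : F} (hc₁ : c₁ ≠ 0) (hc₂ : c₂ ≠ 0) :
    ∃ x ∈ P, ∃ x' ∈ P', Q x ≠ 0 ∧ Q x' ≠ 0 ∧ Q x = polar Q u x ∧ Q x' = polar Q u' x' ∧ c₁ * Q x + c₂ * Q x' = 0 := by
  have hexp : ∀ {S : Submodule F (ι → F)} {a b v : ι → F}, finrank F S = 2 → a ∈ S → b ∈ S → Q a = 0 → Q b = 0 → polar Q a b = 1 → v ∈ S →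
      ∃ α β : F, v = α • a + β • b := by
    intro S a b v hS ha hb hQa hQb hab hv
    have ha0 : a ≠ 0 := by
      rintro rfl
      rw [polar_zero_left] at hab
      exact zero_ne_one hab
    refine plane_span (by omega) ha hb ha0 (fun s h => ?_) hv
    rw [h, polar_sm_r, polar_self_zero hQa, mul_zero] at hab
    exact zero_ne_one hab
  obtain ⟨ξ, η, rfl⟩ := hexp hf he hef hQe hQf hpef hu
  obtain ⟨ξ', η', rfl⟩ := hexp hf' he' hef' hQe' hQf' hpef' hu'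
  have hQ1 : ∀ α β : F, Q (α • e + β • f) = α * β := by
    intro α β
    rw [Q_ad, Q_sm, Q_sm, hQe, hQf, polar_sm_l, polar_sm_r, hpef]
    ring
  have hQ2 : ∀ α β : F, Q (α • e' + β • f') = α * β := by
    intro α β
    rw [Q_ad, Q_sm, Q_sm, hQe', hQf', polar_sm_l, polar_sm_r, hpef']
    ring
  have hB1 : ∀ α β α' β' : F, polar Q (α • e + β • f) (α' • e + β' • f) = α * β' + β * α' := by
    intro α β α' β'
    have hfe : polar Q f e = 1 := by rw [polar_comm]; exact hpef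
    simp only [polar_add_left, polar_add_right, polar_sm_l, polar_sm_r, polar_self_zero hQe, polar_self_zero hQf, hpef, hfe]
    ring
  have hB2 : ∀ α β α' β' : F, polar Q (α • e' + β • f') (α' • e' + β' • f') = α * β' + β * α' := by
    intro α β α' β'
    have hfe : polar Q f' e' = 1 := by rw [polar_comm]; exact hpef'
    simp only [polar_add_left, polar_add_right, polar_sm_l, polar_sm_r, polar_self_zero hQe', polar_self_zero hQf', hpef', hfe]
    ring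
  rw [hQ1] at hQu
  rw [hQ2] at hQu'
  have hξ : ξ ≠ 0 := left_ne_zero_of_mul hQu
  have hη : η ≠ 0 := right_ne_zero_of_mul hQu
  have hξ' : ξ' ≠ 0 := left_ne_zero_of_mul hQu'
  have hη' : η' ≠ 0 := right_ne_zero_of_mul hQu'
  obtain ⟨a₁, ha₁⟩ : ∃ a₁, a₁ = c₁ * (ξ * η) := ⟨_, rfl⟩
  obtain ⟨a₂, ha₂⟩ : ∃ a₂, a₂ = c₂ * (ξ' * η') := ⟨_, rfl⟩
  have ha₁0 : a₁ ≠ 0 := by rw [ha₁]; exact mul_ne_zero hc₁ hQu
  have ha₂0 : a₂ ≠ 0 := by rw [ha₂]; exact mul_ne_zero hc₂ hQu'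
  obtain ⟨ρ, h0, h1, h2, h3⟩ := exists_rho (a₂ := a₂) ha₁0 h7
  have h1' : ρ - 1 ≠ 0 := sub_ne_zero.2 h1
  have h1'' : 1 - ρ ≠ 0 := sub_ne_zero.2 (Ne.symm h1)
  obtain ⟨s, hs⟩ : ∃ s, s = a₁ * ρ * (1 - ρ) / (a₁ * ρ + a₂) := ⟨_, rfl⟩
  obtain ⟨r, hr⟩ : ∃ r, r = a₂ * (ρ - 1) / (ρ * (a₁ * ρ + a₂)) := ⟨_, rfl⟩
  have hs0 : s ≠ 0 := by
    rw [hs]
    exact div_ne_zero (mul_ne_zero (mul_ne_zero ha₁0 h0) h1'') h2
  have hr0 : r ≠ 0 := by
    rw [hr]
    exact div_ne_zero (mul_ne_zero ha₂0 h1') (mul_ne_zero h0 h2)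
  have hs1 : 1 - s ≠ 0 := by
    have e1 : 1 - s = (a₁ * ρ ^ 2 + a₂) / (a₁ * ρ + a₂) := by
      rw [hs]
      field_simp
      ring
    rw [e1]
    exact div_ne_zero h3 h2
  have hr1 : 1 - r ≠ 0 := by
    have e1 : 1 - r = (a₁ * ρ ^ 2 + a₂) / (ρ * (a₁ * ρ + a₂)) := by
      rw [hr, eq_div_iff (mul_ne_zero h0 h2), sub_mul, div_mul_cancel₀ _ (mul_ne_zero h0 h2)]
      ring
    rw [e1]
    exact div_ne_zero h3 (mul_ne_zero h0 h2)
  have hs2 : 1 - s⁻¹ ≠ 0 := by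
    have e1 : 1 - s⁻¹ = (s - 1) / s := by
      rw [sub_div, div_self hs0, one_div]
    rw [e1]
    refine div_ne_zero ?_ hs0
    intro h
    exact hs1 (by linear_combination -h)
  have hr2 : 1 - r⁻¹ ≠ 0 := by
    have e1 : 1 - r⁻¹ = (r - 1) / r := by
      rw [sub_div, div_self hr0, one_div]
    rw [e1]
    refine div_ne_zero ?_ hr0
    intro h
    exact hr1 (by linear_combination -h)
  refine ⟨((1 - s) * ξ) • e + ((1 - s⁻¹) * η) • f, P.add_mem (P.smul_mem _ he) (P.smul_mem _ hef),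
    ((1 - r) * ξ') • e' + ((1 - r⁻¹) * η') • f', P'.add_mem (P'.smul_mem _ he') (P'.smul_mem _ hef'), ?_, ?_, ?_, ?_, ?_⟩
  · rw [hQ1]
    exact mul_ne_zero (mul_ne_zero hs1 hξ) (mul_ne_zero hs2 hη)
  · rw [hQ2]
    exact mul_ne_zero (mul_ne_zero hr1 hξ') (mul_ne_zero hr2 hη')
  · rw [hQ1, hB1]
    field_simp
    ring
  · rw [hQ2, hB2]
    field_simp
    ring
  · rw [hQ1, hQ2]
    have key : a₁ * ((1 - s) * (1 - s⁻¹)) + a₂ * ((1 - r) * (1 - r⁻¹)) = 0 := by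
      rw [hs, hr]
      field_simp
      ring
    rw [ha₁, ha₂] at key
    linear_combination key

/-- The data of a similitude of factor `-1` between two planes without singular vectors. -/
theorem sim_data (hQ : Nondeg Q) {R₁ R₂ : Submodule F (ι → F)} (hp : OPair Q P R₁) (hf : finrank F P = 2) (hm : PlaneMinus Q P)
    (hp' : OPair Q P' R₂) (hf' : finrank F P' = 2) (hm' : PlaneMinus Q P') {y₁ y₂ : ι → F} (hy₁ : y₁ ∈ P) (hy₂ : y₂ ∈ P') (h10 : y₁ ≠ 0)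
    (h20 : y₂ ≠ 0) (hy : Q y₂ = -Q y₁) :
    ∃ z₁ ∈ P, ∃ z₂ ∈ P', (∀ s : F, z₁ ≠ s • y₁) ∧ (∀ s : F, z₂ ≠ s • y₂) ∧ polar Q y₂ z₂ = -polar Q y₁ z₁ ∧ Q z₂ = -Q z₁ := by
  have hQ1 := hm y₁ hy₁ h10
  have hQ2 := hm' y₂ hy₂ h20
  by_cases h2 : (2 : F) = 0
  · have hneg : ∀ x : F, -x = x := fun x => by linear_combination (-x) * h2
    have hs1 : polar Q y₁ y₁ = 0 := by rw [pol2, h2, zero_mul]
    have hs2 : polar Q y₂ y₂ = 0 := by rw [pol2, h2, zero_mul]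
    obtain ⟨t₁, ht₁, h1⟩ := unit_ex hQ hp hy₁ h10
    obtain ⟨t₂, ht₂, h3⟩ := unit_ex hQ hp' hy₂ h20
    have hne1 : ∀ s : F, Q t₁ + polar Q t₁ y₁ * s + Q y₁ * s ^ 2 ≠ 0 := by
      intro s
      have e : Q (t₁ + s • y₁) = Q t₁ + polar Q t₁ y₁ * s + Q y₁ * s ^ 2 := by
        rw [Q_ad, Q_sm, polar_sm_r]
        ring
      rw [← e]
      refine hm _ (P.add_mem ht₁ (P.smul_mem _ hy₁)) ?_
      intro h
      have e1 := congrArg (fun x => polar Q y₁ x) h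
      simp only [polar_add_right, polar_sm_r, hs1, h1, polar_zero_right, mul_zero, add_zero] at e1
      exact one_ne_zero e1
    have hne2 : ∀ s : F, Q t₂ + polar Q t₂ y₂ * s + Q y₂ * s ^ 2 ≠ 0 := by
      intro s
      have e : Q (t₂ + s • y₂) = Q t₂ + polar Q t₂ y₂ * s + Q y₂ * s ^ 2 := by
        rw [Q_ad, Q_sm, polar_sm_r]
        ring
      rw [← e]
      refine hm' _ (P'.add_mem ht₂ (P'.smul_mem _ hy₂)) ?_
      intro h
      have e1 := congrArg (fun x => polar Q y₂ x) h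
      simp only [polar_add_right, polar_sm_r, hs2, h3, polar_zero_right, mul_zero, add_zero] at e1
      exact one_ne_zero e1
    obtain ⟨s, s', hs⟩ := pigeon hQ1 hQ2 hne1 hne2
    have hind : ∀ {a b : ι → F}, polar Q a a = 0 → polar Q a b = 1 → ∀ r : F, b ≠ r • a := by
      intro a b h5 h6 r h7
      rw [h7, polar_sm_r, h5, mul_zero] at h6
      exact zero_ne_one h6
    have e1 : polar Q y₁ (t₁ + s • y₁) = 1 := by
      rw [polar_add_right, polar_sm_r, hs1, h1]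
      ring
    have e2 : polar Q y₂ (t₂ + s' • y₂) = 1 := by
      rw [polar_add_right, polar_sm_r, hs2, h3]
      ring
    refine ⟨t₁ + s • y₁, P.add_mem ht₁ (P.smul_mem _ hy₁), t₂ + s' • y₂, P'.add_mem ht₂ (P'.smul_mem _ hy₂), hind hs1 e1, hind hs2 e2, ?_, ?_⟩
    · rw [e1, e2, hneg]
    · rw [hneg]
      have e3 : Q (t₁ + s • y₁) = Q t₁ + polar Q t₁ y₁ * s + Q y₁ * s ^ 2 := by
        rw [Q_ad, Q_sm, polar_sm_r]
        ring
      have e4 : Q (t₂ + s' • y₂) = Q t₂ + polar Q t₂ y₂ * s' + Q y₂ * s' ^ 2 := by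
        rw [Q_ad, Q_sm, polar_sm_r]
        ring
      rw [e3, e4, hs]
  · obtain ⟨w₁, hw₁, hw₁0, h1⟩ := perp_ex hQ hp hf h10
    obtain ⟨w₂, hw₂, hw₂0, h3⟩ := perp_ex hQ hp' hf' h20
    have hQw₁ := hm w₁ hw₁ hw₁0
    have hQw₂ := hm' w₂ hw₂ hw₂0
    have hy1w : polar Q y₁ w₁ = 0 := by rw [polar_comm]; exact h1
    have hy2w : polar Q y₂ w₂ = 0 := by rw [polar_comm]; exact h3
    -- anisotropy
    have hn1 : ¬ IsSquare (-(Q y₁ * Q w₁)) := by
      rintro ⟨r, hr⟩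
      have h5 : Q (r • y₁ + Q y₁ • w₁) = 0 := by
        rw [Q_ad, Q_sm, Q_sm, polar_sm_l, polar_sm_r, hy1w]
        linear_combination -(Q y₁) * hr
      refine hm _ (P.add_mem (P.smul_mem _ hy₁) (P.smul_mem _ hw₁)) ?_ h5
      intro h6
      have e1 := congrArg (fun x => polar Q x w₁) h6
      simp only [polar_add_left, polar_sm_l, hy1w, pol2, polar_zero_left, mul_zero, zero_add] at e1
      exact (mul_ne_zero hQ1 (mul_ne_zero h2 hQw₁)) e1
    have hn2 : ¬ IsSquare (-(Q y₂ * Q w₂)) := by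
      rintro ⟨r, hr⟩
      have h5 : Q (r • y₂ + Q y₂ • w₂) = 0 := by
        rw [Q_ad, Q_sm, Q_sm, polar_sm_l, polar_sm_r, hy2w]
        linear_combination -(Q y₂) * hr
      refine hm' _ (P'.add_mem (P'.smul_mem _ hy₂) (P'.smul_mem _ hw₂)) ?_ h5
      intro h6
      have e1 := congrArg (fun x => polar Q x w₂) h6
      simp only [polar_add_left, polar_sm_l, hy2w, pol2, polar_zero_left, mul_zero, zero_add] at e1
      exact (mul_ne_zero hQ2 (mul_ne_zero h2 hQw₂)) e1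
    obtain ⟨r, hr⟩ := nonsq_mul h2 (neg_ne_zero.2 (mul_ne_zero hQ1 hQw₁)) (neg_ne_zero.2 (mul_ne_zero hQ2 hQw₂)) hn1 hn2
    have hr' : r * r = -(Q y₁) ^ 2 * (Q w₁ * Q w₂) := by
      rw [← hr, hy]
      ring
    -- the scalar
    set ρ := r / (Q y₁ * Q w₂) with hρ
    have hρ2 : ρ ^ 2 * Q w₂ = -Q w₁ := by
      rw [hρ, div_pow, _root_.sq r, hr']
      field_simp
    refine ⟨w₁, hw₁, ρ • w₂, P'.smul_mem _ hw₂, ?_, ?_, ?_, ?_⟩
    · intro s h
      have e1 := congrArg (fun x => polar Q x y₁) h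
      simp only [polar_sm_l, h1, pol2] at e1
      have e2 : s = 0 := by
        rcases mul_eq_zero.1 e1.symm with h5 | h5
        · exact h5
        · exact absurd h5 (mul_ne_zero h2 hQ1)
      rw [e2, zero_smul] at h
      exact hw₁0 h
    · intro s h
      have hρ0 : ρ ≠ 0 := by
        rintro h5
        rw [h5] at hρ2
        exact hQw₁ (by linear_combination hρ2)
      have e1 := congrArg (fun x => polar Q x y₂) h
      simp only [polar_sm_l, h3, pol2, mul_zero] at e1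
      have e2 : s = 0 := by
        rcases mul_eq_zero.1 e1.symm with h5 | h5
        · exact h5
        · exact absurd h5 (mul_ne_zero h2 hQ2)
      rw [e2, zero_smul] at h
      rcases smul_eq_zero.1 h with h5 | h5
      · exact hρ0 h5
      · exact hw₂0 h5
    · rw [polar_sm_r, hy2w, hy1w]
      ring
    · rw [Q_sm, hρ2]

section Env

variable {t : ℕ} {D : Fin t → Submodule F (ι → F)} (E : Env hQ 2 D M)
include E

theorem Env.planef (l : Fin t) : finrank F (D l) = 2 := Env.hfin E l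

/-- Rotations in a hyperbolic pair. -/
theorem Env.rot {l : Fin t} {e f : ι → F} (he : e ∈ D l) (hf : f ∈ D l) (hQe : Q e = 0) (hQf : Q f = 0) (hef : polar Q e f = 1) {μ : F}
    (hμ : μ ≠ 0) : ∃ τ ∈ decompositionStabilizer D ⊓ omegaGL ⇑Q, ∀ v, τ ⋆ v = v + ((μ ^ 2 - 1) * polar Q v f) • e + ((μ⁻¹ ^ 2 - 1) * polar Q v e) • f := by
  have hfe : polar Q f e = 1 := by rw [polar_comm]; exact hef
  have h1 : Q (e - f) = -1 := by
    rw [sub_eq_add_neg, Q_ad, QuadraticMap.map_neg, polar_neg_right, hQe, hQf, hef]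
    ring
  have h2 : Q (μ⁻¹ • e - μ • f) = -1 := by
    rw [sub_eq_add_neg, Q_ad, QuadraticMap.map_neg, polar_neg_right, Q_sm, Q_sm, polar_sm_l, polar_sm_r, hQe, hQf, hef]
    field_simp
    ring
  obtain ⟨τ, hτ, hτ'⟩ := Env.refl2_H E ((D l).sub_mem he hf) ((D l).sub_mem ((D l).smul_mem _ he) ((D l).smul_mem _ hf)) (by rw [h1, h2])
    (by rw [h1]; exact neg_ne_zero.2 one_ne_zero)
  refine ⟨τ, hτ, fun v => ?_⟩
  rw [hτ', r_eq (μ⁻¹ • e - μ • f) v, h2, r_eq (e - f), h1]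
  have e1 : ((-1 : F)⁻¹) = -1 := by norm_num
  rw [e1]
  obtain ⟨ν, hν⟩ : ∃ ν, ν = μ⁻¹ := ⟨_, rfl⟩
  rw [← hν]
  have hμν : μ * ν = 1 := by
    rw [hν]
    exact mul_inv_cancel₀ hμ
  have hX : polar Q v (ν • e - μ • f) = ν * polar Q v e - μ * polar Q v f := by
    rw [polar_sub_right, polar_sm_r, polar_sm_r]
  have hc1 : polar Q (ν • e - μ • f) e = -μ := by
    rw [polar_sub_left, polar_sm_l, polar_sm_l, polar_self_zero hQe, hfe]
    ring
  have hc2 : polar Q (ν • e - μ • f) f = ν := by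
    rw [polar_sub_left, polar_sm_l, polar_sm_l, polar_self_zero hQf, hef]
    ring
  have hw : polar Q (v - (-1 * polar Q v (ν • e - μ • f)) • (ν • e - μ • f)) (e - f)
      = polar Q v e - polar Q v f + polar Q v (ν • e - μ • f) * (polar Q (ν • e - μ • f) e - polar Q (ν • e - μ • f) f) := by
    rw [polar_sub_left, polar_sm_l, polar_sub_right Q v, polar_sub_right Q (ν • e - μ • f)]
    ring
  rw [hw, hX, hc1, hc2]
  generalize polar Q v e = X
  generalize polar Q v f = Y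
  have c1 : (μ ^ 2 - 1) * Y = (ν * X - μ * Y) * ν + (X - Y + (ν * X - μ * Y) * (-μ - ν)) := by
    linear_combination X * hμν
  have c2 : (ν ^ 2 - 1) * X = -((ν * X - μ * Y) * μ) - (X - Y + (ν * X - μ * Y) * (-μ - ν)) := by
    linear_combination Y * hμν
  rw [c1, c2]
  module

end Env

end Cfsg.Agent.Lib.H97WG
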