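import Mathlib
import Cfsg.Agent.Lib.H97WG

/-!
# Decompositions into planes: Siegel elements with a centre outside the blocks
-/

set_option autoImplicit false
set_option linter.unusedSectionVars false
set_option linter.unusedVariables false

namespace Cfsg.Agent.Lib.H97WH

open Matrix QuadraticMap Cfsg Cfsg.Geo Module
open Cfsg.Agent.Lib.OrthoBasic Cfsg.Agent.Lib.OrthoSiegel Cfsg.Agent.Lib.OmCalc Cfsg.Agent.Lib.TvGL
  Cfsg.Agent.Lib.OmPerp Cfsg.Agent.Lib.OmNd Cfsg.Agent.Lib.OmK Cfsg.Agent.Lib.OmPair Cfsg.Agent.Lib.OmBlk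
  Cfsg.Agent.Lib.H97WA Cfsg.Agent.Lib.H97WB Cfsg.Agent.Lib.H97WC Cfsg.Agent.Lib.H97WD Cfsg.Agent.Lib.H97WF
  Cfsg.Agent.Lib.H97WG
open Cfsg.Agent.Lib.OrthGroup Cfsg.Agent.Lib.OrthOmega
open Cfsg.Agent.Lib.SympT (GL_ext mulVec_mul_GL mulVec_inv_GL inv_mulVec_GL linOf linOf_apply)
open Cfsg.Agent.Lib.QuadFF (polar_sm_r polar_sm_l Q_ad Q_sm IsHyp ND restr polar_restr exists_singular)

local notation:70 g:71 " ⋆ " x:70 => Matrix.mulVec (Units.val g) x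

variable {ι : Type} [Fintype ι] [DecidableEq ι] {F : Type*} [Field F] [Fintype F]
  {Q : QuadraticForm F (ι → F)} {P P' : Submodule F (ι → F)} {hQ : Nondeg Q} {M : Subgroup (GL ι F)}

theorem exists_fin_notin {t : ℕ} (S : Finset (Fin t)) (h : S.card < t) : ∃ r, r ∉ S := by
  by_contra hcon
  push Not at hcon
  have h1 : S = Finset.univ := Finset.eq_univ_iff_forall.2 hcon
  rw [h1, Finset.card_univ, Fintype.card_fin] at h
  exact lt_irrefl _ h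

/-- The product of two reflections applied to the first vector. -/
theorem refl2_self {u b : ι → F} (hub : Q b = Q u) (hQu : Q u ≠ 0) :
    refl Q u (refl Q b u) = (((Q u)⁻¹ * polar Q u b) ^ 2 - 1) • u - ((Q u)⁻¹ * polar Q u b) • b := by
  rw [refl2_formula rfl hub u, pol2, polar_comm Q b u]
  have e : (Q u)⁻¹ * (2 * Q u - (Q u)⁻¹ * polar Q u b * polar Q u b) = 2 - ((Q u)⁻¹ * polar Q u b) ^ 2 := by
    field_simp
  rw [e]
  module

section Env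

variable {t : ℕ} {D : Fin t → Submodule F (ι → F)} (E : Env hQ 2 D M)
include E

local notation "πₑ" => pr (Env.dc E)

theorem Env.fix_of {s : GL ι F} {X : ι → F} (h : ∀ l, πₑ l X = 0 ∨ ∀ x ∈ D l, s ⋆ x = x) : s ⋆ X = X := by
  classical
  have e : s ⋆ X = ∑ l, s ⋆ πₑ l X := by
    conv_lhs => rw [eq_sum_pr (Env.dc E) X]
    rw [← Matrix.mulVecLin_apply, map_sum]
    rfl
  rw [e]
  conv_rhs => rw [eq_sum_pr (Env.dc E) X]
  refine Finset.sum_congr rfl (fun l _ => ?_)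
  rcases h l with h1 | h1
  · rw [h1, Matrix.mulVec_zero]
  · exact h1 _ (pr_mem _ _ _)

theorem Env.R_of_comps {X z : ι → F} (hX : Q X = 0) (h : ∀ l, R hQ M X (πₑ l z)) : R hQ M X z := by
  classical
  rw [eq_sum_pr (Env.dc E) z]
  exact Finset.sum_induction _ (fun v => R hQ M X v) (fun a b h1 h2 => R_add h1 h2) (R_zero hX) (fun l _ => h l)

/-- All vectors of a block, from one with a non-zero component. -/
theorem Env.A_lemma (hT : Ty2 Q D) {X Y : ι → F} {m r : Fin t} (hmr : m ≠ r) (hXm : πₑ m X = 0) (hXr : πₑ r X = 0) (hYm : πₑ m Y ≠ 0)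
    (hR : R hQ M X Y) {w : ι → F} (hw : w ∈ D m) : R hQ M X w := by
  have hXa : ∀ z ∈ D m, polar Q X z = 0 := fun z hz => polar_of_pr (Env.dc E) hXm hz
  have hXa' : ∀ z ∈ D r, polar Q X z = 0 := fun z hz => polar_of_pr (Env.dc E) hXr hz
  have hp := (Env.dc E).hp m
  have hf := Env.hfin E m
  have hty := hT.ty m
  have hQX : Q X = 0 := hR.sing
  obtain ⟨a, ha, hQa, hYa⟩ := exists_nonsing_nonperp hQ hp hty (pr_mem (Env.dc E) m Y) hYm
  obtain ⟨b, hb, hQb, hba, hab⟩ := exists_nonpar hQ hp hf hty ha hQa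
  obtain ⟨s, hs, hs'⟩ := Env.refl2_H E ha hb hQb.symm hQa
  have hsX : s ⋆ X = X := by rw [hs', r_perp (hXa b hb), r_perp (hXa a ha)]
  have h1 := R_conj (Env.iso E (E.hHM hs)) (E.hHM hs) hR
  rw [hsX] at h1
  have h2 := R_sub h1 hR
  rw [hs', refl2_formula rfl hQb Y] at h2
  set β := (Q a)⁻¹ * polar Q b Y with hβ
  set γ := (Q a)⁻¹ * (polar Q a Y - (Q a)⁻¹ * polar Q b Y * polar Q b a) with hγ
  have e1 : Y - β • b - γ • a - Y = -β • b - γ • a := by module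
  rw [e1] at h2
  have hm1 : -β • b - γ • a ∈ D m := (D m).sub_mem ((D m).smul_mem _ hb) ((D m).smul_mem _ ha)
  have hne : -β • b - γ • a ≠ 0 := by
    intro h0
    by_cases hβ0 : β = 0
    · rw [hβ0] at h0
      simp only [neg_zero, zero_smul, zero_sub, neg_eq_zero, smul_eq_zero] at h0
      have ha0 : a ≠ 0 := by
        rintro rfl
        exact hQa (map_zero _)
      have hγ0 : γ = 0 := h0.resolve_right ha0
      have hb0 : polar Q b Y = 0 := by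
        rw [hβ] at hβ0
        exact (mul_eq_zero.1 hβ0).resolve_left (inv_ne_zero hQa)
      rw [hγ, hb0] at hγ0
      have h5 : polar Q a Y = 0 := by
        have := (mul_eq_zero.1 hγ0).resolve_left (inv_ne_zero hQa)
        simpa using this
      apply hYa
      rw [← polar_pr (Env.dc E) Y ha, polar_comm]
      exact h5
    · apply hba ((-β)⁻¹ * γ)
      have : (-β) • b = γ • a := sub_eq_zero.1 h0
      rw [mul_smul, ← this, smul_smul, inv_mul_cancel₀ (neg_ne_zero.2 hβ0), one_smul]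
  refine plane_fill hQ hp hf hty (fun x => R hQ M X x) (R_zero hQX) (fun x y hx hy => R_add hx hy) (fun x hx => R_neg hx) ?_ hm1 hne h2 hw
  intro y hy hAy c hc hQc
  obtain ⟨c', hc', hQc'⟩ := Env.value E r hQc
  obtain ⟨s', hs₁, hs₂⟩ := Env.refl2_H E hc hc' hQc'.symm hQc
  have hsX' : s' ⋆ X = X := by rw [hs₂, r_perp (hXa' c' hc'), r_perp (hXa c hc)]
  have hsy : s' ⋆ y = y - ((Q c)⁻¹ * polar Q y c) • c := by
    rw [hs₂, r_perp (polar_orth (Env.dc E) hmr hy hc'), r_eq]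
  have h3 := R_conj (Env.iso E (E.hHM hs₁)) (E.hHM hs₁) hAy
  rw [hsX', hsy] at h3
  have h4 := R_sub hAy h3
  convert h4 using 1
  abel

/-- All blocks on which the centre has no component. -/
theorem Env.A_spread (hT : Ty2 Q D) {X Y : ι → F} {m r : Fin t} (hmr : m ≠ r) (hXm : πₑ m X = 0) (hXr : πₑ r X = 0) (hYm : πₑ m Y ≠ 0)
    (hR : R hQ M X Y) {l : Fin t} (hXl : πₑ l X = 0) {w : ι → F} (hw : w ∈ D l) : R hQ M X w := by
  by_cases hlm : l = m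
  · subst hlm
    exact Env.A_lemma E hT hmr hXm hXr hYm hR hw
  obtain ⟨s, hs, h1, h2, h3⟩ := Env.swap E (Ne.symm hlm)
  obtain ⟨w₀, hw₀, hQw₀⟩ := Env.value E m (one_ne_zero (α := F))
  have hw₀0 : w₀ ≠ 0 := by
    rintro rfl
    rw [map_zero] at hQw₀
    exact zero_ne_one hQw₀
  have h4 := Env.A_lemma E hT hmr hXm hXr hYm hR hw₀
  have hsX : s ⋆ X = X := by
    refine Env.fix_of E (fun i => ?_)
    by_cases him : i = m
    · left
      rw [him]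
      exact hXm
    by_cases hil : i = l
    · left
      rw [hil]
      exact hXl
    · right
      exact h3 i him hil
  have h5 := R_conj (Env.iso E (E.hHM hs)) (E.hHM hs) h4
  rw [hsX] at h5
  have h6 : πₑ l (s ⋆ w₀) ≠ 0 := by
    rw [pr_of_mem (Env.dc E) (h1 _ hw₀)]
    exact GL_ne s hw₀0
  exact Env.A_lemma E hT hlm hXl hXm h6 h5 hw

/-- Second vectors outside the support of the centre. -/
theorem Env.R_outside (hT : Ty2 Q D) {X Y : ι → F} {m r : Fin t} (hmr : m ≠ r) (hXm : πₑ m X = 0) (hXr : πₑ r X = 0) (hYm : πₑ m Y ≠ 0)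
    (hR : R hQ M X Y) {z : ι → F} (hz : ∀ l, πₑ l X ≠ 0 → πₑ l z = 0) : R hQ M X z := by
  refine Env.R_of_comps E hR.sing (fun l => ?_)
  by_cases hl : πₑ l X = 0
  · exact Env.A_spread E hT hmr hXm hXr hYm hR hl (pr_mem _ _ _)
  · rw [hz l hl]
    exact R_zero hR.sing

/-- The end for a singular centre in a block. -/
theorem Env.finish_pure (hT : Ty2 Q D) (ht : 3 ≤ t) {z Y : ι → F} {m l : Fin t} (hz : z ∈ D m) (hz0 : z ≠ 0) (hQz : Q z = 0) (hR : R hQ M z Y)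
    (hlm : l ≠ m) (hYl : πₑ l Y ≠ 0) : omegaGL ⇑Q ≤ M := by
  classical
  have hother : ∀ j, j ≠ m → πₑ j z = 0 := fun j hj => pr_other (Env.dc E) (Ne.symm hj) hz
  obtain ⟨r, hr⟩ := exists_fin_notin ({l, m} : Finset (Fin t)) (lt_of_le_of_lt Finset.card_le_two (by omega))
  simp only [Finset.mem_insert, Finset.mem_singleton, not_or] at hr
  have hspread : ∀ j, j ≠ m → ∀ w ∈ D j, R hQ M z w := fun j hj w hw =>
    Env.A_spread E hT (Ne.symm hr.1) (hother l hlm) (hother r hr.2) hYl hR (hother j hj) hw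
  have hp := (Env.dc E).hp m
  have hf := Env.hfin E m
  have hTz : T hQ M z := by
    refine ⟨hQz, fun y hy => Env.R_of_comps E hQz (fun j => ?_)⟩
    by_cases hj : j = m
    · subst hj
      obtain ⟨s, hs⟩ := perp_mul hQ hp hf hz hz (pr_mem (Env.dc E) j y) hz0 hz0 (polar_self_zero hQz) (by
        rw [← polar_pr (Env.dc E) y hz, polar_comm]
        exact hy)
      rw [hs]
      exact R_self hQz s
    · exact hspread j hj _ (pr_mem _ _ _)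
  obtain ⟨f, hf', hQf, hzf⟩ := exists_partner hQ hp hz hz0 hQz
  have hfz : polar Q f z = 1 := by rw [polar_comm]; exact hzf
  obtain ⟨j₀, hj₀⟩ := exists_fin_notin ({m} : Finset (Fin t)) (by simp; omega)
  simp only [Finset.mem_singleton] at hj₀
  obtain ⟨a', ha', hQa'⟩ := Env.value E j₀ (neg_ne_zero.2 (one_ne_zero (α := F)))
  have hQzf : Q (z - f) = -1 := by
    rw [sub_eq_add_neg, Q_ad, QuadraticMap.map_neg, polar_neg_right, hQz, hQf, hzf]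
    ring
  obtain ⟨g, hg, hg'⟩ := Env.refl2_H E ((D m).sub_mem hz hf') ha' (by rw [hQzf, hQa']) (by rw [hQzf]; exact neg_ne_zero.2 one_ne_zero)
  have hgz : g ⋆ z = f := by
    rw [hg', r_perp (polar_orth (Env.dc E) (Ne.symm hj₀) hz ha'), r_eq, hQzf, polar_sub_right, polar_self_zero hQz, hzf]
    have e : ((-1 : F)⁻¹ * (0 - 1)) = 1 := by norm_num
    rw [e, one_smul]
    abel
  have hTf := T_conj (Env.iso E (E.hHM hg)) (E.hHM hg) hTz
  rw [hgz] at hTf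
  exact omega_le_of_opp E.h11 hTz hTf (by rw [hfz]; exact one_ne_zero)

/-- The step in the anisotropic case. -/
theorem Env.minus_step (hm : ∀ l, PlaneMinus Q (D l)) (hq : Fintype.card F ≠ 3) (ht : 4 ≤ t) {y₁ y₂ z₁ z₂ : ι → F} {m r : Fin t} (hmr : m ≠ r)
    (hy₁ : y₁ ∈ D m) (hy₂ : y₂ ∈ D r) (h10 : y₁ ≠ 0) (h20 : y₂ ≠ 0) (hQy : Q y₂ = -Q y₁)
    (hall : ∀ j, j ≠ m → j ≠ r → ∀ w ∈ D j, R hQ M (y₁ + y₂) w)
    (hz₁ : z₁ ∈ D m) (hz₂ : z₂ ∈ D r) (hn1 : ∀ s : F, z₁ ≠ s • y₁) (hp12 : polar Q y₂ z₂ = -polar Q y₁ z₁) (hQz : Q z₂ = -Q z₁) (lam : F) :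
    R hQ M (y₁ + y₂) (lam • (z₁ + z₂)) := by
  classical
  have hp := (Env.dc E).hp m
  have hf := Env.hfin E m
  have hty : PlaneTy Q (D m) := Or.inl ⟨hm m, hq⟩
  have hQ1 := hm m y₁ hy₁ h10
  have hQ2 := hm r y₂ hy₂ h20
  have hy12 : polar Q y₁ y₂ = 0 := polar_orth (Env.dc E) hmr hy₁ hy₂
  have hQy0 : Q (y₁ + y₂) = 0 := by
    rw [Q_ad, hQy, hy12]
    ring
  obtain ⟨b, hb, hQb, hba, hab⟩ := exists_nonpar hQ hp hf hty hy₁ hQ1
  obtain ⟨α, β, hαβ⟩ := plane_span (by omega) hy₁ hz₁ h10 hn1 hb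
  have hβ : β ≠ 0 := by
    rintro rfl
    apply hba α
    rw [hαβ, zero_smul, add_zero]
  obtain ⟨b', hb'⟩ : ∃ b', b' = α • y₂ + β • z₂ := ⟨_, rfl⟩
  have hb'm : b' ∈ D r := by
    rw [hb']
    exact (D r).add_mem ((D r).smul_mem _ hy₂) ((D r).smul_mem _ hz₂)
  have e1 : Q b = α ^ 2 * Q y₁ + β ^ 2 * Q z₁ + α * β * polar Q y₁ z₁ := by
    rw [hαβ, Q_ad, Q_sm, Q_sm, polar_sm_l, polar_sm_r]
    ring
  have e2 : Q b' = α ^ 2 * Q y₂ + β ^ 2 * Q z₂ + α * β * polar Q y₂ z₂ := by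
    rw [hb', Q_ad, Q_sm, Q_sm, polar_sm_l, polar_sm_r]
    ring
  have hQb' : Q b' = Q y₂ := by
    rw [e2, hQy, hQz, hp12]
    rw [hQb] at e1
    linear_combination e1
  have hpb : polar Q y₁ b = α * (2 * Q y₁) + β * polar Q y₁ z₁ := by
    rw [hαβ, polar_add_right, polar_sm_r, polar_sm_r, pol2]
  have hpb' : polar Q y₂ b' = -polar Q y₁ b := by
    rw [hpb, hb', polar_add_right, polar_sm_r, polar_sm_r, pol2, hQy, hp12]
    ring
  obtain ⟨κ, hκ⟩ : ∃ κ, κ = (Q y₁)⁻¹ * polar Q y₁ b := ⟨_, rfl⟩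
  have hκ0 : κ ≠ 0 := by
    rw [hκ]
    exact mul_ne_zero (inv_ne_zero hQ1) hab
  have hκ2 : (Q y₂)⁻¹ * polar Q y₂ b' = κ := by
    rw [hpb', hQy, hκ, inv_neg]
    ring
  have hr1 := refl2_self hQb hQ1
  have hr2 := refl2_self hQb' hQ2
  rw [← hκ] at hr1
  rw [hκ2] at hr2
  obtain ⟨s₁, hs₁, hs₁'⟩ := Env.refl2_H E hy₁ hb hQb.symm hQ1
  obtain ⟨s₂, hs₂, hs₂'⟩ := Env.refl2_H E hy₂ hb'm hQb'.symm hQ2
  have hfix1 : ∀ x, polar Q x y₁ = 0 → polar Q x b = 0 → s₁ ⋆ x = x := by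
    intro x h1 h2
    rw [hs₁', r_perp h2, r_perp h1]
  have hfix2 : ∀ x, polar Q x y₂ = 0 → polar Q x b' = 0 → s₂ ⋆ x = x := by
    intro x h1 h2
    rw [hs₂', r_perp h2, r_perp h1]
  have hhM : s₁ * s₂ ∈ M := M.mul_mem (E.hHM hs₁) (E.hHM hs₂)
  obtain ⟨A, hA⟩ : ∃ A, A = κ ^ 2 - 1 - κ * α := ⟨_, rfl⟩
  obtain ⟨B, hB⟩ : ∃ B, B = -κ * β := ⟨_, rfl⟩
  have hB0 : B ≠ 0 := by
    rw [hB]
    exact mul_ne_zero (neg_ne_zero.2 hκ0) hβ
  have hhy : (s₁ * s₂) ⋆ (y₁ + y₂) = A • (y₁ + y₂) + B • (z₁ + z₂) := by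
    rw [mulVec_mul_GL, Matrix.mulVec_add, hfix2 y₁ hy12 (polar_orth (Env.dc E) hmr hy₁ hb'm), hs₂', hr2, Matrix.mulVec_add,
      Matrix.mulVec_sub, Matrix.mulVec_smul, Matrix.mulVec_smul, hs₁', hr1]
    have h3 : polar Q y₂ y₁ = 0 := polar_orth (Env.dc E) (Ne.symm hmr) hy₂ hy₁
    have h4 : polar Q y₂ b = 0 := polar_orth (Env.dc E) (Ne.symm hmr) hy₂ hb
    have h5 : polar Q b' y₁ = 0 := polar_orth (Env.dc E) (Ne.symm hmr) hb'm hy₁
    have h6 : polar Q b' b = 0 := polar_orth (Env.dc E) (Ne.symm hmr) hb'm hb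
    rw [hfix1 y₂ h3 h4, hfix1 b' h5 h6, hαβ, hb', hA, hB]
    module
  have hfixw : ∀ j, j ≠ m → j ≠ r → ∀ w ∈ D j, (s₁ * s₂) ⋆ w = w := by
    intro j hj hj' w hw
    rw [mulVec_mul_GL, hfix2 w (polar_orth (Env.dc E) hj' hw hy₂) (polar_orth (Env.dc E) hj' hw hb'm),
      hfix1 w (polar_orth (Env.dc E) hj hw hy₁) (polar_orth (Env.dc E) hj hw hb)]
  obtain ⟨j₁, hj₁⟩ := exists_fin_notin ({m, r} : Finset (Fin t)) (lt_of_le_of_lt Finset.card_le_two (by omega))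
  simp only [Finset.mem_insert, Finset.mem_singleton, not_or] at hj₁
  obtain ⟨j₂, hj₂⟩ := exists_fin_notin ({m, r, j₁} : Finset (Fin t)) (lt_of_le_of_lt Finset.card_le_three (by omega))
  simp only [Finset.mem_insert, Finset.mem_singleton, not_or] at hj₂
  obtain ⟨a₁, ha₁, hQa₁⟩ := Env.value E j₁ (one_ne_zero (α := F))
  obtain ⟨a₂, ha₂, hQa₂⟩ := Env.value E j₂ (neg_ne_zero.2 (one_ne_zero (α := F)))
  have ha₁0 : a₁ ≠ 0 := by
    rintro rfl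
    rw [map_zero] at hQa₁
    exact zero_ne_one hQa₁
  have h12 : polar Q a₁ a₂ = 0 := polar_orth (Env.dc E) (Ne.symm hj₂.2.2) ha₁ ha₂
  have hQa₀ : Q (a₁ + a₂) = 0 := by
    rw [Q_ad, hQa₁, hQa₂, h12]
    ring
  have hya₀ : R hQ M (y₁ + y₂) (a₁ + a₂) :=
    R_add (hall j₁ hj₁.1 hj₁.2 a₁ ha₁) (hall j₂ hj₂.1 hj₂.2.1 a₂ ha₂)
  have ha₀y := R_swap' hya₀ hQa₀
  obtain ⟨w₀, hw₀, hw₀'⟩ := ((Env.dc E).hp j₁).nondeg hQ ha₁ ha₁0
  have hπ : polar Q (a₁ + a₂) w₀ ≠ 0 := by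
    rw [polar_add_left, polar_orth (Env.dc E) (Ne.symm hj₂.2.2).symm ha₂ hw₀, add_zero]
    exact hw₀'
  obtain ⟨π₀, hπ₀⟩ : ∃ π₀, π₀ = polar Q (a₁ + a₂) w₀ := ⟨_, rfl⟩
  rw [← hπ₀] at hπ
  obtain ⟨μ, hμ⟩ : ∃ μ, μ = lam / (B * π₀) := ⟨_, rfl⟩
  have hμw : μ • w₀ ∈ D j₁ := (D j₁).smul_mem _ hw₀
  have h1 := R_conj (Env.iso E hhM) hhM (hall j₁ hj₁.1 hj₁.2 _ hμw)
  rw [hfixw j₁ hj₁.1 hj₁.2 _ hμw] at h1
  have hfa₀ : (s₁ * s₂) ⋆ (a₁ + a₂) = a₁ + a₂ := by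
    rw [Matrix.mulVec_add, hfixw j₁ hj₁.1 hj₁.2 _ ha₁, hfixw j₂ hj₂.1 hj₂.2.1 _ ha₂]
  have hax : polar Q (a₁ + a₂) ((s₁ * s₂) ⋆ (y₁ + y₂)) = 0 := by
    have := polar_iso (Env.iso E hhM) (a₁ + a₂) (y₁ + y₂)
    rw [hfa₀] at this
    rw [this]
    exact ha₀y.perp
  have hbx : polar Q (y₁ + y₂) ((s₁ * s₂) ⋆ (y₁ + y₂)) = 0 := by
    rw [hhy, polar_add_right, polar_sm_r, polar_sm_r, polar_self_zero hQy0, polar_add_left, polar_add_right, polar_add_right, hp12,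
      polar_orth (Env.dc E) hmr hy₁ hz₂, polar_orth (Env.dc E) (Ne.symm hmr) hy₂ hz₁]
    ring
  have hby : polar Q (y₁ + y₂) (μ • w₀) = 0 := (hall j₁ hj₁.1 hj₁.2 _ hμw).perp
  have h2 := R_comm h1 ha₀y hQy0 hax hbx hby
  rw [hhy, polar_sm_r, ← hπ₀] at h2
  have h3 := R_self (hQ := hQ) (M := M) hQy0 (μ * π₀ * A)
  have h4 := R_sub h2 h3
  convert h4 using 1
  have e : μ * π₀ * B = lam := by
    rw [hμ]
    field_simp
  rw [← e]
  module

/-- The end for a centre in two anisotropic blocks. -/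
theorem Env.finish_minus (hm : ∀ l, PlaneMinus Q (D l)) (hq : Fintype.card F ≠ 3) (ht : 4 ≤ t) {y₁ y₂ : ι → F} {m r : Fin t} (hmr : m ≠ r)
    (hy₁ : y₁ ∈ D m) (hy₂ : y₂ ∈ D r) (h10 : y₁ ≠ 0) (h20 : y₂ ≠ 0) (hQy : Q y₂ = -Q y₁)
    (hall : ∀ j, j ≠ m → j ≠ r → ∀ w ∈ D j, R hQ M (y₁ + y₂) w) : omegaGL ⇑Q ≤ M := by
  classical
  have hp := (Env.dc E).hp m
  have hf := Env.hfin E m
  have hty : PlaneTy Q (D m) := Or.inl ⟨hm m, hq⟩
  have hQ1 := hm m y₁ hy₁ h10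
  have hQ2 := hm r y₂ hy₂ h20
  have hy12 : polar Q y₁ y₂ = 0 := polar_orth (Env.dc E) hmr hy₁ hy₂
  have hQy0 : Q (y₁ + y₂) = 0 := by
    rw [Q_ad, hQy, hy12]
    ring
  obtain ⟨z₁, hz₁, z₂, hz₂, hn1, hn2, hp12, hQz⟩ := sim_data hQ hp hf (hm m) ((Env.dc E).hp r) (Env.hfin E r) (hm r) hy₁ hy₂ h10 h20 hQy
  have hstep := Env.minus_step E hm hq ht hmr hy₁ hy₂ h10 h20 hQy hall hz₁ hz₂ hn1 hp12 hQz
  obtain ⟨w, hw, hw0, hwy⟩ := perp_ex hQ hp hf h10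
  have hQw := hm m w hw hw0
  have hyw : polar Q y₁ w = 0 := by rw [polar_comm]; exact hwy
  -- the second datum
  have hz' : refl Q w z₁ = z₁ - ((Q w)⁻¹ * polar Q z₁ w) • w := r_eq w z₁
  have hz'm : refl Q w z₁ ∈ D m := by
    rw [hz']
    exact (D m).sub_mem hz₁ ((D m).smul_mem _ hw)
  have hn1' : ∀ s : F, refl Q w z₁ ≠ s • y₁ := by
    intro s h
    apply hn1 s
    have h3 := congrArg (refl Q w) h
    rw [refl_refl, r_perp (by rw [polar_sm_l, hyw]; ring)] at h3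
    exact h3
  have hstep' := Env.minus_step E hm hq ht hmr hy₁ hy₂ h10 h20 hQy hall hz'm hz₂ hn1' (by
    rw [hp12, hz', polar_sub_right, polar_sm_r, hyw]
    ring) (by rw [hQz, r_iso])
  have hκ : (Q w)⁻¹ * polar Q z₁ w ≠ 0 := by
    refine mul_ne_zero (inv_ne_zero hQw) ?_
    intro h0
    obtain ⟨c, hc, hc'⟩ := hp.nondeg hQ hw hw0
    obtain ⟨α, β, rfl⟩ := plane_span (by omega) hy₁ hz₁ h10 hn1 hc
    apply hc'
    rw [polar_add_right, polar_sm_r, polar_sm_r, hwy, polar_comm, h0]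
    ring
  obtain ⟨κ, hκ'⟩ : ∃ κ, κ = (Q w)⁻¹ * polar Q z₁ w := ⟨_, rfl⟩
  rw [← hκ'] at hκ hz'
  have hw' : ∀ μ : F, R hQ M (y₁ + y₂) (μ • w) := by
    intro μ
    have h3 := R_sub (hstep (μ / κ)) (hstep' (μ / κ))
    convert h3 using 1
    rw [hz']
    have e : μ = μ / κ * κ := by field_simp
    conv_lhs => rw [e]
    module
  have hTy : T hQ M (y₁ + y₂) := by
    refine ⟨hQy0, fun v hv => ?_⟩
    have hsplit : v = (v - πₑ m v - πₑ r v) + (πₑ m v + πₑ r v) := by abel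
    rw [hsplit]
    refine R_add (Env.R_of_comps E hQy0 (fun l => ?_)) ?_
    · rw [pr_sub, pr_sub]
      by_cases hlm : l = m
      · subst hlm
        rw [pr_of_mem (Env.dc E) (pr_mem _ _ _), pr_other (Env.dc E) (Ne.symm hmr) (pr_mem _ _ _), sub_self, sub_zero]
        exact R_zero hQy0
      by_cases hlr : l = r
      · subst hlr
        rw [pr_of_mem (Env.dc E) (pr_mem _ _ _), pr_other (Env.dc E) hmr (pr_mem _ _ _), sub_zero, sub_self]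
        exact R_zero hQy0
      rw [pr_other (Env.dc E) (Ne.symm hlm) (pr_mem _ _ _), pr_other (Env.dc E) (Ne.symm hlr) (pr_mem _ _ _), sub_zero, sub_zero]
      exact hall l hlm hlr _ (pr_mem _ _ _)
    · have hz₂0 : y₂ ≠ 0 := h20
      obtain ⟨α', β', hαβ'⟩ := plane_span (by rw [Env.hfin E]) hy₂ hz₂ h20 hn2 (pr_mem (Env.dc E) r v)
      have hv1 : polar Q (πₑ m v) y₁ + polar Q (πₑ r v) y₂ = 0 := by
        rw [← polar_pr (Env.dc E) v hy₁, ← polar_pr (Env.dc E) v hy₂, polar_comm Q v y₁, polar_comm Q v y₂, ← polar_add_left]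
        exact hv
      have hv0m : πₑ m v - α' • y₁ - β' • z₁ ∈ D m :=
        (D m).sub_mem ((D m).sub_mem (pr_mem _ _ _) ((D m).smul_mem _ hy₁)) ((D m).smul_mem _ hz₁)
      have hv0 : polar Q (πₑ m v - α' • y₁ - β' • z₁) y₁ = 0 := by
        rw [hαβ', polar_add_left, polar_sm_l, polar_sm_l, pol2, polar_comm Q z₂ y₂, hp12, hQy] at hv1
        rw [polar_sub_left, polar_sub_left, polar_sm_l, polar_sm_l, pol2, polar_comm Q z₁ y₁]
        linear_combination hv1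
      obtain ⟨C', hC'⟩ := perp_mul hQ hp hf hy₁ hw hv0m h10 hw0 hwy hv0
      have e : πₑ m v + πₑ r v = C' • w + α' • (y₁ + y₂) + (1 : F) • (β' • (z₁ + z₂)) := by
        have h5 : πₑ m v = C' • w + α' • y₁ + β' • z₁ := by
          rw [← hC']
          abel
        rw [h5, hαβ']
        module
      rw [e]
      have h6 := hstep β'
      have h7 := hw' C'
      have h8 := R_self (hQ := hQ) (M := M) hQy0 α'
      rw [one_smul]
      exact R_add (R_add h7 h8) h6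
  obtain ⟨b, hb, hQb, hba, hab⟩ := exists_nonpar hQ hp hf hty hy₁ hQ1
  obtain ⟨s₁, hs₁, hs₁'⟩ := Env.refl2_H E hy₁ hb hQb.symm hQ1
  have hTs := T_conj (Env.iso E (E.hHM hs₁)) (E.hHM hs₁) hTy
  refine omega_le_of_opp E.h11 hTy hTs ?_
  have hr1 := refl2_self hQb hQ1
  obtain ⟨κ, hκ⟩ : ∃ κ, κ = (Q y₁)⁻¹ * polar Q y₁ b := ⟨_, rfl⟩
  rw [← hκ] at hr1
  have hκ0 : κ ≠ 0 := by
    rw [hκ]
    exact mul_ne_zero (inv_ne_zero hQ1) hab
  obtain ⟨ρ, hρ⟩ : ∃ ρ, ρ = s₁ ⋆ y₁ := ⟨_, rfl⟩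
  have hρm : ρ ∈ D m := by
    rw [hρ, hs₁', hr1]
    exact (D m).sub_mem ((D m).smul_mem _ hy₁) ((D m).smul_mem _ hb)
  have hρne : ρ ≠ y₁ := by
    intro h
    rw [hρ, hs₁', hr1] at h
    apply hba (κ⁻¹ * (κ ^ 2 - 2))
    have h5 : κ • b = (κ ^ 2 - 2) • y₁ := by
      have h7 : κ • b = (κ ^ 2 - 1) • y₁ - y₁ := by
        linear_combination (norm := module) (-1 : F) • h
      rw [h7]
      module
    rw [mul_smul, ← h5, smul_smul, inv_mul_cancel₀ hκ0, one_smul]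
  have hQρ : Q ρ = Q y₁ := by
    rw [hρ, Env.iso E (E.hHM hs₁)]
  have hs1y2 : s₁ ⋆ y₂ = y₂ := by
    rw [hs₁', r_perp (polar_orth (Env.dc E) (Ne.symm hmr) hy₂ hb), r_perp (polar_orth (Env.dc E) (Ne.symm hmr) hy₂ hy₁)]
  have hval : polar Q (s₁ ⋆ (y₁ + y₂)) (y₁ + y₂) = -Q (ρ - y₁) := by
    rw [Matrix.mulVec_add, ← hρ, hs1y2, polar_add_left, polar_add_right, polar_add_right, polar_orth (Env.dc E) hmr hρm hy₂,
      polar_orth (Env.dc E) (Ne.symm hmr) hy₂ hy₁, pol2, hQy, sub_eq_add_neg, Q_ad, QuadraticMap.map_neg, polar_neg_right, hQρ]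
    ring
  rw [hval]
  refine neg_ne_zero.2 (hm m _ ((D m).sub_mem hρm hy₁) (sub_ne_zero.2 hρne))

/-- The general end. -/
theorem Env.finish2 (hT : Ty2 Q D) (ht : 5 ≤ t) {X Y : ι → F} {m r : Fin t} (hmr : m ≠ r) (hXm : πₑ m X = 0) (hXr : πₑ r X = 0) (hYm : πₑ m Y ≠ 0)
    (hR : R hQ M X Y) (hX0 : X ≠ 0) : omegaGL ⇑Q ≤ M := by
  classical
  obtain ⟨i, hi⟩ := exists_pr_ne (Env.dc E) hX0
  have him : i ≠ m := by
    rintro rfl
    exact hi hXm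
  have hir : i ≠ r := by
    rintro rfl
    exact hi hXr
  rcases hT with ⟨hm, hq⟩ | ⟨hP, h7⟩
  · have hT' : Ty2 Q D := Or.inl ⟨hm, hq⟩
    obtain ⟨y₁, hy₁, hQ₁⟩ := Env.value E m (one_ne_zero (α := F))
    obtain ⟨y₂, hy₂, hQ₂⟩ := Env.value E r (neg_ne_zero.2 (one_ne_zero (α := F)))
    have h10 : y₁ ≠ 0 := by
      rintro rfl
      rw [map_zero] at hQ₁
      exact zero_ne_one hQ₁
    have h20 : y₂ ≠ 0 := by
      rintro rfl
      rw [map_zero] at hQ₂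
      exact neg_ne_zero.2 (one_ne_zero (α := F)) hQ₂.symm
    have hQy : Q y₂ = -Q y₁ := by rw [hQ₁, hQ₂]
    have hy12 : polar Q y₁ y₂ = 0 := polar_orth (Env.dc E) hmr hy₁ hy₂
    have hQy0 : Q (y₁ + y₂) = 0 := by
      rw [Q_ad, hQy, hy12]
      ring
    have h1 : R hQ M X (y₁ + y₂) :=
      R_add (Env.A_lemma E hT' hmr hXm hXr hYm hR hy₁) (Env.A_spread E hT' hmr hXm hXr hYm hR hXr hy₂)
    have h2 := R_swap' h1 hQy0
    obtain ⟨r', hr'⟩ := exists_fin_notin ({m, r, i} : Finset (Fin t)) (lt_of_le_of_lt Finset.card_le_three (by omega))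
    simp only [Finset.mem_insert, Finset.mem_singleton, not_or] at hr'
    have hyz : ∀ j, j ≠ m → j ≠ r → πₑ j (y₁ + y₂) = 0 := by
      intro j hj hj'
      rw [pr_add, pr_other (Env.dc E) (Ne.symm hj) hy₁, pr_other (Env.dc E) (Ne.symm hj') hy₂, add_zero]
    exact Env.finish_minus E hm hq (by omega) hmr hy₁ hy₂ h10 h20 hQy (fun j hj hj' w hw =>
      Env.A_spread E hT' (Ne.symm hr'.2.2) (hyz i him hir) (hyz r' hr'.1 hr'.2.1) hi h2 (hyz j hj hj') hw)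
  · have hT' : Ty2 Q D := Or.inr ⟨hP, h7⟩
    obtain ⟨e, he, f, hf, hQe, hQf, hef⟩ := hP m
    have he0 : e ≠ 0 := by
      rintro rfl
      rw [polar_zero_left] at hef
      exact zero_ne_one hef
    have h1 := R_swap' (Env.A_lemma E hT' hmr hXm hXr hYm hR he) hQe
    exact Env.finish_pure E hT' (by omega) he he0 hQe h1 him hi

end Env

end Cfsg.Agent.Lib.H97WH
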