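import Mathlib
import Cfsg.Agent.Lib.H97WH

/-!
# Decompositions into planes: reflections in vectors not lying in a block
-/

set_option autoImplicit false
set_option linter.unusedSectionVars false
set_option linter.unusedVariables false

namespace Cfsg.Agent.Lib.H97WI

open Matrix QuadraticMap Cfsg Cfsg.Geo Module
open Cfsg.Agent.Lib.OrthoBasic Cfsg.Agent.Lib.OrthoSiegel Cfsg.Agent.Lib.OmCalc Cfsg.Agent.Lib.TvGL
  Cfsg.Agent.Lib.OmPerp Cfsg.Agent.Lib.OmNd Cfsg.Agent.Lib.OmK Cfsg.Agent.Lib.OmPair Cfsg.Agent.Lib.OmBlk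
  Cfsg.Agent.Lib.H97WA Cfsg.Agent.Lib.H97WB Cfsg.Agent.Lib.H97WC Cfsg.Agent.Lib.H97WD Cfsg.Agent.Lib.H97WF
  Cfsg.Agent.Lib.H97WG Cfsg.Agent.Lib.H97WH
open Cfsg.Agent.Lib.OrthGroup Cfsg.Agent.Lib.OrthOmega
open Cfsg.Agent.Lib.SympT (GL_ext mulVec_mul_GL mulVec_inv_GL inv_mulVec_GL linOf linOf_apply)
open Cfsg.Agent.Lib.QuadFF (polar_sm_r polar_sm_l Q_ad Q_sm IsHyp ND restr polar_restr exists_singular)

local notation:70 g:71 " ⋆ " x:70 => Matrix.mulVec (Units.val g) x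

variable {ι : Type} [Fintype ι] [DecidableEq ι] {F : Type*} [Field F] [Fintype F]
  {Q : QuadraticForm F (ι → F)} {P P' : Submodule F (ι → F)} {hQ : Nondeg Q} {M : Subgroup (GL ι F)}

theorem peel {x v : ι → F} {κ : F} (hQx : Q x ≠ 0) (h : polar Q v x = κ * Q x) : refl Q x v = v - κ • x := by
  rw [r_eq, h]
  have e : (Q x)⁻¹ * (κ * Q x) = κ := by field_simp
  rw [e]

theorem refl_smul' {c : F} (hc : c ≠ 0) (v x : ι → F) : refl Q (c • v) x = refl Q v x := by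
  rw [r_eq, r_eq, Q_sm, polar_sm_r, smul_smul, mul_inv]
  have e : (c ^ 2)⁻¹ * (Q v)⁻¹ * (c * polar Q x v) * c = (Q v)⁻¹ * polar Q x v := by
    field_simp
  rw [e]

/-- Two elements in the same square class. -/
theorem same_class (h2 : (2 : F) ≠ 0) {a b : F} (ha : a ≠ 0) (hb : b ≠ 0) (h : IsSquare a ↔ IsSquare b) : ∃ ρ : F, ρ ≠ 0 ∧ b = ρ ^ 2 * a := by
  by_cases hs : IsSquare a
  · obtain ⟨r, hr⟩ := hs
    obtain ⟨s, hs'⟩ := h.1 ⟨r, hr⟩
    have hr0 : r ≠ 0 := by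
      rintro rfl
      exact ha (by rw [hr, mul_zero])
    have hs0 : s ≠ 0 := by
      rintro rfl
      exact hb (by rw [hs', mul_zero])
    refine ⟨s / r, div_ne_zero hs0 hr0, ?_⟩
    rw [hs', hr]
    field_simp
  · obtain ⟨r, hr⟩ := nonsq_mul h2 ha hb hs (fun h' => hs (h.2 h'))
    have hr0 : r ≠ 0 := by
      rintro rfl
      exact mul_ne_zero ha hb (by rw [hr, mul_zero])
    refine ⟨r / a, div_ne_zero hr0 ha, ?_⟩
    field_simp
    linear_combination hr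

section Env

variable {t : ℕ} {D : Fin t → Submodule F (ι → F)} (E : Env hQ 2 D M)
include E

local notation "πₑ" => pr (Env.dc E)

theorem Env.cl_H {u b : ι → F} {j : Fin t} (hb : b ∈ D j) (hCl : Cl Q M u b) {h : GL ι F}
    (hh : h ∈ decompositionStabilizer D ⊓ omegaGL ⇑Q) : Cl Q M u (h ⋆ u) := by
  have hM := E.hHM hh
  have hiso := Env.iso E hM
  obtain ⟨σ, hσ⟩ := hh.1
  have hbm : h ⋆ b ∈ D (σ j) := by
    rw [← hσ j]
    exact ⟨b, hb, rfl⟩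
  have h1 := Cl.conj hiso hM hCl
  have hQb : Q (h ⋆ b) ≠ 0 := by
    rw [hiso, ← hCl.1]
    exact hCl.2.1
  have h2 : Cl Q M (h ⋆ b) b := Env.cl_block E hbm hb (hiso b) hQb
  exact hCl.trans (h2.symm.trans h1.symm)

theorem Env.from_h {u b : ι → F} {j : Fin t} (hb : b ∈ D j) (hCl : Cl Q M u b) {h : GL ι F}
    (hh : h ∈ decompositionStabilizer D ⊓ omegaGL ⇑Q) {z : ι → F} (hhu : h ⋆ u = u - z) (hQz : Q z = 0) :
    R hQ M z (-(Q u)⁻¹ • u) := by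
  have h1 := Env.cl_H E hb hCl hh
  rw [hhu] at h1
  refine siegel_of_Cl h1 hQz ?_
  have h2 : Q (u - z) = Q u := h1.1.symm
  rw [sub_eq_add_neg, Q_ad, QuadraticMap.map_neg, polar_neg_right, hQz] at h2
  linear_combination -h2

theorem Env.use_z (hT : Ty2 Q D) (ht : 5 ≤ t) {u b : ι → F} {j : Fin t} (hb : b ∈ D j) (hCl : Cl Q M u b) {h : GL ι F}
    (hh : h ∈ decompositionStabilizer D ⊓ omegaGL ⇑Q) {z : ι → F} (hhu : h ⋆ u = u - z) (hQz : Q z = 0) (hz0 : z ≠ 0)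
    {m r : Fin t} (hmr : m ≠ r) (hzm : πₑ m z = 0) (hzr : πₑ r z = 0) (hum : πₑ m u ≠ 0) : omegaGL ⇑Q ≤ M := by
  have h1 := Env.from_h E hb hCl hh hhu hQz
  refine Env.finish2 E hT ht hmr hzm hzr ?_ h1 hz0
  rw [pr_smul]
  exact smul_ne_zero (neg_ne_zero.2 (inv_ne_zero hCl.2.1)) hum

/-- A singular component. -/
theorem Env.sing_comp (hT : Ty2 Q D) (ht : 3 ≤ t) {u b : ι → F} {j : Fin t} (hb : b ∈ D j) (hCl : Cl Q M u b) {l l' : Fin t}
    (hll' : l' ≠ l) (hu : πₑ l u ≠ 0) (hQu : Q (πₑ l u) = 0) (hu' : πₑ l' u ≠ 0) : omegaGL ⇑Q ≤ M := by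
  rcases hT with ⟨hm, hq⟩ | ⟨hP, h7⟩
  · exact absurd hQu (hm l _ (pr_mem _ _ _) hu)
  · have hT' : Ty2 Q D := Or.inr ⟨hP, h7⟩
    obtain ⟨μ, hμ0, hμ1⟩ := Cfsg.Agent.Lib.OmBlk2.exists_mu (F := F) (by omega)
    obtain ⟨f, hf, hQf, hef⟩ := exists_partner hQ ((Env.dc E).hp l) (pr_mem (Env.dc E) l u) hu hQu
    obtain ⟨τ, hτ, hτ'⟩ := Env.rot E (pr_mem (Env.dc E) l u) hf hQu hQf hef hμ0
    have e1 : polar Q u f = 1 := by
      rw [polar_pr (Env.dc E) u hf]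
      exact hef
    have e2 : polar Q u (πₑ l u) = 0 := by
      rw [polar_pr (Env.dc E) u (pr_mem (Env.dc E) l u)]
      exact polar_self_zero hQu
    have hτu : τ ⋆ u = u - (1 - μ ^ 2) • πₑ l u := by
      rw [hτ', e1, e2]
      module
    have hμ2 : 1 - μ ^ 2 ≠ 0 := sub_ne_zero.2 (Ne.symm hμ1)
    have hQz : Q ((1 - μ ^ 2) • πₑ l u) = 0 := by rw [Q_sm, hQu, mul_zero]
    refine Env.finish_pure E hT' ht ((D l).smul_mem _ (pr_mem (Env.dc E) l u)) (smul_ne_zero hμ2 hu) hQz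
      (Env.from_h E hb hCl hτ hτu hQz) hll' ?_
    rw [pr_smul]
    exact smul_ne_zero (neg_ne_zero.2 (inv_ne_zero hCl.2.1)) hu'

/-- The equations of the two blocks. -/
theorem Env.solve (hT : Ty2 Q D) {l₁ l₂ : Fin t} {u₁ u₂ : ι → F} (hu₁ : u₁ ∈ D l₁) (hu₂ : u₂ ∈ D l₂) (hQ₁ : Q u₁ ≠ 0) (hQ₂ : Q u₂ ≠ 0)
    {c₁ c₂ : F} (hc₁ : c₁ ≠ 0) (hc₂ : c₂ ≠ 0) :
    ∃ x ∈ D l₁, ∃ x' ∈ D l₂, Q x ≠ 0 ∧ Q x' ≠ 0 ∧ Q x = polar Q u₁ x ∧ Q x' = polar Q u₂ x' ∧ c₁ * Q x + c₂ * Q x' = 0 := by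
  have hu₁0 : u₁ ≠ 0 := by
    rintro rfl
    exact hQ₁ (map_zero _)
  have hu₂0 : u₂ ≠ 0 := by
    rintro rfl
    exact hQ₂ (map_zero _)
  rcases hT with ⟨hm, hq⟩ | ⟨hP, h7⟩
  · exact solver_minus hQ ((Env.dc E).hp l₁) (Env.hfin E l₁) (hm l₁) ((Env.dc E).hp l₂) (Env.hfin E l₂) (hm l₂) hu₁ hu₂ hu₁0 hu₂0 hc₁ hc₂
  · obtain ⟨e, he, f, hf, h1, h2, h3⟩ := hP l₁
    obtain ⟨e', he', f', hf', h1', h2', h3'⟩ := hP l₂
    exact solver_plus hQ (Env.hfin E l₁) (Env.hfin E l₂) h7 he hf h1 h2 h3 he' hf' h1' h2' h3' hu₁ hu₂ hQ₁ hQ₂ hc₁ hc₂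

/-- Products of four reflections. -/
theorem Env.use4 (hT : Ty2 Q D) (ht : 5 ≤ t) {u b : ι → F} {j : Fin t} (hb : b ∈ D j) (hCl : Cl Q M u b)
    {a₁ a₂ a₃ a₄ m r : Fin t} (h12 : a₁ ≠ a₂) (h13 : a₁ ≠ a₃) (h14 : a₁ ≠ a₄) (h23 : a₂ ≠ a₃) (h34 : a₃ ≠ a₄)
    (hm1 : m ≠ a₁) (hm2 : m ≠ a₂) (hm3 : m ≠ a₃) (hm4 : m ≠ a₄) (hr1 : r ≠ a₁) (hr2 : r ≠ a₂) (hr3 : r ≠ a₃) (hr4 : r ≠ a₄)
    (hmr : m ≠ r) (hum : πₑ m u ≠ 0) {x y x' y' : ι → F} {κ κ' : F} (hx : x ∈ D a₁) (hy : y ∈ D a₂) (hx' : x' ∈ D a₃) (hy' : y' ∈ D a₄)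
    (hQx : Q x ≠ 0) (hQx' : Q x' ≠ 0) (hQy : Q y = Q x) (hQy' : Q y' = Q x') (e1 : polar Q u x = Q x) (e2 : polar Q u x' = Q x')
    (e3 : polar Q u y = κ * Q x) (e4 : polar Q u y' = κ' * Q x') (h0 : κ' * polar Q y' y = 0)
    (hsum : (1 + κ ^ 2) * Q x + (1 + κ' ^ 2) * Q x' = 0) : omegaGL ⇑Q ≤ M := by
  obtain ⟨s₁, hs₁, hs₁'⟩ := Env.refl2_H E hx hy hQy.symm hQx
  obtain ⟨s₂, hs₂, hs₂'⟩ := Env.refl2_H E hx' hy' hQy'.symm hQx'
  have hh := (decompositionStabilizer D ⊓ omegaGL ⇑Q).mul_mem hs₁ hs₂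
  have p1 : polar Q y' x' = 0 := polar_orth (Env.dc E) (Ne.symm h34) hy' hx'
  have p2 : polar Q x' y = 0 := polar_orth (Env.dc E) (Ne.symm h23) hx' hy
  have p3 : polar Q y' x = 0 := polar_orth (Env.dc E) (Ne.symm h14) hy' hx
  have p4 : polar Q x' x = 0 := polar_orth (Env.dc E) (Ne.symm h13) hx' hx
  have p5 : polar Q y x = 0 := polar_orth (Env.dc E) (Ne.symm h12) hy hx
  have step1 : refl Q y' u = u - κ' • y' := peel (by rw [hQy']; exact hQx') (by rw [e4, hQy'])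
  have step2 : refl Q x' (u - κ' • y') = u - κ' • y' - x' := by
    have := peel (x := x') (v := u - κ' • y') (κ := 1) hQx' (by
      rw [polar_sub_left, polar_sm_l, e2, p1]
      ring)
    rwa [one_smul] at this
  have step3 : refl Q y (u - κ' • y' - x') = u - κ' • y' - x' - κ • y := peel (by rw [hQy]; exact hQx) (by
    rw [polar_sub_left, polar_sub_left, polar_sm_l, e3, h0, p2, hQy]
    ring)
  have step4 : refl Q x (u - κ' • y' - x' - κ • y) = u - κ' • y' - x' - κ • y - x := by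
    have := peel (x := x) (v := u - κ' • y' - x' - κ • y) (κ := 1) hQx (by
      rw [polar_sub_left, polar_sub_left, polar_sub_left, polar_sm_l, polar_sm_l, e1, p3, p4, p5]
      ring)
    rwa [one_smul] at this
  obtain ⟨z, hz⟩ : ∃ z, z = x + κ • y + x' + κ' • y' := ⟨_, rfl⟩
  have hhu : (s₁ * s₂) ⋆ u = u - z := by
    rw [mulVec_mul_GL, hs₂', step1, step2, hs₁', step3, step4, hz]
    abel
  have hQz : Q z = 0 := by
    have p6 : polar Q x y = 0 := by rw [polar_comm]; exact p5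
    have p7 : polar Q x x' = 0 := by rw [polar_comm]; exact p4
    have p8 : polar Q x y' = 0 := by rw [polar_comm]; exact p3
    have p9 : polar Q y x' = 0 := by rw [polar_comm]; exact p2
    have p10 : polar Q x' y' = 0 := by rw [polar_comm]; exact p1
    have p11 : κ' * polar Q y y' = 0 := by rw [polar_comm]; exact h0
    rw [hz, Q_ad, Q_ad, Q_ad, Q_sm, Q_sm, hQy, hQy']
    simp only [polar_add_left, polar_sm_l, polar_sm_r, p6, p7, p8, p9, p10]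
    linear_combination hsum + κ * p11
  have hprz : ∀ l, l ≠ a₂ → l ≠ a₃ → l ≠ a₄ → πₑ l z = πₑ l x := by
    intro l h1 h2 h3
    rw [hz, pr_add, pr_add, pr_add, pr_smul, pr_smul, pr_other (Env.dc E) (Ne.symm h1) hy, pr_other (Env.dc E) (Ne.symm h2) hx',
      pr_other (Env.dc E) (Ne.symm h3) hy']
    simp
  have hz0 : z ≠ 0 := by
    intro h
    have := hprz a₁ h12 h13 h14
    rw [h, pr_zero, pr_of_mem (Env.dc E) hx] at this
    rw [← this, map_zero] at hQx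
    exact hQx rfl
  refine Env.use_z E hT ht hb hCl hh hhu hQz hz0 hmr ?_ ?_ hum
  · rw [hprz m hm2 hm3 hm4, pr_other (Env.dc E) (Ne.symm hm1) hx]
  · rw [hprz r hr2 hr3 hr4, pr_other (Env.dc E) (Ne.symm hr1) hx]

/-- Products of two reflections, if `-1` is a square. -/
theorem Env.use2 (hT : Ty2 Q D) (ht : 5 ≤ t) {u b : ι → F} {j : Fin t} (hb : b ∈ D j) (hCl : Cl Q M u b)
    {a₁ a₃ m r : Fin t} (h13 : a₁ ≠ a₃) (hm1 : m ≠ a₁) (hm3 : m ≠ a₃) (hr1 : r ≠ a₁) (hr3 : r ≠ a₃)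
    (hmr : m ≠ r) (hum : πₑ m u ≠ 0) {x x' : ι → F} (hx : x ∈ D a₁) (hx' : x' ∈ D a₃)
    (hQx : Q x ≠ 0) (hQx' : Q x' ≠ 0) (e1 : polar Q u x = Q x) (e2 : polar Q u x' = Q x')
    (hsum : Q x + Q x' = 0) {ν : F} (hν : ν * ν = -1) : omegaGL ⇑Q ≤ M := by
  have hν0 : ν ≠ 0 := by
    rintro rfl
    rw [mul_zero] at hν
    exact neg_ne_zero.2 (one_ne_zero (α := F)) hν.symm
  have hy : ν⁻¹ • x' ∈ D a₃ := (D a₃).smul_mem _ hx'
  have hQy : Q x = Q (ν⁻¹ • x') := by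
    rw [Q_sm, inv_pow, _root_.sq, hν]
    have : (-1 : F)⁻¹ = -1 := by norm_num
    rw [this]
    linear_combination hsum
  obtain ⟨s, hs, hs'⟩ := Env.refl2_H E hx hy hQy hQx
  have p4 : polar Q x' x = 0 := polar_orth (Env.dc E) (Ne.symm h13) hx' hx
  have step2 : refl Q x' u = u - x' := by
    have := peel (x := x') (v := u) (κ := 1) hQx' (by rw [e2]; ring)
    rwa [one_smul] at this
  have step3 : refl Q x (u - x') = u - x' - x := by
    have := peel (x := x) (v := u - x') (κ := 1) hQx (by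
      rw [polar_sub_left, e1, p4]
      ring)
    rwa [one_smul] at this
  have hhu : s ⋆ u = u - (x + x') := by
    rw [hs', refl_smul' (inv_ne_zero hν0), step2, step3]
    abel
  have hQz : Q (x + x') = 0 := by
    rw [Q_ad, polar_comm, p4, add_zero]
    exact hsum
  have hz0 : x + x' ≠ 0 := by
    intro h
    have h3 := congrArg (πₑ a₁) h
    rw [pr_add, pr_zero, pr_other (Env.dc E) (Ne.symm h13) hx', add_zero, pr_of_mem (Env.dc E) hx] at h3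
    rw [h3, map_zero] at hQx
    exact hQx rfl
  refine Env.use_z E hT ht hb hCl hs hhu hQz hz0 hmr ?_ ?_ hum
  · rw [pr_add, pr_other (Env.dc E) (Ne.symm hm1) hx, pr_other (Env.dc E) (Ne.symm hm3) hx', add_zero]
  · rw [pr_add, pr_other (Env.dc E) (Ne.symm hr1) hx, pr_other (Env.dc E) (Ne.symm hr3) hx', add_zero]

/-- Three components, none of them singular and non-zero. -/
theorem Env.ge3 (hT : Ty2 Q D) (ht : 7 ≤ t) {u b : ι → F} {j : Fin t} (hb : b ∈ D j) (hCl : Cl Q M u b) {l₁ l₂ l₃ : Fin t}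
    (h12 : l₁ ≠ l₂) (h13 : l₁ ≠ l₃) (h23 : l₂ ≠ l₃) (hu₁ : πₑ l₁ u ≠ 0) (hu₂ : πₑ l₂ u ≠ 0) (hu₃ : πₑ l₃ u ≠ 0) : omegaGL ⇑Q ≤ M := by
  classical
  by_cases hsing : ∃ l, πₑ l u ≠ 0 ∧ Q (πₑ l u) = 0
  · obtain ⟨l, h1, h2⟩ := hsing
    by_cases hl : l = l₁
    · subst hl
      exact Env.sing_comp E hT (by omega) hb hCl (Ne.symm h12) h1 h2 hu₂
    · exact Env.sing_comp E hT (by omega) hb hCl (Ne.symm hl) h1 h2 hu₁
  push Not at hsing
  have hp₁ : ∀ {l : Fin t} {x : ι → F}, x ∈ D l → polar Q u x = polar Q (πₑ l u) x := fun {l x} hx => polar_pr (Env.dc E) u hx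
  by_cases hν : ∃ ν : F, ν * ν = -1
  · obtain ⟨ν, hν⟩ := hν
    obtain ⟨x, hx, x', hx', h1, h2, h3, h4, h5⟩ := Env.solve E hT (pr_mem (Env.dc E) l₁ u) (pr_mem (Env.dc E) l₂ u) (hsing l₁ hu₁) (hsing l₂ hu₂)
      (one_ne_zero (α := F)) (one_ne_zero (α := F))
    obtain ⟨r, hr⟩ := exists_fin_notin ({l₁, l₂, l₃} : Finset (Fin t)) (lt_of_le_of_lt Finset.card_le_three (by omega))
    simp only [Finset.mem_insert, Finset.mem_singleton, not_or] at hr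
    refine Env.use2 E hT (by omega) hb hCl h12 (Ne.symm h13) (Ne.symm h23) hr.1 hr.2.1 (Ne.symm hr.2.2) hu₃ hx hx' h1 h2 ?_ ?_ (by linear_combination h5) hν
    · rw [hp₁ hx]
      exact h3.symm
    · rw [hp₁ hx']
      exact h4.symm
  have h2 : (2 : F) ≠ 0 := by
    intro h
    exact hν ⟨1, by linear_combination h⟩
  by_cases hfree : ∃ r, πₑ r u = 0
  · obtain ⟨a, ha⟩ := hfree
    have ha1 : a ≠ l₁ := by
      rintro rfl
      exact hu₁ ha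
    have ha2 : a ≠ l₂ := by
      rintro rfl
      exact hu₂ ha
    have ha3 : a ≠ l₃ := by
      rintro rfl
      exact hu₃ ha
    obtain ⟨x, hx, x', hx', h1, h3, h4, h5, h6⟩ := Env.solve E hT (pr_mem (Env.dc E) l₁ u) (pr_mem (Env.dc E) l₂ u) (hsing l₁ hu₁) (hsing l₂ hu₂)
      (one_ne_zero (α := F)) (one_ne_zero (α := F))
    obtain ⟨y, hy, hQy⟩ := Env.value E a h1
    obtain ⟨y', hy', hQy'⟩ := Env.value E a h3
    obtain ⟨r, hr⟩ := exists_fin_notin ({l₁, l₂, l₃, a} : Finset (Fin t)) (lt_of_le_of_lt (Finset.card_le_four) (by omega))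
    simp only [Finset.mem_insert, Finset.mem_singleton, not_or] at hr
    refine Env.use4 E hT (by omega) hb hCl (κ := 0) (κ' := 0) (a₁ := l₁) (a₂ := a) (a₃ := l₂) (a₄ := a) (m := l₃) (r := r)
      (Ne.symm ha1) h12 (Ne.symm ha1) ha2 (Ne.symm ha2) (Ne.symm h13) (Ne.symm ha3) (Ne.symm h23) (Ne.symm ha3) hr.1 hr.2.2.2 hr.2.1 hr.2.2.2
      (Ne.symm hr.2.2.1) hu₃ hx hy hx' hy' h1 h3 hQy hQy' ?_ ?_ ?_ ?_ (by ring) (by linear_combination h6)
    · rw [hp₁ hx]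
      exact h4.symm
    · rw [hp₁ hx']
      exact h5.symm
    · rw [zero_mul]
      exact polar_of_pr (Env.dc E) ha hy
    · rw [zero_mul]
      exact polar_of_pr (Env.dc E) ha hy'
  push Not at hfree
  -- four blocks in one square class
  obtain ⟨S, hS, hcls⟩ : ∃ S : Finset (Fin t), S.card = 4 ∧ ∀ i ∈ S, ∀ i' ∈ S, (IsSquare (Q (πₑ i u)) ↔ IsSquare (Q (πₑ i' u))) := by
    by_cases h4 : 4 ≤ (Finset.univ.filter (fun l : Fin t => IsSquare (Q (πₑ l u)))).card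
    · obtain ⟨S, hS, hS'⟩ := Finset.exists_subset_card_eq h4
      refine ⟨S, hS', fun i hi i' hi' => ?_⟩
      have h5 := (Finset.mem_filter.1 (hS hi)).2
      have h6 := (Finset.mem_filter.1 (hS hi')).2
      exact ⟨fun _ => h6, fun _ => h5⟩
    · have hc := Finset.card_filter_add_card_filter_not (s := (Finset.univ : Finset (Fin t))) (fun l : Fin t => IsSquare (Q (πₑ l u)))
      rw [Finset.card_univ, Fintype.card_fin] at hc
      have h5 : 4 ≤ (Finset.univ.filter (fun l : Fin t => ¬ IsSquare (Q (πₑ l u)))).card := by omega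
      obtain ⟨S, hS, hS'⟩ := Finset.exists_subset_card_eq h5
      refine ⟨S, hS', fun i hi i' hi' => ?_⟩
      have h6 := (Finset.mem_filter.1 (hS hi)).2
      have h7 := (Finset.mem_filter.1 (hS hi')).2
      exact ⟨fun h => absurd h h6, fun h => absurd h h7⟩
  obtain ⟨e, he⟩ : ∃ e : Fin 4 → Fin t, e = S.orderEmbOfFin hS := ⟨_, rfl⟩
  have hemem : ∀ i, e i ∈ S := fun i => by
    rw [he]
    exact Finset.orderEmbOfFin_mem S hS i
  have heinj : Function.Injective e := by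
    rw [he]
    exact (S.orderEmbOfFin hS).injective
  have hne : ∀ i i' : Fin 4, i ≠ i' → e i ≠ e i' := fun i i' h h' => h (heinj h')
  obtain ⟨a₁, ha₁⟩ : ∃ a₁, a₁ = e 0 := ⟨_, rfl⟩
  obtain ⟨a₂, ha₂⟩ : ∃ a₂, a₂ = e 1 := ⟨_, rfl⟩
  obtain ⟨a₃, ha₃⟩ : ∃ a₃, a₃ = e 2 := ⟨_, rfl⟩
  obtain ⟨a₄, ha₄⟩ : ∃ a₄, a₄ = e 3 := ⟨_, rfl⟩
  have h12' : a₁ ≠ a₂ := by rw [ha₁, ha₂]; exact hne _ _ (by decide)
  have h13' : a₁ ≠ a₃ := by rw [ha₁, ha₃]; exact hne _ _ (by decide)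
  have h14' : a₁ ≠ a₄ := by rw [ha₁, ha₄]; exact hne _ _ (by decide)
  have h23' : a₂ ≠ a₃ := by rw [ha₂, ha₃]; exact hne _ _ (by decide)
  have h24' : a₂ ≠ a₄ := by rw [ha₂, ha₄]; exact hne _ _ (by decide)
  have h34' : a₃ ≠ a₄ := by rw [ha₃, ha₄]; exact hne _ _ (by decide)
  have hnon : ∀ l, Q (πₑ l u) ≠ 0 := fun l => hsing l (hfree l)
  obtain ⟨ρ, hρ0, hρ⟩ := same_class h2 (hnon a₁) (hnon a₂) (hcls _ (by rw [ha₁]; exact hemem 0) _ (by rw [ha₂]; exact hemem 1))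
  obtain ⟨ρ', hρ'0, hρ'⟩ := same_class h2 (hnon a₃) (hnon a₄) (hcls _ (by rw [ha₃]; exact hemem 2) _ (by rw [ha₄]; exact hemem 3))
  have hsq : ∀ s : F, 1 + s ^ 2 ≠ 0 := by
    intro s hs
    exact hν ⟨s, by linear_combination hs⟩
  obtain ⟨x, hx, x', hx', h1, h3, h4, h5, h6⟩ := Env.solve E hT (pr_mem (Env.dc E) a₁ u) (pr_mem (Env.dc E) a₃ u) (hnon a₁) (hnon a₃) (hsq ρ) (hsq ρ')
  -- the transferred vectors
  obtain ⟨φ, hφ⟩ := E.hD.isometric a₁ a₂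
  obtain ⟨φ', hφ'⟩ := E.hD.isometric a₃ a₄
  have hρinv : ρ⁻¹ • πₑ a₂ u ∈ D a₂ := (D a₂).smul_mem _ (pr_mem _ _ _)
  have hρinv' : ρ'⁻¹ • πₑ a₄ u ∈ D a₄ := (D a₄).smul_mem _ (pr_mem _ _ _)
  obtain ⟨y, hy, hQy, hpy⟩ := transfer hQ ((Env.dc E).hp a₂) (Env.hfin E a₂) φ hφ (pr_mem (Env.dc E) a₁ u) hρinv (by
    rw [Q_sm, hρ]
    field_simp) (hnon a₁) hx
  obtain ⟨y', hy', hQy', hpy'⟩ := transfer hQ ((Env.dc E).hp a₄) (Env.hfin E a₄) φ' hφ' (pr_mem (Env.dc E) a₃ u) hρinv' (by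
    rw [Q_sm, hρ']
    field_simp) (hnon a₃) hx'
  obtain ⟨r₁, hr₁⟩ := exists_fin_notin ({a₁, a₂, a₃, a₄} : Finset (Fin t)) (lt_of_le_of_lt (Finset.card_le_four) (by omega))
  simp only [Finset.mem_insert, Finset.mem_singleton, not_or] at hr₁
  obtain ⟨r₂, hr₂⟩ := exists_fin_notin ({a₁, a₂, a₃, a₄, r₁} : Finset (Fin t)) (lt_of_le_of_lt (Finset.card_le_five) (by omega))
  simp only [Finset.mem_insert, Finset.mem_singleton, not_or] at hr₂
  refine Env.use4 E hT (by omega) hb hCl (κ := ρ) (κ' := ρ') (a₁ := a₁) (a₂ := a₂) (a₃ := a₃) (a₄ := a₄) (m := r₁) (r := r₂)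
    h12' h13' h14' h23' h34' hr₁.1 hr₁.2.1 hr₁.2.2.1 hr₁.2.2.2 hr₂.1 hr₂.2.1 hr₂.2.2.1 hr₂.2.2.2.1 (Ne.symm hr₂.2.2.2.2) (hfree r₁)
    hx hy hx' hy' h1 h3 hQy hQy' ?_ ?_ ?_ ?_ ?_ h6
  · rw [hp₁ hx]
    exact h4.symm
  · rw [hp₁ hx']
    exact h5.symm
  · rw [hp₁ hy]
    rw [polar_sm_l, h4.symm] at hpy
    field_simp at hpy
    rw [mul_comm] at hpy
    linear_combination hpy
  · rw [hp₁ hy']
    rw [polar_sm_l, h5.symm] at hpy'
    field_simp at hpy'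
    rw [mul_comm] at hpy'
    linear_combination hpy'
  · rw [polar_orth (Env.dc E) (Ne.symm h24') hy' hy, mul_zero]

/-- Reflections in vectors not lying in a block. -/
theorem Env.case2_k2 (hT : Ty2 Q D) (ht : 7 ≤ t) {u b : ι → F} {j : Fin t} (hb : b ∈ D j) (hCl : Cl Q M u b) (hnb : ∀ l, u ∉ D l) :
    omegaGL ⇑Q ≤ M := by
  classical
  have hQu := hCl.2.1
  have hu0 : u ≠ 0 := by
    rintro rfl
    exact hQu (map_zero _)
  obtain ⟨l₁, h1⟩ := exists_pr_ne (Env.dc E) hu0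
  obtain ⟨l₂, h12, h2⟩ := exists_pr_other (Env.dc E) (hnb l₁)
  by_cases h3 : ∃ l₃, l₃ ≠ l₁ ∧ l₃ ≠ l₂ ∧ πₑ l₃ u ≠ 0
  · obtain ⟨l₃, h4, h5, h6⟩ := h3
    exact Env.ge3 E hT ht hb hCl (Ne.symm h12) (Ne.symm h4) (Ne.symm h5) h1 h2 h6
  push Not at h3
  by_cases hs1 : Q (πₑ l₁ u) = 0
  · exact Env.sing_comp E hT (by omega) hb hCl h12 h1 hs1 h2
  by_cases hs2 : Q (πₑ l₂ u) = 0
  · exact Env.sing_comp E hT (by omega) hb hCl (Ne.symm h12) h2 hs2 h1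
  obtain ⟨u₁, hu₁⟩ : ∃ u₁, u₁ = πₑ l₁ u := ⟨_, rfl⟩
  obtain ⟨u₂, hu₂⟩ : ∃ u₂, u₂ = πₑ l₂ u := ⟨_, rfl⟩
  have hu₁m : u₁ ∈ D l₁ := by
    rw [hu₁]
    exact pr_mem _ _ _
  have hu₂m : u₂ ∈ D l₂ := by
    rw [hu₂]
    exact pr_mem _ _ _
  rw [← hu₁] at h1 hs1
  rw [← hu₂] at h2 hs2
  have hsum : u = u₁ + u₂ := by
    refine eq_of_pr (Env.dc E) (fun l => ?_)
    rw [pr_add]
    by_cases hl1 : l = l₁
    · subst hl1
      rw [← hu₁, pr_of_mem (Env.dc E) hu₁m, pr_other (Env.dc E) h12 hu₂m, add_zero]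
    by_cases hl2 : l = l₂
    · subst hl2
      rw [← hu₂, pr_of_mem (Env.dc E) hu₂m, pr_other (Env.dc E) (Ne.symm h12) hu₁m, zero_add]
    rw [h3 l hl1 hl2, pr_other (Env.dc E) (Ne.symm hl1) hu₁m, pr_other (Env.dc E) (Ne.symm hl2) hu₂m, add_zero]
  have hp := (Env.dc E).hp l₁
  have hf := Env.hfin E l₁
  obtain ⟨b₁, hb₁, hQb₁, hnpar, hpol⟩ := exists_nonpar hQ hp hf (hT.ty l₁) hu₁m hs1
  have hne : u₁ ≠ b₁ := by
    intro h
    apply hnpar 1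
    rw [one_smul, h]
  obtain ⟨hQv, hrv⟩ := plane_refl hQ hp hf hu₁m hb₁ hQb₁.symm hs1 hne
  obtain ⟨l₃, hl₃⟩ := exists_fin_notin ({l₁, l₂} : Finset (Fin t)) (lt_of_le_of_lt Finset.card_le_two (by omega))
  simp only [Finset.mem_insert, Finset.mem_singleton, not_or] at hl₃
  obtain ⟨r, hr⟩ := exists_fin_notin ({l₁, l₂, l₃} : Finset (Fin t)) (lt_of_le_of_lt Finset.card_le_three (by omega))
  simp only [Finset.mem_insert, Finset.mem_singleton, not_or] at hr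
  obtain ⟨v', hv', hQv'⟩ := Env.value E r hQv
  obtain ⟨g₁, hg₁, hg₁'⟩ := Env.refl2_H E ((D l₁).sub_mem hu₁m hb₁) hv' hQv'.symm hQv
  obtain ⟨s, hs, hs1', hs2', hs3'⟩ := Env.swap E (Ne.symm hl₃.2)
  have hh := (decompositionStabilizer D ⊓ omegaGL ⇑Q).mul_mem hg₁ hs
  have hsu₁ : s ⋆ u₁ = u₁ := hs3' l₁ (Ne.symm h12) (Ne.symm hl₃.1) _ hu₁m
  have hsu₂ : s ⋆ u₂ ∈ D l₃ := hs1' _ hu₂m
  have hsu₂0 : s ⋆ u₂ ≠ 0 := GL_ne s h2
  have hhu : (g₁ * s) ⋆ u = b₁ + s ⋆ u₂ := by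
    rw [hsum, mulVec_mul_GL, Matrix.mulVec_add, hsu₁, hg₁', r_perp (v := v'), r_eq (u₁ - b₁)]
    · have e1 : polar Q (u₁ + s ⋆ u₂) (u₁ - b₁) = polar Q u₁ (u₁ - b₁) := by
        rw [polar_add_left, polar_orth (Env.dc E) hl₃.1 hsu₂ ((D l₁).sub_mem hu₁m hb₁), add_zero]
      rw [e1]
      have e2 := r_eq (Q := Q) (u₁ - b₁) u₁
      rw [hrv] at e2
      have e3 : ((Q (u₁ - b₁))⁻¹ * polar Q u₁ (u₁ - b₁)) • (u₁ - b₁) = u₁ - b₁ := by
        linear_combination (norm := module) (1 : F) • e2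
      rw [e3]
      abel
    · rw [polar_add_left, polar_orth (Env.dc E) (Ne.symm hr.1) hu₁m hv', polar_orth (Env.dc E) (Ne.symm hr.2.2) hsu₂ hv', add_zero]
  have hCl1 := Env.cl_H E hb hCl hh
  rw [hhu] at hCl1
  have hCl2 : Cl Q M (refl Q (b₁ + s ⋆ u₂) u) u := hCl1.symm.refl_image
  have hCl3 := hCl2.trans hCl
  have hQu' : Q (b₁ + s ⋆ u₂) ≠ 0 := by
    rw [← hCl1.1]
    exact hQu
  have hppol : polar Q u (b₁ + s ⋆ u₂) = polar Q u₁ b₁ := by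
    rw [hsum, polar_add_left, polar_add_right, polar_add_right, polar_orth (Env.dc E) (Ne.symm hl₃.1) hu₁m hsu₂,
      polar_orth (Env.dc E) h12 hu₂m hb₁, polar_orth (Env.dc E) (Ne.symm hl₃.2) hu₂m hsu₂]
    ring
  obtain ⟨κ, hκ⟩ : ∃ κ, κ = (Q (b₁ + s ⋆ u₂))⁻¹ * polar Q u (b₁ + s ⋆ u₂) := ⟨_, rfl⟩
  have hκ0 : κ ≠ 0 := by
    rw [hκ, hppol]
    exact mul_ne_zero (inv_ne_zero hQu') hpol
  have hw : refl Q (b₁ + s ⋆ u₂) u = u - κ • (b₁ + s ⋆ u₂) := by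
    rw [r_eq, ← hκ]
  rw [hw] at hCl3
  refine Env.ge3 E hT ht hb hCl3 (l₁ := l₁) (l₂ := l₂) (l₃ := l₃) (Ne.symm h12) (Ne.symm hl₃.1) (Ne.symm hl₃.2) ?_ ?_ ?_
  · rw [pr_sub, pr_smul, pr_add, pr_of_mem (Env.dc E) hb₁, pr_other (Env.dc E) hl₃.1 hsu₂, add_zero, ← hu₁]
    intro h
    apply hnpar κ⁻¹
    rw [sub_eq_zero.1 h, smul_smul, inv_mul_cancel₀ hκ0, one_smul]
  · rw [pr_sub, pr_smul, pr_add, pr_other (Env.dc E) (Ne.symm h12) hb₁, pr_other (Env.dc E) hl₃.2 hsu₂, add_zero, smul_zero, sub_zero, ← hu₂]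
    exact h2
  · rw [pr_sub, pr_smul, pr_add, h3 l₃ hl₃.1 hl₃.2, pr_other (Env.dc E) (Ne.symm hl₃.1) hb₁, pr_of_mem (Env.dc E) hsu₂, zero_add, zero_sub]
    exact neg_ne_zero.2 (smul_ne_zero hκ0 hsu₂0)

/-- An isometry mapping all block vectors of one norm to block vectors stabilises the decomposition. -/
theorem Env.stab_k2 (hT : Ty2 Q D) {g : GL ι F} (hiso : ∀ v, Q (g ⋆ v) = Q v) {c : F} (hc : c ≠ 0)
    (hg : ∀ l, ∀ b ∈ D l, Q b = c → ∃ l', g ⋆ b ∈ D l') : g ∈ decompositionStabilizer D := by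
  classical
  refine block_span_gen (Env.dc E) (Env.hfin E) (by omega) hiso (fun l => Env.value E l hc) ?_ ?_ hg
  · intro l b hb b' hb' hQb hQb' hbb
    have hb0 : b ≠ 0 := by
      rintro rfl
      rw [map_zero] at hQb
      exact hc hQb.symm
    have hp := (Env.dc E).hp l
    have hf := Env.hfin E l
    by_cases h2 : (2 : F) = 0
    · left
      obtain ⟨s, hs⟩ := perp_mul hQ hp hf hb hb hb' hb0 hb0 (by rw [pol2, h2, zero_mul]) (by rw [polar_comm]; exact hbb)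
      have hs2 : (s - 1) ^ 2 = 0 := by
        have e : s ^ 2 * c = c := by
          have := hQb'
          rw [hs, Q_sm, hQb] at this
          exact this
        have e2 : (s ^ 2 - 1) * c = 0 := by linear_combination e
        have e3 := (mul_eq_zero.1 e2).resolve_right hc
        linear_combination e3 + (1 - s) * h2
      have hs1 : s = 1 := sub_eq_zero.1 (pow_eq_zero_iff (two_ne_zero) |>.1 hs2)
      rw [hs, hs1, one_smul]
    · right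
      -- a parameter
      obtain ⟨s, hs0, hs1, hs2⟩ : ∃ s : F, s ≠ 0 ∧ 1 + s ^ 2 ≠ 0 ∧ s ^ 2 ≠ 1 := by
        rcases hT with ⟨hm, hq⟩ | ⟨hP, h7⟩
        · have hsub : ({0, 1, -1} : Finset F).card = 3 := by
            rw [Finset.card_insert_of_notMem, Finset.card_insert_of_notMem, Finset.card_singleton]
            · intro h
              rw [Finset.mem_singleton] at h
              exact h2 (by linear_combination h)
            · intro h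
              simp only [Finset.mem_insert, Finset.mem_singleton] at h
              rcases h with h | h
              · exact zero_ne_one h
              · exact zero_ne_one (by linear_combination (-1 : F) * h)
          have hcard := Finset.card_le_univ ({0, 1, -1} : Finset F)
          rw [hsub] at hcard
          obtain ⟨s, hs0, hs⟩ := exists_s2 (d := (1 : F)) one_ne_zero (by omega)
          rw [one_mul] at hs
          refine ⟨s, hs0, ?_, hs⟩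
          intro h5
          have hQ0 : Q (s • b + b') = 0 := by
            rw [Q_ad, Q_sm, polar_sm_l, hbb, hQb, hQb']
            linear_combination c * h5
          refine hm l _ ((D l).add_mem ((D l).smul_mem _ hb) hb') ?_ hQ0
          intro h6
          have h7 := congrArg (fun x => polar Q x b) h6
          simp only [polar_add_left, polar_sm_l, polar_zero_left, pol2, hQb] at h7
          rw [polar_comm, hbb, add_zero] at h7
          exact mul_ne_zero hs0 (mul_ne_zero h2 hc) h7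
        · obtain ⟨s, h5, h6, h8⟩ := exists_s3 (d := (1 : F)) one_ne_zero (by omega)
          rw [one_mul] at h6 h8
          exact ⟨s, h5, h6, h8⟩
      obtain ⟨μ, hμ⟩ : ∃ μ, μ = (1 - s ^ 2) / (1 + s ^ 2) := ⟨_, rfl⟩
      obtain ⟨ν, hν⟩ : ∃ ν, ν = 2 * s / (1 + s ^ 2) := ⟨_, rfl⟩
      have hμ0 : μ ≠ 0 := by
        rw [hμ]
        exact div_ne_zero (sub_ne_zero.2 (Ne.symm hs2)) hs1
      have hν0 : ν ≠ 0 := by
        rw [hν]
        exact div_ne_zero (mul_ne_zero h2 hs0) hs1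
      have hsum : μ ^ 2 + ν ^ 2 = 1 := by
        rw [hμ, hν]
        field_simp
        ring
      refine ⟨μ • b + ν • b', (D l).add_mem ((D l).smul_mem _ hb) ((D l).smul_mem _ hb'), ?_, ?_, ?_⟩
      · rw [Q_ad, Q_sm, Q_sm, polar_sm_l, polar_sm_r, hbb, hQb, hQb']
        linear_combination c * hsum
      · rw [polar_add_left, polar_sm_l, polar_sm_l, pol2, polar_comm Q b' b, hbb, hQb, mul_zero, add_zero]
        exact mul_ne_zero hμ0 (mul_ne_zero h2 hc)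
      · rw [polar_add_left, polar_sm_l, polar_sm_l, pol2, hbb, hQb', mul_zero, zero_add]
        exact mul_ne_zero hν0 (mul_ne_zero h2 hc)
  · intro l w hw hw0
    have hp := (Env.dc E).hp l
    have hf := Env.hfin E l
    obtain ⟨b₀, hb₀, hQb₀⟩ := Env.value E l hc
    have hb₀0 : b₀ ≠ 0 := by
      rintro rfl
      rw [map_zero] at hQb₀
      exact hc hQb₀.symm
    obtain ⟨b₁, hb₁, hQb₁, hnp, -⟩ := exists_nonpar hQ hp hf (hT.ty l) hb₀ (by rw [hQb₀]; exact hc)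
    by_cases h1 : polar Q b₀ w = 0
    · by_cases h3 : polar Q b₁ w = 0
      · exfalso
        obtain ⟨z, hz, hz'⟩ := hp.nondeg hQ hw hw0
        obtain ⟨α, β, rfl⟩ := plane_span (by omega) hb₀ hb₁ hb₀0 hnp hz
        apply hz'
        rw [polar_add_right, polar_sm_r, polar_sm_r, polar_comm, h1, polar_comm, h3]
        ring
      · exact ⟨b₁, hb₁, hQb₁.trans hQb₀, h3⟩
    · exact ⟨b₀, hb₀, hQb₀, h1⟩

end Env

end Cfsg.Agent.Lib.H97WI
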