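import Mathlib
import Cfsg.Agent.Lib.H97WI

/-!
# Decompositions into planes: the images of block vectors
-/

set_option autoImplicit false
set_option linter.unusedSectionVars false
set_option linter.unusedVariables false

namespace Cfsg.Agent.Lib.H97WJ

open Matrix QuadraticMap Cfsg Cfsg.Geo Module
open Cfsg.Agent.Lib.OrthoBasic Cfsg.Agent.Lib.OrthoSiegel Cfsg.Agent.Lib.OmCalc Cfsg.Agent.Lib.TvGL
  Cfsg.Agent.Lib.OmPerp Cfsg.Agent.Lib.OmNd Cfsg.Agent.Lib.OmK Cfsg.Agent.Lib.OmPair Cfsg.Agent.Lib.OmBlk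
  Cfsg.Agent.Lib.H97WA Cfsg.Agent.Lib.H97WB Cfsg.Agent.Lib.H97WC Cfsg.Agent.Lib.H97WD Cfsg.Agent.Lib.H97WF
  Cfsg.Agent.Lib.H97WG Cfsg.Agent.Lib.H97WH Cfsg.Agent.Lib.H97WI
open Cfsg.Agent.Lib.OrthGroup Cfsg.Agent.Lib.OrthOmega
open Cfsg.Agent.Lib.SympT (GL_ext mulVec_mul_GL mulVec_inv_GL inv_mulVec_GL linOf linOf_apply)
open Cfsg.Agent.Lib.QuadFF (polar_sm_r polar_sm_l Q_ad Q_sm IsHyp ND restr polar_restr exists_singular)

local notation:70 g:71 " ⋆ " x:70 => Matrix.mulVec (Units.val g) x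

variable {ι : Type} [Fintype ι] [DecidableEq ι] {F : Type*} [Field F] [Fintype F]
  {Q : QuadraticForm F (ι → F)} {P P' : Submodule F (ι → F)} {hQ : Nondeg Q} {M : Subgroup (GL ι F)}

section Env

variable {t : ℕ} {D : Fin t → Submodule F (ι → F)} (E : Env hQ 2 D M)
include E

local notation "πₑ" => pr (Env.dc E)

/-- Products of two reflections in the stabiliser: the vectors lie in few blocks. -/
theorem Env.K72 (hT : Ty2 Q D) {g : GL ι F} (hg : g ∈ decompositionStabilizer D) {p p' : ι → F} {c : F} (hQp : Q p = c) (hQp' : Q p' = c) (hc : c ≠ 0)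
    (hind : ∀ s : F, p' ≠ s • p) (hg' : ∀ x, g ⋆ x = refl Q p (refl Q p' x)) {l₁ l₂ l₃ : Fin t} (h12 : l₁ ≠ l₂) (h13 : l₁ ≠ l₃) (h23 : l₂ ≠ l₃) :
    (πₑ l₁ p = 0 ∧ πₑ l₁ p' = 0) ∨ (πₑ l₂ p = 0 ∧ πₑ l₂ p' = 0) ∨ (πₑ l₃ p = 0 ∧ πₑ l₃ p' = 0) := by
  classical
  by_contra hcon
  push Not at hcon
  obtain ⟨hc1, hc2, hc3⟩ := hcon
  have hp0 : p ≠ 0 := by
    rintro rfl
    rw [map_zero] at hQp
    exact hc hQp.symm
  have hform : ∀ v, g ⋆ v - v = -(c⁻¹ * polar Q p' v) • p' - (c⁻¹ * (polar Q p v - c⁻¹ * polar Q p' v * polar Q p' p)) • p := by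
    intro v
    rw [hg', refl2_formula hQp hQp' v]
    module
  have hS : Submodule.span F {p, p'} = Submodule.span F {p, p'} := rfl
  have hfS : finrank F (Submodule.span F ({p, p'} : Set (ι → F))) = 2 := finrank_pair hp0 hind
  have hpS : p ∈ Submodule.span F ({p, p'} : Set (ι → F)) := Submodule.subset_span (by simp)
  have hp'S : p' ∈ Submodule.span F ({p, p'} : Set (ι → F)) := Submodule.subset_span (by simp)
  have hTS : ∀ v, g ⋆ v - v ∈ Submodule.span F ({p, p'} : Set (ι → F)) := by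
    intro v
    rw [hform]
    exact Submodule.sub_mem _ (Submodule.smul_mem _ _ hp'S) (Submodule.smul_mem _ _ hpS)
  have hfix : ∀ v, g ⋆ v = v → polar Q p' v = 0 ∧ polar Q p v = 0 := by
    intro v hv
    have h0 := hform v
    rw [hv, sub_self] at h0
    have hα : c⁻¹ * polar Q p' v = 0 := by
      by_contra hα
      apply hind ((-(c⁻¹ * polar Q p' v))⁻¹ * (c⁻¹ * (polar Q p v - c⁻¹ * polar Q p' v * polar Q p' p)))
      have h1 : -(c⁻¹ * polar Q p' v) • p' = (c⁻¹ * (polar Q p v - c⁻¹ * polar Q p' v * polar Q p' p)) • p := sub_eq_zero.1 h0.symm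
      rw [mul_smul, ← h1, smul_smul, inv_mul_cancel₀ (neg_ne_zero.2 hα), one_smul]
    have hα' : polar Q p' v = 0 := (mul_eq_zero.1 hα).resolve_left (inv_ne_zero hc)
    rw [hα'] at h0
    simp only [mul_zero, neg_zero, zero_smul, zero_mul, zero_sub, sub_zero] at h0
    have h2 := (smul_eq_zero.1 (neg_eq_zero.1 h0.symm)).resolve_right hp0
    exact ⟨hα', (mul_eq_zero.1 h2).resolve_left (inv_ne_zero hc)⟩
  have hmoved : ∀ l, (πₑ l p = 0 → πₑ l p' ≠ 0) → ∃ v ∈ D l, g ⋆ v ≠ v := by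
    intro l hl
    by_cases hl0 : πₑ l p = 0
    · obtain ⟨z, hz, hz'⟩ := ((Env.dc E).hp l).nondeg hQ (pr_mem (Env.dc E) l p') (hl hl0)
      refine ⟨z, hz, fun h => hz' ?_⟩
      rw [← polar_pr (Env.dc E) p' hz]
      exact (hfix z h).1
    · obtain ⟨z, hz, hz'⟩ := ((Env.dc E).hp l).nondeg hQ (pr_mem (Env.dc E) l p) hl0
      refine ⟨z, hz, fun h => hz' ?_⟩
      rw [← polar_pr (Env.dc E) p hz]
      exact (hfix z h).2
  obtain ⟨σ, hσ⟩ := id hg
  have hmaps : ∀ i, ∀ v ∈ D i, g ⋆ v ∈ D (σ i) := by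
    intro i v hv
    rw [← hσ i]
    exact ⟨v, hv, rfl⟩
  -- a moved block
  have hAcase : ∀ l, σ l ≠ l → ∀ l', l' ≠ l → l' ≠ σ l → πₑ l' p = 0 ∧ πₑ l' p' = 0 := by
    intro l hl l' h1 h2
    obtain ⟨a₁, ha₁, hQa₁⟩ := Env.value E l (one_ne_zero (α := F))
    have ha₁0 : a₁ ≠ 0 := by
      rintro rfl
      rw [map_zero] at hQa₁
      exact zero_ne_one hQa₁
    obtain ⟨a₂, ha₂, -, hnp, -⟩ := exists_nonpar hQ ((Env.dc E).hp l) (Env.hfin E l) (hT.ty l) ha₁ (by rw [hQa₁]; exact one_ne_zero)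
    have hinj : ∀ v ∈ D l, g ⋆ v - v = 0 → v = 0 := by
      intro v hv h0
      by_contra hv0
      have h3 := hmaps l v hv
      rw [sub_eq_zero.1 h0] at h3
      exact hl (block_unique (Env.dc E) hv0 hv h3).symm
    have hT1 : g ⋆ a₁ - a₁ ≠ 0 := fun h0 => ha₁0 (hinj a₁ ha₁ h0)
    have hT2 : ∀ s : F, g ⋆ a₂ - a₂ ≠ s • (g ⋆ a₁ - a₁) := by
      intro s h0
      apply hnp s
      apply sub_eq_zero.1
      apply hinj _ ((D l).sub_mem ha₂ ((D l).smul_mem _ ha₁))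
      rw [Matrix.mulVec_sub, Matrix.mulVec_smul]
      linear_combination (norm := module) (1 : F) • h0
    have hpr : ∀ v ∈ D l, πₑ l' (g ⋆ v - v) = 0 := by
      intro v hv
      rw [pr_sub, pr_other (Env.dc E) (Ne.symm h2) (hmaps l v hv), pr_other (Env.dc E) (Ne.symm h1) hv, sub_zero]
    have hspan : ∀ w ∈ Submodule.span F ({p, p'} : Set (ι → F)), πₑ l' w = 0 := by
      intro w hw
      obtain ⟨α, β, rfl⟩ := plane_span (by omega) (hTS a₁) (hTS a₂) hT1 hT2 hw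
      rw [pr_add, pr_smul, pr_smul, hpr a₁ ha₁, hpr a₂ ha₂, smul_zero, smul_zero, add_zero]
    exact ⟨hspan p hpS, hspan p' hp'S⟩
  by_cases hs1 : σ l₁ = l₁
  · by_cases hs2 : σ l₂ = l₂
    · by_cases hs3 : σ l₃ = l₃
      · -- all three fixed
        obtain ⟨v₁, hv₁, hm₁⟩ := hmoved l₁ hc1
        obtain ⟨v₂, hv₂, hm₂⟩ := hmoved l₂ hc2
        obtain ⟨v₃, hv₃, hm₃⟩ := hmoved l₃ hc3
        have hw : ∀ l, σ l = l → ∀ v ∈ D l, g ⋆ v - v ∈ D l := by
          intro l hl v hv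
          have := hmaps l v hv
          rw [hl] at this
          exact (D l).sub_mem this hv
        have hw₁ := hw l₁ hs1 v₁ hv₁
        have hw₂ := hw l₂ hs2 v₂ hv₂
        have hw₃ := hw l₃ hs3 v₃ hv₃
        have hn₁ : g ⋆ v₁ - v₁ ≠ 0 := sub_ne_zero.2 hm₁
        have hn₂ : g ⋆ v₂ - v₂ ≠ 0 := sub_ne_zero.2 hm₂
        have hn₃ : g ⋆ v₃ - v₃ ≠ 0 := sub_ne_zero.2 hm₃
        have hn12 : ∀ s : F, g ⋆ v₂ - v₂ ≠ s • (g ⋆ v₁ - v₁) := by
          intro s h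
          apply h12
          refine block_unique (Env.dc E) hn₂ ?_ hw₂
          rw [h]
          exact (D l₁).smul_mem _ hw₁
        obtain ⟨α, β, e⟩ := plane_span (by omega) (hTS v₁) (hTS v₂) hn₁ hn12 (hTS v₃)
        have h3 := congrArg (πₑ l₃) e
        rw [pr_add, pr_smul, pr_smul, pr_of_mem (Env.dc E) hw₃, pr_other (Env.dc E) h13 hw₁, pr_other (Env.dc E) h23 hw₂, smul_zero, smul_zero,
          add_zero] at h3
        exact hn₃ h3
      · -- the third moved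
        by_cases h1 : l₁ = σ l₃
        · have := hAcase l₃ hs3 l₂ h23 (by
            rw [← h1]
            exact Ne.symm h12)
          exact hc2 this.1 this.2
        · have := hAcase l₃ hs3 l₁ h13 h1
          exact hc1 this.1 this.2
    · by_cases h1 : l₁ = σ l₂
      · have := hAcase l₂ hs2 l₃ (Ne.symm h23) (by
          rw [← h1]
          exact Ne.symm h13)
        exact hc3 this.1 this.2
      · have := hAcase l₂ hs2 l₁ h12 h1
        exact hc1 this.1 this.2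
  · by_cases h2 : l₂ = σ l₁
    · have := hAcase l₁ hs1 l₃ (Ne.symm h13) (by
        rw [← h2]
        exact Ne.symm h23)
      exact hc3 this.1 this.2
    · have := hAcase l₁ hs1 l₂ (Ne.symm h12) h2
      exact hc2 this.1 this.2

/-- Vectors orthogonal to the image of a block vector have their preimages in two blocks. -/
theorem Env.in_two (hT : Ty2 Q D) (hS : H97WD.Star Q D M) {x : GL ι F} (hx : x ∈ M) (hxH : x ∉ decompositionStabilizer D) {i : Fin t} {a : ι → F}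
    (ha : a ∈ D i) (hQa : Q a ≠ 0) {J : Type} {m : J → Fin t} (hm : Function.Injective m) {w : J → ι → F} (hw : ∀ j, w j ∈ D (m j))
    (hperp : ∀ j, polar Q (x ⋆ a) (w j) = 0) {d : F} (hd : d ≠ 0) (hQw : ∀ j, Q (w j) = d) {j₀ j₁ : J} (hj : j₀ ≠ j₁) :
    ∃ l₁ l₂, l₁ ≠ l₂ ∧ ∀ j l, l ≠ l₁ → l ≠ l₂ → πₑ l (x⁻¹ ⋆ w j) = 0 := by
  classical
  have hy : ∀ v, Q (x⁻¹ ⋆ v) = Q v := iso_inv (Env.iso E hx)
  have hw0 : ∀ j, w j ≠ 0 := by
    intro j h0
    have := hQw j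
    rw [h0, map_zero] at this
    exact hd this.symm
  have hp0 : x⁻¹ ⋆ w j₀ ≠ 0 := GL_ne _ (hw0 j₀)
  have hnb : ∀ l, x⁻¹ ⋆ w j₀ ∉ D l := by
    intro l hl
    have := hS _ (M.inv_mem hx) (m j₀) l (w j₀) (hw j₀) (by rw [hQw]; exact hd) hl
    apply hxH
    have h2 := (decompositionStabilizer D).inv_mem this
    rwa [inv_inv] at h2
  obtain ⟨l₁, h1⟩ := exists_pr_ne (Env.dc E) hp0
  obtain ⟨l₂, h12, h2⟩ := exists_pr_other (Env.dc E) (hnb l₁)
  have key : ∀ j, j ≠ j₀ → ∀ l, l ≠ l₁ → l ≠ l₂ → πₑ l (x⁻¹ ⋆ w j₀) = 0 ∧ πₑ l (x⁻¹ ⋆ w j) = 0 := by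
    intro j hj' l hl1 hl2
    obtain ⟨h, hh, hh'⟩ := Env.refl2_H E (hw j₀) (hw j) (by rw [hQw, hQw]) (by rw [hQw]; exact hd)
    have hhu : h ⋆ (x ⋆ a) = x ⋆ a := by
      rw [hh', r_perp (hperp j), r_perp (hperp j₀)]
    have hG : x⁻¹ * h * x ∈ M := M.mul_mem (M.mul_mem (M.inv_mem hx) (E.hHM hh)) hx
    have hGa : (x⁻¹ * h * x) ⋆ a = a := by
      rw [mulVec_mul_GL, mulVec_mul_GL, hhu, inv_mulVec_GL]
    have hGH : x⁻¹ * h * x ∈ decompositionStabilizer D := hS _ hG i i a ha hQa (by rw [hGa]; exact ha)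
    have hind : ∀ s : F, x⁻¹ ⋆ w j ≠ s • (x⁻¹ ⋆ w j₀) := by
      intro s h3
      have h4 : w j = s • w j₀ := by
        apply GL_inj x⁻¹
        rw [h3, Matrix.mulVec_smul]
      have h5 : w j ∈ D (m j₀) := by
        rw [h4]
        exact (D (m j₀)).smul_mem _ (hw j₀)
      exact hj' (hm (block_unique (Env.dc E) (hw0 j) (hw j) h5))
    rcases Env.K72 E hT hGH (p := x⁻¹ ⋆ w j₀) (p' := x⁻¹ ⋆ w j) (c := d) (by rw [hy, hQw]) (by rw [hy, hQw]) hd hind (conj_pair E hx hh') (Ne.symm h12)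
      (Ne.symm hl1) (Ne.symm hl2) with h3 | h3 | h3
    · exact absurd h3.1 h1
    · exact absurd h3.1 h2
    · exact h3
  refine ⟨l₁, l₂, Ne.symm h12, fun j l hl1 hl2 => ?_⟩
  by_cases hj' : j = j₀
  · subst hj'
    exact (key j₁ (Ne.symm hj) l hl1 hl2).1
  · exact (key j hj' l hl1 hl2).2

/-- Non-zero block vectors in different blocks are independent. -/
theorem Env.indep {J : Type} [Fintype J] {m : J → Fin t} (hm : Function.Injective m) {w : J → ι → F} (hw : ∀ j, w j ∈ D (m j)) (hw0 : ∀ j, w j ≠ 0)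
    (g : GL ι F) : LinearIndependent F (fun j => g ⋆ w j) := by
  classical
  rw [Fintype.linearIndependent_iff]
  intro c hc j₀
  have h1 : g ⋆ (∑ j, c j • w j) = 0 := by
    rw [← hc, ← Matrix.mulVecLin_apply, map_sum]
    refine Finset.sum_congr rfl (fun j _ => ?_)
    rw [map_smul]
    rfl
  have h2 : ∑ j, c j • w j = 0 := by
    by_contra h3
    exact GL_ne g h3 h1
  have h3 := congrArg (πₑ (m j₀)) h2
  rw [pr_sum, pr_zero, Finset.sum_eq_single j₀] at h3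
  · rw [pr_smul, pr_of_mem (Env.dc E) (hw j₀)] at h3
    exact (smul_eq_zero.1 h3).resolve_right (hw0 j₀)
  · intro j _ hj
    rw [pr_smul, pr_other (Env.dc E) (fun h => hj (hm h)) (hw j), smul_zero]
  · intro h
    exact absurd (Finset.mem_univ j₀) h

theorem Env.mem_two {l₁ l₂ : Fin t} (h12 : l₁ ≠ l₂) {v : ι → F} (h : ∀ l, l ≠ l₁ → l ≠ l₂ → πₑ l v = 0) : v ∈ D l₁ ⊔ D l₂ := by
  have e : v = πₑ l₁ v + πₑ l₂ v := by
    refine eq_of_pr (Env.dc E) (fun l => ?_)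
    rw [pr_add]
    by_cases h1 : l = l₁
    · subst h1
      rw [pr_of_mem (Env.dc E) (pr_mem _ _ _), pr_other (Env.dc E) (Ne.symm h12) (pr_mem _ _ _), add_zero]
    by_cases h2 : l = l₂
    · subst h2
      rw [pr_of_mem (Env.dc E) (pr_mem _ _ _), pr_other (Env.dc E) h12 (pr_mem _ _ _), zero_add]
    rw [h l h1 h2, pr_other (Env.dc E) (Ne.symm h1) (pr_mem _ _ _), pr_other (Env.dc E) (Ne.symm h2) (pr_mem _ _ _), add_zero]
  rw [e]
  exact Submodule.add_mem_sup (pr_mem _ _ _) (pr_mem _ _ _)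

/-- Five blocks with vectors of the same norm orthogonal to the image of a block vector are impossible. -/
theorem Env.five (hT : Ty2 Q D) (hS : H97WD.Star Q D M) {x : GL ι F} (hx : x ∈ M) (hxH : x ∉ decompositionStabilizer D) {i : Fin t} {a : ι → F}
    (ha : a ∈ D i) (hQa : Q a ≠ 0) {S : Finset (Fin t)} (hcard : 5 ≤ S.card) {d : F} (hd : d ≠ 0)
    (hw : ∀ l ∈ S, ∃ w ∈ D l, polar Q (x ⋆ a) w = 0 ∧ Q w = d) : False := by
  classical
  choose! w hw₁ hw₂ hw₃ using hw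
  have hm : Function.Injective (fun j : S => (j : Fin t)) := Subtype.val_injective
  have hw0 : ∀ j : S, w j ≠ 0 := by
    intro j h0
    have := hw₃ j j.2
    rw [h0, map_zero] at this
    exact hd this.symm
  obtain ⟨j₀, hj₀⟩ : ∃ j₀ : S, True := by
    have : 0 < S.card := by omega
    obtain ⟨l, hl⟩ := Finset.card_pos.1 this
    exact ⟨⟨l, hl⟩, trivial⟩
  obtain ⟨j₁, hj₁⟩ : ∃ j₁ : S, j₁ ≠ j₀ := by
    have : 1 < S.card := by omega
    obtain ⟨l, hl, l', hl', hne⟩ := Finset.one_lt_card.1 this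
    by_cases h : (⟨l, hl⟩ : S) = j₀
    · refine ⟨⟨l', hl'⟩, fun h' => hne ?_⟩
      have h1 := congrArg Subtype.val h
      have h2 := congrArg Subtype.val h'
      simp only at h1 h2
      rw [h1, h2]
    · exact ⟨⟨l, hl⟩, h⟩
  obtain ⟨l₁, l₂, h12, h⟩ := Env.in_two E hT hS hx hxH ha hQa hm (w := fun j : S => w j) (fun j => hw₁ j j.2) (fun j => hw₂ j j.2) hd
    (fun j => hw₃ j j.2) (Ne.symm hj₁)
  have hind := Env.indep E hm (w := fun j : S => w j) (fun j => hw₁ j j.2) hw0 x⁻¹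
  have h1 := finrank_span_eq_card hind
  have hle : Submodule.span F (Set.range (fun j : S => x⁻¹ ⋆ w j)) ≤ D l₁ ⊔ D l₂ := by
    rw [Submodule.span_le]
    rintro _ ⟨j, rfl⟩
    exact Env.mem_two E h12 (h j)
  have h2 := Submodule.finrank_mono hle
  have h3 := Submodule.finrank_add_le_finrank_add_finrank (D l₁) (D l₂)
  rw [Env.hfin E, Env.hfin E] at h3
  rw [h1, Fintype.card_coe] at h2
  omega

end Env

end Cfsg.Agent.Lib.H97WJ
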