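import Mathlib
import Cfsg.Agent.Lib.H97WJ
import Cfsg.Agent.Lib.H97WE

/-!
# Decompositions into planes: three blocks, and the maximality theorem
-/

set_option autoImplicit false
set_option linter.unusedSectionVars false
set_option linter.unusedVariables false

namespace Cfsg.Agent.Lib.H97WK

open Matrix QuadraticMap Cfsg Cfsg.Geo Module
open Cfsg.Agent.Lib.OrthoBasic Cfsg.Agent.Lib.OrthoSiegel Cfsg.Agent.Lib.OmCalc Cfsg.Agent.Lib.TvGL
  Cfsg.Agent.Lib.OmPerp Cfsg.Agent.Lib.OmNd Cfsg.Agent.Lib.OmK Cfsg.Agent.Lib.OmPair Cfsg.Agent.Lib.OmBlk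
  Cfsg.Agent.Lib.H97WA Cfsg.Agent.Lib.H97WB Cfsg.Agent.Lib.H97WC Cfsg.Agent.Lib.H97WD Cfsg.Agent.Lib.H97WF
  Cfsg.Agent.Lib.H97WG Cfsg.Agent.Lib.H97WH Cfsg.Agent.Lib.H97WI Cfsg.Agent.Lib.H97WJ
open Cfsg.Agent.Lib.OrthGroup Cfsg.Agent.Lib.OrthOmega
open Cfsg.Agent.Lib.SympT (GL_ext mulVec_mul_GL mulVec_inv_GL inv_mulVec_GL linOf linOf_apply)
open Cfsg.Agent.Lib.QuadFF (polar_sm_r polar_sm_l Q_ad Q_sm IsHyp ND restr polar_restr exists_singular)

local notation:70 g:71 " ⋆ " x:70 => Matrix.mulVec (Units.val g) x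

variable {ι : Type} [Fintype ι] [DecidableEq ι] {F : Type*} [Field F] [Fintype F]
  {Q : QuadraticForm F (ι → F)} {P P' : Submodule F (ι → F)} {hQ : Nondeg Q} {M : Subgroup (GL ι F)}

/-- Two isotropic orthogonal vectors for the sum of three squares are proportional. -/
theorem minors {a b c a' b' c' : F} (e1 : a ^ 2 + b ^ 2 + c ^ 2 = 0) (e2 : a' ^ 2 + b' ^ 2 + c' ^ 2 = 0)
    (e3 : a * a' + b * b' + c * c' = 0) (hne : ¬ (a = 0 ∧ b = 0 ∧ c = 0)) : ∃ s : F, a' = s * a ∧ b' = s * b ∧ c' = s * c := by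
  have m1 : a * b' = b * a' := by
    have : (a * b' - b * a') ^ 2 = 0 := by
      linear_combination (a' ^ 2 + b' ^ 2) * e1 - (c ^ 2) * e2 - (a * a' + b * b' - c * c') * e3
    exact sub_eq_zero.1 (pow_eq_zero_iff (two_ne_zero) |>.1 this)
  have m2 : a * c' = c * a' := by
    have : (a * c' - c * a') ^ 2 = 0 := by
      linear_combination (a' ^ 2 + c' ^ 2) * e1 - (b ^ 2) * e2 - (a * a' + c * c' - b * b') * e3
    exact sub_eq_zero.1 (pow_eq_zero_iff (two_ne_zero) |>.1 this)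
  have m3 : b * c' = c * b' := by
    have : (b * c' - c * b') ^ 2 = 0 := by
      linear_combination (b' ^ 2 + c' ^ 2) * e1 - (a ^ 2) * e2 - (b * b' + c * c' - a * a') * e3
    exact sub_eq_zero.1 (pow_eq_zero_iff (two_ne_zero) |>.1 this)
  by_cases ha : a = 0
  · by_cases hb : b = 0
    · have hc : c ≠ 0 := fun hc => hne ⟨ha, hb, hc⟩
      refine ⟨c' / c, ?_, ?_, ?_⟩
      · field_simp
        linear_combination -m2
      · field_simp
        linear_combination -m3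
      · field_simp
    · refine ⟨b' / b, ?_, ?_, ?_⟩
      · field_simp
        linear_combination -m1
      · field_simp
      · field_simp
        linear_combination m3
  · refine ⟨a' / a, ?_, ?_, ?_⟩
    · field_simp
    · field_simp
      linear_combination m1
    · field_simp
      linear_combination m2

open Classical in
/-- A quadratic has at most two roots. -/
theorem quad_roots_card {A B C : F} (h : ¬ (A = 0 ∧ B = 0 ∧ C = 0)) :
    (Finset.univ.filter (fun s : F => A + B * s + C * s ^ 2 = 0)).card ≤ 2 := by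
  classical
  by_contra hcon
  push Not at hcon
  obtain ⟨a, ha, b, hb, c, hc, hab, hac, hbc⟩ := Finset.two_lt_card.1 hcon
  simp only [Finset.mem_filter, Finset.mem_univ, true_and] at ha hb hc
  have h1 : (a - b) * (B + C * (a + b)) = 0 := by linear_combination ha - hb
  have h2 : (a - c) * (B + C * (a + c)) = 0 := by linear_combination ha - hc
  have h3 := (mul_eq_zero.1 h1).resolve_left (sub_ne_zero.2 hab)
  have h4 := (mul_eq_zero.1 h2).resolve_left (sub_ne_zero.2 hac)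
  have h5 : C * (b - c) = 0 := by linear_combination h3 - h4
  have hC := (mul_eq_zero.1 h5).resolve_right (sub_ne_zero.2 hbc)
  have hB : B = 0 := by
    rw [hC] at h3
    linear_combination h3
  have hA : A = 0 := by
    rw [hC, hB] at ha
    linear_combination ha
  exact h ⟨hA, hB, hC⟩

section Env

variable {t : ℕ} {D : Fin t → Submodule F (ι → F)} (E : Env hQ 2 D M)
include E

local notation "πₑ" => pr (Env.dc E)

/-- Three blocks with vectors of one norm orthogonal to the image of a block vector are impossible in odd characteristic. -/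
theorem Env.three_odd (hT : Ty2 Q D) (ht : 7 ≤ t) (h2 : (2 : F) ≠ 0) (hS : H97WD.Star Q D M) {x : GL ι F} (hx : x ∈ M)
    (hxH : x ∉ decompositionStabilizer D) {i : Fin t} {a : ι → F} (ha : a ∈ D i) (hQa : Q a ≠ 0) {m : Fin 3 → Fin t} (hm : Function.Injective m)
    {w : Fin 3 → ι → F} (hw : ∀ j, w j ∈ D (m j)) (hperp : ∀ j, polar Q (x ⋆ a) (w j) = 0) {d : F} (hd : d ≠ 0) (hQw : ∀ j, Q (w j) = d) : False := by
  classical
  have hw0 : ∀ j, w j ≠ 0 := by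
    intro j h0
    have := hQw j
    rw [h0, map_zero] at this
    exact hd this.symm
  obtain ⟨l₁, l₂, h12, hin⟩ := Env.in_two E hT hS hx hxH ha hQa hm hw hperp hd hQw (j₀ := 0) (j₁ := 1) (by decide)
  have hind := Env.indep E hm hw hw0 x⁻¹
  have hfU : finrank F (Submodule.span F (Set.range (fun j => x⁻¹ ⋆ w j))) = 3 := by
    rw [finrank_span_eq_card hind]
    simp
  have hUle : Submodule.span F (Set.range (fun j => x⁻¹ ⋆ w j)) ≤ D l₁ ⊔ D l₂ := by
    rw [Submodule.span_le]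
    rintro _ ⟨j, rfl⟩
    exact Env.mem_two E h12 (hin j)
  have hΨ : finrank F ↥(D l₁ ⊔ D l₂) ≤ 4 := by
    have h3 := Submodule.finrank_add_le_finrank_add_finrank (D l₁) (D l₂)
    rw [Env.hfin E, Env.hfin E] at h3
    exact h3
  have hint : ∀ l, D l ≤ D l₁ ⊔ D l₂ → ∃ τ ∈ Submodule.span F (Set.range (fun j => x⁻¹ ⋆ w j)), τ ∈ D l ∧ τ ≠ 0 := by
    intro l hDle
    have h3 := Submodule.finrank_sup_add_finrank_inf_eq (Submodule.span F (Set.range (fun j => x⁻¹ ⋆ w j))) (D l)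
    have h4 := (Submodule.finrank_mono (sup_le hUle hDle)).trans hΨ
    rw [hfU, Env.hfin E] at h3
    obtain ⟨τ, hτ, hτ0⟩ : ∃ τ ∈ Submodule.span F (Set.range (fun j => x⁻¹ ⋆ w j)) ⊓ D l, τ ≠ 0 :=
      Cfsg.Agent.Lib.QForm.exists_ne_zero_mem (by omega)
    exact ⟨τ, hτ.1, hτ.2, hτ0⟩
  -- coordinates
  have hcoord : ∀ τ ∈ Submodule.span F (Set.range (fun j => x⁻¹ ⋆ w j)), ∃ c : Fin 3 → F, x ⋆ τ = c 0 • w 0 + c 1 • w 1 + c 2 • w 2 := by
    intro τ hτ
    obtain ⟨c, hc⟩ := (Submodule.mem_span_range_iff_exists_fun F).1 hτ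
    refine ⟨c, ?_⟩
    rw [← hc, Fin.sum_univ_three, Matrix.mulVec_add, Matrix.mulVec_add, Matrix.mulVec_smul, Matrix.mulVec_smul, Matrix.mulVec_smul, mulVec_inv_GL,
      mulVec_inv_GL, mulVec_inv_GL]
  have hnonsing : ∀ l, ∀ τ ∈ Submodule.span F (Set.range (fun j => x⁻¹ ⋆ w j)), τ ∈ D l → τ ≠ 0 → Q τ = 0 := by
    intro l τ hτ hτl hτ0
    by_contra hQτ
    obtain ⟨c, hc⟩ := hcoord τ hτ
    have hpol : ∀ v, polar Q (x ⋆ τ) v = c 0 * polar Q (w 0) v + c 1 * polar Q (w 1) v + c 2 * polar Q (w 2) v := by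
      intro v
      rw [hc, polar_add_left, polar_add_left, polar_sm_l, polar_sm_l, polar_sm_l]
    have hne : ∃ j₀, c j₀ ≠ 0 := by
      by_contra hcon
      push Not at hcon
      apply GL_ne x hτ0
      rw [hc, hcon 0, hcon 1, hcon 2]
      simp
    obtain ⟨j₀, hj₀⟩ := hne
    obtain ⟨w', hw', hw'0, hw'p⟩ := perp_ex hQ ((Env.dc E).hp (m j₀)) (Env.hfin E (m j₀)) (hw0 j₀)
    have hQw' : Q w' ≠ 0 := perp_nonsing hQ ((Env.dc E).hp (m j₀)) (Env.hfin E (m j₀)) (hw j₀) hw' (by rw [hQw]; exact hd) hw'0 hw'p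
    have hjorth : ∀ j, polar Q (w j) w' = 0 := by
      intro j
      by_cases hj : j = j₀
      · rw [hj, polar_comm]
        exact hw'p
      · exact polar_orth (Env.dc E) (fun h => hj (hm h)) (hw j) hw'
    have hcompl : ∀ l' ∈ (Finset.univ.image m)ᶜ, ∀ j, polar Q (w j) = polar Q (w j) := fun _ _ _ => rfl
    refine Env.five E hT hS hx hxH hτl hQτ (S := insert (m j₀) (Finset.univ.image m)ᶜ) (d := Q w') ?_ hQw' ?_
    · have h3 : m j₀ ∉ (Finset.univ.image m)ᶜ := by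
        simp
      rw [Finset.card_insert_of_notMem h3, Finset.card_compl, Fintype.card_fin]
      have h4 : (Finset.univ.image m).card ≤ 3 := by
        refine Finset.card_image_le.trans ?_
        simp
      omega
    · intro l' hl'
      rw [Finset.mem_insert] at hl'
      rcases hl' with rfl | hl'
      · exact ⟨w', hw', by rw [hpol, hjorth, hjorth, hjorth]; ring, rfl⟩
      · obtain ⟨v, hv, hQv⟩ := Env.value E l' hQw'
        refine ⟨v, hv, ?_, hQv⟩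
        rw [hpol]
        have hv0 : ∀ j, polar Q (w j) v = 0 := by
          intro j
          refine polar_orth (Env.dc E) ?_ (hw j) hv
          rintro rfl
          simp at hl'
        rw [hv0, hv0, hv0]
        ring
  obtain ⟨τ₁, hτ₁, hτ₁m, hτ₁0⟩ := hint l₁ le_sup_left
  obtain ⟨τ₂, hτ₂, hτ₂m, hτ₂0⟩ := hint l₂ le_sup_right
  have hQ₁ := hnonsing l₁ τ₁ hτ₁ hτ₁m hτ₁0
  have hQ₂ := hnonsing l₂ τ₂ hτ₂ hτ₂m hτ₂0
  obtain ⟨c, hc⟩ := hcoord τ₁ hτ₁
  obtain ⟨c', hc'⟩ := hcoord τ₂ hτ₂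
  have p01 : polar Q (w 0) (w 1) = 0 := polar_orth (Env.dc E) (fun h => by simpa using hm h) (hw 0) (hw 1)
  have p02 : polar Q (w 0) (w 2) = 0 := polar_orth (Env.dc E) (fun h => by simpa using hm h) (hw 0) (hw 2)
  have p12 : polar Q (w 1) (w 2) = 0 := polar_orth (Env.dc E) (fun h => by simpa using hm h) (hw 1) (hw 2)
  have p10 : polar Q (w 1) (w 0) = 0 := by rw [polar_comm]; exact p01
  have p20 : polar Q (w 2) (w 0) = 0 := by rw [polar_comm]; exact p02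
  have p21 : polar Q (w 2) (w 1) = 0 := by rw [polar_comm]; exact p12
  have hiso := Env.iso E hx
  have hQgen : ∀ b : Fin 3 → F, Q (b 0 • w 0 + b 1 • w 1 + b 2 • w 2) = d * (b 0 ^ 2 + b 1 ^ 2 + b 2 ^ 2) := by
    intro b
    rw [Q_ad, Q_ad, Q_sm, Q_sm, Q_sm, hQw, hQw, hQw]
    simp only [polar_add_left, polar_sm_l, polar_sm_r, p01, p02, p12]
    ring
  have e1 : c 0 ^ 2 + c 1 ^ 2 + c 2 ^ 2 = 0 := by
    have h3 := hiso τ₁
    rw [hc, hQgen, hQ₁] at h3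
    exact (mul_eq_zero.1 h3).resolve_left hd
  have e2 : c' 0 ^ 2 + c' 1 ^ 2 + c' 2 ^ 2 = 0 := by
    have h3 := hiso τ₂
    rw [hc', hQgen, hQ₂] at h3
    exact (mul_eq_zero.1 h3).resolve_left hd
  have e3 : c 0 * c' 0 + c 1 * c' 1 + c 2 * c' 2 = 0 := by
    have h3 := polar_iso hiso τ₁ τ₂
    rw [hc, hc', polar_orth (Env.dc E) h12 hτ₁m hτ₂m] at h3
    simp only [polar_add_left, polar_add_right, polar_sm_l, polar_sm_r, p01, p02, p12, p10, p20, p21, pol2, hQw] at h3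
    have h4 : (2 * d) * (c 0 * c' 0 + c 1 * c' 1 + c 2 * c' 2) = 0 := by linear_combination h3
    exact (mul_eq_zero.1 h4).resolve_left (mul_ne_zero h2 hd)
  have hne : ¬ (c 0 = 0 ∧ c 1 = 0 ∧ c 2 = 0) := by
    rintro ⟨h3, h4, h5⟩
    apply GL_ne x hτ₁0
    rw [hc, h3, h4, h5]
    simp
  obtain ⟨s, hs0, hs1, hs2⟩ := minors e1 e2 e3 hne
  have hτ : τ₂ = s • τ₁ := by
    apply GL_inj x
    rw [Matrix.mulVec_smul, hc, hc', hs0, hs1, hs2]
    module
  apply h12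
  refine block_unique (Env.dc E) hτ₂0 ?_ hτ₂m
  rw [hτ]
  exact (D l₁).smul_mem _ hτ₁m

/-- Five good blocks are impossible. -/
theorem Env.good5 (hT : Ty2 Q D) (ht : 7 ≤ t) (hS : H97WD.Star Q D M) {x : GL ι F} (hx : x ∈ M) (hxH : x ∉ decompositionStabilizer D) {i : Fin t}
    {a : ι → F} (ha : a ∈ D i) (hQa : Q a ≠ 0) {S : Finset (Fin t)} (hcard : 5 ≤ S.card)
    (hgood : ∀ l ∈ S, πₑ l (x ⋆ a) = 0 ∨ Q (πₑ l (x ⋆ a)) ≠ 0) : False := by
  classical
  have hvec : ∀ l ∈ S, ∃ w ∈ D l, polar Q (x ⋆ a) w = 0 ∧ Q w ≠ 0 := by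
    intro l hl
    obtain ⟨w, hw, h1, h2⟩ := good_vec hQ ((Env.dc E).hp l) (Env.hfin E l) (pr_mem (Env.dc E) l (x ⋆ a)) (hgood l hl)
    refine ⟨w, hw, ?_, h2⟩
    rw [polar_pr (Env.dc E) _ hw, polar_comm]
    exact h1
  by_cases h2 : (2 : F) = 0
  · refine Env.five E hT hS hx hxH ha hQa hcard (d := 1) one_ne_zero (fun l hl => ?_)
    obtain ⟨w, hw, h1, h3⟩ := hvec l hl
    obtain ⟨s, hs⟩ := sq_of_two h2 (Q w)⁻¹
    refine ⟨s • w, (D l).smul_mem _ hw, by rw [polar_sm_r, h1, mul_zero], ?_⟩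
    rw [Q_sm, _root_.sq, hs, inv_mul_cancel₀ h3]
  · choose! w hw₁ hw₂ hw₃ using hvec
    obtain ⟨S', hS'sub, hS'card, hcls⟩ : ∃ S' ⊆ S, S'.card = 3 ∧ ∀ l ∈ S', ∀ l' ∈ S', (IsSquare (Q (w l)) ↔ IsSquare (Q (w l'))) := by
      by_cases h3 : 3 ≤ (S.filter (fun l => IsSquare (Q (w l)))).card
      · obtain ⟨S', hS', hS'c⟩ := Finset.exists_subset_card_eq h3
        refine ⟨S', hS'.trans (Finset.filter_subset _ _), hS'c, fun l hl l' hl' => ?_⟩
        have h5 := (Finset.mem_filter.1 (hS' hl)).2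
        have h6 := (Finset.mem_filter.1 (hS' hl')).2
        exact ⟨fun _ => h6, fun _ => h5⟩
      · have hc := Finset.card_filter_add_card_filter_not (s := S) (fun l => IsSquare (Q (w l)))
        have h5 : 3 ≤ (S.filter (fun l => ¬ IsSquare (Q (w l)))).card := by omega
        obtain ⟨S', hS', hS'c⟩ := Finset.exists_subset_card_eq h5
        refine ⟨S', hS'.trans (Finset.filter_subset _ _), hS'c, fun l hl l' hl' => ?_⟩
        have h6 := (Finset.mem_filter.1 (hS' hl)).2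
        have h7 := (Finset.mem_filter.1 (hS' hl')).2
        exact ⟨fun h => absurd h h6, fun h => absurd h h7⟩
    obtain ⟨e, he⟩ : ∃ e : Fin 3 → Fin t, e = S'.orderEmbOfFin hS'card := ⟨_, rfl⟩
    have hemem : ∀ j, e j ∈ S' := fun j => by
      rw [he]
      exact Finset.orderEmbOfFin_mem S' hS'card j
    have heinj : Function.Injective e := by
      rw [he]
      exact (S'.orderEmbOfFin hS'card).injective
    have hscale : ∀ j, ∃ v ∈ D (e j), polar Q (x ⋆ a) v = 0 ∧ Q v = Q (w (e 0)) := by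
      intro j
      obtain ⟨ρ, hρ0, hρ⟩ := same_class h2 (hw₃ (e 0) (hS'sub (hemem 0))) (hw₃ (e j) (hS'sub (hemem j))) (hcls _ (hemem 0) _ (hemem j))
      refine ⟨ρ⁻¹ • w (e j), (D (e j)).smul_mem _ (hw₁ _ (hS'sub (hemem j))), ?_, ?_⟩
      · rw [polar_sm_r, hw₂ _ (hS'sub (hemem j)), mul_zero]
      · rw [Q_sm, hρ]
        field_simp
    choose v hv₁ hv₂ hv₃ using hscale
    exact Env.three_odd E hT ht h2 hS hx hxH ha hQa heinj hv₁ hv₂ (hw₃ (e 0) (hS'sub (hemem 0))) hv₃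

/-- The conjugate of a rotation. -/
theorem Env.conj_rot {i : Fin t} {e f : ι → F} (he : e ∈ D i) (hf : f ∈ D i) (hQe : Q e = 0) (hQf : Q f = 0) (hef : polar Q e f = 1) {μ : F} (hμ : μ ≠ 0)
    {x : GL ι F} (hx : x ∈ M) :
    ∃ ρ ∈ M, ∀ w, ρ ⋆ w = w + ((μ ^ 2 - 1) * polar Q w (x ⋆ f)) • (x ⋆ e) + ((μ⁻¹ ^ 2 - 1) * polar Q w (x ⋆ e)) • (x ⋆ f) := by
  obtain ⟨τ, hτ, hτ'⟩ := Env.rot E he hf hQe hQf hef hμ
  refine ⟨x * τ * x⁻¹, M.mul_mem (M.mul_mem hx (E.hHM hτ)) (M.inv_mem hx), fun w => ?_⟩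
  have hiso := Env.iso E hx
  have h1 : ∀ z, polar Q (x⁻¹ ⋆ w) z = polar Q w (x ⋆ z) := by
    intro z
    rw [← polar_iso hiso (x⁻¹ ⋆ w) z, mulVec_inv_GL]
  rw [mulVec_mul_GL, mulVec_mul_GL, hτ', h1, h1, Matrix.mulVec_add, Matrix.mulVec_add, Matrix.mulVec_smul, Matrix.mulVec_smul, mulVec_inv_GL]

/-- The commutator of two rotations. -/
theorem Env.rot_trick (hT : Ty2 Q D) (ht : 3 ≤ t) (h7 : 7 ≤ Fintype.card F) {i : Fin t} {e f : ι → F} (he : e ∈ D i) (hf : f ∈ D i) (hQe : Q e = 0) (hQf : Q f = 0)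
    (hef : polar Q e f = 1) {x : GL ι F} (hx : x ∈ M) {m : Fin t} (hA : πₑ m (x ⋆ e) ≠ 0) (hQA : Q (πₑ m (x ⋆ e)) = 0) (hA' : πₑ m (x ⋆ f) = 0) :
    omegaGL ⇑Q ≤ M := by
  classical
  obtain ⟨μ, hμ0, hμ1⟩ := Cfsg.Agent.Lib.OmBlk2.exists_mu (F := F) (by omega)
  obtain ⟨ρ, hρ, hρ'⟩ := Env.conj_rot E he hf hQe hQf hef hμ0 hx
  obtain ⟨f₀, hf₀, hQf₀, hAf₀⟩ := exists_partner hQ ((Env.dc E).hp m) (pr_mem (Env.dc E) m (x ⋆ e)) hA hQA
  obtain ⟨τ, hτ, hτ'⟩ := Env.rot E (pr_mem (Env.dc E) m (x ⋆ e)) hf₀ hQA hQf₀ hAf₀ hμ0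
  have hτM := E.hHM hτ
  obtain ⟨ρ₂, hρ₂, hρ₂'⟩ := Env.conj_rot E he hf hQe hQf hef hμ0 (M.mul_mem hτM hx)
  have hiso := Env.iso E hx
  obtain ⟨p, hp⟩ : ∃ p, p = x ⋆ e := ⟨_, rfl⟩
  obtain ⟨p', hp'⟩ : ∃ p', p' = x ⋆ f := ⟨_, rfl⟩
  obtain ⟨A, hAdef⟩ : ∃ A, A = πₑ m p := ⟨_, rfl⟩
  rw [mulVec_mul_GL, mulVec_mul_GL] at hρ₂'
  rw [← hp, ← hp'] at hρ'
  rw [← hp, ← hp'] at hρ₂'
  rw [← hp] at hA hQA hτ' hAf₀
  rw [← hp'] at hA'
  rw [← hAdef] at hA hQA hτ' hAf₀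
  have hAm : A ∈ D m := by
    rw [hAdef]
    exact pr_mem _ _ _
  have hpf₀ : polar Q p f₀ = 1 := by
    rw [polar_pr (Env.dc E) p hf₀, ← hAdef]
    exact hAf₀
  have hpA : polar Q p A = 0 := by
    rw [polar_pr (Env.dc E) p hAm, ← hAdef]
    exact polar_self_zero hQA
  have hp'f₀ : polar Q p' f₀ = 0 := polar_of_pr (Env.dc E) hA' hf₀
  have hp'A : polar Q p' A = 0 := polar_of_pr (Env.dc E) hA' hAm
  obtain ⟨κ₀, hκ₀⟩ : ∃ κ₀, κ₀ = μ ^ 2 - 1 := ⟨_, rfl⟩
  obtain ⟨κ₁, hκ₁⟩ : ∃ κ₁, κ₁ = μ⁻¹ ^ 2 - 1 := ⟨_, rfl⟩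
  have hκ₀0 : κ₀ ≠ 0 := by
    rw [hκ₀]
    exact sub_ne_zero.2 hμ1
  have hκ₁0 : κ₁ ≠ 0 := by
    rw [hκ₁]
    refine sub_ne_zero.2 ?_
    intro h
    apply hμ1
    rw [inv_pow] at h
    exact inv_eq_one.1 h
  have hκκ : κ₁ * μ ^ 2 = -κ₀ := by
    rw [hκ₁, hκ₀, inv_pow]
    field_simp
    ring
  have hτp : τ ⋆ p = p + κ₀ • A := by
    rw [hτ', hpf₀, hpA, ← hκ₀]
    module
  have hτp' : τ ⋆ p' = p' := by
    rw [hτ', hp'f₀, hp'A]
    module
  rw [hτp, ← hκ₀, ← hκ₁, hτp'] at hρ₂'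
  rw [← hκ₀, ← hκ₁] at hρ'
  obtain ⟨z, hz⟩ : ∃ z, z = κ₀ • A := ⟨_, rfl⟩
  rw [← hz] at hρ₂'
  have hQz : Q z = 0 := by rw [hz, Q_sm, hQA, mul_zero]
  have hQp' : Q p' = 0 := by rw [hp', hiso, hQf]
  have hpp' : polar Q p p' = 1 := by rw [hp, hp', polar_iso hiso, hef]
  have hp'p : polar Q p' p = 1 := by rw [polar_comm]; exact hpp'
  have hpz : polar Q p z = 0 := by rw [hz, polar_sm_r, hpA, mul_zero]
  have hp'z : polar Q p' z = 0 := by rw [hz, polar_sm_r, hp'A, mul_zero]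
  have hzp' : polar Q z p' = 0 := by rw [polar_comm]; exact hp'z
  have hY : polar Q z (κ₁ • p') = 0 := by rw [polar_sm_r, hzp', mul_zero]
  have hR : R hQ M z (κ₁ • p') := by
    refine R_of_mem hQ hQz hY (g := ρ₂ * ρ⁻¹) (M.mul_mem hρ₂ (M.inv_mem hρ)) (fun v => ?_)
    obtain ⟨w, hw⟩ : ∃ w, w = ρ⁻¹ ⋆ v := ⟨_, rfl⟩
    have hvw : v = ρ ⋆ w := by rw [hw, mulVec_inv_GL]
    rw [mulVec_mul_GL, ← hw, hρ₂', polar_add_right, siegelLin_apply, hvw, hρ', Q_sm, hQp']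
    simp only [polar_add_left, polar_sm_l, polar_sm_r, hpz, hp'z, polar_self_zero hQp', hpp']
    generalize polar Q w p = P₁
    generalize polar Q w p' = P₂
    generalize polar Q w z = P₃
    have e1 : κ₁ * (P₂ + κ₀ * P₂ * 1 + κ₁ * P₁ * 0) = -κ₀ * P₂ := by
      have e2 : κ₀ = μ ^ 2 - 1 := hκ₀
      have : κ₁ * (P₂ + κ₀ * P₂ * 1 + κ₁ * P₁ * 0) = κ₁ * (μ ^ 2 * P₂) := by
        rw [e2]
        ring
      rw [this]
      linear_combination P₂ * hκκ
    rw [e1]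
    module
  have hz0 : z ≠ 0 := by
    rw [hz]
    exact smul_ne_zero hκ₀0 hA
  have hzm : z ∈ D m := by
    rw [hz]
    exact (D m).smul_mem _ hAm
  have hp'0 : p' ≠ 0 := by
    rw [hp']
    refine GL_ne x ?_
    rintro rfl
    rw [polar_zero_right] at hef
    exact zero_ne_one hef
  obtain ⟨l, hl⟩ := exists_pr_ne (Env.dc E) hp'0
  have hlm : l ≠ m := by
    rintro rfl
    exact hl hA'
  refine Env.finish_pure E hT ht hzm hz0 hQz hR hlm ?_
  rw [pr_smul]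
  exact smul_ne_zero hκ₁0 hl

/-- The components of the two images are non-zero multiples of a singular vector. -/
theorem Env.crit (hT : Ty2 Q D) (ht : 3 ≤ t) (h7 : 7 ≤ Fintype.card F) (hS : H97WD.Star Q D M) {x : GL ι F} (hx : x ∈ M) (hxH : x ∉ decompositionStabilizer D)
    {i : Fin t} {e f : ι → F} (he : e ∈ D i) (hf : f ∈ D i) (hQe : Q e = 0) (hQf : Q f = 0) (hef : polar Q e f = 1) {m : Fin t} {w₀ : ι → F} (hw₀ : w₀ ∈ D m)
    (hw₀0 : w₀ ≠ 0) (hQw₀ : Q w₀ = 0) {A₁ A₂ : F} (h1 : A₁ ≠ 0) (h2 : A₂ ≠ 0) (hA : πₑ m (x ⋆ e) = A₁ • w₀) (hA' : πₑ m (x ⋆ f) = A₂ • w₀) : omegaGL ⇑Q ≤ M := by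
  classical
  obtain ⟨μ, hμ0, hμ1⟩ := Cfsg.Agent.Lib.OmBlk2.exists_mu (F := F) (by omega)
  have hQ1 : ∀ α β : F, Q (α • e + β • f) = α * β := by
    intro α β
    rw [Q_ad, Q_sm, Q_sm, hQe, hQf, polar_sm_l, polar_sm_r, hef]
    ring
  obtain ⟨a₀, ha₀⟩ : ∃ a₀, a₀ = A₂ • e + (-A₁) • f := ⟨_, rfl⟩
  obtain ⟨a', ha'⟩ : ∃ a', a' = (μ * A₂) • e + (-(μ⁻¹ * A₁)) • f := ⟨_, rfl⟩
  have hQa₀ : Q a₀ = -(A₂ * A₁) := by
    rw [ha₀, hQ1]
    ring
  have hQa' : Q a' = -(A₂ * A₁) := by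
    rw [ha', hQ1]
    field_simp
  have hne : -(A₂ * A₁) ≠ 0 := neg_ne_zero.2 (mul_ne_zero h2 h1)
  have ha₀m : a₀ ∈ D i := by
    rw [ha₀]
    exact (D i).add_mem ((D i).smul_mem _ he) ((D i).smul_mem _ hf)
  have ha'm : a' ∈ D i := by
    rw [ha']
    exact (D i).add_mem ((D i).smul_mem _ he) ((D i).smul_mem _ hf)
  have hCl0 : Cl Q M a₀ a' := Env.cl_block E ha₀m ha'm (by rw [hQa₀, hQa']) (by rw [hQa₀]; exact hne)
  have hCl1 := Cl.conj (Env.iso E hx) hx hCl0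
  obtain ⟨v₀, hv₀⟩ : ∃ v₀, v₀ = x ⋆ a₀ := ⟨_, rfl⟩
  obtain ⟨v, hv⟩ : ∃ v, v = x ⋆ a' := ⟨_, rfl⟩
  rw [← hv₀, ← hv] at hCl1
  have hpr0 : πₑ m v₀ = 0 := by
    rw [hv₀, ha₀, Matrix.mulVec_add, Matrix.mulVec_smul, Matrix.mulVec_smul, pr_add, pr_smul, pr_smul, hA, hA']
    module
  obtain ⟨c, hc⟩ : ∃ c, c = (μ - μ⁻¹) * A₁ * A₂ := ⟨_, rfl⟩
  have hpr : πₑ m v = c • w₀ := by
    rw [hv, ha', Matrix.mulVec_add, Matrix.mulVec_smul, Matrix.mulVec_smul, pr_add, pr_smul, pr_smul, hA, hA', hc]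
    module
  have hc0 : c ≠ 0 := by
    rw [hc]
    refine mul_ne_zero (mul_ne_zero ?_ h1) h2
    intro h
    apply hμ1
    have : μ = μ⁻¹ := sub_eq_zero.1 h
    calc μ ^ 2 = μ * μ := _root_.sq μ
      _ = μ * μ⁻¹ := by rw [← this]
      _ = 1 := mul_inv_cancel₀ hμ0
  obtain ⟨f₀, hf₀, hQf₀, hwf₀⟩ := exists_partner hQ ((Env.dc E).hp m) hw₀ hw₀0 hQw₀
  obtain ⟨τ, hτ, hτ'⟩ := Env.rot E hw₀ hf₀ hQw₀ hQf₀ hwf₀ hμ0
  have hτM := E.hHM hτ
  have hτv₀ : τ ⋆ v₀ = v₀ := by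
    rw [hτ', polar_of_pr (Env.dc E) hpr0 hf₀, polar_of_pr (Env.dc E) hpr0 hw₀]
    module
  have hvf₀ : polar Q v f₀ = c := by
    rw [polar_pr (Env.dc E) v hf₀, hpr, polar_sm_l, hwf₀, mul_one]
  have hvw₀ : polar Q v w₀ = 0 := by
    rw [polar_pr (Env.dc E) v hw₀, hpr, polar_sm_l, polar_self_zero hQw₀, mul_zero]
  obtain ⟨z, hz⟩ : ∃ z, z = (-((μ ^ 2 - 1) * c)) • w₀ := ⟨_, rfl⟩
  have hτv : τ ⋆ v = v - z := by
    rw [hτ', hvf₀, hvw₀, hz]
    module
  have hCl2 := Cl.conj (Env.iso E hτM) hτM hCl1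
  rw [hτv₀, hτv] at hCl2
  have hCl3 := hCl1.symm.trans hCl2
  have hQz : Q z = 0 := by rw [hz, Q_sm, hQw₀, mul_zero]
  have hvz : polar Q v z = 0 := by rw [hz, polar_sm_r, hvw₀, mul_zero]
  have hR := siegel_of_Cl (hQ := hQ) hCl3 hQz hvz
  have hz0 : z ≠ 0 := by
    rw [hz]
    exact smul_ne_zero (neg_ne_zero.2 (mul_ne_zero (sub_ne_zero.2 hμ1) hc0)) hw₀0
  have hzm : z ∈ D m := by
    rw [hz]
    exact (D m).smul_mem _ hw₀
  have hvm : v ∉ D m := by
    intro h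
    apply hxH
    rw [hv] at h
    exact hS x hx i m a' ha'm (by rw [hQa']; exact hne) h
  obtain ⟨l, hlm, hl⟩ := exists_pr_other (Env.dc E) hvm
  refine Env.finish_pure E hT ht hzm hz0 hQz hR hlm ?_
  rw [pr_smul]
  exact smul_ne_zero (neg_ne_zero.2 (inv_ne_zero hCl3.2.1)) hl

/-- The case where elements of `M` with a block vector going to a block vector stabilise the decomposition. -/
theorem Env.case1_k2 (hT : Ty2 Q D) (ht : 7 ≤ t) (hS : H97WD.Star Q D M) {x : GL ι F} (hx : x ∈ M) (hxH : x ∉ decompositionStabilizer D) :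
    omegaGL ⇑Q ≤ M := by
  classical
  let i : Fin t := ⟨0, by omega⟩
  rcases hT with ⟨hm, hq⟩ | ⟨hP, h7⟩
  · exfalso
    have hT' : Ty2 Q D := Or.inl ⟨hm, hq⟩
    obtain ⟨a, ha, hQa⟩ := Env.value E i (one_ne_zero (α := F))
    refine Env.good5 E hT' ht hS hx hxH ha (by rw [hQa]; exact one_ne_zero) (S := Finset.univ) (by simp; omega) (fun l _ => ?_)
    by_cases h : πₑ l (x ⋆ a) = 0
    · exact Or.inl h
    · exact Or.inr (hm l _ (pr_mem _ _ _) h)
  · have hT' : Ty2 Q D := Or.inr ⟨hP, h7⟩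
    obtain ⟨e, he, f, hf, hQe, hQf, hef⟩ := hP i
    have hfe : polar Q f e = 1 := by rw [polar_comm]; exact hef
    by_cases hdeg : ∃ m, (πₑ m (x ⋆ e) ≠ 0 ∨ πₑ m (x ⋆ f) ≠ 0) ∧ Q (πₑ m (x ⋆ e)) = 0 ∧ Q (πₑ m (x ⋆ f)) = 0 ∧ polar Q (πₑ m (x ⋆ e)) (πₑ m (x ⋆ f)) = 0
    · obtain ⟨m, h0, h1, h2, h3⟩ := hdeg
      by_cases hA : πₑ m (x ⋆ e) = 0
      · have hA' : πₑ m (x ⋆ f) ≠ 0 := by
          rcases h0 with h0 | h0
          · exact absurd hA h0
          · exact h0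
        exact Env.rot_trick E hT' (by omega) h7 hf he hQf hQe hfe hx hA' h2 hA
      by_cases hA' : πₑ m (x ⋆ f) = 0
      · exact Env.rot_trick E hT' (by omega) h7 he hf hQe hQf hef hx hA h1 hA'
      obtain ⟨s, hs⟩ := perp_mul hQ ((Env.dc E).hp m) (Env.hfin E m) (pr_mem (Env.dc E) m (x ⋆ e)) (pr_mem (Env.dc E) m (x ⋆ e)) (pr_mem (Env.dc E) m (x ⋆ f)) hA hA
        (polar_self_zero h1) (by rw [polar_comm]; exact h3)
      have hs0 : s ≠ 0 := by
        rintro rfl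
        rw [zero_smul] at hs
        exact hA' hs
      exact Env.crit E hT' (by omega) h7 hS hx hxH he hf hQe hQf hef (pr_mem (Env.dc E) m (x ⋆ e)) hA h1 one_ne_zero hs0 (by rw [one_smul]) hs
    · exfalso
      push Not at hdeg
      obtain ⟨A, hAdef⟩ : ∃ A : Fin t → ι → F, A = fun m => πₑ m (x ⋆ e) := ⟨_, rfl⟩
      obtain ⟨A', hA'def⟩ : ∃ A' : Fin t → ι → F, A' = fun m => πₑ m (x ⋆ f) := ⟨_, rfl⟩
      have hAe : ∀ m, πₑ m (x ⋆ e) = A m := fun m => by rw [hAdef]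
      have hA'e : ∀ m, πₑ m (x ⋆ f) = A' m := fun m => by rw [hA'def]
      simp only [hAe, hA'e] at hdeg
      have hQexp : ∀ (m : Fin t) (μ : F), Q (A m + μ • A' m) = Q (A m) + polar Q (A m) (A' m) * μ + Q (A' m) * μ ^ 2 := by
        intro m μ
        rw [Q_ad, Q_sm, polar_sm_r]
        ring
      -- the bad pairs
      let bad : F → Fin t → Prop := fun μ m => A m + μ • A' m ≠ 0 ∧ Q (A m + μ • A' m) = 0
      let Μ : Finset F := Finset.univ.filter (fun μ => μ ≠ 0)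
      have hMcard : 6 ≤ Μ.card := by
        change 6 ≤ (Finset.univ.filter (fun μ : F => μ ≠ 0)).card
        have hc := Finset.card_filter_add_card_filter_not (s := (Finset.univ : Finset F)) (fun μ : F => μ ≠ 0)
        rw [Finset.card_univ] at hc
        have h3 : (Finset.univ.filter (fun μ : F => ¬ μ ≠ 0)).card ≤ 1 := by
          refine Finset.card_le_one.2 (fun a ha b hb => ?_)
          simp only [Finset.mem_filter, Finset.mem_univ, true_and, not_not] at ha hb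
          rw [ha, hb]
        omega
      have hbadcard : ∀ m, (Μ.filter (fun μ => bad μ m)).card ≤ 2 := by
        intro m
        by_cases hall : Q (A m) = 0 ∧ polar Q (A m) (A' m) = 0 ∧ Q (A' m) = 0
        · have h3 : A m = 0 ∧ A' m = 0 := by
            by_contra hcon
            have h4 : A m ≠ 0 ∨ A' m ≠ 0 := by
              by_contra h5
              push Not at h5
              exact hcon h5
            exact hdeg m h4 hall.1 hall.2.2 hall.2.1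
          have h5 : Μ.filter (fun μ => bad μ m) = ∅ := by
            refine Finset.filter_eq_empty_iff.2 (fun μ _ h => h.1 ?_)
            rw [h3.1, h3.2]
            simp
          rw [h5]
          simp
        · have h3 := quad_roots_card (A := Q (A m)) (B := polar Q (A m) (A' m)) (C := Q (A' m)) hall
          refine le_trans (Finset.card_le_card ?_) h3
          intro μ hμ
          have h5 := (Finset.mem_filter.1 hμ).2.2
          rw [hQexp] at h5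
          simp only [Finset.mem_filter, Finset.mem_univ, true_and]
          exact h5
      have hdc := Finset.sum_card_bipartiteAbove_eq_sum_card_bipartiteBelow (s := Μ) (t := (Finset.univ : Finset (Fin t))) bad
      have hup : ∑ m : Fin t, (Finset.bipartiteBelow bad Μ m).card ≤ 2 * t := by
        calc ∑ m : Fin t, (Finset.bipartiteBelow bad Μ m).card ≤ ∑ m : Fin t, 2 := Finset.sum_le_sum (fun m _ => hbadcard m)
          _ = 2 * t := by simp [mul_comm]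
      obtain ⟨μ, hμM, hμ⟩ : ∃ μ ∈ Μ, (Finset.bipartiteAbove bad (Finset.univ : Finset (Fin t)) μ).card < t - 4 := by
        by_contra hcon
        push Not at hcon
        have h3 := Finset.card_nsmul_le_sum Μ (fun μ => (Finset.bipartiteAbove bad (Finset.univ : Finset (Fin t)) μ).card) (t - 4) hcon
        rw [hdc] at h3
        have h4 := h3.trans hup
        rw [smul_eq_mul] at h4
        have h5 : 6 * (t - 4) ≤ Μ.card * (t - 4) := Nat.mul_le_mul_right _ hMcard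
        omega
      have hμ0 : μ ≠ 0 := (Finset.mem_filter.1 hμM).2
      have hQa : Q (e + μ • f) = μ := by
        rw [Q_ad, Q_sm, hQe, hQf, polar_sm_r, hef]
        ring
      refine Env.good5 E hT' ht hS hx hxH (a := e + μ • f) ((D i).add_mem he ((D i).smul_mem _ hf)) (by rw [hQa]; exact hμ0)
        (S := Finset.univ.filter (fun m => ¬ bad μ m)) ?_ ?_
      · have hc := Finset.card_filter_add_card_filter_not (s := (Finset.univ : Finset (Fin t))) (fun m => bad μ m)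
        rw [Finset.card_univ, Fintype.card_fin] at hc
        have h3 : (Finset.bipartiteAbove bad (Finset.univ : Finset (Fin t)) μ) = Finset.univ.filter (fun m => bad μ m) := rfl
        rw [h3] at hμ
        omega
      · intro l hl
        have h3 := (Finset.mem_filter.1 hl).2
        have e1 : πₑ l (x ⋆ (e + μ • f)) = A l + μ • A' l := by
          rw [Matrix.mulVec_add, Matrix.mulVec_smul, pr_add, pr_smul, hAe, hA'e]
        rw [e1]
        by_cases h4 : A l + μ • A' l = 0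
        · exact Or.inl h4
        · exact Or.inr (fun h5 => h3 ⟨h4, h5⟩)

/-- The main theorem for `M`. -/
theorem Env.main_k2 (hT : Ty2 Q D) (ht : 7 ≤ t) {x : GL ι F} (hx : x ∈ M) (hxH : x ∉ decompositionStabilizer D) : omegaGL ⇑Q ≤ M := by
  classical
  by_cases hS : H97WD.Star Q D M
  · exact Env.case1_k2 E hT ht hS hx hxH
  · unfold H97WD.Star at hS
    push Not at hS
    obtain ⟨g, hg, i, l, a, ha, hQa, hal, hgH⟩ := hS
    by_cases hall : ∀ l', ∀ b ∈ D l', Q b = Q a → ∃ l'', g ⋆ b ∈ D l''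
    · exact absurd (Env.stab_k2 E hT (Env.iso E hg) hQa hall) hgH
    · push Not at hall
      obtain ⟨l', b, hb, hQb, hno⟩ := hall
      have hcl : Cl Q M b a := Env.cl_block E hb ha hQb (by rw [hQb]; exact hQa)
      exact Env.case2_k2 E hT ht hal (Cl.conj (Env.iso E hg) hg hcl) hno

end Env

section Final

variable {t : ℕ} {D : Fin t → Submodule F (ι → F)}

/-- The maximality theorem for decompositions into planes. -/
theorem blocks_max_k2 (hQ : Nondeg Q) (h11 : 11 ≤ Fintype.card ι) (hD : IsOrthogonalMDecomposition ⇑Q 2 D) (hT : Ty2 Q D) (ht : 7 ≤ t) :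
    IsMaximalIn (omegaGL ⇑Q) (decompositionStabilizer D ⊓ omegaGL ⇑Q) := by
  classical
  have hfin := hD.decomp.decomp.finrank_eq
  have C := dc_of hQ hD
  let i₀ : Fin t := ⟨0, by omega⟩
  let i₁ : Fin t := ⟨1, by omega⟩
  let i₂ : Fin t := ⟨2, by omega⟩
  have h01 : i₀ ≠ i₁ := by
    intro h
    have := congrArg Fin.val h
    simp [i₀, i₁] at this
  have h02 : i₀ ≠ i₂ := by
    intro h
    have := congrArg Fin.val h
    simp [i₀, i₂] at this
  have h12 : i₁ ≠ i₂ := by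
    intro h
    have := congrArg Fin.val h
    simp [i₁, i₂] at this
  refine ⟨?_, ?_⟩
  · obtain ⟨a, ha, hQa⟩ := value_in hQ ((dc_of hQ hD).hp i₀) (by rw [hfin]) (one_ne_zero (α := F))
    obtain ⟨a', ha', hQa'⟩ := value_in hQ ((dc_of hQ hD).hp i₁) (by rw [hfin]) (neg_ne_zero.2 (one_ne_zero (α := F)))
    have hQe : Q (a + a') = 0 := by
      rw [Q_ad, hQa, hQa', polar_orth (dc_of hQ hD) h01 ha ha']
      ring
    refine Cfsg.Agent.Lib.H97WE.H_lt hQ h11 hD (by omega) (e := a + a') (j := i₂) ?_ hQe ?_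
    · intro h
      have h3 := congrArg (pr (dc_of hQ hD) i₀) h
      rw [pr_add, pr_zero, pr_other (dc_of hQ hD) (Ne.symm h01) ha', add_zero, pr_of_mem (dc_of hQ hD) ha] at h3
      rw [h3, map_zero] at hQa
      exact zero_ne_one hQa
    · rw [pr_add, pr_other (dc_of hQ hD) h02 ha, pr_other (dc_of hQ hD) h12 ha', add_zero]
  · intro M hHM hMK
    by_cases hMH : M = decompositionStabilizer D ⊓ omegaGL ⇑Q
    · exact Or.inl hMH
    right
    refine le_antisymm hMK ?_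
    have E : Env hQ 2 D M := ⟨h11, hD, by omega, hHM, hMK⟩
    obtain ⟨g, hg, hgH⟩ : ∃ g ∈ M, g ∉ decompositionStabilizer D ⊓ omegaGL ⇑Q := by
      by_contra hcon
      push Not at hcon
      exact hMH (le_antisymm hcon hHM)
    exact Env.main_k2 E hT ht hg (fun h => hgH ⟨h, hMK hg⟩)

end Final

end Cfsg.Agent.Lib.H97WK
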