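import Mathlib
import Cfsg.Agent.Lib.H97WK
import Cfsg.Agent.Lib.H97WE

/-!
# Orthogonal decompositions with blocks of dimension at least two: the maximality theorem
-/

set_option autoImplicit false
set_option linter.unusedSectionVars false
set_option linter.unusedVariables false

namespace Cfsg.Agent.Lib.H97WL

open Matrix QuadraticMap Cfsg Cfsg.Geo Module
open Cfsg.Agent.Lib.OrthoBasic Cfsg.Agent.Lib.OrthoSiegel Cfsg.Agent.Lib.OmCalc Cfsg.Agent.Lib.TvGL
  Cfsg.Agent.Lib.OmPerp Cfsg.Agent.Lib.OmNd Cfsg.Agent.Lib.OmK Cfsg.Agent.Lib.OmPair Cfsg.Agent.Lib.OmBlk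
  Cfsg.Agent.Lib.H97WA Cfsg.Agent.Lib.H97WB Cfsg.Agent.Lib.H97WC Cfsg.Agent.Lib.H97WD Cfsg.Agent.Lib.H97WF
  Cfsg.Agent.Lib.H97WG Cfsg.Agent.Lib.H97WH Cfsg.Agent.Lib.H97WI Cfsg.Agent.Lib.H97WJ Cfsg.Agent.Lib.H97WK
open Cfsg.Agent.Lib.QuadFF (polar_sm_r polar_sm_l Q_ad Q_sm IsHyp ND restr polar_restr exists_singular)

variable {ι : Type} [Fintype ι] [DecidableEq ι] {F : Type*} [Field F] [Fintype F]
  {Q : QuadraticForm F (ι → F)}

/-- Plus type is preserved by isometries. -/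
theorem plus_transfer {W W' : Submodule F (ι → F)} (h : AreIsometricFor ⇑Q W W') (hW : IsPlusTypeOn ⇑Q W) : IsPlusTypeOn ⇑Q W' := by
  obtain ⟨φ, hφ⟩ := h
  obtain ⟨U, hUW, hU, hdim⟩ := hW
  refine ⟨((U.comap W.subtype).map φ.toLinearMap).map W'.subtype, ?_, ?_, ?_⟩
  · rintro _ ⟨_, ⟨x, -, rfl⟩, rfl⟩
    exact (φ x).2
  · rintro _ ⟨_, ⟨x, hx, rfl⟩, rfl⟩
    have := hφ x
    simp only [Submodule.subtype_apply, LinearEquiv.coe_coe]
    rw [this]
    exact hU _ hx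
  · have h1 : finrank F ↥(((U.comap W.subtype).map φ.toLinearMap).map W'.subtype) = finrank F ↥(U.comap W.subtype) := by
      rw [Submodule.finrank_map_subtype_eq]
      exact LinearEquiv.finrank_map_eq φ _
    have h2 : finrank F ↥(U.comap W.subtype) = finrank F U := by
      rw [← Submodule.finrank_map_subtype_eq W, Submodule.map_comap_subtype, inf_eq_right.2 hUW]
    rw [h1, h2, hdim]
    exact LinearEquiv.finrank_eq φ

/-- A singular vector in a plane gives plus type. -/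
theorem plus_of_sing {W : Submodule F (ι → F)} (hW : finrank F W = 2) {e : ι → F} (he : e ∈ W) (he0 : e ≠ 0) (hQe : Q e = 0) : IsPlusTypeOn ⇑Q W := by
  refine ⟨Submodule.span F {e}, ?_, ?_, ?_⟩
  · rw [Submodule.span_singleton_le_iff_mem]
    exact he
  · intro w hw
    obtain ⟨c, rfl⟩ := Submodule.mem_span_singleton.1 hw
    rw [Q_sm, hQe, mul_zero]
  · rw [finrank_span_singleton he0, hW]

theorem card_ne_six : Fintype.card F ≠ 6 := by
  intro h
  have h1 := Fintype.isPrimePow_card_of_field (α := F)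
  rw [h] at h1
  exact absurd h1 (by decide)

/-- The maximality theorem for orthogonal decompositions. -/
theorem main_all {t k : ℕ} {D : Fin t → Submodule F (ι → F)} (hQ : Nondeg Q) (h13 : 13 ≤ Fintype.card ι) (hD : IsOrthogonalMDecomposition ⇑Q k D)
    (hk : 2 ≤ k) (hk2 : k = 2 → Fintype.card F ≠ 3 ∧ ((∃ l, IsPlusTypeOn ⇑Q (D l)) → Fintype.card F ≠ 2 ∧ Fintype.card F ≠ 4 ∧ Fintype.card F ≠ 5))
    (hk3 : k = 3 → Fintype.card F ≠ 3 ∧ Odd (Fintype.card F)) (hk4 : k = 4 → Fintype.card F = 2 → ∀ l, ¬ IsPlusTypeOn ⇑Q (D l)) :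
    IsMaximalIn (omegaGL ⇑Q) (decompositionStabilizer D ⊓ omegaGL ⇑Q) := by
  classical
  have h11 : 11 ≤ Fintype.card ι := by omega
  have hmul := Cfsg.Agent.Lib.OmBlk5.mul_card hD.decomp.decomp
  by_cases h4 : 4 ≤ k
  · exact Cfsg.Agent.Lib.H97WE.blocks_max_ge4 hQ h11 hD h4 hk4
  by_cases h3 : k = 3
  · subst h3
    obtain ⟨hq, hodd⟩ := hk3 rfl
    have h2 : (2 : F) ≠ 0 := by
      intro h
      obtain ⟨r, hr⟩ := hodd
      have h1 : ((Fintype.card F : ℕ) : F) = 0 := FiniteField.cast_card_eq_zero F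
      rw [hr] at h1
      push_cast at h1
      rw [h, zero_mul, zero_add] at h1
      exact one_ne_zero h1
    refine Cfsg.Agent.Lib.H97WE.blocks_max_odd hQ h11 hodd h2 (by decide) (by omega) (by omega) hD ?_
    rintro ⟨h5, -⟩
    exact hq h5
  have h2 : k = 2 := by omega
  subst h2
  obtain ⟨hq, hplus⟩ := hk2 rfl
  have C := dc_of hQ hD
  have hfin := hD.decomp.decomp.finrank_eq
  have hT : Ty2 Q D := by
    by_cases hsing : ∃ l, ∃ e ∈ D l, e ≠ 0 ∧ Q e = 0
    · obtain ⟨l, e, he, he0, hQe⟩ := hsing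
      right
      obtain ⟨f, hf, hQf, hef⟩ := exists_partner hQ ((dc_of hQ hD).hp l) he he0 hQe
      refine ⟨fun l' => ?_, ?_⟩
      · obtain ⟨φ, hφ⟩ := hD.isometric l l'
        refine ⟨φ ⟨e, he⟩, (φ ⟨e, he⟩).2, φ ⟨f, hf⟩, (φ ⟨f, hf⟩).2, ?_, ?_, ?_⟩
        · rw [hφ]
          exact hQe
        · rw [hφ]
          exact hQf
        · rw [Cfsg.Agent.Lib.OmBlk5.polar_isom φ hφ]
          exact hef
      · obtain ⟨h5, h6, h7⟩ := hplus ⟨l, plus_of_sing (hfin l) he he0 hQe⟩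
        have h8 : Fintype.card F ≠ 6 := card_ne_six
        have h9 : 1 < Fintype.card F := Fintype.one_lt_card
        omega
    · left
      push Not at hsing
      exact ⟨fun l x hx hx0 => hsing l x hx hx0, hq⟩
  exact blocks_max_k2 hQ h11 hD hT (by omega)

end Cfsg.Agent.Lib.H97WL
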