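import Cfsg.Agent.Lib.H97Wreath

/-!
Tensor powers of two-dimensional spaces carry a form: the tensor power of the determinant form.
-/

set_option autoImplicit false
set_option linter.unusedSectionVars false
set_option linter.style.haveILetI false

namespace Cfsg.Agent.H97.Asch

open Matrix Cfsg Cfsg.Geo
open scoped MatrixGroups Kronecker

variable {F : Type*} [Field F] {t : ℕ}

/-- the determinant form on the plane -/
def detJ : Matrix (Fin 2) (Fin 2) F := !![0, 1; -1, 0]

theorem detJ_conj (A : Matrix (Fin 2) (Fin 2) F) : Aᵀ * detJ * A = A.det • detJ := by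
  ext i j
  fin_cases i <;> fin_cases j <;>
    simp [detJ, Matrix.mul_apply, Fin.sum_univ_two, Matrix.det_fin_two] <;> ring

theorem detJ_transpose (a b : Fin 2) : (detJ : Matrix (Fin 2) (Fin 2) F) b a = - (detJ : Matrix (Fin 2) (Fin 2) F) a b := by
  fin_cases a <;> fin_cases b <;> simp [detJ]

theorem detJ_diag (a : Fin 2) : (detJ : Matrix (Fin 2) (Fin 2) F) a a = 0 := by
  fin_cases a <;> simp [detJ]

theorem detJ_swap_ne (a : Fin 2) : (detJ : Matrix (Fin 2) (Fin 2) F) (Equiv.swap 0 1 a) a ≠ 0 := by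
  fin_cases a <;> simp [detJ, Equiv.swap_apply_def]

theorem detJ_zero_of_ne {a b : Fin 2} (h : b ≠ Equiv.swap 0 1 a) : (detJ : Matrix (Fin 2) (Fin 2) F) b a = 0 := by
  fin_cases a <;> fin_cases b <;> simp_all [detJ, Equiv.swap_apply_def]

/-- the Gram matrix of the tensor power form -/
def gramJ (t : ℕ) : Matrix (Fin t → Fin 2) (Fin t → Fin 2) F := pureM fun _ => detJ

/-- the tensor power form -/
def formJ (t : ℕ) (u v : (Fin t → Fin 2) → F) : F := u ⬝ᵥ (gramJ t *ᵥ v)

theorem pureM_transpose {m : ℕ} (A : Fin t → Matrix (Fin m) (Fin m) F) : (pureM A)ᵀ = pureM fun i => (A i)ᵀ := by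
  ext x y
  simp [pureM_apply, Matrix.transpose_apply]

theorem formJ_mulVec (t : ℕ) (G : Matrix (Fin t → Fin 2) (Fin t → Fin 2) F) (u v : (Fin t → Fin 2) → F) :
    formJ t (G *ᵥ u) (G *ᵥ v) = u ⬝ᵥ ((Gᵀ * gramJ t * G) *ᵥ v) := by
  simp only [formJ]
  rw [← Matrix.mulVec_mulVec, ← Matrix.mulVec_mulVec, Matrix.dotProduct_mulVec u Gᵀ, Matrix.vecMul_transpose]

/-- the standard tensor wreath product in dimension `2 ^ t` preserves the form up to scalars. -/
theorem wreath2_le_sim (t : ℕ) : tensorWreathStandard 2 t F ≤ similarityGroup (formJ t) := by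
  classical
  rw [tensorWreathStandard, Subgroup.closure_le]
  rintro g (⟨gs, hg⟩ | ⟨σ, hg⟩)
  · have hG : (g : Matrix (Fin t → Fin 2) (Fin t → Fin 2) F) = pureM fun i => (gs i : Matrix (Fin 2) (Fin 2) F) := by
      ext x y
      exact hg x y
    have hdet : ∀ i, ((gs i : Matrix (Fin 2) (Fin 2) F)).det ≠ 0 := fun i =>
      ((Matrix.isUnit_iff_isUnit_det _).mp (gs i).isUnit).ne_zero
    let c : Fˣ := Units.mk0 (∏ i, ((gs i : Matrix (Fin 2) (Fin 2) F)).det) (Finset.prod_ne_zero_iff.mpr fun i _ => hdet i)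
    refine ⟨c, fun u v => ?_⟩
    rw [formJ_mulVec, hG, pureM_transpose]
    have key : (pureM fun i => (gs i : Matrix (Fin 2) (Fin 2) F)ᵀ) * gramJ t * (pureM fun i => (gs i : Matrix (Fin 2) (Fin 2) F)) =
        (c : F) • gramJ t := by
      rw [gramJ, pureM_mul, pureM_mul]
      ext x y
      simp only [pureM_apply, Matrix.smul_apply, smul_eq_mul, Pi.mul_apply]
      simp only [detJ_conj, Matrix.smul_apply, smul_eq_mul]
      rw [Finset.prod_mul_distrib]
      rfl
    rw [key, Matrix.smul_mulVec, dotProduct_smul, smul_eq_mul]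
    rfl
  · have hG : (g : Matrix (Fin t → Fin 2) (Fin t → Fin 2) F) = permM σ := by
      ext x y
      exact hg x y
    refine ⟨1, fun u v => ?_⟩
    rw [formJ_mulVec, hG]
    have h1 : (permM σ : Matrix (Fin t → Fin 2) (Fin t → Fin 2) F)ᵀ = permM σ⁻¹ := by
      ext x y
      rw [Matrix.transpose_apply, permM_apply, permM_apply]
      have : (x = y ∘ σ) ↔ (y = x ∘ (σ⁻¹ : Equiv.Perm (Fin t))) := by
        constructor
        · rintro rfl
          funext i
          simp
        · rintro rfl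
          funext i
          simp
      simp only [this]
    have h2 : gramJ t * (permM σ : Matrix (Fin t → Fin 2) (Fin t → Fin 2) F) = permM σ * gramJ t := by
      have := permM_pureM (F := F) σ (fun _ => detJ)
      rw [gramJ, this]
      rfl
    rw [h1, Matrix.mul_assoc, h2, ← Matrix.mul_assoc, permM_mul, inv_mul_cancel, permM_one, Matrix.one_mul]
    simp [formJ]

theorem gramJ_symm (t : ℕ) (x y : Fin t → Fin 2) :
    (gramJ t : Matrix (Fin t → Fin 2) (Fin t → Fin 2) F) y x = (-1) ^ t * (gramJ t : Matrix (Fin t → Fin 2) (Fin t → Fin 2) F) x y := by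
  simp only [gramJ, pureM_apply]
  rw [Finset.prod_congr rfl (fun i _ => detJ_transpose (F := F) (x i) (y i))]
  rw [Finset.prod_neg, Finset.card_univ, Fintype.card_fin]

theorem gramJ_diag (ht : t ≠ 0) (x : Fin t → Fin 2) : (gramJ t : Matrix (Fin t → Fin 2) (Fin t → Fin 2) F) x x = 0 := by
  simp only [gramJ, pureM_apply]
  have : NeZero t := ⟨ht⟩
  exact Finset.prod_eq_zero (Finset.mem_univ (0 : Fin t)) (detJ_diag _)

theorem formJ_bilinear (t : ℕ) : IsBilinearForm (F := F) (formJ t) where
  add_left x y v := by simp [formJ, add_dotProduct]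
  smul_left c x v := by simp [formJ, smul_dotProduct]
  add_right v x y := by simp [formJ, Matrix.mulVec_add, dotProduct_add]
  smul_right c v x := by simp [formJ, Matrix.mulVec_smul, dotProduct_smul]

theorem formJ_symm (t : ℕ) (u v : (Fin t → Fin 2) → F) : formJ t v u = (-1) ^ t * formJ t u v := by
  simp only [formJ, dotProduct, Matrix.mulVec, Finset.mul_sum]
  rw [Finset.sum_comm]
  refine Finset.sum_congr rfl fun x _ => Finset.sum_congr rfl fun y _ => ?_
  rw [gramJ_symm t x y]
  ring

theorem formJ_nondeg (t : ℕ) : IsNondegenerateForm (F := F) (formJ t) := by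
  classical
  have hright : ∀ v : (Fin t → Fin 2) → F, v ≠ 0 → ∃ x, formJ t x v ≠ 0 := by
    intro v hv
    obtain ⟨x₀, hx₀⟩ := Function.ne_iff.mp hv
    let y₀ : Fin t → Fin 2 := fun i => Equiv.swap 0 1 (x₀ i)
    refine ⟨Pi.single y₀ 1, ?_⟩
    simp only [formJ]
    rw [single_one_dotProduct]
    simp only [Matrix.mulVec, dotProduct]
    rw [Finset.sum_eq_single x₀]
    · apply mul_ne_zero _ hx₀
      simp only [gramJ, pureM_apply]
      exact Finset.prod_ne_zero_iff.mpr fun i _ => detJ_swap_ne (x₀ i)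
    · intro z _ hz
      obtain ⟨i, hi⟩ := Function.ne_iff.mp hz
      have : (gramJ t : Matrix (Fin t → Fin 2) (Fin t → Fin 2) F) y₀ z = 0 := by
        simp only [gramJ, pureM_apply]
        refine Finset.prod_eq_zero (Finset.mem_univ i) (detJ_zero_of_ne ?_)
        intro h
        apply hi
        have h2 : Equiv.swap (0 : Fin 2) 1 (x₀ i) = Equiv.swap 0 1 (z i) := h.symm ▸ rfl
        exact ((Equiv.swap (0 : Fin 2) 1).injective h2).symm
      rw [this, zero_mul]
    · simp
  intro v hv
  refine ⟨hright v hv, ?_⟩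
  obtain ⟨x, hx⟩ := hright v hv
  refine ⟨x, ?_⟩
  rw [formJ_symm t x v]
  refine mul_ne_zero (pow_ne_zero _ ?_) hx
  simp

theorem formJ_alt (ht : t ≠ 0) (hm : (-1 : F) ^ t = -1) (v : (Fin t → Fin 2) → F) : formJ t v v = 0 := by
  classical
  simp only [formJ, dotProduct, Matrix.mulVec, Finset.mul_sum]
  rw [← Finset.sum_product']
  apply Finset.sum_involution (fun p _ => (p.2, p.1))
  · rintro ⟨x, y⟩ _
    simp only
    rw [gramJ_symm t x y, hm]
    ring
  · rintro ⟨x, y⟩ _ hne heq
    simp only [Prod.mk.injEq] at heq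
    apply hne
    rw [← heq.1, gramJ_diag ht]
    simp
  · intro _ _
    simp
  · rintro ⟨x, y⟩ _
    rfl

/-- the tensor wreath product in dimension `2 ^ t` lies in a similarity group. -/
theorem wreath2_form [Fintype F] {ι : Type} [Fintype ι] [DecidableEq ι] (ht : t ≠ 0) (e : ι ≃ (Fin t → Fin 2)) (P : GL ι F) :
    (∃ f : (ι → F) → (ι → F) → F, IsSymplecticForm f ∧ tensorWreathSubgroup 2 t e P ≤ similarityGroup f) ∨
    (∃ Q : (ι → F) → F, IsNondegenerateQuadraticForm Q ∧ Odd (Fintype.card F) ∧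
      tensorWreathSubgroup 2 t e P ≤ quadSimilarityGroup Q) := by
  classical
  -- transport of vectors
  let τ : (ι → F) → ((Fin t → Fin 2) → F) := fun u x => (((P⁻¹ : GL ι F) : Matrix ι ι F) *ᵥ u) (e.symm x)
  have hτadd : ∀ u v, τ (u + v) = τ u + τ v := by
    intro u v
    funext x
    simp [τ, Matrix.mulVec_add]
  have hτsmul : ∀ (c : F) u, τ (c • u) = c • τ u := by
    intro c u
    funext x
    simp [τ, Matrix.mulVec_smul]
  have hτinj : Function.Injective τ := by
    intro u v h
    apply gl_mulVec_injective P⁻¹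
    funext i
    have := congrFun h (e i)
    simpa [τ] using this
  have hτsurj : Function.Surjective τ := by
    intro w
    refine ⟨(P : Matrix ι ι F) *ᵥ (fun i => w (e i)), ?_⟩
    funext x
    simp [τ]
  have hτact : ∀ g ∈ tensorWreathSubgroup 2 t e P, ∃ k ∈ tensorWreathStandard 2 t F, ∀ u,
      τ ((g : Matrix ι ι F) *ᵥ u) = (k : Matrix (Fin t → Fin 2) (Fin t → Fin 2) F) *ᵥ τ u := by
    rintro _ ⟨_, ⟨k, hk, rfl⟩, rfl⟩
    refine ⟨k, hk, fun u => ?_⟩
    funext x
    simp only [τ, MulEquiv.coe_toMonoidHom, MulAut.conj_apply]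
    rw [gl_mulVec_mul, gl_mulVec_mul, gl_inv_mulVec]
    simp only [Matrix.mulVec, dotProduct]
    rw [← e.symm.sum_comp]
    refine Finset.sum_congr rfl fun y _ => ?_
    rw [glReindex_apply]
    simp
  have hform := wreath2_le_sim (F := F) t
  have hbil := formJ_bilinear (F := F) t
  have hτ0 : ∀ v, v ≠ 0 → τ v ≠ 0 := by
    intro v hv h0
    apply hv
    apply hτinj
    rw [h0]
    funext x
    simp [τ]
  by_cases hm : (-1 : F) ^ t = -1
  · left
    refine ⟨fun u v => formJ t (τ u) (τ v), ⟨⟨?_, ?_, ?_, ?_⟩, ?_, ?_, ?_⟩, ?_⟩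
    · intro x y v
      simp only [hτadd, hbil.add_left]
    · intro c x v
      simp only [hτsmul, hbil.smul_left]
    · intro v x y
      simp only [hτadd, hbil.add_right]
    · intro c v x
      simp only [hτsmul, hbil.smul_right]
    · intro v w
      show formJ t (τ v) (τ w) = - formJ t (τ w) (τ v)
      rw [formJ_symm t (τ w) (τ v), hm]
      ring
    · intro v
      exact formJ_alt ht hm (τ v)
    · intro v hv
      obtain ⟨h1, h2⟩ := formJ_nondeg (F := F) t (τ v) (hτ0 v hv)
      obtain ⟨x, hx⟩ := h1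
      obtain ⟨y, hy⟩ := h2
      obtain ⟨x', rfl⟩ := hτsurj x
      obtain ⟨y', rfl⟩ := hτsurj y
      exact ⟨⟨x', hx⟩, ⟨y', hy⟩⟩
    · intro g hg
      obtain ⟨k, hk, hkτ⟩ := hτact g hg
      obtain ⟨c, hc⟩ := hform hk
      refine ⟨c, fun u v => ?_⟩
      show formJ t (τ _) (τ _) = _ * formJ t (τ u) (τ v)
      rw [hkτ, hkτ]
      exact hc _ _
  · right
    have ht2 : (-1 : F) ^ t = 1 := by
      rcases Nat.even_or_odd t with he | ho
      · exact he.neg_one_pow
      · exact absurd ho.neg_one_pow hm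
    have h2 : (2 : F) ≠ 0 := by
      intro h20
      apply hm
      rw [ht2]
      have : (1 : F) + 1 = 0 := by rw [← h20]; norm_num
      exact eq_neg_of_add_eq_zero_left this
    have hsym : ∀ u v, formJ (F := F) t u v = formJ t v u := by
      intro u v
      rw [formJ_symm t u v, ht2, one_mul]
    have hpolar : ∀ u v, QuadraticMap.polar (fun v : ι → F => formJ t (τ v) (τ v)) u v = 2 * formJ t (τ u) (τ v) := by
      intro u v
      simp only [QuadraticMap.polar, hτadd, hbil.add_left, hbil.add_right]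
      rw [hsym (τ v) (τ u)]
      ring
    refine ⟨fun v => formJ t (τ v) (τ v), ⟨?_, ⟨?_, ?_, ?_, ?_⟩, ?_⟩, ?_, ?_⟩
    · intro c v
      simp only [hτsmul, hbil.smul_left, hbil.smul_right]
      ring
    · intro x y v
      simp only [hpolar, hτadd, hbil.add_left]
      ring
    · intro c x v
      simp only [hpolar, hτsmul, hbil.smul_left]
      ring
    · intro v x y
      simp only [hpolar, hτadd, hbil.add_right]
      ring
    · intro c v x
      simp only [hpolar, hτsmul, hbil.smul_right]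
      ring
    · intro v hv
      obtain ⟨h3, h4⟩ := formJ_nondeg (F := F) t (τ v) (hτ0 v hv)
      obtain ⟨x, hx⟩ := h3
      obtain ⟨y, hy⟩ := h4
      obtain ⟨x', rfl⟩ := hτsurj x
      obtain ⟨y', rfl⟩ := hτsurj y
      refine ⟨⟨x', ?_⟩, ⟨y', ?_⟩⟩
      · rw [hpolar]
        exact mul_ne_zero h2 hx
      · rw [hpolar]
        exact mul_ne_zero h2 hy
    · -- odd cardinality
      obtain ⟨p, hp⟩ := CharP.exists F
      obtain ⟨e, hpp, hc⟩ := FiniteField.card F p
      by_contra hodd
      rw [Nat.not_odd_iff_even] at hodd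
      apply h2
      have h5 : 2 ∣ p ^ (e : ℕ) := by
        rw [← hc]
        exact hodd.two_dvd
      have h6 : 2 ∣ p := Nat.prime_two.dvd_of_dvd_pow h5
      have h7 : p = 2 := ((Nat.prime_dvd_prime_iff_eq Nat.prime_two hpp).mp h6).symm
      subst h7
      exact_mod_cast CharP.cast_eq_zero F 2
    · intro g hg
      obtain ⟨k, hk, hkτ⟩ := hτact g hg
      obtain ⟨c, hc⟩ := hform hk
      refine ⟨c, fun v => ?_⟩
      show formJ t (τ _) (τ _) = _ * formJ t (τ v) (τ v)
      rw [hkτ]
      exact hc _ _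

end Cfsg.Agent.H97.Asch
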