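import Cfsg.Agent.Lib.H97Tens

/-!
Tensor powers: pure tensors and permutations of factors; normalisers of the standard positions; commuting systems of
matrix algebras give a tensor power basis.
-/

set_option autoImplicit false
set_option linter.unusedSectionVars false
set_option linter.style.haveILetI false

namespace Cfsg.Agent.H97.Asch

open Matrix Cfsg Cfsg.Geo
open scoped MatrixGroups Kronecker

variable {F : Type*} [Field F] {t m : ℕ}

/-- the tensor product of `t` square matrices of size `m`. -/
def pureM (A : Fin t → Matrix (Fin m) (Fin m) F) : Matrix (Fin t → Fin m) (Fin t → Fin m) F :=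
  fun x y => ∏ i, A i (x i) (y i)

theorem pureM_apply (A : Fin t → Matrix (Fin m) (Fin m) F) (x y : Fin t → Fin m) :
    pureM A x y = ∏ i, A i (x i) (y i) := rfl

theorem pureM_mul (A B : Fin t → Matrix (Fin m) (Fin m) F) : pureM A * pureM B = pureM (A * B) := by
  classical
  ext x y
  rw [Matrix.mul_apply, pureM_apply]
  simp only [Pi.mul_apply, Matrix.mul_apply, pureM_apply]
  rw [Finset.prod_univ_sum, Fintype.piFinset_univ]
  exact Finset.sum_congr rfl fun z _ => (Finset.prod_mul_distrib).symm

theorem pureM_one : pureM (1 : Fin t → Matrix (Fin m) (Fin m) F) = 1 := by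
  classical
  ext x y
  rw [pureM_apply, Matrix.one_apply]
  by_cases h : x = y
  · subst h
    simp
  · rw [if_neg h]
    obtain ⟨i, hi⟩ := Function.ne_iff.mp h
    apply Finset.prod_eq_zero (Finset.mem_univ i)
    simp [Matrix.one_apply, hi]

/-- the `i`-th position. -/
def posM (i : Fin t) (M : Matrix (Fin m) (Fin m) F) : Matrix (Fin t → Fin m) (Fin t → Fin m) F :=
  pureM (Pi.mulSingle i M)

theorem posM_apply (i : Fin t) (M : Matrix (Fin m) (Fin m) F) (x y : Fin t → Fin m) :
    posM i M x y = M (x i) (y i) * ∏ j ∈ Finset.univ.erase i, (1 : Matrix (Fin m) (Fin m) F) (x j) (y j) := by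
  rw [posM, pureM_apply, ← Finset.mul_prod_erase _ _ (Finset.mem_univ i), Pi.mulSingle_eq_same]
  congr 1
  refine Finset.prod_congr rfl fun j hj => ?_
  rw [Pi.mulSingle_eq_of_ne (Finset.ne_of_mem_erase hj)]

theorem posM_mul (i : Fin t) (M N : Matrix (Fin m) (Fin m) F) : posM i (M * N) = posM i M * posM i N := by
  rw [posM, posM, posM, pureM_mul, Pi.mulSingle_mul]

theorem posM_one (i : Fin t) : posM i (1 : Matrix (Fin m) (Fin m) F) = 1 := by
  rw [posM, Pi.mulSingle_one, pureM_one]

theorem posM_add (i : Fin t) (M N : Matrix (Fin m) (Fin m) F) : posM i (M + N) = posM i M + posM i N := by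
  ext x y
  rw [Matrix.add_apply, posM_apply, posM_apply, posM_apply, Matrix.add_apply, add_mul]

theorem posM_smul (i : Fin t) (c : F) (M : Matrix (Fin m) (Fin m) F) : posM i (c • M) = c • posM i M := by
  ext x y
  rw [Matrix.smul_apply, posM_apply, posM_apply, Matrix.smul_apply, smul_eq_mul, smul_eq_mul, mul_assoc]

/-- the `i`-th position as a linear map -/
def posL (i : Fin t) : Matrix (Fin m) (Fin m) F →ₗ[F] Matrix (Fin t → Fin m) (Fin t → Fin m) F where
  toFun := posM i
  map_add' := posM_add i
  map_smul' := posM_smul i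

theorem posM_inj [NeZero m] (i : Fin t) {M N : Matrix (Fin m) (Fin m) F} (h : posM i M = posM i N) : M = N := by
  classical
  ext a c
  have key : ∀ P : Matrix (Fin m) (Fin m) F,
      posM i P (Function.update (fun _ => 0) i a) (Function.update (fun _ => 0) i c) = P a c := by
    intro P
    rw [posM_apply]
    simp only [Function.update_self]
    rw [Finset.prod_eq_one, mul_one]
    intro j hj
    have hj' : j ≠ i := Finset.ne_of_mem_erase hj
    rw [Function.update_of_ne hj', Function.update_of_ne hj', Matrix.one_apply_eq]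
  rw [← key M, ← key N, h]

/-- the inverse of a family -/
theorem pureM_inv (T : Fin t → GL (Fin m) F) :
    pureM (fun i => ((T i)⁻¹ : GL (Fin m) F).1) * pureM (fun i => (T i).1) = 1 := by
  rw [pureM_mul, ← pureM_one]
  congr 1
  funext i
  rw [Pi.mul_apply, ← Units.val_mul, inv_mul_cancel, Units.val_one, Pi.one_apply]

/-- a scalar as a matrix unit. -/
noncomputable def scalGL {κ : Type} [Fintype κ] [DecidableEq κ] (c : F) (hc : c ≠ 0) : GL κ F :=
  Units.map (Matrix.scalar κ : F →+* Matrix κ κ F).toMonoidHom (Units.mk0 c hc)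

theorem scalGL_val {κ : Type} [Fintype κ] [DecidableEq κ] (c : F) (hc : c ≠ 0) :
    ((scalGL c hc : GL κ F) : Matrix κ κ F) = c • 1 := by
  simp [scalGL, Matrix.smul_one_eq_diagonal]

/-- if `g` normalises all the positions, it is a pure tensor. -/
theorem isPureTensor_of_normalize [NeZero t] [NeZero m] (g : GL (Fin t → Fin m) F)
    (h : ∀ (i : Fin t) (M : Matrix (Fin m) (Fin m) F), ∃ M' : Matrix (Fin m) (Fin m) F,
      (g : Matrix (Fin t → Fin m) (Fin t → Fin m) F) * posM i M *
        ((g⁻¹ : GL (Fin t → Fin m) F) : Matrix (Fin t → Fin m) (Fin t → Fin m) F) = posM i M') :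
    IsPureTensor m t g := by
  classical
  set G : Matrix (Fin t → Fin m) (Fin t → Fin m) F := (g : Matrix (Fin t → Fin m) (Fin t → Fin m) F) with hG
  set Gi : Matrix (Fin t → Fin m) (Fin t → Fin m) F :=
    ((g⁻¹ : GL (Fin t → Fin m) F) : Matrix (Fin t → Fin m) (Fin t → Fin m) F) with hGi
  have hGG : Gi * G = 1 := by
    rw [hG, hGi, ← Units.val_mul, inv_mul_cancel, Units.val_one]
  have hGG' : G * Gi = 1 := mul_eq_one_comm.mp hGG
  choose φf hφf using h
  let φ : ∀ i : Fin t, Matrix (Fin m) (Fin m) F →ₐ[F] Matrix (Fin m) (Fin m) F := fun i =>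
    AlgHom.ofLinearMap
      { toFun := φf i
        map_add' := fun M N => by
          apply posM_inj i
          rw [← hφf, posM_add, Matrix.mul_add, Matrix.add_mul, hφf, hφf, posM_add]
        map_smul' := fun c M => by
          apply posM_inj i
          rw [← hφf, posM_smul, Matrix.mul_smul, Matrix.smul_mul, hφf, RingHom.id_apply, posM_smul] }
      (by
        apply posM_inj i
        show posM i (φf i 1) = _
        rw [← hφf, posM_one, Matrix.mul_one, hGG'])
      (fun M N => by
        apply posM_inj i
        show posM i (φf i (M * N)) = posM i (φf i M * φf i N)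
        rw [posM_mul, ← hφf, ← hφf, ← hφf, posM_mul]
        calc G * (posM i M * posM i N) * Gi = G * posM i M * (Gi * G) * posM i N * Gi := by
              rw [hGG]; simp only [Matrix.mul_one, Matrix.mul_assoc]
          _ = _ := by simp only [Matrix.mul_assoc])
  have hφ : ∀ i M, φ i M = φf i M := fun i M => rfl
  choose T hT using fun i => sn_matrix (φ i)
  let A : Matrix (Fin t → Fin m) (Fin t → Fin m) F := pureM fun i => (T i).1
  let Ai : Matrix (Fin t → Fin m) (Fin t → Fin m) F := pureM fun i => ((T i)⁻¹ : GL (Fin m) F).1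
  have hAAi : Ai * A = 1 := pureM_inv T
  have hAAi' : A * Ai = 1 := mul_eq_one_comm.mp hAAi
  set s : Matrix (Fin t → Fin m) (Fin t → Fin m) F := Ai * G with hs
  have hconjA : ∀ i M, posM i (φf i M) = A * posM i M * Ai := by
    intro i M
    simp only [A, Ai, posM]
    rw [pureM_mul, pureM_mul, ← hφ, hT]
    congr 1
    funext j
    by_cases hj : j = i
    · subst hj
      simp
    · simp only [Pi.mul_apply, Pi.mulSingle_eq_of_ne hj, Matrix.mul_one]
      rw [← Units.val_mul, mul_inv_cancel, Units.val_one]
  have hcomm : ∀ i M, posM i M * s = s * posM i M := by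
    intro i M
    have h1 : G * posM i M = posM i (φf i M) * G := by
      rw [← hφf i M, Matrix.mul_assoc _ Gi G, hGG, Matrix.mul_one]
    rw [hs, Matrix.mul_assoc Ai G, h1, hconjA]
    calc posM i M * (Ai * G) = (Ai * A) * posM i M * (Ai * G) := by
          rw [hAAi, Matrix.one_mul]
      _ = _ := by simp only [Matrix.mul_assoc]
  -- commutes with all pure tensors
  have hpure : ∀ B : Fin t → Matrix (Fin m) (Fin m) F, pureM B * s = s * pureM B := by
    intro B
    have hS : ∀ S : Finset (Fin t), pureM (fun i => if i ∈ S then B i else 1) * s =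
        s * pureM (fun i => if i ∈ S then B i else 1) := by
      intro S
      induction S using Finset.induction_on with
      | empty =>
        have : (fun i => if i ∈ (∅ : Finset (Fin t)) then B i else (1 : Matrix (Fin m) (Fin m) F)) = 1 := by
          funext i; simp
        rw [this, pureM_one, Matrix.one_mul, Matrix.mul_one]
      | insert j S hj ih =>
        have e : pureM (fun i => if i ∈ insert j S then B i else 1) =
            pureM (fun i => if i ∈ S then B i else 1) * posM j (B j) := by
          rw [posM, pureM_mul]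
          congr 1
          funext i
          by_cases hi : i = j
          · subst hi
            simp [hj]
          · simp [hi, Pi.mulSingle_eq_of_ne hi]
        rw [e, Matrix.mul_assoc, hcomm, ← Matrix.mul_assoc, ih, Matrix.mul_assoc]
    have := hS Finset.univ
    simpa using this
  have hsingle : ∀ x y : Fin t → Fin m, Matrix.single x y (1 : F) = pureM fun i => Matrix.single (x i) (y i) 1 := by
    intro x y
    ext a b
    rw [pureM_apply]
    simp only [Matrix.single_apply]
    by_cases h1 : x = a
    · by_cases h2 : y = b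
      · subst h1 h2
        simp
      · rw [if_neg (by rintro ⟨-, h⟩; exact h2 h)]
        obtain ⟨i, hi⟩ := Function.ne_iff.mp h2
        apply (Finset.prod_eq_zero (Finset.mem_univ i) _).symm
        simp [hi]
    · rw [if_neg (by rintro ⟨h, -⟩; exact h1 h)]
      obtain ⟨i, hi⟩ := Function.ne_iff.mp h1
      apply (Finset.prod_eq_zero (Finset.mem_univ i) _).symm
      simp [hi]
  have hscal : s ∈ Set.range (Matrix.scalar (Fin t → Fin m)) := by
    apply Matrix.mem_range_scalar_of_commute_single
    intro x y _
    show Matrix.single x y (1 : F) * s = s * Matrix.single x y (1 : F)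
    rw [hsingle]
    exact hpure _
  obtain ⟨c, hc⟩ := hscal
  have hGA : G = A * s := by
    rw [hs, ← Matrix.mul_assoc, hAAi', Matrix.one_mul]
  have hGc : G = c • A := by
    rw [hGA, ← hc, Matrix.scalar_apply, ← Matrix.smul_one_eq_diagonal, Matrix.mul_smul, Matrix.mul_one]
  have hc0 : c ≠ 0 := by
    rintro rfl
    have hG0 : G = 0 := by rw [hGc, zero_smul]
    have h1 : Gi * G = 1 := hGG
    rw [hG0, Matrix.mul_zero] at h1
    have : Nonempty (Fin t → Fin m) := by
      have : Nonempty (Fin m) := ⟨0⟩
      infer_instance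
    exact zero_ne_one h1
  let i₀ : Fin t := 0
  refine ⟨Function.update T i₀ (scalGL c hc0 * T i₀), fun x y => ?_⟩
  show G x y = _
  rw [hGc, Matrix.smul_apply, smul_eq_mul]
  simp only [A, pureM_apply]
  rw [← Finset.mul_prod_erase _ _ (Finset.mem_univ i₀), ← Finset.mul_prod_erase (f := fun i => ((Function.update T i₀ (scalGL c hc0 * T i₀) i : GL (Fin m) F) : Matrix (Fin m) (Fin m) F) (x i) (y i)) _ (Finset.mem_univ i₀)]
  simp only [Function.update_self]
  rw [Units.val_mul, scalGL_val, Matrix.smul_mul, Matrix.one_mul, Matrix.smul_apply, smul_eq_mul, mul_assoc]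
  congr 2
  refine Finset.prod_congr rfl fun j hj => ?_
  rw [Function.update_of_ne (Finset.ne_of_mem_erase hj)]

/-- the permutation matrix of the factors -/
def permM (σ : Equiv.Perm (Fin t)) : Matrix (Fin t → Fin m) (Fin t → Fin m) F :=
  fun x y => if y = x ∘ σ then 1 else 0

theorem permM_apply (σ : Equiv.Perm (Fin t)) (x y : Fin t → Fin m) :
    (permM σ : Matrix (Fin t → Fin m) (Fin t → Fin m) F) x y = if y = x ∘ σ then 1 else 0 := rfl

theorem permM_mul_left (σ : Equiv.Perm (Fin t)) {κ : Type} [Fintype κ] (M : Matrix (Fin t → Fin m) κ F) (x : Fin t → Fin m) (y : κ) :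
    ((permM σ : Matrix (Fin t → Fin m) (Fin t → Fin m) F) * M) x y = M (x ∘ σ) y := by
  classical
  rw [Matrix.mul_apply, Finset.sum_eq_single (x ∘ σ)]
  · rw [permM_apply, if_pos rfl, one_mul]
  · intro z _ hz
    rw [permM_apply, if_neg hz, zero_mul]
  · simp

theorem permM_mul_right (σ : Equiv.Perm (Fin t)) (M : Matrix (Fin t → Fin m) (Fin t → Fin m) F) (x y : Fin t → Fin m) :
    (M * (permM σ : Matrix (Fin t → Fin m) (Fin t → Fin m) F)) x y = M x (y ∘ σ.symm) := by
  classical
  rw [Matrix.mul_apply, Finset.sum_eq_single (y ∘ σ.symm)]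
  · rw [permM_apply, if_pos, mul_one]
    funext i
    simp
  · intro z _ hz
    rw [permM_apply, if_neg, mul_zero]
    rintro rfl
    apply hz
    funext i
    simp
  · simp

theorem permM_mul (σ τ : Equiv.Perm (Fin t)) :
    (permM σ * permM τ : Matrix (Fin t → Fin m) (Fin t → Fin m) F) = permM (σ * τ) := by
  ext x y
  rw [permM_mul_left, permM_apply, permM_apply]
  rfl

theorem permM_one : (permM 1 : Matrix (Fin t → Fin m) (Fin t → Fin m) F) = 1 := by
  ext x y
  rw [permM_apply, Matrix.one_apply]
  simp [eq_comm]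

/-- the permutation of the factors as an invertible matrix -/
def permG (σ : Equiv.Perm (Fin t)) : GL (Fin t → Fin m) F where
  val := permM σ
  inv := permM σ⁻¹
  val_inv := by rw [permM_mul, mul_inv_cancel, permM_one]
  inv_val := by rw [permM_mul, inv_mul_cancel, permM_one]

theorem permM_pureM (σ : Equiv.Perm (Fin t)) (A : Fin t → Matrix (Fin m) (Fin m) F) :
    permM σ * pureM A = pureM (A ∘ σ.symm) * permM σ := by
  ext x y
  rw [permM_mul_left, permM_mul_right, pureM_apply, pureM_apply]
  rw [← Equiv.prod_comp σ (fun j => (A ∘ σ.symm) j (x j) ((y ∘ σ.symm) j))]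
  simp

theorem permM_posM (σ : Equiv.Perm (Fin t)) (i : Fin t) (M : Matrix (Fin m) (Fin m) F) :
    permM σ * posM i M = posM (σ i) M * permM σ := by
  classical
  rw [posM, posM, permM_pureM]
  congr 2
  funext j
  simp only [Function.comp_apply]
  by_cases hj : j = σ i
  · subst hj
    simp
  · rw [Pi.mulSingle_eq_of_ne hj, Pi.mulSingle_eq_of_ne]
    intro h
    apply hj
    rw [← h]
    simp

/-- if `g` permutes the positions, it lies in the standard tensor wreath product. -/
theorem mem_wreath_of_normalize [NeZero t] [NeZero m] (g : GL (Fin t → Fin m) F) (τ : Equiv.Perm (Fin t))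
    (h : ∀ (i : Fin t) (M : Matrix (Fin m) (Fin m) F), ∃ M' : Matrix (Fin m) (Fin m) F,
      (g : Matrix (Fin t → Fin m) (Fin t → Fin m) F) * posM i M *
        ((g⁻¹ : GL (Fin t → Fin m) F) : Matrix (Fin t → Fin m) (Fin t → Fin m) F) = posM (τ i) M') :
    g ∈ tensorWreathStandard m t F := by
  classical
  have hpt : IsPureTensor m t ((permG τ)⁻¹ * g) := by
    apply isPureTensor_of_normalize
    intro i M
    obtain ⟨M', hM'⟩ := h i M
    refine ⟨M', ?_⟩
    have e1 : (((permG τ)⁻¹ * g : GL (Fin t → Fin m) F) : Matrix (Fin t → Fin m) (Fin t → Fin m) F) =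
        permM τ⁻¹ * (g : Matrix (Fin t → Fin m) (Fin t → Fin m) F) := rfl
    have e2 : ((((permG τ)⁻¹ * g)⁻¹ : GL (Fin t → Fin m) F) : Matrix (Fin t → Fin m) (Fin t → Fin m) F) =
        ((g⁻¹ : GL (Fin t → Fin m) F) : Matrix (Fin t → Fin m) (Fin t → Fin m) F) * permM τ := by
      rw [_root_.mul_inv_rev, inv_inv, Units.val_mul]
      rfl
    rw [e1, e2]
    calc permM τ⁻¹ * (g : Matrix (Fin t → Fin m) (Fin t → Fin m) F) * posM i M *
          (((g⁻¹ : GL (Fin t → Fin m) F) : Matrix (Fin t → Fin m) (Fin t → Fin m) F) * permM τ)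
        = permM τ⁻¹ * ((g : Matrix (Fin t → Fin m) (Fin t → Fin m) F) * posM i M *
          ((g⁻¹ : GL (Fin t → Fin m) F) : Matrix (Fin t → Fin m) (Fin t → Fin m) F)) * permM τ := by
          simp only [Matrix.mul_assoc]
      _ = permM τ⁻¹ * posM (τ i) M' * permM τ := by rw [hM']
      _ = posM i M' := by
          have e3 : (permM τ⁻¹ : Matrix (Fin t → Fin m) (Fin t → Fin m) F) * posM (τ i) M' = posM i M' * permM τ⁻¹ := by
            have := permM_posM τ⁻¹ (τ i) M'
            simpa using this
          rw [e3, Matrix.mul_assoc, permM_mul, inv_mul_cancel, permM_one, Matrix.mul_one]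
  have hmem : g = permG τ * ((permG τ)⁻¹ * g) := by group
  rw [hmem]
  exact (tensorWreathStandard m t F).mul_mem
    (Subgroup.subset_closure (Or.inr ⟨τ, fun x y => rfl⟩))
    (Subgroup.subset_closure (Or.inl hpt))

section basis

variable {ι : Type} [Fintype ι] [DecidableEq ι]

/-- Commuting matrix algebras, irreducible together, give a tensor power basis. -/
theorem exists_wreath_basis [NeZero m] [Nonempty ι] (ψ : Fin t → (Matrix (Fin m) (Fin m) F →ₐ[F] Matrix ι ι F))
    (hcomm : Pairwise fun i j => ∀ x y, Commute (ψ i x) (ψ j y))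
    (hirr : ∀ W : Submodule F (ι → F), (∀ i x, ∀ w ∈ W, ψ i x *ᵥ w ∈ W) → W = ⊥ ∨ W = ⊤) :
    ∃ b : Module.Basis (Fin t → Fin m) F (ι → F), ∀ (i : Fin t) (a c : Fin m) (x : Fin t → Fin m),
      ψ i (Matrix.single a c 1) *ᵥ b x = if c = x i then b (Function.update x i a) else 0 := by
  classical
  let ϕ : ∀ i : Fin t, Matrix (Fin m) (Fin m) F →* Matrix ι ι F := fun i => (ψ i : Matrix (Fin m) (Fin m) F →* Matrix ι ι F)
  have hϕ : ∀ i x, ϕ i x = ψ i x := fun i x => rfl
  have hcomm' : Pairwise fun i j => ∀ x y, Commute (ϕ i x) (ϕ j y) := hcomm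
  let Φ : (Fin t → Matrix (Fin m) (Fin m) F) →* Matrix ι ι F := MonoidHom.noncommPiCoprod ϕ hcomm'
  have hΦs : ∀ i M, Φ (Pi.mulSingle i M) = ψ i M := fun i M => by
    show MonoidHom.noncommPiCoprod ϕ hcomm' (Pi.mulSingle i M) = _
    rw [MonoidHom.noncommPiCoprod_mulSingle, hϕ]
  -- splitting off one factor
  have hsplit : ∀ (A : Fin t → Matrix (Fin m) (Fin m) F) (i : Fin t),
      Φ A = ψ i (A i) * Φ (Function.update A i 1) := by
    intro A i
    rw [← hΦs, ← map_mul]
    congr 1
    funext j
    by_cases hj : j = i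
    · subst hj
      simp
    · simp [Pi.mulSingle_eq_of_ne hj, Function.update_of_ne hj]
  have hzero : ∀ (A : Fin t → Matrix (Fin m) (Fin m) F) (i : Fin t), A i = 0 → Φ A = 0 := by
    intro A i hA
    rw [hsplit A i, hA, map_zero, Matrix.zero_mul]
  -- a non-zero diagonal product
  have hdiag : ∀ S : Finset (Fin t), ∃ x : Fin t → Fin m,
      Φ (fun i => if i ∈ S then Matrix.single (x i) (x i) 1 else 1) ≠ 0 := by
    intro S
    induction S using Finset.induction_on with
    | empty =>
      refine ⟨fun _ => 0, ?_⟩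
      have : (fun i => if i ∈ (∅ : Finset (Fin t)) then Matrix.single (0 : Fin m) 0 (1 : F) else (1 : Matrix (Fin m) (Fin m) F)) = 1 := by
        funext i; simp
      simp only [this, map_one]
      exact one_ne_zero
    | insert j S hj ih =>
      obtain ⟨x, hx⟩ := ih
      set N := Φ (fun i => if i ∈ S then Matrix.single (x i) (x i) 1 else 1) with hN
      have h1 : N = ∑ a, N * ψ j (Matrix.single a a 1) := by
        rw [← Finset.mul_sum, algHom_sum_single, Matrix.mul_one]
      obtain ⟨a, ha⟩ : ∃ a, N * ψ j (Matrix.single a a 1) ≠ 0 := by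
        by_contra hall
        push Not at hall
        apply hx
        rw [h1, Finset.sum_eq_zero (fun a _ => hall a)]
      refine ⟨Function.update x j a, ?_⟩
      have e : (fun i => if i ∈ insert j S then Matrix.single (Function.update x j a i) (Function.update x j a i) (1 : F) else 1) =
          (fun i => if i ∈ S then Matrix.single (x i) (x i) (1 : F) else 1) * Pi.mulSingle j (Matrix.single a a 1) := by
        funext i
        by_cases hi : i = j
        · subst hi
          simp [hj]
        · simp [hi, Pi.mulSingle_eq_of_ne hi, Function.update_of_ne hi]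
      rw [e, map_mul, hΦs]
      exact ha
  obtain ⟨x₀, hx₀⟩ := hdiag Finset.univ
  let u : (Fin t → Fin m) → (Fin t → Fin m) → Matrix ι ι F := fun x y => Φ (fun i => Matrix.single (x i) (y i) 1)
  have hu₀ : u x₀ x₀ ≠ 0 := by simpa [u] using hx₀
  have hurel : ∀ a b c d, u a b * u c d = if b = c then u a d else 0 := by
    intro a b c d
    simp only [u]
    rw [← map_mul]
    split_ifs with h
    · subst h
      congr 1
      funext i
      simp
    · obtain ⟨i, hi⟩ := Function.ne_iff.mp h
      apply hzero _ i
      simp [hi]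
  obtain ⟨w, hw⟩ : ∃ w, u x₀ x₀ *ᵥ w ≠ 0 := by
    by_contra hall
    push Not at hall
    apply hu₀
    apply Matrix.toLin'.injective
    apply LinearMap.ext
    intro v
    simpa [Matrix.toLin'_apply] using hall v
  set v₀ := u x₀ x₀ *ᵥ w with hv₀
  have huv₀ : u x₀ x₀ *ᵥ v₀ = v₀ := by
    rw [hv₀, Matrix.mulVec_mulVec, hurel, if_pos rfl]
  let v : (Fin t → Fin m) → (ι → F) := fun x => u x x₀ *ᵥ v₀
  have hact : ∀ a b c, u a b *ᵥ v c = if b = c then v a else 0 := by
    intro a b c
    simp only [v]
    rw [Matrix.mulVec_mulVec, hurel]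
    split_ifs <;> simp
  have hind : LinearIndependent F v := by
    rw [Fintype.linearIndependent_iff]
    intro g hg y
    have h1 := congrArg (fun z => u x₀ y *ᵥ z) hg
    simp only [Matrix.mulVec_sum, Matrix.mulVec_smul, hact, Matrix.mulVec_zero] at h1
    rw [Finset.sum_eq_single y] at h1
    · rw [if_pos rfl] at h1
      have h2 : v x₀ = v₀ := huv₀
      rw [h2] at h1
      exact (smul_eq_zero.mp h1).resolve_right hw
    · intro z _ hz
      rw [if_neg (Ne.symm hz), smul_zero]
    · simp
  have hψv : ∀ i a c x, ψ i (Matrix.single a c 1) *ᵥ v x = if c = x i then v (Function.update x i a) else 0 := by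
    intro i a c x
    simp only [v, u]
    rw [Matrix.mulVec_mulVec, ← hΦs, ← map_mul]
    by_cases hc : c = x i
    · rw [if_pos hc]
      congr 2
      funext j
      by_cases hj : j = i
      · subst hj
        simp [hc]
      · simp [Pi.mulSingle_eq_of_ne hj, Function.update_of_ne hj]
    · rw [if_neg hc, hzero _ i, Matrix.zero_mulVec]
      simp [hc]
  have hspan : ⊤ ≤ Submodule.span F (Set.range v) := by
    have hst : ∀ i x, ∀ z ∈ Submodule.span F (Set.range v), ψ i x *ᵥ z ∈ Submodule.span F (Set.range v) := by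
      intro i M z hz
      induction hz using Submodule.span_induction with
      | mem z hz =>
        obtain ⟨y, rfl⟩ := hz
        rw [Matrix.matrix_eq_sum_single M, map_sum, Matrix.sum_mulVec]
        refine Submodule.sum_mem _ fun a _ => ?_
        rw [map_sum, Matrix.sum_mulVec]
        refine Submodule.sum_mem _ fun c _ => ?_
        have e : Matrix.single a c (M a c) = (M a c) • Matrix.single a c (1 : F) := by
          rw [Matrix.smul_single, smul_eq_mul, mul_one]
        rw [e, map_smul, Matrix.smul_mulVec, hψv]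
        apply Submodule.smul_mem
        split_ifs
        · exact Submodule.subset_span ⟨_, rfl⟩
        · exact Submodule.zero_mem _
      | zero => simp
      | add a b _ _ ha hb =>
        rw [Matrix.mulVec_add]
        exact Submodule.add_mem _ ha hb
      | smul c a _ ha =>
        rw [Matrix.mulVec_smul]
        exact Submodule.smul_mem _ _ ha
    rcases hirr _ hst with hb | ht
    · exfalso
      apply hind.ne_zero x₀
      have : v x₀ ∈ Submodule.span F (Set.range v) := Submodule.subset_span ⟨_, rfl⟩
      rw [hb] at this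
      simpa using this
    · rw [ht]
  let b := Module.Basis.mk hind hspan
  refine ⟨b, fun i a c x => ?_⟩
  have hb : ∀ x, b x = v x := fun x => by simp [b]
  rw [hb, hb]
  exact hψv i a c x

/-- A family of commuting matrix algebras permuted by `g`. -/
theorem wreath_of_algHoms [NeZero t] [NeZero m] [Nonempty ι] (ψ : Fin t → (Matrix (Fin m) (Fin m) F →ₐ[F] Matrix ι ι F))
    (hcomm : Pairwise fun i j => ∀ x y, Commute (ψ i x) (ψ j y))
    (hirr : ∀ W : Submodule F (ι → F), (∀ i x, ∀ w ∈ W, ψ i x *ᵥ w ∈ W) → W = ⊥ ∨ W = ⊤) {H : Subgroup (GL ι F)}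
    (hH : ∀ g ∈ H, ∃ τ : Equiv.Perm (Fin t), ∀ (i : Fin t) (M : Matrix (Fin m) (Fin m) F), ∃ M',
      (g : Matrix ι ι F) * ψ i M * ((g⁻¹ : GL ι F) : Matrix ι ι F) = ψ (τ i) M') :
    ∃ (e : ι ≃ (Fin t → Fin m)) (P : GL ι F), Fintype.card ι = m ^ t ∧ H ≤ tensorWreathSubgroup m t e P := by
  classical
  obtain ⟨b, hb⟩ := exists_wreath_basis ψ hcomm hirr
  have hcard : Fintype.card ι = m ^ t := by
    have h1 := Module.finrank_eq_card_basis b
    rw [Module.finrank_fintype_fun_eq_card] at h1
    simpa using h1
  have e : ι ≃ (Fin t → Fin m) := Fintype.equivOfCardEq (by simpa using hcard)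
  obtain ⟨P, hP⟩ := exists_conj_coord b e
  refine ⟨e, P, hcard, fun g hg => mem_tensorWreath_of_coord hP ?_⟩
  have hcoord : ∀ i M, coordA b (ψ i M) = posM i M := by
    intro i M
    have hlin : (coordA b).toLinearMap.comp (ψ i).toLinearMap = posL i := by
      apply linearMap_ext_single
      intro a c
      ext x y
      simp only [LinearMap.comp_apply, AlgEquiv.toLinearMap_apply, AlgHom.toLinearMap_apply, posL, LinearMap.coe_mk,
        AddHom.coe_mk]
      rw [coordA_apply, hb, posM_apply, Matrix.single_apply]
      by_cases hc : c = y i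
      · rw [if_pos hc, Module.Basis.repr_self, Finsupp.single_apply]
        by_cases hx : x = Function.update y i a
        · subst hx
          rw [if_pos rfl, if_pos (by simp [hc]), one_mul, Finset.prod_eq_one]
          intro j hj
          rw [Function.update_of_ne (Finset.ne_of_mem_erase hj), Matrix.one_apply_eq]
        · rw [if_neg (Ne.symm hx)]
          by_cases ha : a = x i
          · have : ∃ j, j ≠ i ∧ x j ≠ y j := by
              by_contra hall
              push Not at hall
              apply hx
              funext j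
              by_cases hj : j = i
              · subst hj
                simp [ha]
              · rw [Function.update_of_ne hj, hall j hj]
            obtain ⟨j, hj, hne⟩ := this
            symm
            rw [Finset.prod_eq_zero (i := j) (Finset.mem_erase.mpr ⟨hj, Finset.mem_univ j⟩) (by simp [hne]), mul_zero]
          · rw [if_neg (by rintro ⟨h, -⟩; exact ha h), zero_mul]
      · rw [if_neg hc, map_zero, Finsupp.zero_apply, if_neg (by rintro ⟨-, h⟩; exact hc h), zero_mul]
    exact LinearMap.congr_fun hlin M
  obtain ⟨τ, hτ⟩ := hH g hg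
  apply mem_wreath_of_normalize _ τ
  intro i M
  obtain ⟨M', hM'⟩ := hτ i M
  refine ⟨M', ?_⟩
  rw [← hcoord, ← hcoord, ← map_inv, coordG_val, coordG_val, ← map_mul, ← map_mul, hM']

end basis

end Cfsg.Agent.H97.Asch
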