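import Mathlib
import Cfsg.Prelude.Def_SolvableStructure
import Cfsg.Agent.Lib.SuperSolv2

/-!
Groups all of whose subgroups satisfy the converse of Lagrange's theorem are supersolvable.
-/

set_option autoImplicit false

namespace Cfsg.Agent.Lib.HCltLib

open Subgroup
open scoped Pointwise
open Cfsg.Agent.Lib.SuperSolv Cfsg.Agent.Lib.SuperSolv2

universe u v

/-- Every subgroup satisfies the converse of Lagrange's theorem. -/
def HClt (G : Type u) [Group G] : Prop := ∀ H : Subgroup G, Cfsg.HasSubgroupOfEveryOrder H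

variable {G : Type u} [Group G]

theorem hasSub_of_mulEquiv {G' : Type v} [Group G'] (e : G ≃* G')
    (h : Cfsg.HasSubgroupOfEveryOrder G) : Cfsg.HasSubgroupOfEveryOrder G' := by
  intro d hd
  obtain ⟨H, hH⟩ := h d (by rwa [Nat.card_congr e.toEquiv])
  refine ⟨H.map e.toMonoidHom, ?_⟩
  rw [card_map_injective _ e.injective, hH]

theorem HClt.self (h : HClt G) : Cfsg.HasSubgroupOfEveryOrder G :=
  hasSub_of_mulEquiv Subgroup.topEquiv (h ⊤)

theorem HClt.subgroup (h : HClt G) (K : Subgroup G) : HClt K := fun L =>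
  hasSub_of_mulEquiv (Subgroup.equivMapOfInjective L K.subtype K.subtype_injective).symm
    (h (L.map K.subtype))

/-- The Sylow subgroup for the largest prime is normal. -/
theorem sylow_normal_of_largest [Finite G] (h : HClt G) (p : ℕ) [hfp : Fact p.Prime]
    (hdvd : p ∣ Nat.card G) (hmax : ∀ q : ℕ, q.Prime → q ∣ Nat.card G → q ≤ p) (P : Sylow p G) :
    (P : Subgroup G).Normal := by
  induction hc : Nat.card G using Nat.strong_induction_on generalizing G with
  | _ n ih =>
    have hp := hfp.out
    by_cases hq : ∃ q : ℕ, q.Prime ∧ q ∣ Nat.card G ∧ q ≠ p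
    · obtain ⟨q, hqp, hqd, hqne⟩ := hq
      obtain ⟨m, hm⟩ := hqd
      obtain ⟨M, hM⟩ := h.self m ⟨q, by rw [hm, mul_comm]⟩
      have hpm : p ∣ Nat.card M := by
        rw [hM]
        rw [hm] at hdvd
        rcases (Nat.Prime.dvd_mul hp).1 hdvd with h1 | h1
        · exact absurd ((Nat.prime_dvd_prime_iff_eq hp hqp).1 h1).symm hqne
        · exact h1
      have hmpos : 0 < m := by
        rcases Nat.eq_zero_or_pos m with rfl | h1
        · rw [mul_zero] at hm
          exact absurd hm Nat.card_pos.ne'
        · exact h1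
      have hMi : M.index = q := by
        have h1 := M.index_mul_card
        rw [hM, hm] at h1
        exact Nat.eq_of_mul_eq_mul_right hmpos h1
      have hlt : Nat.card M < n := by
        rw [← hc, hm, hM]
        have := hqp.two_le
        nlinarith
      obtain ⟨P₀⟩ : Nonempty (Sylow p M) := inferInstance
      have hP₀ := ih _ hlt (h.subgroup M) hpm (fun r hr hrd => hmax r hr (hrd.trans
        (Subgroup.card_subgroup_dvd_card M))) P₀ rfl
      set Q := (P₀ : Subgroup M).map M.subtype with hQ
      have hQcard : Nat.card Q = p ^ (Nat.card G).factorization p := by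
        rw [hQ, card_map_subtype]
        have h2 : Nat.card (P₀ : Subgroup M) = p ^ (Nat.card M).factorization p :=
          Sylow.card_eq_multiplicity P₀
        rw [h2, hM, hm, Nat.factorization_mul hqp.ne_zero hmpos.ne']
        simp only [Finsupp.coe_add, Pi.add_apply]
        have hqf : q.factorization p = 0 := Nat.factorization_eq_zero_of_not_dvd (fun h3 =>
          hqne ((Nat.prime_dvd_prime_iff_eq hp hqp).1 h3).symm)
        rw [hqf, zero_add]
      let S : Sylow p G := Sylow.ofCard Q hQcard
      have hSQ : (S : Subgroup G) = Q := Sylow.coe_ofCard Q hQcard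
      have hMnorm : M ≤ Subgroup.normalizer ((S : Subgroup G) : Set G) := by
        rw [hSQ]
        intro x hx
        rw [Subgroup.mem_normalizer_iff]
        intro y
        constructor
        · rintro ⟨y', hy', rfl⟩
          have := hP₀.conj_mem y' hy' ⟨x, hx⟩
          exact ⟨_, this, rfl⟩
        · rintro ⟨y', hy', hy⟩
          have := hP₀.conj_mem y' hy' ⟨x, hx⟩⁻¹
          refine ⟨_, this, ?_⟩
          have hy2 : y = x⁻¹ * (y' : G) * x := by
            have : (y' : G) = x * y * x⁻¹ := hy
            rw [this]; group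
          rw [hy2]
          simp
      have h1 : Nat.card (Sylow p G) ∣ q := by
        rw [Sylow.card_eq_index_normalizer S, ← hMi]
        exact Subgroup.index_dvd_of_le hMnorm
      have h2 := card_sylow_modEq_one p G
      rcases (Nat.dvd_prime hqp).1 h1 with h3 | h3
      · have : Subsingleton (Sylow p G) := (Nat.card_eq_one_iff_unique.1 h3).1
        exact P.normal_of_subsingleton
      · exfalso
        rw [h3] at h2
        have hqlt : q < p := lt_of_le_of_ne (hmax q hqp ⟨m, hm⟩) hqne
        have h4 : q % p = 1 % p := h2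
        rw [Nat.mod_eq_of_lt hqlt, Nat.mod_eq_of_lt hp.one_lt] at h4
        exact hqp.ne_one h4
    · have : (P : Subgroup G).index = 1 := by
        by_contra hne
        obtain ⟨r, hr, hrd⟩ := Nat.exists_prime_and_dvd hne
        have hrg : r ∣ Nat.card G := hrd.trans (Subgroup.index_dvd_card _)
        have hrp : r = p := by
          by_contra hrp
          exact hq ⟨r, hr, hrg, hrp⟩
        subst hrp
        exact P.not_dvd_index hrd
      rw [Subgroup.index_eq_one] at this
      rw [this]
      infer_instance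

/-- The minimal normal subgroup inside the centre of the Sylow subgroup has prime order. -/
theorem exists_normal_prime_card [Finite G] [Nontrivial G] (h : HClt G) :
    ∃ (N : Subgroup G) (p : ℕ), N.Normal ∧ p.Prime ∧ Nat.card N = p := by
  have hne : (Nat.card G).primeFactors.Nonempty := by
    rw [Nat.nonempty_primeFactors]
    exact Finite.one_lt_card
  set p := (Nat.card G).primeFactors.max' hne with hpdef
  have hpm : p ∈ (Nat.card G).primeFactors := Finset.max'_mem _ hne
  have hp : p.Prime := Nat.prime_of_mem_primeFactors hpm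
  have hpd : p ∣ Nat.card G := Nat.dvd_of_mem_primeFactors hpm
  have hmax : ∀ q : ℕ, q.Prime → q ∣ Nat.card G → q ≤ p := fun q hq hqd =>
    Finset.le_max' _ _ (Nat.mem_primeFactors.2 ⟨hq, hqd, Nat.card_pos.ne'⟩)
  have hfp : Fact p.Prime := ⟨hp⟩
  obtain ⟨P⟩ : Nonempty (Sylow p G) := inferInstance
  have hPn : (P : Subgroup G).Normal := sylow_normal_of_largest h p hpd hmax P
  have hPp : IsPGroup p (P : Subgroup G) := P.isPGroup'
  set Z : Subgroup G := (P : Subgroup G) ⊓ Subgroup.centralizer ((P : Subgroup G) : Set G) with hZ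
  have hZn : Z.Normal := Subgroup.normal_inf_normal _ _
  have hPb : (P : Subgroup G) ≠ ⊥ := by
    intro hb
    have h1 := P.not_dvd_index
    have h2 : (P : Subgroup G).index = Nat.card G := by rw [hb, Subgroup.index_bot]
    rw [h2] at h1
    exact h1 hpd
  have hZb : Z ≠ ⊥ := by
    have hnt : Nontrivial (P : Subgroup G) := by
      rw [Subgroup.nontrivial_iff_ne_bot]; exact hPb
    obtain ⟨⟨x₀, hx₀⟩, hxc, hxne⟩ :=
      (Subgroup.nontrivial_iff_exists_ne_one _).1 hPp.center_nontrivial
    intro hb
    have hxZ : x₀ ∈ Z := by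
      refine ⟨hx₀, Subgroup.mem_centralizer_iff.2 ?_⟩
      intro u hu
      have h1 := Subgroup.mem_center_iff.1 hxc ⟨u, hu⟩
      exact congrArg Subtype.val h1
    rw [hb, Subgroup.mem_bot] at hxZ
    exact hxne (Subtype.ext hxZ)
  -- a minimal element
  let S : Set (Subgroup G) := {N | N.Normal ∧ N ≠ ⊥ ∧ N ≤ Z}
  have hSne : S.Nonempty := ⟨Z, hZn, hZb, le_rfl⟩
  obtain ⟨N, ⟨hNn, hNb, hNZ⟩, hNmin⟩ :=
    (wellFounded_lt : WellFounded ((· < ·) : Subgroup G → Subgroup G → Prop)).has_min S hSne
  have hNP : N ≤ P := hNZ.trans inf_le_left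
  have hNc : ∀ x ∈ N, ∀ u ∈ (P : Subgroup G), u * x = x * u := by
    intro x hx u hu
    exact (Subgroup.mem_centralizer_iff.1 (hNZ hx).2) u hu
  -- the complementary order
  set m := (P : Subgroup G).index with hm
  have hmcoprime : Nat.Coprime p m := (Nat.Prime.coprime_iff_not_dvd hp).2 P.not_dvd_index
  have hcardG : Nat.card (P : Subgroup G) * m = Nat.card G := (P : Subgroup G).card_mul_index
  obtain ⟨H, hH⟩ := h.self m ⟨_, by rw [← hcardG, mul_comm]⟩
  obtain ⟨k, hk⟩ := (IsPGroup.iff_card.1 hPp)
  have hNcard : ∃ j, Nat.card N = p ^ j := by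
    have h1 : Nat.card N ∣ p ^ k := by
      rw [← hk]; exact Subgroup.card_dvd_of_le hNP
    obtain ⟨j, -, hj⟩ := (Nat.dvd_prime_pow hp).1 h1
    exact ⟨j, hj⟩
  obtain ⟨j, hj⟩ := hNcard
  have hj0 : j ≠ 0 := by
    rintro rfl
    rw [pow_zero] at hj
    exact hNb (Subgroup.card_eq_one.1 hj)
  obtain ⟨i, rfl⟩ := Nat.exists_eq_succ_of_ne_zero hj0
  set e := p ^ i with he
  have hNce : Nat.card N = p * e := by rw [hj, Nat.succ_eq_add_one, pow_succ, mul_comm]
  have hepos : 0 < e := pow_pos hp.pos i
  have hmpos : 0 < m := Nat.pos_of_ne_zero (Subgroup.index_ne_zero_of_finite)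
  -- `X = H ⊔ N`
  have hcopHN : Nat.Coprime (Nat.card H) (Nat.card N) := by
    rw [hH, hj]; exact (Nat.Coprime.pow_right _ hmcoprime.symm)
  have hHNinf : H ⊓ N = ⊥ := disjoint_iff.1 (Subgroup.disjoint_of_coprime_natCard hcopHN)
  have hXcard : Nat.card (H ⊔ N : Subgroup G) = m * (p * e) := by
    have h1 := card_sup_mul_card_inf H N
    rw [hHNinf, Subgroup.card_bot, mul_one, hH, hNce] at h1
    exact h1
  obtain ⟨L', hL'⟩ := h (H ⊔ N) (m * e) ⟨p, by rw [hXcard]; ring⟩
  set L := L'.map (H ⊔ N).subtype with hL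
  have hLc : Nat.card L = m * e := by rw [hL, card_map_subtype, hL']
  have hLX : L ≤ H ⊔ N := by
    rintro _ ⟨y, -, rfl⟩
    exact y.2
  set D := L ⊓ N with hD
  have hsup : L ⊔ N ≤ H ⊔ N := sup_le hLX le_sup_right
  have hform := card_sup_mul_card_inf L N
  rw [hLc, hNce] at hform
  obtain ⟨t, ht⟩ : Nat.card (L ⊔ N : Subgroup G) ∣ m * (p * e) := by
    rw [← hXcard]; exact Subgroup.card_dvd_of_le hsup
  set c := Nat.card (L ⊔ N : Subgroup G) with hc
  have hcpos : 0 < c := Nat.card_pos
  have hDt : Nat.card (L ⊓ N : Subgroup G) = t * e := by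
    have h1 : c * Nat.card (L ⊓ N : Subgroup G) = c * (t * e) := by
      rw [hform, ← mul_assoc c t e, ← ht]; ring
    exact Nat.eq_of_mul_eq_mul_left hcpos h1
  have hDdvd : Nat.card (L ⊓ N : Subgroup G) ∣ p * e := by
    rw [← hNce]; exact Subgroup.card_dvd_of_le inf_le_right
  have htp : t ∣ p := by
    rw [hDt] at hDdvd
    exact Nat.dvd_of_mul_dvd_mul_right hepos hDdvd
  have ht1 : t = 1 := by
    rcases (Nat.dvd_prime hp).1 htp with h1 | h1
    · exact h1
    · exfalso
      -- then `N ≤ L`
      have h2 : Nat.card (L ⊓ N : Subgroup G) = Nat.card N := by rw [hDt, h1, hNce]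
      have h3 : L ⊓ N = N := Subgroup.eq_of_le_of_card_ge inf_le_right h2.ge
      have h4 : N ≤ L := inf_eq_right.1 h3
      have h5 : p * e ∣ m * e := by
        rw [← hNce, ← hLc]; exact Subgroup.card_dvd_of_le h4
      have h6 : p ∣ m := Nat.dvd_of_mul_dvd_mul_right hepos h5
      exact (Nat.Prime.coprime_iff_not_dvd hp).1 hmcoprime h6
  have hDc : Nat.card (L ⊓ N : Subgroup G) = e := by rw [hDt, ht1, one_mul]
  have hctop : L ⊔ N = H ⊔ N := by
    apply Subgroup.eq_of_le_of_card_ge hsup
    rw [hXcard, ← hc, ht, ht1, mul_one]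
  -- `D` is normal
  have hDle : D ≤ N := inf_le_right
  have hNnorm : ∀ x ∈ N, ∀ d ∈ D, x * d * x⁻¹ ∈ D := by
    intro x hx d hd
    have := hNc d (hDle hd) x (hNP hx)
    rw [this, mul_inv_cancel_right]
    exact hd
  have hLnorm : ∀ x ∈ L, ∀ d ∈ D, x * d * x⁻¹ ∈ D := by
    intro x hx d hd
    exact ⟨L.mul_mem (L.mul_mem hx hd.1) (L.inv_mem hx), hNn.conj_mem d hd.2 x⟩
  have hDinv : ∀ (g : G) , (∀ d ∈ D, g * d * g⁻¹ ∈ D) → g ∈ Subgroup.normalizer (D : Set G) := by
    intro g hg
    have hinj : Function.Injective (fun d : D => (⟨g * d * g⁻¹, hg d d.2⟩ : D)) := by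
      intro a b hab
      have := congrArg Subtype.val hab
      simpa using this
    have hsurj := (Finite.injective_iff_surjective).1 hinj
    rw [Subgroup.mem_normalizer_iff]
    intro y
    constructor
    · exact hg y
    · intro hy
      obtain ⟨d, hd⟩ := hsurj ⟨_, hy⟩
      have h1 := congrArg Subtype.val hd
      simp only at h1
      have h2 : (d : G) = y := by
        have := mul_right_cancel (mul_left_cancel (by simpa [mul_assoc] using h1 : g * ((d : G) * g⁻¹) = g * (y * g⁻¹)))
        exact this
      rw [← h2]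
      exact d.2
  have hLN : L ⊔ N ≤ Subgroup.normalizer (D : Set G) :=
    sup_le (fun x hx => hDinv x (hLnorm x hx)) (fun x hx => hDinv x (hNnorm x hx))
  have hPN : (P : Subgroup G) ≤ Subgroup.normalizer (D : Set G) := by
    intro u hu
    apply hDinv
    intro d hd
    rw [hNc d (hDle hd) u hu, mul_inv_cancel_right]
    exact hd
  have hHP : H ⊔ (P : Subgroup G) = ⊤ := by
    have h1 := card_sup_mul_card_inf H (P : Subgroup G)
    have h2 : H ⊓ (P : Subgroup G) = ⊥ := by
      apply disjoint_iff.1
      apply Subgroup.disjoint_of_coprime_natCard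
      rw [hH, hk]
      exact Nat.Coprime.pow_right _ hmcoprime.symm
    rw [h2, Subgroup.card_bot, mul_one, hH, mul_comm, hcardG] at h1
    apply Subgroup.eq_top_of_card_eq
    exact h1
  have hDn : D.Normal := by
    rw [← Subgroup.normalizer_eq_top_iff]
    rw [eq_top_iff, ← hHP]
    exact sup_le ((le_sup_left.trans hctop.ge).trans hLN) hPN
  have hDb : D = ⊥ := by
    by_contra hDb
    have hlt : D < N := by
      refine lt_of_le_of_ne hDle ?_
      intro heq
      have h1 : Nat.card D = Nat.card N := by rw [heq]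
      rw [hDc, hNce] at h1
      have : 1 * e = p * e := by rw [one_mul]; exact h1
      have := Nat.eq_of_mul_eq_mul_right hepos this
      exact hp.ne_one this.symm
    exact hNmin D ⟨hDn, hDb, hDle.trans hNZ⟩ hlt
  have he1 : e = 1 := by
    rw [← hDc, ← hD, hDb, Subgroup.card_bot]
  exact ⟨N, p, hNn, hp, by rw [hNce, he1, mul_one]⟩

/-- The property passes to the quotient by a normal subgroup of prime order. -/
theorem HClt.quotient [Finite G] (h : HClt G) (N : Subgroup G) [N.Normal] (p : ℕ) (hp : p.Prime)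
    (hN : Nat.card N = p) : HClt (G ⧸ N) := by
  intro T d hd
  set q := QuotientGroup.mk' N with hq
  set K := T.comap q with hK
  have hKc : Nat.card K = Nat.card T * p := by rw [hK, hq, card_comap_mk, hN]
  obtain ⟨L', hL'⟩ := h K (d * p) (by rw [hKc]; exact mul_dvd_mul_right hd p)
  set L := L'.map K.subtype with hL
  have hLc : Nat.card L = d * p := by rw [hL, card_map_subtype, hL']
  have hLK : L ≤ K := by
    rintro _ ⟨y, -, rfl⟩
    exact y.2
  by_cases hNL : N ≤ L
  · have h1 := card_map_mk_of_le N L hNL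
    rw [hN, hLc] at h1
    have h2 : Nat.card (L.map q) = d := Nat.eq_of_mul_eq_mul_right hp.pos h1
    have h3 : L.map q ≤ T := Subgroup.map_le_iff_le_comap.2 hLK
    exact ⟨(L.map q).subgroupOf T, by rw [card_subgroupOf_of_le h3, h2]⟩
  · have h1 : N ⊓ L = ⊥ := inf_eq_bot_of_prime_card (hN ▸ hp) hNL
    obtain ⟨D', hD'⟩ := h L d ⟨p, by rw [hLc]⟩
    set D := D'.map L.subtype with hD
    have hDc : Nat.card D = d := by rw [hD, card_map_subtype, hD']
    have hDL : D ≤ L := by
      rintro _ ⟨y, -, rfl⟩
      exact y.2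
    have h3 : D.map q ≤ T := Subgroup.map_le_iff_le_comap.2 (hDL.trans hLK)
    have h4 : Nat.card (D.map q) = d := by
      rw [← Subgroup.relIndex_ker, hq, QuotientGroup.ker_mk', ← Subgroup.inf_relIndex_right]
      have h5 : N ⊓ D = ⊥ := by
        apply le_antisymm _ bot_le
        rw [← h1]
        exact inf_le_inf_left _ hDL
      rw [h5, Subgroup.relIndex_bot_left, hDc]
    exact ⟨(D.map q).subgroupOf T, by rw [card_subgroupOf_of_le h3, h4]⟩

/-- If every subgroup of a finite group has subgroups of all orders dividing its order, then the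
group is supersolvable. -/
theorem isSupersolvable_of_hclt [Finite G] (h : HClt G) : Cfsg.IsSupersolvable G := by
  induction hc : Nat.card G using Nat.strong_induction_on generalizing G with
  | _ n ih =>
    by_cases hnt : Nontrivial G
    · obtain ⟨N, p, hNn, hp, hNc⟩ := exists_normal_prime_card h
      have hbot : N ≠ ⊥ := by
        intro hb
        rw [hb, Subgroup.card_bot] at hNc
        exact hp.ne_one hNc.symm
      have hlt : Nat.card (G ⧸ N) < n := hc ▸ card_quotient_lt N hbot
      have hq := ih _ hlt (h.quotient N p hp hNc) rfl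
      have : Fact p.Prime := ⟨hp⟩
      have : IsCyclic N := isCyclic_of_prime_card hNc
      exact isSupersolvable_of_cyclic_normal N hq
    · rw [not_nontrivial_iff_subsingleton] at hnt
      exact isSupersolvable_of_subsingleton

end Cfsg.Agent.Lib.HCltLib
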