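import Mathlib
set_option autoImplicit false
set_option linter.unusedSectionVars false

/-!
# The Hall product on graded class functions of matrices over a finite field

`GF F` is the type of functions on all square matrices, graded by the size.  A function is
transported to an arbitrary finite-dimensional space with an endomorphism by `ev`.
`hall X Y g` sums over all `g`-stable subspaces `W` the product of `X` on `W` and `Y` on `V/W`.
-/

namespace Cfsg.Agent.Lib.HGBasic

open Module

universe u

variable {F : Type u} [Field F] [Finite F]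

/-- Graded functions on square matrices. -/
abbrev GF (F : Type u) [Field F] := (n : ℕ) → Matrix (Fin n) (Fin n) F → ℂ

/-- Invariance under conjugation. -/
def IsCl (X : GF F) : Prop :=
  ∀ (n : ℕ) (A P Q : Matrix (Fin n) (Fin n) F), P * Q = 1 → X n (P * A * Q) = X n A

section Ev

variable {V W : Type u} [AddCommGroup V] [Module F V] [FiniteDimensional F V]
  [AddCommGroup W] [Module F W] [FiniteDimensional F W]

/-- Evaluate a graded function on an endomorphism of an abstract space. -/
noncomputable def ev (X : GF F) (V : Type u) [AddCommGroup V] [Module F V] [FiniteDimensional F V]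
    (g : V →ₗ[F] V) : ℂ :=
  X (finrank F V) (LinearMap.toMatrix (finBasis F V) (finBasis F V) g)

theorem ev_basis {X : GF F} (hX : IsCl X) {k : ℕ} (b : Basis (Fin k) F V) (g : V →ₗ[F] V) :
    ev X V g = X k (LinearMap.toMatrix b b g) := by
  have hk : k = finrank F V := by
    rw [finrank_eq_card_basis b]; simp
  subst hk
  unfold ev
  rw [← basis_toMatrix_mul_linearMap_toMatrix_mul_basis_toMatrix (finBasis F V) b (finBasis F V) b g]
  exact hX _ _ _ _ (by simp [Basis.toMatrix_mul_toMatrix_flip])

theorem ev_congr {X : GF F} (hX : IsCl X) (φ : V ≃ₗ[F] W) {g : V →ₗ[F] V} {g' : W →ₗ[F] W}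
    (h : ∀ x, g' (φ x) = φ (g x)) : ev X W g' = ev X V g := by
  rw [ev_basis hX ((finBasis F V).map φ) g', ev_basis hX (finBasis F V) g]
  congr 1
  ext i j
  simp [LinearMap.toMatrix_apply, h]

theorem ev_toLin' {X : GF F} (hX : IsCl X) {n : ℕ} (A : Matrix (Fin n) (Fin n) F) :
    ev X (Fin n → F) (Matrix.toLin' A) = X n A := by
  rw [ev_basis hX (Pi.basisFun F (Fin n))]
  simp

end Ev

section Instances

variable {V W : Type u} [AddCommGroup V] [Module F V] [FiniteDimensional F V]
  [AddCommGroup W] [Module F W] [FiniteDimensional F W]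

noncomputable instance instFintypeSub : Fintype (Submodule F V) :=
  haveI : Finite V := Module.finite_of_finite F
  haveI : Finite (Submodule F V) := Finite.of_injective (fun S => (S : Set V)) SetLike.coe_injective
  Fintype.ofFinite _

noncomputable instance instFintypeHom : Fintype (V →ₗ[F] W) :=
  haveI : Finite V := Module.finite_of_finite F
  haveI : Finite W := Module.finite_of_finite F
  haveI : Finite (V →ₗ[F] W) := Finite.of_injective (fun f => (f : V → W)) DFunLike.coe_injective
  Fintype.ofFinite _

end Instances

section Hall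

variable {V W : Type u} [AddCommGroup V] [Module F V] [FiniteDimensional F V]
  [AddCommGroup W] [Module F W] [FiniteDimensional F W]

/-- `W` is stable under `g`. -/
def Stab (g : V →ₗ[F] V) (S : Submodule F V) : Prop := ∀ x ∈ S, g x ∈ S

open Classical in
/-- The summand of the Hall product. -/
noncomputable def term (X Y : GF F) (g : V →ₗ[F] V) (S : Submodule F V) : ℂ :=
  if h : Stab g S then ev X S (g.restrict h) * ev Y (V ⧸ S) (S.mapQ S g h) else 0

/-- The Hall product evaluated on an endomorphism. -/
noncomputable def hall (X Y : GF F) (g : V →ₗ[F] V) : ℂ := ∑ S : Submodule F V, term X Y g S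

theorem term_of_stab (X Y : GF F) {g : V →ₗ[F] V} {S : Submodule F V} (h : Stab g S) :
    term X Y g S = ev X S (g.restrict h) * ev Y (V ⧸ S) (S.mapQ S g h) := by
  unfold term; rw [dif_pos h]

theorem term_of_not_stab (X Y : GF F) {g : V →ₗ[F] V} {S : Submodule F V} (h : ¬ Stab g S) :
    term X Y g S = 0 := by
  unfold term; rw [dif_neg h]

theorem stab_map_iff (φ : V ≃ₗ[F] W) {g : V →ₗ[F] V} {g' : W →ₗ[F] W}
    (h : ∀ x, g' (φ x) = φ (g x)) (S : Submodule F V) :
    Stab g' (S.map (φ : V →ₗ[F] W)) ↔ Stab g S := by
  constructor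
  · intro hS x hx
    have := hS (φ x) (Submodule.mem_map_of_mem hx)
    rw [h] at this
    obtain ⟨y, hy, hxy⟩ := this
    have : y = g x := φ.injective hxy
    exact this ▸ hy
  · rintro hS _ ⟨x, hx, rfl⟩
    have : g' (φ x) = φ (g x) := h x
    exact ⟨g x, hS x hx, this.symm⟩

theorem term_congr {X Y : GF F} (hX : IsCl X) (hY : IsCl Y) (φ : V ≃ₗ[F] W) {g : V →ₗ[F] V}
    {g' : W →ₗ[F] W} (h : ∀ x, g' (φ x) = φ (g x)) (S : Submodule F V) :
    term X Y g' (S.map (φ : V →ₗ[F] W)) = term X Y g S := by
  by_cases hS : Stab g S
  · have hS' := (stab_map_iff φ h S).2 hS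
    rw [term_of_stab X Y hS, term_of_stab X Y hS']
    congr 1
    · apply ev_congr hX (φ.submoduleMap S)
      intro x
      apply Subtype.ext
      exact h x
    · apply ev_congr hY (Submodule.Quotient.equiv S (S.map (φ : V →ₗ[F] W)) φ rfl)
      intro x
      induction x using Submodule.Quotient.induction_on with
      | H x =>
        show Submodule.Quotient.mk (g' (φ x)) = Submodule.Quotient.mk (φ (g x))
        rw [h]
  · have hS' : ¬ Stab g' (S.map (φ : V →ₗ[F] W)) := fun hh => hS ((stab_map_iff φ h S).1 hh)
    rw [term_of_not_stab X Y hS, term_of_not_stab X Y hS']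

theorem hall_congr {X Y : GF F} (hX : IsCl X) (hY : IsCl Y) (φ : V ≃ₗ[F] W) {g : V →ₗ[F] V}
    {g' : W →ₗ[F] W} (h : ∀ x, g' (φ x) = φ (g x)) : hall X Y g' = hall X Y g := by
  unfold hall
  symm
  apply Fintype.sum_equiv (Submodule.orderIsoMapComap φ).toEquiv
  intro S
  exact (term_congr hX hY φ h S).symm

/-- The Hall product of graded functions. -/
noncomputable def mul (X Y : GF F) : GF F := fun _ A => hall X Y (Matrix.toLin' A)

theorem mul_isCl {X Y : GF F} (hX : IsCl X) (hY : IsCl Y) : IsCl (mul X Y) := by
  intro n A P Q hPQ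
  unfold mul
  have hQP : Q * P = 1 := mul_eq_one_comm.mp hPQ
  apply hall_congr hX hY (Matrix.toLinearEquiv' P ⟨Q, hQP, hPQ⟩)
  intro x
  show Matrix.toLin' (P * A * Q) (Matrix.toLin' P x) = Matrix.toLin' P (Matrix.toLin' A x)
  simp only [Matrix.toLin'_apply, Matrix.mulVec_mulVec]
  rw [Matrix.mul_assoc, Matrix.mul_assoc, hQP, Matrix.mul_one]

theorem ev_mul {X Y : GF F} (hX : IsCl X) (hY : IsCl Y) (g : V →ₗ[F] V) :
    ev (mul X Y) V g = hall X Y g := by
  rw [ev_basis (mul_isCl hX hY) (finBasis F V)]
  unfold mul
  apply hall_congr hX hY (finBasis F V).equivFun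
  intro x
  rw [Matrix.toLin'_apply]
  have := LinearMap.toMatrix_mulVec_repr (finBasis F V) (finBasis F V) g x
  simpa [Basis.equivFun_apply] using this

/-- The unit of the Hall product. -/
noncomputable def unit : GF F := fun n _ => if n = 0 then 1 else 0

theorem unit_isCl : IsCl (unit : GF F) := fun _ _ _ _ _ => rfl

theorem ev_unit (g : V →ₗ[F] V) : ev (unit : GF F) V g = if finrank F V = 0 then 1 else 0 := rfl

/-- Sum over all subspaces concentrated in one subspace. -/
theorem hall_mul_unit {X : GF F} (hX : IsCl X) (g : V →ₗ[F] V) :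
    hall X (unit : GF F) g = ev X V g := by
  unfold hall
  rw [Finset.sum_eq_single ⊤]
  · have h : Stab g ⊤ := fun x _ => Submodule.mem_top
    rw [term_of_stab X _ h, ev_unit]
    have : finrank F (V ⧸ (⊤ : Submodule F V)) = 0 := by
      have := Submodule.finrank_quotient_add_finrank (⊤ : Submodule F V)
      rw [finrank_top] at this
      omega
    rw [if_pos this, mul_one]
    symm
    apply ev_congr hX (Submodule.topEquiv (R := F) (M := V))
    intro x
    rfl
  · intro S _ hS
    by_cases h : Stab g S
    · rw [term_of_stab X _ h, ev_unit]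
      have : finrank F (V ⧸ S) ≠ 0 := by
        intro h0
        apply hS
        have h1 := Submodule.finrank_quotient_add_finrank S
        apply Submodule.eq_top_of_finrank_eq
        omega
      rw [if_neg this, mul_zero]
    · exact term_of_not_stab X _ h
  · simp

theorem hall_unit_mul {X : GF F} (hX : IsCl X) (g : V →ₗ[F] V) :
    hall (unit : GF F) X g = ev X V g := by
  unfold hall
  rw [Finset.sum_eq_single ⊥]
  · have h : Stab g ⊥ := fun x hx => by
      rw [Submodule.mem_bot] at hx ⊢
      simp [hx]
    rw [term_of_stab _ X h, ev_unit]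
    have : finrank F (⊥ : Submodule F V) = 0 := finrank_bot F V
    rw [if_pos this, one_mul]
    symm
    apply ev_congr hX (Submodule.quotEquivOfEqBot (⊥ : Submodule F V) rfl)
    intro x
    induction x using Submodule.Quotient.induction_on with
    | H x =>
      rfl
  · intro S _ hS
    by_cases h : Stab g S
    · rw [term_of_stab _ X h, ev_unit]
      have : finrank F S ≠ 0 := by
        intro h0
        exact hS (Submodule.finrank_eq_zero.mp h0)
      rw [if_neg this, zero_mul]
    · exact term_of_not_stab _ X h
  · simp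

theorem mul_unit {X : GF F} (hX : IsCl X) : mul X (unit : GF F) = X := by
  funext n A
  unfold mul
  rw [hall_mul_unit hX, ev_toLin' hX]

theorem unit_mul {X : GF F} (hX : IsCl X) : mul (unit : GF F) X = X := by
  funext n A
  unfold mul
  rw [hall_unit_mul hX, ev_toLin' hX]

end Hall

end Cfsg.Agent.Lib.HGBasic
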