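import Mathlib
import Cfsg.Agent.Lib.HGBasic
set_option autoImplicit false
set_option linter.unusedSectionVars false

/-!
# Universal forms of restriction and quotient; associativity of the Hall product
-/

namespace Cfsg.Agent.Lib.HGAssoc

open Module Cfsg.Agent.Lib.HGBasic

universe u

variable {F : Type u} [Field F] [Finite F]

section Univ

variable {V N : Type u} [AddCommGroup V] [Module F V] [FiniteDimensional F V]
  [AddCommGroup N] [Module F N] [FiniteDimensional F N]

/-- Restriction to a stable subspace, computed along any injection with that range. -/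
theorem ev_sub {X : GF F} (hX : IsCl X) {g : V →ₗ[F] V} {S : Submodule F V} (hst : Stab g S)
    (i : N →ₗ[F] V) (hi : Function.Injective i) (hS : LinearMap.range i = S) (k : N →ₗ[F] N)
    (h : ∀ x, i (k x) = g (i x)) :
    ev X N k = ev X S (g.restrict hst) := by
  subst hS
  symm
  apply ev_congr hX (LinearEquiv.ofInjective i hi)
  intro x
  apply Subtype.ext
  show g (i x) = i (k x)
  exact (h x).symm

/-- Action on a quotient, computed along any surjection with that kernel. -/
theorem ev_quot {X : GF F} (hX : IsCl X) {g : V →ₗ[F] V} {S : Submodule F V} (hst : Stab g S)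
    (f : V →ₗ[F] N) (hf : Function.Surjective f) (hS : LinearMap.ker f = S) (k : N →ₗ[F] N)
    (h : ∀ x, f (g x) = k (f x)) :
    ev X N k = ev X (V ⧸ S) (S.mapQ S g hst) := by
  subst hS
  apply ev_congr hX (f.quotKerEquivOfSurjective hf)
  intro x
  induction x using Submodule.Quotient.induction_on with
  | H x =>
    show k (f x) = f (g x)
    exact (h x).symm

variable {N₁ N₂ : Type u} [AddCommGroup N₁] [Module F N₁] [FiniteDimensional F N₁]
  [AddCommGroup N₂] [Module F N₂] [FiniteDimensional F N₂]

/-- The term of the Hall product, computed along an exact sequence. -/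
theorem term_eq {X Y : GF F} (hX : IsCl X) (hY : IsCl Y) {g : V →ₗ[F] V} {S : Submodule F V}
    (hst : Stab g S) (i : N₁ →ₗ[F] V) (hi : Function.Injective i) (hS : LinearMap.range i = S)
    (k₁ : N₁ →ₗ[F] N₁) (h₁ : ∀ x, i (k₁ x) = g (i x))
    (f : V →ₗ[F] N₂) (hf : Function.Surjective f) (hS' : LinearMap.ker f = S) (k₂ : N₂ →ₗ[F] N₂)
    (h₂ : ∀ x, f (g x) = k₂ (f x)) :
    term X Y g S = ev X N₁ k₁ * ev Y N₂ k₂ := by
  rw [term_of_stab X Y hst, ev_sub hX hst i hi hS k₁ h₁, ev_quot hY hst f hf hS' k₂ h₂]

end Univ

section Assoc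

variable {V : Type u} [AddCommGroup V] [Module F V] [FiniteDimensional F V]

open Classical in
/-- Left-nested summand. -/
noncomputable def lTerm (X Y Z : GF F) (g : V →ₗ[F] V) (W₂ : Submodule F V) (A : Submodule F W₂) : ℂ :=
  if h : Stab g W₂ then term X Y (g.restrict h) A * ev Z (V ⧸ W₂) (W₂.mapQ W₂ g h) else 0

open Classical in
/-- Right-nested summand. -/
noncomputable def rTerm (X Y Z : GF F) (g : V →ₗ[F] V) (W₁ : Submodule F V) (B : Submodule F (V ⧸ W₁)) : ℂ :=
  if h : Stab g W₁ then ev X W₁ (g.restrict h) * term Y Z (W₁.mapQ W₁ g h) B else 0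

theorem lTerm_eq_rTerm {X Y Z : GF F} (hX : IsCl X) (hY : IsCl Y) (hZ : IsCl Z) (g : V →ₗ[F] V)
    (W₁ : Submodule F V) (B : Submodule F (V ⧸ W₁)) :
    lTerm X Y Z g (B.comap W₁.mkQ) (W₁.comap (B.comap W₁.mkQ).subtype) = rTerm X Y Z g W₁ B := by
  set W₂ := B.comap W₁.mkQ with hW₂
  have hle : W₁ ≤ W₂ := fun x hx => by
    show W₁.mkQ x ∈ B
    have : W₁.mkQ x = 0 := by simpa using hx
    rw [this]; exact B.zero_mem
  set A := W₁.comap W₂.subtype with hA
  unfold lTerm rTerm
  by_cases h₂ : Stab g W₂
  · rw [dif_pos h₂]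
    by_cases hA' : Stab (g.restrict h₂) A
    · have h₁ : Stab g W₁ := fun x hx => by
        have := hA' ⟨x, hle hx⟩ (by simpa [hA] using hx)
        exact this
      have hB : Stab (W₁.mapQ W₁ g h₁) B := by
        intro y hy
        obtain ⟨x, rfl⟩ := W₁.mkQ_surjective y
        have hx : x ∈ W₂ := hy
        exact h₂ x hx
      rw [dif_pos h₁, term_of_stab X Y hA', term_of_stab Y Z hB, mul_assoc]
      congr 1
      · -- `X` part
        symm
        apply ev_sub hX hA' (Submodule.inclusion hle) (Submodule.inclusion_injective hle)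
        · ext x
          constructor
          · rintro ⟨y, rfl⟩
            exact y.2
          · intro hx
            exact ⟨⟨x, hx⟩, rfl⟩
        · intro x
          rfl
      · congr 1
        · -- `Y` part
          symm
          let f : W₂ →ₗ[F] B :=
            LinearMap.codRestrict B (W₁.mkQ.comp W₂.subtype) (fun x => x.2)
          apply ev_quot hY hA' f
          · rintro ⟨y, hy⟩
            obtain ⟨x, rfl⟩ := W₁.mkQ_surjective y
            exact ⟨⟨x, hy⟩, rfl⟩
          · ext x
            simp only [LinearMap.mem_ker, hA, Submodule.mem_comap]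
            constructor
            · intro hx
              have : W₁.mkQ (x : V) = 0 := congrArg Subtype.val hx
              simpa using this
            · intro hx
              apply Subtype.ext
              show W₁.mkQ (x : V) = 0
              simpa using hx
          · intro x
            rfl
        · -- `Z` part
          symm
          let f : V →ₗ[F] (V ⧸ W₁) ⧸ B := B.mkQ.comp W₁.mkQ
          apply ev_quot hZ h₂ f
          · intro y
            obtain ⟨y, rfl⟩ := B.mkQ_surjective y
            obtain ⟨x, rfl⟩ := W₁.mkQ_surjective y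
            exact ⟨x, rfl⟩
          · ext x
            simp only [LinearMap.mem_ker, f, LinearMap.comp_apply]
            show B.mkQ (W₁.mkQ x) = 0 ↔ x ∈ W₂
            simp [hW₂]
          · intro x
            rfl
    · have hnot : ¬ (∃ h₁ : Stab g W₁, Stab (W₁.mapQ W₁ g h₁) B) := by
        rintro ⟨h₁, _⟩
        apply hA'
        rintro ⟨x, hx⟩ hxA
        show g x ∈ W₁
        exact h₁ x hxA
      by_cases h₁ : Stab g W₁
      · rw [dif_pos h₁, term_of_not_stab X Y hA']
        have hB : ¬ Stab (W₁.mapQ W₁ g h₁) B := fun hb => hnot ⟨h₁, hb⟩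
        rw [term_of_not_stab Y Z hB, zero_mul, mul_zero]
      · rw [dif_neg h₁, term_of_not_stab X Y hA', zero_mul]
  · rw [dif_neg h₂]
    by_cases h₁ : Stab g W₁
    · rw [dif_pos h₁]
      have hB : ¬ Stab (W₁.mapQ W₁ g h₁) B := by
        intro hb
        apply h₂
        intro x hx
        have := hb (W₁.mkQ x) hx
        exact this
      rw [term_of_not_stab Y Z hB, mul_zero]
    · rw [dif_neg h₁]

open Classical in
/-- Common form of the two nested sums. -/
noncomputable def pTerm (X Y Z : GF F) (g : V →ₗ[F] V) (W₁ W₂ : Submodule F V) : ℂ :=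
  if W₁ ≤ W₂ then lTerm X Y Z g W₂ (W₁.comap W₂.subtype) else 0

theorem hall_assoc {X Y Z : GF F} (hX : IsCl X) (hY : IsCl Y) (hZ : IsCl Z) (g : V →ₗ[F] V) :
    hall (mul X Y) Z g = hall X (mul Y Z) g := by
  have hL : ∀ W₂ : Submodule F V, term (mul X Y) Z g W₂ = ∑ W₁, pTerm X Y Z g W₁ W₂ := by
    intro W₂
    have h0 : term (mul X Y) Z g W₂ = ∑ A : Submodule F W₂, lTerm X Y Z g W₂ A := by
      by_cases h : Stab g W₂
      · rw [term_of_stab _ Z h, ev_mul hX hY]
        unfold hall lTerm
        rw [Finset.sum_mul]
        apply Finset.sum_congr rfl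
        intro A _
        rw [dif_pos h]
      · rw [term_of_not_stab _ Z h]
        symm
        apply Finset.sum_eq_zero
        intro A _
        unfold lTerm
        rw [dif_neg h]
    rw [h0]
    apply Fintype.sum_of_injective (fun A : Submodule F W₂ => A.map W₂.subtype)
    · exact Submodule.map_injective_of_injective W₂.injective_subtype
    · intro W₁ hW₁
      unfold pTerm
      rw [if_neg]
      intro hle
      apply hW₁
      refine ⟨W₁.comap W₂.subtype, ?_⟩
      simp [Submodule.map_comap_subtype, hle]
    · intro A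
      unfold pTerm
      rw [if_pos (by
        rintro _ ⟨x, _, rfl⟩
        exact x.2)]
      rw [Submodule.comap_map_eq_of_injective W₂.injective_subtype]
  have hR : ∀ W₁ : Submodule F V, term X (mul Y Z) g W₁ = ∑ W₂, pTerm X Y Z g W₁ W₂ := by
    intro W₁
    have h0 : term X (mul Y Z) g W₁ = ∑ B : Submodule F (V ⧸ W₁), rTerm X Y Z g W₁ B := by
      by_cases h : Stab g W₁
      · rw [term_of_stab X _ h, ev_mul hY hZ]
        unfold hall rTerm
        rw [Finset.mul_sum]
        apply Finset.sum_congr rfl
        intro A _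
        rw [dif_pos h]
      · rw [term_of_not_stab X _ h]
        symm
        apply Finset.sum_eq_zero
        intro A _
        unfold rTerm
        rw [dif_neg h]
    rw [h0]
    apply Fintype.sum_of_injective (fun B : Submodule F (V ⧸ W₁) => B.comap W₁.mkQ)
    · exact Submodule.comap_injective_of_surjective W₁.mkQ_surjective
    · intro W₂ hW₂
      unfold pTerm
      rw [if_neg]
      intro hle
      apply hW₂
      refine ⟨W₂.map W₁.mkQ, ?_⟩
      simp only [Submodule.comap_map_mkQ]
      exact sup_eq_right.mpr hle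
    · intro B
      unfold pTerm
      have hle : W₁ ≤ B.comap W₁.mkQ := fun x hx => by
        show W₁.mkQ x ∈ B
        have : W₁.mkQ x = 0 := by simpa using hx
        rw [this]; exact B.zero_mem
      rw [if_pos hle]
      exact (lTerm_eq_rTerm hX hY hZ g W₁ B).symm
  unfold hall
  simp_rw [hL, hR]
  exact Finset.sum_comm

theorem mul_assoc' {X Y Z : GF F} (hX : IsCl X) (hY : IsCl Y) (hZ : IsCl Z) :
    mul (mul X Y) Z = mul X (mul Y Z) := by
  funext n A
  exact hall_assoc hX hY hZ _

end Assoc

end Cfsg.Agent.Lib.HGAssoc
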