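import Mathlib
import Cfsg.Agent.Lib.HGAssoc
set_option autoImplicit false
set_option linter.unusedSectionVars false

/-!
# Green's formula for the Hall product

`rr X a b` is the average of `X` over the block upper triangular endomorphisms of `V₁ × V₂` with
diagonal blocks `a` and `b`.  Green's formula expresses `rr (mul X Y) a b` as a sum over pairs of
stable subspaces.
-/

namespace Cfsg.Agent.Lib.HGGreen

open Module Cfsg.Agent.Lib.HGBasic Cfsg.Agent.Lib.HGAssoc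

universe u

variable {F : Type u} [Field F] [Finite F]

/-- Averaging along a surjective additive map. -/
theorem sum_comp_surj {A T : Type*} [AddCommGroup A] [AddCommGroup T] [Fintype A] [Fintype T]
    (L : A →+ T) (hL : Function.Surjective L) (f : T → ℂ) :
    (Fintype.card T : ℂ) * ∑ a, f (L a) = (Fintype.card A : ℂ) * ∑ t, f t := by
  have h1 : ∀ t : T, ∑ a, f (L a) = ∑ a, f (L a + t) := by
    intro t
    obtain ⟨c, rfl⟩ := hL t
    apply Fintype.sum_equiv (Equiv.addRight (-c))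
    intro a
    simp
  calc (Fintype.card T : ℂ) * ∑ a, f (L a) = ∑ _t : T, ∑ a, f (L a) := by
        simp [Finset.card_univ]
    _ = ∑ t : T, ∑ a, f (L a + t) := by
        apply Finset.sum_congr rfl
        intro t _
        exact h1 t
    _ = ∑ a : A, ∑ t : T, f (L a + t) := Finset.sum_comm
    _ = ∑ _a : A, ∑ t : T, f t := by
        apply Finset.sum_congr rfl
        intro a _
        apply Fintype.sum_equiv (Equiv.addLeft (L a))
        intro t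
        rfl
    _ = _ := by
        simp [Finset.card_univ]

section Green

variable {V₁ V₂ : Type u} [AddCommGroup V₁] [Module F V₁] [FiniteDimensional F V₁]
  [AddCommGroup V₂] [Module F V₂] [FiniteDimensional F V₂]

/-- The block upper triangular endomorphism with blocks `a`, `u`, `b`. -/
noncomputable def gU (a : V₁ →ₗ[F] V₁) (u : V₂ →ₗ[F] V₁) (b : V₂ →ₗ[F] V₂) :
    (V₁ × V₂) →ₗ[F] (V₁ × V₂) :=
  LinearMap.prod (a.comp (LinearMap.fst F V₁ V₂) + u.comp (LinearMap.snd F V₁ V₂))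
    (b.comp (LinearMap.snd F V₁ V₂))

@[simp] theorem gU_apply (a : V₁ →ₗ[F] V₁) (u : V₂ →ₗ[F] V₁) (b : V₂ →ₗ[F] V₂) (x : V₁ × V₂) :
    gU a u b x = (a x.1 + u x.2, b x.2) := rfl

/-- The average over the unipotent radical. -/
noncomputable def rr (X : GF F) (a : V₁ →ₗ[F] V₁) (b : V₂ →ₗ[F] V₂) : ℂ :=
  (Fintype.card (V₂ →ₗ[F] V₁) : ℂ)⁻¹ * ∑ u : V₂ →ₗ[F] V₁, ev X (V₁ × V₂) (gU a u b)

theorem card_hom_ne_zero {A B : Type u} [AddCommGroup A] [Module F A] [FiniteDimensional F A]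
    [AddCommGroup B] [Module F B] [FiniteDimensional F B] :
    (Fintype.card (A →ₗ[F] B) : ℂ) ≠ 0 :=
  Nat.cast_ne_zero.mpr Fintype.card_ne_zero

/-- The elementary automorphism. -/
noncomputable def tau (σ : V₂ →ₗ[F] V₁) : (V₁ × V₂) ≃ₗ[F] (V₁ × V₂) :=
  LinearEquiv.ofLinearMap
    (LinearMap.prod (LinearMap.fst F V₁ V₂ + σ.comp (LinearMap.snd F V₁ V₂)) (LinearMap.snd F V₁ V₂))
    (LinearMap.prod (LinearMap.fst F V₁ V₂ - σ.comp (LinearMap.snd F V₁ V₂)) (LinearMap.snd F V₁ V₂))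
    (by ext <;> simp) (by ext <;> simp)

@[simp] theorem tau_apply (σ : V₂ →ₗ[F] V₁) (x : V₁ × V₂) : tau σ x = (x.1 + σ x.2, x.2) := rfl

theorem term_tau {X Y : GF F} (hX : IsCl X) (hY : IsCl Y) (a : V₁ →ₗ[F] V₁) (u : V₂ →ₗ[F] V₁)
    (b : V₂ →ₗ[F] V₂) (σ : V₂ →ₗ[F] V₁) (S : Submodule F (V₁ × V₂)) :
    term X Y (gU a u b) (S.map (tau σ : (V₁ × V₂) →ₗ[F] (V₁ × V₂))) =
      term X Y (gU a (u + a.comp σ - σ.comp b) b) S := by
  apply term_congr hX hY (tau σ)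
  rintro ⟨x, y⟩
  ext <;> simp [add_assoc, add_comm, add_left_comm]

theorem sum_term_tau {X Y : GF F} (hX : IsCl X) (hY : IsCl Y) (a : V₁ →ₗ[F] V₁)
    (b : V₂ →ₗ[F] V₂) (σ : V₂ →ₗ[F] V₁) (S : Submodule F (V₁ × V₂)) :
    ∑ u : V₂ →ₗ[F] V₁, term X Y (gU a u b) (S.map (tau σ : (V₁ × V₂) →ₗ[F] (V₁ × V₂))) =
      ∑ u : V₂ →ₗ[F] V₁, term X Y (gU a u b) S := by
  simp_rw [term_tau hX hY]
  apply Fintype.sum_equiv (Equiv.addRight (a.comp σ - σ.comp b))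
  intro u
  simp [add_sub_assoc]

/-- The data of splittings used to parametrize subspaces. -/
structure Split (W₁ : Submodule F V₁) (W₂ : Submodule F V₂) where
  π : V₂ →ₗ[F] W₂
  hπ : ∀ y : W₂, π y = y
  ρ : V₁ →ₗ[F] W₁
  hρ : ∀ x : W₁, ρ x = x
  κ : (V₁ ⧸ W₁) →ₗ[F] V₁
  hκ : ∀ z, (Submodule.Quotient.mk (κ z) : V₁ ⧸ W₁) = z
  hρκ : ∀ z, ρ (κ z) = 0

theorem exists_split (W₁ : Submodule F V₁) (W₂ : Submodule F V₂) : Nonempty (Split W₁ W₂) := by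
  obtain ⟨π, hπ⟩ := W₂.subtype.exists_leftInverse_of_injective W₂.ker_subtype
  obtain ⟨ρ, hρ⟩ := W₁.subtype.exists_leftInverse_of_injective W₁.ker_subtype
  obtain ⟨κ, hκ⟩ := W₁.mkQ.exists_rightInverse_of_surjective W₁.range_mkQ
  refine ⟨⟨π, fun y => LinearMap.congr_fun hπ y, ρ, fun x => LinearMap.congr_fun hρ x,
    κ - W₁.subtype.comp (ρ.comp κ), ?_, ?_⟩⟩
  · intro z
    have h1 : (Submodule.Quotient.mk (κ z) : V₁ ⧸ W₁) = z := LinearMap.congr_fun hκ z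
    have h2 : (Submodule.Quotient.mk ((ρ (κ z) : W₁) : V₁) : V₁ ⧸ W₁) = 0 :=
      (Submodule.Quotient.mk_eq_zero _).2 (ρ (κ z)).2
    simp [h1, h2]
  · intro z
    have h2 : ∀ x : W₁, ρ x = x := fun x => LinearMap.congr_fun hρ x
    simp [h2]

namespace Split

variable {W₁ : Submodule F V₁} {W₂ : Submodule F V₂} (D : Split W₁ W₂)

/-- The section attached to `s`. -/
noncomputable def sg (s : W₂ →ₗ[F] V₁ ⧸ W₁) : V₂ →ₗ[F] V₁ := D.κ.comp (s.comp D.π)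

/-- The subspace with invariants `W₁`, `W₂` and gluing datum `s`. -/
noncomputable def graphS (s : W₂ →ₗ[F] V₁ ⧸ W₁) : Submodule F (V₁ × V₂) :=
  (W₁.prod W₂).map (tau (D.sg s) : (V₁ × V₂) →ₗ[F] (V₁ × V₂))

theorem mem_graphS (s : W₂ →ₗ[F] V₁ ⧸ W₁) (x : V₁) (y : V₂) :
    (x, y) ∈ D.graphS s ↔ x - D.sg s y ∈ W₁ ∧ y ∈ W₂ := by
  unfold graphS
  constructor
  · rintro ⟨⟨x', y'⟩, ⟨hx', hy'⟩, he⟩
    have h1 : x' + D.sg s y' = x := congrArg Prod.fst he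
    have h2 : y' = y := congrArg Prod.snd he
    subst h2
    subst h1
    refine ⟨by simpa using hx', hy'⟩
  · rintro ⟨h1, h2⟩
    refine ⟨(x - D.sg s y, y), ⟨h1, h2⟩, ?_⟩
    simp

theorem sg_mk (s : W₂ →ₗ[F] V₁ ⧸ W₁) (y : W₂) :
    (Submodule.Quotient.mk (D.sg s y) : V₁ ⧸ W₁) = s y := by
  unfold sg
  simp [D.hκ, D.hπ]

theorem comap_graphS (s : W₂ →ₗ[F] V₁ ⧸ W₁) :
    (D.graphS s).comap (LinearMap.inl F V₁ V₂) = W₁ := by
  ext x
  simp only [Submodule.mem_comap, LinearMap.inl_apply]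
  rw [mem_graphS]
  simp

theorem map_graphS (s : W₂ →ₗ[F] V₁ ⧸ W₁) :
    (D.graphS s).map (LinearMap.snd F V₁ V₂) = W₂ := by
  ext y
  simp only [Submodule.mem_map, LinearMap.snd_apply]
  constructor
  · rintro ⟨⟨x', y'⟩, h, rfl⟩
    exact ((D.mem_graphS s x' y').1 h).2
  · intro hy
    refine ⟨(D.sg s y, y), ?_, rfl⟩
    rw [mem_graphS]
    simp [hy]

theorem graphS_injective : Function.Injective D.graphS := by
  intro s s' h
  ext ⟨y, hy⟩
  have h1 : (D.sg s y, y) ∈ D.graphS s := by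
    rw [mem_graphS]; simp [hy]
  rw [h, mem_graphS] at h1
  have h2 := (Submodule.Quotient.eq W₁).2 h1.1
  have h3 := D.sg_mk s ⟨y, hy⟩
  have h4 := D.sg_mk s' ⟨y, hy⟩
  simp only at h3 h4
  rw [← h3, ← h4]
  exact h2

theorem exists_graphS (W : Submodule F (V₁ × V₂))
    (h1 : W.comap (LinearMap.inl F V₁ V₂) = W₁) (h2 : W.map (LinearMap.snd F V₁ V₂) = W₂) :
    ∃ s, D.graphS s = W := by
  subst h1
  subst h2
  -- a linear section of `W → W₂`
  let p : W →ₗ[F] W.map (LinearMap.snd F V₁ V₂) :=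
    ((LinearMap.snd F V₁ V₂).domRestrict W).codRestrict _ (fun x => ⟨x, x.2, rfl⟩)
  have hp : LinearMap.range p = ⊤ := by
    rw [LinearMap.range_eq_top]
    rintro ⟨y, x, hx, rfl⟩
    exact ⟨⟨x, hx⟩, rfl⟩
  obtain ⟨r, hr⟩ := p.exists_rightInverse_of_surjective hp
  have hr' : ∀ y, ((r y : W) : V₁ × V₂).2 = y := fun y => by
    have := LinearMap.congr_fun hr y
    exact congrArg Subtype.val this
  let s : W.map (LinearMap.snd F V₁ V₂) →ₗ[F] V₁ ⧸ (W.comap (LinearMap.inl F V₁ V₂)) :=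
    (W.comap (LinearMap.inl F V₁ V₂)).mkQ.comp
      ((LinearMap.fst F V₁ V₂).comp (W.subtype.comp r))
  refine ⟨s, ?_⟩
  have key : ∀ y (hy : y ∈ W.map (LinearMap.snd F V₁ V₂)),
      D.sg s y - ((r ⟨y, hy⟩ : W) : V₁ × V₂).1 ∈ W.comap (LinearMap.inl F V₁ V₂) := by
    intro y hy
    have h3 := D.sg_mk s ⟨y, hy⟩
    exact (Submodule.Quotient.eq _).1 h3
  ext ⟨x, y⟩
  rw [mem_graphS]
  constructor
  · rintro ⟨h3, h4⟩
    have h5 := key y h4
    have h6 : x - ((r ⟨y, h4⟩ : W) : V₁ × V₂).1 ∈ W.comap (LinearMap.inl F V₁ V₂) := by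
      have := (W.comap (LinearMap.inl F V₁ V₂)).add_mem h3 h5
      simpa using this
    have h7 : ((x - ((r ⟨y, h4⟩ : W) : V₁ × V₂).1, (0 : V₂)) : V₁ × V₂) ∈ W := h6
    have h8 := W.add_mem h7 (r ⟨y, h4⟩).2
    have h9 : ((r ⟨y, h4⟩ : W) : V₁ × V₂).2 = y := hr' ⟨y, h4⟩
    have : (x - ((r ⟨y, h4⟩ : W) : V₁ × V₂).1, (0 : V₂)) + ((r ⟨y, h4⟩ : W) : V₁ × V₂) = (x, y) := by
      ext
      · simp
      · simp [h9]
    rwa [this] at h8
  · intro hxy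
    have h4 : y ∈ W.map (LinearMap.snd F V₁ V₂) := ⟨(x, y), hxy, rfl⟩
    refine ⟨?_, h4⟩
    have h5 := key y h4
    have h9 : ((r ⟨y, h4⟩ : W) : V₁ × V₂).2 = y := hr' ⟨y, h4⟩
    have h6 : x - ((r ⟨y, h4⟩ : W) : V₁ × V₂).1 ∈ W.comap (LinearMap.inl F V₁ V₂) := by
      have h7 := W.sub_mem hxy (r ⟨y, h4⟩).2
      have : (x, y) - ((r ⟨y, h4⟩ : W) : V₁ × V₂) = (x - ((r ⟨y, h4⟩ : W) : V₁ × V₂).1, 0) := by
        ext
        · simp
        · simp [h9]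
      rw [this] at h7
      exact h7
    have := (W.comap (LinearMap.inl F V₁ V₂)).sub_mem h6 h5
    simpa using this

/-- The three components of a block `u`. -/
noncomputable def phi1 (u : V₂ →ₗ[F] V₁) : W₂ →ₗ[F] V₁ ⧸ W₁ := W₁.mkQ.comp (u.comp W₂.subtype)

noncomputable def phi2 (u : V₂ →ₗ[F] V₁) : W₂ →ₗ[F] W₁ := D.ρ.comp (u.comp W₂.subtype)

noncomputable def phi3 (u : V₂ →ₗ[F] V₁) : (V₂ ⧸ W₂) →ₗ[F] (V₁ ⧸ W₁) :=
  W₂.liftQ (W₁.mkQ.comp (u.comp (LinearMap.id - W₂.subtype.comp D.π))) (by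
    intro y hy
    have h := D.hπ ⟨y, hy⟩
    have h' : (D.π y : V₂) = y := congrArg Subtype.val h
    simp [h'])

theorem phi3_mk (u : V₂ →ₗ[F] V₁) (y : V₂) :
    D.phi3 u (Submodule.Quotient.mk y) = Submodule.Quotient.mk (u (y - D.π y)) := by
  unfold phi3
  simp

/-- All three components together. -/
noncomputable def phi : (V₂ →ₗ[F] V₁) →+ (W₂ →ₗ[F] V₁ ⧸ W₁) × (W₂ →ₗ[F] W₁) × ((V₂ ⧸ W₂) →ₗ[F] (V₁ ⧸ W₁)) :=
  AddMonoidHom.mk' (fun u => (phi1 u, D.phi2 u, D.phi3 u)) (by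
    intro u v
    refine Prod.ext ?_ (Prod.ext ?_ ?_)
    · ext y; simp [phi1]
    · ext y; simp [phi2]
    · apply Submodule.linearMap_qext
      ext y
      simp [phi3_mk])

theorem phi_surjective : Function.Surjective D.phi := by
  rintro ⟨r, p, q⟩
  refine ⟨D.κ.comp (r.comp D.π) + W₁.subtype.comp (p.comp D.π) + D.κ.comp (q.comp W₂.mkQ), ?_⟩
  have h0 : ∀ y : V₂, D.π (y - D.π y) = 0 := by
    intro y
    rw [map_sub, D.hπ (D.π y), sub_self]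
  refine Prod.ext ?_ (Prod.ext ?_ ?_)
  · ext y
    show (Submodule.Quotient.mk _ : V₁ ⧸ W₁) = _
    have h5 : (Submodule.Quotient.mk (y : V₂) : V₂ ⧸ W₂) = 0 :=
      (Submodule.Quotient.mk_eq_zero _).2 y.2
    have h6 : (Submodule.Quotient.mk ((p y : W₁) : V₁) : V₁ ⧸ W₁) = 0 :=
      (Submodule.Quotient.mk_eq_zero _).2 (p y).2
    simp [D.hκ, D.hπ, h5, h6]
  · ext y
    show ((D.ρ _ : W₁) : V₁) = _
    have h5 : (Submodule.Quotient.mk (y : V₂) : V₂ ⧸ W₂) = 0 :=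
      (Submodule.Quotient.mk_eq_zero _).2 y.2
    simp [D.hρκ, D.hρ, D.hπ, h5]
  · apply Submodule.linearMap_qext
    ext y
    show D.phi3 _ (Submodule.Quotient.mk y) = q (Submodule.Quotient.mk y)
    rw [phi3_mk]
    have h1 : (Submodule.Quotient.mk (y - D.π y) : V₂ ⧸ W₂) = Submodule.Quotient.mk y := by
      rw [Submodule.Quotient.eq]
      simp
    simp [h0, h1, D.hκ]

/-- Stability of a product subspace. -/
theorem stab_prod_iff (a : V₁ →ₗ[F] V₁) (u : V₂ →ₗ[F] V₁) (b : V₂ →ₗ[F] V₂) (h₁ : Stab a W₁)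
    (h₂ : Stab b W₂) : Stab (gU a u b) (W₁.prod W₂) ↔ phi1 u = (0 : W₂ →ₗ[F] V₁ ⧸ W₁) := by
  constructor
  · intro h
    ext ⟨y, hy⟩
    have := h (0, y) ⟨W₁.zero_mem, hy⟩
    have h3 : u y ∈ W₁ := by simpa using this.1
    simpa [phi1] using h3
  · rintro h ⟨x, y⟩ ⟨hx, hy⟩
    have h3 : u y ∈ W₁ := by
      have := LinearMap.congr_fun h ⟨y, hy⟩
      simpa [phi1] using this
    exact ⟨W₁.add_mem (h₁ x hx) h3, h₂ y hy⟩

open Classical in
/-- The term on a product subspace in terms of the three components of `u`. -/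
theorem term_prod {X Y : GF F} (hX : IsCl X) (hY : IsCl Y) (a : V₁ →ₗ[F] V₁) (u : V₂ →ₗ[F] V₁)
    (b : V₂ →ₗ[F] V₂) (h₁ : Stab a W₁) (h₂ : Stab b W₂) :
    term X Y (gU a u b) (W₁.prod W₂) =
      (if phi1 u = (0 : W₂ →ₗ[F] V₁ ⧸ W₁) then
        ev X (W₁ × W₂) (gU (a.restrict h₁) (D.phi2 u) (b.restrict h₂)) *
          ev Y ((V₁ ⧸ W₁) × (V₂ ⧸ W₂)) (gU (W₁.mapQ W₁ a h₁) (D.phi3 u) (W₂.mapQ W₂ b h₂))
       else 0) := by
  by_cases h : phi1 u = (0 : W₂ →ₗ[F] V₁ ⧸ W₁)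
  · rw [if_pos h]
    have hst := (stab_prod_iff a u b h₁ h₂).2 h
    have hu : ∀ y : W₂, u y ∈ W₁ := by
      intro y
      have := LinearMap.congr_fun h y
      simpa [phi1] using this
    refine term_eq hX hY hst
      (LinearMap.prodMap W₁.subtype W₂.subtype)
      (Function.Injective.prodMap W₁.injective_subtype W₂.injective_subtype)
      (by
        ext ⟨x, y⟩
        constructor
        · rintro ⟨⟨x', y'⟩, he⟩
          have h1 : (x' : V₁) = x := congrArg Prod.fst he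
          have h2 : (y' : V₂) = y := congrArg Prod.snd he
          subst h1 h2
          exact ⟨x'.2, y'.2⟩
        · rintro ⟨hx, hy⟩
          exact ⟨(⟨x, hx⟩, ⟨y, hy⟩), rfl⟩)
      _ ?_ (LinearMap.prodMap W₁.mkQ W₂.mkQ)
      (Function.Surjective.prodMap W₁.mkQ_surjective W₂.mkQ_surjective)
      (by
        ext ⟨x, y⟩
        simp [LinearMap.mem_ker]) _ ?_
    · rintro ⟨x, y⟩
      refine Prod.ext ?_ rfl
      have h3 : (D.ρ (u y) : V₁) = u y := congrArg Subtype.val (D.hρ ⟨u y, hu y⟩)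
      show (a x : V₁) + (D.ρ (u y) : V₁) = a x + u y
      rw [h3]
    · rintro ⟨x, y⟩
      refine Prod.ext ?_ rfl
      show (Submodule.Quotient.mk (a x + u y) : V₁ ⧸ W₁) =
        Submodule.Quotient.mk (a x) + D.phi3 u (Submodule.Quotient.mk y)
      rw [phi3_mk, map_sub]
      have h4 : (Submodule.Quotient.mk (u (D.π y)) : V₁ ⧸ W₁) = 0 :=
        (Submodule.Quotient.mk_eq_zero _).2 (hu (D.π y))
      rw [Submodule.Quotient.mk_sub, h4, sub_zero, Submodule.Quotient.mk_add]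
  · rw [if_neg h]
    apply term_of_not_stab
    intro hst
    exact h ((stab_prod_iff a u b h₁ h₂).1 hst)

include D in
/-- The main computation for a product subspace. -/
theorem sum_term_prod {X Y : GF F} (hX : IsCl X) (hY : IsCl Y) (a : V₁ →ₗ[F] V₁)
    (b : V₂ →ₗ[F] V₂) (h₁ : Stab a W₁) (h₂ : Stab b W₂) :
    (Fintype.card (W₂ →ₗ[F] V₁ ⧸ W₁) : ℂ) * (Fintype.card (V₂ →ₗ[F] V₁) : ℂ)⁻¹ *
        ∑ u : V₂ →ₗ[F] V₁, term X Y (gU a u b) (W₁.prod W₂) =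
      rr X (a.restrict h₁) (b.restrict h₂) * rr Y (W₁.mapQ W₁ a h₁) (W₂.mapQ W₂ b h₂) := by
  classical
  let f : (W₂ →ₗ[F] V₁ ⧸ W₁) × (W₂ →ₗ[F] W₁) × ((V₂ ⧸ W₂) →ₗ[F] (V₁ ⧸ W₁)) → ℂ :=
    fun t => if t.1 = 0 then
      ev X (W₁ × W₂) (gU (a.restrict h₁) t.2.1 (b.restrict h₂)) *
        ev Y ((V₁ ⧸ W₁) × (V₂ ⧸ W₂)) (gU (W₁.mapQ W₁ a h₁) t.2.2 (W₂.mapQ W₂ b h₂))
     else 0
  have h1 : ∀ u : V₂ →ₗ[F] V₁, term X Y (gU a u b) (W₁.prod W₂) = f (D.phi u) := by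
    intro u
    exact D.term_prod hX hY a u b h₁ h₂
  simp_rw [h1]
  have h2 := sum_comp_surj D.phi D.phi_surjective f
  have h3 : ∑ t, f t =
      (∑ p : W₂ →ₗ[F] W₁, ev X (W₁ × W₂) (gU (a.restrict h₁) p (b.restrict h₂))) *
      (∑ q : (V₂ ⧸ W₂) →ₗ[F] (V₁ ⧸ W₁),
        ev Y ((V₁ ⧸ W₁) × (V₂ ⧸ W₂)) (gU (W₁.mapQ W₁ a h₁) q (W₂.mapQ W₂ b h₂))) := by
    rw [Fintype.sum_prod_type, Finset.sum_eq_single 0]
    · rw [Fintype.sum_prod_type, Finset.sum_mul_sum]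
      apply Finset.sum_congr rfl
      intro p _
      apply Finset.sum_congr rfl
      intro q _
      simp [f]
    · intro r _ hr
      apply Finset.sum_eq_zero
      intro t _
      simp [f, hr]
    · simp
  rw [h3] at h2
  unfold rr
  have c1 : (Fintype.card (V₂ →ₗ[F] V₁) : ℂ) ≠ 0 := card_hom_ne_zero
  have c2 : (Fintype.card (W₂ →ₗ[F] V₁ ⧸ W₁) : ℂ) ≠ 0 := card_hom_ne_zero
  have c3 : (Fintype.card (W₂ →ₗ[F] W₁) : ℂ) ≠ 0 := card_hom_ne_zero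
  have c4 : (Fintype.card ((V₂ ⧸ W₂) →ₗ[F] (V₁ ⧸ W₁)) : ℂ) ≠ 0 := card_hom_ne_zero
  simp only [Fintype.card_prod, Nat.cast_mul] at h2
  field_simp
  linear_combination h2

include D in
/-- All subspaces with invariants `W₁`, `W₂`. -/
theorem sum_fiber {X Y : GF F} (hX : IsCl X) (hY : IsCl Y) (a : V₁ →ₗ[F] V₁)
    (b : V₂ →ₗ[F] V₂) (h₁ : Stab a W₁) (h₂ : Stab b W₂) [DecidablePred fun W : Submodule F (V₁ × V₂) =>
      W.comap (LinearMap.inl F V₁ V₂) = W₁ ∧ W.map (LinearMap.snd F V₁ V₂) = W₂] :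
    (Fintype.card (V₂ →ₗ[F] V₁) : ℂ)⁻¹ *
      ∑ W ∈ Finset.univ.filter (fun W : Submodule F (V₁ × V₂) =>
          W.comap (LinearMap.inl F V₁ V₂) = W₁ ∧ W.map (LinearMap.snd F V₁ V₂) = W₂),
        ∑ u : V₂ →ₗ[F] V₁, term X Y (gU a u b) W =
      rr X (a.restrict h₁) (b.restrict h₂) * rr Y (W₁.mapQ W₁ a h₁) (W₂.mapQ W₂ b h₂) := by
  classical
  rw [← D.sum_term_prod hX hY a b h₁ h₂]
  have h3 : Finset.univ.filter (fun W : Submodule F (V₁ × V₂) =>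
      W.comap (LinearMap.inl F V₁ V₂) = W₁ ∧ W.map (LinearMap.snd F V₁ V₂) = W₂) =
      Finset.univ.image D.graphS := by
    ext W
    simp only [Finset.mem_filter, Finset.mem_univ, true_and, Finset.mem_image]
    constructor
    · rintro ⟨h4, h5⟩
      exact D.exists_graphS W h4 h5
    · rintro ⟨s, rfl⟩
      exact ⟨D.comap_graphS s, D.map_graphS s⟩
  rw [h3, Finset.sum_image (fun x _ y _ h => D.graphS_injective h)]
  have h4 : ∀ s : W₂ →ₗ[F] V₁ ⧸ W₁, ∑ u : V₂ →ₗ[F] V₁, term X Y (gU a u b) (D.graphS s) =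
      ∑ u : V₂ →ₗ[F] V₁, term X Y (gU a u b) (W₁.prod W₂) := by
    intro s
    exact sum_term_tau hX hY a b (D.sg s) (W₁.prod W₂)
  simp_rw [h4]
  rw [Finset.sum_const, Finset.card_univ, nsmul_eq_mul]
  ring

end Split

theorem stab_of_stab {a : V₁ →ₗ[F] V₁} {u : V₂ →ₗ[F] V₁} {b : V₂ →ₗ[F] V₂}
    {W : Submodule F (V₁ × V₂)} (h : Stab (gU a u b) W) :
    Stab a (W.comap (LinearMap.inl F V₁ V₂)) ∧ Stab b (W.map (LinearMap.snd F V₁ V₂)) := by
  constructor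
  · intro x hx
    have := h _ hx
    simpa using this
  · rintro _ ⟨⟨x, y⟩, hxy, rfl⟩
    exact ⟨_, h _ hxy, rfl⟩

open Classical in
/-- The summand in Green's formula. -/
noncomputable def gTerm (X Y : GF F) (a : V₁ →ₗ[F] V₁) (b : V₂ →ₗ[F] V₂) (W₁ : Submodule F V₁)
    (W₂ : Submodule F V₂) : ℂ :=
  if h : Stab a W₁ ∧ Stab b W₂ then
    rr X (a.restrict h.1) (b.restrict h.2) * rr Y (W₁.mapQ W₁ a h.1) (W₂.mapQ W₂ b h.2)
  else 0

/-- **Green's formula.** -/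
theorem green {X Y : GF F} (hX : IsCl X) (hY : IsCl Y) (a : V₁ →ₗ[F] V₁) (b : V₂ →ₗ[F] V₂) :
    rr (mul X Y) a b = ∑ W₁ : Submodule F V₁, ∑ W₂ : Submodule F V₂, gTerm X Y a b W₁ W₂ := by
  classical
  unfold rr
  simp_rw [ev_mul hX hY]
  unfold hall
  rw [Finset.sum_comm]
  rw [← Fintype.sum_prod_type' (f := fun W₁ W₂ => gTerm X Y a b W₁ W₂)]
  rw [← Finset.sum_fiberwise (s := Finset.univ)
    (g := fun W : Submodule F (V₁ × V₂) =>
      (W.comap (LinearMap.inl F V₁ V₂), W.map (LinearMap.snd F V₁ V₂)))]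
  rw [Finset.mul_sum]
  apply Finset.sum_congr rfl
  rintro ⟨W₁, W₂⟩ _
  have hfilter : Finset.univ.filter (fun W : Submodule F (V₁ × V₂) =>
      (W.comap (LinearMap.inl F V₁ V₂), W.map (LinearMap.snd F V₁ V₂)) = (W₁, W₂)) =
      Finset.univ.filter (fun W : Submodule F (V₁ × V₂) =>
      W.comap (LinearMap.inl F V₁ V₂) = W₁ ∧ W.map (LinearMap.snd F V₁ V₂) = W₂) := by
    ext W
    simp
  rw [hfilter]
  by_cases h : Stab a W₁ ∧ Stab b W₂
  · obtain ⟨D⟩ := exists_split W₁ W₂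
    unfold gTerm
    rw [dif_pos h]
    exact D.sum_fiber hX hY a b h.1 h.2
  · unfold gTerm
    rw [dif_neg h]
    rw [Finset.sum_eq_zero, mul_zero]
    intro W hW
    apply Finset.sum_eq_zero
    intro u _
    apply term_of_not_stab
    intro hst
    obtain ⟨h1, h2⟩ := (Finset.mem_filter.1 hW).2
    apply h
    have := stab_of_stab hst
    rwa [h1, h2] at this

end Green

end Cfsg.Agent.Lib.HGGreen
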