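import Mathlib
import Cfsg.Agent.Lib.HGGreen
set_option autoImplicit false
set_option linter.unusedSectionVars false

/-!
# Cuspidal graded functions and the derivation formula
-/

namespace Cfsg.Agent.Lib.HGCusp

open Module Cfsg.Agent.Lib.HGBasic Cfsg.Agent.Lib.HGAssoc Cfsg.Agent.Lib.HGGreen
open scoped ComplexConjugate

universe u

variable {F : Type u} [Field F] [Finite F]

section Congr

variable {V₁ V₂ V₁' V₂' : Type u} [AddCommGroup V₁] [Module F V₁] [FiniteDimensional F V₁]
  [AddCommGroup V₂] [Module F V₂] [FiniteDimensional F V₂]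
  [AddCommGroup V₁'] [Module F V₁'] [FiniteDimensional F V₁']
  [AddCommGroup V₂'] [Module F V₂'] [FiniteDimensional F V₂']

theorem rr_congr {X : GF F} (hX : IsCl X) (φ₁ : V₁ ≃ₗ[F] V₁') (φ₂ : V₂ ≃ₗ[F] V₂')
    {a : V₁ →ₗ[F] V₁} {a' : V₁' →ₗ[F] V₁'} {b : V₂ →ₗ[F] V₂} {b' : V₂' →ₗ[F] V₂'}
    (ha : ∀ x, a' (φ₁ x) = φ₁ (a x)) (hb : ∀ x, b' (φ₂ x) = φ₂ (b x)) :
    rr X a' b' = rr X a b := by
  unfold rr
  let e : (V₂ →ₗ[F] V₁) ≃ (V₂' →ₗ[F] V₁') :=
    { toFun := fun u => (φ₁ : V₁ →ₗ[F] V₁').comp (u.comp (φ₂.symm : V₂' →ₗ[F] V₂))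
      invFun := fun u => (φ₁.symm : V₁' →ₗ[F] V₁).comp (u.comp (φ₂ : V₂ →ₗ[F] V₂'))
      left_inv := fun u => by ext; simp
      right_inv := fun u => by ext; simp }
  rw [← Fintype.card_congr e]
  congr 1
  symm
  apply Fintype.sum_equiv e
  intro u
  symm
  apply ev_congr hX (φ₁.prodCongr φ₂)
  rintro ⟨x, y⟩
  refine Prod.ext ?_ (hb y)
  show a' (φ₁ x) + φ₁ (u (φ₂.symm (φ₂ y))) = φ₁ (a x + u y)
  simp [ha]

/-- If the first space is zero, `rr` is just evaluation on the second. -/
theorem rr_subsingleton_left [Subsingleton V₁] {X : GF F} (hX : IsCl X) (a : V₁ →ₗ[F] V₁)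
    (b : V₂ →ₗ[F] V₂) : rr X a b = ev X V₂ b := by
  unfold rr
  have h1 : Fintype.card (V₂ →ₗ[F] V₁) = 1 := by
    rw [Fintype.card_eq_one_iff]
    exact ⟨0, fun u => by ext y; exact Subsingleton.elim _ _⟩
  rw [h1, Nat.cast_one, inv_one, one_mul]
  haveI : Unique (V₂ →ₗ[F] V₁) := ⟨⟨0⟩, fun u => by ext y; exact Subsingleton.elim _ _⟩
  rw [Fintype.sum_unique]
  let φ : V₂ ≃ₗ[F] (V₁ × V₂) :=
    { toFun := fun y => (0, y)
      invFun := Prod.snd
      map_add' := fun x y => by simp
      map_smul' := fun c x => by simp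
      left_inv := fun _ => rfl
      right_inv := fun p => Prod.ext (Subsingleton.elim _ _) rfl }
  apply ev_congr hX φ
  intro y
  exact Prod.ext (Subsingleton.elim _ _) rfl

/-- If the second space is zero, `rr` is just evaluation on the first. -/
theorem rr_subsingleton_right [Subsingleton V₂] {X : GF F} (hX : IsCl X) (a : V₁ →ₗ[F] V₁)
    (b : V₂ →ₗ[F] V₂) : rr X a b = ev X V₁ a := by
  unfold rr
  have h0 : ∀ u : V₂ →ₗ[F] V₁, u = 0 := fun u => by
    ext y
    have : y = 0 := Subsingleton.elim _ _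
    simp [this]
  have h1 : Fintype.card (V₂ →ₗ[F] V₁) = 1 := by
    rw [Fintype.card_eq_one_iff]
    exact ⟨0, h0⟩
  rw [h1, Nat.cast_one, inv_one, one_mul]
  rw [Finset.sum_eq_single 0 (fun u _ hu => absurd (h0 u) hu) (by simp)]
  let φ : V₁ ≃ₗ[F] (V₁ × V₂) :=
    { toFun := fun y => (y, 0)
      invFun := Prod.fst
      map_add' := fun x y => by simp
      map_smul' := fun c x => by simp
      left_inv := fun _ => rfl
      right_inv := fun p => Prod.ext rfl (Subsingleton.elim _ _) }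
  apply ev_congr hX φ
  intro x
  refine Prod.ext ?_ (Subsingleton.elim _ _)
  show a x + (0 : V₂ →ₗ[F] V₁) (0 : V₂) = a x
  simp

end Congr

section Shift

variable {V : Type u} [AddCommGroup V] [Module F V] [FiniteDimensional F V]

/-- The elementary shift of an endomorphism. -/
noncomputable def shift (W : Submodule F V) (δ : (V ⧸ W) →ₗ[F] W) : V →ₗ[F] V :=
  W.subtype.comp (δ.comp W.mkQ)

@[simp] theorem shift_apply (W : Submodule F V) (δ : (V ⧸ W) →ₗ[F] W) (x : V) :
    shift W δ x = δ (Submodule.Quotient.mk x) := rfl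

theorem stab_add_shift_iff {W : Submodule F V} (a : V →ₗ[F] V) (δ : (V ⧸ W) →ₗ[F] W) :
    Stab (a + shift W δ) W ↔ Stab a W := by
  constructor
  · intro h x hx
    have := W.sub_mem (h x hx) (δ (Submodule.Quotient.mk x)).2
    simpa using this
  · intro h x hx
    exact W.add_mem (h x hx) (δ (Submodule.Quotient.mk x)).2

theorem restrict_add_shift {W : Submodule F V} {a : V →ₗ[F] V} (δ : (V ⧸ W) →ₗ[F] W)
    (h : Stab a W) (h' : Stab (a + shift W δ) W) :
    (a + shift W δ).restrict h' = a.restrict h := by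
  ext ⟨x, hx⟩
  have : (Submodule.Quotient.mk x : V ⧸ W) = 0 := (Submodule.Quotient.mk_eq_zero _).2 hx
  show a x + ((δ (Submodule.Quotient.mk x) : W) : V) = a x
  rw [this]
  simp

theorem mapQ_add_shift {W : Submodule F V} {a : V →ₗ[F] V} (δ : (V ⧸ W) →ₗ[F] W)
    (h : Stab a W) (h' : Stab (a + shift W δ) W) :
    W.mapQ W (a + shift W δ) h' = W.mapQ W a h := by
  apply Submodule.linearMap_qext
  ext x
  show (Submodule.Quotient.mk (a x + δ (Submodule.Quotient.mk x)) : V ⧸ W) =
    Submodule.Quotient.mk (a x)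
  rw [Submodule.Quotient.eq]
  simp

theorem decomp {W W₂ : Submodule F V} (D : Split W W₂) (x : V) :
    (D.ρ x : V) + D.κ (Submodule.Quotient.mk x) = x := by
  have h7 : x - D.κ (Submodule.Quotient.mk x) ∈ W :=
    (Submodule.Quotient.eq W).1 (D.hκ (Submodule.Quotient.mk x)).symm
  have h8 := congrArg Subtype.val (D.hρ ⟨_, h7⟩)
  simp only [map_sub, D.hρκ, sub_zero] at h8
  rw [h8]
  abel

/-- The splitting `V ≃ W × V/W`. -/
noncomputable def splitEquiv {W W₂ : Submodule F V} (D : Split W W₂) : V ≃ₗ[F] (W × (V ⧸ W)) :=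
  { toFun := fun x => (D.ρ x, Submodule.Quotient.mk x)
    invFun := fun p => (p.1 : V) + D.κ p.2
    map_add' := fun x y => by simp
    map_smul' := fun c x => by simp
    left_inv := fun x => decomp D x
    right_inv := fun p => by
      have h1 : (Submodule.Quotient.mk (p.1 : V) : V ⧸ W) = 0 :=
        (Submodule.Quotient.mk_eq_zero _).2 p.1.2
      refine Prod.ext ?_ ?_
      · simp [D.hρ, D.hρκ]
      · simp [h1, D.hκ] }

/-- The fibre of `(a|W, a mod W)` through `a` gives `rr`. -/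
theorem sum_shift {R : GF F} (hR : IsCl R) {W : Submodule F V} {a : V →ₗ[F] V} (h : Stab a W) :
    ∑ δ : (V ⧸ W) →ₗ[F] W, ev R V (a + shift W δ) =
      (Fintype.card ((V ⧸ W) →ₗ[F] W) : ℂ) * rr R (a.restrict h) (W.mapQ W a h) := by
  obtain ⟨D⟩ := exists_split W W
  unfold rr
  rw [← mul_assoc, mul_inv_cancel₀ card_hom_ne_zero, one_mul]
  -- the off-diagonal block of `a`
  let c : (V ⧸ W) →ₗ[F] W := D.ρ.comp (a.comp D.κ)
  have hc : ∀ δ : (V ⧸ W) →ₗ[F] W, ev R V (a + shift W δ) =
      ev R (W × (V ⧸ W)) (gU (a.restrict h) (c + δ) (W.mapQ W a h)) := by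
    intro δ
    symm
    apply ev_congr hR (splitEquiv D)
    intro x
    refine Prod.ext ?_ ?_
    · show a.restrict h (D.ρ x) + (c + δ) (Submodule.Quotient.mk x) =
        D.ρ (a x + δ (Submodule.Quotient.mk x))
      have h11 : D.ρ (a (D.ρ x : V)) = a.restrict h (D.ρ x) := D.hρ (a.restrict h (D.ρ x))
      have h12 : a x = a (D.ρ x : V) + a (D.κ (Submodule.Quotient.mk x)) := by
        rw [← map_add, decomp]
      have h13 : D.ρ ((δ (Submodule.Quotient.mk x) : W) : V) = δ (Submodule.Quotient.mk x) :=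
        D.hρ _
      rw [map_add, h13, h12, map_add, h11, LinearMap.add_apply]
      simp only [c, LinearMap.comp_apply]
      abel
    · show (Submodule.Quotient.mk (a x) : V ⧸ W) =
        Submodule.Quotient.mk (a x + δ (Submodule.Quotient.mk x))
      rw [Submodule.Quotient.eq]
      simp
  simp_rw [hc]
  apply Fintype.sum_equiv (Equiv.addLeft c)
  intro δ
  rfl


/-- Averaging over the shifts. -/
theorem sum_stab_avg (W : Submodule F V) (C : (V →ₗ[F] V) → ℂ)
    (H : (W →ₗ[F] W) → ((V ⧸ W) →ₗ[F] (V ⧸ W)) → ℂ) [∀ a : V →ₗ[F] V, Decidable (Stab a W)] :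
    (Fintype.card ((V ⧸ W) →ₗ[F] W) : ℂ) *
        ∑ a : V →ₗ[F] V, (if h : Stab a W then C a * H (a.restrict h) (W.mapQ W a h) else 0) =
      ∑ a : V →ₗ[F] V, (if h : Stab a W then
        (∑ δ : (V ⧸ W) →ₗ[F] W, C (a + shift W δ)) * H (a.restrict h) (W.mapQ W a h) else 0) := by
  set G : (V →ₗ[F] V) → ℂ := fun a =>
    if h : Stab a W then C a * H (a.restrict h) (W.mapQ W a h) else 0 with hG
  have h1 : ∀ δ : (V ⧸ W) →ₗ[F] W, ∑ a, G (a + shift W δ) = ∑ a, G a := by
    intro δ
    exact Fintype.sum_equiv (Equiv.addRight (shift W δ)) _ _ (fun a => rfl)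
  calc (Fintype.card ((V ⧸ W) →ₗ[F] W) : ℂ) * ∑ a, G a
      = ∑ _δ : (V ⧸ W) →ₗ[F] W, ∑ a, G a := by
        rw [Finset.sum_const, Finset.card_univ, nsmul_eq_mul]
    _ = ∑ δ : (V ⧸ W) →ₗ[F] W, ∑ a, G (a + shift W δ) := by
        apply Finset.sum_congr rfl
        intro δ _
        exact (h1 δ).symm
    _ = ∑ a, ∑ δ : (V ⧸ W) →ₗ[F] W, G (a + shift W δ) := Finset.sum_comm
    _ = _ := by
        apply Finset.sum_congr rfl
        intro a _
        by_cases h : Stab a W
        · rw [dif_pos h, Finset.sum_mul]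
          apply Finset.sum_congr rfl
          intro δ _
          have h' := (stab_add_shift_iff a δ).2 h
          rw [hG]
          simp only
          rw [dif_pos h', restrict_add_shift δ h h', mapQ_add_shift δ h h']
        · rw [dif_neg h]
          apply Finset.sum_eq_zero
          intro δ _
          have h' : ¬ Stab (a + shift W δ) W := fun hh => h ((stab_add_shift_iff a δ).1 hh)
          rw [hG]
          simp only
          rw [dif_neg h']

end Shift

/-- Cuspidal graded functions. -/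
def Cusp (Q : GF F) : Prop :=
  ∀ (A B : Type u) [AddCommGroup A] [Module F A] [FiniteDimensional F A]
    [AddCommGroup B] [Module F B] [FiniteDimensional F B] [Nontrivial A] [Nontrivial B]
    (a : A →ₗ[F] A) (b : B →ₗ[F] B), rr Q a b = 0

section Deriv

variable {V₁ V₂ : Type u} [AddCommGroup V₁] [Module F V₁] [FiniteDimensional F V₁]
  [AddCommGroup V₂] [Module F V₂] [FiniteDimensional F V₂]

theorem stab_bot (g : V₁ →ₗ[F] V₁) : Stab g (⊥ : Submodule F V₁) := fun x hx => by
  rw [Submodule.mem_bot] at hx ⊢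
  simp [hx]

theorem stab_top (g : V₁ →ₗ[F] V₁) : Stab g (⊤ : Submodule F V₁) := fun _ _ => Submodule.mem_top

open Classical in
/-- Green's formula when the left factor is cuspidal. -/
theorem rr_mul_cusp {Q Y : GF F} (hQ : IsCl Q) (hY : IsCl Y) (cQ : Cusp Q) (a : V₁ →ₗ[F] V₁) (b : V₂ →ₗ[F] V₂) :
    rr (mul Q Y) a b =
      ∑ W₂ : Submodule F V₂, (if h : Stab b W₂ then
          ev Q W₂ (b.restrict h) * rr Y a (W₂.mapQ W₂ b h) else 0) +
      ∑ W₁ ∈ (Finset.univ.erase (⊥ : Submodule F V₁)), (if h : Stab a W₁ then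
          ev Q W₁ (a.restrict h) * rr Y (W₁.mapQ W₁ a h) b else 0) := by
  rw [green hQ hY]
  rw [← Finset.add_sum_erase Finset.univ _ (Finset.mem_univ (⊥ : Submodule F V₁))]
  congr 1
  · apply Finset.sum_congr rfl
    intro W₂ _
    unfold gTerm
    by_cases h : Stab b W₂
    · rw [dif_pos ⟨stab_bot a, h⟩, dif_pos h]
      congr 1
      · exact rr_subsingleton_left hQ _ _
      · symm
        apply rr_congr hY (Submodule.quotEquivOfEqBot (⊥ : Submodule F V₁) rfl) (LinearEquiv.refl F _)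
        · intro x
          induction x using Submodule.Quotient.induction_on with
          | H x => rfl
        · intro x
          rfl
    · rw [dif_neg (fun hh => h hh.2), dif_neg h]
  · apply Finset.sum_congr rfl
    intro W₁ hW₁
    have hne : W₁ ≠ ⊥ := (Finset.mem_erase.1 hW₁).1
    haveI : Nontrivial W₁ := Submodule.nontrivial_iff_ne_bot.2 hne
    rw [Finset.sum_eq_single (⊥ : Submodule F V₂)]
    · unfold gTerm
      by_cases h : Stab a W₁
      · rw [dif_pos ⟨h, stab_bot b⟩, dif_pos h]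
        congr 1
        · exact rr_subsingleton_right hQ _ _
        · symm
          apply rr_congr hY (LinearEquiv.refl F _) (Submodule.quotEquivOfEqBot (⊥ : Submodule F V₂) rfl)
          · intro x
            rfl
          · intro x
            induction x using Submodule.Quotient.induction_on with
            | H x => rfl
      · rw [dif_neg (fun hh => h hh.1), dif_neg h]
    · intro W₂ _ hW₂
      unfold gTerm
      by_cases h : Stab a W₁ ∧ Stab b W₂
      · rw [dif_pos h]
        haveI : Nontrivial W₂ := Submodule.nontrivial_iff_ne_bot.2 hW₂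
        rw [cQ W₁ W₂, zero_mul]
      · rw [dif_neg h]
    · simp

/-- The standard space. -/
abbrev E (F : Type u) (m : ℕ) := Fin m → F

/-- The reciprocal of the order of `GL_m`. -/
noncomputable def kap (F : Type u) [Field F] (m : ℕ) : ℂ :=
  ((Nat.card (Matrix.GeneralLinearGroup (Fin m) F) : ℕ) : ℂ)⁻¹

/-- The Hermitian form on degree `m`. -/
noncomputable def hip (m : ℕ) (X Y : GF F) : ℂ :=
  kap F m * ∑ a : E F m →ₗ[F] E F m, ev X (E F m) a * conj (ev Y (E F m) a)

/-- The adjoint of multiplication by `R`. -/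
noncomputable def rstar (R : GF F) (m : ℕ) (Y : GF F) : GF F := fun _ B =>
  kap F m * ∑ a : E F m →ₗ[F] E F m, conj (ev R (E F m) a) * rr Y a (Matrix.toLin' B)

theorem ev_rstar {Y : GF F} (hY : IsCl Y) (R : GF F) (m : ℕ) (b : V₂ →ₗ[F] V₂) :
    ev (rstar R m Y) V₂ b =
      kap F m * ∑ a : E F m →ₗ[F] E F m, conj (ev R (E F m) a) * rr Y a b := by
  unfold ev rstar
  congr 1
  apply Finset.sum_congr rfl
  intro a _
  congr 1
  apply rr_congr hY (LinearEquiv.refl F _) (finBasis F V₂).equivFun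
  · intro x
    rfl
  · intro x
    rw [Matrix.toLin'_apply]
    have := LinearMap.toMatrix_mulVec_repr (finBasis F V₂) (finBasis F V₂) b x
    simpa [Basis.equivFun_apply] using this

theorem rstar_isCl {Y : GF F} (hY : IsCl Y) (R : GF F) (m : ℕ) : IsCl (rstar R m Y) := by
  intro n A P Q hPQ
  unfold rstar
  congr 1
  apply Finset.sum_congr rfl
  intro a _
  congr 1
  have hQP : Q * P = 1 := mul_eq_one_comm.mp hPQ
  apply rr_congr hY (LinearEquiv.refl F _) (Matrix.toLinearEquiv' P ⟨Q, hQP, hPQ⟩)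
  · intro x
    rfl
  · intro x
    show Matrix.toLin' (P * A * Q) (Matrix.toLin' P x) = Matrix.toLin' P (Matrix.toLin' A x)
    simp only [Matrix.toLin'_apply, Matrix.mulVec_mulVec]
    rw [Matrix.mul_assoc, Matrix.mul_assoc, hQP, Matrix.mul_one]

/-- A cuspidal function gives zero when summed over the block upper triangular endomorphisms. -/
theorem sum_cusp_stab {R : GF F} (hR : IsCl R) (cR : Cusp R) {W : Submodule F V₁} (h1 : W ≠ ⊥)
    (h2 : W ≠ ⊤) (H : (W →ₗ[F] W) → ((V₁ ⧸ W) →ₗ[F] (V₁ ⧸ W)) → ℂ)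
    [∀ a : V₁ →ₗ[F] V₁, Decidable (Stab a W)] :
    ∑ a : V₁ →ₗ[F] V₁, (if h : Stab a W then
      conj (ev R V₁ a) * H (a.restrict h) (W.mapQ W a h) else 0) = 0 := by
  have h3 := sum_stab_avg W (fun a => conj (ev R V₁ a)) H
  have h4 : (Fintype.card ((V₁ ⧸ W) →ₗ[F] W) : ℂ) ≠ 0 := card_hom_ne_zero
  have h5 : ∑ a : V₁ →ₗ[F] V₁, (if h : Stab a W then
        (∑ δ : (V₁ ⧸ W) →ₗ[F] W, conj (ev R V₁ (a + shift W δ))) *
          H (a.restrict h) (W.mapQ W a h) else 0) = 0 := by
    apply Finset.sum_eq_zero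
    intro a _
    by_cases h : Stab a W
    · rw [dif_pos h, ← map_sum, sum_shift hR h]
      haveI : Nontrivial W := Submodule.nontrivial_iff_ne_bot.2 h1
      haveI : Nontrivial (V₁ ⧸ W) := Submodule.Quotient.nontrivial_iff.2 h2
      rw [cR W (V₁ ⧸ W)]
      simp
    · rw [dif_neg h]
  rw [h5] at h3
  exact (mul_eq_zero.1 h3).resolve_left h4

/-- **The derivation formula.** -/
theorem rstar_mul {Q R Y : GF F} (hQ : IsCl Q) (hR : IsCl R) (hY : IsCl Y) (cQ : Cusp Q)
    (cR : Cusp R) {m : ℕ} (hm : 0 < m) (l : ℕ)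
    (B : Matrix (Fin l) (Fin l) F) :
    rstar R m (mul Q Y) l B = hip m Q R * Y l B + mul Q (rstar R m Y) l B := by
  classical
  haveI : Nontrivial (E F m) := by
    haveI : Nonempty (Fin m) := ⟨⟨0, hm⟩⟩
    infer_instance
  set b : (Fin l → F) →ₗ[F] (Fin l → F) := Matrix.toLin' B with hb
  have hmul : mul Q (rstar R m Y) l B = hall Q (rstar R m Y) b := rfl
  rw [hmul]
  have key1 : kap F m * ∑ a : E F m →ₗ[F] E F m, conj (ev R (E F m) a) *
      ∑ W₁ ∈ (Finset.univ.erase (⊥ : Submodule F (E F m))), (if h : Stab a W₁ then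
          ev Q W₁ (a.restrict h) * rr Y (W₁.mapQ W₁ a h) b else 0) = hip m Q R * Y l B := by
    rw [Finset.sum_congr rfl (fun a _ => Finset.mul_sum _ _ _), Finset.sum_comm]
    rw [← Finset.add_sum_erase _ _ (Finset.mem_erase.2 ⟨(bot_ne_top : (⊥ : Submodule F (E F m)) ≠ ⊤).symm,
      Finset.mem_univ (⊤ : Submodule F (E F m))⟩)]
    have hrest : ∑ W ∈ (Finset.univ.erase (⊥ : Submodule F (E F m))).erase ⊤,
        ∑ a : E F m →ₗ[F] E F m, conj (ev R (E F m) a) * (if h : Stab a W then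
          ev Q W (a.restrict h) * rr Y (W.mapQ W a h) b else 0) = 0 := by
      apply Finset.sum_eq_zero
      intro W hW
      have hW1 : W ≠ ⊤ := (Finset.mem_erase.1 hW).1
      have hW2 : W ≠ ⊥ := (Finset.mem_erase.1 (Finset.mem_erase.1 hW).2).1
      have := sum_cusp_stab hR cR hW2 hW1
        (fun (a₁ : W →ₗ[F] W) (a₂ : (E F m ⧸ W) →ₗ[F] (E F m ⧸ W)) => ev Q W a₁ * rr Y a₂ b)
      refine Eq.trans ?_ this
      apply Finset.sum_congr rfl
      intro a _
      by_cases h : Stab a W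
      · rw [dif_pos h, dif_pos h]
      · rw [dif_neg h, dif_neg h, mul_zero]
    rw [hrest, add_zero]
    unfold hip
    rw [mul_assoc (kap F m), Finset.sum_mul]
    congr 1
    apply Finset.sum_congr rfl
    intro a _
    rw [dif_pos (stab_top a)]
    have h1 : ev Q (⊤ : Submodule F (E F m)) (a.restrict (stab_top a)) = ev Q (E F m) a := by
      symm
      exact (ev_sub hQ (stab_top a) (LinearMap.id) Function.injective_id (by simp) a (fun x => rfl))
    have h2 : rr Y ((⊤ : Submodule F (E F m)).mapQ ⊤ a (stab_top a)) b = Y l B := by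
      haveI : Subsingleton (E F m ⧸ (⊤ : Submodule F (E F m))) :=
        Submodule.Quotient.subsingleton_iff.2 rfl
      rw [rr_subsingleton_left hY, ev_toLin' hY]
    rw [h1, h2]
    ring
  have key2 : kap F m * ∑ a : E F m →ₗ[F] E F m, conj (ev R (E F m) a) *
      ∑ W₂ : Submodule F (Fin l → F), (if h : Stab b W₂ then
          ev Q W₂ (b.restrict h) * rr Y a (W₂.mapQ W₂ b h) else 0) = hall Q (rstar R m Y) b := by
    rw [Finset.sum_congr rfl (fun a _ => Finset.mul_sum _ _ _), Finset.sum_comm, Finset.mul_sum]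
    unfold hall
    apply Finset.sum_congr rfl
    intro W₂ _
    by_cases h : Stab b W₂
    · rw [term_of_stab _ _ h, ev_rstar hY]
      simp_rw [dif_pos h]
      have h5 : ∑ x : E F m →ₗ[F] E F m, conj (ev R (E F m) x) *
            (ev Q W₂ (b.restrict h) * rr Y x (W₂.mapQ W₂ b h)) =
          ev Q W₂ (b.restrict h) * ∑ x : E F m →ₗ[F] E F m,
            conj (ev R (E F m) x) * rr Y x (W₂.mapQ W₂ b h) := by
        rw [Finset.mul_sum]
        exact Finset.sum_congr rfl (fun a _ => by ring)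
      rw [h5]
      ring
    · rw [term_of_not_stab _ _ h]
      simp_rw [dif_neg h]
      simp
  show kap F m * ∑ a : E F m →ₗ[F] E F m, conj (ev R (E F m) a) * rr (mul Q Y) a b = _
  simp_rw [rr_mul_cusp hQ hY cQ _ b, mul_add, Finset.sum_add_distrib, mul_add]
  rw [key1, key2]
  ring

end Deriv

end Cfsg.Agent.Lib.HGCusp
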