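import Mathlib
import Cfsg.Agent.Lib.HGCusp
set_option autoImplicit false
set_option linter.unusedSectionVars false

/-!
# Adjunction between the Hall product and `rr`
-/

namespace Cfsg.Agent.Lib.HGAdj

open Module Cfsg.Agent.Lib.HGBasic Cfsg.Agent.Lib.HGAssoc Cfsg.Agent.Lib.HGGreen
  Cfsg.Agent.Lib.HGCusp
open scoped ComplexConjugate

universe u

variable {F : Type u} [Field F] [Finite F]

section Param

variable {V : Type u} [AddCommGroup V] [Module F V] [FiniteDimensional F V]

theorem phi1_eq_zero_iff {W : Submodule F V} (A : V →ₗ[F] V) :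
    Split.phi1 A = (0 : W →ₗ[F] V ⧸ W) ↔ Stab A W := by
  constructor
  · intro h x hx
    have := LinearMap.congr_fun h ⟨x, hx⟩
    simpa [Split.phi1] using this
  · intro h
    ext ⟨x, hx⟩
    have := h x hx
    simpa [Split.phi1] using this

theorem restrict_eq_phi2 {W : Submodule F V} (D : Split W W) {A : V →ₗ[F] V} (h : Stab A W) :
    A.restrict h = D.phi2 A := by
  ext ⟨x, hx⟩
  exact (congrArg Subtype.val (D.hρ ⟨A x, h x hx⟩)).symm

theorem mapQ_eq_phi3 {W : Submodule F V} (D : Split W W) {A : V →ₗ[F] V} (h : Stab A W) :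
    W.mapQ W A h = D.phi3 A := by
  apply Submodule.linearMap_qext
  ext x
  show (Submodule.Quotient.mk (A x) : V ⧸ W) = D.phi3 A (Submodule.Quotient.mk x)
  rw [D.phi3_mk, map_sub, Submodule.Quotient.mk_sub]
  have : (Submodule.Quotient.mk (A (D.π x)) : V ⧸ W) = 0 :=
    (Submodule.Quotient.mk_eq_zero _).2 (h _ (D.π x).2)
  rw [this, sub_zero]

/-- The parametrization of the endomorphisms stabilizing `W`. -/
theorem sum_stab_param (W : Submodule F V) (H : (W →ₗ[F] W) → ((V ⧸ W) →ₗ[F] (V ⧸ W)) → ℂ)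
    [∀ a : V →ₗ[F] V, Decidable (Stab a W)] :
    ((Fintype.card (W →ₗ[F] V ⧸ W) : ℂ) * ((Fintype.card (W →ₗ[F] W) : ℂ) *
        (Fintype.card ((V ⧸ W) →ₗ[F] (V ⧸ W)) : ℂ))) *
      ∑ A : V →ₗ[F] V, (if h : Stab A W then H (A.restrict h) (W.mapQ W A h) else 0) =
    (Fintype.card (V →ₗ[F] V) : ℂ) * ∑ a₁ : W →ₗ[F] W, ∑ a₂ : (V ⧸ W) →ₗ[F] (V ⧸ W), H a₁ a₂ := by
  classical
  obtain ⟨D⟩ := exists_split W W
  let f : (W →ₗ[F] V ⧸ W) × (W →ₗ[F] W) × ((V ⧸ W) →ₗ[F] (V ⧸ W)) → ℂ :=
    fun t => if t.1 = 0 then H t.2.1 t.2.2 else 0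
  have h1 := sum_comp_surj D.phi D.phi_surjective f
  have h2 : ∑ t, f t = ∑ a₁ : W →ₗ[F] W, ∑ a₂ : (V ⧸ W) →ₗ[F] (V ⧸ W), H a₁ a₂ := by
    rw [Fintype.sum_prod_type, Finset.sum_eq_single 0]
    · rw [Fintype.sum_prod_type]
      simp [f]
    · intro r _ hr
      apply Finset.sum_eq_zero
      intro t _
      simp [f, hr]
    · simp
  have h3 : ∀ A : V →ₗ[F] V, (if h : Stab A W then H (A.restrict h) (W.mapQ W A h) else 0) =
      f (D.phi A) := by
    intro A
    by_cases h : Stab A W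
    · rw [dif_pos h]
      have hp : (D.phi A).1 = 0 := (phi1_eq_zero_iff A).2 h
      simp only [f]
      rw [if_pos hp, restrict_eq_phi2 D h, mapQ_eq_phi3 D h]
      rfl
    · rw [dif_neg h]
      have hp : ¬ (D.phi A).1 = 0 := fun hh => h ((phi1_eq_zero_iff A).1 hh)
      simp only [f]
      rw [if_neg hp]
  simp_rw [h3]
  rw [h2] at h1
  simpa only [Fintype.card_prod, Nat.cast_mul] using h1

theorem card_hom_eq {A B : Type u} [AddCommGroup A] [Module F A] [FiniteDimensional F A]
    [AddCommGroup B] [Module F B] [FiniteDimensional F B] :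
    Fintype.card (A →ₗ[F] B) = Nat.card F ^ (finrank F A * finrank F B) := by
  haveI : Finite (A →ₗ[F] B) := Finite.of_fintype _
  rw [← Nat.card_eq_fintype_card, Module.natCard_eq_pow_finrank (K := F), Module.finrank_linearMap]

end Param

section Count

variable {V : Type u} [AddCommGroup V] [Module F V] [FiniteDimensional F V]

theorem exists_equiv_map {W W' : Submodule F V} (h : finrank F W = finrank F W') :
    ∃ g : V ≃ₗ[F] V, W.map (g : V →ₗ[F] V) = W' := by
  obtain ⟨C, hC⟩ := Submodule.exists_isCompl W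
  obtain ⟨C', hC'⟩ := Submodule.exists_isCompl W'
  have h1 := Submodule.finrank_add_eq_of_isCompl hC
  have h2 := Submodule.finrank_add_eq_of_isCompl hC'
  let e₁ : W ≃ₗ[F] W' := LinearEquiv.ofFinrankEq _ _ h
  let e₂ : C ≃ₗ[F] C' := LinearEquiv.ofFinrankEq _ _ (by omega)
  let g : V ≃ₗ[F] V := (Submodule.prodEquivOfIsCompl W C hC).symm.trans
    ((e₁.prodCongr e₂).trans (Submodule.prodEquivOfIsCompl W' C' hC'))
  have h3 : ∀ x : W, g x = e₁ x := by
    intro x
    have : (Submodule.prodEquivOfIsCompl W C hC).symm (x : V) = (x, 0) :=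
      Submodule.prodEquivOfIsCompl_symm_apply_left W C hC x
    simp [g, this]
  refine ⟨g, le_antisymm ?_ ?_⟩
  · rintro _ ⟨x, hx, rfl⟩
    have := h3 ⟨x, hx⟩
    show g x ∈ W'
    rw [this]
    exact (e₁ _).2
  · intro y hy
    refine ⟨(e₁.symm ⟨y, hy⟩ : W), (e₁.symm ⟨y, hy⟩).2, ?_⟩
    show g _ = y
    rw [h3]
    simp

noncomputable instance instFintypeEquiv : Fintype (V ≃ₗ[F] V) :=
  haveI : Finite V := Module.finite_of_finite F
  haveI : Finite (V ≃ₗ[F] V) := Finite.of_injective (fun f => (f : V → V)) DFunLike.coe_injective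
  Fintype.ofFinite _

/-- The number of subspaces times the stabilizer order. -/
theorem card_sub_mul_stab [DecidableEq (Submodule F V)] [DecidableEq (V ≃ₗ[F] V)] (W₀ : Submodule F V) :
    (Finset.univ.filter (fun W : Submodule F V => finrank F W = finrank F W₀)).card *
      (Finset.univ.filter (fun g : V ≃ₗ[F] V => W₀.map (g : V →ₗ[F] V) = W₀)).card =
    Fintype.card (V ≃ₗ[F] V) := by
  classical
  have h1 : Fintype.card (V ≃ₗ[F] V) = ∑ W ∈ Finset.univ.filter (fun W : Submodule F V =>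
      finrank F W = finrank F W₀),
      (Finset.univ.filter (fun g : V ≃ₗ[F] V => W₀.map (g : V →ₗ[F] V) = W)).card := by
    rw [← Finset.card_univ]
    apply Finset.card_eq_sum_card_fiberwise
    intro g _
    simp only [Finset.coe_filter, Finset.mem_univ, true_and, Set.mem_ofPred_eq]
    exact (LinearEquiv.finrank_map_eq g W₀)
  rw [h1]
  rw [Finset.sum_congr rfl (g := fun _ => (Finset.univ.filter (fun g : V ≃ₗ[F] V =>
    W₀.map (g : V →ₗ[F] V) = W₀)).card)]
  · rw [Finset.sum_const, smul_eq_mul]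
  · intro W hW
    obtain ⟨g₀, hg₀⟩ := exists_equiv_map (Finset.mem_filter.1 hW).2.symm
    have hmt : ∀ (g h : V ≃ₗ[F] V) (S : Submodule F V), S.map ((g.trans h : V ≃ₗ[F] V) : V →ₗ[F] V) =
        (S.map (g : V →ₗ[F] V)).map (h : V →ₗ[F] V) := by
      intro g h S
      rw [← Submodule.map_comp]
      rfl
    have hW₀ : W.map ((g₀.symm : V ≃ₗ[F] V) : V →ₗ[F] V) = W₀ := by
      rw [← hg₀, ← hmt]
      ext x
      simp
    refine Finset.card_bij' (fun g _ => g.trans g₀.symm) (fun g _ => g.trans g₀) ?_ ?_ ?_ ?_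
    · intro g hg
      simp only [Finset.mem_filter, Finset.mem_univ, true_and] at hg ⊢
      rw [hmt, hg, hW₀]
    · intro g hg
      simp only [Finset.mem_filter, Finset.mem_univ, true_and] at hg ⊢
      rw [hmt, hg, hg₀]
    · intro g _
      ext x
      simp
    · intro g _
      ext x
      simp

theorem bijective_iff_of_stab {A : V →ₗ[F] V} {W : Submodule F V} (h : Stab A W) :
    Function.Bijective A ↔
      Function.Bijective (A.restrict h) ∧ Function.Bijective (W.mapQ W A h) := by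
  have hfin : ∀ {B : Type u} [AddCommGroup B] [Module F B] [FiniteDimensional F B] (a : B →ₗ[F] B),
      Function.Bijective a ↔ Function.Injective a := fun a =>
    ⟨fun h => h.1, fun h => ⟨h, LinearMap.injective_iff_surjective.1 h⟩⟩
  constructor
  · intro hA
    constructor
    · rw [hfin]
      intro x y hxy
      apply Subtype.ext
      apply hA.1
      exact congrArg Subtype.val hxy
    · refine ⟨?_, ?_⟩
      · have hs : Function.Surjective (W.mapQ W A h) := by
          intro y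
          induction y using Submodule.Quotient.induction_on with
          | H y =>
            obtain ⟨x, rfl⟩ := hA.2 y
            exact ⟨Submodule.Quotient.mk x, rfl⟩
        exact LinearMap.injective_iff_surjective.2 hs
      · intro y
        induction y using Submodule.Quotient.induction_on with
        | H y =>
          obtain ⟨x, rfl⟩ := hA.2 y
          exact ⟨Submodule.Quotient.mk x, rfl⟩
  · rintro ⟨h1, h2⟩
    rw [hfin]
    rw [injective_iff_map_eq_zero]
    intro x hx
    have h3 : W.mapQ W A h (Submodule.Quotient.mk x) = 0 := by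
      show (Submodule.Quotient.mk (A x) : V ⧸ W) = 0
      rw [hx]
      simp
    have h4 : (Submodule.Quotient.mk x : V ⧸ W) = 0 := by
      apply h2.1
      rw [h3, map_zero]
    have hxW : x ∈ W := (Submodule.Quotient.mk_eq_zero W).1 h4
    have h5 : A.restrict h ⟨x, hxW⟩ = 0 := by
      apply Subtype.ext
      exact hx
    have h6 := h1.1 (h5.trans (map_zero _).symm)
    exact congrArg Subtype.val h6

open Classical in
theorem sum_bij_eq_card (B : Type u) [AddCommGroup B] [Module F B] [FiniteDimensional F B] :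
    ∑ a : B →ₗ[F] B, (if Function.Bijective a then (1 : ℂ) else 0) = Fintype.card (B ≃ₗ[F] B) := by
  rw [Finset.sum_boole]
  congr 1
  rw [← Finset.card_univ]
  symm
  apply Finset.card_bij (fun (g : B ≃ₗ[F] B) _ => (g : B →ₗ[F] B))
  · intro g _
    simpa using g.bijective
  · intro g _ g' _ h
    ext x
    exact LinearMap.congr_fun h x
  · intro a ha
    simp only [Finset.mem_filter, Finset.mem_univ, true_and] at ha
    exact ⟨LinearEquiv.ofBijective a ha, Finset.mem_univ _, by ext; rfl⟩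

open Classical in
/-- The stabilizer order. -/
theorem stab_count (W₀ : Submodule F V) :
    ((Fintype.card (W₀ →ₗ[F] V ⧸ W₀) : ℂ) * ((Fintype.card (W₀ →ₗ[F] W₀) : ℂ) *
        (Fintype.card ((V ⧸ W₀) →ₗ[F] (V ⧸ W₀)) : ℂ))) *
      ((Finset.univ.filter (fun g : V ≃ₗ[F] V => W₀.map (g : V →ₗ[F] V) = W₀)).card : ℂ) =
    (Fintype.card (V →ₗ[F] V) : ℂ) * ((Fintype.card (W₀ ≃ₗ[F] W₀) : ℂ) *
      (Fintype.card ((V ⧸ W₀) ≃ₗ[F] (V ⧸ W₀)) : ℂ)) := by
  have h1 := sum_stab_param W₀ (fun a₁ a₂ => (if Function.Bijective a₁ then (1 : ℂ) else 0) *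
    (if Function.Bijective a₂ then (1 : ℂ) else 0))
  have h2 : ∑ a₁ : W₀ →ₗ[F] W₀, ∑ a₂ : (V ⧸ W₀) →ₗ[F] (V ⧸ W₀),
      (if Function.Bijective a₁ then (1 : ℂ) else 0) * (if Function.Bijective a₂ then (1 : ℂ) else 0) =
      (Fintype.card (W₀ ≃ₗ[F] W₀) : ℂ) * (Fintype.card ((V ⧸ W₀) ≃ₗ[F] (V ⧸ W₀)) : ℂ) := by
    rw [← Finset.sum_mul_sum, sum_bij_eq_card, sum_bij_eq_card]
  have h3 : ∑ A : V →ₗ[F] V, (if h : Stab A W₀ then
      (if Function.Bijective (A.restrict h) then (1 : ℂ) else 0) *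
        (if Function.Bijective (W₀.mapQ W₀ A h) then (1 : ℂ) else 0) else 0) =
      ((Finset.univ.filter (fun g : V ≃ₗ[F] V => W₀.map (g : V →ₗ[F] V) = W₀)).card : ℂ) := by
    have h4 : ∀ A : V →ₗ[F] V, (if h : Stab A W₀ then
        (if Function.Bijective (A.restrict h) then (1 : ℂ) else 0) *
          (if Function.Bijective (W₀.mapQ W₀ A h) then (1 : ℂ) else 0) else 0) =
        if Stab A W₀ ∧ Function.Bijective A then 1 else 0 := by
      intro A
      by_cases h : Stab A W₀
      · rw [dif_pos h]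
        by_cases hb : Function.Bijective A
        · obtain ⟨h5, h6⟩ := (bijective_iff_of_stab h).1 hb
          rw [if_pos h5, if_pos h6, if_pos ⟨h, hb⟩, one_mul]
        · have h7 : ¬ (Stab A W₀ ∧ Function.Bijective A) := fun hh => hb hh.2
          rw [if_neg h7]
          by_cases h5 : Function.Bijective (A.restrict h)
          · have h6 : ¬ Function.Bijective (W₀.mapQ W₀ A h) := fun h6 =>
              hb ((bijective_iff_of_stab h).2 ⟨h5, h6⟩)
            rw [if_neg h6, mul_zero]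
          · rw [if_neg h5, zero_mul]
      · have h7 : ¬ (Stab A W₀ ∧ Function.Bijective A) := fun hh => h hh.1
        rw [dif_neg h, if_neg h7]
    simp_rw [h4]
    rw [Finset.sum_boole]
    congr 1
    symm
    apply Finset.card_bij (fun (g : V ≃ₗ[F] V) _ => (g : V →ₗ[F] V))
    · intro g hg
      simp only [Finset.mem_filter, Finset.mem_univ, true_and] at hg ⊢
      refine ⟨?_, by simpa using g.bijective⟩
      intro x hx
      rw [← hg]
      exact ⟨x, hx, rfl⟩
    · intro g _ g' _ h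
      ext x
      exact LinearMap.congr_fun h x
    · intro a ha
      simp only [Finset.mem_filter, Finset.mem_univ, true_and] at ha
      refine ⟨LinearEquiv.ofBijective a ha.2, ?_, by ext; rfl⟩
      simp only [Finset.mem_filter, Finset.mem_univ, true_and]
      have hle : W₀.map ((LinearEquiv.ofBijective a ha.2 : V ≃ₗ[F] V) : V →ₗ[F] V) ≤ W₀ := by
        rintro _ ⟨x, hx, rfl⟩
        exact ha.1 x hx
      apply Submodule.eq_of_le_of_finrank_eq hle
      exact LinearEquiv.finrank_map_eq _ _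
  rw [h2, h3] at h1
  exact h1

theorem card_equiv_eq {B : Type u} [AddCommGroup B] [Module F B] [FiniteDimensional F B] {n : ℕ}
    (hn : finrank F B = n) :
    Fintype.card (B ≃ₗ[F] B) = Nat.card (Matrix.GeneralLinearGroup (Fin n) F) := by
  rw [← Nat.card_eq_fintype_card]
  have e : B ≃ₗ[F] (Fin n → F) := LinearEquiv.ofFinrankEq _ _ (by simp [hn])
  have e1 : (B ≃ₗ[F] B) ≃ ((Fin n → F) ≃ₗ[F] (Fin n → F)) :=
    { toFun := fun g => e.symm.trans (g.trans e)
      invFun := fun g => e.trans (g.trans e.symm)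
      left_inv := fun g => by ext; simp
      right_inv := fun g => by ext; simp }
  rw [Nat.card_congr e1]
  exact Nat.card_congr ((Matrix.GeneralLinearGroup.toLin).toEquiv.trans
    (LinearMap.GeneralLinearGroup.generalLinearEquiv F (Fin n → F)).toEquiv).symm

theorem card_gl_ne_zero (n : ℕ) : ((Nat.card (Matrix.GeneralLinearGroup (Fin n) F) : ℕ) : ℂ) ≠ 0 := by
  rw [← card_equiv_eq (B := E F n) (n := n) (by simp)]
  exact Nat.cast_ne_zero.mpr Fintype.card_ne_zero

theorem kap_ne_zero (n : ℕ) : kap F n ≠ 0 := inv_ne_zero (card_gl_ne_zero n)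

end Count

section Adj

variable {m l : ℕ}

theorem exists_sub_finrank (m l : ℕ) : ∃ W : Submodule F (E F (m + l)), finrank F W = m := by
  let φ : (E F m × E F l) ≃ₗ[F] E F (m + l) := LinearEquiv.ofFinrankEq _ _ (by simp)
  refine ⟨(LinearMap.range (LinearMap.inl F (E F m) (E F l))).map (φ : (E F m × E F l) →ₗ[F] E F (m + l)), ?_⟩
  rw [LinearEquiv.finrank_map_eq, LinearMap.finrank_range_of_inj LinearMap.inl_injective]
  simp

open Classical in
/-- The number of subspaces, in the reciprocal form. -/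
theorem kap_count :
    kap F (m + l) *
      ((Finset.univ.filter (fun W : Submodule F (E F (m + l)) => finrank F W = m)).card : ℂ) *
      ((Nat.card F : ℂ) ^ (m * l)) = kap F m * kap F l := by
  obtain ⟨W₀, hW₀⟩ := exists_sub_finrank (F := F) m l
  have hq : ((Nat.card F : ℕ) : ℂ) ≠ 0 := Nat.cast_ne_zero.mpr Nat.card_pos.ne'
  have hl : finrank F (E F (m + l) ⧸ W₀) = l := by
    have := Submodule.finrank_quotient_add_finrank W₀
    simp only [finrank_fintype_fun_eq_card, Fintype.card_fin] at this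
    omega
  have h1 := stab_count W₀
  have h2 := card_sub_mul_stab W₀
  simp only [card_hom_eq, hW₀, hl, finrank_fintype_fun_eq_card, Fintype.card_fin] at h1
  rw [card_equiv_eq hW₀, card_equiv_eq hl] at h1
  rw [hW₀, card_equiv_eq (B := E F (m + l)) (n := m + l) (by simp)] at h2
  unfold kap
  set S : ℂ := ((Finset.univ.filter (fun g : E F (m + l) ≃ₗ[F] E F (m + l) =>
    W₀.map (g : E F (m + l) →ₗ[F] E F (m + l)) = W₀)).card : ℂ) with hS
  set N : ℂ := ((Finset.univ.filter (fun W : Submodule F (E F (m + l)) => finrank F W = m)).card : ℂ) with hN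
  have h3 : ((Nat.card (Matrix.GeneralLinearGroup (Fin (m + l)) F) : ℕ) : ℂ) = N * S := by
    rw [← h2]
    push_cast
    rfl
  have g1 : ((Nat.card (Matrix.GeneralLinearGroup (Fin m) F) : ℕ) : ℂ) ≠ 0 := card_gl_ne_zero m
  have g2 : ((Nat.card (Matrix.GeneralLinearGroup (Fin l) F) : ℕ) : ℂ) ≠ 0 := card_gl_ne_zero l
  have g3 : ((Nat.card (Matrix.GeneralLinearGroup (Fin (m + l)) F) : ℕ) : ℂ) ≠ 0 := card_gl_ne_zero (m + l)
  have h4 : S = (Nat.card F : ℂ) ^ (m * l) *
      (((Nat.card (Matrix.GeneralLinearGroup (Fin m) F) : ℕ) : ℂ) *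
        ((Nat.card (Matrix.GeneralLinearGroup (Fin l) F) : ℕ) : ℂ)) := by
    push_cast at h1
    have h5 : ((Nat.card F : ℂ) ^ (m * l) * ((Nat.card F : ℂ) ^ (m * m) * (Nat.card F : ℂ) ^ (l * l))) ≠ 0 :=
      mul_ne_zero (pow_ne_zero _ hq) (mul_ne_zero (pow_ne_zero _ hq) (pow_ne_zero _ hq))
    apply mul_left_cancel₀ h5
    rw [h1]
    have : (m + l) * (m + l) = m * l + (m * m + l * l) + m * l := by ring
    rw [this, pow_add, pow_add, pow_add]
    ring
  rw [h3] at g3 ⊢
  rw [h4] at g3 ⊢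
  have g4 : N ≠ 0 := left_ne_zero_of_mul g3
  have g5 : ((Nat.card F : ℕ) : ℂ) ^ (m * l) ≠ 0 := pow_ne_zero _ hq
  field_simp

/-- Homogeneous of degree `m`. -/
def Hd (X : GF F) (m : ℕ) : Prop := ∀ k, k ≠ m → ∀ A, X k A = 0

theorem ev_eq_zero {X : GF F} {m : ℕ} (hd : Hd X m) {B : Type u} [AddCommGroup B] [Module F B]
    [FiniteDimensional F B] (g : B →ₗ[F] B) (h : finrank F B ≠ m) : ev X B g = 0 := hd _ h _

/-- Conjugation of endomorphisms along an isomorphism. -/
noncomputable def confEquiv {B B' : Type u} [AddCommGroup B] [Module F B] [AddCommGroup B'] [Module F B']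
    (e : B ≃ₗ[F] B') : (B →ₗ[F] B) ≃ (B' →ₗ[F] B') :=
  { toFun := fun a => (e : B →ₗ[F] B').comp (a.comp (e.symm : B' →ₗ[F] B))
    invFun := fun a => (e.symm : B' →ₗ[F] B).comp (a.comp (e : B →ₗ[F] B'))
    left_inv := fun a => by ext; simp
    right_inv := fun a => by ext; simp }

theorem confEquiv_apply {B B' : Type u} [AddCommGroup B] [Module F B] [AddCommGroup B'] [Module F B']
    (e : B ≃ₗ[F] B') (a : B →ₗ[F] B) (x : B) : confEquiv e a (e x) = e (a x) := by
  simp [confEquiv]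

/-- The common value of the contribution of a subspace. -/
noncomputable def omega (m l : ℕ) (X Z Y : GF F) : ℂ :=
  ∑ a : E F m →ₗ[F] E F m, ∑ b : E F l →ₗ[F] E F l,
    conj (rr Y a b) * (ev X (E F m) a * ev Z (E F l) b)

theorem sum_term_W {X Z Y : GF F} (hX : IsCl X) (hZ : IsCl Z) (hY : IsCl Y)
    {W : Submodule F (E F (m + l))} (hW : finrank F W = m) :
    ∑ A : E F (m + l) →ₗ[F] E F (m + l), term X Z A W * conj (ev Y (E F (m + l)) A) =
      (Nat.card F : ℂ) ^ (m * l) * omega m l X Z Y := by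
  classical
  have hq : ((Nat.card F : ℕ) : ℂ) ≠ 0 := Nat.cast_ne_zero.mpr Nat.card_pos.ne'
  have hl : finrank F (E F (m + l) ⧸ W) = l := by
    have := Submodule.finrank_quotient_add_finrank W
    simp only [finrank_fintype_fun_eq_card, Fintype.card_fin] at this
    omega
  set H : (W →ₗ[F] W) → ((E F (m + l) ⧸ W) →ₗ[F] (E F (m + l) ⧸ W)) → ℂ :=
    fun a₁ a₂ => ev X W a₁ * ev Z (E F (m + l) ⧸ W) a₂ with hH
  have h0 : ∀ A : E F (m + l) →ₗ[F] E F (m + l),
      term X Z A W * conj (ev Y (E F (m + l)) A) =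
        if h : Stab A W then conj (ev Y (E F (m + l)) A) * H (A.restrict h) (W.mapQ W A h) else 0 := by
    intro A
    by_cases h : Stab A W
    · rw [term_of_stab _ _ h, dif_pos h, mul_comm]
    · rw [term_of_not_stab _ _ h, dif_neg h, zero_mul]
  simp_rw [h0]
  have h1 := sum_stab_avg W (fun A => conj (ev Y (E F (m + l)) A)) H
  have hΔ : (Fintype.card ((E F (m + l) ⧸ W) →ₗ[F] W) : ℂ) ≠ 0 := card_hom_ne_zero
  have h2 : ∀ A : E F (m + l) →ₗ[F] E F (m + l), (if h : Stab A W then
      (∑ δ : (E F (m + l) ⧸ W) →ₗ[F] W, conj (ev Y (E F (m + l)) (A + shift W δ))) *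
        H (A.restrict h) (W.mapQ W A h) else 0) =
      (Fintype.card ((E F (m + l) ⧸ W) →ₗ[F] W) : ℂ) * (if h : Stab A W then
        conj (rr Y (A.restrict h) (W.mapQ W A h)) * H (A.restrict h) (W.mapQ W A h) else 0) := by
    intro A
    by_cases h : Stab A W
    · rw [dif_pos h, dif_pos h, ← map_sum, sum_shift hY h, map_mul, map_natCast, mul_assoc]
    · rw [dif_neg h, dif_neg h, mul_zero]
  simp only [h2] at h1
  rw [← Finset.mul_sum] at h1
  have h3 := mul_left_cancel₀ hΔ h1
  rw [h3]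
  have h4 := sum_stab_param W (fun a₁ a₂ => conj (rr Y a₁ a₂) * H a₁ a₂)
  have h5 : ∑ a₁ : W →ₗ[F] W, ∑ a₂ : (E F (m + l) ⧸ W) →ₗ[F] (E F (m + l) ⧸ W),
      conj (rr Y a₁ a₂) * H a₁ a₂ = omega m l X Z Y := by
    let e₁ : W ≃ₗ[F] E F m := LinearEquiv.ofFinrankEq _ _ (by simp [hW])
    let e₂ : (E F (m + l) ⧸ W) ≃ₗ[F] E F l := LinearEquiv.ofFinrankEq _ _ (by simp [hl])
    unfold omega
    apply Fintype.sum_equiv (confEquiv e₁)
    intro a₁
    apply Fintype.sum_equiv (confEquiv e₂)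
    intro a₂
    have h6 : rr Y (confEquiv e₁ a₁) (confEquiv e₂ a₂) = rr Y a₁ a₂ :=
      rr_congr hY e₁ e₂ (confEquiv_apply e₁ a₁) (confEquiv_apply e₂ a₂)
    have h7 : ev X (E F m) (confEquiv e₁ a₁) = ev X W a₁ :=
      ev_congr hX e₁ (confEquiv_apply e₁ a₁)
    have h8 : ev Z (E F l) (confEquiv e₂ a₂) = ev Z (E F (m + l) ⧸ W) a₂ :=
      ev_congr hZ e₂ (confEquiv_apply e₂ a₂)
    rw [h6, h7, h8]
  rw [h5] at h4
  simp only [card_hom_eq, hW, hl, finrank_fintype_fun_eq_card, Fintype.card_fin] at h4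
  push_cast at h4
  have h9 : ((Nat.card F : ℂ) ^ (m * l) * ((Nat.card F : ℂ) ^ (m * m) * (Nat.card F : ℂ) ^ (l * l))) ≠ 0 :=
    mul_ne_zero (pow_ne_zero _ hq) (mul_ne_zero (pow_ne_zero _ hq) (pow_ne_zero _ hq))
  apply mul_left_cancel₀ h9
  rw [h4]
  have : (m + l) * (m + l) = m * l + (m * m + l * l) + m * l := by ring
  rw [this, pow_add, pow_add, pow_add]
  ring

/-- The adjunction in expanded form. -/
theorem inner_mul {X Z Y : GF F} (hX : IsCl X) (hZ : IsCl Z) (hY : IsCl Y) (hd : Hd X m) :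
    hip (m + l) (mul X Z) Y = kap F m * kap F l * omega m l X Z Y := by
  classical
  unfold hip
  have h1 : ∀ A : E F (m + l) →ₗ[F] E F (m + l),
      ev (mul X Z) (E F (m + l)) A * conj (ev Y (E F (m + l)) A) =
      ∑ W : Submodule F (E F (m + l)), term X Z A W * conj (ev Y (E F (m + l)) A) := by
    intro A
    rw [ev_mul hX hZ, hall, Finset.sum_mul]
  simp_rw [h1]
  rw [Finset.sum_comm]
  have h2 : ∀ W : Submodule F (E F (m + l)),
      ∑ A : E F (m + l) →ₗ[F] E F (m + l), term X Z A W * conj (ev Y (E F (m + l)) A) =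
        if finrank F W = m then (Nat.card F : ℂ) ^ (m * l) * omega m l X Z Y else 0 := by
    intro W
    by_cases hW : finrank F W = m
    · rw [if_pos hW, sum_term_W hX hZ hY hW]
    · rw [if_neg hW]
      apply Finset.sum_eq_zero
      intro A _
      by_cases h : Stab A W
      · rw [term_of_stab _ _ h, ev_eq_zero hd _ hW]
        simp
      · rw [term_of_not_stab _ _ h, zero_mul]
  simp_rw [h2]
  rw [Finset.sum_ite, Finset.sum_const_zero, add_zero, Finset.sum_const, nsmul_eq_mul]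
  rw [← kap_count]
  ring

theorem conj_kap (n : ℕ) : conj (kap F n) = kap F n := by
  unfold kap
  simp

/-- **Adjunction.** -/
theorem inner_mul_eq {R Z Y : GF F} (hR : IsCl R) (hZ : IsCl Z) (hY : IsCl Y) (hd : Hd R m) :
    hip (m + l) (mul R Z) Y = hip l Z (rstar R m Y) := by
  rw [inner_mul hR hZ hY hd]
  unfold hip omega
  simp_rw [ev_rstar hY, map_mul, conj_kap, map_sum, map_mul, Complex.conj_conj]
  rw [Finset.sum_comm, mul_assoc, mul_left_comm (kap F m)]
  congr 1
  rw [Finset.mul_sum]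
  apply Finset.sum_congr rfl
  intro b _
  rw [mul_left_comm, Finset.mul_sum, Finset.mul_sum, Finset.mul_sum]
  congr 1
  funext a
  ring

end Adj

end Cfsg.Agent.Lib.HGAdj
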