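import Mathlib
import Cfsg.Agent.Lib.HGAdj
set_option autoImplicit false
set_option linter.unusedSectionVars false

/-!
# The degree of a cuspidal function in terms of its Whittaker coefficient

We work with sums over the additive groups `Nc c` of strictly upper triangular matrices
vanishing in the columns before `c`.
-/

namespace Cfsg.Agent.Lib.HGDeg

open Module Cfsg.Agent.Lib.HGBasic Cfsg.Agent.Lib.HGAssoc Cfsg.Agent.Lib.HGGreen
  Cfsg.Agent.Lib.HGCusp Cfsg.Agent.Lib.HGAdj
open scoped ComplexConjugate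

universe u

variable {F : Type u} [Field F] [Finite F] {n : ℕ}

/-- Strictly upper triangular matrices vanishing in the columns before `c`. -/
def Nc (F : Type u) [Field F] (n c : ℕ) : AddSubgroup (Matrix (Fin n) (Fin n) F) where
  carrier := {y | ∀ i j : Fin n, ¬ (i.val < j.val ∧ c ≤ j.val) → y i j = 0}
  add_mem' := fun {a b} ha hb i j h => by
    simp [ha i j h, hb i j h]
  zero_mem' := fun i j _ => rfl
  neg_mem' := fun {a} ha i j h => by
    simp [ha i j h]

theorem mem_Nc {c : ℕ} {y : Matrix (Fin n) (Fin n) F} :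
    y ∈ Nc F n c ↔ ∀ i j : Fin n, ¬ (i.val < j.val ∧ c ≤ j.val) → y i j = 0 := Iff.rfl

instance instFiniteMat : Finite (Matrix (Fin n) (Fin n) F) :=
  inferInstanceAs (Finite (Fin n → Fin n → F))

noncomputable instance instFintypeNc (c : ℕ) : Fintype (Nc F n c) := Fintype.ofFinite _

/-- Vectors supported on the first `c` coordinates. -/
def Kc (F : Type u) [Field F] (n c : ℕ) : Submodule F (Fin n → F) where
  carrier := {w | ∀ i : Fin n, c ≤ i.val → w i = 0}
  add_mem' := fun {a b} ha hb i h => by simp [ha i h, hb i h]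
  zero_mem' := fun _ _ => rfl
  smul_mem' := fun x a ha i h => by simp [ha i h]

theorem mem_Kc {c : ℕ} {w : Fin n → F} : w ∈ Kc F n c ↔ ∀ i : Fin n, c ≤ i.val → w i = 0 := Iff.rfl

noncomputable instance instFintypeKc (c : ℕ) : Fintype (Kc F n c) :=
  haveI : Finite (Fin n → F) := inferInstance
  Fintype.ofFinite _

/-- The sum of the superdiagonal. -/
noncomputable def sd (y : Matrix (Fin n) (Fin n) F) : F :=
  ∑ i : Fin n, ∑ j : Fin n, if j.val = i.val + 1 then y i j else 0

theorem sd_add (x y : Matrix (Fin n) (Fin n) F) : sd (x + y) = sd x + sd y := by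
  unfold sd
  rw [← Finset.sum_add_distrib]
  apply Finset.sum_congr rfl
  intro i _
  rw [← Finset.sum_add_distrib]
  apply Finset.sum_congr rfl
  intro j _
  by_cases h : j.val = i.val + 1
  · simp [h]
  · simp [h]

theorem sd_zero : sd (0 : Matrix (Fin n) (Fin n) F) = 0 := by
  simp [sd]

/-- The part of the superdiagonal beyond column `c`. -/
noncomputable def sdf (c : ℕ) (y : Matrix (Fin n) (Fin n) F) : F :=
  ∑ i : Fin n, ∑ j : Fin n, if j.val = i.val + 1 ∧ c + 1 ≤ j.val then y i j else 0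

theorem sdf_add (c : ℕ) (x y : Matrix (Fin n) (Fin n) F) : sdf c (x + y) = sdf c x + sdf c y := by
  unfold sdf
  rw [← Finset.sum_add_distrib]
  apply Finset.sum_congr rfl
  intro i _
  rw [← Finset.sum_add_distrib]
  apply Finset.sum_congr rfl
  intro j _
  by_cases h : j.val = i.val + 1 ∧ c + 1 ≤ j.val
  · rw [if_pos h, if_pos h, if_pos h, Matrix.add_apply]
  · rw [if_neg h, if_neg h, if_neg h, add_zero]

theorem sd_eq_sdf {c : ℕ} {y : Matrix (Fin n) (Fin n) F} (hy : y ∈ Nc F n (c + 1)) :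
    sd y = sdf c y := by
  unfold sd sdf
  apply Finset.sum_congr rfl
  intro i _
  apply Finset.sum_congr rfl
  intro j _
  by_cases h : j.val = i.val + 1
  · by_cases h2 : c + 1 ≤ j.val
    · rw [if_pos h, if_pos ⟨h, h2⟩]
    · have := hy i j (fun hh => h2 hh.2)
      rw [if_pos h, if_neg (fun hh => h2 hh.2), this]
  · rw [if_neg h, if_neg (fun hh => h hh.1)]

/-- The rank one matrix with column `c` equal to `w`. -/
noncomputable def Tm (c : Fin n) (w : Fin n → F) : Matrix (Fin n) (Fin n) F :=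
  Matrix.vecMulVec w (Pi.single c 1)

theorem Tm_apply (c : Fin n) (w : Fin n → F) (i j : Fin n) :
    Tm c w i j = if j = c then w i else 0 := by
  unfold Tm
  rw [Matrix.vecMulVec_apply]
  by_cases h : j = c
  · subst h; simp
  · simp [h, Pi.single_apply]

theorem Tm_mem {c : Fin n} {w : Fin n → F} (hw : w ∈ Kc F n c.val) : Tm c w ∈ Nc F n c.val := by
  intro i j h
  rw [Tm_apply]
  by_cases hj : j = c
  · rw [if_pos hj]
    apply hw i
    subst hj
    by_contra h2
    exact h ⟨by omega, le_refl _⟩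
  · rw [if_neg hj]

theorem Tm_add (c : Fin n) (w w' : Fin n → F) : Tm c (w + w') = Tm c w + Tm c w' := by
  ext i j
  simp only [Matrix.add_apply, Tm_apply]
  by_cases hj : j = c
  · simp [hj]
  · simp [hj]

/-- The decomposition of `Nc c`. -/
noncomputable def splitEquiv (c : Fin n) :
    (Nc F n (c.val + 1) × Kc F n c.val) ≃ Nc F n c.val where
  toFun p := ⟨p.1.1 + Tm c p.2.1, (Nc F n c.val).add_mem
    (fun i j h => p.1.2 i j (fun hh => h ⟨hh.1, by omega⟩)) (Tm_mem p.2.2)⟩
  invFun x := (⟨x.1 - Tm c (fun i => x.1 i c), by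
      intro i j h
      simp only [Matrix.sub_apply, Tm_apply]
      by_cases hj : j = c
      · rw [if_pos hj, hj, sub_self]
      · rw [if_neg hj, sub_zero]
        apply x.2 i j
        intro hh
        apply h
        refine ⟨hh.1, ?_⟩
        have : j.val ≠ c.val := fun h3 => hj (Fin.ext h3)
        omega⟩,
    ⟨fun i => x.1 i c, by
      intro i hi
      apply x.2 i c
      intro hh
      omega⟩)
  left_inv p := by
    have hw : (fun i => (p.1.1 + Tm c p.2.1) i c) = p.2.1 := by
      funext i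
      have h1 : p.1.1 i c = 0 := p.1.2 i c (fun hh => by omega)
      simp [Matrix.add_apply, Tm_apply, h1]
    apply Prod.ext
    · apply Subtype.ext
      show (p.1.1 + Tm c p.2.1) - Tm c (fun i => (p.1.1 + Tm c p.2.1) i c) = p.1.1
      rw [hw]
      simp
    · apply Subtype.ext
      exact hw
  right_inv x := by
    apply Subtype.ext
    show (x.1 - Tm c (fun i => x.1 i c)) + Tm c (fun i => x.1 i c) = x.1
    simp

theorem sum_split (c : Fin n) (f : Matrix (Fin n) (Fin n) F → ℂ) :
    ∑ x : Nc F n c.val, f x.1 =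
      ∑ y : Nc F n (c.val + 1), ∑ w : Kc F n c.val, f (y.1 + Tm c w.1) := by
  rw [← Fintype.sum_prod_type']
  exact (Fintype.sum_equiv (splitEquiv c) _ _ (fun p => rfl)).symm

theorem card_split (c : Fin n) :
    Fintype.card (Nc F n c.val) = Fintype.card (Nc F n (c.val + 1)) * Fintype.card (Kc F n c.val) := by
  rw [← Fintype.card_prod]
  exact (Fintype.card_congr (splitEquiv c)).symm

/-- The number of vectors supported on the first `c` coordinates. -/
theorem card_Kc (c : ℕ) (hc : c ≤ n) : Fintype.card (Kc F n c) = Nat.card F ^ c := by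
  let e : Kc F n c ≃ (Fin c → F) :=
    { toFun := fun w i => w.1 (Fin.castLE hc i)
      invFun := fun w => ⟨fun i => if h : i.val < c then w ⟨i.val, h⟩ else 0, fun i hi => by
        show (if h : i.val < c then w ⟨i.val, h⟩ else 0) = 0
        rw [dif_neg (by omega)]⟩
      left_inv := fun w => by
        apply Subtype.ext
        funext i
        by_cases h : i.val < c
        · simp [h, Fin.castLE]
        · simp only [h, dite_false]
          exact (w.2 i (by omega)).symm
      right_inv := fun w => by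
        funext i
        simp [Fin.castLE] }
  rw [← Nat.card_eq_fintype_card, Nat.card_congr e, Nat.card_fun]
  simp

/-- The main sum. -/
noncomputable def BB (X : GF F) (ψ : AddChar F ℂ) (n c : ℕ) : ℂ :=
  ∑ y : Nc F n c, X n (1 + y.1) * conj (ψ (sd y.1))

/-- The Fourier components. -/
noncomputable def aa (X : GF F) (ψ : AddChar F ℂ) (c : Fin n) (u : Fin n → F) : ℂ :=
  ∑ y : Nc F n (c.val + 1), ∑ w : Kc F n c.val,
    X n (1 + (y.1 + Tm c w.1)) * conj (ψ (sd y.1)) * conj (ψ (u ⬝ᵥ w.1))

theorem Tm_zero (c : Fin n) : Tm c (0 : Fin n → F) = 0 := by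
  ext i j
  simp [Tm_apply]

open Classical in
theorem fourier {ψ : AddChar F ℂ} (hψ : ψ ≠ 1) (c : ℕ) (w : Kc F n c) :
    ∑ v : Kc F n c, conj (ψ (v.1 ⬝ᵥ w.1)) = if w = 0 then (Fintype.card (Kc F n c) : ℂ) else 0 := by
  by_cases hw : w = 0
  · subst hw
    rw [if_pos rfl]
    simp [Finset.card_univ]
  · rw [if_neg hw]
    obtain ⟨i, hi⟩ : ∃ i, w.1 i ≠ 0 := by
      by_contra hh
      push Not at hh
      apply hw
      apply Subtype.ext
      funext i
      exact hh i
    have hic : i.val < c := by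
      by_contra hh
      exact hi (w.2 i (by omega))
    obtain ⟨t, ht⟩ : ∃ t, ψ t ≠ 1 := by
      by_contra hh
      push Not at hh
      apply hψ
      ext t
      simpa using hh t
    let v₀ : Kc F n c := ⟨Pi.single i (t / w.1 i), by
      intro k hk
      have : k ≠ i := by
        intro h
        subst h
        omega
      simp [Pi.single_apply, this]⟩
    have hv₀ : v₀.1 ⬝ᵥ w.1 = t := by
      show (Pi.single i (t / w.1 i) : Fin n → F) ⬝ᵥ w.1 = t
      rw [single_dotProduct]
      field_simp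
    have h1 : ∑ v : Kc F n c, conj (ψ (v.1 ⬝ᵥ w.1)) =
        conj (ψ t) * ∑ v : Kc F n c, conj (ψ (v.1 ⬝ᵥ w.1)) := by
      conv_lhs => rw [← Equiv.sum_comp (Equiv.addRight v₀)]
      rw [Finset.mul_sum]
      apply Finset.sum_congr rfl
      intro v _
      have h2 : ((Equiv.addRight v₀ v : Kc F n c) : Fin n → F) ⬝ᵥ w.1 = v.1 ⬝ᵥ w.1 + t := by
        show (v.1 + v₀.1) ⬝ᵥ w.1 = _
        rw [add_dotProduct, hv₀]
      rw [h2, AddChar.map_add_eq_mul, map_mul, mul_comm]
    have h3 : conj (ψ t) ≠ 1 := by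
      intro h
      apply ht
      have := congrArg conj h
      simpa using this
    have h4 : (1 - conj (ψ t)) * ∑ v : Kc F n c, conj (ψ (v.1 ⬝ᵥ w.1)) = 0 := by
      rw [sub_mul, one_mul, ← h1, sub_self]
    exact (mul_eq_zero.1 h4).resolve_left (sub_ne_zero.2 h3.symm)

/-- Summing over all Fourier components. -/
theorem sum_aa {ψ : AddChar F ℂ} (hψ : ψ ≠ 1) (X : GF F) (c : Fin n) :
    ∑ v : Kc F n c.val, aa X ψ c v.1 = (Fintype.card (Kc F n c.val) : ℂ) * BB X ψ n (c.val + 1) := by
  classical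
  unfold aa BB
  rw [Finset.sum_comm, Finset.mul_sum]
  apply Finset.sum_congr rfl
  intro y _
  rw [Finset.sum_comm]
  have h1 : ∀ w : Kc F n c.val, ∑ v : Kc F n c.val,
      X n (1 + (y.1 + Tm c w.1)) * conj (ψ (sd y.1)) * conj (ψ (v.1 ⬝ᵥ w.1)) =
      X n (1 + (y.1 + Tm c w.1)) * conj (ψ (sd y.1)) *
        if w = 0 then (Fintype.card (Kc F n c.val) : ℂ) else 0 := by
    intro w
    rw [← Finset.mul_sum, fourier hψ]
  simp_rw [h1]
  rw [Finset.sum_eq_single 0]
  · rw [if_pos rfl]
    simp only [ZeroMemClass.coe_zero, Tm_zero, add_zero]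
    ring
  · intro w _ hw
    rw [if_neg hw, mul_zero]
  · simp

theorem sd_Tm (c : Fin n) (hc : 0 < c.val) (w : Fin n → F) :
    sd (Tm c w) = w ⟨c.val - 1, by omega⟩ := by
  classical
  unfold sd
  rw [Finset.sum_eq_single (⟨c.val - 1, by omega⟩ : Fin n)]
  · rw [Finset.sum_eq_single c]
    · have : c.val = c.val - 1 + 1 := by omega
      simp only [if_pos this, Tm_apply, if_true]
    · intro j _ hj
      simp [Tm_apply, hj]
    · simp
  · intro i _ hi
    apply Finset.sum_eq_zero
    intro j _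
    by_cases h : j = c
    · have : ¬ (j.val = i.val + 1) := by
        intro h2
        apply hi
        apply Fin.ext
        subst h
        simp only
        omega
      rw [if_neg this]
    · simp [Tm_apply, h]
  · simp

/-- The component at the basic vector is the next sum. -/
theorem aa_basic {X : GF F} {ψ : AddChar F ℂ} (c : Fin n) (hc : 0 < c.val) :
    aa X ψ c (Pi.single ⟨c.val - 1, by omega⟩ 1) = BB X ψ n c.val := by
  unfold aa BB
  rw [sum_split c (fun x => X n (1 + x) * conj (ψ (sd x)))]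
  apply Finset.sum_congr rfl
  intro y _
  apply Finset.sum_congr rfl
  intro w _
  rw [sd_add, sd_Tm c hc, AddChar.map_add_eq_mul, map_mul, single_one_dotProduct, mul_assoc]

/-- Pairs of inverse matrices acting only on the first `c` coordinates. -/
structure CP (c : Fin n) (F : Type u) [Field F] where
  G : Matrix (Fin n) (Fin n) F
  G' : Matrix (Fin n) (Fin n) F
  h1 : G * G' = 1
  h2 : G' * G = 1
  pa : ∀ i : Fin n, c.val ≤ i.val → ∀ k, G i k = (1 : Matrix (Fin n) (Fin n) F) i k
  pb : ∀ j : Fin n, c.val ≤ j.val → ∀ k, G k j = (1 : Matrix (Fin n) (Fin n) F) k j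
  pa' : ∀ i : Fin n, c.val ≤ i.val → ∀ k, G' i k = (1 : Matrix (Fin n) (Fin n) F) i k
  pb' : ∀ j : Fin n, c.val ≤ j.val → ∀ k, G' k j = (1 : Matrix (Fin n) (Fin n) F) k j

namespace CP

variable {c : Fin n} (P : CP c F)

/-- The symmetric pair. -/
def symm : CP c F := ⟨P.G', P.G, P.h2, P.h1, P.pa', P.pb', P.pa, P.pb⟩

theorem mul_right {y : Matrix (Fin n) (Fin n) F} (hy : y ∈ Nc F n (c.val + 1)) : y * P.G' = y := by
  ext i j
  rw [Matrix.mul_apply]
  conv_rhs => rw [← Matrix.mul_one y, Matrix.mul_apply]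
  apply Finset.sum_congr rfl
  intro k _
  by_cases h : c.val ≤ k.val
  · rw [P.pa' k h]
  · rw [hy i k (fun hh => by omega)]
    simp

theorem mul_mem {y : Matrix (Fin n) (Fin n) F} (hy : y ∈ Nc F n (c.val + 1)) :
    P.G * y ∈ Nc F n (c.val + 1) := by
  intro i j h
  rw [Matrix.mul_apply]
  by_cases hj : c.val + 1 ≤ j.val
  · have hi : c.val ≤ i.val := by
      by_contra h2
      exact h ⟨by omega, hj⟩
    simp_rw [P.pa i hi]
    have := congrFun (congrFun (Matrix.one_mul y) i) j
    rw [Matrix.mul_apply] at this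
    rw [this]
    exact hy i j h
  · apply Finset.sum_eq_zero
    intro k _
    rw [hy k j (fun hh => hj hh.2), mul_zero]

theorem sdf_mul (y : Matrix (Fin n) (Fin n) F) : sdf c.val (P.G * y) = sdf c.val y := by
  unfold sdf
  apply Finset.sum_congr rfl
  intro i _
  apply Finset.sum_congr rfl
  intro j _
  by_cases h : j.val = i.val + 1 ∧ c.val + 1 ≤ j.val
  · rw [if_pos h, if_pos h, Matrix.mul_apply]
    have hi : c.val ≤ i.val := by omega
    simp_rw [P.pa i hi]
    have := congrFun (congrFun (Matrix.one_mul y) i) j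
    rw [Matrix.mul_apply] at this
    rw [this]
  · rw [if_neg h, if_neg h]

theorem sd_mul {y : Matrix (Fin n) (Fin n) F} (hy : y ∈ Nc F n (c.val + 1)) :
    sd (P.G * y) = sd y := by
  rw [sd_eq_sdf hy, sd_eq_sdf (P.mul_mem hy), sdf_mul]

theorem mulVec_mem {w : Fin n → F} (hw : w ∈ Kc F n c.val) : P.G.mulVec w ∈ Kc F n c.val := by
  intro i hi
  show (P.G.mulVec w) i = 0
  simp only [Matrix.mulVec, dotProduct]
  simp_rw [show P.G i = (1 : Matrix (Fin n) (Fin n) F) i from funext (P.pa i hi)]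
  have := congrFun (Matrix.one_mulVec w) i
  simp only [Matrix.mulVec, dotProduct] at this
  rw [this]
  exact hw i hi

theorem Tm_mul_right (w : Fin n → F) : Tm c w * P.G' = Tm c w := by
  ext i j
  rw [Matrix.mul_apply, Finset.sum_eq_single c]
  · rw [Tm_apply, if_pos rfl, P.pa' c (le_refl _) j, Tm_apply, Matrix.one_apply]
    by_cases h : j = c
    · simp [h]
    · have h' : c ≠ j := fun hh => h hh.symm
      simp [h, h']
  · intro k _ hk
    rw [Tm_apply, if_neg hk, zero_mul]
  · simp

theorem mul_Tm (w : Fin n → F) : P.G * Tm c w = Tm c (P.G.mulVec w) := by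
  ext i j
  rw [Matrix.mul_apply, Tm_apply]
  by_cases h : j = c
  · rw [if_pos h]
    simp only [Matrix.mulVec, dotProduct]
    apply Finset.sum_congr rfl
    intro k _
    rw [Tm_apply, if_pos h]
  · rw [if_neg h]
    apply Finset.sum_eq_zero
    intro k _
    rw [Tm_apply, if_neg h, mul_zero]

theorem conj_eq {X : GF F} (hX : IsCl X) {y : Matrix (Fin n) (Fin n) F}
    (hy : y ∈ Nc F n (c.val + 1)) (w : Fin n → F) :
    X n (1 + (P.G * y + Tm c (P.G.mulVec w))) = X n (1 + (y + Tm c w)) := by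
  have h : 1 + (P.G * y + Tm c (P.G.mulVec w)) = P.G * (1 + (y + Tm c w)) * P.G' := by
    rw [Matrix.mul_add, Matrix.add_mul, Matrix.mul_add, Matrix.add_mul, Matrix.mul_one, P.h1,
      Matrix.mul_assoc, P.mul_right hy, Matrix.mul_assoc, P.Tm_mul_right, P.mul_Tm]
  rw [h]
  exact hX _ _ _ _ P.h1

/-- The action on `Nc (c+1)`. -/
def equivN : Nc F n (c.val + 1) ≃ Nc F n (c.val + 1) where
  toFun y := ⟨P.G * y.1, P.mul_mem y.2⟩
  invFun y := ⟨P.G' * y.1, P.symm.mul_mem y.2⟩
  left_inv y := by
    apply Subtype.ext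
    show P.G' * (P.G * y.1) = y.1
    rw [← Matrix.mul_assoc, P.h2, Matrix.one_mul]
  right_inv y := by
    apply Subtype.ext
    show P.G * (P.G' * y.1) = y.1
    rw [← Matrix.mul_assoc, P.h1, Matrix.one_mul]

/-- The action on `Kc c`. -/
def equivK : Kc F n c.val ≃ Kc F n c.val where
  toFun w := ⟨P.G.mulVec w.1, P.mulVec_mem w.2⟩
  invFun w := ⟨P.G'.mulVec w.1, P.symm.mulVec_mem w.2⟩
  left_inv w := by
    apply Subtype.ext
    show P.G'.mulVec (P.G.mulVec w.1) = w.1
    rw [Matrix.mulVec_mulVec, P.h2, Matrix.one_mulVec]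
  right_inv w := by
    apply Subtype.ext
    show P.G.mulVec (P.G'.mulVec w.1) = w.1
    rw [Matrix.mulVec_mulVec, P.h1, Matrix.one_mulVec]

theorem aa_conj {X : GF F} (hX : IsCl X) (ψ : AddChar F ℂ) (u : Fin n → F) :
    aa X ψ c (P.G.transpose.mulVec u) = aa X ψ c u := by
  unfold aa
  symm
  rw [← Equiv.sum_comp P.equivN]
  apply Finset.sum_congr rfl
  intro y _
  rw [← Equiv.sum_comp P.equivK]
  apply Finset.sum_congr rfl
  intro w _
  show X n (1 + (P.G * y.1 + Tm c (P.G.mulVec w.1))) * conj (ψ (sd (P.G * y.1))) *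
    conj (ψ (u ⬝ᵥ P.G.mulVec w.1)) = _
  rw [P.conj_eq hX y.2, P.sd_mul y.2, Matrix.dotProduct_mulVec, Matrix.mulVec_transpose]

end CP

theorem exists_equiv_vec {K : Type u} [AddCommGroup K] [Module F K] [FiniteDimensional F K]
    {v e : K} (hv : v ≠ 0) (he : e ≠ 0) : ∃ g : K ≃ₗ[F] K, g v = e := by
  classical
  have h1 : finrank F (F ∙ v) = finrank F (F ∙ e) := by
    rw [finrank_span_singleton hv, finrank_span_singleton he]
  obtain ⟨g₀, hg₀⟩ := exists_equiv_map h1
  have h2 : g₀ v ∈ F ∙ e := by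
    rw [← hg₀]
    exact ⟨v, Submodule.mem_span_singleton_self v, rfl⟩
  obtain ⟨r, hr⟩ := Submodule.mem_span_singleton.1 h2
  have hr0 : r ≠ 0 := by
    intro h
    rw [h, zero_smul] at hr
    exact hv (g₀.map_eq_zero_iff.1 hr.symm)
  refine ⟨g₀.trans (LinearEquiv.smulOfNeZero F K r⁻¹ (inv_ne_zero hr0)), ?_⟩
  simp [← hr, hr0]

/-- The projection to the first `c` coordinates. -/
def piK (F : Type u) [Field F] (n c : ℕ) : (Fin n → F) →ₗ[F] Kc F n c where
  toFun x := ⟨fun i => if c ≤ i.val then 0 else x i, fun i hi => by simp [hi]⟩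
  map_add' x y := by
    apply Subtype.ext
    funext i
    by_cases h : c ≤ i.val <;> simp [h]
  map_smul' r x := by
    apply Subtype.ext
    funext i
    by_cases h : c ≤ i.val <;> simp [h]

theorem piK_apply (c : ℕ) (x : Fin n → F) (i : Fin n) :
    (piK F n c x : Fin n → F) i = if c ≤ i.val then 0 else x i := rfl

theorem piK_coe (c : ℕ) (w : Kc F n c) : piK F n c (w : Fin n → F) = w := by
  apply Subtype.ext
  funext i
  rw [piK_apply]
  by_cases h : c ≤ i.val
  · rw [if_pos h, w.2 i h]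
  · rw [if_neg h]

/-- The linear map acting by `g` on the first `c` coordinates and trivially on the others. -/
noncomputable def phiK (c : ℕ) (g : Kc F n c →ₗ[F] Kc F n c) : (Fin n → F) →ₗ[F] (Fin n → F) :=
  (Kc F n c).subtype.comp (g.comp (piK F n c)) +
    (LinearMap.id - (Kc F n c).subtype.comp (piK F n c))

theorem phiK_comp (c : ℕ) (g g' : Kc F n c →ₗ[F] Kc F n c) :
    (phiK c g).comp (phiK c g') = phiK c (g.comp g') := by
  apply LinearMap.ext
  intro x
  have h1 : ∀ x : Fin n → F, piK F n c (x - ((piK F n c x : Kc F n c) : Fin n → F)) = 0 := by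
    intro x
    rw [map_sub, piK_coe, sub_self]
  have e : ∀ (g : Kc F n c →ₗ[F] Kc F n c) (x : Fin n → F),
      phiK c g x = ((g (piK F n c x) : Kc F n c) : Fin n → F) +
        (x - ((piK F n c x : Kc F n c) : Fin n → F)) := fun g x => rfl
  have h2 : ∀ (g : Kc F n c →ₗ[F] Kc F n c) (x : Fin n → F), piK F n c (phiK c g x) = g (piK F n c x) := by
    intro g x
    rw [e, map_add, piK_coe, h1, add_zero]
  rw [LinearMap.comp_apply, e g, h2, e g', e (g.comp g')]
  simp only [LinearMap.comp_apply]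
  abel

theorem phiK_id (c : ℕ) : phiK c (LinearMap.id : Kc F n c →ₗ[F] Kc F n c) = LinearMap.id := by
  apply LinearMap.ext
  intro x
  simp [phiK]

theorem phiK_coe (c : ℕ) (g : Kc F n c →ₗ[F] Kc F n c) (w : Kc F n c) :
    phiK c g (w : Fin n → F) = g w := by
  simp [phiK, piK_coe]

theorem phiK_high (c : ℕ) (g : Kc F n c →ₗ[F] Kc F n c) (x : Fin n → F) (i : Fin n)
    (hi : c ≤ i.val) : phiK c g x i = x i := by
  simp only [phiK, LinearMap.add_apply, LinearMap.comp_apply, LinearMap.sub_apply,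
    LinearMap.id_apply, Submodule.subtype_apply, Pi.add_apply, Pi.sub_apply]
  rw [(g (piK F n c x)).2 i hi, piK_apply, if_pos hi]
  simp

theorem phiK_low (c : ℕ) (g : Kc F n c →ₗ[F] Kc F n c) (j : Fin n) (hj : c ≤ j.val) :
    phiK c g (Pi.single j 1) = Pi.single j 1 := by
  have h : piK F n c (Pi.single j 1) = 0 := by
    apply Subtype.ext
    funext i
    rw [piK_apply]
    by_cases h : c ≤ i.val
    · rw [if_pos h]; rfl
    · rw [if_neg h]
      have : i ≠ j := by
        rintro rfl
        exact h hj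
      simp [Pi.single_apply, this]
  simp [phiK, h]

/-- The existence of a pair moving any nonzero vector to any other. -/
theorem exists_CP (c : Fin n) {v e : Fin n → F} (hv : v ∈ Kc F n c.val) (he : e ∈ Kc F n c.val)
    (hv0 : v ≠ 0) (he0 : e ≠ 0) :
    ∃ P : CP c F, P.G.transpose.mulVec v = e := by
  obtain ⟨g, hg⟩ := exists_equiv_vec (F := F) (K := Kc F n c.val) (v := ⟨v, hv⟩) (e := ⟨e, he⟩)
    (fun h => hv0 (congrArg Subtype.val h)) (fun h => he0 (congrArg Subtype.val h))
  let φ := phiK c.val (g : Kc F n c.val →ₗ[F] Kc F n c.val)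
  let φ' := phiK c.val (g.symm : Kc F n c.val →ₗ[F] Kc F n c.val)
  have hφφ' : φ.comp φ' = LinearMap.id := by
    have hgg : (g : Kc F n c.val →ₗ[F] Kc F n c.val).comp (g.symm : Kc F n c.val →ₗ[F] Kc F n c.val) =
        LinearMap.id := by
      apply LinearMap.ext
      intro x
      simp
    rw [phiK_comp, hgg, phiK_id]
  have hφ'φ : φ'.comp φ = LinearMap.id := by
    have hgg : (g.symm : Kc F n c.val →ₗ[F] Kc F n c.val).comp (g : Kc F n c.val →ₗ[F] Kc F n c.val) =
        LinearMap.id := by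
      apply LinearMap.ext
      intro x
      simp
    rw [phiK_comp, hgg, phiK_id]
  have entry : ∀ (ζ : Kc F n c.val →ₗ[F] Kc F n c.val) (i k : Fin n),
      LinearMap.toMatrix' (phiK c.val ζ) i k = phiK c.val ζ (Pi.single k 1) i := by
    intro ζ i k
    rw [LinearMap.toMatrix'_apply]
  have hr : ∀ (ζ : Kc F n c.val →ₗ[F] Kc F n c.val) (i : Fin n), c.val ≤ i.val → ∀ k,
      (LinearMap.toMatrix' (phiK c.val ζ)) i k = (1 : Matrix (Fin n) (Fin n) F) i k := by
    intro ζ i hi k
    rw [entry, phiK_high _ _ _ _ hi, Matrix.one_apply, Pi.single_apply]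
  have hc : ∀ (ζ : Kc F n c.val →ₗ[F] Kc F n c.val) (j : Fin n), c.val ≤ j.val → ∀ k,
      (LinearMap.toMatrix' (phiK c.val ζ)) k j = (1 : Matrix (Fin n) (Fin n) F) k j := by
    intro ζ j hj k
    rw [entry, phiK_low _ _ _ hj, Matrix.one_apply, Pi.single_apply]
  refine ⟨⟨(LinearMap.toMatrix' φ).transpose, (LinearMap.toMatrix' φ').transpose, ?_, ?_, ?_, ?_, ?_, ?_⟩, ?_⟩
  · rw [← Matrix.transpose_mul, ← LinearMap.toMatrix'_comp, hφ'φ]
    simp
  · rw [← Matrix.transpose_mul, ← LinearMap.toMatrix'_comp, hφφ']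
    simp
  · intro i hi k
    rw [Matrix.transpose_apply, hc _ i hi k, Matrix.one_apply, Matrix.one_apply]
    simp [eq_comm]
  · intro j hj k
    rw [Matrix.transpose_apply, hr _ j hj k, Matrix.one_apply, Matrix.one_apply]
    simp [eq_comm]
  · intro i hi k
    rw [Matrix.transpose_apply, hc _ i hi k, Matrix.one_apply, Matrix.one_apply]
    simp [eq_comm]
  · intro j hj k
    rw [Matrix.transpose_apply, hr _ j hj k, Matrix.one_apply, Matrix.one_apply]
    simp [eq_comm]
  · show ((LinearMap.toMatrix' φ).transpose).transpose.mulVec v = e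
    rw [Matrix.transpose_transpose, LinearMap.toMatrix'_mulVec]
    have := phiK_coe c.val (g : Kc F n c.val →ₗ[F] Kc F n c.val) ⟨v, hv⟩
    show phiK c.val (g : Kc F n c.val →ₗ[F] Kc F n c.val) v = e
    rw [this]
    exact congrArg Subtype.val hg

theorem stab_one_add {c : ℕ} {x : Matrix (Fin n) (Fin n) F} (hx : x ∈ Nc F n c) :
    Stab (Matrix.toLin' (1 + x)) (Kc F n c) := by
  intro w hw i hi
  rw [Matrix.toLin'_apply, Matrix.add_mulVec, Matrix.one_mulVec, Pi.add_apply, hw i hi, zero_add]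
  simp only [Matrix.mulVec, dotProduct]
  apply Finset.sum_eq_zero
  intro j _
  by_cases hj : i.val < j.val ∧ c ≤ j.val
  · rw [hw j hj.2, mul_zero]
  · rw [hx i j hj, zero_mul]

theorem shift_matrix_mem {c : ℕ} (δ : ((Fin n → F) ⧸ Kc F n c) →ₗ[F] Kc F n c) :
    LinearMap.toMatrix' (shift (Kc F n c) δ) ∈ Nc F n c := by
  intro i j h
  rw [LinearMap.toMatrix'_apply]
  by_cases hi : c ≤ i.val
  · exact (δ _).2 i hi
  · have hj : j.val < c := by
      by_contra h2
      exact h ⟨by omega, by omega⟩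
    have h1 : (Submodule.Quotient.mk (Pi.single j (1 : F)) :
        (Fin n → F) ⧸ Kc F n c) = 0 := by
      rw [Submodule.Quotient.mk_eq_zero]
      intro k hk
      have : k ≠ j := by
        rintro rfl
        omega
      simp [this]
    show ((δ (Submodule.Quotient.mk _) : Kc F n c) : Fin n → F) i = 0
    rw [h1, map_zero]
    rfl

theorem sdf_shift_matrix {c : ℕ} (δ : ((Fin n → F) ⧸ Kc F n c) →ₗ[F] Kc F n c) :
    sdf c (LinearMap.toMatrix' (shift (Kc F n c) δ)) = 0 := by
  unfold sdf
  apply Finset.sum_eq_zero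
  intro i _
  apply Finset.sum_eq_zero
  intro j _
  by_cases h : j.val = i.val + 1 ∧ c + 1 ≤ j.val
  · rw [if_pos h, LinearMap.toMatrix'_apply]
    exact (δ _).2 i (by omega)
  · rw [if_neg h]

/-- The component at the zero vector vanishes by cuspidality. -/
theorem aa_zero {X : GF F} (hX : IsCl X) (cX : Cusp X) (ψ : AddChar F ℂ) (c : Fin n)
    (hc : 0 < c.val) : aa X ψ c 0 = 0 := by
  classical
  set W := Kc F n c.val with hW
  have h1 : aa X ψ c 0 = ∑ x : Nc F n c.val, X n (1 + x.1) * conj (ψ (sdf c.val x.1)) := by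
    rw [sum_split c (fun x => X n (1 + x) * conj (ψ (sdf c.val x)))]
    unfold aa
    apply Finset.sum_congr rfl
    intro y _
    apply Finset.sum_congr rfl
    intro w _
    have h2 : sdf c.val (Tm c w.1) = 0 := by
      unfold sdf
      apply Finset.sum_eq_zero
      intro i _
      apply Finset.sum_eq_zero
      intro j _
      by_cases h : j.val = i.val + 1 ∧ c.val + 1 ≤ j.val
      · have : j ≠ c := by
          rintro rfl
          omega
        rw [if_pos h, Tm_apply, if_neg this]
      · rw [if_neg h]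
    rw [sdf_add, h2, add_zero, ← sd_eq_sdf y.2, zero_dotProduct, AddChar.map_zero_eq_one]
    simp
  rw [h1]
  set f : Nc F n c.val → ℂ := fun x => X n (1 + x.1) * conj (ψ (sdf c.val x.1)) with hf
  have h2 : ∀ δ : ((Fin n → F) ⧸ W) →ₗ[F] W, ∑ x, f x =
      ∑ x : Nc F n c.val, conj (ψ (sdf c.val x.1)) *
        X n (1 + (x.1 + LinearMap.toMatrix' (shift W δ))) := by
    intro δ
    rw [← Equiv.sum_comp (Equiv.addRight (⟨_, shift_matrix_mem δ⟩ : Nc F n c.val))]
    apply Finset.sum_congr rfl
    intro x _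
    show X n (1 + (x.1 + LinearMap.toMatrix' (shift W δ))) *
      conj (ψ (sdf c.val (x.1 + LinearMap.toMatrix' (shift W δ)))) = _
    rw [sdf_add, sdf_shift_matrix, add_zero, mul_comm]
  have h3 : (Fintype.card (((Fin n → F) ⧸ W) →ₗ[F] W) : ℂ) * ∑ x, f x = 0 := by
    calc (Fintype.card (((Fin n → F) ⧸ W) →ₗ[F] W) : ℂ) * ∑ x, f x
        = ∑ δ : ((Fin n → F) ⧸ W) →ₗ[F] W, ∑ x : Nc F n c.val, conj (ψ (sdf c.val x.1)) *
        X n (1 + (x.1 + LinearMap.toMatrix' (shift W δ))) := by
          simp_rw [← h2]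
          rw [Finset.sum_const, Finset.card_univ, nsmul_eq_mul]
      _ = ∑ x : Nc F n c.val, conj (ψ (sdf c.val x.1)) * ∑ δ : ((Fin n → F) ⧸ W) →ₗ[F] W,
        X n (1 + (x.1 + LinearMap.toMatrix' (shift W δ))) := by
          rw [Finset.sum_comm]
          simp_rw [Finset.mul_sum]
      _ = 0 := by
          apply Finset.sum_eq_zero
          intro x _
          have hst := stab_one_add x.2
          have h4 : ∀ δ : ((Fin n → F) ⧸ W) →ₗ[F] W,
              X n (1 + (x.1 + LinearMap.toMatrix' (shift W δ))) =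
              ev X (Fin n → F) (Matrix.toLin' (1 + x.1) + shift W δ) := by
            intro δ
            rw [← ev_toLin' hX, ← add_assoc, map_add, Matrix.toLin'_toMatrix']
          simp_rw [h4]
          rw [sum_shift hX hst]
          have hne : W ≠ ⊥ := by
            intro h
            have h5 : (Pi.single (⟨0, by omega⟩ : Fin n) 1 : Fin n → F) ∈ W := by
              intro k hk
              have : k ≠ ⟨0, by omega⟩ := by
                intro h
                have h' := congrArg Fin.val h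
                simp only at h'
                omega
              simp [this]
            rw [h, Submodule.mem_bot] at h5
            have := congrFun h5 ⟨0, by omega⟩
            simp at this
          have hnt : W ≠ ⊤ := by
            intro h
            have h5 : (Pi.single c 1 : Fin n → F) ∈ W := by
              rw [h]
              exact Submodule.mem_top
            have := h5 c (le_refl _)
            simp at this
          haveI : Nontrivial W := Submodule.nontrivial_iff_ne_bot.2 hne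
          haveI : Nontrivial ((Fin n → F) ⧸ W) := Submodule.Quotient.nontrivial_iff.2 hnt
          rw [cX W ((Fin n → F) ⧸ W)]
          simp
  exact (mul_eq_zero.1 h3).resolve_left card_hom_ne_zero

/-- The recursion step. -/
theorem deg_step {X : GF F} (hX : IsCl X) (cX : Cusp X) {ψ : AddChar F ℂ} (hψ : ψ ≠ 1) (c : Fin n)
    (hc : 0 < c.val) :
    (Fintype.card (Kc F n c.val) : ℂ) * BB X ψ n (c.val + 1) =
      ((Fintype.card (Kc F n c.val) : ℂ) - 1) * BB X ψ n c.val := by
  classical
  rw [← sum_aa hψ X c]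
  let e : Kc F n c.val := ⟨Pi.single ⟨c.val - 1, by omega⟩ 1, by
    intro k hk
    have : k ≠ ⟨c.val - 1, by omega⟩ := by
      intro h
      have h' := congrArg Fin.val h
      simp only at h'
      omega
    simp [this]⟩
  have he0 : e.1 ≠ 0 := by
    intro h
    have := congrFun h ⟨c.val - 1, by omega⟩
    simp [e] at this
  have h1 : ∀ v : Kc F n c.val, v ≠ 0 → aa X ψ c v.1 = BB X ψ n c.val := by
    intro v hv
    obtain ⟨P, hP⟩ := exists_CP c v.2 e.2 (fun h => hv (Subtype.ext h)) he0
    rw [← P.aa_conj hX ψ v.1, hP]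
    exact aa_basic c hc
  rw [← Finset.add_sum_erase Finset.univ _ (Finset.mem_univ (0 : Kc F n c.val))]
  have h2 : aa X ψ c ((0 : Kc F n c.val) : Fin n → F) = 0 := aa_zero hX cX ψ c hc
  rw [h2, zero_add, Finset.sum_congr rfl (fun v hv => h1 v (Finset.mem_erase.1 hv).1),
    Finset.sum_const, Finset.card_erase_of_mem (Finset.mem_univ _), Finset.card_univ, nsmul_eq_mul]
  have h3 : 1 ≤ Fintype.card (Kc F n c.val) := Fintype.card_pos
  rw [Nat.cast_sub h3]
  simp

/-- The normalized sum. -/
noncomputable def AA (X : GF F) (ψ : AddChar F ℂ) (n c : ℕ) : ℂ :=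
  (Fintype.card (Nc F n c) : ℂ)⁻¹ * BB X ψ n c

theorem AA_step {X : GF F} (hX : IsCl X) (cX : Cusp X) {ψ : AddChar F ℂ} (hψ : ψ ≠ 1) (c : Fin n)
    (hc : 0 < c.val) :
    AA X ψ n (c.val + 1) = ((Nat.card F : ℂ) ^ c.val - 1) * AA X ψ n c.val := by
  have h1 := deg_step hX cX hψ c hc
  unfold AA
  rw [card_split c]
  rw [card_Kc c.val c.2.le] at h1 ⊢
  push_cast at h1 ⊢
  have hq : ((Nat.card F : ℕ) : ℂ) ^ c.val ≠ 0 :=
    pow_ne_zero _ (Nat.cast_ne_zero.mpr Nat.card_pos.ne')
  have hN : (Fintype.card (Nc F n (c.val + 1)) : ℂ) ≠ 0 :=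
    Nat.cast_ne_zero.mpr Fintype.card_ne_zero
  field_simp
  linear_combination h1

theorem AA_eq_prod {X : GF F} (hX : IsCl X) (cX : Cusp X) {ψ : AddChar F ℂ} (hψ : ψ ≠ 1)
    (c : ℕ) (hc1 : 1 ≤ c) : c ≤ n →
    AA X ψ n c = (∏ i ∈ Finset.Ico 1 c, ((Nat.card F : ℂ) ^ i - 1)) * AA X ψ n 1 := by
  induction c, hc1 using Nat.le_induction with
  | base => intro _; simp
  | succ c hc ih =>
    intro hcn
    have h1 := AA_step hX cX hψ (⟨c, by omega⟩ : Fin n) (by simp only; omega)
    simp only at h1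
    rw [h1, ih (by omega), Finset.prod_Ico_succ_top hc]
    ring

theorem AA_top (X : GF F) (ψ : AddChar F ℂ) (n : ℕ) : AA X ψ n n = X n 1 := by
  classical
  have h0 : ∀ y : Nc F n n, y = 0 := by
    intro y
    apply Subtype.ext
    ext i j
    apply y.2 i j
    intro hh
    have := j.2
    omega
  have h1 : Fintype.card (Nc F n n) = 1 := by
    rw [Fintype.card_eq_one_iff]
    exact ⟨0, h0⟩
  unfold AA BB
  rw [h1, Nat.cast_one, inv_one, one_mul, Finset.sum_eq_single 0 (fun y _ hy => absurd (h0 y) hy)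
    (by simp)]
  simp [sd_zero]

/-- **The degree formula.** -/
theorem deg_formula {X : GF F} (hX : IsCl X) (cX : Cusp X) {ψ : AddChar F ℂ} (hψ : ψ ≠ 1)
    (hn : 1 ≤ n) :
    X n 1 = (∏ i ∈ Finset.Ico 1 n, ((Nat.card F : ℂ) ^ i - 1)) * AA X ψ n 1 := by
  rw [← AA_top X ψ n]
  exact AA_eq_prod hX cX hψ n hn (le_refl _)

end Cfsg.Agent.Lib.HGDeg
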