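import Mathlib
import Cfsg.Agent.Lib.HGDeg
set_option autoImplicit false
set_option linter.unusedSectionVars false

/-!
# Multiplicativity of the Whittaker functional under the Hall product
-/

namespace Cfsg.Agent.Lib.HGWhit

open Module Cfsg.Agent.Lib.HGBasic Cfsg.Agent.Lib.HGAssoc Cfsg.Agent.Lib.HGGreen
  Cfsg.Agent.Lib.HGCusp Cfsg.Agent.Lib.HGAdj Cfsg.Agent.Lib.HGDeg
open scoped ComplexConjugate

universe u

variable {F : Type u} [Field F] [Finite F] {n : ℕ}

theorem term_add_shift {V : Type u} [AddCommGroup V] [Module F V] [FiniteDimensional F V]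
    (X Y : GF F) (W : Submodule F V) (a : V →ₗ[F] V) (δ : (V ⧸ W) →ₗ[F] W) :
    term X Y (a + shift W δ) W = term X Y a W := by
  by_cases h : Stab a W
  · have h' := (stab_add_shift_iff a δ).2 h
    rw [term_of_stab _ _ h, term_of_stab _ _ h', restrict_add_shift δ h h', mapQ_add_shift δ h h']
  · have h' : ¬ Stab (a + shift W δ) W := fun hh => h ((stab_add_shift_iff a δ).1 hh)
    rw [term_of_not_stab _ _ h, term_of_not_stab _ _ h']

/-- Vanishing in the presence of a pivot. -/
theorem sW_zero_of_pivot {ψ : AddChar F ℂ} (hψ : ψ ≠ 1) (X Y : GF F) (W : Submodule F (Fin n → F))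
    (k k' : Fin n) (hk : k'.val = k.val + 1) (w : Fin n → F) (hwW : w ∈ W) (hwk : w k ≠ 0)
    (hw0 : ∀ l : Fin n, k.val < l.val → w l = 0) (φ : (Fin n → F) →ₗ[F] F)
    (hφW : ∀ x ∈ W, φ x = 0) (hφ0 : ∀ l : Fin n, l.val ≤ k.val → φ (Pi.single l 1) = 0)
    (hφ1 : φ (Pi.single k' 1) ≠ 0) :
    ∑ y : Nc F n 1, term X Y (Matrix.toLin' (1 + y.1)) W * conj (ψ (sd y.1)) = 0 := by
  classical
  obtain ⟨t, ht⟩ : ∃ t, ψ t ≠ 1 := by
    by_contra hh
    push Not at hh
    apply hψ
    ext t
    simpa using hh t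
  set c : F := t / (w k * φ (Pi.single k' 1)) with hc
  let δ₀ : (Fin n → F) →ₗ[F] W := (c • φ).smulRight (⟨w, hwW⟩ : W)
  let δ : ((Fin n → F) ⧸ W) →ₗ[F] W := W.liftQ δ₀ (by
    intro x hx
    simp only [LinearMap.mem_ker, δ₀, LinearMap.smulRight_apply, LinearMap.smul_apply]
    rw [hφW x hx]
    simp)
  have hshift : ∀ x : Fin n → F, shift W δ x = (c * φ x) • w := by
    intro x
    show ((δ₀ x : W) : Fin n → F) = _
    simp [δ₀]
  set r : Matrix (Fin n) (Fin n) F := LinearMap.toMatrix' (shift W δ) with hr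
  have hrab : ∀ a b : Fin n, r a b = c * φ (Pi.single b 1) * w a := by
    intro a b
    rw [hr, LinearMap.toMatrix'_apply, hshift]
    rfl
  have hrN : r ∈ Nc F n 1 := by
    intro a b h
    rw [hrab]
    by_cases ha : a.val ≤ k.val
    · have hb : b.val ≤ k.val := by
        by_contra h2
        exact h ⟨by omega, by omega⟩
      rw [hφ0 b hb]
      simp
    · rw [hw0 a (by omega)]
      simp
  have hsd : sd r = t := by
    unfold sd
    rw [Finset.sum_eq_single k]
    · rw [Finset.sum_eq_single k']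
      · rw [if_pos hk, hrab, hc]
        have h1 : w k ≠ 0 := hwk
        field_simp
      · intro b _ hb
        by_cases h2 : b.val = k.val + 1
        · exact absurd (Fin.ext (h2.trans hk.symm)) hb
        · rw [if_neg h2]
      · simp
    · intro a _ ha
      apply Finset.sum_eq_zero
      intro b _
      by_cases h2 : b.val = a.val + 1
      · rw [if_pos h2, hrab]
        by_cases h3 : a.val ≤ k.val
        · have h4 : a.val < k.val := by
            have : a.val ≠ k.val := fun h => ha (Fin.ext h)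
            omega
          rw [hφ0 b (by omega)]
          simp
        · rw [hw0 a (by omega)]
          simp
      · rw [if_neg h2]
    · simp
  set S := ∑ y : Nc F n 1, term X Y (Matrix.toLin' (1 + y.1)) W * conj (ψ (sd y.1)) with hS
  have h1 : S = conj (ψ t) * S := by
    rw [hS]
    conv_lhs => rw [← Equiv.sum_comp (Equiv.addRight (⟨r, hrN⟩ : Nc F n 1))]
    rw [Finset.mul_sum]
    apply Finset.sum_congr rfl
    intro y _
    show term X Y (Matrix.toLin' (1 + (y.1 + r))) W * conj (ψ (sd (y.1 + r))) = _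
    have h2 : Matrix.toLin' (1 + (y.1 + r)) = Matrix.toLin' (1 + y.1) + shift W δ := by
      rw [← add_assoc, map_add, hr, Matrix.toLin'_toMatrix']
    rw [h2, term_add_shift, sd_add, hsd, AddChar.map_add_eq_mul, map_mul]
    ring
  have h3 : conj (ψ t) ≠ 1 := by
    intro h
    apply ht
    have := congrArg conj h
    simpa using this
  have h4 : (1 - conj (ψ t)) * S = 0 := by
    rw [sub_mul, one_mul, ← h1, sub_self]
  exact (mul_eq_zero.1 h4).resolve_left (sub_ne_zero.2 h3.symm)

/-- The combinatorial lemma on the dimension function. -/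
theorem exists_jump (g : ℕ → ℕ) (n j : ℕ) (hj : j ≤ n) (h0 : g 0 = 0)
    (hmono : ∀ c, c < n → g c ≤ g (c + 1)) (hstep : ∀ c, c < n → g (c + 1) ≤ g c + 1)
    (hgj : 1 ≤ g j) (hgn : g n = n - j) :
    ∃ k, k + 2 ≤ n ∧ g (k + 1) = g k + 1 ∧ g (k + 2) = g (k + 1) := by
  by_contra hcon
  push Not at hcon
  -- a first jump
  obtain ⟨p, hp, hpj⟩ : ∃ p, p < j ∧ g (p + 1) = g p + 1 := by
    by_contra hh
    push Not at hh
    have : ∀ c, c ≤ j → g c = 0 := by
      intro c
      induction c with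
      | zero => intro _; exact h0
      | succ c ih =>
        intro hc
        have h1 := ih (by omega)
        have h2 := hstep c (by omega)
        have h3 := hh c (by omega)
        omega
    have := this j (le_refl _)
    omega
  have hall : ∀ m, p + m + 1 ≤ n → g (p + m + 1) = g (p + m) + 1 := by
    intro m
    induction m with
    | zero => intro _; simpa using hpj
    | succ m ih =>
      intro hm
      have h1 := ih (by omega)
      have h2 := hcon (p + m) (by omega) h1
      have h3 : g (p + m + 2) ≤ g (p + m + 1) + 1 := hstep (p + m + 1) (by omega)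
      have h4 : g (p + m + 1) ≤ g (p + m + 2) := hmono (p + m + 1) (by omega)
      have : p + (m + 1) + 1 = p + m + 2 := by omega
      rw [this]
      have h5 : p + (m + 1) = p + m + 1 := by omega
      rw [h5]
      omega
  have hsum : ∀ m, p + m ≤ n → g (p + m) = g p + m := by
    intro m
    induction m with
    | zero => intro _; simp
    | succ m ih =>
      intro hm
      have h1 := ih (by omega)
      have h2 := hall m (by omega)
      have : p + (m + 1) = p + m + 1 := by omega
      rw [this, h2, h1]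
      omega
  have := hsum (n - p) (by omega)
  have h6 : p + (n - p) = n := by omega
  rw [h6, hgn] at this
  omega

theorem Kc_zero : Kc F n 0 = ⊥ := by
  ext w
  rw [Submodule.mem_bot, mem_Kc]
  constructor
  · intro h
    funext i
    exact h i (Nat.zero_le _)
  · rintro rfl i _
    rfl

theorem Kc_top : Kc F n n = ⊤ := by
  ext w
  simp only [mem_Kc, Submodule.mem_top, iff_true]
  intro i hi
  have := i.2
  omega

theorem Kc_mono {c d : ℕ} (h : c ≤ d) : Kc F n c ≤ Kc F n d := fun _ hw i hi => hw i (by omega)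

/-- The dimension function. -/
noncomputable def gdim (W : Submodule F (Fin n → F)) (c : ℕ) : ℕ := finrank F ↥(W ⊓ Kc F n c)

theorem gdim_mono (W : Submodule F (Fin n → F)) {c d : ℕ} (h : c ≤ d) : gdim W c ≤ gdim W d :=
  Submodule.finrank_mono (inf_le_inf_left _ (Kc_mono h))

theorem gdim_step (W : Submodule F (Fin n → F)) (c : ℕ) (hc : c < n) :
    gdim W (c + 1) ≤ gdim W c + 1 := by
  classical
  by_cases h : W ⊓ Kc F n (c + 1) ≤ W ⊓ Kc F n c
  · have := Submodule.finrank_mono h
    unfold gdim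
    omega
  · obtain ⟨v, hv1, hv2⟩ := Set.not_subset.1 h
    let i₀ : Fin n := ⟨c, hc⟩
    have hv3 : v i₀ ≠ 0 := by
      intro h0
      apply hv2
      refine ⟨hv1.1, ?_⟩
      intro i hi
      by_cases h1 : i.val = c
      · have : i = i₀ := Fin.ext h1
        rw [this, h0]
      · exact hv1.2 i (by omega)
    have h1 : W ⊓ Kc F n (c + 1) ≤ (W ⊓ Kc F n c) ⊔ (F ∙ v) := by
      intro x hx
      have h2 : x - (x i₀ / v i₀) • v ∈ W ⊓ Kc F n c := by
        refine ⟨W.sub_mem hx.1 (W.smul_mem _ hv1.1), ?_⟩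
        intro i hi
        by_cases h3 : i.val = c
        · have : i = i₀ := Fin.ext h3
          subst this
          simp only [Pi.sub_apply, Pi.smul_apply, smul_eq_mul]
          field_simp
          simp
        · have h4 : c + 1 ≤ i.val := by omega
          simp [hx.2 i h4, hv1.2 i h4]
      have h5 : x = (x - (x i₀ / v i₀) • v) + (x i₀ / v i₀) • v := by abel
      rw [h5]
      exact Submodule.add_mem_sup h2 (Submodule.smul_mem _ _ (Submodule.mem_span_singleton_self v))
    have h2 := Submodule.finrank_mono h1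
    have h3 := Submodule.finrank_add_le_finrank_add_finrank (W ⊓ Kc F n c) (F ∙ v)
    have h4 : v ≠ 0 := fun h => hv3 (by rw [h]; rfl)
    rw [finrank_span_singleton h4] at h3
    unfold gdim
    omega

/-- The existence of a pivot. -/
theorem exists_pivot {j i : ℕ} (hn : n = j + i) (W : Submodule F (Fin n → F))
    (hdim : finrank F W = i) (hne : W ⊓ Kc F n j ≠ ⊥) :
    ∃ (k k' : Fin n) (w : Fin n → F) (φ : (Fin n → F) →ₗ[F] F), k'.val = k.val + 1 ∧ w ∈ W ∧ w k ≠ 0 ∧
      (∀ l : Fin n, k.val < l.val → w l = 0) ∧ (∀ x ∈ W, φ x = 0) ∧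
      (∀ l : Fin n, l.val ≤ k.val → φ (Pi.single l 1) = 0) ∧ φ (Pi.single k' 1) ≠ 0 := by
  classical
  obtain ⟨k, hk, h1, h2⟩ := exists_jump (gdim W) n j (by omega)
    (by
      unfold gdim
      rw [Kc_zero, inf_bot_eq, finrank_bot])
    (fun c _ => gdim_mono W (by omega))
    (fun c hc => gdim_step W c hc)
    (by
      unfold gdim
      exact Nat.pos_of_ne_zero (fun h => hne (Submodule.finrank_eq_zero.1 h)))
    (by
      unfold gdim
      rw [Kc_top, inf_top_eq, hdim]
      omega)
  let k₀ : Fin n := ⟨k, by omega⟩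
  let k₁ : Fin n := ⟨k + 1, by omega⟩
  -- the vector `w`
  have h3 : ¬ (W ⊓ Kc F n (k + 1) ≤ W ⊓ Kc F n k) := by
    intro hle
    have := Submodule.finrank_mono hle
    unfold gdim at h1
    omega
  obtain ⟨w, hw1, hw2⟩ := Set.not_subset.1 h3
  have hwk : w k₀ ≠ 0 := by
    intro h0
    apply hw2
    refine ⟨hw1.1, ?_⟩
    intro i hi
    by_cases h4 : i.val = k
    · have : i = k₀ := Fin.ext h4
      rw [this, h0]
    · exact hw1.2 i (by omega)
  -- the functional
  have h4 : (Pi.single k₁ 1 : Fin n → F) ∉ W ⊔ Kc F n (k + 1) := by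
    intro hmem
    obtain ⟨x, hx, u, hu, hxu⟩ := Submodule.mem_sup.1 hmem
    have hxk : x ∈ W ⊓ Kc F n (k + 2) := by
      refine ⟨hx, ?_⟩
      intro i hi
      have h5 : x i = (Pi.single k₁ 1 : Fin n → F) i - u i := by
        rw [← hxu]
        simp
      have h6 : i ≠ k₁ := by
        intro h
        rw [h] at hi
        simp [k₁] at hi
      rw [h5, hu i (by omega)]
      simp [h6]
    have hxn : x ∉ W ⊓ Kc F n (k + 1) := by
      intro hh
      have h5 : x k₁ = (Pi.single k₁ 1 : Fin n → F) k₁ - u k₁ := by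
        rw [← hxu]
        simp
      rw [hu k₁ (by simp [k₁]), hh.2 k₁ (by simp [k₁])] at h5
      simp at h5
    have h5 : W ⊓ Kc F n (k + 1) < W ⊓ Kc F n (k + 2) := by
      refine lt_of_le_of_ne (inf_le_inf_left _ (Kc_mono (by omega))) ?_
      intro h
      rw [h] at hxn
      exact hxn hxk
    have := Submodule.finrank_lt_finrank_of_lt h5
    unfold gdim at h2
    omega
  obtain ⟨φ, hφ1, hφ2⟩ := Submodule.exists_le_ker_of_notMem h4
  refine ⟨k₀, k₁, w, φ, rfl, hw1.1, hwk, ?_, ?_, ?_, hφ1⟩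
  · intro l hl
    exact hw1.2 l hl
  · intro x hx
    exact hφ2 (Submodule.mem_sup_left hx)
  · intro l hl
    apply hφ2
    apply Submodule.mem_sup_right
    intro i hi
    have : i ≠ l := by
      rintro rfl
      simp only [k₀] at hl
      omega
    simp [this]

section Block

variable {j i : ℕ}

/-- The coordinate splitting. -/
def spl (F : Type u) [Field F] (j i : ℕ) : (Fin (j + i) → F) ≃ₗ[F] ((Fin j → F) × (Fin i → F)) where
  toFun x := (fun a => x (Fin.castAdd i a), fun b => x (Fin.natAdd j b))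
  invFun p := Fin.append p.1 p.2
  map_add' x y := rfl
  map_smul' c x := rfl
  left_inv x := by
    simp [Fin.append_castAdd_natAdd]
  right_inv p := by
    refine Prod.ext ?_ ?_
    · funext a
      simp
    · funext b
      simp

/-- The block matrix. -/
noncomputable def blk (y₁ : Matrix (Fin j) (Fin j) F) (z : Matrix (Fin j) (Fin i) F)
    (y₂ : Matrix (Fin i) (Fin i) F) : Matrix (Fin (j + i)) (Fin (j + i)) F :=
  Matrix.reindex finSumFinEquiv finSumFinEquiv (Matrix.fromBlocks y₁ z 0 y₂)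

@[simp] theorem blk_cc (y₁ : Matrix (Fin j) (Fin j) F) (z : Matrix (Fin j) (Fin i) F)
    (y₂ : Matrix (Fin i) (Fin i) F) (a b : Fin j) :
    blk y₁ z y₂ (Fin.castAdd i a) (Fin.castAdd i b) = y₁ a b := by
  simp [blk, Matrix.reindex_apply]

@[simp] theorem blk_cn (y₁ : Matrix (Fin j) (Fin j) F) (z : Matrix (Fin j) (Fin i) F)
    (y₂ : Matrix (Fin i) (Fin i) F) (a : Fin j) (b : Fin i) :
    blk y₁ z y₂ (Fin.castAdd i a) (Fin.natAdd j b) = z a b := by
  simp [blk, Matrix.reindex_apply]

@[simp] theorem blk_nc (y₁ : Matrix (Fin j) (Fin j) F) (z : Matrix (Fin j) (Fin i) F)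
    (y₂ : Matrix (Fin i) (Fin i) F) (a : Fin i) (b : Fin j) :
    blk y₁ z y₂ (Fin.natAdd j a) (Fin.castAdd i b) = 0 := by
  simp [blk, Matrix.reindex_apply]

@[simp] theorem blk_nn (y₁ : Matrix (Fin j) (Fin j) F) (z : Matrix (Fin j) (Fin i) F)
    (y₂ : Matrix (Fin i) (Fin i) F) (a b : Fin i) :
    blk y₁ z y₂ (Fin.natAdd j a) (Fin.natAdd j b) = y₂ a b := by
  simp [blk, Matrix.reindex_apply]

theorem fin_cases' (x : Fin (j + i)) : (∃ a, x = Fin.castAdd i a) ∨ ∃ b, x = Fin.natAdd j b := by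
  induction x using Fin.addCases with
  | left a => exact Or.inl ⟨a, rfl⟩
  | right b => exact Or.inr ⟨b, rfl⟩

theorem blk_mem {y₁ : Matrix (Fin j) (Fin j) F} {z : Matrix (Fin j) (Fin i) F}
    {y₂ : Matrix (Fin i) (Fin i) F} (h₁ : y₁ ∈ Nc F j 1) (h₂ : y₂ ∈ Nc F i 1) :
    blk y₁ z y₂ ∈ Nc F (j + i) 1 := by
  intro p q h
  rcases fin_cases' p with ⟨a, rfl⟩ | ⟨a, rfl⟩ <;> rcases fin_cases' q with ⟨b, rfl⟩ | ⟨b, rfl⟩
  · rw [blk_cc]
    apply h₁
    intro hh
    apply h
    simp only [Fin.val_castAdd] 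
    exact hh
  · exfalso
    apply h
    simp only [Fin.val_castAdd, Fin.val_natAdd]
    have := a.2
    have := b.2
    omega
  · rw [blk_nc]
  · rw [blk_nn]
    apply h₂
    intro hh
    apply h
    simp only [Fin.val_natAdd]
    omega

/-- The decomposition of strictly upper triangular matrices into blocks. -/
noncomputable def blkEquiv (F : Type u) [Field F] [Finite F] (j i : ℕ) :
    (Nc F j 1 × ((Fin i → F) →ₗ[F] (Fin j → F)) × Nc F i 1) ≃ Nc F (j + i) 1 where
  toFun p := ⟨blk p.1.1 (LinearMap.toMatrix' p.2.1) p.2.2.1, blk_mem p.1.2 p.2.2.2⟩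
  invFun y :=
    (⟨y.1.submatrix (Fin.castAdd i) (Fin.castAdd i), by
        intro a b h
        apply y.2
        intro hh
        apply h
        simpa using hh⟩,
     Matrix.toLin' (y.1.submatrix (Fin.castAdd i) (Fin.natAdd j)),
     ⟨y.1.submatrix (Fin.natAdd j) (Fin.natAdd j), by
        intro a b h
        apply y.2
        intro hh
        apply h
        simp only [Fin.val_natAdd] at hh
        omega⟩)
  left_inv p := by
    refine Prod.ext ?_ (Prod.ext ?_ ?_)
    · apply Subtype.ext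
      ext a b
      simp
    · apply LinearMap.toMatrix'.injective
      ext a b
      simp
    · apply Subtype.ext
      ext a b
      simp
  right_inv y := by
    apply Subtype.ext
    ext p q
    rcases fin_cases' p with ⟨a, rfl⟩ | ⟨a, rfl⟩ <;> rcases fin_cases' q with ⟨b, rfl⟩ | ⟨b, rfl⟩
    · simp
    · simp
    · simp only [blk_nc]
      symm
      apply y.2
      simp only [Fin.val_natAdd, Fin.val_castAdd]
      have := b.2
      omega
    · simp

theorem card_blk : Fintype.card (Nc F (j + i) 1) = Fintype.card (Nc F j 1) *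
    (Fintype.card ((Fin i → F) →ₗ[F] (Fin j → F)) * Fintype.card (Nc F i 1)) := by
  rw [← Fintype.card_prod, ← Fintype.card_prod]
  exact (Fintype.card_congr (blkEquiv F j i)).symm

theorem spl_intertwine (y₁ : Matrix (Fin j) (Fin j) F) (z : Matrix (Fin j) (Fin i) F)
    (y₂ : Matrix (Fin i) (Fin i) F) (x : Fin (j + i) → F) :
    gU (Matrix.toLin' (1 + y₁)) (Matrix.toLin' z) (Matrix.toLin' (1 + y₂)) (spl F j i x) =
      spl F j i (Matrix.toLin' (1 + blk y₁ z y₂) x) := by
  refine Prod.ext ?_ ?_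
  · funext a
    show ((1 + y₁).mulVec (fun a => x (Fin.castAdd i a))) a + (z.mulVec (fun b => x (Fin.natAdd j b))) a =
      ((1 + blk y₁ z y₂).mulVec x) (Fin.castAdd i a)
    rw [Matrix.add_mulVec, Matrix.one_mulVec, Matrix.add_mulVec, Matrix.one_mulVec]
    simp only [Pi.add_apply, Matrix.mulVec, dotProduct, Fin.sum_univ_add, blk_cc, blk_cn]
    ring
  · funext a
    show ((1 + y₂).mulVec (fun b => x (Fin.natAdd j b))) a =
      ((1 + blk y₁ z y₂).mulVec x) (Fin.natAdd j a)
    rw [Matrix.add_mulVec, Matrix.one_mulVec, Matrix.add_mulVec, Matrix.one_mulVec]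
    simp only [Pi.add_apply, Matrix.mulVec, dotProduct, Fin.sum_univ_add, blk_nc, blk_nn]
    simp

/-- The entry linking the two blocks. -/
def z0 (hj : 1 ≤ j) (hi : 1 ≤ i) (z : (Fin i → F) →ₗ[F] (Fin j → F)) : F :=
  z (Pi.single ⟨0, by omega⟩ 1) ⟨j - 1, by omega⟩

theorem sd_blk (hj : 1 ≤ j) (hi : 1 ≤ i) (y₁ : Matrix (Fin j) (Fin j) F)
    (z : (Fin i → F) →ₗ[F] (Fin j → F)) (y₂ : Matrix (Fin i) (Fin i) F) :
    sd (blk y₁ (LinearMap.toMatrix' z) y₂) = sd y₁ + z0 hj hi z + sd y₂ := by
  classical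
  unfold sd
  simp only [Fin.sum_univ_add, blk_cc, blk_cn, blk_nc, blk_nn, Fin.val_castAdd, Fin.val_natAdd]
  have h1 : ∑ a : Fin j, ∑ b : Fin i, (if j + b.val = a.val + 1 then LinearMap.toMatrix' z a b else 0) =
      z0 hj hi z := by
    rw [Finset.sum_eq_single (⟨j - 1, by omega⟩ : Fin j)]
    · rw [Finset.sum_eq_single (⟨0, by omega⟩ : Fin i)]
      · have : j + 0 = j - 1 + 1 := by omega
        simp only [this, if_true]
        rw [LinearMap.toMatrix'_apply]
        rfl
      · intro b _ hb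
        have : b.val ≠ 0 := fun h => hb (Fin.ext h)
        rw [if_neg (by simp only; omega)]
      · simp
    · intro a _ ha
      apply Finset.sum_eq_zero
      intro b _
      have : a.val ≠ j - 1 := fun h => ha (Fin.ext h)
      have := a.2
      rw [if_neg (by omega)]
    · simp
  have h2 : ∑ a : Fin i, ∑ b : Fin j, (if b.val = j + a.val + 1 then (0 : F) else 0) = 0 := by
    simp
  have h3 : ∀ a b : Fin i, (j + b.val = j + a.val + 1) ↔ b.val = a.val + 1 := by
    intro a b
    omega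
  simp only [Finset.sum_add_distrib, h3, h1, ite_self, Finset.sum_const_zero, add_zero]
  ring

/-- The complements of the first factor: graphs of linear maps. -/
noncomputable def Gr (σ : (Fin i → F) →ₗ[F] (Fin j → F)) : Submodule F ((Fin j → F) × (Fin i → F)) :=
  ((⊥ : Submodule F (Fin j → F)).prod (⊤ : Submodule F (Fin i → F))).map
    (tau σ : ((Fin j → F) × (Fin i → F)) →ₗ[F] ((Fin j → F) × (Fin i → F)))

theorem mem_Gr (σ : (Fin i → F) →ₗ[F] (Fin j → F)) (x : Fin j → F) (y : Fin i → F) :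
    (x, y) ∈ Gr σ ↔ x = σ y := by
  unfold Gr
  constructor
  · rintro ⟨⟨x', y'⟩, ⟨hx', _⟩, he⟩
    have h1 : x' + σ y' = x := congrArg Prod.fst he
    have h2 : y' = y := congrArg Prod.snd he
    subst h2
    have hx0 : x' = 0 := by simpa using hx'
    subst hx0
    simpa using h1.symm
  · rintro rfl
    refine ⟨(0, y), ⟨Submodule.zero_mem _, Submodule.mem_top⟩, ?_⟩
    simp

theorem Gr_injective : Function.Injective (Gr (F := F) (j := j) (i := i)) := by
  intro σ σ' h
  apply LinearMap.ext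
  intro y
  have h1 : (σ y, y) ∈ Gr σ := (mem_Gr σ _ _).2 rfl
  rw [h] at h1
  exact (mem_Gr σ' _ _).1 h1

theorem exists_Gr (W : Submodule F ((Fin j → F) × (Fin i → F)))
    (h1 : W.comap (LinearMap.inl F (Fin j → F) (Fin i → F)) = ⊥)
    (h2 : W.map (LinearMap.snd F (Fin j → F) (Fin i → F)) = ⊤) : ∃ σ, Gr σ = W := by
  obtain ⟨D⟩ := exists_split (⊥ : Submodule F (Fin j → F)) (⊤ : Submodule F (Fin i → F))
  obtain ⟨s, rfl⟩ := D.exists_graphS W h1 h2
  exact ⟨D.sg s, rfl⟩

/-- Summation over the off-diagonal block for a fixed graph. -/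
theorem sum_Gr {X Y : GF F} (hX : IsCl X) (hY : IsCl Y) {ψ : AddChar F ℂ} (hj : 1 ≤ j) (hi : 1 ≤ i)
    (a : (Fin j → F) →ₗ[F] (Fin j → F)) (b : (Fin i → F) →ₗ[F] (Fin i → F))
    (σ : (Fin i → F) →ₗ[F] (Fin j → F)) (h0 : z0 hj hi (a.comp σ - σ.comp b) = 0) :
    ∑ z : (Fin i → F) →ₗ[F] (Fin j → F), term X Y (gU a z b) (Gr σ) * conj (ψ (z0 hj hi z)) =
      ev X (Fin i → F) b * ev Y (Fin j → F) a := by
  classical
  have hz0 : ∀ z z' : (Fin i → F) →ₗ[F] (Fin j → F), z0 hj hi (z + z') = z0 hj hi z + z0 hj hi z' :=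
    fun z z' => rfl
  unfold Gr
  simp_rw [term_tau hX hY]
  have h1 : ∀ z : (Fin i → F) →ₗ[F] (Fin j → F), z0 hj hi z = z0 hj hi (z + (a.comp σ - σ.comp b)) := by
    intro z
    rw [hz0, h0, add_zero]
  have h2 : ∀ z : (Fin i → F) →ₗ[F] (Fin j → F), z + a.comp σ - σ.comp b = z + (a.comp σ - σ.comp b) := by
    intro z
    abel
  have h5 := Equiv.sum_comp (Equiv.addRight (a.comp σ - σ.comp b))
    (fun z => term X Y (gU a z b) ((⊥ : Submodule F (Fin j → F)).prod (⊤ : Submodule F (Fin i → F))) *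
      conj (ψ (z0 hj hi z)))
  have h6 : ∀ z : (Fin i → F) →ₗ[F] (Fin j → F),
      term X Y (gU a (z + a.comp σ - σ.comp b) b)
        ((⊥ : Submodule F (Fin j → F)).prod (⊤ : Submodule F (Fin i → F))) * conj (ψ (z0 hj hi z)) =
      term X Y (gU a ((Equiv.addRight (a.comp σ - σ.comp b)) z) b)
        ((⊥ : Submodule F (Fin j → F)).prod (⊤ : Submodule F (Fin i → F))) *
        conj (ψ (z0 hj hi ((Equiv.addRight (a.comp σ - σ.comp b)) z))) := by
    intro z
    have h7 : (Equiv.addRight (a.comp σ - σ.comp b)) z = z + (a.comp σ - σ.comp b) := rfl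
    rw [h7, h2, ← h1]
  simp_rw [h6]
  rw [h5]
  rw [Finset.sum_eq_single 0]
  · have hst : Stab (gU a 0 b) ((⊥ : Submodule F (Fin j → F)).prod (⊤ : Submodule F (Fin i → F))) := by
      rintro ⟨x, y⟩ ⟨hx, _⟩
      refine ⟨?_, Submodule.mem_top⟩
      have hx0 : x = 0 := by simpa using hx
      subst hx0
      simp
    have h3 : z0 hj hi (0 : (Fin i → F) →ₗ[F] (Fin j → F)) = 0 := rfl
    rw [h3, AddChar.map_zero_eq_one, map_one, mul_one]
    refine term_eq hX hY hst (LinearMap.inr F (Fin j → F) (Fin i → F)) LinearMap.inr_injective ?_ b ?_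
      (LinearMap.fst F (Fin j → F) (Fin i → F)) LinearMap.fst_surjective ?_ a ?_
    · ext ⟨x, y⟩
      simp only [LinearMap.mem_range, LinearMap.inr_apply, Prod.mk.injEq, Submodule.mem_prod,
        Submodule.mem_bot, Submodule.mem_top, and_true]
      constructor
      · rintro ⟨y', h4, _⟩
        exact h4.symm
      · rintro rfl
        exact ⟨y, rfl, rfl⟩
    · intro y
      refine Prod.ext ?_ rfl
      simp
    · ext ⟨x, y⟩
      simp [LinearMap.mem_ker]
    · rintro ⟨x, y⟩
      simp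
  · intro z _ hz
    obtain ⟨y, hy⟩ : ∃ y, z y ≠ 0 := by
      by_contra hh
      push Not at hh
      apply hz
      apply LinearMap.ext
      intro y
      exact hh y
    have hst : ¬ Stab (gU a z b) ((⊥ : Submodule F (Fin j → F)).prod (⊤ : Submodule F (Fin i → F))) := by
      intro hh
      have := hh (0, y) ⟨Submodule.zero_mem _, Submodule.mem_top⟩
      have h4 := this.1
      simp only [gU_apply, map_zero, zero_add, Submodule.mem_bot] at h4
      exact hy h4
    rw [term_of_not_stab _ _ hst, zero_mul]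
  · simp

/-- The contribution of a complement. -/
theorem sW_graph {X Y : GF F} (hX : IsCl X) (hY : IsCl Y) {ψ : AddChar F ℂ} (hj : 1 ≤ j) (hi : 1 ≤ i)
    (W : Submodule F (Fin (j + i) → F))
    (h1 : (W.map (spl F j i : (Fin (j + i) → F) →ₗ[F] ((Fin j → F) × (Fin i → F)))).comap
      (LinearMap.inl F (Fin j → F) (Fin i → F)) = ⊥)
    (h2 : (W.map (spl F j i : (Fin (j + i) → F) →ₗ[F] ((Fin j → F) × (Fin i → F)))).map
      (LinearMap.snd F (Fin j → F) (Fin i → F)) = ⊤) :
    ∑ y : Nc F (j + i) 1, term X Y (Matrix.toLin' (1 + y.1)) W * conj (ψ (sd y.1)) =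
      BB X ψ i 1 * BB Y ψ j 1 := by
  classical
  obtain ⟨σ, hσ⟩ := exists_Gr _ h1 h2
  rw [← Equiv.sum_comp (blkEquiv F j i)]
  rw [Fintype.sum_prod_type]
  simp_rw [Fintype.sum_prod_type]
  have h3 : ∀ (y₁ : Nc F j 1) (z : (Fin i → F) →ₗ[F] (Fin j → F)) (y₂ : Nc F i 1),
      term X Y (Matrix.toLin' (1 + ((blkEquiv F j i) (y₁, z, y₂)).1)) W *
        conj (ψ (sd ((blkEquiv F j i) (y₁, z, y₂)).1)) =
      (term X Y (gU (Matrix.toLin' (1 + y₁.1)) z (Matrix.toLin' (1 + y₂.1))) (Gr σ) * conj (ψ (z0 hj hi z))) *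
        (conj (ψ (sd y₁.1)) * conj (ψ (sd y₂.1))) := by
    intro y₁ z y₂
    show term X Y (Matrix.toLin' (1 + blk y₁.1 (LinearMap.toMatrix' z) y₂.1)) W *
        conj (ψ (sd (blk y₁.1 (LinearMap.toMatrix' z) y₂.1))) = _
    rw [sd_blk hj hi, AddChar.map_add_eq_mul, AddChar.map_add_eq_mul, map_mul, map_mul]
    have h4 : term X Y (gU (Matrix.toLin' (1 + y₁.1)) z (Matrix.toLin' (1 + y₂.1))) (Gr σ) =
        term X Y (Matrix.toLin' (1 + blk y₁.1 (LinearMap.toMatrix' z) y₂.1)) W := by
      rw [hσ]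
      apply term_congr hX hY (spl F j i)
      intro x
      have := spl_intertwine y₁.1 (LinearMap.toMatrix' z) y₂.1 x
      rwa [Matrix.toLin'_toMatrix'] at this
    rw [h4]
    ring
  simp_rw [h3]
  have h5 : ∀ (y₁ : Nc F j 1) (y₂ : Nc F i 1),
      ∑ z : (Fin i → F) →ₗ[F] (Fin j → F),
        (term X Y (gU (Matrix.toLin' (1 + y₁.1)) z (Matrix.toLin' (1 + y₂.1))) (Gr σ) * conj (ψ (z0 hj hi z))) *
        (conj (ψ (sd y₁.1)) * conj (ψ (sd y₂.1))) =
      X i (1 + y₂.1) * Y j (1 + y₁.1) * (conj (ψ (sd y₁.1)) * conj (ψ (sd y₂.1))) := by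
    intro y₁ y₂
    rw [← Finset.sum_mul, sum_Gr hX hY hj hi, ev_toLin' hX, ev_toLin' hY]
    -- the linking entry of the commutator vanishes
    unfold z0
    simp only [LinearMap.sub_apply, LinearMap.comp_apply]
    have h6 : (Matrix.toLin' (1 + y₂.1)) (Pi.single (⟨0, by omega⟩ : Fin i) 1) =
        (Pi.single (⟨0, by omega⟩ : Fin i) 1 : Fin i → F) := by
      rw [Matrix.toLin'_apply, Matrix.add_mulVec, Matrix.one_mulVec]
      have : y₂.1.mulVec (Pi.single (⟨0, by omega⟩ : Fin i) 1) = 0 := by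
        funext c
        rw [Matrix.mulVec_single_one]
        apply y₂.2
        intro hh
        simp only at hh
        omega
      rw [this, add_zero]
    rw [h6, Pi.sub_apply, Matrix.toLin'_apply, Matrix.add_mulVec, Matrix.one_mulVec, Pi.add_apply]
    have h7 : (y₁.1.mulVec (σ (Pi.single (⟨0, by omega⟩ : Fin i) 1))) ⟨j - 1, by omega⟩ = 0 := by
      simp only [Matrix.mulVec, dotProduct]
      apply Finset.sum_eq_zero
      intro c _
      rw [y₁.2 _ c (fun hh => by
        have := c.2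
        simp only at hh
        omega)]
      simp
    rw [h7]
    simp
  rw [show (∑ y₁ : Nc F j 1, ∑ z : (Fin i → F) →ₗ[F] (Fin j → F), ∑ y₂ : Nc F i 1,
      (term X Y (gU (Matrix.toLin' (1 + y₁.1)) z (Matrix.toLin' (1 + y₂.1))) (Gr σ) * conj (ψ (z0 hj hi z))) *
        (conj (ψ (sd y₁.1)) * conj (ψ (sd y₂.1)))) =
      ∑ y₁ : Nc F j 1, ∑ y₂ : Nc F i 1, ∑ z : (Fin i → F) →ₗ[F] (Fin j → F),
      (term X Y (gU (Matrix.toLin' (1 + y₁.1)) z (Matrix.toLin' (1 + y₂.1))) (Gr σ) * conj (ψ (z0 hj hi z))) *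
        (conj (ψ (sd y₁.1)) * conj (ψ (sd y₂.1))) from
    Finset.sum_congr rfl (fun y₁ _ => Finset.sum_comm)]
  simp_rw [h5]
  unfold BB
  rw [Finset.sum_mul_sum, Finset.sum_comm]
  apply Finset.sum_congr rfl
  intro y₁ _
  apply Finset.sum_congr rfl
  intro y₂ _
  ring

theorem spl_snd_eq_zero_iff (w : Fin (j + i) → F) : (spl F j i w).2 = 0 ↔ w ∈ Kc F (j + i) j := by
  constructor
  · intro h p hp
    have h1 : p = Fin.natAdd j ⟨p.val - j, by have := p.2; omega⟩ := by
      apply Fin.ext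
      simp only [Fin.val_natAdd]
      omega
    rw [h1]
    exact congrFun h _
  · intro h
    funext b
    exact h _ (by simp)

theorem graph_conds {W : Submodule F (Fin (j + i) → F)} (hW : finrank F W = i)
    (hK : W ⊓ Kc F (j + i) j = ⊥) :
    (W.map (spl F j i : (Fin (j + i) → F) →ₗ[F] ((Fin j → F) × (Fin i → F)))).comap
      (LinearMap.inl F (Fin j → F) (Fin i → F)) = ⊥ ∧
    (W.map (spl F j i : (Fin (j + i) → F) →ₗ[F] ((Fin j → F) × (Fin i → F)))).map
      (LinearMap.snd F (Fin j → F) (Fin i → F)) = ⊤ := by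
  have hinj : ∀ w ∈ W, (spl F j i w).2 = 0 → w = 0 := by
    intro w hw h
    have : w ∈ W ⊓ Kc F (j + i) j := ⟨hw, (spl_snd_eq_zero_iff w).1 h⟩
    rw [hK] at this
    simpa using this
  constructor
  · ext x
    simp only [Submodule.mem_comap, Submodule.mem_bot, LinearMap.inl_apply]
    constructor
    · rintro ⟨w, hw, he⟩
      have he' : spl F j i w = (x, 0) := he
      have h1 := hinj w hw (by rw [he'])
      rw [h1, map_zero] at he'
      exact (congrArg Prod.fst he').symm
    · rintro rfl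
      exact ⟨0, W.zero_mem, by rw [map_zero]; rfl⟩
  · rw [← Submodule.map_comp]
    let f : (Fin (j + i) → F) →ₗ[F] (Fin i → F) :=
      (LinearMap.snd F (Fin j → F) (Fin i → F)).comp (spl F j i : (Fin (j + i) → F) →ₗ[F] _)
    show W.map f = ⊤
    apply Submodule.eq_top_of_finrank_eq
    have h2 : Function.Injective (f.domRestrict W) := by
      rw [injective_iff_map_eq_zero]
      rintro ⟨w, hw⟩ h
      apply Subtype.ext
      exact hinj w hw h
    have h3 := LinearMap.finrank_range_of_inj h2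
    rw [LinearMap.range_domRestrict] at h3
    rw [h3, hW]
    simp

theorem mem_graphW (σ : (Fin i → F) →ₗ[F] (Fin j → F)) (w : Fin (j + i) → F) :
    w ∈ (Gr σ).comap (spl F j i : (Fin (j + i) → F) →ₗ[F] ((Fin j → F) × (Fin i → F))) ↔
      (spl F j i w).1 = σ (spl F j i w).2 := by
  show (spl F j i w) ∈ Gr σ ↔ _
  exact mem_Gr σ _ _

theorem graphW_conds (σ : (Fin i → F) →ₗ[F] (Fin j → F)) :
    finrank F ((Gr σ).comap (spl F j i : (Fin (j + i) → F) →ₗ[F] ((Fin j → F) × (Fin i → F)))) = i ∧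
    (Gr σ).comap (spl F j i : (Fin (j + i) → F) →ₗ[F] ((Fin j → F) × (Fin i → F))) ⊓ Kc F (j + i) j = ⊥ := by
  constructor
  · let f : (Fin i → F) →ₗ[F] (Fin (j + i) → F) :=
      ((spl F j i).symm : _ →ₗ[F] _).comp (LinearMap.prod σ LinearMap.id)
    have hf : Function.Injective f := by
      intro y y' h
      have := congrArg (spl F j i) h
      simp only [f, LinearMap.comp_apply, LinearEquiv.coe_coe, LinearEquiv.apply_symm_apply,
        LinearMap.prod_apply, Function.prod, LinearMap.id_apply] at this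
      exact congrArg Prod.snd this
    have hr : LinearMap.range f =
        (Gr σ).comap (spl F j i : (Fin (j + i) → F) →ₗ[F] ((Fin j → F) × (Fin i → F))) := by
      ext w
      rw [mem_graphW]
      constructor
      · rintro ⟨y, rfl⟩
        simp [f]
      · intro h
        refine ⟨(spl F j i w).2, ?_⟩
        apply (spl F j i).injective
        simp only [f, LinearMap.comp_apply, LinearEquiv.coe_coe, LinearEquiv.apply_symm_apply,
          LinearMap.prod_apply, Function.prod, LinearMap.id_apply]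
        exact Prod.ext h.symm rfl
    rw [← hr, LinearMap.finrank_range_of_inj hf]
    simp
  · ext w
    simp only [Submodule.mem_inf, Submodule.mem_bot]
    constructor
    · rintro ⟨h1, h2⟩
      have h3 := (spl_snd_eq_zero_iff w).2 h2
      have h4 := (mem_graphW σ w).1 h1
      rw [h3, map_zero] at h4
      apply (spl F j i).injective
      rw [map_zero]
      exact Prod.ext h4 h3
    · rintro rfl
      exact ⟨Submodule.zero_mem _, Submodule.zero_mem _⟩

open Classical in
/-- The number of complements. -/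
theorem card_complements :
    (Finset.univ.filter (fun W : Submodule F (Fin (j + i) → F) =>
      finrank F W = i ∧ W ⊓ Kc F (j + i) j = ⊥)).card =
    Fintype.card ((Fin i → F) →ₗ[F] (Fin j → F)) := by
  rw [← Finset.card_univ]
  symm
  apply Finset.card_bij (fun σ _ => (Gr σ).comap
    (spl F j i : (Fin (j + i) → F) →ₗ[F] ((Fin j → F) × (Fin i → F))))
  · intro σ _
    simpa using graphW_conds σ
  · intro σ _ σ' _ h
    apply Gr_injective
    have := congrArg (Submodule.map (spl F j i : (Fin (j + i) → F) →ₗ[F] ((Fin j → F) × (Fin i → F)))) h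
    rwa [Submodule.map_comap_eq_of_surjective (spl F j i).surjective,
      Submodule.map_comap_eq_of_surjective (spl F j i).surjective] at this
  · intro W hW
    simp only [Finset.mem_filter, Finset.mem_univ, true_and] at hW
    obtain ⟨h1, h2⟩ := graph_conds hW.1 hW.2
    obtain ⟨σ, hσ⟩ := exists_Gr _ h1 h2
    refine ⟨σ, Finset.mem_univ _, ?_⟩
    show (Gr σ).comap _ = W
    rw [hσ]
    exact Submodule.comap_map_eq_of_injective (spl F j i).injective W

/-- **Multiplicativity of the Whittaker functional.** -/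
theorem AA_mul {X Y : GF F} (hX : IsCl X) (hY : IsCl Y) (hd : Hd X i) {ψ : AddChar F ℂ} (hψ : ψ ≠ 1)
    (hj : 1 ≤ j) (hi : 1 ≤ i) :
    AA (mul X Y) ψ (j + i) 1 = AA X ψ i 1 * AA Y ψ j 1 := by
  classical
  have h1 : BB (mul X Y) ψ (j + i) 1 = ∑ W : Submodule F (Fin (j + i) → F),
      ∑ y : Nc F (j + i) 1, term X Y (Matrix.toLin' (1 + y.1)) W * conj (ψ (sd y.1)) := by
    unfold BB
    rw [Finset.sum_comm]
    apply Finset.sum_congr rfl
    intro y _
    show hall X Y _ * _ = _
    rw [hall, Finset.sum_mul]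
  have h2 : ∀ W : Submodule F (Fin (j + i) → F),
      ∑ y : Nc F (j + i) 1, term X Y (Matrix.toLin' (1 + y.1)) W * conj (ψ (sd y.1)) =
      if finrank F W = i ∧ W ⊓ Kc F (j + i) j = ⊥ then BB X ψ i 1 * BB Y ψ j 1 else 0 := by
    intro W
    by_cases hW : finrank F W = i
    · by_cases hK : W ⊓ Kc F (j + i) j = ⊥
      · rw [if_pos ⟨hW, hK⟩]
        obtain ⟨h3, h4⟩ := graph_conds hW hK
        exact sW_graph hX hY hj hi W h3 h4
      · rw [if_neg (fun h => hK h.2)]
        obtain ⟨k, k', w, φ, h3, h4, h5, h6, h7, h8, h9⟩ := exists_pivot rfl W hW hK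
        exact sW_zero_of_pivot hψ X Y W k k' h3 w h4 h5 h6 φ h7 h8 h9
    · rw [if_neg (fun h => hW h.1)]
      apply Finset.sum_eq_zero
      intro y _
      by_cases h : Stab (Matrix.toLin' (1 + y.1)) W
      · rw [term_of_stab _ _ h, ev_eq_zero hd _ hW]
        simp
      · rw [term_of_not_stab _ _ h, zero_mul]
  simp_rw [h2] at h1
  rw [Finset.sum_ite, Finset.sum_const_zero, add_zero, Finset.sum_const, card_complements,
    nsmul_eq_mul] at h1
  unfold AA
  rw [h1, card_blk]
  push_cast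
  have c1 : (Fintype.card (Nc F j 1) : ℂ) ≠ 0 := Nat.cast_ne_zero.mpr Fintype.card_ne_zero
  have c2 : (Fintype.card (Nc F i 1) : ℂ) ≠ 0 := Nat.cast_ne_zero.mpr Fintype.card_ne_zero
  have c3 : (Fintype.card ((Fin i → F) →ₗ[F] (Fin j → F)) : ℂ) ≠ 0 := card_hom_ne_zero
  field_simp

end Block

end Cfsg.Agent.Lib.HGWhit
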