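import Mathlib
import Cfsg.Prelude.Def_Characters
import Cfsg.Agent.Lib.HGWhit
import Cfsg.Agent.Lib.CharBasic
import Cfsg.Agent.Lib.CharInd
set_option autoImplicit false
set_option linter.unusedSectionVars false

/-!
# Interface between graded functions and characters of `GL_n`

A graded function that is homogeneous of degree `d`, supported on invertible matrices, and whose
restriction to `GL_d` is a character is called `ChF`.  The Hall product of such functions is again
such a function: it is the Harish-Chandra induction.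
-/

namespace Cfsg.Agent.Lib.HGChar

open Module Cfsg Cfsg.Agent.Lib.HGBasic Cfsg.Agent.Lib.HGAssoc Cfsg.Agent.Lib.HGGreen
  Cfsg.Agent.Lib.HGCusp Cfsg.Agent.Lib.HGAdj Cfsg.Agent.Lib.CharBasic Cfsg.Agent.Lib.CharInd
open scoped ComplexConjugate

universe u

variable {F : Type u} [Field F] [Finite F]

/-- The general linear group of degree `n`. -/
abbrev GLn (F : Type u) [Field F] (n : ℕ) := Matrix.GeneralLinearGroup (Fin n) F

noncomputable scoped instance instFintypeGLn (n : ℕ) : Fintype (GLn F n) :=
  haveI : Finite (Matrix (Fin n) (Fin n) F) :=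
    Finite.of_injective (fun A i j => A i j) (fun _ _ h => by
      ext i j; exact congrFun (congrFun h i) j)
  Fintype.ofFinite _

/-- Restriction to the group. -/
def res (X : GF F) (n : ℕ) : GLn F n → ℂ := fun g => X n g.val

/-- Supported on invertible matrices. -/
def Sup (X : GF F) : Prop := ∀ (n : ℕ) (A : Matrix (Fin n) (Fin n) F), ¬ IsUnit A → X n A = 0

section Ev

variable {V : Type u} [AddCommGroup V] [Module F V] [FiniteDimensional F V]

theorem isUnit_toMatrix_iff {k : ℕ} (b : Basis (Fin k) F V) (g : V →ₗ[F] V) :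
    IsUnit (LinearMap.toMatrix b b g) ↔ Function.Bijective g := by
  rw [← Module.End.isUnit_iff]
  exact MulEquiv.isUnit_map (LinearMap.toMatrixAlgEquiv b).toMulEquiv (x := g)

theorem ev_of_not_bij {X : GF F} (hs : Sup X) (g : V →ₗ[F] V) (h : ¬ Function.Bijective g) :
    ev X V g = 0 := by
  unfold ev
  apply hs
  rw [isUnit_toMatrix_iff]
  exact h

end Ev

theorem isUnit_iff_bij {n : ℕ} (A : Matrix (Fin n) (Fin n) F) :
    IsUnit A ↔ Function.Bijective (Matrix.toLin' A) := by
  rw [← Module.End.isUnit_iff]
  exact (MulEquiv.isUnit_map (Matrix.toLinAlgEquiv' (R := F) (n := Fin n)).toMulEquiv (x := A)).symm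

theorem sum_end_eq (n : ℕ) (f : (E F n →ₗ[F] E F n) → ℂ)
    (h : ∀ a : E F n →ₗ[F] E F n, ¬ Function.Bijective a → f a = 0) :
    ∑ a, f a = ∑ g : GLn F n, f (Matrix.toLin' g.val) := by
  symm
  apply Fintype.sum_of_injective (fun g : GLn F n => Matrix.toLin' g.val)
  · intro g g' hg
    apply Units.ext
    exact Matrix.toLin'.injective hg
  · intro a ha
    apply h
    intro hb
    apply ha
    have hu : IsUnit (LinearMap.toMatrix' a) := by
      rw [isUnit_iff_bij]
      simpa using hb
    exact ⟨hu.unit, by simp⟩
  · intro g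
    rfl

theorem hip_eq {X Y : GF F} (hX : IsCl X) (hY : IsCl Y) (hs : Sup X) (n : ℕ) :
    hip n X Y = classInner (res X n) (res Y n) := by
  unfold hip classInner kap
  congr 1
  rw [sum_end_eq]
  · apply Finset.sum_congr rfl
    intro g _
    rw [ev_toLin' hX, ev_toLin' hY]
    rfl
  · intro a ha
    rw [ev_of_not_bij hs a ha, zero_mul]

theorem res_isClass {X : GF F} (hX : IsCl X) (n : ℕ) : IsClassFunction (GLn F n) (res X n) := by
  intro g h
  show X n (h * g * h⁻¹).val = X n g.val
  rw [Units.val_mul, Units.val_mul]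
  exact hX n _ _ _ (by simp)

open Classical in
/-- The graded function attached to a function on `GL_d`. -/
noncomputable def lift (d : ℕ) (f : GLn F d → ℂ) : GF F := fun n A =>
  if h : n = d then (by subst h; exact if hu : IsUnit A then f hu.unit else 0) else 0

theorem lift_self (d : ℕ) (f : GLn F d → ℂ) (A : Matrix (Fin d) (Fin d) F) :
    lift d f d A = (open Classical in if hu : IsUnit A then f hu.unit else 0) := by
  simp [lift]

theorem lift_coe (d : ℕ) (f : GLn F d → ℂ) (g : GLn F d) : lift d f d g.val = f g := by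
  rw [lift_self, dif_pos g.isUnit]
  congr 1
  exact Units.ext rfl

theorem res_lift (d : ℕ) (f : GLn F d → ℂ) : res (lift d f) d = f := by
  funext g
  exact lift_coe d f g

theorem lift_hd (d : ℕ) (f : GLn F d → ℂ) : Hd (lift d f) d := by
  intro k hk A
  simp [lift, hk]

theorem lift_sup (d : ℕ) (f : GLn F d → ℂ) : Sup (lift d f) := by
  intro n A hA
  by_cases h : n = d
  · subst h
    rw [lift_self, dif_neg hA]
  · simp [lift, h]

theorem lift_isCl {d : ℕ} {f : GLn F d → ℂ} (hf : IsClassFunction (GLn F d) f) :
    IsCl (lift d f) := by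
  intro n A P Q hPQ
  by_cases h : n = d
  · subst h
    rw [lift_self, lift_self]
    have hQP : Q * P = 1 := mul_eq_one_comm.mp hPQ
    let P' : GLn F n := ⟨P, Q, hPQ, hQP⟩
    by_cases hA : IsUnit A
    · have hB : IsUnit (P * A * Q) := by
        have : P * A * Q = (P' * hA.unit * P'⁻¹ : GLn F n).val := by
          simp [P']
        rw [this]
        exact Units.isUnit _
      rw [dif_pos hA, dif_pos hB]
      have : hB.unit = P' * hA.unit * P'⁻¹ := by
        apply Units.ext
        simp [P']
      rw [this]
      exact hf _ _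
    · have hB : ¬ IsUnit (P * A * Q) := by
        intro hB
        apply hA
        have : A = (P'⁻¹ * hB.unit * P' : GLn F n).val := by
          simp [P', ← Matrix.mul_assoc, hQP]
          rw [Matrix.mul_assoc, hQP, Matrix.mul_one]
        rw [this]
        exact Units.isUnit _
      rw [dif_neg hA, dif_neg hB]
  · simp [lift, h]

theorem lift_res {X : GF F} {d : ℕ} (hd : Hd X d) (hs : Sup X) : lift d (res X d) = X := by
  funext n A
  by_cases h : n = d
  · subst h
    rw [lift_self]
    by_cases hA : IsUnit A
    · rw [dif_pos hA]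
      rfl
    · rw [dif_neg hA, hs _ _ hA]
  · rw [hd n h A]
    simp [lift, h]

/-- Functions whose restriction is a character. -/
structure ChF (X : GF F) (d : ℕ) : Prop where
  hd : Hd X d
  cl : IsCl X
  sup : Sup X
  ch : IsCharacter (GLn F d) (res X d)

theorem chF_lift {d : ℕ} {f : GLn F d → ℂ} (hf : IsCharacter (GLn F d) f) : ChF (lift d f) d where
  hd := lift_hd d f
  cl := lift_isCl (isClassFunction_of_isCharacter hf)
  sup := lift_sup d f
  ch := by rw [res_lift]; exact hf

theorem chF_unit : ChF (unit : GF F) 0 where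
  hd := by
    intro k hk A
    simp [unit, hk]
  cl := unit_isCl
  sup := by
    intro n A hA
    by_cases h : n = 0
    · subst h
      exact absurd (by
        haveI : Subsingleton (Matrix (Fin 0) (Fin 0) F) := inferInstance
        exact (isUnit_iff_exists_inv.2 ⟨1, Subsingleton.elim _ _⟩ : IsUnit A)) hA
    · simp [unit, h]
  ch := by
    have : res (unit : GF F) 0 = fun _ => (1 : ℂ) := by
      funext g
      simp [res, unit]
    rw [this]
    exact isCharacter_one

/-! ### Additivity -/

section Add

variable {V : Type u} [AddCommGroup V] [Module F V] [FiniteDimensional F V]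

theorem ev_add (X Y : GF F) (g : V →ₗ[F] V) : ev (X + Y) V g = ev X V g + ev Y V g := rfl

theorem term_add_left (X X' Y : GF F) (g : V →ₗ[F] V) (S : Submodule F V) :
    term (X + X') Y g S = term X Y g S + term X' Y g S := by
  by_cases h : Stab g S
  · simp only [term_of_stab _ _ h, ev_add, add_mul]
  · simp only [term_of_not_stab _ _ h, add_zero]

theorem term_add_right (X Y Y' : GF F) (g : V →ₗ[F] V) (S : Submodule F V) :
    term X (Y + Y') g S = term X Y g S + term X Y' g S := by
  by_cases h : Stab g S
  · simp only [term_of_stab _ _ h, ev_add, mul_add]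
  · simp only [term_of_not_stab _ _ h, add_zero]

end Add

theorem mul_add_right (X Y Y' : GF F) : mul X (Y + Y') = mul X Y + mul X Y' := by
  funext n A
  simp only [mul, hall, Pi.add_apply, term_add_right, Finset.sum_add_distrib]

theorem mul_add_left (X X' Y : GF F) : mul (X + X') Y = mul X Y + mul X' Y := by
  funext n A
  simp only [mul, hall, Pi.add_apply, term_add_left, Finset.sum_add_distrib]

/-! ### Homogeneity -/

theorem mul_hd {X Y : GF F} {i j : ℕ} (hX : Hd X i) (hY : Hd Y j) : Hd (mul X Y) (i + j) := by
  intro k hk A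
  show hall X Y (Matrix.toLin' A) = 0
  apply Finset.sum_eq_zero
  intro S _
  by_cases h : Stab (Matrix.toLin' A) S
  · rw [term_of_stab _ _ h]
    by_cases h1 : finrank F S = i
    · have h2 : finrank F ((Fin k → F) ⧸ S) ≠ j := by
        intro h2
        apply hk
        have := Submodule.finrank_quotient_add_finrank S
        simp only [finrank_fintype_fun_eq_card, Fintype.card_fin] at this
        omega
      rw [ev_eq_zero hY _ h2, mul_zero]
    · rw [ev_eq_zero hX _ h1, zero_mul]
  · exact term_of_not_stab _ _ h

theorem mul_sup {X Y : GF F} (hX : Sup X) (hY : Sup Y) : Sup (mul X Y) := by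
  intro n A hA
  show hall X Y (Matrix.toLin' A) = 0
  apply Finset.sum_eq_zero
  intro S _
  by_cases h : Stab (Matrix.toLin' A) S
  · rw [term_of_stab _ _ h]
    have hb : ¬ Function.Bijective (Matrix.toLin' A) := fun hb => hA ((isUnit_iff_bij A).2 hb)
    by_cases h1 : Function.Bijective ((Matrix.toLin' A).restrict h)
    · have h2 : ¬ Function.Bijective (S.mapQ S (Matrix.toLin' A) h) := fun h2 =>
        hb ((bijective_iff_of_stab h).2 ⟨h1, h2⟩)
      rw [ev_of_not_bij hY _ h2, mul_zero]
    · rw [ev_of_not_bij hX _ h1, zero_mul]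
  · exact term_of_not_stab _ _ h

/-! ### Harish-Chandra induction -/

section Ind

variable {n : ℕ}

/-- The linear equivalence attached to an element of `GL_n`. -/
noncomputable def glE (g : GLn F n) : E F n ≃ₗ[F] E F n :=
  Matrix.toLinearEquiv' g.val ⟨(g⁻¹ : GLn F n).val, by simp, by simp⟩

theorem glE_apply (g : GLn F n) (x : E F n) : glE g x = Matrix.toLin' g.val x := rfl

/-- The element of `GL_n` attached to a linear equivalence. -/
noncomputable def eGL (e : E F n ≃ₗ[F] E F n) : GLn F n :=
  ⟨LinearMap.toMatrix' (e : E F n →ₗ[F] E F n), LinearMap.toMatrix' (e.symm : E F n →ₗ[F] E F n),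
    by rw [← LinearMap.toMatrix'_comp]; simp, by rw [← LinearMap.toMatrix'_comp]; simp⟩

theorem glE_eGL (e : E F n ≃ₗ[F] E F n) : glE (eGL e) = e := by
  ext x i
  show (Matrix.toLin' (LinearMap.toMatrix' (e : E F n →ₗ[F] E F n)) x) i = e x i
  simp

/-- The stabilizer of a subspace. -/
def stabG (W : Submodule F (E F n)) : Subgroup (GLn F n) where
  carrier := {g | Stab (Matrix.toLin' g.val) W ∧ Stab (Matrix.toLin' (g⁻¹ : GLn F n).val) W}
  mul_mem' := by
    rintro a b ⟨ha, ha'⟩ ⟨hb, hb'⟩
    constructor
    · intro x hx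
      have := ha _ (hb x hx)
      simpa [Matrix.toLin'_apply, Matrix.mulVec_mulVec] using this
    · intro x hx
      have := hb' _ (ha' x hx)
      simpa [Matrix.toLin'_apply, Matrix.mulVec_mulVec, mul_inv_rev] using this
  one_mem' := by
    constructor
    · intro x hx
      simpa using hx
    · intro x hx
      simpa using hx
  inv_mem' := by
    rintro a ⟨ha, ha'⟩
    constructor
    · exact ha'
    · simpa using ha

theorem mem_stabG {W : Submodule F (E F n)} {g : GLn F n} :
    g ∈ stabG W ↔ Stab (Matrix.toLin' g.val) W := by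
  constructor
  · exact fun h => h.1
  · intro h
    refine ⟨h, ?_⟩
    have hinj : Function.Injective ((Matrix.toLin' g.val).restrict h) := by
      intro x y hxy
      apply Subtype.ext
      exact (glE g).injective (congrArg Subtype.val hxy)
    have hs := LinearMap.injective_iff_surjective.1 hinj
    intro x hx
    obtain ⟨z, hz⟩ := hs ⟨x, hx⟩
    have h1 : (g.val).mulVec (z : E F n) = x := congrArg Subtype.val hz
    have h2 : Matrix.toLin' (g⁻¹ : GLn F n).val x = z := by
      rw [← h1, Matrix.toLin'_apply, Matrix.mulVec_mulVec]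
      simp
    rw [h2]
    exact z.2

theorem mem_stabG_iff_map {W : Submodule F (E F n)} {g : GLn F n} :
    g ∈ stabG W ↔ W.map (glE g : E F n →ₗ[F] E F n) = W := by
  rw [mem_stabG]
  constructor
  · intro h
    apply Submodule.eq_of_le_of_finrank_eq
    · rintro _ ⟨x, hx, rfl⟩
      exact h x hx
    · exact LinearEquiv.finrank_map_eq _ _
  · intro h x hx
    rw [← h]
    exact ⟨x, hx, rfl⟩

theorem glE_mul (a b : GLn F n) (x : E F n) : glE (a * b) x = glE a (glE b x) := by
  simp [glE_apply, Matrix.toLin'_apply, Matrix.mulVec_mulVec]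

theorem map_glE_mul (a b : GLn F n) (W : Submodule F (E F n)) :
    W.map (glE (a * b) : E F n →ₗ[F] E F n) =
      (W.map (glE b : E F n →ₗ[F] E F n)).map (glE a : E F n →ₗ[F] E F n) := by
  rw [← Submodule.map_comp]
  congr 1
  apply LinearMap.ext
  intro x
  exact glE_mul a b x

theorem map_glE_one (W : Submodule F (E F n)) :
    W.map (glE (1 : GLn F n) : E F n →ₗ[F] E F n) = W := by
  have : (glE (1 : GLn F n) : E F n →ₗ[F] E F n) = LinearMap.id := by
    apply LinearMap.ext
    intro x
    simp [glE_apply]
  rw [this, Submodule.map_id]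

/-- Sum over the orbit of a subspace. -/
theorem sum_orbit (W : Submodule F (E F n)) (f : Submodule F (E F n) → ℂ)
    (hf : ∀ S : Submodule F (E F n), finrank F S ≠ finrank F W → f S = 0) :
    ∑ x : GLn F n, f (W.map (glE x : E F n →ₗ[F] E F n)) =
      (Nat.card (stabG W) : ℂ) * ∑ S, f S := by
  classical
  have h1 : ∑ x : GLn F n, f (W.map (glE x : E F n →ₗ[F] E F n)) =
      ∑ S : Submodule F (E F n), ∑ x ∈ Finset.univ.filter
        (fun x : GLn F n => W.map (glE x : E F n →ₗ[F] E F n) = S),
        f (W.map (glE x : E F n →ₗ[F] E F n)) :=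
    (Finset.sum_fiberwise _ _ _).symm
  rw [h1, Finset.mul_sum]
  apply Finset.sum_congr rfl
  intro S _
  by_cases hS : finrank F S = finrank F W
  · rw [Finset.sum_congr rfl (g := fun _ => f S)]
    · rw [Finset.sum_const, nsmul_eq_mul]
      congr 1
      rw [Nat.card_eq_fintype_card]
      congr 1
      rw [← Fintype.card_subtype]
      obtain ⟨e, he⟩ := exists_equiv_map hS.symm
      set x₀ : GLn F n := eGL e with hx₀
      have hx₀' : W.map (glE x₀ : E F n →ₗ[F] E F n) = S := by
        rw [hx₀, glE_eGL, he]
      apply Fintype.card_congr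
      refine
        { toFun := fun x => ⟨x₀⁻¹ * x.1, ?_⟩
          invFun := fun p => ⟨x₀ * p.1, ?_⟩
          left_inv := fun x => ?_
          right_inv := fun p => ?_ }
      · rw [mem_stabG_iff_map, map_glE_mul]
        have hx := x.2
        rw [hx, ← hx₀', ← map_glE_mul, inv_mul_cancel, map_glE_one]
      · rw [map_glE_mul, mem_stabG_iff_map.1 p.2, hx₀']
      · apply Subtype.ext
        simp
      · apply Subtype.ext
        simp
    · intro x hx
      rw [(Finset.mem_filter.1 hx).2]
  · rw [hf S hS]
    simp only [mul_zero]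
    apply Finset.sum_eq_zero
    intro x hx
    rw [(Finset.mem_filter.1 hx).2, hf S hS]

variable {i j : ℕ}

/-- Restriction to the subspace as a monoid homomorphism. -/
noncomputable def blk1 (W : Submodule F (E F n)) (b : Basis (Fin i) F W) :
    stabG W →* Matrix (Fin i) (Fin i) F where
  toFun p := LinearMap.toMatrix b b ((Matrix.toLin' p.1.val).restrict (mem_stabG.1 p.2))
  map_one' := by
    rw [← LinearMap.toMatrix_id b]
    congr 1
    ext x
    simp
  map_mul' a b' := by
    rw [← LinearMap.toMatrix_mul]
    congr 1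
    apply LinearMap.ext
    intro x
    apply Subtype.ext
    show Matrix.toLin' (a.1.val * b'.1.val) x.1 = Matrix.toLin' a.1.val (Matrix.toLin' b'.1.val x.1)
    simp [Matrix.toLin'_apply, Matrix.mulVec_mulVec]

/-- Action on the quotient as a monoid homomorphism. -/
noncomputable def blk2 (W : Submodule F (E F n)) (b : Basis (Fin j) F (E F n ⧸ W)) :
    stabG W →* Matrix (Fin j) (Fin j) F where
  toFun p := LinearMap.toMatrix b b (W.mapQ W (Matrix.toLin' p.1.val) (mem_stabG.1 p.2))
  map_one' := by
    rw [← LinearMap.toMatrix_id b]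
    congr 1
    apply Submodule.linearMap_qext
    ext x
    simp
  map_mul' a b' := by
    rw [← LinearMap.toMatrix_mul]
    congr 1
    apply Submodule.linearMap_qext
    apply LinearMap.ext
    intro x
    show (Submodule.Quotient.mk (Matrix.toLin' (a.1.val * b'.1.val) x) : E F n ⧸ W) =
      Submodule.Quotient.mk (Matrix.toLin' a.1.val (Matrix.toLin' b'.1.val x))
    simp [Matrix.toLin'_apply, Matrix.mulVec_mulVec]

theorem res_mul_eq_ind {X Y : GF F} (hXc : IsCl X) (hYc : IsCl Y) (hX : Hd X i) (W : Submodule F (E F n))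
    (hW : finrank F W = i) (b₁ : Basis (Fin i) F W) (b₂ : Basis (Fin j) F (E F n ⧸ W)) :
    res (mul X Y) n = indFun (stabG W) (fun p =>
      res X i ((blk1 W b₁).toHomUnits p) * res Y j ((blk2 W b₂).toHomUnits p)) := by
  funext g
  rw [indFun_apply]
  have h1 : ∀ y : GLn F n, extendByZero (stabG W) (fun p =>
      res X i ((blk1 W b₁).toHomUnits p) * res Y j ((blk2 W b₂).toHomUnits p)) y =
      term X Y (Matrix.toLin' y.val) W := by
    intro y
    by_cases hy : y ∈ stabG W
    · rw [extendByZero_of_mem _ _ hy, term_of_stab _ _ (mem_stabG.1 hy),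
        ev_basis hXc b₁, ev_basis hYc b₂]
      rfl
    · rw [extendByZero_of_not_mem _ _ hy, term_of_not_stab]
      exact fun h => hy (mem_stabG.2 h)
  simp_rw [h1]
  have h2 : ∀ x : GLn F n, term X Y (Matrix.toLin' (x⁻¹ * g * x : GLn F n).val) W =
      term X Y (Matrix.toLin' g.val) (W.map (glE x : E F n →ₗ[F] E F n)) := by
    intro x
    symm
    apply term_congr hXc hYc (glE x)
    intro y
    show g.val.mulVec (x.val.mulVec y) = x.val.mulVec ((x⁻¹ * g * x : GLn F n).val.mulVec y)
    rw [Matrix.mulVec_mulVec, Matrix.mulVec_mulVec]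
    congr 1
    simp [mul_assoc]
  simp_rw [h2]
  rw [sum_orbit W (fun S => term X Y (Matrix.toLin' g.val) S)]
  · have hP : (Nat.card (stabG W) : ℂ) ≠ 0 := natCard_subgroup_ne_zero _
    rw [← mul_assoc, inv_mul_cancel₀ hP, one_mul]
    rfl
  · intro (S : Submodule F (E F n)) hS
    by_cases h : Stab (Matrix.toLin' g.val) S
    · rw [term_of_stab _ _ h, ev_eq_zero hX _ (by rw [← hW]; exact hS), zero_mul]
    · exact term_of_not_stab _ _ h

theorem chF_mul {X Y : GF F} (hX : ChF X i) (hY : ChF Y j) : ChF (mul X Y) (i + j) where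
  hd := mul_hd hX.hd hY.hd
  cl := mul_isCl hX.cl hY.cl
  sup := mul_sup hX.sup hY.sup
  ch := by
    obtain ⟨W, hW⟩ := exists_sub_finrank (F := F) i j
    have hl : finrank F (E F (i + j) ⧸ W) = j := by
      have := Submodule.finrank_quotient_add_finrank W
      simp only [finrank_fintype_fun_eq_card, Fintype.card_fin] at this
      omega
    rw [res_mul_eq_ind hX.cl hY.cl hX.hd W hW (finBasisOfFinrankEq F W hW)
      (finBasisOfFinrankEq F _ hl)]
    apply indFun_isCharacter
    exact isCharacter_mul (isCharacter_comp _ hX.ch) (isCharacter_comp _ hY.ch)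

end Ind

end Cfsg.Agent.Lib.HGChar
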