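import Mathlib
set_option autoImplicit false
set_option linter.unusedSectionVars false

/-!
# Recovering a graded family from the numbers of multisets of given total degree
-/

namespace Cfsg.Agent.Lib.HGCount

universe u v

section Basic

variable (A : ℕ → Type u)

/-- The degree of an element. -/
def dg (x : Σ d, A d) : ℕ := x.1 + 1

/-- The total degree of a multiset. -/
def td (M : Multiset (Σ d, A d)) : ℕ := (M.map (dg A)).sum

variable {A}

theorem le_td {M : Multiset (Σ d, A d)} {x : Σ d, A d} (hx : x ∈ M) : dg A x ≤ td A M := by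
  unfold td
  exact Multiset.single_le_sum (fun _ _ => Nat.zero_le _) _ (Multiset.mem_map_of_mem _ hx)

theorem td_eq_zero {M : Multiset (Σ d, A d)} (h : td A M = 0) : M = 0 := by
  by_contra hne
  obtain ⟨x, hx⟩ := Multiset.exists_mem_of_ne_zero hne
  have := le_td hx
  unfold dg at this
  omega

/-- The multisets of total degree `n`. -/
abbrev MS (A : ℕ → Type u) (n : ℕ) := {M : Multiset (Σ d, A d) // td A M = n}

/-- The multisets of total degree `n` of elements of degree at most `d`. -/
abbrev LS (A : ℕ → Type u) (n d : ℕ) := {M : Multiset (Σ d, A d) // td A M = n ∧ ∀ x ∈ M, x.1 < d}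

theorem card_MS_split (d : ℕ) [Finite (MS A (d + 1))] [Finite (A d)] :
    Nat.card (MS A (d + 1)) = Nat.card (A d) + Nat.card (LS A (d + 1) d) := by
  classical
  haveI : Finite (LS A (d + 1) d) :=
    Finite.of_injective (fun M => (⟨M.1, M.2.1⟩ : MS A (d + 1))) (fun M M' h => by
      apply Subtype.ext
      have h1 : M.1 = M'.1 := congrArg (fun X : MS A (d + 1) => X.1) h
      exact h1)
  rw [← Nat.card_sum]
  symm
  apply Nat.card_eq_of_bijective
    (fun x : A d ⊕ LS A (d + 1) d => match x with
      | Sum.inl a => (⟨{⟨d, a⟩}, by simp [td, dg]⟩ : MS A (d + 1))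
      | Sum.inr M => ⟨M.1, M.2.1⟩)
  constructor
  · rintro (a | M) (a' | M') h
    · have h1 : ({⟨d, a⟩} : Multiset (Σ d, A d)) = {⟨d, a'⟩} := congrArg Subtype.val h
      have h2 := Multiset.singleton_inj.1 h1
      have h3 : a = a' := by
        simpa using h2
      rw [h3]
    · exfalso
      have h1 : ({⟨d, a⟩} : Multiset (Σ d, A d)) = M'.1 := congrArg Subtype.val h
      have h2 := M'.2.2 ⟨d, a⟩ (by rw [← h1]; simp)
      simp at h2
    · exfalso
      have h1 : M.1 = ({⟨d, a'⟩} : Multiset (Σ d, A d)) := congrArg Subtype.val h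
      have h2 := M.2.2 ⟨d, a'⟩ (by rw [h1]; simp)
      simp at h2
    · have h1 : M.1 = M'.1 := congrArg (fun X : MS A (d + 1) => X.1) h
      rw [Subtype.ext h1]
  · rintro ⟨M, hM⟩
    by_cases hlow : ∀ x ∈ M, x.1 < d
    · exact ⟨Sum.inr ⟨M, hM, hlow⟩, rfl⟩
    · push Not at hlow
      obtain ⟨x, hx, hxd⟩ := hlow
      have h1 := le_td hx
      rw [hM] at h1
      unfold dg at h1
      have h2 : x.1 = d := by omega
      obtain ⟨e, he⟩ := Multiset.exists_cons_of_mem hx
      have h3 : td A M = dg A x + td A e := by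
        rw [he]
        simp [td]
      have h4 : td A e = 0 := by
        unfold dg at h3
        omega
      have h5 := td_eq_zero h4
      rw [h5] at he
      obtain ⟨d', a⟩ := x
      simp only at h2
      subst h2
      refine ⟨Sum.inl a, ?_⟩
      apply Subtype.ext
      show ({⟨d', a⟩} : Multiset (Σ d, A d)) = M
      rw [he]
      rfl

variable {B : ℕ → Type u}

theorem pmap_eq_map' {α β : Type*} {p : α → Prop} (f : ∀ a, p a → β) (g : α → β) (s : Multiset α)
    (H : ∀ a ∈ s, p a) (h : ∀ a ha, f a ha = g a) : s.pmap f H = s.map g := by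
  have h1 : f = fun a _ => g a := by
    funext a ha
    exact h a ha
  subst h1
  exact Multiset.pmap_eq_map _ _ _ _

/-- Transfer a multiset along an equivalence of the lower parts. -/
noncomputable def tr (d : ℕ) (α : ∀ e, e < d → A e ≃ B e) (M : Multiset (Σ d, A d))
    (hM : ∀ x ∈ M, x.1 < d) : Multiset (Σ d, B d) :=
  M.pmap (fun x hx => ⟨x.1, α x.1 hx x.2⟩) hM

theorem tr_td (d : ℕ) (α : ∀ e, e < d → A e ≃ B e) (M : Multiset (Σ d, A d))
    (hM : ∀ x ∈ M, x.1 < d) : td B (tr d α M hM) = td A M := by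
  unfold td tr
  rw [Multiset.map_pmap]
  congr 1
  exact pmap_eq_map' _ _ _ _ (fun _ _ => rfl)

theorem tr_low (d : ℕ) (α : ∀ e, e < d → A e ≃ B e) (M : Multiset (Σ d, A d))
    (hM : ∀ x ∈ M, x.1 < d) : ∀ x ∈ tr d α M hM, x.1 < d := by
  intro x hx
  unfold tr at hx
  rw [Multiset.mem_pmap] at hx
  obtain ⟨a, ha, rfl⟩ := hx
  exact hM a ha

theorem tr_tr (d : ℕ) (α : ∀ e, e < d → A e ≃ B e) (M : Multiset (Σ d, A d))
    (hM : ∀ x ∈ M, x.1 < d) :
    tr d (fun e he => (α e he).symm) (tr d α M hM) (tr_low d α M hM) = M := by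
  induction M using Multiset.induction_on with
  | empty => rfl
  | cons a s ih =>
    have hs : ∀ x ∈ s, x.1 < d := fun x hx => hM x (Multiset.mem_cons_of_mem hx)
    have h1 := ih hs
    unfold tr at h1 ⊢
    simp only [Multiset.pmap_cons]
    rw [h1]
    simp

theorem card_LS_eq (d n : ℕ) (α : ∀ e, e < d → A e ≃ B e) :
    Nat.card (LS A n d) = Nat.card (LS B n d) := by
  apply Nat.card_congr
  refine
    { toFun := fun M => ⟨tr d α M.1 M.2.2, ?_, tr_low d α M.1 M.2.2⟩
      invFun := fun M => ⟨tr d (fun e he => (α e he).symm) M.1 M.2.2, ?_, tr_low _ _ M.1 M.2.2⟩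
      left_inv := fun M => ?_
      right_inv := fun M => ?_ }
  · rw [tr_td]
    exact M.2.1
  · rw [tr_td]
    exact M.2.1
  · apply Subtype.ext
    exact tr_tr d α M.1 M.2.2
  · apply Subtype.ext
    have := tr_tr d (fun e he => (α e he).symm) M.1 M.2.2
    simpa using this

/-- **The counting principle.** -/
theorem card_eq_of_multiset [∀ d, Finite (A d)] [∀ d, Finite (B d)]
    (h : ∀ n, Nat.card (MS A (n + 1)) = Nat.card (MS B (n + 1)))
    (hA : ∀ n, Nat.card (MS A (n + 1)) ≠ 0) (d : ℕ) : Nat.card (A d) = Nat.card (B d) := by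
  induction d using Nat.strong_induction_on with
  | _ d ih =>
    have hfA : Finite (MS A (d + 1)) := Nat.finite_of_card_ne_zero (hA d)
    have hfB : Finite (MS B (d + 1)) := Nat.finite_of_card_ne_zero (by rw [← h]; exact hA d)
    have e1 := card_MS_split (A := A) d
    have e2 := card_MS_split (A := B) d
    have e3 : Nat.card (LS A (d + 1) d) = Nat.card (LS B (d + 1) d) :=
      card_LS_eq d (d + 1) (fun e he => (Finite.card_eq.1 (ih e he)).some)
    have e4 := h d
    omega

end Basic

end Cfsg.Agent.Lib.HGCount
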