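import Mathlib
import Cfsg.Agent.Lib.CharAvg
set_option autoImplicit false
set_option linter.unusedSectionVars false

/-!
# The abstract Gelfand–Graev argument

`U` is a subgroup of a finite group `G` with a linear character `ψ`.  We prove the multiplicity one
theorem using an anti-involution, and count the sum of the squares of the multiplicities in terms
of double cosets.
-/

namespace Cfsg.Agent.Lib.HGGGAbs

open Cfsg Cfsg.Agent.Lib.CharBasic Cfsg.Agent.Lib.CharInd Cfsg.Agent.Lib.CharAvg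
open scoped ComplexConjugate

universe u

variable {G : Type u} [Group G] [Fintype G] {U : Subgroup G} [Fintype U] (ψ : U →* ℂˣ)

/-- The multiplicity of `ψ` in the restriction to `U`. -/
noncomputable def gam (ψ : U →* ℂˣ) (χ : G → ℂ) : ℂ :=
  classInner (fun h : U => χ h) (fun u => ((ψ u : ℂˣ) : ℂ))

theorem gam_nat {χ : G → ℂ} (hχ : IsCharacter G χ) : ∃ n : ℕ, gam ψ χ = n :=
  classInner_char_irr (isCharacter_restrict U hχ) (isIrrCharacter_of_hom ψ)

theorem conj_psi (u : U) : conj ((ψ u : ℂˣ) : ℂ) = ((ψ u⁻¹ : ℂˣ) : ℂ) :=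
  char_conj_eq_inv (IsIrrCharacter.isCharacter (isIrrCharacter_of_hom ψ)) u

theorem card_U_ne : (Nat.card U : ℂ) ≠ 0 := natCard_subgroup_ne_zero U

section Rep

variable {V : Type*} [AddCommGroup V] [Module ℂ V] [FiniteDimensional ℂ V] (ρ : Representation ℂ G V)

/-- The projection to the `ψ`-isotypic part. -/
noncomputable def PP : Module.End ℂ V :=
  (Nat.card U : ℂ)⁻¹ • ∑ u : U, ((ψ u⁻¹ : ℂˣ) : ℂ) • ρ u

theorem rho_mul_PP (a : U) : ρ a * PP ψ ρ = ((ψ a : ℂˣ) : ℂ) • PP ψ ρ := by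
  unfold PP
  rw [mul_smul_comm, smul_comm]
  congr 1
  rw [Finset.mul_sum, Finset.smul_sum]
  apply Fintype.sum_equiv (Equiv.mulLeft a)
  intro u
  simp only [Equiv.coe_mulLeft]
  rw [mul_smul_comm, ← map_mul, smul_smul]
  have h : ((ψ u⁻¹ : ℂˣ) : ℂ) = ((ψ a : ℂˣ) : ℂ) * ((ψ (a * u)⁻¹ : ℂˣ) : ℂ) := by
    rw [← Units.val_mul]
    congr 1
    simp [mul_inv]
  rw [h]
  rfl

theorem PP_mul_rho (a : U) : PP ψ ρ * ρ a = ((ψ a : ℂˣ) : ℂ) • PP ψ ρ := by
  unfold PP
  rw [smul_mul_assoc, smul_comm]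
  congr 1
  rw [Finset.sum_mul, Finset.smul_sum]
  apply Fintype.sum_equiv (Equiv.mulRight a)
  intro u
  simp only [Equiv.coe_mulRight]
  rw [smul_mul_assoc, ← map_mul, smul_smul]
  have h : ((ψ u⁻¹ : ℂˣ) : ℂ) = ((ψ a : ℂˣ) : ℂ) * ((ψ (u * a)⁻¹ : ℂˣ) : ℂ) := by
    rw [← Units.val_mul]
    congr 1
    simp [mul_inv]
  rw [h]
  rfl

theorem PP_idem : PP ψ ρ * PP ψ ρ = PP ψ ρ := by
  have h1 : PP ψ ρ * PP ψ ρ = (Nat.card U : ℂ)⁻¹ • ∑ u : U, ((ψ u⁻¹ : ℂˣ) : ℂ) • (PP ψ ρ * ρ u) := by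
    conv_lhs => rw [show PP ψ ρ * PP ψ ρ = PP ψ ρ * ((Nat.card U : ℂ)⁻¹ •
      ∑ u : U, ((ψ u⁻¹ : ℂˣ) : ℂ) • ρ u) from rfl]
    rw [mul_smul_comm, Finset.mul_sum]
    congr 1
    apply Finset.sum_congr rfl
    intro u _
    rw [mul_smul_comm]
  rw [h1]
  simp_rw [PP_mul_rho, smul_smul]
  have h2 : ∀ u : U, ((ψ u⁻¹ : ℂˣ) : ℂ) * ((ψ u : ℂˣ) : ℂ) = 1 := by
    intro u
    rw [← Units.val_mul, ← map_mul]
    simp
  simp_rw [h2, one_smul]
  rw [Finset.sum_const, Finset.card_univ, ← Nat.card_eq_fintype_card, ← Nat.cast_smul_eq_nsmul ℂ,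
    smul_smul, inv_mul_cancel₀ (card_U_ne (U := U)), one_smul]

theorem trace_PP : LinearMap.trace ℂ V (PP ψ ρ) = gam ψ ρ.character := by
  unfold PP gam classInner
  rw [map_smul, map_sum, smul_eq_mul]
  congr 1
  apply Finset.sum_congr rfl
  intro u _
  rw [map_smul, smul_eq_mul, conj_psi, mul_comm]
  rfl

/-- The compression of `ρ x` to the isotypic part. -/
noncomputable def EE (x : G) : Module.End ℂ V := PP ψ ρ * ρ x * PP ψ ρ

theorem EE_mul_left (a : U) (x : G) : EE ψ ρ ((a : G) * x) = ((ψ a : ℂˣ) : ℂ) • EE ψ ρ x := by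
  unfold EE
  rw [map_mul, ← mul_assoc, PP_mul_rho, smul_mul_assoc, smul_mul_assoc]

theorem EE_mul_right (x : G) (a : U) : EE ψ ρ (x * (a : G)) = ((ψ a : ℂˣ) : ℂ) • EE ψ ρ x := by
  unfold EE
  rw [map_mul, mul_assoc (PP ψ ρ), mul_assoc (PP ψ ρ), mul_assoc (ρ x), rho_mul_PP, mul_smul_comm,
    mul_smul_comm, ← mul_assoc]

theorem EE_eq_zero {x : G} {a b : U} (h : (a : G) * x = x * b) (hne : ψ a ≠ ψ b) :
    EE ψ ρ x = 0 := by
  have h1 := EE_mul_left ψ ρ a x
  rw [h, EE_mul_right] at h1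
  have h2 : (((ψ b : ℂˣ) : ℂ) - ((ψ a : ℂˣ) : ℂ)) • EE ψ ρ x = 0 := by
    rw [sub_smul, h1, sub_self]
  rcases smul_eq_zero.1 h2 with h3 | h3
  · exact absurd (Units.ext (sub_eq_zero.1 h3)).symm hne
  · exact h3

theorem EE_mul_EE (x y : G) : EE ψ ρ x * EE ψ ρ y =
    (Nat.card U : ℂ)⁻¹ • ∑ u : U, ((ψ u⁻¹ : ℂˣ) : ℂ) • EE ψ ρ (x * u * y) := by
  have h1 : EE ψ ρ x * EE ψ ρ y = PP ψ ρ * ρ x * PP ψ ρ * ρ y * PP ψ ρ := by
    unfold EE
    calc PP ψ ρ * ρ x * PP ψ ρ * (PP ψ ρ * ρ y * PP ψ ρ)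
        = PP ψ ρ * ρ x * (PP ψ ρ * PP ψ ρ) * ρ y * PP ψ ρ := by noncomm_ring
      _ = _ := by rw [PP_idem]
  rw [h1]
  conv_lhs => rw [show PP ψ ρ * ρ x * PP ψ ρ * ρ y * PP ψ ρ = PP ψ ρ * ρ x * ((Nat.card U : ℂ)⁻¹ •
      ∑ u : U, ((ψ u⁻¹ : ℂˣ) : ℂ) • ρ u) * ρ y * PP ψ ρ from rfl]
  rw [mul_smul_comm, smul_mul_assoc, smul_mul_assoc]
  congr 1
  rw [Finset.mul_sum, Finset.sum_mul, Finset.sum_mul]
  apply Finset.sum_congr rfl
  intro u _
  unfold EE
  rw [mul_smul_comm, smul_mul_assoc, smul_mul_assoc, map_mul, map_mul]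
  congr 1

/-- Schur's lemma in the averaged form. -/
theorem sum_conj_general (hρ : ρ.IsIrreducible) (T : Module.End ℂ V) :
    ∑ b : G, ρ b * T * ρ b⁻¹ =
      (((Nat.card G : ℂ) * LinearMap.trace ℂ V T) / (Module.finrank ℂ V : ℂ)) • (1 : Module.End ℂ V) := by
  have hcomm : ∀ g : G, (∑ b : G, ρ b * T * ρ b⁻¹) ∘ₗ ρ g = ρ g ∘ₗ (∑ b : G, ρ b * T * ρ b⁻¹) := by
    intro g
    rw [← Module.End.mul_eq_comp, ← Module.End.mul_eq_comp, Finset.sum_mul, Finset.mul_sum]
    apply Fintype.sum_equiv (Equiv.mulLeft g⁻¹)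
    intro b
    simp only [Equiv.coe_mulLeft]
    have h2 : ρ g * ρ g⁻¹ = 1 := by rw [← map_mul]; simp
    have h3 : ρ (g⁻¹ * b) = ρ g⁻¹ * ρ b := map_mul _ _ _
    have h4 : ρ (g⁻¹ * b)⁻¹ = ρ b⁻¹ * ρ g := by
      rw [mul_inv_rev, inv_inv, map_mul]
    rw [h3, h4]
    calc ρ b * T * ρ b⁻¹ * ρ g = ρ g * ρ g⁻¹ * (ρ b * T * ρ b⁻¹ * ρ g) := by rw [h2, one_mul]
      _ = _ := by noncomm_ring
  obtain ⟨c, hc⟩ := schur_scalar hρ _ hcomm
  have hV : (Module.finrank ℂ V : ℂ) ≠ 0 := by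
    rw [isIrreducible_iff] at hρ
    have := hρ.1
    exact_mod_cast (Module.finrank_pos (R := ℂ) (M := V)).ne'
  have htr : LinearMap.trace ℂ V (∑ b : G, ρ b * T * ρ b⁻¹) = (Nat.card G : ℂ) * LinearMap.trace ℂ V T := by
    rw [map_sum]
    have : ∀ b : G, LinearMap.trace ℂ V (ρ b * T * ρ b⁻¹) = LinearMap.trace ℂ V T := by
      intro b
      rw [LinearMap.trace_mul_comm, ← mul_assoc, ← map_mul]
      simp
    simp only [this, Finset.sum_const, Finset.card_univ, nsmul_eq_mul, Nat.card_eq_fintype_card]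
  have hc2 : c = ((Nat.card G : ℂ) * LinearMap.trace ℂ V T) / (Module.finrank ℂ V : ℂ) := by
    rw [hc, map_smul, LinearMap.trace_id, smul_eq_mul] at htr
    field_simp
    rw [← htr]
  rw [hc, hc2]
  rfl

/-- The relation between compressions in an irreducible representation, if they commute. -/
theorem trace_smul_PP (hρ : ρ.IsIrreducible)
    (hcomm : ∀ x y : G, EE ψ ρ x * EE ψ ρ y = EE ψ ρ y * EE ψ ρ x) (y : G) :
    LinearMap.trace ℂ V (EE ψ ρ y) • PP ψ ρ = LinearMap.trace ℂ V (PP ψ ρ) • EE ψ ρ y := by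
  have hP := PP_idem ψ ρ
  set P := PP ψ ρ with hPdef
  have h1 := sum_conj_general ρ hρ (EE ψ ρ y)
  have h2 := sum_conj_general ρ hρ P
  have h3 : P * (∑ b : G, ρ b * EE ψ ρ y * ρ b⁻¹) * P =
      EE ψ ρ y * (P * (∑ b : G, ρ b * P * ρ b⁻¹) * P) := by
    simp only [Finset.mul_sum, Finset.sum_mul]
    apply Finset.sum_congr rfl
    intro b _
    have h4 : P * (ρ b * EE ψ ρ y * ρ b⁻¹) * P = EE ψ ρ b * EE ψ ρ y * EE ψ ρ b⁻¹ := by
      unfold EE
      rw [← hPdef]
      calc P * (ρ b * (P * ρ y * P) * ρ b⁻¹) * P = P * ρ b * P * ρ y * P * ρ b⁻¹ * P := by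
            simp only [mul_assoc]
        _ = P * ρ b * (P * P) * ρ y * (P * P) * ρ b⁻¹ * P := by rw [hP]
        _ = _ := by simp only [mul_assoc]
    rw [h4, hcomm b y, mul_assoc]
    congr 1
    unfold EE
    rw [← hPdef]
    calc P * ρ b * P * (P * ρ b⁻¹ * P) = P * ρ b * (P * P) * ρ b⁻¹ * P := by simp only [mul_assoc]
      _ = P * (ρ b * P * ρ b⁻¹) * P := by rw [hP]; simp only [mul_assoc]
  rw [h1, h2] at h3
  simp only [mul_smul_comm, smul_mul_assoc, mul_one] at h3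
  rw [hP] at h3
  have h5 : EE ψ ρ y * P = EE ψ ρ y := by
    unfold EE
    rw [← hPdef, mul_assoc, hP]
  rw [h5] at h3
  have hV : (Module.finrank ℂ V : ℂ) ≠ 0 := by
    rw [isIrreducible_iff] at hρ
    have := hρ.1
    exact_mod_cast (Module.finrank_pos (R := ℂ) (M := V)).ne'
  have hG : (Nat.card G : ℂ) ≠ 0 := natCard_ne_zero'
  have h6 := congrArg (fun T : Module.End ℂ V => ((Module.finrank ℂ V : ℂ) / (Nat.card G : ℂ)) • T) h3
  simp only [smul_smul] at h6
  have e1 : (Module.finrank ℂ V : ℂ) / (Nat.card G : ℂ) *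
      ((Nat.card G : ℂ) * LinearMap.trace ℂ V (EE ψ ρ y) / (Module.finrank ℂ V : ℂ)) =
      LinearMap.trace ℂ V (EE ψ ρ y) := by
    field_simp
  have e2 : (Module.finrank ℂ V : ℂ) / (Nat.card G : ℂ) *
      ((Nat.card G : ℂ) * LinearMap.trace ℂ V P / (Module.finrank ℂ V : ℂ)) =
      LinearMap.trace ℂ V P := by
    field_simp
  rw [e1, e2] at h6
  exact h6

/-- The key consequence: multiplicity one. -/
theorem trace_PP_zero_or_one (hρ : ρ.IsIrreducible)
    (hcomm : ∀ x y : G, EE ψ ρ x * EE ψ ρ y = EE ψ ρ y * EE ψ ρ x) :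
    LinearMap.trace ℂ V (PP ψ ρ) = 0 ∨ LinearMap.trace ℂ V (PP ψ ρ) = 1 := by
  classical
  by_cases h0 : LinearMap.trace ℂ V (PP ψ ρ) = 0
  · exact Or.inl h0
  right
  have hP := PP_idem ψ ρ
  set P := PP ψ ρ with hPdef
  have hPne : P ≠ 0 := by
    intro h
    rw [h, map_zero] at h0
    exact h0 rfl
  obtain ⟨v, hv⟩ : ∃ v, P v ≠ 0 := by
    by_contra hc
    push Not at hc
    exact hPne (LinearMap.ext hc)
  set w := P v with hw
  have hPw : P w = w := by
    have := LinearMap.congr_fun hP v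
    exact this
  let W : Submodule ℂ V := Submodule.span ℂ (Set.range fun g : G => ρ g w)
  have hWinv : ∀ g, ∀ x ∈ W, ρ g x ∈ W := by
    intro g x hx
    induction hx using Submodule.span_induction with
    | mem x hx =>
      obtain ⟨g', rfl⟩ := hx
      apply Submodule.subset_span
      refine ⟨g * g', ?_⟩
      simp [map_mul]
    | zero => simp
    | add x y _ _ hx hy =>
      rw [map_add]
      exact W.add_mem hx hy
    | smul c x _ hx =>
      rw [map_smul]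
      exact W.smul_mem c hx
  have hWtop : W = ⊤ := by
    rw [isIrreducible_iff] at hρ
    rcases hρ.2 W hWinv with h | h
    · exfalso
      have : w ∈ W := Submodule.subset_span ⟨1, by simp⟩
      rw [h, Submodule.mem_bot] at this
      exact hv this
    · exact h
  have hle : LinearMap.range P ≤ Submodule.span ℂ {w} := by
    have hmap : W.map P ≤ Submodule.span ℂ {w} := by
      rw [Submodule.map_span, Submodule.span_le]
      rintro _ ⟨_, ⟨g, rfl⟩, rfl⟩
      have h1 := trace_smul_PP ψ ρ hρ hcomm g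
      rw [← hPdef] at h1
      have h2 := LinearMap.congr_fun h1 v
      simp only [LinearMap.smul_apply] at h2
      have h3 : EE ψ ρ g v = P (ρ g w) := by
        unfold EE
        rw [← hPdef]
        rfl
      rw [h3, ← hw] at h2
      have h4 : P (ρ g w) = (LinearMap.trace ℂ V P)⁻¹ • (LinearMap.trace ℂ V (EE ψ ρ g) • w) := by
        rw [h2, smul_smul, inv_mul_cancel₀ h0, one_smul]
      show P (ρ g w) ∈ _
      rw [h4]
      exact Submodule.smul_mem _ _ (Submodule.smul_mem _ _ (Submodule.mem_span_singleton_self w))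
    rw [hWtop, Submodule.map_top] at hmap
    exact hmap
  have hproj : LinearMap.IsProj (LinearMap.range P) P := by
    constructor
    · intro x
      exact LinearMap.mem_range_self _ _
    · rintro _ ⟨x, rfl⟩
      exact LinearMap.congr_fun hP x
  rw [hproj.trace]
  have h1 : Module.finrank ℂ (LinearMap.range P) ≤ 1 := by
    calc Module.finrank ℂ (LinearMap.range P) ≤ Module.finrank ℂ (Submodule.span ℂ {w}) :=
          Submodule.finrank_mono hle
      _ ≤ 1 := (finrank_span_singleton hv).le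
  have h2 : Module.finrank ℂ (LinearMap.range P) ≠ 0 := by
    intro h
    rw [hproj.trace, h] at h0
    simp at h0
  have h3 : Module.finrank ℂ (LinearMap.range P) = 1 := by omega
  rw [h3]
  simp

end Rep

/-- The data of an anti-involution. -/
structure GelfandData (ψ : U →* ℂˣ) (σ : G → G) : Prop where
  σ_mul : ∀ x y, σ (x * y) = σ y * σ x
  σ_inv : ∀ x, σ (σ x) = x
  σ_U : ∀ u ∈ U, σ u ∈ U
  σ_ψ : ∀ u : U, ψ ⟨σ u, σ_U u u.2⟩ = ψ u
  σ_rel : ∀ x, (∀ a b : U, (a : G) * x = x * b → ψ a = ψ b) →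
    ∃ a b : U, σ x = a * x * b ∧ ψ a * ψ b = 1

section Gelfand

variable {V : Type*} [AddCommGroup V] [Module ℂ V] [FiniteDimensional ℂ V] (ρ : Representation ℂ G V)
  {ψ} {σ : G → G}

theorem EE_σ (D : GelfandData ψ σ) (x : G) : EE ψ ρ (σ x) = EE ψ ρ x := by
  by_cases hx : ∀ a b : U, (a : G) * x = x * b → ψ a = ψ b
  · obtain ⟨a, b, h1, h2⟩ := D.σ_rel x hx
    rw [h1, EE_mul_right, EE_mul_left, smul_smul, ← Units.val_mul, mul_comm, h2]
    simp
  · push Not at hx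
    obtain ⟨a, b, h1, h2⟩ := hx
    rw [EE_eq_zero ψ ρ h1 h2]
    have h3 : ((⟨σ b, D.σ_U b b.2⟩ : U) : G) * σ x = σ x * ((⟨σ a, D.σ_U a a.2⟩ : U) : G) := by
      show σ b * σ x = σ x * σ a
      rw [← D.σ_mul, ← D.σ_mul, h1]
    apply EE_eq_zero ψ ρ h3
    rw [D.σ_ψ, D.σ_ψ]
    exact h2.symm

/-- The compressions commute. -/
theorem EE_comm (D : GelfandData ψ σ) (x y : G) : EE ψ ρ x * EE ψ ρ y = EE ψ ρ y * EE ψ ρ x := by
  rw [EE_mul_EE, ← EE_σ ρ D y, ← EE_σ ρ D x, EE_mul_EE]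
  congr 1
  let e : U ≃ U :=
    { toFun := fun u => ⟨σ u, D.σ_U u u.2⟩
      invFun := fun u => ⟨σ u, D.σ_U u u.2⟩
      left_inv := fun u => Subtype.ext (D.σ_inv u)
      right_inv := fun u => Subtype.ext (D.σ_inv u) }
  apply Fintype.sum_equiv e
  intro u
  have h1 : ψ (e u)⁻¹ = ψ u⁻¹ := by
    rw [map_inv, map_inv]
    congr 1
    exact D.σ_ψ u
  rw [h1]
  congr 1
  rw [← EE_σ ρ D (x * u * y)]
  congr 1
  show σ (x * u * y) = σ y * σ u * σ x
  rw [D.σ_mul, D.σ_mul, mul_assoc]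

/-- **Multiplicity one.** -/
theorem gam_zero_or_one (D : GelfandData ψ σ) {χ : G → ℂ} (hχ : IsIrrCharacter G χ) :
    gam ψ χ = 0 ∨ gam ψ χ = 1 := by
  obtain ⟨n, ρ, hρ, rfl⟩ := hχ
  rw [← trace_PP]
  exact trace_PP_zero_or_one ψ ρ hρ (EE_comm ρ D)

end Gelfand

section Burnside

open Classical in
/-- The double coset sum. -/
noncomputable def NN (ψ : U →* ℂˣ) (x : G) : ℂ :=
  ∑ p : U × U, if (p.1 : G) * x = x * p.2 then ((ψ p.1⁻¹ : ℂˣ) : ℂ) * ((ψ p.2 : ℂˣ) : ℂ) else 0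

open Classical in
theorem card_conj_eq (g h : G) :
    (((Finset.univ.filter (fun x : G => g * x = x * h)).card : ℕ) : ℂ) =
      if IsConj g h then (Nat.card (Subgroup.centralizer ({h} : Set G)) : ℂ) else 0 := by
  by_cases hc : IsConj g h
  · rw [if_pos hc]
    obtain ⟨c, hc⟩ := isConj_iff.1 hc
    congr 1
    rw [← Fintype.card_subtype, ← Nat.card_eq_fintype_card]
    apply Nat.card_congr
    refine
      { toFun := fun x => ⟨c * x.1, ?_⟩
        invFun := fun z => ⟨c⁻¹ * z.1, ?_⟩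
        left_inv := fun x => ?_
        right_inv := fun z => ?_ }
    · rw [Subgroup.mem_centralizer_iff]
      intro y hy
      rw [Set.mem_singleton_iff] at hy
      subst hy
      have := x.2
      calc y * (c * x.1) = c * g * c⁻¹ * (c * x.1) := by rw [hc]
        _ = c * (g * x.1) := by group
        _ = c * (x.1 * y) := by rw [this]
        _ = c * x.1 * y := by group
    · have hz := z.2
      rw [Subgroup.mem_centralizer_iff] at hz
      have h1 := hz h (Set.mem_singleton h)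
      calc g * (c⁻¹ * z.1) = c⁻¹ * (c * g * c⁻¹) * z.1 := by group
        _ = c⁻¹ * (h * z.1) := by rw [hc]; group
        _ = c⁻¹ * (z.1 * h) := by rw [h1]
        _ = c⁻¹ * z.1 * h := by group
    · apply Subtype.ext
      simp
    · apply Subtype.ext
      simp
  · rw [if_neg hc]
    norm_cast
    rw [Finset.card_eq_zero, Finset.filter_eq_empty_iff]
    intro x _ hx
    apply hc
    rw [isConj_iff]
    exact ⟨x⁻¹, by rw [inv_inv, mul_assoc, hx]; group⟩

/-- The orthogonality computation. -/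
theorem sum_gam_sq (ψ : U →* ℂˣ) :
    ∑ χ : IrrCharacter G, gam ψ χ.1 * conj (gam ψ χ.1) =
      (Nat.card U : ℂ)⁻¹ * (Nat.card U : ℂ)⁻¹ * ∑ x : G, NN ψ x := by
  classical
  have h1 : ∀ χ : IrrCharacter G, gam ψ χ.1 * conj (gam ψ χ.1) =
      (Nat.card U : ℂ)⁻¹ * (Nat.card U : ℂ)⁻¹ * ∑ a : U, ∑ b : U,
        (χ.1 a * conj (χ.1 b)) * (((ψ a⁻¹ : ℂˣ) : ℂ) * ((ψ b : ℂˣ) : ℂ)) := by
    intro χ
    unfold gam classInner
    rw [map_mul, map_sum, map_inv₀, map_natCast]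
    simp only [map_mul, Complex.conj_conj]
    rw [mul_mul_mul_comm, Finset.sum_mul_sum]
    congr 1
    apply Finset.sum_congr rfl
    intro a _
    apply Finset.sum_congr rfl
    intro b _
    rw [conj_psi]
    ring
  simp_rw [h1]
  rw [← Finset.mul_sum]
  congr 1
  rw [Finset.sum_comm]
  have h2 : ∀ a : U, ∑ χ : IrrCharacter G, ∑ b : U,
      (χ.1 a * conj (χ.1 b)) * (((ψ a⁻¹ : ℂˣ) : ℂ) * ((ψ b : ℂˣ) : ℂ)) =
      ∑ b : U, (((Finset.univ.filter (fun x : G => (a : G) * x = x * b)).card : ℕ) : ℂ) *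
        (((ψ a⁻¹ : ℂˣ) : ℂ) * ((ψ b : ℂˣ) : ℂ)) := by
    intro a
    rw [Finset.sum_comm]
    apply Finset.sum_congr rfl
    intro b _
    rw [← Finset.sum_mul, sum_irr_mul_conj, card_conj_eq]
  simp_rw [h2]
  have h3 : ∑ x : G, NN ψ x = ∑ p : U × U, ∑ x : G,
      if (p.1 : G) * x = x * p.2 then ((ψ p.1⁻¹ : ℂˣ) : ℂ) * ((ψ p.2 : ℂˣ) : ℂ) else 0 := by
    unfold NN
    rw [Finset.sum_comm]
  rw [h3, Fintype.sum_prod_type]
  apply Finset.sum_congr rfl
  intro a _
  apply Finset.sum_congr rfl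
  intro b _
  rw [Finset.sum_ite, Finset.sum_const_zero, add_zero, Finset.sum_const, nsmul_eq_mul]

/-- `x` supports bi-equivariant functions. -/
def Rel (ψ : U →* ℂˣ) (x : G) : Prop := ∀ a b : U, (a : G) * x = x * b → ψ a = ψ b

open Classical in
/-- The stabilizer of `x` in `U × U`. -/
noncomputable def Te (U : Subgroup G) [Fintype U] (x : G) : Finset (U × U) :=
  Finset.univ.filter (fun p : U × U => (p.1 : G) * x = x * p.2)

theorem NN_of_rel {ψ : U →* ℂˣ} {x : G} (h : Rel ψ x) : NN ψ x = ((Te U x).card : ℂ) := by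
  classical
  unfold NN Te
  rw [Finset.card_filter]
  push_cast
  apply Finset.sum_congr rfl
  intro p _
  by_cases hp : (p.1 : G) * x = x * p.2
  · rw [if_pos hp, if_pos hp, ← Units.val_mul, ← h _ _ hp, ← map_mul]
    simp
  · rw [if_neg hp, if_neg hp]

theorem NN_of_not_rel {ψ : U →* ℂˣ} {x : G} (h : ¬ Rel ψ x) : NN ψ x = 0 := by
  classical
  unfold Rel at h
  push Not at h
  obtain ⟨a₀, b₀, h1, h2⟩ := h
  set l : ℂ := ((ψ a₀⁻¹ : ℂˣ) : ℂ) * ((ψ b₀ : ℂˣ) : ℂ) with hl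
  have hl1 : l ≠ 1 := by
    intro hh
    apply h2
    have h3 : ψ a₀⁻¹ * ψ b₀ = 1 := Units.ext hh
    rw [map_inv] at h3
    exact (inv_mul_eq_one.1 h3)
  have h3 : NN ψ x = l * NN ψ x := by
    unfold NN
    conv_lhs => rw [← Equiv.sum_comp (Equiv.mulLeft ((a₀, b₀) : U × U))]
    rw [Finset.mul_sum]
    apply Finset.sum_congr rfl
    intro p _
    generalize hq : (Equiv.mulLeft ((a₀, b₀) : U × U)) p = q
    have hq1 : q.1 = a₀ * p.1 := by rw [← hq]; rfl
    have hq2 : q.2 = b₀ * p.2 := by rw [← hq]; rfl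
    have h4 : ((q.1 : U) : G) * x = x * ((q.2 : U) : G) ↔ (p.1 : G) * x = x * p.2 := by
      rw [hq1, hq2]
      show (a₀ : G) * p.1 * x = x * (b₀ * p.2) ↔ _
      constructor
      · intro hh
        have h5 : (a₀ : G) * (p.1 * x) = a₀ * (x * p.2) := by
          rw [← mul_assoc, hh, ← mul_assoc, ← mul_assoc, h1]
        exact mul_left_cancel h5
      · intro hh
        rw [mul_assoc, hh, ← mul_assoc, h1, mul_assoc]
    by_cases hp : (p.1 : G) * x = x * p.2
    · rw [if_pos (h4.2 hp), if_pos hp, hl, hq1, hq2]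
      have h6 : ψ (a₀ * p.1)⁻¹ * ψ (b₀ * p.2) = ψ a₀⁻¹ * ψ b₀ * (ψ p.1⁻¹ * ψ p.2) := by
        simp only [map_inv, map_mul, mul_inv]
        exact mul_mul_mul_comm _ _ _ _
      have h7 := congrArg Units.val h6
      simpa only [Units.val_mul] using h7
    · rw [if_neg (fun hh => hp (h4.1 hh)), if_neg hp, mul_zero]
  have h4 : (1 - l) * NN ψ x = 0 := by
    rw [sub_mul, one_mul, ← h3, sub_self]
  exact (mul_eq_zero.1 h4).resolve_left (sub_ne_zero.2 hl1.symm)

theorem NN_bi (ψ : U →* ℂˣ) (a b : U) (x : G) : NN ψ ((a : G) * x * b) = NN ψ x := by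
  classical
  unfold NN
  let e : U × U ≃ U × U := Equiv.prodCongr (MulAut.conj a⁻¹).toEquiv (MulAut.conj b).toEquiv
  apply Fintype.sum_equiv e
  intro p
  have h1 : ((e p).1 : G) = (a : G)⁻¹ * p.1 * a := by
    show (((a⁻¹ * p.1 * a⁻¹⁻¹ : U)) : G) = _
    simp
  have h2 : ((e p).2 : G) = (b : G) * p.2 * (b : G)⁻¹ := by
    show (((b * p.2 * b⁻¹ : U)) : G) = _
    simp
  have h3 : (p.1 : G) * (a * x * b) = a * x * b * p.2 ↔ ((e p).1 : G) * x = x * (e p).2 := by
    rw [h1, h2]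
    constructor
    · intro h
      have h4 : (a : G)⁻¹ * (p.1 * (a * x * b)) * (b : G)⁻¹ = (a : G)⁻¹ * (a * x * b * p.2) * (b : G)⁻¹ := by
        rw [h]
      calc (a : G)⁻¹ * p.1 * a * x = (a : G)⁻¹ * (p.1 * (a * x * b)) * (b : G)⁻¹ := by group
        _ = (a : G)⁻¹ * (a * x * b * p.2) * (b : G)⁻¹ := h4
        _ = x * (b * p.2 * (b : G)⁻¹) := by group
    · intro h
      calc (p.1 : G) * (a * x * b) = a * ((a : G)⁻¹ * p.1 * a * x) * b := by group
        _ = a * (x * (b * p.2 * (b : G)⁻¹)) * b := by rw [h]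
        _ = a * x * b * p.2 := by group
  have h4 : ψ (e p).1⁻¹ = ψ p.1⁻¹ := by
    show ψ (a⁻¹ * p.1 * a⁻¹⁻¹)⁻¹ = _
    simp only [map_inv, map_mul, mul_inv]
    rw [mul_comm (ψ a)⁻¹⁻¹, mul_assoc, mul_comm (ψ a)⁻¹⁻¹]
    simp
  have h5 : ψ (e p).2 = ψ p.2 := by
    show ψ (b * p.2 * b⁻¹) = _
    simp only [map_inv, map_mul]
    rw [mul_comm (ψ b), mul_assoc]
    simp
  by_cases hp : (p.1 : G) * (a * x * b) = a * x * b * p.2
  · rw [if_pos hp, if_pos (h3.1 hp), h4, h5]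
  · rw [if_neg hp, if_neg (fun hh => hp (h3.2 hh))]

/-- The count of the relevant double cosets. -/
theorem sum_NN {M : Type*} [Fintype M] (m : M → G)
    (D1 : ∀ x : G, ∃ (i : M) (a b : U), x = a * m i * b)
    (D2 : ∀ (i j : M) (a b a' b' : U), (a : G) * m i * b = a' * m j * b' → i = j) (ψ : U →* ℂˣ) :
    (Nat.card U : ℂ)⁻¹ * (Nat.card U : ℂ)⁻¹ * ∑ x : G, NN ψ x =
      (Nat.card {i : M // Rel ψ (m i)} : ℂ) := by
  classical
  choose κ a b hx using D1
  have h1 : ∀ x, NN ψ x = NN ψ (m (κ x)) := by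
    intro x
    conv_lhs => rw [hx x]
    exact NN_bi ψ _ _ _
  have hcard : ∀ i : M, (Finset.univ.filter (fun x => κ x = i)).card * (Te U (m i)).card =
      Fintype.card U * Fintype.card U := by
    intro i
    have h2 : (Finset.univ : Finset (U × U)).card =
        ∑ x ∈ Finset.univ.filter (fun x => κ x = i),
          ((Finset.univ : Finset (U × U)).filter
            (fun p : U × U => (p.1 : G) * m i * p.2 = x)).card := by
      apply Finset.card_eq_sum_card_fiberwise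
      intro p _
      simp only [Finset.coe_filter, Finset.mem_univ, true_and, Set.mem_ofPred_eq]
      have h3 := hx ((p.1 : G) * m i * p.2)
      exact (D2 _ _ _ _ _ _ h3).symm
    rw [Finset.card_univ, Fintype.card_prod] at h2
    rw [h2, Finset.sum_congr rfl (g := fun _ => (Te U (m i)).card)]
    · rw [Finset.sum_const, smul_eq_mul]
    · intro x hx'
      have hκ : κ x = i := (Finset.mem_filter.1 hx').2
      subst hκ
      have e0 := hx x
      unfold Te
      refine Finset.card_bij' (fun p _ => ((a x)⁻¹ * p.1, b x * p.2⁻¹))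
        (fun q _ => (a x * q.1, q.2⁻¹ * b x)) ?_ ?_ ?_ ?_
      · intro p hp
        simp only [Finset.mem_filter, Finset.mem_univ, true_and] at hp ⊢
        show ((a x : G)⁻¹ * p.1) * m (κ x) = m (κ x) * ((b x : G) * (p.2 : G)⁻¹)
        have h5 : (p.1 : G) * m (κ x) * p.2 = a x * m (κ x) * b x := hp.trans e0
        calc ((a x : G)⁻¹ * p.1) * m (κ x) = (a x : G)⁻¹ * ((p.1 : G) * m (κ x) * p.2) * (p.2 : G)⁻¹ := by
              group
          _ = (a x : G)⁻¹ * (a x * m (κ x) * b x) * (p.2 : G)⁻¹ := by rw [h5]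
          _ = _ := by group
      · intro q hq
        simp only [Finset.mem_filter, Finset.mem_univ, true_and] at hq ⊢
        show (a x : G) * q.1 * m (κ x) * ((q.2 : G)⁻¹ * b x) = x
        calc (a x : G) * q.1 * m (κ x) * ((q.2 : G)⁻¹ * b x)
            = a x * ((q.1 : G) * m (κ x)) * ((q.2 : G)⁻¹ * b x) := by group
          _ = a x * (m (κ x) * q.2) * ((q.2 : G)⁻¹ * b x) := by rw [hq]
          _ = a x * m (κ x) * b x := by group
          _ = x := e0.symm
      · intro p _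
        apply Prod.ext
        · simp
        · simp
      · intro q _
        apply Prod.ext
        · simp
        · simp
  have h6 : ∑ x : G, NN ψ x = ∑ i : M, ((Finset.univ.filter (fun x => κ x = i)).card : ℂ) *
      NN ψ (m i) := by
    rw [← Finset.sum_fiberwise Finset.univ κ]
    apply Finset.sum_congr rfl
    intro i _
    rw [Finset.sum_congr rfl (g := fun _ => NN ψ (m i))]
    · rw [Finset.sum_const, nsmul_eq_mul]
    · intro x hx'
      rw [h1, (Finset.mem_filter.1 hx').2]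
  have hU : (Fintype.card U : ℂ) ≠ 0 := by
    rw [← Nat.card_eq_fintype_card]
    exact card_U_ne
  have h7 : ∀ i : M, ((Finset.univ.filter (fun x => κ x = i)).card : ℂ) * NN ψ (m i) =
      (Fintype.card U : ℂ) * (Fintype.card U : ℂ) * (if Rel ψ (m i) then 1 else 0) := by
    intro i
    by_cases hr : Rel ψ (m i)
    · rw [if_pos hr, mul_one, NN_of_rel hr]
      exact_mod_cast hcard i
    · rw [if_neg hr, mul_zero, NN_of_not_rel hr, mul_zero]
  rw [h6]
  simp_rw [h7]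
  have e1 : (Nat.card {i : M // Rel ψ (m i)} : ℂ) = ∑ i, if Rel ψ (m i) then 1 else 0 := by
    rw [Finset.sum_boole, Nat.card_eq_fintype_card, Fintype.card_subtype]
  rw [← Finset.mul_sum, Nat.card_eq_fintype_card (α := U), e1]
  field_simp

/-- The sum of the squares of the multiplicities is the number of relevant double cosets. -/
theorem sum_gam_sq_eq {M : Type*} [Fintype M] (m : M → G)
    (D1 : ∀ x : G, ∃ (i : M) (a b : U), x = a * m i * b)
    (D2 : ∀ (i j : M) (a b a' b' : U), (a : G) * m i * b = a' * m j * b' → i = j) (ψ : U →* ℂˣ) :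
    ∑ χ : IrrCharacter G, gam ψ χ.1 * conj (gam ψ χ.1) =
      (Nat.card {i : M // Rel ψ (m i)} : ℂ) := by
  rw [sum_gam_sq, sum_NN m D1 D2]

/-- The number of characters with multiplicity one. -/
theorem card_gam_ne_zero {M : Type*} [Fintype M] (m : M → G)
    (D1 : ∀ x : G, ∃ (i : M) (a b : U), x = a * m i * b)
    (D2 : ∀ (i j : M) (a b a' b' : U), (a : G) * m i * b = a' * m j * b' → i = j) {ψ : U →* ℂˣ}
    (H : ∀ χ : IrrCharacter G, gam ψ χ.1 = 0 ∨ gam ψ χ.1 = 1) :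
    Nat.card {χ : IrrCharacter G // gam ψ χ.1 ≠ 0} = Nat.card {i : M // Rel ψ (m i)} := by
  classical
  have h1 := sum_gam_sq_eq m D1 D2 ψ
  have h2 : ∀ χ : IrrCharacter G, gam ψ χ.1 * conj (gam ψ χ.1) = if gam ψ χ.1 ≠ 0 then 1 else 0 := by
    intro χ
    rcases H χ with h | h
    · rw [h]
      simp
    · rw [h]
      simp
  simp_rw [h2] at h1
  rw [Finset.sum_boole] at h1
  rw [Nat.card_eq_fintype_card, Fintype.card_subtype]
  exact_mod_cast h1

end Burnside

end Cfsg.Agent.Lib.HGGGAbs
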