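import Mathlib
import Cfsg.Agent.Lib.HGChar
set_option autoImplicit false
set_option linter.unusedSectionVars false

/-!
# Products of cuspidal characters
-/

namespace Cfsg.Agent.Lib.HGMono

open Module Cfsg Cfsg.Agent.Lib.HGBasic Cfsg.Agent.Lib.HGAssoc Cfsg.Agent.Lib.HGGreen
  Cfsg.Agent.Lib.HGCusp Cfsg.Agent.Lib.HGAdj Cfsg.Agent.Lib.CharBasic Cfsg.Agent.Lib.CharInd
  Cfsg.Agent.Lib.HGChar
open scoped ComplexConjugate

universe u

variable {F : Type u} [Field F] [Finite F]

/-! ### Non-cuspidal characters occur in products -/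

section NotCusp

variable {V₁ V₂ : Type u} [AddCommGroup V₁] [Module F V₁] [FiniteDimensional F V₁]
  [AddCommGroup V₂] [Module F V₂] [FiniteDimensional F V₂]

theorem bij_of_gU {a : V₁ →ₗ[F] V₁} {u : V₂ →ₗ[F] V₁} {b : V₂ →ₗ[F] V₂}
    (h : Function.Bijective (gU a u b)) : Function.Bijective a ∧ Function.Bijective b := by
  have h1 : Function.Injective a := by
    rw [injective_iff_map_eq_zero]
    intro x hx
    have h2 : gU a u b (x, 0) = 0 := by
      simp [hx]
    have h3 := h.1 (h2.trans (map_zero _).symm)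
    exact congrArg Prod.fst h3
  have h2 : Function.Surjective b := by
    intro y
    obtain ⟨p, hp⟩ := h.2 (0, y)
    exact ⟨p.2, congrArg Prod.snd hp⟩
  exact ⟨⟨h1, LinearMap.injective_iff_surjective.1 h1⟩,
    ⟨LinearMap.injective_iff_surjective.2 h2, h2⟩⟩

theorem rr_of_not_bij {X : GF F} (hs : Sup X) {a : V₁ →ₗ[F] V₁} {b : V₂ →ₗ[F] V₂}
    (h : ¬ (Function.Bijective a ∧ Function.Bijective b)) : rr X a b = 0 := by
  unfold rr
  rw [Finset.sum_eq_zero, mul_zero]
  intro u _
  apply ev_of_not_bij hs
  exact fun hb => h (bij_of_gU hb)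

theorem rr_of_hd {X : GF F} {n : ℕ} (hd : Hd X n) {a : V₁ →ₗ[F] V₁} {b : V₂ →ₗ[F] V₂}
    (h : finrank F V₁ + finrank F V₂ ≠ n) : rr X a b = 0 := by
  unfold rr
  rw [Finset.sum_eq_zero, mul_zero]
  intro u _
  apply ev_eq_zero hd
  rw [finrank_prod]
  exact h

end NotCusp

theorem glE_conj_eq {k : ℕ} (g h : GLn F k) (x : E F k) :
    Matrix.toLin' (h * g * h⁻¹ : GLn F k).val (Matrix.toLin' h.val x) =
      Matrix.toLin' h.val (Matrix.toLin' g.val x) := by
  simp only [Matrix.toLin'_apply, Matrix.mulVec_mulVec]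
  congr 1
  simp [mul_assoc]

/-- Non-cuspidal class functions on `GL_n` occur in products. -/
theorem exists_mul_of_not_cusp {n : ℕ} {π : GLn F n → ℂ} (hπ : IsClassFunction (GLn F n) π)
    (h : ¬ Cusp (lift n π)) :
    ∃ k l : ℕ, 1 ≤ k ∧ 1 ≤ l ∧ k + l = n ∧ ∃ (σ₁ : IrrCharacter (GLn F k))
      (σ₂ : IrrCharacter (GLn F l)),
      hip n (mul (lift k σ₁.1) (lift l σ₂.1)) (lift n π) ≠ 0 := by
  classical
  have hY : IsCl (lift n π) := lift_isCl hπ
  unfold Cusp at h
  push Not at h
  obtain ⟨A, B, _, _, _, _, _, _, hA, hB, a, b, hab⟩ := h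
  set k := finrank F A with hk
  set l := finrank F B with hl
  have hk1 : 1 ≤ k := Module.finrank_pos
  have hl1 : 1 ≤ l := Module.finrank_pos
  have hn : k + l = n := by
    by_contra hne
    exact hab (rr_of_hd (lift_hd n π) hne)
  subst hn
  let e₁ : A ≃ₗ[F] E F k := LinearEquiv.ofFinrankEq _ _ (by simp [hk])
  let e₂ : B ≃ₗ[F] E F l := LinearEquiv.ofFinrankEq _ _ (by simp [hl])
  have hab' : rr (lift (k + l) π) (confEquiv e₁ a) (confEquiv e₂ b) ≠ 0 := by
    rw [rr_congr hY e₁ e₂ (confEquiv_apply e₁ a) (confEquiv_apply e₂ b)]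
    exact hab
  refine ⟨k, l, hk1, hl1, rfl, ?_⟩
  by_contra hcon
  push Not at hcon
  -- The values of `rr` on the groups.
  let R : GLn F k → GLn F l → ℂ := fun g h =>
    rr (lift (k + l) π) (Matrix.toLin' g.val) (Matrix.toLin' h.val)
  have hR1 : ∀ h : GLn F l, IsClassFunction (GLn F k) (fun g => R g h) := by
    intro h g x
    apply rr_congr hY (glE x) (LinearEquiv.refl F _)
    · intro y
      exact glE_conj_eq g x y
    · intro y
      rfl
  have hR2 : ∀ g : GLn F k, IsClassFunction (GLn F l) (fun h => R g h) := by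
    intro g h x
    apply rr_congr hY (LinearEquiv.refl F _) (glE x)
    · intro y
      rfl
    · intro y
      exact glE_conj_eq h x y
  have h0 : ∀ (σ₁ : IrrCharacter (GLn F k)) (σ₂ : IrrCharacter (GLn F l)),
      ∑ g : GLn F k, ∑ h : GLn F l, R g h * (conj (σ₁.1 g) * conj (σ₂.1 h)) = 0 := by
    intro σ₁ σ₂
    have h1 := hcon σ₁ σ₂
    rw [inner_mul (lift_isCl (isClassFunction_of_isCharacter (IsIrrCharacter.isCharacter σ₁.2)))
      (lift_isCl (isClassFunction_of_isCharacter (IsIrrCharacter.isCharacter σ₂.2))) hY (lift_hd k _)] at h1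
    have h2 := (mul_eq_zero.1 h1).resolve_left (mul_ne_zero (kap_ne_zero k) (kap_ne_zero l))
    unfold omega at h2
    have h3 : ∑ a : E F k →ₗ[F] E F k, ∑ b : E F l →ₗ[F] E F l,
        conj (rr (lift (k + l) π) a b) * (ev (lift k σ₁.1) (E F k) a * ev (lift l σ₂.1) (E F l) b) =
        ∑ g : GLn F k, ∑ h : GLn F l, conj (R g h) * (σ₁.1 g * σ₂.1 h) := by
      rw [sum_end_eq]
      · apply Finset.sum_congr rfl
        intro g _
        rw [sum_end_eq]
        · apply Finset.sum_congr rfl
          intro h _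
          rw [ev_toLin' (lift_isCl (isClassFunction_of_isCharacter (IsIrrCharacter.isCharacter σ₁.2))),
            ev_toLin' (lift_isCl (isClassFunction_of_isCharacter (IsIrrCharacter.isCharacter σ₂.2))),
            lift_coe, lift_coe]
        · intro b hb
          rw [ev_of_not_bij (lift_sup l _) b hb]
          simp
      · intro a ha
        apply Finset.sum_eq_zero
        intro b _
        rw [ev_of_not_bij (lift_sup k _) a ha]
        simp
    rw [h3] at h2
    have h4 := congrArg conj h2
    simp only [map_sum, map_mul, Complex.conj_conj, map_zero] at h4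
    exact h4
  have h5 : ∀ (σ₁ : IrrCharacter (GLn F k)) (h : GLn F l),
      ∑ g : GLn F k, R g h * conj (σ₁.1 g) = 0 := by
    intro σ₁
    have hcl : IsClassFunction (GLn F l) (fun h => ∑ g : GLn F k, R g h * conj (σ₁.1 g)) := by
      intro h x
      simp only
      apply Finset.sum_congr rfl
      intro g _
      rw [show R g (x * h * x⁻¹) = R g h from hR2 g h x]
    have := eq_zero_of_orthogonal hcl (by
      intro σ₂
      unfold classInner
      rw [Finset.sum_congr rfl (fun h _ => Finset.sum_mul _ _ _), Finset.sum_comm]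
      have h6 := h0 σ₁ σ₂
      have h7 : ∑ g : GLn F k, ∑ h : GLn F l, R g h * conj (σ₁.1 g) * conj (σ₂.1 h) = 0 := by
        rw [← h6]
        apply Finset.sum_congr rfl
        intro g _
        apply Finset.sum_congr rfl
        intro h _
        ring
      rw [h7, mul_zero])
    intro h
    exact congrFun this h
  have h6 : ∀ h : GLn F l, (fun g => R g h) = 0 := by
    intro h
    apply eq_zero_of_orthogonal (hR1 h)
    intro σ₁
    unfold classInner
    rw [h5 σ₁ h, mul_zero]
  by_cases hb1 : Function.Bijective (confEquiv e₁ a) ∧ Function.Bijective (confEquiv e₂ b)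
  · have hu1 : IsUnit (LinearMap.toMatrix' (confEquiv e₁ a)) := by
      rw [isUnit_iff_bij]
      simpa using hb1.1
    have hu2 : IsUnit (LinearMap.toMatrix' (confEquiv e₂ b)) := by
      rw [isUnit_iff_bij]
      simpa using hb1.2
    apply hab'
    have := congrFun (h6 hu2.unit) hu1.unit
    simpa [R] using this
  · exact hab' (rr_of_not_bij (lift_sup _ _) hb1)

/-! ### Linearity of the product -/

section Linear

variable {V : Type u} [AddCommGroup V] [Module F V] [FiniteDimensional F V]

theorem term_smul_right (c : ℂ) (X Y : GF F) (g : V →ₗ[F] V) (S : Submodule F V) :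
    term X (c • Y) g S = c * term X Y g S := by
  by_cases h : Stab g S
  · rw [term_of_stab _ _ h, term_of_stab _ _ h]
    show ev X S _ * (c * ev Y _ _) = _
    ring
  · rw [term_of_not_stab _ _ h, term_of_not_stab _ _ h, mul_zero]

theorem mul_smul_right (c : ℂ) (X Y : GF F) : mul X (c • Y) = c • mul X Y := by
  funext n A
  simp only [mul, hall, term_smul_right, Pi.smul_apply, smul_eq_mul, Finset.mul_sum]

theorem mul_zero_right (X : GF F) : mul X (0 : GF F) = 0 := by
  have := mul_smul_right 0 X 0
  simpa using this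

theorem hip_smul_right (m : ℕ) (c : ℂ) (X Y : GF F) : hip m X (c • Y) = conj c * hip m X Y := by
  unfold hip
  rw [mul_left_comm (conj c), Finset.mul_sum (a := conj c)]
  congr 1
  apply Finset.sum_congr rfl
  intro a _
  show ev X _ a * conj (c * ev Y _ a) = _
  rw [map_mul]
  ring

theorem hip_zero_of_hd_left {X : GF F} {d : ℕ} (hX : Hd X d) {m : ℕ} (h : m ≠ d) (Y : GF F) :
    hip m X Y = 0 := by
  unfold hip
  rw [Finset.sum_eq_zero, mul_zero]
  intro a _
  rw [ev_eq_zero hX a (by simpa using h), zero_mul]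

theorem hip_zero_of_hd_right {Y : GF F} {d : ℕ} (hY : Hd Y d) {m : ℕ} (h : m ≠ d) (X : GF F) :
    hip m X Y = 0 := by
  unfold hip
  rw [Finset.sum_eq_zero, mul_zero]
  intro a _
  rw [ev_eq_zero hY a (by simpa using h), map_zero, mul_zero]

end Linear

/-! ### The cuspidal data -/

/-- Cuspidal irreducible characters of a given degree. -/
abbrev CuspD (F : Type u) [Field F] [Finite F] (d : ℕ) : Type u :=
  {χ : IrrCharacter (GLn F d) // Cusp (lift d χ.1)}

/-- All cuspidal irreducible characters of positive degree. -/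
abbrev CC (F : Type u) [Field F] [Finite F] : Type u := Σ d : ℕ, CuspD F (d + 1)

/-- The degree of the group of a cuspidal character. -/
def deg (c : CC F) : ℕ := c.1 + 1

/-- The graded function of a cuspidal character. -/
noncomputable def LL (c : CC F) : GF F := lift (deg c) c.2.1.1

theorem chF_LL (c : CC F) : ChF (LL c) (deg c) := chF_lift (IsIrrCharacter.isCharacter c.2.1.2)

theorem cusp_LL (c : CC F) : Cusp (LL c) := c.2.2

theorem deg_pos (c : CC F) : 0 < deg c := Nat.succ_pos _

theorem hip_LL (c c' : CC F) [Decidable (c' = c)] :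
    hip (deg c) (LL c') (LL c) = if c' = c then 1 else 0 := by
  by_cases h : deg c = deg c'
  · obtain ⟨d, χ⟩ := c
    obtain ⟨d', χ'⟩ := c'
    have hd : d = d' := Nat.succ_injective h
    subst hd
    have hc := chF_LL ⟨d, χ⟩
    have hc' := chF_LL ⟨d, χ'⟩
    rw [hip_eq hc'.cl hc.cl hc'.sup]
    show classInner (res (lift (d + 1) χ'.1.1) (d + 1)) (res (lift (d + 1) χ.1.1) (d + 1)) = _
    rw [res_lift, res_lift]
    by_cases he : χ' = χ
    · subst he
      rw [if_pos rfl, classInner_irr_self χ'.1.2]
    · rw [if_neg (fun hh => he (by simpa using hh))]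
      apply classInner_irr_ne χ'.1.2 χ.1.2
      intro hh
      exact he (Subtype.ext (Subtype.ext hh))
  · rw [hip_zero_of_hd_left (chF_LL c').hd h]
    rw [if_neg]
    rintro rfl
    exact h rfl

/-- The adjoint of multiplication by a cuspidal character. -/
noncomputable def rs (c : CC F) (Y : GF F) : GF F := rstar (LL c) (deg c) Y

theorem rs_unit (c : CC F) : rs c (unit : GF F) = 0 := by
  funext l B
  show kap F (deg c) * _ = 0
  rw [Finset.sum_eq_zero, mul_zero]
  intro a _
  have : rr (unit : GF F) a (Matrix.toLin' B) = 0 := by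
    apply rr_of_hd (n := 0) chF_unit.hd
    have := deg_pos c
    simp
    omega
  rw [this, mul_zero]

open Classical in
theorem rs_mul (c c' : CC F) {Y : GF F} (hY : IsCl Y) :
    rs c (mul (LL c') Y) = (if c' = c then (1 : ℂ) else 0) • Y + mul (LL c') (rs c Y) := by
  funext l B
  have := rstar_mul (chF_LL c').cl (chF_LL c).cl hY (cusp_LL c') (cusp_LL c) (deg_pos c) l B
  rw [hip_LL] at this
  exact this

theorem rs_isCl (c : CC F) {Y : GF F} (hY : IsCl Y) : IsCl (rs c Y) := rstar_isCl hY _ _

theorem hip_mul_LL (c : CC F) {Z Y : GF F} (hZ : IsCl Z) (hY : IsCl Y) (l : ℕ) :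
    hip (deg c + l) (mul (LL c) Z) Y = hip l Z (rs c Y) :=
  inner_mul_eq (chF_LL c).cl hZ hY (chF_LL c).hd

theorem mul_LL_unit (c : CC F) : mul (LL c) (unit : GF F) = LL c := mul_unit (chF_LL c).cl

open Classical in
theorem rs_LL (c c' : CC F) : rs c (LL c') = (if c' = c then (1 : ℂ) else 0) • (unit : GF F) := by
  rw [← mul_LL_unit c', rs_mul c c' unit_isCl, rs_unit, mul_zero_right, add_zero]

theorem eq_of_res_eq {X Y : GF F} {d : ℕ} (hX : ChF X d) (hY : ChF Y d)
    (h : res X d = res Y d) : X = Y := by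
  rw [← lift_res hX.hd hX.sup, ← lift_res hY.hd hY.sup, h]

theorem eq_of_hip {X Y : GF F} {d : ℕ} (hX : ChF X d) (hY : ChF Y d)
    (h1 : hip d X X = 1) (h2 : hip d X Y = 1) (h3 : hip d Y X = 1) (h4 : hip d Y Y = 1) : X = Y := by
  apply eq_of_res_eq hX hY
  rw [hip_eq hX.cl hX.cl hX.sup] at h1
  rw [hip_eq hX.cl hY.cl hX.sup] at h2
  rw [hip_eq hY.cl hX.cl hY.sup] at h3
  rw [hip_eq hY.cl hY.cl hY.sup] at h4
  have : classInner (res X d - res Y d) (res X d - res Y d) = 0 := by
    rw [classInner_sub_left, classInner_sub_right, classInner_sub_right, h1, h2, h3, h4]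
    ring
  have h5 := classInner_self_eq_zero this
  exact sub_eq_zero.1 h5

/-- Distinct cuspidal characters commute. -/
theorem LL_comm (c c' : CC F) : mul (LL c) (LL c') = mul (LL c') (LL c) := by
  classical
  by_cases hcc : c = c'
  · rw [hcc]
  have hc := chF_LL c
  have hc' := chF_LL c'
  have h11 : hip (deg c) (LL c) (LL c) = 1 := by rw [hip_LL, if_pos rfl]
  have h22 : hip (deg c') (LL c') (LL c') = 1 := by rw [hip_LL, if_pos rfl]
  have r1 : rs c (mul (LL c) (LL c')) = LL c' := by
    rw [rs_mul c c hc'.cl, rs_LL, if_pos rfl, if_neg (Ne.symm hcc), zero_smul, mul_zero_right,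
      one_smul, add_zero]
  have r2 : rs c (mul (LL c') (LL c)) = LL c' := by
    rw [rs_mul c c' hc.cl, rs_LL, if_neg (Ne.symm hcc), if_pos rfl, zero_smul, zero_add, one_smul,
      mul_LL_unit]
  have r3 : rs c' (mul (LL c') (LL c)) = LL c := by
    rw [rs_mul c' c' hc.cl, rs_LL, if_pos rfl, if_neg hcc, zero_smul, mul_zero_right,
      one_smul, add_zero]
  have r4 : rs c' (mul (LL c) (LL c')) = LL c := by
    rw [rs_mul c' c hc'.cl, rs_LL, if_neg hcc, if_pos rfl, zero_smul, zero_add, one_smul,
      mul_LL_unit]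
  have hX : ChF (mul (LL c) (LL c')) (deg c + deg c') := chF_mul hc hc'
  have hY : ChF (mul (LL c') (LL c)) (deg c + deg c') := by
    rw [add_comm]
    exact chF_mul hc' hc
  apply eq_of_hip hX hY
  · rw [hip_mul_LL c hc'.cl hX.cl, r1, h22]
  · rw [hip_mul_LL c hc'.cl hY.cl, r2, h22]
  · rw [add_comm, hip_mul_LL c' hc.cl hX.cl, r4, h11]
  · rw [add_comm, hip_mul_LL c' hc.cl hY.cl, r3, h11]

/-! ### Monomials -/

/-- The product of the cuspidal characters of a list. -/
noncomputable def mono : List (CC F) → GF F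
  | [] => unit
  | c :: l => mul (LL c) (mono l)

/-- The total degree. -/
def tdeg (l : List (CC F)) : ℕ := (l.map deg).sum

@[simp] theorem tdeg_nil : tdeg ([] : List (CC F)) = 0 := rfl

@[simp] theorem tdeg_cons (c : CC F) (l : List (CC F)) : tdeg (c :: l) = deg c + tdeg l := by
  simp [tdeg]

theorem chF_mono (l : List (CC F)) : ChF (mono l) (tdeg l) := by
  induction l with
  | nil => exact chF_unit
  | cons c l ih =>
    rw [tdeg_cons]
    exact chF_mul (chF_LL c) ih

theorem mono_perm {l₁ l₂ : List (CC F)} (h : l₁.Perm l₂) : mono l₁ = mono l₂ := by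
  induction h with
  | nil => rfl
  | cons c _ ih => simp only [mono, ih]
  | swap a b l =>
    simp only [mono]
    have hl := (chF_mono l).cl
    have ha := (chF_LL a).cl
    have hb := (chF_LL b).cl
    rw [← mul_assoc' hb ha hl, ← mul_assoc' ha hb hl, LL_comm a b]
  | trans _ _ ih1 ih2 => exact ih1.trans ih2

theorem mono_append (l₁ l₂ : List (CC F)) : mono (l₁ ++ l₂) = mul (mono l₁) (mono l₂) := by
  induction l₁ with
  | nil =>
    show mono l₂ = mul unit (mono l₂)
    rw [unit_mul (chF_mono l₂).cl]
  | cons c l ih =>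
    show mul (LL c) (mono (l ++ l₂)) = mul (mul (LL c) (mono l)) (mono l₂)
    rw [ih, mul_assoc' (chF_LL c).cl (chF_mono l).cl (chF_mono l₂).cl]

open Classical in
theorem rs_mono (c : CC F) (l : List (CC F)) :
    rs c (mono l) = (l.count c : ℂ) • mono (l.erase c) := by
  induction l with
  | nil =>
    simp [mono, rs_unit]
  | cons a l ih =>
    show rs c (mul (LL a) (mono l)) = _
    rw [rs_mul c a (chF_mono l).cl, ih, mul_smul_right]
    by_cases ha : a = c
    · subst ha
      rw [if_pos rfl, List.count_cons_self, List.erase_cons_head, one_smul]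
      by_cases hm : a ∈ l
      · have : mul (LL a) (mono (l.erase a)) = mono l := by
          show mono (a :: l.erase a) = mono l
          exact mono_perm (List.perm_cons_erase hm).symm
        rw [this]
        push_cast
        rw [add_smul, one_smul, add_comm]
      · rw [List.count_eq_zero_of_not_mem hm]
        simp
    · have hne : ¬ (a == c) = true := by simpa using ha
      rw [if_neg ha, zero_smul, zero_add, List.count_cons_of_ne ha, List.erase_cons_tail hne]
      rfl

/-- Orthogonality of distinct monomials. -/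
theorem hip_mono (l l' : List (CC F)) (h : ¬ l.Perm l') (N : ℕ) :
    hip N (mono l) (mono l') = 0 := by
  classical
  induction l generalizing l' N with
  | nil =>
    by_cases hN : N = 0
    · subst hN
      have hl' : tdeg l' ≠ 0 := by
        intro h0
        apply h
        cases l' with
        | nil => exact List.Perm.refl _
        | cons a l' =>
          have := deg_pos a
          rw [tdeg_cons] at h0
          omega
      exact hip_zero_of_hd_right (chF_mono l').hd (Ne.symm hl') _
    · exact hip_zero_of_hd_left chF_unit.hd hN _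
  | cons c l ih =>
    by_cases hN : N = tdeg (c :: l)
    · subst hN
      rw [tdeg_cons]
      show hip _ (mul (LL c) (mono l)) _ = 0
      rw [hip_mul_LL c (chF_mono l).cl (chF_mono l').cl, rs_mono, hip_smul_right]
      by_cases hm : c ∈ l'
      · rw [ih _ ?_, mul_zero]
        intro hp
        apply h
        exact (hp.cons c).trans (List.perm_cons_erase hm).symm
      · rw [List.count_eq_zero_of_not_mem hm]
        simp
    · exact hip_zero_of_hd_left (chF_mono _).hd hN _

end Cfsg.Agent.Lib.HGMono
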