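import Mathlib
import Cfsg.Agent.Lib.HGMono
import Cfsg.Agent.Lib.CharAvg
set_option autoImplicit false
set_option linter.unusedSectionVars false

/-!
# Generic characters and multisets of cuspidal characters
-/

namespace Cfsg.Agent.Lib.HGGen

open Module Cfsg Cfsg.Agent.Lib.HGBasic Cfsg.Agent.Lib.HGAssoc Cfsg.Agent.Lib.HGGreen
  Cfsg.Agent.Lib.HGCusp Cfsg.Agent.Lib.HGAdj Cfsg.Agent.Lib.CharBasic Cfsg.Agent.Lib.CharInd
  Cfsg.Agent.Lib.HGChar Cfsg.Agent.Lib.HGMono Cfsg.Agent.Lib.HGDeg Cfsg.Agent.Lib.HGWhit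
open scoped ComplexConjugate

universe u

variable {F : Type u} [Field F] [Finite F]

theorem hip_nat {X Y : GF F} {d : ℕ} (hX : ChF X d) (hY : ChF Y d) : ∃ n : ℕ, hip d X Y = n := by
  rw [hip_eq hX.cl hY.cl hX.sup]
  exact classInner_char_char hX.ch hY.ch

theorem chF_irr {d : ℕ} (σ : IrrCharacter (GLn F d)) : ChF (lift d σ.1) d :=
  chF_lift (IsIrrCharacter.isCharacter σ.2)

theorem hip_add_left (m : ℕ) (X X' Y : GF F) : hip m (X + X') Y = hip m X Y + hip m X' Y := by
  unfold hip
  rw [← mul_add, ← Finset.sum_add_distrib]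
  congr 1
  apply Finset.sum_congr rfl
  intro a _
  rw [ev_add, add_mul]

theorem hip_add_right (m : ℕ) (X Y Y' : GF F) : hip m X (Y + Y') = hip m X Y + hip m X Y' := by
  unfold hip
  rw [← mul_add, ← Finset.sum_add_distrib]
  congr 1
  apply Finset.sum_congr rfl
  intro a _
  rw [ev_add, map_add, mul_add]

theorem lift_add (d : ℕ) (f g : GLn F d → ℂ) : lift d (f + g) = lift d f + lift d g := by
  funext n A
  by_cases h : n = d
  · subst h
    simp only [Pi.add_apply]
    rw [lift_self, lift_self, lift_self]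
    by_cases hA : IsUnit A
    · simp [hA]
    · simp [hA]
  · have h1 := lift_hd d (f + g) n h A
    have h2 := lift_hd d f n h A
    have h3 := lift_hd d g n h A
    simp [h1, h2, h3]

theorem lift_smul (d : ℕ) (c : ℂ) (f : GLn F d → ℂ) : lift d (c • f) = c • lift d f := by
  funext n A
  by_cases h : n = d
  · subst h
    simp only [Pi.smul_apply, smul_eq_mul]
    rw [lift_self, lift_self]
    by_cases hA : IsUnit A
    · simp [hA]
    · simp [hA]
  · have h1 := lift_hd d (c • f) n h A
    have h2 := lift_hd d f n h A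
    simp [h1, h2]

theorem exists_sub {X : GF F} {d : ℕ} (hX : ChF X d) (σ : IrrCharacter (GLn F d))
    (h : hip d X (lift d σ.1) ≠ 0) : ∃ C, ChF C d ∧ X = lift d σ.1 + C := by
  classical
  have hσ := chF_irr σ
  have hc : IsCharacter (GLn F d) (res X d - σ.1) := by
    apply isCharacter_of_classInner_nat
    · intro g x
      simp only [Pi.sub_apply]
      rw [res_isClass hX.cl d g x,
        isClassFunction_of_isCharacter (IsIrrCharacter.isCharacter σ.2) g x]
    · intro χ
      rw [classInner_sub_left]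
      obtain ⟨m, hm⟩ := classInner_char_irr hX.ch χ.2
      by_cases he : χ = σ
      · subst he
        rw [hip_eq hX.cl hσ.cl hX.sup, res_lift, hm] at h
        have hm0 : m ≠ 0 := by
          rintro rfl
          simp at h
        rw [hm, classInner_irr_self χ.2]
        refine ⟨m - 1, ?_⟩
        have : 1 ≤ m := Nat.one_le_iff_ne_zero.2 hm0
        push_cast [this]
        ring
      · rw [classInner_irr_ne σ.2 χ.2 (fun hh => he (Subtype.ext hh.symm)), hm, sub_zero]
        exact ⟨m, rfl⟩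
  refine ⟨lift d (res X d - σ.1), chF_lift hc, ?_⟩
  rw [← lift_add]
  simp only [add_sub_cancel]
  exact (lift_res hX.hd hX.sup).symm

theorem exists_mono (n : ℕ) (π : IrrCharacter (GLn F n)) :
    ∃ l : List (CC F), tdeg l = n ∧ hip n (mono l) (lift n π.1) ≠ 0 := by
  induction n using Nat.strong_induction_on with
  | _ n ih =>
    match n, ih, π with
    | 0, _, π =>
      refine ⟨[], rfl, ?_⟩
      show hip 0 unit _ ≠ 0
      rw [hip_eq unit_isCl (chF_irr π).cl chF_unit.sup, res_lift]
      unfold classInner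
      haveI : Subsingleton (GLn F 0) := by
        constructor
        intro a b
        apply Units.ext
        exact Subsingleton.elim _ _
      haveI : Unique (GLn F 0) := uniqueOfSubsingleton 1
      rw [Fintype.sum_unique, Nat.card_unique]
      have h1 : ∀ x : GLn F 0, res (unit : GF F) 0 x = 1 := by
        intro x
        simp [res, unit]
      rw [h1]
      simp only [Nat.cast_one, inv_one, one_mul, map_eq_zero, ne_eq]
      have h2 := Cfsg.Agent.Lib.CharAvg.irr_one_ne_zero π.2
      convert h2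
    | d + 1, ih, π =>
      by_cases hc : Cusp (lift (d + 1) π.1)
      · let c : CC F := ⟨d, ⟨π, hc⟩⟩
        refine ⟨[c], ?_, ?_⟩
        · simp [tdeg, deg, c]
        · show hip (deg c) (mul (LL c) unit) (LL c) ≠ 0
          rw [mul_LL_unit]
          classical
          rw [hip_LL, if_pos rfl]
          exact one_ne_zero
      · obtain ⟨k, l, hk, hl, hkl, σ₁, σ₂, hne⟩ := exists_mul_of_not_cusp
          (isClassFunction_of_isCharacter (IsIrrCharacter.isCharacter π.2)) hc
        obtain ⟨l₁, hl₁, h₁⟩ := ih k (by omega) σ₁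
        obtain ⟨l₂, hl₂, h₂⟩ := ih l (by omega) σ₂
        refine ⟨l₁ ++ l₂, ?_, ?_⟩
        · simp only [tdeg, List.map_append, List.sum_append] at hl₁ hl₂ ⊢
          omega
        · rw [mono_append]
          have hA₁ := chF_mono l₁
          have hA₂ := chF_mono l₂
          rw [hl₁] at hA₁
          rw [hl₂] at hA₂
          obtain ⟨C₁, hC₁, e₁⟩ := exists_sub hA₁ σ₁ h₁
          obtain ⟨C₂, hC₂, e₂⟩ := exists_sub hA₂ σ₂ h₂
          rw [e₁, e₂, mul_add_left, mul_add_right, hip_add_left, hip_add_left]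
          have hσ₁ := chF_irr σ₁
          have hσ₂ := chF_irr σ₂
          have hπ := chF_irr π
          have g1 : ChF (mul (lift k σ₁.1) (lift l σ₂.1)) (d + 1) := hkl ▸ chF_mul hσ₁ hσ₂
          have g2 : ChF (mul (lift k σ₁.1) C₂) (d + 1) := hkl ▸ chF_mul hσ₁ hC₂
          have g3 : ChF (mul C₁ (lift l σ₂.1 + C₂)) (d + 1) := by
            rw [← e₂]
            exact hkl ▸ chF_mul hC₁ hA₂
          obtain ⟨a, ha⟩ := hip_nat g1 hπ
          obtain ⟨b, hb⟩ := hip_nat g2 hπ
          obtain ⟨e, he⟩ := hip_nat g3 hπ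
          rw [ha] at hne
          rw [ha, hb, he]
          have ha0 : a ≠ 0 := by
            rintro rfl
            simp at hne
          exact_mod_cast (by omega : a + b + e ≠ 0)

/-! ### Multisets -/

/-- The monomial of a multiset. -/
noncomputable def monoM (M : Multiset (CC F)) : GF F :=
  Quot.liftOn M mono (fun _ _ h => mono_perm h)

theorem monoM_coe (l : List (CC F)) : monoM (l : Multiset (CC F)) = mono l := rfl

/-- The total degree of a multiset. -/
def tdegM (M : Multiset (CC F)) : ℕ := (M.map deg).sum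

theorem tdegM_coe (l : List (CC F)) : tdegM (l : Multiset (CC F)) = tdeg l := by
  simp [tdegM, tdeg]

theorem chF_monoM (M : Multiset (CC F)) : ChF (monoM M) (tdegM M) := by
  induction M using Quot.inductionOn with
  | h l =>
    show ChF (mono l) (tdegM (l : Multiset (CC F)))
    rw [tdegM_coe]
    exact chF_mono l

theorem exists_monoM (n : ℕ) (π : IrrCharacter (GLn F n)) :
    ∃ M : Multiset (CC F), tdegM M = n ∧ hip n (monoM M) (lift n π.1) ≠ 0 := by
  obtain ⟨l, h1, h2⟩ := exists_mono n π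
  exact ⟨l, by rw [tdegM_coe, h1], h2⟩

theorem hip_monoM {M M' : Multiset (CC F)} (h : M ≠ M') (N : ℕ) :
    hip N (monoM M) (monoM M') = 0 := by
  induction M using Quot.inductionOn with
  | h l =>
    induction M' using Quot.inductionOn with
    | h l' =>
      apply hip_mono
      intro hp
      exact h (Quot.sound hp)

/-- A character occurs in at most one monomial. -/
theorem monoM_unique {n : ℕ} (π : IrrCharacter (GLn F n)) {M M' : Multiset (CC F)}
    (hM : tdegM M = n) (hM' : tdegM M' = n) (h : hip n (monoM M) (lift n π.1) ≠ 0)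
    (h' : hip n (monoM M') (lift n π.1) ≠ 0) : M = M' := by
  classical
  by_contra hne
  have hA := chF_monoM M
  have hA' := chF_monoM M'
  rw [hM] at hA
  rw [hM'] at hA'
  obtain ⟨C, hC, e⟩ := exists_sub hA π h
  obtain ⟨C', hC', e'⟩ := exists_sub hA' π h'
  have h0 := hip_monoM hne n
  rw [e, e', hip_add_left, hip_add_right, hip_add_right] at h0
  have hπ := chF_irr π
  obtain ⟨a, ha⟩ := hip_nat hπ hC'
  obtain ⟨b, hb⟩ := hip_nat hC hπ
  obtain ⟨d, hd⟩ := hip_nat hC hC'
  have h1 : hip n (lift n π.1) (lift n π.1) = 1 := by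
    rw [hip_eq hπ.cl hπ.cl hπ.sup, res_lift]
    exact classInner_irr_self π.2
  rw [ha, hb, hd, h1] at h0
  have : ((1 + a + (b + d) : ℕ) : ℂ) = 0 := by
    push_cast
    exact h0
  have h2 := Nat.cast_eq_zero.1 this
  omega

theorem tdeg_pos {l : List (CC F)} (hl : l ≠ []) : 1 ≤ tdeg l := by
  cases l with
  | nil => exact absurd rfl hl
  | cons c l =>
    have := deg_pos c
    rw [tdeg_cons]
    omega

/-! ### The Whittaker coefficient -/

section Whit

variable (ψ : AddChar F ℂ)

/-- The Whittaker coefficient as a linear form. -/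
noncomputable def gamL (n : ℕ) : (GLn F n → ℂ) →ₗ[ℂ] ℂ where
  toFun f := AA (lift n f) ψ n 1
  map_add' f g := by
    rw [lift_add]
    unfold AA BB
    rw [← mul_add, ← Finset.sum_add_distrib]
    congr 1
    apply Finset.sum_congr rfl
    intro y _
    simp only [Pi.add_apply]
    ring
  map_smul' c f := by
    rw [lift_smul]
    unfold AA BB
    simp only [RingHom.id_apply, smul_eq_mul]
    rw [mul_left_comm, Finset.mul_sum (a := c)]
    congr 1
    apply Finset.sum_congr rfl
    intro y _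
    simp only [Pi.smul_apply, smul_eq_mul]
    ring

theorem gamL_apply (n : ℕ) (f : GLn F n → ℂ) : gamL ψ n f = AA (lift n f) ψ n 1 := rfl

theorem AA_eq_sum {X : GF F} {n : ℕ} (hX : ChF X n) :
    AA X ψ n 1 = ∑ χ : IrrCharacter (GLn F n), hip n X (lift n χ.1) * gamL ψ n χ.1 := by
  have h1 : X = lift n (res X n) := (lift_res hX.hd hX.sup).symm
  have h2 := classFunction_eq_sum (res_isClass hX.cl n)
  have h3 : AA X ψ n 1 = gamL ψ n (res X n) := by
    rw [gamL_apply, ← h1]
  rw [h3]
  conv_lhs => rw [h2]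
  rw [map_sum]
  apply Finset.sum_congr rfl
  intro χ _
  rw [map_smul, smul_eq_mul, hip_eq hX.cl (chF_irr χ).cl hX.sup, res_lift]

variable {ψ}

variable (H : ∀ (n : ℕ), 1 ≤ n → ∀ π : IrrCharacter (GLn F n), gamL ψ n π.1 = 0 ∨ gamL ψ n π.1 = 1)

include H

theorem gam_LL (hψ : ψ ≠ 1) (c : CC F) : AA (LL c) ψ (deg c) 1 = 1 := by
  have hc := chF_LL c
  have h1 := deg_formula hc.cl (cusp_LL c) hψ (n := deg c) (deg_pos c)
  have h2 : LL c (deg c) 1 ≠ 0 := by
    have : LL c (deg c) 1 = c.2.1.1 (1 : GLn F (deg c)) := lift_coe _ _ 1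
    rw [this]
    exact Cfsg.Agent.Lib.CharAvg.irr_one_ne_zero c.2.1.2
  rw [h1] at h2
  have h3 := right_ne_zero_of_mul h2
  exact (H (deg c) (deg_pos c) c.2.1).resolve_left h3

theorem gam_mono (hψ : ψ ≠ 1) (l : List (CC F)) (hl : l ≠ []) : AA (mono l) ψ (tdeg l) 1 = 1 := by
  induction l with
  | nil => exact absurd rfl hl
  | cons c l ih =>
    by_cases he : l = []
    · subst he
      show AA (mul (LL c) unit) ψ (deg c + 0) 1 = 1
      rw [mul_LL_unit, add_zero]
      exact gam_LL H hψ c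
    · rw [tdeg_cons, add_comm]
      show AA (mul (LL c) (mono l)) ψ _ 1 = 1
      rw [AA_mul (chF_LL c).cl (chF_mono l).cl (chF_LL c).hd hψ (tdeg_pos he) (deg_pos c), ih he,
        gam_LL H hψ c, mul_one]

theorem gam_monoM (hψ : ψ ≠ 1) (M : Multiset (CC F)) (hM : 1 ≤ tdegM M) :
    AA (monoM M) ψ (tdegM M) 1 = 1 := by
  induction M using Quot.inductionOn with
  | h l =>
    show AA (mono l) ψ (tdegM (l : Multiset (CC F))) 1 = 1
    rw [tdegM_coe]
    apply gam_mono H hψ
    rintro rfl
    simp [tdegM] at hM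

theorem exists_gen (hψ : ψ ≠ 1) {n : ℕ} (hn : 1 ≤ n) (M : Multiset (CC F)) (hM : tdegM M = n) :
    ∃ π : IrrCharacter (GLn F n), gamL ψ n π.1 ≠ 0 ∧ hip n (monoM M) (lift n π.1) ≠ 0 := by
  have h1 := gam_monoM H hψ M (by omega)
  rw [hM] at h1
  have hA := chF_monoM M
  rw [hM] at hA
  rw [AA_eq_sum ψ hA] at h1
  have h2 : ∑ χ : IrrCharacter (GLn F n), hip n (monoM M) (lift n χ.1) * gamL ψ n χ.1 ≠ 0 := by
    rw [h1]
    exact one_ne_zero
  obtain ⟨χ, _, hχ⟩ := Finset.exists_ne_zero_of_sum_ne_zero h2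
  exact ⟨χ, right_ne_zero_of_mul hχ, left_ne_zero_of_mul hχ⟩

theorem gen_unique (hψ : ψ ≠ 1) {n : ℕ} (hn : 1 ≤ n) (M : Multiset (CC F)) (hM : tdegM M = n)
    {π π' : IrrCharacter (GLn F n)} (h1 : gamL ψ n π.1 ≠ 0) (h2 : gamL ψ n π'.1 ≠ 0)
    (h3 : hip n (monoM M) (lift n π.1) ≠ 0) (h4 : hip n (monoM M) (lift n π'.1) ≠ 0) : π = π' := by
  classical
  by_contra hne
  have h5 := gam_monoM H hψ M (by omega)
  rw [hM] at h5
  have hA := chF_monoM M
  rw [hM] at hA
  rw [AA_eq_sum ψ hA] at h5
  choose m hm using fun χ : IrrCharacter (GLn F n) => hip_nat hA (chF_irr χ)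
  let g : IrrCharacter (GLn F n) → ℕ := fun χ => if gamL ψ n χ.1 = 0 then 0 else 1
  have hg : ∀ χ : IrrCharacter (GLn F n), gamL ψ n χ.1 = (g χ : ℂ) := by
    intro χ
    by_cases h : gamL ψ n χ.1 = 0
    · simp [g, h]
    · simp only [g, if_neg h, Nat.cast_one]
      exact (H n hn χ).resolve_left h
  have h6 : ((∑ χ, m χ * g χ : ℕ) : ℂ) = ((1 : ℕ) : ℂ) := by
    push_cast
    rw [← h5]
    apply Finset.sum_congr rfl
    intro χ _
    rw [hm, hg]
  have h7 : ∑ χ, m χ * g χ = 1 := by exact_mod_cast h6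
  have h8 : ∑ χ ∈ ({π, π'} : Finset (IrrCharacter (GLn F n))), m χ * g χ ≤ ∑ χ, m χ * g χ :=
    Finset.sum_le_sum_of_subset (Finset.subset_univ _)
  rw [Finset.sum_pair hne, h7] at h8
  have h9 : 1 ≤ m π := by
    rw [hm] at h3
    by_contra h0
    have : m π = 0 := by omega
    rw [this] at h3
    simp at h3
  have h10 : 1 ≤ m π' := by
    rw [hm] at h4
    by_contra h0
    have : m π' = 0 := by omega
    rw [this] at h4
    simp at h4
  have h11 : g π = 1 := by simp [g, h1]
  have h12 : g π' = 1 := by simp [g, h2]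
  rw [h11, h12] at h8
  omega

/-- Generic characters correspond to multisets of cuspidal characters. -/
theorem card_gen (hψ : ψ ≠ 1) {n : ℕ} (hn : 1 ≤ n) :
    Nat.card {π : IrrCharacter (GLn F n) // gamL ψ n π.1 ≠ 0} =
      Nat.card {M : Multiset (CC F) // tdegM M = n} := by
  choose f hf1 hf2 using fun π : IrrCharacter (GLn F n) => exists_monoM n π
  apply Nat.card_eq_of_bijective
    (fun π : {π : IrrCharacter (GLn F n) // gamL ψ n π.1 ≠ 0} => ⟨f π.1, hf1 π.1⟩)
  constructor
  · intro π π' h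
    have h1 : f π.1 = f π'.1 := congrArg Subtype.val h
    apply Subtype.ext
    apply gen_unique H hψ hn (f π.1) (hf1 π.1) π.2 π'.2 (hf2 π.1)
    rw [h1]
    exact hf2 π'.1
  · rintro ⟨M, hM⟩
    obtain ⟨π, h1, h2⟩ := exists_gen H hψ hn M hM
    refine ⟨⟨π, h1⟩, ?_⟩
    apply Subtype.ext
    exact monoM_unique π (hf1 π) hM (hf2 π) h2

end Whit

end Cfsg.Agent.Lib.HGGen
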