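import Mathlib
set_option autoImplicit false
set_option linter.unusedSectionVars false

/-!
# Permutations whose ascents are by one

`Good₀ w` says that whenever `w i < w (i+1)` we have `w (i+1) = w i + 1`.  Such permutations are
determined by their set of ascents.  We give an explicit formula for them.
-/

namespace Cfsg.Agent.Lib.HGPerm

open Classical

/-! ### Blocks of a set of integers -/

section Block

variable (S : ℕ → Prop)

/-- The start of the block containing `k`. -/
noncomputable def aa (k : ℕ) : ℕ := Nat.findGreatest (fun x => x = 0 ∨ ¬ S (x - 1)) k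

/-- The end of the block containing `k`. -/
noncomputable def bb (k : ℕ) : ℕ := sInf {x | k ≤ x ∧ ¬ S x}

variable {S}

theorem aa_le (k : ℕ) : aa S k ≤ k := Nat.findGreatest_le k

theorem aa_spec (k : ℕ) : aa S k = 0 ∨ ¬ S (aa S k - 1) := by
  have := Nat.findGreatest_spec (P := fun x => x = 0 ∨ ¬ S (x - 1)) (m := 0) (n := k)
    (Nat.zero_le k) (Or.inl rfl)
  exact this

theorem aa_mem {k j : ℕ} (h1 : aa S k ≤ j) (h2 : j < k) : S j := by
  by_contra hj
  have h3 : (j + 1 = 0 ∨ ¬ S (j + 1 - 1)) := Or.inr (by simpa using hj)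
  have h4 := Nat.le_findGreatest (P := fun x => x = 0 ∨ ¬ S (x - 1)) (m := j + 1) (n := k)
    (by omega) h3
  have h5 : j + 1 ≤ aa S k := h4
  omega

theorem aa_of_block {x y : ℕ} (hxy : x ≤ y) (h1 : ∀ j, x ≤ j → j < y → S j)
    (h2 : x = 0 ∨ ¬ S (x - 1)) : aa S y = x := by
  have h3 : x ≤ aa S y := Nat.le_findGreatest (P := fun x => x = 0 ∨ ¬ S (x - 1)) hxy h2
  by_contra hne
  have h4 : x < aa S y := lt_of_le_of_ne h3 (Ne.symm hne)
  rcases aa_spec (S := S) y with h5 | h5
  · omega
  · apply h5
    apply h1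
    · omega
    · have := aa_le (S := S) y
      omega

variable (hne : ∀ k : ℕ, ∃ x, k ≤ x ∧ ¬ S x)

include hne

theorem bb_mem_set (k : ℕ) : k ≤ bb S k ∧ ¬ S (bb S k) :=
  Nat.sInf_mem (s := {x | k ≤ x ∧ ¬ S x}) (hne k)

theorem bb_ge (k : ℕ) : k ≤ bb S k := (bb_mem_set hne k).1

theorem bb_not (k : ℕ) : ¬ S (bb S k) := (bb_mem_set hne k).2

theorem bb_mem {k j : ℕ} (h1 : k ≤ j) (h2 : j < bb S k) : S j := by
  by_contra hj
  have := Nat.sInf_le (s := {x | k ≤ x ∧ ¬ S x}) (m := j) ⟨h1, hj⟩
  have h3 : bb S k ≤ j := this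
  omega

theorem bb_le {k j : ℕ} (h1 : k ≤ j) (hj : ¬ S j) : bb S k ≤ j :=
  Nat.sInf_le (s := {x | k ≤ x ∧ ¬ S x}) ⟨h1, hj⟩

theorem bb_of_block {x y : ℕ} (hxy : x ≤ y) (h1 : ∀ j, x ≤ j → j < y → S j) (h2 : ¬ S y) :
    bb S x = y := by
  have h3 : bb S x ≤ y := bb_le hne hxy h2
  by_contra hne'
  have h4 : bb S x < y := lt_of_le_of_ne h3 hne'
  exact bb_not hne x (h1 _ (bb_ge hne x) h4)

theorem block_same {k k' : ℕ} (hk : k ≤ k') (h : ∀ j, k ≤ j → j < k' → S j) :
    aa S k' = aa S k ∧ bb S k' = bb S k := by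
  constructor
  · apply aa_of_block ((aa_le k).trans hk)
    · intro j h1 h2
      by_cases h3 : j < k
      · exact aa_mem h1 h3
      · exact h _ (by omega) h2
    · exact aa_spec k
  · symm
    apply bb_of_block hne (hk.trans (bb_ge hne k'))
    · intro j h1 h2
      by_cases h3 : j < k'
      · exact h _ h1 h3
      · exact bb_mem hne (by omega) h2
    · exact bb_not hne k'

theorem block_diff {k k' j : ℕ} (h1 : k ≤ j) (h2 : j < k') (hj : ¬ S j) : bb S k < aa S k' := by
  have h3 : bb S k ≤ j := bb_le hne h1 hj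
  have h4 : j + 1 ≤ aa S k' := Nat.le_findGreatest (P := fun x => x = 0 ∨ ¬ S (x - 1)) (by omega)
    (Or.inr (by simpa using hj))
  omega

end Block

/-! ### The explicit permutation -/

section Explicit

variable {n : ℕ} {S : ℕ → Prop}

/-- The explicit values. -/
noncomputable def WW (n : ℕ) (S : ℕ → Prop) (k : ℕ) : ℕ := (k - aa S k) + (n - 1 - bb S k)

variable (hS : ∀ j, S j → j + 1 < n)

theorem hne_of (hS : ∀ j, S j → j + 1 < n) (k : ℕ) : ∃ x, k ≤ x ∧ ¬ S x :=
  ⟨k + n, by omega, fun h => by have := hS _ h; omega⟩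

include hS

theorem bb_lt {k : ℕ} (hk : k < n) : bb S k < n := by
  have h1 : bb S k ≤ n - 1 := by
    apply bb_le (hne_of hS)
    · omega
    · intro h
      have := hS _ h
      omega
  omega

theorem WW_lt {k : ℕ} (hk : k < n) : WW n S k < n := by
  have h1 := bb_lt hS hk
  have h2 := bb_ge (hne_of hS) k
  have h3 := aa_le (S := S) k
  unfold WW
  omega

theorem WW_step_of_mem {i : ℕ} (hi : S i) : WW n S (i + 1) = WW n S i + 1 := by
  have h0 := hS _ hi
  obtain ⟨h1, h2⟩ := block_same (hne_of hS) (Nat.le_succ i) (k := i) (k' := i + 1) (by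
    intro j h3 h4
    have : j = i := by omega
    subst this
    exact hi)
  unfold WW
  rw [h1, h2]
  have h3 := aa_le (S := S) i
  have h4 := bb_lt hS (k := i) (by omega)
  have h5 := bb_ge (hne_of hS) i
  omega

theorem WW_lt_of_block_diff {k k' j : ℕ} (h1 : k ≤ j) (h2 : j < k') (hj : ¬ S j) (hk' : k' < n) :
    WW n S k' < WW n S k := by
  have h3 := block_diff (hne_of hS) h1 h2 hj
  have h4 := aa_le (S := S) k
  have h5 := aa_le (S := S) k'
  have h6 := bb_ge (hne_of hS) k
  have h7 := bb_ge (hne_of hS) k'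
  have h8 := bb_lt hS hk'
  have h9 := bb_lt hS (k := k) (by omega)
  unfold WW
  omega

theorem WW_lt_of_same {k k' : ℕ} (hk : k < k') (h : ∀ j, k ≤ j → j < k' → S j) (hk' : k' < n) :
    WW n S k < WW n S k' := by
  obtain ⟨h1, h2⟩ := block_same (hne_of hS) hk.le h
  unfold WW
  rw [h1, h2]
  have h3 := aa_le (S := S) k
  omega

theorem WW_ne {k k' : ℕ} (hkk : k < k') (hk' : k' < n) : WW n S k ≠ WW n S k' := by
  by_cases h : ∀ j, k ≤ j → j < k' → S j
  · exact (WW_lt_of_same hS hkk h hk').ne
  · push Not at h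
    obtain ⟨j, h1, h2, h3⟩ := h
    exact (WW_lt_of_block_diff hS h1 h2 h3 hk').ne'

/-- The reflection in the block. -/
noncomputable def cc (S : ℕ → Prop) (k : ℕ) : ℕ := aa S k + bb S k - k

theorem cc_block {k : ℕ} (hk : k < n) :
    aa S (cc S k) = aa S k ∧ bb S (cc S k) = bb S k := by
  have h1 := aa_le (S := S) k
  have h2 := bb_ge (hne_of hS) k
  by_cases h : k ≤ cc S k
  · apply block_same (hne_of hS) h
    intro j h3 h4
    apply bb_mem (hne_of hS) h3
    unfold cc at h4
    omega
  · have h3 := block_same (hne_of hS) (k := cc S k) (k' := k) (by omega) (by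
      intro j h3 h4
      apply aa_mem _ h4
      unfold cc at h3
      omega)
    exact ⟨h3.1.symm, h3.2.symm⟩

theorem WW_eq_cc {k : ℕ} (hk : k < n) : WW n S k = n - 1 - cc S k := by
  have h1 := aa_le (S := S) k
  have h2 := bb_ge (hne_of hS) k
  have h3 := bb_lt hS hk
  unfold WW cc
  omega

theorem WW_cc {k : ℕ} (hk : k < n) : WW n S (cc S k) = n - 1 - k := by
  obtain ⟨h1, h2⟩ := cc_block hS hk
  have h3 := aa_le (S := S) k
  have h4 := bb_ge (hne_of hS) k
  have h5 := bb_lt hS hk
  unfold WW
  rw [h1, h2]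
  unfold cc
  omega

theorem cc_lt {k : ℕ} (hk : k < n) : cc S k < n := by
  have h1 := aa_le (S := S) k
  have h2 := bb_ge (hne_of hS) k
  have h3 := bb_lt hS hk
  unfold cc
  omega

/-- The explicit permutation. -/
noncomputable def wS (n : ℕ) (S : ℕ → Prop) (hS : ∀ j, S j → j + 1 < n) : Equiv.Perm (Fin n) :=
  Equiv.ofBijective (fun k => ⟨WW n S k.1, WW_lt hS k.2⟩) (by
    rw [← Finite.injective_iff_bijective]
    intro k k' h
    have h1 : WW n S k.1 = WW n S k'.1 := congrArg Fin.val h
    apply Fin.ext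
    by_contra hne
    rcases lt_or_gt_of_ne hne with h2 | h2
    · exact WW_ne hS h2 k'.2 h1
    · exact WW_ne hS h2 k.2 h1.symm)

theorem wS_val (k : Fin n) : (wS n S hS k).val = WW n S k.val := rfl

end Explicit

/-! ### Good permutations -/

section Good

variable {n : ℕ}

/-- The function on natural numbers attached to a permutation. -/
def vv (w : Equiv.Perm (Fin n)) (i : ℕ) : ℕ := if h : i < n then (w ⟨i, h⟩).val else 0

theorem vv_coe (w : Equiv.Perm (Fin n)) (i : Fin n) : vv w i.val = (w i).val := by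
  simp [vv]

theorem vv_inj (w : Equiv.Perm (Fin n)) {i j : ℕ} (hi : i < n) (hj : j < n) (h : vv w i = vv w j) :
    i = j := by
  have h1 := vv_coe w ⟨i, hi⟩
  have h2 := vv_coe w ⟨j, hj⟩
  simp only at h1 h2
  rw [h1, h2] at h
  have := w.injective (Fin.ext h)
  exact congrArg Fin.val this

/-- All ascents are by one. -/
def Good₀ (w : Equiv.Perm (Fin n)) : Prop :=
  ∀ i : ℕ, i + 1 < n → vv w i < vv w (i + 1) → vv w (i + 1) = vv w i + 1

/-- The set of ascents. -/
def asc (w : Equiv.Perm (Fin n)) (i : ℕ) : Prop := i + 1 < n ∧ vv w i < vv w (i + 1)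

variable {w : Equiv.Perm (Fin n)}

theorem good_P (hw : Good₀ w) {i j : ℕ} (hij : i ≤ j) (hj : j < n)
    (h : ∀ k, i ≤ k → k < j → asc w k) : vv w j = vv w i + (j - i) := by
  induction j, hij using Nat.le_induction with
  | base => simp
  | succ j hij ih =>
    have h1 := ih (by omega) (fun k h1 h2 => h k h1 (by omega))
    have h2 := hw j hj (h j hij (by omega)).2
    omega

theorem good_N (hw : Good₀ w) {i j : ℕ} (hij : i < j) (hj : j < n)
    (h : ∃ k, i ≤ k ∧ k < j ∧ ¬ asc w k) : vv w j < vv w i := by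
  induction j, hij using Nat.le_induction with
  | base =>
    obtain ⟨k, h1, h2, h3⟩ := h
    have hk : k = i := by omega
    subst hk
    have h4 : ¬ vv w k < vv w (k + 1) := fun h5 => h3 ⟨hj, h5⟩
    have h5 : vv w k ≠ vv w (k + 1) := fun h6 => by
      have := vv_inj w (by omega) hj h6
      omega
    show vv w (k + 1) < vv w k
    omega
  | succ j hij ih =>
    by_cases h0 : ∃ k, i ≤ k ∧ k < j ∧ ¬ asc w k
    · have h1 := ih (by omega) h0
      by_cases h2 : vv w j < vv w (j + 1)
      · have h3 := hw j hj h2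
        have h4 : vv w (j + 1) ≠ vv w i := fun h5 => by
          have := vv_inj w hj (by omega) h5
          omega
        omega
      · have h5 : vv w j ≠ vv w (j + 1) := fun h6 => by
          have := vv_inj w (by omega) hj h6
          omega
        omega
    · push Not at h0
      obtain ⟨k, h1, h2, h3⟩ := h
      have hk : k = j := by
        by_contra hne
        exact h3 (h0 k h1 (by omega))
      subst hk
      have h4 : ¬ vv w k < vv w (k + 1) := fun h5 => h3 ⟨hj, h5⟩
      have h5 : vv w k ≠ vv w (k + 1) := fun h6 => by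
        have := vv_inj w (by omega) hj h6
        omega
      have h6 : vv w k = vv w i + (k - i) := good_P hw (by omega) (by omega) h0
      by_contra hcon
      -- the value lies in the interval of values of the block
      have h7 : vv w (k + 1) - vv w i ≤ k - i := by omega
      set s := vv w (k + 1) - vv w i with hs
      have h8 : vv w (i + s) = vv w i + s := by
        have := good_P hw (i := i) (j := i + s) (by omega) (by omega)
          (fun l h9 h10 => h0 l h9 (by omega))
        simpa using this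
      have h9 : vv w (i + s) = vv w (k + 1) := by omega
      have := vv_inj w (by omega) hj h9
      omega

theorem good_lt_iff (hw : Good₀ w) {i j : ℕ} (hij : i < j) (hj : j < n) :
    vv w i < vv w j ↔ ∀ k, i ≤ k → k < j → asc w k := by
  constructor
  · intro h
    by_contra hcon
    push Not at hcon
    obtain ⟨k, h1, h2, h3⟩ := hcon
    have := good_N hw hij hj ⟨k, h1, h2, h3⟩
    omega
  · intro h
    have := good_P hw hij.le hj h
    omega

/-- A good permutation is determined by its ascents. -/
theorem good_unique {w w' : Equiv.Perm (Fin n)} (hw : Good₀ w) (hw' : Good₀ w')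
    (h : ∀ i, asc w i ↔ asc w' i) : w = w' := by
  have hkey : ∀ i j : Fin n, w i < w j ↔ w' i < w' j := by
    intro i j
    rw [Fin.lt_def, Fin.lt_def, ← vv_coe, ← vv_coe, ← vv_coe, ← vv_coe]
    rcases lt_trichotomy i j with hij | hij | hij
    · rw [good_lt_iff hw hij j.2, good_lt_iff hw' hij j.2]
      constructor
      · exact fun h1 k h2 h3 => (h k).1 (h1 k h2 h3)
      · exact fun h1 k h2 h3 => (h k).2 (h1 k h2 h3)
    · subst hij
      simp
    · have h1 : vv w i.val ≠ vv w j.val := fun h2 => by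
        have := vv_inj w i.2 j.2 h2
        exact hij.ne (Fin.ext this.symm)
      have h2 : vv w' i.val ≠ vv w' j.val := fun h2 => by
        have := vv_inj w' i.2 j.2 h2
        exact hij.ne (Fin.ext this.symm)
      have h3 := good_lt_iff hw hij i.2
      have h4 := good_lt_iff hw' hij i.2
      have h5 : (∀ k, j.val ≤ k → k < i.val → asc w k) ↔ (∀ k, j.val ≤ k → k < i.val → asc w' k) := by
        constructor
        · exact fun h1 k h2 h3 => (h k).1 (h1 k h2 h3)
        · exact fun h1 k h2 h3 => (h k).2 (h1 k h2 h3)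
      rw [← h3, ← h4] at h5
      omega
  let τ : Equiv.Perm (Fin n) := w.symm.trans w'
  have hmono : StrictMono τ := by
    intro a b hab
    have := (hkey (w.symm a) (w.symm b)).1 (by simpa using hab)
    exact this
  have hτ : τ = Equiv.refl _ := by
    have e1 := (hmono.orderIsoOfSurjective τ τ.surjective)
    have e2 : hmono.orderIsoOfSurjective τ τ.surjective = OrderIso.refl _ := Subsingleton.elim _ _
    ext x
    have := congrArg (fun f : Fin n ≃o Fin n => f x) e2
    simpa [τ] using congrArg Fin.val this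
  ext x
  have := congrArg (fun f : Equiv.Perm (Fin n) => f (w x)) hτ
  simp [τ] at this
  rw [this]

theorem wS_good {S : ℕ → Prop} (hS : ∀ j, S j → j + 1 < n) : Good₀ (wS n S hS) := by
  intro i hi h
  have e1 : vv (wS n S hS) i = WW n S i := by
    have := vv_coe (wS n S hS) ⟨i, by omega⟩
    simpa [wS_val] using this
  have e2 : vv (wS n S hS) (i + 1) = WW n S (i + 1) := by
    have := vv_coe (wS n S hS) ⟨i + 1, hi⟩
    simpa [wS_val] using this
  rw [e1, e2] at h ⊢
  by_cases hm : S i
  · exact WW_step_of_mem hS hm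
  · have := WW_lt_of_block_diff hS (k := i) (k' := i + 1) (j := i) le_rfl (Nat.lt_succ_self i) hm hi
    omega

theorem wS_asc {S : ℕ → Prop} (hS : ∀ j, S j → j + 1 < n) (i : ℕ) :
    asc (wS n S hS) i ↔ S i := by
  constructor
  · rintro ⟨hi, h⟩
    by_contra hm
    have e1 : vv (wS n S hS) i = WW n S i := by
      have := vv_coe (wS n S hS) ⟨i, by omega⟩
      simpa [wS_val] using this
    have e2 : vv (wS n S hS) (i + 1) = WW n S (i + 1) := by
      have := vv_coe (wS n S hS) ⟨i + 1, hi⟩
      simpa [wS_val] using this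
    rw [e1, e2] at h
    have := WW_lt_of_block_diff hS (k := i) (k' := i + 1) (j := i) le_rfl (Nat.lt_succ_self i) hm hi
    omega
  · intro hm
    have hi := hS _ hm
    refine ⟨hi, ?_⟩
    have e1 : vv (wS n S hS) i = WW n S i := by
      have := vv_coe (wS n S hS) ⟨i, by omega⟩
      simpa [wS_val] using this
    have e2 : vv (wS n S hS) (i + 1) = WW n S (i + 1) := by
      have := vv_coe (wS n S hS) ⟨i + 1, hi⟩
      simpa [wS_val] using this
    rw [e1, e2]
    have := WW_step_of_mem hS hm
    omega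

theorem eq_wS (hw : Good₀ w) : w = wS n (asc w) (fun _ h => h.1) :=
  good_unique hw (wS_good _) (fun i => (wS_asc _ i).symm)

/-- The values of a good permutation in terms of the reflection. -/
theorem good_cc (hw : Good₀ w) (k : Fin n) :
    (w ⟨cc (asc w) k.val, cc_lt (fun _ h => h.1) k.2⟩).val = n - 1 - k.val := by
  have h1 := eq_wS hw
  have h2 : (wS n (asc w) (fun _ h => h.1) ⟨cc (asc w) k.val, cc_lt (fun _ h => h.1) k.2⟩).val =
      n - 1 - k.val := by
    rw [wS_val]
    exact WW_cc (fun _ h => h.1) k.2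
  rw [← h1] at h2
  exact h2

theorem good_val (hw : Good₀ w) (k : Fin n) : (w k).val = n - 1 - cc (asc w) k.val := by
  have h1 := eq_wS hw
  have h2 : (wS n (asc w) (fun _ h => h.1) k).val = n - 1 - cc (asc w) k.val := by
    rw [wS_val]
    exact WW_eq_cc (fun _ h => h.1) k.2
  rw [← h1] at h2
  exact h2

/-- `k` and its reflection are connected by ascents. -/
theorem cc_connected (hw : Good₀ w) (k : Fin n) (j : ℕ)
    (h1 : min k.val (cc (asc w) k.val) ≤ j) (h2 : j < max k.val (cc (asc w) k.val)) : asc w j := by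
  have hS : ∀ j, asc w j → j + 1 < n := fun _ h => h.1
  have h3 := aa_le (S := asc w) k.val
  have h4 := bb_ge (hne_of hS) k.val
  by_cases h : k.val ≤ cc (asc w) k.val
  · rw [min_eq_left h] at h1
    rw [max_eq_right h] at h2
    apply bb_mem (hne_of hS) h1
    unfold cc at h2
    omega
  · have h' : cc (asc w) k.val ≤ k.val := by omega
    rw [min_eq_right h'] at h1
    rw [max_eq_left h'] at h2
    apply aa_mem (S := asc w) (k := k.val) ?_ h2
    unfold cc at h1
    omega

end Good

end Cfsg.Agent.Lib.HGPerm
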