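import Mathlib
import Cfsg.Agent.Lib.HGGen
import Cfsg.Agent.Lib.HGGGAbs
import Cfsg.Agent.Lib.HGPerm
import Cfsg.Agent.Lib.Bruhat
set_option autoImplicit false
set_option linter.unusedSectionVars false

/-!
# The Gelfand–Graev representation of `GL_n`: the unitriangular group, monomial matrices
-/

namespace Cfsg.Agent.Lib.HGGG

open Module Cfsg Cfsg.Agent.Lib.HGBasic Cfsg.Agent.Lib.HGAssoc Cfsg.Agent.Lib.HGGreen
  Cfsg.Agent.Lib.HGCusp Cfsg.Agent.Lib.HGAdj Cfsg.Agent.Lib.CharBasic Cfsg.Agent.Lib.CharInd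
  Cfsg.Agent.Lib.HGChar Cfsg.Agent.Lib.HGMono Cfsg.Agent.Lib.HGDeg Cfsg.Agent.Lib.HGWhit
  Cfsg.Agent.Lib.HGGen Cfsg.Agent.Lib.HGGGAbs Cfsg.Agent.Lib.HGPerm Cfsg.Agent.Lib.Bruhat
open scoped ComplexConjugate

universe u

variable {F : Type u} [Field F] [Finite F] {n : ℕ}

/-- Unitriangular matrices. -/
def IsU (A : Matrix (Fin n) (Fin n) F) : Prop :=
  ∀ i j : Fin n, j ≤ i → A i j = (1 : Matrix (Fin n) (Fin n) F) i j

theorem isU_one : IsU (1 : Matrix (Fin n) (Fin n) F) := fun _ _ _ => rfl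

theorem IsU.zero_of_lt {A : Matrix (Fin n) (Fin n) F} (h : IsU A) {i j : Fin n} (hij : j < i) :
    A i j = 0 := by
  rw [h i j hij.le, Matrix.one_apply_ne hij.ne']

theorem IsU.diag {A : Matrix (Fin n) (Fin n) F} (h : IsU A) (i : Fin n) : A i i = 1 := by
  rw [h i i le_rfl, Matrix.one_apply_eq]

theorem IsU.mul {A B : Matrix (Fin n) (Fin n) F} (hA : IsU A) (hB : IsU B) : IsU (A * B) := by
  intro i j hij
  rw [Matrix.mul_apply, Finset.sum_eq_single i]
  · rw [hA.diag, one_mul, hB i j hij]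
  · intro k _ hk
    rcases lt_or_gt_of_ne hk with h | h
    · rw [hA.zero_of_lt h, zero_mul]
    · rw [hB.zero_of_lt (lt_of_le_of_lt hij h), mul_zero]
  · intro h
    exact absurd (Finset.mem_univ i) h

theorem isU_of_Nc {y : Matrix (Fin n) (Fin n) F} (hy : y ∈ Nc F n 1) : IsU (1 + y) := by
  intro i j hij
  have : y i j = 0 := hy i j (fun h => absurd h.1 (not_lt.2 hij))
  simp [this]

theorem sub_one_mem_Nc {A : Matrix (Fin n) (Fin n) F} (h : IsU A) : A - 1 ∈ Nc F n 1 := by
  intro i j hij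
  have h1 : j ≤ i := by
    by_contra h2
    apply hij
    refine ⟨not_le.1 h2, ?_⟩
    have : i.val < j.val := not_le.1 h2
    omega
  simp [h i j h1]

theorem isUnit_of_IsU {A : Matrix (Fin n) (Fin n) F} (h : IsU A) : IsUnit A := by
  rw [Matrix.isUnit_iff_isUnit_det]
  have h1 : A.BlockTriangular id := fun i j hij => h.zero_of_lt hij
  rw [Matrix.det_of_isUpperTriangular h1]
  have : ∏ i, A i i = 1 := Finset.prod_eq_one (fun i _ => h.diag i)
  rw [this]
  exact isUnit_one

/-- The unitriangular group. -/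
def UU (F : Type u) [Field F] [Finite F] (n : ℕ) : Subgroup (GLn F n) where
  carrier := {g | IsU g.val}
  mul_mem' := fun ha hb => IsU.mul ha hb
  one_mem' := isU_one
  inv_mem' := by
    intro g hg
    have h : g⁻¹ = g ^ (orderOf g - 1) := by
      apply inv_eq_of_mul_eq_one_right
      rw [← pow_succ', Nat.sub_add_cancel (orderOf_pos g), pow_orderOf_eq_one]
    show IsU (g⁻¹ : GLn F n).val
    rw [h]
    generalize orderOf g - 1 = k
    induction k with
    | zero => exact isU_one
    | succ k ih =>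
      rw [pow_succ]
      exact IsU.mul ih hg

theorem mem_UU {g : GLn F n} : g ∈ UU F n ↔ IsU g.val := Iff.rfl

noncomputable instance instFintypeUU : Fintype (UU F n) := Fintype.ofFinite _

/-- The element of `U` attached to a strictly upper triangular matrix. -/
noncomputable def uOf (y : Nc F n 1) : UU F n :=
  ⟨(isUnit_of_IsU (isU_of_Nc y.2)).unit, isU_of_Nc y.2⟩

theorem uOf_val (y : Nc F n 1) : (uOf y).1.val = 1 + y.1 := rfl

/-- The parametrization of `U`. -/
noncomputable def uEquiv : Nc F n 1 ≃ UU F n where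
  toFun := uOf
  invFun u := ⟨u.1.val - 1, sub_one_mem_Nc u.2⟩
  left_inv y := by
    apply Subtype.ext
    simp [uOf_val]
  right_inv u := by
    apply Subtype.ext
    apply Units.ext
    simp [uOf_val]

theorem sd_mul_zero {x y : Matrix (Fin n) (Fin n) F} (hx : x ∈ Nc F n 1) (hy : y ∈ Nc F n 1) :
    sd (x * y) = 0 := by
  unfold sd
  apply Finset.sum_eq_zero
  intro i _
  apply Finset.sum_eq_zero
  intro j _
  split_ifs with h
  · rw [Matrix.mul_apply]
    apply Finset.sum_eq_zero
    intro k _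
    by_cases h1 : i.val < k.val
    · have h2 : y k j = 0 := by
        apply hy
        intro h3
        omega
      rw [h2, mul_zero]
    · have h2 : x i k = 0 := by
        apply hx
        intro h3
        omega
      rw [h2, zero_mul]
  · rfl

theorem sd_uu (a b : UU F n) :
    sd ((a * b : UU F n).1.val - 1) = sd (a.1.val - 1) + sd (b.1.val - 1) := by
  have h : (a * b : UU F n).1.val - 1 =
      (a.1.val - 1) + (b.1.val - 1) + (a.1.val - 1) * (b.1.val - 1) := by
    show a.1.val * b.1.val - 1 = _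
    noncomm_ring
  rw [h, sd_add, sd_add, sd_mul_zero (sub_one_mem_Nc a.2) (sub_one_mem_Nc b.2), add_zero]

/-- The non-degenerate character of `U`. -/
noncomputable def psiU (ψ : AddChar F ℂ) : UU F n →* ℂˣ :=
  MonoidHom.mk' (fun u => (ψ.val_isUnit (sd (u.1.val - 1))).unit) (by
    intro a b
    apply Units.ext
    show ψ (sd ((a * b : UU F n).1.val - 1)) = ψ (sd (a.1.val - 1)) * ψ (sd (b.1.val - 1))
    rw [sd_uu, AddChar.map_add_eq_mul])

theorem psiU_coe (ψ : AddChar F ℂ) (u : UU F n) :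
    ((psiU ψ u : ℂˣ) : ℂ) = ψ (sd (u.1.val - 1)) := rfl

/-- The Whittaker coefficient is the multiplicity in the Gelfand–Graev representation. -/
theorem gam_eq (ψ : AddChar F ℂ) (f : GLn F n → ℂ) : gam (psiU ψ) f = gamL ψ n f := by
  rw [gamL_apply]
  unfold gam classInner AA BB
  congr 1
  · rw [Nat.card_congr (uEquiv (F := F) (n := n)).symm, Nat.card_eq_fintype_card]
  · symm
    apply Fintype.sum_equiv (uEquiv (F := F) (n := n))
    intro y
    have h1 : lift n f n (1 + y.1) = f (uEquiv y).1 := by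
      have := lift_coe n f (uEquiv y).1
      rw [← this]
      rfl
    have h2 : ψ (sd y.1) = ((psiU ψ (uEquiv y) : ℂˣ) : ℂ) := by
      rw [psiU_coe]
      congr 2
      show y.1 = (1 + y.1) - 1
      simp
    rw [h1, h2]

/-! ### Monomial matrices -/

/-- An invertible diagonal matrix. -/
def diagU (t : Fin n → Fˣ) : GLn F n where
  val := Matrix.diagonal (fun i => ((t i : Fˣ) : F))
  inv := Matrix.diagonal (fun i => (((t i)⁻¹ : Fˣ) : F))
  val_inv := by
    rw [Matrix.diagonal_mul_diagonal]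
    simp [Matrix.diagonal_one]
  inv_val := by
    rw [Matrix.diagonal_mul_diagonal]
    simp [Matrix.diagonal_one]

theorem diagU_inv_val (t : Fin n → Fˣ) :
    ((diagU t)⁻¹ : GLn F n).val = Matrix.diagonal (fun i => (((t i)⁻¹ : Fˣ) : F)) := rfl

/-- The index set of the monomial matrices. -/
abbrev Mn (F : Type u) [Field F] (n : ℕ) := Equiv.Perm (Fin n) × (Fin n → Fˣ)

noncomputable instance instFintypeMn : Fintype (Mn F n) := Fintype.ofFinite _

/-- The monomial matrix. -/
def mm (p : Mn F n) : GLn F n := permGL F p.1 * diagU p.2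

theorem mm_apply (p : Mn F n) (i k : Fin n) :
    (mm p).val i k = if i = p.1 k then ((p.2 k : Fˣ) : F) else 0 := by
  show (permM F p.1 * Matrix.diagonal (fun i => ((p.2 i : Fˣ) : F))) i k = _
  rw [Matrix.mul_diagonal, permM_apply]
  split_ifs <;> simp

theorem mul_mm_apply (A : Matrix (Fin n) (Fin n) F) (p : Mn F n) (i k : Fin n) :
    (A * (mm p).val) i k = A i (p.1 k) * (p.2 k : Fˣ) := by
  rw [Matrix.mul_apply, Finset.sum_eq_single (p.1 k)]
  · rw [mm_apply, if_pos rfl]
  · intro l _ hl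
    rw [mm_apply, if_neg hl, mul_zero]
  · intro h
    exact absurd (Finset.mem_univ _) h

theorem mm_mul_apply (p : Mn F n) (B : Matrix (Fin n) (Fin n) F) (l k : Fin n) :
    ((mm p).val * B) (p.1 l) k = (p.2 l : Fˣ) * B l k := by
  rw [Matrix.mul_apply, Finset.sum_eq_single l]
  · rw [mm_apply, if_pos rfl]
  · intro m _ hm
    rw [mm_apply, if_neg (fun h => hm (p.1.injective h).symm), zero_mul]
  · intro h
    exact absurd (Finset.mem_univ _) h

theorem perm_eq_one_of_le (τ : Equiv.Perm (Fin n)) (h : ∀ k, τ k ≤ k) : τ = 1 := by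
  have key : ∀ m : ℕ, ∀ k : Fin n, k.val = m → τ k = k := by
    intro m
    induction m using Nat.strong_induction_on with
    | _ m ih =>
      intro k hk
      by_contra hne
      have h1 : τ k < k := lt_of_le_of_ne (h k) hne
      have h2 := ih (τ k).val (by rw [← hk]; exact h1) (τ k) rfl
      exact hne (τ.injective h2)
  ext k
  rw [key k.val k rfl]
  rfl

/-- Uniqueness of the monomial part. -/
theorem mm_eq_of_mul_eq {A B : Matrix (Fin n) (Fin n) F} (hA : IsU A) (hB : IsU B) (p q : Mn F n)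
    (h : A * (mm p).val = (mm q).val * B) : p = q := by
  have h1 : ∀ k : Fin n, (p.2 k : F) = (q.2 (q.1⁻¹ (p.1 k)) : F) * B (q.1⁻¹ (p.1 k)) k := by
    intro k
    have h2 := congrFun (congrFun h (p.1 k)) k
    rw [mul_mm_apply, hA.diag, one_mul] at h2
    rw [h2]
    have h3 := mm_mul_apply q B (q.1⁻¹ (p.1 k)) k
    simpa using h3
  have h2 : ∀ k : Fin n, (q.1⁻¹ * p.1) k ≤ k := by
    intro k
    by_contra hc
    have h3 : k < q.1⁻¹ (p.1 k) := not_le.1 hc
    have h4 := h1 k
    rw [hB.zero_of_lt h3, mul_zero] at h4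
    exact (p.2 k).ne_zero h4
  have h3 := perm_eq_one_of_le _ h2
  have h4 : p.1 = q.1 := by
    have := congrArg (fun f => q.1 * f) h3
    simpa using this
  apply Prod.ext h4
  funext k
  apply Units.ext
  have h5 := h1 k
  rw [h4] at h5
  have h6 : q.1⁻¹ (q.1 k) = k := by simp
  rw [h6, hB.diag, mul_one] at h5
  exact h5

/-- The double cosets of the monomial matrices are disjoint. -/
theorem mm_D2 (p q : Mn F n) (a b a' b' : UU F n)
    (h : ((a : GLn F n)) * mm p * b = a' * mm q * b') : p = q := by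
  have h1 : ((a' : GLn F n)⁻¹ * a) * mm p = mm q * ((b' : GLn F n) * (b : GLn F n)⁻¹) := by
    calc ((a' : GLn F n)⁻¹ * a) * mm p = (a' : GLn F n)⁻¹ * ((a : GLn F n) * mm p * b) * (b : GLn F n)⁻¹ := by group
      _ = (a' : GLn F n)⁻¹ * ((a' : GLn F n) * mm q * b') * (b : GLn F n)⁻¹ := by rw [h]
      _ = _ := by group
  have hA : IsU ((a' : GLn F n)⁻¹ * a).val := (UU F n).mul_mem ((UU F n).inv_mem a'.2) a.2
  have hB : IsU ((b' : GLn F n) * (b : GLn F n)⁻¹).val := (UU F n).mul_mem b'.2 ((UU F n).inv_mem b.2)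
  exact mm_eq_of_mul_eq hA hB p q (congrArg Units.val h1)

/-- The Bruhat decomposition with monomial matrices. -/
theorem mm_D1 (x : GLn F n) : ∃ (p : Mn F n) (a b : UU F n), x = a * mm p * b := by
  obtain ⟨P, P', w, hP, hP', e⟩ := bruhat x
  have hd : ∀ (Q : GLn F n), Q ∈ upperTriangularGL n F → ∀ i, Q.val i i ≠ 0 := by
    intro Q hQ i
    have h := (Matrix.isUnit_iff_isUnit_det _).mp Q.isUnit
    rw [Matrix.det_of_isUpperTriangular hQ] at h
    exact Finset.prod_ne_zero_iff.mp h.ne_zero i (Finset.mem_univ i)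
  let d : Fin n → Fˣ := fun i => Units.mk0 _ (hd P hP i)
  let d' : Fin n → Fˣ := fun i => Units.mk0 _ (hd P' hP' i)
  let t : Fin n → Fˣ := fun k => d (w k) * d' k
  have ha : P * (diagU d)⁻¹ ∈ UU F n := by
    intro i j hij
    show (P.val * Matrix.diagonal (fun i => (((d i)⁻¹ : Fˣ) : F))) i j = _
    rw [Matrix.mul_diagonal]
    rcases lt_or_eq_of_le hij with h | h
    · have : P.val i j = 0 := hP h
      rw [this, zero_mul, Matrix.one_apply_ne h.ne']
    · subst h
      simp [d, hd P hP]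
  have hb : (diagU d')⁻¹ * P' ∈ UU F n := by
    intro i j hij
    show (Matrix.diagonal (fun i => (((d' i)⁻¹ : Fˣ) : F)) * P'.val) i j = _
    rw [Matrix.diagonal_mul]
    rcases lt_or_eq_of_le hij with h | h
    · have : P'.val i j = 0 := hP' h
      rw [this, mul_zero, Matrix.one_apply_ne h.ne']
    · subst h
      simp [d', hd P' hP']
  refine ⟨(w, t), ⟨_, ha⟩, ⟨_, hb⟩, ?_⟩
  have hm : mm (w, t) = diagU d * permGL F w * diagU d' := by
    apply Units.ext
    ext i k
    rw [mm_apply]
    show _ = (Matrix.diagonal (fun i => ((d i : Fˣ) : F)) * permM F w *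
      Matrix.diagonal (fun i => ((d' i : Fˣ) : F))) i k
    rw [Matrix.mul_diagonal, Matrix.diagonal_mul, permM_apply]
    by_cases h : i = w k
    · subst h
      simp [t]
    · simp [h]
  show x = P * (diagU d)⁻¹ * mm (w, t) * ((diagU d')⁻¹ * P')
  rw [hm, e]
  group

end Cfsg.Agent.Lib.HGGG
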