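import Mathlib
import Cfsg.Agent.Lib.HGGG
set_option autoImplicit false
set_option linter.unusedSectionVars false

/-!
# The relevant monomial matrices
-/

namespace Cfsg.Agent.Lib.HGGG

open Module Cfsg Cfsg.Agent.Lib.HGBasic Cfsg.Agent.Lib.HGAssoc Cfsg.Agent.Lib.HGGreen
  Cfsg.Agent.Lib.HGCusp Cfsg.Agent.Lib.HGAdj Cfsg.Agent.Lib.CharBasic Cfsg.Agent.Lib.CharInd
  Cfsg.Agent.Lib.HGChar Cfsg.Agent.Lib.HGMono Cfsg.Agent.Lib.HGDeg Cfsg.Agent.Lib.HGWhit
  Cfsg.Agent.Lib.HGGen Cfsg.Agent.Lib.HGGGAbs Cfsg.Agent.Lib.HGPerm Cfsg.Agent.Lib.Bruhat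
open scoped ComplexConjugate

universe u

variable {F : Type u} [Field F] [Finite F] {n : ℕ}

theorem mul_mm_eq_iff (A B : Matrix (Fin n) (Fin n) F) (p : Mn F n) :
    A * (mm p).val = (mm p).val * B ↔
      ∀ l k : Fin n, A (p.1 l) (p.1 k) * (p.2 k : Fˣ) = (p.2 l : Fˣ) * B l k := by
  constructor
  · intro h l k
    have h1 := congrFun (congrFun h (p.1 l)) k
    rw [mul_mm_apply, mm_mul_apply] at h1
    exact h1
  · intro h
    ext r k
    obtain ⟨l, rfl⟩ := p.1.surjective r
    rw [mul_mm_apply, mm_mul_apply]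
    exact h l k

/-- The relevant monomial matrices. -/
def Good (p : Mn F n) : Prop :=
  ∀ i j : Fin n, j.val = i.val + 1 → (p.1 i).val < (p.1 j).val →
    (p.1 j).val = (p.1 i).val + 1 ∧ p.2 i = p.2 j

theorem Good.good₀ {p : Mn F n} (h : Good p) : Good₀ p.1 := by
  intro i hi hlt
  have h1 := vv_coe p.1 ⟨i, by omega⟩
  have h2 := vv_coe p.1 ⟨i + 1, hi⟩
  simp only at h1 h2
  rw [h1, h2] at hlt ⊢
  exact (h _ _ rfl hlt).1

theorem asc_iff {w : Equiv.Perm (Fin n)} (i j : Fin n) (hj : j.val = i.val + 1) :
    (w i).val < (w j).val ↔ asc w i.val := by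
  have h1 := vv_coe w i
  have h2 := vv_coe w j
  constructor
  · intro h
    refine ⟨by omega, ?_⟩
    rw [← hj, h1, h2]
    exact h
  · rintro ⟨_, h⟩
    rw [← hj, h1, h2] at h
    exact h

theorem sd_single (a b : Fin n) (x : F) :
    sd (Matrix.single a b x) = if b.val = a.val + 1 then x else 0 := by
  classical
  unfold sd
  rw [Finset.sum_eq_single a, Finset.sum_eq_single b]
  · simp
  · intro j _ hj
    split_ifs
    · exact Matrix.single_apply_of_ne _ _ _ _ _ (fun h => hj h.2.symm)
    · rfl
  · intro h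
    exact absurd (Finset.mem_univ _) h
  · intro i _ hi
    apply Finset.sum_eq_zero
    intro j _
    split_ifs
    · exact Matrix.single_apply_of_ne _ _ _ _ _ (fun h => hi h.1.symm)
    · rfl
  · intro h
    exact absurd (Finset.mem_univ _) h

theorem single_mem_Nc {a b : Fin n} (h : a < b) (x : F) : Matrix.single a b x ∈ Nc F n 1 := by
  classical
  intro i j hij
  by_cases h1 : i = a ∧ j = b
  · obtain ⟨rfl, rfl⟩ := h1
    exfalso
    apply hij
    refine ⟨h, ?_⟩
    have : i.val < j.val := h
    omega
  · exact Matrix.single_apply_of_ne _ _ _ _ _ (fun h => h1 ⟨h.1.symm, h.2.symm⟩)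

/-- A relevant monomial matrix is good. -/
theorem good_of_rel {ψ : AddChar F ℂ} (hψ : ψ ≠ 1) {p : Mn F n} (h : Rel (psiU ψ) (mm p)) :
    Good p := by
  classical
  intro i j hij hlt
  set w := p.1 with hw
  set t := p.2 with ht
  set c : F := (((t i)⁻¹ * t j : Fˣ) : F) with hc
  have hc0 : c ≠ 0 := Units.ne_zero _
  have hij' : i < j := by
    rw [Fin.lt_def]
    omega
  have hlt' : w i < w j := hlt
  have hk : ∀ x : F, ψ (if (w j).val = (w i).val + 1 then x else 0) = ψ (c * x) := by
    intro x
    let a : UU F n := uOf ⟨Matrix.single (w i) (w j) x, single_mem_Nc hlt' x⟩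
    let b : UU F n := uOf ⟨Matrix.single i j (c * x), single_mem_Nc hij' _⟩
    have hab : (a : GLn F n) * mm p = mm p * (b : GLn F n) := by
      apply Units.ext
      show (1 + Matrix.single (w i) (w j) x) * (mm p).val = (mm p).val * (1 + Matrix.single i j (c * x))
      rw [mul_mm_eq_iff]
      intro l k
      simp only [Matrix.add_apply]
      have e1 : (1 : Matrix (Fin n) (Fin n) F) (w l) (w k) = (1 : Matrix (Fin n) (Fin n) F) l k := by
        by_cases h0 : l = k
        · subst h0
          simp
        · rw [Matrix.one_apply_ne h0, Matrix.one_apply_ne (fun h1 => h0 (w.injective h1))]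
      rw [e1]
      by_cases h0 : l = i ∧ k = j
      · obtain ⟨rfl, rfl⟩ := h0
        rw [Matrix.single_apply_same, Matrix.single_apply_same, Matrix.one_apply_ne hij'.ne]
        simp only [zero_add, hc, Units.val_mul]
        change x * (t k : F) = (t l : F) * ((((t l)⁻¹ : Fˣ) : F) * (t k : F) * x)
        rw [Units.val_inv_eq_inv_val]
        have := (t l).ne_zero
        field_simp
      · have e2 : Matrix.single (w i) (w j) x (w l) (w k) = 0 :=
          Matrix.single_apply_of_ne _ _ _ _ _ (fun h3 => h0 ⟨(w.injective h3.1).symm, (w.injective h3.2).symm⟩)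
        have e3 : Matrix.single i j (c * x) l k = 0 :=
          Matrix.single_apply_of_ne _ _ _ _ _ (fun h3 => h0 ⟨h3.1.symm, h3.2.symm⟩)
        rw [e2, e3]
        simp only [add_zero]
        by_cases h1 : l = k
        · subst h1
          simp [mul_comm]
        · rw [Matrix.one_apply_ne h1]
          simp
    have h1 := h a b hab
    have h2 := congrArg Units.val h1
    rw [psiU_coe, psiU_coe] at h2
    have h3 : a.1.val - 1 = Matrix.single (w i) (w j) x := by
      show (1 + Matrix.single (w i) (w j) x) - 1 = _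
      simp
    have h4 : b.1.val - 1 = Matrix.single i j (c * x) := by
      show (1 + Matrix.single i j (c * x)) - 1 = _
      simp
    rw [h3, h4, sd_single, sd_single, if_pos hij] at h2
    exact h2
  have hne : ∃ y, ψ y ≠ 1 := by
    by_contra hcon
    push Not at hcon
    apply hψ
    ext y
    rw [hcon y]
    simp
  obtain ⟨y, hy⟩ := hne
  have hstep : (w j).val = (w i).val + 1 := by
    by_contra hcon
    have h1 := hk (c⁻¹ * y)
    rw [if_neg hcon, AddChar.map_zero_eq_one, mul_inv_cancel_left₀ hc0] at h1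
    exact hy h1.symm
  refine ⟨hstep, ?_⟩
  by_contra hcon
  have hc1 : c - 1 ≠ 0 := by
    intro h1
    apply hcon
    have h2 : c = 1 := sub_eq_zero.1 h1
    have h3 : (t i)⁻¹ * t j = 1 := Units.ext h2
    exact (inv_mul_eq_one.1 h3)
  have h1 := hk ((c - 1)⁻¹ * y)
  rw [if_pos hstep] at h1
  have h2 : c * ((c - 1)⁻¹ * y) = y + (c - 1)⁻¹ * y := by
    field_simp
    ring
  rw [h2, AddChar.map_add_eq_mul] at h1
  have h3 : ψ ((c - 1)⁻¹ * y) ≠ 0 := (ψ.val_isUnit _).ne_zero
  have h4 : ψ y = 1 := by
    apply mul_left_cancel₀ h3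
    rw [mul_one, mul_comm]
    exact h1.symm
  exact hy h4

/-- A good monomial matrix is relevant. -/
theorem rel_of_good (ψ : AddChar F ℂ) {p : Mn F n} (h : Good p) : Rel (psiU ψ) (mm p) := by
  classical
  intro a b hab
  have hG := h.good₀
  set w := p.1 with hw
  set t := p.2 with ht
  have hA : IsU a.1.val := a.2
  have hB : IsU b.1.val := b.2
  have hst := (mul_mm_eq_iff a.1.val b.1.val p).1 (congrArg Units.val hab)
  apply Units.ext
  rw [psiU_coe, psiU_coe]
  congr 1
  -- the superdiagonal sums coincide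
  have e1 : sd (a.1.val - 1) = ∑ l : Fin n, ∑ k : Fin n,
      if (w k).val = (w l).val + 1 then a.1.val (w l) (w k) else 0 := by
    unfold sd
    rw [← Equiv.sum_comp w]
    apply Finset.sum_congr rfl
    intro l _
    rw [← Equiv.sum_comp w]
    apply Finset.sum_congr rfl
    intro k _
    split_ifs with h1
    · have : w l ≠ w k := by
        intro h2
        rw [h2] at h1
        omega
      simp [Matrix.one_apply_ne this]
    · rfl
  have e2 : sd (b.1.val - 1) = ∑ l : Fin n, ∑ k : Fin n,
      if k.val = l.val + 1 then b.1.val l k else 0 := by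
    unfold sd
    apply Finset.sum_congr rfl
    intro l _
    apply Finset.sum_congr rfl
    intro k _
    split_ifs with h1
    · have : l ≠ k := by
        intro h2
        rw [h2] at h1
        omega
      simp [Matrix.one_apply_ne this]
    · rfl
  rw [e1, e2]
  apply Finset.sum_congr rfl
  intro l _
  apply Finset.sum_congr rfl
  intro k _
  by_cases hk : k.val = l.val + 1
  · rw [if_pos hk]
    have hlk : l < k := by
      rw [Fin.lt_def]
      omega
    by_cases hasc : (w l).val < (w k).val
    · obtain ⟨h1, h2⟩ := h l k hk hasc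
      rw [if_pos h1]
      have h3 := hst l k
      rw [← h2] at h3
      exact mul_right_cancel₀ (t l).ne_zero (by rw [h3, mul_comm])
    · have h1 : (w k).val ≠ (w l).val + 1 := by omega
      rw [if_neg h1]
      have h2 : w k < w l := by
        rw [Fin.lt_def]
        have : (w k).val ≠ (w l).val := fun h3 => by
          have := w.injective (Fin.ext h3)
          omega
        omega
      have h3 := hst l k
      rw [hA.zero_of_lt h2, zero_mul] at h3
      exact ((mul_eq_zero.1 h3.symm).resolve_left (t l).ne_zero).symm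
  · rw [if_neg hk]
    split_ifs with h1
    · have h2 : k < l ∨ l < k ∨ l = k := by
        rcases lt_trichotomy k l with h3 | h3 | h3
        · exact Or.inl h3
        · exact Or.inr (Or.inr h3.symm)
        · exact Or.inr (Or.inl h3)
      rcases h2 with h2 | h2 | h2
      · have h3 := hst l k
        rw [hB.zero_of_lt h2, mul_zero] at h3
        exact (mul_eq_zero.1 h3).resolve_right (t k).ne_zero
      · exfalso
        have h3 : vv w l.val < vv w k.val := by
          rw [vv_coe, vv_coe]
          omega
        have h4 := (good_lt_iff hG h2 k.2).1 h3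
        have h5 := good_P hG h2.le k.2 h4
        rw [vv_coe, vv_coe] at h5
        have h6 : l.val < k.val := h2
        omega
      · subst h2
        omega
    · rfl

theorem rel_iff_good {ψ : AddChar F ℂ} (hψ : ψ ≠ 1) {p : Mn F n} : Rel (psiU ψ) (mm p) ↔ Good p :=
  ⟨good_of_rel hψ, rel_of_good ψ⟩

end Cfsg.Agent.Lib.HGGG
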