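import Mathlib
import Cfsg.Agent.Lib.HGGG2
set_option autoImplicit false
set_option linter.unusedSectionVars false

/-!
# The anti-involution and the number of relevant monomial matrices
-/

namespace Cfsg.Agent.Lib.HGGG

open Module Cfsg Cfsg.Agent.Lib.HGBasic Cfsg.Agent.Lib.HGAssoc Cfsg.Agent.Lib.HGGreen
  Cfsg.Agent.Lib.HGCusp Cfsg.Agent.Lib.HGAdj Cfsg.Agent.Lib.CharBasic Cfsg.Agent.Lib.CharInd
  Cfsg.Agent.Lib.HGChar Cfsg.Agent.Lib.HGMono Cfsg.Agent.Lib.HGDeg Cfsg.Agent.Lib.HGWhit
  Cfsg.Agent.Lib.HGGen Cfsg.Agent.Lib.HGGGAbs Cfsg.Agent.Lib.HGPerm Cfsg.Agent.Lib.Bruhat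
open scoped ComplexConjugate

universe u

variable {F : Type u} [Field F] [Finite F] {n : ℕ}

/-- Transposition along the antidiagonal. -/
def sM (A : Matrix (Fin n) (Fin n) F) : Matrix (Fin n) (Fin n) F := fun i j => A (Fin.rev j) (Fin.rev i)

theorem sM_apply (A : Matrix (Fin n) (Fin n) F) (i j : Fin n) : sM A i j = A (Fin.rev j) (Fin.rev i) :=
  rfl

theorem sM_mul (A B : Matrix (Fin n) (Fin n) F) : sM (A * B) = sM B * sM A := by
  ext i j
  rw [Matrix.mul_apply, sM_apply, Matrix.mul_apply, ← Equiv.sum_comp (Fin.revPerm (n := n))]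
  apply Finset.sum_congr rfl
  intro k _
  simp [sM_apply, mul_comm]

theorem one_rev (i j : Fin n) :
    (1 : Matrix (Fin n) (Fin n) F) (Fin.rev j) (Fin.rev i) = (1 : Matrix (Fin n) (Fin n) F) i j := by
  by_cases h : i = j
  · subst h
    simp
  · rw [Matrix.one_apply_ne h, Matrix.one_apply_ne]
    intro h1
    exact h (Fin.rev_injective h1).symm

theorem sM_one : sM (1 : Matrix (Fin n) (Fin n) F) = 1 := by
  ext i j
  rw [sM_apply, one_rev]

theorem sM_sM (A : Matrix (Fin n) (Fin n) F) : sM (sM A) = A := by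
  ext i j
  simp [sM_apply]

theorem sM_sub_one (A : Matrix (Fin n) (Fin n) F) : sM (A - 1) = sM A - 1 := by
  ext i j
  simp only [sM_apply, Matrix.sub_apply]
  rw [one_rev]

/-- The anti-involution of `GL_n`. -/
def sigma (g : GLn F n) : GLn F n where
  val := sM g.val
  inv := sM (g⁻¹ : GLn F n).val
  val_inv := by
    rw [← sM_mul, Units.inv_mul, sM_one]
  inv_val := by
    rw [← sM_mul, Units.mul_inv, sM_one]

theorem sigma_val (g : GLn F n) : (sigma g).val = sM g.val := rfl

theorem sigma_mul (x y : GLn F n) : sigma (x * y) = sigma y * sigma x :=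
  Units.ext (sM_mul _ _)

theorem sigma_sigma (x : GLn F n) : sigma (sigma x) = x := Units.ext (sM_sM _)

theorem sigma_U {u : GLn F n} (hu : u ∈ UU F n) : sigma u ∈ UU F n := by
  intro i j hij
  rw [sigma_val, sM_apply, hu (Fin.rev j) (Fin.rev i) (Fin.rev_le_rev.2 hij), one_rev]

theorem sd_sM (y : Matrix (Fin n) (Fin n) F) : sd (sM y) = sd y := by
  unfold sd
  rw [Finset.sum_comm, ← Equiv.sum_comp (Fin.revPerm (n := n))]
  apply Finset.sum_congr rfl
  intro a _
  rw [← Equiv.sum_comp (Fin.revPerm (n := n))]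
  apply Finset.sum_congr rfl
  intro b _
  have h : (Fin.revPerm a).val = (Fin.revPerm b).val + 1 ↔ b.val = a.val + 1 := by
    simp only [Fin.revPerm_apply, Fin.val_rev]
    have := a.2
    have := b.2
    omega
  by_cases hc : b.val = a.val + 1
  · rw [if_pos (h.2 hc), if_pos hc]
    simp [sM_apply]
  · rw [if_neg (fun hh => hc (h.1 hh)), if_neg hc]

theorem psiU_sigma (ψ : AddChar F ℂ) (u : UU F n) :
    psiU ψ ⟨sigma u.1, sigma_U u.2⟩ = psiU ψ u := by
  apply Units.ext
  rw [psiU_coe, psiU_coe]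
  congr 1
  show sd (sM u.1.val - 1) = _
  rw [← sM_sub_one, sd_sM]

/-- The reflection of the block as an element of `Fin n`. -/
noncomputable def cF (w : Equiv.Perm (Fin n)) (k : Fin n) : Fin n :=
  ⟨cc (asc w) k.val, cc_lt (fun _ h => h.1) k.2⟩

theorem good_rev {p : Mn F n} (h : Good p) (k : Fin n) : p.1 k = Fin.rev (cF p.1 k) := by
  apply Fin.ext
  rw [good_val h.good₀, Fin.val_rev]
  have := (cF p.1 k).2
  show n - 1 - (cF p.1 k).val = _
  omega

theorem good_rev' {p : Mn F n} (h : Good p) (k : Fin n) : p.1 (cF p.1 k) = Fin.rev k := by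
  apply Fin.ext
  have h1 := good_cc h.good₀ k
  rw [Fin.val_rev]
  have := k.2
  show (p.1 ⟨cc (asc p.1) k.val, _⟩).val = _
  rw [h1]
  omega

theorem t_const {p : Mn F n} (h : Good p) {x y : ℕ} (hxy : x ≤ y) (hy : y < n)
    (hasc : ∀ j, x ≤ j → j < y → asc p.1 j) : p.2 ⟨x, by omega⟩ = p.2 ⟨y, hy⟩ := by
  induction y, hxy using Nat.le_induction with
  | base => rfl
  | succ y hxy ih =>
    rw [ih (by omega) (fun j h1 h2 => hasc j h1 (by omega))]
    have h1 := hasc y hxy (Nat.lt_succ_self y)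
    have h2 := (asc_iff (w := p.1) ⟨y, by omega⟩ ⟨y + 1, hy⟩ rfl).2 h1
    exact (h _ _ rfl h2).2

theorem t_cF {p : Mn F n} (h : Good p) (k : Fin n) : p.2 (cF p.1 k) = p.2 k := by
  have h1 := cc_connected h.good₀ k
  by_cases hk : k.val ≤ cc (asc p.1) k.val
  · have := t_const h hk (cF p.1 k).2 (fun j h2 h3 => h1 j (by omega) (by omega))
    exact this.symm
  · have hk' : cc (asc p.1) k.val ≤ k.val := by omega
    have := t_const h hk' k.2 (fun j h2 h3 => h1 j (by omega) (by omega))
    exact this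

/-- A relevant monomial matrix is fixed by the anti-involution. -/
theorem sigma_mm {p : Mn F n} (h : Good p) : sigma (mm p) = mm p := by
  classical
  apply Units.ext
  ext i k
  rw [sigma_val, sM_apply, mm_apply, mm_apply]
  by_cases hik : i = p.1 k
  · have h1 : Fin.rev i = cF p.1 k := by
      rw [hik, good_rev h k, Fin.rev_rev]
    rw [if_pos hik, h1, if_pos (good_rev' h k).symm, t_cF h]
  · rw [if_neg hik, if_neg]
    intro h2
    apply hik
    rw [good_rev h (Fin.rev i)] at h2
    have h3 : k = cF p.1 (Fin.rev i) := Fin.rev_injective h2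
    rw [h3, good_rev' h, Fin.rev_rev]

/-- The Gelfand data of `GL_n`. -/
theorem gelfandData {ψ : AddChar F ℂ} (hψ : ψ ≠ 1) : GelfandData (psiU (n := n) ψ) sigma where
  σ_mul := sigma_mul
  σ_inv := sigma_sigma
  σ_U := fun _ hu => sigma_U hu
  σ_ψ := psiU_sigma ψ
  σ_rel := by
    intro x hx
    obtain ⟨p, a, b, e⟩ := mm_D1 x
    have hm : Rel (psiU ψ) (mm p) := by
      intro a' b' h'
      have h1 := hx (a * a' * a⁻¹) (b⁻¹ * b' * b) (by
        rw [e]
        push_cast
        calc (a : GLn F n) * a' * (a : GLn F n)⁻¹ * (a * mm p * b) = a * (a' * mm p) * b := by group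
          _ = a * (mm p * b') * b := by rw [h']
          _ = a * mm p * b * ((b : GLn F n)⁻¹ * b' * b) := by group)
      have h2 : psiU ψ (a * a' * a⁻¹) = psiU ψ a' := by
        simp only [map_mul, map_inv]
        rw [mul_comm (psiU ψ a)]
        simp
      have h3 : psiU ψ (b⁻¹ * b' * b) = psiU ψ b' := by
        simp only [map_mul, map_inv]
        rw [mul_comm (psiU ψ b)⁻¹]
        simp
      rw [← h2, ← h3]
      exact h1
    have hg := good_of_rel hψ hm
    refine ⟨⟨sigma b, sigma_U b.2⟩ * a⁻¹, b⁻¹ * ⟨sigma a, sigma_U a.2⟩, ?_, ?_⟩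
    · rw [e, sigma_mul, sigma_mul, sigma_mm hg]
      push_cast
      group
    · simp only [map_mul, map_inv]
      rw [psiU_sigma, psiU_sigma]
      rw [mul_comm (psiU ψ b)⁻¹, mul_mul_mul_comm]
      simp

/-- **Multiplicity one for the Gelfand–Graev representation.** -/
theorem gamL_zero_or_one {ψ : AddChar F ℂ} (hψ : ψ ≠ 1) (π : IrrCharacter (GLn F n)) :
    gamL ψ n π.1 = 0 ∨ gamL ψ n π.1 = 1 := by
  rw [← gam_eq]
  exact gam_zero_or_one (gelfandData hψ) π.2

theorem card_gen_eq_good {ψ : AddChar F ℂ} (hψ : ψ ≠ 1) :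
    Nat.card {π : IrrCharacter (GLn F n) // gamL ψ n π.1 ≠ 0} = Nat.card {p : Mn F n // Good p} := by
  have h1 := card_gam_ne_zero (U := UU F n) (ψ := psiU ψ) (mm (F := F) (n := n))
    (fun x => mm_D1 x) (fun i j a b a' b' h => mm_D2 i j a b a' b' h)
    (fun χ => gam_zero_or_one (gelfandData hψ) χ.2)
  simp_rw [gam_eq] at h1
  rw [h1]
  exact Nat.card_congr (Equiv.subtypeEquivRight (fun p => rel_iff_good hψ))

/-! ### The count of the relevant monomial matrices -/

section Count

variable {d : ℕ}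

open Classical in
/-- The encoding of the relevant monomial matrices. -/
noncomputable def encG (p : {p : Mn F (d + 1) // Good p}) : Fˣ × (Fin d → F) :=
  (p.1.2 0, fun i => if asc p.1.1 i.val then 0 else ((p.1.2 i.succ / p.1.2 i.castSucc : Fˣ) : F))

theorem encG_inj : Function.Injective (encG (F := F) (d := d)) := by
  classical
  rintro ⟨p, hp⟩ ⟨q, hq⟩ h
  have h1 : p.2 0 = q.2 0 := congrArg Prod.fst h
  have h2 : ∀ i : Fin d, (if asc p.1 i.val then (0 : F) else ((p.2 i.succ / p.2 i.castSucc : Fˣ) : F)) =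
      (if asc q.1 i.val then (0 : F) else ((q.2 i.succ / q.2 i.castSucc : Fˣ) : F)) :=
    fun i => congrFun (congrArg Prod.snd h) i
  have h3 : ∀ i : ℕ, asc p.1 i ↔ asc q.1 i := by
    intro i
    by_cases hi : i < d
    · have h4 := h2 ⟨i, hi⟩
      simp only at h4
      by_cases h5 : asc p.1 i
      · rw [if_pos h5] at h4
        refine ⟨fun _ => ?_, fun _ => h5⟩
        by_contra h6
        rw [if_neg h6] at h4
        exact Units.ne_zero _ h4.symm
      · rw [if_neg h5] at h4
        refine ⟨fun h7 => absurd h7 h5, fun h6 => ?_⟩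
        rw [if_pos h6] at h4
        exact absurd h4 (Units.ne_zero _)
    · constructor
      · intro h4
        have := h4.1
        omega
      · intro h4
        have := h4.1
        omega
  have h4 : p.1 = q.1 := good_unique hp.good₀ hq.good₀ h3
  apply Subtype.ext
  apply Prod.ext h4
  funext k
  induction k using Fin.induction with
  | zero => exact h1
  | succ i ih =>
    by_cases h5 : asc p.1 i.val
    · have h6 : asc q.1 i.val := (h3 _).1 h5
      have e1 : p.2 i.castSucc = p.2 i.succ :=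
        (hp i.castSucc i.succ (by simp) ((asc_iff i.castSucc i.succ (by simp)).2 h5)).2
      have e2 : q.2 i.castSucc = q.2 i.succ :=
        (hq i.castSucc i.succ (by simp) ((asc_iff i.castSucc i.succ (by simp)).2 h6)).2
      rw [← e1, ← e2, ih]
    · have h6 : ¬ asc q.1 i.val := fun h7 => h5 ((h3 _).2 h7)
      have h7 := h2 i
      rw [if_neg h5, if_neg h6] at h7
      have h8 : p.2 i.succ / p.2 i.castSucc = q.2 i.succ / q.2 i.castSucc := Units.ext h7
      rw [ih] at h8
      exact div_left_inj.1 h8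

open Classical in
/-- The recursively defined diagonal. -/
noncomputable def tRec (t₀ : Fˣ) (f : Fin d → F) : Fin (d + 1) → Fˣ :=
  Fin.induction t₀ (fun i x => if h : f i = 0 then x else x * Units.mk0 (f i) h)

theorem encG_surj : Function.Surjective (encG (F := F) (d := d)) := by
  classical
  rintro ⟨t₀, f⟩
  let S : ℕ → Prop := fun j => ∃ h : j < d, f ⟨j, h⟩ = 0
  have hS : ∀ j, S j → j + 1 < d + 1 := fun j h => by
    obtain ⟨h1, _⟩ := h
    omega
  let w := wS (d + 1) S hS
  let t := tRec t₀ f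
  have hz : t 0 = t₀ := rfl
  have hsucc : ∀ i : Fin d, t i.succ = if h : f i = 0 then t i.castSucc else t i.castSucc * Units.mk0 (f i) h := by
    intro i
    simp only [t, tRec, Fin.induction_succ]
  have hasc : ∀ i : Fin d, asc w i.val ↔ f i = 0 := by
    intro i
    rw [wS_asc]
    constructor
    · rintro ⟨h1, h2⟩
      exact h2
    · intro h
      exact ⟨i.2, h⟩
  have hG : Good ((w, t) : Mn F (d + 1)) := by
    intro i j hij hlt
    have hd : i.val < d := by
      have := j.2
      omega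
    obtain ⟨i', rfl⟩ : ∃ i' : Fin d, i = i'.castSucc := ⟨⟨i.val, hd⟩, Fin.ext rfl⟩
    obtain ⟨j', rfl⟩ : ∃ j' : Fin d, j = j'.succ := ⟨⟨i'.val, hd⟩, Fin.ext (by simpa using hij)⟩
    have hj' : j' = i' := Fin.ext (by simpa using hij)
    subst hj'
    have h1 := (asc_iff (w := w) j'.castSucc j'.succ (by simp)).1 hlt
    have h2 := wS_good hS _ h1.1 h1.2
    have e1 := vv_coe w j'.castSucc
    have e2 := vv_coe w j'.succ
    simp only [Fin.val_castSucc, Fin.val_succ] at e1 e2
    refine ⟨?_, ?_⟩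
    · show (w j'.succ).val = (w j'.castSucc).val + 1
      rw [← e1, ← e2]
      exact h2
    · show t j'.castSucc = t j'.succ
      rw [hsucc, dif_pos ((hasc j').1 h1)]
  refine ⟨⟨(w, t), hG⟩, ?_⟩
  apply Prod.ext hz
  funext i
  show (if asc w i.val then (0 : F) else ((t i.succ / t i.castSucc : Fˣ) : F)) = f i
  by_cases h : f i = 0
  · rw [if_pos ((hasc i).2 h), h]
  · rw [if_neg (fun h1 => h ((hasc i).1 h1)), hsucc, dif_neg h]
    simp

theorem card_good (d : ℕ) :
    Nat.card {p : Mn F (d + 1) // Good p} = (Nat.card F - 1) * Nat.card F ^ d := by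
  rw [Nat.card_eq_of_bijective _ ⟨encG_inj (F := F) (d := d), encG_surj⟩, Nat.card_prod,
    Nat.card_units, Nat.card_fun, Nat.card_fin]

end Count

/-- The number of generic characters of `GL_{d+1}`. -/
theorem card_gen_eq {ψ : AddChar F ℂ} (hψ : ψ ≠ 1) (d : ℕ) :
    Nat.card {π : IrrCharacter (GLn F (d + 1)) // gamL ψ (d + 1) π.1 ≠ 0} =
      (Nat.card F - 1) * Nat.card F ^ d := by
  rw [card_gen_eq_good hψ, card_good]

/-- The number of multisets of cuspidal characters of a given degree. -/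
theorem card_multiset {ψ : AddChar F ℂ} (hψ : ψ ≠ 1) (d : ℕ) :
    Nat.card {M : Multiset (CC F) // tdegM M = d + 1} = (Nat.card F - 1) * Nat.card F ^ d := by
  rw [← card_gen_eq hψ d]
  exact (card_gen (fun n _ π => gamL_zero_or_one hψ π) hψ (Nat.succ_pos d)).symm

end Cfsg.Agent.Lib.HGGG
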