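import Mathlib
import Cfsg.Agent.Lib.HGCount
set_option autoImplicit false
set_option linter.unusedSectionVars false

/-!
# Monic irreducible polynomials and multisets
-/

namespace Cfsg.Agent.Lib.HGPoly

open Polynomial Cfsg.Agent.Lib.HGCount

universe u

variable {F : Type u} [Field F] [Finite F]

/-- Monic irreducible polynomials different from `X` of degree `d + 1`. -/
abbrev Irr (F : Type u) [Field F] (d : ℕ) : Type u :=
  {p : F[X] // p.Monic ∧ Irreducible p ∧ p ≠ X ∧ p.natDegree = d + 1}

instance finite_deg (N : ℕ) : Finite {p : F[X] // p.natDegree ≤ N} := by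
  apply Finite.of_injective (fun p : {p : F[X] // p.natDegree ≤ N} => fun i : Fin (N + 1) => p.1.coeff i)
  intro p q h
  apply Subtype.ext
  ext k
  by_cases hk : k < N + 1
  · exact congrFun h ⟨k, hk⟩
  · rw [coeff_eq_zero_of_natDegree_lt (by have := p.2; omega),
      coeff_eq_zero_of_natDegree_lt (by have := q.2; omega)]

instance finite_Irr (d : ℕ) : Finite (Irr F d) :=
  Finite.of_injective (fun p : Irr F d => (⟨p.1, p.2.2.2.2.le⟩ : {p : F[X] // p.natDegree ≤ d + 1}))
    (fun p q h => Subtype.ext (congrArg (fun X : {p : F[X] // p.natDegree ≤ d + 1} => X.1) h))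

/-- The polynomial of an element. -/
def vl (x : Σ d, Irr F d) : F[X] := x.2.1

theorem vl_monic (x : Σ d, Irr F d) : (vl x).Monic := x.2.2.1

theorem vl_irr (x : Σ d, Irr F d) : Irreducible (vl x) := x.2.2.2.1

theorem vl_deg (x : Σ d, Irr F d) : (vl x).natDegree = dg (Irr F) x := x.2.2.2.2.2

theorem vl_injective : Function.Injective (vl (F := F)) := by
  rintro ⟨d, p⟩ ⟨d', p'⟩ h
  have h1 : p.1 = p'.1 := h
  have h2 : d = d' := by
    have e1 := p.2.2.2.2
    have e2 := p'.2.2.2.2
    rw [h1] at e1
    omega
  subst h2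
  have h3 : p = p' := Subtype.ext h1
  rw [h3]

theorem vl_coeff (x : Σ d, Irr F d) : (vl x).coeff 0 ≠ 0 := by
  intro h
  have h1 : X ∣ vl x := X_dvd_iff.2 h
  have h2 := Irreducible.associated_of_dvd irreducible_X (vl_irr x) h1
  exact x.2.2.2.2.1 (eq_of_monic_of_associated monic_X (vl_monic x) h2).symm

/-- The product of a multiset. -/
noncomputable def prodM (M : Multiset (Σ d, Irr F d)) : F[X] := (M.map vl).prod

theorem prodM_monic (M : Multiset (Σ d, Irr F d)) : (prodM M).Monic :=
  monic_multiset_prod_of_monic M vl (fun x _ => vl_monic x)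

theorem prodM_deg (M : Multiset (Σ d, Irr F d)) : (prodM M).natDegree = td (Irr F) M := by
  unfold prodM td
  rw [natDegree_multiset_prod_of_monic]
  · rw [Multiset.map_map]
    congr 1
    apply Multiset.map_congr rfl
    intro x _
    exact vl_deg x
  · intro f hf
    obtain ⟨x, _, rfl⟩ := Multiset.mem_map.1 hf
    exact vl_monic x

theorem prodM_coeff (M : Multiset (Σ d, Irr F d)) : (prodM M).coeff 0 ≠ 0 := by
  unfold prodM
  rw [coeff_zero_eq_eval_zero, eval_multiset_prod]
  apply Multiset.prod_ne_zero
  intro h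
  obtain ⟨f, hf, h1⟩ := Multiset.mem_map.1 h
  obtain ⟨x, _, rfl⟩ := Multiset.mem_map.1 hf
  apply vl_coeff x
  rw [coeff_zero_eq_eval_zero]
  exact h1

theorem prodM_inj {M M' : Multiset (Σ d, Irr F d)} (h : prodM M = prodM M') : M = M' := by
  classical
  have h1 : Multiset.Rel Associated (M.map vl) (M'.map vl) := by
    apply UniqueFactorizationMonoid.factors_unique
    · intro f hf
      obtain ⟨x, _, rfl⟩ := Multiset.mem_map.1 hf
      exact vl_irr x
    · intro f hf
      obtain ⟨x, _, rfl⟩ := Multiset.mem_map.1 hf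
      exact vl_irr x
    · unfold prodM at h
      rw [h]
      exact Associated.refl _
  have h2 : Multiset.Rel (fun a b : F[X] => a = b) (M.map vl) (M'.map vl) := by
    rw [Multiset.rel_map] at h1 ⊢
    exact h1.mono (fun a _ b _ hab => eq_of_monic_of_associated (vl_monic a) (vl_monic b) hab)
  have h3 : M.map vl = M'.map vl := Multiset.rel_eq.1 h2
  exact Multiset.map_injective vl_injective h3

/-- The polynomials in question. -/
abbrev Pn (F : Type u) [Field F] (n : ℕ) : Type u :=
  {p : F[X] // p.Monic ∧ p.natDegree = n + 1 ∧ p.coeff 0 ≠ 0}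

theorem prodM_surj {n : ℕ} (p : Pn F n) : ∃ M : Multiset (Σ d, Irr F d), prodM M = p.1 := by
  classical
  obtain ⟨p, hm, hd, hc⟩ := p
  have hp0 : p ≠ 0 := hm.ne_zero
  set N := UniqueFactorizationMonoid.normalizedFactors p with hN
  have h1 : ∀ q ∈ N, q.Monic ∧ Irreducible q ∧ q ≠ X ∧ q.natDegree = (q.natDegree - 1) + 1 := by
    intro q hq
    have hi : Irreducible q := UniqueFactorizationMonoid.irreducible_of_normalized_factor q hq
    refine ⟨?_, hi, ?_, ?_⟩
    · have h2 := UniqueFactorizationMonoid.normalize_normalized_factor q hq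
      rw [← h2]
      exact monic_normalize hi.ne_zero
    · rintro rfl
      have h2 : X ∣ p := UniqueFactorizationMonoid.dvd_of_mem_normalizedFactors hq
      exact hc (X_dvd_iff.1 h2)
    · have := Irreducible.natDegree_pos hi
      omega
  let g : ∀ q : F[X], q ∈ N → Σ d, Irr F d := fun q hq => ⟨q.natDegree - 1, ⟨q, h1 q hq⟩⟩
  refine ⟨N.pmap g (fun _ h => h), ?_⟩
  have h2 : (N.pmap g (fun _ h => h)).map vl = N := by
    rw [Multiset.map_pmap]
    conv_rhs => rw [← Multiset.map_id N]
    exact pmap_eq_map' _ _ _ _ (fun _ _ => rfl)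
  unfold prodM
  rw [h2]
  have h3 := UniqueFactorizationMonoid.prod_normalizedFactors hp0
  apply eq_of_monic_of_associated _ hm h3
  exact monic_multiset_prod_of_monic N id (fun q hq => (h1 q hq).1) |> fun h => by simpa using h

/-- Multisets and polynomials. -/
theorem card_MS_eq_Pn (n : ℕ) : Nat.card (MS (Irr F) (n + 1)) = Nat.card (Pn F n) := by
  apply Nat.card_eq_of_bijective (fun M : MS (Irr F) (n + 1) =>
    (⟨prodM M.1, prodM_monic M.1, by rw [prodM_deg, M.2], prodM_coeff M.1⟩ : Pn F n))
  constructor
  · intro M M' h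
    apply Subtype.ext
    exact prodM_inj (congrArg (fun X : Pn F n => X.1) h)
  · intro p
    obtain ⟨M, hM⟩ := prodM_surj p
    refine ⟨⟨M, ?_⟩, Subtype.ext hM⟩
    rw [← prodM_deg, hM]
    exact p.2.2.1

/-- The polynomial with given lower coefficients. -/
noncomputable def polyOf {n : ℕ} (x : Fˣ × (Fin n → F)) : F[X] :=
  X ^ (n + 1) + ∑ i : Fin (n + 1), C ((Fin.cons (x.1 : F) x.2 : Fin (n + 1) → F) i) * X ^ (i : ℕ)

theorem polyOf_coeff {n : ℕ} (x : Fˣ × (Fin n → F)) (k : Fin (n + 1)) :
    (polyOf x).coeff k.val = (Fin.cons (x.1 : F) x.2 : Fin (n + 1) → F) k := by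
  unfold polyOf
  rw [coeff_add, coeff_X_pow, if_neg (by have := k.2; omega), zero_add, finsetSum_coeff,
    Finset.sum_eq_single k]
  · rw [coeff_C_mul_X_pow, if_pos rfl]
  · intro b _ hb
    rw [coeff_C_mul_X_pow, if_neg]
    intro h
    exact hb (Fin.ext h.symm)
  · intro h
    exact absurd (Finset.mem_univ _) h

theorem polyOf_monic {n : ℕ} (x : Fˣ × (Fin n → F)) : (polyOf x).Monic :=
  monic_X_pow_add (degree_sum_fin_lt _)

theorem polyOf_deg {n : ℕ} (x : Fˣ × (Fin n → F)) : (polyOf x).natDegree = n + 1 := by
  unfold polyOf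
  have h : degree (∑ i : Fin (n + 1), C ((Fin.cons (x.1 : F) x.2 : Fin (n + 1) → F) i) * X ^ (i : ℕ)) <
      ((n + 1 : ℕ) : WithBot ℕ) := degree_sum_fin_lt _
  rw [natDegree_add_eq_left_of_degree_lt (by rwa [degree_X_pow])]
  simp

theorem card_Pn (n : ℕ) : Nat.card (Pn F n) = (Nat.card F - 1) * Nat.card F ^ n := by
  have h1 : Nat.card (Fˣ × (Fin n → F)) = Nat.card (Pn F n) := by
    apply Nat.card_eq_of_bijective (fun x : Fˣ × (Fin n → F) => (⟨polyOf x, polyOf_monic x, polyOf_deg x, by
      have := polyOf_coeff x 0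
      simp only [Fin.val_zero, Fin.cons_zero] at this
      rw [this]
      exact x.1.ne_zero⟩ : Pn F n))
    constructor
    · rintro ⟨u, f⟩ ⟨u', f'⟩ h
      have h0 : polyOf (u, f) = polyOf (u', f') := congrArg (fun X : Pn F n => X.1) h
      have h1 := polyOf_coeff (u, f) 0
      have h2 := polyOf_coeff (u', f') 0
      rw [h0, h2] at h1
      simp only [Fin.cons_zero] at h1
      have h3 : u = u' := Units.ext h1.symm
      have h4 : f = f' := by
        funext i
        have h5 := polyOf_coeff (u, f) i.succ
        have h6 := polyOf_coeff (u', f') i.succ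
        rw [h0, h6] at h5
        simpa using h5.symm
      rw [h3, h4]
    · rintro ⟨p, hm, hd, hc⟩
      refine ⟨(Units.mk0 _ hc, fun i => p.coeff (i.val + 1)), ?_⟩
      apply Subtype.ext
      show polyOf _ = p
      ext k
      by_cases hk : k < n + 1
      · have := polyOf_coeff (Units.mk0 _ hc, fun i : Fin n => p.coeff (i.val + 1)) ⟨k, hk⟩
        simp only at this
        rw [this]
        cases k with
        | zero => simp
        | succ k => 
          have e : (⟨k + 1, hk⟩ : Fin (n + 1)) = Fin.succ ⟨k, by omega⟩ := rfl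
          rw [e, Fin.cons_succ]
      · by_cases hk' : k = n + 1
        · subst hk'
          have h1 := polyOf_monic (Units.mk0 _ hc, fun i : Fin n => p.coeff (i.val + 1))
          have h2 := polyOf_deg (Units.mk0 _ hc, fun i : Fin n => p.coeff (i.val + 1))
          have e1 : (polyOf (Units.mk0 _ hc, fun i : Fin n => p.coeff (i.val + 1))).coeff (n + 1) = 1 := by
            rw [← h2]
            exact h1
          have e2 : p.coeff (n + 1) = 1 := by
            rw [← hd]
            exact hm
          rw [e1, e2]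
        · rw [coeff_eq_zero_of_natDegree_lt, coeff_eq_zero_of_natDegree_lt]
          · omega
          · rw [polyOf_deg]
            omega
  rw [← h1, Nat.card_prod, Nat.card_units, Nat.card_fun, Nat.card_fin]

theorem card_MS_Irr (n : ℕ) : Nat.card (MS (Irr F) (n + 1)) = (Nat.card F - 1) * Nat.card F ^ n := by
  rw [card_MS_eq_Pn, card_Pn]

/-! ### The number of irreducible polynomials -/

section Lower

variable {K : Type*} [Field K] [Algebra F K] [Finite K]

theorem minpoly_deg {d : ℕ} (hK : Module.finrank F K = d + 1) (a : Kˣ)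
    (ha : orderOf a = Nat.card Kˣ) : (minpoly F (a : K)).natDegree = d + 1 := by
  haveI : Module.Finite F K := Module.Finite.of_finite
  have hint : IsIntegral F (a : K) := IsIntegral.of_finite F _
  rw [← IntermediateField.adjoin.finrank hint]
  have htop : IntermediateField.adjoin F {(a : K)} = ⊤ := by
    rw [eq_top_iff]
    rintro x -
    by_cases hx : x = 0
    · rw [hx]
      exact zero_mem _
    · have h1 : Subgroup.zpowers a = ⊤ := by
        apply Subgroup.eq_top_of_card_eq
        rw [Nat.card_zpowers, ha]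
      have h2 : Units.mk0 x hx ∈ Subgroup.zpowers a := by
        rw [h1]
        trivial
      obtain ⟨k, hk⟩ := Subgroup.mem_zpowers_iff.1 h2
      have h3 : x = (a : K) ^ k := by
        have := congrArg Units.val hk
        simpa using this.symm
      rw [h3]
      exact zpow_mem (IntermediateField.mem_adjoin_simple_self F (a : K)) k
  rw [htop, IntermediateField.finrank_top', hK]

/-- A lower bound for the number of irreducible polynomials. -/
theorem totient_le_of_ext {d : ℕ} (hd : 1 ≤ d) (hK : Module.finrank F K = d + 1) :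
    Nat.totient (Nat.card K - 1) ≤ (d + 1) * Nat.card (Irr F d) := by
  classical
  letI : Fintype Kˣ := Fintype.ofFinite _
  haveI : Module.Finite F K := Module.Finite.of_finite
  have hcard : Fintype.card Kˣ = Nat.card K - 1 := by
    rw [← Nat.card_eq_fintype_card, Nat.card_units]
  set s : Finset Kˣ := Finset.univ.filter (fun a => orderOf a = Fintype.card Kˣ) with hs
  have h1 : s.card = Nat.totient (Nat.card K - 1) := by
    rw [← hcard]
    exact IsCyclic.card_orderOf_eq_totient (dvd_refl _)
  let f : Kˣ → F[X] := fun a => minpoly F (a : K)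
  have hmem : ∀ a ∈ s, f a ∈ {p : F[X] | p.Monic ∧ Irreducible p ∧ p ≠ X ∧ p.natDegree = d + 1} := by
    intro a ha
    have ha' : orderOf a = Nat.card Kˣ := by
      rw [Nat.card_eq_fintype_card]
      exact (Finset.mem_filter.1 ha).2
    have hint : IsIntegral F (a : K) := IsIntegral.of_finite F _
    have hdeg := minpoly_deg hK a ha'
    refine ⟨minpoly.monic hint, minpoly.irreducible hint, ?_, hdeg⟩
    intro h
    show False
    rw [show minpoly F (a : K) = X from h, natDegree_X] at hdeg
    omega
  have h2 := Finset.card_le_mul_card_image (f := f) s (d + 1) (by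
    intro g hg
    obtain ⟨a₀, ha₀, rfl⟩ := Finset.mem_image.1 hg
    have hdeg := (hmem a₀ ha₀).2.2.2
    have hne : (f a₀).map (algebraMap F K) ≠ 0 :=
      (Polynomial.map_ne_zero_iff (algebraMap F K).injective).2 (hmem a₀ ha₀).2.1.ne_zero
    calc (s.filter (fun x => f x = f a₀)).card
        ≤ (((f a₀).map (algebraMap F K)).roots.toFinset).card := by
          apply Finset.card_le_card_of_injOn (fun x : Kˣ => (x : K))
          · intro x hx
            have hx' := (Finset.mem_filter.1 (Finset.mem_coe.1 hx)).2
            simp only [Finset.mem_coe, Multiset.mem_toFinset]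
            rw [mem_roots hne, IsRoot.def, eval_map_algebraMap, ← hx']
            exact minpoly.aeval F (x : K)
          · intro x _ y _ hxy
            exact Units.ext hxy
      _ ≤ ((f a₀).map (algebraMap F K)).roots.card := Multiset.toFinset_card_le _
      _ ≤ ((f a₀).map (algebraMap F K)).natDegree := card_roots' _
      _ = d + 1 := by
        rw [natDegree_map, hdeg])
  have h3 : (s.image f).card ≤ Nat.card (Irr F d) := by
    have hfin : ({p : F[X] | p.Monic ∧ Irreducible p ∧ p ≠ X ∧ p.natDegree = d + 1}).Finite :=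
      Set.finite_coe_iff.1 (finite_Irr (F := F) d)
    have h4 : ((s.image f : Finset F[X]) : Set F[X]) ⊆
        {p : F[X] | p.Monic ∧ Irreducible p ∧ p ≠ X ∧ p.natDegree = d + 1} := by
      intro g hg
      obtain ⟨a, ha, rfl⟩ := Finset.mem_image.1 (Finset.mem_coe.1 hg)
      exact hmem a ha
    have h5 := Set.ncard_le_ncard h4 hfin
    rw [Set.ncard_coe_finset] at h5
    calc (s.image f).card ≤ _ := h5
      _ = Nat.card (Irr F d) := (Nat.card_coe_set_eq _).symm
  rw [← h1]
  calc s.card ≤ (d + 1) * (s.image f).card := h2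
    _ ≤ _ := Nat.mul_le_mul_left _ h3

end Lower

/-- The lower bound in terms of the order of the field. -/
theorem totient_div_le {d : ℕ} (hd : 1 ≤ d) :
    Nat.totient (Nat.card F ^ (d + 1) - 1) / (d + 1) ≤ Nat.card (Irr F d) := by
  classical
  let p := ringChar F
  haveI : Fact p.Prime := ⟨CharP.char_is_prime F _⟩
  haveI : CharP F p := ringChar.charP F
  let K := FiniteField.Extension F p (d + 1)
  haveI : Module.Finite F K := inferInstance
  haveI : Finite K := Module.finite_of_finite F
  have h1 := totient_le_of_ext (F := F) (K := K) hd (FiniteField.finrank_extension F p (d + 1))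
  rw [FiniteField.natCard_extension F p (d + 1)] at h1
  exact Nat.div_le_of_le_mul h1

end Cfsg.Agent.Lib.HGPoly
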