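import Mathlib
import Cfsg.Agent.Lib.HGGG3
import Cfsg.Agent.Lib.HGPoly
set_option autoImplicit false
set_option linter.unusedSectionVars false

/-!
# The number of cuspidal characters of `GL_n`
-/

namespace Cfsg.Agent.Lib.HGFinal

open Module Cfsg Cfsg.Agent.Lib.HGBasic Cfsg.Agent.Lib.HGAssoc Cfsg.Agent.Lib.HGGreen
  Cfsg.Agent.Lib.HGCusp Cfsg.Agent.Lib.HGAdj Cfsg.Agent.Lib.CharBasic Cfsg.Agent.Lib.CharInd
  Cfsg.Agent.Lib.HGChar Cfsg.Agent.Lib.HGMono Cfsg.Agent.Lib.HGDeg Cfsg.Agent.Lib.HGWhit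
  Cfsg.Agent.Lib.HGGen Cfsg.Agent.Lib.HGGGAbs Cfsg.Agent.Lib.HGPerm Cfsg.Agent.Lib.HGGG
  Cfsg.Agent.Lib.HGPoly Cfsg.Agent.Lib.HGCount
open scoped ComplexConjugate

universe u

variable {F : Type u} [Field F] [Finite F]

theorem exists_psi : ∃ ψ : AddChar F ℂ, ψ ≠ 1 := by
  obtain ⟨ψ, hψ⟩ := AddChar.exists_apply_ne_zero.2 (one_ne_zero : (1 : F) ≠ 0)
  refine ⟨ψ, ?_⟩
  rintro rfl
  exact hψ (by simp)

instance finite_CuspD (d : ℕ) : Finite (CuspD F d) := inferInstance

/-- **The number of cuspidal characters is the number of irreducible polynomials.** -/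
theorem card_CuspD (d : ℕ) : Nat.card (CuspD F (d + 1)) = Nat.card (Irr F d) := by
  obtain ⟨ψ, hψ⟩ := exists_psi (F := F)
  have hq : 1 < Nat.card F := Finite.one_lt_card
  have hpos : ∀ n, (Nat.card F - 1) * Nat.card F ^ n ≠ 0 := by
    intro n
    apply mul_ne_zero
    · omega
    · exact pow_ne_zero _ (by omega)
  apply card_eq_of_multiset (A := fun d => CuspD F (d + 1)) (B := Irr F)
  · intro n
    rw [card_MS_Irr]
    exact card_multiset hψ n
  · intro n
    have := card_multiset hψ n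
    show Nat.card {M : Multiset (CC F) // tdegM M = n + 1} ≠ 0
    rw [this]
    exact hpos n

/-- The degree of a cuspidal character. -/
theorem cusp_degree (d : ℕ) (c : CuspD F (d + 1)) :
    c.1.1 1 = ∏ i ∈ Finset.Ico 1 (d + 1), ((Nat.card F : ℂ) ^ i - 1) := by
  obtain ⟨ψ, hψ⟩ := exists_psi (F := F)
  let x : CC F := ⟨d, c⟩
  have h1 := deg_formula (chF_LL x).cl (cusp_LL x) hψ (n := d + 1) (by omega)
  have h2 : AA (LL x) ψ (d + 1) 1 = 1 := gam_LL (fun n _ π => gamL_zero_or_one hψ π) hψ x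
  rw [h2, mul_one] at h1
  rw [← h1]
  exact (lift_coe (d + 1) c.1.1 1).symm

section Sum

variable {m l : ℕ}

theorem blk_isU (u : (E F l) →ₗ[F] (E F m)) :
    IsU (1 + blk (0 : Matrix (Fin m) (Fin m) F) (LinearMap.toMatrix' u) (0 : Matrix (Fin l) (Fin l) F)) :=
  isU_of_Nc (blk_mem (Nc F m 1).zero_mem (Nc F l 1).zero_mem)

/-- The group element attached to a block. -/
noncomputable def gOf (u : (E F l) →ₗ[F] (E F m)) : GLn F (m + l) := (isUnit_of_IsU (blk_isU u)).unit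

theorem gOf_val (u : (E F l) →ₗ[F] (E F m)) :
    (gOf u).val = 1 + blk (0 : Matrix (Fin m) (Fin m) F) (LinearMap.toMatrix' u) (0 : Matrix (Fin l) (Fin l) F) :=
  rfl

theorem gOf_inj : Function.Injective (gOf (F := F) (m := m) (l := l)) := by
  intro u u' h
  have h1 := congrArg Units.val h
  rw [gOf_val, gOf_val] at h1
  have h2 := add_left_cancel h1
  apply LinearMap.toMatrix'.injective
  ext a b
  have := congrFun (congrFun h2 (Fin.castAdd l a)) (Fin.natAdd m b)
  simpa using this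

theorem gOf_cond (u : (E F l) →ₗ[F] (E F m)) (i j : Fin (m + l)) (h : ¬ (i.val < m ∧ m ≤ j.val)) :
    (gOf u).val i j = (1 : Matrix (Fin (m + l)) (Fin (m + l)) F) i j := by
  rw [gOf_val, Matrix.add_apply]
  suffices hs : blk (0 : Matrix (Fin m) (Fin m) F) (LinearMap.toMatrix' u) (0 : Matrix (Fin l) (Fin l) F) i j = 0 by
    rw [hs, add_zero]
  rcases fin_cases' i with ⟨a, rfl⟩ | ⟨a, rfl⟩ <;> rcases fin_cases' j with ⟨b, rfl⟩ | ⟨b, rfl⟩
  · simp
  · exfalso
    apply h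
    simp
  · simp
  · simp

theorem exists_gOf (g : GLn F (m + l))
    (h : ∀ i j : Fin (m + l), ¬ (i.val < m ∧ m ≤ j.val) →
      g.val i j = (1 : Matrix (Fin (m + l)) (Fin (m + l)) F) i j) : ∃ u, gOf u = g := by
  refine ⟨Matrix.toLin' (g.val.submatrix (Fin.castAdd l) (Fin.natAdd m)), ?_⟩
  apply Units.ext
  ext i j
  rw [gOf_val, Matrix.add_apply]
  rcases fin_cases' i with ⟨a, rfl⟩ | ⟨a, rfl⟩ <;> rcases fin_cases' j with ⟨b, rfl⟩ | ⟨b, rfl⟩
  · rw [blk_cc, h _ _ (by simp), Matrix.zero_apply, add_zero]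
  · rw [blk_cn, LinearMap.toMatrix'_toLin']
    have : (1 : Matrix (Fin (m + l)) (Fin (m + l)) F) (Fin.castAdd l a) (Fin.natAdd m b) = 0 := by
      apply Matrix.one_apply_ne
      intro h1
      have := congrArg Fin.val h1
      simp at this
      omega
    rw [this, zero_add]
    rfl
  · rw [blk_nc, h _ _ (by simp), add_zero]
  · rw [blk_nn, h _ _ (by simp), Matrix.zero_apply, add_zero]

/-- The sum of a cuspidal function over the unipotent radical. -/
theorem sum_radical {χ : GLn F (m + l) → ℂ} (hcl : IsClassFunction (GLn F (m + l)) χ)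
    (hc : Cusp (lift (m + l) χ)) (hm : 0 < m) (hl : 0 < l) :
    ∑ u : (E F l) →ₗ[F] (E F m), χ (gOf u) = 0 := by
  haveI : Nontrivial (E F m) := by
    haveI : Nonempty (Fin m) := ⟨⟨0, hm⟩⟩
    infer_instance
  haveI : Nontrivial (E F l) := by
    haveI : Nonempty (Fin l) := ⟨⟨0, hl⟩⟩
    infer_instance
  have hX := lift_isCl hcl
  have h1 := hc (E F m) (E F l) LinearMap.id LinearMap.id
  unfold rr at h1
  have h2 := (mul_eq_zero.1 h1).resolve_left (inv_ne_zero card_hom_ne_zero)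
  rw [← h2]
  apply Finset.sum_congr rfl
  intro u _
  have h3 : ev (lift (m + l) χ) (E F m × E F l) (gU LinearMap.id u LinearMap.id) =
      ev (lift (m + l) χ) (E F (m + l)) (Matrix.toLin' (gOf u).val) := by
    apply ev_congr hX (spl F m l)
    intro x
    have h4 := spl_intertwine (0 : Matrix (Fin m) (Fin m) F) (LinearMap.toMatrix' u)
      (0 : Matrix (Fin l) (Fin l) F) x
    simp only [add_zero, Matrix.toLin'_one, Matrix.toLin'_toMatrix'] at h4
    exact h4
  rw [h3, ev_toLin' hX, lift_coe]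

/-- The sum in the form of the statement. -/
theorem sum_cond [inst : Fintype (GLn F (m + l))] {χ : GLn F (m + l) → ℂ}
    (hcl : IsClassFunction (GLn F (m + l)) χ)
    (hc : Cusp (lift (m + l) χ)) (hm : 0 < m) (hl : 0 < l)
    [∀ g : GLn F (m + l), Decidable (∀ i j : Fin (m + l), ¬ (i.val < m ∧ m ≤ j.val) →
      g.val i j = (1 : Matrix (Fin (m + l)) (Fin (m + l)) F) i j)] :
    ∑ g : GLn F (m + l), (if (∀ i j : Fin (m + l), ¬ (i.val < m ∧ m ≤ j.val) →
      g.val i j = (1 : Matrix (Fin (m + l)) (Fin (m + l)) F) i j) then χ g else 0) = 0 := by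
  refine Eq.trans ?_ (sum_radical hcl hc hm hl)
  symm
  apply Fintype.sum_of_injective (gOf (F := F) (m := m) (l := l)) gOf_inj
  · intro g hg
    rw [if_neg]
    intro h
    obtain ⟨u, rfl⟩ := exists_gOf g h
    exact hg ⟨u, rfl⟩
  · intro u
    rw [if_pos (gOf_cond u)]

theorem sum_cond' {n m : ℕ} (hm : 0 < m) (hmn : m < n) [inst : Fintype (GLn F n)] {χ : GLn F n → ℂ}
    (hcl : IsClassFunction (GLn F n) χ) (hc : Cusp (lift n χ))
    [∀ g : GLn F n, Decidable (∀ i j : Fin n, ¬ (i.val < m ∧ m ≤ j.val) →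
      g.val i j = (1 : Matrix (Fin n) (Fin n) F) i j)] :
    ∑ g : GLn F n, (if (∀ i j : Fin n, ¬ (i.val < m ∧ m ≤ j.val) →
      g.val i j = (1 : Matrix (Fin n) (Fin n) F) i j) then χ g else 0) = 0 := by
  obtain ⟨l, rfl⟩ : ∃ l, n = m + l := ⟨n - m, by omega⟩
  exact sum_cond hcl hc hm (by omega)

end Sum

/-- The statement in terms of a `Finite` field. -/
theorem main_bound (d : ℕ) (hd : 1 ≤ d) [Fintype (GLn F (d + 1))]
    [∀ (g : GLn F (d + 1)) (m : ℕ), Decidable (∀ i j : Fin (d + 1), ¬ (i.val < m ∧ m ≤ j.val) →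
      g.val i j = (1 : Matrix (Fin (d + 1)) (Fin (d + 1)) F) i j)] :
    Nat.totient (Nat.card F ^ (d + 1) - 1) / (d + 1) ≤
      Nat.card {χ : IrrCharacter (GLn F (d + 1)) //
        χ.1 1 = ∏ i ∈ Finset.Ico 1 (d + 1), ((Nat.card F : ℂ) ^ i - 1) ∧
        ∀ m : ℕ, 0 < m → m < d + 1 →
          (∑ g : GLn F (d + 1),
            if (∀ i j : Fin (d + 1), ¬ (i.val < m ∧ m ≤ j.val) →
              g.val i j = (1 : Matrix (Fin (d + 1)) (Fin (d + 1)) F) i j)
            then χ.1 g else 0) = 0} := by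
  refine (totient_div_le hd).trans ?_
  rw [← card_CuspD]
  haveI : Finite (IrrCharacter (GLn F (d + 1))) := inferInstance
  apply Nat.card_le_card_of_injective
    (fun c : CuspD F (d + 1) => (⟨c.1, cusp_degree d c, ?_⟩ :
      {χ : IrrCharacter (GLn F (d + 1)) //
        χ.1 1 = ∏ i ∈ Finset.Ico 1 (d + 1), ((Nat.card F : ℂ) ^ i - 1) ∧
        ∀ m : ℕ, 0 < m → m < d + 1 →
          (∑ g : GLn F (d + 1),
            if (∀ i j : Fin (d + 1), ¬ (i.val < m ∧ m ≤ j.val) →
              g.val i j = (1 : Matrix (Fin (d + 1)) (Fin (d + 1)) F) i j)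
            then χ.1 g else 0) = 0}))
  · intro c c' h
    have h1 : c.1 = c'.1 := congrArg (fun X : {χ : IrrCharacter (GLn F (d + 1)) //
        χ.1 1 = ∏ i ∈ Finset.Ico 1 (d + 1), ((Nat.card F : ℂ) ^ i - 1) ∧
        ∀ m : ℕ, 0 < m → m < d + 1 →
          (∑ g : GLn F (d + 1),
            if (∀ i j : Fin (d + 1), ¬ (i.val < m ∧ m ≤ j.val) →
              g.val i j = (1 : Matrix (Fin (d + 1)) (Fin (d + 1)) F) i j)
            then χ.1 g else 0) = 0} => X.1) h
    exact Subtype.ext h1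
  · intro m hm hm'
    exact sum_cond' hm hm' (isClassFunction_of_isCharacter (IsIrrCharacter.isCharacter c.1.2)) c.2

end Cfsg.Agent.Lib.HGFinal
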