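import Mathlib

/-!
# An operator of prime order missing an eigenvalue has a large centralizer.
-/

set_option autoImplicit false

namespace Cfsg.Agent.Lib.HHMat

open Module

section

variable {K W : Type*} [Field K] [AddCommGroup W] [Module K W]

/-- The spectral idempotent of an operator with `G ^ ℓ = 1`. -/
noncomputable def spec (ℓ : ℕ) (G : End K W) (w : K) : End K W :=
  (ℓ : K)⁻¹ • ∑ i ∈ Finset.range ℓ, (w⁻¹) ^ i • G ^ i

theorem geom_eq_zero {ℓ : ℕ} {x : K} (hx : x ^ ℓ = 1) (hx1 : x ≠ 1) :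
    ∑ i ∈ Finset.range ℓ, x ^ i = 0 := by
  have h := geom_sum_mul x ℓ
  rw [hx, sub_self] at h
  exact (mul_eq_zero.1 h).resolve_right (sub_ne_zero.2 hx1)

theorem mul_spec {ℓ : ℕ} {G : End K W} (hℓ : 0 < ℓ) (hG : G ^ ℓ = 1) {w : K} (hw : w ^ ℓ = 1) :
    G * spec ℓ G w = w • spec ℓ G w := by
  have hw0 : w ≠ 0 := by
    rintro rfl
    rw [zero_pow hℓ.ne'] at hw
    exact zero_ne_one hw
  set f : ℕ → End K W := fun i => (w⁻¹) ^ i • G ^ i with hf
  have hshift : ∑ i ∈ Finset.range ℓ, f (i + 1) = ∑ i ∈ Finset.range ℓ, f i := by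
    have h1 := Finset.sum_range_succ f ℓ
    have h2 := Finset.sum_range_succ' f ℓ
    have h3 : f ℓ = f 0 := by
      simp only [hf]
      rw [hG, inv_pow, hw, inv_one, one_smul, pow_zero, pow_zero, one_smul]
    rw [h2, h3] at h1
    exact add_right_cancel h1
  have hstep : ∀ i, G * f i = w • f (i + 1) := by
    intro i
    simp only [hf]
    rw [mul_smul_comm, ← pow_succ', smul_smul]
    congr 1
    rw [pow_succ (w⁻¹)]
    field_simp
  have h5 : w • (w⁻¹) ^ (0 : ℕ) = w := by simp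
  unfold spec
  rw [mul_smul_comm, smul_comm w, Finset.mul_sum]
  congr 1
  rw [Finset.sum_congr rfl (fun i _ => hstep i), ← Finset.smul_sum, hshift]

theorem pow_mul_spec {ℓ : ℕ} {G : End K W} (hℓ : 0 < ℓ) (hG : G ^ ℓ = 1) {w : K} (hw : w ^ ℓ = 1)
    (i : ℕ) : G ^ i * spec ℓ G w = w ^ i • spec ℓ G w := by
  induction i with
  | zero => simp
  | succ i ih =>
    rw [pow_succ, mul_assoc, mul_spec hℓ hG hw, mul_smul_comm, ih, smul_smul, pow_succ']

open Classical in
theorem spec_mul_spec {ℓ : ℕ} {G : End K W} (hℓ : 0 < ℓ) (hℓK : (ℓ : K) ≠ 0) (hG : G ^ ℓ = 1)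
    {w v : K} (hw : w ^ ℓ = 1) (hv : v ^ ℓ = 1) :
    spec ℓ G w * spec ℓ G v = if w = v then spec ℓ G w else 0 := by
  have hw0 : w ≠ 0 := by
    rintro rfl
    rw [zero_pow hℓ.ne'] at hw
    exact zero_ne_one hw
  have h1 : spec ℓ G w * spec ℓ G v =
      (ℓ : K)⁻¹ • (∑ i ∈ Finset.range ℓ, (w⁻¹ * v) ^ i) • spec ℓ G v := by
    conv_lhs => rw [spec]
    rw [smul_mul_assoc, Finset.sum_mul]
    congr 1
    rw [Finset.sum_smul]
    refine Finset.sum_congr rfl (fun i _ => ?_)
    rw [smul_mul_assoc, pow_mul_spec hℓ hG hv, smul_smul, mul_pow]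
  rw [h1]
  split_ifs with hwv
  · subst hwv
    rw [inv_mul_cancel₀ hw0]
    simp only [one_pow, Finset.sum_const, Finset.card_range, nsmul_eq_mul, mul_one]
    rw [smul_smul, inv_mul_cancel₀ hℓK, one_smul]
  · rw [geom_eq_zero]
    · simp
    · rw [mul_pow, inv_pow, hw, hv, inv_one, one_mul]
    · intro h
      apply hwv
      have := (inv_mul_eq_one₀ hw0).1 h
      exact this

theorem sum_spec {ℓ : ℕ} {ζ : K} (hζ : IsPrimitiveRoot ζ ℓ) (hℓ : 0 < ℓ) (hℓK : (ℓ : K) ≠ 0)
    (G : End K W) : ∑ k : Fin ℓ, spec ℓ G (ζ ^ (k : ℕ)) = 1 := by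
  have hζ0 : ζ ≠ 0 := hζ.ne_zero hℓ.ne'
  unfold spec
  rw [← Finset.smul_sum]
  have h1 : ∑ k : Fin ℓ, ∑ i ∈ Finset.range ℓ, ((ζ ^ (k : ℕ))⁻¹) ^ i • G ^ i =
      ∑ i ∈ Finset.range ℓ, (∑ k : Fin ℓ, ((ζ ^ (k : ℕ))⁻¹) ^ i) • G ^ i := by
    rw [Finset.sum_comm]
    refine Finset.sum_congr rfl (fun i _ => ?_)
    rw [Finset.sum_smul]
  rw [h1]
  rw [Finset.sum_eq_single 0]
  · simp only [pow_zero, Finset.sum_const, Finset.card_univ, Fintype.card_fin, nsmul_eq_mul,
      mul_one, one_smul]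
    rw [smul_smul, inv_mul_cancel₀ hℓK, one_smul]
  · intro i hi hi0
    have h2 : ∑ k : Fin ℓ, ((ζ ^ (k : ℕ))⁻¹) ^ i = ∑ k ∈ Finset.range ℓ, ((ζ ^ i)⁻¹) ^ k := by
      rw [Finset.sum_range]
      refine Finset.sum_congr rfl (fun k _ => ?_)
      rw [inv_pow, inv_pow, ← pow_mul, ← pow_mul, mul_comm]
    rw [h2, geom_eq_zero, zero_smul]
    · rw [inv_pow, ← pow_mul, mul_comm, pow_mul, hζ.pow_eq_one, one_pow, inv_one]
    · intro h
      have h3 : ζ ^ i = 1 := by
        have := inv_eq_one.1 h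
        exact this
      have h4 := hζ.dvd_of_pow_eq_one i h3
      have h5 := Nat.le_of_dvd (Nat.pos_of_ne_zero hi0) h4
      have h6 := Finset.mem_range.1 hi
      omega
  · intro h
    exact absurd (Finset.mem_range.2 hℓ) h

end

section count

variable {K W : Type*} [Field K] [AddCommGroup W] [Module K W] [FiniteDimensional K W]

/-- **The count.**  If `G ^ ℓ = 1` misses an eigenvalue, the centralizer of `G` is large. -/
theorem sq_le_centralizer {ℓ : ℕ} {ζ : K} (hζ : IsPrimitiveRoot ζ ℓ) (hℓ : 0 < ℓ)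
    (hℓK : (ℓ : K) ≠ 0) {G : End K W} (hG : G ^ ℓ = 1) (j : Fin ℓ)
    (hmiss : spec ℓ G (ζ ^ (j : ℕ)) = 0) (F : Submodule K (End K W))
    (hF : ∀ X : End K W, G * X = X * G → X ∈ F) :
    (finrank K W) ^ 2 ≤ (ℓ - 1) * finrank K F := by
  classical
  set E : Fin ℓ → End K W := fun k => spec ℓ G (ζ ^ (k : ℕ)) with hE
  have hroot : ∀ k : Fin ℓ, (ζ ^ (k : ℕ)) ^ ℓ = 1 := fun k => by
    rw [← pow_mul, mul_comm, pow_mul, hζ.pow_eq_one, one_pow]
  have hinj : ∀ k m : Fin ℓ, ζ ^ (k : ℕ) = ζ ^ (m : ℕ) → k = m := fun k m h =>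
    Fin.ext (hζ.pow_inj k.2 m.2 h)
  have hEE : ∀ k m : Fin ℓ, E k * E m = if k = m then E k else 0 := by
    intro k m
    have := spec_mul_spec hℓ hℓK hG (hroot k) (hroot m)
    by_cases h : k = m
    · subst h
      simpa [hE] using this
    · have h2 : ζ ^ (k : ℕ) ≠ ζ ^ (m : ℕ) := fun h3 => h (hinj k m h3)
      simpa [hE, h, h2] using this
  have hsum : ∑ k, E k = 1 := sum_spec hζ hℓ hℓK G
  have hGE : ∀ k, G * E k = ζ ^ (k : ℕ) • E k := fun k => mul_spec hℓ hG (hroot k)
  -- the idempotent commutes with `G`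
  have hEG : ∀ k, E k * G = ζ ^ (k : ℕ) • E k := by
    intro k
    rw [← hGE k]
    simp only [hE, spec]
    rw [smul_mul_assoc, mul_smul_comm, Finset.sum_mul, Finset.mul_sum]
    congr 1
    refine Finset.sum_congr rfl (fun i _ => ?_)
    rw [smul_mul_assoc, mul_smul_comm, ← pow_succ, ← pow_succ']
  let Wk : Fin ℓ → Submodule K W := fun k => LinearMap.range (E k)
  let r : Fin ℓ → ℕ := fun k => finrank K (Wk k)
  have hEfix : ∀ k, ∀ v ∈ Wk k, E k v = v := by
    rintro k _ ⟨u, rfl⟩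
    have := congrArg (fun f : End K W => f u) (hEE k k)
    simpa using this
  have hEzero : ∀ k m, k ≠ m → ∀ v ∈ Wk m, E k v = 0 := by
    rintro k m hkm _ ⟨u, rfl⟩
    have := congrArg (fun f : End K W => f u) (hEE k m)
    simpa [hkm] using this
  -- dimension of `W`
  have hdim : finrank K W = ∑ k, r k := by
    let f : W →ₗ[K] (∀ k, Wk k) := LinearMap.pi (fun k => (E k).rangeRestrict)
    let g : (∀ k, Wk k) →ₗ[K] W :=
      ∑ k, (Wk k).subtype ∘ₗ LinearMap.proj k
    have hfg : ∀ v, g (f v) = v := by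
      intro v
      have := congrArg (fun f : End K W => f v) hsum
      simpa [f, g, LinearMap.sum_apply] using this
    have hgf : ∀ v, f (g v) = v := by
      intro v
      funext k
      apply Subtype.ext
      show E k (g v) = _
      simp only [g, LinearMap.sum_apply, LinearMap.comp_apply, Submodule.subtype_apply,
        LinearMap.proj_apply, map_sum]
      rw [Finset.sum_eq_single k]
      · exact hEfix k _ (v k).2
      · intro m _ hm
        exact hEzero k m (Ne.symm hm) _ (v m).2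
      · simp
    have e : W ≃ₗ[K] (∀ k, Wk k) := LinearEquiv.ofBijective f
      ⟨Function.LeftInverse.injective hfg, Function.RightInverse.surjective hgf⟩
    rw [e.finrank_eq, Module.finrank_pi_fintype]
  -- the big subspace of the centralizer
  have hsq : ∑ k, r k ^ 2 ≤ finrank K F := by
    let Φ : (∀ k, End K (Wk k)) →ₗ[K] End K W :=
      { toFun := fun X => ∑ k, (Wk k).subtype ∘ₗ (X k) ∘ₗ (E k).rangeRestrict
        map_add' := fun X Y => by
          rw [← Finset.sum_add_distrib]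
          refine Finset.sum_congr rfl (fun k _ => ?_)
          ext v
          simp
        map_smul' := fun c X => by
          rw [RingHom.id_apply, Finset.smul_sum]
          refine Finset.sum_congr rfl (fun k _ => ?_)
          ext v
          simp }
    have hΦ0 : ∀ X v, Φ X v = ∑ k, ((X k) ((E k).rangeRestrict v) : W) := by
      intro X v
      show (∑ k, (Wk k).subtype ∘ₗ (X k) ∘ₗ (E k).rangeRestrict) v = _
      simp [LinearMap.sum_apply]
    have hrr : ∀ k (v : Wk k), (E k).rangeRestrict (v : W) = v := fun k v =>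
      Subtype.ext (hEfix k _ v.2)
    have hrr0 : ∀ k m, k ≠ m → ∀ v ∈ Wk m, (E k).rangeRestrict v = 0 := fun k m h v hv =>
      Subtype.ext (hEzero k m h v hv)
    have hΦ : ∀ X k (v : Wk k), Φ X v = (X k v : W) := by
      intro X k v
      rw [hΦ0, Finset.sum_eq_single k]
      · rw [hrr]
      · intro m _ hm
        rw [hrr0 m k hm _ v.2, map_zero, Submodule.coe_zero]
      · simp
    have hΦinj : Function.Injective Φ := by
      intro X Y hXY
      funext k
      ext v
      rw [← hΦ X k v, ← hΦ Y k v, hXY]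
    have hΦF : ∀ X, Φ X ∈ F := by
      intro X
      apply hF
      ext v
      show G (Φ X v) = Φ X (G v)
      have hGW : ∀ k, ∀ u ∈ Wk k, G u = ζ ^ (k : ℕ) • u := by
        rintro k _ ⟨u, rfl⟩
        have := congrArg (fun f : End K W => f u) (hGE k)
        simpa using this
      rw [hΦ0, map_sum, hΦ0]
      refine Finset.sum_congr rfl (fun k _ => ?_)
      have h1 : (E k).rangeRestrict (G v) = ζ ^ (k : ℕ) • (E k).rangeRestrict v := by
        apply Subtype.ext
        have := congrArg (fun f : End K W => f v) (hEG k)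
        simpa using this
      rw [h1, map_smul, hGW k _ (X k _).2]
      rfl
    let Φ' : (∀ k, End K (Wk k)) →ₗ[K] F := Φ.codRestrict F hΦF
    have hΦ'inj : Function.Injective Φ' := fun X Y h => hΦinj (congrArg Subtype.val h)
    have h1 := LinearMap.finrank_le_finrank_of_injective hΦ'inj
    rw [Module.finrank_pi_fintype] at h1
    refine le_trans (le_of_eq ?_) h1
    refine Finset.sum_congr rfl (fun k _ => ?_)
    show finrank K (Wk k) ^ 2 = finrank K (Wk k →ₗ[K] Wk k)
    rw [Module.finrank_linearMap, pow_two]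
  -- Cauchy-Schwarz
  have hrj : r j = 0 := by
    have h1 : Wk j = ⊥ := by
      show LinearMap.range (E j) = ⊥
      have : E j = 0 := hmiss
      rw [this, LinearMap.range_zero]
    show finrank K (Wk j) = 0
    rw [h1, finrank_bot]
  have hcs : (∑ k, r k) ^ 2 ≤ (ℓ - 1) * ∑ k, r k ^ 2 := by
    have h0 : ∑ k, r k = ∑ k ∈ Finset.univ.erase j, r k :=
      (Finset.sum_erase _ hrj).symm
    have h0' : ∑ k, r k ^ 2 = ∑ k ∈ Finset.univ.erase j, r k ^ 2 :=
      (Finset.sum_erase _ (by rw [hrj]; simp)).symm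
    rw [h0, h0']
    have h2 := sq_sum_le_card_mul_sum_sq (s := Finset.univ.erase j) (f := fun k => (r k : ℝ))
    have h3 : (Finset.univ.erase j).card = ℓ - 1 := by
      rw [Finset.card_erase_of_mem (Finset.mem_univ j), Finset.card_univ, Fintype.card_fin]
    rw [h3] at h2
    have h4 : (((∑ k ∈ Finset.univ.erase j, r k) ^ 2 : ℕ) : ℝ) ≤
        (((ℓ - 1) * ∑ k ∈ Finset.univ.erase j, r k ^ 2 : ℕ) : ℝ) := by
      push_cast
      push_cast at h2
      exact h2
    exact_mod_cast h4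
  rw [hdim]
  exact hcs.trans (Nat.mul_le_mul_left _ hsq)

end count

end Cfsg.Agent.Lib.HHMat
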