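import Mathlib
import Cfsg.Agent.Lib.HHMat

/-!
# The averaging operator attached to a representation of a group which is scalar on a subgroup `Q`
with `J / Q` abelian and nondegenerate commutator form; the algebra spanned by the group is simple.
-/

set_option autoImplicit false

namespace Cfsg.Agent.Lib.HHAvg

open Module
open scoped commutatorElement

section basic

variable {J K M : Type*} [Group J] [Fintype J] [Field K] [AddCommGroup M] [Module K M]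

/-- Averaging over the conjugation action. -/
noncomputable def avg (ρ : J →* End K M) (T : End K M) : End K M :=
  (Fintype.card J : K)⁻¹ • ∑ x : J, ρ x * T * ρ x⁻¹

theorem rho_inv_mul (ρ : J →* End K M) (x : J) : ρ x⁻¹ * ρ x = 1 := by
  rw [← map_mul, inv_mul_cancel, map_one]

theorem rho_mul_inv (ρ : J →* End K M) (x : J) : ρ x * ρ x⁻¹ = 1 := by
  rw [← map_mul, mul_inv_cancel, map_one]

theorem avg_add (ρ : J →* End K M) (S T : End K M) : avg ρ (S + T) = avg ρ S + avg ρ T := by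
  unfold avg
  rw [← smul_add, ← Finset.sum_add_distrib]
  congr 1
  refine Finset.sum_congr rfl (fun x _ => ?_)
  rw [mul_add, add_mul]

theorem avg_smul (ρ : J →* End K M) (κ : K) (T : End K M) : avg ρ (κ • T) = κ • avg ρ T := by
  unfold avg
  have h : ∑ x : J, ρ x * (κ • T) * ρ x⁻¹ = κ • ∑ x : J, ρ x * T * ρ x⁻¹ := by
    rw [Finset.smul_sum]
    refine Finset.sum_congr rfl (fun x _ => ?_)
    rw [mul_smul_comm, smul_mul_assoc]
  rw [h, smul_comm]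

/-- `avg` as a linear map. -/
noncomputable def avgL (ρ : J →* End K M) : End K M →ₗ[K] End K M where
  toFun := avg ρ
  map_add' := avg_add ρ
  map_smul' := avg_smul ρ

theorem mul_avg (ρ : J →* End K M) (T : End K M) (y : J) : ρ y * avg ρ T = avg ρ T * ρ y := by
  unfold avg
  rw [mul_smul_comm, smul_mul_assoc, Finset.mul_sum, Finset.sum_mul]
  congr 1
  refine Fintype.sum_equiv (Equiv.mulLeft y) _ _ (fun x => ?_)
  simp only [Equiv.coe_mulLeft, map_mul, mul_inv_rev]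
  have h := rho_inv_mul ρ y
  calc ρ y * (ρ x * T * ρ x⁻¹) = ρ y * ρ x * T * ρ x⁻¹ * 1 := by simp only [mul_one, mul_assoc]
    _ = ρ y * ρ x * T * ρ x⁻¹ * (ρ y⁻¹ * ρ y) := by rw [h]
    _ = _ := by simp only [mul_assoc]

theorem avg_of_comm (ρ : J →* End K M) (hJ : (Fintype.card J : K) ≠ 0) {T : End K M}
    (hT : ∀ x, ρ x * T = T * ρ x) : avg ρ T = T := by
  unfold avg
  have : ∀ x : J, ρ x * T * ρ x⁻¹ = T := fun x => by
    rw [hT, mul_assoc, rho_mul_inv, mul_one]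
  simp only [this, Finset.sum_const, Finset.card_univ]
  rw [← Nat.cast_smul_eq_nsmul K, smul_smul, inv_mul_cancel₀ hJ, one_smul]

/-- Conjugation by an operator normalizing the image of `ρ` commutes with averaging. -/
theorem avg_conj (ρ : J →* End K M) (φ : J ≃* J) {c c' : End K M}
    (hc : ∀ x, c * ρ x = ρ (φ x) * c) (hcc' : c' * c = 1) (hcc'' : c * c' = 1) (T : End K M) :
    c * avg ρ T * c' = avg ρ (c * T * c') := by
  unfold avg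
  rw [mul_smul_comm, smul_mul_assoc, Finset.mul_sum, Finset.sum_mul]
  congr 1
  refine Fintype.sum_equiv φ.toEquiv _ _ (fun x => ?_)
  have h1 : ρ x⁻¹ * c' = c' * ρ (φ x)⁻¹ := by
    have h2 : c * ρ x⁻¹ = ρ (φ x)⁻¹ * c := by
      rw [hc, map_inv]
    calc ρ x⁻¹ * c' = (c' * c) * ρ x⁻¹ * c' := by rw [hcc', one_mul]
      _ = c' * (c * ρ x⁻¹) * c' := by simp only [mul_assoc]
      _ = c' * (ρ (φ x)⁻¹ * c) * c' := by rw [h2]
      _ = c' * ρ (φ x)⁻¹ * (c * c') := by simp only [mul_assoc]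
      _ = _ := by rw [hcc'', mul_one]
  calc c * (ρ x * T * ρ x⁻¹) * c' = (c * ρ x) * T * (ρ x⁻¹ * c') := by simp only [mul_assoc]
    _ = ρ (φ x) * c * T * (c' * ρ (φ x)⁻¹) := by rw [hc, h1]
    _ = _ := by
      simp only [mul_assoc]
      rfl

end basic

section scalar

variable {J K M : Type*} [Group J] [Fintype J] [Field K] [AddCommGroup M] [Module K M]
  [Nontrivial M] (ρ : J →* End K M) (Q : Subgroup J) (θ : Q →* Kˣ)

theorem rho_ne_zero (x : J) : ρ x ≠ 0 := by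
  intro h
  have h1 := rho_mul_inv ρ x
  rw [h, zero_mul] at h1
  exact zero_ne_one h1

theorem eq_of_smul_rho {κ κ' : K} {x : J} (h : κ • ρ x = κ' • ρ x) : κ = κ' := by
  have h1 : (κ - κ') • ρ x = 0 := by rw [sub_smul, h, sub_self]
  exact sub_eq_zero.1 ((smul_eq_zero.1 h1).resolve_right (rho_ne_zero ρ x))

variable (hρQ : ∀ q : Q, ρ q = ((θ q : Kˣ) : K) • 1) (hJQ : ∀ x y : J, ⁅x, y⁆ ∈ Q)

include hρQ in
theorem conj_rho (hJQ : ∀ x y : J, ⁅x, y⁆ ∈ Q) (y x : J) :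
    ρ y * ρ x * ρ y⁻¹ = ((θ ⟨⁅y, x⁆, hJQ y x⟩ : Kˣ) : K) • ρ x := by
  have h1 := hρQ ⟨⁅y, x⁆, hJQ y x⟩
  have h2 : ρ ⁅y, x⁆ = ρ y * ρ x * ρ y⁻¹ * ρ x⁻¹ := by
    rw [commutatorElement_def]
    simp only [map_mul]
  have h3 : ρ y * ρ x * ρ y⁻¹ = ρ ⁅y, x⁆ * ρ x := by
    rw [h2, mul_assoc _ (ρ x⁻¹), rho_inv_mul, mul_one]
  rw [h3]
  have h4 : ρ ⁅y, x⁆ = ((θ ⟨⁅y, x⁆, hJQ y x⟩ : Kˣ) : K) • 1 := h1
  rw [h4, smul_mul_assoc, one_mul]

/-- The commutator character. -/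
noncomputable def commChar (hρQ : ∀ q : Q, ρ q = ((θ q : Kˣ) : K) • 1)
    (hJQ : ∀ x y : J, ⁅x, y⁆ ∈ Q) (x : J) : J →* Kˣ where
  toFun y := θ ⟨⁅y, x⁆, hJQ y x⟩
  map_one' := by
    have h1 := conj_rho ρ Q θ hρQ hJQ 1 x
    simp only [map_one, one_mul, inv_one, mul_one] at h1
    have h2 : (1 : K) • ρ x = ((θ ⟨⁅1, x⁆, hJQ 1 x⟩ : Kˣ) : K) • ρ x := by rw [one_smul]; exact h1
    exact Units.ext (eq_of_smul_rho ρ h2).symm
  map_mul' a b := by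
    have h1 := conj_rho ρ Q θ hρQ hJQ (a * b) x
    have h2 := conj_rho ρ Q θ hρQ hJQ a x
    have h3 := conj_rho ρ Q θ hρQ hJQ b x
    apply Units.ext
    apply eq_of_smul_rho ρ (x := x)
    rw [← h1, Units.val_mul, mul_comm, mul_smul, ← h2]
    calc ρ (a * b) * ρ x * ρ (a * b)⁻¹ = ρ a * (ρ b * ρ x * ρ b⁻¹) * ρ a⁻¹ := by
          simp only [map_mul, mul_inv_rev, mul_assoc]
      _ = _ := by rw [h3, mul_smul_comm, smul_mul_assoc]

theorem commChar_apply (hρQ : ∀ q : Q, ρ q = ((θ q : Kˣ) : K) • 1)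
    (hJQ : ∀ x y : J, ⁅x, y⁆ ∈ Q) (x y : J) :
    ρ y * ρ x * ρ y⁻¹ = ((commChar ρ Q θ hρQ hJQ x y : Kˣ) : K) • ρ x :=
  conj_rho ρ Q θ hρQ hJQ y x

/-- On an element outside `Q` the average vanishes. -/
theorem avg_rho_not_mem (hρQ : ∀ q : Q, ρ q = ((θ q : Kˣ) : K) • 1)
    (hJQ : ∀ x y : J, ⁅x, y⁆ ∈ Q)
    (hnd : ∀ x, x ∉ Q → ∃ y, ρ y * ρ x ≠ ρ x * ρ y) {x : J} (hx : x ∉ Q) : avg ρ (ρ x) = 0 := by
  obtain ⟨y, hy⟩ := hnd x hx
  have hχ : commChar ρ Q θ hρQ hJQ x ≠ 1 := by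
    intro h
    apply hy
    have h1 := commChar_apply ρ Q θ hρQ hJQ x y
    rw [h] at h1
    simp only [MonoidHom.one_apply, Units.val_one, one_smul] at h1
    calc ρ y * ρ x = ρ y * ρ x * (ρ y⁻¹ * ρ y) := by rw [rho_inv_mul, mul_one]
      _ = (ρ y * ρ x * ρ y⁻¹) * ρ y := by simp only [mul_assoc]
      _ = _ := by rw [h1]
  have h2 : ∑ y : J, ((commChar ρ Q θ hρQ hJQ x y : Kˣ) : K) = 0 := by
    have := sum_hom_units_eq_zero ((Units.coeHom K).comp (commChar ρ Q θ hρQ hJQ x)) (by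
      intro h
      apply hχ
      ext y
      have := congrArg (fun f : J →* K => f y) h
      simpa using this)
    simpa using this
  unfold avg
  have h3 : ∑ y : J, ρ y * ρ x * ρ y⁻¹ =
      (∑ y : J, ((commChar ρ Q θ hρQ hJQ x y : Kˣ) : K)) • ρ x := by
    rw [Finset.sum_smul]
    exact Finset.sum_congr rfl (fun y _ => commChar_apply ρ Q θ hρQ hJQ x y)
  rw [h3, h2, zero_smul, smul_zero]

theorem avg_rho_mem (hρQ : ∀ q : Q, ρ q = ((θ q : Kˣ) : K) • 1)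
    (hJ : (Fintype.card J : K) ≠ 0) (q : Q) : avg ρ (ρ q) = ((θ q : Kˣ) : K) • 1 := by
  rw [avg_of_comm ρ hJ, hρQ]
  intro x
  rw [hρQ, mul_smul_comm, smul_mul_assoc, mul_one, one_mul]

/-- The span of the image of `ρ`. -/
def Sp : Submodule K (End K M) := Submodule.span K (Set.range ρ)

theorem mem_Sp_iff {T : End K M} : T ∈ Sp ρ ↔ ∃ α : J → K, T = ∑ x, α x • ρ x := by
  unfold Sp
  rw [Submodule.mem_span_range_iff_exists_fun]
  constructor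
  · rintro ⟨α, h⟩
    exact ⟨α, h.symm⟩
  · rintro ⟨α, h⟩
    exact ⟨α, h.symm⟩

theorem rho_mem_Sp (x : J) : ρ x ∈ Sp ρ := Submodule.subset_span ⟨x, rfl⟩

theorem Sp_mul_rho {T : End K M} (hT : T ∈ Sp ρ) (y : J) : T * ρ y ∈ Sp ρ := by
  obtain ⟨α, rfl⟩ := (mem_Sp_iff ρ).1 hT
  rw [Finset.sum_mul]
  refine Submodule.sum_mem _ (fun x _ => ?_)
  rw [smul_mul_assoc, ← map_mul]
  exact Submodule.smul_mem _ _ (rho_mem_Sp ρ _)

theorem rho_mul_Sp {T : End K M} (hT : T ∈ Sp ρ) (y : J) : ρ y * T ∈ Sp ρ := by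
  obtain ⟨α, rfl⟩ := (mem_Sp_iff ρ).1 hT
  rw [Finset.mul_sum]
  refine Submodule.sum_mem _ (fun x _ => ?_)
  rw [mul_smul_comm, ← map_mul]
  exact Submodule.smul_mem _ _ (rho_mem_Sp ρ _)

theorem Sp_mul {S T : End K M} (hS : S ∈ Sp ρ) (hT : T ∈ Sp ρ) : S * T ∈ Sp ρ := by
  obtain ⟨α, rfl⟩ := (mem_Sp_iff ρ).1 hT
  rw [Finset.mul_sum]
  refine Submodule.sum_mem _ (fun x _ => ?_)
  rw [mul_smul_comm]
  exact Submodule.smul_mem _ _ (Sp_mul_rho ρ hS x)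

theorem one_mem_Sp : (1 : End K M) ∈ Sp ρ := by
  have := rho_mem_Sp ρ (1 : J)
  rwa [map_one] at this

/-- The algebra spanned by the image of `ρ`. -/
def Ra : Subalgebra K (End K M) :=
  (Sp ρ).toSubalgebra (one_mem_Sp ρ) (fun _ _ hS hT => Sp_mul ρ hS hT)

theorem mem_Ra {T : End K M} : T ∈ Ra ρ ↔ T ∈ Sp ρ := Iff.rfl

theorem avg_mem_Sp {T : End K M} (hT : T ∈ Sp ρ) : avg ρ T ∈ Sp ρ := by
  unfold avg
  refine Submodule.smul_mem _ _ (Submodule.sum_mem _ (fun x _ => ?_))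
  exact Sp_mul_rho ρ (rho_mul_Sp ρ hT x) _

section tr

variable (ℓ₀ : Module.Dual K M) (u₀ : M)

/-- The normalized trace. -/
noncomputable def tr0 : End K M →ₗ[K] K :=
  ℓ₀ ∘ₗ (LinearMap.applyₗ u₀) ∘ₗ avgL ρ

theorem tr0_apply (T : End K M) : tr0 ρ ℓ₀ u₀ T = ℓ₀ (avg ρ T u₀) := rfl

variable (hu : ℓ₀ u₀ = 1)

include hu

theorem tr0_scalar (hρQ : ∀ q : Q, ρ q = ((θ q : Kˣ) : K) • 1)
    (hJ : (Fintype.card J : K) ≠ 0) (q : Q) : tr0 ρ ℓ₀ u₀ (ρ q) = ((θ q : Kˣ) : K) := by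
  rw [tr0_apply, avg_rho_mem ρ Q θ hρQ hJ]
  simp [hu]

theorem tr0_not_mem (hρQ : ∀ q : Q, ρ q = ((θ q : Kˣ) : K) • 1)
    (hJQ : ∀ x y : J, ⁅x, y⁆ ∈ Q)
    (hnd : ∀ x, x ∉ Q → ∃ y, ρ y * ρ x ≠ ρ x * ρ y) {x : J} (hx : x ∉ Q) :
    tr0 ρ ℓ₀ u₀ (ρ x) = 0 := by
  rw [tr0_apply, avg_rho_not_mem ρ Q θ hρQ hJQ hnd hx]
  simp

/-- On the span the average is the scalar given by `tr0`. -/
theorem avg_eq_tr0 (hρQ : ∀ q : Q, ρ q = ((θ q : Kˣ) : K) • 1)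
    (hJQ : ∀ x y : J, ⁅x, y⁆ ∈ Q)
    (hnd : ∀ x, x ∉ Q → ∃ y, ρ y * ρ x ≠ ρ x * ρ y) (hJ : (Fintype.card J : K) ≠ 0)
    {T : End K M} (hT : T ∈ Sp ρ) : avg ρ T = tr0 ρ ℓ₀ u₀ T • 1 := by
  obtain ⟨α, rfl⟩ := (mem_Sp_iff ρ).1 hT
  rw [map_sum]
  have h1 : avg ρ (∑ x, α x • ρ x) = ∑ x, avgL ρ (α x • ρ x) := by
    rw [← map_sum]
    rfl
  rw [h1, Finset.sum_smul]
  refine Finset.sum_congr rfl (fun x _ => ?_)
  rw [map_smul, map_smul, smul_assoc]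
  congr 1
  by_cases hx : x ∈ Q
  · have h2 := avg_rho_mem ρ Q θ hρQ hJ ⟨x, hx⟩
    have h3 := tr0_scalar ρ Q θ ℓ₀ u₀ hu hρQ hJ ⟨x, hx⟩
    show avg ρ (ρ x) = _
    simp only at h2 h3
    rw [h2, h3]
  · show avg ρ (ρ x) = _
    rw [avg_rho_not_mem ρ Q θ hρQ hJQ hnd hx, tr0_not_mem ρ Q θ ℓ₀ u₀ hu hρQ hJQ hnd hx, zero_smul]

/-- **Fourier inversion.** -/
theorem fourier (hρQ : ∀ q : Q, ρ q = ((θ q : Kˣ) : K) • 1)
    (hJQ : ∀ x y : J, ⁅x, y⁆ ∈ Q)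
    (hnd : ∀ x, x ∉ Q → ∃ y, ρ y * ρ x ≠ ρ x * ρ y) (hJ : (Fintype.card J : K) ≠ 0)
    (hQK : (Nat.card Q : K) ≠ 0) {T : End K M} (hT : T ∈ Sp ρ) :
    T = (Nat.card Q : K)⁻¹ • ∑ x : J, tr0 ρ ℓ₀ u₀ (T * ρ x⁻¹) • ρ x := by
  classical
  obtain ⟨α, rfl⟩ := (mem_Sp_iff ρ).1 hT
  have hbasic : ∀ y : J, ∑ x : J, tr0 ρ ℓ₀ u₀ (ρ y * ρ x⁻¹) • ρ x = (Nat.card Q : K) • ρ y := by
    intro y
    -- reindex by `z = y x⁻¹`
    let e : J ≃ J := (Equiv.inv J).trans (Equiv.mulLeft y)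
    have h1 : ∑ x : J, tr0 ρ ℓ₀ u₀ (ρ y * ρ x⁻¹) • ρ x =
        ∑ z : J, tr0 ρ ℓ₀ u₀ (ρ z) • ρ (z⁻¹ * y) := by
      refine Fintype.sum_equiv e _ _ (fun x => ?_)
      have h2 : e x = y * x⁻¹ := rfl
      rw [h2, map_mul ρ]
      congr 2
      group
    rw [h1]
    have h3 : ∀ z : J, tr0 ρ ℓ₀ u₀ (ρ z) • ρ (z⁻¹ * y) = if z ∈ Q then ρ y else 0 := by
      intro z
      split_ifs with hz
      · have h4 := tr0_scalar ρ Q θ ℓ₀ u₀ hu hρQ hJ ⟨z, hz⟩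
        simp only at h4
        rw [h4, map_mul ρ]
        have h5 : ρ z⁻¹ = ((θ ⟨z, hz⟩)⁻¹ : Kˣ) • (1 : End K M) := by
          have := hρQ ⟨z, hz⟩⁻¹
          rw [map_inv] at this
          exact this
        rw [h5]
        rw [Units.smul_def, smul_mul_assoc, one_mul, smul_smul, ← Units.val_mul, mul_inv_cancel,
          Units.val_one, one_smul]
      · rw [tr0_not_mem ρ Q θ ℓ₀ u₀ hu hρQ hJQ hnd hz, zero_smul]
    rw [Finset.sum_congr rfl (fun z _ => h3 z), Finset.sum_ite, Finset.sum_const_zero, add_zero,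
      Finset.sum_const, ← Nat.cast_smul_eq_nsmul K]
    congr 2
    rw [Nat.card_eq_fintype_card]
    exact (Fintype.card_of_subtype _ (fun z => by simp)).symm
  have h6 : ∑ x : J, tr0 ρ ℓ₀ u₀ ((∑ y, α y • ρ y) * ρ x⁻¹) • ρ x =
      ∑ y, α y • ∑ x : J, tr0 ρ ℓ₀ u₀ (ρ y * ρ x⁻¹) • ρ x := by
    simp only [Finset.smul_sum, Finset.sum_mul, map_sum, Finset.sum_smul, smul_mul_assoc, map_smul,
      smul_eq_mul, mul_smul]
    rw [Finset.sum_comm]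
  rw [h6]
  simp only [hbasic]
  rw [Finset.smul_sum]
  refine Finset.sum_congr rfl (fun y _ => ?_)
  rw [smul_comm _ (α y), smul_smul, smul_smul, mul_assoc, inv_mul_cancel₀ hQK, mul_one]

end tr

end scalar

end Cfsg.Agent.Lib.HHAvg
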