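import Mathlib
import Cfsg.Agent.Lib.HHAvg

/-!
# Simplicity and dimension of the algebra spanned by a representation of a group of symplectic type
-/

set_option autoImplicit false

namespace Cfsg.Agent.Lib.HHSimple

open Module Cfsg.Agent.Lib.HHAvg
open scoped commutatorElement

variable {J K M : Type*} [Group J] [Fintype J] [Field K] [AddCommGroup M] [Module K M]
  [Nontrivial M] (ρ : J →* End K M) (Q : Subgroup J) (θ : Q →* Kˣ) (ℓ₀ : Dual K M) (u₀ : M)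

theorem normal_of_comm (hJQ : ∀ x y : J, ⁅x, y⁆ ∈ Q) : Q.Normal := by
  refine ⟨fun q hq x => ?_⟩
  have h : x * q * x⁻¹ = ⁅x, q⁆ * q := by
    rw [commutatorElement_def]
    group
  rw [h]
  exact Q.mul_mem (hJQ x q) hq

theorem isSimple_Ra (hu : ℓ₀ u₀ = 1) (hρQ : ∀ q : Q, ρ q = ((θ q : Kˣ) : K) • 1)
    (hJQ : ∀ x y : J, ⁅x, y⁆ ∈ Q)
    (hnd : ∀ x, x ∉ Q → ∃ y, ρ y * ρ x ≠ ρ x * ρ y) (hJ : (Fintype.card J : K) ≠ 0)
    (hQK : (Nat.card Q : K) ≠ 0) : IsSimpleRing (Ra ρ) := by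
  classical
  have hne01 : ((0 : Ra ρ) : End K M) ≠ ((1 : Ra ρ) : End K M) := by
    show (0 : End K M) ≠ 1
    exact zero_ne_one
  haveI : Nontrivial (Ra ρ) := ⟨⟨0, 1, fun h => hne01 (congrArg Subtype.val h)⟩⟩
  refine IsSimpleRing.of_eq_bot_or_eq_top (fun I => ?_)
  by_cases hI : I = ⊥
  · exact Or.inl hI
  right
  obtain ⟨r, hrI, hr0⟩ : ∃ r ∈ I, r ≠ 0 := by
    by_contra! h
    apply hI
    refine le_antisymm (fun x hx => ?_) bot_le
    rw [h x hx]
    exact zero_mem _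
  obtain ⟨x₀, hx₀⟩ : ∃ x₀, tr0 ρ ℓ₀ u₀ (r.1 * ρ x₀⁻¹) ≠ 0 := by
    by_contra! h
    have h1 := fourier ρ Q θ ℓ₀ u₀ hu hρQ hJQ hnd hJ hQK r.2
    simp only [h, zero_smul, Finset.sum_const_zero, smul_zero] at h1
    exact hr0 (Subtype.ext h1)
  set ι : J → Ra ρ := fun x => ⟨ρ x, rho_mem_Sp ρ x⟩ with hι
  have hT : ∑ x : J, ι x * (r * ι x₀⁻¹) * ι x⁻¹ ∈ I := by
    refine sum_mem (fun x _ => ?_)
    exact I.mul_mem_right _ _ (I.mul_mem_left _ _ (I.mul_mem_right _ _ hrI))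
  set κ : K := tr0 ρ ℓ₀ u₀ (r.1 * ρ x₀⁻¹) with hκ
  have hmem : r.1 * ρ x₀⁻¹ ∈ Sp ρ := Sp_mul_rho ρ r.2 _
  have havg := avg_eq_tr0 ρ Q θ ℓ₀ u₀ hu hρQ hJQ hnd hJ hmem
  have hsum : ((∑ x : J, ι x * (r * ι x₀⁻¹) * ι x⁻¹ : Ra ρ) : End K M) =
      ((Fintype.card J : K) * κ) • (1 : End K M) := by
    have h1 : ((∑ x : J, ι x * (r * ι x₀⁻¹) * ι x⁻¹ : Ra ρ) : End K M) =
        ∑ x : J, ρ x * (r.1 * ρ x₀⁻¹) * ρ x⁻¹ := by
      rw [AddSubmonoidClass.coe_finsetSum]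
      rfl
    rw [hκ.symm] at havg
    rw [h1, mul_smul, ← havg]
    unfold avg
    rw [smul_smul, mul_inv_cancel₀ hJ, one_smul]
  have h1I : (1 : Ra ρ) ∈ I := by
    have h2 : algebraMap K (Ra ρ) ((Fintype.card J : K) * κ)⁻¹ *
        (∑ x : J, ι x * (r * ι x₀⁻¹) * ι x⁻¹) = 1 := by
      apply Subtype.ext
      rw [← Algebra.smul_def]
      show ((Fintype.card J : K) * κ)⁻¹ • ((∑ x : J, ι x * (r * ι x₀⁻¹) * ι x⁻¹ : Ra ρ) : End K M) = 1
      rw [hsum, smul_smul, inv_mul_cancel₀ (mul_ne_zero hJ hx₀), one_smul]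
    rw [← h2]
    exact I.mul_mem_left _ _ hT
  exact (TwoSidedIdeal.one_mem_iff I).1 h1I

/-- The dimension of the algebra is the index. -/
theorem finrank_Ra (hu : ℓ₀ u₀ = 1) (hρQ : ∀ q : Q, ρ q = ((θ q : Kˣ) : K) • 1)
    (hJQ : ∀ x y : J, ⁅x, y⁆ ∈ Q)
    (hnd : ∀ x, x ∉ Q → ∃ y, ρ y * ρ x ≠ ρ x * ρ y) (hJ : (Fintype.card J : K) ≠ 0) :
    finrank K (Ra ρ) = Q.index := by
  classical
  haveI hQn : Q.Normal := normal_of_comm Q hJQ
  letI : Fintype (J ⧸ Q) := Fintype.ofFinite _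
  set b : J ⧸ Q → End K M := fun v => ρ (Quotient.out v) with hb
  have hind : LinearIndependent K b := by
    rw [Fintype.linearIndependent_iff]
    intro g hg w
    have h1 := congrArg (fun T : End K M => tr0 ρ ℓ₀ u₀ (T * ρ (Quotient.out w)⁻¹)) hg
    simp only [zero_mul, map_zero] at h1
    rw [Finset.sum_mul, map_sum, Finset.sum_eq_single w] at h1
    · rw [smul_mul_assoc, map_smul, hb] at h1
      simp only [rho_mul_inv] at h1
      have h2 := tr0_scalar ρ Q θ ℓ₀ u₀ hu hρQ hJ 1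
      simp only [OneMemClass.coe_one, map_one, Units.val_one] at h2
      rw [h2, smul_eq_mul, mul_one] at h1
      exact h1
    · intro v _ hv
      rw [smul_mul_assoc, map_smul, hb]
      simp only
      rw [← map_mul ρ]
      have h3 : Quotient.out v * (Quotient.out w)⁻¹ ∉ Q := by
        intro h
        apply hv
        have h4 : (Quotient.out w)⁻¹ * Quotient.out v ∈ Q := by
          have := hQn.conj_mem _ h (Quotient.out w)⁻¹
          simpa [mul_assoc] using this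
        rw [← QuotientGroup.out_eq' v, ← QuotientGroup.out_eq' w]
        exact (QuotientGroup.eq.2 h4).symm
      rw [tr0_not_mem ρ Q θ ℓ₀ u₀ hu hρQ hJQ hnd h3, smul_zero]
    · simp
  have hspan : Submodule.span K (Set.range b) = Sp ρ := by
    refine le_antisymm (Submodule.span_mono ?_) ?_
    · rintro _ ⟨v, rfl⟩
      exact ⟨_, rfl⟩
    · refine Submodule.span_le.2 ?_
      rintro _ ⟨x, rfl⟩
      have hq : (Quotient.out (QuotientGroup.mk x : J ⧸ Q))⁻¹ * x ∈ Q :=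
        QuotientGroup.eq.1 (QuotientGroup.out_eq' _)
      have h1 : x = Quotient.out (QuotientGroup.mk x : J ⧸ Q) *
          ((Quotient.out (QuotientGroup.mk x : J ⧸ Q))⁻¹ * x) := by group
      have h2 : ρ x = ((θ ⟨_, hq⟩ : Kˣ) : K) • b (QuotientGroup.mk x) := by
        conv_lhs => rw [h1, map_mul ρ]
        have h3 := hρQ ⟨_, hq⟩
        simp only at h3
        rw [h3, mul_smul_comm, mul_one]
      rw [h2]
      exact Submodule.smul_mem _ _ (Submodule.subset_span ⟨_, rfl⟩)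
  have h1 := finrank_span_eq_card hind
  rw [hspan] at h1
  have h2 : finrank K (Ra ρ) = finrank K (Sp ρ) := rfl
  rw [h2, h1, Subgroup.index, Nat.card_eq_fintype_card]

end Cfsg.Agent.Lib.HHSimple
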