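import Mathlib
import Cfsg.Agent.Lib.HHSimple

/-!
# Splitting an operator normalizing a group of symplectic type
-/

set_option autoImplicit false

namespace Cfsg.Agent.Lib.HHDecomp

open Module Cfsg.Agent.Lib.HHAvg Cfsg.Agent.Lib.HHSimple
open scoped commutatorElement

variable {J K M : Type*} [Group J] [Fintype J] [Field K] [AddCommGroup M] [Module K M]
  [Nontrivial M] (ρ : J →* End K M) (Q : Subgroup J) (θ : Q →* Kˣ) (ℓ₀ : Dual K M) (u₀ : M)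

theorem Sp_pow {T : End K M} (hT : T ∈ Sp ρ) (n : ℕ) : T ^ n ∈ Sp ρ := by
  induction n with
  | zero => rw [pow_zero]; exact one_mem_Sp ρ
  | succ n ih => rw [pow_succ]; exact Sp_mul ρ ih hT

/-- Any operator normalizing the image of `ρ` and of finite prime order is a product. -/
theorem exists_decomp [IsAlgClosed K] (hu : ℓ₀ u₀ = 1)
    (hρQ : ∀ q : Q, ρ q = ((θ q : Kˣ) : K) • 1) (hJQ : ∀ x y : J, ⁅x, y⁆ ∈ Q)
    (hnd : ∀ x, x ∉ Q → ∃ y, ρ y * ρ x ≠ ρ x * ρ y) (hJ : (Fintype.card J : K) ≠ 0)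
    (hQK : (Nat.card Q : K) ≠ 0) {ℓ : ℕ} (hℓ : 0 < ℓ) (c : End K M) (hc : c ^ ℓ = 1)
    (φ : J ≃* J) (hcρ : ∀ x, c * ρ x = ρ (φ x) * c)
    (hφQ : ∀ x, φ x ∈ Q ↔ x ∈ Q) (hfpf : ∀ x, x⁻¹ * φ x ∈ Q → x ∈ Q) :
    ∃ g h : End K M, g ∈ Sp ρ ∧ (∀ x, ρ x * h = h * ρ x) ∧ g * h = h * g ∧ c = g * h ∧
      g ^ ℓ = 1 ∧ h ^ ℓ = 1 := by
  classical
  haveI hQn : Q.Normal := normal_of_comm Q hJQ
  set c' : End K M := c ^ (ℓ - 1) with hc'
  have hcc' : c * c' = 1 := by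
    rw [hc', ← pow_succ', Nat.sub_add_cancel hℓ, hc]
  have hc'c : c' * c = 1 := by
    rw [hc', ← pow_succ, Nat.sub_add_cancel hℓ, hc]
  have hc0 : c ≠ 0 := by
    intro h0
    rw [h0, mul_zero] at hc'c
    exact zero_ne_one hc'c
  -- `θ` is `φ`-invariant
  have hθφ : ∀ q (hq : q ∈ Q), ((θ ⟨φ q, (hφQ q).2 hq⟩ : Kˣ) : K) = ((θ ⟨q, hq⟩ : Kˣ) : K) := by
    intro q hq
    have h1 := hcρ q
    have h2 := hρQ ⟨q, hq⟩
    have h3 := hρQ ⟨φ q, (hφQ q).2 hq⟩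
    simp only at h2 h3
    rw [h2, h3, mul_smul_comm, smul_mul_assoc, mul_one, one_mul] at h1
    have h4 : (((θ ⟨q, hq⟩ : Kˣ) : K) - ((θ ⟨φ q, (hφQ q).2 hq⟩ : Kˣ) : K)) • c = 0 := by
      rw [sub_smul, h1, sub_self]
    have h5 := (smul_eq_zero.1 h4).resolve_right hc0
    exact (sub_eq_zero.1 h5).symm
  set h : End K M := avg ρ c with hh
  set h' : End K M := avg ρ c' with hh'
  have hρh : ∀ x, ρ x * h = h * ρ x := fun x => mul_avg ρ c x
  have hρh' : ∀ x, ρ x * h' = h' * ρ x := fun x => mul_avg ρ c' x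
  have hch : c * h = h * c := by
    have h1 := avg_conj ρ φ hcρ hc'c hcc' c
    rw [mul_assoc c c c', hcc', mul_one] at h1
    calc c * h = c * h * (c' * c) := by rw [hc'c, mul_one]
      _ = (c * avg ρ c * c') * c := by simp only [hh, mul_assoc]
      _ = h * c := by rw [h1]
  have hch' : c * h' = h' * c := by
    have h1 := avg_conj ρ φ hcρ hc'c hcc' c'
    rw [hcc', one_mul] at h1
    calc c * h' = c * h' * (c' * c) := by rw [hc'c, mul_one]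
      _ = (c * avg ρ c' * c') * c := by simp only [hh', mul_assoc]
      _ = h' * c := by rw [h1]
  have hhh' : h * h' = h' * h := by
    have hcomm : Commute h h' := by
      rw [hh]
      unfold avg
      refine Commute.smul_left (Commute.sum_left _ _ _ (fun x _ => ?_)) _
      exact ((((show Commute (ρ x) h' from hρh' x).mul_left
        (show Commute c h' from hch'))).mul_left (show Commute (ρ x⁻¹) h' from hρh' x⁻¹))
    exact hcomm
  -- the formula for `c * h'`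
  have hG : c * h' = (Fintype.card J : K)⁻¹ • ∑ y : J, ρ (φ y * y⁻¹) := by
    rw [hh']
    unfold avg
    rw [mul_smul_comm, Finset.mul_sum]
    congr 1
    refine Finset.sum_congr rfl (fun y _ => ?_)
    calc c * (ρ y * c' * ρ y⁻¹) = (c * ρ y) * c' * ρ y⁻¹ := by simp only [mul_assoc]
      _ = ρ (φ y) * (c * c') * ρ y⁻¹ := by rw [hcρ]; simp only [mul_assoc]
      _ = _ := by rw [hcc', mul_one, map_mul]
  have hGSp : c * h' ∈ Sp ρ := by
    rw [hG]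
    exact Submodule.smul_mem _ _ (Submodule.sum_mem _ (fun y _ => rho_mem_Sp ρ _))
  have hhh'' : h * h' = avg ρ (c * h') := by
    rw [hh]
    unfold avg
    rw [smul_mul_assoc, Finset.sum_mul]
    congr 1
    refine Finset.sum_congr rfl (fun x _ => ?_)
    calc ρ x * c * ρ x⁻¹ * h' = ρ x * c * (ρ x⁻¹ * h') := by simp only [mul_assoc]
      _ = ρ x * c * (h' * ρ x⁻¹) := by rw [hρh']
      _ = _ := by simp only [mul_assoc]
  -- the value of the trace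
  have htr : tr0 ρ ℓ₀ u₀ (c * h') = (Fintype.card J : K)⁻¹ * (Nat.card Q : K) := by
    rw [hG, map_smul, map_sum, smul_eq_mul]
    congr 1
    have h3 : ∀ y : J, tr0 ρ ℓ₀ u₀ (ρ (φ y * y⁻¹)) = if y ∈ Q then 1 else 0 := by
      intro y
      split_ifs with hy
      · have hq : φ y * y⁻¹ ∈ Q := Q.mul_mem ((hφQ y).2 hy) (Q.inv_mem hy)
        have h4 := tr0_scalar ρ Q θ ℓ₀ u₀ hu hρQ hJ ⟨_, hq⟩
        simp only at h4
        rw [h4]
        have h5 : (⟨φ y * y⁻¹, hq⟩ : Q) = ⟨φ y, (hφQ y).2 hy⟩ * (⟨y, hy⟩ : Q)⁻¹ := rfl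
        rw [h5, map_mul, map_inv, Units.val_mul, hθφ y hy, Units.val_inv_eq_inv_val,
          mul_inv_cancel₀ (Units.ne_zero _)]
      · have hq : φ y * y⁻¹ ∉ Q := by
          intro hq
          apply hy
          apply hfpf
          have := hQn.conj_mem _ hq y⁻¹
          simpa [mul_assoc] using this
        exact tr0_not_mem ρ Q θ ℓ₀ u₀ hu hρQ hJQ hnd hq
    rw [Finset.sum_congr rfl (fun y _ => h3 y), Finset.sum_ite, Finset.sum_const_zero, add_zero,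
      Finset.sum_const, nsmul_eq_mul, mul_one, Nat.card_eq_fintype_card]
    congr 1
    exact (Fintype.card_of_subtype _ (fun z => by simp)).symm
  set κ₀ : K := (Fintype.card J : K)⁻¹ * (Nat.card Q : K) with hκ₀
  have hκ₀0 : κ₀ ≠ 0 := mul_ne_zero (inv_ne_zero hJ) hQK
  have hhh1 : h * h' = κ₀ • 1 := by
    rw [hhh'', avg_eq_tr0 ρ Q θ ℓ₀ u₀ hu hρQ hJQ hnd hJ hGSp, htr]
  set G₁ : End K M := κ₀⁻¹ • (c * h') with hG₁
  have hG₁Sp : G₁ ∈ Sp ρ := Submodule.smul_mem _ _ hGSp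
  have hG₁h : G₁ * h = c := by
    rw [hG₁, smul_mul_assoc, mul_assoc, ← hhh', hhh1, mul_smul_comm, mul_one, smul_smul,
      inv_mul_cancel₀ hκ₀0, one_smul]
  have hG₁comm : Commute G₁ h := by
    rw [hG₁]
    refine Commute.smul_left ?_ _
    exact (show Commute c h from hch).mul_left (show Commute h' h from hhh'.symm)
  have hpow : G₁ ^ ℓ * h ^ ℓ = 1 := by
    rw [← hG₁comm.mul_pow, hG₁h, hc]
  have hpow' : h ^ ℓ * G₁ ^ ℓ = 1 := by
    rw [← (hG₁comm.pow_pow ℓ ℓ).eq, hpow]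
  have hAcomm : ∀ x, ρ x * G₁ ^ ℓ = G₁ ^ ℓ * ρ x := by
    intro x
    have h1 : Commute (ρ x) (h ^ ℓ) := (show Commute (ρ x) h from hρh x).pow_right ℓ
    calc ρ x * G₁ ^ ℓ = (G₁ ^ ℓ * h ^ ℓ) * ρ x * G₁ ^ ℓ := by rw [hpow, one_mul]
      _ = G₁ ^ ℓ * (h ^ ℓ * ρ x) * G₁ ^ ℓ := by simp only [mul_assoc]
      _ = G₁ ^ ℓ * (ρ x * h ^ ℓ) * G₁ ^ ℓ := by rw [h1.eq]
      _ = G₁ ^ ℓ * ρ x * (h ^ ℓ * G₁ ^ ℓ) := by simp only [mul_assoc]
      _ = _ := by rw [hpow', mul_one]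
  have hASp : G₁ ^ ℓ ∈ Sp ρ := Sp_pow ρ hG₁Sp ℓ
  set κ : K := tr0 ρ ℓ₀ u₀ (G₁ ^ ℓ) with hκ
  have hAκ : G₁ ^ ℓ = κ • 1 := by
    have h1 := avg_eq_tr0 ρ Q θ ℓ₀ u₀ hu hρQ hJQ hnd hJ hASp
    rwa [avg_of_comm ρ hJ hAcomm] at h1
  have hκ0 : κ ≠ 0 := by
    intro h0
    rw [hAκ, h0, zero_smul, zero_mul] at hpow
    exact zero_ne_one hpow
  obtain ⟨ξ, hξ⟩ := IsAlgClosed.exists_pow_nat_eq κ⁻¹ hℓ
  have hξ0 : ξ ≠ 0 := by
    rintro rfl
    rw [zero_pow hℓ.ne'] at hξ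
    exact inv_ne_zero hκ0 hξ.symm
  refine ⟨ξ • G₁, ξ⁻¹ • h, Submodule.smul_mem _ _ hG₁Sp, fun x => ?_, ?_, ?_, ?_, ?_⟩
  · rw [mul_smul_comm, smul_mul_assoc, hρh]
  · have h1 : G₁ * h = h * G₁ := hG₁comm.eq
    simp only [smul_mul_assoc, mul_smul_comm, h1]
    rw [smul_comm]
  · rw [smul_mul_assoc, mul_smul_comm, smul_smul, mul_inv_cancel₀ hξ0, one_smul, hG₁h]
  · rw [smul_pow, hξ, hAκ, smul_smul, inv_mul_cancel₀ hκ0, one_smul]
  · have h1 : (κ • (1 : End K M)) * h ^ ℓ = 1 := by rw [← hAκ, hpow]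
    rw [smul_pow, inv_pow, hξ, inv_inv]
    rw [smul_mul_assoc, one_mul] at h1
    exact h1

end Cfsg.Agent.Lib.HHDecomp
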