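import Mathlib
import Cfsg.Agent.Lib.HHDecomp

/-!
# Counting orbits of an automorphism of prime order, and the centralizer bound
-/

set_option autoImplicit false

namespace Cfsg.Agent.Lib.HHOrbit

open Module Cfsg.Agent.Lib.HHAvg Cfsg.Agent.Lib.HHSimple
open scoped commutatorElement

section orbit

variable {α : Type*} [Fintype α] (π : Equiv.Perm α)

open Classical in
/-- The number of cycles of a permutation of prime order with exactly one fixed point. -/
theorem orbit_count {ℓ : ℕ} (hℓ : ℓ.Prime) (hπ : π ^ ℓ = 1) (v₀ : α)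
    (hfix : ∀ v, π v = v → v = v₀) :
    ℓ * (Fintype.card (Quotient (Equiv.Perm.SameCycle.setoid π)) - 1) + 1 ≤ Fintype.card α := by
  classical
  letI s := Equiv.Perm.SameCycle.setoid π
  set q : α → Quotient s := fun v => Quotient.mk s v with hq
  have hsum := Finset.card_eq_sum_card_fiberwise (f := q) (s := Finset.univ)
    (t := Finset.univ) (fun _ _ => Finset.mem_coe.2 (Finset.mem_univ _))
  rw [Finset.card_univ] at hsum
  have hfib : ∀ o : Quotient s, o ≠ q v₀ →
      ℓ ≤ (Finset.univ.filter (fun v => q v = o)).card := by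
    intro o ho
    obtain ⟨v, rfl⟩ := Quotient.exists_rep o
    have hv : v ≠ v₀ := by
      rintro rfl
      exact ho rfl
    have hv1 : π v ≠ v := fun h => hv (hfix v h)
    let f : Fin ℓ → α := fun i => (π ^ (i : ℕ)) v
    have hf : Function.Injective f := by
      intro i j hij
      by_contra hne
      wlog hlt : (i : ℕ) < j generalizing i j
      · exact this hij.symm (Ne.symm hne) (by
          have : (i : ℕ) ≠ j := fun h => hne (Fin.ext h)
          omega)
      have hk : (π ^ ((j : ℕ) - i)) v = v := by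
        have h1 : f j = (π ^ (i : ℕ)) ((π ^ ((j : ℕ) - i)) v) := by
          show (π ^ (j : ℕ)) v = _
          rw [← Equiv.Perm.mul_apply, ← pow_add, Nat.add_sub_cancel' hlt.le]
        have h2 := hij.trans h1
        exact ((π ^ (i : ℕ)).injective h2).symm
      have hper1 : Function.IsPeriodicPt π ((j : ℕ) - i) v := by
        show (π : α → α)^[(j : ℕ) - i] v = v
        rw [Equiv.Perm.iterate_eq_pow]
        exact hk
      have hper2 : Function.IsPeriodicPt π ℓ v := by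
        show (π : α → α)^[ℓ] v = v
        rw [Equiv.Perm.iterate_eq_pow, hπ]
        rfl
      have hgcd := hper1.gcd hper2
      have hcop : Nat.gcd ((j : ℕ) - i) ℓ = 1 := by
        have h3 : ¬ ℓ ∣ ((j : ℕ) - i) := fun hd =>
          absurd (Nat.le_of_dvd (by omega) hd) (by have := j.2; omega)
        exact (Nat.Coprime.symm ((Nat.Prime.coprime_iff_not_dvd hℓ).2 h3))
      rw [hcop] at hgcd
      exact hv1 hgcd
    have hle := Finset.card_le_card_of_injOn (s := Finset.univ) (t := Finset.univ.filter (fun w => q w = q v))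
      f (fun i _ => ?_) (fun i _ j _ h => hf h)
    · simpa using hle
    · simp only [Finset.coe_filter, Finset.mem_univ, true_and, Set.mem_ofPred_eq]
      apply Quotient.sound
      show Equiv.Perm.SameCycle π _ _
      exact Equiv.Perm.SameCycle.symm ⟨(i : ℕ), by simp [f]⟩
  have h0 : 1 ≤ (Finset.univ.filter (fun v => q v = q v₀)).card :=
    Finset.card_pos.2 ⟨v₀, by simp⟩
  rw [hsum, ← Finset.add_sum_erase Finset.univ _ (Finset.mem_univ (q v₀))]
  have h1 : (Finset.univ.erase (q v₀)).card • ℓ ≤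
      ∑ o ∈ Finset.univ.erase (q v₀), (Finset.univ.filter (fun v => q v = o)).card :=
    Finset.card_nsmul_le_sum _ _ _ (fun o ho => hfib o (Finset.ne_of_mem_erase ho))
  rw [Finset.card_erase_of_mem (Finset.mem_univ _), Finset.card_univ, smul_eq_mul] at h1
  have h2 : ℓ * (Fintype.card (Quotient s) - 1) = (Fintype.card (Quotient s) - 1) * ℓ := mul_comm _ _
  rw [h2]
  omega

end orbit

theorem arith {ℓ n o s : ℕ} (hℓ : ℓ.Prime) (hs : s = n * n) (h1 : n * n ≤ (ℓ - 1) * o)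
    (h2 : ℓ * (o - 1) + 1 ≤ s) (h3 : s ≡ 1 [MOD ℓ]) (ho : 1 ≤ o) : s = 1 ∨ ℓ = n + 1 := by
  obtain ⟨m, rfl⟩ : ∃ m, ℓ = m + 1 := ⟨ℓ - 1, by have := hℓ.pos; omega⟩
  obtain ⟨o', rfl⟩ : ∃ o', o = o' + 1 := ⟨o - 1, by omega⟩
  simp only [Nat.add_sub_cancel] at h1 h2
  subst hs
  have h4 : n * n ≤ m * m := by
    have h5 : (m + 1) * (n * n) ≤ (m + 1) * (m * (o' + 1)) := Nat.mul_le_mul_left _ h1
    have h6 : m * ((m + 1) * o' + 1) ≤ m * (n * n) := Nat.mul_le_mul_left _ h2
    nlinarith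
  have h5 : n ≤ m := by
    by_contra h
    push Not at h
    have : m + 1 ≤ n := h
    nlinarith
  by_cases hn : n = 1
  · left
    rw [hn]
  have hn0 : n ≠ 0 := by
    rintro rfl
    omega
  right
  have h6 : (m + 1) ∣ (n - 1) * (n + 1) := by
    have h7 : (n - 1) * (n + 1) = n * n - 1 := by
      obtain ⟨k, rfl⟩ : ∃ k, n = k + 1 := ⟨n - 1, by omega⟩
      simp only [Nat.add_sub_cancel]
      have : (k + 1) * (k + 1) = k * (k + 1 + 1) + 1 := by ring
      omega
    rw [h7]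
    exact (Nat.modEq_iff_dvd' (by nlinarith [Nat.pos_of_ne_zero hn0])).1 h3.symm
  rcases (Nat.Prime.dvd_mul hℓ).1 h6 with h7 | h7
  · have := Nat.le_of_dvd (by omega) h7
    omega
  · have := Nat.le_of_dvd (by omega) h7
    omega

section main

variable {J K M : Type*} [Group J] [Fintype J] [Field K] [AddCommGroup M] [Module K M]
  [Nontrivial M] (ρ : J →* End K M) (Q : Subgroup J) (θ : Q →* Kˣ) (ℓ₀ : Dual K M) (u₀ : M)

/-- `tr0` is invariant under conjugation by an operator normalizing the image. -/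
theorem tr0_conj (hu : ℓ₀ u₀ = 1) (hρQ : ∀ q : Q, ρ q = ((θ q : Kˣ) : K) • 1)
    (hJQ : ∀ x y : J, ⁅x, y⁆ ∈ Q)
    (hnd : ∀ x, x ∉ Q → ∃ y, ρ y * ρ x ≠ ρ x * ρ y) (hJ : (Fintype.card J : K) ≠ 0)
    (φ : J ≃* J) {c c' : End K M}
    (hc : ∀ x, c * ρ x = ρ (φ x) * c) (hcc' : c' * c = 1) (hcc'' : c * c' = 1)
    {T : End K M} (hT : T ∈ Sp ρ) : tr0 ρ ℓ₀ u₀ (c * T * c') = tr0 ρ ℓ₀ u₀ T := by
  have h1 := avg_conj ρ φ hc hcc' hcc'' T
  rw [avg_eq_tr0 ρ Q θ ℓ₀ u₀ hu hρQ hJQ hnd hJ hT, mul_smul_comm, smul_mul_assoc, mul_one,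
    hcc''] at h1
  rw [tr0_apply, ← h1]
  simp [hu]

/-- The centralizer in the algebra of an operator inducing `φ` has dimension at most the number
of cycles. -/
theorem finrank_comm_le (hu : ℓ₀ u₀ = 1) (hρQ : ∀ q : Q, ρ q = ((θ q : Kˣ) : K) • 1)
    (hJQ : ∀ x y : J, ⁅x, y⁆ ∈ Q)
    (hnd : ∀ x, x ∉ Q → ∃ y, ρ y * ρ x ≠ ρ x * ρ y) (hJ : (Fintype.card J : K) ≠ 0)
    (hQK : (Nat.card Q : K) ≠ 0)
    (φ : J ≃* J) {c c' : End K M}
    (hc : ∀ x, c * ρ x = ρ (φ x) * c) (hcc' : c' * c = 1) (hcc'' : c * c' = 1)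
    (π : Equiv.Perm (J ⧸ Q)) (hπ : ∀ x : J, π (QuotientGroup.mk x) = QuotientGroup.mk (φ x))
    [Fintype (J ⧸ Q)] [Fintype (Quotient (Equiv.Perm.SameCycle.setoid π))]
    (F : Submodule K (End K M)) (hFSp : F ≤ Sp ρ) (hF : ∀ r ∈ F, c * r = r * c) :
    finrank K F ≤ Fintype.card (Quotient (Equiv.Perm.SameCycle.setoid π)) := by
  classical
  haveI hQn : Q.Normal := normal_of_comm Q hJQ
  letI s := Equiv.Perm.SameCycle.setoid π
  let rep : Quotient s → J := fun o => Quotient.out (Quotient.out o : J ⧸ Q)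
  let L : F →ₗ[K] (Quotient s → K) :=
    { toFun := fun r o => tr0 ρ ℓ₀ u₀ (r.1 * ρ (rep o)⁻¹)
      map_add' := fun r r' => by
        funext o
        simp [add_mul]
      map_smul' := fun κ r => by
        funext o
        simp }
  have hL : ∀ (r : F) o, L r o = tr0 ρ ℓ₀ u₀ (r.1 * ρ (rep o)⁻¹) := fun _ _ => rfl
  have hinj : Function.Injective L := by
    refine (injective_iff_map_eq_zero L).2 (fun r hr => ?_)
    set R : End K M := r.1 with hR
    have hRSp : R ∈ Sp ρ := hFSp r.2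
    -- zero-ness spreads along cosets
    have hq : ∀ x y : J, (QuotientGroup.mk x : J ⧸ Q) = QuotientGroup.mk y →
        tr0 ρ ℓ₀ u₀ (R * ρ x⁻¹) = 0 → tr0 ρ ℓ₀ u₀ (R * ρ y⁻¹) = 0 := by
      intro x y hxy h0
      have hz : x⁻¹ * y ∈ Q := QuotientGroup.eq.1 hxy
      have h2 : ρ y⁻¹ = ρ (x⁻¹ * y)⁻¹ * ρ x⁻¹ := by
        rw [← map_mul ρ]
        congr 1
        group
      have h3 : ρ (x⁻¹ * y)⁻¹ = ((θ ⟨_, hz⟩)⁻¹ : Kˣ) • (1 : End K M) := by
        have h5 := hρQ (⟨_, hz⟩ : Q)⁻¹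
        have h6 : θ ((⟨_, hz⟩ : Q)⁻¹) = (θ ⟨_, hz⟩)⁻¹ := map_inv θ _
        rw [h6] at h5
        exact h5
      rw [h2, h3, smul_mul_assoc, one_mul, Units.smul_def, mul_smul_comm, map_smul, h0, smul_zero]
    -- zero-ness spreads along `φ`
    have hφ : ∀ x : J, tr0 ρ ℓ₀ u₀ (R * ρ x⁻¹) = 0 → tr0 ρ ℓ₀ u₀ (R * ρ (φ x)⁻¹) = 0 := by
      intro x h0
      have h1 := tr0_conj ρ Q θ ℓ₀ u₀ hu hρQ hJQ hnd hJ φ hc hcc' hcc'' (Sp_mul_rho ρ hRSp x⁻¹)
      rw [h0] at h1
      have h2 : c * (R * ρ x⁻¹) * c' = R * ρ (φ x)⁻¹ := by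
        have h3 : c * R = R * c := hF r.1 r.2
        have h4 : c * ρ x⁻¹ = ρ (φ x)⁻¹ * c := by
          have h5 := hc x⁻¹
          have h6 : φ x⁻¹ = (φ x)⁻¹ := map_inv φ x
          rwa [h6] at h5
        calc c * (R * ρ x⁻¹) * c' = (c * R) * ρ x⁻¹ * c' := by simp only [mul_assoc]
          _ = R * (c * ρ x⁻¹) * c' := by rw [h3]; simp only [mul_assoc]
          _ = R * (ρ (φ x)⁻¹ * c) * c' := by rw [h4]
          _ = R * ρ (φ x)⁻¹ * (c * c') := by simp only [mul_assoc]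
          _ = _ := by rw [hcc'', mul_one]
      rw [h2] at h1
      exact h1
    have hpow : ∀ (k : ℕ) (x y : J), (QuotientGroup.mk y : J ⧸ Q) = (π ^ k) (QuotientGroup.mk x) →
        tr0 ρ ℓ₀ u₀ (R * ρ x⁻¹) = 0 → tr0 ρ ℓ₀ u₀ (R * ρ y⁻¹) = 0 := by
      intro k
      induction k with
      | zero =>
        intro x y hxy h0
        exact hq x y (by simpa using hxy.symm) h0
      | succ k ih =>
        intro x y hxy h0
        rw [pow_succ, Equiv.Perm.mul_apply, hπ] at hxy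
        exact ih (φ x) y hxy (hφ x h0)
    have hall : ∀ x : J, tr0 ρ ℓ₀ u₀ (R * ρ x⁻¹) = 0 := by
      intro x
      let o : Quotient s := Quotient.mk s (QuotientGroup.mk x)
      have h1 : Equiv.Perm.SameCycle π (Quotient.out o) (QuotientGroup.mk x) :=
        Quotient.exact (Quotient.out_eq o)
      obtain ⟨k, _, hk⟩ := h1.exists_pow_eq'
      refine hpow k (rep o) x ?_ ?_
      · rw [← hk]
        congr 1
        exact (QuotientGroup.out_eq' _).symm
      · have := congrFun hr o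
        rwa [hL] at this
    have h1 := fourier ρ Q θ ℓ₀ u₀ hu hρQ hJQ hnd hJ hQK hRSp
    simp only [hall, zero_smul, Finset.sum_const_zero, smul_zero] at h1
    exact Subtype.ext h1
  have h1 := LinearMap.finrank_le_finrank_of_injective hinj
  rwa [Module.finrank_fintype_fun_eq_card] at h1

end main

end Cfsg.Agent.Lib.HHOrbit
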