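import Mathlib
import Cfsg.Agent.Lib.HHOrbit

/-!
# The Hall-Higman counting lemma for a group of symplectic type and an operator of prime order
-/

set_option autoImplicit false

namespace Cfsg.Agent.Lib.HHCount

open Module Cfsg.Agent.Lib.HHMat Cfsg.Agent.Lib.HHAvg Cfsg.Agent.Lib.HHSimple
  Cfsg.Agent.Lib.HHDecomp Cfsg.Agent.Lib.HHOrbit
open scoped commutatorElement

theorem LL {J K M : Type*} [Group J] [Fintype J] [Field K] [IsAlgClosed K] [AddCommGroup M]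
    [Module K M] [Nontrivial M] (ρ : J →* End K M) (Q : Subgroup J) (θ : Q →* Kˣ)
    (hρQ : ∀ q : Q, ρ q = ((θ q : Kˣ) : K) • 1) (hJQ : ∀ x y : J, ⁅x, y⁆ ∈ Q)
    (hnd : ∀ x, x ∉ Q → ∃ y, ρ y * ρ x ≠ ρ x * ρ y) (hJ : (Fintype.card J : K) ≠ 0)
    {ℓ : ℕ} (hℓ : ℓ.Prime) (hℓK : (ℓ : K) ≠ 0) (c : End K M) (hc : c ^ ℓ = 1)
    (φ : J ≃* J) (hφℓ : ∀ x, (⇑φ)^[ℓ] x = x) (hcρ : ∀ x, c * ρ x = ρ (φ x) * c)
    (hφQ : ∀ x, φ x ∈ Q ↔ x ∈ Q) (hfpf : ∀ x, x⁻¹ * φ x ∈ Q → x ∈ Q)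
    (hsum : ∑ i ∈ Finset.range ℓ, c ^ i = 0) :
    Q.index = 1 ∨ ∃ n, n * n = Q.index ∧ ℓ = n + 1 := by
  classical
  haveI hQn : Q.Normal := normal_of_comm Q hJQ
  have hQK : (Nat.card Q : K) ≠ 0 := by
    intro h0
    obtain ⟨d, hd⟩ := Subgroup.card_subgroup_dvd_card Q
    apply hJ
    rw [← Nat.card_eq_fintype_card, hd, Nat.cast_mul, h0, zero_mul]
  obtain ⟨u₁, hu₁⟩ := exists_ne (0 : M)
  obtain ⟨ℓ₁, hℓ₁⟩ : ∃ ℓ₁ : Dual K M, ℓ₁ u₁ ≠ 0 := by
    by_contra! h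
    exact hu₁ ((Module.forall_dual_apply_eq_zero_iff K u₁).1 h)
  obtain ⟨ℓ₀, u₀, hu⟩ : ∃ (ℓ₀ : Dual K M) (u₀ : M), ℓ₀ u₀ = 1 :=
    ⟨(ℓ₁ u₁)⁻¹ • ℓ₁, u₁, by simp [inv_mul_cancel₀ hℓ₁]⟩
  obtain ⟨g, h, hgSp, hρh, hgh, hcgh, hgℓ, hhℓ⟩ :=
    exists_decomp ρ Q θ ℓ₀ u₀ hu hρQ hJQ hnd hJ hQK hℓ.pos c hc φ hcρ hφQ hfpf
  haveI : NeZero ((ℓ : ℕ) : K) := ⟨hℓK⟩
  haveI : NeZero ℓ := ⟨hℓ.ne_zero⟩
  obtain ⟨ζ, hζ⟩ := HasEnoughRootsOfUnity.exists_primitiveRoot K ℓ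
  obtain ⟨j, hj⟩ : ∃ j : Fin ℓ, spec ℓ h (ζ ^ (j : ℕ)) ≠ 0 := by
    by_contra! h0
    have h1 := sum_spec hζ hℓ.pos hℓK h
    rw [Finset.sum_eq_zero (fun k _ => h0 k)] at h1
    exact zero_ne_one h1
  set w : K := ζ ^ (j : ℕ) with hw
  have hwℓ : w ^ ℓ = 1 := by
    rw [hw, ← pow_mul, mul_comm, pow_mul, hζ.pow_eq_one, one_pow]
  set E : End K M := spec ℓ h w with hE
  have hhSp : ∀ T ∈ Sp ρ, T * h = h * T := by
    intro T hT
    obtain ⟨α, rfl⟩ := (mem_Sp_iff ρ).1 hT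
    rw [Finset.sum_mul, Finset.mul_sum]
    refine Finset.sum_congr rfl (fun x _ => ?_)
    rw [smul_mul_assoc, mul_smul_comm, hρh]
  have hESp : ∀ T ∈ Sp ρ, T * E = E * T := by
    intro T hT
    have hcomm : Commute T E := by
      rw [hE]
      unfold spec
      refine Commute.smul_right (Commute.sum_right _ _ _ (fun i _ => ?_)) _
      exact Commute.smul_right (Commute.pow_right (hhSp T hT) i) _
    exact hcomm
  set r₀ : End K M := ∑ i ∈ Finset.range ℓ, w ^ i • g ^ i with hr₀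
  have hr₀Sp : r₀ ∈ Sp ρ :=
    Submodule.sum_mem _ (fun i _ => Submodule.smul_mem _ _ (Sp_pow ρ hgSp i))
  have hr₀E : r₀ * E = 0 := by
    have h1 : ∀ i, w ^ i • g ^ i * E = c ^ i * E := by
      intro i
      have h2 : c ^ i = g ^ i * h ^ i := by
        rw [hcgh]
        exact (show Commute g h from hgh).mul_pow i
      rw [h2, mul_assoc, hE, pow_mul_spec hℓ.pos hhℓ hwℓ, smul_mul_assoc, mul_smul_comm]
    rw [hr₀, Finset.sum_mul, Finset.sum_congr rfl (fun i _ => h1 i), ← Finset.sum_mul, hsum,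
      zero_mul]
  haveI hsimple : IsSimpleRing (Ra ρ) := isSimple_Ra ρ Q θ ℓ₀ u₀ hu hρQ hJQ hnd hJ hQK
  have hr₀0 : r₀ = 0 := by
    let I : TwoSidedIdeal (Ra ρ) := TwoSidedIdeal.mk' {r | r.1 * E = 0}
      (by
        show (0 : End K M) * E = 0
        rw [zero_mul])
      (fun {x y} hx hy => by
        show (x.1 + y.1) * E = 0
        rw [add_mul, show x.1 * E = 0 from hx, show y.1 * E = 0 from hy, add_zero])
      (fun {x} hx => by
        show (-x.1) * E = 0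
        rw [neg_mul, show x.1 * E = 0 from hx, neg_zero])
      (fun {x y} hy => by
        show (x.1 * y.1) * E = 0
        rw [mul_assoc, show y.1 * E = 0 from hy, mul_zero])
      (fun {x y} hx => by
        show (x.1 * y.1) * E = 0
        rw [mul_assoc, hESp _ y.2, ← mul_assoc, show x.1 * E = 0 from hx, zero_mul])
    have hmem : ∀ r : Ra ρ, r ∈ I ↔ r.1 * E = 0 := fun r => by
      show r ∈ TwoSidedIdeal.mk' _ _ _ _ _ _ ↔ _
      rw [TwoSidedIdeal.mem_mk']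
      rfl
    have hr : (⟨r₀, hr₀Sp⟩ : Ra ρ) ∈ I := (hmem _).2 hr₀E
    rcases eq_bot_or_eq_top I with hI | hI
    · rw [hI] at hr
      exact congrArg Subtype.val hr
    · exfalso
      have h1 : (1 : Ra ρ) ∈ I := by rw [hI]; trivial
      have h2 := (hmem _).1 h1
      apply hj
      have h3 : ((1 : Ra ρ) : End K M) = 1 := rfl
      rw [h3, one_mul] at h2
      exact h2
  -- the missing eigenvalue of `g`
  have hwinv : (w⁻¹) ^ ℓ = 1 := by rw [inv_pow, hwℓ, inv_one]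
  obtain ⟨j', hj'lt, hj'⟩ := hζ.eq_pow_of_pow_eq_one hwinv
  let j'' : Fin ℓ := ⟨j', hj'lt⟩
  have hmiss₀ : ∑ i ∈ Finset.range ℓ, ((ζ ^ (j'' : ℕ))⁻¹) ^ i • g ^ i = 0 := by
    show ∑ i ∈ Finset.range ℓ, ((ζ ^ j')⁻¹) ^ i • g ^ i = 0
    rw [hj', inv_inv]
    exact hr₀0
  -- Wedderburn-Artin
  have hpos : 0 < finrank K (Ra ρ) := by
    rw [finrank_Ra ρ Q θ ℓ₀ u₀ hu hρQ hJQ hnd hJ]
    exact Nat.pos_of_ne_zero Subgroup.index_ne_zero_of_finite
  haveI : Module.Finite K (Ra ρ) := Module.finite_of_finrank_pos hpos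
  obtain ⟨n, _, ⟨e₀⟩⟩ := IsSimpleRing.exists_algEquiv_matrix_of_isAlgClosed K (Ra ρ)
  let e : Ra ρ ≃ₐ[K] End K (Fin n → K) := e₀.trans Matrix.toLinAlgEquiv'
  have hdim : Q.index = n * n := by
    rw [← finrank_Ra ρ Q θ ℓ₀ u₀ hu hρQ hJQ hnd hJ, e₀.toLinearEquiv.finrank_eq,
      Module.finrank_matrix]
    simp
  set G : End K (Fin n → K) := e ⟨g, hgSp⟩ with hG
  have hGℓ : G ^ ℓ = 1 := by
    rw [hG, ← map_pow]
    have : (⟨g, hgSp⟩ : Ra ρ) ^ ℓ = 1 := Subtype.ext hgℓ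
    rw [this, map_one]
  have hmiss : spec ℓ G (ζ ^ (j'' : ℕ)) = 0 := by
    have h1 : ∑ i ∈ Finset.range ℓ, ((ζ ^ (j'' : ℕ))⁻¹) ^ i • (⟨g, hgSp⟩ : Ra ρ) ^ i = 0 := by
      apply Subtype.ext
      rw [AddSubmonoidClass.coe_finsetSum]
      exact hmiss₀
    have h2 := congrArg e h1
    rw [map_sum, map_zero] at h2
    unfold spec
    have h3 : ∑ i ∈ Finset.range ℓ, ((ζ ^ (j'' : ℕ))⁻¹) ^ i • G ^ i = 0 := by
      rw [← h2]
      refine Finset.sum_congr rfl (fun i _ => ?_)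
      rw [map_smul, map_pow]
    rw [h3, smul_zero]
  -- the centralizer
  let 𝔉 : Submodule K (End K M) := Sp ρ ⊓ LinearMap.eqLocus (LinearMap.mulLeft K c) (LinearMap.mulRight K c)
  have h𝔉 : ∀ T, T ∈ 𝔉 ↔ T ∈ Sp ρ ∧ c * T = T * c := fun T => by
    show T ∈ Sp ρ ∧ T ∈ LinearMap.eqLocus _ _ ↔ _
    rw [LinearMap.mem_eqLocus]
    rfl
  let Ψ : 𝔉 →ₗ[K] End K (Fin n → K) :=
    { toFun := fun x => e ⟨x.1, ((h𝔉 _).1 x.2).1⟩
      map_add' := fun x y => by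
        rw [← map_add]
        rfl
      map_smul' := fun κ x => by
        rw [RingHom.id_apply, ← map_smul]
        rfl }
  have hΨ : ∀ X : End K (Fin n → K), G * X = X * G → X ∈ LinearMap.range Ψ := by
    intro X hX
    set r : Ra ρ := e.symm X with hr
    have hr1 : e r = X := e.apply_symm_apply X
    have h1 : (⟨g, hgSp⟩ : Ra ρ) * r = r * ⟨g, hgSp⟩ := by
      apply e.injective
      rw [map_mul, map_mul, hr1]
      exact hX
    have h2 : g * r.1 = r.1 * g := congrArg Subtype.val h1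
    have h3 : c * r.1 = r.1 * c := by
      rw [hcgh, mul_assoc, ← hhSp _ r.2, ← mul_assoc, h2, mul_assoc]
    exact ⟨⟨r.1, (h𝔉 _).2 ⟨r.2, h3⟩⟩, hr1⟩
  have hsq := sq_le_centralizer hζ hℓ.pos hℓK hGℓ j'' hmiss (LinearMap.range Ψ) hΨ
  haveI : Module.Finite K (Sp ρ) := FiniteDimensional.span_of_finite K (Set.finite_range ρ)
  haveI : Module.Finite K 𝔉 := Submodule.finiteDimensional_of_le (inf_le_left : 𝔉 ≤ Sp ρ)
  have hrange : finrank K (LinearMap.range Ψ) ≤ finrank K 𝔉 := LinearMap.finrank_range_le Ψ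
  have hfinW : finrank K (Fin n → K) = n := by simp
  rw [hfinW] at hsq
  -- the permutation
  have hQmap : Q.map (φ : J →* J) = Q := by
    ext x
    constructor
    · rintro ⟨y, hy, rfl⟩
      exact (hφQ y).2 hy
    · intro hx
      refine ⟨φ.symm x, (hφQ _).1 ?_, ?_⟩
      · rwa [φ.apply_symm_apply]
      · exact φ.apply_symm_apply x
  let π : Equiv.Perm (J ⧸ Q) := (QuotientGroup.congr Q Q φ hQmap).toEquiv
  have hπ : ∀ x : J, π (QuotientGroup.mk x) = QuotientGroup.mk (φ x) := fun x => rfl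
  have hπpow : ∀ (k : ℕ) (x : J), (π ^ k) (QuotientGroup.mk x) = QuotientGroup.mk ((⇑φ)^[k] x) := by
    intro k
    induction k with
    | zero => intro x; rfl
    | succ k ih =>
      intro x
      rw [pow_succ, Equiv.Perm.mul_apply, hπ, ih, Function.iterate_succ_apply]
  have hπℓ : π ^ ℓ = 1 := by
    ext v
    obtain ⟨x, rfl⟩ := QuotientGroup.mk_surjective v
    rw [hπpow, hφℓ]
    rfl
  have hfix : ∀ v, π v = v → v = 1 := by
    intro v hv
    obtain ⟨x, rfl⟩ := QuotientGroup.mk_surjective v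
    rw [hπ] at hv
    have h1 : x⁻¹ * φ x ∈ Q := QuotientGroup.eq.1 hv.symm
    exact (QuotientGroup.eq_one_iff x).2 (hfpf x h1)
  letI : Fintype (J ⧸ Q) := Fintype.ofFinite _
  set c' : End K M := c ^ (ℓ - 1) with hc'
  have hcc' : c * c' = 1 := by
    rw [hc', ← pow_succ', Nat.sub_add_cancel hℓ.pos, hc]
  have hc'c : c' * c = 1 := by
    rw [hc', ← pow_succ, Nat.sub_add_cancel hℓ.pos, hc]
  have hle := finrank_comm_le ρ Q θ ℓ₀ u₀ hu hρQ hJQ hnd hJ hQK φ hcρ hc'c hcc' π hπ 𝔉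
    (fun T hT => ((h𝔉 T).1 hT).1) (fun T hT => ((h𝔉 T).1 hT).2)
  have hcount := orbit_count π hℓ hπℓ 1 hfix
  have hcard : Fintype.card (J ⧸ Q) = Q.index := by
    rw [Subgroup.index, Nat.card_eq_fintype_card]
  have hmod : Q.index ≡ 1 [MOD ℓ] := by
    haveI : Fact ℓ.Prime := ⟨hℓ⟩
    let f : Function.End (J ⧸ Q) := ⇑π
    have hf : f ^ ℓ ^ 1 = 1 := by
      have hp : ∀ (k : ℕ) v, (f ^ k) v = (π ^ k) v := by
        intro k
        induction k with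
        | zero => intro v; rfl
        | succ k ih =>
          intro v
          rw [pow_succ, pow_succ, Equiv.Perm.mul_apply, ← ih]
          rfl
      rw [pow_one]
      funext v
      rw [hp, hπℓ]
      rfl
    have h1 := Equiv.Perm.card_fixedPoints_modEq hf
    have h2 : Fintype.card (Function.fixedPoints f) = 1 := by
      rw [Fintype.card_eq_one_iff]
      refine ⟨⟨1, ?_⟩, fun y => Subtype.ext (hfix y.1 y.2)⟩
      show π (1 : J ⧸ Q) = 1
      exact map_one (QuotientGroup.congr Q Q φ hQmap)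
    rw [h2, hcard] at h1
    exact h1
  have ho : 1 ≤ Fintype.card (Quotient (Equiv.Perm.SameCycle.setoid π)) :=
    Fintype.card_pos_iff.2 ⟨Quotient.mk _ 1⟩
  rw [hcard] at hcount
  have hfinal : n * n ≤ (ℓ - 1) *
      Fintype.card (Quotient (Equiv.Perm.SameCycle.setoid π)) := by
    refine le_trans ?_ (Nat.mul_le_mul_left _ (hrange.trans hle))
    rw [← pow_two]
    exact hsq
  rcases arith hℓ hdim hfinal hcount hmod ho with h1 | h1
  · exact Or.inl h1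
  · exact Or.inr ⟨n, hdim.symm, h1⟩

end Cfsg.Agent.Lib.HHCount
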