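import Mathlib

set_option autoImplicit false
set_option linter.unusedSectionVars false
set_option linter.unusedVariables false
set_option linter.style.haveILetI false
set_option linter.deprecated false

/-!
A lower bound for the dimension of the commutant of a nilpotent operator:
`(dim U)^2 ≤ s * dim (commutant u)` when `u ^ s = 0`.
-/

namespace Cfsg.Agent.Lib.HHE1

open Module

universe v

variable {K : Type*} [Field K]

/-- The commutant of an operator. -/
def comm {U : Type*} [AddCommGroup U] [Module K U] (u : End K U) : Submodule K (End K U) where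
  carrier := {a | a * u = u * a}
  add_mem' := by
    intro a b ha hb
    simp only [Set.mem_ofPred_eq] at *
    rw [add_mul, mul_add, ha, hb]
  zero_mem' := by simp
  smul_mem' := by
    intro r a ha
    simp only [Set.mem_ofPred_eq] at *
    rw [smul_mul_assoc, mul_smul_comm, ha]

theorem mem_comm {U : Type*} [AddCommGroup U] [Module K U] {u a : End K U} :
    a ∈ comm u ↔ a * u = u * a := Iff.rfl

theorem comm_step {U : Type v} [AddCommGroup U] [Module K U] [FiniteDimensional K U] (u : End K U) :
    finrank K (comm (u.restrict (p := LinearMap.range u) (q := LinearMap.range u)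
        (fun x _ => LinearMap.mem_range_self u x))) +
      (finrank K (LinearMap.ker u)) ^ 2 ≤ finrank K (comm u) := by
  classical
  set U' : Submodule K U := LinearMap.range u with hU'
  have hu' : ∀ x ∈ U', u x ∈ U' := fun x _ => LinearMap.mem_range_self u x
  set u' : End K U' := u.restrict (p := U') (q := U') hu' with hu'def
  obtain ⟨X, hX⟩ := Submodule.exists_isCompl U'
  let π : U →ₗ[K] U' := U'.linearProjOfIsCompl X hX
  have hπ : ∀ w : U', π (w : U) = w := fun w => Submodule.linearProjOfIsCompl_apply_left hX w
  let rr : U →ₗ[K] U' := u.rangeRestrict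
  have hrr : ∀ v, ((rr v : U') : U) = u v := fun v => rfl
  obtain ⟨σ, hσ⟩ := LinearMap.exists_rightInverse_of_surjective rr (LinearMap.range_rangeRestrict u)
  have hσ' : ∀ w : U', rr (σ w) = w := fun w => LinearMap.congr_fun hσ w
  have hσu : ∀ w : U', u (σ w) = w := fun w => by
    rw [← hrr, hσ']
  let δ : U →ₗ[K] U := LinearMap.id - U'.subtype ∘ₗ π
  have hδ : ∀ v, δ v = v - (π v : U) := fun v => rfl
  have hδ0 : ∀ w : U', δ (w : U) = 0 := by
    intro w
    rw [hδ, hπ, sub_self]
  have hrru' : ∀ w : U', rr (w : U) = u' w := fun w => rfl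
  -- the extension map
  let E : End K U' →ₗ[K] End K U :=
    { toFun := fun b => U'.subtype ∘ₗ b ∘ₗ π + σ ∘ₗ b ∘ₗ rr ∘ₗ δ
      map_add' := by
        intro a b
        ext v
        simp [LinearMap.add_apply, map_add, add_add_add_comm]
      map_smul' := by
        intro r a
        ext v
        simp [LinearMap.add_apply, LinearMap.smul_apply, map_smul] }
  have hE : ∀ b v, E b v = (b (π v) : U) + σ (b (rr (δ v))) := fun b v => rfl
  let F : ((U ⧸ U') →ₗ[K] LinearMap.ker u) →ₗ[K] End K U :=
    { toFun := fun f => (LinearMap.ker u).subtype ∘ₗ f ∘ₗ U'.mkQ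
      map_add' := by
        intro a b
        ext v
        simp
      map_smul' := by
        intro r a
        ext v
        simp }
  have hF : ∀ f v, F f v = (f (U'.mkQ v) : U) := fun f v => rfl
  have hFu : ∀ f v, u (F f v) = 0 := by
    intro f v
    rw [hF]
    exact (f (U'.mkQ v)).2
  have hFr : ∀ f (w : U'), F f (w : U) = 0 := by
    intro f w
    rw [hF]
    have : U'.mkQ (w : U) = 0 := by
      rw [Submodule.mkQ_apply, Submodule.Quotient.mk_eq_zero]
      exact w.2
    rw [this, map_zero]
    rfl
  let Φ₀ : (comm u' × ((U ⧸ U') →ₗ[K] LinearMap.ker u)) →ₗ[K] End K U :=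
    (E ∘ₗ (comm u').subtype).coprod F
  have hΦ₀ : ∀ (b : comm u') f v, Φ₀ (b, f) v = E (b : End K U') v + F f v := fun b f v => rfl
  have hΦmem : ∀ x, Φ₀ x ∈ comm u := by
    rintro ⟨b, f⟩
    rw [mem_comm]
    ext v
    have hbc : ∀ w, (b : End K U') (u' w) = u' ((b : End K U') w) := fun w =>
      LinearMap.congr_fun (mem_comm.mp b.2) w
    simp only [Module.End.mul_apply]
    rw [hΦ₀, hΦ₀, map_add, hFu, add_zero, hE, hE, map_add, hσu]
    have h1 : rr (u v) = u' (rr v) := rfl
    have h2 : π (u v) = rr v := by
      have : u v = (rr v : U) := rfl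
      rw [this, hπ]
    have h3 : δ (u v) = 0 := by
      have : u v = (rr v : U) := rfl
      rw [this, hδ0]
    have h4 : F f (u v) = 0 := by
      have : u v = (rr v : U) := rfl
      rw [this, hFr]
    rw [h2, h3, h4, map_zero, map_zero, map_zero, add_zero, add_zero]
    have h5 : u ((b : End K U') (π v) : U) = ((u' ((b : End K U') (π v)) : U')) := rfl
    rw [h5, ← hbc]
    have h6 : rr (δ v) = rr v - u' (π v) := by
      rw [hδ, map_sub, hrru']
    rw [h6, map_sub]
    simp
  let Φ : (comm u' × ((U ⧸ U') →ₗ[K] LinearMap.ker u)) →ₗ[K] comm u :=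
    LinearMap.codRestrict (comm u) Φ₀ hΦmem
  have hΦinj : Function.Injective Φ := by
    rw [injective_iff_map_eq_zero]
    rintro ⟨b, f⟩ h0
    have h1 : ∀ v, E (b : End K U') v + F f v = 0 := by
      intro v
      have := LinearMap.congr_fun (congrArg Subtype.val h0) v
      exact this
    have hb : b = 0 := by
      apply Subtype.ext
      ext w
      have h2 := h1 (w : U)
      rw [hFr, add_zero, hE, hπ, hδ0, map_zero, map_zero, map_zero, add_zero] at h2
      simpa using h2
    have hf : f = 0 := by
      subst hb
      apply LinearMap.ext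
      intro x
      obtain ⟨v, rfl⟩ := Submodule.mkQ_surjective U' x
      apply Subtype.ext
      have h2 := h1 v
      simp only [ZeroMemClass.coe_zero, map_zero, LinearMap.zero_apply, zero_add] at h2
      rw [hF] at h2
      simpa using h2
    rw [hb, hf]
    rfl
  have h1 := LinearMap.finrank_le_finrank_of_injective hΦinj
  haveI : Module.Free K (comm u') := by
    have := Module.Free.of_divisionRing K (comm u')
    exact this
  rw [Module.finrank_prod, Module.finrank_linearMap] at h1
  have h2 : finrank K (U ⧸ U') = finrank K (LinearMap.ker u) := by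
    have h3 := Submodule.finrank_quotient_add_finrank U'
    have h4 : finrank K U' + finrank K (LinearMap.ker u) = finrank K U :=
      LinearMap.finrank_range_add_finrank_ker u
    omega
  rw [h2] at h1
  rw [pow_two]
  exact h1

/-- **Commutant bound.** -/
theorem sq_finrank_le {U : Type v} [AddCommGroup U] [Module K U] [FiniteDimensional K U] (s : ℕ) (u : End K U)
    (hs : u ^ s = 0) : (finrank K U) ^ 2 ≤ s * finrank K (comm u) := by
  induction s generalizing U with
  | zero =>
    rw [pow_zero] at hs
    have h1 : ∀ v : U, v = 0 := by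
      intro v
      have := LinearMap.congr_fun hs v
      simpa using this
    have h2 : Subsingleton U := ⟨fun a b => by rw [h1 a, h1 b]⟩
    have h3 : finrank K U = 0 := finrank_zero_of_subsingleton
    rw [h3]
    simp
  | succ s ih =>
    have hu' : ∀ x ∈ LinearMap.range u, u x ∈ LinearMap.range u := fun x _ => LinearMap.mem_range_self u x
    set u' : End K (LinearMap.range u) := u.restrict (p := LinearMap.range u) (q := LinearMap.range u) hu' with hu'def
    have hpow : ∀ (k : ℕ) (x : LinearMap.range u), (((u' ^ k) x : LinearMap.range u) : U) = (u ^ k) x := by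
      intro k x
      induction k with
      | zero => simp
      | succ k ih2 =>
        rw [pow_succ', Module.End.mul_apply, pow_succ', Module.End.mul_apply, ← ih2]
        rfl
    have hs' : u' ^ s = 0 := by
      ext ⟨x, y, rfl⟩
      rw [hpow]
      have h1 := LinearMap.congr_fun hs y
      rw [pow_succ, Module.End.mul_apply] at h1
      exact h1
    have h1 := ih u' hs'
    have h2 := comm_step u
    have h3 := LinearMap.finrank_range_add_finrank_ker u
    set r := finrank K (LinearMap.range u) with hr
    set n := finrank K (LinearMap.ker u) with hn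
    set e' := finrank K (comm u') with he'
    set e := finrank K (comm u) with he
    rw [← h3]
    have h4 : (r + n) ^ 2 ≤ (s + 1) * (e' + n ^ 2) := by
      rcases Nat.eq_zero_or_pos s with h0 | h0
      · subst h0
        have h5 : r = 0 := by
          have : r ^ 2 ≤ 0 := by simpa using h1
          exact pow_eq_zero_iff (two_ne_zero) |>.mp (Nat.le_zero.mp this)
        rw [h5]
        nlinarith
      · apply Nat.le_of_mul_le_mul_left _ h0
        zify at h1 ⊢
        have h6 : (0 : ℤ) ≤ ((s : ℤ) * n - r) ^ 2 := sq_nonneg _
        have h7 : ((s : ℤ) + 1) * (r : ℤ) ^ 2 ≤ ((s : ℤ) + 1) * ((s : ℤ) * e') :=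
          mul_le_mul_of_nonneg_left h1 (by positivity)
        nlinarith
    calc (r + n) ^ 2 ≤ (s + 1) * (e' + n ^ 2) := h4
      _ ≤ (s + 1) * e := Nat.mul_le_mul_left _ h2

end Cfsg.Agent.Lib.HHE1
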