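/-
HHFrob: a nilpotent group `T` of operators, normalized by `y` of prime order acting fixed-point-freely on `T`.
If `y` has no eigenvalue `1` then `T = 1`; if its `1`-eigenspace has dimension at most `1` then `T` is abelian.
-/
import Mathlib
import Cfsg.Agent.Lib.HHFree

set_option autoImplicit false
set_option linter.style.haveILetI false
set_option linter.unusedSectionVars false
set_option linter.unusedVariables false

namespace Cfsg.Agent.Lib.HHFrob

open Module Cfsg.Agent.Lib.BGWeight Cfsg.Agent.Lib.BGSymp Cfsg.Agent.Lib.HHFree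

/-- A fixed-point-free element moves cosets of an invariant subgroup. -/
theorem fpf_quot {G : Type*} [Group G] (T N : Subgroup G) [Finite N] (hNT : N ≤ T) (y : G)
    (hyN : ∀ n ∈ N, y * n * y⁻¹ ∈ N) (hfpf : ∀ a ∈ T, y * a = a * y → a = 1) {a : G} (ha : a ∈ T)
    (hc : y * a * y⁻¹ * a⁻¹ ∈ N) : a ∈ N := by
  have key : ∀ {b n : G}, b ∈ T → n ∈ T → y * n * y⁻¹ * n⁻¹ = y * b * y⁻¹ * b⁻¹ → n = b := by
    intro b n hb hn h1
    have h1' : y * n * y⁻¹ = y * b * y⁻¹ * b⁻¹ * n := by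
      rw [← h1]
      group
    have h2 : y * (b⁻¹ * n) = (b⁻¹ * n) * y := by
      calc y * (b⁻¹ * n) = (y * b⁻¹ * y⁻¹) * (y * n * y⁻¹) * y := by group
        _ = (y * b⁻¹ * y⁻¹) * (y * b * y⁻¹ * b⁻¹ * n) * y := by rw [h1']
        _ = (b⁻¹ * n) * y := by group
    have h3 := hfpf _ (T.mul_mem (T.inv_mem hb) hn) h2
    calc n = b * (b⁻¹ * n) := by group
      _ = b := by rw [h3, mul_one]
  let f : N → N := fun n => ⟨y * n * y⁻¹ * (n : G)⁻¹, N.mul_mem (hyN n n.2) (N.inv_mem n.2)⟩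
  have hf : Function.Injective f := by
    intro n m hnm
    exact Subtype.ext (key (hNT m.2) (hNT n.2) (congrArg Subtype.val hnm))
  obtain ⟨n, hn⟩ := Finite.surjective_of_injective hf ⟨_, hc⟩
  have h1 := key ha (hNT n.2) (congrArg Subtype.val hn)
  rw [← h1]
  exact n.2

section

variable {K : Type*} [Field K] [IsAlgClosed K] {U : Type*} [AddCommGroup U] [Module K U]
  [FiniteDimensional K U]

/-- The centre of a nilpotent group of operators normalized by `y`. -/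
theorem center_facts (T : Subgroup (Module.End K U)ˣ) [Finite T] (hnil : Group.IsNilpotent T)
    (hcard : (Nat.card T : K) ≠ 0) (hne : T ≠ ⊥) (y : (Module.End K U)ˣ) (hy : ∀ a ∈ T, y * a * y⁻¹ ∈ T)
    (hy' : ∀ a ∈ T, y⁻¹ * a * y ∈ T) :
    ∃ A : Subgroup (Module.End K U)ˣ, A ≤ T ∧ (∀ a ∈ A, ∀ t ∈ T, a * t = t * a) ∧
      (∀ a ∈ A, y * a * y⁻¹ ∈ A) ∧ (∀ a ∈ A, y⁻¹ * a * y ∈ A) ∧ A ≠ ⊥ ∧ (Nat.card A : K) ≠ 0 := by
  haveI : Nontrivial T := (Subgroup.nontrivial_iff_ne_bot T).2 hne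
  have hcen := Group.IsNilpotent.center_ne_bot (G := T)
  let A : Subgroup (Module.End K U)ˣ := (Subgroup.center T).map T.subtype
  have hmemA : ∀ a, a ∈ A ↔ a ∈ T ∧ ∀ t ∈ T, a * t = t * a := by
    intro a
    constructor
    · rintro ⟨b, hb, rfl⟩
      refine ⟨b.2, fun t ht => ?_⟩
      have := (Subgroup.mem_center_iff.1 hb) ⟨t, ht⟩
      exact (congrArg Subtype.val this).symm
    · rintro ⟨ha, hc⟩
      refine ⟨⟨a, ha⟩, ?_, rfl⟩
      show (⟨a, ha⟩ : T) ∈ Subgroup.center T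
      rw [Subgroup.mem_center_iff]
      intro t
      exact (Subtype.ext (hc t t.2)).symm
  refine ⟨A, Subgroup.map_subtype_le _, fun a ha t ht => ((hmemA a).1 ha).2 t ht, ?_, ?_, ?_, ?_⟩
  · intro a ha
    obtain ⟨ha1, ha2⟩ := (hmemA a).1 ha
    refine (hmemA _).2 ⟨hy a ha1, fun t ht => ?_⟩
    have h1 := ha2 _ (hy' t ht)
    calc y * a * y⁻¹ * t = y * (a * (y⁻¹ * t * y)) * y⁻¹ := by group
      _ = y * ((y⁻¹ * t * y) * a) * y⁻¹ := by rw [h1]
      _ = t * (y * a * y⁻¹) := by group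
  · intro a ha
    obtain ⟨ha1, ha2⟩ := (hmemA a).1 ha
    refine (hmemA _).2 ⟨hy' a ha1, fun t ht => ?_⟩
    have h1 := ha2 _ (hy t ht)
    calc y⁻¹ * a * y * t = y⁻¹ * (a * (y * t * y⁻¹)) * y := by group
      _ = y⁻¹ * ((y * t * y⁻¹) * a) * y := by rw [h1]
      _ = t * (y⁻¹ * a * y) := by group
  · intro h
    apply hcen
    exact (Subgroup.map_eq_bot_iff_of_injective _ T.subtype_injective).1 h
  · have h1 : Nat.card A ∣ Nat.card T := by
      have h2 : A ≤ T := Subgroup.map_subtype_le _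
      exact Subgroup.card_dvd_of_le h2
    obtain ⟨c, hc⟩ := h1
    intro h0
    apply hcard
    rw [hc]
    push_cast
    rw [h0, zero_mul]

/-- **No eigenvalue `1`**: the group of operators is trivial. -/
theorem frob_trivial (T : Subgroup (Module.End K U)ˣ) [Finite T] (hnil : Group.IsNilpotent T)
    (hcard : (Nat.card T : K) ≠ 0) (y : (Module.End K U)ˣ) (hy : ∀ a ∈ T, y * a * y⁻¹ ∈ T)
    (hy' : ∀ a ∈ T, y⁻¹ * a * y ∈ T) {s : ℕ} (hs : s.Prime) (hys : y ^ s = 1)
    (hfpf : ∀ a ∈ T, y * a = a * y → a = 1)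
    (hker : LinearMap.ker ((y : Module.End K U) - 1) = ⊥) : T = ⊥ := by
  by_contra hne
  obtain ⟨A, hAT, hAc, hAy, hAy', hAne, hAcard⟩ := center_facts T hcard hne y hy hy' (hnil := hnil)
  haveI : Finite A := Finite.of_injective _ (Subgroup.inclusion_injective hAT)
  obtain ⟨a₀, ha₀⟩ := Subgroup.ne_bot_iff_exists_ne_one.1 hAne
  refine fix_of_abelian (MonoidHom.id _) A (fun a ha b hb => hAc a ha b (hAT hb)) hAcard y hAy hAy' hs hys
    (fun a ha h => hfpf a (hAT ha) h) a₀ a₀.2 ?_ hker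
  intro h
  exact ha₀ (Subtype.ext h)

/-- Restriction of operators to a subspace. -/
theorem exists_restrict (W : Submodule K U) :
    ∃ (S : Subgroup (Module.End K U)ˣ) (r : S →* (Module.End K W)ˣ),
      (∀ g : (Module.End K U)ˣ, (∀ v ∈ W, (g : Module.End K U) v ∈ W) →
        (∀ v ∈ W, ((g⁻¹ : (Module.End K U)ˣ) : Module.End K U) v ∈ W) → g ∈ S) ∧
      ∀ (g : S) (v : W), (((r g : (Module.End K W)ˣ) : Module.End K W) v : U) =
        ((g : (Module.End K U)ˣ) : Module.End K U) v := by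
  let S : Subgroup (Module.End K U)ˣ :=
    { carrier := {g | (∀ v ∈ W, (g : Module.End K U) v ∈ W) ∧
        (∀ v ∈ W, ((g⁻¹ : (Module.End K U)ˣ) : Module.End K U) v ∈ W)}
      one_mem' := by
        constructor <;> intro v hv <;> simpa using hv
      mul_mem' := by
        rintro a b ⟨ha, ha'⟩ ⟨hb, hb'⟩
        constructor
        · intro v hv
          exact ha _ (hb v hv)
        · intro v hv
          rw [mul_inv_rev]
          exact hb' _ (ha' v hv)
      inv_mem' := by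
        rintro a ⟨ha, ha'⟩
        constructor
        · exact ha'
        · intro v hv
          rw [inv_inv]
          exact ha v hv }
  let r₁ : S →* Module.End K W :=
    { toFun := fun g => ((g : (Module.End K U)ˣ) : Module.End K U).restrict g.2.1
      map_one' := by
        ext v
        simp
      map_mul' := by
        intro g h
        ext v
        simp }
  refine ⟨S, r₁.toHomUnits, fun g h1 h2 => ⟨h1, h2⟩, fun g v => rfl⟩

/-- On an invariant subspace without `y`-fixed vectors, the group acts trivially. -/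
theorem frob_trivial_on (T : Subgroup (Module.End K U)ˣ) [Finite T] (hnil : Group.IsNilpotent T)
    (hcard : (Nat.card T : K) ≠ 0) (y : (Module.End K U)ˣ) (hy : ∀ a ∈ T, y * a * y⁻¹ ∈ T)
    (hy' : ∀ a ∈ T, y⁻¹ * a * y ∈ T) {s : ℕ} (hs : s.Prime) (hys : y ^ s = 1)
    (hfpf : ∀ a ∈ T, y * a = a * y → a = 1) (W : Submodule K U)
    (hTW : ∀ t ∈ T, ∀ v ∈ W, (t : Module.End K U) v ∈ W)
    (hyW : ∀ v ∈ W, (y : Module.End K U) v ∈ W)
    (hno : ∀ v ∈ W, (y : Module.End K U) v = v → v = 0) :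
    ∀ t ∈ T, ∀ v ∈ W, (t : Module.End K U) v = v := by
  classical
  obtain ⟨S, r, hS, hr⟩ := exists_restrict (K := K) W
  have hyinv : ∀ v ∈ W, ((y⁻¹ : (Module.End K U)ˣ) : Module.End K U) v ∈ W := by
    intro v hv
    have h1 : y⁻¹ = y ^ (s - 1) := by
      have hs1 : s = (s - 1) + 1 := by have := hs.one_lt; omega
      apply inv_eq_of_mul_eq_one_right
      rw [← pow_succ', ← hs1, hys]
    rw [h1]
    generalize s - 1 = n
    induction n with
    | zero => simpa using hv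
    | succ n ih =>
      rw [pow_succ']
      exact hyW _ ih
  have hyS : y ∈ S := hS y hyW hyinv
  have hTS : T ≤ S := fun t ht => hS t (hTW t ht) (hTW t⁻¹ (T.inv_mem ht))
  let T₁ : Subgroup (Module.End K W)ˣ := (T.subgroupOf S).map r
  have hmemT₁ : ∀ t, t ∈ T₁ ↔ ∃ g : S, (g : (Module.End K U)ˣ) ∈ T ∧ r g = t := by
    intro t
    constructor
    · rintro ⟨g, hg, rfl⟩
      exact ⟨g, hg, rfl⟩
    · rintro ⟨g, hg, rfl⟩
      exact ⟨g, hg, rfl⟩
  let π : T →* T₁ :=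
    { toFun := fun t => ⟨r ⟨t, hTS t.2⟩, (hmemT₁ _).2 ⟨_, t.2, rfl⟩⟩
      map_one' := by
        apply Subtype.ext
        exact map_one r
      map_mul' := by
        intro g h
        apply Subtype.ext
        exact map_mul r ⟨g, hTS g.2⟩ ⟨h, hTS h.2⟩ }
  have hπ : ∀ t : T, ((π t : T₁) : (Module.End K W)ˣ) = r ⟨t, hTS t.2⟩ := fun t => rfl
  have hπs : Function.Surjective π := by
    rintro ⟨t, ht⟩
    obtain ⟨g, hg, rfl⟩ := (hmemT₁ t).1 ht
    exact ⟨⟨g, hg⟩, rfl⟩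
  haveI : Finite T₁ := Finite.of_surjective π hπs
  have hnil₁ : Group.IsNilpotent T₁ := Group.nilpotent_of_surjective π hπs
  have hcard₁ : (Nat.card T₁ : K) ≠ 0 := by
    obtain ⟨c, hc⟩ := Subgroup.card_dvd_of_surjective π hπs
    intro h0
    apply hcard
    rw [hc]
    push_cast
    rw [h0, zero_mul]
  let y₁ : (Module.End K W)ˣ := r ⟨y, hyS⟩
  have hconj : ∀ t : S, y₁ * r t * y₁⁻¹ = r (⟨y, hyS⟩ * t * (⟨y, hyS⟩ : S)⁻¹) := by
    intro t
    rw [map_mul, map_mul, map_inv]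
  have hconj' : ∀ t : S, y₁⁻¹ * r t * y₁ = r ((⟨y, hyS⟩ : S)⁻¹ * t * ⟨y, hyS⟩) := by
    intro t
    rw [map_mul, map_mul, map_inv]
  have hy₁ : ∀ a ∈ T₁, y₁ * a * y₁⁻¹ ∈ T₁ := by
    intro a ha
    obtain ⟨g, hg, rfl⟩ := (hmemT₁ a).1 ha
    rw [hconj]
    exact (hmemT₁ _).2 ⟨_, hy g hg, rfl⟩
  have hy₁' : ∀ a ∈ T₁, y₁⁻¹ * a * y₁ ∈ T₁ := by
    intro a ha
    obtain ⟨g, hg, rfl⟩ := (hmemT₁ a).1 ha
    rw [hconj']
    exact (hmemT₁ _).2 ⟨_, hy' g hg, rfl⟩
  have hy₁s : y₁ ^ s = 1 := by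
    rw [← map_pow]
    have : (⟨y, hyS⟩ : S) ^ s = 1 := Subtype.ext hys
    rw [this, map_one]
  -- the kernel of the restriction
  let N₀ : Subgroup (Module.End K U)ˣ :=
    { carrier := {t | t ∈ T ∧ ∀ v ∈ W, (t : Module.End K U) v = v}
      one_mem' := ⟨T.one_mem, fun v _ => by simp⟩
      mul_mem' := by
        rintro a b ⟨ha, ha'⟩ ⟨hb, hb'⟩
        refine ⟨T.mul_mem ha hb, fun v hv => ?_⟩
        rw [Units.val_mul, Module.End.mul_apply, hb' v hv, ha' v hv]
      inv_mem' := by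
        rintro a ⟨ha, ha'⟩
        refine ⟨T.inv_mem ha, fun v hv => ?_⟩
        have h1 := ha' v hv
        calc ((a⁻¹ : (Module.End K U)ˣ) : Module.End K U) v
            = ((a⁻¹ : (Module.End K U)ˣ) : Module.End K U) ((a : Module.End K U) v) := by rw [h1]
          _ = v := by
            rw [← Module.End.mul_apply, ← Units.val_mul, inv_mul_cancel, Units.val_one,
              Module.End.one_apply] }
  have hmemN₀ : ∀ t, t ∈ N₀ ↔ t ∈ T ∧ ∀ v ∈ W, (t : Module.End K U) v = v := fun t => Iff.rfl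
  haveI : Finite N₀ := Finite.of_injective (Subgroup.inclusion (show N₀ ≤ T from fun t ht => ht.1))
    (Subgroup.inclusion_injective _)
  have hrN : ∀ t : S, (t : (Module.End K U)ˣ) ∈ T → (r t = 1 ↔ (t : (Module.End K U)ˣ) ∈ N₀) := by
    intro t ht
    constructor
    · intro h1
      refine ⟨ht, fun v hv => ?_⟩
      have h2 := hr t ⟨v, hv⟩
      rw [h1] at h2
      exact h2.symm
    · intro h1
      apply Units.ext
      ext v
      rw [hr]
      exact h1.2 v v.2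
  have hyN : ∀ n ∈ N₀, y * n * y⁻¹ ∈ N₀ := by
    rintro n ⟨hn, hn'⟩
    refine ⟨hy n hn, fun v hv => ?_⟩
    have h1 : ((y * n * y⁻¹ : (Module.End K U)ˣ) : Module.End K U) v =
        (y : Module.End K U) ((n : Module.End K U) (((y⁻¹ : (Module.End K U)ˣ) : Module.End K U) v)) := rfl
    rw [h1, hn' _ (hyinv v hv), ← Module.End.mul_apply, ← Units.val_mul, mul_inv_cancel, Units.val_one,
      Module.End.one_apply]
  have hfpf₁ : ∀ a ∈ T₁, y₁ * a = a * y₁ → a = 1 := by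
    intro a ha hc
    obtain ⟨g, hg, rfl⟩ := (hmemT₁ a).1 ha
    have h1 : r (⟨y, hyS⟩ * g * (⟨y, hyS⟩ : S)⁻¹ * g⁻¹) = 1 := by
      rw [map_mul, map_mul, map_mul, map_inv, map_inv]
      show y₁ * r g * y₁⁻¹ * (r g)⁻¹ = 1
      rw [hc]
      group
    have h2 := (hrN _ (T.mul_mem (hy g hg) (T.inv_mem hg))).1 h1
    have h3 : (g : (Module.End K U)ˣ) ∈ N₀ :=
      fpf_quot T N₀ (fun t ht => ht.1) y hyN hfpf hg h2
    exact (hrN g hg).2 h3
  have hker₁ : LinearMap.ker ((y₁ : Module.End K W) - 1) = ⊥ := by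
    rw [LinearMap.ker_eq_bot']
    intro v hv
    have h1 : (y₁ : Module.End K W) v = v := by
      rw [LinearMap.sub_apply, sub_eq_zero] at hv
      simpa using hv
    have h2 := hr ⟨y, hyS⟩ v
    have h3 : (y : Module.End K U) (v : U) = v := by
      have h4 : ((r ⟨y, hyS⟩ : (Module.End K W)ˣ) : Module.End K W) v = v := h1
      rw [h4] at h2
      exact h2.symm
    exact Subtype.ext (hno v v.2 h3)
  have hT₁ := frob_trivial T₁ hnil₁ hcard₁ y₁ hy₁ hy₁' hs hy₁s hfpf₁ hker₁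
  intro t ht v hv
  have h1 : r ⟨t, hTS ht⟩ ∈ T₁ := (hmemT₁ _).2 ⟨_, ht, rfl⟩
  rw [hT₁, Subgroup.mem_bot] at h1
  exact ((hrN _ ht).1 h1).2 v hv

/-- **Eigenspace of `y` at most one-dimensional**: the group of operators is abelian. -/
theorem frob_core (T : Subgroup (Module.End K U)ˣ) [Finite T] (hnil : Group.IsNilpotent T)
    (hcard : (Nat.card T : K) ≠ 0) (y : (Module.End K U)ˣ) (hy : ∀ a ∈ T, y * a * y⁻¹ ∈ T)
    (hy' : ∀ a ∈ T, y⁻¹ * a * y ∈ T) {s : ℕ} (hs : s.Prime) (hys : y ^ s = 1)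
    (hfpf : ∀ a ∈ T, y * a = a * y → a = 1)
    (hdim : finrank K (LinearMap.ker ((y : Module.End K U) - 1)) ≤ 1) :
    ∀ a ∈ T, ∀ b ∈ T, a * b = b * a := by
  classical
  intro a ha b hb
  by_cases hT : T = ⊥
  · subst hT
    rw [Subgroup.mem_bot] at ha hb
    rw [ha, hb]
  obtain ⟨A, hAT, hAc, hAy, hAy', hAne, hAcard⟩ := center_facts T hnil hcard hT y hy hy'
  haveI : Finite A := Finite.of_injective _ (Subgroup.inclusion_injective hAT)
  letI cA : CommGroup A :=
    { (inferInstance : Group A) with mul_comm := fun a b => Subtype.ext (hAc a a.2 b (hAT b.2)) }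
  haveI := Fintype.ofFinite A
  let ρA : A →* Module.End K U := (Units.coeHom _).comp A.subtype
  have hρA : ∀ a : A, ρA a = (((a : (Module.End K U)ˣ)) : Module.End K U) := fun a => rfl
  let σ : MulAut A := conjAut A y hAy hAy'
  have hσ : ∀ w, (y : Module.End K U) * ρA w = ρA (σ w) * (y : Module.End K U) := by
    intro w
    rw [hρA, hρA, ← Units.val_mul, ← Units.val_mul, conjAut_apply]
    congr 1
    group
  have hW : (Fintype.card A : K) ≠ 0 := by rwa [← Nat.card_eq_fintype_card]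
  have hfp := conjAut_fp A y hAy hAy' hs hys (fun a ha h => hfpf a (hAT ha) h)
  -- the fixed vectors
  let Sm : U → U := fun v => ∑ i ∈ Finset.range s, ((y ^ i : (Module.End K U)ˣ) : Module.End K U) v
  have hSfix : ∀ v, Sm v ∈ LinearMap.ker ((y : Module.End K U) - 1) := by
    intro v
    rw [LinearMap.mem_ker, LinearMap.sub_apply, sum_fixed y hys v]
    simp [Sm]
  have hSproj : ∀ ψ : A →* Kˣ, ψ ≠ 1 → ∀ v ∈ wsp ρA ψ, eproj ρA ψ (Sm v) = v :=
    fun ψ hψ v hv => eproj_sum ρA hW y σ hσ hs.pos hfp ψ hψ hv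
  obtain ⟨g₀, hg₀⟩ := finrank_le_one_iff.1 hdim
  have hprop : ∀ u₁ ∈ LinearMap.ker ((y : Module.End K U) - 1),
      ∀ u₂ ∈ LinearMap.ker ((y : Module.End K U) - 1), u₁ ≠ 0 → ∃ c : K, u₂ = c • u₁ := by
    intro u₁ hu₁ u₂ hu₂ hne
    obtain ⟨c₁, hc₁⟩ := hg₀ ⟨u₁, hu₁⟩
    obtain ⟨c₂, hc₂⟩ := hg₀ ⟨u₂, hu₂⟩
    have hc₁' : c₁ • (g₀ : U) = u₁ := congrArg Subtype.val hc₁
    have hc₂' : c₂ • (g₀ : U) = u₂ := congrArg Subtype.val hc₂
    have hc₁0 : c₁ ≠ 0 := by
      rintro rfl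
      rw [zero_smul] at hc₁'
      exact hne hc₁'.symm
    refine ⟨c₂ * c₁⁻¹, ?_⟩
    rw [← hc₁', ← hc₂', smul_smul, mul_assoc, inv_mul_cancel₀ hc₁0, mul_one]
  -- two vectors of a nontrivial weight space are proportional
  have hwsp : ∀ ψ : A →* Kˣ, ψ ≠ 1 → ∀ v ∈ wsp ρA ψ, ∀ w ∈ wsp ρA ψ, v ≠ 0 → ∃ c : K, w = c • v := by
    intro ψ hψ v hv w hw hne
    have hSne : Sm v ≠ 0 := by
      intro h
      apply hne
      have := hSproj ψ hψ v hv
      rw [h, map_zero] at this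
      exact this.symm
    obtain ⟨c, hc⟩ := hprop _ (hSfix v) _ (hSfix w) hSne
    refine ⟨c, ?_⟩
    rw [← hSproj ψ hψ w hw, hc, map_smul, hSproj ψ hψ v hv]
  -- `T` preserves the weight spaces
  have hTinv : ∀ t ∈ T, ∀ ψ : A →* Kˣ, ∀ v ∈ wsp ρA ψ, (t : Module.End K U) v ∈ wsp ρA ψ := by
    intro t ht ψ v hv
    rw [mem_wsp] at hv ⊢
    intro w
    have h1 : ((w : (Module.End K U)ˣ) * t : (Module.End K U)ˣ) = t * w := hAc w w.2 t ht
    have h2 := LinearMap.congr_fun (congrArg (fun u : (Module.End K U)ˣ => (u : Module.End K U)) h1) v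
    simp only [Units.val_mul, Module.End.mul_apply] at h2
    rw [hρA, h2, ← hρA, hv w, map_smul]
  -- the trivial weight space
  have hno : ∀ v ∈ wsp ρA 1, (y : Module.End K U) v = v → v = 0 := by
    intro v hv hyv
    by_contra hne
    obtain ⟨a₀, ha₀⟩ := Subgroup.ne_bot_iff_exists_ne_one.1 hAne
    have hρa₀ : ρA a₀ ≠ 1 := by
      intro h
      apply ha₀
      apply Subtype.ext
      apply Units.ext
      exact h
    obtain ⟨ψ, hψne, hψw⟩ := exists_wsp_apply_ne hAcard ρA hρa₀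
    obtain ⟨v', hv', hv'ne⟩ := Submodule.exists_mem_ne_zero_of_ne_bot hψne
    have hψ1 : ψ ≠ 1 := fun h => hψw (by rw [h]; rfl)
    have hvker : v ∈ LinearMap.ker ((y : Module.End K U) - 1) := by
      rw [LinearMap.mem_ker, LinearMap.sub_apply, hyv]
      simp
    obtain ⟨c, hc⟩ := hprop v hvker _ (hSfix v') hne
    apply hv'ne
    rw [← hSproj ψ hψ1 v' hv', hc, map_smul, eproj_of_mem hW ρA ψ 1 hv, if_neg hψ1, smul_zero]
  have hyW : ∀ v ∈ wsp ρA 1, (y : Module.End K U) v ∈ wsp ρA 1 := by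
    intro v hv
    rw [mem_wsp] at hv ⊢
    intro w
    have h1 := LinearMap.congr_fun (hσ (σ⁻¹ w)) v
    simp only [Module.End.mul_apply, MulAut.apply_inv_self] at h1
    rw [← h1, hv]
    simp
  have htriv := frob_trivial_on T hnil hcard y hy hy' hs hys hfpf (wsp ρA 1)
    (fun t ht v hv => hTinv t ht 1 v hv) hyW hno
  -- conclusion
  have hall : ∀ v : U, (a : Module.End K U) ((b : Module.End K U) v) =
      (b : Module.End K U) ((a : Module.End K U) v) := by
    intro v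
    have hv : v ∈ ⨆ ψ, wsp ρA ψ := by
      rw [iSup_wsp hAcard ρA]
      exact Submodule.mem_top
    refine Submodule.iSup_induction (motive := fun v => (a : Module.End K U) ((b : Module.End K U) v) =
      (b : Module.End K U) ((a : Module.End K U) v)) _ hv ?_ (by simp) ?_
    · intro ψ u hu
      by_cases hψ : ψ = 1
      · subst hψ
        rw [htriv b hb u hu, htriv a ha u hu, htriv b hb u hu]
      · by_cases hu0 : u = 0
        · simp [hu0]
        · obtain ⟨c₁, hc₁⟩ := hwsp ψ hψ u hu _ (hTinv a ha ψ u hu) hu0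
          obtain ⟨c₂, hc₂⟩ := hwsp ψ hψ u hu _ (hTinv b hb ψ u hu) hu0
          rw [hc₁, hc₂, map_smul, map_smul, hc₁, hc₂, smul_comm]
    · intro x y hx hy
      rw [map_add, map_add, map_add, map_add, hx, hy]
  apply Units.ext
  ext v
  exact hall v

end

end Cfsg.Agent.Lib.HHFrob
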