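import Mathlib
import Cfsg.Agent.Lib.HJCore
import Cfsg.Agent.Lib.CITFour

set_option autoImplicit false
set_option linter.all false

namespace Cfsg.Agent.Lib.HJBase

open Finset
open Cfsg.Agent.Lib.HJCore (XS)

section CLevel

variable {C : Type*} [Group C] {Q : Subgroup C} {z : C}

/-- The structure of the centralizer of the central involution. -/
structure HB (Q : Subgroup C) (z : C) : Prop where
  nQ : Q.Normal
  zQ : z ∈ Q
  z1 : z ≠ 1
  z2 : z * z = 1
  zc : ∀ g : C, g * z = z * g
  sq : ∀ x ∈ Q, x * x = 1 ∨ x * x = z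
  cm : ∀ x ∈ Q, ∀ y ∈ Q, x * y = y * x ∨ x * y = z * (y * x)
  cen : ∀ x ∈ Q, x ≠ 1 → x ≠ z → ∃ y ∈ Q, x * y ≠ y * x
  card32 : Nat.card Q = 32
  faith : ∀ g : C, (∀ x ∈ Q, g * x = x * g) → g ∈ Q
  iso : ∃ π : C →* alternatingGroup (Fin 5), Function.Surjective π ∧ ∀ g, π g = 1 ↔ g ∈ Q

theorem HB.xs (h : HB Q z) : XS (⟨z, h.zQ⟩ : Q) where
  z1 := fun e => h.z1 (congrArg Subtype.val e)
  z2 := Subtype.ext h.z2
  zc := fun g => Subtype.ext (h.zc g)
  sq := fun x => (h.sq x x.2).imp Subtype.ext Subtype.ext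
  cm := fun x y => (h.cm x x.2 y y.2).imp Subtype.ext Subtype.ext
  cen := fun x h1 h2 => by
    obtain ⟨y, hy, hn⟩ := h.cen x x.2 (fun e => h1 (Subtype.ext e)) (fun e => h2 (Subtype.ext e))
    exact ⟨⟨y, hy⟩, fun e => hn (congrArg Subtype.val e)⟩

theorem HB.comm_iff (h : HB Q z) {x y d : C} (hx : x ∈ Q) (hy : y ∈ Q) (hd : d ∈ Q) :
    ((x * y) * d = d * (x * y)) ↔ ((x * d = d * x) ↔ (y * d = d * y)) := by
  have := h.xs.comm_mul_left ⟨x, hx⟩ ⟨y, hy⟩ ⟨d, hd⟩
  simpa [Subtype.ext_iff] using this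

theorem HB.comm_iff' (h : HB Q z) {x y d : C} (hx : x ∈ Q) (hy : y ∈ Q) (hd : d ∈ Q) :
    (d * (x * y) = (x * y) * d) ↔ ((d * x = x * d) ↔ (d * y = y * d)) := by
  have := h.comm_iff hx hy hd
  rw [eq_comm, this, eq_comm (a := x * d), eq_comm (a := y * d)]

/-- The non-central involutions of `Q`. -/
abbrev St (Q : Subgroup C) (z : C) := {x : C // x ∈ Q ∧ x * x = 1 ∧ x ≠ 1 ∧ x ≠ z}

theorem HB.conj_ne_z (h : HB Q z) (g : C) {x : C} (hx : x ≠ z) : g * x * g⁻¹ ≠ z := by
  intro e
  apply hx
  have : x = g⁻¹ * (g * x * g⁻¹) * g := by group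
  rw [this, e, h.zc g⁻¹]
  group

def conjSt (h : HB Q z) (g : C) (x : St Q z) : St Q z :=
  ⟨g * x.1 * g⁻¹, h.nQ.conj_mem _ x.2.1 g, by
    calc g * x.1 * g⁻¹ * (g * x.1 * g⁻¹) = g * (x.1 * x.1) * g⁻¹ := by group
      _ = 1 := by rw [x.2.2.1]; group, by
    intro e
    apply x.2.2.2.1
    have : x.1 = g⁻¹ * (g * x.1 * g⁻¹) * g := by group
    rw [this, e]; group, h.conj_ne_z g x.2.2.2.2⟩

/-- Being equal up to the central involution. -/
def stSetoid (h : HB Q z) : Setoid (St Q z) where
  r x y := y.1 = x.1 ∨ y.1 = z * x.1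
  iseqv := by
    refine ⟨fun x => Or.inl rfl, ?_, ?_⟩
    · rintro x y (e | e)
      · exact Or.inl e.symm
      · right
        rw [e, ← mul_assoc, h.z2, one_mul]
    · rintro x y w (e | e) (e' | e')
      · exact Or.inl (e'.trans e)
      · right; rw [e', e]
      · right; rw [e', e]
      · left; rw [e', e, ← mul_assoc, h.z2, one_mul]

theorem conjSt_resp (h : HB Q z) (g : C) {x y : St Q z} (e : (stSetoid h).r x y) :
    (stSetoid h).r (conjSt h g x) (conjSt h g y) := by
  rcases e with e | e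
  · left
    show g * y.1 * g⁻¹ = g * x.1 * g⁻¹
    rw [e]
  · right
    show g * y.1 * g⁻¹ = z * (g * x.1 * g⁻¹)
    rw [e]
    calc g * (z * x.1) * g⁻¹ = (g * z) * x.1 * g⁻¹ := by group
      _ = (z * g) * x.1 * g⁻¹ := by rw [h.zc]
      _ = z * (g * x.1 * g⁻¹) := by group

/-- The action on the classes. -/
@[reducible] def sigAct (h : HB Q z) : MulAction C (Quotient (stSetoid h)) where
  smul g := Quotient.map (sa := stSetoid h) (sb := stSetoid h) (conjSt h g) (fun x y e => conjSt_resp h g e)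
  one_smul := by
    rintro ⟨x⟩
    show Quotient.mk (stSetoid h) (conjSt h 1 x) = Quotient.mk (stSetoid h) x
    congr 1
    apply Subtype.ext
    simp [conjSt]
  mul_smul := by
    rintro g g' ⟨x⟩
    show Quotient.mk (stSetoid h) (conjSt h (g * g') x)
      = Quotient.mk (stSetoid h) (conjSt h g (conjSt h g' x))
    congr 1
    apply Subtype.ext
    simp only [conjSt]
    group

/-- The permutation representation on the classes. -/
def rho (h : HB Q z) : C →* Equiv.Perm (Quotient (stSetoid h)) :=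
  @MulAction.toPermHom C _ _ (sigAct h)

theorem rho_mk (h : HB Q z) (g : C) (x : St Q z) :
    rho h g (Quotient.mk (stSetoid h) x) = Quotient.mk (stSetoid h) (conjSt h g x) := rfl

theorem rho_eq_one (h : HB Q z) {q : C} (hq : q ∈ Q) : rho h q = 1 := by
  ext c
  induction c using Quotient.inductionOn with
  | h x =>
    rw [rho_mk]
    apply Quotient.sound
    show x.1 = _ ∨ x.1 = _
    rcases h.cm q hq x.1 x.2.1 with e | e
    · left
      show x.1 = q * x.1 * q⁻¹
      rw [e]; group
    · right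
      show x.1 = z * (q * x.1 * q⁻¹)
      rw [e]
      have hz := h.z2
      calc x.1 = (z * z) * x.1 := by rw [hz, one_mul]
        _ = z * (z * (x.1 * q) * q⁻¹) := by group

theorem nat_aux (n : ℕ) (hdvd : n ∣ 32) (hmod : 32 ≡ n [MOD 5]) : n = 2 ∨ n = 32 := by
  have hle : n ≤ 32 := Nat.le_of_dvd (by norm_num) hdvd
  unfold Nat.ModEq at hmod
  interval_cases n <;> omega

/-- Fixed points of an element of order five. -/
theorem HB.fixfree [Finite C] (h : HB Q z) {c : C} (hc : orderOf c = 5)
    {x : C} (hx : x ∈ Q) (hcx : c * x * c⁻¹ = x) : x = 1 ∨ x = z := by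
  classical
  haveI := h.nQ
  haveI : Fact (Nat.Prime 5) := ⟨by norm_num⟩
  haveI : Fintype Q := Fintype.ofFinite Q
  let f : Function.End Q := fun y => ⟨c * y.1 * c⁻¹, h.nQ.conj_mem _ y.2 c⟩
  have hc5 : c ^ 5 = 1 := by rw [← hc]; exact pow_orderOf_eq_one c
  have hf : f ^ 5 ^ 1 = 1 := by
    funext y
    apply Subtype.ext
    show c * (c * (c * (c * (c * y.1 * c⁻¹) * c⁻¹) * c⁻¹) * c⁻¹) * c⁻¹ = y.1
    have hc5' : c * c * c * c * c = 1 := by rw [← hc5]; simp only [pow_succ, pow_zero, one_mul]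
    calc c * (c * (c * (c * (c * y.1 * c⁻¹) * c⁻¹) * c⁻¹) * c⁻¹) * c⁻¹
        = (c * c * c * c * c) * y.1 * (c * c * c * c * c)⁻¹ := by simp only [mul_inv_rev, mul_assoc]
      _ = y.1 := by rw [hc5']; simp
  have hmod := Equiv.Perm.card_fixedPoints_modEq (p := 5) (n := 1) hf
  let H : Subgroup Q := (Subgroup.centralizer ({c} : Set C)).subgroupOf Q
  have hH : ∀ y : Q, y ∈ H ↔ c * y.1 * c⁻¹ = y.1 := by
    intro y
    show y.1 ∈ Subgroup.centralizer ({c} : Set C) ↔ _
    rw [Subgroup.mem_centralizer_singleton_iff]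
    constructor
    · intro e
      rw [← e]; group
    · intro e
      calc y.1 * c = (c * y.1 * c⁻¹) * c := by rw [e]
        _ = c * y.1 := by group
  have hfixcard : Fintype.card (Function.fixedPoints f) = Nat.card H := by
    rw [← Nat.card_eq_fintype_card]
    apply Nat.card_congr
    apply Equiv.subtypeEquivRight
    intro y
    rw [hH]
    show f y = y ↔ _
    constructor
    · intro e
      exact congrArg Subtype.val e
    · intro e
      exact Subtype.ext e
  have hQc : Fintype.card Q = 32 := by rw [← Nat.card_eq_fintype_card]; exact h.card32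
  have hdvd : Nat.card H ∣ 32 := by
    rw [← h.card32]
    exact Subgroup.card_subgroup_dvd_card H
  rw [hQc] at hmod
  have hmod' : 32 ≡ Nat.card H [MOD 5] := by
    rw [← hfixcard]
    exact hmod
  have hle : Nat.card H ≤ 32 := Nat.le_of_dvd (by norm_num) hdvd
  have hcases : Nat.card H = 2 ∨ Nat.card H = 32 := by
    exact nat_aux _ hdvd hmod'
  rcases hcases with h2 | h32
  · by_contra hne
    push Not at hne
    have hz' : (⟨z, h.zQ⟩ : Q) ∈ H := by
      rw [hH]
      show c * z * c⁻¹ = z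
      rw [h.zc c]; group
    have hx' : (⟨x, hx⟩ : Q) ∈ H := by
      rw [hH]; exact hcx
    haveI : Fintype H := Fintype.ofFinite H
    have hT : ({1, ⟨⟨z, h.zQ⟩, hz'⟩, ⟨⟨x, hx⟩, hx'⟩} : Finset H).card = 3 := by
      rw [Finset.card_insert_of_notMem, Finset.card_insert_of_notMem, Finset.card_singleton]
      · simp only [Finset.mem_singleton]
        intro e
        exact hne.2 (congrArg (fun w : H => w.1.1) e).symm
      · simp only [Finset.mem_insert, Finset.mem_singleton, not_or]
        refine ⟨?_, ?_⟩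
        · intro e
          exact h.z1 (congrArg (fun w : H => w.1.1) e).symm
        · intro e
          exact hne.1 (congrArg (fun w : H => w.1.1) e).symm
    have := Finset.card_le_univ ({1, ⟨⟨z, h.zQ⟩, hz'⟩, ⟨⟨x, hx⟩, hx'⟩} : Finset H)
    rw [hT, ← Nat.card_eq_fintype_card, h2] at this
    omega
  · exfalso
    have htop : H = ⊤ := by
      apply Subgroup.eq_top_of_card_eq
      rw [h32, h.card32]
    have hcQ : c ∈ Q := by
      apply h.faith
      intro y hy
      have : (⟨y, hy⟩ : Q) ∈ H := by rw [htop]; trivial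
      rw [hH] at this
      calc c * y = (c * y * c⁻¹) * c := by group
        _ = y * c := by rw [this]
    have hd := orderOf_dvd_natCard (⟨c, hcQ⟩ : Q)
    rw [h.card32, Subgroup.orderOf_mk, hc] at hd
    omega

theorem card_A5 : Nat.card (alternatingGroup (Fin 5)) = 60 := by
  rw [Nat.card_eq_fintype_card]; decide +kernel

theorem HB.card_C [Finite C] (h : HB Q z) : Nat.card C = 1920 := by
  obtain ⟨π, hs, hk⟩ := h.iso
  have e1 := Subgroup.card_mul_index π.ker
  have e2 : π.ker = Q := by
    ext g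
    exact hk g
  have e3 : π.ker.index = 60 := by
    rw [Subgroup.index_ker, MonoidHom.range_eq_top.2 hs, Subgroup.card_top, card_A5]
  rw [e3, e2, h.card32] at e1
  omega

theorem HB.exists_five [Finite C] (h : HB Q z) : ∃ c : C, orderOf c = 5 := by
  haveI : Fact (Nat.Prime 5) := ⟨by norm_num⟩
  exact exists_prime_orderOf_dvd_card' (G := C) 5 (by rw [h.card_C]; norm_num)

theorem HB.card_add_two [Finite C] (h : HB Q z) :
    Nat.card {y : Q // y * y = 1} = Nat.card (St Q z) + 2 := by
  classical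
  haveI := Fintype.ofFinite C
  have e1 : Nat.card {y : Q // y * y = 1} = Nat.card {y : C // y ∈ Q ∧ y * y = 1} := by
    apply Nat.card_congr
    exact (Equiv.subtypeEquivRight (fun y : Q => by simp [Subtype.ext_iff])).trans
      (Equiv.subtypeSubtypeEquivSubtypeInter (· ∈ Q) (fun y : C => y * y = 1))
  rw [e1, Nat.card_eq_fintype_card, Nat.card_eq_fintype_card, Fintype.card_subtype, Fintype.card_subtype]
  have e2 : (univ.filter (fun y : C => y ∈ Q ∧ y * y = 1))
      = insert 1 (insert z (univ.filter (fun y : C => y ∈ Q ∧ y * y = 1 ∧ y ≠ 1 ∧ y ≠ z))) := by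
    ext y
    simp only [Finset.mem_filter, Finset.mem_univ, true_and, Finset.mem_insert]
    constructor
    · rintro ⟨h1, h2⟩
      by_cases h3 : y = 1
      · exact Or.inl h3
      · by_cases h4 : y = z
        · exact Or.inr (Or.inl h4)
        · exact Or.inr (Or.inr ⟨h1, h2, h3, h4⟩)
    · rintro (rfl | rfl | h1)
      · exact ⟨Q.one_mem, one_mul 1⟩
      · exact ⟨h.zQ, h.z2⟩
      · exact ⟨h1.1, h1.2.1⟩
  rw [e2, Finset.card_insert_of_notMem, Finset.card_insert_of_notMem]
  · simp
  · simp only [Finset.mem_insert, Finset.mem_filter, not_or]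
    refine ⟨fun e => h.z1 e.symm, ?_⟩
    simp

theorem HB.card_st [Finite C] (h : HB Q z) : Nat.card (St Q z) = 10 := by
  classical
  haveI : Fact (Nat.Prime 5) := ⟨by norm_num⟩
  haveI : Fintype (St Q z) := Fintype.ofFinite _
  obtain ⟨c, hc⟩ := h.exists_five
  have hc5 : c ^ 5 = 1 := by rw [← hc]; exact pow_orderOf_eq_one c
  let f : Function.End (St Q z) := conjSt h c
  have hf : f ^ 5 ^ 1 = 1 := by
    funext y
    apply Subtype.ext
    show c * (c * (c * (c * (c * y.1 * c⁻¹) * c⁻¹) * c⁻¹) * c⁻¹) * c⁻¹ = y.1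
    have hc5' : c * c * c * c * c = 1 := by rw [← hc5]; simp only [pow_succ, pow_zero, one_mul]
    calc c * (c * (c * (c * (c * y.1 * c⁻¹) * c⁻¹) * c⁻¹) * c⁻¹) * c⁻¹
        = (c * c * c * c * c) * y.1 * (c * c * c * c * c)⁻¹ := by simp only [mul_inv_rev, mul_assoc]
      _ = y.1 := by rw [hc5']; simp
  have hmod := Equiv.Perm.card_fixedPoints_modEq (p := 5) (n := 1) hf
  have hempty : Fintype.card (Function.fixedPoints f) = 0 := by
    rw [Fintype.card_eq_zero_iff]
    refine ⟨fun y => ?_⟩
    have h1 : f y.1 = y.1 := y.2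
    have h2 : c * y.1.1 * c⁻¹ = y.1.1 := congrArg Subtype.val h1
    rcases h.fixfree hc y.1.2.1 h2 with e | e
    · exact y.1.2.2.2.1 e
    · exact y.1.2.2.2.2 e
  rw [hempty] at hmod
  have h5 : 5 ∣ Nat.card (St Q z) := by
    rw [Nat.card_eq_fintype_card]
    exact (Nat.modEq_zero_iff_dvd).1 hmod
  have h6 := h.xs.card_inv_cases (by exact h.card32)
  rw [h.card_add_two] at h6
  omega

theorem HB.card12 [Finite C] (h : HB Q z) : Nat.card {y : Q // y * y = 1} = 12 := by
  rw [h.card_add_two, h.card_st]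

theorem HB.comm_inv_eq [Finite C] (h : HB Q z) {q y : C} (hq : q ∈ Q) (hqq : q * q = 1) (h1 : q ≠ 1)
    (h2 : q ≠ z) (hy : y ∈ Q) (hyy : y * y = 1) (hqy : q * y = y * q) :
    y = 1 ∨ y = z ∨ y = q ∨ y = z * q := by
  have := h.xs.comm_inv_eq (q := ⟨q, hq⟩) (y := ⟨y, hy⟩) h.card32 h.card12 (Subtype.ext hqq)
    (fun e => h1 (congrArg Subtype.val e)) (fun e => h2 (congrArg Subtype.val e)) (Subtype.ext hyy)
    (Subtype.ext hqy)
  simpa [Subtype.ext_iff] using this

/-- In `St`, commuting elements are in the same class. -/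
theorem HB.same_class [Finite C] (h : HB Q z) {x y : St Q z} (e : x.1 * y.1 = y.1 * x.1) :
    Quotient.mk (stSetoid h) x = Quotient.mk (stSetoid h) y := by
  apply Quotient.sound
  rcases h.comm_inv_eq x.2.1 x.2.2.1 x.2.2.2.1 x.2.2.2.2 y.2.1 y.2.2.1 e with e1 | e1 | e1 | e1
  · exact absurd e1 y.2.2.2.1
  · exact absurd e1 y.2.2.2.2
  · exact Or.inl e1
  · exact Or.inr e1

def zSt (h : HB Q z) (x : St Q z) : St Q z :=
  ⟨z * x.1, Q.mul_mem h.zQ x.2.1, by
    calc z * x.1 * (z * x.1) = z * (x.1 * z) * x.1 := by group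
      _ = z * (z * x.1) * x.1 := by rw [h.zc]
      _ = (z * z) * (x.1 * x.1) := by group
      _ = 1 := by rw [h.z2, x.2.2.1, one_mul], by
    intro e
    apply x.2.2.2.2
    have e2 : z * x.1 = z * z := by rw [e, h.z2]
    exact mul_left_cancel e2, by
    intro e
    apply x.2.2.2.1
    have e2 : z * x.1 = z * 1 := by rw [e, mul_one]
    exact mul_left_cancel e2⟩

theorem HB.card_sig_le [Finite C] (h : HB Q z) : Nat.card (Quotient (stSetoid h)) ≤ 5 := by
  classical
  let F : Quotient (stSetoid h) × Bool → St Q z := fun p =>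
    if p.2 then zSt h (Quotient.out p.1) else Quotient.out p.1
  have hclass : ∀ p, Quotient.mk (stSetoid h) (F p) = p.1 := by
    rintro ⟨c, b⟩
    cases b
    · simp [F]
    · show Quotient.mk (stSetoid h) (zSt h (Quotient.out c)) = c
      conv_rhs => rw [← Quotient.out_eq c]
      apply Quotient.sound
      exact (stSetoid h).symm (Or.inr rfl)
  have hF : Function.Injective F := by
    rintro ⟨c, b⟩ ⟨c', b'⟩ e
    have hc : c = c' := by
      have := congrArg (Quotient.mk (stSetoid h)) e
      rwa [hclass, hclass] at this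
    subst hc
    congr 1
    cases b <;> cases b' <;> try rfl
    · exfalso
      have e2 : (Quotient.out c).1 = z * (Quotient.out c).1 := congrArg Subtype.val e
      apply h.z1
      have e3 : 1 * (Quotient.out c).1 = z * (Quotient.out c).1 := by rw [one_mul]; exact e2
      exact (mul_right_cancel e3).symm
    · exfalso
      have e2 : z * (Quotient.out c).1 = (Quotient.out c).1 := congrArg Subtype.val e
      apply h.z1
      have e3 : z * (Quotient.out c).1 = 1 * (Quotient.out c).1 := by rw [one_mul]; exact e2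
      exact (mul_right_cancel e3)
  have hle := Nat.card_le_card_of_injective F hF
  rw [h.card_st, Nat.card_prod, Nat.card_eq_fintype_card (α := Bool), Fintype.card_bool] at hle
  omega

/-- An element of order five stabilizes no class. -/
theorem HB.no_fixed [Finite C] (h : HB Q z) {c : C} (hc : orderOf c = 5) (x : St Q z) :
    rho h c (Quotient.mk (stSetoid h) x) ≠ Quotient.mk (stSetoid h) x := by
  intro e1
  have e2 := Quotient.exact (s := stSetoid h) (show Quotient.mk (stSetoid h) (conjSt h c x) = Quotient.mk (stSetoid h) x from e1)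
  have hc2 : (c * c) * x.1 = x.1 * (c * c) := by
    rcases e2 with e2 | e2
    · have e3 : x.1 = c * x.1 * c⁻¹ := e2
      have e4 : x.1 * c = c * x.1 := by
        calc x.1 * c = (c * x.1 * c⁻¹) * c := by rw [← e3]
          _ = c * x.1 := by group
      calc (c * c) * x.1 = c * (c * x.1) := by group
        _ = c * (x.1 * c) := by rw [e4]
        _ = (c * x.1) * c := by group
        _ = (x.1 * c) * c := by rw [e4]
        _ = x.1 * (c * c) := by group
    · have e3 : x.1 = z * (c * x.1 * c⁻¹) := e2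
      have e4 : x.1 * c = z * (c * x.1) := by
        calc x.1 * c = (z * (c * x.1 * c⁻¹)) * c := by rw [← e3]
          _ = z * (c * x.1) := by group
      calc (c * c) * x.1 = c * (c * x.1) := by group
        _ = c * ((z * z) * (c * x.1)) := by rw [h.z2, one_mul]
        _ = c * (z * (z * (c * x.1))) := by group
        _ = c * (z * (x.1 * c)) := by rw [e4]
        _ = (c * z) * (x.1 * c) := by group
        _ = (z * c) * (x.1 * c) := by rw [h.zc]
        _ = (z * (c * x.1)) * c := by group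
        _ = (x.1 * c) * c := by rw [e4]
        _ = x.1 * (c * c) := by group
  have hc5 : c ^ 5 = 1 := by rw [← hc]; exact pow_orderOf_eq_one c
  have hc6 : (c * c) * (c * c) * (c * c) = c := by
    calc (c * c) * (c * c) * (c * c) = c ^ 5 * c := by
          simp only [pow_succ, pow_zero, one_mul, mul_assoc]
      _ = c := by rw [hc5, one_mul]
  have hcx : c * x.1 = x.1 * c := by
    have hC : Commute (c * c) x.1 := hc2
    have : Commute ((c * c) * (c * c) * (c * c)) x.1 := ((hC.mul_left hC).mul_left hC)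
    rw [hc6] at this
    exact this
  have hfix : c * x.1 * c⁻¹ = x.1 := by
    rw [hcx]; group
  rcases h.fixfree hc x.2.1 hfix with e | e
  · exact x.2.2.2.1 e
  · exact x.2.2.2.2 e

theorem HB.rho_ne_one [Finite C] (h : HB Q z) {k : C} (hk : k ∉ Q) : rho h k ≠ 1 := by
  classical
  obtain ⟨π, hs, hq⟩ := h.iso
  haveI : (MonoidHom.ker (rho h)).Normal := inferInstance
  have hN : ((rho h).ker.map π).Normal := Subgroup.Normal.map inferInstance π hs
  intro hkone
  rcases hN.eq_bot_or_eq_top with hb | ht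
  · have : π k ∈ (rho h).ker.map π := ⟨k, hkone, rfl⟩
    rw [hb, Subgroup.mem_bot] at this
    exact hk ((hq k).1 this)
  · obtain ⟨c, hc⟩ := h.exists_five
    have hm : π c ∈ (rho h).ker.map π := by rw [ht]; trivial
    obtain ⟨k', hk', e⟩ := hm
    have hρ : rho h c = 1 := by
      have e1 : k'⁻¹ * c ∈ Q := by
        rw [← hq]
        rw [map_mul, map_inv, e]
        simp
      have e2 : rho h (k'⁻¹ * c) = 1 := rho_eq_one h e1
      have e3 : rho h k' = 1 := hk'
      rw [map_mul, map_inv, e3] at e2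
      simpa using e2
    have hpos : 0 < Nat.card (St Q z) := by rw [h.card_st]; norm_num
    haveI : Nonempty (St Q z) := (Nat.card_pos_iff.1 hpos).1
    obtain ⟨x⟩ := this
    apply h.no_fixed hc x
    rw [hρ]
    rfl

theorem HB.sign_rho [Finite C] (h : HB Q z) [Fintype (Quotient (stSetoid h))]
    [DecidableEq (Quotient (stSetoid h))] (g : C) :
    Equiv.Perm.sign (rho h g) = 1 := by
  obtain ⟨π, hs, hq⟩ := h.iso
  let f : C →* ℤˣ := (Equiv.Perm.sign).comp (rho h)
  have hQf : ∀ q ∈ Q, f q = 1 := by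
    intro q hq'
    show Equiv.Perm.sign (rho h q) = 1
    rw [rho_eq_one h hq', map_one]
  have hN : (f.ker.map π).Normal := Subgroup.Normal.map inferInstance π hs
  rcases hN.eq_bot_or_eq_top with hb | ht
  · exfalso
    have hle : f.ker ≤ Q := by
      intro k hk
      have : π k ∈ f.ker.map π := ⟨k, hk, rfl⟩
      rw [hb, Subgroup.mem_bot] at this
      exact (hq k).1 this
    have h1 : Nat.card f.ker ≤ 32 := by
      rw [← h.card32]
      exact Subgroup.card_le_of_le hle
    have h2 := Subgroup.card_mul_index f.ker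
    have h3 : f.ker.index ≤ 2 := by
      rw [Subgroup.index_ker]
      have h4 : Nat.card f.range ≤ Nat.card ℤˣ := Nat.card_le_card_of_injective _ Subtype.val_injective
      rw [Nat.card_eq_fintype_card (α := ℤˣ)] at h4
      have h5 : Fintype.card ℤˣ = 2 := by decide
      omega
    rw [h.card_C] at h2
    have h6 : Nat.card f.ker * f.ker.index ≤ 32 * 2 := Nat.mul_le_mul h1 h3
    omega
  · have hm : π g ∈ f.ker.map π := by rw [ht]; trivial
    obtain ⟨k', hk', e⟩ := hm
    have e1 : k'⁻¹ * g ∈ Q := by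
      rw [← hq, map_mul, map_inv, e]
      simp
    have e2 := hQf _ e1
    have e3 : f k' = 1 := hk'
    rw [map_mul, map_inv, e3] at e2
    have e4 : f g = 1 := by simpa using e2
    exact e4

theorem perm_aux {α : Type*} [Fintype α] [DecidableEq α] (hα : Fintype.card α ≤ 5)
    {σ : Equiv.Perm α} (h1 : σ ≠ 1) (h2 : σ * σ = 1) (h3 : Equiv.Perm.sign σ = 1) :
    σ.support.card = 4 := by
  have hd : 2 ∣ σ.support.card := Equiv.Perm.two_dvd_card_support (by rw [pow_two, h2])
  have hle : σ.support.card ≤ 5 := (Finset.card_le_univ _).trans hα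
  have h0 : σ.support.card ≠ 0 := by
    rw [Ne, Finset.card_eq_zero, Equiv.Perm.support_eq_empty_iff]
    exact h1
  have h22 : σ.support.card ≠ 2 := by
    intro e
    rw [Equiv.Perm.card_support_eq_two] at e
    rw [e.sign_eq] at h3
    exact absurd h3 (by decide)
  omega

/-- Four pairwise non-commuting involutions of `Q`, swapped in pairs by `v`. -/
structure Frame (Q : Subgroup C) (z v : C) (u : Fin 4 → C) : Prop where
  mem : ∀ i, u i ∈ Q
  sq : ∀ i, u i * u i = 1
  anti : ∀ i j, i ≠ j → u i * u j ≠ u j * u i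
  v0 : v * u 0 * v = u 1
  v2 : v * u 2 * v = u 3
  vv : v * v = 1
  vQ : v ∉ Q

/-- Existence of a frame for each involution outside `Q`. -/
theorem HB.frame_exists [Finite C] (h : HB Q z) {v : C} (hv : v * v = 1) (hvQ : v ∉ Q) :
    ∃ u : Fin 4 → C, Frame Q z v u := by
  classical
  haveI := h.nQ
  haveI : Fintype (Quotient (stSetoid h)) := Fintype.ofFinite _
  have hσ1 : rho h v ≠ 1 := h.rho_ne_one hvQ
  have hσ2 : rho h v * rho h v = 1 := by rw [← map_mul, hv, map_one]
  have hσ3 : Equiv.Perm.sign (rho h v) = 1 := h.sign_rho v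
  have hα : Fintype.card (Quotient (stSetoid h)) ≤ 5 := by
    rw [← Nat.card_eq_fintype_card]; exact h.card_sig_le
  have hs := perm_aux hα hσ1 hσ2 hσ3
  set σ := rho h v with hσ
  have hsq : ∀ c, σ (σ c) = c := fun c => by
    have := congrArg (fun τ : Equiv.Perm _ => τ c) hσ2
    simpa using this
  have hpos : 0 < σ.support.card := by omega
  obtain ⟨c₁, hc₁⟩ := Finset.card_pos.1 hpos
  have hpos2 : 0 < (σ.support \ {c₁, σ c₁}).card := by
    have := Finset.le_card_sdiff ({c₁, σ c₁} : Finset _) σ.support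
    have h2 : ({c₁, σ c₁} : Finset _).card ≤ 2 := Finset.card_le_two
    omega
  obtain ⟨c₃, hc₃⟩ := Finset.card_pos.1 hpos2
  simp only [Finset.mem_sdiff, Finset.mem_insert, Finset.mem_singleton, not_or] at hc₃
  obtain ⟨hc₃s, hne13, hne23⟩ := hc₃
  have hm1 : σ c₁ ≠ c₁ := Equiv.Perm.mem_support.1 hc₁
  have hm3 : σ c₃ ≠ c₃ := Equiv.Perm.mem_support.1 hc₃s
  have hne14 : c₁ ≠ σ c₃ := by
    intro e
    apply hne23
    rw [e, hsq]
  have hne24 : σ c₁ ≠ σ c₃ := by
    intro e
    exact hne13 (σ.injective e).symm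
  obtain ⟨x₁, hx₁⟩ := Quotient.exists_rep c₁
  obtain ⟨x₃, hx₃⟩ := Quotient.exists_rep c₃
  have hvi : v⁻¹ = v := inv_eq_of_mul_eq_one_left hv
  let x : Fin 4 → St Q z := ![x₁, conjSt h v x₁, x₃, conjSt h v x₃]
  let c : Fin 4 → Quotient (stSetoid h) := ![c₁, σ c₁, c₃, σ c₃]
  have hxc : ∀ i, Quotient.mk (stSetoid h) (x i) = c i := by
    intro i
    fin_cases i
    · exact hx₁
    · show Quotient.mk (stSetoid h) (conjSt h v x₁) = σ c₁
      rw [← rho_mk, hx₁]
    · exact hx₃
    · show Quotient.mk (stSetoid h) (conjSt h v x₃) = σ c₃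
      rw [← rho_mk, hx₃]
  have hcne : ∀ i j, i ≠ j → c i ≠ c j := by
    intro i j hij
    fin_cases i <;> fin_cases j <;> first | exact absurd rfl hij | skip
    · exact hm1.symm
    · exact fun e => hne13 e.symm
    · exact hne14
    · exact hm1
    · exact fun e => hne23 e.symm
    · exact hne24
    · exact hne13
    · exact hne23
    · exact hm3.symm
    · exact hne14.symm
    · exact hne24.symm
    · exact hm3
  refine ⟨fun i => (x i).1, ?_⟩
  refine ⟨fun i => (x i).2.1, fun i => (x i).2.2.1, ?_, ?_, ?_, hv, hvQ⟩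
  · intro i j hij e
    apply hcne i j hij
    rw [← hxc, ← hxc]
    exact h.same_class e
  · show v * x₁.1 * v = v * x₁.1 * v⁻¹
    rw [hvi]
  · show v * x₃.1 * v = v * x₃.1 * v⁻¹
    rw [hvi]

namespace Frame

variable {v : C} {u : Fin 4 → C}

theorem ucomm (F : Frame Q z v u) (i j : Fin 4) : u i * u j = u j * u i ↔ i = j := by
  constructor
  · intro e
    by_contra hij
    exact F.anti i j hij e
  · rintro rfl; rfl

/-- the swap of the frame -/
def τ : Fin 4 → Fin 4 := ![1, 0, 3, 2]

theorem v_conj (F : Frame Q z v u) (i : Fin 4) : v * u i * v = u (τ i) := by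
  have e1 : v * u 1 * v = u 0 := by
    rw [← F.v0]
    calc v * (v * u 0 * v) * v = (v * v) * u 0 * (v * v) := by group
      _ = u 0 := by rw [F.vv]; group
  have e3 : v * u 3 * v = u 2 := by
    rw [← F.v2]
    calc v * (v * u 2 * v) * v = (v * v) * u 2 * (v * v) := by group
      _ = u 2 := by rw [F.vv]; group
  fin_cases i
  · exact F.v0
  · exact e1
  · exact F.v2
  · exact e3

theorem tau_ne (i : Fin 4) : τ i ≠ i := by
  revert i; decide

theorem ne_one (F : Frame Q z v u) (i : Fin 4) : u i ≠ 1 := by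
  intro e
  apply F.anti i (τ i) (tau_ne i).symm
  rw [e]; simp

theorem ne_z (h : HB Q z) (F : Frame Q z v u) (i : Fin 4) : u i ≠ z := by
  intro e
  apply F.anti i (τ i) (tau_ne i).symm
  rw [e]; exact (h.zc _).symm

/-- squares in the frame -/
theorem sq_anti (h : HB Q z) (F : Frame Q z v u) {i j : Fin 4} (hij : i ≠ j) :
    (u i * u j) * (u i * u j) = z := by
  have := h.xs.sq_mul_anti (x := ⟨u i, F.mem i⟩) (y := ⟨u j, F.mem j⟩)
    (fun e => F.anti i j hij (congrArg Subtype.val e))
  have e2 := congrArg Subtype.val this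
  simp only [Subgroup.coe_mul] at e2
  rw [e2, F.sq i, F.sq j]
  simp

/-- A key centrality property of the frame. -/
theorem central [Finite C] (h : HB Q z) (F : Frame Q z v u) {q : C} (hq : q ∈ Q)
    (hc : ∀ i, q * u i = u i * q) : q = 1 ∨ q = z := by
  by_contra hne
  push Not at hne
  obtain ⟨hq1, hqz⟩ := hne
  have key : ∀ w ∈ Q, w * w = 1 → w ≠ 1 → w ≠ z → ∀ i j, i ≠ j → w * u i = u i * w →
      w * u j = u j * w → False := by
    intro w hw hww hw1 hwz i j hij hi hj
    have e1 := h.comm_inv_eq hw hww hw1 hwz (F.mem i) (F.sq i) hi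
    have e2 := h.comm_inv_eq hw hww hw1 hwz (F.mem j) (F.sq j) hj
    have hzw : z * w = w * z := (h.zc w).symm
    rcases e1 with e1 | e1 | e1 | e1
    · exact F.ne_one i e1
    · exact F.ne_z h i e1
    · rcases e2 with e2 | e2 | e2 | e2
      · exact F.ne_one j e2
      · exact F.ne_z h j e2
      · exact F.anti i j hij (by rw [e1, e2])
      · apply F.anti i j hij
        rw [e1, e2]
        rw [← mul_assoc, ← hzw, mul_assoc]
    · rcases e2 with e2 | e2 | e2 | e2
      · exact F.ne_one j e2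
      · exact F.ne_z h j e2
      · apply F.anti i j hij
        rw [e1, e2]
        rw [mul_assoc, ← mul_assoc w z, ← hzw, mul_assoc]
      · exact F.anti i j hij (by rw [e1, e2])
  rcases h.sq q hq with hqq | hqq
  · exact key q hq hqq hq1 hqz 0 1 (by decide) (hc 0) (hc 1)
  · -- now `q * q = z`
    have h01 : (0 : Fin 4) ≠ 1 := by decide
    have ha := sq_anti h F h01
    have ham : u 0 * u 1 ∈ Q := Q.mul_mem (F.mem 0) (F.mem 1)
    have hwm : q * (u 0 * u 1) ∈ Q := Q.mul_mem hq ham
    have hqa : q * (u 0 * u 1) = (u 0 * u 1) * q := by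
      calc q * (u 0 * u 1) = (q * u 0) * u 1 := by group
        _ = (u 0 * q) * u 1 := by rw [hc 0]
        _ = u 0 * (q * u 1) := by group
        _ = u 0 * (u 1 * q) := by rw [hc 1]
        _ = (u 0 * u 1) * q := by group
    have hww : (q * (u 0 * u 1)) * (q * (u 0 * u 1)) = 1 := by
      calc (q * (u 0 * u 1)) * (q * (u 0 * u 1)) = q * ((u 0 * u 1) * q) * (u 0 * u 1) := by group
        _ = q * (q * (u 0 * u 1)) * (u 0 * u 1) := by rw [hqa]
        _ = (q * q) * ((u 0 * u 1) * (u 0 * u 1)) := by group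
        _ = 1 := by rw [hqq, ha, h.z2]
    have hac : ∀ i, (u 0 * u 1) * u i = u i * (u 0 * u 1) ↔ ((0 = i) ↔ (1 = i)) := by
      intro i
      rw [h.comm_iff (F.mem 0) (F.mem 1) (F.mem i), F.ucomm, F.ucomm]
    have hwc : ∀ i, (q * (u 0 * u 1)) * u i = u i * (q * (u 0 * u 1)) ↔ ((0 = i) ↔ (1 = i)) := by
      intro i
      rw [h.comm_iff hq ham (F.mem i), hac i]
      simp [hc i]
    have hw0 : (q * (u 0 * u 1)) * u 0 ≠ u 0 * (q * (u 0 * u 1)) := by
      rw [Ne, hwc 0]; decide
    have hw1 : q * (u 0 * u 1) ≠ 1 := by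
      intro e
      apply hw0
      rw [e]; simp
    have hwz : q * (u 0 * u 1) ≠ z := by
      intro e
      apply hw0
      rw [e]; exact (h.zc _).symm
    exact key _ hwm hww hw1 hwz 2 3 (by decide) ((hwc 2).2 (by decide)) ((hwc 3).2 (by decide))

/-- Same commutation pattern with the frame means equal up to `z`. -/
theorem sig_eq [Finite C] (h : HB Q z) (F : Frame Q z v u) {q t : C} (hq : q ∈ Q) (ht : t ∈ Q)
    (hs : ∀ i, q * u i = u i * q ↔ t * u i = u i * t) : q = t ∨ q = z * t := by
  have hc : ∀ i, (q * t) * u i = u i * (q * t) := by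
    intro i
    rw [h.comm_iff hq ht (F.mem i)]
    exact hs i
  have hzt : z * t = t * z := (h.zc t).symm
  have hzz := h.z2
  rcases central h F (Q.mul_mem hq ht) hc with e | e <;> rcases h.sq t ht with e2 | e2
  · left
    calc q = (q * t) * t⁻¹ := by group
      _ = t⁻¹ := by rw [e, one_mul]
      _ = t := inv_eq_of_mul_eq_one_left e2
  · right
    have e3 : t⁻¹ = z * t := by
      apply inv_eq_of_mul_eq_one_left
      rw [mul_assoc, e2, hzz]
    calc q = (q * t) * t⁻¹ := by group
      _ = t⁻¹ := by rw [e, one_mul]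
      _ = z * t := e3
  · right
    have e3 : t⁻¹ = t := inv_eq_of_mul_eq_one_left e2
    calc q = (q * t) * t⁻¹ := by group
      _ = z * t⁻¹ := by rw [e]
      _ = z * t := by rw [e3]
  · left
    have e3 : t⁻¹ = z * t := by
      apply inv_eq_of_mul_eq_one_left
      rw [mul_assoc, e2, hzz]
    calc q = (q * t) * t⁻¹ := by group
      _ = z * t⁻¹ := by rw [e]
      _ = z * (z * t) := by rw [e3]
      _ = t := by rw [← mul_assoc, hzz, one_mul]

/-- The eight relevant partners. -/
theorem pow_four_eq (h : HB Q z) (F : Frame Q z v u) (i : Fin 4) : (u i * v) ^ 4 = z := by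
  have e : (u i * v) * (u i * v) = u i * u (τ i) := by
    rw [← F.v_conj i]; group
  have hne : i ≠ τ i := (tau_ne i).symm
  have e2 := sq_anti h F hne
  calc (u i * v) ^ 4 = ((u i * v) * (u i * v)) * ((u i * v) * (u i * v)) := by
        simp only [pow_succ, pow_zero, one_mul, mul_assoc]
    _ = z := by rw [e, e2]

theorem z_mem (h : HB Q z) (F : Frame Q z v u) (i : Fin 4) : z ∈ Subgroup.zpowers (u i * v) := by
  rw [← pow_four_eq h F i]
  exact Subgroup.npow_mem_zpowers _ 4

theorem z_mem' (h : HB Q z) (F : Frame Q z v u) (i : Fin 4) :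
    z ∈ Subgroup.zpowers (z * u i * v) := by
  have e : (u i * v) * (u i * v) = (z * u i * v) * (z * u i * v) := by
    have hz : ∀ g : C, z * g = g * z := fun g => (h.zc g).symm
    calc (u i * v) * (u i * v) = (z * z) * ((u i * v) * (u i * v)) := by rw [h.z2, one_mul]
      _ = z * (z * (u i * v)) * (u i * v) := by group
      _ = z * ((u i * v) * z) * (u i * v) := by rw [hz (u i * v)]
      _ = (z * u i * v) * (z * u i * v) := by group
  have e2 : (z * u i * v) ^ 4 = (u i * v) ^ 4 := by
    calc (z * u i * v) ^ 4 = ((z * u i * v) * (z * u i * v)) * ((z * u i * v) * (z * u i * v)) := by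
          simp only [pow_succ, pow_zero, one_mul, mul_assoc]
      _ = ((u i * v) * (u i * v)) * ((u i * v) * (u i * v)) := by rw [e]
      _ = (u i * v) ^ 4 := by simp only [pow_succ, pow_zero, one_mul, mul_assoc]
  rw [pow_four_eq h F i] at e2
  have e3 := Subgroup.npow_mem_zpowers (z * u i * v) 4
  rwa [e2] at e3

theorem mem_zpowers_of_sq {y w : C} (hy : y * y = 1) (hw : w ∈ Subgroup.zpowers y) : w = 1 ∨ w = y := by
  obtain ⟨n, rfl⟩ := Subgroup.mem_zpowers_iff.1 hw
  rcases Int.even_or_odd' n with ⟨m, rfl | rfl⟩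
  · left
    rw [zpow_mul, zpow_two, hy, one_zpow]
  · right
    rw [zpow_add, zpow_mul, zpow_two, hy, one_zpow, one_mul, zpow_one]

/-- The element `a`. -/
def ea (u : Fin 4 → C) : C := u 0 * u 1
/-- The element `b`. -/
def eb (u : Fin 4 → C) : C := u 2 * u 3
/-- The element `x`. -/
def ex (u : Fin 4 → C) : C := ea u * eb u

theorem ea_mem (F : Frame Q z v u) : ea u ∈ Q := Q.mul_mem (F.mem 0) (F.mem 1)
theorem eb_mem (F : Frame Q z v u) : eb u ∈ Q := Q.mul_mem (F.mem 2) (F.mem 3)
theorem ex_mem (F : Frame Q z v u) : ex u ∈ Q := Q.mul_mem (ea_mem F) (eb_mem F)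

theorem ea_comm (h : HB Q z) (F : Frame Q z v u) (i : Fin 4) :
    ea u * u i = u i * ea u ↔ (i = 2 ∨ i = 3) := by
  unfold ea
  rw [h.comm_iff (F.mem 0) (F.mem 1) (F.mem i), F.ucomm, F.ucomm]
  revert i; decide

theorem eb_comm (h : HB Q z) (F : Frame Q z v u) (i : Fin 4) :
    eb u * u i = u i * eb u ↔ (i = 0 ∨ i = 1) := by
  unfold eb
  rw [h.comm_iff (F.mem 2) (F.mem 3) (F.mem i), F.ucomm, F.ucomm]
  revert i; decide

theorem ex_comm (h : HB Q z) (F : Frame Q z v u) (i : Fin 4) :
    ¬ (ex u * u i = u i * ex u) := by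
  unfold ex
  rw [h.comm_iff (ea_mem F) (eb_mem F) (F.mem i), ea_comm h F, eb_comm h F]
  revert i; decide

theorem ab_comm (h : HB Q z) (F : Frame Q z v u) : ea u * eb u = eb u * ea u := by
  have := (h.comm_iff' (x := u 2) (y := u 3) (d := ea u) (F.mem 2) (F.mem 3) (ea_mem F)).2 (by
    rw [eq_comm, ea_comm h F, eq_comm, ea_comm h F]; simp)
  exact this

theorem ea_sq (h : HB Q z) (F : Frame Q z v u) : ea u * ea u = z :=
  sq_anti h F (by decide)

theorem eb_sq (h : HB Q z) (F : Frame Q z v u) : eb u * eb u = z :=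
  sq_anti h F (by decide)

theorem ex_sq (h : HB Q z) (F : Frame Q z v u) : ex u * ex u = 1 := by
  unfold ex
  have e := ab_comm h F
  calc ea u * eb u * (ea u * eb u) = ea u * (eb u * ea u) * eb u := by group
    _ = ea u * (ea u * eb u) * eb u := by rw [e]
    _ = (ea u * ea u) * (eb u * eb u) := by group
    _ = 1 := by rw [ea_sq h F, eb_sq h F, h.z2]

theorem v_mul (F : Frame Q z v u) (p r : C) : v * (p * r) * v = (v * p * v) * (v * r * v) := by
  calc v * (p * r) * v = v * p * 1 * r * v := by group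
    _ = v * p * (v * v) * r * v := by rw [F.vv]
    _ = (v * p * v) * (v * r * v) := by group

theorem v_z (h : HB Q z) (F : Frame Q z v u) : v * z * v = z := by
  rw [h.zc, mul_assoc, F.vv, mul_one]

theorem v_ea (F : Frame Q z v u) : v * ea u * v = u 1 * u 0 := by
  unfold ea
  rw [v_mul F, F.v_conj 0, F.v_conj 1]
  rfl

theorem v_eb (F : Frame Q z v u) : v * eb u * v = u 3 * u 2 := by
  unfold eb
  rw [v_mul F, F.v_conj 2, F.v_conj 3]
  rfl

theorem inv_pair (F : Frame Q z v u) (i j : Fin 4) : (u i * u j) * (u j * u i) = 1 := by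
  calc (u i * u j) * (u j * u i) = u i * (u j * u j) * u i := by group
    _ = 1 := by rw [F.sq j, mul_one, F.sq i]

theorem v_ex (h : HB Q z) (F : Frame Q z v u) : v * ex u * v = ex u := by
  unfold ex
  rw [v_mul F, v_ea F, v_eb F]
  have e1 : u 1 * u 0 = z * ea u := by
    unfold ea
    exact h.xs.anti (x := ⟨u 1, F.mem 1⟩) (y := ⟨u 0, F.mem 0⟩)
      (fun e => F.anti 1 0 (by decide) (congrArg Subtype.val e)) |> congrArg Subtype.val
  have e2 : u 3 * u 2 = z * eb u := by
    unfold eb
    exact h.xs.anti (x := ⟨u 3, F.mem 3⟩) (y := ⟨u 2, F.mem 2⟩)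
      (fun e => F.anti 3 2 (by decide) (congrArg Subtype.val e)) |> congrArg Subtype.val
  rw [e1, e2]
  calc z * ea u * (z * eb u) = z * (ea u * z) * eb u := by group
    _ = z * (z * ea u) * eb u := by rw [h.zc]
    _ = (z * z) * (ea u * eb u) := by group
    _ = ea u * eb u := by rw [h.z2, one_mul]

/-- The list of the solutions. -/
def tl (u : Fin 4 → C) : Fin 4 → C := ![1, ea u, eb u, ex u]

theorem tl_mem (F : Frame Q z v u) (i : Fin 4) : tl u i ∈ Q := by
  fin_cases i
  · exact Q.one_mem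
  · exact ea_mem F
  · exact eb_mem F
  · exact ex_mem F

theorem tl_good (h : HB Q z) (F : Frame Q z v u) (i : Fin 4) : tl u i * (v * tl u i * v) = 1 := by
  fin_cases i
  · show 1 * (v * 1 * v) = 1
    simp [F.vv]
  · show ea u * (v * ea u * v) = 1
    rw [v_ea F]
    exact inv_pair F 0 1
  · show eb u * (v * eb u * v) = 1
    rw [v_eb F]
    exact inv_pair F 2 3
  · show ex u * (v * ex u * v) = 1
    rw [v_ex h F]
    exact ex_sq h F

theorem ztl_good (h : HB Q z) (F : Frame Q z v u) (i : Fin 4) :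
    (z * tl u i) * (v * (z * tl u i) * v) = 1 := by
  rw [v_mul F, v_z h F]
  calc z * tl u i * (z * (v * tl u i * v)) = z * (tl u i * z) * (v * tl u i * v) := by group
    _ = z * (z * tl u i) * (v * tl u i * v) := by rw [h.zc]
    _ = (z * z) * (tl u i * (v * tl u i * v)) := by group
    _ = 1 := by rw [h.z2, tl_good h F i, one_mul]

theorem tl_comm0 (h : HB Q z) (F : Frame Q z v u) (i : Fin 4) :
    tl u i * u 0 = u 0 * tl u i ↔ (i = 0 ∨ i = 2) := by
  fin_cases i
  · simp [tl]
  · have := ea_comm h F 0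
    simpa [tl] using this
  · have := eb_comm h F 0
    simpa [tl] using this
  · have := ex_comm h F 0
    simpa [tl] using this

theorem tl_comm2 (h : HB Q z) (F : Frame Q z v u) (i : Fin 4) :
    tl u i * u 2 = u 2 * tl u i ↔ (i = 0 ∨ i = 1) := by
  fin_cases i
  · simp [tl]
  · have := ea_comm h F 2
    simpa [tl] using this
  · have := eb_comm h F 2
    simpa [tl] using this
  · have := ex_comm h F 2
    simpa [tl] using this

/-- Elements inverted by `v` have the commutation pattern stable under the swap. -/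
theorem comm_tau (F : Frame Q z v u) {q : C} (hq : q * (v * q * v) = 1) {i : Fin 4}
    (hc : q * u i = u i * q) : q * u (τ i) = u (τ i) * q := by
  have e1 : v * q * v = q⁻¹ := eq_inv_of_mul_eq_one_right hq
  have e2 : (v * q * v) * (v * u i * v) = (v * u i * v) * (v * q * v) := by
    rw [← v_mul F, ← v_mul F, hc]
  rw [e1, F.v_conj i] at e2
  have e3 : Commute q⁻¹ (u (τ i)) := e2
  exact (Commute.inv_left_iff.1 e3)

theorem I_iff [Finite C] (h : HB Q z) (F : Frame Q z v u) (q : C) :
    (q ∈ Q ∧ q * (v * q * v) = 1) ↔ ∃ i, q = tl u i ∨ q = z * tl u i := by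
  constructor
  · rintro ⟨hq, hq2⟩
    have h01 : q * u 1 = u 1 * q ↔ q * u 0 = u 0 * q :=
      ⟨fun e => comm_tau F hq2 (i := 1) e, fun e => comm_tau F hq2 (i := 0) e⟩
    have h23 : q * u 3 = u 3 * q ↔ q * u 2 = u 2 * q :=
      ⟨fun e => comm_tau F hq2 (i := 3) e, fun e => comm_tau F hq2 (i := 2) e⟩
    have hsig : ∀ j : Fin 4, (tl u j * u 0 = u 0 * tl u j ↔ q * u 0 = u 0 * q) →
        (tl u j * u 2 = u 2 * tl u j ↔ q * u 2 = u 2 * q) →
        (tl u j * u 1 = u 1 * tl u j ↔ tl u j * u 0 = u 0 * tl u j) →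
        (tl u j * u 3 = u 3 * tl u j ↔ tl u j * u 2 = u 2 * tl u j) →
        q = tl u j ∨ q = z * tl u j := by
      intro j h0 h2 h1 h3
      apply sig_eq h F hq (tl_mem F j)
      intro i
      fin_cases i
      · exact h0.symm
      · show q * u 1 = u 1 * q ↔ tl u j * u 1 = u 1 * tl u j
        rw [h01, h1, h0]
      · exact h2.symm
      · show q * u 3 = u 3 * q ↔ tl u j * u 3 = u 3 * tl u j
        rw [h23, h3, h2]
    have t1 : ∀ j : Fin 4, (tl u j * u 1 = u 1 * tl u j ↔ tl u j * u 0 = u 0 * tl u j) := by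
      intro j
      fin_cases j
      · simp [tl]
      · have e0 := ea_comm h F 0
        have e1 := ea_comm h F 1
        simp [tl] at e0 e1 ⊢
        tauto
      · have e0 := eb_comm h F 0
        have e1 := eb_comm h F 1
        simp [tl] at e0 e1 ⊢
        tauto
      · have e0 := ex_comm h F 0
        have e1 := ex_comm h F 1
        simp [tl] at e0 e1 ⊢
        tauto
    have t3 : ∀ j : Fin 4, (tl u j * u 3 = u 3 * tl u j ↔ tl u j * u 2 = u 2 * tl u j) := by
      intro j
      fin_cases j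
      · simp [tl]
      · have e0 := ea_comm h F 2
        have e1 := ea_comm h F 3
        simp [tl] at e0 e1 ⊢
        tauto
      · have e0 := eb_comm h F 2
        have e1 := eb_comm h F 3
        simp [tl] at e0 e1 ⊢
        tauto
      · have e0 := ex_comm h F 2
        have e1 := ex_comm h F 3
        simp [tl] at e0 e1 ⊢
        tauto
    by_cases s0 : q * u 0 = u 0 * q <;> by_cases s2 : q * u 2 = u 2 * q
    · refine ⟨0, hsig 0 ?_ ?_ (t1 0) (t3 0)⟩
      · rw [tl_comm0 h F]; simp [s0]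
      · rw [tl_comm2 h F]; simp [s2]
    · refine ⟨2, hsig 2 ?_ ?_ (t1 2) (t3 2)⟩
      · rw [tl_comm0 h F]; simp [s0]
      · rw [tl_comm2 h F]; simp [s2]
    · refine ⟨1, hsig 1 ?_ ?_ (t1 1) (t3 1)⟩
      · rw [tl_comm0 h F]; simp [s0]
      · rw [tl_comm2 h F]; simp [s2]
    · refine ⟨3, hsig 3 ?_ ?_ (t1 3) (t3 3)⟩
      · rw [tl_comm0 h F]; simp [s0]
      · rw [tl_comm2 h F]; simp [s2]
  · rintro ⟨i, rfl | rfl⟩
    · exact ⟨tl_mem F i, tl_good h F i⟩
    · exact ⟨Q.mul_mem h.zQ (tl_mem F i), ztl_good h F i⟩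

theorem U_iff [Finite C] (h : HB Q z) (F : Frame Q z v u) (w : C) :
    (w ∈ Q ∧ w * w = 1 ∧ w ≠ 1 ∧ z ∈ Subgroup.zpowers (w * v)) ↔ ∃ i, w = u i ∨ w = z * u i := by
  have hvne : ∀ q ∈ Q, q * v ≠ z := by
    intro q hq e
    apply F.vQ
    have : v = q⁻¹ * z := by rw [← e]; group
    rw [this]
    exact Q.mul_mem (Q.inv_mem hq) h.zQ
  have hzmem : ∀ p ∈ Q, (p * v) * (p * v) = 1 → z ∉ Subgroup.zpowers (p * v) := by
    intro p hp e hz
    rcases mem_zpowers_of_sq e hz with e2 | e2
    · exact h.z1 e2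
    · exact hvne p hp e2.symm
  constructor
  · rintro ⟨hw, hww, hw1, hwz⟩
    by_cases hwzz : w = z
    · exfalso
      rw [hwzz] at hwz
      apply hzmem z h.zQ _ hwz
      calc (z * v) * (z * v) = z * (v * z) * v := by group
        _ = z * (z * v) * v := by rw [h.zc]
        _ = (z * z) * (v * v) := by group
        _ = 1 := by rw [h.z2, F.vv, one_mul]
    · by_cases hall : ∃ i, w * u i = u i * w
      · obtain ⟨i, hi⟩ := hall
        rcases h.comm_inv_eq (F.mem i) (F.sq i) (F.ne_one i) (F.ne_z h i) hw hww hi.symm with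
          e | e | e | e
        · exact absurd e hw1
        · exact absurd e hwzz
        · exact ⟨i, Or.inl e⟩
        · exact ⟨i, Or.inr e⟩
      · exfalso
        push Not at hall
        have hsig : ∀ i, w * u i = u i * w ↔ ex u * u i = u i * ex u := by
          intro i
          exact ⟨fun e => absurd e (hall i), fun e => absurd e (ex_comm h F i)⟩
        have hxv : (w * v) * (w * v) = 1 := by
          rcases sig_eq h F hw (ex_mem F) hsig with e | e
          · rw [e]
            have := v_ex h F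
            calc (ex u * v) * (ex u * v) = ex u * (v * ex u * v) := by group
              _ = 1 := by rw [this, ex_sq h F]
          · rw [e]
            have := v_ex h F
            calc (z * ex u * v) * (z * ex u * v) = z * (ex u * (v * z)) * ex u * v := by group
              _ = z * (ex u * (z * v)) * ex u * v := by rw [h.zc v]
              _ = z * ((ex u * z) * v) * ex u * v := by group
              _ = z * ((z * ex u) * v) * ex u * v := by rw [h.zc]
              _ = (z * z) * (ex u * (v * ex u * v)) := by group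
              _ = 1 := by rw [h.z2, this, ex_sq h F, one_mul]
        exact hzmem w hw hxv hwz
  · rintro ⟨i, rfl | rfl⟩
    · exact ⟨F.mem i, F.sq i, F.ne_one i, z_mem h F i⟩
    · refine ⟨Q.mul_mem h.zQ (F.mem i), ?_, ?_, z_mem' h F i⟩
      · calc z * u i * (z * u i) = z * (u i * z) * u i := by group
          _ = z * (z * u i) * u i := by rw [h.zc]
          _ = (z * z) * (u i * u i) := by group
          _ = 1 := by rw [h.z2, F.sq i, one_mul]
      · intro e
        apply F.ne_z h i
        have e2 : z * u i = z * z := by rw [e, h.z2]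
        exact mul_left_cancel e2

end Frame

theorem HB.card_eight [DecidableEq C] (h : HB Q z) (t : Fin 4 → C)
    (hinj : ∀ i j, (t i = t j ∨ t i = z * t j) → i = j) (A : Finset C)
    (hA : ∀ y, y ∈ A ↔ ∃ i, y = t i ∨ y = z * t i) : A.card = 8 := by
  let G : Fin 4 × Bool → C := fun p => if p.2 then z * t p.1 else t p.1
  have hG : Function.Injective G := by
    rintro ⟨i, b⟩ ⟨j, b'⟩ e
    cases b <;> cases b' <;> simp only [G, if_true, if_false, Bool.false_eq_true] at e
    · rw [hinj i j (Or.inl e)]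
    · exfalso
      have e2 := hinj i j (Or.inr e)
      subst e2
      apply h.z1
      have e3 : 1 * t i = z * t i := by rw [one_mul]; exact e
      exact (mul_right_cancel e3).symm
    · exfalso
      have e2 := hinj j i (Or.inr e.symm)
      subst e2
      apply h.z1
      have e3 : z * t j = 1 * t j := by rw [one_mul]; exact e
      exact mul_right_cancel e3
    · rw [hinj i j (Or.inl (mul_left_cancel e))]
  have e : A = Finset.univ.image G := by
    ext y
    rw [hA]
    simp only [Finset.mem_image, Finset.mem_univ, true_and]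
    constructor
    · rintro ⟨i, rfl | rfl⟩
      · exact ⟨(i, false), by simp [G]⟩
      · exact ⟨(i, true), by simp [G]⟩
    · rintro ⟨⟨i, b⟩, rfl⟩
      cases b
      · exact ⟨i, Or.inl (by simp [G])⟩
      · exact ⟨i, Or.inr (by simp [G])⟩
  rw [e, Finset.card_image_of_injective _ hG]
  simp

theorem Frame.card_U [Finite C] [Fintype C] [DecidableEq C] (h : HB Q z) {v : C} {u : Fin 4 → C}
    (F : Frame Q z v u) (A : Finset C)
    (hA : ∀ w, w ∈ A ↔ (w ∈ Q ∧ w * w = 1 ∧ w ≠ 1 ∧ z ∈ Subgroup.zpowers (w * v))) : A.card = 8 := by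
  apply h.card_eight u _ A
  · intro y
    rw [hA, F.U_iff h]
  · rintro i j (e | e)
    · by_contra hij
      apply F.anti i j hij
      rw [e]
    · by_contra hij
      apply F.anti i j hij
      rw [e, ← mul_assoc (u j) z, h.zc (u j)]

theorem Frame.card_I [Finite C] [Fintype C] [DecidableEq C] (h : HB Q z) {v : C} {u : Fin 4 → C}
    (F : Frame Q z v u) (A : Finset C)
    (hA : ∀ q, q ∈ A ↔ (q ∈ Q ∧ q * (v * q * v) = 1)) : A.card = 8 := by
  apply h.card_eight (Frame.tl u) _ A
  · intro y
    rw [hA, F.I_iff h]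
  · intro i j e
    have key : ∀ d : Fin 4, Frame.tl u i * u d = u d * Frame.tl u i ↔ Frame.tl u j * u d = u d * Frame.tl u j := by
      intro d
      rcases e with e | e
      · rw [e]
      · rw [e]
        have : z * Frame.tl u j * u d = u d * (z * Frame.tl u j) ↔ Frame.tl u j * u d = u d * Frame.tl u j := by
          constructor
          · intro e2
            have e3 : z * (Frame.tl u j * u d) = z * (u d * Frame.tl u j) := by
              calc z * (Frame.tl u j * u d) = z * Frame.tl u j * u d := by group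
                _ = u d * (z * Frame.tl u j) := e2
                _ = (u d * z) * Frame.tl u j := by group
                _ = (z * u d) * Frame.tl u j := by rw [h.zc]
                _ = z * (u d * Frame.tl u j) := by group
            exact mul_left_cancel e3
          · intro e2
            calc z * Frame.tl u j * u d = z * (Frame.tl u j * u d) := by group
              _ = z * (u d * Frame.tl u j) := by rw [e2]
              _ = (z * u d) * Frame.tl u j := by group
              _ = (u d * z) * Frame.tl u j := by rw [h.zc]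
              _ = u d * (z * Frame.tl u j) := by group
        exact this
    have k0 := key 0
    have k2 := key 2
    rw [F.tl_comm0 h, F.tl_comm0 h] at k0
    rw [F.tl_comm2 h, F.tl_comm2 h] at k2
    revert k0 k2
    clear key e
    revert i j
    decide

theorem inv_A5_card : Nat.card {a : alternatingGroup (Fin 5) // a * a = 1 ∧ a ≠ 1} = 15 := by
  rw [Nat.card_eq_fintype_card, Fintype.card_subtype]
  decide +kernel


/-- All involutions of the alternating group of degree five are conjugate. -/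
theorem A5_conj : ∀ a b : alternatingGroup (Fin 5), a * a = 1 → a ≠ 1 → b * b = 1 → b ≠ 1 →
    ∃ c, c * a * c⁻¹ = b := by
  decide +kernel

/-- Involutions in the coset of `v`. -/
theorem Frame.card_coset [Finite C] [Fintype C] [DecidableEq C] (h : HB Q z) {v : C} {u : Fin 4 → C}
    (F : Frame Q z v u) (S : Finset C)
    (hS : ∀ w, w ∈ S ↔ (w * w = 1 ∧ w ∉ Q ∧ w * v ∈ Q)) : S.card = 8 := by
  classical
  have hvv := F.vv
  have hvi : v⁻¹ = v := inv_eq_of_mul_eq_one_left hvv
  let I : Finset C := Finset.univ.filter (fun q => q ∈ Q ∧ q * (v * q * v) = 1)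
  have hI : I.card = 8 := by
    apply F.card_I h
    intro q
    simp [I]
  rw [← hI]
  symm
  apply Finset.card_bij (fun q _ => q * v)
  · intro q hq
    simp only [I, Finset.mem_filter, Finset.mem_univ, true_and] at hq
    obtain ⟨hq, hqq⟩ := hq
    rw [hS]
    refine ⟨?_, ?_, ?_⟩
    · calc q * v * (q * v) = q * (v * q * v) := by group
        _ = 1 := hqq
    · intro e
      apply F.vQ
      have : v = q⁻¹ * (q * v) := by group
      rw [this]
      exact Q.mul_mem (Q.inv_mem hq) e
    · have e : q * v * v = q := by rw [mul_assoc, hvv, mul_one]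
      rw [e]
      exact hq
  · intro q _ q' _ e
    exact mul_right_cancel e
  · intro w hw
    rw [hS] at hw
    obtain ⟨hww, hwQ, hwv⟩ := hw
    refine ⟨w * v, ?_, ?_⟩
    · simp only [I, Finset.mem_filter, Finset.mem_univ, true_and]
      refine ⟨hwv, ?_⟩
      calc w * v * (v * (w * v) * v) = w * (v * v) * w * (v * v) := by group
        _ = 1 := by rw [hvv, mul_one, mul_one, hww]
    · calc w * v * v = w * (v * v) := by group
        _ = w := by rw [hvv, mul_one]

/-- The number of involutions outside `Q`. -/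
theorem HB.card_W [Fintype C] [DecidableEq C] (h : HB Q z)
    (W : Finset C) (hW : ∀ v, v ∈ W ↔ (v * v = 1 ∧ v ∉ Q)) {v₀ : C} (hv₀ : v₀ ∈ W) : W.card = 120 := by
  classical
  obtain ⟨π, hs, hq⟩ := h.iso
  let IK : Finset (alternatingGroup (Fin 5)) := Finset.univ.filter (fun a => a * a = 1 ∧ a ≠ 1)
  have hIK : IK.card = 15 := by decide +kernel
  have hmaps : ∀ v ∈ W, π v ∈ IK := by
    intro v hv
    rw [hW] at hv
    simp only [IK, Finset.mem_filter, Finset.mem_univ, true_and]
    refine ⟨by rw [← map_mul, hv.1, map_one], fun e => hv.2 ((hq v).1 e)⟩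
  have hv₀' := hv₀
  rw [hW] at hv₀'
  have hfib : ∀ a ∈ IK, (W.filter (fun v => π v = a)).card = 8 := by
    intro a ha
    simp only [IK, Finset.mem_filter, Finset.mem_univ, true_and] at ha
    have hp0 := hmaps v₀ hv₀
    simp only [IK, Finset.mem_filter, Finset.mem_univ, true_and] at hp0
    obtain ⟨c, hc⟩ := A5_conj _ _ hp0.1 hp0.2 ha.1 ha.2
    obtain ⟨g, rfl⟩ := hs c
    set v := g * v₀ * g⁻¹ with hvdef
    have hπv : π v = a := by
      rw [hvdef, map_mul, map_mul, map_inv, hc]
    have hvv : v * v = 1 := by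
      calc v * v = g * (v₀ * v₀) * g⁻¹ := by rw [hvdef]; group
        _ = 1 := by rw [hv₀'.1]; group
    have hvQ : v ∉ Q := by
      intro e
      apply ha.2
      rw [← hπv]
      exact (hq v).2 e
    obtain ⟨u, F⟩ := h.frame_exists hvv hvQ
    apply F.card_coset h
    intro w
    simp only [Finset.mem_filter]
    rw [hW]
    have hvi : v⁻¹ = v := inv_eq_of_mul_eq_one_left hvv
    constructor
    · rintro ⟨⟨h1, h2⟩, h3⟩
      refine ⟨h1, h2, ?_⟩
      rw [← hq, map_mul, h3, ← hπv, ← map_mul, hvv, map_one]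
    · rintro ⟨h1, h2, h3⟩
      refine ⟨⟨h1, h2⟩, ?_⟩
      have := (hq _).2 h3
      rw [map_mul, hπv] at this
      have e : π w = a⁻¹ := eq_inv_of_mul_eq_one_left this
      rw [e]
      exact inv_eq_of_mul_eq_one_left ha.1
  have := Finset.card_eq_sum_card_fiberwise hmaps
  rw [this, Finset.sum_congr rfl hfib, Finset.sum_const, hIK]
  rfl

/-- The count of pairs in the centralizer. -/
theorem HB.count [Finite C] (h : HB Q z) {v₀ : C} (hv₀ : v₀ * v₀ = 1) (hv₀Q : v₀ ∉ Q) :
    Nat.card {p : C × C // p.1 ∈ Q ∧ p.1 * p.1 = 1 ∧ p.1 ≠ 1 ∧ p.2 ∉ Q ∧ p.2 * p.2 = 1 ∧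
      z ∈ Subgroup.zpowers (p.1 * p.2)} = 960 := by
  classical
  haveI := Fintype.ofFinite C
  rw [Nat.card_eq_fintype_card, Fintype.card_subtype]
  let W : Finset C := Finset.univ.filter (fun v => v * v = 1 ∧ v ∉ Q)
  have hW : W.card = 120 := h.card_W W (by intro v; simp [W]) (v₀ := v₀) (by simp [W, hv₀, hv₀Q])
  let U : C → Finset C := fun v =>
    Finset.univ.filter (fun w => w ∈ Q ∧ w * w = 1 ∧ w ≠ 1 ∧ z ∈ Subgroup.zpowers (w * v))
  have hU : ∀ v ∈ W, (U v).card = 8 := by
    intro v hv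
    simp only [W, Finset.mem_filter, Finset.mem_univ, true_and] at hv
    obtain ⟨u, F⟩ := h.frame_exists hv.1 hv.2
    apply F.card_U h
    intro w
    simp [U]
  have e1 : (Finset.univ.filter (fun p : C × C => p.1 ∈ Q ∧ p.1 * p.1 = 1 ∧ p.1 ≠ 1 ∧ p.2 ∉ Q ∧
      p.2 * p.2 = 1 ∧ z ∈ Subgroup.zpowers (p.1 * p.2))).card = (W.sigma U).card := by
    symm
    apply Finset.card_bij (fun x _ => (x.2, x.1))
    · rintro ⟨v, w⟩ hx
      simp only [Finset.mem_sigma, W, U, Finset.mem_filter, Finset.mem_univ, true_and] at hx ⊢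
      obtain ⟨⟨h1, h2⟩, h3, h4, h5, h6⟩ := hx
      exact ⟨h3, h4, h5, h2, h1, h6⟩
    · rintro ⟨v, w⟩ _ ⟨v', w'⟩ _ e
      simp only [Prod.mk.injEq] at e
      obtain ⟨rfl, rfl⟩ := e
      rfl
    · rintro ⟨w, v⟩ hp
      simp only [Finset.mem_filter, Finset.mem_univ, true_and] at hp
      obtain ⟨h3, h4, h5, h2, h1, h6⟩ := hp
      refine ⟨⟨v, w⟩, ?_, rfl⟩
      simp only [Finset.mem_sigma, W, U, Finset.mem_filter, Finset.mem_univ, true_and]
      exact ⟨⟨h1, h2⟩, h3, h4, h5, h6⟩
  rw [e1, Finset.card_sigma, Finset.sum_congr rfl hU, Finset.sum_const, hW]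
  rfl


open Cfsg.Agent.Lib.CITFour (conj_eq_of_comm comm_of_conj_eq cconj conj_conj orbit_card)

namespace Frame

variable {v : C} {u : Fin 4 → C}

theorem conj_form (F : Frame Q z v u) (p : C) : p * v * p⁻¹ = (p * (v * p⁻¹ * v)) * v := by
  calc p * v * p⁻¹ = p * v * p⁻¹ * (v * v) := by rw [F.vv, mul_one]
    _ = (p * (v * p⁻¹ * v)) * v := by group

theorem anti10 (h : HB Q z) (F : Frame Q z v u) : u 1 * u 0 = z * ea u := by
  exact h.xs.anti (x := ⟨u 1, F.mem 1⟩) (y := ⟨u 0, F.mem 0⟩)
    (fun e => F.anti 1 0 (by decide) (congrArg Subtype.val e)) |> congrArg Subtype.val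

theorem anti32 (h : HB Q z) (F : Frame Q z v u) : u 3 * u 2 = z * eb u := by
  exact h.xs.anti (x := ⟨u 3, F.mem 3⟩) (y := ⟨u 2, F.mem 2⟩)
    (fun e => F.anti 3 2 (by decide) (congrArg Subtype.val e)) |> congrArg Subtype.val

/-- `Q` is transitive on the involutions in the coset of `v`. -/
theorem orbit_Q [Finite C] (h : HB Q z) (F : Frame Q z v u) {q : C} (hq : q ∈ Q)
    (hqq : q * (v * q * v) = 1) : ∃ p ∈ Q, p * v * p⁻¹ = q * v := by
  obtain ⟨i, hi⟩ := (F.I_iff h q).1 ⟨hq, hqq⟩
  have hsing : ∀ i, (u i)⁻¹ = u i := fun i => inv_eq_of_mul_eq_one_left (F.sq i)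
  have hzz := h.z2
  have hzc : ∀ g, z * g = g * z := fun g => (h.zc g).symm
  have hui : ∀ i, u i * v * (u i)⁻¹ = (u i * u (τ i)) * v := by
    intro i
    rw [F.conj_form, hsing, F.v_conj]
  fin_cases i
  · rcases hi with e | e
    · refine ⟨1, Q.one_mem, ?_⟩
      have e' : q = 1 := e
      rw [e']
      simp
    · refine ⟨ea u, ea_mem F, ?_⟩
      have e' : q = z * 1 := e
      rw [e', F.conj_form, mul_one]
      congr 1
      have hai : (ea u)⁻¹ = z * ea u := by
        apply inv_eq_of_mul_eq_one_left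
        rw [mul_assoc, ea_sq h F, hzz]
      rw [hai, F.v_mul, v_z h F, v_ea F, anti10 h F, ← mul_assoc z z, hzz, one_mul, ea_sq h F]
  · rcases hi with e | e
    · refine ⟨u 0, F.mem 0, ?_⟩
      have e' : q = ea u := e
      rw [e', hui 0]
      rfl
    · refine ⟨u 1, F.mem 1, ?_⟩
      have e' : q = z * ea u := e
      rw [e', hui 1]
      congr 1
      exact anti10 h F
  · rcases hi with e | e
    · refine ⟨u 2, F.mem 2, ?_⟩
      have e' : q = eb u := e
      rw [e', hui 2]
      rfl
    · refine ⟨u 3, F.mem 3, ?_⟩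
      have e' : q = z * eb u := e
      rw [e', hui 3]
      congr 1
      exact anti32 h F
  · have hb1 : eb u * u 1 = u 1 * eb u := (eb_comm h F 1).2 (Or.inr rfl)
    rcases hi with e | e
    · refine ⟨u 0 * u 2, Q.mul_mem (F.mem 0) (F.mem 2), ?_⟩
      have e' : q = ex u := e
      rw [e', F.conj_form]
      congr 1
      have e1 : (u 0 * u 2)⁻¹ = u 2 * u 0 := by rw [mul_inv_rev, hsing, hsing]
      rw [e1, F.v_mul, F.v_conj 2, F.v_conj 0]
      show u 0 * u 2 * (u 3 * u 1) = ex u
      calc u 0 * u 2 * (u 3 * u 1) = u 0 * (eb u * u 1) := by unfold eb; group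
        _ = u 0 * (u 1 * eb u) := by rw [hb1]
        _ = ex u := by unfold ex ea; group
    · refine ⟨u 0 * u 3, Q.mul_mem (F.mem 0) (F.mem 3), ?_⟩
      have e' : q = z * ex u := e
      rw [e', F.conj_form]
      congr 1
      have e1 : (u 0 * u 3)⁻¹ = u 3 * u 0 := by rw [mul_inv_rev, hsing, hsing]
      rw [e1, F.v_mul, F.v_conj 3, F.v_conj 0]
      show u 0 * u 3 * (u 2 * u 1) = z * ex u
      calc u 0 * u 3 * (u 2 * u 1) = u 0 * ((u 3 * u 2) * u 1) := by group
        _ = u 0 * ((z * eb u) * u 1) := by rw [anti32 h F]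
        _ = u 0 * (z * (eb u * u 1)) := by group
        _ = u 0 * (z * (u 1 * eb u)) := by rw [hb1]
        _ = (u 0 * z) * (u 1 * eb u) := by group
        _ = (z * u 0) * (u 1 * eb u) := by rw [h.zc]
        _ = z * ex u := by unfold ex ea; group

/-- The commutation pattern determines the element up to `z`. -/
theorem pattern [Finite C] (h : HB Q z) (F : Frame Q z v u) {q : C} (hq : q ∈ Q)
    (h01 : q * u 1 = u 1 * q ↔ q * u 0 = u 0 * q) (h23 : q * u 3 = u 3 * q ↔ q * u 2 = u 2 * q) :
    ∃ i, q = tl u i ∨ q = z * tl u i := by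
  have hsig : ∀ j : Fin 4, (tl u j * u 0 = u 0 * tl u j ↔ q * u 0 = u 0 * q) →
      (tl u j * u 2 = u 2 * tl u j ↔ q * u 2 = u 2 * q) →
      (tl u j * u 1 = u 1 * tl u j ↔ tl u j * u 0 = u 0 * tl u j) →
      (tl u j * u 3 = u 3 * tl u j ↔ tl u j * u 2 = u 2 * tl u j) →
      q = tl u j ∨ q = z * tl u j := by
    intro j h0 h2 h1 h3
    apply sig_eq h F hq (tl_mem F j)
    intro i
    fin_cases i
    · exact h0.symm
    · show q * u 1 = u 1 * q ↔ tl u j * u 1 = u 1 * tl u j
      rw [h01, h1, h0]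
    · exact h2.symm
    · show q * u 3 = u 3 * q ↔ tl u j * u 3 = u 3 * tl u j
      rw [h23, h3, h2]
  have t1 : ∀ j : Fin 4, (tl u j * u 1 = u 1 * tl u j ↔ tl u j * u 0 = u 0 * tl u j) := by
    intro j
    fin_cases j
    · simp [tl]
    · have e0 := ea_comm h F 0
      have e1 := ea_comm h F 1
      simp [tl] at e0 e1 ⊢
      tauto
    · have e0 := eb_comm h F 0
      have e1 := eb_comm h F 1
      simp [tl] at e0 e1 ⊢
      tauto
    · have e0 := ex_comm h F 0
      have e1 := ex_comm h F 1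
      simp [tl] at e0 e1 ⊢
      tauto
  have t3 : ∀ j : Fin 4, (tl u j * u 3 = u 3 * tl u j ↔ tl u j * u 2 = u 2 * tl u j) := by
    intro j
    fin_cases j
    · simp [tl]
    · have e0 := ea_comm h F 2
      have e1 := ea_comm h F 3
      simp [tl] at e0 e1 ⊢
      tauto
    · have e0 := eb_comm h F 2
      have e1 := eb_comm h F 3
      simp [tl] at e0 e1 ⊢
      tauto
    · have e0 := ex_comm h F 2
      have e1 := ex_comm h F 3
      simp [tl] at e0 e1 ⊢
      tauto
  by_cases s0 : q * u 0 = u 0 * q <;> by_cases s2 : q * u 2 = u 2 * q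
  · refine ⟨0, hsig 0 ?_ ?_ (t1 0) (t3 0)⟩
    · rw [tl_comm0 h F]; simp [s0]
    · rw [tl_comm2 h F]; simp [s2]
  · refine ⟨2, hsig 2 ?_ ?_ (t1 2) (t3 2)⟩
    · rw [tl_comm0 h F]; simp [s0]
    · rw [tl_comm2 h F]; simp [s2]
  · refine ⟨1, hsig 1 ?_ ?_ (t1 1) (t3 1)⟩
    · rw [tl_comm0 h F]; simp [s0]
    · rw [tl_comm2 h F]; simp [s2]
  · refine ⟨3, hsig 3 ?_ ?_ (t1 3) (t3 3)⟩
    · rw [tl_comm0 h F]; simp [s0]
    · rw [tl_comm2 h F]; simp [s2]

/-- The elements of `Q` commuting with `v`. -/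
theorem cQ [Finite C] (h : HB Q z) (F : Frame Q z v u) {q : C} (hq : q ∈ Q) (hc : q * v = v * q) :
    q = 1 ∨ q = z ∨ q = ex u ∨ q = z * ex u := by
  have hC : Commute q v := hc
  have hcomm : ∀ i, Commute q (u i) → Commute q (u (τ i)) := by
    intro i e
    rw [← F.v_conj i]
    exact (hC.mul_right e).mul_right hC
  have h01 : q * u 1 = u 1 * q ↔ q * u 0 = u 0 * q :=
    ⟨fun e => hcomm 1 e, fun e => hcomm 0 e⟩
  have h23 : q * u 3 = u 3 * q ↔ q * u 2 = u 2 * q :=
    ⟨fun e => hcomm 3 e, fun e => hcomm 2 e⟩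
  have hvq : v * q * v = q := by
    rw [← hc, mul_assoc, F.vv, mul_one]
  have hzv : v * (z * ea u) * v = z * (v * ea u * v) := by
    rw [F.v_mul, v_z h F]
  have hzv' : v * (z * eb u) * v = z * (v * eb u * v) := by
    rw [F.v_mul, v_z h F]
  have hz1 := h.z1
  have hzz := h.z2
  have hne : ∀ w : C, z * w ≠ w := by
    intro w e
    apply hz1
    have : z * w = 1 * w := by rw [one_mul]; exact e
    exact mul_right_cancel this
  obtain ⟨i, hi⟩ := F.pattern h hq h01 h23
  fin_cases i
  · rcases hi with e | e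
    · left; exact e
    · right; left
      have e' : q = z * 1 := e
      rw [e', mul_one]
  · exfalso
    rcases hi with e | e
    · have e' : q = ea u := e
      rw [e', v_ea F, anti10 h F] at hvq
      exact hne _ hvq
    · have e' : q = z * ea u := e
      rw [e', hzv, v_ea F, anti10 h F, ← mul_assoc, hzz, one_mul] at hvq
      exact hne _ hvq.symm
  · exfalso
    rcases hi with e | e
    · have e' : q = eb u := e
      rw [e', v_eb F, anti32 h F] at hvq
      exact hne _ hvq
    · have e' : q = z * eb u := e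
      rw [e', hzv', v_eb F, anti32 h F, ← mul_assoc, hzz, one_mul] at hvq
      exact hne _ hvq.symm
  · rcases hi with e | e
    · right; right; left; exact e
    · right; right; right; exact e

end Frame

/-- The group is transitive on the involutions outside `Q`. -/
theorem HB.trans_W [Finite C] (h : HB Q z) {v v' : C} (hv : v * v = 1) (hvQ : v ∉ Q) (hv' : v' * v' = 1)
    (hv'Q : v' ∉ Q) : ∃ g, g * v * g⁻¹ = v' := by
  obtain ⟨π, hs, hq⟩ := h.iso
  have h1 : π v * π v = 1 := by rw [← map_mul, hv, map_one]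
  have h2 : π v' * π v' = 1 := by rw [← map_mul, hv', map_one]
  obtain ⟨c, hc⟩ := A5_conj (π v) (π v') h1 (fun e => hvQ ((hq v).1 e)) h2 (fun e => hv'Q ((hq v').1 e))
  obtain ⟨g, rfl⟩ := hs c
  set v₁ := g * v * g⁻¹ with hv₁
  have hπ : π v₁ = π v' := by
    rw [hv₁, map_mul, map_mul, map_inv, hc]
  have hv₁v₁ : v₁ * v₁ = 1 := by
    calc v₁ * v₁ = g * (v * v) * g⁻¹ := by rw [hv₁]; group
      _ = 1 := by rw [hv]; group
  have hv₁Q : v₁ ∉ Q := by
    intro e
    apply hv'Q
    rw [← hq, ← hπ]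
    exact (hq v₁).2 e
  have hv₁i : v₁⁻¹ = v₁ := inv_eq_of_mul_eq_one_left hv₁v₁
  obtain ⟨u, F⟩ := h.frame_exists hv₁v₁ hv₁Q
  set q := v' * v₁ with hqdef
  have hq' : q ∈ Q := by
    rw [← hq, hqdef, map_mul, ← hπ, ← map_mul, hv₁v₁, map_one]
  have hqv : q * v₁ = v' := by
    rw [hqdef, mul_assoc, hv₁v₁, mul_one]
  have hqq : q * (v₁ * q * v₁) = 1 := by
    calc q * (v₁ * q * v₁) = (q * v₁) * (q * v₁) := by group
      _ = 1 := by rw [hqv, hv']
  obtain ⟨p, hp, e⟩ := F.orbit_Q h hq' hqq
  refine ⟨p * g, ?_⟩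
  rw [← conj_conj, ← hv₁, e, hqv]

/-- The order of the centralizer of an involution outside `Q`. -/
theorem HB.card_E [Finite C] (h : HB Q z) {v : C} (hv : v * v = 1) (hvQ : v ∉ Q) :
    Nat.card (Subgroup.centralizer ({v} : Set C)) = 16 := by
  classical
  haveI := Fintype.ofFinite C
  let W : Finset C := Finset.univ.filter (fun v => v * v = 1 ∧ v ∉ Q)
  have hW : W.card = 120 := h.card_W W (by intro v; simp [W]) (v₀ := v) (by simp [W, hv, hvQ])
  have horb := orbit_card (⊤ : Subgroup C) v {w | w * w = 1 ∧ w ∉ Q}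
    (fun g _ => by
      constructor
      · calc g * v * g⁻¹ * (g * v * g⁻¹) = g * (v * v) * g⁻¹ := by group
          _ = 1 := by rw [hv]; group
      · intro e
        apply hvQ
        have : v = g⁻¹ * (g * v * g⁻¹) * g := by group
        rw [this]
        have := h.nQ.conj_mem _ e g⁻¹
        simpa using this)
    (fun y hy => by
      obtain ⟨g, hg⟩ := h.trans_W hv hvQ hy.1 hy.2
      exact ⟨g, Subgroup.mem_top g, hg⟩)
  have e1 : ({w | w * w = 1 ∧ w ∉ Q} : Set C) = (W : Set C) := by
    ext w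
    simp [W]
  rw [e1, top_inf_eq, Subgroup.card_top, h.card_C, Nat.card_coe_set_eq, Set.ncard_coe_finset, hW] at horb
  omega

/-- The group is transitive on the non-central involutions of `Q`. -/
theorem HB.trans_St [Finite C] (h : HB Q z) (x y : St Q z) : ∃ g, g * x.1 * g⁻¹ = y.1 := by
  classical
  obtain ⟨c, hc⟩ := h.exists_five
  haveI : Fintype (Quotient (stSetoid h)) := Fintype.ofFinite _
  let s := Quotient.mk (stSetoid h) x
  let f : Fin 5 → Quotient (stSetoid h) := fun i => rho h (c ^ i.1) s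
  have hnofix : ∀ d : ℕ, 0 < d → d < 5 → rho h (c ^ d) s ≠ s := by
    intro d h0 h5
    have hco : (orderOf c).Coprime d := by
      rw [hc]
      interval_cases d <;> decide
    exact h.no_fixed (by rw [Nat.Coprime.orderOf_pow hco, hc]) x
  have hf : Function.Injective f := by
    intro i j e
    by_contra hij
    have key : ∀ a b : Fin 5, a.1 < b.1 → f a ≠ f b := by
      intro a b hab e
      have h5 : b.1 - a.1 < 5 := by omega
      apply hnofix (b.1 - a.1) (by omega) h5
      have e1 : rho h (c ^ a.1) (rho h (c ^ (b.1 - a.1)) s) = rho h (c ^ a.1) s := by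
        show _ = f a
        rw [e]
        show _ = rho h (c ^ b.1) s
        rw [← Equiv.Perm.mul_apply, ← map_mul, ← pow_add]
        congr 3
        omega
      exact (rho h (c ^ a.1)).injective e1
    rcases lt_or_gt_of_ne (fun e' : i.1 = j.1 => hij (Fin.ext e')) with hl | hl
    · exact key i j hl e
    · exact key j i hl e.symm
  have hcard : Fintype.card (Fin 5) = Fintype.card (Quotient (stSetoid h)) := by
    apply le_antisymm
    · exact Fintype.card_le_of_injective f hf
    · rw [Fintype.card_fin, ← Nat.card_eq_fintype_card]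
      exact h.card_sig_le
  have hbij := (Fintype.bijective_iff_injective_and_card f).2 ⟨hf, hcard⟩
  obtain ⟨i, hi⟩ := hbij.2 (Quotient.mk (stSetoid h) y)
  have hi' : Quotient.mk (stSetoid h) (conjSt h (c ^ i.1) x) = Quotient.mk (stSetoid h) y := hi
  rcases Quotient.exact hi' with e | e
  · refine ⟨c ^ i.1, e.symm⟩
  · set x' := conjSt h (c ^ i.1) x with hx'
    have e' : y.1 = z * x'.1 := e
    obtain ⟨q, hq, hne⟩ := h.cen x'.1 x'.2.1 x'.2.2.2.1 x'.2.2.2.2
    have e2 : q * x'.1 = z * (x'.1 * q) := by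
      have hne' : q * x'.1 ≠ x'.1 * q := fun e3 => hne e3.symm
      rcases h.cm q hq x'.1 x'.2.1 with e3 | e3
      · exact absurd e3 hne'
      · exact e3
    refine ⟨q * c ^ i.1, ?_⟩
    rw [← conj_conj]
    have e3 : c ^ i.1 * x.1 * (c ^ i.1)⁻¹ = x'.1 := rfl
    rw [e3, e', e2]
    group

set_option maxRecDepth 100000 in
/-- A finite check in the symmetric group of degree five. -/
theorem perm5_aux : ∀ π : Equiv.Perm (Fin 5),
    (∀ i, π (![1, 0, 3, 2, 4] i) = ![1, 0, 3, 2, 4] (π i)) → Equiv.Perm.sign π = 1 →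
    (π 0 = 0 ∧ π 2 = 2) ∨ (π 0 = 1 ∧ π 2 = 3) ∨ (π 0 = 2 ∧ π 2 = 0) ∨ (π 0 = 3 ∧ π 2 = 1) := by
  decide +kernel

/-- The centralizer of `v` centralizes the special element. -/
theorem Frame.E_comm [Finite C] (h : HB Q z) {v : C} {u : Fin 4 → C} (F : Frame Q z v u) {g : C}
    (hg : g * v = v * g) : g * Frame.ex u = Frame.ex u * g := by
  classical
  open Frame in
  haveI : Fintype (Quotient (stSetoid h)) := Fintype.ofFinite _
  have hvi : v⁻¹ = v := inv_eq_of_mul_eq_one_left F.vv
  let su : Fin 4 → St Q z := fun i => ⟨u i, F.mem i, F.sq i, F.ne_one i, F.ne_z h i⟩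
  have hx1 : ex u ≠ 1 := by
    intro e
    apply ex_comm h F 0
    rw [e]; simp
  have hxz : ex u ≠ z := by
    intro e
    apply ex_comm h F 0
    rw [e]
    exact (h.zc _).symm
  let sx : St Q z := ⟨ex u, ex_mem F, ex_sq h F, hx1, hxz⟩
  let mk := Quotient.mk (stSetoid h)
  have hne : ∀ i j, i ≠ j → mk (su i) ≠ mk (su j) := by
    intro i j hij e
    have e2 : (su j).1 = (su i).1 ∨ (su j).1 = z * (su i).1 := Quotient.exact e
    apply F.anti i j hij
    rcases e2 with e3 | e3
    · have e4 : u j = u i := e3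
      rw [e4]
    · have e4 : u j = z * u i := e3
      rw [e4, ← mul_assoc, h.zc, mul_assoc]
  have hnx : ∀ i, mk (su i) ≠ mk sx := by
    intro i e
    have e2 : sx.1 = (su i).1 ∨ sx.1 = z * (su i).1 := Quotient.exact e
    apply ex_comm h F i
    rcases e2 with e3 | e3
    · have e4 : ex u = u i := e3
      rw [e4]
    · have e4 : ex u = z * u i := e3
      rw [e4, ← mul_assoc (u i) z, h.zc (u i)]
  let c : Fin 5 → Quotient (stSetoid h) := ![mk (su 0), mk (su 1), mk (su 2), mk (su 3), mk sx]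
  have hinj : Function.Injective c := by
    intro i j e
    by_contra hij
    fin_cases i <;> fin_cases j <;> first
      | exact hij rfl
      | exact hne _ _ (by decide) e
      | exact hnx _ e
      | exact hnx _ e.symm
  have hcard : Fintype.card (Fin 5) = Fintype.card (Quotient (stSetoid h)) := by
    apply le_antisymm
    · exact Fintype.card_le_of_injective c hinj
    · rw [Fintype.card_fin, ← Nat.card_eq_fintype_card]
      exact h.card_sig_le
  have hbij := (Fintype.bijective_iff_injective_and_card c).2 ⟨hinj, hcard⟩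
  let e₅ : Fin 5 ≃ Quotient (stSetoid h) := Equiv.ofBijective c hbij
  let π : Equiv.Perm (Fin 5) := e₅.symm.permCongr (rho h g)
  have heπ : ∀ i, e₅ (π i) = rho h g (e₅ i) := by
    intro i
    simp [π, Equiv.permCongr_apply]
  have hsu : ∀ i, rho h v (mk (su i)) = mk (su (τ i)) := by
    intro i
    show Quotient.mk (stSetoid h) (conjSt h v (su i)) = _
    congr 1
    apply Subtype.ext
    show v * u i * v⁻¹ = u (τ i)
    rw [hvi]
    exact F.v_conj i
  have hsx : rho h v (mk sx) = mk sx := by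
    show Quotient.mk (stSetoid h) (conjSt h v sx) = _
    congr 1
    apply Subtype.ext
    show v * ex u * v⁻¹ = ex u
    rw [hvi]
    exact v_ex h F
  have hρv : ∀ i : Fin 5, rho h v (e₅ i) = e₅ (![1, 0, 3, 2, 4] i) := by
    intro i
    fin_cases i
    · exact hsu 0
    · exact hsu 1
    · exact hsu 2
    · exact hsu 3
    · exact hsx
  have hcomm : ∀ x, rho h g (rho h v x) = rho h v (rho h g x) := by
    intro x
    rw [← Equiv.Perm.mul_apply, ← map_mul, hg, map_mul, Equiv.Perm.mul_apply]
  have hπc : ∀ i, π (![1, 0, 3, 2, 4] i) = ![1, 0, 3, 2, 4] (π i) := by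
    intro i
    apply e₅.injective
    rw [heπ, ← hρv, hcomm, ← heπ, hρv]
  have hsign : Equiv.Perm.sign π = 1 := by
    show Equiv.Perm.sign (e₅.symm.permCongr (rho h g)) = 1
    rw [Equiv.Perm.sign_permCongr]
    exact h.sign_rho g
  have key : ∀ i j : Fin 4, rho h g (mk (su i)) = mk (su j) →
      g * (u i * (v * u i * v)) * g⁻¹ = u j * (v * u j * v) := by
    intro i j e
    have e2 : (su j).1 = (conjSt h g (su i)).1 ∨ (su j).1 = z * (conjSt h g (su i)).1 :=
      Quotient.exact (s := stSetoid h) e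
    have hgv : g * v * g⁻¹ = v := by rw [hg]; group
    have hw : g * (u i * (v * u i * v)) * g⁻¹
        = (g * u i * g⁻¹) * (v * (g * u i * g⁻¹) * v) := by
      have e3 : g⁻¹ * v = v * g⁻¹ := by
        calc g⁻¹ * v = g⁻¹ * (v * g) * g⁻¹ := by group
          _ = g⁻¹ * (g * v) * g⁻¹ := by rw [hg]
          _ = v * g⁻¹ := by group
      calc g * (u i * (v * u i * v)) * g⁻¹ = g * u i * (g⁻¹ * g) * v * u i * v * g⁻¹ := by group
        _ = g * u i * g⁻¹ * (g * v) * u i * v * g⁻¹ := by group
        _ = g * u i * g⁻¹ * (v * g) * u i * (v * g⁻¹) := by rw [hg, mul_assoc _ v g⁻¹]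
        _ = g * u i * g⁻¹ * (v * g) * u i * (g⁻¹ * v) := by rw [e3]
        _ = (g * u i * g⁻¹) * (v * (g * u i * g⁻¹) * v) := by group
    rw [hw]
    set w := g * u i * g⁻¹ with hwdef
    rcases e2 with e3 | e3
    · have e4 : u j = w := e3
      rw [e4]
    · have e4 : u j = z * w := e3
      rw [e4, F.v_mul z w, v_z h F]
      calc w * (v * w * v) = (z * z) * (w * (v * w * v)) := by rw [h.z2, one_mul]
        _ = z * (z * w) * (v * w * v) := by group
        _ = z * (w * z) * (v * w * v) := by rw [h.zc w]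
        _ = z * w * (z * (v * w * v)) := by group
  have hS0 : u 0 * (v * u 0 * v) = ea u := by rw [F.v0]; rfl
  have hS1 : u 1 * (v * u 1 * v) = z * ea u := by
    rw [F.v_conj 1]
    exact anti10 h F
  have hS2 : u 2 * (v * u 2 * v) = eb u := by rw [F.v2]; rfl
  have hS3 : u 3 * (v * u 3 * v) = z * eb u := by
    rw [F.v_conj 3]
    exact anti32 h F
  have hk0 : ∀ j : Fin 4, ∀ k : Fin 5, k = (![0, 1, 2, 3] j) → π 0 = k →
      g * ea u * g⁻¹ = u j * (v * u j * v) := by
    intro j k hk hπ
    rw [← hS0]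
    apply key 0 j
    have := heπ 0
    rw [hπ, hk] at this
    fin_cases j
    · exact this.symm
    · exact this.symm
    · exact this.symm
    · exact this.symm
  have hk2 : ∀ j : Fin 4, ∀ k : Fin 5, k = (![0, 1, 2, 3] j) → π 2 = k →
      g * eb u * g⁻¹ = u j * (v * u j * v) := by
    intro j k hk hπ
    rw [← hS2]
    apply key 2 j
    have := heπ 2
    rw [hπ, hk] at this
    fin_cases j
    · exact this.symm
    · exact this.symm
    · exact this.symm
    · exact this.symm
  apply comm_of_conj_eq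
  have hx : g * ex u * g⁻¹ = (g * ea u * g⁻¹) * (g * eb u * g⁻¹) := by
    unfold ex
    group
  have hzz := h.z2
  have hab := ab_comm h F
  rw [hx]
  rcases perm5_aux π hπc hsign with ⟨e1, e2⟩ | ⟨e1, e2⟩ | ⟨e1, e2⟩ | ⟨e1, e2⟩
  · rw [hk0 0 0 rfl e1, hk2 2 2 rfl e2, hS0, hS2]
    rfl
  · rw [hk0 1 1 rfl e1, hk2 3 3 rfl e2, hS1, hS3]
    show z * ea u * (z * eb u) = ea u * eb u
    calc z * ea u * (z * eb u) = z * (ea u * z) * eb u := by group
      _ = z * (z * ea u) * eb u := by rw [h.zc]
      _ = (z * z) * (ea u * eb u) := by group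
      _ = ea u * eb u := by rw [hzz, one_mul]
  · rw [hk0 2 2 rfl e1, hk2 0 0 rfl e2, hS0, hS2]
    exact hab.symm
  · rw [hk0 3 3 rfl e1, hk2 1 1 rfl e2, hS1, hS3]
    show z * eb u * (z * ea u) = ea u * eb u
    calc z * eb u * (z * ea u) = z * (eb u * z) * ea u := by group
      _ = z * (z * eb u) * ea u := by rw [h.zc]
      _ = (z * z) * (eb u * ea u) := by group
      _ = ea u * eb u := by rw [hzz, one_mul, hab]

end CLevel

end Cfsg.Agent.Lib.HJBase
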