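import Mathlib
import Cfsg.Agent.Lib.CITFive

set_option autoImplicit false
set_option linter.all false

namespace Cfsg.Agent.Lib.HJFive

open Cfsg.Agent.Lib.CITFour Cfsg.Agent.Lib.CITFive
open Cfsg.Agent.Lib.CITFour.CT

/-- Involutions with no common commuting involution are conjugate. -/
theorem conj_of_inv {Γ : Type*} [Group Γ] [Finite Γ] {a b : Γ} (haa : a * a = 1) (hbb : b * b = 1)
    (hcc : ∀ c : Γ, c * c = 1 → c ≠ 1 → Commute c a → Commute c b → False) : IsConj a b := by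
  set g := a * b with hg
  have hai : a⁻¹ = a := inv_eq_of_mul_eq_one_left haa
  have hbi : b⁻¹ = b := inv_eq_of_mul_eq_one_left hbb
  have hA : ∀ n : ℕ, a * g ^ n * a = (g ^ n)⁻¹ := dih haa (anti_rel haa hbb)
  have hB : ∀ n : ℕ, b * g ^ n * b = (g ^ n)⁻¹ := dih hbb (anti_rel' haa hbb)
  rcases Nat.even_or_odd' (orderOf g) with ⟨k, hk | hk⟩
  · exfalso
    have hpos : 0 < orderOf g := orderOf_pos g
    have hc1 : g ^ k ≠ 1 := pow_ne_one_of_lt_orderOf (by omega) (by omega)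
    have hcc2 : g ^ k * g ^ k = 1 := by
      rw [← pow_add, ← two_mul, ← hk, pow_orderOf_eq_one]
    have hci : (g ^ k)⁻¹ = g ^ k := inv_eq_of_mul_eq_one_left hcc2
    have h1 : Commute (g ^ k) a := by
      have h2 := hA k
      rw [hci] at h2
      show g ^ k * a = a * g ^ k
      calc g ^ k * a = (a * g ^ k * a) * a := by rw [h2]
        _ = a * g ^ k * (a * a) := by group
        _ = a * g ^ k := by rw [haa, mul_one]
    have h2 : Commute (g ^ k) b := by
      have h3 := hB k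
      rw [hci] at h3
      show g ^ k * b = b * g ^ k
      calc g ^ k * b = (b * g ^ k * b) * b := by rw [h3]
        _ = b * g ^ k * (b * b) := by group
        _ = b * g ^ k := by rw [hbb, mul_one]
    exact hcc _ hcc2 hc1 h1 h2
  · rw [isConj_iff]
    refine ⟨g ^ k, ?_⟩
    have h1 : (g ^ k)⁻¹ = a * g ^ k * a := (hA k).symm
    have h2 : g ^ (2 * k) * g = 1 := by
      rw [← pow_succ, ← hk, pow_orderOf_eq_one]
    have h3 : g ^ (2 * k) = g⁻¹ := eq_inv_of_mul_eq_one_left h2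
    calc g ^ k * a * (g ^ k)⁻¹ = g ^ k * a * (a * g ^ k * a) := by rw [h1]
      _ = g ^ k * (a * a) * g ^ k * a := by group
      _ = g ^ (2 * k) * a := by rw [haa, mul_one, two_mul, pow_add]
      _ = g⁻¹ * a := by rw [h3]
      _ = b := by
        rw [hg, mul_inv_rev, hai, hbi, mul_assoc, haa, mul_one]

/-- A group with a self-centralizing four-subgroup of exponent two and order divisible by five is
the alternating group. -/
theorem cit_A5 {Γ : Type*} [Group Γ] [Finite Γ] (Y : Subgroup Γ) (hY4 : Nat.card Y = 4)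
    (hY2 : ∀ y ∈ Y, y * y = 1) (hcent : ∀ y ∈ Y, y ≠ 1 → ∀ g, Commute g y → g ∈ Y)
    (h5 : 5 ∣ Nat.card Γ) {y₀ : Γ} (hy₀ : y₀ ∈ Y) (hy₀1 : y₀ ≠ 1) :
    Nat.card Γ = 60 ∧ Nonempty (Γ ≃* alternatingGroup (Fin 5)) ∧
      (∀ v : Γ, v * v = 1 → v ≠ 1 → IsConj y₀ v) ∧ Nat.card {v : Γ | v * v = 1 ∧ v ≠ 1} = 15 := by
  classical
  haveI := Fintype.ofFinite Γ
  have hYc : ∀ a ∈ Y, ∀ b ∈ Y, Commute a b := by
    intro a ha b hb
    have h1 := hY2 _ (Y.mul_mem ha hb)
    have hai : a⁻¹ = a := inv_eq_of_mul_eq_one_left (hY2 a ha)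
    have hbi : b⁻¹ = b := inv_eq_of_mul_eq_one_left (hY2 b hb)
    have h2 : (a * b)⁻¹ = a * b := inv_eq_of_mul_eq_one_left h1
    rw [mul_inv_rev, hai, hbi] at h2
    exact h2.symm
  have hYcard : (Y : Set Γ).ncard = 4 := by
    rw [← Nat.card_coe_set_eq]
    exact hY4
  -- a second element
  obtain ⟨y₁, hy₁, hy₁n⟩ : ∃ y₁ ∈ (Y : Set Γ), y₁ ∉ ({1, y₀} : Set Γ) := by
    apply Set.exists_mem_notMem_of_ncard_lt_ncard _ (Set.toFinite _)
    rw [hYcard]
    have := Set.ncard_insert_le (1 : Γ) ({y₀} : Set Γ)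
    rw [Set.ncard_singleton] at this
    omega
  simp only [Set.mem_insert_iff, Set.mem_singleton_iff, not_or] at hy₁n
  obtain ⟨hy₁1, hy₁0⟩ := hy₁n
  have hy₁' : y₁ ∈ Y := hy₁
  have hm : y₀ * y₁ ∈ Y := Y.mul_mem hy₀ hy₁'
  have hy₀y₀ := hY2 y₀ hy₀
  have hy₁y₁ := hY2 y₁ hy₁'
  have hm1 : y₀ * y₁ ≠ 1 := by
    intro e
    apply hy₁0
    have e2 : y₀ * y₁ = y₀ * y₀ := by rw [e, hy₀y₀]
    exact mul_left_cancel e2
  have hm0 : y₀ * y₁ ≠ y₀ := fun e => hy₁1 (mul_eq_left.1 e)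
  have hm1' : y₀ * y₁ ≠ y₁ := fun e => hy₀1 (mul_eq_right.1 e)
  have hall : ∀ c ∈ Y, c = 1 ∨ c = y₀ ∨ c = y₁ ∨ c = y₀ * y₁ := by
    intro c hc
    by_contra hne
    push Not at hne
    obtain ⟨h1, h2, h3, h4⟩ := hne
    have hs : ({c, 1, y₀, y₁, y₀ * y₁} : Finset Γ).card = 5 := by
      have a1 : y₁ ∉ ({y₀ * y₁} : Finset Γ) := by
        rw [Finset.mem_singleton]
        exact Ne.symm hm1'
      have a2 : y₀ ∉ ({y₁, y₀ * y₁} : Finset Γ) := by
        rw [Finset.mem_insert, Finset.mem_singleton, not_or]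
        exact ⟨Ne.symm hy₁0, Ne.symm hm0⟩
      have a3 : (1 : Γ) ∉ ({y₀, y₁, y₀ * y₁} : Finset Γ) := by
        rw [Finset.mem_insert, Finset.mem_insert, Finset.mem_singleton, not_or, not_or]
        exact ⟨Ne.symm hy₀1, Ne.symm hy₁1, Ne.symm hm1⟩
      have a4 : c ∉ ({1, y₀, y₁, y₀ * y₁} : Finset Γ) := by
        rw [Finset.mem_insert, Finset.mem_insert, Finset.mem_insert, Finset.mem_singleton, not_or, not_or, not_or]
        exact ⟨h1, h2, h3, h4⟩
      rw [Finset.card_insert_of_notMem a4, Finset.card_insert_of_notMem a3, Finset.card_insert_of_notMem a2,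
        Finset.card_insert_of_notMem a1, Finset.card_singleton]
    have hsub : (({c, 1, y₀, y₁, y₀ * y₁} : Finset Γ) : Set Γ) ⊆ (Y : Set Γ) := by
      intro w hw
      simp only [Finset.coe_insert, Finset.coe_singleton, Set.mem_insert_iff, Set.mem_singleton_iff] at hw
      rcases hw with rfl | rfl | rfl | rfl | rfl
      · exact hc
      · exact Y.one_mem
      · exact hy₀
      · exact hy₁'
      · exact hm
    have h6 := Set.ncard_le_ncard hsub (Set.toFinite _)
    rw [Set.ncard_coe_finset, hs, hYcard] at h6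
    omega
  -- the conjugacy class
  have hcy₀ : ∀ g : Γ, g ∈ Subgroup.centralizer ({y₀} : Set Γ) ↔ g ∈ Y := by
    intro g
    rw [Subgroup.mem_centralizer_singleton_iff]
    exact ⟨fun e => hcent y₀ hy₀ hy₀1 g e, fun hg => hYc g hg y₀ hy₀⟩
  have hcardC : Nat.card (Subgroup.centralizer ({y₀} : Set Γ)) = 4 := by
    rw [← hY4]
    exact Nat.card_congr (Equiv.subtypeEquivRight hcy₀)
  let T : Set Γ := {u | IsConj y₀ u}
  have horb := orbit_card (⊤ : Subgroup Γ) y₀ T (fun g _ => isConj_iff.2 ⟨g, rfl⟩)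
    (fun y hy => by
      obtain ⟨g, hg⟩ := isConj_iff.1 hy
      exact ⟨g, Subgroup.mem_top g, hg⟩)
  rw [top_inf_eq, hcardC, Subgroup.card_top] at horb
  have hT5 : 5 ∣ Nat.card T := by
    have : 5 ∣ Nat.card T * 4 := by rw [horb]; exact h5
    exact (Nat.Coprime.dvd_mul_right (by norm_num)).1 this
  have hTpos : 0 < Nat.card T := by
    have : 0 < Nat.card Γ := Nat.card_pos
    rw [← horb] at this
    exact Nat.pos_of_mul_pos_right this
  -- a conjugate not commuting with the base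
  obtain ⟨u₁, hu₁T, hu₁n⟩ : ∃ u₁ ∈ T, ¬ Commute u₁ y₀ := by
    by_contra hno
    push Not at hno
    have hsub : T ⊆ (Y : Set Γ) \ {1} := by
      intro u hu
      have hu1 : u ≠ 1 := by
        rintro rfl
        have hu' : IsConj y₀ 1 := hu
        exact hy₀1 (isConj_one_right.1 hu'.symm)
      exact ⟨hcent y₀ hy₀ hy₀1 u (hno u hu), hu1⟩
    have h1 := Set.ncard_le_ncard hsub (Set.toFinite _)
    rw [Set.ncard_diff_singleton_of_mem Y.one_mem, hYcard, ← Nat.card_coe_set_eq] at h1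
    have := Nat.le_of_dvd hTpos hT5
    omega
  have hu₁u₁ : u₁ * u₁ = 1 := by
    obtain ⟨c, rfl⟩ := isConj_iff.1 hu₁T
    calc c * y₀ * c⁻¹ * (c * y₀ * c⁻¹) = c * (y₀ * y₀) * c⁻¹ := by group
      _ = 1 := by rw [hy₀y₀]; group
  -- conjugacy of involutions in the subgroup with non-commuting ones
  have hanti : ∀ a ∈ Y, a ≠ 1 → ∀ b : Γ, b * b = 1 → ¬ Commute b a → IsConj a b := by
    intro a ha ha1 b hbb hn
    apply conj_of_inv (hY2 a ha) hbb
    intro c hcc hc1 h1 h2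
    have hcY : c ∈ Y := hcent a ha ha1 c h1
    have hbY : b ∈ Y := hcent c hcY hc1 b h2.symm
    exact hn (hYc b hbY a ha)
  have htrans : ∀ v : Γ, v * v = 1 → v ≠ 1 → IsConj y₀ v := by
    intro v hvv hv1
    by_cases hc : Commute v y₀
    · have hvY : v ∈ Y := hcent y₀ hy₀ hy₀1 v hc
      have hn : ¬ Commute u₁ v := by
        intro e
        have : u₁ ∈ Y := hcent v hvY hv1 u₁ e
        exact hu₁n (hYc u₁ this y₀ hy₀)
      exact (isConj_iff.2 (isConj_iff.1 hu₁T)).trans (hanti v hvY hv1 u₁ hu₁u₁ hn).symm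
    · exact hanti y₀ hy₀ hy₀1 v hvv hc
  -- the product group
  let y₀' : Y := ⟨y₀, hy₀⟩
  let A : Set (Γ × Y) := {p | p.2 = 1 ∧ p.1 * p.1 = 1 ∧ p.1 ≠ 1}
  let b : Γ × Y := (y₀, 1)
  let t : Γ × Y := (1, y₀')
  have hE : ∀ e e' : Y, e * e' = e' * e := fun e e' => Subtype.ext (hYc e.1 e.2 e'.1 e'.2)
  have hb : b ∈ A := ⟨rfl, hy₀y₀, hy₀1⟩
  have hCT : CT A t := by
    apply of_base (b := b)
    · apply Prod.ext
      · show (1 : Γ) * 1 = 1
        simp
      · exact Subtype.ext hy₀y₀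
    · intro e
      apply hy₀1
      have := congrArg (fun q : Γ × Y => (q.2 : Γ)) e
      exact this
    · intro g
      apply Prod.ext
      · show g.1 * 1 = 1 * g.1
        simp
      · exact hE _ _
    · intro hA
      apply hy₀1
      exact congrArg (fun q : Y => (q : Γ)) hA.1
    · rintro u ⟨h1, h2, h3⟩
      apply Prod.ext
      · exact h2
      · show u.2 * u.2 = 1
        rw [h1, one_mul]
    · rintro u ⟨h1, h2, h3⟩ g
      refine ⟨?_, ?_, ?_⟩
      · show g.2 * u.2 * g.2⁻¹ = 1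
        rw [h1]
        simp
      · show g.1 * u.1 * g.1⁻¹ * (g.1 * u.1 * g.1⁻¹) = 1
        calc g.1 * u.1 * g.1⁻¹ * (g.1 * u.1 * g.1⁻¹) = g.1 * (u.1 * u.1) * g.1⁻¹ := by group
          _ = 1 := by rw [h2]; group
      · show g.1 * u.1 * g.1⁻¹ ≠ 1
        intro e
        apply h3
        have e2 : u.1 = g.1⁻¹ * (g.1 * u.1 * g.1⁻¹) * g.1 := by group
        rw [e2, e]
        group
    · exact hb
    · rintro u ⟨h1, h2, h3⟩
      obtain ⟨c, hc⟩ := isConj_iff.1 (htrans u.1 h2 h3)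
      refine ⟨(c, 1), ?_⟩
      apply Prod.ext
      · exact hc
      · show (1 : Y) * 1 * 1⁻¹ = u.2
        rw [h1]
        simp
    · rw [← show Nat.card (Y × Y) = 16 by rw [Nat.card_prod, hY4]]
      apply Nat.card_congr
      refine ⟨fun p => (⟨p.1.1, ?_⟩, p.1.2), fun q => ⟨(q.1.1, q.2), ?_⟩, fun p => rfl, fun q => rfl⟩
      · have h1 := Subgroup.mem_centralizer_singleton_iff.1 p.2
        have h2 : p.1.1 * y₀ = y₀ * p.1.1 := congrArg Prod.fst h1
        exact hcent y₀ hy₀ hy₀1 _ h2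
      · rw [Subgroup.mem_centralizer_singleton_iff]
        apply Prod.ext
        · exact hYc _ q.1.2 _ hy₀
        · show q.2 * 1 = 1 * q.2
          simp
    · refine ⟨(y₁, 1), ⟨rfl, hy₁y₁, hy₁1⟩, ?_, ?_, ?_, ?_⟩
      · intro e
        exact hy₁0 (congrArg Prod.fst e)
      · apply Prod.ext
        · exact hYc _ hy₁' _ hy₀
        · rfl
      · refine ⟨?_, hY2 _ hm, hm1⟩
        show (1 : Y) * 1 = 1
        simp
      · rintro ⟨c, c'⟩ ⟨h1, h2, h3⟩ hcb
        simp only at h1 h2 h3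
        subst h1
        have h4 : c * y₀ = y₀ * c := congrArg Prod.fst hcb
        have hcY := hcent y₀ hy₀ hy₀1 c h4
        rcases hall c hcY with e | e | e | e
        · exact absurd e h3
        · left; rw [e]
        · right; left; rw [e]
        · right; right
          rw [e]
          apply Prod.ext
          · rfl
          · show (1 : Y) = 1 * 1
            simp
    · rintro g hg ⟨v, v'⟩ ⟨h1, h2, h3⟩ hvb
      simp only at h1 h2 h3
      subst h1
      have h4 : g.1 * y₀ = y₀ * g.1 := congrArg Prod.fst hg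
      have h5 : v * y₀ = y₀ * v := congrArg Prod.fst hvb
      apply Prod.ext
      · exact hYc _ (hcent y₀ hy₀ hy₀1 _ h4) _ (hcent y₀ hy₀ hy₀1 _ h5)
      · show g.2 * 1 = 1 * g.2
        simp
  -- the number of points
  have hA3 := card_A hCT hb
  have horb2 := orbit_card (⊤ : Subgroup (Γ × Y)) b A (fun g _ => hCT.conj b hb g) (fun y hy => by
    obtain ⟨g, hg⟩ := hCT.trans b hb y hy
    exact ⟨g, Subgroup.mem_top g, hg⟩)
  rw [top_inf_eq, hCT.card16 b hb, Subgroup.card_top, Nat.card_prod, hY4] at horb2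
  have hA15 : Nat.card A = 15 := by
    rcases hA3 with e | e
    · exfalso
      rw [e] at horb2
      have h6 : 5 ∣ Nat.card Γ * 4 := Dvd.dvd.mul_right h5 4
      rw [← horb2] at h6
      omega
    · exact e
  have hΓ : Nat.card Γ = 60 := by
    rw [hA15] at horb2
    omega
  refine ⟨hΓ, ?_, htrans, ?_⟩
  · obtain ⟨e⟩ := M_alt hCT hA15 hb
    have hM60 := card_M hCT hA15 hb
    let ψ : Subgroup.closure A →* Γ := (MonoidHom.fst Γ Y).comp (Subgroup.closure A).subtype
    have hle : Subgroup.closure A ≤ (MonoidHom.snd Γ Y).ker := by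
      rw [Subgroup.closure_le]
      rintro p ⟨h1, -, -⟩
      exact h1
    have hinj : Function.Injective ψ := by
      rw [injective_iff_map_eq_one]
      intro p hp
      apply Subtype.ext
      apply Prod.ext
      · exact hp
      · exact hle p.2
    have hbij := (Nat.bijective_iff_injective_and_card ψ).2 ⟨hinj, by rw [hM60, hΓ]⟩
    exact ⟨(MulEquiv.ofBijective ψ hbij).symm.trans e⟩
  · rw [← hA15]
    apply Nat.card_congr
    refine ⟨fun v => ⟨(v.1, 1), rfl, v.2.1, v.2.2⟩, fun p => ⟨p.1.1, p.2.2⟩, fun v => rfl, fun p => ?_⟩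
    apply Subtype.ext
    apply Prod.ext
    · rfl
    · exact p.2.1.symm

/-- The centralizer of an element of order five in the alternating group. -/
theorem A5_cent5_aux : ∀ a b : alternatingGroup (Fin 5), (a ^ 5 ≠ 1 ∨ a = 1 ∨ a * b ≠ b * a) ∨
    (b = 1 ∨ b = a ∨ b = a ^ 2 ∨ b = a ^ 3 ∨ b = a ^ 4) := by
  decide +kernel

theorem A5_cent5 (a b : alternatingGroup (Fin 5)) (h1 : a ^ 5 = 1) (h2 : a ≠ 1) (h3 : a * b = b * a) :
    ∃ k : ℕ, b = a ^ k := by
  rcases A5_cent5_aux a b with (e | e | e) | (e | e | e | e | e)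
  · exact absurd h1 e
  · exact absurd e h2
  · exact absurd h3 e
  · exact ⟨0, by simp [e]⟩
  · exact ⟨1, by simp [e]⟩
  · exact ⟨2, e⟩
  · exact ⟨3, e⟩
  · exact ⟨4, e⟩

section central

variable {Γ₀ : Type*} [Group Γ₀] [Finite Γ₀]

theorem cent_mem {c : Γ₀} (hc5 : c ^ 5 = 1) (hcc : ∀ g, Commute g c) {w : Γ₀}
    (hw : w ∈ Subgroup.zpowers c) : w ^ 5 = 1 ∧ ∀ g, Commute g w := by
  obtain ⟨k, rfl⟩ := Subgroup.mem_zpowers_iff.1 hw
  refine ⟨?_, fun g => (hcc g).zpow_right k⟩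
  rw [← zpow_natCast, ← zpow_mul, mul_comm, zpow_mul, zpow_natCast, hc5, one_zpow]

theorem cent_sq {w : Γ₀} (h5 : w ^ 5 = 1) (h2 : w * w = 1) : w = 1 := by
  have e : w = w ^ 5 * ((w * w) * (w * w))⁻¹ := by group
  rw [e, h5, h2]
  simp

/-- If the product with a central element of odd order is still an involution the element is trivial. -/
theorem cent_inv {a w : Γ₀} (h5 : w ^ 5 = 1) (hw : ∀ g, Commute g w) (ha : a * a = 1)
    (h : (a * w) * (a * w) = 1) : w = 1 := by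
  apply cent_sq h5
  have e : (a * w) * (a * w) = (a * a) * (w * w) := by
    calc (a * w) * (a * w) = a * (w * a) * w := by group
      _ = a * (a * w) * w := by rw [(hw a).eq.symm]
      _ = (a * a) * (w * w) := by group
  rw [e, ha, one_mul] at h
  exact h

/-- A central extension of the alternating group. -/
theorem central_ext (c : Γ₀) (hc5 : c ^ 5 = 1) (hc1 : c ≠ 1) (hcc : ∀ g, Commute g c)
    (Y₀ : Subgroup Γ₀) (hY4 : Nat.card Y₀ = 4) (hY2 : ∀ y ∈ Y₀, y * y = 1)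
    (hY : ∀ y ∈ Y₀, y ≠ 1 → ∀ g, Commute g y → ∃ y' ∈ Y₀, ∃ w ∈ Subgroup.zpowers c, g = y' * w)
    (h25 : 25 ∣ Nat.card Γ₀) {y₀ : Γ₀} (hy₀ : y₀ ∈ Y₀) (hy₀1 : y₀ ≠ 1) :
    Nat.card Γ₀ = 300 ∧ (∀ v : Γ₀, v * v = 1 → v ≠ 1 → IsConj y₀ v) ∧
      Nat.card {v : Γ₀ | v * v = 1 ∧ v ≠ 1} = 15 ∧
      (∀ g p : Γ₀, p ^ 5 = 1 → p ∉ Subgroup.zpowers c → Commute g p →
        ∃ k : ℕ, ∃ w ∈ Subgroup.zpowers c, g = p ^ k * w) := by
  classical
  haveI : Fact (Nat.Prime 5) := ⟨by norm_num⟩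
  set W := Subgroup.zpowers c with hW
  have hWm : ∀ w ∈ W, w ^ 5 = 1 ∧ ∀ g, Commute g w := fun w hw => cent_mem hc5 hcc hw
  have hW2 : ∀ w ∈ W, w * w = 1 → w = 1 := fun w hw h2 => cent_sq (hWm w hw).1 h2
  haveI hN : W.Normal := ⟨fun n hn g => by
    rw [conj_eq_of_comm ((hWm n hn).2 g)]
    exact hn⟩
  let mk : Γ₀ →* Γ₀ ⧸ W := QuotientGroup.mk' W
  have hsurj : Function.Surjective mk := QuotientGroup.mk'_surjective W
  have hmk : ∀ x y : Γ₀, mk x = mk y ↔ x⁻¹ * y ∈ W := fun x y => QuotientGroup.eq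
  have hmk1 : ∀ x : Γ₀, mk x = 1 ↔ x ∈ W := fun x => QuotientGroup.eq_one_iff x
  have hcardW : Nat.card W = 5 := by
    rw [hW, Nat.card_zpowers, orderOf_eq_prime hc5 hc1]
  have hcardq : Nat.card Γ₀ = Nat.card (Γ₀ ⧸ W) * 5 := by
    rw [Subgroup.card_eq_card_quotient_mul_card_subgroup W, hcardW]
  have h5 : 5 ∣ Nat.card (Γ₀ ⧸ W) := by
    rw [hcardq] at h25
    omega
  have hinjY : ∀ y ∈ Y₀, mk y = 1 → y = 1 := fun y hy e => hW2 y ((hmk1 y).1 e) (hY2 y hy)
  have hcardY : Nat.card (Y₀.map mk) = 4 := by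
    rw [← hY4]
    symm
    apply Nat.card_eq_of_bijective (mk.subgroupMap Y₀)
    constructor
    · rw [injective_iff_map_eq_one]
      intro y hy
      apply Subtype.ext
      apply hinjY y.1 y.2
      exact congrArg Subtype.val hy
    · exact mk.subgroupMap_surjective Y₀
  have hY2' : ∀ y ∈ Y₀.map mk, y * y = 1 := by
    rintro _ ⟨y, hy, rfl⟩
    rw [← map_mul, hY2 y hy, map_one]
  have hcomm : ∀ a g : Γ₀, a * a = 1 → Commute (mk g) (mk a) → Commute g a := by
    intro a g haa hc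
    have h1 : mk (g * a * g⁻¹) = mk a := by
      rw [map_mul, map_mul, map_inv, hc.eq]
      group
    have hw : a⁻¹ * (g * a * g⁻¹) ∈ W := (hmk a _).1 h1.symm
    have hw1 : a⁻¹ * (g * a * g⁻¹) = 1 := by
      apply cent_inv (hWm _ hw).1 (hWm _ hw).2 haa
      have e : a * (a⁻¹ * (g * a * g⁻¹)) = g * a * g⁻¹ := by group
      rw [e]
      calc g * a * g⁻¹ * (g * a * g⁻¹) = g * (a * a) * g⁻¹ := by group
        _ = 1 := by rw [haa]; group
    have e2 : g * a * g⁻¹ = a := by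
      have := mul_eq_one_iff_eq_inv.1 hw1
      calc g * a * g⁻¹ = a * (a⁻¹ * (g * a * g⁻¹)) := by group
        _ = a := by rw [hw1, mul_one]
    exact comm_of_conj_eq e2
  have hcent' : ∀ y ∈ Y₀.map mk, y ≠ 1 → ∀ g, Commute g y → g ∈ Y₀.map mk := by
    rintro _ ⟨y, hy, rfl⟩ hy1 g hg
    obtain ⟨g, rfl⟩ := hsurj g
    have hy1' : y ≠ 1 := by
      rintro rfl
      exact hy1 (map_one mk)
    obtain ⟨y', hy', w, hw, rfl⟩ := hY y hy hy1' g (hcomm y g (hY2 y hy) hg)
    refine ⟨y', hy', ?_⟩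
    rw [map_mul, (hmk1 w).2 hw, mul_one]
  have hy₀m : mk y₀ ≠ 1 := fun e => hy₀1 (hinjY y₀ hy₀ e)
  obtain ⟨hΓ, ⟨e⟩, htr, hcount⟩ := cit_A5 (Y₀.map mk) hcardY hY2' hcent' h5 ⟨y₀, hy₀, rfl⟩ hy₀m
  have hv1 : ∀ v : Γ₀, v * v = 1 → v ≠ 1 → mk v ≠ 1 := fun v hvv hv hm =>
    hv (hW2 v ((hmk1 v).1 hm) hvv)
  have hlift : ∀ a v : Γ₀, a * a = 1 → v * v = 1 → mk a = mk v → v = a := by
    intro a v haa hvv hm
    have hw : a⁻¹ * v ∈ W := (hmk a v).1 hm
    have hw1 : a⁻¹ * v = 1 := by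
      apply cent_inv (hWm _ hw).1 (hWm _ hw).2 haa
      have e3 : a * (a⁻¹ * v) = v := by group
      rw [e3, hvv]
    exact (inv_mul_eq_one.1 hw1).symm
  refine ⟨by rw [hcardq, hΓ], ?_, ?_, ?_⟩
  · intro v hvv hv
    have h1 : mk v * mk v = 1 := by rw [← map_mul, hvv, map_one]
    obtain ⟨d, hd⟩ := isConj_iff.1 (htr (mk v) h1 (hv1 v hvv hv))
    obtain ⟨d, rfl⟩ := hsurj d
    have e1 : mk (d * y₀ * d⁻¹) = mk v := by
      rw [map_mul, map_mul, map_inv]
      exact hd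
    have haa : (d * y₀ * d⁻¹) * (d * y₀ * d⁻¹) = 1 := by
      calc (d * y₀ * d⁻¹) * (d * y₀ * d⁻¹) = d * (y₀ * y₀) * d⁻¹ := by group
        _ = 1 := by rw [hY2 y₀ hy₀]; group
    have e2 := hlift _ v haa hvv e1
    rw [e2]
    exact isConj_iff.2 ⟨d, rfl⟩
  · rw [← hcount]
    let f : {v : Γ₀ | v * v = 1 ∧ v ≠ 1} → {v : Γ₀ ⧸ W | v * v = 1 ∧ v ≠ 1} := fun v =>
      ⟨mk v.1, by rw [← map_mul, v.2.1, map_one], hv1 v.1 v.2.1 v.2.2⟩
    apply Nat.card_eq_of_bijective f
    constructor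
    · rintro ⟨v, hv⟩ ⟨v', hv'⟩ e
      apply Subtype.ext
      have e1 : mk v = mk v' := congrArg Subtype.val e
      exact (hlift v v' hv.1 hv'.1 e1).symm
    · rintro ⟨u, huu, hu1⟩
      obtain ⟨g, rfl⟩ := hsurj u
      have hg2 : g * g ∈ W := (hmk1 _).1 (by rw [map_mul]; exact huu)
      have h3 : g ^ 5 * g ^ 5 = 1 := by
        have e1 : g ^ 5 * g ^ 5 = (g * g) ^ 5 := by
          rw [← pow_add, ← pow_two, ← pow_mul]
        rw [e1]
        exact (hWm _ hg2).1
      have h4 : mk (g ^ 5) = mk g := by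
        have e1 : g ^ 5 = g * ((g * g) * (g * g)) := by simp only [pow_succ, pow_zero, one_mul, mul_assoc]
        rw [e1, map_mul, map_mul, map_mul, huu]
        simp
      have h5' : g ^ 5 ≠ 1 := by
        intro e0
        apply hu1
        rw [← h4, e0, map_one]
      exact ⟨⟨g ^ 5, h3, h5'⟩, Subtype.ext h4⟩
  · intro g p hp5 hpW hc
    have h1 : e (mk p) ^ 5 = 1 := by
      rw [← map_pow, ← map_pow, hp5, map_one, map_one]
    have h2 : e (mk p) ≠ 1 := by
      intro e0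
      apply hpW
      rw [← hmk1]
      exact (map_eq_one_iff e e.injective).1 e0
    have h3 : e (mk p) * e (mk g) = e (mk g) * e (mk p) := by
      rw [← map_mul, ← map_mul, ← map_mul, ← map_mul, hc.eq]
    obtain ⟨k, hk⟩ := A5_cent5 _ _ h1 h2 h3
    have h4 : mk g = mk (p ^ k) := by
      apply e.injective
      rw [hk, map_pow, map_pow]
    have hw : (p ^ k)⁻¹ * g ∈ W := (hmk _ _).1 h4.symm
    exact ⟨k, _, hw, by group⟩

/-- Basic properties of a self-centralizing involution. -/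
theorem sc_comm {Γ : Type*} [Group Γ] [Finite Γ] {a : Γ} (haa : a * a = 1) (ha1 : a ≠ 1)
    (hC : ∀ g, Commute g a → g = 1 ∨ g = a) :
    (∀ v : Γ, v * v = 1 → v ≠ 1 → IsConj a v) ∧
      (∀ g h : Γ, (g = 1 ∨ g * g ≠ 1) → (h = 1 ∨ h * h ≠ 1) → Commute g h) ∧
      Nat.card Γ = 2 * Nat.card {v : Γ | v * v = 1 ∧ v ≠ 1} ∧ Odd (Nat.card {v : Γ | v * v = 1 ∧ v ≠ 1}) := by
  classical
  haveI : Fact (Nat.Prime 2) := ⟨Nat.prime_two⟩
  have hai : a⁻¹ = a := inv_eq_of_mul_eq_one_left haa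
  have htrans : ∀ v : Γ, v * v = 1 → v ≠ 1 → IsConj a v := by
    intro v hvv hv1
    by_cases hc : Commute v a
    · rcases hC v hc with e | e
      · exact absurd e hv1
      · rw [e]
    · apply conj_of_inv haa hvv
      intro c hcc hc1 h1 h2
      rcases hC c h1 with e | e
      · exact hc1 e
      · rw [e] at h2
        exact hc h2.symm
  set T : Set Γ := {v : Γ | v * v = 1 ∧ v ≠ 1} with hT
  have hTconj : ∀ u ∈ T, ∀ g : Γ, g * u * g⁻¹ ∈ T := by
    rintro u ⟨h1, h2⟩ g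
    refine ⟨?_, ?_⟩
    · calc g * u * g⁻¹ * (g * u * g⁻¹) = g * (u * u) * g⁻¹ := by group
        _ = 1 := by rw [h1]; group
    · intro e
      apply h2
      have e2 : u = g⁻¹ * (g * u * g⁻¹) * g := by group
      rw [e2, e]
      group
  have haT : a ∈ T := ⟨haa, ha1⟩
  have hTa : ∀ u ∈ T, ∃ c : Γ, c * a * c⁻¹ = u := fun u hu => isConj_iff.1 (htrans u hu.1 hu.2)
  -- centralizers of all elements of `T`
  have hCb : ∀ b ∈ T, ∀ g, Commute g b → g = 1 ∨ g = b := by
    intro b hb g hg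
    obtain ⟨c, rfl⟩ := hTa b hb
    have h1 := cconj hg c⁻¹
    have e1 : c⁻¹ * (c * a * c⁻¹) * c⁻¹⁻¹ = a := by group
    rw [e1] at h1
    rcases hC _ h1 with e | e
    · left
      have e2 : g = c * (c⁻¹ * g * c⁻¹⁻¹) * c⁻¹ := by group
      rw [e2, e]
      group
    · right
      have e2 : g = c * (c⁻¹ * g * c⁻¹⁻¹) * c⁻¹ := by group
      rw [e2, e]
  have hcard2 : Nat.card (Subgroup.centralizer ({a} : Set Γ)) = 2 := by
    have : (Subgroup.centralizer ({a} : Set Γ) : Set Γ) = {1, a} := by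
      ext g
      simp only [SetLike.mem_coe, Subgroup.mem_centralizer_singleton_iff, Set.mem_insert_iff,
        Set.mem_singleton_iff]
      constructor
      · exact hC g
      · rintro (rfl | rfl)
        · simp
        · rfl
    show Nat.card ((Subgroup.centralizer ({a} : Set Γ) : Set Γ)) = 2
    rw [this, Nat.card_coe_set_eq, Set.ncard_pair ha1.symm]
  have horb := orbit_card (⊤ : Subgroup Γ) a T (fun g _ => hTconj a haT g) (fun y hy => by
    obtain ⟨c, hc⟩ := hTa y hy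
    exact ⟨c, Subgroup.mem_top c, hc⟩)
  rw [top_inf_eq, hcard2, Subgroup.card_top] at horb
  have hmulnot : ∀ u ∈ T, ∀ b ∈ T, u * b ∉ T := by
    intro u hu b hb hm
    have hc : Commute u b := by
      have h1 := hm.1
      have hui : u⁻¹ = u := inv_eq_of_mul_eq_one_left hu.1
      have hbi : b⁻¹ = b := inv_eq_of_mul_eq_one_left hb.1
      have h2 : (u * b)⁻¹ = u * b := inv_eq_of_mul_eq_one_left h1
      rw [mul_inv_rev, hui, hbi] at h2
      exact h2.symm
    rcases hCb b hb u hc with e | e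
    · exact hu.2 e
    · apply hm.2
      rw [e]
      exact hb.1
  -- the key statement
  have hkey : ∀ b ∈ T, ∀ g, g ∉ T → g * b ∈ T := by
    intro b hb g hg
    let f : T → {x : Γ // x ∉ T} := fun u => ⟨u.1 * b, hmulnot u.1 u.2 b hb⟩
    have hfinj : Function.Injective f := by
      rintro ⟨u, hu⟩ ⟨u', hu'⟩ e
      apply Subtype.ext
      have : u * b = u' * b := congrArg Subtype.val e
      exact mul_right_cancel this
    have hcompl : Nat.card {x : Γ // x ∉ T} = Nat.card T := by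
      have h1 : Nat.card T + Nat.card {x : Γ // x ∉ T} = Nat.card Γ := by
        rw [← Nat.card_sum]
        exact Nat.card_congr (Equiv.sumCompl (· ∈ T))
      omega
    have hfb := (Nat.bijective_iff_injective_and_card f).2 ⟨hfinj, hcompl.symm⟩
    obtain ⟨u, hu⟩ := hfb.2 ⟨g, hg⟩
    have e1 : u.1 * b = g := congrArg Subtype.val hu
    rw [← e1, mul_assoc, hb.1, mul_one]
    exact u.2
  have hinv : ∀ g, g ∉ T → a * g * a = g⁻¹ := by
    intro g hg
    have h1 := (hkey a haT g hg).1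
    have : g * (a * g * a) = 1 := by
      calc g * (a * g * a) = g * a * (g * a) := by group
        _ = 1 := h1
    exact eq_inv_of_mul_eq_one_right this
  have hnot : ∀ g : Γ, (g = 1 ∨ g * g ≠ 1) → g ∉ T := by
    rintro g (rfl | h) hg
    · exact hg.2 rfl
    · exact h hg.1
  refine ⟨htrans, ?_, by omega, ?_⟩
  · intro g h hg hh
    have hg' := hnot g hg
    have hh' := hnot h hh
    have hb : h * a ∈ T := hkey a haT h hh'
    have hc : g * (h * a) ∈ T := hkey _ hb g hg'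
    have hgh : g * h ∉ T := by
      have := hmulnot _ hc a haT
      have e : g * (h * a) * a = g * h := by
        rw [mul_assoc, mul_assoc, haa, mul_one]
      rwa [e] at this
    have e1 := hinv _ hgh
    have e2 : a * (g * h) * a = (a * g * a) * (a * h * a) := by
      calc a * (g * h) * a = a * g * (a * a) * h * a := by rw [haa]; group
        _ = (a * g * a) * (a * h * a) := by group
    rw [e2, hinv g hg', hinv h hh', mul_inv_rev] at e1
    have e3 : g * h = h * g := by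
      have e4 : (g⁻¹ * h⁻¹)⁻¹ = (h⁻¹ * g⁻¹)⁻¹ := by rw [e1]
      rw [mul_inv_rev, mul_inv_rev, inv_inv, inv_inv] at e4
      exact e4.symm
    exact e3
  · have h1 := card_mod_conj T hTconj 2 1 a (by simpa [pow_two] using haa)
    have h2 : Nat.card {x : T // a * x.1 * a⁻¹ = x.1} = 1 := by
      rw [Nat.card_eq_one_iff_unique]
      refine ⟨⟨?_⟩, ⟨⟨⟨a, haT⟩, by group⟩⟩⟩
      rintro ⟨⟨x, hx⟩, h3⟩ ⟨⟨y, hy⟩, h4⟩
      have hx' : Commute a x := comm_of_conj_eq h3
      have hy' : Commute a y := comm_of_conj_eq h4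
      have ex : x = a := by
        rcases hC x hx'.symm with e | e
        · exact absurd e hx.2
        · exact e
      have ey : y = a := by
        rcases hC y hy'.symm with e | e
        · exact absurd e hy.2
        · exact e
      subst ex
      subst ey
      rfl
    rw [h2] at h1
    rw [Nat.odd_iff]
    exact h1

/-- A central extension with a self-centralizing involution in the quotient. -/
theorem central_ext_inv (c : Γ₀) (hc5 : c ^ 5 = 1) (hc1 : c ≠ 1) (hcc : ∀ g, Commute g c) {a : Γ₀}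
    (haa : a * a = 1) (ha1 : a ≠ 1)
    (hCa : ∀ g, Commute g a → ∃ w ∈ Subgroup.zpowers c, g = w ∨ g = a * w) :
    (∀ v : Γ₀, v * v = 1 → v ≠ 1 → IsConj a v) ∧
      (∀ (g p : Γ₀) (q : ℕ), g ^ q = 1 → Odd q → Nat.Coprime q 5 → p ^ 5 = 1 → Commute g p) ∧
      Nat.card Γ₀ = 10 * Nat.card {v : Γ₀ | v * v = 1 ∧ v ≠ 1} ∧ ¬ 4 ∣ Nat.card Γ₀ := by
  classical
  haveI : Fact (Nat.Prime 5) := ⟨by norm_num⟩
  set W := Subgroup.zpowers c with hW
  have hWm : ∀ w ∈ W, w ^ 5 = 1 ∧ ∀ g, Commute g w := fun w hw => cent_mem hc5 hcc hw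
  have hW2 : ∀ w ∈ W, w * w = 1 → w = 1 := fun w hw h2 => cent_sq (hWm w hw).1 h2
  haveI hN : W.Normal := ⟨fun n hn g => by
    rw [conj_eq_of_comm ((hWm n hn).2 g)]
    exact hn⟩
  let mk : Γ₀ →* Γ₀ ⧸ W := QuotientGroup.mk' W
  have hsurj : Function.Surjective mk := QuotientGroup.mk'_surjective W
  have hmk : ∀ x y : Γ₀, mk x = mk y ↔ x⁻¹ * y ∈ W := fun x y => QuotientGroup.eq
  have hmk1 : ∀ x : Γ₀, mk x = 1 ↔ x ∈ W := fun x => QuotientGroup.eq_one_iff x
  have hcardW : Nat.card W = 5 := by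
    rw [hW, Nat.card_zpowers, orderOf_eq_prime hc5 hc1]
  have hcardq : Nat.card Γ₀ = Nat.card (Γ₀ ⧸ W) * 5 := by
    rw [Subgroup.card_eq_card_quotient_mul_card_subgroup W, hcardW]
  have hcomm : ∀ b g : Γ₀, b * b = 1 → Commute (mk g) (mk b) → Commute g b := by
    intro b g hbb hc
    have h1 : mk (g * b * g⁻¹) = mk b := by
      rw [map_mul, map_mul, map_inv, hc.eq]
      group
    have hw : b⁻¹ * (g * b * g⁻¹) ∈ W := (hmk b _).1 h1.symm
    have hw1 : b⁻¹ * (g * b * g⁻¹) = 1 := by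
      apply cent_inv (hWm _ hw).1 (hWm _ hw).2 hbb
      have e : b * (b⁻¹ * (g * b * g⁻¹)) = g * b * g⁻¹ := by group
      rw [e]
      calc g * b * g⁻¹ * (g * b * g⁻¹) = g * (b * b) * g⁻¹ := by group
        _ = 1 := by rw [hbb]; group
    have e2 : g * b * g⁻¹ = b := by
      calc g * b * g⁻¹ = b * (b⁻¹ * (g * b * g⁻¹)) := by group
        _ = b := by rw [hw1, mul_one]
    exact comm_of_conj_eq e2
  have hv1 : ∀ v : Γ₀, v * v = 1 → v ≠ 1 → mk v ≠ 1 := fun v hvv hv hm =>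
    hv (hW2 v ((hmk1 v).1 hm) hvv)
  have hlift : ∀ b v : Γ₀, b * b = 1 → v * v = 1 → mk b = mk v → v = b := by
    intro b v hbb hvv hm
    have hw : b⁻¹ * v ∈ W := (hmk b v).1 hm
    have hw1 : b⁻¹ * v = 1 := by
      apply cent_inv (hWm _ hw).1 (hWm _ hw).2 hbb
      have e3 : b * (b⁻¹ * v) = v := by group
      rw [e3, hvv]
    exact (inv_mul_eq_one.1 hw1).symm
  have hamm : mk a * mk a = 1 := by rw [← map_mul, haa, map_one]
  obtain ⟨htr, hcmm, hcard, hodd⟩ := sc_comm hamm (hv1 a haa ha1) (by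
    intro g hg
    obtain ⟨g, rfl⟩ := hsurj g
    obtain ⟨w, hw, e | e⟩ := hCa g (hcomm a g haa hg)
    · left
      rw [e]
      exact (hmk1 w).2 hw
    · right
      rw [e, map_mul, (hmk1 w).2 hw, mul_one])
  have hcountq : Nat.card {v : Γ₀ | v * v = 1 ∧ v ≠ 1} = Nat.card {v : Γ₀ ⧸ W | v * v = 1 ∧ v ≠ 1} := by
    let f : {v : Γ₀ | v * v = 1 ∧ v ≠ 1} → {v : Γ₀ ⧸ W | v * v = 1 ∧ v ≠ 1} := fun v =>
      ⟨mk v.1, by rw [← map_mul, v.2.1, map_one], hv1 v.1 v.2.1 v.2.2⟩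
    apply Nat.card_eq_of_bijective f
    constructor
    · rintro ⟨v, hv⟩ ⟨v', hv'⟩ e
      apply Subtype.ext
      have e1 : mk v = mk v' := congrArg Subtype.val e
      exact (hlift v v' hv.1 hv'.1 e1).symm
    · rintro ⟨u, huu, hu1⟩
      obtain ⟨g, rfl⟩ := hsurj u
      have hg2 : g * g ∈ W := (hmk1 _).1 (by rw [map_mul]; exact huu)
      have h3 : g ^ 5 * g ^ 5 = 1 := by
        have e1 : g ^ 5 * g ^ 5 = (g * g) ^ 5 := by
          rw [← pow_add, ← pow_two, ← pow_mul]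
        rw [e1]
        exact (hWm _ hg2).1
      have h4 : mk (g ^ 5) = mk g := by
        have e1 : g ^ 5 = g * ((g * g) * (g * g)) := by simp only [pow_succ, pow_zero, one_mul, mul_assoc]
        rw [e1, map_mul, map_mul, map_mul, huu]
        simp
      have h5' : g ^ 5 ≠ 1 := by
        intro e0
        apply hu1
        rw [← h4, e0, map_one]
      exact ⟨⟨g ^ 5, h3, h5'⟩, Subtype.ext h4⟩
  refine ⟨?_, ?_, ?_, ?_⟩
  · intro v hvv hv
    have h1 : mk v * mk v = 1 := by rw [← map_mul, hvv, map_one]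
    obtain ⟨d, hd⟩ := isConj_iff.1 (htr (mk v) h1 (hv1 v hvv hv))
    obtain ⟨d, rfl⟩ := hsurj d
    have e1 : mk (d * a * d⁻¹) = mk v := by
      rw [map_mul, map_mul, map_inv]
      exact hd
    have hbb : (d * a * d⁻¹) * (d * a * d⁻¹) = 1 := by
      calc (d * a * d⁻¹) * (d * a * d⁻¹) = d * (a * a) * d⁻¹ := by group
        _ = 1 := by rw [haa]; group
    have e2 := hlift _ v hbb hvv e1
    rw [e2]
    exact isConj_iff.2 ⟨d, rfl⟩
  · intro g p q hgq hq hqc hp5
    -- images are not involutions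
    have hnotinv : ∀ (x : Γ₀) (n : ℕ), x ^ n = 1 → Odd n → (mk x = 1 ∨ mk x * mk x ≠ 1) := by
      intro x n hxn hn
      by_cases hx : mk x * mk x = 1
      · left
        obtain ⟨m, rfl⟩ := hn
        have h1 : mk x ^ (2 * m + 1) = 1 := by rw [← map_pow, hxn, map_one]
        have h2 : mk x ^ 2 = 1 := by rw [pow_two, hx]
        rw [pow_succ, pow_mul, h2, one_pow, one_mul] at h1
        exact h1
      · right
        exact hx
    have hc := hcmm (mk g) (mk p) (hnotinv g q hgq hq) (hnotinv p 5 hp5 (by decide))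
    -- the commutator is central
    have h1 : mk (g * p * g⁻¹) = mk p := by
      rw [map_mul, map_mul, map_inv, hc.eq]
      group
    have hw : p⁻¹ * (g * p * g⁻¹) ∈ W := (hmk p _).1 h1.symm
    set w := p⁻¹ * (g * p * g⁻¹) with hwdef
    have hwc := (hWm w hw).2
    have hgp : g * p * g⁻¹ = p * w := by
      rw [hwdef]
      group
    have hpow : ∀ n : ℕ, g ^ n * p * (g ^ n)⁻¹ = p * w ^ n := by
      intro n
      induction n with
      | zero => simp
      | succ n ih =>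
        calc g ^ (n + 1) * p * (g ^ (n + 1))⁻¹ = g ^ n * (g * p * g⁻¹) * (g ^ n)⁻¹ := by
              rw [pow_succ]; group
          _ = g ^ n * (p * w) * (g ^ n)⁻¹ := by rw [hgp]
          _ = (g ^ n * p * (g ^ n)⁻¹) * (g ^ n * w * (g ^ n)⁻¹) := by group
          _ = (p * w ^ n) * w := by
            rw [ih, conj_eq_of_comm (hwc _)]
          _ = p * w ^ (n + 1) := by rw [pow_succ]; group
    have hq1 := hpow q
    rw [hgq] at hq1
    have hwq : w ^ q = 1 := by
      have : p = p * w ^ q := by simpa using hq1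
      exact mul_eq_left.1 this.symm
    have hw5 := (hWm w hw).1
    have hw1 : w = 1 := by
      have := pow_gcd_eq_one.2 ⟨hwq, hw5⟩
      rw [Nat.Coprime.gcd_eq_one hqc, pow_one] at this
      exact this
    rw [hw1, mul_one] at hgp
    exact comm_of_conj_eq hgp
  · rw [hcardq, hcard, hcountq]
    ring
  · rw [hcardq, hcard]
    intro hd
    obtain ⟨m, hm⟩ := hodd
    rw [hcountq] at *
    omega

end central

end Cfsg.Agent.Lib.HJFive
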