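import Mathlib
import Cfsg.Agent.Lib.IsomBlock
import Cfsg.Agent.Lib.UnitaryE
import Cfsg.Agent.Lib.UnitaryBasic
import Cfsg.Agent.Lib.FFNorm

/-!
# Abstract Hermitian forms over a finite field with `q ^ 2` elements
-/

set_option autoImplicit false

namespace Cfsg.Agent.Lib.HSBase

open Polynomial Module
open Cfsg.Agent.Lib.IsomBlock (InvOn FixFree SimpleOn fixS mem_fixS fixS_le inv_fixS inv_pow inv_inf)

set_option linter.unusedSimpArgs false
set_option linter.unusedVariables false
set_option linter.unusedSectionVars false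

universe u

variable {F : Type*} [Field F] [Fintype F] {V : Type u} [AddCommGroup V] [Module F V] {q : ℕ} {H : V → V → F}

/-- Abstract Hermitian forms. -/
structure HS (q : ℕ) (H : V → V → F) : Prop where
  card : Fintype.card F = q ^ 2
  add_left : ∀ a b c, H (a + b) c = H a c + H b c
  smul_left : ∀ (k : F) a c, H (k • a) c = k * H a c
  conj : ∀ a b, (H a b) ^ q = H b a

namespace HS

variable (hH : HS q H)
include hH

theorem two_le : 2 ≤ q := Cfsg.Agent.Lib.HermCount.two_le_q hH.card

theorem add_right (c a b : V) : H c (a + b) = H c a + H c b := by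
  rw [← hH.conj (a + b) c, hH.add_left, Cfsg.Agent.Lib.HermCount.add_pow_q hH.card, hH.conj, hH.conj]

theorem smul_right (c : V) (k : F) (a : V) : H c (k • a) = k ^ q * H c a := by
  rw [← hH.conj (k • a) c, hH.smul_left, mul_pow, hH.conj]

theorem zero_left (v : V) : H 0 v = 0 := by
  have := hH.smul_left 0 0 v
  simpa using this

theorem refl {u v : V} (h : H u v = 0) : H v u = 0 := by
  rw [← hH.conj u v, h]
  exact zero_pow (by have := hH.two_le; omega)

theorem zero_right (v : V) : H v 0 = 0 := hH.refl (hH.zero_left v)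

theorem sub_left (a b c : V) : H (a - b) c = H a c - H b c := by
  have h1 := hH.add_left (a - b) b c
  rw [sub_add_cancel] at h1
  rw [h1]
  ring

theorem neg_left (a c : V) : H (-a) c = - H a c := by
  have h1 := hH.sub_left 0 a c
  rw [zero_sub, hH.zero_left, zero_sub] at h1
  exact h1

theorem sub_right (c a b : V) : H c (a - b) = H c a - H c b := by
  have h1 := hH.add_right c (a - b) b
  rw [sub_add_cancel] at h1
  rw [h1]
  ring

theorem neg_right (c a : V) : H c (-a) = - H c a := by
  have h1 := hH.sub_right c 0 a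
  rw [zero_sub, hH.zero_right, zero_sub] at h1
  exact h1

theorem sum_left {ι : Type*} (s : Finset ι) (f : ι → V) (v : V) : H (∑ i ∈ s, f i) v = ∑ i ∈ s, H (f i) v := by
  classical
  induction s using Finset.induction_on with
  | empty => simp [hH.zero_left]
  | insert a s ha ih => rw [Finset.sum_insert ha, Finset.sum_insert ha, hH.add_left, ih]

theorem sum_right {ι : Type*} (s : Finset ι) (f : ι → V) (u : V) : H u (∑ i ∈ s, f i) = ∑ i ∈ s, H u (f i) := by
  classical
  induction s using Finset.induction_on with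
  | empty => simp [hH.zero_right]
  | insert a s ha ih => rw [Finset.sum_insert ha, Finset.sum_insert ha, hH.add_right, ih]

omit hH in
/-- The Frobenius. -/
theorem pow_pow (hF : Fintype.card F = q ^ 2) (x : F) : (x ^ q) ^ q = x := Cfsg.Agent.Lib.HermCount.pow_q_pow_q hF x

end HS

/-- The orthogonal complement. -/
def perpH (hH : HS q H) (W : Submodule F V) : Submodule F V where
  carrier := {v | ∀ w ∈ W, H w v = 0}
  add_mem' := fun {a b} ha hb w hw => by rw [hH.add_right, ha w hw, hb w hw, add_zero]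
  zero_mem' := fun w _ => hH.zero_right w
  smul_mem' := fun c a ha w hw => by rw [hH.smul_right, ha w hw, mul_zero]

theorem mem_perpH (hH : HS q H) {W : Submodule F V} {v : V} : v ∈ perpH hH W ↔ ∀ w ∈ W, H w v = 0 := Iff.rfl

/-- Nondegeneracy on a subspace. -/
def NDH (H : V → V → F) (U : Submodule F V) : Prop :=
  ∀ u ∈ U, (∀ w ∈ U, H u w = 0) → u = 0

theorem ndH_bot : NDH H (⊥ : Submodule F V) := fun u hu _ => (Submodule.mem_bot F).1 hu

section compl

variable (hH : HS q H)
include hH

theorem isCompl_perp [FiniteDimensional F V] {W : Submodule F V} (hW : NDH H W) : IsCompl W (perpH hH W) := by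
  classical
  have hdisj : Disjoint W (perpH hH W) := by
    rw [Submodule.disjoint_def]
    intro u hu hu2
    exact hW u hu fun w hw => hH.refl (hu2 w hw)
  refine ⟨hdisj, ?_⟩
  rw [codisjoint_iff, eq_top_iff]
  intro v _
  let ψ : V → (W →ₗ[F] F) := fun a =>
    { toFun := fun b => H b.1 a
      map_add' := fun x y => hH.add_left _ _ _
      map_smul' := fun c x => hH.smul_left _ _ _ }
  have hψ : ∀ a b, ψ a b = H b.1 a := fun a b => rfl
  let Φ : W → (W →ₗ[F] F) := fun a => ψ a.1
  have hΦi : Function.Injective Φ := by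
    intro a a' h
    have h0 : a.1 - a'.1 = 0 := by
      apply hW _ (W.sub_mem a.2 a'.2)
      intro w hw
      apply hH.refl
      rw [hH.sub_right]
      have := LinearMap.congr_fun h ⟨w, hw⟩
      simp only [Φ, hψ] at this
      rw [this, sub_self]
    exact Subtype.ext (sub_eq_zero.1 h0)
  haveI : Finite (W →ₗ[F] F) := Module.finite_of_finite F
  have hcard : Nat.card (W →ₗ[F] F) ≤ Nat.card W := by
    rw [Module.natCard_eq_pow_finrank (K := F) (V := W →ₗ[F] F), Module.natCard_eq_pow_finrank (K := F) (V := W)]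
    apply le_of_eq
    congr 1
    exact (Subspace.dual_finrank_eq (K := F) (V := W))
  have hΦs : Function.Surjective Φ := (Function.Injective.bijective_of_nat_card_le hΦi hcard).2
  obtain ⟨a, ha⟩ := hΦs (ψ v)
  have hmem : v - a.1 ∈ perpH hH W := by
    intro w hw
    have h1 := LinearMap.congr_fun ha ⟨w, hw⟩
    simp only [Φ, hψ] at h1
    rw [hH.sub_right, h1, sub_self]
  have : v = a.1 + (v - a.1) := by abel
  rw [this]
  exact Submodule.add_mem_sup a.2 hmem

theorem sup_rel [FiniteDimensional F V] {U W : Submodule F V} (hWU : W ≤ U) (hW : NDH H W) :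
    W ⊔ (U ⊓ perpH hH W) = U := by
  have h1 := isCompl_perp hH hW
  rw [inf_comm U, ← sup_inf_assoc_of_le _ hWU, h1.sup_eq_top, top_inf_eq]

theorem finrank_rel [FiniteDimensional F V] {U W : Submodule F V} (hWU : W ≤ U) (hW : NDH H W) :
    finrank F W + finrank F (U ⊓ perpH hH W : Submodule F V) = finrank F U := by
  have h1 := isCompl_perp hH hW
  have h2 := Submodule.finrank_sup_add_finrank_inf_eq W (U ⊓ perpH hH W)
  rw [sup_rel hH hWU hW] at h2
  have h3 : W ⊓ (U ⊓ perpH hH W) = ⊥ := by
    rw [← inf_assoc, inf_eq_left.mpr hWU]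
    exact h1.inf_eq_bot
  rw [h3, finrank_bot, add_zero] at h2
  exact h2.symm

theorem nd_rel [FiniteDimensional F V] {U W : Submodule F V} (hWU : W ≤ U) (hW : NDH H W) (hU : NDH H U) :
    NDH H (U ⊓ perpH hH W) := by
  intro u hu h
  apply hU u hu.1
  intro y hy
  rw [← sup_rel hH hWU hW] at hy
  obtain ⟨a, ha, b, hb, rfl⟩ := Submodule.mem_sup.mp hy
  rw [hH.add_right, h b hb, add_zero]
  exact hH.refl (hu.2 a ha)

theorem nd_sup {W W' : Submodule F V} (hW : NDH H W) (hW' : NDH H W') (horth : ∀ u ∈ W, ∀ v ∈ W', H u v = 0) :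
    NDH H (W ⊔ W') := by
  intro u hu h
  obtain ⟨a, ha, b, hb, rfl⟩ := Submodule.mem_sup.mp hu
  have h1 : a = 0 := by
    apply hW a ha
    intro w hw
    have h2 := h w (Submodule.mem_sup_left hw)
    rw [hH.add_left, hH.refl (horth w hw b hb), add_zero] at h2
    exact h2
  have h2 : b = 0 := by
    apply hW' b hb
    intro w hw
    have h3 := h w (Submodule.mem_sup_right hw)
    rw [hH.add_left, horth a ha w hw, zero_add] at h3
    exact h3
  rw [h1, h2, add_zero]

theorem disjoint_of_orth {W : Submodule F V} (hW : NDH H W) {W' : Submodule F V} (horth : ∀ u ∈ W, ∀ v ∈ W', H u v = 0) : Disjoint W W' := by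
  rw [Submodule.disjoint_def]
  intro u hu hu2
  exact hW u hu fun w hw => hH.refl (horth w hw u hu2)

theorem finrank_sup_orth [FiniteDimensional F V] {W W' : Submodule F V} (hW : NDH H W) (horth : ∀ u ∈ W, ∀ v ∈ W', H u v = 0) :
    finrank F (W ⊔ W' : Submodule F V) = finrank F W + finrank F W' := by
  have h2 := Submodule.finrank_sup_add_finrank_inf_eq W W'
  rw [(disjoint_of_orth hH hW horth).eq_bot, finrank_bot, add_zero] at h2
  exact h2

/-- A nonzero operator on a nondegenerate space moves some vector off its own orthogonal complement. -/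
theorem exists_self_ne {W : Submodule F V} (hW : NDH H W) (A : V →ₗ[F] V) (hA : ∀ u ∈ W, A u ∈ W) {v₀ : V} (hv₀ : v₀ ∈ W)
    (hne : A v₀ ≠ 0) : ∃ v ∈ W, H v (A v) ≠ 0 := by
  by_contra hall
  push Not at hall
  apply hne
  apply hW _ (hA _ hv₀)
  intro u hu
  apply hH.refl
  obtain ⟨c, hc⟩ : ∃ c : F, c ^ q ≠ c := by
    by_contra hcon
    push Not at hcon
    apply Cfsg.Agent.Lib.UnitaryE.frobQ_ne hH.card
    ext c
    exact hcon c
  have hpol : ∀ a ∈ W, ∀ b ∈ W, H a (A b) + H b (A a) = 0 := by
    intro a ha b hb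
    have h1 := hall (a + b) (W.add_mem ha hb)
    rw [map_add, hH.add_right, hH.add_left, hH.add_left, hall a ha, hall b hb, zero_add, add_zero, add_comm] at h1
    exact h1
  have h1 := hpol (c • u) (W.smul_mem c hu) v₀ hv₀
  rw [map_smul, hH.smul_left, hH.smul_right] at h1
  have h2 := hpol u hu v₀ hv₀
  have h3 : (c - c ^ q) * H u (A v₀) = 0 := by linear_combination h1 - c ^ q * h2
  exact (mul_eq_zero.1 h3).resolve_left (sub_ne_zero.2 hc.symm)

/-- Nonisotropic vectors. -/
theorem exists_noniso {U : Submodule F V} (hU : NDH H U) (hne : U ≠ ⊥) : ∃ u ∈ U, H u u ≠ 0 := by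
  obtain ⟨v, hv, hv0⟩ := (Submodule.ne_bot_iff U).1 hne
  exact exists_self_ne hH hU LinearMap.id (fun u hu => hu) hv hv0

/-- Blocks of a fixed size give invariant subspaces of all multiples of the size. -/
theorem exists_sub_blocks [FiniteDimensional F V] (T : V →ₗ[F] V) (hperp : ∀ U, InvOn T U → InvOn T (perpH hH U)) {s : ℕ} (hs : 0 < s)
    (hblock : ∀ U : Submodule F V, NDH H U → InvOn T U → U ≠ ⊥ → s ≤ finrank F U → ∃ W ≤ U, NDH H W ∧ InvOn T W ∧ finrank F W = s) :
    ∀ (a : ℕ) (U : Submodule F V), NDH H U → InvOn T U → s * a ≤ finrank F U → ∃ W ≤ U, NDH H W ∧ InvOn T W ∧ finrank F W = s * a := by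
  intro a
  induction a with
  | zero =>
    intro U _ _ _
    refine ⟨⊥, bot_le, ndH_bot, fun u hu => ?_, by simp⟩
    rw [(Submodule.mem_bot F).1 hu, map_zero]
    exact Submodule.zero_mem _
  | succ a ih =>
    intro U hU hinv hle
    have hle1 : s ≤ finrank F U := by
      rw [mul_add, mul_one] at hle
      omega
    have hne : U ≠ ⊥ := by
      rintro rfl
      rw [finrank_bot] at hle1
      omega
    obtain ⟨W, hWU, hWnd, hWinv, hWs⟩ := hblock U hU hinv hne hle1
    have hfr := finrank_rel hH hWU hWnd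
    obtain ⟨W', hW'U, hW'nd, hW'inv, hW'fin⟩ := ih (U ⊓ perpH hH W) (nd_rel hH hWU hWnd hU)
      (inv_inf hinv (hperp W hWinv)) (by
        rw [mul_add, mul_one] at hle
        omega)
    have horth : ∀ u ∈ W, ∀ v ∈ W', H u v = 0 := fun u hu v hv => (hW'U hv).2 u hu
    refine ⟨W ⊔ W', sup_le hWU (hW'U.trans inf_le_left), nd_sup hH hWnd hW'nd horth, ?_, ?_⟩
    · intro z hz
      obtain ⟨x, hx, y, hy, rfl⟩ := Submodule.mem_sup.mp hz
      rw [map_add]
      exact Submodule.add_mem_sup (hWinv x hx) (hW'inv y hy)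
    · rw [finrank_sup_orth hH hWnd horth, hWs, hW'fin, mul_add, mul_one, add_comm]

end compl

section isom

variable [FiniteDimensional F V] (hH : HS q H) {T : V →ₗ[F] V} {r : ℕ}

theorem form_pow (hiso : ∀ u v, H (T u) (T v) = H u v) (n : ℕ) (u v : V) : H ((T ^ n) u) ((T ^ n) v) = H u v := by
  induction n generalizing u v with
  | zero => simp
  | succ n ih =>
    rw [pow_succ, Module.End.mul_apply, Module.End.mul_apply, ih, hiso]

theorem T_mul_inv (hr : r ≠ 0) (hTr : T ^ r = 1) : T * T ^ (r - 1) = 1 := by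
  rw [← pow_succ', Nat.sub_add_cancel (Nat.pos_of_ne_zero hr), hTr]

theorem adj1 (hiso : ∀ u v, H (T u) (T v) = H u v) (hr : r ≠ 0) (hTr : T ^ r = 1) (u v : V) : H (T u) v = H u ((T ^ (r - 1)) v) := by
  rw [← hiso u]
  congr 1
  have := LinearMap.congr_fun (T_mul_inv hr hTr) v
  simpa using this.symm

theorem adj2 (hiso : ∀ u v, H (T u) (T v) = H u v) (hr : r ≠ 0) (hTr : T ^ r = 1) (u v : V) : H ((T ^ (r - 1)) u) v = H u (T v) := by
  rw [← hiso ((T ^ (r - 1)) u)]
  congr 2
  have := LinearMap.congr_fun (T_mul_inv hr hTr) u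
  simpa using this

include hH

/-- The adjoint of a polynomial. -/
theorem form_aeval {S S' : V →ₗ[F] V} (hadj : ∀ u v, H (S u) v = H u (S' v)) (k : F[X]) (u v : V) :
    H (aeval S k u) v = H u (aeval S' (k.map (Cfsg.Agent.Lib.UnitaryBasic.sigma hH.card)) v) := by
  have h1 : ∀ (n : ℕ) (u v : V), H ((S ^ n) u) v = H u ((S' ^ n) v) := by
    intro n
    induction n with
    | zero => simp
    | succ n ih =>
      intro u v
      rw [pow_succ, Module.End.mul_apply, ih, hadj, pow_succ']
      rfl
  induction k using Polynomial.induction_on' with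
  | add a b ha hb =>
    rw [Polynomial.map_add, map_add, map_add, LinearMap.add_apply, LinearMap.add_apply, hH.add_left, hH.add_right, ha, hb]
  | monomial n a =>
    rw [Polynomial.map_monomial, aeval_monomial, aeval_monomial, Module.End.mul_apply, Module.End.mul_apply,
      Module.algebraMap_end_apply, Module.algebraMap_end_apply, hH.smul_left, hH.smul_right, h1,
      Cfsg.Agent.Lib.UnitaryBasic.sigma_apply, HS.pow_pow hH.card]

theorem inv_perp (hiso : ∀ u v, H (T u) (T v) = H u v) (hr : r ≠ 0) (hTr : T ^ r = 1) {U : Submodule F V} (hU : InvOn T U) :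
    InvOn T (perpH hH U) := by
  intro v hv w hw
  rw [← adj2 hiso hr hTr]
  exact hv _ (inv_pow hU _ hw)

/-- A simple invariant subspace is nondegenerate or totally isotropic. -/
theorem rad_dichotomy (hiso : ∀ u v, H (T u) (T v) = H u v) (hr : r ≠ 0) (hTr : T ^ r = 1) {U : Submodule F V}
    (hU : InvOn T U) (hs : SimpleOn T U) : NDH H U ∨ ∀ a ∈ U, ∀ b ∈ U, H a b = 0 := by
  rcases hs (U ⊓ perpH hH U) (inv_inf hU (inv_perp hH hiso hr hTr hU)) inf_le_left with h | h
  · left
    intro u hu h0
    have : u ∈ U ⊓ perpH hH U := ⟨hu, fun w hw => hH.refl (h0 w hw)⟩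
    rw [h] at this
    exact this
  · right
    intro a ha b hb
    have : b ∈ U ⊓ perpH hH U := by rw [h]; exact hb
    exact this.2 a ha

/-- A pairing between two simple invariant subspaces. -/
theorem pair_dichotomy (hiso : ∀ u v, H (T u) (T v) = H u v) (hr : r ≠ 0) (hTr : T ^ r = 1) {U U' : Submodule F V}
    (hU : InvOn T U) (hU' : InvOn T U') (hs : SimpleOn T U) {v w : V} (hv : v ∈ U) (hw : w ∈ U') (hvw : H v w ≠ 0) :
    ∀ a ∈ U, (∀ z ∈ U', H a z = 0) → a = 0 := by
  intro a ha h0
  rcases hs (U ⊓ perpH hH U') (inv_inf hU (inv_perp hH hiso hr hTr hU')) inf_le_left with h | h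
  · have : a ∈ U ⊓ perpH hH U' := ⟨ha, fun z hz => hH.refl (h0 z hz)⟩
    rw [h] at this
    exact this
  · exfalso
    have : v ∈ U ⊓ perpH hH U' := by rw [h]; exact hv
    exact hvw (hH.refl (this.2 w hw))

/-- The fixed space of a nondegenerate invariant subspace is nondegenerate. -/
theorem nd_fixS (hiso : ∀ u v, H (T u) (T v) = H u v) (hr : r ≠ 0) (hrF : (r : F) ≠ 0) (hTr : T ^ r = 1) {U : Submodule F V}
    (hU : NDH H U) (hinv : InvOn T U) : NDH H (fixS T U) := by
  classical
  intro v hv h0
  have hv' := mem_fixS.mp hv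
  apply hU v hv'.1
  intro w hw
  let w₀ : V := (r : F)⁻¹ • ∑ j ∈ Finset.range r, (T ^ j) w
  have hw₀ : w₀ ∈ fixS T U := by
    rw [mem_fixS]
    constructor
    · apply U.smul_mem
      apply U.sum_mem
      intro j _
      exact inv_pow hinv j hw
    · simp only [w₀, map_smul, map_sum]
      congr 1
      have h1 : ∀ j, T ((T ^ j) w) = (T ^ (j + 1)) w := fun j => by
        rw [pow_succ', Module.End.mul_apply]
      simp only [h1]
      have h2 := Finset.sum_range_succ (fun j => (T ^ j) w) r
      have h3 := Finset.sum_range_succ' (fun j => (T ^ j) w) r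
      rw [h2, hTr] at h3
      simp only [pow_zero] at h3
      exact (add_right_cancel h3).symm
  have hfv : ∀ j : ℕ, (T ^ j) v = v := by
    intro j
    induction j with
    | zero => simp
    | succ j ih => rw [pow_succ, Module.End.mul_apply, hv'.2, ih]
  have h1 : H v w₀ = H v w := by
    simp only [w₀]
    rw [hH.smul_right, hH.sum_right]
    have h2 : ∀ j, H v ((T ^ j) w) = H v w := by
      intro j
      conv_lhs => rw [← hfv j]
      exact form_pow hiso j v w
    simp only [h2, Finset.sum_const, Finset.card_range, nsmul_eq_mul]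
    have h3 : ((r : F)⁻¹) ^ q * (r : F) = 1 := by
      have h4 : ((r : F)) ^ q = r := by
        have := map_natCast (Cfsg.Agent.Lib.UnitaryBasic.sigma hH.card) r
        rwa [Cfsg.Agent.Lib.UnitaryBasic.sigma_apply] at this
      rw [_root_.inv_pow, h4, inv_mul_cancel₀ hrF]
    calc ((r : F)⁻¹) ^ q * ((r : F) * H v w) = (((r : F)⁻¹) ^ q * (r : F)) * H v w := by ring
      _ = H v w := by rw [h3, one_mul]
  rw [← h1]
  exact h0 _ hw₀

/-- Fixed vectors are orthogonal to fixed-point-free invariant subspaces. -/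
theorem fix_orth_free (hiso : ∀ u v, H (T u) (T v) = H u v) {W : Submodule F V} (hWinv : InvOn T W) (hW : FixFree T W) {v : V} (hv : T v = v) (w : V) (hw : w ∈ W) :
    H w v = 0 := by
  classical
  let S : W →ₗ[F] W := (T - LinearMap.id).restrict (fun u hu => W.sub_mem (hWinv u hu) hu)
  have hSi : Function.Injective S := by
    rw [← LinearMap.ker_eq_bot, LinearMap.ker_eq_bot']
    intro u hu
    apply Subtype.ext
    apply hW u.1 u.2
    have := congrArg Subtype.val hu
    exact sub_eq_zero.mp this
  have hSs : Function.Surjective S := LinearMap.injective_iff_surjective.mp hSi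
  obtain ⟨w', hw'⟩ := hSs ⟨w, hw⟩
  have h1 : w = T w' - w' := (congrArg Subtype.val hw').symm
  rw [h1, hH.sub_left]
  nth_rewrite 1 [← hv]
  rw [hiso, sub_self]

end isom

end Cfsg.Agent.Lib.HSBase
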