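import Mathlib
import Cfsg.Agent.Lib.HSBase
import Cfsg.Agent.S5984

/-!
# Transfer between abstract Hermitian spaces and the standard one
-/

set_option autoImplicit false

namespace Cfsg.Agent.Lib.HSBase

open Polynomial Module Matrix
open Cfsg.Agent.Lib.IsomBlock (InvOn FixFree SimpleOn fixS mem_fixS fixS_le inv_fixS inv_pow inv_inf)
open Cfsg

set_option linter.unusedSimpArgs false
set_option linter.unusedVariables false
set_option linter.unusedSectionVars false

variable {F : Type*} [Field F] [Fintype F] {q n : ℕ}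

theorem hermHS (hF : Fintype.card F = q ^ 2) : HS q (hermForm n F q) where
  card := hF
  add_left := fun a b c => Cfsg.Agent.Lib.UnitaryBasic.herm_add_left a b c
  smul_left := fun k a c => Cfsg.Agent.Lib.UnitaryBasic.herm_smul_left k a c
  conj := fun a b => Cfsg.Agent.Lib.UnitaryBasic.herm_conj hF a b

theorem herm_nd (hF : Fintype.card F = q ^ 2) : NDH (hermForm n F q) (⊤ : Submodule F (Fin n → F)) :=
  fun u _ h => Cfsg.Agent.Lib.UnitaryBasic.herm_nondeg hF fun v => h v trivial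

section general

variable {V : Type*} [AddCommGroup V] [Module F V] {H : V → V → F}

theorem line_block (hH : HS q H) {T : V →ₗ[F] V} {u : V} (hu : H u u ≠ 0) (hcT : ∃ c : F, T u = c • u) :
    NDH H (Submodule.span F {u}) ∧ InvOn T (Submodule.span F {u}) ∧ finrank F (Submodule.span F {u}) = 1 := by
  have hu0 : u ≠ 0 := by
    rintro rfl
    exact hu (hH.zero_left _)
  refine ⟨?_, ?_, finrank_span_singleton hu0⟩
  · intro a ha h0
    obtain ⟨c, rfl⟩ := Submodule.mem_span_singleton.1 ha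
    have h1 := h0 u (Submodule.mem_span_singleton_self u)
    rw [hH.smul_left] at h1
    rw [(mul_eq_zero.1 h1).resolve_right hu, zero_smul]
  · intro a ha
    obtain ⟨c, rfl⟩ := Submodule.mem_span_singleton.1 ha
    obtain ⟨d, hd⟩ := hcT
    rw [map_smul, hd, smul_smul]
    exact Submodule.mem_span_singleton.2 ⟨c * d, rfl⟩

theorem exists_sub_lines [FiniteDimensional F V] (hH : HS q H) (T : V →ₗ[F] V) (hperp : ∀ U, InvOn T U → InvOn T (perpH hH U))
    (hline : ∀ U : Submodule F V, NDH H U → InvOn T U → U ≠ ⊥ → ∃ u ∈ U, H u u ≠ 0 ∧ ∃ c : F, T u = c • u)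
    (a : ℕ) (U : Submodule F V) (hU : NDH H U) (hinv : InvOn T U) (ha : a ≤ finrank F U) :
    ∃ W ≤ U, NDH H W ∧ InvOn T W ∧ finrank F W = a := by
  have := exists_sub_blocks hH T hperp (s := 1) (by norm_num) (by
    intro U hU hinv hne _
    obtain ⟨u, huU, huu, hc⟩ := hline U hU hinv hne
    obtain ⟨h1, h2, h3⟩ := line_block hH huu hc
    exact ⟨_, (Submodule.span_singleton_le_iff_mem _ _).2 huU, h1, h2, h3⟩) a U hU hinv (by simpa using ha)
  simpa using this

theorem exists_nd_sub [FiniteDimensional F V] (hH : HS q H) (a : ℕ) (U : Submodule F V) (hU : NDH H U) (ha : a ≤ finrank F U) :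
    ∃ W ≤ U, NDH H W ∧ finrank F W = a := by
  obtain ⟨W, h1, h2, -, h3⟩ := exists_sub_lines hH (LinearMap.id) (fun _ _ _ h => h) (by
    intro U hU _ hne
    obtain ⟨u, hu, huu⟩ := exists_noniso hH hU hne
    exact ⟨u, hu, huu, 1, by simp⟩) a U hU (fun _ h => h) ha
  exact ⟨W, h1, h2, h3⟩

/-- The scalar by which a power of an isometry acts has norm one. -/
theorem scalar_norm [FiniteDimensional F V] (hH : HS q H) (hnd : NDH H (⊤ : Submodule F V)) [Nontrivial V] {T : V →ₗ[F] V}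
    (hiso : ∀ u v, H (T u) (T v) = H u v) {r : ℕ} {z : F} (hz : T ^ r = z • 1) : z ^ (q + 1) = 1 := by
  obtain ⟨v, hv⟩ := exists_ne (0 : V)
  obtain ⟨u, -, hu⟩ := exists_noniso hH hnd (by
    intro h
    have : v ∈ (⊤ : Submodule F V) := trivial
    rw [h] at this
    exact hv ((Submodule.mem_bot F).1 this))
  have h1 := form_pow hiso r u u
  rw [hz] at h1
  simp only [LinearMap.smul_apply, Module.End.one_apply] at h1
  rw [hH.smul_left, hH.smul_right, ← mul_assoc, ← pow_succ'] at h1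
  have h2 : (z ^ (q + 1) - 1) * H u u = 0 := by linear_combination h1
  exact sub_eq_zero.1 ((mul_eq_zero.1 h2).resolve_right hu)

theorem smul_iso (hH : HS q H) {T : V →ₗ[F] V} (hiso : ∀ u v, H (T u) (T v) = H u v) {c : F} (hc : c ^ (q + 1) = 1) (u v : V) :
    H ((c • T) u) ((c • T) v) = H u v := by
  simp only [LinearMap.smul_apply]
  rw [hH.smul_left, hH.smul_right, ← mul_assoc, ← pow_succ', hc, one_mul, hiso]

theorem inv_of_smul {T : V →ₗ[F] V} {c : F} (hc : c ≠ 0) {W : Submodule F V} (h : InvOn (c • T) W) : InvOn T W := by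
  intro u hu
  have h1 := W.smul_mem c⁻¹ (h u hu)
  simp only [LinearMap.smul_apply] at h1
  rwa [smul_smul, inv_mul_cancel₀ hc, one_smul] at h1

end general

/-- Bad elements. -/
structure BadF (n m r : ℕ) (F : Type*) [Field F] [Fintype F] (q : ℕ) (f : (Fin n → F) →ₗ[F] (Fin n → F)) : Prop where
  iso : ∀ u v, hermForm n F q (f u) (f v) = hermForm n F q u v
  det : LinearMap.det f = 1
  pow : ∃ z : F, f ^ r = z • 1
  nofix : ∀ W : Submodule F (Fin n → F), finrank F W = m → NDH (hermForm n F q) W → InvOn f W → False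

/-- Transfer from an abstract model. -/
theorem exists_bad_of_model (hF : Fintype.card F = q ^ 2) {m r : ℕ} {X : Type*} [AddCommGroup X] [Module F X] [FiniteDimensional F X]
    {H : X → X → F} (hH : HS q H) (hnd : NDH H (⊤ : Submodule F X)) (hk : finrank F X = n) (T : X →ₗ[F] X)
    (hiso : ∀ u v, H (T u) (T v) = H u v) (hdet : LinearMap.det T = 1) (hpow : ∃ z : F, T ^ r = z • 1)
    (hno : ∀ W : Submodule F X, finrank F W = m → NDH H W → InvOn T W → False) :
    ∃ f, BadF n m r F q f := by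
  classical
  obtain ⟨E, hE⟩ := Cfsg.Agent.S5984.exists_herm_equiv (q := q) H hH.add_left hH.smul_left (fun v w => (hH.conj w v).symm) hF
    (fun v hv => hnd v trivial fun w _ => hv w) hk
  let f : (Fin n → F) →ₗ[F] (Fin n → F) := (E.symm : X →ₗ[F] (Fin n → F)) ∘ₗ T ∘ₗ (E : (Fin n → F) →ₗ[F] X)
  have hf : ∀ v, E (f v) = T (E v) := fun v => by
    simp [f]
  have hfk : ∀ (k : ℕ) (v : Fin n → F), E ((f ^ k) v) = (T ^ k) (E v) := by
    intro k
    induction k with
    | zero => simp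
    | succ k ih =>
      intro v
      rw [pow_succ, pow_succ, Module.End.mul_apply, Module.End.mul_apply, ih, hf]
  refine ⟨f, ?_, ?_, ?_, ?_⟩
  · intro u v
    rw [← hE, ← hE, hf, hf, hiso]
  · have : f = (E.symm : X →ₗ[F] (Fin n → F)) ∘ₗ T ∘ₗ ((E.symm.symm : (Fin n → F) ≃ₗ[F] X) : (Fin n → F) →ₗ[F] X) := rfl
    rw [this, LinearMap.det_conj, hdet]
  · obtain ⟨z, hz⟩ := hpow
    refine ⟨z, ?_⟩
    apply LinearMap.ext
    intro v
    apply E.injective
    rw [hfk, hz]
    simp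
  · intro W hW hnd' hinv
    refine hno (W.map (E : (Fin n → F) →ₗ[F] X)) ?_ ?_ ?_
    · rw [LinearEquiv.finrank_map_eq, hW]
    · rintro _ ⟨a, ha, rfl⟩ h0
      have : a = 0 := by
        apply hnd' a ha
        intro w hw
        rw [← hE]
        exact h0 _ ⟨w, hw, rfl⟩
      rw [this]
      simp
    · rintro _ ⟨a, ha, rfl⟩
      exact ⟨f a, hinv a ha, hf a⟩

/-- Bad elements refute the left-hand side. -/
theorem not_lhs_of_bad (hF : Fintype.card F = q ^ 2) {m r : ℕ} (hm : m ≤ n) {f : (Fin n → F) →ₗ[F] (Fin n → F)} (hf : BadF n m r F q f) :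
    ¬ (∀ x : Matrix.SpecialLinearGroup (Fin n) F, x ∈ Cfsg.SU n F q →
      (∃ z : F, ((x ^ r : Matrix.SpecialLinearGroup (Fin n) F) : Matrix (Fin n) (Fin n) F) = z • (1 : Matrix (Fin n) (Fin n) F)) →
      (∀ z : F, (x : Matrix (Fin n) (Fin n) F) ≠ z • (1 : Matrix (Fin n) (Fin n) F)) →
      ∃ W : Submodule F (Fin n → F), Module.finrank F ↥W = m ∧ (∀ u ∈ W, u ≠ 0 → ∃ v ∈ W, Cfsg.hermForm n F q u v ≠ 0) ∧
        W.map (Matrix.toLin' (x : Matrix (Fin n) (Fin n) F)) ≤ W) := by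
  classical
  intro hall
  have hH := hermHS (n := n) hF
  let A : Matrix (Fin n) (Fin n) F := LinearMap.toMatrix' f
  have hA : Matrix.toLin' A = f := Matrix.toLin'_toMatrix' f
  have hAv : ∀ v, A *ᵥ v = f v := fun v => by
    rw [← Matrix.toLin'_apply, hA]
  have hdet : A.det = 1 := by
    rw [← LinearMap.det_toLin', hA, hf.det]
  let x : Matrix.SpecialLinearGroup (Fin n) F := ⟨A, hdet⟩
  have hx : (x : Matrix (Fin n) (Fin n) F) = A := rfl
  have hxs : x ∈ Cfsg.SU n F q := by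
    intro u v
    show hermForm n F q (A *ᵥ u) (A *ᵥ v) = hermForm n F q u v
    rw [hAv, hAv, hf.iso]
  obtain ⟨W, hW, hWnd, hWinv⟩ := hall x hxs (by
    obtain ⟨z, hz⟩ := hf.pow
    refine ⟨z, ?_⟩
    rw [Matrix.SpecialLinearGroup.coe_pow, hx]
    apply Matrix.toLin'.injective
    have h1 : Matrix.toLin' (A ^ r) = (Matrix.toLin' A) ^ r := by
      show Matrix.toLinAlgEquiv' (A ^ r) = (Matrix.toLinAlgEquiv' A) ^ r
      rw [map_pow]
    rw [h1, hA, hz, map_smul, Matrix.toLin'_one]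
    rfl) (by
    intro z hz
    obtain ⟨W, -, hWnd, hW⟩ := exists_nd_sub hH m ⊤ (herm_nd hF) (by rwa [finrank_top, Module.finrank_fin_fun])
    refine hf.nofix W hW hWnd ?_
    intro u hu
    rw [← hAv, ← hx, hz, Matrix.smul_mulVec, Matrix.one_mulVec]
    exact W.smul_mem z hu)
  refine hf.nofix W hW ?_ ?_
  · intro u hu h0
    by_contra hu0
    obtain ⟨v, hv, huv⟩ := hWnd u hu hu0
    exact huv (h0 v hv)
  · intro u hu
    have : Matrix.toLin' (x : Matrix (Fin n) (Fin n) F) u ∈ W := hWinv ⟨u, hu, rfl⟩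
    rwa [hx, hA] at this

/-- Constructing the subspaces for all elements. -/
theorem lhs_of_fwd (hF : Fintype.card F = q ^ 2) {m r : ℕ}
    (h : ∀ f : (Fin n → F) →ₗ[F] (Fin n → F), (∀ u v, hermForm n F q (f u) (f v) = hermForm n F q u v) → LinearMap.det f = 1 →
      (∃ z : F, f ^ r = z • 1) → ∃ W : Submodule F (Fin n → F), finrank F W = m ∧ NDH (hermForm n F q) W ∧ InvOn f W) :
    ∀ x : Matrix.SpecialLinearGroup (Fin n) F, x ∈ Cfsg.SU n F q →
      (∃ z : F, ((x ^ r : Matrix.SpecialLinearGroup (Fin n) F) : Matrix (Fin n) (Fin n) F) = z • (1 : Matrix (Fin n) (Fin n) F)) →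
      (∀ z : F, (x : Matrix (Fin n) (Fin n) F) ≠ z • (1 : Matrix (Fin n) (Fin n) F)) →
      ∃ W : Submodule F (Fin n → F), Module.finrank F ↥W = m ∧ (∀ u ∈ W, u ≠ 0 → ∃ v ∈ W, Cfsg.hermForm n F q u v ≠ 0) ∧
        W.map (Matrix.toLin' (x : Matrix (Fin n) (Fin n) F)) ≤ W := by
  classical
  rintro x hxs ⟨z, hz⟩ -
  obtain ⟨W, hW, hWnd, hWinv⟩ := h (Matrix.toLin' (x : Matrix (Fin n) (Fin n) F)) (by
    intro u v
    rw [Matrix.toLin'_apply, Matrix.toLin'_apply]
    exact hxs u v) (by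
    rw [LinearMap.det_toLin']
    exact x.2) ⟨z, by
    have h1 : Matrix.toLin' (x : Matrix (Fin n) (Fin n) F) ^ r = Matrix.toLin' ((x : Matrix (Fin n) (Fin n) F) ^ r) := by
      show (Matrix.toLinAlgEquiv' (x : Matrix (Fin n) (Fin n) F)) ^ r = Matrix.toLinAlgEquiv' ((x : Matrix (Fin n) (Fin n) F) ^ r)
      rw [map_pow]
    rw [h1, ← Matrix.SpecialLinearGroup.coe_pow, hz, map_smul, Matrix.toLin'_one]
    rfl⟩
  refine ⟨W, hW, ?_, ?_⟩
  · intro u hu hu0
    by_contra hall
    push Not at hall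
    exact hu0 (hWnd u hu hall)
  · rintro _ ⟨u, hu, rfl⟩
    exact hWinv u hu

end Cfsg.Agent.Lib.HSBase
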