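import Mathlib
import Cfsg.Agent.Lib.HSTrans
import Cfsg.Agent.Lib.GUField

/-!
# The number of nondegenerate subspaces of a Hermitian space: a divisibility
-/

set_option autoImplicit false

namespace Cfsg.Agent.Lib.HSBase

open Module Matrix
open Cfsg.Agent.Lib.IsomBlock (InvOn)
open Cfsg Cfsg.Agent.Lib.UnitarySU

set_option linter.unusedSimpArgs false
set_option linter.unusedVariables false
set_option linter.unusedSectionVars false

universe u

variable {F : Type u} [Field F] [Fintype F] {q n m : ℕ}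

/-- The set of nondegenerate subspaces of a given dimension. -/
abbrev OmH (n m : ℕ) (F : Type u) [Field F] (q : ℕ) :=
  {W : Submodule F (Fin n → F) // finrank F W = m ∧ (∀ u ∈ W, u ≠ 0 → ∃ v ∈ W, hermForm n F q u v ≠ 0)}

theorem ndh_of_om {W : Submodule F (Fin n → F)} (h : ∀ u ∈ W, u ≠ 0 → ∃ v ∈ W, hermForm n F q u v ≠ 0) : NDH (hermForm n F q) W := by
  intro u hu hv
  by_contra hu0
  obtain ⟨v, hv1, hv2⟩ := h u hu hu0
  exact hv2 (hv v hv1)

theorem om_of_ndh {W : Submodule F (Fin n → F)} (h : NDH (hermForm n F q) W) : ∀ u ∈ W, u ≠ 0 → ∃ v ∈ W, hermForm n F q u v ≠ 0 := by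
  intro u hu hu0
  by_contra hall
  push Not at hall
  exact hu0 (h u hu hall)

/-- The linear equivalence given by an element of `GU`. -/
noncomputable def guE (g : GU n F q) : (Fin n → F) ≃ₗ[F] (Fin n → F) :=
  LinearEquiv.ofLinear (Matrix.toLin' (g.1 : Matrix (Fin n) (Fin n) F)) (Matrix.toLin' ((g.1⁻¹ : GL (Fin n) F) : Matrix (Fin n) (Fin n) F))
    (by
      rw [← Matrix.toLin'_mul, ← Units.val_mul, mul_inv_cancel, Units.val_one, Matrix.toLin'_one])
    (by
      rw [← Matrix.toLin'_mul, ← Units.val_mul, inv_mul_cancel, Units.val_one, Matrix.toLin'_one])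

theorem guE_apply (g : GU n F q) (v : Fin n → F) : guE g v = (g.1 : Matrix (Fin n) (Fin n) F) *ᵥ v := rfl

/-- The action of the unitary group. -/
noncomputable instance omHAction : MulAction (GU n F q) (OmH n m F q) where
  smul g W := ⟨W.1.map (guE g : (Fin n → F) →ₗ[F] (Fin n → F)), (LinearEquiv.finrank_map_eq _ _).trans W.2.1, by
    rintro _ ⟨a, ha, rfl⟩ hu
    have ha0 : a ≠ 0 := by
      rintro rfl
      exact hu (map_zero _)
    obtain ⟨b, hb, hab⟩ := W.2.2 a ha ha0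
    refine ⟨guE g b, ⟨b, hb, rfl⟩, ?_⟩
    show hermForm n F q (guE g a) (guE g b) ≠ 0
    rw [guE_apply, guE_apply]
    rw [show hermForm n F q ((g.1 : Matrix (Fin n) (Fin n) F) *ᵥ a) ((g.1 : Matrix (Fin n) (Fin n) F) *ᵥ b) = hermForm n F q a b from g.2 a b]
    exact hab⟩
  one_smul W := by
    apply Subtype.ext
    show Submodule.map _ _ = _
    have h : (guE (1 : GU n F q) : (Fin n → F) →ₗ[F] (Fin n → F)) = LinearMap.id := by
      apply LinearMap.ext
      intro v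
      show ((1 : GL (Fin n) F) : Matrix (Fin n) (Fin n) F) *ᵥ v = v
      simp
    rw [h, Submodule.map_id]
  mul_smul g h W := by
    apply Subtype.ext
    show Submodule.map _ _ = Submodule.map _ (Submodule.map _ _)
    have e : (guE (g * h) : (Fin n → F) →ₗ[F] (Fin n → F)) = (guE g : (Fin n → F) →ₗ[F] (Fin n → F)) ∘ₗ (guE h : (Fin n → F) →ₗ[F] (Fin n → F)) := by
      apply LinearMap.ext
      intro v
      show ((g.1 * h.1 : GL (Fin n) F) : Matrix (Fin n) (Fin n) F) *ᵥ v = (g.1 : Matrix (Fin n) (Fin n) F) *ᵥ ((h.1 : Matrix (Fin n) (Fin n) F) *ᵥ v)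
      rw [Matrix.mulVec_mulVec]
      rfl
    rw [e, Submodule.map_comp]

/-- Coordinates adapted to a nondegenerate subspace. -/
theorem exists_split (hF : Fintype.card F = q ^ 2) (hm : m ≤ n) (W : Submodule F (Fin n → F)) (hWm : finrank F W = m) (hW : NDH (hermForm n F q) W) :
    ∃ Ψ : ((Fin m → F) × (Fin (n - m) → F)) ≃ₗ[F] (Fin n → F),
      (∀ x y, hermForm n F q (Ψ x) (Ψ y) = hermForm m F q x.1 y.1 + hermForm (n - m) F q x.2 y.2) ∧
      ∀ x, Ψ x ∈ W ↔ x.2 = 0 := by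
  classical
  have hH := hermHS (n := n) hF
  have hnd := herm_nd (n := n) hF
  have hfr := finrank_rel hH (le_top : W ≤ ⊤) hW
  rw [finrank_top, Module.finrank_fin_fun, hWm] at hfr
  set W' : Submodule F (Fin n → F) := ⊤ ⊓ perpH hH W with hW'
  have hW'nd : NDH (hermForm n F q) W' := nd_rel hH le_top hW hnd
  have hW'fin : finrank F W' = n - m := by omega
  have hsub : ∀ (U : Submodule F (Fin n → F)), HS q (fun a b : U => hermForm n F q a b) := fun U =>
    ⟨hF, fun a b c => hH.add_left _ _ _, fun k a c => hH.smul_left _ _ _, fun a b => hH.conj _ _⟩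
  obtain ⟨E₁, hE₁⟩ := Cfsg.Agent.S5984.exists_herm_equiv (q := q) (fun a b : W => hermForm n F q a b) (hsub W).add_left (hsub W).smul_left
    (fun v w => ((hsub W).conj w v).symm) hF (fun v hv => Subtype.ext (hW v.1 v.2 fun w hw => hv ⟨w, hw⟩)) hWm
  obtain ⟨E₂, hE₂⟩ := Cfsg.Agent.S5984.exists_herm_equiv (q := q) (fun a b : W' => hermForm n F q a b) (hsub W').add_left (hsub W').smul_left
    (fun v w => ((hsub W').conj w v).symm) hF (fun v hv => Subtype.ext (hW'nd v.1 v.2 fun w hw => hv ⟨w, hw⟩)) hW'fin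
  let Ψ₀ : ((Fin m → F) × (Fin (n - m) → F)) →ₗ[F] (Fin n → F) :=
    (W.subtype ∘ₗ (E₁ : (Fin m → F) →ₗ[F] W) ∘ₗ LinearMap.fst F _ _) + (W'.subtype ∘ₗ (E₂ : (Fin (n - m) → F) →ₗ[F] W') ∘ₗ LinearMap.snd F _ _)
  have hΨ₀ : ∀ x, Ψ₀ x = (E₁ x.1 : Fin n → F) + (E₂ x.2 : Fin n → F) := fun x => rfl
  have hcross : ∀ a b, hermForm n F q (E₁ a : Fin n → F) (E₂ b : Fin n → F) = 0 := fun a b => (E₂ b).2.2 _ (E₁ a).2
  have hform : ∀ x y, hermForm n F q (Ψ₀ x) (Ψ₀ y) = hermForm m F q x.1 y.1 + hermForm (n - m) F q x.2 y.2 := by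
    intro x y
    rw [hΨ₀, hΨ₀, hH.add_left, hH.add_right, hH.add_right, hcross, hH.refl (hcross y.1 x.2), add_zero, zero_add]
    rw [← hE₁, ← hE₂]
  have hinj : Function.Injective Ψ₀ := by
    rw [← LinearMap.ker_eq_bot, LinearMap.ker_eq_bot']
    intro x hx
    apply Prod.ext
    · apply Cfsg.Agent.Lib.UnitaryBasic.herm_nondeg hF
      intro v
      have h1 := hform x (v, 0)
      rw [hx, hH.zero_left, (hermHS (n := n - m) hF).zero_right, add_zero] at h1
      exact h1.symm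
    · apply Cfsg.Agent.Lib.UnitaryBasic.herm_nondeg hF
      intro v
      have h1 := hform x (0, v)
      rw [hx, hH.zero_left, (hermHS (n := m) hF).zero_right, zero_add] at h1
      exact h1.symm
  let Ψ : ((Fin m → F) × (Fin (n - m) → F)) ≃ₗ[F] (Fin n → F) := LinearEquiv.ofInjectiveOfFinrankEq Ψ₀ hinj (by
    rw [Module.finrank_prod, Module.finrank_fin_fun, Module.finrank_fin_fun, Module.finrank_fin_fun]
    omega)
  have hΨ : ∀ x, Ψ x = Ψ₀ x := fun x => rfl
  refine ⟨Ψ, fun x y => by rw [hΨ, hΨ, hform], fun x => ?_⟩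
  rw [hΨ, hΨ₀]
  constructor
  · intro h
    have h1 : (E₂ x.2 : Fin n → F) ∈ W := by
      have := W.sub_mem h (E₁ x.1).2
      simpa using this
    have h2 : (E₂ x.2 : Fin n → F) = 0 := (disjoint_of_orth hH hW (W' := W') (fun u hu v hv => hv.2 u hu)).le_bot ⟨h1, (E₂ x.2).2⟩
    have h3 : E₂ x.2 = 0 := Subtype.ext h2
    exact E₂.injective (by rw [h3, map_zero])
  · intro h
    rw [h, map_zero]
    simpa using (E₁ x.1).2

/-- Isometries of the standard space give elements of `GU`. -/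
noncomputable def guOf (hF : Fintype.card F = q ^ 2) (f : (Fin n → F) →ₗ[F] (Fin n → F))
    (hf : ∀ u v, hermForm n F q (f u) (f v) = hermForm n F q u v) : GU n F q :=
  GUofMatrix hF (LinearMap.toMatrix' f) (by
    intro u v
    rw [LinearMap.toMatrix'_mulVec, LinearMap.toMatrix'_mulVec, hf])

theorem guOf_apply (hF : Fintype.card F = q ^ 2) (f : (Fin n → F) →ₗ[F] (Fin n → F))
    (hf : ∀ u v, hermForm n F q (f u) (f v) = hermForm n F q u v) (v : Fin n → F) : guE (guOf hF f hf) v = f v := by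
  rw [guE_apply]
  show LinearMap.toMatrix' f *ᵥ v = f v
  exact LinearMap.toMatrix'_mulVec f v

theorem ext_GU {g g' : GU n F q} (h : ∀ v, guE g v = guE g' v) : g = g' := by
  apply Subtype.ext
  apply Units.ext
  apply Matrix.toLin'.injective
  apply LinearMap.ext
  intro v
  exact h v

section count

variable (hF : Fintype.card F = q ^ 2)
include hF

/-- The action on subspaces is transitive. -/
theorem omH_orbit (hm : m ≤ n) (W₀ : OmH n m F q) :
    MulAction.orbit (GU n F q) W₀ = Set.univ := by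
  classical
  rw [Set.eq_univ_iff_forall]
  intro W
  obtain ⟨Ψ₀, h₀, h₀'⟩ := exists_split hF hm W₀.1 W₀.2.1 (ndh_of_om W₀.2.2)
  obtain ⟨Ψ₁, h₁, h₁'⟩ := exists_split hF hm W.1 W.2.1 (ndh_of_om W.2.2)
  let g₀ : (Fin n → F) ≃ₗ[F] (Fin n → F) := Ψ₀.symm.trans Ψ₁
  have hg₀ : ∀ x, g₀ (Ψ₀ x) = Ψ₁ x := fun x => by simp [g₀]
  have hiso : ∀ u v, hermForm n F q ((g₀ : (Fin n → F) →ₗ[F] (Fin n → F)) u) ((g₀ : (Fin n → F) →ₗ[F] (Fin n → F)) v) = hermForm n F q u v := by
    intro u v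
    obtain ⟨x, rfl⟩ := Ψ₀.surjective u
    obtain ⟨y, rfl⟩ := Ψ₀.surjective v
    show hermForm n F q (g₀ _) (g₀ _) = _
    rw [hg₀, hg₀, h₀, h₁]
  refine ⟨guOf (n := n) hF g₀ hiso, ?_⟩
  apply Subtype.ext
  show W₀.1.map (guE (guOf (n := n) hF g₀ hiso) : (Fin n → F) →ₗ[F] (Fin n → F)) = W.1
  ext y
  constructor
  · rintro ⟨u, hu, rfl⟩
    obtain ⟨x, rfl⟩ := Ψ₀.surjective u
    have hx := (h₀' x).1 hu
    show guE (guOf (n := n) hF g₀ hiso) (Ψ₀ x) ∈ W.1
    rw [guOf_apply]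
    show g₀ (Ψ₀ x) ∈ W.1
    rw [hg₀, h₁']
    exact hx
  · intro hy
    obtain ⟨x, rfl⟩ := Ψ₁.surjective y
    have hx := (h₁' x).1 hy
    refine ⟨Ψ₀ x, (h₀' x).2 hx, ?_⟩
    show guE (guOf (n := n) hF g₀ hiso) (Ψ₀ x) = _
    rw [guOf_apply]
    exact hg₀ x

/-- The stabilizer contains a product of smaller unitary groups. -/
theorem card_dvd_stabH (hm : m ≤ n) (W₀ : OmH n m F q) :
    Nat.card (GU m F q) * Nat.card (GU (n - m) F q) ∣ Nat.card (MulAction.stabilizer (GU n F q) W₀) := by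
  classical
  obtain ⟨Ψ, h₀, h₀'⟩ := exists_split hF hm W₀.1 W₀.2.1 (ndh_of_om W₀.2.2)
  let Θ₀ : (GU m F q × GU (n - m) F q) → ((Fin n → F) →ₗ[F] (Fin n → F)) := fun p =>
    (Ψ : ((Fin m → F) × (Fin (n - m) → F)) →ₗ[F] (Fin n → F)) ∘ₗ
      (LinearMap.prodMap (guE p.1 : (Fin m → F) →ₗ[F] (Fin m → F)) (guE p.2 : (Fin (n - m) → F) →ₗ[F] (Fin (n - m) → F))) ∘ₗ
      (Ψ.symm : (Fin n → F) →ₗ[F] ((Fin m → F) × (Fin (n - m) → F)))
  have hΘ₀ : ∀ p x, Θ₀ p (Ψ x) = Ψ (guE p.1 x.1, guE p.2 x.2) := by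
    intro p x
    simp [Θ₀]
  have hguiso : ∀ {k : ℕ} (g : GU k F q) (a b : Fin k → F), hermForm k F q (guE g a) (guE g b) = hermForm k F q a b := fun g a b => g.2 a b
  have hiso : ∀ p u v, hermForm n F q (Θ₀ p u) (Θ₀ p v) = hermForm n F q u v := by
    intro p u v
    obtain ⟨x, rfl⟩ := Ψ.surjective u
    obtain ⟨y, rfl⟩ := Ψ.surjective v
    rw [hΘ₀, hΘ₀, h₀, h₀]
    simp only [hguiso]
  let f : (GU m F q × GU (n - m) F q) →* GU n F q :=
    { toFun := fun p => guOf hF (Θ₀ p) (hiso p)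
      map_one' := by
        apply ext_GU
        intro v
        rw [guOf_apply]
        obtain ⟨x, rfl⟩ := Ψ.surjective v
        rw [hΘ₀]
        have h1 : ∀ (k : ℕ) (a : Fin k → F), guE (1 : GU k F q) a = a := fun k a => by
          rw [guE_apply]
          show ((1 : GL (Fin k) F) : Matrix (Fin k) (Fin k) F) *ᵥ a = a
          simp
        show Ψ (guE (1 : GU m F q) x.1, guE (1 : GU (n - m) F q) x.2) = guE (1 : GU n F q) (Ψ x)
        rw [h1, h1, h1]
      map_mul' := fun p p' => by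
        apply ext_GU
        intro v
        have h2 : ∀ (k : ℕ) (g g' : GU k F q) (a : Fin k → F), guE (g * g') a = guE g (guE g' a) := fun k g g' a => by
          rw [guE_apply, guE_apply, guE_apply]
          show ((g.1 * g'.1 : GL (Fin k) F) : Matrix (Fin k) (Fin k) F) *ᵥ a = _
          rw [Units.val_mul, Matrix.mulVec_mulVec]
        rw [guOf_apply, h2, guOf_apply, guOf_apply]
        obtain ⟨x, rfl⟩ := Ψ.surjective v
        rw [hΘ₀, hΘ₀, hΘ₀]
        show Ψ (guE (p.1 * p'.1) x.1, guE (p.2 * p'.2) x.2) = _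
        rw [h2, h2] }
  have hf : ∀ p v, guE (f p) v = Θ₀ p v := fun p v => guOf_apply hF (Θ₀ p) (hiso p) v
  have hmem : ∀ p, f p ∈ MulAction.stabilizer (GU n F q) W₀ := by
    intro p
    rw [MulAction.mem_stabilizer_iff]
    apply Subtype.ext
    show W₀.1.map (guE (f p) : (Fin n → F) →ₗ[F] (Fin n → F)) = W₀.1
    apply Submodule.eq_of_le_of_finrank_eq
    · rintro _ ⟨u, hu, rfl⟩
      obtain ⟨x, rfl⟩ := Ψ.surjective u
      have hx := (h₀' x).1 hu
      show guE (f p) (Ψ x) ∈ W₀.1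
      rw [hf, hΘ₀, h₀']
      show guE p.2 x.2 = 0
      rw [hx, map_zero]
    · exact LinearEquiv.finrank_map_eq _ _
  let f' := MonoidHom.codRestrict f (MulAction.stabilizer (GU n F q) W₀) hmem
  have hinj : Function.Injective f' := by
    intro p p' he
    have h3 : f p = f p' := congrArg Subtype.val he
    have h4 : ∀ x : (Fin m → F) × (Fin (n - m) → F), Ψ (guE p.1 x.1, guE p.2 x.2) = Ψ (guE p'.1 x.1, guE p'.2 x.2) := by
      intro x
      rw [← hΘ₀, ← hΘ₀, ← hf, ← hf, h3]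
    apply Prod.ext
    · apply ext_GU
      intro v
      have := congrArg Prod.fst (Ψ.injective (h4 (v, 0)))
      exact this
    · apply ext_GU
      intro v
      have := congrArg Prod.snd (Ψ.injective (h4 (0, v)))
      exact this
  have := Subgroup.card_dvd_of_injective f' hinj
  rwa [Nat.card_prod] at this

/-- The divisibility. -/
theorem exists_j_herm {r : ℕ} [hr : Fact r.Prime] (hrq : ¬ r ∣ q) (hm : m ≤ n) (hN : r ∣ Nat.card (OmH n m F q)) :
    ∃ j, n - m < j ∧ j ≤ n ∧ (r : ℤ) ∣ (q : ℤ) ^ j - (-1) ^ j := by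
  classical
  have hq2 := Cfsg.Agent.Lib.HermCount.two_le_q hF
  have hH := hermHS (n := n) hF
  obtain ⟨W, -, hWnd, hWfin⟩ := exists_nd_sub hH m ⊤ (herm_nd hF) (by rwa [finrank_top, Module.finrank_fin_fun])
  let W₀ : OmH n m F q := ⟨W, hWfin, om_of_ndh hWnd⟩
  obtain ⟨s, hs⟩ := card_dvd_stabH hF hm W₀
  have hidx : (MulAction.stabilizer (GU n F q) W₀).index = Nat.card (OmH n m F q) := by
    rw [MulAction.index_stabilizer, omH_orbit hF hm W₀, Set.ncard_univ]
  have h0 := Subgroup.card_mul_index (MulAction.stabilizer (GU n F q) W₀)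
  rw [hs, hidx] at h0
  have h0' : ((Nat.card (GU m F q) : ℤ) * (Nat.card (GU (n - m) F q) : ℤ) * (s : ℤ)) * (Nat.card (OmH n m F q) : ℤ) = (Nat.card (GU n F q) : ℤ) := by
    exact_mod_cast h0
  rw [Cfsg.Agent.Lib.GUField.card_GU_int hF n, Cfsg.Agent.Lib.GUField.card_GU_int hF (n - m)] at h0'
  have hfin : ∀ k : ℕ, ∏ i : Fin k, ((q : ℤ) ^ ((i : ℕ) + 1) - (-1) ^ ((i : ℕ) + 1)) =
      ∏ i ∈ Finset.range k, ((q : ℤ) ^ (i + 1) - (-1) ^ (i + 1)) := fun k =>
    Fin.prod_univ_eq_prod_range (fun i => ((q : ℤ) ^ (i + 1) - (-1) ^ (i + 1))) k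
  rw [hfin, hfin] at h0'
  have hsplit : ∏ i ∈ Finset.range n, ((q : ℤ) ^ (i + 1) - (-1) ^ (i + 1)) =
      (∏ i ∈ Finset.range (n - m), ((q : ℤ) ^ (i + 1) - (-1) ^ (i + 1))) * ∏ i ∈ Finset.Ico (n - m) n, ((q : ℤ) ^ (i + 1) - (-1) ^ (i + 1)) :=
    (Finset.prod_range_mul_prod_Ico _ (by omega)).symm
  have hne : ∏ i ∈ Finset.range (n - m), ((q : ℤ) ^ (i + 1) - (-1) ^ (i + 1)) ≠ 0 := by
    apply Finset.prod_ne_zero_iff.2
    intro i _ h
    have h1 : (q : ℤ) ^ (i + 1) = (-1) ^ (i + 1) := sub_eq_zero.1 h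
    have h2 := congrArg (fun a : ℤ => |a|) h1
    simp only [abs_pow, abs_neg, abs_one, one_pow, Nat.abs_cast] at h2
    have h3 : (1 : ℤ) < (q : ℤ) ^ (i + 1) := by
      have : 1 < q ^ (i + 1) := Nat.one_lt_pow (by omega) (by omega)
      exact_mod_cast this
    omega
  rw [hsplit] at h0'
  have h5 : ((Nat.card (GU m F q) : ℤ) * (q : ℤ) ^ ((n - m) * (n - m - 1) / 2) * (s : ℤ)) * (Nat.card (OmH n m F q) : ℤ) =
      (q : ℤ) ^ (n * (n - 1) / 2) * ∏ i ∈ Finset.Ico (n - m) n, ((q : ℤ) ^ (i + 1) - (-1) ^ (i + 1)) := by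
    apply mul_right_cancel₀ hne
    calc _ = _ := by ring
      _ = _ := h0'
      _ = _ := by ring
  have hrp : Prime (r : ℤ) := Nat.prime_iff_prime_int.1 hr.out
  have h6 : (r : ℤ) ∣ (q : ℤ) ^ (n * (n - 1) / 2) * ∏ i ∈ Finset.Ico (n - m) n, ((q : ℤ) ^ (i + 1) - (-1) ^ (i + 1)) := by
    rw [← h5]
    exact Dvd.dvd.mul_left (by exact_mod_cast hN) _
  rcases hrp.dvd_or_dvd h6 with h7 | h7
  · exact absurd (Int.natCast_dvd_natCast.1 (hrp.dvd_of_dvd_pow h7)) hrq
  · obtain ⟨i, hi, hi2⟩ := (Prime.dvd_finsetProd_iff hrp _).1 h7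
    have := Finset.mem_Ico.1 hi
    exact ⟨i + 1, by omega, by omega, hi2⟩

end count

end Cfsg.Agent.Lib.HSBase
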