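import Mathlib
import Cfsg.Agent.Lib.HSTrans

/-!
# Eigenvectors in Hermitian spaces, and involutions
-/

set_option autoImplicit false

namespace Cfsg.Agent.Lib.HSBase

open Polynomial Module Matrix
open Cfsg.Agent.Lib.IsomBlock (InvOn FixFree SimpleOn fixS mem_fixS fixS_le inv_fixS inv_pow inv_inf)
open Cfsg

set_option linter.unusedSimpArgs false
set_option linter.unusedVariables false
set_option linter.unusedSectionVars false

variable {F : Type*} [Field F] [Fintype F] {q : ℕ} {V : Type*} [AddCommGroup V] [Module F V] [FiniteDimensional F V] {H : V → V → F}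

/-- Averaging gives eigenvectors. -/
theorem avg_eig {T : V →ₗ[F] V} {r : ℕ} (hTr : T ^ r = 1) {ξ : F} (hξ : ξ ^ r = 1) (e : V) :
    (ξ • T) (∑ j ∈ Finset.range r, ξ ^ j • (T ^ j) e) = ∑ j ∈ Finset.range r, ξ ^ j • (T ^ j) e := by
  have h1 : (ξ • T) (∑ j ∈ Finset.range r, ξ ^ j • (T ^ j) e) = ∑ j ∈ Finset.range r, ξ ^ (j + 1) • (T ^ (j + 1)) e := by
    rw [map_sum]
    refine Finset.sum_congr rfl fun j _ => ?_
    rw [LinearMap.smul_apply, map_smul, smul_smul, pow_succ', pow_succ' T, Module.End.mul_apply]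
  rw [h1]
  have h2 := Finset.sum_range_succ (fun j => ξ ^ j • (T ^ j) e) r
  have h3 := Finset.sum_range_succ' (fun j => ξ ^ j • (T ^ j) e) r
  rw [h2, hξ, hTr] at h3
  simp only [pow_zero, one_smul, Module.End.one_apply] at h3
  exact (add_right_cancel h3).symm

/-- Nondegenerate invariant subspaces contain nonisotropic eigenvectors when the roots of unity exist. -/
theorem exists_eig (hH : HS q H) {T : V →ₗ[F] V} {r : ℕ} [hr : Fact r.Prime] (hrF : (r : F) ≠ 0) {ζ : F} (hζ1 : ζ ≠ 1) (hζr : ζ ^ r = 1)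
    (hζn : ζ ^ (q + 1) = 1) (hiso : ∀ u v, H (T u) (T v) = H u v) (hTr : T ^ r = 1) (U : Submodule F V) (hU : NDH H U) (hinv : InvOn T U)
    (hne : U ≠ ⊥) : ∃ u ∈ U, H u u ≠ 0 ∧ ∃ c : F, T u = c • u := by
  classical
  have hr0 : r ≠ 0 := hr.out.ne_zero
  have hζ0 : ζ ≠ 0 := by
    rintro rfl
    rw [zero_pow hr0] at hζr
    exact zero_ne_one hζr
  have hord : orderOf ζ = r := orderOf_eq_prime hζr hζ1
  obtain ⟨e, heU, hee⟩ := exists_noniso hH hU hne
  let ξ : ℕ → F := fun l => ζ ^ ((r - 1) * l)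
  have hξr : ∀ l, ξ l ^ r = 1 := by
    intro l
    simp only [ξ]
    rw [← pow_mul, mul_comm, pow_mul, hζr, one_pow]
  have hξζ : ∀ l, ξ l * ζ ^ l = 1 := by
    intro l
    simp only [ξ]
    rw [← pow_add]
    have : (r - 1) * l + l = r * l := by
      have := hr.out.one_lt
      obtain ⟨s, rfl⟩ : ∃ s, r = s + 1 := ⟨r - 1, by omega⟩
      simp only [Nat.add_sub_cancel]
      ring
    rw [this, pow_mul, hζr, one_pow]
  let uu : ℕ → V := fun l => ∑ j ∈ Finset.range r, ξ l ^ j • (T ^ j) e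
  have huU : ∀ l, uu l ∈ U := fun l => U.sum_mem fun j _ => U.smul_mem _ (inv_pow hinv j heU)
  have hTu : ∀ l, T (uu l) = ζ ^ l • uu l := by
    intro l
    have h1 := avg_eig hTr (hξr l) e
    have h2 : (ξ l • T) (uu l) = uu l := h1
    rw [LinearMap.smul_apply] at h2
    calc T (uu l) = (ζ ^ l * ξ l) • T (uu l) := by rw [mul_comm, hξζ, one_smul]
      _ = ζ ^ l • (ξ l • T (uu l)) := by rw [smul_smul]
      _ = ζ ^ l • uu l := by rw [h2]
  by_cases hall : ∃ l, H (uu l) (uu l) ≠ 0
  · obtain ⟨l, hl⟩ := hall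
    exact ⟨uu l, huU l, hl, ζ ^ l, hTu l⟩
  exfalso
  push Not at hall
  have hcross : ∀ l ∈ Finset.range r, ∀ l' ∈ Finset.range r, H (uu l) (uu l') = 0 := by
    intro l hl l' hl'
    by_cases he : l = l'
    · subst he
      exact hall l
    have h1 := hiso (uu l) (uu l')
    rw [hTu, hTu, hH.smul_left, hH.smul_right] at h1
    have hz : (ζ ^ l') ^ q * ζ ^ l' = 1 := by
      rw [← pow_mul, ← pow_add]
      have : l' * q + l' = (q + 1) * l' := by ring
      rw [this, pow_mul, hζn, one_pow]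
    have h2 : (ζ ^ l - ζ ^ l') * H (uu l) (uu l') = 0 := by
      linear_combination (ζ ^ l * H (uu l) (uu l')) * (-hz) + (ζ ^ l') * h1
    have hne' : ζ ^ l ≠ ζ ^ l' := by
      intro h
      apply he
      have hinj := pow_injOn_Iio_orderOf (x := ζ)
      rw [hord] at hinj
      exact hinj (by simpa using hl) (by simpa using hl') h
    exact (mul_eq_zero.1 h2).resolve_left (sub_ne_zero.2 hne')
  have hsum : ∑ l ∈ Finset.range r, uu l = (r : F) • e := by
    simp only [uu]
    rw [Finset.sum_comm, Finset.sum_eq_single 0]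
    · simp [Nat.cast_smul_eq_nsmul]
    · intro j hj hj0
      rw [← Finset.sum_smul]
      have hjr := Finset.mem_range.1 hj
      have hgeom : ∑ l ∈ Finset.range r, ξ l ^ j = 0 := by
        have h1 : ∀ l, ξ l ^ j = (ζ ^ ((r - 1) * j)) ^ l := by
          intro l
          simp only [ξ]
          rw [← pow_mul, ← pow_mul]
          congr 1
          ring
        simp only [h1]
        set a := ζ ^ ((r - 1) * j) with ha
        have hane : a ≠ 1 := by
          intro h
          have h2 : orderOf ζ ∣ (r - 1) * j := orderOf_dvd_of_pow_eq_one h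
          rw [hord] at h2
          rcases (Nat.Prime.dvd_mul hr.out).1 h2 with h3 | h3
          · have := Nat.le_of_dvd (by have := hr.out.one_lt; omega) h3
            omega
          · have := Nat.le_of_dvd (by omega) h3
            omega
        have har : a ^ r = 1 := by
          rw [ha, ← pow_mul, mul_comm, pow_mul, hζr, one_pow]
        have h2 := geom_sum_mul a r
        rw [har, sub_self] at h2
        exact (mul_eq_zero.1 h2).resolve_right (sub_ne_zero.2 hane)
      rw [hgeom, zero_smul]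
    · intro h
      exact absurd (Finset.mem_range.2 (Nat.pos_of_ne_zero hr0)) h
  have h0 : H ((r : F) • e) ((r : F) • e) = 0 := by
    rw [← hsum, hH.sum_left]
    refine Finset.sum_eq_zero fun l hl => ?_
    rw [hH.sum_right]
    exact Finset.sum_eq_zero fun l' hl' => hcross l hl l' hl'
  rw [hH.smul_left, hH.smul_right] at h0
  rcases mul_eq_zero.1 h0 with h1 | h1
  · exact hrF h1
  · rcases mul_eq_zero.1 h1 with h2 | h2
    · exact hrF (pow_eq_zero_iff (by have := hH.two_le; omega) |>.1 h2)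
    · exact hee h2

theorem finrank_le_of_pair (hH : HS q H) {A B : Submodule F V} (h : ∀ a ∈ A, (∀ b ∈ B, H a b = 0) → a = 0) : finrank F A ≤ finrank F B := by
  classical
  let Φ : A → (B →ₗ[F] F) := fun a =>
    { toFun := fun b => H b.1 a.1
      map_add' := fun x y => hH.add_left _ _ _
      map_smul' := fun c x => hH.smul_left _ _ _ }
  have hΦ : ∀ a b, Φ a b = H b.1 a.1 := fun a b => rfl
  have hΦi : Function.Injective Φ := by
    intro a a' hh
    have h0 : a.1 - a'.1 = 0 := by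
      apply h _ (A.sub_mem a.2 a'.2)
      intro b hb
      apply hH.refl
      rw [hH.sub_right]
      have := LinearMap.congr_fun hh ⟨b, hb⟩
      simp only [hΦ] at this
      rw [this, sub_self]
    exact Subtype.ext (sub_eq_zero.1 h0)
  haveI : Finite (B →ₗ[F] F) := Module.finite_of_finite F
  have hcard := Nat.card_le_card_of_injective Φ hΦi
  rw [Module.natCard_eq_pow_finrank (K := F) (V := B →ₗ[F] F), Module.natCard_eq_pow_finrank (K := F) (V := A),
    Subspace.dual_finrank_eq] at hcard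
  exact (Nat.pow_le_pow_iff_right Finite.one_lt_card).1 hcard

omit [Fintype F] [FiniteDimensional F V] in
theorem det_split [FiniteDimensional F V] {A B : Submodule F V} (hc : IsCompl A B) {y : V →ₗ[F] V} (hA : ∀ a ∈ A, y a = a) (hB : ∀ b ∈ B, y b = -b) :
    LinearMap.det y = (-1) ^ finrank F B := by
  classical
  let E : (A × B) ≃ₗ[F] V := Submodule.prodEquivOfIsCompl A B hc
  have hE : ∀ a b, E (a, b) = (a : V) + (b : V) := fun a b => rfl
  let y₀ : (A × B) →ₗ[F] (A × B) := LinearMap.prodMap LinearMap.id ((-1 : F) • LinearMap.id)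
  have hy : y = (E : (A × B) →ₗ[F] V) ∘ₗ y₀ ∘ₗ (E.symm : V →ₗ[F] (A × B)) := by
    apply LinearMap.ext
    intro v
    obtain ⟨⟨a, b⟩, rfl⟩ := E.surjective v
    simp only [LinearMap.comp_apply, LinearEquiv.coe_coe, LinearEquiv.symm_apply_apply]
    show y (E (a, b)) = E (a, (-1 : F) • b)
    rw [hE, hE, map_add, hA a a.2, hB b b.2]
    simp
  rw [hy, LinearMap.det_conj, LinearMap.det_prodMap, LinearMap.det_id, one_mul, LinearMap.det_smul, LinearMap.det_id, mul_one]

section eps

variable {y : V →ₗ[F] V}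

theorem eps_perp (hH : HS q H) (hy : ∀ v, y (y v) = v) (hε : ∀ u v, H (y u) (y v) = - H u v) {U : Submodule F V} (hU : InvOn y U) : InvOn y (perpH hH U) := by
  intro v hv w hw
  have h1 := hε (y w) v
  rw [hy, hv _ (hU w hw)] at h1
  exact by
    have h2 : H w (y v) = 0 := by
      linear_combination h1
    exact h2

theorem eps_ti (hH : HS q H) (h2 : (2 : F) ≠ 0) (hε : ∀ u v, H (y u) (y v) = - H u v) {δ : F} (hδ : δ = 1 ∨ δ = -1) {a b : V}
    (ha : y a = δ • a) (hb : y b = δ • b) : H a b = 0 := by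
  have hσ : δ ^ q = δ := by
    rcases hδ with rfl | rfl
    · exact one_pow q
    · rw [Cfsg.Agent.Lib.UnitaryBasic.neg_pow_q hH.card, one_pow]
  have hδδ : δ * δ = 1 := by
    rcases hδ with rfl | rfl <;> ring
  have h1 := hε a b
  rw [ha, hb, hH.smul_left, hH.smul_right, hσ, ← mul_assoc, hδδ, one_mul] at h1
  have h3 : (2 : F) * H a b = 0 := by linear_combination h1
  exact (mul_eq_zero.1 h3).resolve_left h2

/-- The two eigenspaces inside an invariant subspace. -/
theorem eps_split (hH : HS q H) (h2 : (2 : F) ≠ 0) (hy : ∀ v, y (y v) = v) (hε : ∀ u v, H (y u) (y v) = - H u v) {W : Submodule F V}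
    (hW : NDH H W) (hinv : InvOn y W) :
    ∃ A B : Submodule F V, A ≤ W ∧ B ≤ W ∧ Disjoint A B ∧ A ⊔ B = W ∧ (∀ a ∈ A, y a = a) ∧ (∀ b ∈ B, y b = -b) ∧ finrank F A = finrank F B := by
  classical
  let A : Submodule F V := W ⊓ LinearMap.ker (y - 1)
  let B : Submodule F V := W ⊓ LinearMap.ker (y + 1)
  have hmA : ∀ a, a ∈ A ↔ a ∈ W ∧ y a = a := by
    intro a
    simp [A, sub_eq_zero]
  have hmB : ∀ b, b ∈ B ↔ b ∈ W ∧ y b = -b := by
    intro b
    simp [B, add_eq_zero_iff_eq_neg]
  have hdisj : Disjoint A B := by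
    rw [Submodule.disjoint_def]
    intro v hv hv2
    have h3 := ((hmA v).1 hv).2
    have h4 := ((hmB v).1 hv2).2
    have h5 : (2 : F) • v = 0 := by
      rw [two_smul]
      nth_rewrite 1 [← h3]
      rw [h4]
      abel
    exact (smul_eq_zero.1 h5).resolve_left h2
  have hsup : A ⊔ B = W := by
    apply le_antisymm (sup_le inf_le_left inf_le_left)
    intro v hv
    have h3 : v = (2 : F)⁻¹ • (v + y v) + (2 : F)⁻¹ • (v - y v) := by
      rw [← smul_add]
      have : v + y v + (v - y v) = (2 : F) • v := by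
        rw [two_smul]
        abel
      rw [this, smul_smul, inv_mul_cancel₀ h2, one_smul]
    rw [h3]
    apply Submodule.add_mem_sup
    · rw [hmA]
      refine ⟨W.smul_mem _ (W.add_mem hv (hinv v hv)), ?_⟩
      rw [map_smul, map_add, hy, add_comm]
    · rw [hmB]
      refine ⟨W.smul_mem _ (W.sub_mem hv (hinv v hv)), ?_⟩
      rw [map_smul, map_sub, hy, ← smul_neg, neg_sub]
  have hAA : ∀ a ∈ A, ∀ a' ∈ A, H a a' = 0 := by
    intro a ha a' ha'
    exact eps_ti hH h2 hε (δ := 1) (Or.inl rfl) (by rw [one_smul]; exact ((hmA a).1 ha).2) (by rw [one_smul]; exact ((hmA a').1 ha').2)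
  have hBB : ∀ a ∈ B, ∀ a' ∈ B, H a a' = 0 := by
    intro a ha a' ha'
    exact eps_ti hH h2 hε (δ := -1) (Or.inr rfl) (by rw [neg_one_smul]; exact ((hmB a).1 ha).2) (by rw [neg_one_smul]; exact ((hmB a').1 ha').2)
  have h3 : finrank F A ≤ finrank F B := by
    apply finrank_le_of_pair hH
    intro a ha hb
    apply hW a ((hmA a).1 ha).1
    intro w hw
    rw [← hsup] at hw
    obtain ⟨x, hx, z, hz, rfl⟩ := Submodule.mem_sup.1 hw
    rw [hH.add_right, hAA a ha x hx, hb z hz, add_zero]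
  have h4 : finrank F B ≤ finrank F A := by
    apply finrank_le_of_pair hH
    intro a ha hb
    apply hW a ((hmB a).1 ha).1
    intro w hw
    rw [← hsup] at hw
    obtain ⟨x, hx, z, hz, rfl⟩ := Submodule.mem_sup.1 hw
    rw [hH.add_right, hBB a ha z hz, hb x hx, add_zero]
  exact ⟨A, B, inf_le_left, inf_le_left, hdisj, hsup, fun a ha => ((hmA a).1 ha).2, fun b hb => ((hmB b).1 hb).2, le_antisymm h3 h4⟩

theorem eps_even (hH : HS q H) (h2 : (2 : F) ≠ 0) (hy : ∀ v, y (y v) = v) (hε : ∀ u v, H (y u) (y v) = - H u v) {W : Submodule F V}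
    (hW : NDH H W) (hinv : InvOn y W) : Even (finrank F W) := by
  obtain ⟨A, B, -, -, hd, hs, -, -, he⟩ := eps_split hH h2 hy hε hW hinv
  have h1 := Submodule.finrank_sup_add_finrank_inf_eq A B
  rw [hs, hd.eq_bot, finrank_bot, add_zero] at h1
  exact ⟨finrank F A, by omega⟩

/-- Hyperbolic planes. -/
theorem eps_plane (hH : HS q H) (h2 : (2 : F) ≠ 0) (hy : ∀ v, y (y v) = v) (hε : ∀ u v, H (y u) (y v) = - H u v) {U : Submodule F V}
    (hU : NDH H U) (hinv : InvOn y U) (hne : U ≠ ⊥) : ∃ W ≤ U, NDH H W ∧ InvOn y W ∧ finrank F W = 2 := by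
  classical
  obtain ⟨u₀, hu₀, hu₀0⟩ := (Submodule.ne_bot_iff U).1 hne
  obtain ⟨δ, hδ, u, huU, hu0, hyu⟩ : ∃ δ : F, (δ = 1 ∨ δ = -1) ∧ ∃ u ∈ U, u ≠ 0 ∧ y u = δ • u := by
    by_cases h : u₀ + y u₀ = 0
    · refine ⟨-1, Or.inr rfl, u₀, hu₀, hu₀0, ?_⟩
      rw [neg_one_smul]
      exact eq_neg_of_add_eq_zero_right h
    · refine ⟨1, Or.inl rfl, u₀ + y u₀, U.add_mem hu₀ (hinv _ hu₀), h, ?_⟩
      rw [map_add, hy, one_smul, add_comm]
  have hσ : δ ^ q = δ := by
    rcases hδ with rfl | rfl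
    · exact one_pow q
    · rw [Cfsg.Agent.Lib.UnitaryBasic.neg_pow_q hH.card, one_pow]
  have hδδ : δ * δ = 1 := by
    rcases hδ with rfl | rfl <;> ring
  obtain ⟨w₀, hw₀, huw₀⟩ : ∃ w₀ ∈ U, H u w₀ ≠ 0 := by
    by_contra hall
    push Not at hall
    exact hu0 (hU u huU hall)
  let w : V := w₀ - δ • y w₀
  have hwU : w ∈ U := U.sub_mem hw₀ (U.smul_mem _ (hinv _ hw₀))
  have hyw : y w = (-δ) • w := by
    simp only [w]
    rw [map_sub, map_smul, hy, smul_sub, smul_smul, neg_mul, hδδ, neg_smul, neg_smul, one_smul]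
    abel
  have huw : H u w = 2 * H u w₀ := by
    have h1 := hε u (y w₀)
    rw [hyu, hy, hH.smul_left] at h1
    simp only [w]
    rw [hH.sub_right, hH.smul_right, hσ]
    linear_combination (-δ) * h1 + (H u w₀) * hδδ
  have huw0 : H u w ≠ 0 := by
    rw [huw]
    exact mul_ne_zero h2 huw₀
  have hwu0 : H w u ≠ 0 := fun h => huw0 (hH.refl h)
  have huu : H u u = 0 := eps_ti hH h2 hε hδ hyu hyu
  have hww : H w w = 0 := eps_ti hH h2 hε (δ := -δ) (by
    rcases hδ with rfl | rfl
    · exact Or.inr rfl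
    · exact Or.inl (neg_neg _)) hyw hyw
  let P : Submodule F V := Submodule.span F (Set.range ![u, w])
  have hli : LinearIndependent F ![u, w] := by
    rw [LinearIndependent.pair_iff]
    intro a b hab
    have h1 := congrArg (fun z => H z w) hab
    have h3 := congrArg (fun z => H z u) hab
    simp only [hH.add_left, hH.smul_left, huu, hww, mul_zero, add_zero, zero_add, hH.zero_left] at h1 h3
    exact ⟨(mul_eq_zero.1 h1).resolve_right huw0, (mul_eq_zero.1 h3).resolve_right hwu0⟩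
  have hPfin : finrank F P = 2 := by
    have := finrank_span_eq_card hli
    simpa using this
  have hmemP : ∀ z ∈ P, ∃ a b : F, z = a • u + b • w := by
    intro z hz
    simp only [P, Matrix.range_cons, Matrix.range_empty, Set.union_empty, Set.singleton_union] at hz
    obtain ⟨a, b, rfl⟩ := Submodule.mem_span_pair.mp hz
    exact ⟨a, b, rfl⟩
  have huP : u ∈ P := Submodule.subset_span ⟨0, rfl⟩
  have hwP : w ∈ P := Submodule.subset_span ⟨1, rfl⟩
  refine ⟨P, ?_, ?_, ?_, hPfin⟩
  · apply Submodule.span_le.mpr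
    rintro _ ⟨i, rfl⟩
    fin_cases i
    · exact huU
    · exact hwU
  · intro z hz h0
    obtain ⟨a, b, rfl⟩ := hmemP z hz
    have h1 := h0 w hwP
    have h3 := h0 u huP
    simp only [hH.add_left, hH.smul_left, huu, hww, mul_zero, add_zero, zero_add] at h1 h3
    rw [(mul_eq_zero.1 h1).resolve_right huw0, (mul_eq_zero.1 h3).resolve_right hwu0]
    simp
  · intro z hz
    obtain ⟨a, b, rfl⟩ := hmemP z hz
    rw [map_add, map_smul, map_smul, hyu, hyw]
    exact P.add_mem (P.smul_mem a (P.smul_mem _ huP)) (P.smul_mem b (P.smul_mem _ hwP))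

end eps

section main

theorem isSquare_of_norm_one (hF : Fintype.card F = q ^ 2) (hodd : Odd q) (h2 : (2 : F) ≠ 0) {z : F} (hz : z ^ (q + 1) = 1) : ∃ w : F, w * w = z := by
  have hz0 : z ≠ 0 := by
    rintro rfl
    rw [zero_pow (by omega)] at hz
    exact zero_ne_one hz
  have hc : ringChar F ≠ 2 := by
    intro h
    apply h2
    have := ringChar.Nat.cast_ringChar (R := F)
    rw [h] at this
    exact_mod_cast this
  obtain ⟨t, ht⟩ := hodd
  have h1 : Fintype.card F / 2 = (q + 1) * t := by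
    rw [hF, ht]
    have : (2 * t + 1) ^ 2 = 2 * ((2 * t + 1 + 1) * t) + 1 := by ring
    rw [this]
    omega
  obtain ⟨w, hw⟩ := (FiniteField.isSquare_iff hc hz0).2 (by rw [h1, pow_mul, hz, one_pow])
  exact ⟨w, hw.symm⟩

/-- The exponent obstruction. -/
theorem exp_contra (h2 : (2 : F) ≠ 0) {n d : ℕ} (hn : n = 2 * d) (hd : 0 < d) {w : F} (hw : w ^ (q + 1) = -1) (hdet : w ^ n * (-1) ^ d = 1)
    (hv : padicValNat 2 n ≤ padicValNat 2 (q + 1)) (hq4 : q % 4 = 3) : False := by
  haveI : Fact (Nat.Prime 2) := ⟨Nat.prime_two⟩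
  have hn0 : n ≠ 0 := by omega
  set e := padicValNat 2 n with he
  obtain ⟨n₁, hn₁⟩ : 2 ^ e ∣ n := pow_padicValNat_dvd
  have hn₁odd : Odd n₁ := by
    rw [← Nat.not_even_iff_odd]
    rintro ⟨t, ht⟩
    have : 2 ^ (e + 1) ∣ n := ⟨t, by rw [hn₁, ht]; ring⟩
    exact pow_succ_padicValNat_not_dvd hn0 this
  obtain ⟨X, hX⟩ : 2 ^ e ∣ q + 1 := (padicValNat_dvd_iff_le (by omega)).2 hv
  have h3 : n * X = (q + 1) * n₁ := by
    rw [hn₁, hX]
    ring
  have h4 : (w ^ n) ^ X = -1 := by
    rw [← pow_mul, h3, pow_mul, hw, hn₁odd.neg_one_pow]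
  have hd1 : w ^ n = (-1) ^ d := by
    have h5 : ((-1 : F) ^ d) * (-1) ^ d = 1 := by
      rw [← mul_pow]
      simp
    calc w ^ n = w ^ n * ((-1 : F) ^ d * (-1) ^ d) := by rw [h5, mul_one]
      _ = (w ^ n * (-1) ^ d) * (-1) ^ d := by ring
      _ = (-1) ^ d := by rw [hdet, one_mul]
  rw [hd1, ← pow_mul] at h4
  have h5 : Even (d * X) := by
    obtain ⟨t, ht⟩ : 4 ∣ q + 1 := by omega
    refine ⟨t * n₁, ?_⟩
    have h6 : 2 * (d * X) = 2 * (t * n₁ + t * n₁) := by
      calc 2 * (d * X) = n * X := by rw [hn]; ring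
        _ = (q + 1) * n₁ := h3
        _ = 2 * (t * n₁ + t * n₁) := by rw [ht]; ring
    omega
  rw [h5.neg_one_pow] at h4
  apply h2
  have h7 : (2 : F) = 1 - (-1) := by ring
  rw [h7, ← h4]
  ring

theorem fwdU2 (hH : HS q H) (hnd : NDH H (⊤ : Submodule F V)) (hodd : Odd q) (h2 : (2 : F) ≠ 0) {n m : ℕ} (hn : finrank F V = n) (hn0 : 0 < n) (hm : m ≤ n)
    {f : V →ₗ[F] V} (hiso : ∀ u v, H (f u) (f v) = H u v) (hdet : LinearMap.det f = 1) {z : F} (hz : f ^ 2 = z • 1)
    (hc : Odd n ∨ Even m ∨ (padicValNat 2 n ≤ padicValNat 2 (q + 1) ∧ q % 4 = 3)) :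
    ∃ W : Submodule F V, finrank F W = m ∧ NDH H W ∧ InvOn f W := by
  classical
  haveI : Fact (Nat.Prime 2) := ⟨Nat.prime_two⟩
  haveI : Nontrivial V := Module.nontrivial_of_finrank_pos (R := F) (by omega)
  have hzn := scalar_norm hH hnd hiso hz
  obtain ⟨w, hw⟩ := isSquare_of_norm_one hH.card hodd h2 hzn
  have hw0 : w ≠ 0 := by
    rintro rfl
    rw [zero_mul] at hw
    rw [← hw, zero_pow (by omega)] at hzn
    exact zero_ne_one hzn
  have hεε : (w ^ (q + 1)) * (w ^ (q + 1)) = 1 := by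
    rw [← mul_pow, hw, hzn]
  have hε : w ^ (q + 1) = 1 ∨ w ^ (q + 1) = -1 := by
    have h3 : (w ^ (q + 1) - 1) * (w ^ (q + 1) + 1) = 0 := by linear_combination hεε
    rcases mul_eq_zero.1 h3 with h4 | h4
    · exact Or.inl (sub_eq_zero.1 h4)
    · exact Or.inr (eq_neg_of_add_eq_zero_left h4)
  let y : V →ₗ[F] V := w⁻¹ • f
  have hyv : ∀ v, y v = w⁻¹ • f v := fun v => rfl
  have hff : ∀ v, f (f v) = z • v := by
    intro v
    have := LinearMap.congr_fun hz v
    simpa [pow_two] using this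
  have hy : ∀ v, y (y v) = v := by
    intro v
    rw [hyv, hyv, map_smul, hff, smul_smul, smul_smul, ← hw]
    have : w⁻¹ * w⁻¹ * (w * w) = 1 := by field_simp
    rw [this, one_smul]
  have hform : ∀ u v, H (y u) (y v) = (w⁻¹) ^ (q + 1) * H u v := by
    intro u v
    rw [hyv, hyv, hH.smul_left, hH.smul_right, hiso, pow_succ (w⁻¹)]
    ring
  have hinvf : ∀ W : Submodule F V, InvOn y W → InvOn f W := by
    intro W h u hu
    have h1 := W.smul_mem w (h u hu)
    rw [hyv, smul_smul, mul_inv_cancel₀ hw0, one_smul] at h1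
    exact h1
  rcases hε with h1 | h1
  · have hisoy : ∀ u v, H (y u) (y v) = H u v := by
      intro u v
      rw [hform, _root_.inv_pow, h1, inv_one, one_mul]
    have hy2 : y ^ 2 = 1 := by
      apply LinearMap.ext
      intro v
      rw [pow_two, Module.End.mul_apply, hy]
      rfl
    have hnq : (-1 : F) ^ (q + 1) = 1 := by
      exact (hodd.add_one).neg_one_pow
    obtain ⟨W, -, h3, h4, h5⟩ := exists_sub_lines hH y (fun U hU => inv_perp hH hisoy (r := 2) (by norm_num) hy2 hU)
      (fun U hU hi hne => exists_eig hH (r := 2) (by exact_mod_cast h2) (ζ := -1) (by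
        intro h
        apply h2
        have : (2 : F) = 1 - (-1) := by ring
        rw [this, h]
        ring) (by ring) hnq hisoy hy2 U hU hi hne) m ⊤ hnd (fun _ _ => trivial) (by rwa [finrank_top, hn])
    exact ⟨W, h5, h3, hinvf W h4⟩
  · have hisoy : ∀ u v, H (y u) (y v) = - H u v := by
      intro u v
      rw [hform, _root_.inv_pow, h1]
      have : (-1 : F)⁻¹ = -1 := by norm_num
      rw [this]
      ring
    obtain ⟨A, B, -, -, hd, hs, hA, hB, he⟩ := eps_split hH h2 hy hisoy hnd (fun _ _ => trivial)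
    have hfin := Submodule.finrank_sup_add_finrank_inf_eq A B
    rw [hs, hd.eq_bot, finrank_bot, add_zero, finrank_top, hn] at hfin
    have hnd' : n = 2 * finrank F B := by omega
    have hcompl : IsCompl A B := ⟨hd, by rw [codisjoint_iff]; exact hs⟩
    have hdety : LinearMap.det y = (-1) ^ finrank F B := det_split hcompl hA hB
    have hfy : f = w • y := by
      apply LinearMap.ext
      intro v
      rw [LinearMap.smul_apply, hyv, smul_smul, mul_inv_cancel₀ hw0, one_smul]
    have hdet' : w ^ n * (-1) ^ finrank F B = 1 := by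
      have h5 : LinearMap.det (w • y) = 1 := by
        rw [← hfy]
        exact hdet
      rwa [LinearMap.det_smul, hn, hdety] at h5
    have hm2 : Even m := by
      rcases hc with hc | hc | ⟨hc1, hc2⟩
      · exfalso
        obtain ⟨t, ht⟩ := hc
        omega
      · exact hc
      · exact (exp_contra h2 hnd' (by omega) h1 hdet' hc1 hc2).elim
    obtain ⟨a, ha⟩ := hm2
    obtain ⟨W, -, h3, h4, h5⟩ := exists_sub_blocks hH y (fun U hU => eps_perp hH hy hisoy hU) (s := 2) (by norm_num)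
      (fun U hU hi hne _ => eps_plane hH h2 hy hisoy hU hi hne) a ⊤ hnd (fun _ _ => trivial) (by
        rw [finrank_top, hn]
        omega)
    exact ⟨W, by omega, h3, hinvf W h4⟩

/-- The counterexample from an element `w`. -/
theorem bwdU2 (hF : Fintype.card F = q ^ 2) (h2 : (2 : F) ≠ 0) {n d m : ℕ} (hn : n = 2 * d) (hm : Odd m) {w : F} (hw0 : w ≠ 0) (hw : w ^ (q + 1) = -1)
    (hdet : w ^ n * (-1) ^ d = 1) : ∃ f, BadF n m 2 F q f := by
  classical
  have hA := hermHS (n := d) hF
  let Hh : ((Fin d → F) × (Fin d → F)) → ((Fin d → F) × (Fin d → F)) → F := fun x y => hermForm d F q x.1 y.2 + hermForm d F q x.2 y.1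
  have hH : HS q Hh := by
    refine ⟨hF, ?_, ?_, ?_⟩
    · intro a b c
      simp only [Hh, Prod.fst_add, Prod.snd_add, hA.add_left]
      ring
    · intro k a c
      simp only [Hh, Prod.smul_fst, Prod.smul_snd, hA.smul_left]
      ring
    · intro a b
      simp only [Hh]
      rw [Cfsg.Agent.Lib.HermCount.add_pow_q hF, hA.conj, hA.conj]
      ring
  have hnd : NDH Hh (⊤ : Submodule F ((Fin d → F) × (Fin d → F))) := by
    intro x _ h0
    apply Prod.ext
    · apply herm_nd hF x.1 trivial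
      intro v _
      have := h0 (0, v) trivial
      simp only [Hh] at this
      rwa [hA.zero_right, add_zero] at this
    · apply herm_nd hF x.2 trivial
      intro v _
      have := h0 (v, 0) trivial
      simp only [Hh] at this
      rwa [hA.zero_right, zero_add] at this
  let y : ((Fin d → F) × (Fin d → F)) →ₗ[F] ((Fin d → F) × (Fin d → F)) := LinearMap.prodMap LinearMap.id ((-1 : F) • LinearMap.id)
  have hyv : ∀ x : ((Fin d → F) × (Fin d → F)), y x = (x.1, -x.2) := fun x => by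
    apply Prod.ext
    · rfl
    · show (-1 : F) • x.2 = -x.2
      rw [neg_one_smul]
  have hy : ∀ v, y (y v) = v := by
    intro v
    rw [hyv, hyv]
    simp
  have hisoy : ∀ u v, Hh (y u) (y v) = - Hh u v := by
    intro u v
    rw [hyv, hyv]
    simp only [Hh]
    rw [hA.neg_right, hA.neg_left]
    ring
  have hσ : w ^ q * w = -1 := by rw [← pow_succ, hw]
  refine exists_bad_of_model hF hH hnd (by
    show finrank F ((Fin d → F) × (Fin d → F)) = n
    rw [Module.finrank_prod, Module.finrank_fin_fun, hn]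
    ring) (w • y) ?_ ?_ ⟨w ^ 2, ?_⟩ ?_
  · intro u v
    simp only [LinearMap.smul_apply]
    rw [hH.smul_left, hH.smul_right, hisoy]
    linear_combination (- Hh u v) * hσ
  · have hfin : finrank F ((Fin d → F) × (Fin d → F)) = n := by
      show finrank F ((Fin d → F) × (Fin d → F)) = n
      rw [Module.finrank_prod, Module.finrank_fin_fun, hn]
      ring
    rw [LinearMap.det_smul, hfin]
    have h1 : LinearMap.det y = (-1) ^ d := by
      show LinearMap.det (LinearMap.prodMap LinearMap.id ((-1 : F) • LinearMap.id) : ((Fin d → F) × (Fin d → F)) →ₗ[F] ((Fin d → F) × (Fin d → F))) = _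
      rw [LinearMap.det_prodMap, LinearMap.det_id, one_mul, LinearMap.det_smul, LinearMap.det_id, mul_one, Module.finrank_fin_fun]
    rw [h1, hdet]
  · rw [_root_.smul_pow, pow_two y]
    congr 1
    apply LinearMap.ext
    intro v
    rw [Module.End.mul_apply, hy]
    rfl
  · intro W hW hWnd hWinv
    have h1 : InvOn y W := by
      intro u hu
      have h3 := W.smul_mem w⁻¹ (hWinv u hu)
      rw [LinearMap.smul_apply, smul_smul, inv_mul_cancel₀ hw0, one_smul] at h3
      exact h3
    have h3 := eps_even hH h2 hy hisoy hWnd h1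
    rw [hW] at h3
    exact (Nat.not_even_iff_odd.2 hm) h3

theorem exists_w (hF : Fintype.card F = q ^ 2) (hodd : Odd q) (h2 : (2 : F) ≠ 0) : ∃ w : F, w ≠ 0 ∧ w ^ (2 ^ padicValNat 2 (q + 1)) = -1 := by
  classical
  haveI : Fact (Nat.Prime 2) := ⟨Nat.prime_two⟩
  have hq2 := Cfsg.Agent.Lib.HermCount.two_le_q hF
  set s := padicValNat 2 (q + 1) with hs
  obtain ⟨u, hu⟩ : 2 ^ s ∣ q + 1 := pow_padicValNat_dvd
  obtain ⟨t, ht⟩ := hodd
  have hM : q ^ 2 - 1 = 2 * (2 ^ s * (u * t)) := by
    have h1 : q ^ 2 - 1 = (q + 1) * (q - 1) := by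
      zify [Nat.one_le_pow 2 q (by omega), (by omega : 1 ≤ q)]
      ring
    have h3 : q - 1 = 2 * t := by omega
    rw [h1, hu, h3]
    ring
  obtain ⟨g, hg⟩ := IsCyclic.exists_generator (α := Fˣ)
  have hord : orderOf g = q ^ 2 - 1 := by
    rw [orderOf_eq_card_of_forall_mem_zpowers hg, Nat.card_eq_fintype_card, Fintype.card_units, hF]
  have hpos : 0 < 2 ^ s * (u * t) := by
    have : 0 < q ^ 2 - 1 := by
      have : 2 ^ 2 ≤ q ^ 2 := Nat.pow_le_pow_left hq2 2
      omega
    omega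
  set a : Fˣ := g ^ (2 ^ s * (u * t)) with ha
  have ha2 : a * a = 1 := by
    rw [ha, ← pow_add, ← two_mul, ← hM, ← hord, pow_orderOf_eq_one]
  have ha1 : a ≠ 1 := by
    rw [ha]
    apply pow_ne_one_of_lt_orderOf (by omega)
    rw [hord]
    omega
  refine ⟨((g ^ (u * t) : Fˣ) : F), Units.ne_zero _, ?_⟩
  have h1 : ((g ^ (u * t) : Fˣ) : F) ^ (2 ^ s) = (a : F) := by
    rw [ha, ← Units.val_pow_eq_pow_val, ← pow_mul, mul_comm]
  rw [h1]
  have h3 : ((a : F) - 1) * ((a : F) + 1) = 0 := by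
    have : (a : F) * a = 1 := by
      rw [← Units.val_mul, ha2, Units.val_one]
    linear_combination this
  rcases mul_eq_zero.1 h3 with h4 | h4
  · exfalso
    apply ha1
    exact Units.ext (sub_eq_zero.1 h4)
  · exact eq_neg_of_add_eq_zero_left h4

/-- The case `r = 2`, `p` odd. -/
theorem lhs_iff_two (hF : Fintype.card F = q ^ 2) (hodd : Odd q) {n m : ℕ} (hn : 0 < n) (hm : m ≤ n) :
    (∀ x : Matrix.SpecialLinearGroup (Fin n) F, x ∈ Cfsg.SU n F q →
      (∃ z : F, ((x ^ 2 : Matrix.SpecialLinearGroup (Fin n) F) : Matrix (Fin n) (Fin n) F) = z • (1 : Matrix (Fin n) (Fin n) F)) →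
      (∀ z : F, (x : Matrix (Fin n) (Fin n) F) ≠ z • (1 : Matrix (Fin n) (Fin n) F)) →
      ∃ W : Submodule F (Fin n → F), Module.finrank F ↥W = m ∧ (∀ u ∈ W, u ≠ 0 → ∃ v ∈ W, Cfsg.hermForm n F q u v ≠ 0) ∧
        W.map (Matrix.toLin' (x : Matrix (Fin n) (Fin n) F)) ≤ W) ↔
    (Odd n ∨ Even m ∨ (padicValNat 2 n ≤ padicValNat 2 (q + 1) ∧ q % 4 = 3)) := by
  classical
  haveI : Fact (Nat.Prime 2) := ⟨Nat.prime_two⟩
  have h2 := Cfsg.Agent.S5984.two_ne_zero_of_odd_q hF hodd
  have hH := hermHS (n := n) hF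
  constructor
  · intro h
    by_contra hc
    push Not at hc
    obtain ⟨h1, h3, h4⟩ := hc
    rw [Nat.not_odd_iff_even] at h1
    rw [Nat.not_even_iff_odd] at h3
    obtain ⟨d, hd⟩ := h1
    have hnd : n = 2 * d := by omega
    have hq4 : q % 4 = 1 ∨ q % 4 = 3 := by
      obtain ⟨t, ht⟩ := hodd
      omega
    rcases hq4 with hq4 | hq4
    · obtain ⟨w, hw⟩ : IsSquare (-1 : F) := by
        rw [FiniteField.isSquare_neg_one_iff, hF]
        have : q ^ 2 % 4 = 1 := by
          rw [Nat.pow_mod, hq4]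
        omega
      have hw0 : w ≠ 0 := by
        rintro rfl
        rw [mul_zero] at hw
        exact (neg_ne_zero.2 one_ne_zero) hw
      obtain ⟨u, hu⟩ : ∃ u, q + 1 = 2 * (2 * u + 1) := ⟨q / 4, by omega⟩
      have hww : w ^ 2 = -1 := by
        rw [pow_two]
        exact hw.symm
      have hq1 : w ^ (q + 1) = -1 := by
        rw [hu, pow_mul, hww]
        exact (odd_two_mul_add_one u).neg_one_pow
      obtain ⟨f, hf⟩ := bwdU2 hF h2 hnd h3 hw0 hq1 (by
        rw [hnd, pow_mul, hww, ← mul_pow]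
        simp)
      exact not_lhs_of_bad hF hm hf h
    · have h5 : ¬ padicValNat 2 n ≤ padicValNat 2 (q + 1) := fun h6 => h4 h6 hq4
      rw [not_le] at h5
      obtain ⟨w, hw0, hw⟩ := exists_w hF hodd h2
      set s := padicValNat 2 (q + 1) with hs
      obtain ⟨u, hu⟩ : 2 ^ s ∣ q + 1 := pow_padicValNat_dvd
      have huodd : Odd u := by
        rw [← Nat.not_even_iff_odd]
        rintro ⟨t, ht⟩
        have : 2 ^ (s + 1) ∣ q + 1 := ⟨t, by rw [hu, ht]; ring⟩
        exact pow_succ_padicValNat_not_dvd (by omega) this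
      have hs1 : 1 ≤ s := by
        rw [hs]
        by_contra h6
        have h7 : padicValNat 2 (q + 1) = 0 := by omega
        rw [padicValNat.eq_zero_iff] at h7
        rcases h7 with h7 | h7 | h7
        · omega
        · omega
        · omega
      obtain ⟨n₂, hn₂⟩ : 2 ^ (s + 1) ∣ n := (padicValNat_dvd_iff_le (by omega)).2 (by omega)
      have hq1 : w ^ (q + 1) = -1 := by
        rw [hu, pow_mul, hw, huodd.neg_one_pow]
      have hdeven : Even d := by
        obtain ⟨t, ht⟩ : ∃ t, s = t + 1 := ⟨s - 1, by omega⟩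
        refine ⟨2 ^ t * n₂, ?_⟩
        have h6 : 2 * d = 2 * (2 ^ t * n₂ + 2 ^ t * n₂) := by
          rw [← hnd, hn₂, ht]
          ring
        omega
      obtain ⟨f, hf⟩ := bwdU2 hF h2 hnd h3 hw0 hq1 (by
        have e : 2 ^ (s + 1) * n₂ = 2 ^ s * (2 * n₂) := by ring
        rw [hdeven.neg_one_pow, mul_one, hn₂, e, pow_mul, hw, pow_mul]
        simp)
      exact not_lhs_of_bad hF hm hf h
  · intro hc
    apply lhs_of_fwd hF
    rintro f hiso hdet ⟨z, hz⟩
    exact fwdU2 hH (herm_nd hF) hodd h2 (by rw [Module.finrank_fin_fun]) hn hm hiso hdet hz hc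

end main

end Cfsg.Agent.Lib.HSBase
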