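import Mathlib
import Cfsg.Agent.Lib.HSTwo

/-!
# Isometries whose `r`-th power is a scalar that is not a norm-one `r`-th power
-/

set_option autoImplicit false

namespace Cfsg.Agent.Lib.HSBase

open Polynomial Module Matrix
open Cfsg.Agent.Lib.IsomBlock (InvOn FixFree SimpleOn fixS mem_fixS fixS_le inv_fixS inv_pow inv_inf exists_irr_span inv_aeval)
open Cfsg.Agent.S5984 (HK HK_add HK_smul HK_herm HK_nd HK_mul)
open Cfsg

set_option linter.unusedSimpArgs false
set_option linter.unusedVariables false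
set_option linter.unusedSectionVars false

universe u

section root

variable {F : Type*} [Field F] {r : ℕ} {z : F}

theorem det_root_block {M : Type*} [AddCommGroup M] [Module F M] [FiniteDimensional F M] (hr : Odd r) (hP : Irreducible (X ^ r - C z : F[X]))
    (g : M →ₗ[F] M) (hg : g ^ r = z • 1) (hd : finrank F M = r) : LinearMap.det g = z := by
  have hr0 : r ≠ 0 := by
    rintro rfl
    simp at hr
  haveI : Nontrivial M := Module.nontrivial_of_finrank_pos (R := F) (by
    have := Nat.pos_of_ne_zero hr0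
    omega)
  have hmon : (X ^ r - C z : F[X]).Monic := monic_X_pow_sub_C z hr0
  have h0 : aeval g (X ^ r - C z : F[X]) = 0 := by
    simp [hg, Algebra.algebraMap_eq_smul_one]
  have h1 : (X ^ r - C z : F[X]) = minpoly F g := minpoly.eq_of_irreducible_of_monic hP h0 hmon
  have h2 : (X ^ r - C z : F[X]) ∣ g.charpoly := by
    rw [h1]
    exact LinearMap.minpoly_dvd_charpoly g
  have h3 : g.charpoly = (X ^ r - C z : F[X]) := by
    apply Polynomial.eq_of_monic_of_dvd_of_natDegree_le hmon (LinearMap.charpoly_monic g) h2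
    rw [LinearMap.charpoly_natDegree, hd, natDegree_X_pow_sub_C]
  rw [LinearMap.det_eq_sign_charpoly_coeff, h3, hd, hr.neg_one_pow]
  simp [coeff_X_pow, hr0, hr0.symm]

/-- Splitting off blocks: dimension and determinant. -/
theorem root_split (hr : Odd r) (hP : Irreducible (X ^ r - C z : F[X])) :
    ∀ (d : ℕ) (M : Type u) [AddCommGroup M] [Module F M] [FiniteDimensional F M] (g : M →ₗ[F] M), finrank F M = d → g ^ r = z • 1 →
      ∃ k, d = r * k ∧ LinearMap.det g = z ^ k := by
  intro d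
  induction d using Nat.strong_induction_on with
  | _ d ih =>
    intro M _ _ _ g hd hg
    have hr0 : r ≠ 0 := by
      rintro rfl
      simp at hr
    rcases Nat.eq_zero_or_pos d with rfl | hdpos
    · exact ⟨0, by simp, by rw [LinearMap.det_eq_one_of_finrank_eq_zero hd, pow_zero]⟩
    haveI : Nontrivial M := Module.nontrivial_of_finrank_pos (R := F) (by omega)
    obtain ⟨v, hv⟩ := exists_ne (0 : M)
    have h0 : aeval g (X ^ r - C z : F[X]) v = 0 := by
      have : aeval g (X ^ r - C z : F[X]) = 0 := by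
        simp [hg, Algebra.algebraMap_eq_smul_one]
      rw [this]
      rfl
    obtain ⟨U, -, hUinv, hUfin, hUk, -, -⟩ := exists_irr_span g _ hP v hv h0
    rw [natDegree_X_pow_sub_C] at hUfin
    have hle : U ≤ U.comap g := fun u hu => hUinv u hu
    have hdet := LinearMap.det_eq_det_mul_det U g hle
    have hres : (g.restrict hle) ^ r = z • 1 := by
      have h1 : ∀ (k : ℕ) (u : U), (((g.restrict hle) ^ k) u : M) = (g ^ k) u := by
        intro k
        induction k with
        | zero => simp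
        | succ k ih' =>
          intro u
          rw [pow_succ, pow_succ, Module.End.mul_apply, Module.End.mul_apply, ih']
          rfl
      apply LinearMap.ext
      intro u
      apply Subtype.ext
      rw [h1, hg]
      simp
    have hqt : (U.mapQ U g hle) ^ r = z • 1 := by
      have h1 : ∀ (k : ℕ) (u : M), ((U.mapQ U g hle) ^ k) (U.mkQ u) = U.mkQ ((g ^ k) u) := by
        intro k
        induction k with
        | zero => simp
        | succ k ih' =>
          intro u
          rw [pow_succ, pow_succ, Module.End.mul_apply, Module.End.mul_apply]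
          have : U.mkQ (g u) = (U.mapQ U g hle) (U.mkQ u) := rfl
          rw [← this, ih']
      apply LinearMap.ext
      intro x
      obtain ⟨u, rfl⟩ := U.mkQ_surjective x
      rw [h1, hg]
      simp
    have hqfin := Submodule.finrank_quotient_add_finrank U
    rw [hUfin, hd] at hqfin
    have hrpos : 0 < r := Nat.pos_of_ne_zero hr0
    obtain ⟨k, hk1, hk2⟩ := ih (finrank F (M ⧸ U)) (by omega) (M ⧸ U) (U.mapQ U g hle) rfl hqt
    refine ⟨k + 1, ?_, ?_⟩
    · rw [mul_add, ← hk1, mul_one]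
      omega
    · rw [hdet, det_root_block hr hP _ hres hUfin, hk2, pow_succ, mul_comm]

theorem dvd_finrank_of_root {V : Type u} [AddCommGroup V] [Module F V] [FiniteDimensional F V] (hr : Odd r) (hP : Irreducible (X ^ r - C z : F[X]))
    (g : V →ₗ[F] V) (hg : g ^ r = z • 1) {W : Submodule F V} (hW : InvOn g W) : r ∣ finrank F W := by
  have hle : W ≤ W.comap g := fun u hu => hW u hu
  have hres : (g.restrict hle) ^ r = z • 1 := by
    have h1 : ∀ (k : ℕ) (u : W), (((g.restrict hle) ^ k) u : V) = (g ^ k) u := by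
      intro k
      induction k with
      | zero => simp
      | succ k ih' =>
        intro u
        rw [pow_succ, pow_succ, Module.End.mul_apply, Module.End.mul_apply, ih']
        rfl
    apply LinearMap.ext
    intro u
    apply Subtype.ext
    rw [h1, hg]
    simp
  obtain ⟨k, hk, -⟩ := root_split hr hP _ W (g.restrict hle) rfl hres
  exact ⟨k, hk⟩

end root

section arith

variable {F : Type*} [Field F] [Fintype F] {q : ℕ} {r : ℕ} [hr : Fact r.Prime] {z : F}

omit [Fintype F] in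
theorem pow_root_of_val {n k : ℕ} (hzn : z ^ (q + 1) = 1) (hk : z ^ k = 1) (hn : n = r * k) (hn0 : n ≠ 0)
    (hv : padicValNat r n ≤ padicValNat r (q + 1)) : z ^ ((q + 1) / r) = 1 := by
  obtain ⟨e, he⟩ : ∃ e, e = padicValNat r n := ⟨_, rfl⟩
  rw [← he] at hv
  obtain ⟨n₁, hn₁⟩ : r ^ e ∣ n := by
    rw [he]
    exact pow_padicValNat_dvd
  have hn₁' : ¬ r ∣ n₁ := by
    rintro ⟨t, ht⟩
    have : r ^ (e + 1) ∣ n := ⟨t, by rw [hn₁, ht]; ring⟩
    rw [he] at this
    exact pow_succ_padicValNat_not_dvd hn0 this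
  obtain ⟨X₀, hX⟩ : r ^ e ∣ q + 1 := (padicValNat_dvd_iff_le (by omega)).2 hv
  have hr0 : 0 < r := hr.out.pos
  have he1 : 1 ≤ e := by
    rw [he]
    by_contra hlt
    have h1 : padicValNat r n = 0 := by omega
    have h2 : r ∣ n := ⟨k, hn⟩
    rw [padicValNat.eq_zero_iff] at h1
    rcases h1 with h1 | h1 | h1
    · exact hr.out.one_lt.ne h1.symm
    · exact hn0 h1
    · exact h1 h2
  obtain ⟨e', rfl⟩ : ∃ e', e = e' + 1 := ⟨e - 1, by omega⟩
  have hk' : k = r ^ e' * n₁ := by
    apply Nat.eq_of_mul_eq_mul_left hr0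
    rw [← hn, hn₁]
    ring
  have hq' : (q + 1) / r = r ^ e' * X₀ := by
    rw [hX]
    rw [show r ^ (e' + 1) * X₀ = r * (r ^ e' * X₀) by ring]
    exact Nat.mul_div_cancel_left _ hr0
  rw [hq']
  set a := z ^ r ^ e' with ha
  have ha1 : a ^ n₁ = 1 := by
    rw [ha, ← pow_mul, ← hk', hk]
  have hb1 : (a ^ X₀) ^ r = 1 := by
    rw [ha, ← pow_mul, ← pow_mul, ← hzn, hX]
    congr 1
    ring
  have hb2 : (a ^ X₀) ^ n₁ = 1 := by
    rw [← pow_mul, mul_comm, pow_mul, ha1, one_pow]
  have hcop : Nat.Coprime r n₁ := (Nat.Prime.coprime_iff_not_dvd hr.out).2 hn₁'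
  have hord := Nat.dvd_gcd (orderOf_dvd_of_pow_eq_one hb1) (orderOf_dvd_of_pow_eq_one hb2)
  rw [hcop] at hord
  have h1 := orderOf_eq_one_iff.1 (Nat.dvd_one.1 hord)
  rw [pow_mul]
  exact h1

theorem exists_root_of_pow (hF : Fintype.card F = q ^ 2) (hrq : r ∣ q + 1) (hz : z ^ (q + 1) = 1) (ht : z ^ ((q + 1) / r) = 1) :
    ∃ w : F, w ^ r = z ∧ w ^ (q + 1) = 1 := by
  classical
  have hq2 := Cfsg.Agent.Lib.HermCount.two_le_q hF
  have hz0 : z ≠ 0 := by
    rintro rfl
    rw [zero_pow (by omega)] at hz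
    exact zero_ne_one hz
  obtain ⟨g, hg⟩ := IsCyclic.exists_generator (α := Fˣ)
  have hM : q ^ 2 - 1 = (q + 1) * (q - 1) := by
    zify [Nat.one_le_pow 2 q (by omega), (by omega : 1 ≤ q)]
    ring
  have hord : orderOf g = (q + 1) * (q - 1) := by
    rw [orderOf_eq_card_of_forall_mem_zpowers hg, Nat.card_eq_fintype_card, Fintype.card_units, hF, hM]
  obtain ⟨a, ha⟩ := mem_powers_iff_mem_zpowers.2 (hg (Units.mk0 z hz0))
  have ha' : ((g ^ a : Fˣ) : F) = z := by
    have := congrArg Units.val ha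
    simpa using this
  obtain ⟨t, ht'⟩ := hrq
  have hrpos := hr.out.pos
  have htpos : 0 < t := by
    rcases Nat.eq_zero_or_pos t with h | h
    · rw [h] at ht'
      omega
    · exact h
  have hdiv : (q + 1) / r = t := by
    rw [ht']
    exact Nat.mul_div_cancel_left _ hrpos
  rw [hdiv] at ht
  have h1 : g ^ (a * t) = 1 := by
    apply Units.ext
    rw [pow_mul, Units.val_pow_eq_pow_val, ha', ht, Units.val_one]
  have h2 : (q + 1) * (q - 1) ∣ a * t := by
    rw [← hord]
    exact orderOf_dvd_of_pow_eq_one h1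
  have h3 : r * (q - 1) ∣ a := by
    apply Nat.dvd_of_mul_dvd_mul_right htpos
    have : r * (q - 1) * t = (q + 1) * (q - 1) := by
      rw [ht']
      ring
    rwa [this]
  obtain ⟨a', ha''⟩ := h3
  refine ⟨((g ^ ((q - 1) * a') : Fˣ) : F), ?_, ?_⟩
  · rw [← Units.val_pow_eq_pow_val, ← pow_mul, ← ha', ha'']
    congr 2
    ring
  · rw [← Units.val_pow_eq_pow_val, ← pow_mul]
    have : (q - 1) * a' * (q + 1) = (q + 1) * (q - 1) * a' := by ring
    rw [this, pow_mul, ← hord, pow_orderOf_eq_one, one_pow, Units.val_one]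

theorem coprime_sub_one (hq2 : 2 ≤ q) (hr2 : r ≠ 2) (hrq : r ∣ q + 1) : Nat.Coprime r (q - 1) := by
  rw [Nat.Prime.coprime_iff_not_dvd hr.out]
  intro h
  have h1 : r ∣ (q + 1) - (q - 1) := Nat.dvd_sub hrq h
  have h2 : (q + 1) - (q - 1) = 2 := by omega
  rw [h2] at h1
  exact hr2 ((Nat.prime_dvd_prime_iff_eq hr.out Nat.prime_two).1 h1)

theorem not_pow_of_not_root (hF : Fintype.card F = q ^ 2) (hr2 : r ≠ 2) (hrq : r ∣ q + 1) (hz : z ^ (q + 1) = 1)
    (hA : ¬ ∃ w : F, w ^ r = z ∧ w ^ (q + 1) = 1) : ∀ b : F, b ^ r ≠ z := by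
  intro b hb
  apply hA
  have hq2 := Cfsg.Agent.Lib.HermCount.two_le_q hF
  have hz0 : z ≠ 0 := by
    rintro rfl
    rw [zero_pow (by omega)] at hz
    exact zero_ne_one hz
  have hb0 : b ≠ 0 := by
    rintro rfl
    rw [zero_pow hr.out.ne_zero] at hb
    exact hz0 hb.symm
  apply exists_root_of_pow hF hrq hz
  obtain ⟨t, ht⟩ := hrq
  have hdiv : (q + 1) / r = t := by
    rw [ht]
    exact Nat.mul_div_cancel_left _ hr.out.pos
  rw [hdiv]
  have hzt : z ^ t = b ^ (q + 1) := by
    rw [← hb, ← pow_mul, ht]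
  have h1 : (z ^ t) ^ r = 1 := by
    rw [← pow_mul, mul_comm, ← ht, hz]
  have h2 : (z ^ t) ^ (q - 1) = 1 := by
    rw [hzt, ← pow_mul]
    have hM : (q + 1) * (q - 1) = Fintype.card F - 1 := by
      rw [hF]
      zify [Nat.one_le_pow 2 q (by omega), (by omega : 1 ≤ q)]
      ring
    rw [hM, FiniteField.pow_card_sub_one_eq_one b hb0]
  have hcop := coprime_sub_one (r := r) hq2 hr2 ⟨t, ht⟩
  have hord := Nat.dvd_gcd (orderOf_dvd_of_pow_eq_one h1) (orderOf_dvd_of_pow_eq_one h2)
  rw [hcop] at hord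
  exact orderOf_eq_one_iff.1 (Nat.dvd_one.1 hord)

end arith

section fwd

variable {F : Type*} [Field F] [Fintype F] {q : ℕ} {V : Type u} [AddCommGroup V] [Module F V] [FiniteDimensional F V] {H : V → V → F}
  {r : ℕ} [hr : Fact r.Prime]

theorem fwdU4 (hH : HS q H) (hnd : NDH H (⊤ : Submodule F V)) {n m : ℕ} (hn : finrank F V = n) (hn0 : 0 < n) (hm : m ≤ n)
    (hr2 : r ≠ 2) (hrF : (r : F) ≠ 0) (hrq : r ∣ q + 1) {f : V →ₗ[F] V} (hiso : ∀ u v, H (f u) (f v) = H u v) (hdet : LinearMap.det f = 1) {z : F}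
    (hz : f ^ r = z • 1) (hc : r ∣ m ∨ padicValNat r n ≤ padicValNat r (q + 1)) :
    ∃ W : Submodule F V, finrank F W = m ∧ NDH H W ∧ InvOn f W := by
  classical
  haveI : Nontrivial V := Module.nontrivial_of_finrank_pos (R := F) (by omega)
  have hq2 := hH.two_le
  have hrodd : Odd r := hr.out.odd_of_ne_two hr2
  have hzn := scalar_norm hH hnd hiso hz
  by_cases hA : ∃ w : F, w ^ r = z ∧ w ^ (q + 1) = 1
  · obtain ⟨w, hw, hwn⟩ := hA
    have hw0 : w ≠ 0 := by
      rintro rfl
      rw [zero_pow (by omega)] at hwn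
      exact zero_ne_one hwn
    have hcn : (w⁻¹) ^ (q + 1) = 1 := by rw [_root_.inv_pow, hwn, inv_one]
    have hyr : (w⁻¹ • f) ^ r = 1 := by
      have hz0 : z * (w⁻¹) ^ r = 1 := by
        rw [_root_.inv_pow, hw, mul_inv_cancel₀]
        rw [← hw]
        exact pow_ne_zero _ hw0
      rw [_root_.smul_pow, hz, smul_smul, mul_comm, hz0, one_smul]
    have hisoy := smul_iso hH hiso hcn
    obtain ⟨ζ, hζ0, hζ1, hζr⟩ := Cfsg.Agent.S5984.exists_zeta (r := r) hH.card hrq
    have hζn : ζ ^ (q + 1) = 1 := by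
      obtain ⟨t, ht⟩ := hrq
      rw [ht, pow_mul, hζr, one_pow]
    obtain ⟨W, -, h3, h4, h5⟩ := exists_sub_lines hH (w⁻¹ • f) (fun U hU => inv_perp hH hisoy hr.out.ne_zero hyr hU)
      (fun U hU hi hne => exists_eig hH hrF hζ1 hζr hζn hisoy hyr U hU hi hne) m ⊤ hnd (fun _ _ => trivial) (by rwa [finrank_top, hn])
    exact ⟨W, h5, h3, inv_of_smul (inv_ne_zero hw0) h4⟩
  · have hnot := not_pow_of_not_root hH.card hr2 hrq hzn hA
    have hP := X_pow_sub_C_irreducible_of_prime hr.out hnot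
    obtain ⟨k, hk1, hk2⟩ := root_split hrodd hP _ V f rfl hz
    rw [hn] at hk1
    have hzk : z ^ k = 1 := by rw [← hk2, hdet]
    have hrm : r ∣ m := by
      rcases hc with h | h
      · exact h
      · exact absurd (exists_root_of_pow hH.card hrq hzn (pow_root_of_val hzn hzk hk1 (by omega) h)) hA
    obtain ⟨a, ha⟩ := hrm
    have hR : f ^ (r * (q + 1)) = 1 := by
      rw [pow_mul, hz, _root_.smul_pow, hzn, one_smul, one_pow]
    have hR0 : r * (q + 1) ≠ 0 := Nat.mul_ne_zero hr.out.ne_zero (by omega)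
    obtain ⟨W, -, h3, h4, h5⟩ := exists_sub_blocks hH f (fun U hU => inv_perp hH hiso hR0 hR hU) (s := r) hr.out.pos
      (fun U hU hi hne _ => by
        obtain ⟨v, hvU, hvv⟩ := exists_noniso hH hU hne
        have hv0 : v ≠ 0 := by
          rintro rfl
          exact hvv (hH.zero_left _)
        have h0 : aeval f (X ^ r - C z : F[X]) v = 0 := by
          have : aeval f (X ^ r - C z : F[X]) = 0 := by
            simp [hz, Algebra.algebraMap_eq_smul_one]
          rw [this]
          rfl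
        obtain ⟨U', hvU', hU'inv, hU'fin, -, hU'gen, hU's⟩ := exists_irr_span f _ hP v hv0 h0
        rw [natDegree_X_pow_sub_C] at hU'fin
        refine ⟨U', ?_, ?_, hU'inv, hU'fin⟩
        · intro u hu
          obtain ⟨g, rfl⟩ := hU'gen u hu
          exact inv_aeval f hi g hvU
        · rcases rad_dichotomy hH hiso hR0 hR hU'inv hU's with h | h
          · exact h
          · exact absurd (h v hvU' v hvU') hvv) a ⊤ hnd (fun _ _ => trivial) (by
        rw [finrank_top, hn, ← ha]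
        exact hm)
    exact ⟨W, by rw [h5, ha], h3, h4⟩

end fwd

section prodpi

variable {F : Type*} [Field F] [Fintype F] {q : ℕ}

theorem hs_prod {Y Y' : Type*} [AddCommGroup Y] [Module F Y] [AddCommGroup Y'] [Module F Y'] {H₁ : Y → Y → F} {H₂ : Y' → Y' → F}
    (h1 : HS q H₁) (h2 : HS q H₂) : HS q (fun x y : Y × Y' => H₁ x.1 y.1 + H₂ x.2 y.2) := by
  refine ⟨h1.card, ?_, ?_, ?_⟩
  · intro a b c
    simp only [Prod.fst_add, Prod.snd_add, h1.add_left, h2.add_left]
    ring
  · intro k a c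
    simp only [Prod.smul_fst, Prod.smul_snd, h1.smul_left, h2.smul_left]
    ring
  · intro a b
    show (H₁ a.1 b.1 + H₂ a.2 b.2) ^ q = H₁ b.1 a.1 + H₂ b.2 a.2
    rw [Cfsg.Agent.Lib.HermCount.add_pow_q h1.card, h1.conj, h2.conj]

theorem nd_prod {Y Y' : Type*} [AddCommGroup Y] [Module F Y] [AddCommGroup Y'] [Module F Y'] {H₁ : Y → Y → F} {H₂ : Y' → Y' → F}
    (h1 : HS q H₁) (h2 : HS q H₂) (n1 : NDH H₁ (⊤ : Submodule F Y)) (n2 : NDH H₂ (⊤ : Submodule F Y')) :
    NDH (fun x y : Y × Y' => H₁ x.1 y.1 + H₂ x.2 y.2) (⊤ : Submodule F (Y × Y')) := by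
  intro x _ h0
  apply Prod.ext
  · apply n1 x.1 trivial
    intro w _
    have : H₁ x.1 w + H₂ x.2 0 = 0 := h0 (w, 0) trivial
    rwa [h2.zero_right, add_zero] at this
  · apply n2 x.2 trivial
    intro w _
    have : H₁ x.1 0 + H₂ x.2 w = 0 := h0 (0, w) trivial
    rwa [h1.zero_right, zero_add] at this

theorem hs_pi {Y : Type*} [AddCommGroup Y] [Module F Y] {H₁ : Y → Y → F} (h1 : HS q H₁) (t : ℕ) :
    HS q (fun x y : Fin t → Y => ∑ i, H₁ (x i) (y i)) := by
  refine ⟨h1.card, ?_, ?_, ?_⟩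
  · intro a b c
    simp only [Pi.add_apply, h1.add_left, Finset.sum_add_distrib]
  · intro k a c
    simp only [Pi.smul_apply, h1.smul_left, Finset.mul_sum]
  · intro a b
    have h2 := map_sum (Cfsg.Agent.Lib.UnitaryBasic.sigma h1.card) (fun i => H₁ (a i) (b i)) Finset.univ
    simp only [Cfsg.Agent.Lib.UnitaryBasic.sigma_apply, h1.conj] at h2
    exact h2

theorem nd_pi {Y : Type*} [AddCommGroup Y] [Module F Y] {H₁ : Y → Y → F} (h1 : HS q H₁) (n1 : NDH H₁ (⊤ : Submodule F Y)) (t : ℕ) :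
    NDH (fun x y : Fin t → Y => ∑ i, H₁ (x i) (y i)) (⊤ : Submodule F (Fin t → Y)) := by
  classical
  intro x _ h0
  funext i
  apply n1 (x i) trivial
  intro w _
  have : ∑ j, H₁ (x j) ((Function.update 0 i w : Fin t → Y) j) = 0 := h0 (Function.update 0 i w) trivial
  rw [Finset.sum_eq_single i] at this
  · simpa using this
  · intro j _ hj
    rw [Function.update_of_ne hj]
    exact h1.zero_right _
  · simp

/-- The coordinatewise operator. -/
def piMap {Y : Type*} [AddCommGroup Y] [Module F Y] (T : Y →ₗ[F] Y) (t : ℕ) : (Fin t → Y) →ₗ[F] (Fin t → Y) :=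
  LinearMap.pi fun i => T ∘ₗ LinearMap.proj i

omit [Fintype F] in
theorem piMap_apply {Y : Type*} [AddCommGroup Y] [Module F Y] (T : Y →ₗ[F] Y) (t : ℕ) (x : Fin t → Y) (i : Fin t) : piMap T t x i = T (x i) := rfl

omit [Fintype F] in
theorem piMap_pow {Y : Type*} [AddCommGroup Y] [Module F Y] (T : Y →ₗ[F] Y) (t s : ℕ) (x : Fin t → Y) (i : Fin t) : (piMap T t ^ s) x i = (T ^ s) (x i) := by
  induction s generalizing x with
  | zero => simp
  | succ s ih =>
    rw [pow_succ, Module.End.mul_apply, ih, piMap_apply, pow_succ]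
    rfl

omit [Fintype F] in
theorem finrank_piY {Y : Type*} [AddCommGroup Y] [Module F Y] [FiniteDimensional F Y] (t : ℕ) : finrank F (Fin t → Y) = t * finrank F Y := by
  rw [Module.finrank_pi_fintype]
  simp

/-- The semilinear involution on an extension of odd degree. -/
theorem exists_tau (hF : Fintype.card F = q ^ 2) {K : Type*} [Field K] [Fintype K] [Algebra F K] {j : ℕ} (hK : finrank F K = j) (hj : Odd j) :
    ∃ τ : K →+* K, (∀ a, τ a = a ^ (q ^ j)) ∧ (∀ a, τ (τ a) = a) ∧ ∀ c : F, τ (algebraMap F K c) = algebraMap F K (c ^ q) := by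
  classical
  have hq2 := Cfsg.Agent.Lib.HermCount.two_le_q hF
  obtain ⟨p', k, hp', hcp', hqk⟩ := Cfsg.Agent.Lib.HermForm.exists_char_pow hF
  haveI : Fact p'.Prime := ⟨hp'⟩
  haveI hcK : CharP K p' := charP_of_injective_algebraMap (algebraMap F K).injective p'
  have hQ : q ^ j = p' ^ (k * j) := by rw [hqk, pow_mul]
  have hQ0 : q ^ j ≠ 0 := pow_ne_zero _ (by omega)
  let τ : K →+* K :=
    { toFun := fun a => a ^ (q ^ j)
      map_one' := one_pow _
      map_mul' := fun a b => mul_pow a b _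
      map_zero' := zero_pow hQ0
      map_add' := fun a b => by
        rw [hQ]
        exact add_pow_char_pow a b p' (k * j) }
  have hτ : ∀ a, τ a = a ^ (q ^ j) := fun a => rfl
  have hcardK : Fintype.card K = (q ^ j) ^ 2 := by
    rw [Module.card_eq_pow_finrank (K := F) (V := K), hK, hF, ← pow_mul, ← pow_mul, mul_comm]
  refine ⟨τ, hτ, ?_, ?_⟩
  · intro a
    rw [hτ, hτ, ← pow_mul, ← sq, ← hcardK, FiniteField.pow_card]
  · obtain ⟨t, ht⟩ := hj
    intro c
    rw [hτ, ← map_pow]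
    congr 1
    have h1 : q ^ j = (q ^ 2) ^ t * q := by
      rw [ht, pow_succ, pow_mul]
    rw [h1, pow_mul, ← hF, FiniteField.pow_card_pow]

end prodpi

section HKm

variable {F : Type*} [Field F] [Fintype F] {q : ℕ}

theorem hk_hs {K : Type*} [Field K] [Fintype K] [Algebra F K] (hF : Fintype.card F = q ^ 2) (τ : K →+* K) (hτ2 : ∀ a, τ (τ a) = a)
    (hτF : ∀ c : F, τ (algebraMap F K c) = algebraMap F K (c ^ q)) : HS q (HK F τ) where
  card := hF
  add_left := fun a b c => HK_add τ a b c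
  smul_left := fun k a c => HK_smul τ k a c
  conj := fun a b => (HK_herm τ hτ2 hτF b a).symm

theorem hk_nd {K : Type*} [Field K] [Fintype K] [Algebra F K] (τ : K →+* K) (hτ2 : ∀ a, τ (τ a) = a) : NDH (HK F τ) (⊤ : Submodule F K) :=
  fun u _ h => HK_nd (F := F) τ hτ2 u fun w => h w trivial

omit [Fintype F] in
theorem mulLeft_pow {K : Type*} [Field K] [Algebra F K] (θ : K) (s : ℕ) (y : K) : ((LinearMap.mulLeft F θ) ^ s) y = θ ^ s * y := by
  induction s with
  | zero => simp
  | succ s ih =>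
    rw [pow_succ', Module.End.mul_apply, ih, LinearMap.mulLeft_apply, pow_succ']
    ring

end HKm

section bwd

variable {F : Type*} [Field F] [Fintype F] {q : ℕ} {r : ℕ} [hr : Fact r.Prime]

theorem bwdU4 (hF : Fintype.card F = q ^ 2) (hr2 : r ≠ 2) (hrq : r ∣ q + 1) {n m : ℕ} (hn0 : n ≠ 0) (hnot : ¬ r ∣ m)
    (hv : ¬ padicValNat r n ≤ padicValNat r (q + 1)) : ∃ f, BadF n m r F q f := by
  classical
  have hq2 := Cfsg.Agent.Lib.HermCount.two_le_q hF
  have hrodd : Odd r := hr.out.odd_of_ne_two hr2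
  rw [not_le] at hv
  obtain ⟨s, hs⟩ : ∃ s, s = padicValNat r (q + 1) := ⟨_, rfl⟩
  rw [← hs] at hv
  obtain ⟨u, hu⟩ : r ^ s ∣ q + 1 := by
    rw [hs]
    exact pow_padicValNat_dvd
  have hu' : ¬ r ∣ u := by
    rintro ⟨t, ht⟩
    have : r ^ (s + 1) ∣ q + 1 := ⟨t, by rw [hu, ht]; ring⟩
    rw [hs] at this
    exact pow_succ_padicValNat_not_dvd (by omega) this
  have hs1 : 1 ≤ s := by
    rw [hs]
    by_contra hlt
    have h1 : padicValNat r (q + 1) = 0 := by omega
    rw [padicValNat.eq_zero_iff] at h1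
    rcases h1 with h1 | h1 | h1
    · exact hr.out.one_lt.ne h1.symm
    · omega
    · exact h1 hrq
  obtain ⟨n₂, hn₂⟩ : r ^ (s + 1) ∣ n := (padicValNat_dvd_iff_le hn0).2 (by omega)
  obtain ⟨n', hn'⟩ : ∃ n', n' = r ^ s * n₂ := ⟨_, rfl⟩
  have hnn' : n = n' * r := by
    rw [hn₂, hn']
    ring
  obtain ⟨g, hg⟩ := IsCyclic.exists_generator (α := Fˣ)
  have hM : q ^ 2 - 1 = (q + 1) * (q - 1) := by
    zify [Nat.one_le_pow 2 q (by omega), (by omega : 1 ≤ q)]
    ring
  have hord : orderOf g = (q + 1) * (q - 1) := by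
    rw [orderOf_eq_card_of_forall_mem_zpowers hg, Nat.card_eq_fintype_card, Fintype.card_units, hF, hM]
  obtain ⟨z, hzdef⟩ : ∃ z : F, z = ((g ^ ((q - 1) * u) : Fˣ) : F) := ⟨_, rfl⟩
  have hz0 : z ≠ 0 := by
    rw [hzdef]
    exact Units.ne_zero _
  have hzrs : z ^ (r ^ s) = 1 := by
    rw [hzdef, ← Units.val_pow_eq_pow_val, ← pow_mul]
    have : (q - 1) * u * r ^ s = (q + 1) * (q - 1) := by
      rw [hu]
      ring
    rw [this, ← hord, pow_orderOf_eq_one, Units.val_one]
  have hzn : z ^ (q + 1) = 1 := by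
    rw [hu, pow_mul, hzrs, one_pow]
  have hnotpow : ∀ b : F, b ^ r ≠ z := by
    intro b hb
    have hb0 : b ≠ 0 := by
      rintro rfl
      rw [zero_pow hr.out.ne_zero] at hb
      exact hz0 hb.symm
    obtain ⟨t, ht⟩ := hrq
    have hqm : 0 < q - 1 := by omega
    have htpos : 0 < t := by
      rcases Nat.eq_zero_or_pos t with h | h
      · rw [h] at ht
        omega
      · exact h
    have h1 : z ^ (t * (q - 1)) = 1 := by
      rw [← hb, ← pow_mul]
      have hM' : r * (t * (q - 1)) = Fintype.card F - 1 := by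
        rw [hF, hM, ht]
        ring
      rw [hM', FiniteField.pow_card_sub_one_eq_one b hb0]
    have h2 : g ^ ((q - 1) * u * (t * (q - 1))) = 1 := by
      apply Units.ext
      rw [pow_mul, Units.val_pow_eq_pow_val, ← hzdef, h1, Units.val_one]
    have h3 : (q + 1) * (q - 1) ∣ (q - 1) * u * (t * (q - 1)) := by
      rw [← hord]
      exact orderOf_dvd_of_pow_eq_one h2
    have h4 : r ∣ (q - 1) * u := by
      apply Nat.dvd_of_mul_dvd_mul_right (Nat.mul_pos htpos hqm)
      have : r * (t * (q - 1)) = (q + 1) * (q - 1) := by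
        rw [ht]
        ring
      rwa [this]
    rcases (Nat.Prime.dvd_mul hr.out).1 h4 with h5 | h5
    · exact (Nat.Prime.coprime_iff_not_dvd hr.out).1 (coprime_sub_one hq2 hr2 ⟨t, ht⟩) h5
    · exact hu' h5
  have hP := X_pow_sub_C_irreducible_of_prime hr.out hnotpow
  haveI : Fact (Irreducible (X ^ r - C z : F[X])) := ⟨hP⟩
  let K := AdjoinRoot (X ^ r - C z : F[X])
  have hmon : (X ^ r - C z : F[X]).Monic := monic_X_pow_sub_C z hr.out.ne_zero
  let pb := AdjoinRoot.powerBasis hP.ne_zero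
  haveI : Module.Finite F K := pb.finite
  haveI : Finite K := Module.finite_of_finite F
  letI : Fintype K := Fintype.ofFinite K
  have hK : finrank F K = r := by
    rw [pb.finrank, AdjoinRoot.powerBasis_dim, natDegree_X_pow_sub_C]
  let θ : K := AdjoinRoot.root _
  have hθr : θ ^ r = algebraMap F K z := by
    have h1 : aeval θ (X ^ r - C z : F[X]) = 0 := by
      rw [AdjoinRoot.aeval_eq]
      exact AdjoinRoot.mk_self
    simp only [map_sub, map_pow, aeval_X, aeval_C] at h1
    exact sub_eq_zero.1 h1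
  obtain ⟨τ, hτ, hτ2, hτF⟩ := exists_tau hF hK hrodd
  have hθ : θ * τ θ = 1 := by
    rw [hτ, ← pow_succ']
    have hdv : r ^ (s + 1) ∣ q ^ r + 1 := by
      have hnd : ¬ r ∣ q := by
        intro h
        have h1 : r ∣ 1 := by
          have := Nat.dvd_sub hrq h
          simpa using this
        exact hr.out.one_lt.ne' (Nat.dvd_one.1 h1)
      have h1 := padicValNat.pow_add_pow (p := r) hrodd (x := q) (y := 1) hrq hnd hrodd
      rw [one_pow, padicValNat_self, ← hs] at h1
      exact (padicValNat_dvd_iff_le (by positivity)).2 (by omega)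
    obtain ⟨t, ht⟩ := hdv
    have h1 : θ ^ (r ^ (s + 1)) = 1 := by
      rw [pow_succ', pow_mul, hθr, ← map_pow, hzrs, map_one]
    rw [ht, pow_mul, h1, one_pow]
  have hH₀ := hk_hs hF τ hτ2 hτF
  have hnd₀ := hk_nd (F := F) τ hτ2
  have hH := hs_pi hH₀ n'
  have hnd := nd_pi hH₀ hnd₀ n'
  let T : (Fin n' → K) →ₗ[F] (Fin n' → K) := piMap (LinearMap.mulLeft F θ) n'
  have hTr : T ^ r = z • 1 := by
    apply LinearMap.ext
    intro x
    funext i
    rw [piMap_pow, mulLeft_pow, hθr, ← Algebra.smul_def]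
    rfl
  have hfin : finrank F (Fin n' → K) = n := by
    rw [finrank_piY, hK, hnn']
  refine exists_bad_of_model hF hH hnd hfin T ?_ ?_ ⟨z, hTr⟩ ?_
  · intro u v
    refine Finset.sum_congr rfl fun i _ => ?_
    rw [piMap_apply, piMap_apply]
    exact HK_mul τ hθ _ _
  · obtain ⟨k, hk1, hk2⟩ := root_split hrodd hP _ (Fin n' → K) T rfl hTr
    have hk : k = n' := by
      rw [hfin, hnn', mul_comm] at hk1
      exact (Nat.eq_of_mul_eq_mul_left hr.out.pos hk1).symm
    rw [hk2, hk, hn', pow_mul, hzrs, one_pow]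
  · intro W hW _ hWinv
    apply hnot
    rw [← hW]
    exact dvd_finrank_of_root hrodd hP T hTr hWinv

/-- The case `r ∣ q + 1`, `r` odd. -/
theorem lhs_iff_root (hF : Fintype.card F = q ^ 2) {n m : ℕ} (hn : 0 < n) (hm : m ≤ n) (hr2 : r ≠ 2) (hrF : (r : F) ≠ 0) (hrq : r ∣ q + 1) :
    (∀ x : Matrix.SpecialLinearGroup (Fin n) F, x ∈ Cfsg.SU n F q →
      (∃ z : F, ((x ^ r : Matrix.SpecialLinearGroup (Fin n) F) : Matrix (Fin n) (Fin n) F) = z • (1 : Matrix (Fin n) (Fin n) F)) →
      (∀ z : F, (x : Matrix (Fin n) (Fin n) F) ≠ z • (1 : Matrix (Fin n) (Fin n) F)) →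
      ∃ W : Submodule F (Fin n → F), Module.finrank F ↥W = m ∧ (∀ u ∈ W, u ≠ 0 → ∃ v ∈ W, Cfsg.hermForm n F q u v ≠ 0) ∧
        W.map (Matrix.toLin' (x : Matrix (Fin n) (Fin n) F)) ≤ W) ↔
    (r ∣ m ∨ padicValNat r n ≤ padicValNat r (q + 1)) := by
  constructor
  · intro h
    by_contra hc
    push Not at hc
    obtain ⟨f, hf⟩ := bwdU4 hF hr2 hrq (by omega) hc.1 (not_le.2 hc.2)
    exact not_lhs_of_bad hF hm hf h
  · intro hc
    apply lhs_of_fwd hF
    rintro f hiso hdet ⟨z, hz⟩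
    exact fwdU4 (hermHS hF) (herm_nd hF) (by rw [Module.finrank_fin_fun]) hn hm hr2 hrF hrq hiso hdet hz hc

end bwd

end Cfsg.Agent.Lib.HSBase
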