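import Mathlib
import Cfsg.Agent.Lib.HSRoot
import Cfsg.Agent.Lib.PrimOrder

/-!
# Semisimple isometries of odd prime order `r` with `r ∤ q + 1`
-/

set_option autoImplicit false

namespace Cfsg.Agent.Lib.HSBase

open Polynomial Module Matrix
open Cfsg.Agent.Lib.IsomBlock (InvOn FixFree SimpleOn fixS mem_fixS fixS_le inv_fixS inv_pow inv_inf exists_irr_span inv_aeval aeval_comm aeval_mul_apply aeval_X_comm exists_factor_vec eq_zero_of_fix natDegree_factor aeval_frob expand_card_pow not_dvd_card)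
open Cfsg

set_option linter.unusedSimpArgs false
set_option linter.unusedVariables false
set_option linter.unusedSectionVars false

universe u

/-- The block size. -/
def blkC (i : ℕ) : ℕ := if i % 4 = 0 then i else if i % 4 = 2 then i / 2 else 2 * i

section arith

theorem blkC_pos {i : ℕ} (hi : 0 < i) : 0 < blkC i := by
  unfold blkC
  split_ifs <;> omega

variable {r : ℕ} [hr : Fact r.Prime] {x : ZMod r}

omit hr in
theorem b_of_c {M : Type*} [Monoid M] (y : M) :
    (orderOf y % 4 = 2 → orderOf (y ^ 2) = blkC (orderOf y)) ∧ (orderOf y % 4 ≠ 2 → 0 < orderOf y → blkC (orderOf y) = 2 * orderOf (y ^ 2)) := by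
  have h1 : orderOf (y ^ 2) = orderOf y / Nat.gcd (orderOf y) 2 := orderOf_pow' y (by norm_num)
  constructor
  · intro h
    have h2 : Nat.gcd (orderOf y) 2 = 2 := Nat.gcd_eq_right (by omega)
    rw [h1, h2]
    unfold blkC
    rw [if_neg (by omega), if_pos h]
  · intro h hpos
    unfold blkC
    rw [h1]
    by_cases h0 : orderOf y % 4 = 0
    · have h2 : Nat.gcd (orderOf y) 2 = 2 := Nat.gcd_eq_right (by omega)
      rw [h2, if_pos h0]
      omega
    · have hodd : Odd (orderOf y) := Nat.odd_iff.2 (by omega)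
      have h2 : Nat.gcd (orderOf y) 2 = 1 := by
        have := Nat.coprime_two_right.2 hodd
        exact this
      rw [h2, if_neg h0, if_neg h, Nat.div_one]

theorem pow_c_eq_neg (hr2 : r ≠ 2) (hi : orderOf x % 4 = 2) : x ^ (blkC (orderOf x)) = -1 ∧ Odd (blkC (orderOf x)) := by
  haveI : Fact (2 < r) := ⟨by have := hr.out.two_le; omega⟩
  have hc : blkC (orderOf x) = orderOf x / 2 := by
    unfold blkC
    rw [if_neg (by omega), if_pos hi]
  rw [hc]
  constructor
  · have h1 : (x ^ (orderOf x / 2)) * (x ^ (orderOf x / 2)) = 1 := by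
      rw [← pow_add]
      have : orderOf x / 2 + orderOf x / 2 = orderOf x := by omega
      rw [this, pow_orderOf_eq_one]
    have h2 : x ^ (orderOf x / 2) ≠ 1 := pow_ne_one_of_lt_orderOf (by omega) (by omega)
    have h3 : (x ^ (orderOf x / 2) - 1) * (x ^ (orderOf x / 2) + 1) = 0 := by linear_combination h1
    rcases mul_eq_zero.1 h3 with h4 | h4
    · exact absurd (sub_eq_zero.1 h4) h2
    · exact eq_neg_of_add_eq_zero_left h4
  · rw [Nat.odd_iff]
    omega

theorem two_ne_zero_zmod (hr2 : r ≠ 2) : (2 : ZMod r) ≠ 0 := by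
  intro h
  have h1 : ((2 : ℕ) : ZMod r) = 0 := by exact_mod_cast h
  rw [ZMod.natCast_eq_zero_iff] at h1
  exact hr2 ((Nat.prime_dvd_prime_iff_eq hr.out Nat.prime_two).1 h1)

theorem one_ne_neg_one_zmod (hr2 : r ≠ 2) : (1 : ZMod r) ≠ -1 := by
  intro h
  apply two_ne_zero_zmod hr2
  linear_combination h

theorem mod_of_pow_neg (hr2 : r ≠ 2) {e : ℕ} (he : Odd e) (h : x ^ e = -1) : orderOf x % 4 = 2 := by
  have h1 : x ^ (2 * e) = 1 := by
    rw [mul_comm, pow_mul, h]
    ring
  have h2 : orderOf x ∣ 2 * e := orderOf_dvd_of_pow_eq_one h1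
  obtain ⟨t, ht⟩ := he
  by_contra hne
  by_cases h0 : orderOf x % 4 = 0
  · have h4 : 4 ∣ 2 * e := (Nat.dvd_of_mod_eq_zero h0).trans h2
    omega
  · have hodd : Odd (orderOf x) := Nat.odd_iff.2 (by omega)
    have hc : Nat.Coprime (orderOf x) 2 := Nat.coprime_two_right.2 hodd
    have h4 : orderOf x ∣ e := hc.dvd_of_dvd_mul_left h2
    have h5 : x ^ e = 1 := orderOf_dvd_iff_pow_eq_one.1 h4
    rw [h5] at h
    exact one_ne_neg_one_zmod hr2 h

theorem mod_of_pow_two_mul (hr2 : r ≠ 2) (hx0 : x ≠ 0) (hxn : x ≠ -1) {l : ℕ} (h : x ^ (2 * l) = -x) : orderOf x % 4 = 2 := by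
  rcases Nat.eq_zero_or_pos l with rfl | hl
  · exfalso
    apply hxn
    simp at h
    linear_combination h
  · obtain ⟨e, rfl⟩ : ∃ e, l = e + 1 := ⟨l - 1, by omega⟩
    apply mod_of_pow_neg hr2 (e := 2 * e + 1) ⟨e, rfl⟩
    have h1 : x ^ (2 * e + 1) * x = -1 * x := by
      rw [← pow_succ, neg_one_mul, ← h]
      congr 1
    exact mul_right_cancel₀ hx0 h1

theorem c_dvd_of (hr2 : r ≠ 2) {j : ℕ} (h : x ^ j = (-1) ^ j) : blkC (orderOf x) ∣ j := by
  rcases Nat.even_or_odd j with hev | hodd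
  · rw [hev.neg_one_pow] at h
    have h1 : orderOf x ∣ j := orderOf_dvd_of_pow_eq_one h
    unfold blkC
    split_ifs with h0 h2
    · exact h1
    · exact (Nat.div_dvd_of_dvd (by omega)).trans h1
    · have hoddi : Odd (orderOf x) := Nat.odd_iff.2 (by omega)
      exact Nat.Coprime.mul_dvd_of_dvd_of_dvd (Nat.coprime_two_left.2 hoddi) hev.two_dvd h1
  · rw [hodd.neg_one_pow] at h
    have h1 := mod_of_pow_neg hr2 hodd h
    have h2 : x ^ (2 * j) = 1 := by
      rw [mul_comm, pow_mul, h]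
      ring
    have h3 : orderOf x ∣ 2 * j := orderOf_dvd_of_pow_eq_one h2
    unfold blkC
    rw [if_neg (by omega), if_pos h1]
    obtain ⟨e, he⟩ : ∃ e, orderOf x = 2 * e := ⟨orderOf x / 2, by omega⟩
    rw [he] at h3 ⊢
    rw [Nat.mul_div_cancel_left _ (by norm_num)]
    exact Nat.dvd_of_mul_dvd_mul_left (by norm_num) h3

end arith

section frob

variable {F : Type*} [Field F] [Fintype F] {q : ℕ}

/-- The twisted Frobenius step. -/
theorem aeval_sigma {A : Type*} [Ring A] [Algebra F A] (hF : Fintype.card F = q ^ 2) (S : A) (g : F[X]) :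
    aeval (S ^ q) (g.map (Cfsg.Agent.Lib.UnitaryBasic.sigma hF)) = (aeval S g) ^ q := by
  obtain ⟨p, k, hp, hcp, hqk⟩ := Cfsg.Agent.Lib.HermForm.exists_char_pow hF
  haveI : Fact p.Prime := ⟨hp⟩
  haveI : ExpChar F p := ExpChar.prime hp
  rw [← Polynomial.expand_aeval, ← Polynomial.map_expand]
  have h1 : (Cfsg.Agent.Lib.UnitaryBasic.sigma hF) = iterateFrobenius F p k := by
    ext c
    rw [Cfsg.Agent.Lib.UnitaryBasic.sigma_apply, iterateFrobenius_def, hqk]
  rw [h1, hqk, Polynomial.map_iterateFrobenius_expand, map_pow]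

theorem sigma_sigma_map (hF : Fintype.card F = q ^ 2) (g : F[X]) :
    (g.map (Cfsg.Agent.Lib.UnitaryBasic.sigma hF)).map (Cfsg.Agent.Lib.UnitaryBasic.sigma hF) = g := by
  rw [Polynomial.map_map]
  have : (Cfsg.Agent.Lib.UnitaryBasic.sigma hF).comp (Cfsg.Agent.Lib.UnitaryBasic.sigma hF) = RingHom.id F := by
    ext c
    exact Cfsg.Agent.Lib.UnitaryBasic.sigma_sigma hF c
  rw [this, Polynomial.map_id]

/-- Frobenius acts on evaluations in an extension field. -/
theorem frob_aeval {L : Type*} [Field L] [Algebra F L] (hF : Fintype.card F = q ^ 2) (z : L) (P : F[X]) :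
    (aeval z P) ^ q = aeval (z ^ q) (P.map (Cfsg.Agent.Lib.UnitaryBasic.sigma hF)) := by
  rw [aeval_sigma hF]

theorem field_pow_modEq {L : Type*} [Field L] {θ : L} (hθ : θ ≠ 0) {a b : ℕ} (h : θ ^ a = θ ^ b) : a ≡ b [MOD orderOf θ] := by
  have h1 : (Units.mk0 θ hθ) ^ a = (Units.mk0 θ hθ) ^ b := Units.ext (by simpa using h)
  rw [pow_eq_pow_iff_modEq] at h1
  have h2 : orderOf ((Units.mk0 θ hθ : Lˣ) : L) = orderOf (Units.mk0 θ hθ) := orderOf_units
  rw [← h2] at h1
  exact h1

/-- The key fact: `h` simple with adjoint related to itself forces `-q` into the powers of `q ^ 2`. -/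
theorem neg_q_of_factor (hF : Fintype.card F = q ^ 2) {r : ℕ} [hr : Fact r.Prime] (hrF : (r : F) ≠ 0) (h : F[X]) (hh : Irreducible h)
    (hd : h ∣ cyclotomic r F) (hk : h ∣ (h.map (Cfsg.Agent.Lib.UnitaryBasic.sigma hF)).comp (X ^ (r - 1))) :
    ∃ l, (q : ZMod r) ^ (2 * l) = -(q : ZMod r) := by
  classical
  have hq2 := Cfsg.Agent.Lib.HermCount.two_le_q hF
  haveI : Fact (Irreducible h) := ⟨hh⟩
  let L := AdjoinRoot h
  let pb := AdjoinRoot.powerBasis hh.ne_zero
  haveI : Module.Finite F L := pb.finite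
  haveI : Finite L := Module.finite_of_finite F
  letI : Fintype L := Fintype.ofFinite L
  let θ : L := AdjoinRoot.root h
  have hθ0 : aeval θ h = 0 := by
    rw [AdjoinRoot.aeval_eq]
    exact AdjoinRoot.mk_self
  have hθr : θ ^ r = 1 := by
    obtain ⟨g, hg⟩ := hd
    have h1 : aeval θ (X ^ r - 1 : F[X]) = 0 := by
      rw [← Cfsg.Agent.Lib.PrimOrder.mul_cyc r, map_mul, hg, map_mul, hθ0]
      simp
    simpa [sub_eq_zero] using h1
  have hθ1 : θ ≠ 1 := by
    intro h1
    have h2 : eval 1 h = 0 := by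
      have h3 := hθ0
      rw [h1, aeval_def, eval₂_at_one] at h3
      exact (algebraMap F L).injective (by simpa using h3)
    obtain ⟨g, hg⟩ := hd
    have h3 : eval 1 (cyclotomic r F) = 0 := by
      rw [hg, eval_mul, h2, zero_mul]
    rw [eval_one_cyclotomic_prime] at h3
    exact hrF h3
  have hord : orderOf θ = r := orderOf_eq_prime hθr hθ1
  have hθne : θ ≠ 0 := by
    rintro h0
    rw [h0, zero_pow hr.out.ne_zero] at hθr
    exact zero_ne_one hθr
  have hzero : aeval (θ ^ (r - 1)) (h.map (Cfsg.Agent.Lib.UnitaryBasic.sigma hF)) = 0 := by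
    obtain ⟨g, hg⟩ := hk
    have h1 := congrArg (aeval θ) hg
    rw [aeval_comp, map_mul, hθ0, zero_mul] at h1
    simpa using h1
  have hy0 : aeval ((θ ^ (r - 1)) ^ q) h = 0 := by
    have h1 := frob_aeval hF (θ ^ (r - 1)) (h.map (Cfsg.Agent.Lib.UnitaryBasic.sigma hF))
    rw [hzero, sigma_sigma_map, zero_pow (by omega)] at h1
    exact h1.symm
  -- the roots of `h`
  have hb : h.natDegree = orderOf ((q ^ 2 : ℕ) : ZMod r) := natDegree_factor hF hrF h hh hd
  have hroot : ∀ l : ℕ, aeval (θ ^ ((q ^ 2) ^ l)) h = 0 := by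
    intro l
    rw [← Polynomial.expand_aeval, expand_card_pow hF, map_pow, hθ0, zero_pow]
    exact pow_ne_zero _ (pow_ne_zero _ (by omega))
  let hL : L[X] := h.map (algebraMap F L)
  have hL0 : hL ≠ 0 := (Polynomial.map_ne_zero_iff (algebraMap F L).injective).2 hh.ne_zero
  have hmem : ∀ y : L, aeval y h = 0 → y ∈ hL.roots.toFinset := by
    intro y hy
    rw [Multiset.mem_toFinset, Polynomial.mem_roots hL0, IsRoot, eval_map_algebraMap]
    exact hy
  let S : Finset L := (Finset.range h.natDegree).image (fun l => θ ^ ((q ^ 2) ^ l))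
  have hSsub : S ⊆ hL.roots.toFinset := by
    intro y hy
    obtain ⟨l, -, rfl⟩ := Finset.mem_image.1 hy
    exact hmem _ (hroot l)
  have hScard : S.card = h.natDegree := by
    rw [Finset.card_image_of_injOn, Finset.card_range]
    intro l hl l' hl' he
    have h1 := field_pow_modEq hθne (show θ ^ ((q ^ 2) ^ l) = θ ^ ((q ^ 2) ^ l') from he)
    rw [hord] at h1
    have h2 : ((q ^ 2 : ℕ) : ZMod r) ^ l = ((q ^ 2 : ℕ) : ZMod r) ^ l' := by
      have := (ZMod.natCast_eq_natCast_iff _ _ r).2 h1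
      push_cast at this ⊢
      exact this
    have hinj := pow_injOn_Iio_orderOf (x := ((q ^ 2 : ℕ) : ZMod r))
    rw [← hb] at hinj
    exact hinj (by simpa using hl) (by simpa using hl') h2
  have hEq : S = hL.roots.toFinset := by
    apply Finset.eq_of_subset_of_card_le hSsub
    rw [hScard]
    calc hL.roots.toFinset.card ≤ Multiset.card hL.roots := Multiset.toFinset_card_le _
      _ ≤ hL.natDegree := Polynomial.card_roots' hL
      _ = h.natDegree := Polynomial.natDegree_map _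
  have hyS : (θ ^ (r - 1)) ^ q ∈ S := by
    rw [hEq]
    exact hmem _ hy0
  obtain ⟨l, -, hl⟩ := Finset.mem_image.1 hyS
  refine ⟨l, ?_⟩
  rw [← pow_mul θ (r - 1) q] at hl
  have hl' := field_pow_modEq hθne hl
  rw [hord] at hl'
  have h1 := (ZMod.natCast_eq_natCast_iff _ _ r).2 hl'
  rw [Nat.cast_mul (r - 1), Nat.cast_sub hr.out.one_lt.le] at h1
  push_cast at h1
  rw [pow_mul, h1]
  simp

end frob

section form

variable {F : Type*} [Field F] [Fintype F] {q : ℕ} {V : Type u} [AddCommGroup V] [Module F V] [FiniteDimensional F V] {H : V → V → F}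

theorem exists_factor_pair (hH : HS q H) (T : V →ₗ[F] V) (v : V) : ∀ (n : ℕ) (P : F[X]), P.natDegree = n → P.Separable → ∀ w : V, aeval T P w = 0 →
    H v w ≠ 0 → ∃ h : F[X], Irreducible h ∧ h ∣ P ∧ ∃ w' : V, aeval T h w' = 0 ∧ H v w' ≠ 0 := by
  intro n
  induction n using Nat.strong_induction_on with
  | _ n ih =>
    intro P hn hP w h0 hvw
    have hP0 : P ≠ 0 := hP.ne_zero
    have hnu : ¬ IsUnit P := by
      intro hu
      obtain ⟨Q, hQ⟩ := hu.exists_right_inv
      apply hvw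
      have h1 : aeval T (Q * P) w = w := by
        rw [mul_comm, hQ, map_one]
        rfl
      rw [aeval_mul_apply, h0, map_zero] at h1
      rw [← h1, hH.zero_right]
    obtain ⟨h, hh, g, rfl⟩ := WfDvdMonoid.exists_irreducible_factor hnu hP0
    have hg0 : g ≠ 0 := right_ne_zero_of_mul hP0
    have hcop : IsCoprime h g := Separable.isCoprime hP
    have hw : w ∈ LinearMap.ker (aeval T h) ⊔ LinearMap.ker (aeval T g) := by
      rw [Polynomial.sup_ker_aeval_eq_ker_aeval_mul_of_coprime T hcop]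
      exact h0
    obtain ⟨a, ha, b, hb, rfl⟩ := Submodule.mem_sup.mp hw
    rw [hH.add_right] at hvw
    by_cases hva : H v a = 0
    · have hvb : H v b ≠ 0 := by
        intro h3
        rw [hva, h3, add_zero] at hvw
        exact hvw rfl
      have hlt : g.natDegree < n := by
        rw [← hn, natDegree_mul hh.ne_zero hg0]
        have := hh.natDegree_pos
        omega
      obtain ⟨h', hh', hd, w', hw', hk⟩ := ih _ hlt g rfl hP.of_mul_right b (LinearMap.mem_ker.mp hb) hvb
      exact ⟨h', hh', hd.trans (Dvd.intro_left _ rfl), w', hw', hk⟩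
    · exact ⟨h, hh, Dvd.intro _ rfl, a, LinearMap.mem_ker.mp ha, hva⟩

variable {T : V →ₗ[F] V} {r : ℕ} [hr : Fact r.Prime]

theorem adj_inv (hiso : ∀ u v, H (T u) (T v) = H u v) (hTr : T ^ r = 1) (u v : V) : H ((T ^ (r - 1)) u) v = H u (T v) :=
  adj2 hiso hr.out.ne_zero hTr u v

/-- The nondegenerate case of a simple submodule. -/
theorem mod_of_nd_simple (hH : HS q H) (hiso : ∀ u v, H (T u) (T v) = H u v) (hTr : T ^ r = 1) (hr2 : r ≠ 2) (hrF : (r : F) ≠ 0) (hrq : ¬ r ∣ q + 1)
    {h : F[X]} (hh : Irreducible h) (hd : h ∣ cyclotomic r F) {U : Submodule F V} (hUinv : InvOn T U) (hUnd : NDH H U)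
    (hUk : ∀ u ∈ U, aeval T h u = 0) {w : V} (hw : w ∈ U) (hw0 : w ≠ 0) : orderOf (q : ZMod r) % 4 = 2 := by
  classical
  have hσ := hH.card
  have hinvU : ∀ u ∈ U, aeval (T ^ (r - 1)) (h.map (Cfsg.Agent.Lib.UnitaryBasic.sigma hσ)) u = 0 := by
    intro u hu
    have hU' : InvOn (T ^ (r - 1)) U := fun a ha => inv_pow hUinv _ ha
    apply hUnd _ (inv_aeval _ hU' _ hu)
    intro y hy
    rw [form_aeval hH (S' := T) (adj_inv hiso hTr), sigma_sigma_map, hUk y hy, hH.zero_right]
  have hk : h ∣ (h.map (Cfsg.Agent.Lib.UnitaryBasic.sigma hσ)).comp (X ^ (r - 1)) := by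
    by_contra hnd
    obtain ⟨a, b, hab⟩ := hh.coprime_iff_not_dvd.mpr hnd
    apply hw0
    have h1 : aeval T (a * h + b * (h.map (Cfsg.Agent.Lib.UnitaryBasic.sigma hσ)).comp (X ^ (r - 1))) w = w := by
      rw [hab, map_one]
      rfl
    rw [map_add, LinearMap.add_apply, aeval_mul_apply, aeval_mul_apply, hUk w hw, map_zero, zero_add, aeval_comp] at h1
    have h2 : aeval T (X ^ (r - 1) : F[X]) = T ^ (r - 1) := by simp
    rw [h2, hinvU w hw, map_zero] at h1
    exact h1.symm
  obtain ⟨l, hl⟩ := neg_q_of_factor hσ hrF h hh hd hk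
  have hx0 : (q : ZMod r) ≠ 0 := by
    intro h0
    rw [ZMod.natCast_eq_zero_iff] at h0
    exact not_dvd_card hσ hrF (Dvd.dvd.trans h0 (Dvd.intro_left (q ^ 1) (by ring)))
  have hxn : (q : ZMod r) ≠ -1 := by
    intro h0
    apply hrq
    rw [← ZMod.natCast_eq_zero_iff]
    push_cast
    rw [h0]
    ring
  exact mod_of_pow_two_mul hr2 hx0 hxn hl

end form

section block

variable {F : Type*} [Field F] [Fintype F] {q : ℕ} {V : Type u} [AddCommGroup V] [Module F V] [FiniteDimensional F V] {H : V → V → F}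
  {T : V →ₗ[F] V} {r : ℕ} [hr : Fact r.Prime]

theorem orderOf_q_pos (hH : HS q H) (hrF : (r : F) ≠ 0) : 0 < orderOf (q : ZMod r) := by
  have hx0 : (q : ZMod r) ≠ 0 := by
    intro h0
    rw [ZMod.natCast_eq_zero_iff] at h0
    exact not_dvd_card hH.card hrF (Dvd.dvd.trans h0 (Dvd.intro_left (q ^ 1) (by ring)))
  have h1 : (q : ZMod r) ^ (r - 1) = 1 := ZMod.pow_card_sub_one_eq_one hx0
  apply Nat.pos_of_dvd_of_pos (orderOf_dvd_of_pow_eq_one h1)
  have := hr.out.two_le
  omega

/-- The block theorem. -/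
theorem exists_blockH (hH : HS q H) (hnd : NDH H (⊤ : Submodule F V)) (hiso : ∀ u v, H (T u) (T v) = H u v) (hTr : T ^ r = 1) (hne : T ≠ 1)
    (hr2 : r ≠ 2) (hrF : (r : F) ≠ 0) (hrq : ¬ r ∣ q + 1) :
    ∃ W : Submodule F V, InvOn T W ∧ NDH H W ∧ FixFree T W ∧ finrank F W = blkC (orderOf (q : ZMod r)) := by
  classical
  have hr0 : r ≠ 0 := hr.out.ne_zero
  have hrodd : Odd r := hr.out.odd_of_ne_two hr2
  have hq2 := hH.two_le
  have hq0 : q ≠ 0 := by omega
  have hσ := hH.card
  have hi0 := orderOf_q_pos (r := r) hH hrF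
  obtain ⟨v, hv⟩ : ∃ v, T v ≠ v := by
    by_contra hall
    apply hne
    ext v
    by_contra hv
    exact hall ⟨v, hv⟩
  have hmul : (X - C 1 : F[X]) * cyclotomic r F = X ^ r - 1 := Cfsg.Agent.Lib.PrimOrder.mul_cyc r
  have hcop1 : IsCoprime (X - C 1 : F[X]) (cyclotomic r F) := Cfsg.Agent.Lib.PrimOrder.coprime_cyc r hrF
  have hkill : ∀ y, aeval T (X ^ r - 1 : F[X]) y = 0 := by
    intro y
    rw [map_sub, map_pow, aeval_X, hTr, map_one, sub_self]
    rfl
  have hsep : (X ^ r - 1 : F[X]).Separable := by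
    have := separable_X_pow_sub_C (1 : F) hrF one_ne_zero
    simpa using this
  have hw0 : T v - v ≠ 0 := sub_ne_zero.mpr hv
  have hwk : aeval T (cyclotomic r F) (T v - v) = 0 := by
    have h1 : T v - v = aeval T (X - C 1 : F[X]) v := by simp
    rw [h1, ← aeval_mul_apply, mul_comm, hmul]
    exact hkill v
  obtain ⟨h, hh, hhd, w', hw'0, hw'⟩ := exists_factor_vec T _ _ rfl (cyclotomic_ne_zero r F) _ hw0 hwk
  have hdeg : h.natDegree = orderOf (((q : ZMod r)) ^ 2) := by
    have := natDegree_factor hσ hrF h hh hhd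
    push_cast at this
    exact this
  have hcop : IsCoprime (X - C 1 : F[X]) h := hcop1.of_isCoprime_of_dvd_right hhd
  have hfree : ∀ u, aeval T h u = 0 → T u = u → u = 0 := eq_zero_of_fix T h hcop
  obtain ⟨hb1, hb2⟩ := b_of_c (q : ZMod r)
  by_cases hmod : orderOf (q : ZMod r) % 4 = 2
  · obtain ⟨hxe, he⟩ := pow_c_eq_neg hr2 hmod
    set e := blkC (orderOf (q : ZMod r)) with hedef
    have hQ : r ∣ q ^ e + 1 := by
      rw [← ZMod.natCast_eq_zero_iff]
      push_cast
      rw [hxe]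
      ring
    obtain ⟨l, hl⟩ := he
    have hTQ : T ^ (q ^ e) = T ^ (r - 1) := by
      obtain ⟨k, hk⟩ := hQ
      have h1 : T ^ (q ^ e) * T = 1 := by
        rw [← pow_succ, hk, pow_mul, hTr, one_pow]
      calc T ^ (q ^ e) = T ^ (q ^ e) * (T * T ^ (r - 1)) := by rw [T_mul_inv hr0 hTr, mul_one]
        _ = T ^ (r - 1) := by rw [← mul_assoc, h1, one_mul]
    have hSh : ∀ u, aeval T h u = 0 → aeval (T ^ (r - 1)) (h.map (Cfsg.Agent.Lib.UnitaryBasic.sigma hσ)) u = 0 := by
      intro u hu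
      have h1 := aeval_frob (T := T) hσ h l (pow_ne_zero 2 hq0) u hu
      have h2 := aeval_sigma hσ (T ^ ((q ^ 2) ^ l)) h
      have h3 : (T ^ ((q ^ 2) ^ l)) ^ q = T ^ (r - 1) := by
        rw [← pow_mul, ← hTQ, hl]
        congr 1
        rw [pow_succ q (2 * l), pow_mul]
      rw [h3] at h2
      rw [h2]
      have h5 : ∀ (A : V →ₗ[F] V) (k : ℕ), k ≠ 0 → A u = 0 → (A ^ k) u = 0 := by
        intro A k hk hAu
        obtain ⟨k', rfl⟩ := Nat.exists_eq_succ_of_ne_zero hk
        rw [Nat.succ_eq_add_one, pow_succ, Module.End.mul_apply, hAu, map_zero]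
      exact h5 _ q hq0 h1
    set Vh : Submodule F V := LinearMap.ker (aeval T h) with hVh
    have hVhinv : InvOn T Vh := by
      intro u hu
      rw [hVh, LinearMap.mem_ker] at hu ⊢
      rw [aeval_X_comm, hu, map_zero]
    obtain ⟨g, hg⟩ : h ∣ X ^ r - 1 := hhd.trans (Dvd.intro_left _ hmul)
    have hcopg : IsCoprime h g := Separable.isCoprime (hg ▸ hsep)
    have hVhnd : NDH H Vh := by
      intro u hu h0
      apply hnd u trivial
      intro y _
      have hy : y ∈ LinearMap.ker (aeval T h) ⊔ LinearMap.ker (aeval T g) := by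
        rw [Polynomial.sup_ker_aeval_eq_ker_aeval_mul_of_coprime T hcopg, ← hg]
        exact hkill y
      obtain ⟨y₁, hy₁, y₂, hy₂, rfl⟩ := Submodule.mem_sup.mp hy
      rw [hH.add_right, h0 y₁ hy₁, zero_add]
      obtain ⟨a, b, hab⟩ := hcopg.map (Polynomial.mapRingHom (Cfsg.Agent.Lib.UnitaryBasic.sigma hσ))
      simp only [Polynomial.coe_mapRingHom] at hab
      have h1 : aeval (T ^ (r - 1)) (a * h.map (Cfsg.Agent.Lib.UnitaryBasic.sigma hσ) + b * g.map (Cfsg.Agent.Lib.UnitaryBasic.sigma hσ)) u = u := by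
        rw [hab, map_one]
        rfl
      rw [map_add, LinearMap.add_apply, aeval_mul_apply, hSh u hu, map_zero, zero_add, mul_comm, aeval_mul_apply] at h1
      rw [← h1, form_aeval hH (S' := T) (adj_inv hiso hTr), sigma_sigma_map, LinearMap.mem_ker.mp hy₂, hH.zero_right]
    have hVhbot : Vh ≠ ⊥ := (Submodule.ne_bot_iff _).2 ⟨w', hw', hw'0⟩
    obtain ⟨u, hu, huu⟩ := exists_noniso hH hVhnd hVhbot
    have hu0 : u ≠ 0 := by
      rintro rfl
      exact huu (hH.zero_left _)
    obtain ⟨U, huU, hUinv, hUfin, hUk, hUgen, hUs⟩ := exists_irr_span T h hh u hu0 hu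
    rcases rad_dichotomy hH hiso hr0 hTr hUinv hUs with hnd' | hti
    · refine ⟨U, hUinv, hnd', ?_, ?_⟩
      · intro a ha hfix
        exact hfree a (hUk a ha) hfix
      · rw [hUfin, hdeg, hb1 hmod]
    · exact absurd (hti u huU u huU) huu
  · have hc2 := hb2 hmod hi0
    have htiall : ∀ {h₁ : F[X]}, Irreducible h₁ → h₁ ∣ cyclotomic r F → ∀ {U : Submodule F V} {w : V}, InvOn T U → SimpleOn T U → (∀ u ∈ U, aeval T h₁ u = 0) →
        w ∈ U → w ≠ 0 → ∀ a ∈ U, ∀ b ∈ U, H a b = 0 := by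
      intro h₁ h1i h1d U w hUi hUs hUk hw hw0
      rcases rad_dichotomy hH hiso hr0 hTr hUi hUs with hnd' | hti
      · exact absurd (mod_of_nd_simple hH hiso hTr hr2 hrF hrq h1i h1d hUi hnd' hUk hw hw0) hmod
      · exact hti
    obtain ⟨U, huU, hUinv, hUfin, hUk, hUgen, hUs⟩ := exists_irr_span T h hh w' hw'0 hw'
    have hUti := htiall hh hhd hUinv hUs hUk huU hw'0
    obtain ⟨y, hy⟩ : ∃ y, H w' y ≠ 0 := by
      by_contra hall
      push Not at hall
      exact hw'0 (hnd w' trivial fun y _ => hall y)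
    obtain ⟨h', hh', hd', y', hk', hBy'⟩ := exists_factor_pair hH T w' _ _ rfl hsep y (hkill y) hy
    have hy'0 : y' ≠ 0 := by
      rintro rfl
      exact hBy' (hH.zero_right _)
    have hd'' : h' ∣ cyclotomic r F := by
      rw [← hmul] at hd'
      rcases hh'.prime.dvd_or_dvd hd' with hcase | hcase
      · exfalso
        obtain ⟨a, b, hab⟩ := hcop
        have h1 : aeval T (a * (X - C 1) + b * h) w' = w' := by
          rw [hab, map_one]
          rfl
        rw [map_add, LinearMap.add_apply, aeval_mul_apply T b, hw', map_zero, add_zero, mul_comm, aeval_mul_apply] at h1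
        have hTy : T y' = y' := by
          obtain ⟨k, hk⟩ := hcase
          have h3 : aeval T (X - C 1 : F[X]) y' = 0 := by
            rw [hk, mul_comm, aeval_mul_apply, hk', map_zero]
          simpa [sub_eq_zero] using h3
        apply hBy'
        rw [← h1]
        have h4 : aeval T (X - C 1 : F[X]) (aeval T a w') = T (aeval T a w') - aeval T a w' := by simp
        rw [h4, hH.sub_left]
        nth_rewrite 1 [← hTy]
        rw [hiso, sub_self]
      · exact hcase
    have hdeg' : h'.natDegree = orderOf (((q : ZMod r)) ^ 2) := by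
      have := natDegree_factor hσ hrF h' hh' hd''
      push_cast at this
      exact this
    have hcop' : IsCoprime (X - C 1 : F[X]) h' := hcop1.of_isCoprime_of_dvd_right hd''
    have hfree' : ∀ u, aeval T h' u = 0 → T u = u → u = 0 := eq_zero_of_fix T h' hcop'
    obtain ⟨U', huU', hU'inv, hU'fin, hU'k, hU'gen, hU's⟩ := exists_irr_span T h' hh' y' hy'0 hk'
    have hU'ti := htiall hh' hd'' hU'inv hU's hU'k huU' hy'0
    have hdisj : U ⊓ U' = ⊥ := by
      rcases hUs (U ⊓ U') (inv_inf hUinv hU'inv) inf_le_left with h0 | h0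
      · exact h0
      · exfalso
        have : w' ∈ U ⊓ U' := by rw [h0]; exact huU
        exact hBy' (hU'ti _ this.2 _ huU')
    have hpair1 := pair_dichotomy hH hiso hr0 hTr hUinv hU'inv hUs huU huU' hBy'
    have hpair2 := pair_dichotomy hH hiso hr0 hTr hU'inv hUinv hU's huU' huU (fun h0 => hBy' (hH.refl h0))
    refine ⟨U ⊔ U', ?_, ?_, ?_, ?_⟩
    · intro z hz
      obtain ⟨a, ha, b, hb, rfl⟩ := Submodule.mem_sup.mp hz
      rw [map_add]
      exact Submodule.add_mem_sup (hUinv a ha) (hU'inv b hb)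
    · intro z hz h0
      obtain ⟨a, ha, b, hb, rfl⟩ := Submodule.mem_sup.mp hz
      have h1 : a = 0 := by
        apply hpair1 a ha
        intro t ht
        have h3 := h0 t (Submodule.mem_sup_right ht)
        rw [hH.add_left, hU'ti b hb t ht, add_zero] at h3
        exact h3
      have h2 : b = 0 := by
        apply hpair2 b hb
        intro t ht
        have h3 := h0 t (Submodule.mem_sup_left ht)
        rw [hH.add_left, hUti a ha t ht, zero_add] at h3
        exact h3
      rw [h1, h2, add_zero]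
    · intro z hz hfix
      obtain ⟨a, ha, b, hb, rfl⟩ := Submodule.mem_sup.mp hz
      have h1 : T a - a = b - T b := by
        rw [map_add] at hfix
        linear_combination (norm := abel_nf) hfix
      have h3 : T a - a ∈ U ⊓ U' := ⟨U.sub_mem (hUinv a ha) ha, by
        rw [h1]
        exact U'.sub_mem hb (hU'inv b hb)⟩
      rw [hdisj, Submodule.mem_bot] at h3
      have h4 : T a = a := sub_eq_zero.mp h3
      have h5 : T b = b := by
        have h6 : b - T b = 0 := by rw [← h1]; exact h3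
        exact (sub_eq_zero.mp h6).symm
      rw [hfree a (hUk a ha) h4, hfree' b (hU'k b hb) h5, add_zero]
    · have h2 := Submodule.finrank_sup_add_finrank_inf_eq U U'
      rw [hdisj, finrank_bot, add_zero, hUfin, hU'fin, hdeg, hdeg'] at h2
      rw [hc2]
      omega

/-- The block theorem inside an invariant nondegenerate subspace. -/
theorem exists_block_rel (hH : HS q H) (hiso : ∀ u v, H (T u) (T v) = H u v) (hTr : T ^ r = 1) (hr2 : r ≠ 2) (hrF : (r : F) ≠ 0) (hrq : ¬ r ∣ q + 1)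
    {U : Submodule F V} (hU : NDH H U) (hinv : InvOn T U) (hne : ∃ u ∈ U, T u ≠ u) :
    ∃ W : Submodule F V, W ≤ U ∧ InvOn T W ∧ NDH H W ∧ FixFree T W ∧ finrank F W = blkC (orderOf (q : ZMod r)) := by
  classical
  let H' : U → U → F := fun a b => H a b
  let T' : U →ₗ[F] U := T.restrict hinv
  have hT'a : ∀ a : U, ((T' a : U) : V) = T a := fun a => rfl
  have hT'p : ∀ (k : ℕ) (u : U), (((T' ^ k) u : U) : V) = (T ^ k) u := by
    intro k
    induction k with
    | zero => simp
    | succ k ih =>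
      intro u
      rw [pow_succ, pow_succ, Module.End.mul_apply, Module.End.mul_apply, ih, hT'a]
  have hH' : HS q H' := ⟨hH.card, fun a b c => hH.add_left _ _ _, fun k a c => hH.smul_left _ _ _, fun a b => hH.conj _ _⟩
  obtain ⟨W', h1, h2, h3, h4⟩ := exists_blockH (H := H') (T := T') hH'
    (fun v _ hv => Subtype.ext (hU v.1 v.2 fun w hw => hv ⟨w, hw⟩ trivial))
    (fun a b => hiso a b)
    (by
      ext u
      rw [hT'p, hTr]
      rfl)
    (by
      intro h0
      obtain ⟨u, hu, hu2⟩ := hne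
      apply hu2
      have := congrArg Subtype.val (LinearMap.congr_fun h0 ⟨u, hu⟩)
      exact this) hr2 hrF hrq
  refine ⟨W'.map U.subtype, ?_, ?_, ?_, ?_, ?_⟩
  · exact Submodule.map_subtype_le U W'
  · rintro _ ⟨a, ha, rfl⟩
    exact ⟨T' a, h1 a ha, rfl⟩
  · rintro _ ⟨a, ha, rfl⟩ h0
    have : a = 0 := h2 a ha fun w hw => h0 _ ⟨w, hw, rfl⟩
    rw [this]
    simp
  · rintro _ ⟨a, ha, rfl⟩ h0
    have : a = 0 := h3 a ha (Subtype.ext h0)
    rw [this]
    simp
  · rw [← h4]
    exact Submodule.finrank_map_subtype_eq U W'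

/-- Dimensions of fixed-point-free invariant subspaces are multiples of the block size. -/
theorem dvd_finrank_of_fixfree (hH : HS q H) (hiso : ∀ u v, H (T u) (T v) = H u v) (hTr : T ^ r = 1) (hr2 : r ≠ 2) (hrF : (r : F) ≠ 0) (hrq : ¬ r ∣ q + 1) :
    ∀ (n : ℕ) (U : Submodule F V), finrank F U = n → NDH H U → InvOn T U → FixFree T U → blkC (orderOf (q : ZMod r)) ∣ n := by
  intro n
  induction n using Nat.strong_induction_on with
  | _ n ih =>
    intro U hn hU hinv hfree
    by_cases hbot : U = ⊥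
    · subst hbot
      rw [finrank_bot] at hn
      rw [← hn]
      exact dvd_zero _
    obtain ⟨u, hu, hu0⟩ := (Submodule.ne_bot_iff U).mp hbot
    obtain ⟨W, hWU, hWinv, hWnd, hWfree, hWfin⟩ := exists_block_rel hH hiso hTr hr2 hrF hrq hU hinv ⟨u, hu, fun h => hu0 (hfree u hu h)⟩
    have h1 := finrank_rel hH hWU hWnd
    rw [hWfin] at h1
    have hpos := blkC_pos (orderOf_q_pos (r := r) hH hrF)
    have hlt : finrank F (U ⊓ perpH hH W : Submodule F V) < n := by omega
    have h2 := ih _ hlt (U ⊓ perpH hH W) rfl (nd_rel hH hWU hWnd hU)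
      (inv_inf hinv (inv_perp hH hiso hr.out.ne_zero hTr hWinv)) (fun u hu hfix => hfree u hu.1 hfix)
    rw [← hn, ← h1]
    exact Dvd.dvd.add (dvd_refl _) h2

/-- The fixed space has the expected dimension modulo the block size. -/
theorem finrank_fix_add (hH : HS q H) (hiso : ∀ u v, H (T u) (T v) = H u v) (hTr : T ^ r = 1) (hr2 : r ≠ 2) (hrF : (r : F) ≠ 0) (hrq : ¬ r ∣ q + 1)
    {U : Submodule F V} (hU : NDH H U) (hinv : InvOn T U) :
    ∃ k, finrank F U = finrank F (fixS T U) + blkC (orderOf (q : ZMod r)) * k := by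
  have h0 := nd_fixS hH hiso hr.out.ne_zero hrF hTr hU hinv
  have h1 := finrank_rel hH (fixS_le U) h0
  have h2 := dvd_finrank_of_fixfree hH hiso hTr hr2 hrF hrq _ (U ⊓ perpH hH (fixS T U)) rfl (nd_rel hH (fixS_le U) h0 hU)
    (inv_inf hinv (inv_perp hH hiso hr.out.ne_zero hTr (inv_fixS U))) (by
      intro u hu hfix
      apply h0 u (mem_fixS.mpr ⟨hu.1, hfix⟩)
      intro w hw
      exact hH.refl (hu.2 w hw))
  obtain ⟨k, hk⟩ := h2
  exact ⟨k, by rw [← h1, hk]⟩

/-- Invariant subspaces of the right dimensions exist. -/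
theorem exists_sub_dim (hH : HS q H) (hnd : NDH H (⊤ : Submodule F V)) (hiso : ∀ u v, H (T u) (T v) = H u v) (hTr : T ^ r = 1) (hr2 : r ≠ 2) (hrF : (r : F) ≠ 0)
    (hrq : ¬ r ∣ q + 1) {n m : ℕ} (hn : finrank F V = n) (hm : m ≤ n)
    (hmod : m % blkC (orderOf (q : ZMod r)) ≤ n % blkC (orderOf (q : ZMod r))) :
    ∃ W : Submodule F V, finrank F W = m ∧ NDH H W ∧ InvOn T W := by
  classical
  have hr0 := hr.out.ne_zero
  set c := blkC (orderOf (q : ZMod r)) with hc
  have hcpos : 0 < c := blkC_pos (orderOf_q_pos (r := r) hH hrF)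
  have hinvT : InvOn T (⊤ : Submodule F V) := fun _ _ => trivial
  have h0 := nd_fixS hH hiso hr0 hrF hTr hnd hinvT
  have hfr := finrank_rel hH (le_top : fixS T ⊤ ≤ ⊤) h0
  rw [finrank_top, hn] at hfr
  have hU₂inv : InvOn T ((⊤ : Submodule F V) ⊓ perpH hH (fixS T ⊤)) :=
    inv_inf hinvT (inv_perp hH hiso hr0 hTr (inv_fixS ⊤))
  have hU₂nd := nd_rel hH (le_top : fixS T ⊤ ≤ ⊤) h0 hnd
  have hU₂free : FixFree T ((⊤ : Submodule F V) ⊓ perpH hH (fixS T ⊤)) := by
    intro u hu hfix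
    apply h0 u (mem_fixS.mpr ⟨trivial, hfix⟩)
    intro w hw
    exact hH.refl (hu.2 w hw)
  obtain ⟨k₁, hk₁⟩ := dvd_finrank_of_fixfree hH hiso hTr hr2 hrF hrq _ _ rfl hU₂nd hU₂inv hU₂free
  obtain ⟨t₁, ht₁⟩ : ∃ t₁, t₁ = finrank F (fixS T (⊤ : Submodule F V)) := ⟨_, rfl⟩
  rw [← ht₁] at hfr
  rw [← hc] at hk₁
  rw [hk₁] at hfr
  -- the numbers
  have hmodn : n % c = t₁ % c := by
    rw [← hfr, Nat.add_mul_mod_self_left]
  have ht₁c : n % c ≤ t₁ := by
    rw [hmodn]
    exact Nat.mod_le _ _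
  obtain ⟨a₂, ha₂⟩ : ∃ a₂, a₂ = min (m / c) k₁ := ⟨_, rfl⟩
  have hcm : c * (m / c) + m % c = m := Nat.div_add_mod m c
  have hle₂ : c * a₂ ≤ c * k₁ := Nat.mul_le_mul_left _ (by rw [ha₂]; exact min_le_right _ _)
  have hle₃ : c * a₂ ≤ c * (m / c) := Nat.mul_le_mul_left _ (by rw [ha₂]; exact min_le_left _ _)
  have ha₁ : m - c * a₂ ≤ t₁ := by
    rcases le_total (m / c) k₁ with h | h
    · have : a₂ = m / c := by rw [ha₂, min_eq_left h]
      rw [this]
      omega
    · have : a₂ = k₁ := by rw [ha₂, min_eq_right h]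
      rw [this]
      omega
  obtain ⟨W₁, hW₁le, hW₁nd, hW₁fin⟩ := exists_nd_sub hH (m - c * a₂) (fixS T ⊤) h0 (by rw [← ht₁]; exact ha₁)
  -- the free part
  have hsub : ∀ (a : ℕ) (U : Submodule F V), NDH H U → InvOn T U → FixFree T U → c * a ≤ finrank F U →
      ∃ W ≤ U, NDH H W ∧ InvOn T W ∧ finrank F W = c * a := by
    intro a
    induction a with
    | zero =>
      intro U _ _ _ _
      refine ⟨⊥, bot_le, ndH_bot, fun u hu => ?_, by simp⟩
      rw [(Submodule.mem_bot F).1 hu, map_zero]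
      exact Submodule.zero_mem _
    | succ a ih =>
      intro U hU hinv hfree hle
      have hle1 : c ≤ finrank F U := by
        rw [mul_add, mul_one] at hle
        omega
      have hne : U ≠ ⊥ := by
        rintro rfl
        rw [finrank_bot] at hle1
        omega
      obtain ⟨u, hu, hu0⟩ := (Submodule.ne_bot_iff U).1 hne
      obtain ⟨W, hWU, hWinv, hWnd, hWfree, hWs⟩ := exists_block_rel hH hiso hTr hr2 hrF hrq hU hinv ⟨u, hu, fun h => hu0 (hfree u hu h)⟩
      have hfr' := finrank_rel hH hWU hWnd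
      obtain ⟨W', hW'U, hW'nd, hW'inv, hW'fin⟩ := ih (U ⊓ perpH hH W) (nd_rel hH hWU hWnd hU)
        (inv_inf hinv (inv_perp hH hiso hr0 hTr hWinv)) (fun u hu hfix => hfree u hu.1 hfix) (by
          rw [mul_add, mul_one] at hle
          rw [← hc] at hWs
          omega)
      have horth : ∀ u ∈ W, ∀ v ∈ W', H u v = 0 := fun u hu v hv => (hW'U hv).2 u hu
      refine ⟨W ⊔ W', sup_le hWU (hW'U.trans inf_le_left), nd_sup hH hWnd hW'nd horth, ?_, ?_⟩
      · intro z hz
        obtain ⟨x, hx, y, hy, rfl⟩ := Submodule.mem_sup.mp hz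
        rw [map_add]
        exact Submodule.add_mem_sup (hWinv x hx) (hW'inv y hy)
      · rw [finrank_sup_orth hH hWnd horth, hWs, hW'fin, mul_add, mul_one, add_comm]
  obtain ⟨W₂, hW₂le, hW₂nd, hW₂inv, hW₂fin⟩ := hsub a₂ _ hU₂nd hU₂inv hU₂free (by
    rw [hk₁]
    exact hle₂)
  have horth : ∀ u ∈ W₁, ∀ v ∈ W₂, H u v = 0 := fun u hu v hv => (hW₂le hv).2 u (hW₁le hu)
  refine ⟨W₁ ⊔ W₂, ?_, nd_sup hH hW₁nd hW₂nd horth, ?_⟩
  · rw [finrank_sup_orth hH hW₁nd horth, hW₁fin, hW₂fin]
    omega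
  · intro z hz
    obtain ⟨x, hx, y, hy, rfl⟩ := Submodule.mem_sup.mp hz
    rw [map_add, (mem_fixS.mp (hW₁le hx)).2]
    exact Submodule.add_mem_sup hx (hW₂inv y hy)

end block

end Cfsg.Agent.Lib.HSBase
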