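import Mathlib
import Cfsg.Agent.Lib.HSSemi
import Cfsg.Agent.Lib.HSCount

/-!
# Semisimple isometries of odd prime order: forward, backward and the final criterion
-/

set_option autoImplicit false

namespace Cfsg.Agent.Lib.HSBase

open Polynomial Module Matrix
open Cfsg.Agent.Lib.IsomBlock (InvOn FixFree SimpleOn fixS mem_fixS fixS_le inv_fixS inv_pow inv_inf exists_irr_span inv_aeval aeval_comm aeval_mul_apply aeval_X_comm exists_factor_vec eq_zero_of_fix natDegree_factor aeval_frob expand_card_pow not_dvd_card)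
open Cfsg.Agent.S5984 (HK HK_add HK_smul HK_herm HK_nd HK_mul)
open Cfsg

set_option linter.unusedSimpArgs false
set_option linter.unusedVariables false
set_option linter.unusedSectionVars false

section det

variable {F : Type*} [Field F] [Fintype F] {q n : ℕ} {X : Type*} [AddCommGroup X] [Module F X] [FiniteDimensional F X] {H : X → X → F}

theorem det_norm_one (hH : HS q H) (hnd : NDH H (⊤ : Submodule F X)) (hk : finrank F X = n) (T : X →ₗ[F] X)
    (hiso : ∀ u v, H (T u) (T v) = H u v) : (LinearMap.det T) ^ (q + 1) = 1 := by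
  classical
  obtain ⟨E, hE⟩ := Cfsg.Agent.S5984.exists_herm_equiv (q := q) H hH.add_left hH.smul_left (fun v w => (hH.conj w v).symm) hH.card
    (fun v hv => hnd v trivial fun w _ => hv w) hk
  let f : (Fin n → F) →ₗ[F] (Fin n → F) := (E.symm : X →ₗ[F] (Fin n → F)) ∘ₗ T ∘ₗ (E : (Fin n → F) →ₗ[F] X)
  have hf : ∀ v, E (f v) = T (E v) := fun v => by
    simp [f]
  have hdet : LinearMap.det f = LinearMap.det T := by
    have : f = (E.symm : X →ₗ[F] (Fin n → F)) ∘ₗ T ∘ₗ ((E.symm.symm : (Fin n → F) ≃ₗ[F] X) : (Fin n → F) →ₗ[F] X) := rfl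
    rw [this, LinearMap.det_conj]
  have hA : ∀ u v, hermForm n F q (LinearMap.toMatrix' f *ᵥ u) (LinearMap.toMatrix' f *ᵥ v) = hermForm n F q u v := by
    intro u v
    rw [LinearMap.toMatrix'_mulVec, LinearMap.toMatrix'_mulVec, ← hE, ← hE, hf, hf, hiso]
  have h := Cfsg.Agent.Lib.UnitarySU.nrm_det hH.card hA
  rw [Cfsg.Agent.Lib.HermCount.nrm_eq_pow, LinearMap.det_toMatrix', hdet] at h
  exact h

theorem eq_one_of_two_pow {z : F} {r : ℕ} [hr : Fact r.Prime] (h1 : z ^ r = 1) (h2 : z ^ (q + 1) = 1) (hrq : ¬ r ∣ q + 1) : z = 1 := by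
  have hcop : Nat.Coprime r (q + 1) := (Nat.Prime.coprime_iff_not_dvd hr.out).2 hrq
  have := pow_gcd_eq_one.2 ⟨h1, h2⟩
  rw [hcop.gcd_eq_one, pow_one] at this
  exact this

theorem prodMap_pow_apply {Y Y' : Type*} [AddCommGroup Y] [Module F Y] [AddCommGroup Y'] [Module F Y'] (A : Y →ₗ[F] Y) (B : Y' →ₗ[F] Y') (s : ℕ) (x : Y × Y') :
    ((A.prodMap B) ^ s) x = ((A ^ s) x.1, (B ^ s) x.2) := by
  induction s generalizing x with
  | zero => simp
  | succ s ih =>
    rw [pow_succ, Module.End.mul_apply, ih, pow_succ, pow_succ]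
    rfl

end det

section fwd

variable {F : Type*} [Field F] [Fintype F] {q : ℕ} {V : Type*} [AddCommGroup V] [Module F V] [FiniteDimensional F V] {H : V → V → F}
variable {r : ℕ} [hr : Fact r.Prime]

theorem fwdU3 (hH : HS q H) (hnd : NDH H (⊤ : Submodule F V)) {n m : ℕ} (hn : finrank F V = n) (hn0 : 0 < n) (hm : m ≤ n)
    (hr2 : r ≠ 2) (hrF : (r : F) ≠ 0) (hrq : ¬ r ∣ q + 1) {f : V →ₗ[F] V} (hiso : ∀ u v, H (f u) (f v) = H u v) {z : F} (hz : f ^ r = z • 1)
    (hmod : m % blkC (orderOf (q : ZMod r)) ≤ n % blkC (orderOf (q : ZMod r))) :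
    ∃ W : Submodule F V, finrank F W = m ∧ NDH H W ∧ InvOn f W := by
  classical
  haveI : Nontrivial V := Module.nontrivial_of_finrank_pos (R := F) (by omega)
  have hq2 := hH.two_le
  have hzn := scalar_norm hH hnd hiso hz
  have hcop : Nat.Coprime r (q + 1) := (Nat.Prime.coprime_iff_not_dvd hr.out).2 hrq
  obtain ⟨s, -, hs⟩ := Nat.exists_mul_mod_eq_one_of_coprime hcop (by omega : 1 < q + 1)
  obtain ⟨w, hwdef⟩ : ∃ w : F, w = z ^ s := ⟨_, rfl⟩
  have hw : w ^ r = z := by
    have h1 : s * r = (q + 1) * (r * s / (q + 1)) + 1 := by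
      have := Nat.div_add_mod (r * s) (q + 1)
      rw [hs] at this
      rw [mul_comm s r]
      exact this.symm
    rw [hwdef, ← pow_mul, h1, pow_succ, pow_mul, hzn, one_pow, one_mul]
  have hwn : w ^ (q + 1) = 1 := by
    rw [hwdef, ← pow_mul, mul_comm, pow_mul, hzn, one_pow]
  have hw0 : w ≠ 0 := by
    rintro rfl
    rw [zero_pow (by omega)] at hwn
    exact zero_ne_one hwn
  have hcn : (w⁻¹) ^ (q + 1) = 1 := by rw [_root_.inv_pow, hwn, inv_one]
  have hyr : (w⁻¹ • f) ^ r = 1 := by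
    have hz0 : z * (w⁻¹) ^ r = 1 := by
      rw [_root_.inv_pow, hw, mul_inv_cancel₀]
      rw [← hw]
      exact pow_ne_zero _ hw0
    rw [_root_.smul_pow, hz, smul_smul, mul_comm, hz0, one_smul]
  have hisoy := smul_iso hH hiso hcn
  obtain ⟨W, h1, h2, h3⟩ := exists_sub_dim hH hnd hisoy hyr hr2 hrF hrq hn hm hmod
  exact ⟨W, h1, h2, inv_of_smul (inv_ne_zero hw0) h3⟩

end fwd

section bwd

variable {F : Type*} [Field F] [Fintype F] {q : ℕ} {r : ℕ} [hr : Fact r.Prime]

theorem bwdU3_of_block {Y : Type*} [AddCommGroup Y] [Module F Y] [FiniteDimensional F Y] {H₀ : Y → Y → F} (hH₀ : HS q H₀)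
    (hnd₀ : NDH H₀ (⊤ : Submodule F Y)) (T₀ : Y →ₗ[F] Y) (hiso₀ : ∀ u v, H₀ (T₀ u) (T₀ v) = H₀ u v) (hpow₀ : T₀ ^ r = 1)
    (hfree : ∀ y, T₀ y = y → y = 0) {n m : ℕ} (hc : finrank F Y = blkC (orderOf (q : ZMod r))) (hr2 : r ≠ 2) (hrF : (r : F) ≠ 0)
    (hrq : ¬ r ∣ q + 1) (hmod : ¬ m % blkC (orderOf (q : ZMod r)) ≤ n % blkC (orderOf (q : ZMod r))) : ∃ f, BadF n m r F q f := by
  classical
  have hF := hH₀.card
  have hcpos : 0 < blkC (orderOf (q : ZMod r)) := blkC_pos (orderOf_q_pos hH₀ hrF)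
  rw [← hc] at hmod hcpos
  obtain ⟨c, hcd⟩ : ∃ c, c = finrank F Y := ⟨_, rfl⟩
  rw [← hcd] at hmod hcpos
  have hH := hs_prod (hs_pi hH₀ (n / c)) (hermHS (n := n % c) hF)
  have hnd := nd_prod (hs_pi hH₀ (n / c)) (hermHS (n := n % c) hF) (nd_pi hH₀ hnd₀ (n / c)) (herm_nd (n := n % c) hF)
  have hk : finrank F ((Fin (n / c) → Y) × (Fin (n % c) → F)) = n := by
    rw [Module.finrank_prod, finrank_piY, Module.finrank_fin_fun, ← hcd]
    exact Nat.div_add_mod' n c
  let T : ((Fin (n / c) → Y) × (Fin (n % c) → F)) →ₗ[F] ((Fin (n / c) → Y) × (Fin (n % c) → F)) := (piMap T₀ (n / c)).prodMap LinearMap.id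
  have hT : ∀ x, T x = (piMap T₀ (n / c) x.1, x.2) := fun x => rfl
  have hiso : ∀ u v, (fun x y : (Fin (n / c) → Y) × (Fin (n % c) → F) => ∑ i, H₀ (x.1 i) (y.1 i) + hermForm (n % c) F q x.2 y.2) (T u) (T v) =
      (fun x y : (Fin (n / c) → Y) × (Fin (n % c) → F) => ∑ i, H₀ (x.1 i) (y.1 i) + hermForm (n % c) F q x.2 y.2) u v := by
    intro u v
    simp only [hT, piMap_apply, hiso₀]
  have hTr : T ^ r = 1 := by
    apply LinearMap.ext
    intro x
    rw [prodMap_pow_apply]
    apply Prod.ext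
    · funext i
      show (piMap T₀ (n / c) ^ r) x.1 i = x.1 i
      rw [piMap_pow, hpow₀]
      rfl
    · show ((1 : (Fin (n % c) → F) →ₗ[F] (Fin (n % c) → F)) ^ r) x.2 = x.2
      rw [one_pow]
      rfl
  have hdet : LinearMap.det T = 1 := by
    apply eq_one_of_two_pow (r := r) (q := q) _ (det_norm_one hH hnd hk T hiso) hrq
    rw [← map_pow, hTr, map_one]
  refine exists_bad_of_model hF hH hnd hk T hiso hdet ⟨1, by rw [one_smul]; exact hTr⟩ ?_
  intro W hWm hWnd hWinv
  obtain ⟨k, hkk⟩ := finrank_fix_add hH hiso hTr hr2 hrF hrq hWnd hWinv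
  rw [← hc, ← hcd, hWm] at hkk
  apply hmod
  have hle : finrank F (fixS T W) ≤ n % c := by
    have hinj : Function.Injective ((LinearMap.snd F (Fin (n / c) → Y) (Fin (n % c) → F)) ∘ₗ (fixS T W).subtype) := by
      rw [← LinearMap.ker_eq_bot, LinearMap.ker_eq_bot']
      rintro ⟨x, hx⟩ h0
      have hx2 : x.2 = 0 := h0
      have hx1 := (mem_fixS.1 hx).2
      rw [hT] at hx1
      have hx3 : x.1 = 0 := by
        funext i
        apply hfree
        have := congrFun (congrArg Prod.fst hx1) i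
        exact this
      apply Subtype.ext
      exact Prod.ext hx3 hx2
    have := LinearMap.finrank_le_finrank_of_injective hinj
    rwa [Module.finrank_fin_fun] at this
  have hlt : n % c < c := Nat.mod_lt _ hcpos
  rw [hkk, Nat.add_mul_mod_self_left, Nat.mod_eq_of_lt (by omega)]
  exact hle

/-- The extension-field block when `i ≡ 2 (mod 4)`. -/
theorem bwdC2 (hF : Fintype.card F = q ^ 2) (hr2 : r ≠ 2) (hrF : (r : F) ≠ 0) (hrq : ¬ r ∣ q + 1) (hi : orderOf (q : ZMod r) % 4 = 2) {n m : ℕ}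
    (hmod : ¬ m % blkC (orderOf (q : ZMod r)) ≤ n % blkC (orderOf (q : ZMod r))) : ∃ f, BadF n m r F q f := by
  classical
  have hq2 := Cfsg.Agent.Lib.HermCount.two_le_q hF
  obtain ⟨c, hc⟩ : ∃ c, c = blkC (orderOf (q : ZMod r)) := ⟨_, rfl⟩
  obtain ⟨h1, h2⟩ := pow_c_eq_neg (x := (q : ZMod r)) hr2 hi
  rw [← hc] at h1 h2
  have hc0 : c ≠ 0 := by
    rintro rfl
    simp at h2
  haveI : NeZero c := ⟨hc0⟩
  obtain ⟨p', k, hp', hcp', hqk⟩ := Cfsg.Agent.Lib.HermForm.exists_char_pow hF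
  haveI : Fact p'.Prime := ⟨hp'⟩
  let K := FiniteField.Extension F p' c
  haveI : Fintype K := Fintype.ofFinite K
  have hK : finrank F K = c := FiniteField.finrank_extension F p' c
  obtain ⟨τ, hτ, hτ2, hτF⟩ := exists_tau hF hK h2
  have hrc : r ∣ q ^ c + 1 := by
    rw [← ZMod.natCast_eq_zero_iff]
    push_cast
    rw [h1]
    ring
  have hcardK : Fintype.card K = (q ^ c) ^ 2 := by
    rw [Module.card_eq_pow_finrank (K := F) (V := K), hK, hF, ← pow_mul, ← pow_mul, mul_comm]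
  have hq1 : 1 ≤ q ^ c := Nat.one_le_pow _ _ (by omega)
  have hdiv : r ∣ Nat.card Kˣ := by
    rw [Nat.card_eq_fintype_card, Fintype.card_units, hcardK]
    have : (q ^ c) ^ 2 - 1 = (q ^ c + 1) * (q ^ c - 1) := by
      zify [hq1, Nat.one_le_pow 2 _ hq1]
      ring
    rw [this]
    exact Dvd.dvd.mul_right hrc _
  obtain ⟨ζ, hζ⟩ := exists_prime_orderOf_dvd_card' r hdiv
  have hζr : ((ζ : K)) ^ r = 1 := by
    rw [← Units.val_pow_eq_pow_val, ← hζ, pow_orderOf_eq_one, Units.val_one]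
  have hζ1 : (ζ : K) ≠ 1 := by
    intro h
    have : ζ = 1 := Units.ext h
    rw [this, orderOf_one] at hζ
    exact hr.out.one_lt.ne hζ
  have hnorm : (ζ : K) * τ ζ = 1 := by
    rw [hτ, ← pow_succ']
    obtain ⟨d, hd⟩ := hrc
    rw [hd, pow_mul, hζr, one_pow]
  refine bwdU3_of_block (hk_hs hF τ hτ2 hτF) (hk_nd τ hτ2) (LinearMap.mulLeft F (ζ : K)) ?_ ?_ ?_ (hK.trans hc) hr2 hrF hrq hmod
  · intro u v
    exact HK_mul τ hnorm u v
  · apply LinearMap.ext
    intro y
    rw [mulLeft_pow, hζr, one_mul]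
    rfl
  · intro y hy
    rw [LinearMap.mulLeft_apply] at hy
    have : ((ζ : K) - 1) * y = 0 := by
      rw [sub_mul, hy, one_mul, sub_self]
    rcases mul_eq_zero.1 this with h | h
    · exact absurd (sub_eq_zero.1 h) hζ1
    · exact h

/-- The Hermitian form on a pair of dual spaces. -/
noncomputable def HPair (F : Type*) [Field F] [Fintype F] {K : Type*} [Field K] [Fintype K] [Algebra F K] (q : ℕ) (φ : K →+* K) (x y : K × K) : F :=
  Algebra.trace F K (x.1 * φ y.2) + (Algebra.trace F K (y.1 * φ x.2)) ^ q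

theorem hpair_hs {K : Type*} [Field K] [Fintype K] [Algebra F K] (hF : Fintype.card F = q ^ 2) (φ : K →+* K)
    (hφF : ∀ c : F, φ (algebraMap F K c) = algebraMap F K (c ^ q)) : HS q (HPair F q φ) where
  card := hF
  add_left := fun a b c => by
    simp only [HPair, Prod.fst_add, Prod.snd_add, add_mul, mul_add, map_add, Cfsg.Agent.Lib.HermCount.add_pow_q hF]
    ring
  smul_left := fun k a c => by
    simp only [HPair, Prod.smul_fst, Prod.smul_snd]
    have e1 : (k • a.1) * φ c.2 = k • (a.1 * φ c.2) := by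
      rw [Algebra.smul_def, Algebra.smul_def]
      ring
    have e2 : c.1 * φ (k • a.2) = (k ^ q) • (c.1 * φ a.2) := by
      rw [Algebra.smul_def, map_mul, hφF, Algebra.smul_def]
      ring
    rw [e1, e2, LinearMap.map_smul, LinearMap.map_smul, smul_eq_mul, smul_eq_mul, mul_pow, Cfsg.Agent.Lib.HermCount.pow_q_pow_q hF, mul_add]
  conj := fun a b => by
    simp only [HPair]
    rw [Cfsg.Agent.Lib.HermCount.add_pow_q hF, Cfsg.Agent.Lib.HermCount.pow_q_pow_q hF, add_comm]

theorem hpair_nd {K : Type*} [Field K] [Fintype K] [Algebra F K] (φ : K →+* K) (hφ : Function.Surjective φ) (hq0 : q ≠ 0) :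
    NDH (HPair F q φ) (⊤ : Submodule F (K × K)) := by
  intro u _ h
  apply Prod.ext
  · apply (traceForm_nondegenerate F K).1
    intro z
    obtain ⟨y, rfl⟩ := hφ z
    have := h ((0 : K), y) trivial
    simp only [HPair, zero_mul, map_zero, zero_pow hq0, add_zero] at this
    simpa [Algebra.traceForm_apply] using this
  · have hφ0 : φ u.2 = 0 := by
      apply (traceForm_nondegenerate F K).1
      intro z
      have := h (z, (0 : K)) trivial
      simp only [HPair, map_zero, mul_zero, zero_add] at this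
      have h2 := pow_eq_zero_iff hq0 |>.1 this
      simp only [Algebra.traceForm_apply]
      rwa [mul_comm]
    have hinj : Function.Injective φ := φ.injective
    show u.2 = 0
    exact hinj (hφ0.trans (map_zero φ).symm)

/-- The hyperbolic-pair block when `i ≢ 2 (mod 4)`. -/
theorem bwdC4 (hF : Fintype.card F = q ^ 2) (hr2 : r ≠ 2) (hrF : (r : F) ≠ 0) (hrq : ¬ r ∣ q + 1) (hpos : 0 < orderOf (q : ZMod r))
    (hi : orderOf (q : ZMod r) % 4 ≠ 2) {n m : ℕ}
    (hmod : ¬ m % blkC (orderOf (q : ZMod r)) ≤ n % blkC (orderOf (q : ZMod r))) : ∃ f, BadF n m r F q f := by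
  classical
  have hq2 := Cfsg.Agent.Lib.HermCount.two_le_q hF
  have hq0 : q ≠ 0 := by omega
  obtain ⟨b, hb⟩ : ∃ b, b = orderOf ((q : ZMod r) ^ 2) := ⟨_, rfl⟩
  have hcb : blkC (orderOf (q : ZMod r)) = 2 * b := by
    rw [hb]
    exact (b_of_c (q : ZMod r)).2 hi hpos
  have hb0 : b ≠ 0 := by
    rintro rfl
    have := blkC_pos hpos
    omega
  have hbp : ((q : ZMod r) ^ 2) ^ b = 1 := by
    rw [hb]
    exact pow_orderOf_eq_one _
  haveI : NeZero b := ⟨hb0⟩
  obtain ⟨p', k, hp', hcp', hqk⟩ := Cfsg.Agent.Lib.HermForm.exists_char_pow hF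
  haveI : Fact p'.Prime := ⟨hp'⟩
  let K := FiniteField.Extension F p' b
  haveI : Fintype K := Fintype.ofFinite K
  have hK : finrank F K = b := FiniteField.finrank_extension F p' b
  haveI hcK : CharP K p' := charP_of_injective_algebraMap (algebraMap F K).injective p'
  let φ : K →+* K :=
    { toFun := fun a => a ^ q
      map_one' := one_pow _
      map_mul' := fun a b => mul_pow a b _
      map_zero' := zero_pow hq0
      map_add' := fun a b => by
        rw [hqk]
        exact add_pow_char_pow a b p' k }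
  have hφ : ∀ a, φ a = a ^ q := fun a => rfl
  have hφinj : Function.Injective φ := φ.injective
  have hφsurj : Function.Surjective φ := Finite.injective_iff_surjective.1 hφinj
  have hφF : ∀ c : F, φ (algebraMap F K c) = algebraMap F K (c ^ q) := by
    intro c
    rw [hφ, map_pow]
  have hcardK : Fintype.card K = (q ^ 2) ^ b := by
    rw [Module.card_eq_pow_finrank (K := F) (V := K), hK, hF]
  have hq1 : 1 ≤ (q ^ 2) ^ b := Nat.one_le_pow _ _ (by positivity)
  have hdiv : r ∣ Nat.card Kˣ := by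
    rw [Nat.card_eq_fintype_card, Fintype.card_units, hcardK]
    rw [← ZMod.natCast_eq_zero_iff, Nat.cast_sub hq1]
    push_cast
    rw [hbp, sub_self]
  obtain ⟨θ, hθ⟩ := exists_prime_orderOf_dvd_card' r hdiv
  have hθr : ((θ : K)) ^ r = 1 := by
    rw [← Units.val_pow_eq_pow_val, ← hθ, pow_orderOf_eq_one, Units.val_one]
  have hθ1 : (θ : K) ≠ 1 := by
    intro h
    have : θ = 1 := Units.ext h
    rw [this, orderOf_one] at hθ
    exact hr.out.one_lt.ne hθ
  have hθ0 : (θ : K) ≠ 0 := Units.ne_zero θ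
  obtain ⟨θ', hθ'⟩ := hφsurj ((θ : K)⁻¹)
  have hθ'r : θ' ^ r = 1 := by
    apply hφinj
    rw [map_pow, hθ', _root_.inv_pow, hθr, inv_one, map_one]
  have hθ'1 : θ' ≠ 1 := by
    rintro rfl
    rw [map_one] at hθ'
    exact hθ1 (inv_eq_one.1 hθ'.symm)
  refine bwdU3_of_block (hpair_hs hF φ hφF) (hpair_nd φ hφsurj hq0) ((LinearMap.mulLeft F (θ : K)).prodMap (LinearMap.mulLeft F θ')) ?_ ?_ ?_ ?_ hr2 hrF hrq hmod
  · intro u v
    simp only [HPair, LinearMap.prodMap_apply, LinearMap.mulLeft_apply, Prod.fst, Prod.snd, map_mul, hθ']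
    have e : ∀ a c : K, (θ : K) * a * ((θ : K)⁻¹ * c) = a * c := by
      intro a c
      calc (θ : K) * a * ((θ : K)⁻¹ * c) = ((θ : K) * (θ : K)⁻¹) * (a * c) := by ring
        _ = a * c := by rw [mul_inv_cancel₀ hθ0, one_mul]
    rw [e, e]
  · apply LinearMap.ext
    intro x
    rw [prodMap_pow_apply]
    apply Prod.ext
    · show ((LinearMap.mulLeft F (θ : K)) ^ r) x.1 = x.1
      rw [mulLeft_pow, hθr, one_mul]
    · show ((LinearMap.mulLeft F θ') ^ r) x.2 = x.2
      rw [mulLeft_pow, hθ'r, one_mul]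
  · intro y hy
    have h1 : (θ : K) * y.1 = y.1 := congrArg Prod.fst hy
    have h2 : θ' * y.2 = y.2 := congrArg Prod.snd hy
    apply Prod.ext
    · have : ((θ : K) - 1) * y.1 = 0 := by
        rw [sub_mul, h1, one_mul, sub_self]
      rcases mul_eq_zero.1 this with h | h
      · exact absurd (sub_eq_zero.1 h) hθ1
      · exact h
    · have : (θ' - 1) * y.2 = 0 := by
        rw [sub_mul, h2, one_mul, sub_self]
      rcases mul_eq_zero.1 this with h | h
      · exact absurd (sub_eq_zero.1 h) hθ'1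
      · exact h
  · rw [Module.finrank_prod, hK, hcb]
    ring

end bwd

section final

universe u

variable {F : Type u} [Field F] [Fintype F] {q : ℕ} {r : ℕ} [hr : Fact r.Prime]

theorem lhs_iff_semi (hF : Fintype.card F = q ^ 2) {n m : ℕ} (hn : 0 < n) (hm : m ≤ n) (hr2 : r ≠ 2) (hrF : (r : F) ≠ 0) (hrq : ¬ r ∣ q + 1)
    (hN : r ∣ Nat.card (OmH n m F q)) :
    (∀ x : Matrix.SpecialLinearGroup (Fin n) F, x ∈ Cfsg.SU n F q →
      (∃ z : F, ((x ^ r : Matrix.SpecialLinearGroup (Fin n) F) : Matrix (Fin n) (Fin n) F) = z • (1 : Matrix (Fin n) (Fin n) F)) →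
      (∀ z : F, (x : Matrix (Fin n) (Fin n) F) ≠ z • (1 : Matrix (Fin n) (Fin n) F)) →
      ∃ W : Submodule F (Fin n → F), Module.finrank F ↥W = m ∧ (∀ u ∈ W, u ≠ 0 → ∃ v ∈ W, Cfsg.hermForm n F q u v ≠ 0) ∧
        W.map (Matrix.toLin' (x : Matrix (Fin n) (Fin n) F)) ≤ W) ↔
    (blkC (orderOf (q : ZMod r)) ≤ m ∧ m % blkC (orderOf (q : ZMod r)) ≤ n % blkC (orderOf (q : ZMod r))) := by
  have hH := hermHS (n := n) hF
  have hpos : 0 < orderOf (q : ZMod r) := orderOf_q_pos hH hrF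
  have hcpos := blkC_pos hpos
  constructor
  · intro h
    have hmod : m % blkC (orderOf (q : ZMod r)) ≤ n % blkC (orderOf (q : ZMod r)) := by
      by_contra hnot
      by_cases hi : orderOf (q : ZMod r) % 4 = 2
      · obtain ⟨f, hf⟩ := bwdC2 (n := n) (m := m) hF hr2 hrF hrq hi hnot
        exact not_lhs_of_bad hF hm hf h
      · obtain ⟨f, hf⟩ := bwdC4 (n := n) (m := m) hF hr2 hrF hrq hpos hi hnot
        exact not_lhs_of_bad hF hm hf h
    refine ⟨?_, hmod⟩
    have hrq' : ¬ r ∣ q := by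
      intro h0
      exact not_dvd_card hF hrF (Dvd.dvd.trans h0 (Dvd.intro_left (q ^ 1) (by ring)))
    obtain ⟨j, hj1, hj2, hj3⟩ := exists_j_herm hF hrq' hm hN
    have hzm : (q : ZMod r) ^ j = (-1) ^ j := by
      have := (ZMod.intCast_zmod_eq_zero_iff_dvd _ r).2 hj3
      push_cast at this
      exact sub_eq_zero.1 this
    have hcj := c_dvd_of hr2 hzm
    obtain ⟨c, hc⟩ : ∃ c, c = blkC (orderOf (q : ZMod r)) := ⟨_, rfl⟩
    rw [← hc] at hmod hcj hcpos ⊢
    by_contra hlt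
    have hlt' : m < c := by omega
    rw [Nat.mod_eq_of_lt hlt'] at hmod
    have h1 : (n - j) % c = n % c := by
      obtain ⟨d, hd⟩ := hcj
      have h2 : n = (n - j) + c * d := by omega
      conv_rhs => rw [h2]
      rw [Nat.add_mul_mod_self_left]
    have h3 : n % c ≤ n - j := by
      rw [← h1]
      exact Nat.mod_le _ _
    omega
  · rintro ⟨-, hmod⟩
    apply lhs_of_fwd hF
    rintro f hiso - ⟨z, hz⟩
    exact fwdU3 hH (herm_nd hF) (Module.finrank_fin_fun F) hn hm hr2 hrF hrq hiso hz hmod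

end final

end Cfsg.Agent.Lib.HSBase
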