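import Cfsg.Agent.Lib.SpFMDecomp

/-!
# Invariants of form modules: partition and discriminants
-/

set_option autoImplicit false

namespace Cfsg.Agent.Lib.SpFM

open Module

universe u

variable {F : Type u} [Field F]

namespace FM

theorem HasType.pos {A : FM F} {μ : Multiset ℕ} {d : ℕ → F} (h : HasType A μ d) : ∀ p ∈ μ, 0 < p := by
  induction h with
  | zero A h => simp
  | addE j hj hpos c hc _ ih =>
    intro p hp
    rcases Multiset.mem_cons.mp hp with rfl | hp
    · exact hpos
    · exact ih p hp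
  | addH j hj _ ih =>
    intro p hp
    rcases Multiset.mem_cons.mp hp with rfl | hp
    · exact hj.pos
    · rcases Multiset.mem_cons.mp hp with rfl | hp
      · exact hj.pos
      · exact ih p hp
  | iso _ _ ih => exact ih

theorem HasType.parity {A : FM F} {μ : Multiset ℕ} {d : ℕ → F} (h : HasType A μ d) :
    ∀ j, Odd j → Even (μ.count j) := by
  induction h with
  | zero A h => simp
  | addE k hk hpos c hc _ ih =>
    intro j hj
    rw [Multiset.count_cons_of_ne]
    · exact ih j hj
    · rintro rfl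
      exact (Nat.not_even_iff_odd.mpr hj) hk
  | addH k hk _ ih =>
    intro j hj
    by_cases hjk : j = k
    · subst hjk
      rw [Multiset.count_cons_self, Multiset.count_cons_self]
      obtain ⟨r, hr⟩ := ih j hj
      exact ⟨r + 1, by omega⟩
    · rw [Multiset.count_cons_of_ne hjk, Multiset.count_cons_of_ne hjk]
      exact ih j hj
  | iso _ _ ih => exact ih

theorem HasType.d_ne {A : FM F} {μ : Multiset ℕ} {d : ℕ → F} (h : HasType A μ d) : ∀ k, d k ≠ 0 := by
  induction h with
  | zero A h => simp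
  | @addE j hj hpos c hc A μ d _ ih =>
    intro k
    by_cases hk : k = j
    · subst hk
      rw [Function.update_self]
      exact mul_ne_zero hc (ih k)
    · rw [Function.update_of_ne hk]
      exact ih k
  | addH _ _ _ ih => exact ih
  | iso _ _ ih => exact ih

theorem HasType.d_one {A : FM F} {μ : Multiset ℕ} {d : ℕ → F} (h : HasType A μ d) :
    ∀ k, k ∉ μ → d k = 1 := by
  induction h with
  | zero A h => simp
  | @addE j hj hpos c hc A μ d _ ih =>
    intro k hk
    rw [Multiset.mem_cons, not_or] at hk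
    rw [Function.update_of_ne hk.1]
    exact ih k hk.2
  | addH j _ _ ih =>
    intro k hk
    rw [Multiset.mem_cons, Multiset.mem_cons, not_or, not_or] at hk
    exact ih k hk.2.2
  | iso _ _ ih => exact ih

theorem HasType.finrank_eq {A : FM F} {μ : Multiset ℕ} {d : ℕ → F} (h : HasType A μ d) :
    finrank F A.V = μ.sum := by
  induction h with
  | zero A h => simp [finrank_zero_of_subsingleton]
  | @addE j hj hpos c hc A μ d _ ih =>
    rw [Module.finrank_prod, ih]
    simp
  | @addH j hj A μ d _ ih =>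
    rw [Module.finrank_prod, ih, Module.finrank_prod]
    simp
    ring
  | iso h _ ih =>
    obtain ⟨e, _, _⟩ := h
    rw [e.finrank_eq, ih]

/-- The count function whose differences recover a partition. -/
def mf (μ : Multiset ℕ) (k : ℕ) : ℕ := (μ.map (fun p => min p k)).sum

theorem mf_zero (k : ℕ) : mf 0 k = 0 := by simp [mf]

theorem mf_cons (p : ℕ) (μ : Multiset ℕ) (k : ℕ) : mf (p ::ₘ μ) k = min p k + mf μ k := by simp [mf]

theorem mf_succ (μ : Multiset ℕ) (k : ℕ) :
    mf μ (k + 1) = mf μ k + (μ.filter (fun p => k < p)).card := by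
  induction μ using Multiset.induction_on with
  | empty => simp [mf_zero]
  | cons p μ ih =>
    rw [mf_cons, mf_cons, ih, Multiset.filter_cons]
    split_ifs with h
    · simp only [Multiset.singleton_add, Multiset.card_cons]
      omega
    · simp only [Multiset.zero_add]
      omega

theorem filter_succ (μ : Multiset ℕ) (k : ℕ) :
    (μ.filter (fun p => k < p)).card = (μ.filter (fun p => k + 1 < p)).card + μ.count (k + 1) := by
  induction μ using Multiset.induction_on with
  | empty => simp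
  | cons p μ ih =>
    rw [Multiset.filter_cons, Multiset.filter_cons]
    by_cases hp : p = k + 1
    · subst hp
      simp [ih]
      omega
    · rw [Multiset.count_cons_of_ne (Ne.symm hp)]
      by_cases h1 : k < p
      · rw [if_pos h1, if_pos (by omega)]
        simp [ih]
        omega
      · rw [if_neg h1, if_neg (by omega)]
        simpa using ih

theorem multiset_eq_of_mf {μ μ' : Multiset ℕ} (h : ∀ p ∈ μ, 0 < p) (h' : ∀ p ∈ μ', 0 < p)
    (hmf : ∀ k, mf μ k = mf μ' k) : μ = μ' := by
  ext j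
  cases j with
  | zero =>
    rw [Multiset.count_eq_zero_of_notMem (fun hj => absurd (h _ hj) (by simp)),
      Multiset.count_eq_zero_of_notMem (fun hj => absurd (h' _ hj) (by simp))]
  | succ k =>
    have h1 := mf_succ μ k
    have h2 := mf_succ μ (k + 1)
    have h3 := mf_succ μ' k
    have h4 := mf_succ μ' (k + 1)
    have h5 := filter_succ μ k
    have h6 := filter_succ μ' k
    rw [hmf] at h1 h2
    rw [hmf] at h1 h2
    omega

theorem mf_eq_sum_iff (μ : Multiset ℕ) (k : ℕ) : mf μ k = μ.sum ↔ ∀ p ∈ μ, p ≤ k := by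
  induction μ using Multiset.induction_on with
  | empty => simp [mf_zero]
  | cons p μ ih =>
    rw [mf_cons, Multiset.sum_cons, Multiset.forall_mem_cons, ← ih]
    have h1 : mf μ k ≤ μ.sum := by
      clear ih
      induction μ using Multiset.induction_on with
      | empty => simp [mf_zero]
      | cons p μ ih =>
        rw [mf_cons, Multiset.sum_cons]
        omega
    omega

theorem finrank_ker_pair {V W : Type u} [AddCommGroup V] [Module F V] [FiniteDimensional F V]
    [AddCommGroup W] [Module F W] [FiniteDimensional F W] (f : V →ₗ[F] V) (g : W →ₗ[F] W)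
    (T : (V × W) →ₗ[F] (V × W)) (hT : ∀ x, T x = (f x.1, g x.2)) :
    finrank F (LinearMap.ker T) = finrank F (LinearMap.ker f) + finrank F (LinearMap.ker g) := by
  have hmem : ∀ x, x ∈ LinearMap.ker T ↔ x.1 ∈ LinearMap.ker f ∧ x.2 ∈ LinearMap.ker g := by
    intro x
    simp [LinearMap.mem_ker, hT, Prod.ext_iff]
  let e : (LinearMap.ker f × LinearMap.ker g) ≃ₗ[F] LinearMap.ker T :=
    { toFun := fun a => ⟨(a.1.1, a.2.1), (hmem _).2 ⟨a.1.2, a.2.2⟩⟩
      map_add' := fun _ _ => rfl
      map_smul' := fun _ _ => rfl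
      invFun := fun a => (⟨a.1.1, ((hmem _).1 a.2).1⟩, ⟨a.1.2, ((hmem _).1 a.2).2⟩)
      left_inv := fun _ => rfl
      right_inv := fun _ => rfl }
  rw [← e.finrank_eq, Module.finrank_prod]

theorem finrank_ker_Sh (j k : ℕ) :
    finrank F (LinearMap.ker ((Sh j : (Fin j → F) →ₗ[F] (Fin j → F)) ^ k)) = min j k := by
  let κ := {b : Fin j // j ≤ (b : ℕ) + k}
  classical
  let e : LinearMap.ker ((Sh j : (Fin j → F) →ₗ[F] (Fin j → F)) ^ k) ≃ₗ[F] (κ → F) :=
    { toFun := fun x b => x.1 b.1
      map_add' := fun _ _ => rfl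
      map_smul' := fun _ _ => rfl
      invFun := fun u => ⟨fun b => if h : j ≤ (b : ℕ) + k then u ⟨b, h⟩ else 0, by
        rw [LinearMap.mem_ker, Sh_pow_zero_iff]
        intro b hb
        rw [dif_neg (by omega)]⟩
      left_inv := fun x => by
        apply Subtype.ext
        ext b
        by_cases h : j ≤ (b : ℕ) + k
        · simp [h]
        · have := (Sh_pow_zero_iff j k x.1).1 x.2 b (by omega)
          simp [h, this]
      right_inv := fun u => by
        ext b
        simp [b.2] }
  rw [e.finrank_eq, Module.finrank_fintype_fun_eq_card]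
  have : Fintype.card κ = Fintype.card (Fin (min j k)) := by
    apply Fintype.card_congr
    exact
      { toFun := fun b => ⟨j - 1 - b.1, by have := b.1.2; have := b.2; omega⟩
        invFun := fun a => ⟨⟨j - 1 - a, by have := a.2; omega⟩, by have := a.2; simp; omega⟩
        left_inv := fun b => by
          apply Subtype.ext
          apply Fin.ext
          have := b.1.2
          simp
          omega
        right_inv := fun a => by
          apply Fin.ext
          have := a.2
          simp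
          omega }
  rw [this, Fintype.card_fin]

theorem finrank_ker_iso {A B : FM F} (h : Iso A B) (k : ℕ) :
    finrank F (LinearMap.ker (A.N ^ k)) = finrank F (LinearMap.ker (B.N ^ k)) := by
  obtain ⟨e, _, h2⟩ := h
  have hm : Submodule.map (e : A.V →ₗ[F] B.V) (LinearMap.ker (A.N ^ k)) = LinearMap.ker (B.N ^ k) := by
    ext y
    simp only [Submodule.mem_map, LinearMap.mem_ker]
    constructor
    · rintro ⟨x, hx, rfl⟩
      change (B.N ^ k) (e x) = 0
      rw [← pow_intertwine e h2, hx, map_zero]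
    · intro hy
      refine ⟨e.symm y, ?_, by simp⟩
      apply e.injective
      rw [pow_intertwine e h2, map_zero]
      simpa using hy
  rw [← e.finrank_map_eq, hm]

theorem HasType.kerdim {A : FM F} {μ : Multiset ℕ} {d : ℕ → F} (h : HasType A μ d) (k : ℕ) :
    finrank F (LinearMap.ker (A.N ^ k)) = mf μ k := by
  induction h with
  | zero A h =>
    rw [mf_zero]
    exact finrank_zero_of_subsingleton
  | @addE j hj hpos c hc A μ d _ ih =>
    rw [mf_cons, ← ih, ← finrank_ker_Sh j k (F := F)]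
    exact finrank_ker_pair _ _ _ (fun x => sum_pow _ _ k x)
  | @addH j hj A μ d _ ih =>
    rw [mf_cons, mf_cons, ← ih, ← finrank_ker_Sh j k (F := F)]
    rw [finrank_ker_pair ((H (F := F) j).N ^ k) (A.N ^ k) _ (fun x => sum_pow _ _ k x),
      finrank_ker_pair ((Sh j : (Fin j → F) →ₗ[F] (Fin j → F)) ^ k) ((Sh j : (Fin j → F) →ₗ[F] (Fin j → F)) ^ k) _ (fun x => H_pow j k x)]
    ring
  | iso h _ ih => rw [finrank_ker_iso h, ih]

theorem HasType.pow_eq_zero_iff {A : FM F} {μ : Multiset ℕ} {d : ℕ → F} (h : HasType A μ d) (k : ℕ) :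
    A.N ^ k = 0 ↔ ∀ p ∈ μ, p ≤ k := by
  rw [← mf_eq_sum_iff, ← h.kerdim, ← h.finrank_eq]
  constructor
  · intro hk
    rw [hk, LinearMap.ker_zero, finrank_top]
  · intro hk
    have := Submodule.eq_top_of_finrank_eq hk
    exact LinearMap.ker_eq_top.mp this

/-- The presentation of the form on `ker N^j` as a diagonal form. -/
def DP (A : FM F) (j : ℕ) {κ : Type} [Fintype κ] (c : κ → F) : Prop :=
  ∃ π : A.V → κ → F, (∀ u, ∃ x, (A.N ^ j) x = 0 ∧ π x = u) ∧
    ∀ x y, (A.N ^ j) x = 0 → (A.N ^ j) y = 0 →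
      A.ω x ((A.N ^ (j - 1)) y) = ∑ i, c i * π x i * π y i

theorem DP.sum_neutral {X B : FM F} {j : ℕ} {κ : Type} [Fintype κ] {c : κ → F}
    (hX : ∀ x y, (X.N ^ j) x = 0 → (X.N ^ j) y = 0 → X.ω x ((X.N ^ (j - 1)) y) = 0)
    (h : DP B j c) : DP (X.sum B) j c := by
  obtain ⟨π, h1, h2⟩ := h
  refine ⟨fun x : X.V × B.V => π x.2, fun u => ?_, fun x y hx hy => ?_⟩
  · obtain ⟨y, hy, hy'⟩ := h1 u
    refine ⟨(0, y), ?_, hy'⟩
    rw [sum_pow]
    simp [hy]
  · rw [sum_pow] at hx hy
    have hx' := Prod.ext_iff.1 hx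
    have hy' := Prod.ext_iff.1 hy
    rw [sum_pow, sum_ω]
    change X.ω x.1 ((X.N ^ (j - 1)) y.1) + B.ω x.2 ((B.N ^ (j - 1)) y.2) = _
    rw [hX _ _ hx'.1 hy'.1, h2 _ _ hx'.2 hy'.2, zero_add]

theorem P_top (j : ℕ) (hpos : 0 < j) (x y : Fin j → F) :
    P j x ((Sh j ^ (j - 1)) y) = x ⟨0, hpos⟩ * y ⟨0, hpos⟩ := by
  rw [P_apply, Finset.sum_eq_single ⟨0, hpos⟩]
  · rw [Sh_pow, dif_pos (by simp)]
    simp only [pow_zero, one_mul]
    congr 2
    apply Fin.ext
    simp
  · intro a _ ha
    rw [Sh_pow, dif_neg]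
    · simp
    · have : (a : ℕ) ≠ 0 := fun h => ha (Fin.ext h)
      simp only [Fin.val_rev]
      omega
  · simp

theorem P_vanish (k j : ℕ) (hpos : 0 < j) (hne : k ≠ j) (x y : Fin k → F)
    (hx : (Sh k ^ j) x = 0) (hy : (Sh k ^ j) y = 0) : P k x ((Sh k ^ (j - 1)) y) = 0 := by
  rw [Sh_pow_zero_iff] at hx hy
  rw [P_apply]
  apply Finset.sum_eq_zero
  intro a _
  rw [Sh_pow]
  split_ifs with h
  · simp only [Fin.val_rev] at h
    by_cases ha : (a : ℕ) = 0
    · rw [hx a (by omega)]
      simp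
    · rw [hy _ (by simp; have := a.2; omega)]
      simp
  · simp

theorem DP.sum_top {B : FM F} {j : ℕ} (hj : Even j) (hpos : 0 < j) (c₀ : F) (hc₀ : c₀ ≠ 0)
    {κ : Type} [Fintype κ] {c : κ → F} (h : DP B j c) :
    DP ((E j hj c₀ hc₀).sum B) j (Sum.elim (fun _ : Unit => c₀) c) := by
  obtain ⟨π, h1, h2⟩ := h
  refine ⟨fun x : (Fin j → F) × B.V => Sum.elim (fun _ : Unit => x.1 ⟨0, hpos⟩) (π x.2), fun u => ?_,
    fun x y hx hy => ?_⟩
  · obtain ⟨y, hy, hy'⟩ := h1 (fun i => u (Sum.inr i))
    refine ⟨(Pi.single ⟨0, hpos⟩ (u (Sum.inl ())), y), ?_, ?_⟩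
    · rw [sum_pow]
      have : (E (F := F) j hj c₀ hc₀).N ^ j = 0 := Sh_pow_eq_zero j j le_rfl
      rw [this, hy]
      rfl
    · ext i
      rcases i with i | i
      · simp
      · simp [hy']
  · rw [sum_pow] at hx hy
    have hx' := Prod.ext_iff.1 hx
    have hy' := Prod.ext_iff.1 hy
    rw [sum_pow, sum_ω]
    change c₀ * P j x.1 ((Sh j ^ (j - 1)) y.1) + B.ω x.2 ((B.N ^ (j - 1)) y.2) = _
    rw [P_top j hpos, h2 _ _ hx'.2 hy'.2, Fintype.sum_sum_type]
    simp [mul_assoc]

theorem DP.iso {A B : FM F} {j : ℕ} {κ : Type} [Fintype κ] {c : κ → F} (hI : Iso A B)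
    (h : DP B j c) : DP A j c := by
  obtain ⟨e, h1, h2⟩ := hI
  obtain ⟨π, h3, h4⟩ := h
  refine ⟨fun x => π (e x), fun u => ?_, fun x y hx hy => ?_⟩
  · obtain ⟨y, hy, hy'⟩ := h3 u
    refine ⟨e.symm y, ?_, by simpa using hy'⟩
    apply e.injective
    rw [pow_intertwine e h2, map_zero]
    simpa using hy
  · rw [← h1, pow_intertwine e h2]
    apply h4
    · rw [← pow_intertwine e h2, hx, map_zero]
    · rw [← pow_intertwine e h2, hy, map_zero]

theorem HasType.dp {A : FM F} {μ : Multiset ℕ} {d : ℕ → F} (h : HasType A μ d) {j : ℕ} (hpos : 0 < j)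
    (hj : Even j) : ∃ (κ : Type) (_ : Fintype κ) (c : κ → F), (∀ i, c i ≠ 0) ∧ ∏ i, c i = d j ∧ DP A j c := by
  induction h with
  | zero A h =>
    refine ⟨Empty, inferInstance, fun e => e.elim, fun e => e.elim, by simp, fun _ e => e.elim, fun u => ?_,
      fun x y _ _ => ?_⟩
    · exact ⟨0, by simp, funext fun e => e.elim⟩
    · rw [Subsingleton.elim x 0]
      simp
  | @addE k hk hkpos c₀ hc₀ A μ d _ ih =>
    obtain ⟨κ, i1, c, hc, hprod, hdp⟩ := ih
    by_cases hkj : k = j
    · subst hkj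
      refine ⟨Unit ⊕ κ, inferInstance, Sum.elim (fun _ => c₀) c, ?_, ?_, DP.sum_top hk hpos c₀ hc₀ hdp⟩
      · rintro (i | i)
        · exact hc₀
        · exact hc i
      · rw [Fintype.prod_sum_type, Function.update_self]
        simp [hprod]
    · refine ⟨κ, i1, c, hc, ?_, DP.sum_neutral (fun x y hx hy => ?_) hdp⟩
      · rw [Function.update_of_ne (Ne.symm hkj), hprod]
      · change c₀ * P k x ((Sh k ^ (j - 1)) y) = 0
        rw [P_vanish k j hpos hkj x y hx hy, mul_zero]
  | @addH k hk A μ d _ ih =>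
    obtain ⟨κ, i1, c, hc, hprod, hdp⟩ := ih
    have hkj : k ≠ j := by
      rintro rfl
      exact (Nat.not_even_iff_odd.mpr hk) hj
    refine ⟨κ, i1, c, hc, hprod, DP.sum_neutral (fun x y hx hy => ?_) hdp⟩
    rw [H_pow] at hx hy
    have hx' := Prod.ext_iff.1 hx
    have hy' := Prod.ext_iff.1 hy
    rw [H_pow, H_ω]
    change P k x.1 ((Sh k ^ (j - 1)) y.2) - P k ((Sh k ^ (j - 1)) y.1) x.2 = 0
    rw [P_vanish k j hpos hkj x.1 y.2 hx'.1 hy'.2, P_symm, P_vanish k j hpos hkj x.2 y.1 hx'.2 hy'.1]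
    simp
  | iso hI _ ih =>
    obtain ⟨κ, i1, c, hc, hprod, hdp⟩ := ih
    exact ⟨κ, i1, c, hc, hprod, DP.iso hI hdp⟩

theorem disc_unique {A : FM F} {j : ℕ} {κ κ' : Type} [Fintype κ] [Fintype κ'] {c : κ → F} {c' : κ' → F}
    (hc : ∀ i, c i ≠ 0) (hc' : ∀ i, c' i ≠ 0) (h : DP A j c) (h' : DP A j c') :
    IsSquare ((∏ i, c i) * ∏ i, c' i) := by
  classical
  obtain ⟨π, hs, hf⟩ := h
  obtain ⟨π', hs', hf'⟩ := h'
  choose x hx hxπ using fun i : κ => hs (Pi.single i 1)
  choose x' hx' hxπ' using fun i : κ' => hs' (Pi.single i 1)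
  let M : Matrix κ' κ F := fun i' i => π' (x i) i'
  let M' : Matrix κ κ' F := fun i i' => π (x' i') i
  have hent : ∀ a b, ∑ i', M i' a * c' i' * M i' b = if a = b then c a else 0 := by
    intro a b
    have h1 := hf (x a) (x b) (hx a) (hx b)
    have h2 := hf' (x a) (x b) (hx a) (hx b)
    have h3 : ∑ i', M i' a * c' i' * M i' b = A.ω (x a) ((A.N ^ (j - 1)) (x b)) := by
      rw [h2]
      apply Finset.sum_congr rfl
      intro i _
      simp only [M]
      ring
    rw [h3, h1, hxπ, hxπ, Finset.sum_eq_single a]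
    · by_cases hab : a = b
      · subst hab
        simp
      · simp [hab]
    · intro i _ hi
      simp [Pi.single_apply, hi]
    · simp
  have hent' : ∀ a b, ∑ i', M' i' a * c i' * M' i' b = if a = b then c' a else 0 := by
    intro a b
    have h1 := hf (x' a) (x' b) (hx' a) (hx' b)
    have h2 := hf' (x' a) (x' b) (hx' a) (hx' b)
    have h3 : ∑ i', M' i' a * c i' * M' i' b = A.ω (x' a) ((A.N ^ (j - 1)) (x' b)) := by
      rw [h1]
      apply Finset.sum_congr rfl
      intro i _
      simp only [M']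
      ring
    rw [h3, h2, hxπ', hxπ', Finset.sum_eq_single a]
    · by_cases hab : a = b
      · subst hab
        simp
      · simp [hab]
    · intro i _ hi
      simp [Pi.single_apply, hi]
    · simp
  have hmat : M.transpose * Matrix.diagonal c' * M = Matrix.diagonal c := by
    ext a b
    rw [Matrix.mul_apply, Matrix.diagonal_apply]
    simp only [Matrix.mul_diagonal, Matrix.transpose_apply]
    exact hent a b
  have hmat' : M'.transpose * Matrix.diagonal c * M' = Matrix.diagonal c' := by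
    ext a b
    rw [Matrix.mul_apply, Matrix.diagonal_apply]
    simp only [Matrix.mul_diagonal, Matrix.transpose_apply]
    exact hent' a b
  have hr : ∀ {ι : Type} [Fintype ι] (w : ι → F), (∀ i, w i ≠ 0) → (Matrix.diagonal w).rank = Fintype.card ι := by
    intro ι _ w hw
    rw [Matrix.rank_diagonal]
    exact Fintype.card_congr (Equiv.subtypeUnivEquiv hw)
  have hle : Fintype.card κ ≤ Fintype.card κ' := by
    rw [← hr c hc, ← hmat]
    exact (Matrix.rank_mul_le_right _ _).trans (Matrix.rank_le_card_height _)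
  have hle' : Fintype.card κ' ≤ Fintype.card κ := by
    rw [← hr c' hc', ← hmat']
    exact (Matrix.rank_mul_le_right _ _).trans (Matrix.rank_le_card_height _)
  let e : κ ≃ κ' := Fintype.equivOfCardEq (le_antisymm hle hle')
  let M₂ : Matrix κ κ F := M.submatrix e id
  have hmat₂ : M₂.transpose * Matrix.diagonal (fun i => c' (e i)) * M₂ = Matrix.diagonal c := by
    ext a b
    rw [Matrix.mul_apply, Matrix.diagonal_apply]
    simp only [Matrix.mul_diagonal, Matrix.transpose_apply]
    rw [← hent a b, ← Equiv.sum_comp e]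
    rfl
  have hdet := congrArg Matrix.det hmat₂
  rw [Matrix.det_mul, Matrix.det_mul, Matrix.det_transpose, Matrix.det_diagonal, Matrix.det_diagonal,
    Equiv.prod_comp e c'] at hdet
  refine ⟨M₂.det * ∏ i, c' i, ?_⟩
  rw [← hdet]
  ring

theorem HasType.unique {A A' : FM F} {μ μ' : Multiset ℕ} {d d' : ℕ → F} (h : HasType A μ d)
    (h' : HasType A' μ' d') (hI : Iso A A') :
    μ = μ' ∧ ∀ j, 0 < j → Even j → IsSquare (d j * d' j) := by
  refine ⟨multiset_eq_of_mf h.pos h'.pos fun k => ?_, fun j hpos hj => ?_⟩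
  · rw [← h.kerdim, ← h'.kerdim, finrank_ker_iso hI]
  · obtain ⟨κ, i1, c, hc, hprod, hdp⟩ := h.dp hpos hj
    obtain ⟨κ', i1', c', hc', hprod', hdp'⟩ := h'.dp hpos hj
    rw [← hprod, ← hprod']
    exact disc_unique hc hc' hdp (DP.iso hI hdp')

end FM

end Cfsg.Agent.Lib.SpFM
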