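import Mathlib
import Cfsg.Agent.Lib.HSTrans
import Cfsg.Agent.Lib.SpFMInv

/-!
# Unipotent isometries of order `p` of Hermitian spaces
-/

set_option autoImplicit false

namespace Cfsg.Agent.Lib.HSBase

open Polynomial Module Matrix
open Cfsg.Agent.Lib.IsomBlock (InvOn FixFree SimpleOn fixS mem_fixS fixS_le inv_fixS inv_pow inv_inf)
open Cfsg.Agent.Lib.SpFM.FM (Sh Sh_apply Sh_pow Sh_pow_zero_iff finrank_ker_Sh mf mf_cons multiset_eq_of_mf mf_eq_sum_iff finrank_ker_pair P P_apply P_Sh P_left_nd P_right_nd P_symm)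
open Cfsg

set_option linter.unusedSimpArgs false
set_option linter.unusedVariables false
set_option linter.unusedSectionVars false

section chain

variable {F : Type*} [Field F] [Fintype F] {q : ℕ} {V : Type*} [AddCommGroup V] [Module F V] [FiniteDimensional F V] {H : V → V → F}
  {y : V →ₗ[F] V} {R : ℕ}

theorem pair_pow (hH : HS q H) (hiso : ∀ u v, H (y u) (y v) = H u v) (hR : R ≠ 0) (hyR : y ^ R = 1) (a : ℕ) (u w : V) :
    H (((y - 1) ^ a) u) w = (-1) ^ a * H u (((y ^ (R - 1) * (y - 1)) ^ a) w) := by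
  have hYi : y ^ (R - 1) * y = 1 := by
    rw [← pow_succ, Nat.sub_add_cancel (Nat.pos_of_ne_zero hR), hyR]
  have h1 : ∀ u z, H ((y - 1) u) z = - H u ((y ^ (R - 1) * (y - 1)) z) := by
    intro u z
    have h2 : (y ^ (R - 1) * (y - 1)) z = z - (y ^ (R - 1)) z := by
      rw [mul_sub, hYi, mul_one]
      rfl
    rw [h2, LinearMap.sub_apply, Module.End.one_apply, hH.sub_left, hH.sub_right, adj1 hiso hR hyR]
    ring
  induction a generalizing u w with
  | zero => simp
  | succ a ih =>
    rw [pow_succ, Module.End.mul_apply, ih, h1, pow_succ' (y ^ (R - 1) * (y - 1)), pow_succ (-1 : F)]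
    show _ = (-1) ^ a * (-1) * H u ((y ^ (R - 1) * (y - 1)) (((y ^ (R - 1) * (y - 1)) ^ a) w))
    ring

theorem chain_pair (hH : HS q H) (hiso : ∀ u v, H (y u) (y v) = H u v) (hR : R ≠ 0) (hyR : y ^ R = 1) {v : V} {j : ℕ}
    (hv : ((y - 1) ^ j) v = 0) (a b : ℕ) :
    (j ≤ a + b → H (((y - 1) ^ a) v) (((y - 1) ^ b) v) = 0) ∧
    (a + b + 1 = j → H (((y - 1) ^ a) v) (((y - 1) ^ b) v) = (-1) ^ a * H v (((y - 1) ^ (a + b)) v)) := by
  have hcomm : Commute (y ^ (R - 1)) (y - 1) :=
    Commute.pow_left (Commute.sub_right (Commute.refl y) (Commute.one_right y)) _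
  have hA : ∀ x, ((y ^ (R - 1) * (y - 1)) ^ a) (((y - 1) ^ b) x) = ((y ^ (R - 1)) ^ a) (((y - 1) ^ (a + b)) x) := by
    intro x
    rw [hcomm.mul_pow, Module.End.mul_apply, pow_add, Module.End.mul_apply]
  constructor
  · intro hle
    rw [pair_pow hH hiso hR hyR, hA]
    have h0 : ((y - 1) ^ (a + b)) v = 0 := by
      obtain ⟨s, hs⟩ := Nat.exists_eq_add_of_le hle
      rw [hs, add_comm, pow_add, Module.End.mul_apply, hv, map_zero]
    rw [h0, map_zero, hH.zero_right, mul_zero]
  · intro he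
    rw [pair_pow hH hiso hR hyR, hA]
    have h0 : (y - 1) (((y - 1) ^ (a + b)) v) = 0 := by
      rw [← Module.End.mul_apply, ← pow_succ', he]
      exact hv
    have h1 : y (((y - 1) ^ (a + b)) v) = ((y - 1) ^ (a + b)) v := by
      have := h0
      rwa [LinearMap.sub_apply, Module.End.one_apply, sub_eq_zero] at this
    have hYi : y ^ (R - 1) * y = 1 := by
      rw [← pow_succ, Nat.sub_add_cancel (Nat.pos_of_ne_zero hR), hyR]
    have h2 : (y ^ (R - 1)) (((y - 1) ^ (a + b)) v) = ((y - 1) ^ (a + b)) v := by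
      conv_lhs => rw [← h1]
      rw [← Module.End.mul_apply, hYi]
      rfl
    have h3 : ∀ s : ℕ, ((y ^ (R - 1)) ^ s) (((y - 1) ^ (a + b)) v) = ((y - 1) ^ (a + b)) v := by
      intro s
      induction s with
      | zero => simp
      | succ s ih => rw [pow_succ, Module.End.mul_apply, h2, ih]
    rw [h3]

/-- The map from coordinates given by a cyclic chain. -/
noncomputable def chainL (N : V →ₗ[F] V) (v : V) (j : ℕ) : (Fin j → F) →ₗ[F] V :=
  Fintype.linearCombination F (fun a : Fin j => (N ^ (a : ℕ)) v)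

theorem chainL_apply (N : V →ₗ[F] V) (v : V) (j : ℕ) (x : Fin j → F) :
    chainL N v j x = ∑ a, x a • (N ^ (a : ℕ)) v := by
  simp [chainL, Fintype.linearCombination_apply]

theorem chainL_N (N : V →ₗ[F] V) (v : V) (j : ℕ) (hj : (N ^ j) v = 0) (x : Fin j → F) :
    chainL N v j (Sh j x) = N (chainL N v j x) := by
  cases j with
  | zero => simp [chainL_apply]
  | succ n =>
    rw [chainL_apply, chainL_apply, map_sum, Fin.sum_univ_succ, Fin.sum_univ_castSucc (n := n)]
    rw [Sh_apply, dif_neg (by simp)]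
    simp only [zero_smul, zero_add, map_smul]
    have hl : N ((N ^ ((Fin.last n : Fin (n + 1)) : ℕ)) v) = 0 := by
      rw [← Module.End.mul_apply, ← pow_succ']
      simpa using hj
    rw [hl, smul_zero, add_zero]
    apply Finset.sum_congr rfl
    intro b _
    rw [Sh_apply, dif_pos (by simp), ← Module.End.mul_apply, ← pow_succ']
    congr 1

theorem chainL_Sh_pow (N : V →ₗ[F] V) (v : V) (j : ℕ) (hj : (N ^ j) v = 0) (k : ℕ) (x : Fin j → F) :
    chainL N v j ((Sh j ^ k) x) = (N ^ k) (chainL N v j x) := by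
  induction k with
  | zero => simp
  | succ k ih =>
    rw [pow_succ', pow_succ', Module.End.mul_apply, Module.End.mul_apply, chainL_N N v j hj, ih]

theorem chain_ne (hH : HS q H) (hiso : ∀ u v, H (y u) (y v) = H u v) (hR : R ≠ 0) (hyR : y ^ R = 1) {v : V} {j : ℕ}
    (hv : ((y - 1) ^ j) v = 0) (hne : H v (((y - 1) ^ (j - 1)) v) ≠ 0) (c : Fin j → F) (hc : c ≠ 0) :
    ∃ b : Fin j, H (chainL (y - 1) v j c) (((y - 1) ^ (b : ℕ)) v) ≠ 0 := by
  classical
  obtain ⟨a₀, ha₀, hmin⟩ : ∃ a₀ : Fin j, c a₀ ≠ 0 ∧ ∀ a, a < a₀ → c a = 0 := by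
    obtain ⟨i, hi⟩ := Function.ne_iff.1 hc
    have hne' : (Finset.univ.filter (fun a => c a ≠ 0)).Nonempty := ⟨i, by simpa using hi⟩
    obtain ⟨a₀, ha₀, hm⟩ := Finset.exists_min_image _ (fun a : Fin j => (a : ℕ)) hne'
    refine ⟨a₀, by simpa using ha₀, fun a ha => ?_⟩
    by_contra hca
    have := hm a (by simpa using hca)
    exact absurd (Fin.lt_def.1 ha) (by omega)
  refine ⟨Fin.rev a₀, ?_⟩
  rw [chainL_apply, hH.sum_left, Finset.sum_eq_single a₀]
  · rw [hH.smul_left]
    have hsum : (a₀ : ℕ) + ((Fin.rev a₀ : Fin j) : ℕ) + 1 = j := by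
      have := a₀.2
      simp only [Fin.val_rev]
      omega
    rw [(chain_pair hH hiso hR hyR hv (a₀ : ℕ) ((Fin.rev a₀ : Fin j) : ℕ)).2 hsum]
    have he : (a₀ : ℕ) + ((Fin.rev a₀ : Fin j) : ℕ) = j - 1 := by omega
    rw [he]
    exact mul_ne_zero ha₀ (mul_ne_zero (pow_ne_zero _ (neg_ne_zero.2 one_ne_zero)) hne)
  · intro a _ ha
    rw [hH.smul_left]
    rcases lt_or_gt_of_ne ha with hlt | hgt
    · rw [hmin a hlt, zero_mul]
    · have hle : j ≤ (a : ℕ) + ((Fin.rev a₀ : Fin j) : ℕ) := by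
        have := a₀.2
        have h3 := Fin.lt_def.1 hgt
        simp only [Fin.val_rev]
        omega
      rw [(chain_pair hH hiso hR hyR hv (a : ℕ) ((Fin.rev a₀ : Fin j) : ℕ)).1 hle, mul_zero]
  · simp

/-- The cyclic block. -/
theorem exists_chain_block (hH : HS q H) (hiso : ∀ u v, H (y u) (y v) = H u v) (hR : R ≠ 0) (hyR : y ^ R = 1) {v : V} {j : ℕ} (hj : 0 < j)
    (hv : ((y - 1) ^ j) v = 0) (hne : H v (((y - 1) ^ (j - 1)) v) ≠ 0) :
    ∃ U : Submodule F V, v ∈ U ∧ InvOn y U ∧ NDH H U ∧ finrank F U = j ∧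
      (∀ k, finrank F (U ⊓ LinearMap.ker ((y - 1) ^ k) : Submodule F V) = min j k) ∧
      ∀ W : Submodule F V, InvOn y W → v ∈ W → U ≤ W := by
  classical
  set N : V →ₗ[F] V := y - 1 with hN
  have hinj : Function.Injective (chainL N v j) := by
    rw [← LinearMap.ker_eq_bot, LinearMap.ker_eq_bot']
    intro c hc
    by_contra hc0
    obtain ⟨b, hb⟩ := chain_ne hH hiso hR hyR hv hne c hc0
    rw [← hN, hc, hH.zero_left] at hb
    exact hb rfl
  have hsingle : ∀ b : Fin j, (N ^ (b : ℕ)) v ∈ LinearMap.range (chainL N v j) := by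
    intro b
    refine ⟨Pi.single b 1, ?_⟩
    rw [chainL_apply, Finset.sum_eq_single b]
    · simp
    · intro a _ ha
      simp [Pi.single_eq_of_ne ha]
    · simp
  refine ⟨LinearMap.range (chainL N v j), ?_, ?_, ?_, ?_, ?_, ?_⟩
  · have h1 := hsingle ⟨0, hj⟩
    simpa using h1
  · rintro _ ⟨c, rfl⟩
    have h1 : y (chainL N v j c) = N (chainL N v j c) + chainL N v j c := by
      simp [hN]
    rw [h1, ← chainL_N N v j hv]
    exact Submodule.add_mem _ ⟨_, rfl⟩ ⟨_, rfl⟩
  · rintro _ ⟨c, rfl⟩ h0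
    by_contra hne0
    have hc0 : c ≠ 0 := by
      rintro rfl
      exact hne0 (map_zero _)
    obtain ⟨b, hb⟩ := chain_ne hH hiso hR hyR hv hne c hc0
    exact hb (h0 _ (hsingle b))
  · rw [LinearMap.finrank_range_of_inj hinj, Module.finrank_fin_fun]
  · intro k
    have h1 : LinearMap.range (chainL N v j) ⊓ LinearMap.ker (N ^ k) =
        (LinearMap.ker ((Sh j : (Fin j → F) →ₗ[F] (Fin j → F)) ^ k)).map (chainL N v j) := by
      ext u
      constructor
      · rintro ⟨⟨c, rfl⟩, hc⟩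
        refine ⟨c, ?_, rfl⟩
        have h2 := LinearMap.mem_ker.1 hc
        rw [← chainL_Sh_pow N v j hv] at h2
        apply hinj
        rw [map_zero]
        exact h2
      · rintro ⟨c, hc, rfl⟩
        refine ⟨⟨c, rfl⟩, ?_⟩
        show (N ^ k) (chainL N v j c) = 0
        have hc' : (Sh j ^ k) c = 0 := hc
        rw [← chainL_Sh_pow N v j hv, hc', map_zero]
    rw [h1, ← (Submodule.equivMapOfInjective (chainL N v j) hinj _).finrank_eq, finrank_ker_Sh]
  · rintro W hW hvW _ ⟨c, rfl⟩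
    rw [chainL_apply]
    apply W.sum_mem
    intro a _
    apply W.smul_mem
    have hNW : InvOn N W := fun u hu => by
      simp only [hN, LinearMap.sub_apply, Module.End.one_apply]
      exact W.sub_mem (hW u hu) hu
    exact inv_pow hNW _ hvW

theorem finrank_inf_split (A : V →ₗ[F] V) {U W : Submodule F V} (hU : ∀ u ∈ U, A u ∈ U) (hW : ∀ u ∈ W, A u ∈ W) (hd : Disjoint U W) :
    finrank F ((U ⊔ W) ⊓ LinearMap.ker A : Submodule F V) =
      finrank F (U ⊓ LinearMap.ker A : Submodule F V) + finrank F (W ⊓ LinearMap.ker A : Submodule F V) := by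
  have h1 : (U ⊔ W) ⊓ LinearMap.ker A = (U ⊓ LinearMap.ker A) ⊔ (W ⊓ LinearMap.ker A) := by
    apply le_antisymm
    · rintro z ⟨hz, hk⟩
      obtain ⟨a, ha, b, hb, rfl⟩ := Submodule.mem_sup.1 hz
      have h2 : A a + A b = 0 := by
        rw [← map_add]
        exact hk
      have h3 : A a ∈ U ⊓ W := ⟨hU a ha, by
        rw [eq_neg_of_add_eq_zero_left h2]
        exact W.neg_mem (hW b hb)⟩
      rw [hd.eq_bot, Submodule.mem_bot] at h3
      have h4 : A b = 0 := by
        rw [h3, zero_add] at h2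
        exact h2
      exact Submodule.add_mem_sup ⟨ha, h3⟩ ⟨hb, h4⟩
    · exact sup_le (inf_le_inf_right _ le_sup_left) (inf_le_inf_right _ le_sup_right)
  rw [h1]
  have h2 := Submodule.finrank_sup_add_finrank_inf_eq (U ⊓ LinearMap.ker A) (W ⊓ LinearMap.ker A)
  have h3 : (U ⊓ LinearMap.ker A) ⊓ (W ⊓ LinearMap.ker A) = ⊥ := by
    rw [eq_bot_iff]
    rintro z ⟨⟨h4, -⟩, ⟨h5, -⟩⟩
    have : z ∈ U ⊓ W := ⟨h4, h5⟩
    rwa [hd.eq_bot] at this
  rw [h3, finrank_bot, add_zero] at h2
  exact h2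

/-- Decomposition data. -/
structure Dec (H : V → V → F) (y : V →ₗ[F] V) (P : ℕ) (W : Submodule F V) (μ : Multiset ℕ) : Prop where
  pos : ∀ a ∈ μ, 0 < a ∧ a ≤ P
  sum : μ.sum = finrank F W
  ker : ∀ k, finrank F (W ⊓ LinearMap.ker ((y - 1) ^ k) : Submodule F V) = mf μ k
  sub : ∀ ν ≤ μ, ∃ W' ≤ W, NDH H W' ∧ InvOn y W' ∧ finrank F W' = ν.sum

theorem exists_dec (hH : HS q H) (hiso : ∀ u v, H (y u) (y v) = H u v) (hR : R ≠ 0) (hyR : y ^ R = 1) {P' : ℕ} (hP : (y - 1) ^ P' = 0) :
    ∀ (d : ℕ) (W : Submodule F V), finrank F W = d → NDH H W → InvOn y W → ∃ μ, Dec H y P' W μ := by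
  intro d
  induction d using Nat.strong_induction_on with
  | _ d ih =>
    intro W hd hW hinv
    classical
    by_cases hbot : W = ⊥
    · subst hbot
      refine ⟨0, ⟨by simp, by simp, fun k => by simp [mf], fun ν hν => ?_⟩⟩
      rw [Multiset.le_zero] at hν
      subst hν
      refine ⟨⊥, le_rfl, ndH_bot, fun u hu => ?_, by simp⟩
      rw [(Submodule.mem_bot F).1 hu, map_zero]
      exact Submodule.zero_mem _
    have hNW : InvOn (y - 1) W := fun u hu => by
      simp only [LinearMap.sub_apply, Module.End.one_apply]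
      exact W.sub_mem (hinv u hu) hu
    have hex : ∃ j, ∀ u ∈ W, ((y - 1 : V →ₗ[F] V) ^ j) u = 0 := ⟨P', fun u _ => by rw [hP]; rfl⟩
    obtain ⟨j, hj, hmin⟩ : ∃ j, (∀ u ∈ W, ((y - 1 : V →ₗ[F] V) ^ j) u = 0) ∧ ∀ i, i < j → ¬ ∀ u ∈ W, ((y - 1 : V →ₗ[F] V) ^ i) u = 0 :=
      ⟨Nat.find hex, Nat.find_spec hex, fun i hi => Nat.find_min hex hi⟩
    have hjP : j ≤ P' := by
      by_contra hlt
      exact hmin P' (by omega) (fun u _ => by rw [hP]; rfl)
    have hj0 : 0 < j := by
      rcases Nat.eq_zero_or_pos j with h0 | h0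
      · subst h0
        exfalso
        apply hbot
        rw [eq_bot_iff]
        intro u hu
        have := hj u hu
        simpa using this
      · exact h0
    obtain ⟨v₀, hv₀, hv₀0⟩ : ∃ u ∈ W, ((y - 1 : V →ₗ[F] V) ^ (j - 1)) u ≠ 0 := by
      by_contra hall
      push Not at hall
      exact hmin (j - 1) (by omega) hall
    obtain ⟨v, hvW, hv⟩ := exists_self_ne hH hW ((y - 1) ^ (j - 1)) (fun u hu => inv_pow hNW _ hu) hv₀ hv₀0
    obtain ⟨U, hvU, hUinv, hUnd, hUfin, hUker, hUmin⟩ := exists_chain_block hH hiso hR hyR hj0 (hj v hvW) hv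
    have hUW : U ≤ W := hUmin W hinv hvW
    have hfr := finrank_rel hH hUW hUnd
    have hW'inv : InvOn y (W ⊓ perpH hH U) := inv_inf hinv (inv_perp hH hiso hR hyR hUinv)
    obtain ⟨μ', hμ'⟩ := ih (finrank F (W ⊓ perpH hH U : Submodule F V)) (by omega) (W ⊓ perpH hH U) rfl (nd_rel hH hUW hUnd hW) hW'inv
    have horth : ∀ u ∈ U, ∀ v ∈ W ⊓ perpH hH U, H u v = 0 := fun u hu v hv => hv.2 u hu
    refine ⟨j ::ₘ μ', ⟨?_, ?_, ?_, ?_⟩⟩
    · intro a ha
      rcases Multiset.mem_cons.1 ha with rfl | h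
      · exact ⟨hj0, hjP⟩
      · exact hμ'.pos a h
    · rw [Multiset.sum_cons, hμ'.sum, ← hUfin, hfr]
    · intro k
      have hNU : InvOn (y - 1) U := fun u hu => by
        simp only [LinearMap.sub_apply, Module.End.one_apply]
        exact U.sub_mem (hUinv u hu) hu
      have hNW' : InvOn (y - 1) (W ⊓ perpH hH U) := fun u hu => by
        simp only [LinearMap.sub_apply, Module.End.one_apply]
        exact (W ⊓ perpH hH U).sub_mem (hW'inv u hu) hu
      have h1 := finrank_inf_split ((y - 1) ^ k) (fun u hu => inv_pow hNU k hu) (fun u hu => inv_pow hNW' k hu) (disjoint_of_orth hH hUnd horth)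
      rw [sup_rel hH hUW hUnd] at h1
      rw [h1, hUker, hμ'.ker, mf_cons]
    · intro ν hν
      by_cases hjν : j ∈ ν
      · have h1 : j ::ₘ ν.erase j = ν := Multiset.cons_erase hjν
        have h2 : ν.erase j ≤ μ' := by
          rw [← h1] at hν
          exact (Multiset.cons_le_cons_iff j).1 hν
        obtain ⟨W₁, hW₁, hW₁nd, hW₁inv, hW₁fin⟩ := hμ'.sub _ h2
        have horth' : ∀ u ∈ U, ∀ v ∈ W₁, H u v = 0 := fun u hu v hv => (hW₁ hv).2 u hu
        refine ⟨U ⊔ W₁, sup_le hUW (hW₁.trans inf_le_left), nd_sup hH hUnd hW₁nd horth', ?_, ?_⟩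
        · intro z hz
          obtain ⟨a, ha, b, hb, rfl⟩ := Submodule.mem_sup.1 hz
          rw [map_add]
          exact Submodule.add_mem_sup (hUinv a ha) (hW₁inv b hb)
        · rw [finrank_sup_orth hH hUnd horth', hUfin, hW₁fin, ← Multiset.sum_cons, h1]
      · have h2 : ν ≤ μ' := (Multiset.le_cons_of_notMem hjν).1 hν
        obtain ⟨W₁, hW₁, hW₁nd, hW₁inv, hW₁fin⟩ := hμ'.sub _ h2
        exact ⟨W₁, hW₁.trans inf_le_left, hW₁nd, hW₁inv, hW₁fin⟩

end chain

section charp

variable {F : Type*} [Field F] [Fintype F] {p : ℕ} [Fact p.Prime] [CharP F p] {q : ℕ} {V : Type*} [AddCommGroup V] [Module F V] [FiniteDimensional F V] {H : V → V → F}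

theorem end_sub_pow (y : V →ₗ[F] V) : (y - 1) ^ p = y ^ p - 1 := by
  rcases subsingleton_or_nontrivial V with h | h
  · apply LinearMap.ext
    intro v
    exact Subsingleton.elim _ _
  · haveI : CharP (V →ₗ[F] V) p := charP_of_injective_algebraMap (algebraMap F (V →ₗ[F] V)).injective p
    have := sub_pow_char_of_commute (p := p) (Commute.one_right y)
    rwa [one_pow] at this

omit [Fintype F] in
theorem eq_one_of_pow_char {a : F} (h : a ^ p = 1) : a = 1 := by
  have h1 : (a - 1) ^ p = 0 := by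
    rw [sub_pow_char, h, one_pow, sub_self]
  exact sub_eq_zero.1 (pow_eq_zero_iff (Fact.out : p.Prime).ne_zero |>.1 h1)

/-- The forward direction on an abstract space. -/
theorem fwdU1 (hH : HS q H) (hnd : NDH H (⊤ : Submodule F V)) {y : V →ₗ[F] V} (hiso : ∀ u v, H (y u) (y v) = H u v) (hyp : y ^ p = 1) {n m : ℕ}
    (hn : finrank F V = n)
    (hC : ∀ μ : Multiset ℕ, (∀ a ∈ μ, 0 < a ∧ a ≤ p) → μ.sum = n → ∃ ν : Multiset ℕ, ν ≤ μ ∧ ν.sum = m) :
    ∃ W : Submodule F V, finrank F W = m ∧ NDH H W ∧ InvOn y W := by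
  have hp0 : p ≠ 0 := (Fact.out : p.Prime).ne_zero
  have hP : (y - 1) ^ p = 0 := by
    rw [end_sub_pow, hyp, sub_self]
  obtain ⟨μ, hμ⟩ := exists_dec hH hiso hp0 hyp hP _ ⊤ rfl hnd (fun _ _ => trivial)
  obtain ⟨ν, hν, hνs⟩ := hC μ hμ.pos (by rw [hμ.sum, finrank_top, hn])
  obtain ⟨W, -, h2, h3, h4⟩ := hμ.sub ν hν
  exact ⟨W, by rw [h4, hνs], h2, h3⟩

end charp

section model

variable {F : Type*} [Field F] [Fintype F] {q : ℕ}

/-- Skew operators on a Hermitian space with given kernel dimensions transfer to the standard space. -/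
theorem model_transfer (hF : Fintype.card F = q ^ 2) {X : Type*} [AddCommGroup X] [Module F X] [FiniteDimensional F X] {H : X → X → F} (hH : HS q H)
    (hnd : NDH H (⊤ : Submodule F X)) {d : ℕ} (hd : finrank F X = d) (N : X →ₗ[F] X) (hN : ∀ u v, H (N u) v = - H u (N v)) :
    ∃ N' : (Fin d → F) →ₗ[F] (Fin d → F), (∀ u v, hermForm d F q (N' u) v = - hermForm d F q u (N' v)) ∧
      ∀ k, finrank F (LinearMap.ker (N' ^ k)) = finrank F (LinearMap.ker (N ^ k)) := by
  classical
  obtain ⟨E, hE⟩ := Cfsg.Agent.S5984.exists_herm_equiv (q := q) H hH.add_left hH.smul_left (fun v w => (hH.conj w v).symm) hF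
    (fun v hv => hnd v trivial fun w _ => hv w) hd
  let f : (Fin d → F) →ₗ[F] (Fin d → F) := (E.symm : X →ₗ[F] (Fin d → F)) ∘ₗ N ∘ₗ (E : (Fin d → F) →ₗ[F] X)
  have hf : ∀ v, E (f v) = N (E v) := fun v => by
    simp [f]
  have hfk : ∀ (k : ℕ) (v : Fin d → F), E ((f ^ k) v) = (N ^ k) (E v) := by
    intro k
    induction k with
    | zero => simp
    | succ k ih =>
      intro v
      rw [pow_succ, pow_succ, Module.End.mul_apply, Module.End.mul_apply, ih, hf]
  refine ⟨f, ?_, ?_⟩
  · intro u v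
    rw [← hE, ← hE, hf, hf, hN]
  · intro k
    have h1 : (LinearMap.ker (f ^ k)).map (E : (Fin d → F) →ₗ[F] X) = LinearMap.ker (N ^ k) := by
      ext x
      constructor
      · rintro ⟨v, hv, rfl⟩
        rw [LinearMap.mem_ker]
        show (N ^ k) (E v) = 0
        rw [← hfk, LinearMap.mem_ker.1 hv, map_zero]
      · intro hx
        refine ⟨E.symm x, ?_, by simp⟩
        rw [SetLike.mem_coe, LinearMap.mem_ker]
        apply E.injective
        rw [hfk, map_zero, LinearEquiv.apply_symm_apply]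
        exact LinearMap.mem_ker.1 hx
    rw [← h1, LinearEquiv.finrank_map_eq]

/-- A single block. -/
theorem block_model (hF : Fintype.card F = q ^ 2) (j : ℕ) :
    ∃ N : (Fin j → F) →ₗ[F] (Fin j → F), (∀ u v, hermForm j F q (N u) v = - hermForm j F q u (N v)) ∧
      ∀ k, finrank F (LinearMap.ker (N ^ k)) = min j k := by
  classical
  have hσ := Cfsg.Agent.Lib.UnitaryBasic.sigma hF
  obtain ⟨c, hc0, hc⟩ : ∃ c : F, c ≠ 0 ∧ c ^ q = (-1) ^ (j - 1) * c := by
    rcases Nat.even_or_odd (j - 1) with hev | hodd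
    · exact ⟨1, one_ne_zero, by rw [one_pow, hev.neg_one_pow, one_mul]⟩
    · obtain ⟨a, ha⟩ : ∃ a : F, a ^ q ≠ a := by
        by_contra hcon
        push Not at hcon
        apply Cfsg.Agent.Lib.UnitaryE.frobQ_ne hF
        ext c
        exact hcon c
      refine ⟨a - a ^ q, sub_ne_zero.2 ha.symm, ?_⟩
      rw [Cfsg.Agent.Lib.UnitaryBasic.sub_pow_q hF, Cfsg.Agent.Lib.HermCount.pow_q_pow_q hF, hodd.neg_one_pow]
      ring
  let Hb : (Fin j → F) → (Fin j → F) → F := fun x y => c * P j x (fun b => y b ^ q)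
  have hHb : HS q Hb := by
    refine ⟨hF, ?_, ?_, ?_⟩
    · intro a b d
      simp only [Hb, map_add, LinearMap.add_apply]
      ring
    · intro k a d
      simp only [Hb, map_smul, LinearMap.smul_apply, smul_eq_mul]
      ring
    · intro x y
      simp only [Hb]
      have h1 : (P j x (fun b => y b ^ q)) ^ q = P j (fun b => x b ^ q) y := by
        rw [P_apply, P_apply]
        have h2 := map_sum (Cfsg.Agent.Lib.UnitaryBasic.sigma hF) (fun a : Fin j => (-1 : F) ^ (a : ℕ) * x a * y (Fin.rev a) ^ q) Finset.univ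
        simp only [Cfsg.Agent.Lib.UnitaryBasic.sigma_apply] at h2
        rw [h2]
        apply Finset.sum_congr rfl
        intro a _
        have h3 : ((-1 : F) ^ (a : ℕ)) ^ q = (-1) ^ (a : ℕ) := by
          rw [← pow_mul, mul_comm, pow_mul, Cfsg.Agent.Lib.UnitaryBasic.neg_pow_q hF, one_pow]
        rw [mul_pow, mul_pow, h3, Cfsg.Agent.Lib.HermCount.pow_q_pow_q hF]
      rw [mul_pow, h1, hc, P_symm]
      have h4 : ((-1 : F) ^ (j - 1)) * (-1) ^ (j - 1) = 1 := by
        rw [← mul_pow]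
        simp
      linear_combination (c * P j y (fun b => x b ^ q)) * h4
  have hnd : NDH Hb (⊤ : Submodule F (Fin j → F)) := by
    intro x _ h0
    apply P_left_nd
    intro z
    have h1 := h0 (fun b => z b ^ q) trivial
    simp only [Hb] at h1
    have h2 : (fun b => ((fun b => z b ^ q) b) ^ q) = z := by
      ext b
      exact Cfsg.Agent.Lib.HermCount.pow_q_pow_q hF (z b)
    rw [h2] at h1
    exact (mul_eq_zero.1 h1).resolve_left hc0
  obtain ⟨N', h1, h2⟩ := model_transfer hF hHb hnd (by rw [Module.finrank_fin_fun]) (Sh j) (by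
    intro u v
    simp only [Hb]
    rw [P_Sh]
    have h3 : (Sh j (fun b => v b ^ q)) = (fun b => (Sh j v b) ^ q) := by
      ext a
      rw [Sh_apply, Sh_apply]
      split_ifs
      · rfl
      · rw [zero_pow]
        have := Cfsg.Agent.Lib.HermCount.two_le_q hF
        omega
    rw [h3]
    ring)
  exact ⟨N', h1, fun k => by rw [h2, finrank_ker_Sh]⟩

/-- Existence of skew operators of every type. -/
theorem model_exists (hF : Fintype.card F = q ^ 2) (μ : Multiset ℕ) :
    ∀ d, d = μ.sum → ∃ N : (Fin d → F) →ₗ[F] (Fin d → F), (∀ u v, hermForm d F q (N u) v = - hermForm d F q u (N v)) ∧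
      ∀ k, finrank F (LinearMap.ker (N ^ k)) = mf μ k := by
  classical
  induction μ using Multiset.induction_on with
  | empty =>
    intro d hd
    simp only [Multiset.sum_zero] at hd
    subst hd
    refine ⟨0, fun u v => by simp [hermForm], fun k => ?_⟩
    have h0 : mf (0 : Multiset ℕ) k = 0 := by simp [mf]
    rw [h0]
    exact Module.finrank_zero_of_subsingleton
  | cons a μ ih =>
    intro d hd
    rw [Multiset.sum_cons] at hd
    obtain ⟨N₁, h1, h2⟩ := block_model (F := F) hF a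
    obtain ⟨N₂, h3, h4⟩ := ih _ rfl
    let H' : ((Fin a → F) × (Fin μ.sum → F)) → ((Fin a → F) × (Fin μ.sum → F)) → F :=
      fun x y => hermForm a F q x.1 y.1 + hermForm μ.sum F q x.2 y.2
    have hH' : HS q H' := by
      have hA := hermHS (n := a) hF
      have hB := hermHS (n := μ.sum) hF
      refine ⟨hF, ?_, ?_, ?_⟩
      · intro x y z
        simp only [H', Prod.fst_add, Prod.snd_add, hA.add_left, hB.add_left]
        ring
      · intro k x z
        simp only [H', Prod.smul_fst, Prod.smul_snd, hA.smul_left, hB.smul_left]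
        ring
      · intro x y
        simp only [H']
        rw [Cfsg.Agent.Lib.HermCount.add_pow_q hF, hA.conj, hB.conj]
    have hnd : NDH H' (⊤ : Submodule F ((Fin a → F) × (Fin μ.sum → F))) := by
      intro x _ h0
      have hA := hermHS (n := a) hF
      have hB := hermHS (n := μ.sum) hF
      apply Prod.ext
      · apply herm_nd hF x.1 trivial
        intro w _
        have := h0 (w, 0) trivial
        simp only [H'] at this
        rwa [hB.zero_right, add_zero] at this
      · apply herm_nd hF x.2 trivial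
        intro w _
        have := h0 (0, w) trivial
        simp only [H'] at this
        rwa [hA.zero_right, zero_add] at this
    obtain ⟨N', h5, h6⟩ := model_transfer (d := d) hF hH' hnd (by
      rw [Module.finrank_prod, Module.finrank_fin_fun, Module.finrank_fin_fun, hd]) (N₁.prodMap N₂) (by
      intro u v
      simp only [H', LinearMap.prodMap_apply]
      rw [h1, h3]
      ring)
    refine ⟨N', h5, fun k => ?_⟩
    rw [h6, mf_cons, ← h2 k, ← h4 k]
    apply finrank_ker_pair (N₁ ^ k) (N₂ ^ k)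
    intro x
    have h7 : ∀ (k : ℕ) (x : (Fin a → F) × (Fin μ.sum → F)), ((N₁.prodMap N₂) ^ k) x = ((N₁ ^ k) x.1, (N₂ ^ k) x.2) := by
      intro k
      induction k with
      | zero => simp
      | succ k ih =>
        intro x
        rw [pow_succ, pow_succ, pow_succ, Module.End.mul_apply, ih, Module.End.mul_apply, Module.End.mul_apply]
        rfl
    exact h7 k x

end model

section unip

variable {F : Type*} [Field F] [Fintype F] {p : ℕ} [Fact p.Prime] [CharP F p] {q : ℕ} {V : Type*} [AddCommGroup V] [Module F V] [FiniteDimensional F V] {H : V → V → F}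

theorem unip_of_skew (hH : HS q H) (N : V →ₗ[F] V) (hN : ∀ u v, H (N u) v = - H u (N v)) (hNp : N ^ p = 0) :
    ∃ y : V →ₗ[F] V, (∀ u v, H (y u) (y v) = H u v) ∧ y ^ p = 1 ∧ ∀ k, LinearMap.ker ((y - 1) ^ k) = LinearMap.ker (N ^ k) := by
  by_cases hp2 : p = 2
  · subst hp2
    have h2N : ∀ v, N (N v) = 0 := fun v => by
      have : (N ^ 2) v = 0 := by rw [hNp]; rfl
      rwa [pow_two] at this
    have hy1 : (1 + N) - 1 = N := add_sub_cancel_left 1 N
    refine ⟨1 + N, ?_, ?_, ?_⟩
    · intro u v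
      simp only [LinearMap.add_apply, Module.End.one_apply]
      rw [hH.add_left, hH.add_right, hH.add_right, hN u v, hN u (N v), h2N, hH.zero_right]
      ring
    · have h1 := end_sub_pow (p := 2) (1 + N)
      rw [hy1, hNp] at h1
      exact (sub_eq_zero.1 h1.symm)
    · intro k
      rw [hy1]
  · have h2 : (2 : F) ≠ 0 := by
      intro h
      have h3 : ((2 : ℕ) : F) = 0 := by exact_mod_cast h
      rw [CharP.cast_eq_zero_iff F p] at h3
      exact hp2 ((Nat.prime_dvd_prime_iff_eq Fact.out Nat.prime_two).1 h3)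
    obtain ⟨u₀, hu₀⟩ := (IsNilpotent.isUnit_one_sub ⟨p, hNp⟩ : IsUnit (1 - N))
    obtain ⟨W, hW⟩ : ∃ W : V →ₗ[F] V, W = ((u₀⁻¹ : (V →ₗ[F] V)ˣ) : V →ₗ[F] V) := ⟨_, rfl⟩
    have hW1 : W * (1 - N) = 1 := by
      rw [hW, ← hu₀]
      exact Units.inv_mul u₀
    have hW2 : (1 - N) * W = 1 := by
      rw [hW, ← hu₀]
      exact Units.mul_inv u₀
    have hNW : N * W = W - 1 := by
      have : N * W = W - (1 - N) * W := by noncomm_ring
      rw [this, hW2]
    have hWN : W * N = W - 1 := by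
      have : W * N = W - W * (1 - N) := by noncomm_ring
      rw [this, hW1]
    have hcomm : Commute N W := by
      show N * W = W * N
      rw [hNW, hWN]
    have hcomm2 : Commute (1 - N) W := by
      show (1 - N) * W = W * (1 - N)
      rw [hW1, hW2]
    have hy1 : (1 + N) * W - 1 = (2 : F) • (N * W) := by
      rw [two_smul, hNW, add_mul, one_mul, hNW]
      abel
    have hypow : ∀ k, ((1 + N) * W - 1) ^ k = (2 : F) ^ k • (N ^ k * W ^ k) := by
      intro k
      rw [hy1, _root_.smul_pow, hcomm.mul_pow]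
    refine ⟨(1 + N) * W, ?_, ?_, ?_⟩
    · intro u v
      have hu : ∀ x, (1 - N) (W x) = x := fun x => by
        rw [← Module.End.mul_apply, hW2]
        rfl
      have hy : ∀ x, ((1 + N) * W) x = W x + N (W x) := fun x => rfl
      have e1 : H u v = H ((1 - N) (W u)) ((1 - N) (W v)) := by rw [hu, hu]
      rw [e1, hy, hy]
      simp only [LinearMap.sub_apply, Module.End.one_apply]
      rw [hH.add_left, hH.add_right, hH.add_right, hH.sub_left, hH.sub_right, hH.sub_right, hN (W u) (W v), hN (W u) (N (W v))]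
      ring
    · have h1 := end_sub_pow (p := p) ((1 + N) * W)
      rw [hypow, hNp, zero_mul, smul_zero] at h1
      exact sub_eq_zero.1 h1.symm
    · intro k
      have hinv : (1 - N) ^ k * W ^ k = 1 := by
        rw [← hcomm2.mul_pow, hW2, one_pow]
      have hcommk : Commute (N ^ k) (W ^ k) := hcomm.pow_pow k k
      ext v
      rw [LinearMap.mem_ker, LinearMap.mem_ker, hypow, LinearMap.smul_apply, smul_eq_zero]
      constructor
      · rintro (h | h)
        · exact absurd h (pow_ne_zero _ h2)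
        · have h3 : (W ^ k) ((N ^ k) v) = 0 := by
            rw [← Module.End.mul_apply, ← hcommk.eq]
            exact h
          have h4 : ((1 - N) ^ k * W ^ k) ((N ^ k) v) = 0 := by
            rw [Module.End.mul_apply, h3, map_zero]
          rw [hinv] at h4
          exact h4
      · intro h
        right
        rw [hcommk.eq, Module.End.mul_apply, h, map_zero]

/-- The counterexample. -/
theorem bwdU1 (hF : Fintype.card F = q ^ 2) {n m : ℕ} (μ : Multiset ℕ) (hμ : ∀ a ∈ μ, 0 < a ∧ a ≤ p) (hs : μ.sum = n) (hno : ∀ ν ≤ μ, ν.sum ≠ m) :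
    ∃ f, BadF n m p F q f := by
  classical
  obtain ⟨N, hN, hker⟩ := model_exists hF μ n hs.symm
  have hH := hermHS (n := n) hF
  have hNp : N ^ p = 0 := by
    have h1 : LinearMap.ker (N ^ p) = ⊤ := by
      apply Submodule.eq_top_of_finrank_eq
      rw [hker, Module.finrank_fin_fun, (mf_eq_sum_iff μ p).2 (fun a ha => (hμ a ha).2), hs]
    exact LinearMap.ker_eq_top.1 h1
  obtain ⟨y, hiso, hyp, hk⟩ := unip_of_skew hH N hN hNp
  refine ⟨y, hiso, ?_, ⟨1, by rw [hyp, one_smul]⟩, ?_⟩
  · apply eq_one_of_pow_char (p := p)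
    rw [← map_pow, hyp, map_one]
  · intro W hW hWnd hWinv
    have hp0 : p ≠ 0 := (Fact.out : p.Prime).ne_zero
    have hP : (y - 1) ^ p = 0 := by
      rw [end_sub_pow, hyp, sub_self]
    obtain ⟨μ₁, h₁⟩ := exists_dec hH hiso hp0 hyp hP _ W rfl hWnd hWinv
    have hW'inv : InvOn y (⊤ ⊓ perpH hH W) := inv_inf (fun _ _ => trivial) (inv_perp hH hiso hp0 hyp hWinv)
    obtain ⟨μ₂, h₂⟩ := exists_dec hH hiso hp0 hyp hP _ (⊤ ⊓ perpH hH W) rfl (nd_rel hH le_top hWnd (herm_nd hF)) hW'inv
    have hmf : ∀ k, mf μ k = mf (μ₁ + μ₂) k := by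
      intro k
      have hNU : InvOn (y - 1) W := fun u hu => by
        simp only [LinearMap.sub_apply, Module.End.one_apply]
        exact W.sub_mem (hWinv u hu) hu
      have hNW' : InvOn (y - 1) (⊤ ⊓ perpH hH W) := fun u hu => by
        simp only [LinearMap.sub_apply, Module.End.one_apply]
        exact (⊤ ⊓ perpH hH W).sub_mem (hW'inv u hu) hu
      have h1 := finrank_inf_split ((y - 1) ^ k) (fun u hu => inv_pow hNU k hu) (fun u hu => inv_pow hNW' k hu)
        (disjoint_of_orth hH hWnd (fun a ha b hb => hb.2 a ha))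
      rw [sup_rel hH le_top hWnd, top_inf_eq, h₁.ker, h₂.ker, hk, hker] at h1
      rw [h1]
      simp [mf]
    have he := multiset_eq_of_mf (fun a ha => (hμ a ha).1) (fun a ha => by
      rcases Multiset.mem_add.1 ha with h | h
      · exact (h₁.pos a h).1
      · exact (h₂.pos a h).1) hmf
    exact hno μ₁ (he ▸ Multiset.le_add_right _ _) (h₁.sum.trans hW)

omit [Fact p.Prime] [CharP F p] in
theorem cond_two {n m : ℕ} (hm : m ≤ n) :
    (∀ μ : Multiset ℕ, (∀ a ∈ μ, 0 < a ∧ a ≤ 2) → μ.sum = n → ∃ ν : Multiset ℕ, ν ≤ μ ∧ ν.sum = m) ↔ (Odd n ∨ Even m) := by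
  constructor
  · intro h
    by_contra hc
    push Not at hc
    obtain ⟨h1, h2⟩ := hc
    rw [Nat.not_odd_iff_even] at h1
    rw [Nat.not_even_iff_odd] at h2
    obtain ⟨t, ht⟩ := h1
    obtain ⟨ν, hν, hνs⟩ := h (Multiset.replicate t 2) (by
      intro a ha
      rw [Multiset.eq_of_mem_replicate ha]
      norm_num) (by
      rw [Multiset.sum_replicate, ht, smul_eq_mul]
      ring)
    obtain ⟨c, -, rfl⟩ := Multiset.le_replicate_iff.1 hν
    rw [Multiset.sum_replicate, smul_eq_mul] at hνs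
    obtain ⟨s, hs⟩ := h2
    omega
  · intro hc μ hμ hs
    have key : ∀ (μ : Multiset ℕ), (∀ a ∈ μ, 0 < a ∧ a ≤ 2) → ∀ m, m ≤ μ.sum → (Odd μ.sum ∨ Even m) → ∃ ν : Multiset ℕ, ν ≤ μ ∧ ν.sum = m := by
      intro μ
      induction μ using Multiset.induction_on with
      | empty =>
        intro _ m hm _
        exact ⟨0, le_rfl, by simp at hm ⊢; omega⟩
      | cons a μ ih =>
        intro hμ m hm hc
        have hμ' : ∀ b ∈ μ, 0 < b ∧ b ≤ 2 := fun b hb => hμ b (Multiset.mem_cons_of_mem hb)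
        have ha := hμ a (Multiset.mem_cons_self a μ)
        rw [Multiset.sum_cons] at hm hc
        by_cases hms : m = a + μ.sum
        · exact ⟨a ::ₘ μ, le_rfl, by rw [Multiset.sum_cons, hms]⟩
        have hle : μ ≤ a ::ₘ μ := Multiset.le_cons_self μ a
        have ha2 : a = 1 ∨ a = 2 := by omega
        rcases ha2 with rfl | rfl
        · by_cases hmo : Even m
          · -- use `μ` with `m`
            have hle2 : m ≤ μ.sum := by
              by_contra hlt
              omega
            have hc2 : Odd μ.sum ∨ Even m := Or.inr hmo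
            obtain ⟨ν, h1, h2⟩ := ih hμ' m hle2 hc2
            exact ⟨ν, h1.trans hle, h2⟩
          · rw [Nat.not_even_iff_odd] at hmo
            have hodd : Odd (1 + μ.sum) := hc.resolve_right (Nat.not_even_iff_odd.2 hmo)
            obtain ⟨s, hs⟩ := hmo
            obtain ⟨ν, h1, h2⟩ := ih hμ' (m - 1) (by omega) (Or.inr ⟨s, by omega⟩)
            refine ⟨1 ::ₘ ν, (Multiset.cons_le_cons_iff 1).2 h1, ?_⟩
            rw [Multiset.sum_cons, h2]
            omega
        · by_cases hm2 : 2 ≤ m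
          · have hc2 : Odd μ.sum ∨ Even (m - 2) := by
              rcases hc with h | h
              · left
                obtain ⟨s, hs⟩ := h
                exact ⟨s - 1, by omega⟩
              · right
                obtain ⟨s, hs⟩ := h
                exact ⟨s - 1, by omega⟩
            obtain ⟨ν, h1, h2⟩ := ih hμ' (m - 2) (by omega) hc2
            refine ⟨2 ::ₘ ν, (Multiset.cons_le_cons_iff 2).2 h1, ?_⟩
            rw [Multiset.sum_cons, h2]
            omega
          · rcases Nat.lt_or_ge m 1 with h0 | h1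
            · exact ⟨0, Multiset.zero_le _, by simp; omega⟩
            · have hm1 : m = 1 := by omega
              subst hm1
              have hodd : Odd (2 + μ.sum) := hc.resolve_right (by decide)
              have hodd' : Odd μ.sum := by
                obtain ⟨s, hs⟩ := hodd
                exact ⟨s - 1, by omega⟩
              obtain ⟨s, hs⟩ := hodd'
              obtain ⟨ν, h1, h2⟩ := ih hμ' 1 (by omega) (Or.inl ⟨s, hs⟩)
              exact ⟨ν, h1.trans hle, h2⟩
    apply key μ hμ m (by omega)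
    rw [hs]
    exact hc

/-- The case `r = p`. -/
theorem lhs_iff_char (hF : Fintype.card F = q ^ 2) {n m : ℕ} (hn : 0 < n) (hm : m ≤ n) :
    (∀ x : Matrix.SpecialLinearGroup (Fin n) F, x ∈ Cfsg.SU n F q →
      (∃ z : F, ((x ^ p : Matrix.SpecialLinearGroup (Fin n) F) : Matrix (Fin n) (Fin n) F) = z • (1 : Matrix (Fin n) (Fin n) F)) →
      (∀ z : F, (x : Matrix (Fin n) (Fin n) F) ≠ z • (1 : Matrix (Fin n) (Fin n) F)) →
      ∃ W : Submodule F (Fin n → F), Module.finrank F ↥W = m ∧ (∀ u ∈ W, u ≠ 0 → ∃ v ∈ W, Cfsg.hermForm n F q u v ≠ 0) ∧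
        W.map (Matrix.toLin' (x : Matrix (Fin n) (Fin n) F)) ≤ W) ↔
    (∀ μ : Multiset ℕ, (∀ a ∈ μ, 0 < a ∧ a ≤ p) → μ.sum = n → ∃ ν : Multiset ℕ, ν ≤ μ ∧ ν.sum = m) := by
  classical
  have hH := hermHS (n := n) hF
  haveI : Nonempty (Fin n) := ⟨⟨0, hn⟩⟩
  constructor
  · intro h
    by_contra hc
    push Not at hc
    obtain ⟨μ, hμ, hs, hno⟩ := hc
    obtain ⟨f, hf⟩ := bwdU1 (p := p) hF μ hμ hs (fun ν hν => hno ν hν)
    exact not_lhs_of_bad hF hm hf h
  · intro hc
    apply lhs_of_fwd hF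
    rintro f hiso hdet ⟨z, hz⟩
    have hzn := scalar_norm hH (herm_nd hF) hiso hz
    have hcp : CharP F p := inferInstance
    obtain ⟨p', k, hp', hcp', hqk⟩ := Cfsg.Agent.Lib.HermForm.exists_char_pow hF
    have hpp : p' = p := CharP.eq F hcp' hcp
    subst hpp
    have hq2 := Cfsg.Agent.Lib.HermCount.two_le_q hF
    have hk0 : k ≠ 0 := by
      rintro rfl
      simp at hqk
      omega
    obtain ⟨w, hw⟩ : ∃ w : F, w ^ p' = z := by
      refine ⟨z ^ (p' ^ (2 * k - 1)), ?_⟩
      rw [← pow_mul, ← pow_succ, Nat.sub_add_cancel (by omega)]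
      have h1 : p' ^ (2 * k) = Fintype.card F := by
        rw [hF, hqk, ← pow_mul, mul_comm]
      rw [h1, FiniteField.pow_card]
    have hwn : w ^ (q + 1) = 1 := by
      apply eq_one_of_pow_char (p := p')
      rw [← pow_mul, mul_comm, pow_mul, hw, hzn]
    have hw0 : w ≠ 0 := by
      rintro rfl
      rw [zero_pow (by omega)] at hwn
      exact zero_ne_one hwn
    have hcn : (w⁻¹) ^ (q + 1) = 1 := by rw [_root_.inv_pow, hwn, inv_one]
    have hyp : (w⁻¹ • f) ^ p' = 1 := by
      have hz0 : z * (w⁻¹) ^ p' = 1 := by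
        rw [_root_.inv_pow, hw, mul_inv_cancel₀]
        rw [← hw]
        exact pow_ne_zero _ hw0
      rw [_root_.smul_pow, hz, smul_smul, mul_comm, hz0, one_smul]
    obtain ⟨W, h1, h2, h3⟩ := fwdU1 hH (herm_nd hF) (smul_iso hH hiso hcn) hyp (by rw [Module.finrank_fin_fun]) hc
    exact ⟨W, h1, h2, inv_of_smul (inv_ne_zero hw0) h3⟩

end unip

end Cfsg.Agent.Lib.HSBase
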