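import Mathlib

set_option autoImplicit false
set_option linter.unusedSectionVars false

namespace Cfsg.Agent.Lib.HallPerm

open Equiv Equiv.Perm

variable {α : Type*} [Fintype α] [DecidableEq α]

/-! ### Orders and valuations -/

/-- A nontrivial sign-type character: a subgroup in its kernel has half the order at most. -/
theorem two_mul_dvd_of_sign {H K : Type*} [Group H] [Finite H] [Group K] (χ : H →* ℤˣ)
    (hχ : Function.Surjective χ) (ψ : K →* H) (hψ : Function.Injective ψ)
    (h : ∀ k, χ (ψ k) = 1) : 2 * Nat.card K ∣ Nat.card H := by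
  have h1 : Nat.card K ∣ Nat.card χ.ker := by
    let ψ' : K →* χ.ker := ψ.codRestrict χ.ker (fun k => h k)
    apply Subgroup.card_dvd_of_injective ψ'
    intro a b hab
    apply hψ
    exact congrArg (fun x : χ.ker => (x : H)) hab
  have h2 : Nat.card χ.ker * χ.ker.index = Nat.card H := Subgroup.card_mul_index _
  have h3 : χ.ker.index = 2 := by
    rw [Subgroup.index_ker, MonoidHom.range_eq_top.mpr hχ]
    simp [Nat.card_eq_fintype_card, Fintype.card_units_int]
  rw [h3] at h2
  rw [← h2, mul_comm]
  exact Nat.mul_dvd_mul_right h1 2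

/-- A subgroup of even permutations inside a group containing an odd permutation. -/
theorem two_mul_card_dvd_of_odd {X G : Subgroup (Perm α)} (hGX : G ≤ X)
    (hGA : G ≤ alternatingGroup α) {τ : Perm α} (hτ : τ ∈ X) (hs : sign τ = -1) :
    2 * Nat.card G ∣ Nat.card X := by
  let χ : X →* ℤˣ := sign.comp X.subtype
  have hχ : Function.Surjective χ := by
    intro u
    rcases Int.units_eq_one_or u with rfl | rfl
    · exact ⟨1, map_one _⟩
    · exact ⟨⟨τ, hτ⟩, hs⟩
  let ψ : G →* X := Subgroup.inclusion hGX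
  apply two_mul_dvd_of_sign χ hχ ψ (Subgroup.inclusion_injective hGX)
  intro k
  exact Equiv.Perm.mem_alternatingGroup.mp (hGA k.2)

/-! ### Restriction to an invariant subset -/

/-- Restriction to an invariant finset. -/
def resHom (L : Subgroup (Perm α)) (S : Finset α) (h : ∀ g ∈ L, ∀ x, g x ∈ S ↔ x ∈ S) :
    L →* Perm {x // x ∈ S} where
  toFun g := (g : Perm α).subtypePerm (fun x => h g g.2 x)
  map_one' := by ext; rfl
  map_mul' a b := by ext; rfl

/-- Restriction to the complement of an invariant finset. -/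
def resHomC (L : Subgroup (Perm α)) (S : Finset α) (h : ∀ g ∈ L, ∀ x, g x ∈ S ↔ x ∈ S) :
    L →* Perm {x // x ∉ S} where
  toFun g := (g : Perm α).subtypePerm (fun x => not_congr (h g g.2 x))
  map_one' := by ext; rfl
  map_mul' a b := by ext; rfl

@[simp] theorem resHom_apply (L : Subgroup (Perm α)) (S : Finset α)
    (h : ∀ g ∈ L, ∀ x, g x ∈ S ↔ x ∈ S) (g : L) (x : {x // x ∈ S}) :
    ((resHom L S h g x : {x // x ∈ S}) : α) = (g : Perm α) x := rfl

@[simp] theorem resHomC_apply (L : Subgroup (Perm α)) (S : Finset α)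
    (h : ∀ g ∈ L, ∀ x, g x ∈ S ↔ x ∈ S) (g : L) (x : {x // x ∉ S}) :
    ((resHomC L S h g x : {x // x ∉ S}) : α) = (g : Perm α) x := rfl

theorem card_compl (S : Finset α) : Fintype.card {x // x ∉ S} = Fintype.card α - S.card := by
  rw [Fintype.card_subtype_compl, Fintype.card_coe]

theorem card_nat_compl (S : Finset α) : Nat.card (Perm {x // x ∉ S}) = (Fintype.card α - S.card).factorial := by
  rw [Nat.card_perm, Nat.card_eq_fintype_card, card_compl]

/-- the pair of restrictions -/
def pairHom (L : Subgroup (Perm α)) (S : Finset α) (h : ∀ g ∈ L, ∀ x, g x ∈ S ↔ x ∈ S) :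
    L →* (resHom L S h).range × Perm {x // x ∉ S} :=
  MonoidHom.prod (resHom L S h).rangeRestrict (resHomC L S h)

theorem pairHom_injective (L : Subgroup (Perm α)) (S : Finset α)
    (h : ∀ g ∈ L, ∀ x, g x ∈ S ↔ x ∈ S) : Function.Injective (pairHom L S h) := by
  intro a b hab
  apply Subtype.ext
  ext x
  by_cases hx : x ∈ S
  · have h1 : (resHom L S h).rangeRestrict a = (resHom L S h).rangeRestrict b :=
      congrArg Prod.fst hab
    have h2 : resHom L S h a = resHom L S h b := congrArg Subtype.val h1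
    have h3 := congrArg (fun f : Perm {x // x ∈ S} => ((f ⟨x, hx⟩ : {x // x ∈ S}) : α)) h2
    simpa using h3
  · have h1 : resHomC L S h a = resHomC L S h b := congrArg Prod.snd hab
    have h3 := congrArg (fun f : Perm {x // x ∉ S} => ((f ⟨x, hx⟩ : {x // x ∉ S}) : α)) h1
    simpa using h3

theorem card_dvd_res (L : Subgroup (Perm α)) (S : Finset α)
    (h : ∀ g ∈ L, ∀ x, g x ∈ S ↔ x ∈ S) :
    Nat.card L ∣ Nat.card (resHom L S h).range * (Fintype.card α - S.card).factorial := by
  have := Subgroup.card_dvd_of_injective (pairHom L S h) (pairHom_injective L S h)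
  rwa [Nat.card_prod, card_nat_compl] at this

theorem sign_res (L : Subgroup (Perm α)) (S : Finset α)
    (h : ∀ g ∈ L, ∀ x, g x ∈ S ↔ x ∈ S) (g : L) :
    sign (resHom L S h g) * sign (resHomC L S h g) = sign (g : Perm α) := by
  have : (g : Perm α) = Equiv.Perm.subtypeCongr (resHom L S h g) (resHomC L S h g) := by
    ext x
    by_cases hx : x ∈ S
    · simp [Equiv.Perm.subtypeCongr, Equiv.sumCompl, hx]
    · simp [Equiv.Perm.subtypeCongr, Equiv.sumCompl, hx]
  conv_rhs => rw [this]
  rw [Equiv.Perm.sign_subtypeCongr]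
  congr!

/-- If the group consists of even permutations and the complement has at least two points, the
group is at most half as large. -/
theorem two_mul_card_dvd_res (L : Subgroup (Perm α)) (S : Finset α)
    (h : ∀ g ∈ L, ∀ x, g x ∈ S ↔ x ∈ S) (hL : L ≤ alternatingGroup α)
    (h2 : 2 ≤ Fintype.card α - S.card) :
    2 * Nat.card L ∣ Nat.card (resHom L S h).range * (Fintype.card α - S.card).factorial := by
  classical
  let χ : (resHom L S h).range × Perm {x // x ∉ S} →* ℤˣ :=
    (sign.comp (resHom L S h).range.subtype).coprod sign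
  have hχ : Function.Surjective χ := by
    intro u
    rcases Int.units_eq_one_or u with rfl | rfl
    · exact ⟨1, map_one _⟩
    · have hcard : 1 < Fintype.card {x // x ∉ S} := by rw [card_compl]; omega
      obtain ⟨a, b, hab⟩ := Fintype.exists_pair_of_one_lt_card hcard
      refine ⟨(1, swap a b), ?_⟩
      change sign ((1 : (resHom L S h).range) : Perm {x // x ∈ S}) * sign (swap a b) = -1
      rw [Equiv.Perm.sign_swap hab]
      simp
  have := two_mul_dvd_of_sign χ hχ (pairHom L S h) (pairHom_injective L S h) (by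
    intro g
    have hs := sign_res L S h g
    have hg : sign (g : Perm α) = 1 := Equiv.Perm.mem_alternatingGroup.mp (hL g.2)
    rw [hg] at hs
    exact hs)
  rwa [Nat.card_prod, card_nat_compl] at this

/-! ### Sylow -/

theorem exists_conj_mem {X : Type*} [Group X] [Finite X] (G : Subgroup X) {r : ℕ} (hr : r.Prime)
    (hfull : (Nat.card X).factorization r ≤ (Nat.card G).factorization r) {z : X}
    (hz : IsPGroup r (Subgroup.zpowers z)) : ∃ x : X, x * z * x⁻¹ ∈ G := by
  have hF : Fact r.Prime := ⟨hr⟩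
  let P : Sylow r G := default
  have hcardP : Nat.card P = r ^ (Nat.card G).factorization r := P.card_eq_multiplicity
  have hle : (Nat.card G).factorization r ≤ (Nat.card X).factorization r :=
    (Nat.factorization_le_iff_dvd Nat.card_pos.ne' Nat.card_pos.ne').mpr
      (Subgroup.card_subgroup_dvd_card G) r
  have heq : (Nat.card G).factorization r = (Nat.card X).factorization r := le_antisymm hle hfull
  let P' : Subgroup X := (P : Subgroup G).map G.subtype
  have hcardP' : Nat.card P' = r ^ (Nat.card X).factorization r := by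
    rw [← heq, ← hcardP]
    exact Nat.card_congr (Subgroup.equivMapOfInjective _ _ G.subtype_injective).toEquiv.symm
  let S : Sylow r X := Sylow.ofCard P' hcardP'
  obtain ⟨Q, hQ⟩ := hz.exists_le_sylow
  obtain ⟨x, hx⟩ := MulAction.exists_smul_eq X Q S
  refine ⟨x, ?_⟩
  have hzQ : z ∈ (Q : Subgroup X) := hQ (Subgroup.mem_zpowers z)
  have h1 : x * z * x⁻¹ ∈ (x • Q : Sylow r X) := by
    rw [Sylow.smul_def]
    change x * z * x⁻¹ ∈ ((MulAut.conj x • Q : Sylow r X) : Subgroup X)
    rw [Sylow.pointwise_smul_def]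
    exact Subgroup.smul_mem_pointwise_smul z (MulAut.conj x) (Q : Subgroup X) hzQ
  rw [hx] at h1
  have h2 : x * z * x⁻¹ ∈ P' := by
    have : x * z * x⁻¹ ∈ (S : Subgroup X) := h1
    rwa [Sylow.coe_ofCard] at this
  obtain ⟨y, _, hy⟩ := Subgroup.mem_map.mp h2
  rw [← hy]
  exact y.2

theorem exists_cycle {r : ℕ} (hr : 2 ≤ r) (hle : r ≤ Fintype.card α) :
    ∃ c : Perm α, c.IsCycle ∧ c.support.card = r := by
  obtain ⟨S, -, hS⟩ := Finset.exists_subset_card_eq (s := (Finset.univ : Finset α)) (n := r)
    (by simpa using hle)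
  have hnd : S.toList.Nodup := S.nodup_toList
  have hlen : S.toList.length = r := by rw [Finset.length_toList, hS]
  refine ⟨S.toList.formPerm, List.isCycle_formPerm hnd (by omega), ?_⟩
  rw [List.support_formPerm_of_nodup _ hnd (by
    intro x hx
    rw [hx] at hlen
    simp at hlen
    omega)]
  rw [List.toFinset_card_of_nodup hnd, hlen]

theorem cycle_mem (G : Subgroup (Perm α)) {r : ℕ} (hr : r.Prime)
    (hfull : (Fintype.card α).factorial.factorization r ≤ (Nat.card G).factorization r)
    (hle : r ≤ Fintype.card α) : ∃ c ∈ G, c.IsCycle ∧ c.support.card = r := by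
  obtain ⟨z, hz, hzr⟩ := exists_cycle (α := α) hr.two_le hle
  have hF : Fact r.Prime := ⟨hr⟩
  have hord : orderOf z = r := by rw [hz.orderOf, hzr]
  have hp : IsPGroup r (Subgroup.zpowers z) := by
    apply IsPGroup.of_card (n := 1)
    rw [Nat.card_zpowers, hord, pow_one]
  have hcard : Nat.card (Perm α) = (Fintype.card α).factorial := by
    rw [Nat.card_perm, Nat.card_eq_fintype_card]
  obtain ⟨x, hx⟩ := exists_conj_mem G hr (by rwa [hcard]) hp
  refine ⟨_, hx, hz.conj, ?_⟩
  rw [Equiv.Perm.card_support_conj, hzr]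

theorem swap_mem (G : Subgroup (Perm α))
    (hfull : (Fintype.card α).factorial.factorization 2 ≤ (Nat.card G).factorization 2)
    (hle : 2 ≤ Fintype.card α) : ∃ c ∈ G, c.IsSwap := by
  obtain ⟨c, hc, _, h2⟩ := cycle_mem G Nat.prime_two hfull hle
  exact ⟨c, hc, Equiv.Perm.card_support_eq_two.mp h2⟩

/-- A double transposition in a subgroup of the alternating group with the full `2`-part. -/
theorem dbl_mem (G : Subgroup (Perm α)) (hGA : G ≤ alternatingGroup α)
    (hsemi : (Fintype.card α).factorial.factorization 2 ≤ (Nat.card G).factorization 2 + 1)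
    (hn : 4 ≤ Fintype.card α) :
    ∃ u v w z : α, u ≠ v ∧ w ≠ z ∧ u ≠ w ∧ u ≠ z ∧ v ≠ w ∧ v ≠ z ∧ swap u v * swap w z ∈ G := by
  have hF : Fact (Nat.Prime 2) := ⟨Nat.prime_two⟩
  -- four points
  have hemb : Nonempty (Fin 4 ↪ α) := Function.Embedding.nonempty_of_card_le (by simpa using hn)
  obtain ⟨e⟩ := hemb
  obtain ⟨a, b, c, d, hab, hac, had, hbc, hbd, hcd⟩ : ∃ a b c d : α, a ≠ b ∧ a ≠ c ∧ a ≠ d ∧
      b ≠ c ∧ b ≠ d ∧ c ≠ d :=
    ⟨e 0, e 1, e 2, e 3, e.injective.ne (by decide), e.injective.ne (by decide),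
      e.injective.ne (by decide), e.injective.ne (by decide), e.injective.ne (by decide),
      e.injective.ne (by decide)⟩
  have : Nontrivial α := ⟨a, b, hab⟩
  let z0 : Perm α := swap a b * swap c d
  have hz0 : z0 ∈ alternatingGroup α := by
    rw [Equiv.Perm.mem_alternatingGroup, Equiv.Perm.sign_mul, sign_swap hab, sign_swap hcd]
    rfl
  let z : alternatingGroup α := ⟨z0, hz0⟩
  have hz2 : z ^ 2 = 1 := by
    apply Subtype.ext
    have hc : Commute (swap a b) (swap c d) :=
      (Equiv.Perm.disjoint_swap_swap (by simp [hab, hac, had, hbc, hbd, hcd])).commute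
    change (swap a b * swap c d) ^ 2 = 1
    rw [hc.mul_pow]
    simp [sq]
  have hp : IsPGroup 2 (Subgroup.zpowers z) := by
    intro g
    obtain ⟨i, hi⟩ := Subgroup.mem_zpowers_iff.mp g.2
    refine ⟨1, ?_⟩
    apply Subtype.ext
    change (g : alternatingGroup α) ^ (2 ^ 1) = 1
    rw [← hi, pow_one, ← zpow_natCast, ← zpow_mul, mul_comm, zpow_mul, zpow_natCast, hz2, one_zpow]
  let G' : Subgroup (alternatingGroup α) := G.subgroupOf (alternatingGroup α)
  have hcardG' : Nat.card G' = Nat.card G := by
    exact Nat.card_congr (Subgroup.subgroupOfEquivOfLe hGA).toEquiv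
  have hcardA : 2 * Nat.card (alternatingGroup α) = (Fintype.card α).factorial := by
    rw [two_mul_nat_card_alternatingGroup, Nat.card_perm, Nat.card_eq_fintype_card]
  have hval : (Fintype.card α).factorial.factorization 2 =
      (Nat.card (alternatingGroup α)).factorization 2 + 1 := by
    rw [← hcardA, Nat.factorization_mul (by norm_num) Nat.card_pos.ne']
    simp [add_comm, Nat.Prime.factorization_self Nat.prime_two]
  obtain ⟨x, hx⟩ := exists_conj_mem G' Nat.prime_two (by rw [hcardG']; omega) hp
  have hx' : (x : Perm α) * (swap a b * swap c d) * (x : Perm α)⁻¹ ∈ G := by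
    have := Subgroup.mem_subgroupOf.mp hx
    simpa [z, z0] using this
  have hform : (x : Perm α) * (swap a b * swap c d) * (x : Perm α)⁻¹ =
      swap ((x : Perm α) a) ((x : Perm α) b) * swap ((x : Perm α) c) ((x : Perm α) d) := by
    rw [Equiv.swap_apply_apply, Equiv.swap_apply_apply]
    group
  rw [hform] at hx'
  have hinj := (x : Perm α).injective
  exact ⟨_, _, _, _, hinj.ne hab, hinj.ne hcd, hinj.ne hac, hinj.ne had, hinj.ne hbc, hinj.ne hbd, hx'⟩

end Cfsg.Agent.Lib.HallPerm
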