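import Mathlib
import Cfsg.Agent.Lib.HallPerm
import Cfsg.Agent.Lib.PrimeCycleJ

set_option autoImplicit false
set_option linter.unusedSectionVars false

namespace Cfsg.Agent.Lib.HallPrim

open Equiv Equiv.Perm MulAction
open Cfsg.Agent.Lib.HallPerm

section LemmaB

variable {β : Type*} [Fintype β] [DecidableEq β]

/-- The stabilizer of a point inside `K`, as a subgroup of the symmetric group. -/
def ptK (K : Subgroup (Perm β)) (x : β) : Subgroup (Perm β) where
  carrier := {g | g ∈ K ∧ g x = x}
  mul_mem' := by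
    rintro a b ⟨ha, hax⟩ ⟨hb, hbx⟩
    exact ⟨K.mul_mem ha hb, by simp [hbx, hax]⟩
  one_mem' := ⟨K.one_mem, rfl⟩
  inv_mem' := by
    rintro a ⟨ha, hax⟩
    refine ⟨K.inv_mem ha, ?_⟩
    rw [Equiv.Perm.inv_eq_iff_eq]
    exact hax.symm

theorem mem_ptK {K : Subgroup (Perm β)} {x : β} {g : Perm β} : g ∈ ptK K x ↔ g ∈ K ∧ g x = x :=
  Iff.rfl

/-- The pointwise stabilizer of two points. -/
def fixPair (x y : β) : Set (Subgroup (Perm β)) :=
  {D | ∀ d ∈ D, d x = x ∧ d y = y}

theorem fact_factorial_self {q : ℕ} (hq : q.Prime) : q.factorial.factorization q = 1 := by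
  have h1 : q.factorial = q * (q - 1).factorial := (Nat.mul_factorial_pred hq.ne_zero).symm
  rw [h1, Nat.factorization_mul hq.ne_zero (Nat.factorial_ne_zero _)]
  have h2 : ((q - 1).factorial).factorization q = 0 := by
    apply Nat.factorization_eq_zero_of_not_dvd
    rw [hq.dvd_factorial]
    have := hq.pos
    omega
  simp [h2, hq.factorization_self]

/-- A `q`-cycle in a group with `q ∣ |K|` acting on `q` points. -/
theorem exists_full_cycle (K : Subgroup (Perm β)) {q : ℕ} (hq : q.Prime)
    (hcard : Fintype.card β = q) (hqK : q ∣ Nat.card K) :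
    ∃ c ∈ K, ∀ x y, ∃ i : ℕ, (c ^ i) x = y := by
  have hfull : (Fintype.card β).factorial.factorization q ≤ (Nat.card K).factorization q := by
    rw [hcard, fact_factorial_self hq]
    exact hq.factorization_pos_of_dvd Nat.card_pos.ne' hqK
  obtain ⟨c, hc, hcyc, hsupp⟩ := cycle_mem K hq hfull hcard.ge
  refine ⟨c, hc, fun x y => ?_⟩
  have huniv : c.support = Finset.univ := by
    apply Finset.eq_univ_of_card
    rw [hsupp, hcard]
  have hmv : ∀ z, c z ≠ z := by
    intro z
    have : z ∈ c.support := by rw [huniv]; exact Finset.mem_univ z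
    exact Equiv.Perm.mem_support.mp this
  exact hcyc.exists_pow_eq (hmv x) (hmv y)

theorem card_ptK_dvd_of_trans (K : Subgroup (Perm β)) (x : β) (c : Perm β) (hc : c ∈ K)
    (htrans : ∀ x y, ∃ i : ℕ, (c ^ i) x = y) :
    Nat.card (ptK K x) * Fintype.card β = Nat.card K := by
  have hpre : IsPretransitive K β := by
    refine ⟨fun a b => ?_⟩
    obtain ⟨i, hi⟩ := htrans a b
    exact ⟨⟨c ^ i, K.pow_mem hc i⟩, hi⟩
  have h1 := Subgroup.card_mul_index (stabilizer K x)
  rw [index_stabilizer_of_transitive, Nat.card_eq_fintype_card (α := β)] at h1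
  rw [← h1]
  congr 1
  exact Nat.card_congr ⟨fun g => ⟨⟨g.1, g.2.1⟩, g.2.2⟩, fun g => ⟨g.1.1, g.1.2, g.2⟩, fun _ => rfl,
    fun _ => rfl⟩

theorem isPGroup_of_primes {H : Type*} [Group H] [Finite H] {p : ℕ}
    (h : ∀ r, r.Prime → r ∣ Nat.card H → r = p) : IsPGroup p H :=
  IsPGroup.of_card (Nat.eq_prime_pow_of_unique_prime_dvd Nat.card_pos.ne' (fun {d} hd hdv => h d hd hdv))

/-- **Lemma B**: a group of degree a prime `q` whose order has only the prime divisors `p, q`, with
`q` dividing the order, has no nonidentity element with two fixed points. -/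
theorem eq_one_of_two_fixed (K : Subgroup (Perm β)) {p q : ℕ} (hp : p.Prime) (hq : q.Prime)
    (hpq : p ≠ q) (hcard : Fintype.card β = q)
    (hprimes : ∀ r, r.Prime → r ∣ Nat.card K → r = p ∨ r = q) (hqK : q ∣ Nat.card K)
    {t : Perm β} (ht : t ∈ K) {x y : β} (hxy : x ≠ y) (htx : t x = x) (hty : t y = y) : t = 1 := by
  classical
  by_contra ht1
  have hFp : Fact p.Prime := ⟨hp⟩
  -- the candidates
  let S : Set (Subgroup (Perm β)) :=
    {D | D ≤ K ∧ D ≠ ⊥ ∧ ∃ x y : β, x ≠ y ∧ ∀ d ∈ D, d x = x ∧ d y = y}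
  have hS : (Subgroup.zpowers t) ∈ S := by
    refine ⟨?_, ?_, x, y, hxy, ?_⟩
    · rw [Subgroup.zpowers_le]; exact ht
    · intro h
      rw [Subgroup.zpowers_eq_bot] at h
      exact ht1 h
    · intro d hd
      have hle : Subgroup.zpowers t ≤ ptK (⊤ : Subgroup (Perm β)) x ⊓ ptK (⊤ : Subgroup (Perm β)) y := by
        rw [Subgroup.zpowers_le]
        exact ⟨⟨Subgroup.mem_top _, htx⟩, ⟨Subgroup.mem_top _, hty⟩⟩
      have := hle hd
      exact ⟨this.1.2, this.2.2⟩
  obtain ⟨D, hDle, hDmax⟩ := (Set.toFinite S).exists_le_maximal hS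
  obtain ⟨hDK, hDne, a, b, hab, hDab⟩ := hDmax.prop
  have hmaxD : ∀ M ∈ S, D ≤ M → M ≤ D := fun M hM hle => hDmax.le_of_ge hM hle
  -- the full cycle and transitivity
  obtain ⟨c, hc, htrans⟩ := exists_full_cycle K hq hcard hqK
  -- order data
  have hcardK : ∀ z, Nat.card (ptK K z) * q = Nat.card K := by
    intro z
    have := card_ptK_dvd_of_trans K z c hc htrans
    rwa [hcard] at this
  have hKdvd : Nat.card K ∣ q.factorial := by
    have h := Subgroup.card_subgroup_dvd_card K
    rwa [Nat.card_perm, Nat.card_eq_fintype_card (α := β), hcard] at h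
  have hqsq : ¬ q ^ 2 ∣ Nat.card K := fun h =>
    Cfsg.Agent.Lib.PrimeCycleJ.not_sq_dvd_factorial hq (h.trans hKdvd)
  have hptK : ∀ z, IsPGroup p (ptK K z) := by
    intro z
    apply isPGroup_of_primes
    intro r hr hrd
    have hrK : r ∣ Nat.card K := by
      rw [← hcardK z]
      exact Dvd.dvd.mul_right hrd _
    rcases hprimes r hr hrK with h | h
    · exact h
    · exfalso
      subst h
      apply hqsq
      rw [← hcardK z, sq]
      exact Nat.mul_dvd_mul hrd (dvd_refl _) |>.trans (by rw [mul_comm])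
  -- the normalizer
  let N : Subgroup (Perm β) := K ⊓ Subgroup.normalizer (D : Set (Perm β))
  have hDN : D ≤ N := le_inf hDK Subgroup.le_normalizer
  have hNK : N ≤ K := inf_le_left
  -- a fixed point of `D`: the set is invariant
  have hNq : ¬ q ∣ Nat.card N := by
    intro hqN
    obtain ⟨c', hc', htrans'⟩ := exists_full_cycle N hq hcard hqN
    have hinv : ∀ (i : ℕ) (z : β), (∀ d ∈ D, d z = z) → ∀ d ∈ D, d ((c' ^ i) z) = (c' ^ i) z := by
      intro i
      induction i with
      | zero => simpa using fun z hz => hz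
      | succ i ih =>
        intro z hz d hd
        have h2 := ih z hz
        rw [pow_succ', Equiv.Perm.mul_apply]
        have hnorm : c' ∈ Subgroup.normalizer (D : Set (Perm β)) := hc'.2
        have hd' : c'⁻¹ * d * c' ∈ D := by
          have := (Subgroup.mem_normalizer_iff.mp (Subgroup.inv_mem _ hnorm) d).mp hd
          simpa using this
        have h3 := h2 _ hd'
        have h4 : (c'⁻¹ * d * c') ((c' ^ i) z) = (c' ^ i) z := h3
        simp only [Equiv.Perm.mul_apply] at h4
        have h5 := congrArg c' h4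
        simpa using h5
    apply hDne
    rw [eq_bot_iff]
    intro d hd
    rw [Subgroup.mem_bot]
    ext w
    obtain ⟨i, hi⟩ := htrans' a w
    rw [← hi]
    have := hinv i a (fun d hd => (hDab d hd).1) d hd
    simpa using this
  have hNp : IsPGroup p N := by
    apply isPGroup_of_primes
    intro r hr hrd
    have hrK : r ∣ Nat.card K := hrd.trans (Subgroup.card_dvd_of_le hNK)
    rcases hprimes r hr hrK with h | h
    · exact h
    · exact absurd (h ▸ hrd) hNq
  have hfp : (fixedPoints N β).Nonempty := by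
    apply hNp.nonempty_fixed_point_of_prime_not_dvd_card
    rw [Nat.card_eq_fintype_card, hcard]
    intro h
    exact hpq ((Nat.prime_dvd_prime_iff_eq hp hq).mp h)
  obtain ⟨γ, hγ⟩ := hfp
  have hγN : ∀ g ∈ N, g γ = γ := fun g hg => hγ ⟨g, hg⟩
  -- a second fixed point of `D`
  obtain ⟨a', ha'ne, ha'D⟩ : ∃ a' : β, a' ≠ γ ∧ ∀ d ∈ D, d a' = a' := by
    by_cases h : a = γ
    · exact ⟨b, fun hb => hab (h.trans hb.symm), fun d hd => (hDab d hd).2⟩
    · exact ⟨a, h, fun d hd => (hDab d hd).1⟩
  let A := ptK K a'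
  have hDA : D ≤ A := fun d hd => ⟨hDK hd, ha'D d hd⟩
  have hAp : IsPGroup p A := hptK a'
  by_cases hDeq : D = A
  · -- `D` is the full stabilizer of `a'`
    have hDγ : D ≤ ptK K γ := fun d hd => ⟨hDK hd, hγN d (hDN hd)⟩
    have hcA : Nat.card (ptK K γ) = Nat.card A := by
      have h1 := hcardK γ
      have h2 := hcardK a'
      exact Nat.eq_of_mul_eq_mul_right hq.pos (h1.trans h2.symm)
    have hDγeq : D = ptK K γ := by
      apply Subgroup.eq_of_le_of_card_ge hDγ
      rw [hcA, ← hDeq]
    obtain ⟨i, hi⟩ := htrans a' γ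
    let u : Perm β := c ^ i
    have huK : u ∈ K := K.pow_mem hc i
    have hun : u ∈ Subgroup.normalizer (D : Set (Perm β)) := by
      rw [Subgroup.mem_normalizer_iff]
      intro h
      constructor
      · intro hh
        have h1 : h ∈ A := hDA hh
        rw [hDγeq]
        refine ⟨K.mul_mem (K.mul_mem huK h1.1) (K.inv_mem huK), ?_⟩
        have h2 : u a' = γ := hi
        have h3 : u⁻¹ γ = a' := by rw [← h2]; simp
        simp only [Equiv.Perm.mul_apply, h3, h1.2, h2]
      · intro hh
        have hh' : u * h * u⁻¹ ∈ ptK K γ := by rwa [← hDγeq]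
        have h2 : u a' = γ := hi
        have h3 : u⁻¹ γ = a' := by rw [← h2]; simp
        rw [hDeq]
        refine ⟨?_, ?_⟩
        · have := K.mul_mem (K.mul_mem (K.inv_mem huK) hh'.1) huK
          simpa [mul_assoc] using this
        · have h4 := hh'.2
          simp only [Equiv.Perm.mul_apply, h3] at h4
          rw [← h2] at h4
          exact u.injective h4
    have hfix : u γ = γ := hγN u ⟨huK, hun⟩
    have h2 : u a' = γ := hi
    exact ha'ne (u.injective (h2.trans hfix.symm))
  · -- `D < A`: the normalizer grows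
    have hlt : D < A := lt_of_le_of_ne hDA hDeq
    have hnil : Group.IsNilpotent A := hAp.isNilpotent
    have hnc := Group.normalizerCondition_of_isNilpotent (G := A)
    have hD' : D.subgroupOf A < ⊤ := by
      rw [lt_top_iff_ne_top]
      intro h
      apply hDeq
      apply le_antisymm hDA
      intro g hg
      have : (⟨g, hg⟩ : A) ∈ D.subgroupOf A := by rw [h]; exact Subgroup.mem_top _
      exact Subgroup.mem_subgroupOf.mp this
    have hlt2 := hnc _ hD'
    obtain ⟨u, hun, huD⟩ := SetLike.exists_of_lt hlt2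
    have huA : (u : Perm β) ∈ A := u.2
    have hunorm : (u : Perm β) ∈ Subgroup.normalizer (D : Set (Perm β)) := by
      rw [Subgroup.mem_normalizer_iff]
      intro h
      constructor
      · intro hh
        have h1 := (Subgroup.mem_normalizer_iff.mp hun ⟨h, hDA hh⟩).mp (Subgroup.mem_subgroupOf.mpr hh)
        exact Subgroup.mem_subgroupOf.mp h1
      · intro hh
        have hA' : h ∈ A := by
          have := A.mul_mem (A.mul_mem (A.inv_mem huA) (hDA hh)) huA
          simpa [mul_assoc] using this
        have h1 := (Subgroup.mem_normalizer_iff.mp hun ⟨h, hA'⟩).mpr (Subgroup.mem_subgroupOf.mpr hh)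
        exact Subgroup.mem_subgroupOf.mp h1
    have huN : (u : Perm β) ∈ N := ⟨huA.1, hunorm⟩
    let M : Subgroup (Perm β) := D ⊔ Subgroup.zpowers (u : Perm β)
    have hMK : M ≤ K := sup_le hDK (by rw [Subgroup.zpowers_le]; exact huA.1)
    have hMa : M ≤ ptK (⊤ : Subgroup (Perm β)) a' := sup_le
      (fun d hd => ⟨Subgroup.mem_top _, ha'D d hd⟩)
      (by rw [Subgroup.zpowers_le]; exact ⟨Subgroup.mem_top _, huA.2⟩)
    have hMγ : M ≤ ptK (⊤ : Subgroup (Perm β)) γ := sup_le
      (fun d hd => ⟨Subgroup.mem_top _, hγN d (hDN hd)⟩)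
      (by rw [Subgroup.zpowers_le]; exact ⟨Subgroup.mem_top _, hγN _ huN⟩)
    have hMS : M ∈ S := by
      refine ⟨hMK, ?_, a', γ, ha'ne, fun d hd => ⟨(hMa hd).2, (hMγ hd).2⟩⟩
      intro h
      apply hDne
      rw [eq_bot_iff, ← h]
      exact le_sup_left
    have huM : (u : Perm β) ∈ D := hmaxD M hMS le_sup_left
      (Subgroup.mem_sup_right (Subgroup.mem_zpowers _))
    exact huD (Subgroup.mem_subgroupOf.mpr huM)

end LemmaB

section Prim

variable {α : Type*} [Fintype α] [DecidableEq α]

/-- A `π`-subgroup. -/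
def PiG (π : Set ℕ) {X : Type*} [Group X] (G : Subgroup X) : Prop :=
  ∀ p, p.Prime → p ∣ Nat.card G → p ∈ π

/-- The full `r`-part of the symmetric group. -/
def Full (r : ℕ) (G : Subgroup (Perm α)) : Prop :=
  (Fintype.card α).factorial.factorization r ≤ (Nat.card G).factorization r

/-- The Hall property needed in the classification. -/
def HP (π : Set ℕ) (G : Subgroup (Perm α)) : Prop :=
  (∀ r, r.Prime → r ∈ π → r ≠ 2 → Full r G) ∧
  (2 ∈ π → Full 2 G ∨ (G ≤ alternatingGroup α ∧
    (Fintype.card α).factorial.factorization 2 ≤ (Nat.card G).factorization 2 + 1))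

theorem card_dvd_factorial (G : Subgroup (Perm α)) : Nat.card G ∣ (Fintype.card α).factorial := by
  have h := Subgroup.card_subgroup_dvd_card G
  rwa [Nat.card_perm, Nat.card_eq_fintype_card (α := α)] at h

theorem le_of_dvd_card (G : Subgroup (Perm α)) {r : ℕ} (hr : r.Prime) (h : r ∣ Nat.card G) :
    r ≤ Fintype.card α :=
  (hr.dvd_factorial).mp (h.trans (card_dvd_factorial G))

theorem card_dvd_of_trans (G : Subgroup (Perm α)) (hG : IsPretransitive G α)
    (hne : 0 < Fintype.card α) : Fintype.card α ∣ Nat.card G := by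
  obtain ⟨x⟩ := Fintype.card_pos_iff.mp hne
  have h := Subgroup.index_dvd_card (stabilizer G x)
  rwa [index_stabilizer_of_transitive, Nat.card_eq_fintype_card (α := α)] at h

/-- **Lemma C**. -/
theorem pred_dvd_of_cycle (G : Subgroup (Perm α)) (hG : IsPreprimitive G α) {c : Perm α}
    (hc : c ∈ G) (hcyc : c.IsCycle) (hsupp : c.support.card + 2 = Fintype.card α) :
    (Fintype.card α - 1) ∣ Nat.card G := by
  classical
  have hcompl : c.supportᶜ.card = 2 := by
    rw [Finset.card_compl]; omega
  obtain ⟨a, b, hab, hS⟩ := Finset.card_eq_two.mp hcompl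
  have hfixed : ∀ z, c z = z ↔ z = a ∨ z = b := by
    intro z
    have : z ∈ c.supportᶜ ↔ z = a ∨ z = b := by rw [hS]; simp
    rw [← this, Finset.mem_compl, Equiv.Perm.mem_support]
    simp
  have hca : c a = a := (hfixed a).mpr (Or.inl rfl)
  have hnt : Nontrivial α := ⟨a, b, hab⟩
  let A := stabilizer G a
  have hcA : (⟨c, hc⟩ : G) ∈ A := hca
  by_cases hmove : ∃ h ∈ A, ((h : G) : Perm α) b ≠ b
  · obtain ⟨h, hA, hb⟩ := hmove
    have hha : ((h : G) : Perm α) a = a := hA
    -- the orbit
    let A' : Subgroup G := A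
    have horb : orbit A' b = ((({a} : Finset α)ᶜ : Finset α) : Set α) := by
      ext z
      simp only [Finset.coe_compl, Finset.coe_singleton, Set.mem_compl_iff, Set.mem_singleton_iff]
      constructor
      · rintro ⟨g, rfl⟩
        intro hz
        have hg : (((g : A') : G) : Perm α) a = a := g.2
        have : (((g : A') : G) : Perm α) b = a := hz
        exact hab.symm (Equiv.injective _ (this.trans hg.symm))
      · intro hz
        by_cases hzb : z = b
        · rw [hzb]; exact mem_orbit_self b
        · have hzc : c z ≠ z := fun h' => by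
            rcases (hfixed z).mp h' with h1 | h1
            · exact hz h1
            · exact hzb h1
          set y := ((h : G) : Perm α) b with hy
          have hya : y ≠ a := by
            intro h1
            exact hab.symm (((h : G) : Perm α).injective (h1.trans hha.symm))
          have hyc : c y ≠ y := fun h' => by
            rcases (hfixed y).mp h' with h1 | h1
            · exact hya h1
            · exact hb h1
          obtain ⟨i, hi⟩ := hcyc.exists_pow_eq hyc hzc
          let u : A' := ⟨⟨c, hc⟩, hcA⟩ ^ i * ⟨h, hA⟩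
          refine ⟨u, ?_⟩
          change ((u : G) : Perm α) b = z
          have : ((u : G) : Perm α) = c ^ i * (h : Perm α) := by
            simp [u]
          rw [this, Equiv.Perm.mul_apply]
          exact hi
    have hcardorb : (orbit A' b).ncard = Fintype.card α - 1 := by
      rw [horb, Set.ncard_coe_finset, Finset.card_compl, Finset.card_singleton]
    have h1 : (orbit A' b).ncard ∣ Nat.card A' := by
      rw [← index_stabilizer]
      exact Subgroup.index_dvd_card _
    rw [hcardorb] at h1
    exact h1.trans (Subgroup.card_subgroup_dvd_card A')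
  · push Not at hmove
    have hco : IsCoatom A := IsPreprimitive.isCoatom_stabilizer_of_isPreprimitive (G := G) a
    have hAb : A ≤ stabilizer G b := fun h hh => hmove h hh
    have hbtop : stabilizer G b ≠ ⊤ := by
      intro htop
      obtain ⟨g, hg⟩ := exists_smul_eq G b a
      have : g ∈ stabilizer G b := by rw [htop]; exact Subgroup.mem_top _
      exact hab ((hg.symm.trans this))
    have hAeq : A = stabilizer G b := by
      by_contra hne
      exact hbtop (hco.2 _ (lt_of_le_of_ne hAb hne))
    obtain ⟨t, ht⟩ := exists_smul_eq G a b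
    have htn : t ∈ Subgroup.normalizer (A : Set G) := by
      rw [Subgroup.mem_normalizer_iff]
      intro h
      have ht' : t⁻¹ • b = a := by rw [← ht]; simp
      constructor
      · intro hh
        change t * h * t⁻¹ ∈ A
        rw [hAeq, mem_stabilizer_iff, mul_smul, mul_smul, ht', (show h • a = a from hh), ht]
      · intro hh
        have hh' : t * h * t⁻¹ ∈ stabilizer G b := by rw [← hAeq]; exact hh
        rw [mem_stabilizer_iff, mul_smul, mul_smul, ht'] at hh'
        change h • a = a
        apply (MulAction.injective t)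
        change t • h • a = t • a
        rw [hh', ht]
    have htA : t ∉ A := by
      intro h
      have : t • a = a := h
      exact hab (this.symm.trans ht)
    have hnorm : Subgroup.normalizer (A : Set G) = ⊤ := by
      apply hco.2
      refine lt_of_le_of_ne Subgroup.le_normalizer ?_
      intro h
      exact htA (by rw [h]; exact htn)
    -- hence `c` acts trivially
    apply absurd _ hcyc.ne_one
    ext w
    obtain ⟨g, hg⟩ := exists_smul_eq G a w
    have hgn : g⁻¹ ∈ Subgroup.normalizer (A : Set G) := by rw [hnorm]; exact Subgroup.mem_top _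
    have := (Subgroup.mem_normalizer_iff.mp hgn (⟨c, hc⟩ : G)).mp hcA
    have h2 : ((g⁻¹ * ⟨c, hc⟩ * g⁻¹⁻¹ : G)) • a = a := this
    simp only [inv_inv, mul_smul] at h2
    have h3 : (⟨c, hc⟩ : G) • (g • a) = g • a := by
      apply (MulAction.injective g⁻¹)
      change g⁻¹ • _ = g⁻¹ • (g • a)
      rw [inv_smul_smul]
      exact h2
    rw [hg] at h3
    exact h3

/-- No subgroup of order `20` in the alternating group of degree `5`. -/
theorem no_order20 (G : Subgroup (Perm α)) (hcard : Fintype.card α = 5)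
    (hGA : G ≤ alternatingGroup α) : Nat.card G ≠ 20 := by
  intro h20
  have hsimple : IsSimpleGroup (alternatingGroup α) :=
    alternatingGroup.isSimpleGroup (by rw [Nat.card_eq_fintype_card, hcard])
  let H : Subgroup (alternatingGroup α) := G.subgroupOf (alternatingGroup α)
  have hH : Nat.card H = 20 := by
    rw [← h20]
    exact Nat.card_congr (Subgroup.subgroupOfEquivOfLe hGA).toEquiv
  have hA : Nat.card (alternatingGroup α) = 60 := by
    have hnt : Nontrivial α := Fintype.one_lt_card_iff_nontrivial.mp (by omega)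
    have := two_mul_nat_card_alternatingGroup (α := α)
    rw [Nat.card_perm, Nat.card_eq_fintype_card (α := α), hcard] at this
    have h120 : Nat.factorial 5 = 120 := rfl
    omega
  have hidx : H.index = 3 := by
    have := Subgroup.card_mul_index H
    rw [hH, hA] at this
    omega
  have hcore : H.normalCore.index ∣ H.index.factorial := by
    rw [Subgroup.normalCore_eq_ker, Subgroup.index_ker, Subgroup.index_eq_card, ← Nat.card_perm]
    exact Subgroup.card_subgroup_dvd_card (toPermHom _ (_ ⧸ H)).range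
  rcases (H.normalCore_normal).eq_bot_or_eq_top with h | h
  · rw [h, Subgroup.index_bot, hA, hidx] at hcore
    have : Nat.factorial 3 = 6 := rfl
    rw [this] at hcore
    omega
  · have h1 : H = ⊤ := by
      rw [eq_top_iff, ← h]
      exact Subgroup.normalCore_le H
    rw [h1, Subgroup.index_top] at hidx
    omega

end Prim

section PrimClass

variable {α : Type*} [Fintype α] [DecidableEq α]

theorem card_ptK_of_trans (G : Subgroup (Perm α)) (hG : IsPretransitive G α) (x : α) :
    Nat.card (ptK G x) * Fintype.card α = Nat.card G := by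
  have h1 := Subgroup.card_mul_index (stabilizer G x)
  rw [index_stabilizer_of_transitive, Nat.card_eq_fintype_card (α := α)] at h1
  rw [← h1]
  congr 1
  exact Nat.card_congr ⟨fun g => ⟨⟨g.1, g.2.1⟩, g.2.2⟩, fun g => ⟨g.1.1, g.1.2, g.2⟩, fun _ => rfl,
    fun _ => rfl⟩

theorem fact_eq_of {n p k : ℕ} (hp : p.Prime) (hn : n ≠ 0) (h1 : p ^ k ∣ n)
    (h2 : ¬ p ^ (k + 1) ∣ n) : n.factorization p = k := by
  apply le_antisymm
  · by_contra h
    exact h2 ((hp.pow_dvd_iff_le_factorization hn).mpr (by omega))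
  · exact (hp.pow_dvd_iff_le_factorization hn).mp h1

theorem all_primes_of_alt_le (π : Set ℕ) (G : Subgroup (Perm α)) (hPi : PiG π G)
    (halt : alternatingGroup α ≤ G) (hm : 4 ≤ Fintype.card α) :
    ∀ r, r.Prime → r ≤ Fintype.card α → r ∈ π := by
  intro r hr hle
  apply hPi r hr
  have hnt : Nontrivial α := Fintype.one_lt_card_iff_nontrivial.mp (by omega)
  have hA : 2 * Nat.card (alternatingGroup α) = (Fintype.card α).factorial := by
    rw [two_mul_nat_card_alternatingGroup, Nat.card_perm, Nat.card_eq_fintype_card]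
  have h : r ∣ Nat.card (alternatingGroup α) := by
    by_cases h2 : r = 2
    · subst h2
      have h4 : 2 * 2 ∣ (Fintype.card α).factorial := Nat.dvd_factorial (by norm_num) hm
      rw [← hA] at h4
      exact Nat.dvd_of_mul_dvd_mul_left (by norm_num) h4
    · have h3 : r ∣ 2 * Nat.card (alternatingGroup α) := by
        rw [hA]; exact hr.dvd_factorial.mpr hle
      rcases (Nat.Prime.dvd_mul hr).mp h3 with h4 | h4
      · exact absurd ((Nat.prime_dvd_prime_iff_eq hr Nat.prime_two).mp h4) h2
      · exact h4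
  exact h.trans (Subgroup.card_dvd_of_le halt)

/-- The odd prime degree case. -/
theorem prim_odd (π : Set ℕ) (G : Subgroup (Perm α)) (hG : IsPreprimitive G α) (hPi : PiG π G)
    (hHP : HP π G)
    (hB : ∀ r, r.Prime → r ∈ π → r ≠ 2 → Fintype.card α < r + 3)
    (hsemi : 2 ∈ π → G ≤ alternatingGroup α ∧
      (Fintype.card α).factorial.factorization 2 ≤ (Nat.card G).factorization 2 + 1)
    (hmp : (Fintype.card α).Prime) (hm2 : Fintype.card α ≠ 2) :
    (∀ r, r.Prime → r ≤ Fintype.card α → r ∈ π) ∨
    (∃ p k, p.Prime ∧ 1 ≤ k ∧ Fintype.card α = p ^ k ∧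
      ∀ r, r.Prime → r ≤ Fintype.card α → (r ∈ π ↔ r = p)) := by
  set m := Fintype.card α with hmdef
  have hdvdm : m ∣ Nat.card G := card_dvd_of_trans G hG.toIsPretransitive hmp.pos
  have hmπ : m ∈ π := hPi m hmp hdvdm
  have hodd : m % 2 = 1 := (hmp.eq_two_or_odd).resolve_left hm2
  have hm3 : 3 ≤ m := by have := hmp.two_le; omega
  by_cases hm3' : m = 3
  · by_cases h2 : 2 ∈ π
    · left
      intro r hr hle
      have h := hr.two_le
      have : r = 2 ∨ r = 3 := by omega
      rcases this with rfl | rfl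
      · exact h2
      · rw [hm3'] at hmπ; exact hmπ
    · right
      refine ⟨m, 1, hmp, le_refl _, (pow_one m).symm, fun r hr hle => ⟨fun hrπ => ?_, fun h => h ▸ hmπ⟩⟩
      have h := hr.two_le
      have : r = 2 ∨ r = 3 := by omega
      rcases this with rfl | rfl
      · exact absurd hrπ h2
      · omega
  have hm5 : 5 ≤ m := by omega
  by_cases hs : (m - 2).Prime ∧ m - 2 ∈ π
  · left
    have hm22 : m - 2 ≠ 2 := by omega
    obtain ⟨c, hc, hcyc, hsupp⟩ := cycle_mem G hs.1 (hHP.1 _ hs.1 hs.2 hm22) (by omega)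
    have hpred := pred_dvd_of_cycle G hG hc hcyc (by rw [hsupp]; omega)
    have hpred' : m - 1 ∣ Nat.card G := hpred
    have h2π : 2 ∈ π := hPi 2 Nat.prime_two ((Nat.dvd_of_mod_eq_zero (by omega)).trans hpred')
    have hpow : ∀ t, t.Prime → t ∣ m - 1 → t = 2 := by
      intro t ht htd
      by_contra ht2
      have htπ := hPi t ht (htd.trans hpred')
      have h3 := hB t ht htπ ht2
      obtain ⟨u, hu⟩ := htd
      have htodd : t % 2 = 1 := (ht.eq_two_or_odd).resolve_left ht2
      rcases Nat.lt_or_ge u 2 with hu2 | hu2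
      · interval_cases u
        · omega
        · omega
      · have : t * 2 ≤ t * u := Nat.mul_le_mul_left t hu2
        omega
    have hm1 : m - 1 = 2 ^ (m - 1).primeFactorsList.length :=
      Nat.eq_prime_pow_of_unique_prime_dvd (by omega) (fun {d} hd hdv => hpow d hd hdv)
    have h31 : ¬ 3 ∣ m - 1 := by
      intro h
      have := hpow 3 Nat.prime_three h
      omega
    have h3m : ¬ 3 ∣ m := by
      intro h
      have := (Nat.prime_dvd_prime_iff_eq Nat.prime_three hmp).mp h
      omega
    have h32 : 3 ∣ m - 2 := by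
      have h1 : (m - 2 + 1) % 3 ≠ 0 := fun h =>
        h31 (Nat.dvd_of_mod_eq_zero (by rwa [show m - 2 + 1 = m - 1 by omega] at h))
      have h2 : (m - 2 + 2) % 3 ≠ 0 := fun h =>
        h3m (Nat.dvd_of_mod_eq_zero (by rwa [show m - 2 + 2 = m by omega] at h))
      apply Nat.dvd_of_mod_eq_zero
      generalize m - 2 = k at h1 h2
      clear hodd
      omega
    have hm23 : m - 2 = 3 := ((Nat.prime_dvd_prime_iff_eq Nat.prime_three hs.1).mp h32).symm
    have hm5' : m = 5 := by omega
    intro r hr hle
    have h := hr.two_le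
    rw [hm5'] at hle
    have : r = 2 ∨ r = 3 ∨ r = 4 ∨ r = 5 := by omega
    rcases this with rfl | rfl | rfl | rfl
    · exact h2π
    · rw [← hm23]; exact hs.2
    · norm_num at hr
    · rw [hm5'] at hmπ; exact hmπ
  · have hoddπ : ∀ r, r.Prime → r ∈ π → r ≠ 2 → r ≤ m → r = m := by
      intro r hr hrπ hr2 hle
      have h3 := hB r hr hrπ hr2
      have htodd : r % 2 = 1 := (hr.eq_two_or_odd).resolve_left hr2
      by_contra hne
      have hr' : r = m - 2 := by omega
      exact hs ⟨hr' ▸ hr, hr' ▸ hrπ⟩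
    by_cases h2 : 2 ∈ π
    · exfalso
      obtain ⟨hGA, hval⟩ := hsemi h2
      have hprimes : ∀ r, r.Prime → r ∣ Nat.card G → r = 2 ∨ r = m := by
        intro r hr hrd
        by_cases hr2 : r = 2
        · exact Or.inl hr2
        · exact Or.inr (hoddπ r hr (hPi r hr hrd) hr2 (le_of_dvd_card G hr hrd))
      by_cases hm5' : m = 5
      · -- order `20`
        have hfac : (Fintype.card α).factorial = 120 := by rw [← hmdef, hm5']; rfl
        have h120 : (120 : ℕ).factorization 2 = 3 :=
          fact_eq_of Nat.prime_two (by norm_num) (by norm_num) (by norm_num)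
        rw [hfac, h120] at hval
        have h4 : 2 ^ 2 ∣ Nat.card G :=
          (Nat.prime_two.pow_dvd_iff_le_factorization Nat.card_pos.ne').mpr (by omega)
        have h5 : 5 ∣ Nat.card G := hm5' ▸ hdvdm
        have h20 : 20 ∣ Nat.card G := by
          have : Nat.Coprime (2 ^ 2) 5 := by norm_num
          exact this.mul_dvd_of_dvd_of_dvd h4 h5
        have h3' : ¬ 3 ∣ Nat.card G := by
          intro h
          rcases hprimes 3 Nat.prime_three h with h1 | h1 <;> omega
        have hnt : Nontrivial α := Fintype.one_lt_card_iff_nontrivial.mp (by omega)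
        have h60 : Nat.card G ∣ 60 := by
          have h1 : Nat.card G ∣ Nat.card (alternatingGroup α) := Subgroup.card_dvd_of_le hGA
          have h2 := two_mul_nat_card_alternatingGroup (α := α)
          rw [Nat.card_perm, Nat.card_eq_fintype_card (α := α), hfac] at h2
          have h3 : Nat.card (alternatingGroup α) = 60 := by omega
          rwa [h3] at h1
        obtain ⟨k, hk⟩ := h20
        have hk3 : k ∣ 3 := by
          rw [hk] at h60
          have : 20 * k ∣ 20 * 3 := h60
          exact Nat.dvd_of_mul_dvd_mul_left (by norm_num) this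
        have hk' : k = 1 ∨ k = 3 := (Nat.dvd_prime Nat.prime_three).mp hk3
        rcases hk' with rfl | rfl
        · exact no_order20 G hm5' hGA (by omega)
        · exact h3' ⟨20, by omega⟩
      · have hm7 : 7 ≤ m := by
          by_contra h
          have : m = 6 := by omega
          omega
        obtain ⟨u, v, w, z, huv, hwz, huw, huz, hvw, hvz, ht⟩ := dbl_mem G hGA hval (by omega)
        let F : Finset α := ({u, v, w, z} : Finset α)ᶜ
        have hF : 1 < F.card := by
          have h1 : ({u, v, w, z} : Finset α).card ≤ 4 := Finset.card_le_four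
          rw [Finset.card_compl]
          omega
        obtain ⟨x, hx, y, hy, hxy⟩ := Finset.one_lt_card.mp hF
        have hxne : x ≠ u ∧ x ≠ v ∧ x ≠ w ∧ x ≠ z := by simpa [F] using hx
        have hyne : y ≠ u ∧ y ≠ v ∧ y ≠ w ∧ y ≠ z := by simpa [F] using hy
        have htx : (swap u v * swap w z) x = x := by
          rw [Equiv.Perm.mul_apply, Equiv.swap_apply_of_ne_of_ne hxne.2.2.1 hxne.2.2.2,
            Equiv.swap_apply_of_ne_of_ne hxne.1 hxne.2.1]
        have hty : (swap u v * swap w z) y = y := by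
          rw [Equiv.Perm.mul_apply, Equiv.swap_apply_of_ne_of_ne hyne.2.2.1 hyne.2.2.2,
            Equiv.swap_apply_of_ne_of_ne hyne.1 hyne.2.1]
        have h1 := eq_one_of_two_fixed G Nat.prime_two hmp (Ne.symm hm2) rfl hprimes hdvdm ht hxy
          htx hty
        have h2 : (swap u v * swap w z) u = v := by
          rw [Equiv.Perm.mul_apply, Equiv.swap_apply_of_ne_of_ne huw huz, Equiv.swap_apply_left]
        rw [h1] at h2
        exact huv h2
    · right
      refine ⟨m, 1, hmp, le_refl _, (pow_one m).symm, fun r hr hle =>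
        ⟨fun hrπ => hoddπ r hr hrπ (fun h => h2 (h ▸ hrπ)) hle, fun h => h ▸ hmπ⟩⟩

/-- The contradiction at degree `q + 1`. -/
theorem no_succ_prime (G : Subgroup (Perm α)) (htr : IsPretransitive G α)
    (hm : 8 ≤ Fintype.card α) (hq : (Fintype.card α - 1).Prime)
    (hprimes : ∀ r, r.Prime → r ∣ Nat.card G → r = 2 ∨ r = Fintype.card α - 1)
    (hqG : (Fintype.card α - 1) ∣ Nat.card G)
    (hGA : G ≤ alternatingGroup α)
    (hval : (Fintype.card α).factorial.factorization 2 ≤ (Nat.card G).factorization 2 + 1) :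
    False := by
  classical
  set m := Fintype.card α with hmdef
  obtain ⟨u, v, w, z, huv, hwz, huw, huz, hvw, hvz, ht⟩ := dbl_mem G hGA hval (by omega)
  have h2 : (2 : ℕ) ≠ m - 1 := by omega
  -- the point at infinity
  have hne : Nonempty α := Fintype.card_pos_iff.mp (by omega)
  obtain ⟨inf⟩ := hne
  -- move a fixed point to infinity
  have hF0 : 1 < (({u, v, w, z} : Finset α)ᶜ).card := by
    have h1 : ({u, v, w, z} : Finset α).card ≤ 4 := Finset.card_le_four
    rw [Finset.card_compl]
    omega
  obtain ⟨x0, hx0, -, -, -⟩ := Finset.one_lt_card.mp hF0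
  have hx0ne : x0 ≠ u ∧ x0 ≠ v ∧ x0 ≠ w ∧ x0 ≠ z := by simpa using hx0
  obtain ⟨g, hg⟩ := exists_smul_eq G x0 inf
  have hg' : (g : Perm α) x0 = inf := hg
  set u' := (g : Perm α) u with hu'
  set v' := (g : Perm α) v with hv'
  set w' := (g : Perm α) w with hw'
  set z' := (g : Perm α) z with hz'
  have hinj := (g : Perm α).injective
  have ht' : swap u' v' * swap w' z' ∈ G := by
    have h1 : (g : Perm α) * (swap u v * swap w z) * (g : Perm α)⁻¹ ∈ G :=
      G.mul_mem (G.mul_mem g.2 ht) (G.inv_mem g.2)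
    have hform : (g : Perm α) * (swap u v * swap w z) * (g : Perm α)⁻¹ = swap u' v' * swap w' z' := by
      rw [hu', hv', hw', hz', Equiv.swap_apply_apply, Equiv.swap_apply_apply]
      group
    rwa [hform] at h1
  have huv' : u' ≠ v' := hinj.ne huv
  have huw' : u' ≠ w' := hinj.ne huw
  have huz' : u' ≠ z' := hinj.ne huz
  have hinfu : inf ≠ u' := fun h => hx0ne.1 (hinj (hg'.trans h))
  have hinfv : inf ≠ v' := fun h => hx0ne.2.1 (hinj (hg'.trans h))
  have hinfw : inf ≠ w' := fun h => hx0ne.2.2.1 (hinj (hg'.trans h))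
  have hinfz : inf ≠ z' := fun h => hx0ne.2.2.2 (hinj (hg'.trans h))
  have hfixinf : (swap u' v' * swap w' z') inf = inf := by
    rw [Equiv.Perm.mul_apply, Equiv.swap_apply_of_ne_of_ne hinfw hinfz,
      Equiv.swap_apply_of_ne_of_ne hinfu hinfv]
  -- the restriction
  let L := ptK G inf
  have htL : swap u' v' * swap w' z' ∈ L := ⟨ht', hfixinf⟩
  let S : Finset α := Finset.univ.erase inf
  have hS : ∀ g ∈ L, ∀ x, g x ∈ S ↔ x ∈ S := by
    intro g hg x
    simp only [S, Finset.mem_erase, Finset.mem_univ, and_true]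
    have hgi : g inf = inf := hg.2
    constructor
    · intro h hx
      apply h
      rw [hx, hgi]
    · intro h hx
      apply h
      apply g.injective
      rw [hx, hgi]
  let K := (resHom L S hS).range
  have hScard : S.card = m - 1 := by
    simp [S, Finset.card_erase_of_mem, hmdef]
  have hdvd1 : Nat.card L ∣ Nat.card K := by
    have h1 := card_dvd_res L S hS
    have h3 : Fintype.card α - S.card = 1 := by
      rw [hScard]; omega
    rw [h3, Nat.factorial_one, mul_one] at h1
    exact h1
  have hdvd2 : Nat.card K ∣ Nat.card L := Subgroup.card_range_dvd _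
  have hβ : Fintype.card {x // x ∈ S} = m - 1 := by
    rw [Fintype.card_coe, hScard]
  have hprimesK : ∀ r, r.Prime → r ∣ Nat.card K → r = 2 ∨ r = m - 1 := by
    intro r hr hrd
    apply hprimes r hr
    exact (hrd.trans hdvd2).trans (Subgroup.card_dvd_of_le (fun g hg => hg.1))
  have hcardL := card_ptK_of_trans G htr inf
  have hqm : ¬ (m - 1) ∣ m := by
    intro h
    have h1 : (m - 1) ∣ m - (m - 1) := Nat.dvd_sub h (dvd_refl _)
    have h3 : m - (m - 1) = 1 := by omega
    rw [h3] at h1
    have := Nat.le_of_dvd (by norm_num) h1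
    omega
  have hqL : (m - 1) ∣ Nat.card L := by
    rw [← hcardL] at hqG
    exact (Nat.Prime.dvd_mul hq).mp hqG |>.resolve_right hqm
  have hqK : (m - 1) ∣ Nat.card K := hqL.trans hdvd1
  have htK : resHom L S hS ⟨_, htL⟩ ∈ K := ⟨_, rfl⟩
  let F : Finset α := ({inf, u', v', w', z'} : Finset α)ᶜ
  have hF : 1 < F.card := by
    have h1 : ({inf, u', v', w', z'} : Finset α).card ≤ 5 :=
      (Finset.card_insert_le _ _).trans (Nat.succ_le_succ Finset.card_le_four)
    rw [Finset.card_compl]
    omega
  obtain ⟨x, hx, y, hy, hxy⟩ := Finset.one_lt_card.mp hF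
  have hxne : x ≠ inf ∧ x ≠ u' ∧ x ≠ v' ∧ x ≠ w' ∧ x ≠ z' := by simpa [F] using hx
  have hyne : y ≠ inf ∧ y ≠ u' ∧ y ≠ v' ∧ y ≠ w' ∧ y ≠ z' := by simpa [F] using hy
  have hxS : x ∈ S := by simp [S, hxne.1]
  have hyS : y ∈ S := by simp [S, hyne.1]
  have huS : u' ∈ S := by simp [S, Ne.symm hinfu]
  have hone := eq_one_of_two_fixed K Nat.prime_two hq h2 hβ hprimesK hqK htK
    (x := ⟨x, hxS⟩) (y := ⟨y, hyS⟩) (by simpa using hxy)
    (by
      apply Subtype.ext
      change (swap u' v' * swap w' z') x = x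
      rw [Equiv.Perm.mul_apply, Equiv.swap_apply_of_ne_of_ne hxne.2.2.2.1 hxne.2.2.2.2,
        Equiv.swap_apply_of_ne_of_ne hxne.2.1 hxne.2.2.1])
    (by
      apply Subtype.ext
      change (swap u' v' * swap w' z') y = y
      rw [Equiv.Perm.mul_apply, Equiv.swap_apply_of_ne_of_ne hyne.2.2.2.1 hyne.2.2.2.2,
        Equiv.swap_apply_of_ne_of_ne hyne.2.1 hyne.2.2.1])
  have h3 := congrArg (fun f : Perm {x // x ∈ S} => ((f ⟨u', huS⟩ : {x // x ∈ S}) : α)) hone
  have h4 : (swap u' v' * swap w' z') u' = u' := h3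
  rw [Equiv.Perm.mul_apply, Equiv.swap_apply_of_ne_of_ne huw' huz', Equiv.swap_apply_left] at h4
  exact huv' h4.symm

/-- The power of two degree case. -/
theorem prim_two (π : Set ℕ) (G : Subgroup (Perm α)) (hG : IsPreprimitive G α) (hPi : PiG π G)
    (hHP : HP π G) (hm : 2 ≤ Fintype.card α)
    (hB : ∀ r, r.Prime → r ∈ π → r ≠ 2 → Fintype.card α < r + 3)
    (hsemi : 2 ∈ π → G ≤ alternatingGroup α ∧
      (Fintype.card α).factorial.factorization 2 ≤ (Nat.card G).factorization 2 + 1)
    (h2pow : ∀ t, t.Prime → t ∣ Fintype.card α → t = 2) :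
    (∀ r, r.Prime → r ≤ Fintype.card α → r ∈ π) ∨
    (∃ p k, p.Prime ∧ 1 ≤ k ∧ Fintype.card α = p ^ k ∧
      ∀ r, r.Prime → r ≤ Fintype.card α → (r ∈ π ↔ r = p)) := by
  set m := Fintype.card α with hmdef
  have htr : IsPretransitive G α := hG.toIsPretransitive
  have hdvdm : m ∣ Nat.card G := card_dvd_of_trans G htr (by omega)
  have hm_pow : m = 2 ^ m.primeFactorsList.length :=
    Nat.eq_prime_pow_of_unique_prime_dvd (by omega) (fun {d} hd hdv => h2pow d hd hdv)
  set x := m.primeFactorsList.length with hx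
  have hx1 : 1 ≤ x := by
    by_contra h
    have : x = 0 := by omega
    rw [this, pow_zero] at hm_pow
    omega
  have h2m : 2 ∣ m := by
    rw [hm_pow]
    exact dvd_pow_self 2 (by omega)
  have h2π : 2 ∈ π := hPi 2 Nat.prime_two (h2m.trans hdvdm)
  obtain ⟨hGA, hval⟩ := hsemi h2π
  have hm2 : m ≠ 2 := by
    intro h
    have hbot : alternatingGroup α = ⊥ :=
      alternatingGroup.eq_bot_of_card_le_two (by rw [Nat.card_eq_fintype_card, ← hmdef, h])
    have hnt : Nontrivial α := Fintype.one_lt_card_iff_nontrivial.mp (by omega)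
    obtain ⟨a, b, hab⟩ := exists_pair_ne α
    obtain ⟨g, hg⟩ := exists_smul_eq G a b
    have hg1 : (g : Perm α) ∈ (⊥ : Subgroup (Perm α)) := hbot ▸ hGA g.2
    rw [Subgroup.mem_bot] at hg1
    have : (g : Perm α) a = b := hg
    rw [hg1] at this
    exact hab this
  have hm4 : 4 ≤ m := by
    have : m % 2 = 0 := Nat.mod_eq_zero_of_dvd h2m
    omega
  by_cases hq : ∃ r, r.Prime ∧ r ∈ π ∧ r ≠ 2 ∧ r ≤ m
  · obtain ⟨r, hr, hrπ, hr2, hrm⟩ := hq
    have h3 := hB r hr hrπ hr2
    have hrodd : r % 2 = 1 := (hr.eq_two_or_odd).resolve_left hr2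
    have hmev : m % 2 = 0 := Nat.mod_eq_zero_of_dvd h2m
    have hrm1 : r = m - 1 := by omega
    by_cases hm4' : m = 4
    · left
      intro t ht hle
      have h := ht.two_le
      have : t = 2 ∨ t = 3 ∨ t = 4 := by omega
      rcases this with rfl | rfl | rfl
      · exact h2π
      · have : r = 3 := by omega
        rw [← this]; exact hrπ
      · norm_num at ht
    · exfalso
      have hm8 : 8 ≤ m := by
        have hx3 : 3 ≤ x := by
          by_contra h
          have : x = 1 ∨ x = 2 := by omega
          rcases this with h1 | h1 <;> rw [h1] at hm_pow <;> omega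
        rw [hm_pow]
        calc 8 = 2 ^ 3 := rfl
          _ ≤ 2 ^ x := Nat.pow_le_pow_right (by norm_num) hx3
      have hprimes : ∀ t, t.Prime → t ∣ Nat.card G → t = 2 ∨ t = m - 1 := by
        intro t ht htd
        by_cases ht2 : t = 2
        · exact Or.inl ht2
        · right
          have htπ := hPi t ht htd
          have h4 := hB t ht htπ ht2
          have h5 := le_of_dvd_card G ht htd
          have htodd : t % 2 = 1 := (ht.eq_two_or_odd).resolve_left ht2
          omega
      have hqG : (m - 1) ∣ Nat.card G := by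
        have hprime : (m - 1).Prime := hrm1 ▸ hr
        have hfull := hHP.1 (m - 1) hprime (hrm1 ▸ hrπ) (by omega)
        obtain ⟨c, hc, hcyc, hsupp⟩ := cycle_mem G hprime hfull (by omega)
        have h1 : orderOf c = m - 1 := by rw [hcyc.orderOf, hsupp]
        rw [← h1]
        exact Subgroup.orderOf_dvd_natCard G hc
      exact no_succ_prime G htr hm8 (hrm1 ▸ hr) hprimes hqG hGA hval
  · right
    refine ⟨2, x, Nat.prime_two, hx1, hm_pow, fun r hr hle =>
      ⟨fun hrπ => ?_, fun h => h ▸ h2π⟩⟩
    by_contra h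
    exact hq ⟨r, hr, hrπ, h, hle⟩

/-- **The primitive case.** -/
theorem prim_class (π : Set ℕ) (G : Subgroup (Perm α)) (hm : 2 ≤ Fintype.card α)
    (hG : IsPreprimitive G α) (hPi : PiG π G) (hHP : HP π G) :
    (∀ r, r.Prime → r ≤ Fintype.card α → r ∈ π) ∨
    (∃ p k, p.Prime ∧ 1 ≤ k ∧ Fintype.card α = p ^ k ∧
      ∀ r, r.Prime → r ≤ Fintype.card α → (r ∈ π ↔ r = p)) := by
  by_cases hA : 2 ∈ π ∧ Full 2 G
  · left
    obtain ⟨c, hc, hsw⟩ := swap_mem G hA.2 hm
    have htop : G = ⊤ := Equiv.Perm.subgroup_eq_top_of_isPreprimitive_of_isSwap_mem hG c hsw hc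
    intro r hr hle
    apply hPi r hr
    rw [htop, Subgroup.card_top, Nat.card_perm, Nat.card_eq_fintype_card]
    exact hr.dvd_factorial.mpr hle
  by_cases hB : ∃ r, r.Prime ∧ r ∈ π ∧ r ≠ 2 ∧ r + 3 ≤ Fintype.card α
  · left
    obtain ⟨r, hr, hrπ, hr2, hrm⟩ := hB
    obtain ⟨c, hc, hcyc, hsupp⟩ := cycle_mem G hr (hHP.1 r hr hrπ hr2) (by omega)
    have halt := Cfsg.Agent.Lib.PrimeCycleJ.alternatingGroup_le_of_prime_cycle hG hc hcyc
      (by rwa [hsupp]) (by rw [hsupp]; omega)
    have := hr.two_le
    exact all_primes_of_alt_le π G hPi halt (by omega)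
  have hB' : ∀ r, r.Prime → r ∈ π → r ≠ 2 → Fintype.card α < r + 3 := by
    intro r hr hrπ hr2
    by_contra h
    exact hB ⟨r, hr, hrπ, hr2, by omega⟩
  have hsemi : 2 ∈ π → G ≤ alternatingGroup α ∧
      (Fintype.card α).factorial.factorization 2 ≤ (Nat.card G).factorization 2 + 1 :=
    fun h2 => (hHP.2 h2).resolve_left (fun h => hA ⟨h2, h⟩)
  have hdvdm := card_dvd_of_trans G hG.toIsPretransitive (by omega)
  by_cases h2pow : ∀ t, t.Prime → t ∣ Fintype.card α → t = 2
  · exact prim_two π G hG hPi hHP hm hB' hsemi h2pow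
  · push Not at h2pow
    obtain ⟨t, ht, htm, ht2⟩ := h2pow
    have htprop := hB' t ht (hPi t ht (htm.trans hdvdm)) ht2
    have htodd : t % 2 = 1 := (ht.eq_two_or_odd).resolve_left ht2
    have hmt : Fintype.card α = t := by
      obtain ⟨u, hu⟩ := htm
      have := ht.two_le
      have hu0 : u ≠ 0 := by
        rintro rfl
        simp at hu
        omega
      by_cases hu1 : u = 1
      · rw [hu, hu1, mul_one]
      · have hu2 : 2 ≤ u := by omega
        have : t * 2 ≤ t * u := Nat.mul_le_mul_left t hu2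
        omega
    exact prim_odd π G hG hPi hHP hB' hsemi (by rw [hmt]; exact ht) (by rw [hmt]; exact ht2)

end PrimClass

end Cfsg.Agent.Lib.HallPrim
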