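import Mathlib

set_option autoImplicit false

namespace Cfsg.Agent.Lib.HallCheb

open Real Finset
open ArithmeticFunction (vonMangoldt)

noncomputable def P (n : ℕ) : ℝ := ∑ d ∈ Ioc 0 n, vonMangoldt d

theorem P_eq (n : ℕ) : P n = Chebyshev.psi n := by
  simp [P, Chebyshev.psi, Nat.floor_natCast]

noncomputable def T (k : ℕ) : ℝ := Real.log (k.factorial : ℝ)

theorem T_succ (x : ℕ) : T (x + 1) = T x + Real.log ((x : ℝ) + 1) := by
  unfold T
  rw [Nat.factorial_succ]
  push_cast
  rw [Real.log_mul (by positivity) (by positivity)]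
  ring

theorem T_eq_sum (x : ℕ) : T x = ∑ d ∈ Ioc 0 x, vonMangoldt d * ((x / d : ℕ) : ℝ) := by
  induction x with
  | zero => simp [T]
  | succ x ih =>
    rw [T_succ, ih]
    have h1 : ∀ d ∈ Ioc 0 (x + 1), vonMangoldt d * (((x + 1) / d : ℕ) : ℝ) =
        vonMangoldt d * ((x / d : ℕ) : ℝ) + (if d ∣ x + 1 then vonMangoldt d else 0) := by
      intro d _
      rw [Nat.succ_div]
      split_ifs <;> push_cast <;> ring
    rw [Finset.sum_congr rfl h1, Finset.sum_add_distrib, Finset.sum_Ioc_succ_top (Nat.zero_le x)]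
    have h2 : x / (x + 1) = 0 := Nat.div_eq_of_lt (Nat.lt_succ_self x)
    rw [h2]
    have h3 : ∑ d ∈ Ioc 0 (x + 1), (if d ∣ x + 1 then vonMangoldt d else 0) =
        ∑ d ∈ (x + 1).divisors, vonMangoldt d := by
      rw [← Finset.sum_filter]
      apply Finset.sum_congr _ (fun _ _ => rfl)
      ext d
      simp only [mem_filter, mem_Ioc, Nat.mem_divisors]
      constructor
      · rintro ⟨_, h⟩
        exact ⟨h, by omega⟩
      · rintro ⟨h, _⟩
        exact ⟨⟨Nat.pos_of_dvd_of_pos h (by omega), Nat.le_of_dvd (by omega) h⟩, h⟩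
    rw [h3, ArithmeticFunction.vonMangoldt_sum]
    push_cast
    simp

theorem T_div_eq_sum (x c : ℕ) (hc : 0 < c) :
    T (x / c) = ∑ d ∈ Ioc 0 x, vonMangoldt d * (((x / d) / c : ℕ) : ℝ) := by
  rw [T_eq_sum (x / c)]
  have hsub : Ioc 0 (x / c) ⊆ Ioc 0 x := by
    intro d hd
    simp only [mem_Ioc] at hd ⊢
    exact ⟨hd.1, hd.2.trans (Nat.div_le_self _ _)⟩
  rw [← Finset.sum_subset hsub]
  · apply Finset.sum_congr rfl
    intro d _
    rw [Nat.div_div_eq_div_mul, Nat.div_div_eq_div_mul, Nat.mul_comm]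
  · intro d hd hnd
    simp only [mem_Ioc, not_and, not_le] at hd hnd
    have h1 : x / c < d := hnd hd.1
    have : x / d / c = 0 := by
      rw [Nat.div_div_eq_div_mul, Nat.mul_comm, ← Nat.div_div_eq_div_mul]
      exact Nat.div_eq_of_lt h1
    rw [this]
    simp

theorem g_bounds (t : ℕ) : t / 2 + t / 3 + t / 5 ≤ t + t / 30 ∧ t + t / 30 ≤ t / 2 + t / 3 + t / 5 + 1 := by
  omega

theorem g_one (t : ℕ) (h1 : 1 ≤ t) (h2 : t ≤ 5) : t / 2 + t / 3 + t / 5 + 1 = t + t / 30 := by
  omega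

noncomputable def TC (x : ℕ) : ℝ := T x + T (x / 30) - T (x / 2) - T (x / 3) - T (x / 5)

theorem TC_eq (x : ℕ) : TC x = ∑ d ∈ Ioc 0 x, vonMangoldt d *
    (((x / d : ℕ) : ℝ) + ((x / d / 30 : ℕ) : ℝ) - ((x / d / 2 : ℕ) : ℝ) - ((x / d / 3 : ℕ) : ℝ)
      - ((x / d / 5 : ℕ) : ℝ)) := by
  unfold TC
  rw [T_eq_sum x, T_div_eq_sum x 30 (by norm_num), T_div_eq_sum x 2 (by norm_num),
    T_div_eq_sum x 3 (by norm_num), T_div_eq_sum x 5 (by norm_num), ← Finset.sum_add_distrib,
    ← Finset.sum_sub_distrib, ← Finset.sum_sub_distrib, ← Finset.sum_sub_distrib]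
  apply Finset.sum_congr rfl
  intro d _
  ring

theorem TC_le_P (x : ℕ) : TC x ≤ P x := by
  rw [TC_eq, P]
  apply Finset.sum_le_sum
  intro d _
  have h := ArithmeticFunction.vonMangoldt_nonneg (n := d)
  have hb := (g_bounds (x / d)).2
  have hb' : ((x / d : ℕ) : ℝ) + ((x / d / 30 : ℕ) : ℝ) ≤
      ((x / d / 2 : ℕ) : ℝ) + ((x / d / 3 : ℕ) : ℝ) + ((x / d / 5 : ℕ) : ℝ) + 1 := by
    exact_mod_cast hb
  nlinarith

theorem P_sub_le_TC (x : ℕ) : P x - P (x / 6) ≤ TC x := by
  have hsub : x / 6 ≤ x := Nat.div_le_self _ _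
  have h1 : P x - P (x / 6) = ∑ d ∈ Ioc (x / 6) x, vonMangoldt d := by
    unfold P
    rw [← Finset.Ioc_union_Ioc_eq_Ioc (Nat.zero_le _) hsub, Finset.sum_union]
    · ring
    · exact Finset.Ioc_disjoint_Ioc_of_le le_rfl
  rw [h1, TC_eq]
  have hsub2 : Ioc (x / 6) x ⊆ Ioc 0 x := by
    intro d hd
    simp only [mem_Ioc] at hd ⊢
    omega
  have hnn : ∀ d ∈ Ioc 0 x, d ∉ Ioc (x / 6) x → 0 ≤ vonMangoldt d *
      (((x / d : ℕ) : ℝ) + ((x / d / 30 : ℕ) : ℝ) - ((x / d / 2 : ℕ) : ℝ) - ((x / d / 3 : ℕ) : ℝ)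
      - ((x / d / 5 : ℕ) : ℝ)) := by
    intro d _ _
    apply mul_nonneg ArithmeticFunction.vonMangoldt_nonneg
    have hb := (g_bounds (x / d)).1
    have hb' : ((x / d / 2 : ℕ) : ℝ) + ((x / d / 3 : ℕ) : ℝ) + ((x / d / 5 : ℕ) : ℝ) ≤
        ((x / d : ℕ) : ℝ) + ((x / d / 30 : ℕ) : ℝ) := by
      exact_mod_cast hb
    linarith
  refine le_trans ?_ (Finset.sum_le_sum_of_subset_of_nonneg hsub2 hnn)
  apply le_of_eq
  apply Finset.sum_congr rfl
  intro d hd
  simp only [mem_Ioc] at hd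
  have hd0 : 0 < d := by omega
  have h1 : 1 ≤ x / d := (Nat.one_le_div_iff hd0).mpr hd.2
  have h5 : x / d ≤ 5 := by
    have : x / d < 6 := by
      rw [Nat.div_lt_iff_lt_mul hd0]
      have := hd.1
      rw [Nat.div_lt_iff_lt_mul (by norm_num)] at this
      omega
    omega
  have hg := g_one (x / d) h1 h5
  have hg' : ((x / d / 2 : ℕ) : ℝ) + ((x / d / 3 : ℕ) : ℝ) + ((x / d / 5 : ℕ) : ℝ) + 1 =
      ((x / d : ℕ) : ℝ) + ((x / d / 30 : ℕ) : ℝ) := by
    exact_mod_cast hg
  have : ((x / d : ℕ) : ℝ) + ((x / d / 30 : ℕ) : ℝ) - ((x / d / 2 : ℕ) : ℝ) - ((x / d / 3 : ℕ) : ℝ)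
      - ((x / d / 5 : ℕ) : ℝ) = 1 := by linarith
  rw [this, mul_one]

/-! ### Stirling-type bounds -/

noncomputable def E (y : ℝ) : ℝ := y * Real.log y - y

theorem T_lower (k : ℕ) (hk : 1 ≤ k) : E k + 1 ≤ T k := by
  induction k, hk using Nat.le_induction with
  | base => simp [E, T]
  | succ k hk ih =>
    rw [T_succ]
    unfold E at ih ⊢
    have hk0 : (0 : ℝ) < k := by exact_mod_cast hk
    have h1 : Real.log (((k : ℝ) + 1) / k) ≤ ((k : ℝ) + 1) / k - 1 :=
      Real.log_le_sub_one_of_pos (by positivity)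
    rw [Real.log_div (by positivity) (by positivity)] at h1
    have h2 : (k : ℝ) * (Real.log ((k : ℝ) + 1) - Real.log k) ≤ 1 := by
      have : ((k : ℝ) + 1) / k - 1 = 1 / k := by field_simp; ring
      rw [this] at h1
      calc _ ≤ (k : ℝ) * (1 / k) := by gcongr
        _ = 1 := by field_simp
    push_cast
    nlinarith

theorem T_upper (k : ℕ) (hk : 1 ≤ k) : T k ≤ E k + Real.log k + 1 := by
  induction k, hk using Nat.le_induction with
  | base => simp [E, T]
  | succ k hk ih =>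
    rw [T_succ]
    unfold E at ih ⊢
    have hk0 : (0 : ℝ) < k := by exact_mod_cast hk
    have h1 : 1 - (((k : ℝ) + 1) / k)⁻¹ ≤ Real.log (((k : ℝ) + 1) / k) :=
      Real.one_sub_inv_le_log_of_pos (by positivity)
    rw [Real.log_div (by positivity) (by positivity)] at h1
    have h2 : 1 ≤ ((k : ℝ) + 1) * (Real.log ((k : ℝ) + 1) - Real.log k) := by
      have : 1 - (((k : ℝ) + 1) / k)⁻¹ = 1 / ((k : ℝ) + 1) := by field_simp; ring
      rw [this] at h1
      calc (1 : ℝ) = ((k : ℝ) + 1) * (1 / ((k : ℝ) + 1)) := by field_simp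
        _ ≤ _ := by gcongr
    push_cast
    nlinarith

theorem E_tangent {y z : ℝ} (hy : 0 < y) (hz : 0 < z) : E z + (y - z) * Real.log z ≤ E y := by
  unfold E
  have h1 : 1 - (y / z)⁻¹ ≤ Real.log (y / z) := Real.one_sub_inv_le_log_of_pos (by positivity)
  rw [Real.log_div hy.ne' hz.ne'] at h1
  have h2 : y - z ≤ y * (Real.log y - Real.log z) := by
    have : 1 - (y / z)⁻¹ = (y - z) / y := by field_simp
    rw [this] at h1
    calc y - z = y * ((y - z) / y) := by field_simp
      _ ≤ _ := by gcongr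
  nlinarith

theorem E_mono {y z : ℝ} (hy : 1 ≤ y) (hyz : y ≤ z) : E y ≤ E z := by
  have h := E_tangent (y := z) (z := y) (by linarith) (by linarith)
  have h2 : 0 ≤ Real.log y := Real.log_nonneg hy
  nlinarith

theorem E_floor {y z : ℝ} (hy : 1 ≤ y) (hyz : y ≤ z) (hzy : z ≤ y + 1) :
    E z - Real.log z ≤ E y := by
  have h := E_tangent (y := y) (z := z) (by linarith) (by linarith)
  have h2 : 0 ≤ Real.log z := Real.log_nonneg (by linarith)
  nlinarith

theorem floor_bounds (x c : ℕ) (hc : 0 < c) (hx : c ≤ x) :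
    (1 : ℝ) ≤ ((x / c : ℕ) : ℝ) ∧ ((x / c : ℕ) : ℝ) ≤ (x : ℝ) / c ∧ (x : ℝ) / c ≤ ((x / c : ℕ) : ℝ) + 1 := by
  refine ⟨by exact_mod_cast (Nat.one_le_div_iff hc).mpr hx, Nat.cast_div_le, ?_⟩
  have hc' : (0 : ℝ) < c := by exact_mod_cast hc
  rw [div_le_iff₀ hc']
  have h1 : x < (x / c + 1) * c := by
    rw [Nat.add_mul, Nat.one_mul, Nat.mul_comm]
    exact Nat.lt_mul_div_succ x hc |>.trans_eq (by ring)
  exact_mod_cast h1.le

theorem T_div_upper (x c : ℕ) (hc : 0 < c) (hx : c ≤ x) :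
    T (x / c) ≤ E ((x : ℝ) / c) + Real.log ((x : ℝ) / c) + 1 := by
  obtain ⟨h1, h2, _⟩ := floor_bounds x c hc hx
  have h3 := T_upper (x / c) (by exact_mod_cast h1)
  have h4 := E_mono h1 h2
  have h5 : Real.log ((x / c : ℕ) : ℝ) ≤ Real.log ((x : ℝ) / c) :=
    Real.log_le_log (by linarith) h2
  linarith

theorem T_div_lower (x c : ℕ) (hc : 0 < c) (hx : c ≤ x) :
    E ((x : ℝ) / c) - Real.log ((x : ℝ) / c) + 1 ≤ T (x / c) := by
  obtain ⟨h1, h2, h2'⟩ := floor_bounds x c hc hx
  have h3 := T_lower (x / c) (by exact_mod_cast h1)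
  have h4 := E_floor h1 h2 h2'
  linarith

noncomputable def A : ℝ :=
  Real.log 2 / 2 + Real.log 3 / 3 + Real.log 5 / 5 - Real.log 30 / 30

theorem E_combo (x : ℝ) (hx : 0 < x) :
    E x + E (x / 30) - E (x / 2) - E (x / 3) - E (x / 5) = A * x := by
  unfold E A
  rw [Real.log_div hx.ne' (by norm_num), Real.log_div hx.ne' (by norm_num),
    Real.log_div hx.ne' (by norm_num), Real.log_div hx.ne' (by norm_num)]
  ring

theorem log30 : Real.log 30 = Real.log 2 + Real.log 3 + Real.log 5 := by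
  rw [← Real.log_mul (by norm_num) (by norm_num), ← Real.log_mul (by norm_num) (by norm_num)]
  norm_num

theorem TC_upper (x : ℕ) (hx : 30 ≤ x) :
    TC x ≤ A * x + 5 * Real.log x - 2 * Real.log 30 - 1 := by
  have hx0 : (0 : ℝ) < x := by
    have : 0 < x := by omega
    exact_mod_cast this
  unfold TC
  have h1 := T_upper x (by omega)
  have h2 := T_div_upper x 30 (by norm_num) hx
  have h3 := T_div_lower x 2 (by norm_num) (by omega)
  have h4 := T_div_lower x 3 (by norm_num) (by omega)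
  have h5 := T_div_lower x 5 (by norm_num) (by omega)
  have hc := E_combo (x : ℝ) hx0
  push_cast at h2 h3 h4 h5
  rw [Real.log_div hx0.ne' (by norm_num)] at h2 h3 h4 h5
  rw [log30] at h2 ⊢
  linarith

theorem TC_lower (x : ℕ) (hx : 30 ≤ x) :
    A * x - 4 * Real.log x + 2 * Real.log 30 - 1 ≤ TC x := by
  have hx0 : (0 : ℝ) < x := by
    have : 0 < x := by omega
    exact_mod_cast this
  unfold TC
  have h1 := T_lower x (by omega)
  have h2 := T_div_lower x 30 (by norm_num) hx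
  have h3 := T_div_upper x 2 (by norm_num) (by omega)
  have h4 := T_div_upper x 3 (by norm_num) (by omega)
  have h5 := T_div_upper x 5 (by norm_num) (by omega)
  have hc := E_combo (x : ℝ) hx0
  push_cast at h2 h3 h4 h5
  rw [Real.log_div hx0.ne' (by norm_num)] at h2 h3 h4 h5
  rw [log30] at h2 ⊢
  linarith


/-! ### Numerics -/

theorem l2lo : (0.6931 : ℝ) < Real.log 2 := by have := Real.log_two_gt_d9; linarith
theorem l2hi : Real.log 2 < (0.6932 : ℝ) := by have := Real.log_two_lt_d9; linarith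

theorem log_le_of_pow {a b c : ℕ} (hc : 2 ≤ c) (ha : 0 < a) (h : c ^ a ≤ 2 ^ b) :
    Real.log c ≤ (b : ℝ) / a * Real.log 2 := by
  have hc0 : (0 : ℝ) < c := by positivity
  have h1 : ((c : ℝ)) ^ a ≤ (2 : ℝ) ^ b := by exact_mod_cast h
  have h2 := Real.log_le_log (by positivity) h1
  rw [Real.log_pow, Real.log_pow] at h2
  have ha' : (0 : ℝ) < a := by exact_mod_cast ha
  rw [div_mul_eq_mul_div, le_div_iff₀ ha']
  linarith

theorem le_log_of_pow {a b c : ℕ} (hc : 2 ≤ c) (ha : 0 < a) (h : 2 ^ b ≤ c ^ a) :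
    (b : ℝ) / a * Real.log 2 ≤ Real.log c := by
  have hc0 : (0 : ℝ) < c := by positivity
  have h1 : (2 : ℝ) ^ b ≤ ((c : ℝ)) ^ a := by exact_mod_cast h
  have h2 := Real.log_le_log (by positivity) h1
  rw [Real.log_pow, Real.log_pow] at h2
  have ha' : (0 : ℝ) < a := by exact_mod_cast ha
  rw [div_mul_eq_mul_div, div_le_iff₀ ha']
  linarith

set_option exponentiation.threshold 1000 in
theorem l3hi : Real.log 3 < (1.0987 : ℝ) := by
  have h := log_le_of_pow (a := 306) (b := 485) (c := 3) (by norm_num) (by norm_num) (by norm_num)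
  have h2 := l2hi
  push_cast at h
  norm_num at h ⊢
  have := Real.log_two_lt_d9
  nlinarith

theorem l3lo : (1.0985 : ℝ) < Real.log 3 := by
  have h := le_log_of_pow (a := 53) (b := 84) (c := 3) (by norm_num) (by norm_num) (by norm_num)
  push_cast at h
  norm_num at h ⊢
  have := Real.log_two_gt_d9
  nlinarith

theorem l5hi : Real.log 5 < (1.6096 : ℝ) := by
  have h := log_le_of_pow (a := 59) (b := 137) (c := 5) (by norm_num) (by norm_num) (by norm_num)
  push_cast at h
  norm_num at h ⊢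
  have := Real.log_two_lt_d9
  nlinarith

theorem l5lo : (1.609 : ℝ) < Real.log 5 := by
  have h := le_log_of_pow (a := 28) (b := 65) (c := 5) (by norm_num) (by norm_num) (by norm_num)
  push_cast at h
  norm_num at h ⊢
  have := Real.log_two_gt_d9
  nlinarith

theorem A_eq : A = 7 / 15 * Real.log 2 + 3 / 10 * Real.log 3 + 1 / 6 * Real.log 5 := by
  unfold A
  rw [log30]
  ring

theorem A_lt : A < (0.9214 : ℝ) := by
  rw [A_eq]
  have := l2hi
  have := l3hi
  have := l5hi
  linarith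

theorem A_pos : 0 < A := by
  rw [A_eq]
  have := l2lo
  have := l3lo
  have := l5lo
  linarith

theorem log30lo : (3.4 : ℝ) < Real.log 30 := by
  rw [log30]
  have := l2lo
  have := l3lo
  have := l5lo
  linarith

/-! ### `lcmUpto` up to 3000 -/

def forceNat (x : ℕ) (f : ℕ → Bool) : Bool :=
  match x with
  | 0 => f 0
  | n + 1 => f (n + 1)

theorem forceNat_eq (x : ℕ) (f : ℕ → Bool) : forceNat x f = f x := by
  cases x <;> rfl

def lcmLoop : ℕ → ℕ → ℕ → ℕ → Bool
  | 0, _, _, _ => true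
  | f + 1, k, L, Q =>
    forceNat (Nat.lcm L (k + 1)) fun L' => forceNat (Q * 3) fun Q' =>
      Nat.ble L' Q' && lcmLoop f (k + 1) L' Q'

set_option maxRecDepth 100000 in
theorem lcmLoop_ok : lcmLoop 3000 0 1 1 = true := by decide +kernel

theorem lcmUpto_succ (n : ℕ) :
    Nat.lcmUpto (n + 1) = Nat.lcm (Nat.lcmUpto n) (n + 1) := by
  unfold Nat.lcmUpto
  have : Finset.Icc 1 (n + 1) = insert (n + 1) (Finset.Icc 1 n) := by
    ext x
    simp only [mem_Icc, mem_insert]
    omega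
  rw [this, Finset.lcm_insert]
  exact Nat.lcm_comm _ _

theorem lcmLoop_sound : ∀ (f k : ℕ), lcmLoop f k (Nat.lcmUpto k) (3 ^ k) = true →
    ∀ j ≤ f, Nat.lcmUpto (k + j) ≤ 3 ^ (k + j) ∨ j = 0 := by
  intro f
  induction f with
  | zero =>
    intro k _ j hj
    right
    omega
  | succ f ih =>
    intro k h j hj
    rcases Nat.eq_zero_or_pos j with rfl | hjpos
    · right; rfl
    left
    simp only [lcmLoop, forceNat_eq, Bool.and_eq_true] at h
    rw [← lcmUpto_succ, ← pow_succ] at h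
    obtain ⟨h1, h2⟩ := h
    have h1' : Nat.lcmUpto (k + 1) ≤ 3 ^ (k + 1) := Nat.le_of_ble_eq_true h1
    obtain ⟨j', rfl⟩ : ∃ j', j = j' + 1 := ⟨j - 1, by omega⟩
    have e : k + (j' + 1) = k + 1 + j' := by omega
    rw [e]
    rcases ih (k + 1) h2 j' (by omega) with h3 | rfl
    · exact h3
    · simpa using h1'

theorem lcmUpto_le_small {x : ℕ} (hx : x ≤ 3000) : Nat.lcmUpto x ≤ 3 ^ x := by
  rcases Nat.eq_zero_or_pos x with rfl | hpos
  · simp [Nat.lcmUpto]
  · have h0 : lcmLoop 3000 0 (Nat.lcmUpto 0) (3 ^ 0) = true := by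
      have : Nat.lcmUpto 0 = 1 := by simp [Nat.lcmUpto]
      rw [this]
      exact lcmLoop_ok
    rcases lcmLoop_sound 3000 0 h0 x hx with h | h
    · simpa using h
    · omega

theorem P_nonneg (n : ℕ) : 0 ≤ P n :=
  Finset.sum_nonneg fun _ _ => ArithmeticFunction.vonMangoldt_nonneg

theorem P_eq_log (n : ℕ) : P n = Real.log (Nat.lcmUpto n) := by
  rw [P_eq, Chebyshev.psi_eq_log_lcmUpto]

theorem P_small {x : ℕ} (hx : x ≤ 3000) : P x ≤ 1.12 * x := by
  rw [P_eq_log]
  have h1 : ((Nat.lcmUpto x : ℕ) : ℝ) ≤ (3 : ℝ) ^ x := by exact_mod_cast lcmUpto_le_small hx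
  have hpos : (0 : ℝ) < (Nat.lcmUpto x : ℕ) := by exact_mod_cast Nat.lcmUpto_pos x
  have h2 := Real.log_le_log hpos h1
  rw [Real.log_pow] at h2
  have h3 := l3hi
  have hx0 : (0 : ℝ) ≤ x := by positivity
  nlinarith

theorem log3000 : Real.log 3000 = 3 * Real.log 2 + Real.log 3 + 3 * Real.log 5 := by
  have : (3000 : ℝ) = 2 ^ 3 * 3 * 5 ^ 3 := by norm_num
  rw [this, Real.log_mul (by norm_num) (by norm_num), Real.log_mul (by norm_num) (by norm_num),
    Real.log_pow, Real.log_pow]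
  norm_num

/-- Linear upper bound for `ψ`. -/
theorem P_le (x : ℕ) : P x ≤ 1.12 * x := by
  induction x using Nat.strong_induction_on with
  | _ x ih =>
    by_cases hx : x ≤ 3000
    · exact P_small hx
    · push Not at hx
      have hx0 : (0 : ℝ) < x := by
        have : 0 < x := by omega
        exact_mod_cast this
      have hx3 : (3000 : ℝ) < x := by exact_mod_cast hx
      have h1 := P_sub_le_TC x
      have h2 := TC_upper x (by omega)
      have h3 := ih (x / 6) (by omega)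
      have h4 : ((x / 6 : ℕ) : ℝ) ≤ (x : ℝ) / 6 := by
        have := @Nat.cast_div_le ℝ _ _ _ x 6
        simpa using this
      have h5 : Real.log ((x : ℝ) / 3000) ≤ (x : ℝ) / 3000 - 1 :=
        Real.log_le_sub_one_of_pos (by positivity)
      rw [Real.log_div hx0.ne' (by norm_num), log3000] at h5
      have h6 := A_lt
      have h7 := log30lo
      have h8 := l2hi
      have h9 := l3hi
      have h10 := l5hi
      have h11 : A * x ≤ 0.9214 * x := by nlinarith
      linarith

theorem choose_log (s m : ℕ) :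
    Real.log (Nat.choose (s + m) s : ℝ) = T (s + m) - T s - T m := by
  have h := Nat.add_choose_mul_factorial_mul_factorial s m
  rw [← Nat.choose_symm_add] at h
  have h' : ((Nat.choose (s + m) s : ℕ) : ℝ) * (s.factorial : ℝ) * (m.factorial : ℝ) =
      ((s + m).factorial : ℝ) := by exact_mod_cast h
  have h1 : ((Nat.choose (s + m) s : ℕ) : ℝ) ≠ 0 := by
    have := Nat.choose_pos (Nat.le_add_right s m)
    positivity
  have h2 : (s.factorial : ℝ) ≠ 0 := by positivity
  have h3 : (m.factorial : ℝ) ≠ 0 := by positivity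
  unfold T
  rw [← h', Real.log_mul (mul_ne_zero h1 h2) h3, Real.log_mul h1 h2]
  ring

/-- Entropy-type lower bound on `[1/5, 1/2]`. -/
theorem entropy_bound {α : ℝ} (h1 : 1 / 5 ≤ α) (h2 : α ≤ 1 / 2) :
    A * α + 1.12 / 6 + 0.045 ≤ Real.negMulLog α + Real.negMulLog (1 - α) := by
  set t : ℝ := (α - 1 / 5) / (3 / 10) with ht
  have ht0 : 0 ≤ t := by rw [ht]; apply div_nonneg <;> linarith
  have ht1 : t ≤ 1 := by rw [ht, div_le_one (by norm_num)]; linarith
  have hα : α = (1 - t) * (1 / 5) + t * (1 / 2) := by rw [ht]; field_simp; ring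
  have hα' : 1 - α = (1 - t) * (4 / 5) + t * (1 / 2) := by rw [hα]; ring
  have hc := Real.concaveOn_negMulLog
  have h3 := hc.2 (show (1 / 5 : ℝ) ∈ Set.Ici 0 by norm_num) (show (1 / 2 : ℝ) ∈ Set.Ici 0 by norm_num)
    (show 0 ≤ 1 - t by linarith) ht0 (by ring)
  have h4 := hc.2 (show (4 / 5 : ℝ) ∈ Set.Ici 0 by norm_num) (show (1 / 2 : ℝ) ∈ Set.Ici 0 by norm_num)
    (show 0 ≤ 1 - t by linarith) ht0 (by ring)
  simp only [smul_eq_mul] at h3 h4
  rw [← hα] at h3
  rw [← hα'] at h4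
  have v1 : Real.negMulLog (1 / 5) = 1 / 5 * Real.log 5 := by
    unfold Real.negMulLog
    rw [one_div, Real.log_inv]
    ring
  have v2 : Real.negMulLog (4 / 5) = 4 / 5 * (Real.log 5 - 2 * Real.log 2) := by
    unfold Real.negMulLog
    have : Real.log (4 / 5) = 2 * Real.log 2 - Real.log 5 := by
      rw [Real.log_div (by norm_num) (by norm_num)]
      have : (4 : ℝ) = 2 ^ 2 := by norm_num
      rw [this, Real.log_pow]
      norm_num
    rw [this]
    ring
  have v3 : Real.negMulLog (1 / 2) = 1 / 2 * Real.log 2 := by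
    unfold Real.negMulLog
    rw [one_div, Real.log_inv]
    ring
  rw [v1, v3] at h3
  rw [v2, v3] at h4
  have h5 := A_lt
  have h6 := l2lo
  have h7 := l2hi
  have h8 := l5lo
  have h9 := l5hi
  have h10 := A_pos
  -- values at the endpoints
  have e1 : A * (1 / 5) + 1.12 / 6 + 0.045 ≤ 1 / 5 * Real.log 5 + 4 / 5 * (Real.log 5 - 2 * Real.log 2) := by
    linarith
  have e2 : A * (1 / 2) + 1.12 / 6 + 0.045 ≤ 1 / 2 * Real.log 2 + 1 / 2 * Real.log 2 := by
    linarith
  have e1' := mul_le_mul_of_nonneg_left e1 (by linarith : (0 : ℝ) ≤ 1 - t)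
  have e2' := mul_le_mul_of_nonneg_left e2 ht0
  have : A * α + 1.12 / 6 + 0.045 = (1 - t) * (A * (1 / 5) + 1.12 / 6 + 0.045) +
      t * (A * (1 / 2) + 1.12 / 6 + 0.045) := by
    rw [hα]; ring
  rw [this]
  nlinarith

/-- The Chebyshev estimate: the central range. -/
theorem E1 (s m : ℕ) (hn : 2000 ≤ s + m) (h5 : s + m ≤ 5 * s) (h2 : s ≤ m) :
    P (s + m) - P m < Real.log (Nat.choose (s + m) s : ℝ) := by
  have hs1 : 400 ≤ s := by omega
  have hm1 : 1000 ≤ m := by omega
  have hS : (0 : ℝ) < s := by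
    have : 0 < s := by omega
    exact_mod_cast this
  have hM : (0 : ℝ) < m := by
    have : 0 < m := by omega
    exact_mod_cast this
  have hN : ((s + m : ℕ) : ℝ) = (s : ℝ) + m := by push_cast; ring
  set n : ℝ := (s : ℝ) + m with hn'
  have hn0 : 0 < n := by positivity
  have hn2000 : (2000 : ℝ) ≤ n := by
    have h : ((2000 : ℕ) : ℝ) ≤ ((s + m : ℕ) : ℝ) := by exact_mod_cast hn
    rw [hN] at h
    norm_num at h
    exact h
  -- lower bound of the binomial
  rw [choose_log]
  have b1 := T_lower (s + m) (by omega)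
  have b2 := T_upper s (by omega)
  have b3 := T_upper m (by omega)
  rw [hN] at b1
  -- upper bound for ψ
  have c1 := P_sub_le_TC (s + m)
  have c2 := TC_upper (s + m) (by omega)
  have c3 := P_le ((s + m) / 6)
  have c4 : (((s + m) / 6 : ℕ) : ℝ) ≤ n / 6 := by
    have := @Nat.cast_div_le ℝ _ _ _ (s + m) 6
    rw [hN] at this
    simpa using this
  have c5 := TC_le_P m
  have c6 := TC_lower m (by omega)
  rw [hN] at c2
  -- the entropy
  have hα1 : 1 / 5 ≤ (s : ℝ) / n := by
    rw [div_le_div_iff₀ (by norm_num) hn0]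
    have : ((s + m : ℕ) : ℝ) ≤ ((5 * s : ℕ) : ℝ) := by exact_mod_cast h5
    push_cast at this
    rw [hn']
    linarith
  have hα2 : (s : ℝ) / n ≤ 1 / 2 := by
    rw [div_le_div_iff₀ hn0 (by norm_num)]
    have : (s : ℝ) ≤ m := by exact_mod_cast h2
    rw [hn']
    linarith
  have hent := entropy_bound hα1 hα2
  have hm' : 1 - (s : ℝ) / n = (m : ℝ) / n := by
    rw [eq_div_iff hn0.ne', sub_mul, div_mul_cancel₀ _ hn0.ne', hn']
    ring
  rw [hm'] at hent
  have hent2 := mul_le_mul_of_nonneg_left hent hn0.le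
  have ev : n * (Real.negMulLog ((s : ℝ) / n) + Real.negMulLog ((m : ℝ) / n)) =
      n * Real.log n - s * Real.log s - m * Real.log m := by
    unfold Real.negMulLog
    rw [Real.log_div hS.ne' hn0.ne', Real.log_div hM.ne' hn0.ne']
    field_simp
    rw [hn']
    ring
  rw [ev] at hent2
  have ev2 : n * (A * ((s : ℝ) / n) + 1.12 / 6 + 0.045) = A * s + 1.12 / 6 * n + 0.045 * n := by
    field_simp
  rw [ev2] at hent2
  -- logs
  have hl1 : Real.log s ≤ Real.log n := Real.log_le_log hS (by rw [hn']; linarith)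
  have hl2 : Real.log m ≤ Real.log n := Real.log_le_log hM (by rw [hn']; linarith)
  have hl3 : Real.log (n / 2000) ≤ n / 2000 - 1 := Real.log_le_sub_one_of_pos (by positivity)
  rw [Real.log_div hn0.ne' (by norm_num)] at hl3
  have hl4 : Real.log 2000 = 4 * Real.log 2 + 3 * Real.log 5 := by
    have : (2000 : ℝ) = 2 ^ 4 * 5 ^ 3 := by norm_num
    rw [this, Real.log_mul (by norm_num) (by norm_num), Real.log_pow, Real.log_pow]
    norm_num
  rw [hl4] at hl3
  have h30 := log30lo
  have hl2hi := l2hi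
  have hl5hi := l5hi
  have hcast : (m : ℝ) + s = n := by rw [hn']; ring
  unfold E at b1 b2 b3
  have hA : A * n - A * m = A * s := by rw [hn']; ring
  have hsum : n * Real.log n - n - (s * Real.log s - s) - (m * Real.log m - m) =
      n * Real.log n - s * Real.log s - m * Real.log m := by rw [hn']; ring
  have hP : P (s + m) - P m ≤ A * n + 5 * Real.log n - 2 * Real.log 30 - 1 + 1.12 * (n / 6) -
      (A * m - 4 * Real.log m + 2 * Real.log 30 - 1) := by
    have : 1.12 * (((s + m) / 6 : ℕ) : ℝ) ≤ 1.12 * (n / 6) := by gcongr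
    linarith
  nlinarith


theorem choose_pow_lower {N k B : ℕ} (hk : 1 ≤ k) (hkN : k ≤ N) (h : B * k ≤ N + 1 - k) :
    B ^ k ≤ Nat.choose N k := by
  have h1 : (N + 1 - k) ^ k ≤ N.descFactorial k := Nat.pow_sub_le_descFactorial N k
  have h2 : N.descFactorial k = k.factorial * N.choose k := Nat.descFactorial_eq_factorial_mul_choose N k
  have h3 : k.factorial ≤ k ^ k := Nat.factorial_le_pow k
  have h4 : (B * k) ^ k ≤ (N + 1 - k) ^ k := Nat.pow_le_pow_left h k
  have h5 : B ^ k * k ^ k ≤ k ^ k * N.choose k := by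
    calc B ^ k * k ^ k = (B * k) ^ k := (mul_pow _ _ _).symm
      _ ≤ (N + 1 - k) ^ k := h4
      _ ≤ k.factorial * N.choose k := by rw [← h2]; exact h1
      _ ≤ k ^ k * N.choose k := Nat.mul_le_mul_right _ h3
  have hpos : 0 < k ^ k := by positivity
  rw [Nat.mul_comm] at h5
  exact Nat.le_of_mul_le_mul_left h5 hpos

theorem log_choose_lower {N k B : ℕ} (hk : 1 ≤ k) (hkN : k ≤ N) (hB : 1 ≤ B)
    (h : B * k ≤ N + 1 - k) :
    (k : ℝ) * Real.log B ≤ Real.log (Nat.choose N k : ℝ) := by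
  have h1 := choose_pow_lower hk hkN h
  have h2 : ((B : ℝ)) ^ k ≤ (Nat.choose N k : ℝ) := by exact_mod_cast h1
  have h3 := Real.log_le_log (by positivity) h2
  rwa [Real.log_pow] at h3

theorem log_12 : Real.log 12 = 2 * Real.log 2 + Real.log 3 := by
  have : (12 : ℝ) = 2 ^ 2 * 3 := by norm_num
  rw [this, Real.log_mul (by norm_num) (by norm_num), Real.log_pow]
  norm_num

theorem log_243 : Real.log 243 = 5 * Real.log 3 := by
  have : (243 : ℝ) = 3 ^ 5 := by norm_num
  rw [this, Real.log_pow]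
  norm_num

theorem E2a (N k : ℕ) (hN : 1000 ≤ N) (hk : 1 ≤ k) (h13 : 13 * k ≤ N) :
    1.12 * (2 * (k : ℝ) + 1) < Real.log (Nat.choose N k : ℝ) := by
  have hk1 : (1 : ℝ) ≤ k := by exact_mod_cast hk
  by_cases h5 : 5 ≤ k
  · have h1 := log_choose_lower (N := N) (k := k) (B := 12) hk (by omega) (by norm_num) (by omega)
    have hk5 : (5 : ℝ) ≤ k := by exact_mod_cast h5
    push_cast at h1
    rw [log_12] at h1
    have := l2lo
    have := l3lo
    nlinarith
  · have h1 := log_choose_lower (N := N) (k := k) (B := 243) hk (by omega) (by norm_num) (by omega)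
    push_cast at h1
    rw [log_243] at h1
    have := l3lo
    nlinarith

theorem E2b (N k : ℕ) (hN : 1000 ≤ N) (hk : 1 ≤ k) (h13 : N < 13 * k) (hky : 1000 * k ≤ 201 * N) :
    1.12 * (2 * (k : ℝ) + 1) < Real.log (Nat.choose N k : ℝ) := by
  obtain ⟨m, rfl⟩ : ∃ m, N = k + m := ⟨N - k, by omega⟩
  have hm1 : 1 ≤ m := by omega
  have hK : (0 : ℝ) < k := by exact_mod_cast hk
  have hM : (0 : ℝ) < m := by exact_mod_cast hm1
  have hN' : ((k + m : ℕ) : ℝ) = (k : ℝ) + m := by push_cast; ring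
  set n : ℝ := (k : ℝ) + m with hn'
  have hn0 : 0 < n := by positivity
  have hn1000 : (1000 : ℝ) ≤ n := by
    have h : ((1000 : ℕ) : ℝ) ≤ ((k + m : ℕ) : ℝ) := by exact_mod_cast hN
    rw [hN'] at h
    norm_num at h
    exact h
  have h13' : n < 13 * k := by
    have h : ((k + m : ℕ) : ℝ) < ((13 * k : ℕ) : ℝ) := by exact_mod_cast h13
    rw [hN'] at h
    push_cast at h
    exact h
  have hky' : 1000 * (k : ℝ) ≤ 201 * n := by
    have h : ((1000 * k : ℕ) : ℝ) ≤ ((201 * (k + m) : ℕ) : ℝ) := by exact_mod_cast hky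
    push_cast at h
    rw [hn']
    exact h
  rw [choose_log]
  have b1 := T_lower (k + m) (by omega)
  have b2 := T_upper k (by omega)
  have b3 := T_upper m (by omega)
  rw [hN'] at b1
  unfold E at b1 b2 b3
  have hl1 : Real.log k ≤ Real.log n := Real.log_le_log hK (by rw [hn']; linarith)
  have hl2 : Real.log m ≤ Real.log n := Real.log_le_log hM (by rw [hn']; linarith)
  have hl3 : Real.log (n / 1000) ≤ n / 1000 - 1 := Real.log_le_sub_one_of_pos (by positivity)
  rw [Real.log_div hn0.ne' (by norm_num)] at hl3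
  have hl4 : Real.log 1000 = 3 * Real.log 2 + 3 * Real.log 5 := by
    have : (1000 : ℝ) = 2 ^ 3 * 5 ^ 3 := by norm_num
    rw [this, Real.log_mul (by norm_num) (by norm_num), Real.log_pow, Real.log_pow]
    norm_num
  rw [hl4] at hl3
  have hl5 := l2hi
  have hl6 := l5hi
  -- the second term of the entropy
  have hent : (m : ℝ) * (Real.log n - Real.log m) ≥ (m : ℝ) * (k / n) := by
    have h1 : 1 - (n / m)⁻¹ ≤ Real.log (n / m) := Real.one_sub_inv_le_log_of_pos (by positivity)
    rw [Real.log_div hn0.ne' hM.ne'] at h1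
    have h2 : 1 - (n / m)⁻¹ = (k : ℝ) / n := by
      rw [inv_div, eq_div_iff hn0.ne', sub_mul, div_mul_cancel₀ _ hn0.ne', hn']
      ring
    rw [h2] at h1
    gcongr
  have hmk : (m : ℝ) * (k / n) = k * (1 - k / n) := by
    have : (m : ℝ) = n - k := by rw [hn']; ring
    rw [this]
    field_simp
  rw [hmk] at hent
  -- the first term
  set y : ℝ := (k : ℝ) / n with hy
  have hy0 : 0 < y := by positivity
  have hyk : (k : ℝ) = y * n := by rw [hy]; field_simp
  have hly : Real.log k = Real.log y + Real.log n := by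
    rw [hyk, Real.log_mul hy0.ne' hn0.ne']
  have hdecomp : n * Real.log n - n - ((k : ℝ) * Real.log k - k) - ((m : ℝ) * Real.log m - m) =
      (k : ℝ) * (- Real.log y) + (m : ℝ) * (Real.log n - Real.log m) := by
    rw [hly, hn']
    ring
  by_cases hcase : y ≤ 1 / 10
  · -- small `y`
    have h1 : Real.log 10 ≤ - Real.log y := by
      have : Real.log y ≤ Real.log (1 / 10) := Real.log_le_log hy0 hcase
      rw [one_div, Real.log_inv] at this
      linarith
    have h10 : Real.log 10 = Real.log 2 + Real.log 5 := by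
      rw [← Real.log_mul (by norm_num) (by norm_num)]
      norm_num
    rw [h10] at h1
    have h2 := l2lo
    have h3 := l5lo
    have h4 : (k : ℝ) * (Real.log 2 + Real.log 5) ≤ (k : ℝ) * (- Real.log y) := by gcongr
    have h5 : 2.30 * (k : ℝ) ≤ (k : ℝ) * (Real.log 2 + Real.log 5) := by nlinarith
    have h6 : (k : ℝ) * (1 - y) ≥ (k : ℝ) * 0.9 := by
      gcongr
      linarith
    nlinarith
  · -- large `y`
    push Not at hcase
    have hy2 : y ≤ 201 / 1000 := by
      rw [hy, div_le_div_iff₀ hn0 (by norm_num)]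
      linarith
    have h1 : 1 - (200 / 201 : ℝ)⁻¹ ≤ Real.log (200 / 201) :=
      Real.one_sub_inv_le_log_of_pos (by norm_num)
    have h2 : Real.log y ≤ Real.log (201 / 1000) := Real.log_le_log hy0 hy2
    have h3 : Real.log (201 / 1000) = - Real.log 5 - Real.log (200 / 201) := by
      have : (201 / 1000 : ℝ) = (5 * (200 / 201))⁻¹ := by norm_num
      rw [this, Real.log_inv, Real.log_mul (by norm_num) (by norm_num)]
      ring
    have h4 := l5lo
    have h5 : (1.604 : ℝ) ≤ - Real.log y := by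
      norm_num at h1
      linarith
    have h6 : (k : ℝ) * 1.604 ≤ (k : ℝ) * (- Real.log y) := by gcongr
    have h7 : (k : ℝ) * (1 - y) ≥ (k : ℝ) * 0.799 := by
      gcongr
      linarith
    have h8 : (0.1 : ℝ) * n ≤ k := by
      have : (1 / 10 : ℝ) * n ≤ y * n := by gcongr
      rw [← hyk] at this
      linarith
    nlinarith

/-- The Chebyshev estimate: the lower range. -/
theorem E2 (N k : ℕ) (hN : 1000 ≤ N) (hk : 1 ≤ k) (hky : 1000 * k ≤ 201 * N) :
    1.12 * (2 * (k : ℝ) + 1) < Real.log (Nat.choose N k : ℝ) := by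
  by_cases h13 : 13 * k ≤ N
  · exact E2a N k hN hk h13
  · exact E2b N k hN hk (by omega) hky

end Cfsg.Agent.Lib.HallCheb
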