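import Mathlib
import Cfsg.Agent.Lib.HallNum
import Cfsg.Agent.Lib.HallCheb

set_option autoImplicit false

namespace Cfsg.Agent.Lib.HallStar

open Cfsg.Agent.Lib.HallNum Cfsg.Agent.Lib.HallCheb

theorem choose_mul_lcm_dvd {s m : ℕ}
    (h : ∀ r : ℕ, r.Prime → r ≤ m →
      (Nat.choose (s + m) s).factorization r + Nat.log r m ≤ Nat.log r (s + m)) :
    Nat.choose (s + m) s * Nat.lcmUpto m ∣ Nat.lcmUpto (s + m) := by
  have hne1 : Nat.choose (s + m) s ≠ 0 := (Nat.choose_pos (Nat.le_add_right s m)).ne'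
  have hne2 := Nat.lcmUpto_ne_zero m
  rw [← Nat.factorization_prime_le_iff_dvd (mul_ne_zero hne1 hne2) (Nat.lcmUpto_ne_zero _)]
  intro r hr
  rw [Nat.factorization_mul hne1 hne2, Finsupp.add_apply, Nat.factorization_lcmUpto _ hr,
    Nat.factorization_lcmUpto _ hr]
  by_cases hrm : r ≤ m
  · exact h r hr hrm
  · push Not at hrm
    rw [Nat.log_of_lt hrm, add_zero]
    exact Nat.factorization_choose_le_log

theorem log_le_of_dvd {s m : ℕ}
    (h : Nat.choose (s + m) s * Nat.lcmUpto m ∣ Nat.lcmUpto (s + m)) :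
    Real.log (Nat.choose (s + m) s : ℝ) ≤ P (s + m) - P m := by
  have hle := Nat.le_of_dvd (Nat.lcmUpto_pos _) h
  have hle' : ((Nat.choose (s + m) s : ℕ) : ℝ) * (Nat.lcmUpto m : ℕ) ≤ (Nat.lcmUpto (s + m) : ℕ) := by
    exact_mod_cast hle
  have hpos1 : (0 : ℝ) < (Nat.choose (s + m) s : ℕ) := by
    exact_mod_cast Nat.choose_pos (Nat.le_add_right s m)
  have hpos2 : (0 : ℝ) < (Nat.lcmUpto m : ℕ) := by exact_mod_cast Nat.lcmUpto_pos m
  have := Real.log_le_log (by positivity) hle'
  rw [Real.log_mul hpos1.ne' hpos2.ne'] at this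
  rw [P_eq_log, P_eq_log]
  linarith

/-- Even multiples: the binomial coefficient of the halves divides `lcm(1..s)`. -/
theorem half_dvd_lcm {s m : ℕ} (hs : 1 ≤ s) (hsm : s ≤ m)
    (H : ∀ r : ℕ, r.Prime → r ≤ m → ¬ r ∣ Nat.choose (s + m) s) :
    Nat.choose ((s + m) / 2) ((s + m) / 2 - m / 2) ∣ Nat.lcmUpto s := by
  set N := (s + m) / 2 with hN
  set u := m / 2 with hu
  have huN : u ≤ N := by omega
  set k := N - u with hk
  have hNe : N = k + u := by omega
  have hks : k ≤ s := by omega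
  have hne1 : Nat.choose N k ≠ 0 := (Nat.choose_pos (by omega)).ne'
  rw [← Nat.factorization_prime_le_iff_dvd hne1 (Nat.lcmUpto_ne_zero _)]
  intro r hr
  have hF : Fact r.Prime := ⟨hr⟩
  have hr2 := hr.two_le
  rw [Nat.factorization_lcmUpto _ hr, Nat.factorization_def _ hr]
  rw [padicValNat_choose (p := r) (n := N) (k := k) (b := Nat.log r N + 1) (by omega) (by omega)]
  have hsub : ((Finset.Ico 1 (Nat.log r N + 1)).filter
      (fun i => r ^ i ≤ k % r ^ i + (N - k) % r ^ i)) ⊆ Finset.Ico 1 (Nat.log r s + 1) := by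
    intro i hi
    simp only [Finset.mem_filter, Finset.mem_Ico] at hi ⊢
    obtain ⟨⟨hi1, _⟩, hi2⟩ := hi
    refine ⟨hi1, ?_⟩
    have hNk : N - k = u := by omega
    rw [hNk] at hi2
    suffices hle : r ^ i ≤ s by
      have := Nat.le_log_of_pow_le (by omega : 1 < r) hle
      omega
    by_contra hlt
    push Not at hlt
    set R := r ^ i with hR
    have hRpos : 0 < R := by positivity
    have hkR : k % R = k := Nat.mod_eq_of_lt (by omega)
    rw [hkR] at hi2
    -- a multiple of `R` between `u` and `N`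
    have hdm := Nat.div_add_mod u R
    set c := u / R + 1 with hc
    have ht1 : u < R * c := by
      rw [hc, Nat.mul_add, Nat.mul_one]
      have := Nat.mod_lt u hRpos
      omega
    have ht2 : R * c ≤ N := by
      rw [hc, Nat.mul_add, Nat.mul_one]
      omega
    -- `r ≤ m`
    have hrd : r ∣ R * c := Dvd.dvd.mul_right (dvd_pow_self r (by omega)) c
    have hcpos : 0 < R * c := by omega
    have hrle : r ≤ N := (Nat.le_of_dvd hcpos hrd).trans ht2
    have hrm : r ≤ m := by omega
    refine H r hr hrm (dvd_choose_of_carry hi1 ?_)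
    change R ≤ s % R + m % R
    rw [Nat.mod_eq_of_lt hlt]
    -- the multiple `2 R c` lies in `(m, s + m]`
    have ht3 : m < R * (2 * c) := by
      have : R * (2 * c) = 2 * (R * c) := by ring
      omega
    have ht4 : R * (2 * c) ≤ s + m := by
      have : R * (2 * c) = 2 * (R * c) := by ring
      omega
    have hq : m / R < 2 * c := Nat.div_lt_of_lt_mul ht3
    have hdm2 := Nat.div_add_mod m R
    have hq2 : R * (m / R + 1) ≤ R * (2 * c) := Nat.mul_le_mul_left _ hq
    rw [Nat.mul_add, Nat.mul_one] at hq2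
    omega
  have := Finset.card_le_card hsub
  simpa using this

/-- **Theorem.** For `2 ≤ s ≤ m`, the binomial coefficient `choose (s+m) s` has a prime factor
at most `m`, unless `(s, m) = (3, 4)`. -/
theorem star {s m : ℕ} (hs : 2 ≤ s) (hsm : s ≤ m)
    (H : ∀ r : ℕ, r.Prime → r ≤ m → ¬ r ∣ Nat.choose (s + m) s) : s = 3 ∧ m = 4 := by
  by_cases hn : s + m < 2000
  · exact small_star hs hsm hn H
  exfalso
  push Not at hn
  by_cases h5 : s + m ≤ 5 * s
  · have h1 := E1 s m hn h5 hsm
    have h2 : Nat.choose (s + m) s * Nat.lcmUpto m ∣ Nat.lcmUpto (s + m) := by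
      apply choose_mul_lcm_dvd
      intro r hr hrm
      rw [Nat.factorization_eq_zero_of_not_dvd (H r hr hrm), zero_add]
      exact Nat.log_mono_right (by omega)
    have h3 := log_le_of_dvd h2
    linarith
  · push Not at h5
    have hd := half_dvd_lcm (by omega) hsm H
    set N := (s + m) / 2 with hN
    set k := N - m / 2 with hk
    have h1 := E2 N k (by omega) (by omega) (by omega)
    have hle := Nat.le_of_dvd (Nat.lcmUpto_pos _) hd
    have hle' : ((Nat.choose N k : ℕ) : ℝ) ≤ (Nat.lcmUpto s : ℕ) := by exact_mod_cast hle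
    have hpos : (0 : ℝ) < (Nat.choose N k : ℕ) := by exact_mod_cast Nat.choose_pos (by omega)
    have h2 := Real.log_le_log hpos hle'
    rw [← P_eq_log] at h2
    have h3 := P_le s
    have h4 : (s : ℝ) ≤ 2 * (k : ℝ) + 1 := by
      have : s ≤ 2 * k + 1 := by omega
      exact_mod_cast this
    linarith

/-- The valuation at 2 of a central binomial coefficient of a power of two. -/
theorem fact_two_central (j : ℕ) :
    (Nat.choose (2 ^ j + 2 ^ j) (2 ^ j)).factorization 2 ≤ 1 := by
  have hF : Fact (Nat.Prime 2) := ⟨Nat.prime_two⟩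
  rw [Nat.factorization_def _ Nat.prime_two]
  rw [padicValNat_choose (p := 2) (n := 2 ^ j + 2 ^ j) (k := 2 ^ j)
    (b := Nat.log 2 (2 ^ j + 2 ^ j) + 1) (Nat.le_add_right _ _) (Nat.lt_succ_self _)]
  have hsub : ((Finset.Ico 1 (Nat.log 2 (2 ^ j + 2 ^ j) + 1)).filter
      (fun i => 2 ^ i ≤ 2 ^ j % 2 ^ i + (2 ^ j + 2 ^ j - 2 ^ j) % 2 ^ i)) ⊆ {j + 1} := by
    intro i hi
    simp only [Finset.mem_filter, Finset.mem_Ico, Finset.mem_singleton] at hi ⊢
    obtain ⟨_, hi2⟩ := hi
    rw [Nat.add_sub_cancel] at hi2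
    by_cases hij : i ≤ j
    · have : 2 ^ j % 2 ^ i = 0 := Nat.mod_eq_zero_of_dvd (pow_dvd_pow 2 hij)
      rw [this] at hi2
      have : 0 < 2 ^ i := by positivity
      omega
    · push Not at hij
      have hlt : 2 ^ j < 2 ^ i := Nat.pow_lt_pow_right (by norm_num) hij
      rw [Nat.mod_eq_of_lt hlt] at hi2
      have h2 : 2 ^ i ≤ 2 ^ (j + 1) := by rw [pow_succ]; omega
      have := (Nat.pow_le_pow_iff_right (by norm_num)).mp h2
      omega
  have := Finset.card_le_card hsub
  simpa using this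

/-- For `j ≥ 3` some odd prime `≤ 2^j` divides the central binomial coefficient of `2^j`. -/
theorem central {j : ℕ} (hj : 3 ≤ j) :
    ∃ r : ℕ, r.Prime ∧ r ≠ 2 ∧ r ≤ 2 ^ j ∧ r ∣ Nat.choose (2 ^ j + 2 ^ j) (2 ^ j) := by
  by_cases hsmall : j ≤ 9
  · have h3 : Fact (Nat.Prime 3) := ⟨Nat.prime_three⟩
    have h7 : Fact (Nat.Prime 7) := ⟨by norm_num⟩
    interval_cases j
    · exact ⟨3, by norm_num, by norm_num, by norm_num, dvd_choose_of_carry (i := 2) (by norm_num) (by norm_num)⟩
    · exact ⟨3, by norm_num, by norm_num, by norm_num, dvd_choose_of_carry (i := 2) (by norm_num) (by norm_num)⟩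
    · exact ⟨3, by norm_num, by norm_num, by norm_num, dvd_choose_of_carry (i := 2) (by norm_num) (by norm_num)⟩
    · exact ⟨3, by norm_num, by norm_num, by norm_num, dvd_choose_of_carry (i := 4) (by norm_num) (by norm_num)⟩
    · exact ⟨3, by norm_num, by norm_num, by norm_num, dvd_choose_of_carry (i := 3) (by norm_num) (by norm_num)⟩
    · exact ⟨7, by norm_num, by norm_num, by norm_num, dvd_choose_of_carry (i := 1) (by norm_num) (by norm_num)⟩
    · exact ⟨3, by norm_num, by norm_num, by norm_num, dvd_choose_of_carry (i := 1) (by norm_num) (by norm_num)⟩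
  · push Not at hsmall
    by_contra hcon
    push Not at hcon
    have ha : 1024 ≤ 2 ^ j := by
      have : 2 ^ 10 ≤ 2 ^ j := Nat.pow_le_pow_right (by norm_num) hsmall
      omega
    have h1 := E1 (2 ^ j) (2 ^ j) (by omega) (by omega) le_rfl
    have h2 : Nat.choose (2 ^ j + 2 ^ j) (2 ^ j) * Nat.lcmUpto (2 ^ j) ∣ Nat.lcmUpto (2 ^ j + 2 ^ j) := by
      apply choose_mul_lcm_dvd
      intro r hr hrm
      by_cases hr2 : r = 2
      · subst hr2
        have e : 2 ^ j + 2 ^ j = 2 ^ (j + 1) := by rw [pow_succ]; omega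
        have h3 := fact_two_central j
        rw [e] at h3 ⊢
        rw [Nat.log_pow (by norm_num), Nat.log_pow (by norm_num)]
        omega
      · rw [Nat.factorization_eq_zero_of_not_dvd (hcon r hr hr2 hrm), zero_add]
        exact Nat.log_mono_right (by omega)
    have h3 := log_le_of_dvd h2
    linarith

end Cfsg.Agent.Lib.HallStar
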