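import Mathlib
import Cfsg.Agent.Lib.HallPrim
import Cfsg.Agent.Lib.HallStar

set_option autoImplicit false
set_option linter.unusedSectionVars false

namespace Cfsg.Agent.Lib.HallBlock

open Equiv Equiv.Perm MulAction
open scoped Pointwise
open Cfsg.Agent.Lib.HallPerm Cfsg.Agent.Lib.HallPrim

section W

variable {α : Type*} [Fintype α] [DecidableEq α]

/-- The permutations preserving a function. -/
def W0 {ι : Type*} (f : α → ι) : Subgroup (Perm α) where
  carrier := {g | ∀ x, f (g x) = f x}
  mul_mem' := by
    intro a b ha hb x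
    simp only [Equiv.Perm.mul_apply]
    rw [ha, hb]
  one_mem' := fun _ => rfl
  inv_mem' := by
    intro a ha x
    have := ha (a⁻¹ x)
    have h2 : a (a⁻¹ x) = x := by simp
    rw [h2] at this
    exact this.symm

theorem mem_W0 {ι : Type*} {f : α → ι} {g : Perm α} : g ∈ W0 f ↔ ∀ x, f (g x) = f x := Iff.rfl

theorem card_W0 {ι : Type*} [Fintype ι] [DecidableEq ι] (f : α → ι) :
    Nat.card (W0 f) = ∏ i, (Fintype.card {a // f a = i}).factorial := by
  rw [← DomMulAct.stabilizer_card f, ← Nat.card_eq_fintype_card]
  apply Nat.card_congr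
  refine Equiv.subtypeEquivRight (fun g => ?_)
  change (∀ x, f (g x) = f x) ↔ f ∘ g = f
  rw [funext_iff]
  rfl

theorem swap_mem_W0 {ι : Type*} {f : α → ι} {x y : α} (h : f x = f y) : swap x y ∈ W0 f := by
  intro z
  by_cases hx : z = x
  · subst hx; simp [h]
  · by_cases hy : z = y
    · subst hy; simp [h]
    · rw [Equiv.swap_apply_of_ne_of_ne hx hy]

section Equivariant

variable {Y : Type*} [Fintype Y] [DecidableEq Y] (G : Subgroup (Perm α)) (φ : G →* Perm Y)
  (f : α → Y)

theorem card_ker_map_le (hf : ∀ (g : G) x, f ((g : Perm α) x) = φ g (f x)) :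
    φ.ker.map G.subtype ≤ W0 f := by
  rintro _ ⟨g, hg, rfl⟩ x
  have h1 : φ g = 1 := hg
  change f ((g : Perm α) x) = f x
  rw [hf, h1]
  rfl

theorem card_split : Nat.card G = Nat.card (φ.ker.map G.subtype) * Nat.card φ.range := by
  have h1 : Nat.card φ.ker * φ.ker.index = Nat.card G := Subgroup.card_mul_index _
  have h2 : φ.ker.index = Nat.card φ.range := Subgroup.index_ker φ
  have h3 : Nat.card (φ.ker.map G.subtype) = Nat.card φ.ker :=
    Nat.card_congr (Subgroup.equivMapOfInjective _ _ G.subtype_injective).toEquiv.symm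
  rw [h3, ← h2, h1]

theorem card_range_dvd_perm : Nat.card φ.range ∣ (Fintype.card Y).factorial := by
  have h := Subgroup.card_subgroup_dvd_card φ.range
  rwa [Nat.card_perm, Nat.card_eq_fintype_card (α := Y)] at h

theorem card_dvd_equivariant (hf : ∀ (g : G) x, f ((g : Perm α) x) = φ g (f x)) :
    Nat.card G ∣ Nat.card (W0 f) * (Fintype.card Y).factorial := by
  rw [card_split G φ]
  exact Nat.mul_dvd_mul (Subgroup.card_dvd_of_le (card_ker_map_le G φ f hf))
    (card_range_dvd_perm G φ)

theorem two_mul_card_dvd_equivariant (hf : ∀ (g : G) x, f ((g : Perm α) x) = φ g (f x))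
    (hGA : G ≤ alternatingGroup α) {x y : α} (hxy : x ≠ y) (hfxy : f x = f y) :
    2 * Nat.card G ∣ Nat.card (W0 f) * (Fintype.card Y).factorial := by
  rw [card_split G φ, ← mul_assoc]
  refine Nat.mul_dvd_mul ?_ (card_range_dvd_perm G φ)
  refine two_mul_card_dvd_of_odd (card_ker_map_le G φ f hf) ?_ (swap_mem_W0 hfxy)
    (Equiv.Perm.sign_swap hxy)
  rintro _ ⟨g, -, rfl⟩
  exact hGA g.2

end Equivariant

end W

section Arith

open Cfsg.Agent.Lib.HallNum Cfsg.Agent.Lib.HallStar

theorem fdvd {a b : ℕ} (hb : b ≠ 0) (h : a ∣ b) (r : ℕ) : a.factorization r ≤ b.factorization r := by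
  have ha : a ≠ 0 := fun h0 => hb (by rw [h0] at h; exact zero_dvd_iff.mp h)
  exact (Nat.factorization_le_iff_dvd ha hb).mpr h r

theorem arith_block {p : ℕ} (a b : ℕ) (hb : 1 ≤ b) (ha : 1 ≤ a) (hr : p.Prime)
    (hfull : ((a * b).factorial).factorization p ≤
      b * (a.factorial).factorization p + (b.factorial).factorization p) :
    (∃ j, a = p ^ j) ∨ b < p := by
  have hF : Fact p.Prime := ⟨hr⟩
  apply block_arith p a b ha
  rw [Nat.factorization_def _ hr, Nat.factorization_def _ hr, Nat.factorization_def _ hr] at hfull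
  exact hfull

/-- Arithmetic of the imprimitive step. -/
theorem imprim_arith (π : Set ℕ) {a b : ℕ} (ha : 2 ≤ a) (hb : 2 ≤ b)
    (hab : ∀ r, r.Prime → r ∣ a * b → r ∈ π)
    (hfull : ∀ r, r.Prime → r ∈ π → ((a * b).factorial).factorization r ≤
      b * (a.factorial).factorization r + (b.factorial).factorization r)
    (hIH : (∀ r, r.Prime → r ≤ a → r ∈ π) ∨
      (∃ p k, p.Prime ∧ 1 ≤ k ∧ a = p ^ k ∧ ∀ r, r.Prime → r ≤ a → (r ∈ π ↔ r = p)) ∨
      (a = 8 ∧ ∀ r, r.Prime → r ≤ 8 → (r ∈ π ↔ r = 2 ∨ r = 3))) :
    (∃ p k, p.Prime ∧ 1 ≤ k ∧ a * b = p ^ k ∧ ∀ r, r.Prime → r ≤ a * b → (r ∈ π ↔ r = p)) ∨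
    (a = 4 ∧ b = 2 ∧ ∀ r, r.Prime → r ≤ 8 → (r ∈ π ↔ r = 2 ∨ r = 3)) := by
  have hprod : 4 ≤ a * b := by nlinarith
  -- the prime
  have hpow_of : ∀ q, q.Prime → q ∣ b → ∃ j, 1 ≤ j ∧ a = q ^ j := by
    intro q hq hqb
    have hqπ : q ∈ π := hab q hq (Dvd.dvd.mul_left hqb a)
    rcases arith_block a b (by omega) (by omega) hq (hfull q hq hqπ) with ⟨j, hj⟩ | h
    · refine ⟨j, ?_, hj⟩
      by_contra h0
      have : j = 0 := by omega
      rw [this, pow_zero] at hj
      omega
    · exact absurd (Nat.le_of_dvd (by omega) hqb) (by omega)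
  obtain ⟨p, hp, hpb⟩ := Nat.exists_prime_and_dvd (show b ≠ 1 by omega)
  obtain ⟨j, hj1, haj⟩ := hpow_of p hp hpb
  have hpπ : p ∈ π := hab p hp (Dvd.dvd.mul_left hpb a)
  have hdvd_a : ∀ q, q.Prime → q ∣ a → q = p := by
    intro q hq hqa
    rw [haj] at hqa
    exact (Nat.prime_dvd_prime_iff_eq hq hp).mp (hq.dvd_of_dvd_pow hqa)
  have hbpow : b = p ^ b.primeFactorsList.length := by
    apply Nat.eq_prime_pow_of_unique_prime_dvd (by omega)
    intro d hd hdb
    obtain ⟨j', hj', ha'⟩ := hpow_of d hd hdb
    apply hdvd_a d hd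
    rw [ha']
    exact dvd_pow_self d (by omega)
  set l := b.primeFactorsList.length with hl
  have hl1 : 1 ≤ l := by
    by_contra h0
    have : l = 0 := by omega
    rw [this, pow_zero] at hbpow
    omega
  have habpow : a * b = p ^ (j + l) := by
    rw [pow_add, ← haj, ← hbpow]
  -- other primes
  have hother : ∀ r, r.Prime → r ∈ π → r ≠ p → b < r ∧ (r ≤ a ∨ a * b < r) := by
    intro r hr hrπ hrp
    have hbr : b < r := by
      rcases arith_block a b (by omega) (by omega) hr (hfull r hr hrπ) with ⟨i, hi⟩ | h
      · exfalso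
        have hi0 : i ≠ 0 := by
          rintro rfl
          rw [pow_zero] at hi
          omega
        apply hrp
        apply hdvd_a r hr
        rw [hi]
        exact dvd_pow_self r hi0
      · exact h
    refine ⟨hbr, ?_⟩
    by_contra hcon
    push Not at hcon
    obtain ⟨h1, h2⟩ := hcon
    have h3 := hfull r hr hrπ
    have h4 : (a.factorial).factorization r = 0 := by
      apply Nat.factorization_eq_zero_of_not_dvd
      rw [hr.dvd_factorial]
      omega
    have h5 : (b.factorial).factorization r = 0 := by
      apply Nat.factorization_eq_zero_of_not_dvd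
      rw [hr.dvd_factorial]
      omega
    have h6 : 0 < ((a * b).factorial).factorization r :=
      hr.factorization_pos_of_dvd (Nat.factorial_ne_zero _) (hr.dvd_factorial.mpr h2)
    rw [h4, h5] at h3
    omega
  rcases hIH with hI | ⟨q, k, hq, hk, haq, hπa⟩ | ⟨ha8, hπ8⟩
  · -- all primes up to `a`
    have h2π : 2 ∈ π := hI 2 Nat.prime_two ha
    have hp2 : p = 2 := by
      by_contra h
      have := (hother 2 Nat.prime_two h2π (Ne.symm h)).1
      omega
    subst hp2
    by_cases ha2 : a = 2
    · left
      refine ⟨2, j + l, Nat.prime_two, by omega, habpow, fun r hr hle => ⟨fun hrπ => ?_, fun h => h ▸ h2π⟩⟩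
      by_contra hr2
      have := (hother r hr hrπ hr2).2
      have := hr.two_le
      omega
    · -- `a ≥ 4`
      have hj2 : 2 ≤ j := by
        by_contra h
        have : j = 1 := by omega
        rw [this, pow_one] at haj
        omega
      have ha4 : 4 ≤ a := by
        rw [haj]
        calc 4 = 2 ^ 2 := rfl
          _ ≤ 2 ^ j := Nat.pow_le_pow_right (by norm_num) hj2
      have h3π : 3 ∈ π := hI 3 Nat.prime_three (by omega)
      have hb3 := (hother 3 Nat.prime_three h3π (by norm_num)).1
      have hb2 : b = 2 := by omega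
      by_cases hj3 : 3 ≤ j
      · exfalso
        obtain ⟨r, hr, hr2, hrle, hrd⟩ := central hj3
        rw [← haj] at hrle hrd
        have hrπ := hI r hr hrle
        have h3 := hfull r hr hrπ
        rw [hb2] at h3
        have h4 : (Nat.factorial 2).factorization r = 0 := by
          apply Nat.factorization_eq_zero_of_not_dvd
          rw [hr.dvd_factorial]
          have := hr.two_le
          omega
        have h5 : (a + a).factorial = (a + a).choose a * a.factorial * a.factorial := by
          have := Nat.choose_mul_factorial_mul_factorial (show a ≤ a + a by omega)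
          rw [Nat.add_sub_cancel] at this
          exact this.symm
        have h6 : 0 < ((a + a).choose a).factorization r :=
          hr.factorization_pos_of_dvd (Nat.choose_pos (by omega)).ne' hrd
        rw [mul_two, h5, Nat.factorization_mul
          (Nat.mul_ne_zero (Nat.choose_pos (by omega)).ne' (Nat.factorial_ne_zero _))
          (Nat.factorial_ne_zero _), Nat.factorization_mul (Nat.choose_pos (by omega)).ne'
          (Nat.factorial_ne_zero _), h4] at h3
        simp only [Finsupp.add_apply] at h3
        omega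
      · have hj2' : j = 2 := by omega
        have ha4' : a = 4 := by rw [haj, hj2']; rfl
        right
        refine ⟨ha4', hb2, fun r hr hle => ⟨fun hrπ => ?_, ?_⟩⟩
        · by_contra hcon
          push Not at hcon
          have := (hother r hr hrπ hcon.1).2
          rw [ha4', hb2] at this
          have h2 := hr.two_le
          have : r = 4 := by omega
          subst this
          norm_num at hr
        · rintro (rfl | rfl)
          · exact h2π
          · exact h3π
  · -- single prime
    have hqp : q = p := by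
      apply hdvd_a q hq
      rw [haq]
      exact dvd_pow_self q (by omega)
    subst hqp
    left
    refine ⟨q, j + l, hq, by omega, habpow, fun r hr hle => ⟨fun hrπ => ?_, fun h => h ▸ hpπ⟩⟩
    by_contra hrq
    rcases (hother r hr hrπ hrq).2 with h | h
    · exact hrq ((hπa r hr h).mp hrπ)
    · omega
  · -- degree `8`
    exfalso
    have hp2 : p = 2 := by
      apply (hdvd_a 2 Nat.prime_two (by rw [ha8]; norm_num)).symm
    have h3π : 3 ∈ π := (hπ8 3 Nat.prime_three (by norm_num)).mpr (Or.inr rfl)
    have hb3 := (hother 3 Nat.prime_three h3π (by rw [hp2]; norm_num)).1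
    have hb2 : b = 2 := by omega
    have h3 := hfull 3 Nat.prime_three h3π
    rw [ha8, hb2] at h3
    have h16 : (Nat.factorial (8 * 2)).factorization 3 = 6 :=
      fact_eq_of Nat.prime_three (Nat.factorial_ne_zero _) (by norm_num [Nat.factorial])
        (by norm_num [Nat.factorial])
    have h8 : (Nat.factorial 8).factorization 3 = 2 :=
      fact_eq_of Nat.prime_three (Nat.factorial_ne_zero _) (by norm_num [Nat.factorial])
        (by norm_num [Nat.factorial])
    have h2 : (Nat.factorial 2).factorization 3 = 0 :=
      fact_eq_of Nat.prime_three (Nat.factorial_ne_zero _) (by norm_num [Nat.factorial])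
        (by norm_num [Nat.factorial])
    rw [h16, h8, h2] at h3
    omega

end Arith

section Blocks

variable {α : Type*} [Fintype α] [DecidableEq α]

/-- The block containing a point. -/
theorem exists_block (G : Subgroup (Perm α)) (htr : IsPretransitive G α) {B : Set α}
    (hB : IsBlock G B) (hne : B.Nonempty) (x : α) :
    ∃ y : orbit G B, x ∈ (y : Set α) := by
  obtain ⟨a0, ha0⟩ := hne
  obtain ⟨g, hg⟩ := exists_smul_eq G a0 x
  exact ⟨⟨g • B, mem_orbit B g⟩, ⟨a0, ha0, hg⟩⟩

theorem block_unique (G : Subgroup (Perm α)) {B : Set α} (hB : IsBlock G B) {x : α}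
    {y z : orbit G B} (hy : x ∈ (y : Set α)) (hz : x ∈ (z : Set α)) : y = z := by
  obtain ⟨_, g, rfl⟩ := y
  obtain ⟨_, g', rfl⟩ := z
  apply Subtype.ext
  by_contra hne
  have := hB hne
  exact Set.disjoint_left.mp this hy hz

/-- The wreath bound. -/
theorem wreath_bound (G : Subgroup (Perm α)) (htr : IsPretransitive G α) {B : Set α}
    (hB : IsBlock G B) (hne : B.Nonempty) :
    Nat.card G ∣ (B.ncard.factorial) ^ (orbit G B).ncard * ((orbit G B).ncard).factorial ∧
    (G ≤ alternatingGroup α → B.Nontrivial →
      2 * Nat.card G ∣ (B.ncard.factorial) ^ (orbit G B).ncard * ((orbit G B).ncard).factorial) := by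
  classical
  have hfin : Fintype (orbit G B) := Fintype.ofFinite _
  have hcardY : Fintype.card (orbit G B) = (orbit G B).ncard := by
    rw [← Nat.card_eq_fintype_card, Nat.card_coe_set_eq]
  let f : α → orbit G B := fun x => Classical.choose (exists_block G htr hB hne x)
  have hf : ∀ x, x ∈ (f x : Set α) := fun x => Classical.choose_spec (exists_block G htr hB hne x)
  have hf' : ∀ x (y : orbit G B), x ∈ (y : Set α) → f x = y :=
    fun x y hy => block_unique G hB (hf x) hy
  let φ : G →* Perm (orbit G B) := toPermHom G (orbit G B)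
  have hequiv : ∀ (g : G) x, f ((g : Perm α) x) = φ g (f x) := by
    intro g x
    apply hf'
    change g • x ∈ (g • (f x : Set α))
    exact Set.smul_mem_smul_set (hf x)
  have hW : Nat.card (W0 f) = (B.ncard.factorial) ^ (orbit G B).ncard := by
    rw [card_W0]
    have hfib : ∀ i : orbit G B, Fintype.card {a // f a = i} = B.ncard := by
      intro i
      have h1 : Fintype.card {a // f a = i} = (i : Set α).ncard := by
        rw [← Nat.card_eq_fintype_card, ← Nat.card_coe_set_eq]
        apply Nat.card_congr
        refine Equiv.subtypeEquivRight (fun a => ?_)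
        constructor
        · intro h
          change a ∈ (i : Set α)
          rw [← h]
          exact hf a
        · intro h
          exact hf' a i h
      rw [h1]
      obtain ⟨_, g, rfl⟩ := i
      exact Set.ncard_smul_set g B
    simp_rw [hfib]
    rw [Finset.prod_const, Finset.card_univ, hcardY]
  have h1 := card_dvd_equivariant G φ f hequiv
  rw [hW, hcardY] at h1
  refine ⟨h1, fun hGA hnt => ?_⟩
  obtain ⟨x, hx, y, hy, hxy⟩ := hnt
  have hfxy : f x = f y := by
    have hb : (⟨B, mem_orbit_self B⟩ : orbit G B) = f x := (hf' x ⟨B, mem_orbit_self B⟩ hx).symm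
    have hb' : (⟨B, mem_orbit_self B⟩ : orbit G B) = f y := (hf' y ⟨B, mem_orbit_self B⟩ hy).symm
    rw [← hb, ← hb']
  have h2 := two_mul_card_dvd_equivariant G φ f hequiv hGA hxy hfxy
  rwa [hW, hcardY] at h2

/-- The stabilizer of a block as a subgroup of the symmetric group. -/
def stabL (G : Subgroup (Perm α)) (B : Set α) : Subgroup (Perm α) :=
  (stabilizer G B).map G.subtype

theorem card_stabL (G : Subgroup (Perm α)) (B : Set α) :
    Nat.card (stabL G B) * (orbit G B).ncard = Nat.card G := by
  have h1 : Nat.card (stabL G B) = Nat.card (stabilizer G B) :=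
    Nat.card_congr (Subgroup.equivMapOfInjective _ _ G.subtype_injective).toEquiv.symm
  rw [h1, ← index_stabilizer, Subgroup.card_mul_index]

theorem stabL_iff (G : Subgroup (Perm α)) (B : Set α) (S : Finset α) (hS : ∀ x, x ∈ S ↔ x ∈ B) :
    ∀ g ∈ stabL G B, ∀ x, g x ∈ S ↔ x ∈ S := by
  rintro _ ⟨g, hg, rfl⟩ x
  rw [hS, hS]
  have hg' : g • B = B := hg
  constructor
  · intro h
    rw [← hg'] at h
    exact (Set.smul_mem_smul_set_iff).mp h
  · intro h
    rw [← hg']
    exact Set.smul_mem_smul_set h

theorem block_num_dvd {a b : ℕ} (ha : 1 ≤ a) (hb : 1 ≤ b) :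
    a.factorial * (a * b - a).factorial * b ∣ (a * b).factorial := by
  have hab : 1 ≤ a * b := Nat.mul_pos ha hb
  have hle : a ≤ a * b := Nat.le_mul_of_pos_right a hb
  have h1 : (a * b).choose a * a.factorial * (a * b - a).factorial = (a * b).factorial :=
    Nat.choose_mul_factorial_mul_factorial hle
  obtain ⟨a', rfl⟩ : ∃ a', a = a' + 1 := ⟨a - 1, by omega⟩
  obtain ⟨n, hn⟩ : ∃ n, (a' + 1) * b = n + 1 := ⟨(a' + 1) * b - 1, by omega⟩
  have h2 : (n + 1) * n.choose a' = (n + 1).choose (a' + 1) * (a' + 1) := Nat.add_one_mul_choose_eq n a'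
  have h3 : (a' + 1) * (b * n.choose a') = (a' + 1) * (n + 1).choose (a' + 1) := by
    rw [← mul_assoc, hn, h2, mul_comm]
  have h4 : b * n.choose a' = (n + 1).choose (a' + 1) := Nat.eq_of_mul_eq_mul_left (by omega) h3
  rw [← h1, hn, ← h4]
  exact ⟨n.choose a', by ring⟩

/-- The restricted group has the full `r`-part. -/
theorem full_res (G : Subgroup (Perm α)) (htr : IsPretransitive G α) {B : Set α}
    (hB : IsBlock G B) (hne : B.Nonempty) (S : Finset α) (hS : ∀ x, x ∈ S ↔ x ∈ B)
    (ha : 2 ≤ B.ncard) (hb : 2 ≤ (orbit G B).ncard) {r : ℕ} (hr : r.Prime)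
    (h : Full r G ∨ (r = 2 ∧ G ≤ alternatingGroup α ∧
      (Fintype.card α).factorial.factorization 2 ≤ (Nat.card G).factorization 2 + 1)) :
    Full r (resHom (stabL G B) S (stabL_iff G B S hS)).range := by
  set a := B.ncard with ha'
  set b := (orbit G B).ncard with hb'
  have hm : a * b = Fintype.card α := by
    have := hB.ncard_block_mul_ncard_orbit_eq hne
    rwa [Nat.card_eq_fintype_card] at this
  have hScard : S.card = a := by
    rw [ha', ← Set.ncard_coe_finset]
    congr 1
    ext x
    exact hS x
  have hcardS : Fintype.card {x // x ∈ S} = a := by rw [Fintype.card_coe, hScard]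
  unfold Full
  rw [hcardS]
  set G1 := (resHom (stabL G B) S (stabL_iff G B S hS)).range with hG1
  set L := stabL G B with hL
  have hnum := block_num_dvd (a := a) (b := b) (by omega) (by omega)
  rw [hm] at hnum
  have hmfac : (Fintype.card α).factorial ≠ 0 := Nat.factorial_ne_zero _
  have h1 := fdvd hmfac hnum r
  have hafac : a.factorial ≠ 0 := Nat.factorial_ne_zero _
  have hcfac : (Fintype.card α - a).factorial ≠ 0 := Nat.factorial_ne_zero _
  rw [Nat.factorization_mul (Nat.mul_ne_zero hafac hcfac) (by omega),
    Nat.factorization_mul hafac hcfac] at h1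
  simp only [Finsupp.add_apply] at h1
  have hcard := card_stabL G B
  have hLne : Nat.card L ≠ 0 := Nat.card_pos.ne'
  have hG1ne : Nat.card G1 ≠ 0 := Nat.card_pos.ne'
  have hGval : (Nat.card G).factorization r = (Nat.card L).factorization r + b.factorization r := by
    rw [← hcard, Nat.factorization_mul hLne (by omega)]
    rfl
  rcases h with hf | ⟨rfl, hGA, hval⟩
  · have hd := card_dvd_res L S (stabL_iff G B S hS)
    rw [hScard] at hd
    have h2 := fdvd (Nat.mul_ne_zero hG1ne hcfac) hd r
    rw [Nat.factorization_mul hG1ne hcfac] at h2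
    simp only [Finsupp.add_apply] at h2
    unfold Full at hf
    omega
  · have hLA : L ≤ alternatingGroup α := by
      rintro _ ⟨g, -, rfl⟩
      exact hGA g.2
    have hcompl : 2 ≤ Fintype.card α - S.card := by
      rw [hScard, ← hm]
      have : a * 2 ≤ a * b := Nat.mul_le_mul_left a hb
      omega
    have hd := two_mul_card_dvd_res L S (stabL_iff G B S hS) hLA hcompl
    rw [hScard] at hd
    have h2 := fdvd (Nat.mul_ne_zero hG1ne hcfac) hd 2
    rw [Nat.factorization_mul hG1ne hcfac, Nat.factorization_mul (by norm_num) hLne] at h2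
    simp only [Finsupp.add_apply] at h2
    have h22 : (2 : ℕ).factorization 2 = 1 := Nat.Prime.factorization_self Nat.prime_two
    rw [h22] at h2
    omega

/-- The wreath bound in terms of valuations. -/
theorem full_wreath (G : Subgroup (Perm α)) (htr : IsPretransitive G α) {B : Set α}
    (hB : IsBlock G B) (hne : B.Nonempty) (ha : 2 ≤ B.ncard) (hnt : B.Nontrivial) {r : ℕ} (hr : r.Prime)
    (h : Full r G ∨ (r = 2 ∧ G ≤ alternatingGroup α ∧
      (Fintype.card α).factorial.factorization 2 ≤ (Nat.card G).factorization 2 + 1)) :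
    ((B.ncard * (orbit G B).ncard).factorial).factorization r ≤
      (orbit G B).ncard * (B.ncard.factorial).factorization r +
        (((orbit G B).ncard).factorial).factorization r := by
  have hm : B.ncard * (orbit G B).ncard = Fintype.card α := by
    have := hB.ncard_block_mul_ncard_orbit_eq hne
    rwa [Nat.card_eq_fintype_card] at this
  rw [hm]
  obtain ⟨hw1, hw2⟩ := wreath_bound G htr hB hne
  have hne1 : (B.ncard.factorial) ^ (orbit G B).ncard * ((orbit G B).ncard).factorial ≠ 0 :=
    Nat.mul_ne_zero (pow_ne_zero _ (Nat.factorial_ne_zero _)) (Nat.factorial_ne_zero _)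
  have hfac : ((B.ncard.factorial) ^ (orbit G B).ncard * ((orbit G B).ncard).factorial).factorization r =
      (orbit G B).ncard * (B.ncard.factorial).factorization r +
        (((orbit G B).ncard).factorial).factorization r := by
    rw [Nat.factorization_mul (pow_ne_zero _ (Nat.factorial_ne_zero _)) (Nat.factorial_ne_zero _),
      Nat.factorization_pow]
    simp
  rcases h with hf | ⟨rfl, hGA, hval⟩
  · have h1 := fdvd hne1 hw1 r
    rw [hfac] at h1
    exact le_trans hf h1
  · have h1 := fdvd hne1 (hw2 hGA hnt) 2
    rw [hfac, Nat.factorization_mul (by norm_num) Nat.card_pos.ne'] at h1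
    simp only [Finsupp.add_apply] at h1
    have h22 : (2 : ℕ).factorization 2 = 1 := Nat.Prime.factorization_self Nat.prime_two
    rw [h22] at h1
    omega

end Blocks

section Main

universe u

/-- The outcome of the classification of transitive groups. -/
def Cls {α : Type u} [Fintype α] [DecidableEq α] (π : Set ℕ) (G : Subgroup (Perm α)) : Prop :=
  (∀ r, r.Prime → r ≤ Fintype.card α → r ∈ π) ∨
  (∃ p k, p.Prime ∧ 1 ≤ k ∧ Fintype.card α = p ^ k ∧
    ∀ r, r.Prime → r ≤ Fintype.card α → (r ∈ π ↔ r = p)) ∨
  (Fintype.card α = 8 ∧ (∀ r, r.Prime → r ≤ 8 → (r ∈ π ↔ r = 2 ∨ r = 3)) ∧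
    ∃ S : Finset α, S.card = 4 ∧ ∀ g ∈ G, (∀ x, g x ∈ S ↔ x ∈ S) ∨ (∀ x, g x ∈ S ↔ x ∉ S))

theorem cls_main (π : Set ℕ) : ∀ (m : ℕ) (α : Type u) [Fintype α] [DecidableEq α],
    Fintype.card α = m → 2 ≤ m → ∀ G : Subgroup (Perm α), IsPretransitive G α → PiG π G →
      HP π G → Cls π G := by
  intro m
  induction m using Nat.strong_induction_on with
  | _ m ih =>
    intro α _ _ hcard hm G htr hPi hHP
    by_cases hT : ∀ B : Set α, IsBlock G B → IsTrivialBlock B
    · have hprim : IsPreprimitive G α :=
        { toIsPretransitive := htr, isTrivialBlock_of_isBlock := fun {B} hB => hT B hB }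
      rcases prim_class π G (by omega) hprim hPi hHP with h | h
      · exact Or.inl h
      · exact Or.inr (Or.inl h)
    · push Not at hT
      obtain ⟨B, hB, hBt⟩ := hT
      have hBnt : B.Nontrivial := by
        rw [← Set.not_subsingleton_iff]
        exact fun h => hBt (Or.inl h)
      have hBuniv : B ≠ Set.univ := fun h => hBt (Or.inr h)
      have hne : B.Nonempty := hBnt.nonempty
      have hmul := hB.ncard_block_mul_ncard_orbit_eq hne
      rw [Nat.card_eq_fintype_card, hcard] at hmul
      have ha2 : 2 ≤ B.ncard := by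
        obtain ⟨x, hx, y, hy, hxy⟩ := hBnt
        exact (Set.one_lt_ncard_iff (Set.toFinite B)).mpr ⟨x, y, hx, hy, hxy⟩
      have hb2 : 2 ≤ (orbit G B).ncard := by
        by_contra h
        have hb0 : (orbit G B).ncard ≠ 0 := by
          intro h0
          rw [h0] at hmul
          omega
        have hb1 : (orbit G B).ncard = 1 := by omega
        rw [hb1, mul_one] at hmul
        apply hBuniv
        rw [Set.eq_univ_iff_ncard, Nat.card_eq_fintype_card, hcard]
        exact hmul
      set a := B.ncard with ha
      set b := (orbit G B).ncard with hb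
      have halt : a < m := by
        rw [← hmul]
        have : a * 2 ≤ a * b := Nat.mul_le_mul_left a hb2
        omega
      classical
      let S : Finset α := (Set.toFinite B).toFinset
      have hS : ∀ x, x ∈ S ↔ x ∈ B := fun x => Set.Finite.mem_toFinset _
      have hScard : S.card = a := by
        rw [ha, ← Set.ncard_coe_finset]
        congr 1
        ext x
        exact hS x
      have hcardS : Fintype.card {x // x ∈ S} = a := by rw [Fintype.card_coe, hScard]
      let G1 := (resHom (stabL G B) S (stabL_iff G B S hS)).range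
      have htr1 : IsPretransitive G1 {x // x ∈ S} := by
        refine ⟨fun x y => ?_⟩
        obtain ⟨g, hg⟩ := exists_smul_eq G (x : α) (y : α)
        have hx : (x : α) ∈ B := (hS _).mp x.2
        have hy : g • (x : α) ∈ B := by rw [hg]; exact (hS _).mp y.2
        have hgB : g • B = B := hB.smul_eq_of_mem hx hy
        have hgL : (g : Perm α) ∈ stabL G B := ⟨g, hgB, rfl⟩
        refine ⟨⟨resHom (stabL G B) S (stabL_iff G B S hS) ⟨g, hgL⟩, ⟨_, rfl⟩⟩, ?_⟩
        apply Subtype.ext
        exact hg
      have hdvdL : Nat.card (stabL G B) ∣ Nat.card G := ⟨b, (card_stabL G B).symm⟩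
      have hPi1 : PiG π G1 := by
        intro r hr hrd
        apply hPi r hr
        exact (hrd.trans (Subgroup.card_range_dvd _)).trans hdvdL
      have hfull1 : ∀ r, r.Prime → r ∈ π → Full r G ∨ (r = 2 ∧ G ≤ alternatingGroup α ∧
          (Fintype.card α).factorial.factorization 2 ≤ (Nat.card G).factorization 2 + 1) := by
        intro r hr hrπ
        by_cases hr2 : r = 2
        · subst hr2
          rcases hHP.2 hrπ with h | h
          · exact Or.inl h
          · exact Or.inr ⟨rfl, h⟩
        · exact Or.inl (hHP.1 r hr hrπ hr2)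
      have hHP1 : HP π G1 := by
        refine ⟨fun r hr hrπ _ => full_res G htr hB hne S hS ha2 hb2 hr (hfull1 r hr hrπ),
          fun h2 => Or.inl (full_res G htr hB hne S hS ha2 hb2 Nat.prime_two (hfull1 2 Nat.prime_two h2))⟩
      have hcls := ih a halt {x // x ∈ S} hcardS ha2 G1 htr1 hPi1 hHP1
      have hIH : (∀ r, r.Prime → r ≤ a → r ∈ π) ∨
          (∃ p k, p.Prime ∧ 1 ≤ k ∧ a = p ^ k ∧ ∀ r, r.Prime → r ≤ a → (r ∈ π ↔ r = p)) ∨
          (a = 8 ∧ ∀ r, r.Prime → r ≤ 8 → (r ∈ π ↔ r = 2 ∨ r = 3)) := by
        rcases hcls with h | ⟨p, k, h1, h2, h3, h4⟩ | ⟨h1, h2, -⟩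
        · left
          rw [hcardS] at h
          exact h
        · right; left
          rw [hcardS] at h3 h4
          exact ⟨p, k, h1, h2, h3, h4⟩
        · right; right
          rw [hcardS] at h1
          exact ⟨h1, h2⟩
      have hdvdm : m ∣ Nat.card G := by
        have := card_dvd_of_trans G htr (by omega)
        rwa [hcard] at this
      have hab : ∀ r, r.Prime → r ∣ a * b → r ∈ π := by
        intro r hr hrd
        rw [hmul] at hrd
        exact hPi r hr (hrd.trans hdvdm)
      have hfull : ∀ r, r.Prime → r ∈ π → ((a * b).factorial).factorization r ≤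
          b * (a.factorial).factorization r + (b.factorial).factorization r := by
        intro r hr hrπ
        exact full_wreath G htr hB hne ha2 hBnt hr (hfull1 r hr hrπ)
      rcases imprim_arith π ha2 hb2 hab hfull hIH with ⟨p, k, h1, h2, h3, h4⟩ | ⟨ha4, hb22, hπ8⟩
      · right; left
        rw [hmul] at h3 h4
        exact ⟨p, k, h1, h2, hcard.trans h3, by rw [hcard]; exact h4⟩
      · right; right
        have hm8 : m = 8 := by rw [← hmul, ha4, hb22]
        refine ⟨hcard.trans hm8, hπ8, S, hScard.trans ha4, ?_⟩
        intro g hg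
        rcases hB.smul_eq_or_disjoint (⟨g, hg⟩ : G) with h | h
        · left
          intro x
          rw [hS, hS]
          constructor
          · intro hx
            rw [← h] at hx
            exact (Set.smul_mem_smul_set_iff).mp hx
          · intro hx
            rw [← h]
            exact Set.smul_mem_smul_set (a := (⟨g, hg⟩ : G)) hx
        · right
          have hout : ∀ x ∈ S, g x ∉ S := by
            intro x hx hgx
            rw [hS] at hx hgx
            exact Set.disjoint_left.mp h (Set.smul_mem_smul_set (a := (⟨g, hg⟩ : G)) hx) hgx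
          intro x
          constructor
          · intro hgx hx
            exact hout x hx hgx
          · intro hx
            by_contra hgx
            have hsub : (insert x S).image g ⊆ Sᶜ := by
              intro y hy
              obtain ⟨z, hz, rfl⟩ := Finset.mem_image.mp hy
              rw [Finset.mem_compl]
              rcases Finset.mem_insert.mp hz with rfl | hz
              · exact hgx
              · exact hout z hz
            have hc := Finset.card_le_card hsub
            rw [Finset.card_image_of_injective _ g.injective, Finset.card_insert_of_notMem hx,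
              Finset.card_compl, hScard, hcard, hm8, ha4] at hc
            omega

end Main

end Cfsg.Agent.Lib.HallBlock
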