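import Mathlib
import Cfsg.Agent.Lib.HallConverse

/-!
# Sylow systems.
-/

set_option autoImplicit false

open scoped Pointwise
open Cfsg.Agent.Lib.PCore Cfsg.Agent.Lib.Coprime Cfsg.Agent.Lib.Hall Cfsg.Agent.Lib.HallConverse

namespace Cfsg.Agent.Lib.HallConverse2

universe u

variable {G : Type u} [Group G]

/-- Intersections of Hall complements: the index is the product. -/
theorem index_finset_inf [Finite G] (K : ℕ → Subgroup G)
    (hK : ∀ q : ℕ, q.Prime → (K q).index = q ^ (Nat.card G).factorization q) (s : Finset ℕ)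
    (hs : ∀ q ∈ s, q.Prime) :
    (s.inf K).index = ∏ q ∈ s, q ^ (Nat.card G).factorization q := by
  classical
  induction s using Finset.induction_on with
  | empty => simp
  | insert a s ha ih =>
    have hs' : ∀ q ∈ s, q.Prime := fun q hq => hs q (Finset.mem_insert_of_mem hq)
    have ha' : a.Prime := hs a (Finset.mem_insert_self a s)
    rw [Finset.inf_insert, Finset.prod_insert ha]
    have hcop : (K a).index.Coprime (s.inf K).index := by
      rw [ih hs', hK a ha']
      apply Nat.Coprime.prod_right
      intro q hq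
      apply Nat.Coprime.pow
      exact (Nat.coprime_primes ha' (hs' q hq)).mpr (fun h => ha (h ▸ hq))
    rw [(Cfsg.Agent.S0007.result (K a) (s.inf K) hcop).1, ih hs', hK a ha']

/-- **Sylow systems** (S0020). -/
theorem exists_sylow_system [Finite G] [Group.IsSolvable G] :
    ∃ S : (p : Nat.Primes) → Sylow (p : ℕ) G,
      ∀ p q : Nat.Primes, (S p : Set G) * (S q : Set G) = (S q : Set G) * (S p : Set G) := by
  classical
  have hGpos : Nat.card G ≠ 0 := Nat.card_pos.ne'
  -- Hall `q`-complements
  have hex : ∀ q : ℕ, q.Prime → ∃ H : Subgroup G, H.index = q ^ (Nat.card G).factorization q := by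
    intro q hq
    have hmn : (ordCompl[q] (Nat.card G)).Coprime (q ^ (Nat.card G).factorization q) :=
      (Nat.coprime_ordCompl hq hGpos).symm.pow_right _
    obtain ⟨H, hH⟩ := (hall_main _ G (ordCompl[q] (Nat.card G)) (q ^ (Nat.card G).factorization q)
      rfl (by rw [mul_comm]; exact (Nat.ordProj_mul_ordCompl_eq_self _ q).symm) hmn).1
    refine ⟨H, ?_⟩
    have h1 := Subgroup.index_mul_card H
    rw [hH] at h1
    have h2 := Nat.ordProj_mul_ordCompl_eq_self (Nat.card G) q
    have hpos : 0 < ordCompl[q] (Nat.card G) := Nat.ordCompl_pos q hGpos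
    apply Nat.eq_of_mul_eq_mul_right hpos
    rw [h1, h2]
  choose! K hK using hex
  set P := (Nat.card G).primeFactors with hP
  have hPprime : ∀ q ∈ P, q.Prime := fun q hq => Nat.prime_of_mem_primeFactors hq
  have hprod := prod_primeFactors_pow (Nat.card G) hGpos
  rw [← hP] at hprod
  let v := fun q : ℕ => q ^ (Nat.card G).factorization q
  -- the general index computation
  have hidx : ∀ s : Finset ℕ, s ⊆ P → (s.inf K).index = ∏ q ∈ s, v q := fun s hs =>
    index_finset_inf K hK s (fun q hq => hPprime q (hs hq))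
  -- order of `(P.erase p).inf K`
  have herase : ∀ p : ℕ, p.Prime → v p * ∏ q ∈ P.erase p, v q = Nat.card G := by
    intro p hp
    by_cases hpP : p ∈ P
    · rw [Finset.mul_prod_erase P v hpP]
      exact hprod
    · rw [Finset.erase_eq_of_notMem hpP]
      have : (Nat.card G).factorization p = 0 := by
        apply Nat.factorization_eq_zero_of_not_dvd
        intro hd
        exact hpP (Nat.mem_primeFactors.mpr ⟨hp, hd, hGpos⟩)
      simp only [v, this, pow_zero, one_mul]
      exact hprod
  have hcardS : ∀ p : ℕ, p.Prime → Nat.card ((P.erase p).inf K : Subgroup G) = v p := by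
    intro p hp
    have h1 := Subgroup.index_mul_card ((P.erase p).inf K)
    rw [hidx _ (Finset.erase_subset _ _)] at h1
    have h2 := herase p hp
    rw [mul_comm] at h2
    rw [← h2] at h1
    have hpos : 0 < ∏ q ∈ P.erase p, v q := by
      apply Finset.prod_pos
      intro q hq
      exact pow_pos (hPprime q (Finset.mem_of_mem_erase hq)).pos _
    exact Nat.eq_of_mul_eq_mul_left hpos h1
  let S : (p : Nat.Primes) → Sylow (p : ℕ) G := fun p =>
    have : Fact (p : ℕ).Prime := ⟨p.2⟩
    Sylow.ofCard ((P.erase (p : ℕ)).inf K) (hcardS p p.2)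
  have hScoe : ∀ p : Nat.Primes, ((S p : Subgroup G)) = (P.erase (p : ℕ)).inf K := fun p => rfl
  refine ⟨S, ?_⟩
  intro p q
  by_cases hpq : (p : ℕ) = q
  · have : p = q := Subtype.ext hpq
    rw [this]
  -- the join
  set s := (P.erase (p : ℕ)).erase (q : ℕ) with hs
  let T := s.inf K
  have hsP : s ⊆ P := (Finset.erase_subset _ _).trans (Finset.erase_subset _ _)
  have hSpT : (S p : Subgroup G) ≤ T := by
    rw [hScoe]
    exact Finset.inf_mono (Finset.erase_subset _ _)
  have hSqT : (S q : Subgroup G) ≤ T := by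
    rw [hScoe]
    apply Finset.inf_mono
    intro r hr
    rw [hs, Finset.mem_erase, Finset.mem_erase] at hr
    exact Finset.mem_erase.mpr ⟨hr.1, hr.2.2⟩
  have hvpos : ∀ r : ℕ, r.Prime → 0 < v r := fun r hr => pow_pos hr.pos _
  have hprodT : ∏ r ∈ P.erase (p : ℕ), v r = v q * ∏ r ∈ s, v r := by
    by_cases hqP : (q : ℕ) ∈ P.erase (p : ℕ)
    · rw [Finset.mul_prod_erase _ v hqP]
    · rw [hs, Finset.erase_eq_of_notMem hqP]
      have hq0 : (Nat.card G).factorization q = 0 := by
        apply Nat.factorization_eq_zero_of_not_dvd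
        intro hd
        apply hqP
        exact Finset.mem_erase.mpr ⟨Ne.symm hpq, Nat.mem_primeFactors.mpr ⟨q.2, hd, hGpos⟩⟩
      simp [v, hq0]
  have hcardT : Nat.card T = v p * v q := by
    have h1 := Subgroup.index_mul_card T
    rw [hidx s hsP] at h1
    have h2 := herase p p.2
    rw [hprodT] at h2
    have hpos : 0 < ∏ r ∈ s, v r := by
      apply Finset.prod_pos
      intro r hr
      exact hvpos r (hPprime r (hsP hr))
    apply Nat.eq_of_mul_eq_mul_left hpos
    rw [h1, ← h2]
    ring
  -- indices in `T`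
  have hcardSp : Nat.card (S p : Subgroup G) = v p := hcardS p p.2
  have hcardSq : Nat.card (S q : Subgroup G) = v q := hcardS q q.2
  have hidxp : ((S p : Subgroup G).subgroupOf T).index = v q := by
    have h1 := Subgroup.index_mul_card ((S p : Subgroup G).subgroupOf T)
    rw [card_subgroupOf_of_le hSpT, hcardT, hcardSp, mul_comm (v p)] at h1
    exact Nat.eq_of_mul_eq_mul_right (hvpos p p.2) h1
  have hidxq : ((S q : Subgroup G).subgroupOf T).index = v p := by
    have h1 := Subgroup.index_mul_card ((S q : Subgroup G).subgroupOf T)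
    rw [card_subgroupOf_of_le hSqT, hcardT, hcardSq] at h1
    exact Nat.eq_of_mul_eq_mul_right (hvpos q q.2) h1
  have hcopv : (v p).Coprime (v q) :=
    Nat.Coprime.pow _ _ ((Nat.coprime_primes p.2 q.2).mpr hpq)
  have hfact1 := (Cfsg.Agent.S0007.result ((S p : Subgroup G).subgroupOf T)
    ((S q : Subgroup G).subgroupOf T) (by rw [hidxp, hidxq]; exact hcopv.symm)).2
  have hfact2 := (Cfsg.Agent.S0007.result ((S q : Subgroup G).subgroupOf T)
    ((S p : Subgroup G).subgroupOf T) (by rw [hidxp, hidxq]; exact hcopv)).2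
  have hset1 : (S p : Set G) * (S q : Set G) = (T : Set G) := by
    apply Set.Subset.antisymm
    · rintro _ ⟨x, hx, y, hy, rfl⟩
      exact T.mul_mem (hSpT hx) (hSqT hy)
    · intro t ht
      obtain ⟨x, hx, y, hy, hxy⟩ := hfact1 ⟨t, ht⟩
      exact ⟨x, hx, y, hy, (congrArg Subtype.val hxy).symm⟩
  have hset2 : (S q : Set G) * (S p : Set G) = (T : Set G) := by
    apply Set.Subset.antisymm
    · rintro _ ⟨x, hx, y, hy, rfl⟩
      exact T.mul_mem (hSqT hx) (hSpT hy)
    · intro t ht
      obtain ⟨x, hx, y, hy, hxy⟩ := hfact2 ⟨t, ht⟩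
      exact ⟨x, hx, y, hy, (congrArg Subtype.val hxy).symm⟩
  rw [hset1, hset2]

/-- Two subgroups permuting as sets: the join is the product set. -/
theorem coe_sup_of_permute {U V : Subgroup G} (h : (U : Set G) * V = V * U) :
    ((U ⊔ V : Subgroup G) : Set G) = U * V := by
  let W : Subgroup G :=
    { carrier := (U : Set G) * V
      mul_mem' := by
        rintro _ _ ⟨u, hu, v, hv, rfl⟩ ⟨u', hu', v', hv', rfl⟩
        have h1 : v * u' ∈ (U : Set G) * V := by
          rw [h]
          exact ⟨v, hv, u', hu', rfl⟩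
        obtain ⟨u'', hu'', v'', hv'', hvu⟩ := h1
        refine ⟨u * u'', U.mul_mem hu hu'', v'' * v', V.mul_mem hv'' hv', ?_⟩
        have hvu' : u'' * v'' = v * u' := hvu
        calc u * u'' * (v'' * v') = u * (u'' * v'') * v' := by group
          _ = u * (v * u') * v' := by rw [hvu']
          _ = u * v * (u' * v') := by group
      one_mem' := ⟨1, U.one_mem, 1, V.one_mem, by simp⟩
      inv_mem' := by
        rintro _ ⟨u, hu, v, hv, rfl⟩
        have h1 : v⁻¹ * u⁻¹ ∈ (U : Set G) * V := by
          rw [h]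
          exact ⟨v⁻¹, V.inv_mem hv, u⁻¹, U.inv_mem hu, rfl⟩
        simpa using h1 }
  have hW : ((W : Subgroup G) : Set G) = (U : Set G) * V := rfl
  rw [← hW]
  congr 1
  apply le_antisymm
  · refine sup_le ?_ ?_
    · intro u hu
      exact ⟨u, hu, 1, V.one_mem, by simp⟩
    · intro v hv
      exact ⟨1, U.one_mem, v, hv, by simp⟩
  · rintro _ ⟨u, hu, v, hv, rfl⟩
    exact Subgroup.mul_mem _ (Subgroup.mem_sup_left hu) (Subgroup.mem_sup_right hv)

/-- Order of the join of two permuting subgroups of coprime orders. -/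
theorem card_sup_of_permute [Finite G] {U V : Subgroup G} (h : (U : Set G) * V = V * U)
    (hc : (Nat.card U).Coprime (Nat.card V)) :
    Nat.card (U ⊔ V : Subgroup G) = Nat.card U * Nat.card V := by
  set W := U ⊔ V with hW
  have hUW : U ≤ W := le_sup_left
  have hVW : V ≤ W := le_sup_right
  have hcompl : Subgroup.IsComplement' (U.subgroupOf W) (V.subgroupOf W) := by
    apply Subgroup.isComplement'_of_disjoint_and_mul_eq_univ
    · apply Subgroup.disjoint_of_coprime_natCard
      rw [card_subgroupOf_of_le hUW, card_subgroupOf_of_le hVW]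
      exact hc
    · rw [Set.eq_univ_iff_forall]
      intro w
      have hw : (w : G) ∈ ((U ⊔ V : Subgroup G) : Set G) := w.2
      rw [coe_sup_of_permute h] at hw
      obtain ⟨u, hu, v, hv, huv⟩ := hw
      exact ⟨⟨u, hUW hu⟩, hu, ⟨v, hVW hv⟩, hv, Subtype.ext huv⟩
  have h1 := hcompl.card_mul_card
  rw [card_subgroupOf_of_le hUW, card_subgroupOf_of_le hVW] at h1
  exact h1.symm

/-- **A Sylow system implies solvability** (S0021). -/
theorem isSolvable_of_sylow_system [Finite G] (S : (p : Nat.Primes) → Sylow (p : ℕ) G)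
    (hS : ∀ p q : Nat.Primes, (S p : Set G) * (S q : Set G) = (S q : Set G) * (S p : Set G)) :
    Group.IsSolvable G := by
  classical
  have hGpos : Nat.card G ≠ 0 := Nat.card_pos.ne'
  let S' : ℕ → Subgroup G := fun q => if h : q.Prime then (S ⟨q, h⟩ : Subgroup G) else ⊥
  have hS'eq : ∀ (q : ℕ) (h : q.Prime), S' q = (S ⟨q, h⟩ : Subgroup G) := fun q h => dif_pos h
  let v := fun q : ℕ => q ^ (Nat.card G).factorization q
  have hcardS' : ∀ (q : ℕ), q.Prime → Nat.card (S' q) = v q := by
    intro q hq
    rw [hS'eq q hq]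
    have : Fact q.Prime := ⟨hq⟩
    exact Sylow.card_eq_multiplicity (S ⟨q, hq⟩)
  have hperm : ∀ a b : ℕ, a.Prime → b.Prime →
      (S' a : Set G) * (S' b : Set G) = (S' b : Set G) * (S' a : Set G) := by
    intro a b ha hb
    rw [hS'eq a ha, hS'eq b hb]
    exact hS ⟨a, ha⟩ ⟨b, hb⟩
  -- permutation with the joins
  have hperm2 : ∀ (s : Finset ℕ), (∀ q ∈ s, q.Prime) → ∀ a : ℕ, a.Prime →
      (S' a : Set G) * ((s.sup S' : Subgroup G) : Set G) =
        ((s.sup S' : Subgroup G) : Set G) * (S' a : Set G) := by
    intro s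
    induction s using Finset.induction_on with
    | empty =>
      intro _ a _
      simp
    | insert b s hb ih =>
      intro hs a ha
      have hs' : ∀ q ∈ s, q.Prime := fun q hq => hs q (Finset.mem_insert_of_mem hq)
      have hbp : b.Prime := hs b (Finset.mem_insert_self b s)
      have ih1 := ih hs'
      rw [Finset.sup_insert, coe_sup_of_permute (ih1 b hbp)]
      rw [← mul_assoc, hperm a b ha hbp, mul_assoc, ih1 a ha, mul_assoc]
  have hcard : ∀ (s : Finset ℕ), (∀ q ∈ s, q.Prime) →
      Nat.card (s.sup S' : Subgroup G) = ∏ q ∈ s, v q := by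
    intro s
    induction s using Finset.induction_on with
    | empty =>
      intro _
      simp
    | insert b s hb ih =>
      intro hs
      have hs' : ∀ q ∈ s, q.Prime := fun q hq => hs q (Finset.mem_insert_of_mem hq)
      have hbp : b.Prime := hs b (Finset.mem_insert_self b s)
      rw [Finset.sup_insert, Finset.prod_insert hb, card_sup_of_permute (hperm2 s hs' b hbp),
        hcardS' b hbp, ih hs']
      rw [hcardS' b hbp, ih hs']
      apply Nat.Coprime.prod_right
      intro q hq
      apply Nat.Coprime.pow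
      exact (Nat.coprime_primes hbp (hs' q hq)).mpr (fun h => hb (h ▸ hq))
  -- the Hall complements
  set P := (Nat.card G).primeFactors with hP
  have hPprime : ∀ q ∈ P, q.Prime := fun q hq => Nat.prime_of_mem_primeFactors hq
  have hprod := prod_primeFactors_pow (Nat.card G) hGpos
  rw [← hP] at hprod
  apply isSolvable_of_hall_complements _ G rfl
  intro p hp
  refine ⟨(P.erase p).sup S', ?_⟩
  have h1 := Subgroup.index_mul_card ((P.erase p).sup S')
  rw [hcard _ (fun q hq => hPprime q (Finset.mem_of_mem_erase hq))] at h1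
  have h2 : v p * ∏ q ∈ P.erase p, v q = Nat.card G := by
    by_cases hpP : p ∈ P
    · rw [Finset.mul_prod_erase P v hpP]
      exact hprod
    · rw [Finset.erase_eq_of_notMem hpP]
      have : (Nat.card G).factorization p = 0 := by
        apply Nat.factorization_eq_zero_of_not_dvd
        intro hd
        exact hpP (Nat.mem_primeFactors.mpr ⟨hp, hd, hGpos⟩)
      simp only [v, this, pow_zero, one_mul]
      exact hprod
  rw [← h2] at h1
  have hpos : 0 < ∏ q ∈ P.erase p, v q := by
    apply Finset.prod_pos
    intro q hq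
    exact pow_pos (hPprime q (Finset.mem_of_mem_erase hq)).pos _
  exact Nat.eq_of_mul_eq_mul_right hpos h1

end Cfsg.Agent.Lib.HallConverse2
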