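import Mathlib
import Cfsg.Agent.Lib.HallBlock

set_option autoImplicit false
set_option linter.unusedSectionVars false
set_option linter.unusedVariables false

namespace Cfsg.Agent.Lib.HallOrbit

open Equiv Equiv.Perm MulAction
open Cfsg.Agent.Lib.HallPerm Cfsg.Agent.Lib.HallPrim Cfsg.Agent.Lib.HallBlock
open Cfsg.Agent.Lib.HallNum Cfsg.Agent.Lib.HallStar

universe u

variable {α : Type u} [Fintype α] [DecidableEq α]

/-- The stabilizer of a finset, as the group preserving a Boolean function. -/
def stabS (S : Finset α) : Subgroup (Perm α) := W0 (fun x => decide (x ∈ S))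

theorem mem_stabS {S : Finset α} {g : Perm α} : g ∈ stabS S ↔ ∀ x, g x ∈ S ↔ x ∈ S := by
  change (∀ x, decide (g x ∈ S) = decide (x ∈ S)) ↔ _
  simp only [decide_eq_decide]

theorem card_stabS (S : Finset α) :
    Nat.card (stabS S) = S.card.factorial * (Fintype.card α - S.card).factorial := by
  unfold stabS
  rw [card_W0, Fintype.prod_bool]
  have h1 : Fintype.card {a // decide (a ∈ S) = true} = S.card := by
    rw [← Fintype.card_coe S]
    apply Fintype.card_congr
    exact Equiv.subtypeEquivRight (fun a => by simp)
  have h2 : Fintype.card {a // decide (a ∈ S) = false} = Fintype.card α - S.card := by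
    rw [← card_compl S]
    apply Fintype.card_congr
    exact Equiv.subtypeEquivRight (fun a => by simp)
  rw [h1, h2]

theorem swap_mem_stabS {S : Finset α} {x y : α} (hx : x ∈ S) (hy : y ∈ S) : swap x y ∈ stabS S := by
  apply swap_mem_W0
  simp [hx, hy]

/-! ### Valuations relative to an invariant set -/

section Inv

variable (G : Subgroup (Perm α)) (S : Finset α) (h : ∀ g ∈ G, ∀ x, g x ∈ S ↔ x ∈ S)

include h in
theorem G_le_stabS : G ≤ stabS S := fun g hg => mem_stabS.mpr (h g hg)

include h in
/-- `|G|` divides `m! s!`. -/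
theorem card_dvd_mul :
    Nat.card G ∣ S.card.factorial * (Fintype.card α - S.card).factorial := by
  rw [← card_stabS]
  exact Subgroup.card_dvd_of_le (G_le_stabS G S h)

include h in
theorem two_mul_card_dvd_mul (hGA : G ≤ alternatingGroup α) (hS : 2 ≤ S.card) :
    2 * Nat.card G ∣ S.card.factorial * (Fintype.card α - S.card).factorial := by
  rw [← card_stabS]
  obtain ⟨x, hx, y, hy, hxy⟩ := Finset.one_lt_card.mp (show 1 < S.card by omega)
  exact two_mul_card_dvd_of_odd (G_le_stabS G S h) hGA (swap_mem_stabS hx hy)
    (Equiv.Perm.sign_swap hxy)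

theorem val_le_of_dvd {N : ℕ} (hN : N ≠ 0) {r : ℕ} (hr : r.Prime) (hd : Nat.card G ∣ N)
    (hd2 : G ≤ alternatingGroup α → 2 * Nat.card G ∣ N)
    (hf : Full r G ∨ (r = 2 ∧ G ≤ alternatingGroup α ∧
      (Fintype.card α).factorial.factorization 2 ≤ (Nat.card G).factorization 2 + 1)) :
    (Fintype.card α).factorial.factorization r ≤ N.factorization r := by
  rcases hf with hf | ⟨rfl, hGA, hval⟩
  · exact le_trans hf (fdvd hN hd r)
  · have h1 := fdvd hN (hd2 hGA) 2
    rw [Nat.factorization_mul (by norm_num) Nat.card_pos.ne'] at h1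
    simp only [Finsupp.add_apply] at h1
    have h22 : (2 : ℕ).factorization 2 = 1 := Nat.Prime.factorization_self Nat.prime_two
    rw [h22] at h1
    omega

include h in
/-- The key valuation inequality. -/
theorem not_dvd_choose (hS : 2 ≤ S.card) {r : ℕ} (hr : r.Prime)
    (hf : Full r G ∨ (r = 2 ∧ G ≤ alternatingGroup α ∧
      (Fintype.card α).factorial.factorization 2 ≤ (Nat.card G).factorization 2 + 1)) :
    ¬ r ∣ (S.card + (Fintype.card α - S.card)).choose (Fintype.card α - S.card) := by
  intro hrd
  have hSle : S.card ≤ Fintype.card α := Finset.card_le_univ S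
  set m := S.card with hm
  set s := Fintype.card α - m with hs
  have hn : m + s = Fintype.card α := by omega
  have h1 := val_le_of_dvd G (Nat.mul_ne_zero (Nat.factorial_ne_zero m) (Nat.factorial_ne_zero s))
    hr (card_dvd_mul G S h) (fun hGA => two_mul_card_dvd_mul G S h hGA hS) hf
  rw [← hn] at h1
  have h2 : (m + s).factorial = (m + s).choose s * s.factorial * m.factorial := by
    have := Nat.choose_mul_factorial_mul_factorial (show s ≤ m + s by omega)
    rw [Nat.add_sub_cancel] at this
    exact this.symm
  have hc : (m + s).choose s ≠ 0 := (Nat.choose_pos (by omega)).ne'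
  have h3 : 0 < ((m + s).choose s).factorization r := hr.factorization_pos_of_dvd hc hrd
  rw [h2, Nat.factorization_mul (Nat.mul_ne_zero hc (Nat.factorial_ne_zero _))
    (Nat.factorial_ne_zero _), Nat.factorization_mul hc (Nat.factorial_ne_zero _),
    Nat.factorization_mul (Nat.factorial_ne_zero _) (Nat.factorial_ne_zero _)] at h1
  simp only [Finsupp.add_apply] at h1
  omega

theorem piG_res {π : Set ℕ} (hPi : PiG π G) : PiG π (resHom G S h).range := by
  intro r hr hrd
  exact hPi r hr (hrd.trans (Subgroup.card_range_dvd _))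

theorem fac_compare (r : ℕ) : S.card.factorial.factorization r +
    (Fintype.card α - S.card).factorial.factorization r ≤
      (Fintype.card α).factorial.factorization r := by
  have hSle : S.card ≤ Fintype.card α := Finset.card_le_univ S
  have hfacdvd : S.card.factorial * (Fintype.card α - S.card).factorial ∣
      (Fintype.card α).factorial := Nat.factorial_mul_factorial_dvd_factorial hSle
  have h1 := fdvd (Nat.factorial_ne_zero _) hfacdvd r
  rw [Nat.factorization_mul (Nat.factorial_ne_zero _) (Nat.factorial_ne_zero _)] at h1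
  simpa using h1

/-- Restriction keeps the full part. -/
theorem full_restrict {r : ℕ} (hf : Full r G) : Full r (resHom G S h).range := by
  unfold Full at hf ⊢
  rw [Fintype.card_coe S]
  have hcfac : (Fintype.card α - S.card).factorial ≠ 0 := Nat.factorial_ne_zero _
  have h1 := fac_compare S r
  have h2 := fdvd (Nat.mul_ne_zero Nat.card_pos.ne' hcfac) (card_dvd_res G S h) r
  rw [Nat.factorization_mul Nat.card_pos.ne' hcfac] at h2
  simp only [Finsupp.add_apply] at h2
  omega

theorem full_restrict_semi (hGA : G ≤ alternatingGroup α)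
    (hval : (Fintype.card α).factorial.factorization 2 ≤ (Nat.card G).factorization 2 + 1)
    (hs : 2 ≤ Fintype.card α - S.card) : Full 2 (resHom G S h).range := by
  unfold Full
  rw [Fintype.card_coe S]
  have hcfac : (Fintype.card α - S.card).factorial ≠ 0 := Nat.factorial_ne_zero _
  have h1 := fac_compare S 2
  have h2 := fdvd (Nat.mul_ne_zero Nat.card_pos.ne' hcfac) (two_mul_card_dvd_res G S h hGA hs) 2
  rw [Nat.factorization_mul Nat.card_pos.ne' hcfac,
    Nat.factorization_mul (by norm_num) Nat.card_pos.ne'] at h2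
  simp only [Finsupp.add_apply] at h2
  have h22 : (2 : ℕ).factorization 2 = 1 := Nat.Prime.factorization_self Nat.prime_two
  rw [h22] at h2
  omega

theorem semi_restrict (hGA : G ≤ alternatingGroup α)
    (hval : (Fintype.card α).factorial.factorization 2 ≤ (Nat.card G).factorization 2 + 1)
    (hs : Fintype.card α - S.card ≤ 1) :
    (resHom G S h).range ≤ alternatingGroup {x // x ∈ S} ∧
    (Fintype.card {x // x ∈ S}).factorial.factorization 2 ≤
      (Nat.card (resHom G S h).range).factorization 2 + 1 := by
  have hsub : Subsingleton {x // x ∉ S} := by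
    rw [← Fintype.card_le_one_iff_subsingleton, card_compl]
    exact hs
  constructor
  · rintro _ ⟨g, rfl⟩
    rw [Equiv.Perm.mem_alternatingGroup]
    have h1 := sign_res G S h g
    have h2 : resHomC G S h g = 1 := Equiv.ext (fun x => Subsingleton.elim _ _)
    rw [h2, map_one, mul_one] at h1
    rw [h1]
    exact Equiv.Perm.mem_alternatingGroup.mp (hGA g.2)
  · rw [Fintype.card_coe S]
    have hcard : Nat.card G = Nat.card (resHom G S h).range := by
      apply Nat.dvd_antisymm
      · have h2 := card_dvd_res G S h
        have h3 : (Fintype.card α - S.card).factorial = 1 := by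
          have : Fintype.card α - S.card = 0 ∨ Fintype.card α - S.card = 1 := by omega
          rcases this with h4 | h4 <;> rw [h4] <;> rfl
        rwa [h3, mul_one] at h2
      · exact Subgroup.card_range_dvd _
    rw [← hcard]
    have h1 := fac_compare S 2
    omega

end Inv

section Carry

theorem multi_carry {ι : Type*} [DecidableEq ι] (T : Finset ι) (m : ι → ℕ) {e : ℕ} (he : 1 ≤ e)
    (hm : ∀ i ∈ T, m i < 2 ^ e) :
    (∑ i ∈ T, ((m i).factorial).factorization 2) + (if 2 ^ e ≤ ∑ i ∈ T, m i then 1 else 0) ≤
      ((∑ i ∈ T, m i).factorial).factorization 2 := by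
  have hF : Fact (Nat.Prime 2) := ⟨Nat.prime_two⟩
  induction T using Finset.induction_on with
  | empty =>
    have : ¬ 2 ^ e ≤ 0 := by
      have := Nat.two_pow_pos e
      omega
    simp [this]
  | insert i T hi ih =>
    have ih' := ih (fun j hj => hm j (Finset.mem_insert_of_mem hj))
    rw [Finset.sum_insert hi, Finset.sum_insert hi]
    set A := ∑ i ∈ T, m i with hA
    have hmi : m i < 2 ^ e := hm i (Finset.mem_insert_self i T)
    have hfac : (m i + A).factorial = (m i + A).choose (m i) * (m i).factorial * A.factorial := by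
      have := Nat.choose_mul_factorial_mul_factorial (show m i ≤ m i + A by omega)
      rw [Nat.add_sub_cancel_left] at this
      exact this.symm
    have hc : (m i + A).choose (m i) ≠ 0 := (Nat.choose_pos (by omega)).ne'
    have hval : ((m i + A).factorial).factorization 2 =
        ((m i + A).choose (m i)).factorization 2 + ((m i).factorial).factorization 2 +
          (A.factorial).factorization 2 := by
      rw [hfac, Nat.factorization_mul (Nat.mul_ne_zero hc (Nat.factorial_ne_zero _))
        (Nat.factorial_ne_zero _), Nat.factorization_mul hc (Nat.factorial_ne_zero _)]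
      rfl
    rw [hval]
    by_cases h1 : 2 ^ e ≤ A
    · rw [if_pos h1] at ih'
      rw [if_pos (show 2 ^ e ≤ m i + A by omega)]
      omega
    · rw [if_neg h1] at ih'
      by_cases h2 : 2 ^ e ≤ m i + A
      · rw [if_pos h2]
        have hcarry : 2 ∣ (m i + A).choose (m i) := by
          apply dvd_choose_of_carry he
          rw [Nat.mod_eq_of_lt hmi, Nat.mod_eq_of_lt (by omega)]
          exact h2
        have : 0 < ((m i + A).choose (m i)).factorization 2 :=
          Nat.prime_two.factorization_pos_of_dvd hc hcarry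
        omega
      · rw [if_neg h2]
        omega

theorem exists_big_orbit (G : Subgroup (Perm α)) (hn : 4 ≤ Fintype.card α)
    (hf : Full 2 G ∨ (G ≤ alternatingGroup α ∧
      (Fintype.card α).factorial.factorization 2 ≤ (Nat.card G).factorization 2 + 1)) :
    ∃ x : α, Fintype.card α < 2 * (orbit G x).ncard := by
  classical
  by_contra hcon
  push Not at hcon
  have hY : Fintype (orbitRel.Quotient G α) := Fintype.ofFinite _
  let f : α → orbitRel.Quotient G α := Quotient.mk''
  have hfeq : ∀ a b, f a = f b ↔ a ∈ orbit G b := by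
    intro a b
    change Quotient.mk'' a = Quotient.mk'' b ↔ _
    rw [Quotient.eq'']
    exact orbitRel_apply
  have hfiber : ∀ x, Fintype.card {a // f a = f x} = (orbit G x).ncard := by
    intro x
    rw [← Nat.card_eq_fintype_card, ← Nat.card_coe_set_eq]
    apply Nat.card_congr
    exact Equiv.subtypeEquivRight (fun a => hfeq a x)
  have hGW : G ≤ W0 f := by
    intro g hg x
    rw [hfeq]
    exact ⟨⟨g, hg⟩, rfl⟩
  set n := Fintype.card α with hndef
  set e := Nat.log 2 n with he
  have he1 : 2 ^ e ≤ n := Nat.pow_log_le_self 2 (by omega)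
  have he2 : n < 2 ^ (e + 1) := Nat.lt_pow_succ_log_self (by norm_num) n
  have he0 : 1 ≤ e := by
    rw [he]
    exact Nat.log_pos (by norm_num) (by omega)
  have hlt : ∀ y, Fintype.card {a // f a = y} < 2 ^ e := by
    intro y
    obtain ⟨x, rfl⟩ : ∃ x, f x = y := Quotient.exists_rep y
    rw [hfiber]
    have h1 := hcon x
    rw [pow_succ] at he2
    omega
  have hsum : ∑ y, Fintype.card {a // f a = y} = n := by
    rw [hndef, ← Fintype.card_sigma]
    exact Fintype.card_congr (Equiv.sigmaFiberEquiv f)
  have hmc := multi_carry Finset.univ (fun y => Fintype.card {a // f a = y}) he0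
    (fun y _ => hlt y)
  simp only [hsum, if_pos he1] at hmc
  have hW : (Nat.card (W0 f)).factorization 2 =
      ∑ y, ((Fintype.card {a // f a = y}).factorial).factorization 2 := by
    rw [card_W0, Nat.factorization_prod (fun _ _ => Nat.factorial_ne_zero _)]
    simp
  have hWne : Nat.card (W0 f) ≠ 0 := Nat.card_pos.ne'
  rcases hf with hf | ⟨hGA, hval⟩
  · have h1 := fdvd hWne (Subgroup.card_dvd_of_le hGW) 2
    unfold Full at hf
    rw [← hndef] at hf
    omega
  · by_cases hnon : ∃ x y, x ≠ y ∧ f x = f y
    · obtain ⟨x, y, hxy, hfxy⟩ := hnon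
      have h2 := two_mul_card_dvd_of_odd hGW hGA (swap_mem_W0 hfxy) (Equiv.Perm.sign_swap hxy)
      have h1 := fdvd hWne h2 2
      rw [Nat.factorization_mul (by norm_num) Nat.card_pos.ne'] at h1
      simp only [Finsupp.add_apply] at h1
      have h22 : (2 : ℕ).factorization 2 = 1 := Nat.Prime.factorization_self Nat.prime_two
      rw [h22] at h1
      omega
    · push Not at hnon
      have hbot : G = ⊥ := by
        rw [eq_bot_iff]
        intro g hg
        rw [Subgroup.mem_bot]
        ext x
        by_contra hne
        exact hnon _ _ hne (hGW hg x)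
      rw [hbot] at hval
      have h1 : (Nat.card (⊥ : Subgroup (Perm α))) = 1 := Subgroup.card_bot
      rw [h1] at hval
      simp only [Nat.factorization_one, Finsupp.coe_zero, Pi.zero_apply] at hval
      have h4 : 2 ^ 2 ∣ n.factorial := by
        have : Nat.factorial 4 ∣ n.factorial := Nat.factorial_dvd_factorial hn
        exact Dvd.dvd.trans (by norm_num [Nat.factorial]) this
      have := (Nat.prime_two.pow_dvd_iff_le_factorization (Nat.factorial_ne_zero _)).mp h4
      omega

end Carry

/-! ### The main classification -/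

section Main

/-- The finset of an orbit. -/
noncomputable def orbF (G : Subgroup (Perm α)) (x : α) : Finset α :=
  (Set.toFinite (orbit G x)).toFinset

theorem mem_orbF {G : Subgroup (Perm α)} {x y : α} : y ∈ orbF G x ↔ y ∈ orbit G x :=
  Set.Finite.mem_toFinset _

theorem card_orbF (G : Subgroup (Perm α)) (x : α) : (orbF G x).card = (orbit G x).ncard := by
  rw [← Set.ncard_coe_finset]
  congr 1
  ext y
  exact mem_orbF

theorem orbF_inv (G : Subgroup (Perm α)) (x : α) : ∀ g ∈ G, ∀ y, g y ∈ orbF G x ↔ y ∈ orbF G x := by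
  intro g hg y
  rw [mem_orbF, mem_orbF]
  have h1 : g y = (⟨g, hg⟩ : G) • y := rfl
  rw [h1, ← orbit_eq_iff, orbit_smul, orbit_eq_iff]

theorem orbF_trans (G : Subgroup (Perm α)) (x : α) :
    IsPretransitive (resHom G (orbF G x) (orbF_inv G x)).range {y // y ∈ orbF G x} := by
  refine ⟨fun y z => ?_⟩
  obtain ⟨g1, hg1⟩ := mem_orbF.mp y.2
  obtain ⟨g2, hg2⟩ := mem_orbF.mp z.2
  have hg1' : g1 • x = (y : α) := hg1
  have hg2' : g2 • x = (z : α) := hg2
  refine ⟨⟨resHom G (orbF G x) (orbF_inv G x) (g2 * g1⁻¹), ⟨_, rfl⟩⟩, ?_⟩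
  apply Subtype.ext
  change (g2 * g1⁻¹) • (y : α) = z
  rw [mul_smul, ← hg1', inv_smul_smul, hg2']

/-- The outcome of the main classification. -/
def Out (π : Set ℕ) (G : Subgroup (Perm α)) : Prop :=
  (∀ r s, r.Prime → s.Prime → r ≤ Fintype.card α → s ≤ Fintype.card α → r ∈ π → s ∈ π → r = s) ∨
  (∀ r, r.Prime → r ≤ Fintype.card α → r ∈ π) ∨
  ((Fintype.card α).Prime ∧ (∀ r, r.Prime → r ≤ Fintype.card α → (r ∈ π ↔ r < Fintype.card α)) ∧
    ∃ x, ∀ g ∈ G, g x = x) ∨
  (Fintype.card α = 7 ∧ (∀ r, r.Prime → r ≤ 7 → (r ∈ π ↔ r = 2 ∨ r = 3)) ∧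
    ∃ S : Finset α, S.card = 3 ∧ ∀ g ∈ G, ∀ x, g x ∈ S ↔ x ∈ S) ∨
  (Fintype.card α = 8 ∧ (∀ r, r.Prime → r ≤ 8 → (r ∈ π ↔ r = 2 ∨ r = 3)) ∧
    ∃ S : Finset α, S.card = 4 ∧ ∀ g ∈ G, (∀ x, g x ∈ S ↔ x ∈ S) ∨ (∀ x, g x ∈ S ↔ x ∉ S))

/-- **The classification of `π`-subgroups with the Hall property.** -/
theorem orbit_thm (π : Set ℕ) (G : Subgroup (Perm α)) (hPi : PiG π G) (hHP : HP π G) : Out π G := by
  classical
  by_cases ha : ∀ r s, r.Prime → s.Prime → r ≤ Fintype.card α → s ≤ Fintype.card α → r ∈ π →
      s ∈ π → r = s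
  · exact Or.inl ha
  by_cases hb : ∀ r, r.Prime → r ≤ Fintype.card α → r ∈ π
  · exact Or.inr (Or.inl hb)
  have hb' := hb
  push Not at ha hb
  obtain ⟨r, s, hr, hs, hrn, hsn, hrπ, hsπ, hrs⟩ := ha
  obtain ⟨t, ht, htn, htπ⟩ := hb
  have hn4 : 4 ≤ Fintype.card α := by
    by_contra h
    have h1 := hr.two_le
    have h2 := hs.two_le
    have h3 := ht.two_le
    have h4 : r = 2 ∨ r = 3 := by omega
    have h5 : s = 2 ∨ s = 3 := by omega
    have h6 : t = 2 ∨ t = 3 := by omega
    rcases h4 with rfl | rfl <;> rcases h5 with rfl | rfl <;> rcases h6 with rfl | rfl <;>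
      first
        | exact hrs rfl
        | exact htπ hrπ
        | exact htπ hsπ
  by_cases h2 : 2 ∈ π
  · obtain ⟨x, hx⟩ := exists_big_orbit G hn4 (hHP.2 h2)
    have hSinv := orbF_inv G x
    set S := orbF G x with hS
    have hScard : S.card = (orbit G x).ncard := card_orbF G x
    set m := S.card with hm
    rw [← hScard] at hx
    have hm3 : 3 ≤ m := by omega
    have hmn : m ≤ Fintype.card α := Finset.card_le_univ S
    by_cases hs0 : m = Fintype.card α
    · -- transitive
      have htrG : IsPretransitive G α := by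
        have huniv : ∀ y, y ∈ S := by
          have : S = Finset.univ := Finset.eq_univ_of_card S hs0
          intro y
          rw [this]
          exact Finset.mem_univ y
        refine ⟨fun y z => ?_⟩
        obtain ⟨g1, hg1⟩ := mem_orbF.mp (huniv y)
        obtain ⟨g2, hg2⟩ := mem_orbF.mp (huniv z)
        have hg1' : g1 • x = y := hg1
        have hg2' : g2 • x = z := hg2
        refine ⟨g2 * g1⁻¹, ?_⟩
        rw [mul_smul, ← hg1', inv_smul_smul, hg2']
      rcases cls_main π _ α rfl (by omega) G htrG hPi hHP with h | ⟨p, k, hp, hk, hnp, hall⟩ | h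
      · exact absurd h hb'
      · exfalso
        apply hrs
        rw [(hall r hr hrn).mp hrπ, (hall s hs hsn).mp hsπ]
      · exact Or.inr (Or.inr (Or.inr (Or.inr h)))
    -- proper
    set s' := Fintype.card α - m with hs'
    have hs1 : 1 ≤ s' := by omega
    have hsm : s' < m := by omega
    set T := (resHom G S hSinv).range with hT
    have hcardT : Fintype.card {y // y ∈ S} = m := Fintype.card_coe S
    have htrT : IsPretransitive T {y // y ∈ S} := orbF_trans G x
    have hPiT : PiG π T := piG_res G S hSinv hPi
    have hHPT : HP π T := by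
      refine ⟨fun r' hr' hr'π hr'2 => full_restrict G S hSinv (hHP.1 r' hr' hr'π hr'2), fun _ => ?_⟩
      rcases hHP.2 h2 with hf | ⟨hGA, hval⟩
      · exact Or.inl (full_restrict G S hSinv hf)
      · by_cases hs11 : s' = 1
        · exact Or.inr (semi_restrict G S hSinv hGA hval (by omega))
        · exact Or.inl (full_restrict_semi G S hSinv hGA hval (by omega))
    have hcls := cls_main π m {y // y ∈ S} hcardT (by omega) T htrT hPiT hHPT
    have hfullor : ∀ r', r'.Prime → r' ∈ π → Full r' G ∨ (r' = 2 ∧ G ≤ alternatingGroup α ∧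
        (Fintype.card α).factorial.factorization 2 ≤ (Nat.card G).factorization 2 + 1) := by
      intro r' hr' hr'π
      by_cases hr'2 : r' = 2
      · subst hr'2
        rcases hHP.2 hr'π with h | h
        · exact Or.inl h
        · exact Or.inr ⟨rfl, h⟩
      · exact Or.inl (hHP.1 r' hr' hr'π hr'2)
    have hnc : ∀ r', r'.Prime → r' ∈ π → ¬ r' ∣ (m + s').choose s' := fun r' hr' hr'π =>
      not_dvd_choose G S hSinv (by omega) hr' (hfullor r' hr' hr'π)
    have hnm : m + s' = Fintype.card α := by omega
    have hSc : (Sᶜ).card = s' := by rw [Finset.card_compl]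
    rcases Nat.lt_or_ge s' 2 with hs2 | hs2
    · -- `s' = 1`
      have hs11 : s' = 1 := by omega
      have hndvd : ∀ r', r'.Prime → r' ∈ π → ¬ r' ∣ Fintype.card α := by
        intro r' hr' hr'π h
        apply hnc r' hr' hr'π
        rw [hs11, Nat.choose_one_right, ← hs11, hnm]
        exact h
      rcases hcls with h | ⟨p, k, hp, hk, hmp, hall⟩ | ⟨h8, hπ8', -⟩
      · rw [hcardT] at h
        -- prime degree
        have hnp : (Fintype.card α).Prime := by
          by_contra hnp
          have hne1 : Fintype.card α ≠ 1 := by omega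
          have h1 := Nat.minFac_prime hne1
          have h3 := Nat.minFac_dvd (Fintype.card α)
          have h4 : (Fintype.card α).minFac < Fintype.card α := by
            apply lt_of_le_of_ne (Nat.minFac_le (by omega))
            intro h5
            exact hnp (h5 ▸ h1)
          exact hndvd _ h1 (h _ h1 (by omega)) h3
        refine Or.inr (Or.inr (Or.inl ⟨hnp, fun r' hr' hle => ⟨fun hr'π => ?_, fun hlt => ?_⟩, ?_⟩))
        · apply lt_of_le_of_ne hle
          intro heq
          exact hndvd r' hr' hr'π (heq ▸ dvd_refl _)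
        · exact h r' hr' (by omega)
        · obtain ⟨x0, hx0⟩ := Finset.card_eq_one.mp (hSc.trans hs11)
          refine ⟨x0, fun g hg => ?_⟩
          have hx0S : x0 ∉ S := by
            have : x0 ∈ Sᶜ := by rw [hx0]; exact Finset.mem_singleton_self x0
            exact Finset.mem_compl.mp this
          have hgS : g x0 ∉ S := fun hh => hx0S ((hSinv g hg x0).mp hh)
          have : g x0 ∈ Sᶜ := Finset.mem_compl.mpr hgS
          rw [hx0] at this
          exact Finset.mem_singleton.mp this
      · exfalso
        rw [hcardT] at hall hmp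
        have hp2 : p = 2 := ((hall 2 Nat.prime_two (by omega)).mp h2).symm
        have hkey : ∀ r', r'.Prime → r' ≤ Fintype.card α → r' ∈ π → r' = 2 := by
          intro r' hr' hle hr'π
          by_cases heq : r' = Fintype.card α
          · exact absurd (heq ▸ dvd_refl _) (hndvd r' hr' hr'π)
          · rw [(hall r' hr' (by omega)).mp hr'π, hp2]
        exact hrs ((hkey r hr hrn hrπ).trans (hkey s hs hsn hsπ).symm)
      · exfalso
        rw [hcardT] at h8
        have h3 : (3 : ℕ) ∈ π := (hπ8' 3 Nat.prime_three (by norm_num)).mpr (Or.inr rfl)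
        apply hndvd 3 Nat.prime_three h3
        rw [← hnm, h8, hs11]
        norm_num
    · -- `s' ≥ 2`
      rcases hcls with h | ⟨p, k, hp, hk, hmp, hall⟩ | ⟨h8, hπ8, -⟩
      · rw [hcardT] at h
        have hstar := star hs2 hsm.le (fun r' hr' hle => by
          rw [add_comm]
          exact hnc r' hr' (h r' hr' hle))
        obtain ⟨hs3, hm4⟩ := hstar
        have hn7 : Fintype.card α = 7 := by omega
        have hc35 : (m + s').choose s' = 35 := by rw [hs3, hm4]; rfl
        refine Or.inr (Or.inr (Or.inr (Or.inl ⟨hn7, fun r' hr' hle => ⟨fun hr'π => ?_, ?_⟩, Sᶜ,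
          hSc.trans hs3, fun g hg y => ?_⟩)))
        · have hnd := hnc r' hr' hr'π
          rw [hc35] at hnd
          have h1 := hr'.two_le
          have h2 : r' = 2 ∨ r' = 3 ∨ r' = 4 ∨ r' = 5 ∨ r' = 6 ∨ r' = 7 := by omega
          rcases h2 with rfl | rfl | rfl | rfl | rfl | rfl
          · exact Or.inl rfl
          · exact Or.inr rfl
          · norm_num at hr'
          · exact absurd (by norm_num) hnd
          · norm_num at hr'
          · exact absurd (by norm_num) hnd
        · rintro (rfl | rfl)
          · exact h2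
          · exact h 3 Nat.prime_three (by omega)
        · rw [Finset.mem_compl, Finset.mem_compl]
          exact not_congr (hSinv g hg y)
      · exfalso
        rw [hcardT] at hall hmp
        have hp2 : p = 2 := ((hall 2 Nat.prime_two (by omega)).mp h2).symm
        have hkey : ∀ r', r'.Prime → r' ≤ Fintype.card α → r' ∈ π → r' = 2 := by
          intro r' hr' hle hr'π
          by_cases hle' : r' ≤ m
          · rw [(hall r' hr' hle').mp hr'π, hp2]
          · exfalso
            apply hnc r' hr' hr'π
            have := Nat.Prime.dvd_choose_add hr' (show s' < r' by omega) (show m < r' by omega)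
              (by omega)
            rwa [add_comm] at this
        exact hrs ((hkey r hr hrn hrπ).trans (hkey s hs hsn hsπ).symm)
      · exfalso
        rw [hcardT] at h8
        have h3 : (3 : ℕ) ∈ π := (hπ8 3 Nat.prime_three (by norm_num)).mpr (Or.inr rfl)
        apply hnc 3 Nat.prime_three h3
        rw [h8]
        have hs7 : s' ≤ 7 := by omega
        interval_cases s' <;> decide
  · exfalso
    have key : ∀ r s, r.Prime → s.Prime → r < s → s ≤ Fintype.card α → r ∈ π → s ∈ π → False := by
      intro r s hr hs hrs hsn hrπ hsπ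
      have hs2 : s ≠ 2 := fun h => h2 (h ▸ hsπ)
      obtain ⟨c, hc, hcyc, hsupp⟩ := cycle_mem G hs (hHP.1 s hs hsπ hs2) hsn
      have hne : c.support.Nonempty := by
        rw [← Finset.card_pos, hsupp]
        exact hs.pos
      obtain ⟨x, hx⟩ := hne
      have hSinv := orbF_inv G x
      set S := orbF G x with hS
      have hsub : c.support ⊆ S := by
        intro y hy
        obtain ⟨i, hi⟩ := hcyc.exists_pow_eq (Equiv.Perm.mem_support.mp hx)
          (Equiv.Perm.mem_support.mp hy)
        rw [hS, mem_orbF]
        exact ⟨(⟨c, hc⟩ : G) ^ i, hi⟩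
      have hm : s ≤ S.card := by
        rw [← hsupp]
        exact Finset.card_le_card hsub
      set T := (resHom G S hSinv).range with hT
      have hcardT : Fintype.card {y // y ∈ S} = S.card := Fintype.card_coe S
      have htrT : IsPretransitive T {y // y ∈ S} := orbF_trans G x
      have hPiT : PiG π T := piG_res G S hSinv hPi
      have hHPT : HP π T :=
        ⟨fun r' hr' hr'π hr'2 => full_restrict G S hSinv (hHP.1 r' hr' hr'π hr'2),
          fun h => absurd h h2⟩
      have hs2' := hs.two_le
      rcases cls_main π S.card {y // y ∈ S} hcardT (by omega) T htrT hPiT hHPT with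
        h | ⟨p, k, hp, hk, hmp, hall⟩ | ⟨h8, hπ8, -⟩
      · rw [hcardT] at h
        exact h2 (h 2 Nat.prime_two (by omega))
      · rw [hcardT] at hall
        have h1 := (hall r hr (by omega)).mp hrπ
        have h3 := (hall s hs (by omega)).mp hsπ
        omega
      · exact h2 ((hπ8 2 Nat.prime_two (by norm_num)).mpr (Or.inl rfl))
    rcases lt_or_gt_of_ne hrs with h | h
    · exact key r s hr hs h hsn hrπ hsπ
    · exact key s r hs hr h hrn hsπ hrπ

end Main

end Cfsg.Agent.Lib.HallOrbit
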