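import Mathlib
import Cfsg.Agent.Lib.HallOrbit
import Cfsg.Prelude.Def_OddOrderLocal
import Cfsg.Prelude.Def_HallClasses

set_option autoImplicit false
set_option linter.unusedSectionVars false
set_option linter.unusedVariables false

namespace Cfsg.Agent.Lib.HallFinal

open Equiv Equiv.Perm MulAction
open Cfsg.Agent.Lib.HallPerm Cfsg.Agent.Lib.HallPrim Cfsg.Agent.Lib.HallBlock
open Cfsg.Agent.Lib.HallOrbit

universe u

section General

variable {X : Type*} [Group X] [Finite X] {π : Set ℕ}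

theorem card_eq_mul_relIndex {P Q : Subgroup X} (h : P ≤ Q) :
    Nat.card Q = Nat.card P * P.relIndex Q := by
  have h1 := Subgroup.card_mul_index (P.subgroupOf Q)
  have h2 : Nat.card (P.subgroupOf Q) = Nat.card P :=
    Nat.card_congr (Subgroup.subgroupOfEquivOfLe h).toEquiv
  rw [h2] at h1
  exact h1.symm

/-- The index in a normal subgroup divides the index. -/
theorem index_dvd_of_normal (A H : Subgroup X) [A.Normal] : H.relIndex A ∣ H.index := by
  have h1 := card_eq_mul_relIndex (inf_le_right : H ⊓ A ≤ A)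
  have h2 := card_eq_mul_relIndex (inf_le_left : H ⊓ A ≤ H)
  have h3 := card_eq_mul_relIndex (le_sup_right : A ≤ H ⊔ A)
  have h4 := card_eq_mul_relIndex (le_sup_left : H ≤ H ⊔ A)
  rw [Subgroup.inf_relIndex_right] at h1
  rw [Subgroup.inf_relIndex_left] at h2
  rw [Subgroup.relIndex_sup_right] at h3
  have hne1 : Nat.card (H ⊓ A : Subgroup X) ≠ 0 := Nat.card_pos.ne'
  have hne2 : A.relIndex H ≠ 0 := by
    intro h0
    rw [h0, mul_zero] at h2
    exact Nat.card_pos.ne' h2
  have h5 : H.relIndex A = H.relIndex (H ⊔ A) := by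
    have h6 : (Nat.card (H ⊓ A : Subgroup X) * A.relIndex H) * H.relIndex A =
        (Nat.card (H ⊓ A : Subgroup X) * A.relIndex H) * H.relIndex (H ⊔ A) := by
      calc (Nat.card (H ⊓ A : Subgroup X) * A.relIndex H) * H.relIndex A
          = (Nat.card (H ⊓ A : Subgroup X) * H.relIndex A) * A.relIndex H := by ring
        _ = Nat.card A * A.relIndex H := by rw [← h1]
        _ = Nat.card (H ⊔ A : Subgroup X) := h3.symm
        _ = Nat.card H * H.relIndex (H ⊔ A) := h4
        _ = (Nat.card (H ⊓ A : Subgroup X) * A.relIndex H) * H.relIndex (H ⊔ A) := by rw [← h2]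
    exact Nat.eq_of_mul_eq_mul_left (Nat.pos_of_ne_zero (Nat.mul_ne_zero hne1 hne2)) h6
  rw [h5]
  exact Subgroup.relIndex_dvd_index_of_le le_sup_left

theorem val_eq_of_hall {H : Subgroup X} (hH : Cfsg.IsPiHall π H) {r : ℕ} (hr : r.Prime)
    (hrπ : r ∈ π) : (Nat.card X).factorization r = (Nat.card H).factorization r := by
  rw [← Subgroup.card_mul_index H, Nat.factorization_mul Nat.card_pos.ne' Subgroup.index_ne_zero_of_finite]
  have : (H.index).factorization r = 0 := Nat.factorization_eq_zero_of_not_dvd (hH.2 r hr hrπ)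
  simp [this]

theorem hall_eq_of_le {G U : Subgroup X} (hG : Cfsg.IsPiHall π G) (hU : PiG π U) (hle : G ≤ U) :
    G = U := by
  apply le_antisymm hle
  rw [← Subgroup.relIndex_eq_one]
  by_contra hne
  obtain ⟨p, hp, hpd⟩ := Nat.exists_prime_and_dvd hne
  have hpπ : p ∈ π := hU p hp (hpd.trans (Subgroup.relIndex_dvd_card _ _))
  exact hG.2 p hp hpπ (hpd.trans (Subgroup.relIndex_dvd_index_of_le hle))

theorem hall_eq_top {H : Subgroup X} (hH : Cfsg.IsPiHall π H)
    (hall : ∀ p, p.Prime → p ∣ Nat.card X → p ∈ π) : H = ⊤ := by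
  rw [← Subgroup.index_eq_one]
  by_contra hne
  obtain ⟨p, hp, hpd⟩ := Nat.exists_prime_and_dvd hne
  exact hH.2 p hp (hall p hp (hpd.trans (Subgroup.index_dvd_card H))) hpd

theorem card_dvd_X (H : Subgroup X) : Nat.card H ∣ Nat.card X := Subgroup.card_subgroup_dvd_card H

theorem map_conj_of_sylow {r : ℕ} [Fact r.Prime] (P Q : Sylow r X) :
    ∃ g : X, (Q : Subgroup X) = (P : Subgroup X).map (MulAut.conj g).toMonoidHom := by
  obtain ⟨g, hg⟩ := MulAction.exists_smul_eq X P Q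
  refine ⟨g, ?_⟩
  rw [← hg, Sylow.smul_def, Sylow.pointwise_smul_def]
  rfl

theorem conj_single {H K : Subgroup X} (hH : Cfsg.IsPiHall π H) (hK : Cfsg.IsPiHall π K)
    (hs : ∀ r s, r.Prime → s.Prime → r ∈ π → s ∈ π → r ∣ Nat.card X → s ∣ Nat.card X → r = s) :
    ∃ g : X, K = H.map (MulAut.conj g).toMonoidHom := by
  by_cases hex : ∃ r, r.Prime ∧ r ∈ π ∧ r ∣ Nat.card X
  · obtain ⟨r, hr, hrπ, hrX⟩ := hex
    have hF : Fact r.Prime := ⟨hr⟩
    have hcard : ∀ L : Subgroup X, Cfsg.IsPiHall π L →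
        Nat.card L = r ^ (Nat.card X).factorization r := by
      intro L hL
      have h1 : Nat.card L = r ^ (Nat.card L).primeFactorsList.length :=
        Nat.eq_prime_pow_of_unique_prime_dvd Nat.card_pos.ne' (fun {d} hd hdv =>
          hs d r hd hr (hL.1 d hd hdv) hrπ (hdv.trans (card_dvd_X L)) hrX)
      rw [val_eq_of_hall hL hr hrπ]
      conv_lhs => rw [h1]
      congr 1
      conv_rhs => rw [h1, Nat.factorization_pow]
      simp [hr.factorization_self]
    obtain ⟨g, hg⟩ := map_conj_of_sylow (Sylow.ofCard H (hcard H hH)) (Sylow.ofCard K (hcard K hK))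
    rw [Sylow.coe_ofCard, Sylow.coe_ofCard] at hg
    exact ⟨g, hg⟩
  · push Not at hex
    have hbot : ∀ L : Subgroup X, Cfsg.IsPiHall π L → L = ⊥ := by
      intro L hL
      rw [← Subgroup.card_eq_one]
      by_contra hne
      obtain ⟨p, hp, hpd⟩ := Nat.exists_prime_and_dvd hne
      exact hex p hp (hL.1 p hp hpd) (hpd.trans (card_dvd_X L))
    refine ⟨1, ?_⟩
    rw [hbot H hH, hbot K hK, Subgroup.map_bot]

end General

section Stabs

variable {α : Type u} [Fintype α] [DecidableEq α]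

/-- The stabilizer of the partition `{S, Sᶜ}`. -/
def stabV (S : Finset α) : Subgroup (Perm α) where
  carrier := {g | (∀ x, g x ∈ S ↔ x ∈ S) ∨ (∀ x, g x ∈ S ↔ x ∉ S)}
  mul_mem' := by
    intro a b ha hb
    rcases ha with ha | ha <;> rcases hb with hb | hb
    · left; intro x; simp only [Equiv.Perm.mul_apply]; rw [ha, hb]
    · right; intro x; simp only [Equiv.Perm.mul_apply]; rw [ha, hb]
    · right; intro x; simp only [Equiv.Perm.mul_apply]; rw [ha, hb]
    · left; intro x; simp only [Equiv.Perm.mul_apply]; rw [ha, hb, not_not]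
  one_mem' := Or.inl (fun _ => Iff.rfl)
  inv_mem' := by
    intro a ha
    rcases ha with ha | ha
    · left
      intro x
      have := ha (a⁻¹ x)
      have h2 : a (a⁻¹ x) = x := by simp
      rw [h2] at this
      exact this.symm
    · right
      intro x
      have := ha (a⁻¹ x)
      have h2 : a (a⁻¹ x) = x := by simp
      rw [h2] at this
      constructor
      · intro h3 h4
        exact (this.mp h4) h3
      · intro h3
        by_contra h4
        exact h3 (this.mpr h4)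

theorem mem_stabV {S : Finset α} {g : Perm α} :
    g ∈ stabV S ↔ (∀ x, g x ∈ S ↔ x ∈ S) ∨ (∀ x, g x ∈ S ↔ x ∉ S) := Iff.rfl

theorem stabS_le_stabV (S : Finset α) : stabS S ≤ stabV S := fun _ hg =>
  Or.inl (mem_stabS.mp hg)

theorem exists_swap_sides (S : Finset α) (h : S.card * 2 = Fintype.card α) :
    ∃ τ : Perm α, ∀ x, τ x ∈ S ↔ x ∉ S := by
  classical
  have hc : Fintype.card {x // x ∈ S} = Fintype.card {x // x ∉ S} := by
    rw [card_compl, Fintype.card_coe]
    omega
  let e : {x // x ∈ S} ≃ {x // x ∉ S} := Fintype.equivOfCardEq hc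
  refine ⟨e.extendSubtype, fun x => ?_⟩
  by_cases hx : x ∈ S
  · have h1 := e.extendSubtype_mem x hx
    exact ⟨fun h2 => absurd h2 h1, fun h2 => absurd hx h2⟩
  · have h1 := e.extendSubtype_not_mem x hx
    exact ⟨fun _ => hx, fun _ => not_not.mp h1⟩

theorem exists_map_sets {S S' : Finset α} (h : S.card = S'.card) :
    ∃ g : Perm α, ∀ x, g x ∈ S' ↔ x ∈ S := by
  classical
  have hc : Fintype.card {x // x ∈ S} = Fintype.card {x // x ∈ S'} := by
    rw [Fintype.card_coe, Fintype.card_coe, h]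
  let e : {x // x ∈ S} ≃ {x // x ∈ S'} := Fintype.equivOfCardEq hc
  refine ⟨e.extendSubtype, fun x => ?_⟩
  by_cases hx : x ∈ S
  · exact ⟨fun _ => hx, fun _ => e.extendSubtype_mem x hx⟩
  · exact ⟨fun h2 => absurd h2 (e.extendSubtype_not_mem x hx), fun h2 => absurd h2 hx⟩

theorem stabS_conj {g : Perm α} {S S' : Finset α} (hg : ∀ x, g x ∈ S' ↔ x ∈ S) :
    stabS S' = (stabS S).map (MulAut.conj g).toMonoidHom := by
  ext h
  rw [Subgroup.mem_map_equiv, MulAut.conj_symm_apply, mem_stabS, mem_stabS]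
  simp only [Equiv.Perm.mul_apply]
  constructor
  · intro hh x
    have h1 := hg x
    have h2 := hg (g⁻¹ (h (g x)))
    have h3 : g (g⁻¹ (h (g x))) = h (g x) := by simp
    rw [h3] at h2
    rw [← h2, hh, h1]
  · intro hh x
    have h0 := hh (g⁻¹ x)
    have h3 : g (g⁻¹ x) = x := by simp
    rw [h3] at h0
    have h2 := hg (g⁻¹ (h x))
    have h4 : g (g⁻¹ (h x)) = h x := by simp
    rw [h4] at h2
    have h5 := hg (g⁻¹ x)
    rw [h3] at h5
    rw [h2, h0, h5]

theorem stabV_conj {g : Perm α} {S S' : Finset α} (hg : ∀ x, g x ∈ S' ↔ x ∈ S) :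
    stabV S' = (stabV S).map (MulAut.conj g).toMonoidHom := by
  ext h
  rw [Subgroup.mem_map_equiv, MulAut.conj_symm_apply, mem_stabV, mem_stabV]
  simp only [Equiv.Perm.mul_apply]
  have hg' : ∀ x, g⁻¹ x ∈ S ↔ x ∈ S' := by
    intro x
    have := hg (g⁻¹ x)
    have h3 : g (g⁻¹ x) = x := by simp
    rw [h3] at this
    exact this.symm
  constructor
  · rintro (hh | hh)
    · left
      intro x
      rw [hg', hh, hg]
    · right
      intro x
      rw [hg', hh, hg]
  · rintro (hh | hh)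
    · left
      intro x
      have h0 := hh (g⁻¹ x)
      have h3 : g (g⁻¹ x) = x := by simp
      rw [h3, hg', hg'] at h0
      exact h0
    · right
      intro x
      have h0 := hh (g⁻¹ x)
      have h3 : g (g⁻¹ x) = x := by simp
      rw [h3, hg', hg'] at h0
      exact h0

theorem card_stabV (S : Finset α) (h : S.card * 2 = Fintype.card α) (hS : 0 < S.card) :
    Nat.card (stabV S) = 2 * Nat.card (stabS S) := by
  obtain ⟨τ, hτ⟩ := exists_swap_sides S h
  have hτV : τ ∈ stabV S := Or.inr hτ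
  obtain ⟨x0, hx0⟩ := Finset.card_pos.mp hS
  let H : Subgroup (stabV S) := (stabS S).subgroupOf (stabV S)
  have hH : H.index = 2 := by
    rw [Subgroup.index_eq_two_iff]
    refine ⟨⟨τ, hτV⟩, fun b => ?_⟩
    have hb1 : (b : Perm α) ∈ stabS S ↔ b ∈ H := Iff.rfl
    have hb2 : (b : Perm α) * τ ∈ stabS S ↔ b * ⟨τ, hτV⟩ ∈ H := Iff.rfl
    rw [← hb1, ← hb2, mem_stabS, mem_stabS]
    simp only [Equiv.Perm.mul_apply]
    rcases b.2 with hb | hb
    · right
      refine ⟨hb, ?_⟩
      intro hcon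
      have h1 := hcon x0
      rw [hb, hτ] at h1
      exact (h1.mpr hx0) hx0
    · left
      refine ⟨?_, ?_⟩
      · intro x
        rw [hb, hτ, not_not]
      · intro hcon
        have h1 := hcon x0
        rw [hb] at h1
        exact (h1.mpr hx0) hx0
  have h1 := Subgroup.card_mul_index H
  rw [hH] at h1
  have h2 : Nat.card H = Nat.card (stabS S) :=
    Nat.card_congr (Subgroup.subgroupOfEquivOfLe (stabS_le_stabV S)).toEquiv
  rw [← h1, h2, mul_comm]

theorem hall_of_card {U : Subgroup (Perm α)} {π : Set ℕ} {c d : ℕ} (hc : Nat.card U = c)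
    (hd : c * d = (Fintype.card α).factorial) (h1 : ∀ p, p.Prime → p ∣ c → p ∈ π)
    (h2 : ∀ p, p.Prime → p ∈ π → ¬ p ∣ d) : Cfsg.IsPiHall π U := by
  have hcpos : 0 < c := by
    rw [← hc]
    exact Nat.card_pos
  have hidx : U.index = d := by
    have h3 := Subgroup.card_mul_index U
    rw [hc, Nat.card_perm, Nat.card_eq_fintype_card (α := α), ← hd] at h3
    exact Nat.eq_of_mul_eq_mul_left hcpos h3
  exact ⟨fun p hp hpd => h1 p hp (hc ▸ hpd), fun p hp hpπ => by rw [hidx]; exact h2 p hp hpπ⟩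

theorem hall_stab1 {π : Set ℕ} (hn : (Fintype.card α).Prime)
    (hπ : ∀ r, r.Prime → r ≤ Fintype.card α → (r ∈ π ↔ r < Fintype.card α)) {S : Finset α}
    (hS : S.card = 1) : Cfsg.IsPiHall π (stabS S) := by
  have hpos := hn.pos
  apply hall_of_card (c := (Fintype.card α - 1).factorial) (d := Fintype.card α)
  · rw [card_stabS, hS]
    simp
  · rw [mul_comm]
    exact Nat.mul_factorial_pred hpos.ne'
  · intro p hp hpd
    have h1 := (hp.dvd_factorial).mp hpd
    exact (hπ p hp (by omega)).mpr (by omega)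
  · intro p hp hpπ hpd
    have h1 := (Nat.prime_dvd_prime_iff_eq hp hn).mp hpd
    have h2 := (hπ p hp (by omega)).mp hpπ
    omega

theorem prime_dvd_144 {p : ℕ} (hp : p.Prime) (h : p ∣ 144) : p = 2 ∨ p = 3 := by
  have h1 : (144 : ℕ) = 2 ^ 4 * 3 ^ 2 := by norm_num
  rw [h1] at h
  rcases (Nat.Prime.dvd_mul hp).mp h with h2 | h2
  · exact Or.inl ((Nat.prime_dvd_prime_iff_eq hp Nat.prime_two).mp (hp.dvd_of_dvd_pow h2))
  · exact Or.inr ((Nat.prime_dvd_prime_iff_eq hp Nat.prime_three).mp (hp.dvd_of_dvd_pow h2))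

theorem prime_dvd_1152 {p : ℕ} (hp : p.Prime) (h : p ∣ 1152) : p = 2 ∨ p = 3 := by
  have h1 : (1152 : ℕ) = 2 ^ 7 * 3 ^ 2 := by norm_num
  rw [h1] at h
  rcases (Nat.Prime.dvd_mul hp).mp h with h2 | h2
  · exact Or.inl ((Nat.prime_dvd_prime_iff_eq hp Nat.prime_two).mp (hp.dvd_of_dvd_pow h2))
  · exact Or.inr ((Nat.prime_dvd_prime_iff_eq hp Nat.prime_three).mp (hp.dvd_of_dvd_pow h2))

theorem prime_dvd_35 {p : ℕ} (hp : p.Prime) (h : p ∣ 35) : p = 5 ∨ p = 7 := by
  have h1 : (35 : ℕ) = 5 * 7 := by norm_num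
  rw [h1] at h
  rcases (Nat.Prime.dvd_mul hp).mp h with h2 | h2
  · exact Or.inl ((Nat.prime_dvd_prime_iff_eq hp (by norm_num)).mp h2)
  · exact Or.inr ((Nat.prime_dvd_prime_iff_eq hp (by norm_num)).mp h2)

theorem hall_stab3 {π : Set ℕ} (hn : Fintype.card α = 7)
    (hπ : ∀ r, r.Prime → r ≤ 7 → (r ∈ π ↔ r = 2 ∨ r = 3)) {S : Finset α}
    (hS : S.card = 3) : Cfsg.IsPiHall π (stabS S) := by
  apply hall_of_card (c := 144) (d := 35)
  · rw [card_stabS, hS, hn]
    rfl
  · rw [hn]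
    rfl
  · intro p hp hpd
    have h1 := prime_dvd_144 hp hpd
    exact (hπ p hp (by omega)).mpr h1
  · intro p hp hpπ hpd
    have h1 := prime_dvd_35 hp hpd
    have h2 := (hπ p hp (by omega)).mp hpπ
    omega

theorem hall_stabV {π : Set ℕ} (hn : Fintype.card α = 8)
    (hπ : ∀ r, r.Prime → r ≤ 8 → (r ∈ π ↔ r = 2 ∨ r = 3)) {S : Finset α}
    (hS : S.card = 4) : Cfsg.IsPiHall π (stabV S) := by
  apply hall_of_card (c := 1152) (d := 35)
  · rw [card_stabV S (by omega) (by omega), card_stabS, hS, hn]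
    rfl
  · rw [hn]
    rfl
  · intro p hp hpd
    have h1 := prime_dvd_1152 hp hpd
    exact (hπ p hp (by omega)).mpr h1
  · intro p hp hpπ hpd
    have h1 := prime_dvd_35 hp hpd
    have h2 := (hπ p hp (by omega)).mp hpπ
    omega

theorem exists_card_finset {k : ℕ} (h : k ≤ Fintype.card α) : ∃ S : Finset α, S.card = k := by
  obtain ⟨S, -, hS⟩ := Finset.exists_subset_card_eq (s := (Finset.univ : Finset α)) (n := k)
    (by simpa using h)
  exact ⟨S, hS⟩

theorem swap_mem_stabS_compl {S : Finset α} {x y : α} (hx : x ∉ S) (hy : y ∉ S) :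
    swap x y ∈ stabS S := by
  apply swap_mem_W0
  simp [hx, hy]

/-- A subgroup with the Hall property lies in a Hall subgroup of the symmetric group. -/
theorem cover (π : Set ℕ) (G : Subgroup (Perm α)) (hPi : PiG π G) (hHP : HP π G) :
    ∃ U, Cfsg.IsPiHall π U ∧ G ≤ U := by
  have hcardP : Nat.card (Perm α) = (Fintype.card α).factorial := by
    rw [Nat.card_perm, Nat.card_eq_fintype_card]
  rcases orbit_thm π G hPi hHP with ha | hb | ⟨hn, hπ, x, hx⟩ | ⟨hn, hπ, S, hS, hG⟩ | ⟨hn, hπ, S, hS, hG⟩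
  · by_cases hex : ∃ r, r.Prime ∧ r ≤ Fintype.card α ∧ r ∈ π
    · obtain ⟨r, hr, hrn, hrπ⟩ := hex
      have hF : Fact r.Prime := ⟨hr⟩
      have hGp : IsPGroup r G := by
        apply isPGroup_of_primes
        intro d hd hdv
        exact ha d r hd hr (le_of_dvd_card G hd hdv) hrn (hPi d hd hdv) hrπ
      obtain ⟨P, hP⟩ := hGp.exists_le_sylow
      refine ⟨P, ⟨fun p hp hpd => ?_, fun p hp hpπ hpd => ?_⟩, hP⟩
      · have h1 : p = r := by
          have hc := P.card_eq_multiplicity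
          rw [hc] at hpd
          exact (Nat.prime_dvd_prime_iff_eq hp hr).mp (hp.dvd_of_dvd_pow hpd)
        rw [h1]
        exact hrπ
      · have h1 : p ∣ (Fintype.card α).factorial := by
          rw [← hcardP]
          exact hpd.trans (Subgroup.index_dvd_card _)
        have h2 := (hp.dvd_factorial).mp h1
        have h3 := ha p r hp hr h2 hrn hpπ hrπ
        rw [h3] at hpd
        exact P.not_dvd_index hpd
    · push Not at hex
      refine ⟨⊥, ⟨fun p hp hpd => ?_, fun p hp hpπ hpd => ?_⟩, ?_⟩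
      · rw [Subgroup.card_bot] at hpd
        exact absurd (Nat.dvd_one.mp hpd) hp.one_lt.ne'
      · rw [Subgroup.index_bot, hcardP, hp.dvd_factorial] at hpd
        exact hex p hp hpd hpπ
      · rw [le_bot_iff, ← Subgroup.card_eq_one]
        by_contra hne
        obtain ⟨p, hp, hpd⟩ := Nat.exists_prime_and_dvd hne
        exact hex p hp (le_of_dvd_card G hp hpd) (hPi p hp hpd)
  · refine ⟨⊤, ⟨fun p hp hpd => ?_, fun p hp hpπ hpd => ?_⟩, le_top⟩
    · rw [Subgroup.card_top, hcardP, hp.dvd_factorial] at hpd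
      exact hb p hp hpd
    · rw [Subgroup.index_top] at hpd
      exact absurd (Nat.dvd_one.mp hpd) hp.one_lt.ne'
  · refine ⟨stabS {x}, hall_stab1 hn hπ (Finset.card_singleton x), fun g hg => ?_⟩
    rw [mem_stabS]
    intro y
    simp only [Finset.mem_singleton]
    constructor
    · intro h
      apply g.injective
      rw [h, hx g hg]
    · rintro rfl
      exact hx g hg
  · exact ⟨stabS S, hall_stab3 hn hπ hS, fun g hg => mem_stabS.mpr (hG g hg)⟩
  · exact ⟨stabV S, hall_stabV hn hπ hS, fun g hg => hG g hg⟩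

end Stabs


section Conv

variable {α : Type u} [Fintype α] [DecidableEq α]

theorem piG_hp_of_hall {π : Set ℕ} {H : Subgroup (Perm α)} (hH : Cfsg.IsPiHall π H) :
    PiG π H ∧ HP π H := by
  have hfull : ∀ r, r.Prime → r ∈ π → Full r H := by
    intro r hr hrπ
    unfold Full
    have := val_eq_of_hall hH hr hrπ
    rw [Nat.card_perm, Nat.card_eq_fintype_card (α := α)] at this
    exact this.le
  exact ⟨hH.1, fun r hr hrπ _ => hfull r hr hrπ, fun h2 => Or.inl (hfull 2 Nat.prime_two h2)⟩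

/-- The statement for the symmetric group. -/
theorem e_iff_S {π : Set ℕ}
    (h2 : ∃ r s : ℕ, r.Prime ∧ s.Prime ∧ r ≠ s ∧ r ∈ π ∧ s ∈ π ∧ r ≤ Fintype.card α ∧ s ≤ Fintype.card α)
    (hns : ∃ r : ℕ, r.Prime ∧ r ≤ Fintype.card α ∧ r ∉ π) :
    Cfsg.IsEPiGroup π (Perm α) ↔
      (((Fintype.card α).Prime ∧ ∀ r : ℕ, r.Prime → r ≤ Fintype.card α → (r ∈ π ↔ r < Fintype.card α)) ∨
       ((Fintype.card α = 7 ∨ Fintype.card α = 8) ∧ ∀ r : ℕ, r.Prime → r ≤ Fintype.card α → (r ∈ π ↔ (r = 2 ∨ r = 3)))) := by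
  constructor
  · rintro ⟨H, hH⟩
    obtain ⟨hPi, hHP⟩ := piG_hp_of_hall hH
    rcases orbit_thm π H hPi hHP with ha | hb | ⟨hn, hπ, -⟩ | ⟨hn, hπ, -⟩ | ⟨hn, hπ, -⟩
    · exfalso
      obtain ⟨r, s, hr, hs, hrs, hrπ, hsπ, hrn, hsn⟩ := h2
      exact hrs (ha r s hr hs hrn hsn hrπ hsπ)
    · exfalso
      obtain ⟨r, hr, hrn, hrπ⟩ := hns
      exact hrπ (hb r hr hrn)
    · exact Or.inl ⟨hn, hπ⟩
    · exact Or.inr ⟨Or.inl hn, by rw [hn]; exact hπ⟩
    · exact Or.inr ⟨Or.inr hn, by rw [hn]; exact hπ⟩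
  · rintro (⟨hn, hπ⟩ | ⟨hn | hn, hπ⟩)
    · obtain ⟨S, hS⟩ := exists_card_finset (α := α) (k := 1) hn.pos
      exact ⟨_, hall_stab1 hn hπ hS⟩
    · obtain ⟨S, hS⟩ := exists_card_finset (α := α) (k := 3) (by omega)
      exact ⟨_, hall_stab3 hn (by rwa [hn] at hπ) hS⟩
    · obtain ⟨S, hS⟩ := exists_card_finset (α := α) (k := 4) (by omega)
      exact ⟨_, hall_stabV hn (by rwa [hn] at hπ) hS⟩

end Conv


end Cfsg.Agent.Lib.HallFinal
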