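import Mathlib
import Cfsg.Agent.Lib.HallFinal

set_option autoImplicit false
set_option linter.unusedSectionVars false
set_option linter.unusedVariables false

namespace Cfsg.Agent.Lib.HallFinal2

open Equiv Equiv.Perm MulAction
open Cfsg.Agent.Lib.HallPerm Cfsg.Agent.Lib.HallPrim Cfsg.Agent.Lib.HallBlock
open Cfsg.Agent.Lib.HallOrbit Cfsg.Agent.Lib.HallFinal

universe u

variable {α : Type u} [Fintype α] [DecidableEq α] {π : Set ℕ}

theorem card_subgroupOf_dvd (K A : Subgroup (Perm α)) :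
    Nat.card (K.subgroupOf A) ∣ Nat.card K := by
  let ψ : K.subgroupOf A →* K :=
    { toFun := fun x => ⟨x.1.1, x.2⟩
      map_one' := rfl
      map_mul' := fun _ _ => rfl }
  apply Subgroup.card_dvd_of_injective ψ
  intro a b hab
  apply Subtype.ext
  apply Subtype.ext
  exact congrArg (fun x : K => (x : Perm α)) hab

/-- The intersection of a Hall subgroup of the symmetric group with the alternating group is
Hall. -/
theorem res_hall {M₀ : Subgroup (Perm α)} (h : Cfsg.IsPiHall π M₀) :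
    Cfsg.IsPiHall π (M₀.subgroupOf (alternatingGroup α)) := by
  refine ⟨fun p hp hpd => h.1 p hp (hpd.trans (card_subgroupOf_dvd _ _)), fun p hp hpπ hpd => ?_⟩
  apply h.2 p hp hpπ
  exact hpd.trans (index_dvd_of_normal (alternatingGroup α) M₀)

theorem map_card (M : Subgroup (alternatingGroup α)) :
    Nat.card (M.map (alternatingGroup α).subtype) = Nat.card M :=
  Nat.card_congr (Subgroup.equivMapOfInjective _ _ (alternatingGroup α).subtype_injective).toEquiv.symm

theorem val_alt (r : ℕ) (hr : r.Prime) (hn : Nontrivial α) :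
    (Fintype.card α).factorial.factorization r =
      (2 : ℕ).factorization r + (Nat.card (alternatingGroup α)).factorization r := by
  have hcardA : 2 * Nat.card (alternatingGroup α) = (Fintype.card α).factorial := by
    rw [two_mul_nat_card_alternatingGroup, Nat.card_perm, Nat.card_eq_fintype_card]
  rw [← hcardA, Nat.factorization_mul (by norm_num) Nat.card_pos.ne']
  rfl

theorem val_trivial (r : ℕ) (hn : ¬ Nontrivial α) : (Fintype.card α).factorial.factorization r = 0 := by
  have h1 : Fintype.card α ≤ 1 := by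
    by_contra h
    exact hn (Fintype.one_lt_card_iff_nontrivial.mp (by omega))
  have h2 : (Fintype.card α).factorial = 1 := Nat.factorial_eq_one.mpr h1
  rw [h2]
  simp

/-- The image in the symmetric group of a Hall subgroup of the alternating group. -/
theorem piG_hp_of_hall_A {M : Subgroup (alternatingGroup α)} (hM : Cfsg.IsPiHall π M) :
    PiG π (M.map (alternatingGroup α).subtype) ∧ HP π (M.map (alternatingGroup α).subtype) := by
  have hc := map_card M
  refine ⟨fun p hp hpd => hM.1 p hp (hc ▸ hpd), fun r hr hrπ hr2 => ?_, fun h2 => Or.inr ⟨?_, ?_⟩⟩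
  · unfold Full
    rw [hc]
    by_cases hn : Nontrivial α
    · rw [val_alt r hr hn, val_eq_of_hall hM hr hrπ]
      have : (2 : ℕ).factorization r = 0 := by
        apply Nat.factorization_eq_zero_of_not_dvd
        intro h
        exact hr2 ((Nat.prime_dvd_prime_iff_eq hr Nat.prime_two).mp h)
      omega
    · rw [val_trivial r hn]
      omega
  · rintro _ ⟨m, -, rfl⟩
    exact m.2
  · rw [hc]
    by_cases hn : Nontrivial α
    · rw [val_alt 2 Nat.prime_two hn, val_eq_of_hall hM Nat.prime_two h2]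
      have h22 : (2 : ℕ).factorization 2 = 1 := Nat.Prime.factorization_self Nat.prime_two
      omega
    · rw [val_trivial 2 hn]
      omega

/-- A Hall subgroup of the alternating group is cut out by a Hall subgroup of the symmetric
group containing its image. -/
theorem eq_subgroupOf_of_le {M : Subgroup (alternatingGroup α)} (hM : Cfsg.IsPiHall π M)
    {U : Subgroup (Perm α)} (hU : Cfsg.IsPiHall π U)
    (hle : M.map (alternatingGroup α).subtype ≤ U) : M = U.subgroupOf (alternatingGroup α) := by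
  apply hall_eq_of_le hM
  · exact fun p hp hpd => hU.1 p hp (hpd.trans (card_subgroupOf_dvd _ _))
  · intro m hm
    rw [Subgroup.mem_subgroupOf]
    exact hle ⟨m, hm, rfl⟩

theorem exists_cover_A {M : Subgroup (alternatingGroup α)} (hM : Cfsg.IsPiHall π M) :
    ∃ U, Cfsg.IsPiHall π U ∧ M = U.subgroupOf (alternatingGroup α) := by
  obtain ⟨hPi, hHP⟩ := piG_hp_of_hall_A hM
  obtain ⟨U, hU, hle⟩ := cover π _ hPi hHP
  exact ⟨U, hU, eq_subgroupOf_of_le hM hU hle⟩

/-- The statement on Hall subgroups of the alternating group. -/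
theorem hall_A_iff (M : Subgroup (alternatingGroup α)) :
    Cfsg.IsPiHall π M ↔
      ∃ M₀ : Subgroup (Perm α), Cfsg.IsPiHall π M₀ ∧ M = M₀.subgroupOf (alternatingGroup α) := by
  constructor
  · exact exists_cover_A
  · rintro ⟨M₀, h, rfl⟩
    exact res_hall h

theorem e_S_iff_e_A : Cfsg.IsEPiGroup π (Perm α) ↔ Cfsg.IsEPiGroup π (alternatingGroup α) := by
  constructor
  · rintro ⟨H, hH⟩
    exact ⟨_, res_hall hH⟩
  · rintro ⟨M, hM⟩
    obtain ⟨U, hU, -⟩ := exists_cover_A hM
    exact ⟨U, hU⟩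

/-- Pairs of Hall-type subgroups in the non-degenerate case. -/
theorem types {H K : Subgroup (Perm α)} (hHp : PiG π H) (hHh : HP π H) (hKp : PiG π K) (hKh : HP π K)
    (ha : ¬ ∀ r s, r.Prime → s.Prime → r ≤ Fintype.card α → s ≤ Fintype.card α → r ∈ π → s ∈ π → r = s)
    (hb : ¬ ∀ r, r.Prime → r ≤ Fintype.card α → r ∈ π) :
    ∃ (U U' : Subgroup (Perm α)) (g τ : Perm α), Cfsg.IsPiHall π U ∧ Cfsg.IsPiHall π U' ∧
      H ≤ U ∧ K ≤ U' ∧ U' = U.map (MulAut.conj g).toMonoidHom ∧ τ ∈ U ∧ sign τ = -1 := by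
  have hn3 : 3 ≤ Fintype.card α := by
    by_contra h
    apply ha
    intro r s hr hs hrn hsn _ _
    have := hr.two_le
    have := hs.two_le
    omega
  rcases orbit_thm π H hHp hHh with h | h | ⟨hn, hπ, x, hx⟩ | ⟨hn, hπ, S, hS, hG⟩ | ⟨hn, hπ, S, hS, hG⟩
  · exact absurd h ha
  · exact absurd h hb
  all_goals
    rcases orbit_thm π K hKp hKh with h' | h' | ⟨hn', hπ', x', hx'⟩ | ⟨hn', hπ', S', hS', hG'⟩ |
      ⟨hn', hπ', S', hS', hG'⟩
    · exact absurd h' ha
    · exact absurd h' hb
  · -- point, point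
    obtain ⟨g, hg⟩ := exists_map_sets (S := {x}) (S' := {x'}) (by simp)
    have hF : 1 < (({x} : Finset α)ᶜ).card := by
      rw [Finset.card_compl, Finset.card_singleton]
      omega
    obtain ⟨y, hy, z, hz, hyz⟩ := Finset.one_lt_card.mp hF
    refine ⟨stabS {x}, stabS {x'}, g, swap y z, hall_stab1 hn hπ (Finset.card_singleton x),
      hall_stab1 hn hπ (Finset.card_singleton x'), ?_, ?_, stabS_conj hg,
      swap_mem_stabS_compl (Finset.mem_compl.mp hy) (Finset.mem_compl.mp hz), Equiv.Perm.sign_swap hyz⟩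
    · intro u hu
      rw [mem_stabS]
      intro y
      simp only [Finset.mem_singleton]
      constructor
      · intro h1
        apply u.injective
        rw [h1, hx u hu]
      · rintro rfl
        exact hx u hu
    · intro u hu
      rw [mem_stabS]
      intro y
      simp only [Finset.mem_singleton]
      constructor
      · intro h1
        apply u.injective
        rw [h1, hx' u hu]
      · rintro rfl
        exact hx' u hu
  · exfalso
    rw [hn'] at hπ
    have h1 := (hπ 5 (by norm_num) (by norm_num)).mpr (by norm_num)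
    have h2 := (hπ' 5 (by norm_num) (by norm_num)).mp h1
    omega
  · exfalso
    rw [hn'] at hn
    norm_num at hn
  · exfalso
    rw [hn] at hπ'
    have h1 := (hπ' 5 (by norm_num) (by norm_num)).mpr (by norm_num)
    have h2 := (hπ 5 (by norm_num) (by norm_num)).mp h1
    omega
  · -- three-sets
    obtain ⟨g, hg⟩ := exists_map_sets (S := S) (S' := S') (by omega)
    obtain ⟨y, hy, z, hz, hyz⟩ := Finset.one_lt_card.mp (show 1 < S.card by omega)
    exact ⟨stabS S, stabS S', g, swap y z, hall_stab3 hn hπ hS, hall_stab3 hn hπ hS',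
      fun u hu => mem_stabS.mpr (hG u hu), fun u hu => mem_stabS.mpr (hG' u hu), stabS_conj hg,
      swap_mem_stabS hy hz, Equiv.Perm.sign_swap hyz⟩
  · omega
  · exfalso
    rw [hn] at hn'
    norm_num at hn'
  · omega
  · -- partitions
    obtain ⟨g, hg⟩ := exists_map_sets (S := S) (S' := S') (by omega)
    obtain ⟨y, hy, z, hz, hyz⟩ := Finset.one_lt_card.mp (show 1 < S.card by omega)
    exact ⟨stabV S, stabV S', g, swap y z, hall_stabV hn hπ hS, hall_stabV hn hπ hS',
      fun u hu => hG u hu, fun u hu => hG' u hu, stabV_conj hg,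
      stabS_le_stabV S (swap_mem_stabS hy hz), Equiv.Perm.sign_swap hyz⟩

theorem prime_le_of_dvd_S {r : ℕ} (hr : r.Prime) (h : r ∣ Nat.card (Perm α)) : r ≤ Fintype.card α := by
  rwa [Nat.card_perm, Nat.card_eq_fintype_card, hr.dvd_factorial] at h

theorem prime_le_of_dvd_A {r : ℕ} (hr : r.Prime) (h : r ∣ Nat.card (alternatingGroup α)) :
    r ≤ Fintype.card α :=
  prime_le_of_dvd_S hr (h.trans (Subgroup.card_subgroup_dvd_card _))

theorem conj_S {H K : Subgroup (Perm α)} (hH : Cfsg.IsPiHall π H) (hK : Cfsg.IsPiHall π K) :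
    ∃ g : Perm α, K = H.map (MulAut.conj g).toMonoidHom := by
  by_cases ha : ∀ r s, r.Prime → s.Prime → r ≤ Fintype.card α → s ≤ Fintype.card α → r ∈ π → s ∈ π → r = s
  · exact conj_single hH hK (fun r s hr hs hrπ hsπ hrd hsd =>
      ha r s hr hs (prime_le_of_dvd_S hr hrd) (prime_le_of_dvd_S hs hsd) hrπ hsπ)
  by_cases hb : ∀ r, r.Prime → r ≤ Fintype.card α → r ∈ π
  · have hall : ∀ p, p.Prime → p ∣ Nat.card (Perm α) → p ∈ π := fun p hp hpd =>
      hb p hp (prime_le_of_dvd_S hp hpd)
    refine ⟨1, ?_⟩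
    rw [hall_eq_top hH hall, hall_eq_top hK hall]
    ext x
    simp [Subgroup.mem_map_equiv]
  obtain ⟨hHp, hHh⟩ := piG_hp_of_hall hH
  obtain ⟨hKp, hKh⟩ := piG_hp_of_hall hK
  obtain ⟨U, U', g, τ, hU, hU', hHU, hKU, hconj, -, -⟩ := types hHp hHh hKp hKh ha hb
  refine ⟨g, ?_⟩
  rw [hall_eq_of_le hH hU.1 hHU, hall_eq_of_le hK hU'.1 hKU]
  exact hconj

theorem conj_A {H K : Subgroup (alternatingGroup α)} (hH : Cfsg.IsPiHall π H)
    (hK : Cfsg.IsPiHall π K) : ∃ g : alternatingGroup α, K = H.map (MulAut.conj g).toMonoidHom := by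
  by_cases ha : ∀ r s, r.Prime → s.Prime → r ≤ Fintype.card α → s ≤ Fintype.card α → r ∈ π → s ∈ π → r = s
  · exact conj_single hH hK (fun r s hr hs hrπ hsπ hrd hsd =>
      ha r s hr hs (prime_le_of_dvd_A hr hrd) (prime_le_of_dvd_A hs hsd) hrπ hsπ)
  by_cases hb : ∀ r, r.Prime → r ≤ Fintype.card α → r ∈ π
  · have hall : ∀ p, p.Prime → p ∣ Nat.card (alternatingGroup α) → p ∈ π := fun p hp hpd =>
      hb p hp (prime_le_of_dvd_A hp hpd)
    refine ⟨1, ?_⟩
    rw [hall_eq_top hH hall, hall_eq_top hK hall]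
    ext x
    simp [Subgroup.mem_map_equiv]
  obtain ⟨hHp, hHh⟩ := piG_hp_of_hall_A hH
  obtain ⟨hKp, hKh⟩ := piG_hp_of_hall_A hK
  obtain ⟨U, U', g, τ, hU, hU', hHU, hKU, hconj, hτU, hτs⟩ := types hHp hHh hKp hKh ha hb
  have hHeq := eq_subgroupOf_of_le hH hU hHU
  have hKeq := eq_subgroupOf_of_le hK hU' hKU
  -- an even conjugator
  obtain ⟨g', hg', hconj'⟩ : ∃ g' : Perm α, sign g' = 1 ∧ U' = U.map (MulAut.conj g').toMonoidHom := by
    rcases Int.units_eq_one_or (sign g) with hs | hs
    · exact ⟨g, hs, hconj⟩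
    · refine ⟨g * τ, ?_, ?_⟩
      · rw [Equiv.Perm.sign_mul, hs, hτs]
        rfl
      · rw [hconj]
        ext y
        rw [Subgroup.mem_map_equiv, Subgroup.mem_map_equiv, MulAut.conj_symm_apply,
          MulAut.conj_symm_apply]
        have hform : (g * τ)⁻¹ * y * (g * τ) = τ⁻¹ * (g⁻¹ * y * g) * τ := by group
        rw [hform]
        constructor
        · intro h1
          exact U.mul_mem (U.mul_mem (U.inv_mem hτU) h1) hτU
        · intro h1
          have h2 := U.mul_mem (U.mul_mem hτU h1) (U.inv_mem hτU)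
          have hform2 : τ * (τ⁻¹ * (g⁻¹ * y * g) * τ) * τ⁻¹ = g⁻¹ * y * g := by group
          rwa [hform2] at h2
  refine ⟨⟨g', Equiv.Perm.mem_alternatingGroup.mpr hg'⟩, ?_⟩
  rw [hHeq, hKeq, hconj']
  ext y
  rw [Subgroup.mem_map_equiv, MulAut.conj_symm_apply, Subgroup.mem_subgroupOf,
    Subgroup.mem_subgroupOf, Subgroup.mem_map_equiv, MulAut.conj_symm_apply]
  rfl

/-- The statement on conjugacy. -/
theorem e_c_iff :
    (Cfsg.IsEPiGroup π (Perm α) ↔ Cfsg.IsCPiGroup π (Perm α)) ∧
    (Cfsg.IsEPiGroup π (Perm α) ↔ Cfsg.IsEPiGroup π (alternatingGroup α)) ∧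
    (Cfsg.IsEPiGroup π (alternatingGroup α) ↔ Cfsg.IsCPiGroup π (alternatingGroup α)) := by
  refine ⟨⟨fun h => ⟨h, fun H K hH hK => conj_S hH hK⟩, fun h => h.1⟩, e_S_iff_e_A,
    ⟨fun h => ⟨h, fun H K hH hK => conj_A hH hK⟩, fun h => h.1⟩⟩

end Cfsg.Agent.Lib.HallFinal2
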