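import Mathlib
import Cfsg.Agent.Lib.HallFinal2

set_option autoImplicit false
set_option linter.unusedSectionVars false
set_option linter.unusedVariables false

namespace Cfsg.Agent.Lib.HallKs

open Equiv Equiv.Perm
open Cfsg.Agent.Lib.HallBlock Cfsg.Agent.Lib.HallOrbit

section W

variable {α : Type*} {Y : Type*} [Fintype α] [DecidableEq α] [Fintype Y] [DecidableEq Y]

/-- The permutations preserving the fibers of a function as a partition. -/
def Wf (f : α → Y) : Subgroup (Perm α) where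
  carrier := {g | ∀ x x', f x = f x' ↔ f (g x) = f (g x')}
  mul_mem' := by
    intro a b ha hb x x'
    simp only [Equiv.Perm.mul_apply]
    rw [hb x x', ha (b x) (b x')]
  one_mem' := fun x x' => Iff.rfl
  inv_mem' := by
    intro a ha x x'
    have := ha (a⁻¹ x) (a⁻¹ x')
    have h1 : a (a⁻¹ x) = x := by simp
    have h2 : a (a⁻¹ x') = x' := by simp
    rw [h1, h2] at this
    exact this.symm

theorem mem_Wf {f : α → Y} {g : Perm α} : g ∈ Wf f ↔ ∀ x x', f x = f x' ↔ f (g x) = f (g x') :=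
  Iff.rfl

variable (f : α → Y) (hf : Function.Surjective f)

theorem sigma_inj (g : Wf f) :
    Function.Injective (fun y => f ((g : Perm α) (Function.surjInv hf y))) := by
  intro y y' h
  have h1 := ((g.2 _ _).mpr h)
  rwa [Function.surjInv_eq hf, Function.surjInv_eq hf] at h1

/-- The induced permutation. -/
noncomputable def sigmaF (g : Wf f) : Perm Y :=
  Equiv.ofBijective _ (Finite.injective_iff_bijective.mp (sigma_inj f hf g))

theorem sigmaF_apply (g : Wf f) (x : α) : sigmaF f hf g (f x) = f ((g : Perm α) x) := by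
  change f ((g : Perm α) (Function.surjInv hf (f x))) = f ((g : Perm α) x)
  exact (g.2 _ _).mp (Function.surjInv_eq hf (f x))

/-- The induced homomorphism. -/
noncomputable def phiF : Wf f →* Perm Y where
  toFun := sigmaF f hf
  map_one' := by
    ext y
    obtain ⟨x, rfl⟩ := hf y
    rw [sigmaF_apply]
    rfl
  map_mul' a b := by
    ext y
    obtain ⟨x, rfl⟩ := hf y
    rw [sigmaF_apply, Equiv.Perm.mul_apply, sigmaF_apply, sigmaF_apply]
    rfl

include hf in
theorem card_Wf_dvd : Nat.card (Wf f) ∣ Nat.card (W0 f) * (Fintype.card Y).factorial :=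
  card_dvd_equivariant (Wf f) (phiF f hf) f (fun g x => (sigmaF_apply f hf g x).symm)

end W

theorem prime_of_dvd_192 {p n : ℕ} (hp : p.Prime) (hn : n ∣ 2 ^ 7 * 3) (h : p ∣ n) : p = 2 ∨ p = 3 := by
  rcases (Nat.Prime.dvd_mul hp).mp (h.trans hn) with h2 | h2
  · exact Or.inl ((Nat.prime_dvd_prime_iff_eq hp Nat.prime_two).mp (hp.dvd_of_dvd_pow h2))
  · exact Or.inr ((Nat.prime_dvd_prime_iff_eq hp Nat.prime_three).mp h2)

/-! ### Degree seven -/

def a7 : Perm (Fin 7) := swap 0 1 * swap 1 2 * (swap 3 4 * swap 4 5)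
def v7 : Perm (Fin 7) := swap 0 3 * swap 1 4
def f7 : Fin 7 → Fin 4 := ![0, 1, 2, 0, 1, 2, 3]

theorem no_three : ∀ S : Finset (Fin 7), S.card = 3 →
    ¬ ((∀ x, a7 x ∈ S ↔ x ∈ S) ∧ (∀ x, v7 x ∈ S ↔ x ∈ S)) := by decide +kernel

theorem a7_W : a7 ∈ Wf f7 := by
  rw [mem_Wf]
  decide +kernel

theorem v7_W : v7 ∈ Wf f7 := by
  rw [mem_Wf]
  decide +kernel

theorem f7_surj : Function.Surjective f7 := by decide +kernel

theorem a7_even : a7 ∈ alternatingGroup (Fin 7) := by
  rw [Equiv.Perm.mem_alternatingGroup]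
  unfold a7
  rw [map_mul, map_mul, map_mul, sign_swap (by decide), sign_swap (by decide), sign_swap (by decide),
    sign_swap (by decide)]
  rfl

theorem v7_even : v7 ∈ alternatingGroup (Fin 7) := by
  rw [Equiv.Perm.mem_alternatingGroup]
  unfold v7
  rw [map_mul, sign_swap (by decide), sign_swap (by decide)]
  rfl

theorem card_W7 : Nat.card (Wf f7) ∣ 2 ^ 7 * 3 := by
  have h1 := card_Wf_dvd f7 f7_surj
  have h2 : Nat.card (W0 f7) = 8 := by
    rw [card_W0, Fin.prod_univ_four]
    have h3 : ∀ y : Fin 4, Fintype.card {a // f7 a = y} = if y = 3 then 1 else 2 := by decide +kernel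
    rw [h3, h3, h3, h3]
    decide +kernel
  rw [h2, Fintype.card_fin] at h1
  exact h1.trans (by norm_num [Nat.factorial])

theorem K7_props : ∃ K : Subgroup (Perm (Fin 7)), K ≤ alternatingGroup (Fin 7) ∧
    (∀ p, p.Prime → p ∣ Nat.card K → p = 2 ∨ p = 3) ∧
    ∀ S : Finset (Fin 7), S.card = 3 → ¬ ∀ g ∈ K, ∀ x, g x ∈ S ↔ x ∈ S := by
  refine ⟨Wf f7 ⊓ alternatingGroup (Fin 7), inf_le_right, fun p hp hpd => ?_, fun S hS hinv => ?_⟩
  · exact prime_of_dvd_192 hp ((Subgroup.card_dvd_of_le inf_le_left).trans card_W7) hpd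
  · exact no_three S hS ⟨hinv a7 ⟨a7_W, a7_even⟩, hinv v7 ⟨v7_W, v7_even⟩⟩

/-! ### Degree eight -/

def a8 : Perm (Fin 8) := swap 0 1 * swap 1 2 * (swap 3 4 * swap 4 5)
def v8 : Perm (Fin 8) := swap 0 3 * swap 1 4
def f8 : Fin 8 → Fin 4 := ![0, 1, 2, 0, 1, 2, 3, 3]

theorem no_four : ∀ S : Finset (Fin 8), S.card = 4 →
    ¬ (((∀ x, a8 x ∈ S ↔ x ∈ S) ∨ (∀ x, a8 x ∈ S ↔ x ∉ S)) ∧
      ((∀ x, v8 x ∈ S ↔ x ∈ S) ∨ (∀ x, v8 x ∈ S ↔ x ∉ S))) := by decide +kernel

theorem a8_W : a8 ∈ Wf f8 := by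
  rw [mem_Wf]
  decide +kernel

theorem v8_W : v8 ∈ Wf f8 := by
  rw [mem_Wf]
  decide +kernel

theorem f8_surj : Function.Surjective f8 := by decide +kernel

theorem a8_even : a8 ∈ alternatingGroup (Fin 8) := by
  rw [Equiv.Perm.mem_alternatingGroup]
  unfold a8
  rw [map_mul, map_mul, map_mul, sign_swap (by decide), sign_swap (by decide), sign_swap (by decide),
    sign_swap (by decide)]
  rfl

theorem v8_even : v8 ∈ alternatingGroup (Fin 8) := by
  rw [Equiv.Perm.mem_alternatingGroup]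
  unfold v8
  rw [map_mul, sign_swap (by decide), sign_swap (by decide)]
  rfl

theorem card_W8 : Nat.card (Wf f8) ∣ 2 ^ 7 * 3 := by
  have h1 := card_Wf_dvd f8 f8_surj
  have h2 : Nat.card (W0 f8) = 16 := by
    rw [card_W0, Fin.prod_univ_four]
    have h3 : ∀ y : Fin 4, Fintype.card {a // f8 a = y} = 2 := by decide +kernel
    rw [h3, h3, h3, h3]
    rfl
  rw [h2, Fintype.card_fin] at h1
  exact h1.trans (by norm_num [Nat.factorial])

theorem K8_props : ∃ K : Subgroup (Perm (Fin 8)), K ≤ alternatingGroup (Fin 8) ∧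
    (∀ p, p.Prime → p ∣ Nat.card K → p = 2 ∨ p = 3) ∧
    ∀ S : Finset (Fin 8), S.card = 4 →
      ¬ ∀ g ∈ K, (∀ x, g x ∈ S ↔ x ∈ S) ∨ (∀ x, g x ∈ S ↔ x ∉ S) := by
  refine ⟨Wf f8 ⊓ alternatingGroup (Fin 8), inf_le_right, fun p hp hpd => ?_, fun S hS hinv => ?_⟩
  · exact prime_of_dvd_192 hp ((Subgroup.card_dvd_of_le inf_le_left).trans card_W8) hpd
  · exact no_four S hS ⟨hinv a8 ⟨a8_W, a8_even⟩, hinv v8 ⟨v8_W, v8_even⟩⟩

/-! ### Degree five -/

def a5 : Perm (Fin 5) := swap 0 1 * swap 1 2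
def b5 : Perm (Fin 5) := swap 0 1 * swap 3 4
def S5 : Finset (Fin 5) := {0, 1, 2}

theorem a5_mem : a5 ∈ stabS S5 := by
  rw [mem_stabS]
  decide +kernel

theorem b5_mem : b5 ∈ stabS S5 := by
  rw [mem_stabS]
  decide +kernel

theorem a5_even : a5 ∈ alternatingGroup (Fin 5) := by
  rw [Equiv.Perm.mem_alternatingGroup]
  unfold a5
  rw [map_mul, sign_swap (by decide), sign_swap (by decide)]
  rfl

theorem b5_even : b5 ∈ alternatingGroup (Fin 5) := by
  rw [Equiv.Perm.mem_alternatingGroup]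
  unfold b5
  rw [map_mul, sign_swap (by decide), sign_swap (by decide)]
  rfl

theorem K5_props : ∃ K : Subgroup (Perm (Fin 5)), K ≤ alternatingGroup (Fin 5) ∧
    (∀ p, p.Prime → p ∣ Nat.card K → p = 2 ∨ p = 3) ∧ ∀ x, ∃ g ∈ K, g x ≠ x := by
  refine ⟨stabS S5 ⊓ alternatingGroup (Fin 5), inf_le_right, fun p hp hpd => ?_, fun x => ?_⟩
  · have h1 : Nat.card (stabS S5) = 12 := by
      rw [card_stabS]
      rfl
    have h2 : Nat.card (stabS S5 ⊓ alternatingGroup (Fin 5) : Subgroup (Perm (Fin 5))) ∣ 2 ^ 7 * 3 := by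
      refine (Subgroup.card_dvd_of_le inf_le_left).trans ?_
      rw [h1]
      norm_num
    exact prime_of_dvd_192 hp h2 hpd
  · have h1 : ∀ x : Fin 5, a5 x ≠ x ∨ b5 x ≠ x := by decide +kernel
    rcases h1 x with h | h
    · exact ⟨a5, ⟨a5_mem, a5_even⟩, h⟩
    · exact ⟨b5, ⟨b5_mem, b5_even⟩, h⟩

/-! ### Prime degree at least seven -/

theorem Kn_props {α : Type*} [Fintype α] [DecidableEq α] (hn : 7 ≤ Fintype.card α)
    (hodd : Fintype.card α % 2 = 1) : ∃ K : Subgroup (Perm α), K ≤ alternatingGroup α ∧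
    (∀ p, p.Prime → p ∣ Nat.card K → p < Fintype.card α) ∧ ∀ x, ∃ g ∈ K, g x ≠ x := by
  classical
  set n := Fintype.card α with hndef
  obtain ⟨g, hg⟩ : ∃ g : Perm α, g.cycleType = (2 : ℕ) ::ₘ (2 : ℕ) ::ₘ {n - 4} := by
    rw [Equiv.Perm.exists_with_cycleType_iff]
    constructor
    · simp
      omega
    · intro a ha
      simp only [Multiset.mem_cons, Multiset.mem_singleton] at ha
      omega
  have hsupp : g.support.card = n := by
    rw [← Equiv.Perm.sum_cycleType, hg]
    simp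
    omega
  have hmove : ∀ x, g x ≠ x := by
    intro x
    have huniv : g.support = Finset.univ := Finset.eq_univ_of_card _ hsupp
    have : x ∈ g.support := by rw [huniv]; exact Finset.mem_univ x
    exact Equiv.Perm.mem_support.mp this
  have hsign : sign g = 1 := by
    have hs : g.cycleType.sum + Multiset.card g.cycleType = 2 * ((n + 3) / 2) := by
      rw [Equiv.Perm.sum_cycleType, hsupp, hg]
      simp
      omega
    rw [Equiv.Perm.sign_of_cycleType, hs, pow_mul]
    simp
  have hord : orderOf g ∣ 2 * (n - 4) := by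
    rw [← Equiv.Perm.lcm_cycleType, hg]
    apply Multiset.lcm_dvd.mpr
    intro b hb
    simp only [Multiset.mem_cons, Multiset.mem_singleton] at hb
    rcases hb with rfl | rfl | rfl
    · exact dvd_mul_right _ _
    · exact dvd_mul_right _ _
    · exact dvd_mul_left _ _
  refine ⟨Subgroup.zpowers g, ?_, fun p hp hpd => ?_, fun x => ⟨g, Subgroup.mem_zpowers g, hmove x⟩⟩
  · rw [Subgroup.zpowers_le]
    exact Equiv.Perm.mem_alternatingGroup.mpr hsign
  · rw [Nat.card_zpowers] at hpd
    rcases (Nat.Prime.dvd_mul hp).mp (hpd.trans hord) with h | h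
    · have := Nat.le_of_dvd (by norm_num) h
      omega
    · have := Nat.le_of_dvd (by omega) h
      omega

section D

open Cfsg.Agent.Lib.HallPrim Cfsg.Agent.Lib.HallFinal Cfsg.Agent.Lib.HallFinal2

variable {X : Type*} [Group X] [Finite X] {π : Set ℕ}

theorem exists_maximal_above {K : Subgroup X} (hK : Cfsg.IsPiSubgroup π K) :
    ∃ M, K ≤ M ∧ Maximal (Cfsg.IsPiSubgroup π) M := by
  have hfin : Set.Finite {H : Subgroup X | Cfsg.IsPiSubgroup π H} := Set.toFinite _
  obtain ⟨M, hle, hM⟩ := hfin.exists_le_maximal hK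
  exact ⟨M, hle, hM⟩

theorem hall_of_D (hD : Cfsg.IsDPiGroup π X) {H : Subgroup X}
    (hH : Maximal (Cfsg.IsPiSubgroup π) H) : Cfsg.IsPiHall π H := by
  refine ⟨hH.prop, fun p hp hpπ hpd => ?_⟩
  have hF : Fact p.Prime := ⟨hp⟩
  let P : Sylow p X := default
  have hcardP : Nat.card P = p ^ (Nat.card X).factorization p := P.card_eq_multiplicity
  have hPpi : Cfsg.IsPiSubgroup π (P : Subgroup X) := by
    intro q hq hqd
    have hqd' : q ∣ p ^ (Nat.card X).factorization p := by
      rw [← hcardP]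
      exact hqd
    rw [(Nat.prime_dvd_prime_iff_eq hq hp).mp (hq.dvd_of_dvd_pow hqd')]
    exact hpπ
  obtain ⟨M, hPM, hM⟩ := exists_maximal_above hPpi
  obtain ⟨g, hg⟩ := hD H M hH hM
  have hcardM : Nat.card M = Nat.card H := by
    rw [hg]
    exact Nat.card_congr (Subgroup.equivMapOfInjective _ _ (MulAut.conj g).injective).toEquiv.symm
  have h1 : p ^ (Nat.card X).factorization p ∣ Nat.card H := by
    rw [← hcardM, ← hcardP]
    exact Subgroup.card_dvd_of_le hPM
  have h3 : (Nat.card X).factorization p =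
      (Nat.card H).factorization p + (H.index).factorization p := by
    rw [← Subgroup.card_mul_index H, Nat.factorization_mul Nat.card_pos.ne'
      Subgroup.index_ne_zero_of_finite]
    rfl
  have h4 : 0 < (H.index).factorization p :=
    hp.factorization_pos_of_dvd Subgroup.index_ne_zero_of_finite hpd
  have h5 := (hp.pow_dvd_iff_le_factorization Nat.card_pos.ne').mp h1
  omega

theorem D_of_single
    (hs : ∀ r s, r.Prime → s.Prime → r ∈ π → s ∈ π → r ∣ Nat.card X → s ∣ Nat.card X → r = s) :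
    Cfsg.IsDPiGroup π X := by
  intro H K hH hK
  by_cases hex : ∃ r, r.Prime ∧ r ∈ π ∧ r ∣ Nat.card X
  · obtain ⟨r, hr, hrπ, hrX⟩ := hex
    have hF : Fact r.Prime := ⟨hr⟩
    have key : ∀ L : Subgroup X, Maximal (Cfsg.IsPiSubgroup π) L → ∃ P : Sylow r X, L = P := by
      intro L hL
      have hLp : IsPGroup r L := isPGroup_of_primes (fun d hd hdv =>
        hs d r hd hr (hL.prop d hd hdv) hrπ (hdv.trans (card_dvd_X L)) hrX)
      obtain ⟨P, hP⟩ := hLp.exists_le_sylow
      have hPpi : Cfsg.IsPiSubgroup π (P : Subgroup X) := by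
        intro q hq hqd
        have hqd' : q ∣ r ^ (Nat.card X).factorization r := by
          rw [← P.card_eq_multiplicity]
          exact hqd
        rw [(Nat.prime_dvd_prime_iff_eq hq hr).mp (hq.dvd_of_dvd_pow hqd')]
        exact hrπ
      exact ⟨P, le_antisymm hP (hL.le_of_ge hPpi hP)⟩
    obtain ⟨P, rfl⟩ := key H hH
    obtain ⟨Q, rfl⟩ := key K hK
    exact map_conj_of_sylow P Q
  · push Not at hex
    have hbot : ∀ L : Subgroup X, Maximal (Cfsg.IsPiSubgroup π) L → L = ⊥ := by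
      intro L hL
      rw [← Subgroup.card_eq_one]
      by_contra hne
      obtain ⟨p, hp, hpd⟩ := Nat.exists_prime_and_dvd hne
      exact hex p hp (hL.prop p hp hpd) (hpd.trans (card_dvd_X L))
    refine ⟨1, ?_⟩
    rw [hbot H hH, hbot K hK, Subgroup.map_bot]

theorem D_of_all (hall : ∀ r, r.Prime → r ∣ Nat.card X → r ∈ π) : Cfsg.IsDPiGroup π X := by
  intro H K hH hK
  have htop : Cfsg.IsPiSubgroup π (⊤ : Subgroup X) := fun p hp hpd =>
    hall p hp (hpd.trans (card_dvd_X _))
  have key : ∀ L : Subgroup X, Maximal (Cfsg.IsPiSubgroup π) L → L = ⊤ := fun L hL =>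
    le_antisymm le_top (hL.le_of_ge htop le_top)
  refine ⟨1, ?_⟩
  rw [key H hH, key K hK]
  ext x
  simp [Subgroup.mem_map_equiv]

theorem no_dvd_bot : Cfsg.IsPiSubgroup π (⊥ : Subgroup X) := by
  intro p hp hpd
  rw [Subgroup.card_bot] at hpd
  exact absurd (Nat.dvd_one.mp hpd) hp.one_lt.ne'

/-- Maximal `π`-subgroups above a given `π`-subgroup of the symmetric group inside the alternating
group. -/
theorem exists_hall_above {α : Type*} [Fintype α] [DecidableEq α]
    (hD : Cfsg.IsDPiGroup π (alternatingGroup α)) {K : Subgroup (Perm α)}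
    (hKA : K ≤ alternatingGroup α) (hK : ∀ p, p.Prime → p ∣ Nat.card K → p ∈ π) :
    ∃ M : Subgroup (alternatingGroup α), Cfsg.IsPiHall π M ∧ K ≤ M.map (alternatingGroup α).subtype := by
  have hK' : Cfsg.IsPiSubgroup π (K.subgroupOf (alternatingGroup α)) := fun p hp hpd =>
    hK p hp (hpd.trans (card_subgroupOf_dvd _ _))
  obtain ⟨M, hle, hM⟩ := exists_maximal_above hK'
  refine ⟨M, hall_of_D hD hM, fun g hg => ?_⟩
  exact ⟨⟨g, hKA hg⟩, hle (Subgroup.mem_subgroupOf.mpr hg), rfl⟩

/-- The `D_π` statement for the alternating groups. -/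
theorem D_A_iff (n : ℕ) (hn : 5 ≤ n) :
    Cfsg.IsDPiGroup π (alternatingGroup (Fin n)) ↔
      ((∀ r s : ℕ, r.Prime → s.Prime → r ∈ π → s ∈ π → r ∣ Nat.card (alternatingGroup (Fin n)) →
          s ∣ Nat.card (alternatingGroup (Fin n)) → r = s) ∨
        ∀ r : ℕ, r.Prime → r ∣ Nat.card (alternatingGroup (Fin n)) → r ∈ π) := by
  constructor
  · intro hD
    have hle : ∀ {r : ℕ}, r.Prime → r ∣ Nat.card (alternatingGroup (Fin n)) → r ≤ n := by
      intro r hr hrd
      have := prime_le_of_dvd_A hr hrd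
      rwa [Fintype.card_fin] at this
    obtain ⟨H0, hH0, -⟩ := exists_hall_above hD (K := ⊥) bot_le (fun p hp hpd => by
      rw [Subgroup.card_bot] at hpd
      exact absurd (Nat.dvd_one.mp hpd) hp.one_lt.ne')
    obtain ⟨hp0, hh0⟩ := piG_hp_of_hall_A hH0
    have hout := orbit_thm π _ hp0 hh0
    unfold Out at hout
    rw [Fintype.card_fin] at hout
    rcases hout with ha | hb | ⟨hnp, hπ, -⟩ | ⟨h7, hπ, -⟩ | ⟨h8, hπ, -⟩
    · exact Or.inl (fun r s hr hs hrπ hsπ hrd hsd => ha r s hr hs (hle hr hrd) (hle hs hsd) hrπ hsπ)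
    · exact Or.inr (fun r hr hrd => hb r hr (hle hr hrd))
    · exfalso
      have hKex : ∃ K : Subgroup (Perm (Fin n)), K ≤ alternatingGroup (Fin n) ∧
          (∀ p, p.Prime → p ∣ Nat.card K → p < n) ∧ ∀ x, ∃ g ∈ K, g x ≠ x := by
        by_cases h5 : n = 5
        · subst h5
          obtain ⟨K, h1, h2, h3⟩ := K5_props
          refine ⟨K, h1, fun p hp hpd => ?_, h3⟩
          have := h2 p hp hpd
          omega
        · have hodd : n % 2 = 1 := hnp.eq_two_or_odd.resolve_left (by omega)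
          have h7 : 7 ≤ Fintype.card (Fin n) := by
            rw [Fintype.card_fin]
            omega
          have h := Kn_props h7 (by rw [Fintype.card_fin]; exact hodd)
          rwa [Fintype.card_fin] at h
      obtain ⟨K, hKA, hKp, hKm⟩ := hKex
      obtain ⟨M, hM, hKM⟩ := exists_hall_above hD hKA (fun p hp hpd =>
        (hπ p hp (hKp p hp hpd).le).mpr (hKp p hp hpd))
      obtain ⟨hp1, hh1⟩ := piG_hp_of_hall_A hM
      have hout1 := orbit_thm π _ hp1 hh1
      unfold Out at hout1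
      rw [Fintype.card_fin] at hout1
      have h2π : 2 ∈ π := (hπ 2 Nat.prime_two (by omega)).mpr (by omega)
      have h3π : 3 ∈ π := (hπ 3 Nat.prime_three (by omega)).mpr (by omega)
      rcases hout1 with ha | hb | ⟨-, -, x, hx⟩ | ⟨h7, hπ', -⟩ | ⟨h8, -, -⟩
      · have := ha 2 3 Nat.prime_two Nat.prime_three (by omega) (by omega) h2π h3π
        omega
      · have := (hπ n hnp le_rfl).mp (hb n hnp le_rfl)
        omega
      · obtain ⟨g, hg, hgx⟩ := hKm x
        exact hgx (hx g (hKM hg))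
      · have h5π : 5 ∈ π := (hπ 5 (by norm_num) (by omega)).mpr (by omega)
        have := (hπ' 5 (by norm_num) (by norm_num)).mp h5π
        omega
      · rw [h8] at hnp
        norm_num at hnp
    · exfalso
      subst h7
      obtain ⟨K, hKA, hKp, hKm⟩ := K7_props
      obtain ⟨M, hM, hKM⟩ := exists_hall_above hD hKA (fun p hp hpd => by
        have h1 := hKp p hp hpd
        exact (hπ p hp (by omega)).mpr h1)
      obtain ⟨hp1, hh1⟩ := piG_hp_of_hall_A hM
      have hout1 := orbit_thm π _ hp1 hh1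
      unfold Out at hout1
      rw [Fintype.card_fin] at hout1
      have h2π : 2 ∈ π := (hπ 2 Nat.prime_two (by omega)).mpr (by omega)
      have h3π : 3 ∈ π := (hπ 3 Nat.prime_three (by omega)).mpr (by omega)
      have h5π : 5 ∉ π := fun h => by
        have := (hπ 5 (by norm_num) (by norm_num)).mp h
        omega
      rcases hout1 with ha | hb | ⟨-, hπ', -⟩ | ⟨-, -, S, hS, hG⟩ | ⟨h8, -, -⟩
      · have := ha 2 3 Nat.prime_two Nat.prime_three (by omega) (by omega) h2π h3π
        omega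
      · exact h5π (hb 5 (by norm_num) (by norm_num))
      · exact h5π ((hπ' 5 (by norm_num) (by norm_num)).mpr (by norm_num))
      · exact hKm S hS (fun g hg x => hG g (hKM hg) x)
      · omega
    · exfalso
      subst h8
      obtain ⟨K, hKA, hKp, hKm⟩ := K8_props
      obtain ⟨M, hM, hKM⟩ := exists_hall_above hD hKA (fun p hp hpd => by
        have h1 := hKp p hp hpd
        exact (hπ p hp (by omega)).mpr h1)
      obtain ⟨hp1, hh1⟩ := piG_hp_of_hall_A hM
      have hout1 := orbit_thm π _ hp1 hh1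
      unfold Out at hout1
      rw [Fintype.card_fin] at hout1
      have h2π : 2 ∈ π := (hπ 2 Nat.prime_two (by omega)).mpr (by omega)
      have h3π : 3 ∈ π := (hπ 3 Nat.prime_three (by omega)).mpr (by omega)
      have h5π : 5 ∉ π := fun h => by
        have := (hπ 5 (by norm_num) (by norm_num)).mp h
        omega
      rcases hout1 with ha | hb | ⟨hnp, -, -⟩ | ⟨h7, -, -⟩ | ⟨-, -, S, hS, hG⟩
      · have := ha 2 3 Nat.prime_two Nat.prime_three (by omega) (by omega) h2π h3π
        omega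
      · exact h5π (hb 5 (by norm_num) (by norm_num))
      · norm_num at hnp
      · omega
      · exact hKm S hS (fun g hg => hG g (hKM hg))
  · rintro (h | h)
    · exact D_of_single h
    · exact D_of_all h

end D


end Cfsg.Agent.Lib.HallKs
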