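import Mathlib
import Cfsg.Agent.Lib.BlockCoverDefect
import Cfsg.Agent.Lib.BlockSecond
import Cfsg.Agent.Lib.BrauerCorr
import Cfsg.Agent.Lib.BlockNormal
import Cfsg.Agent.Lib.BlockInduced
import Cfsg.Agent.Lib.BlkBrauer
import Cfsg.Agent.Lib.GL2Char

/-!
# The Harris–Knörr theorem

`N ⊴ G`, `Q ≤ N` a `p`-subgroup, `H = N_G(Q)`, `d` a block of `N` with defect group `Q`, `e` its
Brauer correspondent in `N_N(Q)`.  Block induction is a bijection from the blocks of `H` covering `e`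
onto the blocks of `G` covering `d`.
-/

set_option autoImplicit false
set_option linter.unusedSectionVars false
set_option linter.unusedVariables false
set_option linter.style.haveILetI false

namespace Cfsg.Agent.Lib.HarrisKnorr

open Cfsg Cfsg.Agent.Lib.CharBasic Cfsg.Agent.Lib.CharInd Cfsg.Agent.Lib.CharIntegrality
open Cfsg.Agent.Lib.BlockLocal Cfsg.Agent.Lib.BlockIdem Cfsg.Agent.Lib.BlkBasic
open Cfsg.Agent.Lib.BrauerPair Cfsg.Agent.Lib.BlkNormalSub Cfsg.Agent.Lib.BlockDefect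
open Cfsg.Agent.Lib.GroupAlgNil Cfsg.Agent.Lib.FongReynolds Cfsg.Agent.Lib.BlockCover
open Cfsg.Agent.Lib.BlockQ Cfsg.Agent.Lib.BlockKnorr Cfsg.Agent.Lib.CharInduction
open Cfsg.Agent.Lib.BrauerConj Cfsg.Agent.Lib.BlockCoverDefect

universe u

section Chain

variable {G : Type u} [Group G] [Fintype G] {M : Ideal AlgInt} {p : ℕ}

theorem omega_res_congr [M.IsPrime] {H : Subgroup G} [Fintype H] {c : Set (IrrCharacter H)}
    {B : Set (IrrCharacter G)} (hind : IsInducedBlock M H c B) {ψ : IrrCharacter H} (hψ : ψ ∈ c)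
    {χ : IrrCharacter G} (hχ : χ ∈ B) {f : G → ℂ} (hf : IsClassFunction G f)
    (hR : ∀ g, MemLocalRing M (f g)) :
    MemLocalIdeal M (omega (ψ : H → ℂ) (fun h => f h) - omega (χ : G → ℂ) f) := by
  have h1 := BlockInduced.memLocalIdeal_trunc_sub H (ψ : H → ℂ) χ (hind.2.2 ψ hψ χ hχ) hf hR
  have h2 : omega (ψ : H → ℂ) (fun h => f h) =
      ∑ h : H, f (h : G) * (ψ : H → ℂ) h / (ψ : H → ℂ) 1 := by
    unfold omega
    rw [Finset.sum_div]
  rw [h2]
  exact h1

theorem omega_trunc_congr [Fact p.Prime] (hM : IsPModular p M) {Q H : Subgroup G} [Fintype H] (hQ : IsPGroup p Q)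
    (hQH : Q ≤ H) (hHN : H ≤ Subgroup.normalizer (Q : Set G)) {c : Set (IrrCharacter H)}
    {B : Set (IrrCharacter G)} (hind : IsInducedBlock M H c B) {ψ : IrrCharacter H} (hψ : ψ ∈ c)
    {χ : IrrCharacter G} (hχ : χ ∈ B) {f : G → ℂ} (hf : IsClassFunction G f)
    (hR : ∀ g, MemLocalRing M (f g)) :
    MemLocalIdeal M (omega (ψ : H → ℂ) (BlkBrauer.trunc Q H f) - omega (χ : G → ℂ) f) := by
  haveI := hM.2.1.isPrime
  have h1 := BlkBrauer.omega_res_sub_trunc hM hQ hQH hHN hf hR ψ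
  have h2 := omega_res_congr hind hψ hχ hf hR
  exact memLocalIdeal_sub_trans (memLocalIdeal_sub_comm h1) h2

/-- The congruence `z^G ≡ z` on the centralizer of `Q`. -/
theorem indFun_sub_mem (hM : IsPModular p M) {H Q : Subgroup G} [Fintype H] (hQ : IsPGroup p Q)
    (hQH : Q ≤ H) {z : H → ℂ} (hz : IsClassFunction H z) (hR : ∀ y, MemLocalRing M (z y))
    (hkey : ∀ x : G, x ∉ H → (∀ v ∈ Q, x⁻¹ * v * x ∈ H) → ∀ g : H,
      (∀ v ∈ Q, (x⁻¹ * v * x) * (g : G) = (g : G) * (x⁻¹ * v * x)) → MemLocalIdeal M (z g))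
    (h : H) (hc : (h : G) ∈ Subgroup.centralizer (Q : Set G)) :
    MemLocalIdeal M (indFun H z h - z h) := by
  classical
  haveI := hM.2.1.isPrime
  letI : Fintype (G ⧸ H) := Fintype.ofFinite _
  set Φ : G → ℂ := fun x => extendByZero H z (x⁻¹ * h * x) with hΦ
  have hcomm : ∀ u ∈ Q, u * (h : G) = h * u := fun u hu =>
    (Subgroup.mem_centralizer_iff.mp hc u hu)
  have hΦk : ∀ x : G, ∀ k ∈ H, Φ (x * k) = Φ x := by
    intro x k hk
    simp only [hΦ]
    by_cases hx : x⁻¹ * h * x ∈ H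
    · have h1 : (x * k)⁻¹ * h * (x * k) ∈ H := by
        have h2 : (x * k)⁻¹ * h * (x * k) = k⁻¹ * (x⁻¹ * h * x) * k := by group
        rw [h2]
        exact H.mul_mem (H.mul_mem (H.inv_mem hk) hx) hk
      rw [extendByZero_of_mem H _ h1, extendByZero_of_mem H _ hx]
      have h3 := hz ⟨x⁻¹ * h * x, hx⟩ (⟨k, hk⟩ : H)⁻¹
      rw [← h3]
      congr 1
      apply Subtype.ext
      simp only [Subgroup.coe_mul, InvMemClass.coe_inv, inv_inv]
      group
    · have h1 : (x * k)⁻¹ * h * (x * k) ∉ H := by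
        intro h2
        apply hx
        have h3 : x⁻¹ * h * x = k * ((x * k)⁻¹ * h * (x * k)) * k⁻¹ := by group
        rw [h3]
        exact H.mul_mem (H.mul_mem hk h2) (H.inv_mem hk)
      rw [extendByZero_of_not_mem H _ h1, extendByZero_of_not_mem H _ hx]
  have hΦu : ∀ u ∈ Q, ∀ x : G, Φ (u * x) = Φ x := by
    intro u hu x
    simp only [hΦ]
    congr 1
    have h1 : (u * x)⁻¹ * h * (u * x) = x⁻¹ * (u⁻¹ * ((h : G) * u)) * x := by group
    rw [h1, ← hcomm u hu]
    group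
  have hΦmk : ∀ x y : G, (QuotientGroup.mk x : G ⧸ H) = QuotientGroup.mk y → Φ x = Φ y := by
    intro x y hxy
    have h1 : x⁻¹ * y ∈ H := QuotientGroup.eq.mp hxy
    have h2 := hΦk x _ h1
    rw [← h2]
    congr 1
    group
  have hout : ∀ x : G, Φ (Quotient.out (QuotientGroup.mk x : G ⧸ H)) = Φ x := by
    intro x
    apply hΦmk
    exact QuotientGroup.out_eq' _
  have hr : Function.Bijective (fun i : G ⧸ H => (QuotientGroup.mk (Quotient.out i) : G ⧸ H)) := by
    have h1 : (fun i : G ⧸ H => (QuotientGroup.mk (Quotient.out i) : G ⧸ H)) = id := by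
      funext i
      exact QuotientGroup.out_eq' i
    rw [h1]
    exact Function.bijective_id
  have hsum : indFun H z h = ∑ q : G ⧸ H, Φ (Quotient.out q) :=
    Cfsg.Agent.Lib.GL2Char.indFun_eq_sum_reps H (fun i : G ⧸ H => Quotient.out i) hr z hz h
  have hΦ1 : Φ 1 = z h := by
    simp only [hΦ, inv_one, one_mul, mul_one]
    rw [extendByZero_of_mem H _ h.2]
  set q₀ : G ⧸ H := QuotientGroup.mk 1 with hq₀
  set F : G ⧸ H → ℂ := fun q => Φ (Quotient.out q) - if q = q₀ then z h else 0 with hF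
  have hsumF : ∑ q : G ⧸ H, F q = indFun H z h - z h := by
    simp only [hF]
    rw [Finset.sum_sub_distrib, hsum]
    simp
  rw [← hsumF]
  have hsmul : ∀ (u : Q) (x : G), u • (QuotientGroup.mk x : G ⧸ H) = QuotientGroup.mk ((u : G) * x) :=
    fun u x => rfl
  refine memLocalIdeal_sum_of_invariant hM hQ F ?_ ?_ ?_
  · intro u q
    induction q using QuotientGroup.induction_on with
    | H x =>
      simp only [hF]
      rw [hsmul, hout, hout, hΦu _ u.2]
      congr 1
      have h1 : (QuotientGroup.mk ((u : G) * x) : G ⧸ H) = q₀ ↔ (QuotientGroup.mk x : G ⧸ H) = q₀ := by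
        simp only [hq₀]
        rw [QuotientGroup.eq, QuotientGroup.eq, mul_one, mul_one, Subgroup.inv_mem_iff,
          Subgroup.inv_mem_iff]
        exact Subgroup.mul_mem_cancel_left H (hQH u.2)
      simp only [h1]
  · intro q
    refine memLocalRing_sub ?_ ?_
    · simp only [hΦ]
      by_cases hy : (Quotient.out q)⁻¹ * (h : G) * Quotient.out q ∈ H
      · rw [extendByZero_of_mem H _ hy]
        exact hR _
      · rw [extendByZero_of_not_mem H _ hy]
        exact memLocalRing_zero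
    · split_ifs
      · exact hR _
      · exact memLocalRing_zero
  · intro q hfix
    by_cases hq : q = q₀
    · subst hq
      simp only [hF, if_true]
      rw [hq₀, hout, hΦ1, sub_self]
      exact memLocalIdeal_zero
    · simp only [hF, if_neg hq, sub_zero]
      set x : G := Quotient.out q with hx
      have hmkx : (QuotientGroup.mk x : G ⧸ H) = q := QuotientGroup.out_eq' q
      have hxH : x ∉ H := by
        intro hxH
        apply hq
        rw [← hmkx, hq₀]
        rw [QuotientGroup.eq]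
        simpa using hxH
      have hv : ∀ v ∈ Q, x⁻¹ * v * x ∈ H := by
        intro v hv
        have h1 := hfix ⟨v⁻¹, Q.inv_mem hv⟩
        rw [← hmkx, hsmul] at h1
        have h2 := QuotientGroup.eq.mp h1
        have h3 : x⁻¹ * v * x = ((v⁻¹ * x)⁻¹ * x) := by group
        rw [h3]
        exact h2
      simp only [hΦ]
      by_cases hy : x⁻¹ * (h : G) * x ∈ H
      · rw [extendByZero_of_mem H _ hy]
        refine hkey x hxH hv ⟨_, hy⟩ ?_
        intro v hv'
        show x⁻¹ * v * x * (x⁻¹ * (h : G) * x) = x⁻¹ * (h : G) * x * (x⁻¹ * v * x)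
        calc x⁻¹ * v * x * (x⁻¹ * (h : G) * x) = x⁻¹ * (v * (h : G)) * x := by group
          _ = x⁻¹ * ((h : G) * v) * x := by rw [hcomm v hv']
          _ = _ := by group
      · rw [extendByZero_of_not_mem H _ hy]
        exact memLocalIdeal_zero

end Chain

section Core

variable {G : Type u} [Group G] [Fintype G] {N : Subgroup G} [hN : N.Normal] [Fintype N]
  {p : ℕ} [Fact p.Prime] {M : Ideal AlgInt} {Q H : Subgroup G} [Fintype H]
  [Fintype (N.subgroupOf H)]

theorem mem_normalizer_of_conj_le {x : G} (h : ∀ v ∈ Q, x⁻¹ * v * x ∈ Q) :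
    x ∈ Subgroup.normalizer (Q : Set G) := by
  classical
  letI : Fintype Q := Fintype.ofFinite _
  set Q' : Subgroup G := Q.map (MulAut.conj x⁻¹).toMonoidHom with hQ'
  have h1 : Q' ≤ Q := by
    rintro _ ⟨v, hv, rfl⟩
    have := h v hv
    simpa using this
  have hcard : Nat.card Q' = Nat.card Q :=
    Subgroup.card_map_of_injective (MulAut.conj x⁻¹).injective
  have h2 : Q' = Q := Subgroup.eq_of_le_of_card_ge h1 hcard.ge
  have hx : x⁻¹ ∈ Subgroup.normalizer (Q : Set G) := by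
    rw [Subgroup.mem_normalizer_iff]
    intro y
    constructor
    · intro hy
      have := h y hy
      simpa using this
    · intro hy
      have h3 : x⁻¹ * y * x⁻¹⁻¹ ∈ Q' := by
        rw [h2]
        exact hy
      obtain ⟨v, hv, hvy⟩ := h3
      simp only [MulEquiv.coe_toMonoidHom, MulAut.conj_apply] at hvy
      have h4 : v = y := by
        simpa using hvy
      rw [← h4]
      exact hv
  simpa using (Subgroup.normalizer (Q : Set G)).inv_mem hx

theorem key_mem (hM : IsPModular p M) (hQ : IsPGroup p Q) (hQN : Q ≤ N)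
    (hH : H = Subgroup.normalizer (Q : Set G)) {e₀ : Set (IrrCharacter (N.subgroupOf H))}
    (he₀ : IsPBlock M e₀)
    (hdef : IsDefectGroup p M e₀ ((Q.subgroupOf H).subgroupOf (N.subgroupOf H)))
    {c : Set (IrrCharacter H)} (hc : IsPBlock M c)
    (hcov : ∃ ψ ∈ c, ∃ θ ∈ e₀, classInner (fun n : N.subgroupOf H => (ψ : H → ℂ) n)
      (θ : N.subgroupOf H → ℂ) ≠ 0)
    (x : G) (hx : x ∉ H) (hv : ∀ v ∈ Q, x⁻¹ * v * x ∈ H) (g : H)
    (hcomm : ∀ v ∈ Q, (x⁻¹ * v * x) * (g : G) = (g : G) * (x⁻¹ * v * x)) :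
    MemLocalIdeal M (blockCoeff c g) := by
  classical
  by_contra hg
  apply hx
  have hQH : Q ≤ H := by
    rw [hH]
    exact Subgroup.le_normalizer
  have hHN : H ≤ Subgroup.normalizer (Q : Set G) := hH.le
  haveI hL₀ : (N.subgroupOf H).Normal := Subgroup.normal_subgroupOf
  haveI hQ₀ := BlkBrauer.normal_subgroupOf hQH hHN
  set V : Subgroup H := (Q.map (MulAut.conj x⁻¹).toMonoidHom).subgroupOf H with hV
  have hVmem : ∀ y : H, y ∈ V ↔ ∃ v ∈ Q, x⁻¹ * v * x = y := by
    intro y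
    rw [hV, Subgroup.mem_subgroupOf]
    constructor
    · rintro ⟨v, hv', hvy⟩
      refine ⟨v, hv', ?_⟩
      simpa using hvy
    · rintro ⟨v, hv', hvy⟩
      refine ⟨v, hv', ?_⟩
      simpa using hvy
  have hVp : IsPGroup p V :=
    (show IsPGroup p (Q.map (MulAut.conj x⁻¹).toMonoidHom) from hQ.map _).comap_of_injective
      H.subtype H.subtype_injective
  have hVL : V ≤ N.subgroupOf H := by
    intro y hy
    obtain ⟨v, hv', hvy⟩ := (hVmem y).mp hy
    rw [Subgroup.mem_subgroupOf, ← hvy]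
    have := hN.conj_mem v (hQN hv') x⁻¹
    simpa using this
  have hVc : V ≤ Subgroup.centralizer ({g} : Set H) := by
    intro y hy
    obtain ⟨v, hv', hvy⟩ := (hVmem y).mp hy
    rw [Subgroup.mem_centralizer_singleton_iff]
    apply Subtype.ext
    have := hcomm v hv'
    rw [hvy] at this
    exact this
  have hQ₀L : Q.subgroupOf H ≤ N.subgroupOf H := by
    intro y hy
    rw [Subgroup.mem_subgroupOf] at hy ⊢
    exact hQN hy
  obtain ⟨t, ht⟩ := exists_conj_le_defect hM hc he₀ hcov hQ₀L hdef hg hVp hVL hVc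
  have hVQ : ∀ y ∈ V, y ∈ Q.subgroupOf H := by
    intro y hy
    have h1 : (MulAut.conj t).toMonoidHom y ∈ Q.subgroupOf H := ht (Subgroup.mem_map_of_mem _ hy)
    have h2 : t * y * t⁻¹ ∈ Q.subgroupOf H := by
      simpa using h1
    have h3 := hQ₀.conj_mem _ h2 t⁻¹
    simpa [mul_assoc] using h3
  rw [hH]
  refine mem_normalizer_of_conj_le fun v hv' => ?_
  have h1 : (⟨x⁻¹ * v * x, hv v hv'⟩ : H) ∈ V := (hVmem _).mpr ⟨v, hv', rfl⟩
  have h2 := hVQ _ h1
  rw [Subgroup.mem_subgroupOf] at h2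
  exact h2

/-- **Injectivity of block induction.**  A block covering `e₀` and any block with the same induced
block coincide. -/
theorem induced_unique (hM : IsPModular p M) (hQ : IsPGroup p Q) (hQN : Q ≤ N)
    (hH : H = Subgroup.normalizer (Q : Set G)) {e₀ : Set (IrrCharacter (N.subgroupOf H))}
    (he₀ : IsPBlock M e₀)
    (hdef : IsDefectGroup p M e₀ ((Q.subgroupOf H).subgroupOf (N.subgroupOf H)))
    {c₁ : Set (IrrCharacter H)} (hc₁ : IsPBlock M c₁)
    (hcov : ∃ ψ ∈ c₁, ∃ θ ∈ e₀, classInner (fun n : N.subgroupOf H => (ψ : H → ℂ) n)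
      (θ : N.subgroupOf H → ℂ) ≠ 0)
    {c₂ : Set (IrrCharacter H)} {B : Set (IrrCharacter G)} (h₁ : IsInducedBlock M H c₁ B)
    (h₂ : IsInducedBlock M H c₂ B) : c₁ = c₂ := by
  classical
  haveI hMp : M.IsPrime := hM.2.1.isPrime
  have hQH : Q ≤ H := by
    rw [hH]
    exact Subgroup.le_normalizer
  have hHN : H ≤ Subgroup.normalizer (Q : Set G) := hH.le
  haveI hQ₀ := BlkBrauer.normal_subgroupOf hQH hHN
  have hQ₀p : IsPGroup p (Q.subgroupOf H) := IsPGroup.comap_of_injective hQ H.subtype H.subtype_injective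
  set z : H → ℂ := blockCoeff c₁ with hz
  have hzcl : IsClassFunction H z := BlkBasic.blockCoeff_isClassFunction c₁
  have hzR : ∀ y, MemLocalRing M (z y) := memLocalRing_blockCoeff hc₁
  set y : G → ℂ := indFun H z with hy
  have hycl : IsClassFunction G y := indFun_isClassFunction H z
  have hyR : ∀ x, MemLocalRing M (y x) := memLocalRing_indFun hzcl hzR
  have hdiff : ∀ h : H, MemLocalIdeal M (BlkBrauer.trunc Q H y h - z h) := by
    intro h
    by_cases hh : (h : G) ∈ Subgroup.centralizer (Q : Set G)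
    · rw [BlkBrauer.trunc_of_mem _ hh]
      exact indFun_sub_mem hM hQ hQH hzcl hzR
        (fun x hx hv g hcomm => key_mem hM hQ hQN hH he₀ hdef hc₁ hcov x hx hv g hcomm) h hh
    · rw [BlkBrauer.trunc_of_not_mem _ hh]
      have h1 : h ∉ Subgroup.centralizer ((Q.subgroupOf H : Subgroup H) : Set H) := by
        rwa [BlkBrauer.centralizer_subgroupOf_iff hQH]
      have h2 : z h = 0 :=
        BlockNormal.blockCoeff_eq_zero_of_not_mem_centralizer (Q.subgroupOf H) hQ₀p hM c₁ hc₁ h h1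
      rw [h2, sub_self]
      exact memLocalIdeal_zero
  have hcl' : IsClassFunction H (BlkBrauer.trunc Q H y - z) := by
    intro a b
    have h1 := BlkBrauer.trunc_isClassFunction hHN hycl a b
    have h2 := hzcl a b
    simp only [Pi.sub_apply, h1, h2]
  have hω : ∀ ψ : IrrCharacter H, MemLocalIdeal M
      (omega (ψ : H → ℂ) (BlkBrauer.trunc Q H y) - omega (ψ : H → ℂ) z) := by
    intro ψ
    rw [← BrauerSub.omega_sub_eq]
    exact BrauerCorr.memLocalIdeal_omega_of_values' hcl' hdiff ψ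
  obtain ⟨ψ₁, hψ₁⟩ := id hc₁
  have hψ₁m : ψ₁ ∈ c₁ := by
    rw [hψ₁]
    exact mem_blockOf_self ψ₁
  obtain ⟨ψ₂, hψ₂m, hψ₂⟩ : ∃ ψ₂ : IrrCharacter H, ψ₂ ∈ c₂ ∧ True := by
    obtain ⟨ψ₂, h⟩ := h₂.1
    exact ⟨ψ₂, by rw [h]; exact mem_blockOf_self ψ₂, trivial⟩
  obtain ⟨χ, hχ⟩ := h₁.2.1
  have hχm : χ ∈ B := by
    rw [hχ]
    exact mem_blockOf_self χ
  have h1 := omega_trunc_congr hM hQ hQH hHN h₁ hψ₁m hχm hycl hyR
  have h2 := omega_trunc_congr hM hQ hQH hHN h₂ hψ₂m hχm hycl hyR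
  have h3 := memLocalIdeal_sub_trans (memLocalIdeal_sub_comm (hω ψ₁))
    (memLocalIdeal_sub_trans h1 (memLocalIdeal_sub_trans (memLocalIdeal_sub_comm h2) (hω ψ₂)))
  rw [hz, BlkBasic.omega_blockCoeff, BlkBasic.omega_blockCoeff, blkInd_of_mem hψ₁m] at h3
  have hmem : ψ₂ ∈ c₁ := by
    by_contra hcon
    rw [blkInd_of_not_mem hcon, sub_zero] at h3
    exact not_memLocalIdeal_one h3
  rcases eq_or_disjoint_of_isPBlock hc₁ h₂.1 with h | h
  · exact h
  · exact absurd hψ₂m (Set.disjoint_left.mp h hmem)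

/-- **Part 1**: the induced block of a block covering `e₀` covers `d`. -/
theorem covers_of_induced (hM : IsPModular p M) (hQ : IsPGroup p Q) 
    (hH : H = Subgroup.normalizer (Q : Set G)) {d : Set (IrrCharacter N)} (hd : IsPBlock M d)
    {e₀ : Set (IrrCharacter (N.subgroupOf H))}
    (hA : ∀ F : N → ℂ, IsClassFunction N F → (∀ x, MemLocalRing M (F x)) → ∀ θ ∈ e₀, ∀ η ∈ d,
      MemLocalIdeal M (∑ l : N.subgroupOf H, F ⟨((l : H) : G), l.2⟩ * (θ : N.subgroupOf H → ℂ) l /
        (θ : N.subgroupOf H → ℂ) 1 - omega (η : N → ℂ) F))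
    {c : Set (IrrCharacter H)}
    (hcov : ∃ ψ ∈ c, ∃ θ ∈ e₀, classInner (fun n : N.subgroupOf H => (ψ : H → ℂ) n)
      (θ : N.subgroupOf H → ℂ) ≠ 0)
    {B : Set (IrrCharacter G)} (hind : IsInducedBlock M H c B) :
    ∃ χ ∈ B, ∃ θ ∈ d, classInner (fun n : N => (χ : G → ℂ) n) (θ : N → ℂ) ≠ 0 := by
  classical
  haveI hMp : M.IsPrime := hM.2.1.isPrime
  obtain ⟨ψ, hψ, θ, hθ, hne⟩ := hcov
  obtain ⟨χ, hχ⟩ := hind.2.1
  have hχm : χ ∈ B := by
    rw [hχ]
    exact mem_blockOf_self χ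
  obtain ⟨η, hη⟩ := id hd
  have hηm : η ∈ d := by
    rw [hη]
    exact mem_blockOf_self η
  have hcong : ∀ n : N, MemLocalIdeal M (centralChar (χ : G → ℂ) (n : G) -
      inducedCentralChar N (η : N → ℂ) (n : G)) := by
    intro n
    set cl : G → ℂ := castFun (classIndicator (n : G)) with hcl
    have hclc : IsClassFunction G cl := castFun_isClassFunction (classIndicator_mem _)
    have hclR : ∀ x, MemLocalRing M (cl x) := fun x => memLocalRing_intCast _
    have h1 := omega_res_congr hind hψ hχm hclc hclR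
    rw [hcl, omega_classIndicator, ← hcl] at h1
    have h2 : inducedCentralChar N (η : N → ℂ) (n : G) = omega (η : N → ℂ) (fun m : N => cl m) :=
      inducedCentralChar_eq_omega N _ _
    rw [h2]
    have hHc : IsClassFunction H (fun h : H => cl h) := fun a b => hclc (a : G) (b : G)
    have hsupp : ∀ x : H, x ∉ N.subgroupOf H → cl (x : G) = 0 := by
      intro x hx
      have hx' : (x : G) ∉ N := by
        rwa [Subgroup.mem_subgroupOf] at hx
      rw [hcl]
      show ((classIndicator (n : G) (x : G) : ℤ) : ℂ) = 0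
      rw [classIndicator_of_not_conj]
      · simp
      · intro hc
        obtain ⟨c, hc⟩ := isConj_iff.mp hc
        apply hx'
        rw [← hc]
        exact hN.conj_mem _ n.2 _
    have h3 := BlockExt.omega_eq_of_constituent (N.subgroupOf H) hHc hsupp ψ θ hne
    rw [h3] at h1
    have hNc : IsClassFunction N (fun m : N => cl m) := fun a b => hclc (a : G) (b : G)
    have h4 := hA (fun m : N => cl m) hNc (fun x => hclR _) θ hθ η hηm
    have h5 : omega (θ : N.subgroupOf H → ℂ) (fun l : N.subgroupOf H => cl ((l : H) : G)) =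
        ∑ l : N.subgroupOf H, cl ((l : H) : G) * (θ : N.subgroupOf H → ℂ) l /
          (θ : N.subgroupOf H → ℂ) 1 := by
      unfold omega
      rw [Finset.sum_div]
    rw [h5] at h1
    exact memLocalIdeal_sub_trans (memLocalIdeal_sub_comm h1) h4
  obtain ⟨ψ₀, hψ₀⟩ := BlkNormalSub.exists_constituent (N := N) χ
  obtain ⟨g, hg⟩ := mem_orbitSet_of_congr hN (blockClosed_of_isPBlock hd) hηm hcong hψ₀
  exact ⟨χ, hχm, conjIrr N hN g ψ₀, hg, constituent_conjIrr hN χ ψ₀ g hψ₀⟩

/-- Orthogonality of a block idempotent and a non-covered block of a subgroup. -/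
theorem sum_blockCoeff_mul_blockCoeff_eq_zero {X : Type*} [Group X] [Fintype X] {L : Subgroup X}
    [Fintype L] {B : Set (IrrCharacter X)} {b : Set (IrrCharacter L)}
    (hcon : ∀ χ ∈ B, ∀ θ ∈ b, classInner (fun n : L => (χ : X → ℂ) n) (θ : L → ℂ) = 0) (g : X) :
    ∑ m : L, blockCoeff b m * blockCoeff B ((m : X)⁻¹ * g) = 0 := by
  classical
  simp_rw [blockCoeff_apply B]
  simp_rw [Finset.mul_sum]
  rw [Finset.sum_comm]
  refine Finset.sum_eq_zero fun χ _ => ?_
  by_cases hχ : χ ∈ B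
  · have h1 := sum_blockCoeff_char_mul_eq_zero L.subtype (IsIrrCharacter.isCharacter χ.2)
      (c := b) (fun θ hθ => hcon χ hχ θ hθ) g⁻¹
    have h2 : ∀ m : L, blockCoeff b m * (blkInd B χ * ec (χ : X → ℂ) ((m : X)⁻¹ * g)) =
        (blkInd B χ * ((χ : X → ℂ) 1 / (Nat.card X : ℂ))) *
          (blockCoeff b m * (χ : X → ℂ) (g⁻¹ * L.subtype m)) := by
      intro m
      unfold ec
      have h3 : ((m : X)⁻¹ * g)⁻¹ = g⁻¹ * L.subtype m := by
        simp
      rw [h3]
      ring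
    simp_rw [h2]
    rw [← Finset.mul_sum, h1, mul_zero]
  · simp [blkInd_of_not_mem hχ]

/-- **Knörr's theorem in the form of a Brauer coefficient.**  A block covering `d` does not vanish
under the Brauer map after cutting by `e_d`. -/
theorem exists_sum_not_mem (hM : IsPModular p M) (hQ : IsPGroup p Q) (hQN : Q ≤ N)
    {d : Set (IrrCharacter N)} (hd : IsPBlock M d) (hdQ : IsDefectGroup p M d (Q.subgroupOf N))
    {B : Set (IrrCharacter G)} (hB : IsPBlock M B)
    (hcov : ∃ χ ∈ B, ∃ θ ∈ d, classInner (fun n : N => (χ : G → ℂ) n) (θ : N → ℂ) ≠ 0) :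
    ∃ g : G, g ∈ Subgroup.centralizer (Q : Set G) ∧
      ¬ MemLocalIdeal M (∑ m : N, blockCoeff d m * blockCoeff B ((m : G)⁻¹ * g)) := by
  classical
  haveI hMp : M.IsPrime := hM.2.1.isPrime
  letI : Fintype (stabSub hd) := Fintype.ofFinite _
  obtain ⟨P₀, hP₀, -, hdef⟩ := exists_defect_of_cover hM hd hB hcov (le_stabSub hd) (isStab_stabSub hd)
  obtain ⟨n, hn⟩ := BlockQuotDefect.IsDefectGroup_exists_conj_eq hM hd hdef hdQ
  set P₁ : Subgroup G := P₀.map (MulAut.conj (n : G)).toMonoidHom with hP₁d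
  have hP₁ : IsDefectGroup p M B P₁ := IsDefectGroup.conj hP₀ (n : G)
  have hQP₁ : Q ≤ P₁ := by
    intro q hq
    have h1 : (⟨q, hQN hq⟩ : N) ∈ Q.subgroupOf N := by
      rw [Subgroup.mem_subgroupOf]
      exact hq
    rw [← hn] at h1
    obtain ⟨y, hy, hyq⟩ := h1
    have hy' : y ∈ (P₀ ⊓ N).subgroupOf N := hy
    rw [Subgroup.mem_subgroupOf] at hy'
    refine ⟨y, hy'.1, ?_⟩
    have h2 := congrArg Subtype.val hyq
    simpa using h2
  obtain ⟨g₁, hg₁, hle, -⟩ := isDefectGroup_iff.mp hP₁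
  have hg₀ := hg₁.2.1
  have hUc : Q ≤ Subgroup.centralizer ({g₁} : Set G) := hQP₁.trans hle
  have hclB := BlkBasic.blockCoeff_isClassFunction B
  obtain ⟨F, hF⟩ := exists_block_sum_not_mem (N := N) (blockCoeff B) hg₀
  obtain ⟨m, hmfix, hmne⟩ := exists_fixed_of_sum hM hQ
    (fun m : N => blockCoeff F.1 m * blockCoeff B ((m : G)⁻¹ * g₁))
    (by
      intro u hu m
      simp only
      have hcomm : u * g₁ = g₁ * u := by
        have := hUc hu
        rw [Subgroup.mem_centralizer_singleton_iff] at this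
        exact this
      have h1 := BlkBasic.blockCoeff_isClassFunction F.1 m ⟨u, hQN hu⟩
      have h2 := hclB ((m : G)⁻¹ * g₁) u
      have e1 : (⟨u * m * u⁻¹, hN.conj_mem _ m.2 _⟩ : N) = ⟨u, hQN hu⟩ * m * (⟨u, hQN hu⟩ : N)⁻¹ := by
        apply Subtype.ext
        simp
      have e2 : ((⟨u * m * u⁻¹, hN.conj_mem _ m.2 _⟩ : N) : G)⁻¹ * g₁ = u * ((m : G)⁻¹ * g₁) * u⁻¹ := by
        simp only [mul_inv_rev, inv_inv, ← mul_assoc]
        calc u * (m : G)⁻¹ * u⁻¹ * g₁ = u * (m : G)⁻¹ * (u⁻¹ * g₁ * u) * u⁻¹ := by group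
          _ = u * (m : G)⁻¹ * (u⁻¹ * (u * g₁)) * u⁻¹ := by
              rw [show u⁻¹ * g₁ * u = u⁻¹ * (g₁ * u) by group, ← hcomm]
          _ = _ := by group
      rw [e2, h2, e1, h1])
    (fun m => memLocalRing_mul (memLocalRing_blockCoeff F.2 m) (memLocalRing_blockCoeff hB _)) hF
  have hmS : ¬ MemLocalIdeal M (blockCoeff F.1 m) := fun h =>
    hmne (memLocalIdeal_mul_right h (memLocalRing_blockCoeff hB _))
  have hcovS : ∃ χ ∈ B, ∃ θ ∈ F.1, classInner (fun n : N => (χ : G → ℂ) n) (θ : N → ℂ) ≠ 0 := by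
    by_contra hcon
    push Not at hcon
    apply hF
    rw [sum_blockCoeff_mul_blockCoeff_eq_zero hcon g₁]
    exact memLocalIdeal_zero
  obtain ⟨t, ht⟩ := exists_conj_of_covered hB hd F.2 hcov hcovS
  set m' : N := ⟨t⁻¹ * m * t⁻¹⁻¹, hN.conj_mem _ m.2 _⟩ with hm'
  have hm'b : ¬ MemLocalIdeal M (blockCoeff d m') := by
    have h1 := blockCoeff_conj N d t⁻¹ m
    have h2 : {θ | cjE N t⁻¹⁻¹ θ ∈ d} = {θ | cjE N t θ ∈ d} := by rw [inv_inv]
    rw [h2, ← ht] at h1
    rw [hm', h1]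
    exact hmS
  have hLe := IsDefectGroup.sylow_conj hM hd hdQ hm'b
  set U' : Subgroup G := Q.map (MulAut.conj t⁻¹).toMonoidHom with hU'
  have hU'N : U' ≤ N := by
    rintro _ ⟨u, hu, rfl⟩
    exact hN.conj_mem _ (hQN hu) _
  have hU'p : IsPGroup p (U'.subgroupOf N) :=
    (show IsPGroup p U' from hQ.map _).comap_of_injective N.subtype N.subtype_injective
  have hU'c : U'.subgroupOf N ≤ Subgroup.centralizer ({m'} : Set N) := by
    intro x hx
    rw [Subgroup.mem_subgroupOf] at hx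
    obtain ⟨u, hu, hux⟩ := hx
    rw [Subgroup.mem_centralizer_singleton_iff]
    apply Subtype.ext
    have hum := hmfix u hu
    have hcomm : u * (m : G) = m * u := by
      calc u * (m : G) = (u * (m : G) * u⁻¹) * u := by group
        _ = m * u := by rw [hum]
    simp only [MulEquiv.coe_toMonoidHom, MulAut.conj_apply] at hux
    simp only [Subgroup.coe_mul, hm', ← hux, inv_inv]
    calc t⁻¹ * u * t * (t⁻¹ * (m : G) * t) = t⁻¹ * (u * (m : G)) * t := by group
      _ = t⁻¹ * ((m : G) * u) * t := by rw [hcomm]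
      _ = _ := by group
  obtain ⟨c, hc⟩ := hLe _ hU'p hU'c
  set s : G := (c : G) * t⁻¹ with hs
  have hsQ : ∀ u ∈ Q, s * u * s⁻¹ ∈ Q := by
    intro u hu
    have hx : t⁻¹ * u * t⁻¹⁻¹ ∈ U' := ⟨u, hu, rfl⟩
    have hxN : t⁻¹ * u * t⁻¹⁻¹ ∈ N := hU'N hx
    have h1 : (⟨t⁻¹ * u * t⁻¹⁻¹, hxN⟩ : N) ∈ U'.subgroupOf N := by
      rw [Subgroup.mem_subgroupOf]
      exact hx
    have h2 := hc (Subgroup.mem_map_of_mem _ h1)
    rw [Subgroup.mem_subgroupOf] at h2
    simp only [MulEquiv.coe_toMonoidHom, MulAut.conj_apply, Subgroup.coe_mul,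
      InvMemClass.coe_inv] at h2
    rw [hs]
    convert h2 using 1
    simp only [mul_inv_rev, inv_inv]
    group
  have hsN : s ∈ Subgroup.normalizer (Q : Set G) := by
    have h1 : s⁻¹ ∈ Subgroup.normalizer (Q : Set G) :=
      mem_normalizer_of_conj_le fun v hv => by simpa using hsQ v hv
    simpa using (Subgroup.normalizer (Q : Set G)).inv_mem h1
  have hg₁C : g₁ ∈ Subgroup.centralizer (Q : Set G) := by
    rw [Subgroup.mem_centralizer_iff]
    intro q hq
    have := hUc hq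
    rw [Subgroup.mem_centralizer_singleton_iff] at this
    exact this
  refine ⟨s * g₁ * s⁻¹, BlkBrauer.conj_mem_centralizer_of_mem_normalizer hsN hg₁C, ?_⟩
  let σ : N ≃* N := MulAut.conjNormal s
  have hσ : ∀ k : N, ((σ k : N) : G) = s * k * s⁻¹ := fun k => MulAut.conjNormal_apply s k
  have h1 : ∑ m : N, blockCoeff d m * blockCoeff B ((m : G)⁻¹ * (s * g₁ * s⁻¹)) =
      ∑ m : N, blockCoeff F.1 m * blockCoeff B ((m : G)⁻¹ * g₁) := by
    rw [← Equiv.sum_comp σ.toEquiv]
    refine Finset.sum_congr rfl fun k _ => ?_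
    have h2 : {θ | cjE N s⁻¹ θ ∈ d} = F.1 := by
      rw [ht]
      ext θ
      show cjE N s⁻¹ θ ∈ d ↔ cjE N t θ ∈ d
      have h3 : s⁻¹ = t * (c : G)⁻¹ := by
        rw [hs]
        group
      have h4 : cjE N s⁻¹ θ = cjE N t θ := by
        rw [h3, ← cjE_cjE, cjE_eq_self_of_mem _ (N.inv_mem c.2)]
      rw [h4]
    have h5 := blockCoeff_conj N d s k
    rw [h2] at h5
    have h6 : σ.toEquiv k = ⟨s * k * s⁻¹, hN.conj_mem k k.2 s⟩ := Subtype.ext (hσ k)
    rw [h6, h5]
    congr 1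
    have h7 : (s * (k : G) * s⁻¹)⁻¹ * (s * g₁ * s⁻¹) = s * ((k : G)⁻¹ * g₁) * s⁻¹ := by
      group
    show blockCoeff B ((s * (k : G) * s⁻¹)⁻¹ * (s * g₁ * s⁻¹)) = _
    rw [h7]
    exact hclB _ s
  rw [h1]
  exact hF

/-- **Part 2, existence.** -/
theorem exists_covering_of_cover (hM : IsPModular p M) (hQ : IsPGroup p Q) (hQN : Q ≤ N)
    (hH : H = Subgroup.normalizer (Q : Set G)) {d : Set (IrrCharacter N)} (hd : IsPBlock M d)
    (hdQ : IsDefectGroup p M d (Q.subgroupOf N)) {e₀ : Set (IrrCharacter (N.subgroupOf H))}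
    (he₀ : IsPBlock M e₀)
    (hC3 : ∀ l : N.subgroupOf H, ((l : H) : G) ∈ Subgroup.centralizer (Q : Set G) →
      MemLocalIdeal M (blockCoeff e₀ l - blockCoeff d ⟨((l : H) : G), l.2⟩))
    {B : Set (IrrCharacter G)} (hB : IsPBlock M B)
    (hcov : ∃ χ ∈ B, ∃ θ ∈ d, classInner (fun n : N => (χ : G → ℂ) n) (θ : N → ℂ) ≠ 0) :
    ∃ c : Set (IrrCharacter H), IsPBlock M c ∧
      (∃ ψ ∈ c, ∃ θ ∈ e₀, classInner (fun n : N.subgroupOf H => (ψ : H → ℂ) n)
        (θ : N.subgroupOf H → ℂ) ≠ 0) ∧ IsInducedBlock M H c B := by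
  classical
  haveI hMp : M.IsPrime := hM.2.1.isPrime
  have hQH : Q ≤ H := by
    rw [hH]
    exact Subgroup.le_normalizer
  have hHN : H ≤ Subgroup.normalizer (Q : Set G) := hH.le
  have hCH : Subgroup.centralizer (Q : Set G) ≤ H := by
    intro x hx
    rw [hH]
    exact BrauerCen.mem_normalizer_of_mem_centralizer hx
  obtain ⟨g, hgC, hgsum⟩ := exists_sum_not_mem hM hQ hQN hd hdQ hB hcov
  set g' : H := ⟨g, hCH hgC⟩ with hg'
  set eB : G → ℂ := blockCoeff B with heB
  have hclB : IsClassFunction G eB := BlkBasic.blockCoeff_isClassFunction B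
  have hRB : ∀ x, MemLocalRing M (eB x) := memLocalRing_blockCoeff hB
  set a₁ : H → ℂ := BlkBrauer.trunc Q H eB with ha₁
  set f₁ : H → ℂ := ext0 (N.subgroupOf H) (blockCoeff e₀) with hf₁
  have hf₁R : ∀ x, MemLocalRing M (f₁ x) := memLocalRing_ext0 _ (memLocalRing_blockCoeff he₀)
  have ha₁R : ∀ x, MemLocalRing M (a₁ x) := BlkBrauer.trunc_memLocalRing hRB
  have ha₁cl : IsClassFunction H a₁ := BlkBrauer.trunc_isClassFunction hHN hclB
  -- the Brauer image of the sum
  have hV : ¬ MemLocalIdeal M (conv f₁ a₁ g') := by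
    intro hmem
    apply hgsum
    set W : G → ℂ := fun x => ext0 N (blockCoeff d) x * eB (x⁻¹ * g) with hW
    have hW1 : ∑ m : N, blockCoeff d m * blockCoeff B ((m : G)⁻¹ * g) = ∑ x : G, W x := by
      rw [← sum_subgroup_eq_sum' N W (fun y hy => by simp [hW, ext0_of_not_mem N _ hy])]
      refine Finset.sum_congr rfl fun m _ => ?_
      simp only [hW, ext0_coe, heB]
    have hcomm : ∀ u ∈ Q, u * g = g * u := fun u hu => Subgroup.mem_centralizer_iff.mp hgC u hu
    have hWinv : BrauerMap.Inv Q W := by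
      intro u hu x
      simp only [hW]
      congr 1
      · exact inv_ext0 N (BlkBasic.blockCoeff_isClassFunction d) u (hQN hu) x
      · have h1 : (u * x * u⁻¹)⁻¹ * g = u * (x⁻¹ * g) * u⁻¹ := by
          calc (u * x * u⁻¹)⁻¹ * g = u * x⁻¹ * (u⁻¹ * g * u) * u⁻¹ := by group
            _ = u * x⁻¹ * (u⁻¹ * (u * g)) * u⁻¹ := by
              rw [show u⁻¹ * g * u = u⁻¹ * (g * u) by group, ← hcomm u hu]
            _ = _ := by group
        rw [h1]
        exact hclB _ u
    have hWR : ∀ x, MemLocalRing M (W x) := fun x =>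
      memLocalRing_mul (memLocalRing_ext0 N (memLocalRing_blockCoeff hd) x) (hRB _)
    letI : Fintype (Subgroup.centralizer (Q : Set G)) := Fintype.ofFinite _
    have h2 := BrauerMap.sum_sub_sum_centralizer' Q hQ hM W hWinv hWR
    have h3 : MemLocalIdeal M (∑ x : Subgroup.centralizer (Q : Set G), W x - conv f₁ a₁ g') := by
      set Y : G → ℂ := fun x => @ite ℂ (x ∈ Subgroup.centralizer (Q : Set G))
        (Classical.propDecidable _) (W x) 0 with hY
      have hYC : ∑ x : Subgroup.centralizer (Q : Set G), W x = ∑ x : G, Y x := by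
        rw [← sum_subgroup_eq_sum' (Subgroup.centralizer (Q : Set G)) Y
          (fun y hy => by simp only [hY]; rw [if_neg hy])]
        refine Finset.sum_congr rfl fun m _ => ?_
        simp only [hY]
        rw [if_pos m.2]
      have hYH : ∑ x : H, Y x = ∑ x : G, Y x :=
        sum_subgroup_eq_sum' H Y (fun y hy => by
          simp only [hY]
          rw [if_neg fun h => hy (hCH h)])
      rw [hYC, ← hYH]
      show MemLocalIdeal M (∑ x : H, Y x - ∑ y : H, f₁ y * a₁ (y⁻¹ * g'))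
      rw [← Finset.sum_sub_distrib]
      refine memLocalIdeal_sum _ _ fun y _ => ?_
      by_cases hy : (y : G) ∈ Subgroup.centralizer (Q : Set G)
      · have h4 : ((y⁻¹ * g' : H) : G) ∈ Subgroup.centralizer (Q : Set G) := by
          simp only [Subgroup.coe_mul, InvMemClass.coe_inv, hg']
          exact Subgroup.mul_mem _ (Subgroup.inv_mem _ hy) hgC
        have h5 : a₁ (y⁻¹ * g') = eB ((y : G)⁻¹ * g) := by
          rw [ha₁, BlkBrauer.trunc_of_mem _ h4]
          rfl
        simp only [hY]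
        rw [if_pos hy, h5]
        simp only [hW]
        rw [← sub_mul]
        refine memLocalIdeal_mul_right ?_ (hRB _)
        by_cases hyN : (y : G) ∈ N
        · have hyL : y ∈ N.subgroupOf H := by
            rw [Subgroup.mem_subgroupOf]
            exact hyN
          rw [hf₁, ext0_of_mem _ _ hyL, ext0_of_mem N _ hyN]
          exact memLocalIdeal_sub_comm (hC3 ⟨y, hyL⟩ hy)
        · have hyL : y ∉ N.subgroupOf H := by
            rw [Subgroup.mem_subgroupOf]
            exact hyN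
          rw [hf₁, ext0_of_not_mem _ _ hyL, ext0_of_not_mem N _ hyN, sub_self]
          exact memLocalIdeal_zero
      · have h4 : ((y⁻¹ * g' : H) : G) ∉ Subgroup.centralizer (Q : Set G) := by
          intro h
          apply hy
          have h5 : (y : G) = g * ((y⁻¹ * g' : H) : G)⁻¹ := by
            simp [hg']
          rw [h5]
          exact Subgroup.mul_mem _ hgC (Subgroup.inv_mem _ h)
        have h5 : a₁ (y⁻¹ * g') = 0 := by
          rw [ha₁, BlkBrauer.trunc_of_not_mem _ h4]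
        simp only [hY]
        rw [if_neg hy, h5, mul_zero, sub_zero]
        exact memLocalIdeal_zero
    rw [hW1]
    have h4 := memLocalIdeal_add h2 (memLocalIdeal_add h3 hmem)
    convert h4 using 1
    ring
  -- decomposition along the blocks of `H`
  have hsumF : ∀ x, a₁ x = ∑ F : BlockT M H, conv (blockCoeff F.1) a₁ x := by
    intro x
    unfold conv
    rw [Finset.sum_comm]
    simp_rw [← Finset.sum_mul]
    have h2 : ∀ m : H, ∑ F : BlockT M H, blockCoeff F.1 m = delta m := by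
      intro m
      rw [← Finset.sum_apply, sum_blockCoeff]
    simp_rw [h2]
    rw [delta_mul_sum (fun m : H => a₁ (m⁻¹ * x))]
    simp
  obtain ⟨F, hF⟩ : ∃ F : BlockT M H, ¬ MemLocalIdeal M (conv f₁ (conv (blockCoeff F.1) a₁) g') := by
    by_contra hcon
    push Not at hcon
    apply hV
    have h1 : conv f₁ a₁ g' = ∑ F : BlockT M H, conv f₁ (conv (blockCoeff F.1) a₁) g' := by
      unfold conv
      rw [Finset.sum_comm]
      refine Finset.sum_congr rfl fun y _ => ?_
      rw [← Finset.mul_sum]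
      congr 1
      exact hsumF _
    rw [h1]
    exact memLocalIdeal_sum _ _ fun F _ => hcon F
  set e : H → ℂ := blockCoeff F.1 with he
  have hecl : IsClassFunction H e := BlkBasic.blockCoeff_isClassFunction F.1
  have heR : ∀ x, MemLocalRing M (e x) := memLocalRing_blockCoeff F.2
  set v : H → ℂ := conv e a₁ with hv
  -- `F` covers `e₀`
  have hcovF : ∃ ψ ∈ F.1, ∃ θ ∈ e₀, classInner (fun n : N.subgroupOf H => (ψ : H → ℂ) n)
      (θ : N.subgroupOf H → ℂ) ≠ 0 := by
    by_contra hcon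
    push Not at hcon
    apply hF
    have h1 : conv f₁ e = 0 := by
      funext x
      show ∑ y : H, f₁ y * e (y⁻¹ * x) = 0
      rw [← sum_subgroup_eq_sum' (N.subgroupOf H) (fun y : H => f₁ y * e (y⁻¹ * x))
        (fun y hy => by simp [hf₁, ext0_of_not_mem _ _ hy])]
      have h2 := sum_blockCoeff_mul_blockCoeff_eq_zero hcon x
      rw [← h2]
      refine Finset.sum_congr rfl fun m _ => ?_
      simp only [hf₁, ext0_coe, he]
    rw [hv, ← BlockSecond.conv_assoc', h1]
    have h2 : conv (0 : H → ℂ) a₁ g' = 0 := by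
      unfold conv
      simp
    rw [h2]
    exact memLocalIdeal_zero
  have hvcl : IsClassFunction H v := conv_isClassFunction hecl ha₁cl
  have hvR : ∀ x, MemLocalRing M (v x) := memLocalRing_conv heR ha₁R
  have hidem : ∀ y, MemLocalIdeal M ((a₁ - conv a₁ a₁) y) := by
    intro y
    have hInv : BrauerMap.Inv Q eB := fun s _ x => hclB x s
    have h := BlkBrauer.trunc_conv_congr hM hQ hCH hInv hInv hRB hRB y
    rw [heB, conv_blockCoeff_self, ← heB] at h
    exact h
  have hvv : conv v v = conv e (conv a₁ a₁) := by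
    calc conv v v = conv e (conv a₁ (conv e a₁)) := BlockSecond.conv_assoc' _ _ _
      _ = conv e (conv (conv a₁ e) a₁) := by rw [BlockSecond.conv_assoc' a₁ e a₁]
      _ = conv e (conv (conv e a₁) a₁) := by rw [BlockSecond.conv_comm_of_class hecl a₁]
      _ = conv e (conv e (conv a₁ a₁)) := by rw [BlockSecond.conv_assoc' e a₁ a₁]
      _ = conv (conv e e) (conv a₁ a₁) := (BlockSecond.conv_assoc' _ _ _).symm
      _ = conv e (conv a₁ a₁) := by rw [he, conv_blockCoeff_self]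
  have hvid : ∀ x, MemLocalIdeal M (v x - conv v v x) := by
    intro x
    rw [hvv]
    have h1 := congrFun (BlockSecond.conv_sub_right' e a₁ (conv a₁ a₁)) x
    simp only [Pi.sub_apply] at h1
    rw [hv, ← h1]
    exact BrauerMap.memLocalIdeal_conv_right heR hidem x
  obtain ⟨ξ, hξ⟩ : ∃ ξ : IrrCharacter H, ¬ MemLocalIdeal M (omega (ξ : H → ℂ) v) := by
    by_contra hcon
    push Not at hcon
    apply hF
    exact BrauerMap.memLocalIdeal_conv_right hf₁R
      (BlockSecond.memLocalIdeal_of_idem_of_omega hvcl hvR hvid hcon) g'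
  have hξω : omega (ξ : H → ℂ) v = blkInd F.1 ξ * omega (ξ : H → ℂ) a₁ := by
    rw [hv, omega_conv ξ.2 hecl ha₁cl, he, BlkBasic.omega_blockCoeff]
  have hξF : ξ ∈ F.1 := by
    by_contra hcon
    apply hξ
    rw [hξω, blkInd_of_not_mem hcon, zero_mul]
    exact memLocalIdeal_zero
  have hξa : ¬ MemLocalIdeal M (omega (ξ : H → ℂ) a₁) := by
    intro h
    apply hξ
    rw [hξω, blkInd_of_mem hξF, one_mul]
    exact h
  have hFeq : F.1 = blockOf M (ξ : H → ℂ) := by
    obtain ⟨ψ, hψ⟩ := F.2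
    rw [hψ] at hξF ⊢
    exact (blockOf_eq_of_mem hξF).symm
  obtain ⟨B₁, hB₁, hnot⟩ := BlkBrauer.exists_block_of_irr hM hQ hCH hHN ξ
  have hind₁ := BlkBrauer.isInducedBlock_of_lam hM hQ hQH hCH hHN ξ hB₁ hnot
  rw [← hFeq] at hind₁
  obtain ⟨χ₁, hχ₁⟩ := id hB₁
  have hχ₁m : χ₁ ∈ B₁ := by
    rw [hχ₁]
    exact mem_blockOf_self χ₁
  have h1 := omega_trunc_congr hM hQ hQH hHN hind₁ hξF hχ₁m hclB hRB
  rw [heB, BlkBasic.omega_blockCoeff, ← heB] at h1
  have hχ₁B : χ₁ ∈ B := by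
    by_contra hcon
    rw [blkInd_of_not_mem hcon, sub_zero] at h1
    exact hξa h1
  have hBB : B₁ = B := by
    rcases eq_or_disjoint_of_isPBlock hB₁ hB with h | h
    · exact h
    · exact absurd hχ₁B (Set.disjoint_left.mp h hχ₁m)
  exact ⟨F.1, F.2, hcovF, hBB ▸ hind₁⟩

/-- **The core of the Harris–Knörr theorem.** -/
theorem core (hM : IsPModular p M) (hQ : IsPGroup p Q) (hQN : Q ≤ N)
    (hH : H = Subgroup.normalizer (Q : Set G)) {d : Set (IrrCharacter N)} (hd : IsPBlock M d)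
    (hdQ : IsDefectGroup p M d (Q.subgroupOf N)) {e₀ : Set (IrrCharacter (N.subgroupOf H))}
    (he₀ : IsPBlock M e₀)
    (hdef : IsDefectGroup p M e₀ ((Q.subgroupOf H).subgroupOf (N.subgroupOf H)))
    (hA : ∀ F : N → ℂ, IsClassFunction N F → (∀ x, MemLocalRing M (F x)) → ∀ θ ∈ e₀, ∀ η ∈ d,
      MemLocalIdeal M (∑ l : N.subgroupOf H, F ⟨((l : H) : G), l.2⟩ * (θ : N.subgroupOf H → ℂ) l /
        (θ : N.subgroupOf H → ℂ) 1 - omega (η : N → ℂ) F))
    (hC3 : ∀ l : N.subgroupOf H, ((l : H) : G) ∈ Subgroup.centralizer (Q : Set G) →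
      MemLocalIdeal M (blockCoeff e₀ l - blockCoeff d ⟨((l : H) : G), l.2⟩)) :
    (∀ c : Set (IrrCharacter H), IsPBlock M c →
      (∃ ψ ∈ c, ∃ θ ∈ e₀, classInner (fun n : N.subgroupOf H => (ψ : H → ℂ) n)
        (θ : N.subgroupOf H → ℂ) ≠ 0) →
      ∃! B : Set (IrrCharacter G), IsInducedBlock M H c B ∧
        ∃ χ ∈ B, ∃ θ ∈ d, classInner (fun n : N => (χ : G → ℂ) n) (θ : N → ℂ) ≠ 0) ∧
    (∀ B : Set (IrrCharacter G), IsPBlock M B →
      (∃ χ ∈ B, ∃ θ ∈ d, classInner (fun n : N => (χ : G → ℂ) n) (θ : N → ℂ) ≠ 0) →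
      ∃! c : Set (IrrCharacter H), (IsPBlock M c ∧
        ∃ ψ ∈ c, ∃ θ ∈ e₀, classInner (fun n : N.subgroupOf H => (ψ : H → ℂ) n)
          (θ : N.subgroupOf H → ℂ) ≠ 0) ∧ IsInducedBlock M H c B) := by
  classical
  haveI hMp : M.IsPrime := hM.2.1.isPrime
  have hQH : Q ≤ H := by
    rw [hH]
    exact Subgroup.le_normalizer
  have hHN : H ≤ Subgroup.normalizer (Q : Set G) := hH.le
  have hCH : Subgroup.centralizer (Q : Set G) ≤ H := by
    intro x hx
    rw [hH]
    exact BrauerCen.mem_normalizer_of_mem_centralizer hx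
  constructor
  · intro c hc hcov
    obtain ⟨ψ, hψ⟩ := id hc
    obtain ⟨B₁, hB₁, hnot⟩ := BlkBrauer.exists_block_of_irr hM hQ hCH hHN ψ
    have hind₁ := BlkBrauer.isInducedBlock_of_lam hM hQ hQH hCH hHN ψ hB₁ hnot
    rw [← hψ] at hind₁
    refine ⟨B₁, ⟨hind₁, covers_of_induced hM hQ hH hd hA hcov hind₁⟩, ?_⟩
    rintro B₂ ⟨h, -⟩
    exact BlockDefectInd.isInducedBlock_unique h hind₁
  · intro B hB hcov
    obtain ⟨c, hc, hcovc, hind⟩ := exists_covering_of_cover hM hQ hQN hH hd hdQ he₀ hC3 hB hcov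
    refine ⟨c, ⟨⟨hc, hcovc⟩, hind⟩, ?_⟩
    rintro c₂ ⟨-, hind₂⟩
    exact (induced_unique hM hQ hQN hH he₀ hdef hc hcovc hind hind₂).symm

end Core

section Bridge

/-- The values of the Brauer correspondent. -/
theorem brauer_values {X : Type u} [Group X] [Fintype X] {p : ℕ} [Fact p.Prime] {M : Ideal AlgInt}
    {P H₁ : Subgroup X} [Fintype H₁] (hM : IsPModular p M) (hP : IsPGroup p P)
    (hH₁ : Subgroup.normalizer (P : Set X) ≤ H₁) (hH₁N : H₁ ≤ Subgroup.normalizer (P : Set X))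
    {e₁ : Set (IrrCharacter H₁)} (he₁ : IsPBlock M e₁)
    (hdef₁ : IsDefectGroup p M e₁ (P.subgroupOf H₁)) {d : Set (IrrCharacter X)}
    (hind : IsInducedBlock M H₁ e₁ d) (x : X) (hx : x ∈ Subgroup.centralizer (P : Set X)) :
    MemLocalIdeal M (blockCoeff d x - subgroupBlockCoeff H₁ e₁ x) := by
  classical
  haveI hMp : M.IsPrime := hM.2.1.isPrime
  have hPH : P ≤ H₁ := Subgroup.le_normalizer.trans hH₁
  haveI hP₀ := BlkBrauer.normal_subgroupOf hPH hH₁N
  have hP₀p : IsPGroup p (P.subgroupOf H₁) := IsPGroup.comap_of_injective hP H₁.subtype H₁.subtype_injective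
  obtain ⟨B₂, ⟨hB₂, -, hcongr⟩, -⟩ := (BrauerCorr.brauer_correspondence hM hP hH₁).2 e₁ he₁ hdef₁
  have hB₂d : B₂ = d := by
    obtain ⟨η, hη⟩ := hind.2.1
    have hηm : η ∈ d := by
      rw [hη]
      exact mem_blockOf_self η
    obtain ⟨θ₁, hθ₁⟩ := id he₁
    have hθ₁m : θ₁ ∈ e₁ := by
      rw [hθ₁]
      exact mem_blockOf_self θ₁
    have hcl : IsClassFunction X (blockCoeff B₂) := BlkBasic.blockCoeff_isClassFunction B₂
    have hR : ∀ x, MemLocalRing M (blockCoeff B₂ x) := memLocalRing_blockCoeff hB₂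
    have h1 := omega_trunc_congr hM hP hPH hH₁N hind hθ₁m hηm hcl hR
    rw [BlkBasic.omega_blockCoeff] at h1
    have hdiff : ∀ h : H₁, MemLocalIdeal M (BlkBrauer.trunc P H₁ (blockCoeff B₂) h - blockCoeff e₁ h) := by
      intro h
      by_cases hh : (h : X) ∈ Subgroup.centralizer (P : Set X)
      · rw [BlkBrauer.trunc_of_mem _ hh]
        have := hcongr h hh
        rw [subgroupBlockCoeff_eq_ext0, ext0_coe] at this
        exact this
      · rw [BlkBrauer.trunc_of_not_mem _ hh]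
        have h1 : h ∉ Subgroup.centralizer ((P.subgroupOf H₁ : Subgroup H₁) : Set H₁) := by
          rwa [BlkBrauer.centralizer_subgroupOf_iff hPH]
        have h2 : blockCoeff e₁ h = 0 :=
          BlockNormal.blockCoeff_eq_zero_of_not_mem_centralizer (P.subgroupOf H₁) hP₀p hM e₁ he₁ h h1
        rw [h2, sub_self]
        exact memLocalIdeal_zero
    have hcl' : IsClassFunction H₁ (BlkBrauer.trunc P H₁ (blockCoeff B₂) - blockCoeff e₁) := by
      intro a b
      have h1 := BlkBrauer.trunc_isClassFunction hH₁N hcl a b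
      have h2 := BlkBasic.blockCoeff_isClassFunction e₁ a b
      simp only [Pi.sub_apply, h1, h2]
    have h2 := BrauerCorr.memLocalIdeal_omega_of_values' hcl' hdiff θ₁
    rw [BrauerSub.omega_sub_eq, BlkBasic.omega_blockCoeff, blkInd_of_mem hθ₁m] at h2
    have h3 := memLocalIdeal_sub_trans (memLocalIdeal_sub_comm h1) h2
    have hηB : η ∈ B₂ := by
      by_contra hcon
      rw [blkInd_of_not_mem hcon, zero_sub] at h3
      apply not_memLocalIdeal_one (M := M)
      simpa using memLocalIdeal_neg h3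
    rcases eq_or_disjoint_of_isPBlock hB₂ hind.2.1 with h | h
    · exact h
    · exact absurd hηm (Set.disjoint_left.mp h hηB)
  rw [← hB₂d]
  exact hcongr x hx

variable {G : Type u} [Group G]

/-- The identification of `H ⊓ N` with `N` inside `H`. -/
def infEquiv (H N : Subgroup G) : ↥(H ⊓ N) ≃* ↥(N.subgroupOf H) where
  toFun k := ⟨⟨k, k.2.1⟩, by
    rw [Subgroup.mem_subgroupOf]
    exact k.2.2⟩
  invFun l := ⟨l.1.1, l.1.2, Subgroup.mem_subgroupOf.mp l.2⟩
  left_inv _ := rfl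
  right_inv _ := rfl
  map_mul' _ _ := rfl

/-- The identification of `H ⊓ N` with `H ⊓ N` inside `N`. -/
def infEquiv₁ (H N : Subgroup G) : ↥(H ⊓ N) ≃* ↥((H ⊓ N).subgroupOf N) where
  toFun k := ⟨⟨k, k.2.2⟩, by
    rw [Subgroup.mem_subgroupOf]
    exact k.2⟩
  invFun l := ⟨l.1.1, Subgroup.mem_subgroupOf.mp l.2⟩
  left_inv _ := rfl
  right_inv _ := rfl
  map_mul' _ _ := rfl

theorem induced_transport {M : Ideal AlgInt} {H N : Subgroup G} {e : Set (IrrCharacter ↥(H ⊓ N))}
    {d : Set (IrrCharacter N)} (hed : IsInducedBlockIn M N (H ⊓ N) e d) :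
    IsInducedBlock M ((H ⊓ N).subgroupOf N) (twistSetE (infEquiv₁ H N) e) d := by
  classical
  refine ⟨isPBlock_twistSetE _ hed.1, hed.2.1, ?_⟩
  rintro _ ⟨ξ, hξ, rfl⟩ χ hχ g
  have h1 := hed.2.2 ξ hξ χ hχ g
  have h2 : inducedCentralChar ((H ⊓ N).subgroupOf N) (twistE (infEquiv₁ H N) ξ : _ → ℂ) g =
      inducedCentralCharIn N (H ⊓ N) (ξ : ↥(H ⊓ N) → ℂ) (g : G) := by
    unfold inducedCentralChar inducedCentralCharIn
    symm
    refine finsum_mem_eq_of_bijOn (infEquiv₁ H N) ⟨?_, ?_, ?_⟩ ?_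
    · rintro k ⟨x, hx⟩
      show IsConj g ((infEquiv₁ H N k : _) : N)
      rw [isConj_iff]
      refine ⟨x⁻¹, Subtype.ext ?_⟩
      show (x : G)⁻¹ * (g : G) * ((x : G)⁻¹)⁻¹ = (k : G)
      rw [← hx]
      group
    · intro a _ b _ hab
      exact (infEquiv₁ H N).injective hab
    · intro h₁ hh₁
      obtain ⟨c, hc⟩ := isConj_iff.mp hh₁
      refine ⟨(infEquiv₁ H N).symm h₁, ⟨c⁻¹, ?_⟩, by simp⟩
      have h3 := congrArg Subtype.val hc
      show (c : G)⁻¹ * ((h₁ : N) : G) * ((c : G)⁻¹)⁻¹ = g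
      simp only [Subgroup.coe_mul, InvMemClass.coe_inv] at h3
      rw [← h3]
      group
    · intro k _
      simp only [twistE_apply, MulEquiv.symm_apply_apply]
      congr 2
  rw [h2]
  exact h1

end Bridge

section Main

variable {G : Type u} [Group G] [Fintype G] {N : Subgroup G} [hN : N.Normal] [Fintype N]
  {p : ℕ} [Fact p.Prime] {M : Ideal AlgInt} {Q : Subgroup G}

/-- **The Harris–Knörr theorem.** -/
theorem main (hM : IsPModular p M) (hQ : IsPGroup p Q) (hQN : Q ≤ N) {H : Subgroup G}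
    (hH : H = Subgroup.normalizer (Q : Set G)) [Fintype ↥(H ⊓ N)] {d : Set (IrrCharacter N)}
    (hd : IsPBlock M d) (hdQ : IsDefectGroup p M d (Q.subgroupOf N))
    {e : Set (IrrCharacter ↥(H ⊓ N))} (he : IsPBlock M e)
    (heQ : IsDefectGroup p M e (Q.subgroupOf (H ⊓ N)))
    (hed : IsInducedBlockIn M N (H ⊓ N) e d) :
    (∀ c : Set (IrrCharacter H), IsPBlock M c →
      (∃ ψ ∈ c, ∃ ξ ∈ e, classInner (fun l : ↥(H ⊓ N) =>
        (ψ : H → ℂ) (Subgroup.inclusion inf_le_left l))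
        (ξ : ↥(H ⊓ N) → ℂ) ≠ 0) →
      ∃! B : Set (IrrCharacter G), IsInducedBlock M H c B ∧
        (∃ χ ∈ B, ∃ θ ∈ d, classInner (fun n : N => (χ : G → ℂ) n) (θ : N → ℂ) ≠ 0)) ∧
    (∀ B : Set (IrrCharacter G), IsPBlock M B →
      (∃ χ ∈ B, ∃ θ ∈ d, classInner (fun n : N => (χ : G → ℂ) n) (θ : N → ℂ) ≠ 0) →
      ∃! c : Set (IrrCharacter H), (IsPBlock M c ∧
        ∃ ψ ∈ c, ∃ ξ ∈ e, classInner (fun l : ↥(H ⊓ N) =>
          (ψ : H → ℂ) (Subgroup.inclusion inf_le_left l))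
          (ξ : ↥(H ⊓ N) → ℂ) ≠ 0) ∧
        IsInducedBlock M H c B) := by
  classical
  haveI hMp : M.IsPrime := hM.2.1.isPrime
  have hQH : Q ≤ H := by
    rw [hH]
    exact Subgroup.le_normalizer
  letI : Fintype H := Fintype.ofFinite _
  letI : Fintype (N.subgroupOf H) := Fintype.ofFinite _
  letI : Fintype ((H ⊓ N).subgroupOf N) := Fintype.ofFinite _
  set φ := infEquiv H N with hφ
  set φ₁ := infEquiv₁ H N with hφ₁
  set e₀ : Set (IrrCharacter (N.subgroupOf H)) := twistSetE φ e with he₀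
  have he₀b : IsPBlock M e₀ := isPBlock_twistSetE φ he
  have hdef₀ : IsDefectGroup p M e₀ ((Q.subgroupOf H).subgroupOf (N.subgroupOf H)) := by
    have h1 := isDefectGroup_twist φ heQ
    convert h1 using 1
    ext l
    simp only [Subgroup.mem_subgroupOf, Subgroup.mem_map]
    constructor
    · intro hl
      refine ⟨φ.symm l, ?_, by simp⟩
      exact hl
    · rintro ⟨k, hk, rfl⟩
      exact hk
  set e₁ : Set (IrrCharacter ((H ⊓ N).subgroupOf N)) := twistSetE φ₁ e with he₁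
  have he₁b : IsPBlock M e₁ := isPBlock_twistSetE φ₁ he
  have hind₁ : IsInducedBlock M ((H ⊓ N).subgroupOf N) e₁ d := induced_transport hed
  have hdef₁ : IsDefectGroup p M e₁ ((Q.subgroupOf N).subgroupOf ((H ⊓ N).subgroupOf N)) := by
    have h1 := isDefectGroup_twist φ₁ heQ
    convert h1 using 1
    ext l
    simp only [Subgroup.mem_subgroupOf, Subgroup.mem_map]
    constructor
    · intro hl
      refine ⟨φ₁.symm l, ?_, by simp⟩
      exact hl
    · rintro ⟨k, hk, rfl⟩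
      exact hk
  -- The group `↥N`
  have hP : IsPGroup p (Q.subgroupOf N) := IsPGroup.comap_of_injective hQ N.subtype N.subtype_injective
  have hnorm : ∀ x : N, x ∈ Subgroup.normalizer ((Q.subgroupOf N : Subgroup N) : Set N) ↔
      (x : G) ∈ H := by
    intro x
    rw [hH, Subgroup.mem_normalizer_iff, Subgroup.mem_normalizer_iff]
    constructor
    · intro h y
      constructor
      · intro hy
        have h1 : (⟨y, hQN hy⟩ : N) ∈ Q.subgroupOf N := by
          rw [Subgroup.mem_subgroupOf]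
          exact hy
        have h2 := (h _).mp h1
        rw [Subgroup.mem_subgroupOf] at h2
        simpa using h2
      · intro hy
        have hyN : y ∈ N := by
          have h1 := hQN hy
          have h2 := hN.conj_mem _ h1 (x : G)⁻¹
          have h3 : (x : G)⁻¹ * ((x : G) * y * (x : G)⁻¹) * ((x : G)⁻¹)⁻¹ = y := by group
          rwa [h3] at h2
        have h1 : (x : N) * ⟨y, hyN⟩ * (x : N)⁻¹ ∈ Q.subgroupOf N := by
          rw [Subgroup.mem_subgroupOf]
          simpa using hy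
        have h2 := (h _).mpr h1
        rw [Subgroup.mem_subgroupOf] at h2
        exact h2
    · intro h y
      rw [Subgroup.mem_subgroupOf, Subgroup.mem_subgroupOf]
      simpa using h y
  have hH₁ : Subgroup.normalizer ((Q.subgroupOf N : Subgroup N) : Set N) ≤ (H ⊓ N).subgroupOf N := by
    intro x hx
    rw [Subgroup.mem_subgroupOf]
    exact ⟨(hnorm x).mp hx, x.2⟩
  have hH₁N : (H ⊓ N).subgroupOf N ≤ Subgroup.normalizer ((Q.subgroupOf N : Subgroup N) : Set N) := by
    intro x hx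
    rw [Subgroup.mem_subgroupOf] at hx
    exact (hnorm x).mpr hx.1
  have hval := brauer_values hM hP hH₁ hH₁N he₁b hdef₁ hind₁
  -- the hypotheses of the core
  have hA : ∀ F : N → ℂ, IsClassFunction N F → (∀ x, MemLocalRing M (F x)) → ∀ θ ∈ e₀, ∀ η ∈ d,
      MemLocalIdeal M (∑ l : N.subgroupOf H, F ⟨((l : H) : G), l.2⟩ * (θ : N.subgroupOf H → ℂ) l /
        (θ : N.subgroupOf H → ℂ) 1 - omega (η : N → ℂ) F) := by
    rintro F hF hR _ ⟨ξ, hξ, rfl⟩ η hη
    have h1 := BlockInduced.memLocalIdeal_trunc_sub ((H ⊓ N).subgroupOf N)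
      (twistE φ₁ ξ : _ → ℂ) η (hind₁.2.2 _ ⟨ξ, hξ, rfl⟩ η hη) hF hR
    convert h1 using 2
    refine Fintype.sum_equiv (φ.symm.trans φ₁).toEquiv _ _ fun l => ?_
    simp only [twistE_apply]
    congr 2
  have hC3 : ∀ l : N.subgroupOf H, ((l : H) : G) ∈ Subgroup.centralizer (Q : Set G) →
      MemLocalIdeal M (blockCoeff e₀ l - blockCoeff d ⟨((l : H) : G), l.2⟩) := by
    intro l hl
    set x : N := ⟨((l : H) : G), l.2⟩ with hx
    have hxC : x ∈ Subgroup.centralizer ((Q.subgroupOf N : Subgroup N) : Set N) := by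
      rw [Subgroup.mem_centralizer_iff]
      intro y hy
      apply Subtype.ext
      have hy' : (y : G) ∈ Q := by
        have : y ∈ Q.subgroupOf N := hy
        rwa [Subgroup.mem_subgroupOf] at this
      exact Subgroup.mem_centralizer_iff.mp hl _ hy'
    have h1 := hval x hxC
    have hxK : x ∈ (H ⊓ N).subgroupOf N := by
      rw [Subgroup.mem_subgroupOf]
      exact ⟨(l : H).2, l.2⟩
    rw [subgroupBlockCoeff_eq_ext0, ext0_of_mem _ _ hxK] at h1
    have h2 : blockCoeff e₁ ⟨x, hxK⟩ = blockCoeff e (φ₁.symm ⟨x, hxK⟩) := by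
      have := blockCoeff_twistSetE φ₁ e (φ₁.symm ⟨x, hxK⟩)
      rwa [MulEquiv.apply_symm_apply] at this
    have h3 : blockCoeff e₀ l = blockCoeff e (φ.symm l) := by
      have := blockCoeff_twistSetE φ e (φ.symm l)
      rwa [MulEquiv.apply_symm_apply] at this
    have h4 : φ₁.symm ⟨x, hxK⟩ = φ.symm l := rfl
    rw [h2, h4, ← h3] at h1
    exact memLocalIdeal_sub_comm h1
  have hcore := core hM hQ hQN hH hd hdQ he₀b hdef₀ hA hC3
  -- the covering conditions
  have hconv : ∀ c : Set (IrrCharacter H),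
      (∃ ψ ∈ c, ∃ ξ ∈ e, classInner (fun l : ↥(H ⊓ N) =>
        (ψ : H → ℂ) (Subgroup.inclusion inf_le_left l)) (ξ : ↥(H ⊓ N) → ℂ) ≠ 0) ↔
      (∃ ψ ∈ c, ∃ θ ∈ e₀, classInner (fun n : N.subgroupOf H => (ψ : H → ℂ) n)
        (θ : N.subgroupOf H → ℂ) ≠ 0) := by
    have h1 : ∀ (ψ : IrrCharacter H) (ξ : IrrCharacter ↥(H ⊓ N)),
        classInner (fun l : ↥(H ⊓ N) => (ψ : H → ℂ) (Subgroup.inclusion inf_le_left l))
          (ξ : ↥(H ⊓ N) → ℂ) =
        classInner (fun n : N.subgroupOf H => (ψ : H → ℂ) n)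
          (twistE φ ξ : N.subgroupOf H → ℂ) := by
      intro ψ ξ
      rw [← classInner_comp_equiv φ]
      congr 1
    intro c
    constructor
    · rintro ⟨ψ, hψ, ξ, hξ, hne⟩
      refine ⟨ψ, hψ, twistE φ ξ, ⟨ξ, hξ, rfl⟩, ?_⟩
      rwa [← h1]
    · rintro ⟨ψ, hψ, _, ⟨ξ, hξ, rfl⟩, hne⟩
      refine ⟨ψ, hψ, ξ, hξ, ?_⟩
      rwa [h1]
  refine ⟨fun c hc h => hcore.1 c hc ((hconv c).mp h), fun B hB h => ?_⟩
  obtain ⟨c, ⟨⟨hc, hcov⟩, hind⟩, huniq⟩ := hcore.2 B hB h
  exact ⟨c, ⟨⟨hc, (hconv c).mpr hcov⟩, hind⟩,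
    fun c₂ hc₂ => huniq c₂ ⟨⟨hc₂.1.1, (hconv c₂).mp hc₂.1.2⟩, hc₂.2⟩⟩

end Main

end Cfsg.Agent.Lib.HarrisKnorr
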