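import Cfsg.Agent.Lib.HeDTab

set_option autoImplicit false
set_option maxRecDepth 100000
set_option Elab.async false

namespace Cfsg.Agent.Lib.HeDSt0

open Cfsg.Agent.Lib.ChainCert Cfsg.Agent.Lib.ProgBits Cfsg.Agent.Lib.ProgChain Cfsg.Agent.Lib.PermChain Cfsg.Agent.Lib.TcBits
open Cfsg.Agent.Lib.HeDTab

theorem st0_10_0 : allR (guard Pst0 (nat_lit 4628)) 10 (nat_lit 0) = true := by decide +kernel
theorem st0_10_1024 : allR (guard Pst0 (nat_lit 4628)) 10 (nat_lit 1024) = true := by decide +kernel
theorem st0_10_2048 : allR (guard Pst0 (nat_lit 4628)) 10 (nat_lit 2048) = true := by decide +kernel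
theorem st0_10_3072 : allR (guard Pst0 (nat_lit 4628)) 10 (nat_lit 3072) = true := by decide +kernel
theorem st0_10_4096 : allR (guard Pst0 (nat_lit 4628)) 10 (nat_lit 4096) = true := by decide +kernel
theorem st0_10_5120 : allR (guard Pst0 (nat_lit 4628)) 10 (nat_lit 5120) = true := by decide +kernel
theorem st0_10_6144 : allR (guard Pst0 (nat_lit 4628)) 10 (nat_lit 6144) = true := by decide +kernel
theorem st0_10_7168 : allR (guard Pst0 (nat_lit 4628)) 10 (nat_lit 7168) = true := by decide +kernel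
theorem st0_11_0 : allR (guard Pst0 (nat_lit 4628)) 11 (nat_lit 0) = true := allR_join (mid := nat_lit 1024) rfl st0_10_0 st0_10_1024
theorem st0_11_2048 : allR (guard Pst0 (nat_lit 4628)) 11 (nat_lit 2048) = true := allR_join (mid := nat_lit 3072) rfl st0_10_2048 st0_10_3072
theorem st0_11_4096 : allR (guard Pst0 (nat_lit 4628)) 11 (nat_lit 4096) = true := allR_join (mid := nat_lit 5120) rfl st0_10_4096 st0_10_5120
theorem st0_11_6144 : allR (guard Pst0 (nat_lit 4628)) 11 (nat_lit 6144) = true := allR_join (mid := nat_lit 7168) rfl st0_10_6144 st0_10_7168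
theorem st0_12_0 : allR (guard Pst0 (nat_lit 4628)) 12 (nat_lit 0) = true := allR_join (mid := nat_lit 2048) rfl st0_11_0 st0_11_2048
theorem st0_12_4096 : allR (guard Pst0 (nat_lit 4628)) 12 (nat_lit 4096) = true := allR_join (mid := nat_lit 6144) rfl st0_11_4096 st0_11_6144
theorem st0_13_0 : allR (guard Pst0 (nat_lit 4628)) 13 (nat_lit 0) = true := allR_join (mid := nat_lit 4096) rfl st0_12_0 st0_12_4096
theorem st0_all : ∀ i, i < (nat_lit 4628) → Pst0 i = true := of_guard (k := 13) (by norm_num) st0_13_0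

end Cfsg.Agent.Lib.HeDSt0
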