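import Cfsg.Agent.Lib.HeVChk
import Cfsg.Agent.Lib.HeVSt0
import Cfsg.Agent.Lib.HeVSt1
import Cfsg.Agent.Lib.HeVSt2
import Cfsg.Agent.Lib.HeVSt3

set_option autoImplicit false
set_option maxRecDepth 100000
set_option linter.unusedSectionVars false

/-! Generated file: the chain and the order of the group. -/

namespace Cfsg.Agent.Lib.HeVMain

open Cfsg.Agent.Lib.ChainCert Cfsg.Agent.Lib.ProgBits Cfsg.Agent.Lib.ProgChain Cfsg.Agent.Lib.PermChain Cfsg.Agent.Lib.TcBits
open Cfsg.Agent.Lib.HeVTab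
open Cfsg.Agent.Lib.HeVChk Cfsg.Agent.Lib.HeVSt0 Cfsg.Agent.Lib.HeVSt1 Cfsg.Agent.Lib.HeVSt2 Cfsg.Agent.Lib.HeVSt3

theorem hN : nat_lit 256 = 2 ^ 8 := by norm_num
theorem hM : M = 2 ^ 256 - 1 := by decide +kernel
theorem hR : R = repU 256 8 := by decide +kernel
theorem hY : Y = yId 8 := by decide +kernel
theorem htot : ∀ e, 62 ≤ e → pr e = [] := by
  intro e he
  rw [pr, show Nat.ble ((nat_lit 62)) e = true from Nat.ble_eq_true_of_le he]
  rfl

/-- the context -/
theorem ctx : Ctx 256 8 pr R Y :=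
  ctx_mk' (N := (nat_lit 256)) (M := M) (tot := 62) (by norm_num) hN hM hR hY let_all htot

/-- the letters -/
noncomputable abbrev g : ℕ → Equiv.Perm (Fin 256) := lp pr 256

theorem hOb3 : Om3.testBit 64 = true := by decide +kernel
theorem hroot3 : tw3 64 = [] := by decide +kernel
theorem lev3 : (∀ e, 60 ≤ e → g e ∈ grp g 60 2) ∧
    Level (grp g 60 2) (grp g 62 0) ⟨64, by norm_num⟩
      (fun p => prodW g (tw3 p.val)) (orbF 256 Om3) :=
  level_bundle ctx (lo := 60) (ns := 2) (hi := 62) (ns' := 0) (b := 64) (Om := Om3) (tw := tw3) (st := stE3) (der := derT) (wA := certA) (wB := certB) (by norm_num)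
    der3_all cert3_all fix3_all img3_all hOb3 hroot3 st3_all (letters_bottom ctx htot)
theorem cOm3 : (orbF 256 Om3).card = 4 := by
  rw [card_orbF]; decide +kernel
theorem hOb2 : Om2.testBit 16 = true := by decide +kernel
theorem hroot2 : tw2 16 = [] := by decide +kernel
theorem lev2 : (∀ e, 52 ≤ e → g e ∈ grp g 52 6) ∧
    Level (grp g 52 6) (grp g 60 2) ⟨16, by norm_num⟩
      (fun p => prodW g (tw2 p.val)) (orbF 256 Om2) :=
  level_bundle ctx (lo := 52) (ns := 6) (hi := 60) (ns' := 2) (b := 16) (Om := Om2) (tw := tw2) (st := stE2) (der := derT) (wA := certA) (wB := certB) (by norm_num)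
    der2_all cert2_all fix2_all img2_all hOb2 hroot2 st2_all (lev3).1
theorem cOm2 : (orbF 256 Om2).card = 16 := by
  rw [card_orbF]; decide +kernel
theorem hOb1 : Om1.testBit 4 = true := by decide +kernel
theorem hroot1 : tw1 4 = [] := by decide +kernel
theorem lev1 : (∀ e, 35 ≤ e → g e ∈ grp g 35 2) ∧
    Level (grp g 35 2) (grp g 52 6) ⟨4, by norm_num⟩
      (fun p => prodW g (tw1 p.val)) (orbF 256 Om1) :=
  level_bundle ctx (lo := 35) (ns := 2) (hi := 52) (ns' := 6) (b := 4) (Om := Om1) (tw := tw1) (st := stE1) (der := derT) (wA := certA) (wB := certB) (by norm_num)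
    der1_all cert1_all fix1_all img1_all hOb1 hroot1 st1_all (lev2).1
theorem cOm1 : (orbF 256 Om1).card = 60 := by
  rw [card_orbF]; decide +kernel
theorem hOb0 : Om0.testBit 1 = true := by decide +kernel
theorem hroot0 : tw0 1 = [] := by decide +kernel
theorem lev0 : (∀ e, 0 ≤ e → g e ∈ grp g 0 2) ∧
    Level (grp g 0 2) (grp g 35 2) ⟨1, by norm_num⟩
      (fun p => prodW g (tw0 p.val)) (orbF 256 Om0) :=
  level_bundle ctx (lo := 0) (ns := 2) (hi := 35) (ns' := 2) (b := 1) (Om := Om0) (tw := tw0) (st := stE0) (der := derT) (wA := certA) (wB := certB) (by norm_num)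
    der0_all cert0_all fix0_all img0_all hOb0 hroot0 st0_all (lev1).1
theorem cOm0 : (orbF 256 Om0).card = 255 := by
  rw [card_orbF]; decide +kernel
theorem cardH4 : Nat.card (grp g 62 0) = 1 := by
  rw [grp_zero]; simp
theorem cardH3 : Nat.card (grp g 60 2) = 4 := by
  rw [(lev3).2.card, cOm3, cardH4]
theorem cardH2 : Nat.card (grp g 52 6) = 64 := by
  rw [(lev2).2.card, cOm2, cardH3]
theorem cardH1 : Nat.card (grp g 35 2) = 3840 := by
  rw [(lev1).2.card, cOm1, cardH2]
theorem cardH0 : Nat.card (grp g 0 2) = 979200 := by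
  rw [(lev0).2.card, cOm0, cardH1]

end Cfsg.Agent.Lib.HeVMain
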