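import Cfsg.Agent.Lib.HePMain
import Cfsg.Agent.Lib.HeNMain
import Cfsg.Agent.Lib.HeVMain
import Cfsg.Agent.Lib.HeDMain
import Cfsg.Agent.Lib.HeLinkTab
import Cfsg.Agent.Lib.ProgCross
import Cfsg.Agent.Lib.SpOrder
import Cfsg.Agent.Lib.F4Mat

/-!
# The index two subgroup of the point stabilizer of `He` on `2058` points is `Sp₄(4)`
-/

set_option autoImplicit false
set_option maxRecDepth 100000
set_option linter.style.haveILetI false

namespace Cfsg.Agent.Lib.HeIso

open Cfsg.Agent.Lib.ChainCert Cfsg.Agent.Lib.ProgBits Cfsg.Agent.Lib.ProgChain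
  Cfsg.Agent.Lib.PermChain Cfsg.Agent.Lib.TcBits Cfsg.Agent.Lib.ProgCross
  Cfsg.Agent.Lib.HeLinkTab Cfsg.Agent.Lib.F4Mat

/-- letters of the Held group -/
noncomputable abbrev gH := Cfsg.Agent.Lib.HePMain.g
/-- letters of `N` -/
noncomputable abbrev gN := Cfsg.Agent.Lib.HeNMain.g
/-- letters of the group on vectors -/
noncomputable abbrev gV := Cfsg.Agent.Lib.HeVMain.g
/-- letters of the diagonal group -/
noncomputable abbrev gD := Cfsg.Agent.Lib.HeDMain.g

/-! ### the diagonal -/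

/-- check at a point of the first segment -/
def PA (cn : ℕ → ℕ) (e j : ℕ) : Bool :=
  ptChk Cfsg.Agent.Lib.HeDTab.pr [e] (cn j) j && ptChk Cfsg.Agent.Lib.HeNTab.pr [e] (cn j) j

/-- check at a point of the second segment -/
def PB (dv : ℕ → ℕ) (e j : ℕ) : Bool :=
  ptChk Cfsg.Agent.Lib.HeDTab.pr [e] (Nat.add (nat_lit 2058) (dv j)) (Nat.add (nat_lit 2058) j) &&
    ptChk Cfsg.Agent.Lib.HeVTab.pr [e] (dv j) j

theorem pa0 : allR (guard (PA cn0 0) (nat_lit 2058)) 12 (nat_lit 0) = true := by decide +kernel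
theorem pa1 : allR (guard (PA cn1 1) (nat_lit 2058)) 12 (nat_lit 0) = true := by decide +kernel
theorem pb0 : allR (guard (PB dv0 0) (nat_lit 256)) 8 (nat_lit 0) = true := by decide +kernel
theorem pb1 : allR (guard (PB dv1 1) (nat_lit 256)) 8 (nat_lit 0) = true := by decide +kernel

theorem lp1 {n k : ℕ} {pr : ℕ → List (ℕ × ℕ)} {R Y : ℕ} (C : Ctx n k pr R Y) {e p : ℕ} {b : Fin n}
    (h : ptChk pr [e] p b.val = true) : (lp pr n e b).val = p := by
  have h1 := C.prodW_pt h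
  simpa [prodW_cons, prodW_nil] using h1

theorem iota_link {e : ℕ} {cn dv : ℕ → ℕ}
    (ha : ∀ j, j < 2058 → PA cn e j = true) (hb : ∀ j, j < 256 → PB dv e j = true) :
    iota 2058 256 (gN e, gV e) = gD e := by
  apply Equiv.ext
  intro x
  apply Fin.ext
  by_cases hx : x.val < 2058
  · rw [iota_low _ _ x hx]
    have h1 := ha x.val hx
    simp only [PA, Bool.and_eq_true] at h1
    have h2 := lp1 Cfsg.Agent.Lib.HeNMain.ctx (b := ⟨x.val, hx⟩) h1.2
    have h3 := lp1 Cfsg.Agent.Lib.HeDMain.ctx (b := x) h1.1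
    exact h2.trans h3.symm
  · have hx' : 2058 ≤ x.val := by omega
    rw [iota_high _ _ x hx']
    have hj : x.val - 2058 < 256 := by have := x.isLt; omega
    have h1 := hb _ hj
    simp only [PB, Bool.and_eq_true] at h1
    have h2 := lp1 Cfsg.Agent.Lib.HeVMain.ctx (b := ⟨x.val - 2058, hj⟩) h1.2
    have e1 : Nat.add (nat_lit 2058) (x.val - 2058) = x.val := by
      show 2058 + (x.val - 2058) = x.val
      omega
    rw [e1] at h1
    have h3 := lp1 Cfsg.Agent.Lib.HeDMain.ctx (b := x) h1.1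
    rw [h2, h3]
    rfl

theorem iota_all : ∀ k ∈ List.range' 0 2, iota 2058 256 (gN k, gV k) = gD k := by
  intro k hk
  obtain ⟨h1, h2⟩ := List.mem_range'_1.mp hk
  have h3 : k = 0 ∨ k = 1 := by omega
  rcases h3 with rfl | rfl
  · exact iota_link (of_guard (k := 12) (by norm_num) pa0) (of_guard (k := 8) (by norm_num) pb0)
  · exact iota_link (of_guard (k := 12) (by norm_num) pa1) (of_guard (k := 8) (by norm_num) pb1)

/-- the diagonal group -/
noncomputable def DD : Subgroup (Equiv.Perm (Fin 2058) × Equiv.Perm (Fin 256)) :=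
  Subgroup.closure {x | ∃ k ∈ List.range' 0 2, x = (gN k, gV k)}

theorem DD_map_iota : DD.map (iota 2058 256) = grp gD 0 2 := by
  rw [DD, MonoidHom.map_closure, grp, genOf]
  congr 1
  ext y
  constructor
  · rintro ⟨x, ⟨k, hk, rfl⟩, rfl⟩
    exact ⟨k, hk, iota_all k hk⟩
  · rintro ⟨k, hk, rfl⟩
    exact ⟨_, ⟨k, hk, rfl⟩, iota_all k hk⟩

theorem DD_map_fst : DD.map (MonoidHom.fst _ _) = grp gN 0 2 := by
  rw [DD, MonoidHom.map_closure, grp, genOf]
  congr 1
  ext y
  constructor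
  · rintro ⟨x, ⟨k, hk, rfl⟩, rfl⟩
    exact ⟨k, hk, rfl⟩
  · rintro ⟨k, hk, rfl⟩
    exact ⟨_, ⟨k, hk, rfl⟩, rfl⟩

theorem DD_map_snd : DD.map (MonoidHom.snd _ _) = grp gV 0 2 := by
  rw [DD, MonoidHom.map_closure, grp, genOf]
  congr 1
  ext y
  constructor
  · rintro ⟨x, ⟨k, hk, rfl⟩, rfl⟩
    exact ⟨k, hk, rfl⟩
  · rintro ⟨k, hk, rfl⟩
    exact ⟨_, ⟨k, hk, rfl⟩, rfl⟩

theorem card_DD : Nat.card DD = 979200 := by
  rw [← Subgroup.card_map_of_injective (f := iota 2058 256) (iota_injective 2058 256), DD_map_iota]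
  exact Cfsg.Agent.Lib.HeDMain.cardH0

theorem equiv_NV : Nonempty (grp gN 0 2 ≃* grp gV 0 2) :=
  equiv_of_diag DD _ _ DD_map_fst DD_map_snd
    (by rw [card_DD]; exact Cfsg.Agent.Lib.HeNMain.cardH0.symm)
    (by rw [card_DD]; exact Cfsg.Agent.Lib.HeVMain.cardH0.symm)

/-! ### the symplectic group -/

/-- the field -/
abbrev KK := F4Mat.K4
/-- the vectors -/
abbrev VV := Fin 2 ⊕ Fin 2 → KK
/-- the matrices -/
abbrev MM := Matrix (Fin 2 ⊕ Fin 2) (Fin 2 ⊕ Fin 2) KK
/-- the symplectic group -/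
abbrev SS := Matrix.symplecticGroup (Fin 2) KK

/-- coordinates -/
def ix : Fin 2 ⊕ Fin 2 → ℕ
  | .inl i => i.val
  | .inr i => 2 + i.val

/-- from numbers to the field -/
def ofN : ℕ → KK
  | 0 => K4.o
  | 1 => K4.e
  | 2 => K4.w
  | _ => K4.v

/-- from the field to numbers -/
def toN : KK → ℕ
  | K4.o => 0
  | K4.e => 1
  | K4.w => 2
  | K4.v => 3

/-- a matrix from its code -/
def mkM (c : ℕ) : MM := fun i j => ofN ((c >>> (2 * (4 * ix i + ix j))) % 4)

/-- a vector from its code -/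
def E0 (j : ℕ) : VV := fun x => ofN ((j >>> (2 * ix x)) % 4)

/-- the code of a vector -/
def enc (v : VV) : ℕ :=
  toN (v (.inl 0)) + 4 * toN (v (.inl 1)) + 16 * toN (v (.inr 0)) + 64 * toN (v (.inr 1))

theorem enc_E0 : ∀ j : Fin 256, enc (E0 j.val) = j.val := by decide +kernel

theorem card_VV : Fintype.card VV = 256 := by
  simp [K4.card_eq]

/-- vectors are numbered -/
noncomputable def EE : Fin 256 ≃ VV :=
  Equiv.ofBijective (fun j => E0 j.val) (by
    rw [Fintype.bijective_iff_injective_and_card]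
    refine ⟨fun a b h => Fin.ext ?_, by rw [card_VV]; rfl⟩
    have h1 := congrArg enc h
    simpa only [enc_E0] using h1)

/-- the action on vectors -/
def actFun (A : SS) : Equiv.Perm VV where
  toFun v := (A : MM).mulVec v
  invFun v := ((A⁻¹ : SS) : MM).mulVec v
  left_inv v := by
    show ((A⁻¹ : SS) : MM).mulVec ((A : MM).mulVec v) = v
    rw [Matrix.mulVec_mulVec]
    have : ((A⁻¹ : SS) : MM) * (A : MM) = 1 := by
      exact congrArg (fun x : SS => (x : MM)) (inv_mul_cancel A)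
    rw [this, Matrix.one_mulVec]
  right_inv v := by
    show (A : MM).mulVec (((A⁻¹ : SS) : MM).mulVec v) = v
    rw [Matrix.mulVec_mulVec]
    have : (A : MM) * ((A⁻¹ : SS) : MM) = 1 := by
      exact congrArg (fun x : SS => (x : MM)) (mul_inv_cancel A)
    rw [this, Matrix.one_mulVec]

/-- the action on vectors, as a homomorphism -/
def actHom : SS →* Equiv.Perm VV :=
  MonoidHom.mk' actFun (by
    intro A B
    apply Equiv.ext
    intro v
    show ((A * B : SS) : MM).mulVec v = (A : MM).mulVec ((B : MM).mulVec v)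
    rw [Matrix.mulVec_mulVec]
    rfl)

/-- the action on numbered vectors -/
noncomputable def rho : SS →* Equiv.Perm (Fin 256) :=
  EE.symm.permCongrHom.toMonoidHom.comp actHom

theorem sp0 : mkM mc0 ∈ SS := by
  rw [SymplecticGroup.mem_iff]
  decide +kernel
theorem sp1 : mkM mc1 ∈ SS := by
  rw [SymplecticGroup.mem_iff]
  decide +kernel

theorem mv0 : ∀ j : Fin 256, (mkM mc0).mulVec (E0 j.val) = E0 (dv0 j.val) := by decide +kernel
theorem mv1 : ∀ j : Fin 256, (mkM mc1).mulVec (E0 j.val) = E0 (dv1 j.val) := by decide +kernel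

theorem rho_link {e : ℕ} {dv : ℕ → ℕ} {c : ℕ} (hc : mkM c ∈ SS)
    (hm : ∀ j : Fin 256, (mkM c).mulVec (E0 j.val) = E0 (dv j.val))
    (hb : ∀ j, j < 256 → PB dv e j = true) : rho ⟨mkM c, hc⟩ = gV e := by
  apply Equiv.ext
  intro j
  have h1 := hb j.val j.isLt
  simp only [PB, Bool.and_eq_true] at h1
  have h2 := lp1 Cfsg.Agent.Lib.HeVMain.ctx (b := j) h1.2
  show EE.symm ((mkM c).mulVec (EE j)) = gV e j
  rw [Equiv.symm_apply_eq]
  show (mkM c).mulVec (E0 j.val) = E0 (gV e j).val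
  rw [show (gV e j).val = dv j.val from h2]
  exact hm j

theorem card_SS : Nat.card SS = 979200 := by
  have h := Cfsg.Agent.Lib.SpOrder.card_Sp (F := KK) 2
  rw [K4.card_eq] at h
  rw [h]
  decide

theorem grp_le_range : grp gV 0 2 ≤ rho.range := by
  rw [grp, genOf, Subgroup.closure_le]
  rintro x ⟨k, hk, rfl⟩
  obtain ⟨h1, h2⟩ := List.mem_range'_1.mp hk
  have h3 : k = 0 ∨ k = 1 := by omega
  rcases h3 with rfl | rfl
  · exact ⟨_, rho_link sp0 mv0 (of_guard (k := 8) (by norm_num) pb0)⟩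
  · exact ⟨_, rho_link sp1 mv1 (of_guard (k := 8) (by norm_num) pb1)⟩

theorem equiv_SV : Nonempty (SS ≃* grp gV 0 2) := by
  have h0 : Nat.card (grp gV 0 2) = 979200 := Cfsg.Agent.Lib.HeVMain.cardH0
  have h1 : Nat.card rho.range ≤ Nat.card SS := by
    have : Function.Surjective rho.rangeRestrict := rho.rangeRestrict_surjective
    exact Nat.card_le_card_of_surjective _ this
  have h2 : Nat.card (grp gV 0 2) ≥ Nat.card rho.range := by rw [h0, ← card_SS]; exact h1
  have h3 : grp gV 0 2 = rho.range := Subgroup.eq_of_le_of_card_ge grp_le_range h2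
  have h4 : Nat.card SS ≤ Nat.card rho.range := by
    rw [← h3, h0, card_SS]
  have h5 := (rho.rangeRestrict_surjective).bijective_of_nat_card_le h4
  exact ⟨(MulEquiv.ofBijective _ h5).trans (MulEquiv.subgroupCongr h3.symm)⟩

/-! ### the subgroup of the stabilizer -/

theorem card_H1 : Nat.card (grp gH 99 2) = 1958400 := Cfsg.Agent.Lib.HePMain.cardH1

theorem wn0_chk : Nat.beq (xWord Cfsg.Agent.Lib.HeNTab.R Cfsg.Agent.Lib.HeNTab.pr Cfsg.Agent.Lib.HeNTab.Y [0])
    (xWord Cfsg.Agent.Lib.HePTab.R Cfsg.Agent.Lib.HePTab.pr Cfsg.Agent.Lib.HePTab.Y wn0) = true := by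
  decide +kernel
theorem wn1_chk : Nat.beq (xWord Cfsg.Agent.Lib.HeNTab.R Cfsg.Agent.Lib.HeNTab.pr Cfsg.Agent.Lib.HeNTab.Y [1])
    (xWord Cfsg.Agent.Lib.HePTab.R Cfsg.Agent.Lib.HePTab.pr Cfsg.Agent.Lib.HePTab.Y wn1) = true := by
  decide +kernel

theorem N_le_H1 : grp gN 0 2 ≤ grp gH 99 2 := by
  rw [grp, genOf, Subgroup.closure_le]
  rintro x ⟨k, hk, rfl⟩
  obtain ⟨h1, h2⟩ := List.mem_range'_1.mp hk
  have h3 : k = 0 ∨ k = 1 := by omega
  have hL := (Cfsg.Agent.Lib.HePMain.lev1).1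
  rcases h3 with rfl | rfl
  · have h4 := prodW_cross Cfsg.Agent.Lib.HeNMain.ctx Cfsg.Agent.Lib.HePMain.ctx wn0_chk
    simp only [prodW_cons, prodW_nil, mul_one] at h4
    show gN 0 ∈ _
    rw [show gN 0 = _ from h4]
    exact prodW_mem hL (by decide)
  · have h4 := prodW_cross Cfsg.Agent.Lib.HeNMain.ctx Cfsg.Agent.Lib.HePMain.ctx wn1_chk
    simp only [prodW_cons, prodW_nil, mul_one] at h4
    show gN 1 ∈ _
    rw [show gN 1 = _ from h4]
    exact prodW_mem hL (by decide)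

/-- the Held group -/
noncomputable abbrev HH : Subgroup (Equiv.Perm (Fin 2058)) := grp gH 0 2

/-- the subgroup of the stabilizer -/
noncomputable def NN : Subgroup (MulAction.stabilizer HH (0 : Fin 2058)) :=
  (grp gN 0 2).comap (HH.subtype.comp (MulAction.stabilizer HH (0 : Fin 2058)).subtype)

theorem mem_H_of_N {y : Equiv.Perm (Fin 2058)} (hy : y ∈ grp gN 0 2) :
    ∃ (h : y ∈ HH), (⟨y, h⟩ : HH) • (0 : Fin 2058) = 0 := by
  have h1 := N_le_H1 hy
  rw [(Cfsg.Agent.Lib.HePMain.lev0).2.stab] at h1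
  exact ⟨h1.1, h1.2⟩

/-- `N` is isomorphic to the group of permutations `grp gN 0 2` -/
noncomputable def NNmap : NN →* grp gN 0 2 :=
  MonoidHom.mk' (fun x => ⟨x.1.1.1, x.2⟩) (fun _ _ => rfl)

theorem NNmap_bij : Function.Bijective NNmap := by
  constructor
  · rintro ⟨⟨⟨x, hx⟩, hx'⟩, hx''⟩ ⟨⟨⟨y, hy⟩, hy'⟩, hy''⟩ h
    have : x = y := congrArg Subtype.val h
    subst this
    rfl
  · rintro ⟨y, hy⟩
    obtain ⟨h1, h2⟩ := mem_H_of_N hy
    exact ⟨⟨⟨⟨y, h1⟩, h2⟩, hy⟩, rfl⟩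

theorem card_NN : Nat.card NN = 979200 := by
  rw [Nat.card_congr (MulEquiv.ofBijective NNmap NNmap_bij).toEquiv]
  exact Cfsg.Agent.Lib.HeNMain.cardH0

theorem card_stab : Nat.card (MulAction.stabilizer HH (0 : Fin 2058)) = 1958400 := by
  have h := card_stabilizer_of_level (Cfsg.Agent.Lib.HePMain.lev0).2
  exact h.trans card_H1

theorem index_NN : NN.index = 2 := by
  have h := Subgroup.card_mul_index NN
  rw [card_NN, card_stab] at h
  omega

theorem equiv_NN : Nonempty (NN ≃* SS) := by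
  obtain ⟨e1⟩ := equiv_NV
  obtain ⟨e2⟩ := equiv_SV
  exact ⟨(MulEquiv.ofBijective NNmap NNmap_bij).trans (e1.trans e2.symm)⟩

theorem transitive_HH : MulAction.IsPretransitive HH (Fin 2058) :=
  transitive_of_level (Cfsg.Agent.Lib.HePMain.lev0).2 (all_mem_orbF Cfsg.Agent.Lib.HePMain.hOm)

end Cfsg.Agent.Lib.HeIso
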