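import Cfsg.Agent.Lib.SchurLev12
import Cfsg.Agent.Lib.SparseDfs
import Cfsg.Agent.Lib.PermChain12

/-!
# Levels of subgroups of symmetric groups, given by tables
-/

set_option autoImplicit false
set_option linter.style.haveILetI false
set_option linter.unusedSectionVars false

namespace Cfsg.Agent.Lib.SchurPerm12

open Cfsg Subgroup Cfsg.Agent.Lib.SchurCoset46 Cfsg.Agent.Lib.SchurLev12 Cfsg.Agent.Lib.PermChain12
  Cfsg.Agent.Lib.SparseDfs
open scoped Pointwise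

section

variable {N : ℕ} [NeZero N]

/-- a point given by a number -/
def ptN (N : ℕ) [NeZero N] (x : ℕ) : Fin N := Fin.ofNat N x

theorem ptN_val {x : ℕ} (h : x < N) : (ptN N x).val = x := Nat.mod_eq_of_lt h

theorem ptN_self (y : Fin N) : ptN N y.val = y := Fin.ext (ptN_val y.isLt)

/-- a set of points given by its bits -/
def maskOf (N : ℕ) (b : ℕ) : Set (Fin N) := {x | b.testBit x.val = true}

variable {Q₀ : Subgroup (Equiv.Perm (Fin N))}

theorem smul_maskOf (g : ↥Q₀) {a b : ℕ} {f : ℕ → ℕ} (hf : ∀ x : Fin N, (g⁻¹ • x).val = f x.val)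
    (h : ∀ x, x < N → a.testBit (f x) = b.testBit x) : g • maskOf N a = maskOf N b := by
  ext y
  rw [Set.mem_smul_set_iff_inv_smul_mem]
  show a.testBit (g⁻¹ • y).val = true ↔ b.testBit y.val = true
  rw [hf, h y.val y.isLt]

theorem maskOf_ne {a b : ℕ} (h : (List.range N).any (fun x => a.testBit x != b.testBit x) = true) :
    maskOf N a ≠ maskOf N b := by
  intro he
  rw [List.any_eq_true] at h
  obtain ⟨x, hx, h2⟩ := h
  have hx' : x < N := List.mem_range.mp hx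
  have h3 : (⟨x, hx'⟩ : Fin N) ∈ maskOf N a ↔ (⟨x, hx'⟩ : Fin N) ∈ maskOf N b := by rw [he]
  have h4 : a.testBit x = true ↔ b.testBit x = true := h3
  have h5 : a.testBit x = b.testBit x := by
    cases h6 : a.testBit x <;> cases h7 : b.testBit x <;> simp_all
  rw [h5] at h2
  simp at h2

/-- The table of an action on points. -/
structure PtTab (n : ℕ) (T : ℕ → ℕ → ℕ) (pt : ℕ → Fin N) (s : ℕ → ↥Q₀) : Prop where
  hlt : ∀ c, c < n → ∀ l, l < 2 * 2 → T c l < n
  hodd : ∀ c, c < n → ∀ i, i < 2 → T (T c (2 * i + 1)) (2 * i) = c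
  hms : ∀ c, c < n → ∀ i, i < 2 → s i • pt (T c (2 * i)) = pt c
  hsurj : ∀ x : Fin N, ∃ c, c < n ∧ pt c = x

variable {n : ℕ} {T : ℕ → ℕ → ℕ} {pt : ℕ → Fin N} {s : ℕ → ↥Q₀}

theorem PtTab.inv_evW (P : PtTab n T pt s) (w : List ℕ) (hw : ∀ l ∈ w, l < 4) {c : ℕ} (hc : c < n) :
    (evW s w)⁻¹ • pt c = pt (endV T c w) :=
  inv_evW_pt P.hlt P.hodd P.hms w hw hc

theorem PtTab.inv_lett (P : PtTab n T pt s) {i c : ℕ} (hi : i < 2) (hc : c < n) :
    (s i)⁻¹ • pt c = pt (T c (2 * i)) := by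
  rw [inv_smul_eq_iff, P.hms c hc i hi]

/-- A word acting trivially on the table is trivial. -/
theorem PtTab.evW_one (P : PtTab n T pt s) {w : List ℕ} (hw : ∀ l ∈ w, l < 4) (h : ∀ c, c < n → endV T c w = c) :
    evW s w = 1 := by
  rw [← inv_eq_one]
  apply Subtype.ext
  apply Equiv.ext
  intro x
  obtain ⟨c, hc, rfl⟩ := P.hsurj x
  have h1 := P.inv_evW w hw hc
  rw [h c hc] at h1
  exact h1

/-- The permutation of a word by a table of its inverse. -/
theorem PtTab.evW_val (P : PtTab n T pt s) {w : List ℕ} (hw : ∀ l ∈ w, l < 4) {g : Equiv.Perm (Fin N)} {f : ℕ → ℕ}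
    (hf : ∀ y : Fin N, (g y).val = f y.val) (hc : ∀ c, c < n → f (pt (endV T c w)).val = (pt c).val) :
    ((evW s w : ↥Q₀) : Equiv.Perm (Fin N)) = g := by
  have h1 : g * ((evW s w : ↥Q₀) : Equiv.Perm (Fin N))⁻¹ = 1 := by
    apply Equiv.ext
    intro x
    obtain ⟨c, hc', rfl⟩ := P.hsurj x
    apply Fin.ext
    have h2 := P.inv_evW w hw hc'
    have h3 : ((evW s w : ↥Q₀) : Equiv.Perm (Fin N))⁻¹ (pt c) = pt (endV T c w) := h2
    rw [Equiv.Perm.mul_apply, h3, hf, hc c hc']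
    rfl
  exact (mul_inv_eq_one.mp h1).symm

/-- Generation from words for a generating set. -/
theorem hgen_words {G : Set (Equiv.Perm (Fin N))} (hQ : Q₀ = closure G)
    (h : ∀ g ∈ G, ∃ w : List ℕ, (∀ l ∈ w, l < 4) ∧ ((evW s w : ↥Q₀) : Equiv.Perm (Fin N)) = g) :
    closure (s '' Set.Iio 2) = ⊤ := by
  set K := closure (s '' Set.Iio 2) with hK
  have h1 : closure G ≤ K.map Q₀.subtype := by
    rw [closure_le]
    intro g hg
    obtain ⟨w, hw, rfl⟩ := h g hg
    refine ⟨evW s w, evW_mem_closure s 2 w hw, rfl⟩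
  rw [eq_top_iff]
  rintro g -
  have hg2 : (g : Equiv.Perm (Fin N)) ∈ closure G := hQ ▸ g.2
  obtain ⟨y, hy, hyg⟩ := h1 hg2
  have : y = g := Subtype.ext hyg
  rwa [this] at hy

/-! ### Boolean checks -/

/-- The check of a table of an action on points given by numbers. -/
noncomputable def tabPChk (n k W M c0 c1 N : ℕ) (T : ℕ → ℕ → ℕ) (B : ℕ → ℕ) : Bool :=
  allB n k fun c =>
    Nat.blt (T c 0) n && Nat.blt (T c 1) n && Nat.blt (T c 2) n && Nat.blt (T c 3) n &&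
    Nat.beq (T (T c 1) 0) c && Nat.beq (T (T c 3) 2) c && Nat.blt (B c) N &&
    Nat.beq (imW W M c0 (B (T c 0))) (B c) && Nat.beq (imW W M c1 (B (T c 2))) (B c)

theorem ptTab_of_tabPChk {k W M c0 c1 : ℕ} {B I : ℕ → ℕ} (hk : n ≤ 2 ^ k)
    (h : tabPChk n k W M c0 c1 N T B = true)
    (h0 : ∀ y : Fin N, (s 0 • y).val = imW W M c0 y.val) (h1 : ∀ y : Fin N, (s 1 • y).val = imW W M c1 y.val)
    (hI : ∀ x, x < N → I x < n ∧ B (I x) = x) :
    PtTab n T (fun c => ptN N (B c)) s := by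
  have hs := fun c hc => allB_spec _ _ _ hk h c hc
  simp only [Bool.and_eq_true, Nat.blt_eq] at hs
  refine ⟨?_, ?_, ?_, ?_⟩
  · intro c hc l hl
    obtain ⟨⟨⟨⟨⟨⟨⟨⟨a0, a1⟩, a2⟩, a3⟩, -⟩, -⟩, -⟩, -⟩, -⟩ := hs c hc
    have hl' : l < 4 := hl
    interval_cases l <;> assumption
  · intro c hc i hi
    obtain ⟨⟨⟨⟨⟨⟨⟨⟨-, -⟩, -⟩, -⟩, h5⟩, h6⟩, -⟩, -⟩, -⟩ := hs c hc
    have e1 := Nat.eq_of_beq_eq_true h5
    have e2 := Nat.eq_of_beq_eq_true h6
    interval_cases i
    · exact e1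
    · exact e2
  · intro c hc i hi
    obtain ⟨⟨⟨⟨⟨⟨⟨⟨a0, a1⟩, a2⟩, a3⟩, -⟩, -⟩, h7⟩, h8⟩, h9⟩ := hs c hc
    obtain ⟨⟨⟨-, h10⟩, -⟩, -⟩ := hs _ a0
    obtain ⟨⟨⟨-, h11⟩, -⟩, -⟩ := hs _ a2
    apply Fin.ext
    interval_cases i
    · show (s 0 • ptN N (B (T c 0))).val = (ptN N (B c)).val
      rw [h0, ptN_val h10, Nat.eq_of_beq_eq_true h8, ptN_val h7]
    · show (s 1 • ptN N (B (T c 2))).val = (ptN N (B c)).val
      rw [h1, ptN_val h11, Nat.eq_of_beq_eq_true h9, ptN_val h7]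
  · intro x
    obtain ⟨h1, h2⟩ := hI x.val x.isLt
    refine ⟨I x.val, h1, ?_⟩
    show ptN N (B (I x.val)) = x
    rw [h2, ptN_self]

/-- The check of a table on sets of points. -/
noncomputable def setChk (n k N kN : ℕ) (T TP : ℕ → ℕ → ℕ) (B : ℕ → ℕ) : Bool :=
  allB n k fun c => allB N kN fun x =>
    ((B (T c 0)).testBit (TP x 0) == (B c).testBit x) && ((B (T c 2)).testBit (TP x 2) == (B c).testBit x)

theorem hms_of_setChk {k kN : ℕ} {TP : ℕ → ℕ → ℕ} {B : ℕ → ℕ} (hk : n ≤ 2 ^ k) (hkN : N ≤ 2 ^ kN)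
    {nP : ℕ} (hnP : nP = N) (P : PtTab nP TP (ptN N) s) (h : setChk n k N kN T TP B = true) :
    ∀ c, c < n → ∀ i, i < 2 → s i • maskOf N (B (T c (2 * i))) = maskOf N (B c) := by
  subst hnP
  intro c hc i hi
  have h1 := allB_spec _ _ _ hk h c hc
  have h2 := allB_spec _ _ _ hkN h1
  apply smul_maskOf (f := fun x => TP x (2 * i))
  · intro x
    have h3 := P.inv_lett hi x.isLt
    rw [ptN_self] at h3
    have h4 : (TP x.val (2 * i)) < nP := P.hlt _ x.isLt _ (by omega)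
    rw [h3, ptN_val h4]
  · intro x hx
    have h3 := h2 x hx
    simp only [Bool.and_eq_true, beq_iff_eq] at h3
    interval_cases i
    · exact h3.1
    · exact h3.2

/-- The check that the masks differ from the first one. -/
noncomputable def neChk (n k N : ℕ) (B : ℕ → ℕ) : Bool :=
  allB n k fun c => Nat.beq c 0 || (List.range N).any (fun x => (B c).testBit x != (B 0).testBit x)

theorem hne_of_neChk {k : ℕ} {B : ℕ → ℕ} (hk : n ≤ 2 ^ k) (h : neChk n k N B = true) :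
    ∀ c, c < n → maskOf N (B c) = maskOf N (B 0) → c = 0 := by
  intro c hc he
  have h1 := allB_spec _ _ _ hk h c hc
  rw [Bool.or_eq_true] at h1
  rcases h1 with h1 | h1
  · exact Nat.eq_of_beq_eq_true h1
  · exact absurd he (maskOf_ne h1)

/-- The check of a list of relators on a table. -/
noncomputable def relChk (n k R : ℕ) (T : ℕ → ℕ → ℕ) (rels : ℕ → List ℕ) : Bool :=
  (List.range R).all fun j =>
    (rels j).all (fun l => Nat.blt l 4) && allB n k (fun c => Nat.beq (endV T c (rels j)) c)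

theorem relChk_spec {k R : ℕ} {rels : ℕ → List ℕ} (hk : n ≤ 2 ^ k) (h : relChk n k R T rels = true) :
    ∀ j, j < R → (∀ l ∈ rels j, l < 4) ∧ ∀ c, c < n → endV T c (rels j) = c := by
  intro j hj
  have h1 := List.all_eq_true.mp h j (List.mem_range.mpr hj)
  rw [Bool.and_eq_true] at h1
  refine ⟨?_, ?_⟩
  · intro l hl
    have h2 := List.all_eq_true.mp h1.1 l hl
    simpa using h2
  · intro c hc
    exact Nat.eq_of_beq_eq_true (allB_spec _ _ _ hk h1.2 c hc)

end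

end Cfsg.Agent.Lib.SchurPerm12
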