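import Cfsg.Agent.Lib.HeVMain
import Cfsg.Agent.Lib.HeSchurVData12
import Cfsg.Agent.Lib.SchurPerm12

/-!
# The Schur multipliers of `L₂(16)` and `S₄(4)`

The group `S₄(4)` on the `256` vectors of its natural module.
-/

set_option autoImplicit false
set_option maxRecDepth 100000
set_option Elab.async false
set_option linter.style.haveILetI false

namespace Cfsg.Agent.Lib.HeSchurV12

open Cfsg Subgroup Cfsg.Agent.Lib.SchurCoset46 Cfsg.Agent.Lib.SchurLev12 Cfsg.Agent.Lib.SchurPerm12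
  Cfsg.Agent.Lib.PermChain12 Cfsg.Agent.Lib.SparseDfs Cfsg.Agent.Lib.HeSchurVData12 Cfsg.Agent.Lib.SchurStem
  Cfsg.Agent.Lib.SchurOrbit12
open Cfsg.Agent.Lib.ProgBits Cfsg.Agent.Lib.ProgChain
open scoped Pointwise

noncomputable section

/-- the letters -/
abbrev gV : ℕ → Equiv.Perm (Fin 256) := Cfsg.Agent.Lib.HeVMain.g
/-- the group -/
abbrev VV : Subgroup (Equiv.Perm (Fin 256)) := grp gV 0 2

theorem letV : ∀ e, 0 ≤ e → gV e ∈ VV := (Cfsg.Agent.Lib.HeVMain.lev0).1

/-- the first generator -/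
def aV : ↥VV := ⟨Cfsg.Agent.Lib.PermChain.prodW gV waV, prodW_mem letV (by decide)⟩
/-- the second generator -/
def bV : ↥VV := ⟨Cfsg.Agent.Lib.PermChain.prodW gV wbV, prodW_mem letV (by decide)⟩
/-- the generators -/
def sV (i : ℕ) : ↥VV := if i = 0 then aV else bV

open Cfsg.Agent.Lib.HeVTab in
theorem rep_a : RepW 8 255 (Cfsg.Agent.Lib.PermChain.prodW gV waV) aVT :=
  repW_of_chk Cfsg.Agent.Lib.HeVMain.ctx (by decide +kernel)
open Cfsg.Agent.Lib.HeVTab in
theorem rep_b : RepW 8 255 (Cfsg.Agent.Lib.PermChain.prodW gV wbV) bVT :=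
  repW_of_chk Cfsg.Agent.Lib.HeVMain.ctx (by decide +kernel)
open Cfsg.Agent.Lib.HeVTab in
theorem rep_g0 : RepW 8 255 (Cfsg.Agent.Lib.PermChain.prodW gV [0]) g0VT :=
  repW_of_chk Cfsg.Agent.Lib.HeVMain.ctx (by decide +kernel)
open Cfsg.Agent.Lib.HeVTab in
theorem rep_g1 : RepW 8 255 (Cfsg.Agent.Lib.PermChain.prodW gV [1]) g1VT :=
  repW_of_chk Cfsg.Agent.Lib.HeVMain.ctx (by decide +kernel)

theorem chk_TPV : tabPChk 256 8 8 255 aVT bVT 256 TPV (fun c => c) = true := by decide +kernel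

/-- the table of the action on the vectors -/
theorem ptV : PtTab 256 TPV (ptN 256) sV :=
  ptTab_of_tabPChk (k := 8) (B := fun c => c) (I := fun c => c) (by norm_num) chk_TPV rep_a rep_b
    (fun x hx => ⟨hx, rfl⟩)

theorem chk_g0 : allB 256 8 (fun c => Nat.beq (imW 8 255 g0VT (endV TPV c wg0V % 256)) (c % 256)) = true := by
  decide +kernel
theorem chk_g1 : allB 256 8 (fun c => Nat.beq (imW 8 255 g1VT (endV TPV c wg1V % 256)) (c % 256)) = true := by
  decide +kernel

theorem hgenV : closure (sV '' Set.Iio 2) = ⊤ := by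
  apply hgen_words (Q₀ := VV) (G := {x | ∃ k ∈ List.range' 0 2, x = gV k}) rfl
  rintro g ⟨k, hk, rfl⟩
  obtain ⟨h1, h2⟩ := List.mem_range'_1.mp hk
  have h3 : k = 0 ∨ k = 1 := by omega
  rcases h3 with rfl | rfl
  · refine ⟨wg0V, by decide, ?_⟩
    apply ptV.evW_val (by decide) (f := imW 8 255 g0VT)
    · intro y
      have := rep_g0 y
      simpa [Cfsg.Agent.Lib.PermChain.prodW] using this
    · intro c hc
      exact Nat.eq_of_beq_eq_true (allB_spec _ _ _ (by norm_num) chk_g0 c hc)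
  · refine ⟨wg1V, by decide, ?_⟩
    apply ptV.evW_val (by decide) (f := imW 8 255 g1VT)
    · intro y
      have := rep_g1 y
      simpa [Cfsg.Agent.Lib.PermChain.prodW] using this
    · intro c hc
      exact Nat.eq_of_beq_eq_true (allB_spec _ _ _ (by norm_num) chk_g1 c hc)

theorem certS2_ok : certS2.check = true := by decide +kernel
theorem certS3_ok : certS3.check = true := by decide +kernel
theorem certS5_ok : certS5.check = true := by decide +kernel
theorem certL_ok : certL.check = true := by decide +kernel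
theorem certW_ok : certW.tabChk = true := by decide +kernel

theorem chk_setS : setChk 120 7 256 8 TS TPV BS = true := by decide +kernel
theorem chk_neS : neChk 120 7 256 BS = true := by decide +kernel

/-- the sets on which `S₄(4)` acts -/
abbrev maskS (c : ℕ) : Set (Fin 256) := maskOf 256 (BS c)

/-- the level of `S₄(4)` -/
theorem levS : LevelData (maskS 0) 120 TS PS maskS sV where
  hT := tab_of_cert certS3 certS3_ok
  hm0 := rfl
  hne := hne_of_neChk (k := 7) (by norm_num) chk_neS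
  hms := hms_of_setChk (k := 7) (kN := 8) (by norm_num) (by norm_num) rfl ptV chk_setS
  hgen := hgenV

/-- the stabiliser -/
abbrev HbS : Subgroup ↥VV := MulAction.stabilizer ↥VV (maskS 0)

theorem index_HbS : HbS.index = 120 := levS.index_stab

theorem card_HbS : Nat.card HbS = 8160 := by
  have h := Subgroup.card_mul_index HbS
  rw [index_HbS, Cfsg.Agent.Lib.HeVMain.cardH0] at h
  omega

theorem stab_of_word {w : List ℕ} (hw : ∀ l ∈ w, l < 4) (h : endV TS 0 w = 0) : evW sV w ∈ HbS := by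
  have h1 := inv_evW_smul levS.hT levS.hms w (by simpa using hw) (c := 0) (by norm_num)
  rw [h] at h1
  rw [inv_smul_eq_iff] at h1
  exact h1.symm

/-- the involution -/
def pE : ↥VV := evW sV wpL
/-- the element of order three -/
def qE : ↥VV := evW sV wqL
/-- the outer element -/
def tE : ↥VV := evW sV wtL

theorem pE_mem : pE ∈ HbS := stab_of_word (by decide) (by decide +kernel)
theorem qE_mem : qE ∈ HbS := stab_of_word (by decide) (by decide +kernel)
theorem tE_mem : tE ∈ HbS := stab_of_word (by decide) (by decide +kernel)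

/-- the simple subgroup -/
abbrev LL : Subgroup (Equiv.Perm (Fin 256)) := closure {(pE : Equiv.Perm (Fin 256)), (qE : Equiv.Perm (Fin 256))}

theorem pE_memL : (pE : Equiv.Perm (Fin 256)) ∈ LL := Subgroup.subset_closure (Or.inl rfl)
theorem qE_memL : (qE : Equiv.Perm (Fin 256)) ∈ LL := Subgroup.subset_closure (Or.inr rfl)

/-- the generators -/
def sL (i : ℕ) : ↥LL := if i = 0 then ⟨pE, pE_memL⟩ else ⟨qE, qE_memL⟩

theorem hgenL : closure (sL '' Set.Iio 2) = ⊤ := by
  apply hgen_words (Q₀ := LL) (G := {(pE : Equiv.Perm (Fin 256)), (qE : Equiv.Perm (Fin 256))}) rfl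
  rintro g (rfl | hg)
  · refine ⟨[0], by decide, ?_⟩
    have := lett_even sL 0
    simp [evW, sL, lett]
  · rw [Set.mem_singleton_iff] at hg
    subst hg
    refine ⟨[2], by decide, ?_⟩
    simp [evW, sL, lett]

/-- the check of the table of the simple subgroup -/
def chkTPLf (c : ℕ) : Bool :=
  Nat.beq (TPL c 0) (endV TPV c wpL) && Nat.beq (TPL c 2) (endV TPV c wqL) &&
    Nat.blt (TPL c 0) 256 && Nat.blt (TPL c 1) 256 && Nat.blt (TPL c 2) 256 && Nat.blt (TPL c 3) 256 &&
    Nat.beq (TPL (TPL c 1) 0) c && Nat.beq (TPL (TPL c 3) 2) c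

theorem chk_TPL : allB 256 8 chkTPLf = true := by decide +kernel

theorem ptL : PtTab 256 TPL (ptN 256) sL := by
  have hs := fun c hc => allB_spec _ _ _ (by norm_num) chk_TPL c hc
  simp only [chkTPLf, Bool.and_eq_true, Nat.blt_eq] at hs
  refine ⟨?_, ?_, ?_, ?_⟩
  · intro c hc l hl
    obtain ⟨⟨⟨⟨⟨⟨⟨-, -⟩, a0⟩, a1⟩, a2⟩, a3⟩, -⟩, -⟩ := hs c hc
    have hl' : l < 4 := hl
    interval_cases l <;> assumption
  · intro c hc i hi
    obtain ⟨⟨⟨⟨⟨⟨⟨-, -⟩, -⟩, -⟩, -⟩, -⟩, h5⟩, h6⟩ := hs c hc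
    interval_cases i
    · exact Nat.eq_of_beq_eq_true h5
    · exact Nat.eq_of_beq_eq_true h6
  · intro c hc i hi
    obtain ⟨⟨⟨⟨⟨⟨⟨e0, e2⟩, -⟩, -⟩, -⟩, -⟩, -⟩, -⟩ := hs c hc
    interval_cases i
    · have h1 := ptV.inv_evW wpL (by decide) hc
      rw [inv_smul_eq_iff, ← Nat.eq_of_beq_eq_true e0] at h1
      exact h1.symm
    · have h1 := ptV.inv_evW wqL (by decide) hc
      rw [inv_smul_eq_iff, ← Nat.eq_of_beq_eq_true e2] at h1
      exact h1.symm
  · intro x
    exact ⟨x.val, x.isLt, ptN_self x⟩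

theorem chk_setL : setChk 272 9 256 8 TL TPL BL = true := by decide +kernel
theorem chk_neL : neChk 272 9 256 BL = true := by decide +kernel

/-- the sets for the simple subgroup -/
abbrev maskL (c : ℕ) : Set (Fin 256) := maskOf 256 (BL c)

/-- the level of `L₂(16)` -/
theorem levL : LevelData (maskL 0) 272 TL PL maskL sL where
  hT := tab_of_cert certL certL_ok
  hm0 := rfl
  hne := hne_of_neChk (k := 9) (by norm_num) chk_neL
  hms := hms_of_setChk (k := 9) (kN := 8) (by norm_num) (by norm_num) rfl ptL chk_setL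
  hgen := hgenL

/-! ### The order of the simple subgroup -/

/-- triples of vectors -/
abbrev m3 (c : ℕ) : Fin 256 × Fin 256 × Fin 256 := (ptN 256 (tWt c 0), ptN 256 (tWt c 1), ptN 256 (tWt c 2))

/-- the check of the table of triples -/
def chkWf (c : ℕ) : Bool :=
  Nat.blt (tWt c 0) 256 && Nat.blt (tWt c 1) 256 && Nat.blt (tWt c 2) 256 &&
  Nat.beq (TPL (tWt c 0) 0) (tWt (TW c 0) 0) && Nat.beq (TPL (tWt c 1) 0) (tWt (TW c 0) 1) &&
  Nat.beq (TPL (tWt c 2) 0) (tWt (TW c 0) 2) &&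
  Nat.beq (TPL (tWt c 0) 2) (tWt (TW c 2) 0) && Nat.beq (TPL (tWt c 1) 2) (tWt (TW c 2) 1) &&
  Nat.beq (TPL (tWt c 2) 2) (tWt (TW c 2) 2)

theorem chk_W : allB 4080 12 chkWf = true := by decide +kernel

theorem chk_Wne : allB 4080 12 (fun c => Nat.beq c 0 ||
    !(Nat.beq (tWt c 0) (tWt 0 0) && Nat.beq (tWt c 1) (tWt 0 1) && Nat.beq (tWt c 2) (tWt 0 2))) = true := by
  decide +kernel

theorem chk_Wt : allB 4080 12 (fun c =>
    !(Nat.beq (tWt c 0) (endV TPV (tWt 0 0) wtL) && Nat.beq (tWt c 1) (endV TPV (tWt 0 1) wtL) &&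
      Nat.beq (tWt c 2) (endV TPV (tWt 0 2) wtL))) = true := by
  decide +kernel

theorem not3 {a b c d e f : ℕ} (h : (!(Nat.beq a b && Nat.beq c d && Nat.beq e f)) = true) (h1 : a = b) (h2 : c = d)
    (h3 : e = f) : False := by
  subst h1 h2 h3
  simp [Nat.beq_refl] at h

theorem chkW_spec {c : ℕ} (hc : c < 4080) :
    tWt c 0 < 256 ∧ tWt c 1 < 256 ∧ tWt c 2 < 256 ∧
    TPL (tWt c 0) 0 = tWt (TW c 0) 0 ∧ TPL (tWt c 1) 0 = tWt (TW c 0) 1 ∧ TPL (tWt c 2) 0 = tWt (TW c 0) 2 ∧
    TPL (tWt c 0) 2 = tWt (TW c 2) 0 ∧ TPL (tWt c 1) 2 = tWt (TW c 2) 1 ∧ TPL (tWt c 2) 2 = tWt (TW c 2) 2 := by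
  have h := allB_spec _ _ _ (by norm_num) chk_W c hc
  simp only [chkWf, Bool.and_eq_true, Nat.blt_eq] at h
  obtain ⟨⟨⟨⟨⟨⟨⟨⟨a0, a1⟩, a2⟩, b0⟩, b1⟩, b2⟩, b3⟩, b4⟩, b5⟩ := h
  exact ⟨a0, a1, a2, Nat.eq_of_beq_eq_true b0, Nat.eq_of_beq_eq_true b1, Nat.eq_of_beq_eq_true b2,
    Nat.eq_of_beq_eq_true b3, Nat.eq_of_beq_eq_true b4, Nat.eq_of_beq_eq_true b5⟩

theorem levW : LevelData (m3 0) 4080 TW PW m3 sL where
  hT := certW.tab_of_chk certW_ok
  hm0 := rfl
  hne := by
    intro c hc h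
    obtain ⟨a0, a1, a2, -⟩ := chkW_spec hc
    obtain ⟨c0, c1, c2, -⟩ := chkW_spec (c := 0) (by norm_num)
    have e0 : ptN 256 (tWt c 0) = ptN 256 (tWt 0 0) := congrArg Prod.fst h
    have e1 : ptN 256 (tWt c 1) = ptN 256 (tWt 0 1) := congrArg (fun z => z.2.1) h
    have e2 : ptN 256 (tWt c 2) = ptN 256 (tWt 0 2) := congrArg (fun z => z.2.2) h
    have f0 : tWt c 0 = tWt 0 0 := by
      have := congrArg Fin.val e0
      rwa [ptN_val a0, ptN_val c0] at this
    have f1 : tWt c 1 = tWt 0 1 := by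
      have := congrArg Fin.val e1
      rwa [ptN_val a1, ptN_val c1] at this
    have f2 : tWt c 2 = tWt 0 2 := by
      have := congrArg Fin.val e2
      rwa [ptN_val a2, ptN_val c2] at this
    have h1 := allB_spec _ _ _ (by norm_num) chk_Wne c hc
    rw [Bool.or_eq_true] at h1
    rcases h1 with h1 | h1
    · exact Nat.eq_of_beq_eq_true h1
    · exact (not3 h1 f0 f1 f2).elim
  hms := by
    intro c hc i hi
    obtain ⟨a0, a1, a2, e0, e1, e2, e3, e4, e5⟩ := chkW_spec hc
    interval_cases i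
    · show (sL 0 • ptN 256 (tWt (TW c 0) 0), sL 0 • ptN 256 (tWt (TW c 0) 1), sL 0 • ptN 256 (tWt (TW c 0) 2)) = m3 c
      rw [← e0, ← e1, ← e2]
      have h0 := fun y hy => ptL.hms y hy 0 (by norm_num)
      simp only [Nat.mul_zero] at h0
      rw [h0 _ a0, h0 _ a1, h0 _ a2]
    · show (sL 1 • ptN 256 (tWt (TW c 2) 0), sL 1 • ptN 256 (tWt (TW c 2) 1), sL 1 • ptN 256 (tWt (TW c 2) 2)) = m3 c
      rw [← e3, ← e4, ← e5]
      have h0 := fun y hy => ptL.hms y hy 1 (by norm_num)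
      simp only [Nat.mul_one] at h0
      rw [h0 _ a0, h0 _ a1, h0 _ a2]
  hgen := hgenL

theorem dvd_card_LL : 4080 ∣ Nat.card LL := by
  have h := levW.index_stab
  rw [← h]
  exact Subgroup.index_dvd_card _

/-- the stabiliser as a group of permutations -/
abbrev HbP : Subgroup (Equiv.Perm (Fin 256)) := HbS.map VV.subtype

theorem card_HbP : Nat.card HbP = 8160 := by
  rw [Subgroup.card_map_of_injective VV.subtype_injective, card_HbS]

theorem LL_le : LL ≤ HbP := by
  rw [closure_le]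
  rintro g (rfl | hg)
  · exact ⟨pE, pE_mem, rfl⟩
  · rw [Set.mem_singleton_iff] at hg
    subst hg
    exact ⟨qE, qE_mem, rfl⟩

theorem endV_lt {n : ℕ} {T : ℕ → ℕ → ℕ} (hlt : ∀ c, c < n → ∀ l, l < 2 * 2 → T c l < n) (w : List ℕ)
    (hw : ∀ l ∈ w, l < 4) {c : ℕ} (hc : c < n) : endV T c w < n := by
  induction w generalizing c with
  | nil => exact hc
  | cons l w ih =>
    exact ih (fun a ha => hw a (List.mem_cons_of_mem _ ha)) (hlt c hc l (hw l List.mem_cons_self))

theorem tE_not : (tE : Equiv.Perm (Fin 256)) ∉ LL := by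
  intro h
  let g : ↥LL := ⟨(tE : Equiv.Perm (Fin 256))⁻¹, LL.inv_mem h⟩
  obtain ⟨d, hd, h1⟩ := SchurOrbit12.smul_mask_mem levW.hT levW.hms levW.hgen g 0 (by norm_num)
  have hg : ∀ y, y < 256 → g • ptN 256 y = ptN 256 (endV TPV y wtL) := by
    intro y hy
    exact ptV.inv_evW wtL (by decide) hy
  obtain ⟨c0, c1, c2, -⟩ := chkW_spec (c := 0) (by norm_num)
  obtain ⟨a0, a1, a2, -⟩ := chkW_spec hd
  have hl := fun y (hy : y < 256) => endV_lt ptV.hlt wtL (by decide) hy
  have e0 : g • ptN 256 (tWt 0 0) = ptN 256 (tWt d 0) := congrArg Prod.fst h1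
  have e1 : g • ptN 256 (tWt 0 1) = ptN 256 (tWt d 1) := congrArg (fun z => z.2.1) h1
  have e2 : g • ptN 256 (tWt 0 2) = ptN 256 (tWt d 2) := congrArg (fun z => z.2.2) h1
  rw [hg _ c0] at e0
  rw [hg _ c1] at e1
  rw [hg _ c2] at e2
  have f0 := congrArg Fin.val e0
  have f1 := congrArg Fin.val e1
  have f2 := congrArg Fin.val e2
  rw [ptN_val (hl _ c0), ptN_val a0] at f0
  rw [ptN_val (hl _ c1), ptN_val a1] at f1
  rw [ptN_val (hl _ c2), ptN_val a2] at f2
  exact not3 (allB_spec _ _ _ (by norm_num) chk_Wt d hd) f0.symm f1.symm f2.symm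

theorem card_LL : Nat.card LL = 4080 := by
  obtain ⟨a, ha⟩ := dvd_card_LL
  have h2 : Nat.card LL ∣ Nat.card HbP := Subgroup.card_dvd_of_le LL_le
  rw [card_HbP, ha] at h2
  have h4 : a ∣ 2 := by
    obtain ⟨b, hb⟩ := h2
    exact ⟨b, by nlinarith⟩
  have h5 : a = 1 ∨ a = 2 := (Nat.dvd_prime Nat.prime_two).1 h4
  rcases h5 with rfl | rfl
  · rw [ha]
  · exfalso
    have h6 : Nat.card HbP ≤ Nat.card LL := by rw [card_HbP, ha]
    have h7 : LL = HbP := Subgroup.eq_of_le_of_card_ge LL_le h6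
    apply tE_not
    rw [h7]
    exact ⟨tE, tE_mem, rfl⟩

/-! ### The multiplier of `L₂(16)` -/

theorem norm01 {j : ℕ} (h : (Nat.beq j 0 || Nat.beq j 1) = true) : j = 0 ∨ j = 1 := by
  rw [Bool.or_eq_true] at h
  rcases h with h | h
  · exact Or.inl (Nat.eq_of_beq_eq_true h)
  · exact Or.inr (Nat.eq_of_beq_eq_true h)

theorem relL_chk : relChk 256 8 certL.R TPL certL.rels = true := by decide +kernel
theorem hrelL : ∀ j, j < certL.R → (∀ l ∈ certL.rels j, l < 4) ∧ ∀ c, c < 256 → endV TPL c (certL.rels j) = c :=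
  relChk_spec (k := 8) (by norm_num) relL_chk

theorem hrelsL : ∀ j, j < certL.R → ∀ l ∈ certL.rels j, l < 4 := fun j hj => (hrelL j hj).1
theorem hrel1L : ∀ j, j < certL.R → evW sL (certL.rels j) = 1 := fun j hj =>
  ptL.evW_one (hrelL j hj).1 (hrelL j hj).2

theorem normL : NormB certL 3 17 :=
  ⟨by decide +kernel, by decide +kernel, fun _ hj => norm01 hj⟩

theorem card_stabL : Nat.card (MulAction.stabilizer ↥LL (maskL 0)) = 15 := by
  have h := Subgroup.card_mul_index (MulAction.stabilizer ↥LL (maskL 0))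
  rw [levL.index_stab, card_LL] at h
  omega

theorem kerL16 : KerBotE ↥LL 16 :=
  level_retr levL certL certL_ok rfl rfl rfl (e := 16) (r := 3) (t := 17) (u := 5) (v := 15) (d := 15) (d' := 15)
    rfl rfl normL (by decide) card_stabL (by norm_num) (by norm_num) (by norm_num) (by norm_num) hrelsL hrel1L

theorem hM_LL : HasCyclicSchurMultiplier ↥LL 1 := by
  refine hasCyclicSchurMultiplier_one ↥LL ?_
  intro Γ _ _ σ hσ
  apply kerL16 Γ σ hσ
  intro k hk
  haveI : Fact (Nat.Prime 3) := ⟨by norm_num⟩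
  haveI : Fact (Nat.Prime 5) := ⟨by norm_num⟩
  haveI : Fact (Nat.Prime 17) := ⟨by norm_num⟩
  have h3 := ker_pow_prime hσ 3 (by rw [card_LL]; norm_num) hk
  have h5 := ker_pow_prime hσ 5 (by rw [card_LL]; norm_num) hk
  have h17 := ker_pow_prime hσ 17 (by rw [card_LL]; norm_num) hk
  rw [card_LL] at h3 h5 h17
  have h1 := pow_gcd_eq_one.mpr ⟨h3, h5⟩
  have h2 := pow_gcd_eq_one.mpr ⟨h1, h17⟩
  have : Nat.gcd (Nat.gcd (4080 / 3) (4080 / 5)) (4080 / 17) = 16 := by norm_num
  rwa [this] at h2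

theorem pow0 {G : Type*} [Group G] (s : ℕ → G) (r : ℕ) : evW s (List.replicate r [0]).flatten = s 0 ^ r := by
  rw [evW_rep]
  have := lett_even s 0
  simp only [Nat.mul_zero] at this
  simp [evW, this]

theorem perfect_LL : commutator ↥LL = ⊤ := by
  obtain ⟨h1, h2⟩ := rels_b normL (by decide) hrel1L
  have h0 : sL 0 ^ 2 = 1 := by
    have h3 := hrel1L 2 (by decide)
    have e : certL.rels 2 = (List.replicate 2 [0]).flatten := by decide +kernel
    rwa [e, pow0] at h3
  exact perfect_of_gens hgenL h0 h1 h2 (by norm_num) (by norm_num)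

/-! ### The multiplier of `S₄(4)` -/

/-- the inclusion of the stabiliser -/
def fS : ↥HbS →* Equiv.Perm (Fin 256) := VV.subtype.comp HbS.subtype

theorem fS_inj : Function.Injective fS := fun _ _ h => Subtype.ext (Subtype.ext h)

/-- the simple subgroup in the stabiliser -/
abbrev SL : Subgroup ↥HbS := LL.comap fS

/-- the simple subgroup in the stabiliser, as the group -/
def eSL0 : ↥SL →* ↥LL := fS.subgroupComap LL

theorem eSL0_bij : Function.Bijective eSL0 := by
  constructor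
  · intro x y h
    have h1 : fS x.1 = fS y.1 := congrArg (fun z : ↥LL => (z : Equiv.Perm (Fin 256))) h
    exact Subtype.ext (fS_inj h1)
  · rintro ⟨y, hy⟩
    obtain ⟨x, hx, rfl⟩ := LL_le hy
    exact ⟨⟨⟨x, hx⟩, hy⟩, rfl⟩

/-- the isomorphism -/
def eSL : ↥SL ≃* ↥LL := MulEquiv.ofBijective eSL0 eSL0_bij

theorem hM_SL : HasCyclicSchurMultiplier ↥SL 1 := schur_one_of_equiv eSL hM_LL
theorem perfect_SL : commutator ↥SL = ⊤ := perfect_of_equiv eSL perfect_LL
theorem index_SL : SL.index = 2 := by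
  have h := Subgroup.card_mul_index SL
  rw [Nat.card_congr eSL.toEquiv, card_LL, card_HbS] at h
  omega

theorem relS2_chk : relChk 256 8 certS2.R TPV certS2.rels = true := by decide +kernel
theorem relS3_chk : relChk 256 8 certS3.R TPV certS3.rels = true := by decide +kernel
theorem relS5_chk : relChk 256 8 certS5.R TPV certS5.rels = true := by decide +kernel

theorem normS2 : NormB certS2 5 17 := ⟨by decide +kernel, by decide +kernel, fun _ hj => norm01 hj⟩
theorem normS3 : NormA certS3 2 17 := ⟨by decide +kernel, by decide +kernel, fun _ hj => norm01 hj⟩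
theorem normS5 : NormA certS5 2 17 := ⟨by decide +kernel, by decide +kernel, fun _ hj => norm01 hj⟩

theorem kerS8 : KerBotE ↥VV 8 := by
  have h := relChk_spec (k := 8) (by norm_num) relS2_chk
  exact level_two levS SL hM_SL perfect_SL index_SL certS2 certS2_ok rfl rfl rfl (e := 8) (r := 5) (t := 17) (u := 3)
    (v := 7) rfl rfl normS2 (by decide) (by norm_num) (by norm_num) (fun j hj => (h j hj).1)
    (fun j hj => ptV.evW_one (h j hj).1 (h j hj).2)

theorem kerS3 : KerBotE ↥VV 3 := by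
  have h := relChk_spec (k := 8) (by norm_num) relS3_chk
  exact level_odd levS SL hM_SL perfect_SL index_SL certS3 certS3_ok rfl rfl rfl (e := 3) (r := 2) (t := 17) (u := 1)
    (v := 1) rfl rfl (by norm_num) normS3 (by decide) (by norm_num) (by norm_num) (fun j hj => (h j hj).1)
    (fun j hj => ptV.evW_one (h j hj).1 (h j hj).2)

theorem kerS5 : KerBotE ↥VV 5 := by
  have h := relChk_spec (k := 8) (by norm_num) relS5_chk
  exact level_odd levS SL hM_SL perfect_SL index_SL certS5 certS5_ok rfl rfl rfl (e := 5) (r := 2) (t := 17) (u := 2)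
    (v := 2) rfl rfl (by norm_num) normS5 (by decide) (by norm_num) (by norm_num) (fun j hj => (h j hj).1)
    (fun j hj => ptV.evW_one (h j hj).1 (h j hj).2)

/-- The Schur multiplier of `S₄(4)` is trivial. -/
theorem hM_VV : HasCyclicSchurMultiplier ↥VV 1 := by
  refine hasCyclicSchurMultiplier_one ↥VV ?_
  intro Γ _ _ σ hσ
  have h120 : KerBotE ↥VV (8 * 3 * 5) := (kerS8.mul kerS3).mul kerS5
  apply h120 Γ σ hσ
  intro k hk
  have h := pow_index_of_target SL hM_SL perfect_SL index_SL hσ hk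
  rwa [index_HbS] at h

/-- `S₄(4)` is perfect. -/
theorem perfect_VV : commutator ↥VV = ⊤ := by
  have h := relChk_spec (k := 8) (by norm_num) relS2_chk
  have h' := relChk_spec (k := 8) (by norm_num) relS3_chk
  have hr := fun j hj => ptV.evW_one (h j hj).1 (h j hj).2
  have hr' := fun j hj => ptV.evW_one (h' j hj).1 (h' j hj).2
  obtain ⟨h1, h2⟩ := rels_b normS2 (by decide) hr
  obtain ⟨h0, -⟩ := rels_a normS3 (by decide) hr'
  exact perfect_of_gens hgenV h0 h1 h2 (by norm_num) (by norm_num)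

end

end Cfsg.Agent.Lib.HeSchurV12
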