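import Cfsg.Agent.Lib.HeIso
import Cfsg.Agent.Lib.HeSchurV12
import Cfsg.Agent.Lib.HeSchurTData12

/-!
# The Schur multiplier of the Held group on `2058` points
-/

set_option autoImplicit false
set_option maxRecDepth 100000
set_option Elab.async false
set_option linter.style.haveILetI false

namespace Cfsg.Agent.Lib.HeSchurTop12

open Cfsg Subgroup Cfsg.Agent.Lib.SchurCoset46 Cfsg.Agent.Lib.SchurLev12 Cfsg.Agent.Lib.SchurPerm12
  Cfsg.Agent.Lib.PermChain12 Cfsg.Agent.Lib.SparseDfs Cfsg.Agent.Lib.HeSchurTData12 Cfsg.Agent.Lib.SchurStem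
  Cfsg.Agent.Lib.HeIso Cfsg.Agent.Lib.HeSchurV12
open Cfsg.Agent.Lib.ProgBits Cfsg.Agent.Lib.ProgChain

noncomputable section

theorem letH : ∀ e, 0 ≤ e → gH e ∈ HH := (Cfsg.Agent.Lib.HePMain.lev0).1

/-- the first generator -/
def aH : ↥HH := ⟨Cfsg.Agent.Lib.PermChain.prodW gH waH, prodW_mem letH (by decide)⟩
/-- the second generator -/
def bH : ↥HH := ⟨Cfsg.Agent.Lib.PermChain.prodW gH wbH, prodW_mem letH (by decide)⟩
/-- the generators -/
def sH (i : ℕ) : ↥HH := if i = 0 then aH else bH

open Cfsg.Agent.Lib.HePTab in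
theorem rep_a : RepW 12 4095 (Cfsg.Agent.Lib.PermChain.prodW gH waH) aHT :=
  repW_of_chk Cfsg.Agent.Lib.HePMain.ctx (by decide +kernel)
open Cfsg.Agent.Lib.HePTab in
theorem rep_b : RepW 12 4095 (Cfsg.Agent.Lib.PermChain.prodW gH wbH) bHT :=
  repW_of_chk Cfsg.Agent.Lib.HePMain.ctx (by decide +kernel)
open Cfsg.Agent.Lib.HePTab in
theorem rep_g0 : RepW 12 4095 (Cfsg.Agent.Lib.PermChain.prodW gH [0]) g0HT :=
  repW_of_chk Cfsg.Agent.Lib.HePMain.ctx (by decide +kernel)
open Cfsg.Agent.Lib.HePTab in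
theorem rep_g1 : RepW 12 4095 (Cfsg.Agent.Lib.PermChain.prodW gH [1]) g1HT :=
  repW_of_chk Cfsg.Agent.Lib.HePMain.ctx (by decide +kernel)

theorem chk_TH : tabPChk 2058 12 12 4095 aHT bHT 2058 TH BH = true := by decide +kernel

theorem chk_IH : allB 2058 12 (fun x => Nat.blt (IH x) 2058 && Nat.beq (BH (IH x)) x) = true := by decide +kernel

/-- the table of the action on the points -/
theorem ptH : PtTab 2058 TH (fun c => ptN 2058 (BH c)) sH :=
  ptTab_of_tabPChk (k := 12) (B := BH) (I := IH) (by norm_num) chk_TH rep_a rep_b (fun x hx => by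
    have h := allB_spec _ _ _ (by norm_num) chk_IH x hx
    simp only [Bool.and_eq_true, Nat.blt_eq] at h
    exact ⟨h.1, Nat.eq_of_beq_eq_true h.2⟩)

theorem chk_g0 : allB 2058 12 (fun c => Nat.beq (imW 12 4095 g0HT (BH (endV TH c wg0H) % 2058)) (BH c % 2058)) = true := by
  decide +kernel
theorem chk_g1 : allB 2058 12 (fun c => Nat.beq (imW 12 4095 g1HT (BH (endV TH c wg1H) % 2058)) (BH c % 2058)) = true := by
  decide +kernel

theorem hgenH : closure (sH '' Set.Iio 2) = ⊤ := by
  apply hgen_words (Q₀ := HH) (G := {x | ∃ k ∈ List.range' 0 2, x = gH k}) rfl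
  rintro g ⟨k, hk, rfl⟩
  obtain ⟨h1, h2⟩ := List.mem_range'_1.mp hk
  have h3 : k = 0 ∨ k = 1 := by omega
  rcases h3 with rfl | rfl
  · refine ⟨wg0H, by decide, ?_⟩
    apply ptH.evW_val (by decide) (f := imW 12 4095 g0HT)
    · intro y
      have := rep_g0 y
      simpa [Cfsg.Agent.Lib.PermChain.prodW] using this
    · intro c hc
      exact Nat.eq_of_beq_eq_true (allB_spec _ _ _ (by norm_num) chk_g0 c hc)
  · refine ⟨wg1H, by decide, ?_⟩
    apply ptH.evW_val (by decide) (f := imW 12 4095 g1HT)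
    · intro y
      have := rep_g1 y
      simpa [Cfsg.Agent.Lib.PermChain.prodW] using this
    · intro c hc
      exact Nat.eq_of_beq_eq_true (allB_spec _ _ _ (by norm_num) chk_g1 c hc)

theorem certH2_ok : certH2.check = true := by decide +kernel
theorem certH3_ok : certH3.check = true := by decide +kernel
theorem certH7_ok : certH7.check = true := by decide +kernel

theorem chk_neH : allB 2058 12 (fun c => Nat.beq c 0 || !(Nat.beq (BH c % 2058) 0)) = true := by decide +kernel

/-- the points, in the order of the table -/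
abbrev maskH (c : ℕ) : Fin 2058 := ptN 2058 (BH c)

/-- the level of `He` -/
theorem levH : LevelData (0 : Fin 2058) 2058 TH PH maskH sH where
  hT := tab_of_cert certH3 certH3_ok
  hm0 := by decide +kernel
  hne := by
    intro c hc h
    have h1 := allB_spec _ _ _ (by norm_num) chk_neH c hc
    rw [Bool.or_eq_true] at h1
    rcases h1 with h1 | h1
    · exact Nat.eq_of_beq_eq_true h1
    · exfalso
      have h2 : BH c % 2058 = 0 := congrArg Fin.val h
      rw [h2] at h1
      simp [Nat.beq] at h1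
  hms := ptH.hms
  hgen := hgenH

theorem hM_NN : HasCyclicSchurMultiplier ↥NN 1 := by
  obtain ⟨e1⟩ := equiv_NN
  obtain ⟨e2⟩ := equiv_SV
  exact schur_one_of_equiv (e1.trans e2) hM_VV

theorem perfect_NN : commutator ↥NN = ⊤ := by
  obtain ⟨e1⟩ := equiv_NN
  obtain ⟨e2⟩ := equiv_SV
  exact perfect_of_equiv (e1.trans e2) perfect_VV

theorem relH2_chk : relChk 2058 12 certH2.R TH certH2.rels = true := by decide +kernel
theorem relH3_chk : relChk 2058 12 certH3.R TH certH3.rels = true := by decide +kernel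
theorem relH7_chk : relChk 2058 12 certH7.R TH certH7.rels = true := by decide +kernel

theorem normH2 : NormB certH2 3 17 := ⟨by decide +kernel, by decide +kernel, fun _ hj => norm01 hj⟩
theorem normH3 : NormA certH3 2 17 := ⟨by decide +kernel, by decide +kernel, fun _ hj => norm01 hj⟩
theorem normH7 : NormA certH7 2 17 := ⟨by decide +kernel, by decide +kernel, fun _ hj => norm01 hj⟩

theorem ker2 : KerBotE ↥HH 2 := by
  have h := relChk_spec (k := 12) (by norm_num) relH2_chk
  exact level_two levH NN hM_NN perfect_NN index_NN certH2 certH2_ok rfl rfl rfl (e := 2) (r := 3) (t := 17) (u := 1)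
    (v := 1) rfl rfl normH2 (by decide) (by norm_num) (by norm_num) (fun j hj => (h j hj).1)
    (fun j hj => ptH.evW_one (h j hj).1 (h j hj).2)

theorem ker3 : KerBotE ↥HH 3 := by
  have h := relChk_spec (k := 12) (by norm_num) relH3_chk
  exact level_odd levH NN hM_NN perfect_NN index_NN certH3 certH3_ok rfl rfl rfl (e := 3) (r := 2) (t := 17) (u := 1)
    (v := 1) rfl rfl (by norm_num) normH3 (by decide) (by norm_num) (by norm_num) (fun j hj => (h j hj).1)
    (fun j hj => ptH.evW_one (h j hj).1 (h j hj).2)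

theorem ker7 : KerBotE ↥HH 49 := by
  have h := relChk_spec (k := 12) (by norm_num) relH7_chk
  exact level_odd levH NN hM_NN perfect_NN index_NN certH7 certH7_ok rfl rfl rfl (e := 49) (r := 2) (t := 17) (u := 24)
    (v := 23) rfl rfl (by norm_num) normH7 (by decide) (by norm_num) (by norm_num) (fun j hj => (h j hj).1)
    (fun j hj => ptH.evW_one (h j hj).1 (h j hj).2)

/-- The Schur multiplier of the group on `2058` points is trivial. -/
theorem hM_HH : HasCyclicSchurMultiplier ↥HH 1 := by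
  refine hasCyclicSchurMultiplier_one ↥HH ?_
  intro Γ _ _ σ hσ
  have h294 : KerBotE ↥HH (2 * 3 * 49) := (ker2.mul ker3).mul ker7
  apply h294 Γ σ hσ
  intro k hk
  have h1 := pow_index_of_target NN hM_NN perfect_NN index_NN hσ hk
  rw [levH.index_stab] at h1
  haveI : Fact (Nat.Prime 7) := ⟨by norm_num⟩
  have h2 := ker_pow_prime hσ 7 (by rw [Cfsg.Agent.Lib.HePMain.cardH0]; norm_num) hk
  rw [Cfsg.Agent.Lib.HePMain.cardH0] at h2
  have h3 := pow_gcd_eq_one.mpr ⟨h1, h2⟩
  have : Nat.gcd 2058 (4030387200 / 7) = 2 * 3 * 49 := by norm_num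
  rwa [this] at h3

end

end Cfsg.Agent.Lib.HeSchurTop12
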