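import Cfsg.Agent.Lib.HeVTab

set_option autoImplicit false
set_option maxRecDepth 100000
set_option Elab.async false

namespace Cfsg.Agent.Lib.HeVChk

open Cfsg.Agent.Lib.ChainCert Cfsg.Agent.Lib.ProgBits Cfsg.Agent.Lib.ProgChain Cfsg.Agent.Lib.PermChain Cfsg.Agent.Lib.TcBits
open Cfsg.Agent.Lib.HeVTab

theorem let_6_0 : allR (guard Plet (nat_lit 62)) 6 (nat_lit 0) = true := by decide +kernel
theorem let_all : ∀ i, i < (nat_lit 62) → Plet i = true := of_guard (k := 6) (by norm_num) let_6_0
theorem der0_6_0 : allR (guard Pder0 (nat_lit 35)) 6 (nat_lit 0) = true := by decide +kernel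
theorem der0_all : ∀ i, i < (nat_lit 35) → Pder0 i = true := of_guard (k := 6) (by norm_num) der0_6_0
theorem cert0_6_0 : allR (guard Pcert0 (nat_lit 37)) 6 (nat_lit 0) = true := by decide +kernel
theorem cert0_all : ∀ i, i < (nat_lit 37) → Pcert0 i = true := of_guard (k := 6) (by norm_num) cert0_6_0
theorem fix0_6_0 : allR (guard Pfix0 (nat_lit 37)) 6 (nat_lit 0) = true := by decide +kernel
theorem fix0_all : ∀ i, i < (nat_lit 37) → Pfix0 i = true := of_guard (k := 6) (by norm_num) fix0_6_0
theorem img0_8_0 : allR (guard Pimg0 (nat_lit 256)) 8 (nat_lit 0) = true := by decide +kernel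
theorem img0_all : ∀ i, i < (nat_lit 256) → Pimg0 i = true := of_guard (k := 8) (by norm_num) img0_8_0
theorem der1_6_0 : allR (guard Pder1 (nat_lit 52)) 6 (nat_lit 0) = true := by decide +kernel
theorem der1_all : ∀ i, i < (nat_lit 52) → Pder1 i = true := of_guard (k := 6) (by norm_num) der1_6_0
theorem cert1_6_0 : allR (guard Pcert1 (nat_lit 58)) 6 (nat_lit 0) = true := by decide +kernel
theorem cert1_all : ∀ i, i < (nat_lit 58) → Pcert1 i = true := of_guard (k := 6) (by norm_num) cert1_6_0
theorem fix1_6_0 : allR (guard Pfix1 (nat_lit 58)) 6 (nat_lit 0) = true := by decide +kernel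
theorem fix1_all : ∀ i, i < (nat_lit 58) → Pfix1 i = true := of_guard (k := 6) (by norm_num) fix1_6_0
theorem img1_8_0 : allR (guard Pimg1 (nat_lit 256)) 8 (nat_lit 0) = true := by decide +kernel
theorem img1_all : ∀ i, i < (nat_lit 256) → Pimg1 i = true := of_guard (k := 8) (by norm_num) img1_8_0
theorem der2_6_0 : allR (guard Pder2 (nat_lit 60)) 6 (nat_lit 0) = true := by decide +kernel
theorem der2_all : ∀ i, i < (nat_lit 60) → Pder2 i = true := of_guard (k := 6) (by norm_num) der2_6_0
theorem cert2_6_0 : allR (guard Pcert2 (nat_lit 62)) 6 (nat_lit 0) = true := by decide +kernel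
theorem cert2_all : ∀ i, i < (nat_lit 62) → Pcert2 i = true := of_guard (k := 6) (by norm_num) cert2_6_0
theorem fix2_6_0 : allR (guard Pfix2 (nat_lit 62)) 6 (nat_lit 0) = true := by decide +kernel
theorem fix2_all : ∀ i, i < (nat_lit 62) → Pfix2 i = true := of_guard (k := 6) (by norm_num) fix2_6_0
theorem img2_8_0 : allR (guard Pimg2 (nat_lit 256)) 8 (nat_lit 0) = true := by decide +kernel
theorem img2_all : ∀ i, i < (nat_lit 256) → Pimg2 i = true := of_guard (k := 8) (by norm_num) img2_8_0
theorem der3_6_0 : allR (guard Pder3 (nat_lit 62)) 6 (nat_lit 0) = true := by decide +kernel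
theorem der3_all : ∀ i, i < (nat_lit 62) → Pder3 i = true := of_guard (k := 6) (by norm_num) der3_6_0
theorem cert3_6_0 : allR (guard Pcert3 (nat_lit 62)) 6 (nat_lit 0) = true := by decide +kernel
theorem cert3_all : ∀ i, i < (nat_lit 62) → Pcert3 i = true := of_guard (k := 6) (by norm_num) cert3_6_0
theorem fix3_6_0 : allR (guard Pfix3 (nat_lit 62)) 6 (nat_lit 0) = true := by decide +kernel
theorem fix3_all : ∀ i, i < (nat_lit 62) → Pfix3 i = true := of_guard (k := 6) (by norm_num) fix3_6_0
theorem img3_8_0 : allR (guard Pimg3 (nat_lit 256)) 8 (nat_lit 0) = true := by decide +kernel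
theorem img3_all : ∀ i, i < (nat_lit 256) → Pimg3 i = true := of_guard (k := 8) (by norm_num) img3_8_0

end Cfsg.Agent.Lib.HeVChk
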