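import Cfsg.Agent.Lib.StCount50

/-!
# A spherical function forced by its formal degree

For a function `Lam` on a finite group with a (B,N)-pair, behaving like the matrix coefficient
of a `U`-fixed vector in a representation of degree `|U|`, the values on `B s B` are forced.
-/

set_option autoImplicit false
set_option linter.unusedSectionVars false
set_option linter.unusedVariables false

namespace Cfsg.Agent.Lib.StBN50

open Cfsg Cfsg.Agent.Lib.BNPair Cfsg.Agent.Lib.CoxLen50 MulAction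
open scoped ComplexConjugate

variable {G : Type*} [Group G] [Fintype G] {P : Cfsg.BNPair G}

/-- The properties of the spherical function. -/
structure LamData (P : Cfsg.BNPair G) (U : Subgroup G) [Fintype U] (q : ℕ) (Lam : G → ℂ) : Prop where
  hq : 2 ≤ q
  hUB : U ≤ P.B
  hUnorm : ∀ b ∈ P.B, ∀ u ∈ U, b * u * b⁻¹ ∈ U
  hB : ∀ b ∈ P.B, ∃ u ∈ U, ∃ t ∈ P.B ⊓ P.N, b = u * t
  hUp : ∀ u ∈ U, ∀ g, g * u * g⁻¹ ∈ P.B → g * u * g⁻¹ ∈ U
  lam_one : Lam 1 = 1
  lam_left : ∀ u ∈ U, ∀ g, Lam (u * g) = Lam g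
  lam_right : ∀ u ∈ U, ∀ g, Lam (g * u) = Lam g
  lam_mul : ∀ g h, Lam g * Lam h = (Nat.card U : ℂ)⁻¹ * ∑ u : U, Lam (g * u * h)
  lam_inv : ∀ g, Lam g⁻¹ = conj (Lam g)
  lam_schur : ∑ g, Lam g * Lam g⁻¹ = (Nat.card G : ℂ) / (Nat.card U : ℂ)
  hN : ∀ w : WW P, Nat.card {c : G ⧸ P.B // delC P c = w} = q ^ lW P w
  hw₀ : ∃ w₀ : WW P, FullD (SW P) (lW P) w₀ ∧ q ^ lW P w₀ = Nat.card U

/-- The size of the double coset. -/
theorem card_del_eq (w : WW P) : Nat.card {g : G // del P g = w} =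
    Nat.card {c : G ⧸ P.B // delC P c = w} * Nat.card P.B := by
  classical
  haveI : Fintype (G ⧸ P.B) := Fintype.ofFinite _
  rw [Nat.card_eq_fintype_card, Nat.card_eq_fintype_card, Fintype.card_subtype, Fintype.card_subtype]
  have h1 := Finset.card_eq_sum_card_fiberwise (s := Finset.univ.filter (fun g : G => del P g = w))
    (t := Finset.univ.filter (fun c : G ⧸ P.B => delC P c = w))
    (f := fun g : G => ((g : G) : G ⧸ P.B)) (by
      intro g hg
      have hg' := (Finset.mem_filter.1 hg).2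
      exact Finset.mem_filter.2 ⟨Finset.mem_univ _, by simpa using hg'⟩)
  rw [h1, Finset.sum_congr rfl (g := fun _ => Nat.card P.B), Finset.sum_const, smul_eq_mul]
  · intro c hc
    have hc' := (Finset.mem_filter.1 hc).2
    induction c using QuotientGroup.induction_on with | H y =>
    rw [Nat.card_eq_fintype_card, ← Finset.card_univ]
    symm
    apply Finset.card_bij (fun (b : ↥P.B) _ => y * (b : G))
    · intro b _
      have hmk : (((y * (b : G) : G)) : G ⧸ P.B) = ((y : G) : G ⧸ P.B) := by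
        apply QuotientGroup.eq.2
        have e : (y * (b : G))⁻¹ * y = (b : G)⁻¹ := by group
        rw [e]
        exact P.B.inv_mem b.2
      refine Finset.mem_filter.2 ⟨Finset.mem_filter.2 ⟨Finset.mem_univ _, ?_⟩, hmk⟩
      have : del P (y * (b : G)) = del P y := del_mul_B b.2
      rw [this]
      simpa using hc'
    · intro a _ b _ hab
      exact Subtype.ext (mul_left_cancel hab)
    · intro g hg
      have hg' := (Finset.mem_filter.1 hg).2
      have h2 : y⁻¹ * g ∈ P.B := QuotientGroup.eq.1 hg'.symm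
      exact ⟨⟨y⁻¹ * g, h2⟩, Finset.mem_univ _, by simp⟩

/-- A real lemma for the rank one computation. -/
theorem rank_one_ineq {ι : Type*} (Ω : Finset ι) (L : ι → ℂ) {a q u₀ : ℝ} (ha : 0 ≤ a) (hq : 1 < q)
    (hu₀ : 0 < u₀) (hcard : (Ω.card : ℝ) = u₀ * (q - 1)) (hL : ∀ i ∈ Ω, ‖L i‖ = a)
    (hsum : ((q * u₀ * a ^ 2 : ℝ) : ℂ) = (u₀ : ℂ) + ∑ i ∈ Ω, L i) :
    1 ≤ q * a ∧ (q * a = 1 → ∀ i ∈ Ω, L i = (-a : ℝ)) := by
  have hK : ∑ i ∈ Ω, L i = ((q * u₀ * a ^ 2 - u₀ : ℝ) : ℂ) := by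
    rw [Complex.ofReal_sub, hsum]
    ring
  have hnorm : ‖∑ i ∈ Ω, L i‖ ≤ Ω.card * a := by
    have := norm_sum_le Ω L
    rw [Finset.sum_congr rfl hL, Finset.sum_const, nsmul_eq_mul] at this
    exact this
  rw [hK, hcard, Complex.norm_real, Real.norm_eq_abs] at hnorm
  have h1 : u₀ * (1 - q * a ^ 2) ≤ u₀ * ((q - 1) * a) := by
    have := neg_abs_le (q * u₀ * a ^ 2 - u₀)
    nlinarith
  have h2 : 1 - q * a ^ 2 ≤ (q - 1) * a := le_of_mul_le_mul_left h1 hu₀
  have h3 : 0 ≤ (q * a - 1) * (a + 1) := by nlinarith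
  have h4 : 1 ≤ q * a := by
    by_contra hcon
    push Not at hcon
    have : (q * a - 1) * (a + 1) < 0 := mul_neg_of_neg_of_pos (by linarith) (by linarith)
    linarith
  refine ⟨h4, ?_⟩
  intro heq i hi
  have hq0 : q ≠ 0 := by linarith
  have ha' : a = 1 / q := by field_simp; linarith
  have hre : ∑ i ∈ Ω, ((L i).re + a) = 0 := by
    rw [Finset.sum_add_distrib, ← Complex.re_sum, hK, Complex.ofReal_re, Finset.sum_const, nsmul_eq_mul,
      hcard]
    rw [ha']
    field_simp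
    ring
  have hnn : ∀ i ∈ Ω, 0 ≤ (L i).re + a := by
    intro i hi
    have := Complex.abs_re_le_norm (L i)
    rw [hL i hi] at this
    have := neg_abs_le (L i).re
    linarith
  have h5 := (Finset.sum_eq_zero_iff_of_nonneg hnn).1 hre i hi
  have h6 : (L i).re = -a := by linarith
  have h7 := hL i hi
  have h8 : (L i).re ^ 2 + (L i).im ^ 2 = a ^ 2 := by
    rw [← h7, Complex.sq_norm, Complex.normSq_apply]
    ring
  have h9 : (L i).im = 0 := by
    rw [h6] at h8
    have : (L i).im ^ 2 = 0 := by nlinarith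
    exact pow_eq_zero_iff (two_ne_zero) |>.1 this
  apply Complex.ext
  · rw [h6, Complex.ofReal_re]
  · rw [h9, Complex.ofReal_im]

namespace LamData

variable {U : Subgroup G} [Fintype U] {q : ℕ} {Lam : G → ℂ} (h : LamData P U q Lam)

include h

theorem card_U_ne : (Nat.card U : ℂ) ≠ 0 := by exact_mod_cast (Nat.card_pos (α := U)).ne'

theorem lam_mem_U {u : G} (hu : u ∈ U) : Lam u = 1 := by
  have := h.lam_left u hu 1
  rw [mul_one, h.lam_one] at this
  exact this

theorem avg_const (c : ℂ) : (Nat.card U : ℂ)⁻¹ * ∑ u : U, c = c := by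
  rw [Finset.sum_const, nsmul_eq_mul, Finset.card_univ, ← Nat.card_eq_fintype_card,
    ← mul_assoc, inv_mul_cancel₀ h.card_U_ne, one_mul]

theorem lam_mul_T {t : G} (ht : t ∈ P.B ⊓ P.N) (g : G) : Lam (g * t) = Lam g * Lam t := by
  rw [h.lam_mul g t]
  have : ∀ u : U, Lam (g * u * t) = Lam (g * t) := by
    intro u
    have h1 : t⁻¹ * (u : G) * t ∈ U := by
      have := h.hUnorm t⁻¹ (P.B.inv_mem ht.1) u u.2
      rwa [inv_inv] at this
    have e : g * u * t = g * t * (t⁻¹ * (u : G) * t) := by group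
    rw [e, h.lam_right _ h1]
  simp only [this]
  rw [h.avg_const]

theorem lam_T_mul {t : G} (ht : t ∈ P.B ⊓ P.N) (g : G) : Lam (t * g) = Lam t * Lam g := by
  rw [h.lam_mul t g]
  have : ∀ u : U, Lam (t * u * g) = Lam (t * g) := by
    intro u
    have h1 : t * (u : G) * t⁻¹ ∈ U := h.hUnorm t ht.1 u u.2
    have e : t * u * g = (t * (u : G) * t⁻¹) * (t * g) := by group
    rw [e, h.lam_left _ h1]
  simp only [this]
  rw [h.avg_const]

theorem lam_mul_conj (g : G) : Lam g * Lam g⁻¹ = ((‖Lam g‖ ^ 2 : ℝ) : ℂ) := by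
  rw [h.lam_inv, Complex.mul_conj, Complex.normSq_eq_norm_sq]

theorem norm_T {t : G} (ht : t ∈ P.B ⊓ P.N) : ‖Lam t‖ = 1 := by
  have h1 := h.lam_mul_T ht t⁻¹
  rw [inv_mul_cancel, h.lam_one, h.lam_inv, mul_comm, Complex.mul_conj, Complex.normSq_eq_norm_sq] at h1
  have h2 : ‖Lam t‖ ^ 2 = 1 := by exact_mod_cast h1.symm
  have h3 := norm_nonneg (Lam t)
  nlinarith

theorem norm_B_mul {b : G} (hb : b ∈ P.B) (g : G) : ‖Lam (b * g)‖ = ‖Lam g‖ := by
  obtain ⟨u, hu, t, ht, rfl⟩ := h.hB b hb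
  rw [mul_assoc, h.lam_left u hu, h.lam_T_mul ht, norm_mul, h.norm_T ht, one_mul]

theorem norm_mul_B {b : G} (hb : b ∈ P.B) (g : G) : ‖Lam (g * b)‖ = ‖Lam g‖ := by
  obtain ⟨u, hu, t, ht, rfl⟩ := h.hB b hb
  rw [← mul_assoc, h.lam_mul_T ht, h.lam_right u hu, norm_mul, h.norm_T ht, mul_one]

/-- A lift. -/
noncomputable def nn (P : Cfsg.BNPair G) (w : WW P) : G := Classical.choose (exists_pi w)

omit h in
theorem nn_mem (w : WW P) : nn P w ∈ P.N := (Classical.choose_spec (exists_pi w)).1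

omit h in
theorem pi_nn (w : WW P) : pi P (nn P w) = w := (Classical.choose_spec (exists_pi w)).2

/-- The value of the norm on a double coset. -/
noncomputable def ff (P : Cfsg.BNPair G) (Lam : G → ℂ) (w : WW P) : ℝ := ‖Lam (nn P w)‖

theorem norm_eq_ff (g : G) : ‖Lam g‖ = ff P Lam (del P g) := by
  have h1 : g ∈ dc P (nn P (del P g)) := mem_dc_of_del (nn_mem _) (pi_nn _).symm
  obtain ⟨b, hb, b', hb', e⟩ := mem_dc.1 h1
  unfold ff
  rw [e, h.norm_mul_B hb', h.norm_B_mul hb]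
  congr 2
  rw [← e]

theorem ff_nonneg (w : WW P) : 0 ≤ ff P Lam w := norm_nonneg _

theorem ff_one : ff P Lam 1 = 1 := by
  have := h.norm_eq_ff 1
  rw [h.lam_one, norm_one, del_eq_one_iff.2 P.B.one_mem] at this
  exact this.symm

/-- Sub-multiplicativity of the norm for an ascent. -/
theorem ff_mul_ge (g : G) {s : G} (hs : s ∈ P.S)
    (hl : lW P (del P g) < lW P (del P g * pi P s)) :
    ff P Lam (del P g) * ff P Lam (pi P s) ≤ ff P Lam (del P g * pi P s) := by
  have hsN := S_mem_N hs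
  have h1 := h.lam_mul g s
  have h2 : ‖Lam g * Lam s‖ = ff P Lam (del P g) * ff P Lam (pi P s) := by
    rw [norm_mul, h.norm_eq_ff g, h.norm_eq_ff s, del_of_mem hsN]
  rw [← h2, h1, norm_mul]
  have h3 : ∀ u : U, ‖Lam (g * u * s)‖ = ff P Lam (del P g * pi P s) := by
    intro u
    rw [h.norm_eq_ff, del_step_up g hs (h.hUB u.2) hl]
  have h4 := norm_sum_le (Finset.univ : Finset U) (fun u => Lam (g * u * s))
  rw [Finset.sum_congr rfl (fun u _ => h3 u), Finset.sum_const, nsmul_eq_mul, Finset.card_univ,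
    ← Nat.card_eq_fintype_card] at h4
  rw [norm_inv, Complex.norm_natCast]
  have hpos : (0 : ℝ) < Nat.card U := by exact_mod_cast Nat.card_pos
  calc ((Nat.card U : ℝ))⁻¹ * ‖∑ u : U, Lam (g * u * s)‖
      ≤ ((Nat.card U : ℝ))⁻¹ * ((Nat.card U : ℝ) * ff P Lam (del P g * pi P s)) :=
        mul_le_mul_of_nonneg_left (by exact_mod_cast h4) (inv_nonneg.2 hpos.le)
    _ = _ := by field_simp

omit h in
theorem lW_pi_S {s : G} (hs : s ∈ P.S) : lW P (pi P s) = 1 := by
  have hS := coxLen (P := P)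
  have h1 := hS.step 1 (pi P s) (pi_mem_SW hs)
  rw [one_mul, (hS.zero_iff 1).2 rfl] at h1
  rcases h1 with h1 | h1 <;> omega

/-- The rank one analysis. -/
theorem rank_one {s : G} (hs : s ∈ P.S) : 1 ≤ (q : ℝ) * ff P Lam (pi P s) ∧
    ((q : ℝ) * ff P Lam (pi P s) = 1 → ∀ u ∈ U, s * u * s⁻¹ ∉ P.B →
      Lam (s * u * s⁻¹) = ((-ff P Lam (pi P s) : ℝ) : ℂ)) := by
  classical
  have hS := coxLen (P := P)
  have hsN := S_mem_N hs
  set a := ff P Lam (pi P s) with ha
  let U' : Subgroup G := U ⊓ P.B.comap (MulAut.conj s).toMonoidHom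
  have hU' : ∀ u : G, u ∈ U' ↔ u ∈ U ∧ s * u * s⁻¹ ∈ P.B := fun u => Iff.rfl
  have hcard := card_cell_mul (P := P) (n := s⁻¹) (U := U) (R := U') h.hUB inf_le_left
    (P.N.inv_mem hsN) (by
      intro u hu h1
      rw [inv_inv] at h1
      exact ⟨hu, h1⟩) (by
      intro r hr
      rw [inv_inv]
      exact hr.2) (by
      intro b hb
      obtain ⟨u, hu, t, ht, rfl⟩ := h.hB b hb
      refine ⟨u, hu, ?_⟩
      rw [inv_inv, inv_mul_cancel_left]
      exact P.conj_mem s hsN t ht)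
  rw [h.hN, pi_inv hsN, lW_inv, lW_pi_S hs, pow_one] at hcard
  -- the fibers
  let Ω : Finset U := Finset.univ.filter (fun u : U => s * (u : G) * s⁻¹ ∉ P.B)
  have hU'card : Nat.card U' = (Finset.univ.filter (fun u : U => s * (u : G) * s⁻¹ ∈ P.B)).card := by
    have e : ↥U' ≃ {u : U // s * (u : G) * s⁻¹ ∈ P.B} :=
      { toFun := fun x => ⟨⟨x.1, x.2.1⟩, x.2.2⟩
        invFun := fun x => ⟨x.1.1, x.1.2, x.2⟩
        left_inv := fun x => rfl
        right_inv := fun x => rfl }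
    rw [Nat.card_congr e, Nat.card_eq_fintype_card, Fintype.card_subtype]
  have hΩcard : Ω.card + Nat.card U' = Nat.card U := by
    rw [hU'card, add_comm, Nat.card_eq_fintype_card (α := U), ← Finset.card_univ]
    exact Finset.card_filter_add_card_filter_not _
  have hq1 : (1 : ℝ) < q := by exact_mod_cast (lt_of_lt_of_le one_lt_two h.hq)
  have hU'pos : (0 : ℝ) < Nat.card U' := by exact_mod_cast Nat.card_pos
  have hUr : (Nat.card U : ℝ) = q * Nat.card U' := by
    exact_mod_cast hcard.symm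
  have hΩr : (Ω.card : ℝ) = (Nat.card U' : ℝ) * (q - 1) := by
    have : (Ω.card : ℝ) + Nat.card U' = Nat.card U := by exact_mod_cast hΩcard
    rw [hUr] at this
    linarith
  -- the values
  have hval1 : ∀ u : U, s * (u : G) * s⁻¹ ∈ P.B → Lam (s * u * s⁻¹) = 1 := by
    intro u hu
    exact h.lam_mem_U (h.hUp u u.2 s hu)
  have hval2 : ∀ u : U, s * (u : G) * s⁻¹ ∉ P.B → ‖Lam (s * u * s⁻¹)‖ = a := by
    intro u hu
    rw [h.norm_eq_ff]
    congr 1
    have e : s * (u : G) * s⁻¹ = s * ((u : G) * (s * s)⁻¹) * s := by group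
    have hb : (u : G) * (s * s)⁻¹ ∈ P.B := P.B.mul_mem (h.hUB u.2) (S_sq_inv_mem hs)
    rw [e]
    rcases del_step (b := (u : G) * (s * s)⁻¹) s hs hb with h1 | h1
    · exfalso
      apply hu
      rw [e, ← del_eq_one_iff, h1, del_of_mem hsN, pi_S_sq hs]
    · rw [h1, del_of_mem hsN]
  have hsum : Lam s * Lam s⁻¹ = (Nat.card U : ℂ)⁻¹ * ∑ u : U, Lam (s * u * s⁻¹) := h.lam_mul s s⁻¹
  rw [h.lam_mul_conj, ← Finset.sum_filter_add_sum_filter_not Finset.univ
    (fun u : U => s * (u : G) * s⁻¹ ∈ P.B)] at hsum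
  have h1 : ∑ u ∈ Finset.univ.filter (fun u : U => s * (u : G) * s⁻¹ ∈ P.B), Lam (s * u * s⁻¹) =
      (Nat.card U' : ℂ) := by
    rw [Finset.sum_congr rfl (fun u hu => hval1 u (Finset.mem_filter.1 hu).2), Finset.sum_const,
      nsmul_eq_mul, mul_one, hU'card]
  rw [h1] at hsum
  have hnorm : ‖Lam s‖ = a := by
    rw [h.norm_eq_ff, del_of_mem hsN]
  rw [hnorm] at hsum
  have hUc : (Nat.card U : ℂ) ≠ 0 := h.card_U_ne
  have key : (((q : ℝ) * (Nat.card U' : ℝ) * a ^ 2 : ℝ) : ℂ) =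
      ((Nat.card U' : ℝ) : ℂ) + ∑ u ∈ Ω, Lam (s * u * s⁻¹) := by
    have h2 : (Nat.card U : ℂ) * ((a ^ 2 : ℝ) : ℂ) = (Nat.card U' : ℂ) + ∑ u ∈ Ω, Lam (s * u * s⁻¹) := by
      rw [hsum]
      field_simp
      rfl
    have h3 : (Nat.card U : ℂ) = (q : ℂ) * (Nat.card U' : ℂ) := by exact_mod_cast hcard.symm
    rw [h3] at h2
    push_cast at h2 ⊢
    exact h2
  have ha0 : 0 ≤ a := norm_nonneg _
  have hres := rank_one_ineq Ω (fun u : U => Lam (s * u * s⁻¹)) ha0 hq1 hU'pos hΩr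
    (fun u hu => hval2 u (Finset.mem_filter.1 hu).2) key
  refine ⟨hres.1, ?_⟩
  intro heq u hu hu'
  exact hres.2 heq ⟨u, hu⟩ (Finset.mem_filter.2 ⟨Finset.mem_univ _, hu'⟩)

/-- The lower bound. -/
theorem ff_ge (w : WW P) : ((q : ℝ)⁻¹) ^ lW P w ≤ ff P Lam w := by
  have hS := coxLen (P := P)
  have hq0 : (0 : ℝ) < q := by exact_mod_cast (lt_of_lt_of_le (by norm_num) h.hq)
  induction hk : lW P w using Nat.strong_induction_on generalizing w with
  | _ k ih =>
    by_cases hw : w = 1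
    · subst hw
      rw [h.ff_one]
      have : lW P (1 : WW P) = 0 := (hS.zero_iff 1).2 rfl
      rw [← hk, this, pow_zero]
    · have hcl : w ∈ Subgroup.closure (SW P) := by rw [hS.gen]; trivial
      obtain ⟨_, ⟨t, ht, rfl⟩, hd⟩ := hS.desc _ subset_rfl _ hcl hw
      set w' := w * pi P t with hw'
      have hww : w' * pi P t = w := by
        rw [hw', mul_assoc, pi_S_sq ht, mul_one]
      have h1 := ih _ (by omega) w' rfl
      have h2 := (h.rank_one ht).1
      have h3 : (q : ℝ)⁻¹ ≤ ff P Lam (pi P t) := by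
        rw [inv_le_iff_one_le_mul₀ hq0, mul_comm]
        exact h2
      have hdel : del P (nn P w') = w' := by
        rw [del_of_mem (nn_mem _), pi_nn]
      have h4 := h.ff_mul_ge (nn P w') ht (by
        rw [hdel, hww]
        omega)
      rw [hdel, hww] at h4
      have hk' : k = lW P w' + 1 := by omega
      rw [hk', pow_succ]
      refine le_trans ?_ h4
      exact mul_le_mul h1 h3 (by positivity) (h.ff_nonneg _)

/-- The formal degree forces the equality -/
theorem ff_eq [Fintype (WW P)] (w : WW P) : ff P Lam w = ((q : ℝ)⁻¹) ^ lW P w := by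
  classical
  have hS := coxLen (P := P)
  have hq0 : (0 : ℝ) < q := by exact_mod_cast (lt_of_lt_of_le (by norm_num) h.hq)
  have hBpos : (0 : ℝ) < Nat.card P.B := by exact_mod_cast Nat.card_pos
  have hcardw : ∀ w : WW P, ((Finset.univ.filter (fun g : G => del P g = w)).card : ℝ) =
      (q : ℝ) ^ lW P w * Nat.card P.B := by
    intro w
    have := card_del_eq (P := P) w
    rw [h.hN, Nat.card_eq_fintype_card, Fintype.card_subtype] at this
    rw [this]
    push_cast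
    rfl
  have hG : (Nat.card G : ℝ) = (∑ w : WW P, (q : ℝ) ^ lW P w) * Nat.card P.B := by
    rw [Finset.sum_mul, Nat.card_eq_fintype_card, ← Finset.card_univ,
      Finset.card_eq_sum_card_fiberwise (f := fun g : G => del P g) (t := Finset.univ)
        (fun g _ => Finset.mem_univ _)]
    push_cast
    exact Finset.sum_congr rfl (fun w _ => hcardw w)
  have hsumG : ∑ g : G, ‖Lam g‖ ^ 2 = (∑ w : WW P, (q : ℝ) ^ lW P w * ff P Lam w ^ 2) * Nat.card P.B := by
    rw [← Finset.sum_fiberwise (s := Finset.univ) (g := fun g : G => del P g), Finset.sum_mul]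
    apply Finset.sum_congr rfl
    intro w _
    have : ∀ g ∈ Finset.univ.filter (fun g : G => del P g = w), ‖Lam g‖ ^ 2 = ff P Lam w ^ 2 := by
      intro g hg
      rw [h.norm_eq_ff, (Finset.mem_filter.1 hg).2]
    rw [Finset.sum_congr rfl this, Finset.sum_const, nsmul_eq_mul, hcardw]
    ring
  obtain ⟨w₀, hf, hw₀⟩ := h.hw₀
  set L := lW P w₀ with hL
  have hUpos : (0 : ℝ) < Nat.card U := by exact_mod_cast Nat.card_pos
  have hschur : ∑ g : G, ‖Lam g‖ ^ 2 = (Nat.card G : ℝ) / (Nat.card U : ℝ) := by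
    have h1 := h.lam_schur
    rw [Finset.sum_congr rfl (fun g _ => h.lam_mul_conj g)] at h1
    apply Complex.ofReal_injective
    push_cast at h1 ⊢
    exact h1
  have hUr : (Nat.card U : ℝ) = (q : ℝ) ^ L := by
    rw [← hw₀]
    push_cast
    rfl
  -- Poincare duality
  have hdual : (∑ w : WW P, (q : ℝ) ^ lW P w) / (q : ℝ) ^ L = ∑ w : WW P, ((q : ℝ)⁻¹) ^ lW P w := by
    rw [Finset.sum_div]
    apply Fintype.sum_equiv ((Equiv.inv (WW P)).trans (Equiv.mulLeft w₀))
    intro w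
    have hw : w ∈ Subgroup.closure (SW P) := by rw [hS.gen]; trivial
    have hw0 : w₀ ∈ Subgroup.closure (SW P) := by rw [hS.gen]; trivial
    obtain ⟨z, _, e, hadd⟩ := hS.exists_right_factor subset_rfl hw0 hf hw
    have hz : (Equiv.inv (WW P)).trans (Equiv.mulLeft w₀) w = z := by
      show w₀ * w⁻¹ = z
      rw [e]
      group
    rw [hz, inv_pow, ← hL] at *
    rw [← one_div, div_eq_div_iff (by positivity) (by positivity), one_mul, hadd, pow_add]
    ring
  have hmain : ∑ w : WW P, (q : ℝ) ^ lW P w * ff P Lam w ^ 2 = ∑ w : WW P, ((q : ℝ)⁻¹) ^ lW P w := by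
    rw [← hdual, ← hUr]
    rw [hschur, hG] at hsumG
    field_simp at hsumG ⊢
    linarith
  have hnn : ∀ w ∈ (Finset.univ : Finset (WW P)), 0 ≤ (q : ℝ) ^ lW P w * ff P Lam w ^ 2 - ((q : ℝ)⁻¹) ^ lW P w := by
    intro w _
    have h1 := h.ff_ge w
    have h2 : (((q : ℝ)⁻¹) ^ lW P w) ^ 2 ≤ ff P Lam w ^ 2 :=
      pow_le_pow_left₀ (by positivity) h1 2
    have h3 : (q : ℝ) ^ lW P w * (((q : ℝ)⁻¹) ^ lW P w) = 1 := by
      rw [← mul_pow, mul_inv_cancel₀ hq0.ne', one_pow]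
    have h4 : 0 < (q : ℝ) ^ lW P w := by positivity
    have h5 := mul_le_mul_of_nonneg_left h2 h4.le
    have h6 : (q : ℝ) ^ lW P w * (((q : ℝ)⁻¹) ^ lW P w) ^ 2 = ((q : ℝ)⁻¹) ^ lW P w := by
      rw [sq, ← mul_assoc, h3, one_mul]
    linarith
  have hzero : ∑ w : WW P, ((q : ℝ) ^ lW P w * ff P Lam w ^ 2 - ((q : ℝ)⁻¹) ^ lW P w) = 0 := by
    rw [Finset.sum_sub_distrib, hmain, sub_self]
  have h7 := (Finset.sum_eq_zero_iff_of_nonneg hnn).1 hzero w (Finset.mem_univ _)
  have h8 : (q : ℝ) ^ lW P w * (((q : ℝ)⁻¹) ^ lW P w) = 1 := by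
    rw [← mul_pow, mul_inv_cancel₀ hq0.ne', one_pow]
  have h9 : (q : ℝ) ^ lW P w * ff P Lam w ^ 2 = (q : ℝ) ^ lW P w * (((q : ℝ)⁻¹) ^ lW P w) ^ 2 := by
    rw [sq (((q : ℝ)⁻¹) ^ lW P w), ← mul_assoc, h8, one_mul]
    linarith
  have h10 : ff P Lam w ^ 2 = (((q : ℝ)⁻¹) ^ lW P w) ^ 2 :=
    mul_left_cancel₀ (by positivity) h9
  exact (pow_left_inj₀ (h.ff_nonneg w) (by positivity) two_ne_zero).1 h10

/-- The conclusion. -/
theorem lam_conj_eq [Fintype (WW P)] {s : G} (hs : s ∈ P.S) {u : G} (hu : u ∈ U)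
    (hu' : s * u * s⁻¹ ∉ P.B) : Lam (s * u * s⁻¹) = -((q : ℂ)⁻¹) := by
  have hq0 : (0 : ℝ) < q := by exact_mod_cast (lt_of_lt_of_le (by norm_num) h.hq)
  have h1 := h.ff_eq (pi P s)
  rw [lW_pi_S hs, pow_one] at h1
  have h2 := (h.rank_one hs).2 (by rw [h1, mul_inv_cancel₀ hq0.ne']) u hu hu'
  rw [h2, h1]
  push_cast
  rfl

end LamData

end Cfsg.Agent.Lib.StBN50
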