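import Cfsg.Agent.Lib.CharIntegrality
import Cfsg.Agent.Lib.CharInd

/-!
# The centre of the Hecke algebra of a subgroup

For a subgroup `B` of a finite group `G`, the dimension of the centre of the convolution algebra of the
bi-`B`-invariant functions is the number of irreducible characters of `G` with a `B`-fixed vector.
-/

set_option autoImplicit false
set_option linter.unusedSectionVars false
set_option linter.unusedVariables false

namespace Cfsg.Agent.Lib.HeckeZ50

open Cfsg Cfsg.Agent.Lib.CharBasic Cfsg.Agent.Lib.CharIntegrality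
open scoped ComplexConjugate

variable {G : Type*} [Group G] [Fintype G]

/-- Convolution of functions on `G`. -/
noncomputable def cv (f h : G → ℂ) : G → ℂ := fun z => ∑ x, f x * h (x⁻¹ * z)

theorem cv_apply (f h : G → ℂ) (z : G) : cv f h z = ∑ x, f x * h (x⁻¹ * z) := rfl

/-- Reindexing by `y = x⁻¹ z`. -/
theorem cv_apply' (f h : G → ℂ) (z : G) : cv f h z = ∑ y, f (z * y⁻¹) * h y := by
  rw [cv_apply, ← Equiv.sum_comp ((Equiv.inv G).trans (Equiv.mulLeft z))]
  refine Finset.sum_congr rfl fun y _ => ?_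
  simp

theorem cv_assoc (f g h : G → ℂ) : cv (cv f g) h = cv f (cv g h) := by
  funext z
  simp only [cv_apply, Finset.sum_mul, Finset.mul_sum]
  rw [Finset.sum_comm]
  refine Finset.sum_congr rfl fun y _ => ?_
  rw [← Equiv.sum_comp (Equiv.mulLeft y)]
  refine Finset.sum_congr rfl fun u _ => ?_
  simp only [Equiv.coe_mulLeft, _root_.mul_inv_rev, inv_mul_cancel_left, mul_assoc]

theorem cv_add_left (a b f : G → ℂ) : cv (a + b) f = cv a f + cv b f := by
  funext z
  simp only [cv_apply, Pi.add_apply, add_mul, Finset.sum_add_distrib]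

theorem cv_add_right (f a b : G → ℂ) : cv f (a + b) = cv f a + cv f b := by
  funext z
  simp only [cv_apply, Pi.add_apply, mul_add, Finset.sum_add_distrib]

theorem cv_smul_left (c : ℂ) (a f : G → ℂ) : cv (c • a) f = c • cv a f := by
  funext z
  simp only [cv_apply, Pi.smul_apply, smul_eq_mul, Finset.mul_sum, mul_assoc]

theorem cv_smul_right (c : ℂ) (f a : G → ℂ) : cv f (c • a) = c • cv f a := by
  funext z
  simp only [cv_apply, Pi.smul_apply, smul_eq_mul, Finset.mul_sum]
  refine Finset.sum_congr rfl fun y _ => ?_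
  ring

/-- The Hermitian inner product (not normalised). -/
noncomputable def ip (a b : G → ℂ) : ℂ := ∑ g, a g * conj (b g)

/-- The involution. -/
noncomputable def adj (f : G → ℂ) : G → ℂ := fun g => conj (f g⁻¹)

theorem ip_cv_left (a f h : G → ℂ) : ip (cv a f) h = ip f (cv (adj a) h) := by
  simp only [ip, cv_apply, adj, map_sum, map_mul, Complex.conj_conj, Finset.sum_mul, Finset.mul_sum]
  calc _ = ∑ x, ∑ y, a x * f y * conj (h (x * y)) := by
        rw [Finset.sum_comm]
        refine Finset.sum_congr rfl fun x _ => ?_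
        rw [← Equiv.sum_comp (Equiv.mulLeft x)]
        refine Finset.sum_congr rfl fun y _ => ?_
        simp
    _ = _ := by
        rw [Finset.sum_comm]
        refine Finset.sum_congr rfl fun y _ => ?_
        rw [← Equiv.sum_comp (Equiv.inv G)]
        refine Finset.sum_congr rfl fun x _ => ?_
        simp only [Equiv.inv_apply, inv_inv]
        ring

theorem ip_cv_right (f a h : G → ℂ) : ip (cv f a) h = ip f (cv h (adj a)) := by
  simp only [ip, cv_apply, adj, map_sum, map_mul, Complex.conj_conj, Finset.sum_mul, Finset.mul_sum]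
  rw [Finset.sum_comm]
  refine Finset.sum_congr rfl fun x _ => ?_
  refine Finset.sum_congr rfl fun y _ => ?_
  simp only [_root_.mul_inv_rev, inv_inv]
  ring

theorem ip_conj (a b : G → ℂ) : conj (ip a b) = ip b a := by
  simp only [ip, map_sum, map_mul, Complex.conj_conj]
  refine Finset.sum_congr rfl fun g _ => ?_
  ring

theorem ip_self_re (y : G → ℂ) : ip y y = ((∑ g, Complex.normSq (y g) : ℝ) : ℂ) := by
  simp only [ip, Complex.mul_conj]
  push_cast
  rfl

theorem ip_self_nonneg (y : G → ℂ) : 0 ≤ ∑ g, Complex.normSq (y g) :=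
  Finset.sum_nonneg fun _ _ => Complex.normSq_nonneg _

theorem eq_zero_of_ip_self {y : G → ℂ} (h : ∑ g, Complex.normSq (y g) = 0) : y = 0 := by
  funext g
  exact Complex.normSq_eq_zero.1
    ((Finset.sum_eq_zero_iff_of_nonneg fun _ _ => Complex.normSq_nonneg _).1 h g (Finset.mem_univ g))

theorem adj_cv (f g : G → ℂ) : adj (cv f g) = cv (adj g) (adj f) := by
  funext z
  simp only [adj, cv_apply, map_sum, map_mul]
  rw [← Equiv.sum_comp (Equiv.mulLeft z) (fun x => conj (g x⁻¹) * conj (f (x⁻¹ * z)⁻¹))]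
  refine Finset.sum_congr rfl fun y _ => ?_
  simp only [Equiv.coe_mulLeft, _root_.mul_inv_rev, inv_inv]
  rw [mul_comm]
  simp

/-- The point mass. -/
noncomputable def dt [DecidableEq G] (x : G) : G → ℂ := fun g => if g = x then 1 else 0

theorem cv_dt_left [DecidableEq G] (x : G) (f : G → ℂ) (z : G) : cv (dt x) f z = f (x⁻¹ * z) := by
  rw [cv_apply, Finset.sum_eq_single x]
  · simp [dt]
  · intro b _ hb
    simp [dt, hb]
  · simp

theorem cv_dt_right [DecidableEq G] (x : G) (f : G → ℂ) (z : G) : cv f (dt x) z = f (z * x⁻¹) := by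
  rw [cv_apply', Finset.sum_eq_single x]
  · simp [dt]
  · intro b _ hb
    simp [dt, hb]
  · simp

theorem adj_dt [DecidableEq G] (x : G) : adj (dt x) = dt x⁻¹ := by
  funext g
  simp only [adj, dt, inv_eq_iff_eq_inv]
  split_ifs <;> simp

theorem dt_one_cv [DecidableEq G] (f : G → ℂ) : cv (dt 1) f = f := by
  funext z
  rw [cv_dt_left]
  simp

variable (B : Subgroup G)

open Classical in
/-- The normalised indicator function of `B`. -/
noncomputable def ee : G → ℂ := fun g => if g ∈ B then (Nat.card B : ℂ)⁻¹ else 0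

theorem card_B_ne : (Nat.card B : ℂ) ≠ 0 := by exact_mod_cast Nat.card_pos.ne'

theorem sum_ee : ∑ x, ee B x = 1 := by
  classical
  simp only [ee]
  rw [Finset.sum_ite, Finset.sum_const, Finset.sum_const_zero, add_zero, nsmul_eq_mul]
  have h1 : (Finset.univ.filter (fun x : G => x ∈ B)).card = Nat.card B := by
    rw [Nat.card_eq_fintype_card, Fintype.card_subtype]
  rw [h1, mul_inv_cancel₀ (card_B_ne B)]

theorem ee_eq_zero {x : G} (hx : x ∉ B) : ee B x = 0 := by
  simp [ee, hx]

theorem ee_of_mem {x : G} (hx : x ∈ B) : ee B x = (Nat.card B : ℂ)⁻¹ := by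
  simp [ee, hx]

theorem ee_congr {x y : G} (h : x ∈ B ↔ y ∈ B) : ee B x = ee B y := by
  by_cases hx : x ∈ B
  · rw [ee_of_mem B hx, ee_of_mem B (h.1 hx)]
  · rw [ee_eq_zero B hx, ee_eq_zero B (fun hy => hx (h.2 hy))]

theorem ee_mul {b x : G} (hb : b ∈ B) : ee B (b * x) = ee B x :=
  ee_congr B (B.mul_mem_cancel_left hb)

theorem ee_mul_right {b x : G} (hb : b ∈ B) : ee B (x * b) = ee B x :=
  ee_congr B (B.mul_mem_cancel_right hb)

theorem adj_ee : adj (ee B) = ee B := by
  funext g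
  simp only [adj]
  rw [ee_congr B (inv_mem_iff (x := g))]
  by_cases hg : g ∈ B
  · rw [ee_of_mem B hg]
    simp
  · rw [ee_eq_zero B hg, map_zero]

/-- Left invariance. -/
def LInv (f : G → ℂ) : Prop := ∀ b ∈ B, ∀ g, f (b * g) = f g

/-- Right invariance. -/
def RInv (f : G → ℂ) : Prop := ∀ b ∈ B, ∀ g, f (g * b) = f g

/-- Invariance on both sides. -/
def BiInv (f : G → ℂ) : Prop := LInv B f ∧ RInv B f

theorem ee_cv {f : G → ℂ} (hf : LInv B f) : cv (ee B) f = f := by
  funext z
  have h1 : ∀ x, ee B x * f (x⁻¹ * z) = ee B x * f z := by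
    intro x
    by_cases hx : x ∈ B
    · rw [hf _ (B.inv_mem hx)]
    · rw [ee_eq_zero B hx, zero_mul, zero_mul]
  rw [cv_apply, Finset.sum_congr rfl fun x _ => h1 x, ← Finset.sum_mul, sum_ee, one_mul]

theorem cv_ee {f : G → ℂ} (hf : RInv B f) : cv f (ee B) = f := by
  funext z
  have h1 : ∀ y, f (z * y⁻¹) * ee B y = f z * ee B y := by
    intro y
    by_cases hy : y ∈ B
    · rw [hf _ (B.inv_mem hy)]
    · rw [ee_eq_zero B hy, mul_zero, mul_zero]
  rw [cv_apply', Finset.sum_congr rfl fun x _ => h1 x, ← Finset.mul_sum, sum_ee, mul_one]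

theorem linv_cv {f : G → ℂ} (h : G → ℂ) (hf : LInv B f) : LInv B (cv f h) := by
  intro b hb g
  rw [cv_apply, cv_apply, ← Equiv.sum_comp (Equiv.mulLeft b)]
  refine Finset.sum_congr rfl fun x _ => ?_
  simp only [Equiv.coe_mulLeft, _root_.mul_inv_rev, hf b hb]
  congr 2
  group

theorem rinv_cv (f : G → ℂ) {h : G → ℂ} (hh : RInv B h) : RInv B (cv f h) := by
  intro b hb g
  rw [cv_apply, cv_apply]
  refine Finset.sum_congr rfl fun x _ => ?_
  rw [← mul_assoc, hh b hb]

theorem linv_ee : LInv B (ee B) := fun _ hb _ => ee_mul B hb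

theorem rinv_ee : RInv B (ee B) := fun _ hb _ => ee_mul_right B hb

theorem ee_ee : cv (ee B) (ee B) = ee B := ee_cv B (linv_ee B)

/-- The centre of the Hecke algebra. -/
def ZH : Submodule ℂ (G → ℂ) where
  carrier := {z | BiInv B z ∧ ∀ f, BiInv B f → cv z f = cv f z}
  add_mem' := by
    rintro a b ⟨⟨ha1, ha2⟩, ha3⟩ ⟨⟨hb1, hb2⟩, hb3⟩
    refine ⟨⟨?_, ?_⟩, ?_⟩
    · intro c hc g
      simp only [Pi.add_apply, ha1 c hc, hb1 c hc]
    · intro c hc g
      simp only [Pi.add_apply, ha2 c hc, hb2 c hc]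
    · intro f hf
      rw [cv_add_left, cv_add_right, ha3 f hf, hb3 f hf]
  zero_mem' := by
    refine ⟨⟨?_, ?_⟩, ?_⟩
    · intro c hc g
      rfl
    · intro c hc g
      rfl
    · intro f hf
      funext z
      simp [cv_apply]
  smul_mem' := by
    rintro c a ⟨⟨ha1, ha2⟩, ha3⟩
    refine ⟨⟨?_, ?_⟩, ?_⟩
    · intro d hd g
      simp only [Pi.smul_apply, ha1 d hd]
    · intro d hd g
      simp only [Pi.smul_apply, ha2 d hd]
    · intro f hf
      rw [cv_smul_left, cv_smul_right, ha3 f hf]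

theorem mem_ZH {z : G → ℂ} : z ∈ ZH B ↔ BiInv B z ∧ ∀ f, BiInv B f → cv z f = cv f z := Iff.rfl

/-- Class functions are central for the convolution. -/
theorem class_comm {φ : G → ℂ} (hφ : IsClassFunction G φ) (f : G → ℂ) : cv φ f = cv f φ := by
  funext z
  rw [cv_apply', cv_apply]
  refine Finset.sum_congr rfl fun y _ => ?_
  have := hφ (z * y⁻¹) y⁻¹
  have e : y⁻¹ * (z * y⁻¹) * y⁻¹⁻¹ = y⁻¹ * z := by group
  rw [e] at this
  rw [← this, mul_comm]

theorem ec_mem {φ : G → ℂ} (hφ : IsClassFunction G φ) : cv (ee B) φ ∈ ZH B := by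
  refine ⟨⟨linv_cv B _ (linv_ee B), ?_⟩, ?_⟩
  · rw [← class_comm hφ]
    exact rinv_cv B _ (rinv_ee B)
  · intro f hf
    rw [cv_assoc, class_comm hφ, ← cv_assoc, ee_cv B hf.1, ← cv_assoc, cv_ee B hf.2]

variable [DecidableEq G]

/-- Conjugation of a function. -/
noncomputable def cnj (x : G) (z : G → ℂ) : G → ℂ := fun g => z (x⁻¹ * g * x)

theorem cnj_eq (x : G) (z : G → ℂ) : cnj x z = cv (cv (dt x) z) (dt x⁻¹) := by
  funext g
  rw [cv_dt_right, cv_dt_left, cnj, inv_inv, mul_assoc]

/-- The elements `e x e`. -/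
noncomputable def uu (x : G) : G → ℂ := cv (cv (ee B) (dt x)) (ee B)

theorem adj_uu (x : G) : adj (uu B x) = uu B x⁻¹ := by
  simp only [uu, adj_cv, adj_ee, adj_dt, cv_assoc]

theorem biInv_uu (x : G) : BiInv B (uu B x) :=
  ⟨linv_cv B _ (linv_cv B _ (linv_ee B)), rinv_cv B _ (rinv_ee B)⟩

/-- The positivity computation. -/
theorem ip_cnj {z : G → ℂ} (hz : z ∈ ZH B) (x : G) :
    ip (cnj x z) z = ip (cv z (uu B x⁻¹)) (cv z (uu B x⁻¹)) := by
  obtain ⟨⟨h1, h2⟩, h3⟩ := hz
  have hl : cv (ee B) z = z := ee_cv B h1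
  have hr : cv z (ee B) = z := cv_ee B h2
  set y := cnj x z with hy
  have s1 : ip y z = ip (cv (cv (ee B) y) (ee B)) z := by
    rw [ip_cv_right, adj_ee, hr, ip_cv_left, adj_ee, hl]
  have s2 : cv (cv (ee B) y) (ee B) = cv (uu B x) (cv z (uu B x⁻¹)) := by
    have e1 : cv z (uu B x⁻¹) = cv z (cv (dt x⁻¹) (ee B)) := by
      rw [uu, cv_assoc, ← cv_assoc z, hr]
    rw [e1, hy, cnj_eq, uu]
    simp only [cv_assoc]
    rw [← cv_assoc (ee B) z, hl]
  rw [s1, s2, ip_cv_left, adj_uu, h3 _ (biInv_uu B x⁻¹)]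

theorem uu_one : uu B (1 : G) = ee B := by
  have h1 : cv (ee B) (dt (1 : G)) = ee B := by
    funext g
    rw [cv_dt_right]
    simp
  rw [uu, h1, ee_ee]

/-- A central element whose conjugates sum to zero is zero. -/
theorem eq_zero_of_sum_cnj {z : G → ℂ} (hz : z ∈ ZH B) (h0 : ∑ x, cnj x z = 0) : z = 0 := by
  have h1 : ip (∑ x, cnj x z) z = ∑ x, ip (cnj x z) z := by
    simp only [ip, Finset.sum_apply, Finset.sum_mul]
    rw [Finset.sum_comm]
  have h2 : ip (∑ x, cnj x z) z = 0 := by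
    rw [h0]
    simp [ip]
  rw [h2, Finset.sum_congr rfl fun x _ => ip_cnj B hz x] at h1
  simp only [ip_self_re] at h1
  rw [← Complex.ofReal_sum] at h1
  have h3 : ∑ x : G, ∑ g, Complex.normSq (cv z (uu B x⁻¹) g) = 0 := by
    exact_mod_cast h1.symm
  have h4 := (Finset.sum_eq_zero_iff_of_nonneg fun x _ => ip_self_nonneg (cv z (uu B x⁻¹))).1 h3 1
    (Finset.mem_univ _)
  rw [inv_one, uu_one, cv_ee B hz.1.2] at h4
  exact eq_zero_of_ip_self h4

/-- A shift in the orthogonality relation. -/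
theorem sum_shift {χ : G → ℂ} (hχ : IsIrrCharacter G χ) {f : G → ℂ} (hf : IsClassFunction G f) (a : G) :
    χ 1 * ∑ y, f y * χ (a * y) = (∑ y, f y * χ y) * χ a := by
  obtain ⟨n, ρ, hρ, rfl⟩ := hχ
  have h1 := sumOp_eq_smul ρ hρ hf
  have h2 : LinearMap.trace ℂ (Fin n → ℂ) (ρ a ∘ₗ sumOp ρ f) = ∑ y : G, f y * ρ.character (a * y) := by
    have h3 : ρ a ∘ₗ sumOp ρ f = ∑ y : G, f y • ρ (a * y) := by
      apply LinearMap.ext
      intro v
      simp [sumOp, LinearMap.sum_apply, map_sum, Module.End.mul_apply]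
    rw [h3, map_sum]
    refine Finset.sum_congr rfl fun y _ => ?_
    rw [map_smul]
    rfl
  rw [h1, LinearMap.comp_smul, map_smul, LinearMap.comp_id] at h2
  have hd : ρ.character 1 = (Module.finrank ℂ (Fin n → ℂ) : ℂ) := by
    rw [Representation.character, map_one, LinearMap.trace_one]
  have hV := ((isIrreducible_iff ρ).mp hρ).1
  have hn : (Module.finrank ℂ (Fin n → ℂ) : ℂ) ≠ 0 := by
    exact_mod_cast (Module.finrank_pos (R := ℂ) (M := Fin n → ℂ)).ne'
  rw [← h2, hd]
  have h4 : LinearMap.trace ℂ (Fin n → ℂ) (ρ a) = ρ.character a := rfl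
  rw [h4, smul_eq_mul]
  simp only [centralValue]
  field_simp

/-- The `B`-average of the irreducible character `χ`. -/
noncomputable def MB (χ : G → ℂ) : ℂ := ∑ x, ee B x * χ x⁻¹

/-- The inner product of `e χ` with `ψ`. -/
theorem ip_ec {χ ψ : G → ℂ} (hχ : IsIrrCharacter G χ) (hψ : IsIrrCharacter G ψ) :
    χ 1 * ip (cv (ee B) χ) ψ = ip χ ψ * MB B χ := by
  have hc := IsIrrCharacter.isCharacter hψ
  have hcl : IsClassFunction G (fun y => conj (ψ y)) := by
    intro g h
    simp only [isClassFunction_of_isCharacter hc g h]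
  have h1 : ∀ a, χ 1 * ∑ z, χ (a * z) * conj (ψ z) = ip χ ψ * χ a := by
    intro a
    have := sum_shift hχ hcl a
    simp only [ip]
    rw [Finset.sum_congr rfl fun y _ => mul_comm (χ (a * y)) (conj (ψ y)), this]
    congr 1
    exact Finset.sum_congr rfl fun y _ => mul_comm _ _
  simp only [ip, cv_apply, Finset.sum_mul, MB, Finset.mul_sum]
  rw [Finset.sum_comm]
  refine Finset.sum_congr rfl fun x _ => ?_
  have h2 := h1 x⁻¹
  simp only [ip] at h2
  calc _ = ee B x * (χ 1 * ∑ z, χ (x⁻¹ * z) * conj (ψ z)) := by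
        rw [Finset.mul_sum, Finset.mul_sum]
        refine Finset.sum_congr rfl fun z _ => ?_
        ring
    _ = _ := by
        rw [h2, Finset.sum_mul]
        rw [Finset.mul_sum]
        refine Finset.sum_congr rfl fun z _ => ?_
        ring

theorem ip_add_left (a b c : G → ℂ) : ip (a + b) c = ip a c + ip b c := by
  simp only [ip, Pi.add_apply, add_mul, Finset.sum_add_distrib]

theorem ip_smul_left (r : ℂ) (a c : G → ℂ) : ip (r • a) c = r * ip a c := by
  simp only [ip, Pi.smul_apply, smul_eq_mul, Finset.mul_sum, mul_assoc]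

theorem ip_sum_left {ι : Type*} (s : Finset ι) (f : ι → G → ℂ) (c : G → ℂ) :
    ip (∑ i ∈ s, f i) c = ∑ i ∈ s, ip (f i) c := by
  simp only [ip, Finset.sum_apply, Finset.sum_mul]
  rw [Finset.sum_comm]

theorem ip_eq_classInner (a b : G → ℂ) : ip a b = (Nat.card G : ℂ) * classInner a b := by
  have h : (Nat.card G : ℂ) ≠ 0 := natCard_ne_zero'
  simp only [classInner, ip]
  field_simp

theorem ip_irr_self {χ : G → ℂ} (hχ : IsIrrCharacter G χ) : ip χ χ = (Nat.card G : ℂ) := by
  rw [ip_eq_classInner, classInner_irr_self hχ, mul_one]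

theorem ip_irr_ne {χ ψ : G → ℂ} (hχ : IsIrrCharacter G χ) (hψ : IsIrrCharacter G ψ) (hne : χ ≠ ψ) :
    ip χ ψ = 0 := by
  rw [ip_eq_classInner, classInner_irr_ne hχ hψ hne, mul_zero]

theorem chi_one_ne {χ : G → ℂ} (hχ : IsIrrCharacter G χ) : χ 1 ≠ 0 := by
  obtain ⟨n, ρ, hρ, rfl⟩ := hχ
  rw [char_one_eq_rep]
  have hV := ((isIrreducible_iff ρ).mp hρ).1
  have hn : n ≠ 0 := by
    rintro rfl
    exact not_subsingleton _ (inferInstance : Subsingleton (Fin 0 → ℂ))
  exact_mod_cast hn

/-- `e χ = 0` when `χ` has no `B`-fixed vector. -/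
theorem ec_eq_zero {χ : G → ℂ} (hχ : IsIrrCharacter G χ) (h0 : MB B χ = 0) : cv (ee B) χ = 0 := by
  have h1 : ip (cv (ee B) χ) χ = 0 := by
    have := ip_ec B hχ hχ
    rw [h0, mul_zero] at this
    exact (mul_eq_zero.1 this).resolve_left (chi_one_ne hχ)
  have h2 : ip (cv (ee B) χ) (cv (ee B) χ) = 0 := by
    rw [ip_cv_left, adj_ee, ← cv_assoc, ee_ee, ← ip_conj, h1, map_zero]
  rw [ip_self_re] at h2
  exact eq_zero_of_ip_self (by exact_mod_cast h2)

/-- The conjugates of a function have the same inner product with a class function. -/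
theorem ip_cnj_class {χ : G → ℂ} (hχ : IsClassFunction G χ) (x : G) (z : G → ℂ) :
    ip (cnj x z) χ = ip z χ := by
  simp only [ip, cnj]
  rw [← Equiv.sum_comp (MulAut.conj x).toEquiv]
  refine Finset.sum_congr rfl fun g _ => ?_
  simp only [MulEquiv.toEquiv_eq_coe, MulEquiv.coe_toEquiv, MulAut.conj_apply, hχ g x]
  congr 2
  group

theorem sum_cnj_class (z : G → ℂ) : IsClassFunction G (∑ x, cnj x z) := by
  intro g h
  simp only [Finset.sum_apply, cnj]
  rw [← Equiv.sum_comp (Equiv.mulLeft h)]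
  refine Finset.sum_congr rfl fun y _ => ?_
  simp only [Equiv.coe_mulLeft]
  congr 1
  group

/-- The dimension of the centre of the Hecke algebra. -/
theorem finrank_ZH : Module.finrank ℂ (ZH B) = Nat.card {χ : IrrCharacter G // MB B χ ≠ 0} := by
  classical
  haveI : Fintype {χ : IrrCharacter G // MB B χ ≠ 0} := Fintype.ofFinite _
  have hcl : ∀ χ : IrrCharacter G, IsClassFunction G χ :=
    fun χ => isClassFunction_of_isCharacter (IsIrrCharacter.isCharacter χ.2)
  -- the two injective maps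
  let Φ : ({χ : IrrCharacter G // MB B χ ≠ 0} → ℂ) →ₗ[ℂ] ZH B :=
    { toFun := fun a => ⟨∑ χ, a χ • cv (ee B) ((χ.1 : IrrCharacter G) : G → ℂ),
        Submodule.sum_mem _ fun χ _ => Submodule.smul_mem _ _ (ec_mem B (hcl χ.1))⟩
      map_add' := by
        intro a b
        apply Subtype.ext
        simp only [Pi.add_apply, add_smul, Finset.sum_add_distrib, Submodule.coe_add]
      map_smul' := by
        intro c a
        apply Subtype.ext
        simp only [Pi.smul_apply, smul_eq_mul, mul_smul, RingHom.id_apply, Submodule.coe_smul,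
          Finset.smul_sum] }
  let Ξ : ZH B →ₗ[ℂ] ({χ : IrrCharacter G // MB B χ ≠ 0} → ℂ) :=
    { toFun := fun z χ => ip z.1 ((χ.1 : IrrCharacter G) : G → ℂ)
      map_add' := by
        intro a b
        funext χ
        exact ip_add_left _ _ _
      map_smul' := by
        intro c a
        funext χ
        exact ip_smul_left _ _ _ }
  have hΦ : Function.Injective Φ := by
    rw [← LinearMap.ker_eq_bot, LinearMap.ker_eq_bot']
    intro a ha
    funext ψ
    have h1 : (∑ χ, a χ • cv (ee B) ((χ.1 : IrrCharacter G) : G → ℂ)) = 0 :=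
      congrArg Subtype.val ha
    have h2 := ip_sum_left Finset.univ (fun χ : {χ : IrrCharacter G // MB B χ ≠ 0} =>
      a χ • cv (ee B) ((χ.1 : IrrCharacter G) : G → ℂ)) ((ψ.1 : IrrCharacter G) : G → ℂ)
    rw [h1, Finset.sum_eq_single ψ] at h2
    · have h3 : ip (0 : G → ℂ) ((ψ.1 : IrrCharacter G) : G → ℂ) = 0 := by simp [ip]
      rw [h3, ip_smul_left] at h2
      have h4 := ip_ec B ψ.1.2 ψ.1.2
      rw [ip_irr_self ψ.1.2] at h4
      have h5 : (Nat.card G : ℂ) * MB B ((ψ.1 : IrrCharacter G) : G → ℂ) ≠ 0 :=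
        mul_ne_zero natCard_ne_zero' ψ.2
      rw [← h4] at h5
      have h6 := right_ne_zero_of_mul h5
      exact (mul_eq_zero.1 h2.symm).resolve_right h6
    · intro χ _ hχ
      rw [ip_smul_left]
      have h4 := ip_ec B χ.1.2 ψ.1.2
      have hne : ((χ.1 : IrrCharacter G) : G → ℂ) ≠ ((ψ.1 : IrrCharacter G) : G → ℂ) := by
        intro e
        exact hχ (Subtype.ext (Subtype.ext e))
      rw [ip_irr_ne χ.1.2 ψ.1.2 hne, zero_mul] at h4
      rw [(mul_eq_zero.1 h4).resolve_left (chi_one_ne χ.1.2), mul_zero]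
    · intro h
      exact absurd (Finset.mem_univ _) h
  have hΞ : Function.Injective Ξ := by
    rw [← LinearMap.ker_eq_bot, LinearMap.ker_eq_bot']
    rintro ⟨z, hz⟩ hz0
    apply Subtype.ext
    show z = 0
    have h1 : ∀ χ : IrrCharacter G, ip z (χ : G → ℂ) = 0 := by
      intro χ
      by_cases hχ : MB B (χ : G → ℂ) = 0
      · have h2 : cv (ee B) z = z := ee_cv B hz.1.1
        rw [← h2, ip_cv_left, adj_ee, ec_eq_zero B χ.2 hχ]
        simp [ip]
      · exact congrFun hz0 ⟨χ, hχ⟩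
    apply eq_zero_of_sum_cnj B hz
    rw [classFunction_eq_sum (sum_cnj_class z)]
    apply Finset.sum_eq_zero
    intro χ _
    have h2 : classInner (∑ x, cnj x z) (χ : G → ℂ) = 0 := by
      have h3 : ip (∑ x, cnj x z) (χ : G → ℂ) = 0 := by
        rw [ip_sum_left]
        apply Finset.sum_eq_zero
        intro x _
        rw [ip_cnj_class (hcl χ), h1]
      rw [ip_eq_classInner] at h3
      exact (mul_eq_zero.1 h3).resolve_left natCard_ne_zero'
    rw [h2, zero_smul]
  have h1 := LinearMap.finrank_le_finrank_of_injective hΦ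
  have h2 := LinearMap.finrank_le_finrank_of_injective hΞ
  rw [Module.finrank_fintype_fun_eq_card] at h1 h2
  rw [Nat.card_eq_fintype_card]
  omega

end Cfsg.Agent.Lib.HeckeZ50
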