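import Cfsg.Agent.Lib.HeckeRank50
import Cfsg.Agent.Lib.HeckeZ50
import Cfsg.Agent.Lib.HeckeLam50

/-!
# The Hecke algebra of a (B,N)-pair and the constituents of the permutation character on `G / B`

When all the cells `B w B` have `q ^ l(w)` chambers, the bi-`B`-invariant functions with the convolution
are the generic Hecke algebra at `t = q` in the coordinates of `HeckeT50`.  Tits' deformation theorem then
counts the constituents of the permutation character by the conjugacy classes of the Weyl group.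
-/

set_option autoImplicit false
set_option linter.unusedSectionVars false
set_option linter.unusedVariables false

namespace Cfsg.Agent.Lib.StBN50

open Cfsg Cfsg.Agent.Lib.BNPair Cfsg.Agent.Lib.CoxLen50 Cfsg.Agent.Lib.HeckeT50 Cfsg.Agent.Lib.HeckeZ50

variable {G : Type*} [Group G] [Fintype G] {P : Cfsg.BNPair G}

/-- All the cells have the expected number of chambers. -/
def HasCells (P : Cfsg.BNPair G) (q : ℕ) : Prop :=
  ∀ w : WW P, Nat.card {c : G ⧸ P.B // delC P c = w} = q ^ lW P w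

theorem del_S {s₀ : G} (hs : s₀ ∈ P.S) : del P s₀ = pi P s₀ := del_of_mem (S_mem_N hs)

theorem pi_S_inv {s₀ : G} (hs : s₀ ∈ P.S) : (pi P s₀)⁻¹ = pi P s₀ :=
  inv_eq_of_mul_eq_one_left (pi_S_sq hs)

theorem card_filter_del (q : ℕ) (hq : HasCells P q) {s₀ : G} (hs : s₀ ∈ P.S) [DecidableEq (WW P)] :
    ((Finset.univ.filter (fun u : G => del P u = pi P s₀)).card : ℂ) = (q : ℂ) * (Nat.card P.B : ℂ) := by
  have h1 := card_del_eq (P := P) (pi P s₀)
  rw [hq, len_s coxLen (pi_mem_SW hs), pow_one] at h1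
  rw [Nat.card_eq_fintype_card, Fintype.card_subtype] at h1
  rw [h1]
  push_cast
  rfl

/-- The position of `x u` for `u` in the cell of `s`. -/
theorem del_mul_S {x u s₀ : G} (hs : s₀ ∈ P.S) (hu : del P u = pi P s₀) :
    del P (x * u) = del P x * pi P s₀ ∨ del P (x * u) = del P x := by
  obtain ⟨b, hb, b', hb', rfl⟩ := mem_dc.1 (mem_dc_of_del (S_mem_N hs) hu)
  have e : x * (b * s₀ * b') = x * b * s₀ * b' := by group
  rw [e, del_mul_B hb']
  exact del_step x hs hb

theorem del_mul_S_up {x u s₀ : G} (hs : s₀ ∈ P.S) (hu : del P u = pi P s₀)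
    (h : lW P (del P x) < lW P (del P x * pi P s₀)) : del P (x * u) = del P x * pi P s₀ := by
  obtain ⟨b, hb, b', hb', rfl⟩ := mem_dc.1 (mem_dc_of_del (S_mem_N hs) hu)
  have e : x * (b * s₀ * b') = x * b * s₀ * b' := by group
  rw [e, del_mul_B hb']
  exact del_step_up x hs hb h

/-- The number of `u` in the cell of `s` bringing `x` closer, in the descent case. -/
theorem card_down [DecidableEq (WW P)] {x s₀ : G} (hs : s₀ ∈ P.S)
    (h : lW P (del P x * pi P s₀) < lW P (del P x)) :
    ((Finset.univ.filter (fun u : G => del P u = pi P s₀ ∧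
      del P (x * u) = del P x * pi P s₀)).card : ℕ) = Nat.card P.B := by
  classical
  haveI : Fintype ↥P.B := Fintype.ofFinite _
  have hsN := S_mem_N hs
  set w := del P x with hw
  obtain ⟨n', hn', hn'w⟩ := exists_pi (w * pi P s₀)
  have hx : x ∈ dc P (n' * s₀) := by
    apply mem_dc_of_del (P.N.mul_mem hn' hsN)
    rw [pi_mul hn' hsN, hn'w, mul_assoc, pi_S_sq hs, mul_one]
  obtain ⟨c₁, hc₁, c₂, hc₂, ex⟩ := mem_dc.1 hx
  set u₀ := c₂⁻¹ * s₀⁻¹ with hu₀
  have hu₀d : del P u₀ = pi P s₀ := by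
    rw [hu₀, B_mul_del (P.B.inv_mem hc₂), del_inv, del_S hs, pi_S_inv hs]
  have hxu₀ : del P (x * u₀) = w * pi P s₀ := by
    have e : x * u₀ = c₁ * n' := by
      rw [ex, hu₀]
      group
    rw [e, B_mul_del hc₁, del_of_mem hn', hn'w]
  have hw's : lW P (w * pi P s₀) < lW P (w * pi P s₀ * pi P s₀) := by
    rw [mul_assoc, pi_S_sq hs, mul_one]
    exact h
  rw [Nat.card_eq_fintype_card, ← Finset.card_univ]
  symm
  apply Finset.card_bij (fun (b : ↥P.B) _ => u₀ * (b : G))
  · intro b _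
    refine Finset.mem_filter.2 ⟨Finset.mem_univ _, ?_, ?_⟩
    · rw [del_mul_B b.2, hu₀d]
    · rw [← mul_assoc, del_mul_B b.2, hxu₀]
  · intro a _ b _ hab
    exact Subtype.ext (mul_left_cancel hab)
  · intro u hu
    obtain ⟨-, hu1, hu2⟩ := Finset.mem_filter.1 hu
    have hv : u₀⁻¹ * u ∈ P.B := by
      rcases del_mul_S (x := u₀⁻¹) hs hu1 with h1 | h1
      · rw [del_inv, hu₀d, pi_S_inv hs, pi_S_sq hs] at h1
        exact del_eq_one_iff.1 h1
      · exfalso
        rw [del_inv, hu₀d, pi_S_inv hs] at h1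
        have h2 := del_mul_S_up (x := x * u₀) (u := u₀⁻¹ * u) hs h1 (by rw [hxu₀]; exact hw's)
        have e : x * u₀ * (u₀⁻¹ * u) = x * u := by group
        rw [e, hu2, hxu₀] at h2
        have h3 : w * pi P s₀ * pi P s₀ = w := by rw [mul_assoc, pi_S_sq hs, mul_one]
        rw [h3] at h2
        rw [h2] at h
        exact lt_irrefl _ h
    exact ⟨⟨_, hv⟩, Finset.mem_univ _, by simp⟩

/-- The fundamental sum over the cell of `s`. -/
theorem sum_cell (q : ℕ) (hq : HasCells P q) [DecidableEq (WW P)] {s₀ : G} (hs : s₀ ∈ P.S)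
    (a : WW P → ℂ) (x : G) :
    ∑ u : G, (if del P u = pi P s₀ then a (del P (x * u)) else 0) =
      (Nat.card P.B : ℂ) * rhoT (lW P) (q : ℂ) (pi P s₀) a (del P x) := by
  classical
  rw [← Finset.sum_filter, rhoT_apply]
  have hcard := card_filter_del q hq hs
  by_cases h : lW P (del P x * pi P s₀) < lW P (del P x)
  · rw [if_pos h]
    have hd := card_down hs h
    rw [← Finset.sum_filter_add_sum_filter_not _ (fun u => del P (x * u) = del P x * pi P s₀)]
    have e1 : ∀ u ∈ (Finset.univ.filter (fun u : G => del P u = pi P s₀)).filter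
        (fun u => del P (x * u) = del P x * pi P s₀), a (del P (x * u)) = a (del P x * pi P s₀) := by
      intro u hu
      rw [(Finset.mem_filter.1 hu).2]
    have e2 : ∀ u ∈ (Finset.univ.filter (fun u : G => del P u = pi P s₀)).filter
        (fun u => ¬ del P (x * u) = del P x * pi P s₀), a (del P (x * u)) = a (del P x) := by
      intro u hu
      obtain ⟨hu1, hu2⟩ := Finset.mem_filter.1 hu
      rcases del_mul_S (x := x) hs (Finset.mem_filter.1 hu1).2 with h1 | h1
      · exact absurd h1 hu2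
      · rw [h1]
    rw [Finset.sum_congr rfl e1, Finset.sum_congr rfl e2, Finset.sum_const, Finset.sum_const,
      nsmul_eq_mul, nsmul_eq_mul]
    have h3 := Finset.card_filter_add_card_filter_not
      (s := Finset.univ.filter (fun u : G => del P u = pi P s₀))
      (fun u => del P (x * u) = del P x * pi P s₀)
    have h4 : ((Finset.univ.filter (fun u : G => del P u = pi P s₀)).filter
        (fun u => del P (x * u) = del P x * pi P s₀)).card = Nat.card P.B := by
      rw [Finset.filter_filter]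
      exact hd
    have h5 : (((Finset.univ.filter (fun u : G => del P u = pi P s₀)).filter
        (fun u => del P (x * u) = del P x * pi P s₀)).card : ℂ) +
        (((Finset.univ.filter (fun u : G => del P u = pi P s₀)).filter
        (fun u => ¬ del P (x * u) = del P x * pi P s₀)).card : ℂ) = (q : ℂ) * (Nat.card P.B : ℂ) := by
      rw [← hcard, ← h3]
      push_cast
      rfl
    rw [h4] at h5 ⊢
    have h6 : (((Finset.univ.filter (fun u : G => del P u = pi P s₀)).filter
        (fun u => ¬ del P (x * u) = del P x * pi P s₀)).card : ℂ) = ((q : ℂ) - 1) * (Nat.card P.B : ℂ) := by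
      linear_combination h5
    rw [h6]
    ring
  · rw [if_neg h]
    have hup : lW P (del P x) < lW P (del P x * pi P s₀) := by
      have := (coxLen (P := P)).step (del P x) (pi P s₀) (pi_mem_SW hs)
      omega
    have e1 : ∀ u ∈ Finset.univ.filter (fun u : G => del P u = pi P s₀),
        a (del P (x * u)) = a (del P x * pi P s₀) := by
      intro u hu
      rw [del_mul_S_up hs (Finset.mem_filter.1 hu).2 hup]
    rw [Finset.sum_congr rfl e1, Finset.sum_const, nsmul_eq_mul, hcard]
    ring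

/-- Functions factoring through `δ`. -/
noncomputable def Th (P : Cfsg.BNPair G) (a : WW P → ℂ) : G → ℂ := fun g => a (del P g)

theorem Th_apply (a : WW P → ℂ) (g : G) : Th P a g = a (del P g) := rfl

theorem del_surj (w : WW P) : ∃ g : G, del P g = w := by
  obtain ⟨n, hn, rfl⟩ := exists_pi w
  exact ⟨n, del_of_mem hn⟩

theorem Th_inj {a b : WW P → ℂ} (h : Th P a = Th P b) : a = b := by
  funext w
  obtain ⟨g, rfl⟩ := del_surj (P := P) w
  exact congrFun h g

theorem biInv_Th (a : WW P → ℂ) : BiInv P.B (Th P a) :=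
  ⟨fun b hb g => by rw [Th_apply, Th_apply, B_mul_del hb], fun b hb g => by
    rw [Th_apply, Th_apply, del_mul_B hb]⟩

theorem exists_Th {f : G → ℂ} (hf : BiInv P.B f) : ∃ a : WW P → ℂ, f = Th P a := by
  choose n hn hnw using fun w : WW P => exists_pi (P := P) w
  refine ⟨fun w => f (n w), ?_⟩
  funext g
  rw [Th_apply]
  obtain ⟨b, hb, b', hb', e⟩ := mem_dc.1 (mem_dc_of_del (hn (del P g)) (hnw (del P g)).symm)
  conv_lhs => rw [e]
  rw [hf.2 b' hb', hf.1 b hb]

variable [DecidableEq (WW P)]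

/-- The indicator function of a cell. -/
noncomputable def ffc (P : Cfsg.BNPair G) [DecidableEq (WW P)] (w : WW P) : G → ℂ := Th P (dl w)

theorem ffc_apply (w : WW P) (g : G) : ffc P w g = if del P g = w then 1 else 0 := rfl

theorem biInv_ffc (w : WW P) : BiInv P.B (ffc P w) := biInv_Th _

/-- Right convolution with a cell. -/
theorem cv_Th_ffc (q : ℕ) (hq : HasCells P q) {s₀ : G} (hs : s₀ ∈ P.S) (a : WW P → ℂ) :
    cv (Th P a) (ffc P (pi P s₀)) =
      (Nat.card P.B : ℂ) • Th P (rhoT (lW P) (q : ℂ) (pi P s₀) a) := by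
  funext x
  rw [cv_apply', ← Equiv.sum_comp (Equiv.inv G)]
  simp only [Pi.smul_apply, smul_eq_mul, Th_apply]
  rw [← sum_cell q hq hs a x]
  refine Finset.sum_congr rfl fun u _ => ?_
  simp only [Equiv.inv_apply, inv_inv, ffc_apply, del_inv, inv_eq_iff_eq_inv, pi_S_inv hs]
  split_ifs <;> simp

theorem rho_inv_apply {W : Type*} [Group W] {S : Set W} {l : W → ℕ} (h : CoxLen S l) {s : W} (hs : s ∈ S)
    (t : ℂ) (a : W → ℂ) (w : W) :
    rhoT l t s (fun v => a v⁻¹) w⁻¹ = lamT l t s a w := by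
  rw [rhoT_apply, lamT_apply]
  have e1 : (w⁻¹ * s)⁻¹ = s * w := by
    rw [_root_.mul_inv_rev, inv_inv, h.s_inv hs]
  have e2 : l (w⁻¹ * s) = l (s * w) := by
    rw [← h.inv (w⁻¹ * s), e1]
  simp only [e1, e2, h.inv w, inv_inv]

/-- Left convolution with a cell. -/
theorem cv_ffc_Th (q : ℕ) (hq : HasCells P q) {s₀ : G} (hs : s₀ ∈ P.S) (a : WW P → ℂ) :
    cv (ffc P (pi P s₀)) (Th P a) =
      (Nat.card P.B : ℂ) • Th P (lamT (lW P) (q : ℂ) (pi P s₀) a) := by
  funext x
  simp only [Pi.smul_apply, smul_eq_mul, Th_apply]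
  rw [← rho_inv_apply coxLen (pi_mem_SW hs) (q : ℂ) a, ← del_inv, ← sum_cell q hq hs _ x⁻¹, cv_apply]
  refine Finset.sum_congr rfl fun u _ => ?_
  simp only [ffc_apply, Th_apply]
  have e : del P (u⁻¹ * x) = (del P (x⁻¹ * u))⁻¹ := by
    rw [← del_inv]
    congr 1
    group
  rw [e]
  split_ifs <;> simp

theorem ffc_one : ffc P (1 : WW P) = (Nat.card P.B : ℂ) • ee P.B := by
  funext g
  simp only [ffc_apply, Pi.smul_apply, smul_eq_mul]
  by_cases hg : g ∈ P.B
  · rw [if_pos (del_eq_one_iff.2 hg), ee_of_mem _ hg, mul_inv_cancel₀ (card_B_ne P.B)]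
  · rw [if_neg (fun h => hg (del_eq_one_iff.1 h)), ee_eq_zero _ hg, mul_zero]

/-- Products of cells along reduced words. -/
theorem cv_ffc_up (q : ℕ) (hq : HasCells P q) {s₀ : G} (hs : s₀ ∈ P.S) {w : WW P}
    (hw : lW P w < lW P (w * pi P s₀)) :
    cv (ffc P w) (ffc P (pi P s₀)) = (Nat.card P.B : ℂ) • ffc P (w * pi P s₀) := by
  have := cv_Th_ffc q hq hs (dl w)
  rw [rho_dl_up coxLen (pi_mem_SW hs) (q : ℂ) hw] at this
  exact this

/-- A function commuting with all the generators commutes with all the cells. -/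
theorem comm_ffc (q : ℕ) (hq : HasCells P q) {z : G → ℂ} (hl : LInv P.B z) (hr : RInv P.B z)
    (hz : ∀ s₀ ∈ P.S, cv z (ffc P (pi P s₀)) = cv (ffc P (pi P s₀)) z) (w : WW P) :
    cv z (ffc P w) = cv (ffc P w) z := by
  have hS := coxLen (P := P)
  induction hk : lW P w using Nat.strong_induction_on generalizing w with
  | _ k ih =>
    by_cases hw : w = 1
    · subst hw
      rw [ffc_one, cv_smul_right, cv_smul_left, cv_ee _ hr, ee_cv _ hl]
    · have hm : w ∈ Subgroup.closure (SW P) := by rw [hS.gen]; trivial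
      obtain ⟨_, ⟨s₀, hs, rfl⟩, hd⟩ := hS.desc _ subset_rfl _ hm hw
      set w' := w * pi P s₀ with hw'
      have e : w' * pi P s₀ = w := by rw [hw', mul_assoc, pi_S_sq hs, mul_one]
      have hup : lW P w' < lW P (w' * pi P s₀) := by rw [e]; omega
      have h1 := cv_ffc_up q hq hs hup
      rw [e] at h1
      have hc : (Nat.card P.B : ℂ) ≠ 0 := card_B_ne P.B
      have h2 : ffc P w = (Nat.card P.B : ℂ)⁻¹ • cv (ffc P w') (ffc P (pi P s₀)) := by
        rw [h1, smul_smul, inv_mul_cancel₀ hc, one_smul]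
      have h3 := ih (lW P w') (by omega) w' rfl
      rw [h2, cv_smul_right, cv_smul_left]
      congr 1
      rw [← cv_assoc, h3, cv_assoc, hz s₀ hs, cv_assoc]

theorem cv_sum_right {ι : Type*} (s : Finset ι) (f : G → ℂ) (h : ι → G → ℂ) :
    cv f (∑ i ∈ s, h i) = ∑ i ∈ s, cv f (h i) := by
  funext z
  simp only [cv_apply, Finset.sum_apply, Finset.mul_sum]
  rw [Finset.sum_comm]

theorem cv_sum_left {ι : Type*} (s : Finset ι) (f : G → ℂ) (h : ι → G → ℂ) :
    cv (∑ i ∈ s, h i) f = ∑ i ∈ s, cv (h i) f := by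
  funext z
  simp only [cv_apply, Finset.sum_apply, Finset.sum_mul]
  rw [Finset.sum_comm]

theorem Th_eq_sum [Fintype (WW P)] (a : WW P → ℂ) : Th P a = ∑ w, a w • ffc P w := by
  funext g
  simp only [Th_apply, Finset.sum_apply, Pi.smul_apply, smul_eq_mul, ffc_apply]
  rw [Finset.sum_eq_single (del P g)]
  · simp
  · intro b _ hb
    rw [if_neg (Ne.symm hb), mul_zero]
  · simp

/-- The centre of the Hecke algebra in coordinates. -/
theorem Th_mem_ZH_iff (q : ℕ) (hq : HasCells P q) [Fintype (WW P)] (a : WW P → ℂ) :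
    Th P a ∈ ZH P.B ↔ a ∈ KK (SW P) (lW P) (q : ℂ) := by
  have hc : (Nat.card P.B : ℂ) ≠ 0 := card_B_ne P.B
  constructor
  · rintro ⟨-, h3⟩
    rintro _ ⟨s₀, hs, rfl⟩
    have h4 := h3 _ (biInv_ffc (P := P) (pi P s₀))
    rw [cv_Th_ffc q hq hs, cv_ffc_Th q hq hs] at h4
    have h5 := smul_right_injective _ hc h4
    exact (Th_inj h5).symm
  · intro ha
    refine ⟨biInv_Th a, ?_⟩
    have h1 : ∀ s₀ ∈ P.S, cv (Th P a) (ffc P (pi P s₀)) = cv (ffc P (pi P s₀)) (Th P a) := by
      intro s₀ hs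
      rw [cv_Th_ffc q hq hs, cv_ffc_Th q hq hs, ha _ (pi_mem_SW hs)]
    intro f hf
    obtain ⟨b, rfl⟩ := exists_Th hf
    rw [Th_eq_sum b, cv_sum_right, cv_sum_left]
    refine Finset.sum_congr rfl fun w _ => ?_
    rw [cv_smul_right, cv_smul_left, comm_ffc q hq (biInv_Th a).1 (biInv_Th a).2 h1 w]

/-- The dimensions agree. -/
theorem finrank_ZH_eq_KK (q : ℕ) (hq : HasCells P q) [Fintype (WW P)] :
    Module.finrank ℂ (ZH P.B) = Module.finrank ℂ (KK (SW P) (lW P) (q : ℂ)) := by
  let L : KK (SW P) (lW P) (q : ℂ) →ₗ[ℂ] ZH P.B :=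
    { toFun := fun a => ⟨Th P a.1, (Th_mem_ZH_iff q hq a.1).2 a.2⟩
      map_add' := fun _ _ => rfl
      map_smul' := fun _ _ => rfl }
  have hbij : Function.Bijective L := by
    constructor
    · intro a b hab
      exact Subtype.ext (Th_inj (congrArg Subtype.val hab))
    · rintro ⟨z, hz⟩
      obtain ⟨a, rfl⟩ := exists_Th hz.1
      exact ⟨⟨a, (Th_mem_ZH_iff q hq a).1 hz⟩, rfl⟩
  exact (LinearEquiv.ofBijective L hbij).finrank_eq.symm

end Cfsg.Agent.Lib.StBN50
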