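import Cfsg.Agent.Lib.HeckeCount50
import Cfsg.Agent.Lib.DZChev50

/-!
# The constituents of the permutation character on the cosets of the Borel subgroup of a Chevalley group
-/

set_option autoImplicit false
set_option linter.unusedSectionVars false
set_option linter.unusedVariables false

namespace Cfsg.Agent.Lib.StChev50

open Cfsg Cfsg.Lie Cfsg.Agent.Lib.Chev Cfsg.Agent.Lib.StBN50

variable {T : Tabs} {X : Extra} {R : RootTab} {D : ChevalleyDatum} (hF : Full T X R D)

/-- Isomorphic groups have the same number of conjugacy classes. -/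
theorem card_conjClasses_congr {A B : Type*} [Group A] [Group B] (e : A ≃* B) :
    Nat.card (ConjClasses A) = Nat.card (ConjClasses B) := by
  apply Nat.card_congr
  refine ⟨ConjClasses.map e.toMonoidHom, ConjClasses.map e.symm.toMonoidHom, ?_, ?_⟩
  · intro c
    obtain ⟨a, rfl⟩ := ConjClasses.mk_surjective c
    show ConjClasses.mk (e.symm (e a)) = ConjClasses.mk a
    rw [e.symm_apply_apply]
  · intro c
    obtain ⟨a, rfl⟩ := ConjClasses.mk_surjective c
    show ConjClasses.mk (e (e.symm a)) = ConjClasses.mk a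
    rw [e.apply_symm_apply]

include hF in
/-- The count, for a Chevalley group with a model of its Weyl group. -/
theorem count_chev {F : Type*} [Field F] [Fintype F] {W : Type*} [Group W]
    (φ : ↥(D.monomialSubgroup F) →* W) (hφ : Function.Surjective φ)
    (hk : φ.ker = (D.diagonalSubgroup F).subgroupOf (D.monomialSubgroup F)) :
    Nat.card {χ : Cfsg.IrrCharacter ↥(D.group F) //
      ∃ φ : ↥(D.group F) → ℂ, Cfsg.IsCharacter ↥(D.group F) φ ∧
        Cfsg.fixedPointCharacter ((D.borelSubgroup F).subgroupOf (D.group F)) =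
          (χ : ↥(D.group F) → ℂ) + φ} =
      Nat.card (ConjClasses W) := by
  classical
  haveI : Finite ↥(D.group F) := Finite.of_injective (fun g => (g.1 : GL D.Idx F)) (fun a b h => Subtype.ext h)
  haveI : Fintype ↥(D.group F) := Fintype.ofFinite _
  have hq0 : 0 < Fintype.card F := Fintype.card_pos
  have hcells : HasCells (hF.bnPair F) (Fintype.card F) := fun w => card_chambers hF w
  have h1 := card_constituents hq0 hcells
  refine h1.trans ?_
  let ψ : ↥(hF.bnPair F).N →* W := φ.comp (psiN hF F)
  have hsurj : Function.Surjective ψ := by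
    intro w
    obtain ⟨x, hx⟩ := hφ w
    have hxg : (x : GL D.Idx F) ∈ D.group F := hF.c.monomial_le_group x.2
    refine ⟨⟨⟨x.1, hxg⟩, Subgroup.mem_subgroupOf.2 x.2⟩, ?_⟩
    exact hx
  have hker : (((hF.bnPair F).B ⊓ (hF.bnPair F).N).subgroupOf (hF.bnPair F).N) = ψ.ker := by
    ext n
    rw [MonoidHom.mem_ker, Subgroup.mem_subgroupOf]
    have h2 : ψ n = 1 ↔ psiN hF F n ∈ φ.ker := Iff.rfl
    rw [h2, hk, Subgroup.mem_subgroupOf]
    have h3 : ((psiN hF F n : ↥(D.monomialSubgroup F)) : GL D.Idx F) = (n : ↥(D.group F)).1 := rfl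
    rw [h3, ← hF.B_inf_N (F := F)]
    constructor
    · rintro ⟨a, b⟩
      exact ⟨Subgroup.mem_subgroupOf.1 a, Subgroup.mem_subgroupOf.1 b⟩
    · rintro ⟨a, b⟩
      exact ⟨Subgroup.mem_subgroupOf.2 a, Subgroup.mem_subgroupOf.2 b⟩
  exact card_conjClasses_congr
    ((QuotientGroup.quotientMulEquivOfEq hker).trans (QuotientGroup.quotientKerEquivOfSurjective ψ hsurj))

end Cfsg.Agent.Lib.StChev50
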