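import Cfsg.Agent.Lib.HeckeBN50
import Cfsg.Agent.Lib.PermInd
import Cfsg.Prelude.Def_ParabolicCharacters

/-!
# The number of constituents of the permutation character on `G / B`
-/

set_option autoImplicit false
set_option linter.unusedSectionVars false
set_option linter.unusedVariables false

namespace Cfsg.Agent.Lib.HeckeZ50

open Cfsg Cfsg.Agent.Lib.CharBasic Cfsg.Agent.Lib.CharInd Cfsg.Agent.Lib.PermInd
open scoped ComplexConjugate

variable {G : Type*} [Group G] [Fintype G] (B : Subgroup G)

theorem fixed_eq_ind : fixedPointCharacter B = indFun B (fun _ => 1) := by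
  classical
  haveI : Fintype (G ⧸ B) := Fintype.ofFinite _
  funext g
  rw [indFun_one_eq_card_fixed]
  unfold fixedPointCharacter
  congr 1
  rw [← Fintype.card_subtype, Nat.card_eq_fintype_card]
  apply Fintype.card_congr
  exact Equiv.subtypeEquivRight (fun y => by rw [MulAction.mem_fixedBy])

theorem sum_ee_mul [Fintype B] (F : G → ℂ) :
    ∑ x, ee B x * F x = (Nat.card B : ℂ)⁻¹ * ∑ b : B, F b := by
  classical
  have h1 : ∑ b : B, F b = ∑ x ∈ Finset.univ.filter (fun x : G => x ∈ B), F x := by
    symm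
    apply Finset.sum_subtype
    intro x
    simp
  rw [h1, Finset.mul_sum, Finset.sum_filter]
  refine Finset.sum_congr rfl fun x _ => ?_
  by_cases hx : x ∈ B
  · rw [if_pos hx, ee_of_mem B hx]
  · rw [if_neg hx, ee_eq_zero B hx, zero_mul]

theorem classInner_fixed [DecidableEq G] {χ : G → ℂ} (hχ : IsCharacter G χ) :
    classInner (fixedPointCharacter B) χ = MB B χ := by
  classical
  haveI : Fintype B := Fintype.ofFinite _
  rw [fixed_eq_ind, frobenius B _ (isClassFunction_of_isCharacter hχ), MB, sum_ee_mul]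
  unfold classInner
  congr 1
  refine Finset.sum_congr rfl fun b _ => ?_
  rw [one_mul, char_conj_eq_inv hχ]

theorem isCharacter_fixed : IsCharacter G (fixedPointCharacter B) := by
  rw [fixed_eq_ind]
  exact indFun_isCharacter B isCharacter_one

/-- The constituents of the permutation character. -/
theorem mem_constituent_iff [DecidableEq G] (χ : IrrCharacter G) :
    (∃ φ : G → ℂ, IsCharacter G φ ∧ fixedPointCharacter B = (χ : G → ℂ) + φ) ↔ MB B (χ : G → ℂ) ≠ 0 := by
  classical
  have hχc := IsIrrCharacter.isCharacter χ.2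
  rw [← classInner_fixed B hχc]
  constructor
  · rintro ⟨φ, hφ, e⟩
    rw [e, classInner_add_left, classInner_irr_self χ.2]
    obtain ⟨n, hn⟩ := classInner_char_irr hφ χ.2
    rw [hn]
    have h3 : ((1 + n : ℕ) : ℂ) ≠ 0 := Nat.cast_ne_zero.2 (by omega)
    push_cast at h3
    exact h3
  · intro h
    obtain ⟨m, hm⟩ := exists_nat_decomp (isCharacter_fixed B)
    have h1 : classInner (fixedPointCharacter B) (χ : G → ℂ) = m χ := by
      rw [hm]
      exact classInner_nat_decomp m _ χ.2
    have h2 : m χ ≠ 0 := by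
      intro h0
      rw [h1, h0] at h
      exact h (by simp)
    refine ⟨∑ i, (Function.update m χ (m χ - 1)) i • (i : G → ℂ), isCharacter_of_nat_decomp _, ?_⟩
    rw [hm]
    rw [← Finset.add_sum_erase _ _ (Finset.mem_univ χ),
      ← Finset.add_sum_erase (a := χ) _ (fun i => (Function.update m χ (m χ - 1)) i • (i : G → ℂ))
        (Finset.mem_univ χ)]
    have h3 : ∑ i ∈ Finset.univ.erase χ, (Function.update m χ (m χ - 1)) i • (i : G → ℂ) =
        ∑ i ∈ Finset.univ.erase χ, m i • (i : G → ℂ) := by
      refine Finset.sum_congr rfl fun i hi => ?_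
      rw [Function.update_of_ne (Finset.ne_of_mem_erase hi)]
    rw [h3, Function.update_self, ← add_assoc]
    congr 1
    obtain ⟨k, hk⟩ := Nat.exists_eq_succ_of_ne_zero h2
    rw [hk, Nat.succ_sub_one, succ_nsmul, add_comm]

end Cfsg.Agent.Lib.HeckeZ50

namespace Cfsg.Agent.Lib.StBN50

open Cfsg Cfsg.Agent.Lib.HeckeT50 Cfsg.Agent.Lib.HeckeZ50

variable {G : Type*} [Group G] [Fintype G] {P : Cfsg.BNPair G}

/-- **Constituents of the permutation character on `G / B`.** -/
theorem card_constituents {q : ℕ} (hq0 : 0 < q) (hq : HasCells P q) :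
    Nat.card {χ : IrrCharacter G //
        ∃ φ : G → ℂ, IsCharacter G φ ∧ fixedPointCharacter P.B = (χ : G → ℂ) + φ} =
      Nat.card (ConjClasses (WW P)) := by
  classical
  haveI : Fintype (WW P) := Fintype.ofFinite _
  have h1 : Nat.card {χ : IrrCharacter G //
        ∃ φ : G → ℂ, IsCharacter G φ ∧ fixedPointCharacter P.B = (χ : G → ℂ) + φ} =
      Nat.card {χ : IrrCharacter G // MB P.B (χ : G → ℂ) ≠ 0} :=
    Nat.card_congr (Equiv.subtypeEquivRight fun χ => mem_constituent_iff P.B χ)
  have hpos : (0 : ℝ) < (q : ℝ) := by exact_mod_cast hq0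
  have h2 := finrank_KK (coxLen (P := P)) hpos
  rw [Complex.ofReal_natCast] at h2
  rw [h1, ← finrank_ZH, finrank_ZH_eq_KK q hq, h2]

end Cfsg.Agent.Lib.StBN50
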