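import Cfsg.Agent.Lib.HeckeT50

/-!
# The Tits deformation: the dimension of the centre of the generic Hecke algebra is constant

The operators of multiplication have polynomial matrix coefficients in `t`.  The rank of a polynomial family
of matrices is lower semicontinuous; the ranks of the Casimir operator and of the commutator map add up to the
constant dimension for all `t > 0`, hence each is constant on the positive reals.
-/

set_option autoImplicit false
set_option linter.unusedSectionVars false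
set_option linter.unusedVariables false

namespace Cfsg.Agent.Lib.HeckeT50

open Cfsg.Agent.Lib.CoxLen50 Polynomial

/-- Lower semicontinuity of the rank of a polynomial family. -/
theorem rank_semicont {ι κ : Type*} [Fintype ι] [Fintype κ] [DecidableEq ι] [DecidableEq κ]
    (M : Matrix κ ι ℂ[X]) (t₀ : ℂ) :
    ∃ D : ℂ[X], D ≠ 0 ∧ ∀ t : ℂ, D.eval t ≠ 0 → (M.map (eval t₀)).rank ≤ (M.map (eval t)).rank := by
  classical
  set A₀ := M.map (eval t₀) with hA₀
  set r := A₀.rank with hr
  let Rg := LinearMap.range A₀.mulVecLin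
  have hfr : Module.finrank ℂ Rg = r := rfl
  let b : Module.Basis (Fin r) ℂ Rg := Module.finBasisOfFinrankEq ℂ Rg hfr
  have hu : ∀ j, ∃ u : ι → ℂ, A₀.mulVec u = (b j : κ → ℂ) := by
    intro j
    obtain ⟨u, hu⟩ := (b j).2
    exact ⟨u, hu⟩
  choose u hu using hu
  obtain ⟨g, hg⟩ := LinearMap.exists_extend (b.equivFun.toLinearMap : Rg →ₗ[ℂ] (Fin r → ℂ))
  let F : Matrix (Fin r) κ ℂ := LinearMap.toMatrix' g
  let U : Matrix ι (Fin r) ℂ := Matrix.of fun i j => u j i
  have hUcol : ∀ j, U.mulVec (Pi.single j 1) = u j := by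
    intro j
    funext i
    rw [Matrix.mulVec_single_one]
    rfl
  have h1 : F * A₀ * U = 1 := by
    apply Matrix.ext
    intro i j
    have h2 : (F * A₀ * U).mulVec (Pi.single j 1) = Pi.single j 1 := by
      rw [← Matrix.mulVec_mulVec, ← Matrix.mulVec_mulVec, hUcol, hu]
      have h3 : F.mulVec (b j : κ → ℂ) = g (b j : κ → ℂ) := by
        simp only [F, LinearMap.toMatrix'_mulVec]
      rw [h3]
      have h4 := LinearMap.congr_fun hg (b j)
      simp only [LinearMap.comp_apply, Submodule.subtype_apply] at h4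
      rw [h4]
      funext k
      simp [Pi.single_apply, eq_comm]
    have h5 := congrFun h2 i
    rw [Matrix.mulVec_single_one] at h5
    simpa [Matrix.one_apply, Pi.single_apply, eq_comm] using h5
  let D : ℂ[X] := Matrix.det ((F.map C) * M * (U.map C))
  have hev : ∀ t : ℂ, D.eval t = Matrix.det (F * M.map (eval t) * U) := by
    intro t
    have e1 : D.eval t = (evalRingHom t) D := rfl
    rw [e1, RingHom.map_det]
    congr 1
    simp only [RingHom.mapMatrix_apply, Matrix.map_mul]
    have e2 : (F.map C).map (evalRingHom t) = F := by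
      ext i j
      simp
    have e3 : (U.map C).map (evalRingHom t) = U := by
      ext i j
      simp
    rw [e2, e3]
    rfl
  refine ⟨D, ?_, ?_⟩
  · intro h0
    have := hev t₀
    rw [h0, eval_zero, ← hA₀, h1, Matrix.det_one] at this
    exact zero_ne_one this
  · intro t ht
    rw [hev] at ht
    have hu' : IsUnit (F * M.map (eval t) * U) := (Matrix.isUnit_iff_isUnit_det _).2 (isUnit_iff_ne_zero.2 ht)
    have h2 := Matrix.rank_of_isUnit _ hu'
    rw [Fintype.card_fin] at h2
    have h3 := Matrix.rank_mul_le_left (F * M.map (eval t)) U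
    have h4 := Matrix.rank_mul_le_right F (M.map (eval t))
    omega

/-- A nonzero polynomial does not vanish at some positive real number. -/
theorem exists_pos_ne {D : ℂ[X]} (hD : D ≠ 0) : ∃ t : ℝ, 0 < t ∧ D.eval (t : ℂ) ≠ 0 := by
  by_contra hcon
  push Not at hcon
  apply hD
  apply Polynomial.eq_zero_of_infinite_isRoot
  have h1 : Set.Infinite (Set.range fun n : ℕ => (((n : ℝ) + 1 : ℝ) : ℂ)) := by
    apply Set.infinite_range_of_injective
    intro a b hab
    have h3 : ((a : ℝ) + 1 : ℝ) = (b : ℝ) + 1 := Complex.ofReal_injective hab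
    have h2 : (a : ℝ) = b := by linarith
    exact_mod_cast h2
  apply h1.mono
  rintro _ ⟨n, rfl⟩
  exact hcon _ (by positivity)

variable {W : Type*} [Group W] [Fintype W] [DecidableEq W]

/-- Polynomial families of operators. -/
def IsPF (A : ℂ → Module.End ℂ (W → ℂ)) : Prop :=
  ∃ M : Matrix W W ℂ[X], ∀ t, LinearMap.toMatrix' (A t) = M.map (eval t)

theorem IsPF.const (A : Module.End ℂ (W → ℂ)) : IsPF (fun _ => A) := by
  refine ⟨(LinearMap.toMatrix' A).map C, fun t => ?_⟩
  ext i j
  simp

theorem IsPF.mul {A B : ℂ → Module.End ℂ (W → ℂ)} (hA : IsPF A) (hB : IsPF B) :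
    IsPF (fun t => A t * B t) := by
  obtain ⟨M, hM⟩ := hA
  obtain ⟨N, hN⟩ := hB
  refine ⟨M * N, fun t => ?_⟩
  have e : ∀ X : Matrix W W ℂ[X], X.map (eval t) = X.map (evalRingHom t) := fun X => rfl
  rw [LinearMap.toMatrix'_mul, hM, hN, e, e, e, Matrix.map_mul]

theorem IsPF.add {A B : ℂ → Module.End ℂ (W → ℂ)} (hA : IsPF A) (hB : IsPF B) :
    IsPF (fun t => A t + B t) := by
  obtain ⟨M, hM⟩ := hA
  obtain ⟨N, hN⟩ := hB
  refine ⟨M + N, fun t => ?_⟩
  rw [map_add, hM, hN]
  ext i j
  simp

theorem IsPF.zero : IsPF (fun _ => (0 : Module.End ℂ (W → ℂ))) := IsPF.const 0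

theorem IsPF.one : IsPF (fun _ => (1 : Module.End ℂ (W → ℂ))) := IsPF.const 1

theorem IsPF.sum {ι : Type*} (s : Finset ι) {A : ι → ℂ → Module.End ℂ (W → ℂ)}
    (hA : ∀ i ∈ s, IsPF (A i)) : IsPF (fun t => ∑ i ∈ s, A i t) := by
  classical
  induction s using Finset.induction_on with
  | empty => simpa using IsPF.zero
  | insert a s ha ih =>
    simp only [Finset.sum_insert ha]
    exact (hA a (Finset.mem_insert_self _ _)).add (ih fun i hi => hA i (Finset.mem_insert_of_mem hi))

theorem IsPF.smul_pow {A : ℂ → Module.End ℂ (W → ℂ)} (hA : IsPF A) (n : ℕ) :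
    IsPF (fun t => (t ^ n : ℂ) • A t) := by
  obtain ⟨M, hM⟩ := hA
  refine ⟨(X ^ n : ℂ[X]) • M, fun t => ?_⟩
  rw [map_smul, hM]
  ext i j
  simp

variable {S : Set W} {l : W → ℕ} (h : CoxLen S l)

theorem isPF_lamT (l : W → ℕ) (s : W) : IsPF (fun t => lamT l t s) := by
  refine ⟨Matrix.of fun v w => if l (s * v) < l v then
      C (dl w (s * v)) + (X - 1) * C (dl w v) else X * C (dl w (s * v)), fun t => ?_⟩
  ext v w
  rw [LinearMap.toMatrix'_apply, lamT_apply]
  simp only [Matrix.map_apply, Matrix.of_apply]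
  have e : ∀ x, dl w x = (Pi.single w (1 : ℂ) : W → ℂ) x := fun x => by simp [dl, Pi.single_apply]
  split_ifs <;> simp only [eval_add, eval_mul, eval_sub, eval_C, eval_X, eval_one, e]

theorem isPF_rhoT (l : W → ℕ) (s : W) : IsPF (fun t => rhoT l t s) := by
  refine ⟨Matrix.of fun v w => if l (v * s) < l v then
      C (dl w (v * s)) + (X - 1) * C (dl w v) else X * C (dl w (v * s)), fun t => ?_⟩
  ext v w
  rw [LinearMap.toMatrix'_apply, rhoT_apply]
  simp only [Matrix.map_apply, Matrix.of_apply]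
  have e : ∀ x, dl w x = (Pi.single w (1 : ℂ) : W → ℂ) x := fun x => by simp [dl, Pi.single_apply]
  split_ifs <;> simp only [eval_add, eval_mul, eval_sub, eval_C, eval_X, eval_one, e]

theorem isPF_lamL (l : W → ℕ) (L : List W) : IsPF (fun t => lamL l t L) := by
  induction L with
  | nil => exact IsPF.one
  | cons s L ih =>
    simp only [lamL_cons]
    exact (isPF_lamT l s).mul ih

theorem isPF_Lam (w : W) : IsPF (fun t => Lam h t w) := isPF_lamL l _

theorem isPF_Rw (w : W) : IsPF (fun t => Rw h t w) :=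
  ((IsPF.const invOp).mul (isPF_Lam h w⁻¹)).mul (IsPF.const invOp)

/-- The scaled Casimir operator. -/
noncomputable def PsiN (h : CoxLen S l) (N : ℕ) (t : ℂ) : Module.End ℂ (W → ℂ) :=
  ∑ w, (t ^ (N - l w) : ℂ) • (Lam h t w * Rw h t w⁻¹)

theorem isPF_PsiN (N : ℕ) : IsPF (fun t => PsiN h N t) :=
  IsPF.sum _ fun w _ => IsPF.smul_pow ((isPF_Lam h w).mul (isPF_Rw h w⁻¹)) _

theorem PsiN_eq {N : ℕ} (hN : ∀ w, l w ≤ N) {t : ℂ} (ht : t ≠ 0) :
    PsiN h N t = (t ^ N : ℂ) • Psi h t := by
  rw [PsiN, Psi, Finset.smul_sum]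
  refine Finset.sum_congr rfl fun w _ => ?_
  rw [smul_smul]
  congr 1
  have h1 : t ^ N = t ^ (N - l w) * t ^ l w := by
    rw [← pow_add, Nat.sub_add_cancel (hN w)]
  rw [h1, mul_assoc, mul_inv_cancel₀ (pow_ne_zero _ ht), mul_one]

theorem rank_toMatrix' (A : Module.End ℂ (W → ℂ)) :
    (LinearMap.toMatrix' A).rank = Module.finrank ℂ (LinearMap.range A) := by
  have e : (LinearMap.toMatrix' A).mulVecLin = A := LinearMap.ext fun z => LinearMap.toMatrix'_mulVec A z
  unfold Matrix.rank
  rw [e]

theorem range_smul_eq {c : ℂ} (hc : c ≠ 0) (A : Module.End ℂ (W → ℂ)) :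
    LinearMap.range (c • A) = LinearMap.range A := by
  apply le_antisymm
  · rintro _ ⟨a, rfl⟩
    exact ⟨c • a, by simp⟩
  · rintro _ ⟨a, rfl⟩
    exact ⟨c⁻¹ • a, by simp [smul_smul, hc]⟩

/-- The rank of the scaled Casimir operator is the dimension of the centre. -/
theorem rank_PsiN {N : ℕ} (hN : ∀ w, l w ≤ N) {t : ℝ} (ht : 0 < t) :
    (LinearMap.toMatrix' (PsiN h N (t : ℂ))).rank = Module.finrank ℂ (KK S l (t : ℂ)) := by
  have ht' : (t : ℂ) ≠ 0 := by exact_mod_cast ht.ne'
  rw [rank_toMatrix', PsiN_eq h hN ht', range_smul_eq (pow_ne_zero _ ht'), finrank_range_Psi h ht]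

/-- The commutator map as a matrix. -/
noncomputable def MM (S : Set W) (l : W → ℕ) (t : ℂ) : Matrix (↥S × W) W ℂ :=
  Matrix.of fun p w => LinearMap.toMatrix' (lamT l t p.1 - rhoT l t p.1) p.2 w

theorem isPF_sub (l : W → ℕ) (s : W) : IsPF (fun t => lamT l t s - rhoT l t s) := by
  obtain ⟨M, hM⟩ := isPF_lamT l s
  obtain ⟨N, hN⟩ := isPF_rhoT l s
  refine ⟨M - N, fun t => ?_⟩
  rw [map_sub, hM, hN]
  ext i j
  simp

theorem exists_poly_MM (S : Set W) (l : W → ℕ) :
    ∃ Q : Matrix (↥S × W) W ℂ[X], ∀ t, MM S l t = Q.map (eval t) := by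
  choose M hM using fun s : ↥S => isPF_sub l (s : W)
  refine ⟨Matrix.of fun p w => M p.1 p.2 w, fun t => ?_⟩
  ext p w
  have := congrFun (congrFun (hM p.1 t) p.2) w
  simpa [MM] using this

theorem rank_MM [Fintype ↥S] (t : ℂ) :
    (MM S l t).rank + Module.finrank ℂ (KK S l t) = Fintype.card W := by
  have hker : LinearMap.ker (MM S l t).mulVecLin = KK S l t := by
    ext z
    rw [LinearMap.mem_ker, mem_KK]
    constructor
    · intro hz s hs
      funext v
      have h1 := congrFun hz (⟨s, hs⟩, v)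
      have h2 : (MM S l t).mulVecLin z (⟨s, hs⟩, v) =
          (LinearMap.toMatrix' (lamT l t s - rhoT l t s)).mulVec z v := rfl
      rw [h2, LinearMap.toMatrix'_mulVec] at h1
      simpa [sub_eq_zero] using h1
    · intro hz
      funext p
      have h2 : (MM S l t).mulVecLin z p =
          (LinearMap.toMatrix' (lamT l t p.1 - rhoT l t p.1)).mulVec z p.2 := rfl
      rw [h2, LinearMap.toMatrix'_mulVec]
      simp [hz p.1 p.1.2]
  have h1 := LinearMap.finrank_range_add_finrank_ker (MM S l t).mulVecLin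
  rw [hker, Module.finrank_fintype_fun_eq_card] at h1
  exact h1

include h in
/-- The dimension of the centre is monotone in `t`, in both directions. -/
theorem finrank_KK_le {t₁ t₂ : ℝ} (h₁ : 0 < t₁) (h₂ : 0 < t₂) :
    Module.finrank ℂ (KK S l (t₁ : ℂ)) ≤ Module.finrank ℂ (KK S l (t₂ : ℂ)) := by
  classical
  haveI : Fintype ↥S := Fintype.ofFinite _
  let N := ∑ w, l w
  have hN : ∀ w, l w ≤ N := fun w =>
    Finset.single_le_sum (f := l) (fun _ _ => Nat.zero_le _) (Finset.mem_univ w)
  obtain ⟨P, hP⟩ := isPF_PsiN h N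
  obtain ⟨Q, hQ⟩ := exists_poly_MM S l
  obtain ⟨D₁, hD₁, h1⟩ := rank_semicont P (t₁ : ℂ)
  obtain ⟨D₂, hD₂, h2⟩ := rank_semicont Q (t₂ : ℂ)
  obtain ⟨t, ht, hne⟩ := exists_pos_ne (mul_ne_zero hD₁ hD₂)
  rw [eval_mul] at hne
  have h3 := h1 _ (left_ne_zero_of_mul hne)
  have h4 := h2 _ (right_ne_zero_of_mul hne)
  rw [← hP, ← hP, rank_PsiN h hN h₁, rank_PsiN h hN ht] at h3
  rw [← hQ, ← hQ] at h4
  have h5 := rank_MM (S := S) (l := l) (t₂ : ℂ)
  have h6 := rank_MM (S := S) (l := l) (t : ℂ)
  omega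

include h in
/-- At `t = 1` the centre consists of the class functions. -/
theorem finrank_KK_one : Module.finrank ℂ (KK S l ((1 : ℝ) : ℂ)) = Nat.card (ConjClasses W) := by
  classical
  haveI : Fintype (ConjClasses W) := Fintype.ofFinite _
  have h1 : ∀ (z : W → ℂ), z ∈ KK S l ((1 : ℝ) : ℂ) ↔ ∀ g w, z (g * w * g⁻¹) = z w := by
    intro z
    rw [mem_KK]
    have hl : ∀ s w, lamT l ((1 : ℝ) : ℂ) s z w = z (s * w) := by
      intro s w
      rw [lamT_apply]
      split_ifs <;> simp
    have hr : ∀ s w, rhoT l ((1 : ℝ) : ℂ) s z w = z (w * s) := by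
      intro s w
      rw [rhoT_apply]
      split_ifs <;> simp
    constructor
    · intro hz g
      have hg : g ∈ Subgroup.closure S := by rw [h.gen]; trivial
      induction hg using Subgroup.closure_induction with
      | mem s hs =>
        intro w
        have h2 := congrFun (hz s hs) (w * s)
        rw [hl, hr, h.mul_s_s hs] at h2
        rw [h.s_inv hs, mul_assoc, h2]
      | one =>
        intro w
        simp
      | mul a b _ _ iha ihb =>
        intro w
        have e : a * b * w * (a * b)⁻¹ = a * (b * w * b⁻¹) * a⁻¹ := by group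
        rw [e, iha, ihb]
      | inv a _ iha =>
        intro w
        have e := iha (a⁻¹ * w * a⁻¹⁻¹)
        rw [← e]
        congr 1
        group
    · intro hz s hs
      funext w
      rw [hl, hr]
      have := hz s (w * s)
      rw [← this]
      congr 1
      rw [h.s_inv hs, mul_assoc, mul_assoc, h.sq s hs, mul_one]
  let Φ : (ConjClasses W → ℂ) →ₗ[ℂ] KK S l ((1 : ℝ) : ℂ) :=
    { toFun := fun f => ⟨fun w => f (ConjClasses.mk w), by
        rw [h1]
        intro g w
        show f _ = f _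
        congr 1
        rw [ConjClasses.mk_eq_mk_iff_isConj]
        exact (isConj_iff.mpr ⟨g, rfl⟩).symm⟩
      map_add' := fun _ _ => rfl
      map_smul' := fun _ _ => rfl }
  have hbij : Function.Bijective Φ := by
    constructor
    · intro f f' hff
      funext c
      obtain ⟨g, rfl⟩ := ConjClasses.mk_surjective c
      exact congrFun (congrArg Subtype.val hff) g
    · rintro ⟨z, hz⟩
      refine ⟨fun c => z (Quotient.out c), Subtype.ext ?_⟩
      funext w
      show z (Quotient.out (ConjClasses.mk w)) = z w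
      have h2 : IsConj w (Quotient.out (ConjClasses.mk w)) := by
        rw [← ConjClasses.mk_eq_mk_iff_isConj]
        exact (Quotient.out_eq (ConjClasses.mk w)).symm
      obtain ⟨c, hc⟩ := isConj_iff.mp h2
      rw [← hc]
      exact (h1 z).1 hz c w
  rw [← (LinearEquiv.ofBijective Φ hbij).finrank_eq, Module.finrank_fintype_fun_eq_card,
    Nat.card_eq_fintype_card]

include h in
/-- **Tits' deformation theorem.**  The dimension of the centre of the generic Hecke algebra at any
positive parameter is the number of conjugacy classes of the Coxeter group. -/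
theorem finrank_KK {t : ℝ} (ht : 0 < t) :
    Module.finrank ℂ (KK S l (t : ℂ)) = Nat.card (ConjClasses W) := by
  rw [← finrank_KK_one h]
  exact le_antisymm (finrank_KK_le h ht one_pos) (finrank_KK_le h one_pos ht)

end Cfsg.Agent.Lib.HeckeT50
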