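import Cfsg.Agent.Lib.CoxLen50

/-!
# Generic Iwahori-Hecke operators on the functions on a Coxeter group

For a parameter `t`, the operators `lamT t s`, `rhoT t s` act on functions `W → ℂ`; they are the left and
right multiplications by `T_s` written in the coordinates of the basis `T_w`.  We prove that they commute,
that they satisfy the quadratic relation, and construct the operators `Lam t w`, `Rw t w` of
multiplication by `T_w`.  For `t > 0` a positive definite form shows that the Casimir operator `Psi t`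
has the "centre" `KK t` as its range.
-/

set_option autoImplicit false
set_option linter.unusedSectionVars false
set_option linter.unusedVariables false

namespace Cfsg.Agent.Lib.HeckeT50

open Cfsg.Agent.Lib.CoxLen50
open scoped ComplexConjugate

variable {W : Type*} [Group W]

/-- Left multiplication by `T_s` in coordinates. -/
noncomputable def lamT (l : W → ℕ) (t : ℂ) (s : W) : Module.End ℂ (W → ℂ) where
  toFun a := fun w => if l (s * w) < l w then a (s * w) + (t - 1) * a w else t * a (s * w)
  map_add' a b := by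
    funext w
    simp only [Pi.add_apply]
    split_ifs <;> ring
  map_smul' c a := by
    funext w
    simp only [Pi.smul_apply, smul_eq_mul, RingHom.id_apply]
    split_ifs <;> ring

/-- Right multiplication by `T_s` in coordinates. -/
noncomputable def rhoT (l : W → ℕ) (t : ℂ) (s : W) : Module.End ℂ (W → ℂ) where
  toFun a := fun w => if l (w * s) < l w then a (w * s) + (t - 1) * a w else t * a (w * s)
  map_add' a b := by
    funext w
    simp only [Pi.add_apply]
    split_ifs <;> ring
  map_smul' c a := by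
    funext w
    simp only [Pi.smul_apply, smul_eq_mul, RingHom.id_apply]
    split_ifs <;> ring

theorem lamT_apply (l : W → ℕ) (t : ℂ) (s : W) (a : W → ℂ) (w : W) :
    lamT l t s a w = if l (s * w) < l w then a (s * w) + (t - 1) * a w else t * a (s * w) := rfl

theorem rhoT_apply (l : W → ℕ) (t : ℂ) (s : W) (a : W → ℂ) (w : W) :
    rhoT l t s a w = if l (w * s) < l w then a (w * s) + (t - 1) * a w else t * a (w * s) := rfl

/-- Inversion of the argument. -/
noncomputable def invOp : Module.End ℂ (W → ℂ) where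
  toFun a := fun w => a w⁻¹
  map_add' a b := rfl
  map_smul' c a := rfl

theorem invOp_apply (a : W → ℂ) (w : W) : invOp a w = a w⁻¹ := rfl

theorem invOp_mul_invOp : (invOp : Module.End ℂ (W → ℂ)) * invOp = 1 := by
  apply LinearMap.ext
  intro a
  funext w
  simp [Module.End.mul_apply, invOp_apply]

variable {S : Set W} {l : W → ℕ} (h : CoxLen S l)

include h

theorem len_s {s : W} (hs : s ∈ S) : l s = 1 := by
  have h1 := h.step 1 s hs
  rw [one_mul, h.one_len] at h1
  omega

theorem s_s (hs : ∀ {s : W}, s ∈ S → s * s = 1) {s : W} (h's : s ∈ S) (w : W) : s * (s * w) = w := by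
  rw [← mul_assoc, hs h's, one_mul]

theorem s_mul_s {s : W} (hs : s ∈ S) (w : W) : s * (s * w) = w := by
  rw [← mul_assoc, h.sq s hs, one_mul]

theorem mul_s_s' {s : W} (hs : s ∈ S) (w : W) : w * s * s = w := by
  rw [mul_assoc, h.sq s hs, mul_one]

/-- The exchange consequence: if both sides go up but not both together. -/
theorem swap_of_up {s s' w : W} (hs : s ∈ S) (hs' : s' ∈ S) (h1 : l w < l (s * w))
    (h2 : l w < l (w * s')) (h3 : l (s * w * s') < l (s * w)) : s * w * s' = w := by
  have a1 := h.step_left w hs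
  have a2 := h.step w s' hs'
  have hadd : l (s * w) = l s + l w := by
    rw [len_s h hs]
    omega
  rcases h.exch s w s' hs' hadd h3 with h4 | ⟨x', h5, h6, -⟩
  · omega
  · rw [len_s h hs] at h5
    have h7 : x' = 1 := (h.zero_iff x').1 (by omega)
    rw [h6, h7, one_mul]

/-- The left and right operators commute. -/
theorem lam_rho_apply {s s' : W} (hs : s ∈ S) (hs' : s' ∈ S) (t : ℂ) (a : W → ℂ) :
    lamT l t s (rhoT l t s' a) = rhoT l t s' (lamT l t s a) := by
  funext w
  simp only [lamT_apply, rhoT_apply]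
  have e : s * (w * s') = s * w * s' := (mul_assoc _ _ _).symm
  rw [e]
  have a1 := h.step_left w hs
  have a2 := h.step w s' hs'
  have a3 := h.step (s * w) s' hs'
  have a4 := h.step_left (w * s') hs
  rw [e] at a4
  by_cases c1 : l (s * w) < l w <;> by_cases c2 : l (w * s') < l w <;>
    by_cases c3 : l (s * w * s') < l (s * w) <;> by_cases c4 : l (s * w * s') < l (w * s') <;>
    simp only [c1, c2, c3, c4, if_true, if_false]
  all_goals first
    | (exfalso; omega)
    | ring1
    | skip
  · -- both down, product up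
    have h5 : s * (s * w) * s' = s * w := by
      apply swap_of_up h hs hs'
      · rw [s_mul_s h hs]; omega
      · omega
      · rw [s_mul_s h hs]; omega
    rw [s_mul_s h hs] at h5
    rw [h5]
  · have h5 := swap_of_up h hs hs' (by omega) (by omega) c3
    have h6 : s * w = w * s' := by
      calc s * w = s * w * s' * s' := (mul_s_s' h hs' _).symm
        _ = w * s' := by rw [h5]
    rw [h6]

theorem lam_rho_comm {s s' : W} (hs : s ∈ S) (hs' : s' ∈ S) (t : ℂ) :
    lamT l t s * rhoT l t s' = rhoT l t s' * lamT l t s := by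
  apply LinearMap.ext
  intro a
  exact lam_rho_apply h hs hs' t a

/-- The quadratic relation. -/
theorem lam_sq {s : W} (hs : s ∈ S) (t : ℂ) :
    lamT l t s * lamT l t s = t • 1 + (t - 1) • lamT l t s := by
  apply LinearMap.ext
  intro a
  funext w
  simp only [Module.End.mul_apply, LinearMap.add_apply, LinearMap.smul_apply, Pi.add_apply, Pi.smul_apply,
    smul_eq_mul, Module.End.one_apply, lamT_apply, s_mul_s h hs]
  have a1 := h.step_left w hs
  by_cases c1 : l (s * w) < l w
  · have c2 : ¬ l w < l (s * w) := by omega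
    simp only [c1, c2, if_true, if_false]
  · have c2 : l w < l (s * w) := by omega
    simp only [c1, c2, if_true, if_false]
    try ring

omit h in
theorem invOp_lam_invOp (h : CoxLen S l) {s : W} (hs : s ∈ S) (t : ℂ) :
    invOp * lamT l t s * invOp = rhoT l t s := by
  apply LinearMap.ext
  intro a
  funext w
  simp only [Module.End.mul_apply, invOp_apply, lamT_apply, rhoT_apply]
  have e1 : (s * w⁻¹)⁻¹ = w * s := by
    rw [_root_.mul_inv_rev, inv_inv, h.s_inv hs]
  have e2 : l (s * w⁻¹) = l (w * s) := by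
    rw [← h.inv (s * w⁻¹), e1]
  rw [e1, e2, h.inv w, inv_inv]

theorem rho_sq {s : W} (hs : s ∈ S) (t : ℂ) :
    rhoT l t s * rhoT l t s = t • 1 + (t - 1) • rhoT l t s := by
  rw [← invOp_lam_invOp h hs t]
  have e : invOp * lamT l t s * invOp * (invOp * lamT l t s * invOp) =
      invOp * (lamT l t s * lamT l t s) * invOp := by
    calc _ = invOp * lamT l t s * (invOp * invOp) * lamT l t s * invOp := by
            simp only [mul_assoc]
      _ = _ := by
            rw [invOp_mul_invOp]
            simp only [mul_assoc, one_mul]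
  rw [e, lam_sq h hs t]
  rw [mul_add, add_mul, mul_smul_comm, smul_mul_assoc, mul_smul_comm, smul_mul_assoc, mul_one,
    invOp_mul_invOp]


/-! ### The basis and reduced words -/

omit h in
/-- The basis vector. -/
noncomputable def dl [DecidableEq W] (w : W) : W → ℂ := fun v => if v = w then 1 else 0

variable [DecidableEq W]

theorem lam_dl_up {s w : W} (hs : s ∈ S) (t : ℂ) (hw : l w < l (s * w)) :
    lamT l t s (dl w) = dl (s * w) := by
  funext v
  simp only [lamT_apply, dl]
  by_cases h1 : v = s * w
  · subst h1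
    have h2 : s * (s * w) = w := s_mul_s h hs w
    have h3 : s * w ≠ w := fun e => by rw [e] at hw; omega
    simp [h2, hw, h3]
  · by_cases h2 : v = w
    · subst h2
      have h3 : ¬ l (s * v) < l v := by omega
      have hs1 : s ≠ 1 := fun e => by rw [e, one_mul] at hw; omega
      simp [h3, h1, hs1]
    · have h3 : s * v ≠ w := fun e => h1 (by rw [← e, s_mul_s h hs])
      simp [h1, h2, h3]

theorem rho_dl_up {s w : W} (hs : s ∈ S) (t : ℂ) (hw : l w < l (w * s)) :
    rhoT l t s (dl w) = dl (w * s) := by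
  funext v
  simp only [rhoT_apply, dl]
  by_cases h1 : v = w * s
  · subst h1
    have h2 : w * s * s = w := mul_s_s' h hs w
    have h3 : w * s ≠ w := fun e => by rw [e] at hw; omega
    simp [h2, hw, h3]
  · by_cases h2 : v = w
    · subst h2
      have h3 : ¬ l (v * s) < l v := by omega
      have hs1 : s ≠ 1 := fun e => by rw [e, mul_one] at hw; omega
      simp [h3, h1, hs1]
    · have h3 : v * s ≠ w := fun e => h1 (by rw [← e, mul_s_s' h hs])
      simp [h1, h2, h3]

theorem exists_word (w : W) : ∃ L : List W, (∀ s ∈ L, s ∈ S) ∧ L.prod = w ∧ L.length = l w := by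
  induction hk : l w using Nat.strong_induction_on generalizing w with
  | _ k ih =>
    by_cases hw : w = 1
    · subst hw
      exact ⟨[], by simp, rfl, by simp [← hk, h.one_len]⟩
    · have hm : w ∈ Subgroup.closure S := by rw [h.gen]; trivial
      obtain ⟨s, hs, hd⟩ := h.desc_left subset_rfl hm hw
      obtain ⟨L, h1, h2, h3⟩ := ih (l (s * w)) (by omega) (s * w) rfl
      refine ⟨s :: L, ?_, ?_, ?_⟩
      · intro x hx
        rcases List.mem_cons.1 hx with rfl | hx
        · exact hs
        · exact h1 x hx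
      · rw [List.prod_cons, h2, s_mul_s h hs]
      · rw [List.length_cons, h3]
        omega

omit h in
/-- A fixed reduced word. -/
noncomputable def word (h : CoxLen S l) (w : W) : List W := Classical.choose (exists_word h w)

theorem word_mem {w s : W} (hs : s ∈ word h w) : s ∈ S :=
  (Classical.choose_spec (exists_word h w)).1 s hs

theorem word_prod (w : W) : (word h w).prod = w := (Classical.choose_spec (exists_word h w)).2.1

theorem word_length (w : W) : (word h w).length = l w := (Classical.choose_spec (exists_word h w)).2.2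

omit h in
/-- Product of the operators along a word. -/
noncomputable def lamL (l : W → ℕ) (t : ℂ) (L : List W) : Module.End ℂ (W → ℂ) :=
  (L.map (lamT l t)).prod

omit h in
theorem lamL_nil (t : ℂ) : lamL l t [] = 1 := rfl

omit h in
theorem lamL_cons (t : ℂ) (s : W) (L : List W) : lamL l t (s :: L) = lamT l t s * lamL l t L := by
  simp [lamL]

omit h in
/-- Multiplication by `T_w` on the left. -/
noncomputable def Lam (h : CoxLen S l) (t : ℂ) (w : W) : Module.End ℂ (W → ℂ) := lamL l t (word h w)

omit h in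
/-- Multiplication by `T_w` on the right. -/
noncomputable def Rw (h : CoxLen S l) (t : ℂ) (w : W) : Module.End ℂ (W → ℂ) :=
  invOp * Lam h t w⁻¹ * invOp

theorem lamL_comm_rho {L : List W} (hL : ∀ s ∈ L, s ∈ S) {s' : W} (hs' : s' ∈ S) (t : ℂ) :
    lamL l t L * rhoT l t s' = rhoT l t s' * lamL l t L := by
  induction L with
  | nil => simp [lamL_nil]
  | cons s L ih =>
    rw [lamL_cons, mul_assoc, ih (fun x hx => hL x (List.mem_cons_of_mem _ hx)), ← mul_assoc,
      lam_rho_comm h (hL s List.mem_cons_self) hs', mul_assoc]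

theorem Lam_comm_rho (w : W) {s' : W} (hs' : s' ∈ S) (t : ℂ) :
    Lam h t w * rhoT l t s' = rhoT l t s' * Lam h t w :=
  lamL_comm_rho h (fun _ hx => word_mem h hx) hs' t

theorem lamL_dl {L : List W} (hL : ∀ s ∈ L, s ∈ S) (hr : l L.prod = L.length) (t : ℂ) :
    lamL l t L (dl 1) = dl L.prod := by
  induction L with
  | nil => simp [lamL_nil]
  | cons s L ih =>
    have hs := hL s List.mem_cons_self
    have hL' : ∀ x ∈ L, x ∈ S := fun x hx => hL x (List.mem_cons_of_mem _ hx)
    have hle : ∀ L' : List W, (∀ x ∈ L', x ∈ S) → l L'.prod ≤ L'.length := by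
      intro L' hL''
      induction L' with
      | nil => simp [h.one_len]
      | cons x L' ih' =>
        have h1 := h.step_left L'.prod (hL'' x List.mem_cons_self)
        have h2 := ih' (fun y hy => hL'' y (List.mem_cons_of_mem _ hy))
        simp only [List.prod_cons, List.length_cons]
        omega
    rw [List.prod_cons, List.length_cons] at hr
    have h1 := h.step_left L.prod hs
    have h2 := hle L hL'
    have h3 : l L.prod = L.length := by omega
    rw [lamL_cons, Module.End.mul_apply, ih hL' h3, lam_dl_up h hs t (by omega), List.prod_cons]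

theorem Lam_dl (t : ℂ) (w : W) : Lam h t w (dl 1) = dl w := by
  have := lamL_dl h (L := word h w) (fun _ hx => word_mem h hx) (by rw [word_prod, word_length]) t
  rwa [word_prod] at this

omit h in
theorem invOp_dl (w : W) : invOp (dl w) = dl w⁻¹ := by
  funext v
  simp only [invOp_apply, dl, inv_eq_iff_eq_inv]

theorem Rw_dl (t : ℂ) (w : W) : Rw h t w (dl 1) = dl w := by
  simp only [Rw, Module.End.mul_apply, invOp_dl, inv_one, Lam_dl, inv_inv]

/-- `Rw` commutes with everything commuting with all `rhoT`. -/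
theorem comm_Rw {X : Module.End ℂ (W → ℂ)} {t : ℂ}
    (hX : ∀ s ∈ S, X * rhoT l t s = rhoT l t s * X) (w : W) :
    X * Rw h t w = Rw h t w * X := by
  have key : ∀ L : List W, (∀ s ∈ L, s ∈ S) →
      X * (invOp * lamL l t L * invOp) = (invOp * lamL l t L * invOp) * X := by
    intro L
    induction L with
    | nil =>
      intro _
      rw [lamL_nil, mul_one, invOp_mul_invOp, mul_one, one_mul]
    | cons s L ih =>
      intro hL
      have hs := hL s List.mem_cons_self
      have e : invOp * lamL l t (s :: L) * invOp =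
          rhoT l t s * (invOp * lamL l t L * invOp) := by
        rw [← invOp_lam_invOp h hs t, lamL_cons]
        calc _ = invOp * lamT l t s * 1 * lamL l t L * invOp := by simp only [mul_assoc, mul_one]
          _ = invOp * lamT l t s * (invOp * invOp) * lamL l t L * invOp := by rw [invOp_mul_invOp]
          _ = _ := by simp only [mul_assoc]
      rw [e, ← mul_assoc, hX s hs, mul_assoc, ih (fun x hx => hL x (List.mem_cons_of_mem _ hx)), mul_assoc]
      simp only [mul_assoc]
  exact key _ (fun _ hx => word_mem h hx)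

/-- Elements of the commutant of the `rhoT` are determined by their value at `T_1`. -/
theorem eq_of_dl [Fintype W] {X Y : Module.End ℂ (W → ℂ)} {t : ℂ}
    (hX : ∀ s ∈ S, X * rhoT l t s = rhoT l t s * X)
    (hY : ∀ s ∈ S, Y * rhoT l t s = rhoT l t s * Y) (hXY : X (dl 1) = Y (dl 1)) : X = Y := by
  have h1 : ∀ w, X (dl w) = Y (dl w) := by
    intro w
    rw [← Rw_dl h t w]
    have a1 := LinearMap.congr_fun (comm_Rw h hX w) (dl 1)
    have a2 := LinearMap.congr_fun (comm_Rw h hY w) (dl 1)
    simp only [Module.End.mul_apply] at a1 a2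
    rw [a1, a2, hXY]
  apply LinearMap.ext
  intro a
  have e : a = ∑ w, a w • dl w := by
    funext v
    simp [dl, Finset.sum_apply]
  rw [e, map_sum, map_sum]
  refine Finset.sum_congr rfl fun w _ => ?_
  rw [map_smul, map_smul, h1]

theorem lam_comm_rhos {s : W} (hs : s ∈ S) (t : ℂ) : ∀ s' ∈ S,
    lamT l t s * rhoT l t s' = rhoT l t s' * lamT l t s :=
  fun _ hs' => lam_rho_comm h hs hs' t

theorem Lam_up_left [Fintype W] {s w : W} (hs : s ∈ S) (t : ℂ) (hw : l w < l (s * w)) :
    Lam h t (s * w) = lamT l t s * Lam h t w := by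
  apply eq_of_dl h (t := t)
  · exact fun s' hs' => Lam_comm_rho h _ hs' t
  · intro s' hs'
    rw [mul_assoc, Lam_comm_rho h _ hs' t, ← mul_assoc, lam_rho_comm h hs hs' t, mul_assoc]
  · rw [Lam_dl, Module.End.mul_apply, Lam_dl, lam_dl_up h hs t hw]

theorem Lam_up_right [Fintype W] {s w : W} (hs : s ∈ S) (t : ℂ) (hw : l w < l (w * s)) :
    Lam h t (w * s) = Lam h t w * lamT l t s := by
  apply eq_of_dl h (t := t)
  · exact fun s' hs' => Lam_comm_rho h _ hs' t
  · intro s' hs'
    rw [mul_assoc, lam_rho_comm h hs hs' t, ← mul_assoc, Lam_comm_rho h _ hs' t, mul_assoc]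
  · have h1 : l (1 : W) < l (s * 1) := by rw [mul_one, h.one_len, len_s h hs]; omega
    have h2 : l (1 : W) < l (1 * s) := by rw [one_mul, h.one_len, len_s h hs]; omega
    have h3 := lam_dl_up h hs t h1
    have h4 := rho_dl_up h hs t h2
    rw [mul_one] at h3
    rw [one_mul] at h4
    have a1 := LinearMap.congr_fun (Lam_comm_rho h w hs t) (dl 1)
    simp only [Module.End.mul_apply] at a1
    rw [Lam_dl, Module.End.mul_apply, h3, ← h4, a1, Lam_dl, rho_dl_up h hs t hw]

theorem Rw_up_right [Fintype W] {s w : W} (hs : s ∈ S) (t : ℂ) (hw : l w < l (w * s)) :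
    Rw h t (w * s) = rhoT l t s * Rw h t w := by
  have e1 : (w * s)⁻¹ = s * w⁻¹ := by rw [_root_.mul_inv_rev, h.s_inv hs]
  have h1 : l w⁻¹ < l (s * w⁻¹) := by
    rw [← e1, h.inv, h.inv]
    exact hw
  rw [Rw, e1, Lam_up_left h hs t h1, ← invOp_lam_invOp h hs t, Rw]
  calc invOp * (lamT l t s * Lam h t w⁻¹) * invOp
      = invOp * lamT l t s * 1 * Lam h t w⁻¹ * invOp := by simp only [mul_assoc, mul_one]
    _ = invOp * lamT l t s * (invOp * invOp) * Lam h t w⁻¹ * invOp := by rw [invOp_mul_invOp]
    _ = _ := by simp only [mul_assoc]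

theorem Lam_one [Fintype W] (t : ℂ) : Lam h t 1 = 1 := by
  apply eq_of_dl h (t := t)
  · exact fun s' hs' => Lam_comm_rho h _ hs' t
  · intro s' hs'
    rw [one_mul, mul_one]
  · rw [Lam_dl, Module.End.one_apply]

theorem Rw_one [Fintype W] (t : ℂ) : Rw h t 1 = 1 := by
  rw [Rw, inv_one, Lam_one, mul_one, invOp_mul_invOp]

omit h [DecidableEq W] in
/-- The centre, in coordinates. -/
noncomputable def KK (S : Set W) (l : W → ℕ) (t : ℂ) : Submodule ℂ (W → ℂ) where
  carrier := {z | ∀ s ∈ S, lamT l t s z = rhoT l t s z}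
  add_mem' := by
    intro a b ha hb s hs
    rw [map_add, map_add, ha s hs, hb s hs]
  zero_mem' := by
    intro s hs
    rw [map_zero, map_zero]
  smul_mem' := by
    intro c a ha s hs
    rw [map_smul, map_smul, ha s hs]

omit h [DecidableEq W] in
theorem mem_KK {t : ℂ} {z : W → ℂ} : z ∈ KK S l t ↔ ∀ s ∈ S, lamT l t s z = rhoT l t s z := Iff.rfl

/-- On the centre, left and right multiplication agree. -/
theorem Rw_eq_Lam [Fintype W] {t : ℂ} {z : W → ℂ} (hz : z ∈ KK S l t) (w : W) :
    Rw h t w z = Lam h t w z := by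
  induction hk : l w using Nat.strong_induction_on generalizing w with
  | _ k ih =>
    by_cases hw : w = 1
    · subst hw
      rw [Rw_one, Lam_one]
    · have hm : w ∈ Subgroup.closure S := by rw [h.gen]; trivial
      obtain ⟨s, hs, hd⟩ := h.desc S subset_rfl w hm hw
      have e : w * s * s = w := mul_s_s' h hs w
      have hup : l (w * s) < l (w * s * s) := by rw [e]; omega
      have h1 := ih (l (w * s)) (by omega) (w * s) rfl
      rw [← e, Rw_up_right h hs t hup, Lam_up_right h hs t hup, Module.End.mul_apply,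
        Module.End.mul_apply, h1]
      have a1 := LinearMap.congr_fun (Lam_comm_rho h (w * s) hs t) z
      simp only [Module.End.mul_apply] at a1
      rw [← a1, hz s hs]


/-! ### The positive definite form -/

omit h [DecidableEq W] in
/-- The Hermitian form with `(T_w, T_v) = δ_{wv} t^{l w}`. -/
noncomputable def Bf [Fintype W] (l : W → ℕ) (t : ℝ) (a b : W → ℂ) : ℂ :=
  ∑ w, ((t : ℂ) ^ l w) * a w * conj (b w)

omit [DecidableEq W] in
theorem Bf_lam [Fintype W] {s : W} (hs : s ∈ S) (t : ℝ) (a b : W → ℂ) :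
    Bf l t (lamT l (t : ℂ) s a) b = Bf l t a (lamT l (t : ℂ) s b) := by
  unfold Bf
  let c : W → ℂ := fun w => if l (s * w) < l w then 1 else (t : ℂ)
  let d : W → ℂ := fun w => if l (s * w) < l w then ((t : ℂ) - 1) else 0
  have hconjt : conj (t : ℂ) = t := Complex.conj_ofReal t
  have h1 : ∀ (e : W → ℂ) (w : W), lamT l (t : ℂ) s e w = c w * e (s * w) + d w * e w := by
    intro e w
    simp only [lamT_apply, c, d]
    split_ifs <;> ring
  have h2 : ∀ (w : W), conj (lamT l (t : ℂ) s b w) = c w * conj (b (s * w)) + d w * conj (b w) := by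
    intro w
    simp only [lamT_apply, c, d]
    split_ifs <;> simp [hconjt]
  have key : ∀ w, (t : ℂ) ^ l (s * w) * c (s * w) = (t : ℂ) ^ l w * c w := by
    intro w
    have a1 := h.step_left w hs
    simp only [c, s_mul_s h hs]
    rcases a1 with a1 | a1
    · have c1 : ¬ l (s * w) < l w := by omega
      have c2 : l w < l (s * w) := by omega
      rw [if_pos c2, if_neg c1, a1, pow_succ, mul_one]
    · have c1 : l (s * w) < l w := by omega
      have c2 : ¬ l w < l (s * w) := by omega
      rw [if_neg c2, if_pos c1, ← a1, pow_succ, mul_one]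
  have e1 : ∑ w, (t : ℂ) ^ l w * (c w * a (s * w)) * conj (b w) =
      ∑ w, (t : ℂ) ^ l w * a w * (c w * conj (b (s * w))) := by
    rw [← Equiv.sum_comp (Equiv.mulLeft s) (fun w => (t : ℂ) ^ l w * (c w * a (s * w)) * conj (b w))]
    refine Finset.sum_congr rfl fun w _ => ?_
    simp only [Equiv.coe_mulLeft, s_mul_s h hs]
    have := key w
    linear_combination (a w * conj (b (s * w))) * this
  calc ∑ w, (t : ℂ) ^ l w * lamT l (t : ℂ) s a w * conj (b w)
      = ∑ w, (t : ℂ) ^ l w * (c w * a (s * w)) * conj (b w) +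
          ∑ w, (t : ℂ) ^ l w * (d w * a w) * conj (b w) := by
        rw [← Finset.sum_add_distrib]
        refine Finset.sum_congr rfl fun w _ => ?_
        rw [h1]
        ring
    _ = _ := by
        rw [e1, ← Finset.sum_add_distrib]
        refine Finset.sum_congr rfl fun w _ => ?_
        rw [h2]
        ring

theorem Bf_Lam [Fintype W] (t : ℝ) (w : W) (a b : W → ℂ) :
    Bf l t (Lam h (t : ℂ) w a) b = Bf l t a (Lam h (t : ℂ) w⁻¹ b) := by
  induction hk : l w using Nat.strong_induction_on generalizing w a b with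
  | _ k ih =>
    by_cases hw : w = 1
    · subst hw
      simp [Lam_one]
    · have hm : w ∈ Subgroup.closure S := by rw [h.gen]; trivial
      obtain ⟨s, hs, hd⟩ := h.desc_left subset_rfl hm hw
      have e : s * (s * w) = w := s_mul_s h hs w
      have hup : l (s * w) < l (s * (s * w)) := by rw [e]; omega
      have e2 : w⁻¹ = (s * w)⁻¹ * s := by
        rw [_root_.mul_inv_rev, h.s_inv hs, mul_s_s' h hs]
      have hup2 : l (s * w)⁻¹ < l ((s * w)⁻¹ * s) := by
        rw [← e2, h.inv, h.inv]
        omega
      have h1 : Lam h (t : ℂ) w = lamT l (t : ℂ) s * Lam h (t : ℂ) (s * w) := by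
        conv_lhs => rw [← e]
        exact Lam_up_left h hs _ hup
      rw [h1, e2, Lam_up_right h hs _ hup2, Module.End.mul_apply, Module.End.mul_apply, Bf_lam h hs,
        ih (l (s * w)) (by omega) (s * w) _ _ rfl]

omit h [DecidableEq W] in
/-- The norm. -/
noncomputable def Nn [Fintype W] (l : W → ℕ) (t : ℝ) (y : W → ℂ) : ℝ :=
  ∑ w, t ^ l w * Complex.normSq (y w)

omit h [DecidableEq W] in
theorem Bf_self [Fintype W] (t : ℝ) (y : W → ℂ) : Bf l t y y = (Nn l t y : ℂ) := by
  unfold Bf Nn
  push_cast
  refine Finset.sum_congr rfl fun w _ => ?_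
  rw [mul_assoc, Complex.mul_conj]

omit h [DecidableEq W] in
theorem Nn_nonneg [Fintype W] {t : ℝ} (ht : 0 < t) (y : W → ℂ) : 0 ≤ Nn l t y :=
  Finset.sum_nonneg fun w _ => mul_nonneg (pow_pos ht _).le (Complex.normSq_nonneg _)

omit h [DecidableEq W] in
theorem eq_zero_of_Nn [Fintype W] {t : ℝ} (ht : 0 < t) {y : W → ℂ} (hy : Nn l t y = 0) : y = 0 := by
  funext w
  have h1 := (Finset.sum_eq_zero_iff_of_nonneg
    (fun w _ => mul_nonneg (pow_pos ht _).le (Complex.normSq_nonneg _))).1 hy w (Finset.mem_univ _)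
  have h2 : Complex.normSq (y w) = 0 := by
    rcases mul_eq_zero.1 h1 with h3 | h3
    · exact absurd h3 (pow_pos ht _).ne'
    · exact h3
  exact Complex.normSq_eq_zero.1 h2

/-! ### The Casimir operator -/

omit h [DecidableEq W] in
/-- An identity in an algebra behind the centrality of the Casimir element. -/
theorem pair_identity {A : Type*} [Ring A] [Algebra ℂ A] (x y L R : A) (t c : ℂ) (hc : c * t = 1)
    (hx : x * x = t • 1 + (t - 1) • x) (hy : y * y = t • 1 + (t - 1) • y) (hxy : x * y = y * x)
    (hLy : L * y = y * L) :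
    x * (L * R + c • (x * L * (y * R))) = y * (L * R + c • (x * L * (y * R))) := by
  have h1 : x * (x * L * (y * R)) = t • (L * (y * R)) + (t - 1) • (x * (L * (y * R))) := by
    calc x * (x * L * (y * R)) = (x * x) * (L * (y * R)) := by simp only [mul_assoc]
      _ = _ := by rw [hx, add_mul, smul_mul_assoc, smul_mul_assoc, one_mul]
  have h2 : y * (x * L * (y * R)) = t • (x * (L * R)) + (t - 1) • (x * (L * (y * R))) := by
    calc y * (x * L * (y * R)) = (y * x) * (L * (y * R)) := by simp only [mul_assoc]
      _ = (x * y) * (L * (y * R)) := by rw [hxy]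
      _ = x * ((y * L) * (y * R)) := by simp only [mul_assoc]
      _ = x * ((L * y) * (y * R)) := by rw [hLy]
      _ = x * (L * ((y * y) * R)) := by simp only [mul_assoc]
      _ = _ := by
        rw [hy, add_mul, smul_mul_assoc, smul_mul_assoc, one_mul, mul_add, mul_smul_comm, mul_smul_comm,
          mul_add, mul_smul_comm, mul_smul_comm]
  have h3 : y * (L * R) = L * (y * R) := by
    rw [← mul_assoc, ← hLy, mul_assoc]
  have h4 : x * (L * R) = x * (L * R) := rfl
  rw [mul_add, mul_add, mul_smul_comm, mul_smul_comm, h1, h2, h3, smul_add, smul_add]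
  simp only [smul_smul, hc, one_smul]
  abel

omit h in
/-- The Casimir operator. -/
noncomputable def Psi [Fintype W] (h : CoxLen S l) (t : ℂ) : Module.End ℂ (W → ℂ) :=
  ∑ w, ((t ^ l w)⁻¹ : ℂ) • (Lam h t w * Rw h t w⁻¹)

theorem lam_Psi [Fintype W] {s : W} (hs : s ∈ S) {t : ℂ} (ht : t ≠ 0) :
    lamT l t s * Psi h t = rhoT l t s * Psi h t := by
  set x := lamT l t s with hx
  set y := rhoT l t s with hy
  let g : W → Module.End ℂ (W → ℂ) := fun w => ((t ^ l w)⁻¹ : ℂ) • (Lam h t w * Rw h t w⁻¹)
  let D : W → Module.End ℂ (W → ℂ) := fun w => x * g w - y * g w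
  have hup : ∀ w, l w < l (s * w) → D w + D (s * w) = 0 := by
    intro w hw
    have a1 := h.step_left w hs
    have hl : l (s * w) = l w + 1 := by omega
    have e2 : (s * w)⁻¹ = w⁻¹ * s := by
      rw [_root_.mul_inv_rev, h.s_inv hs]
    have hup2 : l w⁻¹ < l (w⁻¹ * s) := by
      rw [← e2, h.inv, h.inv]
      exact hw
    have hg : g (s * w) = ((t ^ l w)⁻¹ : ℂ) • (t⁻¹ • (x * Lam h t w * (y * Rw h t w⁻¹))) := by
      simp only [g]
      rw [hl, e2, Lam_up_left h hs t hw, Rw_up_right h hs t hup2, smul_smul, pow_succ, mul_inv]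
    have key := pair_identity x y (Lam h t w) (Rw h t w⁻¹) t t⁻¹ (inv_mul_cancel₀ ht)
      (lam_sq h hs t) (rho_sq h hs t) (lam_rho_comm h hs hs t) (Lam_comm_rho h w hs t)
    have e3 : D w + D (s * w) = x * (g w + g (s * w)) - y * (g w + g (s * w)) := by
      simp only [D, mul_add]
      abel
    rw [e3, hg]
    simp only [g]
    rw [← smul_add, mul_smul_comm, mul_smul_comm, key, sub_self]
  have hall : ∀ w, D w + D (s * w) = 0 := by
    intro w
    rcases h.step_left w hs with a1 | a1
    · exact hup w (by omega)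
    · have := hup (s * w) (by rw [s_mul_s h hs]; omega)
      rw [s_mul_s h hs] at this
      rw [add_comm]
      exact this
  have hsum : ∑ w, D w = 0 := by
    have h1 : ∑ w, D (s * w) = ∑ w, D w := Equiv.sum_comp (Equiv.mulLeft s) D
    have h2 : ∑ w, (D w + D (s * w)) = 0 := Finset.sum_eq_zero fun w _ => hall w
    rw [Finset.sum_add_distrib, h1, ← two_smul ℂ] at h2
    exact (smul_eq_zero.1 h2).resolve_left two_ne_zero
  have h3 : x * Psi h t - y * Psi h t = ∑ w, D w := by
    simp only [Psi, D, Finset.mul_sum, Finset.sum_sub_distrib, g]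
  exact sub_eq_zero.1 (h3.trans hsum)

theorem Psi_mem [Fintype W] {t : ℂ} (ht : t ≠ 0) (a : W → ℂ) : Psi h t a ∈ KK S l t := by
  intro s hs
  exact LinearMap.congr_fun (lam_Psi h hs ht) a

theorem Psi_inj_on [Fintype W] {t : ℝ} (ht : 0 < t) {z : W → ℂ} (hz : z ∈ KK S l (t : ℂ))
    (h0 : Psi h (t : ℂ) z = 0) : z = 0 := by
  have h1 : Bf l t (Psi h (t : ℂ) z) z =
      ∑ w, ((t : ℂ) ^ l w)⁻¹ * Bf l t (Lam h (t : ℂ) w (Lam h (t : ℂ) w⁻¹ z)) z := by
    simp only [Psi, LinearMap.sum_apply, LinearMap.smul_apply, Module.End.mul_apply, Rw_eq_Lam h hz]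
    unfold Bf
    simp only [Finset.sum_apply, Pi.smul_apply, smul_eq_mul, Finset.mul_sum, Finset.sum_mul]
    rw [Finset.sum_comm]
    refine Finset.sum_congr rfl fun w _ => Finset.sum_congr rfl fun v _ => ?_
    ring
  have h2 : ∀ w, ((t : ℂ) ^ l w)⁻¹ * Bf l t (Lam h (t : ℂ) w (Lam h (t : ℂ) w⁻¹ z)) z =
      (((t ^ l w)⁻¹ * Nn l t (Lam h (t : ℂ) w⁻¹ z) : ℝ) : ℂ) := by
    intro w
    rw [Bf_Lam h t w, Bf_self]
    push_cast
    ring
  have h3 : Bf l t (0 : W → ℂ) z = 0 := by
    unfold Bf
    simp
  rw [h0, h3, Finset.sum_congr rfl fun w _ => h2 w, ← Complex.ofReal_sum] at h1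
  have h4 : ∑ w, (t ^ l w)⁻¹ * Nn l t (Lam h (t : ℂ) w⁻¹ z) = 0 := by
    exact_mod_cast h1.symm
  have h5 := (Finset.sum_eq_zero_iff_of_nonneg
    (fun w _ => mul_nonneg (inv_nonneg.2 (pow_pos ht _).le) (Nn_nonneg ht _))).1 h4 1 (Finset.mem_univ _)
  rw [inv_one, Lam_one, h.one_len, pow_zero, inv_one, one_mul] at h5
  exact eq_zero_of_Nn ht h5

/-- The range of the Casimir operator is the centre. -/
theorem finrank_range_Psi [Fintype W] {t : ℝ} (ht : 0 < t) :
    Module.finrank ℂ (LinearMap.range (Psi h (t : ℂ))) = Module.finrank ℂ (KK S l (t : ℂ)) := by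
  have ht' : (t : ℂ) ≠ 0 := by exact_mod_cast ht.ne'
  apply le_antisymm
  · apply Submodule.finrank_mono
    rintro _ ⟨a, rfl⟩
    exact Psi_mem h ht' a
  · have hinj : Function.Injective ((Psi h (t : ℂ)).domRestrict (KK S l (t : ℂ))) := by
      rw [← LinearMap.ker_eq_bot, LinearMap.ker_eq_bot']
      intro z hz
      have := Psi_inj_on h ht z.2 hz
      exact Subtype.ext this
    have h1 := LinearMap.finrank_range_of_inj hinj
    rw [← h1]
    apply Submodule.finrank_mono
    rintro _ ⟨a, rfl⟩
    exact ⟨a.1, rfl⟩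

end Cfsg.Agent.Lib.HeckeT50
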