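import Mathlib
import Cfsg.Prelude.Def_Transfer
import Cfsg.Agent.Lib.Frat

/-!
# The real Heisenberg model of the plus type extraspecial 2-group

`π u` for `u = (x, y)` in `L × L`, `L = Fin n → ZMod 2`, is the orthogonal matrix sending a function
`f` on `L` to `z ↦ (-1)^(z ⬝ y) f (z + x)`.
-/

set_option autoImplicit false

open Matrix
open scoped commutatorElement

namespace Cfsg.Agent.Lib.HeisReal

/-- Sign of an element of `ZMod 2`. -/
def sgn (a : ZMod 2) : ℝ := if a = 0 then 1 else -1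

@[simp] theorem sgn_zero : sgn 0 = 1 := by simp [sgn]

@[simp] theorem sgn_one : sgn 1 = -1 := by
  simp [sgn]

theorem sgn_add (a b : ZMod 2) : sgn (a + b) = sgn a * sgn b := by
  revert a b
  have h : ∀ a : ZMod 2, a = 0 ∨ a = 1 := by decide
  intro a b
  rcases h a with rfl | rfl <;> rcases h b with rfl | rfl
  · simp
  · simp
  · simp
  · have : (1 : ZMod 2) + 1 = 0 := by decide
    rw [this]; simp

theorem sgn_mul_self (a : ZMod 2) : sgn a * sgn a = 1 := by
  rw [← sgn_add]
  have : a + a = 0 := CharTwo.add_self_eq_zero a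
  rw [this, sgn_zero]

theorem sgn_ne_zero (a : ZMod 2) : sgn a ≠ 0 := by
  intro h
  have := sgn_mul_self a
  rw [h] at this
  simp at this

theorem sgn_inj {a b : ZMod 2} (h : sgn a = sgn b) : a = b := by
  revert a b
  have h : ∀ a : ZMod 2, a = 0 ∨ a = 1 := by decide
  intro a b hab
  rcases h a with rfl | rfl <;> rcases h b with rfl | rfl
  · rfl
  · simp at hab; norm_num at hab
  · simp at hab; norm_num at hab
  · rfl

theorem sgn_eq_one {a : ZMod 2} (h : sgn a = 1) : a = 0 :=
  sgn_inj (h.trans sgn_zero.symm)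

theorem sgn_pos_or (a : ZMod 2) : sgn a = 1 ∨ sgn a = -1 := by
  unfold sgn
  split_ifs <;> simp

/-- The model of the natural space. -/
abbrev L (n : ℕ) := Fin n → ZMod 2

/-- The model of the orthogonal module. -/
abbrev V (n : ℕ) := L n × L n

variable {n : ℕ}

theorem L_add_self (a : L n) : a + a = 0 := funext fun _ => CharTwo.add_self_eq_zero _

theorem V_add_self (a : V n) : a + a = 0 := Prod.ext (L_add_self _) (L_add_self _)

/-- The non-symmetric bilinear form with `β u u = q₀ u`. -/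
def β (u v : V n) : ZMod 2 := u.1 ⬝ᵥ v.2

/-- The polar form. -/
def pol (u v : V n) : ZMod 2 := β u v + β v u

/-- The quadratic form. -/
def q₀ (u : V n) : ZMod 2 := β u u

theorem β_add_left (u u' v : V n) : β (u + u') v = β u v + β u' v := by
  simp [β, add_dotProduct]

theorem β_add_right (u v v' : V n) : β u (v + v') = β u v + β u v' := by
  simp [β, dotProduct_add]

theorem pol_self (u : V n) : pol u u = 0 := CharTwo.add_self_eq_zero _

theorem q₀_add (u v : V n) : q₀ (u + v) = q₀ u + q₀ v + pol u v := by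
  simp only [q₀, pol, β_add_left, β_add_right]
  ring

/-- The matrix of `u`. -/
def π (u : V n) : Matrix (L n) (L n) ℝ :=
  Matrix.of fun z z' => if z' = z + u.1 then sgn (z ⬝ᵥ u.2) else 0

theorem π_apply (u : V n) (z z' : L n) :
    π u z z' = if z' = z + u.1 then sgn (z ⬝ᵥ u.2) else 0 := rfl

theorem π_zero : π (0 : V n) = 1 := by
  ext z z'
  rw [π_apply, Matrix.one_apply]
  by_cases h : z = z'
  · subst h; simp
  · have h' : ¬ z' = z := fun h'' => h h''.symm
    simp [h, h']

theorem π_mul (u v : V n) : π u * π v = sgn (β u v) • π (u + v) := by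
  ext z z''
  rw [Matrix.mul_apply, Matrix.smul_apply, π_apply (u + v)]
  simp only [π_apply]
  rw [Finset.sum_eq_single (z + u.1)]
  · simp only [if_true]
    have : z'' = z + u.1 + v.1 ↔ z'' = z + (u + v).1 := by
      simp [add_assoc]
    by_cases h : z'' = z + u.1 + v.1
    · rw [if_pos h, if_pos (this.1 h), smul_eq_mul, ← sgn_add, ← sgn_add]
      congr 1
      simp only [β, Prod.fst_add, Prod.snd_add, add_dotProduct, dotProduct_add]
      ring
    · rw [if_neg h, if_neg (fun h' => h (this.2 h'))]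
      simp
  · intro b _ hb
    simp [hb]
  · simp

theorem π_transpose (u : V n) : (π u)ᵀ = sgn (q₀ u) • π u := by
  ext z z'
  rw [Matrix.transpose_apply, Matrix.smul_apply, π_apply, π_apply]
  have h2 : ∀ a : L n, a + a = 0 := L_add_self
  have : z = z' + u.1 ↔ z' = z + u.1 := by
    constructor
    · rintro rfl
      rw [add_assoc, h2, add_zero]
    · rintro rfl
      rw [add_assoc, h2, add_zero]
  by_cases h : z' = z + u.1
  · rw [if_pos (this.2 h), if_pos h, smul_eq_mul, ← sgn_add]
    congr 1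
    rw [h, add_dotProduct]
    simp only [q₀, β]
    ring
  · rw [if_neg (fun h' => h (this.1 h')), if_neg h]
    simp

theorem π_mul_self (u : V n) : π u * π u = sgn (q₀ u) • (1 : Matrix (L n) (L n) ℝ) := by
  rw [π_mul]
  have : u + u = 0 := V_add_self u
  rw [this, π_zero]
  rfl

theorem π_transpose_mul_self (u : V n) : (π u)ᵀ * π u = 1 := by
  rw [π_transpose, Matrix.smul_mul, π_mul_self, smul_smul, sgn_mul_self, one_smul]

theorem π_mul_transpose_self (u : V n) : π u * (π u)ᵀ = 1 := by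
  rw [π_transpose, Matrix.mul_smul, π_mul_self, smul_smul, sgn_mul_self, one_smul]

theorem π_comm (u v : V n) : π u * π v = sgn (pol u v) • (π v * π u) := by
  rw [π_mul, π_mul, add_comm v u, smul_smul, ← sgn_add]
  congr 2
  simp only [pol]
  have : β v u + β v u = 0 := CharTwo.add_self_eq_zero _
  linear_combination (-1 : ZMod 2) * this

/-- Conjugation rule. -/
theorem π_conj (u v : V n) : π u * π v * (π u)ᵀ = sgn (pol u v) • π v := by
  rw [π_comm, Matrix.smul_mul, Matrix.mul_assoc, π_mul_transpose_self, Matrix.mul_one]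

theorem dot_sum_ne (y : L n) (hy : y ≠ 0) : ∑ z : L n, sgn (z ⬝ᵥ y) = 0 := by
  obtain ⟨i, hi⟩ : ∃ i, y i ≠ 0 := by
    by_contra h
    push Not at h
    exact hy (funext h)
  have hi1 : y i = 1 := by
    have h : ∀ a : ZMod 2, a ≠ 0 → a = 1 := by decide
    exact h _ hi
  have h1 : (Pi.single i 1 : L n) ⬝ᵥ y = 1 := by
    rw [single_one_dotProduct, hi1]
  have h2 : ∑ z : L n, sgn ((z + Pi.single i 1) ⬝ᵥ y) = ∑ z : L n, sgn (z ⬝ᵥ y) :=
    Equiv.sum_comp (Equiv.addRight (Pi.single i 1 : L n)) (fun z => sgn (z ⬝ᵥ y))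
  have h3 : ∀ z : L n, sgn ((z + Pi.single i 1) ⬝ᵥ y) = - sgn (z ⬝ᵥ y) := by
    intro z
    rw [add_dotProduct, h1, sgn_add, sgn_one]
    ring
  simp only [h3, Finset.sum_neg_distrib] at h2
  linarith

theorem trace_π (u : V n) (hu : u ≠ 0) : Matrix.trace (π u) = 0 := by
  rw [Matrix.trace]
  simp only [Matrix.diag, π_apply]
  by_cases h1 : u.1 = 0
  · have h2 : u.2 ≠ 0 := by
      intro h2
      exact hu (Prod.ext h1 h2)
    simp only [h1, add_zero, if_true]
    exact dot_sum_ne _ h2
  · apply Finset.sum_eq_zero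
    intro z _
    rw [if_neg]
    intro h
    exact h1 (by simpa using h)

theorem trace_π_zero : Matrix.trace (π (0 : V n)) = (Fintype.card (L n) : ℝ) := by
  rw [π_zero, Matrix.trace_one]

/-- The commutant is scalar. -/
theorem commutant_scalar (M : Matrix (L n) (L n) ℝ) (hM : ∀ u, M * π u = π u * M) :
    ∃ c : ℝ, M = c • 1 := by
  have h1 : ∀ (y z z' : L n), M z z' * sgn (z' ⬝ᵥ y) = sgn (z ⬝ᵥ y) * M z z' := by
    intro y z z'
    have := congrFun (congrFun (hM (0, y)) z) z'
    rw [Matrix.mul_apply, Matrix.mul_apply, Finset.sum_eq_single z', Finset.sum_eq_single z] at this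
    · simpa [π_apply] using this
    · intro b _ hb
      simp [π_apply, hb, hb.symm]
    · simp
    · intro b _ hb
      simp [π_apply, hb, hb.symm]
    · simp
  have h2 : ∀ z z' : L n, z ≠ z' → M z z' = 0 := by
    intro z z' hzz
    have : z + z' ≠ 0 := by
      intro h
      apply hzz
      have h3 : z' + z' = 0 := L_add_self z'
      calc z = z + z' + z' := by rw [add_assoc, h3, add_zero]
        _ = z' := by rw [h, zero_add]
    obtain ⟨i, hi⟩ : ∃ i, (z + z') i ≠ 0 := by
      by_contra h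
      push Not at h
      exact this (funext h)
    have hi1 : (z + z') i = 1 := by
      have h : ∀ a : ZMod 2, a ≠ 0 → a = 1 := by decide
      exact h _ hi
    have h3 := h1 (Pi.single i 1) z z'
    have h4 : sgn (z ⬝ᵥ (Pi.single i 1 : L n)) = - sgn (z' ⬝ᵥ (Pi.single i 1 : L n)) := by
      have : z ⬝ᵥ (Pi.single i 1 : L n) = z' ⬝ᵥ (Pi.single i 1 : L n) + 1 := by
        rw [dotProduct_single_one, dotProduct_single_one, ← hi1, Pi.add_apply]
        have : z' i + z' i = 0 := CharTwo.add_self_eq_zero _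
        linear_combination (-1 : ZMod 2) * this
      rw [this, sgn_add, sgn_one]
      ring
    rw [h4] at h3
    have h5 := sgn_ne_zero (z' ⬝ᵥ (Pi.single i 1 : L n))
    have h6 : M z z' * sgn (z' ⬝ᵥ (Pi.single i 1 : L n)) = 0 := by linarith
    exact (mul_eq_zero.1 h6).resolve_right h5
  have h3 : ∀ (x z z' : L n), M z (z' + x) = M (z + x) z' := by
    intro x z z'
    have := congrFun (congrFun (hM (x, 0)) z) z'
    rw [Matrix.mul_apply, Matrix.mul_apply, Finset.sum_eq_single (z' + x), Finset.sum_eq_single (z + x)] at this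
    · have h2 : x + x = 0 := L_add_self x
      have e1 : z' = z' + x + x := by rw [add_assoc, h2, add_zero]
      simp only [π_apply, dotProduct_zero, sgn_zero] at this
      simp only [if_true, mul_one, one_mul] at this
      rw [if_pos e1] at this
      simpa using this
    · intro b _ hb
      simp [π_apply, hb.symm, hb]
    · simp
    · intro b _ hb
      have h2 : x + x = 0 := L_add_self x
      have : z' ≠ b + x := by
        rintro rfl
        apply hb
        rw [add_assoc, h2, add_zero]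
      simp [π_apply, this]
    · simp
  refine ⟨M 0 0, ?_⟩
  ext z z'
  rw [Matrix.smul_apply, Matrix.one_apply]
  by_cases h : z = z'
  · subst h
    have := h3 z 0 z
    have h2 : z + z = 0 := L_add_self z
    rw [h2, zero_add] at this
    simp [← this]
  · rw [if_neg h, h2 z z' h]
    simp


/-- An alternating bilinear form over `ZMod 2` is the polar form of a function. -/
theorem exists_quadratic {M : Type*} [AddCommGroup M] [Module (ZMod 2) M] [Module.Finite (ZMod 2) M]
    (γ : M →ₗ[ZMod 2] M →ₗ[ZMod 2] ZMod 2) (hγ : ∀ u, γ u u = 0) :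
    ∃ f : M → ZMod 2, ∀ u v, f (u + v) = f u + f v + γ u v := by
  classical
  let b := Module.finBasis (ZMod 2) M
  let A : Matrix _ _ (ZMod 2) := fun i j => if i < j then γ (b i) (b j) else 0
  let δ : LinearMap.BilinForm (ZMod 2) M := Matrix.toBilin b A
  have hδ : ∀ i j, δ (b i) (b j) = A i j := by
    intro i j
    have := congrFun (congrFun (LinearMap.BilinForm.toMatrix_toBilin b A) i) j
    rwa [LinearMap.BilinForm.toMatrix_apply] at this
  have hsymm : ∀ u v, γ u v = γ v u := by
    intro u v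
    have h1 := hγ (u + v)
    simp only [map_add, LinearMap.add_apply, hγ] at h1
    have h2 : γ v u + γ v u = 0 := CharTwo.add_self_eq_zero _
    linear_combination h1 - h2
  have hpol : ∀ u v, δ u v + δ v u = γ u v := by
    have h : δ + LinearMap.flip δ = γ := by
      apply b.ext
      intro i
      apply b.ext
      intro j
      simp only [LinearMap.add_apply, LinearMap.flip_apply, hδ, A]
      rcases lt_trichotomy i j with h | h | h
      · rw [if_pos h, if_neg (not_lt.2 h.le), add_zero]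
      · subst h
        simp [hγ]
      · rw [if_neg (not_lt.2 h.le), if_pos h, zero_add, hsymm]
    intro u v
    have := congrFun (congrArg DFunLike.coe (congrFun (congrArg DFunLike.coe h) u)) v
    simpa using this
  refine ⟨fun u => δ u u, ?_⟩
  intro u v
  simp only [map_add, LinearMap.add_apply]
  rw [← hpol]
  ring

/-- Existence of the orthogonal intertwiner. -/
theorem exists_orthogonal (g : V n → V n) (hg : ∀ u v, g (u + v) = g u + g v)
    (hq : ∀ u, q₀ (g u) = q₀ u) (f : V n → ZMod 2)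
    (hf : ∀ u v, f (u + v) = f u + f v + (β u v + β (g u) (g v))) :
    ∃ T : Matrix (L n) (L n) ℝ, Tᵀ * T = 1 ∧ ∀ u, T * π u * Tᵀ = sgn (f u) • π (g u) := by
  classical
  have hg0 : g 0 = 0 := by
    have := hg 0 0
    rw [add_zero] at this
    exact left_eq_add.1 this
  have hf0 : f 0 = 0 := by
    have := hf 0 0
    have h0 : β (0 : V n) 0 = 0 := by simp [β]
    rw [hg0, h0, add_zero] at this
    simpa using this
  obtain ⟨π', hπ'⟩ : ∃ π' : V n → Matrix (L n) (L n) ℝ, ∀ u, π' u = sgn (f u) • π (g u) := ⟨_, fun _ => rfl⟩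
  have hmul : ∀ u v, π' u * π' v = sgn (β u v) • π' (u + v) := by
    intro u v
    rw [hπ', hπ', hπ', Matrix.smul_mul, Matrix.mul_smul, π_mul, hg, smul_smul, smul_smul, smul_smul]
    congr 1
    rw [hf, ← sgn_add, ← sgn_add, ← sgn_add]
    congr 1
    have h : β u v + β u v = 0 := CharTwo.add_self_eq_zero _
    linear_combination (-1 : ZMod 2) * h
  have htr : ∀ u, (π' u)ᵀ = sgn (q₀ u) • π' u := by
    intro u
    rw [hπ', Matrix.transpose_smul, π_transpose, hq, smul_comm]
  obtain ⟨T, hT⟩ : ∃ T : Matrix (L n) (L n) ℝ → Matrix (L n) (L n) ℝ, ∀ M, T M = ∑ u, π' u * M * (π u)ᵀ :=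
    ⟨_, fun _ => rfl⟩
  have hint : ∀ M v, π' v * T M = T M * π v := by
    intro M v
    have h1 : π' v * T M = ∑ u, sgn (β v u) • (π' (v + u) * M * (π u)ᵀ) := by
      rw [hT, Finset.mul_sum]
      refine Finset.sum_congr rfl fun u _ => ?_
      rw [← Matrix.mul_assoc, ← Matrix.mul_assoc, hmul, Matrix.smul_mul, Matrix.smul_mul]
    have h2 : T M * π v = ∑ u, π' (v + u) * M * (π (v + u))ᵀ * π v := by
      rw [hT, Finset.sum_mul]
      exact (Equiv.sum_comp (Equiv.addLeft v) (fun u => π' u * M * (π u)ᵀ * π v)).symm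
    rw [h1, h2]
    refine Finset.sum_congr rfl fun u _ => ?_
    have h3 : π (v + u) = sgn (β v u) • (π v * π u) := by
      rw [π_mul, smul_smul, sgn_mul_self, one_smul]
    have h4 : (π (v + u))ᵀ * π v = sgn (β v u) • (π u)ᵀ := by
      rw [h3, Matrix.transpose_smul, Matrix.transpose_mul, Matrix.smul_mul, Matrix.mul_assoc,
        π_transpose_mul_self, Matrix.mul_one]
    rw [Matrix.mul_assoc (π' (v + u) * M), h4, Matrix.mul_smul]
  -- nonvanishing
  have hne : ∃ M, T M ≠ 0 := by
    by_contra hcon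
    push Not at hcon
    have h0 : ∑ j, ∑ k, T (Matrix.single j k 1) j k = 0 := by
      simp [hcon]
    have h1 : ∀ u (j k : L n), (π' u * Matrix.single j k (1 : ℝ) * (π u)ᵀ) j k = π' u j j * π u k k := by
      intro u j k
      rw [Matrix.mul_apply, Finset.sum_eq_single k]
      · rw [Matrix.mul_single_apply_same, mul_one, Matrix.transpose_apply]
      · intro b _ hb
        rw [Matrix.mul_single_apply_of_ne _ _ _ _ _ hb, zero_mul]
      · simp
    have h2 : ∑ j, ∑ k, T (Matrix.single j k 1) j k = ∑ u, Matrix.trace (π' u) * Matrix.trace (π u) := by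
      simp only [hT, Matrix.sum_apply, h1, Matrix.trace, Matrix.diag]
      simp only [Finset.sum_mul_sum]
      symm
      rw [Finset.sum_comm]
      refine Finset.sum_congr rfl fun j _ => ?_
      exact Finset.sum_comm
    have h3 : ∑ u, Matrix.trace (π' u) * Matrix.trace (π u) = Matrix.trace (π' 0) * Matrix.trace (π (0 : V n)) := by
      apply Finset.sum_eq_single
      · intro u _ hu
        rw [trace_π u hu, mul_zero]
      · simp
    rw [h2, h3, hπ', hf0, hg0, sgn_zero, one_smul, trace_π_zero] at h0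
    have h4 : (Fintype.card (L n) : ℝ) ≠ 0 := by
      exact_mod_cast Fintype.card_ne_zero
    exact (mul_ne_zero h4 h4) h0
  obtain ⟨M, hM⟩ := hne
  obtain ⟨S, hS⟩ : ∃ S, S = T M := ⟨_, rfl⟩
  rw [← hS] at hM
  have hint' : ∀ v, π' v * S = S * π v := fun v => by rw [hS]; exact hint M v
  have hintT : ∀ v, Sᵀ * π' v = π v * Sᵀ := by
    intro v
    have h1 := congrArg Matrix.transpose (hint' v)
    rw [Matrix.transpose_mul, Matrix.transpose_mul, htr, π_transpose, Matrix.mul_smul, Matrix.smul_mul] at h1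
    have h2 := congrArg (fun X => sgn (q₀ v) • X) h1
    simpa only [smul_smul, sgn_mul_self, one_smul] using h2
  have hcomm : ∀ v, (Sᵀ * S) * π v = π v * (Sᵀ * S) := by
    intro v
    rw [Matrix.mul_assoc, ← hint', ← Matrix.mul_assoc, hintT, Matrix.mul_assoc]
  obtain ⟨c, hc⟩ := commutant_scalar _ hcomm
  have hcpos : 0 < c := by
    have : ∃ a b, S a b ≠ 0 := by
      by_contra h
      push Not at h
      apply hM
      ext a b
      exact h a b
    obtain ⟨a, b, hab⟩ := this
    have h1 := congrFun (congrFun hc b) b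
    rw [Matrix.mul_apply, Matrix.smul_apply, Matrix.one_apply_eq, smul_eq_mul, mul_one] at h1
    rw [← h1]
    simp only [Matrix.transpose_apply]
    apply Finset.sum_pos'
    · intro i _
      exact mul_self_nonneg _
    · exact ⟨a, Finset.mem_univ _, mul_self_pos.2 hab⟩
  have hc' : S * Sᵀ = c • 1 := by
    have h1 : (c⁻¹ • Sᵀ) * S = 1 := by
      rw [Matrix.smul_mul, hc, smul_smul, inv_mul_cancel₀ hcpos.ne', one_smul]
    have h2 : S * (c⁻¹ • Sᵀ) = 1 := mul_eq_one_comm.1 h1
    rw [Matrix.mul_smul] at h2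
    have h3 := congrArg (fun X => c • X) h2
    simpa only [smul_smul, mul_inv_cancel₀ hcpos.ne', one_smul] using h3
  refine ⟨(Real.sqrt c)⁻¹ • S, ?_, ?_⟩
  · rw [Matrix.transpose_smul, Matrix.smul_mul, Matrix.mul_smul, smul_smul, hc, smul_smul]
    have : (Real.sqrt c)⁻¹ * (Real.sqrt c)⁻¹ * c = 1 := by
      have := Real.mul_self_sqrt hcpos.le
      have h2 : Real.sqrt c ≠ 0 := (Real.sqrt_pos.2 hcpos).ne'
      field_simp
      nlinarith
    rw [this, one_smul]
  · intro u
    rw [Matrix.transpose_smul, Matrix.smul_mul, Matrix.smul_mul, Matrix.mul_smul, smul_smul,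
      ← hint', Matrix.mul_assoc, hc', Matrix.mul_smul, Matrix.mul_one, smul_smul, ← hπ']
    have : (Real.sqrt c)⁻¹ * (Real.sqrt c)⁻¹ * c = 1 := by
      have := Real.mul_self_sqrt hcpos.le
      have h2 : Real.sqrt c ≠ 0 := (Real.sqrt_pos.2 hcpos).ne'
      field_simp
      nlinarith
    rw [this, one_smul]


/-- Recognition of extraspecial 2-groups by elements. -/
theorem extraspecial_of_elements' {Y : Type*} [Group Y] [Finite Y] (h2 : IsPGroup 2 Y) (y₀ : Y)
    (hy₀ : y₀ ≠ 1) (hcomm : ∀ a b : Y, a * b * a⁻¹ * b⁻¹ = 1 ∨ a * b * a⁻¹ * b⁻¹ = y₀)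
    (hsq : ∀ a : Y, a ^ 2 = 1 ∨ a ^ 2 = y₀)
    (hcen : ∀ a : Y, (∀ b : Y, a * b = b * a) → a = 1 ∨ a = y₀)
    (hcen' : ∀ b : Y, y₀ * b = b * y₀)
    (hnon : ∃ a b : Y, a * b * a⁻¹ * b⁻¹ ≠ 1) : Cfsg.IsExtraspecial 2 Y := by
  have : Fact (Nat.Prime 2) := ⟨Nat.prime_two⟩
  have hcenmem : ∀ x : Y, x ∈ Subgroup.center Y ↔ x = 1 ∨ x = y₀ := by
    intro x
    constructor
    · intro h
      apply hcen x
      intro y
      exact (Subgroup.mem_center_iff.mp h y).symm
    · rintro (rfl | rfl)
      · exact Subgroup.one_mem _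
      · exact Subgroup.mem_center_iff.2 fun b => (hcen' b).symm
  have hcomm_le : commutator Y ≤ Subgroup.center Y := by
    rw [commutator_def, Subgroup.commutator_le]
    rintro x - y -
    rw [hcenmem]
    exact hcomm x y
  have hle_comm : Subgroup.center Y ≤ commutator Y := by
    intro x hx
    obtain ⟨a, b, hab⟩ := hnon
    rcases (hcenmem x).mp hx with rfl | rfl
    · exact Subgroup.one_mem _
    · have h3 : x = ⁅a, b⁆ := by
        rcases hcomm a b with h4 | h4
        · exact absurd h4 hab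
        · exact h4.symm
      rw [h3, commutator_def]
      exact Subgroup.commutator_mem_commutator (Subgroup.mem_top _) (Subgroup.mem_top _)
  have hfr_le : frattini Y ≤ Subgroup.center Y := by
    apply Cfsg.Agent.Lib.Frat.frattini_le_of_commutator_pow (p := 2) _ hcomm_le
    intro x
    rw [hcenmem]
    exact hsq x
  have hle_fr : Subgroup.center Y ≤ frattini Y :=
    hle_comm.trans (Cfsg.Agent.Lib.Frat.commutator_le_frattini h2)
  refine ⟨⟨h2, le_antisymm hfr_le hle_fr, le_antisymm hcomm_le hle_comm⟩, ?_⟩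
  refine (Nat.card_eq_two_iff' (1 : Subgroup.center Y)).mpr ⟨⟨y₀, (hcenmem _).2 (Or.inr rfl)⟩, ?_, ?_⟩
  · intro h
    apply hy₀
    have := congrArg (fun x : Subgroup.center Y => (x : Y)) h
    simpa using this
  · rintro ⟨x, hx⟩ hne
    rcases (hcenmem x).mp hx with h4 | h4
    · exfalso
      apply hne
      apply Subtype.ext
      simpa using h4
    · apply Subtype.ext
      simpa using h4

/-- `β` as a bilinear map. -/
def βL (n : ℕ) : V n →ₗ[ZMod 2] V n →ₗ[ZMod 2] ZMod 2 :=
  LinearMap.mk₂ (ZMod 2) β β_add_left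
    (fun c u v => by simp [β, smul_dotProduct])
    β_add_right
    (fun c u v => by simp [β, dotProduct_smul])

theorem βL_apply (u v : V n) : βL n u v = β u v := rfl

/-- The correcting function exists. -/
theorem exists_f (g : V n →ₗ[ZMod 2] V n) (hq : ∀ u, q₀ (g u) = q₀ u) :
    ∃ f : V n → ZMod 2, ∀ u v, f (u + v) = f u + f v + (β u v + β (g u) (g v)) := by
  obtain ⟨f, hf⟩ := exists_quadratic (βL n + (βL n).compl₁₂ g g) (by
    intro u
    simp only [LinearMap.add_apply, LinearMap.compl₁₂_apply, βL_apply]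
    have h1 : β u u = q₀ u := rfl
    have h2 : β (g u) (g u) = q₀ (g u) := rfl
    rw [h1, h2, hq]
    exact CharTwo.add_self_eq_zero _)
  refine ⟨f, fun u v => ?_⟩
  simpa only [LinearMap.add_apply, LinearMap.compl₁₂_apply, βL_apply] using hf u v

/-- The relation: `T` induces `g` on the module up to signs. -/
def Induces (g : V n → V n) (T : Matrix (L n) (L n) ℝ) : Prop :=
  ∀ u, ∃ s : ZMod 2, T * π u * Tᵀ = sgn s • π (g u)

theorem exists_induces (g : V n →ₗ[ZMod 2] V n) (hq : ∀ u, q₀ (g u) = q₀ u) :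
    ∃ T : Matrix (L n) (L n) ℝ, Tᵀ * T = 1 ∧ Induces g T := by
  obtain ⟨f, hf⟩ := exists_f g hq
  obtain ⟨T, hT, h⟩ := exists_orthogonal g g.map_add hq f hf
  exact ⟨T, hT, fun u => ⟨f u, h u⟩⟩

theorem induces_one : Induces (n := n) id 1 := fun u => ⟨0, by simp⟩

theorem induces_mul {g g' : V n → V n} {T T' : Matrix (L n) (L n) ℝ} (h : Induces g T)
    (h' : Induces g' T') : Induces (g ∘ g') (T * T') := by
  intro u
  obtain ⟨s', hs'⟩ := h' u
  obtain ⟨s, hs⟩ := h (g' u)
  refine ⟨s' + s, ?_⟩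
  have : T * T' * π u * (T * T')ᵀ = T * (T' * π u * T'ᵀ) * Tᵀ := by
    rw [Matrix.transpose_mul]
    simp only [Matrix.mul_assoc]
  rw [this, hs', Matrix.mul_smul, Matrix.smul_mul, hs, smul_smul, ← sgn_add]
  rfl

theorem induces_inv {g g' : V n → V n} {T : Matrix (L n) (L n) ℝ} (h : Induces g T)
    (hT : Tᵀ * T = 1) (hg : ∀ u, g (g' u) = u) : Induces g' Tᵀ := by
  intro u
  obtain ⟨s, hs⟩ := h (g' u)
  rw [hg] at hs
  refine ⟨s, ?_⟩
  rw [Matrix.transpose_transpose]
  have h1 : π u = sgn s • (T * π (g' u) * Tᵀ) := by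
    rw [hs, smul_smul, sgn_mul_self, one_smul]
  rw [h1, Matrix.mul_smul, Matrix.smul_mul]
  congr 1
  have : Tᵀ * (T * π (g' u) * Tᵀ) * T = (Tᵀ * T) * π (g' u) * (Tᵀ * T) := by
    simp only [Matrix.mul_assoc]
  rw [this, hT, Matrix.one_mul, Matrix.mul_one]

/-- Signed matrices of the module determine the vector. -/
theorem π_inj {s s' : ZMod 2} {u v : V n} (h : sgn s • π u = sgn s' • π v) : u = v := by
  by_contra hne
  have h1 : π u = sgn (s + s') • π v := by
    have h0 : π u = sgn s • (sgn s • π u) := by rw [smul_smul, sgn_mul_self, one_smul]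
    rw [h0, h, smul_smul, sgn_add]
  have h2 : π v * π u = sgn (s + s') • (sgn (q₀ v) • (1 : Matrix (L n) (L n) ℝ)) := by
    rw [h1, Matrix.mul_smul, π_mul_self]
  rw [π_mul] at h2
  have hne' : v + u ≠ 0 := by
    intro h0
    apply hne
    have h3 := V_add_self u
    have : v = v + u + u := by rw [add_assoc, h3, add_zero]
    rw [this, h0, zero_add]
  have h3 := congrArg Matrix.trace h2
  rw [Matrix.trace_smul, trace_π _ hne', Matrix.trace_smul, Matrix.trace_smul, Matrix.trace_one,
    smul_zero] at h3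
  have h4 : (Fintype.card (L n) : ℝ) ≠ 0 := by
    exact_mod_cast Fintype.card_ne_zero
  simp only [smul_eq_mul] at h3
  have h5 : sgn (s + s') * (sgn (q₀ v) * (Fintype.card (L n) : ℝ)) ≠ 0 :=
    mul_ne_zero (sgn_ne_zero _) (mul_ne_zero (sgn_ne_zero _) h4)
  exact h5 h3.symm

theorem one_ne_neg_one : (1 : Matrix (L n) (L n) ℝ) ≠ sgn 1 • 1 := by
  intro h
  have := congrFun (congrFun h 0) 0
  simp at this
  norm_num at this

theorem sgn_smul_one_inj {s s' : ZMod 2} (h : sgn s • (1 : Matrix (L n) (L n) ℝ) = sgn s' • 1) :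
    s = s' := by
  have := congrFun (congrFun h 0) 0
  simp only [Matrix.smul_apply, Matrix.one_apply_eq, smul_eq_mul, mul_one] at this
  exact sgn_inj this

theorem signed_mul (s s' : ZMod 2) (u v : V n) :
    (sgn s • π u) * (sgn s' • π v) = sgn (s + s' + β u v) • π (u + v) := by
  rw [Matrix.smul_mul, Matrix.mul_smul, π_mul, smul_smul, smul_smul, sgn_add, sgn_add]

theorem signed_transpose (s : ZMod 2) (u : V n) :
    (sgn s • π u)ᵀ = sgn (s + q₀ u) • π u := by
  rw [Matrix.transpose_smul, π_transpose, smul_smul, sgn_add]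

theorem signed_orth (s : ZMod 2) (u : V n) : (sgn s • π u)ᵀ * (sgn s • π u) = 1 := by
  rw [Matrix.transpose_smul, Matrix.smul_mul, Matrix.mul_smul, π_transpose_mul_self, smul_smul,
    sgn_mul_self, one_smul]

theorem signed_conj (s : ZMod 2) (u v : V n) :
    (sgn s • π u) * π v * (sgn s • π u)ᵀ = sgn (pol u v) • π v := by
  rw [Matrix.transpose_smul, Matrix.smul_mul, Matrix.mul_smul, Matrix.smul_mul, smul_smul, sgn_mul_self,
    one_smul, π_conj]

theorem signed_comm (s s' : ZMod 2) (u v : V n) :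
    (sgn s • π u) * (sgn s' • π v) * (sgn s • π u)ᵀ * (sgn s' • π v)ᵀ
      = sgn (pol u v) • (1 : Matrix (L n) (L n) ℝ) := by
  have h : (sgn s • π u) * (sgn s' • π v) * (sgn s • π u)ᵀ
      = sgn s' • ((sgn s • π u) * π v * (sgn s • π u)ᵀ) := by
    rw [Matrix.mul_smul, Matrix.smul_mul]
  rw [h, signed_conj, Matrix.transpose_smul, Matrix.smul_mul, Matrix.mul_smul, smul_smul, Matrix.smul_mul,
    smul_smul, π_mul_transpose_self]
  congr 1
  rw [sgn_mul_self, one_mul]

theorem additive_eq_dot (t : L n → ZMod 2) (ht : ∀ x y, t (x + y) = t x + t y) :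
    ∃ w : L n, ∀ x, t x = x ⬝ᵥ w := by
  let tA : L n →+ ZMod 2 := AddMonoidHom.mk' t ht
  let tL : L n →ₗ[ZMod 2] ZMod 2 := tA.toZModLinearMap 2
  refine ⟨fun i => tL (fun j => if i = j then 1 else 0), fun x => ?_⟩
  have := LinearMap.pi_apply_eq_sum_univ tL x
  have h0 : tL x = t x := rfl
  rw [← h0]
  simpa [dotProduct] using this

theorem character_eq_pol (s : V n → ZMod 2) (hs : ∀ u v, s (u + v) = s u + s v) :
    ∃ w : V n, ∀ u, s u = pol w u := by
  obtain ⟨w₂, h₂⟩ := additive_eq_dot (fun x : L n => s (x, 0)) (fun x y => by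
    rw [← hs]; simp)
  obtain ⟨w₁, h₁⟩ := additive_eq_dot (fun y : L n => s (0, y)) (fun x y => by
    rw [← hs]; simp)
  refine ⟨(w₁, w₂), fun u => ?_⟩
  have h3 : s u = s (u.1, 0) + s (0, u.2) := by
    rw [← hs]; simp
  rw [h3, h₂, h₁]
  simp only [pol, β, dotProduct_comm u.2 w₁]
  ring

theorem pol_nondeg (u : V n) (h : ∀ v, pol u v = 0) : u = 0 := by
  have h1 : u.1 = 0 := by
    funext i
    have := h (0, Pi.single i 1)
    simpa [pol, β, dotProduct_single_one] using this
  have h2 : u.2 = 0 := by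
    funext i
    have := h (Pi.single i 1, 0)
    simpa [pol, β, single_one_dotProduct] using this
  exact Prod.ext h1 h2

theorem signed_inj {a b : ZMod 2} {u : V n} (h : sgn a • π u = sgn b • π u) : a = b := by
  have h1 := congrArg (fun X => X * (π u)ᵀ) h
  simp only [Matrix.smul_mul, π_mul_transpose_self] at h1
  exact sgn_smul_one_inj h1

/-- An orthogonal matrix that preserves each `π u` up to sign is a signed `π w`. -/
theorem eq_signed_of_induces_id {T : Matrix (L n) (L n) ℝ} (hT : Tᵀ * T = 1) (h : Induces id T) :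
    ∃ (s : ZMod 2) (w : V n), T = sgn s • π w := by
  have hT' : T * Tᵀ = 1 := mul_eq_one_comm.1 hT
  choose s hs using h
  simp only [id] at hs
  have hadd : ∀ u v, s (u + v) = s u + s v := by
    intro u v
    have h1 : T * (π u * π v) * Tᵀ = (T * π u * Tᵀ) * (T * π v * Tᵀ) := by
      have : (T * π u * Tᵀ) * (T * π v * Tᵀ) = T * π u * (Tᵀ * T) * π v * Tᵀ := by
        simp only [Matrix.mul_assoc]
      rw [this, hT, Matrix.mul_one]
      simp only [Matrix.mul_assoc]
    rw [hs, hs, π_mul, Matrix.mul_smul, Matrix.smul_mul, hs, Matrix.smul_mul, Matrix.mul_smul,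
      π_mul, smul_smul, smul_smul, smul_smul, ← sgn_add, ← sgn_add, ← sgn_add] at h1
    have h2 := signed_inj h1
    linear_combination h2
  obtain ⟨w, hw⟩ := character_eq_pol s hadd
  have hcomm : ∀ u, ((π w)ᵀ * T) * π u = π u * ((π w)ᵀ * T) := by
    intro u
    have h1 : T * π u = (T * π u * Tᵀ) * T := by
      rw [Matrix.mul_assoc (T * π u), hT, Matrix.mul_one]
    have h2 : (π w)ᵀ * π u = sgn (pol w u) • (π u * (π w)ᵀ) := by
      rw [π_transpose, Matrix.smul_mul, Matrix.mul_smul, π_comm w u, smul_smul, smul_smul, mul_comm]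
    rw [Matrix.mul_assoc, h1, hs, hw, Matrix.smul_mul, Matrix.mul_smul, ← Matrix.mul_assoc, h2,
      Matrix.smul_mul, smul_smul, sgn_mul_self, one_smul, Matrix.mul_assoc]
  obtain ⟨c, hc⟩ := commutant_scalar _ hcomm
  have hT2 : T = c • π w := by
    have h1 : T = π w * ((π w)ᵀ * T) := by
      rw [← Matrix.mul_assoc, π_mul_transpose_self, Matrix.one_mul]
    rw [h1, hc, Matrix.mul_smul, Matrix.mul_one]
  have hc2 : c * c = 1 := by
    rw [hT2, Matrix.transpose_smul, Matrix.smul_mul, Matrix.mul_smul, π_transpose_mul_self, smul_smul] at hT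
    have := congrFun (congrFun hT 0) 0
    simpa using this
  rcases mul_self_eq_one_iff.1 hc2 with rfl | rfl
  · exact ⟨0, w, by rw [hT2, sgn_zero]⟩
  · exact ⟨1, w, by rw [hT2, sgn_one]⟩

section Group

variable {K : Type*} [Group K] (G : K →* Module.End (ZMod 2) (V n))

/-- The orthogonal group of the model. -/
abbrev OO (n : ℕ) := ↥(Matrix.orthogonalGroup (L n) ℝ)

theorem OO_inv_coe (T : OO n) : ((T⁻¹ : OO n) : Matrix (L n) (L n) ℝ) = (T : Matrix (L n) (L n) ℝ)ᵀ := by
  rw [Matrix.UnitaryGroup.inv_val, Matrix.star_eq_conjTranspose, Matrix.conjTranspose_eq_transpose_of_trivial]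

theorem OO_tr_mul (T : OO n) : (T : Matrix (L n) (L n) ℝ)ᵀ * (T : Matrix (L n) (L n) ℝ) = 1 :=
  (Matrix.mem_orthogonalGroup_iff' (L n) ℝ).1 T.2

theorem OO_mul_tr (T : OO n) : (T : Matrix (L n) (L n) ℝ) * (T : Matrix (L n) (L n) ℝ)ᵀ = 1 :=
  (Matrix.mem_orthogonalGroup_iff (L n) ℝ).1 T.2

/-- The group `R` of the construction. -/
def RR : Subgroup (OO n) where
  carrier := {T | ∃ k : K, Induces (G k) (T : Matrix (L n) (L n) ℝ)}
  one_mem' := ⟨1, by
    have : (G 1 : V n → V n) = id := by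
      rw [map_one]; rfl
    rw [this]
    exact induces_one⟩
  mul_mem' := by
    rintro a b ⟨k, hk⟩ ⟨k', hk'⟩
    refine ⟨k * k', ?_⟩
    have : (G (k * k') : V n → V n) = (G k : V n → V n) ∘ (G k' : V n → V n) := by
      rw [map_mul]; rfl
    rw [this]
    exact induces_mul hk hk'
  inv_mem' := by
    rintro a ⟨k, hk⟩
    refine ⟨k⁻¹, ?_⟩
    rw [OO_inv_coe]
    refine induces_inv hk (OO_tr_mul a) ?_
    intro u
    have : G k (G k⁻¹ u) = (G k * G k⁻¹) u := rfl
    rw [this, ← map_mul, mul_inv_cancel, map_one]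
    rfl

variable {G}

theorem RR_unique (hG : Function.Injective G) {k k' : K} {T : Matrix (L n) (L n) ℝ}
    (h : Induces (G k) T) (h' : Induces (G k') T) : k = k' := by
  apply hG
  apply LinearMap.ext
  intro u
  obtain ⟨s, hs⟩ := h u
  obtain ⟨s', hs'⟩ := h' u
  exact π_inj (hs.symm.trans hs')

variable (G)

/-- The map to `K`. -/
noncomputable def phi0 (T : RR (n := n) G) : K := T.2.choose

theorem phi0_spec (T : RR (n := n) G) : Induces (G (phi0 G T)) ((T : OO n) : Matrix (L n) (L n) ℝ) :=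
  T.2.choose_spec

variable {G}

/-- The map to `K` as a homomorphism. -/
noncomputable def phi (hG : Function.Injective G) : RR (n := n) G →* K :=
  MonoidHom.mk' (phi0 G) (by
    intro a b
    refine RR_unique hG (phi0_spec G (a * b)) ?_
    have : (G (phi0 G a * phi0 G b) : V n → V n) = (G (phi0 G a) : V n → V n) ∘ (G (phi0 G b) : V n → V n) := by
      rw [map_mul]; rfl
    rw [this]
    exact induces_mul (phi0_spec G a) (phi0_spec G b))

theorem phi_spec (hG : Function.Injective G) (T : RR (n := n) G) :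
    Induces (G (phi hG T)) ((T : OO n) : Matrix (L n) (L n) ℝ) :=
  phi0_spec G T

theorem phi_eq (hG : Function.Injective G) (T : RR (n := n) G) {k : K}
    (h : Induces (G k) ((T : OO n) : Matrix (L n) (L n) ℝ)) : phi hG T = k :=
  RR_unique hG (phi_spec hG T) h

theorem phi_surjective (hG : Function.Injective G) (hq : ∀ k u, q₀ (G k u) = q₀ u) :
    Function.Surjective (phi (n := n) hG) := by
  intro k
  obtain ⟨T, hT, hI⟩ := exists_induces (G k) (hq k)
  exact ⟨⟨⟨T, (Matrix.mem_orthogonalGroup_iff' (L n) ℝ).2 hT⟩, ⟨k, hI⟩⟩, phi_eq hG _ hI⟩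

theorem signed_induces_one (s : ZMod 2) (w : V n) : Induces (G 1) (sgn s • π w) := by
  intro u
  refine ⟨pol w u, ?_⟩
  rw [signed_conj, map_one]
  rfl

/-- The signed matrix as an orthogonal matrix. -/
noncomputable def sOO (s : ZMod 2) (w : V n) : OO n :=
  ⟨sgn s • π w, (Matrix.mem_orthogonalGroup_iff' (L n) ℝ).2 (signed_orth s w)⟩

/-- The signed matrix as an element of the kernel. -/
noncomputable def sK (hG : Function.Injective G) (s : ZMod 2) (w : V n) : (phi (n := n) hG).ker :=
  ⟨⟨sOO s w, ⟨1, signed_induces_one s w⟩⟩, by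
    rw [MonoidHom.mem_ker]
    exact phi_eq hG _ (signed_induces_one s w)⟩

theorem sK_coe (hG : Function.Injective G) (s : ZMod 2) (w : V n) :
    (((sK hG s w : (phi (n := n) hG).ker) : RR (n := n) G) : OO n).1 = sgn s • π w := rfl

theorem exists_sK (hG : Function.Injective G) (a : (phi (n := n) hG).ker) :
    ∃ (s : ZMod 2) (w : V n), a = sK hG s w := by
  have h1 := phi_spec hG a.1
  rw [MonoidHom.mem_ker.1 a.2, map_one] at h1
  obtain ⟨s, w, h⟩ := eq_signed_of_induces_id (OO_tr_mul a.1.1) h1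
  exact ⟨s, w, Subtype.ext (Subtype.ext (Subtype.ext h))⟩

theorem sK_inj_vec (hG : Function.Injective G) {s s' : ZMod 2} {u v : V n}
    (h : sK hG s u = sK hG s' v) : u = v := by
  have h1 := congrArg (fun a : (phi (n := n) hG).ker => ((a : RR (n := n) G) : OO n).1) h
  simp only [sK_coe] at h1
  exact π_inj h1

theorem sK_inj_sgn (hG : Function.Injective G) {s s' : ZMod 2} {u : V n}
    (h : sK hG s u = sK hG s' u) : s = s' := by
  have h1 := congrArg (fun a : (phi (n := n) hG).ker => ((a : RR (n := n) G) : OO n).1) h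
  simp only [sK_coe] at h1
  exact signed_inj h1

theorem sK_mul (hG : Function.Injective G) (s s' : ZMod 2) (u v : V n) :
    sK hG s u * sK hG s' v = sK hG (s + s' + β u v) (u + v) := by
  apply Subtype.ext; apply Subtype.ext; apply Subtype.ext
  exact signed_mul s s' u v

theorem sK_one (hG : Function.Injective G) : (1 : (phi (n := n) hG).ker) = sK hG 0 0 := by
  apply Subtype.ext; apply Subtype.ext; apply Subtype.ext
  rw [sK_coe, sgn_zero, one_smul, π_zero]
  rfl

theorem sK_inv (hG : Function.Injective G) (s : ZMod 2) (u : V n) :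
    (sK hG s u)⁻¹ = sK hG (s + q₀ u) u := by
  apply Subtype.ext; apply Subtype.ext; apply Subtype.ext
  rw [sK_coe, ← signed_transpose, ← sK_coe hG]
  exact OO_inv_coe _

/-- The vector of an element of the kernel. -/
noncomputable def uOf (hG : Function.Injective G) (a : (phi (n := n) hG).ker) : V n :=
  (exists_sK hG a).choose_spec.choose

theorem uOf_spec (hG : Function.Injective G) (a : (phi (n := n) hG).ker) :
    a = sK hG (exists_sK hG a).choose (uOf hG a) :=
  (exists_sK hG a).choose_spec.choose_spec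

theorem uOf_sK (hG : Function.Injective G) (s : ZMod 2) (u : V n) : uOf hG (sK hG s u) = u :=
  (sK_inj_vec hG (uOf_spec hG (sK hG s u))).symm

/-- The homomorphism to the module. -/
noncomputable def chi (hG : Function.Injective G) : (phi (n := n) hG).ker →* Multiplicative (V n) :=
  MonoidHom.mk' (fun a => Multiplicative.ofAdd (uOf hG a)) (by
    intro a b
    obtain ⟨s, u, rfl⟩ := exists_sK hG a
    obtain ⟨s', v, rfl⟩ := exists_sK hG b
    rw [sK_mul, uOf_sK, uOf_sK, uOf_sK]
    rfl)

theorem chi_sK (hG : Function.Injective G) (s : ZMod 2) (u : V n) :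
    chi hG (sK hG s u) = Multiplicative.ofAdd u := by
  show Multiplicative.ofAdd (uOf hG (sK hG s u)) = _
  rw [uOf_sK]

theorem central_iff (hG : Function.Injective G) (a : (phi (n := n) hG).ker) :
    a ∈ Subgroup.center (phi (n := n) hG).ker ↔ uOf hG a = 0 := by
  obtain ⟨s, u, rfl⟩ := exists_sK hG a
  rw [uOf_sK]
  constructor
  · intro h
    apply pol_nondeg
    intro v
    have h1 := Subgroup.mem_center_iff.1 h (sK hG 0 v)
    rw [sK_mul, sK_mul] at h1
    have h2 := congrArg (fun a : (phi (n := n) hG).ker => ((a : RR (n := n) G) : OO n).1) h1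
    simp only [sK_coe] at h2
    rw [add_comm v u] at h2
    have h3 := signed_inj h2
    have h5 : β u v + β u v = 0 := CharTwo.add_self_eq_zero _
    simp only [pol]
    linear_combination h3 + h5
  · rintro rfl
    apply Subgroup.mem_center_iff.2
    intro b
    obtain ⟨s', v, rfl⟩ := exists_sK hG b
    rw [sK_mul, sK_mul, add_comm v 0]
    simp only [β, Prod.snd_zero, Prod.fst_zero, dotProduct_zero, zero_dotProduct, add_zero]
    rw [add_comm]

theorem ker_card (hG : Function.Injective G) :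
    Nat.card (phi (n := n) hG).ker = 2 ^ (2 * n + 1) := by
  have hb : Function.Bijective (fun x : ZMod 2 × V n => sK hG x.1 x.2) := by
    constructor
    · rintro ⟨s, u⟩ ⟨s', v⟩ h
      simp only at h
      have h1 := sK_inj_vec hG h
      subst h1
      rw [sK_inj_sgn hG h]
    · intro a
      obtain ⟨s, u, rfl⟩ := exists_sK hG a
      exact ⟨(s, u), rfl⟩
  rw [← Nat.card_eq_of_bijective _ hb]
  rw [Nat.card_prod, Nat.card_prod, Nat.card_eq_fintype_card, Nat.card_eq_fintype_card, Fintype.card_fun,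
    ZMod.card, Fintype.card_fin]
  ring

theorem sK_sq (hG : Function.Injective G) (s : ZMod 2) (u : V n) :
    sK hG s u * sK hG s u = sK hG (q₀ u) 0 := by
  rw [sK_mul, V_add_self]
  congr 1
  have : s + s = 0 := CharTwo.add_self_eq_zero _
  simp only [q₀]
  linear_combination this

theorem sK_comm (hG : Function.Injective G) (s s' : ZMod 2) (u v : V n) :
    sK hG s u * sK hG s' v * (sK hG s u)⁻¹ * (sK hG s' v)⁻¹ = sK hG (pol u v) 0 := by
  apply Subtype.ext; apply Subtype.ext; apply Subtype.ext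
  rw [sK_inv, sK_inv, sK_coe, π_zero, ← signed_comm s s' u v, signed_transpose, signed_transpose, ← sK_coe hG,
    ← sK_coe hG s' v, ← sK_coe hG (s + q₀ u) u, ← sK_coe hG (s' + q₀ v) v]
  rfl

theorem sK_sq_eq_one_iff (hG : Function.Injective G) (s : ZMod 2) (u : V n) :
    sK hG s u * sK hG s u = 1 ↔ q₀ u = 0 := by
  rw [sK_sq, sK_one]
  constructor
  · intro h
    exact sK_inj_sgn hG h
  · intro h
    rw [h]

end Group

/-- The model extension. -/
theorem model {K : Type*} [Group K] [Finite K] (hn : 1 ≤ n) (G : K →* Module.End (ZMod 2) (V n))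
    (hG : Function.Injective G) (hq : ∀ k u, q₀ (G k u) = q₀ u) :
    ∃ (R : Type) (_ : Group R) (_ : Finite R) (Q : Subgroup R) (hN : Q.Normal) (e : R ⧸ Q ≃* K)
      (χ : ↥Q →* Multiplicative (V n)), Cfsg.IsExtraspecial 2 ↥Q ∧ Nat.card ↥Q = 2 ^ (2 * n + 1) ∧
      Function.Surjective χ ∧ χ.ker = Subgroup.center ↥Q ∧
      (∀ (r : R) (a : ↥Q), χ ⟨r * a * r⁻¹, hN.conj_mem (a : R) a.2 r⟩ =
         Multiplicative.ofAdd (G (e (r : R ⧸ Q)) (Multiplicative.toAdd (χ a)))) ∧
      ∀ a : ↥Q, a * a = 1 ↔ q₀ (Multiplicative.toAdd (χ a)) = 0 := by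
  classical
  have hQfin : Finite (phi hG).ker := Nat.finite_of_card_ne_zero (by rw [ker_card]; positivity)
  let e := QuotientGroup.quotientKerEquivOfSurjective (phi hG) (phi_surjective hG hq)
  have hRfin : Finite (RR (n := n) G) := by
    have h1 : Finite (RR (n := n) G ⧸ (phi hG).ker) := Finite.of_equiv _ e.symm.toEquiv
    exact Finite.of_equiv _ (Subgroup.groupEquivQuotientProdSubgroup (s := (phi hG).ker)).symm
  have h2 : ∀ a : ZMod 2, a = 0 ∨ a = 1 := by decide
  refine ⟨RR (n := n) G, inferInstance, hRfin, (phi hG).ker, inferInstance, e, chi hG, ?_, ker_card hG, ?_, ?_, ?_, ?_⟩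
  · refine extraspecial_of_elements' (IsPGroup.of_card (ker_card hG)) (sK hG 1 0) ?_ ?_ ?_ ?_ ?_ ?_
    · rw [sK_one]
      intro h
      exact one_ne_zero (sK_inj_sgn hG h)
    · intro a b
      obtain ⟨s, u, rfl⟩ := exists_sK hG a
      obtain ⟨s', v, rfl⟩ := exists_sK hG b
      rw [sK_comm]
      rcases h2 (pol u v) with h | h
      · left
        rw [h, sK_one]
      · right
        rw [h]
    · intro a
      obtain ⟨s, u, rfl⟩ := exists_sK hG a
      rw [pow_two, sK_sq]
      rcases h2 (q₀ u) with h | h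
      · left
        rw [h, sK_one]
      · right
        rw [h]
    · intro a ha
      have h3 : a ∈ Subgroup.center (phi (n := n) hG).ker :=
        Subgroup.mem_center_iff.2 fun b => (ha b).symm
      rw [central_iff] at h3
      obtain ⟨s, u, rfl⟩ := exists_sK hG a
      rw [uOf_sK] at h3
      subst h3
      rcases h2 s with h | h
      · left
        rw [h, sK_one]
      · right
        rw [h]
    · intro b
      have h3 : sK hG 1 0 ∈ Subgroup.center (phi (n := n) hG).ker := by
        rw [central_iff, uOf_sK]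
      exact (Subgroup.mem_center_iff.1 h3 b).symm
    · obtain ⟨i⟩ : Nonempty (Fin n) := ⟨⟨0, hn⟩⟩
      refine ⟨sK hG 0 (Pi.single i 1, 0), sK hG 0 (0, Pi.single i 1), ?_⟩
      rw [sK_comm, sK_one]
      intro h
      have h3 := sK_inj_sgn hG h
      simp [pol, β] at h3
  · intro x
    exact ⟨sK hG 0 (Multiplicative.toAdd x), chi_sK hG _ _⟩
  · ext a
    rw [central_iff, MonoidHom.mem_ker]
    obtain ⟨s, u, rfl⟩ := exists_sK hG a
    rw [chi_sK, uOf_sK]
    exact ofAdd_eq_one
  · intro r a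
    obtain ⟨s, u, rfl⟩ := exists_sK hG a
    have he : e (r : RR (n := n) G ⧸ (phi hG).ker) = phi hG r := rfl
    rw [he, chi_sK]
    obtain ⟨s', hs'⟩ := phi_spec hG r u
    have h3 : (⟨r * (sK hG s u : RR (n := n) G) * r⁻¹, (inferInstance : (phi (n := n) hG).ker.Normal).conj_mem _ (sK hG s u).2 r⟩ :
        (phi (n := n) hG).ker) = sK hG (s + s') (G (phi hG r) u) := by
      apply Subtype.ext; apply Subtype.ext; apply Subtype.ext
      have h4 : ((r⁻¹ : RR (n := n) G) : OO n).1 = ((r : RR (n := n) G) : OO n).1ᵀ := OO_inv_coe _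
      show ((r : RR (n := n) G) : OO n).1 * (sgn s • π u) * ((r⁻¹ : RR (n := n) G) : OO n).1 = _
      rw [h4, sK_coe, Matrix.mul_smul, Matrix.smul_mul, hs', smul_smul, sgn_add]
    rw [h3, chi_sK]
    rfl
  · intro a
    obtain ⟨s, u, rfl⟩ := exists_sK hG a
    rw [chi_sK, sK_sq_eq_one_iff]
    rfl

/-- Every nondegenerate quadratic form with a totally singular subspace of half the dimension is
the hyperbolic form on the model. -/
theorem exists_hyperbolic {U : Type*} [AddCommGroup U] [Module (ZMod 2) U] [Module.Finite (ZMod 2) U]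
    (n : ℕ) (hn : Module.finrank (ZMod 2) U = 2 * n) (q : QuadraticForm (ZMod 2) U)
    (hnd : (QuadraticMap.polarBilin q).Nondegenerate)
    (W : Submodule (ZMod 2) U) (hW : Module.finrank (ZMod 2) ↥W = n) (hW0 : ∀ w ∈ W, q w = 0) :
    ∃ ψ : U ≃ₗ[ZMod 2] V n, ∀ u, q u = q₀ (ψ u) := by
  classical
  obtain ⟨B, hB⟩ : ∃ B : U →ₗ[ZMod 2] U →ₗ[ZMod 2] ZMod 2, B = QuadraticMap.polarBilin q := ⟨_, rfl⟩
  have hBq : ∀ x y, q (x + y) = q x + q y + B x y := by
    intro x y
    rw [hB, QuadraticMap.polarBilin_apply_apply, QuadraticMap.polar]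
    ring
  have hBW : ∀ w ∈ W, ∀ w' ∈ W, B w w' = 0 := by
    intro w hw w' hw'
    have := hBq w w'
    rw [hW0 _ (W.add_mem hw hw'), hW0 _ hw, hW0 _ hw'] at this
    simpa using this.symm
  have hBsymm : ∀ x y, B x y = B y x := by
    intro x y
    have h1 := hBq x y
    have h2 := hBq y x
    rw [add_comm y x, h1] at h2
    have h3 : q y + q x = q x + q y := add_comm _ _
    linear_combination h2
  obtain ⟨W₀, hc⟩ := Submodule.exists_isCompl W
  have hW₀ : Module.finrank (ZMod 2) ↥W₀ = n := by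
    have := Submodule.finrank_add_eq_of_isCompl hc
    omega
  obtain ⟨ee, hee⟩ : ∃ ee : (↥W × ↥W₀) ≃ₗ[ZMod 2] U, ∀ x : ↥W × ↥W₀, ee x = (x.1 : U) + (x.2 : U) :=
    ⟨Submodule.prodEquivOfIsCompl W W₀ hc, fun x => Submodule.coe_prodEquivOfIsCompl' W W₀ hc x⟩
  obtain ⟨p₁, hp₁⟩ : ∃ p₁ : U →ₗ[ZMod 2] ↥W, ∀ u, p₁ u = (ee.symm u).1 :=
    ⟨LinearMap.fst _ _ _ ∘ₗ ee.symm.toLinearMap, fun _ => rfl⟩
  obtain ⟨p₂, hp₂⟩ : ∃ p₂ : U →ₗ[ZMod 2] ↥W₀, ∀ u, p₂ u = (ee.symm u).2 :=
    ⟨LinearMap.snd _ _ _ ∘ₗ ee.symm.toLinearMap, fun _ => rfl⟩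
  have hsum : ∀ u, u = (p₁ u : U) + (p₂ u : U) := by
    intro u
    rw [hp₁, hp₂, ← hee, LinearEquiv.apply_symm_apply]
  -- the pairing
  obtain ⟨Φ, hΦ⟩ : ∃ Φ : ↥W →ₗ[ZMod 2] Module.Dual (ZMod 2) ↥W₀, ∀ w y, Φ w y = B (w : U) (y : U) :=
    ⟨B.domRestrict₁₂ W W₀, fun _ _ => rfl⟩
  have hΦinj : Function.Injective Φ := by
    rw [injective_iff_map_eq_zero]
    intro w hw
    apply Subtype.ext
    have h0 : (QuadraticMap.polarBilin q).SeparatingLeft := hnd.1
    rw [← hB] at h0
    apply h0
    intro u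
    rw [hsum u, map_add, hBW _ w.2 _ (p₁ u).2, zero_add, ← hΦ, hw]
    rfl
  have hdim : Module.finrank (ZMod 2) ↥W = Module.finrank (ZMod 2) (Module.Dual (ZMod 2) ↥W₀) := by
    rw [Subspace.dual_finrank_eq, hW, hW₀]
  obtain ⟨Φe, hΦe⟩ : ∃ Φe : ↥W ≃ₗ[ZMod 2] Module.Dual (ZMod 2) ↥W₀, ∀ w, Φe w = Φ w :=
    ⟨Φ.linearEquivOfInjective hΦinj hdim, fun w => LinearMap.linearEquivOfInjective_apply _ _ _⟩
  have hΦs : ∀ y : ↥W₀, (∀ w : ↥W, B (w : U) (y : U) = 0) → y = 0 := by
    intro y hy
    apply (Module.forall_dual_apply_eq_zero_iff (ZMod 2) y).1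
    intro φ
    have h1 : φ = Φ (Φe.symm φ) := by
      rw [← hΦe, LinearEquiv.apply_symm_apply]
    rw [h1, hΦ]
    exact hy _
  -- the bilinear form
  obtain ⟨C, hC⟩ := LinearMap.BilinMap.toQuadraticMap_surjective (q.comp W₀.subtype)
  have hCq : ∀ x : ↥W₀, C x x = q (x : U) := by
    intro x
    have := congrArg (fun Q => Q x) hC
    simpa using this
  obtain ⟨f, hf⟩ : ∃ f : ↥W₀ →ₗ[ZMod 2] ↥W, ∀ x y : ↥W₀, B (f x : U) (y : U) = C x y :=
    ⟨Φe.symm.toLinearMap ∘ₗ C, fun x y => by
      rw [← hΦ, ← hΦe]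
      simp⟩
  obtain ⟨a, ha⟩ : ∃ a : U →ₗ[ZMod 2] ↥W, ∀ u, a u = p₁ u + f (p₂ u) := ⟨p₁ + f ∘ₗ p₂, fun _ => rfl⟩
  have hqa : ∀ u, q u = B (a u : U) u := by
    intro u
    have h1 : q u = q (p₂ u : U) + B (p₁ u : U) (p₂ u : U) := by
      conv_lhs => rw [hsum u]
      rw [hBq, hW0 _ (p₁ u).2, zero_add]
    have h2 : B (a u : U) u = B (p₁ u : U) (p₂ u : U) + q (p₂ u : U) := by
      have h3 : ∀ (w : ↥W) (y : ↥W₀), B ((w + f y : ↥W) : U) ((w : U) + (y : U)) = B (w : U) (y : U) + q (y : U) := by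
        intro w y
        simp only [Submodule.coe_add, map_add, LinearMap.add_apply]
        rw [hBW _ w.2 _ w.2, hBW _ (f y).2 _ w.2, hf, hCq]
        ring
      have h4 := h3 (p₁ u) (p₂ u)
      rw [← hsum u, ← ha] at h4
      exact h4
    rw [h1, h2]
    ring
  -- the basis
  let bW : Module.Basis (Fin n) (ZMod 2) ↥W := Module.finBasisOfFinrankEq (ZMod 2) ↥W hW
  obtain ⟨ψ₀, hψ₀⟩ : ∃ ψ₀ : U →ₗ[ZMod 2] V n, ∀ u, ψ₀ u = (bW.equivFun (a u), fun i => B (bW i : U) u) :=
    ⟨LinearMap.prod (bW.equivFun.toLinearMap ∘ₗ a) (LinearMap.pi fun i => B (bW i : U)), fun _ => rfl⟩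
  have hq₀ : ∀ u, q u = q₀ (ψ₀ u) := by
    intro u
    rw [hqa, hψ₀]
    simp only [q₀, β, dotProduct]
    have h1 : (a u : U) = ∑ i, bW.equivFun (a u) i • (bW i : U) := by
      conv_lhs => rw [← bW.sum_equivFun (a u)]
      rw [Submodule.coe_sum]
      rfl
    conv_lhs => rw [h1]
    rw [map_sum, LinearMap.sum_apply]
    refine Finset.sum_congr rfl fun i _ => ?_
    rw [map_smul, LinearMap.smul_apply, smul_eq_mul]
  have hinj : Function.Injective ψ₀ := by
    rw [injective_iff_map_eq_zero]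
    intro u hu
    rw [hψ₀, Prod.mk_eq_zero] at hu
    have h1 : a u = 0 := by
      simpa using hu.1
    have h2 : ∀ i, B (bW i : U) u = 0 := fun i => congrFun hu.2 i
    have h3 : ∀ w : ↥W, B (w : U) u = 0 := by
      intro w
      have h4 : (w : U) = ∑ i, bW.equivFun w i • (bW i : U) := by
        conv_lhs => rw [← bW.sum_equivFun w]
        rw [Submodule.coe_sum]
        rfl
      rw [h4, map_sum, LinearMap.sum_apply]
      apply Finset.sum_eq_zero
      intro i _
      rw [map_smul, LinearMap.smul_apply, h2, smul_zero]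
    have h5 : p₂ u = 0 := by
      apply hΦs
      intro w
      have h6 := h3 w
      rw [hsum u, map_add, hBW _ w.2 _ (p₁ u).2, zero_add] at h6
      exact h6
    have h7 : p₁ u = 0 := by
      have := ha u
      rw [h1, h5, map_zero, add_zero] at this
      exact this.symm
    rw [hsum u, h5, h7]
    simp
  have hdim2 : Module.finrank (ZMod 2) U = Module.finrank (ZMod 2) (V n) := by
    rw [hn, Module.finrank_prod, Module.finrank_fin_fun]
    ring
  exact ⟨ψ₀.linearEquivOfInjective hinj hdim2, fun u => by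
    rw [LinearMap.linearEquivOfInjective_apply]
    exact hq₀ u⟩

end Cfsg.Agent.Lib.HeisReal
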