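import Cfsg.Agent.Lib.SU5TwoA
import Cfsg.Agent.Lib.H97Sl

/-!
Matrix calculus of the standard hermitian form over the field with four elements, in any dimension.
-/

set_option autoImplicit false
set_option linter.unusedSectionVars false

namespace Cfsg.Agent.HermN

open Matrix Cfsg Cfsg.Geo
open Cfsg.Agent.SU5Two (frob2 frob2_apply E4 emb emb_sq emb_injective emb_surjective)

variable {n : ℕ} {F : Type*} [Field F]

/-- Coordinatewise squaring of matrices. -/
def sg (h2 : (2 : F) = 0) : Matrix (Fin n) (Fin n) F →+* Matrix (Fin n) (Fin n) F := (frob2 h2).mapMatrix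

theorem sg_apply (h2 : (2 : F) = 0) (A : Matrix (Fin n) (Fin n) F) (i j : Fin n) : sg h2 A i j = (A i j) ^ 2 := rfl

theorem sg_transpose (h2 : (2 : F) = 0) (A : Matrix (Fin n) (Fin n) F) : sg h2 Aᵀ = (sg h2 A)ᵀ := rfl

/-- Coordinatewise squaring of vectors. -/
def sgv (v : Fin n → F) : Fin n → F := fun i => (v i) ^ 2

theorem sgv_mulVec (h2 : (2 : F) = 0) (A : Matrix (Fin n) (Fin n) F) (v : Fin n → F) :
    sgv (A *ᵥ v) = sg h2 A *ᵥ sgv v := by
  ext i
  exact RingHom.map_mulVec (frob2 h2) A v i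

theorem herm_eq (u v : Fin n → F) : hermForm n F 2 u v = u ⬝ᵥ sgv v := rfl

theorem herm_mulVec (h2 : (2 : F) = 0) (A B : Matrix (Fin n) (Fin n) F) (u v : Fin n → F) :
    hermForm n F 2 (A *ᵥ u) (B *ᵥ v) = u ⬝ᵥ ((Aᵀ * sg h2 B) *ᵥ sgv v) := by
  rw [herm_eq, sgv_mulVec h2, ← Matrix.mulVec_mulVec, Matrix.dotProduct_mulVec u Aᵀ, Matrix.vecMul_transpose]

/-- The adjoint. -/
def adj (h2 : (2 : F) = 0) (A : Matrix (Fin n) (Fin n) F) : Matrix (Fin n) (Fin n) F := (sg h2 A)ᵀ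

theorem sg_sg [Fintype F] (hF : Fintype.card F = 4) (h2 : (2 : F) = 0) (A : Matrix (Fin n) (Fin n) F) :
    sg h2 (sg h2 A) = A := by
  ext i j
  rw [sg_apply, sg_apply, ← pow_mul]
  have := FiniteField.pow_card (A i j)
  rwa [hF] at this

theorem adj_adj [Fintype F] (hF : Fintype.card F = 4) (h2 : (2 : F) = 0) (A : Matrix (Fin n) (Fin n) F) :
    adj h2 (adj h2 A) = A := by
  unfold adj
  rw [sg_transpose, sg_sg hF, Matrix.transpose_transpose]

theorem herm_adj [Fintype F] (hF : Fintype.card F = 4) (h2 : (2 : F) = 0) (A : Matrix (Fin n) (Fin n) F)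
    (u v : Fin n → F) : hermForm n F 2 (A *ᵥ u) v = hermForm n F 2 u (adj h2 A *ᵥ v) := by
  have h1 := herm_mulVec h2 A 1 u v
  have h2' := herm_mulVec h2 1 (adj h2 A) u v
  rw [Matrix.one_mulVec] at h1 h2'
  rw [h1, h2']
  congr 2
  unfold adj
  rw [sg_transpose, sg_sg hF, map_one, Matrix.transpose_one, Matrix.one_mul, Matrix.mul_one]

theorem herm_symm [Fintype F] (hF : Fintype.card F = 4) (u v : Fin n → F) :
    hermForm n F 2 u v = (hermForm n F 2 v u) ^ 2 := by
  have h2 := Cfsg.Agent.SU5Two.two_eq_zero_of_card hF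
  show _ = ((∑ i, v i * (u i) ^ 2) ^ 2)
  rw [← frob2_apply h2, map_sum]
  refine Finset.sum_congr rfl fun i _ => ?_
  rw [frob2_apply, mul_pow, ← pow_mul]
  have := FiniteField.pow_card (u i)
  rw [hF] at this
  rw [this, mul_comm]

theorem herm_add_left (u u' v : Fin n → F) :
    hermForm n F 2 (u + u') v = hermForm n F 2 u v + hermForm n F 2 u' v := by
  simp only [herm_eq, add_dotProduct]

theorem herm_smul_left (c : F) (u v : Fin n → F) :
    hermForm n F 2 (c • u) v = c * hermForm n F 2 u v := by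
  simp only [herm_eq, smul_dotProduct, smul_eq_mul]

theorem herm_add_right (h2 : (2 : F) = 0) (u v v' : Fin n → F) :
    hermForm n F 2 u (v + v') = hermForm n F 2 u v + hermForm n F 2 u v' := by
  simp only [herm_eq, ← dotProduct_add]
  congr 1
  ext i
  simp only [sgv, Pi.add_apply]
  linear_combination v i * v' i * h2

theorem herm_smul_right (c : F) (u v : Fin n → F) :
    hermForm n F 2 u (c • v) = c ^ 2 * hermForm n F 2 u v := by
  simp only [herm_eq]
  have : sgv (c • v) = c ^ 2 • sgv v := by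
    ext i
    simp [sgv, mul_pow]
  rw [this, dotProduct_smul, smul_eq_mul]

theorem herm_nondeg {v : Fin n → F} (h : ∀ u, hermForm n F 2 u v = 0) : v = 0 := by
  ext i
  have := h (Pi.single i 1)
  rw [herm_eq, single_one_dotProduct] at this
  simpa [sgv] using this

theorem herm_right_inj [Fintype F] (hF : Fintype.card F = 4) {x y : Fin n → F}
    (h : ∀ u, hermForm n F 2 u x = hermForm n F 2 u y) : x = y := by
  ext i
  have h1 := h (Pi.single i 1)
  rw [herm_eq, herm_eq, single_one_dotProduct, single_one_dotProduct] at h1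
  have hx := FiniteField.pow_card (x i)
  have hy := FiniteField.pow_card (y i)
  rw [hF] at hx hy
  have h4 : x i ^ 2 = y i ^ 2 := h1
  calc x i = (x i ^ 2) ^ 2 := by rw [← pow_mul]; exact hx.symm
    _ = (y i ^ 2) ^ 2 := by rw [h4]
    _ = y i := by rw [← pow_mul]; exact hy

theorem adj_mul (h2 : (2 : F) = 0) (A B : Matrix (Fin n) (Fin n) F) : adj h2 (A * B) = adj h2 B * adj h2 A := by
  unfold adj
  rw [map_mul, Matrix.transpose_mul]

theorem adj_add (h2 : (2 : F) = 0) (A B : Matrix (Fin n) (Fin n) F) : adj h2 (A + B) = adj h2 A + adj h2 B := by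
  unfold adj
  rw [map_add, Matrix.transpose_add]

theorem adj_one (h2 : (2 : F) = 0) : adj h2 (1 : Matrix (Fin n) (Fin n) F) = 1 := by
  unfold adj
  rw [map_one, Matrix.transpose_one]

theorem adj_zero (h2 : (2 : F) = 0) : adj h2 (0 : Matrix (Fin n) (Fin n) F) = 0 := by
  unfold adj
  rw [map_zero, Matrix.transpose_zero]

theorem adj_smul_one (h2 : (2 : F) = 0) (c : F) : adj h2 (c • (1 : Matrix (Fin n) (Fin n) F)) = c ^ 2 • 1 := by
  ext i j
  simp only [adj, Matrix.transpose_apply, sg_apply, Matrix.smul_apply, Matrix.one_apply, smul_eq_mul]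
  by_cases h : i = j
  · subst h; simp
  · have h' : j ≠ i := Ne.symm h
    simp [h, h']

/-- Unitarity of a conjugate: general Gram matrix. -/
theorem conj_unitary {h2 : (2 : F) = 0} {Q Qi G M : Matrix (Fin n) (Fin n) F}
    (h1 : Q * Qi = 1) (hG : Qᵀ * sg h2 Q = G) (hM : Mᵀ * G * sg h2 M = G) :
    (Q * M * Qi)ᵀ * sg h2 (Q * M * Qi) = 1 := by
  simp only [map_mul, Matrix.transpose_mul]
  calc Qiᵀ * (Mᵀ * Qᵀ) * (sg h2 Q * sg h2 M * sg h2 Qi)
      = Qiᵀ * (Mᵀ * (Qᵀ * sg h2 Q) * sg h2 M) * sg h2 Qi := by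
        simp only [Matrix.mul_assoc]
    _ = Qiᵀ * (Qᵀ * sg h2 Q) * sg h2 Qi := by
        rw [hG, hM]
    _ = (Q * Qi)ᵀ * sg h2 (Q * Qi) := by
        rw [map_mul, Matrix.transpose_mul]
        simp only [Matrix.mul_assoc]
    _ = 1 := by
        rw [h1, map_one, Matrix.transpose_one, Matrix.mul_one]

/-- An involution conjugated into the group. -/
def mkGL {Q Qi M : Matrix (Fin n) (Fin n) F} (h3 : Qi * Q = 1) (h1 : Q * Qi = 1) (hM : M * M = 1) : GL (Fin n) F where
  val := Q * M * Qi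
  inv := Q * M * Qi
  val_inv := by
    calc Q * M * Qi * (Q * M * Qi) = Q * (M * (Qi * Q) * M) * Qi := by
          simp only [Matrix.mul_assoc]
      _ = 1 := by rw [h3, Matrix.mul_one, hM, Matrix.mul_one, h1]
  inv_val := by
    calc Q * M * Qi * (Q * M * Qi) = Q * (M * (Qi * Q) * M) * Qi := by
          simp only [Matrix.mul_assoc]
      _ = 1 := by rw [h3, Matrix.mul_one, hM, Matrix.mul_one, h1]

theorem mkGL_mem {h2 : (2 : F) = 0} {Q Qi G M : Matrix (Fin n) (Fin n) F} (h3 : Qi * Q = 1) (h1 : Q * Qi = 1)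
    (hG : Qᵀ * sg h2 Q = G) (hM : M * M = 1) (hMf : Mᵀ * G * sg h2 M = G) :
    mkGL h3 h1 hM ∈ GU n F 2 ⊓ specialLinear (Fin n) F := by
  refine ⟨?_, ?_⟩
  · intro u v
    show hermForm n F 2 ((Q * M * Qi) *ᵥ u) ((Q * M * Qi) *ᵥ v) = _
    rw [herm_mulVec h2, conj_unitary h1 hG hMf, Matrix.one_mulVec]
    rfl
  · show mkGL h3 h1 hM ∈ specialLinear (Fin n) F
    rw [Cfsg.Agent.H97.Asch.mem_sl_iff]
    have h5 : ((mkGL h3 h1 hM : GL (Fin n) F) : Matrix (Fin n) (Fin n) F).det *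
        ((mkGL h3 h1 hM : GL (Fin n) F) : Matrix (Fin n) (Fin n) F).det = 1 := by
      rw [← Matrix.det_mul]
      have : ((mkGL h3 h1 hM : GL (Fin n) F) : Matrix (Fin n) (Fin n) F) *
          ((mkGL h3 h1 hM : GL (Fin n) F) : Matrix (Fin n) (Fin n) F) = 1 :=
        (mkGL h3 h1 hM).val_inv
      rw [this, Matrix.det_one]
    generalize ((mkGL h3 h1 hM : GL (Fin n) F) : Matrix (Fin n) (Fin n) F).det = d at h5
    have h6 : (d - 1) * (d - 1) = 0 := by linear_combination h5 + (1 - d) * h2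
    have h7 := mul_self_eq_zero.mp h6
    exact sub_eq_zero.mp h7

theorem mkGL_mulVec {Q Qi M : Matrix (Fin n) (Fin n) F} (h3 : Qi * Q = 1) (h1 : Q * Qi = 1) (hM : M * M = 1) (x : Fin n → F) :
    ((mkGL h3 h1 hM : GL (Fin n) F) : Matrix (Fin n) (Fin n) F) *ᵥ (Q *ᵥ x) = Q *ᵥ (M *ᵥ x) := by
  show (Q * M * Qi) *ᵥ (Q *ᵥ x) = _
  rw [Matrix.mulVec_mulVec, Matrix.mulVec_mulVec, Matrix.mul_assoc, h3, Matrix.mul_one]

/-- The stabiliser of a set of vectors in a subgroup. -/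
def stabSub (X : Set (Fin n → F)) (G : Subgroup (GL (Fin n) F)) : Subgroup (GL (Fin n) F) where
  carrier := {g | g ∈ G ∧ ∀ x ∈ X, ((g : Matrix (Fin n) (Fin n) F) *ᵥ x ∈ X ∧ ((g⁻¹ : GL (Fin n) F) : Matrix (Fin n) (Fin n) F) *ᵥ x ∈ X)}
  mul_mem' := by
    rintro a b ⟨ha, ha'⟩ ⟨hb, hb'⟩
    refine ⟨G.mul_mem ha hb, fun x hx => ⟨?_, ?_⟩⟩
    · rw [Units.val_mul, ← Matrix.mulVec_mulVec]
      exact (ha' _ (hb' x hx).1).1
    · rw [_root_.mul_inv_rev, Units.val_mul, ← Matrix.mulVec_mulVec]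
      exact (hb' _ (ha' x hx).2).2
  one_mem' := by
    refine ⟨G.one_mem, fun x hx => ?_⟩
    simpa using hx
  inv_mem' := by
    rintro a ⟨ha, ha'⟩
    refine ⟨G.inv_mem ha, fun x hx => ⟨(ha' x hx).2, ?_⟩⟩
    rw [inv_inv]
    exact (ha' x hx).1

/-- Transfer of a vector along a ring homomorphism. -/
def tv (ι : E4 →+* F) (x : Fin n → E4) : Fin n → F := fun i => ι (x i)

theorem tv_mulVec (ι : E4 →+* F) (M : Matrix (Fin n) (Fin n) E4) (x : Fin n → E4) :
    M.map ι *ᵥ tv ι x = tv ι (M *ᵥ x) := by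
  ext i
  exact (RingHom.map_mulVec ι M x i).symm

theorem tv_bij {ι : E4 →+* F} (h2 : Function.Surjective ι) (x : Fin n → F) :
    ∃ x₀, x = tv ι x₀ := by
  choose g hg using h2
  exact ⟨fun i => g (x i), by ext i; simp [tv, hg]⟩

end Cfsg.Agent.HermN
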