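import Mathlib
import Cfsg.Prelude.Def_SporadicCombinatorics

/-!
Concrete model of the field with four elements and of the hexacode, with a transfer to an
arbitrary field `F` with four elements and a root `ω` of `X^2+X+1`.
-/

set_option autoImplicit false

namespace Cfsg.Agent.Lib.Hexacode

/-- Concrete field with four elements: `0,1,ω,ω²` are `0,1,2,3`. -/
abbrev K := Fin 4

/-- addition table -/
def addK (a b : K) : K :=
  (![![0,1,2,3],![1,0,3,2],![2,3,0,1],![3,2,1,0]] : Fin 4 → Fin 4 → Fin 4) a b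

/-- multiplication table -/
def mulK (a b : K) : K :=
  (![![0,0,0,0],![0,1,2,3],![0,2,3,1],![0,3,1,2]] : Fin 4 → Fin 4 → Fin 4) a b

/-- the three generators of the hexacode over `K` -/
def v1 : Fin 6 → K := ![2,3,3,2,3,2]
/-- second generator -/
def v2 : Fin 6 → K := ![3,2,2,3,3,2]
/-- third generator -/
def v3 : Fin 6 → K := ![3,2,3,2,2,3]

/-- the word with coefficients `t` -/
def wK (t : K × K × K) : Fin 6 → K := fun i =>
  addK (addK (mulK t.1 (v1 i)) (mulK t.2.1 (v2 i))) (mulK t.2.2 (v3 i))

theorem wK_injective : Function.Injective wK := by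
  unfold Function.Injective
  decide +kernel

section
variable {F : Type*} [Field F] [Fintype F] (hF : Fintype.card F = 4) (ω : F)
  (hω : ω ^ 2 + ω + 1 = 0)

include hF in
theorem two_eq_zero' : (2 : F) = 0 := by
  have h : (Fintype.card F) • (1 : F) = 0 := card_nsmul_eq_zero
  rw [hF] at h
  have h2 : (2 : F) * 2 = 0 := by
    have : (4 : ℕ) • (1 : F) = 2 * 2 := by norm_num
    rw [← this]; exact h
  simpa using h2

include hF in
theorem add_self' (a : F) : a + a = 0 := by
  have : a + a = 2 * a := by ring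
  rw [this, two_eq_zero' hF, zero_mul]

include hF in
theorem neg_eq' (a : F) : -a = a := by
  have := add_self' hF a
  exact neg_eq_of_add_eq_zero_left this

/-- the embedding `K → F` -/
def phi (ω : F) : K → F := ![0, 1, ω, ω + 1]

include hF hω in
theorem omega_sq : ω ^ 2 = ω + 1 := by
  have h := add_self' hF (ω + 1)
  have : ω ^ 2 = ω ^ 2 + ω + 1 + (ω + 1) := by
    rw [add_assoc (ω^2), add_assoc (ω^2), h, add_zero]
  rw [this, hω, zero_add]

include hω in
omit [Fintype F] in
theorem omega_ne_zero : ω ≠ 0 := by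
  rintro rfl
  simp at hω

include hF hω in
theorem omega_ne_one : ω ≠ 1 := by
  rintro rfl
  have := add_self' hF (1 : F)
  have h2 : (1:F)^2 + 1 + 1 = 1 := by
    rw [add_assoc, this]; simp
  rw [h2] at hω
  exact one_ne_zero hω

include hF hω in
theorem phi_injective : Function.Injective (phi ω) := by
  have h0 := omega_ne_zero ω hω
  have h1 := omega_ne_one hF ω hω
  have h01 : (0 : F) ≠ 1 := zero_ne_one
  have hadd := add_self' hF (1 : F)
  have hadd' := add_self' hF ω
  have h2 : ω + 1 ≠ 0 := fun h => h1 (by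
    have : ω = ω + (1 + 1) := by rw [hadd, add_zero]
    rw [this, ← add_assoc, h, zero_add])
  have h3 : ω + 1 ≠ 1 := fun h => h0 (by simpa using h)
  have h4 : ω + 1 ≠ ω := fun h => h01 (by simpa using h.symm)
  intro a b hab
  fin_cases a <;> fin_cases b <;> simp [phi] at hab ⊢ <;>
    first
    | exact absurd hab h0
    | exact absurd hab.symm h0
    | exact absurd hab h1
    | exact absurd hab.symm h1
    | exact absurd hab h2
    | exact absurd hab.symm h2
    | exact absurd hab h3
    | exact absurd hab.symm h3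
    | exact absurd hab h4
    | exact absurd hab.symm h4
    | skip

include hF hω in
theorem phi_bijective : Function.Bijective (phi ω) := by
  rw [Fintype.bijective_iff_injective_and_card]
  exact ⟨phi_injective hF ω hω, by simp [hF]⟩

include hF in
theorem phi_add (a b : K) : phi ω (addK a b) = phi ω a + phi ω b := by
  have h1 := add_self' hF (1 : F)
  have h2 := add_self' hF ω
  have h3 : ω + 1 + (ω + 1) = 0 := add_self' hF (ω + 1)
  have h4 : ω + (ω + 1) = 1 := by rw [← add_assoc, h2, zero_add]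
  have h5 : ω + 1 + ω = 1 := by rw [add_comm, h4]
  have h6 : ω + 1 + 1 = ω := by rw [add_assoc, h1, add_zero]
  have h7 : 1 + (ω + 1) = ω := by rw [add_comm, h6]
  have h8 : 1 + ω = ω + 1 := add_comm _ _
  fin_cases a <;> fin_cases b <;> simp [phi, addK, h1, h2, h3, h4, h5, h6, h7, h8]

include hF hω in
theorem phi_mul (a b : K) : phi ω (mulK a b) = phi ω a * phi ω b := by
  have hsq := omega_sq hF ω hω
  have h1 := add_self' hF (1 : F)
  have h2 := add_self' hF ω
  have h3 : ω * ω = ω + 1 := by rw [← hsq]; ring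
  have h4 : ω * (ω + 1) = 1 := by
    rw [mul_add, h3, mul_one, add_assoc, add_comm 1 ω, ← add_assoc, h2, zero_add]
  have h5 : (ω + 1) * ω = 1 := by rw [mul_comm, h4]
  have h6 : (ω + 1) * (ω + 1) = ω := by
    have : (ω + 1) * (ω + 1) = ω * ω + (ω + ω) + 1 := by ring
    rw [this, h3, h2, add_zero, add_assoc, h1, add_zero]
  fin_cases a <;> fin_cases b <;> simp [phi, mulK, h3, h4, h5, h6]

/-- word over `F` attached to `t` -/
def wF (ω : F) (t : K × K × K) : Fin 6 → F := fun i => phi ω (wK t i)

include hF hω in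
theorem wF_injective : Function.Injective (wF ω) := by
  intro s t h
  apply wK_injective
  funext i
  exact phi_injective hF ω hω (congrFun h i)

include hF hω in
theorem mem_hexacode_iff (x : Fin 6 → F) :
    x ∈ Cfsg.hexacode F ω ↔ ∃ t, x = wF ω t := by
  have hbij := phi_bijective hF ω hω
  have ea : ∀ i : Fin 6, ![ω, ω ^ 2, ω ^ 2, ω, ω ^ 2, ω] i = phi ω (v1 i) := by
    rw [omega_sq hF ω hω]
    intro i; fin_cases i <;> simp [phi, v1]
  have eb : ∀ i : Fin 6, ![ω ^ 2, ω, ω, ω ^ 2, ω ^ 2, ω] i = phi ω (v2 i) := by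
    rw [omega_sq hF ω hω]
    intro i; fin_cases i <;> simp [phi, v2]
  have ec : ∀ i : Fin 6, ![ω ^ 2, ω, ω ^ 2, ω, ω, ω ^ 2] i = phi ω (v3 i) := by
    rw [omega_sq hF ω hω]
    intro i; fin_cases i <;> simp [phi, v3]
  have key : ∀ (a b c : K) (i : Fin 6), wF ω (a, b, c) i =
      phi ω a * phi ω (v1 i) + phi ω b * phi ω (v2 i) + phi ω c * phi ω (v3 i) := by
    intro a b c i
    simp only [wF, wK, phi_add hF, phi_mul hF ω hω]
  unfold Cfsg.hexacode
  rw [Submodule.mem_span_triple]
  constructor
  · rintro ⟨a, b, c, rfl⟩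
    obtain ⟨a', rfl⟩ := hbij.2 a
    obtain ⟨b', rfl⟩ := hbij.2 b
    obtain ⟨c', rfl⟩ := hbij.2 c
    refine ⟨(a', b', c'), ?_⟩
    funext i
    rw [key]
    simp only [Pi.add_apply, Pi.smul_apply, smul_eq_mul, ea, eb, ec]
  · rintro ⟨⟨a, b, c⟩, rfl⟩
    refine ⟨phi ω a, phi ω b, phi ω c, ?_⟩
    funext i
    rw [key]
    simp only [Pi.add_apply, Pi.smul_apply, smul_eq_mul, ea, eb, ec]

include hF hω in
theorem phi_eq_zero_iff (a : K) : phi ω a = 0 ↔ a = 0 := by
  constructor
  · intro h
    apply phi_injective hF ω hω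
    rw [h]; rfl
  · rintro rfl; rfl

include hF hω in
theorem support_wF [DecidableEq F] (t : K × K × K) :
    (Finset.univ.filter fun i => wF ω t i ≠ 0) = Finset.univ.filter fun i => wK t i ≠ 0 := by
  ext i
  simp only [Finset.mem_filter, Finset.mem_univ, true_and, wF, ne_eq, phi_eq_zero_iff hF ω hω]

end
end Cfsg.Agent.Lib.Hexacode
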