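import Mathlib

/-!
# Counting homomorphisms from a finite abelian group to a group of prime order
-/

set_option autoImplicit false

namespace Cfsg.Agent.Lib.HomCount

/-- There are at most `|V|` homomorphisms from a finite abelian group `V` to a group of prime order. -/
theorem card_hom_le {V Z : Type*} [CommGroup V] [Finite V] [Group Z] {p : ℕ} [Fact p.Prime]
    (hZ : Nat.card Z = p) : Nat.card (V →* Z) ≤ Nat.card V := by
  classical
  haveI : NeZero p := ⟨(Fact.out : p.Prime).ne_zero⟩
  have hroots : Nat.card (rootsOfUnity p ℂ) = p := Complex.card_rootsOfUnity p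
  let e : Z ≃* rootsOfUnity p ℂ := mulEquivOfPrimeCardEq hZ hroots
  obtain ⟨d⟩ := CommGroup.monoidHom_mulEquiv_of_hasEnoughRootsOfUnity V ℂ
  let j : (V →* Z) → (V →* ℂˣ) := fun f => (Subgroup.subtype _).comp (e.toMonoidHom.comp f)
  have hj : Function.Injective j := by
    intro f g hfg
    ext v
    have h1 := DFunLike.congr_fun hfg v
    have h2 : (e (f v)) = e (g v) := Subtype.ext h1
    exact e.injective h2
  haveI : Finite (V →* ℂˣ) := Finite.of_equiv _ d.symm.toEquiv
  calc Nat.card (V →* Z) ≤ Nat.card (V →* ℂˣ) := Nat.card_le_card_of_injective j hj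
    _ = Nat.card V := Nat.card_congr d.toEquiv

/-- The abelianisation form. -/
theorem card_hom_le_index {E Z : Type*} [Group E] [Finite E] [CommGroup Z] {p : ℕ} [Fact p.Prime]
    (hZ : Nat.card Z = p) : Nat.card (E →* Z) ≤ (commutator E).index := by
  classical
  have h1 := card_hom_le (V := Abelianization E) (Z := Z) hZ
  have h2 : Nat.card (E →* Z) = Nat.card (Abelianization E →* Z) :=
    Nat.card_congr (Abelianization.lift (G := E) (A := Z))
  rw [h2]
  exact h1

end Cfsg.Agent.Lib.HomCount
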