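import Mathlib

/-!
Tools for homogeneous actions (transitivity on subsets of a given size).
-/

set_option autoImplicit false

namespace Cfsg.Agent.Lib.Homog

open MulAction
open scoped Pointwise

variable {G α : Type*} [Group G] [MulAction G α] [DecidableEq α]

/-- Transitivity on `k`-subsets, unfolded. -/
theorem exists_image_eq {k : ℕ} (h : IsPretransitive G (Set.powersetCard α k))
    {s t : Finset α} (hs : s.card = k) (ht : t.card = k) :
    ∃ g : G, s.image (fun x => g • x) = t := by
  obtain ⟨g, hg⟩ := h.exists_smul_eq ⟨s, hs⟩ ⟨t, ht⟩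
  refine ⟨g, ?_⟩
  have := congrArg (fun z : Set.powersetCard α k => (z : Finset α)) hg
  simpa [Set.powersetCard.coe_smul, Finset.smul_finset_def] using this

/-- Transitivity on `k`-subsets from the unfolded form. -/
theorem of_exists_image_eq {k : ℕ}
    (h : ∀ s t : Finset α, s.card = k → t.card = k → ∃ g : G, s.image (fun x => g • x) = t) :
    IsPretransitive G (Set.powersetCard α k) := by
  refine ⟨fun s t => ?_⟩
  obtain ⟨g, hg⟩ := h s t s.2 t.2
  refine ⟨g, Subtype.ext ?_⟩
  simpa [Set.powersetCard.coe_smul, Finset.smul_finset_def] using hg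

end Cfsg.Agent.Lib.Homog
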