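import Cfsg.Agent.Lib.Hs22Tab

set_option autoImplicit false
set_option maxRecDepth 100000
set_option Elab.async false

namespace Cfsg.Agent.Lib.Hs22Chk

open Cfsg.Agent.Lib.ChainCert Cfsg.Agent.Lib.ProgBits Cfsg.Agent.Lib.ProgChain Cfsg.Agent.Lib.PermChain Cfsg.Agent.Lib.TcBits
open Cfsg.Agent.Lib.Hs22Tab

theorem let_6_0 : allR (guard Plet (nat_lit 58)) 6 (nat_lit 0) = true := by decide +kernel
theorem let_all : ∀ i, i < (nat_lit 58) → Plet i = true := of_guard (k := 6) (by norm_num) let_6_0
theorem der0_5_0 : allR (guard Pder0 (nat_lit 22)) 5 (nat_lit 0) = true := by decide +kernel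
theorem der0_all : ∀ i, i < (nat_lit 22) → Pder0 i = true := of_guard (k := 5) (by norm_num) der0_5_0
theorem cert0_5_0 : allR (guard Pcert0 (nat_lit 24)) 5 (nat_lit 0) = true := by decide +kernel
theorem cert0_all : ∀ i, i < (nat_lit 24) → Pcert0 i = true := of_guard (k := 5) (by norm_num) cert0_5_0
theorem fix0_5_0 : allR (guard Pfix0 (nat_lit 24)) 5 (nat_lit 0) = true := by decide +kernel
theorem fix0_all : ∀ i, i < (nat_lit 24) → Pfix0 i = true := of_guard (k := 5) (by norm_num) fix0_5_0
theorem img0_7_0 : allR (guard Pimg0 (nat_lit 100)) 7 (nat_lit 0) = true := by decide +kernel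
theorem img0_all : ∀ i, i < (nat_lit 100) → Pimg0 i = true := of_guard (k := 7) (by norm_num) img0_7_0
theorem der1_5_0 : allR (guard Pder1 (nat_lit 32)) 5 (nat_lit 0) = true := by decide +kernel
theorem der1_all : ∀ i, i < (nat_lit 32) → Pder1 i = true := of_guard (k := 5) (by norm_num) der1_5_0
theorem cert1_6_0 : allR (guard Pcert1 (nat_lit 34)) 6 (nat_lit 0) = true := by decide +kernel
theorem cert1_all : ∀ i, i < (nat_lit 34) → Pcert1 i = true := of_guard (k := 6) (by norm_num) cert1_6_0
theorem fix1_6_0 : allR (guard Pfix1 (nat_lit 34)) 6 (nat_lit 0) = true := by decide +kernel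
theorem fix1_all : ∀ i, i < (nat_lit 34) → Pfix1 i = true := of_guard (k := 6) (by norm_num) fix1_6_0
theorem img1_7_0 : allR (guard Pimg1 (nat_lit 100)) 7 (nat_lit 0) = true := by decide +kernel
theorem img1_all : ∀ i, i < (nat_lit 100) → Pimg1 i = true := of_guard (k := 7) (by norm_num) img1_7_0
theorem der2_6_0 : allR (guard Pder2 (nat_lit 42)) 6 (nat_lit 0) = true := by decide +kernel
theorem der2_all : ∀ i, i < (nat_lit 42) → Pder2 i = true := of_guard (k := 6) (by norm_num) der2_6_0
theorem cert2_6_0 : allR (guard Pcert2 (nat_lit 44)) 6 (nat_lit 0) = true := by decide +kernel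
theorem cert2_all : ∀ i, i < (nat_lit 44) → Pcert2 i = true := of_guard (k := 6) (by norm_num) cert2_6_0
theorem fix2_6_0 : allR (guard Pfix2 (nat_lit 44)) 6 (nat_lit 0) = true := by decide +kernel
theorem fix2_all : ∀ i, i < (nat_lit 44) → Pfix2 i = true := of_guard (k := 6) (by norm_num) fix2_6_0
theorem img2_7_0 : allR (guard Pimg2 (nat_lit 100)) 7 (nat_lit 0) = true := by decide +kernel
theorem img2_all : ∀ i, i < (nat_lit 100) → Pimg2 i = true := of_guard (k := 7) (by norm_num) img2_7_0
theorem der3_6_0 : allR (guard Pder3 (nat_lit 44)) 6 (nat_lit 0) = true := by decide +kernel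
theorem der3_all : ∀ i, i < (nat_lit 44) → Pder3 i = true := of_guard (k := 6) (by norm_num) der3_6_0
theorem cert3_6_0 : allR (guard Pcert3 (nat_lit 47)) 6 (nat_lit 0) = true := by decide +kernel
theorem cert3_all : ∀ i, i < (nat_lit 47) → Pcert3 i = true := of_guard (k := 6) (by norm_num) cert3_6_0
theorem fix3_6_0 : allR (guard Pfix3 (nat_lit 47)) 6 (nat_lit 0) = true := by decide +kernel
theorem fix3_all : ∀ i, i < (nat_lit 47) → Pfix3 i = true := of_guard (k := 6) (by norm_num) fix3_6_0
theorem img3_7_0 : allR (guard Pimg3 (nat_lit 100)) 7 (nat_lit 0) = true := by decide +kernel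
theorem img3_all : ∀ i, i < (nat_lit 100) → Pimg3 i = true := of_guard (k := 7) (by norm_num) img3_7_0
theorem der4_6_0 : allR (guard Pder4 (nat_lit 47)) 6 (nat_lit 0) = true := by decide +kernel
theorem der4_all : ∀ i, i < (nat_lit 47) → Pder4 i = true := of_guard (k := 6) (by norm_num) der4_6_0
theorem cert4_6_0 : allR (guard Pcert4 (nat_lit 50)) 6 (nat_lit 0) = true := by decide +kernel
theorem cert4_all : ∀ i, i < (nat_lit 50) → Pcert4 i = true := of_guard (k := 6) (by norm_num) cert4_6_0
theorem fix4_6_0 : allR (guard Pfix4 (nat_lit 50)) 6 (nat_lit 0) = true := by decide +kernel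
theorem fix4_all : ∀ i, i < (nat_lit 50) → Pfix4 i = true := of_guard (k := 6) (by norm_num) fix4_6_0
theorem img4_7_0 : allR (guard Pimg4 (nat_lit 100)) 7 (nat_lit 0) = true := by decide +kernel
theorem img4_all : ∀ i, i < (nat_lit 100) → Pimg4 i = true := of_guard (k := 7) (by norm_num) img4_7_0
theorem der5_6_0 : allR (guard Pder5 (nat_lit 50)) 6 (nat_lit 0) = true := by decide +kernel
theorem der5_all : ∀ i, i < (nat_lit 50) → Pder5 i = true := of_guard (k := 6) (by norm_num) der5_6_0
theorem cert5_6_0 : allR (guard Pcert5 (nat_lit 54)) 6 (nat_lit 0) = true := by decide +kernel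
theorem cert5_all : ∀ i, i < (nat_lit 54) → Pcert5 i = true := of_guard (k := 6) (by norm_num) cert5_6_0
theorem fix5_6_0 : allR (guard Pfix5 (nat_lit 54)) 6 (nat_lit 0) = true := by decide +kernel
theorem fix5_all : ∀ i, i < (nat_lit 54) → Pfix5 i = true := of_guard (k := 6) (by norm_num) fix5_6_0
theorem img5_7_0 : allR (guard Pimg5 (nat_lit 100)) 7 (nat_lit 0) = true := by decide +kernel
theorem img5_all : ∀ i, i < (nat_lit 100) → Pimg5 i = true := of_guard (k := 7) (by norm_num) img5_7_0
theorem der6_6_0 : allR (guard Pder6 (nat_lit 54)) 6 (nat_lit 0) = true := by decide +kernel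
theorem der6_all : ∀ i, i < (nat_lit 54) → Pder6 i = true := of_guard (k := 6) (by norm_num) der6_6_0
theorem cert6_6_0 : allR (guard Pcert6 (nat_lit 56)) 6 (nat_lit 0) = true := by decide +kernel
theorem cert6_all : ∀ i, i < (nat_lit 56) → Pcert6 i = true := of_guard (k := 6) (by norm_num) cert6_6_0
theorem fix6_6_0 : allR (guard Pfix6 (nat_lit 56)) 6 (nat_lit 0) = true := by decide +kernel
theorem fix6_all : ∀ i, i < (nat_lit 56) → Pfix6 i = true := of_guard (k := 6) (by norm_num) fix6_6_0
theorem img6_7_0 : allR (guard Pimg6 (nat_lit 100)) 7 (nat_lit 0) = true := by decide +kernel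
theorem img6_all : ∀ i, i < (nat_lit 100) → Pimg6 i = true := of_guard (k := 7) (by norm_num) img6_7_0
theorem der7_6_0 : allR (guard Pder7 (nat_lit 56)) 6 (nat_lit 0) = true := by decide +kernel
theorem der7_all : ∀ i, i < (nat_lit 56) → Pder7 i = true := of_guard (k := 6) (by norm_num) der7_6_0
theorem cert7_6_0 : allR (guard Pcert7 (nat_lit 58)) 6 (nat_lit 0) = true := by decide +kernel
theorem cert7_all : ∀ i, i < (nat_lit 58) → Pcert7 i = true := of_guard (k := 6) (by norm_num) cert7_6_0
theorem fix7_6_0 : allR (guard Pfix7 (nat_lit 58)) 6 (nat_lit 0) = true := by decide +kernel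
theorem fix7_all : ∀ i, i < (nat_lit 58) → Pfix7 i = true := of_guard (k := 6) (by norm_num) fix7_6_0
theorem img7_7_0 : allR (guard Pimg7 (nat_lit 100)) 7 (nat_lit 0) = true := by decide +kernel
theorem img7_all : ∀ i, i < (nat_lit 100) → Pimg7 i = true := of_guard (k := 7) (by norm_num) img7_7_0
theorem der8_6_0 : allR (guard Pder8 (nat_lit 58)) 6 (nat_lit 0) = true := by decide +kernel
theorem der8_all : ∀ i, i < (nat_lit 58) → Pder8 i = true := of_guard (k := 6) (by norm_num) der8_6_0
theorem cert8_6_0 : allR (guard Pcert8 (nat_lit 58)) 6 (nat_lit 0) = true := by decide +kernel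
theorem cert8_all : ∀ i, i < (nat_lit 58) → Pcert8 i = true := of_guard (k := 6) (by norm_num) cert8_6_0
theorem fix8_6_0 : allR (guard Pfix8 (nat_lit 58)) 6 (nat_lit 0) = true := by decide +kernel
theorem fix8_all : ∀ i, i < (nat_lit 58) → Pfix8 i = true := of_guard (k := 6) (by norm_num) fix8_6_0
theorem img8_7_0 : allR (guard Pimg8 (nat_lit 100)) 7 (nat_lit 0) = true := by decide +kernel
theorem img8_all : ∀ i, i < (nat_lit 100) → Pimg8 i = true := of_guard (k := 7) (by norm_num) img8_7_0

end Cfsg.Agent.Lib.Hs22Chk
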