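import Mathlib

/-!
# The orbits of a point stabiliser in the Higman-Sims group (generated)
-/

set_option autoImplicit false

namespace Cfsg.Agent.Lib.HsOrb22

/-- The orbit of length `22`. -/
def B1 : ℕ := 0x7ffffe
/-- The orbit of length `77`. -/
def B2 : ℕ := 0xfffffffffffffffffff800000
/-- The colour of a point. -/
def colF (x : ℕ) : ℕ := cond (B1.testBit x) 1 (cond (B2.testBit x) 2 0)
/-- The root of an orbit. -/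
def rtF (c : ℕ) : ℕ := [0,1,23].getD c 0
def parL : List ℕ := [0, 0, 11, 18, 13, 21, 9, 4, 2, 14, 1, 13, 6, 14, 10, 16, 10, 15, 21, 17, 15, 16, 18, 0, 62, 23, 69, 44, 75, 70, 50, 27, 23, 66, 98, 25, 46, 41, 44, 68, 24, 87, 54, 72, 35, 75, 31, 60, 52, 78, 51, 94, 79, 72, 69, 25, 85, 45, 95, 86, 99, 79, 81, 73, 34, 83, 59, 49, 33, 38, 96, 54, 29, 70, 26, 27, 83, 29, 55, 31, 50, 55, 36, 38, 51, 41, 32, 78, 43, 77, 24, 34, 84, 40, 96, 67, 35, 30, 59, 87]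
def ltL : List ℕ := [0, 0, 22, 23, 23, 22, 22, 23, 23, 23, 22, 22, 22, 22, 22, 23, 23, 22, 23, 23, 23, 22, 22, 0, 22, 22, 22, 23, 22, 23, 22, 22, 23, 23, 23, 22, 22, 22, 22, 22, 23, 23, 23, 22, 22, 23, 22, 23, 22, 23, 23, 22, 23, 23, 23, 23, 22, 23, 22, 22, 23, 22, 22, 22, 22, 23, 22, 22, 22, 23, 23, 22, 22, 22, 22, 23, 22, 23, 23, 23, 23, 22, 22, 22, 22, 23, 22, 22, 22, 23, 22, 23, 23, 23, 22, 22, 23, 22, 23, 22]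
def rkL : List ℕ := [0, 0, 5, 5, 4, 4, 4, 5, 6, 3, 1, 4, 5, 3, 2, 3, 2, 4, 4, 5, 4, 3, 5, 0, 5, 1, 6, 4, 6, 5, 7, 5, 1, 5, 5, 2, 7, 6, 4, 7, 6, 5, 7, 7, 3, 6, 6, 7, 8, 4, 6, 5, 7, 7, 6, 2, 7, 7, 7, 3, 6, 7, 4, 6, 6, 6, 4, 5, 6, 5, 4, 7, 6, 5, 7, 5, 6, 6, 3, 6, 7, 3, 8, 5, 6, 6, 2, 4, 8, 7, 6, 6, 7, 7, 4, 6, 3, 8, 4, 5]
def parF (x : ℕ) : ℕ := parL.getD x 0
def ltF (x : ℕ) : ℕ := ltL.getD x 0
def rkF (x : ℕ) : ℕ := rkL.getD x 0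

end Cfsg.Agent.Lib.HsOrb22
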