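import Cfsg.Agent.Lib.HsUp22
import Cfsg.Agent.Lib.HsC22Main
import Cfsg.Agent.Lib.HsOrb22
import Cfsg.Agent.S1666

/-!
# The Schur multiplier of the Higman-Sims group: the double cover and the isomorphism
-/

set_option autoImplicit false
set_option maxRecDepth 100000
set_option linter.style.haveILetI false

namespace Cfsg.Agent.Lib.HsCover22

open Subgroup Cfsg Cfsg.Agent.Lib.TcBits Cfsg.Agent.Lib.PermChain Cfsg.Agent.Lib.ProgBits
  Cfsg.Agent.Lib.ProgChain Cfsg.Agent.Lib.ProgMask22 Cfsg.Agent.Lib.ProgPair22 Cfsg.Agent.Lib.SchurCoset46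
  Cfsg.Agent.Lib.SchurFib22 Cfsg.Agent.Lib.SchurPackC Cfsg.Agent.Lib.HsData22 Cfsg.Agent.Lib.HsWords22
  Cfsg.Agent.Lib.HsGroup22 Cfsg.Agent.Lib.HsOrb22
open scoped Pointwise

/-- The programs of the cover. -/
noncomputable abbrev prC := Cfsg.Agent.Lib.HsC22Tab.pr

theorem ctxC : Ctx 704 10 prC Cfsg.Agent.Lib.HsC22Tab.R Cfsg.Agent.Lib.HsC22Tab.Y := Cfsg.Agent.Lib.HsC22Main.ctx

/-- The map to the masks. -/
def fM (y : Fin 704) : Set (Fin 100) := mask (y.val / 2)

theorem lift_chk : ∀ i, i < 2 → ∀ y, y < 704 →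
    ptChk prC [i] (LT i y) y = true ∧ TT (LT i y / 2) (2 * i) = y / 2 := by
  decide +kernel

theorem hfM (i : ℕ) (hi : i < 2) (y : Fin 704) : fM (lp prC 704 i y) = s i • fM y := by
  obtain ⟨h1, h2⟩ := lift_chk i hi y.val y.isLt
  have h3 := ctxC.prodW_pt (w := [i]) (p := LT i y) (b := y) h1
  have h4 : (lp prC 704 i y).val = LT i y := by
    simpa [prodW_cons, prodW_nil] using h3
  have h5 : LT i y < 704 := by
    rw [← h4]
    exact Fin.isLt _
  have h6 := hms (LT i y / 2) (by omega) i hi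
  rw [h2] at h6
  show mask ((lp prC 704 i y).val / 2) = s i • mask (y.val / 2)
  rw [h4, h6]

theorem sep_chk : ∀ p, p < 100 → ∀ q, q < 100 → (∀ c ∈ sepL, (MT c).testBit p = (MT c).testBit q) → p = q := by
  decide +kernel

theorem sepL_lt : ∀ c ∈ sepL, c < 352 := by decide

theorem hfaithM (g : ↥K) (hg : ∀ y, g • fM y = fM y) : g = 1 := by
  have h1 : ∀ c, c < 352 → g • mask c = mask c := by
    intro c hc
    have := hg ⟨2 * c, by omega⟩
    have e : (2 * c) / 2 = c := by omega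
    simpa [fM, e] using this
  apply Subtype.ext
  apply Equiv.ext
  intro x
  apply Fin.ext
  refine sep_chk _ (Fin.isLt _) _ x.isLt ?_
  intro c hc
  have h2 := h1 c (sepL_lt c hc)
  have h3 : g • x ∈ g • mask c ↔ x ∈ mask c := Set.smul_mem_smul_set_iff
  rw [h2] at h3
  have h4 : (g • x) = g.1 x := rfl
  rw [h4] at h3
  simp only [mask, mem_bitSet] at h3
  cases h5 : (MT c).testBit (g.1 x).val <;> cases h6 : (MT c).testBit x.val <;> simp_all

theorem pi_image : closure (lp prC 704 '' Set.Iio 2) = grp (lp prC 704) 0 2 := by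
  rw [grp_pair]
  congr 1
  ext z
  simp only [Set.mem_image, Set.mem_Iio, Set.mem_insert_iff, Set.mem_singleton_iff]
  constructor
  · rintro ⟨i, hi, rfl⟩
    have : i = 0 ∨ i = 1 := by omega
    rcases this with rfl | rfl
    · exact Or.inl rfl
    · exact Or.inr rfl
  · rintro (rfl | rfl)
    · exact ⟨0, by norm_num, rfl⟩
    · exact ⟨1, by norm_num, rfl⟩

theorem pi0_pow : lp prC 704 0 ^ 3 = 1 := by
  have h := ctxC.prodW_eq (w1 := [0, 0, 0]) (w2 := []) (by decide +kernel)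
  simpa [prodW_cons, prodW_nil, pow_succ, mul_assoc] using h

theorem pi1_pow : lp prC 704 1 ^ 7 = 1 := by
  have h := ctxC.prodW_eq (w1 := [1, 1, 1, 1, 1, 1, 1]) (w2 := []) (by decide +kernel)
  simpa [prodW_cons, prodW_nil, pow_succ, mul_assoc] using h

/-- The double cover. -/
theorem exists_stem : ∃ (Γ : Type) (_ : Group Γ) (_ : Finite Γ) (σ : Γ →* ↥K), IsStemExtension σ ∧
    Nonempty (σ.ker ≃* Multiplicative (ZMod 2)) := by
  refine exists_stem_fiber (N := 704) (m := 2) (p := 2) (n := 21) s (lp prC 704) hgen fM hfM hfaithM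
    Nat.prime_two ?_ ?_ (by norm_num) (by norm_num)
  · rw [pi_image, card_K]
    exact Cfsg.Agent.Lib.HsC22Main.cardH0
  · intro i hi
    have : i = 0 ∨ i = 1 := by omega
    rcases this with rfl | rfl
    · constructor
      · show s 0 ^ (3 * 7) = 1
        rw [pow_mul, s0_pow, one_pow]
      · show lp prC 704 0 ^ (3 * 7) = 1
        rw [pow_mul, pi0_pow, one_pow]
    · constructor
      · show s 1 ^ (7 * 3) = 1
        rw [pow_mul, s1_pow (by norm_num), one_pow]
      · show lp prC 704 1 ^ (7 * 3) = 1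
        rw [pow_mul, pi1_pow, one_pow]

/-! ### The isomorphism -/

section iso

open Cfsg.Agent.Lib.CoConf Cfsg.Agent.Lib.RankHS MulAction Cfsg.Agent.S1666

theorem hOm : Cfsg.Agent.Lib.Hs22Tab.Om0 = 2 ^ 100 - 1 := by decide +kernel

instance pretrans : IsPretransitive ↥K (Fin 100) :=
  transitive_of_level (Cfsg.Agent.Lib.Hs22Main.lev0).2 (fun p => all_mem_orbF hOm p)

theorem col_inv : ∀ h ∈ grp (lp pr 100) 22 2, ∀ x : Fin 100, colF (h x).val = colF x.val := by
  have inv1 : ∀ k, k < 2 → wordApply pr [22 + k] B1 = B1 ∧ wordApply pr [22 + k] B2 = B2 := by decide +kernel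
  intro h hh
  unfold grp genOf at hh
  induction hh using Subgroup.closure_induction with
  | mem z hz =>
    obtain ⟨m, hm, rfl⟩ := hz
    have hm' := List.mem_range'_1.mp hm
    obtain ⟨h1, h2⟩ := inv1 (m - 22) (by omega)
    have e : 22 + (m - 22) = m := by omega
    rw [e] at h1 h2
    intro x
    have h3 := wordApply_bit ctx [m] B1 x
    have h4 := wordApply_bit ctx [m] B2 x
    rw [h1] at h3
    rw [h2] at h4
    simp only [prodW_cons, prodW_nil, mul_one] at h3 h4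
    unfold colF
    rw [← h3, ← h4]
  | one => intro x; rfl
  | mul a b _ _ iha ihb =>
    intro x
    rw [Equiv.Perm.mul_apply, iha, ihb]
  | inv a _ iha =>
    intro x
    rw [← iha (a⁻¹ x)]
    simp

theorem tree_chk : ∀ p, p < 100 → treeChk pr 100 22 colF rtF parF ltF rkF p = true := by decide +kernel

theorem col_conn : ∀ p q : Fin 100, colF p.val = colF q.val → ∃ h ∈ grp (lp pr 100) 22 2, h p = q :=
  connected_of_tree ctx (lo := 22) (fun e he => (Cfsg.Agent.Lib.Hs22Main.lev1).1 e he) tree_chk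

theorem orbit_col (b : Fin 100) :
    orbit (stabilizer ↥K (⟨0, by norm_num⟩ : Fin 100)) b = {y | colF y.val = colF b.val} :=
  orbit_stabilizer_eq (Cfsg.Agent.Lib.Hs22Main.lev0).2 (fun x => colF x.val) col_inv col_conn b

theorem ncard_col (c n : ℕ) (h : (Finset.univ.filter (fun y : Fin 100 => colF y.val = c)).card = n) :
    {y : Fin 100 | colF y.val = c}.ncard = n := by
  rw [← h, ← Set.ncard_coe_finset]
  congr 1
  ext y
  simp

theorem dataK : Data ↥K (⟨0, by norm_num⟩ : Fin 100) ⟨1, by norm_num⟩ ⟨23, by norm_num⟩ := by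
  refine ⟨by simp, ?_, ?_⟩
  · rw [orbit_col]
    exact ncard_col _ _ (by decide +kernel)
  · rw [orbit_col]
    exact ncard_col _ _ (by decide +kernel)

/-- The isomorphism with the Higman-Sims group of the lattice. -/
theorem iso_K : Nonempty (↥K ≃* ↥Cfsg.Spor.HS) := by
  classical
  have hD₁ := dataK
  -- the lattice side
  let A : List (LL × ℤ) := [(wS, -24), (vS, 24)]
  have hK1 : ∀ k ∈ stb vS ⊓ stb wS, ∀ p ∈ A, k • p.1 = p.1 := by
    intro k hk p hp
    simp only [A, List.mem_cons, List.not_mem_nil, or_false] at hp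
    rcases hp with rfl | rfl
    · exact hk.2
    · exact hk.1
  have hK2 : ∀ k : Co0, (∀ p ∈ A, k • p.1 = p.1) → k ∈ stb vS ⊓ stb wS := by
    intro k hk
    exact ⟨hk (vS, 24) (by simp [A]), hk (wS, -24) (by simp [A])⟩
  letI := dsAct hK1
  have hfin : Finite (DS A) := (finite_DS A).to_subtype
  letI : Fintype (DS A) := Fintype.ofFinite _
  have hN : (DS A).ncard = 100 := ncard_100 vS wS norm_vS norm_wS dot_vS_wS
  have hcard : Fintype.card (DS A) = 100 := by
    rw [← Nat.card_eq_fintype_card, Nat.card_coe_set_eq, hN]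
  haveI : IsPretransitive ↥(stb vS ⊓ stb wS) (DS A) := ⟨by
    intro x y
    obtain ⟨k, hk, e⟩ := transOn_100' vS wS norm_vS norm_wS dot_vS_wS x.1 x.2 y.1 y.2
    exact ⟨⟨k, hK2 k hk⟩, Subtype.ext e⟩⟩
  obtain ⟨x₀, hx₀⟩ : (DS A).Nonempty := Set.nonempty_of_ncard_ne_zero (by rw [hN]; norm_num)
  have hR := rank_hs vS wS x₀ norm_vS norm_wS dot_vS_wS hx₀
  have h8 : (DS ((x₀, 8) :: A)).ncard = 22 := by simpa using hR.1 8 (by decide)
  have h16 : (DS ((x₀, 16) :: A)).ncard = 77 := by simpa using hR.1 16 (by decide)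
  obtain ⟨b₀, hb₀⟩ : (DS ((x₀, 8) :: A)).Nonempty := Set.nonempty_of_ncard_ne_zero (by rw [h8]; norm_num)
  obtain ⟨c₀, hc₀⟩ : (DS ((x₀, 16) :: A)).Nonempty := Set.nonempty_of_ncard_ne_zero (by rw [h16]; norm_num)
  obtain ⟨hb1, hb2⟩ := mem_DS_cons.1 hb₀
  obtain ⟨hc1, hc2⟩ := mem_DS_cons.1 hc₀
  have hD₂ : Data ↥(stb vS ⊓ stb wS) (⟨x₀, hx₀⟩ : DS A) ⟨b₀, hb1⟩ ⟨c₀, hc1⟩ := by
    refine ⟨hcard, ?_, ?_⟩
    · rw [orbit_ncard' hK1 hK2 ⟨x₀, hx₀⟩ ⟨b₀, hb1⟩ hb2 (hR.2.1 8 (by decide) (by norm_num)), h8]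
    · rw [orbit_ncard' hK1 hK2 ⟨x₀, hx₀⟩ ⟨c₀, hc1⟩ hc2 (hR.2.1 16 (by decide) (by norm_num)), h16]
  haveI : FaithfulSMul ↥(stb vS ⊓ stb wS) (DS A) := by
    haveI := hs_simple vS wS norm_vS norm_wS dot_vS_wS
    let ρ := MulAction.toPermHom ↥(stb vS ⊓ stb wS) (DS A)
    rcases IsSimpleGroup.eq_bot_or_eq_top_of_normal ρ.ker ρ.normal_ker with h | h
    · refine ⟨fun {k₁ k₂} hk => ?_⟩
      apply (MonoidHom.ker_eq_bot_iff ρ).1 h
      apply Equiv.ext
      intro y
      exact hk y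
    · exfalso
      obtain ⟨k, hk⟩ := MulAction.exists_smul_eq ↥(stb vS ⊓ stb wS) (⟨x₀, hx₀⟩ : DS A) ⟨b₀, hb1⟩
      have hk1 : k ∈ ρ.ker := by
        rw [h]
        trivial
      have hk2 : ρ k = 1 := hk1
      have hk3 : ρ k (⟨x₀, hx₀⟩ : DS A) = ⟨x₀, hx₀⟩ := by
        rw [hk2]
        rfl
      have hk4 : (⟨b₀, hb1⟩ : DS A) = ⟨x₀, hx₀⟩ := hk.symm.trans hk3
      have hk5 : b₀ = x₀ := congrArg Subtype.val hk4
      rw [hk5, dot_self, hx₀.1] at hb2
      norm_num at hb2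
  obtain ⟨φ⟩ := iso_of_rank hD₁ hD₂ card_K (card_hs vS wS norm_vS norm_wS dot_vS_wS)
  exact ⟨φ.trans hsEquiv.symm⟩

end iso

end Cfsg.Agent.Lib.HsCover22
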