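import Mathlib

set_option autoImplicit false

namespace Cfsg.Agent.Lib.HsE22Prog0

/-- program of a letter -/
def P0 (_ : ℕ) : List (ℕ × ℕ) := [(nat_lit 0x3181ece174b4b2, (nat_lit 64)), (nat_lit 0xb746802e000000001a98f310, (nat_lit 32)), (nat_lit 0x36a00000e0050000aa8000000fbc, (nat_lit 16)), (nat_lit 0x810060008c009f00d6008900f000a8, (nat_lit 8)), (nat_lit 0x8030a000c0a020e0a080f0602020b0c, (nat_lit 4)), (nat_lit 0x2221200000202003100233210010220, (nat_lit 2)), (nat_lit 0x1140100400151404100414104145140, (nat_lit 1)), (nat_lit 0x2020200200002200000002202000000, (nat_lit 2)), (nat_lit 0x8060c000002020c080006060202080c, (nat_lit 4)), (nat_lit 0x4000ac009400c00090006000a8, (nat_lit 8)), (nat_lit 0x36a00000a8a40000859800004dbc, (nat_lit 16)), (nat_lit 0xb746812600000000aa9af302, (nat_lit 32)), (nat_lit 0x3181e2e1745ba2, (nat_lit 64))]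
/-- program of a letter -/
def P1 (_ : ℕ) : List (ℕ × ℕ) := [(nat_lit 0x289148e2992d1d58, (nat_lit 64)), (nat_lit 0xd57d59f60000000099af3620, (nat_lit 32)), (nat_lit 0xd0680000ea6f00005f8c00007a8a, (nat_lit 16)), (nat_lit 0x38000800a4002c00c9004900200099, (nat_lit 8)), (nat_lit 0xc0809080e0b0000030a03010d020405, (nat_lit 4)), (nat_lit 0x10010232220000213201203022320313, (nat_lit 2)), (nat_lit 0x50004110044100054105100114100144, (nat_lit 1)), (nat_lit 0x220000000002200000222200202, (nat_lit 2)), (nat_lit 0xc000802080000080608000c00020004, (nat_lit 4)), (nat_lit 0x2400880004002c00cc00f800f00098, (nat_lit 8)), (nat_lit 0x89480000c26c0000cfa20000bed2, (nat_lit 16)), (nat_lit 0xfdfd59fc0000000049e7b63c, (nat_lit 32)), (nat_lit 0x289148ec19588c48, (nat_lit 64))]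
/-- program of a letter -/
def P2 (_ : ℕ) : List (ℕ × ℕ) := [(nat_lit 0x3181e2e1745ba2, (nat_lit 64)), (nat_lit 0xb746812600000000ab9af302, (nat_lit 32)), (nat_lit 0x36a00000471b0000859800004dbc, (nat_lit 16)), (nat_lit 0x82004000ab00ac00c0006b00e000a8, (nat_lit 8)), (nat_lit 0x8090e0002020002080806090202070c, (nat_lit 4)), (nat_lit 0x221200020220003300123012030000, (nat_lit 2)), (nat_lit 0x1410100441140011400114404111540, (nat_lit 1)), (nat_lit 0x2220200000200020200020200022020, (nat_lit 2)), (nat_lit 0x80c080000020c0a0a0006000202040c, (nat_lit 4)), (nat_lit 0x82006000a0008c00d60074007000a8, (nat_lit 8)), (nat_lit 0x36a000000fba0000aa8000000fbc, (nat_lit 16)), (nat_lit 0xb746802e000000001a18f310, (nat_lit 32)), (nat_lit 0x3181ece174b4b2, (nat_lit 64))]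
/-- program of a letter -/
def P3 (_ : ℕ) : List (ℕ × ℕ) := []

end Cfsg.Agent.Lib.HsE22Prog0
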