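import Cfsg.Agent.Lib.HsQ22Chk
import Cfsg.Agent.Lib.HsQ22St0
import Cfsg.Agent.Lib.HsQ22St1
import Cfsg.Agent.Lib.HsQ22St2
import Cfsg.Agent.Lib.HsQ22St3

set_option autoImplicit false
set_option maxRecDepth 100000
set_option linter.unusedSectionVars false

/-! Generated file: the chain and the order of the group. -/

namespace Cfsg.Agent.Lib.HsQ22Main

open Cfsg.Agent.Lib.ChainCert Cfsg.Agent.Lib.ProgBits Cfsg.Agent.Lib.ProgChain Cfsg.Agent.Lib.PermChain Cfsg.Agent.Lib.TcBits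
open Cfsg.Agent.Lib.HsQ22Tab
open Cfsg.Agent.Lib.HsQ22Chk Cfsg.Agent.Lib.HsQ22St0 Cfsg.Agent.Lib.HsQ22St1 Cfsg.Agent.Lib.HsQ22St2 Cfsg.Agent.Lib.HsQ22St3

theorem hN : nat_lit 128 = 2 ^ 7 := by norm_num
theorem hM : M = 2 ^ 100 - 1 := by decide +kernel
theorem hR : R = repU 128 7 := by decide +kernel
theorem hY : Y = yId 7 := by decide +kernel
theorem htot : ∀ e, 8 ≤ e → pr e = [] := by
  intro e he
  rw [pr, show Nat.ble ((nat_lit 8)) e = true from Nat.ble_eq_true_of_le he]
  rfl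

/-- the context -/
theorem ctx : Ctx 100 7 pr R Y :=
  ctx_mk' (N := (nat_lit 128)) (M := M) (tot := 8) (by norm_num) hN hM hR hY let_all htot

/-- the letters -/
noncomputable abbrev g : ℕ → Equiv.Perm (Fin 100) := lp pr 100

theorem hOb3 : Om3.testBit 1 = true := by decide +kernel
theorem hroot3 : tw3 1 = [] := by decide +kernel
theorem lev3 : (∀ e, 6 ≤ e → g e ∈ grp g 6 2) ∧
    Level (grp g 6 2) (grp g 8 0) ⟨1, by norm_num⟩
      (fun p => prodW g (tw3 p.val)) (orbF 100 Om3) :=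
  level_bundle ctx (lo := 6) (ns := 2) (hi := 8) (ns' := 0) (b := 1) (Om := Om3) (tw := tw3) (st := stE3) (der := derT) (wA := certA) (wB := certB) (by norm_num)
    der3_all cert3_all fix3_all img3_all hOb3 hroot3 st3_all (letters_bottom ctx htot)
theorem cOm3 : (orbF 100 Om3).card = 2 := by
  rw [card_orbF]; decide +kernel
theorem hOb2 : Om2.testBit 0 = true := by decide +kernel
theorem hroot2 : tw2 0 = [] := by decide +kernel
theorem lev2 : (∀ e, 4 ≤ e → g e ∈ grp g 4 2) ∧
    Level (grp g 4 2) (grp g 6 2) ⟨0, by norm_num⟩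
      (fun p => prodW g (tw2 p.val)) (orbF 100 Om2) :=
  level_bundle ctx (lo := 4) (ns := 2) (hi := 6) (ns' := 2) (b := 0) (Om := Om2) (tw := tw2) (st := stE2) (der := derT) (wA := certA) (wB := certB) (by norm_num)
    der2_all cert2_all fix2_all img2_all hOb2 hroot2 st2_all (lev3).1
theorem cOm2 : (orbF 100 Om2).card = 2 := by
  rw [card_orbF]; decide +kernel
theorem hOb1 : Om1.testBit 8 = true := by decide +kernel
theorem hroot1 : tw1 8 = [] := by decide +kernel
theorem lev1 : (∀ e, 2 ≤ e → g e ∈ grp g 2 2) ∧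
    Level (grp g 2 2) (grp g 4 2) ⟨8, by norm_num⟩
      (fun p => prodW g (tw1 p.val)) (orbF 100 Om1) :=
  level_bundle ctx (lo := 2) (ns := 2) (hi := 4) (ns' := 2) (b := 8) (Om := Om1) (tw := tw1) (st := stE1) (der := derT) (wA := certA) (wB := certB) (by norm_num)
    der1_all cert1_all fix1_all img1_all hOb1 hroot1 st1_all (lev2).1
theorem cOm1 : (orbF 100 Om1).card = 2 := by
  rw [card_orbF]; decide +kernel
theorem hOb0 : Om0.testBit 11 = true := by decide +kernel
theorem hroot0 : tw0 11 = [] := by decide +kernel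
theorem lev0 : (∀ e, 0 ≤ e → g e ∈ grp g 0 2) ∧
    Level (grp g 0 2) (grp g 2 2) ⟨11, by norm_num⟩
      (fun p => prodW g (tw0 p.val)) (orbF 100 Om0) :=
  level_bundle ctx (lo := 0) (ns := 2) (hi := 2) (ns' := 2) (b := 11) (Om := Om0) (tw := tw0) (st := stE0) (der := derT) (wA := certA) (wB := certB) (by norm_num)
    der0_all cert0_all fix0_all img0_all hOb0 hroot0 st0_all (lev1).1
theorem cOm0 : (orbF 100 Om0).card = 2 := by
  rw [card_orbF]; decide +kernel
theorem cardH4 : Nat.card (grp g 8 0) = 1 := by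
  rw [grp_zero]; simp
theorem cardH3 : Nat.card (grp g 6 2) = 2 := by
  rw [(lev3).2.card, cOm3, cardH4]
theorem cardH2 : Nat.card (grp g 4 2) = 4 := by
  rw [(lev2).2.card, cOm2, cardH3]
theorem cardH1 : Nat.card (grp g 2 2) = 8 := by
  rw [(lev1).2.card, cOm1, cardH2]
theorem cardH0 : Nat.card (grp g 0 2) = 16 := by
  rw [(lev0).2.card, cOm0, cardH1]

end Cfsg.Agent.Lib.HsQ22Main
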