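import Cfsg.Agent.Lib.ProgMask22
import Cfsg.Agent.Lib.SchurCoset46

/-!
# Groups of permutations generated by two programs: elements, words, subgroups generated by two elements
-/

set_option autoImplicit false
set_option linter.unusedSectionVars false

namespace Cfsg.Agent.Lib.ProgPair22

open Subgroup Cfsg.Agent.Lib.TcBits Cfsg.Agent.Lib.PermChain Cfsg.Agent.Lib.ProgBits Cfsg.Agent.Lib.ProgChain
  Cfsg.Agent.Lib.ProgMask22 Cfsg.Agent.Lib.SchurCoset46
open scoped Pointwise

variable {n k : ℕ} {pr : ℕ → List (ℕ × ℕ)} {R Y : ℕ}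

theorem tab_of_certE (C : CertE) (hC : C.check = true) : Tab C.n C.m C.T C.par := by
  simp only [CertE.check, Bool.and_eq_true] at hC
  exact C.base.tab_of_chk hC.1.1.1.2

theorem grp_pair (g : ℕ → Equiv.Perm (Fin n)) : grp g 0 2 = closure {g 0, g 1} := by
  unfold grp genOf
  congr 1
  ext x
  simp only [List.mem_range'_1, Set.mem_setOf_eq, Set.mem_insert_iff, Set.mem_singleton_iff]
  constructor
  · rintro ⟨m, hm, rfl⟩
    have : m = 0 ∨ m = 1 := by omega
    rcases this with rfl | rfl
    · exact Or.inl rfl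
    · exact Or.inr rfl
  · rintro (rfl | rfl)
    · exact ⟨0, by omega, rfl⟩
    · exact ⟨1, by omega, rfl⟩

/-- The element of a word, in a subgroup containing all the letters. -/
noncomputable def el {K : Subgroup (Equiv.Perm (Fin n))} (hL : ∀ e, lp pr n e ∈ K) (w : List ℕ) : ↥K :=
  ⟨prodW (lp pr n) w, Subgroup.list_prod_mem _ (by
    intro x hx
    obtain ⟨e, _, rfl⟩ := List.mem_map.mp hx
    exact hL e)⟩

section el

variable {K : Subgroup (Equiv.Perm (Fin n))} (hL : ∀ e, lp pr n e ∈ K)

@[simp] theorem el_val (w : List ℕ) : (el hL w).1 = prodW (lp pr n) w := rfl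

theorem el_nil : el hL [] = 1 := rfl

theorem el_append (v w : List ℕ) : el hL (v ++ w) = el hL v * el hL w :=
  Subtype.ext (prodW_append _ v w)

theorem el_cons (a : ℕ) (w : List ℕ) : el hL (a :: w) = el hL [a] * el hL w :=
  el_append hL [a] w

theorem el_eq (C : Ctx n k pr R Y) {v w : List ℕ} (h : wChk R Y pr v w = true) : el hL v = el hL w :=
  Subtype.ext (C.prodW_eq h)

theorem el_one (C : Ctx n k pr R Y) {v : List ℕ} (h : wChk R Y pr v [] = true) : el hL v = 1 :=
  el_eq hL C h

theorem el_pow (w : List ℕ) (m : ℕ) : el hL (List.flatten (List.replicate m w)) = el hL w ^ m := by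
  induction m with
  | zero => rfl
  | succ m ih =>
    rw [List.replicate_succ, List.flatten_cons, el_append, ih, pow_succ']

/-- The two generators. -/
noncomputable def s2 (i : ℕ) : ↥K := if i = 0 then el hL [0] else el hL [1]

theorem s2_zero : s2 hL 0 = el hL [0] := rfl

theorem s2_of_ne {i : ℕ} (h : i ≠ 0) : s2 hL i = el hL [1] := if_neg h

/-- The expansion of a letter for generators of known orders. -/
def expL (oa ob l : ℕ) : List ℕ :=
  cond (Nat.beq l 0) [0] (cond (Nat.beq l 1) (List.replicate (oa - 1) 0)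
    (cond (Nat.beq l 2) [1] (List.replicate (ob - 1) 1)))

/-- The expansion of a word. -/
def expW (oa ob : ℕ) (w : List ℕ) : List ℕ := w.flatMap (expL oa ob)

theorem inv_of_pow {G : Type*} [Group G] (a : G) {m : ℕ} (hm : 0 < m) (h : a ^ m = 1) :
    a⁻¹ = a ^ (m - 1) := by
  rw [inv_eq_iff_mul_eq_one, ← pow_succ', Nat.sub_add_cancel hm, h]

theorem el_replicate (e m : ℕ) : el hL (List.replicate m e) = el hL [e] ^ m := by
  rw [← el_pow]
  congr 1
  induction m with
  | zero => rfl
  | succ m ih => rw [List.replicate_succ, List.replicate_succ, List.flatten_cons, ← ih]; rfl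

theorem lett_s2 {oa ob : ℕ} (ha : 0 < oa) (hb : 0 < ob) (ha1 : el hL [0] ^ oa = 1) (hb1 : el hL [1] ^ ob = 1)
    {l : ℕ} (hl : l < 4) : lett (s2 hL) l = el hL (expL oa ob l) := by
  interval_cases l
  · show lett (s2 hL) 0 = el hL [0]
    exact lett_even (s2 hL) 0
  · have e : lett (s2 hL) 1 = (s2 hL 0)⁻¹ := lett_odd (s2 hL) 0
    show lett (s2 hL) 1 = el hL (List.replicate (oa - 1) 0)
    rw [e, s2_zero, inv_of_pow _ ha ha1, el_replicate]
  · have e : lett (s2 hL) 2 = s2 hL 1 := lett_even (s2 hL) 1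
    show lett (s2 hL) 2 = el hL [1]
    rw [e, s2_of_ne hL (by norm_num)]
  · have e : lett (s2 hL) 3 = (s2 hL 1)⁻¹ := lett_odd (s2 hL) 1
    show lett (s2 hL) 3 = el hL (List.replicate (ob - 1) 1)
    rw [e, s2_of_ne hL (by norm_num), inv_of_pow _ hb hb1, el_replicate]

theorem evW_s2 {oa ob : ℕ} (ha : 0 < oa) (hb : 0 < ob) (ha1 : el hL [0] ^ oa = 1) (hb1 : el hL [1] ^ ob = 1)
    (w : List ℕ) (hw : ∀ l ∈ w, l < 4) : evW (s2 hL) w = el hL (expW oa ob w) := by
  induction w with
  | nil => rfl
  | cons l w ih =>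
    have h1 := ih (fun a ha => hw a (List.mem_cons_of_mem _ ha))
    have h2 := lett_s2 hL ha hb ha1 hb1 (hw l List.mem_cons_self)
    show lett (s2 hL) l * evW (s2 hL) w = el hL (expL oa ob l ++ expW oa ob w)
    rw [h1, h2, el_append]

end el

/-- The number of elements of the subgroup generated by two elements does not depend on the ambient group. -/
theorem card_closure_pair {K : Subgroup (Equiv.Perm (Fin n))} (a b : ↥K) :
    Nat.card (closure ({a, b} : Set ↥K)) = Nat.card (closure ({a.1, b.1} : Set (Equiv.Perm (Fin n)))) := by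
  have h : (closure ({a, b} : Set ↥K)).map K.subtype = closure ({a.1, b.1} : Set (Equiv.Perm (Fin n))) := by
    rw [MonoidHom.map_closure]
    congr 1
    simp [Set.image_insert_eq]
  rw [← h]
  exact Nat.card_congr (Subgroup.equivMapOfInjective _ _ K.subtype_injective).toEquiv

theorem s2_closure_top {K : Subgroup (Equiv.Perm (Fin n))} (hK : K = grp (lp pr n) 0 2) (hL : ∀ e, lp pr n e ∈ K) :
    closure (s2 hL '' Set.Iio 2) = ⊤ := by
  apply Subgroup.map_injective K.subtype_injective
  rw [MonoidHom.map_closure, ← MonoidHom.range_eq_map, Subgroup.range_subtype]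
  conv_rhs => rw [hK, grp_pair]
  congr 1
  ext x
  simp only [Set.mem_image, Set.mem_Iio, Subgroup.subtype_apply, exists_exists_and_eq_and,
    Set.mem_insert_iff, Set.mem_singleton_iff]
  constructor
  · rintro ⟨i, hi, rfl⟩
    have : i = 0 ∨ i = 1 := by omega
    rcases this with rfl | rfl
    · left
      simp [s2_zero, prodW_cons, prodW_nil]
    · right
      rw [s2_of_ne hL (by norm_num)]
      simp [prodW_cons, prodW_nil]
  · rintro (rfl | rfl)
    · exact ⟨0, by norm_num, by simp [s2_zero, prodW_cons, prodW_nil]⟩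
    · refine ⟨1, by norm_num, ?_⟩
      rw [s2_of_ne hL (by norm_num)]
      simp [prodW_cons, prodW_nil]

end Cfsg.Agent.Lib.ProgPair22
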