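import Mathlib
import Cfsg.Prelude.Def_KGroupFacts
import Cfsg.Agent.Lib.SchurCover46
import Cfsg.Agent.Lib.SchurPerf
import Cfsg.Agent.Lib.SchurTarget12

/-!
# Stem extensions from a permutation representation covering an action, and kernels from certificates
-/

set_option autoImplicit false
set_option linter.style.haveILetI false

namespace Cfsg.Agent.Lib.SchurFib22

open Subgroup Cfsg Cfsg.Agent.Lib.SchurCover46 Cfsg.Agent.Lib.SchurCoset46 Cfsg.Agent.Lib.SchurPerf
  Cfsg.Agent.Lib.SchurTarget12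

/-- A permutation group on a set with an equivariant map to a faithful `G`-set, with the right order, gives
a stem extension. -/
theorem exists_stem_fiber {G : Type} [Group G] [Finite G] {X : Type} [MulAction G X] {N m p n : ℕ}
    (s : ℕ → G) (π : ℕ → Equiv.Perm (Fin N)) (hgen : closure (s '' Set.Iio m) = ⊤)
    (f : Fin N → X) (hf : ∀ i, i < m → ∀ y, f (π i y) = s i • f y)
    (hfaith : ∀ g : G, (∀ y, g • f y = f y) → g = 1)
    (hp : p.Prime) (hcard : Nat.card (closure (π '' Set.Iio m)) = p * Nat.card G)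
    (hn : ∀ i, i < m → s i ^ n = 1 ∧ π i ^ n = 1) (hcop : Nat.Coprime n p)
    (hcop' : Nat.Coprime n (p - 1)) :
    ∃ (Γ : Type) (_ : Group Γ) (_ : Finite Γ) (σ : Γ →* G), IsStemExtension σ ∧
      Nonempty (σ.ker ≃* Multiplicative (ZMod p)) := by
  classical
  haveI : Fact p.Prime := ⟨hp⟩
  set S : Set (G × Equiv.Perm (Fin N)) := (fun i => (s i, π i)) '' Set.Iio m with hS
  have hinv : ∀ γ ∈ closure S, ∀ y, f (γ.2 y) = γ.1 • f y := by
    intro γ hγ
    induction hγ using Subgroup.closure_induction with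
    | mem z hz =>
      obtain ⟨i, hi, rfl⟩ := hz
      exact hf i hi
    | one => intro y; simp
    | mul a b _ _ iha ihb =>
      intro y
      show f (a.2 (b.2 y)) = (a.1 * b.1) • f y
      rw [iha, ihb, mul_smul]
    | inv a _ iha =>
      intro y
      show f (a.2⁻¹ y) = a.1⁻¹ • f y
      rw [eq_inv_smul_iff, ← iha]
      simp
  let σ : ↥(closure S) →* G := (MonoidHom.fst G _).comp (closure S).subtype
  let τ : ↥(closure S) →* Equiv.Perm (Fin N) := (MonoidHom.snd G _).comp (closure S).subtype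
  have hσr : σ.range = ⊤ := by
    rw [← hgen, MonoidHom.range_comp, Subgroup.range_subtype, MonoidHom.map_closure]
    congr 1
    rw [hS, Set.image_image]
    rfl
  have hτr : τ.range = closure (π '' Set.Iio m) := by
    rw [MonoidHom.range_comp, Subgroup.range_subtype, MonoidHom.map_closure]
    congr 1
    rw [hS, Set.image_image]
    rfl
  have hσs : Function.Surjective σ := MonoidHom.range_eq_top.mp hσr
  have hτi : Function.Injective τ := by
    rw [injective_iff_map_eq_one]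
    rintro ⟨γ, hγ⟩ h
    have h2 : γ.2 = 1 := h
    have h3 : γ.1 = 1 := hfaith _ (fun y => by
      have := hinv γ hγ y
      rw [h2, Equiv.Perm.one_apply] at this
      exact this.symm)
    exact Subtype.ext (Prod.ext h3 h2)
  have hcΓ : Nat.card ↥(closure S) = p * Nat.card G := by
    rw [← hcard, ← hτr]
    exact Nat.card_congr (MonoidHom.ofInjective hτi).toEquiv
  have hcK : Nat.card σ.ker = p := by
    have h1 := Subgroup.card_mul_index σ.ker
    rw [Subgroup.index_ker, hσr, Subgroup.card_top, hcΓ] at h1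
    exact Nat.eq_of_mul_eq_mul_right Nat.card_pos h1
  haveI hcy : IsCyclic σ.ker := isCyclic_of_prime_card hcK
  -- the kernel is central
  have hcen : σ.ker ≤ center ↥(closure S) := by
    intro k hk
    let ρ : ↥(closure S) →* MulAut σ.ker := MulAut.conjNormal
    have hρ : ∀ γ (hγ : γ ∈ closure S), ρ ⟨γ, hγ⟩ = 1 := by
      have h1 : ∀ γ (hγ : γ ∈ S) , ρ ⟨γ, Subgroup.subset_closure hγ⟩ = 1 := by
        rintro _ ⟨i, hi, rfl⟩
        have h2 : ρ ⟨(s i, π i), Subgroup.subset_closure ⟨i, hi, rfl⟩⟩ ^ n = 1 := by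
          rw [← map_pow]
          have h3 : (⟨(s i, π i), Subgroup.subset_closure ⟨i, hi, rfl⟩⟩ : ↥(closure S)) ^ n = 1 :=
            Subtype.ext (Prod.ext (hn i hi).1 (hn i hi).2)
          rw [h3, map_one]
        have h4 : ρ ⟨(s i, π i), Subgroup.subset_closure ⟨i, hi, rfl⟩⟩ ^ (p - 1) = 1 := by
          have h5 := pow_card_eq_one' (x := ρ ⟨(s i, π i), Subgroup.subset_closure ⟨i, hi, rfl⟩⟩)
          rwa [IsCyclic.card_mulAut, hcK, Nat.totient_prime hp] at h5
        have h6 := (pow_gcd_eq_one (a := ρ ⟨(s i, π i), Subgroup.subset_closure ⟨i, hi, rfl⟩⟩)).mpr ⟨h2, h4⟩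
        rwa [hcop', pow_one] at h6
      intro γ hγ
      induction hγ using Subgroup.closure_induction with
      | mem z hz => exact h1 z hz
      | one => exact map_one ρ
      | mul a b ha hb iha ihb =>
        have : (⟨a * b, Subgroup.mul_mem _ ha hb⟩ : ↥(closure S)) = ⟨a, ha⟩ * ⟨b, hb⟩ := rfl
        rw [this, map_mul, iha, ihb, one_mul]
      | inv a ha iha =>
        have : (⟨a⁻¹, Subgroup.inv_mem _ ha⟩ : ↥(closure S)) = (⟨a, ha⟩)⁻¹ := rfl
        rw [this, map_inv, iha, inv_one]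
    rw [Subgroup.mem_center_iff]
    intro g
    have h2 : (ρ g) ⟨k, hk⟩ = ⟨k, hk⟩ := by
      have := hρ g.1 g.2
      rw [show (⟨g.1, g.2⟩ : ↥(closure S)) = g from rfl] at this
      rw [this]
      rfl
    have h3 : g * k * g⁻¹ = k := congrArg Subtype.val h2
    calc g * k = (g * k * g⁻¹) * g := by group
      _ = k * g := by rw [h3]
  have hcomm : σ.ker ≤ commutator ↥(closure S) := by
    intro k hk
    refine mem_commutator_of_gens S (n := n) (t := p) ?_ hcop k ?_
    · rintro _ ⟨i, hi, rfl⟩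
      exact Prod.ext (hn i hi).1 (hn i hi).2
    · have h1 : (⟨k, hk⟩ : σ.ker) ^ p = 1 := by
        have := pow_card_eq_one' (x := (⟨k, hk⟩ : σ.ker))
        rwa [hcK] at this
      exact congrArg Subtype.val h1
  refine ⟨↥(closure S), inferInstance, inferInstance, σ, ⟨hσs, hcen, hcomm⟩, ?_⟩
  have h2 : Nat.card (Multiplicative (ZMod p)) = p := by
    show Nat.card (ZMod p) = p
    rw [Nat.card_zmod]
  exact ⟨mulEquivOfPrimeCardEq hcK h2⟩

/-- The kernel of a stem extension of `G` from a certificate on the cosets of a perfect stabiliser whose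
stem extensions have kernels prime to `p`. -/
theorem ker_cyclic_of_cert {Γ G X : Type} [Group Γ] [Finite Γ] [Group G] [MulAction G X] {σ : Γ →* G}
    (hσ : IsStemExtension σ) {p e : ℕ} (hp : p.Prime) {x0 : X}
    (hperf : commutator ↥(MulAction.stabilizer G x0) = ⊤) (hPT : PT.{0, 0} p ↥(MulAction.stabilizer G x0))
    (C : CertE) (hC : C.check = true) (hE : C.E = p ^ e) (hE1 : 1 < C.E) (hEk : ∀ k ∈ σ.ker, k ^ C.E = 1)
    {mask : ℕ → X} (hm0 : mask 0 = x0)
    (hmne : ∀ c, c < C.n → mask c = x0 → c = 0)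
    {s : ℕ → G} (hms : ∀ c, c < C.n → ∀ i, i < C.m → s i • mask (C.T c (2 * i)) = mask c)
    (hgen : closure (s '' Set.Iio C.m) = ⊤)
    {x : ℕ → Γ} (hx : ∀ i, σ (x i) = s i)
    (hrels : ∀ j, j < C.R → ∀ l ∈ C.rels j, l < 2 * C.m)
    (hrel : ∀ j, j < C.R → evW s (C.rels j) = 1)
    (hnorm : ∀ j, j < C.R → C.normal j = true → evW x (C.rels j) = 1) :
    ∃ u : σ.ker, u ^ C.r0 = 1 ∧ ∀ k : σ.ker, k ∈ zpowers u := by
  obtain ⟨w₀, ρ₀, hw₀, hρ₀⟩ := exists_retract hσ hperf hp hPT
  let _ : CommGroup σ.ker := { (inferInstance : Group σ.ker) with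
    mul_comm := fun a b => Subtype.ext (Subgroup.mem_center_iff.mp (hσ.2.1 b.2) a.1) }
  have hHt : ∀ y, y ∈ (MulAction.stabilizer G x0).comap σ ↔ σ y • x0 = x0 := by
    intro y
    rw [Subgroup.mem_comap]
    exact MulAction.mem_stabilizer_iff
  have hEB : ∀ b : σ.ker, b ^ C.E = 1 := fun b => Subtype.ext (hEk b.1 b.2)
  obtain ⟨u, hu, hall⟩ := target_cyclic_of_cert hσ hHt ρ₀ C hC hEB hm0 hmne hms hgen hx hrels hrel hnorm
  refine ⟨u, hu, ?_⟩
  intro k
  have hkle : k.1 ∈ (MulAction.stabilizer G x0).comap σ := by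
    rw [Subgroup.mem_comap, MonoidHom.mem_ker.mp k.2]
    exact Subgroup.one_mem _
  have h1 := hall ⟨k.1, hkle⟩
  rw [hρ₀ k.1 k.2 hkle] at h1
  have hco : Nat.Coprime w₀ C.E := by
    rw [hE]
    apply Nat.Coprime.pow_right
    rw [Nat.coprime_comm, Nat.Prime.coprime_iff_not_dvd hp]
    intro hd
    have h2 : w₀ % p = 0 := Nat.mod_eq_zero_of_dvd hd
    omega
  obtain ⟨v, hv⟩ := Nat.exists_mul_mod_eq_one_of_coprime hco hE1
  have h4 : k ^ (w₀ * v) = k := by
    rw [← Nat.mod_add_div (w₀ * v) C.E, pow_add, pow_mul, hEB, one_pow, mul_one, hv.2, pow_one]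
  have h3 : k = (k ^ w₀) ^ v := by rw [← pow_mul, h4]
  rw [h3]
  exact Subgroup.pow_mem _ h1 v

end Cfsg.Agent.Lib.SchurFib22
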