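import Cfsg.Agent.Lib.Hs22Main
import Cfsg.Agent.Lib.HsU22Main
import Cfsg.Agent.Lib.HsQ22Main
import Cfsg.Agent.Lib.HsE22Main
import Cfsg.Agent.Lib.HsF22Main
import Cfsg.Agent.Lib.HsWords22
import Cfsg.Agent.Lib.ProgPair22
import Cfsg.Agent.Lib.SchurLoc22
import Cfsg.Agent.Lib.SchurFib22
import Cfsg.Agent.Lib.SchurOrbit12
import Cfsg.Agent.Lib.SchurTower

/-!
# The Higman-Sims group as a group of permutations of one hundred points: the upper bound
-/

set_option autoImplicit false
set_option maxRecDepth 100000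
set_option linter.style.haveILetI false

namespace Cfsg.Agent.Lib.HsGroup22

open Subgroup Cfsg Cfsg.Agent.Lib.TcBits Cfsg.Agent.Lib.PermChain Cfsg.Agent.Lib.ProgBits
  Cfsg.Agent.Lib.ProgChain Cfsg.Agent.Lib.ProgMask22 Cfsg.Agent.Lib.ProgPair22 Cfsg.Agent.Lib.SchurCoset46
  Cfsg.Agent.Lib.SchurLoc22 Cfsg.Agent.Lib.SchurFib22 Cfsg.Agent.Lib.SchurPerf Cfsg.Agent.Lib.SchurOrbit12
  Cfsg.Agent.Lib.SchurStem Cfsg.Agent.Lib.SchurLocal12 Cfsg.Agent.Lib.SchurTower
  Cfsg.Agent.Lib.SchurTarget12 Cfsg.Agent.Lib.HsData22 Cfsg.Agent.Lib.HsWords22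
open scoped Pointwise commutatorElement

/-- The programs. -/
noncomputable abbrev pr := Cfsg.Agent.Lib.Hs22Tab.pr

/-- The group. -/
noncomputable abbrev K : Subgroup (Equiv.Perm (Fin 100)) := grp (lp pr 100) 0 2

theorem ctx : Ctx 100 7 pr Cfsg.Agent.Lib.Hs22Tab.R Cfsg.Agent.Lib.Hs22Tab.Y := Cfsg.Agent.Lib.Hs22Main.ctx

theorem hL : ∀ e, lp pr 100 e ∈ K := fun e => (Cfsg.Agent.Lib.Hs22Main.lev0).1 e (Nat.zero_le e)

theorem card_K : Nat.card K = 44352000 := Cfsg.Agent.Lib.Hs22Main.cardH0

/-- Elements of the group from words. -/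
noncomputable abbrev e (w : List ℕ) : ↥K := el hL w

/-- The generators. -/
noncomputable abbrev s : ℕ → ↥K := s2 hL

/-- Equality of words. -/
theorem eq_of_chk {v w : List ℕ} (h : wChk Cfsg.Agent.Lib.Hs22Tab.R Cfsg.Agent.Lib.Hs22Tab.Y pr v w = true) :
    e v = e w := el_eq hL ctx h

theorem a_pow : e [0] ^ 3 = 1 := by
  rw [← el_replicate hL 0 3]
  exact eq_of_chk (v := List.replicate 3 0) (w := []) (by decide +kernel)

theorem b_pow : e [1] ^ 7 = 1 := by
  rw [← el_replicate hL 1 7]
  exact eq_of_chk (v := List.replicate 7 1) (w := []) (by decide +kernel)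

theorem s0_pow : s 0 ^ 3 = 1 := a_pow

theorem s1_pow {i : ℕ} (hi : i ≠ 0) : s i ^ 7 = 1 := by
  have : s i = e [1] := s2_of_ne hL hi
  rw [this]
  exact b_pow

theorem hgen : closure (s '' Set.Iio 2) = ⊤ := s2_closure_top rfl hL

/-- The masks. -/
def mask (c : ℕ) : Set (Fin 100) := bitSet 100 (MT c)

theorem mask_chk : ∀ c, c < 352 → ∀ i, i < 2 → wordApply pr [i] (MT c) = MT (TT c (2 * i)) := by
  decide +kernel

theorem hms : ∀ c, c < 352 → ∀ i, i < 2 → s i • mask (TT c (2 * i)) = mask c := by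
  intro c hc i hi
  have hs : (s i).1 = prodW (lp pr 100) [i] := by
    have : i = 0 ∨ i = 1 := by omega
    rcases this with rfl | rfl
    · rfl
    · have : s 1 = e [1] := s2_of_ne hL (by norm_num)
      rw [this]
      rfl
  exact smul_bitSet ctx (s i) [i] hs (mask_chk c hc i hi)

theorem mask_diff : ∀ c, c < 352 → c = 0 ∨ ∃ x, x < 100 ∧ (MT c).testBit x ≠ (MT 0).testBit x := by
  decide +kernel

theorem mask_ne (c : ℕ) (hc : c < 352) (h : mask c = mask 0) : c = 0 := by
  rcases mask_diff c hc with h0 | ⟨x, hx, hd⟩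
  · exact h0
  · exfalso
    apply hd
    have h1 := Set.ext_iff.mp h ⟨x, hx⟩
    simp only [mask, mem_bitSet] at h1
    cases h2 : (MT c).testBit x <;> cases h3 : (MT 0).testBit x <;> simp_all

theorem tabT : Tab 352 2 TT PR := tab_of_certE cert cert_ok

/-- The stabiliser. -/
noncomputable abbrev H : Subgroup ↥K := MulAction.stabilizer ↥K (mask 0)

theorem mask_inj : Set.InjOn mask {c | c < 352} := mask_inj_of_ne tabT hms (fun c hc h => mask_ne c hc h)

theorem index_H : H.index = 352 := index_stabilizer_mask tabT hms hgen mask_inj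

theorem card_H : Nat.card H = 126000 := by
  have h := Subgroup.card_mul_index H
  rw [index_H, card_K] at h
  omega

/-- Elements of the stabiliser from words fixing the mask. -/
theorem mem_H {w : List ℕ} (h : wordApply pr w (MT 0) = MT 0) : e w ∈ H :=
  MulAction.mem_stabilizer_iff.mpr (smul_bitSet ctx (e w) w rfl h)

/-- The generators of the stabiliser. -/
noncomputable def uH : ↥H := ⟨e Wu, mem_H (by decide +kernel)⟩
noncomputable def vH : ↥H := ⟨e Wv, mem_H (by decide +kernel)⟩
noncomputable def xH : ↥H := ⟨e Wx, mem_H (by decide +kernel)⟩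
noncomputable def yH : ↥H := ⟨e Wy, mem_H (by decide +kernel)⟩

/-- The generators of the stabiliser, as a sequence. -/
noncomputable def sH (i : ℕ) : ↥H := if i = 0 then uH else vH

theorem card_closure_H (a b : ↥H) : Nat.card (closure ({a, b} : Set ↥H)) =
    Nat.card (closure ({a.1.1, b.1.1} : Set (Equiv.Perm (Fin 100)))) := by
  have h : (closure ({a, b} : Set ↥H)).map (K.subtype.comp H.subtype) =
      closure ({a.1.1, b.1.1} : Set (Equiv.Perm (Fin 100))) := by
    rw [MonoidHom.map_closure]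
    congr 1
    simp [Set.image_insert_eq]
  rw [← h]
  exact Nat.card_congr (Subgroup.equivMapOfInjective _ _
    (fun x y hxy => Subtype.ext (Subtype.ext hxy))).toEquiv

/-- The image of the generators in the other chain. -/
theorem u_eq : (e Wu).1 = lp Cfsg.Agent.Lib.HsU22Tab.pr 100 0 := by
  have h := prodW_eq_cross ctx Cfsg.Agent.Lib.HsU22Main.ctx (w1 := Wu) (w2 := [0]) (by decide +kernel)
  simpa [prodW_cons, prodW_nil] using h

theorem v_eq : (e Wv).1 = lp Cfsg.Agent.Lib.HsU22Tab.pr 100 1 := by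
  have h := prodW_eq_cross ctx Cfsg.Agent.Lib.HsU22Main.ctx (w1 := Wv) (w2 := [1]) (by decide +kernel)
  simpa [prodW_cons, prodW_nil] using h

theorem card_uv : Nat.card (closure ({uH, vH} : Set ↥H)) = 126000 := by
  rw [card_closure_H]
  have h : ({uH.1.1, vH.1.1} : Set (Equiv.Perm (Fin 100))) =
      {lp Cfsg.Agent.Lib.HsU22Tab.pr 100 0, lp Cfsg.Agent.Lib.HsU22Tab.pr 100 1} := by
    rw [← u_eq, ← v_eq]
    rfl
  rw [h, ← grp_pair]
  exact Cfsg.Agent.Lib.HsU22Main.cardH0

theorem closure_uv : closure ({uH, vH} : Set ↥H) = ⊤ :=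
  Subgroup.eq_top_of_card_eq _ (by rw [card_uv, card_H])

theorem sH_image : sH '' Set.Iio 2 = {uH, vH} := by
  ext z
  simp only [Set.mem_image, Set.mem_Iio, Set.mem_insert_iff, Set.mem_singleton_iff]
  constructor
  · rintro ⟨i, hi, rfl⟩
    have : i = 0 ∨ i = 1 := by omega
    rcases this with rfl | rfl
    · left
      simp [sH]
    · right
      simp [sH]
  · rintro (rfl | rfl)
    · exact ⟨0, by norm_num, by simp [sH]⟩
    · exact ⟨1, by norm_num, by simp [sH]⟩

theorem closure_sH : closure (sH '' Set.Iio 2) = ⊤ := by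
  rw [sH_image, closure_uv]

/-- Words in the two generators of the stabiliser without inverse letters. -/
theorem evW_sH (w : List ℕ) (hw : ∀ l ∈ w, l = 0 ∨ l = 2) :
    (evW sH w).1 = e (w.flatMap fun l => if l = 0 then Wu else Wv) := by
  induction w with
  | nil => rfl
  | cons l w ih =>
    have h1 := ih (fun a ha => hw a (List.mem_cons_of_mem _ ha))
    have h2 : (lett sH l).1 = e (if l = 0 then Wu else Wv) := by
      rcases hw l List.mem_cons_self with rfl | rfl
      · have := lett_even sH 0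
        simp only [Nat.mul_zero] at this
        rw [this]
        rfl
      · have := lett_even sH 1
        simp only [Nat.mul_one] at this
        rw [this]
        rfl
    show (lett sH l * evW sH w).1 = e ((if l = 0 then Wu else Wv) ++ _)
    rw [Subgroup.coe_mul, h1, h2]
    exact (el_append hL _ _).symm

theorem evW_sH_one {w : List ℕ} (hw : ∀ l ∈ w, l = 0 ∨ l = 2)
    (h : wChk Cfsg.Agent.Lib.Hs22Tab.R Cfsg.Agent.Lib.Hs22Tab.Y pr
      (w.flatMap fun l => if l = 0 then Wu else Wv) [] = true) : evW sH w = 1 := by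
  apply Subtype.ext
  rw [evW_sH w hw]
  exact eq_of_chk h

/-- The stabiliser is perfect. -/
theorem perfect_H : commutator ↥H = ⊤ := by
  have r1 : evW sH (List.replicate 3 0) = 1 := evW_sH_one (by decide) (by decide +kernel)
  have r2 : evW sH (List.replicate 7 2) = 1 := evW_sH_one (by decide) (by decide +kernel)
  have r3 : evW sH (List.flatten (List.replicate 8 [0, 2])) = 1 := evW_sH_one (by decide) (by decide +kernel)
  refine perfect_of_combo closure_sH
    [(19, List.replicate 3 0), (8, List.replicate 7 2), (-7, List.flatten (List.replicate 8 [0, 2]))]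
    [(16, List.replicate 3 0), (7, List.replicate 7 2), (-6, List.flatten (List.replicate 8 [0, 2]))]
    ?_ ?_ (by decide) (by decide) (by decide) (by decide)
  · intro p hp
    simp only [List.mem_cons, List.not_mem_nil, or_false] at hp
    rcases hp with rfl | rfl | rfl
    · exact ⟨by decide, r1⟩
    · exact ⟨by decide, r2⟩
    · exact ⟨by decide, r3⟩
  · intro p hp
    simp only [List.mem_cons, List.not_mem_nil, or_false] at hp
    rcases hp with rfl | rfl | rfl
    · exact ⟨by decide, r1⟩
    · exact ⟨by decide, r2⟩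
    · exact ⟨by decide, r3⟩

end Cfsg.Agent.Lib.HsGroup22
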