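import Cfsg.Agent.Lib.HsGroup22

/-!
# The Schur multiplier of the Higman-Sims group: the upper bound
-/

set_option autoImplicit false
set_option maxRecDepth 100000
set_option linter.style.haveILetI false

namespace Cfsg.Agent.Lib.HsUp22

open Subgroup Cfsg Cfsg.Agent.Lib.TcBits Cfsg.Agent.Lib.PermChain Cfsg.Agent.Lib.ProgBits
  Cfsg.Agent.Lib.ProgChain Cfsg.Agent.Lib.ProgMask22 Cfsg.Agent.Lib.ProgPair22 Cfsg.Agent.Lib.SchurCoset46
  Cfsg.Agent.Lib.SchurLoc22 Cfsg.Agent.Lib.SchurFib22 Cfsg.Agent.Lib.SchurPerf Cfsg.Agent.Lib.SchurOrbit12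
  Cfsg.Agent.Lib.SchurStem Cfsg.Agent.Lib.SchurLocal12 Cfsg.Agent.Lib.SchurTower
  Cfsg.Agent.Lib.SchurPackC Cfsg.Agent.Lib.SchurTarget12 Cfsg.Agent.Lib.HsData22 Cfsg.Agent.Lib.HsWords22 Cfsg.Agent.Lib.HsGroup22
open scoped Pointwise commutatorElement

/-- The check of equality of words. -/
noncomputable abbrev chk (v w : List ℕ) : Bool :=
  wChk Cfsg.Agent.Lib.Hs22Tab.R Cfsg.Agent.Lib.Hs22Tab.Y pr v w

theorem pow_word {w : List ℕ} (m : ℕ) (h : chk (List.flatten (List.replicate m w)) [] = true) : e w ^ m = 1 := by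
  rw [← el_pow hL w m]
  exact eq_of_chk h

theorem mul_word {a b c d : List ℕ} (h : chk (a ++ b) (c ++ d) = true) : e a * e b = e c * e d := by
  have h1 := eq_of_chk h
  have e1 := el_append hL a b
  have e2 := el_append hL c d
  rw [← e1, ← e2]
  exact h1

theorem conj_of_mul {G : Type*} [Group G] {t a c : G} (h : t * a = c * t) : t * a * t⁻¹ = c := by
  rw [h]
  group

/-! ### The semidihedral subgroup -/

theorem xH_pow : xH ^ 8 = 1 := Subtype.ext (pow_word 8 (by decide +kernel))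

theorem yH_pow : yH ^ 2 = 1 := Subtype.ext (pow_word 2 (by decide +kernel))

theorem yxy : yH * xH * yH⁻¹ = xH ^ 3 := by
  apply conj_of_mul
  apply Subtype.ext
  show e Wy * e Wx = (e Wx) ^ 3 * e Wy
  rw [← el_pow hL Wx 3]
  exact mul_word (by decide +kernel)

theorem x4_ne : xH ^ 4 ≠ 1 := by
  intro h
  have h1 : (e Wx) ^ 4 = 1 := congrArg Subtype.val h
  rw [← el_pow hL Wx 4] at h1
  have h2 := ctx.prodW_pt (w := List.flatten (List.replicate 4 Wx)) (p := qx4.2) (b := ⟨qx4.1, by decide⟩)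
    (by decide +kernel)
  have h3 : prodW (lp pr 100) (List.flatten (List.replicate 4 Wx)) = 1 := congrArg Subtype.val h1
  rw [h3] at h2
  exact absurd h2 (by decide)

theorem card_xy : Nat.card (closure ({xH, yH} : Set ↥H)) = 16 := by
  rw [card_closure_H]
  have h1 : (e Wx).1 = lp Cfsg.Agent.Lib.HsQ22Tab.pr 100 0 := by
    have h := prodW_eq_cross ctx Cfsg.Agent.Lib.HsQ22Main.ctx (w1 := Wx) (w2 := [0]) (by decide +kernel)
    simpa [prodW_cons, prodW_nil] using h
  have h2 : (e Wy).1 = lp Cfsg.Agent.Lib.HsQ22Tab.pr 100 1 := by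
    have h := prodW_eq_cross ctx Cfsg.Agent.Lib.HsQ22Main.ctx (w1 := Wy) (w2 := [1]) (by decide +kernel)
    simpa [prodW_cons, prodW_nil] using h
  have h : ({xH.1.1, yH.1.1} : Set (Equiv.Perm (Fin 100))) =
      {lp Cfsg.Agent.Lib.HsQ22Tab.pr 100 0, lp Cfsg.Agent.Lib.HsQ22Tab.pr 100 1} := by
    rw [← h1, ← h2]
    rfl
  rw [h, ← grp_pair]
  exact Cfsg.Agent.Lib.HsQ22Main.cardH0

theorem index_xy : (closure ({xH, yH} : Set ↥H)).index = 7875 := by
  have h := Subgroup.card_mul_index (closure ({xH, yH} : Set ↥H))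
  rw [card_xy, card_H] at h
  omega

theorem PT_H : PT.{0, 0} 2 ↥H := by
  intro Γ _ _ σ hσ
  refine coprime_of_pow (e := 7875) Nat.prime_two (by norm_num) ?_
  rintro ⟨k, hk⟩
  apply Subtype.ext
  have h := sd16_pow_index hσ xH_pow yH_pow yxy x4_ne hk
  rw [index_xy] at h
  exact h

/-! ### The odd primes -/

section stem

variable {Γ : Type} [Group Γ] [Finite Γ] {σ : Γ →* ↥K}

theorem card_ab3 : Nat.card (closure ({e Wa3, e Wb3} : Set ↥K)) = 9 := by
  rw [card_closure_pair]
  have h1 : (e Wa3).1 = lp Cfsg.Agent.Lib.HsE22Tab.pr 100 0 := by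
    have h := prodW_eq_cross ctx Cfsg.Agent.Lib.HsE22Main.ctx (w1 := Wa3) (w2 := [0]) (by decide +kernel)
    simpa [prodW_cons, prodW_nil] using h
  have h2 : (e Wb3).1 = lp Cfsg.Agent.Lib.HsE22Tab.pr 100 1 := by
    have h := prodW_eq_cross ctx Cfsg.Agent.Lib.HsE22Main.ctx (w1 := Wb3) (w2 := [1]) (by decide +kernel)
    simpa [prodW_cons, prodW_nil] using h
  rw [h1, h2, ← grp_pair]
  exact Cfsg.Agent.Lib.HsE22Main.cardH0

theorem card_ab5 : Nat.card (closure ({e Wa5, e Wb5} : Set ↥K)) = 125 := by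
  rw [card_closure_pair]
  have h1 : (e Wa5).1 = lp Cfsg.Agent.Lib.HsF22Tab.pr 100 0 := by
    have h := prodW_eq_cross ctx Cfsg.Agent.Lib.HsF22Main.ctx (w1 := Wa5) (w2 := [0]) (by decide +kernel)
    simpa [prodW_cons, prodW_nil] using h
  have h2 : (e Wb5).1 = lp Cfsg.Agent.Lib.HsF22Tab.pr 100 1 := by
    have h := prodW_eq_cross ctx Cfsg.Agent.Lib.HsF22Main.ctx (w1 := Wb5) (w2 := [1]) (by decide +kernel)
    simpa [prodW_cons, prodW_nil] using h
  rw [h1, h2, ← grp_pair]
  exact Cfsg.Agent.Lib.HsF22Main.cardH0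

theorem ker3 (hσ : IsStemExtension σ) {k : Γ} (hk : k ∈ σ.ker) : k ^ 4928000 = 1 := by
  have hta : e Wt3 * e Wa3 * (e Wt3)⁻¹ = (e Wa3)⁻¹ := by
    apply conj_of_mul
    rw [eq_inv_mul_iff_mul_eq, ← mul_assoc]
    have := mul_word (a := Wa3 ++ Wt3) (b := Wa3) (c := Wt3) (d := []) (by decide +kernel)
    have e1 : e (Wa3 ++ Wt3) = e Wa3 * e Wt3 := el_append hL _ _
    have e0 : e [] = 1 := rfl
    rw [e1, e0, mul_one] at this
    exact this
  have htb : e Wt3 * e Wb3 * (e Wt3)⁻¹ = e Wb3 :=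
    conj_of_mul (mul_word (by decide +kernel))
  have h := refl_pow_index hσ (a := e Wa3) (b := e Wb3) (t := e Wt3) (p := 3) (by norm_num)
    (pow_word 3 (by decide +kernel)) (mul_word (by decide +kernel)) hta htb hk
  have hi : (closure ({e Wa3, e Wb3} : Set ↥K)).index = 4928000 := by
    have h1 := Subgroup.card_mul_index (closure ({e Wa3, e Wb3} : Set ↥K))
    rw [card_ab3, card_K] at h1
    omega
  rwa [hi] at h

theorem ker5 (hσ : IsStemExtension σ) {k : Γ} (hk : k ∈ σ.ker) : k ^ 354816 = 1 := by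
  have hc : ⁅e Wa5, e Wb5⁆ = e Wc5 := by
    rw [commutatorElement_def]
    have h1 : e Wa5 * e Wb5 = e Wc5 * e Wb5 * e Wa5 := by
      rw [mul_assoc]
      have := mul_word (a := Wa5) (b := Wb5) (c := Wc5) (d := Wb5 ++ Wa5) (by decide +kernel)
      have e1 : e (Wb5 ++ Wa5) = e Wb5 * e Wa5 := el_append hL _ _
      rwa [e1] at this
    rw [h1]
    group
  have hta : e Wt5 * e Wa5 * (e Wt5)⁻¹ = e Wa5 ^ 2 := by
    apply conj_of_mul
    rw [← el_pow hL Wa5 2]
    exact mul_word (by decide +kernel)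
  have htb : e Wt5 * e Wb5 * (e Wt5)⁻¹ = e Wb5 ^ 2 := by
    apply conj_of_mul
    rw [← el_pow hL Wb5 2]
    exact mul_word (by decide +kernel)
  have htc : e Wt5 * e Wc5 * (e Wt5)⁻¹ = e Wc5 ^ (2 * 2) := by
    apply conj_of_mul
    rw [← el_pow hL Wc5 (2 * 2)]
    exact mul_word (by decide +kernel)
  have hc1 : e Wc5 ≠ 1 := by
    intro h
    have h2 := ctx.prodW_pt (w := Wc5) (p := qc5.2) (b := ⟨qc5.1, by decide⟩) (by decide +kernel)
    have h3 : prodW (lp pr 100) Wc5 = 1 := congrArg Subtype.val h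
    rw [h3] at h2
    exact absurd h2 (by decide)
  have h := scalar_pow_index hσ (a := e Wa5) (b := e Wb5) (t := e Wt5) (p := 5) (i := 2) (by norm_num)
    (pow_word 5 (by decide +kernel)) (pow_word 5 (by decide +kernel)) hta htb
    (by rw [hc]; exact mul_word (by decide +kernel)) (by rw [hc]; exact mul_word (by decide +kernel))
    (by rw [hc]; exact htc) (by norm_num) (by norm_num) (by rw [hc]; exact hc1) hk
  have hi : (closure ({e Wa5, e Wb5} : Set ↥K)).index = 354816 := by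
    have h1 := Subgroup.card_mul_index (closure ({e Wa5, e Wb5} : Set ↥K))
    rw [card_ab5, card_K] at h1
    omega
  rwa [hi] at h

theorem dvd16_aux (d : ℕ) (h1 : d ∣ 39424) (h2 : d ^ 2 ∣ 44352000) : d ∣ 16 := by
  have h7 : Nat.Coprime d 7 := by
    rw [Nat.coprime_comm, Nat.Prime.coprime_iff_not_dvd (by norm_num)]
    intro h
    have h3 : 7 ^ 2 ∣ d ^ 2 := pow_dvd_pow_of_dvd h 2
    have h4 := h3.trans h2
    norm_num at h4
  have h11 : Nat.Coprime d 11 := by
    rw [Nat.coprime_comm, Nat.Prime.coprime_iff_not_dvd (by norm_num)]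
    intro h
    have h3 : 11 ^ 2 ∣ d ^ 2 := pow_dvd_pow_of_dvd h 2
    have h4 := h3.trans h2
    norm_num at h4
  have h3 : d ∣ 2 ^ 9 := by
    have e : 39424 = 2 ^ 9 * (7 * 11) := by norm_num
    rw [e] at h1
    exact Nat.Coprime.dvd_of_dvd_mul_right (Nat.Coprime.mul_right h7 h11) h1
  obtain ⟨i, hi, rfl⟩ := (Nat.dvd_prime_pow Nat.prime_two).1 h3
  interval_cases i <;> first | (norm_num; done) | (exfalso; revert h2; norm_num; done)

theorem ker16 (hσ : IsStemExtension σ) {k : Γ} (hk : k ∈ σ.ker) : k ^ 16 = 1 := by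
  have h1 := Cfsg.Agent.Lib.SchurPackC.sq_orderOf_dvd hσ hk
  rw [card_K] at h1
  have h3 := orderOf_dvd_of_pow_eq_one (ker3 hσ hk)
  have h5 := orderOf_dvd_of_pow_eq_one (ker5 hσ hk)
  have h6 : orderOf k ∣ 39424 := by
    have := Nat.dvd_gcd h3 h5
    have e : Nat.gcd 4928000 354816 = 39424 := by norm_num
    rwa [e] at this
  have h7 := dvd16_aux _ h6 h1
  exact orderOf_dvd_iff_pow_eq_one.mp h7

theorem rels_ok : ∀ j, j < 64 → (∀ l ∈ rels.getD j [], l < 4) ∧ chk (expW 3 7 (rels.getD j [])) [] = true := by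
  decide +kernel

/-- The upper bound. -/
theorem up (hσ : IsStemExtension σ) : ∃ u : σ.ker, u ^ 2 = 1 ∧ ∀ k : σ.ker, k ∈ zpowers u := by
  have h16 : ∀ k ∈ σ.ker, k ^ 16 = 1 := fun k hk => ker16 hσ hk
  obtain ⟨y, hy, hy3⟩ := exists_lift_pow hσ (n := 3) (u := 5) s0_pow h16 (by norm_num)
  obtain ⟨w, hw, hw7⟩ := exists_lift_pow hσ (n := 7) (u := 9) (s1_pow (i := 1) (by norm_num)) h16 (by norm_num)
  let x : ℕ → Γ := fun i => if i = 0 then y else w
  have hx : ∀ i, σ (x i) = s i := by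
    intro i
    by_cases h0 : i = 0
    · subst h0
      simpa [x] using hy
    · have e1 : x i = w := by simp [x, h0]
      have e2 : s i = s 1 := (s2_of_ne hL h0).trans (s2_of_ne hL (by norm_num)).symm
      rw [e1, e2, hw]
  have hl0 : lett x 0 = y := by
    have := lett_even x 0
    simpa [x] using this
  have hl2 : lett x 2 = w := by
    have := lett_even x 1
    simpa [x] using this
  have hnorm : ∀ j, j < cert.R → cert.normal j = true → evW x (cert.rels j) = 1 := by
    intro j hjR hj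
    by_cases h0 : j = 0
    · subst h0
      have e : cert.rels 0 = List.replicate 3 0 := by decide +kernel
      rw [e, evW_replicate, hl0, hy3]
    · by_cases h1 : j = 1
      · subst h1
        have e : cert.rels 1 = List.replicate 7 2 := by decide +kernel
        rw [e, evW_replicate, hl2, hw7]
      · exfalso
        have e : cert.normal j = (Nat.beq j 0 || Nat.beq j 1) := rfl
        rw [e, Bool.or_eq_true] at hj
        rcases hj with hj | hj
        · exact h0 (Nat.eq_of_beq_eq_true hj)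
        · exact h1 (Nat.eq_of_beq_eq_true hj)
  have hrels : ∀ j, j < cert.R → ∀ l ∈ cert.rels j, l < 2 * cert.m := fun j hj l hl => (rels_ok j hj).1 l hl
  have hrel : ∀ j, j < cert.R → evW s (cert.rels j) = 1 := by
    intro j hj
    have h1 := rels_ok j hj
    have h2 := evW_s2 hL (oa := 3) (ob := 7) (by norm_num) (by norm_num) a_pow b_pow (rels.getD j []) h1.1
    show evW s (rels.getD j []) = 1
    rw [show evW s (rels.getD j []) = _ from h2]
    exact eq_of_chk h1.2
  exact ker_cyclic_of_cert hσ (p := 2) (e := 4) Nat.prime_two perfect_H PT_H cert cert_ok (by norm_num [cert])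
    (by norm_num [cert]) h16 (mask := mask) rfl (fun c hc h => mask_ne c hc h) hms hgen hx hrels hrel hnorm

end stem

end Cfsg.Agent.Lib.HsUp22
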