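import Mathlib
import Cfsg.Agent.Lib.CoprimeInv

/-!
# Odd order groups with an involutory automorphism

`D` is a finite group of odd order, `t` an automorphism with `t ∘ t = id`.
-/

set_option autoImplicit false
set_option linter.unusedSectionVars false
set_option linter.unusedVariables false
set_option linter.style.haveILetI false
set_option linter.unusedSimpArgs false

namespace Cfsg.Agent.Lib.HuaA

open Subgroup Cfsg.Agent.Lib.CoprimeInv

universe u

variable {D : Type u} [Group D]

/-- An odd order group with an involutory automorphism. -/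
structure OddInv (t : D ≃* D) : Prop where
  fin : Finite D
  odd : Odd (Nat.card D)
  tt : ∀ d, t (t d) = d

variable {t : D ≃* D}

/-- The subgroup `X` is `t`-invariant. -/
def TInv (t : D ≃* D) (X : Subgroup D) : Prop := ∀ x ∈ X, t x ∈ X

lemma OddInv.odd_order (h : OddInv t) (x : D) : Odd (orderOf x) := by
  haveI := h.fin
  exact Odd.of_dvd_nat h.odd (orderOf_dvd_natCard x)

lemma OddInv.odd_sub (h : OddInv t) (X : Subgroup D) : Odd (Nat.card X) := by
  haveI := h.fin
  exact Odd.of_dvd_nat h.odd (Subgroup.card_subgroup_dvd_card X)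

/-- Square root formula. -/
lemma OddInv.eq_pow_sq (h : OddInv t) (x : D) : x = (x * x) ^ ((orderOf x + 1) / 2) := by
  obtain ⟨m, hm⟩ := h.odd_order x
  have h1 : (orderOf x + 1) / 2 = m + 1 := by omega
  rw [h1, ← sq, ← pow_mul]
  have h2 : 2 * (m + 1) = orderOf x + 1 := by omega
  rw [h2, pow_succ, pow_orderOf_eq_one, one_mul]

lemma OddInv.mem_zpowers_sq (h : OddInv t) (x : D) : x ∈ Subgroup.zpowers (x * x) := by
  have e := h.eq_pow_sq x
  have := Subgroup.npow_mem_zpowers (x * x) ((orderOf x + 1) / 2)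
  rwa [← e] at this

lemma OddInv.orderOf_sq (h : OddInv t) (x : D) : orderOf (x * x) = orderOf x := by
  haveI := h.fin
  rw [← sq, orderOf_pow]
  have : Nat.gcd (orderOf x) 2 = 1 := by
    apply Nat.Coprime.symm
    exact (Nat.coprime_two_left).mpr (h.odd_order x)
  rw [this, Nat.div_one]

lemma OddInv.sq_inj (h : OddInv t) {x y : D} (e : x * x = y * y) : x = y := by
  have h1 : orderOf x = orderOf y := by rw [← h.orderOf_sq x, ← h.orderOf_sq y, e]
  rw [h.eq_pow_sq x, h.eq_pow_sq y, e, h1]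

lemma OddInv.exists_sqrt (h : OddInv t) (x : D) : ∃ y ∈ Subgroup.zpowers x, y * y = x := by
  obtain ⟨m, hm⟩ := h.odd_order x
  refine ⟨x ^ (m + 1), Subgroup.npow_mem_zpowers x _, ?_⟩
  rw [← pow_add, show m + 1 + (m + 1) = orderOf x + 1 by omega, pow_succ, pow_orderOf_eq_one, one_mul]

/-- Element commuting with `y * y` commutes with `y`. -/
lemma OddInv.comm_of_sq (h : OddInv t) {x y : D} (e : x * (y * y) = (y * y) * x) : x * y = y * x := by
  have h1 := h.mem_zpowers_sq y
  have hc : Commute x (y * y) := e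
  obtain ⟨n, hn⟩ := Subgroup.mem_zpowers_iff.mp h1
  rw [← hn]
  exact (hc.zpow_right n)

/-- An element conjugate to its inverse is trivial. -/
lemma OddInv.eq_one_of_real (h : OddInv t) {g x : D} (e : g * x * g⁻¹ = x⁻¹) : x = 1 := by
  have h1 : (g * g) * x * (g * g)⁻¹ = x := by
    have : (g * g) * x * (g * g)⁻¹ = g * (g * x * g⁻¹) * g⁻¹ := by group
    rw [this, e]
    have : g * x⁻¹ * g⁻¹ = (g * x * g⁻¹)⁻¹ := by group
    rw [this, e, inv_inv]
  have h2 : x * (g * g) = (g * g) * x := by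
    have : (g * g) * x = x * (g * g) := by
      calc (g * g) * x = ((g * g) * x * (g * g)⁻¹) * (g * g) := by group
        _ = x * (g * g) := by rw [h1]
    exact this.symm
  have h3 := h.comm_of_sq h2
  have h4 : g * x * g⁻¹ = x := by
    rw [← h3]
    group
  rw [h4] at e
  have h5 : x * x = 1 := by
    calc x * x = x * x⁻¹ := by rw [← e]
      _ = 1 := by group
  have : x * x = (1 : D) * 1 := by simpa using h5
  exact h.sq_inj this

/-- Fixed elements. -/
def IsV (t : D ≃* D) (v : D) : Prop := t v = v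

/-- Inverted elements. -/
def IsK (t : D ≃* D) (k : D) : Prop := t k = k⁻¹

lemma IsK.one : IsK t (1 : D) := by simp [IsK]

lemma IsV.one : IsV t (1 : D) := by simp [IsV]

lemma IsK.inv {k : D} (h : IsK t k) : IsK t k⁻¹ := by
  unfold IsK at *
  simp [h]

lemma IsV.inv {k : D} (h : IsV t k) : IsV t k⁻¹ := by
  unfold IsV at *
  simp [h]

lemma IsV.mul {k l : D} (h : IsV t k) (h' : IsV t l) : IsV t (k * l) := by
  unfold IsV at *
  simp [h, h']

lemma IsK.pow {k : D} (h : IsK t k) (n : ℕ) : IsK t (k ^ n) := by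
  unfold IsK at *
  simp [h]

lemma IsV.pow {k : D} (h : IsV t k) (n : ℕ) : IsV t (k ^ n) := by
  unfold IsV at *
  simp [h]

lemma IsK.zpow {k : D} (h : IsK t k) (n : ℤ) : IsK t (k ^ n) := by
  unfold IsK at *
  simp [h]

lemma IsV.zpow {k : D} (h : IsV t k) (n : ℤ) : IsV t (k ^ n) := by
  unfold IsV at *
  simp [h]

lemma IsK.mul_comm_of {k l : D} (h : IsK t k) (h' : IsK t l) (e : k * l = l * k) : IsK t (k * l) := by
  unfold IsK at *
  simp only [map_mul, h, h', mul_inv_rev]
  exact (Commute.inv_inv (show Commute k l from e)).eq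

lemma IsK.sandwich {k l : D} (h : IsK t k) (h' : IsK t l) : IsK t (k * l * k) := by
  unfold IsK at *
  simp only [map_mul, h, h', mul_inv_rev]
  group

lemma IsV.conj_K {v k : D} (h : IsV t v) (h' : IsK t k) : IsK t (v * k * v⁻¹) := by
  unfold IsK IsV at *
  simp only [map_mul, map_inv, h, h']
  group

lemma IsV.conj_V {v k : D} (h : IsV t v) (h' : IsV t k) : IsV t (v * k * v⁻¹) := by
  unfold IsV at *
  simp only [map_mul, map_inv, h, h']

/-- Existence of the factorisation. -/
lemma OddInv.decomp (h : OddInv t) (d : D) : ∃ v k, IsV t v ∧ IsK t k ∧ d = v * k := by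
  set x := (t d)⁻¹ * d with hx
  have hxK : IsK t x := by
    unfold IsK
    simp only [hx, map_mul, map_inv, h.tt, mul_inv_rev, inv_inv]
  obtain ⟨k, hk, hkk⟩ := h.exists_sqrt x
  have hkK : IsK t k := by
    obtain ⟨n, rfl⟩ := Subgroup.mem_zpowers_iff.mp hk
    exact hxK.zpow n
  refine ⟨d * k⁻¹, k, ?_, hkK, by group⟩
  unfold IsV
  unfold IsK at hkK
  simp only [map_mul, map_inv, hkK, inv_inv]
  have h1 : d = t d * (k * k) := by
    rw [hkk, hx]
    group
  calc t d * k = t d * (k * k) * k⁻¹ := by group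
    _ = d * k⁻¹ := by rw [← h1]

lemma OddInv.decomp_unique (h : OddInv t) {v v' k k' : D} (hv : IsV t v) (hv' : IsV t v')
    (hk : IsK t k) (hk' : IsK t k') (e : v * k = v' * k') : v = v' ∧ k = k' := by
  have h1 : t (v * k) = t (v' * k') := by rw [e]
  unfold IsV IsK at *
  simp only [map_mul, hv, hv', hk, hk'] at h1
  -- `v k = v' k'`, `v k⁻¹ = v' k'⁻¹`
  have h2 : k * k = k' * k' := by
    have h3 : (v * k⁻¹)⁻¹ * (v * k) = (v' * k'⁻¹)⁻¹ * (v' * k') := by rw [h1, e]
    have h4 : (v * k⁻¹)⁻¹ * (v * k) = k * k := by group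
    have h5 : (v' * k'⁻¹)⁻¹ * (v' * k') = k' * k' := by group
    rw [h4, h5] at h3
    exact h3
  have h6 := h.sq_inj h2
  subst h6
  exact ⟨mul_right_cancel e, rfl⟩

/-- Factorisation inside a `t`-invariant subgroup. -/
lemma OddInv.decomp_mem (h : OddInv t) {X : Subgroup D} (hX : TInv t X) {d : D} (hd : d ∈ X) :
    ∃ v ∈ X, ∃ k ∈ X, IsV t v ∧ IsK t k ∧ d = v * k := by
  set x := (t d)⁻¹ * d with hx
  have hxX : x ∈ X := X.mul_mem (X.inv_mem (hX d hd)) hd
  have hxK : IsK t x := by
    unfold IsK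
    simp only [hx, map_mul, map_inv, h.tt, mul_inv_rev, inv_inv]
  obtain ⟨k, hk, hkk⟩ := h.exists_sqrt x
  have hkK : IsK t k := by
    obtain ⟨n, rfl⟩ := Subgroup.mem_zpowers_iff.mp hk
    exact hxK.zpow n
  have hkX : k ∈ X := by
    obtain ⟨n, rfl⟩ := Subgroup.mem_zpowers_iff.mp hk
    exact X.zpow_mem hxX n
  refine ⟨d * k⁻¹, X.mul_mem hd (X.inv_mem hkX), k, hkX, ?_, hkK, by group⟩
  unfold IsV
  unfold IsK at hkK
  simp only [map_mul, map_inv, hkK, inv_inv]
  have h1 : d = t d * (k * k) := by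
    rw [hkk, hx]
    group
  calc t d * k = t d * (k * k) * k⁻¹ := by group
    _ = d * k⁻¹ := by rw [← h1]

/-- Inverted elements centralising fixed elements (Glauberman's observation). -/
lemma OddInv.K_comm (h : OddInv t) {k x : D} (hk : IsK t k) (hx : IsV t x)
    (hkx : IsV t (k * x * k⁻¹)) : k * x = x * k := by
  unfold IsK IsV at *
  have h1 : t (k * x * k⁻¹) = k⁻¹ * x * k := by
    simp only [map_mul, map_inv, hk, hx, inv_inv]
  rw [h1] at hkx
  have h2 : x * (k * k) = (k * k) * x := by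
    calc x * (k * k) = k * (k⁻¹ * x * k) * k := by group
      _ = k * (k * x * k⁻¹) * k := by rw [hkx]
      _ = (k * k) * x := by group
  exact (h.comm_of_sq h2).symm

/-- A `t`-invariant conjugate under an inverted element is the same subgroup. -/
lemma OddInv.conj_tinv (h : OddInv t) {X : Subgroup D} (hX : TInv t X) {k : D} (hk : IsK t k)
    (hkX : TInv t (cj X k)) : k ∈ normalizer (X : Set D) := by
  haveI := h.fin
  unfold IsK at hk
  -- `k⁻¹ X k = k X k⁻¹`
  have h1 : cj X k ≤ cj X k⁻¹ := by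
    intro y hy
    have h2 := hkX y hy
    rw [mem_cj] at h2
    rw [mem_cj]
    have h3 := hX _ h2
    simp only [map_mul, map_inv, hk, inv_inv, h.tt] at h3
    simpa using h3
  have h2 : cj X k = cj X k⁻¹ := by
    exact Subgroup.eq_of_le_of_card_ge h1 (by rw [card_cj, card_cj])
  -- so `k * k` normalises `X`
  have h3 : cj X (k * k) = X := by
    have := cj_cj X k⁻¹ (k * k)
    rw [show k * k * k⁻¹ = k by group] at this
    rw [← h2] at this
    have h5 := cj_cj X k k⁻¹
    rw [show k⁻¹ * k = 1 by group, cj_one, h2] at h5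
    have h6 := cj_cj X k⁻¹ (k * k)
    rw [show k * k * k⁻¹ = k by group] at h6
    -- `cj (cj X k⁻¹) (k*k) = cj X k`; and `cj (cj X k) k = cj X (k*k)`.
    have h7 := cj_cj X k k
    rw [h2] at h7
    rw [← h7, cj_cj, show k * k⁻¹ = 1 by group, cj_one]
  have h4 : k * k ∈ normalizer (X : Set D) := mem_normalizer_of_cj_eq h3
  have h5 := h.mem_zpowers_sq k
  obtain ⟨n, hn⟩ := Subgroup.mem_zpowers_iff.mp h5
  rw [← hn]
  exact Subgroup.zpow_mem _ h4 n

/-- `t`-invariant conjugates of a `t`-invariant subgroup are conjugate by a fixed element. -/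
lemma OddInv.exists_V_conj (h : OddInv t) {X Y : Subgroup D} (hX : TInv t X) (hY : TInv t Y)
    {d : D} (e : Y = cj X d) : ∃ v, IsV t v ∧ Y = cj X v := by
  obtain ⟨v, k, hv, hk, rfl⟩ := h.decomp d
  refine ⟨v, hv, ?_⟩
  have h1 : TInv t (cj X k) := by
    intro y hy
    rw [mem_cj] at hy
    have h2 : (v * k) * (k⁻¹ * y * k) * (v * k)⁻¹ ∈ Y := by
      rw [e, mem_cj]
      convert hy using 1
      group
    have h3 := hY _ h2
    rw [e, mem_cj] at h3
    have h4 : t ((v * k) * (k⁻¹ * y * k) * (v * k)⁻¹) = v * (t y) * v⁻¹ := by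
      have hv' : t v = v := hv
      simp only [map_mul, map_inv, hv']
      have hk' : t k = k⁻¹ := hk
      simp only [hk']
      group
    rw [h4] at h3
    rw [mem_cj]
    convert h3 using 1
    group
  have h2 := h.conj_tinv hX hk h1
  have h3 : cj X k = X := cj_eq_of_mem_normalizer h2
  rw [e]
  rw [show cj X (v * k) = cj (cj X k) v from (cj_cj X k v).symm, h3]

end Cfsg.Agent.Lib.HuaA
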