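import Mathlib
import Cfsg.Agent.Lib.HuaA

/-!
# `t`-invariant Sylow subgroups in odd order groups with an involutory automorphism
-/

set_option autoImplicit false
set_option linter.unusedSectionVars false
set_option linter.unusedVariables false
set_option linter.style.haveILetI false
set_option linter.unusedSimpArgs false

namespace Cfsg.Agent.Lib.HuaB

open Subgroup Cfsg.Agent.Lib.CoprimeInv Cfsg.Agent.Lib.HuaA

universe u

variable {D : Type u} [Group D] {t : D ≃* D}

/-- Restriction of `t` to an invariant subgroup. -/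
def restr (h : OddInv t) (X : Subgroup D) (hX : TInv t X) : X ≃* X where
  toFun x := ⟨t x, hX x x.2⟩
  invFun x := ⟨t x, hX x x.2⟩
  left_inv x := Subtype.ext (h.tt x)
  right_inv x := Subtype.ext (h.tt x)
  map_mul' x y := Subtype.ext (by simp)

lemma exists_fixed_of_odd' {X : Type*} [Finite X] (f : X → X) (hf : Function.Involutive f)
    (h : Odd (Nat.card X)) : ∃ x, f x = x := by
  classical
  have := Fintype.ofFinite X
  by_contra hne
  push Not at hne
  have h1 : (hf.toPerm f) ^ 2 = 1 := by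
    ext x
    simp [pow_two, hf x]
  have h2 := Equiv.Perm.two_dvd_card_support h1
  have h3 : (hf.toPerm f).support = Finset.univ := by
    ext x
    simp [Equiv.Perm.mem_support, hne x]
  rw [h3, Finset.card_univ, ← Nat.card_eq_fintype_card] at h2
  rw [Nat.odd_iff] at h
  omega

/-- A Sylow subgroup fixed by an involutory automorphism. -/
lemma exists_fixed_sylow {G : Type u} [Group G] [Finite G] (hodd : Odd (Nat.card G)) (ψ : G ≃* G)
    (hψ : ∀ g, ψ (ψ g) = g) (p : ℕ) [Fact p.Prime] :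
    ∃ P : Sylow p G, ∀ x ∈ (P : Subgroup G), ψ x ∈ (P : Subgroup G) := by
  classical
  let φ : MulAut G := ψ
  have hφ : φ * φ = 1 := by
    ext g
    exact hψ g
  have hc : Odd (Nat.card (Sylow p G)) := by
    have h0 : (default : Sylow p G) = default := rfl
    rw [Sylow.card_eq_index_normalizer (default : Sylow p G)]
    exact Odd.of_dvd_nat hodd (Subgroup.index_dvd_card _)
  obtain ⟨P, hP⟩ := exists_fixed_of_odd' (fun P : Sylow p G => φ • P)
    (by
      intro P
      show φ • φ • P = P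
      rw [smul_smul, hφ, one_smul]) hc
  refine ⟨P, fun x hx => ?_⟩
  have h1 : ψ x ∈ ((φ • P : Sylow p G) : Subgroup G) := by
    rw [Sylow.pointwise_smul_def]
    exact Subgroup.smul_mem_pointwise_smul x φ _ hx
  have hP' : φ • P = P := hP
  rwa [hP'] at h1

lemma TInv.normalizer_inf (h : OddInv t) {U X : Subgroup D} (hU : TInv t U) (hX : TInv t X) :
    TInv t (normalizer (U : Set D) ⊓ X) := by
  haveI := h.fin
  rintro x ⟨hx1, hx2⟩
  have hx1' : x ∈ normalizer (U : Set D) := hx1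
  refine ⟨?_, hX x hx2⟩
  show t x ∈ normalizer (U : Set D)
  rw [Subgroup.mem_normalizer_iff]
  intro y
  have e : t (x * t y * x⁻¹) = t x * y * (t x)⁻¹ := by simp [h.tt]
  constructor
  · intro hy
    rw [← e]
    exact hU _ ((Subgroup.mem_normalizer_iff.mp hx1' (t y)).mp (hU y hy))
  · intro hy
    rw [← e] at hy
    have h1 := hU _ hy
    rw [h.tt] at h1
    have h2 := (Subgroup.mem_normalizer_iff.mp hx1' (t y)).mpr h1
    have h3 := hU _ h2
    rwa [h.tt] at h3

/-- Every `t`-invariant `p`-subgroup of a `t`-invariant subgroup `X` lies in a `t`-invariant Sylow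
`p`-subgroup of `X`. -/
theorem exists_tinv_sylow_ge (h : OddInv t) {p : ℕ} [Fact p.Prime] {X U : Subgroup D}
    (hX : TInv t X) (hUX : U ≤ X) (hU : TInv t U) (hUp : IsPGroup p U) :
    ∃ S, IsSylowIn p S X ∧ TInv t S ∧ U ≤ S := by
  classical
  haveI := h.fin
  let 𝒰 : Set (Subgroup D) := {W | U ≤ W ∧ W ≤ X ∧ TInv t W ∧ IsPGroup p W}
  have hne : 𝒰.Nonempty := ⟨U, le_rfl, hUX, hU, hUp⟩
  obtain ⟨U₀, hU₀⟩ := (Set.toFinite 𝒰).exists_maximal hne
  obtain ⟨⟨h1, h2, h3, h4⟩, hmax⟩ := hU₀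
  refine ⟨U₀, ⟨h2, h4, ?_⟩, h3, h1⟩
  intro R hRX hRp hUR
  by_contra hne'
  have hlt : U₀ < R := lt_of_le_of_ne hUR (Ne.symm hne')
  -- an element of `R` normalising `U₀`, outside `U₀`
  have hRn : Group.IsNilpotent R := by
    haveI : Finite R := inferInstance
    exact hRp.isNilpotent
  have hnc := normalizerCondition_of_isNilpotent (G := R)
  have hlt2 : U₀.subgroupOf R < ⊤ := by
    rw [lt_top_iff_ne_top]
    intro e
    apply not_le_of_gt hlt
    exact subgroupOf_eq_top.mp e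
  have hlt3 := hnc _ hlt2
  obtain ⟨x, hx, hx'⟩ := SetLike.exists_of_lt hlt3
  have hxN : (x : D) ∈ normalizer (U₀ : Set D) := by
    rw [Subgroup.mem_normalizer_iff]
    intro y
    constructor
    · intro hy
      have hyR : y ∈ R := hUR hy
      have := (Subgroup.mem_normalizer_iff.mp hx ⟨y, hyR⟩).mp hy
      exact this
    · intro hy
      have hyR : y ∈ R := by
        have h5 : x * y * (x : D)⁻¹ ∈ R := hUR hy
        have h6 : (x : D)⁻¹ * (x * y * (x : D)⁻¹) * x = y := by group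
        rw [← h6]
        exact R.mul_mem (R.mul_mem (R.inv_mem x.2) h5) x.2
      exact (Subgroup.mem_normalizer_iff.mp hx ⟨y, hyR⟩).mpr hy
  have hxU : (x : D) ∉ U₀ := hx'
  -- the `t`-invariant group `N = N_X(U₀)`
  let N : Subgroup D := normalizer (U₀ : Set D) ⊓ X
  have hNt : TInv t N := TInv.normalizer_inf h h3 hX
  have hU₀N : U₀ ≤ N := le_inf le_normalizer h2
  have hxNN : (x : D) ∈ N := ⟨hxN, hRX x.2⟩
  obtain ⟨P, hP⟩ := exists_fixed_sylow (h.odd_sub N) (restr h N hNt) (fun g => Subtype.ext (h.tt g)) p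
  let S₁ : Subgroup D := (P : Subgroup N).map N.subtype
  have hS₁ : IsSylowIn p S₁ N := isSylowIn_map P
  have hS₁t : TInv t S₁ := by
    rintro y ⟨z, hz, rfl⟩
    exact ⟨restr h N hNt z, hP z hz, rfl⟩
  -- `U₀ ≤ S₁`
  have hUS : U₀ ≤ S₁ := by
    have hn : (U₀.subgroupOf N).Normal := by
      have : N ≤ normalizer (U₀ : Set D) := inf_le_left
      constructor
      intro n hn g
      rw [mem_subgroupOf] at hn ⊢
      exact (Subgroup.mem_normalizer_iff.mp (this g.2) n).mp hn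
    have hpp : IsPGroup p (U₀.subgroupOf N) :=
      h4.of_injective (Subgroup.subgroupOfEquivOfLe hU₀N).toMonoidHom
        (Subgroup.subgroupOfEquivOfLe hU₀N).injective
    have hle : U₀.subgroupOf N ≤ (P : Subgroup N) :=
      sup_eq_right.mp (P.is_maximal' (hpp.to_sup_of_normal_left P.isPGroup') le_sup_right)
    intro y hy
    exact ⟨⟨y, hU₀N hy⟩, hle hy, rfl⟩
  have hS₁X : S₁ ≤ X := hS₁.1.trans inf_le_right
  have hS₁m : S₁ ∈ 𝒰 := ⟨h1.trans hUS, hS₁X, hS₁t, hS₁.2.1⟩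
  have hS₁U : S₁ ≤ U₀ := hmax hS₁m hUS
  have heq : S₁ = U₀ := le_antisymm hS₁U hUS
  -- but `U₀ ⊔ ⟨x⟩` is a larger `p`-subgroup of `N`
  let Q₁ : Subgroup D := Subgroup.zpowers (x : D) ⊔ U₀
  have hQ₁ : IsPGroup p Q₁ := by
    apply isPGroup_sup_of_le_normalizer ?_ h4
    · rw [Subgroup.zpowers_le]
      exact hxN
    · have hz : IsPGroup p (Subgroup.zpowers (x : D)) := by
        intro y
        obtain ⟨y, hy⟩ := y
        obtain ⟨n, rfl⟩ := Subgroup.mem_zpowers_iff.mp hy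
        obtain ⟨m, hm⟩ := hRp x
        refine ⟨m, Subtype.ext ?_⟩
        have hm' : (x : D) ^ (p ^ m) = 1 := by
          have := congrArg (Subtype.val) hm
          simpa using this
        show ((x : D) ^ n) ^ (p ^ m) = 1
        rw [← zpow_natCast, zpow_comm, zpow_natCast, hm', one_zpow]
      exact hz
  have hQ₁N : Q₁ ≤ N := sup_le (by rw [Subgroup.zpowers_le]; exact hxNN) hU₀N
  have hS₁Q : S₁ ≤ Q₁ := by rw [heq]; exact le_sup_right
  have := hS₁.2.2 Q₁ hQ₁N hQ₁ hS₁Q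
  apply hxU
  rw [← heq, ← this]
  exact Subgroup.mem_sup_left (Subgroup.mem_zpowers _)

/-- Fixed part of a subgroup. -/
def VP (t : D ≃* D) (X : Subgroup D) : Subgroup D where
  carrier := {x | x ∈ X ∧ t x = x}
  mul_mem' := by
    rintro a b ⟨ha, ha'⟩ ⟨hb, hb'⟩
    exact ⟨X.mul_mem ha hb, by simp [ha', hb']⟩
  one_mem' := ⟨X.one_mem, by simp⟩
  inv_mem' := by
    rintro a ⟨ha, ha'⟩
    exact ⟨X.inv_mem ha, by simp [ha']⟩

/-- Inverted part of a subgroup. -/
def KP (t : D ≃* D) (X : Subgroup D) : Set D := {x | x ∈ X ∧ t x = x⁻¹}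

lemma mem_VP {X : Subgroup D} {x : D} : x ∈ VP t X ↔ x ∈ X ∧ t x = x := Iff.rfl

lemma mem_KP {X : Subgroup D} {x : D} : x ∈ KP t X ↔ x ∈ X ∧ t x = x⁻¹ := Iff.rfl

lemma VP_tinv (X : Subgroup D) : TInv t (VP t X) := by
  rintro x ⟨hx, hx'⟩
  rw [mem_VP, hx']
  exact ⟨hx, hx'⟩

/-- `|X| = |C_X(t)| |K_X|`. -/
theorem card_decomp (h : OddInv t) {X : Subgroup D} (hX : TInv t X) :
    Nat.card X = Nat.card (VP t X) * Nat.card (KP t X) := by
  classical
  haveI := h.fin
  let f : VP t X × KP t X → X := fun p =>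
    ⟨(p.1 : D) * (p.2 : D), X.mul_mem p.1.2.1 p.2.2.1⟩
  have hf : Function.Bijective f := by
    constructor
    · rintro ⟨⟨v, hv⟩, ⟨k, hk⟩⟩ ⟨⟨v', hv'⟩, ⟨k', hk'⟩⟩ e
      have e' : v * k = v' * k' := congrArg Subtype.val e
      obtain ⟨h1, h2⟩ := h.decomp_unique hv.2 hv'.2 hk.2 hk'.2 e'
      subst h1 h2
      rfl
    · rintro ⟨d, hd⟩
      obtain ⟨v, hv, k, hk, hvV, hkK, rfl⟩ := h.decomp_mem hX hd
      exact ⟨(⟨v, hv, hvV⟩, ⟨k, hk, hkK⟩), rfl⟩
  rw [← Nat.card_prod]
  exact (Nat.card_congr (Equiv.ofBijective f hf)).symm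

/-- Two `t`-invariant Sylow subgroups are conjugate by a fixed element. -/
theorem exists_V_conj_sylow (h : OddInv t) {p : ℕ} [Fact p.Prime] {S₁ S₂ X : Subgroup D}
    (h₁ : IsSylowIn p S₁ ⊤) (h₂ : IsSylowIn p S₂ ⊤) (ht₁ : TInv t S₁) (ht₂ : TInv t S₂) :
    ∃ v, IsV t v ∧ S₂ = cj S₁ v := by
  haveI := h.fin
  obtain ⟨g, -, hg⟩ := h₁.exists_conj h₂
  exact h.exists_V_conj ht₁ ht₂ hg

lemma VP_cj {S : Subgroup D} {v : D} (hv : IsV t v) : VP t (cj S v) = cj (VP t S) v := by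
  ext x
  rw [mem_VP, mem_cj, mem_cj, mem_VP]
  have hv' : t v = v := hv
  have h1 : t (v⁻¹ * x * v) = v⁻¹ * t x * v := by simp [hv']
  constructor
  · rintro ⟨h2, h3⟩
    exact ⟨h2, by rw [h1, h3]⟩
  · rintro ⟨h2, h3⟩
    refine ⟨h2, ?_⟩
    rw [h1] at h3
    have h4 : t x = v * (v⁻¹ * t x * v) * v⁻¹ := by group
    rw [h4, h3]
    group

lemma KP_cj {S : Subgroup D} {v : D} (hv : IsV t v) {x : D} : x ∈ KP t (cj S v) ↔ v⁻¹ * x * v ∈ KP t S := by
  rw [mem_KP, mem_KP, mem_cj]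
  have hv' : t v = v := hv
  have h1 : t (v⁻¹ * x * v) = v⁻¹ * t x * v := by simp [hv']
  constructor
  · rintro ⟨h2, h3⟩
    refine ⟨h2, ?_⟩
    rw [h1, h3]
    group
  · rintro ⟨h2, h3⟩
    refine ⟨h2, ?_⟩
    rw [h1] at h3
    have h4 : t x = v * (v⁻¹ * t x * v) * v⁻¹ := by group
    rw [h4, h3]
    group

/-- A fixed part of a `t`-invariant Sylow subgroup is Sylow in the fixed group. -/
theorem VP_sylow (h : OddInv t) {p : ℕ} [Fact p.Prime] {S : Subgroup D}
    (hS : IsSylowIn p S ⊤) (ht : TInv t S) : IsSylowIn p (VP t S) (VP t ⊤) := by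
  classical
  haveI := h.fin
  have hpV : IsPGroup p (VP t S) := by
    have hle : VP t S ≤ S := fun x hx => hx.1
    exact hS.2.1.to_le hle
  refine ⟨fun x hx => ⟨mem_top x, hx.2⟩, hpV, ?_⟩
  intro R hR hRp hVR
  have hRt : TInv t R := by
    intro x hx
    have : t x = x := (hR hx).2
    rwa [this]
  obtain ⟨S', hS', hS't, hRS'⟩ := exists_tinv_sylow_ge h (X := ⊤) (fun _ _ => mem_top _) le_top hRt hRp
  obtain ⟨v, hv, e⟩ := exists_V_conj_sylow h (X := ⊤) hS hS' ht hS't
  have h1 : R ≤ VP t S' := fun x hx => ⟨hRS' hx, (hR hx).2⟩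
  rw [e, VP_cj hv] at h1
  have hc : Nat.card R ≤ Nat.card (VP t S) := by
    have := Subgroup.card_le_of_le h1
    rwa [card_cj] at this
  exact (Subgroup.eq_of_le_of_card_ge hVR hc).symm

theorem card_of_sylowIn {p : ℕ} [Fact p.Prime] [Finite D] {S L : Subgroup D} (hS : IsSylowIn p S L) :
    Nat.card S = p ^ (Nat.card L).factorization p := by
  have h1 := Sylow.card_eq_multiplicity hS.toSylow
  rw [← h1]
  exact (card_subgroupOf_of_le hS.1).symm

/-- The inverted part of a `t`-invariant Sylow subgroup has the full `p`-part. -/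
theorem card_KP_sylow (h : OddInv t) {p : ℕ} [Fact p.Prime] {S : Subgroup D}
    (hS : IsSylowIn p S ⊤) (ht : TInv t S) :
    Nat.card (KP t S) = p ^ (Nat.card (KP t ⊤)).factorization p := by
  classical
  haveI := h.fin
  have hpp : p.Prime := Fact.out
  have h1 := card_decomp h ht
  have h2 := card_decomp h (X := ⊤) (fun _ _ => mem_top _)
  have h3 := card_of_sylowIn hS
  have h4 := card_of_sylowIn (VP_sylow h hS ht)
  have hK : Nat.card (KP t (⊤ : Subgroup D)) ≠ 0 := by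
    intro e
    rw [e, mul_zero] at h2
    exact Nat.card_pos.ne' h2
  have hV : Nat.card (VP t (⊤ : Subgroup D)) ≠ 0 := by
    intro e
    rw [e, zero_mul] at h2
    exact Nat.card_pos.ne' h2
  rw [h2, Nat.factorization_mul hV hK, Finsupp.add_apply, pow_add, h1, h4] at h3
  have hpos : 0 < p ^ (Nat.card (VP t (⊤ : Subgroup D))).factorization p := pow_pos hpp.pos _
  exact Nat.eq_of_mul_eq_mul_left hpos h3

end Cfsg.Agent.Lib.HuaB
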