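import Mathlib

/-!
# Fields from commuting regular operators, and automorphisms of prime order
-/

set_option autoImplicit false
set_option linter.unusedSectionVars false
set_option linter.unusedVariables false
set_option linter.style.haveILetI false
set_option linter.unusedSimpArgs false

namespace Cfsg.Agent.Lib.HuaFld

universe u

/-- A field automorphism of prime order `r`. -/
theorem card_field_of_aut {F : Type u} [Field F] [Finite F] (σ : F ≃+* F) {r : ℕ} [Fact r.Prime]
    (hr : σ ^ r = 1) (hne : σ ≠ 1) :
    Nat.card F = Nat.card {a : F // σ a = a} ^ r := by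
  classical
  haveI : Finite (F ≃+* F) := Finite.of_injective (fun f : F ≃+* F => (f : F → F))
    (fun a b h => RingEquiv.ext (congrFun h))
  let G : Subgroup (F ≃+* F) := Subgroup.zpowers σ
  haveI : Fintype G := Fintype.ofFinite G
  have hcard : Nat.card G = r := by
    change Nat.card (Subgroup.zpowers σ) = r
    rw [Nat.card_zpowers]
    exact orderOf_eq_prime hr hne
  haveI : FaithfulSMul G F := by
    constructor
    intro a b h
    apply Subtype.ext
    apply RingEquiv.ext
    intro x
    exact h x
  have h1 := FixedPoints.finrank_eq_card G F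
  rw [← Nat.card_eq_fintype_card, hcard] at h1
  let L := FixedPoints.subfield G F
  haveI : Finite L := Subtype.finite
  haveI : Fintype L := Fintype.ofFinite L
  haveI : Fintype F := Fintype.ofFinite F
  have h2 : Fintype.card F = Fintype.card L ^ Module.finrank L F := Module.card_eq_pow_finrank
  rw [h1, ← Nat.card_eq_fintype_card, ← Nat.card_eq_fintype_card] at h2
  rw [h2]
  congr 1
  apply Nat.card_congr
  refine Equiv.subtypeEquivRight ?_
  intro x
  change (∀ g : G, g • x = x) ↔ σ x = x
  constructor
  · intro h
    exact h ⟨σ, Subgroup.mem_zpowers σ⟩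
  · rintro h ⟨g, hg⟩
    obtain ⟨n, rfl⟩ := Subgroup.mem_zpowers_iff.mp hg
    change (σ ^ n) x = x
    have hfix : σ ∈ MulAction.stabilizer (F ≃+* F) x := h
    have := Subgroup.zpow_mem _ hfix n
    exact this

/-- All ring automorphisms of a finite field of characteristic two form a cyclic group. -/
theorem isCyclic_ringAut {F : Type u} [Field F] [Finite F] [CharP F 2] : IsCyclic (F ≃+* F) := by
  classical
  letI : Algebra (ZMod 2) F := ZMod.algebra F 2
  have hlin : ∀ (σ : F ≃+* F) (x : ZMod 2), σ (algebraMap (ZMod 2) F x) = algebraMap (ZMod 2) F x := by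
    intro σ x
    have : ((σ : F →+* F).comp (algebraMap (ZMod 2) F)) = algebraMap (ZMod 2) F := RingHom.ext_zmod _ _
    exact RingHom.congr_fun this x
  let φ : (F ≃+* F) →* (F ≃ₐ[ZMod 2] F) :=
    { toFun := fun σ => AlgEquiv.ofRingEquiv (f := σ) (hlin σ)
      map_one' := by
        ext x
        rfl
      map_mul' := by
        intro a b
        ext x
        rfl }
  have hinj : Function.Injective φ := by
    intro a b h
    apply RingEquiv.ext
    intro x
    have := congrArg (fun f : F ≃ₐ[ZMod 2] F => f x) h
    exact this
  exact isCyclic_of_injective φ hinj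

/-- The field structure produced by a family of commuting additive operators. -/
@[reducible] noncomputable def fieldOfOp {B : Type u} [AddCommGroup B] (one : B) (op : B → B →+ B) (hne : one ≠ 0)
    (hop1 : ∀ b, op one b = b) (hcomm : ∀ a b, op a b = op b a)
    (hassoc : ∀ a b c, op (op a b) c = op a (op b c)) (hinv : ∀ a, a ≠ 0 → ∃ b, op a b = one) :
    Field B :=
  letI cr : CommRing B :=
    { (inferInstance : AddCommGroup B) with
      mul := fun a b => op a b
      one := one
      left_distrib := fun a b c => (op a).map_add b c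
      right_distrib := fun a b c => by
        change op (a + b) c = op a c + op b c
        rw [hcomm (a + b) c, (op c).map_add, hcomm c a, hcomm c b]
      zero_mul := fun a => by
        change op 0 a = 0
        rw [hcomm, (op a).map_zero]
      mul_zero := fun a => (op a).map_zero
      mul_assoc := hassoc
      one_mul := hop1
      mul_one := fun a => by
        change op a one = a
        rw [hcomm, hop1]
      mul_comm := hcomm }
  have hf : IsField B :=
    { exists_pair_ne := ⟨one, 0, hne⟩
      mul_comm := hcomm
      mul_inv_cancel := fun {a} ha => hinv a ha }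
  hf.toField

/-- Version of the cardinality formula for operator families. -/
theorem card_of_op {B : Type u} [AddCommGroup B] [Finite B] (one : B) (op : B → B →+ B) (hne : one ≠ 0)
    (hop1 : ∀ b, op one b = b) (hcomm : ∀ a b, op a b = op b a)
    (hassoc : ∀ a b c, op (op a b) c = op a (op b c)) (hinv : ∀ a, a ≠ 0 → ∃ b, op a b = one)
    (σ : B ≃+ B) (hσ : ∀ a b, σ (op a b) = op (σ a) (σ b)) {r : ℕ} [Fact r.Prime]
    (hr : ∀ a, σ^[r] a = a) (hmove : ∃ a, σ a ≠ a) :
    Nat.card B = Nat.card {a : B // σ a = a} ^ r := by
  letI : Field B := fieldOfOp one op hne hop1 hcomm hassoc hinv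
  let σ' : B ≃+* B := { σ with map_mul' := hσ }
  have h1 : ∀ (n : ℕ) (a : B), (σ' ^ n) a = σ^[n] a := by
    intro n a
    induction n generalizing a with
    | zero => rfl
    | succ n ih =>
      rw [pow_succ, Function.iterate_succ_apply]
      change (σ' ^ n) (σ' a) = σ^[n] (σ a)
      rw [ih]
      rfl
  have h2 : σ' ^ r = 1 := by
    apply RingEquiv.ext
    intro a
    rw [h1, hr]
    rfl
  have h3 : σ' ≠ 1 := by
    intro h
    obtain ⟨a, ha⟩ := hmove
    apply ha
    have := congrArg (fun f : B ≃+* B => f a) h
    exact this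
  exact card_field_of_aut σ' h2 h3

/-- Cyclicity of a group of additive automorphisms compatible with an operator family: there is an
element of `V` whose powers induce all the maps. -/
theorem exists_gen_of_op {B : Type u} [AddCommGroup B] [Finite B] (one : B) (op : B → B →+ B) (hne : one ≠ 0)
    (hop1 : ∀ b, op one b = b) (hcomm : ∀ a b, op a b = op b a)
    (hassoc : ∀ a b c, op (op a b) c = op a (op b c)) (hinv : ∀ a, a ≠ 0 → ∃ b, op a b = one)
    (h2 : ∀ a : B, a + a = 0)
    {V : Type*} [Group V] [DistribMulAction V B] (hφ : ∀ (v : V) a b, v • op a b = op (v • a) (v • b)) :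
    ∃ v₀ : V, ∀ v : V, ∃ n : ℤ, ∀ a : B, v • a = v₀ ^ n • a := by
  letI : Field B := fieldOfOp one op hne hop1 hcomm hassoc hinv
  haveI : CharP B 2 := by
    apply CharTwo.of_one_ne_zero_of_two_eq_zero hne
    have := h2 one
    rw [← one_add_one_eq_two]
    exact this
  haveI := isCyclic_ringAut (F := B)
  let ψ : V →* (B ≃+* B) :=
    { toFun := fun v => { (DistribMulAction.toAddEquiv B v) with map_mul' := hφ v }
      map_one' := by
        apply RingEquiv.ext
        intro a
        exact one_smul V a
      map_mul' := by
        intro x y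
        apply RingEquiv.ext
        intro a
        exact mul_smul x y a }
  have hψ : ∀ v a, ψ v a = v • a := fun v a => rfl
  have hcy : IsCyclic ψ.range := inferInstance
  obtain ⟨⟨g, hg⟩, hgen⟩ := IsCyclic.exists_generator (α := ψ.range)
  obtain ⟨v₀, rfl⟩ := hg
  refine ⟨v₀, fun v => ?_⟩
  have hmem : (⟨ψ v, v, rfl⟩ : ψ.range) ∈ Subgroup.zpowers (⟨ψ v₀, v₀, rfl⟩ : ψ.range) := hgen _
  obtain ⟨n, hn⟩ := Subgroup.mem_zpowers_iff.mp hmem
  refine ⟨n, fun a => ?_⟩
  have h3 : ψ v₀ ^ n = ψ v := congrArg Subtype.val hn
  have h4 : ψ (v₀ ^ n) = ψ v := by rw [map_zpow, h3]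
  have h5 := congrArg (fun f : B ≃+* B => f a) h4
  change (v₀ ^ n) • a = v • a at h5
  exact h5.symm

end Cfsg.Agent.Lib.HuaFld
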