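import Mathlib

/-!
# Norm elements of an elementary abelian group of rank two on a characteristic two module

`E` of order `r ^ 2` and exponent `r` (`r` an odd prime) acting on an abelian group of exponent two.
-/

set_option autoImplicit false
set_option linter.unusedSectionVars false
set_option linter.unusedVariables false
set_option linter.style.haveILetI false
set_option linter.unusedSimpArgs false

namespace Cfsg.Agent.Lib.HuaN

open Subgroup
open scoped Classical

universe u v

variable {G : Type u} {A : Type v} [Group G] [Finite G] [AddCommGroup A] [DistribMulAction G A]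

/-- The norm of a subgroup. -/
noncomputable def nrm (H : Subgroup G) (a : A) : A :=
  ∑ h ∈ (H : Set G).toFinite.toFinset, h • a

lemma nrm_add (H : Subgroup G) (a b : A) : nrm H (a + b) = nrm H a + nrm H b := by
  simp [nrm, smul_add, Finset.sum_add_distrib]

lemma nrm_zero (H : Subgroup G) : nrm H (0 : A) = 0 := by
  simp [nrm]

lemma smul_nrm {H : Subgroup G} {g : G} (hg : g ∈ H) (a : A) : g • nrm H a = nrm H a := by
  unfold nrm
  rw [Finset.smul_sum]
  refine Finset.sum_bij (fun x _ => g * x) ?_ ?_ ?_ ?_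
  · intro x hx
    simp only [Set.Finite.mem_toFinset, SetLike.mem_coe] at hx ⊢
    exact H.mul_mem hg hx
  · intro x _ y _ e
    exact mul_left_cancel e
  · intro y hy
    simp only [Set.Finite.mem_toFinset, SetLike.mem_coe] at hy
    refine ⟨g⁻¹ * y, ?_, by group⟩
    simp only [Set.Finite.mem_toFinset, SetLike.mem_coe]
    exact H.mul_mem (H.inv_mem hg) hy
  · intro x _
    rw [smul_smul]

lemma nrm_smul_of_mem {H : Subgroup G} {g : G} (hg : g ∈ H) (a : A) : nrm H (g • a) = nrm H a := by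
  unfold nrm
  refine Finset.sum_bij (fun x _ => x * g) ?_ ?_ ?_ ?_
  · intro x hx
    simp only [Set.Finite.mem_toFinset, SetLike.mem_coe] at hx ⊢
    exact H.mul_mem hx hg
  · intro x _ y _ e
    exact mul_right_cancel e
  · intro y hy
    simp only [Set.Finite.mem_toFinset, SetLike.mem_coe] at hy
    refine ⟨y * g⁻¹, ?_, by group⟩
    simp only [Set.Finite.mem_toFinset, SetLike.mem_coe]
    exact H.mul_mem hy (H.inv_mem hg)
  · intro x _
    rw [smul_smul]

lemma smul_nrm_comm {H : Subgroup G} {g : G} (hg : ∀ h ∈ H, g * h = h * g) (a : A) :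
    g • nrm H a = nrm H (g • a) := by
  unfold nrm
  rw [Finset.smul_sum]
  refine Finset.sum_congr rfl ?_
  intro x hx
  simp only [Set.Finite.mem_toFinset, SetLike.mem_coe] at hx
  rw [smul_smul, smul_smul, hg x hx]

lemma card_toFinset (H : Subgroup G) : ((H : Set G).toFinite.toFinset).card = Nat.card H := by
  classical
  haveI := Fintype.ofFinite H
  rw [Nat.card_eq_fintype_card]
  have : (H : Set G).toFinite.toFinset = (H : Set G).toFinset := by
    ext x; simp
  rw [this, Set.toFinset_card]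
  rfl

lemma nrm_of_fixed {H : Subgroup G} {a : A} (h : ∀ x ∈ H, x • a = a) : nrm H a = Nat.card H • a := by
  unfold nrm
  rw [Finset.sum_congr rfl (g := fun _ => a), Finset.sum_const, card_toFinset]
  intro x hx
  simp only [Set.Finite.mem_toFinset, SetLike.mem_coe] at hx
  exact h x hx

lemma nrm_mem {H : Subgroup G} (B : AddSubgroup A) (hB : ∀ h ∈ H, ∀ b ∈ B, h • b ∈ B) {a : A}
    (ha : a ∈ B) : nrm H a ∈ B := by
  unfold nrm
  refine B.sum_mem ?_
  intro x hx
  simp only [Set.Finite.mem_toFinset, SetLike.mem_coe] at hx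
  exact hB x hx a ha

lemma odd_nsmul' (hA : ∀ a : A, a + a = 0) {n : ℕ} (hn : Odd n) (a : A) : n • a = a := by
  obtain ⟨m, rfl⟩ := hn
  rw [add_nsmul, mul_nsmul, one_nsmul]
  have : (2 : ℕ) • a = 0 := by rw [two_nsmul]; exact hA a
  rw [this]
  simp

lemma even_nsmul' (hA : ∀ a : A, a + a = 0) {n : ℕ} (hn : Even n) (a : A) : n • a = 0 := by
  obtain ⟨m, rfl⟩ := hn
  rw [← two_mul, mul_nsmul]
  have : (2 : ℕ) • a = 0 := by rw [two_nsmul]; exact hA a
  rw [this]
  simp

lemma nrm_nrm_of_le {H E : Subgroup G} (hHE : H ≤ E) (a : A) :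
    nrm E (nrm H a) = Nat.card H • nrm E a := by
  have h1 : nrm E (nrm H a) = ∑ h ∈ (H : Set G).toFinite.toFinset, nrm E (h • a) := by
    unfold nrm
    rw [Finset.sum_congr rfl (fun x _ => Finset.smul_sum)]
    rw [Finset.sum_comm]
  rw [h1, Finset.sum_congr rfl (g := fun _ => nrm E a), Finset.sum_const, card_toFinset]
  intro x hx
  simp only [Set.Finite.mem_toFinset, SetLike.mem_coe] at hx
  exact nrm_smul_of_mem (hHE hx) a

lemma nrm_nrm_self_of_le {H E : Subgroup G} (hHE : H ≤ E) (a : A) :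
    nrm H (nrm E a) = Nat.card H • nrm E a :=
  nrm_of_fixed (fun x hx => smul_nrm (hHE hx) a)

/-- Product of norms for a factorisation. -/
lemma nrm_nrm_of_compl {H₀ H E : Subgroup G} (h₀ : H₀ ≤ E) (h₁ : H ≤ E) (hd : H₀ ⊓ H = ⊥)
    (hc : Nat.card H₀ * Nat.card H = Nat.card E) (a : A) :
    nrm H₀ (nrm H a) = nrm E a := by
  classical
  unfold nrm
  set S₀ := (H₀ : Set G).toFinite.toFinset
  set S₁ := (H : Set G).toFinite.toFinset
  set S₂ := (E : Set G).toFinite.toFinset
  have hinj : Set.InjOn (fun p : G × G => p.1 * p.2) ((S₀ ×ˢ S₁ : Finset (G × G)) : Set (G × G)) := by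
    rintro ⟨x, y⟩ hx ⟨x', y'⟩ hy e
    simp only [Finset.coe_product, Set.mem_prod, Finset.mem_coe, S₀, S₁, Set.Finite.mem_toFinset,
      SetLike.mem_coe] at hx hy
    simp only at e
    have h2 : x'⁻¹ * x = y' * y⁻¹ := by
      calc x'⁻¹ * x = x'⁻¹ * (x * y) * y⁻¹ := by group
        _ = x'⁻¹ * (x' * y') * y⁻¹ := by rw [e]
        _ = y' * y⁻¹ := by group
    have h3 : x'⁻¹ * x ∈ H₀ ⊓ H := by
      refine ⟨H₀.mul_mem (H₀.inv_mem hy.1) hx.1, ?_⟩
      rw [h2]
      exact H.mul_mem hy.2 (H.inv_mem hx.2)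
    rw [hd, Subgroup.mem_bot] at h3
    have h4 : x = x' := by
      calc x = x' * (x'⁻¹ * x) := by group
        _ = x' := by rw [h3, mul_one]
    subst h4
    have h5 : y = y' := by simpa using e
    rw [h5]
  have him : (S₀ ×ˢ S₁).image (fun p : G × G => p.1 * p.2) = S₂ := by
    apply Finset.eq_of_subset_of_card_le
    · intro x hx
      rw [Finset.mem_image] at hx
      obtain ⟨⟨u, v⟩, hp, rfl⟩ := hx
      simp only [Finset.mem_product, S₀, S₁, Set.Finite.mem_toFinset, SetLike.mem_coe] at hp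
      simp only [S₂, Set.Finite.mem_toFinset, SetLike.mem_coe]
      exact E.mul_mem (h₀ hp.1) (h₁ hp.2)
    · rw [Finset.card_image_of_injOn hinj, Finset.card_product, card_toFinset, card_toFinset,
        card_toFinset, hc]
  rw [← him, Finset.sum_image hinj, Finset.sum_product]
  refine Finset.sum_congr rfl ?_
  intro x _
  rw [Finset.smul_sum]
  refine Finset.sum_congr rfl ?_
  intro y _
  rw [smul_smul]

lemma exists_ne_one_of_card {H : Subgroup G} (h : 1 < Nat.card H) : ∃ e ∈ H, e ≠ 1 := by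
  by_contra hcon
  have : H = ⊥ := by
    rw [Subgroup.eq_bot_iff_forall]
    intro x hx
    by_contra hx1
    exact hcon ⟨x, hx, hx1⟩
  rw [this, Subgroup.card_bot] at h
  exact lt_irrefl _ h

/-! ### The lines of `E` -/

/-- The subgroups of order `r` of `E`. -/
noncomputable def lines (E : Subgroup G) (r : ℕ) : Finset (Subgroup G) :=
  ({H : Subgroup G | H ≤ E ∧ Nat.card H = r} : Set (Subgroup G)).toFinite.toFinset

lemma mem_lines {E H : Subgroup G} {r : ℕ} : H ∈ lines E r ↔ H ≤ E ∧ Nat.card H = r := by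
  simp [lines]

lemma zpowers_mem_lines {E : Subgroup G} {r : ℕ} [Fact r.Prime] (hexp : ∀ e ∈ E, e ^ r = 1) {e : G}
    (he : e ∈ E) (h1 : e ≠ 1) : Subgroup.zpowers e ∈ lines E r := by
  rw [mem_lines]
  refine ⟨(Subgroup.zpowers_le).mpr he, ?_⟩
  rw [Nat.card_zpowers]
  exact orderOf_eq_prime (hexp e he) h1

lemma eq_zpowers_of_mem {H : Subgroup G} {r : ℕ} [Fact r.Prime] (hH : Nat.card H = r) {e : G}
    (he : e ∈ H) (h1 : e ≠ 1) : Subgroup.zpowers e = H := by
  apply Subgroup.eq_of_le_of_card_ge ((Subgroup.zpowers_le).mpr he)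
  rw [hH, Nat.card_zpowers]
  apply le_of_eq
  have hd : orderOf e ∣ r := by
    have := Subgroup.orderOf_dvd_natCard H he
    rwa [hH] at this
  have hr : r.Prime := Fact.out
  rcases (Nat.dvd_prime hr).mp hd with h | h
  · exact absurd (orderOf_eq_one_iff.mp h) h1
  · exact h.symm

lemma fiber_eq {E H : Subgroup G} {r : ℕ} [Fact r.Prime] (hexp : ∀ e ∈ E, e ^ r = 1)
    (hH : H ∈ lines E r) :
    ((E : Set G).toFinite.toFinset.erase 1).filter (fun e => Subgroup.zpowers e = H) =
      (H : Set G).toFinite.toFinset.erase 1 := by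
  classical
  rw [mem_lines] at hH
  ext e
  simp only [Finset.mem_filter, Finset.mem_erase, Set.Finite.mem_toFinset, SetLike.mem_coe]
  constructor
  · rintro ⟨⟨h1, h2⟩, h3⟩
    refine ⟨h1, ?_⟩
    rw [← h3]
    exact Subgroup.mem_zpowers e
  · rintro ⟨h1, h2⟩
    exact ⟨⟨h1, hH.1 h2⟩, eq_zpowers_of_mem hH.2 h2 h1⟩

lemma card_lines {E : Subgroup G} {r : ℕ} [Fact r.Prime] (hE : Nat.card E = r ^ 2)
    (hexp : ∀ e ∈ E, e ^ r = 1) : (lines E r).card = r + 1 := by
  classical
  have hr : r.Prime := Fact.out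
  have hmaps : ∀ e ∈ (E : Set G).toFinite.toFinset.erase 1, Subgroup.zpowers e ∈ lines E r := by
    intro e he
    simp only [Finset.mem_erase, Set.Finite.mem_toFinset, SetLike.mem_coe] at he
    exact zpowers_mem_lines hexp he.2 he.1
  have h1 := Finset.card_eq_sum_card_fiberwise hmaps
  have h2 : ∀ H ∈ lines E r,
      (((E : Set G).toFinite.toFinset.erase 1).filter (fun e => Subgroup.zpowers e = H)).card = r - 1 := by
    intro H hH
    rw [fiber_eq hexp hH, Finset.card_erase_of_mem, card_toFinset, (mem_lines.mp hH).2]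
    simp [H.one_mem]
  rw [Finset.sum_congr rfl h2, Finset.sum_const, smul_eq_mul, Finset.card_erase_of_mem, card_toFinset, hE] at h1
  swap
  · simp [E.one_mem]
  have h3 : r ^ 2 - 1 = (r + 1) * (r - 1) := by
    have : 1 ≤ r := hr.one_le
    obtain ⟨s, rfl⟩ : ∃ s, r = s + 1 := ⟨r - 1, by omega⟩
    simp only [Nat.add_sub_cancel]
    have : (s + 1) ^ 2 = (s + 1 + 1) * s + 1 := by ring
    omega
  rw [h3] at h1
  exact (Nat.eq_of_mul_eq_mul_right (by have := hr.two_le; omega) h1).symm

lemma nrm_line_eq (H : Subgroup G) (a : A) :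
    nrm H a = a + ∑ h ∈ (H : Set G).toFinite.toFinset.erase 1, h • a := by
  classical
  unfold nrm
  have : (1 : G) ∈ (H : Set G).toFinite.toFinset := by simp [H.one_mem]
  rw [← Finset.add_sum_erase _ _ this, one_smul]

/-- The norm identity: `a = N_E a + ∑ N_H a`. -/
theorem nrm_identity {E : Subgroup G} {r : ℕ} [Fact r.Prime] (hodd : r ≠ 2) (hE : Nat.card E = r ^ 2)
    (hexp : ∀ e ∈ E, e ^ r = 1) (hA : ∀ a : A, a + a = 0) (a : A) :
    nrm E a + ∑ H ∈ lines E r, nrm H a = a := by
  classical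
  have hr : r.Prime := Fact.out
  have hmaps : ∀ e ∈ (E : Set G).toFinite.toFinset.erase 1, Subgroup.zpowers e ∈ lines E r := by
    intro e he
    simp only [Finset.mem_erase, Set.Finite.mem_toFinset, SetLike.mem_coe] at he
    exact zpowers_mem_lines hexp he.2 he.1
  have h1 := Finset.sum_fiberwise_of_maps_to hmaps (fun e => e • a)
  have h2 : ∑ H ∈ lines E r, nrm H a =
      (lines E r).card • a + ∑ e ∈ (E : Set G).toFinite.toFinset.erase 1, e • a := by
    rw [← h1, ← Finset.sum_const, ← Finset.sum_add_distrib]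
    refine Finset.sum_congr rfl ?_
    intro H hH
    rw [nrm_line_eq, fiber_eq hexp hH]
  have h3 : (lines E r).card • a = 0 := by
    apply even_nsmul' hA
    rw [card_lines hE hexp]
    have : Odd r := hr.odd_of_ne_two hodd
    exact this.add_one
  rw [h2, h3, zero_add, nrm_line_eq]
  have h4 : ∀ b : A, a + b + b = a := by
    intro b
    rw [add_assoc, hA, add_zero]
  exact h4 _

/-- Fixed subgroup of a subgroup. -/
def fixedOf (H : Subgroup G) : AddSubgroup A where
  carrier := {a | ∀ h ∈ H, h • a = a}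
  add_mem' := by
    intro a b ha hb h hh
    rw [smul_add, ha h hh, hb h hh]
  zero_mem' := by
    intro h _
    exact smul_zero h
  neg_mem' := by
    intro a ha h hh
    rw [smul_neg, ha h hh]

lemma mem_fixedOf {H : Subgroup G} {a : A} : a ∈ fixedOf H ↔ ∀ h ∈ H, h • a = a := Iff.rfl

lemma nrm_mem_fixedOf (H : Subgroup G) (a : A) : nrm H a ∈ fixedOf H :=
  fun _ hh => smul_nrm hh a

lemma fixedOf_anti {H E : Subgroup G} (h : H ≤ E) : (fixedOf E : AddSubgroup A) ≤ fixedOf H :=
  fun _ ha x hx => ha x (h hx)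

/-- The part of `C_A(H)` killed by `N_E`. -/
def killOf (E H : Subgroup G) : AddSubgroup A where
  carrier := {a | a ∈ fixedOf H ∧ nrm E a = 0}
  add_mem' := by
    rintro a b ⟨ha, ha'⟩ ⟨hb, hb'⟩
    exact ⟨add_mem ha hb, by rw [nrm_add, ha', hb', add_zero]⟩
  zero_mem' := ⟨zero_mem _, nrm_zero E⟩
  neg_mem' := by
    rintro a ⟨ha, ha'⟩
    refine ⟨neg_mem ha, ?_⟩
    have h1 : nrm E a + nrm E (-a) = 0 := by
      rw [← nrm_add, add_neg_cancel, nrm_zero]
    rw [ha', zero_add] at h1
    exact h1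

lemma mem_killOf {E H : Subgroup G} {a : A} : a ∈ killOf E H ↔ a ∈ fixedOf H ∧ nrm E a = 0 := Iff.rfl

section dim

variable {E : Subgroup G} {r : ℕ} [Fact r.Prime]

lemma nrm_self_of_fixed (hodd : r ≠ 2) (hE : Nat.card E = r ^ 2) (hA : ∀ a : A, a + a = 0) {a : A}
    (ha : a ∈ fixedOf E) : nrm E a = a := by
  rw [nrm_of_fixed ha]
  apply odd_nsmul' hA
  rw [hE]
  exact (Nat.Prime.odd_of_ne_two Fact.out hodd).pow

lemma nrm_line_of_fixed (hodd : r ≠ 2) {H : Subgroup G} (hH : Nat.card H = r) (hA : ∀ a : A, a + a = 0)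
    {a : A} (ha : a ∈ fixedOf H) : nrm H a = a := by
  rw [nrm_of_fixed ha]
  apply odd_nsmul' hA
  rw [hH]
  exact Nat.Prime.odd_of_ne_two Fact.out hodd

lemma nrm_nrm_line (hodd : r ≠ 2) {H : Subgroup G} (hHE : H ≤ E) (hH : Nat.card H = r)
    (hA : ∀ a : A, a + a = 0) (a : A) : nrm E (nrm H a) = nrm E a := by
  rw [nrm_nrm_of_le hHE]
  apply odd_nsmul' hA
  rw [hH]
  exact Nat.Prime.odd_of_ne_two Fact.out hodd

lemma nrm_nrm_idem (hodd : r ≠ 2) (hE : Nat.card E = r ^ 2) (hA : ∀ a : A, a + a = 0) (a : A) :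
    nrm E (nrm E a) = nrm E a :=
  nrm_self_of_fixed hodd hE hA (nrm_mem_fixedOf E a)

lemma sub_eq_add_char (hA : ∀ a : A, a + a = 0) (a b : A) : a - b = a + b := by
  have h : -b = b := by
    have := hA b
    exact neg_eq_of_add_eq_zero_left this
  rw [sub_eq_add_neg, h]

lemma inf_eq_bot_of_lines (hr : r.Prime) {H₀ H : Subgroup G} (h₀ : Nat.card H₀ = r) (h₁ : Nat.card H = r)
    (hne : H₀ ≠ H) : H₀ ⊓ H = ⊥ := by
  haveI : Fact r.Prime := ⟨hr⟩
  rw [eq_bot_iff]
  intro x hx
  rw [Subgroup.mem_bot]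
  by_contra hx1
  apply hne
  rw [← eq_zpowers_of_mem h₀ hx.1 hx1, ← eq_zpowers_of_mem h₁ hx.2 hx1]

/-- `N_{H₀} N_H = N_E` for two lines. -/
lemma nrm_nrm_lines {H₀ H : Subgroup G} (hE : Nat.card E = r ^ 2) (h₀ : H₀ ∈ lines E r) (h₁ : H ∈ lines E r)
    (hne : H₀ ≠ H) (a : A) : nrm H₀ (nrm H a) = nrm E a := by
  rw [mem_lines] at h₀ h₁
  apply nrm_nrm_of_compl h₀.1 h₁.1 (inf_eq_bot_of_lines Fact.out h₀.2 h₁.2 hne)
  rw [h₀.2, h₁.2, hE, sq]

/-- The equivalence behind the dimension formula. -/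
theorem card_eq_prod (hodd : r ≠ 2) (hE : Nat.card E = r ^ 2) (hexp : ∀ e ∈ E, e ^ r = 1)
    (hA : ∀ a : A, a + a = 0) [Finite A] :
    Nat.card A = Nat.card (fixedOf E : AddSubgroup A) *
      ∏ H ∈ lines E r, Nat.card (killOf E H : AddSubgroup A) := by
  classical
  have hinH : ∀ H ∈ lines E r, ∀ a : A, nrm H a + nrm E a ∈ (killOf E H : AddSubgroup A) := by
    intro H hH a
    have hH' := mem_lines.mp hH
    refine ⟨add_mem (nrm_mem_fixedOf H a) (fixedOf_anti hH'.1 (nrm_mem_fixedOf E a)), ?_⟩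
    rw [nrm_add, nrm_nrm_line hodd hH'.1 hH'.2 hA, nrm_nrm_idem hodd hE hA, hA]
  let toFun : A → ↥(fixedOf E : AddSubgroup A) × (∀ H : ↥(lines E r), ↥(killOf E H.1 : AddSubgroup A)) :=
    fun a => (⟨nrm E a, nrm_mem_fixedOf E a⟩, fun H => ⟨nrm H.1 a + nrm E a, hinH H.1 H.2 a⟩)
  have hbij : Function.Bijective toFun := by
    constructor
    · intro a b hab
      have h1 : nrm E a = nrm E b := congrArg (fun p => (p.1 : A)) hab
      have h2 : ∀ H ∈ lines E r, nrm H a = nrm H b := by
        intro H hH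
        have h3 : nrm H a + nrm E a = nrm H b + nrm E b :=
          congrArg (fun p => ((p.2 ⟨H, hH⟩ : (killOf E H : AddSubgroup A)) : A)) hab
        rw [h1] at h3
        exact add_right_cancel h3
      rw [← nrm_identity hodd hE hexp hA a, ← nrm_identity hodd hE hexp hA b, h1,
        Finset.sum_congr rfl h2]
    · rintro ⟨c, d⟩
      let a : A := (c : A) + ∑ H : lines E r, ((d H : (killOf E H.1 : AddSubgroup A)) : A)
      have hdd : ∀ H : lines E r, ((d H : (killOf E H.1 : AddSubgroup A)) : A) ∈ fixedOf H.1 ∧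
          nrm E ((d H : (killOf E H.1 : AddSubgroup A)) : A) = 0 := fun H => (d H).2
      have hsum : ∀ (F : Subgroup G) (S : Finset (lines E r)), nrm F (∑ H ∈ S, ((d H : (killOf E H.1 : AddSubgroup A)) : A))
          = ∑ H ∈ S, nrm F ((d H : (killOf E H.1 : AddSubgroup A)) : A) := by
        intro F S
        induction S using Finset.induction_on with
        | empty => simp [nrm_zero]
        | insert x s hx ih => rw [Finset.sum_insert hx, Finset.sum_insert hx, nrm_add, ih]
      have hEa : nrm E a = c := by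
        change nrm E ((c : A) + _) = _
        rw [nrm_add, nrm_self_of_fixed hodd hE hA c.2, hsum]
        rw [Finset.sum_congr rfl (fun H _ => (hdd H).2)]
        simp
      refine ⟨a, ?_⟩
      apply Prod.ext
      · apply Subtype.ext
        exact hEa
      · funext H
        apply Subtype.ext
        change nrm H.1 a + nrm E a = _
        rw [hEa]
        change nrm H.1 ((c : A) + _) + (c : A) = _
        have hH' := mem_lines.mp H.2
        have hcH : nrm H.1 (c : A) = c :=
          nrm_line_of_fixed hodd hH'.2 hA (fixedOf_anti hH'.1 c.2)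
        rw [nrm_add, hcH, hsum]
        have h5 : ∑ L : lines E r, nrm H.1 ((d L : (killOf E L.1 : AddSubgroup A)) : A) =
            ((d H : (killOf E H.1 : AddSubgroup A)) : A) := by
          rw [Finset.sum_eq_single H]
          · exact nrm_line_of_fixed hodd hH'.2 hA (hdd H).1
          · intro L _ hL
            have hL' := mem_lines.mp L.2
            have h6 : nrm L.1 ((d L : (killOf E L.1 : AddSubgroup A)) : A) =
                ((d L : (killOf E L.1 : AddSubgroup A)) : A) :=
              nrm_line_of_fixed hodd hL'.2 hA (hdd L).1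
            rw [← h6, nrm_nrm_lines hE H.2 L.2 (fun e => hL (Subtype.ext e.symm))]
            exact (hdd L).2
          · intro h
            exact absurd (Finset.mem_univ H) h
        rw [h5]
        have h7 : ∀ x y : A, x + y + x = y := by
          intro x y
          rw [add_comm x y, add_assoc, hA, add_zero]
        exact h7 _ _
  have h1 := Nat.card_congr (Equiv.ofBijective toFun hbij)
  rw [Nat.card_prod, Nat.card_pi] at h1
  rw [h1, ← Finset.prod_coe_sort (lines E r) (fun H => Nat.card (killOf E H : AddSubgroup A))]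

/-- The dimension formula for `C_A(H)`. -/
theorem card_fixed_line (hodd : r ≠ 2) (hE : Nat.card E = r ^ 2) {H : Subgroup G} (hH : H ≤ E)
    (hHr : Nat.card H = r) (hA : ∀ a : A, a + a = 0) [Finite A] :
    Nat.card (fixedOf H : AddSubgroup A) =
      Nat.card (fixedOf E : AddSubgroup A) * Nat.card (killOf E H : AddSubgroup A) := by
  classical
  have hk : ∀ a : (fixedOf H : AddSubgroup A), (a : A) + nrm E (a : A) ∈ (killOf E H : AddSubgroup A) := by
    intro a
    refine ⟨add_mem a.2 (fixedOf_anti hH (nrm_mem_fixedOf E _)), ?_⟩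
    rw [nrm_add, nrm_nrm_idem hodd hE hA, hA]
  let toFun : ↥(fixedOf H : AddSubgroup A) → ↥(fixedOf E : AddSubgroup A) × ↥(killOf E H : AddSubgroup A) :=
    fun a => (⟨nrm E (a : A), nrm_mem_fixedOf E _⟩, ⟨(a : A) + nrm E (a : A), hk a⟩)
  have hbij : Function.Bijective toFun := by
    constructor
    · intro a b hab
      have h1 : nrm E (a : A) = nrm E (b : A) := congrArg (fun p => (p.1 : A)) hab
      have h2 : (a : A) + nrm E (a : A) = (b : A) + nrm E (b : A) := congrArg (fun p => (p.2 : A)) hab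
      rw [h1] at h2
      exact Subtype.ext (add_right_cancel h2)
    · rintro ⟨c, d⟩
      refine ⟨⟨(c : A) + (d : A), add_mem (fixedOf_anti hH c.2) d.2.1⟩, ?_⟩
      have h3 : nrm E ((c : A) + (d : A)) = c := by
        rw [nrm_add, nrm_self_of_fixed hodd hE hA c.2, d.2.2, add_zero]
      apply Prod.ext
      · apply Subtype.ext
        exact h3
      · apply Subtype.ext
        change (c : A) + (d : A) + nrm E ((c : A) + (d : A)) = _
        rw [h3]
        have h7 : ∀ x y : A, x + y + x = y := by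
          intro x y
          rw [add_comm x y, add_assoc, hA, add_zero]
        exact h7 _ _
  have h1 := Nat.card_congr (Equiv.ofBijective toFun hbij)
  rw [Nat.card_prod] at h1
  exact h1

/-- The fixed point lemma: a non-trivial invariant subgroup contains a non-zero vector fixed by a
non-identity element of `E`. -/
theorem exists_fixed_of_rank_two (hodd : r ≠ 2) (hE : Nat.card E = r ^ 2) (hexp : ∀ e ∈ E, e ^ r = 1)
    (hA : ∀ a : A, a + a = 0) (B : AddSubgroup A) (hB : ∀ e ∈ E, ∀ b ∈ B, e • b ∈ B) {a : A}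
    (ha : a ∈ B) (ha0 : a ≠ 0) : ∃ e ∈ E, e ≠ 1 ∧ ∃ b ∈ B, b ≠ 0 ∧ e • b = b := by
  classical
  have hr : r.Prime := Fact.out
  by_cases h0 : nrm E a = 0
  · have h1 := nrm_identity hodd hE hexp hA a
    rw [h0, zero_add] at h1
    by_contra hcon
    have h2 : ∀ H ∈ lines E r, nrm H a = 0 := by
      intro H hH
      by_contra h3
      have hH' := mem_lines.mp hH
      obtain ⟨e, he, he1⟩ : ∃ e ∈ H, e ≠ 1 := by
        apply exists_ne_one_of_card
        rw [hH'.2]; exact hr.one_lt
      exact hcon ⟨e, hH'.1 he, he1, nrm H a, nrm_mem B (fun h hh b hb => hB h (hH'.1 hh) b hb) ha, h3,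
        smul_nrm he a⟩
    rw [Finset.sum_eq_zero h2] at h1
    exact ha0 h1.symm
  · obtain ⟨e, he, he1⟩ : ∃ e ∈ E, e ≠ 1 := by
      apply exists_ne_one_of_card
      rw [hE]
      exact Nat.one_lt_pow (by norm_num) hr.one_lt
    exact ⟨e, he, he1, nrm E a, nrm_mem B hB ha, h0, smul_nrm he a⟩

end dim

end Cfsg.Agent.Lib.HuaN
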