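import Mathlib
import Cfsg.Agent.Lib.HuaB
import Cfsg.Agent.Lib.HuaN
import Cfsg.Agent.Lib.HuaFld
import Cfsg.Agent.Lib.OddPGroup

/-!
# The configuration: an odd group whose inverted elements are regular on a module of exponent two
-/

set_option autoImplicit false
set_option linter.unusedSectionVars false
set_option linter.unusedVariables false
set_option linter.style.haveILetI false
set_option linter.unusedSimpArgs false

namespace Cfsg.Agent.Lib.HuaC

open Subgroup Cfsg.Agent.Lib.CoprimeInv Cfsg.Agent.Lib.HuaA Cfsg.Agent.Lib.HuaB Cfsg.Agent.Lib.HuaN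

universe u v

variable {D : Type u} {A : Type v} [Group D] [Finite D] [AddCommGroup A] [Finite A]
  [DistribMulAction D A] {t : D ≃* D} {s₀ : A}

/-- The configuration. -/
structure Cfg (t : D ≃* D) (s₀ : A) : Prop where
  inv : OddInv t
  char2 : ∀ a : A, a + a = 0
  ne : s₀ ≠ 0
  fix : ∀ v, IsV t v → v • s₀ = s₀
  reg : ∀ s : A, s ≠ 0 → ∃ k, IsK t k ∧ k • s₀ = s
  uniq : ∀ k l, IsK t k → IsK t l → k • s₀ = l • s₀ → k = l

lemma Cfg.eq_one_of_K (h : Cfg t s₀) {k : D} (hk : IsK t k) (e : k • s₀ = s₀) : k = 1 :=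
  h.uniq k 1 hk IsK.one (by rw [e, one_smul])

lemma Cfg.stab (h : Cfg t s₀) {d : D} (e : d • s₀ = s₀) : IsV t d := by
  obtain ⟨v, k, hv, hk, rfl⟩ := h.inv.decomp d
  have h1 : k • s₀ = s₀ := by
    have h2 : (v * k) • s₀ = s₀ := e
    rw [mul_smul] at h2
    have h3 : v⁻¹ • (v • k • s₀) = v⁻¹ • s₀ := by rw [h2]
    rw [inv_smul_smul, h.fix _ hv.inv] at h3
    exact h3
  rw [h.eq_one_of_K hk h1, mul_one]
  exact hv

lemma Cfg.stab_iff (h : Cfg t s₀) {d : D} : d • s₀ = s₀ ↔ IsV t d :=
  ⟨h.stab, h.fix d⟩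

/-- The stabiliser of any non-zero vector is conjugate into `V`. -/
lemma Cfg.stab_conj (h : Cfg t s₀) {d m : D} (e : d • m • s₀ = m • s₀) : IsV t (m⁻¹ * d * m) := by
  apply h.stab
  rw [mul_smul, mul_smul, e, inv_smul_smul]

/-- Non-identity inverted elements have no non-zero fixed vectors. -/
lemma Cfg.fpf (h : Cfg t s₀) {k : D} {a : A} (hk : IsK t k) (e : k • a = a) (ha : a ≠ 0) : k = 1 := by
  obtain ⟨m, hm, rfl⟩ := h.reg a ha
  have h1 := h.stab_conj e
  unfold IsV at h1
  have hm' : t m = m⁻¹ := hm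
  have hk' : t k = k⁻¹ := hk
  simp only [map_mul, map_inv, hm', hk', inv_inv] at h1
  have h2 : (m⁻¹ * m⁻¹) * k * (m⁻¹ * m⁻¹)⁻¹ = k⁻¹ := by
    have h3 : m⁻¹ * (m * k⁻¹ * m⁻¹) * m = k⁻¹ := by group
    rw [h1] at h3
    rw [← h3]
    simp only [mul_inv_rev, inv_inv, mul_assoc]
  exact h.inv.eq_one_of_real h2

lemma comm_of_K_mul {k l : D} (hk : IsK t k) (hl : IsK t l) (hkl : IsK t (k * l)) : k * l = l * k := by
  unfold IsK at *
  rw [map_mul, hk, hl] at hkl
  have h1 := congrArg (fun x => x⁻¹) hkl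
  simp only [mul_inv_rev, inv_inv] at h1
  exact h1.symm

lemma comm_of_subgroup_K {J : Subgroup D} (hJ : ∀ j ∈ J, IsK t j) {k l : D} (hk : k ∈ J) (hl : l ∈ J) :
    k * l = l * k :=
  comm_of_K_mul (hJ k hk) (hJ l hl) (hJ _ (J.mul_mem hk hl))

/-- Closure of a commuting set of inverted elements. -/
lemma isK_closure {S : Set D} (hS : ∀ x ∈ S, IsK t x) (hc : ∀ x ∈ S, ∀ y ∈ S, x * y = y * x) :
    ∀ x ∈ closure S, IsK t x := by
  intro x hx
  have hcomm : ∀ a ∈ closure S, ∀ b ∈ closure S, a * b = b * a := by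
    intro a ha b hb
    have h1 : closure S ≤ centralizer S := by
      rw [Subgroup.closure_le]
      intro u hu
      rw [SetLike.mem_coe, Subgroup.mem_centralizer_iff]
      intro v hv
      exact hc v hv u hu
    have h2 : closure S ≤ centralizer ({a} : Set D) := by
      rw [Subgroup.closure_le]
      intro u hu
      rw [SetLike.mem_coe, Subgroup.mem_centralizer_iff]
      rintro v rfl
      exact ((Subgroup.mem_centralizer_iff.mp (h1 ha)) u hu).symm
    exact ((Subgroup.mem_centralizer_iff.mp (h2 hb)) a rfl)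
  induction hx using closure_induction with
  | mem x hx => exact hS x hx
  | one => exact IsK.one
  | mul a b ha hb iha ihb => exact iha.mul_comm_of ihb (hcomm a ha b hb)
  | inv a ha iha => exact iha.inv

/-- A `p`-group without subgroups of rank two. -/
theorem isCyclic_of_no_rank_two {R : Type u} [Group R] [Finite R] {p : ℕ} [Fact p.Prime] (hp : p ≠ 2)
    (hR : IsPGroup p R) (h : ∀ E : Subgroup R, Nat.card E = p ^ 2 → (∀ e ∈ E, e ^ p = 1) → False) :
    IsCyclic R := by
  have hpp : p.Prime := Fact.out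
  apply Cfsg.Agent.Lib.OddPGroup.isCyclic_of_unique hp hR
  have key : ∀ H₁ : Subgroup R, Nat.card H₁ = p → ∀ z ∈ center R, orderOf z = p →
      H₁ = Subgroup.zpowers z := by
    intro H₁ hH₁ z hz hzo
    by_contra hne
    have hZ : Nat.card (Subgroup.zpowers z) = p := by rw [Nat.card_zpowers, hzo]
    have hd := inf_eq_bot_of_lines hpp hH₁ hZ hne
    have hcomm : ∀ a : R, ∀ b ∈ Subgroup.zpowers z, a * b = b * a := by
      intro a b hb
      obtain ⟨n, rfl⟩ := Subgroup.mem_zpowers_iff.mp hb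
      have h2 : Commute a z := (Subgroup.mem_center_iff.mp hz) a
      exact (h2.zpow_right n).eq
    haveI hn : (Subgroup.zpowers z).Normal := by
      constructor
      intro n hn g
      rw [hcomm g n hn, mul_inv_cancel_right]
      exact hn
    have hcard := card_sup_mul_card_inf (H := H₁) (N := Subgroup.zpowers z) (by
      rw [normalizer_eq_top_iff.mpr hn]; exact le_top)
    rw [hd, Subgroup.card_bot, mul_one, hH₁, hZ] at hcard
    apply h (H₁ ⊔ Subgroup.zpowers z) (by rw [hcard, sq])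
    intro e he
    rw [Subgroup.mem_sup_of_normal_right] at he
    obtain ⟨x, hx, y, hy, rfl⟩ := he
    have hc : Commute x y := hcomm x y hy
    rw [hc.mul_pow]
    have h1 : x ^ p = 1 := by
      rw [← hH₁]
      have := pow_card_eq_one' (x := (⟨x, hx⟩ : H₁))
      exact congrArg Subtype.val this
    have h2 : y ^ p = 1 := by
      rw [← hZ]
      have := pow_card_eq_one' (x := (⟨y, hy⟩ : Subgroup.zpowers z))
      exact congrArg Subtype.val this
    rw [h1, h2, mul_one]
  intro H₁ H₂ h₁ h₂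
  have hnt : Nontrivial R := by
    obtain ⟨e, he, he1⟩ := exists_ne_one_of_card (H := H₁) (by rw [h₁]; exact hpp.one_lt)
    exact ⟨e, 1, he1⟩
  have hcen : Nontrivial (center R) := hR.center_nontrivial
  have hdiv : p ∣ Nat.card (center R) := by
    obtain ⟨n, hn0, hn⟩ := (IsPGroup.nontrivial_iff_card (hR.to_subgroup (center R))).mp hcen
    rw [hn]
    exact dvd_pow_self p hn0.ne'
  obtain ⟨z, hz⟩ := exists_prime_orderOf_dvd_card' p hdiv
  have hz' : orderOf (z : R) = p := by
    rw [Subgroup.orderOf_coe]; exact hz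
  rw [key H₁ h₁ z z.2 hz', key H₂ h₂ z z.2 hz']

/-- A subgroup of inverted elements is cyclic. -/
theorem Cfg.isCyclic_K (h : Cfg t s₀) (J : Subgroup D) (hJ : ∀ j ∈ J, IsK t j) : IsCyclic J := by
  classical
  letI : CommGroup J :=
    { (inferInstance : Group J) with
      mul_comm := fun a b => Subtype.ext (comm_of_subgroup_K hJ a.2 b.2) }
  have hZ : IsZGroup J := by
    rw [isZGroup_iff]
    intro p hp P
    haveI : Fact p.Prime := ⟨hp⟩
    by_cases hp2 : p = 2
    · subst hp2
      have hcard : Nat.card P = 1 := by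
        have h1 : Nat.card P ∣ Nat.card D := by
          have h2 := Subgroup.card_subgroup_dvd_card (P : Subgroup J)
          exact h2.trans (Subgroup.card_subgroup_dvd_card J)
        obtain ⟨n, hn⟩ := IsPGroup.iff_card.mp P.isPGroup'
        rw [hn] at h1 ⊢
        have h3 := Odd.of_dvd_nat h.inv.odd h1
        rcases n with _ | n
        · simp
        · exfalso
          rw [pow_succ] at h3
          exact (Nat.not_even_iff_odd.mpr h3) (Even.mul_left even_two _)
      have : Subsingleton P := (Nat.card_eq_one_iff_unique.mp hcard).1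
      exact isCyclic_of_subsingleton
    · apply isCyclic_of_no_rank_two hp2 P.isPGroup'
      intro E hE hexp
      let f : (P : Subgroup J) →* D := J.subtype.comp (P : Subgroup J).subtype
      have hf : Function.Injective f := fun a b e => Subtype.ext (Subtype.ext e)
      have hc : Nat.card (E.map f) = p ^ 2 := by
        rw [← hE]
        exact (Nat.card_congr (E.equivMapOfInjective f hf).toEquiv).symm
      have hexp' : ∀ e ∈ E.map f, e ^ p = 1 := by
        rintro e ⟨x, hx, rfl⟩
        rw [← map_pow, hexp x hx, map_one]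
      obtain ⟨e, he, he1, b, _, hb0, heb⟩ := exists_fixed_of_rank_two hp2 hc hexp' h.char2 (⊤ : AddSubgroup A)
        (fun _ _ _ _ => AddSubgroup.mem_top _) (AddSubgroup.mem_top s₀) h.ne
      have heK : IsK t e := by
        obtain ⟨x, hx, rfl⟩ := he
        exact hJ _ ((x : J)).2
      exact he1 (h.fpf heK heb hb0)
  haveI := hZ
  have : IsCyclic J := inferInstance
  exact this

/-- The relation between commuting with an element of `V` and fixed vectors. -/
lemma Cfg.comm_of_fix (h : Cfg t s₀) {y k : D} (hy : IsV t y) (hk : IsK t k) (e : y • k • s₀ = k • s₀) :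
    y * k = k * y := by
  have h1 : y * k * y⁻¹ = k := by
    apply h.uniq _ _ (hy.conj_K hk) hk
    rw [mul_smul, mul_smul, h.fix _ hy.inv, e]
  calc y * k = y * k * y⁻¹ * y := by group
    _ = k * y := by rw [h1]

lemma Cfg.fix_of_comm (h : Cfg t s₀) {y k : D} (hy : IsV t y) (e : y * k = k * y) :
    y • k • s₀ = k • s₀ := by
  rw [← mul_smul, e, mul_smul, h.fix _ hy]

/-- Elements of `K` producing a vector fixed by `Y` centralise `Y`. -/
lemma Cfg.exists_K_fixed (h : Cfg t s₀) {Y : Subgroup D} (hY : ∀ y ∈ Y, IsV t y) {a : A}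
    (ha : a ∈ (fixedOf Y : AddSubgroup A)) (ha0 : a ≠ 0) :
    ∃ k, IsK t k ∧ k • s₀ = a ∧ ∀ y ∈ Y, y * k = k * y := by
  obtain ⟨k, hk, rfl⟩ := h.reg a ha0
  exact ⟨k, hk, rfl, fun y hy => h.comm_of_fix (hY y hy) hk (ha y hy)⟩

lemma tinv_centralizer {Y : Subgroup D} (hY : ∀ y ∈ Y, IsV t y) : TInv t (centralizer (Y : Set D)) := by
  intro c hc
  rw [Subgroup.mem_centralizer_iff] at hc ⊢
  intro y hy
  have h1 := hc y hy
  have h2 := congrArg t h1
  rw [map_mul, map_mul, hY y hy] at h2
  exact h2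

/-- The action of the centraliser on the fixed points. -/
@[reducible] def restrAct (Y : Subgroup D) :
    DistribMulAction ↥(centralizer (Y : Set D)) ↥(fixedOf Y : AddSubgroup A) where
  smul d a := ⟨(d : D) • (a : A), by
    intro y hy
    have h1 : y * (d : D) = d * y := (Subgroup.mem_centralizer_iff.mp d.2) y hy
    rw [smul_smul, h1, mul_smul, a.2 y hy]⟩
  one_smul a := Subtype.ext (one_smul D (a : A))
  mul_smul x y a := Subtype.ext (mul_smul (x : D) (y : D) (a : A))
  smul_zero d := Subtype.ext (smul_zero (d : D))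
  smul_add d a b := Subtype.ext (smul_add (d : D) (a : A) (b : A))

/-- Construction 1: restriction to the centraliser and fixed points of a subgroup of `V`. -/
theorem Cfg.restrict (h : Cfg t s₀) {Y : Subgroup D} (hY : ∀ y ∈ Y, IsV t y) :
    @Cfg _ _ _ _ (restrAct (A := A) Y) (restr h.inv (centralizer (Y : Set D)) (tinv_centralizer hY))
      (⟨s₀, fun y hy => h.fix y (hY y hy)⟩ : ↥(fixedOf Y : AddSubgroup A)) := by
  letI := restrAct (A := A) Y
  have hK : ∀ k : ↥(centralizer (Y : Set D)),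
      IsK (restr h.inv (centralizer (Y : Set D)) (tinv_centralizer hY)) k ↔ IsK t (k : D) := by
    intro k
    constructor
    · intro e
      exact congrArg Subtype.val e
    · intro e
      exact Subtype.ext e
  have hV : ∀ k : ↥(centralizer (Y : Set D)),
      IsV (restr h.inv (centralizer (Y : Set D)) (tinv_centralizer hY)) k ↔ IsV t (k : D) := by
    intro k
    constructor
    · intro e
      exact congrArg Subtype.val e
    · intro e
      exact Subtype.ext e
  refine
    { inv := ⟨inferInstance, h.inv.odd_sub _, fun d => Subtype.ext (h.inv.tt d)⟩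
      char2 := fun a => Subtype.ext (h.char2 a)
      ne := fun e => h.ne (congrArg Subtype.val e)
      fix := ?_
      reg := ?_
      uniq := ?_ }
  · intro v hv
    apply Subtype.ext
    exact h.fix _ ((hV v).mp hv)
  · intro s hs
    obtain ⟨k, hk, hks, hcomm⟩ := h.exists_K_fixed hY s.2 (fun e => hs (Subtype.ext e))
    refine ⟨⟨k, ?_⟩, (hK _).mpr hk, Subtype.ext hks⟩
    rw [Subgroup.mem_centralizer_iff]
    exact hcomm
  · intro k l hk hl e
    apply Subtype.ext
    exact h.uniq _ _ ((hK k).mp hk) ((hK l).mp hl) (congrArg Subtype.val e)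

/-- The kernel of the action. -/
def kerAct (D : Type u) (A : Type v) [Group D] [AddCommGroup A] [DistribMulAction D A] : Subgroup D where
  carrier := {d | ∀ a : A, d • a = a}
  mul_mem' := by
    intro x y hx hy a
    rw [mul_smul, hy, hx]
  one_mem' := fun a => one_smul D a
  inv_mem' := by
    intro x hx a
    have := hx a
    rw [inv_smul_eq_iff, this]

lemma mem_kerAct {d : D} : d ∈ kerAct D A ↔ ∀ a : A, d • a = a := Iff.rfl

instance kerAct_normal : (kerAct D A).Normal := by
  constructor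
  intro n hn g a
  rw [mul_smul, mul_smul, hn, smul_inv_smul]

lemma Cfg.kerAct_V (h : Cfg t s₀) {w : D} (hw : w ∈ kerAct D A) : IsV t w := h.stab (hw s₀)

lemma Cfg.kerAct_comm (h : Cfg t s₀) {w k : D} (hw : w ∈ kerAct D A) (hk : IsK t k) : w * k = k * w := by
  have h1 : k * w * k⁻¹ ∈ kerAct D A := (kerAct_normal (D := D) (A := A)).conj_mem w hw k
  exact (h.inv.K_comm hk (h.kerAct_V hw) (h.kerAct_V h1)).symm

/-- The action of the quotient by a subgroup of the kernel. -/
@[reducible] def quotAct (N : Subgroup D) [N.Normal] (hN : ∀ n ∈ N, ∀ a : A, n • a = a) :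
    DistribMulAction (D ⧸ N) A where
  smul q a := Quotient.liftOn' q (fun d => d • a) (by
    intro x y hxy
    have h1 : x⁻¹ * y ∈ N := QuotientGroup.leftRel_apply.mp hxy
    have h2 := hN _ h1 a
    rw [mul_smul, inv_smul_eq_iff] at h2
    exact h2.symm)
  one_smul a := one_smul D a
  mul_smul := by
    rintro ⟨x⟩ ⟨y⟩ a
    exact mul_smul x y a
  smul_zero := by
    rintro ⟨x⟩
    exact smul_zero x
  smul_add := by
    rintro ⟨x⟩ a b
    exact smul_add x a b

lemma map_eq_of_V {N : Subgroup D} (hN : ∀ n ∈ N, IsV t n) : N.map t.toMonoidHom = N := by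
  ext x
  constructor
  · rintro ⟨y, hy, rfl⟩
    have : t y = y := hN y hy
    change t y ∈ N
    rw [this]
    exact hy
  · intro hx
    exact ⟨x, hx, hN x hx⟩

/-- The induced automorphism. -/
noncomputable def tq (t : D ≃* D) (N : Subgroup D) [N.Normal] (hN : ∀ n ∈ N, IsV t n) : (D ⧸ N) ≃* (D ⧸ N) :=
  QuotientGroup.congr N N t (map_eq_of_V hN)

lemma tq_mk (N : Subgroup D) [N.Normal] (hN : ∀ n ∈ N, IsV t n) (d : D) :
    tq t N hN (d : D ⧸ N) = ((t d : D) : D ⧸ N) := rfl

lemma oddInv_tq (h : OddInv t) (N : Subgroup D) [N.Normal] (hN : ∀ n ∈ N, IsV t n) :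
    OddInv (tq t N hN) := by
  refine ⟨inferInstance, ?_, ?_⟩
  · apply Odd.of_dvd_nat h.odd
    rw [← Subgroup.index_eq_card]
    exact Subgroup.index_dvd_card N
  · intro d
    obtain ⟨x, rfl⟩ := QuotientGroup.mk_surjective d
    rw [tq_mk, tq_mk, h.tt]

lemma lift_K (h : OddInv t) (N : Subgroup D) [N.Normal] (hN : ∀ n ∈ N, IsV t n) {x : D ⧸ N}
    (hx : IsK (tq t N hN) x) : ∃ k, IsK t k ∧ (k : D ⧸ N) = x := by
  obtain ⟨d, rfl⟩ := QuotientGroup.mk_surjective x
  obtain ⟨v, k, hv, hk, rfl⟩ := h.decomp d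
  have hv' : IsV (tq t N hN) (v : D ⧸ N) := by
    unfold IsV
    rw [tq_mk, hv]
  have hk' : IsK (tq t N hN) (k : D ⧸ N) := by
    unfold IsK
    rw [tq_mk, hk]
    rfl
  have := (oddInv_tq h N hN).decomp_unique IsV.one hv' hx hk' (by
    rw [one_mul]; rfl)
  refine ⟨k, hk, ?_⟩
  rw [this.2]

lemma lift_V (h : OddInv t) (N : Subgroup D) [N.Normal] (hN : ∀ n ∈ N, IsV t n) {x : D ⧸ N}
    (hx : IsV (tq t N hN) x) : ∃ k, IsV t k ∧ (k : D ⧸ N) = x := by
  obtain ⟨d, rfl⟩ := QuotientGroup.mk_surjective x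
  obtain ⟨v, k, hv, hk, rfl⟩ := h.decomp d
  have hv' : IsV (tq t N hN) (v : D ⧸ N) := by
    unfold IsV
    rw [tq_mk, hv]
  have hk' : IsK (tq t N hN) (k : D ⧸ N) := by
    unfold IsK
    rw [tq_mk, hk]
    rfl
  have := (oddInv_tq h N hN).decomp_unique hx hv' IsK.one hk' (by
    rw [mul_one]; rfl)
  refine ⟨v, hv, ?_⟩
  rw [this.1]

/-- Construction 2: passing to the quotient by a normal subgroup of the kernel. -/
theorem Cfg.quot (h : Cfg t s₀) (N : Subgroup D) [N.Normal] (hN : ∀ n ∈ N, IsV t n)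
    (hN' : ∀ n ∈ N, ∀ a : A, n • a = a) :
    @Cfg _ _ _ _ (quotAct (A := A) N hN') (tq t N hN) s₀ := by
  letI := quotAct (A := A) N hN'
  have hsm : ∀ (d : D) (a : A), (d : D ⧸ N) • a = d • a := fun d a => rfl
  refine
    { inv := oddInv_tq h.inv N hN
      char2 := h.char2
      ne := h.ne
      fix := ?_
      reg := ?_
      uniq := ?_ }
  · intro v hv
    obtain ⟨v', hv', rfl⟩ := lift_V h.inv N hN hv
    rw [hsm]
    exact h.fix _ hv'
  · intro s hs
    obtain ⟨k, hk, hks⟩ := h.reg s hs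
    refine ⟨(k : D ⧸ N), ?_, by rw [hsm, hks]⟩
    unfold IsK
    rw [tq_mk, hk]
    rfl
  · intro k l hk hl e
    obtain ⟨k', hk', rfl⟩ := lift_K h.inv N hN hk
    obtain ⟨l', hl', rfl⟩ := lift_K h.inv N hN hl
    rw [hsm, hsm] at e
    rw [h.uniq _ _ hk' hl' e]

/-- If the inverted elements commute in the quotient by a subgroup of the kernel then they commute. -/
theorem Cfg.comm_of_quot (h : Cfg t s₀) (N : Subgroup D) [hNn : N.Normal] (hNk : N ≤ kerAct D A)
    (hq : ∀ x y : D ⧸ N, IsK (tq t N (fun n hn => h.kerAct_V (hNk hn))) x →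
      IsK (tq t N (fun n hn => h.kerAct_V (hNk hn))) y → x * y = y * x)
    {k l : D} (hk : IsK t k) (hl : IsK t l) : k * l = l * k := by
  have hN : ∀ n ∈ N, IsV t n := fun n hn => h.kerAct_V (hNk hn)
  have hN' : ∀ n ∈ N, ∀ a : A, n • a = a := fun n hn => hNk hn
  letI := quotAct (A := A) N hN'
  have hcq := h.quot N hN hN'
  set T := tq t N hN with hT
  let J : Subgroup (D ⧸ N) :=
    { carrier := {x | IsK T x}
      mul_mem' := fun {a b} ha hb => IsK.mul_comm_of ha hb (hq a b ha hb)
      one_mem' := IsK.one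
      inv_mem' := fun {a} ha => IsK.inv ha }
  haveI hcyc : IsCyclic J := hcq.isCyclic_K J (fun j hj => hj)
  obtain ⟨⟨g₀, hg₀⟩, hgen⟩ := IsCyclic.exists_generator (α := J)
  obtain ⟨g, hg, rfl⟩ := lift_K h.inv N hN hg₀
  have hkJ : ((k : D ⧸ N)) ∈ J := by
    change IsK T _
    change T (k : D ⧸ N) = _
    rw [hT, tq_mk, hk]
    rfl
  have hlJ : ((l : D ⧸ N)) ∈ J := by
    change IsK T _
    change T (l : D ⧸ N) = _
    rw [hT, tq_mk, hl]
    rfl
  have expr : ∀ x : D, (x : D ⧸ N) ∈ J → ∃ n : ℤ, (g ^ n)⁻¹ * x ∈ N := by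
    intro x hx
    have h1 := hgen ⟨(x : D ⧸ N), hx⟩
    obtain ⟨n, hn⟩ := Subgroup.mem_zpowers_iff.mp h1
    refine ⟨n, ?_⟩
    have h2 : ((g : D ⧸ N)) ^ n = (x : D ⧸ N) := congrArg Subtype.val hn
    rw [← QuotientGroup.eq]
    rw [← h2]
    rfl
  obtain ⟨a, ha⟩ := expr k hkJ
  obtain ⟨b, hb⟩ := expr l hlJ
  set w₁ := (g ^ a)⁻¹ * k with hw₁
  set w₂ := (g ^ b)⁻¹ * l with hw₂
  have hk' : k = g ^ a * w₁ := by rw [hw₁]; group
  have hl' : l = g ^ b * w₂ := by rw [hw₂]; group
  have c1 : Commute w₁ g := h.kerAct_comm (hNk ha) hg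
  have c2 : Commute w₂ g := h.kerAct_comm (hNk hb) hg
  have c3 : Commute w₁ l := h.kerAct_comm (hNk ha) hl
  have c4 : Commute w₁ w₂ := by
    rw [hw₂]
    exact ((c1.zpow_right b).inv_right).mul_right c3
  have c5 : Commute (g ^ a) (g ^ b) := (Commute.refl g).zpow_zpow a b
  have c6 : Commute (g ^ a) w₂ := (c2.symm.zpow_left a)
  have c7 : Commute w₁ (g ^ b) := c1.zpow_right b
  have : Commute (g ^ a * w₁) (g ^ b * w₂) :=
    (c5.mul_right c6).mul_left (c7.mul_right c4)
  rw [hk', hl']
  exact this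

/-- The induction hypothesis. -/
def Hyp (n : ℕ) : Prop :=
  ∀ (D : Type u) (A : Type v) [Group D] [Finite D] [AddCommGroup A] [Finite A] [DistribMulAction D A]
    (t : D ≃* D) (s₀ : A), Cfg t s₀ → Nat.card D < n → ∀ k l, IsK t k → IsK t l → k * l = l * k

/-- What the induction hypothesis gives in the faithful case. -/
theorem Cfg.comm_of_centr (h : Cfg t s₀) (ih : Hyp.{u, v} (Nat.card D))
    (hf : kerAct D A = ⊥) {y : D} (hy : IsV t y) (hy1 : y ≠ 1) {k l : D} (hk : IsK t k) (hl : IsK t l)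
    (hyk : y * k = k * y) (hyl : y * l = l * y) : k * l = l * k := by
  have hYV : ∀ x ∈ Subgroup.zpowers y, IsV t x := by
    intro x hx
    obtain ⟨n, rfl⟩ := Subgroup.mem_zpowers_iff.mp hx
    exact hy.zpow n
  have hc := h.restrict hYV
  letI := restrAct (A := A) (Subgroup.zpowers y)
  have hlt : Nat.card (centralizer ((Subgroup.zpowers y : Subgroup D) : Set D)) < Nat.card D := by
    by_contra hcon
    have h1 : centralizer ((Subgroup.zpowers y : Subgroup D) : Set D) = ⊤ := by
      apply Subgroup.eq_top_of_card_eq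
      exact le_antisymm (Subgroup.card_le_card_group _) (not_lt.mp hcon)
    have h2 : y ∈ kerAct D A := by
      intro a
      by_cases ha : a = 0
      · rw [ha, smul_zero]
      · obtain ⟨m, hm, rfl⟩ := h.reg a ha
        apply h.fix_of_comm hy
        have h3 : m ∈ centralizer ((Subgroup.zpowers y : Subgroup D) : Set D) := by
          rw [h1]; exact Subgroup.mem_top m
        exact (Subgroup.mem_centralizer_iff.mp h3) y (Subgroup.mem_zpowers y)
    rw [hf, Subgroup.mem_bot] at h2
    exact hy1 h2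
  have hmem : ∀ x, x * y = y * x → x ∈ centralizer ((Subgroup.zpowers y : Subgroup D) : Set D) := by
    intro x hx
    rw [Subgroup.mem_centralizer_iff]
    intro z hz
    obtain ⟨n, rfl⟩ := Subgroup.mem_zpowers_iff.mp hz
    have : Commute x y := hx
    exact (this.zpow_right n).eq.symm
  have := ih _ _ _ _ hc hlt ⟨k, hmem k hyk.symm⟩ ⟨l, hmem l hyl.symm⟩ (Subtype.ext hk) (Subtype.ext hl)
  exact congrArg Subtype.val this

end Cfsg.Agent.Lib.HuaC
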