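import Mathlib
import Cfsg.Agent.Lib.HuaC

/-!
# The faithful minimal situation: numerics for rank two subgroups of `V`
-/

set_option autoImplicit false
set_option linter.unusedSectionVars false
set_option linter.unusedVariables false
set_option linter.style.haveILetI false
set_option linter.unusedSimpArgs false

namespace Cfsg.Agent.Lib.HuaD1

open Subgroup Cfsg.Agent.Lib.CoprimeInv Cfsg.Agent.Lib.HuaA Cfsg.Agent.Lib.HuaB Cfsg.Agent.Lib.HuaN
  Cfsg.Agent.Lib.HuaC Cfsg.Agent.Lib.HuaFld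

universe u v

variable {D : Type u} {A : Type v} [Group D] [Finite D] [AddCommGroup A] [Finite A]
  [DistribMulAction D A] {t : D ≃* D} {s₀ : A}

/-- The situation in a minimal counterexample. -/
structure Min (t : D ≃* D) (s₀ : A) : Prop where
  cfg : Cfg t s₀
  faithful : kerAct D A = ⊥
  comm : ∀ y, IsV t y → y ≠ 1 → ∀ k l, IsK t k → IsK t l → y * k = k * y → y * l = l * y → k * l = l * k

/-- Inverted elements centralising `Y`. -/
def KY (t : D ≃* D) (Y : Subgroup D) : Set D := {k | IsK t k ∧ ∀ y ∈ Y, y * k = k * y}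

lemma _root_.Cfsg.Agent.Lib.HuaC.Cfg.smul_ne (h : Cfg t s₀) (k : D) : k • s₀ ≠ 0 := by
  intro e
  apply h.ne
  have := congrArg (fun a => k⁻¹ • a) e
  simpa using this

theorem _root_.Cfsg.Agent.Lib.HuaC.Cfg.card_KY (h : Cfg t s₀) {Y : Subgroup D} (hY : ∀ y ∈ Y, IsV t y) :
    Nat.card (KY t Y) + 1 = Nat.card (fixedOf Y : AddSubgroup A) := by
  classical
  let f : KY t Y → {a : ↥(fixedOf Y : AddSubgroup A) // a ≠ 0} := fun k =>
    ⟨⟨(k : D) • s₀, fun y hy => h.fix_of_comm (hY y hy) (k.2.2 y hy)⟩,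
      fun e => h.smul_ne (k : D) (congrArg Subtype.val e)⟩
  have hf : Function.Bijective f := by
    constructor
    · intro a b e
      apply Subtype.ext
      apply h.uniq _ _ a.2.1 b.2.1
      have := congrArg (fun x => ((x.1 : ↥(fixedOf Y : AddSubgroup A)) : A)) e
      exact this
    · rintro ⟨⟨a, ha⟩, ha0⟩
      have ha0' : a ≠ 0 := fun e => ha0 (Subtype.ext e)
      obtain ⟨k, hk, hks, hc⟩ := h.exists_K_fixed hY ha ha0'
      refine ⟨⟨k, hk, hc⟩, ?_⟩
      apply Subtype.ext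
      apply Subtype.ext
      exact hks
  rw [Nat.card_congr (Equiv.ofBijective f hf), ← Finite.card_option]
  exact Nat.card_congr (Equiv.optionSubtypeNe (0 : ↥(fixedOf Y : AddSubgroup A)))

/-- The subgroup of inverted elements centralising a non-trivial subgroup of `V`. -/
def Min.KYsub (h : Min t s₀) {Y : Subgroup D} (hY : ∀ y ∈ Y, IsV t y) (hne : ∃ y ∈ Y, y ≠ 1) :
    Subgroup D where
  carrier := KY t Y
  mul_mem' := by
    rintro a b ⟨ha, ha'⟩ ⟨hb, hb'⟩
    obtain ⟨y, hy, hy1⟩ := hne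
    refine ⟨ha.mul_comm_of hb (h.comm y (hY y hy) hy1 a b ha hb (ha' y hy) (hb' y hy)), ?_⟩
    intro x hx
    have h1 : Commute x a := ha' x hx
    have h2 : Commute x b := hb' x hx
    exact (h1.mul_right h2).eq
  one_mem' := ⟨IsK.one, fun y _ => by simp⟩
  inv_mem' := by
    rintro a ⟨ha, ha'⟩
    refine ⟨ha.inv, ?_⟩
    intro x hx
    have h1 : Commute x a := ha' x hx
    exact h1.inv_right.eq

lemma Min.mem_KYsub (h : Min t s₀) {Y : Subgroup D} (hY : ∀ y ∈ Y, IsV t y) (hne : ∃ y ∈ Y, y ≠ 1) {k : D} :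
    k ∈ h.KYsub hY hne ↔ IsK t k ∧ ∀ y ∈ Y, y * k = k * y := Iff.rfl

lemma Min.card_KYsub (h : Min t s₀) {Y : Subgroup D} (hY : ∀ y ∈ Y, IsV t y) (hne : ∃ y ∈ Y, y ≠ 1) :
    Nat.card (h.KYsub hY hne) + 1 = Nat.card (fixedOf Y : AddSubgroup A) :=
  h.cfg.card_KY hY

lemma Min.isCyclic_KYsub (h : Min t s₀) {Y : Subgroup D} (hY : ∀ y ∈ Y, IsV t y) (hne : ∃ y ∈ Y, y ≠ 1) :
    IsCyclic (h.KYsub hY hne) :=
  h.cfg.isCyclic_K _ (fun j hj => hj.1)

open scoped Classical in
/-- The element of `K` attached to a vector. -/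
noncomputable def _root_.Cfsg.Agent.Lib.HuaC.Cfg.kk (h : Cfg t s₀) (a : A) : D :=
  if ha : a = 0 then 1 else (h.reg a ha).choose

lemma _root_.Cfsg.Agent.Lib.HuaC.Cfg.kk_K (h : Cfg t s₀) (a : A) : IsK t (h.kk a) := by
  unfold Cfg.kk
  split_ifs with ha
  · exact IsK.one
  · exact (h.reg a ha).choose_spec.1

lemma _root_.Cfsg.Agent.Lib.HuaC.Cfg.kk_smul (h : Cfg t s₀) {a : A} (ha : a ≠ 0) : h.kk a • s₀ = a := by
  unfold Cfg.kk
  rw [dif_neg ha]
  exact (h.reg a ha).choose_spec.2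

lemma _root_.Cfsg.Agent.Lib.HuaC.Cfg.kk_eq (h : Cfg t s₀) {k : D} (hk : IsK t k) : h.kk (k • s₀) = k :=
  h.uniq _ _ (h.kk_K _) hk (h.kk_smul (h.smul_ne k))

lemma _root_.Cfsg.Agent.Lib.HuaC.Cfg.kk_s₀ (h : Cfg t s₀) : h.kk s₀ = 1 := by
  have := h.kk_eq (k := 1) IsK.one
  rwa [one_smul] at this

/-- The operator attached to a vector of `C_A(Y)`. -/
noncomputable def Min.op (h : Min t s₀) {Y : Subgroup D} (hY : ∀ y ∈ Y, IsV t y)
    (a : ↥(fixedOf Y : AddSubgroup A)) :
    ↥(fixedOf Y : AddSubgroup A) →+ ↥(fixedOf Y : AddSubgroup A) := by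
  classical
  exact if ha : (a : A) = 0 then 0 else
    AddMonoidHom.mk' (fun b => ⟨h.cfg.kk a • (b : A), by
      intro y hy
      have h1 : y * h.cfg.kk a = h.cfg.kk a * y :=
        h.cfg.comm_of_fix (hY y hy) (h.cfg.kk_K a) (by rw [h.cfg.kk_smul ha]; exact a.2 y hy)
      rw [smul_smul, h1, mul_smul, b.2 y hy]⟩)
      (fun b c => Subtype.ext (smul_add _ _ _))

lemma Min.op_zero (h : Min t s₀) {Y : Subgroup D} (hY : ∀ y ∈ Y, IsV t y)
    {a : ↥(fixedOf Y : AddSubgroup A)} (ha : (a : A) = 0) (b : ↥(fixedOf Y : AddSubgroup A)) :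
    h.op hY a b = 0 := by
  unfold Min.op
  rw [dif_pos ha]
  rfl

lemma Min.op_coe (h : Min t s₀) {Y : Subgroup D} (hY : ∀ y ∈ Y, IsV t y)
    {a : ↥(fixedOf Y : AddSubgroup A)} (ha : (a : A) ≠ 0) (b : ↥(fixedOf Y : AddSubgroup A)) :
    ((h.op hY a b : ↥(fixedOf Y : AddSubgroup A)) : A) = h.cfg.kk a • (b : A) := by
  unfold Min.op
  rw [dif_neg ha]
  rfl

lemma Min.kk_mem (h : Min t s₀) {Y : Subgroup D} (hY : ∀ y ∈ Y, IsV t y)
    (a : ↥(fixedOf Y : AddSubgroup A)) (ha : (a : A) ≠ 0) : h.cfg.kk a ∈ KY t Y :=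
  ⟨h.cfg.kk_K a, fun y hy => h.cfg.comm_of_fix (hY y hy) (h.cfg.kk_K a)
    (by rw [h.cfg.kk_smul ha]; exact a.2 y hy)⟩

/-- The one of the field. -/
def oneB (h : Cfg t s₀) {Y : Subgroup D} (hY : ∀ y ∈ Y, IsV t y) : ↥(fixedOf Y : AddSubgroup A) :=
  ⟨s₀, fun y hy => h.fix y (hY y hy)⟩

section field

variable (h : Min t s₀) {Y : Subgroup D} (hY : ∀ y ∈ Y, IsV t y) (hne : ∃ y ∈ Y, y ≠ 1)

include h hY hne

lemma Min.kk_comm {a b : ↥(fixedOf Y : AddSubgroup A)} (ha : (a : A) ≠ 0) (hb : (b : A) ≠ 0) :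
    h.cfg.kk a * h.cfg.kk b = h.cfg.kk b * h.cfg.kk a := by
  obtain ⟨y, hy, hy1⟩ := hne
  exact h.comm y (hY y hy) hy1 _ _ (h.cfg.kk_K a) (h.cfg.kk_K b) ((h.kk_mem hY a ha).2 y hy)
    ((h.kk_mem hY b hb).2 y hy)

lemma Min.op_one_left (b : ↥(fixedOf Y : AddSubgroup A)) : h.op hY (oneB h.cfg hY) b = b := by
  apply Subtype.ext
  rw [h.op_coe hY (a := oneB h.cfg hY) h.cfg.ne]
  change h.cfg.kk s₀ • (b : A) = b
  rw [h.cfg.kk_s₀, one_smul]

lemma Min.op_comm (a b : ↥(fixedOf Y : AddSubgroup A)) : h.op hY a b = h.op hY b a := by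
  by_cases ha : (a : A) = 0
  · have : a = 0 := Subtype.ext ha
    rw [h.op_zero hY ha, this, map_zero]
  by_cases hb : (b : A) = 0
  · have : b = 0 := Subtype.ext hb
    rw [h.op_zero hY hb, this, map_zero]
  apply Subtype.ext
  rw [h.op_coe hY ha, h.op_coe hY hb]
  have e1 := h.cfg.kk_smul ha
  have e2 := h.cfg.kk_smul hb
  calc h.cfg.kk a • (b : A) = h.cfg.kk a • h.cfg.kk b • s₀ := by rw [e2]
    _ = (h.cfg.kk a * h.cfg.kk b) • s₀ := by rw [mul_smul]
    _ = (h.cfg.kk b * h.cfg.kk a) • s₀ := by rw [h.kk_comm hY hne ha hb]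
    _ = h.cfg.kk b • h.cfg.kk a • s₀ := by rw [mul_smul]
    _ = h.cfg.kk b • (a : A) := by rw [e1]

lemma Min.op_assoc (a b c : ↥(fixedOf Y : AddSubgroup A)) :
    h.op hY (h.op hY a b) c = h.op hY a (h.op hY b c) := by
  by_cases ha : (a : A) = 0
  · rw [h.op_zero hY ha, h.op_zero hY ha]
    exact h.op_zero hY rfl c
  by_cases hb : (b : A) = 0
  · have hb' : b = 0 := Subtype.ext hb
    rw [h.op_zero hY hb, hb', map_zero]
    exact h.op_zero hY rfl c
  have hab : ((h.op hY a b : ↥(fixedOf Y : AddSubgroup A)) : A) ≠ 0 := by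
    rw [h.op_coe hY ha]
    intro e
    apply hb
    have := congrArg (fun x => (h.cfg.kk a)⁻¹ • x) e
    simpa using this
  apply Subtype.ext
  have e1 : h.cfg.kk ((h.op hY a b : ↥(fixedOf Y : AddSubgroup A)) : A) = h.cfg.kk a * h.cfg.kk b := by
    have h2 : IsK t (h.cfg.kk a * h.cfg.kk b) :=
      (h.cfg.kk_K _).mul_comm_of (h.cfg.kk_K _) (h.kk_comm hY hne ha hb)
    have h3 : (h.cfg.kk a * h.cfg.kk b) • s₀ = ((h.op hY a b : ↥(fixedOf Y : AddSubgroup A)) : A) := by
      rw [h.op_coe hY ha, mul_smul, h.cfg.kk_smul hb]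
    rw [← h3, h.cfg.kk_eq h2]
  rw [h.op_coe hY hab, e1, h.op_coe hY ha, h.op_coe hY hb, mul_smul]

lemma Min.op_inv (a : ↥(fixedOf Y : AddSubgroup A)) (ha : a ≠ 0) :
    ∃ b, h.op hY a b = oneB h.cfg hY := by
  have ha' : (a : A) ≠ 0 := fun e => ha (Subtype.ext e)
  have hk := h.kk_mem hY a ha'
  refine ⟨⟨(h.cfg.kk a)⁻¹ • s₀, ?_⟩, ?_⟩
  · intro y hy
    have h1 : Commute y (h.cfg.kk a) := hk.2 y hy
    rw [smul_smul, h1.inv_right.eq, mul_smul, h.cfg.fix y (hY y hy)]
  · apply Subtype.ext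
    rw [h.op_coe hY ha']
    change h.cfg.kk a • (h.cfg.kk a)⁻¹ • s₀ = s₀
    rw [smul_inv_smul]

lemma Min.one_ne : oneB h.cfg hY ≠ 0 := fun e => h.cfg.ne (congrArg Subtype.val e)

end field

/-- Acting on `C_A(Y)` by an element of `V` centralising `Y`. -/
@[reducible] def sigmaOf {Y : Subgroup D} {e : D} (hc : ∀ y ∈ Y, e * y = y * e) :
    ↥(fixedOf Y : AddSubgroup A) ≃+ ↥(fixedOf Y : AddSubgroup A) where
  toFun a := ⟨e • (a : A), by
    intro y hy
    rw [smul_smul, ← hc y hy, mul_smul, a.2 y hy]⟩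
  invFun a := ⟨e⁻¹ • (a : A), by
    intro y hy
    have h1 : Commute e y := hc y hy
    rw [smul_smul, ← h1.inv_left.eq, mul_smul, a.2 y hy]⟩
  left_inv a := Subtype.ext (inv_smul_smul e (a : A))
  right_inv a := Subtype.ext (smul_inv_smul e (a : A))
  map_add' a b := Subtype.ext (smul_add e _ _)

lemma Min.sigma_op (h : Min t s₀) {Y : Subgroup D} (hY : ∀ y ∈ Y, IsV t y) {e : D} (he : IsV t e)
    (hc : ∀ y ∈ Y, e * y = y * e) (a b : ↥(fixedOf Y : AddSubgroup A)) :
    sigmaOf hc (h.op hY a b) = h.op hY (sigmaOf hc a) (sigmaOf hc b) := by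
  by_cases ha : (a : A) = 0
  · have ha' : a = 0 := Subtype.ext ha
    rw [h.op_zero hY ha, map_zero, ha', map_zero]
    rw [h.op_zero hY rfl]
  have hea : ((sigmaOf hc a : ↥(fixedOf Y : AddSubgroup A)) : A) ≠ 0 := by
    intro e'
    apply ha
    have h2 : e • (a : A) = 0 := e'
    have := congrArg (fun x => e⁻¹ • x) h2
    simpa using this
  apply Subtype.ext
  rw [h.op_coe hY hea]
  change e • ((h.op hY a b : ↥(fixedOf Y : AddSubgroup A)) : A) = _ • (e • (b : A))
  rw [h.op_coe hY ha]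
  have h3 : h.cfg.kk ((sigmaOf hc a : ↥(fixedOf Y : AddSubgroup A)) : A) = e * h.cfg.kk a * e⁻¹ := by
    have h4 : IsK t (e * h.cfg.kk a * e⁻¹) := he.conj_K (h.cfg.kk_K _)
    have h5 : (e * h.cfg.kk a * e⁻¹) • s₀ = ((sigmaOf hc a : ↥(fixedOf Y : AddSubgroup A)) : A) := by
      change _ = e • (a : A)
      rw [mul_smul, mul_smul, h.cfg.fix _ he.inv, h.cfg.kk_smul ha]
    rw [← h5, h.cfg.kk_eq h4]
  rw [h3, mul_smul, mul_smul, inv_smul_smul]

lemma sigma_iter {Y : Subgroup D} {e : D} (hc : ∀ y ∈ Y, e * y = y * e) (n : ℕ)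
    (a : ↥(fixedOf Y : AddSubgroup A)) :
    (((sigmaOf hc)^[n] a : ↥(fixedOf Y : AddSubgroup A)) : A) = e ^ n • (a : A) := by
  induction n generalizing a with
  | zero => simp
  | succ n ih =>
    rw [Function.iterate_succ_apply, ih, pow_succ, mul_smul]
    rfl

/-- An element of prime order moving `C_A(Y)`. -/
theorem Min.card_of_move (h : Min t s₀) {Y : Subgroup D} (hY : ∀ y ∈ Y, IsV t y) (hne : ∃ y ∈ Y, y ≠ 1)
    {e : D} (he : IsV t e) (hc : ∀ y ∈ Y, e * y = y * e) {r : ℕ} [Fact r.Prime] (her : e ^ r = 1)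
    (hmove : ∃ a ∈ (fixedOf Y : AddSubgroup A), e • a ≠ a) :
    Nat.card (fixedOf Y : AddSubgroup A) =
      Nat.card {a : ↥(fixedOf Y : AddSubgroup A) // e • (a : A) = a} ^ r := by
  have h1 := card_of_op (oneB h.cfg hY) (h.op hY) (h.one_ne hY hne) (h.op_one_left hY hne) (h.op_comm hY hne)
    (h.op_assoc hY hne) (h.op_inv hY hne) (sigmaOf hc) (h.sigma_op hY he hc) (r := r)
    (by
      intro a
      apply Subtype.ext
      rw [sigma_iter, her, one_smul])
    (by
      obtain ⟨a, ha, hea⟩ := hmove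
      refine ⟨⟨a, ha⟩, fun e' => hea ?_⟩
      exact congrArg Subtype.val e')
  rw [h1]
  congr 1
  apply Nat.card_congr
  refine Equiv.subtypeEquivRight ?_
  intro a
  constructor
  · intro e'
    exact congrArg Subtype.val e'
  · intro e'
    exact Subtype.ext e'

lemma comm_of_rank_two {E : Subgroup D} {r : ℕ} [Fact r.Prime] (hE : Nat.card E = r ^ 2) {x y : D}
    (hx : x ∈ E) (hy : y ∈ E) : x * y = y * x := by
  haveI := IsPGroup.isMulCommutative_of_card_eq_prime_sq hE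
  have := mul_comm' (⟨x, hx⟩ : E) ⟨y, hy⟩
  exact congrArg Subtype.val this

/-- Two different lines generate `E`. -/
lemma sup_eq_of_lines {E H₀ H₁ : Subgroup D} {r : ℕ} [Fact r.Prime] (hE : Nat.card E = r ^ 2)
    (h₀ : H₀ ∈ lines E r) (h₁ : H₁ ∈ lines E r) (hne : H₀ ≠ H₁) : H₀ ⊔ H₁ = E := by
  rw [mem_lines] at h₀ h₁
  have hd := inf_eq_bot_of_lines Fact.out h₀.2 h₁.2 hne
  have hn : H₀ ≤ normalizer (H₁ : Set D) := by
    intro x hx
    rw [mem_normalizer_iff]
    intro y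
    have key : ∀ z ∈ E, x * z * x⁻¹ = z := by
      intro z hz
      rw [comm_of_rank_two hE (h₀.1 hx) hz, mul_inv_cancel_right]
    constructor
    · intro hy
      rw [key y (h₁.1 hy)]
      exact hy
    · intro hy
      have h2 : x * y * x⁻¹ ∈ E := h₁.1 hy
      have h3 : y = x⁻¹ * (x * y * x⁻¹) * x := by group
      have hyE : y ∈ E := by
        rw [h3]
        exact E.mul_mem (E.mul_mem (E.inv_mem (h₀.1 hx)) h2) (h₀.1 hx)
      rw [key y hyE] at hy
      exact hy
  have hcard := card_sup_mul_card_inf hn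
  rw [hd, Subgroup.card_bot, mul_one, h₀.2, h₁.2] at hcard
  apply Subgroup.eq_of_le_of_card_ge (sup_le h₀.1 h₁.1)
  rw [hE, hcard, sq]

/-- The alternatives for the fixed points of a line. -/
theorem Min.card_line (h : Min t s₀) {E H : Subgroup D} {r : ℕ} [Fact r.Prime] (hEV : ∀ e ∈ E, IsV t e)
    (hE : Nat.card E = r ^ 2) (hexp : ∀ e ∈ E, e ^ r = 1) (hH : H ∈ lines E r) :
    Nat.card (fixedOf H : AddSubgroup A) = Nat.card (fixedOf E : AddSubgroup A) ∨
      Nat.card (fixedOf H : AddSubgroup A) = Nat.card (fixedOf E : AddSubgroup A) ^ r := by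
  have hr : r.Prime := Fact.out
  have hH' := mem_lines.mp hH
  by_cases hall : ∀ a ∈ (fixedOf H : AddSubgroup A), ∀ e ∈ E, e • a = a
  · left
    have : (fixedOf H : AddSubgroup A) = fixedOf E :=
      le_antisymm (fun a ha e he => hall a ha e he) (fixedOf_anti hH'.1)
    rw [this]
  · right
    push Not at hall
    obtain ⟨a, ha, e, he, hea⟩ := hall
    have heH : e ∉ H := fun hm => hea (ha e hm)
    have he1 : e ≠ 1 := fun h1 => hea (by rw [h1, one_smul])
    have hne : ∃ y ∈ H, y ≠ 1 := exists_ne_one_of_card (by rw [hH'.2]; exact hr.one_lt)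
    have h1 := h.card_of_move (Y := H) (fun y hy => hEV y (hH'.1 hy)) hne (hEV e he)
      (fun y hy => comm_of_rank_two hE he (hH'.1 hy)) (hexp e he) ⟨a, ha, hea⟩
    rw [h1]
    congr 1
    apply Nat.card_congr
    have hsup : H ⊔ Subgroup.zpowers e = E := by
      apply sup_eq_of_lines hE hH (zpowers_mem_lines hexp he he1)
      intro e'
      apply heH
      rw [e']
      exact Subgroup.mem_zpowers e
    refine
      { toFun := fun b => ⟨(b.1 : A), ?_⟩
        invFun := fun b => ⟨⟨(b : A), fixedOf_anti hH'.1 b.2⟩, b.2 e he⟩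
        left_inv := fun b => rfl
        right_inv := fun b => rfl }
    intro g hg
    rw [← hsup] at hg
    have h2 : H ⊔ Subgroup.zpowers e ≤ MulAction.stabilizer D (b.1 : A) := by
      apply sup_le
      · intro x hx
        exact b.1.2 x hx
      · rw [Subgroup.zpowers_le]
        exact b.2
    exact h2 hg

/-- Free actions. -/
lemma card_dvd_of_free {G Y : Type*} [Group G] [Finite G] [Finite Y] [MulAction G Y]
    (hfree : ∀ (g : G) (y : Y), g • y = y → g = 1) : Nat.card G ∣ Nat.card Y := by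
  classical
  haveI := Fintype.ofFinite G
  haveI := Fintype.ofFinite Y
  have h1 := MulAction.card_eq_sum_card_group_div_card_stabilizer G Y
  rw [Nat.card_eq_fintype_card, Nat.card_eq_fintype_card, h1]
  apply Finset.dvd_sum
  intro ω _
  have h2 : Fintype.card (MulAction.stabilizer G (Quotient.out ω)) = 1 := by
    rw [Fintype.card_eq_one_iff]
    refine ⟨1, ?_⟩
    rintro ⟨g, hg⟩
    apply Subtype.ext
    exact hfree g _ hg
  rw [h2, Nat.div_one]

/-- A subgroup of inverted elements has order dividing `|A| - 1`. -/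
lemma _root_.Cfsg.Agent.Lib.HuaC.Cfg.card_dvd (h : Cfg t s₀) (J : Subgroup D) (hJ : ∀ j ∈ J, IsK t j) :
    Nat.card J ∣ Nat.card A - 1 := by
  classical
  letI : MulAction J {a : A // a ≠ 0} :=
    { smul := fun g a => ⟨(g : D) • (a : A), fun e => a.2 (by
        have := congrArg (fun x => (g : D)⁻¹ • x) e
        simpa using this)⟩
      one_smul := fun a => Subtype.ext (one_smul D (a : A))
      mul_smul := fun x y a => Subtype.ext (mul_smul (x : D) (y : D) (a : A)) }
  have h1 : Nat.card J ∣ Nat.card {a : A // a ≠ 0} := by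
    apply card_dvd_of_free
    intro g y e
    apply Subtype.ext
    exact h.fpf (hJ g g.2) (congrArg Subtype.val e) y.2
  have h2 : Nat.card {a : A // a ≠ 0} + 1 = Nat.card A := by
    rw [← Finite.card_option]
    exact Nat.card_congr (Equiv.optionSubtypeNe (0 : A))
  have h3 : Nat.card {a : A // a ≠ 0} = Nat.card A - 1 := by omega
  rwa [h3] at h1

lemma le_kerAct_of_card {F : Subgroup D} (hc : Nat.card (fixedOf F : AddSubgroup A) = Nat.card A) :
    F ≤ kerAct D A := by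
  have h1 : (fixedOf F : AddSubgroup A) = ⊤ := AddSubgroup.eq_top_of_card_eq _ hc
  intro f hf a
  have h2 : a ∈ (fixedOf F : AddSubgroup A) := by rw [h1]; exact AddSubgroup.mem_top a
  exact h2 f hf

lemma _root_.Cfsg.Agent.Lib.HuaC.Cfg.two_le_card (h : Cfg t s₀) {E : Subgroup D} (hEV : ∀ e ∈ E, IsV t e) :
    2 ≤ Nat.card (fixedOf E : AddSubgroup A) := by
  have h1 : Nontrivial (fixedOf E : AddSubgroup A) :=
    ⟨⟨⟨s₀, fun y hy => h.fix y (hEV y hy)⟩, 0, fun e => h.ne (congrArg Subtype.val e)⟩⟩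
  exact Finite.one_lt_card_iff_nontrivial.mpr h1

/-- The numerics for a rank two subgroup of `V`. -/
theorem Min.numerics (h : Min t s₀) {E : Subgroup D} {r : ℕ} [Fact r.Prime] (hr2 : r ≠ 2)
    (hEV : ∀ e ∈ E, IsV t e) (hE : Nat.card E = r ^ 2) (hexp : ∀ e ∈ E, e ^ r = 1) :
    Nat.card A = Nat.card (fixedOf E : AddSubgroup A) ^ (r ^ 2) ∧
      ∀ H ∈ lines E r, Nat.card (fixedOf H : AddSubgroup A) = Nat.card (fixedOf E : AddSubgroup A) ^ r := by
  classical
  have hr : r.Prime := Fact.out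
  set X := Nat.card (fixedOf E : AddSubgroup A) with hX
  have hX2 : 2 ≤ X := h.cfg.two_le_card hEV
  have hchar := h.cfg.char2
  let kH : Subgroup D → ℕ := fun H => Nat.card (killOf E H : AddSubgroup A)
  have hfix : ∀ H ∈ lines E r, Nat.card (fixedOf H : AddSubgroup A) = X * kH H := by
    intro H hH
    have hH' := mem_lines.mp hH
    exact card_fixed_line hr2 hE hH'.1 hH'.2 hchar
  have hA : Nat.card A = X * ∏ H ∈ lines E r, kH H := card_eq_prod hr2 hE hexp hchar
  have hr1 : 1 ≤ r := hr.one_le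
  have hpow : X ^ r = X * X ^ (r - 1) := by
    rw [← pow_succ']
    congr 1
    omega
  have hXpos : 0 < X := by omega
  have hk : ∀ H ∈ lines E r, kH H = 1 ∨ kH H = X ^ (r - 1) := by
    intro H hH
    rcases h.card_line hEV hE hexp hH with h1 | h1
    · left
      rw [hfix H hH] at h1
      exact Nat.eq_of_mul_eq_mul_left hXpos (by rw [h1, mul_one])
    · right
      rw [hfix H hH, hpow] at h1
      exact Nat.eq_of_mul_eq_mul_left hXpos h1
  set S := (lines E r).filter (fun H => kH H ≠ 1) with hS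
  set m := S.card with hm
  have hprod : ∏ H ∈ lines E r, kH H = (X ^ (r - 1)) ^ m := by
    have h1 : ∏ H ∈ lines E r, kH H = ∏ H ∈ lines E r, (if kH H ≠ 1 then X ^ (r - 1) else 1) := by
      apply Finset.prod_congr rfl
      intro H hH
      split_ifs with h2
      · exact (hk H hH).resolve_left h2
      · exact not_not.mp h2
    rw [h1, Finset.prod_ite, Finset.prod_const_one, mul_one, Finset.prod_const]
  have hA' : Nat.card A = X ^ (1 + (r - 1) * m) := by
    rw [hA, hprod, pow_add, pow_one, pow_mul]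
  have hmle : m ≤ r + 1 := by
    rw [← card_lines hE hexp]
    exact Finset.card_filter_le _ _
  have hm0 : m ≠ 0 := by
    intro h0
    rw [h0, mul_zero, add_zero, pow_one] at hA'
    have h1 : E ≤ kerAct D A := le_kerAct_of_card hA'.symm
    rw [h.faithful, le_bot_iff] at h1
    rw [h1, Subgroup.card_bot] at hE
    have : 1 < r ^ 2 := Nat.one_lt_pow (by norm_num) hr.one_lt
    omega
  obtain ⟨H, hHS⟩ : S.Nonempty := Finset.card_pos.mp (Nat.pos_of_ne_zero hm0)
  have hHS' := Finset.mem_filter.mp hHS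
  have hH' := mem_lines.mp hHS'.1
  have hkH : kH H = X ^ (r - 1) := (hk H hHS'.1).resolve_left hHS'.2
  have hfixH : Nat.card (fixedOf H : AddSubgroup A) = X ^ r := by
    rw [hfix H hHS'.1, hkH, hpow]
  have hY : ∀ y ∈ H, IsV t y := fun y hy => hEV y (hH'.1 hy)
  have hne : ∃ y ∈ H, y ≠ 1 := exists_ne_one_of_card (by rw [hH'.2]; exact hr.one_lt)
  have hdvd : X ^ r - 1 ∣ X ^ (1 + (r - 1) * m) - 1 := by
    have h1 := h.cfg.card_dvd (h.KYsub hY hne) (fun j hj => hj.1)
    have h2 := h.card_KYsub hY hne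
    rw [hfixH] at h2
    have h3 : Nat.card (h.KYsub hY hne) = X ^ r - 1 := by omega
    rw [h3, hA'] at h1
    exact h1
  have hrdvd : r ∣ 1 + (r - 1) * m := by
    have h1 := Nat.pow_sub_one_gcd_pow_sub_one X r (1 + (r - 1) * m)
    rw [Nat.gcd_eq_left hdvd] at h1
    have h2 : 1 ≤ X ^ r := Nat.one_le_pow _ _ hXpos
    have h3 : 1 ≤ X ^ (r.gcd (1 + (r - 1) * m)) := Nat.one_le_pow _ _ hXpos
    have h4 : X ^ r = X ^ (r.gcd (1 + (r - 1) * m)) := by omega
    have h5 := Nat.pow_right_injective hX2 h4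
    have h6 : r.gcd (1 + (r - 1) * m) ∣ 1 + (r - 1) * m := Nat.gcd_dvd_right _ _
    rwa [show r.gcd (1 + (r - 1) * m) = r from h5.symm] at h6
  have hmm : r ∣ m - 1 := by
    have h1 : 1 + (r - 1) * m + (m - 1) = r * m := by
      obtain ⟨s, rfl⟩ : ∃ s, r = s + 1 := ⟨r - 1, by omega⟩
      obtain ⟨n, hn⟩ : ∃ n, m = n + 1 := ⟨m - 1, by omega⟩
      rw [hn]
      simp only [Nat.add_sub_cancel]
      ring
    have h2 : r ∣ 1 + (r - 1) * m + (m - 1) := by
      rw [h1]; exact dvd_mul_right r m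
    exact (Nat.dvd_add_right hrdvd).mp h2
  have hcases : m = 1 ∨ m = r + 1 := by
    obtain ⟨c, hc⟩ := hmm
    have h1 : c = 0 ∨ c = 1 := by
      rcases c with _ | _ | c
      · left; rfl
      · right; rfl
      · exfalso
        have : r * (c + 1 + 1) = r * c + 2 * r := by ring
        have h2 : m - 1 ≤ r := by omega
        have h3 : 2 * r ≤ r * (c + 1 + 1) := by nlinarith
        rw [← hc] at h3
        have := hr.pos
        omega
    rcases h1 with h1 | h1
    · left; rw [h1, mul_zero] at hc; omega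
    · right; rw [h1, mul_one] at hc; omega
  rcases hcases with h1 | h1
  · exfalso
    rw [h1, mul_one] at hA'
    have h2 : 1 + (r - 1) = r := by omega
    rw [h2, ← hfixH] at hA'
    have h3 : H ≤ kerAct D A := le_kerAct_of_card hA'.symm
    rw [h.faithful, le_bot_iff] at h3
    rw [h3, Subgroup.card_bot] at hH'
    have := hr.one_lt
    omega
  · have hSall : S = lines E r := by
      apply Finset.eq_of_subset_of_card_le (Finset.filter_subset _ _)
      rw [card_lines hE hexp, ← hm, h1]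
    constructor
    · rw [hA', h1]
      congr 1
      obtain ⟨s, rfl⟩ : ∃ s, r = s + 1 := ⟨r - 1, by omega⟩
      simp only [Nat.add_sub_cancel]
      ring
    · intro H₁ hH₁
      have h2 : H₁ ∈ S := by rw [hSall]; exact hH₁
      have h3 := (hk H₁ hH₁).resolve_left (Finset.mem_filter.mp h2).2
      rw [hfix H₁ hH₁, h3, hpow]

end Cfsg.Agent.Lib.HuaD1
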