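import Mathlib
import Cfsg.Agent.Lib.HuaD1
import Cfsg.Agent.Lib.MetacyclicOmega

/-!
# `V` has no subgroups of rank two in the faithful minimal situation
-/

set_option autoImplicit false
set_option linter.unusedSectionVars false
set_option linter.unusedVariables false
set_option linter.style.haveILetI false
set_option linter.unusedSimpArgs false

namespace Cfsg.Agent.Lib.HuaD2

open Subgroup Cfsg.Agent.Lib.CoprimeInv Cfsg.Agent.Lib.HuaA Cfsg.Agent.Lib.HuaB Cfsg.Agent.Lib.HuaN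
  Cfsg.Agent.Lib.HuaC Cfsg.Agent.Lib.HuaD1

universe u v

variable {D : Type u} {A : Type v} [Group D] [Finite D] [AddCommGroup A] [Finite A]
  [DistribMulAction D A] {t : D ≃* D} {s₀ : A}

lemma geom_nat {X r : ℕ} (hX : 1 ≤ X) : (∑ i ∈ Finset.range r, X ^ i) * (X - 1) = X ^ r - 1 := by
  zify [hX, Nat.one_le_pow r X hX]
  exact geom_sum_mul _ _

lemma exists_prime_ell {X r : ℕ} (hX : 2 ≤ X) (hr : r.Prime) (hr2 : r ≠ 2) :
    ∃ l, l.Prime ∧ l ∣ X ^ r - 1 ∧ ¬ l ∣ X - 1 := by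
  by_contra hcon
  push Not at hcon
  haveI : Fact r.Prime := ⟨hr⟩
  set Φ := ∑ i ∈ Finset.range r, X ^ i with hΦ
  have hmul : Φ * (X - 1) = X ^ r - 1 := geom_nat (by omega)
  have hgt : r < Φ := by
    have h1 : ∑ i ∈ Finset.range r, 1 < Φ := by
      apply Finset.sum_lt_sum
      · intro i _
        exact Nat.one_le_pow _ _ (by omega)
      · exact ⟨1, Finset.mem_range.mpr hr.one_lt, by rw [pow_one]; omega⟩
    simpa using h1
  have hprime : ∀ {d : ℕ}, d.Prime → d ∣ Φ → d = r := by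
    intro d hd hdΦ
    have h1 : d ∣ X ^ r - 1 := by
      rw [← hmul]
      exact dvd_mul_of_dvd_left hdΦ _
    have h2 := hcon d hd h1
    haveI : Fact d.Prime := ⟨hd⟩
    have h3 : (X : ZMod d) = 1 := by
      have := (ZMod.natCast_eq_zero_iff (X - 1) d).mpr h2
      rw [Nat.cast_sub (by omega)] at this
      simpa [sub_eq_zero] using this
    have h4 : (Φ : ZMod d) = r := by
      rw [hΦ]
      push_cast
      rw [h3]
      simp
    have h5 : (r : ZMod d) = 0 := by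
      rw [← h4]
      exact (ZMod.natCast_eq_zero_iff _ _).mpr hdΦ
    have h6 := (ZMod.natCast_eq_zero_iff _ _).mp h5
    exact (Nat.prime_dvd_prime_iff_eq hd hr).mp h6
  have hΦ0 : Φ ≠ 0 := by omega
  have heq := Nat.eq_prime_pow_of_unique_prime_dvd hΦ0 hprime
  set j := Φ.primeFactorsList.length with hj'
  have hj : 2 ≤ j := by
    by_contra hj
    have h0 : j = 0 ∨ j = 1 := by omega
    rcases h0 with h | h
    · rw [h, pow_zero] at heq
      have := hr.one_lt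
      omega
    · rw [h, pow_one] at heq
      omega
  have hrΦ : r ∣ Φ := by
    rw [heq]
    exact dvd_pow_self r (by omega)
  have hrX : r ∣ X - 1 := hcon r hr (by
    rw [← hmul]
    exact dvd_mul_of_dvd_left hrΦ _)
  have hrX' : ¬ r ∣ X := by
    intro h
    have : r ∣ 1 := by
      have h1 : X - (X - 1) = 1 := by omega
      rw [← h1]
      exact Nat.dvd_sub h hrX
    exact hr.one_lt.ne' (Nat.dvd_one.mp this)
  have hlte := padicValNat.pow_sub_pow (x := X) (y := 1) (p := r) (hr.odd_of_ne_two hr2) (by omega) hrX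
    hrX' (n := r) hr.ne_zero
  rw [one_pow, ← hmul, padicValNat.mul hΦ0 (by omega), padicValNat.self hr.one_lt] at hlte
  have h2 : padicValNat r Φ = j := by
    rw [heq]
    exact padicValNat.prime_pow j
  omega

lemma fact_eq {X r l : ℕ} (hX : 2 ≤ X) (hr : r.Prime) (hl : l.Prime) (hl2 : l ≠ 2) (hlr : l ≠ r)
    (hd : l ∣ X ^ r - 1) : (X ^ r ^ 2 - 1).factorization l = (X ^ r - 1).factorization l := by
  haveI : Fact l.Prime := ⟨hl⟩
  rw [Nat.factorization_def _ hl, Nat.factorization_def _ hl]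
  have h1 : 1 < X ^ r := Nat.one_lt_pow hr.ne_zero (by omega)
  have h2 : ¬ l ∣ X ^ r := by
    intro h
    have : l ∣ 1 := by
      have h3 : X ^ r - (X ^ r - 1) = 1 := by omega
      rw [← h3]
      exact Nat.dvd_sub h hd
    exact hl.one_lt.ne' (Nat.dvd_one.mp this)
  have h3 := padicValNat.pow_sub_pow (x := X ^ r) (y := 1) (p := l) (hl.odd_of_ne_two hl2) h1 hd h2
    (n := r) hr.ne_zero
  have h4 : padicValNat l r = 0 := padicValNat.eq_zero_of_not_dvd
    (fun h => hlr ((Nat.prime_dvd_prime_iff_eq hl hr).mp h))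
  rw [one_pow, h4, add_zero] at h3
  rw [← h3, ← pow_mul, sq]

lemma dvd_sub_one_of_pow {X r : ℕ} (hr : r.Prime) (hX : 1 ≤ X) (h : r ∣ X ^ r - 1) : r ∣ X - 1 := by
  haveI : Fact r.Prime := ⟨hr⟩
  rw [← ZMod.natCast_eq_zero_iff] at h ⊢
  rw [Nat.cast_sub (Nat.one_le_pow _ _ hX)] at h
  rw [Nat.cast_sub hX]
  push_cast at h ⊢
  rwa [ZMod.pow_card] at h

lemma _root_.Cfsg.Agent.Lib.HuaC.Cfg.card_KP_top (h : Cfg t s₀) :
    Nat.card (KP t (⊤ : Subgroup D)) + 1 = Nat.card A := by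
  have h1 := h.card_KY (Y := ⊥) (fun y hy => by
    rw [Subgroup.mem_bot] at hy
    rw [hy]
    exact IsV.one)
  have h2 : (fixedOf (⊥ : Subgroup D) : AddSubgroup A) = ⊤ := by
    ext a
    simp only [AddSubgroup.mem_top, iff_true]
    intro y hy
    rw [Subgroup.mem_bot] at hy
    rw [hy, one_smul]
  rw [h2, AddSubgroup.card_top] at h1
  rw [← h1]
  congr 1
  apply Nat.card_congr
  apply Equiv.subtypeEquivRight
  intro x
  constructor
  · intro hx
    refine ⟨mem_KP.mp hx |>.2, fun y hy => ?_⟩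
    rw [Subgroup.mem_bot] at hy
    rw [hy, one_mul, mul_one]
  · intro hx
    exact mem_KP.mpr ⟨Subgroup.mem_top x, hx.1⟩

/-- The `l`-part of the inverted elements centralising `H`. -/
structure LData (t : D ≃* D) (E H : Subgroup D) (l : ℕ) (L : Subgroup D) : Prop where
  k : ∀ x ∈ L, IsK t x
  p : IsPGroup l L
  centH : ∀ x ∈ L, ∀ y ∈ H, y * x = x * y
  card : Nat.card L = l ^ (Nat.card (KP t (⊤ : Subgroup D))).factorization l
  norm : E ≤ normalizer (L : Set D)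
  ne : ∃ x ∈ L, x ≠ 1
  cE : ∀ e ∈ E, (∀ x ∈ L, e * x = x * e) → e ∈ H

lemma _root_.Cfsg.Agent.Lib.HuaD1.Min.dvd_of_cent (h : Min t s₀) {F L : Subgroup D} (hF : ∀ y ∈ F, IsV t y) (hne : ∃ y ∈ F, y ≠ 1)
    (hLk : ∀ x ∈ L, IsK t x) (hLc : ∀ x ∈ L, ∀ y ∈ F, y * x = x * y) {l : ℕ} (hl : l ∣ Nat.card L) :
    l ∣ Nat.card (fixedOf F : AddSubgroup A) - 1 := by
  have h1 : L ≤ h.KYsub hF hne := fun x hx => ⟨hLk x hx, hLc x hx⟩
  have h2 := Subgroup.card_dvd_of_le h1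
  have h3 := h.card_KYsub hF hne
  have h4 : Nat.card (h.KYsub hF hne) = Nat.card (fixedOf F : AddSubgroup A) - 1 := by omega
  rw [← h4]
  exact hl.trans h2

lemma dvd_card_of_ne {L : Subgroup D} {l : ℕ} [Fact l.Prime] (hp : IsPGroup l L) (hne : ∃ x ∈ L, x ≠ 1) :
    l ∣ Nat.card L := by
  obtain ⟨x, hx, hx1⟩ := hne
  haveI : Nontrivial L := ⟨⟨⟨x, hx⟩, 1, fun e => hx1 (congrArg Subtype.val e)⟩⟩
  obtain ⟨n, hn0, hn⟩ := (IsPGroup.nontrivial_iff_card hp).mp inferInstance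
  rw [hn]
  exact dvd_pow_self l hn0.ne'

theorem _root_.Cfsg.Agent.Lib.HuaD1.Min.exists_L (h : Min t s₀) {E H : Subgroup D} {r l : ℕ} [Fact r.Prime] [Fact l.Prime] (hr2 : r ≠ 2)
    (hEV : ∀ e ∈ E, IsV t e) (hE : Nat.card E = r ^ 2) (hexp : ∀ e ∈ E, e ^ r = 1) (hH : H ∈ lines E r)
    (hl : l ∣ Nat.card (fixedOf E : AddSubgroup A) ^ r - 1)
    (hl' : ¬ l ∣ Nat.card (fixedOf E : AddSubgroup A) - 1) (hlr : l ≠ r) (hl2 : l ≠ 2) :
    ∃ L, LData t E H l L := by
  have hrp : r.Prime := Fact.out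
  have hlp : l.Prime := Fact.out
  obtain ⟨hA, hF⟩ := h.numerics hr2 hEV hE hexp
  set X := Nat.card (fixedOf E : AddSubgroup A) with hX
  have hX2 : 2 ≤ X := h.cfg.two_le_card hEV
  have hH' := mem_lines.mp hH
  have hY : ∀ y ∈ H, IsV t y := fun y hy => hEV y (hH'.1 hy)
  have hne : ∃ y ∈ H, y ≠ 1 := exists_ne_one_of_card (by rw [hH'.2]; exact hrp.one_lt)
  set KH := h.KYsub hY hne with hKH
  have hcardK : Nat.card KH = X ^ r - 1 := by
    have h3 := h.card_KYsub hY hne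
    rw [hF H hH] at h3
    have h4 : Nat.card KH + 1 = X ^ r := h3
    omega
  obtain ⟨S, hS⟩ := exists_isSylowIn l KH
  have hcardS := card_of_sylowIn hS
  have hKP : Nat.card (KP t (⊤ : Subgroup D)) = X ^ r ^ 2 - 1 := by
    have := h.cfg.card_KP_top
    rw [hA] at this
    omega
  have hpow1 : 1 < X ^ r := Nat.one_lt_pow hrp.ne_zero (by omega)
  have hK0 : X ^ r - 1 ≠ 0 := by omega
  have hfpos : 0 < (X ^ r - 1).factorization l := hlp.factorization_pos_of_dvd hK0 hl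
  have hlS : l ∣ Nat.card S := by
    rw [hcardS, hcardK]
    exact dvd_pow_self l hfpos.ne'
  have hKH' : ∀ x, x ∈ KH ↔ IsK t x ∧ ∀ y ∈ H, y * x = x * y := fun x => Iff.rfl
  have hKc : ∀ {x y : D}, x ∈ KH → y ∈ KH → x * y = y * x := fun hx hy =>
    comm_of_subgroup_K (J := KH) (t := t) (fun j hj => ((hKH' j).mp hj).1) hx hy
  have hne' : ∃ x ∈ S, x ≠ 1 :=
    exists_ne_one_of_card (H := S) (lt_of_lt_of_le hlp.one_lt (Nat.le_of_dvd Nat.card_pos hlS))
  refine ⟨S, ⟨fun x hx => ((hKH' x).mp (hS.1 hx)).1, hS.2.1, fun x hx y hy => ((hKH' x).mp (hS.1 hx)).2 y hy, ?_, ?_, hne', ?_⟩⟩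
  · rw [hcardS, hcardK, hKP, fact_eq hX2 hrp hlp hl2 hlr hl]
  · intro e he
    have hnK : e ∈ normalizer (KH : Set D) := by
      have hconj : ∀ e ∈ E, ∀ k ∈ KH, e * k * e⁻¹ ∈ KH := by
        intro e he k hk
        refine (hKH' _).mpr ⟨(hEV e he).conj_K ((hKH' k).mp hk).1, fun y hy => ?_⟩
        have h1 : Commute y e := comm_of_rank_two hE (hH'.1 hy) he
        have h2 : Commute y k := ((hKH' k).mp hk).2 y hy
        exact ((h1.mul_right h2).mul_right h1.inv_right).eq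
      rw [mem_normalizer_iff]
      intro k
      constructor
      · exact hconj e he k
      · intro hk
        have := hconj e⁻¹ (E.inv_mem he) _ hk
        have h3 : e⁻¹ * (e * k * e⁻¹) * e⁻¹⁻¹ = k := by group
        rwa [h3] at this
    have h1 := hS.cj_of_normalizer hnK
    obtain ⟨g, hg, hgS⟩ := IsSylowIn.exists_conj hS h1
    have h2 : g ∈ normalizer (S : Set D) := by
      rw [mem_normalizer_iff]
      intro x
      constructor
      · intro hx
        rw [hKc hg (hS.1 hx), mul_inv_cancel_right]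
        exact hx
      · intro hx
        have hxK : x ∈ KH := by
          have h3 : g * x * g⁻¹ ∈ KH := hS.1 hx
          have h4 : x = g⁻¹ * (g * x * g⁻¹) * g := by group
          rw [h4]
          exact KH.mul_mem (KH.mul_mem (KH.inv_mem hg) h3) hg
        rwa [hKc hg hxK, mul_inv_cancel_right] at hx
    have h3 := cj_eq_of_mem_normalizer h2
    apply mem_normalizer_of_cj_eq
    rw [hgS, h3]
  · intro e he hc
    by_contra heH
    have he1 : e ≠ 1 := by
      rintro rfl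
      exact heH H.one_mem
    have hsup : H ⊔ Subgroup.zpowers e = E := by
      apply sup_eq_of_lines hE hH (zpowers_mem_lines hexp he he1)
      intro e'
      apply heH
      rw [e']
      exact Subgroup.mem_zpowers e
    have hcen : ∀ x ∈ S, ∀ y ∈ E, y * x = x * y := by
      intro x hx y hy
      rw [← hsup] at hy
      have h1 : H ⊔ Subgroup.zpowers e ≤ centralizer ({x} : Set D) := by
        apply sup_le
        · intro z hz
          rw [Subgroup.mem_centralizer_iff]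
          intro u hu
          rw [Set.mem_singleton_iff] at hu
          rw [hu]
          exact (((hKH' x).mp (hS.1 hx)).2 z hz).symm
        · rw [Subgroup.zpowers_le, Subgroup.mem_centralizer_iff]
          intro u hu
          rw [Set.mem_singleton_iff] at hu
          rw [hu]
          exact (hc x hx).symm
      have h2 := h1 hy
      rw [Subgroup.mem_centralizer_iff] at h2
      exact (h2 x rfl).symm
    have hneE : ∃ y ∈ E, y ≠ 1 := ⟨e, he, he1⟩
    exact hl' (h.dvd_of_cent hEV hneE (fun x hx => ((hKH' x).mp (hS.1 hx)).1) hcen hlS)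

lemma isCyclic_mulAut_of_prime_pow {L : Type*} [Group L] [Finite L] [IsCyclic L] {l : ℕ} (hl : l.Prime)
    (hl2 : l ≠ 2) {n : ℕ} (hc : Nat.card L = l ^ n) : IsCyclic (MulAut L) := by
  have h1 : IsCyclic (ZMod (Nat.card L))ˣ := by
    rw [hc]
    exact ZMod.isCyclic_units_of_prime_pow l hl hl2 n
  exact isCyclic_of_surjective (IsCyclic.mulAutMulEquiv L).symm (IsCyclic.mulAutMulEquiv L).symm.surjective

/-- All elements of exponent `r` of an `r`-subgroup of `V` containing `E` and normalising `L` lie in `E`. -/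
theorem _root_.Cfsg.Agent.Lib.HuaD1.Min.uniq_Y (h : Min t s₀) {E H₁ L Y : Subgroup D} {r l : ℕ} [Fact r.Prime] [Fact l.Prime] (hr2 : r ≠ 2)
    (hl2 : l ≠ 2) (hEV : ∀ e ∈ E, IsV t e) (hE : Nat.card E = r ^ 2) (hexp : ∀ e ∈ E, e ^ r = 1)
    (hH₁ : H₁ ∈ lines E r) (hL : LData t E H₁ l L) (hYV : ∀ y ∈ Y, IsV t y)
    (hYn : Y ≤ normalizer (L : Set D)) (hYr : IsPGroup r Y) (hEY : E ≤ Y)
    (hl' : ¬ l ∣ Nat.card (fixedOf E : AddSubgroup A) - 1) :
    ∀ y ∈ Y, y ^ r = 1 → y ∈ E := by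
  have hrp : r.Prime := Fact.out
  have hlp : l.Prime := Fact.out
  have hH₁' := mem_lines.mp hH₁
  obtain ⟨hA, hF⟩ := h.numerics hr2 hEV hE hexp
  set X := Nat.card (fixedOf E : AddSubgroup A) with hX
  have hlL : l ∣ Nat.card L := dvd_card_of_ne hL.p hL.ne
  haveI hLc : IsCyclic L := h.cfg.isCyclic_K L hL.k
  haveI : IsCyclic (MulAut L) := isCyclic_mulAut_of_prime_pow hlp hl2 hL.card
  haveI : Finite (MulAut L) := Finite.of_injective (fun f : MulAut L => (f : L → L))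
    (fun a b e => MulEquiv.ext (congrFun e))
  let φ : Y →* MulAut L := (normalizerMonoidHom L).comp (Subgroup.inclusion hYn)
  have hφ : ∀ (y : Y) (x : L), ((φ y x : L) : D) = (y : D) * x * (y : D)⁻¹ := fun y x => rfl
  have hker : ∀ y : Y, y ∈ φ.ker ↔ ∀ x ∈ L, (y : D) * x = x * y := by
    intro y
    rw [MonoidHom.mem_ker]
    constructor
    · intro e x hx
      have h1 := hφ y ⟨x, hx⟩
      rw [e] at h1
      have h2 : x = (y : D) * x * (y : D)⁻¹ := h1
      calc (y : D) * x = (y : D) * x * (y : D)⁻¹ * y := by group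
        _ = x * y := by rw [← h2]
    · intro hc
      apply MulEquiv.ext
      intro x
      apply Subtype.ext
      rw [hφ, hc x x.2, mul_inv_cancel_right]
      rfl
  have hN₀p : IsPGroup r φ.ker := hYr.to_subgroup φ.ker
  haveI hN₀c : IsCyclic φ.ker := by
    apply isCyclic_of_no_rank_two hr2 hN₀p
    intro E₁ hE₁ hexp₁
    let f : φ.ker →* D := Y.subtype.comp φ.ker.subtype
    have hf : Function.Injective f := fun a b e => Subtype.ext (Subtype.ext e)
    have hc : Nat.card (E₁.map f) = r ^ 2 := by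
      rw [← hE₁]
      exact (Nat.card_congr (E₁.equivMapOfInjective f hf).toEquiv).symm
    have hexp' : ∀ e ∈ E₁.map f, e ^ r = 1 := by
      rintro e ⟨x, hx, rfl⟩
      rw [← map_pow, hexp₁ x hx, map_one]
    have hEV' : ∀ e ∈ E₁.map f, IsV t e := by
      rintro e ⟨x, hx, rfl⟩
      exact hYV _ ((x : φ.ker) : Y).2
    have hcen : ∀ x ∈ L, ∀ y ∈ E₁.map f, y * x = x * y := by
      rintro x hx e ⟨z, hz, rfl⟩
      exact (hker _).mp z.2 x hx
    have hneE : ∃ y ∈ E₁.map f, y ≠ 1 :=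
      exists_ne_one_of_card (by
        rw [hc]
        exact Nat.one_lt_pow (by norm_num) hrp.one_lt)
    have h1 := h.dvd_of_cent hEV' hneE hL.k hcen hlL
    obtain ⟨hA', _⟩ := h.numerics hr2 hEV' hc hexp'
    have h2 : Nat.card (fixedOf (E₁.map f) : AddSubgroup A) = X := by
      apply Nat.pow_left_injective (n := r ^ 2) (pow_ne_zero _ hrp.ne_zero)
      change _ ^ r ^ 2 = X ^ r ^ 2
      rw [← hA', hA]
    rw [h2] at h1
    exact hl' h1
  intro y hy hyr
  obtain ⟨x₀, hx₀, hx₀H⟩ : ∃ x ∈ E, x ∉ H₁ := by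
    by_contra hcon
    push Not at hcon
    have h1 : Nat.card E ≤ Nat.card H₁ := Subgroup.card_le_of_le hcon
    rw [hE, hH₁'.2, sq] at h1
    have := hrp.one_lt
    nlinarith
  have hb : φ ⟨x₀, hEY hx₀⟩ ≠ 1 := by
    intro e
    apply hx₀H
    exact hL.cE x₀ hx₀ ((hker _).mp (MonoidHom.mem_ker.mpr e))
  have hbr : φ ⟨x₀, hEY hx₀⟩ ^ r = 1 := by
    rw [← map_pow]
    have : (⟨x₀, hEY hx₀⟩ : Y) ^ r = 1 := Subtype.ext (hexp x₀ hx₀)
    rw [this, map_one]
  have har : φ ⟨y, hy⟩ ^ r = 1 := by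
    rw [← map_pow]
    have : (⟨y, hy⟩ : Y) ^ r = 1 := Subtype.ext hyr
    rw [this, map_one]
  obtain ⟨i, hi⟩ := Subgroup.mem_zpowers_iff.mp
    (Cfsg.Agent.Lib.MetacyclicOmega.mem_zpowers_of_cyclic (p := r) har hbr hb)
  let x₁ : Y := (⟨x₀, hEY hx₀⟩ : Y) ^ i
  have hx₁E : (x₁ : D) ∈ E := by
    have : (x₁ : D) = x₀ ^ i := by simp [x₁]
    rw [this]
    exact E.zpow_mem hx₀ i
  let n₀ : Y := ⟨y, hy⟩ * x₁⁻¹
  have hn₀ : n₀ ∈ φ.ker := by
    rw [MonoidHom.mem_ker, map_mul, map_inv, map_zpow, hi, mul_inv_cancel]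
  have hx₁r : x₁ ^ r = 1 := by
    apply Subtype.ext
    have h1 := hexp _ hx₁E
    exact h1
  have hyy : n₀ * x₁ = ⟨y, hy⟩ := by simp [n₀]
  have hn₀r : n₀ ^ r = 1 := by
    apply Cfsg.Agent.Lib.MetacyclicOmega.pow_eq_one_of_mul hr2 φ.ker hN₀p hx₁r hn₀
    rw [hyy]
    exact Subtype.ext hyr
  obtain ⟨b₀, hb₀, hb₀1⟩ : ∃ y ∈ H₁, y ≠ 1 := exists_ne_one_of_card (by rw [hH₁'.2]; exact hrp.one_lt)
  have hb₀E := hH₁'.1 hb₀
  have hb₀k : (⟨b₀, hEY hb₀E⟩ : Y) ∈ φ.ker := by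
    rw [hker]
    intro x hx
    exact hL.centH x hx b₀ hb₀
  have h5 := Cfsg.Agent.Lib.MetacyclicOmega.mem_zpowers_of_cyclic (p := r)
    (a := (⟨n₀, hn₀⟩ : φ.ker)) (b := (⟨⟨b₀, hEY hb₀E⟩, hb₀k⟩ : φ.ker))
    (Subtype.ext hn₀r) (Subtype.ext (Subtype.ext (hexp b₀ hb₀E)))
    (fun e => hb₀1 (congrArg (fun z : φ.ker => ((z : Y) : D)) e))
  obtain ⟨j, hj⟩ := Subgroup.mem_zpowers_iff.mp h5
  have hn₀H : (n₀ : D) ∈ H₁ := by
    have h6 : (n₀ : D) = b₀ ^ j := by
      have h7 := congrArg (fun z : φ.ker => ((z : Y) : D)) hj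
      simpa using h7.symm
    rw [h6]
    exact H₁.zpow_mem hb₀ j
  have hyE : y = (n₀ : D) * x₁ := by
    have := congrArg Subtype.val hyy
    exact this.symm
  rw [hyE]
  exact E.mul_mem (hH₁'.1 hn₀H) hx₁E

/-- Transitivity on the lines. -/
theorem _root_.Cfsg.Agent.Lib.HuaD1.Min.lines_trans (h : Min t s₀) {E H₁ H₂ : Subgroup D} {r : ℕ} [Fact r.Prime] (hr2 : r ≠ 2)
    (hEV : ∀ e ∈ E, IsV t e) (hE : Nat.card E = r ^ 2) (hexp : ∀ e ∈ E, e ^ r = 1)
    (hH₁ : H₁ ∈ lines E r) (hH₂ : H₂ ∈ lines E r) :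
    ∃ g, IsV t g ∧ g ∈ normalizer (E : Set D) ∧ cj H₂ g = H₁ := by
  have hrp : r.Prime := Fact.out
  have hH₁' := mem_lines.mp hH₁
  have hH₂' := mem_lines.mp hH₂
  obtain ⟨hA, hF⟩ := h.numerics hr2 hEV hE hexp
  set X := Nat.card (fixedOf E : AddSubgroup A) with hX
  have hX2 : 2 ≤ X := h.cfg.two_le_card hEV
  obtain ⟨l, hlp, hl, hl'⟩ := exists_prime_ell hX2 hrp hr2
  haveI : Fact l.Prime := ⟨hlp⟩
  have hlr : l ≠ r := by
    rintro rfl
    exact hl' (dvd_sub_one_of_pow hlp (by omega) hl)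
  have hl2 : l ≠ 2 := by
    rintro rfl
    -- the group `K_H` has order `X ^ r - 1`
    have hY : ∀ y ∈ H₁, IsV t y := fun y hy => hEV y (hH₁'.1 hy)
    have hne : ∃ y ∈ H₁, y ≠ 1 := exists_ne_one_of_card (by rw [hH₁'.2]; exact hrp.one_lt)
    have h1 := h.card_KYsub hY hne
    rw [hF H₁ hH₁] at h1
    have hpow1 : 1 < X ^ r := Nat.one_lt_pow hrp.ne_zero (by omega)
    have h2 : Nat.card (h.KYsub hY hne) = X ^ r - 1 := by omega
    have h3 := h.cfg.inv.odd_sub (h.KYsub hY hne)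
    rw [h2] at h3
    have h4 := Odd.of_dvd_nat h3 hl
    exact (Nat.not_even_iff_odd.mpr h4) even_two
  obtain ⟨L₁, hL₁⟩ := h.exists_L hr2 hEV hE hexp hH₁ hl hl' hlr hl2
  obtain ⟨L₂, hL₂⟩ := h.exists_L hr2 hEV hE hexp hH₂ hl hl' hlr hl2
  have hTop : TInv t (⊤ : Subgroup D) := fun _ _ => Subgroup.mem_top _
  have hLinv : ∀ {L : Subgroup D}, (∀ x ∈ L, IsK t x) → TInv t L := by
    intro L hk x hx
    rw [hk x hx]
    exact L.inv_mem hx
  obtain ⟨P₁, hP₁, htP₁, hLP₁⟩ := exists_tinv_sylow_ge h.cfg.inv hTop le_top (hLinv hL₁.k) hL₁.p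
  obtain ⟨P₂, hP₂, htP₂, hLP₂⟩ := exists_tinv_sylow_ge h.cfg.inv hTop le_top (hLinv hL₂.k) hL₂.p
  have hLeq : ∀ {L P : Subgroup D}, (∀ x ∈ L, IsK t x) → L ≤ P → IsSylowIn l P ⊤ → TInv t P →
      Nat.card L = l ^ (Nat.card (KP t (⊤ : Subgroup D))).factorization l →
      ∀ x, x ∈ L ↔ x ∈ KP t P := by
    intro L P hk hLP hP htP hc
    have h1 : (L : Set D) ⊆ KP t P := fun x hx => mem_KP.mpr ⟨hLP hx, hk x hx⟩
    have h2 : Nat.card (KP t P) = Nat.card L := by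
      rw [card_KP_sylow h.cfg.inv hP htP, hc]
    have h3 : (L : Set D) = KP t P := by
      apply Set.eq_of_subset_of_ncard_le h1 _ (Set.toFinite _)
      rw [← Nat.card_coe_set_eq, ← Nat.card_coe_set_eq, h2]
      rfl
    intro x
    rw [← h3]
    rfl
  have hL₁K := hLeq hL₁.k hLP₁ hP₁ htP₁ hL₁.card
  have hL₂K := hLeq hL₂.k hLP₂ hP₂ htP₂ hL₂.card
  obtain ⟨v, hv, hPv⟩ := exists_V_conj_sylow h.cfg.inv (X := ⊤) hP₁ hP₂ htP₁ htP₂
  have hL₂eq : L₂ = cj L₁ v := by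
    ext x
    rw [hL₂K, hPv, KP_cj hv, ← hL₁K, mem_cj]
  have hL₁eq : L₁ = cj L₂ v⁻¹ := by
    rw [hL₂eq, cj_cj_inv]
  -- the normaliser
  let N : Subgroup D := normalizer (L₁ : Set D) ⊓ VP t ⊤
  have hEN : E ≤ N := fun e he => ⟨hL₁.norm he, mem_VP.mpr ⟨Subgroup.mem_top e, hEV e he⟩⟩
  have hE'N : cj E v⁻¹ ≤ N := by
    intro x hx
    constructor
    · have h1 := normalizer_cj_of_le (g := v⁻¹) hL₂.norm hx
      rwa [← hL₁eq] at h1
    · rw [mem_cj, inv_inv] at hx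
      refine mem_VP.mpr ⟨Subgroup.mem_top x, ?_⟩
      have h2 := hEV _ hx
      have h3 : x = v⁻¹ * (v * x * v⁻¹) * v := by group
      have h4 : IsV t (v⁻¹ * (v * x * v⁻¹) * v) := by
        have := hv.inv.conj_V h2
        rwa [inv_inv] at this
      rw [← h3] at h4
      exact h4
  have hEp : IsPGroup r E := IsPGroup.of_card hE
  have hE'p : IsPGroup r (cj E v⁻¹) := IsPGroup.of_card (by rw [card_cj, hE])
  obtain ⟨Y, hY, hEY⟩ := exists_isSylowIn_ge r hEN hEp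
  obtain ⟨S', hS', hE'S⟩ := exists_isSylowIn_ge r hE'N hE'p
  obtain ⟨n, hn, hYn⟩ := IsSylowIn.exists_conj hS' hY
  have hYV : ∀ y ∈ Y, IsV t y := fun y hy => (mem_VP.mp (hY.1 hy).2).2
  have hYN : Y ≤ normalizer (L₁ : Set D) := fun y hy => (hY.1 hy).1
  have huniq := h.uniq_Y hr2 hl2 hEV hE hexp hH₁ hL₁ hYV hYN hY.2.1 hEY hl'
  -- the conjugate of `E`
  have hcj : cj (cj E v⁻¹) n = cj E (n * v⁻¹) := cj_cj _ _ _
  have hE''Y : cj E (n * v⁻¹) ≤ Y := by
    rw [← hcj, hYn]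
    exact cj_mono hE'S n
  have hE''E : cj E (n * v⁻¹) = E := by
    apply Subgroup.eq_of_le_of_card_ge
    · intro x hx
      apply huniq x (hE''Y hx)
      rw [mem_cj] at hx
      have h1 := hexp _ hx
      have h2 : x = (n * v⁻¹) * ((n * v⁻¹)⁻¹ * x * (n * v⁻¹)) * (n * v⁻¹)⁻¹ := by group
      rw [h2, conj_pow, h1, mul_one, mul_inv_cancel]
    · rw [card_cj]
  have hnV : IsV t n := (mem_VP.mp hn.2).2
  have hnN : n ∈ normalizer (L₁ : Set D) := hn.1
  refine ⟨n * v⁻¹, hnV.mul hv.inv, mem_normalizer_of_cj_eq hE''E, ?_⟩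
  apply Subgroup.eq_of_le_of_card_ge
  · intro x hx
    rw [mem_cj] at hx
    have hxE : x ∈ E := by
      rw [← hE''E, mem_cj]
      exact hH₂'.1 hx
    apply hL₁.cE x hxE
    intro u hu
    -- transport
    set g := n * v⁻¹ with hg
    have hu' : g⁻¹ * u * g ∈ L₂ := by
      rw [hL₂eq, mem_cj]
      have h1 : v⁻¹ * (g⁻¹ * u * g) * v = n⁻¹ * u * n⁻¹⁻¹ := by
        rw [hg]; group
      rw [h1]
      have h2 : n⁻¹ ∈ normalizer (L₁ : Set D) := Subgroup.inv_mem _ hnN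
      exact (mem_normalizer_iff.mp h2 u).mp hu
    have h3 := hL₂.centH _ hu' _ hx
    have h4 : g * (g⁻¹ * x * g) * g⁻¹ = x := by group
    have h5 : g * (g⁻¹ * u * g) * g⁻¹ = u := by group
    calc x * u = g * (g⁻¹ * x * g) * g⁻¹ * (g * (g⁻¹ * u * g) * g⁻¹) := by rw [h4, h5]
      _ = g * ((g⁻¹ * x * g) * (g⁻¹ * u * g)) * g⁻¹ := by group
      _ = g * ((g⁻¹ * u * g) * (g⁻¹ * x * g)) * g⁻¹ := by rw [h3]
      _ = g * (g⁻¹ * u * g) * g⁻¹ * (g * (g⁻¹ * x * g) * g⁻¹) := by group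
      _ = u * x := by rw [h4, h5]
  · rw [card_cj, hH₁'.2, hH₂'.2]

/-- **`V` has no subgroup of rank two.** -/
theorem _root_.Cfsg.Agent.Lib.HuaD1.Min.no_rank_two (h : Min t s₀) {E : Subgroup D} {r : ℕ} [Fact r.Prime]
    (hEV : ∀ e ∈ E, IsV t e) (hE : Nat.card E = r ^ 2) (hexp : ∀ e ∈ E, e ^ r = 1) : False := by
  classical
  have hrp : r.Prime := Fact.out
  have hr2 : r ≠ 2 := by
    rintro rfl
    have h1 := h.cfg.inv.odd_sub E
    rw [hE] at h1
    exact (Nat.not_even_iff_odd.mpr h1) (by norm_num)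
  have hcardlines := card_lines hE hexp
  obtain ⟨H₁, hH₁⟩ : (lines E r).Nonempty := by
    rw [← Finset.card_pos, hcardlines]
    omega
  let N : Subgroup D := normalizer (E : Set D) ⊓ VP t ⊤
  have hNact : ∀ g ∈ N, ∀ H ∈ lines E r, cj H g ∈ lines E r := by
    intro g hg H hH
    have hH' := mem_lines.mp hH
    rw [mem_lines]
    refine ⟨?_, by rw [card_cj, hH'.2]⟩
    have h1 := cj_mono hH'.1 g
    rwa [cj_eq_of_mem_normalizer hg.1] at h1
  letI : MulAction N ↥(lines E r) :=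
    { smul := fun g H => ⟨cj H.1 g, hNact g g.2 H.1 H.2⟩
      one_smul := fun H => Subtype.ext (cj_one H.1)
      mul_smul := fun a b H => Subtype.ext (by
        change cj H.1 ((a : D) * (b : D)) = cj (cj H.1 (b : D)) (a : D)
        rw [cj_cj]) }
  have htrans : MulAction.IsPretransitive N ↥(lines E r) := by
    constructor
    intro H₃ H₄
    obtain ⟨g, hgV, hgn, hg⟩ := h.lines_trans hr2 hEV hE hexp H₄.2 H₃.2
    refine ⟨⟨g, hgn, mem_VP.mpr ⟨Subgroup.mem_top g, hgV⟩⟩, ?_⟩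
    exact Subtype.ext hg
  haveI := Fintype.ofFinite N
  haveI : Fintype (MulAction.orbit N (⟨H₁, hH₁⟩ : lines E r)) := Fintype.ofFinite _
  haveI : Fintype (MulAction.stabilizer N (⟨H₁, hH₁⟩ : lines E r)) := Fintype.ofFinite _
  have h1 := MulAction.card_orbit_mul_card_stabilizer_eq_card_group N (⟨H₁, hH₁⟩ : lines E r)
  have h2 : Fintype.card (MulAction.orbit N (⟨H₁, hH₁⟩ : lines E r)) = r + 1 := by
    rw [← Nat.card_eq_fintype_card, MulAction.orbit_eq_univ, Nat.card_coe_set_eq, Set.ncard_univ,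
      Nat.card_eq_fintype_card, Fintype.card_coe, hcardlines]
  rw [h2] at h1
  have h3 : Odd (Fintype.card N) := by
    rw [← Nat.card_eq_fintype_card]
    exact h.cfg.inv.odd_sub N
  rw [← h1] at h3
  have h4 : Odd (r + 1) := (Nat.odd_mul.mp h3).1
  have h5 : Odd r := hrp.odd_of_ne_two hr2
  exact (Nat.not_even_iff_odd.mpr h4) h5.add_one

end Cfsg.Agent.Lib.HuaD2
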