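import Mathlib
import Cfsg.Agent.Lib.HuaD2

/-!
# Subgroups of exponent `p` in `t`-invariant `p`-subgroups
-/

set_option autoImplicit false
set_option linter.unusedSectionVars false
set_option linter.unusedVariables false
set_option linter.style.haveILetI false
set_option linter.unusedSimpArgs false

namespace Cfsg.Agent.Lib.HuaE

open Subgroup Cfsg.Agent.Lib.CoprimeInv Cfsg.Agent.Lib.HuaA Cfsg.Agent.Lib.HuaB Cfsg.Agent.Lib.HuaN
  Cfsg.Agent.Lib.HuaC Cfsg.Agent.Lib.HuaD1 Cfsg.Agent.Lib.HuaD2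

universe u v

variable {D : Type u} {A : Type v} [Group D] [Finite D] [AddCommGroup A] [Finite A]
  [DistribMulAction D A] {t : D ≃* D} {s₀ : A}

theorem _root_.Cfsg.Agent.Lib.HuaD1.Min.V_cyclic (h : Min t s₀) {p : ℕ} [Fact p.Prime] (hp2 : p ≠ 2)
    {Y : Subgroup D} (hYp : IsPGroup p Y) (hYV : ∀ y ∈ Y, IsV t y) : IsCyclic Y := by
  apply isCyclic_of_no_rank_two hp2 hYp
  intro E hE hexp
  have hf : Function.Injective Y.subtype := Y.subtype_injective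
  have hc : Nat.card (E.map Y.subtype) = p ^ 2 := by
    rw [← hE]
    exact (Nat.card_congr (E.equivMapOfInjective _ hf).toEquiv).symm
  refine h.no_rank_two (E := E.map Y.subtype) ?_ hc ?_
  · rintro e ⟨x, hx, rfl⟩
    exact hYV _ x.2
  · rintro e ⟨x, hx, rfl⟩
    rw [← map_pow, hexp x hx, map_one]

lemma card_le_of_cyclic_exp {R : Type*} [Group R] [Finite R] [IsCyclic R] {p : ℕ} [Fact p.Prime]
    (h : ∀ r : R, r ^ p = 1) : Nat.card R ≤ p := by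
  obtain ⟨g, hg⟩ := IsCyclic.exists_generator (α := R)
  have h1 := orderOf_eq_card_of_forall_mem_zpowers hg
  have h2 := orderOf_dvd_of_pow_eq_one (h g)
  have hp : p.Prime := Fact.out
  rw [h1] at h2
  exact Nat.le_of_dvd hp.pos h2

lemma card_le_sq_of_hom {G C : Type*} [Group G] [Group C] [Finite G] [Finite C] [IsCyclic C] (f : G →* C)
    {p : ℕ} [Fact p.Prime] (hG : ∀ g : G, g ^ p = 1) (hker : IsCyclic f.ker) : Nat.card G ≤ p ^ 2 := by
  have h1 := Subgroup.card_mul_index f.ker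
  rw [Subgroup.index_ker] at h1
  have h2 : Nat.card f.ker ≤ p := card_le_of_cyclic_exp (fun r => Subtype.ext (hG r))
  have h3 : Nat.card f.range ≤ p := by
    apply card_le_of_cyclic_exp
    rintro ⟨_, g, rfl⟩
    apply Subtype.ext
    change f g ^ p = 1
    rw [← map_pow, hG, map_one]
  rw [← h1, sq]
  exact Nat.mul_le_mul h2 h3

/-- Lemma Q: a `t`-invariant `p`-subgroup whose inverted elements commute. -/
theorem _root_.Cfsg.Agent.Lib.HuaD1.Min.lemmaQ (h : Min t s₀) {p : ℕ} [Fact p.Prime] (hp2 : p ≠ 2)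
    {C₁ U : Subgroup D} (hC : TInv t C₁) (hCp : IsPGroup p C₁)
    (hcomm : ∀ k ∈ KP t C₁, ∀ l ∈ KP t C₁, k * l = l * k) (hUC : U ≤ C₁) (hU : ∀ u ∈ U, u ^ p = 1) :
    Nat.card U ≤ p ^ 2 := by
  let J : Subgroup D :=
    { carrier := KP t C₁
      mul_mem' := by
        intro a b ha hb
        rw [mem_KP] at ha hb ⊢
        exact ⟨C₁.mul_mem ha.1 hb.1, IsK.mul_comm_of ha.2 hb.2 (hcomm a (mem_KP.mpr ha) b (mem_KP.mpr hb))⟩
      one_mem' := mem_KP.mpr ⟨C₁.one_mem, IsK.one⟩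
      inv_mem' := by
        intro a ha
        rw [mem_KP] at ha ⊢
        exact ⟨C₁.inv_mem ha.1, IsK.inv ha.2⟩ }
  have hJ : ∀ x, x ∈ J ↔ x ∈ C₁ ∧ IsK t x := fun x => mem_KP
  have hJC : J ≤ C₁ := fun x hx => ((hJ x).mp hx).1
  haveI hJcyc : IsCyclic J := h.cfg.isCyclic_K J (fun j hj => ((hJ j).mp hj).2)
  let J' : Subgroup C₁ := J.subgroupOf C₁
  haveI hJn : J'.Normal := by
    constructor
    intro n hn g
    rw [Subgroup.mem_subgroupOf] at hn ⊢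
    obtain ⟨v, hv, k, hk, hvV, hkK, hg⟩ := h.cfg.inv.decomp_mem hC g.2
    have hn' := (hJ _).mp hn
    have e1 : ((g * n * g⁻¹ : C₁) : D) = v * (n : D) * v⁻¹ := by
      have h1 : k * (n : D) = n * k :=
        hcomm k (mem_KP.mpr ⟨hk, hkK⟩) n (mem_KP.mpr hn')
      have h2 : ((g * n * g⁻¹ : C₁) : D) = (g : D) * n * (g : D)⁻¹ := rfl
      rw [h2, hg]
      calc v * k * (n : D) * (v * k)⁻¹ = v * (k * (n : D)) * (k⁻¹ * v⁻¹) := by group
        _ = v * ((n : D) * k) * (k⁻¹ * v⁻¹) := by rw [h1]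
        _ = v * (n : D) * v⁻¹ := by group
    rw [e1]
    exact (hJ _).mpr ⟨C₁.mul_mem (C₁.mul_mem hv hn'.1) (C₁.inv_mem hv), hvV.conj_K hn'.2⟩
  let Y₀ := VP t C₁
  have hY₀C : Y₀ ≤ C₁ := fun x hx => (mem_VP.mp hx).1
  haveI hY₀c : IsCyclic Y₀ :=
    h.V_cyclic hp2 (hCp.to_le hY₀C) (fun y hy => (mem_VP.mp hy).2)
  let g : Y₀ →* C₁ ⧸ J' := (QuotientGroup.mk' J').comp (Subgroup.inclusion hY₀C)
  have hg : Function.Surjective g := by
    intro q
    obtain ⟨c, rfl⟩ := QuotientGroup.mk_surjective q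
    obtain ⟨v, hv, k, hk, hvV, hkK, hc⟩ := h.cfg.inv.decomp_mem hC c.2
    refine ⟨⟨v, mem_VP.mpr ⟨hv, hvV⟩⟩, ?_⟩
    change ((⟨v, hv⟩ : C₁) : C₁ ⧸ J') = (c : C₁ ⧸ J')
    rw [QuotientGroup.eq, Subgroup.mem_subgroupOf]
    have e2 : (((⟨v, hv⟩ : C₁)⁻¹ * c : C₁) : D) = k := by
      change v⁻¹ * (c : D) = k
      rw [hc]
      group
    rw [e2]
    exact (hJ k).mpr ⟨hk, hkK⟩
  haveI hqc : IsCyclic (C₁ ⧸ J') := isCyclic_of_surjective g hg
  let f : U →* C₁ ⧸ J' := (QuotientGroup.mk' J').comp (Subgroup.inclusion hUC)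
  have hfk : ∀ x : f.ker, ((x : U) : D) ∈ J := by
    intro x
    have h1 := x.2
    rw [MonoidHom.mem_ker] at h1
    have h2 : ((Subgroup.inclusion hUC (x : U) : C₁) : C₁ ⧸ J') = 1 := h1
    rw [QuotientGroup.eq_one_iff, Subgroup.mem_subgroupOf] at h2
    exact h2
  have hker : IsCyclic f.ker := by
    let i : f.ker →* J :=
      { toFun := fun x => ⟨((x : U) : D), hfk x⟩
        map_one' := rfl
        map_mul' := fun a b => rfl }
    apply isCyclic_of_injective i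
    intro a b e
    apply Subtype.ext
    apply Subtype.ext
    have e' : ((i a : J) : D) = ((i b : J) : D) := congrArg Subtype.val e
    exact e'
  exact card_le_sq_of_hom f (fun u => Subtype.ext (hU u u.2)) hker

/-- Two commuting elements of order `p`. -/
lemma sup_card {x y : D} {p : ℕ} [Fact p.Prime] (hc : x * y = y * x) (hx : x ^ p = 1) (hy : y ^ p = 1)
    (hx1 : x ≠ 1) (hy1 : y ∉ Subgroup.zpowers x) :
    Nat.card (Subgroup.zpowers x ⊔ Subgroup.zpowers y : Subgroup D) = p ^ 2 ∧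
      ∀ f ∈ (Subgroup.zpowers x ⊔ Subgroup.zpowers y : Subgroup D), f ^ p = 1 := by
  have hcomm : Commute x y := hc
  have hy1' : y ≠ 1 := by
    rintro rfl
    exact hy1 (Subgroup.one_mem _)
  have hxo : orderOf x = p := orderOf_eq_prime hx hx1
  have hyo : orderOf y = p := orderOf_eq_prime hy hy1'
  have hZx : Nat.card (Subgroup.zpowers x) = p := by rw [Nat.card_zpowers, hxo]
  have hZy : Nat.card (Subgroup.zpowers y) = p := by rw [Nat.card_zpowers, hyo]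
  have hne : Subgroup.zpowers x ≠ Subgroup.zpowers y := by
    intro e
    apply hy1
    rw [e]
    exact Subgroup.mem_zpowers y
  have hd := inf_eq_bot_of_lines Fact.out hZx hZy hne
  have hn : Subgroup.zpowers x ≤ normalizer (Subgroup.zpowers y : Set D) := by
    rw [Subgroup.zpowers_le, mem_normalizer_iff]
    intro z
    have key : ∀ n : ℤ, x * y ^ n * x⁻¹ = y ^ n := by
      intro n
      rw [(hcomm.zpow_right n).eq, mul_inv_cancel_right]
    constructor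
    · intro hz
      obtain ⟨n, rfl⟩ := Subgroup.mem_zpowers_iff.mp hz
      rw [key]
      exact Subgroup.zpow_mem_zpowers y n
    · intro hz
      obtain ⟨n, hn⟩ := Subgroup.mem_zpowers_iff.mp hz
      have h3 : z = x⁻¹ * y ^ n * x := by
        rw [hn]
        group
      have h4 : x⁻¹ * y ^ n * x = y ^ n := by
        rw [((hcomm.inv_left).zpow_right n).eq, mul_assoc, inv_mul_cancel, mul_one]
      rw [h3, h4]
      exact Subgroup.zpow_mem_zpowers y n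
  have hcard := card_sup_mul_card_inf hn
  rw [hd, Subgroup.card_bot, mul_one, hZx, hZy] at hcard
  refine ⟨by rw [hcard, sq], ?_⟩
  let T : Subgroup D :=
    { carrier := {f | ∃ i j : ℤ, f = x ^ i * y ^ j}
      mul_mem' := by
        rintro a b ⟨i, j, rfl⟩ ⟨k, l, rfl⟩
        refine ⟨i + k, j + l, ?_⟩
        rw [zpow_add, zpow_add]
        have h5 : Commute (y ^ j) (x ^ k) := (hcomm.zpow_zpow k j).symm
        calc x ^ i * y ^ j * (x ^ k * y ^ l) = x ^ i * (y ^ j * x ^ k) * y ^ l := by group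
          _ = x ^ i * (x ^ k * y ^ j) * y ^ l := by rw [h5.eq]
          _ = x ^ i * x ^ k * (y ^ j * y ^ l) := by group
      one_mem' := ⟨0, 0, by simp⟩
      inv_mem' := by
        rintro a ⟨i, j, rfl⟩
        refine ⟨-i, -j, ?_⟩
        rw [mul_inv_rev, zpow_neg, zpow_neg]
        exact ((hcomm.zpow_zpow i j).inv_inv).symm.eq }
  have hle : Subgroup.zpowers x ⊔ Subgroup.zpowers y ≤ T := by
    apply sup_le
    · rw [Subgroup.zpowers_le]
      exact ⟨1, 0, by simp⟩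
    · rw [Subgroup.zpowers_le]
      exact ⟨0, 1, by simp⟩
  intro f hf
  obtain ⟨i, j, rfl⟩ := hle hf
  rw [((hcomm.zpow_zpow i j)).mul_pow]
  have h6 : (x ^ i) ^ p = 1 := by
    rw [← zpow_natCast, ← zpow_mul, mul_comm, zpow_mul, zpow_natCast, hx, one_zpow]
  have h7 : (y ^ j) ^ p = 1 := by
    rw [← zpow_natCast, ← zpow_mul, mul_comm, zpow_mul, zpow_natCast, hy, one_zpow]
  rw [h6, h7, mul_one]

lemma exists_mem_not_mem {U F : Subgroup D} (hlt : Nat.card F < Nat.card U) : ∃ x ∈ U, x ∉ F := by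
  by_contra hcon
  push Not at hcon
  have := Subgroup.card_le_of_le (show U ≤ F from hcon)
  omega

/-- There is no elementary abelian subgroup of order `p ^ 3`. -/
theorem _root_.Cfsg.Agent.Lib.HuaD1.Min.no_rank_three (h : Min t s₀) {p : ℕ} [Fact p.Prime] {U : Subgroup D}
    (hU : Nat.card U = p ^ 3) (hexp : ∀ u ∈ U, u ^ p = 1) (hab : ∀ x ∈ U, ∀ y ∈ U, x * y = y * x) : False := by
  have hp : p.Prime := Fact.out
  have hp2 : p ≠ 2 := by
    rintro rfl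
    have h1 := h.cfg.inv.odd_sub U
    rw [hU] at h1
    exact (Nat.not_even_iff_odd.mpr h1) (by norm_num)
  have hpp : p < p ^ 2 := by
    rw [sq]
    nlinarith [hp.one_lt]
  have hp2p3 : p ^ 2 < p ^ 3 := Nat.pow_lt_pow_right hp.one_lt (by norm_num)
  have hone : Nat.card (⊥ : Subgroup D) < Nat.card U := by
    rw [Subgroup.card_bot, hU]
    exact Nat.one_lt_pow (by norm_num) hp.one_lt
  obtain ⟨a, ha, ha1⟩ := exists_mem_not_mem hone
  have ha1' : a ≠ 1 := fun e => ha1 (by rw [e]; exact Subgroup.one_mem _)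
  have hZ : ∀ {x : D}, x ∈ U → x ≠ 1 → Nat.card (Subgroup.zpowers x) = p := by
    intro x hx hx1
    rw [Nat.card_zpowers]
    exact orderOf_eq_prime (hexp x hx) hx1
  obtain ⟨b, hb, hb1⟩ := exists_mem_not_mem (F := Subgroup.zpowers a) (U := U) (by
    rw [hZ ha ha1', hU]
    exact lt_trans hpp hp2p3)
  obtain ⟨hE₁, hE₁e⟩ := sup_card (hab a ha b hb) (hexp a ha) (hexp b hb) ha1' hb1
  obtain ⟨e₁, he₁, he₁1, b₁, _, hb₁0, he₁b₁⟩ := exists_fixed_of_rank_two hp2 hE₁ hE₁e h.cfg.char2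
    (⊤ : AddSubgroup A) (fun _ _ _ _ => AddSubgroup.mem_top _) (AddSubgroup.mem_top s₀) h.cfg.ne
  have he₁U : e₁ ∈ U := by
    have : Subgroup.zpowers a ⊔ Subgroup.zpowers b ≤ U :=
      sup_le ((Subgroup.zpowers_le).mpr ha) ((Subgroup.zpowers_le).mpr hb)
    exact this he₁
  obtain ⟨x, hx, hx1⟩ := exists_mem_not_mem (F := Subgroup.zpowers e₁) (U := U) (by
    rw [hZ he₁U he₁1, hU]
    exact lt_trans hpp hp2p3)
  obtain ⟨hQ, hQe⟩ := sup_card (hab e₁ he₁U x hx) (hexp e₁ he₁U) (hexp x hx) he₁1 hx1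
  obtain ⟨y, hy, hy1⟩ := exists_mem_not_mem (F := Subgroup.zpowers e₁ ⊔ Subgroup.zpowers x) (U := U) (by
    rw [hQ, hU]
    exact hp2p3)
  have hx1' : x ≠ 1 := fun e => hx1 (by rw [e]; exact Subgroup.one_mem _)
  have hyx : y ∉ Subgroup.zpowers x := fun e => hy1 (Subgroup.mem_sup_right e)
  obtain ⟨hE₂, hE₂e⟩ := sup_card (hab x hx y hy) (hexp x hx) (hexp y hy) hx1' hyx
  have hE₂U : Subgroup.zpowers x ⊔ Subgroup.zpowers y ≤ U :=
    sup_le ((Subgroup.zpowers_le).mpr hx) ((Subgroup.zpowers_le).mpr hy)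
  have hb₁fix : b₁ ∈ (fixedOf (Subgroup.zpowers e₁) : AddSubgroup A) := by
    intro z hz
    have h1 : Subgroup.zpowers e₁ ≤ MulAction.stabilizer D b₁ := by
      rw [Subgroup.zpowers_le]
      exact he₁b₁
    exact h1 hz
  have hinv : ∀ g ∈ (Subgroup.zpowers x ⊔ Subgroup.zpowers y : Subgroup D),
      ∀ c ∈ (fixedOf (Subgroup.zpowers e₁) : AddSubgroup A), g • c ∈ (fixedOf (Subgroup.zpowers e₁) : AddSubgroup A) := by
    intro g hg c hc z hz
    have hzU : z ∈ U := ((Subgroup.zpowers_le).mpr he₁U) hz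
    rw [smul_smul, hab z hzU g (hE₂U hg), mul_smul, hc z hz]
  obtain ⟨e₂, he₂, he₂1, b₂, hb₂, hb₂0, he₂b₂⟩ := exists_fixed_of_rank_two hp2 hE₂ hE₂e h.cfg.char2
    (fixedOf (Subgroup.zpowers e₁) : AddSubgroup A) hinv hb₁fix hb₁0
  have he₂U : e₂ ∈ U := hE₂U he₂
  have he₂e₁ : e₂ ∉ Subgroup.zpowers e₁ := by
    intro hm
    have h1 : Subgroup.zpowers e₂ = Subgroup.zpowers e₁ :=
      eq_zpowers_of_mem (hZ he₁U he₁1) hm he₂1
    have h2 : e₁ ∈ (Subgroup.zpowers x ⊔ Subgroup.zpowers y : Subgroup D) := by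
      have h3 : e₁ ∈ Subgroup.zpowers e₂ := by
        rw [h1]
        exact Subgroup.mem_zpowers e₁
      exact ((Subgroup.zpowers_le).mpr he₂) h3
    have h4 : Subgroup.zpowers e₁ ⊔ Subgroup.zpowers x ≤ Subgroup.zpowers x ⊔ Subgroup.zpowers y :=
      sup_le ((Subgroup.zpowers_le).mpr h2) le_sup_left
    have h5 : Subgroup.zpowers e₁ ⊔ Subgroup.zpowers x = Subgroup.zpowers x ⊔ Subgroup.zpowers y :=
      Subgroup.eq_of_le_of_card_ge h4 (by rw [hQ, hE₂])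
    apply hy1
    rw [h5]
    exact Subgroup.mem_sup_right (Subgroup.mem_zpowers y)
  obtain ⟨hF, hFe⟩ := sup_card (hab e₁ he₁U e₂ he₂U) (hexp e₁ he₁U) (hexp e₂ he₂U) he₁1 he₂e₁
  have hFfix : ∀ f ∈ (Subgroup.zpowers e₁ ⊔ Subgroup.zpowers e₂ : Subgroup D), f • b₂ = b₂ := by
    have h1 : Subgroup.zpowers e₁ ⊔ Subgroup.zpowers e₂ ≤ MulAction.stabilizer D b₂ := by
      apply sup_le
      · rw [Subgroup.zpowers_le]
        exact hb₂ e₁ (Subgroup.mem_zpowers e₁)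
      · rw [Subgroup.zpowers_le]
        exact he₂b₂
    exact fun f hf => h1 hf
  obtain ⟨m, hm, rfl⟩ := h.cfg.reg b₂ hb₂0
  refine h.no_rank_two (E := cj (Subgroup.zpowers e₁ ⊔ Subgroup.zpowers e₂) m⁻¹) ?_ (by rw [card_cj, hF]) ?_
  · intro z hz
    rw [mem_cj, inv_inv] at hz
    have h1 := h.cfg.stab_conj (hFfix _ hz)
    have h2 : m⁻¹ * (m * z * m⁻¹) * m = z := by group
    rwa [h2] at h1
  · intro z hz
    rw [mem_cj, inv_inv] at hz
    have h1 := hFe _ hz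
    have h2 : z = m⁻¹ * (m * z * m⁻¹) * m := by group
    have h3 : z = m⁻¹ * (m * z * m⁻¹) * m⁻¹⁻¹ := by group
    rw [h3, conj_pow, h1, mul_one, inv_inv, inv_mul_cancel]

/-- The second centre of a non-abelian `p`-group. -/
lemma exists_second_center {G : Type*} [Group G] [Finite G] {p : ℕ} [Fact p.Prime] (hG : IsPGroup p G)
    (hna : ∃ a b : G, a * b ≠ b * a) :
    ∃ x : G, x ∉ center G ∧ ∀ u : G, x * u * x⁻¹ * u⁻¹ ∈ center G := by
  obtain ⟨a, b, hab⟩ := hna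
  have hQ : IsPGroup p (G ⧸ center G) := hG.to_quotient (center G)
  have hnt : Nontrivial (G ⧸ center G) := by
    refine ⟨⟨(a : G ⧸ center G), 1, fun e => hab ?_⟩⟩
    rw [QuotientGroup.eq_one_iff] at e
    exact ((Subgroup.mem_center_iff.mp e) b).symm
  have hc := hQ.center_nontrivial
  obtain ⟨⟨z, hz⟩, hz1⟩ := exists_ne (1 : center (G ⧸ center G))
  obtain ⟨x, rfl⟩ := QuotientGroup.mk_surjective z
  refine ⟨x, ?_, ?_⟩
  · intro hx
    apply hz1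
    apply Subtype.ext
    exact (QuotientGroup.eq_one_iff x).mpr hx
  · intro u
    rw [← QuotientGroup.eq_one_iff]
    have h1 := (Subgroup.mem_center_iff.mp hz) (u : G ⧸ center G)
    have h2 : ((x * u * x⁻¹ * u⁻¹ : G) : G ⧸ center G) =
        (x : G ⧸ center G) * (u : G ⧸ center G) * (x : G ⧸ center G)⁻¹ * (u : G ⧸ center G)⁻¹ := rfl
    rw [h2, ← h1]
    group

lemma comm_pow_aux {G : Type*} [Group G] {v u c : G} (hc : v * u * v⁻¹ = c * u) (hcv : c * v = v * c) (n : ℕ) :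
    v ^ n * u * (v ^ n)⁻¹ = c ^ n * u := by
  induction n with
  | zero => simp
  | succ n ih =>
    have hcv' : Commute (c ^ n) v := Commute.pow_left hcv n
    calc v ^ (n + 1) * u * (v ^ (n + 1))⁻¹ = v * (v ^ n * u * (v ^ n)⁻¹) * v⁻¹ := by
          rw [pow_succ', mul_inv_rev]
          group
      _ = v * (c ^ n * u) * v⁻¹ := by rw [ih]
      _ = (v * c ^ n) * u * v⁻¹ := by group
      _ = (c ^ n * v) * u * v⁻¹ := by rw [hcv'.eq]
      _ = c ^ n * (v * u * v⁻¹) := by group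
      _ = c ^ n * (c * u) := by rw [hc]
      _ = c ^ (n + 1) * u := by rw [pow_succ]; group

/-- A map with small fibres modulo a subgroup. -/
lemma card_le_mul_of_map {U C : Subgroup D} {Ω : Type*} [Finite Ω] (f : U → Ω)
    (hf : ∀ a b : U, f a = f b → (a : D)⁻¹ * b ∈ C) :
    Nat.card U ≤ Nat.card Ω * Nat.card (U ⊓ C : Subgroup D) := by
  classical
  have hs : ∀ ω : Ω, ∃ a : U, (∃ b : U, f b = ω) → f a = ω := by
    intro ω
    by_cases h : ∃ b : U, f b = ω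
    · obtain ⟨b, hb⟩ := h
      exact ⟨b, fun _ => hb⟩
    · exact ⟨1, fun h' => absurd h' h⟩
  choose s hs using hs
  let F : U → Ω × ↥(U ⊓ C : Subgroup D) := fun a =>
    (f a, ⟨(s (f a) : D)⁻¹ * a, U.mul_mem (U.inv_mem (s (f a)).2) a.2,
      hf _ _ (hs (f a) ⟨a, rfl⟩)⟩)
  have hF : Function.Injective F := by
    intro a b e
    have e1 : f a = f b := congrArg Prod.fst e
    have e2 : (s (f a) : D)⁻¹ * a = (s (f b) : D)⁻¹ * b :=
      congrArg (fun x => ((x.2 : ↥(U ⊓ C : Subgroup D)) : D)) e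
    rw [e1] at e2
    exact Subtype.ext (mul_left_cancel e2)
  have := Nat.card_le_card_of_injective F hF
  rwa [Nat.card_prod] at this

/-- **Exponent `p` subgroups of `t`-invariant `p`-subgroups have order at most `p ^ 3`.** -/
theorem _root_.Cfsg.Agent.Lib.HuaD1.Min.card_le_of_exp (h : Min t s₀) {p : ℕ} [Fact p.Prime] (hp2 : p ≠ 2)
    {P U : Subgroup D} (hP : TInv t P) (hPp : IsPGroup p P) (hUP : U ≤ P) (hU : ∀ u ∈ U, u ^ p = 1) :
    Nat.card U ≤ p ^ 3 := by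
  have hp : p.Prime := Fact.out
  by_cases hcomm : ∀ k ∈ KP t P, ∀ l ∈ KP t P, k * l = l * k
  · calc Nat.card U ≤ p ^ 2 := h.lemmaQ hp2 hP hPp hcomm hUP hU
      _ ≤ p ^ 3 := Nat.pow_le_pow_right hp.pos (by norm_num)
  push Not at hcomm
  obtain ⟨k₀, hk₀, l₀, hl₀, hkl⟩ := hcomm
  let P₀ : Subgroup D := closure (KP t P)
  have hP₀P : P₀ ≤ P := (closure_le _).mpr (fun x hx => (mem_KP.mp hx).1)
  have hKP₀ : ∀ {x}, x ∈ KP t P → x ∈ P₀ := fun hx => subset_closure hx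
  have hP₀t : TInv t P₀ := by
    intro x hx
    induction hx using closure_induction with
    | mem x hx =>
      rw [(mem_KP.mp hx).2]
      exact P₀.inv_mem (hKP₀ hx)
    | one => rw [map_one]; exact P₀.one_mem
    | mul a b _ _ ha hb => rw [map_mul]; exact P₀.mul_mem ha hb
    | inv a _ ha => rw [map_inv]; exact P₀.inv_mem ha
  have htt : ∀ d, t (t d) = d := h.cfg.inv.tt
  let Z₀ : Subgroup D := P₀ ⊓ centralizer (P₀ : Set D)
  have hZ₀ : ∀ {z}, z ∈ Z₀ ↔ z ∈ P₀ ∧ ∀ g ∈ P₀, g * z = z * g := by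
    intro z
    constructor
    · rintro ⟨h1, h2⟩
      exact ⟨h1, fun g hg => (Subgroup.mem_centralizer_iff.mp h2) g hg⟩
    · rintro ⟨h1, h2⟩
      exact ⟨h1, Subgroup.mem_centralizer_iff.mpr h2⟩
  have hZ₀t : TInv t Z₀ := by
    intro x hx
    obtain ⟨h1, h2⟩ := hZ₀.mp hx
    refine hZ₀.mpr ⟨hP₀t x h1, fun g hg => ?_⟩
    have h3 := congrArg t (h2 (t g) (hP₀t g hg))
    rwa [map_mul, map_mul, htt] at h3
  have hZV : ∀ y ∈ Z₀, IsV t y → y = 1 := by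
    intro y hy hyV
    by_contra hy1
    exact hkl (h.comm y hyV hy1 k₀ l₀ (mem_KP.mp hk₀).2 (mem_KP.mp hl₀).2
      ((hZ₀.mp hy).2 k₀ (hKP₀ hk₀)).symm ((hZ₀.mp hy).2 l₀ (hKP₀ hl₀)).symm)
  have hZK : ∀ z ∈ Z₀, IsK t z := by
    intro z hz
    obtain ⟨v, hv, k, hk, hvV, hkK, e⟩ := h.cfg.inv.decomp_mem hZ₀t hz
    rw [e, hZV v hv hvV, one_mul]
    exact hkK
  haveI hZc : IsCyclic Z₀ := h.cfg.isCyclic_K Z₀ hZK
  -- the second centre
  let Z₂ : Subgroup D :=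
    { carrier := {x | x ∈ P₀ ∧ ∀ u ∈ P₀, x * u * x⁻¹ * u⁻¹ ∈ Z₀}
      mul_mem' := by
        rintro x y ⟨hx, hx'⟩ ⟨hy, hy'⟩
        refine ⟨P₀.mul_mem hx hy, fun u hu => ?_⟩
        have h1 := hy' u hu
        have h2 : x * (y * u * y⁻¹ * u⁻¹) * x⁻¹ = y * u * y⁻¹ * u⁻¹ := by
          rw [(hZ₀.mp h1).2 x hx, mul_inv_cancel_right]
        have h3 : x * y * u * (x * y)⁻¹ * u⁻¹ = (x * (y * u * y⁻¹ * u⁻¹) * x⁻¹) * (x * u * x⁻¹ * u⁻¹) := by
          group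
        rw [h3, h2]
        exact Z₀.mul_mem h1 (hx' u hu)
      one_mem' := ⟨P₀.one_mem, fun u hu => by
        have : (1 : D) * u * (1 : D)⁻¹ * u⁻¹ = 1 := by group
        rw [this]
        exact Z₀.one_mem⟩
      inv_mem' := by
        rintro x ⟨hx, hx'⟩
        refine ⟨P₀.inv_mem hx, fun u hu => ?_⟩
        have hw : x⁻¹ * u * x ∈ P₀ := P₀.mul_mem (P₀.mul_mem (P₀.inv_mem hx) hu) hx
        have h1 := Z₀.inv_mem (hx' _ hw)
        have h2 : (x * (x⁻¹ * u * x) * x⁻¹ * (x⁻¹ * u * x)⁻¹)⁻¹ = x⁻¹ * u * x⁻¹⁻¹ * u⁻¹ := by group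
        rwa [h2] at h1 }
  have hZ₂ : ∀ {x}, x ∈ Z₂ ↔ x ∈ P₀ ∧ ∀ u ∈ P₀, x * u * x⁻¹ * u⁻¹ ∈ Z₀ := Iff.rfl
  have hZ₂t : TInv t Z₂ := by
    intro x hx
    obtain ⟨h1, h2⟩ := hZ₂.mp hx
    refine hZ₂.mpr ⟨hP₀t x h1, fun u hu => ?_⟩
    have h3 := hZ₀t _ (h2 (t u) (hP₀t u hu))
    simp only [map_mul, map_inv, htt] at h3
    exact h3
  have hP₀p : IsPGroup p P₀ := hPp.to_le hP₀P
  obtain ⟨x₀', hx₀', hx₀''⟩ := exists_second_center hP₀p
    ⟨⟨k₀, hKP₀ hk₀⟩, ⟨l₀, hKP₀ hl₀⟩, fun e => hkl (congrArg Subtype.val e)⟩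
  have hcenter : ∀ y : P₀, y ∈ center P₀ → (y : D) ∈ Z₀ := by
    intro y hy
    refine hZ₀.mpr ⟨y.2, fun g hg => ?_⟩
    have := (Subgroup.mem_center_iff.mp hy) ⟨g, hg⟩
    exact congrArg Subtype.val this
  have hcenter' : ∀ y : P₀, (y : D) ∈ Z₀ → y ∈ center P₀ := by
    intro y hy
    rw [Subgroup.mem_center_iff]
    intro g
    exact Subtype.ext ((hZ₀.mp hy).2 g g.2)
  set x₀ : D := (x₀' : D) with hx₀def
  have hx₀P : x₀ ∈ P₀ := x₀'.2
  have hx₀Z : x₀ ∉ Z₀ := fun e => hx₀' (hcenter' _ e)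
  have hx₀Z₂ : x₀ ∈ Z₂ := by
    refine hZ₂.mpr ⟨hx₀P, fun u hu => ?_⟩
    exact hcenter _ (hx₀'' ⟨u, hu⟩)
  have hexV : ∃ v ∈ Z₂, IsV t v ∧ v ≠ 1 := by
    by_contra hno
    push Not at hno
    have hxK : IsK t x₀ := by
      obtain ⟨v, hv, k, hk, hvV, hkK, e⟩ := h.cfg.inv.decomp_mem hZ₂t hx₀Z₂
      rw [e, hno v hv hvV, one_mul]
      exact hkK
    apply hx₀Z
    have hcomm' : ∀ l ∈ KP t P, x₀ * l = l * x₀ := by
      intro l hl
      have hlP := hKP₀ hl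
      set c := x₀ * l * x₀⁻¹ * l⁻¹ with hc
      have hcZ : c ∈ Z₀ := (hZ₂.mp hx₀Z₂).2 l hlP
      have hlK : t l = l⁻¹ := (mem_KP.mp hl).2
      have hxK' : t x₀ = x₀⁻¹ := hxK
      have hcx : x₀ * c = c * x₀ := (hZ₀.mp hcZ).2 x₀ hx₀P
      have hcl : l * c = c * l := (hZ₀.mp hcZ).2 l hlP
      have e1 : x₀ * l * x₀⁻¹ = c * l := by rw [hc]; group
      have e2 : x₀⁻¹ * l * x₀ = c⁻¹ * l := by
        have h3 : x₀⁻¹ * (x₀ * l * x₀⁻¹) * x₀ = l := by group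
        rw [e1] at h3
        have h4 : x₀⁻¹ * (c * l) * x₀ = c * (x₀⁻¹ * l * x₀) := by
          have h5 : x₀⁻¹ * c = c * x₀⁻¹ := by
            have : Commute x₀ c := hcx
            exact this.inv_left.eq
          calc x₀⁻¹ * (c * l) * x₀ = (x₀⁻¹ * c) * l * x₀ := by group
            _ = (c * x₀⁻¹) * l * x₀ := by rw [h5]
            _ = c * (x₀⁻¹ * l * x₀) := by group
        rw [h4] at h3
        rw [eq_inv_mul_iff_mul_eq]
        exact h3
      have e3 : t c = c := by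
        have h6 : x₀⁻¹ * l⁻¹ * x₀ = (x₀⁻¹ * l * x₀)⁻¹ := by group
        have h7 : (c⁻¹ * l)⁻¹ * l = l⁻¹ * c * l := by group
        have h8 : t c = x₀⁻¹ * l⁻¹ * x₀ * l := by
          rw [hc]
          simp only [map_mul, map_inv, hlK, hxK', inv_inv]
        rw [h8, h6, e2, h7, mul_assoc, ← hcl, ← mul_assoc, inv_mul_cancel, one_mul]
      have e4 : c = 1 := hZV c hcZ e3
      have e5 : x₀ * l * x₀⁻¹ = l := by rw [e1, e4, one_mul]
      calc x₀ * l = x₀ * l * x₀⁻¹ * x₀ := by group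
        _ = l * x₀ := by rw [e5]
    refine hZ₀.mpr ⟨hx₀P, fun g hg => ?_⟩
    have h8 : P₀ ≤ centralizer ({x₀} : Set D) := by
      apply (closure_le _).mpr
      intro l hl
      rw [SetLike.mem_coe, Subgroup.mem_centralizer_iff]
      intro y hy
      rw [Set.mem_singleton_iff] at hy
      rw [hy]
      exact hcomm' l hl
    have h9 := h8 hg
    rw [Subgroup.mem_centralizer_iff] at h9
    exact (h9 x₀ rfl).symm
  obtain ⟨v₁, hv₁Z, hv₁V, hv₁1⟩ := hexV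
  have hv₁P₀ : v₁ ∈ P₀ := (hZ₂.mp hv₁Z).1
  -- an element of order `p`
  obtain ⟨n, hn⟩ := IsPGroup.iff_orderOf.mp hP₀p ⟨v₁, hv₁P₀⟩
  rw [Subgroup.orderOf_mk] at hn
  have hn0 : n ≠ 0 := by
    rintro rfl
    rw [pow_zero, orderOf_eq_one_iff] at hn
    exact hv₁1 hn
  obtain ⟨n', rfl⟩ : ∃ n', n = n' + 1 := ⟨n - 1, by omega⟩
  set v := v₁ ^ (p ^ n') with hv
  have hvZ : v ∈ Z₂ := Z₂.pow_mem hv₁Z _
  have hvV : IsV t v := hv₁V.pow _
  have hvp : v ^ p = 1 := by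
    rw [hv, ← pow_mul, ← pow_succ, ← hn, pow_orderOf_eq_one]
  have hv1 : v ≠ 1 := by
    apply pow_ne_one_of_lt_orderOf (pow_ne_zero _ hp.ne_zero)
    rw [hn]
    exact Nat.pow_lt_pow_right hp.one_lt (by omega)
  have hvP₀ : v ∈ P₀ := (hZ₂.mp hvZ).1
  have hvP : v ∈ P := hP₀P hvP₀
  -- the group of values of commutators
  let Ω : Subgroup D :=
    { carrier := {z | z ∈ Z₀ ∧ z ^ p = 1}
      mul_mem' := by
        rintro a b ⟨ha, ha'⟩ ⟨hb, hb'⟩
        refine ⟨Z₀.mul_mem ha hb, ?_⟩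
        have hc : Commute a b := ((hZ₀.mp hb).2 a (hZ₀.mp ha).1)
        rw [hc.mul_pow, ha', hb', mul_one]
      one_mem' := ⟨Z₀.one_mem, one_pow _⟩
      inv_mem' := by
        rintro a ⟨ha, ha'⟩
        exact ⟨Z₀.inv_mem ha, by rw [inv_pow, ha', inv_one]⟩ }
  have hΩ : ∀ {z}, z ∈ Ω ↔ z ∈ Z₀ ∧ z ^ p = 1 := Iff.rfl
  haveI hΩc : IsCyclic Ω := h.cfg.isCyclic_K Ω (fun z hz => hZK z (hΩ.mp hz).1)
  have hΩcard : Nat.card Ω ≤ p := card_le_of_cyclic_exp (fun r => Subtype.ext (hΩ.mp r.2).2)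
  -- the cyclic group `V ∩ P`
  have hY₀p : IsPGroup p (VP t P) := hPp.to_le (fun x hx => (mem_VP.mp hx).1)
  haveI hY₀c : IsCyclic (VP t P) := h.V_cyclic hp2 hY₀p (fun y hy => (mem_VP.mp hy).2)
  have hY₀comm : ∀ y ∈ VP t P, y * v = v * y := by
    intro y hy
    letI := IsCyclic.commGroup (α := VP t P)
    have := mul_comm (⟨y, hy⟩ : VP t P) ⟨v, mem_VP.mpr ⟨hvP, hvV⟩⟩
    exact congrArg Subtype.val this
  have hval : ∀ u ∈ P, v * u * v⁻¹ * u⁻¹ ∈ Ω := by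
    intro u hu
    obtain ⟨y, hy, k, hk, hyV, hkK, e⟩ := h.cfg.inv.decomp_mem hP (P.inv_mem hu)
    have hu' : u = k⁻¹ * y⁻¹ := by
      have : u = (u⁻¹)⁻¹ := by group
      rw [this, e]
      group
    have hw : k⁻¹ ∈ P₀ := P₀.inv_mem (hKP₀ (mem_KP.mpr ⟨hk, hkK⟩))
    have hyc : y⁻¹ * v = v * y⁻¹ := by
      have : Commute y v := hY₀comm y (mem_VP.mpr ⟨hy, hyV⟩)
      exact this.inv_left.eq
    have e1 : v * u * v⁻¹ * u⁻¹ = v * k⁻¹ * v⁻¹ * (k⁻¹)⁻¹ := by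
      rw [hu']
      have : v * (k⁻¹ * y⁻¹) * v⁻¹ * (k⁻¹ * y⁻¹)⁻¹ = v * k⁻¹ * (y⁻¹ * v⁻¹ * y) * (k⁻¹)⁻¹ := by group
      rw [this]
      have h2 : y⁻¹ * v⁻¹ * y = v⁻¹ := by
        have h3 : Commute y v := hY₀comm y (mem_VP.mpr ⟨hy, hyV⟩)
        rw [h3.inv_inv.eq]
        simp
      rw [h2]
    rw [e1]
    set c := v * k⁻¹ * v⁻¹ * (k⁻¹)⁻¹ with hc
    have hcZ : c ∈ Z₀ := (hZ₂.mp hvZ).2 _ hw
    refine hΩ.mpr ⟨hcZ, ?_⟩
    have e2 : v * k⁻¹ * v⁻¹ = c * k⁻¹ := by rw [hc]; group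
    have e3 := comm_pow_aux e2 ((hZ₀.mp hcZ).2 v hvP₀).symm p
    rw [hvp] at e3
    simp only [one_mul, inv_one, mul_one] at e3
    have e4 : (1 : D) * k⁻¹ = c ^ p * k⁻¹ := by rw [one_mul]; exact e3
    exact (mul_right_cancel e4).symm
  let f : U → Ω := fun u => ⟨v * u * v⁻¹ * (u : D)⁻¹, hval u (hUP u.2)⟩
  have hf : ∀ a b : U, f a = f b → (a : D)⁻¹ * b ∈ centralizer ({v} : Set D) := by
    intro a b e
    have e1 : v * (a : D) * v⁻¹ * (a : D)⁻¹ = v * (b : D) * v⁻¹ * (b : D)⁻¹ := congrArg Subtype.val e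
    rw [Subgroup.mem_centralizer_iff]
    intro y hy
    rw [Set.mem_singleton_iff] at hy
    rw [hy]
    have e2 : (a : D) * v⁻¹ * (a : D)⁻¹ = (b : D) * v⁻¹ * (b : D)⁻¹ := by
      have h2 : v⁻¹ * (v * (a : D) * v⁻¹ * (a : D)⁻¹) = v⁻¹ * (v * (b : D) * v⁻¹ * (b : D)⁻¹) := by rw [e1]
      simpa [mul_assoc] using h2
    have e3 : ((a : D)⁻¹ * b) * v⁻¹ * ((a : D)⁻¹ * b)⁻¹ = v⁻¹ := by
      have h3 : ((a : D)⁻¹ * b) * v⁻¹ * ((a : D)⁻¹ * b)⁻¹ = (a : D)⁻¹ * ((b : D) * v⁻¹ * (b : D)⁻¹) * a := by group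
      rw [h3, ← e2]
      group
    have e4 : ((a : D)⁻¹ * b) * v⁻¹ = v⁻¹ * ((a : D)⁻¹ * b) := by
      calc ((a : D)⁻¹ * b) * v⁻¹ = ((a : D)⁻¹ * b) * v⁻¹ * ((a : D)⁻¹ * b)⁻¹ * ((a : D)⁻¹ * b) := by group
        _ = v⁻¹ * ((a : D)⁻¹ * b) := by rw [e3]
    have e5 : Commute ((a : D)⁻¹ * b) v⁻¹ := e4
    have e6 : Commute ((a : D)⁻¹ * b) v := by
      have := e5.inv_right
      rwa [inv_inv] at this
    exact e6.eq.symm
  have hcard := card_le_mul_of_map f hf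
  have hC₁t : TInv t (P ⊓ centralizer ({v} : Set D)) := by
    intro x hx
    refine ⟨hP x hx.1, ?_⟩
    change t x ∈ centralizer ({v} : Set D)
    rw [Subgroup.mem_centralizer_iff]
    intro y hy
    rw [Set.mem_singleton_iff] at hy
    rw [hy]
    have h1 := Subgroup.mem_centralizer_iff.mp hx.2 v rfl
    have h2 := congrArg t h1
    rwa [map_mul, map_mul, show t v = v from hvV] at h2
  have hQ := h.lemmaQ (C₁ := P ⊓ centralizer ({v} : Set D)) (U := U ⊓ centralizer ({v} : Set D)) hp2 hC₁t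
    (hPp.to_le inf_le_left)
    (by
      intro k hk l hl
      have hk' := mem_KP.mp hk
      have hl' := mem_KP.mp hl
      exact h.comm v hvV hv1 k l hk'.2 hl'.2 ((Subgroup.mem_centralizer_iff.mp hk'.1.2) v rfl)
        ((Subgroup.mem_centralizer_iff.mp hl'.1.2) v rfl))
    (inf_le_inf_right _ hUP) (fun u hu => hU u hu.1)
  calc Nat.card U ≤ Nat.card Ω * Nat.card (U ⊓ centralizer ({v} : Set D) : Subgroup D) := hcard
    _ ≤ p * p ^ 2 := Nat.mul_le_mul hΩcard hQ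
    _ = p ^ 3 := by ring

end Cfsg.Agent.Lib.HuaE
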