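import Mathlib
import Cfsg.Agent.Lib.HuaE
import Cfsg.Agent.Lib.PComplement
import Cfsg.Agent.Lib.TransferCore

/-!
# Solvability of `t`-invariant subgroups in the faithful minimal situation
-/

set_option autoImplicit false
set_option linter.unusedSectionVars false
set_option linter.unusedVariables false
set_option linter.style.haveILetI false
set_option linter.unusedSimpArgs false
set_option maxHeartbeats 400000

namespace Cfsg.Agent.Lib.HuaF

open Subgroup Cfsg.Agent.Lib.CoprimeInv Cfsg.Agent.Lib.HuaA Cfsg.Agent.Lib.HuaB Cfsg.Agent.Lib.HuaN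
  Cfsg.Agent.Lib.HuaC Cfsg.Agent.Lib.HuaD1 Cfsg.Agent.Lib.HuaD2 Cfsg.Agent.Lib.HuaE

universe u v

variable {D : Type u} {A : Type v} [Group D] [Finite D] [AddCommGroup A] [Finite A]
  [DistribMulAction D A] {t : D ≃* D} {s₀ : A}

/-- A proper subgroup of a non-trivial `p`-group containing all `p`-th powers and commutators. -/
lemma exists_proper_contains {G : Type*} [Group G] [Finite G] {p : ℕ} [Fact p.Prime] (hG : IsPGroup p G)
    (hnt : Nontrivial G) : ∃ M : Subgroup G, M ≠ ⊤ ∧ ∀ x y : G, x ^ p ∈ M ∧ x * y * x⁻¹ * y⁻¹ ∈ M := by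
  have hp : p.Prime := Fact.out
  obtain ⟨n, hn0, hn⟩ := (IsPGroup.nontrivial_iff_card hG).mp hnt
  obtain ⟨n', rfl⟩ : ∃ n', n = n' + 1 := ⟨n - 1, by omega⟩
  obtain ⟨M, hM⟩ := Sylow.exists_subgroup_card_pow_prime (G := G) p (n := n') (by
    rw [hn]
    exact pow_dvd_pow p (by omega))
  have hidx : M.index = p := by
    have h1 := Subgroup.card_mul_index M
    rw [hM, hn, pow_succ] at h1
    exact Nat.eq_of_mul_eq_mul_left (pow_pos hp.pos _) h1
  haveI hnorm : M.Normal := Subgroup.normal_of_index_eq_minFac_card (by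
    rw [hidx, hn, hp.pow_minFac (by omega)])
  have hcard : Nat.card (G ⧸ M) = p := by rw [← Subgroup.index_eq_card, hidx]
  haveI hcyc : IsCyclic (G ⧸ M) := isCyclic_of_prime_card hcard
  refine ⟨M, ?_, fun x y => ⟨?_, ?_⟩⟩
  · intro e
    rw [e, Subgroup.index_top] at hidx
    exact hp.one_lt.ne hidx
  · rw [← QuotientGroup.eq_one_iff]
    have h2 : ((x ^ p : G) : G ⧸ M) = (x : G ⧸ M) ^ p := rfl
    rw [h2, ← hcard, pow_card_eq_one']
  · rw [← QuotientGroup.eq_one_iff]
    letI := IsCyclic.commGroup (α := G ⧸ M)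
    have h3 : ((x * y * x⁻¹ * y⁻¹ : G) : G ⧸ M) =
        (x : G ⧸ M) * (y : G ⧸ M) * (x : G ⧸ M)⁻¹ * (y : G ⧸ M)⁻¹ := rfl
    rw [h3, mul_comm (x : G ⧸ M), mul_inv_cancel_right, mul_inv_cancel]

lemma normalizer_of_conj_le {T : Subgroup D} {g : D} (h : ∀ x ∈ T, g * x * g⁻¹ ∈ T) :
    g ∈ normalizer (T : Set D) := by
  apply mem_normalizer_of_cj_eq
  apply Subgroup.eq_of_le_of_card_ge
  · rintro _ ⟨x, hx, rfl⟩
    exact h x hx
  · rw [card_cj]

lemma prime_dvd_cases {p q : ℕ} (hp : p.Prime) (hq : q.Prime) (hp2 : p ≠ 2) (hpq : p < q) :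
    ¬ q ∣ p - 1 ∧ ¬ q ∣ p ^ 2 - 1 := by
  have h1 : ¬ q ∣ p - 1 := by
    intro h
    have := Nat.le_of_dvd (by have := hp.two_le; omega) h
    omega
  refine ⟨h1, ?_⟩
  intro h
  have h2 : p ^ 2 - 1 = (p - 1) * (p + 1) := by
    obtain ⟨s, rfl⟩ : ∃ s, p = s + 1 := ⟨p - 1, by have := hp.pos; omega⟩
    simp only [Nat.add_sub_cancel]
    have : (s + 1) ^ 2 = s * (s + 1 + 1) + 1 := by ring
    omega
  rw [h2] at h
  rcases (Nat.Prime.dvd_mul hq).mp h with h3 | h3
  · exact h1 h3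
  · have h4 := Nat.le_of_dvd (by omega) h3
    have h5 : q = p + 1 := by omega
    have h6 : Odd p := hp.odd_of_ne_two hp2
    have h7 : Even q := by rw [h5]; exact h6.add_one
    have h8 : q = 2 := (hq.even_iff).mp h7
    have := hp.two_le
    omega

lemma card_modEq_fixed {Q : Subgroup D} {g : D} {q m : ℕ} [Fact q.Prime] (hg : g ∈ normalizer (Q : Set D))
    (hgq : g ^ (q ^ m) = 1) :
    Nat.card Q ≡ Nat.card (Q ⊓ centralizer ({g} : Set D) : Subgroup D) [MOD q] := by
  have hle : Subgroup.zpowers g ≤ normalizer (Q : Set D) := (Subgroup.zpowers_le).mpr hg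
  have hG : IsPGroup q (Subgroup.zpowers g) := by
    intro x
    refine ⟨m, ?_⟩
    apply Subtype.ext
    obtain ⟨i, hi⟩ := Subgroup.mem_zpowers_iff.mp x.2
    change (x : D) ^ (q ^ m) = 1
    rw [← hi, ← zpow_natCast, ← zpow_mul, mul_comm, zpow_mul, zpow_natCast, hgq, one_zpow]
  letI : MulAction (Subgroup.zpowers g) Q :=
    { smul := fun x w => ⟨(x : D) * w * (x : D)⁻¹, (mem_normalizer_iff.mp (hle x.2) w).mp w.2⟩
      one_smul := fun w => Subtype.ext (by
        change (1 : D) * w * (1 : D)⁻¹ = w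
        group)
      mul_smul := fun a b w => Subtype.ext (by
        change ((a : D) * b) * w * ((a : D) * b)⁻¹ = a * (b * w * (b : D)⁻¹) * (a : D)⁻¹
        group) }
  have h1 := hG.card_modEq_card_fixedPoints Q
  have h2 : Nat.card (MulAction.fixedPoints (Subgroup.zpowers g) Q) =
      Nat.card (Q ⊓ centralizer ({g} : Set D) : Subgroup D) := by
    apply Nat.card_congr
    refine
      { toFun := fun w => ⟨((w : Q) : D), (w : Q).2, ?_⟩
        invFun := fun w => ⟨⟨w, w.2.1⟩, ?_⟩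
        left_inv := fun w => rfl
        right_inv := fun w => rfl }
    · change ((w : Q) : D) ∈ centralizer ({g} : Set D)
      rw [Subgroup.mem_centralizer_iff]
      intro y hy
      rw [Set.mem_singleton_iff] at hy
      rw [hy]
      have h3 := w.2 ⟨g, Subgroup.mem_zpowers g⟩
      have h4 : g * ((w : Q) : D) * g⁻¹ = (w : Q) := congrArg Subtype.val h3
      calc g * ((w : Q) : D) = g * ((w : Q) : D) * g⁻¹ * g := by group
        _ = _ := by rw [h4]
    · rintro ⟨x, hx⟩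
      apply Subtype.ext
      change x * (w : D) * x⁻¹ = w
      obtain ⟨i, rfl⟩ := Subgroup.mem_zpowers_iff.mp hx
      have h5 : Commute g (w : D) := (Subgroup.mem_centralizer_iff.mp w.2.2) g rfl
      rw [(h5.zpow_left i).eq, mul_inv_cancel_right]
  rwa [h2] at h1

/-- The core of the `p`-nilpotency argument: an element of `q`-power order, `q > p`. -/
theorem _root_.Cfsg.Agent.Lib.HuaD1.Min.core (h : Min t s₀) {p q : ℕ} [Fact p.Prime] [Fact q.Prime] (hp2 : p ≠ 2)
    (hpq : p < q) {S : Subgroup D} (hS : TInv t S) (hSp : IsPGroup p S) {g : D} {m : ℕ}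
    (hgq : g ^ (q ^ m) = 1) :
    ∀ (n : ℕ) (Q : Subgroup D), Nat.card Q = n → Q ≤ S → g ∈ normalizer (Q : Set D) →
      g ∈ centralizer (Q : Set D) := by
  have hpp : p.Prime := Fact.out
  have hqp : q.Prime := Fact.out
  intro n
  induction n using Nat.strong_induction_on with
  | _ n ih =>
  intro Q hn hQS hg
  have IH : ∀ Q' : Subgroup D, Q' < Q → g ∈ normalizer (Q' : Set D) → g ∈ centralizer (Q' : Set D) := by
    intro Q' hlt hg'
    refine ih (Nat.card Q') ?_ Q' rfl (hlt.le.trans hQS) hg'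
    rw [← hn]
    by_contra hcon
    exact hlt.ne (Subgroup.eq_of_le_of_card_ge hlt.le (not_lt.mp hcon))
  by_contra hng
  have hQp : IsPGroup p Q := hSp.to_le hQS
  have hgQ : ∀ x ∈ Q, g * x * g⁻¹ ∈ Q := fun x hx => (mem_normalizer_iff.mp hg x).mp hx
  have hcop : ∀ c ∈ Q, c ^ (q ^ m) = 1 → c = 1 := by
    intro c hc hcq
    obtain ⟨k, hk⟩ := IsPGroup.iff_orderOf.mp hQp ⟨c, hc⟩
    rw [Subgroup.orderOf_mk] at hk
    have h1 := orderOf_dvd_of_pow_eq_one hcq
    rw [hk] at h1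
    have h2 : Nat.Coprime (p ^ k) (q ^ m) := Nat.Coprime.pow _ _
      ((Nat.coprime_primes hpp hqp).mpr (by omega))
    have h3 := Nat.Coprime.eq_one_of_dvd h2 h1
    rw [← hk] at h3
    exact orderOf_eq_one_iff.mp h3
  -- Step a: `[Q, g] = Q`
  let R : Subgroup D := closure {z | ∃ w ∈ Q, z = g * w * g⁻¹ * w⁻¹}
  have hRQ : R ≤ Q := by
    apply (closure_le _).mpr
    rintro z ⟨w, hw, rfl⟩
    exact Q.mul_mem (hgQ w hw) (Q.inv_mem hw)
  have hgen : ∀ w ∈ Q, g * w * g⁻¹ * w⁻¹ ∈ R := fun w hw => subset_closure ⟨w, hw, rfl⟩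
  have hRn : g ∈ normalizer (R : Set D) := by
    apply normalizer_of_conj_le
    intro x hx
    have hle : R ≤ R.comap (MulAut.conj g).toMonoidHom := by
      apply (closure_le _).mpr
      rintro z ⟨w, hw, rfl⟩
      change g * (g * w * g⁻¹ * w⁻¹) * g⁻¹ ∈ R
      have e : g * (g * w * g⁻¹ * w⁻¹) * g⁻¹ = g * (g * w * g⁻¹) * g⁻¹ * (g * w * g⁻¹)⁻¹ := by group
      rw [e]
      exact hgen _ (hgQ w hw)
    exact hle hx
  have hcentr : g ∈ centralizer (R : Set D) → g ∈ centralizer (Q : Set D) := by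
    intro hc
    rw [Subgroup.mem_centralizer_iff]
    intro w hw
    have hcR := hgen w hw
    set c := g * w * g⁻¹ * w⁻¹ with hcdef
    have h1 : g * w * g⁻¹ = c * w := by rw [hcdef]; group
    have h2 : c * g = g * c := (Subgroup.mem_centralizer_iff.mp hc) c hcR
    have h3 := Cfsg.Agent.Lib.HuaE.comm_pow_aux h1 h2 (q ^ m)
    rw [hgq] at h3
    simp only [one_mul, inv_one, mul_one] at h3
    have h4 : c ^ (q ^ m) = 1 := by
      have h5 : (1 : D) * w = c ^ (q ^ m) * w := by rw [one_mul]; exact h3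
      exact (mul_right_cancel h5).symm
    have h6 : c = 1 := hcop c (hRQ hcR) h4
    have h7 : g * w * g⁻¹ = w := by rw [h1, h6, one_mul]
    calc w * g = g * w * g⁻¹ * g := by rw [h7]
      _ = g * w := by group
  have hRQeq : R = Q := by
    by_contra hne
    exact hng (hcentr (IH R (lt_of_le_of_ne hRQ hne) hRn))
  have hQnt : Nontrivial Q := by
    by_contra hnt
    rw [not_nontrivial_iff_subsingleton] at hnt
    apply hng
    rw [Subgroup.mem_centralizer_iff]
    intro w hw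
    have : (⟨w, hw⟩ : Q) = 1 := Subsingleton.elim _ _
    have h1 : w = 1 := congrArg Subtype.val this
    rw [h1, one_mul, mul_one]
  -- Step b: the Frattini-type subgroup
  let T : Subgroup D := closure ({z | ∃ u ∈ Q, z = u ^ p} ∪ {z | ∃ u ∈ Q, ∃ w ∈ Q, z = u * w * u⁻¹ * w⁻¹})
  have hTQ : T ≤ Q := by
    apply (closure_le _).mpr
    rintro z (⟨u, hu, rfl⟩ | ⟨u, hu, w, hw, rfl⟩)
    · exact Q.pow_mem hu p
    · exact Q.mul_mem (Q.mul_mem (Q.mul_mem hu hw) (Q.inv_mem hu)) (Q.inv_mem hw)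
  have hTpow : ∀ u ∈ Q, u ^ p ∈ T := fun u hu => subset_closure (Or.inl ⟨u, hu, rfl⟩)
  have hTcomm : ∀ u ∈ Q, ∀ w ∈ Q, u * w * u⁻¹ * w⁻¹ ∈ T := fun u hu w hw =>
    subset_closure (Or.inr ⟨u, hu, w, hw, rfl⟩)
  have hTne : T ≠ Q := by
    intro e
    obtain ⟨M, hM, hM'⟩ := exists_proper_contains hQp hQnt
    apply hM
    rw [eq_top_iff]
    rintro ⟨x, hx⟩ -
    have h1 : T ≤ M.map Q.subtype := by
      apply (closure_le _).mpr
      rintro z (⟨u, hu, rfl⟩ | ⟨u, hu, w, hw, rfl⟩)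
      · exact ⟨(⟨u, hu⟩ : Q) ^ p, (hM' _ 1).1, rfl⟩
      · exact ⟨_, (hM' ⟨u, hu⟩ ⟨w, hw⟩).2, rfl⟩
    rw [← e] at hx
    obtain ⟨y, hy, hxy⟩ := h1 hx
    have : y = ⟨x, by rw [← e]; exact hx⟩ := Subtype.ext hxy
    rw [← this]
    exact hy
  have hTn : g ∈ normalizer (T : Set D) := by
    apply normalizer_of_conj_le
    intro x hx
    have hle : T ≤ T.comap (MulAut.conj g).toMonoidHom := by
      apply (closure_le _).mpr
      rintro z (⟨u, hu, rfl⟩ | ⟨u, hu, w, hw, rfl⟩)
      · change g * u ^ p * g⁻¹ ∈ T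
        rw [← conj_pow]
        exact hTpow _ (hgQ u hu)
      · change g * (u * w * u⁻¹ * w⁻¹) * g⁻¹ ∈ T
        have e : g * (u * w * u⁻¹ * w⁻¹) * g⁻¹ =
            (g * u * g⁻¹) * (g * w * g⁻¹) * (g * u * g⁻¹)⁻¹ * (g * w * g⁻¹)⁻¹ := by group
        rw [e]
        exact hTcomm _ (hgQ u hu) _ (hgQ w hw)
    exact hle hx
  have hTc : g ∈ centralizer (T : Set D) := IH T (lt_of_le_of_ne hTQ hTne) hTn
  have hTg : ∀ x ∈ T, g * x = x * g := fun x hx => (Subgroup.mem_centralizer_iff.mp hTc) x hx |>.symm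
  -- Step c: `T` is central in `Q`
  have hTZ : ∀ x ∈ T, ∀ u ∈ Q, x * u = u * x := by
    intro x hx u hu
    have hle : Q ≤ centralizer ({x} : Set D) := by
      rw [← hRQeq]
      apply (closure_le _).mpr
      rintro c ⟨w, hw, rfl⟩
      rw [SetLike.mem_coe, Subgroup.mem_centralizer_iff]
      intro y hy
      rw [Set.mem_singleton_iff] at hy
      rw [hy]
      set z := w⁻¹ * x * w * x⁻¹ with hz
      have hzT : z ∈ T := by
        have := hTcomm w⁻¹ (Q.inv_mem hw) x (hTQ hx)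
        rw [inv_inv] at this
        exact this
      have e1 : x * w * x⁻¹ = w * z := by rw [hz]; group
      have e2 : g * z = z * g := hTg z hzT
      have e3 : g * x = x * g := hTg x hx
      have e4 : x * (g * w * g⁻¹ * w⁻¹) * x⁻¹ = (g * (x * w * x⁻¹) * g⁻¹) * (x * w * x⁻¹)⁻¹ := by
        have e5 : x * g = g * x := e3.symm
        have e6 : x * g⁻¹ = g⁻¹ * x := by
          have : Commute x g := e5
          exact this.inv_right.eq
        calc x * (g * w * g⁻¹ * w⁻¹) * x⁻¹ = (x * g) * w * g⁻¹ * w⁻¹ * x⁻¹ := by group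
          _ = (g * x) * w * g⁻¹ * w⁻¹ * x⁻¹ := by rw [e5]
          _ = g * (x * w) * g⁻¹ * w⁻¹ * x⁻¹ := by group
          _ = g * (x * w) * x⁻¹ * x * g⁻¹ * w⁻¹ * x⁻¹ := by group
          _ = g * (x * w) * x⁻¹ * (x * g⁻¹) * w⁻¹ * x⁻¹ := by group
          _ = g * (x * w) * x⁻¹ * (g⁻¹ * x) * w⁻¹ * x⁻¹ := by rw [e6]
          _ = (g * (x * w * x⁻¹) * g⁻¹) * (x * w * x⁻¹)⁻¹ := by group
      have e7 : g * (w * z) * g⁻¹ * (w * z)⁻¹ = g * w * g⁻¹ * w⁻¹ := by
        calc g * (w * z) * g⁻¹ * (w * z)⁻¹ = g * w * (z * g⁻¹) * z⁻¹ * w⁻¹ := by group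
          _ = g * w * (g⁻¹ * z) * z⁻¹ * w⁻¹ := by
            have : Commute z g := e2.symm
            rw [this.inv_right.eq]
          _ = g * w * g⁻¹ * w⁻¹ := by group
      have e8 : x * (g * w * g⁻¹ * w⁻¹) * x⁻¹ = g * w * g⁻¹ * w⁻¹ := by
        rw [e4, e1, e7]
      calc x * (g * w * g⁻¹ * w⁻¹) = x * (g * w * g⁻¹ * w⁻¹) * x⁻¹ * x := by group
        _ = (g * w * g⁻¹ * w⁻¹) * x := by rw [e8]
    have h1 := hle hu
    rw [Subgroup.mem_centralizer_iff] at h1
    exact (h1 x rfl)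
  -- Step d: exponent `p`
  have hcenQ : ∀ x ∈ T, ∀ (hx' : x ∈ Q), (⟨x, hx'⟩ : Q) ∈ center Q := by
    intro x hx hx'
    rw [Subgroup.mem_center_iff]
    intro u
    exact Subtype.ext (hTZ x hx u u.2).symm
  have hmulpow : ∀ x y : Q, (x * y) ^ p = x ^ p * y ^ p := by
    apply Cfsg.Agent.Lib.OddPGroup.mul_pow_odd (hpp.odd_of_ne_two hp2)
    · intro x
      exact hcenQ _ (hTpow x x.2) _
    · intro x y
      have h1 := hTcomm _ (Q.inv_mem x.2) _ (Q.inv_mem y.2)
      rw [inv_inv, inv_inv] at h1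
      exact hcenQ _ h1 (Subtype.property (x⁻¹ * y⁻¹ * x * y))
  have hmp : ∀ x ∈ Q, ∀ y ∈ Q, (x * y) ^ p = x ^ p * y ^ p := by
    intro x hx y hy
    have := hmulpow ⟨x, hx⟩ ⟨y, hy⟩
    exact congrArg Subtype.val this
  have hexpQ : ∀ u ∈ Q, u ^ p = 1 := by
    let Q₁ : Subgroup D :=
      { carrier := {w | w ∈ Q ∧ w ^ p = 1}
        mul_mem' := by
          rintro a b ⟨ha, ha'⟩ ⟨hb, hb'⟩
          exact ⟨Q.mul_mem ha hb, by rw [hmp a ha b hb, ha', hb', mul_one]⟩
        one_mem' := ⟨Q.one_mem, one_pow _⟩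
        inv_mem' := by
          rintro a ⟨ha, ha'⟩
          exact ⟨Q.inv_mem ha, by rw [inv_pow, ha', inv_one]⟩ }
    have hle : Q ≤ Q₁ := by
      rw [← hRQeq]
      apply (closure_le _).mpr
      rintro c ⟨w, hw, rfl⟩
      refine ⟨hRQ (hgen w hw), ?_⟩
      rw [hmp _ (hgQ w hw) _ (Q.inv_mem hw), conj_pow]
      have h1 : g * w ^ p * g⁻¹ = w ^ p := by
        rw [hTg _ (hTpow w hw), mul_inv_cancel_right]
      rw [h1, inv_pow, mul_inv_cancel]
    intro u hu
    exact (hle hu).2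
  -- Step e, f
  have hle3 : Nat.card Q ≤ p ^ 3 := h.card_le_of_exp hp2 hS hSp hQS hexpQ
  have hmod := card_modEq_fixed hg hgq
  set C : Subgroup D := Q ⊓ centralizer ({g} : Set D) with hC
  have hCQ : C ≤ Q := inf_le_left
  have hCne : C ≠ Q := by
    intro e
    apply hng
    rw [Subgroup.mem_centralizer_iff]
    intro w hw
    rw [← e] at hw
    exact ((Subgroup.mem_centralizer_iff.mp hw.2) g rfl).symm
  have hClt : Nat.card C < Nat.card Q := by
    by_contra hcon
    exact hCne (Subgroup.eq_of_le_of_card_ge hCQ (not_lt.mp hcon))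
  obtain ⟨a, ha⟩ := IsPGroup.iff_card.mp hQp
  obtain ⟨c, hc⟩ := IsPGroup.iff_card.mp (hQp.to_le hCQ)
  rw [ha, hc] at hClt hmod
  rw [ha] at hle3
  have hca : c < a := (Nat.pow_lt_pow_iff_right hpp.one_lt).mp hClt
  have ha3 : a ≤ 3 := (Nat.pow_le_pow_iff_right hpp.one_lt).mp hle3
  have hd : q ∣ p ^ a - p ^ c := (Nat.modEq_iff_dvd' hClt.le).mp hmod.symm
  have hsplit : p ^ a - p ^ c = p ^ c * (p ^ (a - c) - 1) := by
    rw [Nat.mul_sub, mul_one, ← pow_add]
    congr 2
    omega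
  rw [hsplit] at hd
  have hqnp : ¬ q ∣ p ^ c := by
    intro h1
    have h2 := hqp.dvd_of_dvd_pow h1
    have h3 := (Nat.prime_dvd_prime_iff_eq hqp hpp).mp h2
    omega
  have hd' : q ∣ p ^ (a - c) - 1 := ((Nat.Prime.dvd_mul hqp).mp hd).resolve_left hqnp
  obtain ⟨hc1, hc2⟩ := prime_dvd_cases hpp hqp hp2 hpq
  have hcases : a - c = 1 ∨ a - c = 2 ∨ a - c = 3 := by omega
  rcases hcases with h1 | h1 | h1
  · rw [h1, pow_one] at hd'
    exact hc1 hd'
  · rw [h1] at hd'
    exact hc2 hd'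
  · have ha' : a = 3 := by omega
    have hc' : c = 0 := by omega
    rw [hc', pow_zero] at hc
    have hCbot : C = ⊥ := Subgroup.eq_bot_of_card_eq _ hc
    have hT1 : ∀ x ∈ T, x = 1 := by
      intro x hx
      have : x ∈ C := by
        refine ⟨hTQ hx, ?_⟩
        change x ∈ centralizer ({g} : Set D)
        rw [Subgroup.mem_centralizer_iff]
        intro y hy
        rw [Set.mem_singleton_iff] at hy
        rw [hy]
        exact hTg x hx
      rw [hCbot, Subgroup.mem_bot] at this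
      exact this
    refine h.no_rank_three (U := Q) (by rw [ha, ha']) hexpQ ?_
    intro x hx y hy
    have h2 := hT1 _ (hTcomm x hx y hy)
    calc x * y = (x * y * x⁻¹ * y⁻¹) * (y * x) := by group
      _ = y * x := by rw [h2, one_mul]

/-- General element whose order has only prime factors larger than `p`. -/
theorem _root_.Cfsg.Agent.Lib.HuaD1.Min.centralizes (h : Min t s₀) {p : ℕ} [Fact p.Prime] (hp2 : p ≠ 2)
    {S : Subgroup D} (hS : TInv t S) (hSp : IsPGroup p S) :
    ∀ (n : ℕ) (g : D), orderOf g = n → (∀ q : ℕ, q.Prime → q ∣ n → p < q) →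
      ∀ Q : Subgroup D, Q ≤ S → g ∈ normalizer (Q : Set D) → g ∈ centralizer (Q : Set D) := by
  intro n
  induction n using Nat.strong_induction_on with
  | _ n ih =>
  intro g hg hn Q hQS hgQ
  by_cases hn1 : n = 1
  · rw [hn1, orderOf_eq_one_iff] at hg
    rw [hg]
    exact Subgroup.one_mem _
  have hn0 : 0 < n := by
    rw [← hg]
    exact orderOf_pos g
  set q := n.minFac with hq
  have hqp : q.Prime := Nat.minFac_prime hn1
  haveI : Fact q.Prime := ⟨hqp⟩
  have hqn : q ∣ n := Nat.minFac_dvd n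
  obtain ⟨a, b, hab, ha, hb, ⟨k, hk⟩, hbc⟩ := Cfsg.Agent.Lib.PComplement.exists_decomp q g
  have hbn : orderOf b ∣ n := by
    rw [← hg]
    exact orderOf_dvd_of_mem_zpowers hb
  have hblt : orderOf b < n := by
    apply lt_of_le_of_ne (Nat.le_of_dvd hn0 hbn)
    intro e
    rw [e] at hbc
    have := Nat.Coprime.eq_one_of_dvd hbc.symm hqn
    exact hqp.one_lt.ne' this
  have hle : Subgroup.zpowers g ≤ normalizer (Q : Set D) := (Subgroup.zpowers_le).mpr hgQ
  have hbc' := ih _ hblt b rfl (fun r hr hrd => hn r hr (hrd.trans hbn)) Q hQS (hle hb)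
  have hac := h.core hp2 (hn q hqp hqn) hS hSp hk _ Q rfl hQS (hle ha)
  rw [hab]
  exact Subgroup.mul_mem _ hac hbc'

/-- **All `t`-invariant subgroups are solvable.** -/
theorem _root_.Cfsg.Agent.Lib.HuaD1.Min.solvable (h : Min t s₀) :
    ∀ (n : ℕ) (X : Subgroup D), Nat.card X = n → TInv t X → Group.IsSolvable X := by
  intro n
  induction n using Nat.strong_induction_on with
  | _ n ih =>
  intro X hn hX
  by_cases hn1 : n = 1
  · rw [hn1] at hn
    have : Subsingleton X := (Nat.card_eq_one_iff_unique.mp hn).1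
    infer_instance
  have hn0 : 0 < n := by
    rw [← hn]
    exact Nat.card_pos
  set p := n.minFac with hpdef
  have hpp : p.Prime := Nat.minFac_prime hn1
  haveI : Fact p.Prime := ⟨hpp⟩
  have hpn : p ∣ n := Nat.minFac_dvd n
  have hp2 : p ≠ 2 := by
    intro e
    have h1 := h.cfg.inv.odd_sub X
    rw [hn] at h1
    have h2 := Odd.of_dvd_nat h1 hpn
    rw [e] at h2
    exact (Nat.not_even_iff_odd.mpr h2) even_two
  have hbotp : IsPGroup p (⊥ : Subgroup D) := IsPGroup.of_card (n := 0) (by simp)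
  obtain ⟨S, hS, hSt, -⟩ := exists_tinv_sylow_ge h.cfg.inv hX (bot_le) (fun x hx => by
    rw [Subgroup.mem_bot] at hx
    rw [hx, map_one]
    exact Subgroup.one_mem _) hbotp
  let P : Sylow p X := hS.toSylow
  have hPS : ∀ x : X, x ∈ (P : Subgroup X) ↔ (x : D) ∈ S := by
    intro x
    rw [hS.coe_toSylow, Subgroup.mem_subgroupOf]
  have hcrit : ∃ N : Subgroup X, N.Normal ∧ N.IsComplement' (P : Subgroup X) := by
    rw [Cfsg.Agent.Lib.PComplement.frobenius_criterion]
    intro Q hQ g hg hgc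
    have hQ' : Q.map X.subtype ≤ S := by
      rintro _ ⟨x, hx, rfl⟩
      exact (hPS x).mp (hQ hx)
    have hgn : (g : D) ∈ normalizer ((Q.map X.subtype : Subgroup D) : Set D) := by
      rw [mem_normalizer_iff]
      intro y
      constructor
      · rintro ⟨x, hx, rfl⟩
        exact ⟨g * x * g⁻¹, (mem_normalizer_iff.mp hg x).mp hx, rfl⟩
      · rintro ⟨x, hx, hxe⟩
        have hyX : y ∈ X := by
          have h1 : y = (g : D)⁻¹ * x * g := by
            have h2 : (x : D) = g * y * (g : D)⁻¹ := hxe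
            rw [h2]
            group
          rw [h1]
          exact X.mul_mem (X.mul_mem (X.inv_mem g.2) x.2) g.2
        have h3 : g * (⟨y, hyX⟩ : X) * g⁻¹ = x := Subtype.ext hxe.symm
        have h4 : (⟨y, hyX⟩ : X) ∈ Q := by
          rw [mem_normalizer_iff.mp hg ⟨y, hyX⟩, h3]
          exact hx
        exact ⟨⟨y, hyX⟩, h4, rfl⟩
    have hgo : orderOf (g : D) = orderOf g := Subgroup.orderOf_coe g
    have hprimes : ∀ q : ℕ, q.Prime → q ∣ orderOf (g : D) → p < q := by
      intro q hq hqd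
      have h1 : q ∣ n := by
        rw [← hn]
        exact hqd.trans (Subgroup.orderOf_dvd_natCard X g.2)
      have h2 : p ≤ q := Nat.minFac_le_of_dvd hq.two_le h1
      have h3 : q ≠ p := by
        rintro rfl
        rw [hgo] at hqd
        have := Nat.Coprime.eq_one_of_dvd hgc.symm hqd
        exact hq.one_lt.ne' this
      omega
    have hc := h.centralizes hp2 hSt hS.2.1 _ (g : D) rfl hprimes _ hQ' hgn
    rw [Subgroup.mem_centralizer_iff] at hc ⊢
    intro x hx
    apply Subtype.ext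
    exact hc x ⟨x, hx, rfl⟩
  obtain ⟨N, hNn, hNc⟩ := hcrit
  have hmemN : ∀ x : X, x ∈ N ↔ Nat.Coprime (orderOf x) p :=
    fun x => Cfsg.Agent.Lib.TransferCore.mem_of_complement_iff hNc x
  let N' : Subgroup D := N.map X.subtype
  have hN't : TInv t N' := by
    rintro _ ⟨x, hx, rfl⟩
    have hxX : t x ∈ X := hX x x.2
    refine ⟨⟨t x, hxX⟩, (hmemN _).mpr ?_, rfl⟩
    have hx' := (hmemN x).mp hx
    have h1 : orderOf (⟨t x, hxX⟩ : X) = orderOf x := by
      rw [Subgroup.orderOf_mk, MulEquiv.orderOf_eq]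
      exact Subgroup.orderOf_coe x
    rwa [h1]
  have hcardN : Nat.card N' = Nat.card N := by
    exact (Nat.card_congr (N.equivMapOfInjective _ X.subtype_injective).toEquiv).symm
  have hcardsplit : Nat.card N * Nat.card P = n := by
    rw [← hn]
    exact hNc.card_mul
  have hPcard : p ∣ Nat.card P := by
    have h1 : Nat.card P = p ^ (Nat.card X).factorization p := P.card_eq_multiplicity
    rw [h1, hn]
    exact dvd_pow_self p (hpp.factorization_pos_of_dvd hn0.ne' hpn).ne'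
  have hNlt : Nat.card N' < n := by
    rw [hcardN, ← hcardsplit]
    have h1 : 1 < Nat.card P := lt_of_lt_of_le hpp.one_lt (Nat.le_of_dvd Nat.card_pos hPcard)
    have h2 : 0 < Nat.card N := Nat.card_pos
    nlinarith
  haveI hNs' : Group.IsSolvable N' := ih _ hNlt N' rfl hN't
  haveI hNs : Group.IsSolvable N :=
    solvable_of_solvable_injective (f := ((N.equivMapOfInjective _ X.subtype_injective).toMonoidHom))
      (N.equivMapOfInjective _ X.subtype_injective).injective
  have hQcard : Nat.card (X ⧸ N) = Nat.card P := by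
    have h1 := Subgroup.card_mul_index N
    rw [← Subgroup.index_eq_card]
    have h2 : Nat.card N * N.index = Nat.card N * Nat.card P := by
      rw [h1, hn, hcardsplit]
    exact Nat.eq_of_mul_eq_mul_left Nat.card_pos h2
  have hQp : IsPGroup p (X ⧸ N) := by
    apply IsPGroup.of_card (n := (Nat.card X).factorization p)
    rw [hQcard]
    exact P.card_eq_multiplicity
  haveI : Group.IsNilpotent (X ⧸ N) := hQp.isNilpotent
  haveI hQs : Group.IsSolvable (X ⧸ N) := inferInstance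
  exact solvable_of_ker_le_range N.subtype (QuotientGroup.mk' N) (by
    intro x hx
    rw [MonoidHom.mem_ker] at hx
    have h1 : x ∈ N := (QuotientGroup.eq_one_iff x).mp hx
    exact ⟨⟨x, h1⟩, rfl⟩)

end Cfsg.Agent.Lib.HuaF
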