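import Mathlib
import Cfsg.Agent.Lib.HuaF

/-!
# The inverted elements commute
-/

set_option autoImplicit false
set_option linter.unusedSectionVars false
set_option linter.unusedVariables false
set_option linter.style.haveILetI false
set_option linter.unusedSimpArgs false
set_option maxHeartbeats 400000

namespace Cfsg.Agent.Lib.HuaG

open Subgroup Cfsg.Agent.Lib.CoprimeInv Cfsg.Agent.Lib.HuaA Cfsg.Agent.Lib.HuaB Cfsg.Agent.Lib.HuaN
  Cfsg.Agent.Lib.HuaC Cfsg.Agent.Lib.HuaD1 Cfsg.Agent.Lib.HuaD2 Cfsg.Agent.Lib.HuaE Cfsg.Agent.Lib.HuaF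
open scoped commutatorElement

universe u v

variable {D : Type u} {A : Type v} [Group D] [Finite D] [AddCommGroup A] [Finite A]
  [DistribMulAction D A] {t : D ≃* D} {s₀ : A}

/-- Lemma 3: an abelian normal `t`-invariant subgroup meets `V` trivially. -/
theorem _root_.Cfsg.Agent.Lib.HuaD1.Min.ab_V (h : Min t s₀) {M : Subgroup D} (hMn : M.Normal)
    (hMab : ∀ x ∈ M, ∀ y ∈ M, x * y = y * x) : ∀ m ∈ M, IsV t m → m = 1 := by
  let ms : A → Subgroup D := fun a => M ⊓ MulAction.stabilizer D a
  have hms : ∀ {a : A} {x : D}, x ∈ ms a ↔ x ∈ M ∧ x • a = a := by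
    intro a x
    rfl
  have hconj : ∀ (k : D) (a : A), ms (k • a) = cj (ms a) k := by
    intro k a
    ext x
    rw [mem_cj, hms, hms]
    constructor
    · rintro ⟨h1, h2⟩
      refine ⟨?_, ?_⟩
      · have := hMn.conj_mem x h1 k⁻¹
        rwa [inv_inv] at this
      · rw [mul_smul, mul_smul, h2, inv_smul_smul]
    · rintro ⟨h1, h2⟩
      refine ⟨?_, ?_⟩
      · have := hMn.conj_mem _ h1 k
        have e : k * (k⁻¹ * x * k) * k⁻¹ = x := by group
        rwa [e] at this
      · have h3 : x • k • a = k • (k⁻¹ * x * k) • a := by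
          rw [mul_smul, mul_smul, smul_inv_smul]
        rw [h3, h2]
  have hcard : ∀ a : A, a ≠ 0 → Nat.card (ms a) = Nat.card (ms s₀) := by
    intro a ha
    obtain ⟨k, _, rfl⟩ := h.cfg.reg a ha
    rw [hconj, card_cj]
  have hsub : ∀ a b : A, a ≠ 0 → b ≠ 0 → ms a ≤ ms b → ms a = ms b := by
    intro a b ha hb hle
    apply Subgroup.eq_of_le_of_card_ge hle
    rw [hcard a ha, hcard b hb]
  have hchar := h.cfg.char2
  have hsum : ∀ x ∈ M, ∀ a b : A, a ≠ 0 → b ≠ 0 → ms a ≠ ms b → x • (a + b) = a + b → x • a = a ∧ x • b = b := by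
    intro x hx a b ha hb hne hfix
    rw [smul_add] at hfix
    set c := x • a + a with hc
    have hc1 : c = x • b + b := by
      have h1 : x • a + x • b + (a + x • b) = a + b + (a + x • b) := by rw [hfix]
      have h2 : x • a + x • b + (a + x • b) = x • a + a := by
        have h3 := hchar (x • b)
        calc x • a + x • b + (a + x • b) = x • a + a + (x • b + x • b) := by abel
          _ = x • a + a := by rw [h3, add_zero]
      have h4 : a + b + (a + x • b) = x • b + b := by
        have h3 := hchar a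
        calc a + b + (a + x • b) = (a + a) + (x • b + b) := by abel
          _ = x • b + b := by rw [h3, zero_add]
      rw [hc, ← h2, h1, h4]
    have hcfix : ∀ e : A, ∀ y ∈ ms e, y • (x • e + e) = x • e + e := by
      intro e y hy
      have hy' := hms.mp hy
      rw [smul_add, smul_smul, hMab y hy'.1 x hx, mul_smul, hy'.2]
    have hc0 : c = 0 := by
      by_contra hc0
      apply hne
      have h1 : ms a ≤ ms c := by
        intro y hy
        exact hms.mpr ⟨(hms.mp hy).1, hcfix a y hy⟩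
      have h2 : ms b ≤ ms c := by
        intro y hy
        refine hms.mpr ⟨(hms.mp hy).1, ?_⟩
        rw [hc1]
        exact hcfix b y hy
      rw [hsub a c ha hc0 h1, hsub b c hb hc0 h2]
    have hneg : ∀ u v : A, u + v = 0 → u = v := by
      intro u v e
      have h3 := hchar v
      calc u = u + (v + v) := by rw [h3, add_zero]
        _ = (u + v) + v := by abel
        _ = v := by rw [e, zero_add]
    exact ⟨hneg _ _ hc0, hneg _ _ (hc1 ▸ hc0)⟩
  have hall : ∀ a : A, a ≠ 0 → ms a = ms s₀ := by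
    intro a ha
    by_contra hne
    have hab : a + s₀ ≠ 0 := by
      intro e
      have h3 := hchar s₀
      have h4 : a = s₀ := by
        calc a = a + (s₀ + s₀) := by rw [h3, add_zero]
          _ = (a + s₀) + s₀ := by abel
          _ = s₀ := by rw [e, zero_add]
      exact hne (by rw [h4])
    have h1 : ms (a + s₀) ≤ ms a := by
      intro x hx
      have hx' := hms.mp hx
      exact hms.mpr ⟨hx'.1, (hsum x hx'.1 a s₀ ha h.cfg.ne hne hx'.2).1⟩
    have h2 : ms (a + s₀) ≤ ms s₀ := by
      intro x hx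
      have hx' := hms.mp hx
      exact hms.mpr ⟨hx'.1, (hsum x hx'.1 a s₀ ha h.cfg.ne hne hx'.2).2⟩
    exact hne (by rw [← hsub _ _ hab ha h1, ← hsub _ _ hab h.cfg.ne h2])
  intro m hm hmV
  have hk : m ∈ kerAct D A := by
    intro a
    by_cases ha : a = 0
    · rw [ha, smul_zero]
    · have h1 : m ∈ ms s₀ := hms.mpr ⟨hm, h.cfg.fix m hmV⟩
      rw [← hall a ha] at h1
      exact (hms.mp h1).2
  rw [h.faithful, Subgroup.mem_bot] at hk
  exact hk

theorem _root_.Cfsg.Agent.Lib.HuaD1.Min.ab_K (h : Min t s₀) {M : Subgroup D} (hMn : M.Normal) (hMt : TInv t M)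
    (hMab : ∀ x ∈ M, ∀ y ∈ M, x * y = y * x) : ∀ m ∈ M, IsK t m := by
  intro m hm
  have h1 : m * t m = 1 := by
    apply h.ab_V hMn hMab _ (M.mul_mem hm (hMt m hm))
    unfold IsV
    rw [map_mul, h.cfg.inv.tt, hMab _ (hMt m hm) _ hm]
  exact eq_inv_of_mul_eq_one_right h1

theorem _root_.Cfsg.Agent.Lib.HuaD1.Min.ab_comm (h : Min t s₀) {M : Subgroup D} (hMn : M.Normal) (hMt : TInv t M)
    (hMab : ∀ x ∈ M, ∀ y ∈ M, x * y = y * x) : ∀ m ∈ M, ∀ k, IsK t k → k * m = m * k := by
  intro m hm k hk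
  have hK := h.ab_K hMn hMt hMab
  have h1 : IsK t (k * m * k⁻¹) := hK _ (hMn.conj_mem m hm k)
  have hk' : t k = k⁻¹ := hk
  have hm' : t m = m⁻¹ := hK m hm
  unfold IsK at h1
  simp only [map_mul, map_inv, hk', hm', inv_inv, mul_inv_rev] at h1
  have h2 : (k * k) * m⁻¹ = m⁻¹ * (k * k) := by
    calc (k * k) * m⁻¹ = k * (k * (m⁻¹ * k⁻¹)) * k := by group
      _ = k * (k⁻¹ * m⁻¹ * k) * k := by rw [h1]
      _ = m⁻¹ * (k * k) := by group
  have h7 : Commute k m⁻¹ := by
    have := h.cfg.inv.comm_of_sq (x := m⁻¹) (y := k) h2.symm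
    exact this.symm
  have h8 := h7.inv_right
  rw [inv_inv] at h8
  exact h8.eq

/-- The subgroup generated by the inverted elements. -/
def Rsub (t : D ≃* D) : Subgroup D := closure {k | IsK t k}

lemma Rsub_mem {k : D} (hk : IsK t k) : k ∈ Rsub t := subset_closure hk

lemma Rsub_tinv (h : OddInv t) : TInv t (Rsub t) := by
  intro x hx
  have hle : Rsub t ≤ (Rsub t).comap t.toMonoidHom := by
    apply (closure_le _).mpr
    intro k hk
    change t k ∈ Rsub t
    rw [show t k = k⁻¹ from hk]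
    exact (Rsub t).inv_mem (Rsub_mem hk)
  exact hle hx

lemma Rsub_normal (h : OddInv t) : (Rsub t).Normal := by
  have hV : ∀ v, IsV t v → ∀ x ∈ Rsub t, v * x * v⁻¹ ∈ Rsub t := by
    intro v hv x hx
    have hle : Rsub t ≤ (Rsub t).comap (MulAut.conj v).toMonoidHom := by
      apply (closure_le _).mpr
      intro k hk
      change v * k * v⁻¹ ∈ Rsub t
      exact Rsub_mem (hv.conj_K hk)
    exact hle hx
  constructor
  intro x hx g
  obtain ⟨v, k, hv, hk, rfl⟩ := h.decomp g
  have e : v * k * x * (v * k)⁻¹ = v * (k * x * k⁻¹) * v⁻¹ := by group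
  rw [e]
  apply hV v hv
  have hkR := Rsub_mem hk
  exact (Rsub t).mul_mem ((Rsub t).mul_mem hkR hx) ((Rsub t).inv_mem hkR)

/-- The commutator of two inverted elements, if central, is fixed by `t`. -/
lemma comm_fixed {x l c : D} (hx : IsK t x) (hl : IsK t l) (hc : c = x * l * x⁻¹ * l⁻¹)
    (hcx : x * c = c * x) (hcl : l * c = c * l) : IsV t c := by
  have hlK : t l = l⁻¹ := hl
  have hxK : t x = x⁻¹ := hx
  have e1 : x * l * x⁻¹ = c * l := by rw [hc]; group
  have e2 : x⁻¹ * l * x = c⁻¹ * l := by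
    have h3 : x⁻¹ * (x * l * x⁻¹) * x = l := by group
    rw [e1] at h3
    have h4 : x⁻¹ * (c * l) * x = c * (x⁻¹ * l * x) := by
      have h5 : x⁻¹ * c = c * x⁻¹ := by
        have : Commute x c := hcx
        exact this.inv_left.eq
      calc x⁻¹ * (c * l) * x = (x⁻¹ * c) * l * x := by group
        _ = (c * x⁻¹) * l * x := by rw [h5]
        _ = c * (x⁻¹ * l * x) := by group
    rw [h4] at h3
    rw [eq_inv_mul_iff_mul_eq]
    exact h3
  have h6 : x⁻¹ * l⁻¹ * x = (x⁻¹ * l * x)⁻¹ := by group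
  have h7 : (c⁻¹ * l)⁻¹ * l = l⁻¹ * c * l := by group
  have h8 : t c = x⁻¹ * l⁻¹ * x * l := by
    rw [hc]
    simp only [map_mul, map_inv, hlK, hxK, inv_inv]
  unfold IsV
  rw [h8, h6, e2, h7, mul_assoc, ← hcl, ← mul_assoc, inv_mul_cancel, one_mul]

/-- The key step: a normal `t`-invariant subgroup of `R` which is central modulo `Z(R)`. -/
theorem _root_.Cfsg.Agent.Lib.HuaD1.Min.step (h : Min t s₀) {M : Subgroup D} [hMn : M.Normal] (hMt : TInv t M)
    (hMR : M ≤ Rsub t)
    (hZ : ∀ x ∈ M, ∀ y ∈ M, x * y * x⁻¹ * y⁻¹ ∈ Rsub t ⊓ centralizer (Rsub t : Set D)) :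
    ∀ m ∈ M, ∀ g ∈ Rsub t, g * m = m * g := by
  -- the centre of `R`
  let Z : Subgroup D := Rsub t ⊓ centralizer (Rsub t : Set D)
  have hRn : (Rsub t).Normal := Rsub_normal h.cfg.inv
  have hRt := Rsub_tinv h.cfg.inv
  have hZmem : ∀ {z}, z ∈ Z ↔ z ∈ Rsub t ∧ ∀ g ∈ Rsub t, g * z = z * g := by
    intro z
    constructor
    · rintro ⟨h1, h2⟩
      exact ⟨h1, fun g hg => (Subgroup.mem_centralizer_iff.mp h2) g hg⟩
    · rintro ⟨h1, h2⟩
      exact ⟨h1, Subgroup.mem_centralizer_iff.mpr h2⟩
  have hZn : Z.Normal := by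
    constructor
    intro z hz g
    refine hZmem.mpr ⟨hRn.conj_mem z (hZmem.mp hz).1 g, fun r hr => ?_⟩
    have h1 : g⁻¹ * r * g ∈ Rsub t := by
      have := hRn.conj_mem r hr g⁻¹
      rwa [inv_inv] at this
    have h2 := (hZmem.mp hz).2 _ h1
    calc r * (g * z * g⁻¹) = g * ((g⁻¹ * r * g) * z) * g⁻¹ := by group
      _ = g * (z * (g⁻¹ * r * g)) * g⁻¹ := by rw [h2]
      _ = g * z * g⁻¹ * r := by group
  have hZt : TInv t Z := by
    intro z hz
    refine hZmem.mpr ⟨hRt z (hZmem.mp hz).1, fun g hg => ?_⟩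
    have h1 := congrArg t ((hZmem.mp hz).2 (t g) (hRt g hg))
    rwa [map_mul, map_mul, h.cfg.inv.tt] at h1
  have hZab : ∀ x ∈ Z, ∀ y ∈ Z, x * y = y * x := fun x hx y hy =>
    ((hZmem.mp hy).2 x (hZmem.mp hx).1)
  have hZK := h.ab_K hZn hZt hZab
  have hZV := h.ab_V hZn hZab
  -- `M ∩ V = 1`
  have hMV : ∀ c ∈ M, IsV t c → c = 1 := by
    intro c₀ hc₀ hc₀V
    by_contra hc₀1
    set r := (orderOf c₀).minFac with hr
    have hord1 : orderOf c₀ ≠ 1 := fun e => hc₀1 (orderOf_eq_one_iff.mp e)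
    have hrp : r.Prime := Nat.minFac_prime hord1
    haveI : Fact r.Prime := ⟨hrp⟩
    have hrd : r ∣ orderOf c₀ := Nat.minFac_dvd _
    have hr2 : r ≠ 2 := by
      intro e
      have h1 := h.cfg.inv.odd_order c₀
      have h2 := Odd.of_dvd_nat h1 hrd
      rw [e] at h2
      exact (Nat.not_even_iff_odd.mpr h2) even_two
    have hrodd : Odd r := hrp.odd_of_ne_two hr2
    -- the element of order `r`
    set c := c₀ ^ (orderOf c₀ / r) with hc
    have hcM : c ∈ M := M.pow_mem hc₀ _
    have hcV : IsV t c := hc₀V.pow _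
    have hco : orderOf c = r := orderOf_pow_orderOf_div (orderOf_pos c₀).ne' hrd
    have hc1 : c ≠ 1 := by
      intro e
      rw [e, orderOf_one] at hco
      exact hrp.one_lt.ne hco
    -- commutators in `M` are central in `M`
    have hcen : ∀ x ∈ M, ∀ y ∈ M, ∀ g ∈ M, g * (y⁻¹ * x⁻¹ * y * x) = (y⁻¹ * x⁻¹ * y * x) * g := by
      intro x hx y hy g hg
      have h1 := hZ y⁻¹ (M.inv_mem hy) x⁻¹ (M.inv_mem hx)
      rw [inv_inv, inv_inv] at h1
      exact (hZmem.mp h1).2 g (hMR hg)
    have hXmul : ∀ x ∈ M, ∀ y ∈ M, x ^ r = 1 → y ^ r = 1 → (x * y) ^ r = 1 := by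
      intro x hx y hy hxr hyr
      set d : M := (⟨y, hy⟩ : M)⁻¹ * (⟨x, hx⟩ : M)⁻¹ * ⟨y, hy⟩ * ⟨x, hx⟩ with hd
      have hd1 : (⟨y, hy⟩ : M) * ⟨x, hx⟩ = ⟨x, hx⟩ * ⟨y, hy⟩ * d := by rw [hd]; group
      have hd2 : ∀ g : M, g * d = d * g := by
        intro g
        apply Subtype.ext
        exact hcen x hx y hy g g.2
      have h3 := Cfsg.Agent.Lib.OddPGroup.pow_mul_central hd1 hd2 r
      have hyr' : (⟨y, hy⟩ : M) ^ r = 1 := Subtype.ext hyr
      have hxr' : (⟨x, hx⟩ : M) ^ r = 1 := Subtype.ext hxr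
      rw [hyr', one_mul, mul_one] at h3
      have h4 : d ^ r = 1 := by
        have h5 : (⟨x, hx⟩ : M) * 1 = ⟨x, hx⟩ * d ^ r := by rw [mul_one]; exact h3
        exact (mul_left_cancel h5).symm
      have h5 := Cfsg.Agent.Lib.OddPGroup.mul_pow_central hd1 hd2 r
      rw [hxr', hyr', one_mul, one_mul] at h5
      have h6 : r ∣ r.choose 2 := by
        rw [Nat.choose_two_right]
        obtain ⟨s, hs⟩ := hrodd
        have h7 : r * (r - 1) / 2 = r * s := by
          have : r - 1 = 2 * s := by omega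
          rw [this, ← mul_assoc, mul_comm r 2, mul_assoc]
          simp
        rw [h7]
        exact dvd_mul_right r s
      obtain ⟨s', hs'⟩ := h6
      rw [hs', pow_mul, h4, one_pow] at h5
      exact congrArg Subtype.val h5
    let X : Subgroup D :=
      { carrier := {x | x ∈ M ∧ x ^ r = 1}
        mul_mem' := by
          rintro a b ⟨ha, ha'⟩ ⟨hb, hb'⟩
          exact ⟨M.mul_mem ha hb, hXmul a ha b hb ha' hb'⟩
        one_mem' := ⟨M.one_mem, one_pow _⟩
        inv_mem' := by
          rintro a ⟨ha, ha'⟩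
          exact ⟨M.inv_mem ha, by rw [inv_pow, ha', inv_one]⟩ }
    have hX : ∀ {x}, x ∈ X ↔ x ∈ M ∧ x ^ r = 1 := Iff.rfl
    have hXn : X.Normal := by
      constructor
      rintro x ⟨h1, h2⟩ g
      exact ⟨hMn.conj_mem x h1 g, by rw [conj_pow, h2, mul_one, mul_inv_cancel]⟩
    have hXt : TInv t X := by
      rintro x ⟨h1, h2⟩
      exact ⟨hMt x h1, by rw [← map_pow, h2, map_one]⟩
    have hXp : IsPGroup r X := fun x => ⟨1, by
      apply Subtype.ext
      simpa using (hX.mp x.2).2⟩
    -- inverted elements of `X` commute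
    have hKX : ∀ k ∈ KP t X, ∀ l ∈ KP t X, k * l = l * k := by
      intro k hk l hl
      have hk' := mem_KP.mp hk
      have hl' := mem_KP.mp hl
      have hkM := (hX.mp hk'.1).1
      have hlM := (hX.mp hl'.1).1
      have hcZ := hZ k hkM l hlM
      have hcz : k * l * k⁻¹ * l⁻¹ ∈ Z := hcZ
      have h1 : IsV t (k * l * k⁻¹ * l⁻¹) := comm_fixed hk'.2 hl'.2 rfl
        ((hZmem.mp hcz).2 k (hMR hkM)) ((hZmem.mp hcz).2 l (hMR hlM))
      have h2 := hZV _ hcz h1
      calc k * l = (k * l * k⁻¹ * l⁻¹) * (l * k) := by group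
        _ = l * k := by rw [h2, one_mul]
    -- the order of `X`
    let JX : Subgroup D :=
      { carrier := KP t X
        mul_mem' := by
          intro a b ha hb
          have ha' := mem_KP.mp ha
          have hb' := mem_KP.mp hb
          exact mem_KP.mpr ⟨X.mul_mem ha'.1 hb'.1, IsK.mul_comm_of ha'.2 hb'.2 (hKX a ha b hb)⟩
        one_mem' := mem_KP.mpr ⟨X.one_mem, IsK.one⟩
        inv_mem' := by
          intro a ha
          have ha' := mem_KP.mp ha
          exact mem_KP.mpr ⟨X.inv_mem ha'.1, IsK.inv ha'.2⟩ }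
    have hJX : ∀ {x}, x ∈ JX ↔ x ∈ KP t X := Iff.rfl
    haveI hJc : IsCyclic JX := h.cfg.isCyclic_K JX (fun j hj => (mem_KP.mp (hJX.mp hj)).2)
    have hJcard : Nat.card (KP t X) ≤ r := by
      have h1 : Nat.card JX ≤ r := card_le_of_cyclic_exp (fun x => Subtype.ext (hX.mp (mem_KP.mp (hJX.mp x.2)).1).2)
      exact h1
    have hVpX : IsPGroup r (VP t X) := hXp.to_le (fun x hx => (mem_VP.mp hx).1)
    haveI hVc : IsCyclic (VP t X) := h.V_cyclic hr2 hVpX (fun y hy => (mem_VP.mp hy).2)
    have hVcard : Nat.card (VP t X) ≤ r := card_le_of_cyclic_exp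
      (fun x => Subtype.ext (hX.mp (mem_VP.mp x.2).1).2)
    have hXcard : Nat.card X ≤ r ^ 2 := by
      rw [card_decomp h.cfg.inv hXt, sq]
      exact Nat.mul_le_mul hVcard hJcard
    -- hence `X` is abelian
    have hXab : ∀ x ∈ X, ∀ y ∈ X, x * y = y * x := by
      obtain ⟨a, ha⟩ := IsPGroup.iff_card.mp hXp
      have ha2 : a ≤ 2 := by
        rw [ha] at hXcard
        exact (Nat.pow_le_pow_iff_right hrp.one_lt).mp hXcard
      interval_cases a
      · rw [pow_zero] at ha
        have hbot : X = ⊥ := Subgroup.eq_bot_of_card_eq _ ha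
        intro x hx y hy
        rw [hbot, Subgroup.mem_bot] at hx hy
        rw [hx, hy]
      · rw [pow_one] at ha
        haveI : IsCyclic X := isCyclic_of_prime_card ha
        intro x hx y hy
        letI := IsCyclic.commGroup (α := X)
        have := mul_comm (⟨x, hx⟩ : X) ⟨y, hy⟩
        exact congrArg Subtype.val this
      · intro x hx y hy
        exact comm_of_rank_two ha hx hy
    exact hc1 (h.ab_V hXn hXab c ((hX).mpr ⟨hcM, by rw [← hco, pow_orderOf_eq_one]⟩) hcV)
  -- so `M` consists of inverted elements, hence is abelian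
  have hMK : ∀ m ∈ M, IsK t m := by
    intro m hm
    obtain ⟨v, hv, k, hk, hvV, hkK, e⟩ := h.cfg.inv.decomp_mem hMt hm
    rw [e, hMV v hv hvV, one_mul]
    exact hkK
  have hMab : ∀ x ∈ M, ∀ y ∈ M, x * y = y * x := fun x hx y hy => comm_of_subgroup_K hMK hx hy
  have hcomm := h.ab_comm hMn hMt hMab
  intro m hm g hg
  have hle : Rsub t ≤ centralizer ({m} : Set D) := by
    apply (closure_le _).mpr
    intro k hk
    rw [SetLike.mem_coe, Subgroup.mem_centralizer_iff]
    intro y hy
    rw [Set.mem_singleton_iff] at hy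
    rw [hy]
    exact (hcomm m hm k hk).symm
  have h1 := hle hg
  rw [Subgroup.mem_centralizer_iff] at h1
  exact (h1 m rfl).symm

/-- The iterated commutator series of a subgroup. -/
def Sser (R : Subgroup D) : ℕ → Subgroup D
  | 0 => R
  | i + 1 => ⁅Sser R i, Sser R i⁆

/-- **In the faithful minimal situation the inverted elements commute.** -/
theorem _root_.Cfsg.Agent.Lib.HuaD1.Min.main (h : Min t s₀) {k l : D} (hk : IsK t k) (hl : IsK t l) :
    k * l = l * k := by
  have hs : Group.IsSolvable (⊤ : Subgroup D) := h.solvable _ ⊤ rfl (fun _ _ => Subgroup.mem_top _)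
  have hs' : Group.IsSolvable D :=
    solvable_of_solvable_injective (f := (Subgroup.topEquiv (G := D)).symm.toMonoidHom)
      (Subgroup.topEquiv (G := D)).symm.injective
  obtain ⟨n, hn⟩ := (isSolvable_def D).mp hs'
  let S : ℕ → Subgroup D := Sser (Rsub t)
  have hS0 : S 0 = Rsub t := rfl
  have hSs : ∀ i, S (i + 1) = ⁅S i, S i⁆ := fun i => rfl
  have hSn : ∀ i, (S i).Normal := by
    intro i
    induction i with
    | zero => exact Rsub_normal h.cfg.inv
    | succ i ih =>
      rw [hSs]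
      haveI := ih
      exact Subgroup.commutator_normal (S i) (S i)
  have hSt : ∀ i, TInv t (S i) := by
    intro i
    induction i with
    | zero => exact Rsub_tinv h.cfg.inv
    | succ i ih =>
      rw [hSs]
      intro x hx
      have hle : ⁅S i, S i⁆ ≤ (⁅S i, S i⁆).comap t.toMonoidHom := by
        rw [Subgroup.commutator_le]
        intro a ha b hb
        change t ⁅a, b⁆ ∈ ⁅S i, S i⁆
        rw [map_commutatorElement]
        exact Subgroup.commutator_mem_commutator (ih a ha) (ih b hb)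
      exact hle hx
  have hSR : ∀ i, S i ≤ Rsub t := by
    intro i
    induction i with
    | zero => exact le_rfl
    | succ i ih =>
      rw [hSs]
      haveI := hSn i
      exact (Subgroup.commutator_le_left (S i) (S i)).trans ih
  have hSd : ∀ i, S i ≤ derivedSeries D i := by
    intro i
    induction i with
    | zero => exact le_top
    | succ i ih =>
      rw [hSs, derivedSeries_succ]
      exact Subgroup.commutator_mono ih ih
  have hSbot : S n = ⊥ := by
    rw [eq_bot_iff, ← hn]
    exact hSd n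
  have hdown : ∀ j, j ≤ n → S (n - j) ≤ Rsub t ⊓ centralizer (Rsub t : Set D) := by
    intro j
    induction j with
    | zero =>
      intro _
      rw [Nat.sub_zero, hSbot]
      exact bot_le
    | succ j ih =>
      intro hj
      have h1 := ih (by omega)
      have e : n - j = (n - (j + 1)) + 1 := by omega
      rw [e, hSs] at h1
      set M := S (n - (j + 1)) with hM
      have h2 := h.step (M := M) (hMn := hSn _) (hSt _) (hSR _) (fun x hx y hy => by
        apply h1
        have := Subgroup.commutator_mem_commutator hx hy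
        rw [commutatorElement_def] at this
        exact this)
      intro m hm
      exact ⟨hSR _ hm, Subgroup.mem_centralizer_iff.mpr (fun g hg => h2 m hm g hg)⟩
  have h3 := hdown n le_rfl
  rw [Nat.sub_self, hS0] at h3
  have h4 := h3 (Rsub_mem hk)
  exact ((Subgroup.mem_centralizer_iff.mp h4.2) l (Rsub_mem hl)).symm

/-- The inductive step for Theorem X. -/
theorem _root_.Cfsg.Agent.Lib.HuaC.Cfg.step (h : Cfg t s₀) (ih : Hyp.{u, v} (Nat.card D)) {k l : D}
    (hk : IsK t k) (hl : IsK t l) : k * l = l * k := by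
  by_cases hf : kerAct D A = ⊥
  · have hm : Min t s₀ :=
      { cfg := h
        faithful := hf
        comm := fun y hy hy1 k l hk hl hyk hyl => h.comm_of_centr ih hf hy hy1 hk hl hyk hyl }
    exact hm.main hk hl
  · apply h.comm_of_quot (kerAct D A) le_rfl _ hk hl
    intro x y hx hy
    have hN : ∀ n ∈ kerAct D A, IsV t n := fun n hn => h.kerAct_V hn
    have hN' : ∀ n ∈ kerAct D A, ∀ a : A, n • a = a := fun n hn => hn
    letI := quotAct (A := A) (kerAct D A) hN'
    have hc := h.quot (kerAct D A) hN hN'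
    have hlt : Nat.card (D ⧸ kerAct D A) < Nat.card D := by
      have h1 := Subgroup.card_mul_index (kerAct D A)
      rw [Subgroup.index_eq_card] at h1
      have h2 : 1 < Nat.card (kerAct D A) := by
        by_contra hcon
        have h3 : Nat.card (kerAct D A) = 1 := le_antisymm (not_lt.mp hcon) Nat.card_pos
        have h4 := Subgroup.eq_bot_of_card_eq _ h3
        exact hf h4
      have h3 : 0 < Nat.card (D ⧸ kerAct D A) := Nat.card_pos
      rw [← h1]
      nlinarith
    exact ih _ _ _ _ hc hlt x y hx hy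

/-- **Theorem X.** In the configuration, the inverted elements commute. -/
theorem thmX : ∀ n : ℕ, Hyp.{u, v} n := by
  intro n
  induction n with
  | zero =>
    intro D A _ _ _ _ _ t s₀ _ hlt
    exact absurd hlt (Nat.not_lt_zero _)
  | succ n ih =>
    intro D A _ _ _ _ _ t s₀ h hlt k l hk hl
    by_cases h1 : Nat.card D < n
    · exact ih D A t s₀ h h1 k l hk hl
    · have h2 : Nat.card D = n := by omega
      exact h.step (by rw [h2]; exact ih) hk hl

theorem _root_.Cfsg.Agent.Lib.HuaC.Cfg.K_comm (h : Cfg t s₀) {k l : D} (hk : IsK t k) (hl : IsK t l) :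
    k * l = l * k :=
  thmX.{u, v} (Nat.card D + 1) D A t s₀ h (Nat.lt_succ_self _) k l hk hl

end Cfsg.Agent.Lib.HuaG
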