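import Mathlib
import Cfsg.Agent.Lib.HypBlock

/-!
# Existence of invariant hyperbolic subspaces
-/

set_option autoImplicit false
set_option linter.unusedSectionVars false
set_option linter.unusedSimpArgs false
set_option linter.unusedVariables false

universe u v

namespace Cfsg.Agent.Lib.HypBack

open Module QuadraticMap Polynomial Cfsg.Agent.Lib.QuadFF Cfsg.Agent.Lib.IsomBlock Cfsg.Agent.Lib.QuadClass2
open Cfsg.Agent.Lib.QuadClass Cfsg.Agent.Lib.HypEll Cfsg.Agent.Lib.SpTI Cfsg.Agent.Lib.HypBlock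

variable {F : Type*} [Field F] [Fintype F] {V : Type u} [AddCommGroup V] [Module F V] [FiniteDimensional F V]
variable {Q : QuadraticForm F V} {T : V →ₗ[F] V} {r q : ℕ}

/-- Arithmetic for the choice of dimensions. -/
theorem arith_choice {n m c f s : ℕ} (hc : 0 < c) (hn : n = f + c * s) (hmn : m < n)
    (hl : m % c = 0 ∨ m % c < n % c) (hce : Even c) (hme : Even m) :
    ∃ a b, a ≤ s ∧ m = c * a + b ∧ Even b ∧ (b = 0 ∨ (2 ≤ b ∧ b + 1 ≤ f)) ∧ (b = 0 → a = m / c ∧ m % c = 0) := by
  have hmod : n % c = f % c := by rw [hn, Nat.add_mul_mod_self_left]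
  have h1 := Nat.div_add_mod m c
  have hfl := Nat.mod_le f c
  by_cases hcase : m / c ≤ s
  · refine ⟨m / c, m % c, hcase, h1.symm, ?_, ?_, ?_⟩
    · obtain ⟨x, hx⟩ := hce
      obtain ⟨y, hy⟩ := hme
      have h3 : m % c = m - c * (m / c) := by omega
      have h4 : c * (m / c) = 2 * (x * (m / c)) := by rw [hx]; ring
      exact ⟨y - x * (m / c), by omega⟩
    · have h5 : Even (m % c) := by
        obtain ⟨x, hx⟩ := hce
        obtain ⟨y, hy⟩ := hme
        have h4 : c * (m / c) = 2 * (x * (m / c)) := by rw [hx]; ring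
        exact ⟨y - x * (m / c), by omega⟩
      obtain ⟨z, hz⟩ := h5
      rcases hl with h | h
      · exact Or.inl h
      · by_cases h0 : m % c = 0
        · exact Or.inl h0
        · right
          omega
    · intro h
      exact ⟨rfl, h⟩
  · push Not at hcase
    have h3 : c * (s + 1) ≤ c * (m / c) := Nat.mul_le_mul_left c hcase
    rw [mul_add, mul_one] at h3
    refine ⟨s, m - c * s, le_rfl, by omega, ?_, ?_, ?_⟩
    · obtain ⟨x, hx⟩ := hce
      obtain ⟨y, hy⟩ := hme
      have h4 : c * s = 2 * (x * s) := by rw [hx]; ring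
      exact ⟨y - x * s, by omega⟩
    · right
      obtain ⟨x, hx⟩ := hce
      omega
    · intro h
      omega

section odd

variable [hr : Fact r.Prime]

/-- Invariant hyperbolic subspaces, odd `r`. -/
theorem backward_odd (h2 : (2 : F) ≠ 0) (hq : Fintype.card F = q) (hr2 : r ≠ 2) (hrF : (r : F) ≠ 0)
    (hT : ∀ v, Q (T v) = Q v) (hTr : T ^ r = 1) (hnd : NDOn (Bf Q) ⊤) {n m : ℕ} (hn : finrank F V = n)
    (hmn : m < n) (hme : Even m)
    (hcond : (¬ Even (orderOf (q : ZMod r)) ∧ (m % blockDim r q = 0 ∨ m % blockDim r q < n % blockDim r q)) ∨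
      (Even (orderOf (q : ZMod r)) ∧ m % blockDim r q < n % blockDim r q ∧
        (0 < m % blockDim r q ∨ Even (m / orderOf (q : ZMod r))))) :
    ∃ W : Submodule F V, Hyp Q W ∧ finrank F W = m ∧ InvOn T W := by
  have hiso := polar_iso hT
  have hB := good h2 Q
  have hr0 := hr.out.ne_zero
  have hpos : 0 < blockDim r q := blockDim_pos hq hrF
  have hce : Even (blockDim r q) := blockDim_even r q
  have hinvtop : InvOn T ⊤ := fun u _ => trivial
  set C := fixS T (⊤ : Submodule F V) with hC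
  have hCnd : NDOn (Bf Q) C := nd_fixS hB hiso hr0 hrF hTr hnd hinvtop
  have hCfix : ∀ u ∈ C, T u = u := fun u hu => (mem_fixS.1 hu).2
  obtain ⟨s, hs⟩ := finrank_fix_add hq hr2 hrF hB hiso hTr hnd hinvtop
  rw [finrank_top, ← hC, hn] at hs
  set f := finrank F C with hf
  set D := (⊤ : Submodule F V) ⊓ perp (Bf Q) C with hD
  have hCtop : C ≤ ⊤ := le_top
  have hDd := finrank_rel hB hCtop hCnd
  rw [finrank_top, ← hD, hn] at hDd
  have hDnd := nd_rel hB hCtop hCnd hnd
  have hDinv : InvOn T D := inv_inf hinvtop (inv_perp hiso hr0 hTr (inv_fixS ⊤))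
  have hDfree : FixFree T D := by
    intro u hu hfix
    apply hCnd u (mem_fixS.2 ⟨trivial, hfix⟩)
    intro w hw
    exact hB.refl (hu.2 w hw)
  have hl : m % blockDim r q = 0 ∨ m % blockDim r q < n % blockDim r q := by
    rcases hcond with ⟨_, h⟩ | ⟨_, h, _⟩
    · exact h
    · exact Or.inr h
  obtain ⟨a, b, has, hm, hbe, hb, hb0⟩ := arith_choice hpos hs hmn hl hce hme
  obtain ⟨W₁, hW₁D, hW₁nd, hW₁inv, hW₁d⟩ := exists_fpf_sub h2 hq hr2 hrF hT hTr a s D has (by omega) hDnd hDinv hDfree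
  have hW₁free : FixFree T W₁ := fun u hu h => hDfree u (hW₁D hu) h
  -- choosing the fixed part
  have hinvC : ∀ W₀ : Submodule F V, W₀ ≤ C → InvOn T W₀ := by
    intro W₀ h u hu
    rw [hCfix u (h hu)]
    exact hu
  have hfinish : ∀ W₀ : Submodule F V, W₀ ≤ C → finrank F W₀ = b → Hyp Q (W₀ ⊔ W₁) →
      ∃ W : Submodule F V, Hyp Q W ∧ finrank F W = m ∧ InvOn T W := by
    intro W₀ h1 h3 h4
    refine ⟨W₀ ⊔ W₁, h4, ?_, inv_sup (hinvC W₀ h1) hW₁inv⟩
    have horth : Orth Q W₀ W₁ := fun u hu v hv => (hW₁D hv).2 u (h1 hu)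
    have h5 := Submodule.finrank_sup_add_finrank_inf_eq W₀ W₁
    have h6 : W₀ ⊓ W₁ = ⊥ := by
      have := disjoint_of_orth hB hW₁nd (W' := W₀) (fun u hu v hv => horth.symm u hu v hv)
      exact this.symm.eq_bot
    rw [h6, finrank_bot, add_zero, h3, hW₁d] at h5
    omega
  have horthg : ∀ W₀ : Submodule F V, W₀ ≤ C → Orth Q W₀ W₁ := fun W₀ h u hu v hv => (hW₁D hv).2 u (h hu)
  -- hyperbolic fixed parts
  have hhypC : ∃ W₀ ≤ C, Hyp Q W₀ ∧ finrank F W₀ = b := by
    obtain ⟨t, ht⟩ := hbe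
    rcases hb with hb | ⟨hb1, hb2⟩
    · exact ⟨⊥, bot_le, hyp_bot Q, by simp [hb]⟩
    · obtain ⟨W₀, h1, h3, h4⟩ := exists_hyp_sub h2 Q t C hCnd (by omega)
      exact ⟨W₀, h1, h3, by omega⟩
  by_cases hev : Even (orderOf (q : ZMod r))
  · have hci : blockDim r q = orderOf (q : ZMod r) := by
      unfold blockDim
      rw [if_pos hev]
    rcases Nat.even_or_odd a with hae | hao
    · obtain ⟨W₀, h1, h3, h4⟩ := hhypC
      have hty := (type_fpf_even h2 hq hr2 hrF hT hTr hev a W₁ (by rw [hW₁d, hci]) hW₁nd hW₁inv hW₁free).1 hae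
      exact hfinish W₀ h1 h4 (hyp_sup h2 h3 hty (horthg W₀ h1))
    · have hty := (type_fpf_even h2 hq hr2 hrF hT hTr hev a W₁ (by rw [hW₁d, hci]) hW₁nd hW₁inv hW₁free).2 hao
      have hb0' : b ≠ 0 := by
        intro h0
        obtain ⟨h5, h6⟩ := hb0 h0
        rcases hcond with ⟨h7, _⟩ | ⟨_, _, h7⟩
        · exact h7 hev
        · rcases h7 with h7 | h7
          · omega
          · rw [← hci, ← h5] at h7
            exact (Nat.not_even_iff_odd.2 hao) h7
      rcases hb with hb | ⟨hb1, hb2⟩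
      · exact absurd hb hb0'
      · obtain ⟨t, ht⟩ := hbe
        obtain ⟨t', rfl⟩ : ∃ t', t = t' + 1 := ⟨t - 1, by omega⟩
        obtain ⟨W₀, h1, h3, h4⟩ := exists_ell_sub h2 Q t' hCnd (by omega)
        exact hfinish W₀ h1 (by omega) (ell_sup_ell h2 h3 hty (horthg W₀ h1))
  · obtain ⟨W₀, h1, h3, h4⟩ := hhypC
    have hty := type_fpf_odd h2 hq hr2 hrF hT hTr hev _ W₁ rfl hW₁nd hW₁inv hW₁free
    exact hfinish W₀ h1 h4 (hyp_sup h2 h3 hty (horthg W₀ h1))

end odd

section two

/-- The main combinatorics for involutions. -/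
theorem two_aux (h2 : (2 : F) ≠ 0) {X Y : Submodule F V} (hX : NDOn (Bf Q) X) (hY : NDOn (Bf Q) Y) (hXY : Orth Q X Y)
    {h g A : ℕ} (hXd : finrank F X = 2 * h + 1) (hYd : finrank F Y = 2 * g) (hA : A ≤ h + g) :
    ∃ WX ≤ X, ∃ WY ≤ Y, Hyp Q (WX ⊔ WY) ∧ finrank F (WX ⊔ WY : Submodule F V) = 2 * A := by
  by_cases hAh : A ≤ h
  · obtain ⟨W, h1, h3, h4⟩ := exists_hyp_sub h2 Q A X hX (by omega)
    exact ⟨W, h1, ⊥, bot_le, by rw [sup_bot_eq]; exact h3, by rw [sup_bot_eq]; exact h4⟩
  push Not at hAh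
  obtain ⟨a, rfl⟩ : ∃ a, A = h + a := ⟨A - h, by omega⟩
  obtain ⟨WX, h1, h3, h4⟩ := exists_hyp_sub h2 Q h X hX (by omega)
  have hdims : ∀ WY ≤ Y, finrank F WY = 2 * a → finrank F (WX ⊔ WY : Submodule F V) = 2 * (h + a) := by
    intro WY hWY hd
    rw [finrank_sup_of_orth h2 h3.1 (hXY.mono h1 hWY), h4, hd]
    ring
  by_cases hag : a < g
  · obtain ⟨WY, h5, h6, h7⟩ := exists_hyp_sub h2 Q a Y hY (by omega)
    exact ⟨WX, h1, WY, h5, hyp_sup h2 h3 h6 (hXY.mono h1 h5), hdims WY h5 h7⟩
  obtain rfl : a = g := by omega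
  rcases hyp_or_ell h2 Q a Y hYd hY with hHY | hEY
  · exact ⟨WX, h1, Y, le_rfl, hyp_sup h2 h3 hHY (hXY.mono h1 le_rfl), hdims Y le_rfl hYd⟩
  · rcases h with _ | h
    · -- `X` is a line
      obtain ⟨P, H, hP, hH, hPH, rfl⟩ := hEY
      obtain ⟨x, hx, hx0⟩ : ∃ x ∈ X, x ≠ 0 := by
        haveI : Nontrivial X := Module.nontrivial_of_finrank_pos (R := F) (by omega)
        obtain ⟨v, hv⟩ := exists_ne (0 : X)
        exact ⟨v, v.2, fun h0 => hv (Subtype.ext h0)⟩
      have hXline : ∀ w ∈ X, ∃ c : F, c • x = w := by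
        intro w hw
        have h5 := (finrank_eq_one_iff_of_nonzero' (⟨x, hx⟩ : X) (fun h0 => hx0 (congrArg Subtype.val h0))).1 (by omega) ⟨w, hw⟩
        obtain ⟨c, hc⟩ := h5
        exact ⟨c, congrArg Subtype.val hc⟩
      have hQx : Q x ≠ 0 := by
        intro h0
        apply hx0
        apply hX x hx
        intro w hw
        obtain ⟨c, rfl⟩ := hXline w hw
        rw [Bf_apply, polar_sm_r, polar_self_eq, h0]
        simp
      have hPnd := nd_of_ani h2 hP
      obtain ⟨⟨u, hu⟩, huv⟩ := exists_value (Q := restr Q P) (nd_restr hPnd) (by rw [hP.2]) (- Q x)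
      have huv' : Q u = - Q x := huv
      have hpol : polar Q x u = 0 := hXY x hx u (Submodule.mem_sup_left hu)
      have hindep : ∀ s t : F, s • x + t • u = 0 → s = 0 ∧ t = 0 := by
        intro s t hst
        have e1 := congrArg (polar Q x) hst
        rw [polar_add_right, polar_sm_r, polar_sm_r, hpol, polar_self_eq, polar_zero_right] at e1
        have e2 := congrArg (polar Q u) hst
        rw [polar_add_right, polar_sm_r, polar_sm_r, polar_comm Q u x, hpol, polar_self_eq, huv', polar_zero_right] at e2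
        have hs : s = 0 := by
          have : s * (2 * Q x) = 0 := by linear_combination e1
          exact (mul_eq_zero.1 this).resolve_right (mul_ne_zero h2 hQx)
        have ht : t = 0 := by
          have : t * (2 * Q x) = 0 := by linear_combination -e2
          exact (mul_eq_zero.1 this).resolve_right (mul_ne_zero h2 hQx)
        exact ⟨hs, ht⟩
      have hplane : Hyp Q (Submodule.span F {x, u}) := by
        refine ⟨?_, Submodule.span F {x + u}, ?_, ?_, ?_⟩
        · intro z hz h0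
          obtain ⟨s, t, rfl⟩ := Submodule.mem_span_pair.1 hz
          have e1 := h0 x (Submodule.subset_span (by simp))
          have e2 := h0 u (Submodule.subset_span (by simp))
          rw [Bf_apply, polar_add_left, polar_sm_l, polar_sm_l, polar_self_eq, polar_comm Q u x, hpol] at e1
          rw [Bf_apply, polar_add_left, polar_sm_l, polar_sm_l, polar_self_eq, hpol, huv'] at e2
          have hs : s = 0 := by
            have : s * (2 * Q x) = 0 := by linear_combination e1
            exact (mul_eq_zero.1 this).resolve_right (mul_ne_zero h2 hQx)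
          have ht : t = 0 := by
            have : t * (2 * Q x) = 0 := by linear_combination -e2
            exact (mul_eq_zero.1 this).resolve_right (mul_ne_zero h2 hQx)
          rw [hs, ht]
          simp
        · rw [Submodule.span_singleton_le_iff_mem]
          exact Submodule.add_mem _ (Submodule.subset_span (by simp)) (Submodule.subset_span (by simp))
        · intro v hv
          obtain ⟨c, rfl⟩ := Submodule.mem_span_singleton.1 hv
          rw [Q_sm, Q_ad, huv', hpol]
          ring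
        · rw [finrank_pair hindep, finrank_span_singleton]
          intro h0
          have := hindep 1 1 (by simpa using h0)
          exact one_ne_zero this.1
      have hHX : Orth Q X H := hXY.mono le_rfl le_sup_right
      have hPHu : Orth Q (Submodule.span F {x, u}) H := by
        intro z hz w hw
        obtain ⟨s, t, rfl⟩ := Submodule.mem_span_pair.1 hz
        rw [polar_add_left, polar_sm_l, polar_sm_l, hHX x hx w hw, hPH u hu w hw]
        ring
      have hXle : Submodule.span F {x} ≤ X := by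
        rw [Submodule.span_singleton_le_iff_mem]
        exact hx
      have hWeq : Submodule.span F {x} ⊔ (Submodule.span F {u} ⊔ H) = Submodule.span F {x, u} ⊔ H := by
        rw [Submodule.span_insert, sup_assoc]
      refine ⟨Submodule.span F {x}, hXle, Submodule.span F {u} ⊔ H, ?_, ?_, ?_⟩
      · apply sup_le_sup _ le_rfl
        rw [Submodule.span_singleton_le_iff_mem]
        exact hu
      · rw [hWeq]
        exact hyp_sup h2 hplane hH hPHu
      · rw [hWeq, finrank_sup_of_orth h2 hplane.1 hPHu, finrank_pair hindep]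
        have := finrank_sup_of_orth h2 hPnd hPH
        rw [hP.2] at this
        omega
    · obtain ⟨WX', h5, h6, h7⟩ := exists_ell_sub h2 Q h hX (by omega)
      refine ⟨WX', h5, Y, le_rfl, ell_sup_ell h2 h6 hEY (hXY.mono h5 le_rfl), ?_⟩
      rw [finrank_sup_of_orth h2 (h6.nd h2) (hXY.mono h5 le_rfl), h7, hYd]
      ring

/-- Invariant hyperbolic subspaces for involutions. -/
theorem backward_two (h2 : (2 : F) ≠ 0) (hT : ∀ v, Q (T v) = Q v) (hT2 : ∀ v, T (T v) = v) (hnd : NDOn (Bf Q) ⊤) {d A : ℕ}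
    (hn : finrank F V = 2 * d + 1) (hA : A ≤ d) :
    ∃ W : Submodule F V, Hyp Q W ∧ finrank F W = 2 * A ∧ InvOn T W := by
  have hiso := polar_iso hT
  have h2' : IsUnit (2 : F) := isUnit_iff_ne_zero.2 h2
  set X₁ : Submodule F V := LinearMap.ker (T - LinearMap.id) with hX₁
  set X₂ : Submodule F V := LinearMap.ker (T + LinearMap.id) with hX₂
  have hm₁ : ∀ v, v ∈ X₁ ↔ T v = v := by
    intro v
    simp [hX₁, sub_eq_zero]
  have hm₂ : ∀ v, v ∈ X₂ ↔ T v = -v := by
    intro v
    simp [hX₂, add_eq_zero_iff_eq_neg]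
  have horth : Orth Q X₁ X₂ := by
    intro u hu w hw
    have e := hiso u w
    rw [(hm₁ u).1 hu, (hm₂ w).1 hw, Bf_apply, Bf_apply, polar_neg_right] at e
    have : 2 * polar Q u w = 0 := by linear_combination -e
    exact (mul_eq_zero.1 this).resolve_left h2
  have hsplit : ∀ y : V, ∃ a ∈ X₁, ∃ b ∈ X₂, a + b = y := by
    intro y
    refine ⟨(2 : F)⁻¹ • (y + T y), ?_, (2 : F)⁻¹ • (y - T y), ?_, ?_⟩
    · rw [hm₁, map_smul, map_add, hT2, add_comm]
    · rw [hm₂, map_smul, map_sub, hT2, ← smul_neg, neg_sub]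
    · rw [← smul_add]
      have : y + T y + (y - T y) = (2 : F) • y := by
        rw [two_smul]
        abel
      rw [this, smul_smul, inv_mul_cancel₀ h2, one_smul]
  have hnd₁ : NDOn (Bf Q) X₁ := by
    intro u hu h0
    apply hnd u trivial
    intro y _
    obtain ⟨a, ha, b, hb, rfl⟩ := hsplit y
    rw [map_add, h0 a ha, show Bf Q u b = 0 from horth u hu b hb, add_zero]
  have hnd₂ : NDOn (Bf Q) X₂ := by
    intro u hu h0
    apply hnd u trivial
    intro y _
    obtain ⟨a, ha, b, hb, rfl⟩ := hsplit y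
    rw [map_add, h0 b hb, add_zero]
    exact horth.symm u hu a ha
  have htop : X₁ ⊔ X₂ = ⊤ := by
    rw [eq_top_iff]
    intro y _
    obtain ⟨a, ha, b, hb, rfl⟩ := hsplit y
    exact Submodule.add_mem_sup ha hb
  have hdim : finrank F X₁ + finrank F X₂ = 2 * d + 1 := by
    rw [← finrank_sup_of_orth h2 hnd₁ horth, htop, finrank_top, hn]
  have hinv₁ : ∀ W ≤ X₁, InvOn T W := by
    intro W hW u hu
    rw [(hm₁ u).1 (hW hu)]
    exact hu
  have hinv₂ : ∀ W ≤ X₂, InvOn T W := by
    intro W hW u hu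
    rw [(hm₂ u).1 (hW hu)]
    exact W.neg_mem hu
  rcases Nat.even_or_odd (finrank F X₁) with ⟨g, hg⟩ | ⟨h', hh⟩
  · obtain ⟨h', hh⟩ : ∃ h', finrank F X₂ = 2 * h' + 1 := by
      refine ⟨d - g, ?_⟩
      omega
    obtain ⟨WX, h1, WY, h3, h4, h5⟩ := two_aux h2 hnd₂ hnd₁ horth.symm hh (g := g) (by omega) (A := A) (by omega)
    exact ⟨_, h4, h5, inv_sup (hinv₂ _ h1) (hinv₁ _ h3)⟩
  · obtain ⟨g, hg⟩ : ∃ g, finrank F X₂ = 2 * g := by
      refine ⟨d - h', ?_⟩
      omega
    obtain ⟨WX, h1, WY, h3, h4, h5⟩ := two_aux h2 hnd₁ hnd₂ horth hh hg (A := A) (by omega)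
    exact ⟨_, h4, h5, inv_sup (hinv₁ _ h1) (hinv₂ _ h3)⟩

end two

end Cfsg.Agent.Lib.HypBack
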