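import Mathlib
import Cfsg.Agent.Lib.HypBack

/-!
# Existence of invariant elliptic subspaces
-/

set_option autoImplicit false
set_option linter.unusedSectionVars false
set_option linter.unusedSimpArgs false
set_option linter.unusedVariables false

universe u v

namespace Cfsg.Agent.Lib.HypBackE

open Module QuadraticMap Polynomial Cfsg.Agent.Lib.QuadFF Cfsg.Agent.Lib.IsomBlock Cfsg.Agent.Lib.QuadClass2
open Cfsg.Agent.Lib.QuadClass Cfsg.Agent.Lib.HypEll Cfsg.Agent.Lib.SpTI Cfsg.Agent.Lib.HypBlock Cfsg.Agent.Lib.HypBack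

variable {F : Type*} [Field F] [Fintype F] {V : Type u} [AddCommGroup V] [Module F V] [FiniteDimensional F V]
variable {Q : QuadraticForm F V} {T : V →ₗ[F] V} {r q : ℕ}

section odd

variable [hr : Fact r.Prime]

/-- Invariant elliptic subspaces, odd `r`. -/
theorem backward_odd_ell (h2 : (2 : F) ≠ 0) (hq : Fintype.card F = q) (hr2 : r ≠ 2) (hrF : (r : F) ≠ 0)
    (hT : ∀ v, Q (T v) = Q v) (hTr : T ^ r = 1) (hnd : NDOn (Bf Q) ⊤) {n m : ℕ} (hn : finrank F V = n)
    (hmn : m < n) (hme : Even m)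
    (hcond : (¬ Even (orderOf (q : ZMod r)) ∧ 0 < m % blockDim r q ∧ m % blockDim r q < n % blockDim r q) ∨
      (Even (orderOf (q : ZMod r)) ∧ m % blockDim r q < n % blockDim r q ∧
        (0 < m % blockDim r q ∨ Odd (m / orderOf (q : ZMod r))))) :
    ∃ W : Submodule F V, Ell Q W ∧ finrank F W = m ∧ InvOn T W := by
  have hiso := polar_iso hT
  have hB := good h2 Q
  have hr0 := hr.out.ne_zero
  have hpos : 0 < blockDim r q := blockDim_pos hq hrF
  have hce : Even (blockDim r q) := blockDim_even r q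
  have hinvtop : InvOn T ⊤ := fun u _ => trivial
  set C := fixS T (⊤ : Submodule F V) with hC
  have hCnd : NDOn (Bf Q) C := nd_fixS hB hiso hr0 hrF hTr hnd hinvtop
  have hCfix : ∀ u ∈ C, T u = u := fun u hu => (mem_fixS.1 hu).2
  obtain ⟨s, hs⟩ := finrank_fix_add hq hr2 hrF hB hiso hTr hnd hinvtop
  rw [finrank_top, ← hC, hn] at hs
  set f := finrank F C with hf
  set D := (⊤ : Submodule F V) ⊓ perp (Bf Q) C with hD
  have hCtop : C ≤ ⊤ := le_top
  have hDd := finrank_rel hB hCtop hCnd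
  rw [finrank_top, ← hD, hn] at hDd
  have hDnd := nd_rel hB hCtop hCnd hnd
  have hDinv : InvOn T D := inv_inf hinvtop (inv_perp hiso hr0 hTr (inv_fixS ⊤))
  have hDfree : FixFree T D := by
    intro u hu hfix
    apply hCnd u (mem_fixS.2 ⟨trivial, hfix⟩)
    intro w hw
    exact hB.refl (hu.2 w hw)
  have hl : m % blockDim r q = 0 ∨ m % blockDim r q < n % blockDim r q := by
    rcases hcond with ⟨_, _, h⟩ | ⟨_, h, _⟩
    · exact Or.inr h
    · exact Or.inr h
  obtain ⟨a, b, has, hm, hbe, hb, hb0⟩ := arith_choice hpos hs hmn hl hce hme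
  obtain ⟨W₁, hW₁D, hW₁nd, hW₁inv, hW₁d⟩ := exists_fpf_sub h2 hq hr2 hrF hT hTr a s D has (by omega) hDnd hDinv hDfree
  have hW₁free : FixFree T W₁ := fun u hu h => hDfree u (hW₁D hu) h
  -- choosing the fixed part
  have hinvC : ∀ W₀ : Submodule F V, W₀ ≤ C → InvOn T W₀ := by
    intro W₀ h u hu
    rw [hCfix u (h hu)]
    exact hu
  have hfinish : ∀ W₀ : Submodule F V, W₀ ≤ C → finrank F W₀ = b → Ell Q (W₀ ⊔ W₁) →
      ∃ W : Submodule F V, Ell Q W ∧ finrank F W = m ∧ InvOn T W := by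
    intro W₀ h1 h3 h4
    refine ⟨W₀ ⊔ W₁, h4, ?_, inv_sup (hinvC W₀ h1) hW₁inv⟩
    have horth : Orth Q W₀ W₁ := fun u hu v hv => (hW₁D hv).2 u (h1 hu)
    have h5 := Submodule.finrank_sup_add_finrank_inf_eq W₀ W₁
    have h6 : W₀ ⊓ W₁ = ⊥ := by
      have := disjoint_of_orth hB hW₁nd (W' := W₀) (fun u hu v hv => horth.symm u hu v hv)
      exact this.symm.eq_bot
    rw [h6, finrank_bot, add_zero, h3, hW₁d] at h5
    omega
  have horthg : ∀ W₀ : Submodule F V, W₀ ≤ C → Orth Q W₀ W₁ := fun W₀ h u hu v hv => (hW₁D hv).2 u (h hu)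
  -- hyperbolic fixed parts
  have hhypC : ∃ W₀ ≤ C, Hyp Q W₀ ∧ finrank F W₀ = b := by
    obtain ⟨t, ht⟩ := hbe
    rcases hb with hb | ⟨hb1, hb2⟩
    · exact ⟨⊥, bot_le, hyp_bot Q, by simp [hb]⟩
    · obtain ⟨W₀, h1, h3, h4⟩ := exists_hyp_sub h2 Q t C hCnd (by omega)
      exact ⟨W₀, h1, h3, by omega⟩
  -- elliptic fixed parts
  have hellC : b ≠ 0 → ∃ W₀ ≤ C, Ell Q W₀ ∧ finrank F W₀ = b := by
    intro hb0'
    rcases hb with hb | ⟨hb1, hb2⟩
    · exact absurd hb hb0'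
    · obtain ⟨t, ht⟩ := hbe
      obtain ⟨t', rfl⟩ : ∃ t', t = t' + 1 := ⟨t - 1, by omega⟩
      obtain ⟨W₀, h1, h3, h4⟩ := exists_ell_sub h2 Q t' hCnd (by omega)
      exact ⟨W₀, h1, h3, by omega⟩
  by_cases hev : Even (orderOf (q : ZMod r))
  · have hci : blockDim r q = orderOf (q : ZMod r) := by
      unfold blockDim
      rw [if_pos hev]
    rcases Nat.even_or_odd a with hae | hao
    · have hty := (type_fpf_even h2 hq hr2 hrF hT hTr hev a W₁ (by rw [hW₁d, hci]) hW₁nd hW₁inv hW₁free).1 hae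
      have hb0' : b ≠ 0 := by
        intro h0
        obtain ⟨h5, h6⟩ := hb0 h0
        rcases hcond with ⟨h7, _⟩ | ⟨_, _, h7⟩
        · exact h7 hev
        · rcases h7 with h7 | h7
          · omega
          · rw [← hci, ← h5] at h7
            exact (Nat.not_even_iff_odd.2 h7) hae
      obtain ⟨W₀, h1, h3, h4⟩ := hellC hb0'
      exact hfinish W₀ h1 h4 (ell_sup_hyp h2 h3 hty (horthg W₀ h1))
    · have hty := (type_fpf_even h2 hq hr2 hrF hT hTr hev a W₁ (by rw [hW₁d, hci]) hW₁nd hW₁inv hW₁free).2 hao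
      obtain ⟨W₀, h1, h3, h4⟩ := hhypC
      refine hfinish W₀ h1 h4 ?_
      rw [sup_comm]
      exact ell_sup_hyp h2 hty h3 (horthg W₀ h1).symm
  · have hty := type_fpf_odd h2 hq hr2 hrF hT hTr hev _ W₁ rfl hW₁nd hW₁inv hW₁free
    have hb0' : b ≠ 0 := by
      intro h0
      obtain ⟨h5, h6⟩ := hb0 h0
      rcases hcond with ⟨_, h7, _⟩ | ⟨h7, _⟩
      · omega
      · exact hev h7
    obtain ⟨W₀, h1, h3, h4⟩ := hellC hb0'
    exact hfinish W₀ h1 h4 (ell_sup_hyp h2 h3 hty (horthg W₀ h1))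

end odd

section two

/-- The main combinatorics for involutions. -/
theorem two_aux_ell (h2 : (2 : F) ≠ 0) {X Y : Submodule F V} (hX : NDOn (Bf Q) X) (hY : NDOn (Bf Q) Y) (hXY : Orth Q X Y)
    {h g A : ℕ} (hXd : finrank F X = 2 * h + 1) (hYd : finrank F Y = 2 * g) (hA1 : 1 ≤ A) (hA : A ≤ h + g) :
    ∃ WX ≤ X, ∃ WY ≤ Y, Ell Q (WX ⊔ WY) ∧ finrank F (WX ⊔ WY : Submodule F V) = 2 * A := by
  by_cases hAh : A ≤ h
  · obtain ⟨A', rfl⟩ : ∃ A', A = A' + 1 := ⟨A - 1, by omega⟩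
    obtain ⟨W, h1, h3, h4⟩ := exists_ell_sub h2 Q A' hX (by omega)
    exact ⟨W, h1, ⊥, bot_le, by rw [sup_bot_eq]; exact h3, by rw [sup_bot_eq]; exact h4⟩
  push Not at hAh
  obtain ⟨a, rfl⟩ : ∃ a, A = h + a := ⟨A - h, by omega⟩
  rcases h with _ | h
  · -- `X` is a line
    rw [Nat.zero_add] at hA hA1 hAh ⊢
    by_cases hag : a < g
    · obtain ⟨a', rfl⟩ : ∃ a', a = a' + 1 := ⟨a - 1, by omega⟩
      obtain ⟨W, h1, h3, h4⟩ := exists_ell_sub h2 Q a' hY (by omega)
      exact ⟨⊥, bot_le, W, h1, by rw [bot_sup_eq]; exact h3, by rw [bot_sup_eq]; exact h4⟩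
    obtain rfl : a = g := by omega
    obtain ⟨g', rfl⟩ : ∃ g', a = g' + 1 := ⟨a - 1, by omega⟩
    obtain ⟨H, hHY, hH, hHd⟩ := exists_hyp_sub h2 Q g' Y hY (by omega)
    have hB := good h2 Q
    have h3 := finrank_rel hB hHY hH.1
    have h4 := nd_rel hB hHY hH.1 hY
    set P := Y ⊓ perp (Bf Q) H with hP
    have hPd : finrank F P = 2 := by omega
    obtain ⟨x, hx, hx0⟩ : ∃ x ∈ X, x ≠ 0 := by
      haveI : Nontrivial X := Module.nontrivial_of_finrank_pos (R := F) (by omega)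
      obtain ⟨v, hv⟩ := exists_ne (0 : X)
      exact ⟨v, v.2, fun h0 => hv (Subtype.ext h0)⟩
    have hXline : ∀ w ∈ X, ∃ c : F, c • x = w := by
      intro w hw
      have h5 := (finrank_eq_one_iff_of_nonzero' (⟨x, hx⟩ : X) (fun h0 => hx0 (congrArg Subtype.val h0))).1 (by omega) ⟨w, hw⟩
      obtain ⟨c, hc⟩ := h5
      exact ⟨c, congrArg Subtype.val hc⟩
    have hQx : Q x ≠ 0 := by
      intro h0
      apply hx0
      apply hX x hx
      intro w hw
      obtain ⟨c, rfl⟩ := hXline w hw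
      rw [Bf_apply, polar_sm_r, polar_self_eq, h0]
      simp
    obtain ⟨δ, hδ⟩ := FiniteField.exists_nonsquare (F := F) (by
      intro h
      apply h2
      have := ringChar.Nat.cast_ringChar (R := F)
      rw [h] at this
      exact_mod_cast this)
    obtain ⟨⟨u, hu⟩, huv⟩ := exists_value (Q := restr Q P) (nd_restr h4) (by omega) (-(Q x * δ))
    have huv' : Q u = -(Q x * δ) := huv
    have hpol : polar Q x u = 0 := hXY x hx u hu.1
    have hval : ∀ s t : F, Q (s • x + t • u) = Q x * (s ^ 2 - δ * t ^ 2) := by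
      intro s t
      rw [Q_ad, Q_sm, Q_sm, huv', polar_sm_l, polar_sm_r, hpol]
      ring
    have hani : ∀ s t : F, Q (s • x + t • u) = 0 → s = 0 ∧ t = 0 := by
      intro s t h0
      rw [hval] at h0
      have h5 : s ^ 2 = δ * t ^ 2 := by
        have := (mul_eq_zero.1 h0).resolve_left hQx
        linear_combination this
      have ht : t = 0 := by
        by_contra ht
        apply hδ
        refine ⟨s / t, ?_⟩
        field_simp
        rw [pow_two] at h5
        linear_combination -h5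
      refine ⟨?_, ht⟩
      rw [ht] at h5
      simpa using h5
    have hindep : ∀ s t : F, s • x + t • u = 0 → s = 0 ∧ t = 0 := by
      intro s t h0
      apply hani
      rw [h0]
      simp
    have hplane : Ani Q (Submodule.span F {x, u}) := by
      refine ⟨?_, finrank_pair hindep⟩
      intro v hv h0
      obtain ⟨s, t, rfl⟩ := Submodule.mem_span_pair.1 hv
      obtain ⟨h5, h6⟩ := hani s t h0
      rw [h5, h6]
      simp
    have hPHu : Orth Q (Submodule.span F {x, u}) H := by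
      intro z hz w hw
      obtain ⟨s, t, rfl⟩ := Submodule.mem_span_pair.1 hz
      have e2 : polar Q u w = 0 := by
        have := hB.refl (hu.2 w hw)
        exact this
      rw [polar_add_left, polar_sm_l, polar_sm_l, hXY x hx w (hHY hw), e2]
      ring
    have hXle : Submodule.span F {x} ≤ X := by
      rw [Submodule.span_singleton_le_iff_mem]
      exact hx
    have hWeq : Submodule.span F {x} ⊔ (Submodule.span F {u} ⊔ H) = Submodule.span F {x, u} ⊔ H := by
      rw [Submodule.span_insert, sup_assoc]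
    refine ⟨Submodule.span F {x}, hXle, Submodule.span F {u} ⊔ H, ?_, ?_, ?_⟩
    · apply sup_le _ hHY
      rw [Submodule.span_singleton_le_iff_mem]
      exact hu.1
    · rw [hWeq]
      exact ⟨_, H, hplane, hH, hPHu, rfl⟩
    · rw [hWeq, finrank_sup_of_orth h2 (nd_of_ani h2 hplane) hPHu, hplane.2, hHd]
      ring
  · obtain ⟨WX, h1, h3, h4⟩ := exists_ell_sub h2 Q h hX (by omega)
    have hdims : ∀ WY ≤ Y, finrank F WY = 2 * a → finrank F (WX ⊔ WY : Submodule F V) = 2 * (h + 1 + a) := by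
      intro WY hWY hd
      rw [finrank_sup_of_orth h2 (h3.nd h2) (hXY.mono h1 hWY), h4, hd]
      ring
    by_cases hag : a < g
    · obtain ⟨WY, h5, h6, h7⟩ := exists_hyp_sub h2 Q a Y hY (by omega)
      exact ⟨WX, h1, WY, h5, ell_sup_hyp h2 h3 h6 (hXY.mono h1 h5), hdims WY h5 h7⟩
    obtain rfl : a = g := by omega
    rcases hyp_or_ell h2 Q a Y hYd hY with hHY | hEY
    · exact ⟨WX, h1, Y, le_rfl, ell_sup_hyp h2 h3 hHY (hXY.mono h1 le_rfl), hdims Y le_rfl hYd⟩
    · obtain ⟨WX', h5, h6, h7⟩ := exists_hyp_sub h2 Q (h + 1) X hX (by omega)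
      refine ⟨WX', h5, Y, le_rfl, ?_, ?_⟩
      · rw [sup_comm]
        exact ell_sup_hyp h2 hEY h6 (hXY.mono h5 le_rfl).symm
      · rw [finrank_sup_of_orth h2 h6.1 (hXY.mono h5 le_rfl), h7, hYd]
        ring

/-- Invariant elliptic subspaces for involutions. -/
theorem backward_two_ell (h2 : (2 : F) ≠ 0) (hT : ∀ v, Q (T v) = Q v) (hT2 : ∀ v, T (T v) = v) (hnd : NDOn (Bf Q) ⊤) {d A : ℕ}
    (hn : finrank F V = 2 * d + 1) (hA1 : 1 ≤ A) (hA : A ≤ d) :
    ∃ W : Submodule F V, Ell Q W ∧ finrank F W = 2 * A ∧ InvOn T W := by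
  have hiso := polar_iso hT
  have h2' : IsUnit (2 : F) := isUnit_iff_ne_zero.2 h2
  set X₁ : Submodule F V := LinearMap.ker (T - LinearMap.id) with hX₁
  set X₂ : Submodule F V := LinearMap.ker (T + LinearMap.id) with hX₂
  have hm₁ : ∀ v, v ∈ X₁ ↔ T v = v := by
    intro v
    simp [hX₁, sub_eq_zero]
  have hm₂ : ∀ v, v ∈ X₂ ↔ T v = -v := by
    intro v
    simp [hX₂, add_eq_zero_iff_eq_neg]
  have horth : Orth Q X₁ X₂ := by
    intro u hu w hw
    have e := hiso u w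
    rw [(hm₁ u).1 hu, (hm₂ w).1 hw, Bf_apply, Bf_apply, polar_neg_right] at e
    have : 2 * polar Q u w = 0 := by linear_combination -e
    exact (mul_eq_zero.1 this).resolve_left h2
  have hsplit : ∀ y : V, ∃ a ∈ X₁, ∃ b ∈ X₂, a + b = y := by
    intro y
    refine ⟨(2 : F)⁻¹ • (y + T y), ?_, (2 : F)⁻¹ • (y - T y), ?_, ?_⟩
    · rw [hm₁, map_smul, map_add, hT2, add_comm]
    · rw [hm₂, map_smul, map_sub, hT2, ← smul_neg, neg_sub]
    · rw [← smul_add]
      have : y + T y + (y - T y) = (2 : F) • y := by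
        rw [two_smul]
        abel
      rw [this, smul_smul, inv_mul_cancel₀ h2, one_smul]
  have hnd₁ : NDOn (Bf Q) X₁ := by
    intro u hu h0
    apply hnd u trivial
    intro y _
    obtain ⟨a, ha, b, hb, rfl⟩ := hsplit y
    rw [map_add, h0 a ha, show Bf Q u b = 0 from horth u hu b hb, add_zero]
  have hnd₂ : NDOn (Bf Q) X₂ := by
    intro u hu h0
    apply hnd u trivial
    intro y _
    obtain ⟨a, ha, b, hb, rfl⟩ := hsplit y
    rw [map_add, h0 b hb, add_zero]
    exact horth.symm u hu a ha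
  have htop : X₁ ⊔ X₂ = ⊤ := by
    rw [eq_top_iff]
    intro y _
    obtain ⟨a, ha, b, hb, rfl⟩ := hsplit y
    exact Submodule.add_mem_sup ha hb
  have hdim : finrank F X₁ + finrank F X₂ = 2 * d + 1 := by
    rw [← finrank_sup_of_orth h2 hnd₁ horth, htop, finrank_top, hn]
  have hinv₁ : ∀ W ≤ X₁, InvOn T W := by
    intro W hW u hu
    rw [(hm₁ u).1 (hW hu)]
    exact hu
  have hinv₂ : ∀ W ≤ X₂, InvOn T W := by
    intro W hW u hu
    rw [(hm₂ u).1 (hW hu)]
    exact W.neg_mem hu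
  rcases Nat.even_or_odd (finrank F X₁) with ⟨g, hg⟩ | ⟨h', hh⟩
  · obtain ⟨h', hh⟩ : ∃ h', finrank F X₂ = 2 * h' + 1 := by
      refine ⟨d - g, ?_⟩
      omega
    obtain ⟨WX, h1, WY, h3, h4, h5⟩ := two_aux_ell h2 hnd₂ hnd₁ horth.symm hh (g := g) (by omega) hA1 (A := A) (by omega)
    exact ⟨_, h4, h5, inv_sup (hinv₂ _ h1) (hinv₁ _ h3)⟩
  · obtain ⟨g, hg⟩ : ∃ g, finrank F X₂ = 2 * g := by
      refine ⟨d - h', ?_⟩
      omega
    obtain ⟨WX, h1, WY, h3, h4, h5⟩ := two_aux_ell h2 hnd₁ hnd₂ horth hh hg hA1 (A := A) (by omega)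
    exact ⟨_, h4, h5, inv_sup (hinv₁ _ h1) (hinv₂ _ h3)⟩

end two

end Cfsg.Agent.Lib.HypBackE
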