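import Mathlib
import Cfsg.Agent.Lib.HypEll
import Cfsg.Agent.Lib.OrthoCount

/-!
# Counting hyperbolic subspaces of odd-dimensional quadratic spaces
-/

set_option autoImplicit false
set_option linter.unusedSectionVars false
set_option linter.unusedSimpArgs false
set_option linter.unusedVariables false
set_option linter.style.haveILetI false

universe u v

namespace Cfsg.Agent.Lib.HypCount

open Module QuadraticMap Cfsg.Agent.Lib.QuadFF Cfsg.Agent.Lib.IsomBlock Cfsg.Agent.Lib.QuadClass2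
open Cfsg.Agent.Lib.QuadClass Cfsg.Agent.Lib.HypEll Cfsg.Agent.Lib.OrthoCount

variable {F : Type*} [Field F] [Fintype F] {V : Type u} [AddCommGroup V] [Module F V] [FiniteDimensional F V]

/-- The decomposition with respect to a hyperbolic pair. -/
def hypEquiv {Q : QuadraticForm F V} {e f : V} (h : IsHyp Q e f) : V ≃ F × F × perp2 Q e f where
  toFun v := (polar Q f v, polar Q e v, ⟨v - polar Q f v • e - polar Q e v • f, h.decomp v⟩)
  invFun p := p.1 • e + p.2.1 • f + (p.2.2 : V)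
  left_inv v := by
    simp only
    abel
  right_inv := by
    rintro ⟨a, b, w⟩
    have hw := mem_perp2.1 w.2
    have h1 : polar Q f e = 1 := by rw [polar_comm]; exact h.vw
    have h3 : polar Q e e = 0 := by rw [polar_self_eq, h.Qv]; simp
    have h4 : polar Q f f = 0 := by rw [polar_self_eq, h.Qw]; simp
    have e1 : polar Q f (a • e + b • f + (w : V)) = a := by
      rw [polar_add_right, polar_add_right, polar_sm_r, polar_sm_r, h1, h4, hw.2]
      ring
    have e2 : polar Q e (a • e + b • f + (w : V)) = b := by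
      rw [polar_add_right, polar_add_right, polar_sm_r, polar_sm_r, h3, h.vw, hw.1]
      ring
    simp only [e1, e2]
    refine Prod.ext rfl (Prod.ext rfl (Subtype.ext ?_))
    simp only
    abel

theorem Q_hypEquiv {Q : QuadraticForm F V} {e f : V} (h : IsHyp Q e f) (v : V) :
    Q v = (hypEquiv h v).1 * (hypEquiv h v).2.1 + Q ((hypEquiv h v).2.2 : V) := by
  have hv := (hypEquiv h).symm_apply_apply v
  generalize hp : hypEquiv h v = p at hv ⊢
  obtain ⟨a, b, w⟩ := p
  have hw := mem_perp2.1 w.2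
  change a • e + b • f + (w : V) = v at hv
  rw [← hv, Q_ad, Q_ad, Q_sm, Q_sm, h.Qv, h.Qw, polar_sm_l, polar_sm_r, h.vw, polar_add_left, polar_sm_l, polar_sm_l,
    hw.1, hw.2]
  simp only
  ring

/-- The number of zeros in odd dimension. -/
theorem zeros_odd_abs : ∀ (D : ℕ) (V : Type u) [AddCommGroup V] [Module F V] [FiniteDimensional F V] (Q : QuadraticForm F V),
    ND Q → finrank F V = 2 * D + 1 → Nat.card {v // Q v = 0} = Fintype.card F ^ (2 * D) := by
  intro D
  induction D with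
  | zero =>
    intro V _ _ _ Q hQ hV
    rw [mul_zero, pow_zero, Nat.card_eq_one_iff_unique]
    refine ⟨⟨?_⟩, ⟨⟨0, QuadraticMap.map_zero _⟩⟩⟩
    -- a line
    obtain ⟨x, hx0⟩ : ∃ x : V, x ≠ 0 := by
      haveI : Nontrivial V := Module.nontrivial_of_finrank_pos (R := F) (by omega)
      exact exists_ne 0
    have hspan : ∀ w : V, ∃ c : F, c • x = w :=
      (finrank_eq_one_iff_of_nonzero' x hx0).1 (by omega)
    have hQx : Q x ≠ 0 := by
      intro h0
      apply hx0
      apply hQ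
      intro w
      obtain ⟨c, rfl⟩ := hspan w
      rw [polar_sm_r, polar_self_eq, h0]
      simp
    have hz : ∀ v : {v // Q v = 0}, v = ⟨0, QuadraticMap.map_zero _⟩ := by
      rintro ⟨v, hv⟩
      apply Subtype.ext
      obtain ⟨c, rfl⟩ := hspan v
      rw [Q_sm] at hv
      have : c ^ 2 = 0 := (mul_eq_zero.1 hv).resolve_right hQx
      have : c = 0 := pow_eq_zero_iff (by norm_num) |>.1 this
      simp [this]
    intro a b
    rw [hz a, hz b]
  | succ D ih =>
    intro V _ _ _ Q hQ hV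
    obtain ⟨e, he0, hQe⟩ := exists_singular Q (by omega)
    obtain ⟨f, hf⟩ := exists_hyp_partner hQ he0 hQe
    have hperp := hf.finrank_perp2
    have hnd := hf.ND_perp2 hQ
    have h1 := ih (perp2 Q e f) (restr Q (perp2 Q e f)) hnd (by omega)
    have hfin : Finite (perp2 Q e f) := Module.finite_of_finite F
    have h3 := natCard_hyp_fibre (F := F) (W := perp2 Q e f) (fun w => Q w) 0
    have h4 : Nat.card {v // Q v = 0} = Nat.card {p : F × F × perp2 Q e f // p.1 * p.2.1 + Q (p.2.2 : V) = 0} := by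
      apply Nat.card_congr
      refine (hypEquiv hf).subtypeEquiv ?_
      intro v
      rw [Q_hypEquiv hf v]
    have h1' : Nat.card {w : perp2 Q e f // Q (w : V) = 0} = Fintype.card F ^ (2 * D) := h1
    rw [h4, h3, h1', Module.natCard_eq_pow_finrank (K := F) (V := perp2 Q e f), Nat.card_eq_fintype_card]
    have hdim : finrank F (perp2 Q e f) = 2 * D + 1 := by omega
    rw [hdim]
    obtain ⟨q', hq'⟩ : ∃ q', Fintype.card F = q' + 1 := ⟨Fintype.card F - 1, by
      have := Fintype.card_pos (α := F)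
      omega⟩
    rw [hq']
    simp only [Nat.add_sub_cancel]
    ring

/-- Hyperbolic pairs in a subspace. -/
def HP (Q : QuadraticForm F V) (U : Submodule F V) : Type u := {p : V × V // p.1 ∈ U ∧ p.2 ∈ U ∧ IsHyp Q p.1 p.2}

/-- Hyperbolic subspaces of given dimension in a subspace. -/
def HS (Q : QuadraticForm F V) (U : Submodule F V) (A : ℕ) : Type u :=
  {W : Submodule F V // W ≤ U ∧ Hyp Q W ∧ finrank F W = 2 * A}

theorem card_partners (h2 : (2 : F) ≠ 0) {Q : QuadraticForm F V} {U : Submodule F V} (hU : NDOn (Bf Q) U) {e : V} (he : e ∈ U)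
    (he0 : e ≠ 0) (hQe : Q e = 0) :
    Nat.card {f : V // f ∈ U ∧ IsHyp Q e f} = Fintype.card F ^ (finrank F U - 2) := by
  obtain ⟨f₀, hf₀, hef⟩ := exists_partner_rel hU he he0 hQe
  obtain ⟨hP, hPd⟩ := hyp_plane h2 hef
  set P := Submodule.span F {e, f₀} with hPdef
  have heP : e ∈ P := Submodule.subset_span (by simp)
  have hfP : f₀ ∈ P := Submodule.subset_span (by simp)
  have hPU : P ≤ U := Submodule.span_le.2 (by
    rintro x (rfl | rfl)
    · exact he
    · exact hf₀)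
  have h1 := finrank_rel (good h2 Q) hPU hP.1
  rw [hPd] at h1
  set U₁ := U ⊓ perp (Bf Q) P with hU₁
  have hee : polar Q e e = 0 := by rw [polar_self_eq, hQe]; simp
  have hff : polar Q f₀ f₀ = 0 := by rw [polar_self_eq, hef.Qw]; simp
  have hfe : polar Q f₀ e = 1 := by rw [polar_comm]; exact hef.vw
  have hmem : ∀ w : U₁, polar Q e (w : V) = 0 ∧ polar Q f₀ (w : V) = 0 := fun w =>
    ⟨w.2.2 e heP, w.2.2 f₀ hfP⟩
  have hQf : ∀ w : U₁, Q (f₀ + (w : V) - Q (w : V) • e) = 0 := by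
    intro w
    rw [sub_eq_add_neg, ← neg_smul, Q_ad, Q_ad, Q_sm, hef.Qw, hQe, (hmem w).2, polar_sm_r, polar_add_left, hfe, polar_comm Q (w : V) e,
      (hmem w).1]
    ring
  have hpol : ∀ w : U₁, polar Q e (f₀ + (w : V) - Q (w : V) • e) = 1 := by
    intro w
    rw [QuadraticMap.polar_sub_right, polar_add_right, polar_sm_r, hef.vw, (hmem w).1, hee]
    ring
  let g : U₁ → {f : V // f ∈ U ∧ IsHyp Q e f} := fun w =>
    ⟨f₀ + (w : V) - Q (w : V) • e, U.sub_mem (U.add_mem hf₀ w.2.1) (U.smul_mem _ he), hQe, hQf w, hpol w⟩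
  have hg : ∀ w, (g w : V) = f₀ + (w : V) - Q (w : V) • e := fun w => rfl
  have hinj : Function.Injective g := by
    intro w w' h
    have h3 : f₀ + (w : V) - Q (w : V) • e = f₀ + (w' : V) - Q (w' : V) • e := congrArg Subtype.val h
    have h4 := congrArg (polar Q f₀) h3
    rw [QuadraticMap.polar_sub_right, QuadraticMap.polar_sub_right, polar_add_right, polar_add_right, polar_sm_r, polar_sm_r,
      (hmem w).2, (hmem w').2, hfe, hff] at h4
    have h5 : Q (w : V) = Q (w' : V) := by linear_combination -h4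
    rw [h5] at h3
    apply Subtype.ext
    have h6 : (w : V) = w' := by
      have := congrArg (fun z => z + Q (w' : V) • e - f₀) h3
      simpa [add_sub_cancel_left] using this
    exact h6
  have hsurj : Function.Surjective g := by
    rintro ⟨f, hfU, hf⟩
    set α := polar Q f₀ f with hα
    set w₀ := f - f₀ - α • e with hw₀
    have hw₀e : polar Q e w₀ = 0 := by
      rw [hw₀, QuadraticMap.polar_sub_right, QuadraticMap.polar_sub_right, polar_sm_r, hf.vw, hef.vw, hee]
      ring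
    have hw₀f : polar Q f₀ w₀ = 0 := by
      rw [hw₀, QuadraticMap.polar_sub_right, QuadraticMap.polar_sub_right, polar_sm_r, hff, hfe, ← hα]
      ring
    have hw₀U : w₀ ∈ U₁ := by
      refine ⟨U.sub_mem (U.sub_mem hfU hf₀) (U.smul_mem _ he), ?_⟩
      intro z hz
      obtain ⟨a, b, rfl⟩ := Submodule.mem_span_pair.1 hz
      show polar Q (a • e + b • f₀) w₀ = 0
      rw [polar_add_left, polar_sm_l, polar_sm_l, hw₀e, hw₀f]
      ring
    have hdec : f = f₀ + α • e + w₀ := by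
      rw [hw₀]
      abel
    have hQw : Q w₀ = -α := by
      have h3 := hf.Qw
      rw [hdec, Q_ad, Q_ad, Q_sm, hef.Qw, hQe, polar_sm_r, hfe, polar_add_left, polar_sm_l, hw₀f, hw₀e] at h3
      linear_combination h3
    refine ⟨⟨w₀, hw₀U⟩, Subtype.ext ?_⟩
    rw [hg]
    simp only
    rw [hQw, neg_smul]
    conv_rhs => rw [hdec]
    abel
  rw [← Nat.card_congr (Equiv.ofBijective g ⟨hinj, hsurj⟩), Module.natCard_eq_pow_finrank (K := F) (V := U₁), Nat.card_eq_fintype_card]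
  congr 1
  omega

theorem card_HP (h2 : (2 : F) ≠ 0) {Q : QuadraticForm F V} {U : Submodule F V} (hU : NDOn (Bf Q) U) :
    Nat.card (HP Q U) = (Nat.card {v : U // restr Q U v = 0} - 1) * Fintype.card F ^ (finrank F U - 2) := by
  classical
  haveI : Finite V := Module.finite_of_finite F
  let Z := {e : V // e ∈ U ∧ e ≠ 0 ∧ Q e = 0}
  haveI : Fintype Z := Fintype.ofFinite Z
  let E : HP Q U ≃ Σ e : Z, {f : V // f ∈ U ∧ IsHyp Q e.1 f} :=
    { toFun := fun p => ⟨⟨p.1.1, p.2.1, hyp_ne_zero p.2.2.2, p.2.2.2.Qv⟩, ⟨p.1.2, p.2.2.1, p.2.2.2⟩⟩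
      invFun := fun x => ⟨(x.1.1, x.2.1), x.1.2.1, x.2.2.1, x.2.2.2⟩
      left_inv := fun p => rfl
      right_inv := fun x => rfl }
  rw [Nat.card_congr E, Nat.card_sigma]
  have hc : ∀ e : Z, Nat.card {f : V // f ∈ U ∧ IsHyp Q e.1 f} = Fintype.card F ^ (finrank F U - 2) :=
    fun e => card_partners h2 hU e.2.1 e.2.2.1 e.2.2.2
  simp only [hc, Finset.sum_const, Finset.card_univ, smul_eq_mul]
  congr 1
  -- the number of nonzero singular vectors
  let z₀ : {v : U // restr Q U v = 0} := ⟨0, QuadraticMap.map_zero _⟩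
  have h1 : Nat.card {v : U // restr Q U v = 0} = Nat.card {b : {v : U // restr Q U v = 0} // b ≠ z₀} + 1 := by
    rw [← Nat.card_congr (Equiv.optionSubtypeNe z₀), Finite.card_option]
  let E2 : Z ≃ {b : {v : U // restr Q U v = 0} // b ≠ z₀} :=
    { toFun := fun e => ⟨⟨⟨e.1, e.2.1⟩, e.2.2.2⟩, fun h => e.2.2.1 (congrArg (fun z : {v : U // restr Q U v = 0} => (z.1 : V)) h)⟩
      invFun := fun b => ⟨b.1.1.1, b.1.1.2, fun h => b.2 (Subtype.ext (Subtype.ext h)), b.1.2⟩
      left_inv := fun e => rfl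
      right_inv := fun b => rfl }
  rw [h1, Nat.add_sub_cancel, ← Nat.card_congr E2, Nat.card_eq_fintype_card]

/-- The count of hyperbolic pairs in odd dimension. -/
theorem card_HP_odd (h2 : (2 : F) ≠ 0) {Q : QuadraticForm F V} {U : Submodule F V} (hU : NDOn (Bf Q) U) {D : ℕ}
    (hd : finrank F U = 2 * (D + 1) + 1) :
    Nat.card (HP Q U) = (Fintype.card F ^ (2 * (D + 1)) - 1) * Fintype.card F ^ (2 * D + 1) := by
  rw [card_HP h2 hU, zeros_odd_abs (D + 1) U (restr Q U) (nd_restr hU) hd, hd]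
  congr 2

/-- The count of hyperbolic pairs in a hyperbolic space. -/
noncomputable def hpc (F : Type*) [Field F] [Fintype F] (a : ℕ) : ℕ :=
  (Nat.card {w : Fin (a + 1) ⊕ Fin (a + 1) → F // qPlus (a + 1) F w = 0} - 1) * Fintype.card F ^ (2 * a)

theorem hpc_pos (a : ℕ) : 0 < hpc F a := by
  have hq : 1 < Fintype.card F := Fintype.one_lt_card
  have h1 : (Nat.card {w : Fin (a + 1) ⊕ Fin (a + 1) → F // qPlus (a + 1) F w = 0} : ℤ) = _ := zeros_plus_succ (F := F) a
  have h3 : (1 : ℤ) < Nat.card {w : Fin (a + 1) ⊕ Fin (a + 1) → F // qPlus (a + 1) F w = 0} := by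
    rw [h1]
    have hq' : (2 : ℤ) ≤ Fintype.card F := by exact_mod_cast hq
    have h4 : (2 : ℤ) ^ 1 ≤ (Fintype.card F : ℤ) ^ (2 * a + 1) :=
      (pow_le_pow_left₀ (by norm_num) hq' 1).trans (pow_le_pow_right₀ (by omega) (by omega))
    have h5 : (Fintype.card F : ℤ) ^ a ≤ (Fintype.card F : ℤ) ^ (a + 1) := pow_le_pow_right₀ (by omega) (by omega)
    norm_num at h4
    linarith
  have h4 : 1 < Nat.card {w : Fin (a + 1) ⊕ Fin (a + 1) → F // qPlus (a + 1) F w = 0} := by exact_mod_cast h3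
  unfold hpc
  apply Nat.mul_pos (by omega)
  exact pow_pos (by omega) _

theorem card_HP_hyp (h2 : (2 : F) ≠ 0) {Q : QuadraticForm F V} {W : Submodule F V} (hW : Hyp Q W) {a : ℕ}
    (hd : finrank F W = 2 * (a + 1)) : Nat.card (HP Q W) = hpc F a := by
  obtain ⟨hnd, S, hSW, hS, hSd⟩ := hW
  obtain ⟨b, hb⟩ := hyp_of_ts (Q := restr Q W) hd (nd_restr hnd) (S.comap W.subtype) (fun v hv => hS _ hv)
    (by rw [finrank_comap_of_le hSW]; omega)
  obtain ⟨E, hE⟩ := iso_qPlus_of_hyp hb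
  rw [card_HP h2 hnd, natCard_fibre_congr E hE 0, hd]
  unfold hpc
  congr 2

/-- The fibre over a hyperbolic pair. -/
theorem card_fibre (h2 : (2 : F) ≠ 0) [Finite V] {Q : QuadraticForm F V} {U : Submodule F V} {e f : V} (he : e ∈ U) (hf : f ∈ U)
    (hef : IsHyp Q e f) (A : ℕ) :
    Nat.card {W : HS Q U (A + 1) // e ∈ W.1 ∧ f ∈ W.1} =
      Nat.card (HS Q (U ⊓ perp (Bf Q) (Submodule.span F {e, f})) A) := by
  obtain ⟨hP, hPd⟩ := hyp_plane h2 hef
  set P := Submodule.span F {e, f} with hPdef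
  have heP : e ∈ P := Submodule.subset_span (by simp)
  have hfP : f ∈ P := Submodule.subset_span (by simp)
  have hPU : P ≤ U := Submodule.span_le.2 (by
    rintro x (rfl | rfl)
    · exact he
    · exact hf)
  refine Nat.card_congr ⟨fun W => ⟨W.1.1 ⊓ perp (Bf Q) P, ?_⟩, fun W' => ⟨⟨P ⊔ W'.1, ?_⟩, ?_⟩, ?_, ?_⟩
  · obtain ⟨⟨W, hWU, hW, hWd⟩, heW, hfW⟩ := W
    have hPW : P ≤ W := Submodule.span_le.2 (by
      rintro x (rfl | rfl)
      · exact heW
      · exact hfW)
    have h1 := finrank_rel (good h2 Q) hPW hP.1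
    have h3 : finrank F (W ⊓ perp (Bf Q) P : Submodule F V) = 2 * A := by omega
    refine ⟨inf_le_inf_right _ hWU, ?_, h3⟩
    rcases hyp_or_ell h2 Q A _ h3 (nd_rel (good h2 Q) hPW hP.1 hW.1) with h4 | h4
    · exact h4
    · exfalso
      apply not_hyp_of_ell h2 (W := W)
      · rw [← sup_rel (good h2 Q) hPW hP.1, sup_comm]
        exact ell_sup_hyp h2 h4 hP (fun u hu v hv => hu.2 v hv |> fun h => by rwa [polar_comm])
      · exact hW
  · obtain ⟨W', hW'U, hW', hW'd⟩ := W'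
    have horth : Orth Q P W' := fun u hu v hv => (hW'U hv).2 u hu
    refine ⟨sup_le hPU (hW'U.trans inf_le_left), hyp_sup h2 hP hW' horth, ?_⟩
    rw [finrank_sup_of_orth h2 hP.1 horth, hPd, hW'd]
    ring
  · exact ⟨Submodule.mem_sup_left heP, Submodule.mem_sup_left hfP⟩
  · rintro ⟨⟨W, hWU, hW, hWd⟩, heW, hfW⟩
    have hPW : P ≤ W := Submodule.span_le.2 (by
      rintro x (rfl | rfl)
      · exact heW
      · exact hfW)
    apply Subtype.ext
    apply Subtype.ext
    exact sup_rel (good h2 Q) hPW hP.1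
  · rintro ⟨W', hW'U, hW', hW'd⟩
    apply Subtype.ext
    show (P ⊔ W') ⊓ perp (Bf Q) P = W'
    have h3 : W' ≤ perp (Bf Q) P := hW'U.trans inf_le_right
    rw [sup_comm, sup_inf_assoc_of_le _ h3, (isCompl_perp (good h2 Q) hP.1).inf_eq_bot, sup_bot_eq]

/-- Double counting. -/
theorem rec_count (h2 : (2 : F) ≠ 0) {Q : QuadraticForm F V} {U : Submodule F V} {a A c' : ℕ}
    (hc' : ∀ p : HP Q U, Nat.card (HS Q (U ⊓ perp (Bf Q) (Submodule.span F {p.1.1, p.1.2})) A) = c') :
    (∀ W : HS Q U (A + 1), Nat.card (HP Q W.1) = a) → Nat.card (HS Q U (A + 1)) * a = Nat.card (HP Q U) * c' := by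
  classical
  intro ha
  haveI : Finite V := Module.finite_of_finite F
  haveI : Finite (HS Q U (A + 1)) := Subtype.finite
  haveI : Fintype (HS Q U (A + 1)) := Fintype.ofFinite _
  haveI : Finite (HP Q U) := Subtype.finite
  haveI : Fintype (HP Q U) := Fintype.ofFinite _
  haveI : ∀ W : Submodule F V, Finite (HP Q W) := fun W => Subtype.finite
  let E : (Σ W : HS Q U (A + 1), HP Q W.1) ≃ Σ p : HP Q U, {W : HS Q U (A + 1) // p.1.1 ∈ W.1 ∧ p.1.2 ∈ W.1} :=
    { toFun := fun x => ⟨⟨x.2.1, x.1.2.1 x.2.2.1, x.1.2.1 x.2.2.2.1, x.2.2.2.2⟩, ⟨x.1, x.2.2.1, x.2.2.2.1⟩⟩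
      invFun := fun y => ⟨y.2.1, ⟨y.1.1, y.2.2.1, y.2.2.2, y.1.2.2.2⟩⟩
      left_inv := fun x => rfl
      right_inv := fun y => rfl }
  have h1 := Nat.card_congr E
  rw [Nat.card_sigma, Nat.card_sigma] at h1
  simp only [ha] at h1
  have h3 : ∀ p : HP Q U, Nat.card {W : HS Q U (A + 1) // p.1.1 ∈ W.1 ∧ p.1.2 ∈ W.1} = c' := by
    intro p
    rw [card_fibre h2 p.2.1 p.2.2.1 p.2.2.2 A, hc' p]
  simp only [h3, Finset.sum_const, Finset.card_univ, smul_eq_mul] at h1
  rw [Nat.card_eq_fintype_card, Nat.card_eq_fintype_card]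
  exact h1

/-- Hyperbolic pairs exist in dimension at least three. -/
theorem exists_pair {Q : QuadraticForm F V} {U : Submodule F V} (hU : NDOn (Bf Q) U) (hd : 3 ≤ finrank F U) :
    ∃ e ∈ U, ∃ f ∈ U, IsHyp Q e f := by
  obtain ⟨e, he0, hQe⟩ := exists_singular (restr Q U) hd
  obtain ⟨f, hf, hef⟩ := exists_partner_rel (e := (e : V)) hU e.2 (fun h => he0 (Subtype.ext h)) hQe
  exact ⟨e, e.2, f, hf, hef⟩

theorem rel_data (h2 : (2 : F) ≠ 0) {Q : QuadraticForm F V} {U : Submodule F V} (hU : NDOn (Bf Q) U) {e f : V} (he : e ∈ U) (hf : f ∈ U)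
    (hef : IsHyp Q e f) :
    NDOn (Bf Q) (U ⊓ perp (Bf Q) (Submodule.span F {e, f})) ∧
      finrank F (U ⊓ perp (Bf Q) (Submodule.span F {e, f}) : Submodule F V) + 2 = finrank F U := by
  obtain ⟨hP, hPd⟩ := hyp_plane h2 hef
  have hPU : Submodule.span F {e, f} ≤ U := Submodule.span_le.2 (by
    rintro x (rfl | rfl)
    · exact he
    · exact hf)
  have h1 := finrank_rel (good h2 Q) hPU hP.1
  exact ⟨nd_rel (good h2 Q) hPU hP.1 hU, by omega⟩

/-- The main recursion. -/
theorem count_step (h2 : (2 : F) ≠ 0) {Q : QuadraticForm F V} {A D : ℕ}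
    (huni : ∀ U U' : Submodule F V, NDOn (Bf Q) U → NDOn (Bf Q) U' → finrank F U = 2 * D + 1 → finrank F U' = 2 * D + 1 →
      Nat.card (HS Q U A) = Nat.card (HS Q U' A)) {U : Submodule F V} (hU : NDOn (Bf Q) U) (hd : finrank F U = 2 * (D + 1) + 1) :
    ∃ U₁ : Submodule F V, NDOn (Bf Q) U₁ ∧ finrank F U₁ = 2 * D + 1 ∧
      Nat.card (HS Q U (A + 1)) * hpc F A = (Fintype.card F ^ (2 * (D + 1)) - 1) * Fintype.card F ^ (2 * D + 1) * Nat.card (HS Q U₁ A) := by
  obtain ⟨e, he, f, hf, hef⟩ := exists_pair hU (by omega)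
  obtain ⟨h3, h4⟩ := rel_data h2 hU he hf hef
  refine ⟨_, h3, by omega, ?_⟩
  rw [← card_HP_odd h2 hU hd]
  apply rec_count h2
  · intro p
    obtain ⟨h5, h6⟩ := rel_data h2 hU p.2.1 p.2.2.1 p.2.2.2
    exact huni _ _ h5 h3 (by omega) (by omega)
  · intro W
    exact card_HP_hyp h2 W.2.2.1 W.2.2.2

/-- The number of hyperbolic `0`-spaces. -/
theorem card_HS_zero {Q : QuadraticForm F V} (U : Submodule F V) : Nat.card (HS Q U 0) = 1 := by
  rw [Nat.card_eq_one_iff_unique]
  refine ⟨⟨?_⟩, ⟨⟨⊥, bot_le, hyp_bot Q, by simp⟩⟩⟩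
  rintro ⟨W, _, _, hW⟩ ⟨W', _, _, hW'⟩
  apply Subtype.ext
  have h1 : W = ⊥ := Submodule.finrank_eq_zero.1 (by omega)
  have h3 : W' = ⊥ := Submodule.finrank_eq_zero.1 (by omega)
  exact h1.trans h3.symm

theorem count_uniform (h2 : (2 : F) ≠ 0) {Q : QuadraticForm F V} :
    ∀ (A D : ℕ), A ≤ D → ∀ U U' : Submodule F V, NDOn (Bf Q) U → NDOn (Bf Q) U' → finrank F U = 2 * D + 1 → finrank F U' = 2 * D + 1 →
      Nat.card (HS Q U A) = Nat.card (HS Q U' A) := by
  intro A
  induction A with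
  | zero =>
    intro D _ U U' _ _ _ _
    rw [card_HS_zero, card_HS_zero]
  | succ A ih =>
    intro D hAD U U' hU hU' hd hd'
    obtain ⟨D, rfl⟩ : ∃ D', D = D' + 1 := ⟨D - 1, by omega⟩
    have huni := ih D (by omega)
    obtain ⟨U₁, h1, h3, h4⟩ := count_step h2 huni hU hd
    obtain ⟨U₂, h5, h6, h7⟩ := count_step h2 huni hU' hd'
    rw [huni U₁ U₂ h1 h5 h3 h6, ← h7] at h4
    exact Nat.eq_of_mul_eq_mul_right (hpc_pos A) h4

/-- The divisibility conclusion. -/
theorem count_dvd (h2 : (2 : F) ≠ 0) {Q : QuadraticForm F V} {r : ℕ} (hr : r.Prime) (hrq : ¬ r ∣ Fintype.card F) :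
    ∀ (A D : ℕ), A ≤ D → ∀ U : Submodule F V, NDOn (Bf Q) U → finrank F U = 2 * D + 1 → r ∣ Nat.card (HS Q U A) →
      ∃ j < A, r ∣ Fintype.card F ^ (2 * (D - j)) - 1 := by
  intro A
  induction A with
  | zero =>
    intro D _ U _ _ h
    rw [card_HS_zero] at h
    exact absurd h (Nat.Prime.not_dvd_one hr)
  | succ A ih =>
    intro D hAD U hU hd h
    obtain ⟨D, rfl⟩ : ∃ D', D = D' + 1 := ⟨D - 1, by omega⟩
    have huni := count_uniform h2 (Q := Q) A D (by omega)
    obtain ⟨U₁, h1, h3, h4⟩ := count_step h2 huni hU hd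
    have h5 : r ∣ (Fintype.card F ^ (2 * (D + 1)) - 1) * Fintype.card F ^ (2 * D + 1) * Nat.card (HS Q U₁ A) := by
      rw [← h4]
      exact Dvd.dvd.mul_right h _
    rcases (Nat.Prime.dvd_mul hr).1 h5 with h6 | h6
    · rcases (Nat.Prime.dvd_mul hr).1 h6 with h7 | h7
      · exact ⟨0, by omega, by simpa using h7⟩
      · exact absurd (hr.dvd_of_dvd_pow h7) hrq
    · obtain ⟨j, hj, h7⟩ := ih D (by omega) U₁ h1 h3 h6
      refine ⟨j + 1, by omega, ?_⟩
      have : D + 1 - (j + 1) = D - j := by omega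
      rw [this]
      exact h7

end Cfsg.Agent.Lib.HypCount
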