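import Mathlib
import Cfsg.Agent.Lib.HypBlock
import Cfsg.Agent.Lib.Singer
import Cfsg.Agent.Lib.HypLevi
import Cfsg.Agent.Lib.MinusModel
import Cfsg.Agent.S5986

/-!
# Isometries of odd prime order with small fixed spaces
-/

set_option autoImplicit false
set_option linter.unusedSectionVars false
set_option linter.unusedSimpArgs false
set_option linter.unusedVariables false

universe u v

namespace Cfsg.Agent.Lib.HypModel

open Module QuadraticMap Polynomial Matrix Cfsg.Agent.Lib.QuadFF Cfsg.Agent.Lib.IsomBlock Cfsg.Agent.Lib.QuadClass2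
open Cfsg.Agent.Lib.QuadClass Cfsg.Agent.Lib.HypEll Cfsg.Agent.Lib.SpTI Cfsg.Agent.Lib.HypBlock
open Cfsg.Agent.Lib.OrthoCount Cfsg.Agent.Lib.HypLevi

variable {F : Type*} [Field F] {V : Type u} [AddCommGroup V] [Module F V]
variable {Q : QuadraticForm F V} {r q : ℕ}

/-- Extending an isometry of a nondegenerate subspace by the identity on its complement. -/
theorem extend_block [FiniteDimensional F V] (h2 : (2 : F) ≠ 0) {B : Submodule F V} (hB : NDOn (Bf Q) B) (τ : B →ₗ[F] B)
    (hτ : ∀ b, Q (τ b : V) = Q (b : V)) (hτr : τ ^ r = 1) (hfree : ∀ b, τ b = b → b = 0) :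
    ∃ T : V →ₗ[F] V, (∀ v, Q (T v) = Q v) ∧ T ^ r = 1 ∧ (∀ v ∈ perp (Bf Q) B, T v = v) ∧ InvOn T B ∧ FixFree T B := by
  classical
  have hc := isCompl_perp (good h2 Q) hB
  let π := Submodule.linearProjOfIsCompl B (perp (Bf Q) B) hc
  let T : V →ₗ[F] V := LinearMap.id - B.subtype ∘ₗ π + B.subtype ∘ₗ τ ∘ₗ π
  have hTv : ∀ v, T v = v - (π v : V) + (τ (π v) : V) := fun v => rfl
  have hTb : ∀ b : B, T b = τ b := by
    intro b
    have : π (b : V) = b := Submodule.linearProjOfIsCompl_apply_left hc b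
    rw [hTv, this]
    abel
  have hTw : ∀ w ∈ perp (Bf Q) B, T w = w := by
    intro w hw
    have : π w = 0 := by
      exact (Submodule.linearProjOfIsCompl_apply_eq_zero_iff hc).2 hw
    rw [hTv, this]
    simp
  have hdecomp : ∀ v, ∃ b : B, ∃ w ∈ perp (Bf Q) B, (b : V) + w = v := by
    intro v
    have : v ∈ B ⊔ perp (Bf Q) B := by
      rw [hc.sup_eq_top]
      trivial
    obtain ⟨b, hb, w, hw, rfl⟩ := Submodule.mem_sup.1 this
    exact ⟨⟨b, hb⟩, w, hw, rfl⟩
  have hTkb : ∀ k (b : B), (T ^ k) (b : V) = ((τ ^ k) b : B) := by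
    intro k
    induction k with
    | zero => intro b; simp
    | succ k ih =>
      intro b
      rw [pow_succ', Module.End.mul_apply, ih, hTb, pow_succ', Module.End.mul_apply]
  have hTkw : ∀ k, ∀ w ∈ perp (Bf Q) B, (T ^ k) w = w := by
    intro k
    induction k with
    | zero => intro w _; simp
    | succ k ih =>
      intro w hw
      rw [pow_succ', Module.End.mul_apply, ih w hw, hTw w hw]
  refine ⟨T, ?_, ?_, hTw, ?_, ?_⟩
  · intro v
    obtain ⟨b, w, hw, rfl⟩ := hdecomp v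
    rw [map_add, hTb, hTw w hw, Q_ad, Q_ad, hτ, show polar Q (τ b : V) w = 0 from hw _ (τ b).2,
      show polar Q (b : V) w = 0 from hw _ b.2]
  · ext v
    obtain ⟨b, w, hw, rfl⟩ := hdecomp v
    rw [map_add, hTkb, hTkw r w hw, hτr]
    rfl
  · intro b hb
    have := hTb ⟨b, hb⟩
    simp only at this
    rw [this]
    exact (τ ⟨b, hb⟩).2
  · intro b hb h0
    have h3 := hTb ⟨b, hb⟩
    simp only at h3
    rw [h0] at h3
    have h4 : τ ⟨b, hb⟩ = ⟨b, hb⟩ := Subtype.ext h3.symm
    exact congrArg Subtype.val (hfree _ h4)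

/-- Transporting an isometry along an isometric identification. -/
theorem transport_block {B : Submodule F V} {X : Type*} [AddCommGroup X] [Module F X] (Q' : QuadraticForm F X)
    (e : B ≃ₗ[F] X) (he : ∀ v : B, Q' (e v) = Q v) (τ : X →ₗ[F] X) (hτ : ∀ v, Q' (τ v) = Q' v) (hτr : τ ^ r = 1)
    (hfree : ∀ v, τ v = v → v = 0) :
    ∃ τ' : B →ₗ[F] B, (∀ b, Q (τ' b : V) = Q (b : V)) ∧ τ' ^ r = 1 ∧ ∀ b, τ' b = b → b = 0 := by
  let τ' : B →ₗ[F] B := e.symm.toLinearMap ∘ₗ τ ∘ₗ e.toLinearMap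
  have hτ' : ∀ b, τ' b = e.symm (τ (e b)) := fun b => rfl
  have hk : ∀ k b, (τ' ^ k) b = e.symm ((τ ^ k) (e b)) := by
    intro k
    induction k with
    | zero => intro b; simp
    | succ k ih =>
      intro b
      rw [pow_succ', pow_succ', Module.End.mul_apply, Module.End.mul_apply, ih, hτ', LinearEquiv.apply_symm_apply]
  refine ⟨τ', ?_, ?_, ?_⟩
  · intro b
    rw [← he, ← he, hτ', LinearEquiv.apply_symm_apply, hτ]
  · ext b
    rw [hk, hτr]
    simp
  · intro b hb
    rw [hτ'] at hb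
    have h3 : τ (e b) = e b := by
      have := congrArg e hb
      rwa [LinearEquiv.apply_symm_apply] at this
    have := hfree _ h3
    simpa using this

section models

variable [Fintype F]

/-- The hyperbolic model. -/
theorem exists_plus_model [hr : Fact r.Prime] (p : ℕ) [Fact p.Prime] [CharP F p] {i : ℕ} (hi : i ≠ 0)
    (hrd : r ∣ Fintype.card F ^ i - 1) :
    ∃ τ : (Fin i ⊕ Fin i → F) →ₗ[F] (Fin i ⊕ Fin i → F), (∀ v, qPlus i F (τ v) = qPlus i F v) ∧ τ ^ r = 1 ∧
      ∀ v, τ v = v → v = 0 := by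
  classical
  obtain ⟨B₀, hB1, hB2, hB3⟩ := Cfsg.Agent.Lib.Singer.exists_singer (F := F) p (j := i) (r := r) hi hrd
  have hr0 : r ≠ 0 := hr.out.ne_zero
  let A : GL (Fin i) F := Units.ofPowEqOne B₀ r hB1 hr0
  have hA : (A : Matrix (Fin i) (Fin i) F) = B₀ := rfl
  have hAr : A ^ r = 1 := by
    apply Units.ext
    simp [hA, hB1]
  let y := leviHom i F A
  have hyr : y ^ r = 1 := by
    rw [← map_pow, hAr, map_one]
  let M : Matrix (Fin i ⊕ Fin i) (Fin i ⊕ Fin i) F := ((y : ↥(Cfsg.isometryGroup F ⇑(qPlus i F))) : GL (Fin i ⊕ Fin i) F)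
  have hM : M = fromBlocks (A : Matrix (Fin i) (Fin i) F) 0 0 ((A⁻¹ : GL (Fin i) F) : Matrix (Fin i) (Fin i) F)ᵀ := rfl
  have hMr : M ^ r = 1 := by
    have := congrArg (fun z : ↥(Cfsg.isometryGroup F ⇑(qPlus i F)) => ((z : GL (Fin i ⊕ Fin i) F) : Matrix (Fin i ⊕ Fin i) (Fin i ⊕ Fin i) F)) hyr
    simpa using this
  let τ : (Fin i ⊕ Fin i → F) →ₗ[F] (Fin i ⊕ Fin i → F) := Matrix.mulVecLin M
  have hτ : ∀ v, τ v = M *ᵥ v := fun v => rfl
  have hk : ∀ k v, (τ ^ k) v = (M ^ k) *ᵥ v := by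
    intro k
    induction k with
    | zero => intro v; simp
    | succ k ih =>
      intro v
      rw [pow_succ, Module.End.mul_apply, ih, hτ, Matrix.mulVec_mulVec, pow_succ]
  refine ⟨τ, ?_, ?_, ?_⟩
  · intro v
    exact (Cfsg.Agent.Lib.OrthMatrix.mem_isometryGroup _ _).1 y.2 v
  · refine LinearMap.ext fun v => ?_
    rw [hk, hMr]
    simp
  · intro v hv
    rw [hτ, hM] at hv
    have h1 : (A : Matrix (Fin i) (Fin i) F) *ᵥ (v ∘ Sum.inl) = v ∘ Sum.inl := by
      have : (fromBlocks (A : Matrix (Fin i) (Fin i) F) 0 0 ((A⁻¹ : GL (Fin i) F) : Matrix (Fin i) (Fin i) F)ᵀ *ᵥ v) ∘ Sum.inl = v ∘ Sum.inl := by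
        rw [hv]
      rwa [Cfsg.Agent.Lib.OrthBlock.mulVec_inl] at this
    have h3 : ((A⁻¹ : GL (Fin i) F) : Matrix (Fin i) (Fin i) F)ᵀ *ᵥ (v ∘ Sum.inr) = v ∘ Sum.inr := by
      have : (fromBlocks (A : Matrix (Fin i) (Fin i) F) 0 0 ((A⁻¹ : GL (Fin i) F) : Matrix (Fin i) (Fin i) F)ᵀ *ᵥ v) ∘ Sum.inr = v ∘ Sum.inr := by
        rw [hv]
      rwa [Cfsg.Agent.Lib.OrthBlock.mulVec_inr] at this
    have h4 := hB3 _ h1
    have hdet : ((A : Matrix (Fin i) (Fin i) F) - 1).det ≠ 0 := by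
      intro h0
      obtain ⟨w, hw0, hw⟩ := Matrix.exists_mulVec_eq_zero_iff.2 h0
      apply hw0
      apply hB3
      rw [Matrix.sub_mulVec, Matrix.one_mulVec, sub_eq_zero] at hw
      exact hw
    have h5 : (A : Matrix (Fin i) (Fin i) F)ᵀ *ᵥ (v ∘ Sum.inr) = v ∘ Sum.inr := by
      conv_lhs => rw [← h3]
      rw [Matrix.mulVec_mulVec, ← Matrix.transpose_mul, Units.inv_mul]
      simp
    have h6 : v ∘ Sum.inr = 0 := by
      by_contra hne
      apply hdet
      rw [← Matrix.det_transpose]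
      apply Matrix.exists_mulVec_eq_zero_iff.1
      refine ⟨_, hne, ?_⟩
      rw [Matrix.transpose_sub, Matrix.transpose_one, Matrix.sub_mulVec, Matrix.one_mulVec, h5, sub_self]
    funext j
    rcases j with j | j
    · exact congrFun h4 j
    · exact congrFun h6 j

/-- The block isometry. -/
theorem exists_block_iso [hr : Fact r.Prime] [FiniteDimensional F V] (p : ℕ) [Fact p.Prime] [CharP F p] (h2 : (2 : F) ≠ 0)
    (hq : Fintype.card F = q) (hr2 : r ≠ 2) (hrF : (r : F) ≠ 0) {U : Submodule F V} (hU : NDOn (Bf Q) U)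
    (hd : blockDim r q < finrank F U) :
    ∃ B ≤ U, NDOn (Bf Q) B ∧ finrank F B = blockDim r q ∧ ∃ T : V →ₗ[F] V, (∀ v, Q (T v) = Q v) ∧ T ^ r = 1 ∧
      (∀ v ∈ perp (Bf Q) B, T v = v) ∧ InvOn T B ∧ FixFree T B := by
  classical
  have hpos : 0 < orderOf (q : ZMod r) := orderOf_pos' hq hrF
  by_cases hev : Even (orderOf (q : ZMod r))
  · have hci : blockDim r q = orderOf (q : ZMod r) := by
      unfold blockDim
      rw [if_pos hev]
    obtain ⟨e', he'⟩ := hev
    obtain ⟨e, rfl⟩ : ∃ e, e' = e + 1 := ⟨e' - 1, by omega⟩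
    have he : orderOf (q : ZMod r) = 2 * (e + 1) := by omega
    obtain ⟨B, hBU, hB, hBd⟩ := exists_ell_sub h2 Q e hU (by omega)
    have hnd := hB.nd h2
    have hrd : r ∣ Fintype.card F ^ (e + 1) + 1 := by
      rw [hq]
      exact dvd_of_order_even he (by omega)
    obtain ⟨K, iK, fK, aK, Q₁, ζ, hK, hND, hζr, hζ1, hζ⟩ := Cfsg.Agent.Lib.MinusModel.exists_model (F := F) p (d := e + 1) (r := r) (by omega) hrd
    have hc := Cfsg.Agent.S5986.card_ne_of_fpf (F := F) 2 hr2 hrd Q₁ ζ hζr hζ1 hζ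
    haveI : FiniteDimensional F K := Module.Finite.of_finite
    obtain ⟨b', ζ', hb'⟩ := minus_of_card hK Q₁ hND hc
    obtain ⟨b, ζ₀, hb⟩ := minus_of_no_ts (Q := restr Q B) hBd (nd_restr hnd) (by
      intro S hS hSd
      apply not_hyp_of_ell h2 hB
      refine ⟨hnd, S.map B.subtype, Submodule.map_subtype_le _ _, ?_, ?_⟩
      · rintro _ ⟨v, hv, rfl⟩
        exact hS v hv
      · rw [Submodule.finrank_map_subtype_eq, hSd, hBd])
    obtain ⟨E, hE⟩ := isometry_of_minus (nd_restr hnd) hb hb'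
    have hζ0 : ζ ≠ 0 := by
      rintro rfl
      rw [zero_pow hr.out.ne_zero] at hζr
      exact zero_ne_one hζr
    have hk : ∀ k v, ((LinearMap.mulLeft F ζ) ^ k) v = ζ ^ k * v := by
      intro k
      induction k with
      | zero => intro v; simp
      | succ k ih =>
        intro v
        rw [pow_succ', Module.End.mul_apply, ih, LinearMap.mulLeft_apply, pow_succ']
        ring
    obtain ⟨τ, hτ, hτr, hτf⟩ := transport_block (r := r) Q₁ E hE (LinearMap.mulLeft F ζ) hζ (by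
      ext v
      rw [hk, hζr, one_mul]
      rfl) (by
      intro v hv
      rw [LinearMap.mulLeft_apply] at hv
      have h4 : (ζ - 1) * v = 0 := by rw [sub_mul, hv, one_mul, sub_self]
      exact (mul_eq_zero.1 h4).resolve_left (sub_ne_zero.2 hζ1))
    exact ⟨B, hBU, hnd, by omega, extend_block h2 hnd τ hτ hτr hτf⟩
  · have hci : blockDim r q = 2 * orderOf (q : ZMod r) := by
      unfold blockDim
      rw [if_neg hev]
    set i := orderOf (q : ZMod r) with hi
    obtain ⟨B, hBU, hB, hBd⟩ := exists_hyp_sub h2 Q i U hU (by omega)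
    obtain ⟨hnd, S, hSB, hS, hSd⟩ := hB
    have hrd : r ∣ Fintype.card F ^ i - 1 := by
      rw [hq]
      have h3 : (q : ZMod r) ^ i = 1 := pow_orderOf_eq_one _
      have hq1 : 1 ≤ q ^ i := Nat.one_le_pow _ _ (by rw [← hq]; exact Fintype.card_pos)
      apply (ZMod.natCast_eq_zero_iff _ _).1
      rw [Nat.cast_sub hq1]
      push_cast
      rw [h3, sub_self]
    obtain ⟨b, hb⟩ := hyp_of_ts (Q := restr Q B) hBd (nd_restr hnd) (S.comap B.subtype) (fun v hv => hS _ hv)
      (by rw [finrank_comap_of_le hSB]; omega)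
    obtain ⟨E, hE⟩ := iso_qPlus_of_hyp hb
    obtain ⟨τ₀, h1, h3, h4⟩ := exists_plus_model (F := F) (r := r) p (i := i) (by omega) hrd
    obtain ⟨τ, hτ, hτr, hτf⟩ := transport_block (r := r) (qPlus i F) E hE τ₀ h1 h3 h4
    exact ⟨B, hBU, hnd, by omega, extend_block h2 hnd τ hτ hτr hτf⟩

/-- Isometries with small fixed space, relative version. -/
theorem exists_model_T [hr : Fact r.Prime] [FiniteDimensional F V] (p : ℕ) [Fact p.Prime] [CharP F p] (h2 : (2 : F) ≠ 0)
    (hq : Fintype.card F = q) (hr2 : r ≠ 2) (hrF : (r : F) ≠ 0) :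
    ∀ (s : ℕ) (U : Submodule F V), NDOn (Bf Q) U → blockDim r q * s < finrank F U →
      ∃ T : V →ₗ[F] V, (∀ v, Q (T v) = Q v) ∧ T ^ r = 1 ∧ (∀ v ∈ perp (Bf Q) U, T v = v) ∧ InvOn T U ∧
        finrank F (fixS T U) + blockDim r q * s = finrank F U := by
  classical
  have hB := good h2 Q
  have hr0 := hr.out.ne_zero
  intro s
  induction s with
  | zero =>
    intro U _ _
    refine ⟨1, fun v => rfl, one_pow _, fun v _ => rfl, fun u hu => hu, ?_⟩
    have : fixS (1 : V →ₗ[F] V) U = U := by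
      ext v
      rw [mem_fixS]
      simp
    rw [this]
    simp
  | succ s ih =>
    intro U hU hd
    have hpos : 0 < blockDim r q := blockDim_pos hq hrF
    have hle : blockDim r q ≤ blockDim r q * (s + 1) := Nat.le_mul_of_pos_right _ (by omega)
    obtain ⟨B, hBU, hBnd, hBd, Tb, hTb, hTbr, hTbp, hTbi, hTbf⟩ := exists_block_iso p h2 hq hr2 hrF hU (by omega)
    have h1 := finrank_rel hB hBU hBnd
    set U' := U ⊓ perp (Bf Q) B with hU'
    have hU'nd : NDOn (Bf Q) U' := nd_rel hB hBU hBnd hU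
    have hsup : B ⊔ U' = U := sup_rel hB hBU hBnd
    obtain ⟨T', hT', hT'r, hT'p, hT'i, hT'd⟩ := ih U' hU'nd (by
      rw [mul_add, mul_one] at hd
      omega)
    -- `T'` fixes `B`
    have hT'B : ∀ b ∈ B, T' b = b := by
      intro b hb
      apply hT'p
      intro w hw
      exact hB.refl (hw.2 b hb)
    have hiso' := polar_iso hT'
    have hiso := polar_iso hTb
    have hT'pB : InvOn T' (perp (Bf Q) B) := inv_perp hiso' hr0 hT'r (fun b hb => by rw [hT'B b hb]; exact hb)
    have hc := isCompl_perp hB hBnd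
    have hdecomp : ∀ v, ∃ b ∈ B, ∃ w ∈ perp (Bf Q) B, b + w = v := by
      intro v
      have : v ∈ B ⊔ perp (Bf Q) B := by
        rw [hc.sup_eq_top]
        trivial
      exact Submodule.mem_sup.1 this
    have hcomm : Commute Tb T' := by
      ext v
      obtain ⟨b, hb, w, hw, rfl⟩ := hdecomp v
      show Tb (T' (b + w)) = T' (Tb (b + w))
      have e1 : T' (b + w) = b + T' w := by rw [map_add, hT'B b hb]
      have e2 : Tb (b + w) = Tb b + w := by rw [map_add, hTbp w hw]
      rw [e1, map_add, hTbp _ (hT'pB w hw), e2, map_add, hT'B _ (hTbi b hb)]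
    refine ⟨Tb * T', ?_, ?_, ?_, ?_, ?_⟩
    · intro v
      rw [Module.End.mul_apply, hTb, hT']
    · rw [hcomm.mul_pow, hTbr, hT'r, one_mul]
    · intro v hv
      rw [Module.End.mul_apply]
      have e1 : T' v = v := hT'p v (fun w hw => hv w hw.1)
      have e2 : Tb v = v := hTbp v (fun w hw => hv w (hBU hw))
      rw [e1, e2]
    · intro u hu
      rw [← hsup] at hu
      obtain ⟨b, hb, w, hw, rfl⟩ := Submodule.mem_sup.1 hu
      rw [Module.End.mul_apply, map_add, map_add, hT'B b hb, hTbp _ (hT'i w hw).2]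
      exact U.add_mem (hBU (hTbi b hb)) (hT'i w hw).1
    · have hfix : fixS (Tb * T') U = fixS T' U' := by
        ext u
        rw [mem_fixS, mem_fixS]
        constructor
        · rintro ⟨hu, hfixu⟩
          rw [← hsup] at hu
          obtain ⟨b, hb, w, hw, rfl⟩ := Submodule.mem_sup.1 hu
          rw [Module.End.mul_apply, map_add, map_add, hT'B b hb, hTbp _ (hT'i w hw).2] at hfixu
          have e1 : Tb b - b = w - T' w := by
            rw [sub_eq_sub_iff_add_eq_add, hfixu]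
            abel
          have e2 : Tb b - b ∈ B ⊓ perp (Bf Q) B := by
            refine ⟨B.sub_mem (hTbi b hb) hb, ?_⟩
            rw [e1]
            exact Submodule.sub_mem _ hw.2 (hT'i w hw).2
          rw [hc.inf_eq_bot, Submodule.mem_bot, sub_eq_zero] at e2
          have e3 := hTbf b hb e2
          subst e3
          rw [zero_add]
          rw [e2, zero_add, zero_add] at hfixu
          refine ⟨hw, hfixu⟩
        · rintro ⟨hu, hfixu⟩
          refine ⟨hu.1, ?_⟩
          rw [Module.End.mul_apply, hfixu]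
          exact hTbp u hu.2
      rw [hfix]
      rw [mul_add, mul_one]
      omega

/-- Isometries with small fixed space. -/
theorem exists_T [hr : Fact r.Prime] [FiniteDimensional F V] (p : ℕ) [Fact p.Prime] [CharP F p] (h2 : (2 : F) ≠ 0)
    (hq : Fintype.card F = q) (hr2 : r ≠ 2) (hrF : (r : F) ≠ 0) (hnd : NDOn (Bf Q) ⊤) (hodd : Odd (finrank F V)) :
    ∃ T : V →ₗ[F] V, (∀ v, Q (T v) = Q v) ∧ T ^ r = 1 ∧
      finrank F (fixS T ⊤) = finrank F V % blockDim r q := by
  have hpos : 0 < blockDim r q := blockDim_pos hq hrF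
  have h1 := Nat.div_add_mod (finrank F V) (blockDim r q)
  have h3 : 0 < finrank F V % blockDim r q := by
    apply Nat.pos_of_ne_zero
    intro h0
    have := (blockDim_even r q).two_dvd.trans (Nat.dvd_of_mod_eq_zero h0)
    obtain ⟨k, hk⟩ := hodd
    omega
  obtain ⟨T, h4, h5, _, _, h6⟩ := exists_model_T (Q := Q) p h2 hq hr2 hrF (finrank F V / blockDim r q) ⊤ hnd (by
    rw [finrank_top]
    omega)
  refine ⟨T, h4, h5, ?_⟩
  rw [finrank_top] at h6
  omega

end models

end Cfsg.Agent.Lib.HypModel
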