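import Mathlib
import Cfsg.Agent.Lib.HypCount
import Cfsg.Agent.Lib.HypBack
import Cfsg.Agent.Lib.HypModel
import Cfsg.Agent.Lib.OrthoOrder
import Cfsg.Prelude.Def_GeometricClasses

/-!
# From the matrix statements to abstract quadratic spaces (odd dimension)
-/

set_option autoImplicit false
set_option linter.unusedSectionVars false
set_option linter.unusedSimpArgs false
set_option linter.unusedVariables false
set_option linter.style.haveILetI false

namespace Cfsg.Agent.Lib.HypBridge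

open Module QuadraticMap Matrix Cfsg.Agent.Lib.QuadFF Cfsg.Agent.Lib.IsomBlock
open Cfsg.Agent.Lib.HypEll Cfsg.Agent.Lib.HypBlock Cfsg.Agent.Lib.HypCount Cfsg.Agent.Lib.HypBack Cfsg.Agent.Lib.HypModel
open Cfsg.Agent.Lib.OrthoCount Cfsg.Agent.Lib.OrthGroup Cfsg.Agent.Lib.OrthOmega Cfsg.Agent.Lib.OrthMatrix
open scoped MatrixGroups

section abstract

universe u

variable {F : Type*} [Field F] [Fintype F] {V : Type u} [AddCommGroup V] [Module F V] [FiniteDimensional F V]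
variable {Q : QuadraticForm F V} {T : V →ₗ[F] V} {r q : ℕ}

/-- The shape of invariant nondegenerate subspaces. -/
theorem forward_shape [hr : Fact r.Prime] (h2 : (2 : F) ≠ 0) (hq : Fintype.card F = q) (hr2 : r ≠ 2) (hrF : (r : F) ≠ 0)
    (hT : ∀ v, Q (T v) = Q v) (hTr : T ^ r = 1) {n m : ℕ} (hfix : finrank F (fixS T ⊤) = n % blockDim r q)
    {W : Submodule F V} (hWnd : NDOn (Bf Q) W) (hWd : finrank F W = m) (hinv : InvOn T W) :
    m % blockDim r q = finrank F (fixS T W) ∧ finrank F (fixS T W) ≤ n % blockDim r q ∧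
      (m % blockDim r q = 0 → FixFree T W) ∧ ∃ a, m = finrank F (fixS T W) + blockDim r q * a := by
  have hiso := polar_iso hT
  have hpos : 0 < blockDim r q := blockDim_pos hq hrF
  obtain ⟨a, ha⟩ := finrank_fix_add hq hr2 hrF (good h2 Q) hiso hTr hWnd hinv
  have hle : finrank F (fixS T W) ≤ n % blockDim r q := by
    rw [← hfix]
    apply Submodule.finrank_mono
    intro v hv
    rw [mem_fixS] at hv ⊢
    exact ⟨trivial, hv.2⟩
  have hlt := Nat.mod_lt n hpos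
  have h1 : m % blockDim r q = finrank F (fixS T W) := by
    rw [← hWd, ha, Nat.add_mul_mod_self_left, Nat.mod_eq_of_lt (by omega)]
  refine ⟨h1, hle, ?_, a, by omega⟩
  intro h0
  have h3 : fixS T W = ⊥ := Submodule.finrank_eq_zero.1 (by omega)
  intro u hu hfixu
  have : u ∈ fixS T W := mem_fixS.2 ⟨hu, hfixu⟩
  rw [h3] at this
  exact this

/-- The conclusion for hyperbolic subspaces. -/
theorem forward_hyp [hr : Fact r.Prime] (h2 : (2 : F) ≠ 0) (hq : Fintype.card F = q) (hr2 : r ≠ 2) (hrF : (r : F) ≠ 0)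
    (hT : ∀ v, Q (T v) = Q v) (hTr : T ^ r = 1) {n m : ℕ} (hn : Odd n) (hme : Even m) (hfix : finrank F (fixS T ⊤) = n % blockDim r q)
    {W : Submodule F V} (hW : Hyp Q W) (hWd : finrank F W = m) (hinv : InvOn T W) :
    m % blockDim r q < n % blockDim r q ∧ (Even (orderOf (q : ZMod r)) → m % blockDim r q = 0 → Even (m / orderOf (q : ZMod r))) := by
  have hpos : 0 < blockDim r q := blockDim_pos hq hrF
  have hce : Even (blockDim r q) := blockDim_even r q
  obtain ⟨h1, h3, h4, a, ha⟩ := forward_shape h2 hq hr2 hrF hT hTr hfix hW.1 hWd hinv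
  constructor
  · rw [h1]
    apply lt_of_le_of_ne h3
    intro h5
    -- parity
    have h6 : Odd (n % blockDim r q) := by
      rw [Nat.odd_iff] at hn ⊢
      obtain ⟨x, hx⟩ := hce
      have h7 : blockDim r q = 2 * x := by omega
      rw [h7, Nat.mod_mul] at *
      omega
    rw [← h5] at h6
    have h7 : Even (m % blockDim r q) := by
      rw [h1]
      obtain ⟨x, hx⟩ := hce
      obtain ⟨y, hy⟩ := hme
      have h8 : blockDim r q * a = 2 * (x * a) := by rw [hx]; ring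
      exact ⟨y - x * a, by omega⟩
    rw [h1] at h7
    exact (Nat.not_even_iff_odd.2 h6) h7
  · intro hev h0
    have hci : blockDim r q = orderOf (q : ZMod r) := by
      unfold blockDim
      rw [if_pos hev]
    have h5 := h4 h0
    rw [h1] at h0
    rw [h0, zero_add, hci] at ha
    have h6 := type_fpf_even h2 hq hr2 hrF hT hTr hev a W (by rw [hWd, ha]) hW.1 hinv h5
    rw [hci] at hpos
    have h7 : m / orderOf (q : ZMod r) = a := by
      rw [ha]
      exact Nat.mul_div_cancel_left a hpos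
    rw [h7]
    by_contra hne
    exact not_hyp_of_ell h2 (h6.2 (Nat.not_even_iff_odd.1 hne)) hW

end abstract

section matrix

variable {F : Type*} [Field F] [Fintype F] {d : ℕ}

theorem two_ne (hodd : Odd (Fintype.card F)) : (2 : F) ≠ 0 := by
  apply Ring.two_ne_zero
  intro h
  have := FiniteField.even_card_iff_char_two.mp h
  exact absurd hodd (by rw [Nat.odd_iff]; omega)

theorem nd_qOdd (hodd : Odd (Fintype.card F)) : ND (qOdd d F) := by
  intro x hx
  by_contra hne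
  obtain ⟨y, hy⟩ := Cfsg.Agent.Lib.OrthoOrder.nondeg_qOdd hodd d x hne
  exact hy (hx y)

theorem ndOn_top (hodd : Odd (Fintype.card F)) : NDOn (Bf (qOdd d F)) ⊤ :=
  fun u _ h => nd_qOdd hodd u fun y => h y trivial

theorem finrank_qOdd : finrank F (Unit ⊕ (Fin d ⊕ Fin d) → F) = 2 * d + 1 := by
  simp
  ring

theorem hf_qOdd : ⇑(qOdd d F) = Cfsg.quadFormOdd d F := funext (qOdd_apply d)

theorem hOG_qOdd (hodd : Odd (Fintype.card F)) : O (qOdd d F) ≤ G (qOdd d F) := by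
  apply O_le_G (nondegenerate_of_ND (nd_qOdd hodd))
  refine Or.inl ⟨-1, neg_ne_zero.2 one_ne_zero, ?_⟩
  intro h
  apply two_ne hodd
  linear_combination -h

theorem ndOn_iff {Q : QuadraticForm F (Unit ⊕ (Fin d ⊕ Fin d) → F)} (W : Submodule F (Unit ⊕ (Fin d ⊕ Fin d) → F)) :
    Cfsg.Geo.IsNondegenerateOn (polar ⇑Q) W ↔ NDOn (Bf Q) W := by
  constructor
  · intro h u hu h0
    by_contra hne
    obtain ⟨x, hx, hxu⟩ := (h u hu hne).2
    exact hxu (h0 x hx)
  · intro h w hw hw0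
    have key : ∃ x ∈ W, polar Q w x ≠ 0 := by
      by_contra hno
      push Not at hno
      exact hw0 (h w hw hno)
    obtain ⟨x, hx, hxw⟩ := key
    refine ⟨⟨x, hx, ?_⟩, ⟨x, hx, hxw⟩⟩
    rwa [polar_comm]

theorem hyp_iff (W : Submodule F (Unit ⊕ (Fin d ⊕ Fin d) → F)) (m : ℕ) :
    (finrank F W = m ∧ Cfsg.Geo.IsNondegenerateOn (polar (Cfsg.quadFormOdd d F)) W ∧ Cfsg.Geo.IsPlusTypeOn (Cfsg.quadFormOdd d F) W) ↔
      (Hyp (qOdd d F) W ∧ finrank F W = m) := by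
  rw [← hf_qOdd, ndOn_iff]
  constructor
  · rintro ⟨h1, h3, U, h4, h5, h6⟩
    exact ⟨⟨h3, U, h4, h5, h6⟩, h1⟩
  · rintro ⟨⟨h3, U, h4, h5, h6⟩, h1⟩
    exact ⟨h1, h3, U, h4, h5, h6⟩

theorem map_le_iff {ι : Type*} [Fintype ι] [DecidableEq ι] (x : Matrix ι ι F) (W : Submodule F (ι → F)) :
    W.map (Matrix.toLin' x) ≤ W ↔ InvOn (Matrix.toLin' x) W := by
  constructor
  · intro h u hu
    exact h ⟨u, hu, rfl⟩
  · rintro h _ ⟨u, hu, rfl⟩
    exact h u hu

theorem toLin_pow {ι : Type*} [Fintype ι] [DecidableEq ι] (A : Matrix ι ι F) (n : ℕ) :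
    (Matrix.toLin' A) ^ n = Matrix.toLin' (A ^ n) := by
  induction n with
  | zero =>
    simp
    rfl
  | succ n ih =>
    rw [pow_succ, pow_succ, ih, Matrix.toLin'_mul]
    rfl

theorem hTr_of_pow {ι : Type*} [Fintype ι] [DecidableEq ι] {x : GL ι F} {r : ℕ} (h : x ^ r = 1) :
    (Matrix.toLin' (x : Matrix ι ι F)) ^ r = 1 := by
  rw [toLin_pow, ← Units.val_pow_eq_pow_val, h]
  simp
  rfl

theorem hT_of_mem {x : GL (Unit ⊕ (Fin d ⊕ Fin d)) F} (hx : x ∈ Cfsg.Geo.omegaGL (Cfsg.quadFormOdd d F)) (v) :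
    qOdd d F (Matrix.toLin' (x : Matrix (Unit ⊕ (Fin d ⊕ Fin d)) (Unit ⊕ (Fin d ⊕ Fin d)) F) v) = qOdd d F v := by
  rw [← hf_qOdd] at hx
  exact Cfsg.Agent.S5985.isometry_of_mem_omega _ hx v

/-- From linear maps to elements of `Ω`. -/
theorem exists_x (hodd : Odd (Fintype.card F)) {T : (Unit ⊕ (Fin d ⊕ Fin d) → F) →ₗ[F] (Unit ⊕ (Fin d ⊕ Fin d) → F)} {r : ℕ} [hr : Fact r.Prime]
    (hr2 : r ≠ 2) (hT : ∀ v, qOdd d F (T v) = qOdd d F v) (hTr : T ^ r = 1) (hne : T ≠ 1) :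
    ∃ x : GL (Unit ⊕ (Fin d ⊕ Fin d)) F, x ∈ Cfsg.Geo.omegaGL (Cfsg.quadFormOdd d F) ∧ orderOf x = r ∧
      Matrix.toLin' (x : Matrix (Unit ⊕ (Fin d ⊕ Fin d)) (Unit ⊕ (Fin d ⊕ Fin d)) F) = T := by
  have hr0 := hr.out.ne_zero
  have h1 : T * T ^ (r - 1) = 1 := by
    rw [← pow_succ', Nat.sub_add_cancel hr.out.one_le, hTr]
  have h3 : T ^ (r - 1) * T = 1 := by
    rw [← pow_succ, Nat.sub_add_cancel hr.out.one_le, hTr]
  let e : (Unit ⊕ (Fin d ⊕ Fin d) → F) ≃ₗ[F] (Unit ⊕ (Fin d ⊕ Fin d) → F) := LinearEquiv.ofLinear T (T ^ (r - 1)) h1 h3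
  let x : GL (Unit ⊕ (Fin d ⊕ Fin d)) F := Cfsg.Agent.Lib.OrthMatrix.glEquiv.symm e
  have hx : ∀ v, (x : Matrix (Unit ⊕ (Fin d ⊕ Fin d)) (Unit ⊕ (Fin d ⊕ Fin d)) F) *ᵥ v = T v := by
    intro v
    rw [mulVec_glEquiv_symm]
    rfl
  have hxT : Matrix.toLin' (x : Matrix (Unit ⊕ (Fin d ⊕ Fin d)) (Unit ⊕ (Fin d ⊕ Fin d)) F) = T := by
    ext1
    exact LinearMap.ext fun v => by
      simp only [LinearMap.comp_apply]
      rw [Matrix.toLin'_apply, hx]
  have hxr : x ^ r = 1 := by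
    apply Units.ext
    rw [matrix_eq_iff]
    intro v
    rw [Units.val_pow_eq_pow_val, ← Matrix.toLin'_apply, ← toLin_pow, hxT, hTr]
    simp
  have hx1 : x ≠ 1 := by
    intro h
    apply hne
    rw [← hxT, h]
    simp
    rfl
  refine ⟨x, ?_, orderOf_eq_prime hxr hx1, hxT⟩
  rw [← hf_qOdd]
  refine Cfsg.Agent.S5985.mem_omega_of_odd_pow _ (hOG_qOdd hodd) x ?_ (hr.out.odd_of_ne_two hr2) hxr
  rw [mem_isometryGroup]
  intro v
  rw [hx]
  exact hT v

/-- `c` divides `2 e` when `r` divides `q ^ (2 e) - 1`. -/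
theorem blockDim_dvd {r q e : ℕ} [hr : Fact r.Prime] (hq0 : 1 ≤ q) (h : r ∣ q ^ (2 * e) - 1) : blockDim r q ∣ 2 * e := by
  have h1 : (q : ZMod r) ^ (2 * e) = 1 := by
    have h3 : ((q ^ (2 * e) - 1 : ℕ) : ZMod r) = 0 := (ZMod.natCast_eq_zero_iff _ _).2 h
    rw [Nat.cast_sub (Nat.one_le_pow _ _ hq0)] at h3
    push_cast at h3
    exact sub_eq_zero.1 h3
  have h3 : orderOf (q : ZMod r) ∣ 2 * e := orderOf_dvd_of_pow_eq_one h1
  unfold blockDim
  split_ifs with hev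
  · exact h3
  · have h4 : (orderOf (q : ZMod r)).Coprime 2 := by
      exact Nat.coprime_two_right.2 (Nat.not_even_iff_odd.1 hev)
    exact Nat.mul_dvd_mul_left 2 (h4.dvd_of_dvd_mul_left h3)

/-- The count in the matrix setting. -/
theorem count_matrix (hodd : Odd (Fintype.card F)) {r A : ℕ} (hr : r.Prime) (hrq : ¬ r ∣ Fintype.card F) (hA : A ≤ d)
    (h : r ∣ Nat.card {W : Submodule F (Unit ⊕ (Fin d ⊕ Fin d) → F) // Module.finrank F ↥W = 2 * A ∧
      Cfsg.Geo.IsNondegenerateOn (polar (Cfsg.quadFormOdd d F)) W ∧ Cfsg.Geo.IsPlusTypeOn (Cfsg.quadFormOdd d F) W}) :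
    ∃ j < A, r ∣ Fintype.card F ^ (2 * (d - j)) - 1 := by
  apply count_dvd (two_ne hodd) (Q := qOdd d F) hr hrq A d hA ⊤ (ndOn_top hodd) (by rw [finrank_top, finrank_qOdd])
  convert h using 1
  apply Nat.card_congr
  refine Equiv.subtypeEquivRight ?_
  intro W
  rw [hyp_iff]
  constructor
  · rintro ⟨_, h1, h3⟩
    exact ⟨h1, h3⟩
  · rintro ⟨h1, h3⟩
    exact ⟨le_top, h1, h3⟩

end matrix

end Cfsg.Agent.Lib.HypBridge
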