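import Mathlib
import Cfsg.Agent.Lib.HypCount
import Cfsg.Agent.Lib.QuadClass2

/-!
# Counting elliptic subspaces of odd-dimensional quadratic spaces
-/

set_option autoImplicit false
set_option linter.unusedSectionVars false
set_option linter.unusedSimpArgs false
set_option linter.unusedVariables false
set_option linter.style.haveILetI false

universe u v

namespace Cfsg.Agent.Lib.HypCountE

open Module QuadraticMap Cfsg.Agent.Lib.QuadFF Cfsg.Agent.Lib.IsomBlock Cfsg.Agent.Lib.QuadClass2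
open Cfsg.Agent.Lib.QuadClass Cfsg.Agent.Lib.HypEll Cfsg.Agent.Lib.OrthoCount Cfsg.Agent.Lib.HypCount

variable {F : Type*} [Field F] [Fintype F]

section values

variable {Y : Type v} [AddCommGroup Y] [Module F Y] [FiniteDimensional F Y]

/-- The count of vectors of a given nonzero norm in even dimension. -/
theorem value_count (h2 : (2 : F) ≠ 0) (Q' : QuadraticForm F Y) (hQ' : ND Q') {E : ℕ} (hd : finrank F Y = 2 * E) {c : F} (hc : c ≠ 0) :
    (Fintype.card F - 1) * Nat.card {y // Q' y = c} + Nat.card {y // Q' y = 0} = Fintype.card F ^ (2 * E) := by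
  classical
  haveI : Finite Y := Module.finite_of_finite F
  let QZ : QuadraticForm F (Y × F) := QuadraticMap.prod Q' ((-c) • QuadraticMap.sq)
  have hQZ : ∀ y t, QZ (y, t) = Q' y + (-c) * (t * t) := by
    intro y t
    simp [QZ, QuadraticMap.prod_apply]
  have hpol : ∀ y t y' t', polar QZ (y, t) (y', t') = polar Q' y y' + (-c) * (2 * (t * t')) := by
    intro y t y' t'
    simp only [polar, Prod.mk_add_mk, hQZ]
    ring
  have hND : ND QZ := by
    rintro ⟨y, t⟩ h
    have h1 : y = 0 := by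
      apply hQ'
      intro y'
      have := h (y', 0)
      rw [hpol] at this
      simpa using this
    have h3 : t = 0 := by
      have := h (0, 1)
      rw [hpol] at this
      simp only [polar_zero_right, mul_one, zero_add] at this
      have h4 : t * (2 * c) = 0 := by linear_combination -this
      exact (mul_eq_zero.1 h4).resolve_right (mul_ne_zero h2 hc)
    rw [h1, h3]
    rfl
  have hZd : finrank F (Y × F) = 2 * E + 1 := by
    rw [Module.finrank_prod, hd, Module.finrank_self]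
  have h1 := zeros_odd_abs E (Y × F) QZ hND hZd
  let e : {z : Y × F // QZ z = 0} ≃ Σ t : F, {y // Q' y = c * (t * t)} :=
    { toFun := fun z => ⟨z.1.2, ⟨z.1.1, by
        have h3 := z.2
        obtain ⟨⟨y, t⟩, hz⟩ := z
        rw [hQZ] at hz
        show Q' y = c * (t * t)
        linear_combination hz⟩⟩
      invFun := fun x => ⟨(x.2.1, x.1), by
        rw [hQZ, x.2.2]
        ring⟩
      left_inv := fun z => rfl
      right_inv := fun x => rfl }
  rw [Nat.card_congr e, Nat.card_sigma] at h1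
  have hne : ∀ t : F, t ≠ 0 → Nat.card {y // Q' y = c * (t * t)} = Nat.card {y // Q' y = c} := by
    intro t ht
    apply Nat.card_congr
    refine ⟨fun y => ⟨t⁻¹ • y.1, ?_⟩, fun y => ⟨t • y.1, ?_⟩, ?_, ?_⟩
    · rw [Q_sm, y.2]
      field_simp
    · rw [Q_sm, y.2]
      ring
    · rintro ⟨y, hy⟩
      apply Subtype.ext
      simp [smul_smul, ht]
    · rintro ⟨y, hy⟩
      apply Subtype.ext
      simp [smul_smul, ht]
  have h0 : Nat.card {y // Q' y = c * ((0 : F) * 0)} = Nat.card {y // Q' y = 0} := by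
    simp
  rw [← Finset.add_sum_erase _ _ (Finset.mem_univ (0 : F)), h0,
    Finset.sum_congr rfl (fun t ht => hne t (Finset.ne_of_mem_erase ht))] at h1
  simp only [Finset.sum_const, smul_eq_mul] at h1
  rw [Finset.card_erase_of_mem (Finset.mem_univ _), Finset.card_univ] at h1
  linarith

/-- Values in even dimension. -/
theorem value_types (h2 : (2 : F) ≠ 0) (Q' : QuadraticForm F Y) (hQ' : ND Q') {a : ℕ} (hd : finrank F Y = 2 * (a + 1)) :
    ∃ ε : ℤ, (ε = 1 ∨ ε = -1) ∧
      (Nat.card {y // Q' y = 0} : ℤ) = (Fintype.card F : ℤ) ^ (2 * a + 1) + ε * ((Fintype.card F : ℤ) ^ (a + 1) - (Fintype.card F : ℤ) ^ a) ∧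
      ∀ c : F, c ≠ 0 → (Nat.card {y // Q' y = c} : ℤ) = (Fintype.card F : ℤ) ^ a * ((Fintype.card F : ℤ) ^ (a + 1) - ε) := by
  have hq1 : 1 < Fintype.card F := Fintype.one_lt_card
  have hzero : ∃ ε : ℤ, (ε = 1 ∨ ε = -1) ∧
      (Nat.card {y // Q' y = 0} : ℤ) = (Fintype.card F : ℤ) ^ (2 * a + 1) + ε * ((Fintype.card F : ℤ) ^ (a + 1) - (Fintype.card F : ℤ) ^ a) := by
    rcases std_cases hd Q' hQ' with ⟨b, hb⟩ | ⟨k, hk, b, ζ, hb⟩
    · refine ⟨1, Or.inl rfl, ?_⟩
      rw [card_zeros_of_hyp hb]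
      ring
    · obtain rfl : a = k := by omega
      refine ⟨-1, Or.inr rfl, ?_⟩
      rw [card_zeros_of_minus hQ' hb]
      ring
  obtain ⟨ε, hε, hz⟩ := hzero
  refine ⟨ε, hε, hz, ?_⟩
  intro c hc
  have h1 := value_count h2 Q' hQ' hd hc
  have h3 : (((Fintype.card F - 1 : ℕ) : ℤ)) = (Fintype.card F : ℤ) - 1 := by
    push_cast [Nat.one_le_of_lt hq1]
    ring
  have h4 : ((Fintype.card F : ℤ) - 1) * (Nat.card {y // Q' y = c} : ℤ) + (Nat.card {y // Q' y = 0} : ℤ) = (Fintype.card F : ℤ) ^ (2 * (a + 1)) := by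
    rw [← h3]
    exact_mod_cast h1
  rw [hz] at h4
  have hne : ((Fintype.card F : ℤ) - 1) ≠ 0 := by
    have : (1 : ℤ) < Fintype.card F := by exact_mod_cast hq1
    omega
  apply mul_left_cancel₀ hne
  have h5 : ((Fintype.card F : ℤ) - 1) * (Nat.card {y // Q' y = c} : ℤ) = (Fintype.card F : ℤ) ^ (2 * (a + 1)) - ((Fintype.card F : ℤ) ^ (2 * a + 1) + ε * ((Fintype.card F : ℤ) ^ (a + 1) - (Fintype.card F : ℤ) ^ a)) := by
    linarith
  rw [h5]
  ring

end values

section pairs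

variable {Y : Type v} [AddCommGroup Y] [Module F Y] [FiniteDimensional F Y]

/-- Orthogonal pairs of prescribed norms (abstractly). -/
def PRa (Q' : QuadraticForm F Y) (δ : F) : Type v := {p : Y × Y // Q' p.1 = 1 ∧ Q' p.2 = -δ ∧ polar Q' p.1 p.2 = 0}

/-- The complement of a vector. -/
def kerU (Q' : QuadraticForm F Y) (u : Y) : Submodule F Y := LinearMap.ker (polarBilin Q' u)

theorem mem_kerU {Q' : QuadraticForm F Y} {u x : Y} : x ∈ kerU Q' u ↔ polar Q' u x = 0 := Iff.rfl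

theorem nd_kerU (h2 : (2 : F) ≠ 0) {Q' : QuadraticForm F Y} (hQ' : ND Q') {u : Y} (hu : Q' u = 1) : ND (restr Q' (kerU Q' u)) := by
  have huu : polar Q' u u = 2 := by rw [polar_self_eq, hu, mul_one]
  rintro ⟨x, hx⟩ h
  apply Subtype.ext
  apply hQ'
  intro y
  have hy : y - ((2 : F)⁻¹ * polar Q' u y) • u ∈ kerU Q' u := by
    rw [mem_kerU, QuadraticMap.polar_sub_right, polar_sm_r, huu]
    field_simp
    ring
  have h1 := h ⟨_, hy⟩
  rw [polar_restr] at h1
  simp only at h1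
  rw [QuadraticMap.polar_sub_right, polar_sm_r, polar_comm Q' x u, mem_kerU.1 hx] at h1
  simpa using h1

theorem finrank_kerU (h2 : (2 : F) ≠ 0) {Q' : QuadraticForm F Y} {u : Y} (hu : Q' u = 1) :
    finrank F (kerU Q' u) + 1 = finrank F Y := by
  have huu : polar Q' u u = 2 := by rw [polar_self_eq, hu, mul_one]
  have h1 := LinearMap.finrank_range_add_finrank_ker (polarBilin Q' u)
  have h3 : LinearMap.range (polarBilin Q' u) = ⊤ := by
    rw [LinearMap.range_eq_top]
    intro c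
    refine ⟨((2 : F)⁻¹ * c) • u, ?_⟩
    show polar Q' u (((2 : F)⁻¹ * c) • u) = c
    rw [polar_sm_r, huu]
    field_simp
  rw [h3, finrank_top, Module.finrank_self] at h1
  have : finrank F (kerU Q' u) = finrank F (LinearMap.ker (polarBilin Q' u)) := rfl
  omega

/-- The count of norm-one vectors through a given one. -/
theorem value_one (h2 : (2 : F) ≠ 0) {Q' : QuadraticForm F Y} (hQ' : ND Q') {a : ℕ} (hd : finrank F Y = 2 * (a + 1) + 1) {u : Y} (hu : Q' u = 1)
    (δ : F) (hδ : δ ≠ 0) :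
    (Nat.card {y // Q' y = 1} : ℤ) * (Nat.card {x : kerU Q' u // restr Q' (kerU Q' u) x = -δ} : ℤ) =
      (Fintype.card F : ℤ) ^ (2 * a + 1) * ((Fintype.card F : ℤ) ^ (2 * a + 2) - 1) := by
  classical
  haveI : Finite Y := Module.finite_of_finite F
  have huu : polar Q' u u = 2 := by rw [polar_self_eq, hu, mul_one]
  have hq1 : 1 < Fintype.card F := Fintype.one_lt_card
  set X := kerU Q' u with hX
  have hXd : finrank F X = 2 * (a + 1) := by
    have := finrank_kerU h2 hu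
    have h3 : finrank F (kerU Q' u) = finrank F X := by rw [hX]
    omega
  obtain ⟨ε, hε, hz, hv⟩ := value_types h2 (restr Q' X) (nd_kerU h2 hQ' hu) hXd
  -- decomposition of norm-one vectors
  let pr : Y → F := fun y => (2 : F)⁻¹ * polar Q' u y
  have hpr : ∀ y, polar Q' u y = 2 * pr y := by
    intro y
    simp only [pr]
    field_simp
  have hker : ∀ y, y - pr y • u ∈ X := by
    intro y
    rw [hX, mem_kerU, QuadraticMap.polar_sub_right, polar_sm_r, huu, hpr y]
    ring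
  have hQdec : ∀ y, Q' (y - pr y • u) = Q' y - pr y * pr y := by
    intro y
    rw [sub_eq_add_neg, ← neg_smul, Q_ad, Q_sm, hu, polar_sm_r, polar_comm Q' y u, hpr y]
    ring
  have hprs : ∀ (t : F) (x : Y), x ∈ X → pr (t • u + x) = t := by
    intro t x hx
    have e1 : polar Q' u (t • u + x) = t * 2 := by
      rw [polar_add_right, polar_sm_r, huu, mem_kerU.1 hx, add_zero]
    simp only [pr]
    rw [e1]
    field_simp
  let e₁ : {y // Q' y = 1} ≃ {p : F × X // restr Q' X p.2 = 1 - p.1 * p.1} :=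
    { toFun := fun y => ⟨(pr y.1, ⟨y.1 - pr y.1 • u, hker y.1⟩), by
        show Q' (y.1 - pr y.1 • u) = _
        rw [hQdec, y.2]⟩
      invFun := fun x => ⟨x.1.1 • u + (x.1.2 : Y), by
        have h3 : Q' (x.1.2 : Y) = 1 - x.1.1 * x.1.1 := x.2
        rw [Q_ad, Q_sm, hu, polar_sm_l, mem_kerU.1 x.1.2.2, h3]
        ring⟩
      left_inv := fun y => by
        apply Subtype.ext
        show pr y.1 • u + (y.1 - pr y.1 • u) = y.1
        abel
      right_inv := by
        rintro ⟨⟨t, ⟨x, hx⟩⟩, hx2⟩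
        have h3 : pr (t • u + x) = t := hprs t x hx
        apply Subtype.ext
        apply Prod.ext
        · exact h3
        · apply Subtype.ext
          show (t • u + x) - pr (t • u + x) • u = x
          rw [h3]
          abel }
  have hcard : Nat.card {y // Q' y = 1} = ∑ t : F, Nat.card {x : X // restr Q' X x = 1 - t * t} := by
    rw [Nat.card_congr e₁, Nat.card_congr (Equiv.subtypeProdEquivSigmaSubtype (fun (t : F) (x : X) => restr Q' X x = 1 - t * t)),
      Nat.card_sigma]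
  set f := Nat.card {x : X // restr Q' X x = -δ} with hf
  set z := Nat.card {x : X // restr Q' X x = 0} with hzdef
  have hfval : (f : ℤ) = (Fintype.card F : ℤ) ^ a * ((Fintype.card F : ℤ) ^ (a + 1) - ε) := hv _ (neg_ne_zero.2 hδ)
  have hg : ∀ t : F, Nat.card {x : X // restr Q' X x = 1 - t * t} = if t * t = 1 then z else f := by
    intro t
    split_ifs with ht
    · rw [ht, sub_self]
    · have h3 := hv (1 - t * t) (sub_ne_zero.2 (Ne.symm ht))
      have : Nat.card {x : X // restr Q' X x = 1 - t * t} = f := by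
        zify
        rw [h3, hfval]
      exact this
  have hone : (1 : F) ≠ -1 := by
    intro h
    apply h2
    linear_combination h
  have hcount : (Finset.univ.filter (fun t : F => t * t = 1)).card = 2 := by
    have : Finset.univ.filter (fun t : F => t * t = 1) = {1, -1} := by
      ext t
      simp [mul_self_eq_one_iff]
    rw [this, Finset.card_pair hone]
  have hcount2 := Finset.card_filter_add_card_filter_not (s := (Finset.univ : Finset F)) (fun t : F => t * t = 1)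
  rw [hcount, Finset.card_univ] at hcount2
  have hsum : Nat.card {y // Q' y = 1} = 2 * z + (Fintype.card F - 2) * f := by
    rw [hcard, Finset.sum_congr rfl (fun t _ => hg t), Finset.sum_ite]
    simp only [Finset.sum_const, smul_eq_mul]
    rw [hcount]
    congr 2
    omega
  have hq2 : 2 ≤ Fintype.card F := hq1
  have hsum' : (Nat.card {y // Q' y = 1} : ℤ) = 2 * (z : ℤ) + ((Fintype.card F : ℤ) - 2) * (f : ℤ) := by
    rw [hsum]
    push_cast [Nat.cast_sub hq2]
    ring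
  show (Nat.card {y // Q' y = 1} : ℤ) * (f : ℤ) = _
  rw [hsum', hfval, hz]
  have e2 : (Fintype.card F : ℤ) ^ (2 * a + 1) = (Fintype.card F : ℤ) ^ a * (Fintype.card F : ℤ) ^ a * (Fintype.card F : ℤ) := by ring
  rcases hε with rfl | rfl <;> ring

/-- The number of orthogonal pairs. -/
theorem card_PRa (h2 : (2 : F) ≠ 0) {Q' : QuadraticForm F Y} (hQ' : ND Q') {a : ℕ} (hd : finrank F Y = 2 * (a + 1) + 1)
    (δ : F) (hδ : δ ≠ 0) :
    Nat.card (PRa Q' δ) = Fintype.card F ^ (2 * a + 1) * (Fintype.card F ^ (2 * a + 2) - 1) := by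
  classical
  haveI : Finite Y := Module.finite_of_finite F
  haveI : Fintype {y // Q' y = 1} := Fintype.ofFinite _
  have hq1 : 1 < Fintype.card F := Fintype.one_lt_card
  obtain ⟨u₀, hu₀⟩ := exists_value hQ' (by omega) 1
  let e : PRa Q' δ ≃ Σ u : {y // Q' y = 1}, {x : kerU Q' u.1 // restr Q' (kerU Q' u.1) x = -δ} :=
    { toFun := fun p => ⟨⟨p.1.1, p.2.1⟩, ⟨⟨p.1.2, p.2.2.2⟩, p.2.2.1⟩⟩
      invFun := fun x => ⟨(x.1.1, x.2.1.1), x.1.2, x.2.2, x.2.1.2⟩
      left_inv := fun p => rfl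
      right_inv := fun x => rfl }
  rw [Nat.card_congr e, Nat.card_sigma]
  set N₁ := Nat.card {y // Q' y = 1} with hN₁
  have hv := fun u hu => value_one h2 hQ' hd (u := u) hu δ hδ
  have hY : 0 < ((Fintype.card F : ℤ) ^ (2 * a + 1) * ((Fintype.card F : ℤ) ^ (2 * a + 2) - 1)) := by
    have h3 : (1 : ℤ) < Fintype.card F := by exact_mod_cast hq1
    apply mul_pos (pow_pos (by omega) _)
    have h4 : (1 : ℤ) < (Fintype.card F : ℤ) ^ (2 * a + 2) := one_lt_pow₀ h3 (by omega)
    omega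
  have hN₁pos : (N₁ : ℤ) ≠ 0 := by
    intro h0
    have := hv u₀ hu₀
    rw [← hN₁, h0, zero_mul] at this
    omega
  have hc : ∀ u : {y // Q' y = 1}, Nat.card {x : kerU Q' u.1 // restr Q' (kerU Q' u.1) x = -δ} =
      Nat.card {x : kerU Q' u₀ // restr Q' (kerU Q' u₀) x = -δ} := by
    intro u
    have h3 := hv u.1 u.2
    have h4 := hv u₀ hu₀
    rw [← h4] at h3
    have := mul_left_cancel₀ hN₁pos h3
    exact_mod_cast this
  simp only [hc, Finset.sum_const, Finset.card_univ, smul_eq_mul]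
  rw [← Nat.card_eq_fintype_card]
  have h5 := hv u₀ hu₀
  zify [Nat.one_le_pow (2 * a + 2) (Fintype.card F) (by omega)]
  exact h5

/-- Isometric forms have the same number of pairs. -/
theorem card_PRa_congr {Y' : Type*} [AddCommGroup Y'] [Module F Y'] {Q₁ : QuadraticForm F Y} {Q₂ : QuadraticForm F Y'}
    (e : Y ≃ₗ[F] Y') (he : ∀ v, Q₂ (e v) = Q₁ v) (δ : F) : Nat.card (PRa Q₁ δ) = Nat.card (PRa Q₂ δ) := by
  have hpol : ∀ x y, polar Q₂ (e x) (e y) = polar Q₁ x y := by
    intro x y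
    rw [polar, polar, ← map_add, he, he, he]
  apply Nat.card_congr
  refine ⟨fun p => ⟨(e p.1.1, e p.1.2), ?_⟩, fun p => ⟨(e.symm p.1.1, e.symm p.1.2), ?_⟩, ?_, ?_⟩
  · refine ⟨by rw [he]; exact p.2.1, by rw [he]; exact p.2.2.1, by rw [hpol]; exact p.2.2.2⟩
  · refine ⟨?_, ?_, ?_⟩
    · rw [← he]
      simpa using p.2.1
    · rw [← he]
      simpa using p.2.2.1
    · rw [← hpol]
      simpa using p.2.2.2
  · intro p
    apply Subtype.ext
    simp
  · intro p
    apply Subtype.ext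
    simp

end pairs

section relative

variable {V : Type u} [AddCommGroup V] [Module F V] [FiniteDimensional F V]

/-- Elliptic subspaces of given dimension in a subspace. -/
def ES (Q : QuadraticForm F V) (U : Submodule F V) (A : ℕ) : Type u :=
  {W : Submodule F V // W ≤ U ∧ Ell Q W ∧ finrank F W = 2 * A}

/-- Pairs in a subspace. -/
def PR (Q : QuadraticForm F V) (U : Submodule F V) (δ : F) : Type u :=
  {p : V × V // p.1 ∈ U ∧ p.2 ∈ U ∧ Q p.1 = 1 ∧ Q p.2 = -δ ∧ polar Q p.1 p.2 = 0}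

theorem card_PR_eq (Q : QuadraticForm F V) (U : Submodule F V) (δ : F) : Nat.card (PR Q U δ) = Nat.card (PRa (restr Q U) δ) := by
  apply Nat.card_congr
  refine ⟨fun p => ⟨(⟨p.1.1, p.2.1⟩, ⟨p.1.2, p.2.2.1⟩), p.2.2.2.1, p.2.2.2.2.1, ?_⟩,
    fun p => ⟨((p.1.1 : V), (p.1.2 : V)), p.1.1.2, p.1.2.2, p.2.1, p.2.2.1, ?_⟩, fun p => rfl, fun p => rfl⟩
  · rw [polar_restr]
    exact p.2.2.2.2.2
  · have := p.2.2.2
    rwa [polar_restr] at this

/-- Orthogonal pairs span anisotropic planes. -/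
theorem pair_ani {Q : QuadraticForm F V} {u v : V} {δ : F} (hδ : ¬ IsSquare δ) (hu : Q u = 1) (hv : Q v = -δ) (hp : polar Q u v = 0) :
    Ani Q (Submodule.span F {u, v}) := by
  have hval : ∀ a b : F, Q (a • u + b • v) = a ^ 2 - δ * b ^ 2 := by
    intro a b
    rw [Q_ad, Q_sm, Q_sm, polar_sm_l, polar_sm_r, hp, hu, hv]
    ring
  have hzero : ∀ a b : F, a ^ 2 - δ * b ^ 2 = 0 → a = 0 ∧ b = 0 := by
    intro a b hab
    by_cases hb : b = 0
    · subst hb
      refine ⟨?_, rfl⟩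
      have : a ^ 2 = 0 := by linear_combination hab
      exact pow_eq_zero_iff (by norm_num) |>.1 this
    · exfalso
      apply hδ
      refine ⟨a / b, ?_⟩
      field_simp
      linear_combination -hab
  refine ⟨?_, ?_⟩
  · intro w hw h0
    obtain ⟨a, b, rfl⟩ := Submodule.mem_span_pair.1 hw
    rw [hval] at h0
    obtain ⟨rfl, rfl⟩ := hzero a b h0
    simp
  · apply finrank_pair
    intro s t hst
    apply hzero
    rw [← hval, hst, QuadraticMap.map_zero]

theorem ell_of_ani {Q : QuadraticForm F V} {A : Submodule F V} (hA : Ani Q A) : Ell Q A :=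
  ⟨A, ⊥, hA, hyp_bot Q, fun u _ v hv => by
    rw [Submodule.mem_bot] at hv
    rw [hv]
    simp, by simp⟩

theorem ani_of_ell_two (h2 : (2 : F) ≠ 0) {Q : QuadraticForm F V} {W : Submodule F V} (hW : Ell Q W) (hd : finrank F W = 2) : Ani Q W := by
  obtain ⟨A, H, hA, hH, hAH, rfl⟩ := hW
  rw [finrank_sup_of_orth h2 (nd_of_ani h2 hA) hAH, hA.2] at hd
  have h0 : H = ⊥ := Submodule.finrank_eq_zero.1 (by omega)
  rw [h0, sup_bot_eq]
  exact hA

/-- All anisotropic planes have the same number of pairs. -/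
theorem card_PR_ani (h2 : (2 : F) ≠ 0) {Q : QuadraticForm F V} {W W' : Submodule F V} (hW : Ani Q W) (hW' : Ani Q W') (δ : F) :
    Nat.card (PR Q W δ) = Nat.card (PR Q W' δ) := by
  rw [card_PR_eq, card_PR_eq]
  have hbasis : ∀ {X : Submodule F V}, Ani Q X → ∃ (b : Basis ((Fin 0 ⊕ Fin 0) ⊕ Fin 2) F X) (ζ : F), IsMinusBasis (restr Q X) b ζ := by
    intro X hX
    apply minus_of_no_ts (Q := restr Q X) (by rw [hX.2]) (nd_restr (nd_of_ani h2 hX))
    intro K hK hKd
    have hne : K ≠ ⊥ := by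
      rintro rfl
      simp at hKd
    obtain ⟨v, hv, hv0⟩ := (Submodule.ne_bot_iff K).1 hne
    apply hv0
    apply Subtype.ext
    exact hX.1 _ v.2 (hK v hv)
  obtain ⟨b, ζ, hb⟩ := hbasis hW
  obtain ⟨b', ζ', hb'⟩ := hbasis hW'
  obtain ⟨e, he⟩ := isometry_of_minus (nd_restr (nd_of_ani h2 hW)) hb hb'
  exact card_PRa_congr e he δ

/-- Double counting for planes. -/
theorem card_ES_one (h2 : (2 : F) ≠ 0) {Q : QuadraticForm F V} {U : Submodule F V} (hU : NDOn (Bf Q) U) {a : ℕ}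
    (hd : finrank F U = 2 * (a + 1) + 1) {δ : F} (hδ : ¬ IsSquare δ) {X₀ : ℕ} (hX₀ : ∀ W : ES Q U 1, Nat.card (PR Q W.1 δ) = X₀) :
    Nat.card (ES Q U 1) * X₀ = Fintype.card F ^ (2 * a + 1) * (Fintype.card F ^ (2 * a + 2) - 1) := by
  classical
  haveI : Finite V := Module.finite_of_finite F
  haveI : Finite (ES Q U 1) := Subtype.finite
  haveI : Fintype (ES Q U 1) := Fintype.ofFinite _
  haveI : Finite (PR Q U δ) := Subtype.finite
  have hδ0 : δ ≠ 0 := by
    rintro rfl
    exact hδ IsSquare.zero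
  have hmain : Nat.card (PR Q U δ) = _ := (card_PR_eq Q U δ).trans (card_PRa h2 (nd_restr hU) hd δ hδ0)
  rw [← hmain]
  let g : PR Q U δ → ES Q U 1 := fun p => ⟨Submodule.span F {p.1.1, p.1.2}, Submodule.span_le.2 (by
      rintro x (rfl | rfl)
      · exact p.2.1
      · exact p.2.2.1), ell_of_ani (pair_ani hδ p.2.2.2.1 p.2.2.2.2.1 p.2.2.2.2.2), by
      rw [(pair_ani hδ p.2.2.2.1 p.2.2.2.2.1 p.2.2.2.2.2).2]⟩
  have hfib : ∀ W : ES Q U 1, Nat.card {p // g p = W} = X₀ := by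
    intro W
    rw [← hX₀ W]
    apply Nat.card_congr
    refine ⟨fun p => ⟨p.1.1, ?_, ?_, p.1.2.2.2.1, p.1.2.2.2.2.1, p.1.2.2.2.2.2⟩, fun p => ⟨⟨p.1, W.2.1 p.2.1, W.2.1 p.2.2.1, p.2.2.2⟩, ?_⟩, fun p => rfl, fun p => rfl⟩
    · have h : p.1.1.1 ∈ (g p.1).1 := Submodule.subset_span (by simp)
      exact (congrArg Subtype.val p.2) ▸ h
    · have h : p.1.1.2 ∈ (g p.1).1 := Submodule.subset_span (by simp)
      exact (congrArg Subtype.val p.2) ▸ h
    · apply Subtype.ext
      show Submodule.span F {p.1.1, p.1.2} = W.1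
      apply Submodule.eq_of_le_of_finrank_eq
      · apply Submodule.span_le.2
        rintro x (rfl | rfl)
        · exact p.2.1
        · exact p.2.2.1
      · rw [(pair_ani hδ p.2.2.2.1 p.2.2.2.2.1 p.2.2.2.2.2).2, W.2.2.2]
  rw [← Nat.card_congr (Equiv.sigmaFiberEquiv g), Nat.card_sigma]
  simp only [hfib, Finset.sum_const, Finset.card_univ, smul_eq_mul]
  rw [Nat.card_eq_fintype_card]

/-- The count of hyperbolic pairs in an elliptic space. -/
noncomputable def hpcE (F : Type*) [Field F] [Fintype F] (a : ℕ) : ℕ :=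
  (Fintype.card F ^ (2 * a + 1) + Fintype.card F ^ a - Fintype.card F ^ (a + 1) - 1) * Fintype.card F ^ (2 * a)

theorem hpcE_pos (a : ℕ) : 0 < hpcE F (a + 1) := by
  have hq : 2 ≤ Fintype.card F := Fintype.one_lt_card
  unfold hpcE
  apply Nat.mul_pos _ (pow_pos (by omega) _)
  have h1 : Fintype.card F ^ (a + 1 + 1) ≤ Fintype.card F ^ (2 * (a + 1) + 1) := Nat.pow_le_pow_right (by omega) (by omega)
  have h3 : 1 ≤ Fintype.card F ^ (a + 1) := Nat.one_le_pow _ _ (by omega)
  have h4 : 2 ≤ Fintype.card F ^ (a + 1) := by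
    calc 2 ≤ Fintype.card F := hq
      _ = Fintype.card F ^ 1 := (pow_one _).symm
      _ ≤ _ := Nat.pow_le_pow_right (by omega) (by omega)
  omega

theorem card_HP_ell (h2 : (2 : F) ≠ 0) {Q : QuadraticForm F V} {W : Submodule F V} (hW : Ell Q W) {a : ℕ}
    (hd : finrank F W = 2 * (a + 1)) : Nat.card (HP Q W) = hpcE F a := by
  have hnd := hW.nd h2
  obtain ⟨b, ζ, hb⟩ := minus_of_no_ts (Q := restr Q W) hd (nd_restr hnd) (by
    intro S hS hSd
    apply not_hyp_of_ell h2 hW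
    refine ⟨hnd, S.map W.subtype, Submodule.map_subtype_le _ _, ?_, ?_⟩
    · rintro _ ⟨v, hv, rfl⟩
      exact hS v hv
    · rw [Submodule.finrank_map_subtype_eq, hSd, hd])
  have h1 := card_zeros_of_minus (nd_restr hnd) hb
  rw [card_HP h2 hnd, hd]
  unfold hpcE
  have hq : 2 ≤ Fintype.card F := Fintype.one_lt_card
  have hle : Fintype.card F ^ (a + 1) ≤ Fintype.card F ^ (2 * a + 1) + Fintype.card F ^ a := by
    have : Fintype.card F ^ (a + 1) ≤ Fintype.card F ^ (2 * a + 1) := Nat.pow_le_pow_right (by omega) (by omega)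
    omega
  have h3 : Nat.card {v : W // restr Q W v = 0} = Fintype.card F ^ (2 * a + 1) + Fintype.card F ^ a - Fintype.card F ^ (a + 1) := by
    zify [hle]
    exact h1
  rw [h3]
  congr 2

/-- The fibre over a hyperbolic pair, elliptic version. -/
theorem card_fibre_E (h2 : (2 : F) ≠ 0) [Finite V] {Q : QuadraticForm F V} {U : Submodule F V} {e f : V} (he : e ∈ U) (hf : f ∈ U)
    (hef : IsHyp Q e f) (A : ℕ) :
    Nat.card {W : ES Q U (A + 1) // e ∈ W.1 ∧ f ∈ W.1} =
      Nat.card (ES Q (U ⊓ perp (Bf Q) (Submodule.span F {e, f})) A) := by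
  obtain ⟨hP, hPd⟩ := hyp_plane h2 hef
  set P := Submodule.span F {e, f} with hPdef
  have heP : e ∈ P := Submodule.subset_span (by simp)
  have hfP : f ∈ P := Submodule.subset_span (by simp)
  have hPU : P ≤ U := Submodule.span_le.2 (by
    rintro x (rfl | rfl)
    · exact he
    · exact hf)
  refine Nat.card_congr ⟨fun W => ⟨W.1.1 ⊓ perp (Bf Q) P, ?_⟩, fun W' => ⟨⟨P ⊔ W'.1, ?_⟩, ?_⟩, ?_, ?_⟩
  · obtain ⟨⟨W, hWU, hW, hWd⟩, heW, hfW⟩ := W
    have hPW : P ≤ W := Submodule.span_le.2 (by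
      rintro x (rfl | rfl)
      · exact heW
      · exact hfW)
    have h1 := finrank_rel (good h2 Q) hPW hP.1
    have h3 : finrank F (W ⊓ perp (Bf Q) P : Submodule F V) = 2 * A := by omega
    refine ⟨inf_le_inf_right _ hWU, ?_, h3⟩
    rcases hyp_or_ell h2 Q A _ h3 (nd_rel (good h2 Q) hPW hP.1 (hW.nd h2)) with h4 | h4
    · exfalso
      apply not_hyp_of_ell h2 hW
      rw [← sup_rel (good h2 Q) hPW hP.1]
      exact hyp_sup h2 hP h4 (fun u hu v hv => hv.2 u hu)
    · exact h4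
  · obtain ⟨W', hW'U, hW', hW'd⟩ := W'
    have horth : Orth Q P W' := fun u hu v hv => (hW'U hv).2 u hu
    refine ⟨sup_le hPU (hW'U.trans inf_le_left), ?_, ?_⟩
    · rw [sup_comm]
      exact ell_sup_hyp h2 hW' hP horth.symm
    · rw [finrank_sup_of_orth h2 hP.1 horth, hPd, hW'd]
      ring
  · exact ⟨Submodule.mem_sup_left heP, Submodule.mem_sup_left hfP⟩
  · rintro ⟨⟨W, hWU, hW, hWd⟩, heW, hfW⟩
    have hPW : P ≤ W := Submodule.span_le.2 (by
      rintro x (rfl | rfl)
      · exact heW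
      · exact hfW)
    apply Subtype.ext
    apply Subtype.ext
    exact sup_rel (good h2 Q) hPW hP.1
  · rintro ⟨W', hW'U, hW', hW'd⟩
    apply Subtype.ext
    show (P ⊔ W') ⊓ perp (Bf Q) P = W'
    have h3 : W' ≤ perp (Bf Q) P := hW'U.trans inf_le_right
    rw [sup_comm, sup_inf_assoc_of_le _ h3, (isCompl_perp (good h2 Q) hP.1).inf_eq_bot, sup_bot_eq]

/-- Double counting. -/
theorem rec_count_E (h2 : (2 : F) ≠ 0) {Q : QuadraticForm F V} {U : Submodule F V} {a A c' : ℕ}
    (hc' : ∀ p : HP Q U, Nat.card (ES Q (U ⊓ perp (Bf Q) (Submodule.span F {p.1.1, p.1.2})) A) = c') :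
    (∀ W : ES Q U (A + 1), Nat.card (HP Q W.1) = a) → Nat.card (ES Q U (A + 1)) * a = Nat.card (HP Q U) * c' := by
  classical
  intro ha
  haveI : Finite V := Module.finite_of_finite F
  haveI : Finite (ES Q U (A + 1)) := Subtype.finite
  haveI : Fintype (ES Q U (A + 1)) := Fintype.ofFinite _
  haveI : Finite (HP Q U) := Subtype.finite
  haveI : Fintype (HP Q U) := Fintype.ofFinite _
  haveI : ∀ W : Submodule F V, Finite (HP Q W) := fun W => Subtype.finite
  let E : (Σ W : ES Q U (A + 1), HP Q W.1) ≃ Σ p : HP Q U, {W : ES Q U (A + 1) // p.1.1 ∈ W.1 ∧ p.1.2 ∈ W.1} :=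
    { toFun := fun x => ⟨⟨x.2.1, x.1.2.1 x.2.2.1, x.1.2.1 x.2.2.2.1, x.2.2.2.2⟩, ⟨x.1, x.2.2.1, x.2.2.2.1⟩⟩
      invFun := fun y => ⟨y.2.1, ⟨y.1.1, y.2.2.1, y.2.2.2, y.1.2.2.2⟩⟩
      left_inv := fun x => rfl
      right_inv := fun y => rfl }
  have h1 := Nat.card_congr E
  rw [Nat.card_sigma, Nat.card_sigma] at h1
  simp only [ha] at h1
  have h3 : ∀ p : HP Q U, Nat.card {W : ES Q U (A + 1) // p.1.1 ∈ W.1 ∧ p.1.2 ∈ W.1} = c' := by
    intro p
    rw [card_fibre_E h2 p.2.1 p.2.2.1 p.2.2.2 A, hc' p]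
  simp only [h3, Finset.sum_const, Finset.card_univ, smul_eq_mul] at h1
  rw [Nat.card_eq_fintype_card, Nat.card_eq_fintype_card]
  exact h1

/-- The main recursion. -/
theorem count_step_E (h2 : (2 : F) ≠ 0) {Q : QuadraticForm F V} {A D : ℕ}
    (huni : ∀ U U' : Submodule F V, NDOn (Bf Q) U → NDOn (Bf Q) U' → finrank F U = 2 * D + 1 → finrank F U' = 2 * D + 1 →
      Nat.card (ES Q U A) = Nat.card (ES Q U' A)) {U : Submodule F V} (hU : NDOn (Bf Q) U) (hd : finrank F U = 2 * (D + 1) + 1) :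
    ∃ U₁ : Submodule F V, NDOn (Bf Q) U₁ ∧ finrank F U₁ = 2 * D + 1 ∧
      Nat.card (ES Q U (A + 1)) * hpcE F A = (Fintype.card F ^ (2 * (D + 1)) - 1) * Fintype.card F ^ (2 * D + 1) * Nat.card (ES Q U₁ A) := by
  obtain ⟨e, he, f, hf, hef⟩ := exists_pair hU (by omega)
  obtain ⟨h3, h4⟩ := rel_data h2 hU he hf hef
  refine ⟨_, h3, by omega, ?_⟩
  rw [← card_HP_odd h2 hU hd]
  apply rec_count_E h2
  · intro p
    obtain ⟨h5, h6⟩ := rel_data h2 hU p.2.1 p.2.2.1 p.2.2.2
    exact huni _ _ h5 h3 (by omega) (by omega)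
  · intro W
    exact card_HP_ell h2 W.2.2.1 W.2.2.2

/-- Uniformity of the number of elliptic planes. -/
theorem count_uniform_E_base (h2 : (2 : F) ≠ 0) {Q : QuadraticForm F V} {a : ℕ} {U U' : Submodule F V}
    (hU : NDOn (Bf Q) U) (hU' : NDOn (Bf Q) U') (hd : finrank F U = 2 * (a + 1) + 1) (hd' : finrank F U' = 2 * (a + 1) + 1) :
    Nat.card (ES Q U 1) = Nat.card (ES Q U' 1) := by
  classical
  obtain ⟨δ, hδ⟩ := FiniteField.exists_nonsquare (F := F) (by
    intro h
    apply h2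
    have := ringChar.Nat.cast_ringChar (R := F)
    rw [h] at this
    exact_mod_cast this)
  obtain ⟨A₀, hA₀U, hA₀⟩ := exists_ani_sub h2 Q hU (by omega)
  have h1 := card_ES_one h2 hU hd hδ (X₀ := Nat.card (PR Q A₀ δ)) (fun W => card_PR_ani h2 (ani_of_ell_two h2 W.2.2.1 W.2.2.2) hA₀ δ)
  have h3 := card_ES_one h2 hU' hd' hδ (X₀ := Nat.card (PR Q A₀ δ)) (fun W => card_PR_ani h2 (ani_of_ell_two h2 W.2.2.1 W.2.2.2) hA₀ δ)
  have hq : 2 ≤ Fintype.card F := Fintype.one_lt_card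
  have hY : 0 < Fintype.card F ^ (2 * a + 1) * (Fintype.card F ^ (2 * a + 2) - 1) := by
    apply Nat.mul_pos (pow_pos (by omega) _)
    have : 2 ^ 1 ≤ Fintype.card F ^ (2 * a + 2) := (Nat.pow_le_pow_left hq 1).trans (Nat.pow_le_pow_right (by omega) (by omega))
    omega
  have hX : 0 < Nat.card (PR Q A₀ δ) := by
    rw [← h1] at hY
    exact Nat.pos_of_mul_pos_left hY |> fun h => h
  rw [← h3] at h1
  exact Nat.eq_of_mul_eq_mul_right hX h1

/-- Divisibility for elliptic planes. -/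
theorem count_dvd_E_base (h2 : (2 : F) ≠ 0) {Q : QuadraticForm F V} {r : ℕ} (hr : r.Prime) (hrq : ¬ r ∣ Fintype.card F) {a : ℕ} {U : Submodule F V}
    (hU : NDOn (Bf Q) U) (hd : finrank F U = 2 * (a + 1) + 1) (h : r ∣ Nat.card (ES Q U 1)) :
    r ∣ Fintype.card F ^ (2 * (a + 1)) - 1 := by
  classical
  obtain ⟨δ, hδ⟩ := FiniteField.exists_nonsquare (F := F) (by
    intro h
    apply h2
    have := ringChar.Nat.cast_ringChar (R := F)
    rw [h] at this
    exact_mod_cast this)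
  obtain ⟨A₀, hA₀U, hA₀⟩ := exists_ani_sub h2 Q hU (by omega)
  have h1 := card_ES_one h2 hU hd hδ (X₀ := Nat.card (PR Q A₀ δ)) (fun W => card_PR_ani h2 (ani_of_ell_two h2 W.2.2.1 W.2.2.2) hA₀ δ)
  have h3 : r ∣ Fintype.card F ^ (2 * a + 1) * (Fintype.card F ^ (2 * a + 2) - 1) := by
    rw [← h1]
    exact Dvd.dvd.mul_right h _
  rcases (Nat.Prime.dvd_mul hr).1 h3 with h4 | h4
  · exact absurd (hr.dvd_of_dvd_pow h4) hrq
  · exact h4

theorem count_uniform_E (h2 : (2 : F) ≠ 0) {Q : QuadraticForm F V} :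
    ∀ (A D : ℕ), A + 1 ≤ D → ∀ U U' : Submodule F V, NDOn (Bf Q) U → NDOn (Bf Q) U' → finrank F U = 2 * D + 1 → finrank F U' = 2 * D + 1 →
      Nat.card (ES Q U (A + 1)) = Nat.card (ES Q U' (A + 1)) := by
  intro A
  induction A with
  | zero =>
    intro D hD U U' hU hU' hd hd'
    obtain ⟨D, rfl⟩ : ∃ D', D = D' + 1 := ⟨D - 1, by omega⟩
    exact count_uniform_E_base h2 hU hU' hd hd'
  | succ A ih =>
    intro D hAD U U' hU hU' hd hd'
    obtain ⟨D, rfl⟩ : ∃ D', D = D' + 1 := ⟨D - 1, by omega⟩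
    have huni := ih D (by omega)
    obtain ⟨U₁, h1, h3, h4⟩ := count_step_E h2 huni hU hd
    obtain ⟨U₂, h5, h6, h7⟩ := count_step_E h2 huni hU' hd'
    rw [huni U₁ U₂ h1 h5 h3 h6, ← h7] at h4
    exact Nat.eq_of_mul_eq_mul_right (hpcE_pos A) h4

/-- The divisibility conclusion. -/
theorem count_dvd_E (h2 : (2 : F) ≠ 0) {Q : QuadraticForm F V} {r : ℕ} (hr : r.Prime) (hrq : ¬ r ∣ Fintype.card F) :
    ∀ (A D : ℕ), A + 1 ≤ D → ∀ U : Submodule F V, NDOn (Bf Q) U → finrank F U = 2 * D + 1 → r ∣ Nat.card (ES Q U (A + 1)) →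
      ∃ j < A + 1, r ∣ Fintype.card F ^ (2 * (D - j)) - 1 := by
  intro A
  induction A with
  | zero =>
    intro D hD U hU hd h
    obtain ⟨D, rfl⟩ : ∃ D', D = D' + 1 := ⟨D - 1, by omega⟩
    exact ⟨0, by omega, count_dvd_E_base h2 hr hrq hU hd h⟩
  | succ A ih =>
    intro D hAD U hU hd h
    obtain ⟨D, rfl⟩ : ∃ D', D = D' + 1 := ⟨D - 1, by omega⟩
    have huni := count_uniform_E h2 (Q := Q) A D (by omega)
    obtain ⟨U₁, h1, h3, h4⟩ := count_step_E h2 huni hU hd
    have h5 : r ∣ (Fintype.card F ^ (2 * (D + 1)) - 1) * Fintype.card F ^ (2 * D + 1) * Nat.card (ES Q U₁ (A + 1)) := by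
      rw [← h4]
      exact Dvd.dvd.mul_right h _
    rcases (Nat.Prime.dvd_mul hr).1 h5 with h6 | h6
    · rcases (Nat.Prime.dvd_mul hr).1 h6 with h7 | h7
      · exact ⟨0, by omega, by simpa using h7⟩
      · exact absurd (hr.dvd_of_dvd_pow h7) hrq
    · obtain ⟨j, hj, h7⟩ := ih D (by omega) U₁ h1 h3 h6
      refine ⟨j + 1, by omega, ?_⟩
      have : D + 1 - (j + 1) = D - j := by omega
      rw [this]
      exact h7

end relative

end Cfsg.Agent.Lib.HypCountE
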