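import Mathlib
import Cfsg.Agent.Lib.HypBridge
import Cfsg.Agent.Lib.HypCountE

/-!
# From the matrix statements to abstract quadratic spaces: elliptic subspaces
-/

set_option autoImplicit false
set_option linter.unusedSectionVars false
set_option linter.unusedSimpArgs false
set_option linter.unusedVariables false
set_option linter.style.haveILetI false

namespace Cfsg.Agent.Lib.HypBridgeE

open Module QuadraticMap Matrix Cfsg.Agent.Lib.QuadFF Cfsg.Agent.Lib.IsomBlock
open Cfsg.Agent.Lib.HypEll Cfsg.Agent.Lib.HypBlock Cfsg.Agent.Lib.HypBridge Cfsg.Agent.Lib.HypCountE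
open Cfsg.Agent.Lib.OrthoCount
open scoped MatrixGroups

section abstract

universe u

variable {F : Type*} [Field F] [Fintype F] {V : Type u} [AddCommGroup V] [Module F V] [FiniteDimensional F V]
variable {Q : QuadraticForm F V} {T : V →ₗ[F] V} {r q : ℕ}

/-- The conclusion for elliptic subspaces. -/
theorem forward_ell [hr : Fact r.Prime] (h2 : (2 : F) ≠ 0) (hq : Fintype.card F = q) (hr2 : r ≠ 2) (hrF : (r : F) ≠ 0)
    (hT : ∀ v, Q (T v) = Q v) (hTr : T ^ r = 1) {n m : ℕ} (hn : Odd n) (hme : Even m) (hfix : finrank F (fixS T ⊤) = n % blockDim r q)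
    {W : Submodule F V} (hW : Ell Q W) (hWd : finrank F W = m) (hinv : InvOn T W) :
    m % blockDim r q < n % blockDim r q ∧ (¬ Even (orderOf (q : ZMod r)) → 0 < m % blockDim r q) ∧
      (Even (orderOf (q : ZMod r)) → m % blockDim r q = 0 → Odd (m / orderOf (q : ZMod r))) := by
  have hpos : 0 < blockDim r q := blockDim_pos hq hrF
  have hce : Even (blockDim r q) := blockDim_even r q
  have hWnd := hW.nd h2
  obtain ⟨h1, h3, h4, a, ha⟩ := forward_shape h2 hq hr2 hrF hT hTr hfix hWnd hWd hinv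
  refine ⟨?_, ?_, ?_⟩
  · rw [h1]
    apply lt_of_le_of_ne h3
    intro h5
    -- parity
    have h6 : Odd (n % blockDim r q) := by
      rw [Nat.odd_iff] at hn ⊢
      obtain ⟨x, hx⟩ := hce
      have h7 : blockDim r q = 2 * x := by omega
      rw [h7, Nat.mod_mul] at *
      omega
    rw [← h5] at h6
    have h7 : Even (m % blockDim r q) := by
      rw [h1]
      obtain ⟨x, hx⟩ := hce
      obtain ⟨y, hy⟩ := hme
      have h8 : blockDim r q * a = 2 * (x * a) := by rw [hx]; ring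
      exact ⟨y - x * a, by omega⟩
    rw [h1] at h7
    exact (Nat.not_even_iff_odd.2 h6) h7
  · intro hev
    apply Nat.pos_of_ne_zero
    intro h0
    have h5 := h4 h0
    rw [h1] at h0
    rw [h0, zero_add] at ha
    exact not_hyp_of_ell h2 hW (type_fpf_odd h2 hq hr2 hrF hT hTr hev _ W rfl hWnd hinv h5)
  · intro hev h0
    have hci : blockDim r q = orderOf (q : ZMod r) := by
      unfold blockDim
      rw [if_pos hev]
    have h5 := h4 h0
    rw [h1] at h0
    rw [h0, zero_add, hci] at ha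
    have h6 := type_fpf_even h2 hq hr2 hrF hT hTr hev a W (by rw [hWd, ha]) hWnd hinv h5
    rw [hci] at hpos
    have h7 : m / orderOf (q : ZMod r) = a := by
      rw [ha]
      exact Nat.mul_div_cancel_left a hpos
    rw [h7]
    by_contra hne
    exact not_hyp_of_ell h2 hW (h6.1 (Nat.not_odd_iff_even.1 hne))

end abstract

section matrix

variable {F : Type*} [Field F] [Fintype F] {d : ℕ}

theorem ell_iff (hodd : Odd (Fintype.card F)) (W : Submodule F (Unit ⊕ (Fin d ⊕ Fin d) → F)) (A : ℕ) :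
    (finrank F W = 2 * A ∧ Cfsg.Geo.IsNondegenerateOn (polar (Cfsg.quadFormOdd d F)) W ∧ ¬ Cfsg.Geo.IsPlusTypeOn (Cfsg.quadFormOdd d F) W) ↔
      (Ell (qOdd d F) W ∧ finrank F W = 2 * A) := by
  have h2 := two_ne hodd
  rw [← hf_qOdd, ndOn_iff]
  constructor
  · rintro ⟨h1, h3, h4⟩
    refine ⟨?_, h1⟩
    rcases hyp_or_ell h2 (qOdd d F) A W h1 h3 with h5 | h5
    · exact absurd (by
        obtain ⟨_, U, h6, h7, h8⟩ := h5
        exact ⟨U, h6, h7, h8⟩) h4
    · exact h5
  · rintro ⟨h3, h1⟩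
    refine ⟨h1, h3.nd h2, ?_⟩
    rintro ⟨U, h4, h5, h6⟩
    exact not_hyp_of_ell h2 h3 ⟨h3.nd h2, U, h4, h5, h6⟩

/-- The count in the matrix setting. -/
theorem count_matrix_E (hodd : Odd (Fintype.card F)) {r A : ℕ} (hr : r.Prime) (hrq : ¬ r ∣ Fintype.card F) (hA : A + 1 ≤ d)
    (h : r ∣ Nat.card {W : Submodule F (Unit ⊕ (Fin d ⊕ Fin d) → F) // Module.finrank F ↥W = 2 * (A + 1) ∧
      Cfsg.Geo.IsNondegenerateOn (polar (Cfsg.quadFormOdd d F)) W ∧ ¬ Cfsg.Geo.IsPlusTypeOn (Cfsg.quadFormOdd d F) W}) :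
    ∃ j < A + 1, r ∣ Fintype.card F ^ (2 * (d - j)) - 1 := by
  apply count_dvd_E (two_ne hodd) (Q := qOdd d F) hr hrq A d hA ⊤ (ndOn_top hodd) (by rw [finrank_top, finrank_qOdd])
  convert h using 1
  apply Nat.card_congr
  refine Equiv.subtypeEquivRight ?_
  intro W
  rw [ell_iff hodd]
  constructor
  · rintro ⟨_, h1, h3⟩
    exact ⟨h1, h3⟩
  · rintro ⟨h1, h3⟩
    exact ⟨le_top, h1, h3⟩

end matrix

end Cfsg.Agent.Lib.HypBridgeE
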