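import Mathlib
import Cfsg.Agent.Lib.HypBridge

/-!
# Unipotent isometries of order `p` without invariant elliptic subspaces
-/

set_option autoImplicit false
set_option linter.unusedSectionVars false
set_option linter.unusedSimpArgs false
set_option linter.unusedVariables false
set_option linter.style.haveILetI false

namespace Cfsg.Agent.Lib.HypUni

open Module QuadraticMap Matrix Cfsg.Agent.Lib.QuadFF Cfsg.Agent.Lib.IsomBlock
open Cfsg.Agent.Lib.HypEll Cfsg.Agent.Lib.HypBlock Cfsg.Agent.Lib.OrthoCount Cfsg.Agent.Lib.HypBridge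

section abstract

universe u

variable {F : Type*} [Field F] [Fintype F] {V : Type u} [AddCommGroup V] [Module F V] [FiniteDimensional F V]
variable {Q : QuadraticForm F V} {T : V →ₗ[F] V}

/-- The nilpotent part of a linear map. -/
abbrev Nn (T : V →ₗ[F] V) : V →ₗ[F] V := T - LinearMap.id

/-- The dimension of a relative orthogonal complement. -/
theorem perp_dim (h2 : (2 : F) ≠ 0) {W S : Submodule F V} (hW : NDOn (Bf Q) W) (hS : S ≤ W) :
    finrank F S + finrank F (W ⊓ perp (Bf Q) S : Submodule F V) = finrank F W := by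
  have h1 := LinearMap.BilinForm.finrank_orthogonal (nondegenerate_of_ND (nd_restr hW)) (S.comap W.subtype)
  have h3 : (LinearMap.BilinForm.orthogonal (polarBilin (restr Q W)) (S.comap W.subtype)) =
      (W ⊓ perp (Bf Q) S).comap W.subtype := by
    ext v
    rw [LinearMap.BilinForm.mem_orthogonal_iff, Submodule.mem_comap]
    constructor
    · intro h
      refine ⟨v.2, ?_⟩
      intro w hw
      have := h ⟨w, hS hw⟩ hw
      exact this
    · rintro ⟨_, h⟩ u hu
      exact h u hu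
  rw [h3, finrank_comap_of_le inf_le_left, finrank_comap_of_le hS] at h1
  have h4 : finrank F S ≤ finrank F W := Submodule.finrank_mono hS
  omega

/-- Rank and nullity on a subspace. -/
theorem rank_nullity_on (f : V →ₗ[F] V) (W : Submodule F V) :
    finrank F (W.map f) + finrank F (W ⊓ LinearMap.ker f : Submodule F V) = finrank F W := by
  have h1 := LinearMap.finrank_range_add_finrank_ker (f.domRestrict W)
  have h3 : LinearMap.range (f.domRestrict W) = W.map f := by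
    ext v
    simp [LinearMap.mem_range, Submodule.mem_map]
  have h4 : LinearMap.ker (f.domRestrict W) = (W ⊓ LinearMap.ker f).comap W.subtype := by
    ext v
    simp [LinearMap.mem_ker, LinearMap.domRestrict_apply]
  rw [h3, h4, finrank_comap_of_le inf_le_left] at h1
  exact h1

/-- The basic orthogonality. -/
theorem orth_basic (hT : ∀ v, Q (T v) = Q v) {W : Submodule F V} {u v : V} (hu : T u = u) :
    polar Q u ((Nn T) v) = 0 := by
  have h1 := polar_iso hT u v
  rw [Bf_apply, Bf_apply, hu] at h1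
  simp only [LinearMap.sub_apply, LinearMap.id_apply]
  rw [QuadraticMap.polar_sub_right, h1, sub_self]

/-- The relative kernel and image. -/
theorem ker_image_data (h2 : (2 : F) ≠ 0) (hT : ∀ v, Q (T v) = Q v) {W : Submodule F V} (hinv : InvOn T W) (hW : NDOn (Bf Q) W) :
    (W.map (Nn T) ≤ W) ∧
      finrank F (W.map (Nn T)) + finrank F (W ⊓ LinearMap.ker (Nn T) : Submodule F V) = finrank F W ∧
      ∀ u ∈ W ⊓ LinearMap.ker (Nn T), ∀ v ∈ W.map (Nn T), polar Q u v = 0 := by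
  refine ⟨?_, rank_nullity_on _ W, ?_⟩
  · rintro _ ⟨v, hv, rfl⟩
    exact W.sub_mem (hinv v hv) hv
  · rintro u ⟨_, hu⟩ _ ⟨v, hv, rfl⟩
    have h1 : T u = u := by
      have := LinearMap.mem_ker.1 hu
      simpa [sub_eq_zero] using this
    exact orth_basic (W := W) hT h1

theorem mem_ker_sub {u : V} : u ∈ LinearMap.ker (Nn T) ↔ T u = u := by
  rw [LinearMap.mem_ker]
  simp [sub_eq_zero]

/-- Case of a totally singular kernel and `N²` of rank at most one. -/
theorem hyp_of_ts_ker (h2 : (2 : F) ≠ 0) (hT : ∀ v, Q (T v) = Q v) (hts : ∀ v, T v = v → Q v = 0)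
    {e : V} (hN2 : ∀ v, ∃ c : F, (Nn T) ((Nn T) v) = c • e) {W : Submodule F V} (hinv : InvOn T W)
    (hW : NDOn (Bf Q) W) (hev : Even (finrank F W)) : Hyp Q W := by
  set N := Nn T with hN
  obtain ⟨h1, h3, h4⟩ := ker_image_data h2 hT hinv hW
  set K := W ⊓ LinearMap.ker N with hK
  set R := W.map N with hR
  have hKts : ∀ v ∈ K, Q v = 0 := fun v hv => hts v (mem_ker_sub.1 hv.2)
  have hKW : K ≤ W := inf_le_left
  have h5 := perp_dim h2 hW hKW
  have h6 : R ≤ W ⊓ perp (Bf Q) K := le_inf h1 (fun v hv u hu => h4 u hu v hv)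
  have h7 : R = W ⊓ perp (Bf Q) K := Submodule.eq_of_le_of_finrank_eq h6 (by omega)
  have h8 : K ≤ R := by
    rw [h7]
    exact le_inf hKW (fun v hv u hu => polar_of_ts hKts hu hv)
  have h9 := rank_nullity_on N R
  have h10 : R ⊓ LinearMap.ker N = K := by
    apply le_antisymm
    · exact le_inf (inf_le_left.trans h1) inf_le_right
    · exact le_inf h8 inf_le_right
  rw [h10] at h9
  have h11 : finrank F (R.map N) ≤ 1 := by
    have h12 : R.map N ≤ Submodule.span F {e} := by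
      rintro _ ⟨_, ⟨v, _, rfl⟩, rfl⟩
      obtain ⟨c, hc⟩ := hN2 v
      rw [hc]
      exact Submodule.smul_mem _ _ (Submodule.mem_span_singleton_self _)
    refine (Submodule.finrank_mono h12).trans ?_
    by_cases he : e = 0
    · rw [he, Submodule.span_zero_singleton, finrank_bot]
      exact zero_le_one
    · rw [finrank_span_singleton he]
  obtain ⟨t, ht⟩ := hev
  have h13 : finrank F (R.map N) = 0 := by omega
  exact ⟨hW, K, hKW, hKts, by omega⟩

/-- Case `N² = 0` with image in a totally singular subspace. -/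
theorem hyp_of_square_zero (h2 : (2 : F) ≠ 0) (hT : ∀ v, Q (T v) = Q v) {S : Submodule F V} (hS : ∀ v ∈ S, Q v = 0)
    (hNS : ∀ v, (Nn T) v ∈ S) (hN2 : ∀ v, (Nn T) ((Nn T) v) = 0)
    (f : V →ₗ[F] F) (hf : ∀ v, T v = v → f v = 0 → v ∈ S) {W : Submodule F V} (hinv : InvOn T W)
    (hW : NDOn (Bf Q) W) (hev : Even (finrank F W)) : Hyp Q W := by
  set N := Nn T with hN
  obtain ⟨h1, h3, h4⟩ := ker_image_data h2 hT hinv hW
  set K := W ⊓ LinearMap.ker N with hK
  set R := W.map N with hR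
  have hRS : R ≤ S := by
    rintro _ ⟨v, _, rfl⟩
    exact hNS v
  have hRK : R ≤ K := by
    refine le_inf h1 ?_
    rintro _ ⟨v, _, rfl⟩
    exact hN2 v
  set T₀ := K ⊓ S with hT₀
  have hT₀ts : ∀ v ∈ T₀, Q v = 0 := fun v hv => hS v hv.2
  have hT₀W : T₀ ≤ W := inf_le_left.trans inf_le_left
  have hRT₀ : R ≤ T₀ := le_inf hRK hRS
  -- the bound for totally singular subspaces of `W`
  have hbound : ∀ U ≤ W, (∀ v ∈ U, Q v = 0) → 2 * finrank F U ≤ finrank F W := by
    intro U hU hts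
    have h5 := perp_dim h2 hW hU
    have h6 : U ≤ W ⊓ perp (Bf Q) U := le_inf hU (fun v hv u hu => polar_of_ts hts hu hv)
    have h7 := Submodule.finrank_mono h6
    omega
  -- the codimension
  have hcodim : finrank F K ≤ finrank F T₀ + 1 := by
    have h5 := LinearMap.finrank_range_add_finrank_ker (f.domRestrict K)
    have h6 : finrank F (LinearMap.range (f.domRestrict K)) ≤ 1 := by
      have := Submodule.finrank_le (LinearMap.range (f.domRestrict K))
      simpa using this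
    have h7 : finrank F (LinearMap.ker (f.domRestrict K)) ≤ finrank F T₀ := by
      have h8 : (LinearMap.ker (f.domRestrict K)).map K.subtype ≤ T₀ := by
        rintro _ ⟨v, hv, rfl⟩
        refine ⟨v.2, hf v.1 (mem_ker_sub.1 v.2.2) hv⟩
      have h9 := Submodule.finrank_mono h8
      rwa [Submodule.finrank_map_subtype_eq] at h9
    have h8 : finrank F K = finrank F (LinearMap.range (f.domRestrict K)) + finrank F (LinearMap.ker (f.domRestrict K)) := h5.symm
    omega
  have hb1 := hbound R h1 (fun v hv => hS v (hRS hv))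
  have hb2 := hbound T₀ hT₀W hT₀ts
  obtain ⟨t, ht⟩ := hev
  by_cases hcase : 2 * finrank F R = finrank F W
  · exact ⟨hW, R, h1, fun v hv => hS v (hRS hv), hcase⟩
  · exact ⟨hW, T₀, hT₀W, hT₀ts, by omega⟩

/-- Elliptic subspaces are not invariant under these isometries. -/
theorem no_ell_of_ts_ker (h2 : (2 : F) ≠ 0) (hT : ∀ v, Q (T v) = Q v) (hts : ∀ v, T v = v → Q v = 0)
    {e : V} (hN2 : ∀ v, ∃ c : F, (Nn T) ((Nn T) v) = c • e) {W : Submodule F V} (hE : Ell Q W) :
    ¬ InvOn T W := by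
  intro hinv
  obtain ⟨n, hn⟩ := hE.finrank h2
  exact not_hyp_of_ell h2 hE (hyp_of_ts_ker h2 hT hts hN2 hinv (hE.nd h2) ⟨n + 1, by omega⟩)

theorem no_ell_of_square_zero (h2 : (2 : F) ≠ 0) (hT : ∀ v, Q (T v) = Q v) {S : Submodule F V} (hS : ∀ v ∈ S, Q v = 0)
    (hNS : ∀ v, (Nn T) v ∈ S) (hN2 : ∀ v, (Nn T) ((Nn T) v) = 0)
    (f : V →ₗ[F] F) (hf : ∀ v, T v = v → f v = 0 → v ∈ S) {W : Submodule F V} (hE : Ell Q W) :
    ¬ InvOn T W := by
  intro hinv
  obtain ⟨n, hn⟩ := hE.finrank h2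
  exact not_hyp_of_ell h2 hE (hyp_of_square_zero h2 hT hS hNS hN2 f hf hinv (hE.nd h2) ⟨n + 1, by omega⟩)

/-- Order of `1 + N` with `N³ = 0`. -/
theorem pow_eq_one_of_cube {p : ℕ} [hp : Fact p.Prime] [CharP F p] (hp2 : p ≠ 2) (N : V →ₗ[F] V)
    (hN : ∀ v, N (N (N v)) = 0) : (1 + N) ^ p = 1 := by
  have hk : ∀ (k : ℕ) (v : V), ((1 + N) ^ k) v = v + (k : F) • N v + ((k.choose 2 : ℕ) : F) • N (N v) := by
    intro k
    induction k with
    | zero =>
      intro v
      simp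
    | succ k ih =>
      intro v
      rw [pow_succ', Module.End.mul_apply, ih]
      simp only [LinearMap.add_apply, Module.End.one_apply, map_add, map_smul, hN, smul_zero, add_zero]
      have h3 : (k + 1).choose 2 = k.choose 2 + k := by
        rw [Nat.choose_succ_succ' k 1, Nat.choose_one_right, add_comm]
      rw [h3]
      push_cast
      simp only [add_smul, one_smul, smul_add]
      abel
  refine LinearMap.ext fun v => ?_
  rw [hk]
  have h1 : (p : F) = 0 := CharP.cast_eq_zero F p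
  have h3 : ((p.choose 2 : ℕ) : F) = 0 := by
    rw [CharP.cast_eq_zero_iff F p]
    apply hp.out.dvd_choose_self (by norm_num)
    have := hp.out.two_le
    omega
  rw [h1, h3, zero_smul, zero_smul, add_zero, add_zero]
  rfl

end abstract

section coords

variable {F : Type*} [Field F] {d : ℕ}

/-- The nilpotent part. -/
noncomputable def Nl (σ : Fin d → Fin d) (s z : Fin d → F) : (Unit ⊕ (Fin d ⊕ Fin d) → F) →ₗ[F] (Unit ⊕ (Fin d ⊕ Fin d) → F) where
  toFun v := fun j => match j with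
    | Sum.inl _ => ∑ i, z i * v (Sum.inr (Sum.inr i))
    | Sum.inr (Sum.inl i) => s i * v (Sum.inr (Sum.inr (σ i))) - z i * (2 * v (Sum.inl ()) + ∑ i, z i * v (Sum.inr (Sum.inr i)))
    | Sum.inr (Sum.inr i) => 0
  map_add' u v := by
    funext j
    rcases j with _ | i | i
    · simp [mul_add, Finset.sum_add_distrib]
    · simp only [Pi.add_apply, mul_add, Finset.sum_add_distrib]
      ring
    · simp
  map_smul' c v := by
    funext j
    rcases j with _ | i | i
    · simp [Finset.mul_sum, mul_left_comm]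
    · simp only [Pi.smul_apply, smul_eq_mul, RingHom.id_apply, Finset.mul_sum]
      have : ∑ i, z i * (c * v (Sum.inr (Sum.inr i))) = c * ∑ i, z i * v (Sum.inr (Sum.inr i)) := by
        rw [Finset.mul_sum]
        exact Finset.sum_congr rfl fun _ _ => by ring
      rw [this]
      ring
    · simp

variable {σ : Fin d → Fin d} {s z : Fin d → F}

theorem Nl_inl (v) (j : Unit) : Nl σ s z v (Sum.inl j) = ∑ i, z i * v (Sum.inr (Sum.inr i)) := rfl
theorem Nl_x (v) (i : Fin d) : Nl σ s z v (Sum.inr (Sum.inl i)) =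
    s i * v (Sum.inr (Sum.inr (σ i))) - z i * (2 * v (Sum.inl ()) + ∑ i, z i * v (Sum.inr (Sum.inr i))) := rfl
theorem Nl_y (v) (i : Fin d) : Nl σ s z v (Sum.inr (Sum.inr i)) = 0 := rfl

/-- `N (N v)` is explicit. -/
theorem Nl_Nl_inl (v) (j : Unit) : Nl σ s z (Nl σ s z v) (Sum.inl j) = 0 := by
  rw [Nl_inl]
  simp [Nl_y]

theorem Nl_Nl_x (v) (i : Fin d) : Nl σ s z (Nl σ s z v) (Sum.inr (Sum.inl i)) =
    - (2 * z i * ∑ i, z i * v (Sum.inr (Sum.inr i))) := by
  rw [Nl_x]
  simp only [Nl_y, Nl_inl, mul_zero, Finset.sum_const_zero, add_zero]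
  ring

theorem Nl_cube (v) : Nl σ s z (Nl σ s z (Nl σ s z v)) = 0 := by
  funext j
  rcases j with j | i | i
  · rw [Nl_inl]
    simp [Nl_y]
  · rw [Nl_x]
    simp only [Nl_y, Nl_Nl_inl, Pi.zero_apply, mul_zero, Finset.sum_const_zero, add_zero, sub_zero]
  · rw [Nl_y]
    rfl

/-- The isometry property. -/
theorem qOdd_add_Nl (hsum : ∀ y : Fin d → F, ∑ i, s i * y (σ i) * y i = 0) (v) :
    qOdd d F (v + Nl σ s z v) = qOdd d F v := by
  rw [qOdd_apply, qOdd_apply]
  unfold Cfsg.quadFormOdd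
  simp only [Pi.add_apply, Nl_inl, Nl_x, Nl_y, add_zero]
  set a := ∑ i, z i * v (Sum.inr (Sum.inr i)) with ha
  have h1 : ∑ i, (v (Sum.inr (Sum.inl i)) + (s i * v (Sum.inr (Sum.inr (σ i))) - z i * (2 * v (Sum.inl ()) + a))) * v (Sum.inr (Sum.inr i)) =
      ∑ i, v (Sum.inr (Sum.inl i)) * v (Sum.inr (Sum.inr i)) + ∑ i, s i * v (Sum.inr (Sum.inr (σ i))) * v (Sum.inr (Sum.inr i)) -
        (2 * v (Sum.inl ()) + a) * a := by
    rw [ha, Finset.mul_sum, ← ha, ← Finset.sum_add_distrib, ← Finset.sum_sub_distrib]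
    exact Finset.sum_congr rfl fun i _ => by ring
  rw [h1, hsum (fun i => v (Sum.inr (Sum.inr i)))]
  ring

/-- The sum vanishes for alternating data. -/
theorem hsum_of_data (h2 : (2 : F) ≠ 0) (σ : Equiv.Perm (Fin d)) (s : Fin d → F) (hσ : ∀ i, σ (σ i) = i) (hs : ∀ i, s (σ i) = - s i)
    (y : Fin d → F) : ∑ i, s i * y (σ i) * y i = 0 := by
  have h1 := Equiv.sum_comp σ (fun i => s i * y (σ i) * y i)
  simp only [hσ, hs] at h1
  have h3 : ∑ i, -s i * y i * y (σ i) = - ∑ i, s i * y (σ i) * y i := by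
    rw [← Finset.sum_neg_distrib]
    exact Finset.sum_congr rfl fun i _ => by ring
  rw [h3] at h1
  have h4 : 2 * ∑ i, s i * y (σ i) * y i = 0 := by linear_combination -h1
  exact (mul_eq_zero.1 h4).resolve_left h2

theorem exists_data_even (h2 : (2 : F) ≠ 0) {t : ℕ} (hd : d = t + t) :
    ∃ (σ : Equiv.Perm (Fin d)) (s : Fin d → F), (∀ i, σ (σ i) = i) ∧ (∀ i, s (σ i) = - s i) ∧ ∀ i, s i ≠ 0 := by
  let e : Fin d ≃ Fin t ⊕ Fin t := (finCongr hd).trans finSumFinEquiv.symm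
  refine ⟨(e.trans (Equiv.sumComm _ _)).trans e.symm, fun i => Sum.elim (fun _ => 1) (fun _ => -1) (e i), ?_, ?_, ?_⟩
  · intro i
    simp
  · intro i
    rcases h : e i with a | a <;> simp [h]
  · intro i
    rcases h : e i with a | a <;> simp [h]

theorem exists_data_odd (h2 : (2 : F) ≠ 0) {t : ℕ} (hd : d = t + t + 1) :
    ∃ (σ : Equiv.Perm (Fin d)) (s : Fin d → F) (i₀ : Fin d), (∀ i, σ (σ i) = i) ∧ (∀ i, s (σ i) = - s i) ∧ σ i₀ = i₀ ∧ s i₀ = 0 ∧
      ∀ i, i ≠ i₀ → s i ≠ 0 := by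
  let e : Fin d ≃ (Fin t ⊕ Fin t) ⊕ Unit := Fintype.equivFinOfCardEq (by simp [hd]) |>.trans (finCongr rfl) |>.symm
  let σ₀ : (Fin t ⊕ Fin t) ⊕ Unit ≃ (Fin t ⊕ Fin t) ⊕ Unit := Equiv.sumCongr (Equiv.sumComm _ _) (Equiv.refl _)
  let s₀ : (Fin t ⊕ Fin t) ⊕ Unit → F := Sum.elim (Sum.elim (fun _ => 1) (fun _ => -1)) (fun _ => 0)
  refine ⟨(e.trans σ₀).trans e.symm, fun i => s₀ (e i), e.symm (Sum.inr ()), ?_, ?_, ?_, ?_, ?_⟩
  · intro i
    simp only [Equiv.trans_apply, Equiv.apply_symm_apply, Equiv.symm_apply_eq]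
    rcases e i with (a | a) | a <;> simp [σ₀]
  · intro i
    simp only [Equiv.trans_apply, Equiv.apply_symm_apply]
    rcases e i with (a | a) | a <;> simp [σ₀, s₀]
  · simp [σ₀]
  · simp [s₀]
  · intro i hi
    have h3 : e i ≠ Sum.inr () := by
      intro h
      apply hi
      rw [← h, Equiv.symm_apply_apply]
    rcases h : e i with (a | a) | a
    · simp [s₀, h]
    · simp [s₀, h]
    · exact absurd h h3

theorem T_eq (σ : Fin d → Fin d) (s z : Fin d → F) (v) : ((1 + Nl σ s z) : (Unit ⊕ (Fin d ⊕ Fin d) → F) →ₗ[F] _) v = v + Nl σ s z v := rfl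

theorem Nn_T (σ : Fin d → Fin d) (s z : Fin d → F) [Fintype F] (v) : Nn ((1 + Nl σ s z) : (Unit ⊕ (Fin d ⊕ Fin d) → F) →ₗ[F] _) v = Nl σ s z v := by
  show (v + Nl σ s z v) - v = _
  abel

/-- The unipotent element without invariant elliptic subspaces, `d` even. -/
theorem unip_even [Fintype F] (h2 : (2 : F) ≠ 0) {p : ℕ} [Fact p.Prime] [CharP F p] (hp2 : p ≠ 2) {t : ℕ} (hd : d = t + t) (hd0 : 0 < d) :
    ∃ T : (Unit ⊕ (Fin d ⊕ Fin d) → F) →ₗ[F] (Unit ⊕ (Fin d ⊕ Fin d) → F), (∀ v, qOdd d F (T v) = qOdd d F v) ∧ T ^ p = 1 ∧ T ≠ 1 ∧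
      ∀ W, Ell (qOdd d F) W → ¬ InvOn T W := by
  classical
  obtain ⟨σ, s, hσ, hs, hs0⟩ := exists_data_even (F := F) h2 hd
  set N := Nl σ s (0 : Fin d → F) with hN
  have hT : ∀ v, qOdd d F ((1 + N) v) = qOdd d F v := fun v => qOdd_add_Nl (hsum_of_data h2 σ s hσ hs) v
  have hNx : ∀ v i, N v (Sum.inr (Sum.inl i)) = s i * v (Sum.inr (Sum.inr (σ i))) := by
    intro v i
    rw [hN, Nl_x]
    simp
  have hNl : ∀ v j, N v (Sum.inl j) = 0 := by
    intro v j
    rw [hN, Nl_inl]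
    simp
  have hNy : ∀ v i, N v (Sum.inr (Sum.inr i)) = 0 := fun v i => rfl
  let S : Submodule F (Unit ⊕ (Fin d ⊕ Fin d) → F) :=
    { carrier := {v | v (Sum.inl ()) = 0 ∧ ∀ i, v (Sum.inr (Sum.inr i)) = 0}
      add_mem' := fun {a b} ha hb => ⟨by simp [ha.1, hb.1], fun i => by simp [ha.2, hb.2]⟩
      zero_mem' := ⟨rfl, fun _ => rfl⟩
      smul_mem' := fun c a ha => ⟨by simp [ha.1], fun i => by simp [ha.2]⟩ }
  have hS : ∀ v ∈ S, qOdd d F v = 0 := by
    rintro v ⟨h3, h4⟩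
    rw [qOdd_apply]
    unfold Cfsg.quadFormOdd
    simp [h3, h4]
  have hNS : ∀ v, Nn (1 + N) v ∈ S := by
    intro v
    rw [Nn_T]
    exact ⟨hNl v _, fun i => rfl⟩
  have hN2 : ∀ v, Nn (1 + N) (Nn (1 + N) v) = 0 := by
    intro v
    rw [Nn_T, Nn_T]
    funext j
    rcases j with j | i | i
    · exact hNl _ _
    · rw [hNx, hNy, mul_zero]
      rfl
    · rfl
  have hf : ∀ v, (1 + N) v = v → (LinearMap.proj (Sum.inl ()) : (Unit ⊕ (Fin d ⊕ Fin d) → F) →ₗ[F] F) v = 0 → v ∈ S := by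
    intro v hv h0
    refine ⟨h0, fun i => ?_⟩
    have h3 : N v = 0 := by
      have : v + N v = v := hv
      simpa using this
    have h4 := congrFun h3 (Sum.inr (Sum.inl (σ i)))
    rw [hNx, hσ] at h4
    exact (mul_eq_zero.1 h4).resolve_left (hs0 _)
  refine ⟨1 + N, hT, pow_eq_one_of_cube hp2 N (fun v => Nl_cube v), ?_, ?_⟩
  · intro h1
    let j : Fin d := ⟨0, hd0⟩
    have h3 := LinearMap.congr_fun h1 (Pi.single (Sum.inr (Sum.inr j)) 1)
    have h4 : N (Pi.single (Sum.inr (Sum.inr j)) 1) = 0 := by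
      have : (Pi.single (Sum.inr (Sum.inr j)) 1 : Unit ⊕ (Fin d ⊕ Fin d) → F) + N (Pi.single (Sum.inr (Sum.inr j)) 1) = Pi.single (Sum.inr (Sum.inr j)) 1 := h3
      simpa using this
    have h5 := congrFun h4 (Sum.inr (Sum.inl (σ j)))
    rw [hNx, hσ] at h5
    simp at h5
    exact hs0 _ h5
  · intro W hE
    exact no_ell_of_square_zero h2 hT hS hNS hN2 _ hf hE

/-- The unipotent element without invariant elliptic subspaces, `d` odd. -/
theorem unip_odd [Fintype F] (h2 : (2 : F) ≠ 0) {p : ℕ} [Fact p.Prime] [CharP F p] (hp2 : p ≠ 2) {t : ℕ} (hd : d = t + t + 1) :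
    ∃ T : (Unit ⊕ (Fin d ⊕ Fin d) → F) →ₗ[F] (Unit ⊕ (Fin d ⊕ Fin d) → F), (∀ v, qOdd d F (T v) = qOdd d F v) ∧ T ^ p = 1 ∧ T ≠ 1 ∧
      ∀ W, Ell (qOdd d F) W → ¬ InvOn T W := by
  classical
  obtain ⟨σ, s, i₀, hσ, hs, hσ0, hs00, hs0⟩ := exists_data_odd (F := F) h2 hd
  set z : Fin d → F := Pi.single i₀ 1 with hz
  set N := Nl σ s z with hN
  have hT : ∀ v, qOdd d F ((1 + N) v) = qOdd d F v := fun v => qOdd_add_Nl (hsum_of_data h2 σ s hσ hs) v
  have hzs : ∀ v : Unit ⊕ (Fin d ⊕ Fin d) → F, ∑ i, z i * v (Sum.inr (Sum.inr i)) = v (Sum.inr (Sum.inr i₀)) := by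
    intro v
    rw [Finset.sum_eq_single i₀]
    · simp [hz]
    · intro b _ hb
      simp [hz, hb]
    · simp
  have hNl : ∀ v j, N v (Sum.inl j) = v (Sum.inr (Sum.inr i₀)) := by
    intro v j
    rw [hN, Nl_inl, hzs]
  have hNx : ∀ v i, N v (Sum.inr (Sum.inl i)) = s i * v (Sum.inr (Sum.inr (σ i))) - z i * (2 * v (Sum.inl ()) + v (Sum.inr (Sum.inr i₀))) := by
    intro v i
    rw [hN, Nl_x, hzs]
  have hNy : ∀ v i, N v (Sum.inr (Sum.inr i)) = 0 := fun v i => rfl
  have hts : ∀ v, (1 + N) v = v → qOdd d F v = 0 := by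
    intro v hv
    have h3 : N v = 0 := by
      have : v + N v = v := hv
      simpa using this
    have h4 : v (Sum.inr (Sum.inr i₀)) = 0 := by
      have := congrFun h3 (Sum.inl ())
      rwa [hNl] at this
    have h5 : v (Sum.inl ()) = 0 := by
      have := congrFun h3 (Sum.inr (Sum.inl i₀))
      rw [hNx, hs00, h4] at this
      simp [hz] at this
      exact this.resolve_left h2
    have h6 : ∀ j, v (Sum.inr (Sum.inr j)) = 0 := by
      intro j
      by_cases hj : j = i₀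
      · rw [hj, h4]
      · have h7 : σ j ≠ i₀ := by
          intro h
          apply hj
          rw [← hσ j, h, hσ0]
        have h8 := congrFun h3 (Sum.inr (Sum.inl (σ j)))
        rw [hNx, hσ, h4, h5] at h8
        simp [hz, h7, Pi.single_apply] at h8
        exact h8.resolve_left (hs0 _ h7)
    rw [qOdd_apply]
    unfold Cfsg.quadFormOdd
    simp [h5, h6]
  have hN2 : ∀ v, ∃ c : F, Nn (1 + N) (Nn (1 + N) v) = c • (Pi.single (Sum.inr (Sum.inl i₀)) 1 : Unit ⊕ (Fin d ⊕ Fin d) → F) := by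
    intro v
    refine ⟨- (2 * v (Sum.inr (Sum.inr i₀))), ?_⟩
    rw [Nn_T, Nn_T]
    funext j
    rcases j with j | i | i
    · rw [hNl, hNy, Pi.smul_apply, smul_eq_mul, Pi.single_apply, if_neg (by simp), mul_zero]
    · rw [hNx, hNy, hNy, hNl, Pi.smul_apply, smul_eq_mul, Pi.single_apply]
      by_cases hi : i = i₀
      · rw [if_pos (by rw [hi]), hi]
        have hzi : z i₀ = 1 := by simp [hz]
        rw [hzi]
        ring
      · rw [if_neg (by simpa using hi)]
        have hzi : z i = 0 := by simp [hz, hi]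
        rw [hzi]
        ring
    · rw [hNy, Pi.smul_apply, smul_eq_mul, Pi.single_apply, if_neg (by simp), mul_zero]
  refine ⟨1 + N, hT, pow_eq_one_of_cube hp2 N (fun v => Nl_cube v), ?_, ?_⟩
  · intro h1
    have h3 := LinearMap.congr_fun h1 (Pi.single (Sum.inr (Sum.inr i₀)) 1)
    have h4 : N (Pi.single (Sum.inr (Sum.inr i₀)) 1) = 0 := by
      have : (Pi.single (Sum.inr (Sum.inr i₀)) 1 : Unit ⊕ (Fin d ⊕ Fin d) → F) + N (Pi.single (Sum.inr (Sum.inr i₀)) 1) = Pi.single (Sum.inr (Sum.inr i₀)) 1 := h3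
      simpa using this
    have h5 := congrFun h4 (Sum.inl ())
    rw [hNl] at h5
    simp at h5
  · intro W hE
    exact no_ell_of_ts_ker h2 hT hts hN2 hE

/-- The unipotent element without invariant elliptic subspaces. -/
theorem exists_unip [Fintype F] (h2 : (2 : F) ≠ 0) {p : ℕ} [Fact p.Prime] [CharP F p] (hp2 : p ≠ 2) (hd0 : 0 < d) :
    ∃ T : (Unit ⊕ (Fin d ⊕ Fin d) → F) →ₗ[F] (Unit ⊕ (Fin d ⊕ Fin d) → F), (∀ v, qOdd d F (T v) = qOdd d F v) ∧ T ^ p = 1 ∧ T ≠ 1 ∧
      ∀ W, Ell (qOdd d F) W → ¬ InvOn T W := by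
  rcases Nat.even_or_odd' d with ⟨t, ht | ht⟩
  · exact unip_even h2 hp2 (t := t) (by omega) hd0
  · exact unip_odd h2 hp2 (t := t) (by omega)

end coords

end Cfsg.Agent.Lib.HypUni
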