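import Mathlib
import Cfsg.Prelude.Def_Characters
import Cfsg.Agent.Lib.CharBasic
import Cfsg.Agent.Lib.CharInd
import Cfsg.Agent.Lib.CharKernel
import Cfsg.Agent.Lib.CharDecomp
import Cfsg.Agent.Lib.CharInduction
import Cfsg.Agent.Lib.CharTwist
import Cfsg.Agent.Lib.CharCentral
import Cfsg.Agent.Lib.CosetAvg
import Cfsg.Agent.Lib.GlaubAbove
import Cfsg.Agent.Lib.CliffDvd
import Cfsg.Agent.Lib.BrauerInd
import Cfsg.Agent.Lib.BurnsidePQ
import Cfsg.Agent.Lib.Gallagher
import Cfsg.Agent.S4464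
import Cfsg.Agent.Lib.CharNormalProj
import Cfsg.Agent.Lib.DetChar

/-!
# The Isaacs-Passman bound

All irreducible degrees at most `b` force an abelian subgroup of index at most `(b!)²`.
-/

set_option autoImplicit false
set_option linter.style.haveILetI false
set_option linter.unusedSectionVars false
set_option linter.unusedVariables false

namespace Cfsg.Agent.Lib.IPBound

open Cfsg Cfsg.Agent.Lib.CharBasic Cfsg.Agent.Lib.CharInd Cfsg.Agent.Lib.CharKernel
  Cfsg.Agent.Lib.CharDecomp Cfsg.Agent.Lib.CharInduction Cfsg.Agent.Lib.CharTwist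
  Cfsg.Agent.Lib.CosetAvg
open scoped ComplexConjugate commutatorElement

universe u

/-- All irreducible degrees are at most `b`. -/
def DegLe (G : Type u) [Group G] (b : ℕ) : Prop :=
  ∀ χ : IrrCharacter G, charDegree (χ : G → ℂ) ≤ b

section Basic

variable {G : Type u} [Group G] [Fintype G]

theorem charDegree_restrict (K : Subgroup G) (f : G → ℂ) :
    charDegree (fun k : K => f k) = charDegree f := by
  simp [charDegree]

theorem degree_le_of_inner_ne_zero {ψ χ : G → ℂ} (hψ : IsCharacter G ψ)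
    (hχ : IsIrrCharacter G χ) (h : classInner ψ χ ≠ 0) : charDegree χ ≤ charDegree ψ := by
  obtain ⟨ψ', hψ', rfl⟩ := exists_char_add hψ hχ h
  have h1 := one_eq_charDegree hψ
  have h2 := one_eq_charDegree (IsIrrCharacter.isCharacter hχ)
  have h3 := one_eq_charDegree hψ'
  have h4 : ((charDegree (χ + ψ') : ℕ) : ℂ) = ((charDegree χ + charDegree ψ' : ℕ) : ℂ) := by
    rw [← h1]
    push_cast
    rw [← h2, ← h3]
    rfl
  have h5 : charDegree (χ + ψ') = charDegree χ + charDegree ψ' := by exact_mod_cast h4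
  omega

/-- Subgroups inherit degree bounds. -/
theorem DegLe.subgroup {b : ℕ} (h : DegLe G b) (K : Subgroup G) : DegLe K b := by
  classical
  intro κ
  letI : Fintype K := Fintype.ofFinite K
  obtain ⟨ξ, hξ⟩ := Cfsg.Agent.Lib.GlaubAbove.exists_irr_over K κ
  have h1 := degree_le_of_inner_ne_zero
    (isCharacter_restrict K (IsIrrCharacter.isCharacter ξ.2)) κ.2 hξ
  rw [charDegree_restrict] at h1
  exact h1.trans (h ξ)

/-- A top degree character of a subgroup is a restriction, with every constituent above it. -/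
theorem restrict_eq_of_top {b : ℕ} (h : DegLe G b) (K : Subgroup G) [Fintype K]
    (κ : IrrCharacter K) (hκ : charDegree (κ : K → ℂ) = b) (ξ : IrrCharacter G)
    (hξ : classInner (fun k : K => (ξ : G → ℂ) k) (κ : K → ℂ) ≠ 0) :
    (fun k : K => (ξ : G → ℂ) k) = (κ : K → ℂ) := by
  apply eq_of_inner_ne_zero_of_le (isCharacter_restrict K (IsIrrCharacter.isCharacter ξ.2)) κ.2 hξ
  rw [charDegree_restrict, hκ]
  exact h ξ

theorem exists_ext_of_top {b : ℕ} (h : DegLe G b) (K : Subgroup G) [Fintype K]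
    (κ : IrrCharacter K) (hκ : charDegree (κ : K → ℂ) = b) :
    ∃ ξ : IrrCharacter G, (fun k : K => (ξ : G → ℂ) k) = (κ : K → ℂ) := by
  obtain ⟨ξ, hξ⟩ := Cfsg.Agent.Lib.GlaubAbove.exists_irr_over K κ
  exact ⟨ξ, restrict_eq_of_top h K κ hκ ξ hξ⟩

theorem inner_ind_eq (H : Subgroup G) [Fintype H] {χ : G → ℂ} {θ : H → ℂ} (hθ : IsIrrCharacter H θ)
    (hχ : IsCharacter G χ) :
    classInner (indFun H θ) χ = classInner (fun n : H => χ n) θ := by
  rw [frobenius H θ (isClassFunction_of_isCharacter hχ)]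
  obtain ⟨e, he⟩ := classInner_char_irr (isCharacter_restrict H hχ) hθ
  rw [← classInner_conj_symm (fun n : H => χ n) θ, he]
  simp

/-- A top character of a subgroup vanishes off the normal core. -/
theorem conj_mem_of_ne_zero {b : ℕ} (h : DegLe G b) (H : Subgroup G) [Fintype H]
    (κ : IrrCharacter H) (hκ : charDegree (κ : H → ℂ) = b) (y : H) (hy : (κ : H → ℂ) y ≠ 0)
    (x : G) : x⁻¹ * (y : G) * x ∈ H := by
  classical
  have hκc := IsIrrCharacter.isCharacter κ.2
  have hΘ := indFun_isCharacter H hκc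
  obtain ⟨m, hm⟩ := exists_nat_decomp hΘ
  -- every constituent restricts to `κ`
  have hres : ∀ χ : IrrCharacter G, m χ ≠ 0 → (fun k : H => (χ : G → ℂ) k) = (κ : H → ℂ) := by
    intro χ hχ
    apply restrict_eq_of_top h H κ hκ χ
    have h1 := classInner_nat_decomp m (χ : G → ℂ) χ.2
    rw [← hm, inner_ind_eq H κ.2 (IsIrrCharacter.isCharacter χ.2)] at h1
    rw [h1]
    exact_mod_cast hχ
  have hval : ∀ z : H, indFun H (κ : H → ℂ) z = ((∑ χ, m χ : ℕ) : ℂ) * (κ : H → ℂ) z := by
    intro z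
    rw [hm, Finset.sum_apply]
    push_cast
    rw [Finset.sum_mul]
    refine Finset.sum_congr rfl fun χ _ => ?_
    rw [Pi.smul_apply, nsmul_eq_mul]
    by_cases hχ : m χ = 0
    · simp [hχ]
    · rw [← congrFun (hres χ hχ) z]
  have hone : ((∑ χ, m χ : ℕ) : ℂ) = (H.index : ℂ) := by
    have h1 := hval 1
    rw [OneMemClass.coe_one, indFun_one] at h1
    have h2 : (κ : H → ℂ) 1 ≠ 0 := by
      have := Cfsg.Agent.Lib.Clifford.irr_degree_ne_zero κ.2
      exact this
    have h3 := mul_right_cancel₀ h2 (h1.symm.trans (by rfl))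
    exact h3
  -- a constituent
  obtain ⟨χ₁, hχ₁⟩ : ∃ χ : IrrCharacter G, m χ ≠ 0 := by
    by_contra hcon
    push Not at hcon
    have h1 : ((∑ χ, m χ : ℕ) : ℂ) = 0 := by simp [hcon]
    rw [hone] at h1
    exact (Subgroup.index_ne_zero_of_finite (H := H)) (by exact_mod_cast h1)
  have hχ₁res := hres χ₁ hχ₁
  -- the projection formula
  have hproj : indFun H (κ : H → ℂ) = indFun H (fun _ => (1 : ℂ)) * (χ₁ : G → ℂ) := by
    have h1 := indFun_mul_restrict H (fun _ => (1 : ℂ))
      (isClassFunction_of_isCharacter (IsIrrCharacter.isCharacter χ₁.2))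
    rw [← h1]
    congr 1
    funext k
    simp only [Pi.mul_apply, one_mul]
    exact (congrFun hχ₁res k).symm
  have hY : indFun H (fun _ => (1 : ℂ)) (y : G) = (H.index : ℂ) := by
    have h1 := hval y
    rw [hone, hproj, Pi.mul_apply, congrFun hχ₁res y] at h1
    exact mul_right_cancel₀ hy h1
  -- counting
  rw [indFun_apply] at hY
  by_contra hx
  have hcard : (H.index : ℂ) * (Nat.card H : ℂ) = (Nat.card G : ℂ) := by
    exact_mod_cast H.index_mul_card
  have hne : (Nat.card H : ℂ) ≠ 0 := natCard_subgroup_ne_zero H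
  have h2 : ∑ z : G, extendByZero H (fun _ => (1 : ℂ)) (z⁻¹ * (y : G) * z) = (Nat.card G : ℂ) := by
    rw [← hcard, ← hY]
    field_simp
  have h3 : ∀ z : G, extendByZero H (fun _ => (1 : ℂ)) (z⁻¹ * (y : G) * z) =
      if z⁻¹ * (y : G) * z ∈ H then 1 else 0 := by
    intro z
    split_ifs with hz
    · rw [extendByZero_of_mem H _ hz]
    · rw [extendByZero_of_not_mem H _ hz]
  simp only [h3] at h2
  rw [Finset.sum_boole] at h2
  have h4 : (Finset.univ.filter fun z : G => z⁻¹ * (y : G) * z ∈ H).card = Nat.card G := by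
    exact_mod_cast h2
  have h5 : (Finset.univ.filter fun z : G => z⁻¹ * (y : G) * z ∈ H) = Finset.univ := by
    apply Finset.eq_univ_of_card
    rw [h4, Nat.card_eq_fintype_card]
  have h6 := Finset.mem_univ x
  rw [← h5, Finset.mem_filter] at h6
  exact hx h6.2

end Basic

section Half

variable {G : Type u} [Group G] [Fintype G]

theorem charDegree_mul {α β : G → ℂ} (hα : IsCharacter G α) (hβ : IsCharacter G β) :
    charDegree (α * β) = charDegree α * charDegree β := by
  have h1 := one_eq_charDegree (isCharacter_mul hα hβ)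
  have h2 := one_eq_charDegree hα
  have h3 := one_eq_charDegree hβ
  rw [Pi.mul_apply, h2, h3] at h1
  exact_mod_cast h1.symm

/-- A normal subgroup with nonabelian quotient has degrees at most half of the bound. -/
theorem two_mul_deg_le {b : ℕ} (h : DegLe G b) (N : Subgroup G) (hN : N.Normal) [Fintype N]
    (hnon : ¬ ∀ a c : G, a * c * a⁻¹ * c⁻¹ ∈ N) (ψ : IrrCharacter N) :
    2 * charDegree (ψ : N → ℂ) ≤ b := by
  classical
  by_contra hlt
  push Not at hlt
  obtain ⟨ξ, hξ⟩ := Cfsg.Agent.Lib.GlaubAbove.exists_irr_over N ψ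
  obtain ⟨e, he0, he, hdeg, hnorm⟩ := clifford_numeric N hN ξ.2 ψ.2 hξ
  set t := (Finset.univ.image fun g : G => conjBy N hN g (ψ : N → ℂ)).card with ht
  have hpos := charDegree_pos ψ.2
  have hle := h ξ
  have ht0 : t ≠ 0 := by
    rw [ht, Finset.card_ne_zero]
    exact ⟨_, Finset.mem_image_of_mem _ (Finset.mem_univ (1 : G))⟩
  have h1 : e * t = 1 := by
    have h2 : e * t * charDegree (ψ : N → ℂ) ≤ b := hdeg ▸ hle
    have h3 : e * t < 2 := by
      by_contra hc
      push Not at hc
      have := Nat.mul_le_mul_right (charDegree (ψ : N → ℂ)) hc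
      omega
    have h4 : 0 < e * t := Nat.pos_of_ne_zero (mul_ne_zero he0 ht0)
    omega
  have he1 : e = 1 := Nat.eq_one_of_mul_eq_one_right h1
  have ht1 : t = 1 := Nat.eq_one_of_mul_eq_one_left h1
  have hξc := IsIrrCharacter.isCharacter ξ.2
  have hirr : IsIrrCharacter N (fun n : N => (ξ : G → ℂ) n) := by
    apply isIrrCharacter_of_norm_one (isCharacter_restrict N hξc)
    rw [hnorm, he1, ht1]
    simp
  haveI : N.Normal := hN
  obtain ⟨α, hα⟩ : ∃ α : IrrCharacter (G ⧸ N), (α : G ⧸ N → ℂ) 1 ≠ 1 := by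
    by_contra hcon
    push Not at hcon
    apply hnon
    intro a c
    have h2 := Cfsg.Agent.Lib.CliffDvd.comm_of_all_linear hcon (a : G ⧸ N) (c : G ⧸ N)
    rw [← QuotientGroup.eq_one_iff]
    simp only [QuotientGroup.mk_mul, QuotientGroup.mk_inv]
    rw [h2]
    group
  let β : G → ℂ := (α : G ⧸ N → ℂ) ∘ (QuotientGroup.mk' N)
  have hβ : IsIrrCharacter G β :=
    isIrrCharacter_comp_of_surjective _ (QuotientGroup.mk'_surjective N) α.2
  have hinv : ∀ (n : N) (g : G), β (n * g) = β g := by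
    intro n g
    show (α : G ⧸ N → ℂ) (QuotientGroup.mk' N ((n : G) * g)) = (α : G ⧸ N → ℂ) (QuotientGroup.mk' N g)
    rw [map_mul]
    have h3 : QuotientGroup.mk' N (n : G) = 1 := (QuotientGroup.eq_one_iff _).mpr n.2
    rw [h3, one_mul]
  have hinner : classInner (β * (ξ : G → ℂ)) (β * (ξ : G → ℂ)) = classInner β β :=
    classInner_mul_mul_of_invariant N hξc hirr hinv hinv
  have hprod : IsIrrCharacter G (β * (ξ : G → ℂ)) := by
    apply isIrrCharacter_of_norm_one (isCharacter_mul (IsIrrCharacter.isCharacter hβ) hξc)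
    rw [hinner, classInner_irr_self hβ]
  have h2 := h ⟨β * (ξ : G → ℂ), hprod⟩
  simp only at h2
  rw [charDegree_mul (IsIrrCharacter.isCharacter hβ) hξc] at h2
  have hβ2 : 2 ≤ charDegree β := by
    have h3 := charDegree_pos hβ
    have h4 : charDegree β ≠ 1 := by
      intro h5
      apply hα
      have h6 := one_eq_charDegree (IsIrrCharacter.isCharacter hβ)
      rw [h5] at h6
      have h7 : β 1 = (α : G ⧸ N → ℂ) 1 := by
        show (α : G ⧸ N → ℂ) (QuotientGroup.mk' N 1) = _
        rw [map_one]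
      rw [← h7, h6]
      simp
    omega
  have h5 : charDegree (ξ : G → ℂ) = charDegree (ψ : N → ℂ) := by
    rw [hdeg, h1, one_mul]
  rw [h5] at h2
  have := Nat.mul_le_mul_right (charDegree (ψ : N → ℂ)) hβ2
  omega

end Half

section Count

variable {G : Type u} [Group G] [Fintype G]

/-- Classes are numerous: `|G| ≤ k(G) b²`. -/
theorem card_le_classes_mul {b : ℕ} (h : DegLe G b) :
    Nat.card G ≤ Nat.card (ConjClasses G) * b ^ 2 := by
  classical
  have h1 := sum_irr_degree_sq (G := G)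
  have h2 : ∑ χ : IrrCharacter G, charDegree (χ : G → ℂ) ^ 2 = Nat.card G := by
    have h3 : ((∑ χ : IrrCharacter G, charDegree (χ : G → ℂ) ^ 2 : ℕ) : ℂ) = (Nat.card G : ℂ) := by
      rw [← h1]
      push_cast
      refine Finset.sum_congr rfl fun χ _ => ?_
      rw [one_eq_charDegree (IsIrrCharacter.isCharacter χ.2), map_natCast]
      ring
    exact_mod_cast h3
  rw [← h2, ← card_irr_eq_card_conjClasses, Nat.card_eq_fintype_card, ← Finset.card_univ,
    ← smul_eq_mul]
  apply Finset.sum_le_card_nsmul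
  intro χ _
  exact Nat.pow_le_pow_left (h χ) 2

/-- The sum of the centralizer orders. -/
theorem sum_centralizer :
    ∑ x : G, Nat.card (Subgroup.centralizer ({x} : Set G)) = Nat.card (ConjClasses G) * Nat.card G := by
  classical
  rw [← card_comm_eq_card_conjClasses_mul_card]
  have h1 := Cfsg.Agent.Lib.Gallagher.card_pairs_left (fun a b : G => Commute a b)
  rw [h1, finsum_eq_sum_of_fintype]
  refine Finset.sum_congr rfl fun x _ => ?_
  apply Nat.card_congr
  exact Equiv.subtypeEquivRight fun y => by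
    rw [Subgroup.mem_centralizer_singleton_iff]
    exact ⟨fun hy => hy.symm, fun hy => hy.symm⟩

/-- If the quotient is large there is a small class outside of `N`. -/
theorem exists_small_class {b : ℕ} (h : DegLe G b) (N : Subgroup G) (hw : b ^ 4 < N.index) :
    ∃ x, x ∉ N ∧ (Subgroup.centralizer ({x} : Set G)).index ≤ b ^ 2 := by
  classical
  by_contra hcon
  push Not at hcon
  set g := Nat.card G with hg
  set k := Nat.card (ConjClasses G) with hk
  have hg0 : 0 < g := Nat.card_pos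
  have h1 := card_le_classes_mul h
  have h2 := sum_centralizer (G := G)
  let n := (Finset.univ.filter fun x : G => x ∈ N).card
  let m := (Finset.univ.filter fun x : G => x ∉ N).card
  have hnm : n + m = g := by
    rw [hg, Nat.card_eq_fintype_card, ← Finset.card_univ]
    exact Finset.card_filter_add_card_filter_not _
  have hn : n = Nat.card N := by
    rw [Nat.card_eq_fintype_card, Fintype.card_subtype]
  have hle : ∀ x : G, Nat.card (Subgroup.centralizer ({x} : Set G)) * (b ^ 2 + 1) ≤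
      if x ∈ N then g * (b ^ 2 + 1) else g := by
    intro x
    split_ifs with hx
    · apply Nat.mul_le_mul_right
      exact Nat.card_le_card_of_injective _ Subtype.val_injective
    · have h3 := hcon x hx
      have h4 := (Subgroup.centralizer ({x} : Set G)).card_mul_index
      calc _ ≤ Nat.card (Subgroup.centralizer ({x} : Set G)) *
            (Subgroup.centralizer ({x} : Set G)).index := Nat.mul_le_mul_left _ h3
        _ = g := h4
  have h5 : (k * g) * (b ^ 2 + 1) ≤ n * (g * (b ^ 2 + 1)) + m * g := by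
    calc (k * g) * (b ^ 2 + 1) = ∑ x : G, Nat.card (Subgroup.centralizer ({x} : Set G)) * (b ^ 2 + 1) := by
          rw [← Finset.sum_mul, h2]
      _ ≤ ∑ x : G, (if x ∈ N then g * (b ^ 2 + 1) else g) := Finset.sum_le_sum fun x _ => hle x
      _ = _ := by
          rw [Finset.sum_ite, Finset.sum_const, Finset.sum_const, smul_eq_mul, smul_eq_mul]
  have h6 : k * (b ^ 2 + 1) ≤ n * (b ^ 2 + 1) + m := by
    apply Nat.le_of_mul_le_mul_right _ hg0
    calc k * (b ^ 2 + 1) * g = (k * g) * (b ^ 2 + 1) := by ring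
      _ ≤ _ := h5
      _ = _ := by ring
  have h7 : g ≤ n * b ^ 4 := by
    have h8 : g * (b ^ 2 + 1) ≤ (n * (b ^ 2 + 1) + m) * b ^ 2 := by
      calc g * (b ^ 2 + 1) ≤ (k * b ^ 2) * (b ^ 2 + 1) := Nat.mul_le_mul_right _ h1
        _ = (k * (b ^ 2 + 1)) * b ^ 2 := by ring
        _ ≤ _ := Nat.mul_le_mul_right _ h6
    rw [← hnm] at h8 ⊢
    nlinarith
  have h9 := N.card_mul_index
  rw [← hn] at h9
  have h10 : n * N.index ≤ n * b ^ 4 := by
    rw [h9]
    exact h7
  have hn0 : 0 < n := by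
    rw [hn]
    exact Nat.card_pos
  have := Nat.le_of_mul_le_mul_left h10 hn0
  omega

end Count

section Twisting

variable {G : Type u} [Group G] [Fintype G]

/-- Top characters of a normal subgroup are invariant. -/
theorem top_invariant {b : ℕ} (h : DegLe G b) (H : Subgroup G) (hH : H.Normal) [Fintype H]
    (κ : IrrCharacter H) (hκ : charDegree (κ : H → ℂ) = b) (g : G) (y : H) :
    (κ : H → ℂ) ⟨g * y * g⁻¹, hH.conj_mem y y.2 g⟩ = (κ : H → ℂ) y := by
  obtain ⟨ξ, hξ⟩ := exists_ext_of_top h H κ hκ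
  have h1 := isClassFunction_of_isCharacter (IsIrrCharacter.isCharacter ξ.2) (y : G) g
  have h2 := congrFun hξ y
  have h3 := congrFun hξ ⟨g * y * g⁻¹, hH.conj_mem y y.2 g⟩
  simp only at h2 h3
  rw [← h3, h1, h2]

/-- A top character of a normal subgroup vanishes where a linear character is not invariant. -/
theorem eq_zero_of_twist {b : ℕ} (h : DegLe G b) (H : Subgroup G) (hH : H.Normal) [Fintype H]
    (κ : IrrCharacter H) (hκ : charDegree (κ : H → ℂ) = b) (lam : H →* ℂˣ) (g : G) (y : H)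
    (hne : lam ⟨g * y * g⁻¹, hH.conj_mem y y.2 g⟩ ≠ lam y) : (κ : H → ℂ) y = 0 := by
  have hω := Cfsg.Agent.Lib.DetChar.isIrr_mul_hom lam κ.2
  have hdeg : charDegree ((fun g => ((lam g : ℂˣ) : ℂ)) * (κ : H → ℂ)) = b := by
    rw [← hκ]
    unfold charDegree
    simp
  have h1 := top_invariant h H hH ⟨_, hω⟩ hdeg g y
  have h2 := top_invariant h H hH κ hκ g y
  simp only [Pi.mul_apply] at h1
  rw [h2] at h1
  by_contra h0
  apply hne
  apply Units.ext
  exact mul_right_cancel₀ h0 h1

end Twisting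

section Lift

/-- Lifting an abelian subgroup through a subgroup. -/
theorem lift_abelian {X : Type u} [Group X] (K : Subgroup X) (A₁ : Subgroup K)
    (hc : ∀ x ∈ A₁, ∀ y ∈ A₁, x * y = y * x) :
    (∀ x ∈ A₁.map K.subtype, ∀ y ∈ A₁.map K.subtype, x * y = y * x) ∧
      (A₁.map K.subtype).index = A₁.index * K.index := by
  refine ⟨?_, Subgroup.index_map_subtype A₁⟩
  rintro _ ⟨x, hx, rfl⟩ _ ⟨y, hy, rfl⟩
  simp only [Subgroup.subtype_apply]
  exact_mod_cast congrArg Subtype.val (hc x hx y hy)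

end Lift

section Meta

variable {G : Type u} [Group G] [Fintype G] {W : Type u} [Group W] [Finite W] (π : G →* W)
  (hπ : Function.Surjective π) (A : Subgroup W) (hA : A.Normal)
  (hAc : ∀ x ∈ A, ∀ y ∈ A, x * y = y * x)

include hAc in
theorem exists_lam {c : W} (hc : c ∈ A) (hc1 : c ≠ 1) : ∃ l : ↥A →* ℂˣ, l ⟨c, hc⟩ ≠ 1 := by
  letI : CommGroup ↥A :=
    { (inferInstance : Group ↥A) with
      mul_comm := fun a b => Subtype.ext (hAc a a.2 b b.2) }
  refine exists_hom_ne_one (x := (⟨c, hc⟩ : ↥A)) ?_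
  intro h
  exact hc1 (congrArg Subtype.val h)

include hAc in
/-- The stabilizer of a linear character of `A` nontrivial on `W'` is inside `A`. -/
theorem mem_of_stab (hW : commutator W ≤ A)
    (hmax : ∀ M : Subgroup W, M.Normal → M ≠ ⊥ → commutator W ≤ M)
    (hself : ∀ w, (∀ a ∈ A, w * a = a * w) → w ∈ A)
    (l : ↥A →* ℂˣ) {y : W} (hy : y ∈ commutator W) (hly : l ⟨y, hW hy⟩ ≠ 1) (w : W)
    (hw : ∀ (a : W) (ha : a ∈ A), l ⟨w * a * w⁻¹, hA.conj_mem a ha w⟩ = l ⟨a, ha⟩) : w ∈ A := by
  classical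
  let D : Subgroup W :=
    { carrier := {a | ∃ ha : a ∈ A, ∀ g, l ⟨g * a * g⁻¹, hA.conj_mem a ha g⟩ = 1}
      mul_mem' := by
        rintro a b ⟨ha, ha'⟩ ⟨hb, hb'⟩
        refine ⟨A.mul_mem ha hb, fun g => ?_⟩
        have h1 : (⟨g * (a * b) * g⁻¹, hA.conj_mem _ (A.mul_mem ha hb) g⟩ : ↥A) =
            ⟨g * a * g⁻¹, hA.conj_mem a ha g⟩ * ⟨g * b * g⁻¹, hA.conj_mem b hb g⟩ :=
          Subtype.ext (by
            simp only [Subgroup.coe_mul]
            group)
        rw [h1, map_mul, ha' g, hb' g, one_mul]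
      one_mem' := by
        refine ⟨A.one_mem, fun g => ?_⟩
        have h1 : (⟨g * 1 * g⁻¹, hA.conj_mem _ A.one_mem g⟩ : ↥A) = 1 :=
          Subtype.ext (by simp)
        rw [h1, map_one]
      inv_mem' := by
        rintro a ⟨ha, ha'⟩
        refine ⟨A.inv_mem ha, fun g => ?_⟩
        have h1 : (⟨g * a⁻¹ * g⁻¹, hA.conj_mem _ (A.inv_mem ha) g⟩ : ↥A) =
            (⟨g * a * g⁻¹, hA.conj_mem a ha g⟩)⁻¹ :=
          Subtype.ext (by
            simp only [InvMemClass.coe_inv]
            group)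
        rw [h1, map_inv, ha' g, inv_one] }
  have hDn : D.Normal := by
    constructor
    rintro a ⟨ha, ha'⟩ g₀
    refine ⟨hA.conj_mem a ha g₀, fun g => ?_⟩
    have h1 : (⟨g * (g₀ * a * g₀⁻¹) * g⁻¹, hA.conj_mem _ (hA.conj_mem a ha g₀) g⟩ : ↥A) =
        ⟨(g * g₀) * a * (g * g₀)⁻¹, hA.conj_mem a ha (g * g₀)⟩ :=
      Subtype.ext (by
        simp only
        group)
    rw [h1]
    exact ha' (g * g₀)
  have hDbot : D = ⊥ := by
    by_contra hne
    obtain ⟨hy', h1⟩ := hmax D hDn hne hy
    have h2 := h1 1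
    apply hly
    have h3 : (⟨1 * y * 1⁻¹, hA.conj_mem y hy' 1⟩ : ↥A) = ⟨y, hW hy⟩ := Subtype.ext (by simp)
    rw [← h3]
    exact h2
  apply hself
  intro a ha
  have hmem : w * a * w⁻¹ * a⁻¹ ∈ D := by
    refine ⟨A.mul_mem (hA.conj_mem a ha w) (A.inv_mem ha), fun g => ?_⟩
    set a' := g * a * g⁻¹ with ha'def
    have ha' : a' ∈ A := hA.conj_mem a ha g
    set w₁ := w⁻¹ * g * w * g⁻¹ with hw₁def
    have hw₁ : w₁ ∈ A := by
      apply hW
      have h1 : w₁ = ⁅w⁻¹, g⁆ := by
        rw [commutatorElement_def, inv_inv]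
      rw [h1]
      exact Subgroup.commutator_mem_commutator (Subgroup.mem_top _) (Subgroup.mem_top _)
    have hcomm : w₁ * a' = a' * w₁ := hAc _ hw₁ _ ha'
    have h2 : g * (w * a * w⁻¹ * a⁻¹) * g⁻¹ = (w * a' * w⁻¹) * a'⁻¹ := by
      calc g * (w * a * w⁻¹ * a⁻¹) * g⁻¹ = w * (w₁ * a') * w₁⁻¹ * w⁻¹ * a'⁻¹ := by
            simp only [hw₁def, ha'def]
            group
        _ = w * (a' * w₁) * w₁⁻¹ * w⁻¹ * a'⁻¹ := by rw [hcomm]
        _ = (w * a' * w⁻¹) * a'⁻¹ := by group
    have h3 : (⟨g * (w * a * w⁻¹ * a⁻¹) * g⁻¹,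
        hA.conj_mem _ (A.mul_mem (hA.conj_mem a ha w) (A.inv_mem ha)) g⟩ : ↥A) =
        ⟨w * a' * w⁻¹, hA.conj_mem a' ha' w⟩ * (⟨a', ha'⟩)⁻¹ :=
      Subtype.ext h2
    rw [h3, map_mul, map_inv, hw a' ha', mul_inv_cancel]
  rw [hDbot, Subgroup.mem_bot] at hmem
  have h4 : w * a * w⁻¹ = a := by
    have := mul_inv_eq_one.mp hmem
    exact this
  calc w * a = w * a * w⁻¹ * w := by group
    _ = a * w := by rw [h4]

/-- The character of `H` coming from one of `A`. -/
def lamOf (l : ↥A →* ℂˣ) : ↥(A.comap π) →* ℂˣ := l.comp (π.subgroupComap A)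

theorem lamOf_apply (l : ↥A →* ℂˣ) (n : ↥(A.comap π)) :
    lamOf π A l n = l ⟨π n, n.2⟩ := rfl

include hπ hA hAc in
/-- The index of `H` is at most the degree bound. -/
theorem index_le_of_meta {b : ℕ} (h : DegLe G b) (hW : commutator W ≤ A)
    (hmax : ∀ M : Subgroup W, M.Normal → M ≠ ⊥ → commutator W ≤ M)
    (hself : ∀ w, (∀ a ∈ A, w * a = a * w) → w ∈ A)
    (hne : commutator W ≠ ⊥) : (A.comap π).index ≤ b := by
  classical
  obtain ⟨y, hy, hy1⟩ := (Subgroup.bot_or_exists_ne_one _).resolve_left hne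
  obtain ⟨l, hl⟩ := exists_lam A hAc (hW hy) hy1
  set H := A.comap π with hHdef
  have hH : H.Normal := hA.comap π
  letI : Fintype H := Fintype.ofFinite H
  let lam := lamOf π A l
  let ψ : IrrCharacter H := ⟨fun n => ((lam n : ℂˣ) : ℂ), isIrrCharacter_of_hom lam⟩
  obtain ⟨ξ, hξ⟩ := Cfsg.Agent.Lib.GlaubAbove.exists_irr_over H ψ
  obtain ⟨e, he0, he, hdeg, hnorm⟩ := clifford_numeric H hH ξ.2 ψ.2 hξ
  set t := (Finset.univ.image fun g : G => conjBy H hH g (ψ : H → ℂ)).card with ht
  have hpos := charDegree_pos ψ.2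
  have hle := h ξ
  have hidx : H.index ≤ t := by
    have hc : H.index = (Finset.univ : Finset (G ⧸ H)).card := by
      rw [Subgroup.index, Nat.card_eq_fintype_card, Finset.card_univ]
    rw [hc, ht]
    apply Finset.card_le_card_of_injOn (fun q : G ⧸ H => conjBy H hH q.out (ψ : H → ℂ))
    · intro q _
      exact Finset.mem_coe.mpr (Finset.mem_image_of_mem _ (Finset.mem_univ _))
    · intro q₁ _ q₂ _ heq
      simp only at heq
      set x := q₁.out with hx
      set z := q₂.out with hz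
      have hu : π (x * z⁻¹) ∈ A := by
        apply mem_of_stab A hA hAc hW hmax hself l hy hl
        intro a ha
        obtain ⟨n₁, hn₁⟩ := hπ a
        have hn₁H : n₁ ∈ H := by
          show π n₁ ∈ A
          rw [hn₁]
          exact ha
        have hnH : z⁻¹ * n₁ * z ∈ H := by
          have := hH.conj_mem n₁ hn₁H z⁻¹
          simpa using this
        have h1 := congrFun heq ⟨z⁻¹ * n₁ * z, hnH⟩
        simp only [conjBy_apply] at h1
        have h2 := Units.ext h1
        have h3 : lam ⟨x * (z⁻¹ * n₁ * z) * x⁻¹, hH.conj_mem _ hnH x⟩ = l ⟨π (x * z⁻¹) * a * (π (x * z⁻¹))⁻¹, hA.conj_mem a ha _⟩ := by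
          rw [lamOf_apply]
          congr 2
          simp only [map_mul, map_inv, ← hn₁]
          group
        have h4 : lam ⟨z * (z⁻¹ * n₁ * z) * z⁻¹, hH.conj_mem _ hnH z⟩ = l ⟨a, ha⟩ := by
          rw [lamOf_apply]
          congr 2
          simp only [map_mul, map_inv, ← hn₁]
          group
        rw [← h3, ← h4]
        exact h2
      have hu' : x * z⁻¹ ∈ H := hu
      have hq : (x : G ⧸ H) = (z : G ⧸ H) := by
        rw [QuotientGroup.eq]
        have := hH.conj_mem _ (H.inv_mem hu') x⁻¹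
        have h5 : x⁻¹ * (x * z⁻¹)⁻¹ * x⁻¹⁻¹ = x⁻¹ * z := by group
        rwa [h5] at this
      rw [hx, hz, QuotientGroup.out_eq', QuotientGroup.out_eq'] at hq
      exact hq
  have h1 : t ≤ e * t * charDegree (ψ : H → ℂ) := by
    have : 0 < e := Nat.pos_of_ne_zero he0
    nlinarith [Nat.mul_le_mul_right t this, Nat.mul_le_mul_left (e * t) hpos]
  rw [hdeg] at hle
  omega

include hA hAc in
/-- Top characters of `H` vanish off the preimage of the centre. -/
theorem vanish_of_top {b : ℕ} (h : DegLe G b) (hπ : Function.Surjective π)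
    [Fintype ↥(A.comap π)] (κ : IrrCharacter ↥(A.comap π))
    (hκ : charDegree (κ : ↥(A.comap π) → ℂ) = b) (y : ↥(A.comap π))
    (hy : π y ∉ Subgroup.center W) : (κ : ↥(A.comap π) → ℂ) y = 0 := by
  rw [Subgroup.mem_center_iff] at hy
  push Not at hy
  obtain ⟨w, hw⟩ := hy
  obtain ⟨g, rfl⟩ := hπ w
  have hyA : π y ∈ A := y.2
  have hcA : π g * π y * (π g)⁻¹ * (π y)⁻¹ ∈ A := A.mul_mem (hA.conj_mem _ hyA _) (A.inv_mem hyA)
  have hc1 : π g * π y * (π g)⁻¹ * (π y)⁻¹ ≠ 1 := by
    intro h1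
    apply hw
    have h2 := mul_inv_eq_one.mp h1
    calc π g * π y = π g * π y * (π g)⁻¹ * π g := by group
      _ = π y * π g := by rw [h2]
  obtain ⟨l, hl⟩ := exists_lam A hAc hcA hc1
  apply eq_zero_of_twist h _ (hA.comap π) κ hκ (lamOf π A l) g y
  rw [lamOf_apply, lamOf_apply]
  intro heq
  apply hl
  have h3 : (⟨π (g * y * g⁻¹), hA.comap π |>.conj_mem y y.2 g⟩ : ↥A) =
      ⟨π g * π y * (π g)⁻¹ * (π y)⁻¹, hcA⟩ * ⟨π y, hyA⟩ :=
    Subtype.ext (by
      simp only [map_mul, map_inv, Subgroup.coe_mul]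
      group)
  have h4 := heq
  simp only at h4
  rw [h3, map_mul] at h4
  exact mul_eq_right.mp h4

end Meta

section SmallSub

variable {H : Type u} [Group H] [Fintype H]

/-- The character norm of a restriction of a character vanishing off a subgroup. -/
theorem norm_restrict_of_vanish {χ : H → ℂ} (hχ : IsIrrCharacter H χ) (Z : Subgroup H) [Z.Normal]
    [Fintype Z]
    (hv : ∀ y, y ∉ Z → χ y = 0) :
    classInner (fun z : Z => χ z) (fun z : Z => χ z) = (Z.index : ℂ) := by
  have h1 := sum_normSq_eq hχ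
  have h2 := sum_normSq_of_vanish (N := Z) hv
  rw [h1] at h2
  unfold classInner
  have h3 : ∑ z : Z, χ z * conj (χ z) = ((∑ z : Z, Complex.normSq (χ z) : ℝ) : ℂ) := by
    push_cast
    exact Finset.sum_congr rfl fun g _ => Complex.mul_conj _
  rw [h3, ← h2]
  have h4 : (Z.index : ℂ) * (Nat.card Z : ℂ) = (Nat.card H : ℂ) := by
    have := Z.index_mul_card
    exact_mod_cast this
  have h5 : (Nat.card Z : ℂ) ≠ 0 := natCard_subgroup_ne_zero Z
  push_cast
  rw [← h4]
  field_simp

/-- Twisting: a proper subgroup of small index above `Z` with smaller degrees. -/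
theorem exists_small_sub {b : ℕ} (h : DegLe H b) (Z : Subgroup H) (hZ : Z.Normal)
    (hZc : ∀ x y : H, x * y * x⁻¹ * y⁻¹ ∈ Z) (hZne : Z ≠ ⊤)
    (κ₀ : IrrCharacter H) (hκ₀ : charDegree (κ₀ : H → ℂ) = b)
    (hv : ∀ κ : IrrCharacter H, charDegree (κ : H → ℂ) = b → ∀ y, y ∉ Z → (κ : H → ℂ) y = 0) :
    ∃ K : Subgroup H, K.index ≤ b ∧ DegLe K (b - 1) := by
  classical
  haveI : Z.Normal := hZ
  letI : Fintype Z := Fintype.ofFinite Z
  have hn1 : Z.index ≠ 1 := fun h1 => hZne (Subgroup.index_eq_one.mp h1)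
  set n := Z.index with hn
  set r := n.minFac with hr
  have hrp : r.Prime := Nat.minFac_prime hn1
  have hrn : r ∣ n := Nat.minFac_dvd n
  -- `r ≤ b`
  have hκc := IsIrrCharacter.isCharacter κ₀.2
  have hrb : r ≤ b := by
    have h1 := norm_restrict_of_vanish κ₀.2 Z (hv κ₀ hκ₀)
    obtain ⟨θ, hθ, hθc⟩ := Cfsg.Agent.Lib.BrauerInd.exists_constituent
      (isCharacter_restrict Z hκc) (by
        simpa using Cfsg.Agent.Lib.Clifford.irr_degree_ne_zero κ₀.2)
    obtain ⟨e, he0, he, hdeg, hnorm⟩ := clifford_numeric Z hZ κ₀.2 hθ hθc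
    set t := (Finset.univ.image fun g : H => conjBy Z hZ g θ).card with ht
    rw [h1] at hnorm
    have hnt : n = e ^ 2 * t := by exact_mod_cast hnorm
    have ht0 : t ≠ 0 := by
      rw [ht, Finset.card_ne_zero]
      exact ⟨_, Finset.mem_image_of_mem _ (Finset.mem_univ (1 : H))⟩
    have hθpos := charDegree_pos hθ
    have hle : e * t ≤ b := by
      rw [← hκ₀, hdeg]
      exact Nat.le_mul_of_pos_right _ hθpos
    have hr2 : r ≤ e * t := by
      rw [hnt] at hrn
      have h3 : r ∣ e * t := by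
        rcases (Nat.Prime.dvd_mul hrp).mp hrn with h4 | h4
        · exact Dvd.dvd.mul_right (hrp.dvd_of_dvd_pow h4) _
        · exact Dvd.dvd.mul_left h4 _
      exact Nat.le_of_dvd (Nat.pos_of_ne_zero (mul_ne_zero he0 ht0)) h3
    omega
  -- the linear character
  letI : CommGroup (H ⧸ Z) :=
    { (inferInstance : Group (H ⧸ Z)) with
      mul_comm := by
        intro a c
        induction a using QuotientGroup.induction_on with
        | H a =>
          induction c using QuotientGroup.induction_on with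
          | H c =>
            have h1 : ((a * c * a⁻¹ * c⁻¹ : H) : H ⧸ Z) = 1 := by
              rw [QuotientGroup.eq_one_iff]
              exact hZc a c
            simp only [QuotientGroup.mk_mul, QuotientGroup.mk_inv] at h1
            have h2 := mul_inv_eq_one.mp h1
            have h3 := mul_inv_eq_iff_eq_mul.mp h2
            exact h3 }
  have hcard : Nat.card (H ⧸ Z →* ℂˣ) = n := by
    rw [card_hom]
    rfl
  haveI : Fact r.Prime := ⟨hrp⟩
  haveI : Finite (H ⧸ Z →* ℂˣ) := by
    apply Nat.finite_of_card_ne_zero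
    rw [hcard]
    exact Subgroup.index_ne_zero_of_finite
  obtain ⟨μ, hμ⟩ := exists_prime_orderOf_dvd_card' (G := H ⧸ Z →* ℂˣ) r (by rw [hcard]; exact hrn)
  let φ : H →* ℂˣ := μ.comp (QuotientGroup.mk' Z)
  have hφZ : ∀ z ∈ Z, φ z = 1 := by
    intro z hz
    show μ (QuotientGroup.mk' Z z) = 1
    have h0 : QuotientGroup.mk' Z z = 1 := (QuotientGroup.eq_one_iff z).mpr hz
    rw [h0, map_one]
  have hKne : φ.ker ≠ ⊤ := by
    intro hk
    have h1 : μ = 1 := by
      apply MonoidHom.ext
      intro q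
      induction q using QuotientGroup.induction_on with
      | H a =>
        have h2 : a ∈ φ.ker := by rw [hk]; trivial
        have h3 : φ a = 1 := h2
        have h4 : μ (a : H ⧸ Z) = 1 := h3
        rw [h4]
        rfl
    rw [h1, orderOf_one] at hμ
    exact hrp.one_lt.ne hμ
  refine ⟨φ.ker, ?_, ?_⟩
  · -- index
    rw [Subgroup.index_ker]
    haveI : NeZero r := ⟨hrp.ne_zero⟩
    have hle : φ.range ≤ rootsOfUnity r ℂ := by
      rintro _ ⟨x, rfl⟩
      rw [mem_rootsOfUnity]
      have h1 : μ ^ r = 1 := by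
        rw [← hμ]
        exact pow_orderOf_eq_one μ
      have h2 := congrArg (fun ν : H ⧸ Z →* ℂˣ => ν (QuotientGroup.mk' Z x)) h1
      show (μ (QuotientGroup.mk' Z x)) ^ r = 1
      simpa using h2
    calc Nat.card φ.range ≤ Nat.card (rootsOfUnity r ℂ) :=
          Subgroup.card_le_of_le hle
      _ ≤ r := card_rootsOfUnity ℂ r
      _ ≤ b := hrb
  · -- degrees
    intro κ
    letI : Fintype φ.ker := Fintype.ofFinite _
    have h1 := DegLe.subgroup h φ.ker κ
    by_contra hcon
    have hκb : charDegree (κ : φ.ker → ℂ) = b := by omega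
    obtain ⟨ξ, hξ⟩ := exists_ext_of_top h φ.ker κ hκb
    have hξb : charDegree (ξ : H → ℂ) = b := by
      rw [← hκb, ← hξ, charDegree_restrict]
    have hvan : ∀ y, y ∉ φ.ker → (ξ : H → ℂ) y = 0 := by
      intro y hy
      apply hv ξ hξb
      intro hz
      exact hy (hφZ y hz)
    have h2 := sum_normSq_of_vanish (N := φ.ker) hvan
    rw [sum_normSq_eq ξ.2] at h2
    have h3 : ∑ n : φ.ker, Complex.normSq ((ξ : H → ℂ) n) = (Nat.card φ.ker : ℝ) := by
      rw [← sum_normSq_eq κ.2]
      refine Finset.sum_congr rfl fun k _ => ?_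
      rw [← congrFun hξ k]
    rw [h3] at h2
    have h4 : Nat.card H = Nat.card φ.ker := by exact_mod_cast h2
    apply hKne
    have h5 := φ.ker.index_mul_card
    rw [← h4] at h5
    have h6 : φ.ker.index = 1 :=
      Nat.eq_of_mul_eq_mul_right Nat.card_pos (h5.trans (one_mul _).symm)
    exact Subgroup.index_eq_one.mp h6

end SmallSub

section Step

/-- The statement at a given bound. -/
def Bound (c : ℕ) : Prop :=
  ∀ (X : Type u) [Group X] [Finite X], DegLe X c →
    ∃ A : Subgroup X, (∀ x ∈ A, ∀ y ∈ A, x * y = y * x) ∧ A.index ≤ (Nat.factorial c) ^ 2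

theorem fact_sq {b : ℕ} (hb : 0 < b) :
    (Nat.factorial (b - 1)) ^ 2 * (b * b) = (Nat.factorial b) ^ 2 := by
  obtain ⟨c, rfl⟩ : ∃ c, b = c + 1 := ⟨b - 1, by omega⟩
  simp only [Nat.add_sub_cancel, Nat.factorial_succ]
  ring

theorem DegLe.pos {G : Type u} [Group G] [Fintype G] {b : ℕ} (h : DegLe G b) : 0 < b := by
  have h1 := h ⟨_, isIrrCharacter_of_hom (1 : G →* ℂˣ)⟩
  have h2 := charDegree_pos (isIrrCharacter_of_hom (1 : G →* ℂˣ))
  exact lt_of_lt_of_le h2 h1

theorem commutator_eq_bot_of {W : Type u} [Group W] (h : ∀ x y : W, x * y = y * x) :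
    commutator W = ⊥ := by
  rw [commutator_def, Subgroup.commutator_eq_bot_iff_le_centralizer]
  intro x _
  rw [Subgroup.mem_centralizer_iff]
  intro y _
  exact h y x

variable {G : Type u} [Group G] [Fintype G] {W : Type u} [Group W] [Finite W] (π : G →* W)
  (hπ : Function.Surjective π) (A : Subgroup W) (hA : A.Normal)
  (hAc : ∀ x ∈ A, ∀ y ∈ A, x * y = y * x)

include hπ hA hAc in
/-- The metabelian case: a linear character of `A` together with the twisting argument. -/
theorem step_meta {b : ℕ} (IH : ∀ c < b, Bound.{u} c) (h : DegLe G b) (hW : commutator W ≤ A)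
    (hmax : ∀ M : Subgroup W, M.Normal → M ≠ ⊥ → commutator W ≤ M)
    (hself : ∀ w, (∀ a ∈ A, w * a = a * w) → w ∈ A)
    (hne : commutator W ≠ ⊥) :
    ∃ B : Subgroup G, (∀ x ∈ B, ∀ y ∈ B, x * y = y * x) ∧ B.index ≤ (Nat.factorial b) ^ 2 := by
  classical
  have hb : 0 < b := h.pos
  have hf := index_le_of_meta π hπ A hA hAc h hW hmax hself hne
  have hfact := fact_sq hb
  set H := A.comap π with hHdef
  letI : Fintype H := Fintype.ofFinite H
  have hDH : DegLe H b := h.subgroup H
  by_cases htop : ∃ κ : IrrCharacter H, charDegree (κ : H → ℂ) = b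
  · obtain ⟨κ₀, hκ₀⟩ := htop
    let Z : Subgroup H := (Subgroup.center W).comap (π.comp H.subtype)
    have hZ : Z.Normal := inferInstance
    have hZc : ∀ x y : H, x * y * x⁻¹ * y⁻¹ ∈ Z := by
      intro x y
      show π (x * y * x⁻¹ * y⁻¹ : H) ∈ Subgroup.center W
      have h1 : π (x * y * x⁻¹ * y⁻¹ : H) = 1 := by
        simp only [Subgroup.coe_mul, InvMemClass.coe_inv, map_mul, map_inv]
        rw [hAc _ x.2 _ y.2]
        group
      rw [h1]
      exact Subgroup.one_mem _
    have hZne : Z ≠ ⊤ := by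
      intro hZt
      have hcent : ∀ a ∈ A, a ∈ Subgroup.center W := by
        intro a ha
        obtain ⟨n, rfl⟩ := hπ a
        have hn : n ∈ H := ha
        have h1 : (⟨n, hn⟩ : H) ∈ Z := by
          rw [hZt]
          trivial
        exact h1
      apply hne
      apply commutator_eq_bot_of
      intro x y
      have hx : x ∈ A := hself x fun a ha => (Subgroup.mem_center_iff.mp (hcent a ha)) x
      exact hAc x hx y (hself y fun a ha => (Subgroup.mem_center_iff.mp (hcent a ha)) y)
    obtain ⟨K, hKidx, hKdeg⟩ := exists_small_sub hDH Z hZ hZc hZne κ₀ hκ₀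
      (fun κ hκ y hy => vanish_of_top π A hA hAc h hπ κ hκ y hy)
    obtain ⟨A₂, hA₂c, hA₂i⟩ := IH (b - 1) (by omega) K hKdeg
    obtain ⟨h1, h2⟩ := lift_abelian K A₂ hA₂c
    obtain ⟨h3, h4⟩ := lift_abelian H (A₂.map K.subtype) h1
    refine ⟨_, h3, ?_⟩
    rw [h4, h2, ← hfact, mul_assoc]
    exact Nat.mul_le_mul hA₂i (Nat.mul_le_mul hKidx hf)
  · have hDH' : DegLe H (b - 1) := by
      intro κ
      have h1 := hDH κ
      have h2 : charDegree (κ : H → ℂ) ≠ b := fun h3 => htop ⟨κ, h3⟩
      omega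
    obtain ⟨A₂, hA₂c, hA₂i⟩ := IH (b - 1) (by omega) H hDH'
    obtain ⟨h1, h2⟩ := lift_abelian H A₂ hA₂c
    refine ⟨_, h1, ?_⟩
    rw [h2, ← hfact]
    exact Nat.mul_le_mul hA₂i (hf.trans (Nat.le_mul_of_pos_left _ hb))

end Step

section Perfect

theorem closure_comm {W : Type u} [Group W] {s : Set W} (hcomm : ∀ a ∈ s, ∀ b ∈ s, a * b = b * a) :
    ∀ x ∈ Subgroup.closure s, ∀ y ∈ Subgroup.closure s, x * y = y * x := by
  have h := Subgroup.closure_le_centralizer_centralizer s
  intro x hx y hy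
  exact Set.centralizer_centralizer_comm_of_comm hcomm _ (h hx) _ (h hy)

variable {W : Type u} [Group W]

/-- A nontrivial element commuting with all of its conjugates is impossible. -/
theorem no_comm_conj (hmax : ∀ M : Subgroup W, M.Normal → M ≠ ⊥ → commutator W ≤ M)
    (hne : commutator W ≠ ⊥) (hperf : ⁅commutator W, commutator W⁆ = commutator W) {a : W}
    (ha : a ≠ 1) (hc : ∀ g, a * (g * a * g⁻¹) = (g * a * g⁻¹) * a) : False := by
  have hcomm : ∀ x ∈ Group.conjugatesOfSet ({a} : Set W), ∀ y ∈ Group.conjugatesOfSet ({a} : Set W),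
      x * y = y * x := by
    intro x hx y hy
    rw [Group.mem_conjugatesOfSet_iff] at hx hy
    obtain ⟨a₁, ha₁, hx⟩ := hx
    obtain ⟨a₂, ha₂, hy⟩ := hy
    rw [Set.mem_singleton_iff] at ha₁ ha₂
    rw [ha₁] at hx
    rw [ha₂] at hy
    obtain ⟨c₁, rfl⟩ := isConj_iff.mp hx
    obtain ⟨c₂, rfl⟩ := isConj_iff.mp hy
    have h1 := hc (c₁⁻¹ * c₂)
    calc c₁ * a * c₁⁻¹ * (c₂ * a * c₂⁻¹)
        = c₁ * (a * (c₁⁻¹ * c₂ * a * (c₁⁻¹ * c₂)⁻¹)) * c₁⁻¹ := by group
      _ = c₁ * (c₁⁻¹ * c₂ * a * (c₁⁻¹ * c₂)⁻¹ * a) * c₁⁻¹ := by rw [h1]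
      _ = _ := by group
  have hM := closure_comm hcomm
  have hMn : (Subgroup.normalClosure ({a} : Set W)).Normal := inferInstance
  have haM : a ∈ Subgroup.normalClosure ({a} : Set W) :=
    Subgroup.subset_normalClosure (Set.mem_singleton a)
  have hMne : Subgroup.normalClosure ({a} : Set W) ≠ ⊥ := by
    intro h0
    rw [h0, Subgroup.mem_bot] at haM
    exact ha haM
  have hle := hmax _ hMn hMne
  apply hne
  rw [← hperf, Subgroup.commutator_eq_bot_iff_le_centralizer]
  intro x hx
  rw [Subgroup.mem_centralizer_iff]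
  intro y hy
  exact hM y (hle hy) x (hle hx)

theorem degLe_of_surj {G : Type u} [Group G] {b : ℕ} (h : DegLe G b) (π : G →* W)
    (hπ : Function.Surjective π) : DegLe W b := by
  intro χ
  have h1 := h ⟨_, isIrrCharacter_comp_of_surjective π hπ χ.2⟩
  have h2 : charDegree ((χ : W → ℂ) ∘ π) = charDegree (χ : W → ℂ) := by
    simp [charDegree]
  simp only at h1
  rwa [h2] at h1

theorem five_le [Finite W] {b : ℕ} (hD : DegLe W b)
    (hmax : ∀ M : Subgroup W, M.Normal → M ≠ ⊥ → commutator W ≤ M)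
    (hne : commutator W ≠ ⊥) (hperf : ⁅commutator W, commutator W⁆ = commutator W) : 5 ≤ b := by
  by_contra hb
  push Not at hb
  have hcop : ∀ p : ℕ, p.Prime → 5 ≤ p → ¬ p ∣ Nat.card W := by
    intro p hp hp5 hdvd
    obtain ⟨P, hPn, hPc, hPp, hPi⟩ := Cfsg.Agent.S4464.result p hp
      (fun χ => lt_of_le_of_lt (hD χ) (by omega))
    have hPne : P ≠ ⊥ := by
      intro h0
      rw [h0, Subgroup.index_bot] at hPi
      exact hPi hdvd
    have hle := hmax P hPn hPne
    apply hne
    rw [← hperf, Subgroup.commutator_eq_bot_iff_le_centralizer]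
    intro x hx
    rw [Subgroup.mem_centralizer_iff]
    intro y hy
    exact hPc y (hle hy) x (hle hx)
  have hn0 : Nat.card W ≠ 0 := Nat.card_pos.ne'
  obtain ⟨a, m, hm2, hm⟩ := Nat.exists_eq_pow_mul_and_not_dvd hn0 2 (by norm_num)
  have hm0 : m ≠ 0 := by
    rintro rfl
    simp at hm2
  obtain ⟨c, m', hm3, hm'⟩ := Nat.exists_eq_pow_mul_and_not_dvd hm0 3 (by norm_num)
  have hm'1 : m' = 1 := by
    by_contra hne1
    obtain ⟨p, hp, hpd⟩ := Nat.exists_prime_and_dvd hne1
    have hp2 : p ≠ 2 := by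
      rintro rfl
      apply hm2
      rw [hm']
      exact Dvd.dvd.mul_left hpd _
    have hp3 : p ≠ 3 := by
      rintro rfl
      exact hm3 hpd
    have hp4 : p ≠ 4 := by
      rintro rfl
      exact absurd hp (by norm_num)
    have hp5 : 5 ≤ p := by
      have := hp.two_le
      omega
    apply hcop p hp hp5
    rw [hm, hm']
    exact Dvd.dvd.mul_left (Dvd.dvd.mul_left hpd _) _
  have hsol := Cfsg.Agent.Lib.BurnsidePQ.isSolvable_of_card_eq 2 3 (by norm_num) (by norm_num)
    (Nat.card W) W rfl ⟨a, c, by rw [hm, hm', hm'1, mul_one]⟩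
  have := Group.IsSolvable.commutator_lt_of_ne_bot hne
  rw [hperf] at this
  exact lt_irrefl _ this

theorem fact_half {b : ℕ} (hb : 5 ≤ b) : b ^ 2 * Nat.factorial (b / 2) ≤ Nat.factorial b := by
  obtain ⟨c, rfl⟩ : ∃ c, b = c + 3 := ⟨b - 3, by omega⟩
  have h1 : (c + 3) / 2 ≤ c := by omega
  have h2 : Nat.factorial ((c + 3) / 2) ≤ Nat.factorial c := Nat.factorial_le h1
  have h3 : Nat.factorial (c + 3) = (c + 3) * ((c + 2) * ((c + 1) * Nat.factorial c)) := by
    simp only [Nat.factorial_succ]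
  rw [h3]
  have h4 : (c + 3) ^ 2 ≤ (c + 3) * ((c + 2) * (c + 1)) := by
    rw [pow_two]
    apply Nat.mul_le_mul_left
    nlinarith
  calc (c + 3) ^ 2 * Nat.factorial ((c + 3) / 2)
      ≤ ((c + 3) * ((c + 2) * (c + 1))) * Nat.factorial c := Nat.mul_le_mul h4 h2
    _ = _ := by ring

variable {G : Type u} [Group G] [Fintype G] [Finite W] (π : G →* W)

/-- The perfect case. -/
theorem step_perfect {b : ℕ} (IH : ∀ c < b, Bound.{u} c) (h : DegLe G b)
    (hπ : Function.Surjective π)
    (hmax : ∀ M : Subgroup W, M.Normal → M ≠ ⊥ → commutator W ≤ M)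
    (hne : commutator W ≠ ⊥) (hperf : ⁅commutator W, commutator W⁆ = commutator W) :
    ∃ B : Subgroup G, (∀ x ∈ B, ∀ y ∈ B, x * y = y * x) ∧ B.index ≤ (Nat.factorial b) ^ 2 := by
  classical
  have hb : 0 < b := h.pos
  have hfact := fact_sq hb
  by_cases hw : b ^ 4 < π.ker.index
  · obtain ⟨x, hx, hidx⟩ := exists_small_class h π.ker hw
    set C := Subgroup.centralizer ({x} : Set G) with hC
    letI : Fintype C := Fintype.ofFinite C
    have hDC : DegLe C (b - 1) := by
      intro κ
      have h1 := DegLe.subgroup h C κ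
      by_contra hcon
      have hκb : charDegree (κ : C → ℂ) = b := by omega
      have hxC : x ∈ C := by
        rw [hC, Subgroup.mem_centralizer_singleton_iff]
      let z : C := ⟨x, hxC⟩
      have hz : ∀ g : C, z * g = g * z := by
        intro g
        apply Subtype.ext
        have h2 : (g : G) * x = x * g := Subgroup.mem_centralizer_singleton_iff.mp g.2
        exact h2.symm
      have hn := Cfsg.Agent.Lib.CharCentral.central_norm κ.2 hz
      have hzne : (κ : C → ℂ) z ≠ 0 := by
        intro h0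
        rw [h0, zero_mul] at hn
        have h3 := Cfsg.Agent.Lib.Clifford.irr_degree_ne_zero κ.2
        exact h3 (by simpa using hn.symm)
      apply no_comm_conj hmax hne hperf (a := π x)
      · intro h1x
        exact hx h1x
      · intro w
        obtain ⟨g, rfl⟩ := hπ w
        have h2 := Subgroup.mem_centralizer_singleton_iff.mp (conj_mem_of_ne_zero h C κ hκb z hzne g⁻¹)
        have h3 := congrArg π h2
        simp only [z, inv_inv, map_mul, map_inv] at h3
        exact h3.symm
    obtain ⟨A₂, hA₂c, hA₂i⟩ := IH (b - 1) (by omega) C hDC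
    obtain ⟨h1, h2⟩ := lift_abelian C A₂ hA₂c
    refine ⟨_, h1, ?_⟩
    rw [h2, ← hfact]
    apply Nat.mul_le_mul hA₂i
    calc C.index ≤ b ^ 2 := hidx
      _ = b * b := pow_two b
  · push Not at hw
    have hfive : 5 ≤ b := five_le (degLe_of_surj h π hπ) hmax hne hperf
    set N := π.ker with hN
    letI : Fintype N := Fintype.ofFinite N
    have hnon : ¬ ∀ a c : G, a * c * a⁻¹ * c⁻¹ ∈ N := by
      intro hall
      apply hne
      apply commutator_eq_bot_of
      intro x y
      obtain ⟨a, rfl⟩ := hπ x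
      obtain ⟨c, rfl⟩ := hπ y
      have h1 : π (a * c * a⁻¹ * c⁻¹) = 1 := hall a c
      simp only [map_mul, map_inv] at h1
      have h2 := mul_inv_eq_one.mp h1
      exact mul_inv_eq_iff_eq_mul.mp h2
    have hDN : DegLe N (b / 2) := by
      intro ψ
      have h1 := two_mul_deg_le h N (MonoidHom.normal_ker π) hnon ψ
      omega
    obtain ⟨A₂, hA₂c, hA₂i⟩ := IH (b / 2) (by omega) N hDN
    obtain ⟨h1, h2⟩ := lift_abelian N A₂ hA₂c
    refine ⟨_, h1, ?_⟩
    rw [h2]
    calc A₂.index * N.index ≤ (Nat.factorial (b / 2)) ^ 2 * b ^ 4 := Nat.mul_le_mul hA₂i hw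
      _ = (b ^ 2 * Nat.factorial (b / 2)) ^ 2 := by ring
      _ ≤ _ := Nat.pow_le_pow_left (fact_half hfive) 2

end Perfect

section Main

theorem exists_max_normal {G : Type u} [Group G] [Finite G] (M₀ T : Subgroup G) (hM₀ : M₀.Normal)
    (hT : ¬ T ≤ M₀) :
    ∃ N : Subgroup G, N.Normal ∧ M₀ ≤ N ∧ ¬ T ≤ N ∧
      ∀ N₁ : Subgroup G, N₁.Normal → N ≤ N₁ → N₁ ≠ N → T ≤ N₁ := by
  let s : Set (Subgroup G) := {N | N.Normal ∧ ¬ T ≤ N}
  obtain ⟨m, hm, hmax⟩ := Set.Finite.exists_le_maximal (Set.toFinite s) (show M₀ ∈ s from ⟨hM₀, hT⟩)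
  refine ⟨m, hmax.prop.1, hm, hmax.prop.2, ?_⟩
  intro N₁ hN₁ hle hne
  by_contra hcon
  exact hne (le_antisymm (hmax.le_of_ge ⟨hN₁, hcon⟩ hle) hle)

theorem commutator_quot {G : Type u} [Group G] (N : Subgroup G) [N.Normal] :
    commutator (G ⧸ N) = (commutator G).map (QuotientGroup.mk' N) := by
  rw [commutator_def, commutator_def, Subgroup.map_commutator,
    Subgroup.map_top_of_surjective _ (QuotientGroup.mk'_surjective N)]

theorem quot_hmax {G : Type u} [Group G] (N : Subgroup G) [N.Normal]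
    (hmaxN : ∀ N₁ : Subgroup G, N₁.Normal → N ≤ N₁ → N₁ ≠ N → commutator G ≤ N₁) :
    ∀ M : Subgroup (G ⧸ N), M.Normal → M ≠ ⊥ → commutator (G ⧸ N) ≤ M := by
  intro M hM hne
  have h1 : (M.comap (QuotientGroup.mk' N)).Normal := hM.comap _
  have h2 : N ≤ M.comap (QuotientGroup.mk' N) := by
    intro n hn
    show QuotientGroup.mk' N n ∈ M
    have h0 : QuotientGroup.mk' N n = 1 := (QuotientGroup.eq_one_iff n).mpr hn
    rw [h0]
    exact M.one_mem
  have h3 : M.comap (QuotientGroup.mk' N) ≠ N := by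
    intro heq
    apply hne
    rw [eq_bot_iff]
    intro q hq
    induction q using QuotientGroup.induction_on with
    | H a =>
      have h4 : a ∈ M.comap (QuotientGroup.mk' N) := hq
      rw [heq] at h4
      rw [Subgroup.mem_bot, QuotientGroup.eq_one_iff]
      exact h4
  have h4 := hmaxN _ h1 h2 h3
  rw [commutator_quot, Subgroup.map_le_iff_le_comap]
  exact h4

theorem quot_ne {G : Type u} [Group G] (N : Subgroup G) [N.Normal] (hnot : ¬ commutator G ≤ N) :
    commutator (G ⧸ N) ≠ ⊥ := by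
  intro h0
  apply hnot
  rw [commutator_quot, Subgroup.map_eq_bot_iff] at h0
  rwa [QuotientGroup.ker_mk'] at h0

/-- The metabelian case with the abelian subgroup still to be chosen. -/
theorem step_meta' {G : Type u} [Group G] [Fintype G] {W : Type u} [Group W] [Finite W]
    (π : G →* W) (hπ : Function.Surjective π)
    {b : ℕ} (IH : ∀ c < b, Bound.{u} c) (h : DegLe G b)
    (hmax : ∀ M : Subgroup W, M.Normal → M ≠ ⊥ → commutator W ≤ M)
    (hne : commutator W ≠ ⊥) (hWab : ∀ x ∈ commutator W, ∀ y ∈ commutator W, x * y = y * x) :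
    ∃ B : Subgroup G, (∀ x ∈ B, ∀ y ∈ B, x * y = y * x) ∧ B.index ≤ (Nat.factorial b) ^ 2 := by
  let s : Set (Subgroup W) := {A | commutator W ≤ A ∧ ∀ x ∈ A, ∀ y ∈ A, x * y = y * x}
  obtain ⟨A, hle, hmaxA⟩ := Set.Finite.exists_le_maximal (Set.toFinite s)
    (show commutator W ∈ s from ⟨le_refl _, hWab⟩)
  have hAc := hmaxA.prop.2
  have hW := hmaxA.prop.1
  have hA : A.Normal := by
    constructor
    intro a ha g
    have h1 : g * a * g⁻¹ = ⁅g, a⁆ * a := by
      rw [commutatorElement_def]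
      group
    rw [h1]
    apply A.mul_mem _ ha
    apply hW
    exact Subgroup.commutator_mem_commutator (Subgroup.mem_top _) (Subgroup.mem_top _)
  have hself : ∀ w, (∀ a ∈ A, w * a = a * w) → w ∈ A := by
    intro w hw
    have hcomm : ∀ x ∈ (A : Set W) ∪ {w}, ∀ y ∈ (A : Set W) ∪ {w}, x * y = y * x := by
      rintro x (hx | hx) y (hy | hy)
      · exact hAc x hx y hy
      · rw [Set.mem_singleton_iff] at hy
        rw [hy]
        exact (hw x hx).symm
      · rw [Set.mem_singleton_iff] at hx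
        rw [hx]
        exact hw y hy
      · rw [Set.mem_singleton_iff] at hx hy
        rw [hx, hy]
    have hcl := closure_comm hcomm
    have hAle : A ≤ Subgroup.closure ((A : Set W) ∪ {w}) := by
      intro a ha
      exact Subgroup.subset_closure (Or.inl ha)
    have h1 : Subgroup.closure ((A : Set W) ∪ {w}) ≤ A :=
      hmaxA.le_of_ge ⟨hW.trans hAle, hcl⟩ hAle
    exact h1 (Subgroup.subset_closure (Or.inr rfl))
  exact step_meta π hπ A hA hAc IH h hW hmax hself hne

/-- **Isaacs-Passman**: the main induction. -/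
theorem main (b : ℕ) : Bound.{u} b := by
  induction b using Nat.strong_induction_on with
  | _ b IH =>
    intro G _ _ h
    classical
    letI := Fintype.ofFinite G
    by_cases hab : commutator G = ⊥
    · refine ⟨⊤, ?_, ?_⟩
      · intro x _ y _
        rw [commutator_def, Subgroup.commutator_eq_bot_iff_le_centralizer] at hab
        exact (Subgroup.mem_centralizer_iff.mp (hab (Subgroup.mem_top y))) x (Subgroup.mem_top x)
      · rw [Subgroup.index_top]
        exact Nat.one_le_pow _ _ (Nat.factorial_pos b)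
    · by_cases hperf : ⁅commutator G, commutator G⁆ = commutator G
      · obtain ⟨N, hN, -, hnot, hmaxN⟩ := exists_max_normal ⊥ (commutator G) inferInstance
          (by rwa [le_bot_iff])
        haveI := hN
        refine step_perfect (QuotientGroup.mk' N) IH h (QuotientGroup.mk'_surjective N)
          (quot_hmax N hmaxN) (quot_ne N hnot) ?_
        rw [commutator_quot, ← Subgroup.map_commutator, hperf]
      · have hn : (⁅commutator G, commutator G⁆ : Subgroup G).Normal := inferInstance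
        obtain ⟨N, hN, hle, hnot, hmaxN⟩ := exists_max_normal _ (commutator G) hn
          (fun h1 => hperf (le_antisymm (Subgroup.commutator_le_left _ _) h1))
        haveI := hN
        refine step_meta' (QuotientGroup.mk' N) (QuotientGroup.mk'_surjective N) IH h
          (quot_hmax N hmaxN) (quot_ne N hnot) ?_
        have h1 : ⁅commutator (G ⧸ N), commutator (G ⧸ N)⁆ = ⊥ := by
          rw [commutator_quot, ← Subgroup.map_commutator, Subgroup.map_eq_bot_iff,
            QuotientGroup.ker_mk']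
          exact hle
        rw [Subgroup.commutator_eq_bot_iff_le_centralizer] at h1
        intro x hx y hy
        exact (Subgroup.mem_centralizer_iff.mp (h1 hy)) x hx

end Main

end Cfsg.Agent.Lib.IPBound
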