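import Cfsg.Agent.Lib.IcoCount

/-!
# The centre of the icosian reflection group
-/

set_option autoImplicit false
set_option maxRecDepth 100000

namespace Cfsg.Agent.Lib.IcoCenter

open Quaternion Cfsg.Spor Cfsg.Agent.Lib.IcoCoord Cfsg.Agent.Lib.IcoCoord.Q8 Cfsg.Agent.Lib.IcoPerm
  Cfsg.Agent.Lib.IcoAlg Cfsg.Agent.Lib.IcoDefs Cfsg.Agent.Lib.IcoMin Cfsg.Agent.Lib.IcoP
open Cfsg.Agent.Lib.IcoChk (chks)

/-- coordinate vectors of norm four -/
noncomputable def E (t : Fin 3) : V3 := fun s => if s = t then 2 else 0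

theorem two_mem : (2 : ℍ[ℝ]) ∈ icosians := by
  rw [← hh']; exact icosians.mul_mem HQ_mem HbQ_mem

theorem E_mem_lat (t : Fin 3) : E t ∈ icoLeech := by
  have h0 : ∀ q : ℍ[ℝ], (0 : ℍ[ℝ]) = q → (0 : ℍ[ℝ]) ∈ leftIdeal icoH := by
    intro _ _; exact ⟨0, icosians.zero_mem, by simp⟩
  have h2 : (2 : ℍ[ℝ]) ∈ leftIdeal icoH := ⟨star icoH, HbQ_mem, h'h.symm⟩
  have h2' : (-2 : ℍ[ℝ]) ∈ leftIdeal icoH := ⟨-star icoH, icosians.neg_mem HbQ_mem, by rw [neg_mul, h'h]⟩
  have h3 : (2 : ℍ[ℝ]) ∈ leftIdeal (star icoH) := ⟨icoH, HQ_mem, hh'.symm⟩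
  refine ⟨?_, ?_, ?_, ?_⟩
  · intro s
    unfold E
    split_ifs
    · exact two_mem
    · exact icosians.zero_mem
  all_goals fin_cases t <;> simp [E]
  all_goals first
    | exact h2
    | exact h2'
    | exact h3
    | exact ⟨0, icosians.zero_mem, by simp⟩

theorem E_min (t : Fin 3) : E t ∈ IcoPerm.Min := by
  refine ⟨E_mem_lat t, ?_⟩
  rw [qip_def]
  fin_cases t <;> simp [E] <;> norm_num

theorem qip_E (x : V3) (t : Fin 3) : qip x (E t) = x t * 2 := by
  rw [qip_def]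
  fin_cases t <;> simp [E]

theorem qrefl_E (t s : Fin 3) (x : V3) : qrefl (E t) x s = if s = t then - x s else x s := by
  have h : (1 / 2 : ℝ) • (x t * 2) = x t := by
    have : x t * 2 = (2 : ℝ) • x t := by
      rw [two_smul, mul_two]
    rw [this, smul_smul]; norm_num
  unfold qrefl
  rw [qip_E, h]
  by_cases hs : s = t
  · subst hs
    simp [E, mul_two]
  · simp [E, hs]

/-- `-1`. -/
noncomputable def zz : Equiv.Perm icoLeech :=
  reflP (E 0) (E_min 0) * reflP (E 1) (E_min 1) * reflP (E 2) (E_min 2)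

theorem zz_mem : zz ∈ twoJ2 :=
  twoJ2.mul_mem (twoJ2.mul_mem (Subgroup.subset_closure (reflP_isRefl _ _))
    (Subgroup.subset_closure (reflP_isRefl _ _))) (Subgroup.subset_closure (reflP_isRefl _ _))

theorem zz_apply (x : icoLeech) : ((zz x : icoLeech) : V3) = -(x : V3) := by
  funext s
  change qrefl (E 0) (qrefl (E 1) (qrefl (E 2) x)) s = _
  fin_cases s <;> simp [qrefl_E]

/-- Linear isometries -/
def IsL (g : Equiv.Perm icoLeech) : Prop :=
  ∃ G : V3 → V3, (∀ x y, G (x + y) = G x + G y) ∧ (∀ c x, G (lsmul c x) = lsmul c (G x)) ∧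
    (∀ x y, qip (G x) (G y) = qip x y) ∧ ∀ x : icoLeech, ((g x : icoLeech) : V3) = G x

theorem isL_refl {r : V3} (hr : r ∈ IcoPerm.Min) : IsL (reflP r hr) :=
  ⟨qrefl r, qrefl_add, qrefl_lsmul, qip_qrefl hr.2, fun _ => rfl⟩

theorem isL_mul {g h : Equiv.Perm icoLeech} (hg : IsL g) (hh : IsL h) : IsL (g * h) := by
  obtain ⟨G, g1, g2, g3, g4⟩ := hg
  obtain ⟨H, h1, h2, h3, h4⟩ := hh
  refine ⟨G ∘ H, ?_, ?_, ?_, ?_⟩
  · intro x y; simp [h1, g1]
  · intro c x; simp [h2, g2]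
  · intro x y; simp [g3, h3]
  · intro x
    rw [Equiv.Perm.mul_apply, g4, h4]; rfl

theorem isL_one : IsL 1 := ⟨id, fun _ _ => rfl, fun _ _ => rfl, fun _ _ => rfl, fun _ => rfl⟩

theorem isL_of_mem {g : Equiv.Perm icoLeech} (hg : g ∈ twoJ2) : IsL g ∧ IsL g⁻¹ := by
  unfold twoJ2 at hg
  induction hg using Subgroup.closure_induction with
  | mem x hx =>
    obtain ⟨r, hr, rfl⟩ := (IcoPerm.isRefl_iff x).mp hx
    exact ⟨isL_refl hr, by rw [reflP_inv]; exact isL_refl hr⟩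
  | one => exact ⟨isL_one, by rw [inv_one]; exact isL_one⟩
  | mul x y _ _ hx hy =>
    exact ⟨isL_mul hx.1 hy.1, by rw [mul_inv_rev]; exact isL_mul hy.2 hx.2⟩
  | inv x _ hx => exact ⟨hx.2, by rw [inv_inv]; exact hx.1⟩

/-- The central elements act by scalars on each line. -/
theorem line_of_central {g : Equiv.Perm icoLeech} {G : V3 → V3} (g2 : ∀ c x, G (lsmul c x) = lsmul c (G x))
    (g3 : ∀ x y, qip (G x) (G y) = qip x y) (g4 : ∀ x : icoLeech, ((g x : icoLeech) : V3) = G x)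
    (hc : ∀ f ∈ twoJ2, f * g = g * f) {r : V3} (hr : r ∈ IcoPerm.Min) :
    ∃ w : ℍ[ℝ], star w * w = 1 ∧ G r = lsmul w r := by
  have h1 := hc _ (Subgroup.subset_closure (reflP_isRefl r hr))
  have h2 := congrArg (fun f : Equiv.Perm icoLeech => ((f ⟨r, hr.1⟩ : icoLeech) : V3)) h1
  simp only [Equiv.Perm.mul_apply, reflP_apply, g4] at h2
  have h3 : G (qrefl r r) = - G r := by
    rw [qrefl_self hr.2]
    have : -r = lsmul (-1) r := by funext t; simp [lsmul]
    rw [this, g2]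
    funext t; simp [lsmul]
  have h4 : qrefl r (G r) = - G r := by
    rw [← h3]
    exact h2
  refine line_of_refl_eq ?_ hr.2 h4
  rw [g3]; exact hr.2

theorem vec_decomp (x : V3) :
    x = lsmul ((1 / 2 : ℝ) • x 0) (E 0) + (lsmul ((1 / 2 : ℝ) • x 1) (E 1) + lsmul ((1 / 2 : ℝ) • x 2) (E 2)) := by
  have h : ∀ q : ℍ[ℝ], (2⁻¹ : ℝ) • (q * 2) = q := by
    intro q
    have : q * 2 = (2 : ℝ) • q := by rw [two_smul, mul_two]
    rw [this, smul_smul]; norm_num
  funext s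
  fin_cases s <;> simp [lsmul, E, h]

/-- A central element acts by right multiplication on the coordinates. -/
theorem central_diag {g : Equiv.Perm icoLeech} {G : V3 → V3} (g1 : ∀ x y, G (x + y) = G x + G y)
    (g2 : ∀ c x, G (lsmul c x) = lsmul c (G x))
    (g3 : ∀ x y, qip (G x) (G y) = qip x y) (g4 : ∀ x : icoLeech, ((g x : icoLeech) : V3) = G x)
    (hc : ∀ f ∈ twoJ2, f * g = g * f) :
    ∃ c : Fin 3 → ℍ[ℝ], (∀ t, star (c t) * c t = 1) ∧ ∀ x t, G x t = x t * c t := by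
  have h := fun t => line_of_central g2 g3 g4 hc (E_min t)
  choose c hc1 hc2 using h
  refine ⟨c, hc1, ?_⟩
  have h : ∀ q r : ℍ[ℝ], (2⁻¹ : ℝ) • (q * (r * 2)) = q * r := by
    intro q r
    have : q * (r * 2) = (2 : ℝ) • (q * r) := by rw [two_smul, mul_two, mul_add]
    rw [this, smul_smul]; norm_num
  intro x t
  conv_lhs => rw [vec_decomp x]
  rw [g1, g1, g2, g2, g2, hc2, hc2, hc2]
  fin_cases t <;> simp [lsmul, E, h]

/-- The quaternion `i`. -/
def IQ : Q8 := ⟨0, 0, 4, 0, 0, 0, 0, 0⟩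
/-- The quaternion `j`. -/
def JQ : Q8 := ⟨0, 0, 0, 0, 4, 0, 0, 0⟩

theorem rvv_R (a : ℕ) : rvv a 0 = val (S (R1 a)) ∧ rvv a 1 = val (S (R2 a)) ∧ rvv a 2 = val (S (R3 a)) :=
  ⟨rfl, rfl, rfl⟩

theorem d19a : S (R1 19) = S (R2 19) := by decide +kernel
theorem d19b : S (R1 19) ≠ ⟨0, 0, 0, 0, 0, 0, 0, 0⟩ := by decide +kernel
theorem d2a : S (R2 2) = S (R3 2) := by decide +kernel
theorem d2b : S (R2 2) ≠ ⟨0, 0, 0, 0, 0, 0, 0, 0⟩ := by decide +kernel
theorem d22a : mulRaw (S (R2 22)) IQ = smul 4 (S (R1 22)) := by decide +kernel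
theorem d22b : S (R2 22) ≠ ⟨0, 0, 0, 0, 0, 0, 0, 0⟩ := by decide +kernel
theorem d21a : mulRaw (S (R2 21)) JQ = smul 4 (S (R1 21)) := by decide +kernel
theorem d21b : S (R2 21) ≠ ⟨0, 0, 0, 0, 0, 0, 0, 0⟩ := by decide +kernel

theorem val_ne {x : Q8} (h : x ≠ ⟨0, 0, 0, 0, 0, 0, 0, 0⟩) : val x ≠ 0 := by
  intro h0
  apply h
  apply val_inj
  rw [h0]
  apply Quaternion.ext <;> simp [val_re, val_imI, val_imJ, val_imK, comp]

/-- The three right scalars of a central element agree and are `±1`. -/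
theorem scalars_eq {c : Fin 3 → ℍ[ℝ]} (hc : ∀ t, star (c t) * c t = 1)
    (h : ∀ r ∈ IcoPerm.Min, ∃ w : ℍ[ℝ], ∀ t, r t * c t = w * r t) :
    (∀ t, c t = 1) ∨ (∀ t, c t = -1) := by
  have cancel : ∀ {x a b : ℍ[ℝ]}, x ≠ 0 → x * a = x * b → a = b := fun hx e => mul_left_cancel₀ hx e
  have h01 : c 0 = c 1 := by
    obtain ⟨w, hw⟩ := h _ (rvv_min chks (a := 19) (by norm_num))
    have e0 := hw 0
    have e1 := hw 1
    rw [(rvv_R 19).1] at e0
    rw [(rvv_R 19).2.1, ← d19a] at e1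
    exact cancel (val_ne d19b) (e0.trans e1.symm)
  have h12 : c 1 = c 2 := by
    obtain ⟨w, hw⟩ := h _ (rvv_min chks (a := 2) (by norm_num))
    have e0 := hw 1
    have e1 := hw 2
    rw [(rvv_R 2).2.1] at e0
    rw [(rvv_R 2).2.2, ← d2a] at e1
    exact cancel (val_ne d2b) (e0.trans e1.symm)
  have hi : val IQ * c 0 = c 0 * val IQ := by
    obtain ⟨w, hw⟩ := h _ (rvv_min chks (a := 22) (by norm_num))
    have e0 := hw 0
    have e1 := hw 1
    rw [(rvv_R 22).1, ← val_mul_of d22a] at e0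
    rw [(rvv_R 22).2.1, ← h01] at e1
    apply cancel (val_ne d22b)
    rw [← mul_assoc, e0, ← mul_assoc (val (S (R2 22))) (c 0), e1, mul_assoc]
  have hj : val JQ * c 0 = c 0 * val JQ := by
    obtain ⟨w, hw⟩ := h _ (rvv_min chks (a := 21) (by norm_num))
    have e0 := hw 0
    have e1 := hw 1
    rw [(rvv_R 21).1, ← val_mul_of d21a] at e0
    rw [(rvv_R 21).2.1, ← h01] at e1
    apply cancel (val_ne d21b)
    rw [← mul_assoc, e0, ← mul_assoc (val (S (R2 21))) (c 0), e1, mul_assoc]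
  have vi0 : (val IQ).re = 0 := by simp [val_re, IQ, comp]
  have vi1 : (val IQ).imI = 1 := by simp [val_imI, IQ, comp]
  have vi2 : (val IQ).imJ = 0 := by simp [val_imJ, IQ, comp]
  have vi3 : (val IQ).imK = 0 := by simp [val_imK, IQ, comp]
  have vj0 : (val JQ).re = 0 := by simp [val_re, JQ, comp]
  have vj1 : (val JQ).imI = 0 := by simp [val_imI, JQ, comp]
  have vj2 : (val JQ).imJ = 1 := by simp [val_imJ, JQ, comp]
  have vj3 : (val JQ).imK = 0 := by simp [val_imK, JQ, comp]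
  have i2 := congrArg (fun q : ℍ[ℝ] => q.imJ) hi
  have i3 := congrArg (fun q : ℍ[ℝ] => q.imK) hi
  have j1 := congrArg (fun q : ℍ[ℝ] => q.imI) hj
  have j3 := congrArg (fun q : ℍ[ℝ] => q.imK) hj
  simp only [Quaternion.imJ_mul, Quaternion.imK_mul, Quaternion.imI_mul, vi0, vi1, vi2, vi3, vj0, vj1, vj2, vj3] at i2 i3 j1 j3
  simp only [zero_mul, one_mul, mul_zero, mul_one, add_zero, zero_add, sub_zero, zero_sub] at i2 i3 j1 j3
  have hcI : (c 0).imI = 0 := by linarith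
  have hcJ : (c 0).imJ = 0 := by linarith
  have hcK : (c 0).imK = 0 := by linarith
  have hn := congrArg (fun q : ℍ[ℝ] => q.re) (hc 0)
  simp [hcI, hcJ, hcK] at hn
  have h1 : ((c 0).re - 1) * ((c 0).re + 1) = 0 := by nlinarith
  rcases mul_eq_zero.mp h1 with h2 | h2
  · left
    have : c 0 = 1 := by
      apply Quaternion.ext <;> simp [hcI, hcJ, hcK]
      linarith
    intro t
    fin_cases t
    · exact this
    · change c 1 = 1; rw [← h01]; exact this
    · change c 2 = 1; rw [← h12, ← h01]; exact this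
  · right
    have : c 0 = -1 := by
      apply Quaternion.ext <;> simp [hcI, hcJ, hcK]
      linarith
    intro t
    fin_cases t
    · exact this
    · change c 1 = -1; rw [← h01]; exact this
    · change c 2 = -1; rw [← h12, ← h01]; exact this

/-- The central elements are `±1`. -/
theorem central_cases {g : Equiv.Perm icoLeech} (hg : g ∈ twoJ2) (hc : ∀ f ∈ twoJ2, f * g = g * f) :
    g = 1 ∨ g = zz := by
  obtain ⟨G, g1, g2, g3, g4⟩ := (isL_of_mem hg).1
  obtain ⟨c, c1, c2⟩ := central_diag g1 g2 g3 g4 hc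
  have h : ∀ r ∈ IcoPerm.Min, ∃ w : ℍ[ℝ], ∀ t, r t * c t = w * r t := by
    intro r hr
    obtain ⟨w, _, hw⟩ := line_of_central g2 g3 g4 hc hr
    refine ⟨w, fun t => ?_⟩
    rw [← c2, hw]
    rfl
  rcases scalars_eq c1 h with h1 | h1
  · left
    apply Equiv.ext
    intro x
    apply Subtype.ext
    rw [g4]
    funext t
    rw [c2, h1, mul_one]
    rfl
  · right
    apply Equiv.ext
    intro x
    apply Subtype.ext
    rw [g4, zz_apply]
    funext t
    rw [c2, h1]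
    simp

theorem zz_ne_one : zz ≠ 1 := by
  intro h
  have h1 := zz_apply ⟨E 0, E_mem_lat 0⟩
  rw [h] at h1
  have h2 := congrFun h1 0
  simp only [Equiv.Perm.coe_one, id_eq, Pi.neg_apply, E, if_true] at h2
  have h3 : (2 : ℍ[ℝ]) * 2 = 0 := by
    rw [two_mul]
    nth_rewrite 1 [h2]
    simp
  exact mul_ne_zero two_ne_zero_q two_ne_zero_q h3

theorem zz_comm {g : Equiv.Perm icoLeech} (hg : g ∈ twoJ2) : g * zz = zz * g := by
  obtain ⟨G, g1, g2, g3, g4⟩ := (isL_of_mem hg).1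
  apply Equiv.ext
  intro x
  apply Subtype.ext
  rw [Equiv.Perm.mul_apply, Equiv.Perm.mul_apply, zz_apply, g4, zz_apply, g4]
  have : -(x : V3) = lsmul (-1) x := by funext t; simp [lsmul]
  rw [this, g2]
  funext t; simp [lsmul]

theorem zz_center : (⟨zz, zz_mem⟩ : twoJ2) ∈ Subgroup.center twoJ2 := by
  rw [Subgroup.mem_center_iff]
  rintro ⟨g, hg⟩
  exact Subtype.ext (zz_comm hg)

theorem center_eq : ((Subgroup.center twoJ2 : Subgroup twoJ2) : Set twoJ2) = {1, ⟨zz, zz_mem⟩} := by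
  ext ⟨g, hg⟩
  constructor
  · intro h
    rw [SetLike.mem_coe, Subgroup.mem_center_iff] at h
    have hc : ∀ f ∈ twoJ2, f * g = g * f := fun f hf => congrArg Subtype.val (h ⟨f, hf⟩)
    rcases central_cases hg hc with h1 | h1
    · left; exact Subtype.ext h1
    · right; exact Subtype.ext h1
  · rintro (h | h)
    · rw [h]; exact Subgroup.one_mem _
    · simp only [Set.mem_singleton_iff] at h
      rw [h]; exact zz_center

theorem card_center : Nat.card (Subgroup.center twoJ2) = 2 := by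
  have h1 : Nat.card (Subgroup.center twoJ2) = Nat.card ((Subgroup.center twoJ2 : Subgroup twoJ2) : Set twoJ2) := rfl
  rw [h1, center_eq, Nat.card_coe_set_eq, Set.ncard_pair]
  intro h
  exact zz_ne_one (congrArg Subtype.val h).symm

theorem card_twoJ2 : Nat.card twoJ2 = 1209600 := by
  rw [Subgroup.card_eq_card_quotient_mul_card_subgroup (Subgroup.center twoJ2), card_center]
  have : Nat.card (twoJ2 ⧸ Subgroup.center twoJ2) = 604800 := card_J2
  rw [this]

end Cfsg.Agent.Lib.IcoCenter
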