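import Cfsg.Agent.Lib.IcoP

/-!
# Counting the minimal vectors and reflections of the icosian Leech lattice
-/

set_option autoImplicit false
set_option maxRecDepth 100000

namespace Cfsg.Agent.Lib.IcoCount

open Quaternion Cfsg.Spor Cfsg.Agent.Lib.IcoCoord Cfsg.Agent.Lib.IcoCoord.Q8 Cfsg.Agent.Lib.IcoPerm
  Cfsg.Agent.Lib.IcoAlg Cfsg.Agent.Lib.IcoDefs Cfsg.Agent.Lib.IcoMin Cfsg.Agent.Lib.IcoP
  Cfsg.Agent.Lib.PermChain12
open Cfsg.Agent.Lib.IcoChk (chks)

theorem U_distinct : allB 120 7 (fun k => allB 120 7 (fun l => or (Nat.beq k l) (not (qeq (U k) (U l))))) = true := by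
  decide +kernel

theorem U_inj {k l : ℕ} (hk : k < 120) (hl : l < 120) (h : U k = U l) : k = l := by
  have h1 := allB_spec _ _ _ (by norm_num) (allB_spec _ _ _ (by norm_num) U_distinct k hk) l hl
  rw [Bool.or_eq_true] at h1
  rcases h1 with h1 | h1
  · exact Nat.eq_of_beq_eq_true h1
  · exfalso
    have h2 : qeq (U k) (U l) = true := by
      rw [← h]
      simp [qeq]
    rw [h2] at h1
    simp at h1

theorem rvv_ne_zero {a : ℕ} (ha : a < 315) : ∃ t, rvv a t ≠ 0 := by
  by_contra hne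
  push Not at hne
  have h := (rvv_min chks ha).2
  have h0 : rvv a = 0 := funext hne
  rw [h0] at h
  have h1 : qip (0 : V3) 0 = 0 := by simp [qip]
  rw [h1] at h
  have h2 : (4 : ℍ[ℝ]) = 2 * 2 := by norm_num
  rw [h2] at h
  exact mul_ne_zero two_ne_zero_q two_ne_zero_q h.symm

/-- The parametrisation of the minimal vectors. -/
noncomputable def param (p : Fin 120 × Fin 315) : V3 := lsmul (val (U p.1.val)) (rvv p.2.val)

theorem param_mem (p : Fin 120 × Fin 315) : param p ∈ IcoPerm.Min := by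
  obtain ⟨h1, h2⟩ := U_data chks p.1.2
  have hs : star (star (val (U p.1.val))) * star (val (U p.1.val)) = 1 := by
    rw [star_star]; exact mul_star_of h1
  have := min_lsmul (rvv_min chks p.2.2) hs (star_mem h2)
  rwa [star_star] at this

theorem param_inj : Function.Injective param := by
  rintro ⟨k, a⟩ ⟨l, b⟩ h
  have hk := (U_data chks k.2).1
  have hl := (U_data chks l.2).1
  have hR : LL'.R a = LL'.R b := by
    have e1 : ∀ x : V3, qrefl (rvv a.val) x = qrefl (rvv b.val) x := by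
      intro x
      have h6 := qrefl_lsmul_vec (r := rvv a.val) (val (U k.val)) hk x
      have h7 := qrefl_lsmul_vec (r := rvv b.val) (val (U l.val)) hl x
      have : lsmul (val (U k.val)) (rvv a.val) = lsmul (val (U l.val)) (rvv b.val) := h
      rw [← h6, ← h7, this]
    exact reflP_congr _ _ e1
  have hab := LL'.R_inj hR
  subst hab
  have : lsmul (val (U k.val)) (rvv a.val) = lsmul (val (U l.val)) (rvv a.val) := h
  obtain ⟨t, ht⟩ := rvv_ne_zero a.2
  have h2 : val (U k.val) * rvv a.val t = val (U l.val) * rvv a.val t := congrFun this t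
  have h3 := val_inj (mul_right_cancel₀ ht h2)
  have h4 := U_inj k.2 l.2 h3
  have h5 : k = l := Fin.ext h4
  rw [h5]

theorem param_surj {r : V3} (hr : r ∈ IcoPerm.Min) : ∃ p, param p = r := by
  obtain ⟨a, ha, k, hk, e⟩ := norm_form chks hr
  exact ⟨(⟨k, hk⟩, ⟨a, ha⟩), e.symm⟩

theorem ncard_min : {r : Fin 3 → ℍ[ℝ] | r ∈ icoLeech ∧ qip r r = 4}.ncard = 37800 := by
  have e : {r : Fin 3 → ℍ[ℝ] | r ∈ icoLeech ∧ qip r r = 4} = Set.range param := by
    ext r
    constructor
    · intro hr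
      obtain ⟨p, hp⟩ := param_surj hr
      exact ⟨p, hp⟩
    · rintro ⟨p, rfl⟩
      exact param_mem p
  rw [e, ← Set.image_univ, Set.ncard_image_of_injective _ param_inj, Set.ncard_univ]
  simp

theorem ncard_refl : {f : Equiv.Perm icoLeech | IsIcoReflection f}.ncard = 315 := by
  have e : {f : Equiv.Perm icoLeech | IsIcoReflection f} = Set.range LL'.R := by
    ext f
    change IsIcoReflection f ↔ _
    rw [LL'.isRefl_iff]
    exact exists_congr fun a => eq_comm
  rw [e, ← Set.image_univ, Set.ncard_image_of_injective _ (show Function.Injective LL'.R from LL'.hinj), Set.ncard_univ]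
  simp

/-- Transitivity on the reflections. -/
theorem refl_trans {f f' : Equiv.Perm icoLeech} (hf : IsIcoReflection f) (hf' : IsIcoReflection f') :
    ∃ g ∈ twoJ2, g * f * g⁻¹ = f' := by
  obtain ⟨a, rfl⟩ := (LL'.isRefl_iff f).mp hf
  obtain ⟨b, rfl⟩ := (LL'.isRefl_iff f').mp hf'
  obtain ⟨w, hw, h1⟩ := orbit_all a
  obtain ⟨v, hv, h2⟩ := orbit_all b
  have hm : v * w⁻¹ ∈ LL'.phi.range := by
    rw [range_eq_Pg]
    exact Pg.mul_mem hv (Pg.inv_mem hw)
  obtain ⟨g, hg⟩ := hm
  refine ⟨g, g.2, ?_⟩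
  rw [LL'.phi_spec, hg]
  congr 1
  rw [Equiv.Perm.mul_apply, Equiv.Perm.inv_eq_iff_eq.mpr h1.symm, h2]

end Cfsg.Agent.Lib.IcoCount
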