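import Cfsg.Agent.Lib.IcoCenter
import Cfsg.Agent.Lib.SchurCover46

/-!
# The double cover of the Hall-Janko group is a stem extension
-/

set_option autoImplicit false
set_option maxRecDepth 100000

namespace Cfsg.Agent.Lib.IcoStem12

open Quaternion Cfsg Cfsg.Spor Cfsg.Agent.Lib.IcoCoord Cfsg.Agent.Lib.IcoCoord.Q8 Cfsg.Agent.Lib.IcoPerm
  Cfsg.Agent.Lib.IcoAlg Cfsg.Agent.Lib.IcoDefs Cfsg.Agent.Lib.IcoMin Cfsg.Agent.Lib.IcoP Cfsg.Agent.Lib.IcoCenter
open Cfsg.Agent.Lib.IcoChk (chks)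

theorem half_eq (a b q : ℍ[ℝ]) : (1 / 2 : ℝ) • (a * 2 + b * ((2 : ℝ) • q)) = a + b * q := by
  have h : a * 2 = (2 : ℝ) • a := by rw [two_smul, mul_two]
  rw [h, mul_smul_comm, ← smul_add, smul_smul]
  norm_num

/-- Reflections in a vector in the first two coordinates. -/
theorem qrefl_01 (r y : V3) (h2 : r 2 = 0) (ha : star (r 0) * r 0 = 2) (hb : star (r 1) * r 1 = 2) {q q' : ℍ[ℝ]}
    (hq : star (r 1) * r 0 = (2 : ℝ) • q) (hq' : star (r 0) * r 1 = (2 : ℝ) • q') :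
    qrefl r y = ![-(y 1 * q), -(y 0 * q'), y 2] := by
  have e : (1 / 2 : ℝ) • qip y r = (1 / 2 : ℝ) • (y 0 * star (r 0) + y 1 * star (r 1)) := by
    rw [qip_def, h2]; simp
  have hs : ∀ z : ℍ[ℝ], z - (z + y 1 * q) = -(y 1 * q) := fun z => by abel
  funext t
  fin_cases t
  · show y 0 - ((1 / 2 : ℝ) • qip y r) * r 0 = -(y 1 * q)
    rw [e, smul_mul_assoc, add_mul, mul_assoc, mul_assoc, ha, hq, half_eq, hs]
  · show y 1 - ((1 / 2 : ℝ) • qip y r) * r 1 = -(y 0 * q')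
    rw [e, smul_mul_assoc, add_mul, mul_assoc, mul_assoc, hq', hb, add_comm, half_eq]
    abel
  · show y 2 - ((1 / 2 : ℝ) • qip y r) * r 2 = y 2
    rw [h2]; simp

/-- Reflections in a vector in the last two coordinates. -/
theorem qrefl_12 (r y : V3) (h0 : r 0 = 0) (ha : star (r 1) * r 1 = 2) (hb : star (r 2) * r 2 = 2) {q q' : ℍ[ℝ]}
    (hq : star (r 2) * r 1 = (2 : ℝ) • q) (hq' : star (r 1) * r 2 = (2 : ℝ) • q') :
    qrefl r y = ![y 0, -(y 2 * q), -(y 1 * q')] := by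
  have e : (1 / 2 : ℝ) • qip y r = (1 / 2 : ℝ) • (y 1 * star (r 1) + y 2 * star (r 2)) := by
    rw [qip_def, h0]; simp
  funext t
  fin_cases t
  · show y 0 - ((1 / 2 : ℝ) • qip y r) * r 0 = y 0
    rw [h0]; simp
  · show y 1 - ((1 / 2 : ℝ) • qip y r) * r 1 = -(y 2 * q)
    rw [e, smul_mul_assoc, add_mul, mul_assoc, mul_assoc, ha, hq, half_eq]
    abel
  · show y 2 - ((1 / 2 : ℝ) • qip y r) * r 2 = -(y 1 * q')
    rw [e, smul_mul_assoc, add_mul, mul_assoc, mul_assoc, hq', hb, add_comm, half_eq]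
    abel

/-! ### Numerical facts -/

/-- The quaternion `1`. -/
def OQ : Q8 := ⟨4, 0, 0, 0, 0, 0, 0, 0⟩
/-- The quaternion `-1`. -/
def MQ : Q8 := ⟨-4, 0, 0, 0, 0, 0, 0, 0⟩
/-- The quaternion `2`. -/
def TQ : Q8 := ⟨8, 0, 0, 0, 0, 0, 0, 0⟩

theorem val_OQ : val OQ = 1 := by
  apply Quaternion.ext <;> simp [val_re, val_imI, val_imJ, val_imK, OQ, comp]
theorem val_MQ : val MQ = -1 := by
  apply Quaternion.ext <;> simp [val_re, val_imI, val_imJ, val_imK, MQ, comp]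
theorem val_TQ : val TQ = 2 := by
  have h : TQ = smul 2 OQ := by decide
  rw [h, val_smul, val_OQ]
  push_cast
  rw [two_smul, one_add_one_eq_two]
theorem val_ZQ : val ⟨0, 0, 0, 0, 0, 0, 0, 0⟩ = 0 := by
  apply Quaternion.ext <;> simp [val_re, val_imI, val_imJ, val_imK, comp]

/-- Products with a coordinate being a multiple of `2`. -/
theorem star_mul_two {x y q : Q8} (h : mulRaw (Q8.star x) y = smul 4 (smul 2 q)) :
    star (val x) * val y = (2 : ℝ) • val q := by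
  rw [← val_star, val_mul_of h, val_smul]
  norm_num

theorem star_mul_norm {x y : Q8} (h : mulRaw (Q8.star x) y = smul 4 TQ) :
    star (val x) * val y = 2 := by
  rw [← val_star, val_mul_of h, val_TQ]

/-- The numerical facts about a vector. -/
structure Lbl (a : ℕ) (x y z q q' : Q8) : Prop where
  e1 : S (R1 a) = x
  e2 : S (R2 a) = y
  e3 : S (R3 a) = z
  nx : mulRaw (Q8.star x) x = smul 4 TQ
  ny : mulRaw (Q8.star y) y = smul 4 TQ
  nz : mulRaw (Q8.star z) z = smul 4 TQ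
  hq : mulRaw (Q8.star y) x = smul 4 (smul 2 q)
  hq' : mulRaw (Q8.star x) y = smul 4 (smul 2 q')

/-- The vectors. -/
theorem r19 : mulRaw (Q8.star (S (R2 19))) (S (R1 19)) = smul 4 (smul 2 OQ) ∧
    mulRaw (Q8.star (S (R1 19))) (S (R2 19)) = smul 4 (smul 2 OQ) ∧
    mulRaw (Q8.star (S (R1 19))) (S (R1 19)) = smul 4 TQ ∧
    mulRaw (Q8.star (S (R2 19))) (S (R2 19)) = smul 4 TQ ∧ S (R3 19) = ⟨0, 0, 0, 0, 0, 0, 0, 0⟩ := by
  decide +kernel

theorem r22 : mulRaw (Q8.star (S (R2 22))) (S (R1 22)) = smul 4 (smul 2 IQ) ∧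
    mulRaw (Q8.star (S (R1 22))) (S (R2 22)) = smul 4 (smul 2 (Q8.star IQ)) ∧
    mulRaw (Q8.star (S (R1 22))) (S (R1 22)) = smul 4 TQ ∧
    mulRaw (Q8.star (S (R2 22))) (S (R2 22)) = smul 4 TQ ∧ S (R3 22) = ⟨0, 0, 0, 0, 0, 0, 0, 0⟩ := by
  decide +kernel

theorem r2 : mulRaw (Q8.star (S (R3 2))) (S (R2 2)) = smul 4 (smul 2 OQ) ∧
    mulRaw (Q8.star (S (R2 2))) (S (R3 2)) = smul 4 (smul 2 OQ) ∧
    mulRaw (Q8.star (S (R2 2))) (S (R2 2)) = smul 4 TQ ∧
    mulRaw (Q8.star (S (R3 2))) (S (R3 2)) = smul 4 TQ ∧ S (R1 2) = ⟨0, 0, 0, 0, 0, 0, 0, 0⟩ := by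
  decide +kernel

theorem r4 : mulRaw (Q8.star (S (R3 4))) (S (R2 4)) = smul 4 (smul 2 JQ) ∧
    mulRaw (Q8.star (S (R2 4))) (S (R3 4)) = smul 4 (smul 2 (Q8.star JQ)) ∧
    mulRaw (Q8.star (S (R2 4))) (S (R2 4)) = smul 4 TQ ∧
    mulRaw (Q8.star (S (R3 4))) (S (R3 4)) = smul 4 TQ ∧ S (R1 4) = ⟨0, 0, 0, 0, 0, 0, 0, 0⟩ := by
  decide +kernel

/-- The quaternion `-ij`. -/
def KQ : Q8 := ⟨0, 0, 0, 0, 0, 0, -4, 0⟩

theorem sq_i : val IQ * val IQ = -1 := by
  rw [val_mul_of (z := MQ) (by decide), val_MQ]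
theorem mul_ij : val (Q8.star IQ) * val JQ = val KQ := val_mul_of (by decide)
theorem sq_k : val KQ * val KQ = -1 := by
  rw [val_mul_of (z := MQ) (by decide), val_MQ]
theorem sq_j : val (Q8.star JQ) * val (Q8.star JQ) = -1 := by
  rw [val_mul_of (z := MQ) (by decide), val_MQ]

theorem q19 (y : V3) : qrefl (rvv 19) y = ![-y 1, -y 0, y 2] := by
  obtain ⟨h1, h2, h3, h4, h5⟩ := r19
  rw [qrefl_01 (rvv 19) y (q := 1) (q' := 1)]
  · simp
  · show val (S (R3 19)) = 0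
    rw [h5, val_ZQ]
  · exact star_mul_norm h3
  · exact star_mul_norm h4
  · have := star_mul_two h1
    rwa [val_OQ] at this
  · have := star_mul_two h2
    rwa [val_OQ] at this

theorem q22 (y : V3) : qrefl (rvv 22) y = ![-(y 1 * val IQ), -(y 0 * val (Q8.star IQ)), y 2] := by
  obtain ⟨h1, h2, h3, h4, h5⟩ := r22
  rw [qrefl_01 (rvv 22) y (q := val IQ) (q' := val (Q8.star IQ))]
  · show val (S (R3 22)) = 0
    rw [h5, val_ZQ]
  · exact star_mul_norm h3
  · exact star_mul_norm h4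
  · exact star_mul_two h1
  · exact star_mul_two h2

theorem q2 (y : V3) : qrefl (rvv 2) y = ![y 0, -y 2, -y 1] := by
  obtain ⟨h1, h2, h3, h4, h5⟩ := r2
  rw [qrefl_12 (rvv 2) y (q := 1) (q' := 1)]
  · simp
  · show val (S (R1 2)) = 0
    rw [h5, val_ZQ]
  · exact star_mul_norm h3
  · exact star_mul_norm h4
  · have := star_mul_two h1
    rwa [val_OQ] at this
  · have := star_mul_two h2
    rwa [val_OQ] at this

theorem q4 (y : V3) : qrefl (rvv 4) y = ![y 0, -(y 2 * val JQ), -(y 1 * val (Q8.star JQ))] := by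
  obtain ⟨h1, h2, h3, h4, h5⟩ := r4
  rw [qrefl_12 (rvv 4) y (q := val JQ) (q' := val (Q8.star JQ))]
  · show val (S (R1 4)) = 0
    rw [h5, val_ZQ]
  · exact star_mul_norm h3
  · exact star_mul_norm h4
  · exact star_mul_two h1
  · exact star_mul_two h2

/-- An element with square `-1`. -/
noncomputable def Wp : Equiv.Perm icoLeech :=
  reflP (rvv 4) (rvv_min chks (by norm_num)) * reflP (rvv 2) (rvv_min chks (by norm_num)) *
    reflP (rvv 22) (rvv_min chks (by norm_num)) * reflP (rvv 19) (rvv_min chks (by norm_num))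

theorem Wp_mem : Wp ∈ twoJ2 :=
  twoJ2.mul_mem (twoJ2.mul_mem (twoJ2.mul_mem (Subgroup.subset_closure (reflP_isRefl _ _))
    (Subgroup.subset_closure (reflP_isRefl _ _))) (Subgroup.subset_closure (reflP_isRefl _ _)))
    (Subgroup.subset_closure (reflP_isRefl _ _))

theorem Wp_apply (x : icoLeech) :
    ((Wp x : icoLeech) : V3) = ![(x : V3) 0 * val IQ, (x : V3) 1 * val KQ, (x : V3) 2 * val (Q8.star JQ)] := by
  change qrefl (rvv 4) (qrefl (rvv 2) (qrefl (rvv 22) (qrefl (rvv 19) x))) = _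
  rw [q19, q22, q2, q4, ← mul_ij]
  funext t
  fin_cases t <;> simp [mul_assoc]

theorem Wp_sq : Wp * Wp = zz := by
  apply Equiv.ext
  intro x
  apply Subtype.ext
  rw [Equiv.Perm.mul_apply, Wp_apply, zz_apply, Wp_apply]
  funext t
  fin_cases t
  · simp [mul_assoc, sq_i]
  · simp [mul_assoc, sq_k]
  · simp [mul_assoc, sq_j]

/-! ### The commutator subgroup -/

/-- In a group generated by involutions, the squares lie in the commutator subgroup. -/
theorem sq_mem_commutator {P : Type*} [Group P] (T : Set P) (hT : ∀ g ∈ T, g ^ 2 = 1)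
    (x : ↥(Subgroup.closure T)) : x ^ 2 ∈ commutator ↥(Subgroup.closure T) := by
  let φ : ↥(Subgroup.closure T) →* Abelianization ↥(Subgroup.closure T) := Abelianization.of
  have hall : ∀ (z : P) (hz : z ∈ Subgroup.closure T), (φ ⟨z, hz⟩) ^ 2 = 1 := by
    intro z hz
    induction hz using Subgroup.closure_induction with
    | mem z hz =>
      rw [← map_pow]
      have : (⟨z, Subgroup.subset_closure hz⟩ : ↥(Subgroup.closure T)) ^ 2 = 1 :=
        Subtype.ext (hT z hz)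
      rw [this, map_one]
    | one =>
      have : (⟨1, Subgroup.one_mem _⟩ : ↥(Subgroup.closure T)) = 1 := rfl
      rw [this, map_one, one_pow]
    | mul a b ha hb iha ihb =>
      have : (⟨a * b, Subgroup.mul_mem _ ha hb⟩ : ↥(Subgroup.closure T)) = ⟨a, ha⟩ * ⟨b, hb⟩ := rfl
      rw [this, map_mul, mul_pow, iha, ihb, one_mul]
    | inv a ha iha =>
      have : (⟨a⁻¹, Subgroup.inv_mem _ ha⟩ : ↥(Subgroup.closure T)) = (⟨a, ha⟩)⁻¹ := rfl
      rw [this, map_inv, inv_pow, iha, inv_one]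
  have h1 : φ (x ^ 2) = 1 := by
    rw [map_pow]
    exact hall x.1 x.2
  have h2 : x ^ 2 ∈ φ.ker := h1
  rwa [Abelianization.ker_of] at h2

theorem refl_sq {f : Equiv.Perm icoLeech} (hf : IsIcoReflection f) : f ^ 2 = 1 := by
  obtain ⟨r, hr, rfl⟩ := (isRefl_iff f).mp hf
  rw [pow_two]
  nth_rewrite 1 [← reflP_inv r hr]
  exact inv_mul_cancel _

theorem zz_mem_commutator : (⟨zz, zz_mem⟩ : twoJ2) ∈ commutator twoJ2 := by
  have h := sq_mem_commutator {f | IsIcoReflection f} (fun f hf => refl_sq hf) ⟨Wp, Wp_mem⟩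
  have e : (⟨Wp, Wp_mem⟩ : twoJ2) ^ 2 = ⟨zz, zz_mem⟩ := Subtype.ext (by
    show Wp ^ 2 = zz
    rw [pow_two, Wp_sq])
  have h' : (⟨Wp, Wp_mem⟩ : twoJ2) ^ 2 ∈ commutator twoJ2 := h
  rwa [e] at h'

/-- The natural map is a stem extension. -/
theorem isStem : IsStemExtension (QuotientGroup.mk' (Subgroup.center twoJ2)) := by
  refine ⟨QuotientGroup.mk'_surjective _, ?_, ?_⟩
  · rw [QuotientGroup.ker_mk']
  · rw [QuotientGroup.ker_mk']
    intro k hk
    have h1 : k ∈ ((Subgroup.center twoJ2 : Subgroup twoJ2) : Set twoJ2) := hk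
    rw [center_eq] at h1
    rcases h1 with h1 | h1
    · rw [h1]; exact Subgroup.one_mem _
    · rw [Set.mem_singleton_iff.mp h1]; exact zz_mem_commutator

theorem finite_twoJ2 : Finite twoJ2 := Nat.finite_of_card_ne_zero (by rw [card_twoJ2]; norm_num)

theorem ker_equiv :
    Nonempty ((QuotientGroup.mk' (Subgroup.center twoJ2)).ker ≃* Multiplicative (ZMod 2)) := by
  rw [QuotientGroup.ker_mk']
  haveI : Fact (Nat.Prime 2) := ⟨by norm_num⟩
  exact ⟨mulEquivOfPrimeCardEq (p := 2) card_center (by simp)⟩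

end Cfsg.Agent.Lib.IcoStem12
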