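import Mathlib
import Cfsg.Agent.Lib.SqScalar

/-!
# Involutions of `PSL_n(q)`: tools shared by the statements on conjugacy into subgroups
-/

set_option autoImplicit false
open scoped MatrixGroups Kronecker

namespace Cfsg.Agent.Lib.InvolConj

open Matrix Module
open Cfsg.Agent.Lib.SqScalar

variable {F : Type*} [Field F] {n : ℕ}

local notation "Mt" => Matrix (Fin n) (Fin n) F

/-- Reduction to conjugation in `GL`. -/
theorem reduce_GL [Fintype F] (H : Subgroup (GL (Fin n) F)) (x : Matrix.SpecialLinearGroup (Fin n) F) (z : F)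
    (hz : ((x ^ 2 : Matrix.SpecialLinearGroup (Fin n) F) : Mt) = z • (1 : Mt))
    (hx : ∀ z : F, (x : Mt) ≠ z • (1 : Mt))
    (h : ∃ P : GL (Fin n) F, P⁻¹ * (Matrix.SpecialLinearGroup.toGL x) * P ∈ H) :
    ∃ P : Matrix.SpecialLinearGroup (Fin n) F, P⁻¹ * x * P ∈ H.comap (Matrix.SpecialLinearGroup.toGL : Matrix.SpecialLinearGroup (Fin n) F →* GL (Fin n) F) := by
  obtain ⟨P, hP⟩ := h
  obtain ⟨P', hdet, he⟩ := exists_conj_fix (Matrix.SpecialLinearGroup.toGL x) P z (by
    rw [Matrix.SpecialLinearGroup.coe_GL_coe_matrix]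
    rw [pow_two, Matrix.SpecialLinearGroup.coe_mul] at hz
    exact hz) (fun c hc => hx c hc)
  let P₁ : Matrix.SpecialLinearGroup (Fin n) F := ⟨P', hdet⟩
  have hP₁ : Matrix.SpecialLinearGroup.toGL P₁ = P' := Units.ext rfl
  refine ⟨P₁, ?_⟩
  rw [Subgroup.mem_comap, map_mul, map_mul, map_inv, hP₁, he]
  exact hP

/-- `(2:F) ≠ 0` when the order of `F` is odd. -/
theorem two_ne_zero_of_odd [Fintype F] {q : ℕ} (hq : Fintype.card F = q) (hodd : Odd q) : (2 : F) ≠ 0 := by
  intro h2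
  haveI : CharP F 2 := CharTwo.of_one_ne_zero_of_two_eq_zero one_ne_zero h2
  have hc : ringChar F = 2 := ringChar.eq F 2
  have := FiniteField.even_card_of_char_two hc
  rw [hq] at this
  obtain ⟨k, rfl⟩ := hodd
  omega

theorem two_eq_zero_of_even [Fintype F] {q : ℕ} (hq : Fintype.card F = q) (hodd : ¬ Odd q) : (2 : F) = 0 := by
  have h1 : Fintype.card F % 2 = 0 := by
    rw [hq]
    exact Nat.not_odd_iff.mp hodd
  by_contra h2
  have hc : ringChar F ≠ 2 := by
    intro hc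
    apply h2
    have := ringChar.Nat.cast_ringChar (R := F)
    rw [hc] at this
    exact_mod_cast this
  have := FiniteField.odd_card_of_char_ne_two hc
  omega

theorem ringChar_ne_two_of_odd [Fintype F] {q : ℕ} (hq : Fintype.card F = q) (hodd : Odd q) : ringChar F ≠ 2 := by
  intro hc
  have := FiniteField.even_card_of_char_two hc
  rw [hq] at this
  obtain ⟨k, rfl⟩ := hodd
  omega

/-- Euler's criterion in the form `g ^ ((q-1)/2) = 1`. -/
theorem isSquare_iff_pow [Fintype F] {q : ℕ} (hq : Fintype.card F = q) (hodd : Odd q) {g : F} (hg : g ≠ 0) :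
    IsSquare g ↔ g ^ ((q - 1) / 2) = 1 := by
  have := FiniteField.isSquare_iff (ringChar_ne_two_of_odd hq hodd) hg
  rw [this, hq]
  have : q / 2 = (q - 1) / 2 := by
    obtain ⟨k, rfl⟩ := hodd
    omega
  rw [this]

/-- If `g ^ m = 1` and `v₂(m) < v₂(q-1)` then `g` is a square. -/
theorem isSquare_of_pow_eq_one [Fintype F] {q : ℕ} (hq : Fintype.card F = q) (hodd : Odd q) (g : F) (m : ℕ) (hm : m ≠ 0)
    (hg : g ^ m = 1) (hv : padicValNat 2 m < padicValNat 2 (q - 1)) : IsSquare g := by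
  have hg0 : g ≠ 0 := by
    rintro rfl
    rw [zero_pow hm] at hg
    exact zero_ne_one hg
  rw [isSquare_iff_pow hq hodd hg0]
  have h2 := two_ne_zero_of_odd hq hodd
  have hq2 : 2 ≤ q := by
    have := Fintype.one_lt_card (α := F)
    omega
  obtain ⟨e, m', hm', hmm⟩ := Nat.exists_eq_two_pow_mul_odd hm
  have hq3 : q - 1 ≠ 0 := by omega
  obtain ⟨f, r, hr, hqq⟩ := Nat.exists_eq_two_pow_mul_odd hq3
  rw [hmm, padicValNat_two_pow_mul_odd _ _ hm', hqq, padicValNat_two_pow_mul_odd _ _ hr] at hv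
  set t := g ^ ((q - 1) / 2) with ht
  have ht1 : (q - 1) / 2 = 2 ^ (f - 1) * r := by
    rw [hqq]
    obtain ⟨f', rfl⟩ : ∃ f', f = f' + 1 := ⟨f - 1, by omega⟩
    simp only [Nat.add_sub_cancel, pow_succ]
    have : 2 ^ f' * 2 * r = 2 * (2 ^ f' * r) := by ring
    rw [this]
    simp
  have ht2 : t * t = 1 := by
    have hodd' : (q - 1) / 2 + (q - 1) / 2 = q - 1 := by
      obtain ⟨k, rfl⟩ := hodd
      omega
    rw [ht, ← pow_add, hodd', ← hq]
    exact FiniteField.pow_card_sub_one_eq_one g hg0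
  have ht3 : t ^ m' = 1 := by
    rw [ht, ht1, ← pow_mul]
    have : 2 ^ (f - 1) * r * m' = m * (2 ^ (f - 1 - e) * r) := by
      rw [hmm]
      have : 2 ^ (f - 1) = 2 ^ e * 2 ^ (f - 1 - e) := by
        rw [← pow_add]
        congr 1
        omega
      rw [this]
      ring
    rw [this, pow_mul, hg, one_pow]
  rcases mul_self_eq_one_iff.mp ht2 with h | h
  · exact h
  · exfalso
    rw [h, hm'.neg_one_pow] at ht3
    apply h2
    linear_combination -ht3

/-- If `v₂(q-1) ≤ v₂(m)` there is a non-square `g` with `g ^ m = 1`. -/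
theorem exists_nonsquare_pow_one [Fintype F] {q : ℕ} (hq : Fintype.card F = q) (hodd : Odd q) (m : ℕ) (hm : m ≠ 0)
    (hv : padicValNat 2 (q - 1) ≤ padicValNat 2 m) : ∃ g : F, g ≠ 0 ∧ ¬ IsSquare g ∧ g ^ m = 1 := by
  obtain ⟨γ, hγ⟩ := IsCyclic.exists_generator (α := Fˣ)
  have h2 := two_ne_zero_of_odd hq hodd
  have hq2 : 2 ≤ q := by
    have := Fintype.one_lt_card (α := F)
    omega
  obtain ⟨e, m', hm', hmm⟩ := Nat.exists_eq_two_pow_mul_odd hm
  have hq3 : q - 1 ≠ 0 := by omega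
  obtain ⟨f, r, hr, hqq⟩ := Nat.exists_eq_two_pow_mul_odd hq3
  rw [hmm, padicValNat_two_pow_mul_odd _ _ hm', hqq, padicValNat_two_pow_mul_odd _ _ hr] at hv
  have hγ0 : (γ : F) ≠ 0 := γ.ne_zero
  have hg0 : (γ : F) ^ r ≠ 0 := pow_ne_zero _ hγ0
  refine ⟨(γ : F) ^ r, hg0, ?_, ?_⟩
  · rw [isSquare_iff_pow hq hodd hg0, ← pow_mul, mul_comm, pow_mul, neg_one_eq_gen_pow hq hodd γ hγ, hr.neg_one_pow]
    intro h
    apply h2
    linear_combination -h
  · rw [← pow_mul]
    have : r * m = (q - 1) * (2 ^ (e - f) * m') := by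
      rw [hmm, hqq]
      have : 2 ^ e = 2 ^ f * 2 ^ (e - f) := by
        rw [← pow_add]
        congr 1
        omega
      rw [this]
      ring
    rw [this, pow_mul, ← hq, FiniteField.pow_card_sub_one_eq_one _ hγ0, one_pow]

/-- Block matrices with square `z`, in even dimension. -/
theorem exists_block (m : ℕ) (hn : n = 2 * m) (z : F) : ∃ X : Mt, X * X = z • (1 : Mt) ∧ X.det = (-z) ^ m := by
  classical
  let g : Fin 2 × Fin m ≃ Fin n := Fintype.equivOfCardEq (by simp [hn])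
  let A : Matrix (Fin 2) (Fin 2) F := !![0, z; 1, 0]
  have hAA : A * A = z • (1 : Matrix (Fin 2) (Fin 2) F) := by
    ext i j
    fin_cases i <;> fin_cases j <;> simp [A, Matrix.mul_apply, Fin.sum_univ_two]
  have hAd : A.det = -z := by
    simp [A, Matrix.det_fin_two]
  let B : Matrix (Fin 2 × Fin m) (Fin 2 × Fin m) F := A ⊗ₖ (1 : Matrix (Fin m) (Fin m) F)
  have hBB : B * B = z • (1 : Matrix (Fin 2 × Fin m) (Fin 2 × Fin m) F) := by
    rw [← Matrix.mul_kronecker_mul, hAA, Matrix.mul_one, Matrix.smul_kronecker, Matrix.one_kronecker_one]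
  have hBd : B.det = (-z) ^ m := by
    rw [Matrix.det_kronecker, hAd]
    simp
  refine ⟨Matrix.reindex g g B, ?_, ?_⟩
  · rw [Matrix.reindex_apply, Matrix.submatrix_mul_equiv, hBB]
    ext i j
    simp [Matrix.one_apply, Matrix.smul_apply, g.symm.injective.eq_iff]
  · rw [Matrix.det_reindex_self, hBd]

end Cfsg.Agent.Lib.InvolConj
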