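import Mathlib
import Cfsg.Agent.Lib.BlockPerm

/-!
Operators whose square is a non-zero scalar permute the lines of a suitable basis.
-/

set_option autoImplicit false

namespace Cfsg.Agent.Lib.InvolNormal

open Finset Module

variable {F V : Type*} [Field F] [AddCommGroup V] [Module F V] [FiniteDimensional F V]

theorem exists_dual_of_notMem_span {v u : V} (hu : u ∉ Submodule.span F {v}) :
    ∃ h : Dual F V, h v = 0 ∧ h u = 1 := by
  obtain ⟨f, hfu, hf⟩ := Submodule.exists_dual_map_eq_bot_of_notMem hu inferInstance
  refine ⟨(f u)⁻¹ • f, ?_, ?_⟩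
  · have : f v ∈ (Submodule.span F {v}).map f :=
      Submodule.mem_map_of_mem (Submodule.mem_span_singleton_self v)
    rw [hf, Submodule.mem_bot] at this
    simp [this]
  · simp [hfu]

theorem exists_dual_of_ne_zero {v : V} (hv : v ≠ 0) : ∃ h : Dual F V, h v = 1 := by
  have hu : v ∉ (⊥ : Submodule F V) := by simpa using hv
  obtain ⟨f, hfu, -⟩ := Submodule.exists_dual_map_eq_bot_of_notMem hu inferInstance
  exact ⟨(f v)⁻¹ • f, by simp [hfu]⟩

/-- Lines permuted by an operator with scalar square. -/
theorem lines_normal_form [DecidableEq (Submodule F V)] (x : V →ₗ[F] V) (z : F) (hz : z ≠ 0)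
    (hx : ∀ v, x (x v) = z • v) (d : ℕ) :
    ∀ W : Submodule F V, finrank F W = d → (∀ v ∈ W, x v ∈ W) →
    ∃ 𝓛 : Finset (Submodule F V), (∀ L ∈ 𝓛, finrank F L = 1 ∧ L ≤ W) ∧ 𝓛.SupIndep id ∧
      𝓛.sup id = W ∧ (∀ L ∈ 𝓛, L.map x ∈ 𝓛) := by
  induction d using Nat.strong_induction_on with
  | _ d ih =>
  intro W hd hW
  have hxinj : ∀ v, v ≠ 0 → x v ≠ 0 := by
    intro v hv h
    have := hx v
    rw [h, map_zero] at this
    exact (smul_ne_zero hz hv) this.symm
  by_cases hbot : W = ⊥
  · refine ⟨∅, by simp, by simp, by simp [hbot], by simp⟩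
  have hexv : ∃ v ∈ W, v ≠ 0 := (Submodule.ne_bot_iff W).1 hbot
  by_cases hscal : ∀ v ∈ W, x v ∈ Submodule.span F {v}
  · -- every vector of `W` is an eigenvector
    obtain ⟨v, hvW, hv⟩ := hexv
    obtain ⟨h, hh⟩ := exists_dual_of_ne_zero (F := F) hv
    let U : Submodule F V := W ⊓ LinearMap.ker h
    have hUW : U ≤ W := inf_le_left
    have hvU : v ∉ U := fun hmem => by
      have : h v = 0 := hmem.2
      rw [hh] at this
      exact one_ne_zero this
    have hUlt : U < W := lt_of_le_of_ne hUW (fun he => hvU (he ▸ hvW))
    have hUd : finrank F U < d := by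
      rw [← hd]
      exact Submodule.finrank_lt_finrank_of_lt hUlt
    have hUx : ∀ u ∈ U, x u ∈ U := by
      intro u hu
      obtain ⟨c, hc⟩ := Submodule.mem_span_singleton.1 (hscal u hu.1)
      rw [← hc]
      exact U.smul_mem _ hu
    obtain ⟨𝓛, h1, h2, h3, h4⟩ := ih _ hUd U rfl hUx
    refine ⟨insert (Submodule.span F {v}) 𝓛, ?_, ?_, ?_, ?_⟩
    · intro L hL
      rcases mem_insert.1 hL with rfl | hL
      · refine ⟨finrank_span_singleton hv, ?_⟩
        rwa [Submodule.span_singleton_le_iff_mem]
      · exact ⟨(h1 L hL).1, (h1 L hL).2.trans hUW⟩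
    · refine h2.insert ?_
      rw [h3]
      simp only [id]
      rw [Submodule.disjoint_def]
      intro w hw hwU
      obtain ⟨c, rfl⟩ := Submodule.mem_span_singleton.1 hw
      have : h (c • v) = 0 := hwU.2
      rw [map_smul, hh, smul_eq_mul, mul_one] at this
      rw [this, zero_smul]
    · rw [sup_insert, h3]
      simp only [id]
      apply le_antisymm
      · refine sup_le ?_ hUW
        rwa [Submodule.span_singleton_le_iff_mem]
      · intro w hw
        have hw' : w = h w • v + (w - h w • v) := by abel
        rw [hw']
        refine Submodule.add_mem_sup (Submodule.smul_mem _ _ (Submodule.mem_span_singleton_self v)) ?_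
        refine ⟨W.sub_mem hw (W.smul_mem _ hvW), ?_⟩
        simp [hh]
    · intro L hL
      rcases mem_insert.1 hL with rfl | hL
      · have h5 : (Submodule.span F {v}).map x = Submodule.span F {v} := by
          rw [Submodule.map_span, Set.image_singleton]
          obtain ⟨c, hc⟩ := Submodule.mem_span_singleton.1 (hscal v hvW)
          have hc0 : c ≠ 0 := by
            rintro rfl
            rw [zero_smul] at hc
            exact hxinj v hv hc.symm
          rw [← hc]
          exact Submodule.span_singleton_smul_eq (IsUnit.mk0 c hc0) v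
        rw [h5]
        exact mem_insert_self _ _
      · exact mem_insert_of_mem (h4 L hL)
  · -- a vector with `v, x v` independent
    push Not at hscal
    obtain ⟨v, hvW, hxv⟩ := hscal
    have hv : v ≠ 0 := by
      rintro rfl
      simp at hxv
    obtain ⟨h, hh0, hh1⟩ := exists_dual_of_notMem_span (F := F) hxv
    -- the equivariant projection onto `span {v, x v}`
    let P : V →ₗ[F] V := (h.comp x).smulRight v + h.smulRight (x v)
    have hP : ∀ u, P u = h (x u) • v + h u • x v := fun u => rfl
    have hPv : P v = v := by
      rw [hP, hh1, hh0]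
      simp
    have hPxv : P (x v) = x v := by
      rw [hP, hx, map_smul, hh0, hh1]
      simp
    have hPx : ∀ u, P (x u) = x (P u) := by
      intro u
      rw [hP, hP, hx, map_smul, map_add, map_smul, map_smul, hx, smul_smul, smul_eq_mul]
      rw [mul_comm, mul_smul, add_comm]
    let U : Submodule F V := W ⊓ LinearMap.ker P
    have hUW : U ≤ W := inf_le_left
    have hvU : v ∉ U := fun hmem => by
      have : P v = 0 := hmem.2
      rw [hPv] at this
      exact hv this
    have hUlt : U < W := lt_of_le_of_ne hUW (fun he => hvU (he ▸ hvW))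
    have hUd : finrank F U < d := by
      rw [← hd]
      exact Submodule.finrank_lt_finrank_of_lt hUlt
    have hUx : ∀ u ∈ U, x u ∈ U := by
      intro u hu
      refine ⟨hW u hu.1, ?_⟩
      have : P u = 0 := hu.2
      change P (x u) = 0
      rw [hPx, this, map_zero]
    obtain ⟨𝓛, h1, h2, h3, h4⟩ := ih _ hUd U rfl hUx
    have hxv0 : x v ≠ 0 := hxinj v hv
    have hxvW := hW v hvW
    have hPid : ∀ w ∈ Submodule.span F {v} ⊔ Submodule.span F {x v}, P w = w := by
      intro w hw
      obtain ⟨a, ha, b, hb, rfl⟩ := Submodule.mem_sup.1 hw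
      obtain ⟨c, rfl⟩ := Submodule.mem_span_singleton.1 ha
      obtain ⟨e, rfl⟩ := Submodule.mem_span_singleton.1 hb
      rw [map_add, map_smul, map_smul, hPv, hPxv]
    have hdisj : Disjoint (Submodule.span F {x v}) U := by
      rw [Submodule.disjoint_def]
      intro w hw hwU
      have h5 := hPid w (Submodule.mem_sup_right hw)
      have h6 : P w = 0 := hwU.2
      rw [← h5, h6]
    have hdisj2 : Disjoint (Submodule.span F {v}) (Submodule.span F {x v} ⊔ U) := by
      rw [Submodule.disjoint_def]
      intro w hw hw2
      obtain ⟨a, ha, b, hb, rfl⟩ := Submodule.mem_sup.1 hw2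
      have h5 := hPid _ (Submodule.mem_sup_left hw)
      have h6 : P b = 0 := hb.2
      have h7 := hPid a (Submodule.mem_sup_right ha)
      rw [map_add, h6, add_zero, h7] at h5
      -- now `a = a + b`
      have hb0 : b = 0 := by
        have := h5.symm
        simpa using this
      subst hb0
      rw [add_zero] at hw ⊢
      obtain ⟨c, rfl⟩ := Submodule.mem_span_singleton.1 ha
      by_cases hc : c = 0
      · simp [hc]
      · exfalso
        apply hxv
        have h8 := (Submodule.smul_mem_iff _ hc).1 hw
        exact h8
    refine ⟨insert (Submodule.span F {v}) (insert (Submodule.span F {x v}) 𝓛), ?_, ?_, ?_, ?_⟩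
    · intro L hL
      rcases mem_insert.1 hL with rfl | hL
      · refine ⟨finrank_span_singleton hv, ?_⟩
        rwa [Submodule.span_singleton_le_iff_mem]
      rcases mem_insert.1 hL with rfl | hL
      · refine ⟨finrank_span_singleton hxv0, ?_⟩
        rwa [Submodule.span_singleton_le_iff_mem]
      · exact ⟨(h1 L hL).1, (h1 L hL).2.trans hUW⟩
    · have h5 : (insert (Submodule.span F {x v}) 𝓛).SupIndep id := by
        refine h2.insert ?_
        rw [h3]
        exact hdisj
      refine h5.insert ?_
      rw [sup_insert, h3]
      exact hdisj2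
    · rw [sup_insert, sup_insert, h3]
      simp only [id]
      apply le_antisymm
      · refine sup_le ?_ (sup_le ?_ hUW)
        · rwa [Submodule.span_singleton_le_iff_mem]
        · rwa [Submodule.span_singleton_le_iff_mem]
      · intro w hw
        have hw' : w = h (x w) • v + (h w • x v + (w - P w)) := by
          rw [hP]
          abel
        rw [hw']
        refine Submodule.add_mem_sup (Submodule.smul_mem _ _ (Submodule.mem_span_singleton_self v)) ?_
        refine Submodule.add_mem_sup (Submodule.smul_mem _ _ (Submodule.mem_span_singleton_self _)) ?_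
        refine ⟨W.sub_mem hw ?_, ?_⟩
        · rw [hP]
          exact W.add_mem (W.smul_mem _ hvW) (W.smul_mem _ hxvW)
        · change P (w - P w) = 0
          rw [map_sub, hPid (P w) ?_, sub_self]
          rw [hP]
          exact Submodule.add_mem_sup (Submodule.smul_mem _ _ (Submodule.mem_span_singleton_self v))
            (Submodule.smul_mem _ _ (Submodule.mem_span_singleton_self _))
    · intro L hL
      rcases mem_insert.1 hL with rfl | hL
      · rw [Submodule.map_span, Set.image_singleton]
        exact mem_insert_of_mem (mem_insert_self _ _)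
      rcases mem_insert.1 hL with rfl | hL
      · rw [Submodule.map_span, Set.image_singleton, hx]
        rw [show Submodule.span F {z • v} = Submodule.span F {v} from
          Submodule.span_singleton_smul_eq (IsUnit.mk0 z hz) v]
        exact mem_insert_self _ _
      · exact mem_insert_of_mem (mem_insert_of_mem (h4 L hL))

end Cfsg.Agent.Lib.InvolNormal
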