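import Mathlib
import Cfsg.Agent.Lib.IsaMain

/-!
# The complement `A` of the fixed points in `K/L`
-/

set_option autoImplicit false
set_option linter.unusedVariables false
set_option linter.unusedSectionVars false
set_option linter.style.haveILetI false

namespace Cfsg.Agent.Lib.IsaCliff

universe u v

/-- Coprime decomposition of an abelian group. -/
theorem comm_decomp {M : Type*} [CommGroup M] [Finite M] {S' : Type*} [Group S'] [Fintype S']
    (a : S' → (M →* M)) (ha : ∀ s t m, a (s * t) m = a s (a t m))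
    (hc : (Nat.card M).Coprime (Nat.card S')) :
    ∃ F : M →* M, (∀ s m, F (a s m) = F m) ∧ (∀ s m, a s (F m) = F m) ∧
      (∀ m, ∃ u f, m = u * f ∧ F u = 1 ∧ ∀ s, a s f = f) ∧
      (∀ m, (∀ s, a s m = m) → F m = 1 → m = 1) ∧
      (∀ c : M →* M, (∀ s m, c (a s m) = a s (c m)) → ∀ m, F (c m) = c (F m)) := by
  let F : M →* M :=
    { toFun := fun m => ∏ s : S', a s m
      map_one' := by simp
      map_mul' := fun x y => by
        simp only [map_mul]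
        exact Finset.prod_mul_distrib }
  have hF : ∀ m, F m = ∏ s : S', a s m := fun m => rfl
  have h1 : ∀ s m, F (a s m) = F m := by
    intro s m
    simp only [hF, ← ha]
    exact Fintype.prod_equiv (Equiv.mulRight s) _ _ (fun t => rfl)
  have h2 : ∀ s m, a s (F m) = F m := by
    intro s m
    simp only [hF, map_prod, ← ha]
    exact Fintype.prod_equiv (Equiv.mulLeft s) _ _ (fun t => rfl)
  have h3 : ∀ m, (∀ s, a s m = m) → F m = m ^ Nat.card S' := by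
    intro m hm
    simp only [hF, hm, Finset.prod_const, Finset.card_univ, Nat.card_eq_fintype_card]
  obtain ⟨m₀, hm₀⟩ := Cfsg.Agent.Lib.IsaBaer.exists_pow_inv (P := M) hc
  refine ⟨F, h1, h2, ?_, ?_, ?_⟩
  · intro m
    have hf : ∀ s, a s ((F m) ^ m₀) = (F m) ^ m₀ := by
      intro s
      rw [map_pow, h2]
    refine ⟨m * ((F m) ^ m₀)⁻¹, (F m) ^ m₀, by group, ?_, hf⟩
    rw [map_mul, map_inv, h3 _ hf, ← pow_mul, mul_comm m₀, hm₀, mul_inv_cancel]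
  · intro m hm h0
    rw [h3 m hm] at h0
    rw [← hm₀ m, pow_mul, h0, one_pow]
  · intro c hc' m
    simp only [hF, hc', map_prod]

section Sup

variable {Γ : Type u} [Group Γ]

/-- Elements of a product with a normalized factor. -/
theorem sup_mul_form {N C : Subgroup Γ} (hN : ∀ c ∈ C, ∀ n ∈ N, c * n * c⁻¹ ∈ N) :
    ∀ g ∈ N ⊔ C, ∃ n ∈ N, ∃ c ∈ C, g = n * c := by
  let W : Subgroup Γ :=
    { carrier := {g | ∃ n ∈ N, ∃ c ∈ C, g = n * c}
      one_mem' := ⟨1, N.one_mem, 1, C.one_mem, by simp⟩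
      mul_mem' := by
        rintro _ _ ⟨n, hn, c, hc, rfl⟩ ⟨n', hn', c', hc', rfl⟩
        exact ⟨n * (c * n' * c⁻¹), N.mul_mem hn (hN c hc n' hn'), c * c', C.mul_mem hc hc',
          by group⟩
      inv_mem' := by
        rintro _ ⟨n, hn, c, hc, rfl⟩
        refine ⟨c⁻¹ * n⁻¹ * c⁻¹⁻¹, hN _ (C.inv_mem hc) _ (N.inv_mem hn), c⁻¹, C.inv_mem hc, ?_⟩
        group }
  have hle : N ⊔ C ≤ W := sup_le (fun n hn => ⟨n, hn, 1, C.one_mem, by simp⟩)
    (fun c hc => ⟨1, N.one_mem, c, hc, by simp⟩)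
  exact fun g hg => hle hg

end Sup

section Zero

variable {Γ : Type u} [Group Γ] [Finite Γ]

/-- Conjugation on `K`. -/
def conjK (K : Subgroup Γ) (g : Γ) (hg : ∀ k ∈ K, g * k * g⁻¹ ∈ K) : K →* K where
  toFun k := ⟨g * k * g⁻¹, hg k k.2⟩
  map_one' := Subtype.ext (by simp)
  map_mul' x y := Subtype.ext (by
    show g * (x * y) * g⁻¹ = g * x * g⁻¹ * (g * y * g⁻¹)
    group)

/-- **The complement.** -/
theorem exists_A (G S C K L H : Subgroup Γ)
    (hnorm : ∀ s ∈ S, ∀ g ∈ G, s * g * s⁻¹ ∈ G) (hcop : (Nat.card G).Coprime (Nat.card S))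
    (hGsolv : Group.IsSolvable G) (hodd : Odd (Nat.card G))
    (hC : C = G ⊓ Subgroup.centralizer (S : Set Γ)) (hCG : C ≤ G) (hLK : L ≤ K) (hKG : K ≤ G)
    (hKn : ∀ g ∈ G, ∀ k ∈ K, g * k * g⁻¹ ∈ K) (hLn : ∀ g ∈ G, ∀ l ∈ L, g * l * g⁻¹ ∈ L)
    (hKS : ∀ s ∈ S, ∀ k ∈ K, s * k * s⁻¹ ∈ K) (hLS : ∀ s ∈ S, ∀ l ∈ L, s * l * s⁻¹ ∈ L)
    (hab : ∀ a ∈ K, ∀ b ∈ K, a * b * a⁻¹ * b⁻¹ ∈ L) (hGKC : K ⊔ C = G) (hH : H = L ⊔ C)
    (hHG : H ≤ G) [fX : ∀ X : Subgroup Γ, Fintype X] : ∃ A, ASetup G S L A H := by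
  classical
  letI : Fintype S := Fintype.ofFinite _
  have hCfix : ∀ c ∈ C, ∀ s ∈ S, s * c * s⁻¹ = c := by
    intro c hc s hs
    rw [hC] at hc
    have h1 := Subgroup.mem_centralizer_iff.mp hc.2 s hs
    rw [h1]
    group
  have hfixC : ∀ g ∈ G, (∀ s ∈ S, s * g * s⁻¹ = g) → g ∈ C := by
    intro g hg hfix
    rw [hC]
    refine ⟨hg, Subgroup.mem_centralizer_iff.mpr fun s hs => ?_⟩
    have := hfix s hs
    rwa [mul_inv_eq_iff_eq_mul] at this
  let Q : Subgroup K := L.subgroupOf K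
  haveI hQ : Q.Normal := ⟨fun n hn g => hLn g (hKG g.2) n hn⟩
  have hπ1 : ∀ x : K, ((x : K ⧸ Q) = 1) ↔ (x : Γ) ∈ L := fun x => QuotientGroup.eq_one_iff x
  have hcomm : ∀ x y : K ⧸ Q, x * y = y * x := by
    intro x y
    induction x using QuotientGroup.induction_on with | _ x => ?_
    induction y using QuotientGroup.induction_on with | _ y => ?_
    rw [← QuotientGroup.mk_mul, ← QuotientGroup.mk_mul, QuotientGroup.eq]
    have h0 := hab y⁻¹ (K.inv_mem y.2) x⁻¹ (K.inv_mem x.2)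
    show ((x * y)⁻¹ * (y * x) : K) ∈ Q
    rw [Subgroup.mem_subgroupOf]
    convert h0 using 1
    simp only [Subgroup.coe_mul, Subgroup.coe_inv]
    group
  letI instM : CommGroup (K ⧸ Q) := { (inferInstance : Group (K ⧸ Q)) with mul_comm := hcomm }
  -- the maps induced by conjugation
  let mapM : ∀ g : Γ, (∀ k ∈ K, g * k * g⁻¹ ∈ K) → (∀ l ∈ L, g * l * g⁻¹ ∈ L) → (K ⧸ Q →* K ⧸ Q) :=
    fun g hg hg' => QuotientGroup.map Q Q (conjK K g hg) (fun x hx => hg' x hx)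
  have mapM_mk : ∀ g hg hg' (x : K), mapM g hg hg' (x : K ⧸ Q) = ((conjK K g hg x : K) : K ⧸ Q) :=
    fun g hg hg' x => QuotientGroup.map_mk _ _ _ _ x
  let a : S → (K ⧸ Q →* K ⧸ Q) := fun s => mapM s (hKS s s.2) (hLS s s.2)
  have a_mk : ∀ s (x : K), a s (x : K ⧸ Q) = ((conjK K s (hKS s s.2) x : K) : K ⧸ Q) :=
    fun s x => mapM_mk _ _ _ x
  have ha : ∀ s t m, a (s * t) m = a s (a t m) := by
    intro s t m
    induction m using QuotientGroup.induction_on with | _ x => ?_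
    rw [a_mk, a_mk, a_mk]
    congr 1
    apply Subtype.ext
    show ((s : Γ) * t) * x * ((s : Γ) * t)⁻¹ = s * (t * x * (t : Γ)⁻¹) * (s : Γ)⁻¹
    group
  have hcM : (Nat.card (K ⧸ Q)).Coprime (Nat.card S) := by
    have h1 : Nat.card (K ⧸ Q) ∣ Nat.card K := Subgroup.card_quotient_dvd_card Q
    exact Nat.Coprime.coprime_dvd_left (h1.trans (Subgroup.card_dvd_of_le hKG)) hcop
  obtain ⟨F, hF1, hF2, hF3, hF4, hF5⟩ := comm_decomp a ha hcM
  let A : Subgroup Γ := ((F.ker).comap (QuotientGroup.mk' Q)).map K.subtype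
  have hA : ∀ x, x ∈ A ↔ ∃ hx : x ∈ K, F ((⟨x, hx⟩ : K) : K ⧸ Q) = 1 := by
    intro x
    constructor
    · rintro ⟨y, hy, rfl⟩
      exact ⟨y.2, hy⟩
    · rintro ⟨hx, h1⟩
      exact ⟨⟨x, hx⟩, h1, rfl⟩
  have hAK : A ≤ K := fun x hx => ((hA x).mp hx).1
  have hfixM : ∀ x : K, (∀ s ∈ S, (x : Γ)⁻¹ * (s * x * s⁻¹) ∈ L) →
      ∀ s : S, a s (x : K ⧸ Q) = (x : K ⧸ Q) := by
    intro x hx s
    rw [a_mk]
    apply Eq.symm
    rw [QuotientGroup.eq]
    exact hx s s.2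
  -- conjugation by `K` and `C` preserves `A`
  have hAk : ∀ k ∈ K, ∀ x ∈ A, k * x * k⁻¹ ∈ A := by
    intro k hk x hx
    obtain ⟨hxK, h1⟩ := (hA x).mp hx
    refine (hA _).mpr ⟨hKn k (hKG hk) x hxK, ?_⟩
    have h2 : ((⟨k * x * k⁻¹, hKn k (hKG hk) x hxK⟩ : K) : K ⧸ Q) = ((⟨x, hxK⟩ : K) : K ⧸ Q) := by
      have h3 : (⟨k * x * k⁻¹, hKn k (hKG hk) x hxK⟩ : K) =
          ⟨k, hk⟩ * ⟨x, hxK⟩ * (⟨k, hk⟩ : K)⁻¹ := rfl
      rw [h3, QuotientGroup.mk_mul, QuotientGroup.mk_mul, QuotientGroup.mk_inv,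
        mul_comm (((⟨k, hk⟩ : K) : K ⧸ Q)), mul_inv_cancel_right]
    rw [h2]
    exact h1
  have hAc : ∀ c ∈ C, ∀ x ∈ A, c * x * c⁻¹ ∈ A := by
    intro c hc x hx
    obtain ⟨hxK, h1⟩ := (hA x).mp hx
    have hcG := hCG hc
    let c' : K ⧸ Q →* K ⧸ Q := mapM c (hKn c hcG) (hLn c hcG)
    have hc'm : ∀ y : K, c' (y : K ⧸ Q) = ((conjK K c (hKn c hcG) y : K) : K ⧸ Q) :=
      fun y => mapM_mk _ _ _ y
    have hcomm' : ∀ s m, c' (a s m) = a s (c' m) := by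
      intro s m
      induction m using QuotientGroup.induction_on with | _ y => ?_
      rw [a_mk, hc'm, hc'm, a_mk]
      congr 1
      apply Subtype.ext
      show c * ((s : Γ) * y * (s : Γ)⁻¹) * c⁻¹ = s * (c * y * c⁻¹) * (s : Γ)⁻¹
      have h3 := hCfix c hc s s.2
      have h4 : (s : Γ) * c = c * s := by
        rwa [mul_inv_eq_iff_eq_mul] at h3
      calc c * ((s : Γ) * y * (s : Γ)⁻¹) * c⁻¹ = (c * s) * y * (c * s)⁻¹ := by group
        _ = ((s : Γ) * c) * y * ((s : Γ) * c)⁻¹ := by rw [h4]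
        _ = _ := by group
    refine (hA _).mpr ⟨hKn c hcG x hxK, ?_⟩
    have h2 := hF5 c' hcomm' ((⟨x, hxK⟩ : K) : K ⧸ Q)
    rw [h1, map_one, hc'm] at h2
    exact h2
  refine ⟨A, ?_⟩
  have hLA : L ≤ A := by
    intro ℓ hℓ
    refine (hA ℓ).mpr ⟨hLK hℓ, ?_⟩
    rw [(hπ1 ⟨ℓ, hLK hℓ⟩).mpr hℓ, map_one]
  have hCH : C ≤ H := by
    rw [hH]
    exact le_sup_right
  have hLH : L ≤ H := by
    rw [hH]
    exact le_sup_left
  have hHform : ∀ y ∈ H, ∃ ℓ ∈ L, ∃ c ∈ C, y = ℓ * c := by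
    rw [hH]
    exact sup_mul_form (fun c hc l hl => hLn c (hCG hc) l hl)
  have hGform : ∀ g ∈ G, ∃ k ∈ K, ∃ c ∈ C, g = k * c := by
    intro g hg
    rw [← hGKC] at hg
    exact sup_mul_form (fun c hc k hk => hKn c (hCG hc) k hk) g hg
  exact
    { hnorm := hnorm
      cop := hcop
      odd := hodd
      solv := hGsolv
      LA := hLA
      LH := hLH
      AG := hAK.trans hKG
      HG := hHG
      Ln := hLn
      An := by
        intro g hg x hx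
        obtain ⟨k, hk, c, hc, rfl⟩ := hGform g hg
        have h1 := hAk k hk _ (hAc c hc x hx)
        have h2 : k * c * x * (k * c)⁻¹ = k * (c * x * c⁻¹) * k⁻¹ := by group
        rw [h2]
        exact h1
      LS := hLS
      AS := by
        intro s hs x hx
        obtain ⟨hxK, h1⟩ := (hA x).mp hx
        refine (hA _).mpr ⟨hKS s hs x hxK, ?_⟩
        have h2 := hF1 ⟨s, hs⟩ ((⟨x, hxK⟩ : K) : K ⧸ Q)
        rw [h1, a_mk] at h2
        exact h2
      comm := fun x hx y hy => hab x (hAK hx) y (hAK hy)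
      gen := by
        intro g hg
        obtain ⟨k, hk, c, hc, rfl⟩ := hGform g hg
        obtain ⟨u, f, huf, hFu, hf⟩ := hF3 ((⟨k, hk⟩ : K) : K ⧸ Q)
        obtain ⟨f₀, hf₀⟩ := QuotientGroup.mk_surjective f
        have hst : ∀ s ∈ S, (f₀ : Γ)⁻¹ * (s * f₀ * s⁻¹) ∈ L := by
          intro s hs
          have h1 := hf ⟨s, hs⟩
          rw [← hf₀, a_mk] at h1
          have h2 := QuotientGroup.eq.mp h1.symm
          exact h2
        obtain ⟨ℓ, hℓ, hfix⟩ := coset_fix (G := G) (S := S) (T := L)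
          (solvable_of_le (hLK.trans hKG) hGsolv) (hLK.trans hKG) hnorm hLS hcop (hKG f₀.2) hst
        have hfK : (f₀ : Γ) * ℓ ∈ K := K.mul_mem f₀.2 (hLK hℓ)
        have hfbar : ((⟨(f₀ : Γ) * ℓ, hfK⟩ : K) : K ⧸ Q) = f := by
          rw [← hf₀]
          apply Eq.symm
          rw [QuotientGroup.eq]
          show (f₀ : Γ)⁻¹ * ((f₀ : Γ) * ℓ) ∈ L
          simpa using hℓ
        have hfC : (f₀ : Γ) * ℓ ∈ C := hfixC _ (hKG hfK) hfix
        have huK : k * ((f₀ : Γ) * ℓ)⁻¹ ∈ K := K.mul_mem hk (K.inv_mem hfK)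
        refine ⟨k * ((f₀ : Γ) * ℓ)⁻¹, (hA _).mpr ⟨huK, ?_⟩, ((f₀ : Γ) * ℓ) * c,
          hCH (C.mul_mem hfC hc), by group⟩
        have h1 : ((⟨k * ((f₀ : Γ) * ℓ)⁻¹, huK⟩ : K) : K ⧸ Q) = u := by
          have h2 : (⟨k * ((f₀ : Γ) * ℓ)⁻¹, huK⟩ : K) =
              ⟨k, hk⟩ * (⟨(f₀ : Γ) * ℓ, hfK⟩ : K)⁻¹ := rfl
          rw [h2, QuotientGroup.mk_mul, QuotientGroup.mk_inv, huf, hfbar]
          group
        rw [h1]
        exact hFu
      int := by
        intro x hx hxH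
        obtain ⟨ℓ, hℓ, c, hc, rfl⟩ := hHform x hxH
        obtain ⟨hxK, h1⟩ := (hA _).mp hx
        have hcK : c ∈ K := by
          have h2 : c = ℓ⁻¹ * (ℓ * c) := by group
          rw [h2]
          exact K.mul_mem (K.inv_mem (hLK hℓ)) hxK
        have h3 : ((⟨ℓ * c, hxK⟩ : K) : K ⧸ Q) = ((⟨c, hcK⟩ : K) : K ⧸ Q) := by
          have h2 : (⟨ℓ * c, hxK⟩ : K) = ⟨ℓ, hLK hℓ⟩ * ⟨c, hcK⟩ := rfl
          rw [h2, QuotientGroup.mk_mul, (hπ1 ⟨ℓ, hLK hℓ⟩).mpr hℓ, one_mul]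
        rw [h3] at h1
        have h4 : ((⟨c, hcK⟩ : K) : K ⧸ Q) = 1 := by
          apply hF4 _ _ h1
          apply hfixM ⟨c, hcK⟩
          intro s hs
          have h5 := hCfix c hc s hs
          show c⁻¹ * (s * c * s⁻¹) ∈ L
          rw [h5, inv_mul_cancel]
          exact L.one_mem
        have h5 : c ∈ L := (hπ1 ⟨c, hcK⟩).mp h4
        exact L.mul_mem hℓ h5
      fpf := by
        intro x hx hs
        obtain ⟨hxK, h1⟩ := (hA x).mp hx
        have h2 := hF4 _ (hfixM ⟨x, hxK⟩ hs) h1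
        exact (hπ1 ⟨x, hxK⟩).mp h2
      Hfix := by
        intro y hy
        obtain ⟨ℓ, hℓ, c, hc, rfl⟩ := hHform y hy
        exact ⟨ℓ, hℓ, c, hCH hc, fun s hs => hCfix c hc s hs, rfl⟩
      fixH := fun g hg hfix => hCH (hfixC g hg hfix) }

end Zero

end Cfsg.Agent.Lib.IsaCliff
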