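import Mathlib
import Cfsg.Prelude.Def_Classical
import Cfsg.Prelude.Def_ClassicalGeometry

/-!
# Transport of isometry groups of quadratic forms along ring isomorphisms
-/

set_option autoImplicit false

namespace Cfsg.Agent.Lib.IsomTransfer

open Matrix Cfsg

variable {ι : Type} [Fintype ι] [DecidableEq ι] {R S : Type*} [Field R] [Field S]

/-- `GL` over isomorphic rings. -/
def glEquiv (e : R ≃+* S) : GL ι R ≃* GL ι S :=
  Units.mapEquiv (RingEquiv.mapMatrix e).toMulEquiv

theorem glEquiv_coe (e : R ≃+* S) (g : GL ι R) :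
    ((glEquiv e g : GL ι S) : Matrix ι ι S) = (g : Matrix ι ι R).map e := rfl

theorem glEquiv_symm_coe (e : R ≃+* S) (g : GL ι S) :
    (((glEquiv e).symm g : GL ι R) : Matrix ι ι R) = (g : Matrix ι ι S).map e.symm := rfl

theorem map_mulVec_comp (e : R ≃+* S) (M : Matrix ι ι R) (u : ι → R) :
    (M.map e) *ᵥ (e ∘ u) = e ∘ (M *ᵥ u) := by
  funext i
  exact ((e : R →+* S).map_mulVec M u i).symm

variable {QR : (ι → R) → R} {QS : (ι → S) → S}

theorem mem_isometry_iff' {g : GL ι R} :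
    g ∈ isometryGroup R QR ↔ ∀ u, QR ((g : Matrix ι ι R) *ᵥ u) = QR u :=
  ⟨fun h u => h u u, fun h u _ => h u⟩

theorem map_mem (e : R ≃+* S) (hQ : ∀ v, QS (e ∘ v) = e (QR v)) {g : GL ι R}
    (hg : g ∈ isometryGroup R QR) : glEquiv e g ∈ isometryGroup S QS := by
  rw [mem_isometry_iff'] at hg ⊢
  intro v
  have hv : v = e ∘ (e.symm ∘ v) := by
    funext i; simp
  rw [glEquiv_coe]
  conv_lhs => rw [hv]
  rw [map_mulVec_comp, hQ, hg]
  conv_rhs => rw [hv]
  rw [hQ]

/-- The hypothesis for the inverse. -/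
theorem symm_hQ (e : R ≃+* S) (hQ : ∀ v, QS (e ∘ v) = e (QR v)) (v : ι → S) :
    QR (e.symm ∘ v) = e.symm (QS v) := by
  apply e.injective
  rw [e.apply_symm_apply, ← hQ]
  congr 1
  funext i
  simp

/-- Isometry groups over isomorphic fields. -/
def isometryEquiv (e : R ≃+* S) (hQ : ∀ v, QS (e ∘ v) = e (QR v)) :
    isometryGroup R QR ≃* isometryGroup S QS where
  toFun g := ⟨glEquiv e g.1, map_mem e hQ g.2⟩
  invFun g := ⟨(glEquiv e).symm g.1, map_mem e.symm (symm_hQ e hQ) g.2⟩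
  left_inv g := by
    apply Subtype.ext
    exact (glEquiv e).symm_apply_apply g.1
  right_inv g := by
    apply Subtype.ext
    exact (glEquiv e).apply_symm_apply g.1
  map_mul' g h := by
    apply Subtype.ext
    exact map_mul (glEquiv e) g.1 h.1

theorem isometryEquiv_coe (e : R ≃+* S) (hQ : ∀ v, QS (e ∘ v) = e (QR v))
    (g : isometryGroup R QR) :
    (((isometryEquiv e hQ g).1 : GL ι S) : Matrix ι ι S) = ((g.1 : GL ι R) : Matrix ι ι R).map e := rfl

theorem det_glEquiv (e : R ≃+* S) (g : GL ι R) :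
    ((glEquiv e g : GL ι S) : Matrix ι ι S).det = e ((g : Matrix ι ι R).det) := by
  rw [glEquiv_coe]
  exact ((e : R →+* S).map_det _).symm

end Cfsg.Agent.Lib.IsomTransfer
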