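import Mathlib
import Cfsg.Agent.Lib.J1Ord4

/-!
# Induction: non-simple groups of order dividing 175560 have a normal Sylow 19-subgroup
-/

set_option autoImplicit false
set_option linter.unusedSectionVars false
set_option linter.style.haveILetI false
set_option linter.unusedVariables false

namespace Cfsg.Agent.Lib.J1Ord

open Subgroup Cfsg.Agent.Lib.SmallGroups2
open scoped Pointwise

variable {H : Type*} [Group H] [Finite H]

theorem pow_lt_19 {q k : ℕ} (hq : q.Prime) (hd : q ^ k ∣ 9240) : q ^ k < 19 := by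
  by_cases hk : k = 0
  · subst hk; norm_num
  have hq9 : q ∣ 9240 := dvd_trans (dvd_pow_self q hk) hd
  have hql : q = 2 ∨ q = 3 ∨ q = 5 ∨ q = 7 ∨ q = 11 := by
    have h9 : (9240 : ℕ) = 2 ^ 3 * 3 * 5 * 7 * 11 := by norm_num
    rw [h9] at hq9
    rcases (Nat.Prime.dvd_mul hq).1 hq9 with h | h
    · rcases (Nat.Prime.dvd_mul hq).1 h with h | h
      · rcases (Nat.Prime.dvd_mul hq).1 h with h | h
        · rcases (Nat.Prime.dvd_mul hq).1 h with h | h
          · left
            exact (Nat.prime_dvd_prime_iff_eq hq (by norm_num)).1 (hq.dvd_of_dvd_pow h)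
          · right; left
            exact (Nat.prime_dvd_prime_iff_eq hq (by norm_num)).1 h
        · right; right; left
          exact (Nat.prime_dvd_prime_iff_eq hq (by norm_num)).1 h
      · right; right; right; left
        exact (Nat.prime_dvd_prime_iff_eq hq (by norm_num)).1 h
    · right; right; right; right
      exact (Nat.prime_dvd_prime_iff_eq hq (by norm_num)).1 h
  have hsmall : ∀ {r m : ℕ}, 2 ≤ r → ¬ r ^ m ∣ 9240 → r ^ k ∣ 9240 → k < m := by
    intro r m hr hnd hrd
    by_contra hn
    push Not at hn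
    exact hnd (dvd_trans (pow_dvd_pow r hn) hrd)
  rcases hql with rfl | rfl | rfl | rfl | rfl
  · have h1 : k < 4 := hsmall (m := 4) (by norm_num) (by norm_num) hd
    interval_cases k <;> norm_num
  · have h1 : k < 2 := hsmall (m := 2) (by norm_num) (by norm_num) hd
    interval_cases k <;> norm_num
  · have h1 : k < 2 := hsmall (m := 2) (by norm_num) (by norm_num) hd
    interval_cases k <;> norm_num
  · have h1 : k < 2 := hsmall (m := 2) (by norm_num) (by norm_num) hd
    interval_cases k <;> norm_num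
  · have h1 : k < 2 := hsmall (m := 2) (by norm_num) (by norm_num) hd
    interval_cases k <;> norm_num

/-- A group of order 19 normalizing a small set centralizes it. -/
theorem comm_of_small {P : Subgroup H} (hP : Nat.card P = 19) {S : Set H} (hS : Nat.card S < 19)
    (hinv : ∀ x ∈ P, ∀ a ∈ S, x * a * x⁻¹ ∈ S) : ∀ x ∈ P, ∀ a ∈ S, x * a = a * x := by
  intro x hx a ha
  by_contra hne
  have hpow : ∀ n : ℕ, x ^ n * a * (x ^ n)⁻¹ ∈ S := by
    intro n
    induction n with
    | zero => simpa using ha
    | succ n ih =>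
      have h1 := hinv x hx _ ih
      have h2 : x * (x ^ n * a * (x ^ n)⁻¹) * x⁻¹ = x ^ (n + 1) * a * (x ^ (n + 1))⁻¹ := by
        rw [pow_succ']; group
      rwa [h2] at h1
  let f : Fin 19 → S := fun i => ⟨x ^ (i : ℕ) * a * (x ^ (i : ℕ))⁻¹, hpow i⟩
  have hx1 : x ≠ 1 := by
    rintro rfl
    simp at hne
  have hf : Function.Injective f := by
    have key : ∀ i j : ℕ, i < j → j < 19 → x ^ i * a * (x ^ i)⁻¹ ≠ x ^ j * a * (x ^ j)⁻¹ := by
      intro i j hij hj h
      obtain ⟨m, rfl⟩ : ∃ m, j = i + m := ⟨j - i, by omega⟩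
      have hm0 : m ≠ 0 := by omega
      have h1 : a = x ^ m * a * (x ^ m)⁻¹ := by
        have h2 : x ^ (i + m) = x ^ i * x ^ m := pow_add x i m
        rw [h2] at h
        have h3 : x ^ i * (a) * (x ^ i)⁻¹ = x ^ i * (x ^ m * a * (x ^ m)⁻¹) * (x ^ i)⁻¹ := by
          rw [h]; group
        exact mul_left_cancel (mul_right_cancel h3)
      have hcomm : Commute (x ^ m) a := by
        have h3 : a * x ^ m = x ^ m * a := by
          nth_rewrite 1 [h1]; group
        exact h3.symm
      have hxo : orderOf x = 19 := orderOf_eq_of_mem_of_ne_one (by norm_num) hP hx hx1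
      have hxm1 : x ^ m ≠ 1 := by
        intro hh
        have := orderOf_dvd_of_pow_eq_one hh
        rw [hxo] at this
        have := Nat.le_of_dvd (by omega) this
        omega
      have hxmP : x ^ m ∈ P := P.pow_mem hx m
      have hz := zpowers_eq_of_mem_of_ne_one (by norm_num) hP hxmP hxm1
      have hxz : x ∈ zpowers (x ^ m) := by rw [hz]; exact hx
      obtain ⟨t, ht⟩ := Subgroup.mem_zpowers_iff.1 hxz
      apply hne
      rw [← ht]
      exact (hcomm.zpow_left t).eq
    intro i j hij
    have h1 : x ^ (i : ℕ) * a * (x ^ (i : ℕ))⁻¹ = x ^ (j : ℕ) * a * (x ^ (j : ℕ))⁻¹ :=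
      congrArg Subtype.val hij
    rcases lt_trichotomy (i : ℕ) (j : ℕ) with h | h | h
    · exact absurd h1 (key _ _ h j.2)
    · exact Fin.ext h
    · exact absurd h1.symm (key _ _ h i.2)
  have h2 := Nat.card_le_card_of_injective f hf
  rw [Nat.card_eq_fintype_card (α := Fin 19), Fintype.card_fin] at h2
  omega

/-- A group of order 19 centralizes a normal subgroup of order prime to 19 and dividing 9240. -/
theorem comm_normal {P N : Subgroup H} [hN : N.Normal] (hP : Nat.card P = 19)
    (hNd : Nat.card N ∣ 9240) : ∀ x ∈ P, ∀ n ∈ N, x * n = n * x := by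
  classical
  have hcop : ¬ 19 ∣ Nat.card N := by
    intro h
    have := dvd_trans h hNd
    omega
  haveI hP19 : Fact (Nat.Prime 19) := ⟨by norm_num⟩
  have hpg : IsPGroup 19 P := by
    rw [IsPGroup.iff_card, hP]
    exact ⟨1, by norm_num⟩
  letI act : MulDistribMulAction P N :=
    MulDistribMulAction.compHom N ((MulAut.conjNormal : H →* MulAut N).comp P.subtype)
  have hact : ∀ (x : P) (a : N), ((x • a : N) : H) = x.1 * a.1 * x.1⁻¹ := fun x a => rfl
  -- every Sylow subgroup of N can be chosen centralized by P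
  let C : Subgroup N := (centralizer ((P : Subgroup H) : Set H)).subgroupOf N
  have hQ : ∀ (q : ℕ) [Fact q.Prime], ∃ Q : Sylow q N, (Q : Subgroup N) ≤ C := by
    intro q _
    have hqq : q.Prime := Fact.out
    have hnd : ¬ 19 ∣ Nat.card (Sylow q N) := by
      intro h
      obtain ⟨Q0⟩ := (inferInstance : Nonempty (Sylow q N))
      have h1 : Nat.card (Sylow q N) ∣ Nat.card N := by
        have h2 := Q0.card_dvd_index
        exact dvd_trans h2 (Subgroup.index_dvd_card _)
      exact hcop (dvd_trans h h1)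
    obtain ⟨Q, hQ⟩ := hpg.nonempty_fixed_point_of_prime_not_dvd_card (Sylow q N) hnd
    refine ⟨Q, ?_⟩
    -- the set of elements of Q, viewed in H
    let S : Set H := Subtype.val '' ((Q : Subgroup N) : Set N)
    have hSc : Nat.card S = Nat.card (Q : Subgroup N) := by
      have := Nat.card_image_of_injective (s := ((Q : Subgroup N) : Set N)) Subtype.val_injective
      exact this
    have hS19 : Nat.card S < 19 := by
      rw [hSc]
      obtain ⟨k, hk⟩ := IsPGroup.iff_card.1 Q.isPGroup'
      rw [hk]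
      apply pow_lt_19 hqq
      rw [← hk]
      exact dvd_trans (Subgroup.card_subgroup_dvd_card _) hNd
    have hinv : ∀ x ∈ P, ∀ a ∈ S, x * a * x⁻¹ ∈ S := by
      rintro x hx _ ⟨a, ha, rfl⟩
      have hfix : (⟨x, hx⟩ : P) • Q = Q := hQ ⟨x, hx⟩
      have h1 : (⟨x, hx⟩ : P) • a ∈ (Q : Subgroup N) := by
        rw [← hfix, Sylow.pointwise_smul_def]
        exact Subgroup.smul_mem_pointwise_smul a _ _ ha
      exact ⟨_, h1, rfl⟩
    have hcomm := comm_of_small hP hS19 hinv
    intro a ha
    rw [Subgroup.mem_subgroupOf, Subgroup.mem_centralizer_iff]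
    intro x hx
    exact hcomm x hx a.1 ⟨a, ha, rfl⟩
  have hCtop : C = ⊤ := by
    apply Subgroup.eq_top_of_card_eq
    apply Nat.dvd_antisymm (Subgroup.card_subgroup_dvd_card C)
    rw [Nat.dvd_iff_prime_pow_dvd_dvd]
    intro q k hq hd
    haveI : Fact q.Prime := ⟨hq⟩
    obtain ⟨Q, hQC⟩ := hQ q
    exact dvd_trans (Q.pow_dvd_card_of_pow_dvd_card hd) (Subgroup.card_dvd_of_le hQC)
  intro x hx n hn
  have h1 : (⟨n, hn⟩ : N) ∈ C := by rw [hCtop]; trivial
  have h2 := Subgroup.mem_subgroupOf.1 h1
  exact (Subgroup.mem_centralizer_iff.1 h2) x hx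

theorem normal_of_normal_sub (R : Subgroup H) [hR : R.Normal] (h : Nat.card R = 19)
    (hP : ∀ P : Sylow 19 H, Nat.card (P : Subgroup H) = 19) (P : Sylow 19 H) : (P : Subgroup H).Normal := by
  have hpg : IsPGroup 19 R := by
    rw [IsPGroup.iff_card, h]
    exact ⟨1, by norm_num⟩
  obtain ⟨P', hP'⟩ := hpg.exists_le_sylow
  have h1 : R = (P' : Subgroup H) := Subgroup.eq_of_le_of_card_ge hP' (by rw [hP P', h])
  obtain ⟨g, rfl⟩ := MulAction.exists_smul_eq H P' P
  have h2 : ((g • P' : Sylow 19 H) : Subgroup H) = R := by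
    rw [Sylow.coe_subgroup_smul, ← h1]
    exact Subgroup.Normal.conj_smul_eq_self g R
  rw [h2]
  exact hR

universe u

theorem normal_sylow19_aux : ∀ (n : ℕ) (H : Type u) [Group H] [Finite H], Nat.card H = n → n ∣ 175560 →
    (n ≠ 175560 ∨ ¬ IsSimpleGroup H) → ∀ P : Sylow 19 H, (P : Subgroup H).Normal := by
  intro n
  induction n using Nat.strong_induction_on with
  | _ n ih =>
  intro H _ _ hn hd hs P
  by_cases h19 : 19 ∣ n
  swap
  · -- the Sylow subgroup is trivial
    obtain ⟨k, hk⟩ := IsPGroup.iff_card.1 P.isPGroup'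
    have hk0 : k = 0 := by
      by_contra hk0
      apply h19
      rw [← hn]
      exact dvd_trans (dvd_trans (dvd_pow_self 19 hk0) (by rw [hk]))
        (Subgroup.card_subgroup_dvd_card (P : Subgroup H))
    have hb : (P : Subgroup H) = ⊥ := by
      apply Subgroup.eq_bot_of_card_eq
      rw [hk, hk0, pow_zero]
    rw [hb]
    infer_instance
  have hnpos : 0 < n := Nat.pos_of_dvd_of_pos hd (by norm_num)
  have hsq : ¬ 19 ^ 2 ∣ n := by
    intro h
    have := dvd_trans h hd
    omega
  have hP : ∀ P : Sylow 19 H, Nat.card (P : Subgroup H) = 19 :=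
    sylow_card_prime (by rw [hn]; exact h19) (by rw [hn]; exact hsq)
  by_cases hsim : IsSimpleGroup H
  · have hne : n ≠ 175560 := by
      rcases hs with h | h
      · exact h
      · exact absurd hsim h
    by_cases hcom : IsMulCommutative H
    · constructor
      intro x hx g
      have : g * x * g⁻¹ = x := by
        have h1 : g * x = x * g := hcom.is_comm.comm g x
        rw [h1]; group
      rw [this]
      exact hx
    · exfalso
      exact kill hcom (by rw [hn]; exact hd) (by rw [hn]; exact h19) (by rw [hn]; exact hne)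
  -- a proper normal subgroup
  have hex : ∃ N : Subgroup H, N.Normal ∧ N ≠ ⊥ ∧ N ≠ ⊤ := by
    by_contra hno
    push Not at hno
    apply hsim
    haveI : Nontrivial H := by
      apply (Finite.one_lt_card_iff_nontrivial).1
      rw [hn]
      have := Nat.le_of_dvd hnpos h19
      omega
    refine ⟨?_⟩
    intro N hN
    by_cases hb : N = ⊥
    · exact Or.inl hb
    · exact Or.inr (hno N hN hb)
  obtain ⟨N, hNn, hNb, hNt⟩ := hex
  haveI := hNn
  have hNdn : Nat.card N ∣ n := by
    rw [← hn]; exact Subgroup.card_subgroup_dvd_card N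
  have hNne : Nat.card N ≠ n := by
    intro h
    apply hNt
    apply Subgroup.eq_top_of_card_eq
    rw [h, hn]
  have hNlt : Nat.card N < n := lt_of_le_of_ne (Nat.le_of_dvd hnpos hNdn) hNne
  have hN1 : Nat.card N ≠ 1 := by
    intro h
    exact hNb (Subgroup.eq_bot_of_card_eq N h)
  have hnle : n ≤ 175560 := Nat.le_of_dvd (by norm_num) hd
  by_cases hN19 : 19 ∣ Nat.card N
  · -- the Sylow subgroup lies in N
    obtain ⟨R⟩ := (inferInstance : Nonempty (Sylow 19 N))
    have hRn : (R : Subgroup N).Normal :=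
      ih (Nat.card N) hNlt N rfl (dvd_trans hNdn hd) (Or.inl (by omega)) R
    have hRc : Nat.card (R : Subgroup N) = 19 :=
      sylow_card_prime hN19 (fun h => hsq (dvd_trans h hNdn)) R
    have hfr := Sylow.normalizer_sup_eq_top R
    have hle : N ≤ normalizer (((R : Subgroup N).map N.subtype : Subgroup H) : Set H) := by
      intro m hm
      rw [Subgroup.mem_normalizer_iff]
      intro y
      constructor
      · rintro ⟨r, hr, rfl⟩
        refine ⟨⟨m, hm⟩ * r * (⟨m, hm⟩ : N)⁻¹, hRn.conj_mem r hr _, ?_⟩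
        simp
      · rintro ⟨r, hr, hre⟩
        have hy : y = (⟨m, hm⟩ : N)⁻¹.1 * r.1 * m := by
          have h1 : m * y * m⁻¹ = r.1 := hre.symm
          have h2 : m⁻¹ * (m * y * m⁻¹) * m = y := by group
          rw [← h2, h1]
          simp
        refine ⟨(⟨m, hm⟩ : N)⁻¹ * r * ((⟨m, hm⟩ : N)⁻¹)⁻¹, hRn.conj_mem r hr _, ?_⟩
        rw [hy]
        simp
    rw [sup_eq_left.2 hle] at hfr
    haveI hRm : ((R : Subgroup N).map N.subtype).Normal := Subgroup.normalizer_eq_top_iff.1 hfr
    have hRc' : Nat.card ((R : Subgroup N).map N.subtype : Subgroup H) = 19 := by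
      rw [Subgroup.card_map_of_injective N.subtype_injective, hRc]
    exact normal_of_normal_sub _ hRc' hP P
  · -- pass to the quotient
    have hNd9 : Nat.card N ∣ 9240 := by
      have h1 : Nat.Coprime (Nat.card N) 19 :=
        ((Nat.Prime.coprime_iff_not_dvd (by norm_num)).2 hN19).symm
      have h2 : Nat.card N ∣ 19 * 9240 := by
        have := dvd_trans hNdn hd
        simpa using this
      exact h1.dvd_of_dvd_mul_left h2
    have hq := Subgroup.card_eq_card_quotient_mul_card_subgroup N
    rw [hn] at hq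
    have hqd : Nat.card (H ⧸ N) ∣ n := Dvd.intro _ hq.symm
    have hqlt : Nat.card (H ⧸ N) < n := by
      have h1 : 2 ≤ Nat.card N := by
        have : 0 < Nat.card N := Nat.card_pos
        omega
      have h2 : 0 < Nat.card (H ⧸ N) := Nat.card_pos
      rw [hq]
      nlinarith
    have hQ := ih (Nat.card (H ⧸ N)) hqlt (H ⧸ N) rfl (dvd_trans hqd hd) (Or.inl (by omega))
    have hQ1 := hQ (Sylow.mapSurjective (QuotientGroup.mk'_surjective N) P)
    rw [Sylow.coe_mapSurjective] at hQ1
    have hK := hQ1.comap (QuotientGroup.mk' N)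
    rw [Subgroup.comap_map_eq, QuotientGroup.ker_mk'] at hK
    have hcomm := comm_normal (P := (P : Subgroup H)) (N := N) (hP P) hNd9
    constructor
    intro x hx g
    have hw : g * x * g⁻¹ ∈ (P : Subgroup H) ⊔ N :=
      hK.conj_mem x (Subgroup.mem_sup_left hx) g
    have hw' : g * x * g⁻¹ ∈ (((P : Subgroup H) ⊔ N : Subgroup H) : Set H) := hw
    rw [Subgroup.mul_normal] at hw'
    obtain ⟨u, hu, v, hv, huv⟩ := Set.mem_mul.1 hw'
    have hx19 : x ^ 19 = 1 := by
      have := Subgroup.orderOf_dvd_natCard (P : Subgroup H) hx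
      rw [hP P] at this
      exact orderOf_dvd_iff_pow_eq_one.1 this
    have hu19 : u ^ 19 = 1 := by
      have := Subgroup.orderOf_dvd_natCard (P : Subgroup H) hu
      rw [hP P] at this
      exact orderOf_dvd_iff_pow_eq_one.1 this
    have hcuv : Commute u v := hcomm u hu v hv
    have hv19 : v ^ 19 = 1 := by
      have h1 : (g * x * g⁻¹) ^ 19 = 1 := by
        rw [conj_pow, hx19]; group
      rw [← huv, hcuv.mul_pow, hu19, one_mul] at h1
      exact h1
    have hv1 : v = 1 := by
      have h1 : orderOf v ∣ 19 := orderOf_dvd_of_pow_eq_one hv19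
      have h2 : orderOf v ∣ Nat.card N := Subgroup.orderOf_dvd_natCard N hv
      rcases (Nat.dvd_prime (by norm_num)).1 h1 with h3 | h3
      · exact orderOf_eq_one_iff.1 h3
      · rw [h3] at h2
        exact absurd h2 hN19
    rw [← huv, hv1, mul_one]
    exact hu

end Cfsg.Agent.Lib.J1Ord
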