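import Mathlib
import Cfsg.Agent.Lib.CoTable
import Cfsg.Agent.Lib.CoConf
import Cfsg.Agent.Lib.Co0Frame

set_option autoImplicit false
set_option linter.unusedVariables false
set_option maxRecDepth 100000

/-!
# An element of order five of the automorphism group of the lattice

`xx` is the square of an explicit element `gg`; `tt0`, ..., `tt3` are four explicit elements commuting with it.
-/

namespace Cfsg.Agent.Lib.J25

open Cfsg Cfsg.Agent.Lib.Leech Cfsg.Agent.Lib.Co0Mono Cfsg.Agent.Lib.Co0Frame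
open Cfsg.Agent.Lib.CoVec Cfsg.Agent.Lib.CoConf
open Cfsg.Agent.Lib.Golay (idx pt idx_pt pt_idx idx_lt idxL mem_idxL ofMask mem_ofMask decode isM24 decode_mem_M24 reduce)
open Cfsg.Agent.S0398 (e8 e8_apply toHom expand)

def p5c : ℕ := 749698298177070680345282004848418314
def c5m : ℕ := 10589527
def tp0_0 : ℕ := 19801551150486685353867839483227852
def tm0_0 : ℕ := 9519665
def tp0_1 : ℕ := 794835249577773942228865174146821716
def tm0_1 : ℕ := 0
def tp0_2 : ℕ := 940376423741612174890678032033563175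
def tm0_2 : ℕ := 14716939
def tp1_0 : ℕ := 971661185174401879256092724145134244
def tm1_0 : ℕ := 4287105
def tp1_1 : ℕ := 955485476542621779305265207006547593
def tm1_1 : ℕ := 0
def tp1_2 : ℕ := 501318185987646907551155348983358159
def tm1_2 : ℕ := 11749344
def tp2_0 : ℕ := 962726879763481612392090020880653904
def tm2_0 : ℕ := 0
def tp2_1 : ℕ := 977943295710615400504072158346320339
def tm2_1 : ℕ := 0
def tp2_2 : ℕ := 47664264957657180047632977284871344
def tm2_2 : ℕ := 2779606
def tp3_0 : ℕ := 13445509491978521864444064311269864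
def tm3_0 : ℕ := 12985424
def tp3_1 : ℕ := 688006082454255642308284594187095446
def tm3_1 : ℕ := 0
def tp3_2 : ℕ := 71930897175747233056280644635247315
def tm3_2 : ℕ := 10458373

/-- Elements of `Co0` are determined by their values on the frame. -/
theorem co0_ext_frame {g h : Co0} (H : ∀ i, (g : Equiv.Perm leechLattice) (e8 i) = (h : Equiv.Perm leechLattice) (e8 i)) :
    g = h := by
  apply monoCo0_ext
  intro v
  have h1 : (8 : ℤ) • toHom g v = (8 : ℤ) • toHom h v := by
    rw [← map_zsmul, ← map_zsmul, expand, map_sum, map_sum]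
    apply Finset.sum_congr rfl
    intro i _
    rw [map_zsmul, map_zsmul]
    congr 1
    exact H i
  funext p
  have h2 := congrArg (fun a : leechLattice => (a : GolayPt → ℤ) p) h1
  simp only [AddSubgroup.coe_zsmul, Pi.smul_apply, smul_eq_mul] at h2
  have h3 : toHom g v = (g : Equiv.Perm leechLattice) v := rfl
  have h4 : toHom h v = (h : Equiv.Perm leechLattice) v := rfl
  rw [h3, h4] at h2
  linarith

/-- The code of `8 e_i`. -/
def eNc (i : ℕ) : ℕ := Nat.add 3150858910311745638317572730080710985337652928985868304512 (Nat.mul 8 (Nat.pow 256 i))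

theorem eNc_byte : ∀ i < 24, ∀ j < 24, byte (eNc i) j = if j = i then 136 else 128 := by decide +kernel

theorem eNc_lt : ∀ i < 24, Nat.blt (eNc i) (2 ^ 192) = true := by decide +kernel

theorem dec_eNc (p : GolayPt) : dec (eNc (idx p)) = e8 p := by
  funext q
  rw [e8_apply]
  show ((byte (eNc (idx p)) (idx q) : ℕ) : ℤ) - 128 = _
  rw [eNc_byte _ (idx_lt p) _ (idx_lt q)]
  by_cases h : q = p
  · rw [if_pos h, if_pos (by rw [h])]
    norm_num
  · rw [if_neg h, if_neg (fun e => h (Cfsg.Agent.Lib.Golay.idx_injective e))]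
    norm_num

theorem eNc_st (p : GolayPt) : St (eNc (idx p)) := by
  refine ⟨?_, ?_, ?_⟩
  · have := eNc_lt _ (idx_lt p)
    simpa [Nat.blt_eq] using this
  · rw [dec_eNc]
    exact (e8 p).2
  · rw [dec_eNc, sqNorm_e8]
    norm_num

/-- Two elements acting on codes agree as soon as their actions agree on the frame. -/
theorem co0_eq_of_acts {g h : Co0} {f f' : ℕ → ℕ} (hf : ActsOn g f) (hf' : ActsOn h f')
    (H : ∀ i < 24, f (eNc i) = f' (eNc i)) : g = h := by
  apply co0_ext_frame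
  intro p
  have h1 := hf (eNc (idx p)) (eNc_st p)
  have h2 := hf' (eNc (idx p)) (eNc_st p)
  apply Subtype.ext
  have e : (⟨dec (eNc (idx p)), (eNc_st p).2.1⟩ : leechLattice) = e8 p := Subtype.ext (dec_eNc p)
  rw [e] at h1 h2
  rw [h1.2, h2.2, H _ (idx_lt p)]

/-- A letter. -/
noncomputable def letter {p m : ℕ} (hp : isM24 p = true) (hl : m < 2 ^ 24) (hr : reduce m = 0) : Co0 :=
  signCo0 hl hr * permCo0 hp

/-- A letter on codes. -/
def fl (p m n : ℕ) : ℕ := actSign m (actPerm p n)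

theorem letter_acts {p m : ℕ} (hp : isM24 p = true) (hl : m < 2 ^ 24) (hr : reduce m = 0) :
    ActsOn (letter hp hl hr) (fl p m) :=
  (actSign_acts hl hr).mul (actPerm_acts hp)

theorem h_p5 : isM24 p5c = true := by decide +kernel
theorem hl_c5 : c5m < 2 ^ 24 := by decide +kernel
theorem hr_c5 : reduce c5m = 0 := by decide +kernel

/-- A bounded check. -/
def chkN : ℕ → (ℕ → Bool) → Bool
  | 0, _ => true
  | n + 1, p => p n && chkN n p

theorem chkN_spec {n : ℕ} {p : ℕ → Bool} (h : chkN n p = true) : ∀ j < n, p j = true := by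
  induction n with
  | zero => intro j hj; omega
  | succ n ih =>
    intro j hj
    simp only [chkN, Bool.and_eq_true] at h
    rcases Nat.lt_succ_iff_lt_or_eq.1 hj with h1 | h1
    · exact ih h.2 j h1
    · rw [h1]
      exact h.1

/-- The element whose square has order five. -/
noncomputable def gg : Co0 := letter h_p5 hl_c5 hr_c5 * xiCo0

/-- Its action on codes. -/
def fg (n : ℕ) : ℕ := fl p5c c5m (actXi n)

theorem gg_acts : ActsOn gg fg := (letter_acts h_p5 hl_c5 hr_c5).mul actXi_acts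

/-- The element of order five. -/
noncomputable def xx : Co0 := gg * gg

/-- Its action on codes. -/
def fx (n : ℕ) : ℕ := fg (fg n)

theorem xx_acts : ActsOn xx fx := gg_acts.mul gg_acts

theorem h_tp0_0 : isM24 tp0_0 = true := by decide +kernel
theorem hl_tm0_0 : tm0_0 < 2 ^ 24 := by decide +kernel
theorem hr_tm0_0 : reduce tm0_0 = 0 := by decide +kernel
theorem h_tp0_1 : isM24 tp0_1 = true := by decide +kernel
theorem hl_tm0_1 : tm0_1 < 2 ^ 24 := by decide +kernel
theorem hr_tm0_1 : reduce tm0_1 = 0 := by decide +kernel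
theorem h_tp0_2 : isM24 tp0_2 = true := by decide +kernel
theorem hl_tm0_2 : tm0_2 < 2 ^ 24 := by decide +kernel
theorem hr_tm0_2 : reduce tm0_2 = 0 := by decide +kernel

/-- An element of the centraliser. -/
noncomputable def tt0 : Co0 :=
  letter h_tp0_0 hl_tm0_0 hr_tm0_0 * (xiCo0 * (letter h_tp0_1 hl_tm0_1 hr_tm0_1 * (xiCo0 * letter h_tp0_2 hl_tm0_2 hr_tm0_2)))

/-- Its action on codes. -/
def ft0 (n : ℕ) : ℕ := fl tp0_0 tm0_0 (actXi (fl tp0_1 tm0_1 (actXi (fl tp0_2 tm0_2 n))))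

theorem tt0_acts : ActsOn tt0 ft0 :=
  (letter_acts _ _ _).mul (actXi_acts.mul ((letter_acts _ _ _).mul (actXi_acts.mul (letter_acts _ _ _))))

theorem tt0_comm : tt0 * xx = xx * tt0 :=
  co0_eq_of_acts (tt0_acts.mul xx_acts) (xx_acts.mul tt0_acts) (by decide +kernel)

theorem tt0_sq : tt0 * tt0 = 1 :=
  co0_eq_of_acts (tt0_acts.mul tt0_acts) ActsOn.one (by decide +kernel)

theorem h_tp1_0 : isM24 tp1_0 = true := by decide +kernel
theorem hl_tm1_0 : tm1_0 < 2 ^ 24 := by decide +kernel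
theorem hr_tm1_0 : reduce tm1_0 = 0 := by decide +kernel
theorem h_tp1_1 : isM24 tp1_1 = true := by decide +kernel
theorem hl_tm1_1 : tm1_1 < 2 ^ 24 := by decide +kernel
theorem hr_tm1_1 : reduce tm1_1 = 0 := by decide +kernel
theorem h_tp1_2 : isM24 tp1_2 = true := by decide +kernel
theorem hl_tm1_2 : tm1_2 < 2 ^ 24 := by decide +kernel
theorem hr_tm1_2 : reduce tm1_2 = 0 := by decide +kernel

/-- An element of the centraliser. -/
noncomputable def tt1 : Co0 :=
  letter h_tp1_0 hl_tm1_0 hr_tm1_0 * (xiCo0 * (letter h_tp1_1 hl_tm1_1 hr_tm1_1 * (xiCo0 * letter h_tp1_2 hl_tm1_2 hr_tm1_2)))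

/-- Its action on codes. -/
def ft1 (n : ℕ) : ℕ := fl tp1_0 tm1_0 (actXi (fl tp1_1 tm1_1 (actXi (fl tp1_2 tm1_2 n))))

theorem tt1_acts : ActsOn tt1 ft1 :=
  (letter_acts _ _ _).mul (actXi_acts.mul ((letter_acts _ _ _).mul (actXi_acts.mul (letter_acts _ _ _))))

theorem tt1_comm : tt1 * xx = xx * tt1 :=
  co0_eq_of_acts (tt1_acts.mul xx_acts) (xx_acts.mul tt1_acts) (by decide +kernel)

theorem tt1_sq : tt1 * tt1 = 1 :=
  co0_eq_of_acts (tt1_acts.mul tt1_acts) ActsOn.one (by decide +kernel)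

theorem h_tp2_0 : isM24 tp2_0 = true := by decide +kernel
theorem hl_tm2_0 : tm2_0 < 2 ^ 24 := by decide +kernel
theorem hr_tm2_0 : reduce tm2_0 = 0 := by decide +kernel
theorem h_tp2_1 : isM24 tp2_1 = true := by decide +kernel
theorem hl_tm2_1 : tm2_1 < 2 ^ 24 := by decide +kernel
theorem hr_tm2_1 : reduce tm2_1 = 0 := by decide +kernel
theorem h_tp2_2 : isM24 tp2_2 = true := by decide +kernel
theorem hl_tm2_2 : tm2_2 < 2 ^ 24 := by decide +kernel
theorem hr_tm2_2 : reduce tm2_2 = 0 := by decide +kernel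

/-- An element of the centraliser. -/
noncomputable def tt2 : Co0 :=
  letter h_tp2_0 hl_tm2_0 hr_tm2_0 * (xiCo0 * (letter h_tp2_1 hl_tm2_1 hr_tm2_1 * (xiCo0 * letter h_tp2_2 hl_tm2_2 hr_tm2_2)))

/-- Its action on codes. -/
def ft2 (n : ℕ) : ℕ := fl tp2_0 tm2_0 (actXi (fl tp2_1 tm2_1 (actXi (fl tp2_2 tm2_2 n))))

theorem tt2_acts : ActsOn tt2 ft2 :=
  (letter_acts _ _ _).mul (actXi_acts.mul ((letter_acts _ _ _).mul (actXi_acts.mul (letter_acts _ _ _))))

theorem tt2_comm : tt2 * xx = xx * tt2 :=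
  co0_eq_of_acts (tt2_acts.mul xx_acts) (xx_acts.mul tt2_acts) (by decide +kernel)

theorem tt2_sq : tt2 * tt2 = 1 :=
  co0_eq_of_acts (tt2_acts.mul tt2_acts) ActsOn.one (by decide +kernel)

theorem h_tp3_0 : isM24 tp3_0 = true := by decide +kernel
theorem hl_tm3_0 : tm3_0 < 2 ^ 24 := by decide +kernel
theorem hr_tm3_0 : reduce tm3_0 = 0 := by decide +kernel
theorem h_tp3_1 : isM24 tp3_1 = true := by decide +kernel
theorem hl_tm3_1 : tm3_1 < 2 ^ 24 := by decide +kernel
theorem hr_tm3_1 : reduce tm3_1 = 0 := by decide +kernel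
theorem h_tp3_2 : isM24 tp3_2 = true := by decide +kernel
theorem hl_tm3_2 : tm3_2 < 2 ^ 24 := by decide +kernel
theorem hr_tm3_2 : reduce tm3_2 = 0 := by decide +kernel

/-- An element of the centraliser. -/
noncomputable def tt3 : Co0 :=
  letter h_tp3_0 hl_tm3_0 hr_tm3_0 * (xiCo0 * (letter h_tp3_1 hl_tm3_1 hr_tm3_1 * (xiCo0 * letter h_tp3_2 hl_tm3_2 hr_tm3_2)))

/-- Its action on codes. -/
def ft3 (n : ℕ) : ℕ := fl tp3_0 tm3_0 (actXi (fl tp3_1 tm3_1 (actXi (fl tp3_2 tm3_2 n))))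

theorem tt3_acts : ActsOn tt3 ft3 :=
  (letter_acts _ _ _).mul (actXi_acts.mul ((letter_acts _ _ _).mul (actXi_acts.mul (letter_acts _ _ _))))

theorem tt3_comm : tt3 * xx = xx * tt3 :=
  co0_eq_of_acts (tt3_acts.mul xx_acts) (xx_acts.mul tt3_acts) (by decide +kernel)

theorem tt3_sq : tt3 * tt3 = 1 :=
  co0_eq_of_acts (tt3_acts.mul tt3_acts) ActsOn.one (by decide +kernel)

theorem xx_pow : xx ^ 5 = 1 := by
  have h := co0_eq_of_acts (xx_acts.mul (xx_acts.mul (xx_acts.mul (xx_acts.mul xx_acts)))) ActsOn.one (by decide +kernel)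
  rw [← h]
  simp only [pow_succ, pow_zero, one_mul, mul_assoc]

theorem xx_ne : xx ≠ 1 := by
  intro h
  have h0 : St (eNc 0) := by
    have := eNc_st (pt 0)
    rwa [idx_pt (by norm_num)] at this
  have h1 := xx_acts (eNc 0) h0
  rw [h] at h1
  have h2 : dec (eNc 0) = dec (fx (eNc 0)) := h1.2
  have h3 := dec_injOn h0.1 h1.1 h2
  exact absurd h3 (by decide +kernel)

theorem orderOf_xx : orderOf xx = 5 :=
  haveI : Fact (Nat.Prime 5) := ⟨by norm_num⟩
  orderOf_eq_prime xx_pow xx_ne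

end Cfsg.Agent.Lib.J25
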