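import Mathlib
import Cfsg.Agent.Lib.J25Fast
import Cfsg.Agent.Lib.J25BlkT
import Cfsg.Agent.Lib.IcoP

set_option autoImplicit false
set_option linter.unusedVariables false
set_option maxRecDepth 100000

/-!
# Three hundred and fifteen sets of vectors permuted by the centraliser of the element of order five
-/

namespace Cfsg.Agent.Lib.J25

open Cfsg Cfsg.Agent.Lib.Leech Cfsg.Agent.Lib.Co0Mono Cfsg.Agent.Lib.CoVec Cfsg.Agent.Lib.CoConf
open Cfsg.Agent.Lib.IcoChain (GT)

/-- The vectors of a block, up to sign. -/
def cd (j l : ℕ) : ℕ := ent (btL.getD (j / 5) 0) (Nat.add (Nat.mul (j % 5) 60) l)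

/-- The test of being in the block, for a normalised code. -/
def inB (k m : ℕ) : Bool := !(chkN 60 fun l => !(Nat.beq m (cd k l)))

/-- The test of being in the block. -/
noncomputable def inS (k m : ℕ) : Bool :=
  withN (cond (Nat.blt (Nat.mul 2 m) negK) m (actNeg m)) fun c => inB k c

/-- The test for a map on codes, on the representatives of the orbits. -/
noncomputable def chkRep (σ f : ℕ → ℕ) : Bool :=
  chkN 315 fun j => chkN 12 fun r => withN (cd j (5 * r)) fun n => inS (σ j) (f n)

/-- The next one in an orbit. -/
def nxB (l : ℕ) : ℕ := l - l % 5 + (l + 1) % 5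

theorem gen0 : chkRep (GT 0) ft0 = true := by decide +kernel
theorem gen1 : chkRep (GT 1) ft1 = true := by decide +kernel
theorem gen2 : chkRep (GT 2) ft2 = true := by decide +kernel
theorem gen3 : chkRep (GT 3) ft3 = true := by decide +kernel

theorem genx : chkN 315 (fun j => chkN 60 fun l => withN (fx (cd j l)) fun m => withN (cd j (nxB l)) fun c =>
    Nat.beq m c || Nat.beq m (actNeg c)) = true := by decide +kernel

theorem chkCd : chkN 315 (fun j => chkN 60 fun l => withN (cd j l) fun n =>
    minQ n && Nat.blt (Nat.mul 2 n) negK && Nat.ble (cd j 0) n) = true := by decide +kernel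

theorem chkCdInj : chkN 315 (fun j => chkN 315 fun k => Nat.beq j k || !(Nat.beq (cd j 0) (cd k 0))) = true := by
  decide +kernel

end Cfsg.Agent.Lib.J25
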