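import Mathlib
import Cfsg.Agent.Lib.J25Fast
import Cfsg.Agent.Lib.J25MinT

set_option autoImplicit false
set_option maxRecDepth 100000

/-! Checks of the table of short vectors. -/

namespace Cfsg.Agent.Lib.J25

theorem chk_0 : chkE true mt0 = true := by decide +kernel
theorem chk_1 : chkE true mt1 = true := by decide +kernel
theorem chk_2 : chkE true mt2 = true := by decide +kernel
theorem chk_3 : chkE true mt3 = true := by decide +kernel
theorem chk_4 : chkE true mt4 = true := by decide +kernel
theorem chk_5 : chkE true mt5 = true := by decide +kernel
theorem chk_6 : chkE true mt6 = true := by decide +kernel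
theorem chk_7 : chkE true mt7 = true := by decide +kernel
theorem chk_8 : chkE true mt8 = true := by decide +kernel
theorem chk_9 : chkE true mt9 = true := by decide +kernel
theorem chk_10 : chkE true mt10 = true := by decide +kernel
theorem chk_11 : chkE true mt11 = true := by decide +kernel
theorem chk_12 : chkE true mt12 = true := by decide +kernel

end Cfsg.Agent.Lib.J25
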