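import Mathlib
import Cfsg.Agent.Lib.J25Fast
import Cfsg.Agent.Lib.J25MinT

set_option autoImplicit false
set_option maxRecDepth 100000

/-! Checks of the table of short vectors. -/

namespace Cfsg.Agent.Lib.J25

theorem chk_13 : chkE true mt13 = true := by decide +kernel
theorem chk_14 : chkE true mt14 = true := by decide +kernel
theorem chk_15 : chkE false mt15 = true := by decide +kernel
theorem chk_16 : chkE false mt16 = true := by decide +kernel
theorem chk_17 : chkE false mt17 = true := by decide +kernel
theorem chk_18 : chkE false mt18 = true := by decide +kernel
theorem chk_19 : chkE false mt19 = true := by decide +kernel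
theorem chk_20 : chkE false mt20 = true := by decide +kernel
theorem chk_21 : chkE false mt21 = true := by decide +kernel
theorem chk_22 : chkE false mt22 = true := by decide +kernel
theorem chk_23 : chkE false mt23 = true := by decide +kernel
theorem chk_24 : chkE false mt24 = true := by decide +kernel
theorem chk_25 : chkE false mt25 = true := by decide +kernel

end Cfsg.Agent.Lib.J25
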