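import Mathlib
import Cfsg.Agent.Lib.J25Fast
import Cfsg.Agent.Lib.J25MinT

set_option autoImplicit false
set_option maxRecDepth 100000

/-! Checks of the table of short vectors. -/

namespace Cfsg.Agent.Lib.J25

theorem chk_26 : chkE false mt26 = true := by decide +kernel
theorem chk_27 : chkE false mt27 = true := by decide +kernel
theorem chk_28 : chkE false mt28 = true := by decide +kernel
theorem chk_29 : chkE false mt29 = true := by decide +kernel
theorem chk_30 : chkE false mt30 = true := by decide +kernel
theorem chk_31 : chkE false mt31 = true := by decide +kernel
theorem chk_32 : chkE false mt32 = true := by decide +kernel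
theorem chk_33 : chkE false mt33 = true := by decide +kernel
theorem chk_34 : chkE false mt34 = true := by decide +kernel
theorem chk_35 : chkE false mt35 = true := by decide +kernel
theorem chk_36 : chkE false mt36 = true := by decide +kernel
theorem chk_37 : chkE false mt37 = true := by decide +kernel
theorem chk_38 : chkE false mt38 = true := by decide +kernel

end Cfsg.Agent.Lib.J25
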