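import Mathlib
import Cfsg.Agent.Lib.J25Fast
import Cfsg.Agent.Lib.J25MinT

set_option autoImplicit false
set_option maxRecDepth 100000

/-! Checks of the table of short vectors. -/

namespace Cfsg.Agent.Lib.J25

theorem chk_39 : chkE false mt39 = true := by decide +kernel
theorem chk_40 : chkE false mt40 = true := by decide +kernel
theorem chk_41 : chkE false mt41 = true := by decide +kernel
theorem chk_42 : chkE false mt42 = true := by decide +kernel
theorem chk_43 : chkE false mt43 = true := by decide +kernel
theorem chk_44 : chkE false mt44 = true := by decide +kernel
theorem chk_45 : chkE false mt45 = true := by decide +kernel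
theorem chk_46 : chkE false mt46 = true := by decide +kernel
theorem chk_47 : chkE false mt47 = true := by decide +kernel
theorem chk_48 : chkE false mt48 = true := by decide +kernel
theorem chk_49 : chkE false mt49 = true := by decide +kernel
theorem chk_50 : chkE false mt50 = true := by decide +kernel
theorem chk_51 : chkE false mt51 = true := by decide +kernel

end Cfsg.Agent.Lib.J25
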