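import Mathlib
import Cfsg.Agent.Lib.J25Fast
import Cfsg.Agent.Lib.J25MinT

set_option autoImplicit false
set_option maxRecDepth 100000

/-! Checks of the table of short vectors. -/

namespace Cfsg.Agent.Lib.J25

theorem chk_52 : chkE false mt52 = true := by decide +kernel
theorem chk_53 : chkE false mt53 = true := by decide +kernel
theorem chk_54 : chkE false mt54 = true := by decide +kernel
theorem chk_55 : chkE false mt55 = true := by decide +kernel
theorem chk_56 : chkE false mt56 = true := by decide +kernel
theorem chk_57 : chkE false mt57 = true := by decide +kernel
theorem chk_58 : chkE false mt58 = true := by decide +kernel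
theorem chk_59 : chkE false mt59 = true := by decide +kernel
theorem chk_60 : chkE false mt60 = true := by decide +kernel
theorem chk_61 : chkE false mt61 = true := by decide +kernel
theorem chk_62 : chkE false mt62 = true := by decide +kernel
theorem chk_63 : chkE false mt63 = true := by decide +kernel
theorem chk_64 : chkE false mt64 = true := by decide +kernel

end Cfsg.Agent.Lib.J25
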