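import Mathlib
import Cfsg.Agent.Lib.J25Fast
import Cfsg.Agent.Lib.J25MinT

set_option autoImplicit false
set_option maxRecDepth 100000

/-! Checks of the table of short vectors. -/

namespace Cfsg.Agent.Lib.J25

theorem chk_65 : chkE false mt65 = true := by decide +kernel
theorem chk_66 : chkE false mt66 = true := by decide +kernel
theorem chk_67 : chkE false mt67 = true := by decide +kernel
theorem chk_68 : chkE false mt68 = true := by decide +kernel
theorem chk_69 : chkE false mt69 = true := by decide +kernel
theorem chk_70 : chkE false mt70 = true := by decide +kernel
theorem chk_71 : chkE false mt71 = true := by decide +kernel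
theorem chk_72 : chkE false mt72 = true := by decide +kernel
theorem chk_73 : chkE false mt73 = true := by decide +kernel
theorem chk_74 : chkE false mt74 = true := by decide +kernel
theorem chk_75 : chkE false mt75 = true := by decide +kernel
theorem chk_76 : chkE false mt76 = true := by decide +kernel
theorem chk_77 : chkE false mt77 = true := by decide +kernel

end Cfsg.Agent.Lib.J25
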