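import Mathlib
import Cfsg.Agent.Lib.J25MC0
import Cfsg.Agent.Lib.J25MC1
import Cfsg.Agent.Lib.J25MC2
import Cfsg.Agent.Lib.J25MC3
import Cfsg.Agent.Lib.J25MC4
import Cfsg.Agent.Lib.J25MC5

set_option autoImplicit false
set_option linter.unusedVariables false
set_option maxRecDepth 100000

/-!
# The short vectors of the lattice, up to sign
-/

namespace Cfsg.Agent.Lib.J25

theorem chk_cross : chkN 77 (fun k => Nat.beq k 14 || Nat.blt (ent (mtL.getD k 0) 1259) (ent (mtL.getD (k + 1) 0) 0)) = true := by
  decide +kernel

theorem chk_all {k : ℕ} (hk : k < 78) : chkE (Nat.blt k 15) (mtL.getD k 0) = true := by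
  interval_cases k
  · exact chk_0
  · exact chk_1
  · exact chk_2
  · exact chk_3
  · exact chk_4
  · exact chk_5
  · exact chk_6
  · exact chk_7
  · exact chk_8
  · exact chk_9
  · exact chk_10
  · exact chk_11
  · exact chk_12
  · exact chk_13
  · exact chk_14
  · exact chk_15
  · exact chk_16
  · exact chk_17
  · exact chk_18
  · exact chk_19
  · exact chk_20
  · exact chk_21
  · exact chk_22
  · exact chk_23
  · exact chk_24
  · exact chk_25
  · exact chk_26
  · exact chk_27
  · exact chk_28
  · exact chk_29
  · exact chk_30
  · exact chk_31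
  · exact chk_32
  · exact chk_33
  · exact chk_34
  · exact chk_35
  · exact chk_36
  · exact chk_37
  · exact chk_38
  · exact chk_39
  · exact chk_40
  · exact chk_41
  · exact chk_42
  · exact chk_43
  · exact chk_44
  · exact chk_45
  · exact chk_46
  · exact chk_47
  · exact chk_48
  · exact chk_49
  · exact chk_50
  · exact chk_51
  · exact chk_52
  · exact chk_53
  · exact chk_54
  · exact chk_55
  · exact chk_56
  · exact chk_57
  · exact chk_58
  · exact chk_59
  · exact chk_60
  · exact chk_61
  · exact chk_62
  · exact chk_63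
  · exact chk_64
  · exact chk_65
  · exact chk_66
  · exact chk_67
  · exact chk_68
  · exact chk_69
  · exact chk_70
  · exact chk_71
  · exact chk_72
  · exact chk_73
  · exact chk_74
  · exact chk_75
  · exact chk_76
  · exact chk_77

end Cfsg.Agent.Lib.J25
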