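import Mathlib
import Cfsg.Agent.Lib.J25MinChk

set_option autoImplicit false
set_option linter.unusedVariables false
set_option maxRecDepth 100000

/-!
# The short vectors of the lattice, up to sign, from the table

Every vector of squared length 32 is, up to sign, one of the 98280 entries `tc i`; the pattern of the element of
order five singles out the entries with `i < 18900`.
-/

namespace Cfsg.Agent.Lib.J25

open Cfsg Cfsg.Agent.Lib.Leech Cfsg.Agent.Lib.Co0Mono Cfsg.Agent.Lib.CoVec Cfsg.Agent.Lib.CoConf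

theorem lt_of_blt {a b : ℕ} (h : Nat.blt a b = true) : a < b := Nat.le_of_ble_eq_true h

theorem coe_neg' (v : LL) : ((-v : LL) : GolayPt → ℤ) = -(v : GolayPt → ℤ) := rfl

/-- The table. -/
def tc (i : ℕ) : ℕ := ent (mtL.getD (i / 1260) 0) (i % 1260)

theorem elem_spec {i : ℕ} (hi : i < 98280) : elemOk (Nat.blt (i / 1260) 15) (mtL.getD (i / 1260) 0) (i % 1260) = true :=
  chkN_spec (chk_all (k := i / 1260) (by omega)) _ (Nat.mod_lt _ (by norm_num))

theorem elem_parts {i : ℕ} (hi : i < 98280) :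
    (St (tc i) ∧ sqN (tc i) = 32) ∧ 2 * tc i < negK ∧
      (i % 1260 = 1259 ∨ tc i < ent (mtL.getD (i / 1260) 0) (i % 1260 + 1)) ∧
      (patc (tc i) (fx (tc i)) = true ↔ i < 18900) := by
  have h := elem_spec hi
  unfold elemOk at h
  simp only [withN_eq, Bool.and_eq_true, Bool.or_eq_true] at h
  obtain ⟨⟨⟨h1, h2⟩, h3⟩, h4⟩ := h
  refine ⟨minQ_spec h1, ?_, ?_, ?_⟩
  · exact lt_of_blt h2
  · rcases h3 with h3 | h3
    · exact Or.inl (Nat.eq_of_beq_eq_true h3)
    · exact Or.inr (lt_of_blt h3)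
  · have hk : (Nat.blt (i / 1260) 15 = true) ↔ i < 18900 := by
      rw [show (Nat.blt (i / 1260) 15 = true) ↔ i / 1260 < 15 from by simp [Nat.blt_eq]]
      omega
    change (cond (Nat.blt (i / 1260) 15) (patc (tc i) (fx (tc i))) (!patc (tc i) (fx (tc i)))) = true at h4
    by_cases hb : Nat.blt (i / 1260) 15 = true
    · rw [hb] at h4
      simp only [cond_true] at h4
      exact ⟨fun _ => hk.1 hb, fun _ => h4⟩
    · have hb' : Nat.blt (i / 1260) 15 = false := eq_false_of_ne_true hb
      rw [hb'] at h4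
      simp only [cond_false, Bool.not_eq_true'] at h4
      rw [h4]
      exact ⟨fun h => absurd h (by simp), fun h => absurd (hk.2 h) hb⟩

theorem tc_st {i : ℕ} (hi : i < 98280) : St (tc i) := (elem_parts hi).1.1

theorem tc_sq {i : ℕ} (hi : i < 98280) : sqN (tc i) = 32 := (elem_parts hi).1.2

theorem tc_half {i : ℕ} (hi : i < 98280) : 2 * tc i < negK := (elem_parts hi).2.1

theorem tc_pat {i : ℕ} (hi : i < 98280) : patc (tc i) (fx (tc i)) = true ↔ i < 18900 := (elem_parts hi).2.2.2

theorem tc_step {i : ℕ} (hi : i + 1 < 98280) (h : i + 1 ≠ 18900) : tc i < tc (i + 1) := by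
  have hi' : i < 98280 := by omega
  by_cases hr : i % 1260 = 1259
  · have h2 := chkN_spec chk_cross (i / 1260) (by omega)
    simp only [Bool.or_eq_true] at h2
    have e1 : (i + 1) / 1260 = i / 1260 + 1 := by omega
    have e2 : (i + 1) % 1260 = 0 := by omega
    rcases h2 with h2 | h2
    · have := Nat.eq_of_beq_eq_true h2
      omega
    · have h3 := lt_of_blt h2
      have e3 : tc i = ent (mtL.getD (i / 1260) 0) 1259 := by
        unfold tc
        rw [hr]
      have e4 : tc (i + 1) = ent (mtL.getD (i / 1260 + 1) 0) 0 := by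
        unfold tc
        rw [e1, e2]
      rw [e3, e4]
      exact h3
  · rcases (elem_parts hi').2.2.1 with h1 | h1
    · exact absurd h1 hr
    · have e1 : (i + 1) / 1260 = i / 1260 := by omega
      have e2 : (i + 1) % 1260 = i % 1260 + 1 := by omega
      have e4 : tc (i + 1) = ent (mtL.getD (i / 1260) 0) (i % 1260 + 1) := by
        unfold tc
        rw [e1, e2]
      rw [e4]
      exact h1

theorem tc_lt {i j : ℕ} (hij : i < j) (hj : j < 98280) (hs : j < 18900 ∨ 18900 ≤ i) : tc i < tc j := by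
  induction j with
  | zero => omega
  | succ j ih =>
    have hne : j + 1 ≠ 18900 := by omega
    rcases Nat.lt_succ_iff_lt_or_eq.1 hij with h1 | h1
    · exact lt_trans (ih h1 (by omega) (by omega)) (tc_step hj hne)
    · rw [h1]
      exact tc_step hj hne

theorem tc_inj {i j : ℕ} (hi : i < 98280) (hj : j < 98280) (h : tc i = tc j) : i = j := by
  by_contra hne
  have hp1 := tc_pat hi
  have hp2 := tc_pat hj
  rw [h] at hp1
  have hs : (i < 18900 ↔ j < 18900) := hp1.symm.trans hp2
  rcases lt_or_gt_of_ne hne with h1 | h1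
  · exact absurd h (ne_of_lt (tc_lt h1 hj (by omega)))
  · exact absurd h.symm (ne_of_lt (tc_lt h1 hi (by omega)))

/-- The vector of an entry. -/
noncomputable def vv (i : Fin 98280) : LL := ⟨dec (tc i.1), (tc_st i.2).2.1⟩

theorem vv_val (i : Fin 98280) : (vv i : GolayPt → ℤ) = dec (tc i.1) := rfl

theorem vv_norm (i : Fin 98280) : sqNorm (vv i : GolayPt → ℤ) = 32 := by
  rw [vv_val, sqNorm_dec, tc_sq i.2]
  norm_num

theorem neg_vv_val (i : Fin 98280) : ((-vv i : LL) : GolayPt → ℤ) = dec (actNeg (tc i.1)) :=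
  (actNeg_spec (tc i.1) (tc_st i.2)).2

/-- The vectors with signs. -/
noncomputable def EE (p : Fin 98280 × Bool) : LL := cond p.2 (-vv p.1) (vv p.1)

theorem EE_mem (p : Fin 98280 × Bool) : EE p ∈ DS [] := by
  refine ⟨?_, by simp⟩
  rcases p with ⟨i, b⟩
  cases b
  · exact vv_norm i
  · show sqNorm ((-vv i : LL) : GolayPt → ℤ) = 32
    rw [coe_neg', norm_neg]
    exact vv_norm i

theorem vv_inj {i j : Fin 98280} (h : vv i = vv j) : i = j := by
  have h1 : dec (tc i.1) = dec (tc j.1) := congrArg Subtype.val h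
  exact Fin.ext (tc_inj i.2 j.2 (dec_injOn (tc_st i.2).1 (tc_st j.2).1 h1))

theorem vv_ne_neg (i j : Fin 98280) : vv i ≠ -vv j := by
  intro h
  have h1 : dec (tc i.1) = dec (actNeg (tc j.1)) := by
    rw [← neg_vv_val, ← h]
    rfl
  have h2 := dec_injOn (tc_st i.2).1 (actNeg_spec (tc j.1) (tc_st j.2)).1 h1
  have h3 := tc_half i.2
  have h4 := tc_half j.2
  have h5 : actNeg (tc j.1) = negK - tc j.1 := rfl
  rw [h5] at h2
  generalize negK = K at *
  omega

theorem EE_inj : Function.Injective EE := by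
  rintro ⟨i, a⟩ ⟨j, b⟩ h
  cases a <;> cases b
  · rw [vv_inj (i := i) (j := j) h]
  · exact absurd h (vv_ne_neg i j)
  · exact absurd h.symm (vv_ne_neg j i)
  · have h1 : -vv i = -vv j := h
    rw [vv_inj (neg_injective h1)]

theorem range_EE : Set.range EE = DS [] := by
  apply Set.eq_of_subset_of_ncard_le
  · rintro _ ⟨p, rfl⟩
    exact EE_mem p
  · rw [ncard_nil, Set.ncard_eq_toFinset_card', Set.toFinset_range, Finset.card_image_of_injective _ EE_inj]
    simp
  · exact finite_N32

/-- The short vectors from the table. -/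
theorem min_cases (w : LL) (hw : sqNorm (w : GolayPt → ℤ) = 32) :
    ∃ i : Fin 98280, w = vv i ∨ w = -vv i := by
  have h : w ∈ Set.range EE := by
    rw [range_EE]
    exact ⟨hw, by simp⟩
  obtain ⟨⟨i, b⟩, rfl⟩ := h
  cases b
  · exact ⟨i, Or.inl rfl⟩
  · exact ⟨i, Or.inr rfl⟩

theorem xx_vv (i : Fin 98280) : ((xx • vv i : LL) : GolayPt → ℤ) = dec (fx (tc i.1)) :=
  (xx_acts (tc i.1) (tc_st i.2)).2

/-- The vectors of the given pattern. -/
theorem pat_cases (w : LL) (hw : sqNorm (w : GolayPt → ℤ) = 32)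
    (hp : dotInt (w : GolayPt → ℤ) ((xx • w : LL) : GolayPt → ℤ) = -16) :
    ∃ i : Fin 98280, i.1 < 18900 ∧ (w = vv i ∨ w = -vv i) := by
  obtain ⟨i, hi⟩ := min_cases w hw
  refine ⟨i, ?_, hi⟩
  have key : dotInt (vv i : GolayPt → ℤ) ((xx • vv i : LL) : GolayPt → ℤ) = -16 := by
    rcases hi with rfl | rfl
    · exact hp
    · rw [smul_neg', coe_neg', coe_neg', dot_neg_left, dot_neg_right, neg_neg] at hp
      exact hp
  rw [vv_val, xx_vv] at key
  have h1 : patc (tc i.1) (fx (tc i.1)) = true := by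
    unfold patc
    rw [dotEq_iff, key]
    norm_num
  exact (tc_pat i.2).1 h1

end Cfsg.Agent.Lib.J25
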