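import Mathlib
import Cfsg.Agent.Lib.J25Min
import Cfsg.Agent.Lib.J25ChainD

set_option autoImplicit false
set_option linter.unusedVariables false
set_option maxRecDepth 100000

/-!
# The classes of vectors in the chain of stabilisers
-/

namespace Cfsg.Agent.Lib.J25

open Cfsg.Agent.Lib.CoVec

/-- The base vectors and their images. -/
def yc (s : ℕ) : ℕ := ent yT s

/-- The target inner products. -/
def dtab (j s : ℕ) : ℕ := Nat.land (Nat.shiftRight dT (Nat.mul 20 (Nat.add (Nat.mul 30 j) s))) 1048575

/-- The offsets of the classes. -/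
def clOff : ℕ → ℕ
  | 1 => 0
  | 2 => 5
  | 3 => 21
  | 4 => 22
  | _ => 24

/-- The sizes of the classes. -/
def clSz : ℕ → ℕ
  | 1 => 5
  | 2 => 16
  | 3 => 1
  | 4 => 2
  | _ => 1

/-- The inner products match. -/
noncomputable def matchQ (j n : ℕ) : Bool := chkN (5 * j) fun s => dotEq n (yc s) (dtab j s)

/-- Being in the class. -/
def inCl (j n : ℕ) : Bool := !(chkN (clSz j) fun r => !(Nat.beq n (ent clT (clOff j + r))))

/-- The test. -/
noncomputable def okC (j n : ℕ) : Bool := !(matchQ j n) || inCl j n

/-- The test for all vectors of the given pattern. -/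
noncomputable def clChk (j : ℕ) : Bool := chkN 18900 fun i => withN (tc i) fun n => okC j n && okC j (actNeg n)

end Cfsg.Agent.Lib.J25
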