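import Mathlib
import Cfsg.Agent.Lib.J25ClD

set_option autoImplicit false
set_option maxRecDepth 100000

/-! Checks of the classes of vectors. -/

namespace Cfsg.Agent.Lib.J25

theorem clChk1 : clChk 1 = true := by decide +kernel
theorem clChk2 : clChk 2 = true := by decide +kernel

end Cfsg.Agent.Lib.J25
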