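import Mathlib
import Cfsg.Agent.Lib.J25Min
import Cfsg.Agent.Lib.J25Cl1
import Cfsg.Agent.Lib.J25Cl2
import Cfsg.Agent.Lib.J25Cl3
import Cfsg.Agent.Lib.M24Facts

set_option autoImplicit false
set_option linter.unusedVariables false
set_option maxRecDepth 100000

/-!
# The order of the centraliser of the element of order five: a chain of stabilisers
-/

namespace Cfsg.Agent.Lib.J25

open Cfsg Cfsg.Agent.Lib.Leech Cfsg.Agent.Lib.Co0Mono Cfsg.Agent.Lib.CoVec Cfsg.Agent.Lib.CoConf
open Cfsg.Agent.Lib.Golay (idx pt idx_lt)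
open Cfsg.Agent.S0398 (e8 e8_apply toHom)

/-- The next one in an orbit. -/
def nx (s : ℕ) : ℕ := s - s % 5 + (s + 1) % 5

theorem chkY : chkN 30 (fun s => stChk (yc s) && Nat.beq (fx (yc s)) (yc (nx s)) && Nat.beq (sqN (yc s)) 32) = true := by
  decide +kernel

theorem chkYp : chkN 6 (fun l => patc (yc (5 * l)) (yc (5 * l + 1))) = true := by decide +kernel

theorem y_parts {s : ℕ} (hs : s < 30) : (St (yc s) ∧ fx (yc s) = yc (nx s)) ∧ sqN (yc s) = 32 := by
  have h := chkN_spec chkY s hs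
  simp only [Bool.and_eq_true] at h
  exact ⟨⟨St_of_stChk h.1.1, Nat.eq_of_beq_eq_true h.1.2⟩, Nat.eq_of_beq_eq_true h.2⟩

theorem y_st {s : ℕ} (hs : s < 30) : St (yc s) := (y_parts hs).1.1

/-- The vectors. -/
noncomputable def yv (s : ℕ) : LL := if h : s < 30 then ⟨dec (yc s), (y_st h).2.1⟩ else 0

theorem yv_val {s : ℕ} (hs : s < 30) : (yv s : GolayPt → ℤ) = dec (yc s) := by
  unfold yv
  rw [dif_pos hs]

theorem yv_norm {s : ℕ} (hs : s < 30) : sqNorm (yv s : GolayPt → ℤ) = 32 := by
  rw [yv_val hs, sqNorm_dec, (y_parts hs).2]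
  norm_num

theorem xx_yv {s : ℕ} (hs : s < 30) : xx • yv s = yv (nx s) := by
  have hn : nx s < 30 := by
    unfold nx
    omega
  exact smul_eq_of_acts xx_acts (y_st hs) (yv_val hs) (y_parts hs).1.2 (yv_val hn)

theorem yv_pat {l : ℕ} (hl : l < 6) :
    dotInt (yv (5 * l) : GolayPt → ℤ) (yv (5 * l + 1) : GolayPt → ℤ) = -16 := by
  rw [yv_val (by omega), yv_val (by omega)]
  have h := chkN_spec chkYp l hl
  unfold patc at h
  rw [dotEq_iff] at h
  rw [h]
  norm_num

/-- The group generated by the element of order five. -/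
noncomputable abbrev AA : Subgroup Co0 := Subgroup.zpowers xx

/-- Its centraliser. -/
noncomputable abbrev CA : Subgroup Co0 := Subgroup.centralizer (AA : Set Co0)

theorem mem_CA {g : Co0} : g ∈ CA ↔ g * xx = xx * g := by
  constructor
  · intro h
    exact (Subgroup.mem_centralizer_iff.1 h xx (Subgroup.mem_zpowers xx)).symm
  · intro h
    refine Subgroup.mem_centralizer_iff.2 ?_
    rintro _ ⟨k, rfl⟩
    have hc : Commute xx g := h.symm
    exact (hc.zpow_left k).eq

theorem card_AA : Nat.card AA = 5 := by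
  unfold AA
  rw [Nat.card_zpowers, orderOf_xx]

/-- The chain of stabilisers. -/
noncomputable def Kc : ℕ → Subgroup Co0
  | 0 => CA
  | j + 1 => Kc j ⊓ MulAction.stabilizer Co0 (yv (5 * j))

theorem Kc_le_CA (j : ℕ) : Kc j ≤ CA := by
  induction j with
  | zero => exact le_rfl
  | succ j ih => exact inf_le_left.trans ih

theorem Kc_fix0 {j l : ℕ} {g : Co0} (hg : g ∈ Kc j) (hl : l < j) : g • yv (5 * l) = yv (5 * l) := by
  induction j with
  | zero => omega
  | succ j ih =>
    rcases Nat.lt_succ_iff_lt_or_eq.1 hl with h1 | h1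
    · exact ih hg.1 h1
    · rw [h1]
      exact hg.2

theorem smul_xx_comm {g : Co0} (hg : g ∈ CA) (v : LL) : g • (xx • v) = xx • (g • v) := by
  rw [← mul_smul, ← mul_smul, mem_CA.1 hg]

theorem Kc_fix {j l : ℕ} {g : Co0} (hg : g ∈ Kc j) (hl : l < j) (hj : j ≤ 6) {i : ℕ} (hi : i < 5) :
    g • yv (5 * l + i) = yv (5 * l + i) := by
  induction i with
  | zero => exact Kc_fix0 hg hl
  | succ i ih =>
    have h1 := ih (by omega)
    have h2 : nx (5 * l + i) = 5 * l + (i + 1) := by
      unfold nx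
      omega
    have h3 := xx_yv (s := 5 * l + i) (by omega)
    rw [h2] at h3
    rw [← h3, smul_xx_comm (Kc_le_CA j hg), h1]

/-- The pattern for images of base vectors. -/
theorem img_pat {g : Co0} (hg : g ∈ CA) {l : ℕ} (hl : l < 6) :
    dotInt ((g • yv (5 * l) : LL) : GolayPt → ℤ) ((xx • (g • yv (5 * l)) : LL) : GolayPt → ℤ) = -16 := by
  rw [← smul_xx_comm hg, dot_smul]
  have h2 : nx (5 * l) = 5 * l + 1 := by
    unfold nx
    omega
  rw [xx_yv (by omega), h2]
  exact yv_pat hl

theorem img_norm (g : Co0) {l : ℕ} (hl : l < 6) : sqNorm ((g • yv (5 * l) : LL) : GolayPt → ℤ) = 32 := by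
  rw [norm_smul]
  exact yv_norm (by omega)

/-! ### Counting -/

theorem ncard_le_of_codes {T : Set LL} (c : ℕ → ℕ) (N : ℕ)
    (h : ∀ w ∈ T, ∃ r < N, (w : GolayPt → ℤ) = dec (c r)) : T.Finite ∧ T.ncard ≤ N := by
  classical
  let f : ℕ → LL := fun r => if h : dec (c r) ∈ leechLattice then ⟨dec (c r), h⟩ else 0
  let S : Finset LL := (Finset.range N).image f
  have hS : T ⊆ (S : Set LL) := by
    intro w hw
    obtain ⟨r, hr, e⟩ := h w hw
    refine Finset.mem_coe.2 (Finset.mem_image.2 ⟨r, Finset.mem_range.2 hr, ?_⟩)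
    have hm : dec (c r) ∈ leechLattice := by
      rw [← e]
      exact w.2
    show (if h : dec (c r) ∈ leechLattice then (⟨dec (c r), h⟩ : LL) else 0) = w
    rw [dif_pos hm]
    exact Subtype.ext e.symm
  refine ⟨S.finite_toSet.subset hS, ?_⟩
  calc T.ncard ≤ (S : Set LL).ncard := Set.ncard_le_ncard hS S.finite_toSet
    _ = S.card := Set.ncard_coe_finset S
    _ ≤ (Finset.range N).card := Finset.card_image_le
    _ = N := Finset.card_range N

theorem step_card {j : ℕ} {T : Set LL} {N : ℕ} (hT : ∀ g ∈ Kc j, g • yv (5 * j) ∈ T) (hF : T.Finite) (hN : T.ncard ≤ N) :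
    Nat.card (Kc j) ≤ N * Nat.card (Kc (j + 1)) := by
  have h := Cfsg.Agent.Lib.M24Facts.card_eq_orbit_mul_inf (Kc j) (yv (5 * j))
  rw [h]
  apply Nat.mul_le_mul_right
  refine le_trans (Set.ncard_le_ncard ?_ hF) hN
  rintro _ ⟨k, rfl⟩
  exact hT k.1 k.2

/-! ### The first step -/

/-- The codes of the vectors of the given pattern. -/
def c0 (r : ℕ) : ℕ := if r < 18900 then tc r else actNeg (tc (r - 18900))

theorem step0 : Nat.card (Kc 0) ≤ 37800 * Nat.card (Kc 1) := by
  have hc := ncard_le_of_codes (T := {w : LL | sqNorm (w : GolayPt → ℤ) = 32 ∧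
      dotInt (w : GolayPt → ℤ) ((xx • w : LL) : GolayPt → ℤ) = -16}) c0 37800 (by
    rintro w ⟨h1, h2⟩
    obtain ⟨i, hi, e⟩ := pat_cases w h1 h2
    rcases e with rfl | rfl
    · refine ⟨i.1, by omega, ?_⟩
      unfold c0
      rw [if_pos hi]
      rfl
    · refine ⟨i.1 + 18900, by omega, ?_⟩
      unfold c0
      rw [if_neg (by omega), Nat.add_sub_cancel]
      exact neg_vv_val i)
  refine step_card (j := 0) ?_ hc.1 hc.2
  intro g hg
  exact ⟨img_norm g (l := 0) (by norm_num), img_pat hg (l := 0) (by norm_num)⟩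

/-! ### The other steps -/

theorem chkDt : chkN 6 (fun j => Nat.beq j 0 || matchQ j (yc (5 * j))) = true := by decide +kernel

theorem chkN_false {n : ℕ} {p : ℕ → Bool} (h : chkN n p = false) : ∃ j < n, p j = false := by
  induction n with
  | zero => simp [chkN] at h
  | succ n ih =>
    simp only [chkN, Bool.and_eq_false_iff] at h
    rcases h with h | h
    · exact ⟨n, by omega, h⟩
    · obtain ⟨j, hj, e⟩ := ih h
      exact ⟨j, by omega, e⟩

theorem chkN_of_all {n : ℕ} {p : ℕ → Bool} (h : ∀ j < n, p j = true) : chkN n p = true := by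
  induction n with
  | zero => rfl
  | succ n ih =>
    simp only [chkN, Bool.and_eq_true]
    exact ⟨h n (by omega), ih fun j hj => h j (by omega)⟩

theorem inCl_spec {j n : ℕ} (h : inCl j n = true) : ∃ r < clSz j, n = ent clT (clOff j + r) := by
  unfold inCl at h
  rw [Bool.not_eq_true'] at h
  obtain ⟨r, hr, e⟩ := chkN_false h
  refine ⟨r, hr, ?_⟩
  rw [Bool.not_eq_false'] at e
  exact Nat.eq_of_beq_eq_true e

/-- The image of a base vector is in the class. -/
theorem img_mem {j : ℕ} (hj0 : 1 ≤ j) (hj : j < 6) (hcl : clChk j = true) {g : Co0} (hg : g ∈ Kc j) :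
    ∃ r < clSz j, ((g • yv (5 * j) : LL) : GolayPt → ℤ) = dec (ent clT (clOff j + r)) := by
  have hCA := Kc_le_CA j hg
  obtain ⟨i, hi, e⟩ := pat_cases (g • yv (5 * j)) (img_norm g hj) (img_pat hCA hj)
  have hmatch : ∀ n, ((g • yv (5 * j) : LL) : GolayPt → ℤ) = dec n → matchQ j n = true := by
    intro n hn
    have hd := chkN_spec chkDt j hj
    simp only [Bool.or_eq_true] at hd
    rcases hd with hd | hd
    · have := Nat.eq_of_beq_eq_true hd
      omega
    unfold matchQ at hd ⊢
    have h5 : ∀ s < 5 * j, dotEq n (yc s) (dtab j s) = true := by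
      intro s hs
      have h1 := chkN_spec hd s hs
      rw [dotEq_iff] at h1 ⊢
      have hs' : s < 30 := by omega
      rw [← yv_val hs', ← yv_val (s := 5 * j) (by omega)] at h1
      rw [← yv_val hs', ← hn, ← h1]
      have e1 : s = 5 * (s / 5) + s % 5 := by omega
      have h2 := Kc_fix hg (l := s / 5) (by omega) (by omega) (i := s % 5) (by omega)
      rw [← e1] at h2
      conv_lhs => rw [← h2]
      exact dot_smul g _ _
    exact chkN_of_all h5
  have hok := chkN_spec hcl i.1 hi
  simp only [withN_eq, Bool.and_eq_true] at hok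
  have fin : ∀ n, ((g • yv (5 * j) : LL) : GolayPt → ℤ) = dec n → okC j n = true →
      ∃ r < clSz j, ((g • yv (5 * j) : LL) : GolayPt → ℤ) = dec (ent clT (clOff j + r)) := by
    intro n hn hk
    unfold okC at hk
    rw [hmatch n hn] at hk
    simp only [Bool.not_true, Bool.false_or] at hk
    obtain ⟨r, hr, e⟩ := inCl_spec hk
    exact ⟨r, hr, by rw [hn, e]⟩
  rcases e with e | e
  · exact fin _ (by rw [e]; rfl) hok.1
  · exact fin _ (by rw [e]; exact neg_vv_val i) hok.2

theorem stepj {j : ℕ} (hj0 : 1 ≤ j) (hj : j < 6) (hcl : clChk j = true) :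
    Nat.card (Kc j) ≤ clSz j * Nat.card (Kc (j + 1)) := by
  have hc := ncard_le_of_codes (T := {w : LL | ∃ r < clSz j, (w : GolayPt → ℤ) = dec (ent clT (clOff j + r))})
    (fun r => ent clT (clOff j + r)) (clSz j) (fun w hw => hw)
  exact step_card (fun g hg => img_mem hj0 hj hcl hg) hc.1 hc.2

/-! ### The end of the chain -/

/-- The coefficients. -/
def ac (p j : ℕ) : ℤ := ((Nat.land (Nat.shiftRight aT (5 * (24 * p + j))) 31 : ℕ) : ℤ) - 16

/-- The index of a base vector. -/
def ysi (j : ℕ) : ℕ := 5 * (j / 4) + j % 4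

theorem chkA : ∀ p < 24, ∀ k < 24, ∑ j ∈ Finset.range 24, ac p j * (((byte (yc (ysi j)) k : ℕ) : ℤ) - 128) =
    if k = p then 8 else 0 := by decide +kernel

theorem frame_eq (p : GolayPt) : e8 p = ∑ j ∈ Finset.range 24, ac (idx p) j • yv (ysi j) := by
  apply Subtype.ext
  funext q
  have h := chkA (idx p) (idx_lt p) (idx q) (idx_lt q)
  rw [e8_apply]
  have e1 : ((∑ j ∈ Finset.range 24, ac (idx p) j • yv (ysi j) : LL) : GolayPt → ℤ) q =
      ∑ j ∈ Finset.range 24, ac (idx p) j * (yv (ysi j) : GolayPt → ℤ) q := by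
    rw [AddSubmonoidClass.coe_finset_sum, Finset.sum_apply]
    apply Finset.sum_congr rfl
    intro j _
    simp only [AddSubgroup.coe_zsmul, Pi.smul_apply, smul_eq_mul]
  rw [e1]
  have e2 : ∀ j ∈ Finset.range 24, ac (idx p) j * (yv (ysi j) : GolayPt → ℤ) q =
      ac (idx p) j * (((byte (yc (ysi j)) (idx q) : ℕ) : ℤ) - 128) := by
    intro j hj
    have hj' : ysi j < 30 := by
      have := Finset.mem_range.1 hj
      unfold ysi
      omega
    rw [yv_val hj']
    rfl
  rw [Finset.sum_congr rfl e2, h]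
  by_cases hq : q = p
  · rw [if_pos hq, if_pos (by rw [hq])]
  · rw [if_neg hq, if_neg (fun e => hq (Cfsg.Agent.Lib.Golay.idx_injective e))]

theorem Kc6_trivial : Kc 6 = ⊥ := by
  rw [eq_bot_iff]
  intro g hg
  rw [Subgroup.mem_bot]
  apply co0_ext_frame
  intro p
  rw [frame_eq p]
  have h1 : ∀ v : LL, (g : Equiv.Perm leechLattice) v = toHom g v := fun _ => rfl
  rw [h1, map_sum]
  show _ = ∑ j ∈ Finset.range 24, ac (idx p) j • yv (ysi j)
  apply Finset.sum_congr rfl
  intro j hj
  have hj' := Finset.mem_range.1 hj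
  rw [map_zsmul]
  congr 1
  exact Kc_fix hg (j := 6) (l := j / 4) (by omega) le_rfl (i := j % 4) (by omega)

/-- The bound for the order of the centraliser. -/
theorem card_CA_le : Nat.card CA ≤ 6048000 := by
  have h0 := step0
  have h1 := stepj (j := 1) (by norm_num) (by norm_num) clChk1
  have h2 := stepj (j := 2) (by norm_num) (by norm_num) clChk2
  have h3 := stepj (j := 3) (by norm_num) (by norm_num) clChk3
  have h4 := stepj (j := 4) (by norm_num) (by norm_num) clChk4
  have h5 := stepj (j := 5) (by norm_num) (by norm_num) clChk5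
  have h6 : Nat.card (Kc 6) = 1 := by
    rw [Kc6_trivial]
    simp
  have e1 : clSz 1 = 5 := rfl
  have e2 : clSz 2 = 16 := rfl
  have e3 : clSz 3 = 1 := rfl
  have e4 : clSz 4 = 2 := rfl
  have e5 : clSz 5 = 1 := rfl
  rw [e1] at h1
  rw [e2] at h2
  rw [e3] at h3
  rw [e4] at h4
  rw [e5] at h5
  simp only [Nat.reduceAdd] at h1 h2 h3 h4 h5 h0
  have h7 : Nat.card CA = Nat.card (Kc 0) := rfl
  rw [h7]
  omega

end Cfsg.Agent.Lib.J25
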