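import Mathlib

set_option autoImplicit false
set_option linter.unusedVariables false

/-!
# A permutation representation from an action on a family of objects
-/

namespace Cfsg.Agent.Lib.J25Hom

section Abs

variable {A Y : Type*} [Group A] (ac : A → Y → Y) (h1 : ∀ y, ac 1 y = y) (h2 : ∀ a b y, ac (a * b) y = ac a (ac b y))
  {n : ℕ} (e : Fin n → Y) (he : Function.Injective e) (hinv : ∀ a j, ∃ k, ac a (e j) = e k)

/-- The index of an image. -/
noncomputable def idxOf (a : A) (j : Fin n) : Fin n := Classical.choose (hinv a j)

theorem idxOf_spec (a : A) (j : Fin n) : ac a (e j) = e (idxOf ac e hinv a j) := Classical.choose_spec (hinv a j)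

/-- The permutation representation. -/
noncomputable def famHom : A →* Equiv.Perm (Fin n) where
  toFun a :=
    { toFun := idxOf ac e hinv a
      invFun := idxOf ac e hinv a⁻¹
      left_inv := fun j => he (by
        rw [← idxOf_spec ac e hinv, ← idxOf_spec ac e hinv, ← h2, inv_mul_cancel, h1])
      right_inv := fun j => he (by
        rw [← idxOf_spec ac e hinv, ← idxOf_spec ac e hinv, ← h2, mul_inv_cancel, h1]) }
  map_one' := by
    ext j
    have h : e (idxOf ac e hinv 1 j) = e j := by
      rw [← idxOf_spec ac e hinv, h1]
    exact congrArg Fin.val (he h)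
  map_mul' a b := by
    ext j
    have h : e (idxOf ac e hinv (a * b) j) = e (idxOf ac e hinv a (idxOf ac e hinv b j)) := by
      rw [← idxOf_spec ac e hinv, ← idxOf_spec ac e hinv, ← idxOf_spec ac e hinv, h2]
    exact congrArg Fin.val (he h)

theorem famHom_spec (a : A) (j : Fin n) : ac a (e j) = e (famHom ac h1 h2 e he hinv a j) := idxOf_spec ac e hinv a j

theorem famHom_eq (a : A) (σ : Equiv.Perm (Fin n)) (h : ∀ j, ac a (e j) = e (σ j)) : famHom ac h1 h2 e he hinv a = σ := by
  ext j
  have h3 : e (famHom ac h1 h2 e he hinv a j) = e (σ j) := by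
    have h4 := famHom_spec ac h1 h2 e he hinv a j
    rw [← h4, h]
  exact congrArg Fin.val (he h3)

end Abs

/-- The order of the source. -/
theorem card_ker_mul_range {G P : Type*} [Group G] [Group P] (f : G →* P) :
    Nat.card f.ker * Nat.card f.range = Nat.card G := by
  rw [← Subgroup.index_ker]
  exact f.ker.card_mul_index

end Cfsg.Agent.Lib.J25Hom
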