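import Mathlib
import Cfsg.Agent.Lib.J25Blk
import Cfsg.Agent.Lib.J25Chain
import Cfsg.Agent.Lib.J25Hom

set_option autoImplicit false
set_option linter.unusedVariables false
set_option maxRecDepth 100000

/-!
# The quotient of the centraliser of the element of order five by the obvious normal subgroup

The centraliser permutes the 315 blocks of vectors; its image is the group `IcoP.Pg`.
-/

namespace Cfsg.Agent.Lib.J25

open Cfsg Cfsg.Agent.Lib.Leech Cfsg.Agent.Lib.Co0Mono Cfsg.Agent.Lib.CoVec Cfsg.Agent.Lib.CoConf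
open Cfsg.Agent.Lib.IcoChain (GT tbl)
open Cfsg.Agent.Lib.PermChain12 (Gp Gp_val)
open Cfsg.Agent.Lib.IcoP (Pg card_Pg)

theorem cd_parts {j l : ℕ} (hj : j < 315) (hl : l < 60) :
    (St (cd j l) ∧ sqN (cd j l) = 32) ∧ 2 * cd j l < negK ∧ cd j 0 ≤ cd j l := by
  have h := chkN_spec (chkN_spec chkCd j hj) l hl
  simp only [withN_eq, Bool.and_eq_true] at h
  obtain ⟨⟨h1, h2⟩, h3⟩ := h
  exact ⟨minQ_spec h1, lt_of_blt h2, Nat.le_of_ble_eq_true h3⟩

theorem cd_st {j l : ℕ} (hj : j < 315) (hl : l < 60) : St (cd j l) := (cd_parts hj hl).1.1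

theorem dec_actNeg {n : ℕ} (h : St n) : dec (actNeg n) = - dec n :=
  ((actNeg_spec n h).2).symm

theorem actNeg_st {n : ℕ} (h : St n) : St (actNeg n) := actNeg_spec.st h

/-- A block. -/
def blkSet (j : ℕ) : Set LL :=
  {w | ∃ l < 60, (w : GolayPt → ℤ) = dec (cd j l) ∨ (w : GolayPt → ℤ) = dec (actNeg (cd j l))}

theorem blk_neg {j : ℕ} (hj : j < 315) {w : LL} (hw : w ∈ blkSet j) : -w ∈ blkSet j := by
  obtain ⟨l, hl, h | h⟩ := hw
  · refine ⟨l, hl, Or.inr ?_⟩
    rw [dec_actNeg (cd_st hj hl), ← h]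
    rfl
  · refine ⟨l, hl, Or.inl ?_⟩
    rw [dec_actNeg (cd_st hj hl)] at h
    show - (w : GolayPt → ℤ) = _
    rw [h, neg_neg]

theorem inB_spec {k m : ℕ} (h : inB k m = true) : ∃ l < 60, m = cd k l := by
  unfold inB at h
  rw [Bool.not_eq_true'] at h
  obtain ⟨r, hr, e⟩ := chkN_false h
  refine ⟨r, hr, ?_⟩
  rw [Bool.not_eq_false'] at e
  exact Nat.eq_of_beq_eq_true e

theorem two192_lt : (2 : ℕ) ^ 192 ≤ negK := by decide +kernel

theorem inS_spec {k m : ℕ} (hm : m < 2 ^ 192) (h : inS k m = true) : ∃ l < 60, m = cd k l ∨ m = actNeg (cd k l) := by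
  unfold inS at h
  rw [withN_eq] at h
  by_cases hb : Nat.blt (Nat.mul 2 m) negK = true
  · rw [hb] at h
    obtain ⟨l, hl, e⟩ := inB_spec h
    exact ⟨l, hl, Or.inl e⟩
  · rw [eq_false_of_ne_true hb] at h
    obtain ⟨l, hl, e⟩ := inB_spec h
    refine ⟨l, hl, Or.inr ?_⟩
    have e' : actNeg m = cd k l := e
    rw [← e']
    have h1 : actNeg m = negK - m := rfl
    have h2 : actNeg (negK - m) = negK - (negK - m) := rfl
    rw [h1, h2]
    have := two192_lt
    generalize negK = K at *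
    omega

/-- It suffices to consider the vectors with the positive sign. -/
theorem blk_of_key {g : Co0} {j k : ℕ} (hj : j < 315) (hk : k < 315)
    (key : ∀ l < 60, ∀ v : LL, (v : GolayPt → ℤ) = dec (cd j l) → g • v ∈ blkSet k) {w : LL} (hw : w ∈ blkSet j) :
    g • w ∈ blkSet k := by
  obtain ⟨l, hl, h | h⟩ := hw
  · exact key l hl w h
  · have h2 : (-w : LL) = ⟨dec (cd j l), (cd_st hj hl).2.1⟩ := by
      apply Subtype.ext
      show - (w : GolayPt → ℤ) = _
      rw [h, dec_actNeg (cd_st hj hl), neg_neg]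
    have h3 := key l hl (-w) (by rw [h2])
    rw [smul_neg'] at h3
    have h4 := blk_neg hk h3
    rwa [neg_neg] at h4

theorem nxB_lt {l : ℕ} (hl : l < 60) : nxB l < 60 := by
  unfold nxB
  omega

/-- The action of the element of order five. -/
theorem xx_step {j l : ℕ} (hj : j < 315) (hl : l < 60) {v u : LL} (hu : (u : GolayPt → ℤ) = dec (cd j l))
    (hv : (v : GolayPt → ℤ) = dec (cd j (nxB l))) : xx • u = v ∨ xx • u = -v := by
  have hs := cd_st hj hl
  have h1 : withN (fx (cd j l)) (fun m => withN (cd j (nxB l)) fun c => Nat.beq m c || Nat.beq m (actNeg c)) = true :=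
    chkN_spec (chkN_spec genx j hj) l hl
  simp only [withN_eq, Bool.or_eq_true] at h1
  have h2 : ((xx • u : LL) : GolayPt → ℤ) = dec (fx (cd j l)) := by
    have h3 := (xx_acts _ hs).2
    have h4 : u = ⟨dec (cd j l), hs.2.1⟩ := Subtype.ext hu
    rw [h4]
    exact h3
  rcases h1 with h1 | h1
  · left
    apply Subtype.ext
    rw [h2, Nat.eq_of_beq_eq_true h1, hv]
  · right
    apply Subtype.ext
    rw [h2, Nat.eq_of_beq_eq_true h1, dec_actNeg (cd_st hj (nxB_lt hl)), ← hv]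
    rfl

theorem xx_blk {j : ℕ} (hj : j < 315) {w : LL} (hw : w ∈ blkSet j) : xx • w ∈ blkSet j := by
  refine blk_of_key hj hj ?_ hw
  intro l hl v hv
  have hl' := nxB_lt hl
  have hs := cd_st hj hl'
  have h1 : (⟨dec (cd j (nxB l)), hs.2.1⟩ : LL) ∈ blkSet j := ⟨_, hl', Or.inl rfl⟩
  rcases xx_step hj hl (v := ⟨dec (cd j (nxB l)), hs.2.1⟩) hv rfl with e | e
  · rw [e]
    exact h1
  · rw [e]
    exact blk_neg hj h1

/-- The image of a block under an element commuting with the element of order five. -/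
theorem rep_blk {t : Co0} {f σ : ℕ → ℕ} (ht : ActsOn t f) (hm : t * xx = xx * t) (hc : chkRep σ f = true)
    (hσ : ∀ j < 315, σ j < 315) {j : ℕ} (hj : j < 315) {w : LL} (hw : w ∈ blkSet j) : t • w ∈ blkSet (σ j) := by
  have hk := hσ j hj
  have key0 : ∀ r < 12, ∀ v : LL, (v : GolayPt → ℤ) = dec (cd j (5 * r)) → t • v ∈ blkSet (σ j) := by
    intro r hr v hv
    have hs := cd_st hj (l := 5 * r) (by omega)
    have h1 : withN (cd j (5 * r)) (fun n => inS (σ j) (f n)) = true := chkN_spec (chkN_spec hc j hj) r hr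
    rw [withN_eq] at h1
    obtain ⟨l', hl', e⟩ := inS_spec (ht _ hs).1 h1
    have h2 : ((t • v : LL) : GolayPt → ℤ) = dec (f (cd j (5 * r))) := by
      have h3 := (ht _ hs).2
      have h4 : v = ⟨dec (cd j (5 * r)), hs.2.1⟩ := Subtype.ext hv
      rw [h4]
      exact h3
    refine ⟨l', hl', ?_⟩
    rw [h2]
    rcases e with e | e
    · exact Or.inl (by rw [e])
    · exact Or.inr (by rw [e])
  have key1 : ∀ r < 12, ∀ i < 5, ∀ v : LL, (v : GolayPt → ℤ) = dec (cd j (5 * r + i)) → t • v ∈ blkSet (σ j) := by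
    intro r hr i
    induction i with
    | zero => exact fun _ v hv => key0 r hr v hv
    | succ i ih =>
      intro hi v hv
      have hl : 5 * r + i < 60 := by omega
      have hs := cd_st hj hl
      have hn : nxB (5 * r + i) = 5 * r + (i + 1) := by
        unfold nxB
        omega
      have h1 := ih (by omega) ⟨dec (cd j (5 * r + i)), hs.2.1⟩ rfl
      have h2 := xx_blk hk h1
      have e : t • xx • (⟨dec (cd j (5 * r + i)), hs.2.1⟩ : LL) = xx • t • (⟨dec (cd j (5 * r + i)), hs.2.1⟩ : LL) := by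
        rw [← mul_smul, ← mul_smul, hm]
      rcases xx_step hj hl (u := ⟨dec (cd j (5 * r + i)), hs.2.1⟩) (v := v) rfl (by rw [hn]; exact hv) with h3 | h3
      · rw [← h3, e]
        exact h2
      · have h4 : v = -(xx • (⟨dec (cd j (5 * r + i)), hs.2.1⟩ : LL)) := by
          rw [h3, neg_neg]
        rw [h4, smul_neg', e]
        exact blk_neg hk h2
  refine blk_of_key hj hk ?_ hw
  intro l hl v hv
  have e : l = 5 * (l / 5) + l % 5 := by omega
  rw [e] at hv
  exact key1 (l / 5) (by omega) (l % 5) (by omega) v hv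

theorem blk_ext {j k : ℕ} (hj : j < 315) (hk : k < 315) (h : blkSet j = blkSet k) : j = k := by
  have aux : ∀ {a b : ℕ}, a < 315 → b < 315 → blkSet a = blkSet b → cd b 0 ≤ cd a 0 := by
    intro a b ha hb e
    have h0 : (⟨dec (cd a 0), (cd_st ha (by norm_num)).2.1⟩ : LL) ∈ blkSet a := ⟨0, by norm_num, Or.inl rfl⟩
    rw [e] at h0
    obtain ⟨l, hl, h1 | h1⟩ := h0
    · have h2 := dec_injOn (cd_st ha (by norm_num)).1 (cd_st hb hl).1 h1
      rw [h2]
      exact (cd_parts hb hl).2.2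
    · have h2 := dec_injOn (cd_st ha (by norm_num)).1 (actNeg_st (cd_st hb hl)).1 h1
      have h3 := (cd_parts ha (l := 0) (by norm_num)).2.1
      have h4 := (cd_parts hb hl).2.1
      have h5 : actNeg (cd b l) = negK - cd b l := rfl
      rw [h5] at h2
      generalize negK = K at *
      omega
  have h1 := aux hj hk h
  have h2 := aux hk hj h.symm
  have h3 : cd j 0 = cd k 0 := le_antisymm h2 h1
  have h4 := chkN_spec (chkN_spec chkCdInj j hj) k hk
  simp only [Bool.or_eq_true, Bool.not_eq_true'] at h4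
  rcases h4 with h4 | h4
  · exact Nat.eq_of_beq_eq_true h4
  · rw [h3, Nat.beq_refl] at h4
    exact absurd h4 (by simp)

/-! ### The action on blocks -/

/-- The family of blocks. -/
def ee (j : Fin 315) : Set LL := blkSet j.1

theorem ee_inj : Function.Injective ee := fun j k h => Fin.ext (blk_ext j.2 k.2 h)

/-- The image of a set. -/
def im (g : Co0) (S : Set LL) : Set LL := (fun v => g • v) '' S

theorem im_one (S : Set LL) : im 1 S = S := by
  unfold im
  simp only [one_smul, Set.image_id']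

theorem im_mul (a b : Co0) (S : Set LL) : im (a * b) S = im a (im b S) := by
  unfold im
  rw [Set.image_image]
  simp only [mul_smul]

theorem im_inv_of {g : Co0} {S T : Set LL} (h : im g S = T) : im g⁻¹ T = S := by
  rw [← h, ← im_mul, inv_mul_cancel, im_one]

/-- The elements preserving the family of blocks. -/
noncomputable def T1 : Subgroup Co0 where
  carrier := {t | t ∈ CA ∧ (∀ j, ∃ k, im t (ee j) = ee k) ∧ (∀ j, ∃ k, im t⁻¹ (ee j) = ee k)}
  mul_mem' := by
    rintro a b ⟨ha, ha1, ha2⟩ ⟨hb, hb1, hb2⟩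
    refine ⟨CA.mul_mem ha hb, fun j => ?_, fun j => ?_⟩
    · obtain ⟨k, hk⟩ := hb1 j
      obtain ⟨l, hl⟩ := ha1 k
      exact ⟨l, by rw [im_mul, hk, hl]⟩
    · obtain ⟨k, hk⟩ := ha2 j
      obtain ⟨l, hl⟩ := hb2 k
      exact ⟨l, by rw [mul_inv_rev, im_mul, hk, hl]⟩
  one_mem' := ⟨CA.one_mem, fun j => ⟨j, im_one _⟩, fun j => ⟨j, by rw [inv_one, im_one]⟩⟩
  inv_mem' := by
    rintro a ⟨ha, ha1, ha2⟩
    exact ⟨CA.inv_mem ha, ha2, fun j => by
      rw [inv_inv]
      exact ha1 j⟩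

theorem T1_le : T1 ≤ CA := fun _ h => h.1

theorem mem_T1_of {g : Co0} (hg : g ∈ CA) (σ : Equiv.Perm (Fin 315)) (h : ∀ j, im g (ee j) = ee (σ j)) : g ∈ T1 := by
  refine ⟨hg, fun j => ⟨σ j, h j⟩, fun j => ⟨σ⁻¹ j, ?_⟩⟩
  apply im_inv_of
  have e : σ (σ⁻¹ j) = j := by simp
  rw [h, e]

theorem invG_four {l : ℕ} (hl : l < 4) : Cfsg.Agent.Lib.IcoChain.invG l = l := by
  interval_cases l <;> rfl

/-- The generators act on blocks. -/
theorem im_gen {t : Co0} {f : ℕ → ℕ} {l : ℕ} (hl : l < 4) (ht : ActsOn t f) (hm : t * xx = xx * t) (hc : chkRep (GT l) f = true)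
    (hs : t * t = 1) (j : Fin 315) : im t (ee j) = ee (Gp tbl l j) := by
  have hl' : l < 13 := by omega
  have hv : ∀ j : Fin 315, ((Gp tbl l j : Fin 315) : ℕ) = GT l j.1 := fun j => Gp_val tbl _ hl' j
  have hlt : ∀ j < 315, GT l j < 315 := by
    intro j hj
    rw [← hv ⟨j, hj⟩]
    exact (Gp tbl l _).2
  have hsub : ∀ j : Fin 315, ∀ w ∈ ee j, t • w ∈ ee (Gp tbl l j) := by
    intro j w hw
    have := rep_blk ht hm hc hlt j.2 hw
    show t • w ∈ blkSet ((Gp tbl l j : Fin 315) : ℕ)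
    rw [hv]
    exact this
  have hinv : Gp tbl l (Gp tbl l j) = j := by
    apply Fin.ext
    rw [hv, hv]
    have h1 := ((tbl l hl').2.2 j.1 j.2).2
    have h2 : Cfsg.Agent.Lib.IcoChain.invG l = l := invG_four hl
    rwa [h2] at h1
  apply Set.Subset.antisymm
  · rintro _ ⟨w, hw, rfl⟩
    exact hsub j w hw
  · intro w hw
    have h1 := hsub _ w hw
    rw [hinv] at h1
    refine ⟨t • w, h1, ?_⟩
    show t • t • w = w
    rw [← mul_smul, hs, one_smul]

theorem im_xx (j : Fin 315) : im xx (ee j) = ee j := by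
  have hsub : ∀ w ∈ ee j, xx • w ∈ ee j := fun w hw => xx_blk j.2 hw
  apply Set.Subset.antisymm
  · rintro _ ⟨w, hw, rfl⟩
    exact hsub w hw
  · intro w hw
    refine ⟨xx • xx • xx • xx • w, hsub _ (hsub _ (hsub _ (hsub _ hw))), ?_⟩
    show xx • xx • xx • xx • xx • w = w
    simp only [← mul_smul]
    have : xx * (xx * (xx * (xx * xx))) = 1 := by
      rw [← xx_pow]
      simp only [pow_succ, pow_zero, one_mul, mul_assoc]
    rw [this, one_smul]

theorem im_neg (j : Fin 315) : im negCo0 (ee j) = ee j := by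
  have hsub : ∀ w ∈ ee j, negCo0 • w ∈ ee j := fun w hw => blk_neg j.2 hw
  apply Set.Subset.antisymm
  · rintro _ ⟨w, hw, rfl⟩
    exact hsub w hw
  · intro w hw
    refine ⟨negCo0 • w, hsub w hw, ?_⟩
    show negCo0 • negCo0 • w = w
    show - - w = w
    exact neg_neg w

/-! ### The subgroup acting trivially -/

/-- The elements fixing all blocks. -/
noncomputable def Fx : Subgroup Co0 where
  carrier := {g | ∀ j, im g (ee j) = ee j}
  mul_mem' := by
    intro a b ha hb j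
    rw [im_mul, hb, ha]
  one_mem' := fun j => im_one _
  inv_mem' := by
    intro a ha j
    exact im_inv_of (ha j)

/-- The obvious subgroup. -/
noncomputable abbrev NN : Subgroup Co0 := AA ⊔ Subgroup.center Co0

theorem NN_le_Fx : NN ≤ Fx := by
  refine sup_le ?_ ?_
  · rw [Subgroup.zpowers_le]
    exact im_xx
  · intro z hz
    rcases Cfsg.Agent.Lib.Co0Frame.center_cases hz with rfl | rfl
    · exact Fx.one_mem
    · exact im_neg

theorem NN_le_CA : NN ≤ CA := by
  refine sup_le ?_ ?_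
  · rw [Subgroup.zpowers_le]
    exact mem_CA.2 rfl
  · intro z hz
    exact mem_CA.2 (Subgroup.mem_center_iff.1 hz xx).symm

theorem NN_le_T1 : NN ≤ T1 := fun g hg =>
  mem_T1_of (NN_le_CA hg) 1 (fun j => NN_le_Fx hg j)

theorem ten_le_NN : 10 ≤ Nat.card NN := by
  haveI := Cfsg.Agent.Lib.Co0Frame.finite_Co0
  have h1 : Nat.card AA ∣ Nat.card NN := Subgroup.card_dvd_of_le le_sup_left
  have h2 : Nat.card (Subgroup.center Co0) ∣ Nat.card NN := Subgroup.card_dvd_of_le le_sup_right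
  rw [card_AA] at h1
  rw [Cfsg.Agent.S0398.result] at h2
  have h3 : 5 * 2 ∣ Nat.card NN := Nat.Coprime.mul_dvd_of_dvd_of_dvd (by norm_num) h1 h2
  exact Nat.le_of_dvd Nat.card_pos h3

/-! ### The homomorphism -/

theorem card_ker_range {G P : Type*} [Group G] [Group P] (f : G →* P) :
    Nat.card f.ker * Nat.card f.range = Nat.card G := Cfsg.Agent.Lib.J25Hom.card_ker_mul_range f

theorem tt0_CA : tt0 ∈ CA := mem_CA.2 tt0_comm
theorem tt1_CA : tt1 ∈ CA := mem_CA.2 tt1_comm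
theorem tt2_CA : tt2 ∈ CA := mem_CA.2 tt2_comm
theorem tt3_CA : tt3 ∈ CA := mem_CA.2 tt3_comm

theorem im_tt0 (j : Fin 315) : im tt0 (ee j) = ee (Gp tbl 0 j) := im_gen (by norm_num) tt0_acts tt0_comm gen0 tt0_sq j
theorem im_tt1 (j : Fin 315) : im tt1 (ee j) = ee (Gp tbl 1 j) := im_gen (by norm_num) tt1_acts tt1_comm gen1 tt1_sq j
theorem im_tt2 (j : Fin 315) : im tt2 (ee j) = ee (Gp tbl 2 j) := im_gen (by norm_num) tt2_acts tt2_comm gen2 tt2_sq j
theorem im_tt3 (j : Fin 315) : im tt3 (ee j) = ee (Gp tbl 3 j) := im_gen (by norm_num) tt3_acts tt3_comm gen3 tt3_sq j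

theorem tt0_T1 : tt0 ∈ T1 := mem_T1_of tt0_CA _ im_tt0
theorem tt1_T1 : tt1 ∈ T1 := mem_T1_of tt1_CA _ im_tt1
theorem tt2_T1 : tt2 ∈ T1 := mem_T1_of tt2_CA _ im_tt2
theorem tt3_T1 : tt3 ∈ T1 := mem_T1_of tt3_CA _ im_tt3

section
variable (X : Subgroup Co0) (hX : X ≤ T1)

/-- The action on blocks. -/
noncomputable def homOn : X →* Equiv.Perm (Fin 315) :=
  Cfsg.Agent.Lib.J25Hom.famHom (A := X) (Y := Set LL) (fun a S => im (a : Co0) S) (fun S => im_one S)
    (fun a b S => im_mul _ _ S) ee ee_inj (fun a j => (hX a.2).2.1 j)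

variable {X hX}

theorem homOn_eq {g : Co0} (hg : g ∈ X) (σ : Equiv.Perm (Fin 315)) (h : ∀ j, im g (ee j) = ee (σ j)) :
    homOn X hX ⟨g, hg⟩ = σ :=
  Cfsg.Agent.Lib.J25Hom.famHom_eq _ _ _ _ _ _ _ _ h

theorem le_range (h0 : tt0 ∈ X) (h1 : tt1 ∈ X) (h2 : tt2 ∈ X) (h3 : tt3 ∈ X) : Pg ≤ (homOn X hX).range := by
  unfold Pg
  rw [Subgroup.closure_le]
  rintro _ ⟨l, hl, rfl⟩
  have hl' : l < 4 := hl
  simp only [zero_add]
  interval_cases l
  · exact ⟨⟨tt0, h0⟩, homOn_eq h0 _ im_tt0⟩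
  · exact ⟨⟨tt1, h1⟩, homOn_eq h1 _ im_tt1⟩
  · exact ⟨⟨tt2, h2⟩, homOn_eq h2 _ im_tt2⟩
  · exact ⟨⟨tt3, h3⟩, homOn_eq h3 _ im_tt3⟩

theorem le_ker : NN.subgroupOf X ≤ (homOn X hX).ker := by
  intro g hg
  rw [MonoidHom.mem_ker]
  have h1 : (g : Co0) ∈ NN := hg
  exact homOn_eq g.2 1 (fun j => NN_le_Fx h1 j)

theorem card_subgroupOf_NN (hN : NN ≤ X) : Nat.card (NN.subgroupOf X) = Nat.card NN :=
  Nat.card_congr (Subgroup.subgroupOfEquivOfLe hN).toEquiv

end

theorem T1_eq : T1 = CA := by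
  haveI := Cfsg.Agent.Lib.Co0Frame.finite_Co0
  apply Subgroup.eq_of_le_of_card_ge T1_le
  have hc := card_CA_le
  have h1 := card_ker_range (homOn T1 le_rfl)
  have h2 : Nat.card Pg ≤ Nat.card (homOn T1 le_rfl).range :=
    Subgroup.card_le_of_le (le_range tt0_T1 tt1_T1 tt2_T1 tt3_T1)
  have h3 : Nat.card (NN.subgroupOf T1) ≤ Nat.card (homOn T1 le_rfl).ker := Subgroup.card_le_of_le le_ker
  rw [card_subgroupOf_NN NN_le_T1] at h3
  rw [card_Pg] at h2
  have h4 := ten_le_NN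
  have h5 : 10 * 604800 ≤ Nat.card (homOn T1 le_rfl).ker * Nat.card (homOn T1 le_rfl).range :=
    Nat.mul_le_mul (h4.trans h3) h2
  rw [h1] at h5
  omega

theorem CA_le_T1 : CA ≤ T1 := T1_eq.ge

/-- The action of the centraliser on the blocks. -/
noncomputable def rho : CA →* Equiv.Perm (Fin 315) := homOn CA CA_le_T1

theorem rho_facts : rho.ker = NN.subgroupOf CA ∧ rho.range = Pg := by
  haveI := Cfsg.Agent.Lib.Co0Frame.finite_Co0
  have hc := card_CA_le
  have h1 := card_ker_range rho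
  have hle : Pg ≤ rho.range := le_range tt0_CA tt1_CA tt2_CA tt3_CA
  have hle2 : NN.subgroupOf CA ≤ rho.ker := le_ker
  have h2 : Nat.card Pg ≤ Nat.card rho.range := Subgroup.card_le_of_le hle
  have h3 : Nat.card (NN.subgroupOf CA) ≤ Nat.card rho.ker := Subgroup.card_le_of_le hle2
  have e3 := card_subgroupOf_NN NN_le_CA
  have h4 := ten_le_NN
  rw [card_Pg] at h2
  have h5 : 10 ≤ Nat.card (NN.subgroupOf CA) := by rw [e3]; exact h4
  have hk : Nat.card rho.ker ≤ Nat.card (NN.subgroupOf CA) := by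
    by_contra hlt
    have h6 : 11 ≤ Nat.card rho.ker := by omega
    have h7 : 11 * 604800 ≤ Nat.card rho.ker * Nat.card rho.range := Nat.mul_le_mul h6 h2
    rw [h1] at h7
    omega
  have hr : Nat.card rho.range ≤ Nat.card Pg := by
    rw [card_Pg]
    by_contra hlt
    have h6 : 604801 ≤ Nat.card rho.range := by omega
    have h7 : 10 * 604801 ≤ Nat.card rho.ker * Nat.card rho.range := Nat.mul_le_mul (h5.trans h3) h6
    rw [h1] at h7
    omega
  haveI : Finite Co0 := Cfsg.Agent.Lib.Co0Frame.finite_Co0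
  exact ⟨(Subgroup.eq_of_le_of_card_ge hle2 hk).symm, (Subgroup.eq_of_le_of_card_ge hle hr).symm⟩

/-- The main result of this part. -/
theorem bridge : ∃ _hn : (NN.subgroupOf CA).Normal, Nonempty (Pg ≃* (CA ⧸ NN.subgroupOf CA)) := by
  obtain ⟨h1, h2⟩ := rho_facts
  have hn : (NN.subgroupOf CA).Normal := by
    rw [← h1]
    exact rho.normal_ker
  refine ⟨hn, ⟨?_⟩⟩
  have e1 : CA ⧸ NN.subgroupOf CA ≃* CA ⧸ rho.ker := QuotientGroup.quotientMulEquivOfEq h1.symm
  have e2 : CA ⧸ rho.ker ≃* rho.range := QuotientGroup.quotientKerEquivRange rho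
  have e3 : rho.range ≃* Pg := MulEquiv.subgroupCongr h2
  exact ((e1.trans e2).trans e3).symm

end Cfsg.Agent.Lib.J25
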