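import Mathlib
import Cfsg.Agent.Lib.CharTwoLocal

set_option autoImplicit false
set_option linter.unusedVariables false

/-!
# The generalized Fitting subgroup when the quotient by a normal `2`-subgroup is simple
-/

namespace Cfsg.Agent.Lib.J25Hom

open Cfsg Cfsg.Agent.Lib.PCore

/-- The generalized Fitting subgroup is the kernel `Q` of a homomorphism onto a simple group which is no `2`-group,
when the kernel is a `2`-group and `h` acts on `Q` as no element of `Q` can. -/
theorem fstar_of_hom {X P : Type*} [Group X] [Finite X] [Group P] (ρ : X →* P)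
    (hS : IsSimpleGroup ρ.range) (hR : ¬ IsPGroup 2 ρ.range) (hQ : IsPGroup 2 ρ.ker)
    {q0 z h : X} (hq0 : q0 ∈ ρ.ker) (hc : ∀ q ∈ ρ.ker, q * q0 * q⁻¹ = q0 ∨ q * q0 * q⁻¹ = z * q0)
    (h1 : h * q0 * h⁻¹ ≠ q0) (h2 : h * q0 * h⁻¹ ≠ z * q0) :
    generalizedFittingSubgroup X = ρ.ker := by
  haveI : Fact (Nat.Prime 2) := ⟨Nat.prime_two⟩
  let f : X →* ρ.range := ρ.rangeRestrict
  have hf : Function.Surjective f := ρ.rangeRestrict_surjective
  have key : ∀ N : Subgroup X, N.Normal → N ≤ ρ.ker ∨ ∀ y : X, ∃ c ∈ N, ρ c = ρ y := by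
    intro N hN
    have hm : (N.map f).Normal := Subgroup.Normal.map hN f hf
    rcases hS.eq_bot_or_eq_top_of_normal _ hm with e | e
    · left
      intro c hc
      have h3 : f c ∈ N.map f := ⟨c, hc, rfl⟩
      rw [e, Subgroup.mem_bot] at h3
      have h4 := congrArg Subtype.val h3
      exact h4
    · right
      intro y
      have h3 : f y ∈ N.map f := by
        rw [e]
        exact Subgroup.mem_top _
      obtain ⟨c, hc, e2⟩ := h3
      exact ⟨c, hc, congrArg Subtype.val e2⟩
  have hcore : pCore 2 X = ρ.ker := by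
    apply le_antisymm
    · rcases key _ (pCore_normal 2 X) with h3 | h3
      · exact h3
      · exfalso
        apply hR
        rintro ⟨_, y, rfl⟩
        obtain ⟨c, hc1, e⟩ := h3 y
        obtain ⟨k, hk⟩ := isPGroup_pCore (G := X) 2 ⟨c, hc1⟩
        refine ⟨k, ?_⟩
        apply Subtype.ext
        show (ρ y) ^ 2 ^ k = 1
        rw [← e, ← map_pow]
        have h4 := congrArg Subtype.val hk
        have h5 : c ^ 2 ^ k = 1 := h4
        rw [h5, map_one]
    · exact le_pCore ρ.normal_ker hQ
  have hcen : Subgroup.centralizer (ρ.ker : Set X) ≤ ρ.ker := by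
    rcases key _ (Subgroup.normal_centralizer (H := ρ.ker)) with h3 | h3
    · exact h3
    · exfalso
      obtain ⟨c, hc1, e⟩ := h3 h
      have hqk : c⁻¹ * h ∈ ρ.ker := by
        rw [MonoidHom.mem_ker, map_mul, map_inv, e, inv_mul_cancel]
      have hh : h = c * (c⁻¹ * h) := by group
      have hcm : ∀ u ∈ ρ.ker, c * u * c⁻¹ = u := by
        intro u hu
        have := Subgroup.mem_centralizer_iff.1 hc1 u hu
        rw [← this]
        group
      have hconj : h * q0 * h⁻¹ = c * ((c⁻¹ * h) * q0 * (c⁻¹ * h)⁻¹) * c⁻¹ := by group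
      have hmem : (c⁻¹ * h) * q0 * (c⁻¹ * h)⁻¹ ∈ ρ.ker := ρ.normal_ker.conj_mem _ hq0 _
      rw [hcm _ hmem] at hconj
      rcases hc _ hqk with h4 | h4
      · exact h1 (hconj.trans h4)
      · exact h2 (hconj.trans h4)
  have := Cfsg.Agent.Lib.CharTwoLocal.generalizedFitting_eq_pCore (X := X) (p := 2) (by rw [hcore]; exact hcen)
  rw [this, hcore]

end Cfsg.Agent.Lib.J25Hom
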