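import Mathlib
import Cfsg.Prelude.Def_Classical

set_option autoImplicit false
set_option linter.all false

namespace Cfsg.Agent.Lib.OmegaFourTwo

open Matrix
open scoped MatrixGroups

/-- The index type. -/
abbrev I4 := (Fin 1 ⊕ Fin 1) ⊕ Fin 2
/-- The space. -/
abbrev V4 := I4 → ZMod 2
/-- The form. -/
abbrev q4 : V4 → ZMod 2 := Cfsg.quadFormMinus 1 (ZMod 2) 1 1

/-- coordinates -/
def mk4 (a b c d : ZMod 2) : V4 := fun i => match i with
  | .inl (.inl _) => a
  | .inl (.inr _) => b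
  | .inr k => if k = 0 then c else d

/-- The five singular vectors. -/
def s5 : Fin 5 → V4 := ![mk4 1 0 0 0, mk4 0 1 0 0, mk4 1 1 1 0, mk4 1 1 0 1, mk4 1 1 1 1]

theorem s5_inj : Function.Injective s5 := by decide +kernel

theorem s5_sing (i : Fin 5) : q4 (s5 i) = 0 := by revert i; decide +kernel

theorem s5_ne (i : Fin 5) : s5 i ≠ 0 := by revert i; decide +kernel

theorem sing_all (v : V4) (h1 : v ≠ 0) (h2 : q4 v = 0) : ∃ i, s5 i = v := by
  revert v; decide +kernel

/-- The column of the matrix of a permutation. -/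
def colM (σ : Equiv.Perm (Fin 5)) (j : I4) : V4 := match j with
  | .inl (.inl _) => s5 (σ 0)
  | .inl (.inr _) => s5 (σ 1)
  | .inr k => if k = 0 then s5 (σ 0) + s5 (σ 1) + s5 (σ 2) else s5 (σ 0) + s5 (σ 1) + s5 (σ 3)

/-- The matrix of a permutation. -/
def matM (σ : Equiv.Perm (Fin 5)) : Matrix I4 I4 (ZMod 2) := fun i j => colM σ j i

set_option maxRecDepth 100000 in
theorem matM_s5 (σ : Equiv.Perm (Fin 5)) (i : Fin 5) : matM σ *ᵥ s5 i = s5 (σ i) := by
  revert σ i; decide +kernel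

set_option maxRecDepth 100000 in
theorem matM_q (σ : Equiv.Perm (Fin 5)) (v : V4) : q4 (matM σ *ᵥ v) = q4 v := by
  revert σ v; decide +kernel

set_option maxRecDepth 100000 in
theorem matM_inv (σ : Equiv.Perm (Fin 5)) : matM σ * matM σ⁻¹ = 1 := by
  revert σ; decide +kernel

theorem matM_inv' (σ : Equiv.Perm (Fin 5)) : matM σ⁻¹ * matM σ = 1 := by
  have := matM_inv σ⁻¹
  rwa [inv_inv] at this

/-- The invertible matrix of a permutation. -/
def glM (σ : Equiv.Perm (Fin 5)) : GL I4 (ZMod 2) := ⟨matM σ, matM σ⁻¹, matM_inv σ, matM_inv' σ⟩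

/-- The isometry group. -/
abbrev O4 := Cfsg.isometryGroup (ZMod 2) q4

theorem glM_mem (σ : Equiv.Perm (Fin 5)) : glM σ ∈ O4 := by
  intro u v
  exact matM_q σ u

theorem O4_q (g : O4) (v : V4) : q4 (((g : GL I4 (ZMod 2)) : Matrix I4 I4 (ZMod 2)) *ᵥ v) = q4 v :=
  g.2 v 0

/-- The singular vectors as a type. -/
abbrev Sing := {v : V4 // v ≠ 0 ∧ q4 v = 0}

/-- The action on singular vectors. -/
def actSing (g : O4) (v : Sing) : Sing :=
  ⟨((g : GL I4 (ZMod 2)) : Matrix I4 I4 (ZMod 2)) *ᵥ v.1, by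
    intro e
    apply v.2.1
    have h : (((g⁻¹ : O4) : GL I4 (ZMod 2)) : Matrix I4 I4 (ZMod 2)) *ᵥ (((g : GL I4 (ZMod 2)) : Matrix I4 I4 (ZMod 2)) *ᵥ v.1) = (((g⁻¹ : O4) : GL I4 (ZMod 2)) : Matrix I4 I4 (ZMod 2)) *ᵥ (0 : V4) := by rw [e]
    rw [Matrix.mulVec_mulVec, Matrix.mulVec_zero] at h
    have h2 : (((g⁻¹ : O4) : GL I4 (ZMod 2)) : Matrix I4 I4 (ZMod 2)) * ((g : GL I4 (ZMod 2)) : Matrix I4 I4 (ZMod 2)) = 1 := by
      rw [← Units.val_mul, ← Subgroup.coe_mul, inv_mul_cancel]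
      rfl
    rw [h2, Matrix.one_mulVec] at h
    exact h, by
    rw [O4_q]; exact v.2.2⟩

theorem actSing_one (v : Sing) : actSing 1 v = v := by
  apply Subtype.ext
  show ((1 : GL I4 (ZMod 2)) : Matrix I4 I4 (ZMod 2)) *ᵥ v.1 = v.1
  simp

theorem actSing_mul (g h : O4) (v : Sing) : actSing (g * h) v = actSing g (actSing h v) := by
  apply Subtype.ext
  show (((g * h : O4) : GL I4 (ZMod 2)) : Matrix I4 I4 (ZMod 2)) *ᵥ v.1 =
    ((g : GL I4 (ZMod 2)) : Matrix I4 I4 (ZMod 2)) *ᵥ (((h : GL I4 (ZMod 2)) : Matrix I4 I4 (ZMod 2)) *ᵥ v.1)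
  rw [Matrix.mulVec_mulVec]
  rfl

/-- The permutation representation on singular vectors. -/
noncomputable def rhoS : O4 →* Equiv.Perm Sing where
  toFun g := ⟨actSing g, actSing g⁻¹, fun v => by rw [← actSing_mul, inv_mul_cancel, actSing_one],
    fun v => by rw [← actSing_mul, mul_inv_cancel, actSing_one]⟩
  map_one' := by
    ext v
    simp [actSing_one]
  map_mul' g h := by
    ext v
    simp [actSing_mul]

/-- Enumeration of singular vectors. -/
noncomputable def sEquiv : Fin 5 ≃ Sing :=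
  Equiv.ofBijective (fun i => ⟨s5 i, s5_ne i, s5_sing i⟩) (by
    constructor
    · intro i j e
      exact s5_inj (congrArg Subtype.val e)
    · rintro ⟨v, h1, h2⟩
      obtain ⟨i, hi⟩ := sing_all v h1 h2
      exact ⟨i, Subtype.ext hi⟩)

theorem sEquiv_val (i : Fin 5) : (sEquiv i).1 = s5 i := rfl

/-- The permutation representation on five points. -/
noncomputable def rho5 : O4 →* Equiv.Perm (Fin 5) :=
  (sEquiv.permCongrHom.symm.toMonoidHom).comp rhoS

theorem rho5_spec (g : O4) (i : Fin 5) :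
    s5 (rho5 g i) = ((g : GL I4 (ZMod 2)) : Matrix I4 I4 (ZMod 2)) *ᵥ s5 i := by
  have : sEquiv (rho5 g i) = rhoS g (sEquiv i) := by
    simp [rho5, Equiv.permCongrHom]
  have h2 := congrArg Subtype.val this
  exact h2

theorem rho5_glM (σ : Equiv.Perm (Fin 5)) : rho5 ⟨glM σ, glM_mem σ⟩ = σ := by
  ext i
  congr 1
  apply s5_inj
  rw [rho5_spec]
  exact matM_s5 σ i

/-- Basis vectors in terms of the singular vectors. -/
theorem rho5_inj : Function.Injective rho5 := by
  rw [injective_iff_map_eq_one]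
  intro g hg
  have h1 : ∀ i, ((g : GL I4 (ZMod 2)) : Matrix I4 I4 (ZMod 2)) *ᵥ s5 i = s5 i := by
    intro i
    rw [← rho5_spec, hg]
    rfl
  set M := ((g : GL I4 (ZMod 2)) : Matrix I4 I4 (ZMod 2)) with hM
  have hadd : ∀ u v w : V4, M *ᵥ u = u → M *ᵥ v = v → M *ᵥ w = w → M *ᵥ (u + v + w) = u + v + w := by
    intro u v w hu hv hw
    rw [Matrix.mulVec_add, Matrix.mulVec_add, hu, hv, hw]
  have hbasis : ∀ j : I4, M *ᵥ (Pi.single j 1) = Pi.single j 1 := by
    have e0 : (Pi.single (.inl (.inl 0)) 1 : V4) = s5 0 := by decide +kernel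
    have e1 : (Pi.single (.inl (.inr 0)) 1 : V4) = s5 1 := by decide +kernel
    have e2 : (Pi.single (.inr 0) 1 : V4) = s5 0 + s5 1 + s5 2 := by decide +kernel
    have e3 : (Pi.single (.inr 1) 1 : V4) = s5 0 + s5 1 + s5 3 := by decide +kernel
    intro j
    rcases j with (j | j) | j
    · have : j = 0 := Subsingleton.elim _ _
      subst this
      rw [e0]; exact h1 0
    · have : j = 0 := Subsingleton.elim _ _
      subst this
      rw [e1]; exact h1 1
    · fin_cases j
      · show M *ᵥ (Pi.single (.inr 0) 1) = Pi.single (.inr 0) 1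
        rw [e2]; exact hadd _ _ _ (h1 0) (h1 1) (h1 2)
      · show M *ᵥ (Pi.single (.inr 1) 1) = Pi.single (.inr 1) 1
        rw [e3]; exact hadd _ _ _ (h1 0) (h1 1) (h1 3)
  have hM1 : M = 1 := by
    ext i j
    have := congrFun (hbasis j) i
    rw [Matrix.mulVec_single_one] at this
    simpa [Matrix.one_apply, Pi.single_apply, eq_comm] using this
  apply Subtype.ext
  apply Units.ext
  exact hM1

/-- The isometry group is the symmetric group of degree five. -/
noncomputable def o4Equiv : O4 ≃* Equiv.Perm (Fin 5) :=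
  MulEquiv.ofBijective rho5 ⟨rho5_inj, fun σ => ⟨_, rho5_glM σ⟩⟩

/-- The group `Ω⁻₄(2)` is the alternating group of degree five. -/
theorem omega_equiv : Nonempty (Cfsg.Omega (ZMod 2) (Cfsg.quadFormMinus 1 (ZMod 2) 1 1) ≃* alternatingGroup (Fin 5)) := by
  have h1 : (commutator O4).map o4Equiv.toMonoidHom = commutator (Equiv.Perm (Fin 5)) := by
    rw [commutator_def, Subgroup.map_commutator, commutator_def]
    have : (⊤ : Subgroup O4).map o4Equiv.toMonoidHom = ⊤ := by
      rw [← MonoidHom.range_eq_map]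
      exact MonoidHom.range_eq_top.2 o4Equiv.surjective
    rw [this]
  have h2 : commutator (Equiv.Perm (Fin 5)) = alternatingGroup (Fin 5) :=
    alternatingGroup.commutator_perm_eq (by simp)
  rw [h2] at h1
  exact ⟨(o4Equiv.subgroupMap (commutator O4)).trans (MulEquiv.subgroupCongr h1)⟩

end Cfsg.Agent.Lib.OmegaFourTwo
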