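import Mathlib
import Cfsg.Agent.Lib.J25SD
import Cfsg.Agent.Lib.J25Hom
import Cfsg.Agent.Lib.J25FStar
import Cfsg.Agent.Lib.IcoP
import Cfsg.Agent.Lib.GenCyclesSix
import Cfsg.Agent.Lib.OmegaFourTwo
import Cfsg.Agent.Lib.LargeQuot

set_option autoImplicit false
set_option linter.unusedVariables false
set_option maxRecDepth 100000

/-!
# An involution of the group of degree 315 and its centraliser
-/

namespace Cfsg.Agent.Lib.J25S

open Cfsg Cfsg.Agent.Lib.PermChain12 Cfsg.Agent.Lib.J25Hom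
open Cfsg.Agent.Lib.IcoChain (GT tbl)
open Cfsg.Agent.Lib.IcoP (Pg K1 K1_le K1_fix card_K1 card_Pg prim gen_mem isSimple_Pg)

/-- The table of the normal subgroup. -/
noncomputable def GQ (i x : ℕ) : ℕ := tg 9 511 (pick [QT0,QT1,QT2,QT3,QT4,QT5,QT6,QT7,QT8,QT9,QT10,QT11,QT12,QT13,QT14,QT15,QT16,QT17,QT18,QT19,QT20,QT21,QT22,QT23,QT24,QT25,QT26,QT27,QT28,QT29,QT30,QT31] i) x

noncomputable def invQ (i : ℕ) : ℕ := pick invL i

theorem tblQ_chk : tblChk 315 9 32 5 GQ invQ = true := by decide +kernel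

theorem tblQ : TblOK 315 32 GQ invQ := tblOK_of_chk (by norm_num) (by norm_num) tblQ_chk

/-- The elements. -/
noncomputable def EQ (i : ℕ) : Equiv.Perm (Fin 315) := Gp tblQ i

theorem EQ_val {i : ℕ} (hi : i < 32) (x : Fin 315) : (EQ i x).val = GQ i x.val := Gp_val tblQ i hi x

/-- Words. -/
def qW (i : ℕ) : List ℕ := qWL.getD i []

theorem qW_lt : ∀ i < 32, ∀ l ∈ qW i, l < 4 := by decide +kernel

theorem qW_chk : allB 32 5 (fun i => allB 315 9 fun x =>
    Nat.beq (walkF (fun l y => GT (4 + l) y) (qW i) x) (GQ i x)) = true := by decide +kernel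

theorem EQ_eq_wval {i : ℕ} (hi : i < 32) : wval (fun l => Gp tbl (4 + l)) (qW i) = EQ i := by
  ext x
  rw [wval_Gp tbl 4 _ (fun l hl => by have := qW_lt i hi l hl; omega), EQ_val hi]
  have h := allB_spec _ _ _ (by norm_num) (allB_spec _ _ _ (by norm_num) qW_chk i hi) x.val x.2
  rw [walkF_eq] at h
  exact Nat.eq_of_beq_eq_true h

theorem EQ_mem {i : ℕ} (hi : i < 32) : EQ i ∈ K1 := by
  rw [← EQ_eq_wval hi]
  apply wval_mem
  intro l hl
  exact Subgroup.subset_closure ⟨l, qW_lt i hi l hl, rfl⟩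

/-- The involution. -/
noncomputable def zz : Equiv.Perm (Fin 315) := EQ 1

theorem zz_val (x : Fin 315) : (zz x).val = GQ 1 x.val := EQ_val (by norm_num) x

theorem perm_ext {a b : Equiv.Perm (Fin 315)} (h : ∀ x : Fin 315, (a x).val = (b x).val) : a = b :=
  Equiv.ext fun x => Fin.ext (h x)

theorem K_val {l : ℕ} (hl : l < 13) (x : Fin 315) : ((Gp tbl l) x).val = GT l x.val := Gp_val tbl l hl x

theorem kg_comm_chk : allB 4 2 (fun l => allB 315 9 fun x =>
    Nat.beq (GT (4 + l) (GQ 1 x)) (GQ 1 (GT (4 + l) x))) = true := by decide +kernel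

theorem K1_le_cent : K1 ≤ Subgroup.centralizer ({zz} : Set (Equiv.Perm (Fin 315))) := by
  unfold K1
  rw [Subgroup.closure_le]
  rintro _ ⟨l, hl, rfl⟩
  have hl' : l < 4 := hl
  refine Subgroup.mem_centralizer_iff.2 ?_
  rintro _ rfl
  apply perm_ext
  intro x
  have h := allB_spec _ _ _ (by norm_num) (allB_spec _ _ _ (by norm_num) kg_comm_chk l hl') x.val x.2
  have h2 := Nat.eq_of_beq_eq_true h
  simp only [Equiv.Perm.mul_apply]
  rw [zz_val, K_val (by omega), K_val (by omega), zz_val]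
  exact h2.symm

theorem K1_comm {k : Equiv.Perm (Fin 315)} (hk : k ∈ K1) : zz * k = k * zz :=
  Subgroup.mem_centralizer_iff.1 (K1_le_cent hk) zz rfl

/-- The involution in the group. -/
noncomputable def zP : Pg := ⟨zz, K1_le (EQ_mem (by norm_num))⟩

/-- The centraliser. -/
noncomputable abbrev XX : Subgroup Pg := Subgroup.centralizer ({zP} : Set Pg)

theorem mem_XX_of_K1 {y : Pg} (hy : y.1 ∈ K1) : y ∈ XX := by
  refine Subgroup.mem_centralizer_iff.2 ?_
  rintro _ rfl
  exact Subtype.ext (K1_comm hy)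

theorem zg_ne : GQ 1 (GT 0 0) ≠ GT 0 (GQ 1 0) := by decide +kernel

theorem zz_not_central : zz * Gp tbl 0 ≠ Gp tbl 0 * zz := by
  intro h
  have h1 := congrArg (fun f : Equiv.Perm (Fin 315) => (f 0).val) h
  simp only [Equiv.Perm.mul_apply] at h1
  rw [zz_val, K_val (by norm_num), K_val (by norm_num), zz_val] at h1
  exact zg_ne h1

theorem XX_ne_top : XX ≠ ⊤ := by
  intro h
  have h1 : (⟨Gp tbl 0, gen_mem (by norm_num)⟩ : Pg) ∈ XX := by
    rw [h]
    exact Subgroup.mem_top _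
  have h2 := Subgroup.mem_centralizer_iff.1 h1 zP rfl
  exact zz_not_central (congrArg Subtype.val h2)

theorem stab_eq : MulAction.stabilizer Pg (0 : Fin 315) = K1.subgroupOf Pg := by
  have h := Cfsg.Agent.Lib.IcoChain.lev0.stabilizer_eq
  have e0 : (⟨Cfsg.Agent.Lib.IcoChain.D0 0 % 315, Nat.mod_lt _ (by norm_num)⟩ : Fin 315) = 0 := by
    apply Fin.ext
    show Cfsg.Agent.Lib.IcoChain.D0 0 % 315 = 0
    rw [Cfsg.Agent.Lib.IcoP.D0_zero]
  simp only [e0] at h
  exact h

theorem K1_of_mem_XX {y : Pg} (hy : y ∈ XX) : y.1 ∈ K1 := by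
  have hc : IsCoatom (MulAction.stabilizer Pg (0 : Fin 315)) :=
    (MulAction.isCoatom_stabilizer_iff_preprimitive (G := Pg) (X := Fin 315) 0).2 prim
  have hle : MulAction.stabilizer Pg (0 : Fin 315) ≤ XX := by
    rw [stab_eq]
    intro k hk
    exact mem_XX_of_K1 hk
  rcases hle.eq_or_lt with h | h
  · rw [← h, stab_eq] at hy
    exact hy
  · exact absurd (hc.2 _ h) XX_ne_top

/-- Elements of the centraliser. -/
noncomputable def toXX (k : Equiv.Perm (Fin 315)) (hk : k ∈ K1) : XX := ⟨⟨k, K1_le hk⟩, mem_XX_of_K1 hk⟩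

theorem card_XX : Nat.card XX = 1920 := by
  rw [← card_K1]
  exact Nat.card_congr
    { toFun := fun a => ⟨a.1.1, K1_of_mem_XX a.2⟩
      invFun := fun k => toXX k.1 k.2
      left_inv := fun a => rfl
      right_inv := fun k => rfl }

/-! ### The five blocks -/

/-- The label of a point. -/
noncomputable def lb (x : ℕ) : ℕ := tg 3 7 lbT x

/-- The blocks. -/
def eB (j : Fin 5) : Set (Fin 315) := {x | lb x.val = j.val}

/-- A point of a block. -/
def repB (j : ℕ) : ℕ := [1, 19, 20, 21, 22].getD j 0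

theorem repB_chk : ∀ j < 5, repB j < 315 ∧ lb (repB j) = j := by decide +kernel

theorem eB_inj : Function.Injective eB := by
  intro j k h
  have h1 := repB_chk j.1 j.2
  have h2 : (⟨repB j.1, h1.1⟩ : Fin 315) ∈ eB j := h1.2
  rw [h] at h2
  have h3 : lb (repB j.1) = k.1 := h2
  exact Fin.ext (h1.2.symm.trans h3)

theorem image_eB {g : Equiv.Perm (Fin 315)} {σ : Equiv.Perm (Fin 5)}
    (h : ∀ (x : Fin 315) (j : Fin 5), lb x.val = j.val ↔ lb (g x).val = (σ j).val) (j : Fin 5) :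
    g '' eB j = eB (σ j) := by
  ext y
  constructor
  · rintro ⟨x, hx, rfl⟩
    exact (h x j).1 hx
  · intro hy
    have e : g (g⁻¹ y) = y := by simp
    refine ⟨g⁻¹ y, (h _ j).2 ?_, e⟩
    rw [e]
    exact hy

/-- The permutations of the generators. -/
def tau0 : Equiv.Perm (Fin 5) := ⟨![1, 4, 0, 2, 3], ![2, 0, 3, 4, 1], by decide, by decide⟩
def tau1 : Equiv.Perm (Fin 5) := ⟨![0, 4, 1, 3, 2], ![0, 2, 4, 3, 1], by decide, by decide⟩
def tau2 : Equiv.Perm (Fin 5) := ⟨![2, 0, 3, 4, 1], ![1, 4, 0, 2, 3], by decide, by decide⟩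
def tau3 : Equiv.Perm (Fin 5) := ⟨![0, 2, 4, 3, 1], ![0, 4, 1, 3, 2], by decide, by decide⟩

/-- Equality of truth values. -/
def bEq : Bool → Bool → Bool
  | true, true => true
  | false, false => true
  | _, _ => false

theorem chk_tau0 : allB 315 9 (fun x => allB 5 3 fun j =>
    bEq (Nat.beq (lb x) j) (Nat.beq (lb (GT 4 x)) ([1, 4, 0, 2, 3].getD j 0))) = true := by decide +kernel
theorem chk_tau1 : allB 315 9 (fun x => allB 5 3 fun j =>
    bEq (Nat.beq (lb x) j) (Nat.beq (lb (GT 5 x)) ([0, 4, 1, 3, 2].getD j 0))) = true := by decide +kernel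
theorem chk_tau2 : allB 315 9 (fun x => allB 5 3 fun j =>
    bEq (Nat.beq (lb x) j) (Nat.beq (lb (GT 6 x)) ([2, 0, 3, 4, 1].getD j 0))) = true := by decide +kernel
theorem chk_tau3 : allB 315 9 (fun x => allB 5 3 fun j =>
    bEq (Nat.beq (lb x) j) (Nat.beq (lb (GT 7 x)) ([0, 2, 4, 3, 1].getD j 0))) = true := by decide +kernel

theorem bool_iff {a b : Bool} (h : bEq a b = true) : a = true ↔ b = true := by
  cases a <;> cases b <;> simp_all [bEq]

theorem lb_iff {l : ℕ} (hl : l < 13) {σ : Equiv.Perm (Fin 5)} {L : List ℕ}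
    (hσ : ∀ j : Fin 5, (σ j).val = L.getD j.val 0)
    (hc : allB 315 9 (fun x => allB 5 3 fun j =>
      bEq (Nat.beq (lb x) j) (Nat.beq (lb (GT l x)) (L.getD j 0))) = true) (j : Fin 5) :
    Gp tbl l '' eB j = eB (σ j) := by
  apply image_eB
  intro x j
  have h := allB_spec _ _ _ (by norm_num) (allB_spec _ _ _ (by norm_num) hc x.val x.2) j.val j.2
  have h2 := bool_iff h
  rw [K_val hl, hσ]
  constructor
  · intro e
    exact Nat.eq_of_beq_eq_true (h2.1 (by rw [e]; exact Nat.beq_refl _))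
  · intro e
    exact Nat.eq_of_beq_eq_true (h2.2 (by rw [e]; exact Nat.beq_refl _))

theorem im0 (j : Fin 5) : Gp tbl 4 '' eB j = eB (tau0 j) :=
  lb_iff (by norm_num) (L := [1, 4, 0, 2, 3]) (by decide) chk_tau0 j
theorem im1 (j : Fin 5) : Gp tbl 5 '' eB j = eB (tau1 j) :=
  lb_iff (by norm_num) (L := [0, 4, 1, 3, 2]) (by decide) chk_tau1 j
theorem im2 (j : Fin 5) : Gp tbl 6 '' eB j = eB (tau2 j) :=
  lb_iff (by norm_num) (L := [2, 0, 3, 4, 1]) (by decide) chk_tau2 j
theorem im3 (j : Fin 5) : Gp tbl 7 '' eB j = eB (tau3 j) :=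
  lb_iff (by norm_num) (L := [0, 2, 4, 3, 1]) (by decide) chk_tau3 j

/-- The permutations preserving the family of blocks. -/
def T2 : Subgroup (Equiv.Perm (Fin 315)) where
  carrier := {t | (∀ j, ∃ k, t '' eB j = eB k) ∧ (∀ j, ∃ k, (t⁻¹ : Equiv.Perm (Fin 315)) '' eB j = eB k)}
  mul_mem' := by
    rintro a b ⟨ha1, ha2⟩ ⟨hb1, hb2⟩
    refine ⟨fun j => ?_, fun j => ?_⟩
    · obtain ⟨k, hk⟩ := hb1 j
      obtain ⟨l, hl⟩ := ha1 k
      refine ⟨l, ?_⟩
      rw [Equiv.Perm.coe_mul, Set.image_comp, hk, hl]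
    · obtain ⟨k, hk⟩ := ha2 j
      obtain ⟨l, hl⟩ := hb2 k
      refine ⟨l, ?_⟩
      rw [mul_inv_rev, Equiv.Perm.coe_mul, Set.image_comp, hk, hl]
  one_mem' := ⟨fun j => ⟨j, by simp⟩, fun j => ⟨j, by simp⟩⟩
  inv_mem' := by
    rintro a ⟨ha1, ha2⟩
    exact ⟨ha2, by simpa using ha1⟩

theorem mem_T2_of {g : Equiv.Perm (Fin 315)} {σ : Equiv.Perm (Fin 5)} (h : ∀ j, g '' eB j = eB (σ j)) : g ∈ T2 := by
  refine ⟨fun j => ⟨σ j, h j⟩, fun j => ⟨σ⁻¹ j, ?_⟩⟩
  have h1 := h (σ⁻¹ j)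
  have e : σ (σ⁻¹ j) = j := by simp
  rw [e] at h1
  rw [← h1, ← Set.image_comp, ← Equiv.Perm.coe_mul, inv_mul_cancel]
  simp

theorem K1_le_T2 : K1 ≤ T2 := by
  unfold K1
  rw [Subgroup.closure_le]
  rintro _ ⟨l, hl, rfl⟩
  have hl' : l < 4 := hl
  interval_cases l
  · exact mem_T2_of im0
  · exact mem_T2_of im1
  · exact mem_T2_of im2
  · exact mem_T2_of im3

/-- The homomorphism to the group of degree five. -/
noncomputable def rho : XX →* Equiv.Perm (Fin 5) :=
  famHom (A := XX) (Y := Set (Fin 315)) (fun a S => (a.1.1 : Equiv.Perm (Fin 315)) '' S)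
    (fun S => by simp)
    (fun a b S => by
      show ((a.1.1 * b.1.1 : Equiv.Perm (Fin 315))) '' S = _
      rw [Equiv.Perm.coe_mul, Set.image_comp])
    eB eB_inj (fun a j => (K1_le_T2 (K1_of_mem_XX a.2)).1 j)

theorem rho_eq (a : XX) (σ : Equiv.Perm (Fin 5)) (h : ∀ j, (a.1.1 : Equiv.Perm (Fin 315)) '' eB j = eB (σ j)) : rho a = σ :=
  famHom_eq _ _ _ _ _ _ _ _ h

theorem order_tau : orderOf tau1 = 3 ∧ orderOf tau0 = 5 := by
  haveI : Fact (Nat.Prime 3) := ⟨by norm_num⟩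
  haveI : Fact (Nat.Prime 5) := ⟨by norm_num⟩
  exact ⟨orderOf_eq_prime (by decide) (by decide), orderOf_eq_prime (by decide) (by decide)⟩

theorem K_mem {l : ℕ} (hl : l < 4) : Gp tbl (4 + l) ∈ K1 := Subgroup.subset_closure ⟨l, hl, rfl⟩

theorem A5_le : alternatingGroup (Fin 5) ≤ rho.range := by
  rw [← Cfsg.Agent.Lib.GenCyclesSix.closure_eq_alternating_five order_tau.1 order_tau.2, Subgroup.closure_le]
  intro s hs
  rcases hs with rfl | hs
  · exact ⟨toXX (Gp tbl 5) (K_mem (l := 1) (by norm_num)), rho_eq _ _ im1⟩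
  · rw [Set.mem_singleton_iff] at hs
    rw [hs]
    exact ⟨toXX (Gp tbl 4) (K_mem (l := 0) (by norm_num)), rho_eq _ _ im0⟩

/-! ### The kernel -/

theorem lb_chk : allB 32 5 (fun i => allB 315 9 fun x => Nat.beq (lb (GQ i x)) (lb x)) = true := by decide +kernel

theorem rho_EQ {i : ℕ} (hi : i < 32) : rho (toXX (EQ i) (EQ_mem hi)) = 1 := by
  apply rho_eq
  intro j
  apply image_eB (σ := 1)
  intro x j
  show _ ↔ lb ((EQ i) x).val = _
  rw [EQ_val hi]
  have h := Nat.eq_of_beq_eq_true (allB_spec _ _ _ (by norm_num) (allB_spec _ _ _ (by norm_num) lb_chk i hi) x.val x.2)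
  rw [h]
  rfl

/-- The kernel elements. -/
noncomputable def qK (i : Fin 32) : rho.ker := ⟨toXX (EQ i.1) (EQ_mem i.2), rho_EQ i.2⟩

theorem qK_val (i : Fin 32) : ((qK i : XX) : Pg).1 = EQ i.1 := rfl

theorem inj_chk : allB 32 5 (fun i => allB 32 5 fun j => Nat.beq i j || !(Nat.beq (GQ i 27) (GQ j 27))) = true := by
  decide +kernel

theorem qK_inj : Function.Injective qK := by
  intro i j h
  have h1 : EQ i.1 = EQ j.1 := congrArg (fun a : rho.ker => ((a : XX) : Pg).1) h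
  have h2 : ((EQ i.1) 27).val = ((EQ j.1) 27).val := congrArg (fun f : Equiv.Perm (Fin 315) => (f 27).val) h1
  rw [EQ_val i.2, EQ_val j.2] at h2
  have h3 := allB_spec _ _ _ (by norm_num) (allB_spec _ _ _ (by norm_num) inj_chk i.1 i.2) j.1 j.2
  simp only [Bool.or_eq_true, Bool.not_eq_true'] at h3
  rcases h3 with h3 | h3
  · exact Fin.ext (Nat.eq_of_beq_eq_true h3)
  · have h4 : GQ i.1 27 = GQ j.1 27 := h2
    rw [h4, Nat.beq_refl] at h3
    exact absurd h3 (by simp)

theorem card_A5 : Nat.card (alternatingGroup (Fin 5)) = 60 := by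
  rw [Nat.card_eq_fintype_card]
  decide +kernel

theorem rho_cards : Nat.card rho.ker = 32 ∧ Nat.card rho.range = 60 := by
  have h1 := card_ker_mul_range rho
  rw [card_XX] at h1
  have h2 : 32 ≤ Nat.card rho.ker := by
    have h3 := Nat.card_le_card_of_injective qK qK_inj
    simpa using h3
  have h4 : 60 ≤ Nat.card rho.range := by
    rw [← card_A5]
    exact Subgroup.card_le_of_le A5_le
  constructor
  · by_contra hne
    have h5 : 33 ≤ Nat.card rho.ker := by omega
    have h6 := Nat.mul_le_mul h5 h4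
    omega
  · by_contra hne
    have h5 : 61 ≤ Nat.card rho.range := by omega
    have h6 := Nat.mul_le_mul h2 h5
    omega

theorem range_eq : rho.range = alternatingGroup (Fin 5) :=
  (Subgroup.eq_of_le_of_card_ge A5_le (by rw [rho_cards.2, card_A5])).symm

theorem qK_surj : Function.Surjective qK := by
  have h : Nat.card (Fin 32) = Nat.card rho.ker := by
    rw [rho_cards.1]
    simp
  haveI : Finite rho.ker := Nat.finite_of_card_ne_zero (by rw [rho_cards.1]; norm_num)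
  exact ((Nat.bijective_iff_injective_and_card _).2 ⟨qK_inj, h⟩).2

theorem exists_qK (a : rho.ker) : ∃ i : Fin 32, a = qK i := by
  obtain ⟨i, hi⟩ := qK_surj a
  exact ⟨i, hi.symm⟩

theorem isP : IsPGroup 2 rho.ker := IsPGroup.of_card (n := 5) (by rw [rho_cards.1]; norm_num)

/-! ### The relations -/

theorem chkC : allB 32 5 (fun i => allB 32 5 fun j =>
    (allB 315 9 fun x => Nat.beq (GQ i (GQ j x)) (GQ j (GQ i x))) ||
    (allB 315 9 fun x => Nat.beq (GQ i (GQ j x)) (GQ 1 (GQ j (GQ i x))))) = true := by decide +kernel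

theorem chkS : allB 32 5 (fun i =>
    (allB 315 9 fun x => Nat.beq (GQ i (GQ i x)) x) ||
    (allB 315 9 fun x => Nat.beq (GQ i (GQ i x)) (GQ 1 x))) = true := by decide +kernel

theorem chk0 : allB 315 9 (fun x => Nat.beq (GQ 0 x) x) = true := by decide +kernel

def njL : List ℕ := [0, 0, 16, 5, 5, 3, 3, 3, 3, 3, 3, 3, 3, 5, 5, 16, 2, 2, 2, 2, 2, 2, 2, 2, 2, 2, 2, 2, 2, 2, 2, 2]
def nxL : List ℕ := [0, 0, 2, 2, 2, 2, 2, 2, 2, 2, 2, 2, 2, 2, 2, 2, 2, 2, 2, 2, 2, 2, 2, 2, 2, 2, 2, 2, 2, 2, 2, 2]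

theorem chkN : allB 32 5 (fun i => Nat.ble i 1 || (Nat.blt (njL.getD i 0) 32 && Nat.blt (nxL.getD i 0) 315 &&
    !(Nat.beq (GQ i (GQ (njL.getD i 0) (nxL.getD i 0))) (GQ (njL.getD i 0) (GQ i (nxL.getD i 0)))))) = true := by
  decide +kernel

theorem EQ_comm (i j : Fin 32) : EQ i * EQ j = EQ j * EQ i ∨ EQ i * EQ j = zz * (EQ j * EQ i) := by
  have h := allB_spec _ _ _ (by norm_num) (allB_spec _ _ _ (by norm_num) chkC i.1 i.2) j.1 j.2
  simp only [Bool.or_eq_true] at h
  rcases h with h | h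
  · left
    apply perm_ext
    intro x
    have h1 := Nat.eq_of_beq_eq_true (allB_spec _ _ _ (by norm_num) h x.val x.2)
    simp only [Equiv.Perm.mul_apply]
    rw [EQ_val i.2, EQ_val j.2, EQ_val j.2, EQ_val i.2]
    exact h1
  · right
    apply perm_ext
    intro x
    have h1 := Nat.eq_of_beq_eq_true (allB_spec _ _ _ (by norm_num) h x.val x.2)
    simp only [Equiv.Perm.mul_apply]
    rw [EQ_val i.2, EQ_val j.2, zz_val, EQ_val j.2, EQ_val i.2]
    exact h1

theorem EQ_sq (i : Fin 32) : EQ i * EQ i = 1 ∨ EQ i * EQ i = zz := by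
  have h := allB_spec _ _ _ (by norm_num) chkS i.1 i.2
  simp only [Bool.or_eq_true] at h
  rcases h with h | h
  · left
    apply perm_ext
    intro x
    have h1 := Nat.eq_of_beq_eq_true (allB_spec _ _ _ (by norm_num) h x.val x.2)
    simp only [Equiv.Perm.mul_apply, Equiv.Perm.one_apply]
    rw [EQ_val i.2, EQ_val i.2]
    exact h1
  · right
    apply perm_ext
    intro x
    have h1 := Nat.eq_of_beq_eq_true (allB_spec _ _ _ (by norm_num) h x.val x.2)
    simp only [Equiv.Perm.mul_apply]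
    rw [EQ_val i.2, EQ_val i.2, zz_val]
    exact h1

theorem EQ_zero : EQ 0 = 1 := by
  apply perm_ext
  intro x
  rw [EQ_val (by norm_num)]
  exact Nat.eq_of_beq_eq_true (allB_spec _ _ _ (by norm_num) chk0 x.val x.2)

theorem EQ_nc {i : ℕ} (hi : i < 32) (h2 : 2 ≤ i) : ∃ j : Fin 32, EQ i * EQ j.1 ≠ EQ j.1 * EQ i := by
  have h := allB_spec _ _ _ (by norm_num) chkN i hi
  simp only [Bool.or_eq_true, Bool.and_eq_true, Bool.not_eq_true'] at h
  rcases h with h | ⟨⟨h1, h3⟩, h4⟩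
  · have := Nat.le_of_ble_eq_true h
    omega
  · have hj : njL.getD i 0 < 32 := Nat.le_of_ble_eq_true h1
    have hx : nxL.getD i 0 < 315 := Nat.le_of_ble_eq_true h3
    refine ⟨⟨_, hj⟩, fun e => ?_⟩
    have e2 := congrArg (fun f : Equiv.Perm (Fin 315) => (f ⟨_, hx⟩).val) e
    simp only [Equiv.Perm.mul_apply] at e2
    rw [EQ_val hi, EQ_val hj, EQ_val hj, EQ_val hi] at e2
    have e3 : GQ i (GQ (njL.getD i 0) (nxL.getD i 0)) = GQ (njL.getD i 0) (GQ i (nxL.getD i 0)) := e2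
    rw [e3, Nat.beq_refl] at h4
    exact absurd h4 (by simp)

theorem val_inj {a b : rho.ker} (h : ((a : XX) : Pg).1 = ((b : XX) : Pg).1) : a = b :=
  Subtype.ext (Subtype.ext (Subtype.ext h))

theorem zz_eq_qK : zz = ((qK 1 : XX) : Pg).1 := rfl

theorem mul_val (a b : rho.ker) : ((a * b : rho.ker) : XX).1.1 = ((a : XX) : Pg).1 * ((b : XX) : Pg).1 := rfl

/-- The kernel is extraspecial. -/
theorem extra : IsExtraspecial 2 rho.ker := by
  haveI : Finite rho.ker := Nat.finite_of_card_ne_zero (by rw [rho_cards.1]; norm_num)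
  refine Cfsg.Agent.Lib.LargeQuot.extraspecial_of_elements isP (qK 1) ?_ ?_ ?_ ?_ ?_
  · intro h
    have h1 : qK 1 = qK 0 := by
      rw [h]
      apply val_inj
      exact EQ_zero.symm
    exact absurd (qK_inj h1) (by decide)
  · intro a b
    obtain ⟨i, rfl⟩ := exists_qK a
    obtain ⟨j, rfl⟩ := exists_qK b
    rcases EQ_comm i j with h | h
    · left
      have h1 : qK i * qK j = qK j * qK i := val_inj h
      rw [h1]
      group
    · right
      have h1 : qK i * qK j = qK 1 * (qK j * qK i) := val_inj h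
      rw [h1]
      group
  · intro a
    obtain ⟨i, rfl⟩ := exists_qK a
    rw [pow_two]
    rcases EQ_sq i with h | h
    · left
      exact val_inj h
    · right
      exact val_inj h
  · intro a ha
    obtain ⟨i, rfl⟩ := exists_qK a
    by_cases h0 : i.1 = 0
    · left
      apply val_inj
      show EQ i.1 = 1
      rw [h0]
      exact EQ_zero
    by_cases h1 : i.1 = 1
    · right
      rw [show i = 1 from Fin.ext h1]
    · exfalso
      obtain ⟨j, hj⟩ := EQ_nc i.2 (by omega)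
      apply hj
      exact congrArg (fun a : rho.ker => ((a : XX) : Pg).1) (ha (qK j))
  · obtain ⟨j, hj⟩ := EQ_nc (i := 2) (by norm_num) (by norm_num)
    refine ⟨qK 2, qK j, fun h => hj ?_⟩
    have h1 : qK 2 * qK j = qK j * qK 2 := by
      have h2 : qK 2 * qK j * (qK 2)⁻¹ * (qK j)⁻¹ * (qK j * qK 2) = qK j * qK 2 := by rw [h, one_mul]
      rw [← h2]
      group
    exact congrArg (fun a : rho.ker => ((a : XX) : Pg).1) h1

/-! ### The generalized Fitting subgroup -/

theorem wit_chk : GT 4 (GQ 2 1) ≠ GQ 2 (GT 4 1) ∧ GT 4 (GQ 2 1) ≠ GQ 1 (GQ 2 (GT 4 1)) := by decide +kernel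

theorem card_range_not : ¬ IsPGroup 2 rho.range := by
  intro h
  haveI : Fact (Nat.Prime 2) := ⟨Nat.prime_two⟩
  obtain ⟨k, hk⟩ := IsPGroup.iff_card.1 h
  rw [rho_cards.2] at hk
  have h3 : 3 ∣ 2 ^ k := by
    rw [← hk]
    norm_num
  have := Nat.Prime.dvd_of_dvd_pow (by norm_num) h3
  omega

theorem simple_range : IsSimpleGroup rho.range := by
  rw [range_eq]
  exact alternatingGroup.isSimpleGroup_five

/-- The generalized Fitting subgroup. -/
theorem fstar : generalizedFittingSubgroup XX = rho.ker := by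
  refine fstar_of_hom rho simple_range card_range_not isP (q0 := (qK 2 : XX)) (z := (qK 1 : XX))
    (h := toXX (Gp tbl 4) (K_mem (l := 0) (by norm_num))) (qK 2).2 ?_ ?_ ?_
  · intro q hq
    obtain ⟨i, hi⟩ := exists_qK ⟨q, hq⟩
    have hq' : q = (qK i : XX) := congrArg Subtype.val hi
    subst hq'
    rcases EQ_comm i 2 with h | h
    · left
      have h1 : (qK i : XX) * (qK 2 : XX) = (qK 2 : XX) * (qK i : XX) := Subtype.ext (Subtype.ext h)
      rw [h1]
      group
    · right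
      have h1 : (qK i : XX) * (qK 2 : XX) = (qK 1 : XX) * ((qK 2 : XX) * (qK i : XX)) := Subtype.ext (Subtype.ext h)
      rw [h1]
      group
  · intro h
    have h1 : toXX (Gp tbl 4) (K_mem (l := 0) (by norm_num)) * (qK 2 : XX) = (qK 2 : XX) * toXX (Gp tbl 4) (K_mem (l := 0) (by norm_num)) :=
      mul_inv_eq_iff_eq_mul.1 h
    have h2 : Gp tbl 4 * EQ 2 = EQ 2 * Gp tbl 4 := congrArg (fun a : XX => a.1.1) h1
    have h3 := congrArg (fun f : Equiv.Perm (Fin 315) => (f 1).val) h2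
    simp only [Equiv.Perm.mul_apply] at h3
    rw [K_val (by norm_num), EQ_val (by norm_num), EQ_val (by norm_num), K_val (by norm_num)] at h3
    exact wit_chk.1 h3
  · intro h
    have h1 : toXX (Gp tbl 4) (K_mem (l := 0) (by norm_num)) * (qK 2 : XX) = (qK 1 : XX) * ((qK 2 : XX) * toXX (Gp tbl 4) (K_mem (l := 0) (by norm_num))) := by
      rw [← mul_assoc]
      exact mul_inv_eq_iff_eq_mul.1 h
    have h2 : Gp tbl 4 * EQ 2 = EQ 1 * (EQ 2 * Gp tbl 4) := congrArg (fun a : XX => a.1.1) h1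
    have h3 := congrArg (fun f : Equiv.Perm (Fin 315) => (f 1).val) h2
    simp only [Equiv.Perm.mul_apply] at h3
    rw [K_val (by norm_num), EQ_val (by norm_num), EQ_val (by norm_num), EQ_val (by norm_num), K_val (by norm_num)] at h3
    exact wit_chk.2 h3

/-! ### The statement on the involution -/

theorem zz_ne_chk : GQ 1 2 ≠ 2 := by decide +kernel

theorem zz_ne : zz ≠ 1 := by
  intro h
  have h1 := congrArg (fun f : Equiv.Perm (Fin 315) => (f 2).val) h
  simp only [Equiv.Perm.one_apply] at h1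
  rw [zz_val] at h1
  exact zz_ne_chk h1

theorem zz_sq : zz * zz = 1 := by
  rcases EQ_sq 1 with h | h
  · exact h
  · exfalso
    apply zz_ne
    have h1 : zz * zz = zz := h
    exact mul_left_cancel (a := zz) (by rw [h1, mul_one])

theorem orderOf_zP : orderOf zP = 2 := by
  haveI : Fact (Nat.Prime 2) := ⟨Nat.prime_two⟩
  apply orderOf_eq_prime
  · apply Subtype.ext
    show zz ^ 2 = 1
    rw [pow_two]
    exact zz_sq
  · intro h
    exact zz_ne (congrArg Subtype.val h)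

theorem conj_chk : allB 315 9 (fun x => Nat.beq (GT 1 (GQ 1 x)) (GQ 24 (GT 1 x))) = true := by decide +kernel

theorem conj_fact : Gp tbl 1 * zz * (Gp tbl 1)⁻¹ = EQ 24 := by
  rw [mul_inv_eq_iff_eq_mul]
  apply perm_ext
  intro x
  simp only [Equiv.Perm.mul_apply]
  rw [K_val (by norm_num), zz_val, EQ_val (by norm_num), K_val (by norm_num)]
  exact Nat.eq_of_beq_eq_true (allB_spec _ _ _ (by norm_num) conj_chk x.val x.2)

/-- The structure of the centraliser of the involution. -/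
theorem struct_main : ∃ z : Pg, orderOf z = 2 ∧ ∃ (Q : Subgroup (Subgroup.centralizer ({z} : Set Pg))) (_ : Q.Normal),
    generalizedFittingSubgroup (Subgroup.centralizer ({z} : Set Pg)) = Q ∧ IsExtraspecial 2 Q ∧ Nat.card Q = 2 ^ 5 ∧
    Nonempty ((Subgroup.centralizer ({z} : Set Pg)) ⧸ Q ≃* Omega (ZMod 2) (quadFormMinus 1 (ZMod 2) 1 1)) ∧
    ∃ g : Pg, (∃ hq : g * z * g⁻¹ ∈ Subgroup.centralizer ({z} : Set Pg),
      (⟨g * z * g⁻¹, hq⟩ : Subgroup.centralizer ({z} : Set Pg)) ∈ Q) ∧ g * z * g⁻¹ ≠ z := by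
  refine ⟨zP, orderOf_zP, rho.ker, rho.normal_ker, fstar, extra, by rw [rho_cards.1]; norm_num, ?_, ?_⟩
  · obtain ⟨e⟩ := Cfsg.Agent.Lib.OmegaFourTwo.omega_equiv
    exact ⟨((QuotientGroup.quotientKerEquivRange rho).trans (MulEquiv.subgroupCongr range_eq)).trans e.symm⟩
  · refine ⟨⟨Gp tbl 1, gen_mem (by norm_num)⟩, ?_, ?_⟩
    · have e : ((⟨Gp tbl 1, gen_mem (by norm_num)⟩ : Pg) * zP * (⟨Gp tbl 1, gen_mem (by norm_num)⟩ : Pg)⁻¹ : Pg).1 = EQ 24 := conj_fact
      have hq : (⟨Gp tbl 1, gen_mem (by norm_num)⟩ : Pg) * zP * (⟨Gp tbl 1, gen_mem (by norm_num)⟩ : Pg)⁻¹ ∈ XX :=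
        mem_XX_of_K1 (by rw [e]; exact EQ_mem (by norm_num))
      refine ⟨hq, ?_⟩
      have e2 : (⟨_, hq⟩ : XX) = toXX (EQ 24) (EQ_mem (by norm_num)) := Subtype.ext (Subtype.ext e)
      rw [MonoidHom.mem_ker, e2]
      exact rho_EQ (by norm_num)
    · intro h
      have h1 : EQ 24 = zz := by
        rw [← conj_fact]
        exact (congrArg Subtype.val h)
      have h2 : qK 24 = qK 1 := val_inj h1
      exact absurd (qK_inj h2) (by decide)

end Cfsg.Agent.Lib.J25S
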