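import Cfsg.Agent.Lib.J2CentD

/-!
# The centraliser of a reflection in the Hall-Janko group

The stabiliser `K1` of a point of the permutation representation of degree 315 acts on five blocks of
an orbit of length 10. The kernel is extraspecial of order 32 and the image is `A₅`.
-/

set_option autoImplicit false
set_option maxRecDepth 100000

namespace Cfsg.Agent.Lib.J2Cent

open Cfsg Cfsg.Spor Cfsg.Agent.Lib.IcoPerm Cfsg.Agent.Lib.PermChain12 Cfsg.Agent.Lib.IcoChain
  Cfsg.Agent.Lib.IcoP Cfsg.Agent.Lib.J2CentD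

/-! ### Block homomorphisms -/

section Block

variable {α β : Type*} (O : Set α) (bl : α → β) (rp : β → α)

/-- The permutations preserving a set and a partition of it into blocks. -/
def compM : Submonoid (Equiv.Perm α) where
  carrier := {g | ∀ y ∈ O, g y ∈ O ∧ ∀ y' ∈ O, bl y = bl y' → bl (g y) = bl (g y')}
  one_mem' := fun y hy => ⟨hy, fun _ _ h => h⟩
  mul_mem' := by
    intro a b ha hb y hy
    refine ⟨(ha _ (hb y hy).1).1, fun y' hy' h => ?_⟩
    exact (ha _ (hb y hy).1).2 _ (hb y' hy').1 ((hb y hy).2 y' hy' h)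

/-- The action on blocks. -/
def blockEnd (hrp : ∀ b, rp b ∈ O) (hbl : ∀ b, bl (rp b) = b) : compM O bl →* Function.End β where
  toFun g := fun b => bl (g.1 (rp b))
  map_one' := funext hbl
  map_mul' g h := funext fun b =>
    (g.2 (h.1 (rp b)) (h.2 _ (hrp b)).1).2 (rp (bl (h.1 (rp b)))) (hrp _) (hbl _).symm

theorem inv_mem_compM [Finite α] {g : Equiv.Perm α} (hg : g ∈ compM O bl) : g⁻¹ ∈ compM O bl := by
  have hpos : 0 < orderOf g := orderOf_pos g
  have h : g⁻¹ = g ^ (orderOf g - 1) := by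
    rw [inv_eq_iff_mul_eq_one, ← pow_succ', Nat.sub_add_cancel hpos, pow_orderOf_eq_one]
  rw [h]
  exact (compM O bl).pow_mem hg _

end Block

/-! ### The block system of `K1` -/

/-- The orbit of length 10. -/
def inO (x : ℕ) : Bool := Nat.blt (blNat x) 5

/-- The orbit of length 10. -/
def OS : Set (Fin 315) := {y | inO y.val = true}

/-- The block of a point. -/
def blF (y : Fin 315) : Fin 5 := Fin.ofNat 5 (blNat y.val)

/-- Representatives of the blocks. -/
def rpF : Fin 5 → Fin 315 := ![1, 19, 20, 22, 21]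

theorem rpF_mem0 : ∀ b : Fin 5, inO (rpF b).val = true := by decide

theorem rpF_mem : ∀ b, rpF b ∈ OS := rpF_mem0

theorem blF_rpF : ∀ b, blF (rpF b) = b := by decide

theorem blF_val {y : Fin 315} (hy : y ∈ OS) : (blF y).val = blNat y.val := by
  show blNat y.val % 5 = blNat y.val
  exact Nat.mod_eq_of_lt (Nat.le_of_ble_eq_true hy)

theorem gens_chk : allB 4 2 (fun l => allB 315 9 (fun y => or (not (inO y)) (and (inO (GT (4 + l) y))
    (allB 315 9 (fun y' => or (not (inO y')) (or (not (Nat.beq (blNat y) (blNat y')))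
      (Nat.beq (blNat (GT (4 + l) y)) (blNat (GT (4 + l) y'))))))))) = true := by
  decide +kernel

theorem gen_comp {l : ℕ} (hl : l < 4) : Gp tbl (4 + l) ∈ compM OS blF := by
  intro y hy
  have h1 := allB_spec _ _ _ (by norm_num) (allB_spec _ _ _ (by norm_num) gens_chk l hl) y.val y.2
  have hy' : inO y.val = true := hy
  simp only [hy', Bool.not_true, Bool.false_or, Bool.and_eq_true] at h1
  have hv : ∀ z : Fin 315, ((Gp tbl (4 + l)) z).val = GT (4 + l) z.val :=
    Gp_val tbl _ (by omega)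
  have hm : Gp tbl (4 + l) y ∈ OS := by
    show inO _ = true
    rw [hv]
    exact h1.1
  refine ⟨hm, fun y' hy' hb => ?_⟩
  have h2 := allB_spec _ _ _ (by norm_num) h1.2 y'.val y'.2
  have hy'' : inO y'.val = true := hy'
  have hb' : blNat y.val = blNat y'.val := by
    rw [← blF_val hy, ← blF_val hy', hb]
  rw [hy'', hb'] at h2
  simp only [Bool.not_true, Bool.false_or, Nat.beq_refl] at h2
  have hm' : Gp tbl (4 + l) y' ∈ OS := by
    show inO _ = true
    rw [hv]
    have h3 := allB_spec _ _ _ (by norm_num) (allB_spec _ _ _ (by norm_num) gens_chk l hl) y'.val y'.2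
    rw [hy''] at h3
    simp only [Bool.not_true, Bool.false_or, Bool.and_eq_true] at h3
    exact h3.1
  apply Fin.ext
  rw [blF_val hm, blF_val hm', hv, hv]
  exact Nat.eq_of_beq_eq_true h2

theorem K1_comp : ∀ g ∈ K1, g ∈ compM OS blF := by
  intro g hg
  induction hg using Subgroup.closure_induction with
  | mem x hx =>
    obtain ⟨l, hl, rfl⟩ := hx
    exact gen_comp hl
  | one => exact (compM OS blF).one_mem
  | mul x y _ _ hx hy => exact (compM OS blF).mul_mem hx hy
  | inv x _ hx => exact inv_mem_compM _ _ hx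

/-- The action of `K1` on the five blocks. -/
noncomputable def piEnd : K1 →* Function.End (Fin 5) :=
  (blockEnd OS blF rpF rpF_mem blF_rpF).comp
    (K1.subtype.codRestrict (compM OS blF) (fun g => K1_comp g g.2))

/-- The action of `K1` on the five blocks. -/
noncomputable def piK : K1 →* Equiv.Perm (Fin 5) := MonoidHom.toHomPerm piEnd

theorem piK_apply (g : K1) (b : Fin 5) : piK g b = blF (g.1 (rpF b)) := rfl

/-- The images of the generators. -/
def P5 : ℕ → Equiv.Perm (Fin 5)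
  | 0 => c[0, 1, 3, 4, 2]
  | 1 => c[1, 3, 2]
  | 2 => c[0, 2, 4, 3, 1]
  | _ => c[1, 2, 3]

theorem P5_chk : ∀ l : Fin 4, ∀ b : Fin 5, blNat (GT (4 + l.val) (rpF b).val) = (P5 l.val b).val := by
  decide +kernel

theorem P5_even : ∀ l : Fin 4, Equiv.Perm.sign (P5 l.val) = 1 := by decide

theorem K1_gen {l : ℕ} (hl : l < 4) : Gp tbl (4 + l) ∈ K1 :=
  Subgroup.subset_closure ⟨l, hl, rfl⟩

theorem piK_gen {l : ℕ} (hl : l < 4) : piK ⟨Gp tbl (4 + l), K1_gen hl⟩ = P5 l := by
  ext b
  rw [piK_apply]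
  have hm := (gen_comp hl _ (rpF_mem b)).1
  rw [blF_val hm, Gp_val tbl _ (by omega)]
  exact P5_chk ⟨l, hl⟩ b

theorem piK_mem (g : K1) : piK g ∈ alternatingGroup (Fin 5) := by
  obtain ⟨g, hg⟩ := g
  induction hg using Subgroup.closure_induction with
  | mem x hx =>
    obtain ⟨l, hl, rfl⟩ := hx
    rw [piK_gen hl, Equiv.Perm.mem_alternatingGroup]
    exact P5_even ⟨l, hl⟩
  | one =>
    have e : (⟨1, K1.one_mem⟩ : K1) = 1 := Subtype.ext (Subgroup.coe_one _).symm
    rw [e, map_one]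
    exact (alternatingGroup (Fin 5)).one_mem
  | mul x y hx hy ihx ihy =>
    have e : (⟨x * y, K1.mul_mem hx hy⟩ : K1) = ⟨x, hx⟩ * ⟨y, hy⟩ := Subtype.ext (by simp only [Subgroup.coe_mul])
    rw [e, map_mul]
    exact Subgroup.mul_mem _ ihx ihy
  | inv x hx ih =>
    have e : (⟨x⁻¹, K1.inv_mem hx⟩ : K1) = (⟨x, hx⟩ : K1)⁻¹ := Subtype.ext (by simp only [Subgroup.coe_inv])
    rw [e, map_inv]
    exact Subgroup.inv_mem _ ih

theorem a5_chk : ∀ σ : Equiv.Perm (Fin 5), Equiv.Perm.sign σ = 1 → ∃ w ∈ a5Words,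
    (w.all fun l => Nat.blt l 4) = true ∧
    ∀ b : Fin 5, blNat (wend (fun l y => GT (4 + l) y) w (rpF b).val) = (σ b).val := by
  decide +kernel

theorem piK_surj (σ : Equiv.Perm (Fin 5)) (hσ : σ ∈ alternatingGroup (Fin 5)) : ∃ g : K1, piK g = σ := by
  rw [Equiv.Perm.mem_alternatingGroup] at hσ
  obtain ⟨w, -, hw, h⟩ := a5_chk σ hσ
  have hw' : ∀ l ∈ w, l < 4 := by
    intro l hl
    rw [List.all_eq_true] at hw
    exact Nat.le_of_ble_eq_true (hw l hl)
  have hm : wval (fun l => Gp tbl (4 + l)) w ∈ K1 := wval_mem _ _ _ fun l hl => K1_gen (hw' l hl)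
  refine ⟨⟨_, hm⟩, ?_⟩
  ext b
  rw [piK_apply]
  have hm2 : wval (fun l => Gp tbl (4 + l)) w ∈ compM OS blF := K1_comp _ hm
  have hm3 := (hm2 _ (rpF_mem b)).1
  rw [blF_val hm3]
  show blNat ((wval (fun l => Gp tbl (4 + l)) w (rpF b)).val) = _
  rw [wval_Gp tbl 4 w (fun l hl => by have := hw' l hl; omega)]
  exact h b

/-- The action of `K1` on the five blocks, with values in `A₅`. -/
noncomputable def piA : K1 →* alternatingGroup (Fin 5) :=
  piK.codRestrict (alternatingGroup (Fin 5)) piK_mem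

theorem piA_surj : Function.Surjective piA := by
  rintro ⟨σ, hσ⟩
  obtain ⟨g, hg⟩ := piK_surj σ hσ
  exact ⟨g, Subtype.ext hg⟩

/-- The kernel. -/
noncomputable def Q0 : Subgroup K1 := piA.ker

theorem mem_Q0 {g : K1} (h : ∀ b, blF (g.1 (rpF b)) = b) : g ∈ Q0 := by
  show piA g = 1
  apply Subtype.ext
  ext b
  show (piK g b).val = b.val
  rw [piK_apply, h]

theorem card_A5 : Nat.card (alternatingGroup (Fin 5)) = 60 := by
  rw [Nat.card_eq_fintype_card]
  have := two_mul_card_alternatingGroup (α := Fin 5)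
  simp only [Fintype.card_perm, Fintype.card_fin] at this
  have h : Nat.factorial 5 = 120 := rfl
  omega

theorem card_Q0 : Nat.card Q0 = 32 := by
  have h1 := Subgroup.card_eq_card_quotient_mul_card_subgroup Q0
  have h2 : Nat.card (K1 ⧸ Q0) = 60 := by
    rw [← card_A5]
    exact Nat.card_congr (QuotientGroup.quotientKerEquivOfSurjective piA piA_surj).toEquiv
  rw [card_K1, h2] at h1
  omega

/-! ### The elements of the kernel -/

theorem tblE_chk : tblChk 315 9 32 5 ET invE = true := by decide +kernel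

theorem tblE : TblOK 315 32 ET invE := tblOK_of_chk (by norm_num) (by norm_num) tblE_chk

/-- The elements of the kernel. -/
noncomputable def E (i : ℕ) : Equiv.Perm (Fin 315) := Gp tblE i

theorem E_val {i : ℕ} (hi : i < 32) (x : Fin 315) : (E i x).val = ET i x.val := Gp_val tblE i hi x

theorem WQ_lt : allB 32 5 (fun i => (WQ i).all fun l => Nat.blt l 4) = true := by decide +kernel

theorem WQ_lt' {i l : ℕ} (hi : i < 32) (hl : l ∈ WQ i) : l < 4 := by
  have h := allB_spec _ _ _ (by norm_num) WQ_lt i hi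
  rw [List.all_eq_true] at h
  exact Nat.le_of_ble_eq_true (h l hl)

theorem WQ_chk : allB 32 5 (fun i => allB 315 9 (fun x =>
    Nat.beq (walkF (fun l y => GT (4 + l) y) (WQ i) x) (ET i x))) = true := by decide +kernel

theorem E_eq {i : ℕ} (hi : i < 32) : E i = wval (fun l => Gp tbl (4 + l)) (WQ i) := by
  ext x
  rw [E_val hi, wval_Gp tbl 4 (WQ i) (fun l hl => by have := WQ_lt' hi hl; omega)]
  have h := allB_spec _ _ _ (by norm_num) (allB_spec _ _ _ (by norm_num) WQ_chk i hi) x.val x.2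
  rw [walkF_eq] at h
  exact (Nat.eq_of_beq_eq_true h).symm

theorem E_K1 {i : ℕ} (hi : i < 32) : E i ∈ K1 := by
  rw [E_eq hi]
  exact wval_mem _ _ _ fun l hl => K1_gen (WQ_lt' hi hl)

theorem E_blk_chk : allB 32 5 (fun i => allB 5 3 (fun b =>
    Nat.beq (blNat (ET i (rpF (Fin.ofNat 5 b)).val)) b)) = true := by decide +kernel

theorem E_Q0 {i : ℕ} (hi : i < 32) : (⟨E i, E_K1 hi⟩ : K1) ∈ Q0 := by
  apply mem_Q0
  intro b
  have hm : E i ∈ compM OS blF := K1_comp _ (E_K1 hi)
  have hm3 := (hm _ (rpF_mem b)).1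
  apply Fin.ext
  show (blF (E i (rpF b))).val = b.val
  rw [blF_val hm3, E_val hi]
  have h := allB_spec _ _ _ (by norm_num) (allB_spec _ _ _ (by norm_num) E_blk_chk i hi) b.val b.2
  have hb : Fin.ofNat 5 b.val = b := by
    apply Fin.ext
    exact Nat.mod_eq_of_lt b.2
  rw [hb] at h
  exact Nat.eq_of_beq_eq_true h

theorem E_inj_chk : allB 32 5 (fun i => allB 32 5 (fun j =>
    or (Nat.beq i j) (not (Nat.beq (ET i 27) (ET j 27))))) = true := by decide +kernel

theorem E_inj {i j : ℕ} (hi : i < 32) (hj : j < 32) (h : E i = E j) : i = j := by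
  have h1 := allB_spec _ _ _ (by norm_num) (allB_spec _ _ _ (by norm_num) E_inj_chk i hi) j hj
  have h2 : ET i 27 = ET j 27 := by
    have := congrArg (fun g : Equiv.Perm (Fin 315) => (g ⟨27, by norm_num⟩).val) h
    simpa only [E_val hi, E_val hj] using this
  rw [h2] at h1
  simp only [Nat.beq_refl, Bool.not_true, Bool.or_false] at h1
  exact Nat.eq_of_beq_eq_true h1

theorem Q0_exists (x : Q0) : ∃ i, i < 32 ∧ x.1.1 = E i := by
  let F : Fin 32 → Q0 := fun i => ⟨⟨E i.val, E_K1 i.2⟩, E_Q0 i.2⟩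
  have hF : Function.Injective F := by
    intro i j h
    have : E i.val = E j.val := congrArg (fun y : Q0 => y.1.1) h
    exact Fin.ext (E_inj i.2 j.2 this)
  have hS : Function.Surjective F := by
    have hb : Function.Bijective F :=
      (Nat.bijective_iff_injective_and_card F).mpr ⟨hF, by rw [card_Q0]; simp⟩
    exact hb.2
  obtain ⟨i, rfl⟩ := hS x
  exact ⟨i.val, i.2, rfl⟩

theorem comm_chk : allB 32 5 (fun i => allB 32 5 (fun j =>
    or (allB 315 9 (fun x => Nat.beq (ET i (ET j x)) (ET j (ET i x))))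
      (allB 315 9 (fun x => Nat.beq (ET i (ET j x)) (ET 1 (ET j (ET i x))))))) = true := by
  decide +kernel

theorem sq_chk : allB 32 5 (fun i =>
    or (allB 315 9 (fun x => Nat.beq (ET i (ET i x)) x))
      (allB 315 9 (fun x => Nat.beq (ET i (ET i x)) (ET 1 x)))) = true := by
  decide +kernel

theorem cen_chk : allB 32 5 (fun i => or (Nat.ble i 1) (and (Nat.blt (cwE i) 32) (and (Nat.blt (cpE i) 315)
    (not (Nat.beq (ET i (ET (cwE i) (cpE i))) (ET (cwE i) (ET i (cpE i)))))))) = true := by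
  decide +kernel

theorem E0_chk : allB 315 9 (fun x => Nat.beq (ET 0 x) x) = true := by decide +kernel

theorem E1_chk : not (Nat.beq (ET 1 27) 27) = true := by decide +kernel

theorem E0_one : E 0 = 1 := by
  ext x
  rw [E_val (by norm_num)]
  exact Nat.eq_of_beq_eq_true (allB_spec _ _ _ (by norm_num) E0_chk x.val x.2)

theorem E1_ne : E 1 ≠ 1 := by
  intro h
  have h1 := congrArg (fun g : Equiv.Perm (Fin 315) => (g ⟨27, by norm_num⟩).val) h
  simp only [E_val (show 1 < 32 by norm_num), Equiv.Perm.one_apply] at h1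
  have h2 := E1_chk
  rw [h1] at h2
  revert h2
  decide

theorem E_comm {i j : ℕ} (hi : i < 32) (hj : j < 32) :
    E i * E j = E j * E i ∨ E i * E j = E 1 * (E j * E i) := by
  have h1 := allB_spec _ _ _ (by norm_num) (allB_spec _ _ _ (by norm_num) comm_chk i hi) j hj
  rw [Bool.or_eq_true] at h1
  rcases h1 with h1 | h1
  · left
    ext x
    rw [Equiv.Perm.mul_apply, Equiv.Perm.mul_apply, E_val hi, E_val hj, E_val hj, E_val hi]
    exact Nat.eq_of_beq_eq_true (allB_spec _ _ _ (by norm_num) h1 x.val x.2)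
  · right
    ext x
    rw [Equiv.Perm.mul_apply, Equiv.Perm.mul_apply, Equiv.Perm.mul_apply,
      E_val hi, E_val hj, E_val (show 1 < 32 by norm_num), E_val hj, E_val hi]
    exact Nat.eq_of_beq_eq_true (allB_spec _ _ _ (by norm_num) h1 x.val x.2)

theorem E_sq {i : ℕ} (hi : i < 32) : E i * E i = 1 ∨ E i * E i = E 1 := by
  have h1 := allB_spec _ _ _ (by norm_num) sq_chk i hi
  rw [Bool.or_eq_true] at h1
  rcases h1 with h1 | h1
  · left
    ext x
    rw [Equiv.Perm.mul_apply, E_val hi, E_val hi, Equiv.Perm.one_apply]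
    exact Nat.eq_of_beq_eq_true (allB_spec _ _ _ (by norm_num) h1 x.val x.2)
  · right
    ext x
    rw [Equiv.Perm.mul_apply, E_val hi, E_val hi, E_val (show 1 < 32 by norm_num)]
    exact Nat.eq_of_beq_eq_true (allB_spec _ _ _ (by norm_num) h1 x.val x.2)

theorem E_noncomm {i : ℕ} (hi : i < 32) (h2 : 2 ≤ i) : cwE i < 32 ∧ E i * E (cwE i) ≠ E (cwE i) * E i := by
  have h1 := allB_spec _ _ _ (by norm_num) cen_chk i hi
  have hb : Nat.ble i 1 = false := by
    rw [Bool.eq_false_iff]
    intro h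
    have := Nat.le_of_ble_eq_true h
    omega
  rw [hb, Bool.false_or, Bool.and_eq_true, Bool.and_eq_true] at h1
  have hc : cwE i < 32 := Nat.le_of_ble_eq_true h1.1
  have hp : cpE i < 315 := Nat.le_of_ble_eq_true h1.2.1
  refine ⟨hc, fun h => ?_⟩
  have h3 := congrArg (fun g : Equiv.Perm (Fin 315) => (g ⟨cpE i, hp⟩).val) h
  simp only [Equiv.Perm.mul_apply, E_val hi, E_val hc] at h3
  have h4 := h1.2.2
  rw [h3] at h4
  simp at h4

theorem isExtraspecial_Q0 : IsExtraspecial 2 Q0 := by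
  have hfin : Finite Q0 := Nat.finite_of_card_ne_zero (by rw [card_Q0]; norm_num)
  have h2 : IsPGroup 2 Q0 := IsPGroup.of_card (n := 5) (by rw [card_Q0]; norm_num)
  let z : Q0 := ⟨⟨E 1, E_K1 (by norm_num)⟩, E_Q0 (by norm_num)⟩
  have hz : z.1.1 = E 1 := rfl
  have hcast : ∀ a b : Q0, a.1.1 = b.1.1 → a = b := fun a b h => Subtype.ext (Subtype.ext h)
  refine Cfsg.Agent.Lib.LargeQuot.extraspecial_of_elements h2 z ?_ ?_ ?_ ?_ ?_
  · intro h
    apply E1_ne
    exact congrArg (fun y : Q0 => y.1.1) h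
  · intro a b
    obtain ⟨i, hi, ha⟩ := Q0_exists a
    obtain ⟨j, hj, hb⟩ := Q0_exists b
    rcases E_comm hi hj with h | h
    · left
      apply hcast
      show a.1.1 * b.1.1 * (a.1.1)⁻¹ * (b.1.1)⁻¹ = 1
      rw [ha, hb, h]
      group
    · right
      apply hcast
      show a.1.1 * b.1.1 * (a.1.1)⁻¹ * (b.1.1)⁻¹ = E 1
      rw [ha, hb, h]
      group
  · intro a
    obtain ⟨i, hi, ha⟩ := Q0_exists a
    rcases E_sq hi with h | h
    · left
      apply hcast
      show a.1.1 ^ 2 = 1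
      rw [ha, pow_two, h]
    · right
      apply hcast
      show a.1.1 ^ 2 = E 1
      rw [ha, pow_two, h]
  · intro a hc
    obtain ⟨i, hi, ha⟩ := Q0_exists a
    by_cases h2i : 2 ≤ i
    · exfalso
      obtain ⟨hc1, hc2⟩ := E_noncomm hi h2i
      apply hc2
      have := hc ⟨⟨E (cwE i), E_K1 hc1⟩, E_Q0 hc1⟩
      have h3 := congrArg (fun y : Q0 => y.1.1) this
      simp only [Subgroup.coe_mul] at h3
      rwa [ha] at h3
    · have : i = 0 ∨ i = 1 := by omega
      rcases this with rfl | rfl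
      · left
        apply hcast
        show a.1.1 = 1
        rw [ha, E0_one]
      · right
        apply hcast
        exact ha
  · obtain ⟨hc1, hc2⟩ := E_noncomm (i := 2) (by norm_num) le_rfl
    refine ⟨⟨⟨E 2, E_K1 (by norm_num)⟩, E_Q0 (by norm_num)⟩, ⟨⟨E (cwE 2), E_K1 hc1⟩, E_Q0 hc1⟩, ?_⟩
    intro h
    apply hc2
    have h3 := congrArg (fun y : Q0 => y.1.1) h
    have h4 : E 2 * E (cwE 2) * (E 2)⁻¹ * (E (cwE 2))⁻¹ = 1 := h3
    have h5 : E 2 * E (cwE 2) = (E 2 * E (cwE 2) * (E 2)⁻¹ * (E (cwE 2))⁻¹) * (E (cwE 2) * E 2) := by group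
    rw [h5, h4, one_mul]

end Cfsg.Agent.Lib.J2Cent
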