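import Cfsg.Agent.Lib.J2Cent

/-!
# The centraliser of a reflection in the Hall-Janko group: the main statement
-/

set_option autoImplicit false
set_option maxRecDepth 100000

namespace Cfsg.Agent.Lib.J2CentM

open Cfsg Cfsg.Spor Cfsg.Agent.Lib.IcoPerm Cfsg.Agent.Lib.PermChain12 Cfsg.Agent.Lib.IcoChain
  Cfsg.Agent.Lib.IcoP Cfsg.Agent.Lib.J2Cent

/-- The shape of the statement, transported along isomorphisms. -/
def Shape (G : Type*) [Group G] : Prop :=
  ∃ (Q : Subgroup G) (_ : Q.Normal), Nat.card Q = 32 ∧ IsExtraspecial 2 Q ∧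
    Nonempty (G ⧸ Q ≃* alternatingGroup (Fin 5))

theorem Shape.transport {A B : Type*} [Group A] [Group B] (e : A ≃* B) (h : Shape B) : Shape A := by
  obtain ⟨Q, hN, hc, hx, ⟨q⟩⟩ := h
  have hmap : (Q.comap e.toMonoidHom).map e.toMonoidHom = Q :=
    Subgroup.map_comap_eq_self_of_surjective e.surjective Q
  haveI hN' : (Q.comap e.toMonoidHom).Normal := hN.comap _
  have eQ : ↥(Q.comap e.toMonoidHom) ≃* Q :=
    (e.subgroupMap (Q.comap e.toMonoidHom)).trans (MulEquiv.subgroupCongr hmap)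
  refine ⟨Q.comap e.toMonoidHom, hN', ?_, ?_, ⟨?_⟩⟩
  · rw [Nat.card_congr eQ.toEquiv, hc]
  · exact Cfsg.Agent.Lib.CentShape.isExtraspecial_of_equiv eQ hx
  · exact (QuotientGroup.congr _ Q e hmap).trans q

theorem shape_K1 : Shape K1 := by
  have hN : Q0.Normal := piA.normal_ker
  exact ⟨Q0, hN, card_Q0, isExtraspecial_Q0, ⟨QuotientGroup.quotientKerEquivOfSurjective piA piA_surj⟩⟩

/-! ### Stabilisers -/

theorem K1_eq_stab : K1.subgroupOf Pg = MulAction.stabilizer Pg (⟨0, by norm_num⟩ : Fin 315) := by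
  have hcard : Nat.card (MulAction.stabilizer Pg (⟨0, by norm_num⟩ : Fin 315)) = 1920 := by
    have h1 := Subgroup.card_mul_index (MulAction.stabilizer Pg (⟨0, by norm_num⟩ : Fin 315))
    rw [MulAction.index_stabilizer, MulAction.orbit_eq_univ, card_Pg, Set.ncard_univ, Nat.card_fin] at h1
    omega
  refine Subgroup.eq_of_le_of_card_ge ?_ ?_
  · intro g hg
    exact K1_fix g.1 hg
  · rw [hcard, Nat.card_congr (Subgroup.subgroupOfEquivOfLe K1_le).toEquiv, card_K1]

/-! ### Images of reflections -/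

/-- The image of a reflection. -/
noncomputable def tR (a : Fin 315) : Equiv.Perm (Fin 315) := LL'.phi ⟨LL'.R a, LL'.R_mem a⟩

theorem tR_conj (g : twoJ2) (a : Fin 315) : tR (LL'.phi g a) = LL'.phi g * tR a * (LL'.phi g)⁻¹ :=
  LL'.phi_R_conj g a

theorem tR_gen {i : ℕ} (hi : i < 4) :
    tR ⟨IcoTab.genT i, Cfsg.Agent.Lib.IcoMin.gen_lt Cfsg.Agent.Lib.IcoChk.chks hi⟩ = Gp tbl (0 + i) := by
  ext b
  congr 1
  exact LL'.act_eq (R_conj hi b)

theorem exists_phi {w : Equiv.Perm (Fin 315)} (hw : w ∈ Pg) : ∃ g : twoJ2, LL'.phi g = w := by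
  rw [← range_eq_Pg] at hw
  exact hw

theorem tR_conj' {w : Equiv.Perm (Fin 315)} (hw : w ∈ Pg) (a : Fin 315) : tR (w a) = w * tR a * w⁻¹ := by
  obtain ⟨g, rfl⟩ := exists_phi hw
  exact tR_conj g a

theorem GT_ne : ∃ x : Fin 315, GT 0 x.val ≠ GT 1 x.val := by decide +kernel

theorem tR_inj {a b : Fin 315} (h : tR a = tR b) : a = b := by
  let B : Set (Fin 315) := {c | tR c = tR a}
  have hB : MulAction.IsBlock Pg B := by
    rw [MulAction.isBlock_iff_smul_eq_of_mem]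
    intro g x hx hgx
    have hcomm : g.1 * tR a * g.1⁻¹ = tR a := by
      have h1 : tR (g.1 x) = g.1 * tR x * g.1⁻¹ := tR_conj' g.2 x
      have hx' : tR x = tR a := hx
      have hgx' : tR (g.1 x) = tR a := hgx
      rw [hx', hgx'] at h1
      exact h1.symm
    ext y
    rw [Set.mem_smul_set_iff_inv_smul_mem]
    constructor
    · intro hy
      have hy' : tR (g.1⁻¹ y) = tR a := hy
      have h1 : tR (g.1⁻¹ y) = g.1⁻¹ * tR y * g.1⁻¹⁻¹ := tR_conj' (Pg.inv_mem g.2) y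
      rw [hy', inv_inv] at h1
      show tR y = tR a
      calc tR y = g.1 * (g.1⁻¹ * tR y * g.1) * g.1⁻¹ := by group
        _ = g.1 * tR a * g.1⁻¹ := by rw [← h1]
        _ = tR a := hcomm
    · intro hy
      have hy' : tR y = tR a := hy
      have h1 : tR (g.1⁻¹ y) = g.1⁻¹ * tR y * g.1⁻¹⁻¹ := tR_conj' (Pg.inv_mem g.2) y
      show tR (g.1⁻¹ y) = tR a
      rw [h1, hy', inv_inv]
      calc g.1⁻¹ * tR a * g.1 = g.1⁻¹ * (g.1 * tR a * g.1⁻¹) * g.1 := by rw [hcomm]
        _ = tR a := by group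
  rcases MulAction.IsPreprimitive.isTrivialBlock_of_isBlock hB with h1 | h1
  · exact h1 rfl h.symm
  · exfalso
    have h0 : tR ⟨IcoTab.genT 0, Cfsg.Agent.Lib.IcoMin.gen_lt Cfsg.Agent.Lib.IcoChk.chks (by norm_num)⟩ = tR a := by
      have : (⟨IcoTab.genT 0, Cfsg.Agent.Lib.IcoMin.gen_lt Cfsg.Agent.Lib.IcoChk.chks (by norm_num)⟩ : Fin 315) ∈ B := by
        rw [h1]; trivial
      exact this
    have h2 : tR ⟨IcoTab.genT 1, Cfsg.Agent.Lib.IcoMin.gen_lt Cfsg.Agent.Lib.IcoChk.chks (by norm_num)⟩ = tR a := by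
      have : (⟨IcoTab.genT 1, Cfsg.Agent.Lib.IcoMin.gen_lt Cfsg.Agent.Lib.IcoChk.chks (by norm_num)⟩ : Fin 315) ∈ B := by
        rw [h1]; trivial
      exact this
    rw [tR_gen (by norm_num)] at h0 h2
    have h3 : Gp tbl (0 + 0) = Gp tbl (0 + 1) := h0.trans h2.symm
    obtain ⟨x, hx⟩ := GT_ne
    apply hx
    have h4 : ((Gp tbl (0 + 0)) x).val = ((Gp tbl (0 + 1)) x).val := by rw [h3]
    rwa [Gp_val tbl _ (by norm_num), Gp_val tbl _ (by norm_num)] at h4

/-- The isomorphism of `J₂` with the concrete group on cosets. -/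
theorem j2Equiv_mk (g : twoJ2) : ((j2Equiv (QuotientGroup.mk g) : Pg) : Equiv.Perm (Fin 315)) = LL'.phi g := rfl

theorem mem_centralizer_iff (a : Fin 315) (g : twoJ2) :
    (QuotientGroup.mk g : J2) ∈ Subgroup.centralizer {(QuotientGroup.mk ⟨LL'.R a, LL'.R_mem a⟩ : J2)} ↔
      LL'.phi g a = a := by
  rw [Subgroup.mem_centralizer_singleton_iff]
  constructor
  · intro h
    have h1 := congrArg (fun x : J2 => ((j2Equiv x : Pg) : Equiv.Perm (Fin 315))) h
    simp only [map_mul, Subgroup.coe_mul, j2Equiv_mk] at h1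
    have h2 : LL'.phi g * tR a = tR a * LL'.phi g := h1
    apply tR_inj
    rw [tR_conj, h2]
    group
  · intro h
    have h1 : tR a = LL'.phi g * tR a * (LL'.phi g)⁻¹ := by
      conv_lhs => rw [← h]
      exact tR_conj g a
    have h2 : LL'.phi g * tR a = tR a * LL'.phi g := by
      calc LL'.phi g * tR a = (LL'.phi g * tR a * (LL'.phi g)⁻¹) * LL'.phi g := by group
        _ = tR a * LL'.phi g := by rw [← h1]
    apply j2Equiv.injective
    apply Subtype.ext
    simp only [map_mul, Subgroup.coe_mul, j2Equiv_mk]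
    exact h2

theorem shape_centralizer (a : Fin 315) :
    Shape (Subgroup.centralizer {(QuotientGroup.mk ⟨LL'.R a, LL'.R_mem a⟩ : J2)}) := by
  obtain ⟨g0, hg0, hg1⟩ := orbit_all a
  let h : Pg := ⟨g0⁻¹, Pg.inv_mem hg0⟩
  have hh : g0⁻¹ a = ⟨0, by norm_num⟩ := by
    rw [Equiv.Perm.inv_eq_iff_eq, hg1]
  let J : J2 ≃* Pg := j2Equiv.trans (MulAut.conj h)
  let C := Subgroup.centralizer {(QuotientGroup.mk ⟨LL'.R a, LL'.R_mem a⟩ : J2)}
  have hmap : C.map J.toMonoidHom = K1.subgroupOf Pg := by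
    rw [K1_eq_stab]
    ext w
    rw [MulAction.mem_stabilizer_iff]
    constructor
    · rintro ⟨x, hx, rfl⟩
      obtain ⟨g, rfl⟩ := QuotientGroup.mk_surjective x
      have h1 : LL'.phi g a = a := (mem_centralizer_iff a g).mp hx
      show (g0⁻¹ * LL'.phi g * g0⁻¹⁻¹) ⟨0, by norm_num⟩ = ⟨0, by norm_num⟩
      rw [inv_inv, Equiv.Perm.mul_apply, Equiv.Perm.mul_apply, hg1, h1, hh]
    · intro hw
      have hw' : w.1 ⟨0, by norm_num⟩ = ⟨0, by norm_num⟩ := hw
      refine ⟨J.symm w, ?_, by simp⟩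
      obtain ⟨g, hg⟩ := QuotientGroup.mk_surjective (J.symm w)
      change J.symm w ∈ C
      rw [← hg]
      apply (mem_centralizer_iff a g).mpr
      have h3 : J (QuotientGroup.mk g) = w := by
        rw [hg]
        simp
      have h4 : g0⁻¹ * LL'.phi g * g0⁻¹⁻¹ = w.1 := congrArg Subtype.val h3
      have h5 : (g0⁻¹ * LL'.phi g * g0⁻¹⁻¹) ⟨0, by norm_num⟩ = ⟨0, by norm_num⟩ := by
        rw [h4, hw']
      rw [inv_inv, Equiv.Perm.mul_apply, Equiv.Perm.mul_apply, hg1, ← hh] at h5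
      exact (Equiv.injective _) h5
  exact Shape.transport (((J.subgroupMap C).trans (MulEquiv.subgroupCongr hmap)).trans
    (Subgroup.subgroupOfEquivOfLe K1_le)) shape_K1

end Cfsg.Agent.Lib.J2CentM
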