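import Cfsg.Agent.Lib.SchurCoset46
import Cfsg.Agent.Lib.J2SchurData12

/-!
# The linear system on the cosets of a subgroup of order 75 in the Hall-Janko group
-/

set_option autoImplicit false
set_option maxRecDepth 100000
set_option Elab.async false

namespace Cfsg.Agent.Lib.J2SchurCert12

open Cfsg.Agent.Lib.SchurCoset46 Cfsg.Agent.Lib.J2SchurData12

/-- The certificate. -/
def cert : CertE where
  n := 8064
  m := 2
  R := 4
  P := 4
  E := 128
  T := TT
  par := PR
  rels := fun j => relsL.getD j []
  rank := RK
  val := VL
  stepT := ST
  normal := fun j => Nat.beq j 1 || Nat.beq j 2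
  params := fun p => paramsL.getD p 0
  cf := fun p => cfL.getD p 0
  relP := fun p => relPL.getD p []
  rel0 := rel0L
  r0 := 2

theorem cert_ok : cert.check = true := by decide +kernel

end Cfsg.Agent.Lib.J2SchurCert12
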