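import Cfsg.Agent.Lib.IcoP
import Cfsg.Agent.Lib.J2SchurCert12
import Cfsg.Agent.Lib.SchurLocal12
import Cfsg.Agent.Lib.SchurOrbit12

/-!
# The Hall-Janko group: elements, generators, cosets of a subgroup of order 75
-/

set_option autoImplicit false
set_option maxRecDepth 100000
set_option Elab.async false

namespace Cfsg.Agent.Lib.J2SchurG12

open Cfsg Cfsg.Agent.Lib.PermChain12 Cfsg.Agent.Lib.IcoChain Cfsg.Agent.Lib.IcoP Cfsg.Agent.Lib.J2SchurData12
  Cfsg.Agent.Lib.J2SchurCert12 Cfsg.Agent.Lib.SchurCoset46 Cfsg.Agent.Lib.SchurOrbit12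
open scoped Pointwise

theorem tbS_chk : tblChk 315 9 14 4 GS invS = true := by decide +kernel
theorem tbS : TblOK 315 14 GS invS := tblOK_of_chk (by norm_num) (by norm_num) tbS_chk

/-- The elements. -/
noncomputable abbrev gS (k : ℕ) : Equiv.Perm (Fin 315) := Gp tbS k

/-- Words for the elements. -/
def wS (k : ℕ) : List ℕ := wSL.getD k []

theorem wS_chk : allB 14 4 (fun k => allB 315 9 (fun x => Nat.beq (walkF (fun l y => GT (0 + l) y) (wS k) x) (GS k x))) = true := by
  decide +kernel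

theorem wS_lt : allB 14 4 (fun k => (wS k).all (fun l => Nat.blt l 4)) = true := by decide +kernel

theorem gS_eq {k : ℕ} (hk : k < 14) : gS k = wval (fun l => Gp tbl (0 + l)) (wS k) := by
  have hlt : ∀ l ∈ wS k, l < 4 := by
    have h1 := allB_spec _ _ _ (by norm_num) wS_lt k hk
    rw [List.all_eq_true] at h1
    intro l hl
    exact Nat.le_of_ble_eq_true (h1 l hl)
  ext x
  rw [wval_Gp tbl 0 _ (fun l hl => by have := hlt l hl; omega), Gp_val tbS _ hk]
  have h2 := allB_spec _ _ _ (by norm_num) (allB_spec _ _ _ (by norm_num) wS_chk k hk) x.val x.2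
  rw [walkF_eq] at h2
  exact (Nat.eq_of_beq_eq_true h2).symm

theorem gS_mem {k : ℕ} (hk : k < 14) : gS k ∈ Pg := by
  have hlt : ∀ l ∈ wS k, l < 4 := by
    have h1 := allB_spec _ _ _ (by norm_num) wS_lt k hk
    rw [List.all_eq_true] at h1
    intro l hl
    exact Nat.le_of_ble_eq_true (h1 l hl)
  rw [gS_eq hk]
  apply wval_mem
  intro l hl
  apply Subgroup.subset_closure
  exact ⟨l, hlt l hl, rfl⟩

/-- The elements in the group. -/
noncomputable def pS (k : ℕ) (hk : k < 14) : Pg := ⟨gS k, gS_mem hk⟩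

/-- The two generators. -/
noncomputable def sG (i : ℕ) : Pg := if i = 0 then pS 0 (by norm_num) else if i = 1 then pS 1 (by norm_num) else 1

theorem sG_0 : sG 0 = pS 0 (by norm_num) := by simp [sG]
theorem sG_1 : sG 1 = pS 1 (by norm_num) := by simp [sG]

theorem sG_val {i : ℕ} (hi : i < 2) : (sG i : Equiv.Perm (Fin 315)) = gS i := by
  interval_cases i
  · rw [sG_0]; rfl
  · rw [sG_1]; rfl

theorem gS_inv {k : ℕ} (hk : k < 14) : (gS k)⁻¹ = gS (invS k) := (Gp_inv tbS k hk).symm

/-! ### Generation -/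

/-- Words for the generators. -/
def vW (k : ℕ) : List ℕ := vWL.getD k []

theorem vW_chk : allB 4 2 (fun k => allB 315 9 (fun x => Nat.beq (walkF (fun l y => GS (0 + l) y) (vW k) x) (GT k x))) = true := by
  decide +kernel

theorem vW_lt : allB 4 2 (fun k => (vW k).all (fun l => Nat.blt l 3)) = true := by decide +kernel

theorem closure_eq_top' {M : Subgroup (Equiv.Perm (Fin 315))} {S : Set M}
    (h : M ≤ (Subgroup.closure S).map M.subtype) : Subgroup.closure S = ⊤ := by
  rw [eq_top_iff]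
  rintro ⟨g, hg⟩ -
  obtain ⟨y, hy, hyg⟩ := h hg
  have : y = ⟨g, hg⟩ := Subtype.ext hyg
  rwa [← this]

theorem hgen : Subgroup.closure (sG '' Set.Iio 2) = ⊤ := by
  apply closure_eq_top'
  set H := (Subgroup.closure (sG '' Set.Iio 2)).map Pg.subtype with hH
  have h0 : gS 0 ∈ H := ⟨sG 0, Subgroup.subset_closure ⟨0, by show 0 < 2; norm_num, rfl⟩, sG_val (by norm_num)⟩
  have h1 : gS 1 ∈ H := ⟨sG 1, Subgroup.subset_closure ⟨1, by show 1 < 2; norm_num, rfl⟩, sG_val (by norm_num)⟩
  have h2 : gS 2 ∈ H := by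
    have : gS 2 = (gS 1)⁻¹ := by
      rw [gS_inv (by norm_num)]
      congr 1
    rw [this]
    exact H.inv_mem h1
  rw [Pg, Subgroup.closure_le]
  rintro _ ⟨k, hk, rfl⟩
  have hk' : k < 4 := hk
  have hlt : ∀ l ∈ vW k, l < 3 := by
    have h3 := allB_spec _ _ _ (by norm_num) vW_lt k hk'
    rw [List.all_eq_true] at h3
    intro l hl
    exact Nat.le_of_ble_eq_true (h3 l hl)
  have e : Gp tbl (0 + k) = wval (fun l => Gp tbS (0 + l)) (vW k) := by
    ext x
    rw [wval_Gp tbS 0 _ (fun l hl => by have := hlt l hl; omega), Gp_val tbl _ (by omega)]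
    have h4 := allB_spec _ _ _ (by norm_num) (allB_spec _ _ _ (by norm_num) vW_chk k hk') x.val x.2
    rw [walkF_eq] at h4
    rw [Nat.eq_of_beq_eq_true h4, Nat.zero_add]
  show Gp tbl (0 + k) ∈ H
  rw [e]
  apply wval_mem
  intro l hl
  have := hlt l hl
  rw [Nat.zero_add]
  interval_cases l
  · exact h0
  · exact h1
  · exact h2

/-! ### The relators -/

/-- The table of a letter. -/
def lid (l : ℕ) : ℕ := [0, 0, 1, 2].getD l 0

/-- The value of a word at a point. -/
noncomputable def evN : List ℕ → ℕ → ℕ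
  | [], x => x
  | l :: w, x => GS (lid l) (evN w x)

theorem lett_sG {l : ℕ} (hl : l < 4) : lett (fun i => (sG i : Equiv.Perm (Fin 315))) l = gS (lid l) := by
  interval_cases l
  · exact sG_val (by norm_num)
  · show lett (fun i => (sG i : Equiv.Perm (Fin 315))) (2 * 0 + 1) = _
    rw [lett_odd, sG_val (by norm_num), gS_inv (by norm_num)]
    rfl
  · show lett (fun i => (sG i : Equiv.Perm (Fin 315))) (2 * 1) = _
    rw [lett_even]
    exact sG_val (by norm_num)
  · show lett (fun i => (sG i : Equiv.Perm (Fin 315))) (2 * 1 + 1) = _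
    rw [lett_odd, sG_val (by norm_num), gS_inv (by norm_num)]
    rfl

theorem lid_lt {l : ℕ} (hl : l < 4) : lid l < 14 := by
  interval_cases l <;> decide

theorem evW_val (w : List ℕ) (hw : ∀ l ∈ w, l < 4) (x : Fin 315) :
    ((evW (fun i => (sG i : Equiv.Perm (Fin 315))) w) x).val = evN w x.val := by
  induction w with
  | nil => rfl
  | cons l w ih =>
    have hl := hw l List.mem_cons_self
    show ((lett (fun i => (sG i : Equiv.Perm (Fin 315))) l * evW (fun i => (sG i : Equiv.Perm (Fin 315))) w) x).val = GS (lid l) (evN w x.val)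
    rw [Equiv.Perm.mul_apply, lett_sG hl, Gp_val tbS _ (lid_lt hl), ih (fun a ha => hw a (List.mem_cons_of_mem _ ha))]

theorem rels_lt : allB 4 2 (fun j => (relsL.getD j []).all (fun l => Nat.blt l 4)) = true := by decide +kernel

theorem rels_chk : allB 4 2 (fun j => allB 315 9 (fun x => Nat.beq (evN (relsL.getD j []) x) x)) = true := by
  decide +kernel

theorem hrels : ∀ j, j < cert.R → ∀ l ∈ cert.rels j, l < 2 * cert.m := by
  intro j hj l hl
  have h1 := allB_spec _ _ _ (by norm_num) rels_lt j hj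
  rw [List.all_eq_true] at h1
  exact Nat.le_of_ble_eq_true (h1 l hl)

theorem hrel : ∀ j, j < cert.R → evW sG (cert.rels j) = 1 := by
  intro j hj
  apply Subtype.ext
  have h2 := (map_evW Pg.subtype sG (cert.rels j))
  refine h2.trans ?_
  ext x
  have h3 : evN (cert.rels j) x.val = x.val :=
    Nat.eq_of_beq_eq_true (allB_spec _ _ _ (by norm_num) (allB_spec _ _ _ (by norm_num) rels_chk j hj) x.val x.2)
  have h4 := evW_val (cert.rels j) (fun l hl => by
    have := hrels j hj l hl
    exact this) x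
  rw [h3] at h4
  exact h4

/-! ### The masks -/

/-- A bit of a number. -/
def tb (m x : ℕ) : ℕ := Nat.land (Nat.shiftRight m x) 1

theorem tb_eq_one_iff (m x : ℕ) : tb m x = 1 ↔ m.testBit x = true := by
  have h1 : tb m x = (m >>> x) % 2 := by
    show (m >>> x) &&& 1 = _
    rw [Nat.and_one_is_mod]
  rw [h1, Nat.testBit_eq_decide_div_mod_eq, Nat.shiftRight_eq_div_pow]
  simp

/-- The subset of points given by a number. -/
def bitset (m : ℕ) : Set (Fin 315) := {x | tb m x.val = 1}

theorem smul_bitset (g : Pg) {m m' : ℕ} (h : ∀ x : Fin 315, tb m ((g : Equiv.Perm (Fin 315)) x).val = tb m' x.val) :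
    g • bitset m' = bitset m := by
  ext y
  rw [Set.mem_smul_set_iff_inv_smul_mem]
  show tb m' ((g⁻¹ • y : Fin 315)).val = 1 ↔ tb m y.val = 1
  have h1 : (g : Equiv.Perm (Fin 315)) (g⁻¹ • y) = y := smul_inv_smul g y
  have h2 := h (g⁻¹ • y)
  rw [h1] at h2
  rw [h2]

/-- The points of the action of degree one hundred. -/
def Wset (j : ℕ) : Set (Fin 315) := bitset (WM j)

/-- The subsets of those points given by a number. -/
def Oset (m : ℕ) : Set (Set (Fin 315)) := Wset '' {j | j < 100 ∧ tb m j = 1}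

/-- The two components. -/
def mask (c : ℕ) : Set (Fin 315) × Set (Set (Fin 315)) := (bitset (AM (AI c)), Oset (OM (OI c)))

noncomputable def chkW (i : ℕ) : Bool := allB 100 7 fun j =>
  force (WM j) fun a => force (WM (PW i j)) fun b =>
    and (Nat.blt (PW i j) 100) <| and (Nat.blt (PWI i j) 100) <| and (Nat.beq (PW i (PWI i j)) j) <|
      allB 315 9 fun x => Nat.beq (tb b (GS i x)) (tb a x)

noncomputable def chkA (i : ℕ) : Bool := allB 4032 12 fun j =>
  force (AM j) fun a => force (TA j i) fun t => force (AM t) fun b =>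
    and (Nat.blt t 4032) <|
      allB 315 9 fun x => Nat.beq (tb a (GS i x)) (tb b x)

noncomputable def chkO (i : ℕ) : Bool := allB 4032 12 fun j =>
  force (OM j) fun a => force (TO j i) fun t => force (OM t) fun b =>
    and (Nat.blt t 4032) <|
      allB 100 7 fun x => Nat.beq (tb a (PW i x)) (tb b x)

noncomputable def chkC (i : ℕ) : Bool := allB 8064 13 fun c =>
  force (TT c (Nat.mul 2 i)) fun d =>
    and (Nat.blt (AI c) 4032) <| and (Nat.blt (OI c) 4032) <|
      and (Nat.beq (AI d) (TA (AI c) i)) (Nat.beq (OI d) (TO (OI c) i))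

theorem chkW_0 : chkW 0 = true := by decide +kernel
theorem chkW_1 : chkW 1 = true := by decide +kernel
theorem chkA_0 : chkA 0 = true := by decide +kernel
theorem chkA_1 : chkA 1 = true := by decide +kernel
theorem chkO_0 : chkO 0 = true := by decide +kernel
theorem chkO_1 : chkO 1 = true := by decide +kernel
theorem chkC_0 : chkC 0 = true := by decide +kernel
theorem chkC_1 : chkC 1 = true := by decide +kernel

theorem chkW_all {i : ℕ} (hi : i < 2) : chkW i = true := by
  interval_cases i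
  · exact chkW_0
  · exact chkW_1

theorem chkA_all {i : ℕ} (hi : i < 2) : chkA i = true := by
  interval_cases i
  · exact chkA_0
  · exact chkA_1

theorem chkO_all {i : ℕ} (hi : i < 2) : chkO i = true := by
  interval_cases i
  · exact chkO_0
  · exact chkO_1

theorem chkC_all {i : ℕ} (hi : i < 2) : chkC i = true := by
  interval_cases i
  · exact chkC_0
  · exact chkC_1

theorem sG_apply {i : ℕ} (hi : i < 2) (x : Fin 315) : (((sG i : Pg) : Equiv.Perm (Fin 315)) x).val = GS i x.val := by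
  rw [sG_val hi]
  exact Gp_val tbS _ (by omega) x

theorem smul_Wset {i j : ℕ} (hi : i < 2) (hj : j < 100) : sG i • Wset j = Wset (PW i j) := by
  have h1 := allB_spec _ _ _ (by norm_num) (chkW_all hi) j hj
  simp only [force_eq, Bool.and_eq_true] at h1
  obtain ⟨_, _, _, h2⟩ := h1
  apply smul_bitset
  intro x
  rw [sG_apply hi]
  exact Nat.eq_of_beq_eq_true (allB_spec _ _ _ (by norm_num) h2 x.val x.2)

theorem smul_Oset {i : ℕ} (hi : i < 2) {m m' : ℕ} (h : ∀ j, j < 100 → tb m (PW i j) = tb m' j) :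
    sG i • Oset m' = Oset m := by
  have hP : ∀ j, j < 100 → PW i j < 100 ∧ PWI i j < 100 ∧ PW i (PWI i j) = j := by
    intro j hj
    have h1 := allB_spec _ _ _ (by norm_num) (chkW_all hi) j hj
    simp only [force_eq, Bool.and_eq_true] at h1
    obtain ⟨h2, h3, h4, _⟩ := h1
    exact ⟨Nat.le_of_ble_eq_true h2, Nat.le_of_ble_eq_true h3, Nat.eq_of_beq_eq_true h4⟩
  ext Y
  constructor
  · rintro ⟨Z, ⟨j, ⟨hj, hm⟩, rfl⟩, rfl⟩
    refine ⟨PW i j, ⟨(hP j hj).1, ?_⟩, ?_⟩
    · rw [h j hj]; exact hm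
    · exact (smul_Wset hi hj).symm
  · rintro ⟨j, ⟨hj, hm⟩, rfl⟩
    obtain ⟨h1, h2, h3⟩ := hP j hj
    refine ⟨Wset (PWI i j), ⟨PWI i j, ⟨h2, ?_⟩, rfl⟩, ?_⟩
    · rw [← h _ h2, h3]; exact hm
    · show sG i • Wset (PWI i j) = Wset j
      rw [smul_Wset hi h2, h3]

theorem hms : ∀ c, c < cert.n → ∀ i, i < cert.m → sG i • mask (cert.T c (2 * i)) = mask c := by
  intro c hc i hi
  have hi' : i < 2 := hi
  have h1 := allB_spec _ _ _ (by norm_num) (chkC_all hi') c hc
  simp only [force_eq, Bool.and_eq_true] at h1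
  obtain ⟨h2, h3, h4, h5⟩ := h1
  have h2' : AI c < 4032 := Nat.le_of_ble_eq_true h2
  have h3' : OI c < 4032 := Nat.le_of_ble_eq_true h3
  have h4' : AI (TT c (Nat.mul 2 i)) = TA (AI c) i := Nat.eq_of_beq_eq_true h4
  have h5' : OI (TT c (Nat.mul 2 i)) = TO (OI c) i := Nat.eq_of_beq_eq_true h5
  apply Prod.ext
  · show sG i • bitset (AM (AI (TT c (2 * i)))) = bitset (AM (AI c))
    have e : AI (TT c (2 * i)) = TA (AI c) i := h4'
    rw [e]
    apply smul_bitset
    intro x
    rw [sG_apply hi']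
    have h6 := allB_spec _ _ _ (by norm_num) (chkA_all hi') _ h2'
    simp only [force_eq, Bool.and_eq_true] at h6
    exact Nat.eq_of_beq_eq_true (allB_spec _ _ _ (by norm_num) h6.2 x.val x.2)
  · show sG i • Oset (OM (OI (TT c (2 * i)))) = Oset (OM (OI c))
    have e : OI (TT c (2 * i)) = TO (OI c) i := h5'
    rw [e]
    apply smul_Oset hi'
    intro j hj
    have h6 := allB_spec _ _ _ (by norm_num) (chkO_all hi') _ h3'
    simp only [force_eq, Bool.and_eq_true] at h6
    exact Nat.eq_of_beq_eq_true (allB_spec _ _ _ (by norm_num) h6.2 j hj)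

/-! ### Injectivity -/

theorem tg_lt (w : ℕ) (L x : ℕ) : Cfsg.Agent.Lib.IcoTab.tg w (2 ^ w - 1) L x < 2 ^ w := by
  unfold Cfsg.Agent.Lib.IcoTab.tg
  have h1 : Nat.land (Nat.shiftRight L (Nat.mul w x)) (2 ^ w - 1) ≤ 2 ^ w - 1 := Nat.and_le_right
  have h2 : 0 < 2 ^ w := by positivity
  omega

theorem eq_of_bitset {m m' : ℕ} (hm : m < 2 ^ 315) (hm' : m' < 2 ^ 315) (h : bitset m = bitset m') : m = m' := by
  apply Nat.eq_of_testBit_eq
  intro i
  by_cases hi : i < 315
  · have h1 : (⟨i, hi⟩ : Fin 315) ∈ bitset m ↔ (⟨i, hi⟩ : Fin 315) ∈ bitset m' := by rw [h]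
    have h2 : tb m i = 1 ↔ tb m' i = 1 := h1
    rw [tb_eq_one_iff, tb_eq_one_iff] at h2
    exact Bool.eq_iff_iff.mpr h2
  · have h3 : 2 ^ 315 ≤ 2 ^ i := Nat.pow_le_pow_right (by norm_num) (by omega)
    rw [Nat.testBit_lt_two_pow (hm.trans_le h3), Nat.testBit_lt_two_pow (hm'.trans_le h3)]

theorem eq_of_tb {m m' : ℕ} (hm : m < 2 ^ 100) (hm' : m' < 2 ^ 100) (h : ∀ i, i < 100 → (tb m i = 1 ↔ tb m' i = 1)) : m = m' := by
  apply Nat.eq_of_testBit_eq
  intro i
  by_cases hi : i < 100
  · have h2 := h i hi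
    rw [tb_eq_one_iff, tb_eq_one_iff] at h2
    exact Bool.eq_iff_iff.mpr h2
  · have h3 : 2 ^ 100 ≤ 2 ^ i := Nat.pow_le_pow_right (by norm_num) (by omega)
    rw [Nat.testBit_lt_two_pow (hm.trans_le h3), Nat.testBit_lt_two_pow (hm'.trans_le h3)]

theorem WM_sorted : allB 99 7 (fun j => Nat.blt (WM j) (WM (j + 1))) = true := by decide +kernel
theorem AM_sorted : allB 4031 12 (fun j => Nat.blt (AM j) (AM (j + 1))) = true := by decide +kernel
theorem OM_sorted : allB 4031 12 (fun j => Nat.blt (OM j) (OM (j + 1))) = true := by decide +kernel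

/-- The code of a coset. -/
noncomputable def codeC (c : ℕ) : ℕ := Nat.add (Nat.mul (AI c) 4096) (OI c)

theorem code_sorted : allB 8063 13 (fun j => Nat.blt (codeC (ordr j)) (codeC (ordr (j + 1)))) = true := by decide +kernel
theorem posn_chk : allB 8064 13 (fun c => and (Nat.blt (posn c) 8064) (Nat.beq (ordr (posn c)) c)) = true := by decide +kernel

theorem WM_lt (j : ℕ) : WM j < 2 ^ 315 := by
  have := tg_lt 315 tWM j
  norm_num at this
  exact this

theorem AM_lt (j : ℕ) : AM j < 2 ^ 315 := by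
  have := tg_lt 315 tAM j
  norm_num at this
  exact this

theorem OM_lt (j : ℕ) : OM j < 2 ^ 100 := by
  have := tg_lt 100 tOM j
  norm_num at this
  exact this

theorem WM_inj {a b : ℕ} (ha : a < 100) (hb : b < 100) (h : WM a = WM b) : a = b :=
  inj_of_lt (N := 100) (fun j hj => Nat.le_of_ble_eq_true (allB_spec _ _ _ (by norm_num) WM_sorted j (by omega))) ha hb h

theorem AM_inj {a b : ℕ} (ha : a < 4032) (hb : b < 4032) (h : AM a = AM b) : a = b :=
  inj_of_lt (N := 4032) (fun j hj => Nat.le_of_ble_eq_true (allB_spec _ _ _ (by norm_num) AM_sorted j (by omega))) ha hb h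

theorem OM_inj {a b : ℕ} (ha : a < 4032) (hb : b < 4032) (h : OM a = OM b) : a = b :=
  inj_of_lt (N := 4032) (fun j hj => Nat.le_of_ble_eq_true (allB_spec _ _ _ (by norm_num) OM_sorted j (by omega))) ha hb h

theorem codeC_inj {a b : ℕ} (ha : a < 8064) (hb : b < 8064) (h : codeC a = codeC b) : a = b := by
  have h1 := allB_spec _ _ _ (by norm_num) posn_chk a ha
  have h2 := allB_spec _ _ _ (by norm_num) posn_chk b hb
  simp only [Bool.and_eq_true] at h1 h2
  have e1 : ordr (posn a) = a := Nat.eq_of_beq_eq_true h1.2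
  have e2 : ordr (posn b) = b := Nat.eq_of_beq_eq_true h2.2
  have h3 : posn a = posn b := inj_of_lt (f := fun j => codeC (ordr j)) (N := 8064)
    (fun j hj => Nat.le_of_ble_eq_true (allB_spec _ _ _ (by norm_num) code_sorted j (by omega)))
    (Nat.le_of_ble_eq_true h1.1) (Nat.le_of_ble_eq_true h2.1) (by simp only [e1, e2]; exact h)
  rw [← e1, ← e2, h3]

theorem Wset_inj {a b : ℕ} (ha : a < 100) (hb : b < 100) (h : Wset a = Wset b) : a = b :=
  WM_inj ha hb (eq_of_bitset (WM_lt a) (WM_lt b) h)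

theorem Oset_inj {m m' : ℕ} (hm : m < 2 ^ 100) (hm' : m' < 2 ^ 100) (h : Oset m = Oset m') : m = m' := by
  apply eq_of_tb hm hm'
  intro i hi
  constructor
  · intro h1
    have h2 : Wset i ∈ Oset m' := by
      rw [← h]
      exact ⟨i, ⟨hi, h1⟩, rfl⟩
    obtain ⟨j, ⟨hj, h3⟩, h4⟩ := h2
    rw [Wset_inj hj hi h4] at h3
    exact h3
  · intro h1
    have h2 : Wset i ∈ Oset m := by
      rw [h]
      exact ⟨i, ⟨hi, h1⟩, rfl⟩
    obtain ⟨j, ⟨hj, h3⟩, h4⟩ := h2
    rw [Wset_inj hj hi h4] at h3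
    exact h3

theorem mask_inj : Set.InjOn mask {c | c < cert.n} := by
  intro a ha b hb h
  have ha' : a < 8064 := ha
  have hb' : b < 8064 := hb
  have h1 := allB_spec _ _ _ (by norm_num) (chkC_all (i := 0) (by norm_num)) a ha'
  have h2 := allB_spec _ _ _ (by norm_num) (chkC_all (i := 0) (by norm_num)) b hb'
  simp only [force_eq, Bool.and_eq_true] at h1 h2
  have a1 : AI a < 4032 := Nat.le_of_ble_eq_true h1.1
  have a2 : OI a < 4032 := Nat.le_of_ble_eq_true h1.2.1
  have b1 : AI b < 4032 := Nat.le_of_ble_eq_true h2.1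
  have b2 : OI b < 4032 := Nat.le_of_ble_eq_true h2.2.1
  have e1 : AI a = AI b := AM_inj a1 b1 (eq_of_bitset (AM_lt _) (AM_lt _) (congrArg Prod.fst h))
  have e2 : OI a = OI b := OM_inj a2 b2 (Oset_inj (OM_lt _) (OM_lt _) (congrArg Prod.snd h))
  apply codeC_inj ha' hb'
  show Nat.add (Nat.mul (AI a) 4096) (OI a) = Nat.add (Nat.mul (AI b) 4096) (OI b)
  rw [e1, e2]

theorem hT : Tab cert.n cert.m cert.T cert.par := by
  have h := cert_ok
  simp only [CertE.check, Bool.and_eq_true] at h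
  exact CertE.base cert |>.tab_of_chk h.1.1.1.2

/-- The subgroup of order 75. -/
noncomputable abbrev H75 : Subgroup Pg := MulAction.stabilizer Pg (mask 0)

theorem index_H75 : H75.index = 8064 := index_stabilizer_mask (s := sG) hT hms hgen mask_inj

theorem card_H75 : Nat.card H75 = 75 := by
  have h1 := Subgroup.card_mul_index H75
  rw [index_H75, card_Pg] at h1
  omega

theorem hmne : ∀ c, c < cert.n → mask c = mask 0 → c = 0 := by
  intro c hc h
  exact mask_inj hc hT.n_pos h

end Cfsg.Agent.Lib.J2SchurG12
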