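import Cfsg.Agent.Lib.J2SchurG12

/-!
# The Schur multiplier of the Hall-Janko group: the upper bound
-/

set_option autoImplicit false
set_option maxRecDepth 100000
set_option Elab.async false

namespace Cfsg.Agent.Lib.J2SchurUp12

open Cfsg Cfsg.Agent.Lib.PermChain12 Cfsg.Agent.Lib.IcoChain Cfsg.Agent.Lib.IcoP Cfsg.Agent.Lib.J2SchurData12
  Cfsg.Agent.Lib.J2SchurCert12 Cfsg.Agent.Lib.SchurCoset46 Cfsg.Agent.Lib.SchurOrbit12 Cfsg.Agent.Lib.J2SchurG12
  Cfsg.Agent.Lib.SchurLocal12 Cfsg.Agent.Lib.SchurStem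
open scoped commutatorElement Pointwise

/-- Words with the same walks have the same value. -/
theorem wval_eq_wval (r₁ r₂ : List ℕ) (h₁ : ∀ l ∈ r₁, 0 + l < 14) (h₂ : ∀ l ∈ r₂, 0 + l < 14)
    (c : allB 315 9 (fun x => Nat.beq (walkF (fun l y => GS (0 + l) y) r₁ x) (walkF (fun l y => GS (0 + l) y) r₂ x)) = true) :
    wval (fun l => Gp tbS (0 + l)) r₁ = wval (fun l => Gp tbS (0 + l)) r₂ := by
  ext x
  rw [wval_Gp tbS 0 _ h₁, wval_Gp tbS 0 _ h₂]
  have := allB_spec _ _ _ (by norm_num) c x.val x.2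
  rw [walkF_eq, walkF_eq] at this
  exact Nat.eq_of_beq_eq_true this

/-! ### Orbits of small subgroups -/

theorem orbit_list {a b : ℕ} (ha : a < 14) (hb : b < 14) (L : List ℕ) (LP : List (ℕ × ℕ)) (x0 : Fin 315)
    (h0 : L.getD 0 0 = x0.val) (hlen : 0 < L.length) (hL : ∀ x ∈ L, x < 315)
    (hc : L.all (fun x => L.contains (GS a x) && L.contains (GS (invS a) x) && L.contains (GS b x) &&
      L.contains (GS (invS b) x)) = true)
    (hr : (List.range L.length).all (fun j => Nat.beq j 0 ||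
      (Nat.blt (LP.getD j (0, 0)).1 j && (Nat.beq (LP.getD j (0, 0)).2 a || Nat.beq (LP.getD j (0, 0)).2 b) &&
        Nat.beq (L.getD j 0) (GS (LP.getD j (0, 0)).2 (L.getD (LP.getD j (0, 0)).1 0)))) = true) :
    MulAction.orbit (Subgroup.closure ({pS a ha, pS b hb} : Set Pg)) x0 = {y : Fin 315 | y.val ∈ L} := by
  set H := Subgroup.closure ({pS a ha, pS b hb} : Set Pg) with hH
  have hx0 : x0.val ∈ L := by
    rw [← h0]
    have : L.getD 0 0 = L[0] := by simp [List.getD, hlen]
    rw [this]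
    exact List.getElem_mem hlen
  have hcl : ∀ x ∈ L, GS a x ∈ L ∧ GS (invS a) x ∈ L ∧ GS b x ∈ L ∧ GS (invS b) x ∈ L := by
    intro x hx
    have h1 := List.all_eq_true.mp hc x hx
    simp only [Bool.and_eq_true, List.contains_iff_mem] at h1
    exact ⟨h1.1.1.1, h1.1.1.2, h1.1.2, h1.2⟩
  have hact : ∀ (k : ℕ) (hk : k < 14) (y : Fin 315), ((pS k hk : Equiv.Perm (Fin 315)) y).val = GS k y.val :=
    fun k hk y => Gp_val tbS k hk y
  have hactI : ∀ (k : ℕ) (hk : k < 14) (y : Fin 315), (((pS k hk)⁻¹ : Pg) • y).val = GS (invS k) y.val := by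
    intro k hk y
    have h1 : (((pS k hk)⁻¹ : Pg) • y) = (gS k)⁻¹ y := rfl
    rw [h1, gS_inv hk]
    exact Gp_val tbS _ (tbS k hk).1 y
  apply Set.Subset.antisymm
  · rintro _ ⟨⟨g, hg⟩, rfl⟩
    suffices hS : ∀ y : Fin 315, y.val ∈ L → (g • y).val ∈ L ∧ (g⁻¹ • y).val ∈ L from (hS x0 hx0).1
    induction hg using Subgroup.closure_induction with
    | mem z hz =>
      intro y hy
      have h2 := hcl _ hy
      rcases hz with rfl | hz
      · refine ⟨?_, ?_⟩
        · have : (pS a ha • y).val = GS a y.val := hact a ha y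
          rw [this]; exact h2.1
        · rw [hactI]; exact h2.2.1
      · rw [Set.mem_singleton_iff] at hz
        subst hz
        refine ⟨?_, ?_⟩
        · have : (pS b hb • y).val = GS b y.val := hact b hb y
          rw [this]; exact h2.2.2.1
        · rw [hactI]; exact h2.2.2.2
    | one => intro y hy; simpa using hy
    | mul p q _ _ ihp ihq =>
      intro y hy
      refine ⟨?_, ?_⟩
      · rw [mul_smul]
        exact (ihp _ (ihq y hy).1).1
      · rw [mul_inv_rev, mul_smul]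
        exact (ihq _ (ihp y hy).2).2
    | inv p _ ih =>
      intro y hy
      refine ⟨(ih y hy).2, ?_⟩
      rw [inv_inv]
      exact (ih y hy).1
  · -- reachability
    have hreach : ∀ j, j < L.length → ∃ g ∈ H, ((g • x0 : Fin 315)).val = L.getD j 0 := by
      intro j
      induction j using Nat.strong_induction_on with
      | _ j ih =>
        intro hj
        have h1 := List.all_eq_true.mp hr j (List.mem_range.mpr hj)
        simp only [Bool.or_eq_true, Bool.and_eq_true] at h1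
        rcases h1 with h1 | ⟨⟨h1, h2⟩, h3⟩
        · have h4 : j = 0 := Nat.eq_of_beq_eq_true h1
          subst h4
          exact ⟨1, H.one_mem, by rw [one_smul]; exact h0.symm⟩
        · have h5 : (LP.getD j (0, 0)).1 < j := Nat.le_of_ble_eq_true h1
          obtain ⟨g, hg, hgv⟩ := ih _ h5 (h5.trans hj)
          have h6 := Nat.eq_of_beq_eq_true h3
          rcases h2 with h2 | h2
          · have h7 := Nat.eq_of_beq_eq_true h2
            refine ⟨pS a ha * g, H.mul_mem (Subgroup.subset_closure (Or.inl rfl)) hg, ?_⟩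
            have h8 : ((pS a ha * g) • x0).val = GS a (g • x0).val := by
              rw [mul_smul]; exact hact a ha _
            rw [h8, hgv, h6, h7]
          · have h7 := Nat.eq_of_beq_eq_true h2
            refine ⟨pS b hb * g, H.mul_mem (Subgroup.subset_closure (Or.inr rfl)) hg, ?_⟩
            have h8 : ((pS b hb * g) • x0).val = GS b (g • x0).val := by
              rw [mul_smul]; exact hact b hb _
            rw [h8, hgv, h6, h7]
    intro y hy
    have hy' : y.val ∈ L := hy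
    obtain ⟨j, hj, hjy⟩ := List.getElem_of_mem hy'
    obtain ⟨g, hg, hgv⟩ := hreach j hj
    refine ⟨⟨g, hg⟩, ?_⟩
    apply Fin.ext
    show (g • x0).val = y.val
    rw [hgv, ← hjy]
    simp [List.getD, hj]

theorem ncard_L5 : {y : Fin 315 | y.val ∈ L5}.ncard = 25 := by
  have e : {y : Fin 315 | y.val ∈ L5} = ((Finset.univ.filter (fun y : Fin 315 => y.val ∈ L5) : Finset (Fin 315)) : Set (Fin 315)) := by
    ext y; simp
  rw [e, Set.ncard_coe_finset]
  decide +kernel

theorem ncard_L3 : {y : Fin 315 | y.val ∈ L3}.ncard = 27 := by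
  have e : {y : Fin 315 | y.val ∈ L3} = ((Finset.univ.filter (fun y : Fin 315 => y.val ∈ L3) : Finset (Fin 315)) : Set (Fin 315)) := by
    ext y; simp
  rw [e, Set.ncard_coe_finset]
  decide +kernel

theorem card_A5 : 25 ∣ Nat.card (Subgroup.closure ({pS 3 (by norm_num), pS 5 (by norm_num)} : Set Pg)) := by
  have h := dvd_card_of_orbit _ _ _ (orbit_list (a := 3) (b := 5) (by norm_num) (by norm_num) L5 L5P
    ⟨L5.getD 0 0, by decide +kernel⟩ rfl (by decide +kernel) (by decide +kernel) (by decide +kernel) (by decide +kernel))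
  rwa [ncard_L5] at h

theorem card_A3 : 27 ∣ Nat.card (Subgroup.closure ({pS 8 (by norm_num), pS 10 (by norm_num)} : Set Pg)) := by
  have h := dvd_card_of_orbit _ _ _ (orbit_list (a := 8) (b := 10) (by norm_num) (by norm_num) L3 L3P
    ⟨L3.getD 0 0, by decide +kernel⟩ rfl (by decide +kernel) (by decide +kernel) (by decide +kernel) (by decide +kernel))
  rwa [ncard_L3] at h

/-! ### Relations -/

/-- A word value in the group, as a product of the chosen elements. -/
theorem wval_cons (l : ℕ) (w : List ℕ) :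
    wval (fun l => Gp tbS (0 + l)) (l :: w) = wval (fun l => Gp tbS (0 + l)) w * Gp tbS l := by
  show wval (fun l => Gp tbS (0 + l)) w * Gp tbS (0 + l) = _
  rw [Nat.zero_add]

theorem gS_mul (r : List ℕ) : wval (fun l => Gp tbS (0 + l)) r = wval gS r := by
  induction r with
  | nil => rfl
  | cons l w ih =>
    rw [wval_cons, ih]
    rfl

theorem wval_ne_one (r : List ℕ) (x : Fin 315) (hr : ∀ l ∈ r, 0 + l < 14)
    (c : Nat.beq (walkF (fun l y => GS (0 + l) y) r x.val) x.val = false) :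
    wval gS r ≠ 1 := by
  intro h
  have h1 := wval_Gp tbS 0 r hr x
  rw [gS_mul, h, ← walkF_eq] at h1
  simp only [Equiv.Perm.one_apply] at h1
  rw [← h1] at c
  simp at c

theorem p_inv {k : ℕ} (hk : k < 14) : (pS k hk)⁻¹ = pS (invS k) (tbS k hk).1 :=
  Subtype.ext (gS_inv hk)

section Local5

local notation "a5" => pS 3 (by norm_num)
local notation "b5" => pS 5 (by norm_num)
local notation "t5" => pS 7 (by norm_num)

theorem a5_pow : a5 ^ 5 = 1 := by
  apply Subtype.ext
  show gS 3 ^ 5 = 1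
  have := wval_eq_one_of_chk tbS 0 9 (by norm_num) [3, 3, 3, 3, 3] (by decide) (by decide +kernel)
  rw [gS_mul] at this
  simpa [wval, pow_succ, mul_assoc] using this

theorem ab5 : a5 * b5 = b5 * a5 := by
  apply Subtype.ext
  show gS 3 * gS 5 = gS 5 * gS 3
  have := wval_eq_wval [5, 3] [3, 5] (by decide) (by decide) (by decide +kernel)
  rw [gS_mul, gS_mul] at this
  simpa [wval] using this

theorem ta5 : t5 * a5 * t5⁻¹ = a5⁻¹ := by
  apply Subtype.ext
  show gS 7 * gS 3 * (gS 7)⁻¹ = (gS 3)⁻¹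
  rw [gS_inv (by norm_num), gS_inv (by norm_num)]
  have := wval_eq_wval [invS 7, 3, 7] [invS 3] (by decide +kernel) (by decide +kernel) (by decide +kernel)
  rw [gS_mul, gS_mul] at this
  simpa [wval] using this

theorem tb5 : t5 * b5 * t5⁻¹ = b5 := by
  apply Subtype.ext
  show gS 7 * gS 5 * (gS 7)⁻¹ = gS 5
  rw [gS_inv (by norm_num)]
  have := wval_eq_wval [invS 7, 5, 7] [5] (by decide +kernel) (by decide +kernel) (by decide +kernel)
  rw [gS_mul, gS_mul] at this
  simpa [wval] using this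

end Local5

section Local3

local notation "a3" => pS 8 (by norm_num)
local notation "b3" => pS 10 (by norm_num)
local notation "r3" => pS 12 (by norm_num)

theorem a3_pow : a3 ^ 3 = 1 := by
  apply Subtype.ext
  show gS 8 ^ 3 = 1
  have := wval_eq_one_of_chk tbS 0 9 (by norm_num) [8, 8, 8] (by decide) (by decide +kernel)
  rw [gS_mul] at this
  simpa [wval, pow_succ, mul_assoc] using this

theorem b3_eq : b3 = r3 * a3 * r3⁻¹ := by
  apply Subtype.ext
  show gS 10 = gS 12 * gS 8 * (gS 12)⁻¹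
  rw [gS_inv (by norm_num)]
  have := wval_eq_wval [10] [invS 12, 8, 12] (by decide +kernel) (by decide +kernel) (by decide +kernel)
  rw [gS_mul, gS_mul] at this
  simpa [wval] using this

theorem rb3 : r3 * b3 * r3⁻¹ = a3⁻¹ := by
  apply Subtype.ext
  show gS 12 * gS 10 * (gS 12)⁻¹ = (gS 8)⁻¹
  rw [gS_inv (by norm_num), gS_inv (by norm_num)]
  have := wval_eq_wval [invS 12, 10, 12] [invS 8] (by decide +kernel) (by decide +kernel) (by decide +kernel)
  rw [gS_mul, gS_mul] at this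
  simpa [wval] using this

theorem comm3_val : ((⁅a3, b3⁆ : Pg) : Equiv.Perm (Fin 315)) = gS 8 * gS 10 * gS 9 * gS 11 := by
  show gS 8 * gS 10 * (gS 8)⁻¹ * (gS 10)⁻¹ = _
  rw [gS_inv (by norm_num), gS_inv (by norm_num)]
  rfl

theorem ac3 : a3 * ⁅a3, b3⁆ = ⁅a3, b3⁆ * a3 := by
  apply Subtype.ext
  show gS 8 * ((⁅a3, b3⁆ : Pg) : Equiv.Perm (Fin 315)) = ((⁅a3, b3⁆ : Pg) : Equiv.Perm (Fin 315)) * gS 8
  rw [comm3_val]
  have := wval_eq_wval [11, 9, 10, 8, 8] [8, 11, 9, 10, 8] (by decide) (by decide) (by decide +kernel)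
  rw [gS_mul, gS_mul] at this
  simpa [wval, mul_assoc] using this

theorem bc3 : b3 * ⁅a3, b3⁆ = ⁅a3, b3⁆ * b3 := by
  apply Subtype.ext
  show gS 10 * ((⁅a3, b3⁆ : Pg) : Equiv.Perm (Fin 315)) = ((⁅a3, b3⁆ : Pg) : Equiv.Perm (Fin 315)) * gS 10
  rw [comm3_val]
  have := wval_eq_wval [11, 9, 10, 8, 10] [10, 11, 9, 10, 8] (by decide) (by decide) (by decide +kernel)
  rw [gS_mul, gS_mul] at this
  simpa [wval, mul_assoc] using this

theorem rc3 : r3 * ⁅a3, b3⁆ * r3⁻¹ = ⁅a3, b3⁆ := by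
  apply Subtype.ext
  show gS 12 * ((⁅a3, b3⁆ : Pg) : Equiv.Perm (Fin 315)) * (gS 12)⁻¹ = ((⁅a3, b3⁆ : Pg) : Equiv.Perm (Fin 315))
  rw [comm3_val, gS_inv (by norm_num)]
  have := wval_eq_wval [invS 12, 11, 9, 10, 8, 12] [11, 9, 10, 8] (by decide +kernel) (by decide +kernel) (by decide +kernel)
  rw [gS_mul, gS_mul] at this
  simpa [wval, mul_assoc] using this

end Local3

theorem c3_ne : ⁅pS 8 (by norm_num), pS 10 (by norm_num)⁆ ≠ (1 : Pg) := by
  intro h
  have h1 : gS 8 * gS 10 * gS 9 * gS 11 = 1 := by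
    rw [← comm3_val, h]; rfl
  refine wval_ne_one [11, 9, 10, 8] ⟨0, by decide⟩ (by decide) (by decide +kernel) ?_
  simpa [wval, mul_assoc] using h1

/-! ### The order of the kernel -/

section Up

variable {Γ : Type*} [Group Γ] [Finite Γ] {σ : Γ →* Pg}

theorem ker_pow_7 (hσ : IsStemExtension σ) {k : Γ} (hk : k ∈ σ.ker) : k ^ 86400 = 1 := by
  haveI : Fact (Nat.Prime 7) := ⟨by norm_num⟩
  haveI : Fintype Pg := Fintype.ofFinite _
  obtain ⟨a, ha⟩ := exists_prime_orderOf_dvd_card' (G := Pg) 7 (by rw [card_Pg]; norm_num)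
  have h1 := pow_index_eq_one hσ (Subgroup.zpowers a) (comap_comm_of_zpowers σ hσ.1 hσ.2.1 a) hk
  have h2 : (Subgroup.zpowers a).index = 86400 := by
    have h3 := Subgroup.card_mul_index (Subgroup.zpowers a)
    rw [Nat.card_zpowers, ha, card_Pg] at h3
    omega
  rwa [h2] at h1

theorem index_dvd_of_card {H : Subgroup Pg} {d e : ℕ} (hd : d ∣ Nat.card H) (he : 604800 = d * e) (hd0 : 0 < d) :
    H.index ∣ e := by
  obtain ⟨c, hc⟩ := hd
  have h1 := Subgroup.card_mul_index H
  rw [card_Pg, hc, he, mul_assoc] at h1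
  have h2 : c * H.index = e := Nat.eq_of_mul_eq_mul_left hd0 h1
  exact ⟨c, by rw [← h2, mul_comm]⟩

theorem ker_pow_5 (hσ : IsStemExtension σ) {k : Γ} (hk : k ∈ σ.ker) : k ^ 24192 = 1 := by
  have h1 := refl_pow_index hσ (p := 5) (by norm_num) a5_pow ab5 ta5 tb5 hk
  obtain ⟨c, hc⟩ := index_dvd_of_card (e := 24192) card_A5 (by norm_num) (by norm_num)
  rw [hc, pow_mul, h1, one_pow]

theorem ker_pow_3 (hσ : IsStemExtension σ) {k : Γ} (hk : k ∈ σ.ker) : k ^ 22400 = 1 := by
  have h1 := class2_pow_index hσ a3_pow b3_eq rb3 ac3 bc3 rc3 c3_ne hk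
  obtain ⟨c, hc⟩ := index_dvd_of_card (e := 22400) card_A3 (by norm_num) (by norm_num)
  rw [hc, pow_mul, h1, one_pow]

theorem ker_pow_128 (hσ : IsStemExtension σ) : ∀ k ∈ σ.ker, k ^ 128 = 1 := by
  intro k hk
  have h1 := pow_gcd_eq_one.mpr ⟨ker_pow_7 hσ hk, ker_pow_5 hσ hk⟩
  have h2 := pow_gcd_eq_one.mpr ⟨h1, ker_pow_3 hσ hk⟩
  have : Nat.gcd (Nat.gcd 86400 24192) 22400 = 128 := by norm_num
  rwa [this] at h2

theorem sG1_pow : sG 1 ^ 3 = 1 := by
  rw [sG_1]
  apply Subtype.ext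
  show gS 1 ^ 3 = 1
  have := wval_eq_one_of_chk tbS 0 9 (by norm_num) [1, 1, 1] (by decide) (by decide +kernel)
  rw [gS_mul] at this
  simpa [wval, pow_succ, mul_assoc] using this

theorem sG01_pow : (sG 0 * sG 1) ^ 7 = 1 := by
  rw [sG_0, sG_1]
  apply Subtype.ext
  show (gS 0 * gS 1) ^ 7 = 1
  have := wval_eq_one_of_chk tbS 0 9 (by norm_num) [1, 0, 1, 0, 1, 0, 1, 0, 1, 0, 1, 0, 1, 0] (by decide) (by decide +kernel)
  rw [gS_mul] at this
  simpa [wval, pow_succ, mul_assoc] using this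

theorem index_ker_H75 (hσ : IsStemExtension σ) : (σ.ker.subgroupOf (H75.comap σ)).index = 75 := by
  let f : H75.comap σ →* H75 := σ.subgroupComap H75
  have hf : Function.Surjective f := σ.subgroupComap_surjective_of_surjective H75 hσ.1
  have h1 : f.ker = σ.ker.subgroupOf (H75.comap σ) := by
    ext y
    rw [MonoidHom.mem_ker, Subgroup.mem_subgroupOf, MonoidHom.mem_ker]
    constructor
    · intro h
      exact congrArg Subtype.val h
    · intro h
      exact Subtype.ext h
  rw [← h1, Subgroup.index_ker, MonoidHom.range_eq_top.mpr hf]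
  rw [Nat.card_congr (Subgroup.topEquiv).toEquiv, card_H75]

/-- The upper bound for the Schur multiplier. -/
theorem up (hσ : IsStemExtension σ) : ∃ u ∈ σ.ker, u ^ 2 = 1 ∧ ∀ k ∈ σ.ker, k ∈ Subgroup.zpowers u := by
  have h128 := ker_pow_128 hσ
  obtain ⟨y, hy, hy3⟩ := exists_lift_pow hσ (n := 3) (u := 85) sG1_pow h128 (by norm_num)
  obtain ⟨w, hw, hw7⟩ := exists_lift_pow hσ (n := 7) (u := 73) sG01_pow h128 (by norm_num)
  let x : ℕ → Γ := fun i => if i = 0 then w * y⁻¹ else if i = 1 then y else 1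
  have hx0 : x 0 = w * y⁻¹ := by simp [x]
  have hx1 : x 1 = y := by simp [x]
  have hx : ∀ i, σ (x i) = sG i := by
    intro i
    by_cases h0 : i = 0
    · subst h0
      rw [hx0, map_mul, map_inv, hy, hw]
      simp
    · by_cases h1 : i = 1
      · subst h1
        rw [hx1, hy]
      · simp [x, sG, h0, h1]
  have hl0 : lett x 0 = w * y⁻¹ := by
    have := lett_even x 0
    simpa [hx0] using this
  have hl2 : lett x 2 = y := by
    have := lett_even x 1
    simpa [hx1] using this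
  have hnorm : ∀ j, j < cert.R → cert.normal j = true → evW x (cert.rels j) = 1 := by
    intro j hjR hj
    have hjR' : j < 4 := hjR
    interval_cases j
    · simp [cert] at hj
    · have e : cert.rels 1 = [2, 2, 2] := by decide +kernel
      rw [e]
      simp only [evW, hl2, mul_one]
      simpa [pow_succ, mul_assoc] using hy3
    · have e : cert.rels 2 = [0, 2, 0, 2, 0, 2, 0, 2, 0, 2, 0, 2, 0, 2] := by decide +kernel
      rw [e]
      simp only [evW, hl2, hl0, mul_one]
      have h2 : w * y⁻¹ * (y * (w * y⁻¹ * (y * (w * y⁻¹ * (y * (w * y⁻¹ * (y * (w * y⁻¹ * (y * (w * y⁻¹ * (y * (w * y⁻¹ * y)))))))))))) = w ^ 7 := by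
        simp [pow_succ, mul_assoc]
      rw [h2, hw7]
    · simp [cert] at hj
  have hHt : ∀ z, z ∈ H75.comap σ ↔ σ z • mask 0 = mask 0 := by
    intro z
    rw [Subgroup.mem_comap, MulAction.mem_stabilizer_iff]
  have hle : σ.ker ≤ H75.comap σ := by
    intro z hz
    rw [Subgroup.mem_comap, MonoidHom.mem_ker.mp hz]
    exact Subgroup.one_mem _
  obtain ⟨ρ, hρ⟩ := exists_retraction_of_index hσ.2.1 (H75.comap σ) hle (d := 75) (e := 99) (E := 128)
    (index_ker_H75 hσ) h128 (by norm_num) (by norm_num)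
  letI : CommGroup σ.ker := { (inferInstance : Group σ.ker) with
    mul_comm := fun a b => Subtype.ext (Subgroup.mem_center_iff.mp (hσ.2.1 b.2) a.1) }
  have hE : ∀ b : σ.ker, b ^ cert.E = 1 := fun b => Subtype.ext (h128 b.1 b.2)
  obtain ⟨u, hu, hall⟩ := ker_cyclic_of_cert hσ hHt ρ hρ (MonoidHom.id σ.ker) cert cert_ok hE
    (mask := mask) rfl hmne hms hgen hx hrels hrel hnorm
  refine ⟨u.1, u.2, congrArg Subtype.val hu, ?_⟩
  intro k hk
  obtain ⟨n, hn⟩ := hall ⟨k, hk⟩
  exact ⟨n, congrArg Subtype.val hn⟩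

end Up

end Cfsg.Agent.Lib.J2SchurUp12
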