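import Mathlib
import Cfsg.Agent.Lib.Co2Rel20Base
import Cfsg.Agent.Lib.PermChain12

set_option autoImplicit false
set_option linter.unusedVariables false
set_option linter.unusedSectionVars false
set_option maxRecDepth 100000

/-!
# Tables of lattice automorphisms on the frame `8 e_i`, and fast inner products of codes
-/

namespace Cfsg.Agent.Lib.J2Sec20

open Cfsg Cfsg.Agent.Lib.CoVec Cfsg.Agent.Lib.CoConf MulAction
open Cfsg.Agent.Lib.Co3Rel19 (dd dd_val dd_eq smul_dd smul_dd_eq dd_inj)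
open Cfsg.Agent.Lib.PermChain12 (force force_eq allB allB_spec)
open Cfsg.Agent.Lib.Golay (idx pt idx_pt pt_idx idxL)

/-! ### Fast sums over the bytes -/

/-- a byte at a bit position -/
def bb (x i : ℕ) : ℕ := Nat.land (Nat.shiftRight x i) 255

/-- a sum over the 24 bytes -/
def sum24 (f : ℕ → ℕ) : ℕ :=
  Nat.add (f 0) <| Nat.add (f 8) <| Nat.add (f 16) <| Nat.add (f 24) <| Nat.add (f 32) <| Nat.add (f 40) <|
  Nat.add (f 48) <| Nat.add (f 56) <| Nat.add (f 64) <| Nat.add (f 72) <| Nat.add (f 80) <| Nat.add (f 88) <|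
  Nat.add (f 96) <| Nat.add (f 104) <| Nat.add (f 112) <| Nat.add (f 120) <| Nat.add (f 128) <| Nat.add (f 136) <|
  Nat.add (f 144) <| Nat.add (f 152) <| Nat.add (f 160) <| Nat.add (f 168) <| Nat.add (f 176) (f 184)

theorem sum24_eq (f : ℕ → ℕ) : sum24 f = (idxL.map fun i => f (8 * i)).sum := by
  have e : idxL = [0,1,2,3,4,5,6,7,8,9,10,11,12,13,14,15,16,17,18,19,20,21,22,23] := rfl
  rw [e]
  simp only [List.map_cons, List.map_nil, List.sum_cons, List.sum_nil, add_zero, Nat.reduceMul]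
  rfl

theorem bb_eq (x i : ℕ) : bb x (8 * i) = byte x i := rfl

/-- the fast product -/
def dotP (x y : ℕ) : ℕ := sum24 fun i => Nat.mul (bb x i) (bb y i)
/-- the fast sum -/
def dotS (x y : ℕ) : ℕ := sum24 fun i => Nat.add (bb x i) (bb y i)

theorem dotA_eq (x y : ℕ) : dotA x y = dotP x y + 393216 := by
  unfold dotA dotP
  rw [sum24_eq]
  rfl

theorem dotB_eq (x y : ℕ) : dotB x y = 128 * dotS x y := by
  unfold dotB dotS
  rw [sum24_eq]
  rfl

/-- Compare two inner products. -/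
def eqD (x y u v : ℕ) : Bool :=
  Nat.beq (Nat.add (dotP x y) (Nat.mul 128 (dotS u v))) (Nat.add (dotP u v) (Nat.mul 128 (dotS x y)))

theorem dotInt_eq_of_eqD {x y u v : ℕ} (h : eqD x y u v = true) : dotInt (dec x) (dec y) = dotInt (dec u) (dec v) := by
  have h1 : dotP x y + 128 * dotS u v = dotP u v + 128 * dotS x y := Nat.eq_of_beq_eq_true h
  rw [dotInt_dec, dotInt_dec, dotA_eq, dotA_eq, dotB_eq, dotB_eq]
  push_cast
  have h2 : ((dotP x y + 128 * dotS u v : ℕ) : ℤ) = ((dotP u v + 128 * dotS x y : ℕ) : ℤ) := by rw [h1]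
  push_cast at h2
  linarith

/-- An inner product has a value: `dotP x y + 393216 + a = 128 * dotS x y + b`, the inner product being `b - a`. -/
def dotV (x y a b : ℕ) : Bool :=
  Nat.beq (Nat.add (Nat.add (dotP x y) 393216) a) (Nat.add (Nat.mul 128 (dotS x y)) b)

theorem dotInt_of_dotV {x y a b : ℕ} (h : dotV x y a b = true) : dotInt (dec x) (dec y) = (b : ℤ) - a := by
  have h1 : dotP x y + 393216 + a = 128 * dotS x y + b := Nat.eq_of_beq_eq_true h
  rw [dotInt_dec, dotA_eq, dotB_eq]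
  have h2 : ((dotP x y + 393216 + a : ℕ) : ℤ) = ((128 * dotS x y + b : ℕ) : ℤ) := by rw [h1]
  push_cast at h2 ⊢
  linarith

theorem dotV_of_dotInt {x y a b : ℕ} (h : dotInt (dec x) (dec y) = (b : ℤ) - a) : dotV x y a b = true := by
  rw [dotInt_dec, dotA_eq, dotB_eq] at h
  push_cast at h
  have h1 : dotP x y + 393216 + a = 128 * dotS x y + b := by
    zify
    linarith
  show Nat.beq _ _ = true
  rw [Nat.beq_eq]
  exact h1

/-! ### The frame -/

theorem eightV_uv (j : GolayPt) : Cfsg.Agent.Lib.Co0Mod.eightV (Cfsg.Agent.Lib.Co0Mod.uv j) = Cfsg.Agent.S0398.e8 j := by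
  apply Subtype.ext
  funext i
  rw [Cfsg.Agent.S0398.e8_apply]
  show 8 * Cfsg.Agent.Lib.Co0Mod.uv j i = _
  simp only [Cfsg.Agent.Lib.Co0Mod.uv]
  split_ifs <;> simp

theorem eq_of_e8 {g h : Co0} (H : ∀ i : GolayPt, g • Cfsg.Agent.S0398.e8 i = h • Cfsg.Agent.S0398.e8 i) : g = h := by
  have h0 : Cfsg.Agent.Lib.Co0Mod.M g = Cfsg.Agent.Lib.Co0Mod.M h := by
    ext i j
    simp only [Cfsg.Agent.Lib.Co0Mod.M, Cfsg.Agent.Lib.Co0Mod.img, eightV_uv]
    have := H j
    simp only [smul_eq_perm] at this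
    rw [this]
  have h1 : Cfsg.Agent.Lib.Co0Mod.Mhom g = Cfsg.Agent.Lib.Co0Mod.Mhom h := h0
  have h2 : Cfsg.Agent.Lib.Co0Mod.Mhom (g * h⁻¹) = 1 := by
    rw [map_mul, h1, ← map_mul, mul_inv_cancel, map_one]
  have h3 := Cfsg.Agent.Lib.Co0Mod.eq_one_of_M h2
  exact mul_inv_eq_one.1 h3

/-- the code of `8 e_i` -/
def e8c (i : ℕ) : ℕ := 3273554710163973038051862976772086327662202646313320939904 * 0 + negK / 2 + 8 * 256 ^ i

theorem e8c_chk : ∀ i < 24, stChk (e8c i) = true := by decide +kernel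

theorem St_e8c {i : ℕ} (hi : i < 24) : St (e8c i) := St_of_stChk (e8c_chk i hi)

theorem dec_e8c_chk : ∀ i < 24, ∀ j < 24, byte (e8c i) j = if j = i then 136 else 128 := by decide +kernel

theorem dd_e8c {i : ℕ} (hi : i < 24) : dd (e8c i) = Cfsg.Agent.S0398.e8 (pt i) := by
  apply Subtype.ext
  rw [dd_val (St_e8c hi)]
  funext p
  rw [Cfsg.Agent.S0398.e8_apply]
  have hp := Cfsg.Agent.Lib.Golay.idx_lt p
  show (byte (e8c i) (idx p) : ℤ) - 128 = _
  rw [dec_e8c_chk i hi (idx p) hp]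
  by_cases h : idx p = i
  · have : p = pt i := by rw [← h, pt_idx]
    rw [if_pos h, if_pos this]
    norm_num
  · have : p ≠ pt i := by
      rintro rfl
      exact h (idx_pt hi)
    rw [if_neg h, if_neg this]
    norm_num

theorem dot_e8 (x : GolayPt → ℤ) (i : GolayPt) : dotInt x (Cfsg.Agent.S0398.e8 i : GolayPt → ℤ) = 8 * x i := by
  unfold dotInt
  rw [Finset.sum_eq_single i]
  · rw [Cfsg.Agent.S0398.e8_apply]; simp; ring
  · intro b _ hb
    rw [Cfsg.Agent.S0398.e8_apply]; simp [hb]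
  · simp

theorem eq_of_dot {a b : LL}
    (H : ∀ k < 24, dotInt (a : GolayPt → ℤ) (dd (e8c k) : LL) = dotInt (b : GolayPt → ℤ) (dd (e8c k) : LL)) : a = b := by
  apply Subtype.ext
  funext p
  have hp := Cfsg.Agent.Lib.Golay.idx_lt p
  have h := H (idx p) hp
  rw [dd_e8c hp, pt_idx, dot_e8, dot_e8] at h
  omega

/-- `g` has the table `t` on the frame. -/
def Tb (g : Co0) (t : ℕ → ℕ) : Prop := ∀ i < 24, St (t i) ∧ g • dd (e8c i) = dd (t i)

theorem Tb.ext {g h : Co0} {t : ℕ → ℕ} (hg : Tb g t) (hh : Tb h t) : g = h := by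
  apply eq_of_e8
  intro p
  have hp := Cfsg.Agent.Lib.Golay.idx_lt p
  have e := pt_idx p
  rw [← e, ← dd_e8c hp, (hg _ hp).2, (hh _ hp).2]

theorem Tb_of_acts {g : Co0} {f : ℕ → ℕ} (hg : ActsOn g f) {t : ℕ → ℕ} (h : ∀ i < 24, f (e8c i) = t i) : Tb g t := by
  intro i hi
  refine ⟨?_, smul_dd_eq hg (St_e8c hi) (h i hi)⟩
  rw [← h i hi]
  exact hg.st (St_e8c hi)

theorem dot_dd' {a b : ℕ} (ha : St a) (hb : St b) :
    dotInt ((dd a : LL) : GolayPt → ℤ) ((dd b : LL) : GolayPt → ℤ) = dotInt (dec a) (dec b) := by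
  rw [dd_val ha, dd_val hb]

/-- The main relation: the table of a conjugate. -/
theorem rel_step {g h : Co0} {ta tb tc : ℕ → ℕ} (hg : Tb g ta) (hh : Tb h tb) (hh2 : h * h = 1)
    (hc : ∀ i < 24, St (tc i))
    (chk : ∀ i < 24, ∀ k < 24, eqD (ta i) (tb k) (tc i) (ta k) = true) : Tb (g * h * g) tc := by
  intro i hi
  refine ⟨hc i hi, ?_⟩
  have key : g⁻¹ • ((g * h * g) • dd (e8c i)) = g⁻¹ • dd (tc i) := by
    apply eq_of_dot
    intro k hk
    have e1 : ∀ x : LL, dotInt ((g⁻¹ • x : LL) : GolayPt → ℤ) (dd (e8c k) : LL) = dotInt (x : GolayPt → ℤ) (dd (ta k) : LL) := by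
      intro x
      rw [← (hg k hk).2, ← dot_smul g (g⁻¹ • x), smul_inv_smul]
    rw [e1, e1]
    rw [dot_dd' (hc i hi) (hg k hk).1, ← dotInt_eq_of_eqD (chk i hi k hk)]
    rw [← dot_dd' (hg i hi).1 (hh k hk).1, ← (hg i hi).2, ← (hh k hk).2]
    have e2 : (g * h * g) • dd (e8c i) = g • (h • (g • dd (e8c i))) := by
      rw [mul_smul, mul_smul]
    rw [e2, ← (hg k hk).2, dot_smul]
    have e3 : dd (e8c k) = h • (h • dd (e8c k)) := by
      rw [← mul_smul, hh2, one_smul]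
    conv_lhs => rw [e3]
    rw [dot_smul]
  exact smul_left_cancel _ key

/-! ### Counting -/

/-- A step in the chain. -/
theorem card_le_step {K : Subgroup Co0} (p : LL) (S : Finset LL) (h : ∀ k ∈ K, k • p ∈ S) :
    Nat.card K ≤ S.card * Nat.card ↥(K ⊓ stabilizer Co0 p) := by
  classical
  have h2 := Subgroup.card_mul_index (stabilizer K p)
  rw [index_stabilizer] at h2
  have e : stabilizer K p ≃* ↥(K ⊓ stabilizer Co0 p) :=
    { toFun := fun m => ⟨m.1.1, m.1.2, m.2⟩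
      invFun := fun m => ⟨⟨m.1, m.2.1⟩, m.2.2⟩
      left_inv := fun m => rfl
      right_inv := fun m => rfl
      map_mul' := fun a b => rfl }
  rw [← Nat.card_congr e.toEquiv, ← h2, mul_comm]
  apply Nat.mul_le_mul_right
  have h3 : orbit K p ⊆ (S : Set LL) := by
    rintro _ ⟨k, rfl⟩
    exact h k.1 k.2
  calc (orbit K p).ncard ≤ (S : Set LL).ncard := Set.ncard_le_ncard h3 (Finset.finite_toSet S)
    _ = S.card := Set.ncard_coe_finset S

end Cfsg.Agent.Lib.J2Sec20
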