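import Cfsg.Agent.Lib.J3Chain
import Cfsg.Agent.Lib.J3IsoData

/-!
Action of `threeJ3 K4 w` on isotropic vectors: one orbit up to scalars.
-/

set_option autoImplicit false
set_option linter.style.haveILetI false
set_option maxRecDepth 100000

namespace Cfsg.Agent.Lib.J3Iso

open Cfsg.Spor Subgroup Matrix
open Cfsg.Agent.Lib.F4Mat Cfsg.Agent.Lib.ChainCert Cfsg.Agent.Lib.J3Code Cfsg.Agent.Lib.J3Data
  Cfsg.Agent.Lib.J3Chain Cfsg.Agent.Lib.J3IsoData

/-- parities of 9-bit numbers -/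
def PAR : ℕ := nat_lit 7877703466965951741784356862959128443265788382021580589009765834561689170293574700951863729220303088751879007905492507289381878411509378061636115163081110

/-- parity of a 9-bit number -/
def par9 (m : ℕ) : ℕ := Nat.land (Nat.shiftRight PAR m) (nat_lit 1)

/-- row `i` of a plane -/
def row9 (x i : ℕ) : ℕ := Nat.land (Nat.shiftRight x i) (nat_lit 511)

/-- the parity at row `i` -/
def pm (x y i : ℕ) : ℕ := par9 (Nat.land (row9 x i) y)

/-- `F₂`-matrix times vector -/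
def mm (x y : ℕ) : ℕ :=
  Nat.lor (Nat.lor (Nat.lor (Nat.lor (Nat.lor (Nat.lor (Nat.lor (Nat.lor (pm x y 0)
    (Nat.shiftLeft (pm x y 9) 1)) (Nat.shiftLeft (pm x y 18) 2)) (Nat.shiftLeft (pm x y 27) 3))
    (Nat.shiftLeft (pm x y 36) 4)) (Nat.shiftLeft (pm x y 45) 5)) (Nat.shiftLeft (pm x y 54) 6))
    (Nat.shiftLeft (pm x y 63) 7)) (Nat.shiftLeft (pm x y 72) 8)

/-- low plane of a vector -/
def vU (n : ℕ) : ℕ := Nat.land n (nat_lit 511)
/-- high plane of a vector -/
def vV (n : ℕ) : ℕ := Nat.land (Nat.shiftRight n (nat_lit 9)) (nat_lit 511)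

/-- matrix times vector -/
def mvC (s n : ℕ) : ℕ :=
  letN (Nat.land s maskP) fun s0 => letN (Nat.shiftRight s (nat_lit 81)) fun s1 =>
    letN (vU n) fun u => letN (vV n) fun v =>
    letN (mm s0 u) fun P => letN (mm s1 v) fun Q => letN (mm (Nat.xor s0 s1) (Nat.xor u v)) fun T =>
      Nat.lor (Nat.xor P Q) (Nat.shiftLeft (Nat.xor T P) (nat_lit 9))

/-- multiplication of a vector by the scalar `w` -/
def sc1 (n : ℕ) : ℕ :=
  letN (vU n) fun u => letN (vV n) fun v => Nat.lor v (Nat.shiftLeft (Nat.xor u v) (nat_lit 9))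

/-- the vector with code `n` -/
def vecC (n : ℕ) : Fin 9 → K4 := fun i => cb K4 n i + cb K4 n (9 + i) * K4.w

/-! ### soundness -/

theorem testBit_vU (n j : ℕ) (hj : j < 9) : (vU n).testBit j = n.testBit j := by
  have : vU n = n &&& 511 := rfl
  rw [this, Nat.testBit_and, show (511 : ℕ) = 2 ^ 9 - 1 by norm_num, Nat.testBit_two_pow_sub_one]
  simp [hj]

theorem testBit_vV (n j : ℕ) (hj : j < 9) : (vV n).testBit j = n.testBit (9 + j) := by
  have : vV n = (n >>> 9) &&& 511 := rfl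
  rw [this, Nat.testBit_and, show (511 : ℕ) = 2 ^ 9 - 1 by norm_num, Nat.testBit_two_pow_sub_one,
    Nat.testBit_shiftRight]
  simp [hj]

theorem vU_lt (n : ℕ) : vU n < 2 ^ 9 := by
  have : vU n = n &&& 511 := rfl
  rw [this]
  exact lt_of_le_of_lt Nat.and_le_right (by norm_num)

theorem vV_lt (n : ℕ) : vV n < 2 ^ 9 := by
  have : vV n = (n >>> 9) &&& 511 := rfl
  rw [this]
  exact lt_of_le_of_lt Nat.and_le_right (by norm_num)

theorem sum_par : ∀ m : Fin 512, (∑ j : Fin 9, cb K4 m.val j.val) = cb K4 (par9 m.val) 0 := by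
  decide +kernel

theorem par9_lt (m : ℕ) : par9 m < 2 := by
  have : par9 m = (PAR >>> m) &&& 1 := rfl
  rw [this]
  exact lt_of_le_of_lt Nat.and_le_right (by norm_num)

theorem row9_lt (x i : ℕ) : row9 x i < 2 ^ 9 := by
  have : row9 x i = (x >>> i) &&& 511 := rfl
  rw [this]
  exact lt_of_le_of_lt Nat.and_le_right (by norm_num)

theorem land_lt (a y : ℕ) (h : a < 2 ^ 9) : Nat.land a y < 512 := by
  have : Nat.land a y = a &&& y := rfl
  rw [this]
  exact lt_of_le_of_lt Nat.and_le_left h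

theorem testBit_land_row (x i y j : ℕ) (hj : j < 9) :
    (Nat.land (row9 x i) y).testBit j = (x.testBit (i + j) && y.testBit j) := by
  have h1 : Nat.land (row9 x i) y = row9 x i &&& y := rfl
  have h2 : row9 x i = (x >>> i) &&& 511 := rfl
  rw [h1, Nat.testBit_and, h2, Nat.testBit_and, Nat.testBit_shiftRight,
    show (511 : ℕ) = 2 ^ 9 - 1 by norm_num, Nat.testBit_two_pow_sub_one]
  simp [hj]

theorem cb_pm (x y i : ℕ) : cb K4 (pm x y i) 0 = ∑ j : Fin 9, cb K4 x (i + j.val) * cb K4 y j.val := by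
  have h := sum_par ⟨Nat.land (row9 x i) y, land_lt _ _ (row9_lt x i)⟩
  simp only at h
  have h1 : pm x y i = par9 (Nat.land (row9 x i) y) := rfl
  rw [h1, ← h]
  apply Finset.sum_congr rfl
  intro j _
  unfold cb
  rw [testBit_land_row _ _ _ _ j.2]
  cases x.testBit (i + j.val) <;> cases y.testBit j.val <;> simp

theorem testBit_shift_one {a : ℕ} (ha : a < 2) (l k : ℕ) :
    (a <<< l).testBit k = (decide (k = l) && a.testBit 0) := by
  rw [Nat.testBit_shiftLeft]
  by_cases h : k = l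
  · subst h
    simp
  · by_cases h2 : l ≤ k
    · have h3 : a.testBit (k - l) = false := by
        apply Nat.testBit_lt_two_pow
        calc a < 2 := ha
          _ = 2 ^ 1 := by norm_num
          _ ≤ 2 ^ (k - l) := Nat.pow_le_pow_right (by norm_num) (by omega)
      simp [h, h3]
    · simp [h, h2]

theorem pm_lt (x y i : ℕ) : pm x y i < 2 := par9_lt _

theorem mm_eq (x y : ℕ) : mm x y =
    pm x y 0 ||| (pm x y 9 <<< 1) ||| (pm x y 18 <<< 2) ||| (pm x y 27 <<< 3) ||| (pm x y 36 <<< 4) |||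
    (pm x y 45 <<< 5) ||| (pm x y 54 <<< 6) ||| (pm x y 63 <<< 7) ||| (pm x y 72 <<< 8) := rfl

theorem testBit_mm (x y k : ℕ) (hk : k < 9) : (mm x y).testBit k = (pm x y (9 * k)).testBit 0 := by
  rw [mm_eq]
  simp only [Nat.testBit_or, testBit_shift_one (pm_lt x y _)]
  have h0 : (pm x y 0).testBit k = (decide (k = 0) && (pm x y 0).testBit 0) := by
    have := testBit_shift_one (pm_lt x y 0) 0 k
    simpa using this
  rw [h0]
  interval_cases k <;> simp

theorem cb_mm (x y k : ℕ) (hk : k < 9) :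
    cb K4 (mm x y) k = ∑ j : Fin 9, cb K4 x (9 * k + j.val) * cb K4 y j.val := by
  rw [← cb_pm]
  unfold cb
  rw [testBit_mm x y k hk]

theorem shift_lt {a : ℕ} (ha : a < 2) (l : ℕ) (hl : l < 9) : a <<< l < 2 ^ 9 := by
  rw [Nat.shiftLeft_eq]
  calc a * 2 ^ l < 2 * 2 ^ l := Nat.mul_lt_mul_of_pos_right ha (by positivity)
    _ = 2 ^ (l + 1) := by ring
    _ ≤ 2 ^ 9 := Nat.pow_le_pow_right (by norm_num) (by omega)

theorem mm_lt (x y : ℕ) : mm x y < 2 ^ 9 := by
  rw [mm_eq]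
  have h0 : pm x y 0 < 2 ^ 9 := lt_of_lt_of_le (pm_lt _ _ _) (by norm_num)
  exact Nat.or_lt_two_pow (Nat.or_lt_two_pow (Nat.or_lt_two_pow (Nat.or_lt_two_pow (Nat.or_lt_two_pow
    (Nat.or_lt_two_pow (Nat.or_lt_two_pow (Nat.or_lt_two_pow h0 (shift_lt (pm_lt _ _ _) _ (by norm_num)))
    (shift_lt (pm_lt _ _ _) _ (by norm_num))) (shift_lt (pm_lt _ _ _) _ (by norm_num)))
    (shift_lt (pm_lt _ _ _) _ (by norm_num))) (shift_lt (pm_lt _ _ _) _ (by norm_num)))
    (shift_lt (pm_lt _ _ _) _ (by norm_num))) (shift_lt (pm_lt _ _ _) _ (by norm_num)))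
    (shift_lt (pm_lt _ _ _) _ (by norm_num))

theorem mvC_eq (s n : ℕ) : mvC s n =
    (mm (s &&& maskP) (vU n) ^^^ mm (s >>> 81) (vV n)) |||
      ((mm ((s &&& maskP) ^^^ (s >>> 81)) (vU n ^^^ vV n) ^^^ mm (s &&& maskP) (vU n)) <<< 9) := by
  unfold mvC
  simp only [letN_eq]
  rfl

theorem testBit_low {a b : ℕ} (ha : a < 2 ^ 9) (k : ℕ) (hk : k < 9) :
    (a ||| (b <<< 9)).testBit k = a.testBit k := by
  rw [Nat.testBit_or, Nat.testBit_shiftLeft]
  simp [show ¬ 9 ≤ k by omega]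

theorem testBit_high {a b : ℕ} (ha : a < 2 ^ 9) (k : ℕ) :
    (a ||| (b <<< 9)).testBit (9 + k) = b.testBit k := by
  rw [Nat.testBit_or, Nat.testBit_shiftLeft]
  have h1 : a.testBit (9 + k) = false := by
    apply Nat.testBit_lt_two_pow
    exact lt_of_lt_of_le ha (Nat.pow_le_pow_right (by norm_num) (by omega))
  simp [h1]

theorem cb_xor4 (u v k : ℕ) : cb K4 (u ^^^ v) k = cb K4 u k + cb K4 v k :=
  cb_xor K4.two_eq_zero u v k

theorem cb_lo (s k : ℕ) (hk : k < 81) : cb K4 (s &&& maskP) k = cb K4 s k := by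
  unfold cb
  rw [testBit_lo _ _ hk]

theorem cb_hi (s k : ℕ) : cb K4 (s >>> 81) k = cb K4 s (81 + k) := by
  unfold cb
  rw [testBit_hi]

theorem idx_lt' (i j : Fin 9) : 9 * i.val + j.val < 81 := idx_lt i j

theorem cb_vU (n j : ℕ) (hj : j < 9) : cb K4 (vU n) j = cb K4 n j := by
  unfold cb
  rw [testBit_vU _ _ hj]

theorem cb_vV (n j : ℕ) (hj : j < 9) : cb K4 (vV n) j = cb K4 n (9 + j) := by
  unfold cb
  rw [testBit_vV _ _ hj]

/-- Soundness of matrix times vector. -/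
theorem dec_mulVec (s n : ℕ) : dec K4.w s *ᵥ vecC n = vecC (mvC s n) := by
  funext i
  have hw := K4.w_mul_w
  have h2 := K4.two_eq_zero
  have hlt : mm (s &&& maskP) (vU n) ^^^ mm (s >>> 81) (vV n) < 2 ^ 9 :=
    Nat.xor_lt_two_pow (mm_lt _ _) (mm_lt _ _)
  have e1 : cb K4 (mvC s n) i.val = cb K4 (mm (s &&& maskP) (vU n)) i.val + cb K4 (mm (s >>> 81) (vV n)) i.val := by
    rw [mvC_eq, ← cb_xor4]
    unfold cb
    rw [testBit_low hlt _ i.2]
  have e2 : cb K4 (mvC s n) (9 + i.val) =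
      cb K4 (mm ((s &&& maskP) ^^^ (s >>> 81)) (vU n ^^^ vV n)) i.val + cb K4 (mm (s &&& maskP) (vU n)) i.val := by
    rw [mvC_eq, ← cb_xor4]
    unfold cb
    rw [testBit_high hlt]
  show (dec K4.w s *ᵥ vecC n) i = cb K4 (mvC s n) i.val + cb K4 (mvC s n) (9 + i.val) * K4.w
  rw [e1, e2, cb_mm _ _ _ i.2, cb_mm _ _ _ i.2, cb_mm _ _ _ i.2]
  have e3 : ∀ j : Fin 9, cb K4 (s &&& maskP) (9 * i.val + j.val) = cb K4 s (9 * i.val + j.val) :=
    fun j => cb_lo _ _ (idx_lt i j)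
  have e4 : ∀ j : Fin 9, cb K4 (s >>> 81) (9 * i.val + j.val) = cb K4 s (81 + (9 * i.val + j.val)) :=
    fun j => cb_hi _ _
  have e5 : ∀ j : Fin 9, cb K4 ((s &&& maskP) ^^^ (s >>> 81)) (9 * i.val + j.val) =
      cb K4 s (9 * i.val + j.val) + cb K4 s (81 + (9 * i.val + j.val)) := by
    intro j
    rw [cb_xor4, e3, e4]
  have e6 : ∀ j : Fin 9, cb K4 (vU n) j.val = cb K4 n j.val := fun j => cb_vU _ _ j.2
  have e7 : ∀ j : Fin 9, cb K4 (vV n) j.val = cb K4 n (9 + j.val) := fun j => cb_vV _ _ j.2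
  have e8 : ∀ j : Fin 9, cb K4 (vU n ^^^ vV n) j.val = cb K4 n j.val + cb K4 n (9 + j.val) := by
    intro j
    rw [cb_xor4, e6, e7]
  simp only [e3, e4, e5, e6, e7, e8]
  simp only [Matrix.mulVec, dotProduct, vecC, dec]
  rw [add_mul, Finset.sum_mul, Finset.sum_mul, ← Finset.sum_add_distrib, ← Finset.sum_add_distrib,
    ← Finset.sum_add_distrib]
  apply Finset.sum_congr rfl
  intro j _
  generalize cb K4 s (9 * i.val + j.val) = a
  generalize cb K4 s (81 + (9 * i.val + j.val)) = b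
  generalize cb K4 n j.val = c
  generalize cb K4 n (9 + j.val) = d
  have hw' : (K4.w : K4) * K4.w = K4.w + 1 := hw
  linear_combination (b * d) * hw' - (a * c * K4.w) * h2

theorem vecC_sc1_aux (p q : Bool) :
    (if q then (1 : K4) else 0) + (if (p ^^ q) then 1 else 0) * K4.w =
      K4.w * ((if p then 1 else 0) + (if q then 1 else 0) * K4.w) := by
  revert p q; decide

theorem sc1_eq (n : ℕ) : sc1 n = vV n ||| ((vU n ^^^ vV n) <<< 9) := by
  unfold sc1
  simp only [letN_eq]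
  rfl

/-- `sc1` is the scalar `w`. -/
theorem vecC_sc1 (n : ℕ) : vecC (sc1 n) = K4.w • vecC n := by
  funext i
  show cb K4 (sc1 n) i.val + cb K4 (sc1 n) (9 + i.val) * K4.w =
    K4.w * (cb K4 n i.val + cb K4 n (9 + i.val) * K4.w)
  have h1 : (sc1 n).testBit i.val = n.testBit (9 + i.val) := by
    rw [sc1_eq, testBit_low (vV_lt n) _ i.2, testBit_vV _ _ i.2]
  have h2 : (sc1 n).testBit (9 + i.val) = (n.testBit i.val ^^ n.testBit (9 + i.val)) := by
    rw [sc1_eq, testBit_high (vV_lt n), Nat.testBit_xor, testBit_vU _ _ i.2, testBit_vV _ _ i.2]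
  unfold cb
  rw [h1, h2]
  exact vecC_sc1_aux _ _

/-- the scaling by index -/
def scale (l p : ℕ) : ℕ :=
  cond (Nat.beq l (nat_lit 0)) p (cond (Nat.beq l (nat_lit 1)) (sc1 p) (sc1 (sc1 p)))

/-- the scalar by index -/
def scalarOf (l : ℕ) : K4 := cond (Nat.beq l 0) K4.e (cond (Nat.beq l 1) K4.w K4.v)

theorem scalarOf_ne (l : ℕ) : scalarOf l ≠ 0 := by
  unfold scalarOf
  cases Nat.beq l 0 <;> cases Nat.beq l 1 <;> decide

theorem vecC_scale (l p : ℕ) : vecC (scale l p) = scalarOf l • vecC p := by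
  unfold scale scalarOf
  cases Nat.beq l 0
  · cases Nat.beq l 1
    · simp only [cond_false]
      rw [vecC_sc1, vecC_sc1, smul_smul]
      rfl
    · simp only [cond_false, cond_true]
      rw [vecC_sc1]
  · simp only [cond_true]
    funext i
    show _ = K4.e * vecC p i
    exact (one_mul _).symm

/-! ### the check -/

/-- nonzero of even weight -/
def evenNZ (n : ℕ) : Bool :=
  (!(Nat.beq n (nat_lit 0))) && Nat.beq (par9 (Nat.lor (vU n) (vV n))) (nat_lit 0)

/-- the root -/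
def rootV : ℕ := nat_lit 3

/-- the rank -/
def rankOf (n : ℕ) : ℕ := Nat.shiftRight (eT n) (nat_lit 22)

/-- The check at a vector. -/
def chk (n : ℕ) : Bool :=
  cond (evenNZ n)
    (letN (eT n) fun e =>
      letN (Nat.land e (nat_lit 262143)) fun p =>
      letN (Nat.land (Nat.shiftRight e (nat_lit 18)) (nat_lit 3)) fun g =>
      letN (Nat.land (Nat.shiftRight e (nat_lit 20)) (nat_lit 3)) fun l =>
      cond (Nat.beq g (nat_lit 3)) (Nat.beq n rootV)
        (Nat.ble (Nat.succ p) (nat_lit 262144) && evenNZ p &&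
          Nat.ble (Nat.succ (rankOf p)) (Nat.shiftRight e (nat_lit 22)) &&
          Nat.beq (cond (Nat.beq g (nat_lit 2)) n (mvC (scT g) n)) (scale l p)))
    true



end Cfsg.Agent.Lib.J3Iso
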