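import Cfsg.Agent.Lib.J3Iso

/-! Kernel check of the tree of isotropic vectors (generated). -/

set_option autoImplicit false
set_option maxRecDepth 100000

namespace Cfsg.Agent.Lib.J3IsoChk

open Cfsg.Agent.Lib.ChainCert Cfsg.Agent.Lib.J3Iso

theorem ck_14_0 : allR chk 14 (nat_lit 0) = true := by decide +kernel
theorem ck_14_16384 : allR chk 14 (nat_lit 16384) = true := by decide +kernel
theorem ck_14_32768 : allR chk 14 (nat_lit 32768) = true := by decide +kernel
theorem ck_14_49152 : allR chk 14 (nat_lit 49152) = true := by decide +kernel
theorem ck_14_65536 : allR chk 14 (nat_lit 65536) = true := by decide +kernel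
theorem ck_14_81920 : allR chk 14 (nat_lit 81920) = true := by decide +kernel
theorem ck_14_98304 : allR chk 14 (nat_lit 98304) = true := by decide +kernel
theorem ck_14_114688 : allR chk 14 (nat_lit 114688) = true := by decide +kernel
theorem ck_14_131072 : allR chk 14 (nat_lit 131072) = true := by decide +kernel
theorem ck_14_147456 : allR chk 14 (nat_lit 147456) = true := by decide +kernel
theorem ck_14_163840 : allR chk 14 (nat_lit 163840) = true := by decide +kernel
theorem ck_14_180224 : allR chk 14 (nat_lit 180224) = true := by decide +kernel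
theorem ck_14_196608 : allR chk 14 (nat_lit 196608) = true := by decide +kernel
theorem ck_14_212992 : allR chk 14 (nat_lit 212992) = true := by decide +kernel
theorem ck_14_229376 : allR chk 14 (nat_lit 229376) = true := by decide +kernel
theorem ck_14_245760 : allR chk 14 (nat_lit 245760) = true := by decide +kernel
theorem ck_15_0 : allR chk 15 (nat_lit 0) = true := allR_join (mid := nat_lit 16384) rfl ck_14_0 ck_14_16384
theorem ck_15_32768 : allR chk 15 (nat_lit 32768) = true := allR_join (mid := nat_lit 49152) rfl ck_14_32768 ck_14_49152
theorem ck_15_65536 : allR chk 15 (nat_lit 65536) = true := allR_join (mid := nat_lit 81920) rfl ck_14_65536 ck_14_81920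
theorem ck_15_98304 : allR chk 15 (nat_lit 98304) = true := allR_join (mid := nat_lit 114688) rfl ck_14_98304 ck_14_114688
theorem ck_15_131072 : allR chk 15 (nat_lit 131072) = true := allR_join (mid := nat_lit 147456) rfl ck_14_131072 ck_14_147456
theorem ck_15_163840 : allR chk 15 (nat_lit 163840) = true := allR_join (mid := nat_lit 180224) rfl ck_14_163840 ck_14_180224
theorem ck_15_196608 : allR chk 15 (nat_lit 196608) = true := allR_join (mid := nat_lit 212992) rfl ck_14_196608 ck_14_212992
theorem ck_15_229376 : allR chk 15 (nat_lit 229376) = true := allR_join (mid := nat_lit 245760) rfl ck_14_229376 ck_14_245760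
theorem ck_16_0 : allR chk 16 (nat_lit 0) = true := allR_join (mid := nat_lit 32768) rfl ck_15_0 ck_15_32768
theorem ck_16_65536 : allR chk 16 (nat_lit 65536) = true := allR_join (mid := nat_lit 98304) rfl ck_15_65536 ck_15_98304
theorem ck_16_131072 : allR chk 16 (nat_lit 131072) = true := allR_join (mid := nat_lit 163840) rfl ck_15_131072 ck_15_163840
theorem ck_16_196608 : allR chk 16 (nat_lit 196608) = true := allR_join (mid := nat_lit 229376) rfl ck_15_196608 ck_15_229376
theorem ck_17_0 : allR chk 17 (nat_lit 0) = true := allR_join (mid := nat_lit 65536) rfl ck_16_0 ck_16_65536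
theorem ck_17_131072 : allR chk 17 (nat_lit 131072) = true := allR_join (mid := nat_lit 196608) rfl ck_16_131072 ck_16_196608
theorem ck_18_0 : allR chk 18 (nat_lit 0) = true := allR_join (mid := nat_lit 131072) rfl ck_17_0 ck_17_131072

theorem chk_all : ∀ n, n < 2 ^ 18 → chk n = true := by
  intro n hn
  exact of_allR chk 18 0 ck_18_0 n (Nat.zero_le _) (by omega)


end Cfsg.Agent.Lib.J3IsoChk
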