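import Cfsg.Agent.Lib.J3IsoChk

/-! Isotropic vectors form one orbit of `threeJ3 K4 w` up to scalars. -/

set_option autoImplicit false
set_option linter.style.haveILetI false

namespace Cfsg.Agent.Lib.J3IsoMain

open Cfsg.Spor Subgroup Matrix
open Cfsg.Agent.Lib.F4Mat Cfsg.Agent.Lib.ChainCert Cfsg.Agent.Lib.J3Code Cfsg.Agent.Lib.J3Data
  Cfsg.Agent.Lib.J3Chain Cfsg.Agent.Lib.J3IsoData Cfsg.Agent.Lib.J3Iso Cfsg.Agent.Lib.J3IsoChk

/-! ### reduction -/

/-- reindexed matrix -/
def toFin (x : GK) : Matrix (Fin 9) (Fin 9) K4 := (x : Matrix F9 F9 K4).submatrix e9.symm e9.symm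

theorem toFin_mul (x y : GK) : toFin (x * y) = toFin x * toFin y := by
  unfold toFin
  rw [Units.val_mul, Matrix.submatrix_mul_equiv]

theorem toFin_R {x : GK} {n : ℕ} (h : R x n) : toFin x = dec K4.w n := by
  unfold toFin
  rw [show (x : Matrix F9 F9 K4) = _ from h]
  ext i j
  simp

/-- a vector is in the orbit of the root, up to scalars -/
def POrb (n : ℕ) : Prop :=
  ∃ g ∈ G3, ∃ c : K4, c ≠ 0 ∧ toFin g *ᵥ vecC n = c • vecC rootV

theorem sxT_mem_G3 {g : ℕ} (hg : g < 2) : sxT g ∈ G3 := H_le (sx_mem sxT hg)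

theorem of_chk {n : ℕ} (hb : n < 2 ^ 18) (he : evenNZ n = true) :
    n = rootV ∨ ∃ p, p < 2 ^ 18 ∧ evenNZ p = true ∧ rankOf p < rankOf n ∧
      ∃ l, ((∃ g, g < 2 ∧ mvC (scT g) n = scale l p) ∨ n = scale l p) := by
  have h := chk_all n hb
  unfold chk at h
  rw [he] at h
  simp only [cond_true, letN_eq] at h
  by_cases hg : Nat.beq (Nat.land (Nat.shiftRight (eT n) (nat_lit 18)) (nat_lit 3)) (nat_lit 3) = true
  · rw [hg] at h
    left
    exact Nat.eq_of_beq_eq_true h
  · rw [Bool.not_eq_true] at hg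
    rw [hg] at h
    simp only [cond_false, Bool.and_eq_true] at h
    obtain ⟨⟨⟨h1, h2⟩, h3⟩, h4⟩ := h
    right
    refine ⟨_, Nat.le_of_ble_eq_true h1, h2, Nat.le_of_ble_eq_true h3,
      Nat.land (Nat.shiftRight (eT n) (nat_lit 20)) (nat_lit 3), ?_⟩
    have hg3 : Nat.land (Nat.shiftRight (eT n) (nat_lit 18)) (nat_lit 3) ≤ 3 := by
      have : Nat.land (Nat.shiftRight (eT n) (nat_lit 18)) (nat_lit 3) = ((eT n) >>> 18) &&& 3 := rfl
      rw [this]
      exact Nat.and_le_right
    have hne3 : Nat.land (Nat.shiftRight (eT n) (nat_lit 18)) (nat_lit 3) ≠ 3 := by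
      intro h5
      rw [h5] at hg
      exact absurd hg (by decide)
    generalize Nat.land (Nat.shiftRight (eT n) (nat_lit 18)) (nat_lit 3) = g at *
    by_cases hg2 : g = 2
    · subst hg2
      right
      have h6 : Nat.beq (2 : ℕ) (nat_lit 2) = true := rfl
      rw [h6] at h4
      exact Nat.eq_of_beq_eq_true h4
    · left
      have h6 : Nat.beq g (nat_lit 2) = false := by
        rw [← Bool.not_eq_true]
        intro h7
        exact hg2 (Nat.eq_of_beq_eq_true h7)
      rw [h6] at h4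
      exact ⟨g, by omega, Nat.eq_of_beq_eq_true h4⟩

theorem POrb_all : ∀ n, n < 2 ^ 18 → evenNZ n = true → POrb n := by
  suffices h : ∀ r n, rankOf n = r → n < 2 ^ 18 → evenNZ n = true → POrb n from
    fun n hn he => h _ n rfl hn he
  intro r
  induction r using Nat.strong_induction_on with
  | _ r ih =>
    intro n hr hn he
    rcases of_chk hn he with h1 | ⟨p, hp, hpe, hpr, l, hl⟩
    · subst h1
      exact ⟨1, G3.one_mem, 1, one_ne_zero, by
        have : toFin 1 = 1 := by
          unfold toFin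
          exact Matrix.submatrix_one_equiv _
        rw [this, Matrix.one_mulVec, one_smul]⟩
    · obtain ⟨g, hg, c, hc, he2⟩ := ih _ (by omega) p rfl hp hpe
      have hs := scalarOf_ne l
      rcases hl with ⟨g2, hg2, he3⟩ | he3
      · refine ⟨g * sxT g2, G3.mul_mem hg (sxT_mem_G3 hg2), scalarOf l * c, mul_ne_zero hs hc, ?_⟩
        have h5 : toFin (sxT g2) *ᵥ vecC n = scalarOf l • vecC p := by
          rw [toFin_R (hsT g2 hg2), dec_mulVec, he3, vecC_scale]
        rw [toFin_mul, ← Matrix.mulVec_mulVec, h5, Matrix.mulVec_smul, he2, smul_smul]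
      · refine ⟨g, hg, scalarOf l * c, mul_ne_zero hs hc, ?_⟩
        rw [he3, vecC_scale, Matrix.mulVec_smul, he2, smul_smul]

/-! ### arbitrary vectors -/

theorem exists_bits (f : ℕ → Bool) : ∀ k, ∃ n, n < 2 ^ k ∧ ∀ i, i < k → n.testBit i = f i := by
  intro k
  induction k generalizing f with
  | zero => exact ⟨0, by norm_num, fun i hi => absurd hi (by omega)⟩
  | succ k ih =>
    obtain ⟨n, hn, hb⟩ := ih (fun i => f (i + 1))
    refine ⟨Nat.bit (f 0) n, ?_, ?_⟩
    · rw [Nat.bit_val]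
      have : (f 0).toNat ≤ 1 := Bool.toNat_le _
      rw [pow_succ]
      omega
    · intro i hi
      cases i with
      | zero => exact Nat.testBit_bit_zero _ _
      | succ i =>
        rw [Nat.testBit_bit_succ]
        exact hb i (by omega)

/-- first coordinate of an element -/
def lowb : K4 → Bool
  | K4.o => false
  | K4.e => true
  | K4.w => false
  | K4.v => true

/-- second coordinate of an element -/
def highb : K4 → Bool
  | K4.o => false
  | K4.e => false
  | K4.w => true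
  | K4.v => true

theorem lowhigh : ∀ a : K4, (if lowb a then (1 : K4) else 0) + (if highb a then 1 else 0) * K4.w = a := by
  decide

theorem exists_code (x : Fin 9 → K4) : ∃ n, n < 2 ^ 18 ∧ vecC n = x := by
  obtain ⟨n, hn, hb⟩ := exists_bits (fun i => if h : i < 9 then lowb (x ⟨i, h⟩) else
    if h2 : i - 9 < 9 then highb (x ⟨i - 9, h2⟩) else false) 18
  refine ⟨n, hn, ?_⟩
  funext i
  have h1 : n.testBit i.val = lowb (x i) := by
    rw [hb _ (by have := i.2; omega)]
    simp [i.2]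
  have h2 : n.testBit (9 + i.val) = highb (x i) := by
    rw [hb _ (by have := i.2; omega)]
    simp [i.2]
  show cb K4 n i.val + cb K4 n (9 + i.val) * K4.w = x i
  unfold cb
  rw [h1, h2]
  exact lowhigh _

theorem cube_aux (p q : Bool) : ((if p then (1 : K4) else 0) + (if q then 1 else 0) * K4.w) ^ 3 =
    if (p || q) then 1 else 0 := by
  revert p q; decide

theorem sum_cube (n : ℕ) : ∑ i : Fin 9, (vecC n i) ^ 3 = cb K4 (par9 (Nat.lor (vU n) (vV n))) 0 := by
  have hlt : Nat.lor (vU n) (vV n) < 512 := Nat.or_lt_two_pow (vU_lt n) (vV_lt n)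
  have h := sum_par ⟨_, hlt⟩
  simp only at h
  rw [← h]
  apply Finset.sum_congr rfl
  intro i _
  show (cb K4 n i.val + cb K4 n (9 + i.val) * K4.w) ^ 3 = _
  unfold cb
  rw [cube_aux]
  have h1 : (Nat.lor (vU n) (vV n)).testBit i.val = (n.testBit i.val || n.testBit (9 + i.val)) := by
    show (vU n ||| vV n).testBit i.val = _
    rw [Nat.testBit_or, testBit_vU _ _ i.2, testBit_vV _ _ i.2]
  rw [h1]

theorem evenNZ_of {n : ℕ} (h1 : vecC n ≠ 0) (h2 : ∑ i : Fin 9, (vecC n i) ^ 3 = 0) : evenNZ n = true := by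
  have h3 : n ≠ 0 := by
    rintro rfl
    apply h1
    funext i
    show cb K4 0 i.val + cb K4 0 (9 + i.val) * K4.w = 0
    simp [cb]
  rw [sum_cube] at h2
  have h4 : (par9 (Nat.lor (vU n) (vV n))).testBit 0 = false := by
    by_contra h5
    rw [Bool.not_eq_false] at h5
    unfold cb at h2
    rw [h5] at h2
    exact one_ne_zero h2
  have h5 : par9 (Nat.lor (vU n) (vV n)) = 0 := by
    have h6 := par9_lt (Nat.lor (vU n) (vV n))
    interval_cases h7 : par9 (Nat.lor (vU n) (vV n))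
    · rfl
    · simp at h4
  unfold evenNZ
  rw [h5]
  simp only [Bool.and_eq_true, Bool.not_eq_true']
  refine ⟨?_, rfl⟩
  rw [← Bool.not_eq_true]
  intro h8
  exact h3 (Nat.eq_of_beq_eq_true h8)

/-- The orbit theorem on `F9`-indexed vectors. -/
theorem orbit_K4 (x : F9 → K4) (h1 : x ≠ 0) (h2 : ∑ z, (x z) ^ 3 = 0) :
    ∃ g ∈ G3, ∃ c : K4, c ≠ 0 ∧ (g : Matrix F9 F9 K4) *ᵥ x = c • (vecC rootV ∘ e9) := by
  obtain ⟨n, hn, he⟩ := exists_code (x ∘ e9.symm)
  have h3 : vecC n ≠ 0 := by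
    rw [he]
    intro h4
    apply h1
    funext z
    have := congrFun h4 (e9 z)
    simpa using this
  have h4 : ∑ i : Fin 9, (vecC n i) ^ 3 = 0 := by
    rw [he, ← h2]
    exact Equiv.sum_comp e9.symm (fun z => (x z) ^ 3)
  obtain ⟨g, hg, c, hc, he2⟩ := POrb_all n hn (evenNZ_of h3 h4)
  refine ⟨g, hg, c, hc, ?_⟩
  rw [he] at he2
  have h5 : toFin g *ᵥ (x ∘ e9.symm) = ((g : Matrix F9 F9 K4) *ᵥ x) ∘ e9.symm := by
    unfold toFin
    rw [Matrix.submatrix_mulVec_equiv]
    simp [Function.comp_def]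
  rw [h5] at he2
  funext z
  have := congrFun he2 (e9 z)
  simpa using this

end Cfsg.Agent.Lib.J3IsoMain
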