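import Cfsg.Agent.Lib.J3LData
import Cfsg.Agent.Lib.J3Main

/-!
A subgroup of index 6156 of the triple cover of `J₃` over `K4` containing the centre.
-/

set_option autoImplicit false
set_option linter.style.haveILetI false

namespace Cfsg.Agent.Lib.J3LChain

open Cfsg.Spor Subgroup Matrix
open Cfsg.Agent.Lib.F4Mat Cfsg.Agent.Lib.ChainCert Cfsg.Agent.Lib.J3Code
  Cfsg.Agent.Lib.J3Chain Cfsg.Agent.Lib.J3Main Cfsg.Agent.Lib.J3LData

theorem in_G3 (c j l : ℕ) (hj : j < J3Check.nT) (hl : l < J3Check.nK)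
    (h : c = mulC (J3Data.tg j) (J3Data.kg l)) : ∃ x ∈ G3, R x c := by
  obtain ⟨y, hy, hyr⟩ := tg_in_H _ hj
  obtain ⟨k, hk, hkr⟩ := klevel_main.2.1 _ hl
  refine ⟨y * k, H_le (H.mul_mem hy (KK_le_H hk)), ?_⟩
  rw [h]
  exact R_mul hyr hkr

theorem p_in : ∃ x ∈ G3, R x (scT 0) :=
  in_G3 _ 14773 1977 (by decide) (by decide) (by decide +kernel)

theorem q_in : ∃ x ∈ G3, R x (scT 1) :=
  in_G3 _ 6262 135 (by decide) (by decide) (by decide +kernel)

/-- generators of the subgroup -/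
noncomputable def sxL (g : ℕ) : GK := if g = 0 then p_in.choose else q_in.choose

theorem hsL : ∀ g, g < 2 → R (sxL g) (scT g) := by
  intro g hg
  interval_cases g
  · simpa [sxL] using p_in.choose_spec.2
  · simpa [sxL] using q_in.choose_spec.2

/-- the subgroup -/
noncomputable abbrev LL : Subgroup GK := gensSub sxL 2

theorem LL_le : LL ≤ G3 := by
  refine (closure_le _).2 ?_
  rintro _ ⟨g, hg, rfl⟩
  have hg' : g < 2 := hg
  interval_cases g
  · simpa [sxL] using p_in.choose_spec.1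
  · simpa [sxL] using q_in.choose_spec.1

theorem hstT : ∀ m, m < 2 * nT → Pst m = true := st_all

theorem htreeT : ∀ i, i < nT → tg i = oneC ∨
    ∃ p, p < nT ∧ ∃ g, g < 2 ∧ trk p < trk i ∧
      ∀ x y, R x (scT g) → R y (tg p) → R (x * y) (tg i) :=
  htree_of_treeChkT CS (sc := scT) (nK := nK) hstT (fun i hi => tt_all i hi)

theorem tg_in : ∀ i, i < nT → ∃ x ∈ LL, R x (tg i) :=
  tree_mem CS LL sxL scT 2 (fun _ hg => sx_mem sxL hg) hsL tg nT trk htreeT

/-- the coset representative -/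
noncomputable def tE (i : ℕ) (hi : i < nT) : GK := (tg_in i hi).choose
theorem tE_mem (i : ℕ) (hi : i < nT) : tE i hi ∈ LL := (tg_in i hi).choose_spec.1
theorem tE_R (i : ℕ) (hi : i < nT) : R (tE i hi) (tg i) := (tg_in i hi).choose_spec.2

theorem h105 : 105 < nT := by decide
theorem h1 : 1 < nT := by decide
theorem h61 : 61 < nT := by decide
theorem h94 : 94 < nT := by decide

/-- the generators of the stabilizer -/
noncomputable def sxK0 : ℕ → GK := fun g =>
  if g = 0 then (tE 105 h105)⁻¹ * (sxL 0 * tE 1 h1)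
  else (tE 61 h61)⁻¹ * (sxL 1 * tE 94 h94)

theorem hsK : ∀ g, g < 2 → R (sxK0 g) (scK g) := by
  intro g hg
  interval_cases g
  · simp only [sxK0, if_true]
    apply R_cancel (tE_R _ _)
    have h : mulC (tg 105) (scK 0) = mulC (scT 0) (tg 1) := by decide +kernel
    rw [h]
    exact R_mul (hsL 0 (by norm_num)) (tE_R _ _)
  · simp only [sxK0, one_ne_zero, if_false]
    apply R_cancel (tE_R _ _)
    have h : mulC (tg 61) (scK 1) = mulC (scT 1) (tg 94) := by decide +kernel
    rw [h]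
    exact R_mul (hsL 1 (by norm_num)) (tE_R _ _)

theorem sxK0_mem : ∀ g, g < 2 → sxK0 g ∈ LL := by
  intro g hg
  have h0 := sx_mem sxL (ns := 2) (g := 0) (by norm_num)
  have h1 := sx_mem sxL (ns := 2) (g := 1) (by norm_num)
  interval_cases g
  · simp only [sxK0, if_true]
    exact LL.mul_mem (LL.inv_mem (tE_mem _ _)) (LL.mul_mem h0 (tE_mem _ _))
  · simp only [sxK0, one_ne_zero, if_false]
    exact LL.mul_mem (LL.inv_mem (tE_mem _ _)) (LL.mul_mem h1 (tE_mem _ _))

/-- the stabilizer of the first basis line in `LL` -/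
noncomputable abbrev KL : Subgroup GK := gensSub sxK0 2

theorem hmk : ∀ i, i + 1 < nK → kg i < kg (i + 1) :=
  of_monoChk (fun i hi => mk_all i hi)

theorem kg_bound : ∀ i, i < nK → kg i < 2 ^ 162 := by
  intro i hi
  have h := ck_all i hi
  simp only [Pck, letN_eq, Bool.and_eq_true] at h
  exact Nat.le_of_ble_eq_true h.2

theorem kg_col : ∀ i, i < nK → colChk (kg i) = true := by
  intro i hi
  have h := ck_all i hi
  simp only [Pck, letN_eq, Bool.and_eq_true] at h
  exact h.1

theorem klevel_main : Nat.card KL = nK ∧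
      (∀ l, l < nK → ∃ k ∈ KL, R k (kg l)) ∧
      (∀ k ∈ KL, ∃ l, l < nK ∧ R k (kg l)) :=
  klevel CS sxK0 scK 2 hsK kg nK krk ⟨rootK, by decide, by decide +kernel⟩
    (htree_of_treeChkK CS (sc := scK) (cl := kcE) (fun m hm => cl_all m hm) (fun i hi => tk_all i hi))
    (hclos_of_closChk CS (fun m hm => cl_all m hm))
    (by
      intro x i j hi hj h1 h2
      exact eq_of_adjacent hmk i j hi hj (R_fun (kg_bound i hi) (kg_bound j hj) h1 h2))

theorem KL_le : KL ≤ LL := by
  refine (closure_le _).2 ?_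
  rintro _ ⟨g, hg, rfl⟩
  exact sxK0_mem g hg

theorem hmt : ∀ i, i + 1 < nT → keyC (tg i) < keyC (tg (i + 1)) :=
  of_monoChk (f := fun i => keyC (tg i)) (fun i hi => mt_all i hi)

theorem tlevel_main : Nat.card LL = nT * Nat.card KL ∧
      (∀ i, i < nT → ∃ x ∈ LL, R x (tg i)) ∧
      (∀ x ∈ LL, ∃ i, i < nT ∧ ∃ y ∈ LL, R y (tg i) ∧ ∃ k ∈ KL, x = y * k) :=
  tlevel CS sxL scT 2 hsL KL KL_le kg nK klevel_main.2.1 tg nT trk ⟨rootT, by decide, by decide +kernel⟩
    htreeT (hstep_of_stepChk CS hstT) keyC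
    (by
      intro x k a b hx hk hb
      obtain ⟨l, hl, hr⟩ := klevel_main.2.2 k hk
      exact keyC_mul hx hr (kg_col l hl) hb)
    (fun i j hi hj he => eq_of_adjacent hmt i j hi hj he)

theorem card_LL : Nat.card LL = 24480 := by
  rw [tlevel_main.1, klevel_main.1]
  decide +kernel

theorem scalar_dec : dec K4.w (kg scalarIdx) = (K4.w : K4) • (1 : Matrix (Fin 9) (Fin 9) K4) := by
  decide +kernel

theorem sE_mem_LL : sE ∈ LL := by
  have hs : scalarIdx < nK := by decide
  obtain ⟨k, hk, hr⟩ := klevel_main.2.1 _ hs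
  have h1 : k = sE := by
    apply Units.ext
    rw [sE_val, show (k : Mat) = _ from hr, scalar_dec]
    ext i j
    rw [Matrix.submatrix_apply, Matrix.smul_apply, Matrix.smul_apply, Matrix.one_apply, Matrix.one_apply]
    simp [e9.injective.eq_iff]
  rw [← h1]
  exact KL_le hk

/-- the subgroup inside the cover -/
noncomputable def LG : Subgroup ↥G3 := LL.subgroupOf G3

theorem card_LG : Nat.card LG = 24480 := by
  rw [← card_LL]
  exact Nat.card_congr (subgroupOfEquivOfLe LL_le).toEquiv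

theorem sG_mem : sG ∈ LG := sE_mem_LL

theorem center_le_LG : center ↥G3 ≤ LG := by
  intro z hz
  obtain ⟨⟨c, hc⟩, hcz⟩ : ∃ c, c = cenMap ⟨z, hz⟩ := ⟨_, rfl⟩
  cases c with
  | o => exact absurd rfl hc
  | e =>
    have h1 : cenMap ⟨1, (center _).one_mem⟩ = ⟨K4.e, hc⟩ := rfl
    have h2 := cenMap_bij.1 (h1.trans hcz)
    have h3 : (1 : ↥G3) = z := congrArg Subtype.val h2
    rw [← h3]
    exact LG.one_mem
  | w =>
    have e2 : (sE : Mat) 0 0 = K4.w := by rw [sE_apply]; simp
    have h1 : cenMap ⟨sG, sG_mem_center⟩ = ⟨K4.w, hc⟩ := Subtype.ext e2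
    have h2 := cenMap_bij.1 (h1.trans hcz)
    have h3 : sG = z := congrArg Subtype.val h2
    rw [← h3]
    exact sG_mem
  | v =>
    have e3 : ((sE * sE : GK) : Mat) 0 0 = K4.v := by
      rw [Units.val_mul, sE_val, Matrix.smul_mul, one_mul, Matrix.smul_apply, Matrix.smul_apply,
        Matrix.one_apply_eq]
      rfl
    have h1 : cenMap ⟨sG * sG, (center _).mul_mem sG_mem_center sG_mem_center⟩ = ⟨K4.v, hc⟩ :=
      Subtype.ext e3
    have h2 := cenMap_bij.1 (h1.trans hcz)
    have h3 : sG * sG = z := congrArg Subtype.val h2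
    rw [← h3]
    exact LG.mul_mem sG_mem sG_mem

end Cfsg.Agent.Lib.J3LChain
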