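import Cfsg.Agent.Lib.J3Iso
import Cfsg.Agent.Lib.J3Main
import Cfsg.Agent.Lib.SchurAbTarget12
import Cfsg.Agent.Lib.PermChain12

/-!
# The action of `J₃` on scalar-closed sets of vectors
-/

set_option autoImplicit false
set_option linter.style.haveILetI false

namespace Cfsg.Agent.Lib.J3SchurAct12

open Cfsg.Spor Subgroup Matrix
open Cfsg.Agent.Lib.F4Mat Cfsg.Agent.Lib.ChainCert Cfsg.Agent.Lib.J3Code Cfsg.Agent.Lib.J3Data
  Cfsg.Agent.Lib.J3Chain Cfsg.Agent.Lib.J3Iso Cfsg.Agent.Lib.J3Main

/-- the vectors -/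
abbrev V : Type := Fin 9 → K4

/-- the group -/
abbrev Jq : Type := J3 K4 K4.w

/-- reindexed matrix -/
def toF (x : GK) : Matrix (Fin 9) (Fin 9) K4 := (x : Matrix F9 F9 K4).submatrix e9.symm e9.symm

theorem toF_mul (x y : GK) : toF (x * y) = toF x * toF y := by
  unfold toF
  rw [Units.val_mul, Matrix.submatrix_mul_equiv]

theorem toF_one : toF 1 = 1 := by
  unfold toF
  exact Matrix.submatrix_one_equiv _

theorem toF_R {x : GK} {n : ℕ} (h : R x n) : toF x = dec K4.w n := by
  unfold toF
  rw [show (x : Matrix F9 F9 K4) = _ from h]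
  ext i j
  simp

/-- scalar closed sets -/
def Yt : Type := {Y : Set V // ∀ c : K4, c ≠ 0 → ∀ v ∈ Y, c • v ∈ Y}

/-- The action of the general linear group. -/
instance : MulAction GK Yt where
  smul x Y := ⟨(fun v => toF x *ᵥ v) '' Y.1, by
    rintro c hc _ ⟨v, hv, rfl⟩
    exact ⟨c • v, Y.2 c hc v hv, Matrix.mulVec_smul _ _ _⟩⟩
  one_smul Y := by
    apply Subtype.ext
    show (fun v => toF 1 *ᵥ v) '' Y.1 = Y.1
    rw [toF_one]
    simp
  mul_smul x y Y := by
    apply Subtype.ext
    show (fun v => toF (x * y) *ᵥ v) '' Y.1 = (fun v => toF x *ᵥ v) '' ((fun v => toF y *ᵥ v) '' Y.1)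
    rw [Set.image_image, toF_mul]
    simp [Matrix.mulVec_mulVec]

theorem smul_val (x : GK) (Y : Yt) : (x • Y).1 = (fun v => toF x *ᵥ v) '' Y.1 := rfl

theorem toF_center {z : ↥G3} (hz : z ∈ center ↥G3) :
    ∃ c : K4, c ≠ 0 ∧ ∀ v, toF (z : GK) *ᵥ v = c • v := by
  refine ⟨((z : GK) : Mat) 0 0, (cenMap ⟨z, hz⟩).2, ?_⟩
  intro v
  have h : toF (z : GK) = (((z : GK) : Mat) 0 0) • (1 : Matrix (Fin 9) (Fin 9) K4) := by
    ext i j
    unfold toF
    rw [Matrix.submatrix_apply, scalar_of_center hz, Matrix.smul_apply, Matrix.one_apply]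
    by_cases hij : i = j
    · simp [hij]
    · have : e9.symm i ≠ e9.symm j := fun h => hij (e9.symm.injective h)
      simp [hij, this]
  rw [h, Matrix.smul_mulVec, Matrix.one_mulVec]

/-- central elements act trivially -/
theorem center_smul {z : ↥G3} (hz : z ∈ center ↥G3) (Y : Yt) : (z : GK) • Y = Y := by
  obtain ⟨c, hc, h⟩ := toF_center hz
  apply Subtype.ext
  rw [smul_val]
  ext v
  constructor
  · rintro ⟨u, hu, rfl⟩
    simp only
    rw [h]
    exact Y.2 c hc u hu
  · intro hv
    refine ⟨c⁻¹ • v, Y.2 _ (inv_ne_zero hc) v hv, ?_⟩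
    simp only
    rw [h, smul_smul, mul_inv_cancel₀ hc, one_smul]

/-- the action of the cover, as a homomorphism -/
noncomputable def acG : ↥G3 →* Equiv.Perm Yt := (MulAction.toPermHom GK Yt).comp G3.subtype

theorem center_le : center ↥G3 ≤ acG.ker := by
  intro z hz
  rw [MonoidHom.mem_ker]
  ext1 Y
  exact center_smul hz Y

/-- the action of the quotient, as a homomorphism -/
noncomputable def acJ : Jq →* Equiv.Perm Yt := QuotientGroup.lift (center ↥G3) acG center_le

/-- The action of `J₃`. -/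
noncomputable instance instJq : MulAction Jq Yt := MulAction.compHom Yt acJ

/-- the class of an element -/
abbrev mkJ (x : ↥G3) : Jq := (x : Jq)

theorem mk_smul (x : ↥G3) (Y : Yt) : mkJ x • Y = (x : GK) • Y := rfl

/-! ### Codes for vectors -/

/-- the coefficient of a vector at a coordinate -/
def cs (v p : ℕ) : K4 := cb K4 v p + cb K4 v (9 + p) * K4.w

/-- scalar multiple of `b` by the coordinate `p` of `v` -/
def cmul (v p b : ℕ) : ℕ :=
  Nat.xor (Nat.mul (Nat.land (Nat.shiftRight v p) (nat_lit 1)) b)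
    (Nat.mul (Nat.land (Nat.shiftRight v (Nat.add (nat_lit 9) p)) (nat_lit 1)) (sc1 b))

/-- the reduction -/
def redL (v : ℕ) : List (ℕ × ℕ) → ℕ
  | [] => v
  | q :: L => Nat.xor (cmul v q.2 q.1) (redL v L)

/-- the low mask -/
def m18 : ℕ := nat_lit 262143

/-- the membership test -/
def memL (v : ℕ) (L : List (ℕ × ℕ)) : Bool := Nat.beq (Nat.land (redL v L) m18) (nat_lit 0)

theorem vecC_xor (a b : ℕ) : vecC (Nat.xor a b) = vecC a + vecC b := by
  funext i
  have h2 := K4.two_eq_zero
  show cb K4 (a ^^^ b) i.val + cb K4 (a ^^^ b) (9 + i.val) * K4.w =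
    (cb K4 a i.val + cb K4 a (9 + i.val) * K4.w) + (cb K4 b i.val + cb K4 b (9 + i.val) * K4.w)
  rw [cb_xor4, cb_xor4]
  ring

theorem vecC_zero : vecC 0 = 0 := by
  funext i
  simp [vecC, cb]

theorem bit_eq (v p : ℕ) : Nat.land (Nat.shiftRight v p) (nat_lit 1) = if v.testBit p then 1 else 0 := by
  show (v >>> p) &&& 1 = _
  by_cases h : v.testBit p = true
  · rw [if_pos h]
    rw [Nat.testBit, bne_iff_ne] at h
    have h1 : (v >>> p) &&& 1 = 1 &&& (v >>> p) := Nat.and_comm _ _
    rw [h1]
    have h2 : 1 &&& (v >>> p) < 2 := lt_of_le_of_lt Nat.and_le_left (by norm_num)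
    have h3 : 1 &&& (v >>> p) ≠ 0 := by simpa using h
    omega
  · rw [if_neg h]
    simp only [Bool.not_eq_true] at h
    rw [Nat.testBit, bne_eq_false_iff_eq] at h
    rw [Nat.and_comm]
    exact h

theorem vecC_mul_bit (b : ℕ) (x : Prop) [Decidable x] :
    vecC (Nat.mul (if x then 1 else 0) b) = (if x then (1 : K4) else 0) • vecC b := by
  by_cases h : x
  · simp [h]
  · simp only [h, if_false]
    show vecC (0 * b) = _
    simp [vecC_zero]

theorem vecC_cmul (v p b : ℕ) : vecC (cmul v p b) = cs v p • vecC b := by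
  unfold cmul cs
  rw [vecC_xor, bit_eq, bit_eq]
  show vecC (Nat.mul _ b) + vecC (Nat.mul (if v.testBit (9 + p) = true then 1 else 0) (sc1 b)) = _
  rw [vecC_mul_bit b, vecC_mul_bit (sc1 b), vecC_sc1]
  unfold cb
  rw [add_smul, mul_smul]

/-- the combination attached to a reduction -/
def projC (v : ℕ) (L : List (ℕ × ℕ)) : V := (L.map fun q => cs v q.2 • vecC q.1).sum

theorem vecC_redL (v : ℕ) (L : List (ℕ × ℕ)) : vecC (redL v L) = vecC v + projC v L := by
  induction L with
  | nil =>
    simp [redL, projC]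
  | cons q L ih =>
    show vecC (Nat.xor (cmul v q.2 q.1) (redL v L)) = _
    rw [vecC_xor, vecC_cmul, ih]
    simp only [projC, List.map_cons, List.sum_cons]
    abel

theorem testBit_land_m18 (r i : ℕ) : (Nat.land r m18).testBit i = (r.testBit i && decide (i < 18)) := by
  show (r &&& (2 ^ 18 - 1)).testBit i = _
  rw [Nat.testBit_and, Nat.testBit_two_pow_sub_one]

theorem K4_comb_zero (a b : Bool) :
    ((if a = true then (1 : K4) else 0) + (if b = true then (1 : K4) else 0) * K4.w = 0) ↔ (a = false ∧ b = false) := by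
  revert a b
  decide

theorem memL_iff (v : ℕ) (L : List (ℕ × ℕ)) : memL v L = true ↔ vecC (redL v L) = 0 := by
  have key : memL v L = true ↔ Nat.land (redL v L) m18 = 0 := by
    unfold memL
    constructor
    · exact Nat.eq_of_beq_eq_true
    · intro h
      rw [h]
      rfl
  rw [key]
  generalize redL v L = r
  constructor
  · intro h
    have hb : ∀ i, i < 18 → r.testBit i = false := by
      intro i hi
      have h1 := testBit_land_m18 r i
      rw [h] at h1
      simp only [Nat.zero_testBit] at h1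
      simpa [hi] using h1.symm
    funext i
    show cb K4 r i.val + cb K4 r (9 + i.val) * K4.w = 0
    unfold cb
    rw [hb _ (by omega), hb _ (by omega)]
    simp
  · intro h
    have hb : ∀ i : Fin 9, r.testBit i.val = false ∧ r.testBit (9 + i.val) = false := by
      intro i
      have h1 := congrFun h i
      exact (K4_comb_zero _ _).1 h1
    apply Nat.eq_of_testBit_eq
    intro i
    rw [testBit_land_m18, Nat.zero_testBit]
    by_cases hi : i < 18
    · by_cases hi9 : i < 9
      · rw [(hb ⟨i, hi9⟩).1]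
        simp
      · have := (hb ⟨i - 9, by omega⟩).2
        simp only at this
        rw [show 9 + (i - 9) = i by omega] at this
        rw [this]
        simp
    · simp [hi]

theorem two_smul_V (x : V) : x + x = 0 := by
  funext i
  have h2 := K4.two_eq_zero
  show x i + x i = 0
  rw [← two_mul, h2, zero_mul]

theorem eq_of_add_eq_zero_V {x y : V} (h : x + y = 0) : x = y := by
  have h1 := congrArg (· + y) h
  simp only [add_assoc, two_smul_V, add_zero, zero_add] at h1
  exact h1

/-- the span of a list of codes -/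
def spanL (L : List (ℕ × ℕ)) : Submodule K4 V := Submodule.span K4 ((fun q : ℕ × ℕ => vecC q.1) '' {q | q ∈ L})

theorem vec_mem_spanL {L : List (ℕ × ℕ)} {q : ℕ × ℕ} (h : q ∈ L) : vecC q.1 ∈ spanL L :=
  Submodule.subset_span ⟨q, h, rfl⟩

theorem projC_mem (v : ℕ) (L L' : List (ℕ × ℕ)) (h : ∀ q ∈ L, q ∈ L') : projC v L ∈ spanL L' := by
  induction L with
  | nil =>
    simp only [projC, List.map_nil, List.sum_nil]
    exact Submodule.zero_mem _
  | cons q L ih =>
    simp only [projC, List.map_cons, List.sum_cons]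
    exact Submodule.add_mem _ (Submodule.smul_mem _ _ (vec_mem_spanL (h q List.mem_cons_self)))
      (ih (fun a ha => h a (List.mem_cons_of_mem _ ha)))

/-- Soundness of the membership test. -/
theorem mem_spanL_of_memL {v : ℕ} {L : List (ℕ × ℕ)} (h : memL v L = true) : vecC v ∈ spanL L := by
  have h1 := (memL_iff v L).1 h
  rw [vecC_redL] at h1
  rw [eq_of_add_eq_zero_V h1]
  exact projC_mem v L L (fun _ h => h)

/-- the projection -/
def xc (x : V) (p : ℕ) : K4 := if h : p < 9 then x ⟨p, h⟩ else 0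

/-- the projection -/
def projL (x : V) (L : List (ℕ × ℕ)) : V := (L.map fun q => xc x q.2 • vecC q.1).sum

theorem projC_eq (v : ℕ) (L : List (ℕ × ℕ)) (hL : ∀ q ∈ L, q.2 < 9) : projC v L = projL (vecC v) L := by
  induction L with
  | nil => rfl
  | cons q L ih =>
    have h1 : q.2 < 9 := hL q List.mem_cons_self
    have h2 := ih (fun a ha => hL a (List.mem_cons_of_mem _ ha))
    simp only [projC, projL, List.map_cons, List.sum_cons] at h2 ⊢
    rw [h2]
    have h3 : xc (vecC v) q.2 = cs v q.2 := by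
      unfold xc
      rw [dif_pos h1]
      rfl
    rw [h3]

theorem projL_add (x y : V) (L : List (ℕ × ℕ)) : projL (x + y) L = projL x L + projL y L := by
  induction L with
  | nil => simp [projL]
  | cons q L ih =>
    simp only [projL, List.map_cons, List.sum_cons] at ih ⊢
    rw [ih]
    have h : xc (x + y) q.2 = xc x q.2 + xc y q.2 := by
      unfold xc
      split_ifs
      · rfl
      · simp
    rw [h, add_smul]
    abel

theorem projL_smul (c : K4) (x : V) (L : List (ℕ × ℕ)) : projL (c • x) L = c • projL x L := by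
  induction L with
  | nil => simp [projL]
  | cons q L ih =>
    simp only [projL, List.map_cons, List.sum_cons] at ih ⊢
    rw [ih]
    have h : xc (c • x) q.2 = c * xc x q.2 := by
      unfold xc
      split_ifs
      · rfl
      · simp
    rw [h, mul_smul, smul_add]

/-- The test is exact when the basis is reduced. -/
theorem memL_of_mem {v : ℕ} {L : List (ℕ × ℕ)} (hL : ∀ q ∈ L, q.2 < 9) (hfix : ∀ q ∈ L, memL q.1 L = true)
    (h : vecC v ∈ spanL L) : memL v L = true := by
  have key : ∀ x ∈ spanL L, x + projL x L = 0 := by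
    intro x hx
    induction hx using Submodule.span_induction with
    | mem x hx =>
      obtain ⟨q, hq, rfl⟩ := hx
      have h1 := (memL_iff _ _).1 (hfix q hq)
      rw [vecC_redL, projC_eq _ _ hL] at h1
      exact h1
    | zero =>
      have : projL 0 L = 0 := by
        have h0 := projL_smul 0 0 L
        simpa using h0
      rw [this, add_zero]
    | add x y _ _ hx hy =>
      rw [projL_add]
      have : x + y + (projL x L + projL y L) = (x + projL x L) + (y + projL y L) := by abel
      rw [this, hx, hy, add_zero]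
    | smul c x _ hx =>
      rw [projL_smul, ← smul_add, hx, smul_zero]
  rw [memL_iff, vecC_redL, projC_eq _ _ hL]
  exact key _ h

/-! ### Scalar closed sets from codes -/

/-- the scalar closed set of a span -/
def spanY (L : List (ℕ × ℕ)) : Yt := ⟨(spanL L : Set V), fun c _ _ hv => (spanL L).smul_mem c hv⟩

/-- inclusion -/
def Sub (Y Z : Yt) : Prop := ∀ v ∈ Y.1, v ∈ Z.1

theorem sub_antisymm {Y Z : Yt} (h1 : Sub Y Z) (h2 : Sub Z Y) : Y = Z := by
  apply Subtype.ext
  exact Set.Subset.antisymm h1 h2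

theorem sub_trans {Y Z W : Yt} (h1 : Sub Y Z) (h2 : Sub Z W) : Sub Y W := fun v hv => h2 v (h1 v hv)

theorem smul_sub (g : Jq) {Y Z : Yt} (h : Sub Y Z) : Sub (g • Y) (g • Z) := by
  obtain ⟨x, rfl⟩ := QuotientGroup.mk_surjective g
  rintro _ ⟨v, hv, rfl⟩
  exact ⟨v, h v hv, rfl⟩

theorem eq_of_sub2 {g : Jq} (hg : g ^ 2 = 1) {Y Z : Yt} (h1 : Sub (g • Y) Z) (h2 : Sub (g • Z) Y) : g • Y = Z := by
  apply sub_antisymm h1
  have h3 := smul_sub g h2
  rw [smul_smul, ← pow_two, hg, one_smul] at h3
  exact h3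

theorem eq_of_sub3 {g : Jq} (hg : g ^ 3 = 1) {Y Z W : Yt} (h1 : Sub (g • Y) Z) (h2 : Sub (g • Z) W)
    (h3 : Sub (g • W) Y) : g • Y = Z := by
  apply sub_antisymm h1
  have h4 := smul_sub g (smul_sub g h2)
  have e : g • g • g • Z = Z := by
    rw [smul_smul, smul_smul, ← pow_two, ← pow_succ, hg, one_smul]
  rw [e] at h4
  exact sub_trans h4 (smul_sub g h3)

/-- The action on spans in terms of codes. -/
theorem smul_spanY_sub {x : ↥G3} {n : ℕ} (hx : R (x : GK) n) {L L' : List (ℕ × ℕ)}
    (h : ∀ q ∈ L, memL (mvC n q.1) L' = true) : Sub (mkJ x • spanY L) (spanY L') := by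
  have hm : ∀ v ∈ spanL L, toF (x : GK) *ᵥ v ∈ spanL L' := by
    intro v hv
    have h1 : (spanL L).map (Matrix.mulVecLin (toF (x : GK))) ≤ spanL L' := by
      unfold spanL
      rw [Submodule.map_span_le]
      rintro _ ⟨q, hq, rfl⟩
      rw [Matrix.mulVecLin_apply, toF_R hx, dec_mulVec]
      exact mem_spanL_of_memL (h q hq)
    exact h1 ⟨v, hv, rfl⟩
  rintro _ ⟨v, hv, rfl⟩
  exact hm v hv

/-- The scalar closure of a list of codes. -/
def closS (l : List ℕ) : Yt :=
  ⟨{v | ∃ n ∈ l, ∃ c : K4, c ≠ 0 ∧ v = c • vecC n}, by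
    rintro c hc _ ⟨n, hn, d, hd, rfl⟩
    exact ⟨n, hn, c * d, mul_ne_zero hc hd, by rw [mul_smul]⟩⟩

/-- the smallest of three numbers -/
def min3N (a b c : ℕ) : ℕ := cond (Nat.ble a b) (cond (Nat.ble a c) a c) (cond (Nat.ble b c) b c)

/-- canonical form of a point -/
def canon (v : ℕ) : ℕ := letN (sc1 v) fun a => letN (sc1 a) fun b => min3N v a b

theorem canon_eq (v : ℕ) : ∃ c : K4, c ≠ 0 ∧ vecC v = c • vecC (canon v) := by
  have e1 : vecC (sc1 v) = K4.w • vecC v := vecC_sc1 v
  have e2 : vecC (sc1 (sc1 v)) = K4.v • vecC v := by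
    rw [vecC_sc1, vecC_sc1, smul_smul]
    rfl
  have e3 : canon v = min3N v (sc1 v) (sc1 (sc1 v)) := by
    unfold canon
    simp only [letN_eq]
  have h1 : canon v = v ∨ canon v = sc1 v ∨ canon v = sc1 (sc1 v) := by
    rw [e3]
    unfold min3N
    cases Nat.ble v (sc1 v) <;> cases Nat.ble v (sc1 (sc1 v)) <;> cases Nat.ble (sc1 v) (sc1 (sc1 v)) <;> simp
  rcases h1 with h | h | h
  · exact ⟨1, one_ne_zero, by rw [h, one_smul]⟩
  · refine ⟨K4.v, by decide, ?_⟩
    rw [h, e1, smul_smul]
    have : K4.v * K4.w = 1 := by decide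
    rw [this, one_smul]
  · refine ⟨K4.w, by decide, ?_⟩
    rw [h, e2, smul_smul]
    have : K4.w * K4.v = 1 := by decide
    rw [this, one_smul]

theorem smul_closS_sub {x : ↥G3} {n : ℕ} (hx : R (x : GK) n) {l : List ℕ}
    (h : l.all (fun a => l.contains (canon (mvC n a))) = true) : Sub (mkJ x • closS l) (closS l) := by
  rintro _ ⟨_, ⟨a, ha, c, hc, rfl⟩, rfl⟩
  have h1 := List.all_eq_true.mp h a ha
  rw [List.contains_iff_mem] at h1
  obtain ⟨d, hd, he⟩ := canon_eq (mvC n a)
  refine ⟨_, h1, c * d, mul_ne_zero hc hd, ?_⟩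
  show toF (x : GK) *ᵥ (c • vecC a) = _
  rw [Matrix.mulVec_smul, toF_R hx, dec_mulVec, he, smul_smul]

end Cfsg.Agent.Lib.J3SchurAct12
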