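import Cfsg.Agent.Lib.SchurCoset46
import Cfsg.Agent.Lib.J3SchurData12

/-!
# The linear systems on the cosets of `L₂(16):2` in `J₃` and of `C₁₅` in `L₂(16)`
-/

set_option autoImplicit false
set_option maxRecDepth 100000
set_option Elab.async false

namespace Cfsg.Agent.Lib.J3SchurCert12

open Cfsg.Agent.Lib.SchurCoset46 Cfsg.Agent.Lib.J3SchurData12

/-- The certificate modulo `256`. -/
def cert2 : CertE where
  n := 6156
  m := 2
  R := 10
  P := 6
  E := 256
  T := TT
  par := PR
  rels := fun j => rels2.getD j []
  rank := RK2
  val := VL2
  stepT := ST2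
  normal := fun j => Nat.beq j 0 || Nat.beq j 1
  params := fun p => params2.getD p 0
  cf := fun p => cf2.getD p 0
  relP := fun p => relP2.getD p []
  rel0 := rel02
  r0 := 2

/-- The certificate modulo `243`. -/
def cert3 : CertE where
  n := 6156
  m := 2
  R := 6
  P := 4
  E := 243
  T := TT
  par := PR
  rels := fun j => rels3.getD j []
  rank := RK3
  val := VL3
  stepT := ST3
  normal := fun j => Nat.beq j 2 || Nat.beq j 1
  params := fun p => params3.getD p 0
  cf := fun p => cf3.getD p 0
  relP := fun p => relP3.getD p []
  rel0 := rel03
  r0 := 3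

/-- The certificate modulo `16`. -/
def certS : CertE where
  n := 272
  m := 2
  R := 5
  P := 3
  E := 16
  T := TS
  par := PS
  rels := fun j => relsS.getD j []
  rank := RKS
  val := VLS
  stepT := STS
  normal := fun j => Nat.beq j 0 || Nat.beq j 1
  params := fun p => paramsS.getD p 0
  cf := fun p => cfS.getD p 0
  relP := fun p => relPS.getD p []
  rel0 := rel0S
  r0 := 1

theorem certS_ok : certS.check = true := by decide +kernel

theorem cert3_ok : cert3.check = true := by decide +kernel

theorem cert2_ok : cert2.check = true := by decide +kernel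

end Cfsg.Agent.Lib.J3SchurCert12
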