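import Cfsg.Agent.Lib.J3SchurAct12
import Cfsg.Agent.Lib.J3SchurData12

/-!
# Checks for the action of `J₃` on the `6156` isotropic subspaces
-/

set_option autoImplicit false
set_option maxRecDepth 100000
set_option Elab.async false
set_option linter.style.haveILetI false

namespace Cfsg.Agent.Lib.J3SchurChk12

open Cfsg.Spor Subgroup Matrix
open Cfsg.Agent.Lib.F4Mat Cfsg.Agent.Lib.ChainCert Cfsg.Agent.Lib.J3Code Cfsg.Agent.Lib.J3Data
  Cfsg.Agent.Lib.J3Chain Cfsg.Agent.Lib.J3Iso Cfsg.Agent.Lib.J3Main Cfsg.Agent.Lib.J3SchurAct12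
  Cfsg.Agent.Lib.J3SchurData12 Cfsg.Agent.Lib.PermChain12 Cfsg.Agent.Lib.SchurCoset46

/-- a basis vector of a record -/
def bd (r j : ℕ) : ℕ := Nat.land (Nat.shiftRight r (Nat.mul (nat_lit 22) j)) (nat_lit 262143)
/-- a pivot of a record -/
def pd (r j : ℕ) : ℕ := Nat.land (Nat.shiftRight r (Nat.add (nat_lit 18) (Nat.mul (nat_lit 22) j))) (nat_lit 15)
/-- the list of a record -/
def BLr (r : ℕ) : List (ℕ × ℕ) :=
  [(bd r (nat_lit 0), pd r (nat_lit 0)), (bd r (nat_lit 1), pd r (nat_lit 1)),
    (bd r (nat_lit 2), pd r (nat_lit 2)), (bd r (nat_lit 3), pd r (nat_lit 3))]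

/-- image of one vector -/
def mv1 (n b r : ℕ) : Bool := letN (mvC n b) fun v => memL v (BLr r)

/-- images of the vectors of a record -/
def subChk (n r' r : ℕ) : Bool :=
  mv1 n (bd r' (nat_lit 0)) r && mv1 n (bd r' (nat_lit 1)) r && mv1 n (bd r' (nat_lit 2)) r &&
    mv1 n (bd r' (nat_lit 3)) r

/-- the base subspace -/
def W0L : List (ℕ × ℕ) := BLr (BR (nat_lit 0))

/-- a record not in the base subspace -/
def notIn0 (r : ℕ) : Bool :=
  !(memL (bd r (nat_lit 0)) W0L && memL (bd r (nat_lit 1)) W0L && memL (bd r (nat_lit 2)) W0L &&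
    memL (bd r (nat_lit 3)) W0L)

/-- the check for one coset -/
def chkTop (c : ℕ) : Bool :=
  letN (BR c) fun r =>
  letN (TT c (nat_lit 0)) fun d0 => letN (TT c (nat_lit 2)) fun d2 =>
    Nat.beq (TT d0 (nat_lit 0)) c && Nat.beq (TT (TT d2 (nat_lit 2)) (nat_lit 2)) c && subChk Ac (BR d0) r &&
      subChk Bc (BR d2) r && (Nat.beq c (nat_lit 0) || notIn0 r)

theorem all_top : allB 6156 13 chkTop = true := by decide +kernel

/-! ### Consequences of the check -/

theorem subChk_spec {n r' r : ℕ} (h : subChk n r' r = true) :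
    ∀ q ∈ BLr r', memL (mvC n q.1) (BLr r) = true := by
  unfold subChk at h
  simp only [Bool.and_eq_true, mv1, letN_eq] at h
  obtain ⟨⟨⟨h0, h1⟩, h2⟩, h3⟩ := h
  intro q hq
  simp only [BLr, List.mem_cons, List.not_mem_nil, or_false] at hq
  rcases hq with rfl | rfl | rfl | rfl
  · exact h0
  · exact h1
  · exact h2
  · exact h3

theorem chkTop_spec {c : ℕ} (hc : c < 6156) :
    TT (TT c 0) 0 = c ∧ TT (TT (TT c 2) 2) 2 = c ∧ subChk Ac (BR (TT c 0)) (BR c) = true ∧
      subChk Bc (BR (TT c 2)) (BR c) = true ∧ (Nat.beq c 0 = true ∨ notIn0 (BR c) = true) := by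
  have h := allB_spec _ _ _ (by norm_num) all_top c hc
  unfold chkTop at h
  simp only [letN_eq, Bool.and_eq_true, Bool.or_eq_true] at h
  obtain ⟨⟨⟨⟨h1, h2⟩, h3⟩, h4⟩, h5⟩ := h
  exact ⟨Nat.eq_of_beq_eq_true h1, Nat.eq_of_beq_eq_true h2, h3, h4, h5⟩

/-- the masks -/
def mask (c : ℕ) : Yt := spanY (BLr (BR c))

theorem W0L_pivot : ∀ q ∈ W0L, q.2 < 9 := by decide +kernel

theorem W0L_fix : ∀ q ∈ W0L, memL q.1 W0L = true := by decide +kernel

theorem mask_ne {c : ℕ} (hc : c < 6156) (h : mask c = mask 0) : c = 0 := by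
  obtain ⟨-, -, -, -, h5⟩ := chkTop_spec hc
  rcases h5 with h5 | h5
  · exact Nat.eq_of_beq_eq_true h5
  · exfalso
    have key : ∀ q ∈ BLr (BR c), memL q.1 W0L = true := by
      intro q hq
      apply memL_of_mem W0L_pivot W0L_fix
      have h1 : vecC q.1 ∈ (mask c).1 := vec_mem_spanL hq
      rw [h] at h1
      exact h1
    unfold notIn0 at h5
    have h0 := key (bd (BR c) 0, pd (BR c) 0) (by simp [BLr])
    have h1 := key (bd (BR c) 1, pd (BR c) 1) (by simp [BLr])
    have h2 := key (bd (BR c) 2, pd (BR c) 2) (by simp [BLr])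
    have h3 := key (bd (BR c) 3, pd (BR c) 3) (by simp [BLr])
    simp only at h0 h1 h2 h3
    simp [h0, h1, h2, h3] at h5

/-! ### Elements -/

theorem ex_word (w : List ℕ) (hw : ∀ i ∈ w, i < 43) (c : ℕ) (h : wordC w = c) : ∃ x : ↥G3, R (x : GK) c := by
  obtain ⟨x, hx, hr⟩ := word_in w hw
  exact ⟨⟨x, hx⟩, h ▸ hr⟩

/-- the first generator -/
noncomputable def xA : ↥G3 := (ex_word wA (by decide +kernel) Ac (by decide +kernel)).choose
/-- the second generator -/
noncomputable def xB : ↥G3 := (ex_word wB (by decide +kernel) Bc (by decide +kernel)).choose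
/-- an involution of the stabiliser -/
noncomputable def xP : ↥G3 := (ex_word wP (by decide +kernel) Pc (by decide +kernel)).choose
/-- an element of order three of the stabiliser -/
noncomputable def xQ : ↥G3 := (ex_word wQ (by decide +kernel) Qc (by decide +kernel)).choose
/-- an involution of the stabiliser outside the simple subgroup -/
noncomputable def xT : ↥G3 := (ex_word wT (by decide +kernel) Tc (by decide +kernel)).choose

theorem xA_R : R (xA : GK) Ac := (ex_word wA (by decide +kernel) Ac (by decide +kernel)).choose_spec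
theorem xB_R : R (xB : GK) Bc := (ex_word wB (by decide +kernel) Bc (by decide +kernel)).choose_spec
theorem xP_R : R (xP : GK) Pc := (ex_word wP (by decide +kernel) Pc (by decide +kernel)).choose_spec
theorem xQ_R : R (xQ : GK) Qc := (ex_word wQ (by decide +kernel) Qc (by decide +kernel)).choose_spec
theorem xT_R : R (xT : GK) Tc := (ex_word wT (by decide +kernel) Tc (by decide +kernel)).choose_spec

/-! ### Scalars -/

/-- the code of the scalar `w` -/
def sc1C : ℕ := nat_lit 2925860560365287562542665234589536642254243889152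
/-- the code of the scalar `w²` -/
def sc2C : ℕ := nat_lit 2925860560365287562542666444697101926105930007553

theorem sc1C_dec : dec K4.w sc1C = (K4.w : K4) • (1 : Matrix (Fin 9) (Fin 9) K4) := by decide +kernel

theorem sE_R : R sE sc1C := by
  unfold R
  rw [sc1C_dec, sE_val]
  ext i j
  simp [Matrix.one_apply, e9.injective.eq_iff]

/-- the test for scalars -/
def isScal (n : ℕ) : Bool := Nat.beq n oneC || Nat.beq n sc1C || Nat.beq n sc2C

/-- The class of an element with a scalar code is trivial. -/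
theorem mk_eq_one {y : ↥G3} {n : ℕ} (hy : R (y : GK) n) (h : isScal n = true) : mkJ y = 1 := by
  have hc : y ∈ center ↥G3 := by
    unfold isScal at h
    simp only [Bool.or_eq_true] at h
    rcases h with (h | h) | h
    · have h1 := Nat.eq_of_beq_eq_true h
      subst h1
      have : y = 1 := Subtype.ext (R_inj hy R_one)
      rw [this]
      exact (center _).one_mem
    · have h1 := Nat.eq_of_beq_eq_true h
      subst h1
      have : y = sG := Subtype.ext (R_inj hy sE_R)
      rw [this]
      exact sG_mem_center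
    · have h1 := Nat.eq_of_beq_eq_true h
      subst h1
      have h2 : mulC sc1C sc1C = sc2C := by decide +kernel
      have h3 := R_mul sE_R sE_R
      rw [h2] at h3
      have : y = sG * sG := Subtype.ext (R_inj hy h3)
      rw [this]
      exact (center _).mul_mem sG_mem_center sG_mem_center
  exact (QuotientGroup.eq_one_iff y).mpr hc

/-- The class of an element with a nondiagonal code is not trivial. -/
theorem mk_ne_one {y : ↥G3} {n : ℕ} (hy : R (y : GK) n) {i j : Fin 9} (hij : i ≠ j) (h : dec K4.w n i j ≠ 0) :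
    mkJ y ≠ 1 := by
  intro h1
  have hc : y ∈ center ↥G3 := (QuotientGroup.eq_one_iff y).mp h1
  have h2 := scalar_of_center hc (e9.symm i) (e9.symm j)
  have h3 : e9.symm i ≠ e9.symm j := fun h => hij (e9.symm.injective h)
  rw [if_neg h3] at h2
  apply h
  have h4 : ((y : GK) : Mat) (e9.symm i) (e9.symm j) = dec K4.w n i j := by
    rw [show ((y : GK) : Mat) = _ from hy]
    simp
  rw [← h4, h2]

/-! ### Words -/

/-- the code of a word -/
def wC (code : ℕ → ℕ) : List ℕ → ℕ
  | [] => oneC
  | l :: w => mulC (code l) (wC code w)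

/-- a pair of elements as generators -/
def pairX (a b : ↥G3) : ℕ → ↥G3 := fun i => if i = 0 then a else b

/-- the codes of the letters of a pair -/
def pairC (ca cai cb cbi : ℕ) : ℕ → ℕ := fun l =>
  cond (Nat.beq l 0) ca (cond (Nat.beq l 1) cai (cond (Nat.beq l 2) cb cbi))

theorem R_inv {x : GK} {c ci : ℕ} (hx : R x c) (h : mulC c ci = oneC) : R x⁻¹ ci := by
  have h1 : R 1 (mulC c ci) := by rw [h]; exact R_one
  have h2 := R_cancel hx h1
  rwa [mul_one] at h2

theorem lett_pair {a b : ↥G3} {ca cai cb cbi : ℕ} (ha : R (a : GK) ca) (hb : R (b : GK) cb)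
    (h1 : mulC ca cai = oneC) (h2 : mulC cb cbi = oneC) {l : ℕ} (hl : l < 4) :
    R ((lett (pairX a b) l : ↥G3) : GK) (pairC ca cai cb cbi l) := by
  interval_cases l
  · have e : pairC ca cai cb cbi 0 = ca := rfl
    rw [e]
    simpa [lett, pairX] using ha
  · have e : pairC ca cai cb cbi 1 = cai := rfl
    rw [e]
    simpa [lett, pairX] using R_inv ha h1
  · have e : pairC ca cai cb cbi 2 = cb := rfl
    rw [e]
    simpa [lett, pairX] using hb
  · have e : pairC ca cai cb cbi 3 = cbi := rfl
    rw [e]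
    simpa [lett, pairX] using R_inv hb h2

theorem R_word {a b : ↥G3} {ca cai cb cbi : ℕ} (ha : R (a : GK) ca) (hb : R (b : GK) cb)
    (h1 : mulC ca cai = oneC) (h2 : mulC cb cbi = oneC) (w : List ℕ) (hw : ∀ l ∈ w, l < 4) :
    R ((evW (pairX a b) w : ↥G3) : GK) (wC (pairC ca cai cb cbi) w) := by
  induction w with
  | nil => exact R_one
  | cons l w ih =>
    exact R_mul (lett_pair ha hb h1 h2 (hw l List.mem_cons_self))
      (ih (fun a ha => hw a (List.mem_cons_of_mem _ ha)))

/-- the classes of a pair -/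
noncomputable def pairJ (a b : ↥G3) : ℕ → Jq := fun i => mkJ (pairX a b i)

theorem evW_pairJ (a b : ↥G3) (w : List ℕ) : evW (pairJ a b) w = mkJ (evW (pairX a b) w) :=
  (map_evW (QuotientGroup.mk' (center ↥G3)) (pairX a b) w).symm

/-- A word with a scalar code is trivial. -/
theorem evW_eq_one {a b : ↥G3} {ca cai cb cbi : ℕ} (ha : R (a : GK) ca) (hb : R (b : GK) cb)
    (h1 : mulC ca cai = oneC) (h2 : mulC cb cbi = oneC) {w : List ℕ} (hw : ∀ l ∈ w, l < 4)
    (h : isScal (wC (pairC ca cai cb cbi) w) = true) : evW (pairJ a b) w = 1 := by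
  rw [evW_pairJ]
  exact mk_eq_one (R_word ha hb h1 h2 w hw) h

/-- the codes of the generators of `J₃` -/
def topC : ℕ → ℕ := pairC Ac Ac Bc Bic
/-- the codes of the generators of the simple subgroup -/
def subC : ℕ → ℕ := pairC Pc Pic Qc Qic

theorem inv_Ac : mulC Ac Ac = oneC := by decide +kernel
theorem inv_Bc : mulC Bc Bic = oneC := by decide +kernel
theorem inv_Pc : mulC Pc Pic = oneC := by decide +kernel
theorem inv_Qc : mulC Qc Qic = oneC := by decide +kernel

/-- the generators of `J₃` -/
noncomputable abbrev sJ : ℕ → Jq := pairJ xA xB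
/-- the generators of the simple subgroup -/
noncomputable abbrev sS : ℕ → Jq := pairJ xP xQ

theorem top_word_one {w : List ℕ} (hw : ∀ l ∈ w, l < 4) (h : isScal (wC topC w) = true) : evW sJ w = 1 :=
  evW_eq_one xA_R xB_R inv_Ac inv_Bc hw h

theorem sub_word_one {w : List ℕ} (hw : ∀ l ∈ w, l < 4) (h : isScal (wC subC w) = true) : evW sS w = 1 :=
  evW_eq_one xP_R xQ_R inv_Pc inv_Qc hw h

theorem sJ_0 : sJ 0 = mkJ xA := rfl
theorem sJ_1 : sJ 1 = mkJ xB := rfl
theorem sS_0 : sS 0 = mkJ xP := rfl
theorem sS_1 : sS 1 = mkJ xQ := rfl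

theorem sJ0_pow : sJ 0 ^ 2 = 1 := by
  have := top_word_one (w := [0, 0]) (by decide) (by decide +kernel)
  simpa [evW, lett, pow_two] using this

theorem sJ1_pow : sJ 1 ^ 3 = 1 := by
  have := top_word_one (w := [2, 2, 2]) (by decide) (by decide +kernel)
  simpa [evW, lett, pow_succ, mul_assoc] using this

theorem sS0_pow : sS 0 ^ 2 = 1 := by
  have := sub_word_one (w := [0, 0]) (by decide) (by decide +kernel)
  simpa [evW, lett, pow_two] using this

theorem sS1_pow : sS 1 ^ 3 = 1 := by
  have := sub_word_one (w := [2, 2, 2]) (by decide) (by decide +kernel)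
  simpa [evW, lett, pow_succ, mul_assoc] using this

theorem evW_replicate {W : Type*} [Group W] (x : ℕ → W) (w : List ℕ) (k : ℕ) :
    evW x (List.flatten (List.replicate k w)) = evW x w ^ k := by
  have happ : ∀ u v : List ℕ, evW x (u ++ v) = evW x u * evW x v := by
    intro u v
    induction u with
    | nil => simp [evW]
    | cons l u ih => simp [evW, ih, mul_assoc]
  induction k with
  | zero => simp [evW]
  | succ k ih =>
    rw [List.replicate_succ, List.flatten_cons, happ, ih, pow_succ']

theorem sJ01_pow : (sJ 0 * sJ 1) ^ 19 = 1 := by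
  have := top_word_one (w := List.flatten (List.replicate 19 [0, 2])) (by decide) (by decide +kernel)
  rw [evW_replicate] at this
  simpa [evW, lett] using this

theorem sS01_pow : (sS 0 * sS 1) ^ 17 = 1 := by
  have := sub_word_one (w := List.flatten (List.replicate 17 [0, 2])) (by decide) (by decide +kernel)
  rw [evW_replicate] at this
  simpa [evW, lett] using this

/-! ### The action on the masks -/

theorem sJ0_sub {c : ℕ} (hc : c < 6156) : Sub (sJ 0 • mask (TT c 0)) (mask c) :=
  smul_spanY_sub xA_R (subChk_spec (chkTop_spec hc).2.2.1)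

theorem sJ1_sub {c : ℕ} (hc : c < 6156) : Sub (sJ 1 • mask (TT c 2)) (mask c) :=
  smul_spanY_sub xB_R (subChk_spec (chkTop_spec hc).2.2.2.1)

end Cfsg.Agent.Lib.J3SchurChk12
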