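import Cfsg.Agent.Lib.J3SchurS12

/-!
# The simple subgroup of the stabiliser has order `4080` and a trivial multiplier
-/

set_option autoImplicit false
set_option maxRecDepth 100000
set_option Elab.async false
set_option linter.style.haveILetI false

namespace Cfsg.Agent.Lib.J3SchurL12

open Cfsg Cfsg.Spor Subgroup Matrix
open Cfsg.Agent.Lib.F4Mat Cfsg.Agent.Lib.ChainCert Cfsg.Agent.Lib.J3Code Cfsg.Agent.Lib.J3Data
  Cfsg.Agent.Lib.J3Chain Cfsg.Agent.Lib.J3Iso Cfsg.Agent.Lib.J3Main Cfsg.Agent.Lib.J3SchurAct12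
  Cfsg.Agent.Lib.J3SchurData12 Cfsg.Agent.Lib.PermChain12 Cfsg.Agent.Lib.SchurCoset46
  Cfsg.Agent.Lib.J3SchurChk12 Cfsg.Agent.Lib.J3SchurCert12 Cfsg.Agent.Lib.SchurTarget12
  Cfsg.Agent.Lib.SchurOrbit12 Cfsg.Agent.Lib.SchurStem Cfsg.Agent.Lib.SchurLocal12
  Cfsg.Agent.Lib.J3SchurS12

/-- a line of the base subspace -/
def LN (i : ℕ) : List (ℕ × ℕ) := lnL.getD i []
/-- the image of a line under the inverse of the involution -/
def lP (i : ℕ) : ℕ := lPL.getD i 0
/-- the image of a line under the inverse of the element of order three -/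
def lQ (i : ℕ) : ℕ := lQL.getD i 0
/-- the first line of a pair -/
def fa (c : ℕ) : ℕ := faL.getD c 0
/-- the second line of a pair -/
def fb (c : ℕ) : ℕ := fbL.getD c 0

theorem lines_P : ∀ i : Fin 17, lP (lP i) = i ∧ lP i < 17 ∧ ∀ q ∈ LN (lP i), memL (mvC Pc q.1) (LN i) = true := by
  decide +kernel

theorem lines_Q : ∀ i : Fin 17, lQ (lQ (lQ i)) = i ∧ lQ i < 17 ∧ ∀ q ∈ LN (lQ i), memL (mvC Qc q.1) (LN i) = true := by
  decide +kernel

theorem pair_chk : ∀ c : Fin 272, fa c < 17 ∧ fb c < 17 ∧ fa (TS c 0) = lP (fa c) ∧ fb (TS c 0) = lP (fb c) ∧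
    fa (TS c 2) = lQ (fa c) ∧ fb (TS c 2) = lQ (fb c) ∧ (fa c = fa 0 → fb c = fb 0 → c.val = 0) := by
  decide +kernel

theorem line_fix : ((∀ q ∈ LN (fa 0), q.2 < 9) ∧ ∀ q ∈ LN (fa 0), memL q.1 (LN (fa 0)) = true) ∧
    ((∀ q ∈ LN (fb 0), q.2 < 9) ∧ ∀ q ∈ LN (fb 0), memL q.1 (LN (fb 0)) = true) := by
  decide +kernel

theorem line_ne : ∀ i : Fin 17, (i.val ≠ fa 0 → ¬ ∀ q ∈ LN i, memL q.1 (LN (fa 0)) = true) ∧
    (i.val ≠ fb 0 → ¬ ∀ q ∈ LN i, memL q.1 (LN (fb 0)) = true) := by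
  decide +kernel

theorem P_line {i : ℕ} (hi : i < 17) : sS 0 • spanY (LN (lP i)) = spanY (LN i) := by
  obtain ⟨h1, h2, h3⟩ := lines_P ⟨i, hi⟩
  simp only at h1 h2 h3
  obtain ⟨-, -, h5⟩ := lines_P ⟨lP i, h2⟩
  simp only at h5
  rw [h1] at h5
  exact eq_of_sub2 sS0_pow (smul_spanY_sub xP_R h3) (smul_spanY_sub xP_R h5)

theorem Q_line {i : ℕ} (hi : i < 17) : sS 1 • spanY (LN (lQ i)) = spanY (LN i) := by
  obtain ⟨h1, h2, h3⟩ := lines_Q ⟨i, hi⟩
  simp only at h1 h2 h3
  obtain ⟨-, h4, h5⟩ := lines_Q ⟨lQ i, h2⟩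
  simp only at h4 h5
  obtain ⟨-, -, h7⟩ := lines_Q ⟨lQ (lQ i), h4⟩
  simp only at h7
  rw [h1] at h7
  exact eq_of_sub3 sS1_pow (W := spanY (LN (lQ (lQ i)))) (smul_spanY_sub xQ_R h3) (smul_spanY_sub xQ_R h7)
    (smul_spanY_sub xQ_R h5)

theorem line_inj_a {i : ℕ} (hi : i < 17) (h : spanY (LN i) = spanY (LN (fa 0))) : i = fa 0 := by
  by_contra hne
  apply (line_ne ⟨i, hi⟩).1 hne
  intro q hq
  apply memL_of_mem line_fix.1.1 line_fix.1.2
  have h1 : vecC q.1 ∈ (spanY (LN i)).1 := vec_mem_spanL hq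
  rw [h] at h1
  exact h1

theorem line_inj_b {i : ℕ} (hi : i < 17) (h : spanY (LN i) = spanY (LN (fb 0))) : i = fb 0 := by
  by_contra hne
  apply (line_ne ⟨i, hi⟩).2 hne
  intro q hq
  apply memL_of_mem line_fix.2.1 line_fix.2.2
  have h1 : vecC q.1 ∈ (spanY (LN i)).1 := vec_mem_spanL hq
  rw [h] at h1
  exact h1

/-- the generators of the simple subgroup -/
noncomputable def sT : ℕ → ↥Sb := fun i => if i = 0 then ⟨pH, pH_mem⟩ else ⟨qH, qH_mem⟩

theorem sT_val (i : ℕ) : (((sT i : ↥Sb) : ↥Hb) : Jq) = sS i := by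
  unfold sT
  by_cases h : i = 0
  · subst h
    rfl
  · rw [if_neg h]
    have : sS i = sS 1 := by
      show pairJ xP xQ i = pairJ xP xQ 1
      unfold pairJ pairX
      rw [if_neg h]
      rfl
    rw [this]
    rfl

/-- the pairs of lines -/
def maskS (c : ℕ) : Yt × Yt := (spanY (LN (fa c)), spanY (LN (fb c)))

theorem smul_pair (g : ↥Sb) (Y : Yt × Yt) : g • Y = (((g : ↥Hb) : Jq) • Y.1, ((g : ↥Hb) : Jq) • Y.2) := rfl

theorem tabS : Tab 272 2 TS PS := tab_of_cert certS certS_ok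

theorem hmsS : ∀ c, c < 272 → ∀ i, i < 2 → sT i • maskS (TS c (2 * i)) = maskS c := by
  intro c hc i hi
  obtain ⟨h1, h2, h3, h4, h5, h6, -⟩ := pair_chk ⟨c, hc⟩
  simp only at h1 h2 h3 h4 h5 h6
  rw [smul_pair, sT_val]
  interval_cases i
  · simp only [maskS, Nat.mul_zero]
    rw [h3, h4, P_line h1, P_line h2]
  · simp only [maskS, Nat.mul_one]
    rw [h5, h6, Q_line h1, Q_line h2]

theorem hneS : ∀ c, c < 272 → maskS c = maskS 0 → c = 0 := by
  intro c hc h
  obtain ⟨h1, h2, -, -, -, -, h7⟩ := pair_chk ⟨c, hc⟩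
  simp only at h1 h2 h7
  have e1 : spanY (LN (fa c)) = spanY (LN (fa 0)) := congrArg Prod.fst h
  have e2 : spanY (LN (fb c)) = spanY (LN (fb 0)) := congrArg Prod.snd h
  exact h7 (line_inj_a h1 e1) (line_inj_b h2 e2)

theorem hgenS : closure (sT '' Set.Iio 2) = ⊤ := by
  have h : sT '' Set.Iio 2 = ((↑) : ↥Sb → ↥Hb) ⁻¹' ({pH, qH} : Set ↥Hb) := by
    ext g
    constructor
    · rintro ⟨i, hi, rfl⟩
      have hi' : i < 2 := hi
      interval_cases i
      · exact Or.inl rfl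
      · exact Or.inr rfl
    · intro hg
      rcases hg with hg | hg
      · exact ⟨0, by norm_num [Set.mem_Iio], Subtype.ext hg.symm⟩
      · exact ⟨1, by norm_num [Set.mem_Iio], Subtype.ext (Set.mem_singleton_iff.mp hg).symm⟩
  rw [h]
  exact Subgroup.closure_closure_coe_preimage

/-- the stabiliser of a pair of lines -/
noncomputable def StS : Subgroup ↥Sb := MulAction.stabilizer ↥Sb (maskS 0)

theorem maskS_inj : Set.InjOn maskS {c | c < 272} :=
  mask_inj_of_ne tabS hmsS hneS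

theorem index_StS : StS.index = 272 := index_stabilizer_mask tabS hmsS hgenS maskS_inj

/-- the inclusion -/
noncomputable def incl : ↥Sb →* Jq := Hb.subtype.comp Sb.subtype

theorem incl_inj : Function.Injective incl := fun _ _ h => Subtype.ext (Subtype.ext h)

theorem incl_evW (w : List ℕ) : incl (evW sT w) = evW sS w := by
  rw [map_evW]
  congr 1
  funext i
  exact sT_val i

/-- the element of order fifteen -/
noncomputable def cS : ↥Sb := evW sT wC15

theorem incl_cS_pow (k : ℕ) : incl (cS ^ k) = evW sS (List.flatten (List.replicate k wC15)) := by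
  rw [evW_replicate, map_pow, cS, incl_evW]

theorem cS_ne {k : ℕ} (hw : ∀ l ∈ List.flatten (List.replicate k wC15), l < 4)
    (h : dec K4.w (wC subC (List.flatten (List.replicate k wC15))) 0 1 ≠ 0) : cS ^ k ≠ 1 := by
  intro h1
  have h2 := incl_cS_pow k
  rw [h1, map_one, evW_pairJ] at h2
  exact mk_ne_one (R_word xP_R xQ_R inv_Pc inv_Qc _ hw) (by decide) h h2.symm

theorem orderOf_cS : orderOf cS = 15 := by
  apply orderOf_eq_of_pow_and_pow_div_prime (by norm_num)
  · apply incl_inj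
    rw [incl_cS_pow, map_one]
    exact sub_word_one (by decide +kernel) (by decide +kernel)
  · intro p hp hd
    have h1 : p = 3 ∨ p = 5 := by
      rcases (Nat.Prime.dvd_mul hp).1 (show p ∣ 3 * 5 from hd) with h | h
      · exact Or.inl ((Nat.prime_dvd_prime_iff_eq hp Nat.prime_three).1 h)
      · exact Or.inr ((Nat.prime_dvd_prime_iff_eq hp Nat.prime_five).1 h)
    rcases h1 with rfl | rfl
    · exact cS_ne (k := 5) (by decide +kernel) (by decide +kernel)
    · exact cS_ne (k := 3) (by decide +kernel) (by decide +kernel)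

theorem cS_mem : cS ∈ StS := by
  have hw : ∀ l ∈ wC15, l < 2 * 2 := by decide
  have h1 := inv_evW_smul tabS hmsS wC15 hw (c := 0) (by norm_num)
  have h2 : endV TS 0 wC15 = 0 := by decide +kernel
  rw [h2] at h1
  show cS • maskS 0 = maskS 0
  rw [inv_smul_eq_iff] at h1
  exact h1.symm

instance : Finite Jq := Nat.finite_of_card_ne_zero (by rw [card_quot]; norm_num)

theorem dvd_card_StS : 15 ∣ Nat.card StS := by
  have h1 : orderOf (⟨cS, cS_mem⟩ : ↥StS) = 15 := by
    rw [Subgroup.orderOf_mk, orderOf_cS]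
  rw [← h1]
  exact orderOf_dvd_natCard _

theorem card_Sb : Nat.card Sb = 4080 := by
  have h1 := Subgroup.card_mul_index StS
  rw [index_StS] at h1
  obtain ⟨a, ha⟩ := dvd_card_StS
  have h2 : Nat.card Sb ∣ Nat.card ↥Hb := Subgroup.card_subgroup_dvd_card Sb
  rw [card_Hb, ← h1, ha] at h2
  have h3 : a * 4080 ∣ 8160 := by
    have e : 15 * a * 272 = a * 4080 := by ring
    rwa [e] at h2
  have h4 : a ∣ 2 := by
    obtain ⟨b, hb⟩ := h3
    exact ⟨b, by nlinarith⟩
  have h5 : a = 1 ∨ a = 2 := (Nat.dvd_prime Nat.prime_two).1 h4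
  rcases h5 with rfl | rfl
  · rw [← h1, ha]
  · exfalso
    have h6 : Nat.card Sb = Nat.card ↥Hb := by
      rw [← h1, ha, card_Hb]
    have h7 := Subgroup.eq_top_of_card_eq Sb h6
    apply tH_not_mem
    rw [h7]
    exact mem_top _

theorem card_StS : Nat.card StS = 15 := by
  have h1 := Subgroup.card_mul_index StS
  rw [index_StS, card_Sb] at h1
  omega

theorem index_Sb : Sb.index = 2 := by
  have h1 := Subgroup.card_mul_index Sb
  rw [card_Sb, card_Hb] at h1
  omega

/-! ### The multiplier -/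

theorem relsS_ok : ∀ j : Fin 5, (∀ l ∈ certS.rels j, l < 4) ∧ isScal (wC subC (certS.rels j)) = true := by
  decide +kernel

section Up

variable {Γ : Type} [Group Γ] [Finite Γ] {σ : Γ →* ↥Sb}

theorem ker_pow_16 (hσ : IsStemExtension σ) : ∀ k ∈ σ.ker, k ^ 16 = 1 := by
  intro k hk
  haveI : Fact (Nat.Prime 3) := ⟨by norm_num⟩
  haveI : Fact (Nat.Prime 5) := ⟨by norm_num⟩
  haveI : Fact (Nat.Prime 17) := ⟨by norm_num⟩
  have h3 := ker_pow_prime hσ 3 (by rw [card_Sb]; norm_num) hk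
  have h5 := ker_pow_prime hσ 5 (by rw [card_Sb]; norm_num) hk
  have h17 := ker_pow_prime hσ 17 (by rw [card_Sb]; norm_num) hk
  rw [card_Sb] at h3 h5 h17
  have h1 := pow_gcd_eq_one.mpr ⟨h3, h5⟩
  have h2 := pow_gcd_eq_one.mpr ⟨h1, h17⟩
  have : Nat.gcd (Nat.gcd (4080 / 3) (4080 / 5)) (4080 / 17) = 16 := by norm_num
  rwa [this] at h2

theorem index_ker_StS (hσ : IsStemExtension σ) : (σ.ker.subgroupOf (StS.comap σ)).index = 15 := by
  let f : StS.comap σ →* StS := σ.subgroupComap StS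
  have hf : Function.Surjective f := σ.subgroupComap_surjective_of_surjective StS hσ.1
  have h1 : f.ker = σ.ker.subgroupOf (StS.comap σ) := by
    ext y
    rw [MonoidHom.mem_ker, Subgroup.mem_subgroupOf, MonoidHom.mem_ker]
    constructor
    · intro h
      exact congrArg Subtype.val h
    · intro h
      exact Subtype.ext h
  rw [← h1, Subgroup.index_ker, MonoidHom.range_eq_top.mpr hf]
  rw [Nat.card_congr (Subgroup.topEquiv).toEquiv, card_StS]

theorem ker_bot (hσ : IsStemExtension σ) : σ.ker = ⊥ := by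
  have h16 := ker_pow_16 hσ
  have hq : sT 1 ^ 3 = 1 := Subtype.ext qH_pow
  have hpq : (sT 0 * sT 1) ^ 17 = 1 := Subtype.ext pqH_pow
  obtain ⟨y, hy, hy3⟩ := exists_lift_pow hσ (n := 3) (u := 5) hq h16 (by norm_num)
  obtain ⟨w, hw, hw17⟩ := exists_lift_pow hσ (n := 17) (u := 15) hpq h16 (by norm_num)
  let x : ℕ → Γ := fun i => if i = 0 then w * y⁻¹ else y
  have hx0 : x 0 = w * y⁻¹ := by simp [x]
  have hx1 : x 1 = y := by simp [x]
  have hx : ∀ i, σ (x i) = sT i := by
    intro i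
    by_cases h0 : i = 0
    · subst h0
      rw [hx0, map_mul, map_inv, hy, hw]
      simp
    · have e1 : x i = y := by simp [x, h0]
      have e2 : sT i = sT 1 := by simp [sT, h0]
      rw [e1, hy, e2]
  have hl0 : lett x 0 = w * y⁻¹ := by
    have := lett_even x 0
    simpa [hx0] using this
  have hl2 : lett x 2 = y := by
    have := lett_even x 1
    simpa [hx1] using this
  have hnorm : ∀ j, j < certS.R → certS.normal j = true → evW x (certS.rels j) = 1 := by
    intro j hjR hj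
    have hjR' : j < 5 := hjR
    interval_cases j
    · have e : certS.rels 0 = [2, 2, 2] := by decide +kernel
      rw [e]
      simp only [evW, hl2, mul_one]
      simpa [pow_succ, mul_assoc] using hy3
    · have e : certS.rels 1 = List.flatten (List.replicate 17 [0, 2]) := by decide +kernel
      rw [e, evW_replicate]
      have e2 : evW x [0, 2] = w := by simp [evW, hl0, hl2]
      rw [e2, hw17]
    · simp [certS] at hj
    · simp [certS] at hj
    · simp [certS] at hj
  have hHt : ∀ z, z ∈ StS.comap σ ↔ σ z • maskS 0 = maskS 0 := by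
    intro z
    rw [Subgroup.mem_comap]
    exact MulAction.mem_stabilizer_iff
  have hle : σ.ker ≤ StS.comap σ := by
    intro z hz
    rw [Subgroup.mem_comap, MonoidHom.mem_ker.mp hz]
    exact Subgroup.one_mem _
  obtain ⟨ρ, hρ⟩ := exists_retraction_of_index hσ.2.1 (StS.comap σ) hle (d := 15) (e := 15) (E := 16)
    (index_ker_StS hσ) h16 (by norm_num) (by norm_num)
  letI : CommGroup σ.ker := { (inferInstance : Group σ.ker) with
    mul_comm := fun a b => Subtype.ext (Subgroup.mem_center_iff.mp (hσ.2.1 b.2) a.1) }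
  have hE : ∀ b : σ.ker, b ^ certS.E = 1 := fun b => Subtype.ext (h16 b.1 b.2)
  have hrels : ∀ j, j < certS.R → ∀ l ∈ certS.rels j, l < 2 * certS.m := by
    intro j hj l hl
    exact (relsS_ok ⟨j, hj⟩).1 l hl
  have hrel : ∀ j, j < certS.R → evW sT (certS.rels j) = 1 := by
    intro j hj
    apply incl_inj
    rw [incl_evW, map_one]
    exact sub_word_one (relsS_ok ⟨j, hj⟩).1 (relsS_ok ⟨j, hj⟩).2
  obtain ⟨u, hu, hall⟩ := ker_cyclic_of_cert hσ hHt ρ hρ (MonoidHom.id σ.ker) certS certS_ok hE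
    (mask := maskS) rfl hneS hmsS hgenS hx hrels hrel hnorm
  have hu1 : u = 1 := by simpa [certS] using hu
  rw [eq_bot_iff]
  intro k hk
  have h1 := hall ⟨k, hk⟩
  rw [hu1, Subgroup.zpowers_one_eq_bot, Subgroup.mem_bot] at h1
  exact congrArg Subtype.val h1

end Up

theorem hM_Sb : HasCyclicSchurMultiplier ↥Sb 1 :=
  hasCyclicSchurMultiplier_one ↥Sb (fun _ _ _ _ hσ => ker_bot hσ)

end Cfsg.Agent.Lib.J3SchurL12
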