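import Cfsg.Agent.Lib.J3SchurUp12
import Cfsg.Agent.Lib.J3Transp12
import Cfsg.Agent.Lib.SchurCover46

/-!
# The Schur multiplier of `J₃`
-/

set_option autoImplicit false
set_option linter.style.haveILetI false

namespace Cfsg.Agent.Lib.J3SchurMain12

open Cfsg Cfsg.Spor Subgroup Matrix
open Cfsg.Agent.Lib.F4Mat Cfsg.Agent.Lib.J3Code Cfsg.Agent.Lib.J3Data
  Cfsg.Agent.Lib.J3Chain Cfsg.Agent.Lib.J3Main Cfsg.Agent.Lib.J3SchurAct12
  Cfsg.Agent.Lib.J3Transp12 Cfsg.Agent.Lib.SchurCover46

universe u

/-- a copy of a finite type -/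
def FinCopy (n : ℕ) : Type := Fin n

/-- The centre of the triple cover lies in the commutator subgroup. -/
theorem center_le_commutator : center ↥G3 ≤ commutator ↥G3 := by
  set S : Set GK := sxT '' {g | g < 2} with hS
  have hS19 : ∀ g ∈ S, g ^ 19 = 1 := by
    rintro _ ⟨g, hg, rfl⟩
    have hg' : g < 2 := hg
    interval_cases g
    · simpa [sxT] using aE_pow
    · have h1 : sxT 1 = uE⁻¹ * aE * (uE⁻¹)⁻¹ := by
        simp [sxT, a2E, mul_assoc]
      rw [h1, conj_pow, aE_pow]
      simp
  have hH : closure S = G3 := G3_eq_H.symm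
  intro z hz
  have hz3 : z ^ 3 = 1 := by
    have h1 : (⟨z, hz⟩ : center ↥G3) ^ 3 = 1 := by
      have h2 := pow_card_eq_one' (G := center ↥G3) (x := ⟨z, hz⟩)
      rwa [card_center] at h2
    exact congrArg Subtype.val h1
  let e : ↥(closure S) ≃* ↥G3 := MulEquiv.subgroupCongr hH
  have h1 : e.symm z ∈ commutator ↥(closure S) := by
    apply mem_commutator_of_gens S (t := 3) hS19 (by norm_num)
    rw [← map_pow, hz3, map_one]
  have h2 : (commutator ↥(closure S)).map e.toMonoidHom ≤ commutator ↥G3 := by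
    rw [_root_.commutator_def, Subgroup.map_commutator, _root_.commutator_def]
    exact Subgroup.commutator_mono le_top le_top
  exact h2 ⟨_, h1, e.apply_symm_apply z⟩

section main

variable {F : Type u} [Field F] [Fintype F] (hF : Fintype.card F = 4) (ω : F) (hω : ω ^ 2 + ω + 1 = 0)

include hF hω

/-- The theorem. -/
theorem main : HasCyclicSchurMultiplier (J3 F ω) 3 := by
  let e : ↥G3 ≃* ↥(threeJ3 F ω) := coverEquiv (fEquiv hF ω hω) ω (fEquiv_w hF ω hω)
  let qe : Jq ≃* J3 F ω := quotEquiv e
  haveI hfin : Finite ↥(threeJ3 F ω) := Finite.of_equiv _ e.toEquiv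
  constructor
  · -- the cover
    refine ⟨↥(threeJ3 F ω), inferInstance, hfin, QuotientGroup.mk' (center ↥(threeJ3 F ω)), ?_, ?_⟩
    · refine ⟨QuotientGroup.mk'_surjective _, ?_, ?_⟩
      · rw [QuotientGroup.ker_mk']
      · rw [QuotientGroup.ker_mk']
        intro z hz
        have h1 : e.symm z ∈ center ↥G3 := by
          rw [Subgroup.mem_center_iff] at hz ⊢
          intro g
          apply e.injective
          rw [map_mul, map_mul, e.apply_symm_apply]
          exact hz _
        have h2 := center_le_commutator h1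
        have h3 : (commutator ↥G3).map e.toMonoidHom ≤ commutator ↥(threeJ3 F ω) := by
          rw [_root_.commutator_def, Subgroup.map_commutator, _root_.commutator_def]
          exact Subgroup.commutator_mono le_top le_top
        exact h3 ⟨_, h2, e.apply_symm_apply z⟩
    · haveI : Fact (Nat.Prime 3) := ⟨Nat.prime_three⟩
      have h1 : Nat.card (QuotientGroup.mk' (center ↥(threeJ3 F ω))).ker = 3 := by
        rw [QuotientGroup.ker_mk', ← Nat.card_congr (centerCongr e).toEquiv]
        exact card_center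
      have h2 : Nat.card (Multiplicative (ZMod 3)) = 3 := by
        show Nat.card (ZMod 3) = 3
        rw [Nat.card_zmod]
      exact ⟨mulEquivOfPrimeCardEq h1 h2⟩
  · intro Γ _ _ σ hσ
    -- a copy of the group in the universe of types
    let eq : Γ ≃ FinCopy (Nat.card Γ) := Finite.equivFin Γ
    letI : Group (FinCopy (Nat.card Γ)) := eq.symm.group
    haveI : Finite (FinCopy (Nat.card Γ)) := inferInstanceAs (Finite (Fin (Nat.card Γ)))
    let E : FinCopy (Nat.card Γ) ≃* Γ := eq.symm.mulEquiv
    let σ₀ : FinCopy (Nat.card Γ) →* Jq := qe.symm.toMonoidHom.comp (σ.comp E.toMonoidHom)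
    have hk : ∀ k, k ∈ σ₀.ker ↔ E k ∈ σ.ker := by
      intro k
      rw [MonoidHom.mem_ker, MonoidHom.mem_ker]
      show qe.symm (σ (E k)) = 1 ↔ _
      exact map_eq_one_iff qe.symm qe.symm.injective
    have hst : IsStemExtension σ₀ := by
      refine ⟨?_, ?_, ?_⟩
      · intro g
        obtain ⟨x, hx⟩ := hσ.1 (qe g)
        refine ⟨E.symm x, ?_⟩
        show qe.symm (σ (E (E.symm x))) = g
        rw [E.apply_symm_apply, hx, qe.symm_apply_apply]
      · intro k hk'
        have h1 := hσ.2.1 ((hk k).mp hk')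
        rw [Subgroup.mem_center_iff] at h1 ⊢
        intro g
        apply E.injective
        rw [map_mul, map_mul]
        exact h1 _
      · intro k hk'
        have h1 := hσ.2.2 ((hk k).mp hk')
        have h2 : (commutator Γ).map E.symm.toMonoidHom ≤ commutator (FinCopy (Nat.card Γ)) := by
          rw [_root_.commutator_def, Subgroup.map_commutator, _root_.commutator_def]
          exact Subgroup.commutator_mono le_top le_top
        exact h2 ⟨_, h1, E.symm_apply_apply k⟩
    obtain ⟨u₀, hu₀, hall⟩ := Cfsg.Agent.Lib.J3SchurUp12.up hst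
    let _ : CommGroup σ.ker := { (inferInstance : Group σ.ker) with
      mul_comm := fun a b => Subtype.ext (Subgroup.mem_center_iff.mp (hσ.2.1 b.2) a.1) }
    refine exists_surj_of_cyclic (⟨E u₀.1, (hk _).mp u₀.2⟩ : σ.ker) ?_ ?_
    · apply Subtype.ext
      show (E u₀.1) ^ 3 = 1
      rw [← map_pow]
      have h1 : u₀.1 ^ 3 = 1 := congrArg Subtype.val hu₀
      rw [h1, map_one]
    · intro k
      obtain ⟨n, hn⟩ := hall ⟨E.symm k.1, (hk _).mpr (by rw [E.apply_symm_apply]; exact k.2)⟩
      refine ⟨n, ?_⟩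
      apply Subtype.ext
      have h1 : u₀.1 ^ n = E.symm k.1 := congrArg Subtype.val hn
      show (E u₀.1) ^ n = k.1
      rw [← map_zpow, h1, E.apply_symm_apply]

end main

end Cfsg.Agent.Lib.J3SchurMain12
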