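import Cfsg.Agent.Lib.J3SchurChk12
import Cfsg.Agent.Lib.J3SchurCert12
import Cfsg.Agent.Lib.SchurTarget12
import Cfsg.Agent.Lib.SchurLocal12

/-!
# The stabiliser of an isotropic subspace and its simple subgroup
-/

set_option autoImplicit false
set_option maxRecDepth 100000
set_option Elab.async false
set_option linter.style.haveILetI false

namespace Cfsg.Agent.Lib.J3SchurS12

open Cfsg Cfsg.Spor Subgroup Matrix
open Cfsg.Agent.Lib.F4Mat Cfsg.Agent.Lib.ChainCert Cfsg.Agent.Lib.J3Code Cfsg.Agent.Lib.J3Data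
  Cfsg.Agent.Lib.J3Chain Cfsg.Agent.Lib.J3Iso Cfsg.Agent.Lib.J3Main Cfsg.Agent.Lib.J3SchurAct12
  Cfsg.Agent.Lib.J3SchurData12 Cfsg.Agent.Lib.PermChain12 Cfsg.Agent.Lib.SchurCoset46
  Cfsg.Agent.Lib.J3SchurChk12 Cfsg.Agent.Lib.J3SchurCert12 Cfsg.Agent.Lib.SchurTarget12
  Cfsg.Agent.Lib.SchurOrbit12 Cfsg.Agent.Lib.SchurStem Cfsg.Agent.Lib.SchurLocal12

/-! ### Generalities -/

section General

theorem tab_of_cert (C : CertE) (hC : C.check = true) : Tab C.n C.m C.T C.par := by
  simp only [CertE.check, Bool.and_eq_true] at hC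
  exact C.base.tab_of_chk hC.1.1.1.2

theorem inv_evW_smul {G X : Type*} [Group G] [MulAction G X] {n m : ℕ} {T : ℕ → ℕ → ℕ} {par : ℕ → ℕ × ℕ}
    {mask : ℕ → X} {s : ℕ → G} (hT : Tab n m T par)
    (hms : ∀ c, c < n → ∀ i, i < m → s i • mask (T c (2 * i)) = mask c) (w : List ℕ) (hw : ∀ l ∈ w, l < 2 * m)
    {c : ℕ} (hc : c < n) : (evW s w)⁻¹ • mask c = mask (endV T c w) := by
  induction w generalizing c with
  | nil => simp [evW, endV]
  | cons l w ih =>
    have hl := hw l List.mem_cons_self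
    simp only [evW, endV, _root_.mul_inv_rev, mul_smul]
    rw [lett_smul hT hms hc hl]
    exact ih (fun a ha => hw a (List.mem_cons_of_mem _ ha)) (hT.T_lt c hc l hl)

theorem evW_mem_closure {G : Type*} [Group G] (s : ℕ → G) (m : ℕ) (w : List ℕ) (hw : ∀ l ∈ w, l < 2 * m) :
    evW s w ∈ closure (s '' Set.Iio m) := by
  induction w with
  | nil => exact Subgroup.one_mem _
  | cons l w ih =>
    have hl := hw l List.mem_cons_self
    refine Subgroup.mul_mem _ ?_ (ih (fun a ha => hw a (List.mem_cons_of_mem _ ha)))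
    unfold lett
    have hi : l / 2 < m := by omega
    split_ifs
    · exact Subgroup.subset_closure ⟨_, hi, rfl⟩
    · exact Subgroup.inv_mem _ (Subgroup.subset_closure ⟨_, hi, rfl⟩)

/-- A group generated by elements of order `2` and `3` with product of order `17` is perfect. -/
theorem perfect_closure {G : Type*} [Group G] {p q : G} (hp : p ^ 2 = 1) (hq : q ^ 3 = 1) (hpq : (p * q) ^ 17 = 1) :
    commutator ↥(closure ({p, q} : Set G)) = ⊤ := by
  set S := closure ({p, q} : Set G) with hS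
  let φ : ↥S →* Abelianization ↥S := Abelianization.of
  have hpS : p ∈ S := Subgroup.subset_closure (Or.inl rfl)
  have hqS : q ∈ S := Subgroup.subset_closure (Or.inr rfl)
  set P := φ ⟨p, hpS⟩ with hP
  set Q := φ ⟨q, hqS⟩ with hQ
  have hP2 : P ^ 2 = 1 := by
    rw [hP, ← map_pow]
    have : (⟨p, hpS⟩ : ↥S) ^ 2 = 1 := Subtype.ext hp
    rw [this, map_one]
  have hQ3 : Q ^ 3 = 1 := by
    rw [hQ, ← map_pow]
    have : (⟨q, hqS⟩ : ↥S) ^ 3 = 1 := Subtype.ext hq
    rw [this, map_one]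
  have hPQ : (P * Q) ^ 17 = 1 := by
    rw [hP, hQ, ← map_mul, ← map_pow]
    have : ((⟨p, hpS⟩ : ↥S) * ⟨q, hqS⟩) ^ 17 = 1 := Subtype.ext hpq
    rw [this, map_one]
  have h1 : P * Q ^ 2 = 1 := by
    have e1 : P ^ 17 = P := by
      calc P ^ 17 = (P ^ 2) ^ 8 * P := by rw [← pow_mul, ← pow_succ]
        _ = P := by rw [hP2, one_pow, one_mul]
    have e2 : Q ^ 17 = Q ^ 2 := by
      calc Q ^ 17 = (Q ^ 3) ^ 5 * Q ^ 2 := by rw [← pow_mul, ← pow_add]
        _ = Q ^ 2 := by rw [hQ3, one_pow, one_mul]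
    rw [mul_pow, e1, e2] at hPQ
    exact hPQ
  have h2 : P = Q := by
    have e : Q ^ 2 * Q = 1 := by rw [← pow_succ, hQ3]
    have e2 : P = (Q ^ 2)⁻¹ := eq_inv_of_mul_eq_one_left h1
    rw [e2]
    exact inv_eq_of_mul_eq_one_right e
  have hQ1 : Q = 1 := by
    have e : Q ^ 2 = 1 := by rw [← h2]; exact hP2
    have e3 : Q ^ 3 = Q := by rw [pow_succ, e, one_mul]
    rw [← e3, hQ3]
  have hP1 : P = 1 := by rw [h2, hQ1]
  have hall : ∀ (z : G) (hz : z ∈ S), φ ⟨z, hz⟩ = 1 := by
    intro z hz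
    induction hz using Subgroup.closure_induction with
    | mem z hz =>
      rcases hz with rfl | hz
      · exact hP1
      · rw [Set.mem_singleton_iff] at hz
        subst hz
        exact hQ1
    | one =>
      have : (⟨1, Subgroup.one_mem _⟩ : ↥S) = 1 := rfl
      rw [this, map_one]
    | mul a b ha hb iha ihb =>
      have : (⟨a * b, Subgroup.mul_mem _ ha hb⟩ : ↥S) = ⟨a, ha⟩ * ⟨b, hb⟩ := rfl
      rw [this, map_mul, iha, ihb, one_mul]
    | inv a ha iha =>
      have : (⟨a⁻¹, Subgroup.inv_mem _ ha⟩ : ↥S) = (⟨a, ha⟩)⁻¹ := rfl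
      rw [this, map_inv, iha, inv_one]
  rw [eq_top_iff]
  rintro ⟨z, hz⟩ -
  have h5 : φ.ker = commutator ↥S := by
    change (QuotientGroup.mk' (commutator ↥S)).ker = commutator ↥S
    exact QuotientGroup.ker_mk' _
  rw [← h5]
  exact hall z hz

/-- An element of prime order gives a power law in the kernel of a stem extension. -/
theorem ker_pow_prime {Γ G : Type*} [Group Γ] [Group G] [Finite Γ] [Finite G] {σ : Γ →* G}
    (hσ : IsStemExtension σ) (p : ℕ) [Fact p.Prime] (hp : p ∣ Nat.card G) {k : Γ} (hk : k ∈ σ.ker) :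
    k ^ (Nat.card G / p) = 1 := by
  haveI : Fintype G := Fintype.ofFinite _
  obtain ⟨a, ha⟩ := exists_prime_orderOf_dvd_card' (G := G) p hp
  have h1 := pow_index_eq_one hσ (Subgroup.zpowers a) (comap_comm_of_zpowers σ hσ.1 hσ.2.1 a) hk
  have h2 : (Subgroup.zpowers a).index = Nat.card G / p := by
    have h3 := Subgroup.card_mul_index (Subgroup.zpowers a)
    rw [Nat.card_zpowers, ha] at h3
    rw [← h3]
    exact (Nat.mul_div_cancel_left _ (Fact.out : p.Prime).pos).symm
  rwa [h2] at h1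

end General

/-! ### The top level -/

theorem tabT : Tab 6156 2 TT PR := tab_of_cert cert2 cert2_ok

theorem hmsT : ∀ c, c < 6156 → ∀ i, i < 2 → sJ i • mask (TT c (2 * i)) = mask c := by
  intro c hc i hi
  interval_cases i
  · have hd := tabT.T_lt c hc 0 (by norm_num)
    obtain ⟨h1, -⟩ := chkTop_spec hc
    refine eq_of_sub2 sJ0_pow (sJ0_sub hc) ?_
    have h2 := sJ0_sub hd
    rwa [h1] at h2
  · have hd := tabT.T_lt c hc 2 (by norm_num)
    have hd2 := tabT.T_lt _ hd 2 (by norm_num)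
    obtain ⟨-, h1, -⟩ := chkTop_spec hc
    refine eq_of_sub3 sJ1_pow (W := mask (TT (TT c 2) 2)) (sJ1_sub hc) ?_ (sJ1_sub hd)
    have h2 := sJ1_sub hd2
    rwa [h1] at h2

theorem a_word : R (evW (pairX xA xB) waW : ↥G3).1 aC := by
  have h := R_word xA_R xB_R inv_Ac inv_Bc waW (by decide +kernel)
  have e : wC (pairC Ac Ac Bc Bic) waW = aC := by decide +kernel
  rwa [e] at h

theorem a2_word : R (evW (pairX xA xB) a2W : ↥G3).1 a2C := by
  have h := R_word xA_R xB_R inv_Ac inv_Bc a2W (by decide +kernel)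
  have e : wC (pairC Ac Ac Bc Bic) a2W = a2C := by decide +kernel
  rwa [e] at h

theorem hgenT : closure (sJ '' Set.Iio 2) = ⊤ := by
  set K := closure (sJ '' Set.Iio 2) with hK
  set K' : Subgroup ↥G3 := K.comap (QuotientGroup.mk' (center ↥G3)) with hK'
  have hw : ∀ w : List ℕ, (∀ l ∈ w, l < 4) → evW (pairX xA xB) w ∈ K' := by
    intro w hw
    show mkJ (evW (pairX xA xB) w) ∈ K
    rw [← evW_pairJ]
    exact evW_mem_closure _ 2 w hw
  have h1 : H ≤ K'.map G3.subtype := by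
    rw [H, gensSub, Subgroup.closure_le]
    rintro _ ⟨g, hg, rfl⟩
    have hg' : g < 2 := hg
    interval_cases g
    · refine ⟨_, hw waW (by decide +kernel), ?_⟩
      exact R_inj a_word aE_R
    · refine ⟨_, hw a2W (by decide +kernel), ?_⟩
      exact R_inj a2_word a2E_R
  rw [eq_top_iff]
  rintro g -
  obtain ⟨x, rfl⟩ := QuotientGroup.mk_surjective g
  have h2 : (x : GK) ∈ H := by
    rw [← G3_eq_H]
    exact x.2
  obtain ⟨y, hy, hyx⟩ := h1 h2
  have : y = x := Subtype.ext hyx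
  subst this
  exact hy

theorem mask_inj : Set.InjOn mask {c | c < 6156} :=
  mask_inj_of_ne tabT hmsT (fun _ hc h => mask_ne hc h)

/-- the stabiliser -/
noncomputable def Hb : Subgroup Jq := MulAction.stabilizer Jq (mask 0)

theorem index_Hb : Hb.index = 6156 := index_stabilizer_mask tabT hmsT hgenT mask_inj

theorem card_Hb : Nat.card Hb = 8160 := by
  have h := Subgroup.card_mul_index Hb
  rw [index_Hb, card_quot] at h
  omega

theorem sub_W0 {x : ↥G3} {n : ℕ} (hx : R (x : GK) n) (h : subChk n (BR 0) (BR 0) = true) :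
    Sub (mkJ x • mask 0) (mask 0) := smul_spanY_sub hx (subChk_spec h)

theorem sub0_P : subChk Pc (BR 0) (BR 0) = true := by decide +kernel
theorem sub0_Q : subChk Qc (BR 0) (BR 0) = true := by decide +kernel
theorem sub0_T : subChk Tc (BR 0) (BR 0) = true := by decide +kernel

theorem tT_pow : mkJ xT ^ 2 = 1 := by
  have h : mkJ (xT * xT) = 1 := mk_eq_one (R_mul xT_R xT_R) (by decide +kernel)
  rw [pow_two]
  exact h

/-- the involution in the stabiliser -/
noncomputable def pH : ↥Hb := ⟨sS 0, by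
  show sS 0 • mask 0 = mask 0
  exact eq_of_sub2 sS0_pow (sub_W0 xP_R sub0_P) (sub_W0 xP_R sub0_P)⟩

/-- the element of order three in the stabiliser -/
noncomputable def qH : ↥Hb := ⟨sS 1, by
  show sS 1 • mask 0 = mask 0
  exact eq_of_sub3 sS1_pow (sub_W0 xQ_R sub0_Q) (sub_W0 xQ_R sub0_Q) (sub_W0 xQ_R sub0_Q)⟩

/-- the outer involution in the stabiliser -/
noncomputable def tH : ↥Hb := ⟨mkJ xT, by
  show mkJ xT • mask 0 = mask 0
  exact eq_of_sub2 tT_pow (sub_W0 xT_R sub0_T) (sub_W0 xT_R sub0_T)⟩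

/-- the simple subgroup of the stabiliser -/
noncomputable def Sb : Subgroup ↥Hb := closure ({pH, qH} : Set ↥Hb)

theorem pH_mem : pH ∈ Sb := Subgroup.subset_closure (Or.inl rfl)
theorem qH_mem : qH ∈ Sb := Subgroup.subset_closure (Or.inr rfl)

theorem pH_pow : pH ^ 2 = 1 := Subtype.ext sS0_pow
theorem qH_pow : qH ^ 3 = 1 := Subtype.ext sS1_pow
theorem pqH_pow : (pH * qH) ^ 17 = 1 := Subtype.ext sS01_pow

theorem perfect_Sb : commutator ↥Sb = ⊤ := perfect_closure pH_pow qH_pow pqH_pow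

/-! ### The invariant set -/

theorem Al_P : Al.all (fun a => Al.contains (canon (mvC Pc a))) = true := by decide +kernel
theorem Al_Q : Al.all (fun a => Al.contains (canon (mvC Qc a))) = true := by decide +kernel

theorem Al_pS : sS 0 • closS Al = closS Al :=
  eq_of_sub2 sS0_pow (smul_closS_sub xP_R Al_P) (smul_closS_sub xP_R Al_P)

theorem Al_qS : sS 1 • closS Al = closS Al :=
  eq_of_sub3 sS1_pow (smul_closS_sub xQ_R Al_Q) (smul_closS_sub xQ_R Al_Q) (smul_closS_sub xQ_R Al_Q)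

theorem Sb_smul_Al : ∀ g ∈ Sb, (g : Jq) • closS Al = closS Al := by
  intro g hg
  induction hg using Subgroup.closure_induction with
  | mem z hz =>
    rcases hz with rfl | hz
    · exact Al_pS
    · rw [Set.mem_singleton_iff] at hz
      subst hz
      exact Al_qS
  | one => exact one_smul _ _
  | mul a b _ _ iha ihb =>
    show ((a : Jq) * (b : Jq)) • closS Al = closS Al
    rw [mul_smul, ihb, iha]
  | inv a _ ih =>
    show ((a : Jq))⁻¹ • closS Al = closS Al
    rw [inv_smul_eq_iff, ih]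

theorem a00_mem : a00 ∈ Al := by decide +kernel

theorem tau_moves : ∀ n ∈ Al, ∀ c : K4, c ≠ 0 → vecC (mvC Tc a00) ≠ c • vecC n := by decide +kernel

theorem tH_not_mem : tH ∉ Sb := by
  intro h
  have h1 := Sb_smul_Al tH h
  have h2 : vecC (mvC Tc a00) ∈ ((tH : Jq) • closS Al).1 := by
    refine ⟨vecC a00, ⟨a00, a00_mem, 1, one_ne_zero, (one_smul _ _).symm⟩, ?_⟩
    show toF (xT : GK) *ᵥ vecC a00 = _
    rw [toF_R xT_R, dec_mulVec]
  rw [h1] at h2
  obtain ⟨n, hn, c, hc, he⟩ := h2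
  exact tau_moves n hn c hc he

end Cfsg.Agent.Lib.J3SchurS12
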