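import Cfsg.Agent.Lib.J3SchurL12

/-!
# The Schur multiplier of `J₃`: the upper bound
-/

set_option autoImplicit false
set_option maxRecDepth 100000
set_option Elab.async false
set_option linter.style.haveILetI false

namespace Cfsg.Agent.Lib.J3SchurUp12

open Cfsg Cfsg.Spor Subgroup Matrix
open Cfsg.Agent.Lib.F4Mat Cfsg.Agent.Lib.ChainCert Cfsg.Agent.Lib.J3Code Cfsg.Agent.Lib.J3Data
  Cfsg.Agent.Lib.J3Chain Cfsg.Agent.Lib.J3Iso Cfsg.Agent.Lib.J3Main Cfsg.Agent.Lib.J3SchurAct12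
  Cfsg.Agent.Lib.J3SchurData12 Cfsg.Agent.Lib.PermChain12 Cfsg.Agent.Lib.SchurCoset46
  Cfsg.Agent.Lib.J3SchurChk12 Cfsg.Agent.Lib.J3SchurCert12 Cfsg.Agent.Lib.SchurTarget12
  Cfsg.Agent.Lib.SchurOrbit12 Cfsg.Agent.Lib.SchurStem Cfsg.Agent.Lib.SchurLocal12
  Cfsg.Agent.Lib.J3SchurS12 Cfsg.Agent.Lib.J3SchurL12 Cfsg.Agent.Lib.SchurAbTarget12

theorem rels2_ok : ∀ j : Fin 10, (∀ l ∈ cert2.rels j, l < 4) ∧ isScal (wC topC (cert2.rels j)) = true := by
  decide +kernel

theorem rels3_ok : ∀ j : Fin 6, (∀ l ∈ cert3.rels j, l < 4) ∧ isScal (wC topC (cert3.rels j)) = true := by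
  decide +kernel

section Up

variable {Γ : Type} [Group Γ] [Finite Γ] {σ : Γ →* Jq}

/-- The abelian target of the preimage of the stabiliser. -/
theorem target (hσ : IsStemExtension σ) :
    ∃ (A : Type) (_ : CommGroup A) (ρ : ↥(Hb.comap σ) →* A), Function.Surjective ρ ∧
      (∀ k (h : k ∈ Hb.comap σ), k ∈ σ.ker → ρ ⟨k, h⟩ = 1 → k = 1) ∧ Nat.card A = 2 * Nat.card σ.ker ∧
      ∀ y, ∃ (k : Γ) (h : k ∈ Hb.comap σ), k ∈ σ.ker ∧ ρ y ^ 2 = ρ ⟨k, h⟩ := by
  let f : ↥(Hb.comap σ) →* ↥Hb := σ.subgroupComap Hb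
  have hf : Function.Surjective f := σ.subgroupComap_surjective_of_surjective Hb hσ.1
  have hk : ∀ y : ↥(Hb.comap σ), y ∈ f.ker ↔ y.1 ∈ σ.ker := by
    intro y
    rw [MonoidHom.mem_ker, MonoidHom.mem_ker]
    constructor
    · intro h
      exact congrArg Subtype.val h
    · intro h
      exact Subtype.ext h
  have hc : f.ker ≤ center ↥(Hb.comap σ) := by
    intro y hy
    rw [Subgroup.mem_center_iff]
    intro z
    apply Subtype.ext
    exact Subgroup.mem_center_iff.mp (hσ.2.1 ((hk y).mp hy)) z.1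
  obtain ⟨A, iA, ρ, h1, h2, h3, h4⟩ := exists_abelian_target f hf hc Sb hM_Sb perfect_Sb index_Sb
  have hKle : ∀ k, k ∈ σ.ker → k ∈ Hb.comap σ := by
    intro k hk'
    rw [Subgroup.mem_comap, MonoidHom.mem_ker.mp hk']
    exact Subgroup.one_mem _
  refine ⟨A, iA, ρ, h1, ?_, ?_, ?_⟩
  · intro k h hk' he
    have := h2 ⟨k, h⟩ ((hk _).mpr hk') he
    exact congrArg Subtype.val this
  · rw [h3]
    congr 1
    exact Nat.card_congr ⟨fun y => ⟨y.1.1, (hk y.1).mp y.2⟩,
      fun k => ⟨⟨k.1, hKle k.1 k.2⟩, (hk _).mpr k.2⟩, fun y => rfl, fun k => rfl⟩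
  · intro y
    obtain ⟨k, hk', he⟩ := h4 y
    exact ⟨k.1, k.2, (hk k).mp hk', he⟩

theorem hHtT (z : Γ) : z ∈ Hb.comap σ ↔ σ z • mask 0 = mask 0 := by
  rw [Subgroup.mem_comap]
  exact MulAction.mem_stabilizer_iff

theorem sJ_ne {i : ℕ} (h0 : i ≠ 0) : sJ i = sJ 1 := by
  show pairJ xA xB i = pairJ xA xB 1
  unfold pairJ pairX
  rw [if_neg h0]
  rfl

/-- The `2`-part. -/
theorem ker_bot_of_128 (hσ : IsStemExtension σ) (h128 : ∀ k ∈ σ.ker, k ^ 128 = 1) : σ.ker = ⊥ := by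
  obtain ⟨A, iA, ρ, hs, hinj, hcard, hsq⟩ := target hσ
  obtain ⟨y, hy, hy3⟩ := exists_lift_pow hσ (n := 3) (u := 85) sJ1_pow h128 (by norm_num)
  obtain ⟨w, hw, hw19⟩ := exists_lift_pow hσ (n := 19) (u := 101) sJ01_pow h128 (by norm_num)
  let x : ℕ → Γ := fun i => if i = 0 then w * y⁻¹ else y
  have hx0 : x 0 = w * y⁻¹ := by simp [x]
  have hx1 : x 1 = y := by simp [x]
  have hx : ∀ i, σ (x i) = sJ i := by
    intro i
    by_cases h0 : i = 0
    · subst h0
      rw [hx0, map_mul, map_inv, hy, hw]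
      simp
    · have e1 : x i = y := by simp [x, h0]
      rw [e1, hy, sJ_ne h0]
  have hl0 : lett x 0 = w * y⁻¹ := by
    have := lett_even x 0
    simpa [hx0] using this
  have hl2 : lett x 2 = y := by
    have := lett_even x 1
    simpa [hx1] using this
  have hnorm : ∀ j, j < cert2.R → cert2.normal j = true → evW x (cert2.rels j) = 1 := by
    intro j hjR hj
    have hjR' : j < 10 := hjR
    by_cases h0 : j = 0
    · subst h0
      have e : cert2.rels 0 = [2, 2, 2] := by decide +kernel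
      rw [e]
      simp only [evW, hl2, mul_one]
      simpa [pow_succ, mul_assoc] using hy3
    · by_cases h1 : j = 1
      · subst h1
        have e : cert2.rels 1 = List.flatten (List.replicate 19 [0, 2]) := by decide +kernel
        rw [e, evW_replicate]
        have e2 : evW x [0, 2] = w := by simp [evW, hl0, hl2]
        rw [e2, hw19]
      · exfalso
        have e : cert2.normal j = (Nat.beq j 0 || Nat.beq j 1) := rfl
        rw [e, Bool.or_eq_true] at hj
        rcases hj with hj | hj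
        · exact h0 (Nat.eq_of_beq_eq_true hj)
        · exact h1 (Nat.eq_of_beq_eq_true hj)
  have hE : ∀ b : A, b ^ cert2.E = 1 := by
    intro b
    obtain ⟨z, rfl⟩ := hs b
    obtain ⟨k, h, hk, he⟩ := hsq z
    have e : cert2.E = 2 * 128 := rfl
    rw [e, pow_mul, he, ← map_pow]
    have h1 : (⟨k, h⟩ : ↥(Hb.comap σ)) ^ 128 = 1 := Subtype.ext (h128 k hk)
    rw [h1, map_one]
  have hrels : ∀ j, j < cert2.R → ∀ l ∈ cert2.rels j, l < 2 * cert2.m := by
    intro j hj l hl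
    exact (rels2_ok ⟨j, hj⟩).1 l hl
  have hrel : ∀ j, j < cert2.R → evW sJ (cert2.rels j) = 1 := by
    intro j hj
    exact top_word_one (rels2_ok ⟨j, hj⟩).1 (rels2_ok ⟨j, hj⟩).2
  obtain ⟨u, hu, hall⟩ := target_cyclic_of_cert hσ hHtT ρ cert2 cert2_ok hE (mask := mask) rfl
    (fun _ hc h => mask_ne hc h) hmsT hgenT hx hrels hrel hnorm
  have hu2 : u ^ 2 = 1 := hu
  haveI : Finite A := Finite.of_surjective ρ hs
  have htop : zpowers u = ⊤ := by
    rw [eq_top_iff]
    intro a _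
    obtain ⟨z, rfl⟩ := hs a
    exact hall z
  have hcardA : Nat.card A ∣ 2 := by
    have h1 : Nat.card (zpowers u) = Nat.card A := by
      rw [htop]
      exact Nat.card_congr (Subgroup.topEquiv).toEquiv
    rw [← h1, Nat.card_zpowers]
    exact orderOf_dvd_of_pow_eq_one hu2
  rw [hcard] at hcardA
  have hk1 : Nat.card σ.ker = 1 := by
    have hpos : 0 < Nat.card σ.ker := Nat.card_pos
    have := Nat.le_of_dvd (by norm_num) hcardA
    omega
  exact Subgroup.eq_bot_of_card_eq _ hk1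

/-- The `3`-part. -/
theorem ker_of_243 (hσ : IsStemExtension σ) (h243 : ∀ k ∈ σ.ker, k ^ 243 = 1) :
    ∃ u : σ.ker, u ^ 3 = 1 ∧ ∀ k : σ.ker, k ∈ Subgroup.zpowers u := by
  obtain ⟨A, iA, ρ, hs, hinj, hcard, hsq⟩ := target hσ
  obtain ⟨a, ha, ha2⟩ := exists_lift_pow hσ (n := 2) (u := 121) sJ0_pow h243 (by norm_num)
  obtain ⟨w, hw, hw19⟩ := exists_lift_pow hσ (n := 19) (u := 179) sJ01_pow h243 (by norm_num)
  let x : ℕ → Γ := fun i => if i = 0 then a else a⁻¹ * w
  have hx0 : x 0 = a := by simp [x]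
  have hx1 : x 1 = a⁻¹ * w := by simp [x]
  have hx : ∀ i, σ (x i) = sJ i := by
    intro i
    by_cases h0 : i = 0
    · subst h0
      rw [hx0, ha]
    · have e1 : x i = a⁻¹ * w := by simp [x, h0]
      rw [e1, sJ_ne h0, map_mul, map_inv, ha, hw]
      simp
  have hl0 : lett x 0 = a := by
    have := lett_even x 0
    simpa [hx0] using this
  have hl2 : lett x 2 = a⁻¹ * w := by
    have := lett_even x 1
    simpa [hx1] using this
  have hnorm : ∀ j, j < cert3.R → cert3.normal j = true → evW x (cert3.rels j) = 1 := by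
    intro j hjR hj
    have hjR' : j < 6 := hjR
    by_cases h0 : j = 2
    · subst h0
      have e : cert3.rels 2 = [0, 0] := by decide +kernel
      rw [e]
      simp only [evW, hl0, mul_one]
      rw [← pow_two, ha2]
    · by_cases h1 : j = 1
      · subst h1
        have e : cert3.rels 1 = List.flatten (List.replicate 19 [0, 2]) := by decide +kernel
        rw [e, evW_replicate]
        have e2 : evW x [0, 2] = w := by simp [evW, hl0, hl2]
        rw [e2, hw19]
      · exfalso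
        have e : cert3.normal j = (Nat.beq j 2 || Nat.beq j 1) := rfl
        rw [e, Bool.or_eq_true] at hj
        rcases hj with hj | hj
        · exact h0 (Nat.eq_of_beq_eq_true hj)
        · exact h1 (Nat.eq_of_beq_eq_true hj)
  -- the target
  let D : Subgroup A := (powMonoidHom 243 : A →* A).ker
  have hD : ∀ z, ρ z ^ 2 ∈ D := by
    intro z
    obtain ⟨k, h, hk, he⟩ := hsq z
    rw [he]
    show (ρ ⟨k, h⟩) ^ 243 = 1
    rw [← map_pow]
    have h1 : (⟨k, h⟩ : ↥(Hb.comap σ)) ^ 243 = 1 := Subtype.ext (h243 k hk)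
    rw [h1, map_one]
  let ρ' : ↥(Hb.comap σ) →* ↥D := ((powMonoidHom 2 : A →* A).comp ρ).codRestrict D hD
  have hE : ∀ b : ↥D, b ^ cert3.E = 1 := fun b => Subtype.ext b.2
  have hrels : ∀ j, j < cert3.R → ∀ l ∈ cert3.rels j, l < 2 * cert3.m := by
    intro j hj l hl
    exact (rels3_ok ⟨j, hj⟩).1 l hl
  have hrel : ∀ j, j < cert3.R → evW sJ (cert3.rels j) = 1 := by
    intro j hj
    exact top_word_one (rels3_ok ⟨j, hj⟩).1 (rels3_ok ⟨j, hj⟩).2
  obtain ⟨u, hu, hall⟩ := target_cyclic_of_cert hσ hHtT ρ' cert3 cert3_ok hE (mask := mask) rfl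
    (fun _ hc h => mask_ne hc h) hmsT hgenT hx hrels hrel hnorm
  have hu3 : u ^ 3 = 1 := hu
  have hKle : ∀ k, k ∈ σ.ker → k ∈ Hb.comap σ := by
    intro k hk'
    rw [Subgroup.mem_comap, MonoidHom.mem_ker.mp hk']
    exact Subgroup.one_mem _
  -- the embedding of the kernel
  let g : σ.ker →* ↥(zpowers u) :=
    (ρ'.comp (Subgroup.inclusion hKle)).codRestrict (zpowers u) (fun k => hall _)
  have hg : Function.Injective g := by
    rw [injective_iff_map_eq_one]
    rintro ⟨k, hk⟩ h1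
    have h2 : (ρ ⟨k, hKle k hk⟩) ^ 2 = 1 := congrArg (fun z : ↥(zpowers u) => ((z : ↥D) : A)) h1
    rw [← map_pow] at h2
    have h3 : k ^ 2 = 1 := by
      refine hinj (k ^ 2) (Subgroup.pow_mem _ (hKle k hk) 2) (Subgroup.pow_mem _ hk 2) ?_
      exact h2
    have h4 := pow_gcd_eq_one.mpr ⟨h243 k hk, h3⟩
    have h5 : Nat.gcd 243 2 = 1 := by norm_num
    rw [h5, pow_one] at h4
    exact Subtype.ext h4
  have hd : Nat.card σ.ker ∣ 3 := by
    have h1 := Subgroup.card_dvd_of_injective g hg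
    rw [Nat.card_zpowers] at h1
    exact h1.trans (orderOf_dvd_of_pow_eq_one hu3)
  have hcy : IsCyclic σ.ker := by
    rcases (Nat.dvd_prime Nat.prime_three).1 hd with h | h
    · haveI : Subsingleton σ.ker := (Nat.card_eq_one_iff_unique.mp h).1
      infer_instance
    · haveI : Fact (Nat.Prime 3) := ⟨Nat.prime_three⟩
      exact isCyclic_of_prime_card h
  obtain ⟨v, hv⟩ := IsCyclic.exists_generator (α := σ.ker)
  refine ⟨v, ?_, hv⟩
  obtain ⟨e, he⟩ := hd
  have h1 : v ^ 3 = v ^ (Nat.card σ.ker * e) := congrArg (fun n => v ^ n) he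
  rw [h1, pow_mul, pow_card_eq_one', one_pow]

theorem ker_pow_31104 (hσ : IsStemExtension σ) {k : Γ} (hk : k ∈ σ.ker) : k ^ 31104 = 1 := by
  haveI : Fact (Nat.Prime 5) := ⟨by norm_num⟩
  haveI : Fact (Nat.Prime 17) := ⟨by norm_num⟩
  haveI : Fact (Nat.Prime 19) := ⟨by norm_num⟩
  have h5 := ker_pow_prime hσ 5 (by rw [card_quot]; norm_num) hk
  have h17 := ker_pow_prime hσ 17 (by rw [card_quot]; norm_num) hk
  have h19 := ker_pow_prime hσ 19 (by rw [card_quot]; norm_num) hk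
  rw [card_quot] at h5 h17 h19
  have h1 := pow_gcd_eq_one.mpr ⟨h5, h17⟩
  have h2 := pow_gcd_eq_one.mpr ⟨h1, h19⟩
  have : Nat.gcd (Nat.gcd (50232960 / 5) (50232960 / 17)) (50232960 / 19) = 31104 := by norm_num
  rwa [this] at h2

/-- The upper bound. -/
theorem up (hσ : IsStemExtension σ) : ∃ u : σ.ker, u ^ 3 = 1 ∧ ∀ k : σ.ker, k ∈ Subgroup.zpowers u := by
  have hcen : ∀ k ∈ σ.ker, ∀ g : Γ, g * k = k * g := fun k hk g =>
    Subgroup.mem_center_iff.mp (hσ.2.1 hk) g
  let N : Subgroup Γ :=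
    { carrier := {k | k ∈ σ.ker ∧ k ^ 243 = 1}
      one_mem' := ⟨Subgroup.one_mem _, one_pow _⟩
      mul_mem' := by
        rintro a b ⟨ha, ha2⟩ ⟨hb, hb2⟩
        refine ⟨Subgroup.mul_mem _ ha hb, ?_⟩
        have hc : Commute a b := (hcen b hb a)
        rw [hc.mul_pow, ha2, hb2, one_mul]
      inv_mem' := by
        rintro a ⟨ha, ha2⟩
        exact ⟨Subgroup.inv_mem _ ha, by rw [inv_pow, ha2, inv_one]⟩ }
  have hNk : ∀ x, x ∈ N → x ∈ σ.ker := fun x hx => hx.1
  haveI hNn : N.Normal := by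
    constructor
    intro n hn g
    have e : g * n * g⁻¹ = n := by rw [hcen n (hNk n hn) g]; group
    rw [e]
    exact hn
  let σ₂ : Γ ⧸ N →* Jq := QuotientGroup.lift N σ (fun x hx => MonoidHom.mem_ker.mp (hNk x hx))
  have hσ₂ : ∀ x : Γ, σ₂ (x : Γ ⧸ N) = σ x := fun x => rfl
  have hst : IsStemExtension σ₂ := by
    refine ⟨?_, ?_, ?_⟩
    · intro g
      obtain ⟨x, rfl⟩ := hσ.1 g
      exact ⟨x, rfl⟩
    · intro z hz
      obtain ⟨x, rfl⟩ := QuotientGroup.mk_surjective z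
      have hx : x ∈ σ.ker := hz
      rw [Subgroup.mem_center_iff]
      intro t
      obtain ⟨t, rfl⟩ := QuotientGroup.mk_surjective t
      rw [← QuotientGroup.mk_mul, ← QuotientGroup.mk_mul, hcen x hx t]
    · intro z hz
      obtain ⟨x, rfl⟩ := QuotientGroup.mk_surjective z
      have hx : x ∈ σ.ker := hz
      have h1 : x ∈ commutator Γ := hσ.2.2 hx
      have h2 : (commutator Γ).map (QuotientGroup.mk' N) ≤ commutator (Γ ⧸ N) := by
        rw [commutator_def, Subgroup.map_commutator, commutator_def]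
        exact Subgroup.commutator_mono le_top le_top
      exact h2 ⟨x, h1, rfl⟩
  have h128 : ∀ k ∈ σ₂.ker, k ^ 128 = 1 := by
    intro z hz
    obtain ⟨x, rfl⟩ := QuotientGroup.mk_surjective z
    have hx : x ∈ σ.ker := hz
    rw [← QuotientGroup.mk_pow, QuotientGroup.eq_one_iff]
    refine ⟨Subgroup.pow_mem _ hx 128, ?_⟩
    rw [← pow_mul]
    exact ker_pow_31104 hσ hx
  have hbot := ker_bot_of_128 hst h128
  have h243 : ∀ k ∈ σ.ker, k ^ 243 = 1 := by
    intro k hk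
    have h1 : (k : Γ ⧸ N) ∈ σ₂.ker := hk
    rw [hbot, Subgroup.mem_bot, QuotientGroup.eq_one_iff] at h1
    exact h1.2
  exact ker_of_243 hσ h243

end Up

end Cfsg.Agent.Lib.J3SchurUp12
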