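import Mathlib
import Cfsg.Agent.Lib.FFLin

/-!
# A commuting element whose square lies in a best offender.

`H` acts faithfully on a space over the field of two elements and its `2'`-core is self-centralizing.
If `c` commutes with a best offender `B` and `c ^ 2 ∈ B`, then `c ^ 2 = 1`.
-/

set_option autoImplicit false
set_option linter.unusedSectionVars false
set_option linter.style.haveILetI false

open scoped commutatorElement
open Cfsg

namespace Cfsg.Agent.Lib.JSolvA

open Cfsg.Agent.Lib.FFMod Cfsg.Agent.Lib.FFTv Cfsg.Agent.Lib.QuadPair Cfsg.Agent.Lib.FFPair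
  Cfsg.Agent.Lib.FFDich Cfsg.Agent.Lib.FFStruct Cfsg.Agent.Lib.FFBridge Cfsg.Agent.Lib.PCore

section

variable {Γ : Type*} [Group Γ] {E : Type*} [AddCommGroup E] [Module (ZMod 2) E]
  {ρ : Γ →* Module.End (ZMod 2) E}

theorem add_self' (x : E) : x + x = 0 := by
  have h : (2 : ZMod 2) • x = 0 := by
    rw [show (2 : ZMod 2) = 0 by decide, zero_smul]
  rwa [two_smul] at h

theorem map_comS_of_norm {L : Subgroup Γ} {c : Γ} (hc : ∀ g ∈ L, c * g * c⁻¹ ∈ L) {w : E}
    (hw : w ∈ comS ρ L) : ρ c w ∈ comS ρ L := by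
  unfold comS at hw ⊢
  induction hw using Submodule.span_induction with
  | mem x hx =>
    obtain ⟨b, hb, v, rfl⟩ := hx
    apply Submodule.subset_span
    refine ⟨c * b * c⁻¹, hc b hb, ρ c v, ?_⟩
    rw [map_sub, map_mul, map_mul, Module.End.mul_apply, Module.End.mul_apply, rho_inv_rho]
  | zero => simp
  | add x y _ _ hx hy =>
    rw [map_add]
    exact Submodule.add_mem _ hx hy
  | smul a x _ hx =>
    rw [map_smul]
    exact Submodule.smul_mem _ a hx

theorem exists_val_one {f : Module.Dual (ZMod 2) E} (hf : f ≠ 0) : ∃ v, f v = 1 := by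
  by_contra hcon
  push Not at hcon
  apply hf
  ext v
  have h : ∀ a : ZMod 2, a ≠ 1 → a = 0 := by decide
  simpa using h _ (hcon v)

theorem tv_center {s c : Γ} {u : E} {f : Module.Dual (ZMod 2) E} (hs : Tv ρ s u f)
    (hcs : c * s = s * c) : ρ c u = u := by
  obtain ⟨v, hv⟩ := exists_val_one hs.f0
  have e : ρ c (ρ s v) = ρ s (ρ c v) := by
    rw [← Module.End.mul_apply, ← map_mul, hcs, map_mul, Module.End.mul_apply]
  rw [hs.app, hs.app, map_add, map_smul, hv, one_smul] at e
  have e2 : ρ c u = f (ρ c v) • u := add_left_cancel e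
  have h : ∀ a : ZMod 2, a = 0 ∨ a = 1 := by decide
  rcases h (f (ρ c v)) with h0 | h1
  · exfalso
    rw [h0, zero_smul] at e2
    apply hs.u0
    have := rho_inv_rho (ρ := ρ) c u
    rw [e2, map_zero] at this
    exact this.symm
  · rw [h1, one_smul] at e2
    exact e2

theorem tv_center_mem {L : Subgroup Γ} {s : Γ} {u : E} {f : Module.Dual (ZMod 2) E} (hs : Tv ρ s u f)
    (hsL : s ∈ L) : u ∈ comS ρ L := by
  obtain ⟨v, hv⟩ := exists_val_one hs.f0
  have h1 := sub_mem_comS ρ hsL v
  rw [hs.app, hv, one_smul, add_sub_cancel_left] at h1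
  exact h1

/-- The elements of a plane over the field of two elements. -/
theorem plane_elems [Finite E] {P : Submodule (ZMod 2) E} (hP : Nat.card P = 4) {u w x : E} (hu : u ∈ P)
    (hw : w ∈ P) (hx : x ∈ P) (hu0 : u ≠ 0) (hw0 : w ≠ 0) (huw : u ≠ w) :
    x = 0 ∨ x = u ∨ x = w ∨ x = u + w := by
  classical
  by_contra hcon
  push Not at hcon
  obtain ⟨h1, h2, h3, h4⟩ := hcon
  have huw0 : u + w ≠ 0 := by
    intro h
    apply huw
    have := add_self' w
    calc u = u + (w + w) := by rw [this, add_zero]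
      _ = (u + w) + w := by rw [add_assoc]
      _ = w := by rw [h, zero_add]
  have huwu : u + w ≠ u := by
    intro h
    apply hw0
    exact add_left_cancel (a := u) (by rw [h, add_zero])
  have huww : u + w ≠ w := by
    intro h
    apply hu0
    exact add_right_cancel (b := w) (by rw [h, zero_add])
  let s : Finset P := {⟨0, P.zero_mem⟩, ⟨u, hu⟩, ⟨w, hw⟩, ⟨u + w, P.add_mem hu hw⟩, ⟨x, hx⟩}
  have hs : s.card = 5 := by
    simp only [s]
    rw [Finset.card_insert_of_notMem, Finset.card_insert_of_notMem, Finset.card_insert_of_notMem,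
      Finset.card_insert_of_notMem, Finset.card_singleton]
    all_goals
      simp only [Finset.mem_insert, Finset.mem_singleton, Subtype.mk.injEq, not_or]
      try tauto
    all_goals
      refine ⟨?_, ?_⟩ <;> try tauto
    all_goals
      exact ⟨Ne.symm hu0, Ne.symm hw0, Ne.symm huw0, Ne.symm h1⟩
  haveI := Fintype.ofFinite P
  have := Finset.card_le_univ s
  rw [hs, ← Nat.card_eq_fintype_card, hP] at this
  omega

/-- A permutation of a plane fixing a nonzero vector has square trivial. -/
theorem sq_fix_plane [Finite E] {P : Submodule (ZMod 2) E} (hP : Nat.card P = 4) {c : Γ} {u w : E}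
    (hcP : ∀ x ∈ P, ρ c x ∈ P) (hu : u ∈ P) (hu0 : u ≠ 0) (hcu : ρ c u = u) (hw : w ∈ P) :
    ρ c (ρ c w) = w := by
  by_cases hw0 : w = 0
  · rw [hw0, map_zero, map_zero]
  by_cases huw : u = w
  · rw [← huw, hcu, hcu]
  rcases plane_elems hP hu hw (hcP w hw) hu0 hw0 huw with h | h | h | h
  · exfalso
    apply hw0
    have := rho_inv_rho (ρ := ρ) c w
    rw [h, map_zero] at this
    exact this.symm
  · exfalso
    apply huw
    have := rho_inv_rho (ρ := ρ) c w
    rw [h] at this
    have h2 := rho_inv_rho (ρ := ρ) c u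
    rw [hcu] at h2
    rw [← this, h2]
  · rw [h, h]
  · rw [h, map_add, hcu, h, add_comm u (u + w), add_assoc, add_comm w u, ← add_assoc, add_self', zero_add]

end

section Main

variable {Γ : Type*} [Group Γ] [Finite Γ] {E : Type*} [AddCommGroup E] [Module (ZMod 2) E] [Finite E]
  {ρ : Γ →* Module.End (ZMod 2) E}

/-- The key lemma. -/
theorem sq_eq_one (h : FFH (p := 2) ρ) {B : Subgroup Γ} (hB : IsBO (p := 2) ρ B) {c : Γ}
    (hc : ∀ b ∈ B, c * b = b * c) (hc2 : c ^ 2 ∈ B) : c ^ 2 = 1 := by
  classical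
  obtain ⟨k, D, hD, hind, hsup⟩ := decomp h hB
  set K := pPrimeCore 2 Γ with hK
  have hinj := h.inj
  have hKc : (Nat.card K).Coprime 2 := card_pPrimeCore_coprime 2
  have hcen := h.cen
  -- the transvections
  have htv : ∀ i, ∃ s, IsTv ρ s ∧ D i = Subgroup.zpowers s := by
    intro i
    obtain ⟨h1, h2, h3⟩ := hD i
    exact tv_of_BO h (hB.mono ρ h1 (by rw [h3, fF_eq_card h hB])) h2
  choose t ht hDt using htv
  set L : Fin k → Subgroup Γ := fun i => ee K (t i) with hL
  have hFac : ∀ i, Fac ρ (L i) := fun i => fac_ee hinj hKc hcen (ht i)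
  have htB : ∀ i, t i ∈ B := fun i => (hD i).1 (by rw [hDt]; exact Subgroup.mem_zpowers _)
  have hDL : ∀ i, D i ≤ L i := by
    intro i
    rw [hDt, Subgroup.zpowers_le]
    exact mem_ee K (t i)
  have hcardP : ∀ i, Nat.card (comS ρ (L i)) = 4 := fun i => (hFac i).card
  -- `c` normalizes the factors
  have hnorm : ∀ i, ∀ g ∈ L i, c * g * c⁻¹ ∈ L i := by
    intro i g hg
    have hct : c * t i * c⁻¹ = t i := by
      rw [hc _ (htB i)]
      group
    have hle : L i ≤ (L i).comap (MulAut.conj c).toMonoidHom := by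
      show Subgroup.closure _ ≤ _
      rw [Subgroup.closure_le]
      rintro _ ⟨y, hy, rfl⟩
      have hy' : c * y * c⁻¹ ∈ K := (inferInstance : K.Normal).conj_mem y hy c
      show c * (y * t i * y⁻¹) * c⁻¹ ∈ L i
      have e : c * (y * t i * y⁻¹) * c⁻¹ = (c * y * c⁻¹) * (c * t i * c⁻¹) * (c * y * c⁻¹)⁻¹ := by group
      rw [e, hct]
      exact conj_mem_ee _ hy'
    exact hle hg
  -- the square of `c` is trivial on the planes
  have hsq : ∀ i, ∀ w ∈ comS ρ (L i), ρ (c ^ 2) w = w := by
    intro i w hw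
    obtain ⟨u, f, hT⟩ := ht i
    have h1 := tv_center hT (hc _ (htB i))
    have h2 : u ∈ comS ρ (L i) := tv_center_mem hT (mem_ee K (t i))
    have := sq_fix_plane (ρ := ρ) (hcardP i) (c := c) (fun x hx => map_comS_of_norm (hnorm i) hx) h2 hT.u0 h1 hw
    rw [pow_two, map_mul, Module.End.mul_apply]
    exact this
  -- distinct factors act trivially on each other's planes
  have hcross : ∀ i j, i ≠ j → ∀ g ∈ D i, ∀ w ∈ comS ρ (L j), ρ g w = w := by
    intro i j hij g hg w hw
    rcases dich_ee hinj hKc hcen (ht i) (ht j) with h1 | ⟨h1, _⟩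
    · exfalso
      have hdisj : D i ⊓ D j = ⊥ := disjoint_iff.mp (hind.pairwiseDisjoint hij)
      have hc1 := card_sup_mul_card_inf_of_comm hB.comm (hD i).1 (hD j).1
      rw [hdisj, Subgroup.card_bot, mul_one, (hD i).2.1, (hD j).2.1] at hc1
      have hle : D i ⊔ D j ≤ L i := by
        refine sup_le (hDL i) ?_
        show D j ≤ ee K (t i)
        rw [h1]
        exact hDL j
      have hdvd := Subgroup.card_dvd_of_le hle
      rw [hc1] at hdvd
      obtain ⟨e⟩ := (hFac i).iso
      rw [Nat.card_congr e.toEquiv, card_SL2 (Or.inl rfl)] at hdvd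
      norm_num at hdvd
    · exact h1 hw g (hDL i hg)
  -- the induction
  have key : ∀ S : Finset (Fin k), ∀ g ∈ ⨆ i ∈ S, D i, (∀ j ∈ S, ∀ w ∈ comS ρ (L j), ρ g w = w) → g = 1 := by
    intro S
    induction S using Finset.induction_on with
    | empty =>
      intro g hg _
      simpa using hg
    | insert j S' hj ih =>
      intro g hg hfix
      rw [Finset.iSup_insert] at hg
      have hS'B : (⨆ i ∈ S', D i) ≤ B := iSup₂_le (fun i _ => (hD i).1)
      obtain ⟨d, hd, b, hb, rfl⟩ := mem_sup_of_comm (fun x hx y hy => hB.comm x ((hD j).1 hx) y (hS'B hy)) hg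
      have hbP : ∀ w ∈ comS ρ (L j), ρ b w = w := by
        have hle : (⨆ i ∈ S', D i) ≤ cenP ρ (comS ρ (L j)) := by
          refine iSup₂_le ?_
          intro i hi g hg w hw
          exact hcross i j (fun hij => hj (hij ▸ hi)) g hg w hw
        exact fun w hw => hle hb w hw
      have hd1 : d = 1 := by
        apply (hFac j).faith d (hDL j hd)
        intro w hw
        have h1 := hfix j (Finset.mem_insert_self j S') w hw
        rw [map_mul, Module.End.mul_apply, hbP w hw] at h1
        exact h1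
      subst hd1
      rw [one_mul] at hfix ⊢
      exact ih b hb (fun j' hj' => hfix j' (Finset.mem_insert_of_mem hj'))
  apply key Finset.univ
  · have : (⨆ i ∈ (Finset.univ : Finset (Fin k)), D i) = B := by
      rw [← hsup]
      simp
    rw [this]
    exact hc2
  · intro j _ w hw
    exact hsq j w hw

end Main

end Cfsg.Agent.Lib.JSolvA
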