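import Mathlib
import Cfsg.Agent.Lib.JSolvA

/-!
# Abelian best offenders have exponent two on the module.

`W` is an elementary abelian normal `2`-subgroup of `G`. If the image of an abelian `2`-subgroup `A`
lies in a linear group on `W` with self-centralizing `2'`-core and `A` is best for `W` then the elements of
`A` act on `W` with square one.
-/

set_option autoImplicit false
set_option linter.unusedSectionVars false
set_option linter.style.haveILetI false

open scoped commutatorElement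
open Cfsg

namespace Cfsg.Agent.Lib.JSolvB

open Cfsg.Agent.Lib.FFMod Cfsg.Agent.Lib.FFStruct Cfsg.Agent.Lib.FFBridge Cfsg.Agent.Lib.PCore
  Cfsg.Agent.Lib.ThompsonJ Cfsg.Agent.Lib.FFLin Cfsg.Agent.Lib.Replacement Cfsg.Agent.Lib.JSolvA

universe u

section Pure

variable {G : Type*} [Group G]

theorem mem_cent_sup {B D : Subgroup G} {x : G} :
    x ∈ Subgroup.centralizer ((B ⊔ D : Subgroup G) : Set G) ↔
      x ∈ Subgroup.centralizer (B : Set G) ∧ x ∈ Subgroup.centralizer (D : Set G) := by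
  constructor
  · intro h
    exact ⟨Subgroup.centralizer_le (SetLike.coe_mono le_sup_left) h,
      Subgroup.centralizer_le (SetLike.coe_mono le_sup_right) h⟩
  · rintro ⟨h1, h2⟩
    have : B ⊔ D ≤ Subgroup.centralizer (Subgroup.zpowers x : Set G) := by
      refine sup_le ?_ ?_
      · rw [Subgroup.le_centralizer_iff, Subgroup.zpowers_le]; exact h1
      · rw [Subgroup.le_centralizer_iff, Subgroup.zpowers_le]; exact h2
    rw [Subgroup.le_centralizer_iff, Subgroup.zpowers_le] at this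
    exact this

/-- Quadratic elements have square trivial. -/
theorem quad_sq {W U A : Subgroup G} [hWn : W.Normal] (hW : IsElementaryAbelian 2 W) (hUW : U ≤ W) {a : G}
    (ha : a ∈ A) (hac : a ∈ Subgroup.centralizer ((⁅U, A⁆ : Subgroup G) : Set G)) :
    a ^ 2 ∈ Subgroup.centralizer (U : Set G) := by
  rw [Subgroup.mem_centralizer_iff]
  intro v hv
  have hv' : v ∈ U := hv
  set w := ⁅v, a⁆ with hw
  have hw1 : w ∈ ⁅U, A⁆ := Subgroup.commutator_mem_commutator hv' ha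
  have hw2 : w * a = a * w := Subgroup.mem_centralizer_iff.mp hac w hw1
  have hwW : w ∈ W := by
    have e : w = v * (a * v⁻¹ * a⁻¹) := by
      rw [hw, commutatorElement_def]; group
    rw [e]
    exact W.mul_mem (hUW hv') (hWn.conj_mem _ (W.inv_mem (hUW hv')) a)
  have hw3 : w * w = 1 := by
    have := hW.2 w hwW
    rwa [pow_two] at this
  have e1 : v * a = w * a * v := by
    rw [hw, commutatorElement_def]; group
  calc v * a ^ 2 = (v * a) * a := by rw [pow_two]; group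
    _ = (w * a * v) * a := by rw [← e1]
    _ = w * a * (v * a) := by group
    _ = w * a * (w * a * v) := by rw [e1]
    _ = w * (a * w) * a * v := by group
    _ = w * (w * a) * a * v := by rw [hw2]
    _ = (w * w) * a ^ 2 * v := by rw [pow_two]; group
    _ = a ^ 2 * v := by rw [hw3, one_mul]

end Pure

section Main

variable {G : Type u} [Group G] [Finite G] {W : Subgroup G} [hWn : W.Normal]
  {E : Type u} [AddCommGroup E] [Module (ZMod 2) E] [Finite E]
  {ρ₀ : G →* Module.End (ZMod 2) E} {ι : Multiplicative E →* G} {Γ₀ : Subgroup (GLE 2 E)}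

/-- Abelian best `2`-subgroups act with square one. -/
theorem exp_two (hn : NM W ρ₀ ι) (hW : IsElementaryAbelian 2 W) (hff : FFH (p := 2) (lin Γ₀)) {A : Subgroup G}
    (hAΓ : A.map (rh ρ₀) ≤ Γ₀) (hA2 : IsPGroup 2 A) (hAc : ∀ a ∈ A, ∀ b ∈ A, a * b = b * a)
    (hmax : ∀ B : Subgroup G, B ≤ A → fB W B ≤ fB W A) :
    ∀ a ∈ A, a ^ 2 ∈ Subgroup.centralizer (W : Set G) := by
  classical
  set C₀ := Subgroup.centralizer (W : Set G) with hC₀
  have hWc : ∀ x ∈ W, ∀ y ∈ W, x * y = y * x := fun x hx y hy => ea_comm hW hx hy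
  have hab : ∀ (Y : Subgroup G), ⁅A, A⁆ ≤ Subgroup.centralizer (Y : Set G) := by
    intro Y
    rw [Subgroup.commutator_le]
    intro x hx y hy
    rw [commutatorElement_eq_one_iff_mul_comm.mpr (hAc x hx y hy)]
    exact Subgroup.one_mem _
  let S : Set (Subgroup G) := {D | D ≤ A ∧ fB W D = fB W A ∧ ∀ d ∈ D, d ^ 2 ∈ C₀}
  have hS0 : A ⊓ Subgroup.centralizer ((⁅W, A⁆ : Subgroup G) : Set G) ∈ S := by
    obtain ⟨_, h2⟩ := replacement_of_max (V := W) (A := A) hWc (fun a _ v hv => hWn.conj_mem v hv a) (hab W)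
      hmax (U := W) le_rfl
    refine ⟨inf_le_left, h2.symm, ?_⟩
    rintro d ⟨hd1, hd2⟩
    exact quad_sq hW le_rfl hd1 hd2
  obtain ⟨B, hBmax⟩ := (Set.toFinite S).exists_maximal ⟨_, hS0⟩
  obtain ⟨hBA, hBf, hBsq⟩ := hBmax.prop
  have hBbest : IsBestOffenderOn 2 W B := by
    refine ⟨?_, ?_, hBsq⟩
    · intro D hD
      have h1 := hmax D (hD.trans hBA)
      rw [← hBf] at h1
      exact h1
    · rw [Subgroup.commutator_le]
      intro x hx y hy
      rw [commutatorElement_eq_one_iff_mul_comm.mpr (hAc x (hBA hx) y (hBA hy))]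
      exact Subgroup.one_mem _
  -- the key step
  have hkey : ∀ a ∈ A, a ^ 2 ∈ B → a ^ 2 ∈ C₀ := by
    intro a ha ha2
    have hle : B.map (rh ρ₀) ≤ Γ₀ := (Subgroup.map_mono hBA).trans hAΓ
    have hbo := bo_restrict (bo_image hn hBbest) hle
    let ā : Γ₀ := ⟨rh ρ₀ a, hAΓ ⟨a, ha, rfl⟩⟩
    have h1 := sq_eq_one hff hbo (c := ā) (by
      rintro ⟨b, hb⟩ hb2
      rw [Subgroup.mem_subgroupOf] at hb2
      obtain ⟨b₀, hb₀, rfl⟩ := hb2
      apply Subtype.ext
      show rh ρ₀ a * rh ρ₀ b₀ = rh ρ₀ b₀ * rh ρ₀ a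
      rw [← map_mul, ← map_mul, hAc a ha b₀ (hBA hb₀)]) (by
      rw [Subgroup.mem_subgroupOf]
      exact ⟨a ^ 2, ha2, by simp [ā]⟩)
    have h2 : rh ρ₀ (a ^ 2) = 1 := by
      rw [map_pow]
      exact congrArg Subtype.val h1
    exact (rh_eq_one_iff hn _).mp h2
  set E₁ := W ⊓ Subgroup.centralizer (B : Set G) with hE₁
  have hE₁W : E₁ ≤ W := inf_le_left
  have hE₁c : ∀ x ∈ E₁, ∀ y ∈ E₁, x * y = y * x := fun x hx y hy => hWc x hx.1 y hy.1
  have hAE₁ : ∀ a ∈ A, ∀ v ∈ E₁, a * v * a⁻¹ ∈ E₁ := by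
    intro a ha v hv
    refine ⟨hWn.conj_mem v hv.1 a, Subgroup.mem_centralizer_iff.mpr ?_⟩
    intro b hb
    have hb' : b ∈ B := hb
    have h1 : b * v = v * b := Subgroup.mem_centralizer_iff.mp hv.2 b hb
    have h2 : a * b = b * a := hAc a ha b (hBA hb')
    have h3 : a⁻¹ * b = b * a⁻¹ := by
      rw [inv_mul_eq_iff_eq_mul, ← mul_assoc, h2, mul_assoc, mul_inv_cancel, mul_one]
    calc b * (a * v * a⁻¹) = a * (b * v) * a⁻¹ := by rw [← mul_assoc, ← mul_assoc, ← h2]; group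
      _ = a * v * (b * a⁻¹) := by rw [h1]; group
      _ = a * v * a⁻¹ * b := by rw [← h3]; group
  have hcardA : Nat.card ↥(E₁ ⊓ Subgroup.centralizer (A : Set G)) = Nat.card ↥(W ⊓ Subgroup.centralizer (A : Set G)) := by
    have : E₁ ⊓ Subgroup.centralizer (A : Set G) = W ⊓ Subgroup.centralizer (A : Set G) := by
      apply le_antisymm
      · exact inf_le_inf_right _ hE₁W
      · rintro x ⟨hx1, hx2⟩
        exact ⟨⟨hx1, Subgroup.centralizer_le (SetLike.coe_mono hBA) hx2⟩, hx2⟩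
    rw [this]
  have hfE : fB E₁ A = fB W A := by
    unfold fB
    rw [hcardA]
  have hsupE : ∀ D : Subgroup G, E₁ ⊓ Subgroup.centralizer (D : Set G) =
      W ⊓ Subgroup.centralizer ((B ⊔ D : Subgroup G) : Set G) := by
    intro D
    ext x
    simp only [Subgroup.mem_inf, hE₁, mem_cent_sup]
    tauto
  -- the elements of `A` centralizing `E₁` lie in `B`
  have hCAE : A ⊓ Subgroup.centralizer (E₁ : Set G) ≤ B := by
    have h1 := hmax (B ⊔ (A ⊓ Subgroup.centralizer (E₁ : Set G))) (sup_le hBA inf_le_left)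
    rw [← hBf] at h1
    have h2 : W ⊓ Subgroup.centralizer ((B ⊔ (A ⊓ Subgroup.centralizer (E₁ : Set G)) : Subgroup G) : Set G) = E₁ := by
      rw [← hsupE]
      apply inf_eq_left.mpr
      intro x hx
      rw [Subgroup.mem_centralizer_iff]
      rintro d ⟨_, hd⟩
      exact (Subgroup.mem_centralizer_iff.mp hd x hx).symm
    unfold fB at h1
    rw [h2] at h1
    have h3 := Nat.le_of_mul_le_mul_right h1 Nat.card_pos
    have h4 : B = B ⊔ (A ⊓ Subgroup.centralizer (E₁ : Set G)) := Subgroup.eq_of_le_of_card_ge le_sup_left h3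
    exact le_sup_right.trans_eq h4.symm
  have hmaxE : ∀ D : Subgroup G, D ≤ A → fB E₁ D ≤ fB E₁ A := by
    intro D hD
    have h1 := hmax (B ⊔ D) (sup_le hBA hD)
    rw [hfE]
    calc fB E₁ D = Nat.card D * Nat.card ↥(E₁ ⊓ Subgroup.centralizer (D : Set G)) := rfl
      _ = Nat.card D * Nat.card ↥(W ⊓ Subgroup.centralizer ((B ⊔ D : Subgroup G) : Set G)) := by rw [hsupE]
      _ ≤ Nat.card ↥(B ⊔ D) * Nat.card ↥(W ⊓ Subgroup.centralizer ((B ⊔ D : Subgroup G) : Set G)) :=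
        Nat.mul_le_mul_right _ (Subgroup.card_le_of_le le_sup_right)
      _ = fB W (B ⊔ D) := rfl
      _ ≤ fB W A := h1
  obtain ⟨h1, h2⟩ := replacement_of_max (V := E₁) (A := A) hE₁c (fun a ha v hv => hAE₁ a ha v hv) (hab E₁)
    hmaxE (U := E₁) le_rfl
  have hX₀E : ⁅E₁, A⁆ ≤ E₁ := by
    rw [Subgroup.commutator_le]
    intro v hv a ha
    have e : ⁅v, a⁆ = v * (a * v⁻¹ * a⁻¹) := by
      rw [commutatorElement_def]; group
    rw [e]
    exact E₁.mul_mem hv (hAE₁ a ha _ (E₁.inv_mem hv))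
  have hBA' : B ≤ A ⊓ Subgroup.centralizer ((⁅E₁, A⁆ : Subgroup G) : Set G) := by
    intro b hb
    refine ⟨hBA hb, Subgroup.mem_centralizer_iff.mpr ?_⟩
    intro x hx
    exact (Subgroup.mem_centralizer_iff.mp (hX₀E hx).2 b hb).symm
  have hA'W : W ⊓ Subgroup.centralizer ((A ⊓ Subgroup.centralizer ((⁅E₁, A⁆ : Subgroup G) : Set G) : Subgroup G) : Set G) =
      E₁ ⊓ Subgroup.centralizer ((A ⊓ Subgroup.centralizer ((⁅E₁, A⁆ : Subgroup G) : Set G) : Subgroup G) : Set G) := by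
    apply le_antisymm
    · rintro x ⟨hx1, hx2⟩
      exact ⟨⟨hx1, Subgroup.centralizer_le (SetLike.coe_mono hBA') hx2⟩, hx2⟩
    · exact inf_le_inf_right _ hE₁W
  have hA'f : fB W (A ⊓ Subgroup.centralizer ((⁅E₁, A⁆ : Subgroup G) : Set G)) = fB W A := by
    rw [← hfE, h2]
    unfold fB
    rw [hA'W]
  have hA'sq : ∀ d ∈ A ⊓ Subgroup.centralizer ((⁅E₁, A⁆ : Subgroup G) : Set G), d ^ 2 ∈ C₀ := by
    rintro d ⟨hd1, hd2⟩
    have h3 := quad_sq (W := W) hW hE₁W hd1 hd2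
    exact hkey d hd1 (hCAE ⟨A.pow_mem hd1 2, h3⟩)
  have hle := hBmax.le_of_ge (show _ ∈ S from ⟨inf_le_left, hA'f, hA'sq⟩) hBA'
  have hA'B : A ⊓ Subgroup.centralizer ((⁅E₁, A⁆ : Subgroup G) : Set G) = B := le_antisymm hle hBA'
  have hE₁eq : ⁅E₁, A⁆ ⊔ (E₁ ⊓ Subgroup.centralizer (A : Set G)) = E₁ := by
    rw [← h1, hA'B]
    exact inf_eq_left.mpr (fun x hx => hx.2)
  have hAX₀ : A ≤ Subgroup.normalizer ((⁅E₁, A⁆ : Subgroup G) : Set G) := by
    intro a ha
    apply mem_normalizer_of_forall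
    intro x hx
    have h3 : (⁅E₁, A⁆ : Subgroup G).map (MulAut.conj a).toMonoidHom ≤ ⁅E₁, A⁆ := by
      rw [Subgroup.map_commutator]
      apply Subgroup.commutator_mono
      · rintro _ ⟨v, hv, rfl⟩
        exact hAE₁ a ha v hv
      · rintro _ ⟨b, hb, rfl⟩
        exact A.mul_mem (A.mul_mem ha hb) (A.inv_mem ha)
    exact h3 ⟨x, hx, rfl⟩
  have hXle : (⁅E₁, A⁆ : Subgroup G) ≤ ⁅(⁅E₁, A⁆ : Subgroup G), A⁆ := by
    rw [Subgroup.commutator_le]
    intro v hv a ha
    have hv' : v ∈ ⁅E₁, A⁆ ⊔ (E₁ ⊓ Subgroup.centralizer (A : Set G)) := by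
      rw [hE₁eq]
      exact hv
    obtain ⟨x, hx, y, hy, rfl⟩ := mem_sup_of_comm (X := ⁅E₁, A⁆) (Y := E₁ ⊓ Subgroup.centralizer (A : Set G))
      (fun x hx y hy => hE₁c x (hX₀E hx) y hy.1) hv'
    have hya : y * a = a * y := (Subgroup.mem_centralizer_iff.mp hy.2 a ha).symm
    have hxy : x * y = y * x := hE₁c x (hX₀E hx) y hy.1
    have e : ⁅x * y, a⁆ = ⁅x, a⁆ := by
      rw [commutatorElement_def, commutatorElement_def]
      calc x * y * a * (x * y)⁻¹ * a⁻¹ = x * (y * a) * y⁻¹ * x⁻¹ * a⁻¹ := by group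
        _ = x * a * x⁻¹ * a⁻¹ := by rw [hya]; group
    rw [e]
    exact Subgroup.commutator_mem_commutator hx ha
  have hX2 : IsPGroup 2 (⁅E₁, A⁆ : Subgroup G) := by
    rintro ⟨g, hg⟩
    refine ⟨1, ?_⟩
    apply Subtype.ext
    simpa using hW.2 g (hE₁W (hX₀E hg))
  have hX₀bot : (⁅E₁, A⁆ : Subgroup G) = ⊥ := eq_bot_of_le_comm_pgroup (p := 2) hX2 hA2 hAX₀ hXle
  rw [hX₀bot, bot_sup_eq] at hE₁eq
  have hE₁A : E₁ ≤ Subgroup.centralizer (A : Set G) := inf_eq_left.mp hE₁eq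
  have hAB : A ≤ B := by
    intro a ha
    refine hCAE ⟨ha, Subgroup.mem_centralizer_iff.mpr ?_⟩
    intro v hv
    exact (Subgroup.mem_centralizer_iff.mp (hE₁A hv) a ha).symm
  intro a ha
  exact hBsq a (hAB ha)

end Main

end Cfsg.Agent.Lib.JSolvB
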