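import Mathlib

/-!
# Gauss-sum functions on an abelian group acting coprimely on an elementary abelian group

For a finite abelian `p'`-group `A` acting on a finite abelian group `M` of exponent `p`, we build
a function `y : A → ℂ` with `‖y a‖² · |C_M(a)| = |M|` which is a combination of linear characters
with coefficients `± (p`-th roots of unity`)`, and which becomes a multiple of the indicator of the
kernel of the action when the roots of unity are replaced by `1`.
-/

set_option autoImplicit false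

namespace Cfsg.Agent.Lib.KGauss

open scoped ComplexConjugate
open Finset

universe u v

/-- The combination data of the function `y`. -/
def GaussFn (p : ℕ) (A : Type v) [Group A] (y : A → ℂ) (t : A → Prop) : Prop :=
  ∃ (ι : Type u) (_ : Fintype ι) (ε : ι → ℤ) (z : ι → ℂ) (lam : ι → A →* ℂˣ) (w : ℤ),
    (∀ i, z i ^ p = 1) ∧ ¬ (p : ℤ) ∣ w ∧
    (∀ a, y a = ∑ i, (ε i : ℂ) * z i * (lam i a : ℂ)) ∧
    (∀ a, t a → ∑ i, (ε i : ℂ) * (lam i a : ℂ) = w) ∧
    (∀ a, ¬ t a → ∑ i, (ε i : ℂ) * (lam i a : ℂ) = 0)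

variable {p : ℕ} {A : Type v} [Group A]

theorem GaussFn.congr {y : A → ℂ} {t t' : A → Prop} (h : GaussFn.{u} p A y t)
    (ht : ∀ a, t a ↔ t' a) : GaussFn.{u} p A y t' := by
  obtain ⟨ι, i1, ε, z, lam, w, h1, h2, h3, h4, h5⟩ := h
  exact ⟨ι, i1, ε, z, lam, w, h1, h2, h3, fun a ha => h4 a ((ht a).2 ha),
    fun a ha => h5 a (fun h => ha ((ht a).1 h))⟩

theorem GaussFn.one (hp : p.Prime) : GaussFn.{u} p A (fun _ => 1) (fun _ => True) := by
  refine ⟨PUnit, inferInstance, fun _ => 1, fun _ => 1, fun _ => 1, 1, ?_, ?_, ?_, ?_, ?_⟩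
  · simp
  · intro h
    have : (p : ℤ) ∣ 1 := h
    have h2 := Int.natCast_dvd_natCast.1 (by simpa using this : (p : ℤ) ∣ ((1 : ℕ) : ℤ))
    exact hp.one_lt.ne' (Nat.dvd_one.1 h2)
  · simp
  · simp
  · simp

theorem GaussFn.mul (hp : p.Prime) {y₁ y₂ : A → ℂ} {t₁ t₂ : A → Prop}
    (h₁ : GaussFn.{u} p A y₁ t₁) (h₂ : GaussFn.{u} p A y₂ t₂) :
    GaussFn.{u} p A (fun a => y₁ a * y₂ a) (fun a => t₁ a ∧ t₂ a) := by
  obtain ⟨ι₁, i₁, ε₁, z₁, lam₁, w₁, a1, a2, a3, a4, a5⟩ := h₁
  obtain ⟨ι₂, i₂, ε₂, z₂, lam₂, w₂, b1, b2, b3, b4, b5⟩ := h₂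
  have hpz : Prime (p : ℤ) := Nat.prime_iff_prime_int.1 hp
  have hsum : ∀ a, ∑ i : ι₁ × ι₂, (((ε₁ i.1 * ε₂ i.2 : ℤ) : ℂ)) * ((lam₁ i.1 * lam₂ i.2) a : ℂˣ) =
      (∑ i, (ε₁ i : ℂ) * (lam₁ i a : ℂ)) * (∑ i, (ε₂ i : ℂ) * (lam₂ i a : ℂ)) := by
    intro a
    rw [Fintype.sum_prod_type, Finset.sum_mul]
    refine Finset.sum_congr rfl fun i _ => ?_
    rw [Finset.mul_sum]
    refine Finset.sum_congr rfl fun j _ => ?_
    simp only [MonoidHom.mul_apply, Units.val_mul]
    push_cast
    ring
  refine ⟨ι₁ × ι₂, inferInstance, fun i => ε₁ i.1 * ε₂ i.2, fun i => z₁ i.1 * z₂ i.2,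
    fun i => lam₁ i.1 * lam₂ i.2, w₁ * w₂, ?_, ?_, ?_, ?_, ?_⟩
  · intro i
    rw [mul_pow, a1, b1, one_mul]
  · intro h
    rcases hpz.dvd_or_dvd h with h | h
    · exact a2 h
    · exact b2 h
  · intro a
    show y₁ a * y₂ a = _
    rw [a3, b3, Fintype.sum_prod_type, Finset.sum_mul]
    refine Finset.sum_congr rfl fun i _ => ?_
    rw [Finset.mul_sum]
    refine Finset.sum_congr rfl fun j _ => ?_
    simp only [MonoidHom.mul_apply, Units.val_mul]
    push_cast
    ring
  · rintro a ⟨h1, h2⟩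
    rw [hsum, a4 a h1, b4 a h2]
    push_cast
    ring
  · intro a ha
    rw [hsum]
    by_cases h1 : t₁ a
    · have h2 : ¬ t₂ a := fun h2 => ha ⟨h1, h2⟩
      rw [b5 a h2, mul_zero]
    · rw [a5 a h1, zero_mul]

/-- Sum over a finite field of a function vanishing at zero is the sum over the units. -/
theorem sum_field_eq_units {F : Type*} [Field F] [Fintype F] [DecidableEq F] (f : F → ℂ) (h0 : f 0 = 0) :
    ∑ x : F, f x = ∑ x : Fˣ, f x := by
  rw [← Finset.sum_filter_of_ne (s := Finset.univ) (p := fun x : F => x ≠ 0) (f := f)]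
  · refine (Finset.sum_bij (fun (x : Fˣ) _ => (x : F)) ?_ ?_ ?_ ?_).symm
    · intro x _
      simp
    · intro x _ y _ h
      exact Units.ext h
    · intro x hx
      have hx' : x ≠ 0 := (Finset.mem_filter.1 hx).2
      exact ⟨Units.mk0 x hx', Finset.mem_univ _, rfl⟩
    · intro x _
      rfl
  · intro x _ hx h
    exact hx (h ▸ h0)

/-- The field case. -/
theorem field_case (hp : p.Prime) (F : Type u) [Field F] [Fintype F] (hchar : (p : F) = 0)
    (ρ : A →* Fˣ) :
    ∃ y : A → ℂ, GaussFn.{u} p A y (fun a => ρ a = 1) ∧ (∀ a, ρ a = 1 → ‖y a‖ ^ 2 = 1) ∧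
      (∀ a, ρ a ≠ 1 → ‖y a‖ ^ 2 = (Fintype.card F : ℝ)) := by
  classical
  obtain ⟨e⟩ := CommGroup.monoidHom_mulEquiv_of_hasEnoughRootsOfUnity Fˣ ℂ
  let d : Fˣ →* (Fˣ →* ℂˣ) := e.symm.toMonoidHom
  have hd : ∀ x, d x = 1 → x = 1 := by
    intro x hx
    have : e.symm x = 1 := hx
    simpa using congrArg e this
  obtain ⟨ψ, hψ⟩ := (AddChar.exists_apply_ne_zero (α := F) (a := (1 : F))).2 one_ne_zero
  have hψ1 : ψ ≠ 1 := by
    rintro rfl
    exact hψ rfl
  have hprim : ψ.IsPrimitive := AddChar.IsPrimitive.of_ne_one hψ1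
  have hψsum : ∑ x : F, ψ x = 0 := AddChar.sum_eq_zero_of_ne_one hψ1
  let ev : Fˣ → (Fˣ →* ℂˣ) →* ℂˣ := fun x =>
    { toFun := fun φ => φ x
      map_one' := rfl
      map_mul' := fun _ _ => rfl }
  let lam : Fˣ → A →* ℂˣ := fun x => (ev x).comp (d.comp ρ)
  have hlam : ∀ x a, (lam x a : ℂˣ) = d (ρ a) x := fun _ _ => rfl
  let y : A → ℂ := fun a => ∑ x : Fˣ, (((-1 : ℤ) : ℂ)) * ψ x * (lam x a : ℂ)
  -- the Gauss sum
  have hgauss : ∀ a, y a = - gaussSum (MulChar.ofUnitHom (d (ρ a))) ψ := by
    intro a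
    rw [gaussSum, sum_field_eq_units _ (by
      rw [MulChar.map_zero, zero_mul]), ← Finset.sum_neg_distrib]
    refine Finset.sum_congr rfl fun x _ => ?_
    rw [MulChar.ofUnitHom_coe, hlam]
    push_cast
    ring
  have hq : ∃ r : ℕ, Fintype.card F = p * r := by
    have hc : ringChar F ∣ p := ringChar.dvd hchar
    have hc' : ringChar F = p := by
      rcases (Nat.dvd_prime hp).1 hc with h | h
      · exact absurd h (CharP.ringChar_ne_one)
      · exact h
    obtain ⟨n, hn, hn'⟩ := FiniteField.card F (ringChar F)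
    rw [hc'] at hn'
    refine ⟨p ^ ((n : ℕ) - 1), ?_⟩
    rw [hn', ← pow_succ', Nat.sub_add_cancel n.pos]
  obtain ⟨r, hr⟩ := hq
  have hcardF : (Fintype.card Fˣ : ℂ) = (Fintype.card F : ℂ) - 1 := by
    rw [Fintype.card_units]
    have : 1 ≤ Fintype.card F := Fintype.card_pos
    push_cast [Nat.cast_sub this]
    ring
  refine ⟨y, ?_, ?_, ?_⟩
  · refine ⟨Fˣ, inferInstance, fun _ => -1, fun x => ψ x, lam, 1 - (Fintype.card F : ℤ), ?_, ?_,
      fun _ => rfl, ?_, ?_⟩
    · intro x
      rw [← AddChar.map_nsmul_eq_pow, nsmul_eq_mul, hchar, zero_mul, AddChar.map_zero_eq_one]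
    · intro h
      have h1 : (p : ℤ) ∣ (Fintype.card F : ℤ) := ⟨r, by rw [hr]; push_cast; ring⟩
      have h2 : (p : ℤ) ∣ 1 := by
        have := dvd_add h h1
        simpa using this
      have h3 := Int.natCast_dvd_natCast.1 (by simpa using h2 : (p : ℤ) ∣ ((1 : ℕ) : ℤ))
      exact hp.one_lt.ne' (Nat.dvd_one.1 h3)
    · intro a ha
      have : ∀ x : Fˣ, ((-1 : ℤ) : ℂ) * (lam x a : ℂ) = -1 := by
        intro x
        rw [hlam, ha, map_one]
        simp
      simp only [this, Finset.sum_const, Finset.card_univ, nsmul_eq_mul]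
      rw [hcardF]
      push_cast
      ring
    · intro a ha
      have hne : d (ρ a) ≠ 1 := fun h => ha (hd _ h)
      let f : Fˣ →* ℂ := (Units.coeHom ℂ).comp (d (ρ a))
      have hf : f ≠ 1 := by
        intro h
        apply hne
        ext x
        have := DFunLike.congr_fun h x
        simpa [f] using this
      have hs := sum_hom_units f
      rw [if_neg hf] at hs
      have : ∀ x : Fˣ, ((-1 : ℤ) : ℂ) * (lam x a : ℂ) = - f x := by
        intro x
        rw [hlam]
        simp [f]
      simp only [this, Finset.sum_neg_distrib, hs]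
      simp
  · intro a ha
    have h1 : y a = 1 := by
      have : ∀ x : Fˣ, ((-1 : ℤ) : ℂ) * ψ x * (lam x a : ℂ) = - ψ x := by
        intro x
        rw [hlam, ha, map_one]
        simp
      simp only [y, this, Finset.sum_neg_distrib]
      have h2 := sum_field_eq_units (fun x : F => if x = 0 then 0 else ψ x) (by simp)
      have h3 : ∑ x : F, (if x = 0 then 0 else ψ x) = -1 := by
        have h4 : ∀ x : F, (if x = 0 then 0 else ψ x) = ψ x - (if x = 0 then 1 else 0) := by
          intro x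
          by_cases hx : x = 0
          · simp [hx]
          · simp [hx]
        simp only [h4, Finset.sum_sub_distrib, hψsum]
        simp
      rw [h3] at h2
      have h5 : ∑ x : Fˣ, (if (x : F) = 0 then 0 else ψ x) = ∑ x : Fˣ, ψ x := by
        refine Finset.sum_congr rfl fun x _ => ?_
        simp
      rw [h5] at h2
      rw [← h2]
      simp
    rw [h1]
    simp
  · intro a ha
    have hne : d (ρ a) ≠ 1 := fun h => ha (hd _ h)
    have hχ : MulChar.ofUnitHom (d (ρ a)) ≠ 1 := by
      intro h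
      apply hne
      ext x
      have := DFunLike.congr_fun h (x : F)
      rw [MulChar.ofUnitHom_coe, MulChar.one_apply_coe] at this
      simpa using this
    have h1 := gaussSum_mul_gaussSum_eq_card hχ hprim
    rw [← star_gaussSum_eq] at h1
    have h2 : ((‖y a‖ ^ 2 : ℝ) : ℂ) = (Fintype.card F : ℂ) := by
      rw [hgauss, norm_neg, ← h1]
      have := Complex.mul_conj (gaussSum (MulChar.ofUnitHom (d (ρ a))) ψ)
      rw [Complex.normSq_eq_norm_sq] at this
      rw [← this]
      rfl
    exact_mod_cast h2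

section Action

variable {M : Type u} [AddCommGroup M]

/-- From a field inside the endomorphism ring. -/
theorem from_field (hp : p.Prime) [Finite M] [Nontrivial M] (F : Type u) [Field F] [Fintype F]
    (φ : F →+* AddMonoid.End M) (hchar : (p : F) = 0) (ρ' : A →* Fˣ) (ρ : A →* AddMonoid.End M)
    (hρ : ∀ a, φ (ρ' a : Fˣ) = ρ a) (hinj : ∀ e : F, e ≠ 0 → ∀ m : M, φ e m = 0 → m = 0)
    (hcard : Fintype.card F = Nat.card M) :
    ∃ y : A → ℂ, GaussFn.{u} p A y (fun a => ∀ m, ρ a m = m) ∧
      ∀ a, ‖y a‖ ^ 2 * (Nat.card {m : M // ρ a m = m} : ℝ) = Nat.card M := by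
  classical
  obtain ⟨y, h1, h2, h3⟩ := field_case hp F hchar ρ'
  have hiff : ∀ a, ρ' a = 1 ↔ ∀ m, ρ a m = m := by
    intro a
    constructor
    · intro h m
      rw [← hρ, h]
      simp
    · intro h
      by_contra hne
      have hne' : ((ρ' a : Fˣ) : F) - 1 ≠ 0 := by
        intro h0
        apply hne
        apply Units.ext
        simpa [sub_eq_zero] using h0
      obtain ⟨m, hm⟩ := exists_ne (0 : M)
      apply hm
      apply hinj _ hne'
      rw [map_sub, map_one, hρ]
      show ρ a m - m = 0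
      rw [h m, sub_self]
  refine ⟨y, h1.congr hiff, fun a => ?_⟩
  by_cases ha : ρ' a = 1
  · rw [h2 a ha, one_mul]
    have h4 : ∀ m, ρ a m = m := (hiff a).1 ha
    have : Nat.card {m : M // ρ a m = m} = Nat.card M :=
      Nat.card_congr (Equiv.subtypeUnivEquiv h4)
    rw [this]
  · rw [h3 a ha, hcard]
    have h4 : Nat.card {m : M // ρ a m = m} = 1 := by
      have hne' : ((ρ' a : Fˣ) : F) - 1 ≠ 0 := by
        intro h0
        apply ha
        apply Units.ext
        simpa [sub_eq_zero] using h0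
      haveI : Unique {m : M // ρ a m = m} :=
        { default := ⟨0, map_zero _⟩
          uniq := fun x => by
            apply Subtype.ext
            apply hinj _ hne'
            rw [map_sub, map_one, hρ]
            show ρ a x.1 - x.1 = 0
            rw [x.2, sub_self] }
      exact Nat.card_unique
    rw [h4]
    simp

/-- The simple case. -/
theorem simple_case {A : Type v} [CommGroup A] (hp : p.Prime) [Finite M] [Nontrivial M]
    (hM : ∀ m : M, p • m = 0) (ρ : A →* AddMonoid.End M)
    (hs : ∀ N : AddSubgroup M, (∀ a, ∀ m ∈ N, ρ a m ∈ N) → N = ⊥ ∨ N = ⊤) :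
    ∃ y : A → ℂ, GaussFn.{u} p A y (fun a => ∀ m, ρ a m = m) ∧
      ∀ a, ‖y a‖ ^ 2 * (Nat.card {m : M // ρ a m = m} : ℝ) = Nat.card M := by
  classical
  let S : Set (AddMonoid.End M) := Set.range ρ
  have hcomm : ∀ x ∈ S, ∀ y ∈ S, x * y = y * x := by
    rintro _ ⟨a, rfl⟩ _ ⟨b, rfl⟩
    rw [← map_mul, ← map_mul, mul_comm]
  let E : Subring (AddMonoid.End M) := Subring.closure S
  letI instC : CommRing E := Subring.closureCommRingOfComm hcomm
  haveI : Finite (AddMonoid.End M) :=
    Finite.of_injective (fun f : AddMonoid.End M => (f : M → M)) DFunLike.coe_injective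
  haveI : Finite E := Subtype.finite
  letI : Fintype E := Fintype.ofFinite E
  have hEcomm : ∀ e ∈ E, ∀ a, e * ρ a = ρ a * e := by
    intro e he a
    induction he using Subring.closure_induction with
    | mem x hx => exact hcomm x hx _ ⟨a, rfl⟩
    | zero => simp
    | one => simp
    | add x y _ _ hx hy => rw [add_mul, mul_add, hx, hy]
    | neg x _ hx => rw [neg_mul, mul_neg, hx]
    | mul x y _ _ hx hy => rw [mul_assoc, hy, ← mul_assoc, hx, mul_assoc]
  have hmemS : ∀ a, ρ a ∈ E := fun a => Subring.subset_closure ⟨a, rfl⟩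
  -- kernels
  have hker : ∀ e ∈ E, e ≠ 0 → ∀ m : M, e m = 0 → m = 0 := by
    intro e he hne m hm
    let e' : M →+ M := e
    have hinv : ∀ a, ∀ m ∈ AddMonoidHom.ker e', ρ a m ∈ AddMonoidHom.ker e' := by
      intro a x hx
      rw [AddMonoidHom.mem_ker] at hx ⊢
      have := DFunLike.congr_fun (hEcomm e he a) x
      have h2 : e (ρ a x) = ρ a (e x) := this
      show e (ρ a x) = 0
      have hx' : e x = 0 := hx
      rw [h2, hx', map_zero]
    rcases hs _ hinv with h | h
    · have : m ∈ AddMonoidHom.ker e' := (AddMonoidHom.mem_ker).2 hm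
      rw [h] at this
      simpa using this
    · exfalso
      apply hne
      ext x
      have : x ∈ AddMonoidHom.ker e' := by rw [h]; trivial
      exact (AddMonoidHom.mem_ker).1 this
  haveI hnt : Nontrivial E := by
    refine ⟨⟨0, 1, ?_⟩⟩
    intro h
    have h1 : (0 : AddMonoid.End M) = 1 := congrArg Subtype.val h
    obtain ⟨m, hm⟩ := exists_ne (0 : M)
    apply hm
    have := DFunLike.congr_fun h1 m
    exact this.symm
  haveI hdom : IsDomain E := by
    haveI : NoZeroDivisors E := by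
      refine ⟨?_⟩
      intro x y hxy
      by_contra hne
      push_neg at hne
      have hx : (x : AddMonoid.End M) ≠ 0 := fun h => hne.1 (Subtype.ext h)
      have hy : (y : AddMonoid.End M) ≠ 0 := fun h => hne.2 (Subtype.ext h)
      have hxy' : (x : AddMonoid.End M) * (y : AddMonoid.End M) = 0 := congrArg Subtype.val hxy
      have : ∃ m, (y : AddMonoid.End M) m ≠ 0 := by
        by_contra h
        push_neg at h
        apply hy
        ext m
        exact h m
      obtain ⟨m, hm⟩ := this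
      apply hm
      apply hker x.1 x.2 hx
      exact DFunLike.congr_fun hxy' m
    exact NoZeroDivisors.to_isDomain E
  letI instF : Field E := Fintype.fieldOfDomain E
  let φ : E →+* AddMonoid.End M := E.subtype
  let ρ₀ : A →* E :=
    { toFun := fun a => ⟨ρ a, hmemS a⟩
      map_one' := Subtype.ext (map_one ρ)
      map_mul' := fun a b => Subtype.ext (map_mul ρ a b) }
  have hchar : (p : E) = 0 := by
    apply Subtype.ext
    show ((p : E) : AddMonoid.End M) = 0
    have h1 : φ (p : E) = (p : AddMonoid.End M) := map_natCast φ p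
    have h2 : (p : AddMonoid.End M) = 0 := by
      ext m
      have h3 := hM m
      rw [AddMonoid.End.natCast_apply]
      exact h3
    exact h1.trans h2
  obtain ⟨w, hw⟩ := exists_ne (0 : M)
  have hcard : Fintype.card E = Nat.card M := by
    have hbij : Function.Bijective (fun e : E => (e : AddMonoid.End M) w) := by
      constructor
      · intro x y hxy
        by_contra hne
        have h0 : ((x : AddMonoid.End M) - y) ≠ 0 := by
          intro h
          exact hne (Subtype.ext (sub_eq_zero.1 h))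
        apply hw
        apply hker _ (E.sub_mem x.2 y.2) h0
        show (x : AddMonoid.End M) w - (y : AddMonoid.End M) w = 0
        rw [sub_eq_zero]
        exact hxy
      · let N : AddSubgroup M :=
          { carrier := Set.range (fun e : E => (e : AddMonoid.End M) w)
            zero_mem' := ⟨0, rfl⟩
            add_mem' := by
              rintro _ _ ⟨x, rfl⟩ ⟨y, rfl⟩
              exact ⟨x + y, rfl⟩
            neg_mem' := by
              rintro _ ⟨x, rfl⟩
              exact ⟨-x, rfl⟩ }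
        have hinv : ∀ a, ∀ m ∈ N, ρ a m ∈ N := by
          rintro a _ ⟨x, rfl⟩
          exact ⟨⟨ρ a * x, E.mul_mem (hmemS a) x.2⟩, rfl⟩
        rcases hs N hinv with h | h
        · exfalso
          have : w ∈ N := ⟨1, rfl⟩
          rw [h] at this
          exact hw (by simpa using this)
        · intro m
          have : m ∈ N := by rw [h]; trivial
          exact this
    rw [← Nat.card_eq_fintype_card]
    exact Nat.card_congr (Equiv.ofBijective _ hbij)
  exact from_field hp E φ hchar ρ₀.toHomUnits ρ (fun a => rfl)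
    (fun e he m hm => hker e.1 e.2 (fun h => he (Subtype.ext h)) m hm) hcard

/-- Restriction of the action to an invariant subgroup. -/
def restr {A : Type v} [Group A] (ρ : A →* AddMonoid.End M) (N : AddSubgroup M)
    (hN : ∀ a, ∀ m ∈ N, ρ a m ∈ N) : A →* AddMonoid.End N where
  toFun a :=
    { toFun := fun x => ⟨ρ a x, hN a x x.2⟩
      map_zero' := Subtype.ext (map_zero _)
      map_add' := fun x y => Subtype.ext (map_add _ _ _) }
  map_one' := AddMonoidHom.ext fun x => Subtype.ext (by
    show ρ 1 x = x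
    rw [map_one]
    rfl)
  map_mul' a b := AddMonoidHom.ext fun x => Subtype.ext (by
    show ρ (a * b) x = ρ a (ρ b x)
    rw [map_mul]
    rfl)

@[simp] theorem restr_apply {A : Type v} [Group A] (ρ : A →* AddMonoid.End M) (N : AddSubgroup M)
    (hN : ∀ a, ∀ m ∈ N, ρ a m ∈ N) (a : A) (x : N) : ((restr ρ N hN a x : N) : M) = ρ a x := rfl

theorem exists_proj {q : ℕ} [Fact q.Prime] {N : Type*} [AddCommGroup N] [Module (ZMod q) N]
    (W : Submodule (ZMod q) N) : ∃ g : N →ₗ[ZMod q] N, (∀ m, g m ∈ W) ∧ ∀ w ∈ W, g w = w := by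
  obtain ⟨q', hq⟩ := Submodule.exists_isCompl W
  refine ⟨W.subtype.comp (Submodule.linearProjOfIsCompl W q' hq), fun m => ?_, fun w hw => ?_⟩
  · simp
  · have := Submodule.linearProjOfIsCompl_apply_left hq ⟨w, hw⟩
    simp only [LinearMap.comp_apply, Submodule.subtype_apply]
    rw [show Submodule.linearProjOfIsCompl W q' hq w = ⟨w, hw⟩ from this]

/-- Maschke's theorem for actions on groups of exponent `p`. -/
theorem exists_inv_compl {A : Type v} [Group A] [Fintype A] (hp : p.Prime)
    (hA : Nat.Coprime (Fintype.card A) p) [Finite M] (hM : ∀ m : M, p • m = 0)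
    (ρ : A →* AddMonoid.End M) (W : AddSubgroup M) (hW : ∀ a, ∀ m ∈ W, ρ a m ∈ W) :
    ∃ W' : AddSubgroup M, (∀ a, ∀ m ∈ W', ρ a m ∈ W') ∧ IsCompl W W' := by
  classical
  haveI : Fact p.Prime := ⟨hp⟩
  letI : Module (ZMod p) M := AddCommGroup.zmodModule hM
  obtain ⟨g, hg1, hg2⟩ := exists_proj (q := p) (AddSubgroup.toZModSubmodule p W)
  obtain ⟨n, -, hn⟩ := Nat.exists_mul_mod_eq_one_of_coprime hA hp.one_lt
  have hnM : ∀ m : M, n • (Fintype.card A • m) = m := by
    intro m
    have h := Nat.mod_add_div (Fintype.card A * n) p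
    rw [hn] at h
    calc n • (Fintype.card A • m) = (Fintype.card A * n) • m := by
          rw [smul_smul, mul_comm]
      _ = (1 + p * (Fintype.card A * n / p)) • m := by rw [h]
      _ = m := by
          rw [add_nsmul, one_nsmul, mul_comm p, mul_nsmul, hM, add_zero]
  let π₀ : M →+ M := g.toAddMonoidHom
  have hπ₀ : ∀ w ∈ W, π₀ w = w := fun w hw => hg2 w hw
  have hπ₀mem : ∀ m, π₀ m ∈ W := fun m => hg1 m
  let π : M →+ M :=
    { toFun := fun m => n • ∑ a : A, ρ a⁻¹ (π₀ (ρ a m))
      map_zero' := by simp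
      map_add' := fun x y => by
        simp only [map_add, Finset.sum_add_distrib, smul_add] }
  have hπ : ∀ m, π m = n • ∑ a : A, ρ a⁻¹ (π₀ (ρ a m)) := fun m => rfl
  have hπmem : ∀ m, π m ∈ W := by
    intro m
    rw [hπ]
    exact AddSubgroup.nsmul_mem _ (AddSubgroup.sum_mem _ fun a _ => hW _ _ (hπ₀mem _)) _
  have hπfix : ∀ w ∈ W, π w = w := by
    intro w hw
    rw [hπ]
    have : ∀ a : A, ρ a⁻¹ (π₀ (ρ a w)) = w := by
      intro a
      rw [hπ₀ _ (hW a w hw)]
      have h2 : ρ a⁻¹ * ρ a = 1 := by rw [← map_mul, inv_mul_cancel, map_one]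
      exact DFunLike.congr_fun h2 w
    simp only [this, Finset.sum_const, Finset.card_univ]
    exact hnM w
  have hπeq : ∀ b m, π (ρ b m) = ρ b (π m) := by
    intro b m
    rw [hπ, hπ, map_nsmul, map_sum]
    congr 1
    refine Fintype.sum_equiv (Equiv.mulRight b) _ _ fun a => ?_
    simp only [Equiv.coe_mulRight]
    have h1 : ρ (a * b) m = ρ a (ρ b m) := by rw [map_mul]; rfl
    have h2 : ρ b * ρ (a * b)⁻¹ = ρ a⁻¹ := by
      rw [← map_mul]
      congr 1
      group
    rw [h1, ← h2]
    rfl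
  refine ⟨π.ker, ?_, ?_⟩
  · intro a m hm
    rw [AddMonoidHom.mem_ker] at hm ⊢
    rw [hπeq, hm, map_zero]
  · constructor
    · rw [disjoint_iff, eq_bot_iff]
      rintro x ⟨hx1, hx2⟩
      have h1 : π x = x := hπfix x hx1
      have h2 : π x = 0 := hx2
      rw [AddSubgroup.mem_bot, ← h1, h2]
    · rw [codisjoint_iff, eq_top_iff]
      intro x _
      have h1 : x = π x + (x - π x) := by abel
      rw [h1]
      refine AddSubgroup.add_mem_sup (hπmem x) ?_
      rw [AddMonoidHom.mem_ker, map_sub, hπfix _ (hπmem x), sub_self]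

/-- The general existence theorem, by Maschke's theorem and induction. -/
theorem exists_gauss {A : Type v} [CommGroup A] [Fintype A] (hp : p.Prime)
    (hA : Nat.Coprime (Fintype.card A) p) :
    ∀ (n : ℕ) (M : Type u) [AddCommGroup M] [Finite M], Nat.card M = n → (∀ m : M, p • m = 0) →
      ∀ ρ : A →* AddMonoid.End M,
      ∃ y : A → ℂ, GaussFn.{u} p A y (fun a => ∀ m, ρ a m = m) ∧
        ∀ a, ‖y a‖ ^ 2 * (Nat.card {m : M // ρ a m = m} : ℝ) = Nat.card M := by
  classical
  intro n
  induction n using Nat.strong_induction_on with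
  | _ n ih =>
  intro M _ _ hn hM ρ
  rcases subsingleton_or_nontrivial M with hsub | hnt
  · refine ⟨fun _ => 1, (GaussFn.one hp).congr fun a => ?_, fun a => ?_⟩
    · simp [eq_iff_true_of_subsingleton]
    · have h1 : Nat.card {m : M // ρ a m = m} = Nat.card M :=
        Nat.card_congr (Equiv.subtypeUnivEquiv fun m => Subsingleton.elim _ _)
      rw [h1]
      simp
  -- a minimal invariant subgroup
  let S : Set (AddSubgroup M) := {N | (∀ a, ∀ m ∈ N, ρ a m ∈ N) ∧ N ≠ ⊥}
  have hfin : Finite (AddSubgroup M) :=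
    Finite.of_injective (fun N : AddSubgroup M => (N : Set M)) SetLike.coe_injective
  have hwf : WellFounded ((· < ·) : AddSubgroup M → AddSubgroup M → Prop) :=
    wellFounded_lt
  have hne : S.Nonempty := ⟨⊤, fun _ _ _ => trivial, top_ne_bot⟩
  obtain ⟨W, ⟨hWinv, hWne⟩, hWmin⟩ := hwf.has_min S hne
  have hmin : ∀ N : AddSubgroup M, N ≤ W → (∀ a, ∀ m ∈ N, ρ a m ∈ N) → N ≠ ⊥ → N = W := by
    intro N hNW hinv hN
    by_contra hne
    exact hWmin N ⟨hinv, hN⟩ (lt_of_le_of_ne hNW hne)
  obtain ⟨W', hW'inv, hc⟩ := exists_inv_compl hp hA hM ρ W hWinv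
  -- the product decomposition
  have hbij : Function.Bijective (fun x : W × W' => (x.1 : M) + (x.2 : M)) := by
    constructor
    · rintro ⟨a, b⟩ ⟨c, d⟩ h
      have h1 : (a : M) + b = c + d := h
      have h2 : (a : M) - c = d - b := by
        rw [sub_eq_sub_iff_add_eq_add, h1, add_comm]
      have h3 : (a : M) - c ∈ W ⊓ W' := ⟨W.sub_mem a.2 c.2, by
        rw [h2]
        exact W'.sub_mem d.2 b.2⟩
      rw [hc.inf_eq_bot, AddSubgroup.mem_bot] at h3
      have h4 : (a : M) = c := sub_eq_zero.1 h3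
      have h5 : (d : M) = b := by
        rw [h3] at h2
        exact (sub_eq_zero.1 h2.symm)
      exact Prod.ext (Subtype.ext h4) (Subtype.ext h5.symm)
    · intro m
      have : m ∈ W ⊔ W' := by
        rw [hc.sup_eq_top]
        trivial
      obtain ⟨a, ha, b, hb, h⟩ := AddSubgroup.mem_sup.1 this
      exact ⟨(⟨a, ha⟩, ⟨b, hb⟩), h⟩
  have hcardM : Nat.card M = Nat.card W * Nat.card W' := by
    rw [← Nat.card_prod]
    exact (Nat.card_congr (Equiv.ofBijective _ hbij)).symm
  have hW1 : 1 < Nat.card W := by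
    haveI : Nontrivial W := (AddSubgroup.nontrivial_iff_ne_bot W).2 hWne
    exact Finite.one_lt_card
  have hW'lt : Nat.card W' < n := by
    have h0 : 0 < Nat.card W' := Nat.card_pos
    rw [← hn, hcardM]
    nlinarith
  -- the piece `W'`
  have hM' : ∀ m : W', p • m = 0 := fun m => Subtype.ext (by
    show p • (m : M) = 0
    exact hM m)
  obtain ⟨y₂, h₂, hn₂⟩ := ih _ hW'lt W' rfl hM' (restr ρ W' hW'inv)
  -- the piece `W`
  haveI hntW : Nontrivial W := (AddSubgroup.nontrivial_iff_ne_bot W).2 hWne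
  have hMW : ∀ m : W, p • m = 0 := fun m => Subtype.ext (by
    show p • (m : M) = 0
    exact hM m)
  have hsimple : ∀ N : AddSubgroup W, (∀ a, ∀ m ∈ N, restr ρ W hWinv a m ∈ N) → N = ⊥ ∨ N = ⊤ := by
    intro N hN
    by_cases hb : N = ⊥
    · exact Or.inl hb
    right
    have h1 : N.map W.subtype = W := by
      apply hmin
      · rintro _ ⟨x, _, rfl⟩
        exact x.2
      · rintro a _ ⟨x, hx, rfl⟩
        exact ⟨restr ρ W hWinv a x, hN a x hx, rfl⟩
      · intro h
        apply hb
        rw [AddSubgroup.map_eq_bot_iff_of_injective _ W.subtype_injective] at h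
        exact h
    rw [eq_top_iff]
    intro x _
    have h2 : (x : M) ∈ N.map W.subtype := by rw [h1]; exact x.2
    obtain ⟨z, hz, h3⟩ := h2
    have : z = x := Subtype.ext h3
    rwa [← this]
  obtain ⟨y₁, h₁, hn₁⟩ := simple_case hp hMW (restr ρ W hWinv) hsimple
  -- decomposition of fixed points
  have hsplit : ∀ a (w : W) (w' : W'), ρ a ((w : M) + w') = (w : M) + w' ↔
      (restr ρ W hWinv a w = w ∧ restr ρ W' hW'inv a w' = w') := by
    intro a w w'
    constructor
    · intro h
      have h1 : ((restr ρ W hWinv a w, restr ρ W' hW'inv a w') : W × W') = (w, w') := by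
        apply hbij.1
        show ρ a w + ρ a w' = (w : M) + w'
        rw [← map_add]
        exact h
      exact ⟨congrArg Prod.fst h1, congrArg Prod.snd h1⟩
    · rintro ⟨h1, h2⟩
      rw [map_add]
      have h3 : ρ a (w : M) = w := congrArg Subtype.val h1
      have h4 : ρ a (w' : M) = w' := congrArg Subtype.val h2
      rw [h3, h4]
  have hfix : ∀ a, Nat.card {m : M // ρ a m = m} =
      Nat.card {m : W // restr ρ W hWinv a m = m} * Nat.card {m : W' // restr ρ W' hW'inv a m = m} := by
    intro a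
    rw [← Nat.card_prod]
    symm
    refine Nat.card_congr ((Equiv.subtypeProdEquivProd).symm.trans ?_)
    refine Equiv.subtypeEquiv (Equiv.ofBijective _ hbij) ?_
    rintro ⟨w, w'⟩
    exact (hsplit a w w').symm
  refine ⟨fun a => y₁ a * y₂ a, (GaussFn.mul hp h₁ h₂).congr fun a => ?_, fun a => ?_⟩
  · constructor
    · rintro ⟨h1, h2⟩ m
      obtain ⟨⟨w, w'⟩, rfl⟩ := hbij.2 m
      exact (hsplit a w w').2 ⟨h1 w, h2 w'⟩
    · intro h
      refine ⟨fun w => Subtype.ext (h w), fun w => Subtype.ext (h w)⟩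
  · rw [norm_mul, mul_pow, hfix, hcardM]
    push_cast
    have e1 := hn₁ a
    have e2 := hn₂ a
    calc ‖y₁ a‖ ^ 2 * ‖y₂ a‖ ^ 2 * ((Nat.card {m : W // restr ρ W hWinv a m = m} : ℝ) *
          (Nat.card {m : W' // restr ρ W' hW'inv a m = m} : ℝ))
        = (‖y₁ a‖ ^ 2 * (Nat.card {m : W // restr ρ W hWinv a m = m} : ℝ)) *
          (‖y₂ a‖ ^ 2 * (Nat.card {m : W' // restr ρ W' hW'inv a m = m} : ℝ)) := by ring
      _ = _ := by rw [e1, e2]

end Action

end Cfsg.Agent.Lib.KGauss
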