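import Mathlib
import Cfsg.Agent.Lib.KInfLocal
import Cfsg.Agent.Lib.ChainStab
import Cfsg.Agent.Lib.PResid
import Cfsg.Agent.Lib.PLocalTools
import Cfsg.Agent.Lib.KInfStable

/-!
# K-infinity subgroups and chief factors

If a K-infinity subgroup of a Sylow subgroup is not normal, and `C(O_p) ≤ O_p`, then there is an element
of the Sylow subgroup outside `O_p` acting quadratically and nontrivially on a chief factor of the group
inside a given critical subgroup of `O_p`.
-/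

set_option autoImplicit false

namespace Cfsg.Agent.Lib.KInfChief

open Cfsg Cfsg.Agent.Lib.KInf Cfsg.Agent.Lib.EngelChief Cfsg.Agent.Lib.PCore Cfsg.Agent.Lib.SecFunctor
open Cfsg.Agent.Lib.TransferLocal Cfsg.Agent.Lib.KInfLocal Cfsg.Agent.Lib.ChainStab

open scoped commutatorElement

universe u

section Abstract

variable {P : Type*} [Group P] {A T : Subgroup P}

/-- Elements of the initial subgroup `D` are good. -/
theorem good_of_init [hA : A.Normal] {D : Subgroup P} (h1 : A ≤ Subgroup.normalizer (D : Set P))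
    (h2 : ⁅A, ⁅D, D⁆⁆ = ⊥) (h3 : ⁅⁅ZZ A, D⁆, D⁆ = ⊥) {g : P} (hgD : g ∈ D) (hgT : g ∉ T) :
    Good A T g := by
  have hgB := zpowers_le_of_mem hgD
  have hDc : ⁅D, D⁆ ≤ Subgroup.centralizer (A : Set P) := by
    intro x hx
    rw [Subgroup.mem_centralizer_iff]
    intro y hy
    have h6 : ⁅y, x⁆ ∈ ⁅A, ⁅D, D⁆⁆ := Subgroup.commutator_mem_commutator hy hx
    rw [h2, Subgroup.mem_bot, commutatorElement_eq_one_iff_mul_comm] at h6
    exact h6
  have h5 : ⁅A, Subgroup.zpowers g⁆ ≤ D := by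
    rw [Subgroup.commutator_le]
    intro b hb k hk
    have hkD := hgB hk
    have h6 := (Subgroup.mem_normalizer_iff.mp (h1 hb) k).mp hkD
    rw [commutatorElement_def]
    exact D.mul_mem h6 (D.inv_mem hkD)
  have h6 : ⁅⁅A, Subgroup.zpowers g⁆, Subgroup.zpowers g⁆ ≤ ZZ A := by
    refine le_inf ?_ ?_
    · exact (Subgroup.commutator_mono (Subgroup.commutator_le_left A _) le_rfl).trans (Subgroup.commutator_le_left A _)
    · exact (Subgroup.commutator_mono h5 hgB).trans hDc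
  have hZn : (ZZ A).Normal := inferInstance
  refine ⟨hgT, ?_, ?_⟩
  · show ⁅⁅⁅A, Subgroup.zpowers g⁆, Subgroup.zpowers g⁆, Subgroup.zpowers g⁆ ≤ _
    exact (Subgroup.commutator_mono h6 le_rfl).trans (Subgroup.commutator_le_left _ _)
  · rw [eq_bot_iff, ← h3]
    exact Subgroup.commutator_mono (Subgroup.commutator_mono le_rfl hgB) hgB

/-- The dichotomy with witnesses. -/
theorem terms_le_or_witness [hA : A.Normal] (hA2 : A ∈ classTwoSubgroups P) (hA3 : ⁅T, A⁆ ≤ ZZ A) :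
    (∀ n : ℕ, kSeqEven P n ≤ T ∧ kSeqOdd P (n + 1) ≤ T) ∨
    (∃ D ∈ classTwoSubgroups P, A ≤ Subgroup.normalizer (D : Set P) ∧ ⁅A, ⁅D, D⁆⁆ = ⊥ ∧
      ⁅⁅ZZ A, D⁆, D⁆ = ⊥ ∧ ¬ ⁅A, D⁆ ≤ ZZ A) ∨
    (∃ Q B : Subgroup P, A ≤ Q ∧ B ∈ kLowerStarFamily Q ∧ ¬ B ≤ T) ∨
    (∃ Q B : Subgroup P, A ≤ Q ∧ B ∈ kUpperStarFamily Q ∧ ¬ B ≤ T) := by
  by_contra hcon
  push Not at hcon
  obtain ⟨hn, hI, hII, hIII⟩ := hcon
  apply hn.elim
  obtain ⟨n, hn⟩ := hn
  have hL : ∀ {Q B : Subgroup P}, A ≤ Q → B ∈ kLowerStarFamily Q → B ≤ T :=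
    fun hAQ hB => hII _ _ hAQ hB
  have hU : ∀ {Q B : Subgroup P}, A ≤ Q → B ∈ kUpperStarFamily Q → B ≤ T :=
    fun hAQ hB => hIII _ _ hAQ hB
  have h0 : A ∈ kLowerStarFamily (⊤ : Subgroup P) :=
    ⟨hA2, le_top.trans conj_mem_of_normal_bot, fun D hD _ h1 h2 h3 => hI D hD h1 h2 h3⟩
  have key : ∀ n : ℕ, A ≤ kSeqOdd P n ∧ A ∈ kLowerStarFamily (kSeqOdd P n) →
      kSeqEven P n ≤ T ∧ kSeqOdd P (n + 1) ≤ T ∧ A ≤ kSeqOdd P (n + 1) ∧
        A ∈ kLowerStarFamily (kSeqOdd P (n + 1)) := by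
    rintro n ⟨h1, h2⟩
    have he : kSeqEven P n ≤ T := sSup_le fun B hB => hL h1 hB
    have hAe : A ≤ kSeqEven P n := le_sSup h2
    have ho : kSeqOdd P (n + 1) ≤ T := sSup_le fun B hB => hU hAe hB
    have hAo : A ≤ kSeqOdd P (n + 1) := le_sSup (upper_of_le hA2 hA3 he)
    exact ⟨he, ho, hAo, lower_of_le hA2 hA3 ho⟩
  have hall : ∀ n : ℕ, A ≤ kSeqOdd P n ∧ A ∈ kLowerStarFamily (kSeqOdd P n) := by
    intro n
    induction n with
    | zero => exact ⟨le_top, h0⟩
    | succ n ih =>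
      obtain ⟨_, _, h3, h4⟩ := key n ih
      exact ⟨h3, h4⟩
  obtain ⟨h1, h2, _, _⟩ := key n (hall n)
  by_contra h3
  exact (hn h1) h2

end Abstract

section Group

variable {G : Type u} [Group G] [Finite G] {p : ℕ} [hp : Fact p.Prime]

/-- The witnesses, in the ambient group. -/
theorem exists_witness (S : Sylow p G) (A : Subgroup G) (hAn : A.Normal) (hAT : A ≤ pCore p G)
    (hA2 : ⁅A, A⁆ ≤ Subgroup.centralizer ((A : Subgroup G) : Set G)) (hA3 : ⁅pCore p G, A⁆ ≤ ZZ A)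
    (hK : ¬ (inducedFunctor kInfLower (S : Subgroup G)).Normal ∨ ¬ (inducedFunctor kInfUpper (S : Subgroup G)).Normal) :
    (∃ D ∈ classTwoSubgroups G, D ≤ S ∧ A ≤ Subgroup.normalizer (D : Set G) ∧ ⁅A, ⁅D, D⁆⁆ = ⊥ ∧
      ⁅⁅ZZ A, D⁆, D⁆ = ⊥ ∧ ¬ ⁅A, D⁆ ≤ ZZ A) ∨
    (∃ Q B : Subgroup G, B ≤ S ∧ A ≤ Q ∧ B ∈ kLowerStarFamily Q ∧ ¬ B ≤ pCore p G) ∨
    (∃ Q B : Subgroup G, B ≤ S ∧ A ≤ Q ∧ B ∈ kUpperStarFamily Q ∧ ¬ B ≤ pCore p G) := by
  classical
  have hPS := pCore_le_sylow (G := G) p S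
  have hPn : (pCore p G).Normal := inferInstance
  set f : (S : Subgroup G) →* G := (S : Subgroup G).subtype with hf
  have hfi : Function.Injective f := (S : Subgroup G).subtype_injective
  have hfr : ∀ X : Subgroup (S : Subgroup G), X.map f ≤ S := fun X => Subgroup.map_subtype_le X
  set A' : Subgroup (S : Subgroup G) := A.subgroupOf (S : Subgroup G) with hA'
  set T' : Subgroup (S : Subgroup G) := (pCore p G).subgroupOf (S : Subgroup G) with hT'
  have hA'n : A'.Normal := inferInstance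
  have hAS : A ≤ S := hAT.trans hPS
  have hA'm : A'.map f = A := Subgroup.map_subgroupOf_eq_of_le hAS
  have hT'm : T'.map f = pCore p G := Subgroup.map_subgroupOf_eq_of_le hPS
  have hZm : (ZZ A').map f = ZZ A := by
    have := map_center_of f hfi (B := A')
    rw [hA'm] at this
    exact this
  have hA2' : A' ∈ classTwoSubgroups (S : Subgroup G) := by
    rw [← classTwo_map_iff f hfi, hA'm]
    exact hA2
  have hA3' : ⁅T', A'⁆ ≤ ZZ A' := by
    rw [← Subgroup.map_le_map_iff_of_injective hfi, Subgroup.map_commutator, hT'm, hA'm, hZm]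
    exact hA3
  rcases terms_le_or_witness hA2' hA3' with h | ⟨D, hD, h1, h2, h3, h4⟩ | ⟨Q, B, h1, h2, h3⟩ | ⟨Q, B, h1, h2, h3⟩
  · exfalso
    obtain ⟨h1, h2⟩ := kInf_of_subgroup T' h
    have hSp := S.isPGroup'
    have hTp : IsPGroup p T' := hSp.to_subgroup T'
    have hnorm : ∀ W : (∀ (Q : Type u) [Group Q], Subgroup Q), IsCharPFunctor.{u} p W →
        (W (S : Subgroup G)).map f = ((W T').map T'.subtype).map f → (inducedFunctor W (S : Subgroup G)).Normal := by
      intro W hW he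
      have h3 : inducedFunctor W (S : Subgroup G) = inducedFunctor W (pCore p G) := by
        show (W (S : Subgroup G)).map f = _
        rw [he]
        rw [← hT'm]
        exact Cfsg.Agent.Lib.NPCFunctor.map_inducedFunctor hW T' hTp f (fun x _ hx => hfi (by simpa using hx))
      rw [h3]
      apply Subgroup.normalizer_eq_top_iff.mp
      rw [eq_top_iff, ← Subgroup.normalizer_eq_top_iff.mpr hPn]
      exact normalizer_le_induced hW _ (isPGroup_pCore p)
    rcases hK with h3 | h3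
    · apply h3
      exact hnorm kInfLower isCharPFunctor_kInfLower (by rw [h1])
    · apply h3
      exact hnorm kInfUpper isCharPFunctor_kInfUpper (by rw [h2])
  · left
    refine ⟨D.map f, (classTwo_map_iff f hfi).mpr hD, hfr D, ?_, ?_, ?_, ?_⟩
    · have := (normalizer_map_iff f hfi (B := D) (Q := A')).mpr h1
      rwa [hA'm] at this
    · have := congrArg (Subgroup.map f) h2
      rw [Subgroup.map_commutator, Subgroup.map_commutator, hA'm, Subgroup.map_bot] at this
      exact this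
    · have := congrArg (Subgroup.map f) h3
      rw [Subgroup.map_commutator, Subgroup.map_commutator, hZm, Subgroup.map_bot] at this
      exact this
    · intro h5
      apply h4
      rw [← Subgroup.map_le_map_iff_of_injective hfi, Subgroup.map_commutator, hA'm, hZm]
      exact h5
  · right; left
    refine ⟨Q.map f, B.map f, hfr B, ?_, (lower_map_iff f hfi).mpr h2, ?_⟩
    · rw [← hA'm]; exact Subgroup.map_mono h1
    · intro h4
      apply h3
      rw [← Subgroup.map_le_map_iff_of_injective hfi, hT'm]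
      exact h4
  · right; right
    refine ⟨Q.map f, B.map f, hfr B, ?_, (upper_map_iff f hfi).mpr h2, ?_⟩
    · rw [← hA'm]; exact Subgroup.map_mono h1
    · intro h4
      apply h3
      rw [← Subgroup.map_le_map_iff_of_injective hfi, hT'm]
      exact h4

/-- A coprime element centralizing a critical-type subgroup centralizes `T`. -/
theorem commute_of_critical {T A : Subgroup G} (hTp : IsPGroup p T) (hAT : A ≤ T) (hA3 : ⁅T, A⁆ ≤ ZZ A)
    (hA4 : T ⊓ Subgroup.centralizer ((A : Subgroup G) : Set G) = ZZ A) (hTn : T.Normal) {y : G}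
    (hy : (orderOf y).Coprime p) (hyA : ∀ a ∈ A, Commute a y) : ∀ t ∈ T, Commute t y := by
  have hZp : IsPGroup p (ZZ A) := hTp.to_le (inf_le_left.trans hAT)
  have key : ∀ t ∈ T, t⁻¹ * (y * t * y⁻¹) ∈ ZZ A := by
    intro t ht
    set t' := y * t * y⁻¹ with ht'
    have ht'T : t' ∈ T := hTn.conj_mem t ht y
    have h1 : ∀ a ∈ A, t' * a * t'⁻¹ = t * a * t⁻¹ := by
      intro a ha
      have hc : ⁅t, a⁆ ∈ ZZ A := hA3 (Subgroup.commutator_mem_commutator ht ha)
      have hc' : Commute ⁅t, a⁆ y := hyA _ hc.1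
      have e1 : t' * a * t'⁻¹ * a⁻¹ = y * ⁅t, a⁆ * y⁻¹ := by
        have h3 : y * a = a * y := (hyA a ha).symm.eq
        have h4 : y⁻¹ * a = a * y⁻¹ := by
          calc y⁻¹ * a = y⁻¹ * (a * y) * y⁻¹ := by group
            _ = y⁻¹ * (y * a) * y⁻¹ := by rw [h3]
            _ = a * y⁻¹ := by group
        have h5 : y * a⁻¹ = a⁻¹ * y := by
          calc y * a⁻¹ = a⁻¹ * (a * y) * a⁻¹ := by group
            _ = a⁻¹ * (y * a) * a⁻¹ := by rw [h3]
            _ = a⁻¹ * y := by group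
        rw [ht', commutatorElement_def]
        calc y * t * y⁻¹ * a * (y * t * y⁻¹)⁻¹ * a⁻¹ = y * t * (y⁻¹ * a) * y * t⁻¹ * y⁻¹ * a⁻¹ := by group
          _ = y * t * a * t⁻¹ * y⁻¹ * a⁻¹ := by rw [h4]; group
          _ = y * t * a * t⁻¹ * (y⁻¹ * (a⁻¹ * y)) * y⁻¹ := by group
          _ = y * t * a * t⁻¹ * (y⁻¹ * (y * a⁻¹)) * y⁻¹ := by rw [h5]
          _ = y * (t * a * t⁻¹ * a⁻¹) * y⁻¹ := by group
      have e1' : y * ⁅t, a⁆ * y⁻¹ = ⁅t, a⁆ := by rw [hc'.symm.eq]; group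
      rw [e1'] at e1
      have e2 : t' * a * t'⁻¹ * a⁻¹ = t * a * t⁻¹ * a⁻¹ := by
        rw [e1, commutatorElement_def]
      exact mul_right_cancel e2
    have h2 : t⁻¹ * t' ∈ T ⊓ Subgroup.centralizer ((A : Subgroup G) : Set G) := by
      refine ⟨T.mul_mem (T.inv_mem ht) ht'T, Subgroup.mem_centralizer_iff.mpr fun a ha => ?_⟩
      have h3 := h1 a ha
      calc a * (t⁻¹ * t') = t⁻¹ * (t * a * t⁻¹) * t' := by group
        _ = t⁻¹ * (t' * a * t'⁻¹) * t' := by rw [h3]
        _ = t⁻¹ * t' * a := by group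
    rw [hA4] at h2
    exact h2
  refine commute_of_stab hZp hy (fun z hz => hyA z hz.1) ?_
  intro t ht
  have := key t⁻¹ (T.inv_mem ht)
  have e : (t⁻¹)⁻¹ * (y * t⁻¹ * y⁻¹) = ⁅t, y⁆ := by
    rw [commutatorElement_def]; group
  rwa [e] at this

/-- The `p'`-elements of `W` generate. -/
def Wp (p : ℕ) (W : Subgroup G) : Subgroup G :=
  Subgroup.closure {y | y ∈ W ∧ (orderOf y).Coprime p}

omit [Finite G] hp in
theorem Wp_le (W : Subgroup G) : Wp p W ≤ W :=
  (Subgroup.closure_le _).mpr fun _ hy => hy.1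

omit [Finite G] hp in
theorem Wp_normal {W : Subgroup G} (hW : W.Normal) : (Wp p W).Normal := by
  constructor
  intro n hn g
  have hle : Wp p W ≤ (Wp p W).comap (MulAut.conj g).toMonoidHom := by
    refine (Subgroup.closure_le _).mpr ?_
    rintro y ⟨hy1, hy2⟩
    refine Subgroup.subset_closure ⟨hW.conj_mem y hy1 g, ?_⟩
    have : orderOf (g * y * g⁻¹) = orderOf y := by
      have := orderOf_injective (MulAut.conj g).toMonoidHom (MulAut.conj g).injective y
      simpa using this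
    show (orderOf (g * y * g⁻¹)).Coprime p
    rw [this]
    exact hy2
  exact hle hn

/-- A member of `W` of order prime to `p` lies in `Wp`. -/
theorem mem_Wp {W : Subgroup G} {y : G} (hy : y ∈ W) (hc : (orderOf y).Coprime p) : y ∈ Wp p W :=
  Subgroup.subset_closure ⟨hy, hc⟩

/-- Selection of the chief factor. -/
theorem exists_chief_sel {A₀ W₁ : Subgroup G} (hA₀n : A₀.Normal) (hA₀p : IsPGroup p A₀)
    (hW₁ : W₁ = Subgroup.closure {y | y ∈ W₁ ∧ (orderOf y).Coprime p}) (hne : ⁅A₀, W₁⁆ ≠ ⊥) :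
    ∃ U V : Subgroup G, IsChiefFactor U V ∧ U ≤ A₀ ∧ ⁅V, W₁⁆ = ⊥ ∧ ¬ ⁅U, W₁⁆ ≤ V ∧
      ∀ X : Subgroup G, X.Normal → X ≤ U → X ≠ U → X ≤ V := by
  classical
  let 𝓕 : Set (Subgroup G) := {U | U.Normal ∧ U ≤ A₀ ∧ ⁅U, W₁⁆ ≠ ⊥}
  obtain ⟨U, hU, hmin⟩ := Set.exists_min_image 𝓕 (fun U : Subgroup G => Nat.card U) (Set.toFinite _)
    ⟨A₀, hA₀n, le_rfl, hne⟩
  obtain ⟨hUn, hUA, hUW⟩ := hU
  have hproper : ∀ X : Subgroup G, X.Normal → X ≤ U → X ≠ U → ⁅X, W₁⁆ = ⊥ := by
    intro X hXn hXU hXne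
    by_contra hX
    have h1 := hmin X ⟨hXn, hXU.trans hUA, hX⟩
    exact hXne (Subgroup.eq_of_le_of_card_ge hXU h1)
  set V : Subgroup G := sSup {X | X.Normal ∧ X ≤ U ∧ X ≠ U} with hV
  have hVU : V ≤ U := sSup_le fun X hX => hX.2.1
  have hVn : V.Normal := by
    constructor
    intro n hn g
    have hle : V ≤ V.comap (MulAut.conj g).toMonoidHom := by
      refine sSup_le fun X hX x hx => ?_
      have h1 : g * x * g⁻¹ ∈ X := hX.1.conj_mem x hx g
      exact (le_sSup hX : X ≤ V) h1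
    exact hle hn
  have hVW : ⁅V, W₁⁆ = ⊥ := by
    rw [eq_bot_iff, Subgroup.commutator_le]
    intro v hv w hw
    have h1 : v ∈ Subgroup.centralizer (W₁ : Set G) := by
      have hle : V ≤ Subgroup.centralizer (W₁ : Set G) := by
        refine sSup_le fun X hX x hx => ?_
        rw [Subgroup.mem_centralizer_iff]
        intro w' hw'
        have h2 : ⁅x, w'⁆ ∈ ⁅X, W₁⁆ := Subgroup.commutator_mem_commutator hx hw'
        rw [hproper X hX.1 hX.2.1 hX.2.2, Subgroup.mem_bot, commutatorElement_eq_one_iff_mul_comm] at h2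
        exact h2.symm
      exact hle hv
    rw [Subgroup.mem_bot, commutatorElement_eq_one_iff_mul_comm]
    exact (Subgroup.mem_centralizer_iff.mp h1 w hw).symm
  have hVne : V ≠ U := by
    intro h
    rw [h] at hVW
    exact hUW hVW
  have hmax : ∀ X : Subgroup G, X.Normal → X ≤ U → X ≠ U → X ≤ V :=
    fun X h1 h2 h3 => le_sSup ⟨h1, h2, h3⟩
  have hVp : IsPGroup p V := hA₀p.to_le (hVU.trans hUA)
  refine ⟨U, V, ⟨lt_of_le_of_ne hVU hVne, hUn, hVn, ?_⟩, hUA, hVW, ?_, hmax⟩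
  · intro N hNn hVN hNU
    by_cases h : N = U
    · exact Or.inr h
    · exact Or.inl (le_antisymm (hmax N hNn hNU h) hVN)
  · intro hle
    apply hUW
    rw [eq_bot_iff, Subgroup.commutator_le]
    intro u hu w hw
    rw [hW₁] at hw
    have key : ∀ w ∈ Subgroup.closure {y | y ∈ W₁ ∧ (orderOf y).Coprime p}, Commute u w := by
      intro w hw
      induction hw using Subgroup.closure_induction with
      | mem y hy =>
        refine commute_of_stab hVp hy.2 ?_ ?_ u hu
        · intro v hv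
          have h1 : ⁅v, y⁆ ∈ ⁅V, W₁⁆ := Subgroup.commutator_mem_commutator hv hy.1
          rw [hVW, Subgroup.mem_bot, commutatorElement_eq_one_iff_mul_comm] at h1
          exact h1
        · intro v hv
          exact hle (Subgroup.commutator_mem_commutator hv hy.1)
      | one => exact Commute.one_right u
      | mul a b _ _ iha ihb => exact iha.mul_right ihb
      | inv a _ iha => exact iha.inv_right
    rw [Subgroup.mem_bot, commutatorElement_eq_one_iff_mul_comm]
    exact key w hw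

/-- An element of `L` acting nontrivially on the chief factor. -/
theorem exists_elt {L U V W₁ : Subgroup G} (hUn : U.Normal) (hVn : V.Normal)
    (hW₁ : W₁ ≤ Subgroup.normalClosure (L : Set G)) (hUW : ¬ ⁅U, W₁⁆ ≤ V) :
    ∃ g ∈ L, ¬ ⁅U, Subgroup.zpowers g⁆ ≤ V := by
  by_contra hcon
  push Not at hcon
  apply hUW
  have hSn : (stabSub U V).Normal := by
    constructor
    intro n hn g
    have h1 : ∀ g : G, g ∈ Subgroup.normalizer (U : Set G) := fun g => by
      rw [Subgroup.normalizer_eq_top_iff.mpr hUn]; trivial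
    have h2 : ∀ g : G, g ∈ Subgroup.normalizer (V : Set G) := fun g => by
      rw [Subgroup.normalizer_eq_top_iff.mpr hVn]; trivial
    exact conj_mem_stabSub hn (h1 g) (h2 g)
  have hLS : (L : Set G) ⊆ stabSub U V := by
    intro l hl
    refine ⟨by rw [Subgroup.normalizer_eq_top_iff.mpr hVn]; trivial, fun v hv => ?_⟩
    exact hcon l hl (Subgroup.commutator_mem_commutator hv (Subgroup.mem_zpowers l))
  have h1 : W₁ ≤ stabSub U V := hW₁.trans (Subgroup.normalClosure_le_normal hLS)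
  rw [Subgroup.commutator_le]
  intro u hu w hw
  exact (h1 hw).2 u hu

end Group

section Soc

open Cfsg.Agent.Lib.PResid

variable {G : Type*} [Group G]

/-- Minimal `H`-invariant subgroups strictly above `V` inside `U`. -/
def MI (H U V : Subgroup G) : Set (Subgroup G) :=
  {S | V ≤ S ∧ S ≤ U ∧ S ≠ V ∧ H ≤ Subgroup.normalizer (S : Set G) ∧
    ∀ S' : Subgroup G, V ≤ S' → S' ≤ S → S' ≠ V → H ≤ Subgroup.normalizer (S' : Set G) → S' = S}

/-- The socle of `U / V` with respect to `H`. -/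
def Soc (H U V : Subgroup G) : Subgroup G := V ⊔ sSup (MI H U V)

theorem exists_mi [Finite G] {H U V S : Subgroup G} (hVS : V ≤ S) (hSU : S ≤ U) (hne : S ≠ V)
    (hH : H ≤ Subgroup.normalizer (S : Set G)) : ∃ S₁ ∈ MI H U V, S₁ ≤ S := by
  classical
  let 𝓕 : Set (Subgroup G) := {X | V ≤ X ∧ X ≤ S ∧ X ≠ V ∧ H ≤ Subgroup.normalizer (X : Set G)}
  obtain ⟨X, hX, hmin⟩ := Set.exists_min_image 𝓕 (fun X : Subgroup G => Nat.card X) (Set.toFinite _)
    ⟨S, hVS, le_rfl, hne, hH⟩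
  refine ⟨X, ⟨hX.1, hX.2.1.trans hSU, hX.2.2.1, hX.2.2.2, fun S' h1 h2 h3 h4 => ?_⟩, hX.2.1⟩
  exact Subgroup.eq_of_le_of_card_ge h2 (hmin S' ⟨h1, h2.trans hX.2.1, h3, h4⟩)

theorem conj_eq_of_mem {V : Subgroup G} {k : G} (hk : k ∈ Subgroup.normalizer (V : Set G)) :
    V.map (MulAut.conj k).toMonoidHom = V := conj_map_eq_of_mem_normalizer hk

/-- Conjugation permutes the minimal invariant subgroups. -/
theorem mi_conj {N U V S : Subgroup G} {k : G} (hkN : k ∈ Subgroup.normalizer (N : Set G))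
    (hkU : k ∈ Subgroup.normalizer (U : Set G)) (hkV : k ∈ Subgroup.normalizer (V : Set G))
    (hS : S ∈ MI N U V) : S.map (MulAut.conj k).toMonoidHom ∈ MI N U V := by
  obtain ⟨h1, h2, h3, h4, h5⟩ := hS
  have hinvN : ∀ {X : Subgroup G}, N ≤ Subgroup.normalizer (X : Set G) → ∀ k : G,
      k ∈ Subgroup.normalizer (N : Set G) → N ≤ Subgroup.normalizer ((X.map (MulAut.conj k).toMonoidHom : Subgroup G) : Set G) := by
    intro X hX k hk n hn
    apply mem_normalizer_of_conj_map_eq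
    have hn' : k⁻¹ * n * k ∈ N := by
      have := (Subgroup.mem_normalizer_iff.mp (Subgroup.inv_mem _ hk) n).mp hn
      simpa using this
    have h6 := conj_map_eq_of_mem_normalizer (hX hn')
    rw [← conj_map_mul]
    conv_rhs => rw [← h6]
    rw [← conj_map_mul]
    congr 2
    group
  have hkV' : V.map (MulAut.conj k⁻¹).toMonoidHom = V :=
    conj_map_eq_of_mem_normalizer (Subgroup.inv_mem _ hkV)
  refine ⟨?_, ?_, ?_, hinvN h4 k hkN, ?_⟩
  · rw [← conj_map_eq_of_mem_normalizer hkV]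
    exact Subgroup.map_mono h1
  · rw [← conj_map_eq_of_mem_normalizer hkU]
    exact Subgroup.map_mono h2
  · intro h
    apply h3
    have := conj_map_inv_conj S k
    rw [h, hkV'] at this
    exact this.symm
  · intro S' h6 h7 h8 h9
    have h10 := h5 (S'.map (MulAut.conj k⁻¹).toMonoidHom) ?_ ?_ ?_
      (hinvN h9 k⁻¹ (Subgroup.inv_mem _ hkN))
    · rw [← h10, conj_map_conj_inv]
    · rw [← hkV']
      exact Subgroup.map_mono h6
    · have := Subgroup.map_mono (f := (MulAut.conj k⁻¹).toMonoidHom) h7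
      rwa [conj_map_inv_conj] at this
    · intro h
      apply h8
      have := conj_map_conj_inv S' k
      rw [h, conj_map_eq_of_mem_normalizer hkV] at this
      exact this.symm

/-- The socle is invariant. -/
theorem soc_invariant [Finite G] {N U V : Subgroup G} {k : G} (hkN : k ∈ Subgroup.normalizer (N : Set G))
    (hkU : k ∈ Subgroup.normalizer (U : Set G)) (hkV : k ∈ Subgroup.normalizer (V : Set G)) :
    k ∈ Subgroup.normalizer ((Soc N U V : Subgroup G) : Set G) := by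
  apply Cfsg.Agent.Lib.Replacement.mem_normalizer_of_forall
  intro x hx
  have hle : Soc N U V ≤ (Soc N U V).comap (MulAut.conj k).toMonoidHom := by
    refine sup_le ?_ (sSup_le fun S hS => ?_)
    · intro v hv
      exact Subgroup.mem_sup_left ((Subgroup.mem_normalizer_iff.mp hkV v).mp hv)
    · intro y hy
      have h1 : k * y * k⁻¹ ∈ S.map (MulAut.conj k).toMonoidHom := conj_mem_conj_map hy
      exact Subgroup.mem_sup_right ((le_sSup (mi_conj hkN hkU hkV hS) : _ ≤ sSup (MI N U V)) h1)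
  exact hle hx

/-- **Clifford**: a minimal `K`-invariant subgroup lies in the socle for a normal subgroup of `K`. -/
theorem mi_le_soc [Finite G] {N K U V S : Subgroup G} (hNK : N ≤ K)
    (hKN : K ≤ Subgroup.normalizer (N : Set G)) (hKU : K ≤ Subgroup.normalizer (U : Set G))
    (hKV : K ≤ Subgroup.normalizer (V : Set G)) (hS : S ∈ MI K U V) : S ≤ Soc N U V := by
  obtain ⟨h1, h2, h3, h4, h5⟩ := hS
  obtain ⟨S₁, hS₁, hS₁S⟩ := exists_mi (H := N) h1 h2 h3 (hNK.trans h4)
  have hSoc : Soc N U V ⊓ S = S := by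
    refine h5 _ (le_inf le_sup_left h1) inf_le_right ?_ ?_
    · intro h
      apply hS₁.2.2.1
      apply le_antisymm _ hS₁.1
      rw [← h]
      exact le_inf (le_sup_of_le_right (le_sSup hS₁)) hS₁S
    · intro k hk
      apply Cfsg.Agent.Lib.Replacement.mem_normalizer_of_forall
      rintro x ⟨hx1, hx2⟩
      refine ⟨?_, (Subgroup.mem_normalizer_iff.mp (h4 hk) x).mp hx2⟩
      exact (Subgroup.mem_normalizer_iff.mp (soc_invariant (hKN hk) (hKU hk) (hKV hk)) x).mp hx1
  rw [← hSoc]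
  exact inf_le_left

theorem soc_le {H U V : Subgroup G} (hVU : V ≤ U) : Soc H U V ≤ U :=
  sup_le hVU (sSup_le fun _ hS => hS.2.1)

/-- Descent of the socle along a normal subgroup. -/
theorem soc_eq_of_normal [Finite G] {N K U V : Subgroup G} (hVU : V ≤ U) (hNK : N ≤ K)
    (hKN : K ≤ Subgroup.normalizer (N : Set G)) (hKU : K ≤ Subgroup.normalizer (U : Set G))
    (hKV : K ≤ Subgroup.normalizer (V : Set G)) (h : Soc K U V = U) : Soc N U V = U := by
  apply le_antisymm (soc_le hVU)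
  calc U = Soc K U V := h.symm
    _ ≤ Soc N U V := sup_le le_sup_left (sSup_le fun S hS => mi_le_soc hNK hKN hKU hKV hS)

/-- The socle of a chief factor for a normal subgroup. -/
theorem soc_normal [Finite G] {N U V : Subgroup G} (hch : IsChiefFactor U V) (hN : N.Normal) :
    Soc N U V = U := by
  obtain ⟨hlt, hUn, hVn, hmin⟩ := hch
  have htop : Soc ⊤ U V = U := by
    apply le_antisymm (soc_le hlt.le)
    refine le_sup_of_le_right (le_sSup ⟨hlt.le, le_rfl, hlt.ne', ?_, ?_⟩)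
    · rw [Subgroup.normalizer_eq_top_iff.mpr hUn]
    · intro S' h1 h2 h3 h4
      have hS' : S'.Normal := by
        rw [← Subgroup.normalizer_eq_top_iff, eq_top_iff]
        exact h4
      exact (hmin S' hS' h1 h2).resolve_left h3
  refine soc_eq_of_normal hlt.le le_top ?_ ?_ ?_ htop
  · rw [Subgroup.normalizer_eq_top_iff.mpr hN]
  · rw [Subgroup.normalizer_eq_top_iff.mpr hUn]
  · rw [Subgroup.normalizer_eq_top_iff.mpr hVn]

/-- Normalizers grow modulo a normal subgroup with `p`-group quotient. -/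
theorem exists_normalizing [Finite G] {p : ℕ} [Fact p.Prime] {W W₈ K : Subgroup G} [hW₈ : W₈.Normal]
    (hp : IsPGroup p ↥(W.map (QuotientGroup.mk' W₈))) (h1 : W₈ ≤ K) (h2 : K ≤ W) (hne : K ≠ W) :
    ∃ x ∈ W, x ∉ K ∧ x ∈ Subgroup.normalizer (K : Set G) := by
  classical
  set q := QuotientGroup.mk' W₈ with hq
  have hq1 : ∀ x, q x = 1 ↔ x ∈ W₈ := fun x => QuotientGroup.eq_one_iff x
  have hcomap : ∀ x, q x ∈ K.map q → x ∈ K := by
    rintro x ⟨k, hk, hkx⟩
    have h3 : k⁻¹ * x ∈ W₈ := by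
      rw [← hq1, map_mul, map_inv, hkx]; group
    have h4 : x = k * (k⁻¹ * x) := by group
    rw [h4]
    exact K.mul_mem hk (h1 h3)
  set Wb := W.map q with hWb
  have : Group.IsNilpotent ↥Wb := hp.isNilpotent
  set Kh : Subgroup ↥Wb := (K.map q).subgroupOf Wb with hKh
  have hKh1 : Kh < ⊤ := by
    refine lt_top_iff_ne_top.mpr fun h => hne ?_
    apply le_antisymm h2
    intro w hw
    have h3 : (⟨q w, w, hw, rfl⟩ : ↥Wb) ∈ Kh := by rw [h]; trivial
    exact hcomap w h3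
  have hKh2 := Group.normalizerCondition_of_isNilpotent Kh hKh1
  obtain ⟨xb, hxb1, hxb2⟩ := SetLike.exists_of_lt hKh2
  obtain ⟨x, hxW, hxq⟩ := xb.2
  refine ⟨x, hxW, ?_, ?_⟩
  · intro hxK
    apply hxb2
    show (xb : G ⧸ W₈) ∈ K.map q
    exact ⟨x, hxK, hxq⟩
  · apply Cfsg.Agent.Lib.Replacement.mem_normalizer_of_forall
    intro k hk
    apply hcomap
    have hkK : (⟨q k, k, h2 hk, rfl⟩ : ↥Wb) ∈ Kh := ⟨k, hk, rfl⟩
    have h3 := (Subgroup.mem_normalizer_iff.mp hxb1 _).mp hkK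
    have h4 : ((xb * ⟨q k, k, h2 hk, rfl⟩ * xb⁻¹ : ↥Wb) : G ⧸ W₈) ∈ K.map q := h3
    rw [map_mul, map_mul, map_inv, hxq]
    exact h4

/-- The socle of a chief factor for a subgroup between `W₈` and `W`, where `W/W₈` is a `p`-group. -/
theorem soc_between [Finite G] {p : ℕ} [Fact p.Prime] {U V W W₈ : Subgroup G} (hch : IsChiefFactor U V)
    (hW : W.Normal) [hW₈ : W₈.Normal] (hp : IsPGroup p ↥(W.map (QuotientGroup.mk' W₈))) :
    ∀ K : Subgroup G, W₈ ≤ K → K ≤ W → Soc K U V = U := by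
  have hVU := hch.1.le
  have hUn := hch.2.1
  have hVn := hch.2.2.1
  intro K
  induction K using WellFoundedGT.induction with
  | ind K ih =>
    intro h1 h2
    by_cases hne : K = W
    · rw [hne]
      exact soc_normal hch hW
    obtain ⟨x, hxW, hxK, hxN⟩ := exists_normalizing hp h1 h2 hne
    have hlt : K < K ⊔ Subgroup.zpowers x := by
      refine lt_of_le_of_ne le_sup_left fun h => hxK ?_
      rw [h]
      exact Subgroup.mem_sup_right (Subgroup.mem_zpowers x)
    have h3 := ih _ hlt (h1.trans le_sup_left) (sup_le h2 ((Subgroup.zpowers_le).mpr hxW))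
    refine soc_eq_of_normal hVU le_sup_left ?_ ?_ ?_ h3
    · exact sup_le Subgroup.le_normalizer ((Subgroup.zpowers_le).mpr hxN)
    · rw [Subgroup.normalizer_eq_top_iff.mpr hUn]; exact le_top
    · rw [Subgroup.normalizer_eq_top_iff.mpr hVn]; exact le_top

end Soc

section Lower

open Cfsg.Agent.Lib.KInfStable

variable {G : Type u} [Group G] [Finite G] {p : ℕ} [hp : Fact p.Prime]

/-- Quadratic action on all of `U` from the socle. -/
theorem quad_of_soc {H U V : Subgroup G} {g : G} (hUc : ⁅U, U⁆ ≤ V) (hVn : V.Normal) (hUn : U.Normal)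
    (hVU : V ≤ U) (hS : Soc H U V = U) (hg : ∀ S ∈ MI H U V, ∀ u ∈ S, ⁅⁅u, g⁆, g⁆ ∈ V) :
    ∀ u ∈ U, ⁅⁅u, g⁆, g⁆ ∈ V := by
  have hcU : ∀ {x : G}, x ∈ U → ⁅x, g⁆ ∈ U := by
    intro x hx
    rw [commutatorElement_def]
    have e : x * g * x⁻¹ * g⁻¹ = x * (g * x⁻¹ * g⁻¹) := by group
    rw [e]
    exact U.mul_mem hx (hUn.conj_mem _ (U.inv_mem hx) g)
  have hcV : ∀ {x : G}, x ∈ V → ⁅x, g⁆ ∈ V := by
    intro x hx
    rw [commutatorElement_def]
    have e : x * g * x⁻¹ * g⁻¹ = x * (g * x⁻¹ * g⁻¹) := by group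
    rw [e]
    exact V.mul_mem hx (hVn.conj_mem _ (V.inv_mem hx) g)
  -- in the quotient by `V`
  set q := QuotientGroup.mk' V with hq
  have hq1 : ∀ x, q x = 1 ↔ x ∈ V := fun x => QuotientGroup.eq_one_iff x
  have hcomm : ∀ {x y : G}, x ∈ U → y ∈ U → q x * q y = q y * q x := by
    intro x y hx hy
    have h1 : ⁅x, y⁆ ∈ V := hUc (Subgroup.commutator_mem_commutator hx hy)
    have h2 : q ⁅x, y⁆ = 1 := (hq1 _).mpr h1
    rw [map_commutatorElement, commutatorElement_eq_one_iff_mul_comm] at h2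
    exact h2
  have hstep : ∀ {x y : G}, x ∈ U → y ∈ U → q ⁅x * y, g⁆ = q ⁅x, g⁆ * q ⁅y, g⁆ := by
    intro x y hx hy
    have h1 := hcomm hx (hcU hy)
    have h2 := hcomm (hcU hx) (hcU hy)
    have e : ⁅x * y, g⁆ = (x * ⁅y, g⁆ * x⁻¹) * ⁅x, g⁆ := by
      simp only [commutatorElement_def]; group
    rw [e, map_mul, map_mul, map_mul, map_inv, h1, mul_inv_cancel_right, h2]
  set K₃ : Subgroup G :=
    { carrier := {u | u ∈ U ∧ ⁅⁅u, g⁆, g⁆ ∈ V}
      one_mem' := ⟨U.one_mem, by simp [V.one_mem]⟩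
      mul_mem' := by
        rintro a b ⟨ha, ha'⟩ ⟨hb, hb'⟩
        refine ⟨U.mul_mem ha hb, ?_⟩
        rw [← hq1]
        have h1 : q ⁅⁅a * b, g⁆, g⁆ = q ⁅⁅a, g⁆, g⁆ * q ⁅⁅b, g⁆, g⁆ := by
          rw [map_commutatorElement, hstep ha hb, ← map_mul, ← map_commutatorElement]
          have h2 : ⁅⁅a, g⁆ * ⁅b, g⁆, g⁆ ∈ U := hcU (U.mul_mem (hcU ha) (hcU hb))
          exact hstep (hcU ha) (hcU hb)
        rw [h1, (hq1 _).mpr ha', (hq1 _).mpr hb', one_mul]
      inv_mem' := by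
        rintro a ⟨ha, ha'⟩
        refine ⟨U.inv_mem ha, ?_⟩
        rw [← hq1]
        have h3 : q ⁅a⁻¹, g⁆ = (q ⁅a, g⁆)⁻¹ := by
          have := hstep (U.inv_mem ha) ha
          rw [inv_mul_cancel, commutatorElement_one_left, map_one] at this
          exact eq_inv_of_mul_eq_one_left this.symm
        have h4 : q ⁅⁅a⁻¹, g⁆, g⁆ = (q ⁅⁅a, g⁆, g⁆)⁻¹ := by
          have := hstep (hcU (U.inv_mem ha)) (hcU ha)
          have h5 : q (⁅a⁻¹, g⁆ * ⁅a, g⁆) = 1 := by
            rw [map_mul, h3, inv_mul_cancel]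
          have h6 : q ⁅⁅a⁻¹, g⁆ * ⁅a, g⁆, g⁆ = 1 := by
            rw [map_commutatorElement, h5, commutatorElement_one_left]
          rw [h6] at this
          exact eq_inv_of_mul_eq_one_left this.symm
        rw [h4, (hq1 _).mpr ha', inv_one] }
    with hK₃
  have hle : Soc H U V ≤ K₃ := by
    refine sup_le ?_ (sSup_le fun S hS => ?_)
    · intro v hv
      exact ⟨hVU hv, hcV (hcV hv)⟩
    · intro u hu
      exact ⟨hS.2.1 hu, hg S hS u hu⟩
  intro u hu
  rw [← hS] at hu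
  exact (hle hu).2

/-- From the generator to the cyclic group. -/
theorem quad_zpowers {U V : Subgroup G} {g : G} (hUn : U.Normal) (hVn : V.Normal)
    (h : ∀ u ∈ U, ⁅⁅u, g⁆, g⁆ ∈ V) : ⁅⁅U, Subgroup.zpowers g⁆, Subgroup.zpowers g⁆ ≤ V := by
  set q := QuotientGroup.mk' V with hq
  have hq1 : ∀ x, q x = 1 ↔ x ∈ V := fun x => QuotientGroup.eq_one_iff x
  set K₂ : Subgroup G := U ⊓ (Subgroup.centralizer ({q g} : Set (G ⧸ V))).comap q with hK₂
  have hK₂mem : ∀ {x : G}, x ∈ K₂ ↔ x ∈ U ∧ ⁅x, g⁆ ∈ V := by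
    intro x
    constructor
    · rintro ⟨h1, h2⟩
      refine ⟨h1, ?_⟩
      rw [← hq1, map_commutatorElement, commutatorElement_eq_one_iff_mul_comm]
      exact (Subgroup.mem_centralizer_iff.mp h2 (q g) rfl).symm
    · rintro ⟨h1, h2⟩
      refine ⟨h1, ?_⟩
      rw [← hq1, map_commutatorElement, commutatorElement_eq_one_iff_mul_comm] at h2
      show q x ∈ Subgroup.centralizer _
      rw [Subgroup.mem_centralizer_iff]
      rintro _ rfl
      exact h2.symm
  have hcU : ∀ {x : G}, x ∈ U → ⁅x, g⁆ ∈ U := by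
    intro x hx
    rw [commutatorElement_def]
    have e : x * g * x⁻¹ * g⁻¹ = x * (g * x⁻¹ * g⁻¹) := by group
    rw [e]
    exact U.mul_mem hx (hUn.conj_mem _ (U.inv_mem hx) g)
  have hconj : ∀ k : ℤ, ∀ y ∈ K₂, g ^ k * y * (g ^ k)⁻¹ ∈ K₂ := by
    intro k y hy
    obtain ⟨h1, h2⟩ := hK₂mem.mp hy
    refine hK₂mem.mpr ⟨hUn.conj_mem y h1 _, ?_⟩
    have e : ⁅g ^ k * y * (g ^ k)⁻¹, g⁆ = g ^ k * ⁅y, g⁆ * (g ^ k)⁻¹ := by
      have h3 : Commute (g ^ k) g := (Commute.refl g).zpow_left k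
      have h4 := comm_conj (g ^ k) y g
      rw [h3.eq, mul_inv_cancel_right] at h4
      exact h4.symm
    rw [e]
    exact hVn.conj_mem _ h2 _
  have h1 : ⁅U, Subgroup.zpowers g⁆ ≤ K₂ := by
    refine commutator_zpowers_le (fun y hy => by simpa using hconj 1 y hy)
      (fun y hy => by simpa using hconj (-1) y hy) ?_
    intro u hu
    exact hK₂mem.mpr ⟨hcU hu, h u hu⟩
  have hVg : ∀ k : ℤ, ∀ y ∈ V, g ^ k * y * (g ^ k)⁻¹ ∈ V := fun k y hy => hVn.conj_mem y hy _
  refine commutator_zpowers_le (fun y hy => by simpa using hVg 1 y hy)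
    (fun y hy => by simpa using hVg (-1) y hy) ?_
  intro x hx
  exact (hK₂mem.mp (h1 hx)).2

/-- The main computation in the lower case. -/
theorem lower_key {T A Q B U V W : Subgroup G} (hTn : T.Normal) (hAn : A.Normal) (hAT : A ≤ T)
    (hA2 : ⁅A, A⁆ ≤ Subgroup.centralizer ((A : Subgroup G) : Set G)) (hA3 : ⁅T, A⁆ ≤ ZZ A)
    (hAQ : A ≤ Q) (hB : B ∈ kLowerStarFamily Q) (hZBT : ZZ B ≤ T)
    (hW : W.Normal) (hBW : B ≤ W) (hch : IsChiefFactor U V) (hUA : U ≤ A)
    (hVW : ⁅V, Wp p W⁆ = ⊥) (hUW : ¬ ⁅U, Wp p W⁆ ≤ V)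
    (hmax : ∀ X : Subgroup G, X.Normal → X ≤ U → X ≠ U → X ≤ V)
    (hZW : ⁅ZZ A, Wp p W⁆ = ⊥) {g : G} (hg : g ∈ B) :
    ⁅⁅U, Subgroup.zpowers g⁆, Subgroup.zpowers g⁆ ≤ V := by
  classical
  obtain ⟨hlt, hUn, hVn, -⟩ := hch
  have hch' : IsChiefFactor U V := ⟨hlt, hUn, hVn, fun N hN h1 h2 => by
    by_cases h : N = U
    · exact Or.inr h
    · exact Or.inl (le_antisymm (hmax N hN h2 h) h1)⟩
  set W₁ := Wp (p := p) W with hW₁
  have hW₁n : W₁.Normal := Wp_normal hW
  have hZAn : (ZZ A).Normal := inferInstance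
  -- `U` is not central
  have hUZ : U ⊓ ZZ A ≠ U := by
    intro h
    apply hUW
    have h1 : U ≤ ZZ A := inf_eq_left.mp h
    have h2 := Subgroup.commutator_mono h1 (le_refl W₁)
    rw [hZW] at h2
    exact h2.trans bot_le
  have hUZV : U ⊓ ZZ A ≤ V := hmax _ (Subgroup.normal_inf_normal _ _) inf_le_left hUZ
  set L₀ := ⁅U, U⁆ with hL₀
  have hL₀n : L₀.Normal := inferInstance
  have hAAZ : ⁅A, A⁆ ≤ ZZ A := le_inf (Subgroup.commutator_le_self A) hA2
  have hL₀Z : L₀ ≤ ZZ A := (Subgroup.commutator_mono hUA hUA).trans hAAZ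
  have hL₀U : L₀ ≤ U := Subgroup.commutator_le_self U
  have hL₀V : L₀ ≤ V := (le_inf hL₀U hL₀Z).trans hUZV
  -- `[U, W₁] = U`
  have hUW₁ : ⁅U, W₁⁆ = U := by
    by_contra h
    exact hUW (hmax _ inferInstance (Subgroup.commutator_le_left U W₁) h)
  -- `V ≤ Z(U)`
  have hUV : ⁅U, V⁆ = ⊥ := by
    have h1 : ⁅⁅W₁, V⁆, U⁆ = ⊥ := by
      rw [Subgroup.commutator_comm W₁ V, hVW, Subgroup.commutator_bot_left]
    have h2 : ⁅⁅V, U⁆, W₁⁆ = ⊥ := by
      have h3 : ⁅V, U⁆ ≤ ZZ A := by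
        refine le_trans ?_ hL₀Z
        exact Subgroup.commutator_mono hlt.le le_rfl
      rw [eq_bot_iff, ← hZW]
      exact Subgroup.commutator_mono h3 le_rfl
    have h3 := Subgroup.commutator_commutator_eq_bot_of_rotate h1 h2
    rwa [hUW₁] at h3
  -- `R`
  set C₀ := L₀ ⊓ Subgroup.centralizer (B : Set G) with hC₀
  have hC₀U : C₀ ≤ Subgroup.centralizer (U : Set G) := by
    intro c hc
    rw [Subgroup.mem_centralizer_iff]
    intro u hu
    exact Subgroup.mem_centralizer_iff.mp (hL₀Z hc.1).2 u (hUA hu)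
  set R := RR U C₀ hC₀U with hR
  have hRU : R ≤ U := fun x hx => hx.1
  have hVR : V ≤ R := by
    intro v hv
    refine ⟨hlt.le hv, fun a ha => ?_⟩
    have h1 : ⁅a, v⁆ = 1 := by
      have := Subgroup.commutator_mem_commutator ha hv
      rwa [hUV, Subgroup.mem_bot] at this
    have h2 : ⁅v, a⁆ = 1 := by
      rw [← commutatorElement_inv, h1, inv_one]
    rw [h2]
    exact C₀.one_mem
  -- `W₈`
  have hCL₀n : (Subgroup.centralizer (L₀ : Set G)).Normal := Subgroup.normal_centralizer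
  set W₈ := W ⊓ Subgroup.centralizer (L₀ : Set G) with hW₈
  have hW₈n : W₈.Normal := Subgroup.normal_inf_normal _ _
  have hW₁W₈ : W₁ ≤ W₈ := by
    refine le_inf (Wp_le W) ?_
    intro w hw
    rw [Subgroup.mem_centralizer_iff]
    intro l hl
    have h1 := Subgroup.commutator_mem_commutator (hL₀Z hl) hw
    rw [hZW, Subgroup.mem_bot, commutatorElement_eq_one_iff_mul_comm] at h1
    exact h1
  have hpq : IsPGroup p ↥(W.map (QuotientGroup.mk' W₈)) := by
    rintro ⟨_, x, hx, rfl⟩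
    obtain ⟨a, b, hab, -, ⟨n, hn⟩, hb, ha, hb'⟩ := Cfsg.Agent.Lib.PResid.exists_decomp (p := p) x
    have hbW : b ∈ W := (Subgroup.zpowers_le.mpr hx) hb'
    have hbW₈ : b ∈ W₈ := hW₁W₈ (mem_Wp hbW hb)
    refine ⟨n, Subtype.ext ?_⟩
    show (QuotientGroup.mk' W₈ x) ^ p ^ n = 1
    have h1 : QuotientGroup.mk' W₈ b = 1 := (QuotientGroup.eq_one_iff b).mpr hbW₈
    rw [hab, map_mul, h1, mul_one, ← map_pow, hn, map_one]
  set H := W₈ ⊔ B with hH
  have hHW : H ≤ W := sup_le inf_le_left hBW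
  have hSoc : Soc H U V = U := soc_between hch' hW hpq H le_sup_left hHW
  have hgH : g ∈ H := Subgroup.mem_sup_right hg
  have hNU : ∀ e : G, e ∈ Subgroup.normalizer (U : Set G) := fun e => by
    rw [Subgroup.normalizer_eq_top_iff.mpr hUn]; trivial
  have hNV : ∀ e : G, e ∈ Subgroup.normalizer (V : Set G) := fun e => by
    rw [Subgroup.normalizer_eq_top_iff.mpr hVn]; trivial
  have hHR : H ≤ Subgroup.normalizer (R : Set G) := by
    refine sup_le ?_ ?_
    · intro e he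
      refine mem_normalizer_RR (hNU e) ?_
      rw [Subgroup.mem_centralizer_iff]
      intro c hc
      exact Subgroup.mem_centralizer_iff.mp he.2 c hc.1
    · intro b hb
      refine mem_normalizer_RR (hNU b) ?_
      rw [Subgroup.mem_centralizer_iff]
      intro c hc
      exact (Subgroup.mem_centralizer_iff.mp hc.2 b hb).symm
  have hBR : B ≤ Subgroup.normalizer (R : Set G) := le_sup_right.trans hHR
  have hUQ : U ≤ Q := hUA.trans hAQ
  have hRR : ⁅R, R⁆ ≤ C₀ := by
    rw [Subgroup.commutator_le]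
    intro x hx y hy
    exact hx.2 y (hRU hy)
  -- the lower-star property
  have hBR2 : ⁅B, R⁆ ≤ ZZ B := by
    refine hB.2.2 R ?_ (hRU.trans hUQ) hBR ?_ ?_
    · intro c hc
      rw [Subgroup.mem_centralizer_iff]
      intro r hr
      exact Subgroup.mem_centralizer_iff.mp (hC₀U (hRR hc)) r (hRU hr)
    · rw [Subgroup.commutator_eq_bot_iff_le_centralizer]
      intro b hb
      rw [Subgroup.mem_centralizer_iff]
      intro c hc
      exact (Subgroup.mem_centralizer_iff.mp (hRR hc).2 b hb).symm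
    · have h1 : ⁅ZZ B, R⁆ ≤ ZZ A := (Subgroup.commutator_mono hZBT (hRU.trans hUA)).trans hA3
      have h2 : ⁅ZZ A, R⁆ = ⊥ := by
        rw [Subgroup.commutator_eq_bot_iff_le_centralizer]
        intro v hv
        rw [Subgroup.mem_centralizer_iff]
        intro r hr
        exact (Subgroup.mem_centralizer_iff.mp hv.2 r (hUA (hRU hr)))
      refine le_antisymm ?_ bot_le
      rw [← h2]
      exact Subgroup.commutator_mono h1 le_rfl
  -- elements of `Z(B) ∩ U` are in `R`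
  have hconjB : ∀ {u b : G}, u ∈ U → b ∈ B → u * b * u⁻¹ ∈ B := fun {u b} hu hb =>
    (Subgroup.mem_normalizer_iff.mp (hB.2.1 (hUQ hu)) b).mp hb
  have hEZ : ∀ {x : G}, x ∈ ZZ B → x ∈ U → x ∈ R := by
    intro x hxZ hxU
    refine ⟨hxU, fun a ha => Subgroup.mem_inf.mpr ⟨Subgroup.commutator_mem_commutator hxU ha, ?_⟩⟩
    rw [Subgroup.mem_centralizer_iff]
    intro b hb
    set c := b * a * b⁻¹ * a⁻¹ with hc
    have hcB : c ∈ B := by
      have e : c = b * (a * b⁻¹ * a⁻¹) := by rw [hc]; group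
      rw [e]
      exact B.mul_mem hb (hconjB ha (B.inv_mem hb))
    have hcU : c ∈ U := U.mul_mem (hUn.conj_mem a ha b) (U.inv_mem ha)
    have hcomm1 : Commute c ⁅x, a⁆ :=
      (Subgroup.mem_centralizer_iff.mp (hL₀Z (Subgroup.commutator_mem_commutator hxU ha)).2 c (hUA hcU))
    have hxc : ⁅x, c⁆ = 1 := by
      rw [commutatorElement_eq_one_iff_mul_comm]
      exact (Subgroup.mem_centralizer_iff.mp hxZ.2 c hcB).symm
    have e1 := comm_conj b x a
    have e2 : b * x * b⁻¹ = x := by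
      rw [(Subgroup.mem_centralizer_iff.mp hxZ.2 b hb)]; group
    have e3 : b * a * b⁻¹ = c * a := by rw [hc]; group
    rw [e2, e3, comm_mul_right_central hcomm1, hxc, one_mul] at e1
    calc b * ⁅x, a⁆ = (b * ⁅x, a⁆ * b⁻¹) * b := by group
      _ = ⁅x, a⁆ * b := by rw [e1]
  -- `g` on `U`
  have hcU : ∀ {x : G}, x ∈ U → ⁅x, g⁆ ∈ U := by
    intro x hx
    rw [commutatorElement_def]
    have e : x * g * x⁻¹ * g⁻¹ = x * (g * x⁻¹ * g⁻¹) := by group
    rw [e]
    exact U.mul_mem hx (hUn.conj_mem _ (U.inv_mem hx) g)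
  have hcB : ∀ {x : G}, x ∈ U → ⁅x, g⁆ ∈ B := by
    intro x hx
    rw [commutatorElement_def]
    exact B.mul_mem (hconjB hx hg) (B.inv_mem hg)
  have hBB : ⁅B, B⁆ ≤ ZZ B := le_inf (Subgroup.commutator_le_self B) hB.1
  have h2Z : ∀ {x : G}, x ∈ U → ⁅⁅x, g⁆, g⁆ ∈ ZZ B := fun hx =>
    hBB (Subgroup.commutator_mem_commutator (hcB hx) hg)
  have hquad : ∀ S ∈ MI H U V, ∀ u ∈ S, ⁅⁅u, g⁆, g⁆ ∈ V := by
    rintro S ⟨h1, h2, h3, h4, h5⟩ u hu
    have hgS : ∀ {x : G}, x ∈ S → ⁅x, g⁆ ∈ S := by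
      intro x hx
      rw [commutatorElement_def]
      have e : x * g * x⁻¹ * g⁻¹ = x * (g * x⁻¹ * g⁻¹) := by group
      rw [e]
      exact S.mul_mem hx ((Subgroup.mem_normalizer_iff.mp (h4 hgH) _).mp (S.inv_mem hx))
    by_cases hcase : (S ⊓ R) ⊔ V = V
    · have h6 : S ⊓ R ≤ V := sup_eq_right.mp hcase
      refine h6 ⟨hgS (hgS hu), hEZ (h2Z (h2 hu)) (hcU (hcU (h2 hu)))⟩
    · have h6 : (S ⊓ R) ⊔ V = S := by
        refine h5 _ le_sup_right (sup_le inf_le_left h1) hcase ?_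
        intro e he
        apply mem_normalizer_sup
        · intro x hx
          exact Subgroup.mem_sup_left ⟨(Subgroup.mem_normalizer_iff.mp (h4 he) x).mp hx.1,
            (Subgroup.mem_normalizer_iff.mp (hHR he) x).mp hx.2⟩
        · intro x hx
          exact Subgroup.mem_sup_right ((Subgroup.mem_normalizer_iff.mp (hNV e) x).mp hx)
      have h7 : S ≤ R := by
        rw [← h6]
        exact sup_le inf_le_right hVR
      have h8 : ⁅u, g⁆ ∈ ZZ B := by
        rw [← commutatorElement_inv]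
        exact Subgroup.inv_mem _ (hBR2 (Subgroup.commutator_mem_commutator hg (h7 hu)))
      have h9 : ⁅⁅u, g⁆, g⁆ = 1 := by
        rw [commutatorElement_eq_one_iff_mul_comm]
        exact (Subgroup.mem_centralizer_iff.mp h8.2 g hg).symm
      rw [h9]
      exact V.one_mem
  exact quad_zpowers hUn hVn (quad_of_soc hL₀V hVn hUn hlt.le hSoc hquad)

end Lower

section Final

variable {G : Type u} [Group G] [Finite G] {p : ℕ} [hp : Fact p.Prime]

open Subgroup in
/-- The `p'`-elements of the normal closure of a subgroup outside `O_p` do not centralize `A`. -/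
theorem comm_A_ne_bot {L A : Subgroup G} (hAT : A ≤ pCore p G) (hA3 : ⁅pCore p G, A⁆ ≤ ZZ A)
    (hA4 : pCore p G ⊓ Subgroup.centralizer ((A : Subgroup G) : Set G) = ZZ A)
    (hCT : Subgroup.centralizer ((pCore p G : Subgroup G) : Set G) ≤ pCore p G)
    (hLT : ¬ L ≤ pCore p G) : ⁅A, Wp p (Subgroup.normalClosure (L : Set G))⁆ ≠ ⊥ := by
  intro hb
  set W := Subgroup.normalClosure (L : Set G) with hW
  have hWn : W.Normal := Subgroup.normalClosure_normal
  have hTp : IsPGroup p (pCore p G) := isPGroup_pCore p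
  have hWp : IsPGroup p W := by
    refine isPGroup_of_forall_coprime_eq_one fun y hy hyc => ?_
    have hyW : y ∈ Wp p W := mem_Wp hy hyc
    have h1 : ∀ a ∈ A, Commute a y := by
      intro a ha
      have := Subgroup.commutator_mem_commutator ha hyW
      rw [hb, Subgroup.mem_bot, commutatorElement_eq_one_iff_mul_comm] at this
      exact this
    have h2 := commute_of_critical hTp hAT hA3 hA4 inferInstance hyc h1
    have h3 : y ∈ pCore p G := hCT (Subgroup.mem_centralizer_iff.mpr fun t ht => h2 t ht)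
    obtain ⟨j, hj⟩ := hTp ⟨y, h3⟩
    have hj' : y ^ p ^ j = 1 := congrArg Subtype.val hj
    have h5 := Nat.Coprime.eq_one_of_dvd (Nat.Coprime.pow_right j hyc) (orderOf_dvd_of_pow_eq_one hj')
    exact orderOf_eq_one_iff.mp h5
  apply hLT
  exact (Subgroup.le_normalClosure).trans (le_pCore hWn hWp)

theorem Wp_closure (W : Subgroup G) :
    Wp p W = Subgroup.closure {y | y ∈ Wp p W ∧ (orderOf y).Coprime p} := by
  apply le_antisymm
  · exact Subgroup.closure_mono fun y hy => ⟨Subgroup.subset_closure hy, hy.2⟩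
  · exact Subgroup.closure_mono fun y hy => ⟨Wp_le W hy.1, hy.2⟩

/-- The selection. -/
theorem sel2 {L A₀ : Subgroup G} (hA₀n : A₀.Normal) (hA₀T : A₀ ≤ pCore p G)
    (hne : ⁅A₀, Wp p (Subgroup.normalClosure (L : Set G))⁆ ≠ ⊥) :
    ∃ (U V : Subgroup G) (g : G), IsChiefFactor U V ∧ U ≤ A₀ ∧
      ⁅V, Wp p (Subgroup.normalClosure (L : Set G))⁆ = ⊥ ∧
      ¬ ⁅U, Wp p (Subgroup.normalClosure (L : Set G))⁆ ≤ V ∧
      (∀ X : Subgroup G, X.Normal → X ≤ U → X ≠ U → X ≤ V) ∧ g ∈ L ∧ g ∉ pCore p G ∧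
      ¬ ⁅U, Subgroup.zpowers g⁆ ≤ V := by
  have hTp : IsPGroup p (pCore p G) := isPGroup_pCore p
  obtain ⟨U, V, hch, hUA, hVW, hUW, hmax⟩ := exists_chief_sel hA₀n (hTp.to_le hA₀T) (Wp_closure _) hne
  obtain ⟨g, hgL, hg⟩ := exists_elt (L := L) hch.2.1 hch.2.2.1 (Wp_le _) hUW
  refine ⟨U, V, g, hch, hUA, hVW, hUW, hmax, hgL, ?_, hg⟩
  intro hgT
  apply hg
  refine (Subgroup.commutator_mono le_rfl (Subgroup.zpowers_le.mpr hgT)).trans ?_
  exact chief_central hTp hch (hUA.trans hA₀T)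

/-- The element acting quadratically on a chief factor. -/
theorem exists_chief (S : Sylow p G) (A : Subgroup G) (hAn : A.Normal) (hAT : A ≤ pCore p G)
    (hA2 : ⁅A, A⁆ ≤ Subgroup.centralizer ((A : Subgroup G) : Set G)) (hA3 : ⁅pCore p G, A⁆ ≤ ZZ A)
    (hA4 : pCore p G ⊓ Subgroup.centralizer ((A : Subgroup G) : Set G) = ZZ A)
    (hCT : Subgroup.centralizer ((pCore p G : Subgroup G) : Set G) ≤ pCore p G)
    (hK : ¬ (inducedFunctor kInfLower (S : Subgroup G)).Normal ∨ ¬ (inducedFunctor kInfUpper (S : Subgroup G)).Normal) :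
    ∃ g : G, g ∈ (S : Subgroup G) ∧ g ∉ pCore p G ∧ iterCommutator A (Subgroup.zpowers g) 3 ≤ ZZ A ∧
      ⁅⁅ZZ A, Subgroup.zpowers g⁆, Subgroup.zpowers g⁆ = ⊥ ∧
      ∃ U V : Subgroup G, IsChiefFactor U V ∧ U ≤ A ∧
        ⁅⁅U, Subgroup.zpowers g⁆, Subgroup.zpowers g⁆ ≤ V ∧ ¬ ⁅U, Subgroup.zpowers g⁆ ≤ V := by
  classical
  have hTn : (pCore p G).Normal := inferInstance
  have hZAn : (ZZ A).Normal := inferInstance
  have hZA : ZZ A ≤ A := inf_le_left
  -- a general closure for the case where `g` has `[A, g, g] ≤ 1`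
  have hfin : ∀ {g : G} {U V : Subgroup G}, ⁅⁅A, Subgroup.zpowers g⁆, Subgroup.zpowers g⁆ = ⊥ → U ≤ A →
      ⁅⁅U, Subgroup.zpowers g⁆, Subgroup.zpowers g⁆ ≤ V := by
    intro g U V h1 h2
    refine le_trans ?_ (bot_le : ⊥ ≤ V)
    rw [← h1]
    exact Subgroup.commutator_mono (Subgroup.commutator_mono h2 le_rfl) le_rfl
  rcases exists_witness S A hAn hAT hA2 hA3 hK with
    ⟨D, hD, hDS, h1, h2, h3, h4⟩ | ⟨Q, B, hBS, hAQ, hB, hBT⟩ | ⟨Q, B, hBS, hAQ, hB, hBT⟩
  · -- the initial case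
    have hDT : ¬ D ≤ pCore p G := by
      intro h
      apply h4
      rw [Subgroup.commutator_comm]
      exact (Subgroup.commutator_mono h le_rfl).trans hA3
    obtain ⟨U, V, g, hch, hUA, -, -, hmax, hgD, hgT, hg⟩ := sel2 hAn hAT (comm_A_ne_bot hAT hA3 hA4 hCT hDT)
    obtain ⟨-, hg3, hg2⟩ := good_of_init (T := pCore p G) h1 h2 h3 hgD hgT
    refine ⟨g, hDS hgD, hgT, hg3, hg2, U, V, hch, hUA, ?_, hg⟩
    have hgB := zpowers_le_of_mem hgD
    have hDc : ⁅D, D⁆ ≤ Subgroup.centralizer (A : Set G) := by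
      intro x hx
      rw [Subgroup.mem_centralizer_iff]
      intro y hy
      have h6 : ⁅y, x⁆ ∈ ⁅A, ⁅D, D⁆⁆ := Subgroup.commutator_mem_commutator hy hx
      rw [h2, Subgroup.mem_bot, commutatorElement_eq_one_iff_mul_comm] at h6
      exact h6
    have h5 : ⁅A, Subgroup.zpowers g⁆ ≤ D := by
      rw [Subgroup.commutator_le]
      intro b hb k hk
      have hkD := hgB hk
      have h6 := (Subgroup.mem_normalizer_iff.mp (h1 hb) k).mp hkD
      rw [commutatorElement_def]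
      exact D.mul_mem h6 (D.inv_mem hkD)
    have h6 : ⁅⁅A, Subgroup.zpowers g⁆, Subgroup.zpowers g⁆ ≤ ZZ A := by
      refine le_inf ?_ ?_
      · exact (Subgroup.commutator_mono (Subgroup.commutator_le_left A _) le_rfl).trans
          (Subgroup.commutator_le_left A _)
      · exact (Subgroup.commutator_mono h5 hgB).trans hDc
    by_cases hUZ : U ≤ ZZ A
    · refine le_trans ?_ (bot_le : ⊥ ≤ V)
      rw [← hg2]
      exact Subgroup.commutator_mono (Subgroup.commutator_mono hUZ le_rfl) le_rfl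
    · have hUn := hch.2.1
      have h7 : U ⊓ ZZ A ≤ V := hmax _ (Subgroup.normal_inf_normal _ _) inf_le_left
        (fun h => hUZ (inf_eq_left.mp h))
      refine le_trans (le_inf ?_ ?_) h7
      · exact (Subgroup.commutator_mono (Subgroup.commutator_le_left U _) le_rfl).trans
          (Subgroup.commutator_le_left U _)
      · exact (Subgroup.commutator_mono (Subgroup.commutator_mono hUA le_rfl) le_rfl).trans h6
  · -- the lower case
    by_cases hZB : ZZ B ≤ pCore p G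
    · set W₁ := Wp p (Subgroup.normalClosure (B : Set G)) with hW₁
      by_cases hZW : ⁅ZZ A, W₁⁆ = ⊥
      · obtain ⟨U, V, g, hch, hUA, hVW, hUW, hmax, hgB, hgT, hg⟩ :=
          sel2 hAn hAT (comm_A_ne_bot hAT hA3 hA4 hCT hBT)
        obtain ⟨-, hg3, hg2⟩ := good_of_lower (T := pCore p G) hAQ hB hgB hgT
        refine ⟨g, hBS hgB, hgT, hg3, hg2, U, V, hch, hUA, ?_, hg⟩
        exact lower_key hTn hAn hAT hA2 hA3 hAQ hB hZB Subgroup.normalClosure_normal
          Subgroup.le_normalClosure hch hUA hVW hUW hmax hZW hgB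
      · obtain ⟨U, V, g, hch, hUA, hVW, hUW, hmax, hgB, hgT, hg⟩ :=
          sel2 hZAn (hZA.trans hAT) hZW
        obtain ⟨-, hg3, hg2⟩ := good_of_lower (T := pCore p G) hAQ hB hgB hgT
        refine ⟨g, hBS hgB, hgT, hg3, hg2, U, V, hch, hUA.trans hZA, ?_, hg⟩
        have hUn := hch.2.1
        have hUU : ⁅U, U⁆ = ⊥ := by
          rw [eq_bot_iff, ← zz_comm_eq_bot A]
          exact Subgroup.commutator_mono hUA hUA
        have hBU : ⁅B, U⁆ ≤ ZZ B := by
          refine hB.2.2 U ?_ ((hUA.trans hZA).trans hAQ) ?_ ?_ ?_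
          · show ⁅U, U⁆ ≤ _
            rw [hUU]; exact bot_le
          · rw [Subgroup.normalizer_eq_top_iff.mpr hUn]; exact le_top
          · rw [hUU, Subgroup.commutator_bot_right]
          · have h1 : ⁅ZZ B, U⁆ ≤ ZZ A :=
              (Subgroup.commutator_mono hZB (hUA.trans hZA)).trans hA3
            have h2 : ⁅ZZ A, U⁆ = ⊥ := by
              rw [eq_bot_iff, ← zz_comm_eq_bot A]
              exact Subgroup.commutator_mono le_rfl hUA
            rw [eq_bot_iff, ← h2]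
            exact Subgroup.commutator_mono h1 le_rfl
        have h1 : ⁅U, Subgroup.zpowers g⁆ ≤ ZZ B := by
          rw [Subgroup.commutator_comm]
          exact (Subgroup.commutator_mono (zpowers_le_of_mem hgB) le_rfl).trans hBU
        refine le_trans ?_ (bot_le : ⊥ ≤ V)
        rw [← commutator_center_eq_bot B]
        exact Subgroup.commutator_mono h1 (zpowers_le_of_mem hgB)
    · -- `Z(B)` is not in `O_p`
      obtain ⟨U, V, g, hch, hUA, -, -, -, hgB, hgT, hg⟩ := sel2 hAn hAT (comm_A_ne_bot hAT hA3 hA4 hCT hZB)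
      obtain ⟨-, hg3, hg2⟩ := good_of_lower (T := pCore p G) hAQ hB hgB.1 hgT
      refine ⟨g, hBS hgB.1, hgT, hg3, hg2, U, V, hch, hUA, hfin ?_ hUA, hg⟩
      have h1 : ⁅A, Subgroup.zpowers g⁆ ≤ ZZ B := by
        rw [Subgroup.commutator_le]
        intro a ha h hh
        have hhZ := zpowers_le_of_mem hgB hh
        have hN : a ∈ Subgroup.normalizer ((ZZ B : Subgroup G) : Set G) := by
          apply Cfsg.Agent.Lib.Replacement.mem_normalizer_of_forall
          rintro z ⟨hz1, hz2⟩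
          refine ⟨(Subgroup.mem_normalizer_iff.mp (hB.2.1 (hAQ ha)) z).mp hz1, ?_⟩
          show a * z * a⁻¹ ∈ Subgroup.centralizer (B : Set G)
          rw [Subgroup.mem_centralizer_iff]
          intro b hb
          have hb' : a⁻¹ * b * a ∈ B := by
            have := (Subgroup.mem_normalizer_iff.mp (Subgroup.inv_mem _ (hB.2.1 (hAQ ha))) b).mp hb
            simpa using this
          have h2 := Subgroup.mem_centralizer_iff.mp hz2 _ hb'
          calc b * (a * z * a⁻¹) = a * ((a⁻¹ * b * a) * z) * a⁻¹ := by group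
            _ = a * (z * (a⁻¹ * b * a)) * a⁻¹ := by rw [h2]
            _ = a * z * a⁻¹ * b := by group
        have h2 := (Subgroup.mem_normalizer_iff.mp hN h).mp hhZ
        rw [commutatorElement_def]
        exact (ZZ B).mul_mem h2 ((ZZ B).inv_mem hhZ)
      rw [eq_bot_iff, ← commutator_center_eq_bot B]
      exact Subgroup.commutator_mono h1 ((zpowers_le_of_mem hgB).trans inf_le_left)
  · -- the upper case
    obtain ⟨U, V, g, hch, hUA, -, -, -, hgB, hgT, hg⟩ := sel2 hAn hAT (comm_A_ne_bot hAT hA3 hA4 hCT hBT)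
    obtain ⟨-, hg3, hg2⟩ := good_of_upper (T := pCore p G) hAQ hB hgB hgT
    refine ⟨g, hBS hgB, hgT, hg3, hg2, U, V, hch, hUA, hfin ?_ hUA, hg⟩
    have hgB' := zpowers_le_of_mem hgB
    have h1 : ⁅A, Subgroup.zpowers g⁆ ≤ B ⊓ Subgroup.centralizer (B : Set G) := by
      rw [Subgroup.commutator_comm]
      exact (Subgroup.commutator_mono hgB' hAQ).trans hB.2
    rw [eq_bot_iff]
    refine (Subgroup.commutator_mono h1 hgB').trans ?_
    rw [commutator_center_eq_bot]

/-- A chief factor with a quadratic non-central element gives a non-stable quotient. -/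
theorem not_stable_of_chief {U V : Subgroup G} (hch : IsChiefFactor U V) (hUp : IsPGroup p U) {g : G}
    (h1 : ⁅⁅U, Subgroup.zpowers g⁆, Subgroup.zpowers g⁆ ≤ V) (h2 : ¬ ⁅U, Subgroup.zpowers g⁆ ≤ V) :
    ∃ (N : Subgroup G) (_ : N.Normal), ¬ IsNormalizerPStable p (G ⧸ N) := by
  classical
  obtain ⟨hlt, hUn, hVn, hmin⟩ := hch
  refine ⟨V, hVn, fun hst => ?_⟩
  set q := QuotientGroup.mk' V with hq
  have hq1 : ∀ x, q x = 1 ↔ x ∈ V := fun x => QuotientGroup.eq_one_iff x
  have hqs : Function.Surjective q := QuotientGroup.mk'_surjective V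
  set P := U.map q with hP
  have hPn : P.Normal := hUn.map q hqs
  have hPp : IsPGroup p P := hUp.map q
  have hNtop : ∀ y : G ⧸ V, y ∈ Subgroup.normalizer (P : Set (G ⧸ V)) := fun y => by
    rw [Subgroup.normalizer_eq_top_iff.mpr hPn]; trivial
  have hquad : ⁅⁅P, Subgroup.zpowers (q g)⁆, Subgroup.zpowers (q g)⁆ = ⊥ := by
    rw [hP, ← MonoidHom.map_zpowers, ← Subgroup.map_commutator, ← Subgroup.map_commutator,
      Subgroup.map_eq_bot_iff]
    rw [QuotientGroup.ker_mk']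
    exact h1
  have hmem := hst P hPp (q g) (hNtop _) hquad
  set N₁ := Subgroup.normalizer (P : Set (G ⧸ V)) with hN₁
  set C₁ := (Subgroup.centralizer (P : Set (G ⧸ V))).subgroupOf N₁ with hC₁
  have hC₁n : C₁.Normal := by
    have : (Subgroup.centralizer (P : Set (G ⧸ V))).Normal := Subgroup.normal_centralizer
    infer_instance
  set O := pCore p (↥N₁ ⧸ C₁) with hO
  set Dt := O.comap (QuotientGroup.mk' C₁) with hDt
  have hDtn : Dt.Normal := inferInstance
  set Db := Dt.map N₁.subtype with hDb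
  have hDbn : Db.Normal := by
    constructor
    rintro _ ⟨d, hd, rfl⟩ y
    refine ⟨⟨y, hNtop y⟩ * d * ⟨y, hNtop y⟩⁻¹, hDtn.conj_mem d hd _, rfl⟩
  have hgDb : q g ∈ Db := ⟨⟨q g, hNtop _⟩, hmem, rfl⟩
  -- the action on `P`
  set φ : (G ⧸ V) →* MulAut ↥P := MulAut.conjNormal with hφ
  have hφa : ∀ (y : G ⧸ V) (w : ↥P), ((φ y w : ↥P) : G ⧸ V) = y * w * y⁻¹ :=
    fun y w => MulAut.conjNormal_apply y w
  have hΓ : IsPGroup p ↥(Db.map φ) := by
    rintro ⟨_, d, ⟨dt, hdt, rfl⟩, rfl⟩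
    obtain ⟨n, hn⟩ := (isPGroup_pCore p : IsPGroup p O) ⟨_, hdt⟩
    refine ⟨n, Subtype.ext ?_⟩
    have h3 : ((QuotientGroup.mk' C₁ dt) ^ p ^ n) = 1 := congrArg Subtype.val hn
    rw [← map_pow] at h3
    have h3' : dt ^ p ^ n ∈ C₁ := (QuotientGroup.eq_one_iff _).mp h3
    have h4 : (dt : G ⧸ V) ^ p ^ n ∈ Subgroup.centralizer (P : Set (G ⧸ V)) := by
      have := h3'
      rw [Subgroup.mem_subgroupOf] at this
      simpa using this
    show φ ((dt : G ⧸ V)) ^ p ^ n = 1
    rw [← map_pow]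
    ext w
    rw [hφa]
    have := Subgroup.mem_centralizer_iff.mp h4 w w.2
    simp only [MulAut.one_apply]
    rw [← this]
    group
  have hPne : P ≠ ⊥ := by
    intro h
    obtain ⟨u, hu, huV⟩ := SetLike.exists_of_lt hlt
    have h3 : q u ∈ P := ⟨u, hu, rfl⟩
    rw [h, Subgroup.mem_bot] at h3
    exact huV ((hq1 u).mp h3)
  have hdvd : p ∣ Nat.card ↥P := by
    obtain ⟨k, hk⟩ := IsPGroup.iff_card.mp hPp
    rw [hk]
    rcases Nat.eq_zero_or_pos k with rfl | hpos
    · exfalso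
      rw [pow_zero] at hk
      exact hPne (Subgroup.card_eq_one.mp hk)
    · exact dvd_pow_self p hpos.ne'
  have hone : (1 : ↥P) ∈ MulAction.fixedPoints ↥(Db.map φ) ↥P := by
    rw [MulAction.mem_fixedPoints]
    intro γ
    exact map_one (γ : MulAut ↥P)
  obtain ⟨b, hb, hne1⟩ := hΓ.exists_fixed_point_of_prime_dvd_card_of_fixed_point (↥P) hdvd hone
  rw [MulAction.mem_fixedPoints] at hb
  have hbD : ∀ d ∈ Db, d * (b : G ⧸ V) = b * d := by
    intro d hd
    have h3 := hb ⟨φ d, d, hd, rfl⟩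
    have h4 : ((φ d b : ↥P) : G ⧸ V) = b := congrArg Subtype.val h3
    rw [hφa] at h4
    calc d * (b : G ⧸ V) = (d * b * d⁻¹) * d := by group
      _ = b * d := by rw [h4]
  -- pull back
  have hCDn : (Subgroup.centralizer (Db : Set (G ⧸ V))).Normal := Subgroup.normal_centralizer
  set F := (P ⊓ Subgroup.centralizer (Db : Set (G ⧸ V))).comap q with hF
  have hFn : F.Normal := by
    have : (P ⊓ Subgroup.centralizer (Db : Set (G ⧸ V))).Normal := Subgroup.normal_inf_normal _ _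
    infer_instance
  have hVF : V ≤ F := by
    intro v hv
    rw [hF, Subgroup.mem_comap, (hq1 v).mpr hv]
    exact Subgroup.one_mem _
  have hFU : F ≤ U := by
    intro x hx
    obtain ⟨u, hu, hux⟩ := hx.1
    have h3 : u⁻¹ * x ∈ V := by
      rw [← hq1, map_mul, map_inv, hux]; group
    have h4 : x = u * (u⁻¹ * x) := by group
    rw [h4]
    exact U.mul_mem hu (hlt.le h3)
  have hFne : F ≠ V := by
    intro h
    obtain ⟨x, hx⟩ := hqs (b : G ⧸ V)
    have h3 : x ∈ F := by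
      rw [hF, Subgroup.mem_comap, hx]
      refine ⟨b.2, Subgroup.mem_centralizer_iff.mpr fun d hd => hbD d hd⟩
    rw [h] at h3
    apply hne1
    apply Subtype.ext
    rw [← hx]
    exact ((hq1 x).mpr h3).symm
  have hFeq : F = U := (hmin F hFn hVF hFU).resolve_left hFne
  apply h2
  have hVg : ∀ k : ℤ, ∀ y ∈ V, g ^ k * y * (g ^ k)⁻¹ ∈ V := fun k y hy => hVn.conj_mem y hy _
  refine commutator_zpowers_le (fun y hy => by simpa using hVg 1 y hy)
    (fun y hy => by simpa using hVg (-1) y hy) ?_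
  intro u hu
  rw [← hFeq] at hu
  have h3 := Subgroup.mem_centralizer_iff.mp hu.2 (q g) hgDb
  rw [← hq1, map_commutatorElement, commutatorElement_eq_one_iff_mul_comm]
  exact h3.symm

end Final

end Cfsg.Agent.Lib.KInfChief
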