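import Mathlib
import Cfsg.Agent.Lib.KInfStable
import Cfsg.Agent.Lib.FusionRed
import Cfsg.Agent.Lib.QdNotStable

/-!
# The K-infinity subgroups control strong fusion when all sections are stable
-/

set_option autoImplicit false

namespace Cfsg.Agent.Lib.KInfControl

open Cfsg Cfsg.Agent.Lib.SecFunctor Cfsg.Agent.Lib.TransferRed Cfsg.Agent.Lib.PCore Cfsg.Agent.Lib.FusionRed
open Cfsg.Agent.Lib.CtrlChain Cfsg.Agent.Lib.CtrlChainMain Cfsg.Agent.Lib.KInfStable Cfsg.Agent.Lib.KInf

universe u

variable {p : ℕ} [hp : Fact p.Prime]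

/-- Stability of all sections passes to sections. -/
theorem stAll_of_involves {G X : Type u} [Group G] [Group X] [Finite G] (hst : StAll p G) (hX : Involves X G) :
    StAll p X := by
  intro K' R' _
  have h : Involves (↥K' ⧸ R'.subgroupOf K') G := involves_trans hX (involves_section K' R')
  obtain ⟨K, R, hR, ⟨e⟩⟩ := h
  haveI := hR
  haveI : Finite (↥K ⧸ R.subgroupOf K) := inferInstance
  haveI : Finite (↥K' ⧸ R'.subgroupOf K') := Finite.of_equiv _ e.toEquiv
  exact Cfsg.Agent.Lib.QdNotStable.stable_congr e (hst K R)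

/-- **Control of strong fusion.** -/
theorem control_of_stAll {G : Type u} [Group G] [Finite G] (hst : StAll p G)
    (W : ∀ (Q : Type u) [Group Q], Subgroup Q) (hWW : W = kInfLower ∨ W = kInfUpper) (S : Sylow p G) :
    ControlsStrongFusion p (inducedFunctor W (S : Subgroup G)) := by
  have hW : IsCharPFunctor.{u} p W := by
    rcases hWW with rfl | rfl
    · exact isCharPFunctor_kInfLower
    · exact isCharPFunctor_kInfUpper
  have h𝓦 : ∀ W' ∈ ({W} : Set (∀ (Q : Type u) [Group Q], Subgroup Q)), IsCharPFunctor.{u} p W' := by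
    intro W' hW'
    rw [Set.mem_singleton_iff] at hW'
    rw [hW']
    exact hW
  have main : ∀ (X : Type u) [Group X] [Finite X], Involves X G → FS {W} p X := by
    refine fs_of_sec h𝓦 (Sec := fun X _ => Involves X G) ?_ ?_ ?_
    · intro X _ Y hX
      exact involves_trans hX (involves_subgroup Y)
    · intro X _ M _ hX
      exact involves_trans hX (involves_quotient M)
    · intro X _ _ hX hC T A h hA hAh
      have hN : (inducedFunctor W (T : Subgroup X)).Normal := by
        have := normal_kInf (stAll_of_involves hst hX) hC T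
        rcases hWW with rfl | rfl
        · exact this.1
        · exact this.2
      have hh : h ∈ Subgroup.normalizer ((inducedFunctor W (T : Subgroup X) : Subgroup X) : Set X) := by
        rw [Subgroup.normalizer_eq_top_iff.mpr hN]; trivial
      have hmem : inducedFunctor (G := X) W ∈ fam {W} X := ⟨W, rfl, rfl⟩
      exact Ctrl.step hmem ⟨Subgroup.mem_top _, hh⟩ hA hAh
  have hfs := main G involves_refl
  refine ⟨S, Subgroup.map_subtype_le _, fun A hA => ⟨hA, fun g hg => ?_⟩⟩
  obtain ⟨c, hc, hca⟩ := hfs S A g hA (fun a ha => hg ⟨a, ha, rfl⟩)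
  refine ⟨c, ?_, fun a ha => (hca a ha).symm⟩
  clear hca
  induction hc with
  | refl _ => exact Subgroup.one_mem _
  | step W₁ hW₁ hs _ _ ih =>
    obtain ⟨W₂, hW₂, rfl⟩ := hW₁
    rw [Set.mem_singleton_iff] at hW₂
    subst hW₂
    exact Subgroup.mul_mem _ hs.2 ih

end Cfsg.Agent.Lib.KInfControl
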