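import Mathlib
import Cfsg.Agent.Lib.KKTensor

/-!
# The Higman–Kreknin–Kostrikin theorem up to bounded `p`-torsion

If `f` is an automorphism of a Lie ring `L` with `f ^ p = 1`, and `p ^ n • (1 + f + ⋯ + f^{p-1}) = 0`, then
`p ^ ((n + 2) * (h + 1))` kills the `h`-th term of the lower central series, `h = ∑_{i<2^(p-1)-1} (p-1)^i`.
-/

set_option autoImplicit false
set_option linter.unusedSectionVars false
set_option linter.unusedVariables false
set_option linter.style.haveILetI false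

namespace Cfsg.Agent.Lib.KKTorsion

open Polynomial TensorProduct
open Cfsg.Agent.Lib.KKGraded Cfsg.Agent.Lib.KKTensor

section Eigen

variable {T R : Type*} [CommRing R] [LieRing T] [LieAlgebra R T] {p : ℕ} [hp : Fact p.Prime]

/-- The multiples by `p ^ a` of the eigenspaces. -/
def Sc (φ : T →ₗ[R] T) (ζ : R) (a : ℕ) (i : ZMod p) : AddSubgroup T :=
  (Eig φ ζ i).map (nsmulAddMonoidHom (p ^ a))

theorem mem_Sc {φ : T →ₗ[R] T} {ζ : R} {a : ℕ} {i : ZMod p} {x : T} (hx : x ∈ Eig φ ζ i) :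
    p ^ a • x ∈ Sc φ ζ a i :=
  AddSubgroup.mem_map_of_mem _ hx

theorem Sc_closed (φ : T →ₗ[R] T) (hφ : ∀ x y, φ ⁅x, y⁆ = ⁅φ x, φ y⁆) {ζ : R} (hζ : ζ ^ p = 1) (a : ℕ) :
    Closed (Sc φ ζ a : ZMod p → AddSubgroup T) := by
  refine Br_le ?_
  intro i j x y hx hy
  obtain ⟨u, hu, rfl⟩ := AddSubgroup.mem_map.1 hx
  obtain ⟨v, hv, rfl⟩ := AddSubgroup.mem_map.1 hy
  have h1 : ⁅u, v⁆ ∈ Eig φ ζ (i + j) := (Eig_closed φ hφ hζ) _ (mem_Br hu hv)
  have e : ⁅nsmulAddMonoidHom (p ^ a) u, nsmulAddMonoidHom (p ^ a) v⁆ = p ^ a • (p ^ a • ⁅u, v⁆) := by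
    simp [nsmul_lie, lie_nsmul]
  rw [e]
  exact mem_Sc (nsmul_mem h1 _)

theorem Sc_zero (φ : T →ₗ[R] T) (ζ : R) (n : ℕ)
    (hN : ∀ x : T, p ^ n • ∑ i ∈ Finset.range p, (φ ^ i) x = 0) :
    (Sc φ ζ (n + 1) (0 : ZMod p) : AddSubgroup T) = ⊥ := by
  refine le_bot_iff.1 ?_
  intro y hy
  obtain ⟨x, hx, rfl⟩ := AddSubgroup.mem_map.1 hy
  have hx' : φ x = ζ ^ (0 : ZMod p).val • x := hx
  simp only [ZMod.val_zero, pow_zero, one_smul] at hx'
  have h1 : ∀ i : ℕ, (φ ^ i) x = x := by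
    intro i
    induction i with
    | zero => simp
    | succ i ih => rw [pow_succ, Module.End.mul_apply, hx', ih]
  have h2 := hN x
  simp only [h1, Finset.sum_const, Finset.card_range] at h2
  rw [AddSubgroup.mem_bot]
  show p ^ (n + 1) • x = 0
  rw [pow_succ, mul_smul, h2]

theorem sum_proj' (φ : T →ₗ[R] T) {ζ : R} (p' : ℤ)
    (hsum : ∀ i, 0 < i → i < p → ∑ k : ZMod p, (ζ ^ ((p - 1) * k.val)) ^ i = 0) (x : T) :
    ∑ k : ZMod p, proj φ ζ p' k x = (p' * p) • x := by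
  unfold proj
  rw [← Finset.smul_sum, Finset.sum_comm]
  have e : ∀ i ∈ Finset.range p, ∑ k : ZMod p, (ζ ^ ((p - 1) * k.val)) ^ i • (φ ^ i) x
      = if i = 0 then (p : ℤ) • x else 0 := by
    intro i hi
    rw [← Finset.sum_smul]
    split_ifs with h0
    · subst h0
      simp only [pow_zero, Finset.sum_const, Finset.card_univ, ZMod.card, nsmul_eq_mul, mul_one]
      rw [natCast_zsmul]
      exact Nat.cast_smul_eq_nsmul R p x
    · rw [hsum i (Nat.pos_of_ne_zero h0) (Finset.mem_range.1 hi), zero_smul]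
  rw [Finset.sum_congr rfl e, Finset.sum_ite_eq' (Finset.range p) 0]
  rw [if_pos (Finset.mem_range.2 hp.out.pos), ← mul_smul]

theorem mem_iSup_Sc (φ : T →ₗ[R] T) {ζ : R} (hζ : ζ ^ p = 1) (a : ℕ) (hφp : φ ^ p = 1)
    (hsum : ∀ i, 0 < i → i < p → ∑ k : ZMod p, (ζ ^ ((p - 1) * k.val)) ^ i = 0) (x : T) :
    p ^ (a + 1) • x ∈ ⨆ k : ZMod p, Sc φ ζ a k := by
  have h := sum_proj' φ 1 hsum x
  have e : p ^ (a + 1) • x = ∑ k : ZMod p, p ^ a • proj φ ζ 1 k x := by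
    rw [← Finset.smul_sum, h, pow_succ, mul_smul]
    simp [natCast_zsmul]
  rw [e]
  exact sum_mem fun k _ => AddSubgroup.mem_iSup_of_mem k (mem_Sc (proj_mem φ hζ 1 hφp k x))

theorem scaled_mem_iSup (φ : T →ₗ[R] T) {ζ : R} (hζ : ζ ^ p = 1) (a : ℕ) (hφp : φ ^ p = 1)
    (hsum : ∀ i, 0 < i → i < p → ∑ k : ZMod p, (ζ ^ ((p - 1) * k.val)) ^ i = 0) (k : ℕ) {x : T} (hx : x ∈ Lcs T k) :
    p ^ ((a + 1) * (k + 1)) • x ∈ ⨆ i : ZMod p, Lc (Sc φ ζ a) k i := by
  induction k generalizing x with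
  | zero =>
    have := mem_iSup_Sc φ hζ a hφp hsum x
    simpa [Lc_zero] using this
  | succ k ih =>
    induction hx using AddSubgroup.closure_induction with
    | mem z hz =>
      obtain ⟨u, hu, v, rfl⟩ := hz
      have h1 := ih hu
      have h2 := mem_iSup_Sc φ hζ a hφp hsum v
      have h3 := lie_mem_iSup h1 h2
      rw [← Lc_succ] at h3
      have e : p ^ ((a + 1) * (k + 1 + 1)) • ⁅u, v⁆ = ⁅p ^ ((a + 1) * (k + 1)) • u, p ^ (a + 1) • v⁆ := by
        rw [nsmul_lie, lie_nsmul, smul_smul, ← pow_add]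
        congr 2
      rw [e]
      exact h3
    | zero => simp
    | add u v _ _ hu hv =>
      rw [smul_add]
      exact add_mem hu hv
    | neg u _ hu =>
      rw [smul_neg]
      exact neg_mem hu

end Eigen

section Tensor

variable {L : Type*} [LieRing L] {p : ℕ} [hp : Fact p.Prime]

theorem phi_N' (f : L →+ L) (n : ℕ) (hN : ∀ x, p ^ n • ∑ i ∈ Finset.range p, f^[i] x = 0) (x : (Rp p) ⊗[ℤ] L) :
    p ^ n • ∑ i ∈ Finset.range p, ((phi f) ^ i) x = 0 := by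
  induction x using TensorProduct.induction_on with
  | zero => simp
  | add a b ha hb => simp only [map_add, Finset.sum_add_distrib, smul_add, ha, hb, add_zero]
  | tmul r a =>
    simp only [phi_pow_tmul, ← TensorProduct.tmul_sum]
    rw [← TensorProduct.tmul_smul, hN, TensorProduct.tmul_zero]

/-- **The Higman–Kreknin–Kostrikin theorem up to torsion.** -/
theorem lcs_torsion (f : L →+ L) (hf : ∀ x y, f ⁅x, y⁆ = ⁅f x, f y⁆) (hfp : ∀ x, f^[p] x = x) (n : ℕ)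
    (hN : ∀ x, p ^ n • ∑ i ∈ Finset.range p, f^[i] x = 0) {x : L}
    (hx : x ∈ Lcs L (∑ i ∈ Finset.range (2 ^ (p - 1) - 1), (p - 1) ^ i)) :
    p ^ ((n + 2) * ((∑ i ∈ Finset.range (2 ^ (p - 1) - 1), (p - 1) ^ i) + 1)) • x = 0 := by
  set h := ∑ i ∈ Finset.range (2 ^ (p - 1) - 1), (p - 1) ^ i with hh
  have hζ : (AdjoinRoot.root (cyclotomic p ℤ)) ^ p = 1 := zeta_pow
  have hcl := Sc_closed (phi f) (phi_lie f hf) hζ (n + 1)
  have hz := Sc_zero (phi f) (AdjoinRoot.root (cyclotomic p ℤ)) n (phi_N' f n hN)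
  have h1 := hkk hcl hz
  have h2 := scaled_mem_iSup (phi f) hζ (n + 1) (phi_pow f hfp) zeta_sum h (one_tmul_lcs (p := p) h hx)
  simp only [← hh] at h1
  simp only [h1, iSup_bot, AddSubgroup.mem_bot] at h2
  haveI : Module.Free ℤ (Rp p) := Rp_free
  haveI : IsDomain (Rp p) := Rp_isDomain
  refine Module.FaithfullyFlat.tensorProduct_mk_injective (A := ℤ) (B := Rp p) L ?_
  rw [map_zero]
  rw [← h2]
  simp only [TensorProduct.mk_apply]
  rw [TensorProduct.tmul_smul]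

end Tensor

end Cfsg.Agent.Lib.KKTorsion
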