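import Mathlib
import Cfsg.Prelude.Def_Characters
import Cfsg.Agent.Lib.CharCentral
import Cfsg.Agent.Lib.CharWeight
import Cfsg.Agent.Lib.GalAmgm
import Cfsg.Agent.Lib.CharInd
import Cfsg.Agent.Lib.CharAvg

/-!
# A criterion for `k(GV) ≤ |V|`

If `X = V ⋊ G` with `V` abelian normal of exponent `p`, `|G|` prime to `p`, `v ∈ V`,
`A = C_G(v)`, and there is a function `y` on `A` which is a combination of characters of `A`
with coefficients (integer)·(`p`-th root of unity), which becomes an integer (prime to `p`) multiple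
of the indicator of `1` when the roots of unity are replaced by `1`, and with
`‖y a‖² |C_V(a)| ≤ |V|`, then `k(X) ≤ |V|`.
-/

set_option autoImplicit false

namespace Cfsg.Agent.Lib.KMain

open Cfsg Cfsg.Agent.Lib.CharBasic Cfsg.Agent.Lib.CharInd Cfsg.Agent.Lib.CharKernel
open scoped ComplexConjugate

universe u v

/-- Frobenius in a commutative ring, on a finite sum, modulo `p`. -/
lemma exists_sum_pow' {R : Type*} [CommRing R] {p : ℕ} (hp : p.Prime) {ι : Type*} (s : Finset ι)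
    (f : ι → R) : ∃ r : R, (∑ i ∈ s, f i) ^ p = ∑ i ∈ s, f i ^ p + p * r := by
  classical
  induction s using Finset.induction_on with
  | empty =>
    refine ⟨0, ?_⟩
    simp only [Finset.sum_empty, mul_zero, add_zero]
    exact zero_pow hp.ne_zero
  | insert i s hi ih =>
    obtain ⟨r, hr⟩ := ih
    obtain ⟨r', hr'⟩ := exists_add_pow_prime_eq hp (f i) (∑ i ∈ s, f i)
    refine ⟨r + f i * (∑ i ∈ s, f i) * r', ?_⟩
    rw [Finset.sum_insert hi, Finset.sum_insert hi, hr', hr]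
    ring

/-- A rational integer divisible by `p` among the algebraic integers is divisible by `p`. -/
lemma dvd_of_integral_int {p : ℕ} (hp : p.Prime) {m : ℤ} {r : ℂ} (hr : IsIntegral ℤ r)
    (h : (m : ℂ) = p * r) : (p : ℤ) ∣ m := by
  have hp0 : (p : ℂ) ≠ 0 := by exact_mod_cast hp.ne_zero
  have hr' : r = (((m : ℚ) / (p : ℚ) : ℚ) : ℂ) := by
    push_cast
    rw [h]
    field_simp
  rw [hr'] at hr
  have h1 : IsIntegral ℤ ((m : ℚ) / (p : ℚ) : ℚ) := by
    have := (isIntegral_algebraMap_iff (R := ℤ) (A := ℚ) (B := ℂ)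
      (x := (m : ℚ) / (p : ℚ)) (algebraMap ℚ ℂ).injective).1 (by simpa using hr)
    exact this
  obtain ⟨z, hz⟩ := IsIntegrallyClosed.isIntegral_iff.1 h1
  have hp0' : (p : ℚ) ≠ 0 := by exact_mod_cast hp.ne_zero
  have h2 : (m : ℚ) = (p : ℚ) * z := by
    have : ((z : ℤ) : ℚ) = (m : ℚ) / (p : ℚ) := by simpa using hz
    rw [this]
    field_simp
  have h3 : m = (p : ℤ) * z := by exact_mod_cast h2
  exact ⟨z, h3⟩

theorem isIntegral_of_pow_one {p : ℕ} (hp : p.Prime) {ξ : ℂ} (h : ξ ^ p = 1) : IsIntegral ℤ ξ := by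
  refine IsIntegral.of_pow hp.pos ?_
  rw [h]
  exact isIntegral_one

/-- A sum `∑ N j ξ j` with `ξ j` `p`-th roots of unity and `p ∤ ∑ N j` doesn't vanish. -/
theorem sum_ne_zero {p : ℕ} (hp : p.Prime) {J : Type*} [Fintype J] (N : J → ℤ) (ξ : J → ℂ)
    (hξ : ∀ j, ξ j ^ p = 1) (hN : ¬ (p : ℤ) ∣ ∑ j, N j) : ∑ j, (N j : ℂ) * ξ j ≠ 0 := by
  classical
  haveI : Fact p.Prime := ⟨hp⟩
  intro h0
  have hint : ∀ j, IsIntegral ℤ ((N j : ℂ) * ξ j) := fun j =>
    (isIntegral_algebraMap (R := ℤ) (x := N j) |>.mul (isIntegral_of_pow_one hp (hξ j)) : _)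
  let f : J → AlgInt := fun j => ⟨(N j : ℂ) * ξ j, hint j⟩
  obtain ⟨r, hr⟩ := exists_sum_pow' hp Finset.univ f
  have hr' := congrArg (fun z : AlgInt => (z : ℂ)) hr
  simp only [f] at hr'
  push_cast at hr'
  rw [h0, zero_pow hp.ne_zero] at hr'
  have h1 : ∀ j, ((N j : ℂ) * ξ j) ^ p = ((N j ^ p : ℤ) : ℂ) := by
    intro j
    rw [mul_pow, hξ j, mul_one]
    push_cast
    rfl
  simp only [h1] at hr'
  have h2 : ((∑ j, N j ^ p : ℤ) : ℂ) = p * (-(r : ℂ)) := by
    push_cast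
    push_cast at hr'
    linear_combination -hr'
  have h3 := dvd_of_integral_int hp (r.2.neg) h2
  apply hN
  rw [← ZMod.intCast_zmod_eq_zero_iff_dvd, ] at h3 ⊢
  push_cast at h3 ⊢
  simpa [ZMod.pow_card] using h3

section Coeff

variable {X : Type u} [Group X] [Finite X] {p : ℕ}

/-- The coefficient `c_χ` is an integer combination of `p`-th roots of unity. -/
theorem coeff_form (v : X) (hvp : v ^ p = 1) (A : Subgroup X) [Fintype A]
    (hAC : ∀ a ∈ A, a * v = v * a) {ι : Type v} [Fintype ι] (n : ι → ℤ) (z : ι → ℂ)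
    (hz : ∀ i, z i ^ p = 1) (ψ : ι → A → ℂ) (hψ : ∀ i, IsCharacter A (ψ i)) (u : ℤ) (y : A → ℂ)
    (hy : ∀ a, y a = ∑ i, (n i : ℂ) * z i * ψ i a)
    (hy1 : ∑ i, (n i : ℂ) * ψ i 1 = u) (hy0 : ∀ a, a ≠ 1 → ∑ i, (n i : ℂ) * ψ i a = 0)
    (χ : X → ℂ) (hχ : IsCharacter X χ) :
    ∃ (J : Type (max u v)) (_ : Fintype J) (N : J → ℤ) (ξ : J → ℂ), (∀ j, ξ j ^ p = 1) ∧
      ((Nat.card A : ℂ)⁻¹ * ∑ a : A, χ (v * a) * conj (y a) = ∑ j, (N j : ℂ) * ξ j) ∧
      ((Nat.card A : ℂ) * ∑ j, (N j : ℂ) = χ 1 * u) := by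
  classical
  let C : Subgroup X := Subgroup.centralizer ({v} : Set X)
  have hvC : v ∈ C := Subgroup.mem_centralizer_singleton_iff.2 rfl
  let vC : C := ⟨v, hvC⟩
  have hcent : ∀ g : C, vC * g = g * vC := fun g =>
    Subtype.ext (Subgroup.mem_centralizer_singleton_iff.1 g.2).symm
  have hAleC : A ≤ C := fun a ha => Subgroup.mem_centralizer_singleton_iff.2 (hAC a ha)
  let incl : A →* C := Subgroup.inclusion hAleC
  have hχC : IsCharacter C (fun g : C => χ g) := isCharacter_restrict C hχ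
  obtain ⟨m, hm⟩ := exists_nat_decomp hχC
  have hmapp : ∀ g : C, χ g = ∑ θ : IrrCharacter C, (m θ : ℂ) * (θ : C → ℂ) g := by
    intro g
    have := congrFun hm g
    simpa [Finset.sum_apply] using this
  let τ : IrrCharacter C → ℂ := fun θ => (θ : C → ℂ) vC / (θ : C → ℂ) 1
  have hθ1 : ∀ θ : IrrCharacter C, (θ : C → ℂ) 1 ≠ 0 := fun θ =>
    Cfsg.Agent.Lib.CharAvg.irr_one_ne_zero θ.2
  have hτmul : ∀ (θ : IrrCharacter C) (g : C), (θ : C → ℂ) (vC * g) = τ θ * (θ : C → ℂ) g := by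
    intro θ g
    have := Cfsg.Agent.Lib.CharCentral.central_mul θ.2 hcent g
    simp only [τ]
    field_simp [hθ1 θ]
    linear_combination this
  have hτpow : ∀ (θ : IrrCharacter C) (k : ℕ) (g : C),
      (θ : C → ℂ) (vC ^ k * g) = τ θ ^ k * (θ : C → ℂ) g := by
    intro θ k g
    induction k with
    | zero => simp
    | succ k ih =>
      rw [pow_succ', mul_assoc, hτmul, ih, pow_succ']
      ring
  have hτp : ∀ θ : IrrCharacter C, τ θ ^ p = 1 := by
    intro θ
    have h1 : vC ^ p = 1 := Subtype.ext (by simpa [vC] using hvp)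
    have h2 := hτpow θ p 1
    rw [h1, mul_one] at h2
    have h3 := hθ1 θ
    field_simp at h2
    exact h2.symm
  have hd : ∀ (θ : IrrCharacter C) (i : ι), ∃ d : ℕ,
      classInner (fun a : A => (θ : C → ℂ) (incl a)) (ψ i) = d := fun θ i =>
    classInner_char_char (isCharacter_comp incl (IsIrrCharacter.isCharacter θ.2)) (hψ i)
  choose d hd using hd
  have hA0 : (Nat.card A : ℂ) ≠ 0 := by exact_mod_cast Nat.card_pos.ne'
  have hsumθ : ∀ (θ : IrrCharacter C) (i : ι),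
      ∑ a : A, (θ : C → ℂ) (incl a) * conj (ψ i a) = (Nat.card A : ℂ) * d θ i := by
    intro θ i
    rw [← hd θ i, classInner, mul_inv_cancel_left₀ hA0]
  have hval : ∀ a : A, χ (v * a) =
      ∑ θ : IrrCharacter C, (m θ : ℂ) * (τ θ * (θ : C → ℂ) (incl a)) := by
    intro a
    have h1 := hmapp (vC * incl a)
    have h2 : ((vC * incl a : C) : X) = v * a := rfl
    rw [h2] at h1
    rw [h1]
    refine Finset.sum_congr rfl fun θ _ => ?_
    rw [hτmul]
  have hconj : ∀ a : A, conj (y a) = ∑ i, (n i : ℂ) * conj (z i) * conj (ψ i a) := by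
    intro a
    rw [hy, map_sum]
    refine Finset.sum_congr rfl fun i _ => ?_
    simp
  refine ⟨IrrCharacter C × ι, inferInstance, fun x => m x.1 * n x.2 * d x.1 x.2,
    fun x => τ x.1 * conj (z x.2), ?_, ?_, ?_⟩
  · rintro ⟨θ, i⟩
    rw [mul_pow, hτp, one_mul, ← map_pow, hz, map_one]
  · have h1 : ∑ a : A, χ (v * a) * conj (y a) =
        ∑ θ : IrrCharacter C, ∑ i, (m θ : ℂ) * τ θ * ((n i : ℂ) * conj (z i)) *
          ∑ a : A, (θ : C → ℂ) (incl a) * conj (ψ i a) := by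
      have : ∀ a : A, χ (v * a) * conj (y a) =
          ∑ θ : IrrCharacter C, ∑ i, (m θ : ℂ) * τ θ * ((n i : ℂ) * conj (z i)) *
            ((θ : C → ℂ) (incl a) * conj (ψ i a)) := by
        intro a
        rw [hval, hconj, Finset.sum_mul]
        refine Finset.sum_congr rfl fun θ _ => ?_
        rw [Finset.mul_sum]
        refine Finset.sum_congr rfl fun i _ => ?_
        ring
      simp only [this]
      rw [Finset.sum_comm]
      refine Finset.sum_congr rfl fun θ _ => ?_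
      rw [Finset.sum_comm]
      refine Finset.sum_congr rfl fun i _ => ?_
      rw [Finset.mul_sum]
    rw [h1, Fintype.sum_prod_type, Finset.mul_sum]
    refine Finset.sum_congr rfl fun θ _ => ?_
    rw [Finset.mul_sum]
    refine Finset.sum_congr rfl fun i _ => ?_
    rw [hsumθ]
    push_cast
    field_simp
  · have h1 : ∑ x : IrrCharacter C × ι, (((m x.1 * n x.2 * d x.1 x.2 : ℤ)) : ℂ) =
        ∑ θ : IrrCharacter C, (m θ : ℂ) * ∑ i, (n i : ℂ) * (d θ i : ℂ) := by
      rw [Fintype.sum_prod_type]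
      refine Finset.sum_congr rfl fun θ _ => ?_
      rw [Finset.mul_sum]
      refine Finset.sum_congr rfl fun i _ => ?_
      push_cast
      ring
    have h2 : ∀ θ : IrrCharacter C, (Nat.card A : ℂ) * ∑ i, (n i : ℂ) * (d θ i : ℂ) =
        (θ : C → ℂ) 1 * u := by
      intro θ
      have h3 : (Nat.card A : ℂ) * ∑ i, (n i : ℂ) * (d θ i : ℂ) =
          ∑ i, (n i : ℂ) * ∑ a : A, (θ : C → ℂ) (incl a) * conj (ψ i a) := by
        rw [Finset.mul_sum]
        refine Finset.sum_congr rfl fun i _ => ?_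
        rw [hsumθ]
        ring
      rw [h3]
      have h4 : ∑ i, (n i : ℂ) * ∑ a : A, (θ : C → ℂ) (incl a) * conj (ψ i a) =
          ∑ a : A, (θ : C → ℂ) (incl a) * conj (∑ i, (n i : ℂ) * ψ i a) := by
        simp only [Finset.mul_sum]
        rw [Finset.sum_comm]
        refine Finset.sum_congr rfl fun a _ => ?_
        rw [map_sum, Finset.mul_sum]
        refine Finset.sum_congr rfl fun i _ => ?_
        simp only [map_mul, map_intCast]
        ring
      rw [h4]
      rw [Finset.sum_eq_single (1 : A)]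
      · rw [hy1, map_intCast]
        rfl
      · intro a _ ha
        rw [hy0 a ha, map_zero, mul_zero]
      · simp
    simp only [h1]
    rw [Finset.mul_sum]
    have h5 : χ 1 = ∑ θ : IrrCharacter C, (m θ : ℂ) * (θ : C → ℂ) 1 := hmapp 1
    rw [h5, Finset.sum_mul]
    refine Finset.sum_congr rfl fun θ _ => ?_
    rw [mul_left_comm, h2]
    ring

end Coeff

section Main

variable {X : Type u} [Group X] [Finite X] {p : ℕ} [hpp : Fact p.Prime]
  {V : Subgroup X} [hVn : V.Normal] {G : Subgroup X} {v : X}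

/-- Decomposition of elements along the complement. -/
theorem exists_split (hGV : Subgroup.IsComplement' V G) (x : X) :
    ∃ w ∈ V, ∃ g ∈ G, x = w * g := by
  obtain ⟨⟨w, g⟩, h⟩ := hGV.2 x
  exact ⟨w, w.2, g, g.2, h.symm⟩

theorem eq_one_of_mem_both (hGV : Subgroup.IsComplement' V G) {w : X} (h1 : w ∈ V) (h2 : w ∈ G) :
    w = 1 := by
  have h := hGV.disjoint
  exact Subgroup.disjoint_def.1 h h1 h2

/-- Extraction of the `p`-part and of the `p'`-part of `v a`. -/
theorem exponents (hGV : Subgroup.IsComplement' V G) (hidx : ¬ p ∣ V.index) :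
    ∃ s t : ℕ, (∀ w : X, w ^ p = 1 → w ^ s = w ∧ w ^ t = 1) ∧ (∀ g ∈ G, g ^ s = 1 ∧ g ^ t = g) := by
  have hp := hpp.out
  have hk : V.index = Nat.card G := hGV.symm.index_eq_card
  have hco : Nat.Coprime p (Nat.card G) := (hp.coprime_iff_not_dvd).2 (hk ▸ hidx)
  obtain ⟨s, hs1, hs2⟩ := Nat.chineseRemainder hco 1 0
  obtain ⟨t, ht1, ht2⟩ := Nat.chineseRemainder hco 0 1
  refine ⟨s, t, fun w hw => ⟨?_, ?_⟩, fun g hg => ⟨?_, ?_⟩⟩
  · have h1 : orderOf w ∣ p := orderOf_dvd_of_pow_eq_one hw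
    have := (pow_eq_pow_iff_modEq (x := w) (n := s) (m := 1)).2 (hs1.of_dvd h1)
    simpa using this
  · have h1 : orderOf w ∣ p := orderOf_dvd_of_pow_eq_one hw
    have := (pow_eq_pow_iff_modEq (x := w) (n := t) (m := 0)).2 (ht1.of_dvd h1)
    simpa using this
  · have h1 : orderOf (⟨g, hg⟩ : G) ∣ Nat.card G := orderOf_dvd_natCard _
    have h2 : orderOf g ∣ Nat.card G := by
      rwa [Subgroup.orderOf_mk] at h1
    have := (pow_eq_pow_iff_modEq (x := g) (n := s) (m := 0)).2 (hs2.of_dvd h2)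
    simpa using this
  · have h1 : orderOf (⟨g, hg⟩ : G) ∣ Nat.card G := orderOf_dvd_natCard _
    have h2 : orderOf g ∣ Nat.card G := by
      rwa [Subgroup.orderOf_mk] at h1
    have := (pow_eq_pow_iff_modEq (x := g) (n := t) (m := 1)).2 (ht2.of_dvd h2)
    simpa using this

/-- Conjugation preserves the two parts. -/
theorem conj_parts (hVexp : ∀ w ∈ V, w ^ p = 1) (hidx : ¬ p ∣ V.index)
    (hGV : Subgroup.IsComplement' V G) (hv : v ∈ V) {a b x : X}
    (ha : a ∈ G) (hb : b ∈ G) (hac : a * v = v * a) (hbc : b * v = v * b)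
    (h : x * (v * a) * x⁻¹ = v * b) : x * v * x⁻¹ = v ∧ x * a * x⁻¹ = b := by
  obtain ⟨s, t, h1, h2⟩ := exponents hGV hidx
  have hcomm : Commute v a := hac.symm
  have hcomm' : Commute v b := hbc.symm
  have hs : (v * a) ^ s = v := by
    rw [hcomm.mul_pow, (h1 v (hVexp v hv)).1, (h2 a ha).1, mul_one]
  have hs' : (v * b) ^ s = v := by
    rw [hcomm'.mul_pow, (h1 v (hVexp v hv)).1, (h2 b hb).1, mul_one]
  have ht : (v * a) ^ t = a := by
    rw [hcomm.mul_pow, (h1 v (hVexp v hv)).2, (h2 a ha).2, one_mul]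
  have ht' : (v * b) ^ t = b := by
    rw [hcomm'.mul_pow, (h1 v (hVexp v hv)).2, (h2 b hb).2, one_mul]
  constructor
  · have := congrArg (· ^ s) h
    simp only [conj_pow, hs, hs'] at this
    exact this
  · have := congrArg (· ^ t) h
    simp only [conj_pow, ht, ht'] at this
    exact this

/-- The `G`-part of an element of `C(v)` conjugating `a` to `b` (both in `G`). -/
theorem split_conj (hab : ∀ a ∈ V, ∀ b ∈ V, a * b = b * a) (hGV : Subgroup.IsComplement' V G)
    (hv : v ∈ V) {a b w g : X} (ha : a ∈ G) (hb : b ∈ G) (hw : w ∈ V) (hg : g ∈ G)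
    (h1 : (w * g) * v * (w * g)⁻¹ = v) (h2 : (w * g) * a * (w * g)⁻¹ = b) :
    g * v = v * g ∧ g * a * g⁻¹ = b ∧ w * b * w⁻¹ = b := by
  have h3 : g * v * g⁻¹ = v := by
    have h4 : w * (g * v * g⁻¹) * w⁻¹ = v := by
      calc w * (g * v * g⁻¹) * w⁻¹ = (w * g) * v * (w * g)⁻¹ := by group
        _ = v := h1
    have h5 : g * v * g⁻¹ = w⁻¹ * v * w := by
      calc g * v * g⁻¹ = w⁻¹ * (w * (g * v * g⁻¹) * w⁻¹) * w := by group
        _ = w⁻¹ * v * w := by rw [h4]
    rw [h5, mul_assoc, hab v hv w hw, inv_mul_cancel_left]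
  have hg3 : g * v = v * g := by
    calc g * v = g * v * g⁻¹ * g := by group
      _ = v * g := by rw [h3]
  have h6 : g * a * g⁻¹ = b := by
    set a' := g * a * g⁻¹ with ha'
    have ha'G : a' ∈ G := G.mul_mem (G.mul_mem hg ha) (G.inv_mem hg)
    have h7 : w * a' * w⁻¹ = b := by
      calc w * a' * w⁻¹ = (w * g) * a * (w * g)⁻¹ := by rw [ha']; group
        _ = b := h2
    have h8 : a' * b⁻¹ ∈ V := by
      rw [← h7]
      have : a' * (w * a' * w⁻¹)⁻¹ = (a' * w * a'⁻¹) * w⁻¹ := by group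
      rw [this]
      exact V.mul_mem (hVn.conj_mem w hw a') (V.inv_mem hw)
    have h9 : a' * b⁻¹ = 1 := eq_one_of_mem_both hGV h8 (G.mul_mem ha'G (G.inv_mem hb))
    exact mul_inv_eq_one.1 h9
  refine ⟨hg3, h6, ?_⟩
  calc w * b * w⁻¹ = w * (g * a * g⁻¹) * w⁻¹ := by rw [h6]
    _ = (w * g) * a * (w * g)⁻¹ := by group
    _ = b := h2

/-- Conjugacy of `v a` and `v b` in `X` is conjugacy in `C_G(v)`. -/
theorem isConj_iff_A (hVexp : ∀ w ∈ V, w ^ p = 1) (hidx : ¬ p ∣ V.index)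
    (hab : ∀ a ∈ V, ∀ b ∈ V, a * b = b * a) (hGV : Subgroup.IsComplement' V G) (hv : v ∈ V)
    (a b : ↥(G ⊓ Subgroup.centralizer ({v} : Set X))) :
    IsConj (v * (a : X)) (v * (b : X)) ↔ IsConj a b := by
  have hC : ∀ c : ↥(G ⊓ Subgroup.centralizer ({v} : Set X)), (c : X) * v = v * c := fun c =>
    Subgroup.mem_centralizer_singleton_iff.1 c.2.2
  constructor
  · intro h
    obtain ⟨x, hx⟩ := isConj_iff.1 h
    obtain ⟨h1, h2⟩ := conj_parts hVexp hidx hGV hv a.2.1 b.2.1 (hC a) (hC b) hx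
    obtain ⟨w, hw, g, hg, rfl⟩ := exists_split hGV x
    obtain ⟨h3, h4, -⟩ := split_conj hab hGV hv a.2.1 b.2.1 hw hg h1 h2
    refine isConj_iff.2 ⟨⟨g, hg, Subgroup.mem_centralizer_singleton_iff.2 h3⟩, ?_⟩
    exact Subtype.ext h4
  · intro h
    obtain ⟨c, hc⟩ := isConj_iff.1 h
    refine isConj_iff.2 ⟨c, ?_⟩
    have h1 : (c : X) * a * (c : X)⁻¹ = b := congrArg Subtype.val hc
    rw [← h1]
    have h2 := hC c
    calc (c : X) * (v * a) * (c : X)⁻¹ = ((c : X) * v) * a * (c : X)⁻¹ := by group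
      _ = (v * c) * a * (c : X)⁻¹ := by rw [h2]
      _ = _ := by group

/-- The order of the centralizer of `v b`. -/
theorem card_centralizer (hVexp : ∀ w ∈ V, w ^ p = 1) (hidx : ¬ p ∣ V.index)
    (hab : ∀ a ∈ V, ∀ b ∈ V, a * b = b * a) (hGV : Subgroup.IsComplement' V G) (hv : v ∈ V)
    (b : ↥(G ⊓ Subgroup.centralizer ({v} : Set X))) :
    Nat.card (Subgroup.centralizer ({v * (b : X)} : Set X)) =
      Nat.card {w : V // (b : X) * w * (b : X)⁻¹ = w} * Nat.card (Subgroup.centralizer ({b} : Set ↥(G ⊓ Subgroup.centralizer ({v} : Set X)))) := by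
  classical
  have hC : ∀ c : ↥(G ⊓ Subgroup.centralizer ({v} : Set X)), (c : X) * v = v * c := fun c =>
    Subgroup.mem_centralizer_singleton_iff.1 c.2.2
  rw [← Nat.card_prod]
  have hmem : ∀ (x : {w : V // (b : X) * w * (b : X)⁻¹ = w} ×
      (Subgroup.centralizer ({b} : Set ↥(G ⊓ Subgroup.centralizer ({v} : Set X))))),
      ((x.1.1 : X) * ((x.2 : ↥(G ⊓ Subgroup.centralizer ({v} : Set X))) : X)) ∈
        Subgroup.centralizer ({v * (b : X)} : Set X) := by
    rintro ⟨⟨w, hw⟩, ⟨g, hg⟩⟩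
    rw [Subgroup.mem_centralizer_singleton_iff]
    have h1 : (g : X) * b = b * g := by
      have := Subgroup.mem_centralizer_singleton_iff.1 hg
      exact congrArg Subtype.val this
    have h2 : (w : X) * b = b * w := by
      have h3 : (b : X) * w = w * b := by
        calc (b : X) * w = (b : X) * w * (b : X)⁻¹ * b := by group
          _ = w * b := by rw [hw]
      exact h3.symm
    have h3 := hC g
    have h4 := hab w w.2 v hv
    show (w : X) * g * (v * b) = v * b * (w * g)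
    calc (w : X) * g * (v * b) = w * (g * v) * b * 1 * 1 := by group
      _ = w * (v * g) * b := by rw [h3]; group
      _ = (w * v) * (g * b) := by group
      _ = (v * w) * (b * g) := by rw [h4, h1]
      _ = v * (w * b) * g := by group
      _ = v * (b * w) * g := by rw [h2]
      _ = v * b * (w * g) := by group
  symm
  refine Nat.card_congr (Equiv.ofBijective (fun x => ⟨_, hmem x⟩) ⟨?_, ?_⟩)
  · rintro ⟨⟨w, hw⟩, ⟨g, hg⟩⟩ ⟨⟨w', hw'⟩, ⟨g', hg'⟩⟩ h
    have h1 : (w : X) * (g : X) = (w' : X) * (g' : X) := congrArg Subtype.val h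
    have h2 : ((w, ⟨g, g.2.1⟩) : V × G) = (w', ⟨g', g'.2.1⟩) := hGV.1 h1
    have h3 : w = w' := congrArg Prod.fst h2
    have h4 : (g : X) = g' := congrArg (fun x : V × G => (x.2 : X)) h2
    subst h3
    have h5 : g = g' := Subtype.ext h4
    subst h5
    rfl
  · rintro ⟨x, hx⟩
    obtain ⟨w, hw, g, hg, rfl⟩ := exists_split hGV x
    have hx' : (w * g) * (v * b) * (w * g)⁻¹ = v * b := by
      have h1 := Subgroup.mem_centralizer_singleton_iff.1 hx
      rw [h1]
      group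
    obtain ⟨h1, h2⟩ := conj_parts hVexp hidx hGV hv b.2.1 b.2.1 (hC b) (hC b) hx'
    obtain ⟨h3, h4, h5⟩ := split_conj hab hGV hv b.2.1 b.2.1 hw hg h1 h2
    have hb' : (b : X) * w * (b : X)⁻¹ = w := by
      have h6 : (w : X) * b = b * w := by
        calc (w : X) * b = w * b * w⁻¹ * w := by group
          _ = b * w := by rw [h5]
      rw [← h6]
      group
    let g' : ↥(G ⊓ Subgroup.centralizer ({v} : Set X)) :=
      ⟨g, hg, Subgroup.mem_centralizer_singleton_iff.2 h3⟩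
    have hg' : g' ∈ Subgroup.centralizer ({b} : Set ↥(G ⊓ Subgroup.centralizer ({v} : Set X))) := by
      rw [Subgroup.mem_centralizer_singleton_iff]
      apply Subtype.ext
      show g * (b : X) = b * g
      calc g * (b : X) = g * b * g⁻¹ * g := by group
        _ = b * g := by rw [h4]
    exact ⟨(⟨⟨w, hw⟩, hb'⟩, ⟨g', hg'⟩), Subtype.ext rfl⟩

/-- **The criterion**, for an abstract copy of the stabilizer. -/
theorem main_aux (hVexp : ∀ w ∈ V, w ^ p = 1) (hidx : ¬ p ∣ V.index)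
    (hab : ∀ a ∈ V, ∀ b ∈ V, a * b = b * a) (hGV : Subgroup.IsComplement' V G) (hv : v ∈ V)
    (A : Subgroup X) (hA : A = G ⊓ Subgroup.centralizer ({v} : Set X))
    {ι : Type v} [Fintype ι] (n : ι → ℤ) (z : ι → ℂ) (hz : ∀ i, z i ^ p = 1)
    (ψ : ι → A → ℂ) (hψ : ∀ i, IsCharacter A (ψ i))
    (u : ℤ) (hu : ¬ (p : ℤ) ∣ u) (y : A → ℂ)
    (hy : ∀ a, y a = ∑ i, (n i : ℂ) * z i * ψ i a)
    (hy1 : ∑ i, (n i : ℂ) * ψ i 1 = u) (hy0 : ∀ a, a ≠ 1 → ∑ i, (n i : ℂ) * ψ i a = 0)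
    (R : A → ℕ)
    (hR : ∀ a, ‖y a‖ ^ 2 * (Nat.card {w : V // (a : X) * w * (a : X)⁻¹ = w} : ℝ) = R a)
    (hRle : ∀ a, R a ≤ Nat.card V) :
    Nat.card (ConjClasses X) ≤ Nat.card V := by
  classical
  letI : Fintype X := Fintype.ofFinite X
  letI : Fintype A := Fintype.ofFinite _
  have hp := hpp.out
  haveI : NeZero p := ⟨hp.ne_zero⟩
  have hAC : ∀ a ∈ A, a * v = v * a := fun a ha => by
    rw [hA] at ha
    exact Subgroup.mem_centralizer_singleton_iff.1 ha.2
  have hisconj : ∀ a b : A, IsConj (v * (a : X)) (v * (b : X)) ↔ IsConj a b := by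
    subst hA
    exact fun a b => isConj_iff_A hVexp hidx hab hGV hv a b
  have hcardC : ∀ b : A, Nat.card (Subgroup.centralizer ({v * (b : X)} : Set X)) =
      Nat.card {w : V // (b : X) * w * (b : X)⁻¹ = w} *
        Nat.card (Subgroup.centralizer ({b} : Set A)) := by
    subst hA
    exact fun b => card_centralizer hVexp hidx hab hGV hv b
  let c : IrrCharacter X → ℂ := fun χ =>
    (Nat.card A : ℂ)⁻¹ * ∑ a : A, (χ : X → ℂ) (v * a) * conj (y a)
  have hform := fun χ : IrrCharacter X =>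
    coeff_form v (hVexp v hv) A hAC n z hz ψ hψ u y hy hy1 hy0 (χ : X → ℂ)
      (IsIrrCharacter.isCharacter χ.2)
  have hint : ∀ χ, IsIntegral ℤ (c χ) := by
    intro χ
    obtain ⟨J, _, N, ξ, h1, h2, -⟩ := hform χ
    show IsIntegral ℤ (_ * _)
    rw [h2]
    refine IsIntegral.sum _ fun j _ => ?_
    exact (isIntegral_algebraMap (R := ℤ) (x := N j)).mul (isIntegral_of_pow_one hp (h1 j))
  have hmem : ∀ χ, c χ ∈ Cfsg.Agent.Lib.GalAmgm.cycF p := by
    intro χ
    obtain ⟨J, _, N, ξ, h1, h2, -⟩ := hform χ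
    show (_ * _) ∈ _
    rw [h2]
    exact sum_mem fun j _ => mul_mem (Cfsg.Agent.Lib.GalAmgm.intCast_mem_cycF p (N j))
      (Cfsg.Agent.Lib.GalAmgm.mem_cycF_of_pow (h1 j))
  have hdeg : ∀ χ : IrrCharacter X, ¬ p ∣ charDegree (χ : X → ℂ) := by
    intro χ hdvd
    obtain ⟨m, ρ, hρ, hχ⟩ := χ.2
    have h1 : Module.finrank ℂ (Fin m → ℂ) ∣ V.index :=
      Cfsg.Agent.Lib.CharWeight.finrank_dvd_index ρ hρ inferInstance hab
    have h2 : charDegree (χ : X → ℂ) = Module.finrank ℂ (Fin m → ℂ) := by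
      have h3 := one_eq_charDegree (IsIrrCharacter.isCharacter χ.2)
      rw [← hχ, Representation.char_one] at h3
      have h4 : (Module.finrank ℂ (Fin m → ℂ) : ℂ) = (charDegree ρ.character : ℂ) := h3
      rw [← hχ]
      exact_mod_cast h4.symm
    rw [h2] at hdvd
    exact hidx (hdvd.trans h1)
  have hne : ∀ χ, c χ ≠ 0 := by
    intro χ
    obtain ⟨J, _, N, ξ, h1, h2, h3⟩ := hform χ
    show (_ * _) ≠ _
    rw [h2]
    apply sum_ne_zero hp N ξ h1
    intro hd
    have h4 : (Nat.card A : ℤ) * ∑ j, N j = (charDegree (χ : X → ℂ) : ℤ) * u := by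
      rw [one_eq_charDegree (IsIrrCharacter.isCharacter χ.2)] at h3
      exact_mod_cast h3
    have h5 : (p : ℤ) ∣ (charDegree (χ : X → ℂ) : ℤ) * u := h4 ▸ dvd_mul_of_dvd_right hd _
    rcases (Nat.prime_iff_prime_int.1 hp).dvd_or_dvd h5 with h | h
    · exact hdeg χ (Int.natCast_dvd_natCast.1 h)
    · exact hu h
  -- orthogonality
  have hE : ∀ a b : A, ∑ χ : IrrCharacter X, (χ : X → ℂ) (v * a) * conj ((χ : X → ℂ) (v * b)) =
      if IsConj a b then ((Nat.card {w : V // (b : X) * w * (b : X)⁻¹ = w} : ℂ) *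
        (Nat.card (Subgroup.centralizer ({b} : Set A)) : ℂ)) else 0 := by
    intro a b
    rw [sum_irr_mul_conj]
    by_cases h : IsConj a b
    · rw [if_pos ((hisconj a b).2 h), if_pos h, hcardC b]
      push_cast
      rfl
    · rw [if_neg (fun h' => h ((hisconj a b).1 h')), if_neg h]
  have hycl : ∀ a b : A, IsConj a b → y a = y b := by
    intro a b h
    obtain ⟨g, rfl⟩ := isConj_iff.1 h
    rw [hy, hy]
    refine Finset.sum_congr rfl fun i _ => ?_
    rw [isClassFunction_of_isCharacter (hψ i) a g]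
  have hA0 : (Nat.card A : ℂ) ≠ 0 := by exact_mod_cast Nat.card_pos.ne'
  have hsum : ∑ χ, c χ * conj (c χ) =
      (((Nat.card A : ℚ)⁻¹ * ∑ a : A, (R a : ℚ) : ℚ) : ℂ) := by
    have h1 : ∀ χ : IrrCharacter X, c χ * conj (c χ) =
        (Nat.card A : ℂ)⁻¹ * (Nat.card A : ℂ)⁻¹ * ∑ b : A, ∑ a : A, (conj (y a) * y b) *
          ((χ : X → ℂ) (v * a) * conj ((χ : X → ℂ) (v * b))) := by
      intro χ
      simp only [c, map_mul, map_sum, map_inv₀, Complex.conj_natCast, Complex.conj_conj]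
      rw [mul_mul_mul_comm, Finset.sum_mul_sum, Finset.sum_comm]
      refine congrArg₂ _ rfl (Finset.sum_congr rfl fun b _ => Finset.sum_congr rfl fun a _ => ?_)
      ring
    simp only [h1]
    rw [← Finset.mul_sum, Finset.sum_comm]
    have h2 : ∀ b : A, ∑ χ : IrrCharacter X, ∑ a : A, (conj (y a) * y b) *
          ((χ : X → ℂ) (v * a) * conj ((χ : X → ℂ) (v * b))) = (Nat.card A : ℂ) * (R b : ℂ) := by
      intro b
      rw [Finset.sum_comm]
      have h3 : ∀ a : A, ∑ χ : IrrCharacter X, (conj (y a) * y b) *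
          ((χ : X → ℂ) (v * a) * conj ((χ : X → ℂ) (v * b))) =
          if IsConj b a then (R b : ℂ) * (Nat.card (Subgroup.centralizer ({b} : Set A)) : ℂ)
            else 0 := by
        intro a
        rw [← Finset.mul_sum, hE]
        by_cases h : IsConj a b
        · rw [if_pos h, if_pos h.symm, hycl a b h]
          have h4 : conj (y b) * y b = ((‖y b‖ ^ 2 : ℝ) : ℂ) := by
            rw [mul_comm, Complex.mul_conj, Complex.normSq_eq_norm_sq]
          have hRc : (R b : ℂ) = ((‖y b‖ ^ 2 : ℝ) : ℂ) *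
              (Nat.card {w : V // (b : X) * w * (b : X)⁻¹ = w} : ℂ) := by
            have h5 := hR b
            have h6 : ((R b : ℝ) : ℂ) = ((‖y b‖ ^ 2 * (Nat.card {w : V // (b : X) * w * (b : X)⁻¹ = w} : ℝ) : ℝ) : ℂ) := by
              rw [h5]
            simpa using h6
          rw [h4, hRc]
          ring
        · rw [if_neg h, if_neg (fun h' => h h'.symm), mul_zero]
      simp only [h3]
      rw [Finset.sum_ite, Finset.sum_const_zero, add_zero, Finset.sum_const, nsmul_eq_mul]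
      have h5 := card_conj_mul_card_centralizer b
      have h6 : ((Finset.univ.filter fun a => IsConj b a).card : ℂ) *
          (Nat.card (Subgroup.centralizer ({b} : Set A)) : ℂ) = (Nat.card A : ℂ) := by
        rw [← h5, Nat.card_eq_fintype_card (α := {x // IsConj b x}), Fintype.card_subtype]
        push_cast
        rfl
      rw [← h6]
      ring
    simp only [h2]
    rw [← Finset.mul_sum]
    push_cast
    field_simp
  have hfinal := Cfsg.Agent.Lib.GalAmgm.card_le_of_sum_mul_conj p Finset.univ c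
    (fun χ _ => hmem χ) (fun χ _ => hint χ) (fun χ _ => hne χ) _ hsum
  have hle : (((Nat.card A : ℚ)⁻¹ * ∑ a : A, (R a : ℚ) : ℚ) : ℝ) ≤ (Nat.card V : ℝ) := by
    have h1 : ∑ a : A, (R a : ℝ) ≤ ∑ _a : A, (Nat.card V : ℝ) :=
      Finset.sum_le_sum fun a _ => by exact_mod_cast hRle a
    rw [Finset.sum_const, Finset.card_univ, nsmul_eq_mul, ← Nat.card_eq_fintype_card] at h1
    have h2 : (0 : ℝ) < Nat.card A := by exact_mod_cast Nat.card_pos
    push_cast
    rw [inv_mul_le_iff₀ h2]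
    exact h1
  have h3 : ((Finset.univ : Finset (IrrCharacter X)).card : ℝ) ≤ (Nat.card V : ℝ) :=
    hfinal.trans hle
  rw [← card_irr_eq_card_conjClasses, Nat.card_eq_fintype_card, ← Finset.card_univ]
  exact_mod_cast h3

/-- **The criterion.** -/
theorem main (hVexp : ∀ w ∈ V, w ^ p = 1) (hidx : ¬ p ∣ V.index)
    (hab : ∀ a ∈ V, ∀ b ∈ V, a * b = b * a) (hGV : Subgroup.IsComplement' V G) (hv : v ∈ V)
    {ι : Type v} [Fintype ι] (n : ι → ℤ) (z : ι → ℂ) (hz : ∀ i, z i ^ p = 1)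
    (ψ : ι → ↥(G ⊓ Subgroup.centralizer ({v} : Set X)) → ℂ)
    (hψ : ∀ i, IsCharacter ↥(G ⊓ Subgroup.centralizer ({v} : Set X)) (ψ i))
    (u : ℤ) (hu : ¬ (p : ℤ) ∣ u) (y : ↥(G ⊓ Subgroup.centralizer ({v} : Set X)) → ℂ)
    (hy : ∀ a, y a = ∑ i, (n i : ℂ) * z i * ψ i a)
    (hy1 : ∑ i, (n i : ℂ) * ψ i 1 = u) (hy0 : ∀ a, a ≠ 1 → ∑ i, (n i : ℂ) * ψ i a = 0)
    (R : ↥(G ⊓ Subgroup.centralizer ({v} : Set X)) → ℕ)
    (hR : ∀ a, ‖y a‖ ^ 2 * (Nat.card {w : V // (a : X) * w * (a : X)⁻¹ = w} : ℝ) = R a)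
    (hRle : ∀ a, R a ≤ Nat.card V) :
    Nat.card (ConjClasses X) ≤ Nat.card V :=
  main_aux hVexp hidx hab hGV hv _ rfl n z hz ψ hψ u hu y hy hy1 hy0 R hR hRle

end Main

end Cfsg.Agent.Lib.KMain
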