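import Mathlib
import Cfsg.Agent.Lib.PrimeCycleJ

/-!
# Degree `k p + r`: local structure

Subgroups of `Perm β` of prime order `p` acting transitively on `β`, with their normalizers, and
the orbits of a `p`-subgroup `P` of `Perm α` all of whose nontrivial orbits have size `p`.
-/

set_option autoImplicit false
set_option linter.style.haveILetI false
set_option linter.unusedSectionVars false
set_option linter.unusedVariables false

namespace Cfsg.Agent.Lib.KPR

open Equiv Equiv.Perm MulAction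
open scoped commutatorElement

section Abstract

variable {β : Type*} [Fintype β] [DecidableEq β]

theorem exists_zpow_of_commute_trans {c g : Perm β} (htr : ∀ u v, ∃ i : ℤ, (c ^ i) u = v)
    (hc : Commute g c) : ∃ t : ℤ, g = c ^ t := by
  by_cases hβ : IsEmpty β
  · exact ⟨0, by ext u; exact (hβ.false u).elim⟩
  · obtain ⟨u₀⟩ := not_isEmpty_iff.1 hβ
    obtain ⟨t, ht⟩ := htr u₀ (g u₀)
    refine ⟨t, ?_⟩
    ext v
    obtain ⟨i, rfl⟩ := htr u₀ v
    have h1 : Commute g (c ^ i) := hc.zpow_right i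
    have h2 : Commute (c ^ t) (c ^ i) := (Commute.refl c).zpow_zpow t i
    rw [← Perm.mul_apply, h1.eq, Perm.mul_apply, ← ht, ← Perm.mul_apply, ← Perm.mul_apply, h2.eq]

/-- A subgroup of prime order `p` of `Perm β`, transitive on `β`. -/
structure PrimeReg (H : Subgroup (Perm β)) (p : ℕ) : Prop where
  prime : p.Prime
  card : Nat.card H = p
  trans : ∀ u v, ∃ y ∈ H, y u = v

namespace PrimeReg

variable {H : Subgroup (Perm β)} {p : ℕ}

theorem exists_ne_one (hH : PrimeReg H p) : ∃ c ∈ H, c ≠ 1 := by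
  haveI : Nontrivial H := by
    apply (Finite.one_lt_card_iff_nontrivial).1
    rw [hH.card]
    exact hH.prime.one_lt
  obtain ⟨c, hc⟩ := exists_ne (1 : H)
  exact ⟨c, c.2, fun h => hc (Subtype.ext h)⟩

theorem exists_zpow (hH : PrimeReg H p) {c y : Perm β} (hc : c ∈ H) (hc1 : c ≠ 1) (hy : y ∈ H) :
    ∃ i : ℤ, y = c ^ i := by
  haveI : Fact p.Prime := ⟨hH.prime⟩
  have h1 : (⟨y, hy⟩ : H) ∈ Subgroup.zpowers (⟨c, hc⟩ : H) :=
    mem_zpowers_of_prime_card hH.card (fun h => hc1 (congrArg Subtype.val h))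
  obtain ⟨i, hi⟩ := Subgroup.mem_zpowers_iff.1 h1
  refine ⟨i, ?_⟩
  have := congrArg Subtype.val hi
  simpa using this.symm

theorem trans_zpow (hH : PrimeReg H p) {c : Perm β} (hc : c ∈ H) (hc1 : c ≠ 1) (u v : β) :
    ∃ i : ℤ, (c ^ i) u = v := by
  obtain ⟨y, hy, hyu⟩ := hH.trans u v
  obtain ⟨i, rfl⟩ := hH.exists_zpow hc hc1 hy
  exact ⟨i, hyu⟩

theorem commute_of_mem (hH : PrimeReg H p) {x y : Perm β} (hx : x ∈ H) (hy : y ∈ H) :
    Commute x y := by
  by_cases hx1 : x = 1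
  · rw [hx1]; exact Commute.one_left y
  · obtain ⟨i, rfl⟩ := hH.exists_zpow hx hx1 hy
    exact (Commute.refl x).zpow_right i

theorem pow_eq_one (hH : PrimeReg H p) {y : Perm β} (hy : y ∈ H) : y ^ p = 1 := by
  have := pow_card_eq_one' (x := (⟨y, hy⟩ : H))
  rw [hH.card] at this
  exact congrArg Subtype.val this

/-- The multiplier of an element of the normalizer. -/
theorem exists_mult (hH : PrimeReg H p) {g : Perm β} (hg : g ∈ Subgroup.normalizer (H : Set (Perm β))) :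
    ∃ μ : ℤ, ∀ y ∈ H, g * y * g⁻¹ = y ^ μ := by
  obtain ⟨c, hc, hc1⟩ := hH.exists_ne_one
  have h1 : g * c * g⁻¹ ∈ H := (Subgroup.mem_normalizer_iff.1 hg c).1 hc
  obtain ⟨μ, hμ⟩ := hH.exists_zpow hc hc1 h1
  refine ⟨μ, fun y hy => ?_⟩
  obtain ⟨j, rfl⟩ := hH.exists_zpow hc hc1 hy
  rw [← conj_zpow, hμ, ← zpow_mul, ← zpow_mul, mul_comm]

theorem commute_comm (hH : PrimeReg H p) {g₁ g₂ y : Perm β} (h1 : g₁ ∈ Subgroup.normalizer (H : Set (Perm β)))
    (h2 : g₂ ∈ Subgroup.normalizer (H : Set (Perm β))) (hy : y ∈ H) : Commute ⁅g₁, g₂⁆ y := by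
  obtain ⟨a, ha⟩ := hH.exists_mult h1
  obtain ⟨b, hb⟩ := hH.exists_mult h2
  have hy' : (g₂ * g₁)⁻¹ * y * (g₂ * g₁) ∈ H := by
    have := (Subgroup.mem_normalizer_iff.1 ((Subgroup.normalizer (H : Set (Perm β))).inv_mem ((Subgroup.normalizer (H : Set (Perm β))).mul_mem h2 h1)) y).1 hy
    simpa using this
  set y' := (g₂ * g₁)⁻¹ * y * (g₂ * g₁) with hy'def
  have e1 : (g₁ * g₂) * y' * (g₁ * g₂)⁻¹ = y' ^ (a * b) := by
    have : (g₁ * g₂) * y' * (g₁ * g₂)⁻¹ = g₁ * (g₂ * y' * g₂⁻¹) * g₁⁻¹ := by group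
    rw [this, hb y' hy', ← conj_zpow, ha y' hy', ← zpow_mul]
  have e2 : (g₂ * g₁) * y' * (g₂ * g₁)⁻¹ = y' ^ (a * b) := by
    have : (g₂ * g₁) * y' * (g₂ * g₁)⁻¹ = g₂ * (g₁ * y' * g₁⁻¹) * g₂⁻¹ := by group
    rw [this, ha y' hy', ← conj_zpow, hb y' hy', ← zpow_mul, mul_comm]
  have e3 : (g₂ * g₁) * y' * (g₂ * g₁)⁻¹ = y := by
    rw [hy'def]; group
  have e4 : (g₁ * g₂) * y' * (g₁ * g₂)⁻¹ = y := e1.trans (e2.symm.trans e3)
  have e7 : ⁅g₁, g₂⁆ * y * ⁅g₁, g₂⁆⁻¹ = y := by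
    rw [commutatorElement_def]
    rw [hy'def] at e4
    have e8 : g₁ * g₂ * g₁⁻¹ * g₂⁻¹ * y * (g₁ * g₂ * g₁⁻¹ * g₂⁻¹)⁻¹
        = g₁ * g₂ * ((g₂ * g₁)⁻¹ * y * (g₂ * g₁)) * (g₁ * g₂)⁻¹ := by group
    rw [e8, e4]
  show ⁅g₁, g₂⁆ * y = y * ⁅g₁, g₂⁆
  exact eq_mul_of_mul_inv_eq e7

theorem mem_of_commute (hH : PrimeReg H p) {c g : Perm β} (hc : c ∈ H) (hc1 : c ≠ 1)
    (hg : Commute g c) : g ∈ H := by
  obtain ⟨t, rfl⟩ := exists_zpow_of_commute_trans (hH.trans_zpow hc hc1) hg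
  exact H.zpow_mem hc t

theorem comm_mem (hH : PrimeReg H p) {g₁ g₂ : Perm β} (h1 : g₁ ∈ Subgroup.normalizer (H : Set (Perm β)))
    (h2 : g₂ ∈ Subgroup.normalizer (H : Set (Perm β))) : ⁅g₁, g₂⁆ ∈ H := by
  obtain ⟨c, hc, hc1⟩ := hH.exists_ne_one
  exact hH.mem_of_commute hc hc1 (hH.commute_comm h1 h2 hc)

theorem dcomm_eq_one (hH : PrimeReg H p) {g₁ g₂ g₃ g₄ : Perm β} (h1 : g₁ ∈ Subgroup.normalizer (H : Set (Perm β)))
    (h2 : g₂ ∈ Subgroup.normalizer (H : Set (Perm β))) (h3 : g₃ ∈ Subgroup.normalizer (H : Set (Perm β))) (h4 : g₄ ∈ Subgroup.normalizer (H : Set (Perm β))) :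
    ⁅⁅g₁, g₂⁆, ⁅g₃, g₄⁆⁆ = 1 := by
  rw [commutatorElement_eq_one_iff_commute]
  exact hH.commute_of_mem (hH.comm_mem h1 h2) (hH.comm_mem h3 h4)

end PrimeReg

end Abstract

section Orbits

variable {α : Type*} [Fintype α] [DecidableEq α]

open Classical in
/-- The `P`-orbit of `w`. -/
noncomputable def orb (P : Subgroup (Perm α)) (w : α) : Finset α :=
  Finset.univ.filter (fun v => ∃ y ∈ P, y w = v)

variable {P : Subgroup (Perm α)}

theorem mem_orb {v w : α} : v ∈ orb P w ↔ ∃ y ∈ P, y w = v := by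
  classical
  simp [orb]

theorem self_mem_orb (w : α) : w ∈ orb P w := mem_orb.2 ⟨1, P.one_mem, rfl⟩

theorem orb_eq_of_mem {v w : α} (h : v ∈ orb P w) : orb P v = orb P w := by
  obtain ⟨y, hy, rfl⟩ := mem_orb.1 h
  ext u
  simp only [mem_orb]
  constructor
  · rintro ⟨z, hz, rfl⟩
    exact ⟨z * y, P.mul_mem hz hy, rfl⟩
  · rintro ⟨z, hz, rfl⟩
    exact ⟨z * y⁻¹, P.mul_mem hz (P.inv_mem hy), by simp⟩

/-- The setwise stabilizer of a finite set. -/
def setStab (O : Finset α) : Subgroup (Perm α) where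
  carrier := {g | ∀ v, g v ∈ O ↔ v ∈ O}
  mul_mem' := by
    intro a b ha hb v
    rw [Perm.mul_apply, ha, hb]
  one_mem' := fun v => Iff.rfl
  inv_mem' := by
    intro a ha v
    have := ha (a⁻¹ v)
    have e : a (a⁻¹ v) = v := by simp
    rw [e] at this
    exact this.symm

theorem mem_setStab {O : Finset α} {g : Perm α} : g ∈ setStab O ↔ ∀ v, g v ∈ O ↔ v ∈ O := Iff.rfl

/-- Restriction of the setwise stabilizer to the set. -/
def res (O : Finset α) : setStab O →* Perm O where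
  toFun g := g.1.subtypePerm (fun v => g.2 v)
  map_one' := by ext v; rfl
  map_mul' := by intro a b; ext v; rfl

@[simp] theorem res_apply (O : Finset α) (g : setStab O) (v : O) : ((res O g v : O) : α) = g.1 v :=
  rfl

theorem zpow_mem_of_res (O : Finset α) (g : setStab O) (i : ℤ) (v : O) :
    (((res O g) ^ i) v : α) = ((g.1) ^ i) v.1 := by
  rw [← map_zpow, res_apply]
  rfl

theorem mem_setStab_of_mem (y : Perm α) (hy : y ∈ P) (w : α) : y ∈ setStab (orb P w) := by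
  intro v
  constructor
  · intro h
    have : y v ∈ orb P v := mem_orb.2 ⟨y, hy, rfl⟩
    have h2 := orb_eq_of_mem this
    rw [← orb_eq_of_mem h, h2]
    exact self_mem_orb _
  · intro h
    have : y v ∈ orb P v := mem_orb.2 ⟨y, hy, rfl⟩
    rw [orb_eq_of_mem h] at this
    exact this

/-- The group induced by `P` on `O`. -/
def loc (P : Subgroup (Perm α)) (O : Finset α) : Subgroup (Perm O) :=
  (P.subgroupOf (setStab O)).map (res O)

theorem res_mem_loc {O : Finset α} {y : setStab O} (hy : y.1 ∈ P) : res O y ∈ loc P O :=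
  ⟨y, hy, rfl⟩

theorem mem_loc {O : Finset α} {z : Perm O} :
    z ∈ loc P O ↔ ∃ y : setStab O, y.1 ∈ P ∧ res O y = z := by
  constructor
  · rintro ⟨y, hy, rfl⟩
    exact ⟨y, hy, rfl⟩
  · rintro ⟨y, hy, rfl⟩
    exact ⟨y, hy, rfl⟩

/-- `P` is a `p`-group fixing `F` pointwise, with all orbits outside `F` of size `p`. -/
structure Cfg (P : Subgroup (Perm α)) (F : Finset α) (p : ℕ) : Prop where
  prime : p.Prime
  pgroup : IsPGroup p P
  fix : ∀ y ∈ P, ∀ w ∈ F, y w = w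
  card_orb : ∀ w, w ∉ F → (orb P w).card = p

variable {F : Finset α} {p : ℕ}

namespace Cfg

theorem notMem_of_mem_orb (hC : Cfg P F p) {v w : α} (hw : w ∉ F) (hv : v ∈ orb P w) : v ∉ F := by
  obtain ⟨y, hy, rfl⟩ := mem_orb.1 hv
  intro h
  have := hC.fix y hy _ h
  exact hw (by rwa [y.injective this] at h)

theorem primeReg (hC : Cfg P F p) {w : α} (hw : w ∉ F) : PrimeReg (loc P (orb P w)) p := by
  classical
  have hp := hC.prime
  have hpg : IsPGroup p (loc P (orb P w)) := by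
    intro z
    obtain ⟨y, hy, hz⟩ := mem_loc.1 z.2
    obtain ⟨n, hn⟩ := hC.pgroup ⟨y.1, hy⟩
    refine ⟨n, ?_⟩
    apply Subtype.ext
    have hn' : y.1 ^ p ^ n = 1 := congrArg Subtype.val hn
    have hn2 : y ^ p ^ n = 1 := Subtype.ext hn'
    show z.1 ^ p ^ n = 1
    rw [← hz, ← map_pow, hn2, map_one]
  haveI : Fact p.Prime := ⟨hp⟩
  obtain ⟨n, hn⟩ := IsPGroup.iff_card.1 hpg
  have htrans : ∀ u v : orb P w, ∃ y ∈ loc P (orb P w), y u = v := by
    intro u v
    obtain ⟨a, ha, hau⟩ := mem_orb.1 u.2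
    obtain ⟨b, hb, hbv⟩ := mem_orb.1 v.2
    have hy : b * a⁻¹ ∈ P := P.mul_mem hb (P.inv_mem ha)
    refine ⟨res _ ⟨b * a⁻¹, mem_setStab_of_mem _ hy w⟩, res_mem_loc hy, ?_⟩
    apply Subtype.ext
    rw [res_apply]
    show (b * a⁻¹) u.1 = v.1
    rw [← hau, ← hbv]
    simp
  have hdvd : Nat.card (loc P (orb P w)) ∣ p.factorial := by
    have := Subgroup.card_subgroup_dvd_card (loc P (orb P w))
    rw [Nat.card_perm] at this
    rwa [Nat.card_eq_fintype_card (α := ↥(orb P w)), Fintype.card_coe, hC.card_orb w hw] at this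
  have hn1 : n ≤ 1 := by
    by_contra h
    have h2 : p ^ 2 ∣ p ^ n := pow_dvd_pow p (by omega)
    rw [hn] at hdvd
    exact PrimeCycleJ.not_sq_dvd_factorial hp (h2.trans hdvd)
  have hn0 : n ≠ 0 := by
    rintro rfl
    rw [pow_zero] at hn
    have h3 : 1 < (orb P w).card := by rw [hC.card_orb w hw]; exact hp.one_lt
    obtain ⟨u, hu, v, hv, huv⟩ := Finset.one_lt_card.1 h3
    obtain ⟨y, hy, hyu⟩ := htrans ⟨u, hu⟩ ⟨v, hv⟩
    have hy1 : y = 1 := by
      have : Subsingleton (loc P (orb P w)) := (Nat.card_eq_one_iff_unique.1 hn).1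
      exact congrArg Subtype.val (Subsingleton.elim (⟨y, hy⟩ : loc P (orb P w)) ⟨1, Subgroup.one_mem _⟩)
    rw [hy1] at hyu
    exact huv (congrArg Subtype.val hyu)
  have hn2 : n = 1 := by omega
  refine ⟨hp, by rw [hn, hn2, pow_one], htrans⟩

theorem res_mem (hC : Cfg P F p) {y : Perm α} (hy : y ∈ P) (w : α) :
    res (orb P w) ⟨y, mem_setStab_of_mem y hy w⟩ ∈ loc P (orb P w) :=
  res_mem_loc hy

theorem pow_eq_one (hC : Cfg P F p) {y : Perm α} (hy : y ∈ P) : y ^ p = 1 := by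
  ext v
  by_cases hv : v ∈ F
  · rw [Perm.one_apply]
    exact pow_apply_eq_self_of_apply_eq_self (hC.fix y hy v hv) p
  · have h1 := (hC.primeReg hv).pow_eq_one (hC.res_mem hy v)
    have h2 := congrArg (fun z : Perm (orb P v) => (z ⟨v, self_mem_orb v⟩ : α)) h1
    simp only [Perm.one_apply, ← map_pow, res_apply] at h2
    exact h2

theorem zpow_eq_of_modEq (hC : Cfg P F p) {y : Perm α} (hy : y ∈ P) {a b : ℤ}
    (h : a ≡ b [ZMOD p]) : y ^ a = y ^ b := by
  have h1 : orderOf y ∣ p := orderOf_dvd_of_pow_eq_one (hC.pow_eq_one hy)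
  have h2 : (orderOf y : ℤ) ∣ b - a := by
    have := (Int.modEq_iff_dvd).1 h
    exact dvd_trans (by exact_mod_cast h1) this
  obtain ⟨c, hc⟩ := h2
  have : b = a + orderOf y * c := by linarith
  rw [this, zpow_add, zpow_mul, zpow_natCast, pow_orderOf_eq_one, one_zpow, mul_one]

/-- Elements of `P` act semiregularly on the orbits of `P`. -/
theorem fix_of_fix (hC : Cfg P F p) {z : Perm α} (hz : z ∈ P) {w : α} (hw : w ∉ F) (hzw : z w = w)
    {v : α} (hv : v ∈ orb P w) : z v = v := by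
  obtain ⟨y, hy, rfl⟩ := mem_orb.1 hv
  have h1 := (hC.primeReg hw).commute_of_mem (hC.res_mem hz w) (hC.res_mem hy w)
  have h2 := congrArg (fun u : Perm (orb P w) => (u ⟨w, self_mem_orb w⟩ : α)) h1.eq
  simp only [Perm.mul_apply, res_apply] at h2
  rw [hzw] at h2
  exact h2

theorem res_ne_one (hC : Cfg P F p) {z : Perm α} (hz : z ∈ P) {w : α} (hzw : z w ≠ w) :
    res (orb P w) ⟨z, mem_setStab_of_mem z hz w⟩ ≠ 1 := by
  intro h
  have h2 := congrArg (fun u : Perm (orb P w) => (u ⟨w, self_mem_orb w⟩ : α)) h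
  simp only [Perm.one_apply, res_apply] at h2
  exact hzw h2

theorem zpow_trans (hC : Cfg P F p) {z : Perm α} (hz : z ∈ P) {w : α} (hw : w ∉ F)
    (hzw : z w ≠ w) {v : α} (hv : v ∈ orb P w) : ∃ i : ℤ, (z ^ i) w = v := by
  obtain ⟨i, hi⟩ := (hC.primeReg hw).trans_zpow (hC.res_mem hz w) (hC.res_ne_one hz hzw)
    ⟨w, self_mem_orb w⟩ ⟨v, hv⟩
  refine ⟨i, ?_⟩
  have h2 := congrArg (fun u : orb P w => (u : α)) hi
  simp only at h2
  rw [zpow_mem_of_res] at h2
  exact h2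

/-- If a power of `z` fixes a point moved by `z`, the exponent is divisible by `p`. -/
theorem dvd_of_zpow_fix (hC : Cfg P F p) {z : Perm α} (hz : z ∈ P) {w : α} (hw : w ∉ F)
    (hzw : z w ≠ w) {m : ℤ} (hm : (z ^ m) w = w) : (p : ℤ) ∣ m := by
  classical
  haveI : Fact p.Prime := ⟨hC.prime⟩
  by_contra hnd
  have hco : IsCoprime m (p : ℤ) := by
    have := (Nat.prime_iff_prime_int.1 hC.prime)
    exact ((Prime.coprime_iff_not_dvd this).2 hnd).symm
  obtain ⟨a, b, hab⟩ := hco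
  apply hzw
  have h1 : z = (z ^ m) ^ a := by
    have hp1 : z ^ (p : ℤ) = 1 := by
      rw [zpow_natCast]; exact hC.pow_eq_one hz
    have : z ^ (a * m + b * p) = z := by rw [hab, zpow_one]
    rw [zpow_add, mul_comm b, zpow_mul z (p : ℤ) b, hp1, one_zpow, mul_one, mul_comm, zpow_mul] at this
    exact this.symm
  rw [h1]
  exact zpow_apply_eq_self_of_apply_eq_self hm a

/-- The normalizer of `P` maps `F` to itself and orbits to orbits. -/
theorem notMem_of_normalizer (hC : Cfg P F p) {h : Perm α}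
    (hh : h ∈ Subgroup.normalizer (P : Set (Perm α))) {w : α} (hw : w ∉ F) : h w ∉ F := by
  intro hF
  have h3 : 1 < (orb P w).card := by rw [hC.card_orb w hw]; exact hC.prime.one_lt
  obtain ⟨u, hu, v, hv, huv⟩ := Finset.one_lt_card.1 h3
  have : ∃ y ∈ P, y w ≠ w := by
    by_contra hcon
    push_neg at hcon
    obtain ⟨a, ha, rfl⟩ := mem_orb.1 hu
    obtain ⟨b, hb, rfl⟩ := mem_orb.1 hv
    rw [hcon a ha, hcon b hb] at huv
    exact huv rfl
  obtain ⟨y, hy, hyw⟩ := this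
  have h1 : h * y * h⁻¹ ∈ P := (Subgroup.mem_normalizer_iff.1 hh y).1 hy
  have h2 := hC.fix _ h1 _ hF
  apply hyw
  simpa using h2

theorem image_orb {h : Perm α} (hh : h ∈ Subgroup.normalizer (P : Set (Perm α))) (w : α) :
    (orb P w).image h = orb P (h w) := by
  ext v
  simp only [Finset.mem_image, mem_orb]
  constructor
  · rintro ⟨u, ⟨y, hy, rfl⟩, rfl⟩
    refine ⟨h * y * h⁻¹, (Subgroup.mem_normalizer_iff.1 hh y).1 hy, by simp⟩
  · rintro ⟨y, hy, rfl⟩
    have h1 : h⁻¹ * y * h⁻¹⁻¹ ∈ P := (Subgroup.mem_normalizer_iff.1 ((Subgroup.normalizer _).inv_mem hh) y).1 hy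
    refine ⟨(h⁻¹ * y * h) w, ⟨_, by simpa using h1, rfl⟩, by simp⟩

theorem res_mem_normalizer {O : Finset α} {g : setStab O}
    (hg : g.1 ∈ Subgroup.normalizer (P : Set (Perm α))) :
    res O g ∈ Subgroup.normalizer (loc P O : Set (Perm O)) := by
  have key : ∀ g : setStab O, g.1 ∈ Subgroup.normalizer (P : Set (Perm α)) →
      ∀ z ∈ loc P O, res O g * z * (res O g)⁻¹ ∈ loc P O := by
    intro g hg z hz
    obtain ⟨y, hy, rfl⟩ := mem_loc.1 hz
    rw [← map_inv, ← map_mul, ← map_mul]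
    exact res_mem_loc ((Subgroup.mem_normalizer_iff.1 hg y.1).1 hy)
  rw [Subgroup.mem_normalizer_iff]
  intro z
  refine ⟨key g hg z, fun hz => ?_⟩
  have h1 := key g⁻¹ (by
    show (g.1)⁻¹ ∈ _
    exact (Subgroup.normalizer _).inv_mem hg) _ hz
  rw [map_inv] at h1
  simpa [mul_assoc] using h1

theorem exists_mult (hC : Cfg P F p) {h : Perm α}
    (hh : h ∈ Subgroup.normalizer (P : Set (Perm α))) {w : α} (hw : w ∉ F)
    (hs : h ∈ setStab (orb P w)) :
    ∃ μ : ℤ, ∀ y ∈ P, ∀ v ∈ orb P w, (h * y * h⁻¹) v = (y ^ μ) v := by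
  obtain ⟨μ, hμ⟩ := (hC.primeReg hw).exists_mult (res_mem_normalizer (g := ⟨h, hs⟩) hh)
  refine ⟨μ, fun y hy v hv => ?_⟩
  have h1 := hμ _ (hC.res_mem hy w)
  have h2 := congrArg (fun u : Perm (orb P w) => (u ⟨v, hv⟩ : α)) h1
  beta_reduce at h2
  rw [zpow_mem_of_res, ← map_inv, ← map_mul, ← map_mul, res_apply] at h2
  exact h2

/-- An element of the setwise stabilizer of an orbit commuting with `P` has `p`-th power trivial on
the orbit. -/
theorem pow_fix_of_commute (hC : Cfg P F p) {z : Perm α} {w : α} (hw : w ∉ F)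
    (hs : z ∈ setStab (orb P w)) (hcomm : ∀ y ∈ P, Commute z y) {v : α} (hv : v ∈ orb P w) :
    (z ^ p) v = v := by
  have hH := hC.primeReg hw
  have h3 : 1 < (orb P w).card := by rw [hC.card_orb w hw]; exact hC.prime.one_lt
  obtain ⟨u, hu, v', hv', huv⟩ := Finset.one_lt_card.1 h3
  have : ∃ y ∈ P, y w ≠ w := by
    by_contra hcon
    push_neg at hcon
    obtain ⟨a, ha, rfl⟩ := mem_orb.1 hu
    obtain ⟨b, hb, rfl⟩ := mem_orb.1 hv'
    rw [hcon a ha, hcon b hb] at huv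
    exact huv rfl
  obtain ⟨y, hy, hyw⟩ := this
  have hc : Commute (res (orb P w) ⟨z, hs⟩) (res (orb P w) ⟨y, mem_setStab_of_mem y hy w⟩) := by
    show _ * _ = _ * _
    rw [← map_mul, ← map_mul]
    congr 1
    exact Subtype.ext (hcomm y hy).eq
  have hmem := hH.mem_of_commute (hC.res_mem hy w) (hC.res_ne_one hy hyw) hc
  have h1 := hH.pow_eq_one hmem
  have h2 := congrArg (fun u : Perm (orb P w) => (u ⟨v, hv⟩ : α)) h1
  simp only [Perm.one_apply, ← map_pow, res_apply] at h2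
  exact h2

/-- Double commutators of elements of the normalizer preserving an orbit are trivial on it. -/
theorem dcomm_fix (hC : Cfg P F p) {w : α} (hw : w ∉ F) (N : Subgroup (Perm α))
    (hN : N ≤ Subgroup.normalizer (P : Set (Perm α))) (hNs : N ≤ setStab (orb P w))
    {z : Perm α} (hz : z ∈ ⁅⁅N, N⁆, ⁅N, N⁆⁆) {v : α} (hv : v ∈ orb P w) : z v = v := by
  have hH := hC.primeReg hw
  set O := orb P w with hO
  let Q : Subgroup (setStab O) := N.subgroupOf (setStab O)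
  have hQ : Q.map (setStab O).subtype = N := by
    rw [Subgroup.map_subgroupOf_eq_of_le hNs]
  let Qb : Subgroup (Perm O) := Q.map (res O)
  have hQb : Qb ≤ Subgroup.normalizer (loc P O : Set (Perm O)) := by
    rintro _ ⟨g, hg, rfl⟩
    exact res_mem_normalizer (hN hg)
  have h1 : ⁅Qb, Qb⁆ ≤ loc P O := by
    rw [Subgroup.commutator_le]
    intro a ha b hb
    exact hH.comm_mem (hQb ha) (hQb hb)
  have h2 : ⁅⁅Qb, Qb⁆, ⁅Qb, Qb⁆⁆ = ⊥ := by
    rw [eq_bot_iff, Subgroup.commutator_le]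
    intro a ha b hb
    rw [Subgroup.mem_bot, commutatorElement_eq_one_iff_commute]
    exact hH.commute_of_mem (h1 ha) (h1 hb)
  have h3 : ⁅⁅N, N⁆, ⁅N, N⁆⁆ = (⁅⁅Q, Q⁆, ⁅Q, Q⁆⁆ : Subgroup (setStab O)).map (setStab O).subtype := by
    simp only [Subgroup.map_commutator, hQ]
  rw [h3] at hz
  obtain ⟨y, hy, rfl⟩ := hz
  have h4 : res O y ∈ ⁅⁅Qb, Qb⁆, ⁅Qb, Qb⁆⁆ := by
    have : res O y ∈ (⁅⁅Q, Q⁆, ⁅Q, Q⁆⁆ : Subgroup (setStab O)).map (res O) := ⟨y, hy, rfl⟩
    simpa only [Subgroup.map_commutator] using this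
  rw [h2, Subgroup.mem_bot] at h4
  have h5 := congrArg (fun u : Perm O => (u ⟨v, hv⟩ : α)) h4
  simp only [Perm.one_apply, res_apply] at h5
  exact h5

end Cfg

section Phi

open Classical in
/-- The set of `P`-orbits outside `F`. -/
noncomputable def orbs (P : Subgroup (Perm α)) (F : Finset α) : Finset (Finset α) :=
  Fᶜ.image (orb P)

theorem mem_orbs {O : Finset α} : O ∈ orbs P F ↔ ∃ w, w ∉ F ∧ orb P w = O := by
  classical
  simp [orbs]

/-- The action of the normalizer on the orbits. -/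
noncomputable def phi (hC : Cfg P F p) :
    Subgroup.normalizer (P : Set (Perm α)) →* Perm (orbs P F) where
  toFun h :=
    { toFun := fun O => ⟨O.1.image h.1, by
        obtain ⟨w, hw, hO⟩ := mem_orbs.1 O.2
        rw [← hO, Cfg.image_orb h.2]
        exact mem_orbs.2 ⟨_, hC.notMem_of_normalizer h.2 hw, rfl⟩⟩
      invFun := fun O => ⟨O.1.image (⇑((h.1)⁻¹ : Perm α)), by
        obtain ⟨w, hw, hO⟩ := mem_orbs.1 O.2
        have hi := (Subgroup.normalizer (P : Set (Perm α))).inv_mem h.2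
        rw [← hO, Cfg.image_orb hi]
        exact mem_orbs.2 ⟨_, hC.notMem_of_normalizer hi hw, rfl⟩⟩
      left_inv := by
        intro O
        apply Subtype.ext
        simp [Finset.image_image]
      right_inv := by
        intro O
        apply Subtype.ext
        simp [Finset.image_image] }
  map_one' := by
    ext O v
    simp
  map_mul' := by
    intro a b
    ext O v
    simp [Finset.image_image]

theorem phi_apply (hC : Cfg P F p) (h : Subgroup.normalizer (P : Set (Perm α)))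
    (O : orbs P F) : ((phi hC h O : orbs P F) : Finset α) = O.1.image h.1 := rfl

theorem phi_eq_one_iff (hC : Cfg P F p) (h : Subgroup.normalizer (P : Set (Perm α))) :
    phi hC h = 1 ↔ ∀ w, w ∉ F → orb P (h.1 w) = orb P w := by
  constructor
  · intro h1 w hw
    have h2 := congrArg (fun f : Perm (orbs P F) => ((f ⟨orb P w, mem_orbs.2 ⟨w, hw, rfl⟩⟩ : orbs P F) : Finset α)) h1
    simp only [phi_apply, Perm.one_apply] at h2
    rwa [Cfg.image_orb h.2] at h2
  · intro h1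
    ext1 O
    obtain ⟨O, hO⟩ := O
    apply Subtype.ext
    obtain ⟨w, hw, rfl⟩ := mem_orbs.1 hO
    rw [phi_apply]
    simp only [Perm.one_apply]
    rw [Cfg.image_orb h.2, h1 w hw]

theorem Cfg.mem_setStab_F (hC : Cfg P F p) {h : Perm α}
    (hh : h ∈ Subgroup.normalizer (P : Set (Perm α))) : h ∈ setStab F := by
  intro v
  constructor
  · intro h1
    by_contra h2
    exact hC.notMem_of_normalizer hh h2 h1
  · intro h1
    by_contra h2
    have hi := (Subgroup.normalizer (P : Set (Perm α))).inv_mem hh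
    have := hC.notMem_of_normalizer hi h2
    have e : h⁻¹ (h v) = v := by simp
    rw [e] at this
    exact this h1

theorem Cfg.mem_setStab_of_phi (hC : Cfg P F p) {h : Subgroup.normalizer (P : Set (Perm α))}
    (hk : phi hC h = 1) {w : α} (hw : w ∉ F) : h.1 ∈ setStab (orb P w) := by
  have h1 := (phi_eq_one_iff hC h).1 hk
  intro v
  constructor
  · intro hv
    have hvF : v ∉ F := by
      intro hF
      exact hC.notMem_of_mem_orb hw hv ((hC.mem_setStab_F h.2 v).2 hF)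
    rw [← orb_eq_of_mem hv, h1 v hvF]
    exact self_mem_orb _
  · intro hv
    have hvF : v ∉ F := hC.notMem_of_mem_orb hw hv
    have h2 : h.1 v ∈ orb P (h.1 v) := self_mem_orb _
    rw [h1 v hvF, orb_eq_of_mem hv] at h2
    exact h2

theorem Cfg.card_orbs (hC : Cfg P F p) {k : ℕ} (hk : Fᶜ.card = k * p) : (orbs P F).card = k := by
  classical
  have h1 := Finset.card_eq_sum_card_image (orb P) Fᶜ
  have h2 : ∀ O ∈ Fᶜ.image (orb P), (Fᶜ.filter (fun a => orb P a = O)).card = p := by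
    intro O hO
    obtain ⟨w, hw, rfl⟩ := Finset.mem_image.1 hO
    have hw' : w ∉ F := by simpa using hw
    have : Fᶜ.filter (fun a => orb P a = orb P w) = orb P w := by
      ext v
      simp only [Finset.mem_filter, Finset.mem_compl]
      constructor
      · rintro ⟨_, h3⟩
        rw [← h3]
        exact self_mem_orb v
      · intro h3
        exact ⟨hC.notMem_of_mem_orb hw' h3, orb_eq_of_mem h3⟩
    rw [this]
    exact hC.card_orb w hw'
  rw [Finset.sum_congr rfl h2, Finset.sum_const, smul_eq_mul, hk] at h1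
  have hp := hC.prime.pos
  have h3 : (Fᶜ.image (orb P)).card = k := Nat.eq_of_mul_eq_mul_right hp h1.symm
  have h4 : orbs P F = Fᶜ.image (orb P) := by
    ext O
    rw [mem_orbs]
    simp
  rw [h4, h3]

end Phi

end Orbits

end Cfsg.Agent.Lib.KPR
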