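import Mathlib
import Cfsg.Agent.Lib.KPR1

/-!
# Degree `k p + r`: multipliers on the orbits

When `P` has at most three orbits outside `F` and no nontrivial element supported on one orbit, an
element of the normalizer preserving each orbit acts on `P` as a power map.
-/

set_option autoImplicit false
set_option linter.style.haveILetI false
set_option linter.unusedSectionVars false
set_option linter.unusedVariables false

namespace Cfsg.Agent.Lib.KPR

open Equiv Equiv.Perm MulAction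
open scoped commutatorElement

variable {α : Type*} [Fintype α] [DecidableEq α] {P : Subgroup (Perm α)} {F : Finset α} {p : ℕ}

namespace Cfg

theorem exists_moved (hC : Cfg P F p) {w : α} (hw : w ∉ F) : ∃ y ∈ P, y w ≠ w := by
  have h3 : 1 < (orb P w).card := by rw [hC.card_orb w hw]; exact hC.prime.one_lt
  obtain ⟨u, hu, v', hv', huv⟩ := Finset.one_lt_card.1 h3
  by_contra hcon
  push_neg at hcon
  obtain ⟨a, ha, rfl⟩ := mem_orb.1 hu
  obtain ⟨b, hb, rfl⟩ := mem_orb.1 hv'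
  rw [hcon a ha, hcon b hb] at huv
  exact huv rfl

/-- `μ` gives the multipliers of `h` on the orbits. -/
def IsMult (P : Subgroup (Perm α)) (h : Perm α) (O : Finset α) (μ : ℤ) : Prop :=
  ∀ y ∈ P, ∀ v ∈ O, (h * y * h⁻¹) v = (y ^ μ) v

/-- The key step: on an orbit with multiplier `μ`, the element `(h z h⁻¹) z^{-ν}` acts as
`z^{μ-ν}`. -/
theorem step_apply {h z : Perm α} {O : Finset α} {μ ν : ℤ} (hμ : IsMult P h O μ) (hz : z ∈ P)
    (hs : z ∈ setStab O) {v : α} (hv : v ∈ O) :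
    ((h * z * h⁻¹) * z ^ (-ν)) v = (z ^ (μ - ν)) v := by
  have h1 : (z ^ (-ν)) v ∈ O := by
    have : z ^ (-ν) ∈ setStab O := (setStab O).zpow_mem hs _
    exact (this v).2 hv
  rw [Perm.mul_apply, hμ z hz _ h1, ← Perm.mul_apply, ← zpow_add, sub_eq_add_neg]

theorem isolated_aux (hC : Cfg P F p) {h : Perm α}
    (hh : h ∈ Subgroup.normalizer (P : Set (Perm α))) {μ : Finset α → ℤ}
    (hμ : ∀ O ∈ orbs P F, IsMult P h O (μ O)) {w₀ : α} (hw₀ : w₀ ∉ F)
    (hiso : ∀ O ∈ orbs P F, O ≠ orb P w₀ → ¬ (μ O ≡ μ (orb P w₀) [ZMOD p]))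
    (S : Finset (Finset α)) (hS : S ⊆ orbs P F) (hS0 : orb P w₀ ∉ S) :
    ∃ z ∈ P, z w₀ ≠ w₀ ∧ ∀ O ∈ S, ∀ v ∈ O, z v = v := by
  classical
  induction S using Finset.induction_on with
  | empty =>
    obtain ⟨y, hy, hyw⟩ := hC.exists_moved hw₀
    exact ⟨y, hy, hyw, by simp⟩
  | insert O₁ S hO₁ ih =>
    have hS' : S ⊆ orbs P F := fun O hO => hS (Finset.mem_insert_of_mem hO)
    have hO₁T : O₁ ∈ orbs P F := hS (Finset.mem_insert_self _ _)
    have hne : O₁ ≠ orb P w₀ := fun e => hS0 (e ▸ Finset.mem_insert_self _ _)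
    obtain ⟨z, hz, hzw, hzS⟩ := ih hS' (fun e => hS0 (Finset.mem_insert_of_mem e))
    set ν := μ O₁ with hν
    have hstab : ∀ O ∈ orbs P F, z ∈ setStab O := by
      intro O hO
      obtain ⟨w, -, rfl⟩ := mem_orbs.1 hO
      exact mem_setStab_of_mem z hz w
    have hconj : h * z * h⁻¹ ∈ P := (Subgroup.mem_normalizer_iff.1 hh z).1 hz
    refine ⟨(h * z * h⁻¹) * z ^ (-ν), P.mul_mem hconj (P.zpow_mem hz _), ?_, ?_⟩
    · rw [step_apply (hμ _ (mem_orbs.2 ⟨w₀, hw₀, rfl⟩)) hz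
        (mem_setStab_of_mem z hz w₀) (self_mem_orb w₀)]
      intro hfix
      have hd := hC.dvd_of_zpow_fix hz hw₀ hzw hfix
      apply hiso O₁ hO₁T hne
      exact (Int.modEq_iff_dvd).2 hd
    · intro O hO v hv
      rcases Finset.mem_insert.1 hO with rfl | hOS
      · rw [step_apply (hμ _ hO₁T) hz (hstab _ hO₁T) hv, sub_self, zpow_zero, Perm.one_apply]
      · have hOT := hS' hOS
        rw [step_apply (hμ _ hOT) hz (hstab _ hOT) hv]
        exact zpow_apply_eq_self_of_apply_eq_self (hzS O hOS v hv) _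

/-- An isolated multiplier produces an element of `P` supported on one orbit. -/
theorem isolated (hC : Cfg P F p) {h : Perm α}
    (hh : h ∈ Subgroup.normalizer (P : Set (Perm α))) {μ : Finset α → ℤ}
    (hμ : ∀ O ∈ orbs P F, IsMult P h O (μ O)) {w₀ : α} (hw₀ : w₀ ∉ F)
    (hiso : ∀ O ∈ orbs P F, O ≠ orb P w₀ → ¬ (μ O ≡ μ (orb P w₀) [ZMOD p])) :
    ∃ z ∈ P, z w₀ ≠ w₀ ∧ ∀ v, v ∉ orb P w₀ → z v = v := by
  classical
  obtain ⟨z, hz, hzw, hzS⟩ := hC.isolated_aux hh hμ hw₀ hiso ((orbs P F).erase (orb P w₀))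
    (Finset.erase_subset _ _) (Finset.notMem_erase _ _)
  refine ⟨z, hz, hzw, fun v hv => ?_⟩
  by_cases hvF : v ∈ F
  · exact hC.fix z hz v hvF
  · refine hzS (orb P v) ?_ v (self_mem_orb v)
    refine Finset.mem_erase.2 ⟨?_, mem_orbs.2 ⟨v, hvF, rfl⟩⟩
    intro e
    exact hv (e ▸ self_mem_orb v)

/-- No nontrivial element of `P` is supported on one orbit. -/
def NoWeightOne (P : Subgroup (Perm α)) (F : Finset α) : Prop :=
  ∀ z ∈ P, ∀ w₀, w₀ ∉ F → z w₀ ≠ w₀ → ¬ ∀ v, v ∉ orb P w₀ → z v = v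

theorem mult_const (hC : Cfg P F p) (hW : NoWeightOne P F) (hT : (orbs P F).card ≤ 3) {h : Perm α}
    (hh : h ∈ Subgroup.normalizer (P : Set (Perm α))) {μ : Finset α → ℤ}
    (hμ : ∀ O ∈ orbs P F, IsMult P h O (μ O)) {O₁ O₂ : Finset α} (hO₁ : O₁ ∈ orbs P F)
    (hO₂ : O₂ ∈ orbs P F) : μ O₁ ≡ μ O₂ [ZMOD p] := by
  classical
  have hiso : ∀ O₀ ∈ orbs P F, ¬ ∀ O ∈ orbs P F, O ≠ O₀ → ¬ (μ O ≡ μ O₀ [ZMOD p]) := by
    intro O₀ hO₀ hcon
    obtain ⟨w₀, hw₀, rfl⟩ := mem_orbs.1 hO₀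
    obtain ⟨z, hz, hzw, hz2⟩ := hC.isolated hh hμ hw₀ hcon
    exact hW z hz w₀ hw₀ hzw hz2
  by_contra hne
  have h1 := hiso O₁ hO₁
  push_neg at h1
  obtain ⟨O₃, hO₃, hne3, hmod3⟩ := h1
  have hne32 : O₃ ≠ O₂ := by
    rintro rfl
    exact hne hmod3.symm
  have hne12 : O₁ ≠ O₂ := by
    rintro rfl
    exact hne (Int.ModEq.refl _)
  have hsub : ({O₁, O₂, O₃} : Finset (Finset α)) ⊆ orbs P F := by
    intro O hO
    simp only [Finset.mem_insert, Finset.mem_singleton] at hO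
    rcases hO with rfl | rfl | rfl <;> assumption
  have hcard : ({O₁, O₂, O₃} : Finset (Finset α)).card = 3 :=
    Finset.card_eq_three.2 ⟨O₁, O₂, O₃, hne12, hne3.symm, hne32.symm, rfl⟩
  have heq := Finset.eq_of_subset_of_card_le hsub (by rw [hcard]; exact hT)
  apply hiso O₂ hO₂
  intro O hO hO2 hmod
  rw [← heq] at hO
  simp only [Finset.mem_insert, Finset.mem_singleton] at hO
  rcases hO with rfl | rfl | rfl
  · exact hne hmod
  · exact hO2 rfl
  · exact hne (hmod3.symm.trans hmod)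

/-- Under the weight hypothesis, elements preserving each orbit act on `P` by a power map. -/
theorem exists_power_map (hC : Cfg P F p) (hW : NoWeightOne P F) (hT : (orbs P F).card ≤ 3)
    {h : Subgroup.normalizer (P : Set (Perm α))} (hk : phi hC h = 1) :
    ∃ μ : ℤ, ∀ y ∈ P, h.1 * y * h.1⁻¹ = y ^ μ := by
  classical
  have hex : ∀ O ∈ orbs P F, ∃ m : ℤ, IsMult P h.1 O m := by
    intro O hO
    obtain ⟨w, hw, rfl⟩ := mem_orbs.1 hO
    exact hC.exists_mult h.2 hw (hC.mem_setStab_of_phi hk hw)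
  choose! μ hμ using hex
  by_cases hne : (orbs P F).Nonempty
  · obtain ⟨O₁, hO₁⟩ := hne
    refine ⟨μ O₁, fun y hy => ?_⟩
    ext v
    by_cases hv : v ∈ F
    · rw [hC.fix _ ((Subgroup.mem_normalizer_iff.1 h.2 y).1 hy) v hv]
      exact (zpow_apply_eq_self_of_apply_eq_self (hC.fix y hy v hv) _).symm
    · have hvT : orb P v ∈ orbs P F := mem_orbs.2 ⟨v, hv, rfl⟩
      rw [hμ _ hvT y hy v (self_mem_orb v), hC.zpow_eq_of_modEq hy
        (hC.mult_const hW hT h.2 hμ hvT hO₁)]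
  · refine ⟨0, fun y hy => ?_⟩
    ext v
    have hv : v ∈ F := by
      by_contra hv
      exact hne ⟨_, mem_orbs.2 ⟨v, hv, rfl⟩⟩
    rw [hC.fix _ ((Subgroup.mem_normalizer_iff.1 h.2 y).1 hy) v hv]
    simp

/-- The commutator of an element acting as a power map with an element of the normalizer centralizes
`P`. -/
theorem commute_comm_of_power {h g : Perm α} {μ : ℤ} (hμ : ∀ y ∈ P, h * y * h⁻¹ = y ^ μ)
    (hh : h ∈ Subgroup.normalizer (P : Set (Perm α)))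
    (hg : g ∈ Subgroup.normalizer (P : Set (Perm α))) {y : Perm α} (hy : y ∈ P) :
    Commute ⁅h, g⁆ y := by
  have hgi := (Subgroup.normalizer (P : Set (Perm α))).inv_mem hg
  have hhi := (Subgroup.normalizer (P : Set (Perm α))).inv_mem hh
  have h1 : g⁻¹ * y * g ∈ P := by
    simpa using (Subgroup.mem_normalizer_iff.1 hgi y).1 hy
  have h2 : h⁻¹ * (g⁻¹ * y * g) * h ∈ P := by
    simpa using (Subgroup.mem_normalizer_iff.1 hhi _).1 h1
  have e2 : (h⁻¹ * (g⁻¹ * y * g) * h) ^ μ = g⁻¹ * y * g := by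
    rw [← hμ _ h2]; group
  have h3 : g * (h⁻¹ * (g⁻¹ * y * g) * h) * g⁻¹ ∈ P := (Subgroup.mem_normalizer_iff.1 hg _).1 h2
  have e3 : (g * (h⁻¹ * (g⁻¹ * y * g) * h) * g⁻¹) ^ μ = y := by
    rw [conj_zpow, e2]; group
  have e4 := hμ _ h3
  rw [e3] at e4
  have e5 : ⁅h, g⁆ * y * ⁅h, g⁆⁻¹ = y := by
    rw [commutatorElement_def]
    have e6 : h * g * h⁻¹ * g⁻¹ * y * (h * g * h⁻¹ * g⁻¹)⁻¹
        = h * (g * (h⁻¹ * (g⁻¹ * y * g) * h) * g⁻¹) * h⁻¹ := by group
    rw [e6, e4]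
  show ⁅h, g⁆ * y = y * ⁅h, g⁆
  exact eq_mul_of_mul_inv_eq e5

end Cfg

end Cfsg.Agent.Lib.KPR
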