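import Mathlib
import Cfsg.Agent.Lib.KPR2

/-!
# Degree `k p + r`: the Sylow subgroup of the pointwise stabilizer of `r` points
-/

set_option autoImplicit false
set_option linter.style.haveILetI false
set_option linter.unusedSectionVars false
set_option linter.unusedVariables false

namespace Cfsg.Agent.Lib.KPR

open Equiv Equiv.Perm MulAction
open scoped commutatorElement

open Cfsg.Agent.Lib.PrimeCycleJ (ptStab mem_ptStab IndSym indSym_of_mult)

theorem mem_normalizer_of_conj_mem {A : Type*} [Group A] [Finite A] {P : Subgroup A} {c : A}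
    (h : ∀ y ∈ P, c * y * c⁻¹ ∈ P) : c ∈ Subgroup.normalizer (P : Set A) := by
  rw [Subgroup.mem_normalizer_iff]
  intro y
  refine ⟨h y, fun hy => ?_⟩
  let f : P → P := fun y => ⟨c * y.1 * c⁻¹, h y.1 y.2⟩
  have hf : Function.Injective f := by
    intro a b hab
    apply Subtype.ext
    have := congrArg Subtype.val hab
    simpa [f] using this
  obtain ⟨y', hy'⟩ := Finite.surjective_of_injective hf ⟨_, hy⟩
  have h2 : c * y'.1 * c⁻¹ = c * y * c⁻¹ := congrArg Subtype.val hy'
  have h3 : y'.1 = y := by simpa using h2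
  exact h3 ▸ y'.2

/-- The Frattini argument for an element normalizing `L`. -/
theorem exists_mul_mem_normalizer {A : Type*} [Group A] [Finite A] {p : ℕ} [Fact p.Prime]
    (L : Subgroup A) (S : Sylow p L) (g : A) (hg : ∀ x ∈ L, g * x * g⁻¹ ∈ L) :
    ∃ l ∈ L, l * g ∈ Subgroup.normalizer (((S : Subgroup L).map L.subtype : Subgroup A) : Set A) := by
  classical
  let σ : L →* L :=
    { toFun := fun x => ⟨g * x.1 * g⁻¹, hg x.1 x.2⟩
      map_one' := by ext; simp
      map_mul' := by intro a b; ext; simp [mul_assoc] }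
  have hσ : Function.Injective σ := by
    intro a b hab
    apply Subtype.ext
    have h2 : g * a.1 * g⁻¹ = g * b.1 * g⁻¹ := congrArg Subtype.val hab
    simpa using h2
  let Q0 : Subgroup L := (S : Subgroup L).map σ
  have hcard : Nat.card Q0 = p ^ (Nat.card L).factorization p := by
    have h1 : Nat.card Q0 = Nat.card (S : Subgroup L) :=
      Nat.card_congr (Subgroup.equivMapOfInjective _ _ hσ).symm.toEquiv
    rw [h1]
    exact Sylow.card_eq_multiplicity S
  let Q : Sylow p L := Sylow.ofCard Q0 hcard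
  obtain ⟨l, hl⟩ := MulAction.exists_smul_eq L Q S
  refine ⟨l.1, l.2, mem_normalizer_of_conj_mem ?_⟩
  rintro _ ⟨y, hy, rfl⟩
  have h1 : σ y ∈ (Q : Subgroup L) := by
    show σ y ∈ Q0
    exact ⟨y, hy, rfl⟩
  have h2 : l * σ y * l⁻¹ ∈ ((l • Q : Sylow p L) : Subgroup L) := by
    rw [Sylow.coe_subgroup_smul, Subgroup.mem_pointwise_smul_iff_inv_smul_mem]
    simpa [mul_assoc] using h1
  rw [hl] at h2
  refine ⟨_, h2, ?_⟩
  simp [σ, mul_assoc]

variable {α : Type*} [Fintype α] [DecidableEq α]

/-- From multiple transitivity: the pointwise stabilizer of `r` points is transitive on the rest. -/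
theorem ptStab_trans {G : Subgroup (Perm α)} {r : ℕ} (hG : IsMultiplyPretransitive G α (r + 1))
    {F : Finset α} (hF : F.card = r) {v w : α} (hv : v ∉ F) (hw : w ∉ F) :
    ∃ g ∈ ptStab G F, g v = w := by
  let e : Fin r ≃ F := (Finset.equivFinOfCardEq hF).symm
  have hinj : Function.Injective (fun i : Fin r => (e i : α)) := fun i j hij =>
    e.injective (Subtype.ext hij)
  have hmk : ∀ x : α, x ∉ F → Function.Injective (Fin.cons x (fun i : Fin r => (e i : α)) :
      Fin (r + 1) → α) := by
    intro x hx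
    rw [Fin.cons_injective_iff]
    refine ⟨?_, hinj⟩
    rintro ⟨i, hi⟩
    exact hx (hi ▸ (e i).2)
  let u₁ : Fin (r + 1) ↪ α := ⟨_, hmk v hv⟩
  let u₂ : Fin (r + 1) ↪ α := ⟨_, hmk w hw⟩
  obtain ⟨g, hg⟩ := (isMultiplyPretransitive_iff.1 hG) u₁ u₂
  refine ⟨g, ⟨g.2, fun x hx => ?_⟩, ?_⟩
  · have := DFunLike.congr_fun hg (Fin.succ (e.symm ⟨x, hx⟩))
    have h1 : g • x = x := by simpa [u₁, u₂] using this
    exact h1
  · have := DFunLike.congr_fun hg 0
    have h1 : g • v = w := by simpa [u₁, u₂] using this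
    exact h1

/-- A Sylow `p`-subgroup of the pointwise stabilizer of `r` points, `|α| = k p + r`, `1 ≤ k < p`. -/
theorem exists_cfg {G : Subgroup (Perm α)} {k p r : ℕ} (hp : p.Prime)
    (hn : Fintype.card α = k * p + r) (hk : 1 ≤ k) (hpk : k < p)
    (hG : IsMultiplyPretransitive G α (r + 1)) {F : Finset α} (hF : F.card = r) :
    ∃ P : Subgroup (Perm α), P ≤ G ∧ Cfg P F p ∧
      ∀ π : Perm α, (∀ w ∈ F, π w ∈ F) →
        ∃ h ∈ G, h ∈ Subgroup.normalizer (P : Set (Perm α)) ∧ ∀ w ∈ F, h w = π w := by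
  classical
  haveI : Fact p.Prime := ⟨hp⟩
  set L := ptStab G F with hL
  let S : Sylow p L := default
  let P : Subgroup (Perm α) := (S : Subgroup L).map L.subtype
  have hPL : P ≤ L := by
    rintro _ ⟨y, -, rfl⟩
    exact y.2
  have hPG : P ≤ G := fun y hy => (hPL hy).1
  have hfix : ∀ y ∈ P, ∀ w ∈ F, y w = w := fun y hy => (hPL hy).2
  have hpg : IsPGroup p P := S.2.map _
  have hcompl : Fᶜ.card = k * p := by
    rw [Finset.card_compl, hn, hF]; omega
  have hcard : ∀ w, w ∉ F → (orb P w).card = p := by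
    intro w hw
    -- orbit-stabilizer in `L`
    have horbL : Nat.card (MulAction.orbit L w) = k * p := by
      have : MulAction.orbit L w = ((Fᶜ : Finset α) : Set α) := by
        ext v
        simp only [MulAction.mem_orbit_iff, Finset.coe_compl, Set.mem_compl_iff, Finset.mem_coe]
        constructor
        · rintro ⟨y, rfl⟩ hv
          have h1 := y.2.2 _ hv
          have h2 : (y : Perm α) ((y : Perm α) w) = (y : Perm α) w := h1
          exact hw ((y : Perm α).injective h2 ▸ hv)
        · intro hv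
          obtain ⟨g, hg, hgw⟩ := ptStab_trans hG hF hw hv
          exact ⟨⟨g, hg⟩, hgw⟩
      rw [this, Nat.card_coe_set_eq, Set.ncard_coe_finset, hcompl]
    have hos := MulAction.card_orbit_mul_card_stabilizer_eq_card_group L w
    simp only [← Nat.card_eq_fintype_card] at hos
    rw [horbL] at hos
    -- the orbit of `P`
    have horbP : ((orb P w : Finset α) : Set α) = MulAction.orbit P w := by
      ext v
      simp only [Finset.mem_coe, mem_orb, MulAction.mem_orbit_iff]
      constructor
      · rintro ⟨y, hy, rfl⟩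
        exact ⟨⟨y, hy⟩, rfl⟩
      · rintro ⟨y, rfl⟩
        exact ⟨y.1, y.2, rfl⟩
    obtain ⟨n, hnp⟩ := hpg.card_orbit w
    have hcardP : (orb P w).card = p ^ n := by
      rw [← hnp, ← horbP, Nat.card_coe_set_eq, Set.ncard_coe_finset]
    -- `P` moves `w`
    have hn0 : n ≠ 0 := by
      rintro rfl
      rw [pow_zero] at hcardP
      have hsing : ∀ y ∈ P, y w = w := by
        intro y hy
        have h1 : y w ∈ orb P w := mem_orb.2 ⟨y, hy, rfl⟩
        exact Finset.card_le_one.1 hcardP.le _ h1 _ (self_mem_orb w)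
      have hle : (S : Subgroup L) ≤ MulAction.stabilizer L w := by
        intro y hy
        exact hsing _ ⟨y, hy, rfl⟩
      have hdvd := Subgroup.card_dvd_of_le hle
      rw [Sylow.card_eq_multiplicity S] at hdvd
      have hne : Nat.card L ≠ 0 := Nat.card_pos.ne'
      apply Nat.pow_succ_factorization_not_dvd hne hp
      have h5 : p ^ ((Nat.card L).factorization p) * p ∣ Nat.card L := by
        calc _ = p * p ^ ((Nat.card L).factorization p) := mul_comm _ _
          _ ∣ k * p * Nat.card (MulAction.stabilizer L w) :=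
            mul_dvd_mul (Dvd.intro_left k rfl) hdvd
          _ = Nat.card L := hos
      rw [pow_succ]
      exact h5
    -- the orbit lies outside `F`
    have hle : (orb P w).card ≤ k * p := by
      rw [← hcompl]
      apply Finset.card_le_card
      intro v hv
      obtain ⟨y, hy, rfl⟩ := mem_orb.1 hv
      rw [Finset.mem_compl]
      intro h1
      have h2 := hfix y hy _ h1
      exact hw ((y.injective h2) ▸ h1)
    have hn1 : n = 1 := by
      by_contra hne
      have h2 : 2 ≤ n := by omega
      have h3 : p ^ 2 ≤ p ^ n := Nat.pow_le_pow_right hp.pos h2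
      rw [hcardP] at hle
      have h4 : k * p < p * p := Nat.mul_lt_mul_of_lt_of_le hpk le_rfl hp.pos
      nlinarith
    rw [hcardP, hn1, pow_one]
  refine ⟨P, hPG, ⟨hp, hpg, hfix, hcard⟩, ?_⟩
  intro π hπ
  have hind : IndSym G F := indSym_of_mult hG (by omega) (by
    rw [Nat.card_eq_fintype_card, hn]
    have : 1 ≤ k * p := Nat.mul_pos hk hp.pos
    omega)
  obtain ⟨g, hg, hgπ⟩ := hind π hπ
  have hgF : ∀ w ∈ F, g w ∈ F := fun w hw => by rw [hgπ w hw]; exact hπ w hw
  have hgF' : ∀ w ∈ F, g⁻¹ w ∈ F := by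
    have himg : F.image g = F := by
      apply Finset.eq_of_subset_of_card_le
      · intro w hw
        obtain ⟨v, hv, rfl⟩ := Finset.mem_image.1 hw
        exact hgF v hv
      · rw [Finset.card_image_of_injective _ g.injective]
    intro w hw
    rw [← himg] at hw
    obtain ⟨v, hv, rfl⟩ := Finset.mem_image.1 hw
    simpa using hv
  have hnorm : ∀ x ∈ L, g * x * g⁻¹ ∈ L := by
    intro x hx
    refine ⟨G.mul_mem (G.mul_mem hg hx.1) (G.inv_mem hg), fun w hw => ?_⟩
    simp only [Perm.mul_apply]
    rw [hx.2 _ (hgF' w hw)]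
    simp
  obtain ⟨l, hl, hln⟩ := exists_mul_mem_normalizer L S g hnorm
  refine ⟨l * g, G.mul_mem hl.1 hg, hln, fun w hw => ?_⟩
  rw [Perm.mul_apply, hgπ w hw]
  exact hl.2 _ (hπ w hw)

end Cfsg.Agent.Lib.KPR
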