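import Mathlib
import Cfsg.Agent.Lib.KPR3

/-!
# Degree `k p + r`: at least five fixed points
-/

set_option autoImplicit false
set_option linter.style.haveILetI false
set_option linter.unusedSectionVars false
set_option linter.unusedVariables false

namespace Cfsg.Agent.Lib.KPR

open Equiv Equiv.Perm MulAction
open scoped commutatorElement

variable {α : Type*} [Fintype α] [DecidableEq α] {P : Subgroup (Perm α)} {F : Finset α} {p : ℕ}

theorem case_ge_five {G : Subgroup (Perm α)} (hC : Cfg P F p) (hPG : P ≤ G)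
    (hWitt : ∀ π : Perm α, (∀ w ∈ F, π w ∈ F) →
      ∃ h ∈ G, h ∈ Subgroup.normalizer (P : Set (Perm α)) ∧ ∀ w ∈ F, h w = π w)
    (hprim : IsPreprimitive G α) (h5 : 5 ≤ F.card) (hT : (orbs P F).card < F.card) :
    alternatingGroup α ≤ G := by
  classical
  set Nz := Subgroup.normalizer (P : Set (Perm α)) with hNz
  let Nrm : Subgroup (Perm α) := Nz ⊓ G
  have hNS : Nrm ≤ setStab F := fun h hh => hC.mem_setStab_F hh.1
  let a : Nrm →* Perm (orbs P F) := (phi hC).comp (Subgroup.inclusion inf_le_left)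
  let b : Nrm →* Perm F := (res F).comp (Subgroup.inclusion hNS)
  have hb : Function.Surjective b := by
    intro πb
    obtain ⟨h, hhG, hhn, hhπ⟩ := hWitt (ofSubtype πb) (fun w hw => by
      rw [ofSubtype_apply_of_mem _ hw]
      exact (πb ⟨w, hw⟩).2)
    refine ⟨⟨h, hhn, hhG⟩, ?_⟩
    ext w
    show h w.1 = (πb w).1
    rw [hhπ w.1 w.2, ofSubtype_apply_of_mem _ w.2]
  have hcardF : Nat.card F = F.card := by
    rw [Nat.card_eq_fintype_card, Fintype.card_coe]
  let K : Subgroup (Perm F) := a.ker.map b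
  haveI hKn : K.Normal := Subgroup.Normal.map inferInstance b hb
  have hK : K ≠ ⊥ := by
    intro hbot
    have hle : a.ker ≤ b.ker := (Subgroup.map_eq_bot_iff _).1 hbot
    have h1 := Subgroup.index_dvd_of_le hle
    rw [Subgroup.index_ker, Subgroup.index_ker] at h1
    have h2 : Nat.card b.range = (F.card).factorial := by
      rw [MonoidHom.range_eq_top.2 hb, Subgroup.card_top, Nat.card_perm, hcardF]
    have h3 : Nat.card a.range ∣ ((orbs P F).card).factorial := by
      have := Subgroup.card_subgroup_dvd_card a.range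
      rwa [Nat.card_perm, Nat.card_eq_fintype_card (α := ↥(orbs P F)), Fintype.card_coe] at this
    rw [h2] at h1
    have h4 := Nat.le_of_dvd (Nat.factorial_pos _) (h1.trans h3)
    have hpos : 0 < (orbs P F).card ∨ (orbs P F).card = 0 := by omega
    rcases hpos with hpos | h0
    · exact absurd h4 (not_le.2 ((Nat.factorial_lt hpos).2 hT))
    · rw [h0, Nat.factorial_zero] at h4
      have : 1 < (F.card).factorial := by
        calc 1 = (1 : ℕ).factorial := rfl
          _ < (F.card).factorial := (Nat.factorial_lt (by norm_num)).2 (by omega)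
      omega
  haveI hKnt : Nontrivial K := (Subgroup.nontrivial_iff_ne_bot K).2 hK
  have hAK : alternatingGroup F ≤ K :=
    Equiv.Perm.alternatingGroup_le_of_normal (by rw [hcardF]; exact h5) hKnt
  have hA5 : 5 ≤ Nat.card F := by rw [hcardF]; exact h5
  have hperf := commutator_alternatingGroup_eq_self (α := F) hA5
  have hAD : alternatingGroup F ≤ (⁅⁅a.ker, a.ker⁆, ⁅a.ker, a.ker⁆⁆ : Subgroup Nrm).map b := by
    simp only [Subgroup.map_commutator]
    have h1 : ⁅alternatingGroup F, alternatingGroup F⁆ ≤ ⁅K, K⁆ := Subgroup.commutator_mono hAK hAK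
    have h2 : ⁅⁅alternatingGroup F, alternatingGroup F⁆, ⁅alternatingGroup F, alternatingGroup F⁆⁆
        ≤ ⁅⁅K, K⁆, ⁅K, K⁆⁆ := Subgroup.commutator_mono h1 h1
    rw [hperf, hperf] at h2
    exact h2
  -- a three-cycle on `F`
  have h3 : 2 < F.card := by omega
  obtain ⟨x, hx, y, hy, z, hz, hxy, hxz, hyz⟩ := Finset.two_lt_card.1 h3
  let x' : F := ⟨x, hx⟩
  let y' : F := ⟨y, hy⟩
  let z' : F := ⟨z, hz⟩
  have hc : IsThreeCycle (swap x' y' * swap x' z') :=
    isThreeCycle_swap_mul_swap_same (fun e => hxy (congrArg Subtype.val e))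
      (fun e => hxz (congrArg Subtype.val e)) (fun e => hyz (congrArg Subtype.val e))
  obtain ⟨g, hg, hgb⟩ := hAD (mem_alternatingGroup.2 hc.sign)
  -- `g` is trivial outside `F`
  let N₀ : Subgroup (Perm α) := a.ker.map Nrm.subtype
  have hN₀ : N₀ ≤ Nz := by
    rintro _ ⟨u, -, rfl⟩
    exact u.2.1
  have hgN : g.1 ∈ ⁅⁅N₀, N₀⁆, ⁅N₀, N₀⁆⁆ := by
    have : g.1 ∈ (⁅⁅a.ker, a.ker⁆, ⁅a.ker, a.ker⁆⁆ : Subgroup Nrm).map Nrm.subtype := ⟨g, hg, rfl⟩
    simpa only [Subgroup.map_commutator] using this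
  have hgfix : ∀ w, w ∉ F → g.1 w = w := by
    intro w hw
    refine hC.dcomm_fix hw N₀ hN₀ ?_ hgN (self_mem_orb w)
    rintro _ ⟨u, hu, rfl⟩
    exact hC.mem_setStab_of_phi (h := ⟨u.1, u.2.1⟩) hu hw
  have hgeq : g.1 = ofSubtype (swap x' y' * swap x' z') := by
    ext w
    by_cases hw : w ∈ F
    · rw [ofSubtype_apply_of_mem _ hw]
      have h1 := congrArg (fun f : Perm F => (f ⟨w, hw⟩ : α)) hgb
      exact h1
    · rw [ofSubtype_apply_of_not_mem _ hw]
      exact hgfix w hw
  have hg3 : IsThreeCycle g.1 := by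
    rw [hgeq, IsThreeCycle, cycleType_ofSubtype]
    exact hc
  exact alternatingGroup_le_of_isPreprimitive_of_isThreeCycle_mem hprim hg3 g.2.2

end Cfsg.Agent.Lib.KPR
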