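import Mathlib
import Cfsg.Agent.Lib.KPR4

/-!
# Degree `k p + r`: three or four fixed points
-/

set_option autoImplicit false
set_option linter.style.haveILetI false
set_option linter.unusedSectionVars false
set_option linter.unusedVariables false

namespace Cfsg.Agent.Lib.KPR

open Equiv Equiv.Perm MulAction
open scoped commutatorElement

section Small

set_option maxRecDepth 100000 in
theorem comm_fin3 : ∀ x y : Perm (Fin 3), sign x = 1 → sign y = 1 → x * y = y * x := by decide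

theorem comm_eq_one_of_fin_le_two {m : ℕ} (hm : m ≤ 2) (a b : Perm (Fin m)) : ⁅a, b⁆ = 1 := by
  interval_cases m
  · revert a b; decide
  · revert a b; decide
  · revert a b; decide

theorem comm_eq_one_of_card_le_two {X : Type*} [Fintype X] [DecidableEq X]
    (hX : Fintype.card X ≤ 2) (a b : Perm X) : ⁅a, b⁆ = 1 := by
  let e := Fintype.equivFin X
  have h1 := comm_eq_one_of_fin_le_two hX (e.permCongrHom a) (e.permCongrHom b)
  apply e.permCongrHom.injective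
  rw [map_commutatorElement, h1, map_one]

theorem dcomm_eq_one_of_card_le_three {X : Type*} [Fintype X] [DecidableEq X]
    (hX : Fintype.card X ≤ 3) (a b c d : Perm X) : ⁅⁅a, b⁆, ⁅c, d⁆⁆ = 1 := by
  by_cases h2 : Fintype.card X ≤ 2
  · rw [comm_eq_one_of_card_le_two h2 a b, comm_eq_one_of_card_le_two h2 c d]
    simp
  · have h3 : Fintype.card X = 3 := by omega
    let e : X ≃ Fin 3 := Fintype.equivFinOfCardEq h3
    apply e.permCongrHom.injective
    rw [map_commutatorElement, map_commutatorElement, map_commutatorElement, map_one,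
      commutatorElement_eq_one_iff_commute]
    have hu : ∀ u v : ℤˣ, u * v * u * v = 1 := by decide
    apply comm_fin3
    · simpa [commutatorElement_def] using hu _ _
    · simpa [commutatorElement_def] using hu _ _

end Small

variable {α : Type*} [Fintype α] [DecidableEq α] {P : Subgroup (Perm α)} {F : Finset α} {p : ℕ}

/-- `h` acts on the labelled points as `π`. -/
def Lift {n : ℕ} (ε : Fin n → α) (h : Perm α) (π : Perm (Fin n)) : Prop :=
  ∀ i, h (ε i) = ε (π i)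

namespace Lift

variable {n : ℕ} {ε : Fin n → α} {h g : Perm α} {π σ : Perm (Fin n)}

theorem mul (h1 : Lift ε h π) (h2 : Lift ε g σ) : Lift ε (h * g) (π * σ) := by
  intro i
  rw [Perm.mul_apply, h2 i, h1 (σ i), Perm.mul_apply]

theorem inv (h1 : Lift ε h π) : Lift ε h⁻¹ π⁻¹ := by
  intro i
  rw [Perm.inv_eq_iff_eq, h1]
  simp

theorem comm (h1 : Lift ε h π) (h2 : Lift ε g σ) : Lift ε ⁅h, g⁆ ⁅π, σ⁆ := by
  rw [commutatorElement_def, commutatorElement_def]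
  exact ((h1.mul h2).mul h1.inv).mul h2.inv

theorem pow (h1 : Lift ε h π) (m : ℕ) : Lift ε (h ^ m) (π ^ m) := by
  induction m with
  | zero => intro i; simp
  | succ m ih =>
    rw [pow_succ, pow_succ]
    exact ih.mul h1

end Lift

/-- Lifts of permutations of labelled points of `F` to the normalizer. -/
theorem exists_lift {G : Subgroup (Perm α)} {n : ℕ} (ε : Fin n ≃ F)
    (hWitt : ∀ π : Perm α, (∀ w ∈ F, π w ∈ F) →
      ∃ h ∈ G, h ∈ Subgroup.normalizer (P : Set (Perm α)) ∧ ∀ w ∈ F, h w = π w)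
    (π : Perm (Fin n)) :
    ∃ h : Subgroup.normalizer (P : Set (Perm α)), h.1 ∈ G ∧ Lift (fun i => (ε i : α)) h.1 π := by
  let πb : Perm F := ε.permCongr π
  obtain ⟨h, hhG, hhn, hhπ⟩ := hWitt (ofSubtype πb) (fun w hw => by
    rw [ofSubtype_apply_of_mem _ hw]
    exact (πb ⟨w, hw⟩).2)
  refine ⟨⟨h, hhn⟩, hhG, fun i => ?_⟩
  show h (ε i : α) = _
  rw [hhπ _ (ε i).2]
  have : (ofSubtype πb) (ε i : α) = (πb (ε i) : α) := ofSubtype_apply_of_mem _ (ε i).2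
  rw [this]
  simp [πb, Equiv.permCongr_apply]

set_option maxRecDepth 100000 in
theorem sigma_facts : (⁅⁅swap (0 : Fin 3) 1, swap (0 : Fin 3) 2⁆, swap (0 : Fin 3) 1⁆ ^ 3 = 1) ∧
    (∀ i, ⁅⁅swap (0 : Fin 3) 1, swap (0 : Fin 3) 2⁆, swap (0 : Fin 3) 1⁆ i ≠ i) ∧
    (∀ i, (⁅⁅swap (0 : Fin 3) 1, swap (0 : Fin 3) 2⁆, swap (0 : Fin 3) 1⁆ ^ 2) i ≠ i) := by
  decide

/-- The core of the small cases. -/
theorem exists_small_element {G : Subgroup (Perm α)} (hC : Cfg P F p) (hW : Cfg.NoWeightOne P F)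
    (hT : (orbs P F).card ≤ 3) {z₀ g : Subgroup.normalizer (P : Set (Perm α))}
    (hz₀ : phi hC z₀ = 1) (hz₀G : z₀.1 ∈ G) (hgG : g.1 ∈ G) :
    ⁅z₀.1, g.1⁆ ^ p ∈ G ∧ ∀ w, w ∉ F → (⁅z₀.1, g.1⁆ ^ p) w = w := by
  obtain ⟨μ, hμ⟩ := hC.exists_power_map hW hT hz₀
  have hk : phi hC ⁅z₀, g⁆ = 1 := by
    rw [map_commutatorElement, hz₀]
    simp
  refine ⟨G.pow_mem (by
    rw [commutatorElement_def]
    exact G.mul_mem (G.mul_mem (G.mul_mem hz₀G hgG) (G.inv_mem hz₀G)) (G.inv_mem hgG)) _, ?_⟩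
  intro w hw
  exact hC.pow_fix_of_commute hw (hC.mem_setStab_of_phi hk hw)
    (fun y hy => Cfg.commute_comm_of_power hμ z₀.2 g.2 hy) (self_mem_orb w)

theorem case_four {G : Subgroup (Perm α)} (hC : Cfg P F p)
    (hWitt : ∀ π : Perm α, (∀ w ∈ F, π w ∈ F) →
      ∃ h ∈ G, h ∈ Subgroup.normalizer (P : Set (Perm α)) ∧ ∀ w ∈ F, h w = π w)
    (hF : F.card = 4) (hodd : Odd p) (hW : Cfg.NoWeightOne P F) (hT : (orbs P F).card ≤ 3) :
    ∃ a b c d : α, a ≠ b ∧ a ≠ c ∧ a ≠ d ∧ b ≠ c ∧ b ≠ d ∧ c ≠ d ∧ swap a b * swap c d ∈ G := by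
  classical
  let ε : Fin 4 ≃ F := (Finset.equivFinOfCardEq hF).symm
  let ε' : Fin 4 → α := fun i => (ε i : α)
  have hε' : Function.Injective ε' := fun i j hij => ε.injective (Subtype.ext hij)
  obtain ⟨h₁, hG₁, hL₁⟩ := exists_lift ε hWitt (swap (0 : Fin 4) 1)
  obtain ⟨h₂, hG₂, hL₂⟩ := exists_lift ε hWitt (swap (0 : Fin 4) 2)
  obtain ⟨h₃, hG₃, hL₃⟩ := exists_lift ε hWitt (swap (0 : Fin 4) 3)
  have hcG : ∀ {a b : Perm α}, a ∈ G → b ∈ G → ⁅a, b⁆ ∈ G := by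
    intro a b ha hb
    rw [commutatorElement_def]
    exact G.mul_mem (G.mul_mem (G.mul_mem ha hb) (G.inv_mem ha)) (G.inv_mem hb)
  let g : Subgroup.normalizer (P : Set (Perm α)) := ⁅h₁, h₂⁆
  let z₀ : Subgroup.normalizer (P : Set (Perm α)) := ⁅⁅h₁, h₂⁆, ⁅h₁, h₃⁆⁆
  have hk₀ : phi hC z₀ = 1 := by
    simp only [z₀, map_commutatorElement]
    apply dcomm_eq_one_of_card_le_three
    rwa [Fintype.card_coe]
  have hgG : g.1 ∈ G := hcG hG₁ hG₂
  have hz₀G : z₀.1 ∈ G := hcG hgG (hcG hG₁ hG₃)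
  obtain ⟨heG, hefix⟩ := exists_small_element hC hW hT hk₀ hz₀G hgG
  set e := ⁅z₀.1, g.1⁆ ^ p with he
  have hLg : Lift ε' g.1 ⁅swap (0 : Fin 4) 1, swap (0 : Fin 4) 2⁆ := hL₁.comm hL₂
  have hLz : Lift ε' z₀.1 ⁅⁅swap (0 : Fin 4) 1, swap (0 : Fin 4) 2⁆, ⁅swap (0 : Fin 4) 1, swap (0 : Fin 4) 3⁆⁆ :=
    hLg.comm (hL₁.comm hL₃)
  have hLe := (hLz.comm hLg).pow p
  have hval : ⁅⁅⁅(swap (0 : Fin 4) 1), swap (0 : Fin 4) 2⁆, ⁅(swap (0 : Fin 4) 1), swap (0 : Fin 4) 3⁆⁆,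
      ⁅(swap (0 : Fin 4) 1), swap (0 : Fin 4) 2⁆⁆ = swap (0 : Fin 4) 2 * swap (1 : Fin 4) 3 := by
    set_option maxRecDepth 100000 in decide
  rw [hval] at hLe
  have hpow : (swap (0 : Fin 4) 2 * swap (1 : Fin 4) 3) ^ p = swap (0 : Fin 4) 2 * swap (1 : Fin 4) 3 := by
    obtain ⟨m, rfl⟩ := hodd
    have h2 : (swap (0 : Fin 4) 2 * swap (1 : Fin 4) 3) ^ 2 = 1 := by decide
    rw [pow_succ, pow_mul, h2, one_pow, one_mul]
  rw [hpow] at hLe
  have hne : ∀ i j : Fin 4, i ≠ j → ε' i ≠ ε' j := fun i j hij e => hij (hε' e)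
  refine ⟨ε' 0, ε' 2, ε' 1, ε' 3, hne _ _ (by decide), hne _ _ (by decide), hne _ _ (by decide),
    hne _ _ (by decide), hne _ _ (by decide), hne _ _ (by decide), ?_⟩
  have heq : swap (ε' 0) (ε' 2) * swap (ε' 1) (ε' 3) = e := by
    have hleft : Lift ε' (swap (ε' 0) (ε' 2) * swap (ε' 1) (ε' 3))
        (swap (0 : Fin 4) 2 * swap (1 : Fin 4) 3) := by
      have hs : ∀ i j : Fin 4, Lift ε' (swap (ε' i) (ε' j)) (swap i j) := by
        intro i j k
        simp only [swap_apply_def]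
        by_cases h1 : k = i
        · subst h1; simp
        · by_cases h2 : k = j
          · subst h2; simp [h1, hε'.eq_iff]
          · simp [h1, h2, hε'.eq_iff]
      exact (hs _ _).mul (hs _ _)
    ext w
    by_cases hw : w ∈ F
    · have hw' : w = ε' (ε.symm ⟨w, hw⟩) := by simp [ε']
      rw [hw', hleft, hLe]
    · have hw2 : ∀ i, w ≠ ε' i := fun i h => hw (h ▸ (ε i).2)
      rw [hefix w hw, Perm.mul_apply, swap_apply_of_ne_of_ne (hw2 _) (hw2 _),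
        swap_apply_of_ne_of_ne (hw2 _) (hw2 _)]
  rw [heq]
  exact heG

theorem case_three {G : Subgroup (Perm α)} (hC : Cfg P F p)
    (hWitt : ∀ π : Perm α, (∀ w ∈ F, π w ∈ F) →
      ∃ h ∈ G, h ∈ Subgroup.normalizer (P : Set (Perm α)) ∧ ∀ w ∈ F, h w = π w)
    (hF : F.card = 3) (hp3 : p % 3 ≠ 0) (hW : Cfg.NoWeightOne P F) (hT : (orbs P F).card ≤ 2) :
    ∃ τ ∈ G, IsThreeCycle τ := by
  classical
  let ε : Fin 3 ≃ F := (Finset.equivFinOfCardEq hF).symm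
  let ε' : Fin 3 → α := fun i => (ε i : α)
  have hε' : Function.Injective ε' := fun i j hij => ε.injective (Subtype.ext hij)
  obtain ⟨h₁, hG₁, hL₁⟩ := exists_lift ε hWitt (swap (0 : Fin 3) 1)
  obtain ⟨h₂, hG₂, hL₂⟩ := exists_lift ε hWitt (swap (0 : Fin 3) 2)
  have hcG : ∀ {a b : Perm α}, a ∈ G → b ∈ G → ⁅a, b⁆ ∈ G := by
    intro a b ha hb
    rw [commutatorElement_def]
    exact G.mul_mem (G.mul_mem (G.mul_mem ha hb) (G.inv_mem ha)) (G.inv_mem hb)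
  let z₀ : Subgroup.normalizer (P : Set (Perm α)) := ⁅h₁, h₂⁆
  have hk₀ : phi hC z₀ = 1 := by
    simp only [z₀, map_commutatorElement]
    apply comm_eq_one_of_card_le_two
    rwa [Fintype.card_coe]
  have hz₀G : z₀.1 ∈ G := hcG hG₁ hG₂
  obtain ⟨heG, hefix⟩ := exists_small_element hC hW (by omega) hk₀ hz₀G hG₁
  set e := ⁅z₀.1, h₁.1⁆ ^ p with he
  have hLz : Lift ε' z₀.1 ⁅swap (0 : Fin 3) 1, swap (0 : Fin 3) 2⁆ := hL₁.comm hL₂
  have hLe := (hLz.comm hL₁).pow p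
  set σ : Perm (Fin 3) := ⁅⁅swap (0 : Fin 3) 1, swap (0 : Fin 3) 2⁆, swap (0 : Fin 3) 1⁆ with hσ
  obtain ⟨hσ3, hσ1, hσ2⟩ := sigma_facts
  have hσp : ∀ i, (σ ^ p) i ≠ i := by
    rw [pow_eq_pow_mod p hσ3]
    have h3 : p % 3 = 1 ∨ p % 3 = 2 := by omega
    rcases h3 with h3 | h3
    · rw [h3, pow_one]; exact hσ1
    · rw [h3]; exact hσ2
  refine ⟨e, heG, card_support_eq_three_iff.1 ?_⟩
  have hsupp : e.support = F := by
    ext w
    rw [mem_support]
    constructor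
    · intro h
      by_contra hw
      exact h (hefix w hw)
    · intro hw
      have hw' : w = ε' (ε.symm ⟨w, hw⟩) := by simp [ε']
      rw [hw', hLe]
      exact fun h => hσp _ (hε' h)
  rw [hsupp, hF]

end Cfsg.Agent.Lib.KPR
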