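import Mathlib
import Cfsg.Agent.Lib.KPR5
import Cfsg.Agent.Lib.SharpTrans

/-!
# Degree `k p + r`: small supports, and the degree `9`
-/

set_option autoImplicit false
set_option linter.style.haveILetI false
set_option linter.unusedSectionVars false
set_option linter.unusedVariables false

namespace Cfsg.Agent.Lib.KPR

open Equiv Equiv.Perm MulAction
open scoped commutatorElement

variable {α : Type*} [Fintype α] [DecidableEq α] {P : Subgroup (Perm α)} {F : Finset α} {p : ℕ}

/-- A double transposition and a `4`-transitive group of degree at least `7` give a `3`-cycle. -/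
theorem exists_threeCycle_of_double {G : Subgroup (Perm α)} (h4 : IsMultiplyPretransitive G α 4)
    (hcard : 7 ≤ Fintype.card α) {a b c d : α} (hab : a ≠ b) (hac : a ≠ c) (had : a ≠ d)
    (hbc : b ≠ c) (hbd : b ≠ d) (hcd : c ≠ d) (ht : swap a b * swap c d ∈ G) :
    ∃ τ ∈ G, IsThreeCycle τ := by
  classical
  have hX : 2 < (({a, b, c, d} : Finset α)ᶜ).card := by
    rw [Finset.card_compl]
    have : ({a, b, c, d} : Finset α).card ≤ 4 := Finset.card_le_four
    omega
  obtain ⟨e, he, f, hf, h, hh, hef, heh, hfh⟩ := Finset.two_lt_card.1 hX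
  simp only [Finset.mem_compl, Finset.mem_insert, Finset.mem_singleton, not_or] at he hf hh
  obtain ⟨hea, heb, hec, hed⟩ := he
  obtain ⟨hfa, hfb, hfc, hfd⟩ := hf
  obtain ⟨hha, hhb, hhc, hhd⟩ := hh
  let u₁ : Fin 4 ↪ α := ⟨![a, b, c, d], by
    intro i j hij
    fin_cases i <;> fin_cases j <;> simp_all⟩
  let u₂ : Fin 4 ↪ α := ⟨![a, e, f, h], by
    intro i j hij
    fin_cases i <;> fin_cases j <;> simp_all [eq_comm]⟩
  obtain ⟨g, hg⟩ := (isMultiplyPretransitive_iff.1 h4) u₁ u₂
  have hg0 : (g : Perm α) a = a := DFunLike.congr_fun hg 0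
  have hg1 : (g : Perm α) b = e := DFunLike.congr_fun hg 1
  have hg2 : (g : Perm α) c = f := DFunLike.congr_fun hg 2
  have hg3 : (g : Perm α) d = h := DFunLike.congr_fun hg 3
  have ht' : swap a e * swap f h ∈ G := by
    have h1 : (g : Perm α) * (swap a b * swap c d) * (g : Perm α)⁻¹ ∈ G :=
      G.mul_mem (G.mul_mem g.2 ht) (G.inv_mem g.2)
    have e1 : swap a e = (g : Perm α) * swap a b * (g : Perm α)⁻¹ := by
      rw [← swap_apply_apply, hg0, hg1]
    have e2 : swap f h = (g : Perm α) * swap c d * (g : Perm α)⁻¹ := by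
      rw [← swap_apply_apply, hg2, hg3]
    rw [e1, e2]
    convert h1 using 1
    group
  have hae : a ≠ e := Ne.symm hea
  have hbe : b ≠ e := Ne.symm heb
  have hc1 : Commute (swap c d) (swap a e) :=
    (disjoint_swap_swap (by simp [hcd, Ne.symm hac, Ne.symm had, Ne.symm hec, Ne.symm hed, hae])).commute
  have hc2 : Commute (swap c d) (swap f h) :=
    (disjoint_swap_swap (by simp [hcd, Ne.symm hfc, Ne.symm hhc, Ne.symm hfd, Ne.symm hhd, hfh])).commute
  have hc3 : Commute (swap a b) (swap f h) :=
    (disjoint_swap_swap (by simp [hab, Ne.symm hfa, Ne.symm hha, Ne.symm hfb, Ne.symm hhb, hfh])).commute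
  have hc4 : Commute (swap a b) (swap c d) :=
    (disjoint_swap_swap (by simp [hab, hac, had, hbc, hbd, hcd])).commute
  have hc5 : Commute (swap a e) (swap f h) :=
    (disjoint_swap_swap (by simp [hae, Ne.symm hfa, Ne.symm hha, Ne.symm hef.symm, Ne.symm heh.symm, hef, heh, hfh])).commute
  set X := swap a b * swap a e with hX'
  set Y := swap c d * swap f h with hY'
  have hprod : (swap a b * swap c d) * (swap a e * swap f h) = X * Y := by
    rw [hX', hY']
    calc swap a b * swap c d * (swap a e * swap f h)
        = swap a b * (swap c d * swap a e) * swap f h := by group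
      _ = swap a b * (swap a e * swap c d) * swap f h := by rw [hc1.eq]
      _ = swap a b * swap a e * (swap c d * swap f h) := by group
  have hXY : Commute X Y := by
    apply Commute.mul_left
    · exact hc4.mul_right hc3
    · exact hc1.symm.mul_right hc5
  have hY2 : Y * Y = 1 := by
    rw [hY']
    calc swap c d * swap f h * (swap c d * swap f h)
        = swap c d * (swap f h * swap c d) * swap f h := by group
      _ = swap c d * (swap c d * swap f h) * swap f h := by rw [hc2.eq]
      _ = (swap c d * swap c d) * (swap f h * swap f h) := by group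
      _ = 1 := by simp
  have hsq : ((swap a b * swap c d) * (swap a e * swap f h)) * ((swap a b * swap c d) * (swap a e * swap f h)) = X * X := by
    rw [hprod]
    calc X * Y * (X * Y) = X * (Y * X) * Y := by group
      _ = X * (X * Y) * Y := by rw [hXY.eq]
      _ = X * X * (Y * Y) := by group
      _ = X * X := by rw [hY2, mul_one]
  have h3 : IsThreeCycle (X * X) := (isThreeCycle_swap_mul_swap_same hab hae hbe).isThreeCycle_sq
  refine ⟨X * X, ?_, h3⟩
  rw [← hsq]
  exact G.mul_mem (G.mul_mem ht ht') (G.mul_mem ht ht')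

/-- An element of `P` supported on one orbit is a `p`-cycle. -/
theorem isCycle_of_weight_one (hC : Cfg P F p) {z : Perm α} (hz : z ∈ P) {w₀ : α} (hw₀ : w₀ ∉ F)
    (hm : z w₀ ≠ w₀) (ho : ∀ v, v ∉ orb P w₀ → z v = v) : z.IsCycle ∧ z.support.card = p := by
  constructor
  · refine ⟨w₀, hm, fun v hv => ?_⟩
    have hvO : v ∈ orb P w₀ := by
      by_contra h
      exact hv (ho v h)
    obtain ⟨i, hi⟩ := hC.zpow_trans hz hw₀ hm hvO
    exact ⟨i, hi⟩
  · have : z.support = orb P w₀ := by
      ext v
      rw [mem_support]
      constructor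
      · intro hv
        by_contra h
        exact hv (ho v h)
      · intro hv hfix
        have hvF := hC.notMem_of_mem_orb hw₀ hv
        have h1 : w₀ ∈ orb P v := by
          rw [orb_eq_of_mem hv]
          exact self_mem_orb _
        exact hm (hC.fix_of_fix hz hvF hfix h1)
    rw [this]
    exact hC.card_orb w₀ hw₀

/-- An element of order two with support of size four is a double transposition. -/
theorem exists_double_of_order_two {u : Perm α} (hu : u * u = 1) (hs : u.support.card = 4) :
    ∃ a b c d : α, a ≠ b ∧ a ≠ c ∧ a ≠ d ∧ b ≠ c ∧ b ≠ d ∧ c ≠ d ∧ u = swap a b * swap c d := by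
  classical
  have huu : ∀ x, u (u x) = x := fun x => by
    have := congrArg (fun f : Perm α => f x) hu
    simpa using this
  have h0 : 0 < u.support.card := by omega
  obtain ⟨a, ha⟩ := Finset.card_pos.1 h0
  have ha' : u a ≠ a := mem_support.1 ha
  have hb : u a ∈ u.support := mem_support.2 (fun h => ha' (u.injective h))
  have h2 : ({a, u a} : Finset α).card = 2 := Finset.card_pair (Ne.symm ha')
  have h3 : 0 < (u.support \ {a, u a}).card := by
    have hsub : ({a, u a} : Finset α) ⊆ u.support := by
      intro x hx
      simp only [Finset.mem_insert, Finset.mem_singleton] at hx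
      rcases hx with rfl | rfl <;> assumption
    rw [Finset.card_sdiff_of_subset hsub]
    omega
  obtain ⟨c, hc⟩ := Finset.card_pos.1 h3
  simp only [Finset.mem_sdiff, Finset.mem_insert, Finset.mem_singleton, not_or] at hc
  obtain ⟨hcs, hca, hcb⟩ := hc
  have hc' : u c ≠ c := mem_support.1 hcs
  have hd : u c ∈ u.support := mem_support.2 (fun h => hc' (u.injective h))
  have hda : u c ≠ a := fun h => hcb (by rw [← h, huu])
  have hdb : u c ≠ u a := fun h => hca (u.injective h)
  have hcard4 : ({a, u a, c, u c} : Finset α).card = 4 := by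
    rw [Finset.card_eq_succ]
    refine ⟨a, {u a, c, u c}, ?_, rfl, ?_⟩
    · simp [Ne.symm ha', Ne.symm hca, Ne.symm hda]
    · rw [Finset.card_eq_three]
      exact ⟨u a, c, u c, Ne.symm hcb, Ne.symm hdb, Ne.symm hc', rfl⟩
  have hsupp : ({a, u a, c, u c} : Finset α) = u.support := by
    apply Finset.eq_of_subset_of_card_le
    · intro x hx
      simp only [Finset.mem_insert, Finset.mem_singleton] at hx
      rcases hx with rfl | rfl | rfl | rfl <;> assumption
    · rw [hcard4, hs]
  refine ⟨a, u a, c, u c, Ne.symm ha', Ne.symm hca, Ne.symm hda, Ne.symm hcb, Ne.symm hdb,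
    Ne.symm hc', ?_⟩
  ext x
  rw [Perm.mul_apply]
  by_cases hx : x ∈ u.support
  · rw [← hsupp] at hx
    simp only [Finset.mem_insert, Finset.mem_singleton] at hx
    rcases hx with rfl | rfl | rfl | rfl
    · rw [swap_apply_of_ne_of_ne (Ne.symm hca) (Ne.symm hda), swap_apply_left]
    · rw [swap_apply_of_ne_of_ne (Ne.symm hcb) (Ne.symm hdb), swap_apply_right, huu]
    · rw [swap_apply_left, swap_apply_of_ne_of_ne hda hdb]
    · rw [swap_apply_right, huu, swap_apply_of_ne_of_ne hca hcb]
  · have hx1 : u x = x := by simpa using hx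
    rw [← hsupp] at hx
    simp only [Finset.mem_insert, Finset.mem_singleton, not_or] at hx
    obtain ⟨h1, h2, h3, h4⟩ := hx
    rw [hx1, swap_apply_of_ne_of_ne h3 h4, swap_apply_of_ne_of_ne h1 h2]

/-- A `4`-transitive group of degree `9` contains the alternating group. -/
theorem alternatingGroup_le_of_card_nine {G : Subgroup (Perm α)} (h9 : Fintype.card α = 9)
    (h4 : IsMultiplyPretransitive G α 4) : alternatingGroup α ≤ G := by
  classical
  by_contra hnot
  have hcardN : Nat.card α = 9 := by rw [Nat.card_eq_fintype_card, h9]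
  haveI : IsMultiplyPretransitive G α 2 :=
    isMultiplyPretransitive_of_le (n := 4) (by norm_num) (by rw [hcardN]; norm_num)
  have hprim : IsPreprimitive G α := isPreprimitive_of_is_two_pretransitive inferInstance
  have hJ : ∀ x ∈ G, x.IsCycle → x.support.card.Prime → x.support.card + 3 ≤ 9 → False := by
    intro x hx hc hpr hle
    exact hnot (PrimeCycleJ.alternatingGroup_le_of_prime_cycle hprim hx hc hpr (by rw [h9]; exact hle))
  have hD : ∀ u ∈ G, u * u = 1 → u.support.card = 4 → False := by
    intro u hu huu hs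
    obtain ⟨a, b, c, d, hab, hac, had, hbc, hbd, hcd, rfl⟩ := exists_double_of_order_two huu hs
    obtain ⟨τ, hτ, hτ3⟩ := exists_threeCycle_of_double h4 (by rw [h9]; norm_num) hab hac had hbc hbd
      hcd hu
    exact hnot (alternatingGroup_le_of_isPreprimitive_of_isThreeCycle_mem hprim hτ3 hτ)
  have hsharp : ∀ x : Fin 4 ↪ α, MulAction.stabilizer G x = ⊥ := by
    intro x
    rw [eq_bot_iff]
    intro g hg
    rw [Subgroup.mem_bot]
    by_contra hg1
    have hg1' : (g : Perm α) ≠ 1 := fun h => hg1 (Subtype.ext h)
    -- `g` moves at most five points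
    have hfix : ∀ i, (g : Perm α) (x i) = x i := fun i => DFunLike.congr_fun hg i
    have hsupp : (g : Perm α).support.card ≤ 5 := by
      have h1 : (Finset.univ.image x) ⊆ ((g : Perm α).support)ᶜ := by
        intro v hv
        obtain ⟨i, -, rfl⟩ := Finset.mem_image.1 hv
        simpa using hfix i
      have h2 := Finset.card_le_card h1
      rw [Finset.card_image_of_injective _ x.injective, Finset.card_compl, h9] at h2
      simp only [Finset.card_univ, Fintype.card_fin] at h2
      have h3 : (g : Perm α).support.card ≤ Fintype.card α := Finset.card_le_univ _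
      omega
    -- a power of prime order
    have hne1 : orderOf (g : Perm α) ≠ 1 := fun h => hg1' (orderOf_eq_one_iff.1 h)
    obtain ⟨q, hq, hqd⟩ := Nat.exists_prime_and_dvd hne1
    have hpos : 0 < orderOf (g : Perm α) := orderOf_pos _
    set u := (g : Perm α) ^ (orderOf (g : Perm α) / q) with hu
    have huG : u ∈ G := G.pow_mem g.2 _
    have huo : orderOf u = q := by
      rw [hu, orderOf_pow_orderOf_div hpos.ne' hqd]
    have husupp : u.support.card ≤ 5 :=
      (Finset.card_le_card (support_pow_le _ _)).trans hsupp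
    obtain ⟨n, hn⟩ := cycleType_prime_order (σ := u) (by rw [huo]; exact hq)
    have hsum : (n + 1) * q = u.support.card := by
      rw [← sum_cycleType, hn, huo, Multiset.sum_replicate, smul_eq_mul]
    have hq2 := hq.two_le
    rcases Nat.eq_zero_or_pos n with rfl | hnpos
    · have hcyc : u.IsCycle := by
        rw [← card_cycleType_eq_one, hn, Multiset.card_replicate]
      have hq5 : q = u.support.card := by omega
      exact hJ u huG hcyc (by rw [← hq5]; exact hq) (by omega)
    · have hq22 : q = 2 := by
        by_contra hne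
        have h3 : 3 ≤ q := by omega
        nlinarith
      have hn1 : n = 1 := by
        rw [hq22] at hsum
        omega
      subst hn1
      have huu : u * u = 1 := by
        rw [← pow_two, ← hq22, ← huo]
        exact pow_orderOf_eq_one u
      exact hD u huG huu (by omega)
  haveI := h4
  have hdeg := (Cfsg.Agent.Lib.SharpTrans.sharpOn_of (k := 4) G hsharp).degree (by simp [h9])
  simp [h9] at hdeg

/-- **The theorem**: `|α| = k p + r`, `1 ≤ k < p`, `k < r`, `(k, r) ≠ (1, 2)`. -/
theorem alternatingGroup_le_main (G : Subgroup (Perm α)) {k p r : ℕ} (hp : p.Prime)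
    (hn : Fintype.card α = k * p + r) (hk : 1 ≤ k) (hpk : k < p) (hrk : k < r)
    (hex : ¬ (k = 1 ∧ r = 2)) (hG : IsMultiplyPretransitive G α (r + 1)) :
    alternatingGroup α ≤ G := by
  classical
  have hr3 : 3 ≤ r := by
    by_contra h
    have : k = 1 ∧ r = 2 := by omega
    exact hex this
  have hkp : 1 * p ≤ k * p := Nat.mul_le_mul_right _ hk
  have hcardN : Nat.card α = k * p + r := by rw [Nat.card_eq_fintype_card, hn]
  have hle : ∀ m, m ≤ r + 1 → IsMultiplyPretransitive G α m := by
    intro m hm
    haveI := hG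
    exact isMultiplyPretransitive_of_le (n := r + 1) hm (by
      rw [hcardN]
      have := hp.pos
      omega)
  have hprim : IsPreprimitive G α := isPreprimitive_of_is_two_pretransitive (hle 2 (by omega))
  obtain ⟨F, -, hF⟩ := Finset.exists_subset_card_eq (s := (Finset.univ : Finset α)) (n := r) (by
    rw [Finset.card_univ, hn]; omega)
  obtain ⟨P, hPG, hC, hWitt⟩ := exists_cfg hp hn hk hpk hG hF
  have hcompl : Fᶜ.card = k * p := by
    rw [Finset.card_compl, hn, hF]; omega
  have hTk : (orbs P F).card = k := hC.card_orbs hcompl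
  by_cases hW : Cfg.NoWeightOne P F
  · -- the main case
    have hk2 : 2 ≤ k := by
      by_contra hk1
      have hk1' : k = 1 := by omega
      subst hk1'
      -- with one orbit, any moved element contradicts `hW`
      have hnz : (Fᶜ).Nonempty := by
        rw [← Finset.card_pos, hcompl]
        have := hp.pos
        omega
      obtain ⟨w₀, hw₀⟩ := hnz
      have hw₀' : w₀ ∉ F := by simpa using hw₀
      obtain ⟨y, hy, hyw⟩ := hC.exists_moved hw₀'
      apply hW y hy w₀ hw₀' hyw
      intro v hv
      by_cases hvF : v ∈ F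
      · exact hC.fix y hy v hvF
      · exfalso
        have hsub : orb P w₀ ⊆ Fᶜ := by
          intro u hu
          simpa using hC.notMem_of_mem_orb hw₀' hu
        have heq : orb P w₀ = Fᶜ := Finset.eq_of_subset_of_card_le hsub (by
          rw [hcompl, hC.card_orb w₀ hw₀', one_mul])
        exact hv (by rw [heq]; simpa using hvF)
    have hp3 : 3 ≤ p := by omega
    have hodd : Odd p := hp.odd_of_ne_two (by omega)
    rcases Nat.lt_or_ge r 5 with hr5 | hr5
    · have hr34 : r = 3 ∨ r = 4 := by omega
      rcases hr34 with rfl | rfl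
      · have hk2' : k = 2 := by omega
        subst hk2'
        by_cases hp33 : p = 3
        · subst hp33
          exact alternatingGroup_le_of_card_nine (by omega) hG
        · have hmod : p % 3 ≠ 0 := by
            intro h
            have h3 : 3 ∣ p := Nat.dvd_of_mod_eq_zero h
            exact hp33 ((Nat.prime_dvd_prime_iff_eq Nat.prime_three hp).1 h3).symm
          obtain ⟨τ, hτ, hτ3⟩ := case_three hC hWitt hF hmod hW (by omega)
          exact alternatingGroup_le_of_isPreprimitive_of_isThreeCycle_mem hprim hτ3 hτ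
      · obtain ⟨a, b, c, d, hab, hac, had, hbc, hbd, hcd, ht⟩ :=
          case_four hC hWitt hF hodd hW (by omega)
        have h7 : 7 ≤ Fintype.card α := by
          rw [hn]
          have : 2 * 3 ≤ k * p := Nat.mul_le_mul hk2 hp3
          omega
        obtain ⟨τ, hτ, hτ3⟩ := exists_threeCycle_of_double (hle 4 (by omega)) h7 hab hac had hbc hbd
          hcd ht
        exact alternatingGroup_le_of_isPreprimitive_of_isThreeCycle_mem hprim hτ3 hτ
    · exact case_ge_five hC hPG hWitt hprim (by omega) (by omega)
  · -- a `p`-cycle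
    have hW' : ∃ z ∈ P, ∃ w₀, w₀ ∉ F ∧ z w₀ ≠ w₀ ∧ ∀ v, v ∉ orb P w₀ → z v = v := by
      by_contra hcon
      push_neg at hcon
      apply hW
      intro z hz w₀ hw₀ hm ho
      obtain ⟨v, hv, hv2⟩ := hcon z hz w₀ hw₀ hm
      exact hv2 (ho v hv)
    obtain ⟨z, hz, w₀, hw₀, hm, ho⟩ := hW'
    obtain ⟨hcyc, hsupp⟩ := isCycle_of_weight_one hC hz hw₀ hm ho
    refine PrimeCycleJ.alternatingGroup_le_of_prime_cycle hprim (hPG hz) hcyc (by rw [hsupp]; exact hp) ?_
    rw [hsupp, hn]
    omega

end Cfsg.Agent.Lib.KPR
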