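import Mathlib
import Cfsg.Agent.Lib.GalAmgm

/-!
# Twisted traces of representations, for the real vector criterion of the `k(GV)` problem

A function `F` on a group is *twisted* when it has the shape `a ↦ tr(ϱ a * B)` for a matrix
representation `ϱ` and a matrix `B` commuting with `ϱ`, with `B ^ p = 1`.
-/

set_option autoImplicit false

namespace Cfsg.Agent.Lib.KRVTw

open Matrix Polynomial Cfsg.Agent.Lib.GalAmgm
open scoped ComplexConjugate Kronecker

section Traces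

variable {ι : Type*} [Fintype ι] [DecidableEq ι]

/-- An eigenvalue of `Z` satisfies the polynomial identities of `Z`. -/
theorem root_pow_eq (Z : Matrix ι ι ℂ) {r : ℂ} (hr : r ∈ Z.charpoly.roots) {m : ℕ}
    (hZ : Z ^ (m + 1) = Z) : r ^ (m + 1) = r := by
  have h1 : IsRoot Z.charpoly r := (Polynomial.mem_roots'.1 hr).2
  have h2 : ((scalar ι) r - Z).det = 0 := by
    rw [← eval_charpoly]
    exact h1
  obtain ⟨v, hv, hv2⟩ := Matrix.exists_mulVec_eq_zero_iff.2 h2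
  have h3 : Z *ᵥ v = r • v := by
    rw [sub_mulVec] at hv2
    have h4 : (scalar ι) r *ᵥ v = r • v := by
      ext i
      simp [scalar_apply, mulVec_diagonal]
    rw [h4] at hv2
    exact (sub_eq_zero.1 hv2).symm
  have h5 : ∀ k : ℕ, (Z ^ k) *ᵥ v = r ^ k • v := by
    intro k
    induction k with
    | zero => simp
    | succ k ih =>
      rw [pow_succ, ← mulVec_mulVec, h3, mulVec_smul, ih, smul_smul, pow_succ]
      ring_nf
  have h6 := h5 (m + 1)
  rw [hZ, h3] at h6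
  obtain ⟨i, hi⟩ := Function.ne_iff.1 hv
  have h7 := congrFun h6 i
  simp only [Pi.smul_apply, smul_eq_mul] at h7
  have hi' : v i ≠ 0 := hi
  exact (mul_right_cancel₀ hi' h7).symm

theorem isIntegral_of_pow_succ {m : ℕ} (hm : 0 < m) {r : ℂ} (h : r ^ (m + 1) = r) :
    IsIntegral ℤ r := by
  refine ⟨X ^ (m + 1) - X, ?_, ?_⟩
  · exact monic_X_pow_sub (by
      have : 1 < (m : WithBot ℕ) + 1 := by
        exact_mod_cast Nat.succ_lt_succ hm
      simpa using this)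
  · simp [h]

/-- The trace of a matrix with `Z ^ (m + 1) = Z` is an algebraic integer. -/
theorem trace_isIntegral (Z : Matrix ι ι ℂ) {m : ℕ} (hm : 0 < m) (hZ : Z ^ (m + 1) = Z) :
    IsIntegral ℤ Z.trace := by
  rw [trace_eq_sum_roots_charpoly]
  refine Multiset.sum_induction (IsIntegral ℤ) _ (fun a b ha hb => ha.add hb) isIntegral_zero ?_
  intro r hr
  exact isIntegral_of_pow_succ hm (root_pow_eq Z hr hZ)

/-- The trace of a matrix of finite order lies in the cyclotomic field. -/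
theorem trace_mem_cycF (Z : Matrix ι ι ℂ) {m : ℕ} (hm : 0 < m) (hZ : Z ^ m = 1) :
    Z.trace ∈ cycF m := by
  rw [trace_eq_sum_roots_charpoly]
  refine Multiset.sum_induction (· ∈ cycF m) _ (fun a b ha hb => add_mem ha hb) (zero_mem _) ?_
  intro r hr
  have h1 : Z ^ (m + 1) = Z := by rw [pow_succ, hZ, one_mul]
  have h2 := root_pow_eq Z hr h1
  have h3 : IsUnit Z := IsUnit.of_pow_eq_one hZ hm.ne'
  have hr0 : r ≠ 0 := by
    intro h0
    subst h0
    have h4 : IsRoot Z.charpoly 0 := (Polynomial.mem_roots'.1 hr).2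
    have h5 : ((scalar ι) (0 : ℂ) - Z).det = 0 := by
      rw [← eval_charpoly]
      exact h4
    simp only [map_zero, zero_sub, det_neg] at h5
    have h6 : Z.det ≠ 0 := by
      have := (Matrix.isUnit_iff_isUnit_det Z).1 h3
      exact this.ne_zero
    rcases mul_eq_zero.1 h5 with h7 | h7
    · exact absurd h7 (by simp)
    · exact h6 h7
  apply mem_cycF_of_pow
  have h8 : r ^ m * r = 1 * r := by rw [← pow_succ, h2, one_mul]
  exact mul_right_cancel₀ hr0 h8

end Traces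

section Tw

variable {A : Type*} [Group A] {p : ℕ}

/-- Twisted traces. -/
def IsTw (p : ℕ) (A : Type*) [Group A] (F : A → ℂ) : Prop :=
  ∃ (ι : Type) (_ : Fintype ι) (_ : DecidableEq ι) (ϱ : A →* Matrix ι ι ℂ) (B : Matrix ι ι ℂ),
    B ^ p = 1 ∧ (∀ a, ϱ a * B = B * ϱ a) ∧ ∀ a, F a = (ϱ a * B).trace

theorem IsTw.of_fintype {κ : Type*} [Fintype κ] [DecidableEq κ] (ϱ : A →* Matrix κ κ ℂ)
    (B : Matrix κ κ ℂ) (hB : B ^ p = 1) (hc : ∀ a, ϱ a * B = B * ϱ a) {F : A → ℂ}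
    (hF : ∀ a, F a = (ϱ a * B).trace) : IsTw p A F := by
  classical
  let e : κ ≃ Fin (Fintype.card κ) := Fintype.equivFin κ
  let E : Matrix κ κ ℂ ≃ₐ[ℂ] Matrix (Fin (Fintype.card κ)) (Fin (Fintype.card κ)) ℂ :=
    Matrix.reindexAlgEquiv ℂ ℂ e
  refine ⟨Fin (Fintype.card κ), inferInstance, inferInstance, (E : _ →* _).comp ϱ, E B, ?_, ?_, ?_⟩
  · rw [← map_pow, hB, map_one]
  · intro a
    show E (ϱ a) * E B = E B * E (ϱ a)
    rw [← map_mul, ← map_mul, hc]
  · intro a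
    rw [hF]
    show _ = (E (ϱ a) * E B).trace
    rw [← map_mul]
    show _ = Matrix.trace (Matrix.reindex e e (ϱ a * B))
    simp only [Matrix.trace, Matrix.reindex_apply, Matrix.diag_apply, Matrix.submatrix_apply]
    exact (Equiv.sum_comp e.symm (fun j => (ϱ a * B) j j)).symm

theorem IsTw.one (p : ℕ) : IsTw p A (fun _ => 1) := by
  refine IsTw.of_fintype (κ := Fin 1) (1 : A →* Matrix (Fin 1) (Fin 1) ℂ) 1 (one_pow _) (by simp) ?_
  intro a
  simp

theorem kron_pow {ι κ : Type*} [Fintype ι] [Fintype κ] [DecidableEq ι] [DecidableEq κ]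
    (B : Matrix ι ι ℂ) (C : Matrix κ κ ℂ) (n : ℕ) : (B ⊗ₖ C) ^ n = (B ^ n) ⊗ₖ (C ^ n) := by
  induction n with
  | zero => simp
  | succ n ih =>
    rw [pow_succ, ih, pow_succ, pow_succ, Matrix.mul_kronecker_mul]

/-- The Kronecker product of two matrix representations. -/
noncomputable def kronRep {ι κ : Type*} [Fintype ι] [Fintype κ] [DecidableEq ι] [DecidableEq κ]
    (ϱ : A →* Matrix ι ι ℂ) (σ : A →* Matrix κ κ ℂ) : A →* Matrix (ι × κ) (ι × κ) ℂ where
  toFun a := (ϱ a) ⊗ₖ (σ a)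
  map_one' := by simp
  map_mul' a b := by rw [map_mul, map_mul, Matrix.mul_kronecker_mul]

theorem IsTw.mul {F G : A → ℂ} (hF : IsTw p A F) (hG : IsTw p A G) :
    IsTw p A (fun a => F a * G a) := by
  obtain ⟨ι, _, _, ϱ, B, h1, h2, h3⟩ := hF
  obtain ⟨κ, _, _, σ, C, k1, k2, k3⟩ := hG
  refine ⟨ι × κ, inferInstance, inferInstance, kronRep ϱ σ, B ⊗ₖ C, ?_, ?_, ?_⟩
  · rw [kron_pow, h1, k1, Matrix.one_kronecker_one]
  · intro a
    show (ϱ a ⊗ₖ σ a) * (B ⊗ₖ C) = (B ⊗ₖ C) * (ϱ a ⊗ₖ σ a)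
    rw [← Matrix.mul_kronecker_mul, ← Matrix.mul_kronecker_mul, h2, k2]
  · intro a
    show F a * G a = ((ϱ a ⊗ₖ σ a) * (B ⊗ₖ C)).trace
    rw [← Matrix.mul_kronecker_mul, Matrix.trace_kronecker, h3, k3]

theorem IsTw.pow {F : A → ℂ} (hF : IsTw p A F) (n : ℕ) : IsTw p A (fun a => F a ^ n) := by
  induction n with
  | zero => simpa using IsTw.one p
  | succ n ih =>
    simp only [pow_succ]
    exact ih.mul hF

variable [Finite A]

theorem IsTw.conj_eq {F : A → ℂ} (hF : IsTw p A F) (a g : A) : F (g * a * g⁻¹) = F a := by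
  obtain ⟨ι, _, _, ϱ, B, h1, h2, h3⟩ := hF
  rw [h3, h3, map_mul, map_mul]
  have h4 : ϱ g * ϱ a * ϱ g⁻¹ * B = ϱ g * (ϱ a * B) * ϱ g⁻¹ := by
    rw [mul_assoc (ϱ g), mul_assoc (ϱ g), mul_assoc (ϱ a), h2 g⁻¹, mul_assoc (ϱ g), mul_assoc (ϱ a)]
  rw [h4, Matrix.trace_mul_comm, ← mul_assoc, ← map_mul]
  simp

theorem IsTw.pow_eq_one {ι : Type} [Fintype ι] [DecidableEq ι] {ϱ : A →* Matrix ι ι ℂ}
    {B : Matrix ι ι ℂ} (h1 : B ^ p = 1) (h2 : ∀ a, ϱ a * B = B * ϱ a) (a : A) :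
    (ϱ a * B) ^ (Nat.card A * p) = 1 := by
  have hc : Commute (ϱ a) B := h2 a
  rw [hc.mul_pow, pow_mul, ← map_pow, pow_card_eq_one', map_one, one_pow, one_mul, mul_comm,
    pow_mul, h1, one_pow]

theorem IsTw.mem_cycF {F : A → ℂ} (hF : IsTw p A F) (hp : 0 < p) (a : A) :
    F a ∈ cycF (Nat.card A * p) := by
  obtain ⟨ι, _, _, ϱ, B, h1, h2, h3⟩ := hF
  rw [h3]
  exact trace_mem_cycF _ (Nat.mul_pos (Nat.card_pos (α := A)) hp) (IsTw.pow_eq_one h1 h2 a)

theorem IsTw.isIntegral {F : A → ℂ} (hF : IsTw p A F) (hp : 0 < p) (a : A) :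
    IsIntegral ℤ (F a) := by
  obtain ⟨ι, _, _, ϱ, B, h1, h2, h3⟩ := hF
  rw [h3]
  refine trace_isIntegral _ (Nat.mul_pos (Nat.card_pos (α := A)) hp) ?_
  rw [pow_succ, IsTw.pow_eq_one h1 h2 a, one_mul]

/-- Averaging idempotent. -/
theorem avg_isIntegral [Fintype A] {ι : Type*} [Fintype ι] [DecidableEq ι] (M : A →* Matrix ι ι ℂ)
    (D : Matrix ι ι ℂ) {m : ℕ} (hm : 0 < m) (hD : D ^ m = 1) (hc : ∀ a, M a * D = D * M a) :
    IsIntegral ℤ ((Nat.card A : ℂ)⁻¹ * ∑ a, (M a * D).trace) := by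
  classical
  have hA0 : (Nat.card A : ℂ) ≠ 0 := by exact_mod_cast Nat.card_pos.ne'
  set e : Matrix ι ι ℂ := (Nat.card A : ℂ)⁻¹ • ∑ a, M a with he
  have hMe : ∀ b, M b * e = e := by
    intro b
    rw [he, Matrix.mul_smul, Finset.mul_sum]
    congr 1
    refine Finset.sum_bij (fun a _ => b * a) (by simp) (fun x _ y _ h => mul_left_cancel h) ?_ ?_
    · intro y _
      exact ⟨b⁻¹ * y, by simp, by simp⟩
    · intro a _
      rw [map_mul]
  have hee : e * e = e := by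
    rw [he, Matrix.smul_mul, Finset.sum_mul]
    have h1 : ∀ a, M a * ((Nat.card A : ℂ)⁻¹ • ∑ a, M a) = (Nat.card A : ℂ)⁻¹ • ∑ a, M a := hMe
    simp only [Matrix.mul_smul]
    rw [← Finset.smul_sum]
    have h2 : ∑ a, (M a * ∑ a, M a) = (Nat.card A : ℂ) • ∑ a, M a := by
      have h3 : ∀ a, M a * ∑ b, M b = ∑ b, M b := by
        intro b
        have h4 := hMe b
        rw [he, Matrix.mul_smul] at h4
        exact smul_right_injective _ (inv_ne_zero hA0) h4
      simp only [h3]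
      rw [Finset.sum_const, Finset.card_univ, ← Nat.card_eq_fintype_card, Nat.cast_smul_eq_nsmul]
    rw [h2, smul_smul, smul_smul, mul_assoc, inv_mul_cancel₀ hA0, mul_one]
  have hecomm : e * D = D * e := by
    rw [he, Matrix.smul_mul, Matrix.mul_smul, Finset.sum_mul, Finset.mul_sum]
    congr 1
    exact Finset.sum_congr rfl fun a _ => hc a
  have hepow : ∀ k : ℕ, e ^ (k + 1) = e := by
    intro k
    induction k with
    | zero => simp
    | succ k ih => rw [pow_succ, ih, hee]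
  have hZ : (e * D) ^ (m + 1) = e * D := by
    have hcm : Commute e D := hecomm
    rw [hcm.mul_pow, hepow, pow_succ, hD, one_mul]
  have h := trace_isIntegral (e * D) hm hZ
  have h2 : (e * D).trace = (Nat.card A : ℂ)⁻¹ * ∑ a, (M a * D).trace := by
    rw [he, Matrix.smul_mul, Matrix.trace_smul, Finset.sum_mul, Matrix.trace_sum, smul_eq_mul]
  rwa [h2] at h

/-- The key integrality: the twisted inner product with a character value at `v a`. -/
theorem IsTw.avg_isIntegral [Fintype A] {F : A → ℂ} (hF : IsTw p A F) (hp : 0 < p)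
    {κ : Type*} [Fintype κ] [DecidableEq κ] (Φ : A →* Matrix κ κ ℂ) (C : Matrix κ κ ℂ)
    (hC : C ^ p = 1) (hcC : ∀ a, Φ a * C = C * Φ a) :
    IsIntegral ℤ ((Nat.card A : ℂ)⁻¹ * ∑ a, F a * (Φ a * C).trace) := by
  classical
  obtain ⟨ι, _, _, ϱ, B, h1, h2, h3⟩ := hF
  have h := KRVTw.avg_isIntegral (kronRep ϱ Φ) (B ⊗ₖ C) hp
    (by rw [kron_pow, h1, hC, Matrix.one_kronecker_one])
    (by
      intro a
      show (ϱ a ⊗ₖ Φ a) * (B ⊗ₖ C) = (B ⊗ₖ C) * (ϱ a ⊗ₖ Φ a)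
      rw [← Matrix.mul_kronecker_mul, ← Matrix.mul_kronecker_mul, h2, hcC])
  have h4 : ∀ a, (kronRep ϱ Φ a * (B ⊗ₖ C)).trace = F a * (Φ a * C).trace := by
    intro a
    show ((ϱ a ⊗ₖ Φ a) * (B ⊗ₖ C)).trace = _
    rw [← Matrix.mul_kronecker_mul, Matrix.trace_kronecker, h3]
  simpa only [h4] using h

end Tw

end Cfsg.Agent.Lib.KRVTw
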