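import Mathlib
import Cfsg.Prelude.Def_Characters
import Cfsg.Agent.Lib.KMain
import Cfsg.Agent.Lib.KRVTw
import Cfsg.Agent.Lib.CharWeight
import Cfsg.Prelude.Def_Blocks

/-!
# The real vector criterion for `k(GV) ≤ |V|`

The same averaging argument as in `KMain`, for a function `f` on `C_G(v)` which is only known to
be a combination of characters after multiplying by the order of the fixed points.
-/

set_option autoImplicit false

namespace Cfsg.Agent.Lib.KRVMain

open Cfsg Cfsg.Agent.Lib.CharBasic Cfsg.Agent.Lib.CharInd Cfsg.Agent.Lib.CharKernel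
open Cfsg.Agent.Lib.KMain Cfsg.Agent.Lib.KRVTw Matrix Polynomial
open scoped ComplexConjugate

universe u v

section Core

variable {X : Type u} [Group X] [Finite X] {p : ℕ} [hpp : Fact p.Prime]
  {V : Subgroup X} [hVn : V.Normal] {G : Subgroup X} {v : X}

/-- The coefficient. -/
noncomputable def coeffC (v : X) (A : Subgroup X) [Fintype A] (y : A → ℂ) (χ : X → ℂ) : ℂ :=
  (Nat.card A : ℂ)⁻¹ * ∑ a : A, χ (v * a) * conj (y a)

/-- **The core of the criterion.** -/
theorem main_core (hVexp : ∀ w ∈ V, w ^ p = 1) (hidx : ¬ p ∣ V.index)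
    (hab : ∀ a ∈ V, ∀ b ∈ V, a * b = b * a) (hGV : Subgroup.IsComplement' V G) (hv : v ∈ V)
    (A : Subgroup X) (hA : A = G ⊓ Subgroup.centralizer ({v} : Set X)) [Fintype A]
    (y : A → ℂ) (hycl : ∀ a b : A, IsConj a b → y a = y b)
    (R : A → ℕ)
    (hR : ∀ a, ‖y a‖ ^ 2 * (Nat.card {w : V // (a : X) * w * (a : X)⁻¹ = w} : ℝ) = R a)
    (hRle : ∀ a, R a ≤ Nat.card V) (n : ℕ) [NeZero n]
    (hmem : ∀ χ : IrrCharacter X, coeffC v A y χ ∈ Cfsg.Agent.Lib.GalAmgm.cycF n)
    (hint : ∀ χ : IrrCharacter X, IsIntegral ℤ (coeffC v A y χ))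
    (hne : ∀ χ : IrrCharacter X, coeffC v A y χ ≠ 0) :
    Nat.card (ConjClasses X) ≤ Nat.card V := by
  classical
  letI : Fintype X := Fintype.ofFinite X
  have hp := hpp.out
  haveI : NeZero p := ⟨hp.ne_zero⟩
  have hisconj : ∀ a b : A, IsConj (v * (a : X)) (v * (b : X)) ↔ IsConj a b := by
    subst hA
    exact fun a b => isConj_iff_A hVexp hidx hab hGV hv a b
  have hcardC : ∀ b : A, Nat.card (Subgroup.centralizer ({v * (b : X)} : Set X)) =
      Nat.card {w : V // (b : X) * w * (b : X)⁻¹ = w} *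
        Nat.card (Subgroup.centralizer ({b} : Set A)) := by
    subst hA
    exact fun b => card_centralizer hVexp hidx hab hGV hv b
  let c : IrrCharacter X → ℂ := fun χ => coeffC v A y χ
  -- orthogonality
  have hE : ∀ a b : A, ∑ χ : IrrCharacter X, (χ : X → ℂ) (v * a) * conj ((χ : X → ℂ) (v * b)) =
      if IsConj a b then ((Nat.card {w : V // (b : X) * w * (b : X)⁻¹ = w} : ℂ) *
        (Nat.card (Subgroup.centralizer ({b} : Set A)) : ℂ)) else 0 := by
    intro a b
    rw [sum_irr_mul_conj]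
    by_cases h : IsConj a b
    · rw [if_pos ((hisconj a b).2 h), if_pos h, hcardC b]
      push_cast
      rfl
    · rw [if_neg (fun h' => h ((hisconj a b).1 h')), if_neg h]
  have hA0 : (Nat.card A : ℂ) ≠ 0 := by exact_mod_cast Nat.card_pos.ne'
  have hsum : ∑ χ, c χ * conj (c χ) =
      (((Nat.card A : ℚ)⁻¹ * ∑ a : A, (R a : ℚ) : ℚ) : ℂ) := by
    have h1 : ∀ χ : IrrCharacter X, c χ * conj (c χ) =
        (Nat.card A : ℂ)⁻¹ * (Nat.card A : ℂ)⁻¹ * ∑ b : A, ∑ a : A, (conj (y a) * y b) *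
          ((χ : X → ℂ) (v * a) * conj ((χ : X → ℂ) (v * b))) := by
      intro χ
      simp only [c, coeffC, map_mul, map_sum, map_inv₀, Complex.conj_natCast, Complex.conj_conj]
      rw [mul_mul_mul_comm, Finset.sum_mul_sum, Finset.sum_comm]
      refine congrArg₂ _ rfl (Finset.sum_congr rfl fun b _ => Finset.sum_congr rfl fun a _ => ?_)
      ring
    simp only [h1]
    rw [← Finset.mul_sum, Finset.sum_comm]
    have h2 : ∀ b : A, ∑ χ : IrrCharacter X, ∑ a : A, (conj (y a) * y b) *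
          ((χ : X → ℂ) (v * a) * conj ((χ : X → ℂ) (v * b))) = (Nat.card A : ℂ) * (R b : ℂ) := by
      intro b
      rw [Finset.sum_comm]
      have h3 : ∀ a : A, ∑ χ : IrrCharacter X, (conj (y a) * y b) *
          ((χ : X → ℂ) (v * a) * conj ((χ : X → ℂ) (v * b))) =
          if IsConj b a then (R b : ℂ) * (Nat.card (Subgroup.centralizer ({b} : Set A)) : ℂ)
            else 0 := by
        intro a
        rw [← Finset.mul_sum, hE]
        by_cases h : IsConj a b
        · rw [if_pos h, if_pos h.symm, hycl a b h]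
          have h4 : conj (y b) * y b = ((‖y b‖ ^ 2 : ℝ) : ℂ) := by
            rw [mul_comm, Complex.mul_conj, Complex.normSq_eq_norm_sq]
          have hRc : (R b : ℂ) = ((‖y b‖ ^ 2 : ℝ) : ℂ) *
              (Nat.card {w : V // (b : X) * w * (b : X)⁻¹ = w} : ℂ) := by
            have h5 := hR b
            have h6 : ((R b : ℝ) : ℂ) = ((‖y b‖ ^ 2 * (Nat.card {w : V // (b : X) * w * (b : X)⁻¹ = w} : ℝ) : ℝ) : ℂ) := by
              rw [h5]
            simpa using h6
          rw [h4, hRc]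
          ring
        · rw [if_neg h, if_neg (fun h' => h h'.symm), mul_zero]
      simp only [h3]
      rw [Finset.sum_ite, Finset.sum_const_zero, add_zero, Finset.sum_const, nsmul_eq_mul]
      have h5 := card_conj_mul_card_centralizer b
      have h6 : ((Finset.univ.filter fun a => IsConj b a).card : ℂ) *
          (Nat.card (Subgroup.centralizer ({b} : Set A)) : ℂ) = (Nat.card A : ℂ) := by
        rw [← h5, Nat.card_eq_fintype_card (α := {x // IsConj b x}), Fintype.card_subtype]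
        push_cast
        rfl
      rw [← h6]
      ring
    simp only [h2]
    rw [← Finset.mul_sum]
    push_cast
    field_simp
  have hfinal := Cfsg.Agent.Lib.GalAmgm.card_le_of_sum_mul_conj n Finset.univ c
    (fun χ _ => hmem χ) (fun χ _ => hint χ) (fun χ _ => hne χ) _ hsum
  have hle : (((Nat.card A : ℚ)⁻¹ * ∑ a : A, (R a : ℚ) : ℚ) : ℝ) ≤ (Nat.card V : ℝ) := by
    have h1 : ∑ a : A, (R a : ℝ) ≤ ∑ _a : A, (Nat.card V : ℝ) :=
      Finset.sum_le_sum fun a _ => by exact_mod_cast hRle a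
    rw [Finset.sum_const, Finset.card_univ, nsmul_eq_mul, ← Nat.card_eq_fintype_card] at h1
    have h2 : (0 : ℝ) < Nat.card A := by exact_mod_cast Nat.card_pos
    push_cast
    rw [inv_mul_le_iff₀ h2]
    exact h1
  have h3 : ((Finset.univ : Finset (IrrCharacter X)).card : ℝ) ≤ (Nat.card V : ℝ) :=
    hfinal.trans hle
  rw [← card_irr_eq_card_conjClasses, Nat.card_eq_fintype_card, ← Finset.card_univ]
  exact_mod_cast h3


end Core


section InM

/-- Membership of a complex number in the maximal ideal. -/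
def InM (M : Ideal AlgInt) (z : ℂ) : Prop := ∃ w : AlgInt, w ∈ M ∧ (w : ℂ) = z

variable {M : Ideal AlgInt}

theorem InM.zero : InM M 0 := ⟨0, M.zero_mem, rfl⟩

theorem InM.isIntegral {z : ℂ} (h : InM M z) : IsIntegral ℤ z := by
  obtain ⟨w, -, rfl⟩ := h
  exact w.2

theorem InM.add {a b : ℂ} (ha : InM M a) (hb : InM M b) : InM M (a + b) := by
  obtain ⟨w, hw, rfl⟩ := ha
  obtain ⟨w', hw', rfl⟩ := hb
  exact ⟨w + w', M.add_mem hw hw', rfl⟩

theorem InM.neg {a : ℂ} (ha : InM M a) : InM M (-a) := by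
  obtain ⟨w, hw, rfl⟩ := ha
  exact ⟨-w, M.neg_mem hw, rfl⟩

theorem InM.sub {a b : ℂ} (ha : InM M a) (hb : InM M b) : InM M (a - b) := by
  rw [sub_eq_add_neg]
  exact ha.add hb.neg

theorem InM.mul_right {a t : ℂ} (ha : InM M a) (ht : IsIntegral ℤ t) : InM M (a * t) := by
  obtain ⟨w, hw, rfl⟩ := ha
  exact ⟨w * ⟨t, ht⟩, M.mul_mem_right _ hw, rfl⟩

theorem InM.mul_left {a t : ℂ} (ha : InM M a) (ht : IsIntegral ℤ t) : InM M (t * a) := by
  rw [mul_comm]
  exact ha.mul_right ht

theorem InM.sum {ι : Type*} (s : Finset ι) (f : ι → ℂ) (h : ∀ i ∈ s, InM M (f i)) :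
    InM M (∑ i ∈ s, f i) := by
  classical
  induction s using Finset.induction_on with
  | empty => simpa using InM.zero
  | insert i s hi ih =>
    rw [Finset.sum_insert hi]
    exact (h i (Finset.mem_insert_self _ _)).add (ih fun j hj => h j (Finset.mem_insert_of_mem hj))

theorem InM.multiset_sum (s : Multiset ℂ) (h : ∀ z ∈ s, InM M z) : InM M s.sum :=
  Multiset.sum_induction (InM M) _ (fun _ _ ha hb => ha.add hb) InM.zero h

theorem InM.of_pow [hM : M.IsPrime] {z : ℂ} (hz : IsIntegral ℤ z) {k : ℕ} (h : InM M (z ^ k)) :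
    InM M z := by
  obtain ⟨w, hw, hw2⟩ := h
  refine ⟨⟨z, hz⟩, ?_, rfl⟩
  have h2 : w = (⟨z, hz⟩ : AlgInt) ^ k := Subtype.ext (by simpa using hw2)
  rw [h2] at hw
  exact hM.mem_of_pow_mem k hw

variable {p : ℕ}

theorem InM.natCast_p (hM : IsPModular p M) : InM M (p : ℂ) := ⟨(p : AlgInt), hM.2.2, by simp⟩

theorem InM.of_dvd (hM : IsPModular p M) {d : ℕ} (hd : p ∣ d) : InM M (d : ℂ) := by
  obtain ⟨e, rfl⟩ := hd
  push_cast
  exact (InM.natCast_p hM).mul_right (by
    simpa using (isIntegral_algebraMap (R := ℤ) (A := ℂ) (x := (e : ℤ))))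

theorem one_sub_root (hM : IsPModular p M) {l : ℂ} (h : l ^ p = 1) : InM M (1 - l) := by
  haveI : M.IsPrime := hM.2.1.isPrime
  have hp := hM.1
  have hl : IsIntegral ℤ l := IsIntegral.of_pow hp.pos (by rw [h]; exact isIntegral_one)
  have hb : IsIntegral ℤ (l - 1) := hl.sub isIntegral_one
  let B : AlgInt := ⟨l - 1, hb⟩
  obtain ⟨r, hr⟩ := exists_add_pow_prime_eq hp (1 : AlgInt) B
  have h1 : ((1 + B : AlgInt) : ℂ) = l := by
    show 1 + (l - 1) = l
    ring
  have h2 : (1 + B : AlgInt) ^ p = 1 := by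
    apply Subtype.ext
    rw [SubmonoidClass.coe_pow, h1, h]
    rfl
  rw [h2, one_pow] at hr
  have h3 : B ^ p = -((p : AlgInt) * 1 * B * r) := by
    linear_combination -hr
  have h4 : B ^ p ∈ M := by
    rw [h3]
    exact M.neg_mem (by
      rw [mul_assoc, mul_assoc]
      exact M.mul_mem_right _ hM.2.2)
  have h5 : B ∈ M := ‹M.IsPrime›.mem_of_pow_mem p h4
  refine ⟨-B, M.neg_mem h5, ?_⟩
  show -(l - 1) = 1 - l
  ring

theorem not_InM_nat (hM : IsPModular p M) {d : ℕ} (hd : ¬ p ∣ d) : ¬ InM M (d : ℂ) := by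
  rintro ⟨w, hw, hw2⟩
  have hw3 : w = (d : AlgInt) := Subtype.ext (by simpa using hw2)
  have hco : Nat.Coprime p d := (Nat.Prime.coprime_iff_not_dvd hM.1).2 hd
  have h1 : ((p.gcdA d : ℤ) : AlgInt) * (p : AlgInt) + ((p.gcdB d : ℤ) : AlgInt) * (d : AlgInt) = 1 := by
    have h2 := Nat.gcd_eq_gcd_ab p d
    rw [hco.gcd_eq_one] at h2
    have h3 := congrArg (fun z : ℤ => (z : AlgInt)) h2
    push_cast at h3
    linear_combination -h3
  have h4 : (1 : AlgInt) ∈ M := by
    rw [← h1]
    refine M.add_mem (M.mul_mem_left _ hM.2.2) (M.mul_mem_left _ ?_)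
    rw [← hw3]
    exact hw
  exact hM.2.1.ne_top ((Ideal.eq_top_iff_one M).2 h4)

/-- A sum of `n` many `p`-th roots of unity is congruent to `n`. -/
theorem sum_roots_sub_mem (hM : IsPModular p M) {ι : Type*} (s : Finset ι) (l : ι → ℂ)
    (h : ∀ i ∈ s, l i ^ p = 1) : InM M ((s.card : ℂ) - ∑ i ∈ s, l i) := by
  have h1 : (s.card : ℂ) - ∑ i ∈ s, l i = ∑ i ∈ s, (1 - l i) := by
    rw [Finset.sum_sub_distrib]
    simp
  rw [h1]
  exact InM.sum _ _ fun i hi => one_sub_root hM (h i hi)

end InM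

section Good

variable {A : Type u} [Group A] {S : Type v} [AddCommGroup S] {p : ℕ} [Module (ZMod p) S]

/-- The number of fixed points. -/
noncomputable def PP (act : A →* Module.End (ZMod p) S) (a : A) : ℕ :=
  Nat.card {x : S // act a x = x}

theorem act_inv_act (act : A →* Module.End (ZMod p) S) (a : A) (x : S) : act a⁻¹ (act a x) = x := by
  rw [← Module.End.mul_apply, ← map_mul]
  simp

theorem act_act_inv (act : A →* Module.End (ZMod p) S) (a : A) (x : S) : act a (act a⁻¹ x) = x := by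
  rw [← Module.End.mul_apply, ← map_mul]
  simp

theorem PP_conj (act : A →* Module.End (ZMod p) S) (a g : A) :
    PP act (g * a * g⁻¹) = PP act a := by
  unfold PP
  refine (Nat.card_congr (Equiv.subtypeEquiv (?_ : S ≃ S) ?_)).symm
  · exact ⟨fun x => act g x, fun x => act g⁻¹ x, act_inv_act act g, act_act_inv act g⟩
  · intro x
    show act a x = x ↔ act (g * a * g⁻¹) (act g x) = act g x
    rw [map_mul, map_mul, Module.End.mul_apply, Module.End.mul_apply, act_inv_act]
    constructor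
    · intro h
      rw [h]
    · intro h
      have := congrArg (act g⁻¹) h
      rwa [act_inv_act, act_inv_act] at this

/-- The fixed points, as a submodule. -/
def fixS (act : A →* Module.End (ZMod p) S) (a : A) : Submodule (ZMod p) S where
  carrier := {x | act a x = x}
  add_mem' := by
    intro x y hx hy
    simp only [Set.mem_setOf_eq] at hx hy ⊢
    rw [map_add, hx, hy]
  zero_mem' := by simp
  smul_mem' := by
    intro c x hx
    simp only [Set.mem_setOf_eq] at hx ⊢
    rw [map_smul, hx]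

theorem PP_eq (act : A →* Module.End (ZMod p) S) (a : A) : PP act a = Nat.card (fixS act a) := rfl

theorem PP_pos [Finite S] (act : A →* Module.End (ZMod p) S) (a : A) : 0 < PP act a := by
  rw [PP_eq]
  exact Nat.card_pos

theorem PP_dvd [Finite S] (act : A →* Module.End (ZMod p) S) (a : A) : PP act a ∣ Nat.card S := by
  rw [PP_eq, Submodule.card_eq_card_quotient_mul_card (fixS act a)]
  exact dvd_mul_right _ _

theorem PP_pow [Fact p.Prime] [Finite S] (act : A →* Module.End (ZMod p) S) (a : A) :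
    ∃ j, PP act a = p ^ j := by
  haveI : Module.Finite (ZMod p) (fixS act a) := Module.Finite.of_finite
  refine ⟨Module.finrank (ZMod p) (fixS act a), ?_⟩
  rw [PP_eq, Module.natCard_eq_pow_finrank (K := ZMod p), Nat.card_zmod]

theorem card_pow [Fact p.Prime] (S' : Type*) [AddCommGroup S'] [Module (ZMod p) S'] [Finite S'] :
    ∃ j, Nat.card S' = p ^ j := by
  haveI : Module.Finite (ZMod p) S' := Module.Finite.of_finite
  refine ⟨Module.finrank (ZMod p) S', ?_⟩
  rw [Module.natCard_eq_pow_finrank (K := ZMod p), Nat.card_zmod]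

/-- The permutation matrices of the action, with a diagonal twist. -/
noncomputable def permRep [Fintype S] [DecidableEq S] (act : A →* Module.End (ZMod p) S) :
    A →* Matrix S S ℂ where
  toFun a := Matrix.of fun x y => if x = act a y then 1 else 0
  map_one' := by
    ext x y
    simp [Matrix.one_apply]
  map_mul' a b := by
    ext x y
    simp only [Matrix.of_apply, Matrix.mul_apply, map_mul, Module.End.mul_apply]
    rw [Finset.sum_eq_single (act b y)]
    · simp
    · intro z _ hz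
      simp [hz]
    · simp

/-- The twisted permutation trace. -/
theorem isTw_perm [Fintype S] [DecidableEq S] (act : A →* Module.End (ZMod p) S) (q : S → ℂ)
    (hq : ∀ x, q x ^ p = 1) (hinv : ∀ a x, q (act a x) = q x) :
    IsTw p A (fun a => ∑ x : S, if act a x = x then q x else 0) := by
  refine IsTw.of_fintype (permRep act) (Matrix.diagonal q) ?_ ?_ ?_
  · rw [Matrix.diagonal_pow]
    have h : q ^ p = 1 := funext hq
    rw [h]
    exact Matrix.diagonal_one
  · intro a
    ext x y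
    rw [Matrix.mul_diagonal, Matrix.diagonal_mul]
    show (if x = act a y then (1 : ℂ) else 0) * q y = q x * (if x = act a y then (1 : ℂ) else 0)
    by_cases h : x = act a y
    · rw [if_pos h, h, hinv]
      ring
    · rw [if_neg h]
      ring
  · intro a
    rw [Matrix.trace]
    refine Finset.sum_congr rfl fun x _ => ?_
    rw [Matrix.diag_apply, Matrix.mul_diagonal]
    show _ = (if x = act a x then (1 : ℂ) else 0) * q x
    by_cases h : act a x = x
    · rw [if_pos h, if_pos h.symm, one_mul]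
    · rw [if_neg h, if_neg (fun h' => h h'.symm), zero_mul]

theorem sum_ite_fix [Fintype S] [DecidableEq S] (act : A →* Module.End (ZMod p) S) (a : A) :
    (∑ x : S, if act a x = x then (1 : ℂ) else 0) = (PP act a : ℂ) := by
  unfold PP
  rw [Nat.card_eq_fintype_card, Fintype.card_subtype]
  rw [Finset.sum_boole]

theorem isTw_PP [Finite S] (act : A →* Module.End (ZMod p) S) :
    IsTw p A (fun a => (PP act a : ℂ)) := by
  classical
  letI := Fintype.ofFinite S
  have h := isTw_perm (p := p) act (fun _ => 1) (by simp) (by simp)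
  simpa only [sum_ite_fix] using h

/-- The properties of the function needed in the criterion. -/
structure Good (M : Ideal AlgInt) (act : A →* Module.End (ZMod p) S) (f : A → ℂ) : Prop where
  tw : ∃ (c : ℂ) (F : A → ℂ), IsIntegral ℤ c ∧ c ∈ Cfsg.Agent.Lib.GalAmgm.cycF p ∧ IsTw p A F ∧
    ∀ a, f a * PP act a = c * F a
  int : ∀ a, IsIntegral ℤ (f a)
  nrm : ∀ a, f a * conj (f a) * PP act a = Nat.card S
  one : f 1 = 1
  mem : ∀ a, (∃ s, act a s ≠ s) → InM M (f a)

end Good

section Final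

open Cfsg.Agent.Lib.GalAmgm

variable {X : Type u} [Group X] [Finite X] {p : ℕ} [hpp : Fact p.Prime]
  {V : Subgroup X} [hVn : V.Normal] {G : Subgroup X} {v : X}

theorem isInt_nat (n : ℕ) : IsIntegral ℤ (n : ℂ) := by
  simpa using (isIntegral_algebraMap (R := ℤ) (A := ℂ) (x := (n : ℤ)))

theorem isInt_int (n : ℤ) : IsIntegral ℤ (n : ℂ) := by
  simpa using (isIntegral_algebraMap (R := ℤ) (A := ℂ) (x := n))

theorem cycF_mono {n m : ℕ} (h : n ∣ m) : cycF n ≤ cycF m := by
  refine IntermediateField.adjoin_le_iff.2 ?_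
  intro z hz
  obtain ⟨k, rfl⟩ := h
  refine IntermediateField.subset_adjoin _ _ ?_
  show z ^ (n * k) = 1
  rw [pow_mul, show z ^ n = 1 from hz, one_pow]

/-- A matrix form of a character. -/
theorem exists_matrix_rep {Y : Type*} [Group Y] {χ : Y → ℂ} (hχ : IsCharacter Y χ) :
    ∃ (m : ℕ) (Ψ : Y →* Matrix (Fin m) (Fin m) ℂ), ∀ x, χ x = (Ψ x).trace := by
  obtain ⟨m, ρ, rfl⟩ := hχ
  refine ⟨m, (LinearMap.toMatrixAlgEquiv' : _ ≃ₐ[ℂ] Matrix (Fin m) (Fin m) ℂ).toMonoidHom.comp ρ, ?_⟩
  intro x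
  show LinearMap.trace ℂ _ (ρ x) = _
  rw [LinearMap.trace_eq_matrix_trace ℂ (Pi.basisFun ℂ (Fin m)), LinearMap.toMatrix_eq_toMatrix']
  rfl

theorem trace_one_sub_mem {M : Ideal AlgInt} (hM : IsPModular p M) {ι : Type*} [Fintype ι]
    [DecidableEq ι] (Z : Matrix ι ι ℂ) (hZ : Z ^ p = 1) : InM M ((1 - Z).trace) := by
  rw [Matrix.trace_eq_sum_roots_charpoly]
  refine InM.multiset_sum _ fun r hr => ?_
  have h1 : IsRoot (1 - Z).charpoly r := (Polynomial.mem_roots'.1 hr).2
  have h2 : ((Matrix.scalar ι) r - (1 - Z)).det = 0 := by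
    rw [← Matrix.eval_charpoly]
    exact h1
  obtain ⟨w, hw, hw2⟩ := Matrix.exists_mulVec_eq_zero_iff.2 h2
  have h3 : Z *ᵥ w = (1 - r) • w := by
    have h4 : (Matrix.scalar ι) r *ᵥ w = r • w := by
      ext i
      simp [Matrix.scalar_apply, Matrix.mulVec_diagonal]
    rw [Matrix.sub_mulVec, Matrix.sub_mulVec, h4, Matrix.one_mulVec] at hw2
    rw [sub_smul, one_smul]
    linear_combination (norm := module) hw2
  have h5 : ∀ k : ℕ, (Z ^ k) *ᵥ w = (1 - r) ^ k • w := by
    intro k
    induction k with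
    | zero => simp
    | succ k ih =>
      rw [pow_succ, ← Matrix.mulVec_mulVec, h3, Matrix.mulVec_smul, ih, smul_smul, pow_succ]
      ring_nf
  have h6 := h5 p
  rw [hZ, Matrix.one_mulVec] at h6
  obtain ⟨i, hi⟩ := Function.ne_iff.1 hw
  have h7 := congrFun h6 i
  simp only [Pi.smul_apply, smul_eq_mul] at h7
  have hi' : w i ≠ 0 := hi
  have h8 : (1 - r) ^ p = 1 := by
    have : (1 - r) ^ p * w i = 1 * w i := by rw [← h7, one_mul]
    exact mul_right_cancel₀ hi' this
  have h9 := one_sub_root hM h8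
  simpa using h9

/-- **The criterion.** -/
theorem main_good {S : Type*} [AddCommGroup S] [Module (ZMod p) S] [Finite S]
    (hVexp : ∀ w ∈ V, w ^ p = 1) (hidx : ¬ p ∣ V.index)
    (hab : ∀ a ∈ V, ∀ b ∈ V, a * b = b * a) (hGV : Subgroup.IsComplement' V G) (hv : v ∈ V)
    (A : Subgroup X) (hA : A = G ⊓ Subgroup.centralizer ({v} : Set X))
    (act : ↥A →* Module.End (ZMod p) S)
    {M : Ideal AlgInt} (hM : IsPModular p M) (f : ↥A → ℂ)
    (hf : Good M act f) (hfaith : ∀ a, a ≠ 1 → ∃ s, act a s ≠ s)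
    (k : ↥A → ℕ)
    (hk : ∀ a : ↥A, Nat.card {w : V // (a : X) * w * (a : X)⁻¹ = w} = PP act a * k a)
    (hkle : ∀ a, Nat.card S * k a ≤ Nat.card V) :
    Nat.card (ConjClasses X) ≤ Nat.card V := by
  classical
  letI : Fintype ↥A := Fintype.ofFinite _
  have hp := hpp.out
  have hp0 : 0 < p := hp.pos
  have hAC : ∀ a : A, (a : X) * v = v * a := fun a => by
    have h0 : (a : X) ∈ G ⊓ Subgroup.centralizer ({v} : Set X) := hA ▸ a.2
    exact Subgroup.mem_centralizer_singleton_iff.1 h0.2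
  have hco : Nat.Coprime (Nat.card A) p := by
    have h1 : Nat.card A ∣ Nat.card G := Subgroup.card_dvd_of_le (by rw [hA]; exact inf_le_left)
    have h2 : V.index = Nat.card G := hGV.symm.index_eq_card
    rw [Nat.coprime_comm, hp.coprime_iff_not_dvd]
    intro h
    exact hidx (h2 ▸ h.trans h1)
  obtain ⟨c₀, F, hc₀, hc₀m, hF, hfF⟩ := hf.tw
  have hA0 : (Nat.card A : ℂ) ≠ 0 := by exact_mod_cast Nat.card_pos.ne'
  have hPP0 : ∀ a, (PP act a : ℂ) ≠ 0 := fun a => by exact_mod_cast (PP_pos act a).ne'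
  have hfeq : ∀ a, f a = c₀ * F a / PP act a := fun a => by
    rw [← hfF, mul_div_cancel_right₀ _ (hPP0 a)]
  let y : A → ℂ := fun a => conj (f a)
  have hyc : ∀ a, conj (y a) = f a := fun a => Complex.conj_conj _
  have hS0 : ((Nat.card S : ℕ) : ℂ) ≠ 0 := by exact_mod_cast Nat.card_pos.ne'
  have hnorm : ∀ a, ‖y a‖ ^ 2 * (PP act a : ℝ) = Nat.card S := by
    intro a
    have h1 := hf.nrm a
    have h2 : ‖y a‖ = ‖f a‖ := Complex.norm_conj _
    rw [h2]
    have h3 : ((‖f a‖ ^ 2 * (PP act a : ℝ) : ℝ) : ℂ) = ((Nat.card S : ℝ) : ℂ) := by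
      push_cast
      rw [← h1, Complex.mul_conj, Complex.normSq_eq_norm_sq]
      push_cast
      rfl
    exact Complex.ofReal_injective h3
  have hycl : ∀ a b : A, IsConj a b → y a = y b := by
    intro a b h
    obtain ⟨g, rfl⟩ := isConj_iff.1 h
    show conj (f a) = conj (f (g * a * g⁻¹))
    rw [hfeq, hfeq, PP_conj, hF.conj_eq]
  let n : ℕ := Nat.card X * p
  haveI : NeZero n := ⟨(Nat.mul_pos Nat.card_pos hp0).ne'⟩
  have hAX : Nat.card A * p ∣ n := Nat.mul_dvd_mul_right (Subgroup.card_subgroup_dvd_card A) p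
  have hfint : ∀ a, f a ∈ cycF n := by
    intro a
    rw [hfeq]
    refine div_mem (mul_mem (cycF_mono (Dvd.intro_left _ rfl) hc₀m) (cycF_mono hAX (hF.mem_cycF hp0 a)))
      (natCast_mem_cycF _ _)
  -- the data of a character
  have hdata : ∀ χ : IrrCharacter X, coeffC v A y χ = (Nat.card A : ℂ)⁻¹ * ∑ a : A, (χ : X → ℂ) (v * a) * f a := by
    intro χ
    unfold coeffC
    simp only [hyc]
  have hval : ∀ (χ : IrrCharacter X) (x : X), IsIntegral ℤ ((χ : X → ℂ) x) ∧ (χ : X → ℂ) x ∈ cycF n := by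
    intro χ x
    obtain ⟨m, Ψ, hΨ⟩ := exists_matrix_rep (Cfsg.Agent.Lib.CharBasic.IsIrrCharacter.isCharacter χ.2)
    rw [hΨ]
    have h1 : (Ψ x) ^ Nat.card X = 1 := by
      rw [← map_pow, pow_card_eq_one', map_one]
    constructor
    · refine trace_isIntegral _ (Nat.card_pos (α := X)) ?_
      rw [pow_succ, h1, one_mul]
    · exact cycF_mono (Dvd.intro _ rfl) (trace_mem_cycF _ (Nat.card_pos (α := X)) h1)
  have hmem : ∀ χ : IrrCharacter X, coeffC v A y χ ∈ cycF n := by
    intro χ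
    rw [hdata]
    refine mul_mem (inv_mem (natCast_mem_cycF _ _)) (sum_mem fun a _ => mul_mem (hval χ _).2 (hfint a))
  have hint : ∀ χ : IrrCharacter X, IsIntegral ℤ (coeffC v A y χ) := by
    intro χ
    rw [hdata]
    obtain ⟨m, Ψ, hΨ⟩ := exists_matrix_rep (Cfsg.Agent.Lib.CharBasic.IsIrrCharacter.isCharacter χ.2)
    set cc := (Nat.card A : ℂ)⁻¹ * ∑ a : A, (χ : X → ℂ) (v * a) * f a with hcc
    have hint1 : IsIntegral ℤ ((Nat.card A : ℂ) * cc) := by
      rw [hcc, mul_inv_cancel_left₀ hA0]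
      exact IsIntegral.sum _ fun a _ => (hval χ _).1.mul (hf.int a)
    -- the p-power side
    obtain ⟨d, hd⟩ := card_pow (p := p) S
    set t := (Nat.card A).totient with ht
    have htpos : 0 < t := Nat.totient_pos.2 (Nat.card_pos (α := A))
    have hpt : p ^ t ≡ 1 [MOD Nat.card A] := Nat.ModEq.pow_totient hco.symm
    have hg : ∀ a : A, ∃ g : ℤ, ((PP act a : ℤ)) ^ t = 1 + (Nat.card A : ℤ) * g := by
      intro a
      obtain ⟨j, hj⟩ := PP_pow act a
      have h1 : (PP act a) ^ t ≡ 1 [MOD Nat.card A] := by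
        rw [hj, ← pow_mul, mul_comm, pow_mul]
        simpa using hpt.pow j
      have h2 := (Nat.modEq_iff_dvd.1 h1.symm)
      obtain ⟨g, hg⟩ := h2
      exact ⟨g, by push_cast at hg; linarith⟩
    choose g hg using hg
    have hK : ∀ a : A, ∃ K : ℕ, Nat.card S = PP act a * K := fun a => PP_dvd act a
    choose K hK using hK
    have hid : ((Nat.card S : ℕ) : ℂ) * cc =
        (Nat.card S : ℂ) * c₀ * ((Nat.card A : ℂ)⁻¹ * ∑ a : A, (F a * (PP act a : ℂ) ^ (t - 1)) * (Ψ a * Ψ v).trace)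
          - ∑ a : A, (χ : X → ℂ) (v * a) * c₀ * F a * (g a : ℂ) * (K a : ℂ) := by
      have h1 : ∀ a : A, (Nat.card S : ℂ) * f a = c₀ * F a * (K a : ℂ) := by
        intro a
        have h2 : (Nat.card S : ℂ) = (PP act a : ℂ) * (K a : ℂ) := by
          exact_mod_cast hK a
        rw [h2]
        linear_combination (K a : ℂ) * hfF a
      have h2 : ∀ a : A, (K a : ℂ) = (Nat.card S : ℂ) * (PP act a : ℂ) ^ (t - 1) - (Nat.card A : ℂ) * (g a : ℂ) * (K a : ℂ) := by
        intro a
        have h3 : (Nat.card S : ℂ) = (PP act a : ℂ) * (K a : ℂ) := by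
          exact_mod_cast hK a
        have h4 : (PP act a : ℂ) ^ t = 1 + (Nat.card A : ℂ) * (g a : ℂ) := by
          exact_mod_cast hg a
        have h5 : (PP act a : ℂ) * (PP act a : ℂ) ^ (t - 1) = (PP act a : ℂ) ^ t := by
          rw [← pow_succ', Nat.sub_add_cancel htpos]
        rw [h3]
        linear_combination (-(K a : ℂ)) * h4 + (-(K a : ℂ)) * h5
      have h3 : ∀ a : A, (Ψ a * Ψ v).trace = (χ : X → ℂ) (v * a) := by
        intro a
        rw [hΨ, map_mul, Matrix.trace_mul_comm]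
      rw [hcc]
      simp only [h3]
      rw [mul_comm (Nat.card S : ℂ) (_ * _)]
      have h4 : (Nat.card A : ℂ)⁻¹ * (∑ a : A, (χ : X → ℂ) (v * a) * f a) * (Nat.card S : ℂ) =
          (Nat.card A : ℂ)⁻¹ * ∑ a : A, (χ : X → ℂ) (v * a) * (c₀ * F a * (K a : ℂ)) := by
        rw [mul_assoc, Finset.sum_mul]
        congr 1
        refine Finset.sum_congr rfl fun a _ => ?_
        rw [mul_assoc, mul_comm (f a), h1]
      rw [h4]
      have h5 : ∀ a : A, (χ : X → ℂ) (v * a) * (c₀ * F a * (K a : ℂ)) =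
          (Nat.card S : ℂ) * c₀ * ((F a * (PP act a : ℂ) ^ (t - 1)) * (χ : X → ℂ) (v * a)) -
            (Nat.card A : ℂ) * ((χ : X → ℂ) (v * a) * c₀ * F a * (g a : ℂ) * (K a : ℂ)) := by
        intro a
        conv_lhs => rw [h2 a]
        ring
      simp only [h5]
      rw [Finset.sum_sub_distrib, ← Finset.mul_sum, ← Finset.mul_sum, mul_sub, inv_mul_cancel_left₀ hA0]
      ring
    have hvp : (Ψ v) ^ p = 1 := by
      rw [← map_pow, hVexp v hv, map_one]
    have hint2 : IsIntegral ℤ (((Nat.card S : ℕ) : ℂ) * cc) := by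
      rw [hid]
      have hTw : IsTw p A (fun a => F a * (PP act a : ℂ) ^ (t - 1)) := hF.mul ((isTw_PP act).pow _)
      have h1 := hTw.avg_isIntegral hp0 (((Ψ.comp A.subtype))) (Ψ v) hvp (by
        intro a
        show Ψ a * Ψ v = Ψ v * Ψ a
        rw [← map_mul, ← map_mul, hAC])
      refine IsIntegral.sub (IsIntegral.mul (IsIntegral.mul ?_ hc₀) ?_) ?_
      · exact isInt_nat _
      · exact h1
      · refine IsIntegral.sum _ fun a _ => ?_
        refine IsIntegral.mul (IsIntegral.mul (IsIntegral.mul ((hval χ _).1.mul hc₀) (hF.isIntegral hp0 a)) ?_) ?_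
        · exact isInt_int _
        · exact isInt_nat _
    -- Bezout
    have hcoS : Nat.Coprime (Nat.card S) (Nat.card A) := by
      rw [hd]
      exact Nat.Coprime.pow_left _ hco.symm
    have hbez := Nat.gcd_eq_gcd_ab (Nat.card S) (Nat.card A)
    rw [hcoS.gcd_eq_one] at hbez
    have hb2 : cc = (((Nat.card S).gcdA (Nat.card A) : ℤ) : ℂ) * (((Nat.card S : ℕ) : ℂ) * cc) +
        (((Nat.card S).gcdB (Nat.card A) : ℤ) : ℂ) * ((Nat.card A : ℂ) * cc) := by
      have h3 : (1 : ℂ) = (Nat.card S : ℂ) * (((Nat.card S).gcdA (Nat.card A) : ℤ) : ℂ) +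
          (Nat.card A : ℂ) * (((Nat.card S).gcdB (Nat.card A) : ℤ) : ℂ) := by
        exact_mod_cast hbez
      linear_combination cc * h3
    rw [hb2]
    refine IsIntegral.add (IsIntegral.mul ?_ hint2) (IsIntegral.mul ?_ hint1)
    · exact isInt_int _
    · exact isInt_int _
  have hne : ∀ χ : IrrCharacter X, coeffC v A y χ ≠ 0 := by
    intro χ h0
    rw [hdata] at h0
    have h1 : ∑ a : A, (χ : X → ℂ) (v * a) * f a = 0 := by
      rcases mul_eq_zero.1 h0 with h | h
      · exact absurd h (inv_ne_zero hA0)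
      · exact h
    have h2 : (χ : X → ℂ) v = - ∑ a ∈ Finset.univ.erase (1 : A), (χ : X → ℂ) (v * a) * f a := by
      have h3 := Finset.add_sum_erase Finset.univ (fun a : A => (χ : X → ℂ) (v * a) * f a) (Finset.mem_univ 1)
      simp only [h1, hf.one, OneMemClass.coe_one, mul_one] at h3
      linear_combination h3
    have h4 : InM M ((χ : X → ℂ) v) := by
      rw [h2]
      refine (InM.sum _ _ fun a ha => ?_).neg
      exact (hf.mem a (hfaith a (Finset.ne_of_mem_erase ha))).mul_left (hval χ _).1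
    obtain ⟨m, Ψ, hΨ⟩ := exists_matrix_rep (Cfsg.Agent.Lib.CharBasic.IsIrrCharacter.isCharacter χ.2)
    have h5 : InM M ((1 - Ψ v).trace) := trace_one_sub_mem hM _ (by rw [← map_pow, hVexp v hv, map_one])
    have h6 : (1 - Ψ v).trace = (χ : X → ℂ) 1 - (χ : X → ℂ) v := by
      rw [Matrix.trace_sub, hΨ, hΨ, map_one]
    rw [h6] at h5
    have h7 : InM M ((χ : X → ℂ) 1) := by
      have := h5.add h4
      simpa using this
    obtain ⟨m', ρ, hρ, hχ⟩ := χ.2
    have h8 : Module.finrank ℂ (Fin m' → ℂ) ∣ V.index :=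
      Cfsg.Agent.Lib.CharWeight.finrank_dvd_index ρ hρ inferInstance hab
    have h9 : (χ : X → ℂ) 1 = (Module.finrank ℂ (Fin m' → ℂ) : ℂ) := by
      rw [← hχ, Representation.char_one]
    rw [h9] at h7
    exact not_InM_nat hM (fun h => hidx (h.trans h8)) h7
  -- the final count
  let R : A → ℕ := fun a => Nat.card S * k a
  have hR : ∀ a, ‖y a‖ ^ 2 * (Nat.card {w : V // (a : X) * w * (a : X)⁻¹ = w} : ℝ) = R a := by
    intro a
    rw [hk a]
    have h1 : ((R a : ℕ) : ℝ) = (Nat.card S : ℝ) * (k a : ℝ) := by simp [R]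
    rw [h1]
    push_cast
    rw [← mul_assoc, hnorm a]
  exact main_core hVexp hidx hab hGV hv A hA y hycl R hR hkle n hmem hint hne

end Final

end Cfsg.Agent.Lib.KRVMain
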