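import Mathlib
import Cfsg.Agent.Lib.KRVMain

/-!
# Gauss sums of an invariant quadratic form give a good function
-/

set_option autoImplicit false

namespace Cfsg.Agent.Lib.KRVGauss

open Cfsg Cfsg.Agent.Lib.KRVTw Cfsg.Agent.Lib.KRVMain Cfsg.Agent.Lib.GalAmgm
open scoped ComplexConjugate

universe u v

variable {A : Type u} [Group A] {S : Type v} [AddCommGroup S] {p : ℕ} [hpp : Fact p.Prime]
  [Module (ZMod p) S]

section Compl

/-- The commutator space. -/
def comS (act : A →* Module.End (ZMod p) S) (a : A) : Submodule (ZMod p) S :=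
  LinearMap.range (act a - 1)

theorem mem_fixS {act : A →* Module.End (ZMod p) S} {a : A} {x : S} :
    x ∈ fixS act a ↔ act a x = x := Iff.rfl

/-- Coprime action on an elementary abelian group. -/
theorem isCompl_fix_com [Finite A] (act : A →* Module.End (ZMod p) S)
    (hco : Nat.Coprime (Nat.card A) p) (a : A) : IsCompl (fixS act a) (comS act a) := by
  classical
  set T : Module.End (ZMod p) S := act a with hT
  set d := Nat.card A with hd
  have hTd : T ^ d = 1 := by
    rw [hT, ← map_pow, pow_card_eq_one', map_one]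
  have hd0 : (d : ZMod p) ≠ 0 := by
    intro h
    rw [ZMod.natCast_eq_zero_iff] at h
    have h2 := Nat.Coprime.eq_one_of_dvd hco.symm h
    exact hpp.out.one_lt.ne' h2
  let E : Module.End (ZMod p) S := ∑ i ∈ Finset.range d, T ^ i
  have hE1 : (T - 1) * E = 0 := by
    have := mul_geom_sum T d
    rw [hTd, sub_self] at this
    exact this
  have hE2 : E * (T - 1) = 0 := by
    have := geom_sum_mul T d
    rw [hTd, sub_self] at this
    exact this
  have hfixE : ∀ x, T x = x → E x = (d : ZMod p) • x := by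
    intro x hx
    have h1 : ∀ i : ℕ, (T ^ i) x = x := by
      intro i
      induction i with
      | zero => simp
      | succ i ih => rw [pow_succ, Module.End.mul_apply, hx, ih]
    simp only [E, LinearMap.sum_apply, h1, Finset.sum_const, Finset.card_range]
    rw [Nat.cast_smul_eq_nsmul]
  constructor
  · rw [Submodule.disjoint_def]
    rintro x hx hx2
    obtain ⟨y, rfl⟩ := LinearMap.mem_range.1 hx2
    have h1 := hfixE _ hx
    have h2 : E ((T - 1) y) = 0 := by
      rw [← Module.End.mul_apply, hE2]
      rfl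
    rw [h2] at h1
    have h3 := (smul_eq_zero.1 h1.symm).resolve_left hd0
    exact h3
  · rw [codisjoint_iff, eq_top_iff]
    intro x _
    have h1 : (T - 1) (E x) = 0 := by
      rw [← Module.End.mul_apply, hE1]
      rfl
    have h2 : (d : ZMod p)⁻¹ • E x ∈ fixS act a := by
      rw [mem_fixS, map_smul]
      have h3 : T (E x) = E x := by
        have := h1
        simp only [LinearMap.sub_apply, Module.End.one_apply, sub_eq_zero] at this
        exact this
      rw [← hT, h3]
    have h4 : x - (d : ZMod p)⁻¹ • E x ∈ comS act a := by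
      -- `d • x - E x` lies in the range
      have h5 : ∀ (n : ℕ), (n : ZMod p) • x - (∑ i ∈ Finset.range n, T ^ i) x ∈ comS act a := by
        intro n
        induction n with
        | zero => simp
        | succ n ih =>
          rw [Finset.sum_range_succ]
          have h6 : x - (T ^ n) x ∈ comS act a := by
            have h7 := mul_geom_sum T n
            refine ⟨-(∑ i ∈ Finset.range n, T ^ i) x, ?_⟩
            rw [map_neg]
            show -((T - 1) ((∑ i ∈ Finset.range n, T ^ i) x)) = _
            rw [← Module.End.mul_apply, h7]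
            simp
          have h8 : ((n + 1 : ℕ) : ZMod p) • x - ((∑ i ∈ Finset.range n, T ^ i) + T ^ n) x =
              ((n : ZMod p) • x - (∑ i ∈ Finset.range n, T ^ i) x) + (x - (T ^ n) x) := by
            rw [Nat.cast_succ, add_smul, one_smul, LinearMap.add_apply]
            abel
          rw [h8]
          exact add_mem ih h6
      have h9 := (comS act a).smul_mem (d : ZMod p)⁻¹ (h5 d)
      rw [smul_sub, smul_smul, inv_mul_cancel₀ hd0, one_smul] at h9
      exact h9
    have h10 : x = (d : ZMod p)⁻¹ • E x + (x - (d : ZMod p)⁻¹ • E x) := by abel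
    rw [h10]
    exact Submodule.add_mem_sup h2 h4

end Compl

section Gauss

variable {Q : S → ZMod p} {γ : S →ₗ[ZMod p] S →ₗ[ZMod p] ZMod p}

/-- The additive character. -/
noncomputable abbrev psi (p : ℕ) [Fact p.Prime] : AddChar (ZMod p) ℂ := ZMod.stdAddChar

theorem psi_pow (x : ZMod p) : psi p x ^ p = 1 := by
  rw [← AddChar.map_nsmul_eq_pow]
  have : p • x = 0 := by
    rw [nsmul_eq_mul, ZMod.natCast_self, zero_mul]
  rw [this, AddChar.map_zero_eq_one]

theorem psi_ne_one {x : ZMod p} (hx : x ≠ 0) : psi p x ≠ 1 := by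
  intro h
  apply hx
  apply ZMod.injective_stdAddChar
  rw [AddChar.map_zero_eq_one]
  exact h

theorem conj_psi (x : ZMod p) : conj (psi p x) = psi p (-x) :=
  (AddChar.map_neg_eq_conj _ _).symm

/-- Orthogonality for additive characters of a finite abelian group. -/
theorem sum_psi_eq_zero {T : Type*} [AddCommGroup T] [Fintype T] (l : T →+ ZMod p)
    (h : ∃ y, l y ≠ 0) : ∑ y : T, psi p (l y) = 0 := by
  obtain ⟨y, hy⟩ := h
  let χ : AddChar T ℂ := (psi p).compAddMonoidHom l
  have hχ : χ ≠ 1 := by
    intro h1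
    have h2 : χ y = 1 := by rw [h1]; rfl
    exact psi_ne_one hy h2
  exact AddChar.sum_eq_zero_of_ne_one hχ

/-- The Gauss sum of a subgroup. -/
noncomputable def gs (Q : S → ZMod p) (T : Submodule (ZMod p) S) [Finite S] : ℂ :=
  letI := Fintype.ofFinite ↥T
  ∑ x : ↥T, psi p (Q x)

theorem gs_eq [Finite S] (T : Submodule (ZMod p) S) [i : Fintype ↥T] :
    gs Q T = ∑ x : ↥T, psi p (Q x) := by
  unfold gs
  have : Fintype.ofFinite ↥T = i := Subsingleton.elim _ _
  rw [this]

/-- The norm of a Gauss sum on a nondegenerate subspace. -/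
theorem gs_norm [Finite S] (hadd : ∀ x y, Q (x + y) = Q x + Q y + γ x y) (h0 : Q 0 = 0)
    (T : Submodule (ZMod p) S) (hnd : ∀ z ∈ T, (∀ y ∈ T, γ y z = 0) → z = 0) :
    gs Q T * conj (gs Q T) = Nat.card T := by
  classical
  letI := Fintype.ofFinite ↥T
  rw [gs_eq, map_sum, Finset.sum_mul_sum]
  have h1 : ∀ y : ↥T, ∑ x : ↥T, psi p (Q x) * conj (psi p (Q y)) =
      ∑ z : ↥T, psi p (Q z) * psi p (γ y z) := by
    intro y
    refine Fintype.sum_equiv (Equiv.addLeft (-y)) _ _ fun x => ?_
    have h2 : (x : S) = y + ((-y + x : ↥T) : S) := by simp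
    rw [conj_psi, ← AddChar.map_add_eq_mul, ← AddChar.map_add_eq_mul]
    congr 1
    show Q x + - Q y = Q ((-y + x : ↥T) : S) + γ y ((-y + x : ↥T) : S)
    conv_lhs => rw [h2, hadd]
    ring
  rw [Finset.sum_comm]
  simp only [h1]
  rw [Finset.sum_comm]
  have h3 : ∀ z : ↥T, ∑ y : ↥T, psi p (Q z) * psi p (γ y z) =
      if z = 0 then (Nat.card T : ℂ) else 0 := by
    intro z
    rw [← Finset.mul_sum]
    by_cases hz : z = 0
    · subst hz
      simp only [if_true, ZeroMemClass.coe_zero, h0, AddChar.map_zero_eq_one, map_zero,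
        LinearMap.zero_apply, one_mul, Finset.sum_const, Finset.card_univ, nsmul_eq_mul, mul_one,
        Nat.card_eq_fintype_card, LinearMap.map_zero]
    · rw [if_neg hz]
      let l : ↥T →+ ZMod p :=
        { toFun := fun y => γ y z
          map_zero' := by simp
          map_add' := fun a b => by simp }
      have h4 : ∃ y, l y ≠ 0 := by
        by_contra hc
        push Not at hc
        apply hz
        apply Subtype.ext
        exact hnd z z.2 (fun y hy => hc ⟨y, hy⟩)
      have h5 := sum_psi_eq_zero l h4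
      have h6 : ∑ y : ↥T, psi p (γ y z) = 0 := h5
      rw [h6, mul_zero]
  simp only [h3]
  rw [Finset.sum_ite_eq']
  simp

/-- Multiplicativity over an orthogonal decomposition. -/
theorem gs_top_eq [Finite S] (hadd : ∀ x y, Q (x + y) = Q x + Q y + γ x y)
    (C D : Submodule (ZMod p) S) (hc : IsCompl C D) (horth : ∀ x ∈ C, ∀ y ∈ D, γ x y = 0) :
    gs Q ⊤ = gs Q C * gs Q D := by
  classical
  letI := Fintype.ofFinite ↥C
  letI := Fintype.ofFinite ↥D
  letI := Fintype.ofFinite ↥(⊤ : Submodule (ZMod p) S)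
  rw [gs_eq, gs_eq, gs_eq, Finset.sum_mul_sum, ← Finset.sum_product']
  let e : (↥C × ↥D) ≃ ↥(⊤ : Submodule (ZMod p) S) :=
    ((Submodule.prodEquivOfIsCompl C D hc).toEquiv).trans (Equiv.subtypeUnivEquiv (fun _ => trivial)).symm
  symm
  refine Fintype.sum_equiv e _ _ ?_
  rintro ⟨c, d⟩
  show psi p (Q c) * psi p (Q d) = psi p (Q (c + d : S))
  rw [← AddChar.map_add_eq_mul, hadd, horth c c.2 d d.2, add_zero]

end Gauss

section Good

variable [Finite S] {Q : S → ZMod p} {γ : S →ₗ[ZMod p] S →ₗ[ZMod p] ZMod p}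

theorem gs_mem_cycF (Q : S → ZMod p) (T : Submodule (ZMod p) S) : gs Q T ∈ cycF p := by
  letI := Fintype.ofFinite ↥T
  rw [gs_eq]
  exact sum_mem fun x _ => mem_cycF_of_pow (psi_pow _)

theorem gs_isIntegral (Q : S → ZMod p) (T : Submodule (ZMod p) S) : IsIntegral ℤ (gs Q T) := by
  letI := Fintype.ofFinite ↥T
  rw [gs_eq]
  refine IsIntegral.sum _ fun x _ => ?_
  exact IsIntegral.of_pow hpp.out.pos (by rw [psi_pow]; exact isIntegral_one)

theorem conj_mem_cycF {z : ℂ} (h : z ∈ cycF p) : conj z ∈ cycF p := by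
  haveI : NeZero p := ⟨hpp.out.ne_zero⟩
  have := coe_conjF p ⟨z, h⟩
  simp only at this
  rw [← this]
  exact SetLike.coe_mem _

theorem conj_isIntegral {z : ℂ} (h : IsIntegral ℤ z) : IsIntegral ℤ (conj z) := by
  have := h.map (conjQ.restrictScalars ℤ : ℂ →ₐ[ℤ] ℂ)
  exact this

theorem gs_mem_of_dvd {M : Ideal AlgInt} (hM : IsPModular p M) (Q : S → ZMod p)
    (T : Submodule (ZMod p) S) (hT : p ∣ Nat.card T) : InM M (gs Q T) := by
  classical
  letI := Fintype.ofFinite ↥T
  rw [gs_eq]
  have h1 := sum_roots_sub_mem hM (Finset.univ : Finset ↥T) (fun x => psi p (Q x))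
    (fun x _ => psi_pow _)
  rw [Finset.card_univ, ← Nat.card_eq_fintype_card] at h1
  have h2 := (InM.of_dvd hM hT).sub h1
  simpa using h2

theorem InM_conj_gs {M : Ideal AlgInt} (hM : IsPModular p M) (Q : S → ZMod p)
    (T : Submodule (ZMod p) S) (hT : p ∣ Nat.card T) : InM M (conj (gs Q T)) := by
  letI := Fintype.ofFinite ↥T
  have h1 : conj (gs Q T) = gs (fun x => - Q x) T := by
    rw [gs_eq, gs_eq, map_sum]
    exact Finset.sum_congr rfl fun x _ => conj_psi _
  rw [h1]
  exact gs_mem_of_dvd hM _ T hT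

theorem fix_sum_eq (act : A →* Module.End (ZMod p) S) (a : A) (Q : S → ZMod p) [Fintype S]
    [DecidableEq S] :
    (∑ x : S, if act a x = x then psi p (Q x) else 0) = gs Q (fixS act a) := by
  classical
  letI : Fintype ↥(fixS act a) := Fintype.ofFinite _
  rw [gs_eq]
  rw [← Finset.sum_filter]
  refine Finset.sum_bij' (fun x hx => ⟨x, (Finset.mem_filter.1 hx).2⟩) (fun x _ => (x : S)) ?_ ?_ ?_ ?_ ?_
  · intro x _
    exact Finset.mem_univ _
  · intro x _
    exact Finset.mem_filter.2 ⟨Finset.mem_univ _, x.2⟩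
  · intro x _
    rfl
  · intro x _
    rfl
  · intro x _
    rfl

/-- **The Gaussian good function.** -/
theorem good_gauss [Finite A] (act : A →* Module.End (ZMod p) S) (hco : Nat.Coprime (Nat.card A) p)
    {M : Ideal AlgInt} (hM : IsPModular p M)
    (hadd : ∀ x y, Q (x + y) = Q x + Q y + γ x y)
    (hnd : ∀ x, (∀ y, γ x y = 0) → x = 0)
    (hinv : ∀ a x, Q (act a x) = Q x) : ∃ f : A → ℂ, Good M act f := by
  classical
  letI := Fintype.ofFinite S
  have h0 : Q 0 = 0 := by
    have := hadd 0 0
    simp only [add_zero, map_zero, LinearMap.zero_apply] at this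
    exact left_eq_add.1 this
  have hsym : ∀ x y, γ x y = γ y x := by
    intro x y
    have h1 := hadd x y
    have h2 := hadd y x
    rw [add_comm y x] at h2
    rw [h1] at h2
    linear_combination h2
  have hγinv : ∀ a x y, γ (act a x) (act a y) = γ x y := by
    intro a x y
    have h1 := hadd (act a x) (act a y)
    rw [← map_add, hinv, hinv, hinv, hadd x y] at h1
    linear_combination -h1
  have hcompl := fun a => isCompl_fix_com act hco a
  have horth : ∀ a, ∀ x ∈ fixS act a, ∀ y ∈ comS act a, γ x y = 0 := by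
    intro a x hx y hy
    obtain ⟨w, rfl⟩ := LinearMap.mem_range.1 hy
    have h1 := hγinv a x w
    rw [mem_fixS.1 hx] at h1
    show γ x ((act a - 1) w) = 0
    simp only [LinearMap.sub_apply, Module.End.one_apply, map_sub, h1, sub_self]
  have hsplit : ∀ a s, ∃ c ∈ fixS act a, ∃ d ∈ comS act a, c + d = s := by
    intro a s
    have h1 : s ∈ fixS act a ⊔ comS act a := by
      rw [(hcompl a).sup_eq_top]
      trivial
    obtain ⟨c, hc, d, hd, h2⟩ := Submodule.mem_sup.1 h1
    exact ⟨c, hc, d, hd, h2⟩
  have hndC : ∀ a, ∀ z ∈ fixS act a, (∀ y ∈ fixS act a, γ y z = 0) → z = 0 := by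
    intro a z hz h
    apply hnd
    intro s
    obtain ⟨c, hc, d, hd, rfl⟩ := hsplit a s
    rw [map_add, horth a z hz d hd, hsym, h c hc, add_zero]
  have hndD : ∀ a, ∀ z ∈ comS act a, (∀ y ∈ comS act a, γ y z = 0) → z = 0 := by
    intro a z hz h
    apply hnd
    intro s
    obtain ⟨c, hc, d, hd, rfl⟩ := hsplit a s
    rw [map_add, hsym, horth a c hc z hz, hsym, h d hd, add_zero]
  have hnormC := fun a => gs_norm hadd h0 (fixS act a) (hndC a)
  have hnormD := fun a => gs_norm hadd h0 (comS act a) (hndD a)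
  have hmul := fun a => gs_top_eq hadd (fixS act a) (comS act a) (hcompl a) (horth a)
  have hcard : ∀ a, PP act a * Nat.card (comS act a) = Nat.card S := by
    intro a
    rw [PP_eq, ← Nat.card_prod]
    exact Nat.card_congr (Submodule.prodEquivOfIsCompl _ _ (hcompl a)).toEquiv
  refine ⟨fun a => conj (gs Q (comS act a)), ?_, ?_, ?_, ?_, ?_⟩
  · refine ⟨conj (gs Q ⊤), fun a => gs Q (fixS act a), conj_isIntegral (gs_isIntegral _ _),
      conj_mem_cycF (gs_mem_cycF _ _), ?_, ?_⟩
    · have h1 := isTw_perm act (fun x => psi p (Q x)) (fun x => psi_pow _) (fun a x => by rw [hinv])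
      simpa only [fix_sum_eq] using h1
    · intro a
      rw [hmul a, map_mul, PP_eq, ← hnormC a]
      ring
  · intro a
    exact conj_isIntegral (gs_isIntegral _ _)
  · intro a
    have h1 : conj (conj (gs Q (comS act a))) = gs Q (comS act a) := Complex.conj_conj _
    rw [h1, mul_comm (conj _), hnormD a, ← hcard a]
    push_cast
    ring
  · have h1 : comS act (1 : A) = ⊥ := by
      unfold comS
      rw [map_one, sub_self]
      exact LinearMap.range_zero
    show conj (gs Q (comS act (1 : A))) = 1
    rw [h1]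
    letI : Fintype ↥(⊥ : Submodule (ZMod p) S) := Fintype.ofFinite _
    rw [gs_eq]
    have h2 : (Finset.univ : Finset ↥(⊥ : Submodule (ZMod p) S)) = {0} := by
      ext x
      simp only [Finset.mem_univ, Finset.mem_singleton, true_iff]
      exact Subsingleton.elim _ _
    rw [h2, Finset.sum_singleton]
    simp [h0, AddChar.map_zero_eq_one]
  · rintro a ⟨s, hs⟩
    apply InM_conj_gs hM
    -- the commutator space is a nonzero vector space over `ZMod p`
    have h1 : comS act a ≠ ⊥ := by
      intro h
      apply hs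
      have h2 : (act a - 1) s ∈ comS act a := ⟨s, rfl⟩
      rw [h, Submodule.mem_bot] at h2
      simpa [sub_eq_zero] using h2
    obtain ⟨j, hj⟩ := card_pow (p := p) ↥(comS act a)
    rw [hj]
    have hj0 : j ≠ 0 := by
      rintro rfl
      rw [pow_zero, Nat.card_eq_one_iff_unique] at hj
      apply h1
      have := hj.1
      exact Submodule.eq_bot_of_subsingleton
    exact dvd_pow_self p hj0

end Good

end Cfsg.Agent.Lib.KRVGauss
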