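import Mathlib
import Cfsg.Agent.Lib.KRVGauss

/-!
# Finite Heisenberg operators: traces

Operators `π x` on a complex vector space `H`, for `x` in a symplectic space `S` over `ZMod p`, with
`π x π y = ψ(ω(x, y) / 2) π (x + y)`, with trivial commutant and `(dim H) ^ 2 = |S|`.
-/

set_option autoImplicit false

namespace Cfsg.Agent.Lib.KRVWeilA

open Cfsg Cfsg.Agent.Lib.KRVTw Cfsg.Agent.Lib.KRVMain Cfsg.Agent.Lib.KRVGauss
open scoped ComplexConjugate
open Module

universe u v w

variable {S : Type v} [AddCommGroup S] {p : ℕ} [hpp : Fact p.Prime] [Module (ZMod p) S]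
  {H : Type w} [AddCommGroup H] [Module ℂ H]

/-- The data of Heisenberg operators. -/
structure HD (ω : S →ₗ[ZMod p] S →ₗ[ZMod p] ZMod p) (H : Type w) [AddCommGroup H] [Module ℂ H]
    where
  pi : S → Module.End ℂ H
  pi_zero : pi 0 = 1
  pi_mul : ∀ x y, pi x * pi y = psi p ((2 : ZMod p)⁻¹ * ω x y) • pi (x + y)
  comm : ∀ X : Module.End ℂ H, (∀ x, X * pi x = pi x * X) → ∃ c : ℂ, X = c • 1
  dim : finrank ℂ H ^ 2 = Nat.card S

variable {ω : S →ₗ[ZMod p] S →ₗ[ZMod p] ZMod p} (D : HD ω H)

local notation "tr" => LinearMap.trace ℂ H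

theorem end_trace_isIntegral [FiniteDimensional ℂ H] (Z : Module.End ℂ H) {m : ℕ} (hm : 0 < m)
    (hZ : Z ^ (m + 1) = Z) : IsIntegral ℤ (tr Z) := by
  classical
  let b := Module.finBasis ℂ H
  rw [LinearMap.trace_eq_matrix_trace ℂ b]
  refine trace_isIntegral _ hm ?_
  show (LinearMap.toMatrixAlgEquiv b Z) ^ (m + 1) = LinearMap.toMatrixAlgEquiv b Z
  rw [← map_pow, hZ]

section
variable (halt : ∀ x, ω x x = 0) (h2 : (2 : ZMod p) ≠ 0)

include halt in
theorem anti (x y : S) : ω x y = - ω y x := by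
  have h := halt (x + y)
  simp only [map_add, LinearMap.add_apply, halt, zero_add, add_zero] at h
  exact eq_neg_of_add_eq_zero_right h

include halt in
theorem pi_mul_neg (x : S) : D.pi x * D.pi (-x) = 1 := by
  rw [D.pi_mul]
  simp [halt, D.pi_zero, AddChar.map_zero_eq_one]

include halt in
theorem pi_neg_mul (x : S) : D.pi (-x) * D.pi x = 1 := by
  have := pi_mul_neg D halt (-x)
  rwa [neg_neg] at this

include halt h2 in
theorem pi_conj (w u : S) : D.pi w * D.pi u * D.pi (-w) = psi p (ω w u) • D.pi u := by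
  rw [D.pi_mul, smul_mul_assoc, D.pi_mul, smul_smul, ← AddChar.map_add_eq_mul]
  have h3 : w + u + -w = u := by abel
  rw [h3]
  congr 2
  have h4 : ω (w + u) (-w) = ω w u := by
    simp only [map_add, LinearMap.add_apply, map_neg, halt, add_zero, neg_zero]
    rw [anti halt u w]
    simp
  rw [h4, ← mul_add, ← two_mul, ← mul_assoc, inv_mul_cancel₀ h2, one_mul]

include halt in
theorem pi_twirl_step (w u : S) (X : Module.End ℂ H) :
    D.pi w * (D.pi u * X * D.pi (-u)) * D.pi (-w) = D.pi (w + u) * X * D.pi (-(w + u)) := by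
  have h1 : D.pi w * (D.pi u * X * D.pi (-u)) * D.pi (-w) =
      (D.pi w * D.pi u) * X * (D.pi (-u) * D.pi (-w)) := by
    simp only [mul_assoc]
  rw [h1, D.pi_mul w u, D.pi_mul (-u) (-w)]
  have h3 : -u + -w = -(w + u) := by abel
  have h4 : ω (-u) (-w) = - ω w u := by
    simp only [map_neg, LinearMap.neg_apply, neg_neg]
    exact anti halt u w
  rw [h3, h4]
  simp only [smul_mul_assoc, mul_smul_comm, smul_smul]
  rw [← AddChar.map_add_eq_mul, mul_neg, neg_add_cancel, AddChar.map_zero_eq_one, one_smul]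

variable [Fintype S] [FiniteDimensional ℂ H]

include D in
theorem finrank_ne_zero' : (finrank ℂ H : ℂ) ≠ 0 := by
  have h1 : finrank ℂ H ^ 2 = Nat.card S := D.dim
  have h3 : 0 < Nat.card S := Nat.card_pos
  have h4 : finrank ℂ H ≠ 0 := by
    intro h
    rw [h, zero_pow two_ne_zero] at h1
    omega
  exact_mod_cast h4

include D in
theorem card_eq_sq : (Fintype.card S : ℂ) = (finrank ℂ H : ℂ) * finrank ℂ H := by
  have h1 : finrank ℂ H ^ 2 = Nat.card S := D.dim
  rw [Nat.card_eq_fintype_card] at h1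
  rw [← h1]
  push_cast
  ring

include halt in
/-- The twirl of an operator. -/
theorem twirl (X : Module.End ℂ H) :
    ∑ u : S, D.pi u * X * D.pi (-u) = ((finrank ℂ H : ℂ) * tr X) • 1 := by
  set Y := ∑ u : S, D.pi u * X * D.pi (-u) with hY
  have h1 : ∀ w, D.pi w * Y * D.pi (-w) = Y := by
    intro w
    rw [hY, Finset.mul_sum, Finset.sum_mul]
    simp only [pi_twirl_step D halt]
    exact Fintype.sum_equiv (Equiv.addLeft w) _ _ (fun u => rfl)
  have h2 : ∀ w, Y * D.pi w = D.pi w * Y := by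
    intro w
    calc Y * D.pi w = (D.pi w * Y * D.pi (-w)) * D.pi w := by rw [h1]
      _ = D.pi w * Y * (D.pi (-w) * D.pi w) := by simp only [mul_assoc]
      _ = D.pi w * Y := by rw [pi_neg_mul D halt, mul_one]
  obtain ⟨c, hc⟩ := D.comm Y h2
  have h3 : tr Y = (Fintype.card S : ℂ) * tr X := by
    rw [hY, map_sum]
    have h4 : ∀ u : S, tr (D.pi u * X * D.pi (-u)) = tr X := by
      intro u
      rw [LinearMap.trace_mul_cycle, pi_neg_mul D halt, one_mul]
    simp only [h4, Finset.sum_const, Finset.card_univ, nsmul_eq_mul]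
  have h5 : tr Y = c * (finrank ℂ H : ℂ) := by
    rw [hc, map_smul, LinearMap.trace_one, smul_eq_mul]
  rw [hc]
  congr 1
  have h6 := finrank_ne_zero' D
  rw [h5, card_eq_sq D] at h3
  field_simp at h3 ⊢
  linear_combination h3

variable (hnd : ∀ x, (∀ y, ω x y = 0) → x = 0)

include halt h2 hnd in
theorem tr_pi {x : S} (hx : x ≠ 0) : tr (D.pi x) = 0 := by
  have h1 : ∃ y, ω x y ≠ 0 := by
    by_contra h
    push Not at h
    exact hx (hnd x h)
  obtain ⟨y, hy⟩ := h1
  have h3 : ω y x ≠ 0 := by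
    rw [anti halt y x]
    exact neg_ne_zero.2 hy
  have h4 := pi_conj D halt h2 y x
  have h5 : tr (D.pi y * D.pi x * D.pi (-y)) = tr (D.pi x) := by
    rw [LinearMap.trace_mul_cycle, pi_neg_mul D halt, one_mul]
  rw [h4, map_smul, smul_eq_mul] at h5
  have h6 := psi_ne_one h3
  have h7 : (psi p (ω y x) - 1) * tr (D.pi x) = 0 := by
    rw [sub_mul, h5, one_mul, sub_self]
  rcases mul_eq_zero.1 h7 with h | h
  · exact absurd (sub_eq_zero.1 h) h6
  · exact h

include halt h2 hnd in
/-- **The trace of an intertwiner.** -/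
theorem trace_mul_trace (T T' : Module.End ℂ H) (hTT : T * T' = 1) (g : S → S)
    (hg : ∀ x, g (-x) = - g x) (hT : ∀ x, T * D.pi x = D.pi (g x) * T) [DecidableEq S] :
    tr T * tr T' = (Fintype.card {x : S // g x = x} : ℂ) := by
  classical
  have h1 := twirl D halt T
  have h3 := congrArg (fun Z => tr (Z * T')) h1
  simp only [Finset.sum_mul, map_sum, smul_mul_assoc, one_mul, map_smul, smul_eq_mul] at h3
  have h4 : ∀ u : S, tr (D.pi u * T * D.pi (-u) * T') =
      if g u = u then (finrank ℂ H : ℂ) else 0 := by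
    intro u
    have h5 : D.pi u * T * D.pi (-u) * T' = D.pi u * D.pi (- g u) := by
      calc D.pi u * T * D.pi (-u) * T' = D.pi u * (T * D.pi (-u)) * T' := by simp only [mul_assoc]
        _ = D.pi u * (D.pi (g (-u)) * T) * T' := by rw [hT]
        _ = D.pi u * D.pi (g (-u)) * (T * T') := by simp only [mul_assoc]
        _ = D.pi u * D.pi (- g u) := by rw [hTT, mul_one, hg]
    rw [h5]
    by_cases hu : g u = u
    · rw [if_pos hu, hu, pi_mul_neg D halt, LinearMap.trace_one]
    · rw [if_neg hu, D.pi_mul, map_smul, smul_eq_mul]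
      have h6 : u + - g u ≠ 0 := by
        intro h
        apply hu
        exact (add_neg_eq_zero.1 h).symm
      rw [tr_pi D halt h2 hnd h6, mul_zero]
  simp only [h4] at h3
  rw [Finset.sum_ite, Finset.sum_const_zero, add_zero, Finset.sum_const, nsmul_eq_mul] at h3
  have h7 := finrank_ne_zero' D
  rw [Fintype.card_subtype]
  apply mul_left_cancel₀ h7
  rw [mul_comm (finrank ℂ H : ℂ) (tr T * tr T')] at *
  linear_combination -h3

include halt h2 hnd in
/-- **The divisibility of the trace of an operator commuting with `C`.** -/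
theorem trace_div (C L : Submodule (ZMod p) S) [Fintype C] [Fintype L] (hLC : L ≤ C)
    (hndC : ∀ u ∈ C, (∀ x ∈ C, ω x u = 0) → u = 0) (hiso : ∀ u ∈ L, ∀ w ∈ L, ω u w = 0)
    (hcard : Nat.card L ^ 2 = Nat.card C) (T : Module.End ℂ H)
    (hT : ∀ x ∈ C, T * D.pi x = D.pi x * T) {d : ℕ} (hd : 0 < d) (hTd : T ^ d = 1) :
    ∃ r : ℂ, IsIntegral ℤ r ∧ tr T = (Nat.card L : ℂ) * r := by
  classical
  have hL0 : (Nat.card L : ℂ) ≠ 0 := by exact_mod_cast Nat.card_pos.ne'
  let sumL : Module.End ℂ H := ∑ u : L, D.pi u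
  let e : Module.End ℂ H := (Nat.card L : ℂ)⁻¹ • sumL
  -- the sum is essentially idempotent
  have hmulL : ∀ u w : L, D.pi u * D.pi w = D.pi ((u + w : L) : S) := by
    intro u w
    rw [D.pi_mul, hiso u u.2 w w.2, mul_zero, AddChar.map_zero_eq_one, one_smul]
    rfl
  have hsumL : sumL * sumL = (Nat.card L : ℂ) • sumL := by
    show (∑ u : L, D.pi u) * (∑ u : L, D.pi u) = _
    rw [Finset.sum_mul]
    have h1 : ∀ u : L, D.pi u * ∑ w : L, D.pi w = ∑ w : L, D.pi w := by
      intro u
      rw [Finset.mul_sum]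
      simp only [hmulL]
      exact Fintype.sum_equiv (Equiv.addLeft u) _ _ (fun _ => rfl)
    simp only [h1, Finset.sum_const, Finset.card_univ]
    rw [Nat.card_eq_fintype_card, Nat.cast_smul_eq_nsmul]
  have hee : e * e = e := by
    show ((Nat.card L : ℂ)⁻¹ • sumL) * ((Nat.card L : ℂ)⁻¹ • sumL) = (Nat.card L : ℂ)⁻¹ • sumL
    rw [smul_mul_smul_comm, hsumL, smul_smul, mul_assoc, inv_mul_cancel₀ hL0, mul_one]
  have hTe : T * e = e * T := by
    show T * ((Nat.card L : ℂ)⁻¹ • sumL) = ((Nat.card L : ℂ)⁻¹ • sumL) * T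
    rw [mul_smul_comm, smul_mul_assoc]
    congr 1
    show T * (∑ u : L, D.pi u) = (∑ u : L, D.pi u) * T
    rw [Finset.mul_sum, Finset.sum_mul]
    exact Finset.sum_congr rfl fun u _ => hT u (hLC u.2)
  have hepow : ∀ k : ℕ, e ^ (k + 1) = e := by
    intro k
    induction k with
    | zero => simp
    | succ k ih => rw [pow_succ, ih, hee]
  have hZ : (T * e) ^ (d + 1) = T * e := by
    have hc : Commute T e := hTe
    rw [hc.mul_pow, hepow, pow_succ, hTd, one_mul]
  have hint := end_trace_isIntegral (T * e) hd hZ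
  refine ⟨tr (T * e), hint, ?_⟩
  -- the twirl of `e` over `C`
  have hconj : ∀ x : C, D.pi x * sumL * D.pi (-(x : S)) =
      ∑ u : L, psi p (ω x u) • D.pi u := by
    intro x
    show D.pi x * (∑ u : L, D.pi u) * D.pi (-(x : S)) = _
    rw [Finset.mul_sum, Finset.sum_mul]
    exact Finset.sum_congr rfl fun u _ => pi_conj D halt h2 x u
  have hsumC : ∀ u : L, ∑ x : C, psi p (ω x u) = if u = 0 then (Nat.card C : ℂ) else 0 := by
    intro u
    by_cases hu : u = 0
    · subst hu
      simp [AddChar.map_zero_eq_one]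
    · rw [if_neg hu]
      let l : C →+ ZMod p :=
        { toFun := fun x => ω x u
          map_zero' := by simp
          map_add' := fun a b => by simp }
      have h4 : ∃ y, l y ≠ 0 := by
        by_contra hc
        push Not at hc
        apply hu
        apply Subtype.ext
        exact hndC u (hLC u.2) (fun y hy => hc ⟨y, hy⟩)
      exact sum_psi_eq_zero l h4
  have htw : ∑ x : C, D.pi x * sumL * D.pi (-(x : S)) = (Nat.card C : ℂ) • 1 := by
    simp only [hconj]
    rw [Finset.sum_comm]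
    simp only [← Finset.sum_smul, hsumC]
    rw [Finset.sum_eq_single (0 : L)]
    · simp [D.pi_zero]
    · intro u _ hu
      simp [hu]
    · simp
  have h5 : tr (T * ∑ x : C, D.pi x * sumL * D.pi (-(x : S))) = (Nat.card C : ℂ) * tr T := by
    rw [htw, mul_smul_comm, mul_one, map_smul, smul_eq_mul]
  have h6 : tr (T * ∑ x : C, D.pi x * sumL * D.pi (-(x : S))) =
      (Nat.card C : ℂ) * tr (T * sumL) := by
    rw [Finset.mul_sum, map_sum]
    have h7 : ∀ x : C, tr (T * (D.pi x * sumL * D.pi (-(x : S)))) = tr (T * sumL) := by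
      intro x
      have h8 : T * (D.pi x * sumL * D.pi (-(x : S))) = (D.pi x * (T * sumL)) * D.pi (-(x : S)) := by
        rw [← mul_assoc T, ← mul_assoc T, hT x x.2]
        simp only [mul_assoc]
      rw [h8, LinearMap.trace_mul_cycle, pi_neg_mul D halt, one_mul]
    simp only [h7, Finset.sum_const, Finset.card_univ, nsmul_eq_mul, Nat.card_eq_fintype_card]
  have hC0 : (Nat.card C : ℂ) ≠ 0 := by exact_mod_cast Nat.card_pos.ne'
  have h9 : tr T = tr (T * sumL) := by
    apply mul_left_cancel₀ hC0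
    rw [← h5, h6]
  have h10 : tr (T * e) = (Nat.card L : ℂ)⁻¹ * tr (T * sumL) := by
    show tr (T * ((Nat.card L : ℂ)⁻¹ • sumL)) = _
    rw [mul_smul_comm, map_smul, smul_eq_mul]
  rw [h10, mul_inv_cancel_left₀ hL0]
  exact h9

end

end Cfsg.Agent.Lib.KRVWeilA
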