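import Mathlib
import Cfsg.Agent.Lib.KRVWeilA
import Cfsg.Agent.Lib.WeilRep
import Cfsg.Agent.Lib.SympBasis

/-!
# The Weil representation on an abstract symplectic module
-/

set_option autoImplicit false

namespace Cfsg.Agent.Lib.KRVWeilB

open Cfsg Cfsg.Agent.Lib.KRVTw Cfsg.Agent.Lib.KRVMain Cfsg.Agent.Lib.KRVGauss
open Cfsg.Agent.Lib.KRVWeilA Cfsg.Agent.Lib.WeilHeis Cfsg.Agent.Lib.WeilRep Cfsg.Agent.Lib.SympForm
open scoped ComplexConjugate
open Module Matrix

universe u v

variable {S : Type v} [AddCommGroup S] {p : ℕ} [hpp : Fact p.Prime] [Module (ZMod p) S]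

/-- A symplectic coordinate system. -/
theorem exists_coord [Finite S] (ω : S →ₗ[ZMod p] S →ₗ[ZMod p] ZMod p) (halt : ∀ x, ω x x = 0)
    (hnd : ∀ x, (∀ y, ω x y = 0) → x = 0) :
    ∃ (m : ℕ) (e : S ≃ₗ[ZMod p] (Fin m ⊕ Fin m → ZMod p)),
      ∀ x y, sympForm m (ZMod p) (e x) (e y) = ω x y := by
  classical
  haveI : Module.Finite (ZMod p) S := Module.Finite.of_finite
  obtain ⟨m, s, hs⟩ := Cfsg.Agent.Lib.SympBasis.exists_symp_basis ω halt hnd
  let φ : Fin m ⊕ Fin m ≃ Fin 2 × Fin m :=
    { toFun := fun b => Sum.elim (fun j => ((1 : Fin 2), j)) (fun j => ((0 : Fin 2), j)) b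
      invFun := fun c => if c.1 = 1 then Sum.inl c.2 else Sum.inr c.2
      left_inv := by
        rintro (j | j) <;> simp
      right_inv := by
        rintro ⟨i, j⟩
        fin_cases i <;> simp }
  let s' : Basis (Fin m ⊕ Fin m) (ZMod p) S := s.reindex φ.symm
  have hs'eq : ∀ b, s' b = s (φ b) := by
    intro b
    simp [s', Basis.reindex_apply]
  let e : S ≃ₗ[ZMod p] (Fin m ⊕ Fin m → ZMod p) := s'.equivFun
  refine ⟨m, e, ?_⟩
  let B₂ : S →ₗ[ZMod p] S →ₗ[ZMod p] ZMod p := LinearMap.mk₂ (ZMod p)
    (fun x y => sympForm m (ZMod p) (e x) (e y))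
    (fun x x' y => by rw [map_add, sympForm_add_left])
    (fun c x y => by rw [map_smul, sympForm_smul_left, smul_eq_mul])
    (fun x y y' => by rw [map_add, sympForm_add_right])
    (fun c x y => by rw [map_smul, sympForm_smul_right, smul_eq_mul])
  have h1 : B₂ = ω := by
    refine s'.ext fun b => s'.ext fun c => ?_
    have hb : e (s' b) = Pi.single b 1 := by
      funext i
      show s'.equivFun (s' b) i = _
      rw [Basis.equivFun_self, Pi.single_apply, eq_comm]
      congr 1
      exact propext eq_comm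
    have hc : e (s' c) = Pi.single c 1 := by
      funext i
      show s'.equivFun (s' c) i = _
      rw [Basis.equivFun_self, Pi.single_apply, eq_comm]
      congr 1
      exact propext eq_comm
    show sympForm m (ZMod p) (e (s' b)) (e (s' c)) = _
    rw [hb, hc, hs'eq, hs'eq, sympForm_apply]
    rcases b with j | j <;> rcases c with j' | j'
    · simp [φ, hs, Pi.single_apply, Cfsg.Agent.Lib.SympBasis.J_11]
    · simp only [φ, Equiv.coe_fn_mk, Sum.elim_inl, Sum.elim_inr]
      rw [hs, Cfsg.Agent.Lib.SympBasis.J_10]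
      simp only [Pi.single_apply, Sum.inr.injEq, Sum.inl.injEq, reduceCtorEq, if_false, zero_mul,
        zero_sub, mul_ite, mul_one, mul_zero]
      rw [Finset.sum_neg_distrib, Finset.sum_ite_eq' Finset.univ j']
      by_cases h : j = j'
      · subst h
        simp
      · have h' : ¬ j' = j := fun h2 => h h2.symm
        simp [h, h']
    · simp only [φ, Equiv.coe_fn_mk, Sum.elim_inl, Sum.elim_inr]
      rw [hs, Cfsg.Agent.Lib.SympBasis.J_01]
      simp only [Pi.single_apply, Sum.inr.injEq, Sum.inl.injEq, reduceCtorEq, if_false, zero_mul,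
        sub_zero, mul_ite, mul_one, mul_zero]
      rw [Finset.sum_ite_eq' Finset.univ j']
      by_cases h : j = j'
      · subst h
        simp
      · have h' : ¬ j' = j := fun h2 => h h2.symm
        simp [h, h']
    · simp [φ, hs, Pi.single_apply, Cfsg.Agent.Lib.SympBasis.J_00]
  intro x y
  have h3 := congrArg (fun B : S →ₗ[ZMod p] S →ₗ[ZMod p] ZMod p => B x y) h1
  exact h3

/-- **The data of the Weil representation.** -/
theorem exists_weil_data {A : Type u} [Group A] [Finite S] (act : A →* Module.End (ZMod p) S)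
    (ω : S →ₗ[ZMod p] S →ₗ[ZMod p] ZMod p) (halt : ∀ x, ω x x = 0)
    (hnd : ∀ x, (∀ y, ω x y = 0) → x = 0) (hinv : ∀ a x y, ω (act a x) (act a y) = ω x y)
    (h2 : (2 : ZMod p) ≠ 0) :
    ∃ (H : Type) (_ : AddCommGroup H) (_ : Module ℂ H) (_ : FiniteDimensional ℂ H) (D : HD ω H)
      (ρ : A →* Module.End ℂ H), ∀ a x, ρ a * D.pi x = D.pi (act a x) * ρ a := by
  classical
  obtain ⟨m, e, he⟩ := exists_coord ω halt hnd
  let ψ : AddChar (ZMod p) ℂ := psi p
  have hψ : ψ ≠ 1 := by
    intro h
    have h3 := psi_ne_one (p := p) (one_ne_zero (α := ZMod p))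
    apply h3
    show ψ 1 = 1
    rw [h]
    rfl
  obtain ⟨W, hW⟩ := exists_weil (n := m) ψ h2 hψ
  -- the action in coordinates
  let L : A → ((Fin m ⊕ Fin m → ZMod p) →ₗ[ZMod p] (Fin m ⊕ Fin m → ZMod p)) := fun a =>
    e.toLinearMap ∘ₗ (act a) ∘ₗ e.symm.toLinearMap
  have hL : ∀ a u, L a u = e (act a (e.symm u)) := fun a u => rfl
  have hmem : ∀ a, LinearMap.toMatrix' (L a) ∈ symplecticGroup (Fin m) (ZMod p) := by
    intro a
    rw [mem_symplecticGroup_iff_preserves]
    intro x y
    rw [LinearMap.toMatrix'_mulVec, LinearMap.toMatrix'_mulVec, hL, hL, he, hinv]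
    rw [← he, LinearEquiv.apply_symm_apply, LinearEquiv.apply_symm_apply]
  let g : A →* SpG m (ZMod p) :=
    { toFun := fun a => ⟨LinearMap.toMatrix' (L a), hmem a⟩
      map_one' := by
        apply Subtype.ext
        show LinearMap.toMatrix' (L 1) = 1
        have : L 1 = LinearMap.id := LinearMap.ext fun u => by
          simp [hL]
        rw [this, LinearMap.toMatrix'_id]
      map_mul' := fun a b => by
        apply Subtype.ext
        show LinearMap.toMatrix' (L (a * b)) = LinearMap.toMatrix' (L a) * LinearMap.toMatrix' (L b)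
        rw [← LinearMap.toMatrix'_comp]
        congr 1
        refine LinearMap.ext fun u => ?_
        simp [hL, map_mul, Module.End.mul_apply] }
  have hg : ∀ a u, WeilRep.act (g a) u = L a u := by
    intro a u
    show (LinearMap.toMatrix' (L a)) *ᵥ u = _
    rw [LinearMap.toMatrix'_mulVec]
  let D : HD ω (HH m (ZMod p)) :=
    { pi := fun x => piOp ψ (e x)
      pi_zero := by
        rw [map_zero]
        exact piOp_zero ψ
      pi_mul := fun x y => by
        rw [piOp_mul ψ h2, he, map_add]
      comm := fun X hX => by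
        refine commutant_scalar ψ hψ X fun u => ?_
        have := hX (e.symm u)
        rwa [LinearEquiv.apply_symm_apply] at this
      dim := by
        have h3 : finrank ℂ (HH m (ZMod p)) = p ^ m := by
          have h4 : finrank ℂ (HH m (ZMod p)) = Fintype.card (Fin m → ZMod p) :=
            Module.finrank_fintype_fun_eq_card ℂ
          rw [h4, Fintype.card_fun, ZMod.card, Fintype.card_fin]
        have h5 : Nat.card S = p ^ (m + m) := by
          rw [Nat.card_congr e.toEquiv, Nat.card_eq_fintype_card, Fintype.card_fun, ZMod.card,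
            Fintype.card_sum, Fintype.card_fin]
        rw [h3, h5, pow_add, sq] }
  refine ⟨HH m (ZMod p), inferInstance, inferInstance, inferInstance, D,
    (Units.coeHom _).comp (W.comp g), ?_⟩
  intro a x
  show ((W (g a) : (Module.End ℂ (HH m (ZMod p)))ˣ) : Module.End ℂ (HH m (ZMod p))) * piOp ψ (e x) =
    piOp ψ (e (act a x)) * ((W (g a) : (Module.End ℂ (HH m (ZMod p)))ˣ) : Module.End ℂ (HH m (ZMod p)))
  rw [hW, hg, hL, LinearEquiv.symm_apply_apply]

end Cfsg.Agent.Lib.KRVWeilB
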