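import Mathlib
import Cfsg.Agent.Lib.KRVWeilB

/-!
# The Weil representation gives a good function
-/

set_option autoImplicit false

namespace Cfsg.Agent.Lib.KRVWeilC

open Cfsg Cfsg.Agent.Lib.KRVTw Cfsg.Agent.Lib.KRVMain Cfsg.Agent.Lib.KRVGauss
open Cfsg.Agent.Lib.KRVWeilA Cfsg.Agent.Lib.KRVWeilB
open Cfsg.Agent.Lib.CharBasic
open scoped ComplexConjugate
open Module

universe u v

variable {S : Type v} [AddCommGroup S] {p : ℕ} [hpp : Fact p.Prime] [Module (ZMod p) S]

/-- A Lagrangian subspace of a nondegenerate subspace. -/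
theorem exists_lagrangian [Finite S] (ω : S →ₗ[ZMod p] S →ₗ[ZMod p] ZMod p) (halt : ∀ x, ω x x = 0)
    (C : Submodule (ZMod p) S) (hndC : ∀ u ∈ C, (∀ x ∈ C, ω x u = 0) → u = 0) :
    ∃ L : Submodule (ZMod p) S, L ≤ C ∧ (∀ u ∈ L, ∀ w ∈ L, ω u w = 0) ∧
      Nat.card L ^ 2 = Nat.card C := by
  classical
  haveI : Module.Finite (ZMod p) C := Module.Finite.of_finite
  let B : C →ₗ[ZMod p] C →ₗ[ZMod p] ZMod p := ω.domRestrict₁₂ C C
  have hB : ∀ v w : C, B v w = ω v w := fun v w => rfl
  have halt' : ∀ v, B v v = 0 := fun v => by rw [hB]; exact halt _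
  have hnd' : ∀ v, (∀ w, B v w = 0) → v = 0 := by
    intro v hv
    apply Subtype.ext
    refine hndC v v.2 fun x hx => ?_
    have h1 := hv ⟨x, hx⟩
    rw [hB] at h1
    rw [anti halt]
    simp only at h1
    rw [h1, neg_zero]
  obtain ⟨m, s, hs⟩ := Cfsg.Agent.Lib.SympBasis.exists_symp_basis B halt' hnd'
  let b : Fin m → C := fun j => s (0, j)
  have hli : LinearIndependent (ZMod p) b :=
    s.linearIndependent.comp (fun j => ((0 : Fin 2), j)) (fun j j' h => (Prod.ext_iff.1 h).2)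
  let L' : Submodule (ZMod p) C := Submodule.span (ZMod p) (Set.range b)
  have hL' : finrank (ZMod p) L' = m := by
    have := finrank_span_eq_card hli
    simpa using this
  have hisoL : ∀ x ∈ L', ∀ y ∈ L', B x y = 0 := by
    intro x hx y hy
    induction hy using Submodule.span_induction with
    | mem y hy =>
      obtain ⟨j', rfl⟩ := hy
      induction hx using Submodule.span_induction with
      | mem x hx =>
        obtain ⟨j, rfl⟩ := hx
        simp only [b]
        rw [hs]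
        simp [Cfsg.Agent.Lib.SympBasis.J_00]
      | zero => simp
      | add x x' _ _ h1 h2 => rw [map_add, LinearMap.add_apply, h1, h2, add_zero]
      | smul c x _ h1 => rw [map_smul, LinearMap.smul_apply, h1, smul_zero]
    | zero => simp
    | add y y' _ _ h1 h2 => rw [map_add, h1, h2, add_zero]
    | smul c y _ h1 => rw [map_smul, h1, smul_zero]
  refine ⟨L'.map C.subtype, ?_, ?_, ?_⟩
  · rintro _ ⟨x, -, rfl⟩
    exact x.2
  · rintro _ ⟨x, hx, rfl⟩ _ ⟨y, hy, rfl⟩
    exact hisoL x hx y hy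
  · have h1 : Nat.card (L'.map C.subtype) = Nat.card L' :=
      (Nat.card_congr (Submodule.equivMapOfInjective _ C.injective_subtype L').toEquiv).symm
    haveI : Module.Finite (ZMod p) L' := Module.Finite.of_finite
    rw [h1, Module.natCard_eq_pow_finrank (K := ZMod p), Nat.card_zmod, hL',
      Module.natCard_eq_pow_finrank (K := ZMod p) (V := C), Nat.card_zmod,
      Module.finrank_eq_card_basis s]
    simp only [Fintype.card_prod, Fintype.card_fin]
    rw [← pow_mul, mul_comm]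

/-- **The Weil good function.** -/
theorem good_weil {A : Type u} [Group A] [Finite A] [Finite S] (act : A →* Module.End (ZMod p) S)
    (hco : Nat.Coprime (Nat.card A) p) {M : Ideal AlgInt} (hM : IsPModular p M)
    (ω : S →ₗ[ZMod p] S →ₗ[ZMod p] ZMod p) (halt : ∀ x, ω x x = 0)
    (hnd : ∀ x, (∀ y, ω x y = 0) → x = 0) (hinv : ∀ a x y, ω (act a x) (act a y) = ω x y)
    (h2 : (2 : ZMod p) ≠ 0) : ∃ f : A → ℂ, Good M act f := by
  classical
  letI := Fintype.ofFinite S
  obtain ⟨H, _, _, _, D, ρ, hρ⟩ := exists_weil_data act ω halt hnd hinv h2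
  set N := finrank ℂ H with hN
  have hNS : N ^ 2 = Nat.card S := D.dim
  have hN0 : 0 < N := by
    rcases Nat.eq_zero_or_pos N with h | h
    · rw [h, zero_pow two_ne_zero] at hNS
      exact absurd hNS.symm Nat.card_pos.ne'
    · exact h
  let ϖ : A → ℂ := fun a => LinearMap.trace ℂ H (ρ a)
  have hρinv : ∀ a, ρ a * ρ a⁻¹ = 1 := fun a => by rw [← map_mul, mul_inv_cancel, map_one]
  have hconj : ∀ a, conj (ϖ a) = ϖ a⁻¹ := by
    intro a
    exact char_conj_eq_inv (isCharacter_of_rep' ρ) a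
  have hP : ∀ a, ϖ a * conj (ϖ a) = PP act a := by
    intro a
    rw [hconj]
    have h3 := trace_mul_trace D halt h2 hnd (ρ a) (ρ a⁻¹) (hρinv a) (act a)
      (fun x => map_neg _ _) (hρ a)
    show LinearMap.trace ℂ H (ρ a) * LinearMap.trace ℂ H (ρ a⁻¹) = _
    rw [h3, PP, Nat.card_eq_fintype_card]
  have hPP0 : ∀ a, (PP act a : ℂ) ≠ 0 := fun a => by exact_mod_cast (PP_pos act a).ne'
  have hTw : IsTw p A ϖ := by
    let b := Module.finBasis ℂ H
    refine IsTw.of_fintype ((LinearMap.toMatrixAlgEquiv b).toMonoidHom.comp ρ) 1 (one_pow _)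
      (by simp) ?_
    intro a
    rw [mul_one]
    show LinearMap.trace ℂ H (ρ a) = _
    rw [LinearMap.trace_eq_matrix_trace ℂ b]
    rfl
  -- the divisibility
  have hdiv : ∀ a, ∃ (ℓ q : ℕ) (r : ℂ), IsIntegral ℤ r ∧ ϖ a = ℓ * r ∧ ℓ ^ 2 = PP act a ∧ N = ℓ * q := by
    intro a
    have hcompl := isCompl_fix_com act hco a
    have horth : ∀ x ∈ fixS act a, ∀ y ∈ comS act a, ω x y = 0 := by
      intro x hx y hy
      obtain ⟨w, rfl⟩ := LinearMap.mem_range.1 hy
      have h1 := hinv a x w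
      rw [mem_fixS.1 hx] at h1
      show ω x ((act a - 1) w) = 0
      simp only [LinearMap.sub_apply, Module.End.one_apply, map_sub, h1, sub_self]
    have hndC : ∀ u ∈ fixS act a, (∀ x ∈ fixS act a, ω x u = 0) → u = 0 := by
      intro u hu h
      apply hnd
      intro s
      have h1 : s ∈ fixS act a ⊔ comS act a := by
        rw [hcompl.sup_eq_top]
        trivial
      obtain ⟨c, hc, d, hd, rfl⟩ := Submodule.mem_sup.1 h1
      rw [map_add, horth u hu d hd, add_zero, anti halt, h c hc, neg_zero]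
    obtain ⟨L, hLC, hiso, hcard⟩ := exists_lagrangian ω halt (fixS act a) hndC
    letI : Fintype ↥(fixS act a) := Fintype.ofFinite _
    letI : Fintype ↥L := Fintype.ofFinite _
    have hT : ∀ x ∈ fixS act a, ρ a * D.pi x = D.pi x * ρ a := by
      intro x hx
      rw [hρ, mem_fixS.1 hx]
    have hTd : ρ a ^ Nat.card A = 1 := by
      rw [← map_pow, pow_card_eq_one', map_one]
    obtain ⟨r, hr, hr2⟩ := trace_div D halt h2 hnd (fixS act a) L hLC hndC hiso hcard (ρ a) hT
      (Nat.card_pos (α := A)) hTd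
    have hdvd : Nat.card L ∣ N := by
      have h3 : Nat.card L ^ 2 ∣ N ^ 2 := by
        rw [hcard, hNS, ← PP_eq]
        exact PP_dvd act a
      exact (Nat.pow_dvd_pow_iff two_ne_zero).1 h3
    obtain ⟨q, hq⟩ := hdvd
    exact ⟨Nat.card L, q, r, hr, hr2, hcard, hq⟩
  choose ℓ q r hr hr2 hℓ hNq using hdiv
  have hℓ0 : ∀ a, (ℓ a : ℂ) ≠ 0 := by
    intro a h
    apply hPP0 a
    rw [← hℓ a]
    push_cast
    rw [h]
    simp
  let f : A → ℂ := fun a => N * ϖ a / PP act a
  have hfq : ∀ a, f a = q a * r a := by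
    intro a
    show (N : ℂ) * ϖ a / PP act a = _
    have h3 : (N : ℂ) = ℓ a * q a := by exact_mod_cast hNq a
    have h4 : (PP act a : ℂ) = ℓ a ^ 2 := by exact_mod_cast (hℓ a).symm
    rw [hr2, h3, h4]
    have := hℓ0 a
    field_simp
  refine ⟨f, ?_, ?_, ?_, ?_, ?_⟩
  · refine ⟨N, ϖ, isInt_nat _, Cfsg.Agent.Lib.GalAmgm.natCast_mem_cycF _ _, hTw, ?_⟩
    intro a
    show (N : ℂ) * ϖ a / PP act a * PP act a = _
    rw [div_mul_cancel₀ _ (hPP0 a)]
  · intro a
    rw [hfq]
    exact (isInt_nat _).mul (hr a)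
  · intro a
    show (N : ℂ) * ϖ a / PP act a * conj ((N : ℂ) * ϖ a / PP act a) * PP act a = Nat.card S
    have h3 : ((Nat.card S : ℕ) : ℂ) = (N : ℂ) ^ 2 := by exact_mod_cast hNS.symm
    rw [h3]
    simp only [map_div₀, map_mul, Complex.conj_natCast]
    have h4 := hP a
    have h5 := hPP0 a
    have h6 : (N : ℂ) * ϖ a / PP act a * ((N : ℂ) * conj (ϖ a) / PP act a) * PP act a =
        (N : ℂ) ^ 2 * (ϖ a * conj (ϖ a)) / PP act a := by
      field_simp
    rw [h6, h4]
    field_simp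
  · show (N : ℂ) * ϖ 1 / PP act 1 = 1
    have h3 : ϖ 1 = N := by
      show LinearMap.trace ℂ H (ρ 1) = _
      rw [map_one, LinearMap.trace_one]
    have h4 : PP act (1 : A) = Nat.card S := by
      unfold PP
      simp
    rw [h3, h4]
    have h5 : ((Nat.card S : ℕ) : ℂ) = (N : ℂ) ^ 2 := by exact_mod_cast hNS.symm
    rw [h5]
    have h6 : (N : ℂ) ≠ 0 := by exact_mod_cast hN0.ne'
    field_simp
  · rintro a ⟨s, hs⟩
    rw [hfq]
    refine InM.mul_right (InM.of_dvd hM ?_) (hr a)
    have hlt : PP act a < Nat.card S := by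
      unfold PP
      rw [Nat.card_eq_fintype_card, Nat.card_eq_fintype_card]
      exact Fintype.card_subtype_lt hs
    have hqne : q a ≠ 1 := by
      intro h1
      have h3 := hNq a
      rw [h1, mul_one] at h3
      rw [← hℓ a, ← h3, hNS] at hlt
      exact lt_irrefl _ hlt
    obtain ⟨d, hd⟩ := card_pow (p := p) S
    have hqdvd : q a ∣ p ^ d := by
      rw [← hd, ← hNS]
      exact Dvd.dvd.trans (Dvd.intro_left _ (hNq a).symm) (dvd_pow_self N two_ne_zero)
    obtain ⟨i, -, hi⟩ := (Nat.dvd_prime_pow hpp.out).1 hqdvd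
    rw [hi]
    refine dvd_pow_self p ?_
    rintro rfl
    exact hqne (by simpa using hi)

end Cfsg.Agent.Lib.KRVWeilC
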