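import Mathlib
import Cfsg.Agent.Lib.KRVWeilC
import Cfsg.Agent.Lib.HeisReal

/-!
# Existence of a good function for a module with an invariant nondegenerate bilinear form
-/

set_option autoImplicit false

namespace Cfsg.Agent.Lib.KRVInd

open Cfsg Cfsg.Agent.Lib.KRVTw Cfsg.Agent.Lib.KRVMain Cfsg.Agent.Lib.KRVGauss
open Cfsg.Agent.Lib.KRVWeilC
open scoped ComplexConjugate
open Module

universe u v

section Forms

variable {p : ℕ} [hpp : Fact p.Prime] {V : Type*} [AddCommGroup V] [Module (ZMod p) V]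

/-- Left nondegenerate implies right nondegenerate. -/
theorem right_nondeg [Finite V] (B : V →ₗ[ZMod p] V →ₗ[ZMod p] ZMod p)
    (h : ∀ x, (∀ y, B x y = 0) → x = 0) : ∀ y, (∀ x, B x y = 0) → y = 0 := by
  haveI : Module.Finite (ZMod p) V := Module.Finite.of_finite
  have hinj : Function.Injective B := by
    rw [injective_iff_map_eq_zero]
    intro x hx
    exact h x fun y => by rw [hx]; rfl
  have hsurj : Function.Surjective B :=
    (LinearMap.injective_iff_surjective_of_finrank_eq_finrank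
      (Subspace.dual_finrank_eq (K := ZMod p) (V := V)).symm).1 hinj
  intro y hy
  rw [← Module.forall_dual_apply_eq_zero_iff (ZMod p) y]
  intro φ
  obtain ⟨x, rfl⟩ := hsurj φ
  exact hy x

theorem left_nondeg [Finite V] (B : V →ₗ[ZMod p] V →ₗ[ZMod p] ZMod p)
    (h : ∀ y, (∀ x, B x y = 0) → y = 0) : ∀ x, (∀ y, B x y = 0) → x = 0 :=
  right_nondeg B.flip (fun y hy => h y hy)

/-- Functionals are represented on the right. -/
theorem exists_rep_right [Finite V] (B : V →ₗ[ZMod p] V →ₗ[ZMod p] ZMod p)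
    (h : ∀ y, (∀ x, B x y = 0) → y = 0) (φ : Module.Dual (ZMod p) V) : ∃ m, ∀ x, B x m = φ x := by
  haveI : Module.Finite (ZMod p) V := Module.Finite.of_finite
  have hinj : Function.Injective B.flip := by
    rw [injective_iff_map_eq_zero]
    intro x hx
    exact h x fun y => by
      have := congrArg (fun f => f y) hx
      simpa using this
  have hsurj : Function.Surjective B.flip :=
    (LinearMap.injective_iff_surjective_of_finrank_eq_finrank
      (Subspace.dual_finrank_eq (K := ZMod p) (V := V)).symm).1 hinj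
  obtain ⟨m, hm⟩ := hsurj φ
  exact ⟨m, fun x => by rw [← hm]; rfl⟩

/-- The right orthogonal complement. -/
def perpR (β : V →ₗ[ZMod p] V →ₗ[ZMod p] ZMod p) (W : Submodule (ZMod p) V) :
    Submodule (ZMod p) V where
  carrier := {y | ∀ s ∈ W, β s y = 0}
  add_mem' := by
    intro a b ha hb s hs
    rw [map_add, ha s hs, hb s hs, add_zero]
  zero_mem' := by
    intro s _
    simp
  smul_mem' := by
    intro c a ha s hs
    rw [map_smul, ha s hs, smul_zero]

theorem mem_perpR {β : V →ₗ[ZMod p] V →ₗ[ZMod p] ZMod p} {W : Submodule (ZMod p) V} {y : V} :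
    y ∈ perpR β W ↔ ∀ s ∈ W, β s y = 0 := Iff.rfl

/-- Splitting off a nondegenerate subspace. -/
theorem isCompl_perpR [Finite V] (β : V →ₗ[ZMod p] V →ₗ[ZMod p] ZMod p)
    (W : Submodule (ZMod p) V) (hW : ∀ x ∈ W, (∀ y ∈ W, β x y = 0) → x = 0) :
    IsCompl W (perpR β W) := by
  let B : W →ₗ[ZMod p] W →ₗ[ZMod p] ZMod p := β.domRestrict₁₂ W W
  have hBl : ∀ x, (∀ y, B x y = 0) → x = 0 := by
    intro x hx
    apply Subtype.ext
    exact hW x x.2 fun y hy => hx ⟨y, hy⟩
  have hBr := right_nondeg B hBl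
  constructor
  · rw [Submodule.disjoint_def]
    intro x hx hx2
    have := hBr ⟨x, hx⟩ (fun s => hx2 s s.2)
    exact congrArg Subtype.val this
  · rw [codisjoint_iff, eq_top_iff]
    intro y _
    let φ : Module.Dual (ZMod p) W := β.flip y ∘ₗ W.subtype
    obtain ⟨m, hm⟩ := exists_rep_right B hBr φ
    have h1 : y - m ∈ perpR β W := by
      intro s hs
      have h2 := hm ⟨s, hs⟩
      rw [map_sub, sub_eq_zero]
      exact h2.symm
    have h3 : y = (m : V) + (y - m) := by abel
    rw [h3]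
    exact Submodule.add_mem_sup m.2 h1

theorem nondeg_perpR [Finite V] (β : V →ₗ[ZMod p] V →ₗ[ZMod p] ZMod p)
    (hnd : ∀ x, (∀ y, β x y = 0) → x = 0)
    (W : Submodule (ZMod p) V) (hW : ∀ x ∈ W, (∀ y ∈ W, β x y = 0) → x = 0) :
    ∀ x ∈ perpR β W, (∀ y ∈ perpR β W, β x y = 0) → x = 0 := by
  have hc := isCompl_perpR β W hW
  have hr := right_nondeg β hnd
  let B : perpR β W →ₗ[ZMod p] perpR β W →ₗ[ZMod p] ZMod p := β.domRestrict₁₂ _ _
  have hBr : ∀ y, (∀ x, B x y = 0) → y = 0 := by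
    intro z hz
    apply Subtype.ext
    apply hr
    intro s
    have h1 : s ∈ W ⊔ perpR β W := by
      rw [hc.sup_eq_top]
      trivial
    obtain ⟨m, hm, w, hw, rfl⟩ := Submodule.mem_sup.1 h1
    rw [map_add, LinearMap.add_apply, z.2 m hm]
    have := hz ⟨w, hw⟩
    rw [zero_add]
    exact this
  have hBl := left_nondeg B hBr
  intro x hx h
  have := hBl ⟨x, hx⟩ (fun y => h y y.2)
  exact congrArg Subtype.val this

end Forms

section Act

variable {A : Type u} [Group A] {S : Type v} [AddCommGroup S] {p : ℕ} [hpp : Fact p.Prime]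
  [Module (ZMod p) S]

/-- The restriction of the action to an invariant submodule. -/
def resAct (act : A →* Module.End (ZMod p) S) (W : Submodule (ZMod p) S)
    (hW : ∀ a, ∀ x ∈ W, act a x ∈ W) : A →* Module.End (ZMod p) W where
  toFun a := (act a).restrict (hW a)
  map_one' := by
    apply LinearMap.ext
    intro x
    apply Subtype.ext
    simp
  map_mul' a b := by
    apply LinearMap.ext
    intro x
    apply Subtype.ext
    simp

theorem resAct_coe (act : A →* Module.End (ZMod p) S) (W : Submodule (ZMod p) S)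
    (hW : ∀ a, ∀ x ∈ W, act a x ∈ W) (a : A) (x : W) :
    ((resAct act W hW a x : W) : S) = act a x := rfl

/-- Trivial action. -/
theorem good_trivial {M : Ideal AlgInt} [Finite S] (act : A →* Module.End (ZMod p) S)
    (h : ∀ a x, act a x = x) : Good M act (fun _ => 1) := by
  have hP : ∀ a, PP act a = Nat.card S := by
    intro a
    unfold PP
    exact Nat.card_congr (Equiv.subtypeUnivEquiv (h a))
  refine ⟨⟨Nat.card S, fun _ => 1, isInt_nat _, Cfsg.Agent.Lib.GalAmgm.natCast_mem_cycF _ _, IsTw.one p, ?_⟩,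
    fun _ => isIntegral_one, ?_, rfl, ?_⟩
  · intro a
    rw [hP]
    ring
  · intro a
    rw [hP]
    simp
  · rintro a ⟨s, hs⟩
    exact absurd (h a s) hs

/-- **Products.** -/
theorem good_prod {M : Ideal AlgInt} [Finite S] (hM : IsPModular p M)
    (act : A →* Module.End (ZMod p) S) (W₁ W₂ : Submodule (ZMod p) S)
    (h₁ : ∀ a, ∀ x ∈ W₁, act a x ∈ W₁) (h₂ : ∀ a, ∀ x ∈ W₂, act a x ∈ W₂) (hc : IsCompl W₁ W₂)
    {f₁ f₂ : A → ℂ} (g₁ : Good M (resAct act W₁ h₁) f₁) (g₂ : Good M (resAct act W₂ h₂) f₂) :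
    Good M act (fun a => f₁ a * f₂ a) := by
  classical
  have hdec : ∀ (a : A) (x : W₁) (y : W₂), act a ((x : S) + y) = (x : S) + y →
      act a x = x ∧ act a y = y := by
    intro a x y h
    rw [map_add] at h
    have h3 : act a x - x = (y : S) - act a y := by
      rw [sub_eq_sub_iff_add_eq_add, h, add_comm]
    have h4 : act a x - x ∈ W₁ := W₁.sub_mem (h₁ a x x.2) x.2
    have h5 : act a x - x ∈ W₂ := by
      rw [h3]
      exact W₂.sub_mem y.2 (h₂ a y y.2)
    have h6 := Submodule.disjoint_def.1 hc.disjoint _ h4 h5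
    have h7 : act a x = x := sub_eq_zero.1 h6
    refine ⟨h7, ?_⟩
    rw [h7] at h
    exact add_left_cancel h
  have hP : ∀ a, PP act a = PP (resAct act W₁ h₁) a * PP (resAct act W₂ h₂) a := by
    intro a
    unfold PP
    rw [← Nat.card_prod]
    symm
    refine Nat.card_eq_of_bijective
      (fun u => ⟨(u.1.1 : S) + u.2.1, by
        have e1 : act a (u.1.1 : S) = u.1.1 := congrArg Subtype.val u.1.2
        have e2 : act a (u.2.1 : S) = u.2.1 := congrArg Subtype.val u.2.2
        rw [map_add, e1, e2]⟩) ⟨?_, ?_⟩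
    · rintro ⟨⟨x, hx⟩, ⟨y, hy⟩⟩ ⟨⟨x', hx'⟩, ⟨y', hy'⟩⟩ h
      have h1 : (x : S) + y = x' + y' := congrArg Subtype.val h
      have h2 : (x : S) - x' = (y' : S) - y := by
        rw [sub_eq_sub_iff_add_eq_add, h1, add_comm]
      have h3 : (x : S) - x' ∈ W₁ := W₁.sub_mem x.2 x'.2
      have h4 : (x : S) - x' ∈ W₂ := by
        rw [h2]
        exact W₂.sub_mem y'.2 y.2
      have h5 := Submodule.disjoint_def.1 hc.disjoint _ h3 h4
      have h6 : x = x' := Subtype.ext (sub_eq_zero.1 h5)
      subst h6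
      have h7 : y = y' := Subtype.ext (add_left_cancel h1)
      subst h7
      rfl
    · rintro ⟨s, hs⟩
      have h1 : s ∈ W₁ ⊔ W₂ := by
        rw [hc.sup_eq_top]
        trivial
      obtain ⟨x, hx, y, hy, rfl⟩ := Submodule.mem_sup.1 h1
      obtain ⟨e1, e2⟩ := hdec a ⟨x, hx⟩ ⟨y, hy⟩ hs
      exact ⟨(⟨⟨x, hx⟩, Subtype.ext e1⟩, ⟨⟨y, hy⟩, Subtype.ext e2⟩), rfl⟩
  have hcard : Nat.card S = Nat.card W₁ * Nat.card W₂ := by
    rw [← Nat.card_prod]
    exact (Nat.card_congr (Submodule.prodEquivOfIsCompl _ _ hc).toEquiv).symm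
  obtain ⟨c₁, F₁, a1, a2, a3, a4⟩ := g₁.tw
  obtain ⟨c₂, F₂, b1, b2, b3, b4⟩ := g₂.tw
  refine ⟨⟨c₁ * c₂, fun a => F₁ a * F₂ a, a1.mul b1, mul_mem a2 b2, a3.mul b3, ?_⟩,
    fun a => (g₁.int a).mul (g₂.int a), ?_, ?_, ?_⟩
  · intro a
    rw [hP]
    push_cast
    linear_combination (f₂ a * (PP (resAct act W₂ h₂) a : ℂ)) * a4 a + (c₁ * F₁ a) * b4 a
  · intro a
    rw [hP, hcard]
    push_cast
    have h1 := g₁.nrm a
    have h2 := g₂.nrm a
    rw [map_mul]
    linear_combination (f₂ a * conj (f₂ a) * (PP (resAct act W₂ h₂) a : ℂ)) * h1 + (Nat.card W₁ : ℂ) * h2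
  · show f₁ 1 * f₂ 1 = 1
    rw [g₁.one, g₂.one, one_mul]
  · rintro a ⟨s, hs⟩
    have h1 : s ∈ W₁ ⊔ W₂ := by
      rw [hc.sup_eq_top]
      trivial
    obtain ⟨x, hx, y, hy, rfl⟩ := Submodule.mem_sup.1 h1
    by_cases h2 : act a x = x
    · have h3 : act a y ≠ y := by
        intro h3
        apply hs
        rw [map_add, h2, h3]
      have h4 := g₂.mem a ⟨⟨y, hy⟩, fun h => h3 (congrArg Subtype.val h)⟩
      exact h4.mul_left (g₁.int a)
    · have h4 := g₁.mem a ⟨⟨x, hx⟩, fun h => h2 (congrArg Subtype.val h)⟩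
      exact h4.mul_right (g₂.int a)

/-- Invariant complements. -/
theorem exists_inv_compl [Finite A] (act : A →* Module.End (ZMod p) S)
    (hco : Nat.Coprime (Nat.card A) p) (W : Submodule (ZMod p) S)
    (hW : ∀ a, ∀ x ∈ W, act a x ∈ W) :
    ∃ W' : Submodule (ZMod p) S, (∀ a, ∀ x ∈ W', act a x ∈ W') ∧ IsCompl W W' := by
  classical
  letI := Fintype.ofFinite A
  obtain ⟨q, hq⟩ := Submodule.exists_isCompl W
  let π₀ : S →ₗ[ZMod p] S := W.subtype ∘ₗ Submodule.projectionOnto W q hq
  have hπ₀ : ∀ x, π₀ x ∈ W := fun x => Subtype.coe_prop _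
  have hπ₁ : ∀ x ∈ W, π₀ x = x := by
    intro x hx
    exact congrArg Subtype.val (Submodule.projectionOnto_apply_left hq ⟨x, hx⟩)
  have hd0 : (Nat.card A : ZMod p) ≠ 0 := by
    intro h
    rw [ZMod.natCast_eq_zero_iff] at h
    have h2 := Nat.Coprime.eq_one_of_dvd hco.symm h
    exact hpp.out.one_lt.ne' h2
  let P : S →ₗ[ZMod p] S := (Nat.card A : ZMod p)⁻¹ • ∑ a : A, (act a) ∘ₗ π₀ ∘ₗ (act a⁻¹)
  have hPapp : ∀ x, P x = (Nat.card A : ZMod p)⁻¹ • ∑ a : A, act a (π₀ (act a⁻¹ x)) := by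
    intro x
    simp [P, LinearMap.sum_apply]
  have hPW : ∀ x, P x ∈ W := by
    intro x
    rw [hPapp]
    exact W.smul_mem _ (sum_mem fun a _ => hW a _ (hπ₀ _))
  have hPid : ∀ x ∈ W, P x = x := by
    intro x hx
    rw [hPapp]
    have h1 : ∀ a : A, act a (π₀ (act a⁻¹ x)) = x := by
      intro a
      rw [hπ₁ _ (hW _ _ hx), act_act_inv]
    simp only [h1, Finset.sum_const, Finset.card_univ]
    rw [← Nat.card_eq_fintype_card, ← Nat.cast_smul_eq_nsmul (ZMod p), smul_smul,
      inv_mul_cancel₀ hd0, one_smul]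
  have hPcomm : ∀ b x, P (act b x) = act b (P x) := by
    intro b x
    rw [hPapp, hPapp, map_smul, map_sum]
    congr 1
    refine Fintype.sum_equiv (Equiv.mulLeft b⁻¹) _ _ fun a => ?_
    show act a (π₀ (act a⁻¹ (act b x))) = act b (act (b⁻¹ * a) (π₀ (act (b⁻¹ * a)⁻¹ x)))
    rw [← Module.End.mul_apply (act b), ← map_mul, mul_inv_cancel_left, mul_inv_rev, inv_inv,
      map_mul, Module.End.mul_apply]
  refine ⟨LinearMap.ker P, ?_, ?_, ?_⟩
  · intro a x hx
    rw [LinearMap.mem_ker] at hx ⊢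
    rw [hPcomm, hx, map_zero]
  · rw [Submodule.disjoint_def]
    intro x hx hx2
    rw [← hPid x hx]
    exact hx2
  · rw [codisjoint_iff, eq_top_iff]
    intro x _
    have h1 : x - P x ∈ LinearMap.ker P := by
      rw [LinearMap.mem_ker, map_sub, hPid _ (hPW x), sub_self]
    have h2 : x = P x + (x - P x) := by abel
    rw [h2]
    exact Submodule.add_mem_sup (hPW x) h1

end Act

section Ind

variable {A : Type u} [Group A] [Finite A] {S : Type v} [AddCommGroup S] {p : ℕ} [hpp : Fact p.Prime]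
  [Module (ZMod p) S] [Finite S] {M : Ideal AlgInt}

/-- Alternating forms in characteristic two. -/
theorem good_alt_two (act : A →* Module.End (ZMod p) S) (hp2 : p = 2)
    (hco : Nat.Coprime (Nat.card A) p) (hM : IsPModular p M)
    (ω : S →ₗ[ZMod p] S →ₗ[ZMod p] ZMod p) (halt : ∀ x, ω x x = 0)
    (hnd : ∀ x, (∀ y, ω x y = 0) → x = 0) (hinv : ∀ a x y, ω (act a x) (act a y) = ω x y) :
    ∃ f : A → ℂ, Good M act f := by
  subst hp2
  classical
  letI := Fintype.ofFinite A
  haveI : Module.Finite (ZMod 2) S := Module.Finite.of_finite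
  obtain ⟨f₀, hf₀⟩ := Cfsg.Agent.Lib.HeisReal.exists_quadratic ω halt
  let Q : S → ZMod 2 := fun x => ∑ a : A, f₀ (act a x)
  have hodd : ((Nat.card A : ℕ) : ZMod 2) = 1 := by
    have h1 : Odd (Nat.card A) := by
      rw [← Nat.not_even_iff_odd, even_iff_two_dvd]
      intro h
      have := Nat.Coprime.eq_one_of_dvd hco.symm h
      omega
    exact ZMod.natCast_eq_one_iff_odd.2 h1
  refine good_gauss (Q := Q) (γ := ω) act hco hM ?_ hnd ?_
  · intro x y
    show ∑ a, f₀ (act a (x + y)) = ∑ a, f₀ (act a x) + ∑ a, f₀ (act a y) + ω x y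
    have h1 : ∀ a, f₀ (act a (x + y)) = f₀ (act a x) + f₀ (act a y) + ω x y := by
      intro a
      rw [map_add, hf₀, hinv]
    simp only [h1, Finset.sum_add_distrib, Finset.sum_const, Finset.card_univ]
    rw [← Nat.card_eq_fintype_card, nsmul_eq_mul, hodd, one_mul]
  · intro b x
    show ∑ a, f₀ (act a (act b x)) = ∑ a, f₀ (act a x)
    refine Fintype.sum_equiv (Equiv.mulRight b) _ _ fun a => ?_
    rw [Equiv.coe_mulRight, map_mul, Module.End.mul_apply]

/-- Alternating forms. -/
theorem good_alt (act : A →* Module.End (ZMod p) S)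
    (hco : Nat.Coprime (Nat.card A) p) (hM : IsPModular p M)
    (ω : S →ₗ[ZMod p] S →ₗ[ZMod p] ZMod p) (halt : ∀ x, ω x x = 0)
    (hnd : ∀ x, (∀ y, ω x y = 0) → x = 0) (hinv : ∀ a x y, ω (act a x) (act a y) = ω x y) :
    ∃ f : A → ℂ, Good M act f := by
  by_cases h2 : (2 : ZMod p) = 0
  · have h3 : p = 2 := by
      have h3 : ((2 : ℕ) : ZMod p) = 0 := by exact_mod_cast h2
      rw [ZMod.natCast_eq_zero_iff] at h3
      exact (Nat.prime_dvd_prime_iff_eq hpp.out Nat.prime_two).1 h3
    exact good_alt_two act h3 hco hM ω halt hnd hinv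
  · exact good_weil act hco hM ω halt hnd hinv h2

/-- Antisymmetric forms, irreducible action. -/
theorem good_antisym (act : A →* Module.End (ZMod p) S)
    (hco : Nat.Coprime (Nat.card A) p) (hM : IsPModular p M)
    (ω : S →ₗ[ZMod p] S →ₗ[ZMod p] ZMod p) (hanti : ∀ x y, ω x y = -ω y x)
    (hnd : ∀ x, (∀ y, ω x y = 0) → x = 0) (hinv : ∀ a x y, ω (act a x) (act a y) = ω x y)
    (hmin : ∀ K : Submodule (ZMod p) S, (∀ a, ∀ x ∈ K, act a x ∈ K) → K = ⊥ ∨ K = ⊤) :
    ∃ f : A → ℂ, Good M act f := by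
  have h2x : ∀ x, 2 * ω x x = 0 := by
    intro x
    have := hanti x x
    linear_combination this
  let K : Submodule (ZMod p) S :=
    { carrier := {x | ω x x = 0}
      add_mem' := by
        intro x y hx hy
        have hx' : ω x x = 0 := hx
        have hy' : ω y y = 0 := hy
        show ω (x + y) (x + y) = 0
        simp only [map_add, LinearMap.add_apply]
        rw [hx', hy', hanti y x]
        ring
      zero_mem' := by
        show ω 0 0 = 0
        simp
      smul_mem' := by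
        intro c x hx
        have hx' : ω x x = 0 := hx
        show ω (c • x) (c • x) = 0
        simp [hx'] }
  have hK : ∀ x, x ∈ K ↔ ω x x = 0 := fun x => Iff.rfl
  rcases hmin K (by
    intro a x hx
    rw [hK] at hx ⊢
    rw [hinv, hx]) with h | h
  · have htriv : ∀ a x, act a x = x := by
      intro a x
      rw [← sub_eq_zero]
      have h1 : act a x - x ∈ K := by
        rw [hK]
        simp only [map_sub, LinearMap.sub_apply]
        rw [hinv, hanti x (act a x)]
        linear_combination h2x x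
      rw [h] at h1
      exact (Submodule.mem_bot _).1 h1
    exact ⟨_, good_trivial act htriv⟩
  · refine good_alt act hco hM ω (fun x => ?_) hnd hinv
    rw [← hK, h]
    trivial

/-- Nondegenerate forms, irreducible action. -/
theorem good_nondeg (act : A →* Module.End (ZMod p) S)
    (hco : Nat.Coprime (Nat.card A) p) (hM : IsPModular p M)
    (β : S →ₗ[ZMod p] S →ₗ[ZMod p] ZMod p)
    (hnd : ∀ x, (∀ y, β x y = 0) → x = 0) (hinv : ∀ a x y, β (act a x) (act a y) = β x y)
    (T : S →ₗ[ZMod p] S) (hT : ∀ x y, β x y = β y (T x)) (hTa : ∀ a x, T (act a x) = act a (T x))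
    (hmin : ∀ K : Submodule (ZMod p) S, (∀ a, ∀ x ∈ K, act a x ∈ K) → (∀ x ∈ K, T x ∈ K) →
      K = ⊥ ∨ K = ⊤) :
    ∃ f : A → ℂ, Good M act f := by
  have hr := right_nondeg β hnd
  rcases hmin (LinearMap.ker (T + LinearMap.id)) (by
      intro a x hx
      rw [LinearMap.mem_ker, LinearMap.add_apply, LinearMap.id_apply] at hx ⊢
      rw [hTa, ← map_add, hx, map_zero]) (by
      intro x hx
      rw [LinearMap.mem_ker, LinearMap.add_apply, LinearMap.id_apply] at hx ⊢
      rw [← map_add, hx, map_zero]) with h | h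
  · refine good_gauss (Q := fun x => β x x) (γ := β + β.flip) act hco hM ?_ ?_ ?_
    · intro x y
      simp only [map_add, LinearMap.add_apply, LinearMap.flip_apply]
      ring
    · intro x hx
      have h1 : T x + x = 0 := by
        apply hr
        intro y
        have h2 := hx y
        simp only [LinearMap.add_apply, LinearMap.flip_apply] at h2
        rw [hT x y] at h2
        rw [map_add]
        exact h2
      have h3 : x ∈ LinearMap.ker (T + LinearMap.id) := by
        rw [LinearMap.mem_ker, LinearMap.add_apply, LinearMap.id_apply]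
        exact h1
      rw [h] at h3
      exact (Submodule.mem_bot _).1 h3
    · intro a x
      exact hinv a x x
  · have hneg : ∀ x, T x = -x := by
      intro x
      have h3 : x ∈ LinearMap.ker (T + LinearMap.id) := by
        rw [h]
        trivial
      rw [LinearMap.mem_ker, LinearMap.add_apply, LinearMap.id_apply] at h3
      exact eq_neg_of_add_eq_zero_left h3
    refine good_antisym act hco hM β ?_ hnd hinv ?_
    · intro x y
      rw [hT, hneg, map_neg]
    · intro K hK
      refine hmin K hK ?_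
      intro x hx
      rw [hneg]
      exact K.neg_mem hx

/-- The totally isotropic case: pass to a hyperbolic extension. -/
theorem good_rad_full (act : A →* Module.End (ZMod p) S)
    (hco : Nat.Coprime (Nat.card A) p) (hM : IsPModular p M)
    (β : S →ₗ[ZMod p] S →ₗ[ZMod p] ZMod p)
    (hnd : ∀ x, (∀ y, β x y = 0) → x = 0) (hinv : ∀ a x y, β (act a x) (act a y) = β x y)
    (T : S →ₗ[ZMod p] S) (hT : ∀ x y, β x y = β y (T x))
    (W : Submodule (ZMod p) S) (hW : ∀ a, ∀ x ∈ W, act a x ∈ W) (hTW : ∀ x ∈ W, T x ∈ W)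
    (hW0 : ∀ x ∈ W, ∀ y ∈ W, β x y = 0) (hne : W ≠ ⊥) :
    ∃ (W' : Submodule (ZMod p) S) (h : ∀ a, ∀ x ∈ W', act a x ∈ W'),
      (∀ x ∈ W', (∀ y ∈ W', β x y = 0) → x = 0) ∧ W' ≠ ⊥ ∧
        ∃ f : A → ℂ, Good M (resAct act W' h) f := by
  have hr := right_nondeg β hnd
  let P : Submodule (ZMod p) S := perpR β.flip W
  have hPm : ∀ x, x ∈ P ↔ ∀ s ∈ W, β x s = 0 := fun x => Iff.rfl
  have hPinv : ∀ a, ∀ x ∈ P, act a x ∈ P := by
    intro a x hx
    rw [hPm] at hx ⊢
    intro s hs
    have h1 : s = act a (act a⁻¹ s) := (act_act_inv act a s).symm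
    rw [h1, hinv]
    exact hx _ (hW _ _ hs)
  have hWP : W ≤ P := fun x hx => (hPm x).2 fun s hs => hW0 x hx s hs
  obtain ⟨S', hS', hc⟩ := exists_inv_compl act hco P hPinv
  let π : S →ₗ[ZMod p] S := S'.subtype ∘ₗ Submodule.projectionOnto S' P hc.symm
  have hπS' : ∀ x, π x ∈ S' := fun x => Subtype.coe_prop _
  have hπid : ∀ x ∈ S', π x = x := by
    intro x hx
    exact congrArg Subtype.val (Submodule.projectionOnto_apply_left hc.symm ⟨x, hx⟩)
  have hπP : ∀ x ∈ P, π x = 0 := by
    intro x hx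
    show ((Submodule.projectionOnto S' P hc.symm x : S') : S) = 0
    rw [(Submodule.projectionOnto_apply_eq_zero_iff hc.symm).2 hx]
    rfl
  have hdec : ∀ x, ∃ u ∈ P, ∃ v ∈ S', x = u + v := by
    intro x
    have h1 : x ∈ P ⊔ S' := by
      rw [hc.sup_eq_top]
      trivial
    obtain ⟨u, hu, v, hv, rfl⟩ := Submodule.mem_sup.1 h1
    exact ⟨u, hu, v, hv, rfl⟩
  have hρP : ∀ x, x - π x ∈ P := by
    intro x
    obtain ⟨u, hu, v, hv, rfl⟩ := hdec x
    rw [map_add, hπP u hu, hπid v hv, zero_add, add_sub_cancel_right]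
    exact hu
  have hπa : ∀ a x, π (act a x) = act a (π x) := by
    intro a x
    obtain ⟨u, hu, v, hv, rfl⟩ := hdec x
    rw [map_add (act a), map_add π, hπP _ (hPinv a u hu), hπid _ (hS' a v hv), map_add π, hπP u hu,
      hπid v hv, zero_add, zero_add]
  have hdisj : ∀ x ∈ P, x ∈ S' → x = 0 := fun x h1 h2 => Submodule.disjoint_def.1 hc.disjoint x h1 h2
  let T₁ : Submodule (ZMod p) S := W ⊔ S'
  have hT₁ : ∀ a, ∀ x ∈ T₁, act a x ∈ T₁ := by
    intro a x hx
    obtain ⟨u, hu, v, hv, rfl⟩ := Submodule.mem_sup.1 hx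
    rw [map_add]
    exact Submodule.add_mem_sup (hW a u hu) (hS' a v hv)
  have hT₁W : ∀ x ∈ T₁, x - π x ∈ W := by
    intro x hx
    obtain ⟨u, hu, v, hv, rfl⟩ := Submodule.mem_sup.1 hx
    rw [map_add, hπP u (hWP hu), hπid v hv, zero_add, add_sub_cancel_right]
    exact hu
  have hperpzero : ∀ x ∈ W, (∀ y ∈ S', β y x = 0) → x = 0 := by
    intro x hx hy
    apply hr
    intro z
    obtain ⟨u, hu, v, hv, rfl⟩ := hdec z
    rw [map_add, LinearMap.add_apply, (hPm u).1 hu x hx, hy v hv, zero_add]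
  refine ⟨T₁, hT₁, ?_, ?_, ?_⟩
  · intro x hx hy
    have h1 : x ∈ P := (hPm x).2 fun s hs => hy s (Submodule.mem_sup_left hs)
    have h2 : π x = 0 := hπP x h1
    have h3 : x ∈ W := by
      have := hT₁W x hx
      rwa [h2, sub_zero] at this
    apply hnd
    intro z
    obtain ⟨u, hu, v, hv, rfl⟩ := hdec z
    rw [map_add, hy v (Submodule.mem_sup_right hv), add_zero, hT x u]
    exact (hPm u).1 hu _ (hTW x h3)
  · intro h
    apply hne
    rw [eq_bot_iff]
    rw [← h]
    exact le_sup_left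
  · let ρ : S →ₗ[ZMod p] S := LinearMap.id - π
    have hρ : ∀ x, ρ x = x - π x := fun x => rfl
    let γ₀ : S →ₗ[ZMod p] S →ₗ[ZMod p] ZMod p := β.compl₁₂ π ρ + (β.compl₁₂ π ρ).flip
    have hγ₀ : ∀ x y, γ₀ x y = β (π x) (y - π y) + β (π y) (x - π x) := fun x y => rfl
    let γ : T₁ →ₗ[ZMod p] T₁ →ₗ[ZMod p] ZMod p := γ₀.domRestrict₁₂ T₁ T₁
    have hγ : ∀ x y : T₁, γ x y = γ₀ x y := fun x y => rfl
    refine good_gauss (Q := fun x : T₁ => β (π x) ((x : S) - π x)) (γ := γ) (resAct act T₁ hT₁)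
      hco hM ?_ ?_ ?_
    · intro x y
      rw [hγ, hγ₀]
      simp only [Submodule.coe_add, map_add, LinearMap.add_apply, map_sub, LinearMap.sub_apply]
      ring
    · rintro ⟨x, hx⟩ hy
      have hy' : ∀ y ∈ T₁, γ₀ x y = 0 := fun y hy2 => hy ⟨y, hy2⟩
      have h1 : π x ∈ P := by
        rw [hPm]
        intro s hs
        have h2 := hy' s (Submodule.mem_sup_left hs)
        rw [hγ₀, hπP s (hWP hs), map_zero, LinearMap.zero_apply, add_zero, sub_zero] at h2
        exact h2
      have h2 : π x = 0 := hdisj _ h1 (hπS' x)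
      have h3 : x ∈ W := by
        have := hT₁W x hx
        rwa [h2, sub_zero] at this
      apply Subtype.ext
      apply hperpzero x h3
      intro y hyy
      have h4 := hy' y (Submodule.mem_sup_right hyy)
      rw [hγ₀, h2, map_zero, LinearMap.zero_apply, zero_add, sub_zero, hπid y hyy] at h4
      exact h4
    · rintro a ⟨x, hx⟩
      show β (π (act a x)) (act a x - π (act a x)) = β (π x) (x - π x)
      rw [hπa, ← map_sub, hinv]

/-- The key step. -/
theorem exists_good_sub (act : A →* Module.End (ZMod p) S)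
    (hco : Nat.Coprime (Nat.card A) p) (hM : IsPModular p M)
    (β : S →ₗ[ZMod p] S →ₗ[ZMod p] ZMod p)
    (hnd : ∀ x, (∀ y, β x y = 0) → x = 0) (hinv : ∀ a x y, β (act a x) (act a y) = β x y)
    (hne : (⊥ : Submodule (ZMod p) S) ≠ ⊤) :
    ∃ (W' : Submodule (ZMod p) S) (h : ∀ a, ∀ x ∈ W', act a x ∈ W'),
      (∀ x ∈ W', (∀ y ∈ W', β x y = 0) → x = 0) ∧ W' ≠ ⊥ ∧
        ∃ f : A → ℂ, Good M (resAct act W' h) f := by
  have hr := right_nondeg β hnd
  obtain ⟨T, hT⟩ : ∃ T : S →ₗ[ZMod p] S, ∀ x y, β x y = β y (T x) := by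
    haveI : Module.Finite (ZMod p) S := Module.Finite.of_finite
    have hinj : Function.Injective β.flip := by
      rw [injective_iff_map_eq_zero]
      intro x hx
      exact hr x fun y => by
        have := congrArg (fun f => f y) hx
        simpa using this
    have hsurj : Function.Surjective β.flip :=
      (LinearMap.injective_iff_surjective_of_finrank_eq_finrank
        (Subspace.dual_finrank_eq (K := ZMod p) (V := S)).symm).1 hinj
    let e := LinearEquiv.ofBijective β.flip ⟨hinj, hsurj⟩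
    refine ⟨e.symm.toLinearMap ∘ₗ β, fun x y => ?_⟩
    have h1 : e (e.symm (β x)) = β x := e.apply_symm_apply _
    exact (congrArg (fun f => f y) h1).symm
  have hTinj : Function.Injective T := by
    rw [injective_iff_map_eq_zero]
    intro x hx
    apply hnd
    intro y
    rw [hT, hx, map_zero]
  have hTa : ∀ a x, T (act a x) = act a (T x) := by
    intro a x
    rw [← sub_eq_zero]
    apply hr
    intro y
    rw [map_sub, sub_eq_zero, ← hT]
    have h1 : β y (act a (T x)) = β (act a⁻¹ y) (T x) := by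
      conv_lhs => rw [← act_act_inv act a y]
      exact hinv _ _ _
    rw [h1, ← hT]
    have h2 : β (act a x) y = β (act a x) (act a (act a⁻¹ y)) := by rw [act_act_inv]
    rw [h2, hinv]
  let L : Set (Submodule (ZMod p) S) :=
    {W | W ≠ ⊥ ∧ (∀ a, ∀ x ∈ W, act a x ∈ W) ∧ (∀ x ∈ W, T x ∈ W)}
  have hLne : L.Nonempty := ⟨⊤, hne.symm, fun _ _ _ => trivial, fun _ _ => trivial⟩
  obtain ⟨S₁, ⟨hS₁ne, hS₁a, hS₁T⟩, hS₁min⟩ := (Set.toFinite L).exists_minimal hLne
  have hmin : ∀ K ≤ S₁, (∀ a, ∀ x ∈ K, act a x ∈ K) → (∀ x ∈ K, T x ∈ K) → K = ⊥ ∨ K = S₁ := by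
    intro K hK h1 h2
    by_cases h3 : K = ⊥
    · exact Or.inl h3
    · exact Or.inr (le_antisymm hK (hS₁min ⟨h3, h1, h2⟩ hK))
  have hTsurj : ∀ y ∈ S₁, ∃ x ∈ S₁, T x = y := by
    have h1 : Function.Injective (T.restrict hS₁T) := by
      intro x y h
      apply Subtype.ext
      exact hTinj (congrArg Subtype.val h)
    have h2 := Finite.injective_iff_surjective.1 h1
    intro y hy
    obtain ⟨x, hx⟩ := h2 ⟨y, hy⟩
    exact ⟨x, x.2, congrArg Subtype.val hx⟩
  have hTT : ∀ x y, β (T x) (T y) = β x y := by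
    intro x y
    rw [hT x y, hT y (T x)]
  let R : Submodule (ZMod p) S := S₁ ⊓ perpR β.flip S₁
  have hRm : ∀ x, x ∈ R ↔ x ∈ S₁ ∧ ∀ s ∈ S₁, β x s = 0 := fun x => Iff.rfl
  have hRa : ∀ a, ∀ x ∈ R, act a x ∈ R := by
    intro a x hx
    rw [hRm] at hx ⊢
    refine ⟨hS₁a a x hx.1, fun s hs => ?_⟩
    have h1 : s = act a (act a⁻¹ s) := (act_act_inv act a s).symm
    rw [h1, hinv]
    exact hx.2 _ (hS₁a _ _ hs)
  have hRT : ∀ x ∈ R, T x ∈ R := by
    intro x hx
    rw [hRm] at hx ⊢
    refine ⟨hS₁T x hx.1, fun s hs => ?_⟩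
    obtain ⟨y, hy, rfl⟩ := hTsurj s hs
    rw [hTT]
    exact hx.2 y hy
  rcases hmin R inf_le_left hRa hRT with h | h
  · refine ⟨S₁, hS₁a, ?_, hS₁ne, ?_⟩
    · intro x hx hy
      have h1 : x ∈ R := (hRm x).2 ⟨hx, hy⟩
      rw [h] at h1
      exact (Submodule.mem_bot _).1 h1
    · have hnd₁ : ∀ x : S₁, (∀ y : S₁, β.domRestrict₁₂ S₁ S₁ x y = 0) → x = 0 := by
        rintro ⟨x, hx⟩ hy
        apply Subtype.ext
        have h1 : x ∈ R := (hRm x).2 ⟨hx, fun s hs => hy ⟨s, hs⟩⟩
        rw [h] at h1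
        exact (Submodule.mem_bot _).1 h1
      refine good_nondeg (resAct act S₁ hS₁a) hco hM (β.domRestrict₁₂ S₁ S₁) hnd₁ ?_
        (T.restrict hS₁T) ?_ ?_ ?_
      · intro a x y
        exact hinv a x y
      · intro x y
        exact hT x y
      · intro a x
        exact Subtype.ext (hTa a x)
      · intro K hK1 hK2
        have hmap : K.map S₁.subtype ≤ S₁ := by
          rintro _ ⟨x, _, rfl⟩
          exact x.2
        rcases hmin (K.map S₁.subtype) hmap (by
            rintro a _ ⟨x, hx, rfl⟩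
            exact ⟨_, hK1 a x hx, rfl⟩) (by
            rintro _ ⟨x, hx, rfl⟩
            exact ⟨_, hK2 x hx, rfl⟩) with h4 | h4
        · left
          rw [Submodule.eq_bot_iff]
          intro x hx
          have h5 : (x : S) ∈ K.map S₁.subtype := ⟨x, hx, rfl⟩
          rw [h4] at h5
          exact Subtype.ext ((Submodule.mem_bot _).1 h5)
        · right
          rw [eq_top_iff]
          rintro ⟨x, hx⟩ _
          have h5 : x ∈ K.map S₁.subtype := by
            rw [h4]
            exact hx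
          obtain ⟨y, hy, hyx⟩ := h5
          have h6 : y = ⟨x, hx⟩ := Subtype.ext hyx
          rw [← h6]
          exact hy
  · refine good_rad_full act hco hM β hnd hinv T hT S₁ hS₁a hS₁T ?_ hS₁ne
    intro x hx y hy
    have h1 : x ∈ R := by
      rw [h]
      exact hx
    exact ((hRm x).1 h1).2 y hy

/-- **Existence of good functions.** -/
theorem exists_good_aux (hco : Nat.Coprime (Nat.card A) p) (hM : IsPModular p M) (n : ℕ) :
    ∀ (S : Type v) [AddCommGroup S] [Module (ZMod p) S] [Finite S]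
      (act : A →* Module.End (ZMod p) S) (β : S →ₗ[ZMod p] S →ₗ[ZMod p] ZMod p),
      (∀ x, (∀ y, β x y = 0) → x = 0) → (∀ a x y, β (act a x) (act a y) = β x y) →
      Module.finrank (ZMod p) S = n → ∃ f : A → ℂ, Good M act f := by
  induction n using Nat.strong_induction_on with
  | _ n ih =>
    intro S _ _ _ act β hnd hinv hn
    haveI : Module.Finite (ZMod p) S := Module.Finite.of_finite
    by_cases hbt : (⊥ : Submodule (ZMod p) S) = ⊤
    · refine ⟨_, good_trivial act ?_⟩
      intro a x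
      have h1 : ∀ z : S, z = 0 := by
        intro z
        have : z ∈ (⊥ : Submodule (ZMod p) S) := by
          rw [hbt]
          trivial
        exact (Submodule.mem_bot _).1 this
      rw [h1 (act a x), h1 x]
    · obtain ⟨W, hW, hWnd, hWne, f₁, g₁⟩ := exists_good_sub act hco hM β hnd hinv hbt
      have hc := isCompl_perpR β W hWnd
      have hW' : ∀ a, ∀ x ∈ perpR β W, act a x ∈ perpR β W := by
        intro a x hx s hs
        have h1 : s = act a (act a⁻¹ s) := (act_act_inv act a s).symm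
        rw [h1, hinv]
        exact hx _ (hW _ _ hs)
      have hlt : perpR β W < ⊤ := by
        rw [lt_top_iff_ne_top]
        intro h
        apply hWne
        have := hc.disjoint
        rw [h, disjoint_top] at this
        exact this
      have hfr : Module.finrank (ZMod p) (perpR β W) < n := by
        rw [← hn]
        exact Submodule.finrank_lt hlt.ne
      have hnd₂ := nondeg_perpR β hnd W hWnd
      obtain ⟨f₂, g₂⟩ := ih _ hfr (perpR β W) (resAct act _ hW')
        (β.domRestrict₁₂ (perpR β W) (perpR β W)) (by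
          rintro ⟨x, hx⟩ hy
          apply Subtype.ext
          exact hnd₂ x hx fun y hyy => hy ⟨y, hyy⟩) (by
          intro a x y
          exact hinv a x y) rfl
      exact ⟨_, good_prod hM act W _ hW hW' hc g₁ g₂⟩

/-- **Existence of good functions.** -/
theorem exists_good (act : A →* Module.End (ZMod p) S)
    (hco : Nat.Coprime (Nat.card A) p) (hM : IsPModular p M)
    (β : S →ₗ[ZMod p] S →ₗ[ZMod p] ZMod p)
    (hnd : ∀ x, (∀ y, β x y = 0) → x = 0) (hinv : ∀ a x y, β (act a x) (act a y) = β x y) :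
    ∃ f : A → ℂ, Good M act f :=
  exists_good_aux hco hM _ S act β hnd hinv rfl

end Ind

end Cfsg.Agent.Lib.KRVInd
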