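import Mathlib
import Cfsg.Agent.Lib.KlPerf
import Cfsg.Agent.S4648

/-!
# The sections of a block with a Klein four defect group
-/

set_option autoImplicit false
set_option linter.unusedSectionVars false
set_option linter.unusedVariables false
set_option linter.style.haveILetI false

namespace Cfsg.Agent.Lib.KlSide

open Cfsg Cfsg.Agent.Lib.CharBasic Cfsg.Agent.Lib.CharInd Cfsg.Agent.Lib.CharIntegrality
open Cfsg.Agent.Lib.BlockLocal Cfsg.Agent.Lib.BlockIdem Cfsg.Agent.Lib.BlockQ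
open Cfsg.Agent.Lib.BlockOrtho Cfsg.Agent.Lib.BlockVal Cfsg.Agent.Lib.BlockMajor
open Cfsg.Agent.Lib.BlockUniform Cfsg.Agent.Lib.BlockDefect Cfsg.Agent.Lib.BlockInvol
open Cfsg.Agent.Lib.BrauerMap Cfsg.Agent.Lib.BrauerPair Cfsg.Agent.Lib.BrauerSub
open Cfsg.Agent.Lib.BrauerConj Cfsg.Agent.Lib.BrauerThird Cfsg.Agent.Lib.BrauerMax
open Cfsg.Agent.Lib.BrauerStab Cfsg.Agent.Lib.BrauerCen
open Cfsg.Agent.Lib.BrauerFull Cfsg.Agent.Lib.BrauerLift Cfsg.Agent.Lib.BrauerIdx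
open Cfsg.Agent.Lib.BrauerSat Cfsg.Agent.Lib.BrauerNil Cfsg.Agent.Lib.BlockSubsection
open Cfsg.Agent.Lib.KleinDefect Cfsg.Agent.Lib.KlPerf Cfsg.Agent.Lib.BlkOrth
open scoped ComplexConjugate

universe u

theorem isKleinFour_of_equiv {A A' : Type*} [Group A] [Group A'] (σ : A ≃* A') [IsKleinFour A'] :
    IsKleinFour A :=
  ⟨by rw [Nat.card_congr σ.toEquiv, IsKleinFour.card_four],
    by rw [Monoid.exponent_eq_of_mulEquiv σ, IsKleinFour.exponent_two]⟩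

variable {G : Type u} [Group G] [Fintype G] {M : Ideal AlgInt}

local notation "𝐂[" R "]" => Subgroup.centralizer ((R : Subgroup G) : Set G)
local notation "𝐍[" R "]" => Subgroup.normalizer ((R : Subgroup G) : Set G)
local notation Q "^^" x => Subgroup.map (MulEquiv.toMonoidHom (MulAut.conj (x : G))) (Q : Subgroup G)

noncomputable local instance fintypeSubKlS {A : Type*} [Group A] [Finite A] (K : Subgroup A) : Fintype K :=
  Fintype.ofFinite K

open scoped Classical in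
/-- The decomposition into sections. -/
theorem mul_eq_sum {p : ℕ} [hpF : Fact p.Prime] {B : Set (IrrCharacter G)} {y : G} {H : Subgroup G} [Fintype H]
    (hM : IsPModular p M) (hy : ∃ k : ℕ, orderOf y = p ^ k)
    (hH : H = Subgroup.centralizer ({y} : Set G)) (hB : IsPBlock M B)
    {χ : IrrCharacter G} (hχ : χ ∈ B) {s : H} (hs : ¬ p ∣ orderOf s) :
    (χ : G → ℂ) (y * (s : G)) = ∑ F : BrauerPair.BlockT M H,
      if IsInducedBlock M H F.1 B then th hH F.1 χ s else 0 := by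
  classical
  haveI := isPrime_of_isPModular hM
  have hyg : IsPGroup p (Subgroup.zpowers y) := by
    obtain ⟨k, hk⟩ := hy
    apply IsPGroup.of_card (n := k)
    rw [Nat.card_zpowers, hk]
  have hH' : H = Subgroup.centralizer ((Subgroup.zpowers y : Subgroup G) : Set G) := by
    rw [Cfsg.Agent.Lib.BlockSecond.centralizer_zpowers_eq, hH]
  have hexists : ∀ F : BrauerPair.BlockT M H, ∃ B' : Set (IrrCharacter G),
      IsInducedBlock M H F.1 B' :=
    fun F => Cfsg.Agent.Lib.BlockSecond.exists_isInducedBlock_centralizer hM hyg hH' F.2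
  have h2 := sum_blocks_mul (M := M) (thetaZ (χ : G → ℂ) y H) s
  have h3 : thetaZ (χ : G → ℂ) y H s = (χ : G → ℂ) (y * (s : G)) := rfl
  rw [← h3, ← h2]
  refine Finset.sum_congr rfl fun F _ => ?_
  by_cases hF : IsInducedBlock M H F.1 B
  · rw [if_pos hF]
    unfold th
    exact Cfsg.Agent.Lib.BlockSecond.sum_blockCoeff_mul_eq_blockPart F.1
      (thetaZ_isClassFunction hH (isClassFunction_of_isCharacter (IsIrrCharacter.isCharacter χ.2))) s
  · rw [if_neg hF]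
    obtain ⟨B', hB'⟩ := hexists F
    have hne : B' ≠ B := fun h => hF (h ▸ hB')
    have hχ' : χ ∉ B' := by
      rcases eq_or_disjoint_of_isPBlock hB'.2.1 hB with h | h
      · exact absurd h hne
      · exact fun h1 => Set.disjoint_left.1 h h1 hχ
    exact sum_thetaZ_eq_zero hM hy hH hB' hχ' s hs

/-- Orthogonality of sections to the regular elements. -/
theorem sum_mul_th_eq_zero {p : ℕ} [hpF : Fact p.Prime] {B : Set (IrrCharacter G)} {y : G} {H : Subgroup G} [Fintype H]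
    (hM : IsPModular p M) (hy : ∃ k : ℕ, orderOf y = p ^ k) (hy1 : y ≠ 1)
    (hH : H = Subgroup.centralizer ({y} : Set G)) (hB : IsPBlock M B) {F : Set (IrrCharacter H)}
    (hF : IsPBlock M F) {r : G} (hr : ¬ p ∣ orderOf r) {s : H} (hs : ¬ p ∣ orderOf s) :
    ∑ χ ∈ bF B, (χ : G → ℂ) r * th hH F χ s = 0 := by
  classical
  haveI := isPrime_of_isPModular hM
  have hp := hpF.out
  set ϑ : H → ℂ := ∑ χ ∈ bF B, ((χ : G → ℂ) r) • thetaZ (χ : G → ℂ) y H with hϑd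
  have hϑ : ∀ t : H, ϑ t = ∑ χ ∈ bF B, (χ : G → ℂ) r * (χ : G → ℂ) (y * (t : G)) := by
    intro t
    rw [hϑd, Finset.sum_apply]
    rfl
  have hzero : ∀ t : H, ¬ p ∣ orderOf t → ϑ t = 0 := by
    intro t ht
    rw [hϑ]
    have hpart := isPPart_mul hH hy ht
    have hsing : p ∣ orderOf ((y * (t : G))⁻¹) := by
      rw [orderOf_inv]
      by_contra hn
      exact hy1 ((pPart_regular_iff hp hpart).mp hn)
    have h1 := Cfsg.Agent.Lib.BlockOrth.weak_block_orthogonality hM hB hr hsing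
    rw [finsum_mem_eq_sum_bF] at h1
    simpa using h1
  have h1 : blockPart F ϑ s = 0 := by
    refine blockPart_eq_zero hM (x := 1) ?_ hF (z := 1) (isPPart_one_of_regular hs) (IsConj.refl _)
    intro t z ht hz
    have hz1 : z = 1 := by
      exact isConj_one_right.mp hz
    subst hz1
    exact hzero t ((pPart_regular_iff hp ht).mpr rfl)
  rw [blockPart_eq_bF] at h1
  rw [← h1]
  have h2 : ∀ χ ∈ bF B, (χ : G → ℂ) r * th hH F χ s =
      ∑ ξ ∈ bF F, (χ : G → ℂ) r * classInner (thetaZ (χ : G → ℂ) y H) (ξ : H → ℂ) * (ξ : H → ℂ) s := by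
    intro χ _
    unfold th
    rw [blockPart_eq_bF, Finset.mul_sum]
    refine Finset.sum_congr rfl fun ξ _ => ?_
    ring
  rw [Finset.sum_congr rfl h2, Finset.sum_comm]
  refine Finset.sum_congr rfl fun ξ _ => ?_
  rw [hϑd, classInner_sum_left, Finset.sum_mul]
  refine Finset.sum_congr rfl fun χ _ => ?_
  rw [classInner_smul_left]

variable {B : Set (IrrCharacter G)} {P : Subgroup G}
  {e : Set (IrrCharacter (Subgroup.centralizer (P : Set G)))}

theorem isKleinFour_of_max (hM : IsPModular 2 M) (hV : IsKleinFour P)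
    (hmax : IsMaximalBrauerPair 2 M B P e) {R : Subgroup G} {g : Set (IrrCharacter 𝐂[R])}
    (hmax' : IsMaximalBrauerPair 2 M B R g) : IsKleinFour R := by
  haveI : Fact (Nat.Prime 2) := ⟨Nat.prime_two⟩
  obtain ⟨x, hx⟩ := exists_conj_subpairLE hM hmax hmax'.1
  have hle := le_of_subpairLE hx
  have h1 := card_isDefectGroup hM hmax.1.2.1 (isDefectGroup_of_maximal hM hmax)
  have h2 := card_isDefectGroup hM hmax.1.2.1 (isDefectGroup_of_maximal hM hmax')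
  have hinj : Function.Injective (MulEquiv.toMonoidHom (MulAut.conj x)) := (MulAut.conj x).injective
  have h3 : Nat.card (R ^^ x) = Nat.card R := Subgroup.card_map_of_injective hinj
  have heq : (R ^^ x) = P := by
    apply Subgroup.eq_of_le_of_card_ge hle
    rw [h3, h1, h2]
  let φ : R ≃* P := (Subgroup.equivMapOfInjective R _ hinj).trans (MulEquiv.subgroupCongr heq)
  exact isKleinFour_of_equiv φ

section Sec

variable (hV : IsKleinFour P) (hM : IsPModular 2 M) (hmax : IsMaximalBrauerPair 2 M B P e)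
include hV hM hmax

/-- The local facts of a section. -/
theorem sec_local {u : G} (hu : ∃ k : ℕ, orderOf u = 2 ^ k) (hu1 : u ≠ 1)
    {F : Set (IrrCharacter 𝐂[Subgroup.zpowers u])} (hF : IsInducedBlock M 𝐂[Subgroup.zpowers u] F B) :
    blockDefect 2 F = 2 ∧ u ^ 2 = 1 ∧ ∃ θ ∈ F, ∀ ξ ∈ F, ∀ s : 𝐂[Subgroup.zpowers u],
    ¬ 2 ∣ orderOf s → (ξ : 𝐂[Subgroup.zpowers u] → ℂ) s = (θ : 𝐂[Subgroup.zpowers u] → ℂ) s := by
  have hQp : IsPGroup 2 (Subgroup.zpowers u) := by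
    obtain ⟨k, hk⟩ := hu
    apply IsPGroup.of_card (n := k)
    rw [Nat.card_zpowers, hk]
  have hQF := Cfsg.Agent.Lib.BlockSection.isBrauerPairOf_of_isInducedBlock hM hQp hF
  obtain ⟨R, g, hmax', hle⟩ := exists_maximal_above hM hQF
  have hV' := isKleinFour_of_max hM hV hmax hmax'
  have huR : u ∈ R := (Subgroup.zpowers_le).mp (le_of_subpairLE hle)
  obtain ⟨f, hf, hle', hd, hind, θ, hθ, hreg⟩ := exists_local hV' hM hmax' (mem_PS.mpr ⟨huR, hu1⟩)
  have h1 : F = f := eq_of_two_subpairLE hM hmax'.1.1 hle' hle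
  subst h1
  exact ⟨hd, pow_two_of_order (order_of_mem hV' huR hu1), θ, hθ, hreg⟩

/-- The row of a section. -/
theorem sec_row {u : G} (hu : ∃ k : ℕ, orderOf u = 2 ^ k) (hu1 : u ≠ 1)
    {F : Set (IrrCharacter 𝐂[Subgroup.zpowers u])} (hF : IsInducedBlock M 𝐂[Subgroup.zpowers u] F B) :
    ∃ n : IrrCharacter G → ℤ,
    (∀ χ, cc (Cfsg.Agent.Lib.BlockSecond.centralizer_zpowers_eq u) F χ = n χ) ∧
    (∀ χ ∈ B, n χ = 1 ∨ n χ = -1) ∧
    ∀ r : G, ¬ 2 ∣ orderOf r → ∑ χ ∈ bF B, (n χ : ℂ) * (χ : G → ℂ) r = 0 := by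
  classical
  haveI : Fact (Nat.Prime 2) := ⟨Nat.prime_two⟩
  haveI := isPrime_of_isPModular hM
  have hH := Cfsg.Agent.Lib.BlockSecond.centralizer_zpowers_eq u
  obtain ⟨hdf, hu2, θ, hθ, hreg⟩ := sec_local hV hM hmax hu hu1 hF
  choose n hn using exists_int_cc (b := F) hH hu2
  refine ⟨n, hn, ?_, ?_⟩
  · have hconj : ∀ χ, cc hH F χ * conj (cc hH F χ) = ((n χ ^ 2 : ℤ) : ℂ) := by
      intro χ
      rw [hn, map_intCast]
      push_cast
      ring
    have hsum : ∑ χ ∈ bF B, n χ ^ 2 = 4 := by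
      have h1 := sum_cc hM hu hH hF hθ hreg
      rw [hdf, Finset.sum_congr rfl fun χ _ => hconj χ] at h1
      have h2 : ((∑ χ ∈ bF B, n χ ^ 2 : ℤ) : ℂ) = ((4 : ℤ) : ℂ) := by
        push_cast at h1 ⊢
        rw [h1]
      exact_mod_cast h2
    have hdB := blockDefect_eq hV hM hmax (isDefectGroup_of_maximal hM hmax)
    have hodd : ∀ χ ∈ bF B, ¬ (2 : ℤ) ∣ n χ := by
      intro χ hχ h2
      have hχ' := mem_bF.mp hχ
      have h0 := height_zero_of_defect_le hM hmax.1.2.1 (by omega) hχ'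
      have h1 := not_memLocalIdeal_cc hM hu hH hF hθ hreg hχ' hχ' h0 h0
      rw [hconj] at h1
      apply h1
      have h3 := (memLocalIdeal_intCast_iff hM (n := n χ ^ 2)).2
      exact h3 (by push_cast; exact dvd_pow h2 (by norm_num))
    have h2 := (card_eq_four_of_sum_sq (bF B) n hodd hsum).2
    intro χ hχ
    have h3 : (n χ - 1) * (n χ + 1) = 0 := by
      have := h2 χ (mem_bF.mpr hχ)
      ring_nf
      linarith
    rcases mul_eq_zero.mp h3 with h4 | h4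
    · left; omega
    · right; omega
  · intro r hr
    have h1reg : ¬ 2 ∣ orderOf (1 : 𝐂[Subgroup.zpowers u]) := by simp
    have h1 := sum_mul_th_eq_zero hM hu hu1 hH hF.2.1 hF.1 hr h1reg
    have h2 : ∀ χ ∈ bF B, (χ : G → ℂ) r * th hH F χ 1 =
        ((n χ : ℂ) * (χ : G → ℂ) r) * (θ : 𝐂[Subgroup.zpowers u] → ℂ) 1 := by
      intro χ _
      rw [th_eq_cc hH hreg χ h1reg, hn]
      ring
    rw [Finset.sum_congr rfl h2, ← Finset.sum_mul] at h1
    exact (mul_eq_zero.mp h1).resolve_right (irr_one_ne_zero' θ.2)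

/-- The value at a section. -/
theorem sec_val {u : G} (hu : ∃ k : ℕ, orderOf u = 2 ^ k) (hu1 : u ≠ 1)
    {F : Set (IrrCharacter 𝐂[Subgroup.zpowers u])} (hF : IsInducedBlock M 𝐂[Subgroup.zpowers u] F B)
    {θ : IrrCharacter 𝐂[Subgroup.zpowers u]} (hθ : θ ∈ F) {s : 𝐂[Subgroup.zpowers u]}
    (hs : ¬ 2 ∣ orderOf s) :
    MemLocalRing M (4 * (θ : 𝐂[Subgroup.zpowers u] → ℂ) s /
      (Nat.card (Subgroup.centralizer ({u * (s : G)} : Set G)) : ℂ)) := by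
  haveI : Fact (Nat.Prime 2) := ⟨Nat.prime_two⟩
  have hH := Cfsg.Agent.Lib.BlockSecond.centralizer_zpowers_eq u
  obtain ⟨hdf, hu2, -⟩ := sec_local hV hM hmax hu hu1 hF
  have h0 := height_zero_of_defect_le hM hF.1 (by omega) hθ
  have h1 := local_height_zero hM hF.1 h0 s
  rw [hdf] at h1
  rw [card_centralizer_mul hH hu hs]
  convert h1 using 2
  norm_num

/-- **The sections of the block.** -/
theorem klSections : KlSections M B := by
  classical
  haveI : Fact (Nat.Prime 2) := ⟨Nat.prime_two⟩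
  intro x hx
  obtain ⟨u, hu⟩ := exists_isPPart Nat.prime_two x
  have hu1 : u ≠ 1 := fun h => ((pPart_regular_iff Nat.prime_two hu).mpr h) hx
  obtain ⟨y, hxy, hc, hk, hyreg⟩ := hu
  have hH := Cfsg.Agent.Lib.BlockSecond.centralizer_zpowers_eq u
  set H := 𝐂[Subgroup.zpowers u] with hHd
  set s : H := ⟨y, mem_of_commute hH hc⟩ with hs
  have hsreg : ¬ 2 ∣ orderOf s := by
    rw [← Subgroup.orderOf_coe]
    exact hyreg
  have hxs : x = u * (s : G) := hxy.symm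
  subst hxs
  let ι := {F : BrauerPair.BlockT M H // IsInducedBlock M H F.1 B}
  have hdata : ∀ i : ι, ∃ (θ : IrrCharacter H) (n : IrrCharacter G → ℤ), θ ∈ i.1.1 ∧
      (∀ ξ ∈ i.1.1, ∀ s : H, ¬ 2 ∣ orderOf s → (ξ : H → ℂ) s = (θ : H → ℂ) s) ∧
      (∀ χ, cc hH i.1.1 χ = n χ) ∧ (∀ χ ∈ B, n χ = 1 ∨ n χ = -1) ∧
      ∀ r : G, ¬ 2 ∣ orderOf r → ∑ χ ∈ bF B, (n χ : ℂ) * (χ : G → ℂ) r = 0 := by
    intro i
    obtain ⟨-, -, θ, hθ, hreg⟩ := sec_local hV hM hmax hk hu1 i.2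
    obtain ⟨n, hn1, hn2, hn3⟩ := sec_row hV hM hmax hk hu1 i.2
    exact ⟨θ, n, hθ, hreg, hn1, hn2, hn3⟩
  choose θ n h1 h2 h3 h4 h5 using hdata
  refine ⟨ι, inferInstance, n, fun i => (θ i : H → ℂ) s, fun i => h4 i, ?_, fun i => h5 i,
    fun i => isIntegral_irr _ _, fun i => sec_val hV hM hmax hk hu1 i.2 (h1 i) hsreg⟩
  intro χ hχ
  rw [mul_eq_sum hM hk hH hmax.1.2.1 hχ hsreg]
  rw [← Finset.sum_filter]
  rw [Finset.sum_subtype (p := fun F : BrauerPair.BlockT M H => IsInducedBlock M H F.1 B) _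
    (by simp)]
  refine Finset.sum_congr rfl fun i _ => ?_
  rw [th_eq_cc hH (h2 i) χ hsreg, h3]

/-- Agreement for a trivial stabilizer. -/
theorem agree_of_triv (htriv : ∀ t ∈ 𝐍[P], StabilizesBlock 𝐂[P] e t → t ∈ 𝐂[P]) :
    ∃ χ₀ ∈ B, ∀ χ ∈ B, ∀ r : G, ¬ 2 ∣ orderOf r → (χ : G → ℂ) r = (χ₀ : G → ℂ) r := by
  classical
  haveI : Fact (Nat.Prime 2) := ⟨Nat.prime_two⟩
  haveI := isPrime_of_isPModular hM
  have hPD := isDefectGroup_of_maximal hM hmax
  have hB := hmax.1.2.1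
  have hl := blockRank_eq_one hV hM hmax hPD htriv
  have hk := card_bF_eq hV hM hmax hPD
  obtain ⟨V, hV1, hV2⟩ := Cfsg.Agent.Lib.BlockResidue.exists_val M
  have hpV := Cfsg.Agent.S4648.natCast_residue hM hV2
  obtain ⟨χ₀, hχ₀⟩ := isPBlock_nonempty hB
  exact ⟨χ₀, hχ₀, fun χ hχ r hr => Cfsg.Agent.Lib.BlockRankOne.agree_of_rank_one hV1 hV2 hpV hB hl
    hk.le hχ₀ χ hχ r hr⟩

/-- All pairs are conjugate in the transitive case. -/
theorem conj_base (htrans : ∀ w ∈ PS P, ∀ w' ∈ PS P, ∃ t ∈ 𝐍[P], StabilizesBlock 𝐂[P] e t ∧ t * w * t⁻¹ = w')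
    {z₁ : G} (hz₁ : z₁ ∈ PS P) {f₁ : Set (IrrCharacter 𝐂[Subgroup.zpowers z₁])}
    (hle₁ : SubpairLE 2 M (Subgroup.zpowers z₁) f₁ P e)
    (z : G) (F : Set (IrrCharacter 𝐂[Subgroup.zpowers z]))
    (hzk : ∃ k : ℕ, orderOf z = 2 ^ k) (hz1 : z ≠ 1) (hind : IsInducedBlock M 𝐂[Subgroup.zpowers z] F B) :
    ∃ y : G, y * z * y⁻¹ = z₁ ∧ cp y ⟨Subgroup.zpowers z, F⟩ = ⟨Subgroup.zpowers z₁, f₁⟩ := by
  haveI : Fact (Nat.Prime 2) := ⟨Nat.prime_two⟩
  haveI := isPrime_of_isPModular hM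
  have hQp : IsPGroup 2 (Subgroup.zpowers z) := by
    obtain ⟨k, hk⟩ := hzk
    apply IsPGroup.of_card (n := k)
    rw [Nat.card_zpowers, hk]
  have hQF := Cfsg.Agent.Lib.BlockSection.isBrauerPairOf_of_isInducedBlock hM hQp hind
  obtain ⟨x, hx⟩ := exists_conj_subpairLE hM hmax hQF
  have hxP : x * z * x⁻¹ ∈ P := by
    have h2 := le_of_subpairLE hx
    rw [map_zpowers] at h2
    exact (Subgroup.zpowers_le).mp h2
  have hxPS : x * z * x⁻¹ ∈ PS P := by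
    refine mem_PS.mpr ⟨hxP, fun h => hz1 ?_⟩
    have : x * z * x⁻¹ = x * 1 * x⁻¹ := by rw [h]; group
    exact mul_left_cancel (mul_right_cancel this)
  obtain ⟨t, ht1, ht2, ht3⟩ := htrans _ hxPS z₁ hz₁
  have hcpt : cp t ⟨P, e⟩ = ⟨P, e⟩ := by
    rw [cp_of_normalizer ht1 (normalizer_le_normalizer_centralizer P ht1),
      twistSet_eq_of_stabilizes hmax.1.1.2 ht2]
  have h3 := relationCp hM t hx
  rw [hcpt] at h3
  have hyz : (t * x) * z * (t * x)⁻¹ = z₁ := by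
    rw [← ht3]
    group
  have h4 : (cp t (cp x ⟨Subgroup.zpowers z, F⟩)).1 = Subgroup.zpowers z₁ := by
    change ((Subgroup.zpowers z ^^ x) ^^ t) = _
    rw [map_zpowers, map_zpowers, ht3]
  obtain ⟨F', hF'⟩ := exists_eq_pair _ h4
  have h5 : SubpairLE 2 M (Subgroup.zpowers z₁) F' P e := by
    have h6 : Relation.ReflTransGen (NormalSubpairRel (G := G) 2 M)
        (cp t (cp x ⟨Subgroup.zpowers z, F⟩)) ⟨P, e⟩ := h3
    rw [hF'] at h6
    exact h6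
  have h7 := eq_of_two_subpairLE hM hmax.1.1 hle₁ h5
  refine ⟨t * x, hyz, ?_⟩
  rw [cp_mul, hF', h7]

/-- Uniqueness of the block of a section in the transitive case. -/
theorem uniq_of_trans (htrans : ∀ w ∈ PS P, ∀ w' ∈ PS P, ∃ t ∈ 𝐍[P], StabilizesBlock 𝐂[P] e t ∧ t * w * t⁻¹ = w')
    {z₁ : G} (hz₁ : z₁ ∈ PS P) {f₁ : Set (IrrCharacter 𝐂[Subgroup.zpowers z₁])}
    (hle₁ : SubpairLE 2 M (Subgroup.zpowers z₁) f₁ P e)
    (z : G) (F F' : Set (IrrCharacter 𝐂[Subgroup.zpowers z]))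
    (hzk : ∃ k : ℕ, orderOf z = 2 ^ k) (hz1 : z ≠ 1) (hind : IsInducedBlock M 𝐂[Subgroup.zpowers z] F B)
    (hind' : IsInducedBlock M 𝐂[Subgroup.zpowers z] F' B) : F' = F := by
  haveI := isPrime_of_isPModular hM
  obtain ⟨y, hy1, hy2⟩ := conj_base hV hM hmax htrans hz₁ hle₁ z F hzk hz1 hind
  obtain ⟨y', hy1', hy2'⟩ := conj_base hV hM hmax htrans hz₁ hle₁ z F' hzk hz1 hind'
  have h1 : cp (y'⁻¹ * y) ⟨Subgroup.zpowers z, F⟩ = ⟨Subgroup.zpowers z, F'⟩ := by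
    rw [cp_mul, hy2, ← hy2', cp_inv_cp]
  have hyC : y'⁻¹ * y ∈ 𝐂[Subgroup.zpowers z] := by
    rw [Cfsg.Agent.Lib.BlockSecond.centralizer_zpowers_eq, Subgroup.mem_centralizer_singleton_iff]
    have e1 : y * z = z₁ * y := by rw [← hy1]; group
    have e2 : y' * z = z₁ * y' := by rw [← hy1']; group
    have e3 : z * y'⁻¹ = y'⁻¹ * z₁ := by
      rw [eq_inv_mul_iff_mul_eq, ← mul_assoc, e2]
      group
    calc y'⁻¹ * y * z = y'⁻¹ * (y * z) := by group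
      _ = y'⁻¹ * (z₁ * y) := by rw [e1]
      _ = (y'⁻¹ * z₁) * y := by group
      _ = (z * y'⁻¹) * y := by rw [e3]
      _ = z * (y'⁻¹ * y) := by group
  have hyN := mem_normalizer_of_mem_centralizer hyC
  have hst := stabilizes_of_mem_centralizer hyC F
  rw [cp_of_normalizer hyN (normalizer_le_normalizer_centralizer _ hyN),
    twistSet_eq_of_stabilizes hind.1 hst] at h1
  have := eq_of_heq (Sigma.mk.inj_iff.mp h1).2
  exact this.symm

/-- **The row of the block in the transitive case.** -/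
theorem klRow (htrans : ∀ w ∈ PS P, ∀ w' ∈ PS P, ∃ t ∈ 𝐍[P], StabilizesBlock 𝐂[P] e t ∧ t * w * t⁻¹ = w') :
    ∃ n₀, KlRow M B n₀ := by
  classical
  haveI : Fact (Nat.Prime 2) := ⟨Nat.prime_two⟩
  haveI := isPrime_of_isPModular hM
  have hB := hmax.1.2.1
  obtain ⟨z₁, hz₁⟩ := exists_mem_PS hV
  obtain ⟨hz₁P, hz₁1⟩ := mem_PS.mp hz₁
  have hz₁o := order_of_mem hV hz₁P hz₁1
  have hz₁k : ∃ k : ℕ, orderOf z₁ = 2 ^ k := ⟨1, by rw [hz₁o, pow_one]⟩
  obtain ⟨f₁, hf₁, hle₁, hd₁, hind₁, θ₁, hθ₁, hreg₁⟩ := exists_local hV hM hmax hz₁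
  obtain ⟨n₀, hn₀1, hn₀1', hn₀3⟩ := sec_row hV hM hmax hz₁k hz₁1 hind₁
  have hH₁ := Cfsg.Agent.Lib.BlockSecond.centralizer_zpowers_eq z₁
  have h1reg : ∀ z : G, ¬ 2 ∣ orderOf (1 : 𝐂[Subgroup.zpowers z]) := fun z => by simp
  -- the value at an element
  have hval : ∀ z : G, ∀ F : Set (IrrCharacter 𝐂[Subgroup.zpowers z]),
      (∃ k : ℕ, orderOf z = 2 ^ k) → z ≠ 1 → IsInducedBlock M 𝐂[Subgroup.zpowers z] F B →
      ∀ (θ : IrrCharacter 𝐂[Subgroup.zpowers z]) (n : IrrCharacter G → ℤ),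
      (∀ ξ ∈ F, ∀ s : 𝐂[Subgroup.zpowers z], ¬ 2 ∣ orderOf s →
        (ξ : 𝐂[Subgroup.zpowers z] → ℂ) s = (θ : 𝐂[Subgroup.zpowers z] → ℂ) s) →
      (∀ χ, cc (Cfsg.Agent.Lib.BlockSecond.centralizer_zpowers_eq z) F χ = n χ) →
      ∀ χ ∈ B, ∀ s : 𝐂[Subgroup.zpowers z], ¬ 2 ∣ orderOf s →
        (χ : G → ℂ) (z * (s : G)) = (n χ : ℂ) * (θ : 𝐂[Subgroup.zpowers z] → ℂ) s := by
    intro z F hzk hz1 hind θ n hreg hn χ hχ s hs
    rw [mul_eq_th_of_unique hM hzk (Cfsg.Agent.Lib.BlockSecond.centralizer_zpowers_eq z)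
      (fun F' hF' => uniq_of_trans hV hM hmax htrans hz₁ hle₁ z F F' hzk hz1 hind hF') hχ hs hB hind.1,
      th_eq_cc _ hreg χ hs, hn]
  refine ⟨n₀, hn₀1', hn₀3, ?_⟩
  intro x hx
  obtain ⟨u, hu⟩ := exists_isPPart Nat.prime_two x
  have hu1 : u ≠ 1 := fun h => ((pPart_regular_iff Nat.prime_two hu).mpr h) hx
  obtain ⟨y, hxy, hc, hk, hyreg⟩ := hu
  have hH := Cfsg.Agent.Lib.BlockSecond.centralizer_zpowers_eq u
  set s : 𝐂[Subgroup.zpowers u] := ⟨y, mem_of_commute hH hc⟩ with hs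
  have hsreg : ¬ 2 ∣ orderOf s := by
    rw [← Subgroup.orderOf_coe]
    exact hyreg
  have hxs : x = u * (s : G) := hxy.symm
  subst hxs
  by_cases hex : ∃ F : Set (IrrCharacter 𝐂[Subgroup.zpowers u]), IsInducedBlock M 𝐂[Subgroup.zpowers u] F B
  · obtain ⟨F, hF⟩ := hex
    obtain ⟨hd, -, θ, hθ, hreg⟩ := sec_local hV hM hmax hk hu1 hF
    obtain ⟨n, hn1, hn2, hn3⟩ := sec_row hV hM hmax hk hu1 hF
    refine ⟨(θ : 𝐂[Subgroup.zpowers u] → ℂ) s, isIntegral_irr _ _,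
      sec_val hV hM hmax hk hu1 hF hθ hsreg, fun χ hχ => ?_⟩
    rw [hval u F hk hu1 hF θ n hreg hn1 χ hχ s hsreg]
    congr 1
    -- comparison of the rows
    obtain ⟨w, hw1, -⟩ := conj_base hV hM hmax htrans hz₁ hle₁ u F hk hu1 hF
    have e1 := hval u F hk hu1 hF θ n hreg hn1 χ hχ 1 (h1reg u)
    have e2 := hval z₁ f₁ hz₁k hz₁1 hind₁ θ₁ n₀ hreg₁ hn₀1 χ hχ 1 (h1reg z₁)
    have e3 : (χ : G → ℂ) u = (χ : G → ℂ) z₁ := by
      rw [← hw1, char_apply_conj (IsIrrCharacter.isCharacter χ.2)]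
    simp only [OneMemClass.coe_one, mul_one] at e1 e2
    rw [e1, e2, Cfsg.Agent.Lib.CharKernel.one_eq_charDegree (IsIrrCharacter.isCharacter θ.2),
      Cfsg.Agent.Lib.CharKernel.one_eq_charDegree (IsIrrCharacter.isCharacter θ₁.2)] at e3
    have hd0 := Cfsg.Agent.Lib.CharKernel.charDegree_ne_zero θ.2
    have hd1 := Cfsg.Agent.Lib.CharKernel.charDegree_ne_zero θ₁.2
    have e4 : n χ * (charDegree (θ : 𝐂[Subgroup.zpowers u] → ℂ) : ℤ) =
        n₀ χ * (charDegree (θ₁ : 𝐂[Subgroup.zpowers z₁] → ℂ) : ℤ) := by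
      exact_mod_cast e3
    rcases hn2 χ hχ with h1 | h1 <;> rcases hn₀1' χ hχ with h2 | h2 <;> rw [h1, h2] at e4 ⊢ <;> first | rfl | omega
  · refine ⟨0, isIntegral_zero, by simpa using memLocalRing_zero, fun χ hχ => ?_⟩
    rw [mul_zero, mul_eq_sum hM hk hH hB hχ hsreg]
    refine Finset.sum_eq_zero fun F _ => ?_
    rw [if_neg fun h => hex ⟨F.1, h⟩]

/-- A nontrivial stabilizer is transitive. -/
theorem trans_of_not_triv (hnt : ¬ ∀ t ∈ 𝐍[P], StabilizesBlock 𝐂[P] e t → t ∈ 𝐂[P]) :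
    ∀ w ∈ PS P, ∀ w' ∈ PS P, ∃ t ∈ 𝐍[P], StabilizesBlock 𝐂[P] e t ∧ t * w * t⁻¹ = w' := by
  classical
  haveI : Fact (Nat.Prime 2) := ⟨Nat.prime_two⟩
  haveI := isPrime_of_isPModular hM
  let T : Subgroup G := 𝐍[P] ⊓ stabSub 𝐂[P] e hmax.1.1.2
  have hT : ∀ g : G, g ∈ T ↔ (g ∈ 𝐍[P] ∧ StabilizesBlock 𝐂[P] e g) := fun g => Iff.rfl
  obtain ⟨hPT, hCT, hTN⟩ := stab_facts hT
  have hodd : ¬ 2 ∣ ((theta hTN).ker).index := by
    have h1 := not_dvd_index_stab hM hmax hmax.1.1.2 Relation.ReflTransGen.refl hT hTN (fun y _ => by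
      have h2 : P ⊓ 𝐍[P] = P := inf_eq_left.mpr Subgroup.le_normalizer
      rw [h2]
      exact Subgroup.card_le_of_le inf_le_left)
    have h3 : (P ⊓ 𝐍[P]).subgroupOf T ≤ (theta hTN).ker := by
      intro t ht
      rw [mem_ker_theta]
      have ht' : (t : G) ∈ P := (Subgroup.mem_subgroupOf.mp ht).1
      rw [Subgroup.mem_centralizer_iff]
      intro q hq
      exact comm_of_mem hV hq ht'
    rwa [sup_eq_right.mpr h3] at h1
  have hdvd : ((theta hTN).ker).index ∣ 6 := index_dvd_six hV hTN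
  obtain ⟨t₀, ht₀1, ht₀2, ht₀3⟩ : ∃ t ∈ 𝐍[P], StabilizesBlock 𝐂[P] e t ∧ t ∉ 𝐂[P] := by
    by_contra hcon
    apply hnt
    intro t ht1 ht2
    by_contra h3
    exact hcon ⟨t, ht1, ht2, h3⟩
  have ht₀T : t₀ ∈ T := (hT t₀).2 ⟨ht₀1, ht₀2⟩
  have hne : (theta hTN).ker ≠ ⊤ := by
    intro h
    have h3 : (⟨t₀, ht₀T⟩ : T) ∈ (theta hTN).ker := by
      rw [h]
      exact Subgroup.mem_top _
    exact ht₀3 ((mem_ker_theta hTN _).mp h3)
  have hidx : ((theta hTN).ker).index = 3 := by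
    have h1 : ((theta hTN).ker).index ≠ 1 := fun h => hne (Subgroup.index_eq_one.mp h)
    have h2 : ((theta hTN).ker).index ≤ 6 := Nat.le_of_dvd (by norm_num) hdvd
    generalize ((theta hTN).ker).index = n at *
    interval_cases n <;> simp_all (config := { decide := true })
  have ht3 : (⟨t₀, ht₀T⟩ : T) ^ 3 ∈ (theta hTN).ker := by
    have := Subgroup.pow_index_mem (theta hTN).ker (⟨t₀, ht₀T⟩ : T)
    rwa [hidx] at this
  have ht3' : t₀ ^ 3 ∈ 𝐂[P] := by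
    have := (mem_ker_theta hTN _).mp ht3
    simpa using this
  intro w hw w' hw'
  obtain ⟨s, hs1, hs2⟩ := exists_conj_of_three hV hTN ht₀T ht₀3 ht3' hw hw'
  obtain ⟨h3, h4⟩ := (hT s).1 hs1
  exact ⟨s, h3, h4, hs2⟩

end Sec

end Cfsg.Agent.Lib.KlSide
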