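import Mathlib
import Cfsg.Agent.Lib.SL2Four
import Cfsg.Agent.Lib.KleinGroup
import Cfsg.Agent.Lib.OrthSiegel2

set_option autoImplicit false
set_option linter.unusedSectionVars false
set_option linter.unusedSimpArgs false
set_option linter.unusedVariables false

/-!
# Anticommuting pairs in `SL₂(q)`, `q` odd, and Klein four-subgroups of `PSL₂(q)`
-/

namespace Cfsg.Agent.Lib.SL2Klein

open Cfsg.Agent.Lib.SL2Core Cfsg.Agent.Lib.SL2Inv Cfsg.Agent.Lib.SL2Four Cfsg.Agent.Lib.KleinGroup Cfsg.Agent.Lib.SubCount Matrix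

variable {F : Type*} [Field F]

/-- Anticommuting pairs of elements with square `-1`. -/
def AC (X Y : SL2 F) : Prop := X * X = negS 1 ∧ Y * Y = negS 1 ∧ X * Y = negS (Y * X)

theorem AC.conj {X Y : SL2 F} (h : AC X Y) (U : SL2 F) : AC (U * X * U⁻¹) (U * Y * U⁻¹) := by
  refine ⟨sq_conj h.1 U, sq_conj h.2.1 U, ?_⟩
  have e1 : (U * X * U⁻¹) * (U * Y * U⁻¹) = U * (X * Y) * U⁻¹ := by group
  have e2 : (U * Y * U⁻¹) * (U * X * U⁻¹) = U * (Y * X) * U⁻¹ := by group
  rw [e1, e2, h.2.2, conj_negS]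

theorem negS_ne_self (h2 : (2 : F) ≠ 0) {X : SL2 F} (hX : X * X = negS 1) : negS X ≠ X := by
  have hne := negS_one_ne_one h2
  intro h
  have h1 := congrArg (fun x => x * X) h
  simp only [negS_mul, hX, negS_negS] at h1
  exact hne h1.symm

theorem tr_zero_sq {a b c : F} (h : a * (-a) - b * c = 1) : (mk2 a b c (-a) h) * (mk2 a b c (-a) h) = negS 1 := by
  apply Subtype.ext
  have hc := cayley (mk2 a b c (-a) h)
  have ht : tr (mk2 a b c (-a) h) = 0 := by
    rw [tr_eq, mk00, mk11]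
    ring
  rw [ht] at hc
  show ((mk2 a b c (-a) h) : Matrix (Fin 2) (Fin 2) F) * ((mk2 a b c (-a) h) : Matrix (Fin 2) (Fin 2) F) = - ((1 : SL2 F) : Matrix (Fin 2) (Fin 2) F)
  rw [hc]
  simp

variable [Fintype F]

/-- Every element of square `-1` has an anticommuting partner. -/
theorem exists_partner (h2 : (2 : F) ≠ 0) {X : SL2 F} (hX : X * X = negS 1) : ∃ Y, AC X Y := by
  obtain ⟨a, b, hab⟩ := Cfsg.Agent.Lib.OrthSiegel2.exists_sum_eq h2 (one_ne_zero (α := F)) (one_ne_zero (α := F)) (-1)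
  simp only [mul_one] at hab
  have hdet : a * (-a) - b * b = 1 := by linear_combination -hab
  let Y₀ : SL2 F := mk2 a b b (-a) hdet
  have h1 : AC w₀ Y₀ := by
    refine ⟨w₀_sq, tr_zero_sq hdet, ?_⟩
    apply Subtype.ext
    show ((w₀ : SL2 F) : Matrix (Fin 2) (Fin 2) F) * (Y₀ : Matrix (Fin 2) (Fin 2) F) = - ((Y₀ : Matrix (Fin 2) (Fin 2) F) * ((w₀ : SL2 F) : Matrix (Fin 2) (Fin 2) F))
    rw [w₀_coe, mk2_coe]
    ext i j
    fin_cases i <;> fin_cases j <;> simp [Matrix.mul_apply, Fin.sum_univ_two]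
  obtain ⟨U, hU⟩ := conj_of_sq h2 w₀ X w₀_sq hX
  refine ⟨U * Y₀ * U⁻¹, ?_⟩
  have := h1.conj U
  rwa [hU] at this

omit [Fintype F] in
theorem sq_of_tr_zero {Z : SL2 F} (h : tr Z = 0) : Z * Z = negS 1 := by
  apply Subtype.ext
  have hc := cayley Z
  rw [h] at hc
  show (Z : Matrix (Fin 2) (Fin 2) F) * (Z : Matrix (Fin 2) (Fin 2) F) = - ((1 : SL2 F) : Matrix (Fin 2) (Fin 2) F)
  rw [hc]
  simp

omit [Fintype F] in
/-- An element anticommuting with an invertible one has square `-1`. -/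
theorem sq_of_anti (h2 : (2 : F) ≠ 0) {X Z : SL2 F} (h : X * Z = negS (Z * X)) : Z * Z = negS 1 := by
  apply sq_of_tr_zero
  have h1 : X * Z * X⁻¹ = negS Z := by
    rw [h, ← negS_mul, mul_assoc, mul_inv_cancel, mul_one]
  have h3 := tr_conj X Z
  rw [h1, tr_negS] at h3
  have : 2 * tr Z = 0 := by linear_combination -h3
  exact (mul_eq_zero.mp this).resolve_left h2

omit [Fintype F] in
theorem comm_of_conj {u X : SL2 F} (hu : u * X * u⁻¹ = X) : u * X = X * u := by
  calc u * X = (u * X * u⁻¹) * u := by group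
    _ = X * u := by rw [hu]

/-- The partners of `X` form a torsor under the centralizer of `X`. -/
theorem card_partners (h2 : (2 : F) ≠ 0) {X : SL2 F} (hX : X * X = negS 1) :
    Nat.card {Y : SL2 F // AC X Y} = Nat.card {u : SL2 F // u * X * u⁻¹ = X} := by
  obtain ⟨Y₀, hY₀⟩ := exists_partner h2 hX
  have hY₀X : Y₀ * X = negS (X * Y₀) := by
    rw [hY₀.2.2, negS_negS]
  symm
  apply Nat.card_congr
  refine ⟨fun u => ⟨u.1 * Y₀, ?_⟩, fun Y => ⟨Y.1 * Y₀⁻¹, ?_⟩, ?_, ?_⟩
  · have hu := comm_of_conj u.2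
    have hanti : X * (u.1 * Y₀) = negS (u.1 * Y₀ * X) := by
      rw [← mul_assoc, ← hu, mul_assoc, hY₀.2.2, mul_assoc, mul_negS]
    exact ⟨hX, sq_of_anti h2 hanti, hanti⟩
  · -- `Y Y₀⁻¹` commutes with `X`
    have h3 : X * Y₀⁻¹ = negS (Y₀⁻¹ * X) := by
      have e : Y₀⁻¹ * (Y₀ * X) * Y₀⁻¹ = Y₀⁻¹ * negS (X * Y₀) * Y₀⁻¹ := by rw [hY₀X]
      simp only [inv_mul_cancel_left] at e
      rw [mul_negS, negS_mul] at e
      have e' : Y₀⁻¹ * (X * Y₀) * Y₀⁻¹ = Y₀⁻¹ * X := by group
      rw [e'] at e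
      exact e
    have h4 : X * (Y.1 * Y₀⁻¹) = Y.1 * Y₀⁻¹ * X := by
      rw [← mul_assoc, Y.2.2.2, negS_mul, mul_assoc, h3, mul_negS, negS_negS, mul_assoc]
    rw [← h4, mul_assoc, mul_inv_cancel, mul_one]
  · intro u
    apply Subtype.ext
    simp
  · intro Y
    apply Subtype.ext
    simp

/-- The number of anticommuting pairs is `|SL₂|`. -/
theorem card_AC (h2 : (2 : F) ≠ 0) : Nat.card {p : SL2 F × SL2 F // AC p.1 p.2} = Nat.card (SL2 F) := by
  classical
  let α := {x : SL2 F // x * x = negS 1}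
  have e : {p : SL2 F × SL2 F // AC p.1 p.2} ≃ Σ x : α, {Y : SL2 F // AC x.1 Y} :=
    { toFun := fun p => ⟨⟨p.1.1, p.2.1⟩, ⟨p.1.2, p.2⟩⟩
      invFun := fun s => ⟨(s.1.1, s.2.1), s.2.2⟩
      left_inv := fun p => rfl
      right_inv := fun s => rfl }
  rw [Nat.card_congr e, Nat.card_sigma]
  have hcard : ∀ x : α, Nat.card {Y : SL2 F // AC x.1 Y} * Nat.card α = Nat.card (SL2 F) := by
    intro x
    rw [card_partners h2 x.2, mul_comm]
    exact (card_eq_mul h2 x.2).symm
  have hne : Nonempty α := ⟨⟨w₀, w₀_sq⟩⟩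
  have hpos : 0 < Nat.card α := Nat.card_pos
  have hconst : ∀ x : α, Nat.card {Y : SL2 F // AC x.1 Y} = Nat.card (SL2 F) / Nat.card α := by
    intro x
    rw [← hcard x, Nat.mul_div_cancel _ hpos]
  simp only [hconst, Finset.sum_const, Finset.card_univ, smul_eq_mul]
  obtain ⟨x₀⟩ := hne
  rw [Nat.card_eq_fintype_card (α := α) ] at *
  rw [Nat.mul_div_cancel']
  exact ⟨_, by rw [← hcard x₀, mul_comm]⟩

omit [Fintype F] in
theorem isPair_of_AC (h2 : (2 : F) ≠ 0) {X Y : SL2 F} (h : AC X Y) : IsPair (proj X) (proj Y) := by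
  have hne := negS_one_ne_one h2
  have hord : ∀ Z : SL2 F, Z * Z = negS 1 → orderOf (proj Z) = 2 := by
    intro Z hZ
    apply order_of_sq
    · rw [← map_mul, hZ, proj_negS, map_one]
    · intro h1
      rw [proj_eq_one_iff] at h1
      rcases center_eq _ h1 with h3 | h3
      · rw [h3, one_mul] at hZ
        exact hne hZ.symm
      · rw [h3, negS_mul, mul_negS, negS_negS, one_mul] at hZ
        exact hne hZ.symm
  refine ⟨hord X h.1, hord Y h.2.1, ?_, ?_⟩
  · intro he
    rw [proj_eq_proj_iff'] at he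
    rcases he with rfl | rfl
    · have h3 := h.2.2
      rw [h.1, negS_negS] at h3
      exact hne h3
    · have h3 := h.2.2
      rw [mul_negS, negS_mul, negS_negS, h.1, negS_negS] at h3
      exact hne h3.symm
  · rw [← map_mul, ← map_mul, h.2.2, proj_negS]

/-- Lifts of a pair anticommute. -/
theorem AC_of_isPair (h2 : (2 : F) ≠ 0) {X Y : SL2 F} (hX : X * X = negS 1) (hY : Y * Y = negS 1)
    (hP : IsPair (proj X) (proj Y)) : AC X Y := by
  refine ⟨hX, hY, ?_⟩
  have h1 : proj (X * Y) = proj (Y * X) := by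
    rw [map_mul, map_mul, hP.2.2.2]
  rw [proj_eq_proj_iff'] at h1
  rcases h1 with h1 | h1
  · exfalso
    have h3 : (X * Y) * (X * Y) = 1 := by
      calc (X * Y) * (X * Y) = X * (Y * X) * Y := by group
        _ = (X * X) * (Y * Y) := by rw [h1]; group
        _ = 1 := by rw [hX, hY, negS_mul, mul_negS, negS_negS, one_mul]
    have h4 : proj (X * Y) = 1 := by
      rcases mul_self_eq_one h2 _ h3 with h | h
      · rw [h, map_one]
      · rw [h, proj_negS, map_one]
    apply hP.2.2.1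
    have h5 := sq_of_order hP.1
    rw [map_mul] at h4
    calc proj X = proj X * (proj X * proj Y) := by rw [h4, mul_one]
      _ = proj Y := by rw [← mul_assoc, h5, one_mul]
  · rw [h1, negS_negS]

/-- `|P| = 4 |D|`. -/
theorem card_AC_eq (h2 : (2 : F) ≠ 0) :
    Nat.card {p : SL2 F × SL2 F // AC p.1 p.2} = Nat.card {p : PSL2 F × PSL2 F // IsPair p.1 p.2} * 4 := by
  classical
  have hdc := double_count (α := {p : SL2 F × SL2 F // AC p.1 p.2}) (β := {p : PSL2 F × PSL2 F // IsPair p.1 p.2})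
    (fun p d => proj p.1.1 = d.1.1 ∧ proj p.1.2 = d.1.2) 1 4 ?_ ?_
  · rwa [mul_one] at hdc
  · rintro ⟨⟨X, Y⟩, hAC⟩
    rw [Nat.card_eq_one_iff_unique]
    refine ⟨⟨?_⟩, ⟨⟨⟨(proj X, proj Y), isPair_of_AC h2 hAC⟩, rfl, rfl⟩⟩⟩
    rintro ⟨⟨⟨a, b⟩, h3⟩, h4, h5⟩ ⟨⟨⟨c, d⟩, h6⟩, h7, h8⟩
    apply Subtype.ext
    apply Subtype.ext
    exact Prod.ext (h4.symm.trans h7) (h5.symm.trans h8)
  · rintro ⟨⟨x, y⟩, hP⟩
    obtain ⟨X, rfl, hX⟩ := lift_involution h2 x hP.1
    obtain ⟨Y, rfl, hY⟩ := lift_involution h2 y hP.2.1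
    have hAC := AC_of_isPair h2 hX hY hP
    let S : Finset (SL2 F × SL2 F) := ({X, negS X} : Finset (SL2 F)) ×ˢ ({Y, negS Y} : Finset (SL2 F))
    have hS : S.card = 4 := by
      rw [Finset.card_product, Finset.card_pair (negS_ne_self h2 hX).symm, Finset.card_pair (negS_ne_self h2 hY).symm]
    rw [← hS, ← Nat.subtype_card (p := fun p : SL2 F × SL2 F => p ∈ S) S (fun _ => Iff.rfl)]
    apply Nat.card_congr
    refine ⟨fun p => ⟨p.1.1, ?_⟩, fun p => ⟨⟨p.1, ?_⟩, ?_, ?_⟩, fun p => rfl, fun p => rfl⟩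
    · have h3 := p.2.1
      have h4 := p.2.2
      simp only [proj_eq_proj_iff'] at h3 h4
      simp only [S, Finset.mem_product, Finset.mem_insert, Finset.mem_singleton]
      refine ⟨?_, ?_⟩
      · rcases h3 with h3 | h3
        · exact Or.inl h3.symm
        · right
          have h5 := congrArg negS h3
          rw [negS_negS] at h5
          exact h5.symm
      · rcases h4 with h4 | h4
        · exact Or.inl h4.symm
        · right
          have h5 := congrArg negS h4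
          rw [negS_negS] at h5
          exact h5.symm
    · have h3 := p.2
      simp only [S, Finset.mem_product, Finset.mem_insert, Finset.mem_singleton] at h3
      obtain ⟨⟨a, b⟩, hab⟩ := p
      simp only at h3 ⊢
      rcases h3.1 with rfl | rfl <;> rcases h3.2 with rfl | rfl
      · exact hAC
      · refine ⟨hAC.1, ?_, ?_⟩
        · rw [negS_mul, mul_negS, negS_negS]; exact hAC.2.1
        · rw [mul_negS, negS_mul, hAC.2.2]
      · refine ⟨?_, hAC.2.1, ?_⟩
        · rw [negS_mul, mul_negS, negS_negS]; exact hAC.1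
        · rw [mul_negS, negS_mul, hAC.2.2]
      · refine ⟨?_, ?_, ?_⟩
        · rw [negS_mul, mul_negS, negS_negS]; exact hAC.1
        · rw [negS_mul, mul_negS, negS_negS]; exact hAC.2.1
        · rw [negS_mul, mul_negS, negS_negS, negS_mul, mul_negS, negS_negS, hAC.2.2]
    · have h3 := p.2
      simp only [S, Finset.mem_product, Finset.mem_insert, Finset.mem_singleton] at h3
      rcases h3.1 with h | h
      · show proj p.1.1 = proj X
        rw [h]
      · show proj p.1.1 = proj X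
        rw [h, proj_negS]
    · have h3 := p.2
      simp only [S, Finset.mem_product, Finset.mem_insert, Finset.mem_singleton] at h3
      rcases h3.2 with h | h
      · show proj p.1.2 = proj Y
        rw [h]
      · show proj p.1.2 = proj Y
        rw [h, proj_negS]

end Cfsg.Agent.Lib.SL2Klein
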