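import Mathlib
import Cfsg.Agent.Lib.SL2Klein

set_option autoImplicit false
set_option linter.unusedSectionVars false
set_option linter.unusedSimpArgs false
set_option linter.unusedVariables false

/-!
# Conjugacy of anticommuting pairs in `SL₂(q)`, `q` odd
-/

namespace Cfsg.Agent.Lib.KleinClasses

open Cfsg.Agent.Lib.SL2Core Cfsg.Agent.Lib.SL2Inv Cfsg.Agent.Lib.SL2Four Cfsg.Agent.Lib.KleinGroup Cfsg.Agent.Lib.SL2Klein Matrix

variable {F : Type*} [Field F]

local notation "Mat" => Matrix (Fin 2) (Fin 2) F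

theorem tz_anti (A B : Mat) (hA : A.trace = 0) (hB : B.trace = 0) :
    A * B + B * A = (A * B).trace • (1 : Mat) := by
  rw [trace_fin_two] at hA hB
  have h1 : A 1 1 = - A 0 0 := by linear_combination hA
  have h2 : B 1 1 = - B 0 0 := by linear_combination hB
  ext i j
  fin_cases i <;> fin_cases j <;>
    simp [Matrix.mul_apply, Fin.sum_univ_two, trace_fin_two, h1, h2] <;> ring

theorem tz_sq (A : Mat) (hA : A.trace = 0) : A * A = (-A.det) • (1 : Mat) := by
  rw [trace_fin_two] at hA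
  have h1 : A 1 1 = - A 0 0 := by linear_combination hA
  ext i j
  fin_cases i <;> fin_cases j <;>
    simp [Matrix.mul_apply, Fin.sum_univ_two, det_fin_two, h1] <;> ring

theorem coe_mul (X Y : SL2 F) : ((X * Y : SL2 F) : Mat) = (X : Mat) * (Y : Mat) := rfl

theorem coe_sq {X : SL2 F} (h : X * X = negS 1) : (X : Mat) * (X : Mat) = -1 := by
  have h1 : ((X * X : SL2 F) : Mat) = ((negS 1 : SL2 F) : Mat) := by rw [h]
  exact h1

theorem coe_anti {X Y : SL2 F} (h : X * Y = negS (Y * X)) : (X : Mat) * (Y : Mat) = -((Y : Mat) * (X : Mat)) := by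
  have h1 : ((X * Y : SL2 F) : Mat) = ((negS (Y * X) : SL2 F) : Mat) := by rw [h]
  exact h1

theorem coe_trace {X : SL2 F} (h : X * X = negS 1) : (X : Mat).trace = 0 := tr_of_sq X h

theorem coe_det (X : SL2 F) : (X : Mat).det = 1 := X.2

/-- A trace-zero matrix commuting with `X`, `X² = -1`, is a multiple of `X`. -/
theorem tz_comm_eq (h2 : (2 : F) ≠ 0) {X : SL2 F} (hX : X * X = negS 1) {M : Mat} (hM : M.trace = 0)
    (hc : M * X = X * M) : ∃ μ : F, M = μ • (X : Mat) := by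
  have h1 := tz_anti M X hM (coe_trace hX)
  rw [← hc] at h1
  set t := (M * (X : Mat)).trace with ht
  refine ⟨-t / 2, ?_⟩
  have h3 : (M * (X : Mat) + M * X) * X = (t • (1 : Mat)) * X := by rw [h1]
  rw [add_mul, Matrix.mul_assoc, coe_sq hX, Matrix.smul_mul, Matrix.one_mul] at h3
  have h4 : (2 : F) • M = (-t) • (X : Mat) := by
    rw [neg_smul, ← h3, two_smul]
    simp
  calc M = (2 : F)⁻¹ • ((2 : F) • M) := by rw [smul_smul, inv_mul_cancel₀ h2, one_smul]
    _ = (2 : F)⁻¹ • ((-t) • (X : Mat)) := by rw [h4]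
    _ = (-t / 2) • (X : Mat) := by
      rw [smul_smul]
      congr 1
      field_simp

/-- A matrix commuting with an anticommuting pair is scalar. -/
theorem scalar_of_comm (h2 : (2 : F) ≠ 0) {X Y : SL2 F} (h : AC X Y) {C : Mat}
    (hX : C * X = X * C) (hY : C * Y = Y * C) : ∃ l : F, C = l • (1 : Mat) := by
  set C₀ : Mat := C - (C.trace / 2) • (1 : Mat) with hC₀
  have ht : C₀.trace = 0 := by
    rw [hC₀, trace_sub, trace_smul, trace_one, Fintype.card_fin]
    simp only [smul_eq_mul, Nat.cast_ofNat]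
    field_simp
    ring
  have hcX : C₀ * X = X * C₀ := by
    rw [hC₀, sub_mul, mul_sub, hX, Matrix.smul_mul, Matrix.mul_smul, Matrix.one_mul, Matrix.mul_one]
  have hcY : C₀ * Y = Y * C₀ := by
    rw [hC₀, sub_mul, mul_sub, hY, Matrix.smul_mul, Matrix.mul_smul, Matrix.one_mul, Matrix.mul_one]
  obtain ⟨μ, hμ⟩ := tz_comm_eq h2 h.1 ht hcX
  obtain ⟨ν, hν⟩ := tz_comm_eq h2 h.2.1 ht hcY
  have e1 : μ • ((X : Mat) * Y) = ν • ((Y : Mat) * Y) := by
    rw [← Matrix.smul_mul, ← Matrix.smul_mul, ← hμ, ← hν]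
  have e2 : μ • ((Y : Mat) * X) = ν • ((Y : Mat) * Y) := by
    rw [← Matrix.mul_smul, ← Matrix.mul_smul, ← hμ, ← hν]
  have e3 : (μ + μ) • ((X : Mat) * Y) = 0 := by
    rw [add_smul]
    nth_rw 2 [coe_anti h.2.2]
    rw [smul_neg, e2, e1]
    simp
  have e4 := congrArg Matrix.det e3
  rw [det_smul, det_mul, coe_det, coe_det, Fintype.card_fin, det_zero] at e4
  have hμ0 : μ = 0 := by
    have : (2 * μ) ^ 2 = 0 := by linear_combination e4
    have := pow_eq_zero_iff (two_ne_zero) |>.mp this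
    exact (mul_eq_zero.mp this).resolve_left h2
  have hC0 : C₀ = 0 := by rw [hμ, hμ0, zero_smul]
  exact ⟨C.trace / 2, by rw [hC₀, sub_eq_zero] at hC0; exact hC0⟩

theorem det_one_add (C : Mat) (h : C.det = 1) : (1 + C).det = (1 + C).trace := by
  rw [det_fin_two] at h
  rw [det_fin_two, trace_fin_two]
  simp
  linear_combination h

/-- Intertwiner for pairs with the same first member. -/
theorem exists_intertwiner_same (h2 : (2 : F) ≠ 0) {X Y Y' : SL2 F} (h : AC X Y) (h' : AC X Y') :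
    ∃ G : Mat, G.det ≠ 0 ∧ G * X = X * G ∧ G * Y = Y' * G := by
  have hXX := coe_sq h.1
  have hYY := coe_sq h.2.1
  have hYY' := coe_sq h'.2.1
  have hXY := coe_anti h.2.2
  have hXY' := coe_anti h'.2.2
  set M : Mat := 1 - (Y' : Mat) * (Y : Mat) with hM
  have hc : (X : Mat) * ((Y' : Mat) * (Y : Mat)) = ((Y' : Mat) * (Y : Mat)) * (X : Mat) := by
    calc (X : Mat) * ((Y' : Mat) * (Y : Mat)) = ((X : Mat) * (Y' : Mat)) * (Y : Mat) := by rw [Matrix.mul_assoc]
      _ = -((Y' : Mat) * (X : Mat)) * (Y : Mat) := by rw [hXY']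
      _ = -((Y' : Mat) * ((X : Mat) * (Y : Mat))) := by rw [neg_mul, Matrix.mul_assoc]
      _ = -((Y' : Mat) * -((Y : Mat) * (X : Mat))) := by rw [hXY]
      _ = ((Y' : Mat) * (Y : Mat)) * (X : Mat) := by rw [mul_neg, neg_neg, Matrix.mul_assoc]
  have hMX : M * (X : Mat) = (X : Mat) * M := by
    rw [hM, sub_mul, mul_sub, Matrix.one_mul, Matrix.mul_one, hc]
  have hMY : M * (Y : Mat) = (Y' : Mat) * M := by
    rw [hM, sub_mul, mul_sub, Matrix.one_mul, Matrix.mul_one, Matrix.mul_assoc, hYY, ← Matrix.mul_assoc, hYY']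
    simp [add_comm]
  by_cases hdet : M.det = 0
  · -- `M` has trace zero
    have htr : M.trace = 0 := by
      have e := det_one_add (-((Y' : Mat) * (Y : Mat))) (by
        rw [det_neg, det_mul, coe_det, coe_det, Fintype.card_fin]; simp)
      rw [← sub_eq_add_neg, ← hM, hdet] at e
      exact e.symm
    obtain ⟨μ, hμ⟩ := tz_comm_eq h2 h.1 htr hMX
    have hμ0 : μ = 0 := by
      rw [hμ, det_smul, coe_det, Fintype.card_fin] at hdet
      simpa using hdet
    have hM0 : M = 0 := by rw [hμ, hμ0, zero_smul]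
    have e1 : (Y' : Mat) * (Y : Mat) = 1 := by
      rw [hM, sub_eq_zero] at hM0
      exact hM0.symm
    have e2 : (Y' : Mat) = -(Y : Mat) := by
      have e3 : ((Y' : Mat) * (Y : Mat)) * (Y : Mat) = Y := by rw [e1, Matrix.one_mul]
      rw [Matrix.mul_assoc, hYY] at e3
      simp at e3
      rw [← e3, neg_neg]
    refine ⟨X, by rw [coe_det]; exact one_ne_zero, rfl, ?_⟩
    rw [e2, hXY, neg_mul]
  · exact ⟨M, hdet, hMX, hMY⟩

variable [Fintype F]

/-- Intertwiner between two anticommuting pairs. -/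
theorem exists_intertwiner (h2 : (2 : F) ≠ 0) {X Y X' Y' : SL2 F} (h : AC X Y) (h' : AC X' Y') :
    ∃ G : Mat, G.det ≠ 0 ∧ G * X = X' * G ∧ G * Y = Y' * G := by
  obtain ⟨U, hU⟩ := conj_of_sq h2 X X' h.1 h'.1
  have h1 : AC X' (U * Y * U⁻¹) := by
    have := h.conj U
    rwa [hU] at this
  obtain ⟨G, hG, hG1, hG2⟩ := exists_intertwiner_same h2 h1 h'
  have hUX' : U * X = X' * U := by rw [← hU]; group
  have hUY' : U * Y = (U * Y * U⁻¹) * U := by group
  have hUX : (U : Mat) * X = X' * U := by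
    rw [← coe_mul, ← coe_mul, hUX']
  have hUY : (U : Mat) * Y = ((U * Y * U⁻¹ : SL2 F) : Mat) * U := by
    rw [← coe_mul, ← coe_mul, ← hUY']
  refine ⟨G * U, ?_, ?_, ?_⟩
  · rw [det_mul, coe_det, mul_one]
    exact hG
  · rw [Matrix.mul_assoc, hUX, ← Matrix.mul_assoc, hG1, Matrix.mul_assoc]
  · rw [Matrix.mul_assoc, hUY, ← Matrix.mul_assoc, hG2, Matrix.mul_assoc]

omit [Fintype F]

/-- Conjugacy in `SL₂` of anticommuting pairs. -/
def Orb (X Y A B : SL2 F) : Prop := ∃ U : SL2 F, U * X * U⁻¹ = A ∧ U * Y * U⁻¹ = B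

theorem Orb.refl (X Y : SL2 F) : Orb X Y X Y := ⟨1, by simp, by simp⟩

theorem Orb.trans {X Y A B C D : SL2 F} (h1 : Orb X Y A B) (h2 : Orb A B C D) : Orb X Y C D := by
  obtain ⟨U, rfl, rfl⟩ := h1
  obtain ⟨V, rfl, rfl⟩ := h2
  exact ⟨V * U, by group, by group⟩

theorem Orb.ac {X Y A B : SL2 F} (h1 : Orb X Y A B) (h : AC X Y) : AC A B := by
  obtain ⟨U, rfl, rfl⟩ := h1
  exact h.conj U

/-- Square-determinant intertwiners give conjugacy in `SL₂`. -/
theorem orb_of_intertwiner {X Y A B : SL2 F} {G : Mat} (hne : G.det ≠ 0) (hsq : IsSquare G.det)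
    (h1 : G * X = A * G) (h2 : G * Y = B * G) : Orb X Y A B := by
  obtain ⟨e, he⟩ := hsq
  have he0 : e ≠ 0 := by
    rintro rfl
    apply hne
    rw [he, mul_zero]
  let U : SL2 F := ⟨e⁻¹ • G, by
    rw [det_smul, Fintype.card_fin, he]
    field_simp⟩
  have key : ∀ Z W : SL2 F, G * Z = W * G → U * Z * U⁻¹ = W := by
    intro Z W hZ
    have : U * Z = W * U := by
      apply Subtype.ext
      show (e⁻¹ • G) * (Z : Mat) = (W : Mat) * (e⁻¹ • G)
      rw [Matrix.smul_mul, Matrix.mul_smul, hZ]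
    rw [this]
    group
  exact ⟨U, key _ _ h1, key _ _ h2⟩

/-- An intertwiner between conjugate pairs has square determinant. -/
theorem det_square_of_orb (h2 : (2 : F) ≠ 0) {X Y A B : SL2 F} {G : Mat} (h : AC X Y) (hO : Orb X Y A B)
    (h1 : G * X = A * G) (h3 : G * Y = B * G) : IsSquare G.det := by
  obtain ⟨U, rfl, rfl⟩ := hO
  have hinv : ((U⁻¹ : SL2 F) : Mat) * (U : Mat) = 1 := by
    rw [← coe_mul, inv_mul_cancel]
    rfl
  have key : ∀ Z : SL2 F, G * Z = ((U * Z * U⁻¹ : SL2 F) : Mat) * G →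
      (((U⁻¹ : SL2 F) : Mat) * G) * Z = Z * (((U⁻¹ : SL2 F) : Mat) * G) := by
    intro Z hZ
    have e0 : U⁻¹ * (U * Z * U⁻¹) = Z * U⁻¹ := by group
    rw [Matrix.mul_assoc, hZ, ← Matrix.mul_assoc, ← Matrix.mul_assoc, ← coe_mul, ← coe_mul, e0]
  obtain ⟨l, hl⟩ := scalar_of_comm h2 h (key _ h1) (key _ h3)
  have e : G = l • (U : Mat) := by
    have hinv2 : (U : Mat) * ((U⁻¹ : SL2 F) : Mat) = 1 := by
      rw [← coe_mul, mul_inv_cancel]
      rfl
    calc G = (U : Mat) * (((U⁻¹ : SL2 F) : Mat) * G) := by rw [← Matrix.mul_assoc, hinv2, Matrix.one_mul]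
      _ = l • (U : Mat) := by rw [hl, Matrix.mul_smul, Matrix.mul_one]
  rw [e, det_smul, coe_det, Fintype.card_fin]
  exact ⟨l, by ring⟩

theorem det_add_eq (h2 : (2 : F) ≠ 0) {A B : SL2 F} (h : AC A B) : ((A : Mat) + (B : Mat)).det = 2 := by
  have ht : ((A : Mat) + (B : Mat)).trace = 0 := by
    rw [trace_add, coe_trace h.1, coe_trace h.2.1, add_zero]
  have e := tz_sq _ ht
  have hAA := coe_sq h.1
  have hBB := coe_sq h.2.1
  have hAB := coe_anti h.2.2
  have e1 : ((A : Mat) + (B : Mat)) * ((A : Mat) + (B : Mat)) = (-2 : F) • (1 : Mat) := by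
    rw [add_mul, mul_add, mul_add, hAA, hBB, hAB]
    ext i j
    fin_cases i <;> fin_cases j <;> simp <;> ring
  rw [e1] at e
  have e2 := congrFun (congrFun e 0) 0
  simp at e2
  exact e2.symm

theorem det_one_add_eq {A : SL2 F} (h : A * A = negS 1) : ((1 : Mat) + (A : Mat)).det = 2 := by
  rw [det_one_add _ (coe_det A), trace_add, coe_trace h, trace_one, Fintype.card_fin]
  simp

/-- The swap move, if `2` is a square. -/
theorem orb_swap (h2 : (2 : F) ≠ 0) (hs : IsSquare (2 : F)) {A B : SL2 F} (h : AC A B) : Orb A B B A := by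
  have hAA := coe_sq h.1
  have hBB := coe_sq h.2.1
  apply orb_of_intertwiner (G := (A : Mat) + (B : Mat))
  · rw [det_add_eq h2 h]; exact h2
  · rw [det_add_eq h2 h]; exact hs
  · rw [add_mul, mul_add, hAA, hBB, add_comm]
  · rw [add_mul, mul_add, hAA, hBB, add_comm]

/-- The move `(A,B) ↦ (A,AB)`, if `2` is a square. -/
theorem orb_mul (h2 : (2 : F) ≠ 0) (hs : IsSquare (2 : F)) {A B : SL2 F} (h : AC A B) : Orb A B A (A * B) := by
  have hAA := coe_sq h.1
  have hBB := coe_sq h.2.1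
  have hAB := coe_anti h.2.2
  apply orb_of_intertwiner (G := (1 : Mat) + (A : Mat))
  · rw [det_one_add_eq h.1]; exact h2
  · rw [det_one_add_eq h.1]; exact hs
  · rw [add_mul, mul_add, Matrix.one_mul, Matrix.mul_one]
  · have e : (A : Mat) * (B : Mat) * (A : Mat) = B := by
      rw [hAB, neg_mul, Matrix.mul_assoc, hAA]
      simp
    rw [coe_mul, add_mul, mul_add, Matrix.one_mul, Matrix.mul_one, e, add_comm]

theorem orb_neg_left {A B : SL2 F} (h : AC A B) : Orb A B (negS A) B := by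
  refine ⟨B, ?_, by group⟩
  have e : B * A = negS (A * B) := by rw [h.2.2, negS_negS]
  rw [e, ← negS_mul, mul_assoc, mul_inv_cancel, mul_one]

theorem orb_neg_right {A B : SL2 F} (h : AC A B) : Orb A B A (negS B) := by
  refine ⟨A, by group, ?_⟩
  rw [h.2.2, ← negS_mul, mul_assoc, mul_inv_cancel, mul_one]

/-- Pairs with the same projective images are conjugate. -/
theorem orb_of_proj {A₀ B₀ A B : SL2 F} (h : AC A₀ B₀) (h' : AC A B) (h1 : proj A = proj A₀) (h3 : proj B = proj B₀) :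
    Orb A₀ B₀ A B := by
  rw [eq_comm, proj_eq_proj_iff'] at h1 h3
  rcases h1 with rfl | rfl <;> rcases h3 with rfl | rfl
  · exact Orb.refl _ _
  · exact orb_neg_right h
  · exact orb_neg_left h
  · exact (orb_neg_left h).trans (orb_neg_right ((orb_neg_left h).ac h))

/-- If `2` is a square, all anticommuting pairs in `{±1,±X,±Y,±XY}` are conjugate. -/
theorem orb_of_pair (h2 : (2 : F) ≠ 0) (hs : IsSquare (2 : F)) {X Y A B : SL2 F} (h : AC X Y) (h' : AC A B)
    (hP : IsPair (proj X) (proj Y))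
    (ha : proj A ∈ klein (proj X) (proj Y) (sq_of_order hP.1) (sq_of_order hP.2.1) hP.2.2.2)
    (hb : proj B ∈ klein (proj X) (proj Y) (sq_of_order hP.1) (sq_of_order hP.2.1) hP.2.2.2) :
    Orb X Y A B := by
  have hP' := isPair_of_AC h2 h'
  have ha1 : proj A ≠ 1 := ne_one_of_order hP'.1
  have hb1 : proj B ≠ 1 := ne_one_of_order hP'.2.1
  have hab : proj A ≠ proj B := hP'.2.2.1
  have hO1 : Orb X Y Y X := orb_swap h2 hs h
  have hAC1 : AC Y X := hO1.ac h
  have hO2 : Orb X Y X (X * Y) := orb_mul h2 hs h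
  have hAC2 : AC X (X * Y) := hO2.ac h
  have hO3 : Orb X Y (X * Y) X := hO2.trans (orb_swap h2 hs hAC2)
  have hO4 : Orb X Y Y (Y * X) := hO1.trans (orb_mul h2 hs hAC1)
  have hAC4 : AC Y (Y * X) := hO4.ac h
  have hO5 : Orb X Y (Y * X) Y := hO4.trans (orb_swap h2 hs hAC4)
  have hcomm : proj (Y * X) = proj X * proj Y := by rw [map_mul, hP.2.2.2]
  rcases ha with ha | ha | ha | ha
  · exact absurd ha ha1
  · rcases hb with hb | hb | hb | hb
    · exact absurd hb hb1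
    · exact absurd (ha.trans hb.symm) hab
    · exact (Orb.refl X Y).trans (orb_of_proj h h' ha hb)
    · exact hO2.trans (orb_of_proj hAC2 h' ha (by rw [hb, map_mul]))
  · rcases hb with hb | hb | hb | hb
    · exact absurd hb hb1
    · exact hO1.trans (orb_of_proj hAC1 h' ha hb)
    · exact absurd (ha.trans hb.symm) hab
    · exact hO4.trans (orb_of_proj hAC4 h' ha (by rw [hb, hcomm]))
  · rcases hb with hb | hb | hb | hb
    · exact absurd hb hb1
    · exact hO3.trans (orb_of_proj (hO3.ac h) h' (by rw [ha, map_mul]) hb)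
    · exact hO5.trans (orb_of_proj (hO5.ac h) h' (by rw [ha, hcomm]) hb)
    · exact absurd (ha.trans hb.symm) hab

section Sub

variable {G : Type*} [Group G]

theorem map_conj_eq [Finite G] {V W : Subgroup G} [hV : IsKleinFour V] [hW : IsKleinFour W] {x y : G}
    (hP : IsPair x y) (hx : x ∈ V) (hy : y ∈ V) {g : G} (hx' : g * x * g⁻¹ ∈ W) (hy' : g * y * g⁻¹ ∈ W) :
    W = V.map (MulAut.conj g).toMonoidHom := by
  symm
  apply Subgroup.eq_of_le_of_card_ge
  · rintro a ⟨b, hb, rfl⟩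
    have hb' := hb
    rw [eq_klein hP hx hy] at hb'
    show g * b * g⁻¹ ∈ W
    rcases hb' with rfl | rfl | rfl | rfl
    · simp [one_mem]
    · exact hx'
    · exact hy'
    · have : g * (x * y) * g⁻¹ = (g * x * g⁻¹) * (g * y * g⁻¹) := by group
      rw [this]
      exact mul_mem hx' hy'
  · rw [Subgroup.card_map_of_injective (MulAut.conj g).injective, IsKleinFour.card_four, IsKleinFour.card_four]

theorem exists_pair [Finite G] (V : Subgroup G) [hV : IsKleinFour V] : ∃ x y : G, IsPair x y ∧ x ∈ V ∧ y ∈ V := by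
  have h := card_pairs_in V
  have hne : Nonempty {p : {p : G × G // IsPair p.1 p.2} // p.1.1 ∈ V ∧ p.1.2 ∈ V} := by
    apply (Nat.card_pos_iff.mp (by rw [h]; norm_num)).1
  obtain ⟨⟨⟨⟨x, y⟩, hP⟩, h1, h3⟩⟩ := hne
  exact ⟨x, y, hP, h1, h3⟩

end Sub

theorem ringChar_ne_two (h2 : (2 : F) ≠ 0) : ringChar F ≠ 2 := by
  intro h
  have h3 := ringChar.Nat.cast_ringChar (R := F)
  rw [h] at h3
  exact h2 (by exact_mod_cast h3)

variable [Fintype F]

theorem isSquare_mul_of_not (h2 : (2 : F) ≠ 0) {a b : F} (ha : ¬IsSquare a) (hb : ¬IsSquare b) : IsSquare (a * b) := by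
  classical
  have hc := ringChar_ne_two h2
  have ha0 : a ≠ 0 := by
    rintro rfl
    exact ha (IsSquare.zero)
  have hb0 : b ≠ 0 := by
    rintro rfl
    exact hb (IsSquare.zero)
  rw [← quadraticChar_one_iff_isSquare (mul_ne_zero ha0 hb0), map_mul,
    (quadraticChar_neg_one_iff_not_isSquare (F := F)).mpr ha,
    (quadraticChar_neg_one_iff_not_isSquare (F := F)).mpr hb]
  norm_num

theorem lift_pair (h2 : (2 : F) ≠ 0) (W : Subgroup (PSL2 F)) [hW : IsKleinFour W] :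
    ∃ X Y : SL2 F, AC X Y ∧ proj X ∈ W ∧ proj Y ∈ W := by
  obtain ⟨x, y, hP, hx, hy⟩ := exists_pair W
  obtain ⟨X, rfl, hX⟩ := lift_involution h2 x hP.1
  obtain ⟨Y, rfl, hY⟩ := lift_involution h2 y hP.2.1
  exact ⟨X, Y, AC_of_isPair h2 hX hY hP, hx, hy⟩

theorem map_of_orb (h2 : (2 : F) ≠ 0) {V W : Subgroup (PSL2 F)} [hV : IsKleinFour V] [hW : IsKleinFour W]
    {X Y A B : SL2 F} (h : AC X Y) (hX : proj X ∈ V) (hY : proj Y ∈ V) (hA : proj A ∈ W) (hB : proj B ∈ W)
    (hO : Orb X Y A B) : ∃ g : PSL2 F, W = V.map (MulAut.conj g).toMonoidHom := by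
  obtain ⟨U, rfl, rfl⟩ := hO
  refine ⟨proj U, map_conj_eq (isPair_of_AC h2 h) hX hY ?_ ?_⟩
  · simpa [map_mul, map_inv] using hA
  · simpa [map_mul, map_inv] using hB

/-- If `2` is not a square, all Klein four-subgroups are conjugate. -/
theorem part_one (h2 : (2 : F) ≠ 0) (hns : ¬IsSquare (2 : F)) (V W : Subgroup (PSL2 F)) [hV : IsKleinFour V]
    [hW : IsKleinFour W] : ∃ g : PSL2 F, W = V.map (MulAut.conj g).toMonoidHom := by
  obtain ⟨X, Y, hAC, hX, hY⟩ := lift_pair h2 V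
  obtain ⟨X', Y', hAC', hX', hY'⟩ := lift_pair h2 W
  obtain ⟨G, hG, hG1, hG2⟩ := exists_intertwiner h2 hAC hAC'
  by_cases hsq : IsSquare G.det
  · exact map_of_orb h2 hAC hX hY hX' hY' (orb_of_intertwiner hG hsq hG1 hG2)
  · have hXX := coe_sq hAC.1
    have hYY := coe_sq hAC.2.1
    have hAC3 : AC Y X := by
      refine ⟨hAC.2.1, hAC.1, ?_⟩
      rw [hAC.2.2, negS_negS]
    have hτY : ((X : Mat) + (Y : Mat)) * (Y : Mat) = (X : Mat) * ((X : Mat) + (Y : Mat)) := by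
      rw [add_mul, mul_add, hXX, hYY, add_comm]
    have hτX : ((X : Mat) + (Y : Mat)) * (X : Mat) = (Y : Mat) * ((X : Mat) + (Y : Mat)) := by
      rw [add_mul, mul_add, hXX, hYY, add_comm]
    refine map_of_orb h2 hAC3 hY hX hX' hY' (orb_of_intertwiner (G := G * ((X : Mat) + (Y : Mat))) ?_ ?_ ?_ ?_)
    · rw [det_mul, det_add_eq h2 hAC]
      exact mul_ne_zero hG h2
    · rw [det_mul, det_add_eq h2 hAC]
      exact isSquare_mul_of_not h2 hsq hns
    · rw [Matrix.mul_assoc, hτY, ← Matrix.mul_assoc, hG1, Matrix.mul_assoc]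
    · rw [Matrix.mul_assoc, hτX, ← Matrix.mul_assoc, hG2, Matrix.mul_assoc]

theorem conjGL_negS (Q : GL (Fin 2) F) (A : SL2 F) : conjGL Q (negS A) = negS (conjGL Q A) := by
  apply Subtype.ext
  show (Q : Mat) * (-(A : Mat)) * ((Q⁻¹ : GL (Fin 2) F) : Mat) = -((Q : Mat) * (A : Mat) * ((Q⁻¹ : GL (Fin 2) F) : Mat))
  rw [mul_neg, neg_mul]

theorem ac_conjGL {X Y : SL2 F} (h : AC X Y) (Q : GL (Fin 2) F) : AC (conjGL Q X) (conjGL Q Y) := by
  refine ⟨?_, ?_, ?_⟩
  · rw [← map_mul, h.1, conjGL_negS, map_one]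
  · rw [← map_mul, h.2.1, conjGL_negS, map_one]
  · rw [← map_mul, ← map_mul, h.2.2, conjGL_negS]

/-- If `2` is a square, there are exactly two classes of Klein four-subgroups. -/
theorem part_two (h2 : (2 : F) ≠ 0) (hs : IsSquare (2 : F)) :
    ∃ V₁ V₂ : Subgroup (PSL2 F), IsKleinFour V₁ ∧ IsKleinFour V₂ ∧
      (¬ ∃ g : PSL2 F, V₂ = V₁.map (MulAut.conj g).toMonoidHom) ∧
      ∀ W : Subgroup (PSL2 F), IsKleinFour W → (∃ g : PSL2 F, W = V₁.map (MulAut.conj g).toMonoidHom) ∨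
        (∃ g : PSL2 F, W = V₂.map (MulAut.conj g).toMonoidHom) := by
  classical
  obtain ⟨d, hd⟩ := FiniteField.exists_nonsquare (ringChar_ne_two h2)
  have hd0 : d ≠ 0 := by
    rintro rfl
    exact hd IsSquare.zero
  obtain ⟨Y, hAC⟩ := exists_partner h2 (X := w₀) w₀_sq
  set X : SL2 F := w₀ with hXdef
  have hdetD : (!![d, 0; 0, 1] : Mat).det = d := by simp [det_fin_two]
  let Q : GL (Fin 2) F := Matrix.GeneralLinearGroup.mkOfDetNeZero (!![d, 0; 0, 1] : Mat) (by rw [hdetD]; exact hd0)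
  have hdetQ : (Q : Mat).det = d := hdetD
  have hQi : (Q : Mat) * ((Q⁻¹ : GL (Fin 2) F) : Mat) = 1 := by
    rw [← Matrix.GeneralLinearGroup.coe_mul]; simp
  have hiQ : ((Q⁻¹ : GL (Fin 2) F) : Mat) * (Q : Mat) = 1 := by
    rw [← Matrix.GeneralLinearGroup.coe_mul]; simp
  have hdetQi : ((Q⁻¹ : GL (Fin 2) F) : Mat).det = d⁻¹ := by
    have := congrArg Matrix.det hiQ
    rw [det_mul, hdetQ, det_one] at this
    exact eq_inv_of_mul_eq_one_left this
  set X₂ := conjGL Q X with hX₂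
  set Y₂ := conjGL Q Y with hY₂
  have hAC₂ : AC X₂ Y₂ := ac_conjGL hAC Q
  have hP := isPair_of_AC h2 hAC
  have hP₂ := isPair_of_AC h2 hAC₂
  have hint : ∀ Z : SL2 F, (Q : Mat) * (Z : Mat) = ((conjGL Q Z : SL2 F) : Mat) * (Q : Mat) := by
    intro Z
    rw [conjGL_coe, Matrix.mul_assoc, hiQ, Matrix.mul_one]
  have hint' : ∀ Z : SL2 F, ((Q⁻¹ : GL (Fin 2) F) : Mat) * ((conjGL Q Z : SL2 F) : Mat) = (Z : Mat) * ((Q⁻¹ : GL (Fin 2) F) : Mat) := by
    intro Z
    rw [conjGL_coe, ← Matrix.mul_assoc, ← Matrix.mul_assoc, hiQ, Matrix.one_mul]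
  refine ⟨klein (proj X) (proj Y) (sq_of_order hP.1) (sq_of_order hP.2.1) hP.2.2.2,
    klein (proj X₂) (proj Y₂) (sq_of_order hP₂.1) (sq_of_order hP₂.2.1) hP₂.2.2.2,
    isKlein_klein hP, isKlein_klein hP₂, ?_, ?_⟩
  · rintro ⟨g, hg⟩
    obtain ⟨U, rfl⟩ := proj_surjective g
    have hmemX : proj X₂ ∈ klein (proj X₂) (proj Y₂) (sq_of_order hP₂.1) (sq_of_order hP₂.2.1) hP₂.2.2.2 := Or.inr (Or.inl rfl)
    have hmemY : proj Y₂ ∈ klein (proj X₂) (proj Y₂) (sq_of_order hP₂.1) (sq_of_order hP₂.2.1) hP₂.2.2.2 := Or.inr (Or.inr (Or.inl rfl))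
    rw [hg] at hmemX hmemY
    obtain ⟨a, ha, hax⟩ := hmemX
    obtain ⟨b, hb, hby⟩ := hmemY
    have hax' : proj U * a * (proj U)⁻¹ = proj X₂ := hax
    have hby' : proj U * b * (proj U)⁻¹ = proj Y₂ := hby
    have hAC' : AC (U⁻¹ * X₂ * U) (U⁻¹ * Y₂ * U) := by
      have := hAC₂.conj U⁻¹
      simpa using this
    have hA : proj (U⁻¹ * X₂ * U) = a := by
      rw [map_mul, map_mul, map_inv, ← hax']
      group
    have hB : proj (U⁻¹ * Y₂ * U) = b := by
      rw [map_mul, map_mul, map_inv, ← hby']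
      group
    have hO := orb_of_pair h2 hs hAC hAC' hP (hA.symm ▸ ha) (hB.symm ▸ hb)
    have key : ∀ Z : SL2 F, (((U⁻¹ : SL2 F) : Mat) * (Q : Mat)) * (Z : Mat) =
        ((U⁻¹ * conjGL Q Z * U : SL2 F) : Mat) * (((U⁻¹ : SL2 F) : Mat) * (Q : Mat)) := by
      intro Z
      have e0 : U⁻¹ * conjGL Q Z * U * U⁻¹ = U⁻¹ * conjGL Q Z := by group
      rw [Matrix.mul_assoc, hint Z, ← Matrix.mul_assoc, ← Matrix.mul_assoc, ← coe_mul, ← coe_mul, e0]
    have hsq := det_square_of_orb h2 hAC hO (key X) (key Y)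
    rw [det_mul, coe_det, one_mul, hdetQ] at hsq
    exact hd hsq
  · intro W hW
    have := isKlein_klein hP
    have := isKlein_klein hP₂
    obtain ⟨X', Y', hAC', hX', hY'⟩ := lift_pair h2 W
    obtain ⟨G, hG, hG1, hG2⟩ := exists_intertwiner h2 hAC hAC'
    by_cases hsq : IsSquare G.det
    · left
      exact map_of_orb h2 hAC (Or.inr (Or.inl rfl)) (Or.inr (Or.inr (Or.inl rfl))) hX' hY' (orb_of_intertwiner hG hsq hG1 hG2)
    · right
      refine map_of_orb h2 hAC₂ (Or.inr (Or.inl rfl)) (Or.inr (Or.inr (Or.inl rfl))) hX' hY'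
        (orb_of_intertwiner (G := G * ((Q⁻¹ : GL (Fin 2) F) : Mat)) ?_ ?_ ?_ ?_)
      · rw [det_mul, hdetQi]
        exact mul_ne_zero hG (inv_ne_zero hd0)
      · rw [det_mul, hdetQi]
        have h5 := isSquare_mul_of_not h2 hsq hd
        have h6 : G.det * d⁻¹ = (G.det * d) * (d⁻¹ * d⁻¹) := by
          field_simp
        rw [h6]
        exact h5.mul ⟨d⁻¹, rfl⟩
      · rw [Matrix.mul_assoc, hint' X, ← Matrix.mul_assoc, hG1, Matrix.mul_assoc]
      · rw [Matrix.mul_assoc, hint' Y, ← Matrix.mul_assoc, hG2, Matrix.mul_assoc]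

end Cfsg.Agent.Lib.KleinClasses
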