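-- Shared library: data for PSL(3,2): labels of a central extension by a cyclic group of order two.
import Mathlib
import Cfsg.Agent.Lib.SchurLoop
import Cfsg.Agent.Lib.SchurPackD


set_option autoImplicit false
set_option maxRecDepth 100000
set_option linter.all false

namespace Cfsg.Agent.Lib.L32LoopData

open Cfsg.Agent.Lib.SchurLoop Cfsg.Agent.Lib.SchurPackD

def tT : ℕ := 0x946f79c2d67d251abded859ae8dd95bcaa8b4dc7a54f432e70616932b532718c5491092294c38e2a1a20f5b86b6b1625244141c26080a40088310400
def tPar : ℕ := 0x8b837a696860413938322b2a2923221b1a18110908030200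
def tU : ℕ := 0x842000000000000042100000080000000100001000000000100000

/-- The relators. -/
def relsL : List (List ℕ) := [[0,0,0,0,0,0,0],
  [2,2,2],
  [0,0,3,0,0,3],
  [0,3,0,3,0,3,0,3]]
/-- Their values. -/
def tvL : List ℕ := [0,0,1,1]
/-- The relators which give the digits. -/
def basL : List ℕ := [2]

/-- The certificate. -/
def lcert : LoopC where
  n := 24
  m := 2
  R := 4
  g := 1
  M := 2
  W := 5
  w := 1
  T := fun c l => fld tT 5 31 (c * 4 + l)
  par := fun c => (Nat.shiftRight (fld tPar 8 255 c) 3, Nat.land (fld tPar 8 255 c) 7)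
  rels := fun j => relsL.getD j []
  U := fun e => fld tU 5 31 e
  tv := fun j => tvL.getD j 0
  hm := 30
  genJ := fun i => basL.getD i 0

theorem lcert_ok : lcert.check = true := by decide +kernel

end Cfsg.Agent.Lib.L32LoopData
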