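-- Shared library: data for PSL(3,2): coset representatives as matrices.
import Mathlib
import Cfsg.Agent.Lib.L32PackData

set_option autoImplicit false
set_option maxRecDepth 100000
set_option linter.all false

namespace Cfsg.Agent.Lib.L32RepData

open Matrix

/-- Matrices by their codes. -/
def dec3 (c : ℕ) : Matrix (Fin 3) (Fin 3) (ZMod 2) :=
  fun i j => ((c >>> (3 * i.1 + j.1)) % 2 : ℕ)

/-- The representatives. -/
def tM (c : ℕ) : Matrix (Fin 3) (Fin 3) (ZMod 2) := dec3 ([273, 271, 314, 156, 494, 500, 370, 116, 492, 157, 115, 415, 172, 92, 233, 250, 351, 407, 330, 242, 335, 401, 425, 249].getD c 0)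
/-- The elements of the subgroup. -/
def hM (k : ℕ) : Matrix (Fin 3) (Fin 3) (ZMod 2) := dec3 ([273, 171, 334, 95, 244, 442, 485].getD k 0)
/-- The letters. -/
def lM (l : ℕ) : Matrix (Fin 3) (Fin 3) (ZMod 2) := dec3 ([171, 485, 271, 314].getD l 0)
/-- The elements of the subgroup of the steps. -/
def hI (c i : ℕ) : ℕ := [1, 0, 0, 0, 5, 0, 0, 0, 0, 0, 0, 0, 2, 0, 0, 0, 6, 0, 1, 0, 1, 0, 0, 0, 0, 0, 0, 0, 5, 0, 4, 0, 0, 0, 0, 0, 3, 0, 5, 0, 0, 0, 3, 0, 2, 0, 4, 0].getD (2 * c + i) 0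

/-- The check of a coset. -/
def chk (c : ℕ) : Bool :=
  Nat.blt (hI c 0) 7 && Nat.blt (hI c 1) 7 &&
  decide (tM c * lM 0 = hM (hI c 0) * tM (L32PackData.cert.T c 0)) &&
  decide (tM c * lM 2 = hM (hI c 1) * tM (L32PackData.cert.T c 2)) &&
  (Nat.beq c 0 ||
    (decide (tM c = tM (L32PackData.cert.par c).1 * lM (L32PackData.cert.par c).2) &&
     (List.range 7).all fun k => !decide (tM c = hM k)))

theorem chk_all : (List.range 24).all chk = true := by decide +kernel

end Cfsg.Agent.Lib.L32RepData
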