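import Mathlib
import Cfsg.Agent.Lib.Homog

/-!
# Pointwise stabilisers of finite sets in permutation groups

Tools for the Livingstone–Wagner theorem: the pointwise stabiliser `fixS`, finite orbits `orbF`,
the orbit–stabiliser relation and a divisibility lemma for invariant sets with orbits of equal size.
-/

set_option autoImplicit false
set_option linter.unusedSectionVars false
set_option linter.style.haveILetI false

namespace Cfsg.Agent.Lib.LVBasic

open Equiv Finset MulAction

variable {α : Type*} [Fintype α] [DecidableEq α]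

/-- The pointwise stabiliser of a finite set in a permutation group. -/
def fixS (V : Subgroup (Perm α)) (A : Finset α) : Subgroup (Perm α) where
  carrier := {g | g ∈ V ∧ ∀ a ∈ A, g a = a}
  mul_mem' := by
    rintro g h ⟨hg, hg'⟩ ⟨hh, hh'⟩
    refine ⟨V.mul_mem hg hh, fun a ha => ?_⟩
    simp [Perm.mul_apply, hh' a ha, hg' a ha]
  one_mem' := ⟨V.one_mem, fun _ _ => rfl⟩
  inv_mem' := by
    rintro g ⟨hg, hg'⟩
    refine ⟨V.inv_mem hg, fun a ha => ?_⟩
    rw [Perm.inv_eq_iff_eq]
    exact (hg' a ha).symm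

theorem mem_fixS {V : Subgroup (Perm α)} {A : Finset α} {g : Perm α} :
    g ∈ fixS V A ↔ g ∈ V ∧ ∀ a ∈ A, g a = a := Iff.rfl

theorem fixS_le (V : Subgroup (Perm α)) (A : Finset α) : fixS V A ≤ V := fun _ h => h.1

theorem fixS_fixS (V : Subgroup (Perm α)) (A B : Finset α) :
    fixS (fixS V A) B = fixS V (A ∪ B) := by
  ext g
  simp only [mem_fixS, Finset.mem_union]
  constructor
  · rintro ⟨⟨h1, h2⟩, h3⟩
    refine ⟨h1, fun a ha => ?_⟩
    rcases ha with ha | ha
    · exact h2 a ha
    · exact h3 a ha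
  · rintro ⟨h1, h2⟩
    exact ⟨⟨h1, fun a ha => h2 a (Or.inl ha)⟩, fun a ha => h2 a (Or.inr ha)⟩

theorem fixS_anti (V : Subgroup (Perm α)) {A B : Finset α} (h : A ⊆ B) : fixS V B ≤ fixS V A :=
  fun _ hg => ⟨hg.1, fun a ha => hg.2 a (h ha)⟩

/-- The finite orbit of a point under a permutation group. -/
noncomputable def orbF (V : Subgroup (Perm α)) (x : α) : Finset α := by
  classical exact univ.filter (fun y => ∃ g ∈ V, g x = y)

theorem mem_orbF {V : Subgroup (Perm α)} {x y : α} : y ∈ orbF V x ↔ ∃ g ∈ V, g x = y := by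
  classical
  simp [orbF]

theorem self_mem_orbF (V : Subgroup (Perm α)) (x : α) : x ∈ orbF V x :=
  mem_orbF.2 ⟨1, V.one_mem, rfl⟩

theorem orb_card (V : Subgroup (Perm α)) (x : α) :
    (orbF V x).card * Nat.card (fixS V {x}) = Nat.card V := by
  classical
  have h : Nat.card (MulAction.orbit V x) * Nat.card (MulAction.stabilizer V x) = Nat.card V := by
    simp only [Nat.card_eq_fintype_card]
    exact MulAction.card_orbit_mul_card_stabilizer_eq_card_group V x
  have h1 : Nat.card (MulAction.orbit V x) = (orbF V x).card := by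
    have : (MulAction.orbit V x) = ((orbF V x : Finset α) : Set α) := by
      ext y
      simp only [MulAction.mem_orbit_iff, Finset.mem_coe, mem_orbF]
      constructor
      · rintro ⟨g, rfl⟩
        exact ⟨g, g.2, rfl⟩
      · rintro ⟨g, hg, rfl⟩
        exact ⟨⟨g, hg⟩, rfl⟩
    rw [this]
    simp
  have h2 : Nat.card (MulAction.stabilizer V x) = Nat.card (fixS V {x}) := by
    have : fixS V {x} = (MulAction.stabilizer V x).map V.subtype := by
      ext g
      simp only [mem_fixS, Finset.mem_singleton, forall_eq, Subgroup.mem_map, MulAction.mem_stabilizer_iff]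
      constructor
      · rintro ⟨h1, h2⟩
        exact ⟨⟨g, h1⟩, h2, rfl⟩
      · rintro ⟨g', h1, rfl⟩
        exact ⟨g'.2, h1⟩
    rw [this, Subgroup.card_map_of_injective V.subtype_injective]
  rw [h1, h2] at h
  exact h

theorem card_pos_subgroup (V : Subgroup (Perm α)) : 0 < Nat.card V := Nat.card_pos

theorem dvd_card_of_orbits (R : Subgroup (Perm α)) (e : ℕ) :
    ∀ S : Finset α, (∀ g ∈ R, ∀ x ∈ S, g x ∈ S) → (∀ x ∈ S, (orbF R x).card = e) → e ∣ S.card := by
  intro S
  induction S using Finset.strongInduction with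
  | H S ih =>
    intro hinv he
    rcases S.eq_empty_or_nonempty with rfl | ⟨x, hx⟩
    · simp
    have hsub : orbF R x ⊆ S := by
      intro y hy
      obtain ⟨g, hg, rfl⟩ := mem_orbF.1 hy
      exact hinv g hg x hx
    have hlt : S \ orbF R x ⊂ S := by
      refine ⟨Finset.sdiff_subset, fun h => ?_⟩
      have := h hx
      rw [Finset.mem_sdiff] at this
      exact this.2 (self_mem_orbF R x)
    have hd := ih _ hlt ?_ ?_
    · have hc := Finset.card_sdiff_add_card_eq_card hsub
      rw [← hc, he x hx]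
      exact dvd_add hd dvd_rfl
    · intro g hg y hy
      rw [Finset.mem_sdiff] at hy ⊢
      refine ⟨hinv g hg y hy.1, fun h => hy.2 ?_⟩
      obtain ⟨h', hh', hz⟩ := mem_orbF.1 h
      refine mem_orbF.2 ⟨g⁻¹ * h', R.mul_mem (R.inv_mem hg) hh', ?_⟩
      rw [Perm.mul_apply, hz]
      simp
    · intro y hy
      exact he y (Finset.sdiff_subset hy)

/-- The pointwise stabiliser of an image is conjugate. -/
theorem fixS_image (G : Subgroup (Perm α)) {g : Perm α} (hg : g ∈ G) (A : Finset α) :
    fixS G (A.image g) = (fixS G A).map (MulAut.conj g).toMonoidHom := by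
  ext h
  simp only [mem_fixS, Finset.mem_image, Subgroup.mem_map, MulEquiv.coe_toMonoidHom,
    MulAut.conj_apply, forall_exists_index, and_imp, forall_apply_eq_imp_iff₂]
  constructor
  · rintro ⟨h1, h2⟩
    refine ⟨g⁻¹ * h * g, ⟨G.mul_mem (G.mul_mem (G.inv_mem hg) h1) hg, fun a ha => ?_⟩, by group⟩
    simp [Perm.mul_apply, h2 a ha]
  · rintro ⟨k, ⟨h1, h2⟩, rfl⟩
    refine ⟨G.mul_mem (G.mul_mem hg h1) (G.inv_mem hg), fun a ha => ?_⟩
    simp [Perm.mul_apply, h2 a ha]

theorem card_fixS_image (G : Subgroup (Perm α)) {g : Perm α} (hg : g ∈ G) (A : Finset α) :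
    Nat.card (fixS G (A.image g)) = Nat.card (fixS G A) := by
  rw [fixS_image G hg, Subgroup.card_map_of_injective (MulAut.conj g).injective]

/-- Transitivity on subsets of size `k`. -/
def HomS (G : Subgroup (Perm α)) (k : ℕ) : Prop :=
  ∀ A B : Finset α, A.card = k → B.card = k → ∃ g ∈ G, A.image g = B

/-- Multiple transitivity, phrased by pointwise stabilisers. -/
def TrS (G : Subgroup (Perm α)) (k : ℕ) : Prop :=
  ∀ Γ : Finset α, Γ.card < k → ∀ a b, a ∉ Γ → b ∉ Γ → ∃ g ∈ G, (∀ x ∈ Γ, g x = x) ∧ g a = b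

theorem card_fixS_eq {G : Subgroup (Perm α)} {k : ℕ} (hH : HomS G k) {A B : Finset α}
    (hA : A.card = k) (hB : B.card = k) : Nat.card (fixS G A) = Nat.card (fixS G B) := by
  obtain ⟨g, hg, rfl⟩ := hH A B hA hB
  exact (card_fixS_image G hg A).symm

theorem homS_of_pretransitive {G : Subgroup (Perm α)} {k : ℕ}
    (h : IsPretransitive G (Set.powersetCard α k)) : HomS G k := by
  intro A B hA hB
  obtain ⟨g, hg⟩ := Cfsg.Agent.Lib.Homog.exists_image_eq h hA hB
  exact ⟨g, g.2, hg⟩

theorem pretransitive_of_homS {G : Subgroup (Perm α)} {k : ℕ} (h : HomS G k) :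
    IsPretransitive G (Set.powersetCard α k) := by
  apply Cfsg.Agent.Lib.Homog.of_exists_image_eq
  intro s t hs ht
  obtain ⟨g, hg, hgi⟩ := h s t hs ht
  exact ⟨⟨g, hg⟩, hgi⟩

theorem isMultiplyPretransitive_of_trS {G : Subgroup (Perm α)} {k : ℕ} (h : TrS G k) :
    IsMultiplyPretransitive G α k := by
  have key : ∀ i, i ≤ k → ∀ f₁ f₂ : Fin i ↪ α, ∃ g ∈ G, ∀ l, g (f₁ l) = f₂ l := by
    intro i
    induction i with
    | zero =>
      intro _ f₁ f₂
      exact ⟨1, G.one_mem, fun l => l.elim0⟩
    | succ i ih =>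
      intro hi f₁ f₂
      obtain ⟨g, hg, hgl⟩ := ih (by omega)
        (Fin.castSuccEmb.trans f₁) (Fin.castSuccEmb.trans f₂)
      simp only [Function.Embedding.trans_apply] at hgl
      let Γ : Finset α := (Finset.univ : Finset (Fin i)).image (fun l => f₂ (Fin.castSucc l))
      have hΓ : Γ.card < k := by
        have : Γ.card ≤ i := by
          refine le_trans Finset.card_image_le ?_
          simp
        omega
      have hb : f₂ (Fin.last i) ∉ Γ := by
        intro hmem
        obtain ⟨l, -, hl⟩ := Finset.mem_image.1 hmem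
        have := f₂.injective hl
        exact absurd this (Fin.castSucc_lt_last l).ne
      have ha : g (f₁ (Fin.last i)) ∉ Γ := by
        intro hmem
        obtain ⟨l, -, hl⟩ := Finset.mem_image.1 hmem
        have h2 := hgl l
        have h3 : g (f₁ (Fin.castSucc l)) = g (f₁ (Fin.last i)) := by
          simp only [Fin.coe_castSuccEmb] at h2
          rw [h2, hl]
        have := f₁.injective (g.injective h3)
        exact absurd this (Fin.castSucc_lt_last l).ne
      obtain ⟨h', hh', hfix, hmap⟩ := h Γ hΓ _ _ ha hb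
      refine ⟨h' * g, G.mul_mem hh' hg, fun l => ?_⟩
      induction l using Fin.lastCases with
      | last => simpa [Perm.mul_apply] using hmap
      | cast l =>
        rw [Perm.mul_apply]
        have h2 := hgl l
        simp only [Fin.coe_castSuccEmb] at h2
        rw [h2]
        exact hfix _ (Finset.mem_image.2 ⟨l, Finset.mem_univ _, rfl⟩)
  constructor
  intro f₁ f₂
  obtain ⟨g, hg, hgl⟩ := key k le_rfl f₁ f₂
  refine ⟨⟨g, hg⟩, ?_⟩
  ext l
  exact hgl l

theorem trS_of_isMultiplyPretransitive {G : Subgroup (Perm α)} {k : ℕ}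
    (h : IsMultiplyPretransitive G α k) (hk : k ≤ Fintype.card α) : TrS G k := by
  intro Γ hΓ a b ha hb
  haveI := h
  have h' : IsMultiplyPretransitive G α (Γ.card + 1) :=
    isMultiplyPretransitive_of_le (n := k) (by omega) (by rw [Nat.card_eq_fintype_card]; exact hk)
  have hmk : ∀ z, z ∉ Γ → ∃ f : Fin (Γ.card + 1) ↪ α, f (Fin.last _) = z ∧
      ∀ l : Fin Γ.card, f (Fin.castSucc l) = (Γ.equivFin.symm l : α) := by
    intro z hz
    have hinj : Function.Injective
        (fun l : Fin (Γ.card + 1) => Fin.lastCases (motive := fun _ => α) z (fun l => (Γ.equivFin.symm l : α)) l) := by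
      intro l₁ l₂ he
      induction l₁ using Fin.lastCases with
      | last =>
        induction l₂ using Fin.lastCases with
        | last => rfl
        | cast l₂ =>
          simp only [Fin.lastCases_last, Fin.lastCases_castSucc] at he
          exact absurd (he ▸ (Γ.equivFin.symm l₂).2) hz
      | cast l₁ =>
        induction l₂ using Fin.lastCases with
        | last =>
          simp only [Fin.lastCases_last, Fin.lastCases_castSucc] at he
          exact absurd (he ▸ (Γ.equivFin.symm l₁).2) hz
        | cast l₂ =>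
          simp only [Fin.lastCases_castSucc] at he
          have := Γ.equivFin.symm.injective (Subtype.ext he)
          rw [this]
    refine ⟨⟨_, hinj⟩, ?_, ?_⟩
    · simp only [Function.Embedding.coeFn_mk, Fin.lastCases_last]
    · intro l
      simp only [Function.Embedding.coeFn_mk, Fin.lastCases_castSucc]
  obtain ⟨f₁, hf₁, hf₁'⟩ := hmk a ha
  obtain ⟨f₂, hf₂, hf₂'⟩ := hmk b hb
  obtain ⟨g, hg⟩ := h'.exists_smul_eq f₁ f₂
  refine ⟨g, g.2, fun x hx => ?_, ?_⟩
  · have h1 := congrArg (fun f : Fin (Γ.card + 1) ↪ α => f (Fin.castSucc (Γ.equivFin ⟨x, hx⟩))) hg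
    simp only [Function.Embedding.smul_apply, hf₁', hf₂', Equiv.symm_apply_apply] at h1
    exact h1
  · have h1 := congrArg (fun f : Fin (Γ.card + 1) ↪ α => f (Fin.last _)) hg
    simp only [Function.Embedding.smul_apply, hf₁, hf₂] at h1
    exact h1

/-- The elements of a permutation group, as a finite set. -/
noncomputable def elts (V : Subgroup (Perm α)) : Finset (Perm α) := by
  classical exact univ.filter (· ∈ V)

theorem mem_elts {V : Subgroup (Perm α)} {g : Perm α} : g ∈ elts V ↔ g ∈ V := by
  classical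
  simp [elts]

theorem card_elts (V : Subgroup (Perm α)) : (elts V).card = Nat.card V := by
  classical
  rw [Nat.card_eq_fintype_card, Fintype.card_subtype]
  simp only [elts]

/-- Elements that agree on `A` form a set of size at most the order of the stabiliser of `A`. -/
theorem card_le_of_agree (V : Subgroup (Perm α)) (A : Finset α) (S : Finset (Perm α))
    (hS : ∀ g ∈ S, g ∈ V) (hA : ∀ g ∈ S, ∀ h ∈ S, ∀ z ∈ A, g z = h z) :
    S.card ≤ Nat.card (fixS V A) := by
  rcases S.eq_empty_or_nonempty with rfl | ⟨g₀, hg₀⟩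
  · simp
  rw [← card_elts]
  refine Finset.card_le_card_of_injOn (fun g => g₀⁻¹ * g) ?_ ?_
  · intro g hg
    simp only [Finset.mem_coe, mem_elts, mem_fixS] at hg ⊢
    refine ⟨V.mul_mem (V.inv_mem (hS _ hg₀)) (hS _ hg), fun z hz => ?_⟩
    rw [Perm.mul_apply, hA g hg g₀ hg₀ z hz]
    simp
  · intro g _ h _ he
    exact mul_left_cancel he

end Cfsg.Agent.Lib.LVBasic
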