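import Mathlib
import Cfsg.Agent.Lib.LVBasic

/-!
# The counting core of the Livingstone–Wagner theorem

A group `V` acting on a set `W` of at least `12` points, with `4`-point stabilisers of odd order `d`,
trivial `5`-point stabilisers, "swap patterns" `(a b)` fixing `x, y` for all distinct `a, b, x, y`,
and `2 d + 4 ≤ |W|`, does not exist.
-/

set_option autoImplicit false
set_option linter.unusedSectionVars false
set_option linter.style.haveILetI false

namespace Cfsg.Agent.Lib.LVFour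

open Equiv Finset
open Cfsg.Agent.Lib.LVBasic

variable {α : Type*} [Fintype α] [DecidableEq α]

/-- The configuration. -/
structure Cfg (V : Subgroup (Perm α)) (W : Finset α) (d : ℕ) : Prop where
  hout : ∀ g ∈ V, ∀ x, x ∉ W → g x = x
  hd : Odd d
  h4 : ∀ A ⊆ W, A.card = 4 → Nat.card (fixS V A) = d
  h5 : ∀ A ⊆ W, A.card = 5 → fixS V A = ⊥
  hswap : ∀ a b x y, a ∈ W → b ∈ W → x ∈ W → y ∈ W → a ≠ b → a ≠ x → a ≠ y → b ≠ x → b ≠ y → x ≠ y →
     ∃ g ∈ V, g x = x ∧ g y = y ∧ g a = b ∧ g b = a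

theorem card_four {a b x y : α} (hab : a ≠ b) (hax : a ≠ x) (hay : a ≠ y) (hbx : b ≠ x) (hby : b ≠ y)
    (hxy : x ≠ y) : ({a, b, x, y} : Finset α).card = 4 := by
  rw [Finset.card_insert_of_notMem (by simp [hab, hax, hay]),
    Finset.card_insert_of_notMem (by simp [hbx, hby]),
    Finset.card_insert_of_notMem (by simp [hxy]), Finset.card_singleton]

theorem sub_four {W : Finset α} {a b x y : α} (ha : a ∈ W) (hb : b ∈ W) (hx : x ∈ W) (hy : y ∈ W) :
    ({a, b, x, y} : Finset α) ⊆ W := by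
  intro z hz
  simp only [Finset.mem_insert, Finset.mem_singleton] at hz
  rcases hz with rfl | rfl | rfl | rfl <;> assumption

/-- the fixed points in `W` -/
def F (W : Finset α) (t : Perm α) : Finset α := W.filter (fun x => t x = x)

theorem mem_F {W : Finset α} {t : Perm α} {x : α} : x ∈ F W t ↔ x ∈ W ∧ t x = x := by
  simp [F]

variable {V : Subgroup (Perm α)} {W : Finset α} {d : ℕ}

theorem F_parity_of (hout : ∀ g ∈ V, ∀ x, x ∉ W → g x = x) {t : Perm α} (ht : t ∈ V)
    (h2 : t ^ 2 = 1) : (F W t).card % 2 = W.card % 2 := by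
  have hs : t.support = W.filter (fun x => ¬ t x = x) := by
    ext x
    simp only [Perm.mem_support, ne_eq, Finset.mem_filter]
    constructor
    · intro h
      refine ⟨?_, h⟩
      by_contra hx
      exact h (hout t ht x hx)
    · exact fun h => h.2
  have h1 := Perm.two_dvd_card_support h2
  rw [hs] at h1
  have h3 := Finset.card_filter_add_card_filter_not (s := W) (fun x => t x = x)
  show (W.filter (fun x => t x = x)).card % 2 = W.card % 2
  omega

namespace Cfg

theorem mem_W (C : Cfg V W d) {g : Perm α} (hg : g ∈ V) {x : α} (hx : x ∈ W) : g x ∈ W := by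
  by_contra h
  have h1 := C.hout g hg (g x) h
  have h2 := g.injective h1
  rw [h2] at h
  exact h hx

theorem d_pos (C : Cfg V W d) : 0 < d := C.hd.pos

theorem pow_d_eq_one (C : Cfg V W d) {A : Finset α} (hA : A ⊆ W) (hc : A.card = 4) {g : Perm α}
    (hg : g ∈ fixS V A) : g ^ d = 1 := by
  have h := pow_card_eq_one' (x := (⟨g, hg⟩ : fixS V A))
  rw [C.h4 A hA hc] at h
  exact congrArg Subtype.val h

theorem eq_one_of_sq (C : Cfg V W d) {A : Finset α} (hA : A ⊆ W) (hc : A.card = 4) {g : Perm α}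
    (hg : g ∈ fixS V A) (h2 : g ^ 2 = 1) : g = 1 := by
  obtain ⟨r, hr⟩ := C.hd
  have h := C.pow_d_eq_one hA hc hg
  rw [hr, pow_succ, pow_mul, h2, one_pow, one_mul] at h
  exact h

theorem inv_exists (C : Cfg V W d) {a b x y : α} (ha : a ∈ W) (hb : b ∈ W) (hx : x ∈ W) (hy : y ∈ W)
    (hab : a ≠ b) (hax : a ≠ x) (hay : a ≠ y) (hbx : b ≠ x) (hby : b ≠ y) (hxy : x ≠ y) :
    ∃ t ∈ V, t ^ 2 = 1 ∧ t x = x ∧ t y = y ∧ t a = b ∧ t b = a := by
  obtain ⟨g, hg, hgx, hgy, hga, hgb⟩ := C.hswap a b x y ha hb hx hy hab hax hay hbx hby hxy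
  have hA := sub_four ha hb hx hy
  have hc := card_four hab hax hay hbx hby hxy
  have hg2 : g ^ 2 ∈ fixS V {a, b, x, y} := by
    refine ⟨V.pow_mem hg 2, fun z hz => ?_⟩
    simp only [Finset.mem_insert, Finset.mem_singleton] at hz
    rw [pow_two, Perm.mul_apply]
    rcases hz with rfl | rfl | rfl | rfl
    · rw [hga, hgb]
    · rw [hgb, hga]
    · rw [hgx, hgx]
    · rw [hgy, hgy]
  obtain ⟨r, hr⟩ := C.hd
  have hpow : g ^ d = (g ^ 2) ^ r * g := by
    rw [hr, pow_succ, pow_mul]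
  have hr2 : (g ^ 2) ^ r ∈ fixS V {a, b, x, y} := Subgroup.pow_mem _ hg2 r
  have hfix := hr2.2
  refine ⟨g ^ d, V.pow_mem hg d, ?_, ?_, ?_, ?_, ?_⟩
  · rw [← pow_mul, mul_comm, pow_mul]
    exact C.pow_d_eq_one hA hc hg2
  · rw [hpow, Perm.mul_apply, hgx]
    exact hfix x (by simp)
  · rw [hpow, Perm.mul_apply, hgy]
    exact hfix y (by simp)
  · rw [hpow, Perm.mul_apply, hga]
    exact hfix b (by simp)
  · rw [hpow, Perm.mul_apply, hgb]
    exact hfix a (by simp)

theorem F_le_three (C : Cfg V W d) {t : Perm α} (ht : t ∈ V) (h2 : t ^ 2 = 1) (hne : t ≠ 1) :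
    (F W t).card ≤ 3 := by
  by_contra hcon
  obtain ⟨A, hA, hc⟩ := Finset.exists_subset_card_eq (s := F W t) (n := 4) (by omega)
  have hAW : A ⊆ W := fun z hz => (mem_F.1 (hA hz)).1
  exact hne (C.eq_one_of_sq hAW hc ⟨ht, fun z hz => (mem_F.1 (hA hz)).2⟩ h2)

theorem F_parity (C : Cfg V W d) {t : Perm α} (ht : t ∈ V) (h2 : t ^ 2 = 1) :
    (F W t).card % 2 = W.card % 2 := F_parity_of C.hout ht h2

end Cfg

/-- involutions swapping `a, b` with at least two fixed points -/
noncomputable def tau (V : Subgroup (Perm α)) (W : Finset α) (a b : α) : Finset (Perm α) := by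
  classical exact univ.filter (fun t => t ∈ V ∧ t ^ 2 = 1 ∧ t a = b ∧ t b = a ∧ 2 ≤ (F W t).card)

theorem mem_tau {a b : α} {t : Perm α} :
    t ∈ tau V W a b ↔ t ∈ V ∧ t ^ 2 = 1 ∧ t a = b ∧ t b = a ∧ 2 ≤ (F W t).card := by
  classical
  simp [tau]

/-- elements with a given pattern -/
noncomputable def pat (V : Subgroup (Perm α)) (a b c e : α) : Finset (Perm α) := by
  classical exact univ.filter (fun t => t ∈ V ∧ t a = b ∧ t b = a ∧ t c = e ∧ t e = c)

theorem mem_pat {a b c e : α} {t : Perm α} :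
    t ∈ pat V a b c e ↔ t ∈ V ∧ t a = b ∧ t b = a ∧ t c = e ∧ t e = c := by
  classical
  simp [pat]

theorem sq_apply {t : Perm α} (h : t ^ 2 = 1) (x : α) : t (t x) = x := by
  have : (t ^ 2) x = x := by rw [h]; rfl
  rwa [pow_two, Perm.mul_apply] at this

theorem two_le_F {t : Perm α} {x y : α} (hx : x ∈ W) (hy : y ∈ W) (hxy : x ≠ y) (htx : t x = x)
    (hty : t y = y) : 2 ≤ (F W t).card := by
  have : ({x, y} : Finset α) ⊆ F W t := by
    intro z hz
    simp only [Finset.mem_insert, Finset.mem_singleton] at hz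
    rcases hz with rfl | rfl
    · exact mem_F.2 ⟨hx, htx⟩
    · exact mem_F.2 ⟨hy, hty⟩
  have h := Finset.card_le_card this
  rwa [Finset.card_pair hxy] at h

/-- the points other than `a, b` -/
def X (W : Finset α) (a b : α) : Finset α := (W.erase a).erase b

theorem mem_X {a b z : α} : z ∈ X W a b ↔ z ≠ b ∧ z ≠ a ∧ z ∈ W := by
  simp [X]

theorem card_X {a b : α} (ha : a ∈ W) (hb : b ∈ W) (hab : a ≠ b) : (X W a b).card = W.card - 2 := by
  have h1 : (W.erase a).card = W.card - 1 := Finset.card_erase_of_mem ha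
  have h2 : b ∈ W.erase a := Finset.mem_erase.2 ⟨hab.symm, hb⟩
  have h3 : ((W.erase a).erase b).card = (W.erase a).card - 1 := Finset.card_erase_of_mem h2
  have h4 : 0 < W.card := Finset.card_pos.2 ⟨a, ha⟩
  simp only [X]
  omega

theorem F_sub_X {a b : α} {t : Perm α} (hab : a ≠ b) (hta : t a = b) (htb : t b = a) :
    F W t ⊆ X W a b := by
  intro z hz
  obtain ⟨h1, h2⟩ := mem_F.1 hz
  refine mem_X.2 ⟨?_, ?_, h1⟩
  · rintro rfl
    rw [htb] at h2
    exact hab h2
  · rintro rfl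
    rw [hta] at h2
    exact hab h2.symm

namespace Cfg

variable (C : Cfg V W d) {a b : α}
include C

theorem card_pat_le {c e : α} (ha : a ∈ W) (hb : b ∈ W) (hc : c ∈ W) (he : e ∈ W)
    (hab : a ≠ b) (hac : a ≠ c) (hae : a ≠ e) (hbc : b ≠ c) (hbe : b ≠ e) (hce : c ≠ e) :
    (pat V a b c e).card ≤ d := by
  rw [← C.h4 _ (sub_four ha hb hc he) (card_four hab hac hae hbc hbe hce)]
  apply card_le_of_agree
  · intro g hg
    exact (mem_pat.1 hg).1
  · intro g hg h hh z hz
    obtain ⟨-, g1, g2, g3, g4⟩ := mem_pat.1 hg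
    obtain ⟨-, h1, h2, h3, h4⟩ := mem_pat.1 hh
    simp only [Finset.mem_insert, Finset.mem_singleton] at hz
    rcases hz with rfl | rfl | rfl | rfl
    · rw [g1, h1]
    · rw [g2, h2]
    · rw [g3, h3]
    · rw [g4, h4]

omit C in
/-- `L`-count -/
theorem sum_L {a b : α} (hab : a ≠ b) :
    ∑ p ∈ (X W a b).offDiag, ((tau V W a b).filter (fun t => t p.1 = p.1 ∧ t p.2 = p.2)).card =
      ∑ t ∈ tau V W a b, ((F W t).card * (F W t).card - (F W t).card) := by
  have h := Finset.sum_card_bipartiteAbove_eq_sum_card_bipartiteBelow (s := (X W a b).offDiag)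
    (t := tau V W a b) (fun (p : α × α) (t : Perm α) => t p.1 = p.1 ∧ t p.2 = p.2)
  simp only [Finset.bipartiteAbove, Finset.bipartiteBelow] at h
  rw [h]
  refine Finset.sum_congr rfl fun t ht => ?_
  obtain ⟨-, -, hta, htb, -⟩ := mem_tau.1 ht
  rw [← Finset.offDiag_card]
  congr 1
  ext ⟨x, y⟩
  simp only [Finset.mem_filter, Finset.mem_offDiag]
  constructor
  · rintro ⟨⟨h1, h2, h3⟩, h4, h5⟩
    exact ⟨mem_F.2 ⟨(mem_X.1 h1).2.2, h4⟩, mem_F.2 ⟨(mem_X.1 h2).2.2, h5⟩, h3⟩
  · rintro ⟨h1, h2, h3⟩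
    have hs := F_sub_X (W := W) hab hta htb
    exact ⟨⟨hs h1, hs h2, h3⟩, (mem_F.1 h1).2, (mem_F.1 h2).2⟩

omit C in
/-- `U`-count, general form -/
theorem sum_U_gen (hout : ∀ g ∈ V, ∀ x, x ∉ W → g x = x) (hab : a ≠ b) (S : Finset (Perm α))
    (hS : ∀ t ∈ S, t ∈ V ∧ t a = b ∧ t b = a) :
    ∑ q ∈ (X W a b).offDiag, (S.filter (fun t => t q.1 = q.2)).card =
      ∑ t ∈ S, ((X W a b).card - (F W t).card) := by
  have h := Finset.sum_card_bipartiteAbove_eq_sum_card_bipartiteBelow (s := (X W a b).offDiag)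
    (t := S) (fun (q : α × α) (t : Perm α) => t q.1 = q.2)
  simp only [Finset.bipartiteAbove, Finset.bipartiteBelow] at h
  rw [h]
  refine Finset.sum_congr rfl fun t ht => ?_
  obtain ⟨htV, hta, htb⟩ := hS t ht
  have hmemW : ∀ x ∈ W, t x ∈ W := by
    intro x hx
    by_contra h'
    have h1 := hout t htV (t x) h'
    have h2 := t.injective h1
    rw [h2] at h'
    exact h' hx
  have hsub := F_sub_X (W := W) hab hta htb
  have h1 : (X W a b).offDiag.filter (fun q => t q.1 = q.2) =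
      ((X W a b).filter (fun c => ¬ t c = c)).image (fun c => (c, t c)) := by
    ext ⟨c, e⟩
    simp only [Finset.mem_filter, Finset.mem_offDiag, Finset.mem_image, Prod.mk.injEq]
    constructor
    · rintro ⟨⟨h1, h2, h3⟩, h4⟩
      refine ⟨c, ⟨h1, ?_⟩, rfl, h4⟩
      rw [h4]
      exact h3.symm
    · rintro ⟨c', ⟨h1, h2⟩, rfl, rfl⟩
      obtain ⟨h3, h4, h5⟩ := mem_X.1 h1
      refine ⟨⟨h1, ?_, fun h => h2 h.symm⟩, rfl⟩
      refine mem_X.2 ⟨?_, ?_, hmemW _ h5⟩
      · intro h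
        rw [← hta] at h
        exact h4 (t.injective h)
      · intro h
        rw [← htb] at h
        exact h3 (t.injective h)
  rw [h1, Finset.card_image_of_injective _ (fun x y h => (Prod.mk.inj h).1)]
  have h2 := Finset.card_filter_add_card_filter_not (s := X W a b) (fun c => t c = c)
  have h3 : (X W a b).filter (fun c => t c = c) = F W t := by
    ext z
    simp only [Finset.mem_filter, mem_F]
    constructor
    · rintro ⟨h1, h2⟩
      exact ⟨(mem_X.1 h1).2.2, h2⟩
    · rintro ⟨h1, h2⟩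
      exact ⟨hsub (mem_F.2 ⟨h1, h2⟩), h2⟩
  rw [h3] at h2
  omega

/-- `U`-count -/
theorem sum_U (hab : a ≠ b) :
    ∑ q ∈ (X W a b).offDiag, ((tau V W a b).filter (fun t => t q.1 = q.2)).card =
      ∑ t ∈ tau V W a b, ((X W a b).card - (F W t).card) :=
  sum_U_gen C.hout hab _ fun t ht => ⟨(mem_tau.1 ht).1, (mem_tau.1 ht).2.2.1, (mem_tau.1 ht).2.2.2.1⟩

/-- The bound on each term of the `U`-count. -/
theorem i_le (ha : a ∈ W) (hb : b ∈ W) (hab : a ≠ b) {q : α × α}
    (hq : q ∈ (X W a b).offDiag) :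
    ((tau V W a b).filter (fun t => t q.1 = q.2)) ⊆ pat V a b q.1 q.2 ∧
      (pat V a b q.1 q.2).card ≤ d := by
  obtain ⟨c, e⟩ := q
  simp only [Finset.mem_offDiag] at hq
  obtain ⟨hc, he, hce⟩ := hq
  obtain ⟨c1, c2, c3⟩ := mem_X.1 hc
  obtain ⟨e1, e2, e3⟩ := mem_X.1 he
  refine ⟨?_, C.card_pat_le ha hb c3 e3 hab c2.symm e2.symm c1.symm e1.symm hce⟩
  intro t ht
  obtain ⟨ht1, ht2⟩ := Finset.mem_filter.1 ht
  obtain ⟨htV, hts, hta, htb, -⟩ := mem_tau.1 ht1
  refine mem_pat.2 ⟨htV, hta, htb, ht2, ?_⟩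
  simp only at ht2
  rw [← ht2]
  exact sq_apply hts c

/-- each pair of points is fixed by some member of `tau` -/
theorem exists_tau (ha : a ∈ W) (hb : b ∈ W) (hab : a ≠ b) {p : α × α}
    (hp : p ∈ (X W a b).offDiag) :
    ∃ t ∈ tau V W a b, t p.1 = p.1 ∧ t p.2 = p.2 := by
  obtain ⟨x, y⟩ := p
  simp only [Finset.mem_offDiag] at hp
  obtain ⟨hx, hy, hxy⟩ := hp
  obtain ⟨x1, x2, x3⟩ := mem_X.1 hx
  obtain ⟨y1, y2, y3⟩ := mem_X.1 hy
  obtain ⟨t, htV, ht2, htx, hty, hta, htb⟩ := C.inv_exists ha hb x3 y3 hab x2.symm y2.symm x1.symm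
    y1.symm hxy
  exact ⟨t, mem_tau.2 ⟨htV, ht2, hta, htb, two_le_F x3 y3 hxy htx hty⟩, htx, hty⟩

theorem F_card_tau (hab : a ≠ b) {t : Perm α} (ht : t ∈ tau V W a b) :
    (F W t).card = 2 ∨ (F W t).card = 3 := by
  obtain ⟨htV, ht2, hta, htb, h3⟩ := mem_tau.1 ht
  have hne : t ≠ 1 := by
    rintro rfl
    exact hab hta
  have := C.F_le_three htV ht2 hne
  omega

/-- odd case: for each pair there are at least `d` elements of `tau` -/
theorem d_le_k (ha : a ∈ W) (hb : b ∈ W) (hab : a ≠ b) (hodd : W.card % 2 = 1)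
    {p : α × α} (hp : p ∈ (X W a b).offDiag) :
    d ≤ ((tau V W a b).filter (fun t => t p.1 = p.1 ∧ t p.2 = p.2)).card := by
  obtain ⟨t₀, ht₀, ht₀x, ht₀y⟩ := C.exists_tau ha hb hab hp
  obtain ⟨x, y⟩ := p
  simp only [Finset.mem_offDiag] at hp
  obtain ⟨hx, hy, hxy⟩ := hp
  simp only at ht₀x ht₀y ⊢
  obtain ⟨x1, x2, x3⟩ := mem_X.1 hx
  obtain ⟨y1, y2, y3⟩ := mem_X.1 hy
  obtain ⟨htV, ht2, hta, htb, -⟩ := mem_tau.1 ht₀
  have hc4 := card_four hab x2.symm y2.symm x1.symm y1.symm hxy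
  have hs4 := sub_four ha hb x3 y3
  have hF3 : (F W t₀).card = 3 := by
    have h1 := C.F_parity htV ht2
    rcases C.F_card_tau hab ht₀ with h | h
    · omega
    · exact h
  -- the third fixed point
  have hx' : x ∈ F W t₀ := mem_F.2 ⟨x3, ht₀x⟩
  have hy' : y ∈ (F W t₀).erase x := Finset.mem_erase.2 ⟨hxy.symm, mem_F.2 ⟨y3, ht₀y⟩⟩
  have hcard1 : (((F W t₀).erase x).erase y).card = 1 := by
    rw [Finset.card_erase_of_mem hy', Finset.card_erase_of_mem hx', hF3]
  obtain ⟨w, hw⟩ := Finset.card_eq_one.1 hcard1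
  have hwmem : w ∈ ((F W t₀).erase x).erase y := by rw [hw]; simp
  have hw1 : w ≠ y := (Finset.mem_erase.1 hwmem).1
  have hw2 : w ≠ x := (Finset.mem_erase.1 (Finset.mem_erase.1 hwmem).2).1
  have hw3 : w ∈ F W t₀ := (Finset.mem_erase.1 (Finset.mem_erase.1 hwmem).2).2
  obtain ⟨hwW, hwfix⟩ := mem_F.1 hw3
  have hwa : w ≠ a := by
    rintro rfl
    rw [hta] at hwfix
    exact hab hwfix.symm
  have hwb : w ≠ b := by
    rintro rfl
    rw [htb] at hwfix
    exact hab hwfix
  rw [← C.h4 _ hs4 hc4, ← card_elts]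
  refine Finset.card_le_card_of_injOn (fun c => c * t₀ * c⁻¹) ?_ ?_
  · intro c hc
    have hc' := mem_elts.1 (Finset.mem_coe.1 hc)
    obtain ⟨hcV, hcf⟩ := hc'
    have hca := hcf a (by simp)
    have hcb := hcf b (by simp)
    have hcx := hcf x (by simp)
    have hcy := hcf y (by simp)
    have hia : c⁻¹ a = a := by rw [Perm.inv_eq_iff_eq]; exact hca.symm
    have hib : c⁻¹ b = b := by rw [Perm.inv_eq_iff_eq]; exact hcb.symm
    have hix : c⁻¹ x = x := by rw [Perm.inv_eq_iff_eq]; exact hcx.symm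
    have hiy : c⁻¹ y = y := by rw [Perm.inv_eq_iff_eq]; exact hcy.symm
    simp only [Finset.coe_filter, Set.mem_ofPred_eq]
    have e1 : (c * t₀ * c⁻¹) x = x := by
      simp only [Perm.mul_apply, hix, ht₀x, hcx]
    have e2 : (c * t₀ * c⁻¹) y = y := by
      simp only [Perm.mul_apply, hiy, ht₀y, hcy]
    have e3 : (c * t₀ * c⁻¹) a = b := by
      simp only [Perm.mul_apply, hia, hta, hcb]
    have e4 : (c * t₀ * c⁻¹) b = a := by
      simp only [Perm.mul_apply, hib, htb, hca]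
    refine ⟨mem_tau.2 ⟨V.mul_mem (V.mul_mem hcV htV) (V.inv_mem hcV), ?_, e3, e4,
      two_le_F x3 y3 hxy e1 e2⟩, e1, e2⟩
    rw [conj_pow, ht2]
    group
  · intro c hc c' hc' he
    have hcc := mem_elts.1 (Finset.mem_coe.1 hc)
    have hcc' := mem_elts.1 (Finset.mem_coe.1 hc')
    simp only at he
    -- `u = c⁻¹ * c'` commutes with `t₀`
    obtain ⟨u, hu⟩ : ∃ u, u = c⁻¹ * c' := ⟨_, rfl⟩
    have hcomm : u * t₀ = t₀ * u := by
      rw [hu]
      have h1 : c⁻¹ * (c * t₀ * c⁻¹) * c' = c⁻¹ * (c' * t₀ * c'⁻¹) * c' := by rw [he]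
      have h2 : c⁻¹ * (c * t₀ * c⁻¹) * c' = t₀ * (c⁻¹ * c') := by group
      have h3 : c⁻¹ * (c' * t₀ * c'⁻¹) * c' = c⁻¹ * c' * t₀ := by group
      rw [h2, h3] at h1
      exact h1.symm
    have huf : u ∈ fixS V {a, b, x, y} := by
      rw [hu]
      exact (fixS V _).mul_mem ((fixS V _).inv_mem hcc) hcc'
    obtain ⟨huV, hu'⟩ := huf
    have hux := hu' x (by simp)
    have huy := hu' y (by simp)
    have hua := hu' a (by simp)
    have hub := hu' b (by simp)
    -- `u` fixes `w`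
    have huw : u w = w := by
      have h1 : t₀ (u w) = u w := by
        have := congrArg (fun f : Perm α => f w) hcomm
        simp only [Perm.mul_apply, hwfix] at this
        exact this.symm
      have h2 : u w ∈ F W t₀ := mem_F.2 ⟨C.mem_W huV hwW, h1⟩
      have h3 : u w ≠ x := by
        intro h
        rw [← hux] at h
        exact hw2 (u.injective h)
      have h4 : u w ≠ y := by
        intro h
        rw [← huy] at h
        exact hw1 (u.injective h)
      have h5 : u w ∈ ((F W t₀).erase x).erase y :=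
        Finset.mem_erase.2 ⟨h4, Finset.mem_erase.2 ⟨h3, h2⟩⟩
      rw [hw] at h5
      exact Finset.mem_singleton.1 h5
    have h5 : fixS V {w, a, b, x, y} = ⊥ := by
      apply C.h5
      · intro z hz
        simp only [Finset.mem_insert, Finset.mem_singleton] at hz
        rcases hz with rfl | rfl | rfl | rfl | rfl <;> assumption
      · rw [Finset.card_insert_of_notMem, hc4]
        simp [hwa, hwb, hw2, hw1]
    have hu1 : u ∈ fixS V {w, a, b, x, y} := by
      refine ⟨huV, fun z hz => ?_⟩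
      simp only [Finset.mem_insert, Finset.mem_singleton] at hz
      rcases hz with rfl | rfl | rfl | rfl | rfl <;> assumption
    rw [h5, Subgroup.mem_bot] at hu1
    rw [hu] at hu1
    exact inv_injective (mul_eq_one_iff_eq_inv.1 hu1)

/-- `N` is even -/
theorem even_card (hN : 12 ≤ W.card) (ha : a ∈ W) (hb : b ∈ W) (hab : a ≠ b) : W.card % 2 = 0 := by
  by_contra hodd
  have hodd' : W.card % 2 = 1 := by omega
  have hF3 : ∀ t ∈ tau V W a b, (F W t).card = 3 := by
    intro t ht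
    obtain ⟨htV, ht2, hta, htb, -⟩ := mem_tau.1 ht
    have h1 := C.F_parity htV ht2
    rcases C.F_card_tau hab ht with h | h
    · omega
    · exact h
  have hL := sum_L (V := V) (W := W) hab
  have hU := C.sum_U hab
  have hcX := card_X ha hb hab
  have hL1 : ∑ t ∈ tau V W a b, ((F W t).card * (F W t).card - (F W t).card) =
      (tau V W a b).card * 6 := by
    rw [Finset.sum_congr rfl (g := fun _ => 6), Finset.sum_const, smul_eq_mul]
    intro t ht
    rw [hF3 t ht]
  have hU1 : ∑ t ∈ tau V W a b, ((X W a b).card - (F W t).card) =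
      (tau V W a b).card * (W.card - 5) := by
    rw [Finset.sum_congr rfl (g := fun _ => W.card - 5), Finset.sum_const, smul_eq_mul]
    intro t ht
    rw [hF3 t ht, hcX]
    omega
  have hL2 : (X W a b).offDiag.card * d ≤ (tau V W a b).card * 6 := by
    rw [← hL1, ← hL, ← smul_eq_mul]
    exact Finset.card_nsmul_le_sum _ _ _ fun p hp => C.d_le_k ha hb hab hodd' hp
  have hU2 : (tau V W a b).card * (W.card - 5) ≤ (X W a b).offDiag.card * d := by
    rw [← hU1, ← hU, ← smul_eq_mul]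
    refine Finset.sum_le_card_nsmul _ _ _ fun q hq => ?_
    obtain ⟨h1, h2⟩ := C.i_le ha hb hab hq
    exact le_trans (Finset.card_le_card h1) h2
  have hpos : 0 < (X W a b).offDiag.card * d := by
    refine Nat.mul_pos ?_ C.d_pos
    rw [Finset.offDiag_card, hcX]
    have : (W.card - 2) * (W.card - 2) - (W.card - 2) = (W.card - 2) * (W.card - 3) := by
      obtain ⟨k, hk⟩ : ∃ k, W.card = k + 3 := ⟨W.card - 3, by omega⟩
      rw [hk]
      simp only [show k + 3 - 2 = k + 1 by omega, show k + 3 - 3 = k by omega]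
      rw [Nat.mul_succ]
      omega
    rw [this]
    exact Nat.mul_pos (by omega) (by omega)
  obtain ⟨D, hD⟩ : ∃ D, D = (X W a b).offDiag.card * d := ⟨_, rfl⟩
  rw [← hD] at hL2 hU2 hpos
  obtain ⟨T, hT⟩ : ∃ T, T = (tau V W a b).card := ⟨_, rfl⟩
  rw [← hT] at hL2 hU2
  have h7 : 7 ≤ W.card - 5 := by omega
  have hU3 : T * 7 ≤ D := le_trans (Nat.mul_le_mul_left _ h7) hU2
  omega

/-- the even case: equalities -/
theorem even_struct (h2d : 2 * d + 4 ≤ W.card) (hev : W.card % 2 = 0) (ha : a ∈ W) (hb : b ∈ W)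
    (hab : a ≠ b) :
    W.card = 2 * d + 4 ∧
    (∀ p ∈ (X W a b).offDiag,
      ((tau V W a b).filter (fun t => t p.1 = p.1 ∧ t p.2 = p.2)).card = 1) ∧
    (∀ q ∈ (X W a b).offDiag, ((tau V W a b).filter (fun t => t q.1 = q.2)).card = d) := by
  have hdpos := C.d_pos
  have hF2 : ∀ t ∈ tau V W a b, (F W t).card = 2 := by
    intro t ht
    obtain ⟨htV, ht2, hta, htb, -⟩ := mem_tau.1 ht
    have h1 := C.F_parity htV ht2
    rcases C.F_card_tau hab ht with h | h
    · exact h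
    · omega
  have hL := sum_L (V := V) (W := W) hab
  have hU := C.sum_U hab
  have hcX := card_X ha hb hab
  have hL1 : ∑ t ∈ tau V W a b, ((F W t).card * (F W t).card - (F W t).card) =
      (tau V W a b).card * 2 := by
    rw [Finset.sum_congr rfl (g := fun _ => 2), Finset.sum_const, smul_eq_mul]
    intro t ht
    rw [hF2 t ht]
  have hU1 : ∑ t ∈ tau V W a b, ((X W a b).card - (F W t).card) =
      (tau V W a b).card * (W.card - 4) := by
    rw [Finset.sum_congr rfl (g := fun _ => W.card - 4), Finset.sum_const, smul_eq_mul]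
    intro t ht
    rw [hF2 t ht, hcX]
    omega
  have hk1 : ∀ p ∈ (X W a b).offDiag,
      1 ≤ ((tau V W a b).filter (fun t => t p.1 = p.1 ∧ t p.2 = p.2)).card := by
    intro p hp
    obtain ⟨t, ht, h1, h2⟩ := C.exists_tau ha hb hab hp
    exact Finset.card_pos.2 ⟨t, Finset.mem_filter.2 ⟨ht, h1, h2⟩⟩
  have hid : ∀ q ∈ (X W a b).offDiag, ((tau V W a b).filter (fun t => t q.1 = q.2)).card ≤ d := by
    intro q hq
    obtain ⟨h1, h2⟩ := C.i_le ha hb hab hq
    exact le_trans (Finset.card_le_card h1) h2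
  have hL2 : (X W a b).offDiag.card * 1 ≤ (tau V W a b).card * 2 := by
    rw [← hL1, ← hL, ← smul_eq_mul]
    exact Finset.card_nsmul_le_sum _ _ _ hk1
  have hU2 : (tau V W a b).card * (W.card - 4) ≤ (X W a b).offDiag.card * d := by
    rw [← hU1, ← hU, ← smul_eq_mul]
    exact Finset.sum_le_card_nsmul _ _ _ hid
  obtain ⟨D, hD⟩ : ∃ D, D = (X W a b).offDiag.card := ⟨_, rfl⟩
  obtain ⟨T, hT⟩ : ∃ T, T = (tau V W a b).card := ⟨_, rfl⟩
  have hDpos : 0 < D := by
    rw [hD]
    apply Finset.card_pos.2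
    have h12 : 3 ≤ (X W a b).card := by
      have : 0 < d := hdpos
      obtain ⟨r, hr⟩ := C.hd
      omega
    obtain ⟨x, hx⟩ : (X W a b).Nonempty := Finset.card_pos.1 (by omega)
    obtain ⟨y, hy⟩ : ((X W a b).erase x).Nonempty := by
      apply Finset.card_pos.1
      rw [Finset.card_erase_of_mem hx]
      omega
    exact ⟨(x, y), Finset.mem_offDiag.2 ⟨hx, (Finset.mem_erase.1 hy).2, (Finset.mem_erase.1 hy).1.symm⟩⟩
  rw [← hD, ← hT] at hL2 hU2
  rw [mul_one] at hL2
  -- numerics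
  obtain ⟨M, hM⟩ : ∃ M, M = W.card - 4 := ⟨_, rfl⟩
  rw [← hM] at hU2
  have hM2 : 2 * d ≤ M := by omega
  have e1 : 2 * T * d ≤ D * d := by
    calc 2 * T * d = T * (2 * d) := by ring
      _ ≤ T * M := Nat.mul_le_mul_left _ hM2
      _ ≤ D * d := hU2
  have e2 : 2 * T ≤ D := Nat.le_of_mul_le_mul_right e1 hdpos
  have e3 : D = 2 * T := by omega
  have hTpos : 0 < T := by omega
  have e4 : T * M ≤ T * (2 * d) := by
    calc T * M ≤ D * d := hU2
      _ = T * (2 * d) := by rw [e3]; ring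
  have e5 : M ≤ 2 * d := Nat.le_of_mul_le_mul_left e4 hTpos
  have e6 : M = 2 * d := by omega
  refine ⟨by omega, ?_, ?_⟩
  · have hs : ∑ p ∈ (X W a b).offDiag,
        ((tau V W a b).filter (fun t => t p.1 = p.1 ∧ t p.2 = p.2)).card =
        ∑ p ∈ (X W a b).offDiag, 1 := by
      rw [hL, hL1, Finset.sum_const, smul_eq_mul, mul_one, ← hD, ← hT, e3]
      ring
    intro p hp
    exact (((Finset.sum_eq_sum_iff_of_le hk1).1 hs.symm) p hp).symm
  · have hs : ∑ q ∈ (X W a b).offDiag, ((tau V W a b).filter (fun t => t q.1 = q.2)).card =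
        ∑ q ∈ (X W a b).offDiag, d := by
      rw [hU, hU1, Finset.sum_const, smul_eq_mul, ← hD, ← hT, ← hM, e6, e3]
      ring
    exact (Finset.sum_eq_sum_iff_of_le hid).1 hs

/-- every element with the pattern `(a b)(c e)` is an involution, in the even case -/
theorem pat_sq (h2d : 2 * d + 4 ≤ W.card) (hev : W.card % 2 = 0) (ha : a ∈ W) (hb : b ∈ W)
    (hab : a ≠ b) {q : α × α} (hq : q ∈ (X W a b).offDiag) {g : Perm α}
    (hg : g ∈ pat V a b q.1 q.2) : g ^ 2 = 1 := by
  obtain ⟨-, -, h3⟩ := C.even_struct h2d hev ha hb hab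
  obtain ⟨h1, h2⟩ := C.i_le ha hb hab hq
  have h4 := Finset.eq_of_subset_of_card_le h1 (by rw [h3 q hq]; exact h2)
  rw [← h4] at hg
  exact (mem_tau.1 (Finset.mem_filter.1 hg).1).2.1

/-- uniqueness of the involution, in the even case -/
theorem tau_unique (h2d : 2 * d + 4 ≤ W.card) (hev : W.card % 2 = 0) (ha : a ∈ W) (hb : b ∈ W)
    (hab : a ≠ b) {p : α × α} (hp : p ∈ (X W a b).offDiag) {t t' : Perm α}
    (ht : t ∈ tau V W a b) (ht1 : t p.1 = p.1) (ht2 : t p.2 = p.2)
    (ht' : t' ∈ tau V W a b) (ht1' : t' p.1 = p.1) (ht2' : t' p.2 = p.2) : t = t' := by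
  obtain ⟨-, h3, -⟩ := C.even_struct h2d hev ha hb hab
  have h4 := Finset.card_le_one.1 (le_of_eq (h3 p hp))
  exact h4 t (Finset.mem_filter.2 ⟨ht, ht1, ht2⟩) t' (Finset.mem_filter.2 ⟨ht', ht1', ht2'⟩)

end Cfg

/-- In the even case `d = 1`. -/
theorem Cfg.d_eq_one (C : Cfg V W d) (hev : W.card % 2 = 0) (h2d : 2 * d + 4 ≤ W.card) : d = 1 := by
  have hdpos := C.d_pos
  -- four distinct points
  obtain ⟨a, ha⟩ : W.Nonempty := Finset.card_pos.1 (by omega)
  obtain ⟨b, hb⟩ : (W.erase a).Nonempty := by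
    apply Finset.card_pos.1
    rw [Finset.card_erase_of_mem ha]
    omega
  obtain ⟨hb1, hb2⟩ := Finset.mem_erase.1 hb
  obtain ⟨x, hx⟩ : (X W a b).Nonempty := by
    apply Finset.card_pos.1
    rw [card_X ha hb2 hb1.symm]
    omega
  obtain ⟨y, hy⟩ : ((X W a b).erase x).Nonempty := by
    apply Finset.card_pos.1
    rw [Finset.card_erase_of_mem hx, card_X ha hb2 hb1.symm]
    omega
  obtain ⟨hy1, hy2⟩ := Finset.mem_erase.1 hy
  obtain ⟨x1, x2, x3⟩ := mem_X.1 hx
  obtain ⟨y1, y2, y3⟩ := mem_X.1 hy2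
  have hab : a ≠ b := hb1.symm
  have hxy : x ≠ y := hy1.symm
  have hax : a ≠ x := x2.symm
  have hay : a ≠ y := y2.symm
  have hbx : b ≠ x := x1.symm
  have hby : b ≠ y := y1.symm
  -- `d = 1`
  have hall : ∀ c ∈ fixS V {a, b, x, y}, c = 1 := by
    intro c hc
    have hpq : (x, y) ∈ (X W a b).offDiag := Finset.mem_offDiag.2 ⟨hx, hy2, hxy⟩
    have hpq' : (a, b) ∈ (X W x y).offDiag :=
      Finset.mem_offDiag.2 ⟨mem_X.2 ⟨hay, hax, ha⟩, mem_X.2 ⟨hby, hbx, hb2⟩, hab⟩
    obtain ⟨t, ht, htx, hty⟩ := C.exists_tau ha hb2 hab hpq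
    obtain ⟨t', ht', hta', htb'⟩ := C.exists_tau x3 y3 hxy hpq'
    simp only at htx hty hta' htb'
    obtain ⟨hcV, hcf⟩ := hc
    have hca := hcf a (by simp)
    have hcb := hcf b (by simp)
    have hcx := hcf x (by simp)
    have hcy := hcf y (by simp)
    have hia : c⁻¹ a = a := by rw [Perm.inv_eq_iff_eq]; exact hca.symm
    have hib : c⁻¹ b = b := by rw [Perm.inv_eq_iff_eq]; exact hcb.symm
    have hix : c⁻¹ x = x := by rw [Perm.inv_eq_iff_eq]; exact hcx.symm
    have hiy : c⁻¹ y = y := by rw [Perm.inv_eq_iff_eq]; exact hcy.symm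
    obtain ⟨htV, hts, hta, htb, -⟩ := mem_tau.1 ht
    obtain ⟨htV', hts', htx', hty', -⟩ := mem_tau.1 ht'
    -- `c` commutes with `t`
    have hct : c * t * c⁻¹ = t := by
      have e1 : (c * t * c⁻¹) x = x := by simp only [Perm.mul_apply, hix, htx, hcx]
      have e2 : (c * t * c⁻¹) y = y := by simp only [Perm.mul_apply, hiy, hty, hcy]
      have e3 : (c * t * c⁻¹) a = b := by simp only [Perm.mul_apply, hia, hta, hcb]
      have e4 : (c * t * c⁻¹) b = a := by simp only [Perm.mul_apply, hib, htb, hca]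
      refine C.tau_unique h2d hev ha hb2 hab hpq (mem_tau.2 ⟨V.mul_mem (V.mul_mem hcV htV)
        (V.inv_mem hcV), ?_, e3, e4, two_le_F x3 y3 hxy e1 e2⟩) e1 e2 ht htx hty
      rw [conj_pow, hts]
      group
    have hct' : c * t' * c⁻¹ = t' := by
      have e1 : (c * t' * c⁻¹) a = a := by simp only [Perm.mul_apply, hia, hta', hca]
      have e2 : (c * t' * c⁻¹) b = b := by simp only [Perm.mul_apply, hib, htb', hcb]
      have e3 : (c * t' * c⁻¹) x = y := by simp only [Perm.mul_apply, hix, htx', hcy]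
      have e4 : (c * t' * c⁻¹) y = x := by simp only [Perm.mul_apply, hiy, hty', hcx]
      refine C.tau_unique h2d hev x3 y3 hxy hpq' (mem_tau.2 ⟨V.mul_mem (V.mul_mem hcV htV')
        (V.inv_mem hcV), ?_, e3, e4, two_le_F ha hb2 hab e1 e2⟩) e1 e2 ht' hta' htb'
      rw [conj_pow, hts']
      group
    have hcg : c * (t * t') = (t * t') * c := by
      have h1 : c * t = t * c := by
        have := congrArg (· * c) hct
        simpa using this
      have h2 : c * t' = t' * c := by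
        have := congrArg (· * c) hct'
        simpa using this
      rw [← mul_assoc, h1, mul_assoc, h2, mul_assoc]
    -- the patterns
    obtain ⟨g, hg⟩ : ∃ g, g = t * t' := ⟨_, rfl⟩
    rw [← hg] at hcg
    have hgV : g ∈ V := by rw [hg]; exact V.mul_mem htV htV'
    have ga : g a = b := by rw [hg, Perm.mul_apply, hta', hta]
    have gb : g b = a := by rw [hg, Perm.mul_apply, htb', htb]
    have gx : g x = y := by rw [hg, Perm.mul_apply, htx', hty]
    have gy : g y = x := by rw [hg, Perm.mul_apply, hty', htx]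
    have hp1 : g ∈ pat V a b x y := mem_pat.2 ⟨hgV, ga, gb, gx, gy⟩
    have hp2 : g * c ∈ pat V a b x y := by
      refine mem_pat.2 ⟨V.mul_mem hgV hcV, ?_, ?_, ?_, ?_⟩
      · rw [Perm.mul_apply, hca, ga]
      · rw [Perm.mul_apply, hcb, gb]
      · rw [Perm.mul_apply, hcx, gx]
      · rw [Perm.mul_apply, hcy, gy]
    have s1 : g ^ 2 = 1 := C.pat_sq h2d hev ha hb2 hab hpq hp1
    have s2 : (g * c) ^ 2 = 1 := C.pat_sq h2d hev ha hb2 hab hpq hp2
    have s3 : c ^ 2 = 1 := by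
      have : (g * c) ^ 2 = g ^ 2 * c ^ 2 := by
        rw [pow_two, pow_two, pow_two, mul_assoc, ← mul_assoc c g c, hcg]
        group
      rw [this, s1, one_mul] at s2
      exact s2
    exact C.eq_one_of_sq (sub_four ha hb2 x3 y3) (card_four hab hax hay hbx hby hxy)
      ⟨hcV, hcf⟩ s3
  have hbot : fixS V {a, b, x, y} = ⊥ := by
    rw [eq_bot_iff]
    intro c hc
    exact Subgroup.mem_bot.2 (hall c hc)
  have h4 := C.h4 _ (sub_four ha hb2 x3 y3) (card_four hab hax hay hbx hby hxy)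
  rw [hbot, Nat.card_eq_one_iff_unique.2 ⟨inferInstance, inferInstance⟩] at h4
  exact h4.symm

/-- The possible degrees. -/
theorem Cfg.card_cases (C : Cfg V W d) (h2d : 2 * d + 4 ≤ W.card) :
    (W.card = 6 ∧ d = 1) ∨ W.card = 7 ∨ W.card = 9 ∨ W.card = 11 := by
  have hdpos := C.d_pos
  by_cases hev : W.card % 2 = 0
  · left
    have h1 := C.d_eq_one hev h2d
    refine ⟨?_, h1⟩
    obtain ⟨a, ha⟩ : W.Nonempty := Finset.card_pos.1 (by omega)
    obtain ⟨b, hb⟩ : (W.erase a).Nonempty := by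
      apply Finset.card_pos.1
      rw [Finset.card_erase_of_mem ha]
      omega
    obtain ⟨hb1, hb2⟩ := Finset.mem_erase.1 hb
    obtain ⟨h2, -, -⟩ := C.even_struct h2d hev ha hb2 hb1.symm
    omega
  · right
    have hlt : W.card < 12 := by
      by_contra hge
      obtain ⟨a, ha⟩ : W.Nonempty := Finset.card_pos.1 (by omega)
      obtain ⟨b, hb⟩ : (W.erase a).Nonempty := by
        apply Finset.card_pos.1
        rw [Finset.card_erase_of_mem ha]
        omega
      obtain ⟨hb1, hb2⟩ := Finset.mem_erase.1 hb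
      exact hev (C.even_card (by omega) ha hb2 hb1.symm)
    omega

end Cfsg.Agent.Lib.LVFour
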