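import Mathlib
import Cfsg.Agent.Lib.LVBasic

/-!
# Small degree eliminations for the Livingstone–Wagner theorem

A group of order `2 p d`, transitive on `2 p` points with point stabilisers of order `d` and trivial
two-point stabilisers, has `d ∣ p - 1` (for an odd prime `p` not dividing `d`).
-/

set_option autoImplicit false
set_option linter.unusedSectionVars false
set_option linter.style.haveILetI false

namespace Cfsg.Agent.Lib.LVKill

open Equiv Finset
open Cfsg.Agent.Lib.LVBasic

variable {α : Type*} [Fintype α] [DecidableEq α]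

theorem num2 {n m β a d : ℕ} (h1 : m * β = 2) (h2 : 2 ≤ m) (h3 : (n - 2) * a = 3 * β) (h4 : 3 ≤ n)
    (h5 : m * d = n - 2 + 1) (h6 : Odd d) (h7 : 0 < a) : n = 3 ∧ d = 1 := by
  obtain ⟨r, rfl⟩ := h6
  have hβ0 : 0 < β := by
    rcases Nat.eq_zero_or_pos β with h | h
    · subst h; simp at h1
    · exact h
  have hm : m ≤ 2 := by nlinarith
  have hm2 : m = 2 := by omega
  subst hm2
  have hβ : β = 1 := by omega
  subst hβ
  have ha : a ≤ 3 := by
    have : 1 * a ≤ (n - 2) * a := Nat.mul_le_mul_right _ (by omega)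
    omega
  interval_cases a <;> omega

theorem num3 {n m β a d : ℕ} (h1 : m * d = n - 3 + 1) (h2 : 2 ≤ m) (h3 : m * β = 6)
    (h4 : (n - 3) * a = 4 * β) (h5 : 4 ≤ n) (h6 : Odd d) (h7 : 0 < a) :
    (n = 4 ∧ d = 1) ∨ (n = 5 ∧ d = 1) ∨ (n = 11 ∧ d = 3) := by
  obtain ⟨r, rfl⟩ := h6
  have hβ0 : 0 < β := by
    rcases Nat.eq_zero_or_pos β with h | h
    · subst h; simp at h3
    · exact h
  have hm : m ≤ 6 := by nlinarith
  have hβ : β ≤ 3 := by nlinarith
  have ha : a ≤ 4 * β := by
    rw [← h4]
    exact Nat.le_mul_of_pos_left _ (by omega)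
  have ha' : a ≤ 12 := by omega
  interval_cases m <;> first
    | (exfalso; omega)
    | (interval_cases a <;> omega)

set_option maxHeartbeats 4000000 in
theorem num4 {n m β a d : ℕ} (h1 : m * d = n - 4 + 1) (h2 : 2 ≤ m) (h3 : m * β = 24)
    (h4 : (n - 4) * a = 5 * β) (h5 : 5 ≤ n) (h6 : Odd d) (h7 : 0 < a) :
    (n = 5 ∧ d = 1) ∨ (n = 6 ∧ d = 1) ∨ (n = 7 ∧ d = 1) ∨ (n = 9 ∧ d = 1) ∨ (n = 9 ∧ d = 3) ∨
      (n = 12 ∧ d = 3) ∨ (n = 24 ∧ d = 7) := by
  obtain ⟨r, rfl⟩ := h6
  have hβ0 : 0 < β := by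
    rcases Nat.eq_zero_or_pos β with h | h
    · subst h; simp at h3
    · exact h
  have hm : m ≤ 24 := by nlinarith
  have hβ : β ≤ 12 := by nlinarith
  have ha : a ≤ 5 * β := by
    rw [← h4]
    exact Nat.le_mul_of_pos_left _ (by omega)
  have ha' : a ≤ 60 := by omega
  interval_cases m <;> first
    | (exfalso; omega)
    | (interval_cases a <;> omega)

/-- The elimination. -/
theorem kill_false (H : Subgroup (Perm α)) (W : Finset α) (hout : ∀ g ∈ H, ∀ x, x ∉ W → g x = x)
    {p d : ℕ} (hp : p.Prime) (hp2 : p ≠ 2) (hW : W.card = 2 * p) (hcard : Nat.card H = 2 * p * d)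
    (hd : ∀ x ∈ W, Nat.card (fixS H {x}) = d)
    (h2 : ∀ x y, x ∈ W → y ∈ W → x ≠ y → fixS H {x, y} = ⊥)
    (hpd : ¬ p ∣ d) (hdp : ¬ d ∣ p - 1) : False := by
  classical
  haveI : Fact p.Prime := ⟨hp⟩
  have hp3 : 3 ≤ p := by
    have := hp.two_le
    omega
  have hmemW : ∀ g ∈ H, ∀ x ∈ W, g x ∈ W := by
    intro g hg x hx
    by_contra h
    have h1 := hout g hg (g x) h
    have h2 := g.injective h1
    rw [h2] at h
    exact h hx
  obtain ⟨x₀, hx₀⟩ : W.Nonempty := Finset.card_pos.1 (by omega)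
  have hdpos : 0 < d := by
    rw [← hd x₀ hx₀]
    exact Nat.card_pos
  -- the elements without fixed points
  let A : Finset (Perm α) := (elts H).filter (fun g => ∀ x ∈ W, g x ≠ x)
  let B : α → Finset (Perm α) := fun x => (elts (fixS H {x})).erase 1
  have hB : ∀ x ∈ W, (B x).card = d - 1 := by
    intro x hx
    rw [Finset.card_erase_of_mem (mem_elts.2 (Subgroup.one_mem _)), card_elts, hd x hx]
  have hBmem : ∀ x g, g ∈ B x ↔ g ≠ 1 ∧ g ∈ H ∧ g x = x := by
    intro x g
    simp only [B, Finset.mem_erase, mem_elts, mem_fixS, Finset.mem_singleton, forall_eq]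
  have hBd : (↑W : Set α).PairwiseDisjoint B := by
    intro x hx y hy hxy
    rw [Function.onFun, Finset.disjoint_left]
    intro g hg hg'
    obtain ⟨h1, h3, h4⟩ := (hBmem x g).1 hg
    obtain ⟨-, -, h5⟩ := (hBmem y g).1 hg'
    have h6 : g ∈ fixS H {x, y} := by
      refine ⟨h3, fun z hz => ?_⟩
      simp only [Finset.mem_insert, Finset.mem_singleton] at hz
      rcases hz with rfl | rfl
      · exact h4
      · exact h5
    rw [h2 x y hx hy hxy, Subgroup.mem_bot] at h6
    exact h1 h6
  have hU : (W.biUnion B).card = 2 * p * (d - 1) := by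
    rw [Finset.card_biUnion hBd, Finset.sum_congr rfl hB, Finset.sum_const, smul_eq_mul, hW]
  have hsub : A ∪ (W.biUnion B ∪ {1}) ⊆ elts H := by
    intro g hg
    simp only [Finset.mem_union, Finset.mem_biUnion, Finset.mem_singleton] at hg
    rcases hg with hg | ⟨x, hx, hg⟩ | rfl
    · exact (Finset.mem_filter.1 hg).1
    · exact mem_elts.2 ((hBmem x g).1 hg).2.1
    · exact mem_elts.2 H.one_mem
  have hdisj1 : Disjoint (W.biUnion B) {1} := by
    rw [Finset.disjoint_singleton_right]
    simp only [Finset.mem_biUnion, not_exists, not_and]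
    intro x _ h
    exact ((hBmem x 1).1 h).1 rfl
  have hdisj2 : Disjoint A (W.biUnion B ∪ {1}) := by
    rw [Finset.disjoint_left]
    intro g hg hg'
    obtain ⟨-, hg2⟩ := Finset.mem_filter.1 hg
    simp only [Finset.mem_union, Finset.mem_biUnion, Finset.mem_singleton] at hg'
    rcases hg' with ⟨x, hx, hg'⟩ | rfl
    · exact hg2 x hx ((hBmem x g).1 hg').2.2
    · exact hg2 x₀ hx₀ rfl
  have hAcard : A.card + 1 ≤ 2 * p := by
    have h1 := Finset.card_le_card hsub
    rw [Finset.card_union_of_disjoint hdisj2, Finset.card_union_of_disjoint hdisj1, hU, card_elts,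
      hcard, Finset.card_singleton] at h1
    obtain ⟨e, rfl⟩ : ∃ e, d = e + 1 := ⟨d - 1, by omega⟩
    simp only [Nat.add_sub_cancel] at h1
    have : 2 * p * (e + 1) = 2 * p * e + 2 * p := by ring
    omega
  -- Sylow subgroups
  have hfact : (Nat.card H).factorization p = 1 := by
    rw [hcard, Nat.factorization_mul (by positivity) hdpos.ne',
      Nat.factorization_mul (by norm_num) hp.ne_zero]
    simp only [Finsupp.coe_add, Pi.add_apply]
    rw [hp.factorization_self, Nat.factorization_eq_zero_of_not_dvd hpd,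
      Nat.factorization_eq_zero_of_not_dvd (by
        intro h
        have := (Nat.prime_dvd_prime_iff_eq hp Nat.prime_two).1 h
        exact hp2 this)]
  have hPcard : ∀ P : Sylow p H, Nat.card (P : Subgroup H) = p := by
    intro P
    rw [P.card_eq_multiplicity, hfact, pow_one]
  -- the elements of a Sylow subgroup
  let E : Sylow p H → Finset (Perm α) := fun P =>
    (elts ((P : Subgroup H).map H.subtype)).erase 1
  have hEcard : ∀ P, (E P).card = p - 1 := by
    intro P
    rw [Finset.card_erase_of_mem (mem_elts.2 (Subgroup.one_mem _)), card_elts,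
      Subgroup.card_map_of_injective H.subtype_injective, hPcard]
  have hEmem : ∀ P g, g ∈ E P ↔ g ≠ 1 ∧ g ∈ (P : Subgroup H).map H.subtype := by
    intro P g
    simp only [E, Finset.mem_erase, mem_elts]
  -- no fixed points
  have hEfree : ∀ P g, g ∈ E P → g ∈ H ∧ ∀ x ∈ W, g x ≠ x := by
    intro P g hg
    obtain ⟨h1, ⟨h, hh, rfl⟩⟩ := (hEmem P g).1 hg
    refine ⟨h.2, fun x hx hfx => ?_⟩
    have h3 : (h : Perm α) ∈ fixS H {x} := by
      refine ⟨h.2, fun z hz => ?_⟩
      rw [Finset.mem_singleton] at hz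
      subst hz
      exact hfx
    have h4 : ((h : Perm α)) ^ d = 1 := by
      have := pow_card_eq_one' (x := (⟨h, h3⟩ : fixS H {x}))
      rw [hd x hx] at this
      exact congrArg Subtype.val this
    have h5 : ((h : Perm α)) ^ p = 1 := by
      have := pow_card_eq_one' (x := (⟨h, hh⟩ : (P : Subgroup H)))
      rw [hPcard P] at this
      have h6 := congrArg (fun z : (P : Subgroup H) => ((z : H) : Perm α)) this
      simpa using h6
    have h6 : orderOf (h : Perm α) = p := orderOf_eq_prime h5 h1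
    exact hpd (h6 ▸ orderOf_dvd_of_pow_eq_one h4)
  have hEsubA : ∀ P, E P ⊆ A := by
    intro P g hg
    obtain ⟨h1, h2⟩ := hEfree P g hg
    exact Finset.mem_filter.2 ⟨mem_elts.2 h1, h2⟩
  have hEdisj : ∀ P Q : Sylow p H, P ≠ Q → Disjoint (E P) (E Q) := by
    intro P Q hPQ
    rw [Finset.disjoint_left]
    intro g hg hg'
    obtain ⟨h1, ⟨h, hh, rfl⟩⟩ := (hEmem P g).1 hg
    obtain ⟨-, ⟨h', hh', he⟩⟩ := (hEmem Q _).1 hg'
    have hhh : h' = h := Subtype.ext he
    subst hhh
    apply hPQ
    have hne : (P : Subgroup H) ⊓ (Q : Subgroup H) ≠ ⊥ := by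
      intro hbot
      have : h' ∈ (P : Subgroup H) ⊓ (Q : Subgroup H) := ⟨hh, hh'⟩
      rw [hbot, Subgroup.mem_bot] at this
      apply h1
      rw [this]
      rfl
    have hdvd : Nat.card ((P : Subgroup H) ⊓ (Q : Subgroup H) : Subgroup H) ∣ p := by
      have h3 := Subgroup.card_dvd_of_le (inf_le_left : (P : Subgroup H) ⊓ (Q : Subgroup H) ≤ (P : Subgroup H))
      rwa [hPcard P] at h3
    have hc : Nat.card ((P : Subgroup H) ⊓ (Q : Subgroup H) : Subgroup H) = p := by
      rcases (Nat.dvd_prime hp).1 hdvd with h | h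
      · exact absurd (Subgroup.eq_bot_of_card_eq _ h) hne
      · exact h
    have e1 : (P : Subgroup H) ⊓ (Q : Subgroup H) = (P : Subgroup H) :=
      Subgroup.eq_of_le_of_card_ge inf_le_left (by rw [hc, hPcard])
    have e2 : (P : Subgroup H) ⊓ (Q : Subgroup H) = (Q : Subgroup H) :=
      Subgroup.eq_of_le_of_card_ge inf_le_right (by rw [hc, hPcard])
    exact Sylow.ext (e1.symm.trans e2)
  -- at most two Sylow subgroups
  have hle2 : Nat.card (Sylow p H) ≤ 2 := by
    by_contra hcon
    haveI : Fintype (Sylow p H) := Fintype.ofFinite _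
    rw [Nat.card_eq_fintype_card, not_le] at hcon
    obtain ⟨P, Q, R, hPQ, hPR, hQR⟩ := Fintype.two_lt_card_iff.1 hcon
    have h1 : E P ∪ (E Q ∪ E R) ⊆ A := Finset.union_subset (hEsubA P)
      (Finset.union_subset (hEsubA Q) (hEsubA R))
    have h3 := Finset.card_le_card h1
    rw [Finset.card_union_of_disjoint, Finset.card_union_of_disjoint (hEdisj Q R hQR), hEcard,
      hEcard, hEcard] at h3
    · omega
    · rw [Finset.disjoint_union_right]
      exact ⟨hEdisj P Q hPQ, hEdisj P R hPR⟩
  have hone : Nat.card (Sylow p H) = 1 := by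
    have h1 := card_sylow_modEq_one p H
    have h3 : 0 < Nat.card (Sylow p H) := Nat.card_pos
    have h4 : Nat.card (Sylow p H) % p = 1 % p := h1
    rw [Nat.mod_eq_of_lt (show 1 < p by omega)] at h4
    by_contra hne
    have h5 : Nat.card (Sylow p H) = 2 := by omega
    rw [h5, Nat.mod_eq_of_lt (by omega)] at h4
    omega
  haveI hsub' : Subsingleton (Sylow p H) := (Nat.card_eq_one_iff_unique.1 hone).1
  let P : Sylow p H := default
  haveI hPn : (P : Subgroup H).Normal := P.normal_of_subsingleton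
  have hPc := hPcard P
  -- the conjugation action
  let φ : fixS H {x₀} →* MulAut (P : Subgroup H) :=
    (MulAut.conjNormal (H := (P : Subgroup H))).comp (Subgroup.inclusion (fixS_le H {x₀}))
  have hinj : Function.Injective φ := by
    rw [injective_iff_map_eq_one]
    intro c hc
    -- a nontrivial element of `P`
    obtain ⟨u, hu⟩ : ∃ u : (P : Subgroup H), u ≠ 1 := by
      haveI : Nontrivial (P : Subgroup H) := by
        rw [← Finite.one_lt_card_iff_nontrivial, hPc]
        omega
      exact exists_ne 1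
    have hu1 : ((u : H) : Perm α) ≠ 1 := by
      intro h
      apply hu
      apply Subtype.ext
      apply Subtype.ext
      exact h
    have hu2 : ((u : H) : Perm α) ∈ E P := by
      refine (hEmem P _).2 ⟨hu1, ⟨(u : H), u.2, rfl⟩⟩
    obtain ⟨hu3, hu4⟩ := hEfree P _ hu2
    have hcomm : ((c : Perm α)) * ((u : H) : Perm α) = ((u : H) : Perm α) * (c : Perm α) := by
      have h1 := congrArg (fun f : MulAut (P : Subgroup H) => f u) hc
      simp only [φ, MonoidHom.comp_apply, MulAut.one_apply] at h1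
      have h3 := congrArg (fun z : (P : Subgroup H) => ((z : H) : Perm α)) h1
      simp only [MulAut.conjNormal_apply] at h3
      have h4 : (c : Perm α) * ((u : H) : Perm α) * (c : Perm α)⁻¹ = ((u : H) : Perm α) := by
        simpa using h3
      calc (c : Perm α) * ((u : H) : Perm α)
          = ((c : Perm α) * ((u : H) : Perm α) * (c : Perm α)⁻¹) * (c : Perm α) := by group
        _ = _ := by rw [h4]
    have hcx : (c : Perm α) x₀ = x₀ := c.2.2 x₀ (by simp)
    have hcy : (c : Perm α) (((u : H) : Perm α) x₀) = ((u : H) : Perm α) x₀ := by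
      have := congrArg (fun f : Perm α => f x₀) hcomm
      simp only [Perm.mul_apply, hcx] at this
      exact this
    have hy : ((u : H) : Perm α) x₀ ∈ W := hmemW _ hu3 _ hx₀
    have hne : x₀ ≠ ((u : H) : Perm α) x₀ := fun h => hu4 x₀ hx₀ h.symm
    have hc2 : (c : Perm α) ∈ fixS H {x₀, ((u : H) : Perm α) x₀} := by
      refine ⟨c.2.1, fun z hz => ?_⟩
      simp only [Finset.mem_insert, Finset.mem_singleton] at hz
      rcases hz with rfl | rfl
      · exact hcx
      · exact hcy
    rw [h2 _ _ hx₀ hy hne, Subgroup.mem_bot] at hc2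
    exact Subtype.ext hc2
  have hdvd := Subgroup.card_dvd_of_injective φ hinj
  haveI : IsCyclic (P : Subgroup H) := by
    haveI : Fact (Nat.card (P : Subgroup H)).Prime := ⟨by rw [hPc]; exact hp⟩
    exact isCyclic_of_prime_card rfl
  rw [IsCyclic.card_mulAut, hPc, Nat.totient_prime hp, hd x₀ hx₀] at hdvd
  exact hdp hdvd

end Cfsg.Agent.Lib.LVKill
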