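import Mathlib
import Cfsg.Agent.Lib.LVBasic
import Cfsg.Agent.Lib.LVFour

/-!
# Counting involutions in sharply multiply transitive groups

A sharply `(r+2)`-transitive group of degree `M` with `M + r` odd: the involutions swapping two given
points and fixing at least `r` points form a set of size `T` with `(r + 1) T = C(M - 2, r)`, and
`T (M - r - 3) = (M - 2) (M - 3) A` for an integer `A`.
-/

set_option autoImplicit false
set_option linter.unusedSectionVars false
set_option linter.style.haveILetI false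

namespace Cfsg.Agent.Lib.LVSharp

open Equiv Finset
open Cfsg.Agent.Lib.LVBasic Cfsg.Agent.Lib.LVFour

variable {α : Type*} [Fintype α] [DecidableEq α]

theorem sharp_count {Y : Subgroup (Perm α)} {W : Finset α} (hout : ∀ g ∈ Y, ∀ x, x ∉ W → g x = x)
    {r : ℕ} (htriv : ∀ A ⊆ W, A.card = r + 2 → fixS Y A = ⊥)
    (hpat : ∀ a b (S : Finset α), a ∈ W → b ∈ W → a ≠ b → S ⊆ X W a b → S.card = r →
      ∃ g ∈ Y, (∀ s ∈ S, g s = s) ∧ g a = b ∧ g b = a)
    (hconj : ∀ a b c e c' e' : α, a ∈ W → b ∈ W → a ≠ b → c ≠ e → c' ≠ e' → c ∈ X W a b → e ∈ X W a b →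
      c' ∈ X W a b → e' ∈ X W a b → ∃ h ∈ Y, h a = a ∧ h b = b ∧ h c = c' ∧ h e = e')
    (hpar : (W.card + r) % 2 = 1) (hM : 4 ≤ W.card) {a b : α} (ha : a ∈ W) (hb : b ∈ W)
    (hab : a ≠ b) :
    ∃ T A : ℕ, (r + 1) * T = (W.card - 2).choose r ∧
      T * (W.card - 2 - (r + 1)) = ((W.card - 2) * (W.card - 3)) * A := by
  classical
  have hmemW : ∀ g ∈ Y, ∀ x ∈ W, g x ∈ W := by
    intro g hg x hx
    by_contra h'
    have h1 := hout g hg (g x) h'
    have h2 := g.injective h1
    rw [h2] at h'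
    exact h' hx
  let 𝒜 : Finset (Perm α) := univ.filter (fun g => g ∈ Y ∧ g ^ 2 = 1 ∧ g a = b ∧ g b = a ∧ r ≤ (F W g).card)
  have hmem : ∀ g, g ∈ 𝒜 ↔ g ∈ Y ∧ g ^ 2 = 1 ∧ g a = b ∧ g b = a ∧ r ≤ (F W g).card := by
    intro g
    simp [𝒜]
  have hF : ∀ g ∈ 𝒜, (F W g).card = r + 1 := by
    intro g hg
    obtain ⟨h1, h2, h3, h4, h5⟩ := (hmem g).1 hg
    have hpar' := F_parity_of hout h1 h2
    have hle : (F W g).card ≤ r + 1 := by
      by_contra hcon
      obtain ⟨A, hA, hc⟩ := Finset.exists_subset_card_eq (s := F W g) (n := r + 2) (by omega)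
      have hAW : A ⊆ W := fun z hz => (mem_F.1 (hA hz)).1
      have h6 : g ∈ fixS Y A := ⟨h1, fun z hz => (mem_F.1 (hA hz)).2⟩
      rw [htriv A hAW hc, Subgroup.mem_bot] at h6
      rw [h6] at h3
      exact hab h3
    omega
  have hXcard := card_X ha hb hab
  have hSuniq : ∀ S : Finset α, S ⊆ X W a b → S.card = r →
      (insert a (insert b S)) ⊆ W ∧ (insert a (insert b S)).card = r + 2 := by
    intro S hS hc
    constructor
    · intro z hz
      simp only [Finset.mem_insert] at hz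
      rcases hz with rfl | rfl | hz
      · exact ha
      · exact hb
      · exact (mem_X.1 (hS hz)).2.2
    · have h1 : b ∉ S := fun h => (mem_X.1 (hS h)).1 rfl
      have h2 : a ∉ insert b S := by
        simp only [Finset.mem_insert, not_or]
        exact ⟨hab, fun h => (mem_X.1 (hS h)).2.1 rfl⟩
      rw [Finset.card_insert_of_notMem h2, Finset.card_insert_of_notMem h1, hc]
  -- level 1
  have h1 := Finset.sum_card_bipartiteAbove_eq_sum_card_bipartiteBelow
    (s := (X W a b).powersetCard r) (t := 𝒜) (fun (S : Finset α) (g : Perm α) => S ⊆ F W g)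
  simp only [Finset.bipartiteAbove, Finset.bipartiteBelow] at h1
  have h1a : ∀ S ∈ (X W a b).powersetCard r, (𝒜.filter (fun g => S ⊆ F W g)).card = 1 := by
    intro S hS
    obtain ⟨hS1, hS2⟩ := Finset.mem_powersetCard.1 hS
    obtain ⟨hAW, hAc⟩ := hSuniq S hS1 hS2
    obtain ⟨g, hg, hgf, hga, hgb⟩ := hpat a b S ha hb hab hS1 hS2
    have hSF : S ⊆ F W g := fun s hs => mem_F.2 ⟨(mem_X.1 (hS1 hs)).2.2, hgf s hs⟩
    have hg2 : g ^ 2 = 1 := by
      have : g ^ 2 ∈ fixS Y (insert a (insert b S)) := by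
        refine ⟨Y.pow_mem hg 2, fun z hz => ?_⟩
        simp only [Finset.mem_insert] at hz
        rw [pow_two, Perm.mul_apply]
        rcases hz with rfl | rfl | hz
        · rw [hga, hgb]
        · rw [hgb, hga]
        · rw [hgf z hz, hgf z hz]
      rwa [htriv _ hAW hAc, Subgroup.mem_bot] at this
    refine Finset.card_eq_one.2 ⟨g, ?_⟩
    ext g'
    simp only [Finset.mem_filter, Finset.mem_singleton]
    constructor
    · rintro ⟨h3, h4⟩
      obtain ⟨h5, -, h6, h7, -⟩ := (hmem g').1 h3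
      have : g⁻¹ * g' ∈ fixS Y (insert a (insert b S)) := by
        refine ⟨Y.mul_mem (Y.inv_mem hg) h5, fun z hz => ?_⟩
        simp only [Finset.mem_insert] at hz
        rw [Perm.mul_apply, Perm.inv_eq_iff_eq]
        rcases hz with rfl | rfl | hz
        · rw [h6, hga]
        · rw [h7, hgb]
        · rw [(mem_F.1 (h4 hz)).2, hgf z hz]
      rw [htriv _ hAW hAc, Subgroup.mem_bot] at this
      have h8 := mul_eq_one_iff_eq_inv.1 this
      rw [inv_injective h8]
    · rintro rfl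
      refine ⟨(hmem _).2 ⟨hg, hg2, hga, hgb, ?_⟩, hSF⟩
      rw [← hS2]
      exact Finset.card_le_card hSF
  have h1b : ∀ g ∈ 𝒜, (((X W a b).powersetCard r).filter (fun S => S ⊆ F W g)).card = r + 1 := by
    intro g hg
    obtain ⟨-, -, h3, h4, -⟩ := (hmem g).1 hg
    have hs := F_sub_X (W := W) hab h3 h4
    have : ((X W a b).powersetCard r).filter (fun S => S ⊆ F W g) = (F W g).powersetCard r := by
      ext S
      simp only [Finset.mem_filter, Finset.mem_powersetCard]
      constructor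
      · rintro ⟨⟨_, h5⟩, h6⟩
        exact ⟨h6, h5⟩
      · rintro ⟨h5, h6⟩
        exact ⟨⟨h5.trans hs, h6⟩, h5⟩
    rw [this, Finset.card_powersetCard, hF g hg, Nat.choose_succ_self_right]
  rw [Finset.sum_congr rfl h1a, Finset.sum_congr rfl h1b, Finset.sum_const, Finset.sum_const,
    smul_eq_mul, smul_eq_mul, mul_one, Finset.card_powersetCard, hXcard] at h1
  -- level 2
  have hS : ∀ t ∈ 𝒜, t ∈ Y ∧ t a = b ∧ t b = a := fun t ht =>
    ⟨((hmem t).1 ht).1, ((hmem t).1 ht).2.2.1, ((hmem t).1 ht).2.2.2.1⟩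
  have h2 := Cfg.sum_U_gen (V := Y) (W := W) hout hab 𝒜 hS
  have h2' : ∑ t ∈ 𝒜, ((X W a b).card - (F W t).card) = 𝒜.card * (W.card - 2 - (r + 1)) := by
    rw [Finset.sum_congr rfl (g := fun _ => W.card - 2 - (r + 1))
      (fun t ht => by rw [hXcard, hF t ht]), Finset.sum_const, smul_eq_mul]
  rw [h2'] at h2
  -- constancy
  have hconst : ∀ q ∈ (X W a b).offDiag, ∀ q' ∈ (X W a b).offDiag,
      (𝒜.filter (fun t => t q.1 = q.2)).card ≤ (𝒜.filter (fun t => t q'.1 = q'.2)).card := by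
    rintro ⟨c, e⟩ hq ⟨c', e'⟩ hq'
    simp only [Finset.mem_offDiag] at hq hq'
    obtain ⟨hc, he, hce⟩ := hq
    obtain ⟨hc', he', hce'⟩ := hq'
    obtain ⟨h, hh, h1', h2', h3', h4'⟩ := hconj a b c e c' e' ha hb hab hce hce' hc he hc' he'
    refine Finset.card_le_card_of_injOn (fun g => h * g * h⁻¹) ?_ ?_
    · intro g hg
      obtain ⟨hg1, hg2⟩ := Finset.mem_filter.1 (Finset.mem_coe.1 hg)
      simp only at hg2
      obtain ⟨g1, g2, g3, g4, g5⟩ := (hmem g).1 hg1
      have hia : h⁻¹ a = a := by rw [Perm.inv_eq_iff_eq]; exact h1'.symm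
      have hib : h⁻¹ b = b := by rw [Perm.inv_eq_iff_eq]; exact h2'.symm
      have hic : h⁻¹ c' = c := by rw [Perm.inv_eq_iff_eq]; exact h3'.symm
      apply Finset.mem_coe.2
      refine Finset.mem_filter.2 ⟨(hmem _).2 ⟨Y.mul_mem (Y.mul_mem hh g1) (Y.inv_mem hh), ?_, ?_, ?_, ?_⟩, ?_⟩
      · rw [conj_pow, g2]
        group
      · simp only [Perm.mul_apply, hia, g3, h2']
      · simp only [Perm.mul_apply, hib, g4, h1']
      · refine le_trans g5 ?_
        refine Finset.card_le_card_of_injOn h ?_ h.injective.injOn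
        intro x hx
        obtain ⟨hx1, hx2⟩ := mem_F.1 (Finset.mem_coe.1 hx)
        apply Finset.mem_coe.2
        refine mem_F.2 ⟨hmemW h hh x hx1, ?_⟩
        simp [Perm.mul_apply, hx2]
      · simp only [Perm.mul_apply, hic, hg2, h4']
    · intro g _ g' _ he
      simp only at he
      exact mul_left_cancel (mul_right_cancel he)
  -- a base pair
  obtain ⟨c₀, hc₀⟩ : (X W a b).Nonempty := Finset.card_pos.1 (by omega)
  obtain ⟨e₀, he₀⟩ : ((X W a b).erase c₀).Nonempty := by
    apply Finset.card_pos.1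
    rw [Finset.card_erase_of_mem hc₀]
    omega
  have hq₀ : (c₀, e₀) ∈ (X W a b).offDiag := by
    obtain ⟨h3, h4⟩ := Finset.mem_erase.1 he₀
    exact Finset.mem_offDiag.2 ⟨hc₀, h4, h3.symm⟩
  refine ⟨𝒜.card, (𝒜.filter (fun t => t c₀ = e₀)).card, ?_, ?_⟩
  · rw [h1]
    ring
  · rw [← h2, Finset.sum_congr rfl (g := fun _ => (𝒜.filter (fun t => t c₀ = e₀)).card)
      (fun q hq => le_antisymm (hconst q hq _ hq₀) (hconst _ hq₀ q hq)), Finset.sum_const,
      smul_eq_mul, Finset.offDiag_card, hXcard]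
    congr 1
    obtain ⟨k, hk⟩ : ∃ k, W.card = k + 3 := ⟨W.card - 3, by omega⟩
    rw [hk]
    simp only [show k + 3 - 2 = k + 1 by omega, show k + 3 - 3 = k by omega]
    rw [Nat.mul_succ]
    omega

end Cfsg.Agent.Lib.LVSharp
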