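import Mathlib
import Cfsg.Agent.Lib.LVBasic
import Cfsg.Agent.Lib.LVFour
import Cfsg.Agent.Lib.LVKill
import Cfsg.Agent.Lib.LVSharp

/-!
# The inductive step of the Livingstone–Wagner theorem

If `G` is `(j-1)`-transitive, `j`- and `(j+1)`-homogeneous of degree `n ≥ 2 j + 2`, then `G` is
`j`-transitive.
-/

set_option autoImplicit false
set_option linter.unusedSectionVars false
set_option linter.style.haveILetI false

namespace Cfsg.Agent.Lib.LVMain

open Equiv Finset MulAction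
open Cfsg.Agent.Lib.LVBasic Cfsg.Agent.Lib.LVFour Cfsg.Agent.Lib.LVKill Cfsg.Agent.Lib.LVSharp

variable {α : Type*} [Fintype α] [DecidableEq α] {G : Subgroup (Perm α)} {j : ℕ}

/-- transitivity of the stabiliser of one given set on the complement -/
def IsTr (G : Subgroup (Perm α)) (Γ : Finset α) : Prop :=
  ∀ a b, a ∉ Γ → b ∉ Γ → ∃ g ∈ G, (∀ x ∈ Γ, g x = x) ∧ g a = b

theorem trS_of_isTr (hTr : TrS G (j - 1)) (hH0 : HomS G (j - 1)) {Γ : Finset α}
    (hΓ : Γ.card = j - 1) (h : IsTr G Γ) : TrS G j := by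
  intro Γ' hΓ' a b ha hb
  by_cases hlt : Γ'.card < j - 1
  · exact hTr Γ' hlt a b ha hb
  have hΓ'2 : Γ'.card = j - 1 := by omega
  obtain ⟨g₀, hg₀, hi⟩ := hH0 Γ Γ' hΓ hΓ'2
  have ha' : g₀⁻¹ a ∉ Γ := by
    intro hmem
    apply ha
    rw [← hi]
    exact Finset.mem_image.2 ⟨_, hmem, by simp⟩
  have hb' : g₀⁻¹ b ∉ Γ := by
    intro hmem
    apply hb
    rw [← hi]
    exact Finset.mem_image.2 ⟨_, hmem, by simp⟩
  obtain ⟨h', hh', hfix, hmap⟩ := h _ _ ha' hb'
  refine ⟨g₀ * h' * g₀⁻¹, G.mul_mem (G.mul_mem hg₀ hh') (G.inv_mem hg₀), fun x hx => ?_, ?_⟩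
  · rw [← hi] at hx
    obtain ⟨y, hy, rfl⟩ := Finset.mem_image.1 hx
    simp [Perm.mul_apply, hfix y hy]
  · rw [Perm.mul_apply, Perm.mul_apply, hmap]
    simp

theorem card_union_erase {Δ : Finset α} {x : α} (hx : x ∈ Δ) : Δ.erase x ∪ {x} = Δ := by
  rw [Finset.union_singleton, Finset.insert_erase hx]

theorem fix_bot (hj : 2 ≤ j) (hH : HomS G j) (hH1 : HomS G (j + 1))
    (hintr : ∀ Γ : Finset α, Γ.card = j - 1 → ¬ IsTr G Γ) (Δ : Finset α) (hΔ : Δ.card = j) :
    fixS G Δ = ⊥ := by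
  obtain ⟨x, hx⟩ : Δ.Nonempty := Finset.card_pos.1 (by omega)
  obtain ⟨Γ, hΓdef⟩ : ∃ Γ, Γ = Δ.erase x := ⟨_, rfl⟩
  have hΓ : Γ.card = j - 1 := by rw [hΓdef, Finset.card_erase_of_mem hx, hΔ]
  have hxΓ : x ∉ Γ := by simp [hΓdef]
  have hU : Γ ∪ {x} = Δ := by rw [hΓdef, card_union_erase hx]
  have hΓΔ : Γ ⊆ Δ := by rw [hΓdef]; exact Finset.erase_subset _ _
  obtain ⟨T, hT⟩ : ∃ T, T = fixS G Γ := ⟨_, rfl⟩
  have hy : ∃ y, y ∉ Γ ∧ y ∉ orbF T x := by
    by_contra hcon
    push Not at hcon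
    apply hintr Γ hΓ
    intro a b ha hb
    obtain ⟨g₁, hg₁, rfl⟩ := mem_orbF.1 (hcon a ha)
    obtain ⟨g₂, hg₂, rfl⟩ := mem_orbF.1 (hcon b hb)
    have hm : g₂ * g₁⁻¹ ∈ T := T.mul_mem hg₂ (T.inv_mem hg₁)
    rw [hT] at hm
    exact ⟨g₂ * g₁⁻¹, hm.1, hm.2, by simp [Perm.mul_apply]⟩
  obtain ⟨y, hyΓ, hyO⟩ := hy
  have hyx : y ≠ x := by
    rintro rfl
    exact hyO (self_mem_orbF _ _)
  have hyΔ : y ∉ Δ := by
    rw [hΓdef] at hyΓ
    intro h
    exact hyΓ (Finset.mem_erase.2 ⟨hyx, h⟩)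
  obtain ⟨R, hRdef⟩ : ∃ R, R = fixS G Δ := ⟨_, rfl⟩
  have hR : fixS T {x} = R := by rw [hT, fixS_fixS, hU, hRdef]
  have hRT : R ≤ T := by
    rw [hRdef, hT]
    exact fixS_anti G hΓΔ
  have hc1 := orb_card T x
  have hc2 := orb_card T y
  have hcy : Nat.card (fixS T {y}) = Nat.card R := by
    rw [hT, fixS_fixS, hRdef]
    apply card_fixS_eq hH _ hΔ
    rw [Finset.union_singleton, Finset.card_insert_of_notMem hyΓ, hΓ]
    omega
  rw [hR] at hc1
  rw [hcy] at hc2
  have hd : (orbF T x).card = (orbF T y).card :=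
    Nat.eq_of_mul_eq_mul_right Nat.card_pos (hc1.trans hc2.symm)
  -- the orbits of `R` outside `Δ`
  have horb : ∀ z, z ∉ Δ → (orbF R z).card = (orbF R y).card := by
    intro z hz
    have e1 := orb_card R z
    have e2 := orb_card R y
    have e3 : Nat.card (fixS R {z}) = Nat.card (fixS R {y}) := by
      rw [hRdef, fixS_fixS, fixS_fixS]
      apply card_fixS_eq hH1
      · rw [Finset.union_singleton, Finset.card_insert_of_notMem hz, hΔ]
      · rw [Finset.union_singleton, Finset.card_insert_of_notMem hyΔ, hΔ]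
    rw [e3] at e1
    exact Nat.eq_of_mul_eq_mul_right Nat.card_pos (e1.trans e2.symm)
  have hTfix : ∀ h ∈ T, ∀ z, z ∉ Γ → h z ∉ Γ := by
    intro h hh z hz hmem
    rw [hT] at hh
    have := hh.2 _ hmem
    exact hz (h.injective this ▸ hmem)
  -- the two invariant sets
  have hS1 : ∀ z ∈ orbF T y, z ∉ Δ := by
    intro z hz hzΔ
    obtain ⟨h, hh, rfl⟩ := mem_orbF.1 hz
    have h1 : h y ∉ Γ := hTfix h hh y hyΓ
    have h2 : h y = x := by
      by_contra hne
      rw [hΓdef] at h1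
      exact h1 (Finset.mem_erase.2 ⟨hne, hzΔ⟩)
    apply hyO
    refine mem_orbF.2 ⟨h⁻¹, T.inv_mem hh, ?_⟩
    rw [← h2]
    simp
  have hS2 : ∀ z ∈ (orbF T x).erase x, z ∉ Δ := by
    intro z hz hzΔ
    obtain ⟨hz1, hz2⟩ := Finset.mem_erase.1 hz
    obtain ⟨h, hh, rfl⟩ := mem_orbF.1 hz2
    have h1 : h x ∉ Γ := hTfix h hh x hxΓ
    rw [hΓdef] at h1
    exact h1 (Finset.mem_erase.2 ⟨hz1, hzΔ⟩)
  have d1 : (orbF R y).card ∣ (orbF T y).card := by
    apply dvd_card_of_orbits R
    · intro g hg z hz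
      obtain ⟨h, hh, rfl⟩ := mem_orbF.1 hz
      exact mem_orbF.2 ⟨g * h, T.mul_mem (hRT hg) hh, rfl⟩
    · intro z hz
      exact horb z (hS1 z hz)
  have d2 : (orbF R y).card ∣ ((orbF T x).erase x).card := by
    apply dvd_card_of_orbits R
    · intro g hg z hz
      obtain ⟨hz1, hz2⟩ := Finset.mem_erase.1 hz
      obtain ⟨h, hh, rfl⟩ := mem_orbF.1 hz2
      refine Finset.mem_erase.2 ⟨?_, mem_orbF.2 ⟨g * h, T.mul_mem (hRT hg) hh, rfl⟩⟩
      intro he
      have hgx : g x = x := by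
        rw [hRdef] at hg
        exact hg.2 x hx
      have h7 : g (h x) = g x := by
        rw [hgx]
        exact he
      exact hz1 (g.injective h7)
    · intro z hz
      exact horb z (hS2 z hz)
  rw [Finset.card_erase_of_mem (self_mem_orbF T x), hd] at d2
  have hpos : 0 < (orbF T y).card := Finset.card_pos.2 ⟨y, self_mem_orbF T y⟩
  have he : (orbF R y).card = 1 := by
    have h3 := Nat.dvd_sub d1 d2
    rw [show (orbF T y).card - ((orbF T y).card - 1) = 1 by omega] at h3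
    exact Nat.dvd_one.1 h3
  rw [← hRdef, eq_bot_iff]
  intro g hg
  rw [Subgroup.mem_bot]
  ext z
  by_cases hz : z ∈ Δ
  · rw [hRdef] at hg
    exact hg.2 z hz
  · have h4 := horb z hz
    rw [he] at h4
    obtain ⟨w, hw⟩ := Finset.card_eq_one.1 h4
    have h5 : z ∈ orbF R z := self_mem_orbF R z
    have h6 : g z ∈ orbF R z := mem_orbF.2 ⟨g, hg, rfl⟩
    rw [hw, Finset.mem_singleton] at h5 h6
    show g z = z
    rw [h6, h5]

/-- The numerical and structural data. -/
structure Ctx (G : Subgroup (Perm α)) (j d m : ℕ) : Prop where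
  hj : 2 ≤ j
  hn : j + 1 ≤ Fintype.card α
  hTr : TrS G (j - 1)
  hH0 : HomS G (j - 1)
  hH : HomS G j
  hH1 : HomS G (j + 1)
  hbot : ∀ Δ : Finset α, Δ.card = j → fixS G Δ = ⊥
  hT : ∀ Γ : Finset α, Γ.card = j - 1 → Nat.card (fixS G Γ) = d
  hm : m * d = Fintype.card α - j + 1
  hm2 : 2 ≤ m

theorem card_compl' (Γ : Finset α) : (Γᶜ).card = Fintype.card α - Γ.card := Finset.card_compl Γ

theorem exists_ctx (hj : 2 ≤ j) (hn : j + 1 ≤ Fintype.card α) (hTr : TrS G (j - 1))
    (hH0 : HomS G (j - 1)) (hH : HomS G j) (hH1 : HomS G (j + 1)) (hnot : ¬ TrS G j) :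
    ∃ d m, Ctx G j d m := by
  have hintr : ∀ Γ : Finset α, Γ.card = j - 1 → ¬ IsTr G Γ :=
    fun Γ hΓ h => hnot (trS_of_isTr hTr hH0 hΓ h)
  have hbot := fix_bot hj hH hH1 hintr
  obtain ⟨Γ₀, -, hΓ₀⟩ := Finset.exists_subset_card_eq (s := (Finset.univ : Finset α)) (n := j - 1)
    (by rw [Finset.card_univ]; omega)
  have hT : ∀ Γ : Finset α, Γ.card = j - 1 → Nat.card (fixS G Γ) = Nat.card (fixS G Γ₀) :=
    fun Γ hΓ => card_fixS_eq hH0 hΓ hΓ₀
  obtain ⟨T, hTdef⟩ : ∃ T, T = fixS G Γ₀ := ⟨_, rfl⟩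
  have horb : ∀ x, x ∉ Γ₀ → (orbF T x).card = Nat.card T := by
    intro x hx
    have h1 := orb_card T x
    have h2 : fixS T {x} = ⊥ := by
      rw [hTdef, fixS_fixS]
      apply hbot
      rw [Finset.union_singleton, Finset.card_insert_of_notMem hx, hΓ₀]
      omega
    rw [h2, Nat.card_eq_one_iff_unique.2 ⟨inferInstance, inferInstance⟩, mul_one] at h1
    exact h1
  have hinv : ∀ g ∈ T, ∀ x, x ∉ Γ₀ → g x ∉ Γ₀ := by
    intro g hg x hx hmem
    rw [hTdef] at hg
    have := hg.2 _ hmem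
    exact hx (g.injective this ▸ hmem)
  have hdvd : Nat.card T ∣ (Γ₀ᶜ).card := by
    apply dvd_card_of_orbits T
    · intro g hg x hx
      rw [Finset.mem_compl] at hx ⊢
      exact hinv g hg x hx
    · intro x hx
      exact horb x (Finset.mem_compl.1 hx)
  have hcard : (Γ₀ᶜ).card = Fintype.card α - j + 1 := by
    rw [Finset.card_compl, hΓ₀]
    omega
  obtain ⟨m, hm⟩ := hdvd
  refine ⟨Nat.card T, m, hj, hn, hTr, hH0, hH, hH1, hbot, ?_, ?_, ?_⟩
  · rw [hTdef]
    exact hT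
  · rw [← hcard, hm, mul_comm]
  · -- `m ≠ 0, 1`
    by_contra hlt
    have hm01 : m = 0 ∨ m = 1 := by omega
    rcases hm01 with rfl | rfl
    · rw [mul_zero] at hm
      omega
    · rw [mul_one] at hm
      apply hintr Γ₀ hΓ₀
      -- an orbit is everything
      have htr : ∀ x, x ∉ Γ₀ → orbF T x = Γ₀ᶜ := by
        intro x hx
        apply Finset.eq_of_subset_of_card_le
        · intro y hy
          obtain ⟨g, hg, rfl⟩ := mem_orbF.1 hy
          exact Finset.mem_compl.2 (hinv g hg x hx)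
        · rw [horb x hx, hm]
      intro a b ha hb
      have h1 : b ∈ orbF T a := by
        rw [htr a ha]
        exact Finset.mem_compl.2 hb
      obtain ⟨g, hg, hgb⟩ := mem_orbF.1 h1
      rw [hTdef] at hg
      exact ⟨g, hg.1, hg.2, hgb⟩

namespace Ctx

variable {d m : ℕ} (C : Ctx G j d m)
include C

theorem d_pos : 0 < d := by
  obtain ⟨Γ₀, -, hΓ₀⟩ := Finset.exists_subset_card_eq (s := (Finset.univ : Finset α)) (n := j - 1)
    (by have := C.hn; have := C.hj; rw [Finset.card_univ]; omega)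
  rw [← C.hT Γ₀ hΓ₀]
  exact Nat.card_pos

/-- an element of `G` fixing `j` points is trivial -/
theorem eq_one_of_fix {Δ : Finset α} (hΔ : Δ.card = j) {g : Perm α} (hg : g ∈ G)
    (hf : ∀ a ∈ Δ, g a = a) : g = 1 := by
  have : g ∈ fixS G Δ := ⟨hg, hf⟩
  rw [C.hbot Δ hΔ, Subgroup.mem_bot] at this
  exact this

/-- If the order of the point stabiliser is even then there are many swaps. -/
theorem swaps (hev : 2 ∣ d) (Γ' : Finset α) (hΓ' : Γ'.card = j - 2) {a b : α} (ha : a ∉ Γ')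
    (hb : b ∉ Γ') (hab : a ≠ b) : ∃ h ∈ G, (∀ x ∈ Γ', h x = x) ∧ h a = b ∧ h b = a := by
  have hj := C.hj
  have hz : ∀ c, ∃ z : Perm α, c ∉ Γ' → (z ∈ fixS G (insert c Γ') ∧ z ≠ 1 ∧ z ^ 2 = 1) := by
    intro c
    by_cases hc : c ∈ Γ'
    · exact ⟨1, fun h => absurd hc h⟩
    haveI : Fact (Nat.Prime 2) := ⟨Nat.prime_two⟩
    have hcard := C.hT (insert c Γ') (by rw [Finset.card_insert_of_notMem hc, hΓ']; omega)
    obtain ⟨x, hx⟩ := exists_prime_orderOf_dvd_card' (G := fixS G (insert c Γ')) 2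
      (by rw [hcard]; exact hev)
    refine ⟨x, fun _ => ⟨x.2, ?_, ?_⟩⟩
    · intro h
      have h1 : x = 1 := Subtype.ext h
      rw [h1, orderOf_one] at hx
      omega
    · have := pow_orderOf_eq_one x
      rw [hx] at this
      exact congrArg Subtype.val this
  choose z hz using hz
  have hzG : ∀ c, c ∉ Γ' → z c ∈ G := fun c hc => (hz c hc).1.1
  have hzfix : ∀ c, c ∉ Γ' → ∀ x ∈ Γ', z c x = x := fun c hc x hx =>
    (hz c hc).1.2 x (Finset.mem_insert_of_mem hx)
  have hzc : ∀ c, c ∉ Γ' → z c c = c := fun c hc => (hz c hc).1.2 c (Finset.mem_insert_self _ _)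
  have hzne : ∀ c, c ∉ Γ' → z c ≠ 1 := fun c hc => (hz c hc).2.1
  have hzsq : ∀ c, c ∉ Γ' → ∀ x, z c (z c x) = x := fun c hc x => sq_apply (hz c hc).2.2 x
  -- `z c` fixes no other point
  have hzfree : ∀ c, c ∉ Γ' → ∀ w, w ∉ Γ' → w ≠ c → z c w ≠ w := by
    intro c hc w hw hwc hf
    apply hzne c hc
    apply C.eq_one_of_fix (Δ := insert w (insert c Γ')) _ (hzG c hc)
    · intro y hy
      rw [Finset.mem_insert] at hy
      rcases hy with rfl | hy
      · exact hf
      · exact (hz c hc).1.2 y hy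
    · rw [Finset.card_insert_of_notMem, Finset.card_insert_of_notMem hc, hΓ']
      · omega
      · simp [hwc, hw]
  -- the map `c ↦ z c a`
  obtain ⟨X₀, hX₀⟩ : ∃ X₀, X₀ = (Γ'ᶜ).erase a := ⟨_, rfl⟩
  have hX₀mem : ∀ w, w ∈ X₀ ↔ w ≠ a ∧ w ∉ Γ' := by
    intro w
    rw [hX₀]
    simp
  have hmaps : Set.MapsTo (fun c => z c a) (↑X₀ : Set α) (↑X₀ : Set α) := by
    intro c hc
    obtain ⟨hc1, hc2⟩ := (hX₀mem c).1 (Finset.mem_coe.1 hc)
    apply Finset.mem_coe.2
    refine (hX₀mem _).2 ⟨hzfree c hc2 a ha hc1.symm, ?_⟩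
    intro hmem
    have h1 := hzfix c hc2 _ hmem
    exact ha ((z c).injective h1 ▸ hmem)
  have hinj : Set.InjOn (fun c => z c a) (↑X₀ : Set α) := by
    intro c hc c' hc' he
    obtain ⟨hc1, hc2⟩ := (hX₀mem c).1 (Finset.mem_coe.1 hc)
    obtain ⟨hc1', hc2'⟩ := (hX₀mem c').1 (Finset.mem_coe.1 hc')
    simp only at he
    by_contra hne
    obtain ⟨e, he'⟩ : ∃ e, e = z c a := ⟨_, rfl⟩
    have hea : e ≠ a := by
      rw [he']
      exact hzfree c hc2 a ha hc1.symm
    have heΓ : e ∉ Γ' := by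
      rw [he']
      intro hmem
      have h1 := hzfix c hc2 _ hmem
      exact ha ((z c).injective h1 ▸ hmem)
    have hh1 : (z c' * z c) = 1 := by
      apply C.eq_one_of_fix (Δ := insert a (insert e Γ')) _ (G.mul_mem (hzG c' hc2') (hzG c hc2))
      · intro y hy
        simp only [Finset.mem_insert] at hy
        rcases hy with hy | hy | hy
        · rw [hy, Perm.mul_apply, he, hzsq c' hc2']
        · rw [hy, Perm.mul_apply, he', hzsq c hc2]
          exact he.symm
        · rw [Perm.mul_apply, hzfix c hc2 y hy, hzfix c' hc2' y hy]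
      · rw [Finset.card_insert_of_notMem, Finset.card_insert_of_notMem heΓ, hΓ']
        · omega
        · simp [hea.symm, ha]
    have hh2 : z c = z c' := by
      have h1 : z c' * z c' = 1 := by
        ext w
        simp [Perm.mul_apply, hzsq c' hc2' w]
      have h2 : z c' * z c = z c' * z c' := hh1.trans h1.symm
      exact mul_left_cancel h2
    apply hzfree c hc2 c' hc2' (Ne.symm hne)
    rw [hh2]
    exact hzc c' hc2'
  have hsurj := Finset.surjOn_of_injOn_of_card_le (fun c => z c a) hmaps hinj le_rfl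
  obtain ⟨c, hc, hcb⟩ := hsurj (Finset.mem_coe.2 ((hX₀mem b).2 ⟨hab.symm, hb⟩))
  obtain ⟨-, hc2⟩ := (hX₀mem c).1 (Finset.mem_coe.1 hc)
  simp only at hcb
  refine ⟨z c, hzG c hc2, hzfix c hc2, hcb, ?_⟩
  rw [← hcb]
  exact hzsq c hc2 a

/-- If the order of the point stabiliser is even then `G` is `j`-transitive. -/
theorem trS_of_even (hev : 2 ∣ d) : TrS G j := by
  have hj := C.hj
  intro Γ hΓlt x y hx hy
  by_cases hlt : Γ.card < j - 1
  · exact C.hTr Γ hlt x y hx hy
  have hΓ : Γ.card = j - 1 := by omega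
  have hΔx : (insert x Γ).card = j := by
    rw [Finset.card_insert_of_notMem hx, hΓ]
    omega
  have hΔy : (insert y Γ).card = j := by
    rw [Finset.card_insert_of_notMem hy, hΓ]
    omega
  have key : ∀ A : Finset α, A ⊆ Γ → ∃ g ∈ G, (insert x Γ).image g = insert y Γ ∧ ∀ w ∈ A, g w = w := by
    intro A
    induction A using Finset.induction_on with
    | empty =>
      intro _
      obtain ⟨g, hg, hi⟩ := C.hH _ _ hΔx hΔy
      exact ⟨g, hg, hi, fun w hw => absurd hw (Finset.notMem_empty w)⟩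
    | insert w A hwA ih =>
      intro hsub
      have hwΓ : w ∈ Γ := hsub (Finset.mem_insert_self _ _)
      obtain ⟨g₁, hg₁, hi, hfix⟩ := ih (fun z hz => hsub (Finset.mem_insert_of_mem hz))
      have hw' : g₁ w ∈ insert y Γ := by
        rw [← hi]
        exact Finset.mem_image_of_mem _ (Finset.mem_insert_of_mem hwΓ)
      by_cases hww : g₁ w = w
      · refine ⟨g₁, hg₁, hi, fun z hz => ?_⟩
        rw [Finset.mem_insert] at hz
        rcases hz with rfl | hz
        · exact hww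
        · exact hfix z hz
      -- correct by a swap
      have hwmem : w ∈ insert y Γ := Finset.mem_insert_of_mem hwΓ
      obtain ⟨Γ', hΓ'def⟩ : ∃ Γ', Γ' = ((insert y Γ).erase w).erase (g₁ w) := ⟨_, rfl⟩
      have hmemΓ' : ∀ z, z ∈ Γ' ↔ z ≠ g₁ w ∧ z ≠ w ∧ z ∈ insert y Γ := by
        intro z
        rw [hΓ'def]
        simp only [Finset.mem_erase]
      have hΓ'c : Γ'.card = j - 2 := by
        rw [hΓ'def, Finset.card_erase_of_mem (Finset.mem_erase.2 ⟨hww, hw'⟩),
          Finset.card_erase_of_mem hwmem, hΔy]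
        omega
      have hw1 : g₁ w ∉ Γ' := by simp [hmemΓ']
      have hw2 : w ∉ Γ' := by simp [hmemΓ']
      obtain ⟨h, hh, hhfix, hh1, hh2⟩ := C.swaps hev Γ' hΓ'c hw1 hw2 hww
      refine ⟨h * g₁, G.mul_mem hh hg₁, ?_, ?_⟩
      · rw [Perm.coe_mul, ← Finset.image_image, hi]
        apply Finset.eq_of_subset_of_card_le
        · intro u hu
          obtain ⟨v, hv, rfl⟩ := Finset.mem_image.1 hu
          by_cases hv1 : v = g₁ w
          · rw [hv1, hh1]
            exact hwmem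
          by_cases hv2 : v = w
          · rw [hv2, hh2]
            exact hw'
          rw [hhfix v ((hmemΓ' v).2 ⟨hv1, hv2, hv⟩)]
          exact hv
        · rw [Finset.card_image_of_injective _ h.injective]
      · intro z hz
        rw [Finset.mem_insert] at hz
        rcases hz with rfl | hz
        · rw [Perm.mul_apply, hh1]
        · rw [Perm.mul_apply, hfix z hz]
          apply hhfix
          refine (hmemΓ' z).2 ⟨?_, ?_, Finset.mem_insert_of_mem (hsub (Finset.mem_insert_of_mem hz))⟩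
          · intro he
            have h3 : g₁ z = g₁ w := by rw [hfix z hz]; exact he
            exact hwA (g₁.injective h3 ▸ hz)
          · rintro rfl
            exact hwA hz
  obtain ⟨g, hg, hi, hfix⟩ := key Γ (Finset.Subset.refl _)
  refine ⟨g, hg, hfix, ?_⟩
  have h1 : g x ∈ insert y Γ := by
    rw [← hi]
    exact Finset.mem_image_of_mem _ (Finset.mem_insert_self _ _)
  rw [Finset.mem_insert] at h1
  rcases h1 with h1 | h1
  · exact h1
  · have h2 := hfix _ h1
    exact absurd (g.injective h2 ▸ h1) hx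

/-- Two points can be moved simultaneously. -/
theorem two_step (Γ₆ : Finset α) (hΓ₆ : Γ₆.card + 1 < j - 1) {c e c' e' : α}
    (hc : c ∉ Γ₆) (he : e ∉ Γ₆) (hc' : c' ∉ Γ₆) (he' : e' ∉ Γ₆) (hce : c ≠ e) (hce' : c' ≠ e') :
    ∃ g ∈ G, (∀ z ∈ Γ₆, g z = z) ∧ g c = c' ∧ g e = e' := by
  obtain ⟨g₁, hg₁, hf₁, hg₁c⟩ := C.hTr Γ₆ (by omega) c c' hc hc'
  have h1 : g₁ e ∉ Γ₆ := by
    intro hmem
    have := hf₁ _ hmem
    have h4 := g₁.injective this
    rw [h4] at hmem
    exact he hmem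
  have h2 : g₁ e ≠ c' := by
    intro h
    rw [← hg₁c] at h
    exact hce (g₁.injective h).symm
  have h3 : (insert c' Γ₆).card = Γ₆.card + 1 := Finset.card_insert_of_notMem hc'
  obtain ⟨g₂, hg₂, hf₂, hg₂e⟩ := C.hTr (insert c' Γ₆) (by omega) (g₁ e) e' (by simp [h1, h2])
    (by simp [he', hce'.symm])
  refine ⟨g₂ * g₁, G.mul_mem hg₂ hg₁, fun z hz => ?_, ?_, hg₂e⟩
  · rw [Perm.mul_apply, hf₁ z hz]
    exact hf₂ z (Finset.mem_insert_of_mem hz)
  · rw [Perm.mul_apply, hg₁c]
    exact hf₂ c' (Finset.mem_insert_self _ _)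

/-- Swaps. -/
theorem swap_set (Γ₆ : Finset α) (hΓ₆ : Γ₆.card + 1 < j - 1) {a b : α} (ha : a ∉ Γ₆) (hb : b ∉ Γ₆)
    (hab : a ≠ b) : ∃ g ∈ G, (∀ z ∈ Γ₆, g z = z) ∧ g a = b ∧ g b = a :=
  C.two_step Γ₆ hΓ₆ ha hb hb ha hab hab.symm

/-- The counting in a sharply multiply transitive section. -/
theorem sharp_app (hd1 : d = 1) {r : ℕ} (hr : 2 ≤ r) (hrj : r + 3 ≤ j)
    (hpar : (Fintype.card α - (j - 3 - r) + r) % 2 = 1) (hM : 4 ≤ Fintype.card α - (j - 3 - r)) :
    ∃ T A : ℕ, (r + 1) * T = (Fintype.card α - (j - 3 - r) - 2).choose r ∧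
      T * (Fintype.card α - (j - 3 - r) - 2 - (r + 1)) =
        ((Fintype.card α - (j - 3 - r) - 2) * (Fintype.card α - (j - 3 - r) - 3)) * A := by
  have hj := C.hj
  have hn := C.hn
  obtain ⟨Γ', -, hΓ'⟩ := Finset.exists_subset_card_eq (s := (Finset.univ : Finset α))
    (n := j - 3 - r) (by rw [Finset.card_univ]; omega)
  have hWc : (Γ'ᶜ).card = Fintype.card α - (j - 3 - r) := by
    rw [Finset.card_compl, hΓ']
  have hunion : ∀ A : Finset α, A ⊆ Γ'ᶜ → (Γ' ∪ A).card = j - 3 - r + A.card := by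
    intro A hA
    rw [Finset.card_union_of_disjoint, hΓ']
    rw [Finset.disjoint_left]
    intro z hz hz'
    exact (Finset.mem_compl.1 (hA hz')) hz
  obtain ⟨a, ha⟩ : (Γ'ᶜ).Nonempty := Finset.card_pos.1 (by omega)
  obtain ⟨b, hb⟩ : ((Γ'ᶜ).erase a).Nonempty := by
    apply Finset.card_pos.1
    rw [Finset.card_erase_of_mem ha]
    omega
  obtain ⟨hb1, hb2⟩ := Finset.mem_erase.1 hb
  rw [← hWc]
  refine sharp_count (Y := fixS G Γ') (W := Γ'ᶜ) (r := r) ?_ ?_ ?_ ?_ ?_ (by omega) ha hb2 hb1.symm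
  · intro g hg x hx
    exact hg.2 x (by simpa using hx)
  · intro A hA hc
    rw [fixS_fixS]
    apply Subgroup.eq_bot_of_card_eq
    rw [C.hT _ (by rw [hunion A hA, hc]; omega), hd1]
  · intro a b S ha hb hab hS hc
    have h1 : S ⊆ Γ'ᶜ := fun z hz => (mem_X.1 (hS hz)).2.2
    have h2 : a ∉ Γ' ∪ S := by
      simp only [Finset.mem_union, not_or]
      exact ⟨Finset.mem_compl.1 ha, fun h => (mem_X.1 (hS h)).2.1 rfl⟩
    have h3 : b ∉ Γ' ∪ S := by
      simp only [Finset.mem_union, not_or]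
      exact ⟨Finset.mem_compl.1 hb, fun h => (mem_X.1 (hS h)).1 rfl⟩
    obtain ⟨g, hg, hf, hga, hgb⟩ := C.swap_set (Γ' ∪ S) (by rw [hunion S h1, hc]; omega) h2 h3 hab
    exact ⟨g, ⟨hg, fun z hz => hf z (Finset.mem_union_left _ hz)⟩,
      fun s hs => hf s (Finset.mem_union_right _ hs), hga, hgb⟩
  · intro a b c e c' e' ha hb hab hce hce' hc he hc' he'
    obtain ⟨c1, c2, c3⟩ := mem_X.1 hc
    obtain ⟨e1, e2, e3⟩ := mem_X.1 he
    obtain ⟨d1, d2, d3⟩ := mem_X.1 hc'
    obtain ⟨f1, f2, f3⟩ := mem_X.1 he'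
    have hsub : ({a, b} : Finset α) ⊆ Γ'ᶜ := by
      intro z hz
      simp only [Finset.mem_insert, Finset.mem_singleton] at hz
      rcases hz with rfl | rfl <;> assumption
    have hcard : (Γ' ∪ {a, b}).card + 1 < j - 1 := by
      rw [hunion _ hsub, Finset.card_pair hab]
      omega
    have hnot : ∀ z, z ∈ Γ'ᶜ → z ≠ a → z ≠ b → z ∉ Γ' ∪ {a, b} := by
      intro z hz h1 h2
      simp only [Finset.mem_union, Finset.mem_insert, Finset.mem_singleton, not_or]
      exact ⟨Finset.mem_compl.1 hz, h1, h2⟩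
    obtain ⟨g, hg, hf, h1, h2⟩ := C.two_step (Γ' ∪ {a, b}) hcard (hnot c c3 c2 c1) (hnot e e3 e2 e1)
      (hnot c' d3 d2 d1) (hnot e' f3 f2 f1) hce hce'
    exact ⟨g, ⟨hg, fun z hz => hf z (Finset.mem_union_left _ hz)⟩,
      hf a (by simp), hf b (by simp), h1, h2⟩
  · rw [hWc]
    exact hpar

/-- The order of `G` in terms of point stabilisers. -/
theorem card_G_desc : ∀ i, i ≤ j - 1 → ∀ Γ : Finset α, Γ.card = i →
    Nat.card G = (Fintype.card α).descFactorial i * Nat.card (fixS G Γ) := by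
  intro i
  induction i with
  | zero =>
    intro _ Γ hΓ
    rw [Finset.card_eq_zero] at hΓ
    subst hΓ
    have : fixS G ∅ = G := by
      ext g
      simp [mem_fixS]
    rw [this]
    simp
  | succ i ih =>
    intro hi Γ hΓ
    obtain ⟨x, hx⟩ : Γ.Nonempty := Finset.card_pos.1 (by omega)
    have hc : (Γ.erase x).card = i := by
      rw [Finset.card_erase_of_mem hx, hΓ]
      rfl
    have h1 := ih (by omega) (Γ.erase x) hc
    have h2 := orb_card (fixS G (Γ.erase x)) x
    have h3 : orbF (fixS G (Γ.erase x)) x = (Γ.erase x)ᶜ := by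
      ext y
      simp only [mem_orbF, Finset.mem_compl]
      constructor
      · rintro ⟨g, hg, rfl⟩ hmem
        have h4 := g.injective (hg.2 _ hmem)
        rw [h4] at hmem
        simp at hmem
      · intro hy
        obtain ⟨g, hg, hf, hgy⟩ := C.hTr (Γ.erase x) (by omega) x y (by simp) hy
        exact ⟨g, ⟨hg, hf⟩, hgy⟩
    rw [h3, Finset.card_compl, hc, fixS_fixS, card_union_erase hx] at h2
    rw [h1, ← h2, Nat.descFactorial_succ]
    ring

/-- The order of `G` in terms of set stabilisers. -/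
theorem exists_card_choose {k : ℕ} (hk : k ≤ Fintype.card α) (hH : HomS G k) :
    ∃ β, 0 < β ∧ Nat.card G = (Fintype.card α).choose k * β := by
  classical
  haveI := pretransitive_of_homS hH
  obtain ⟨s₀, -, hs₀⟩ := Finset.exists_subset_card_eq (s := (Finset.univ : Finset α)) (n := k)
    (by rw [Finset.card_univ]; exact hk)
  let s : Set.powersetCard α k := ⟨s₀, hs₀⟩
  refine ⟨Nat.card (MulAction.stabilizer G s), Nat.card_pos, ?_⟩
  have h1 : Nat.card (MulAction.orbit G s) * Nat.card (MulAction.stabilizer G s) = Nat.card G := by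
    simp only [Nat.card_eq_fintype_card]
    exact MulAction.card_orbit_mul_card_stabilizer_eq_card_group G s
  rw [MulAction.orbit_eq_univ, Nat.card_congr (Equiv.Set.univ _), Set.powersetCard.card,
    Nat.card_eq_fintype_card] at h1
  exact h1.symm

/-- The relations between the orders. -/
theorem relations : ∃ β a, 0 < a ∧ m * β = j.factorial ∧ (Fintype.card α - j) * a = (j + 1) * β := by
  have hj := C.hj
  have hn := C.hn
  obtain ⟨β, hβ, h1⟩ := C.exists_card_choose (k := j) (by omega) C.hH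
  obtain ⟨a, ha, h2⟩ := C.exists_card_choose (k := j + 1) (by omega) C.hH1
  obtain ⟨Γ₀, -, hΓ₀⟩ := Finset.exists_subset_card_eq (s := (Finset.univ : Finset α)) (n := j - 1)
    (by rw [Finset.card_univ]; omega)
  have h3 := C.card_G_desc (j - 1) le_rfl Γ₀ hΓ₀
  rw [C.hT Γ₀ hΓ₀] at h3
  obtain ⟨n, hndef⟩ : ∃ n, n = Fintype.card α := ⟨_, rfl⟩
  rw [← hndef] at h1 h2 h3 hn ⊢
  have hm := C.hm
  rw [← hndef] at hm
  have hd := C.d_pos
  have hch : 0 < n.choose j := Nat.choose_pos (by omega)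
  have h4 : n.descFactorial j = j.factorial * n.choose j := Nat.descFactorial_eq_factorial_mul_choose n j
  have h5 : n.descFactorial j = (n - j + 1) * n.descFactorial (j - 1) := by
    obtain ⟨i, rfl⟩ : ∃ i, j = i + 1 := ⟨j - 1, by omega⟩
    rw [Nat.descFactorial_succ]
    simp only [Nat.add_sub_cancel]
    congr 1
    omega
  refine ⟨β, a, ha, ?_, ?_⟩
  · -- `(n - j + 1) β = j! d`
    have h6 : (n - j + 1) * (n.choose j * β) = j.factorial * n.choose j * d := by
      rw [← h4, h5, ← h1, h3]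
      ring
    rw [← hm] at h6
    have h7 : n.choose j * d * (m * β) = n.choose j * d * j.factorial := by
      calc n.choose j * d * (m * β) = m * d * (n.choose j * β) := by ring
        _ = j.factorial * n.choose j * d := h6
        _ = _ := by ring
    exact Nat.eq_of_mul_eq_mul_left (Nat.mul_pos hch hd) h7
  · have h6 := Nat.choose_succ_right_eq n j
    have h7 : n.choose j * ((n - j) * a) = n.choose j * ((j + 1) * β) := by
      calc n.choose j * ((n - j) * a) = (n.choose j * (n - j)) * a := by ring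
        _ = n.choose (j + 1) * (j + 1) * a := by rw [h6]
        _ = (j + 1) * (n.choose (j + 1) * a) := by ring
        _ = (j + 1) * (n.choose j * β) := by rw [← h2, h1]
        _ = _ := by ring
    exact Nat.eq_of_mul_eq_mul_left hch h7

/-- Application of the elimination. -/
theorem kill {p : ℕ} (hp : p.Prime) (hp2 : p ≠ 2) (hW : Fintype.card α - j + 2 = 2 * p)
    (hpd : ¬ p ∣ d) (hdp : ¬ d ∣ p - 1) : False := by
  have hj := C.hj
  have hn := C.hn
  obtain ⟨Γ', -, hΓ'⟩ := Finset.exists_subset_card_eq (s := (Finset.univ : Finset α)) (n := j - 2)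
    (by rw [Finset.card_univ]; omega)
  have hWc : (Γ'ᶜ).card = 2 * p := by
    rw [Finset.card_compl, hΓ']
    omega
  have hins : ∀ x, x ∉ Γ' → (Γ' ∪ {x}).card = j - 1 := by
    intro x hx
    rw [Finset.union_singleton, Finset.card_insert_of_notMem hx, hΓ']
    omega
  obtain ⟨x₀, hx₀⟩ : (Γ'ᶜ).Nonempty := Finset.card_pos.1 (by have := hp.pos; omega)
  apply kill_false (fixS G Γ') (Γ'ᶜ) ?_ hp hp2 hWc ?_ ?_ ?_ hpd hdp
  · intro g hg x hx
    exact hg.2 x (by simpa using hx)
  · have h1 := orb_card (fixS G Γ') x₀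
    have h2 : orbF (fixS G Γ') x₀ = Γ'ᶜ := by
      ext y
      simp only [mem_orbF, Finset.mem_compl]
      constructor
      · rintro ⟨g, hg, rfl⟩ hmem
        have h4 := g.injective (hg.2 _ hmem)
        rw [h4] at hmem
        exact (Finset.mem_compl.1 hx₀) hmem
      · intro hy
        obtain ⟨g, hg, hf, hgy⟩ := C.hTr Γ' (by omega) x₀ y (Finset.mem_compl.1 hx₀) hy
        exact ⟨g, ⟨hg, hf⟩, hgy⟩
    rw [h2, hWc, fixS_fixS, C.hT _ (hins x₀ (Finset.mem_compl.1 hx₀))] at h1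
    exact h1.symm
  · intro x hx
    rw [fixS_fixS]
    exact C.hT _ (hins x (Finset.mem_compl.1 hx))
  · intro x y hx hy hxy
    rw [fixS_fixS]
    apply C.hbot
    have hx' := Finset.mem_compl.1 hx
    have hy' := Finset.mem_compl.1 hy
    rw [Finset.card_union_of_disjoint, hΓ', Finset.card_pair hxy]
    · omega
    · rw [Finset.disjoint_left]
      intro z hz hz'
      simp only [Finset.mem_insert, Finset.mem_singleton] at hz'
      rcases hz' with rfl | rfl
      · exact hx' hz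
      · exact hy' hz

/-- The case of degree `7`, `j = 4`, `d = 1`. -/
theorem kill_seven (hj4 : j = 4) (h6 : Fintype.card α = 7) (h7 : d = 1) : False := by
  subst hj4
  subst h7
  have hdesc : ∀ i, i ≤ 3 → ∀ Γ : Finset α, Γ.card = i →
    Nat.card G = (Fintype.card α).descFactorial i * Nat.card (fixS G Γ) := C.card_G_desc
  obtain ⟨Γ₀, -, hΓ₀⟩ := Finset.exists_subset_card_eq (s := (Finset.univ : Finset α)) (n := 3)
    (by rw [Finset.card_univ]; omega)
  have hG : Nat.card G = 210 := by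
    rw [hdesc 3 le_rfl Γ₀ hΓ₀, C.hT Γ₀ hΓ₀, h6]
    norm_num [Nat.descFactorial]
  obtain ⟨x, -, hx⟩ := Finset.exists_subset_card_eq (s := (Finset.univ : Finset α)) (n := 1)
    (by rw [Finset.card_univ]; omega)
  obtain ⟨x, rfl⟩ := Finset.card_eq_one.1 hx
  have hWc : (({x} : Finset α)ᶜ).card = 2 * 3 := by
    rw [Finset.card_compl, h6]
    rfl
  have hins : ∀ y, y ∈ ({x} : Finset α)ᶜ → ({x} ∪ {y} : Finset α).card = 2 := by
    intro y hy
    have : x ≠ y := by
      rintro rfl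
      simp at hy
    rw [Finset.union_singleton, Finset.card_pair this.symm]
  apply kill_false (p := 3) (d := 5) (fixS G {x}) (({x} : Finset α)ᶜ) ?_ (by norm_num) (by norm_num)
    hWc ?_ ?_ ?_ (by norm_num) (by norm_num)
  · intro g hg z hz
    exact hg.2 z (by simpa using hz)
  · have h1 := hdesc 1 (by norm_num) {x} (by simp)
    rw [hG, h6] at h1
    norm_num [Nat.descFactorial] at h1
    omega
  · intro y hy
    rw [fixS_fixS]
    have h1 := hdesc 2 (by norm_num) _ (hins y hy)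
    have e : (7 : ℕ).descFactorial 2 = 42 := by norm_num [Nat.descFactorial]
    rw [hG, h6, e] at h1
    omega
  · intro y z hy hz hyz
    rw [fixS_fixS]
    apply Subgroup.eq_bot_of_card_eq
    have hy' : y ≠ x := by simpa using hy
    have hz' : z ≠ x := by simpa using hz
    apply C.hT
    rw [Finset.card_union_of_disjoint, Finset.card_singleton, Finset.card_pair hyz]
    rw [Finset.disjoint_singleton_left]
    simp [hy'.symm, hz'.symm]

/-- The case `j ≥ 5`. -/
theorem five_cases (hd : Odd d) (hj5 : 5 ≤ j) : Fintype.card α = j + 1 ∧ d = 1 := by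
  have hj := C.hj
  have hn := C.hn
  obtain ⟨Γ₅, -, hΓ₅⟩ := Finset.exists_subset_card_eq (s := (Finset.univ : Finset α)) (n := j - 5)
    (by rw [Finset.card_univ]; omega)
  have hunion : ∀ A : Finset α, A ⊆ Γ₅ᶜ → (Γ₅ ∪ A).card = j - 5 + A.card := by
    intro A hA
    rw [Finset.card_union_of_disjoint, hΓ₅]
    rw [Finset.disjoint_left]
    intro z hz hz'
    exact (Finset.mem_compl.1 (hA hz')) hz
  have hW : (Γ₅ᶜ).card = Fintype.card α - (j - 5) := by
    rw [Finset.card_compl, hΓ₅]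
  have hm := C.hm
  have hm2 := C.hm2
  have hd2 : 2 * d ≤ m * d := Nat.mul_le_mul_right _ hm2
  have hC : Cfg (fixS G Γ₅) (Γ₅ᶜ) d := by
    refine ⟨?_, hd, ?_, ?_, ?_⟩
    · intro g hg x hx
      exact hg.2 x (by simpa using hx)
    · intro A hA hc
      rw [fixS_fixS]
      apply C.hT
      rw [hunion A hA, hc]
      omega
    · intro A hA hc
      rw [fixS_fixS]
      apply C.hbot
      rw [hunion A hA, hc]
      omega
    · intro a b x y ha hb hx hy hab hax hay hbx hby hxy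
      have hsub : ({x, y} : Finset α) ⊆ Γ₅ᶜ := by
        intro z hz
        simp only [Finset.mem_insert, Finset.mem_singleton] at hz
        rcases hz with rfl | rfl <;> assumption
      have hcard : (Γ₅ ∪ {x, y}).card + 1 < j - 1 := by
        rw [hunion _ hsub, Finset.card_pair hxy]
        omega
      have hnot : ∀ z, z ∈ Γ₅ᶜ → z ≠ x → z ≠ y → z ∉ Γ₅ ∪ {x, y} := by
        intro z hz h1 h2
        simp only [Finset.mem_union, Finset.mem_insert, Finset.mem_singleton, not_or]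
        exact ⟨Finset.mem_compl.1 hz, h1, h2⟩
      obtain ⟨g, hg, hf, h1, h2⟩ := C.swap_set (Γ₅ ∪ {x, y}) hcard (hnot a ha hax hay)
        (hnot b hb hbx hby) hab
      exact ⟨g, ⟨hg, fun z hz => hf z (Finset.mem_union_left _ hz)⟩, hf x (by simp), hf y (by simp),
        h1, h2⟩
  have hcases := hC.card_cases (by omega)
  rw [hW] at hcases
  have hdpos := C.d_pos
  have hprime : ∀ {p : ℕ}, p.Prime → m * d = p → d = 1 ∧ m = p := by
    intro p hp h
    have h1 : d ∣ p := ⟨m, by rw [← h]; ring⟩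
    rcases (Nat.dvd_prime hp).1 h1 with h2 | h2
    · subst h2
      exact ⟨rfl, by simpa using h⟩
    · subst h2
      exfalso
      have : 2 * d ≤ d := by omega
      omega
  rcases hcases with ⟨h1, h2⟩ | h1 | h1 | h1
  · exact ⟨by omega, h2⟩
  · exfalso
    obtain ⟨h2, -⟩ := hprime (p := 3) (by norm_num) (by omega)
    obtain ⟨T, A, h3, h4⟩ := C.sharp_app h2 (r := 2) le_rfl (by omega) (by omega) (by omega)
    have h5 : Fintype.card α - (j - 3 - 2) = 7 := by omega
    rw [h5] at h3 h4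
    norm_num [Nat.choose] at h3 h4
    omega
  · exfalso
    obtain ⟨h2, -⟩ := hprime (p := 5) (by norm_num) (by omega)
    obtain ⟨T, A, h3, h4⟩ := C.sharp_app h2 (r := 2) le_rfl (by omega) (by omega) (by omega)
    have h5 : Fintype.card α - (j - 3 - 2) = 9 := by omega
    rw [h5] at h3 h4
    norm_num [Nat.choose] at h3 h4
    omega
  · exfalso
    obtain ⟨h2, h2'⟩ := hprime (p := 7) (by norm_num) (by omega)
    obtain ⟨β, a, ha, hb1, -⟩ := C.relations
    have hj7 : 7 ≤ j := by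
      by_contra hlt
      have h56 : j = 5 ∨ j = 6 := by omega
      rcases h56 with rfl | rfl
      · rw [h2'] at hb1
        norm_num [Nat.factorial] at hb1
        omega
      · rw [h2'] at hb1
        norm_num [Nat.factorial] at hb1
        omega
    obtain ⟨T, A, h3, h4⟩ := C.sharp_app h2 (r := 4) (by norm_num) (by omega) (by omega) (by omega)
    have h5 : Fintype.card α - (j - 3 - 4) = 13 := by omega
    rw [h5] at h3 h4
    norm_num [Nat.choose] at h3 h4
    omega

end Ctx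

/-- The classification. -/
theorem classify (hj : 2 ≤ j) (hn : j + 1 ≤ Fintype.card α) (hTr : TrS G (j - 1))
    (hH0 : HomS G (j - 1)) (hH : HomS G j) (hH1 : HomS G (j + 1)) (hnot : ¬ TrS G j) :
    (Fintype.card α = j + 1 ∧ Nat.card G * 2 = (Fintype.card α).factorial) ∨
    (Fintype.card α = 5 ∧ j = 3 ∧ Nat.card G = 20) ∨
    (Fintype.card α = 6 ∧ j = 4 ∧ Nat.card G = 120) ∨
    (Fintype.card α = 9 ∧ j = 4 ∧ (Nat.card G = 504 ∨ Nat.card G = 1512)) := by
  obtain ⟨d, m, C⟩ := exists_ctx hj hn hTr hH0 hH hH1 hnot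
  have hd : Odd d := by
    rcases Nat.even_or_odd d with hev | hodd
    · exact absurd (C.trS_of_even hev.two_dvd) hnot
    · exact hodd
  obtain ⟨Γ₀, -, hΓ₀⟩ := Finset.exists_subset_card_eq (s := (Finset.univ : Finset α)) (n := j - 1)
    (by rw [Finset.card_univ]; omega)
  have hcardG := C.card_G_desc (j - 1) le_rfl Γ₀ hΓ₀
  rw [C.hT Γ₀ hΓ₀] at hcardG
  have hm := C.hm
  have hm2 := C.hm2
  obtain ⟨β, a, ha, h1, h2⟩ := C.relations
  by_cases h5 : 5 ≤ j
  · obtain ⟨h6, h7⟩ := C.five_cases hd h5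
    left
    refine ⟨h6, ?_⟩
    rw [hcardG, h7, mul_one, h6]
    have h8 := Nat.factorial_mul_descFactorial (show j - 1 ≤ j + 1 by omega)
    rw [show j + 1 - (j - 1) = 2 by omega] at h8
    rw [← h8, Nat.factorial_two]
    ring
  have hj' : j = 2 ∨ j = 3 ∨ j = 4 := by omega
  rcases hj' with rfl | rfl | rfl
  · obtain ⟨h6, h7⟩ := num2 (n := Fintype.card α) (m := m) (β := β) (a := a) (d := d) h1 hm2 h2
      (by omega) hm hd ha
    left
    refine ⟨h6, ?_⟩
    rw [hcardG, h7, h6]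
    norm_num [Nat.descFactorial, Nat.factorial]
  · rcases num3 (n := Fintype.card α) (m := m) (β := β) (a := a) (d := d) hm hm2 h1 h2 (by omega) hd
      ha with ⟨h6, h7⟩ | ⟨h6, h7⟩ | ⟨h6, h7⟩
    · left
      refine ⟨h6, ?_⟩
      rw [hcardG, h7, h6]
      norm_num [Nat.descFactorial, Nat.factorial]
    · right; left
      refine ⟨h6, rfl, ?_⟩
      rw [hcardG, h7, h6]
      norm_num [Nat.descFactorial]
    · subst h7
      exact (C.kill (p := 5) (by norm_num) (by norm_num) (by omega) (by norm_num) (by norm_num)).elim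
  · rcases num4 (n := Fintype.card α) (m := m) (β := β) (a := a) (d := d) hm hm2 h1 h2 (by omega) hd
      ha with ⟨h6, h7⟩ | ⟨h6, h7⟩ | ⟨h6, h7⟩ | ⟨h6, h7⟩ | ⟨h6, h7⟩ | ⟨h6, h7⟩ | ⟨h6, h7⟩
    · left
      refine ⟨h6, ?_⟩
      rw [hcardG, h7, h6]
      norm_num [Nat.descFactorial, Nat.factorial]
    · right; right; left
      refine ⟨h6, rfl, ?_⟩
      rw [hcardG, h7, h6]
      norm_num [Nat.descFactorial]
    · exact (C.kill_seven rfl h6 h7).elim
    · right; right; right
      refine ⟨h6, rfl, Or.inl ?_⟩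
      rw [hcardG, h7, h6]
      norm_num [Nat.descFactorial]
    · right; right; right
      refine ⟨h6, rfl, Or.inr ?_⟩
      rw [hcardG, h7, h6]
      norm_num [Nat.descFactorial]
    · subst h7
      exact (C.kill (p := 5) (by norm_num) (by norm_num) (by omega) (by norm_num) (by norm_num)).elim
    · subst h7
      exact (C.kill (p := 11) (by norm_num) (by norm_num) (by omega) (by norm_num) (by norm_num)).elim

end Cfsg.Agent.Lib.LVMain
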