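import Mathlib

/-!
Basic tools for multiply transitive and homogeneous permutation groups, phrased with finsets.
-/

set_option autoImplicit false
set_option linter.unusedSectionVars false
set_option linter.style.haveILetI false

namespace Cfsg.Agent.Lib.LWBasic

open Equiv

variable {α : Type*} [Fintype α] [DecidableEq α]

/-- Pointwise stabilizer in `G` of the finset `A`. -/
def Fx (G : Subgroup (Perm α)) (A : Finset α) : Subgroup (Perm α) where
  carrier := {g | g ∈ G ∧ ∀ a ∈ A, g a = a}
  mul_mem' := by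
    rintro x y ⟨hx, hx'⟩ ⟨hy, hy'⟩
    refine ⟨G.mul_mem hx hy, fun a ha => ?_⟩
    simp [hy' a ha, hx' a ha]
  one_mem' := ⟨G.one_mem, fun _ _ => rfl⟩
  inv_mem' := by
    rintro x ⟨hx, hx'⟩
    refine ⟨G.inv_mem hx, fun a ha => ?_⟩
    rw [Perm.inv_eq_iff_eq]
    exact (hx' a ha).symm

lemma mem_Fx {G : Subgroup (Perm α)} {A : Finset α} {g : Perm α} :
    g ∈ Fx G A ↔ g ∈ G ∧ ∀ a ∈ A, g a = a := Iff.rfl

/-- Partial-map transitivity on `j`-subsets. -/
def PT (G : Subgroup (Perm α)) (j : ℕ) : Prop :=
  ∀ (A : Finset α) (f : α → α), A.card = j → Set.InjOn f A → ∃ g ∈ G, ∀ a ∈ A, g a = f a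

/-- Transitivity on `j`-subsets. -/
def HG (G : Subgroup (Perm α)) (j : ℕ) : Prop :=
  ∀ A B : Finset α, A.card = j → B.card = j → ∃ g ∈ G, A.image g = B

lemma PT_zero (G : Subgroup (Perm α)) : PT G 0 := by
  intro A f hA _
  refine ⟨1, G.one_mem, fun a ha => ?_⟩
  rw [Finset.card_eq_zero.mp hA] at ha
  simp at ha

lemma PT.mono_succ {G : Subgroup (Perm α)} {j : ℕ} (h : PT G (j + 1))
    (hj : j < Fintype.card α) : PT G j := by
  intro A f hA hf
  have h1 : ∃ c, c ∉ A := by
    by_contra hc
    push Not at hc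
    have : A = Finset.univ := Finset.eq_univ_iff_forall.mpr hc
    rw [this, Finset.card_univ] at hA
    omega
  have h2 : ∃ d, d ∉ A.image f := by
    by_contra hc
    push Not at hc
    have h3 : A.image f = Finset.univ := Finset.eq_univ_iff_forall.mpr hc
    have h4 := Finset.card_image_le (s := A) (f := f)
    rw [h3, Finset.card_univ] at h4
    omega
  obtain ⟨c, hc⟩ := h1
  obtain ⟨d, hd⟩ := h2
  have hinj : Set.InjOn (Function.update f c d) (↑(insert c A) : Set α) := by
    intro x hx y hy hxy
    simp only [Finset.coe_insert, Set.mem_insert_iff, Finset.mem_coe] at hx hy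
    by_cases hxc : x = c
    · by_cases hyc : y = c
      · rw [hxc, hyc]
      · exfalso
        have hyA : y ∈ A := hy.resolve_left hyc
        rw [hxc, Function.update_self, Function.update_of_ne hyc] at hxy
        exact hd (hxy ▸ Finset.mem_image_of_mem f hyA)
    · by_cases hyc : y = c
      · exfalso
        have hxA : x ∈ A := hx.resolve_left hxc
        rw [hyc, Function.update_self, Function.update_of_ne hxc] at hxy
        exact hd (hxy ▸ Finset.mem_image_of_mem f hxA)
      · rw [Function.update_of_ne hxc, Function.update_of_ne hyc] at hxy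
        exact hf (hx.resolve_left hxc) (hy.resolve_left hyc) hxy
  obtain ⟨g, hg, hg'⟩ := h (insert c A) (Function.update f c d)
    (by rw [Finset.card_insert_of_notMem hc, hA]) hinj
  refine ⟨g, hg, fun a ha => ?_⟩
  have hac : a ≠ c := fun e => hc (e ▸ ha)
  rw [hg' a (Finset.mem_insert_of_mem ha), Function.update_of_ne hac]

lemma PT.mono {G : Subgroup (Perm α)} {j k : ℕ} (h : PT G k) (hjk : j ≤ k)
    (hk : k ≤ Fintype.card α) : PT G j := by
  induction k, hjk using Nat.le_induction with
  | base => exact h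
  | succ m hm ih => exact ih (h.mono_succ (by omega)) (by omega)

lemma PT.HG {G : Subgroup (Perm α)} {j : ℕ} (h : PT G j) : HG G j := by
  intro A B hA hB
  have e : A ≃ B := Finset.equivOfCardEq (hA.trans hB.symm)
  let f : α → α := fun a => if ha : a ∈ A then (e ⟨a, ha⟩ : α) else a
  have hf : ∀ a (ha : a ∈ A), f a = e ⟨a, ha⟩ := fun a ha => by simp [f, ha]
  have hinj : Set.InjOn f (↑A : Set α) := by
    intro x hx y hy hxy
    rw [hf x hx, hf y hy] at hxy
    have := e.injective (Subtype.ext hxy)
    exact congrArg Subtype.val this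
  obtain ⟨g, hg, hg'⟩ := h A f hA hinj
  refine ⟨g, hg, ?_⟩
  ext b
  simp only [Finset.mem_image]
  constructor
  · rintro ⟨a, ha, rfl⟩
    rw [hg' a ha, hf a ha]
    exact (e ⟨a, ha⟩).2
  · intro hb
    refine ⟨e.symm ⟨b, hb⟩, (e.symm ⟨b, hb⟩).2, ?_⟩
    rw [hg' _ (e.symm ⟨b, hb⟩).2, hf _ (e.symm ⟨b, hb⟩).2]
    simp

/-- Conjugating a pointwise stabilizer. -/
lemma card_Fx_image {G : Subgroup (Perm α)} {g : Perm α} (hg : g ∈ G) (A : Finset α) :
    Nat.card (Fx G (A.image g)) = Nat.card (Fx G A) := by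
  refine Nat.card_congr (Equiv.subtypeEquiv (MulAut.conj g⁻¹).toEquiv ?_)
  intro x
  simp only [MulEquiv.toEquiv_eq_coe, EquivLike.coe_coe, MulAut.conj_apply, inv_inv, mem_Fx]
  constructor
  · rintro ⟨hx, hx'⟩
    refine ⟨G.mul_mem (G.mul_mem (G.inv_mem hg) hx) hg, fun a ha => ?_⟩
    simp only [Perm.coe_mul, Function.comp_apply]
    rw [hx' (g a) (Finset.mem_image_of_mem g ha)]
    simp
  · rintro ⟨hx, hx'⟩
    have h1 : x = g * (g⁻¹ * x * g) * g⁻¹ := by group
    refine ⟨by rw [h1]; exact G.mul_mem (G.mul_mem hg hx) (G.inv_mem hg), fun a ha => ?_⟩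
    obtain ⟨b, hb, rfl⟩ := Finset.mem_image.mp ha
    have := hx' b hb
    simp only [Perm.coe_mul, Function.comp_apply] at this
    have h2 := congrArg g this
    simpa using h2

lemma card_Fx_eq {G : Subgroup (Perm α)} {j : ℕ} (h : HG G j) {A B : Finset α}
    (hA : A.card = j) (hB : B.card = j) : Nat.card (Fx G A) = Nat.card (Fx G B) := by
  obtain ⟨g, hg, rfl⟩ := h A B hA hB
  exact (card_Fx_image hg A).symm

open scoped Classical in
/-- The orbit of `u` under a subgroup, as a finset. -/
noncomputable def orbF (P : Subgroup (Perm α)) (u : α) : Finset α :=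
  Finset.univ.filter fun v => ∃ g ∈ P, g u = v

lemma mem_orbF {P : Subgroup (Perm α)} {u v : α} : v ∈ orbF P u ↔ ∃ g ∈ P, g u = v := by
  simp [orbF]

/-- Orbit-stabilizer in subgroup language. -/
lemma card_eq_orbF_mul {P Q : Subgroup (Perm α)} {u : α} (hQ : ∀ g, g ∈ Q ↔ g ∈ P ∧ g u = u) :
    Nat.card P = (orbF P u).card * Nat.card Q := by
  classical
  haveI : Fintype P := Fintype.ofFinite _
  have key := MulAction.card_orbit_mul_card_stabilizer_eq_card_group (↥P) (u)
  have h1 : Fintype.card (MulAction.orbit (↥P) u) = (orbF P u).card := by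
    rw [← Nat.card_eq_fintype_card, ← Nat.card_eq_finsetCard]
    refine Nat.card_congr (Equiv.subtypeEquivRight ?_)
    intro v
    rw [mem_orbF, MulAction.mem_orbit_iff]
    constructor
    · rintro ⟨⟨g, hg⟩, rfl⟩
      exact ⟨g, hg, rfl⟩
    · rintro ⟨g, hg, rfl⟩
      exact ⟨⟨g, hg⟩, rfl⟩
  have h2 : Fintype.card (MulAction.stabilizer (↥P) u) = Nat.card Q := by
    rw [← Nat.card_eq_fintype_card]
    refine Nat.card_congr ⟨fun x => ⟨x.1.1, (hQ _).mpr ⟨x.1.2, x.2⟩⟩,
      fun y => ⟨⟨y.1, ((hQ _).mp y.2).1⟩, ((hQ _).mp y.2).2⟩, fun _ => rfl, fun _ => rfl⟩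
  rw [h1, h2] at key
  rw [Nat.card_eq_fintype_card, key.symm]

/-- If a subgroup preserves `S` and all orbits in `S` have size `d` then `d ∣ |S|`. -/
lemma dvd_card_of_orbF {P : Subgroup (Perm α)} {d : ℕ} (S : Finset α)
    (hS : ∀ g ∈ P, ∀ x ∈ S, g x ∈ S) (hd : ∀ x ∈ S, (orbF P x).card = d) : d ∣ S.card := by
  classical
  induction hn : S.card using Nat.strong_induction_on generalizing S with
  | _ n ih =>
    rcases S.eq_empty_or_nonempty with rfl | ⟨x, hx⟩
    · simp at hn
      simp [← hn]
    · have hsub : orbF P x ⊆ S := by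
        intro v hv
        obtain ⟨g, hg, rfl⟩ := mem_orbF.mp hv
        exact hS g hg x hx
      have hxmem : x ∈ orbF P x := mem_orbF.mpr ⟨1, P.one_mem, rfl⟩
      have hS' : ∀ g ∈ P, ∀ y ∈ S \ orbF P x, g y ∈ S \ orbF P x := by
        intro g hg y hy
        rw [Finset.mem_sdiff] at hy ⊢
        refine ⟨hS g hg y hy.1, fun hc => hy.2 ?_⟩
        obtain ⟨h, hh, hh'⟩ := mem_orbF.mp hc
        refine mem_orbF.mpr ⟨g⁻¹ * h, P.mul_mem (P.inv_mem hg) hh, ?_⟩
        simp [hh']
      have hcard : (S \ orbF P x).card + d = n := by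
        rw [Finset.card_sdiff_of_subset hsub, hd x hx, ← hn]
        have := Finset.card_le_card hsub
        rw [hd x hx] at this
        omega
      have hlt : (S \ orbF P x).card < n := by
        have hdpos : 0 < d := by
          rw [← hd x hx]
          exact Finset.card_pos.mpr ⟨x, hxmem⟩
        omega
      have h3 := ih _ hlt (S \ orbF P x) hS' (fun y hy => hd y (Finset.mem_sdiff.mp hy).1) rfl
      rw [← hcard]
      exact Dvd.dvd.add h3 (dvd_refl d)

/-- An involution of odd degree has a fixed point; more generally the fixed points have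
the parity of the set. -/
lemma card_fix_modEq {g : Perm α} (hg : g * g = 1) (S : Finset α) (hS : ∀ x ∈ S, g x ∈ S) :
    (S.filter fun x => g x = x).card % 2 = S.card % 2 := by
  classical
  have h1 : (S.filter fun x => g x = x).card + (S.filter fun x => ¬ g x = x).card = S.card :=
    Finset.card_filter_add_card_filter_not _
  have hgg : ∀ x, g (g x) = x := fun x => by
    have := congrArg (fun p : Perm α => p x) hg
    simpa using this
  have h2 : Even (S.filter fun x => ¬ g x = x).card := by
    have h3 : ((S.filter fun x => ¬ g x = x).card : ZMod 2) = 0 := by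
      have : ∑ _x ∈ S.filter (fun x => ¬ g x = x), (1 : ZMod 2) = 0 := by
        refine Finset.sum_involution (fun x _ => g x) ?_ ?_ ?_ ?_
        · intro a _
          have : (2 : ZMod 2) = 0 := by decide
          calc (1 : ZMod 2) + 1 = 2 := by norm_num
            _ = 0 := this
        · intro a ha _ hc
          exact (Finset.mem_filter.mp ha).2 hc
        · intro a ha
          rw [Finset.mem_filter] at ha ⊢
          refine ⟨hS a ha.1, fun hc => ha.2 ?_⟩
          rw [hgg] at hc
          exact hc.symm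
        · intro a _
          exact hgg a
      simpa using this
    exact (ZMod.natCast_eq_zero_iff_even).mp h3
  obtain ⟨r, hr⟩ := h2
  omega

end Cfsg.Agent.Lib.LWBasic
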