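import Mathlib
import Cfsg.Agent.Lib.LWBasic

/-!
Reflection systems: families of involutions with unique fixed points such that products of two
lie in a group with trivial two-point stabilizers.
-/

set_option autoImplicit false
set_option linter.unusedSectionVars false

namespace Cfsg.Agent.Lib.LWReflect

open Equiv Cfsg.Agent.Lib.LWBasic

variable {α : Type*} [Fintype α] [DecidableEq α]

/-- A reflection system on `W` relative to `T`. -/
structure Refl (T : Subgroup (Perm α)) (W : Finset α) (ρ : α → Perm α) : Prop where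
  inv : ∀ u ∈ W, ρ u * ρ u = 1
  maps : ∀ u ∈ W, ∀ x ∈ W, ρ u x ∈ W
  fix : ∀ u ∈ W, ρ u u = u
  fix_unique : ∀ u ∈ W, ∀ x ∈ W, ρ u x = x → x = u
  prod : ∀ u ∈ W, ∀ v ∈ W, ρ u * ρ v ∈ T
  two : ∀ z ∈ T, ∀ x ∈ W, ∀ y ∈ W, x ≠ y → z x = x → z y = y → z = 1

variable {T : Subgroup (Perm α)} {W : Finset α} {ρ ρ' : α → Perm α}

lemma Refl.rr (h : Refl T W ρ) {u : α} (hu : u ∈ W) (x : α) : ρ u (ρ u x) = x := by
  have := congrArg (fun p : Perm α => p x) (h.inv u hu)
  simpa using this

lemma Refl.inv_eq (h : Refl T W ρ) {u : α} (hu : u ∈ W) : (ρ u)⁻¹ = ρ u :=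
  inv_eq_of_mul_eq_one_left (h.inv u hu)

lemma Refl.eq_of_perm (h : Refl T W ρ) {u v : α} (hu : u ∈ W) (hv : v ∈ W)
    (he : ρ u = ρ v) : u = v := by
  have h1 : ρ v u = u := by rw [← he]; exact h.fix u hu
  exact h.fix_unique v hv u hu h1

lemma Refl.eq_of_apply (h : Refl T W ρ) {u v x : α} (hu : u ∈ W) (hv : v ∈ W) (hx : x ∈ W)
    (he : ρ u x = ρ v x) : u = v := by
  by_cases hy : ρ u x = x
  · have h1 := h.fix_unique u hu x hx hy
    have h2 := h.fix_unique v hv x hx (he ▸ hy)
    rw [← h1, h2]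
  · have hyW := h.maps u hu x hx
    have hz := h.two _ (h.prod u hu v hv) x hx (ρ u x) hyW (Ne.symm hy) ?_ ?_
    · have h3 : ρ u = ρ v := by
        have : ρ u = (ρ v)⁻¹ := eq_inv_of_mul_eq_one_left hz
        rw [this, h.inv_eq hv]
      exact h.eq_of_perm hu hv h3
    · simp only [Perm.coe_mul, Function.comp_apply]
      rw [← he, h.rr hu]
    · simp only [Perm.coe_mul, Function.comp_apply]
      rw [he, h.rr hv, ← he]

lemma Refl.exists_apply (h : Refl T W ρ) {x y : α} (hx : x ∈ W) (hy : y ∈ W) :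
    ∃ u ∈ W, ρ u x = y := by
  classical
  have hinj : Set.InjOn (fun u => ρ u x) (↑W : Set α) := fun u hu v hv he =>
    h.eq_of_apply hu hv hx he
  have hmaps : Set.MapsTo (fun u => ρ u x) (↑W : Set α) (↑W : Set α) :=
    fun u hu => h.maps u hu x hx
  have hsurj := Finset.surjOn_of_injOn_of_card_le (s := W) (t := W) (fun u => ρ u x) hmaps hinj le_rfl
  obtain ⟨u, hu, hu'⟩ := hsurj hy
  exact ⟨u, hu, hu'⟩

lemma Refl.fpf (h : Refl T W ρ) {u v x : α} (hu : u ∈ W) (hv : v ∈ W) (hx : x ∈ W) (huv : u ≠ v) :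
    (ρ u * ρ v) x ≠ x := by
  intro hc
  apply huv
  simp only [Perm.coe_mul, Function.comp_apply] at hc
  refine h.eq_of_apply hu hv hx ?_
  have := congrArg (ρ u) hc
  rw [h.rr hu] at this
  exact this.symm

open scoped Classical in
/-- Fixed-point free elements of `T` on `W`. -/
noncomputable def fpfSet (T : Subgroup (Perm α)) (W : Finset α) : Finset (Perm α) :=
  Finset.univ.filter fun z => z ∈ T ∧ ∀ x ∈ W, z x ≠ x

lemma mem_fpfSet {z : Perm α} : z ∈ fpfSet T W ↔ z ∈ T ∧ ∀ x ∈ W, z x ≠ x := by
  simp [fpfSet]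

open scoped Classical in
/-- Number of fixed point free elements in a group with trivial two-point stabilizers. -/
lemma card_fpfSet {q : ℕ} (hW : W.Nonempty)
    (htwo : ∀ z ∈ T, ∀ x ∈ W, ∀ y ∈ W, x ≠ y → z x = x → z y = y → z = 1)
    (hT : Nat.card T = W.card * q)
    (hq : ∀ u ∈ W, (Finset.univ.filter fun z : Perm α => z ∈ T ∧ z u = u).card = q) :
    (fpfSet T W).card = W.card - 1 := by
  set T₀ : Finset (Perm α) := Finset.univ.filter (· ∈ T) with hT₀
  have hcardT₀ : T₀.card = W.card * q := by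
    rw [← hT, Nat.card_eq_fintype_card, Fintype.card_subtype]
  -- double counting of fixed points
  have hdc : ∑ z ∈ T₀, (W.filter fun u => z u = u).card = W.card * q := by
    have := Finset.sum_card_bipartiteAbove_eq_sum_card_bipartiteBelow
      (s := T₀) (t := W) (fun (z : Perm α) (u : α) => z u = u)
    simp only [Finset.bipartiteAbove, Finset.bipartiteBelow] at this
    rw [this]
    have h2 : ∀ u ∈ W, (T₀.filter fun z => z u = u).card = q := by
      intro u hu
      rw [← hq u hu, hT₀, Finset.filter_filter]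
    rw [Finset.sum_congr rfl h2, Finset.sum_const, smul_eq_mul]
  set A := T₀.filter fun z => z ≠ 1 ∧ ∃ x ∈ W, z x = x with hA
  have h1mem : (1 : Perm α) ∈ T₀ := by simp [hT₀, T.one_mem]
  have hval : ∀ z ∈ T₀, (W.filter fun u => z u = u).card =
      (if z = 1 then W.card else 0) + (if z ∈ A then 1 else 0) := by
    intro z hz
    by_cases hz1 : z = 1
    · subst hz1
      have h3 : (1 : Perm α) ∉ A := by simp [hA]
      simp [h3]
    · have hzT : z ∈ T := by simpa [hT₀] using hz
      by_cases hzA : z ∈ A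
      · obtain ⟨x, hx, hxz⟩ := (Finset.mem_filter.mp hzA).2.2
        have : W.filter (fun u => z u = u) = {x} := by
          ext y
          simp only [Finset.mem_filter, Finset.mem_singleton]
          constructor
          · rintro ⟨hy, hyz⟩
            by_contra hne
            exact hz1 (htwo z hzT y hy x hx hne hyz hxz)
          · rintro rfl
            exact ⟨hx, hxz⟩
        simp [this, hz1, hzA]
      · have : W.filter (fun u => z u = u) = ∅ := by
          ext y
          simp only [Finset.mem_filter, Finset.notMem_empty, iff_false, not_and]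
          intro hy hyz
          exact hzA (Finset.mem_filter.mpr ⟨hz, hz1, y, hy, hyz⟩)
        simp [this, hz1, hzA]
  have hsum : W.card + A.card = W.card * q := by
    rw [← hdc, Finset.sum_congr rfl hval, Finset.sum_add_distrib]
    have h5 : ∑ z ∈ T₀, (if z = 1 then W.card else 0) = W.card := by
      rw [Finset.sum_ite_eq' T₀ (1 : Perm α)]
      simp [h1mem]
    have h6 : ∑ z ∈ T₀, (if z ∈ A then 1 else 0) = A.card := by
      rw [Finset.sum_boole]
      simp only [Nat.cast_id]
      congr 1
      ext z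
      simp only [Finset.mem_filter, hA]
      tauto
    rw [h5, h6]
  -- partition
  have hpart : T₀ = {1} ∪ A ∪ fpfSet T W := by
    ext z
    simp only [Finset.mem_union, Finset.mem_singleton, mem_fpfSet, hA, Finset.mem_filter, hT₀,
      Finset.mem_univ, true_and]
    constructor
    · intro hz
      by_cases hz1 : z = 1
      · exact Or.inl (Or.inl hz1)
      · by_cases hzx : ∃ x ∈ W, z x = x
        · exact Or.inl (Or.inr ⟨hz, hz1, hzx⟩)
        · push Not at hzx
          exact Or.inr ⟨hz, hzx⟩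
    · rintro ((rfl | h) | h)
      · exact T.one_mem
      · exact h.1
      · exact h.1
  have hdisj1 : Disjoint ({1} : Finset (Perm α)) A := by
    rw [Finset.disjoint_singleton_left]
    simp [hA]
  have hdisj2 : Disjoint ({1} ∪ A : Finset (Perm α)) (fpfSet T W) := by
    rw [Finset.disjoint_left]
    intro z hz hz'
    obtain ⟨x, hx⟩ := hW
    have hzf := (mem_fpfSet.mp hz').2
    rcases Finset.mem_union.mp hz with h | h
    · rw [Finset.mem_singleton] at h
      subst h
      exact hzf x hx rfl
    · obtain ⟨y, hy, hyz⟩ := (Finset.mem_filter.mp h).2.2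
      exact hzf y hy hyz
  have hc : T₀.card = 1 + A.card + (fpfSet T W).card := by
    rw [hpart, Finset.card_union_of_disjoint hdisj2, Finset.card_union_of_disjoint hdisj1,
      Finset.card_singleton]
  have hpos : 0 < W.card := Finset.card_pos.mpr hW
  omega

open scoped Classical in
/-- In a reflection system, all fixed point free elements of `T` are products `ρ u * ρ w`. -/
lemma Refl.fpf_form {q : ℕ} (h : Refl T W ρ)
    (hT : Nat.card T = W.card * q)
    (hq : ∀ u ∈ W, (Finset.univ.filter fun z : Perm α => z ∈ T ∧ z u = u).card = q)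
    {w : α} (hw : w ∈ W) {z : Perm α} (hz : z ∈ fpfSet T W) :
    ∃ u ∈ W, u ≠ w ∧ z = ρ u * ρ w := by
  have hcard := card_fpfSet ⟨w, hw⟩ h.two hT hq
  have hinj : Set.InjOn (fun u => ρ u * ρ w) (↑(W.erase w) : Set α) := by
    intro u hu v hv he
    have hu' := (Finset.mem_erase.mp (Finset.mem_coe.mp hu)).2
    have hv' := (Finset.mem_erase.mp (Finset.mem_coe.mp hv)).2
    exact h.eq_of_perm hu' hv' (mul_right_cancel he)
  have hsub : (W.erase w).image (fun u => ρ u * ρ w) ⊆ fpfSet T W := by
    intro y hy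
    obtain ⟨u, hu, rfl⟩ := Finset.mem_image.mp hy
    have hu' := Finset.mem_erase.mp hu
    exact mem_fpfSet.mpr ⟨h.prod u hu'.2 w hw, fun x hx => h.fpf hu'.2 hw hx hu'.1⟩
  have hcard2 : ((W.erase w).image (fun u => ρ u * ρ w)).card = W.card - 1 := by
    rw [Finset.card_image_of_injOn hinj, Finset.card_erase_of_mem hw]
  have heq := Finset.eq_of_subset_of_card_le hsub (by rw [hcard, hcard2])
  rw [← heq] at hz
  obtain ⟨u, hu, rfl⟩ := Finset.mem_image.mp hz
  have hu' := Finset.mem_erase.mp hu
  exact ⟨u, hu'.2, hu'.1, rfl⟩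

open scoped Classical in
/-- Two reflection systems on the same `W`: the product of their reflections at a common point
acts trivially on `W`. -/
lemma Refl.mul_fix {q : ℕ} (h : Refl T W ρ) (h' : Refl T W ρ')
    (hT : Nat.card T = W.card * q)
    (hq : ∀ u ∈ W, (Finset.univ.filter fun z : Perm α => z ∈ T ∧ z u = u).card = q)
    {w x : α} (hw : w ∈ W) (hx : x ∈ W) : (ρ w * ρ' w) x = x := by
  by_cases hxw : x = w
  · subst hxw
    simp [h.fix x hw, h'.fix x hw]
  obtain ⟨u, hu, hux⟩ := h.exists_apply hw hx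
  have huw : u ≠ w := by
    rintro rfl
    exact hxw (hux.symm.trans (h.fix u hu))
  have hzmem : ρ u * ρ w ∈ fpfSet T W :=
    mem_fpfSet.mpr ⟨h.prod u hu w hw, fun y hy => h.fpf hu hw hy huw⟩
  obtain ⟨v, hv, -, hzv⟩ := h'.fpf_form hT hq hw hzmem
  set z := ρ u * ρ w with hz
  set a := ρ w with ha
  set b := ρ' w with hb
  have haa : a * a = 1 := h.inv w hw
  have hbb : b * b = 1 := h'.inv w hw
  have huu : ρ u * ρ u = 1 := h.inv u hu
  have hvv : ρ' v * ρ' v = 1 := h'.inv v hv
  have hzinv1 : z⁻¹ = a * ρ u := by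
    rw [hz, mul_inv_rev, h.inv_eq hw, h.inv_eq hu]
  have hzinv2 : z⁻¹ = b * ρ' v := by
    rw [hzv, mul_inv_rev, h'.inv_eq hw, h'.inv_eq hv]
  have h1 : a * z⁻¹ = z * a := by
    rw [hzinv1, ← mul_assoc, haa, one_mul, hz, mul_assoc, haa, mul_one]
  have h2 : b * z = z⁻¹ * b := by
    rw [hzinv2]
    calc b * z = b * (ρ' v * b) := by rw [hzv]
      _ = b * ρ' v * b := by group
  have h3 : a * b * z = z * (a * b) := by
    calc a * b * z = a * (b * z) := by group
      _ = a * (z⁻¹ * b) := by rw [h2]
      _ = (a * z⁻¹) * b := by group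
      _ = (z * a) * b := by rw [h1]
      _ = z * (a * b) := by group
  have hzw : z w = x := by
    simp only [hz, Perm.coe_mul, Function.comp_apply]
    rw [ha, h.fix w hw, hux]
  have h4 := congrArg (fun p : Perm α => p w) h3
  simp only [Perm.coe_mul, Function.comp_apply] at h4
  have hbw : b w = w := h'.fix w hw
  have haw : a w = w := h.fix w hw
  rw [hbw, haw] at h4
  rw [← hzw]
  simpa [hzw] using h4

end Cfsg.Agent.Lib.LWReflect
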