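import Mathlib
import Cfsg.Agent.Lib.LWBasic
import Cfsg.Agent.Lib.LWReflect

/-!
Core of the Livingstone-Wagner transitivity theorem, first part: equal orbit lengths, order
formula, swaps.
-/

set_option autoImplicit false
set_option linter.unusedSectionVars false
set_option linter.style.haveILetI false

namespace Cfsg.Agent.Lib.LWCore1

open Equiv Cfsg.Agent.Lib.LWBasic Cfsg.Agent.Lib.LWReflect

variable {α : Type*} [Fintype α] [DecidableEq α] {G : Subgroup (Perm α)}

lemma Fx_insert_iff {A : Finset α} {u : α} (g : Perm α) :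
    g ∈ Fx G (insert u A) ↔ g ∈ Fx G A ∧ g u = u := by
  simp only [mem_Fx, Finset.mem_insert, forall_eq_or_imp]
  tauto

lemma card_Fx_pos (A : Finset α) : 0 < Nat.card (Fx G A) := Nat.card_pos

lemma Fx_eq_bot_of_card {A : Finset α} (h : Nat.card (Fx G A) = 1) : Fx G A = ⊥ :=
  (Subgroup.card_eq_one (H := Fx G A)).mp (by simpa using h) |> fun h => h

/-- If `g` fixes `X` pointwise and `y ∉ X` then `g y ∉ X`. -/
lemma apply_notMem {X : Finset α} {g : Perm α} (hg : ∀ a ∈ X, g a = a) {y : α} (hy : y ∉ X) :
    g y ∉ X := by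
  intro hc
  have h1 := hg _ hc
  exact hy (g.injective h1 ▸ hc)

/-- Lemma A: if the pointwise stabilizer of a `t`-set is intransitive on its complement, then
the pointwise stabilizers of `(t+1)`-sets are trivial. -/
theorem Fx_succ_bot {t : ℕ} (hH1 : HG G (t + 1)) (hH2 : HG G (t + 2)) {X : Finset α}
    (hX : X.card = t) {y z : α} (hy : y ∉ X) (hz : z ∉ X) (hyz : z ∉ orbF (Fx G X) y) :
    ∀ A : Finset α, A.card = t + 1 → Fx G A = ⊥ := by
  classical
  set L := Fx G X with hL
  set B := Fx G (insert y X) with hB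
  have hcY : (insert y X).card = t + 1 := by rw [Finset.card_insert_of_notMem hy, hX]
  -- L-orbits have equal size
  have hL1 : ∀ u, u ∉ X → Nat.card L = (orbF L u).card * Nat.card B := by
    intro u hu
    have h1 : Nat.card L = (orbF L u).card * Nat.card (Fx G (insert u X)) :=
      card_eq_orbF_mul (fun g => Fx_insert_iff g)
    rw [h1, hB, card_Fx_eq hH1 (A := insert u X) (B := insert y X)
      (by rw [Finset.card_insert_of_notMem hu, hX]) hcY]
  have hL2 : ∀ u, u ∉ X → (orbF L u).card = (orbF L y).card := by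
    intro u hu
    have h1 := hL1 u hu
    have h2 := hL1 y hy
    have hpos : 0 < Nat.card B := card_Fx_pos _
    exact Nat.eq_of_mul_eq_mul_right hpos (h1.symm.trans h2)
  have hyY : z ∉ insert y X := by
    rw [Finset.mem_insert, not_or]
    refine ⟨?_, hz⟩
    rintro rfl
    exact hyz (mem_orbF.mpr ⟨1, L.one_mem, rfl⟩)
  -- B-orbits have equal size
  have hB1 : ∀ v, v ∉ insert y X → Nat.card B =
      (orbF B v).card * Nat.card (Fx G (insert z (insert y X))) := by
    intro v hv
    have h1 : Nat.card B = (orbF B v).card * Nat.card (Fx G (insert v (insert y X))) :=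
      card_eq_orbF_mul (fun g => Fx_insert_iff g)
    rw [h1, card_Fx_eq hH2 (A := insert v (insert y X)) (B := insert z (insert y X))
      (by rw [Finset.card_insert_of_notMem hv, hcY]) (by rw [Finset.card_insert_of_notMem hyY, hcY])]
  have hB2 : ∀ v, v ∉ insert y X → (orbF B v).card = (orbF B z).card := by
    intro v hv
    exact Nat.eq_of_mul_eq_mul_right (card_Fx_pos _) ((hB1 v hv).symm.trans (hB1 z hyY))
  have hBL : ∀ g ∈ B, g ∈ L ∧ g y = y := fun g hg => (Fx_insert_iff g).mp hg
  have horbX : ∀ u, u ∉ X → ∀ v ∈ orbF L u, v ∉ X := by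
    intro u hu v hv
    obtain ⟨g, hg, rfl⟩ := mem_orbF.mp hv
    exact apply_notMem hg.2 hu
  have hyOrb : y ∈ orbF L y := mem_orbF.mpr ⟨1, L.one_mem, rfl⟩
  -- S1 = orbit of y minus y
  have hd1 : (orbF B z).card ∣ ((orbF L y).erase y).card := by
    refine dvd_card_of_orbF (P := B) _ ?_ ?_
    · intro g hg x hx
      rw [Finset.mem_erase] at hx ⊢
      obtain ⟨hgL, hgy⟩ := hBL g hg
      refine ⟨?_, ?_⟩
      · intro hc
        exact hx.1 (g.injective (hc.trans hgy.symm))
      · obtain ⟨h, hh, rfl⟩ := mem_orbF.mp hx.2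
        exact mem_orbF.mpr ⟨g * h, L.mul_mem hgL hh, rfl⟩
    · intro x hx
      rw [Finset.mem_erase] at hx
      refine hB2 x ?_
      rw [Finset.mem_insert, not_or]
      exact ⟨hx.1, horbX y hy x hx.2⟩
  -- S2 = orbit of z
  have hd2 : (orbF B z).card ∣ (orbF L z).card := by
    refine dvd_card_of_orbF (P := B) _ ?_ ?_
    · intro g hg x hx
      obtain ⟨h, hh, rfl⟩ := mem_orbF.mp hx
      exact mem_orbF.mpr ⟨g * h, L.mul_mem (hBL g hg).1 hh, rfl⟩
    · intro x hx
      refine hB2 x ?_
      rw [Finset.mem_insert, not_or]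
      refine ⟨?_, horbX z hz x hx⟩
      rintro rfl
      obtain ⟨h, hh, hh'⟩ := mem_orbF.mp hx
      apply hyz
      refine mem_orbF.mpr ⟨h⁻¹, L.inv_mem hh, ?_⟩
      rw [← hh']
      simp
  rw [hL2 z hz] at hd2
  rw [Finset.card_erase_of_mem hyOrb] at hd1
  have hpos : 0 < (orbF L y).card := Finset.card_pos.mpr ⟨y, hyOrb⟩
  have hd3 : (orbF B z).card ∣ 1 := by
    have h5 := Nat.dvd_sub hd2 hd1
    have h6 : (orbF L y).card - ((orbF L y).card - 1) = 1 := by omega
    rwa [h6] at h5
  have hone : (orbF B z).card = 1 := Nat.dvd_one.mp hd3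
  -- B is trivial
  have hBtriv : B = ⊥ := by
    rw [eq_bot_iff]
    intro g hg
    rw [Subgroup.mem_bot]
    have hfix : ∀ v, g v = v := by
      intro v
      by_cases hv : v ∈ insert y X
      · exact hg.2 v hv
      · have h7 := hB2 v hv
        rw [hone] at h7
        have h8 : v ∈ orbF B v := mem_orbF.mpr ⟨1, B.one_mem, rfl⟩
        have h9 : g v ∈ orbF B v := mem_orbF.mpr ⟨g, hg, rfl⟩
        exact Finset.card_le_one.mp (le_of_eq h7) _ h9 _ h8
    exact Equiv.ext hfix
  intro A hA
  apply Fx_eq_bot_of_card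
  rw [card_Fx_eq hH1 hA hcY, ← hB, hBtriv]
  simp

/-- A criterion for `PT (t+1)` from transitivity of the pointwise stabilizers of `t`-sets. -/
theorem PT_succ_of_orbits {t : ℕ} (hPT : PT G t)
    (h : ∀ X : Finset α, X.card = t → ∀ y z, y ∉ X → z ∉ X → z ∈ orbF (Fx G X) y) :
    PT G (t + 1) := by
  classical
  intro A f hA hf
  have hne : A.Nonempty := by
    rw [← Finset.card_pos, hA]
    omega
  obtain ⟨a, ha⟩ := hne
  have hcard : (A.erase a).card = t := by
    rw [Finset.card_erase_of_mem ha, hA]
    rfl
  have hf' : Set.InjOn f (↑(A.erase a) : Set α) := fun x hx y hy hxy =>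
    hf (Finset.mem_coe.mpr (Finset.mem_of_mem_erase (Finset.mem_coe.mp hx)))
      (Finset.mem_coe.mpr (Finset.mem_of_mem_erase (Finset.mem_coe.mp hy))) hxy
  obtain ⟨g, hg, hg'⟩ := hPT (A.erase a) f hcard hf'
  have hz : g⁻¹ (f a) ∉ A.erase a := by
    intro hc
    have h1 := hg' _ hc
    have h0 : g (g⁻¹ (f a)) = f a := by simp
    rw [h0] at h1
    have h2 := hf (Finset.mem_coe.mpr ha)
      (Finset.mem_coe.mpr (Finset.mem_of_mem_erase hc)) h1
    exact (Finset.mem_erase.mp hc).1 h2.symm
  obtain ⟨h', hh', hh''⟩ := mem_orbF.mp (h _ hcard a _ (by simp) hz)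
  refine ⟨g * h', G.mul_mem hg hh'.1, fun x hx => ?_⟩
  simp only [Perm.coe_mul, Function.comp_apply]
  by_cases hxa : x = a
  · subst hxa
    rw [hh'']
    simp
  · have hx' : x ∈ A.erase a := Finset.mem_erase.mpr ⟨hxa, hx⟩
    rw [hh'.2 x hx', hg' x hx']

/-- Order of a pointwise stabilizer computed along a chain. -/
theorem card_Fx_chain {t : ℕ} (hPT : PT G t) (ht : t ≤ Fintype.card α) {s : ℕ}
    (hs : ∀ A : Finset α, A.card = t → Nat.card (Fx G A) = s) :
    ∀ d, d ≤ t → ∀ A : Finset α, A.card = t - d →
      Nat.card (Fx G A) = (Fintype.card α - (t - d)).descFactorial d * s := by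
  classical
  intro d
  induction d with
  | zero =>
    intro _ A hA
    simp only [Nat.descFactorial_zero, one_mul]
    exact hs A (by simpa using hA)
  | succ d ih =>
    intro hd A hA
    have hAlt : A.card < Fintype.card α := by omega
    obtain ⟨a, ha⟩ : ∃ a, a ∉ A := by
      by_contra hc
      push Not at hc
      have : A = Finset.univ := Finset.eq_univ_iff_forall.mpr hc
      rw [this, Finset.card_univ] at hAlt
      omega
    have hins : (insert a A).card = t - d := by
      rw [Finset.card_insert_of_notMem ha, hA]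
      omega
    have h1 := ih (by omega) (insert a A) hins
    have h2 : Nat.card (Fx G A) = (orbF (Fx G A) a).card * Nat.card (Fx G (insert a A)) :=
      card_eq_orbF_mul (fun g => Fx_insert_iff g)
    have horb : orbF (Fx G A) a = Finset.univ \ A := by
      ext v
      simp only [Finset.mem_sdiff, Finset.mem_univ, true_and]
      constructor
      · intro hv
        obtain ⟨g, hg, rfl⟩ := mem_orbF.mp hv
        exact apply_notMem hg.2 ha
      · intro hv
        have hPT' : PT G (t - d) := hPT.mono (by omega) ht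
        let f : α → α := fun x => if x = a then v else x
        have hinj : Set.InjOn f (↑(insert a A) : Set α) := by
          intro x hx y hy hxy
          simp only [Finset.coe_insert, Set.mem_insert_iff, Finset.mem_coe] at hx hy
          simp only [f] at hxy
          by_cases hxa : x = a
          · by_cases hya : y = a
            · rw [hxa, hya]
            · exfalso
              rw [if_pos hxa, if_neg hya] at hxy
              have : y ∈ A := hy.resolve_left hya
              exact hv (hxy ▸ this)
          · by_cases hya : y = a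
            · exfalso
              rw [if_neg hxa, if_pos hya] at hxy
              have : x ∈ A := hx.resolve_left hxa
              exact hv (hxy ▸ this)
            · rwa [if_neg hxa, if_neg hya] at hxy
        obtain ⟨g, hg, hg'⟩ := hPT' (insert a A) f hins hinj
        refine mem_orbF.mpr ⟨g, ⟨hg, fun x hx => ?_⟩, ?_⟩
        · rw [hg' x (Finset.mem_insert_of_mem hx)]
          have : x ≠ a := fun e => ha (e ▸ hx)
          simp [f, this]
        · rw [hg' a (Finset.mem_insert_self _ _)]
          simp [f]
    rw [h2, h1, horb, Finset.card_sdiff_of_subset (Finset.subset_univ _), Finset.card_univ, hA]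
    have h3 : Fintype.card α - (t - (d + 1)) = (Fintype.card α - (t - d)) + 1 := by omega
    rw [h3, Nat.succ_descFactorial_succ]
    ring

/-- The order of `G`. -/
theorem card_G_eq {t : ℕ} (hPT : PT G t) (ht : t ≤ Fintype.card α) {s : ℕ}
    (hs : ∀ A : Finset α, A.card = t → Nat.card (Fx G A) = s) :
    Nat.card G = (Fintype.card α).descFactorial t * s := by
  have h1 := card_Fx_chain hPT ht hs t le_rfl ∅ (by simp)
  have h2 : Fx G ∅ = G := by
    ext g
    simp [mem_Fx]
  rw [h2] at h1
  simpa using h1

open scoped Pointwise in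
/-- Order of `G` through a homogeneity. -/
theorem card_G_eq_choose {j : ℕ} (hH : HG G j) {D : Finset α} (hD : D.card = j) :
    Nat.card G = (Fintype.card α).choose j * Nat.card (MulAction.stabilizer (↥G) D) := by
  classical
  haveI : Fintype G := Fintype.ofFinite _
  have key := MulAction.card_orbit_mul_card_stabilizer_eq_card_group (↥G) D
  have h1 : Fintype.card (MulAction.orbit (↥G) D) = (Fintype.card α).choose j := by
    rw [← Nat.card_eq_fintype_card]
    have h2 : MulAction.orbit (↥G) D = ↑(Finset.powersetCard j (Finset.univ : Finset α)) := by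
      ext B
      simp only [MulAction.mem_orbit_iff, Finset.mem_coe, Finset.mem_powersetCard,
        Finset.subset_univ, true_and]
      constructor
      · rintro ⟨g, rfl⟩
        simp only [Finset.card_smul_finset, hD]
      · intro hB
        obtain ⟨g, hg, hg'⟩ := hH D B hD hB
        refine ⟨⟨g, hg⟩, ?_⟩
        rw [← hg']
        ext x
        simp [Finset.mem_smul_finset, Subgroup.smul_def]
    rw [h2]
    simp
  rw [h1] at key
  rw [Nat.card_eq_fintype_card (α := ↥G), ← key, Nat.card_eq_fintype_card]

open scoped Pointwise in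
/-- The numerical identity. -/
theorem order_identity {t : ℕ} (hPT : PT G t) (hH2 : HG G (t + 2)) (hn : t + 2 ≤ Fintype.card α)
    {s : ℕ} (hs : ∀ A : Finset α, A.card = t → Nat.card (Fx G A) = s)
    {D : Finset α} (hD : D.card = t + 2) :
    (Fintype.card α - t) * (Fintype.card α - t - 1) * Nat.card (MulAction.stabilizer (↥G) D)
      = (t + 2).factorial * s := by
  have h1 := card_G_eq hPT (by omega) hs
  have h2 := card_G_eq_choose hH2 hD
  set n := Fintype.card α
  set H := Nat.card (MulAction.stabilizer (↥G) D)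
  have h3 : n.descFactorial (t + 2) = (t + 2).factorial * n.choose (t + 2) :=
    Nat.descFactorial_eq_factorial_mul_choose n (t + 2)
  have h4 : n.descFactorial (t + 2) = (n - t - 1) * ((n - t) * n.descFactorial t) := by
    rw [Nat.descFactorial_succ, Nat.descFactorial_succ]
    have : n - (t + 1) = n - t - 1 := by omega
    rw [this]
  have hpos : 0 < n.descFactorial t := Nat.descFactorial_pos.mpr (by omega)
  have h5 : n.descFactorial t * ((n - t) * (n - t - 1) * H) =
      n.descFactorial t * ((t + 2).factorial * s) := by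
    calc n.descFactorial t * ((n - t) * (n - t - 1) * H)
        = ((n - t - 1) * ((n - t) * n.descFactorial t)) * H := by ring
      _ = n.descFactorial (t + 2) * H := by rw [h4]
      _ = (t + 2).factorial * (n.choose (t + 2) * H) := by rw [h3]; ring
      _ = (t + 2).factorial * (n.descFactorial t * s) := by rw [← h2, h1]
      _ = n.descFactorial t * ((t + 2).factorial * s) := by ring
  exact Nat.eq_of_mul_eq_mul_left hpos h5

/-- `PT` from homogeneity plus all swaps. -/
theorem PT_of_swaps {j : ℕ} (hH : HG G j)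
    (hsw : ∀ X : Finset α, X.card + 2 = j → ∀ a b, a ∉ X → b ∉ X → a ≠ b →
      ∃ g ∈ G, (∀ x ∈ X, g x = x) ∧ g a = b ∧ g b = a) : PT G j := by
  classical
  intro A f hA hf
  set B := A.image f with hB
  have hBcard : B.card = j := by rw [hB, Finset.card_image_of_injOn hf, hA]
  obtain ⟨g₀, hg₀, hg₀'⟩ := hH A B hA hBcard
  -- all permutations of B are induced
  have hall : ∀ σ : Perm ↥B, ∃ g ∈ G, ∀ b : ↥B, g (b : α) = σ b := by
    intro σ
    induction σ using Equiv.Perm.swap_induction_on with
    | one => exact ⟨1, G.one_mem, fun b => rfl⟩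
    | swap_mul σ x y hxy ih =>
      obtain ⟨g, hg, hg'⟩ := ih
      have hx : (x : α) ∈ B := x.2
      have hy : (y : α) ∈ B := y.2
      have hxy' : (x : α) ≠ y := fun e => hxy (Subtype.ext e)
      set X := (B.erase (x : α)).erase (y : α) with hX
      have hXcard : X.card + 2 = j := by
        have h1 : (y : α) ∈ B.erase (x : α) := Finset.mem_erase.mpr ⟨Ne.symm hxy', hy⟩
        rw [hX, Finset.card_erase_of_mem h1, Finset.card_erase_of_mem hx, hBcard]
        have : 2 ≤ B.card := by
          have := Finset.one_lt_card.mpr ⟨(x : α), hx, (y : α), hy, hxy'⟩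
          omega
        omega
      obtain ⟨h, hh, hh1, hh2, hh3⟩ := hsw X hXcard (x : α) (y : α)
        (by simp [hX]) (by simp [hX]) hxy'
      refine ⟨h * g, G.mul_mem hh hg, fun b => ?_⟩
      simp only [Perm.coe_mul, Function.comp_apply]
      rw [hg' b]
      by_cases h1 : σ b = x
      · rw [h1, hh2, Equiv.swap_apply_left]
      · by_cases h2 : σ b = y
        · rw [h2, hh3, Equiv.swap_apply_right]
        · rw [Equiv.swap_apply_of_ne_of_ne h1 h2]
          refine hh1 _ ?_
          rw [hX, Finset.mem_erase, Finset.mem_erase]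
          exact ⟨fun e => h2 (Subtype.ext e), fun e => h1 (Subtype.ext e), (σ b).2⟩
  -- the map on B
  have hmem : ∀ b : ↥B, g₀⁻¹ (b : α) ∈ A := by
    intro b
    have : (b : α) ∈ A.image g₀ := by
      rw [hg₀']
      exact b.2
    obtain ⟨a, ha, hab⟩ := Finset.mem_image.mp this
    rw [← hab]
    simpa using ha
  let τ : ↥B → ↥B := fun b => ⟨f (g₀⁻¹ (b : α)), Finset.mem_image_of_mem f (hmem b)⟩
  have hτinj : Function.Injective τ := by
    intro b b' hbb
    have h1 : f (g₀⁻¹ (b : α)) = f (g₀⁻¹ (b' : α)) := congrArg Subtype.val hbb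
    have h2 := hf (Finset.mem_coe.mpr (hmem b)) (Finset.mem_coe.mpr (hmem b')) h1
    exact Subtype.ext (g₀⁻¹.injective h2)
  obtain ⟨g₁, hg₁, hg₁'⟩ := hall (Equiv.ofBijective τ (Finite.injective_iff_bijective.mp hτinj))
  refine ⟨g₁ * g₀, G.mul_mem hg₁ hg₀, fun a ha => ?_⟩
  simp only [Perm.coe_mul, Function.comp_apply]
  have hga : g₀ a ∈ B := by
    rw [← hg₀']
    exact Finset.mem_image_of_mem _ ha
  have := hg₁' ⟨g₀ a, hga⟩
  simp only [Equiv.ofBijective_apply, τ] at this
  rw [this]
  simp

end Cfsg.Agent.Lib.LWCore1
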