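import Mathlib
import Cfsg.Agent.Lib.LWBasic
import Cfsg.Agent.Lib.LWCore1

/-!
Tools for the Livingstone-Wagner argument on alternating sections: 2-elements, 2-parts, parity of
fixed points, lifting involutions, and the step from transpositions to 3-cycles.
-/

set_option autoImplicit false
set_option linter.unusedSectionVars false
set_option linter.style.haveILetI false

namespace Cfsg.Agent.Lib.LWAlt1

open Equiv Cfsg.Agent.Lib.LWBasic

variable {α : Type*} [Fintype α] [DecidableEq α]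

/-- Elements of 2-power order. -/
def IsTwo {H : Type*} [Group H] (g : H) : Prop := ∃ m : ℕ, g ^ (2 ^ m) = 1

lemma isTwo_one {H : Type*} [Group H] : IsTwo (1 : H) := ⟨0, by simp⟩

lemma IsTwo.pow {H : Type*} [Group H] {g : H} (h : IsTwo g) (n : ℕ) : IsTwo (g ^ n) := by
  obtain ⟨m, hm⟩ := h
  refine ⟨m, ?_⟩
  rw [← pow_mul, mul_comm, pow_mul, hm, one_pow]

lemma IsTwo.inv {H : Type*} [Group H] {g : H} (h : IsTwo g) : IsTwo g⁻¹ := by
  obtain ⟨m, hm⟩ := h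
  exact ⟨m, by rw [inv_pow, hm, inv_one]⟩

lemma IsTwo.conj {H : Type*} [Group H] {g : H} (h : IsTwo g) (x : H) : IsTwo (x * g * x⁻¹) := by
  obtain ⟨m, hm⟩ := h
  exact ⟨m, by rw [conj_pow, hm]; group⟩

lemma isTwo_of_conj {H : Type*} [Group H] {g x : H} (h : IsTwo (x * g * x⁻¹)) : IsTwo g := by
  have := h.conj x⁻¹
  have h2 : x⁻¹ * (x * g * x⁻¹) * x⁻¹⁻¹ = g := by group
  rwa [h2] at this

/-- The fixed points. -/
def Fix (g : Perm α) : Finset α := Finset.univ.filter fun x => g x = x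

@[simp] lemma mem_Fix {g : Perm α} {x : α} : x ∈ Fix g ↔ g x = x := by simp [Fix]

lemma fix_pow {p : Perm α} {x : α} (h : p x = x) (s : ℕ) : (p ^ s) x = x := by
  induction s with
  | zero => simp
  | succ s ih => rw [pow_succ, Perm.mul_apply, h, ih]

/-- 2-part of a permutation: it is a power, is a 2-element and agrees with `g` at all points of
2-power period. -/
lemma exists_twoPart (g : Perm α) :
    ∃ N : ℕ, IsTwo (g ^ N) ∧ ∀ (b : ℕ) (x : α), (g ^ (2 ^ b)) x = x → (g ^ N) x = g x := by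
  have ho : orderOf g ≠ 0 := (orderOf_pos g).ne'
  obtain ⟨e, d, hd, hod⟩ := Nat.exists_eq_two_pow_mul_odd ho
  have hcop : Nat.Coprime (2 ^ e) d := (Nat.coprime_two_left.mpr hd).pow_left e
  obtain ⟨N₀, hN₁, hN₂⟩ := Nat.chineseRemainder hcop 1 0
  let N := N₀ + orderOf g
  have hNpos : 1 ≤ N := by have := orderOf_pos g; omega
  have hN1 : N ≡ 1 [MOD 2 ^ e] := by
    refine (Nat.ModEq.add_right (orderOf g) hN₁).trans ?_
    have : 1 + orderOf g = 1 + (2 ^ e * d) := by rw [hod]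
    rw [this]
    simp [Nat.ModEq]
  have hN0 : d ∣ N := by
    have h1 : d ∣ N₀ := (Nat.modEq_zero_iff_dvd).mp hN₂
    have h2 : d ∣ orderOf g := ⟨2 ^ e, by rw [hod]; ring⟩
    exact dvd_add h1 h2
  obtain ⟨s, hs⟩ : 2 ^ e ∣ N - 1 := (Nat.modEq_iff_dvd' hNpos).mp hN1.symm
  have hN : N = 1 + 2 ^ e * s := by omega
  refine ⟨N, ⟨e, ?_⟩, ?_⟩
  · rw [← pow_mul]
    apply orderOf_dvd_iff_pow_eq_one.mp
    rw [hod, mul_comm (2 ^ e) d]
    exact mul_dvd_mul hN0 dvd_rfl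
  · intro b x hx
    have hper1 : Function.IsPeriodicPt g (2 ^ b) x := by
      unfold Function.IsPeriodicPt Function.IsFixedPt
      rw [Equiv.Perm.iterate_eq_pow]
      exact hx
    have hper2 : Function.IsPeriodicPt g (orderOf g) x := by
      unfold Function.IsPeriodicPt Function.IsFixedPt
      rw [Equiv.Perm.iterate_eq_pow, pow_orderOf_eq_one]
      rfl
    have h1 := hper1.minimalPeriod_dvd
    have h2 := hper2.minimalPeriod_dvd
    have hc : Nat.Coprime (Function.minimalPeriod g x) d :=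
      Nat.Coprime.coprime_dvd_left h1 ((Nat.coprime_two_left.mpr hd).pow_left b)
    rw [hod] at h2
    have h3 : Function.minimalPeriod g x ∣ 2 ^ e := hc.dvd_of_dvd_mul_right h2
    have h4 : Function.IsPeriodicPt g (2 ^ e) x :=
      (Function.isPeriodicPt_minimalPeriod g x).trans_dvd h3
    have h5 : (g ^ (2 ^ e)) x = x := by
      unfold Function.IsPeriodicPt Function.IsFixedPt at h4
      rw [Equiv.Perm.iterate_eq_pow] at h4
      exact h4
    have h6 : ((g ^ (2 ^ e)) ^ s) x = x := fix_pow h5 s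
    rw [hN, pow_add, pow_one, pow_mul, Perm.mul_apply, h6]


/-- 2-part within a subgroup, in the form most often used. -/
lemma twoPart_mem {G : Subgroup (Perm α)} {g : Perm α} (hg : g ∈ G) :
    ∃ g' ∈ G, IsTwo g' ∧ (∀ x, g x = x → g' x = x) ∧ (∀ x, g (g x) = x → g' x = g x) := by
  obtain ⟨N, h1, h2⟩ := exists_twoPart g
  refine ⟨g ^ N, G.pow_mem hg N, h1, fun x hx => ?_, fun x hx => ?_⟩
  · rw [h2 0 x (by simpa using hx), hx]
  · exact h2 1 x (by simpa [pow_two] using hx)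

/-- Involution parity on a stable set (only need involutive on the set). -/
lemma parity_invol {g : Perm α} (S : Finset α) (hS : ∀ x ∈ S, g x ∈ S)
    (hgg : ∀ x ∈ S, g (g x) = x) :
    (S.filter fun x => g x = x).card % 2 = S.card % 2 := by
  classical
  have h1 : (S.filter fun x => g x = x).card + (S.filter fun x => ¬ g x = x).card = S.card :=
    Finset.card_filter_add_card_filter_not _
  have h2 : Even (S.filter fun x => ¬ g x = x).card := by
    have h3 : ((S.filter fun x => ¬ g x = x).card : ZMod 2) = 0 := by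
      have : ∑ _x ∈ S.filter (fun x => ¬ g x = x), (1 : ZMod 2) = 0 := by
        refine Finset.sum_involution (fun x _ => g x) ?_ ?_ ?_ ?_
        · intro a _
          have : (2 : ZMod 2) = 0 := by decide
          calc (1 : ZMod 2) + 1 = 2 := by norm_num
            _ = 0 := this
        · intro a ha _ hc
          exact (Finset.mem_filter.mp ha).2 hc
        · intro a ha
          rw [Finset.mem_filter] at ha ⊢
          refine ⟨hS a ha.1, fun hc => ha.2 ?_⟩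
          rw [hgg a ha.1] at hc
          exact hc.symm
        · intro a ha
          exact hgg a (Finset.mem_filter.mp ha).1
      simpa using this
    exact (ZMod.natCast_eq_zero_iff_even).mp h3
  obtain ⟨r, hr⟩ := h2
  omega

/-- Fixed points of a 2-element on a stable set have the parity of the set. -/
lemma parity {g : Perm α} (hg : IsTwo g) (S : Finset α) (hS : ∀ x ∈ S, g x ∈ S) :
    (S.filter fun x => g x = x).card % 2 = S.card % 2 := by
  obtain ⟨m, hm⟩ := hg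
  induction m generalizing g with
  | zero =>
    have : g = 1 := by simpa using hm
    subst this
    simp
  | succ m ih =>
    have h1 : (g * g) ^ (2 ^ m) = 1 := by
      rw [← pow_two, ← pow_mul, ← pow_succ']
      exact hm
    have hS2 : ∀ x ∈ S, (g * g) x ∈ S := fun x hx => hS _ (hS x hx)
    have h2 := ih hS2 h1
    have h3 := parity_invol (g := g) (S.filter fun x => (g * g) x = x) (by
      intro x hx
      rw [Finset.mem_filter] at hx ⊢
      refine ⟨hS x hx.1, ?_⟩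
      have := hx.2
      simp only [Perm.mul_apply] at this ⊢
      rw [this]) (by
      intro x hx
      exact (Finset.mem_filter.mp hx).2)
    rw [← h2, ← h3, Finset.filter_filter]
    have h4 : (S.filter fun x => g x = x) = (S.filter fun x => (g * g) x = x ∧ g x = x) := by
      apply Finset.filter_congr
      intro x _
      simp only [Perm.mul_apply]
      constructor
      · intro h'
        exact ⟨by rw [h', h'], h'⟩
      · rintro ⟨_, h'⟩
        exact h'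
    rw [h4]

lemma parity_Fix {g : Perm α} (hg : IsTwo g) : (Fix g).card % 2 = Fintype.card α % 2 := by
  have := parity hg Finset.univ (fun x _ => Finset.mem_univ _)
  simpa [Fix] using this

/-- An involution among the 2-powers of a nontrivial 2-element. -/
lemma exists_invol {g : Perm α} (hg : IsTwo g) (h1 : g ≠ 1) :
    ∃ s : ℕ, g ^ (2 ^ s) ≠ 1 ∧ g ^ (2 ^ s) * g ^ (2 ^ s) = 1 := by
  classical
  have hex : ∃ m, g ^ (2 ^ m) = 1 := hg
  have hm := Nat.find_spec hex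
  have hm0 : Nat.find hex ≠ 0 := by
    intro h0
    rw [h0] at hm
    exact h1 (by simpa using hm)
  obtain ⟨s, hs⟩ : ∃ s, Nat.find hex = s + 1 := ⟨Nat.find hex - 1, by omega⟩
  refine ⟨s, Nat.find_min hex (by omega), ?_⟩
  rw [hs] at hm
  rw [← pow_add, ← two_mul, ← pow_succ']
  exact hm

/-! ### Stability of a finset -/

/-- `g` maps `Γ` into `Γ`. -/
def Stb (g : Perm α) (Γ : Finset α) : Prop := ∀ x ∈ Γ, g x ∈ Γ

lemma Stb.mul {g h : Perm α} {Γ : Finset α} (hg : Stb g Γ) (hh : Stb h Γ) : Stb (g * h) Γ :=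
  fun x hx => hg _ (hh x hx)

lemma Stb.inv {g : Perm α} {Γ : Finset α} (hg : Stb g Γ) : Stb g⁻¹ Γ := by
  have h1 : Γ.image g ⊆ Γ := by
    intro y hy
    obtain ⟨x, hx, rfl⟩ := Finset.mem_image.mp hy
    exact hg x hx
  have h2 : Γ.image g = Γ :=
    Finset.eq_of_subset_of_card_le h1 (by rw [Finset.card_image_of_injective _ g.injective])
  intro x hx
  rw [← h2] at hx
  obtain ⟨y, hy, rfl⟩ := Finset.mem_image.mp hx
  simpa using hy

lemma Stb.mem_iff {g : Perm α} {Γ : Finset α} (hg : Stb g Γ) (x : α) : g x ∈ Γ ↔ x ∈ Γ := by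
  constructor
  · intro h
    have := hg.inv _ h
    simpa using this
  · exact hg x

lemma Stb_of_on {g σ : Perm α} {Γ : Finset α} (hσ : Stb σ Γ) (h : ∀ x ∈ Γ, g x = σ x) :
    Stb g Γ := fun x hx => by rw [h x hx]; exact hσ x hx

/-- `g` has the same action as `σ` on `Γ`; then so does the inverse. -/
lemma on_inv {g σ : Perm α} {Γ : Finset α} (hσ : Stb σ Γ) (h : ∀ x ∈ Γ, g x = σ x) :
    ∀ x ∈ Γ, g⁻¹ x = σ⁻¹ x := by
  intro x hx
  have h1 := h (σ⁻¹ x) (hσ.inv x hx)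
  have h2 : σ (σ⁻¹ x) = x := by simp
  rw [h2] at h1
  rw [Perm.inv_eq_iff_eq, h1]

lemma on_mul {g h σ τ : Perm α} {Γ : Finset α} (hg : ∀ x ∈ Γ, g x = σ x) (hh : ∀ x ∈ Γ, h x = τ x)
    (hτ : Stb τ Γ) : ∀ x ∈ Γ, (g * h) x = (σ * τ) x := by
  intro x hx
  simp only [Perm.mul_apply]
  rw [hh x hx, hg _ (hτ x hx)]

lemma mem_Fx_of_same {G : Subgroup (Perm α)} {Γ : Finset α} {g h σ : Perm α}
    (hg : g ∈ G) (hh : h ∈ G) (h1 : ∀ x ∈ Γ, g x = σ x) (h2 : ∀ x ∈ Γ, h x = σ x) :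
    g⁻¹ * h ∈ Fx G Γ := by
  refine ⟨G.mul_mem (G.inv_mem hg) hh, fun x hx => ?_⟩
  simp only [Perm.mul_apply]
  rw [h2 x hx, Perm.inv_eq_iff_eq, h1 x hx]

lemma mem_Fx_of_same' {G : Subgroup (Perm α)} {Γ : Finset α} {g h σ : Perm α}
    (hg : g ∈ G) (hh : h ∈ G) (hσ : Stb σ Γ) (h1 : ∀ x ∈ Γ, g x = σ x) (h2 : ∀ x ∈ Γ, h x = σ x) :
    g * h⁻¹ ∈ Fx G Γ := by
  refine ⟨G.mul_mem hg (G.inv_mem hh), fun x hx => ?_⟩
  simp only [Perm.mul_apply]
  rw [on_inv hσ h2 x hx, h1 _ (hσ.inv x hx)]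
  simp

lemma conj_mem_Fx {G : Subgroup (Perm α)} {Γ : Finset α} {g u : Perm α} (hg : g ∈ G)
    (hs : Stb g Γ) (hu : u ∈ Fx G Γ) : g * u * g⁻¹ ∈ Fx G Γ := by
  refine ⟨G.mul_mem (G.mul_mem hg hu.1) (G.inv_mem hg), fun x hx => ?_⟩
  simp only [Perm.mul_apply]
  rw [hu.2 _ (hs.inv x hx)]
  simp

/-! ### Orbits of a subgroup -/

lemma self_mem_orbF (P : Subgroup (Perm α)) (u : α) : u ∈ orbF P u :=
  mem_orbF.mpr ⟨1, P.one_mem, rfl⟩

lemma orbF_eq_of_mem {P : Subgroup (Perm α)} {u v : α} (h : v ∈ orbF P u) : orbF P v = orbF P u := by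
  obtain ⟨g, hg, rfl⟩ := mem_orbF.mp h
  ext z
  simp only [mem_orbF]
  constructor
  · rintro ⟨x, hx, rfl⟩
    exact ⟨x * g, P.mul_mem hx hg, rfl⟩
  · rintro ⟨x, hx, rfl⟩
    exact ⟨x * g⁻¹, P.mul_mem hx (P.inv_mem hg), by simp⟩

lemma mem_orbF_symm {P : Subgroup (Perm α)} {u v : α} (h : v ∈ orbF P u) : u ∈ orbF P v := by
  rw [orbF_eq_of_mem h]
  exact self_mem_orbF P u

lemma apply_mem_orbF {P : Subgroup (Perm α)} {g : Perm α} (hg : g ∈ P) (u : α) : g u ∈ orbF P u :=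
  mem_orbF.mpr ⟨g, hg, rfl⟩

lemma apply_mem_orbF' {P : Subgroup (Perm α)} {g : Perm α} (hg : g ∈ P) {u v : α}
    (h : v ∈ orbF P u) : g v ∈ orbF P u := by
  rw [← orbF_eq_of_mem h]
  exact apply_mem_orbF hg v

lemma orb_image {G : Subgroup (Perm α)} {Γ : Finset α} {g : Perm α} (hg : g ∈ G) (hs : Stb g Γ)
    {w z : α} (hz : z ∈ orbF (Fx G Γ) w) : g z ∈ orbF (Fx G Γ) (g w) := by
  obtain ⟨u, hu, rfl⟩ := mem_orbF.mp hz
  refine mem_orbF.mpr ⟨g * u * g⁻¹, conj_mem_Fx hg hs hu, by simp⟩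

lemma orb_notMem {G : Subgroup (Perm α)} {Γ : Finset α} {w z : α} (hw : w ∉ Γ)
    (hz : z ∈ orbF (Fx G Γ) w) : z ∉ Γ := by
  obtain ⟨u, hu, rfl⟩ := mem_orbF.mp hz
  intro hc
  apply hw
  have h1 := hu.2 _ hc
  have := u.injective h1
  rwa [this] at hc

lemma orb_disjoint {P : Subgroup (Perm α)} {u v : α} (h : v ∉ orbF P u) :
    Disjoint (orbF P u) (orbF P v) := by
  rw [Finset.disjoint_left]
  intro z hz hz'
  apply h
  have h1 := orbF_eq_of_mem hz
  have h2 := orbF_eq_of_mem hz'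
  rw [← h1, h2]
  exact self_mem_orbF P v

/-- Stability of orbits. -/
lemma orb_stb_of_mem {G : Subgroup (Perm α)} {Γ : Finset α} {g : Perm α} (hg : g ∈ G)
    (hs : Stb g Γ) {w : α} (hw : g w ∈ orbF (Fx G Γ) w) :
    Stb g (orbF (Fx G Γ) w) := by
  intro z hz
  have := orb_image hg hs hz
  rw [orbF_eq_of_mem hw] at this
  exact this

/-! ### Lifts -/

lemma lift_two {G : Subgroup (Perm α)} {k : ℕ} (hPT : PT G k) {Γ : Finset α} (hΓ : Γ.card = k)
    {σ : Perm α} (hs : Stb σ Γ) (hσ : ∀ a, σ (σ a) = a) :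
    ∃ g ∈ G, IsTwo g ∧ ∀ a ∈ Γ, g a = σ a := by
  obtain ⟨g, hg, hg'⟩ := hPT Γ σ hΓ σ.injective.injOn
  obtain ⟨g', h1, h2, _, h4⟩ := twoPart_mem hg
  refine ⟨g', h1, h2, fun a ha => ?_⟩
  rw [h4 a, hg' a ha]
  rw [hg' a ha, hg' _ (hs a ha), hσ]

/-- The order is odd if no involutions. -/
lemma odd_card_of_no_invol {U : Subgroup (Perm α)} (h : ∀ g ∈ U, g * g = 1 → g = 1) :
    Odd (Nat.card U) := by
  by_contra hc
  rw [Nat.not_odd_iff_even, even_iff_two_dvd] at hc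
  haveI : Fact (Nat.Prime 2) := ⟨Nat.prime_two⟩
  obtain ⟨x, hx⟩ := exists_prime_orderOf_dvd_card' (G := U) 2 hc
  have h1 : (x : Perm α) * x = 1 := by
    have := pow_orderOf_eq_one x
    rw [hx, pow_two] at this
    exact_mod_cast congrArg Subtype.val this
  have h2 := h x x.2 h1
  have : x = 1 := Subtype.ext h2
  rw [this, orderOf_one] at hx
  omega

/-- Orbit length in an odd group is odd. -/
lemma odd_orbF {U : Subgroup (Perm α)} (h : Odd (Nat.card U)) (u : α) : Odd (orbF U u).card := by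
  have h1 := card_eq_orbF_mul (P := U) (Q := Fx U {u}) (u := u) (fun g => by
    simp [mem_Fx])
  rw [h1] at h
  exact (Nat.odd_mul.mp h).1

/-- 2-elements normalising `R`: the join is a `2`-group; a form of the Sylow argument for a
subgroup of index two, escaping from `B`. -/
lemma sylow_escape {A B : Subgroup (Perm α)} (hBA : B ≤ A) {a : Perm α} (haA : a ∈ A) (haB : a ∉ B)
    (hidx : ∀ b ∈ A, b ∉ B → b * a ∈ B) {j : Perm α} (hjB : j ∈ B) (hj : IsTwo j) :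
    ∃ t ∈ A, t ∉ B ∧ IsTwo t ∧ IsTwo (t * j) ∧ IsTwo (t * j * j) := by
  haveI : Fact (Nat.Prime 2) := ⟨Nat.prime_two⟩
  let B' : Subgroup A := B.subgroupOf A
  let j' : A := ⟨j, hBA hjB⟩
  have hpg : IsPGroup 2 (Subgroup.zpowers j') := by
    have : IsPGroup 2 (Subgroup.zpowers j') := by
      obtain ⟨m, hm⟩ := hj
      rw [IsPGroup.iff_card]
      have hod : orderOf j' ∣ 2 ^ m := by
        apply orderOf_dvd_of_pow_eq_one
        exact Subtype.ext hm
      obtain ⟨r, _, hr⟩ := (Nat.dvd_prime_pow Nat.prime_two).mp hod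
      exact ⟨r, by rw [Nat.card_zpowers, hr]⟩
    exact this
  obtain ⟨P, hP⟩ := hpg.exists_le_sylow
  have hidx2 : B'.index = 2 := by
    rw [Subgroup.index_eq_two_iff]
    refine ⟨⟨a, haA⟩, fun b => ?_⟩
    by_cases hb : (b : Perm α) ∈ B
    · refine Or.inr ⟨hb, ?_⟩
      intro hc
      apply haB
      have h1 : (b : Perm α) * a ∈ B := hc
      have h2 : (b : Perm α)⁻¹ * (b * a) ∈ B := B.mul_mem (B.inv_mem hb) h1
      simpa using h2
    · refine Or.inl ⟨?_, hb⟩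
      exact hidx b b.2 hb
  have hnot : ¬ P.1 ≤ B' := by
    intro hle
    have h1 : B'.index ∣ P.1.index := Subgroup.index_dvd_of_le hle
    rw [hidx2] at h1
    exact P.not_dvd_index h1
  obtain ⟨t, ht, htB⟩ := SetLike.not_le_iff_exists.mp hnot
  have hjP : j' ∈ P.1 := hP (Subgroup.mem_zpowers j')
  have two_of : ∀ x ∈ P.1, IsTwo (x : Perm α) := by
    intro x hx
    obtain ⟨m, hm⟩ := P.isPGroup' ⟨x, hx⟩
    refine ⟨m, ?_⟩
    have := congrArg (fun y : P.1 => ((y : A) : Perm α)) hm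
    simpa using this
  refine ⟨t, t.2, htB, two_of t ht, ?_, ?_⟩
  · exact two_of (t * j') (P.1.mul_mem ht hjP)
  · exact two_of (t * j' * j') (P.1.mul_mem (P.1.mul_mem ht hjP) hjP)

/-- Lift of a group of permutations stabilising `Γ`. -/
def liftSub (H : Subgroup (Perm α)) (Γ : Finset α) (W : Subgroup (Perm α)) (hW : ∀ τ ∈ W, Stb τ Γ) :
    Subgroup (Perm α) where
  carrier := {g | g ∈ H ∧ ∃ τ ∈ W, ∀ x ∈ Γ, g x = τ x}
  mul_mem' := by
    rintro g h ⟨hg, τ, hτ, hg'⟩ ⟨hh, τ', hτ', hh'⟩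
    exact ⟨H.mul_mem hg hh, τ * τ', W.mul_mem hτ hτ', on_mul hg' hh' (hW _ hτ')⟩
  one_mem' := ⟨H.one_mem, 1, W.one_mem, fun _ _ => rfl⟩
  inv_mem' := by
    rintro g ⟨hg, τ, hτ, hg'⟩
    exact ⟨H.inv_mem hg, τ⁻¹, W.inv_mem hτ, on_inv (hW _ hτ) hg'⟩

lemma mem_liftSub {H : Subgroup (Perm α)} {Γ : Finset α} {W : Subgroup (Perm α)}
    {hW : ∀ τ ∈ W, Stb τ Γ} {g : Perm α} :
    g ∈ liftSub H Γ W hW ↔ g ∈ H ∧ ∃ τ ∈ W, ∀ x ∈ Γ, g x = τ x := Iff.rfl

/-- The group `{1, σ₁}` for an involution `σ₁`. -/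
def pairSub (σ₁ : Perm α) (h11 : σ₁ * σ₁ = 1) : Subgroup (Perm α) where
  carrier := {τ | τ = 1 ∨ τ = σ₁}
  mul_mem' := by
    rintro a b (rfl | rfl) (rfl | rfl) <;> simp [h11]
  one_mem' := Or.inl rfl
  inv_mem' := by
    rintro a (rfl | rfl)
    · simp
    · right
      exact inv_eq_of_mul_eq_one_left h11

/-- The Klein group of two commuting involutions. -/
def kleinSub (σ₁ σ₂ : Perm α) (h11 : σ₁ * σ₁ = 1) (h22 : σ₂ * σ₂ = 1) (hc : σ₁ * σ₂ = σ₂ * σ₁) :
    Subgroup (Perm α) where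
  carrier := {τ | τ = 1 ∨ τ = σ₁ ∨ τ = σ₂ ∨ τ = σ₁ * σ₂}
  mul_mem' := by
    have h1 : ∀ y, σ₁ * (σ₁ * y) = y := fun y => by rw [← mul_assoc, h11, one_mul]
    have h2 : ∀ y, σ₂ * (σ₂ * y) = y := fun y => by rw [← mul_assoc, h22, one_mul]
    have h3 : σ₁ * σ₂ * σ₁ = σ₂ := by rw [hc, mul_assoc, h11, mul_one]
    have h4 : σ₁ * σ₂ * (σ₁ * σ₂) = 1 := by rw [← mul_assoc, h3, h22]
    have h5 : σ₂ * (σ₁ * σ₂) = σ₁ := by rw [← mul_assoc, ← hc, mul_assoc, h22, mul_one]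
    have h6 : σ₁ * σ₂ * σ₂ = σ₁ := by rw [mul_assoc, h22, mul_one]
    have hc' := hc.symm
    rintro a b (rfl | rfl | rfl | rfl) (rfl | rfl | rfl | rfl) <;>
      simp only [one_mul, mul_one, h11, h22, h1, h3, h4, h5, h6, true_or, or_true, hc',
        Set.mem_ofPred_eq]
  one_mem' := Or.inl rfl
  inv_mem' := by
    have h3 : σ₁ * σ₂ * (σ₁ * σ₂) = 1 := by
      rw [mul_assoc, ← mul_assoc σ₂, ← hc, mul_assoc, h22, mul_one, h11]
    rintro a (rfl | rfl | rfl | rfl)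
    · simp
    · right; left; exact inv_eq_of_mul_eq_one_left h11
    · right; right; left; exact inv_eq_of_mul_eq_one_left h22
    · right; right; right; exact inv_eq_of_mul_eq_one_left h3

/-- The two-lift group lemma: a 2-element lifting `σ₁` can be complemented by a 2-element `t` lifting
`σ₂` such that `t * j` is a 2-element as well. -/
theorem two_lift {H : Subgroup (Perm α)} {Γ : Finset α} {σ₁ σ₂ : Perm α}
    (h1 : Stb σ₁ Γ) (h2 : Stb σ₂ Γ) (h11 : σ₁ * σ₁ = 1) (h22 : σ₂ * σ₂ = 1)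
    (hc : σ₁ * σ₂ = σ₂ * σ₁) (hne1 : ∃ x ∈ Γ, σ₂ x ≠ x) (hne2 : ∃ x ∈ Γ, σ₂ x ≠ σ₁ x)
    {j g₀ : Perm α} (hj : j ∈ H) (hg₀ : g₀ ∈ H) (hjΓ : ∀ x ∈ Γ, j x = σ₁ x)
    (hg₀Γ : ∀ x ∈ Γ, g₀ x = σ₂ x) (hjt : IsTwo j) :
    ∃ t ∈ H, (∀ x ∈ Γ, t x = σ₂ x) ∧ IsTwo t ∧ IsTwo (t * j) := by
  have hW2 : ∀ τ ∈ kleinSub σ₁ σ₂ h11 h22 hc, Stb τ Γ := by
    rintro τ (rfl | rfl | rfl | rfl)
    · exact fun x hx => hx
    · exact h1
    · exact h2
    · exact h1.mul h2
  have hW1 : ∀ τ ∈ pairSub σ₁ h11, Stb τ Γ := by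
    rintro τ (rfl | rfl)
    · exact fun x hx => hx
    · exact h1
  have h12inv : ∀ x, σ₁ (σ₁ x) = x := fun x => by
    have := congrArg (fun p : Perm α => p x) h11
    simpa using this
  have h22inv : ∀ x, σ₂ (σ₂ x) = x := fun x => by
    have := congrArg (fun p : Perm α => p x) h22
    simpa using this
  have hcx : ∀ x, σ₁ (σ₂ x) = σ₂ (σ₁ x) := fun x => by
    have := congrArg (fun p : Perm α => p x) hc
    simpa using this
  obtain ⟨x₁, hx₁, hx₁'⟩ := hne1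
  obtain ⟨x₂, hx₂, hx₂'⟩ := hne2
  let A := liftSub H Γ _ hW2
  let B := liftSub H Γ _ hW1
  have hBA : B ≤ A := by
    rintro g ⟨hg, τ, hτ1, hτ⟩
    rcases hτ1 with h | h <;> rw [h] at hτ
    · exact ⟨hg, 1, Or.inl rfl, hτ⟩
    · exact ⟨hg, σ₁, Or.inr (Or.inl rfl), hτ⟩
  have hnot1 : ∀ g : Perm α, (∀ x ∈ Γ, g x = σ₂ x) → g ∉ B := by
    rintro g hg ⟨_, τ, hτ1, hτ⟩
    rcases hτ1 with h | h <;> rw [h] at hτ
    · apply hx₁'
      rw [← hg x₁ hx₁, hτ x₁ hx₁]; rfl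
    · apply hx₂'
      rw [← hg x₂ hx₂, hτ x₂ hx₂]
  have hnot2 : ∀ g : Perm α, (∀ x ∈ Γ, g x = (σ₁ * σ₂) x) → g ∉ B := by
    rintro g hg ⟨_, τ, hτ1, hτ⟩
    rcases hτ1 with h | h <;> rw [h] at hτ
    · apply hx₂'
      have h3 := hg x₂ hx₂
      rw [hτ x₂ hx₂] at h3
      simp only [Perm.mul_apply, Perm.one_apply] at h3
      have := congrArg σ₁ h3
      rw [h12inv] at this
      exact this.symm
    · apply hx₁'
      have h3 := hg x₁ hx₁
      rw [hτ x₁ hx₁] at h3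
      simp only [Perm.mul_apply] at h3
      exact (σ₁.injective h3).symm
  have hjB : j ∈ B := ⟨hj, σ₁, Or.inr rfl, hjΓ⟩
  have hg₀A : g₀ ∈ A := ⟨hg₀, σ₂, Or.inr (Or.inr (Or.inl rfl)), hg₀Γ⟩
  obtain ⟨t, htA, htB, htt, htj, htjj⟩ := sylow_escape hBA hg₀A (hnot1 _ hg₀Γ) (by
    rintro b ⟨hb, τ, hτ1, hτ⟩ hbB
    rcases hτ1 with h | h | h | h <;> rw [h] at hτ
    · exact absurd ⟨hb, 1, Or.inl rfl, hτ⟩ hbB
    · exact absurd ⟨hb, σ₁, Or.inr rfl, hτ⟩ hbB
    · refine ⟨H.mul_mem hb hg₀, 1, Or.inl rfl, fun x hx => ?_⟩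
      simp only [Perm.mul_apply, Perm.one_apply]
      rw [hg₀Γ x hx, hτ _ (h2 x hx), h22inv]
    · refine ⟨H.mul_mem hb hg₀, σ₁, Or.inr rfl, fun x hx => ?_⟩
      simp only [Perm.mul_apply]
      rw [hg₀Γ x hx, hτ _ (h2 x hx)]
      simp only [Perm.mul_apply]
      rw [h22inv]) hjB hjt
  obtain ⟨htH, τ, hτ1, htτ⟩ := htA
  rcases hτ1 with h | h | h | h <;> rw [h] at htτ
  · exact absurd ⟨htH, 1, Or.inl rfl, htτ⟩ htB
  · exact absurd ⟨htH, σ₁, Or.inr rfl, htτ⟩ htB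
  · exact ⟨t, htH, htτ, htt, htj⟩
  · refine ⟨t * j, H.mul_mem htH hj, fun x hx => ?_, htj, htjj⟩
    simp only [Perm.mul_apply]
    rw [hjΓ x hx, htτ _ (h1 x hx)]
    simp only [Perm.mul_apply]
    rw [hcx, h12inv]

end Cfsg.Agent.Lib.LWAlt1
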