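import Mathlib
import Cfsg.Agent.Lib.LWAlt1

/-!
Transposition data and their passage to 3-cycles (Kneser type argument), and the cases with all
non-trivial 2-elements having fewer than `k` fixed points.
-/

set_option autoImplicit false
set_option linter.unusedSectionVars false
set_option linter.style.haveILetI false

namespace Cfsg.Agent.Lib.LWAlt2

open Equiv Cfsg.Agent.Lib.LWBasic Cfsg.Agent.Lib.LWAlt1

variable {α : Type*} [Fintype α] [DecidableEq α]

/-- A 2-element of `G` inducing the transposition `(u v)` on `Δ`. -/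
def TR (G : Subgroup (Perm α)) (Δ : Finset α) (u v : α) : Prop :=
  ∃ g ∈ G, IsTwo g ∧ g u = v ∧ g v = u ∧ ∀ x ∈ Δ, x ≠ u → x ≠ v → g x = x

/-- Every 3-cycle on `Δ` is induced. -/
def A3 (G : Subgroup (Perm α)) (Δ : Finset α) : Prop :=
  ∀ a b c, a ∈ Δ → b ∈ Δ → c ∈ Δ → a ≠ b → b ≠ c → a ≠ c →
    ∃ g ∈ G, g a = b ∧ g b = c ∧ g c = a ∧ ∀ x ∈ Δ, x ≠ a → x ≠ b → x ≠ c → g x = x

lemma TR.symm {G : Subgroup (Perm α)} {Δ : Finset α} {u v : α} (h : TR G Δ u v) : TR G Δ v u := by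
  obtain ⟨g, hg, h1, h2, h3, h4⟩ := h
  exact ⟨g, hg, h1, h3, h2, fun x hx h5 h6 => h4 x hx h6 h5⟩

/-- Any element acting as a transposition gives `TR` using its 2-part. -/
lemma TR_of_act {G : Subgroup (Perm α)} {Δ : Finset α} {u v : α} {g : Perm α} (hg : g ∈ G)
    (h1 : g u = v) (h2 : g v = u) (h3 : ∀ x ∈ Δ, x ≠ u → x ≠ v → g x = x) : TR G Δ u v := by
  obtain ⟨g', hg', ht, hfix, hinv⟩ := twoPart_mem hg
  refine ⟨g', hg', ht, ?_, ?_, fun x hx h5 h6 => hfix x (h3 x hx h5 h6)⟩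
  · rw [hinv u (by rw [h1, h2]), h1]
  · rw [hinv v (by rw [h2, h1]), h2]

lemma exists_two_avoid {T Δ : Finset α} (h : T.card + 2 ≤ Δ.card) :
    ∃ s t, s ∈ Δ ∧ t ∈ Δ ∧ s ≠ t ∧ s ∉ T ∧ t ∉ T := by
  have h1 : 1 < (Δ \ T).card := by
    have := Finset.le_card_sdiff T Δ
    omega
  obtain ⟨s, hs, t, ht, hst⟩ := Finset.one_lt_card.mp h1
  rw [Finset.mem_sdiff] at hs ht
  exact ⟨s, t, hs.1, ht.1, hst, hs.2, ht.2⟩

lemma exists_avoid {T Δ : Finset α} (h : T.card + 1 ≤ Δ.card) :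
    ∃ s, s ∈ Δ ∧ s ∉ T := by
  have h1 : 0 < (Δ \ T).card := by
    have := Finset.le_card_sdiff T Δ
    omega
  obtain ⟨s, hs⟩ := Finset.card_pos.mp h1
  rw [Finset.mem_sdiff] at hs
  exact ⟨s, hs.1, hs.2⟩

/-- From a rule to all 3-cycles. -/
theorem A3_of_rule {G : Subgroup (Perm α)} {Δ : Finset α} (hΔ : 5 ≤ Δ.card)
    (hRule : ∀ u v x y, u ∈ Δ → v ∈ Δ → x ∈ Δ → y ∈ Δ → u ≠ v → x ≠ y → x ≠ u → x ≠ v → y ≠ u →
      y ≠ v → TR G Δ u v → TR G Δ x y)
    {u v : α} (hu : u ∈ Δ) (hv : v ∈ Δ) (huv : u ≠ v) (h0 : TR G Δ u v) : A3 G Δ := by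
  have hall : ∀ a b, a ∈ Δ → b ∈ Δ → a ≠ b → TR G Δ a b := by
    intro a b ha hb hab
    by_cases hd : a ≠ u ∧ a ≠ v ∧ b ≠ u ∧ b ≠ v
    · exact hRule u v a b hu hv ha hb huv hab hd.1 hd.2.1 hd.2.2.1 hd.2.2.2 h0
    · -- choose two further points
      have hT : ({u, v, a, b} : Finset α).card ≤ 3 := by
        have hd' : a = u ∨ a = v ∨ b = u ∨ b = v := by
          by_contra hc
          push Not at hc
          exact hd hc
        rcases hd' with h | h | h | h
        · have : ({u, v, a, b} : Finset α) = {u, v, b} := by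
            ext z; simp only [Finset.mem_insert, Finset.mem_singleton]; subst h; tauto
          rw [this]; exact Finset.card_le_three
        · have : ({u, v, a, b} : Finset α) = {u, v, b} := by
            ext z; simp only [Finset.mem_insert, Finset.mem_singleton]; subst h; tauto
          rw [this]; exact Finset.card_le_three
        · have : ({u, v, a, b} : Finset α) = {u, v, a} := by
            ext z; simp only [Finset.mem_insert, Finset.mem_singleton]; subst h; tauto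
          rw [this]; exact Finset.card_le_three
        · have : ({u, v, a, b} : Finset α) = {u, v, a} := by
            ext z; simp only [Finset.mem_insert, Finset.mem_singleton]; subst h; tauto
          rw [this]; exact Finset.card_le_three
      obtain ⟨s, t, hs, ht, hst, hsT, htT⟩ := exists_two_avoid (T := {u, v, a, b}) (Δ := Δ)
        (by omega)
      simp only [Finset.mem_insert, Finset.mem_singleton, not_or] at hsT htT
      have h1 := hRule u v s t hu hv hs ht huv hst hsT.1 hsT.2.1 htT.1 htT.2.1 h0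
      exact hRule s t a b hs ht ha hb hst hab (Ne.symm hsT.2.2.1) (Ne.symm htT.2.2.1)
        (Ne.symm hsT.2.2.2) (Ne.symm htT.2.2.2) h1
  intro a b c ha hb hc hab hbc hac
  obtain ⟨g₁, hg₁, -, h1, h2, h3⟩ := hall a b ha hb hab
  obtain ⟨g₂, hg₂, -, h4, h5, h6⟩ := hall b c hb hc hbc
  refine ⟨g₁ * g₂, G.mul_mem hg₁ hg₂, ?_, ?_, ?_, fun x hx h7 h8 h9 => ?_⟩
  · simp only [Perm.mul_apply]
    rw [h6 a ha hab hac, h1]
  · simp only [Perm.mul_apply]
    rw [h4, h3 c hc hac.symm hbc.symm]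
  · simp only [Perm.mul_apply]
    rw [h5, h2]
  · simp only [Perm.mul_apply]
    rw [h6 x hx h8 h9, h3 x hx h7 h8]


/-! ### All 2-elements have fewer than `k` fixed points -/

section Few

variable {G : Subgroup (Perm α)} {k : ℕ}

lemma exists_kset (hkn : k ≤ Fintype.card α) : ∃ Γ : Finset α, Γ.card = k := by
  obtain ⟨Γ, _, h⟩ := Finset.exists_subset_card_eq (s := (Finset.univ : Finset α))
    (n := k) (by simpa using hkn)
  exact ⟨Γ, h⟩

/-- `g₀` stabilises the `Fx`-orbit of `t w` if it fixes `w` and commutes with `t` on `Γ`. -/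
lemma stb_orb_of_comm {Γ : Finset α} {g₀ t : Perm α} {w : α} (hg₀ : g₀ ∈ G) (ht : t ∈ G)
    (hsg : Stb g₀ Γ) (hst : Stb t Γ) (hw : g₀ w = w) (hcomm : ∀ a ∈ Γ, g₀ (t a) = t (g₀ a)) :
    Stb g₀ (orbF (Fx G Γ) (t w)) := by
  apply orb_stb_of_mem hg₀ hsg
  have hU : g₀ * t * g₀⁻¹ * t⁻¹ ∈ Fx G Γ := by
    refine ⟨G.mul_mem (G.mul_mem (G.mul_mem hg₀ ht) (G.inv_mem hg₀)) (G.inv_mem ht), fun a ha => ?_⟩
    simp only [Perm.mul_apply]
    have h1 : g₀⁻¹ (t⁻¹ a) ∈ Γ := hsg.inv _ (hst.inv _ ha)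
    rw [hcomm _ h1]
    simp
  have h2 : (g₀ * t * g₀⁻¹ * t⁻¹) (t w) = g₀ (t w) := by
    have h3 : t⁻¹ (t w) = w := by simp
    have h4 : g₀⁻¹ w = w := by rw [Perm.inv_eq_iff_eq, hw]
    simp only [Perm.mul_apply, h3, h4]
  rw [← h2]
  exact apply_mem_orbF hU _

lemma on_swap_of_TR {Δ : Finset α} {g : Perm α} {u v : α} (h1 : g u = v) (h2 : g v = u)
    (h3 : ∀ x ∈ Δ, x ≠ u → x ≠ v → g x = x) : ∀ a ∈ Δ, g a = swap u v a := by
  intro a ha
  by_cases hau : a = u
  · rw [hau, h1, swap_apply_left]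
  · by_cases hav : a = v
    · rw [hav, h2, swap_apply_right]
    · rw [h3 a ha hau hav, swap_apply_of_ne_of_ne hau hav]

lemma stb_swap {Γ : Finset α} {x y : α} (hx : x ∈ Γ) (hy : y ∈ Γ) : Stb (swap x y) Γ := by
  intro a ha
  by_cases hax : a = x
  · rw [hax, swap_apply_left]; exact hy
  · by_cases hay : a = y
    · rw [hay, swap_apply_right]; exact hx
    · rw [swap_apply_of_ne_of_ne hax hay]; exact ha

lemma swap_comm_apply {u v x y : α} (hxu : x ≠ u) (hxv : x ≠ v) (hyu : y ≠ u) (hyv : y ≠ v)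
    (a : α) : swap u v (swap x y a) = swap x y (swap u v a) := by
  have : swap u v * swap x y = swap x y * swap u v :=
    (Equiv.Perm.Disjoint.commute (by
      intro z
      by_cases hzu : z = u
      · right
        rw [hzu]
        exact swap_apply_of_ne_of_ne hxu.symm hyu.symm
      · by_cases hzv : z = v
        · right
          rw [hzv]
          exact swap_apply_of_ne_of_ne hxv.symm hyv.symm
        · left
          exact swap_apply_of_ne_of_ne hzu hzv))
  have h2 := congrArg (fun p : Perm α => p a) this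
  simpa using h2

lemma TR_of_on {Δ : Finset α} {g : Perm α} {x y w : α} (hg : g ∈ G) (hw : g w = w)
    (hx : x ∈ Δ.erase w) (hy : y ∈ Δ.erase w) (hon : ∀ a ∈ Δ.erase w, g a = swap x y a) :
    TR G Δ x y := by
  refine TR_of_act hg ?_ ?_ ?_
  · rw [hon x hx, swap_apply_left]
  · rw [hon y hy, swap_apply_right]
  · intro z hz hzx hzy
    by_cases hzw : z = w
    · rw [hzw, hw]
    · rw [hon z (Finset.mem_erase.mpr ⟨hzw, hz⟩), swap_apply_of_ne_of_ne hzx hzy]

/-- Frame for the rules. -/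
lemma rule_frame (hk : 4 ≤ k) (hPT : PT G k) {Δ : Finset α} (hΔ : Δ.card = k + 1)
    {u v x y : α} (hu : u ∈ Δ) (hv : v ∈ Δ) (hx : x ∈ Δ) (hy : y ∈ Δ)
    (hxu : x ≠ u) (hxv : x ≠ v) (hyu : y ≠ u) (hyv : y ≠ v)
    {g₀ : Perm α} (hg₀u : g₀ u = v) (hg₀v : g₀ v = u)
    (hg₀f : ∀ z ∈ Δ, z ≠ u → z ≠ v → g₀ z = z) :
    ∃ w ∈ Δ, w ≠ u ∧ w ≠ v ∧ w ≠ x ∧ w ≠ y ∧ (Δ.erase w).card = k ∧ w ∉ Δ.erase w ∧
      u ∈ Δ.erase w ∧ v ∈ Δ.erase w ∧ x ∈ Δ.erase w ∧ y ∈ Δ.erase w ∧ g₀ w = w ∧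
      (∀ a ∈ Δ.erase w, g₀ a = swap u v a) ∧ Stb g₀ (Δ.erase w) ∧
      ∃ t ∈ G, IsTwo t ∧ (∀ a ∈ Δ.erase w, t a = swap x y a) ∧ Stb t (Δ.erase w) ∧
        ∀ a ∈ Δ.erase w, g₀ (t a) = t (g₀ a) := by
  obtain ⟨w, hw, hwT⟩ := exists_avoid (T := {u, v, x, y}) (Δ := Δ) (by
    have := Finset.card_le_four (a := u) (b := v) (c := x) (d := y)
    omega)
  simp only [Finset.mem_insert, Finset.mem_singleton, not_or] at hwT
  obtain ⟨hwu, hwv, hwx, hwy⟩ := hwT
  have hΓ : (Δ.erase w).card = k := by rw [Finset.card_erase_of_mem hw, hΔ]; rfl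
  have huΓ : u ∈ Δ.erase w := Finset.mem_erase.mpr ⟨Ne.symm hwu, hu⟩
  have hvΓ : v ∈ Δ.erase w := Finset.mem_erase.mpr ⟨Ne.symm hwv, hv⟩
  have hxΓ : x ∈ Δ.erase w := Finset.mem_erase.mpr ⟨Ne.symm hwx, hx⟩
  have hyΓ : y ∈ Δ.erase w := Finset.mem_erase.mpr ⟨Ne.symm hwy, hy⟩
  have hon : ∀ a ∈ Δ.erase w, g₀ a = swap u v a := fun a ha =>
    on_swap_of_TR hg₀u hg₀v hg₀f a (Finset.mem_of_mem_erase ha)
  have hsg : Stb g₀ (Δ.erase w) := Stb_of_on (stb_swap huΓ hvΓ) hon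
  obtain ⟨t, ht, htt, hton⟩ := lift_two hPT hΓ (stb_swap hxΓ hyΓ) (fun a => by simp)
  have hst : Stb t (Δ.erase w) := Stb_of_on (stb_swap hxΓ hyΓ) hton
  refine ⟨w, hw, hwu, hwv, hwx, hwy, hΓ, Finset.notMem_erase w Δ, huΓ, hvΓ, hxΓ, hyΓ,
    hg₀f w hw hwu hwv, hon, hsg, t, ht, htt, hton, hst, fun a ha => ?_⟩
  rw [hton a ha, hon _ (hst a ha |> fun h => by rwa [hton a ha] at h), hon a ha, hton _ (hsg a ha |> fun h => by rwa [hon a ha] at h)]
  exact swap_comm_apply hxu hxv hyu hyv a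

/-- Case `n - k` odd. -/
theorem case_odd (hk : 4 ≤ k) (hkn : k < Fintype.card α) (hPT : PT G k)
    (hb : ∀ g ∈ G, IsTwo g → g ≠ 1 → (Fix g).card < k)
    (hodd : (Fintype.card α - k) % 2 = 1) :
    ∃ Δ : Finset α, Δ.card = k + 1 ∧ A3 G Δ := by
  have hUodd : ∀ Γ : Finset α, Γ.card = k → Odd (Nat.card (Fx G Γ)) := by
    intro Γ hΓ
    refine odd_card_of_no_invol fun g hg hgg => ?_
    by_contra hg1
    have h1 := hb g hg.1 ⟨1, by simpa [pow_two] using hgg⟩ hg1
    have h2 : Γ ⊆ Fix g := fun x hx => mem_Fix.mpr (hg.2 x hx)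
    have h3 := Finset.card_le_card h2
    omega
  -- the rule
  have hRule : ∀ Δ : Finset α, Δ.card = k + 1 → ∀ u v x y, u ∈ Δ → v ∈ Δ → x ∈ Δ → y ∈ Δ → u ≠ v →
      x ≠ y → x ≠ u → x ≠ v → y ≠ u → y ≠ v → TR G Δ u v → TR G Δ x y := by
    intro Δ hΔ u v x y hu hv hx hy huv hxy hxu hxv hyu hyv h0
    obtain ⟨g₀, hg₀, hg₀t, hg₀u, hg₀v, hg₀f⟩ := h0
    obtain ⟨w, hw, hwu, hwv, hwx, hwy, hΓ, hwΓ, huΓ, hvΓ, hxΓ, hyΓ, hg₀w, hon, hsg, t, ht, htt,
      hton, hst, hcomm⟩ := rule_frame hk hPT hΔ hu hv hx hy hxu hxv hyu hyv hg₀u hg₀v hg₀f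
    set Γ := Δ.erase w with hΓdef
    have hstab := stb_orb_of_comm hg₀ ht hsg hst hg₀w hcomm
    have hodd' := odd_orbF (hUodd Γ hΓ) (t w)
    have hpar := parity hg₀t _ hstab
    obtain ⟨r, hr⟩ := hodd'
    have hne : ((orbF (Fx G Γ) (t w)).filter fun z => g₀ z = z).Nonempty := by
      rw [← Finset.card_pos]
      omega
    obtain ⟨z, hz⟩ := hne
    rw [Finset.mem_filter] at hz
    obtain ⟨hzD, hzfix⟩ := hz
    have hzΓ : z ∉ Γ := orb_notMem (fun hc => hwΓ ((hst.mem_iff w).mp hc)) hzD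
    by_cases hzw : z = w
    · rw [hzw] at hzD
      obtain ⟨u', hu', hu'w⟩ := mem_orbF.mp hzD
      refine TR_of_on (w := w) (G.mul_mem hu'.1 ht) hu'w hxΓ hyΓ fun a ha => ?_
      simp only [Perm.mul_apply]
      rw [hu'.2 _ (hst a ha), hton a ha]
    · exfalso
      have hg₀1 : g₀ ≠ 1 := by
        intro hc
        rw [hc] at hg₀u
        exact huv hg₀u
      have h1 := hb g₀ hg₀ hg₀t hg₀1
      have hsub : insert z ((Δ.erase u).erase v) ⊆ Fix g₀ := by
        intro a ha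
        rw [Finset.mem_insert, Finset.mem_erase, Finset.mem_erase] at ha
        rcases ha with rfl | ⟨h5, h6, h7⟩
        · exact mem_Fix.mpr hzfix
        · exact mem_Fix.mpr (hg₀f a h7 h6 h5)
      have h2 := Finset.card_le_card hsub
      have hzn : z ∉ (Δ.erase u).erase v := by
        intro hc
        have hzΔ : z ∈ Δ := Finset.mem_of_mem_erase (Finset.mem_of_mem_erase hc)
        exact hzΓ (Finset.mem_erase.mpr ⟨hzw, hzΔ⟩)
      rw [Finset.card_insert_of_notMem hzn,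
        Finset.card_erase_of_mem (Finset.mem_erase.mpr ⟨huv.symm, hv⟩),
        Finset.card_erase_of_mem hu, hΔ] at h2
      omega
  -- the initial transposition
  obtain ⟨Γ, hΓ⟩ := exists_kset (α := α) hkn.le
  obtain ⟨a, ha, b, hb', hab⟩ := Finset.one_lt_card.mp (by omega : 1 < Γ.card)
  obtain ⟨t, ht, htt, hton⟩ := lift_two hPT hΓ (stb_swap ha hb') (fun c => by simp)
  have hst := Stb_of_on (stb_swap ha hb') hton
  have hstc : ∀ x ∈ Γᶜ, t x ∈ Γᶜ := by
    intro x hx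
    rw [Finset.mem_compl] at hx ⊢
    exact fun hc => hx ((hst.mem_iff x).mp hc)
  have hpar := parity htt _ hstc
  rw [Finset.card_compl, hΓ] at hpar
  have hne : (Γᶜ.filter fun z => t z = z).Nonempty := by
    rw [← Finset.card_pos]
    omega
  obtain ⟨y, hy⟩ := hne
  rw [Finset.mem_filter, Finset.mem_compl] at hy
  obtain ⟨hyΓ, hyfix⟩ := hy
  refine ⟨insert y Γ, by rw [Finset.card_insert_of_notMem hyΓ, hΓ], ?_⟩
  have hΔ : (insert y Γ).card = k + 1 := by rw [Finset.card_insert_of_notMem hyΓ, hΓ]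
  refine A3_of_rule (by omega) (hRule _ hΔ) (Finset.mem_insert_of_mem ha)
    (Finset.mem_insert_of_mem hb') hab ⟨t, ht, htt, ?_, ?_, ?_⟩
  · rw [hton a ha, swap_apply_left]
  · rw [hton b hb', swap_apply_right]
  · intro x hx hxa hxb
    rw [Finset.mem_insert] at hx
    rcases hx with rfl | hx
    · exact hyfix
    · rw [hton x hx, swap_apply_of_ne_of_ne hxa hxb]

/-! ### `n - k` even: all non-trivial 2-elements fix at most `k - 2` points -/

/-- A 2-element whose square fixes at least `k - 1` points is an involution. -/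
lemma invol_of_fix (hb2 : ∀ g ∈ G, IsTwo g → g ≠ 1 → (Fix g).card + 2 ≤ k) {g : Perm α}
    (hg : g ∈ G) (ht : IsTwo g) {S : Finset α} (hS : S.card + 1 ≥ k)
    (hfix : ∀ a ∈ S, g (g a) = a) : g * g = 1 := by
  by_contra hc
  have h1 := hb2 (g * g) (G.mul_mem hg hg) (by rw [← pow_two]; exact ht.pow 2) hc
  have h2 : S ⊆ Fix (g * g) := fun a ha => mem_Fix.mpr (by simpa using hfix a ha)
  have h3 := Finset.card_le_card h2
  omega

lemma fix_eq_of_card (hb2 : ∀ g ∈ G, IsTwo g → g ≠ 1 → (Fix g).card + 2 ≤ k) {g : Perm α}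
    (hg : g ∈ G) (ht : IsTwo g) (h1 : g ≠ 1) {S : Finset α} (hS : k ≤ S.card + 2)
    (hfix : ∀ a ∈ S, g a = a) : Fix g = S := by
  symm
  apply Finset.eq_of_subset_of_card_le (fun a ha => mem_Fix.mpr (hfix a ha))
  have := hb2 g hg ht h1
  omega

/-- The commuting involution `j` swapping `w, z` and moving `y` to `i y`. -/
lemma exists_j (hk : 4 ≤ k) (hPT : PT G k) (hb2 : ∀ g ∈ G, IsTwo g → g ≠ 1 → (Fix g).card + 2 ≤ k)
    {Γ : Finset α} (hΓ : Γ.card = k) {a b w z : α} (ha : a ∈ Γ) (hb : b ∈ Γ) (hw : w ∈ Γ)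
    (hz : z ∈ Γ) (hab : a ≠ b) (haw : a ≠ w) (haz : a ≠ z) (hbw : b ≠ w) (hbz : b ≠ z)
    (hwz : w ≠ z) {i : Perm α} (hi : i ∈ G) (hit : IsTwo i) (hion : ∀ c ∈ Γ, i c = swap a b c)
    {y : α} (hy : y ∉ Γ) :
    ∃ j ∈ G, IsTwo j ∧ j * j = 1 ∧ i * j = j * i ∧ j y = i y ∧ (∀ c ∈ Γ, j c = swap w z c) ∧
      ∀ v, i (j v) = v → v ∈ Γ ∨ v = y ∨ v = i y := by
  have hsi : Stb i Γ := Stb_of_on (stb_swap ha hb) hion
  have hii : i * i = 1 := invol_of_fix hb2 hi hit (S := Γ) (by omega) (fun c hc => by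
    rw [hion c hc, hion _ (stb_swap ha hb c hc)]; simp)
  have hii' : ∀ v, i (i v) = v := fun v => by
    have := congrArg (fun p : Perm α => p v) hii
    simpa using this
  set C := Γ \ {a, b, w, z} with hC
  have hsub4 : ({a, b, w, z} : Finset α) ⊆ Γ := by
    intro c hc
    simp only [Finset.mem_insert, Finset.mem_singleton] at hc
    rcases hc with rfl | rfl | rfl | rfl <;> assumption
  have hcard4 : ({a, b, w, z} : Finset α).card = 4 := by
    rw [Finset.card_eq_succ]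
    refine ⟨a, {b, w, z}, by simp [hab, haw, haz], rfl, ?_⟩
    rw [Finset.card_eq_three]
    exact ⟨b, w, z, hbw, hbz, hwz, rfl⟩
  have hCcard : C.card + 4 = k := by
    rw [hC, Finset.card_sdiff_of_subset hsub4, hcard4, hΓ]
    omega
  have hCΓ : ∀ c ∈ C, c ∈ Γ := fun c hc => (Finset.mem_sdiff.mp hc).1
  have hCne : ∀ c ∈ C, c ≠ a ∧ c ≠ b ∧ c ≠ w ∧ c ≠ z := by
    intro c hc
    have := (Finset.mem_sdiff.mp hc).2
    simpa [not_or] using this
  have hyi : i y ≠ y := by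
    intro hc
    have h1 : i ≠ 1 := by
      intro h
      have := hion a ha
      rw [h, swap_apply_left] at this
      exact hab this
    have hFix : Fix i = insert w (insert z C) := fix_eq_of_card hb2 hi hit h1 (by
      rw [Finset.card_insert_of_notMem, Finset.card_insert_of_notMem]
      · omega
      · exact fun h => (hCne z h).2.2.2 rfl
      · simp only [Finset.mem_insert, not_or]
        exact ⟨hwz, fun h => (hCne w h).2.2.1 rfl⟩) (by
      intro c hc
      simp only [Finset.mem_insert] at hc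
      rcases hc with rfl | rfl | hc
      · rw [hion _ hw, swap_apply_of_ne_of_ne haw.symm hbw.symm]
      · rw [hion _ hz, swap_apply_of_ne_of_ne haz.symm hbz.symm]
      · rw [hion _ (hCΓ c hc), swap_apply_of_ne_of_ne (hCne c hc).1 (hCne c hc).2.1])
    have h3 : y ∈ Fix i := mem_Fix.mpr hc
    rw [hFix] at h3
    simp only [Finset.mem_insert] at h3
    rcases h3 with rfl | rfl | h3
    · exact hy hw
    · exact hy hz
    · exact hy (hCΓ y h3)
  have hiyΓ : i y ∉ Γ := fun hc => hy ((hsi.mem_iff y).mp hc)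
  set Γ₃ := insert a (insert b (insert y (insert (i y) C))) with hΓ₃
  have hmem3 : ∀ c, c ∈ Γ₃ ↔ c = a ∨ c = b ∨ c = y ∨ c = i y ∨ c ∈ C := by
    intro c
    simp only [hΓ₃, Finset.mem_insert]
  have hΓ₃card : Γ₃.card = k := by
    rw [hΓ₃, Finset.card_insert_of_notMem, Finset.card_insert_of_notMem,
      Finset.card_insert_of_notMem, Finset.card_insert_of_notMem]
    · omega
    · exact fun h => hiyΓ (hCΓ _ h)
    · simp only [Finset.mem_insert, not_or]
      exact ⟨hyi.symm, fun h => hy (hCΓ _ h)⟩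
    · simp only [Finset.mem_insert, not_or]
      refine ⟨fun h => hy (h ▸ hb), fun h => hiyΓ (h ▸ hb), fun h => (hCne b h).2.1 rfl⟩
    · simp only [Finset.mem_insert, not_or]
      refine ⟨hab, fun h => hy (h ▸ ha), fun h => hiyΓ (h ▸ ha), fun h => (hCne a h).1 rfl⟩
  have hyne : y ≠ a ∧ y ≠ b ∧ i y ≠ a ∧ i y ≠ b := by
    refine ⟨fun h => hy (h ▸ ha), fun h => hy (h ▸ hb), fun h => hiyΓ (h ▸ ha),
      fun h => hiyΓ (h ▸ hb)⟩
  have hCy : ∀ c ∈ C, c ≠ y ∧ c ≠ i y := fun c hc =>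
    ⟨fun h => hy (h ▸ hCΓ c hc), fun h => hiyΓ (h ▸ hCΓ c hc)⟩
  let σ₂ : Perm α := swap y (i y)
  let σ₁ : Perm α := swap a b * swap y (i y)
  have hσ₂ : Stb σ₂ Γ₃ := stb_swap ((hmem3 _).mpr (by simp)) ((hmem3 _).mpr (by simp))
  have hσ₀ : Stb (swap a b) Γ₃ := stb_swap ((hmem3 _).mpr (by simp)) ((hmem3 _).mpr (by simp))
  have hσ₁ : Stb σ₁ Γ₃ := hσ₀.mul hσ₂
  have hcomm0 : swap a b * σ₂ = σ₂ * swap a b := by
    ext v
    simp only [Perm.mul_apply, σ₂]
    rw [swap_comm_apply hyne.1 hyne.2.1 hyne.2.2.1 hyne.2.2.2 v]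
  have hs1 : σ₁ * σ₁ = 1 := by
    show swap a b * σ₂ * (swap a b * σ₂) = 1
    rw [mul_assoc, ← mul_assoc σ₂, ← hcomm0, mul_assoc, swap_mul_self, mul_one, swap_mul_self]
  have hs2 : σ₂ * σ₂ = 1 := swap_mul_self _ _
  have hs12 : σ₁ * σ₂ = σ₂ * σ₁ := by
    show swap a b * σ₂ * σ₂ = σ₂ * (swap a b * σ₂)
    rw [← mul_assoc σ₂, ← hcomm0]
  have hion3 : ∀ c ∈ Γ₃, i c = σ₁ c := by
    intro c hc
    rw [hmem3] at hc
    simp only [σ₁, Perm.mul_apply]
    rcases hc with rfl | rfl | rfl | rfl | hc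
    · rw [swap_apply_of_ne_of_ne hyne.1.symm hyne.2.2.1.symm, hion _ ha]
    · rw [swap_apply_of_ne_of_ne hyne.2.1.symm hyne.2.2.2.symm, hion _ hb]
    · rw [swap_apply_left, swap_apply_of_ne_of_ne hyne.2.2.1 hyne.2.2.2]
    · rw [swap_apply_right, swap_apply_of_ne_of_ne hyne.1 hyne.2.1, hii']
    · rw [swap_apply_of_ne_of_ne (hCy c hc).1 (hCy c hc).2, hion _ (hCΓ c hc)]
  obtain ⟨g₀, hg₀, hg₀on⟩ := hPT Γ₃ σ₂ hΓ₃card σ₂.injective.injOn
  obtain ⟨t, ht, hton, htt, htit⟩ := two_lift hσ₁ hσ₂ hs1 hs2 hs12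
    ⟨y, (hmem3 _).mpr (by simp), by simp [σ₂, hyi]⟩
    ⟨a, (hmem3 _).mpr (by simp), by
      simp only [σ₁, σ₂, Perm.mul_apply]
      rw [swap_apply_of_ne_of_ne hyne.1.symm hyne.2.2.1.symm, swap_apply_left]
      exact hab⟩ hi hg₀ hion3 hg₀on hit
  have hst : Stb t Γ₃ := Stb_of_on hσ₂ hton
  have htt2 : t * t = 1 := invol_of_fix hb2 ht htt (S := Γ₃) (by omega) (fun c hc => by
    rw [hton c hc, hton _ (hσ₂ c hc)]; simp [σ₂])
  have hti2 : t * i * (t * i) = 1 := by
    have hm : t * i ∈ G := G.mul_mem ht hi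
    refine invol_of_fix hb2 hm htit (S := Γ₃) (by omega) (fun c hc => ?_)
    have h1 : ∀ c ∈ Γ₃, (t * i) c = swap a b c := by
      intro c hc
      simp only [Perm.mul_apply]
      rw [hion3 c hc, hton _ (hσ₁ c hc)]
      simp only [σ₁, σ₂, Perm.mul_apply]
      rw [← swap_comm_apply hyne.1 hyne.2.1 hyne.2.2.1 hyne.2.2.2]
      simp
    rw [h1 c hc, h1 _ (hσ₀ c hc)]
    simp
  have hti : i * t = t * i := by
    have h1 : t * i * (t * i) = 1 := hti2
    have ht' : t⁻¹ = t := inv_eq_of_mul_eq_one_left htt2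
    have hi' : i⁻¹ = i := inv_eq_of_mul_eq_one_left hii
    have h2 : (t * i)⁻¹ = t * i := inv_eq_of_mul_eq_one_left h1
    rw [mul_inv_rev, ht', hi'] at h2
    exact h2
  have ht1 : t ≠ 1 := by
    intro h
    have := hton y ((hmem3 _).mpr (by simp))
    rw [h] at this
    simp [σ₂] at this
    exact hyi this.symm
  -- the fixed points of `t`
  have hFixt : Fix t = insert a (insert b C) := fix_eq_of_card hb2 ht htt ht1 (by
    rw [Finset.card_insert_of_notMem, Finset.card_insert_of_notMem]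
    · omega
    · exact fun h => (hCne b h).2.1 rfl
    · simp only [Finset.mem_insert, not_or]
      exact ⟨hab, fun h => (hCne a h).1 rfl⟩) (by
    intro c hc
    simp only [Finset.mem_insert] at hc
    have hc3 : c ∈ Γ₃ := by
      rw [hmem3]
      tauto
    rw [hton c hc3]
    apply swap_apply_of_ne_of_ne
    · rcases hc with rfl | rfl | hc
      · exact hyne.1.symm
      · exact hyne.2.1.symm
      · exact (hCy c hc).1
    · rcases hc with rfl | rfl | hc
      · exact hyne.2.2.1.symm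
      · exact hyne.2.2.2.symm
      · exact (hCy c hc).2)
  have hi1 : i ≠ 1 := by
    intro h
    have := hion a ha
    rw [h, swap_apply_left] at this
    exact hab this
  have hFixi : Fix i = insert w (insert z C) := fix_eq_of_card hb2 hi hit hi1 (by
    rw [Finset.card_insert_of_notMem, Finset.card_insert_of_notMem]
    · omega
    · exact fun h => (hCne z h).2.2.2 rfl
    · simp only [Finset.mem_insert, not_or]
      exact ⟨hwz, fun h => (hCne w h).2.2.1 rfl⟩) (by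
    intro c hc
    simp only [Finset.mem_insert] at hc
    rcases hc with rfl | rfl | hc
    · rw [hion _ hw, swap_apply_of_ne_of_ne haw.symm hbw.symm]
    · rw [hion _ hz, swap_apply_of_ne_of_ne haz.symm hbz.symm]
    · rw [hion _ (hCΓ c hc), swap_apply_of_ne_of_ne (hCne c hc).1 (hCne c hc).2.1])
  have htcomm : ∀ v, i (t v) = t (i v) := fun v => by
    have := congrArg (fun p : Perm α => p v) hti
    simpa using this
  have htt' : ∀ v, t (t v) = v := fun v => by
    have := congrArg (fun p : Perm α => p v) htt2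
    simpa using this
  have htC : ∀ c ∈ C, t c = c := fun c hc => by
    have : c ∈ Fix t := by rw [hFixt]; simp [hc]
    exact mem_Fix.mp this
  -- `t` swaps `w` and `z`
  have hswap : ∀ v v', (v = w ∧ v' = z ∨ v = z ∧ v' = w) → t v = v' := by
    have hvΓ : ∀ v, v = w ∨ v = z → i v = v ∧ v ∉ Fix t ∧ v ∉ C := by
      rintro v (rfl | rfl)
      · refine ⟨by rw [hion _ hw, swap_apply_of_ne_of_ne haw.symm hbw.symm], ?_, ?_⟩
        · rw [hFixt]
          simp only [Finset.mem_insert, not_or]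
          exact ⟨haw.symm, hbw.symm, fun h => (hCne _ h).2.2.1 rfl⟩
        · exact fun h => (hCne _ h).2.2.1 rfl
      · refine ⟨by rw [hion _ hz, swap_apply_of_ne_of_ne haz.symm hbz.symm], ?_, ?_⟩
        · rw [hFixt]
          simp only [Finset.mem_insert, not_or]
          exact ⟨haz.symm, hbz.symm, fun h => (hCne _ h).2.2.2 rfl⟩
        · exact fun h => (hCne _ h).2.2.2 rfl
    intro v v' hvv
    have hv : v = w ∨ v = z := by tauto
    obtain ⟨h1, h2, h3⟩ := hvΓ v hv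
    have h4 : t v ∈ Fix i := mem_Fix.mpr (by rw [htcomm, h1])
    rw [hFixi] at h4
    simp only [Finset.mem_insert] at h4
    have h5 : t v ≠ v := fun h => h2 (mem_Fix.mpr h)
    rcases h4 with h4 | h4 | h4
    · rcases hvv with ⟨rfl, rfl⟩ | ⟨rfl, rfl⟩
      · exact absurd h4 h5
      · exact h4
    · rcases hvv with ⟨rfl, rfl⟩ | ⟨rfl, rfl⟩
      · exact h4
      · exact absurd h4 h5
    · exfalso
      have h6 := htC _ h4
      rw [htt'] at h6
      exact h3 (h6 ▸ h4)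
  refine ⟨t, ht, htt, htt2, hti, ?_, fun c hc => ?_, fun v hv => ?_⟩
  · rw [hton y ((hmem3 _).mpr (by simp))]
    simp [σ₂]
  · by_cases hcw : c = w
    · rw [hcw, swap_apply_left]
      exact hswap w z (Or.inl ⟨rfl, rfl⟩)
    · by_cases hcz : c = z
      · rw [hcz, swap_apply_right]
        exact hswap z w (Or.inr ⟨rfl, rfl⟩)
      · rw [swap_apply_of_ne_of_ne hcw hcz]
        by_cases hca : c = a
        · have : c ∈ Fix t := by rw [hFixt, hca]; simp
          exact mem_Fix.mp this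
        · by_cases hcb : c = b
          · have : c ∈ Fix t := by rw [hFixt, hcb]; simp
            exact mem_Fix.mp this
          · apply htC
            simp only [hC, Finset.mem_sdiff, Finset.mem_insert, Finset.mem_singleton, not_or]
            exact ⟨hc, hca, hcb, hcw, hcz⟩
  · -- the fixed points of `i * t`
    have hit1 : i * t ≠ 1 := by
      intro h
      have h1 := congrArg (fun p : Perm α => p a) h
      simp only [Perm.mul_apply, Perm.one_apply] at h1
      have h2 : t a = a := by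
        have : a ∈ Fix t := by rw [hFixt]; simp
        exact mem_Fix.mp this
      rw [h2, hion a ha, swap_apply_left] at h1
      exact hab h1.symm
    have hitt : IsTwo (i * t) := by rw [hti]; exact htit
    have hFix2 : Fix (i * t) = insert y (insert (i y) C) := by
      refine fix_eq_of_card hb2 (G.mul_mem hi ht) hitt hit1 ?_ ?_
      · rw [Finset.card_insert_of_notMem, Finset.card_insert_of_notMem]
        · omega
        · exact fun h => hiyΓ (hCΓ _ h)
        · simp only [Finset.mem_insert, not_or]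
          exact ⟨hyi.symm, fun h => hy (hCΓ _ h)⟩
      · intro c hc
        simp only [Finset.mem_insert] at hc
        simp only [Perm.mul_apply]
        rcases hc with rfl | rfl | hc
        · rw [hton _ ((hmem3 _).mpr (by simp))]
          simp [σ₂, hii']
        · rw [hton _ ((hmem3 _).mpr (by simp))]
          simp [σ₂]
        · rw [htC c hc, hion _ (hCΓ c hc), swap_apply_of_ne_of_ne (hCne c hc).1 (hCne c hc).2.1]
    have h1 : v ∈ Fix (i * t) := mem_Fix.mpr (by simpa using hv)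
    rw [hFix2] at h1
    simp only [Finset.mem_insert] at h1
    rcases h1 with h1 | h1 | h1
    · exact Or.inr (Or.inl h1)
    · exact Or.inr (Or.inr h1)
    · exact Or.inl (hCΓ v h1)

/-- A square root in an odd-order cyclic group, with the dihedral relation. -/
lemma exists_dihedral_conj {j j' : Perm α} (h1 : j * j = 1) (h2 : j' * j' = 1)
    (hodd : Odd (orderOf (j * j'))) :
    ∃ c : Perm α, (∃ e : ℕ, c = ((j * j')⁻¹) ^ e) ∧ c * j * c⁻¹ = j' := by
  obtain ⟨r, hr⟩ := hodd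
  set x := j * j' with hx
  have hj : j⁻¹ = j := inv_eq_of_mul_eq_one_left h1
  have hj' : j'⁻¹ = j' := inv_eq_of_mul_eq_one_left h2
  have hxinv : x⁻¹ = j' * j := by rw [hx, mul_inv_rev, hj, hj']
  have hconj : j * x⁻¹ * j⁻¹ = x := by
    rw [hxinv, hj, hx, mul_assoc, mul_assoc, h1, mul_one]
  refine ⟨(x⁻¹) ^ (r + 1), ⟨r + 1, rfl⟩, ?_⟩
  set c := (x⁻¹) ^ (r + 1) with hc
  have hcc : c * c = x⁻¹ := by
    rw [hc, ← pow_add]
    have : r + 1 + (r + 1) = orderOf x + 1 := by omega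
    rw [this, pow_succ, inv_pow, pow_orderOf_eq_one]
    simp
  have hjc : j * c * j⁻¹ = c⁻¹ := by
    rw [hc, ← conj_pow, hconj]
    simp only [inv_pow, inv_inv]
  have hjc' : j * c⁻¹ = c * j := by
    have h3 : j * c⁻¹ * j⁻¹ = c := by
      calc j * c⁻¹ * j⁻¹ = (j * c * j⁻¹)⁻¹ := by group
        _ = c := by rw [hjc, inv_inv]
    calc j * c⁻¹ = j * c⁻¹ * j⁻¹ * j := by group
      _ = c * j := by rw [h3]
  calc c * j * c⁻¹ = c * (j * c⁻¹) := by group
    _ = c * (c * j) := by rw [hjc']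
    _ = c * c * j := by group
    _ = j' := by rw [hcc, hxinv, mul_assoc, h1, mul_one]

/-- The dihedral trick: an element of the pointwise stabiliser of `Γ` commuting with `i` moves the
2-cycle of `y` to the 2-cycle of `y'`. -/
lemma exists_conj (hk : 4 ≤ k) (hPT : PT G k) (hb2 : ∀ g ∈ G, IsTwo g → g ≠ 1 → (Fix g).card + 2 ≤ k)
    {Γ : Finset α} (hΓ : Γ.card = k) {a b : α} (ha : a ∈ Γ) (hb : b ∈ Γ)
    (hab : a ≠ b) {i : Perm α} (hi : i ∈ G) (hit : IsTwo i) (hion : ∀ c ∈ Γ, i c = swap a b c)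
    {y y' : α} (hy : y ∉ Γ) (hy' : y' ∉ Γ) :
    ∃ c ∈ Fx G Γ, c * i = i * c ∧ (c y = y' ∨ c y = i y') := by
  have hT : ({a, b} : Finset α).card ≤ 2 := Finset.card_le_two
  obtain ⟨w, z, hw, hz, hwz, hwT, hzT⟩ := exists_two_avoid (T := {a, b}) (Δ := Γ) (by omega)
  simp only [Finset.mem_insert, Finset.mem_singleton, not_or] at hwT hzT
  obtain ⟨j, hj, hjt, hjj, hij, hjy, hjon, hjfix⟩ := exists_j hk hPT hb2 hΓ ha hb hw hz hab
    (Ne.symm hwT.1) (Ne.symm hzT.1) (Ne.symm hwT.2) (Ne.symm hzT.2) hwz hi hit hion hy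
  obtain ⟨j', hj', hjt', hjj', hij', hjy', hjon', hjfix'⟩ := exists_j hk hPT hb2 hΓ ha hb hw hz hab
    (Ne.symm hwT.1) (Ne.symm hzT.1) (Ne.symm hwT.2) (Ne.symm hzT.2) hwz hi hit hion hy'
  have hsi : Stb i Γ := Stb_of_on (stb_swap ha hb) hion
  have hsw : Stb (swap w z) Γ := stb_swap hw hz
  have hx : j * j' ∈ Fx G Γ := by
    refine ⟨G.mul_mem hj hj', fun c hc => ?_⟩
    simp only [Perm.mul_apply]
    rw [hjon' c hc, hjon _ (hsw c hc)]
    simp
  have hUodd : Odd (Nat.card (Fx G Γ)) := by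
    refine odd_card_of_no_invol fun g hg hgg => ?_
    by_contra hg1
    have h1 := hb2 g hg.1 ⟨1, by simpa [pow_two] using hgg⟩ hg1
    have h2 : Γ ⊆ Fix g := fun x hx => mem_Fix.mpr (hg.2 x hx)
    have h3 := Finset.card_le_card h2
    omega
  have hoddx : Odd (orderOf (j * j')) := by
    have h1 : orderOf (⟨j * j', hx⟩ : Fx G Γ) ∣ Nat.card (Fx G Γ) := orderOf_dvd_natCard _
    rw [Subgroup.orderOf_mk] at h1
    exact Odd.of_dvd_nat hUodd h1
  obtain ⟨c, ⟨e, hce⟩, hc⟩ := exists_dihedral_conj hjj hjj' hoddx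
  have hcU : c ∈ Fx G Γ := by
    rw [hce]
    exact Subgroup.pow_mem _ (Subgroup.inv_mem _ hx) e
  have hci : Commute c i := by
    rw [hce]
    apply Commute.pow_left
    apply Commute.inv_left
    exact (Commute.mul_left (Commute.symm hij) (Commute.symm hij'))
  have hcy : i (j' (c y)) = c y := by
    rw [← hc]
    have h1 : (c * j * c⁻¹) (c y) = c (j y) := by simp
    rw [h1, hjy]
    have h2 : i (c (i y)) = c (i (i y)) := by
      have := congrArg (fun p : Perm α => p (i y)) hci.eq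
      simpa using this.symm
    rw [h2]
    have h3 : i (i y) = y := by
      have hii := invol_of_fix hb2 hi hit (S := Γ) (by omega) (fun c hc => by
        rw [hion c hc, hion _ (stb_swap ha hb c hc)]; simp)
      have := congrArg (fun p : Perm α => p y) hii
      simpa using this
    rw [h3]
  have hcyΓ : c y ∉ Γ := orb_notMem hy (apply_mem_orbF hcU y)
  refine ⟨c, hcU, hci.eq, ?_⟩
  rcases hjfix' _ hcy with h | h | h
  · exact absurd h hcyΓ
  · exact Or.inl h
  · exact Or.inr h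

/-- The two-orbit lemma. -/
lemma two_orbit (hk : 4 ≤ k) (hPT : PT G k) (hb2 : ∀ g ∈ G, IsTwo g → g ≠ 1 → (Fix g).card + 2 ≤ k)
    {Γ : Finset α} (hΓ : Γ.card = k) {a b : α} (ha : a ∈ Γ) (hb : b ∈ Γ)
    (hab : a ≠ b) {i : Perm α} (hi : i ∈ G) (hit : IsTwo i) (hion : ∀ c ∈ Γ, i c = swap a b c)
    {y y' : α} (hy : y ∉ Γ) (hy' : y' ∉ Γ) :
    y' ∈ orbF (Fx G Γ) y ∨ y' ∈ orbF (Fx G Γ) (i y) := by
  obtain ⟨c, hcU, hci, h⟩ := exists_conj hk hPT hb2 hΓ ha hb hab hi hit hion hy hy'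
  rcases h with h | h
  · left
    rw [← h]
    exact apply_mem_orbF hcU y
  · right
    have h2 : i (c y) = y' := by
      rw [h]
      have hii := invol_of_fix hb2 hi hit (S := Γ) (by omega) (fun c hc => by
        rw [hion c hc, hion _ (stb_swap ha hb c hc)]; simp)
      have := congrArg (fun p : Perm α => p y') hii
      simpa using this
    have h3 : c (i y) = y' := by
      rw [← h2]
      have := congrArg (fun p : Perm α => p y) hci
      simpa using this
    rw [← h3]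
    exact apply_mem_orbF hcU _

/-- All 3-cycles on all `(k+1)`-sets when all non-trivial 2-elements fix at most `k - 2` points. -/
theorem A3_every (hk : 4 ≤ k) (hPT : PT G k)
    (hb2 : ∀ g ∈ G, IsTwo g → g ≠ 1 → (Fix g).card + 2 ≤ k) (Δ : Finset α) (hΔ : Δ.card = k + 1) :
    A3 G Δ := by
  refine fun a b c ha hb' hc hab hbc hac => ?_
  obtain ⟨y, hy, hyT⟩ := exists_avoid (T := {a, b, c}) (Δ := Δ) (by
    have := Finset.card_le_three (a := a) (b := b) (c := c)
    omega)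
  simp only [Finset.mem_insert, Finset.mem_singleton, not_or] at hyT
  obtain ⟨hya, hyb, hyc⟩ := hyT
  have hΓ : (Δ.erase y).card = k := by rw [Finset.card_erase_of_mem hy, hΔ]; rfl
  have haΓ : a ∈ Δ.erase y := Finset.mem_erase.mpr ⟨Ne.symm hya, ha⟩
  have hbΓ : b ∈ Δ.erase y := Finset.mem_erase.mpr ⟨Ne.symm hyb, hb'⟩
  have hcΓ : c ∈ Δ.erase y := Finset.mem_erase.mpr ⟨Ne.symm hyc, hc⟩
  have hyΓ : y ∉ Δ.erase y := Finset.notMem_erase y Δ
  set Γ := Δ.erase y with hΓdef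
  obtain ⟨t₁, ht₁, ht₁t, ht₁on⟩ := lift_two hPT hΓ (stb_swap haΓ hcΓ) (fun v => by simp)
  obtain ⟨t₂, ht₂, ht₂t, ht₂on⟩ := lift_two hPT hΓ (stb_swap hcΓ hbΓ) (fun v => by simp)
  have hs₁ := Stb_of_on (stb_swap haΓ hcΓ) ht₁on
  have hs₂ := Stb_of_on (stb_swap hcΓ hbΓ) ht₂on
  have hy₂ : t₂ y ∉ Γ := fun h => hyΓ ((hs₂.mem_iff y).mp h)
  have hUodd : Odd (Nat.card (Fx G Γ)) := by
    refine odd_card_of_no_invol fun g hg hgg => ?_
    by_contra hg1
    have h1 := hb2 g hg.1 ⟨1, by simpa [pow_two] using hgg⟩ hg1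
    have h2 : Γ ⊆ Fix g := fun x hx => mem_Fix.mpr (hg.2 x hx)
    have h3 := Finset.card_le_card h2
    omega
  -- `t₂ y` is not in the orbit of `y`
  have hnot : t₂ y ∉ orbF (Fx G Γ) y := by
    intro hc'
    have hstab := orb_stb_of_mem ht₂ hs₂ hc'
    have hpar := parity ht₂t _ hstab
    obtain ⟨r, hr⟩ := odd_orbF hUodd y
    have hne : ((orbF (Fx G Γ) y).filter fun z => t₂ z = z).Nonempty := by
      rw [← Finset.card_pos]
      omega
    obtain ⟨z, hz⟩ := hne
    rw [Finset.mem_filter] at hz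
    have hzΓ := orb_notMem hyΓ hz.1
    have ht₂1 : t₂ ≠ 1 := by
      intro h
      have := ht₂on c hcΓ
      rw [h, swap_apply_left] at this
      exact hbc this.symm
    have h1 := hb2 t₂ ht₂ ht₂t ht₂1
    have hsub : insert z ((Γ.erase c).erase b) ⊆ Fix t₂ := by
      intro v hv
      rw [Finset.mem_insert, Finset.mem_erase, Finset.mem_erase] at hv
      rcases hv with rfl | ⟨h5, h6, h7⟩
      · exact mem_Fix.mpr hz.2
      · exact mem_Fix.mpr (by rw [ht₂on v h7, swap_apply_of_ne_of_ne h6 h5])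
    have h2 := Finset.card_le_card hsub
    have hzn : z ∉ (Γ.erase c).erase b := fun hc' =>
      hzΓ (Finset.mem_of_mem_erase (Finset.mem_of_mem_erase hc'))
    rw [Finset.card_insert_of_notMem hzn,
      Finset.card_erase_of_mem (Finset.mem_erase.mpr ⟨hbc, hbΓ⟩),
      Finset.card_erase_of_mem hcΓ, hΓ] at h2
    omega
  have h2orb := two_orbit hk hPT hb2 hΓ haΓ hcΓ hac ht₁ ht₁t ht₁on hyΓ hy₂
  have h3 : t₂ y ∈ orbF (Fx G Γ) (t₁ y) := h2orb.resolve_left hnot
  obtain ⟨u, hu, huy⟩ := mem_orbF.mp h3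
  have hr : ∀ v ∈ Γ, (t₂⁻¹ * u * t₁) v = swap c b (swap a c v) := by
    intro v hv
    simp only [Perm.mul_apply]
    rw [ht₁on v hv, hu.2 _ (stb_swap haΓ hcΓ v hv)]
    rw [on_inv (stb_swap hcΓ hbΓ) ht₂on _ (stb_swap haΓ hcΓ v hv)]
    simp
  refine ⟨t₂⁻¹ * u * t₁, G.mul_mem (G.mul_mem (G.inv_mem ht₂) hu.1) ht₁, ?_, ?_, ?_, ?_⟩
  · rw [hr a haΓ, swap_apply_left, swap_apply_left]
  · rw [hr b hbΓ, swap_apply_of_ne_of_ne hab.symm hbc, swap_apply_right]
  · rw [hr c hcΓ, swap_apply_right, swap_apply_of_ne_of_ne hac hab]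
  · intro v hv hva hvb hvc
    by_cases hvy : v = y
    · rw [hvy]
      simp only [Perm.mul_apply]
      rw [huy]
      simp
    · rw [hr v (Finset.mem_erase.mpr ⟨hvy, hv⟩), swap_apply_of_ne_of_ne hva hvc,
        swap_apply_of_ne_of_ne hvc hvb]

/-- Case `n - k` even with all non-trivial 2-elements having fewer than `k` fixed points. -/
theorem case_even (hk : 4 ≤ k) (hkn : k < Fintype.card α) (hPT : PT G k)
    (hb : ∀ g ∈ G, IsTwo g → g ≠ 1 → (Fix g).card < k)
    (heven : (Fintype.card α - k) % 2 = 0) :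
    ∃ Δ : Finset α, Δ.card = k + 1 ∧ A3 G Δ := by
  have hb2 : ∀ g ∈ G, IsTwo g → g ≠ 1 → (Fix g).card + 2 ≤ k := by
    intro g hg ht h1
    have h2 := hb g hg ht h1
    have h3 := parity_Fix ht
    omega
  obtain ⟨Δ, hΔ⟩ := exists_kset (α := α) (k := k + 1) hkn
  exact ⟨Δ, hΔ, A3_every hk hPT hb2 Δ hΔ⟩

end Few

end Cfsg.Agent.Lib.LWAlt2
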