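import Mathlib
import Cfsg.Agent.Lib.LWAlt2

/-!
The case where some non-trivial 2-element has exactly `k` fixed points (and none has more).
-/

set_option autoImplicit false
set_option linter.unusedSectionVars false
set_option linter.style.haveILetI false

namespace Cfsg.Agent.Lib.LWAlt3

open Equiv Cfsg.Agent.Lib.LWBasic Cfsg.Agent.Lib.LWAlt1 Cfsg.Agent.Lib.LWAlt2

variable {α : Type*} [Fintype α] [DecidableEq α]

open scoped Classical in
/-- The elements of a subgroup, as a finset. -/
noncomputable def Ufin (U : Subgroup (Perm α)) : Finset (Perm α) :=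
  Finset.univ.filter fun g => g ∈ U

lemma mem_Ufin {U : Subgroup (Perm α)} {g : Perm α} : g ∈ Ufin U ↔ g ∈ U := by simp [Ufin]

lemma card_Ufin (U : Subgroup (Perm α)) : (Ufin U).card = Nat.card U := by
  rw [← Nat.card_eq_finsetCard]
  exact Nat.card_congr (Equiv.subtypeEquivRight fun g => mem_Ufin)

/-- Number of elements of the coset sending a given point to another one. -/
lemma count_pt {U : Subgroup (Perm α)} {g₀ : Perm α} {z : α}
    (hz : g₀⁻¹ z ∈ orbF U z) :
    ((Ufin U).filter fun h => g₀ (h z) = z).card * (orbF U z).card = (Ufin U).card := by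
  obtain ⟨h₀, hh₀, hh₀z⟩ := mem_orbF.mp hz
  have h1 := card_eq_orbF_mul (P := U) (Q := Fx U {z}) (u := z) (fun g => by simp [mem_Fx])
  rw [card_Ufin U, h1, mul_comm]
  congr 1
  rw [← card_Ufin (Fx U {z})]
  refine Finset.card_bij' (fun h _ => h₀⁻¹ * h) (fun h _ => h₀ * h) ?_ ?_ ?_ ?_
  · intro h hh
    rw [Finset.mem_filter, mem_Ufin] at hh
    rw [mem_Ufin]
    refine ⟨U.mul_mem (U.inv_mem hh₀) hh.1, fun a ha => ?_⟩
    rw [Finset.mem_singleton] at ha
    subst ha
    simp only [Perm.mul_apply]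
    rw [Perm.inv_eq_iff_eq, hh₀z, Perm.eq_inv_iff_eq]
    exact hh.2
  · intro h hh
    rw [mem_Ufin] at hh
    rw [Finset.mem_filter, mem_Ufin]
    refine ⟨U.mul_mem hh₀ hh.1, ?_⟩
    simp only [Perm.mul_apply]
    rw [hh.2 z (Finset.mem_singleton_self z), hh₀z]
    simp
  · intro h _
    simp
  · intro h _
    simp

/-- On average a member of `g₀ U` has one fixed point in a stable orbit. -/
lemma sum_fix_orb {U : Subgroup (Perm α)} {g₀ : Perm α} {w : α}
    (hs : Stb g₀⁻¹ (orbF U w)) :
    ∑ h ∈ Ufin U, ((orbF U w).filter fun z => g₀ (h z) = z).card = (Ufin U).card := by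
  classical
  have h1 := Finset.sum_card_bipartiteAbove_eq_sum_card_bipartiteBelow (s := Ufin U)
    (t := orbF U w) (fun h z => g₀ (h z) = z)
  unfold Finset.bipartiteAbove Finset.bipartiteBelow at h1
  rw [h1]
  have hwD : 0 < (orbF U w).card := Finset.card_pos.mpr ⟨w, self_mem_orbF U w⟩
  apply Nat.eq_of_mul_eq_mul_right hwD
  rw [Finset.sum_mul]
  have h2 : ∀ z ∈ orbF U w, ((Ufin U).filter fun h => g₀ (h z) = z).card * (orbF U w).card
      = (Ufin U).card := by
    intro z hz
    have h3 := orbF_eq_of_mem hz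
    have := count_pt (U := U) (g₀ := g₀) (z := z) (by rw [h3]; exact hs z hz)
    rwa [h3] at this
  rw [Finset.sum_congr rfl h2, Finset.sum_const, smul_eq_mul, mul_comm]

/-- If the fixed points in two stable orbits number at most two throughout `g₀ U`, they number
exactly two. -/
lemma forced {U : Subgroup (Perm α)} {g₀ : Perm α} {w w' : α}
    (hs : Stb g₀⁻¹ (orbF U w)) (hs' : Stb g₀⁻¹ (orbF U w'))
    (hle : ∀ h ∈ U, ((orbF U w).filter fun z => g₀ (h z) = z).card +
      ((orbF U w').filter fun z => g₀ (h z) = z).card ≤ 2) :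
    ∀ h ∈ U, ((orbF U w).filter fun z => g₀ (h z) = z).card +
      ((orbF U w').filter fun z => g₀ (h z) = z).card = 2 := by
  have hsum : ∑ h ∈ Ufin U, (((orbF U w).filter fun z => g₀ (h z) = z).card +
      ((orbF U w').filter fun z => g₀ (h z) = z).card) = ∑ _h ∈ Ufin U, 2 := by
    rw [Finset.sum_add_distrib, sum_fix_orb hs, sum_fix_orb hs', Finset.sum_const, smul_eq_mul]
    ring
  have := (Finset.sum_eq_sum_iff_of_le (fun h hh => hle h (mem_Ufin.mp hh))).mp hsum
  exact fun h hh => this h (mem_Ufin.mpr hh)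

variable {G : Subgroup (Perm α)} {k : ℕ}

/-- Extension of a partial map by `k`-transitivity with prescribed image of the remaining set. -/
lemma PT_ext (hPT : PT G k) {A C B₀ : Finset α} (φ : α → α) (hφ : Set.InjOn φ (A : Set α))
    (hAC : Disjoint A C) (hcard : A.card + C.card = k) (hBcard : B₀.card = C.card)
    (hB : ∀ a ∈ A, φ a ∉ B₀) : ∃ ρ ∈ G, (∀ a ∈ A, ρ a = φ a) ∧ C.image ρ = B₀ := by
  classical
  have e : C ≃ B₀ := Finset.equivOfCardEq hBcard.symm
  let F : α → α := fun a => if a ∈ A then φ a else if h : a ∈ C then (e ⟨a, h⟩ : α) else a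
  have hFA : ∀ a ∈ A, F a = φ a := fun a ha => by simp [F, ha]
  have hFC : ∀ a (ha : a ∈ C), F a = e ⟨a, ha⟩ := fun a ha => by
    have : a ∉ A := fun h => (Finset.disjoint_left.mp hAC h) ha
    simp [F, ha, this]
  have hinj : Set.InjOn F (↑(A ∪ C) : Set α) := by
    intro a ha b hb hab
    simp only [Finset.coe_union, Set.mem_union, Finset.mem_coe] at ha hb
    rcases ha with ha | ha <;> rcases hb with hb | hb
    · rw [hFA a ha, hFA b hb] at hab
      exact hφ ha hb hab
    · exfalso
      rw [hFA a ha, hFC b hb] at hab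
      exact hB a ha (hab ▸ (e ⟨b, hb⟩).2)
    · exfalso
      rw [hFC a ha, hFA b hb] at hab
      exact hB b hb (hab ▸ (e ⟨a, ha⟩).2)
    · rw [hFC a ha, hFC b hb] at hab
      have := e.injective (Subtype.ext hab)
      exact congrArg Subtype.val this
  obtain ⟨ρ, hρ, hρ'⟩ := hPT (A ∪ C) F (by rw [Finset.card_union_of_disjoint hAC, hcard]) hinj
  refine ⟨ρ, hρ, fun a ha => ?_, ?_⟩
  · rw [hρ' a (Finset.mem_union_left _ ha), hFA a ha]
  · apply Finset.eq_of_subset_of_card_le
    · intro b hb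
      obtain ⟨c, hc, rfl⟩ := Finset.mem_image.mp hb
      rw [hρ' c (Finset.mem_union_right _ hc), hFC c hc]
      exact (e ⟨c, hc⟩).2
    · rw [Finset.card_image_of_injective _ ρ.injective, hBcard]

/-- Transposition rule in the case of 2-elements with exactly `k` fixed points. -/
theorem rule_I (hk : 4 ≤ k) (hkn : k < Fintype.card α) (hPT : PT G k)
    (hb : ∀ g ∈ G, IsTwo g → g ≠ 1 → (Fix g).card ≤ k)
    (hq : ∀ S : Finset α, S.card = k → ∃ q ∈ G, IsTwo q ∧ q ≠ 1 ∧ Fix q = S)
    {Δ : Finset α} (hΔ : Δ.card = k + 1) {u v x y : α} (hu : u ∈ Δ) (hv : v ∈ Δ) (hx : x ∈ Δ)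
    (hy : y ∈ Δ) (huv : u ≠ v) (hxy : x ≠ y) (hxu : x ≠ u) (hxv : x ≠ v) (hyu : y ≠ u)
    (hyv : y ≠ v) (h0 : TR G Δ u v) : TR G Δ x y := by
  obtain ⟨g₀, hg₀, hg₀t, hg₀u, hg₀v, hg₀f⟩ := h0
  obtain ⟨w, hw, hwu, hwv, hwx, hwy, hΓ, hwΓ, huΓ, hvΓ, hxΓ, hyΓ, hg₀w, hon, hsg, t, ht, htt,
    hton, hst, hcomm⟩ := rule_frame hk hPT hΔ hu hv hx hy hxu hxv hyu hyv hg₀u hg₀v hg₀f
  set Γ := Δ.erase w with hΓdef
  set U := Fx G Γ with hU
  by_cases hcase : t w ∈ orbF U w
  · obtain ⟨u', hu', hu'w⟩ := mem_orbF.mp hcase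
    refine TR_of_on (w := w) (G.mul_mem (G.inv_mem hu'.1) ht) ?_ hxΓ hyΓ fun a ha => ?_
    · simp only [Perm.mul_apply]
      rw [Perm.inv_eq_iff_eq, hu'w]
    · simp only [Perm.mul_apply]
      rw [Perm.inv_eq_iff_eq, ← hton a ha, hu'.2 _ (hst a ha)]
  exfalso
  have hsx : Stb (swap x y) Γ := stb_swap hxΓ hyΓ
  have hsu : Stb (swap u v) Γ := stb_swap huΓ hvΓ
  have hw' : t w ∉ Γ := fun hc => hwΓ ((hst.mem_iff w).mp hc)
  -- orbits outside `Γ` are even
  have heven : ∀ z, z ∉ Γ → (orbF U z).card % 2 = 0 := by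
    intro z hz
    obtain ⟨q, hqG, hqt, _, hqF⟩ := hq Γ hΓ
    have hqU : q ∈ U := ⟨hqG, fun a ha => by
      rw [← hqF] at ha
      exact mem_Fix.mp ha⟩
    have hstq : Stb q (orbF U z) := fun a ha => apply_mem_orbF' hqU ha
    have h1 := parity hqt _ hstq
    have h2 : ((orbF U z).filter fun a => q a = a) = ∅ := by
      rw [Finset.filter_eq_empty_iff]
      intro a ha hc
      have : a ∈ Fix q := mem_Fix.mpr hc
      rw [hqF] at this
      exact orb_notMem hz ha this
    rw [h2] at h1
    simp only [Finset.card_empty] at h1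
    omega
  set D := orbF U w with hD
  set D' := orbF U (t w) with hD'
  have hstD0 : Stb g₀ D := orb_stb_of_mem hg₀ hsg (by rw [hg₀w]; exact self_mem_orbF U w)
  have hstD'0 : Stb g₀ D' := stb_orb_of_comm hg₀ ht hsg hst hg₀w hcomm
  have hstD : ∀ h ∈ U, Stb (g₀ * h) D := fun h hh a ha => hstD0 _ (apply_mem_orbF' hh ha)
  have hstD' : ∀ h ∈ U, Stb (g₀ * h) D' := fun h hh a ha => hstD'0 _ (apply_mem_orbF' hh ha)
  have hDout : ∀ z ∈ D, z ∉ Γ := fun z hz => orb_notMem hwΓ hz
  have hD'out : ∀ z ∈ D', z ∉ Γ := fun z hz => orb_notMem hw' hz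
  have hdisj : Disjoint D D' := orb_disjoint hcase
  -- at most two fixed points
  have hle : ∀ h ∈ U, (D.filter fun z => g₀ (h z) = z).card +
      (D'.filter fun z => g₀ (h z) = z).card ≤ 2 := by
    intro h hh
    have hgG : g₀ * h ∈ G := G.mul_mem hg₀ hh.1
    obtain ⟨g', hg', hg't, hg'fix, hg'inv⟩ := twoPart_mem hgG
    have hgon : ∀ a ∈ Γ, (g₀ * h) a = swap u v a := by
      intro a ha
      simp only [Perm.mul_apply]
      rw [hh.2 a ha, hon a ha]
    have hg'1 : g' ≠ 1 := by
      intro hc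
      have h1 := hg'inv u (by rw [hgon u huΓ, swap_apply_left, hgon v hvΓ, swap_apply_right])
      rw [hc, hgon u huΓ, swap_apply_left] at h1
      exact huv h1
    have h2 := hb g' hg' hg't hg'1
    set A := D.filter fun z => g₀ (h z) = z with hA
    set B := D'.filter fun z => g₀ (h z) = z with hB
    have hAB : Disjoint A B := Finset.disjoint_of_subset_left (Finset.filter_subset _ _)
      (Finset.disjoint_of_subset_right (Finset.filter_subset _ _) hdisj)
    have hΓ₀ : ((Γ.erase u).erase v).card + 2 = k := by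
      rw [Finset.card_erase_of_mem (Finset.mem_erase.mpr ⟨huv.symm, hvΓ⟩),
        Finset.card_erase_of_mem huΓ, hΓ]
      omega
    have hsub : (A ∪ B) ∪ (Γ.erase u).erase v ⊆ Fix g' := by
      intro a ha
      rw [Finset.mem_union, Finset.mem_union, Finset.mem_erase, Finset.mem_erase] at ha
      refine mem_Fix.mpr (hg'fix a ?_)
      rcases ha with (ha | ha) | ⟨h5, h6, h7⟩
      · exact (Finset.mem_filter.mp ha).2
      · exact (Finset.mem_filter.mp ha).2
      · rw [hgon a h7, swap_apply_of_ne_of_ne h6 h5]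
    have hdisj2 : Disjoint (A ∪ B) ((Γ.erase u).erase v) := by
      rw [Finset.disjoint_left]
      intro a ha hc
      have haΓ : a ∈ Γ := Finset.mem_of_mem_erase (Finset.mem_of_mem_erase hc)
      rw [Finset.mem_union] at ha
      rcases ha with ha | ha
      · exact hDout a (Finset.mem_filter.mp ha).1 haΓ
      · exact hD'out a (Finset.mem_filter.mp ha).1 haΓ
    have h3 := Finset.card_le_card hsub
    rw [Finset.card_union_of_disjoint hdisj2, Finset.card_union_of_disjoint hAB] at h3
    omega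
  have hcount : ∀ h ∈ U, (D.filter fun z => g₀ (h z) = z).card +
      (D'.filter fun z => g₀ (h z) = z).card = 2 := forced (U := U) (g₀ := g₀) (w := w) (w' := t w)
    (hstD0.inv) (hstD'0.inv) hle
  -- every 2-element of the coset is an involution
  have hinv : ∀ g ∈ G, IsTwo g → (∀ a ∈ Γ, g a = swap u v a) → g * g = 1 := by
    intro g hgG hgt hgon
    have hh : g₀⁻¹ * g ∈ U := mem_Fx_of_same hg₀ hgG hon hgon
    have h1 := hcount _ hh
    have h2 : ∃ z, z ∉ Γ ∧ g z = z := by
      have h3 : 0 < (D.filter fun z => g₀ ((g₀⁻¹ * g) z) = z).card +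
          (D'.filter fun z => g₀ ((g₀⁻¹ * g) z) = z).card := by omega
      rcases Nat.eq_zero_or_pos (D.filter fun z => g₀ ((g₀⁻¹ * g) z) = z).card with h4 | h4
      · have h5 : 0 < (D'.filter fun z => g₀ ((g₀⁻¹ * g) z) = z).card := by omega
        obtain ⟨z, hz⟩ := Finset.card_pos.mp h5
        rw [Finset.mem_filter] at hz
        exact ⟨z, hD'out z hz.1, by simpa using hz.2⟩
      · obtain ⟨z, hz⟩ := Finset.card_pos.mp h4
        rw [Finset.mem_filter] at hz
        exact ⟨z, hDout z hz.1, by simpa using hz.2⟩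
    obtain ⟨z, hzΓ, hz⟩ := h2
    by_contra hc
    have h3 := hb (g * g) (G.mul_mem hgG hgG) (by rw [← pow_two]; exact hgt.pow 2) hc
    have hsub : insert z Γ ⊆ Fix (g * g) := by
      intro a ha
      rw [Finset.mem_insert] at ha
      simp only [mem_Fix, Perm.mul_apply]
      rcases ha with rfl | ha
      · rw [hz, hz]
      · rw [hgon a ha, hgon _ (hsu a ha)]
        simp
    have h4 := Finset.card_le_card hsub
    rw [Finset.card_insert_of_notMem hzΓ, hΓ] at h4
    omega
  have hg₀2 : g₀ * g₀ = 1 := hinv g₀ hg₀ hg₀t hon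
  have hg₀2' : ∀ a, g₀ (g₀ a) = a := fun a => by
    have := congrArg (fun p : Perm α => p a) hg₀2
    simpa using this
  -- the same for lifts of the other transposition
  have hinv' : ∀ g ∈ G, IsTwo g → (∀ a ∈ Γ, g a = swap x y a) → g * g = 1 := by
    intro g hgG hgt hgon
    let τ : Perm α := swap u x * swap v y
    have hτu : τ u = x := by
      simp only [τ, Perm.mul_apply]
      rw [swap_apply_of_ne_of_ne huv hyu.symm, swap_apply_left]
    have hτv : τ v = y := by
      simp only [τ, Perm.mul_apply]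
      rw [swap_apply_left, swap_apply_of_ne_of_ne hyu hxy.symm]
    have hτs : Stb τ Γ := (stb_swap huΓ hxΓ).mul (stb_swap hvΓ hyΓ)
    obtain ⟨ρ, hρ, hρon⟩ := hPT Γ τ hΓ τ.injective.injOn
    have h2 : ∀ a ∈ Γ, (ρ⁻¹ * g * ρ) a = swap u v a := by
      intro a ha
      have h3 : swap u v = τ⁻¹ * swap x y * τ := by
        have := swap_apply_apply τ⁻¹ x y
        rw [inv_inv] at this
        rw [← this]
        congr 1
        · rw [Perm.eq_inv_iff_eq]; exact hτu
        · rw [Perm.eq_inv_iff_eq]; exact hτv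
      rw [h3]
      simp only [Perm.mul_apply]
      rw [hρon a ha, hgon _ (hτs a ha), on_inv hτs hρon _ (hsx _ (hτs a ha))]
    have h3 := hinv (ρ⁻¹ * g * ρ) (G.mul_mem (G.mul_mem (G.inv_mem hρ) hgG) hρ)
      (by simpa using hgt.conj ρ⁻¹) h2
    have h4 : ρ⁻¹ * g * ρ * (ρ⁻¹ * g * ρ) = ρ⁻¹ * (g * g) * ρ := by group
    rw [h4] at h3
    have h5 : g * g = ρ * (ρ⁻¹ * (g * g) * ρ) * ρ⁻¹ := by group
    rw [h5, h3]
    group
  -- there are at least four points outside `Γ`
  have hDpos : 0 < D.card := Finset.card_pos.mpr ⟨w, self_mem_orbF U w⟩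
  have hD'pos : 0 < D'.card := Finset.card_pos.mpr ⟨t w, self_mem_orbF U (t w)⟩
  have hDev : D.card % 2 = 0 := heven w hwΓ
  have hD'ev : D'.card % 2 = 0 := heven (t w) hw'
  have hfour : k + 4 ≤ Fintype.card α := by
    have h1 : D ∪ D' ⊆ Γᶜ := by
      intro a ha
      rw [Finset.mem_union] at ha
      rw [Finset.mem_compl]
      rcases ha with ha | ha
      · exact hDout a ha
      · exact hD'out a ha
    have h2 := Finset.card_le_card h1
    rw [Finset.card_union_of_disjoint hdisj, Finset.card_compl, hΓ] at h2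
    omega
  -- a point moved by `g₀` other than `u, v`
  have hg₀1 : g₀ ≠ 1 := by
    intro hc
    rw [hc] at hg₀u
    exact huv hg₀u
  have hFixg₀ := hb g₀ hg₀ hg₀t hg₀1
  obtain ⟨e, _, heT⟩ := exists_avoid (T := insert u (insert v (Fix g₀)))
    (Δ := Finset.univ) (by
      have h1 : (insert u (insert v (Fix g₀))).card ≤ (Fix g₀).card + 2 :=
        (Finset.card_insert_le _ _).trans (Nat.succ_le_succ (Finset.card_insert_le _ _))
      rw [Finset.card_univ]
      omega)
  simp only [Finset.mem_insert, not_or, mem_Fix] at heT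
  obtain ⟨heu, hev, hefix⟩ := heT
  set f := g₀ e with hf
  have hgf : g₀ f = e := hg₀2' e
  have hfe : f ≠ e := hefix
  have hfu : f ≠ u := by
    intro h
    apply hev
    have := congrArg g₀ h
    rw [hgf, hg₀u] at this
    exact this
  have hfv : f ≠ v := by
    intro h
    apply heu
    have := congrArg g₀ h
    rw [hgf, hg₀v] at this
    exact this
  -- the conjugator
  have hΔuv : ((Δ.erase u).erase v).card + 2 = k + 1 := by
    rw [Finset.card_erase_of_mem (Finset.mem_erase.mpr ⟨huv.symm, hv⟩),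
      Finset.card_erase_of_mem hu, hΔ]
    omega
  obtain ⟨C, hCsub, hCcard⟩ := Finset.exists_subset_card_eq (s := (Δ.erase u).erase v)
    (n := k - 4) (by omega)
  have hCfix : ∀ c ∈ C, g₀ c = c := by
    intro c hc
    have := hCsub hc
    rw [Finset.mem_erase, Finset.mem_erase] at this
    exact hg₀f c this.2.2 this.2.1 this.1
  have hCne : ∀ c ∈ C, c ≠ u ∧ c ≠ v ∧ c ≠ e ∧ c ≠ f := by
    intro c hc
    have h1 := hCsub hc
    rw [Finset.mem_erase, Finset.mem_erase] at h1
    refine ⟨h1.2.1, h1.1, ?_, ?_⟩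
    · rintro rfl
      exact hefix (hCfix _ hc)
    · intro h
      have h2 := hCfix c hc
      rw [h, hgf] at h2
      exact hfe h2.symm
  set B₀ := Γ \ {u, v, x, y} with hB₀
  have hsub4 : ({u, v, x, y} : Finset α) ⊆ Γ := by
    intro c hc
    simp only [Finset.mem_insert, Finset.mem_singleton] at hc
    rcases hc with rfl | rfl | rfl | rfl <;> assumption
  have hcard4 : ({u, v, x, y} : Finset α).card = 4 := by
    rw [Finset.card_eq_succ]
    refine ⟨u, {v, x, y}, by simp [huv, hxu.symm, hyu.symm], rfl, ?_⟩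
    rw [Finset.card_eq_three]
    exact ⟨v, x, y, hxv.symm, hyv.symm, hxy, rfl⟩
  have hB₀card : B₀.card = C.card := by
    rw [hB₀, Finset.card_sdiff_of_subset hsub4, hcard4, hΓ, hCcard]
  have hA4 : ({u, v, e, f} : Finset α).card = 4 := by
    rw [Finset.card_eq_succ]
    refine ⟨u, {v, e, f}, by simp [huv, Ne.symm heu, Ne.symm hfu], rfl, ?_⟩
    rw [Finset.card_eq_three]
    exact ⟨v, e, f, Ne.symm hev, Ne.symm hfv, Ne.symm hfe, rfl⟩
  let φ : α → α := fun a => if a = u then u else if a = v then v else if a = e then x else y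
  have hφu : φ u = u := by simp [φ]
  have hφv : φ v = v := by simp [φ, huv.symm]
  have hφe : φ e = x := by simp [φ, heu, hev]
  have hφf : φ f = y := by simp [φ, hfu, hfv, hfe]
  obtain ⟨ρ, hρ, hρA, hρC⟩ := PT_ext hPT (A := {u, v, e, f}) (C := C) (B₀ := B₀) φ (by
      intro a ha b hb hab
      simp only [Finset.coe_insert, Finset.coe_singleton, Set.mem_insert_iff,
        Set.mem_singleton_iff] at ha hb
      rcases ha with rfl | rfl | rfl | rfl <;> rcases hb with rfl | rfl | rfl | rfl <;>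
        first
        | rfl
        | (exfalso
           simp only [hφu, hφv, hφe, hφf] at hab
           first
           | exact huv hab
           | exact huv hab.symm
           | exact hxu hab
           | exact hxu hab.symm
           | exact hyu hab
           | exact hyu hab.symm
           | exact hxv hab
           | exact hxv hab.symm
           | exact hyv hab
           | exact hyv hab.symm
           | exact hxy hab
           | exact hxy hab.symm))
      (by
        rw [Finset.disjoint_left]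
        intro c hc hc'
        simp only [Finset.mem_insert, Finset.mem_singleton] at hc
        have := hCne c hc'
        tauto)
      (by rw [hA4, hCcard]; omega) hB₀card (by
        intro a ha
        simp only [Finset.mem_insert, Finset.mem_singleton] at ha
        simp only [hB₀, Finset.mem_sdiff, Finset.mem_insert, Finset.mem_singleton, not_and, not_not]
        rcases ha with rfl | rfl | rfl | rfl
        · intro _; rw [hφu]; simp
        · intro _; rw [hφv]; simp
        · intro _; rw [hφe]; simp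
        · intro _; rw [hφf]; simp)
  have hρu : ρ u = u := by rw [hρA u (by simp), hφu]
  have hρv : ρ v = v := by rw [hρA v (by simp), hφv]
  have hρe : ρ e = x := by rw [hρA e (by simp), hφe]
  have hρf : ρ f = y := by rw [hρA f (by simp), hφf]
  let j : Perm α := ρ * g₀ * ρ⁻¹
  have hjG : j ∈ G := G.mul_mem (G.mul_mem hρ hg₀) (G.inv_mem hρ)
  have hjt : IsTwo j := hg₀t.conj ρ
  have hjj : j * j = 1 := by
    have : j * j = ρ * (g₀ * g₀) * ρ⁻¹ := by
      simp only [j]
      group
    rw [this, hg₀2]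
    group
  have hρinv : ∀ a b, ρ a = b → ρ⁻¹ b = a := fun a b h => by
    rw [Perm.inv_eq_iff_eq, h]
  have hjon : ∀ a ∈ Γ, j a = (swap u v * swap x y) a := by
    intro a ha
    simp only [j, Perm.mul_apply]
    by_cases hau : a = u
    · rw [hau, hρinv _ _ hρu, hg₀u, hρv, swap_apply_of_ne_of_ne hxu.symm hyu.symm, swap_apply_left]
    · by_cases hav : a = v
      · rw [hav, hρinv _ _ hρv, hg₀v, hρu, swap_apply_of_ne_of_ne hxv.symm hyv.symm,
          swap_apply_right]
      · by_cases hax : a = x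
        · rw [hax, hρinv _ _ hρe, ← hf, hρf, swap_apply_left, swap_apply_of_ne_of_ne hyu hyv]
        · by_cases hay : a = y
          · rw [hay, hρinv _ _ hρf, hgf, hρe, swap_apply_right, swap_apply_of_ne_of_ne hxu hxv]
          · have haB : a ∈ B₀ := by
              simp only [hB₀, Finset.mem_sdiff, Finset.mem_insert, Finset.mem_singleton, not_or]
              exact ⟨ha, hau, hav, hax, hay⟩
            rw [← hρC] at haB
            obtain ⟨c, hc, rfl⟩ := Finset.mem_image.mp haB
            rw [hρinv _ _ rfl, hCfix c hc, swap_apply_of_ne_of_ne hax hay,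
              swap_apply_of_ne_of_ne hau hav]
  have hsσ₁ : Stb (swap u v * swap x y) Γ := hsu.mul hsx
  have hcomm0 : swap u v * swap x y = swap x y * swap u v := by
    ext a
    simp only [Perm.mul_apply]
    rw [swap_comm_apply hxu hxv hyu hyv a]
  have hσ₁₁ : swap u v * swap x y * (swap u v * swap x y) = 1 := by
    rw [mul_assoc, ← mul_assoc (swap x y), ← hcomm0, mul_assoc, swap_mul_self, mul_one,
      swap_mul_self]
  have hσ₁₂ : swap u v * swap x y * swap u v = swap u v * (swap u v * swap x y) := by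
    rw [mul_assoc, ← hcomm0]
  obtain ⟨t₁, ht₁, ht₁on, ht₁t, ht₁j⟩ := two_lift hsσ₁ hsu hσ₁₁ (swap_mul_self u v) hσ₁₂
    ⟨u, huΓ, by rw [swap_apply_left]; exact huv.symm⟩
    ⟨x, hxΓ, by
      simp only [Perm.mul_apply]
      rw [swap_apply_of_ne_of_ne hxu hxv, swap_apply_left, swap_apply_of_ne_of_ne hyu hyv]
      exact hxy⟩ hjG hg₀ hjon hon hjt
  -- `t₂ = t₁ j` lifts `(x y)`
  let t₂ : Perm α := t₁ * j
  have ht₂ : t₂ ∈ G := G.mul_mem ht₁ hjG
  have ht₂on : ∀ a ∈ Γ, t₂ a = swap x y a := by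
    intro a ha
    simp only [t₂, Perm.mul_apply]
    rw [hjon a ha, ht₁on _ (hsσ₁ a ha)]
    simp
  have ht₁1 : t₁ * t₁ = 1 := hinv t₁ ht₁ ht₁t ht₁on
  have ht₂1 : t₂ * t₂ = 1 := hinv' t₂ ht₂ ht₁j ht₂on
  have hst₂ : Stb t₂ Γ := Stb_of_on hsx ht₂on
  have hcomm12 : ∀ a, t₁ (t₂ a) = t₂ (t₁ a) := by
    have h1 : t₁ * t₂ = j := by
      simp only [t₂]
      rw [← mul_assoc, ht₁1, one_mul]
    have h2 : t₂ * t₁ = j := by
      have hjinv : j⁻¹ = j := inv_eq_of_mul_eq_one_left hjj
      have h3 : t₁ * j * t₁ = j⁻¹ := by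
        apply eq_inv_of_mul_eq_one_left
        exact ht₂1
      rw [hjinv] at h3
      exact h3
    intro a
    have h3 : (t₁ * t₂) a = (t₂ * t₁) a := by rw [h1, h2]
    simpa using h3
  -- the fixed points of `t₁`
  have hh₁ : g₀⁻¹ * t₁ ∈ U := mem_Fx_of_same hg₀ ht₁ hon ht₁on
  have hc₁ := hcount _ hh₁
  have hh₁eq : g₀ * (g₀⁻¹ * t₁) = t₁ := by group
  have hst₁D : Stb t₁ D := by
    have := hstD _ hh₁
    rwa [hh₁eq] at this
  have hst₁D' : Stb t₁ D' := by
    have := hstD' _ hh₁
    rwa [hh₁eq] at this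
  have hfilter : ∀ S : Finset α, (S.filter fun z => g₀ ((g₀⁻¹ * t₁) z) = z) =
      S.filter fun z => t₁ z = z := by
    intro S
    apply Finset.filter_congr
    intro z _
    simp
  rw [hfilter D, hfilter D'] at hc₁
  have hpar := parity ht₁t D hst₁D
  have hD1 : t₂ w ∈ D' := by
    have h1 : t₂ * t⁻¹ ∈ U := mem_Fx_of_same' ht₂ ht hsx ht₂on hton
    have h2 := apply_mem_orbF h1 (t w)
    simpa using h2
  have hD2 : t₂ (t w) ∈ D := by
    have h1 : t₂ * t ∈ U := by
      refine ⟨G.mul_mem ht₂ ht, fun a ha => ?_⟩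
      simp only [Perm.mul_apply]
      rw [hton a ha, ht₂on _ (hsx a ha)]
      simp
    exact apply_mem_orbF h1 w
  have hle1 : (D.filter fun z => t₁ z = z).card ≤ (D'.filter fun z => t₁ z = z).card := by
    apply Finset.card_le_card_of_injOn t₂
    · intro z hz
      rw [Finset.mem_coe, Finset.mem_filter] at hz ⊢
      refine ⟨?_, by rw [hcomm12, hz.2]⟩
      have h1 := orb_image ht₂ hst₂ hz.1
      rw [orbF_eq_of_mem hD1] at h1
      exact h1
    · exact t₂.injective.injOn
  have hle2 : (D'.filter fun z => t₁ z = z).card ≤ (D.filter fun z => t₁ z = z).card := by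
    apply Finset.card_le_card_of_injOn t₂
    · intro z hz
      rw [Finset.mem_coe, Finset.mem_filter] at hz ⊢
      refine ⟨?_, by rw [hcomm12, hz.2]⟩
      have h1 := orb_image ht₂ hst₂ hz.1
      rw [orbF_eq_of_mem hD2] at h1
      exact h1
    · exact t₂.injective.injOn
  omega

/-- Case where a non-trivial 2-element fixes exactly `k` points. -/
theorem case_I (hk : 4 ≤ k) (hkn : k < Fintype.card α) (hPT : PT G k)
    (hb : ∀ g ∈ G, IsTwo g → g ≠ 1 → (Fix g).card ≤ k)
    (hι : ∃ ι ∈ G, IsTwo ι ∧ ι ≠ 1 ∧ (Fix ι).card = k) :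
    ∃ Δ : Finset α, Δ.card = k + 1 ∧ A3 G Δ := by
  obtain ⟨ι, hιG, hιt, hι1, hιF⟩ := hι
  have hq : ∀ S : Finset α, S.card = k → ∃ q ∈ G, IsTwo q ∧ q ≠ 1 ∧ Fix q = S := by
    intro S hS
    obtain ⟨g, hg, hgS⟩ := hPT.HG (Fix ι) S hιF hS
    refine ⟨g * ι * g⁻¹, G.mul_mem (G.mul_mem hg hιG) (G.inv_mem hg), hιt.conj g, ?_, ?_⟩
    · intro h
      apply hι1
      have h2 : ι = g⁻¹ * (g * ι * g⁻¹) * g := by group
      rw [h2, h]
      group
    · rw [← hgS]
      ext a
      simp only [mem_Fix, Finset.mem_image, Perm.mul_apply]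
      constructor
      · intro h
        refine ⟨g⁻¹ a, ?_, by simp⟩
        rw [Perm.eq_inv_iff_eq.symm] at h
        exact h
      · rintro ⟨b, hb', rfl⟩
        simp [hb']
  obtain ⟨s, hs1, hs2⟩ := exists_invol hιt hι1
  set i := ι ^ (2 ^ s) with hi
  have hiG : i ∈ G := G.pow_mem hιG _
  have hit : IsTwo i := hιt.pow _
  have hii : ∀ a, i (i a) = a := fun a => by
    have := congrArg (fun p : Perm α => p a) hs2
    simpa using this
  obtain ⟨u, hu⟩ : ∃ u, i u ≠ u := by
    by_contra hc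
    push Not at hc
    exact hs1 (Equiv.ext hc)
  have hSfix : ∀ a ∈ Fix ι, i a = a := fun a ha => fix_pow (mem_Fix.mp ha) _
  have huS : u ∉ Fix ι := fun h => hu (hSfix u h)
  have hvS : i u ∉ Fix ι := fun h => by
    have := hSfix _ h
    rw [hii] at this
    exact hu this.symm
  obtain ⟨z, hz⟩ : (Fix ι).Nonempty := by
    rw [← Finset.card_pos]
    omega
  set Δ := insert u (insert (i u) ((Fix ι).erase z)) with hΔdef
  have hΔ : Δ.card = k + 1 := by
    rw [hΔdef, Finset.card_insert_of_notMem, Finset.card_insert_of_notMem,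
      Finset.card_erase_of_mem hz, hιF]
    · omega
    · exact fun h => hvS (Finset.mem_of_mem_erase h)
    · simp only [Finset.mem_insert, not_or]
      exact ⟨hu.symm, fun h => huS (Finset.mem_of_mem_erase h)⟩
  refine ⟨Δ, hΔ, ?_⟩
  refine A3_of_rule (by omega) (fun a b c d ha hb' hc hd hab hcd hca hcb hda hdb h =>
    rule_I hk hkn hPT hb hq hΔ ha hb' hc hd hab hcd hca hcb hda hdb h) (u := u) (v := i u)
    (by simp [hΔdef]) (by simp [hΔdef]) hu.symm ⟨i, hiG, hit, rfl, hii u, ?_⟩
  intro x hx hxu hxv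
  simp only [hΔdef, Finset.mem_insert, not_or] at hx
  rcases hx with h | h | h
  · exact absurd h hxu
  · exact absurd h hxv
  · exact hSfix x (Finset.mem_of_mem_erase h)

/-- The core: all non-trivial 2-elements fix at most `k` points. -/
theorem core (hk : 4 ≤ k) (hkn : k < Fintype.card α) (hPT : PT G k)
    (hb : ∀ g ∈ G, IsTwo g → g ≠ 1 → (Fix g).card ≤ k) :
    ∃ Δ : Finset α, Δ.card = k + 1 ∧ A3 G Δ := by
  by_cases h : ∃ ι ∈ G, IsTwo ι ∧ ι ≠ 1 ∧ (Fix ι).card = k
  · exact case_I hk hkn hPT hb h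
  · push Not at h
    have hb' : ∀ g ∈ G, IsTwo g → g ≠ 1 → (Fix g).card < k := fun g hg ht h1 =>
      lt_of_le_of_ne (hb g hg ht h1) (h g hg ht h1)
    by_cases hodd : (Fintype.card α - k) % 2 = 1
    · exact case_odd hk hkn hPT hb' hodd
    · exact case_even hk hkn hPT hb' (by omega)

end Cfsg.Agent.Lib.LWAlt3
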