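import Mathlib
import Cfsg.Agent.Lib.LWAlt3

/-!
The reduction to the case where non-trivial 2-elements fix at most `k` points: Witt's lemma type
argument on the normaliser of a maximal 2-subgroup with many fixed points.
-/

set_option autoImplicit false
set_option linter.unusedSectionVars false
set_option linter.style.haveILetI false

namespace Cfsg.Agent.Lib.LWAlt4

open Equiv Cfsg.Agent.Lib.LWBasic Cfsg.Agent.Lib.LWAlt1 Cfsg.Agent.Lib.LWAlt2
open scoped Pointwise

variable {α : Type*} [Fintype α] [DecidableEq α]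

lemma pgroup_zpowers {g : Perm α} (h : IsTwo g) : IsPGroup 2 (Subgroup.zpowers g) := by
  haveI : Fact (Nat.Prime 2) := ⟨Nat.prime_two⟩
  obtain ⟨m, hm⟩ := h
  rw [IsPGroup.iff_card]
  have hod : orderOf g ∣ 2 ^ m := orderOf_dvd_of_pow_eq_one hm
  obtain ⟨r, _, hr⟩ := (Nat.dvd_prime_pow Nat.prime_two).mp hod
  exact ⟨r, by rw [Nat.card_zpowers, hr]⟩

lemma isTwo_of_pgroup {P : Subgroup (Perm α)} (hp : IsPGroup 2 P) {g : Perm α} (hg : g ∈ P) :
    IsTwo g := by
  obtain ⟨m, hm⟩ := hp ⟨g, hg⟩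
  exact ⟨m, by simpa using congrArg Subtype.val hm⟩

/-- Conjugate subgroup. -/
noncomputable def conjSub (x : Perm α) (R : Subgroup (Perm α)) : Subgroup (Perm α) :=
  R.map (MulAut.conj x).toMonoidHom

lemma mem_conjSub {x h : Perm α} {R : Subgroup (Perm α)} : h ∈ conjSub x R ↔ x⁻¹ * h * x ∈ R := by
  unfold conjSub
  constructor
  · rintro ⟨r, hr, rfl⟩
    simpa [mul_assoc] using hr
  · intro hh
    exact ⟨_, hh, by simp [mul_assoc]⟩

lemma conj_mem_conjSub {x h : Perm α} {R : Subgroup (Perm α)} (hh : h ∈ R) :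
    x * h * x⁻¹ ∈ conjSub x R := by
  rw [mem_conjSub]
  simpa [mul_assoc] using hh

lemma card_conjSub (x : Perm α) (R : Subgroup (Perm α)) : Nat.card (conjSub x R) = Nat.card R :=
  Subgroup.card_map_of_injective (MulAut.conj x).injective

lemma pgroup_conjSub (x : Perm α) {R : Subgroup (Perm α)} (h : IsPGroup 2 R) :
    IsPGroup 2 (conjSub x R) := h.map _

lemma normalizer_of_conj_le {R : Subgroup (Perm α)} {g : Perm α} (h : ∀ r ∈ R, g * r * g⁻¹ ∈ R) :
    g ∈ (Subgroup.normalizer (R : Set (Perm α))) := by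
  have h1 : conjSub g R ≤ R := by
    intro y hy
    rw [mem_conjSub] at hy
    have := h _ hy
    simpa [mul_assoc] using this
  have h2 : conjSub g R = R := Subgroup.eq_of_le_of_card_ge h1 (by rw [card_conjSub])
  rw [Subgroup.mem_normalizer_iff]
  intro r
  constructor
  · exact h r
  · intro hr
    rw [← h2, mem_conjSub] at hr
    simpa [mul_assoc] using hr

lemma conj_mem_of_normalizer {R : Subgroup (Perm α)} {g r : Perm α} (hg : g ∈ (Subgroup.normalizer (R : Set (Perm α))))
    (hr : r ∈ R) : g * r * g⁻¹ ∈ R :=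
  (Subgroup.mem_normalizer_iff.mp hg r).mp hr

/-- Sylow conjugacy, in the subgroup language. -/
lemma sylow_conj {T P₁ P₂ : Subgroup (Perm α)} (h1 : P₁ ≤ T) (h2 : P₂ ≤ T) (hp1 : IsPGroup 2 P₁)
    (hp2 : IsPGroup 2 P₂) (hcard : Nat.card P₁ = Nat.card P₂)
    (hmax : ∀ Q ≤ T, IsPGroup 2 Q → Nat.card Q ≤ Nat.card P₁) :
    ∃ y ∈ T, ∀ h ∈ P₂, y * h * y⁻¹ ∈ P₁ := by
  haveI : Fact (Nat.Prime 2) := ⟨Nat.prime_two⟩
  have key : ∀ P : Subgroup (Perm α), P ≤ T → IsPGroup 2 P → Nat.card P = Nat.card P₁ →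
      ∃ S : Sylow 2 T, S.1 = P.subgroupOf T := by
    intro P hP hpP hcP
    have hp' : IsPGroup 2 (P.subgroupOf T) := hpP.of_equiv (Subgroup.subgroupOfEquivOfLe hP).symm
    obtain ⟨S, hS⟩ := hp'.exists_le_sylow
    refine ⟨S, ?_⟩
    symm
    apply Subgroup.eq_of_le_of_card_ge hS
    have h3 := hmax (S.1.map T.subtype) (by
      rintro _ ⟨x, _, rfl⟩
      exact x.2) (S.isPGroup'.map _)
    rw [Subgroup.card_map_of_injective T.subtype_injective] at h3
    have h4 : Nat.card (P.subgroupOf T) = Nat.card P :=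
      Nat.card_congr (Subgroup.subgroupOfEquivOfLe hP).toEquiv
    rw [h4, hcP]
    exact h3
  obtain ⟨S₁, hS₁⟩ := key P₁ h1 hp1 rfl
  obtain ⟨S₂, hS₂⟩ := key P₂ h2 hp2 hcard.symm
  obtain ⟨y, hy⟩ := MulAction.exists_smul_eq T S₂ S₁
  refine ⟨y, y.2, fun h hh => ?_⟩
  have h3 : (⟨h, h2 hh⟩ : T) ∈ S₂.1 := by
    rw [hS₂]
    exact hh
  have h4 : MulAut.conj y • (⟨h, h2 hh⟩ : T) ∈ MulAut.conj y • S₂.1 :=
    Subgroup.smul_mem_pointwise_smul _ _ _ h3
  have h5 : MulAut.conj y • S₂.1 = S₁.1 := by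
    rw [← hy]
    rfl
  rw [h5, hS₁] at h4
  exact h4

/-- Growth in a 2-group. -/
lemma exists_normalizing_of_lt {S R : Subgroup (Perm α)} (hRS : R ≤ S) (hp : IsPGroup 2 S)
    (hne : R ≠ S) : ∃ ι ∈ S, ι ∉ R ∧ ι ∈ (Subgroup.normalizer (R : Set (Perm α))) := by
  haveI : Fact (Nat.Prime 2) := ⟨Nat.prime_two⟩
  haveI : Group.IsNilpotent S := hp.isNilpotent
  have hlt : R.subgroupOf S < ⊤ := by
    rw [lt_top_iff_ne_top]
    intro hc
    apply hne
    apply le_antisymm hRS
    intro x hx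
    have : (⟨x, hx⟩ : S) ∈ R.subgroupOf S := by rw [hc]; trivial
    exact this
  obtain ⟨x, hx, hxR⟩ := SetLike.exists_of_lt (Group.normalizerCondition_of_isNilpotent _ hlt)
  refine ⟨x, x.2, hxR, normalizer_of_conj_le fun r hr => ?_⟩
  have hrS : (⟨r, hRS hr⟩ : S) ∈ R.subgroupOf S := hr
  have := (Subgroup.mem_normalizer_iff.mp hx _).mp hrS
  exact this

/-- If `R` is not of maximal order, it grows inside `T`. -/
lemma exists_normalizing {T R Q : Subgroup (Perm α)} (hRT : R ≤ T) (hp : IsPGroup 2 R) (hQ : Q ≤ T)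
    (hpQ : IsPGroup 2 Q) (hlt : Nat.card R < Nat.card Q) :
    ∃ ι ∈ T, ι ∉ R ∧ IsTwo ι ∧ ι ∈ (Subgroup.normalizer (R : Set (Perm α))) := by
  haveI : Fact (Nat.Prime 2) := ⟨Nat.prime_two⟩
  have hpR' : IsPGroup 2 (R.subgroupOf T) := hp.of_equiv (Subgroup.subgroupOfEquivOfLe hRT).symm
  have hpQ' : IsPGroup 2 (Q.subgroupOf T) := hpQ.of_equiv (Subgroup.subgroupOfEquivOfLe hQ).symm
  obtain ⟨S, hS⟩ := hpR'.exists_le_sylow
  obtain ⟨S', hS'⟩ := hpQ'.exists_le_sylow
  have hcQ : Nat.card (Q.subgroupOf T) = Nat.card Q :=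
    Nat.card_congr (Subgroup.subgroupOfEquivOfLe hQ).toEquiv
  have hcard : Nat.card Q ≤ Nat.card S.1 := by
    rw [← hcQ]
    have h1 := Subgroup.card_le_of_le hS'
    have h2 : Nat.card S'.1 = Nat.card S.1 := by
      rw [S'.card_eq_multiplicity, S.card_eq_multiplicity]
    rw [← h2]
    exact h1
  let S₀ : Subgroup (Perm α) := S.1.map T.subtype
  have hS₀c : Nat.card S₀ = Nat.card S.1 := Subgroup.card_map_of_injective T.subtype_injective
  have hRS₀ : R ≤ S₀ := by
    intro r hr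
    exact ⟨⟨r, hRT hr⟩, hS hr, rfl⟩
  have hS₀T : S₀ ≤ T := by
    rintro _ ⟨x, _, rfl⟩
    exact x.2
  have hpS₀ : IsPGroup 2 S₀ := S.isPGroup'.map _
  obtain ⟨ι, hι1, hι2, hι3⟩ := exists_normalizing_of_lt hRS₀ hpS₀ (by
    intro hc
    rw [hc] at hlt
    omega)
  exact ⟨ι, hS₀T hι1, hι2, isTwo_of_pgroup hpS₀ hι1, hι3⟩

open scoped Classical in
/-- Common fixed points of a subgroup. -/
noncomputable def fixS (R : Subgroup (Perm α)) : Finset α :=
  Finset.univ.filter fun x => ∀ g ∈ R, g x = x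

lemma mem_fixS {R : Subgroup (Perm α)} {x : α} : x ∈ fixS R ↔ ∀ g ∈ R, g x = x := by
  simp [fixS]

/-- A 2-subgroup of `G` with at least `k + 1` common fixed points. -/
structure Good (G R : Subgroup (Perm α)) (k : ℕ) : Prop where
  le : R ≤ G
  pg : IsPGroup 2 R
  fix : k + 1 ≤ (fixS R).card

lemma exists_max_good (G : Subgroup (Perm α)) {k : ℕ} (hkn : k < Fintype.card α) :
    ∃ R, Good G R k ∧ ∀ R', Good G R' k → Nat.card R' ≤ Nat.card R := by
  have hbot : Good G ⊥ k := by
    refine ⟨bot_le, IsPGroup.of_bot, ?_⟩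
    have : fixS (⊥ : Subgroup (Perm α)) = Finset.univ := by
      ext x
      simp [mem_fixS]
    rw [this, Finset.card_univ]
    omega
  obtain ⟨R, hR, hmax⟩ := Set.exists_max_image {R | Good G R k} (fun R => Nat.card R)
    (Set.toFinite _) ⟨⊥, hbot⟩
  exact ⟨R, hR, fun R' h => hmax R' h⟩

variable {G R : Subgroup (Perm α)} {k : ℕ}

lemma stb_fixS {g : Perm α} (hg : g ∈ (Subgroup.normalizer (R : Set (Perm α)))) : Stb g (fixS R) := by
  intro x hx
  rw [mem_fixS] at hx ⊢
  intro r hr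
  have h1 : g⁻¹ ∈ (Subgroup.normalizer (R : Set (Perm α))) := Subgroup.inv_mem _ hg
  have h2 := conj_mem_of_normalizer h1 hr
  have h3 := hx _ h2
  simp only [inv_inv, Perm.mul_apply] at h3
  have h4 := congrArg g h3
  simpa using h4

/-- Maximality: a normalising 2-element with many fixed points on `Φ` lies in `R`. -/
lemma res_fix (hgood : Good G R k) (hmax : ∀ R', Good G R' k → Nat.card R' ≤ Nat.card R)
    {g : Perm α} (hg : g ∈ G) (hgN : g ∈ (Subgroup.normalizer (R : Set (Perm α)))) (ht : IsTwo g)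
    (hF : k + 1 ≤ ((fixS R).filter fun x => g x = x).card) : g ∈ R := by
  haveI : Fact (Nat.Prime 2) := ⟨Nat.prime_two⟩
  let R' := Subgroup.zpowers g ⊔ R
  have hp : IsPGroup 2 R' := IsPGroup.to_sup_of_normal_right' (pgroup_zpowers ht) hgood.pg
    ((Subgroup.zpowers_le).mpr hgN)
  have hle : R' ≤ G := sup_le ((Subgroup.zpowers_le).mpr hg) hgood.le
  have hsub : ((fixS R).filter fun x => g x = x) ⊆ fixS R' := by
    intro x hx
    rw [Finset.mem_filter, mem_fixS] at hx
    rw [mem_fixS]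
    have h1 : R' ≤ MulAction.stabilizer (Perm α) x := by
      refine sup_le ((Subgroup.zpowers_le).mpr ?_) ?_
      · exact hx.2
      · intro r hr
        exact hx.1 r hr
    exact fun r hr => h1 hr
  have hgood' : Good G R' k := ⟨hle, hp, hF.trans (Finset.card_le_card hsub)⟩
  have hRR' : R ≤ R' := le_sup_right
  have heq : R = R' := Subgroup.eq_of_le_of_card_ge hRR' (hmax R' hgood')
  rw [heq]
  exact (le_sup_left : Subgroup.zpowers g ≤ R') (Subgroup.mem_zpowers g)

lemma exists_move (hk : 1 ≤ k) (hPT : PT G k) {C : Finset α} (hCk : C.card + 1 = k) {p q : α}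
    (hp : p ∉ C) (hq : q ∉ C) : ∃ x ∈ G, (∀ c ∈ C, x c = c) ∧ x p = q := by
  let φ : α → α := fun a => if a = p then q else a
  obtain ⟨x, hx, hx'⟩ := hPT (insert p C) φ (by rw [Finset.card_insert_of_notMem hp, hCk]) (by
    intro a ha b hb hab
    simp only [Finset.coe_insert, Set.mem_insert_iff, Finset.mem_coe] at ha hb
    simp only [φ] at hab
    split_ifs at hab with h1 h2 h2
    · rw [h1, h2]
    · exfalso
      rw [hab] at hq
      exact hq (hb.resolve_left h2)
    · exfalso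
      rw [← hab] at hq
      exact hq (ha.resolve_left h1)
    · exact hab)
  refine ⟨x, hx, fun c hc => ?_, ?_⟩
  · rw [hx' c (Finset.mem_insert_of_mem hc)]
    have : c ≠ p := fun h => hp (h ▸ hc)
    simp [φ, this]
  · rw [hx' p (Finset.mem_insert_self _ _)]
    simp [φ]

/-- Transitivity of the normaliser on the points outside a `(k-1)`-subset of the fixed points. -/
theorem reduction_a (hk : 1 ≤ k) (hPT : PT G k) (hgood : Good G R k)
    (hmax : ∀ R', Good G R' k → Nat.card R' ≤ Nat.card R) {C : Finset α} (hC : C ⊆ fixS R)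
    (hCk : C.card + 1 = k) {p q : α} (hp : p ∈ fixS R) (hq : q ∈ fixS R) (hpC : p ∉ C)
    (hqC : q ∉ C) : ∃ g ∈ G, g ∈ (Subgroup.normalizer (R : Set (Perm α))) ∧ (∀ c ∈ C, g c = c) ∧ g p = q := by
  have hsub : ∀ w ∈ fixS R, R ≤ Fx G (insert w C) := by
    intro w hw r hr
    refine ⟨hgood.le hr, fun a ha => ?_⟩
    rw [Finset.mem_insert] at ha
    rcases ha with rfl | ha
    · exact mem_fixS.mp hw r hr
    · exact mem_fixS.mp (hC ha) r hr
  let Sy : α → Prop := fun w => ∀ Q ≤ Fx G (insert w C), IsPGroup 2 Q → Nat.card Q ≤ Nat.card R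
  have hSyT : ∀ w w', w ∉ C → w' ∉ C → Sy w → Sy w' := by
    intro w w' hw hw' hSw Q hQ hpQ
    obtain ⟨x, hx, hxC, hxw⟩ := exists_move hk hPT hCk hw' hw
    have h1 : conjSub x Q ≤ Fx G (insert w C) := by
      intro y hy
      rw [mem_conjSub] at hy
      have h2 := hQ hy
      refine ⟨?_, fun a ha => ?_⟩
      · have h3 : y = x * (x⁻¹ * y * x) * x⁻¹ := by group
        rw [h3]
        exact G.mul_mem (G.mul_mem hx h2.1) (G.inv_mem hx)
      · have hb : x⁻¹ a ∈ insert w' C := by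
          rw [Finset.mem_insert] at ha ⊢
          rcases ha with rfl | ha
          · left
            rw [Perm.inv_eq_iff_eq, hxw]
          · right
            have : x⁻¹ a = a := by rw [Perm.inv_eq_iff_eq, hxC a ha]
            rw [this]
            exact ha
        have h4 := h2.2 _ hb
        simp only [Perm.mul_apply] at h4
        simpa [Perm.inv_eq_iff_eq] using h4
    have h5 := hSw _ h1 (pgroup_conjSub x hpQ)
    rwa [card_conjSub] at h5
  by_cases hSy : Sy q
  · -- the Sylow case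
    obtain ⟨x, hx, hxC, hxp⟩ := exists_move hk hPT hCk hpC hqC
    have h1 : conjSub x R ≤ Fx G (insert q C) := by
      intro y hy
      rw [mem_conjSub] at hy
      have h2 := hsub p hp hy
      refine ⟨?_, fun a ha => ?_⟩
      · have h3 : y = x * (x⁻¹ * y * x) * x⁻¹ := by group
        rw [h3]
        exact G.mul_mem (G.mul_mem hx h2.1) (G.inv_mem hx)
      · have hb : x⁻¹ a ∈ insert p C := by
          rw [Finset.mem_insert] at ha ⊢
          rcases ha with rfl | ha
          · left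
            rw [Perm.inv_eq_iff_eq, hxp]
          · right
            have : x⁻¹ a = a := by rw [Perm.inv_eq_iff_eq, hxC a ha]
            rw [this]
            exact ha
        have h4 := h2.2 _ hb
        simp only [Perm.mul_apply] at h4
        simpa [Perm.inv_eq_iff_eq] using h4
    obtain ⟨y, hy, hy'⟩ := sylow_conj (hsub q hq) h1 hgood.pg (pgroup_conjSub x hgood.pg)
      (card_conjSub x R).symm hSy
    refine ⟨y * x, G.mul_mem hy.1 hx, normalizer_of_conj_le fun r hr => ?_, fun c hc => ?_, ?_⟩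
    · have := hy' _ (conj_mem_conjSub (x := x) hr)
      simpa [mul_assoc] using this
    · simp only [Perm.mul_apply]
      rw [hxC c hc, hy.2 c (Finset.mem_insert_of_mem hc)]
    · simp only [Perm.mul_apply]
      rw [hxp, hy.2 q (Finset.mem_insert_self _ _)]
  · -- the growth case
    have hgrow : ∀ w ∈ fixS R, w ∉ C → ∃ ι ∈ Fx G (insert w C), IsTwo ι ∧ ι ∈ (Subgroup.normalizer (R : Set (Perm α))) ∧
        ∀ z ∈ fixS R, ι z = z → z = w ∨ z ∈ C := by
      intro w hw hwC
      have hnw : ¬ Sy w := fun h => hSy (hSyT w q hwC hqC h)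
      simp only [Sy, not_forall] at hnw
      obtain ⟨Q, hQ, hpQ, hlt⟩ := hnw
      obtain ⟨ι, hι, hιR, hιt, hιN⟩ := exists_normalizing (hsub w hw) hgood.pg hQ hpQ (by omega)
      refine ⟨ι, hι, hιt, hιN, fun z hz hιz => ?_⟩
      by_contra hc
      push Not at hc
      apply hιR
      refine res_fix hgood hmax hι.1 hιN hιt ?_
      have hsub2 : insert z (insert w C) ⊆ (fixS R).filter fun x => ι x = x := by
        intro a ha
        rw [Finset.mem_insert, Finset.mem_insert] at ha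
        rw [Finset.mem_filter]
        rcases ha with rfl | rfl | ha
        · exact ⟨hz, hιz⟩
        · exact ⟨hw, hι.2 _ (Finset.mem_insert_self _ _)⟩
        · exact ⟨hC ha, hι.2 _ (Finset.mem_insert_of_mem ha)⟩
      have h3 := Finset.card_le_card hsub2
      rw [Finset.card_insert_of_notMem, Finset.card_insert_of_notMem hwC] at h3
      · omega
      · rw [Finset.mem_insert, not_or]
        exact hc
    let N := Fx (G ⊓ Subgroup.normalizer (R : Set (Perm α))) C
    set O := orbF N p with hO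
    by_contra hnot
    push Not at hnot
    have hqO : q ∉ O := by
      intro hc
      obtain ⟨g, hg, hgp⟩ := mem_orbF.mp hc
      exact hnot g hg.1.1 hg.1.2 hg.2 hgp
    have hOΦ : ∀ z ∈ O, z ∈ fixS R ∧ z ∉ C := by
      intro z hz
      obtain ⟨g, hg, rfl⟩ := mem_orbF.mp hz
      refine ⟨stb_fixS hg.1.2 p hp, fun hc => hpC ?_⟩
      have h1 := hg.2 _ hc
      have h2 := g.injective h1
      rw [h2] at hc
      exact hc
    obtain ⟨ιp, hιp, hιpt, hιpN, hιpF⟩ := hgrow p hp hpC
    obtain ⟨ιq, hιq, hιqt, hιqN, hιqF⟩ := hgrow q hq hqC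
    have hmemN : ∀ ι w, ι ∈ Fx G (insert w C) → ι ∈ (Subgroup.normalizer (R : Set (Perm α))) → ι ∈ N := by
      intro ι w h1 h2
      exact ⟨⟨h1.1, h2⟩, fun c hc => h1.2 c (Finset.mem_insert_of_mem hc)⟩
    have hpar1 := parity hιpt O (fun a ha => apply_mem_orbF' (hmemN _ _ hιp hιpN) ha)
    have hpar2 := parity hιqt O (fun a ha => apply_mem_orbF' (hmemN _ _ hιq hιqN) ha)
    have h1 : (O.filter fun a => ιp a = a) = {p} := by
      ext a
      simp only [Finset.mem_filter, Finset.mem_singleton]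
      constructor
      · rintro ⟨ha, hfix⟩
        exact (hιpF a (hOΦ a ha).1 hfix).resolve_right (hOΦ a ha).2
      · rintro rfl
        exact ⟨self_mem_orbF N a, hιp.2 _ (Finset.mem_insert_self _ _)⟩
    have h2 : (O.filter fun a => ιq a = a) = ∅ := by
      rw [Finset.filter_eq_empty_iff]
      intro a ha hfix
      rcases hιqF a (hOΦ a ha).1 hfix with rfl | h3
      · exact hqO ha
      · exact (hOΦ a ha).2 h3
    rw [h1, Finset.card_singleton] at hpar1
    rw [h2, Finset.card_empty] at hpar2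
    omega

/-- The group induced by the normaliser on the fixed points of `R`. -/
def barG (G R : Subgroup (Perm α)) : Subgroup (Perm ↥(fixS R)) where
  carrier := {gb | ∃ g ∈ G, g ∈ Subgroup.normalizer (R : Set (Perm α)) ∧
    ∀ x : ↥(fixS R), g (x : α) = gb x}
  mul_mem' := by
    rintro gb hb ⟨g, hg, hgN, hg'⟩ ⟨h, hh, hhN, hh'⟩
    refine ⟨g * h, G.mul_mem hg hh, Subgroup.mul_mem _ hgN hhN, fun x => ?_⟩
    simp only [Perm.mul_apply]
    rw [hh', hg']
  one_mem' := ⟨1, G.one_mem, Subgroup.one_mem _, fun _ => rfl⟩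
  inv_mem' := by
    rintro gb ⟨g, hg, hgN, hg'⟩
    refine ⟨g⁻¹, G.inv_mem hg, Subgroup.inv_mem _ hgN, fun x => ?_⟩
    rw [Perm.inv_eq_iff_eq, hg']
    simp

/-- Restriction of a normalising element. -/
def resP (g : Perm α) (hg : g ∈ Subgroup.normalizer (R : Set (Perm α))) : Perm ↥(fixS R) :=
  Perm.subtypePerm g (fun x => (stb_fixS hg).mem_iff x)

lemma resP_apply {g : Perm α} (hg : g ∈ Subgroup.normalizer (R : Set (Perm α)))
    (x : ↥(fixS R)) : (resP g hg x : α) = g x := rfl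

lemma resP_mem {g : Perm α} (hgG : g ∈ G) (hg : g ∈ Subgroup.normalizer (R : Set (Perm α))) :
    resP g hg ∈ barG G R := ⟨g, hgG, hg, fun _ => rfl⟩

lemma barG_pow_apply {gb : Perm ↥(fixS R)} {g : Perm α} (h : ∀ x : ↥(fixS R), g (x : α) = gb x)
    (n : ℕ) (x : ↥(fixS R)) : (g ^ n) (x : α) = (gb ^ n) x := by
  induction n generalizing x with
  | zero => simp
  | succ n ih =>
    rw [pow_succ, pow_succ, Perm.mul_apply, Perm.mul_apply, h, ih]

/-- Bound on fixed points for the induced group. -/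
lemma barG_fix (hgood : Good G R k) (hmax : ∀ R', Good G R' k → Nat.card R' ≤ Nat.card R)
    {gb : Perm ↥(fixS R)} (hgb : gb ∈ barG G R) (ht : IsTwo gb) (h1 : gb ≠ 1) : (Fix gb).card ≤ k := by
  obtain ⟨g, hg, hgN, hg'⟩ := hgb
  obtain ⟨m, hm⟩ := ht
  obtain ⟨N, hNt, hN⟩ := exists_twoPart g
  have hon : ∀ x : ↥(fixS R), (g ^ N) (x : α) = gb x := by
    intro x
    rw [hN m x (by rw [barG_pow_apply hg', hm]; rfl), hg']
  by_contra hc
  push Not at hc
  have hmemR : g ^ N ∈ R := by
    refine res_fix hgood hmax (G.pow_mem hg N) (Subgroup.pow_mem _ hgN N) hNt ?_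
    have hsub : (Fix gb).map (Function.Embedding.subtype _) ⊆
        (fixS R).filter fun x => (g ^ N) x = x := by
      intro a ha
      obtain ⟨b, hb, rfl⟩ := Finset.mem_map.mp ha
      rw [Finset.mem_filter]
      refine ⟨b.2, ?_⟩
      simp only [Function.Embedding.subtype_apply]
      rw [hon, mem_Fix.mp hb]
    have := Finset.card_le_card hsub
    rw [Finset.card_map] at this
    omega
  apply h1
  ext x
  rw [← hon, mem_fixS.mp x.2 _ hmemR]
  rfl

/-- The induced group is `k`-transitive. -/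
lemma barG_PT (hk : 1 ≤ k) (hPT : PT G k) (hgood : Good G R k)
    (hmax : ∀ R', Good G R' k → Nat.card R' ≤ Nat.card R) (j : ℕ) (hj : j ≤ k) :
    PT (barG G R) j := by
  induction j with
  | zero => exact PT_zero _
  | succ j ih =>
    refine Cfsg.Agent.Lib.LWCore1.PT_succ_of_orbits (ih (by omega)) fun X hX y z hy hz => ?_
    by_cases hyz : y = z
    · rw [← hyz]
      exact self_mem_orbF _ y
    set C₀ := X.map (Function.Embedding.subtype _) with hC₀
    set T := (fixS R).erase (y : α) |>.erase (z : α) with hT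
    have hzne : (z : α) ≠ y := fun h => hyz (Subtype.ext h.symm)
    have hTcard : k - 1 ≤ T.card := by
      rw [hT, Finset.card_erase_of_mem (Finset.mem_erase.mpr ⟨hzne, z.2⟩),
        Finset.card_erase_of_mem y.2]
      have := hgood.fix
      omega
    have hsubT : C₀ ⊆ T := by
      intro a ha
      obtain ⟨b, hb, rfl⟩ := Finset.mem_map.mp ha
      simp only [Function.Embedding.subtype_apply, hT, Finset.mem_erase]
      refine ⟨fun h => hz (?_), fun h => hy (?_), b.2⟩
      · rwa [← Subtype.ext h]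
      · rwa [← Subtype.ext h]
    obtain ⟨C, hC1, hC2, hC3⟩ := Finset.exists_subsuperset_card_eq hsubT
      (by rw [hC₀, Finset.card_map, hX]; omega) hTcard
    have hCΦ : C ⊆ fixS R := fun a ha => Finset.mem_of_mem_erase (Finset.mem_of_mem_erase (hC2 ha))
    have hyC : (y : α) ∉ C := fun h => by
      have := hC2 h
      simp [hT] at this
    have hzC : (z : α) ∉ C := fun h => by
      have := hC2 h
      simp [hT] at this
    obtain ⟨g, hg, hgN, hgC, hgy⟩ := reduction_a hk hPT hgood hmax hCΦ (by omega) y.2 z.2 hyC hzC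
    refine mem_orbF.mpr ⟨resP g hgN, ⟨resP_mem hg hgN, fun a ha => ?_⟩, Subtype.ext hgy⟩
    apply Subtype.ext
    rw [resP_apply]
    exact hgC a (hC1 (Finset.mem_map_of_mem _ ha))

/-- Conclusion in terms of three-cycles. -/
theorem exists_A3 (hk : 4 ≤ k) (hkn : k < Fintype.card α) (hPT : PT G k) :
    ∃ Δ : Finset α, Δ.card = k + 1 ∧ A3 G Δ := by
  obtain ⟨R, hgood, hmax⟩ := exists_max_good G hkn
  have hPT' := barG_PT (by omega) hPT hgood hmax k le_rfl
  obtain ⟨Δb, hΔb, hA3⟩ := Cfsg.Agent.Lib.LWAlt3.core hk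
    (by rw [Fintype.card_coe]; exact hgood.fix) hPT'
    (fun gb hgb ht h1 => barG_fix hgood hmax hgb ht h1)
  refine ⟨Δb.map (Function.Embedding.subtype _), by rw [Finset.card_map, hΔb], ?_⟩
  intro a b c ha hb hc hab hbc hac
  obtain ⟨a', ha', rfl⟩ := Finset.mem_map.mp ha
  obtain ⟨b', hb', rfl⟩ := Finset.mem_map.mp hb
  obtain ⟨c', hc', rfl⟩ := Finset.mem_map.mp hc
  simp only [Function.Embedding.subtype_apply] at hab hbc hac ⊢
  obtain ⟨gb, ⟨g, hg, _, hg'⟩, h1, h2, h3, h4⟩ := hA3 a' b' c' ha' hb' hc'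
    (fun h => hab (congrArg _ h)) (fun h => hbc (congrArg _ h)) (fun h => hac (congrArg _ h))
  refine ⟨g, hg, by rw [hg', h1], by rw [hg', h2], by rw [hg', h3], fun x hx hxa hxb hxc => ?_⟩
  obtain ⟨x', hx', rfl⟩ := Finset.mem_map.mp hx
  simp only [Function.Embedding.subtype_apply] at hxa hxb hxc ⊢
  rw [hg', h4 x' hx' (fun h => hxa (congrArg _ h)) (fun h => hxb (congrArg _ h))
    (fun h => hxc (congrArg _ h))]

/-- From three-cycles to the alternating group. -/
theorem alt_of_A3 {Δ : Finset α} (h : A3 G Δ) (σ : Perm ↥Δ) (hσ : σ ∈ alternatingGroup ↥Δ) :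
    ∃ g ∈ G, ∀ x : ↥Δ, g (x : α) = σ x := by
  rw [← Perm.closure_three_cycles_eq_alternating] at hσ
  induction hσ using Subgroup.closure_induction with
  | mem τ hτ =>
    have hτ3 : τ.IsThreeCycle := hτ
    obtain ⟨a, ha⟩ : ∃ a, τ a ≠ a := by
      by_contra hc
      push Not at hc
      exact hτ3.ne_one (Equiv.ext hc)
    have ho : τ ^ 3 = 1 := by
      rw [← hτ3.orderOf]
      exact pow_orderOf_eq_one τ
    have hcube : ∀ x, τ (τ (τ x)) = x := fun x => by
      have := congrArg (fun p : Perm ↥Δ => p x) ho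
      simpa [pow_succ] using this
    set b := τ a with hb
    set c := τ b with hc
    have hab : a ≠ b := fun h => ha h.symm
    have hbc : b ≠ c := fun h => hab (τ.injective h)
    have hac : a ≠ c := by
      intro h
      have h1 := hcube a
      rw [← hb, ← hc, ← h] at h1
      exact ha h1
    have hca : τ c = a := hcube a
    have hsupp : τ.support = {a, b, c} := by
      symm
      apply Finset.eq_of_subset_of_card_le
      · intro x hx
        simp only [Finset.mem_insert, Finset.mem_singleton] at hx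
        rw [Perm.mem_support]
        rcases hx with rfl | rfl | rfl
        · exact ha
        · exact hbc.symm
        · rw [hca]; exact hac
      · rw [hτ3.card_support]
        rw [Finset.card_eq_three.mpr ⟨a, b, c, hab, hac, hbc, rfl⟩]
    have hother : ∀ x, x ≠ a → x ≠ b → x ≠ c → τ x = x := by
      intro x h1 h2 h3
      by_contra h4
      have : x ∈ τ.support := Perm.mem_support.mpr h4
      rw [hsupp] at this
      simp only [Finset.mem_insert, Finset.mem_singleton] at this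
      tauto
    have hval : ∀ p q : ↥Δ, p ≠ q → (p : α) ≠ q := fun p q hpq h => hpq (Subtype.ext h)
    obtain ⟨g, hg, h1, h2, h3, h4⟩ := h a b c a.2 b.2 c.2 (hval _ _ hab) (hval _ _ hbc)
      (hval _ _ hac)
    refine ⟨g, hg, fun x => ?_⟩
    by_cases hxa : x = a
    · rw [hxa, h1]
    · by_cases hxb : x = b
      · rw [hxb, h2]
      · by_cases hxc : x = c
        · rw [hxc, h3, hca]
        · rw [h4 x x.2 (hval _ _ hxa) (hval _ _ hxb) (hval _ _ hxc), hother x hxa hxb hxc]
  | one => exact ⟨1, G.one_mem, fun _ => rfl⟩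
  | mul τ₁ τ₂ _ _ ih₁ ih₂ =>
    obtain ⟨g₁, hg₁, h₁⟩ := ih₁
    obtain ⟨g₂, hg₂, h₂⟩ := ih₂
    refine ⟨g₁ * g₂, G.mul_mem hg₁ hg₂, fun x => ?_⟩
    simp only [Perm.mul_apply]
    rw [h₂, h₁]
  | inv τ _ ih =>
    obtain ⟨g, hg, h'⟩ := ih
    refine ⟨g⁻¹, G.inv_mem hg, fun x => ?_⟩
    rw [Perm.inv_eq_iff_eq, h']
    simp

lemma PT_of_multTrans (G : Subgroup (Perm α)) {k : ℕ}
    (h : MulAction.IsMultiplyPretransitive G α k) : PT G k := by
  intro A f hA hf
  let e : Fin k ≃ A := (A.equivFinOfCardEq hA).symm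
  let x : Fin k ↪ α := ⟨fun i => (e i : α), fun i j hij => e.injective (Subtype.ext hij)⟩
  let y : Fin k ↪ α := ⟨fun i => f (e i : α), fun i j hij => e.injective (Subtype.ext
    (hf (e i).2 (e j).2 hij))⟩
  obtain ⟨g, hg⟩ := h.exists_smul_eq x y
  refine ⟨g.1, g.2, fun a ha => ?_⟩
  have h2 := DFunLike.congr_fun hg (e.symm ⟨a, ha⟩)
  have hxa : x (e.symm ⟨a, ha⟩) = a := by
    show ((e (e.symm ⟨a, ha⟩) : A) : α) = a
    rw [e.apply_symm_apply]
  have hya : y (e.symm ⟨a, ha⟩) = f a := by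
    show f ((e (e.symm ⟨a, ha⟩) : A) : α) = f a
    rw [e.apply_symm_apply]
  have h3 : g.1 (x (e.symm ⟨a, ha⟩)) = y (e.symm ⟨a, ha⟩) := h2
  rw [hxa, hya] at h3
  exact h3

end Cfsg.Agent.Lib.LWAlt4
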