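import Mathlib
import Cfsg.Agent.Lib.LWAlt4

/-!
Groups in which no transposition on a `(t+1)`-subset is induced: consequences, the large `t` case,
and the congruence `n ≡ 6 mod 8` for `t = 4`.
-/

set_option autoImplicit false
set_option linter.unusedSectionVars false
set_option linter.style.haveILetI false

namespace Cfsg.Agent.Lib.LWAlt5

open Equiv Cfsg.Agent.Lib.LWBasic Cfsg.Agent.Lib.LWAlt1 Cfsg.Agent.Lib.LWAlt2
open Cfsg.Agent.Lib.LWAlt3 Cfsg.Agent.Lib.LWAlt4

variable {α : Type*} [Fintype α] [DecidableEq α]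

/-- No element of `G` induces a transposition on a `(t+1)`-subset. -/
def F1 (G : Subgroup (Perm α)) (t : ℕ) : Prop :=
  ∀ (S : Finset α) (u v : α) (g : Perm α), S.card + 1 = t → u ∉ S → v ∉ S → u ≠ v → g ∈ G →
    g u = v → g v = u → (∀ x ∈ S, g x = x) → False

variable {G : Subgroup (Perm α)} {t : ℕ}

lemma hb2_of_F1 (hF : F1 G t) (ht : 1 ≤ t) : ∀ g ∈ G, IsTwo g → g ≠ 1 → (Fix g).card + 2 ≤ t := by
  intro g hg hgt hg1
  by_contra hc
  obtain ⟨s, hs1, hs2⟩ := exists_invol hgt hg1
  set h := g ^ (2 ^ s) with hh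
  have hhh : ∀ a, h (h a) = a := fun a => by
    have := congrArg (fun p : Perm α => p a) hs2
    simpa using this
  obtain ⟨u, hu⟩ : ∃ u, h u ≠ u := by
    by_contra hc'
    push Not at hc'
    exact hs1 (Equiv.ext hc')
  have hfix : ∀ a ∈ Fix g, h a = a := fun a ha => fix_pow (mem_Fix.mp ha) _
  obtain ⟨S, hS, hScard⟩ := Finset.exists_subset_card_eq (s := Fix g) (n := t - 1) (by omega)
  refine hF S u (h u) h (by omega) (fun hc' => hu (hfix u (hS hc'))) (fun hc' => ?_) hu.symm
    (G.pow_mem hg _) rfl (hhh u) (fun x hx => hfix x (hS hx))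
  have := hfix _ (hS hc')
  rw [hhh] at this
  exact hu this.symm

lemma three_fix (hF : F1 G 4) {g : Perm α} (hg : g ∈ G) (ht : IsTwo g) {p q r : α} (hp : g p = p)
    (hq : g q = q) (hr : g r = r) (hpq : p ≠ q) (hqr : q ≠ r) (hpr : p ≠ r) : g = 1 := by
  by_contra h1
  have h2 := hb2_of_F1 hF (by omega) g hg ht h1
  have h3 : ({p, q, r} : Finset α) ⊆ Fix g := by
    intro a ha
    simp only [Finset.mem_insert, Finset.mem_singleton] at ha
    rcases ha with rfl | rfl | rfl <;> simp [*]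
  have h4 := Finset.card_le_card h3
  rw [Finset.card_eq_three.mpr ⟨p, q, r, hpq, hpr, hqr, rfl⟩] at h4
  omega

/-- The case `t ≥ 5`. -/
theorem no_large (ht : 5 ≤ t) (hn : t + 4 ≤ Fintype.card α) (hPT : PT G t) (hF : F1 G t) : False := by
  have hb2 := hb2_of_F1 hF (by omega)
  obtain ⟨Γ, hΓ⟩ := exists_kset (α := α) (k := t) (by omega)
  obtain ⟨a, ha, b, hb, hab⟩ := Finset.one_lt_card.mp (by omega : 1 < Γ.card)
  obtain ⟨i, hi, hit, hion⟩ := lift_two hPT hΓ (stb_swap ha hb) (fun c => by simp)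
  have hsi : Stb i Γ := Stb_of_on (stb_swap ha hb) hion
  have hii : i * i = 1 := invol_of_fix hb2 hi hit (S := Γ) (by omega) (fun c hc => by
    rw [hion c hc, hion _ (stb_swap ha hb c hc)]; simp)
  have hii' : ∀ v, i (i v) = v := fun v => by
    have := congrArg (fun p : Perm α => p v) hii
    simpa using this
  have hi1 : i ≠ 1 := by
    intro h
    have := hion a ha
    rw [h, swap_apply_left] at this
    exact hab this
  set C := (Γ.erase a).erase b with hC
  have hCcard : C.card + 2 = t := by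
    rw [hC, Finset.card_erase_of_mem (Finset.mem_erase.mpr ⟨hab.symm, hb⟩),
      Finset.card_erase_of_mem ha, hΓ]
    omega
  have hCfix : ∀ x ∈ C, i x = x := by
    intro x hx
    rw [hC, Finset.mem_erase, Finset.mem_erase] at hx
    rw [hion x hx.2.2, swap_apply_of_ne_of_ne hx.2.1 hx.1]
  have hFixi : Fix i = C := fix_eq_of_card hb2 hi hit hi1 (by omega) hCfix
  -- points outside `Γ` are moved
  have hmoved : ∀ x, x ∉ Γ → i x ≠ x := by
    intro x hx hc
    have h1 : x ∈ Fix i := mem_Fix.mpr hc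
    rw [hFixi] at h1
    exact hx (Finset.mem_of_mem_erase (Finset.mem_of_mem_erase h1))
  have hout : ∀ x, x ∉ Γ → i x ∉ Γ := fun x hx hc => hx ((hsi.mem_iff x).mp hc)
  obtain ⟨c, _, hcΓ⟩ := exists_avoid (T := Γ) (Δ := Finset.univ) (by rw [Finset.card_univ]; omega)
  obtain ⟨e, _, heT⟩ := exists_avoid (T := insert c (insert (i c) Γ)) (Δ := Finset.univ) (by
    have h1 : (insert c (insert (i c) Γ)).card ≤ Γ.card + 2 :=
      (Finset.card_insert_le _ _).trans (Nat.succ_le_succ (Finset.card_insert_le _ _))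
    rw [Finset.card_univ]
    omega)
  simp only [Finset.mem_insert, not_or] at heT
  obtain ⟨hec, hed, heΓ⟩ := heT
  set d := i c with hd
  set f := i e with hf
  have hdi : i d = c := hii' c
  have hfi : i f = e := hii' e
  have hdc : d ≠ c := hmoved c hcΓ
  have hfe : f ≠ e := hmoved e heΓ
  have hdΓ : d ∉ Γ := hout c hcΓ
  have hfΓ : f ∉ Γ := hout e heΓ
  have hfc : f ≠ c := by
    intro h
    apply hed
    have := congrArg i h
    rw [hfi] at this
    exact this
  have hfd : f ≠ d := by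
    intro h
    apply hec
    exact i.injective h
  obtain ⟨C₀, hC₀, hC₀card⟩ := Finset.exists_subset_card_eq (s := C) (n := t - 5) (by omega)
  have hC₀Γ : ∀ x ∈ C₀, x ∈ Γ := fun x hx =>
    Finset.mem_of_mem_erase (Finset.mem_of_mem_erase (hC₀ hx))
  have hC₀fix : ∀ x ∈ C₀, i x = x := fun x hx => hCfix x (hC₀ hx)
  have hC₀ne : ∀ x ∈ C₀, x ≠ a ∧ x ≠ b ∧ x ≠ c ∧ x ≠ d ∧ x ≠ e ∧ x ≠ f := by
    intro x hx
    have h1 := hC₀ hx
    rw [hC, Finset.mem_erase, Finset.mem_erase] at h1
    have h2 := hC₀Γ x hx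
    exact ⟨h1.2.1, h1.1, fun h => hcΓ (h ▸ h2), fun h => hdΓ (h ▸ h2), fun h => heΓ (h ▸ h2),
      fun h => hfΓ (h ▸ h2)⟩
  set S := insert c (insert d (insert e (insert f C₀))) with hS
  have hScard : S.card + 1 = t := by
    rw [hS, Finset.card_insert_of_notMem, Finset.card_insert_of_notMem,
      Finset.card_insert_of_notMem, Finset.card_insert_of_notMem, hC₀card]
    · omega
    · exact fun h => (hC₀ne f h).2.2.2.2.2 rfl
    · simp only [Finset.mem_insert, not_or]
      exact ⟨hfe.symm, fun h => (hC₀ne e h).2.2.2.2.1 rfl⟩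
    · simp only [Finset.mem_insert, not_or]
      exact ⟨Ne.symm hed, hfd.symm, fun h => (hC₀ne d h).2.2.2.1 rfl⟩
    · simp only [Finset.mem_insert, not_or]
      exact ⟨hdc.symm, Ne.symm hec, hfc.symm, fun h => (hC₀ne c h).2.2.1 rfl⟩
  have haS : a ∉ S := by
    simp only [hS, Finset.mem_insert, not_or]
    exact ⟨fun h => hcΓ (h ▸ ha), fun h => hdΓ (h ▸ ha), fun h => heΓ (h ▸ ha),
      fun h => hfΓ (h ▸ ha), fun h => (hC₀ne a h).1 rfl⟩
  have hbS : b ∉ S := by
    simp only [hS, Finset.mem_insert, not_or]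
    exact ⟨fun h => hcΓ (h ▸ hb), fun h => hdΓ (h ▸ hb), fun h => heΓ (h ▸ hb),
      fun h => hfΓ (h ▸ hb), fun h => (hC₀ne b h).2.1 rfl⟩
  set Δ := insert a (insert b S) with hΔdef
  have hΔ : Δ.card = t + 1 := by
    rw [hΔdef, Finset.card_insert_of_notMem, Finset.card_insert_of_notMem hbS]
    · omega
    · simp only [Finset.mem_insert, not_or]
      exact ⟨hab, haS⟩
  have hA3 := A3_every (by omega) hPT hb2 Δ hΔ
  have hcΔ : c ∈ Δ := by simp [hΔdef, hS]
  have hdΔ : d ∈ Δ := by simp [hΔdef, hS]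
  have heΔ : e ∈ Δ := by simp [hΔdef, hS]
  have hfΔ : f ∈ Δ := by simp [hΔdef, hS]
  obtain ⟨g₂, hg₂, h21, h22, h23, h24⟩ := hA3 c e d hcΔ heΔ hdΔ (Ne.symm hec) hed hdc.symm
  obtain ⟨g₁, hg₁, h11, h12, h13, h14⟩ := hA3 e d f heΔ hdΔ hfΔ hed hfd.symm hfe.symm
  have hab2 : ∀ x, x = a ∨ x = b → x ≠ c ∧ x ≠ d ∧ x ≠ e ∧ x ≠ f ∧ x ∈ Δ := by
    rintro x (rfl | rfl)
    · exact ⟨fun h => hcΓ (h ▸ ha), fun h => hdΓ (h ▸ ha), fun h => heΓ (h ▸ ha),
        fun h => hfΓ (h ▸ ha), by simp [hΔdef]⟩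
    · exact ⟨fun h => hcΓ (h ▸ hb), fun h => hdΓ (h ▸ hb), fun h => heΓ (h ▸ hb),
        fun h => hfΓ (h ▸ hb), by simp [hΔdef]⟩
  refine hF S a b (i * g₁ * g₂) hScard haS hbS hab (G.mul_mem (G.mul_mem hi hg₁) hg₂) ?_ ?_ ?_
  · simp only [Perm.mul_apply]
    obtain ⟨h1, h2, h3, h4, h5⟩ := hab2 a (Or.inl rfl)
    rw [h24 a h5 h1 h3 h2, h14 a h5 h3 h2 h4, hion a ha, swap_apply_left]
  · simp only [Perm.mul_apply]
    obtain ⟨h1, h2, h3, h4, h5⟩ := hab2 b (Or.inr rfl)
    rw [h24 b h5 h1 h3 h2, h14 b h5 h3 h2 h4, hion b hb, swap_apply_right]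
  · intro x hx
    simp only [Perm.mul_apply]
    simp only [hS, Finset.mem_insert] at hx
    rcases hx with rfl | rfl | rfl | rfl | hx
    · rw [h21, h11, hdi]
    · rw [h23, h14 c hcΔ (Ne.symm hec) hdc.symm hfc.symm]
    · rw [h22, h12, hfi]
    · rw [h24 f hfΔ hfc hfe hfd, h13]
    · have h1 := hC₀ne x hx
      have h2 : x ∈ Δ := by simp [hΔdef, hS, hx]
      rw [h24 x h2 h1.2.2.1 h1.2.2.2.2.1 h1.2.2.2.1, h14 x h2 h1.2.2.2.2.1 h1.2.2.2.1 h1.2.2.2.2.2,
        hC₀fix x hx]

/-! ### `t = 4` -/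

/-- An involution with exactly the two fixed points `w, z`. -/
structure Inv4 (G : Subgroup (Perm α)) (i : Perm α) (w z : α) : Prop where
  mem : i ∈ G
  two : IsTwo i
  sq : i * i = 1
  fw : i w = w
  fz : i z = z
  ne : w ≠ z
  one : i ≠ 1

lemma Inv4.apply_apply {i : Perm α} {w z : α} (h : Inv4 G i w z) (v : α) : i (i v) = v := by
  have := congrArg (fun p : Perm α => p v) h.sq
  simpa using this

lemma Inv4.fix (hF : F1 G 4) {i : Perm α} {w z : α} (h : Inv4 G i w z) {v : α} (hv : i v = v) :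
    v = w ∨ v = z := by
  by_contra hc
  push Not at hc
  exact h.one (three_fix hF h.mem h.two h.fw h.fz hv h.ne (Ne.symm hc.2) (Ne.symm hc.1))

lemma exists_inv4 (hPT : PT G 4) (hF : F1 G 4) (hn : 4 ≤ Fintype.card α) :
    ∃ i w z, Inv4 G i w z := by
  have hb2 := hb2_of_F1 hF (by omega)
  obtain ⟨Γ, hΓ⟩ := exists_kset (α := α) (k := 4) hn
  obtain ⟨a, ha, b, hb, hab⟩ := Finset.one_lt_card.mp (by omega : 1 < Γ.card)
  have hT : ({a, b} : Finset α).card ≤ 2 := Finset.card_le_two
  obtain ⟨w, z, hw, hz, hwz, hwT, hzT⟩ := exists_two_avoid (T := {a, b}) (Δ := Γ) (by omega)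
  simp only [Finset.mem_insert, Finset.mem_singleton, not_or] at hwT hzT
  obtain ⟨i, hi, hit, hion⟩ := lift_two hPT hΓ (stb_swap ha hb) (fun c => by simp)
  refine ⟨i, w, z, hi, hit, ?_, ?_, ?_, hwz, ?_⟩
  · exact invol_of_fix hb2 hi hit (S := Γ) (by omega) (fun c hc => by
      rw [hion c hc, hion _ (stb_swap ha hb c hc)]; simp)
  · rw [hion w hw, swap_apply_of_ne_of_ne hwT.1 hwT.2]
  · rw [hion z hz, swap_apply_of_ne_of_ne hzT.1 hzT.2]
  · intro h
    have := hion a ha
    rw [h, swap_apply_left] at this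
    exact hab this

/-- In the stabiliser of two points the 2-elements are involutions. -/
theorem sq_of_fix_two (hPT : PT G 4) (hF : F1 G 4) {t : Perm α} (ht : t ∈ G) (htt : IsTwo t)
    {w z : α} (hw : t w = w) (hz : t z = z) (hwz : w ≠ z) : t * t = 1 := by
  by_contra hc
  have hb2 := hb2_of_F1 hF (by omega)
  have htt2 : IsTwo (t * t) := by
    rw [← pow_two]
    exact htt.pow 2
  obtain ⟨s, hs1, hs2⟩ := exists_invol htt2 hc
  set h := t ^ (2 ^ s) with hh
  have hhG : h ∈ G := G.pow_mem ht _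
  have hht : IsTwo h := htt.pow _
  have hh2 : (t * t) ^ (2 ^ s) = h * h := by
    rw [← pow_two, ← pow_mul, mul_comm, pow_mul, pow_two]
  rw [hh2] at hs1 hs2
  have hhw : h w = w := fix_pow hw _
  have hhz : h z = z := fix_pow hz _
  have hh4 : ∀ v, h (h (h (h v))) = v := fun v => by
    have := congrArg (fun p : Perm α => p v) hs2
    simpa using this
  obtain ⟨a, ha⟩ : ∃ a, (h * h) a ≠ a := by
    by_contra hc'
    push Not at hc'
    exact hs1 (Equiv.ext hc')
  simp only [Perm.mul_apply] at ha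
  set b := h a with hb
  set c := h b with hcdef
  set d := h c with hd
  have hda : h d = a := hh4 a
  have hca : c ≠ a := ha
  have hab : a ≠ b := by
    intro e
    apply hca
    rw [hcdef, ← e]
    exact e.symm
  have hbc : b ≠ c := fun e => hab (h.injective e)
  have hcd : c ≠ d := fun e => hbc (h.injective e)
  have hda' : d ≠ a := by
    intro e
    apply hab
    have := hda
    rw [e] at this
    exact this.symm
  have hawz : a ≠ w ∧ a ≠ z := by
    constructor
    · rintro rfl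
      exact hca (by rw [hcdef, hb, hhw, hhw])
    · rintro rfl
      exact hca (by rw [hcdef, hb, hhz, hhz])
  have hbwz : b ≠ w ∧ b ≠ z := by
    constructor
    · intro e
      apply hawz.1
      apply h.injective
      rw [hhw]
      exact e
    · intro e
      apply hawz.2
      apply h.injective
      rw [hhz]
      exact e
  have hcwz : c ≠ w ∧ c ≠ z := by
    constructor
    · intro e
      apply hbwz.1
      apply h.injective
      rw [hhw]
      exact e
    · intro e
      apply hbwz.2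
      apply h.injective
      rw [hhz]
      exact e
  have hdwz : d ≠ w ∧ d ≠ z := by
    constructor
    · intro e
      apply hcwz.1
      apply h.injective
      rw [hhw]
      exact e
    · intro e
      apply hcwz.2
      apply h.injective
      rw [hhz]
      exact e
  have hbd : b ≠ d := by
    intro e
    -- then `h * h` fixes `b, w, z`
    apply hs1
    refine three_fix hF (G.mul_mem hhG hhG) ?_ (p := b) (q := w) (r := z) ?_ ?_ ?_ hbwz.1 hwz hbwz.2
    · rw [← pow_two]
      exact hht.pow 2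
    · simp only [Perm.mul_apply]
      rw [← hcdef, ← hd]
      exact e.symm
    · simp only [Perm.mul_apply]
      rw [hhw, hhw]
    · simp only [Perm.mul_apply]
      rw [hhz, hhz]
  set Δ : Finset α := {a, b, c, d, w} with hΔdef
  have hΔ : Δ.card = 4 + 1 := by
    rw [hΔdef, Finset.card_eq_succ]
    refine ⟨a, {b, c, d, w}, ?_, rfl, ?_⟩
    · simp only [Finset.mem_insert, Finset.mem_singleton, not_or]
      exact ⟨hab, hca.symm, hda'.symm, hawz.1⟩
    rw [Finset.card_eq_succ]
    refine ⟨b, {c, d, w}, ?_, rfl, ?_⟩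
    · simp only [Finset.mem_insert, Finset.mem_singleton, not_or]
      exact ⟨hbc, hbd, hbwz.1⟩
    rw [Finset.card_eq_three]
    exact ⟨c, d, w, hcd, hcwz.1, hdwz.1, rfl⟩
  have hA3 := A3_every (le_refl 4) hPT hb2 Δ hΔ
  obtain ⟨g, hg, h1, h2, h3, h4⟩ := hA3 a c b (by simp [hΔdef]) (by simp [hΔdef]) (by simp [hΔdef])
    hca.symm hbc.symm hab
  have hgd : g d = d := h4 d (by simp [hΔdef]) hda' hcd.symm hbd.symm
  have hgw : g w = w := h4 w (by simp [hΔdef]) (Ne.symm hawz.1) (Ne.symm hcwz.1) (Ne.symm hbwz.1)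
  refine hF {b, c, w} a d (h * g) ?_ ?_ ?_ hda'.symm (G.mul_mem hhG hg) ?_ ?_ ?_
  · rw [Finset.card_eq_three.mpr ⟨b, c, w, hbc, hbwz.1, hcwz.1, rfl⟩]
  · simp only [Finset.mem_insert, Finset.mem_singleton, not_or]
    exact ⟨hab, hca.symm, hawz.1⟩
  · simp only [Finset.mem_insert, Finset.mem_singleton, not_or]
    exact ⟨hbd.symm, hcd.symm, hdwz.1⟩
  · simp only [Perm.mul_apply]
    rw [h1]
  · simp only [Perm.mul_apply]
    rw [hgd, hda]
  · intro x hx
    simp only [Finset.mem_insert, Finset.mem_singleton] at hx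
    simp only [Perm.mul_apply]
    rcases hx with rfl | rfl | rfl
    · rw [h3]
    · rw [h2]
    · rw [hgw, hhw]

/-- The group of elements stabilising `Γ` and centralising `i`. -/
def Csub (G : Subgroup (Perm α)) (Γ : Finset α) (i : Perm α) : Subgroup (Perm α) where
  carrier := {x | x ∈ G ∧ Stb x Γ ∧ x * i = i * x}
  mul_mem' := by
    rintro x y ⟨hx, hx', hx''⟩ ⟨hy, hy', hy''⟩
    refine ⟨G.mul_mem hx hy, hx'.mul hy', ?_⟩
    rw [mul_assoc, hy'', ← mul_assoc, hx'', mul_assoc]
  one_mem' := ⟨G.one_mem, fun _ h => h, by simp⟩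
  inv_mem' := by
    rintro x ⟨hx, hx', hx''⟩
    refine ⟨G.inv_mem hx, hx'.inv, ?_⟩
    rw [inv_mul_eq_iff_eq_mul, ← mul_assoc, hx'', mul_assoc, mul_inv_cancel, mul_one]

/-- Sylow escape for a 2-subgroup. -/
lemma sylow_escape_sub {A B Q : Subgroup (Perm α)} (hBA : B ≤ A) {a : Perm α} (haA : a ∈ A)
    (haB : a ∉ B) (hidx : ∀ b ∈ A, b ∉ B → b * a ∈ B) (hQB : Q ≤ B) (hQ : IsPGroup 2 Q) :
    ∃ P : Subgroup (Perm α), P ≤ A ∧ IsPGroup 2 P ∧ Q ≤ P ∧ ¬ P ≤ B := by
  haveI : Fact (Nat.Prime 2) := ⟨Nat.prime_two⟩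
  let B' : Subgroup A := B.subgroupOf A
  have hpg : IsPGroup 2 (Q.subgroupOf A) :=
    hQ.of_equiv (Subgroup.subgroupOfEquivOfLe (hQB.trans hBA)).symm
  obtain ⟨P, hP⟩ := hpg.exists_le_sylow
  have hidx2 : B'.index = 2 := by
    rw [Subgroup.index_eq_two_iff]
    refine ⟨⟨a, haA⟩, fun b => ?_⟩
    by_cases hb : (b : Perm α) ∈ B
    · refine Or.inr ⟨hb, ?_⟩
      intro hc
      apply haB
      have h1 : (b : Perm α) * a ∈ B := hc
      have h2 : (b : Perm α)⁻¹ * (b * a) ∈ B := B.mul_mem (B.inv_mem hb) h1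
      simpa using h2
    · refine Or.inl ⟨?_, hb⟩
      exact hidx b b.2 hb
  have hnot : ¬ P.1 ≤ B' := by
    intro hle
    have h1 : B'.index ∣ P.1.index := Subgroup.index_dvd_of_le hle
    rw [hidx2] at h1
    exact P.not_dvd_index h1
  refine ⟨P.1.map A.subtype, ?_, P.isPGroup'.map _, ?_, ?_⟩
  · rintro _ ⟨x, _, rfl⟩
    exact x.2
  · intro q hq
    exact ⟨⟨q, hBA (hQB hq)⟩, hP hq, rfl⟩
  · intro hle
    apply hnot
    intro x hx
    exact hle ⟨x, hx, rfl⟩

set_option maxHeartbeats 2000000 in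
/-- The congruence modulo 8. -/
theorem eight_dvd (hPT : PT G 4) (hF : F1 G 4) {i : Perm α} {w z : α} (h : Inv4 G i w z)
    (hn : 6 ≤ Fintype.card α) : 8 ∣ Fintype.card α - 6 := by
  have hb2 := hb2_of_F1 hF (by omega)
  have hwz := h.ne
  obtain ⟨a, _, haT⟩ := exists_avoid (T := {w, z}) (Δ := Finset.univ) (by
    have := Finset.card_le_two (a := w) (b := z)
    rw [Finset.card_univ]
    omega)
  simp only [Finset.mem_insert, Finset.mem_singleton, not_or] at haT
  have haw : a ≠ w := haT.1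
  have haz : a ≠ z := haT.2
  set b := i a with hbdef
  have hib : i b = a := h.apply_apply a
  have hab : a ≠ b := by
    intro e
    rcases h.fix hF e.symm with e' | e'
    · exact haw e'
    · exact haz e'
  have hbw : b ≠ w := by
    intro e
    apply haw
    apply i.injective
    rw [h.fw]
    exact e
  have hbz : b ≠ z := by
    intro e
    apply haz
    apply i.injective
    rw [h.fz]
    exact e
  obtain ⟨c, _, hcT⟩ := exists_avoid (T := {a, b, w, z}) (Δ := Finset.univ) (by
    have := Finset.card_le_four (a := a) (b := b) (c := w) (d := z)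
    rw [Finset.card_univ]
    omega)
  simp only [Finset.mem_insert, Finset.mem_singleton, not_or] at hcT
  have hca : c ≠ a := hcT.1
  have hcb : c ≠ b := hcT.2.1
  have hcw : c ≠ w := hcT.2.2.1
  have hcz : c ≠ z := hcT.2.2.2
  set d := i c with hddef
  have hid : i d = c := h.apply_apply c
  have hcd : c ≠ d := by
    intro e
    rcases h.fix hF e.symm with e' | e'
    · exact hcw e'
    · exact hcz e'
  have hdw : d ≠ w := by
    intro e
    apply hcw
    apply i.injective
    rw [h.fw]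
    exact e
  have hdz : d ≠ z := by
    intro e
    apply hcz
    apply i.injective
    rw [h.fz]
    exact e
  have hda : d ≠ a := by
    intro e
    apply hcb
    have := congrArg i e
    rw [hid] at this
    exact this
  have hdb : d ≠ b := by
    intro e
    apply hca
    exact i.injective e
  -- the set `Γ₀`
  have hΓ₀ : ({a, b, w, z} : Finset α).card = 4 := by
    rw [Finset.card_eq_succ]
    refine ⟨a, {b, w, z}, by simp [hab, haw, haz], rfl, ?_⟩
    rw [Finset.card_eq_three]
    exact ⟨b, w, z, hbw, hbz, hwz, rfl⟩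
  have hion₀ : ∀ x ∈ ({a, b, w, z} : Finset α), i x = swap a b x := by
    intro x hx
    simp only [Finset.mem_insert, Finset.mem_singleton] at hx
    rcases hx with rfl | rfl | rfl | rfl
    · rw [swap_apply_left]
    · rw [swap_apply_right, hib]
    · rw [h.fw, swap_apply_of_ne_of_ne (Ne.symm haw) (Ne.symm hbw)]
    · rw [h.fz, swap_apply_of_ne_of_ne (Ne.symm haz) (Ne.symm hbz)]
  obtain ⟨j, hj, hjt, hjj, hij, hjc, hjon, -⟩ := exists_j (le_refl 4) hPT hb2 hΓ₀ (a := a) (b := b)
    (w := w) (z := z) (by simp) (by simp) (by simp) (by simp) hab haw haz hbw hbz hwz h.mem h.two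
    hion₀ (y := c) (by simp [hca, hcb, hcw, hcz])
  have hja : j a = a := by
    rw [hjon a (by simp), swap_apply_of_ne_of_ne haw haz]
  have hjb : j b = b := by
    rw [hjon b (by simp), swap_apply_of_ne_of_ne hbw hbz]
  have hjw : j w = z := by
    rw [hjon w (by simp), swap_apply_left]
  have hjz : j z = w := by
    rw [hjon z (by simp), swap_apply_right]
  have hijx : ∀ v, i (j v) = j (i v) := fun v => by
    have := congrArg (fun p : Perm α => p v) hij
    simpa using this
  have hjd : j d = c := by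
    rw [hddef, ← hijx, hjc, ← hddef, hid]
  -- the set `Γ`
  set Γ : Finset α := {a, b, c, d} with hΓdef
  have hΓ : Γ.card = 4 := by
    rw [hΓdef, Finset.card_eq_succ]
    refine ⟨a, {b, c, d}, by simp [hab, hca.symm, hda.symm], rfl, ?_⟩
    rw [Finset.card_eq_three]
    exact ⟨b, c, d, hcb.symm, hdb.symm, hcd, rfl⟩
  have hmemΓ : ∀ x, x ∈ Γ ↔ x = a ∨ x = b ∨ x = c ∨ x = d := by
    intro x
    simp [hΓdef]
  have haΓ : a ∈ Γ := by simp [hΓdef]
  have hbΓ : b ∈ Γ := by simp [hΓdef]
  have hcΓ : c ∈ Γ := by simp [hΓdef]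
  have hdΓ : d ∈ Γ := by simp [hΓdef]
  let σ₁ : Perm α := swap a b * swap c d
  let σ₂ : Perm α := swap a c * swap b d
  have hσ₁a : σ₁ a = b := by
    simp only [σ₁, Perm.mul_apply]
    rw [swap_apply_of_ne_of_ne hca.symm hda.symm, swap_apply_left]
  have hσ₁b : σ₁ b = a := by
    simp only [σ₁, Perm.mul_apply]
    rw [swap_apply_of_ne_of_ne hcb.symm hdb.symm, swap_apply_right]
  have hσ₁c : σ₁ c = d := by
    simp only [σ₁, Perm.mul_apply]
    rw [swap_apply_left, swap_apply_of_ne_of_ne hda hdb]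
  have hσ₁d : σ₁ d = c := by
    simp only [σ₁, Perm.mul_apply]
    rw [swap_apply_right, swap_apply_of_ne_of_ne hca hcb]
  have hσ₂a : σ₂ a = c := by
    simp only [σ₂, Perm.mul_apply]
    rw [swap_apply_of_ne_of_ne hab hda.symm, swap_apply_left]
  have hσ₂b : σ₂ b = d := by
    simp only [σ₂, Perm.mul_apply]
    rw [swap_apply_left, swap_apply_of_ne_of_ne hda hcd.symm]
  have hσ₂c : σ₂ c = a := by
    simp only [σ₂, Perm.mul_apply]
    rw [swap_apply_of_ne_of_ne hcb hcd, swap_apply_right]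
  have hσ₂d : σ₂ d = b := by
    simp only [σ₂, Perm.mul_apply]
    rw [swap_apply_right, swap_apply_of_ne_of_ne hab.symm hcb.symm]
  have hσ₁o : ∀ v, v ≠ a → v ≠ b → v ≠ c → v ≠ d → σ₁ v = v := by
    intro v h1 h2 h3 h4
    simp only [σ₁, Perm.mul_apply]
    rw [swap_apply_of_ne_of_ne h3 h4, swap_apply_of_ne_of_ne h1 h2]
  have hσ₂o : ∀ v, v ≠ a → v ≠ b → v ≠ c → v ≠ d → σ₂ v = v := by
    intro v h1 h2 h3 h4
    simp only [σ₂, Perm.mul_apply]
    rw [swap_apply_of_ne_of_ne h2 h4, swap_apply_of_ne_of_ne h1 h3]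
  have hcases : ∀ P : α → Prop, P a → P b → P c → P d →
      (∀ v, v ≠ a → v ≠ b → v ≠ c → v ≠ d → P v) → ∀ v, P v := by
    intro P h1 h2 h3 h4 h5 v
    by_cases e1 : v = a
    · rwa [e1]
    by_cases e2 : v = b
    · rwa [e2]
    by_cases e3 : v = c
    · rwa [e3]
    by_cases e4 : v = d
    · rwa [e4]
    exact h5 v e1 e2 e3 e4
  have hs1 : Stb σ₁ Γ := by
    intro x hx
    rw [hmemΓ] at hx
    rcases hx with rfl | rfl | rfl | rfl
    · rw [hσ₁a]; exact hbΓ
    · rw [hσ₁b]; exact haΓ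
    · rw [hσ₁c]; exact hdΓ
    · rw [hσ₁d]; exact hcΓ
  have hs2 : Stb σ₂ Γ := by
    intro x hx
    rw [hmemΓ] at hx
    rcases hx with rfl | rfl | rfl | rfl
    · rw [hσ₂a]; exact hcΓ
    · rw [hσ₂b]; exact hdΓ
    · rw [hσ₂c]; exact haΓ
    · rw [hσ₂d]; exact hbΓ
  have h11 : σ₁ * σ₁ = 1 := by
    ext v
    revert v
    apply hcases
    · simp only [Perm.mul_apply, Perm.one_apply]; rw [hσ₁a, hσ₁b]
    · simp only [Perm.mul_apply, Perm.one_apply]; rw [hσ₁b, hσ₁a]
    · simp only [Perm.mul_apply, Perm.one_apply]; rw [hσ₁c, hσ₁d]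
    · simp only [Perm.mul_apply, Perm.one_apply]; rw [hσ₁d, hσ₁c]
    · intro v h1 h2 h3 h4
      simp only [Perm.mul_apply, Perm.one_apply]; rw [hσ₁o v h1 h2 h3 h4, hσ₁o v h1 h2 h3 h4]
  have h22 : σ₂ * σ₂ = 1 := by
    ext v
    revert v
    apply hcases
    · simp only [Perm.mul_apply, Perm.one_apply]; rw [hσ₂a, hσ₂c]
    · simp only [Perm.mul_apply, Perm.one_apply]; rw [hσ₂b, hσ₂d]
    · simp only [Perm.mul_apply, Perm.one_apply]; rw [hσ₂c, hσ₂a]
    · simp only [Perm.mul_apply, Perm.one_apply]; rw [hσ₂d, hσ₂b]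
    · intro v h1 h2 h3 h4
      simp only [Perm.mul_apply, Perm.one_apply]; rw [hσ₂o v h1 h2 h3 h4, hσ₂o v h1 h2 h3 h4]
  have h12 : σ₁ * σ₂ = σ₂ * σ₁ := by
    ext v
    revert v
    apply hcases
    · simp only [Perm.mul_apply]; rw [hσ₂a, hσ₁c, hσ₁a, hσ₂b]
    · simp only [Perm.mul_apply]; rw [hσ₂b, hσ₁d, hσ₁b, hσ₂a]
    · simp only [Perm.mul_apply]; rw [hσ₂c, hσ₁a, hσ₁c, hσ₂d]
    · simp only [Perm.mul_apply]; rw [hσ₂d, hσ₁b, hσ₁d, hσ₂c]
    · intro v h1 h2 h3 h4
      simp only [Perm.mul_apply]; rw [hσ₁o v h1 h2 h3 h4, hσ₂o v h1 h2 h3 h4, hσ₁o v h1 h2 h3 h4]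
  have hionσ : ∀ x ∈ Γ, i x = σ₁ x := by
    intro x hx
    rw [hmemΓ] at hx
    rcases hx with rfl | rfl | rfl | rfl
    · rw [hσ₁a]
    · rw [hσ₁b, hib]
    · rw [hσ₁c]
    · rw [hσ₁d, hid]
  -- `g₀`
  set Δ : Finset α := {a, b, c, d, w} with hΔdef
  have hΔ : Δ.card = 4 + 1 := by
    rw [hΔdef, Finset.card_eq_succ]
    refine ⟨a, {b, c, d, w}, ?_, rfl, ?_⟩
    · simp only [Finset.mem_insert, Finset.mem_singleton, not_or]
      exact ⟨hab, hca.symm, hda.symm, haw⟩
    rw [Finset.card_eq_succ]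
    refine ⟨b, {c, d, w}, ?_, rfl, ?_⟩
    · simp only [Finset.mem_insert, Finset.mem_singleton, not_or]
      exact ⟨hcb.symm, hdb.symm, hbw⟩
    rw [Finset.card_eq_three]
    exact ⟨c, d, w, hcd, hcw, hdw, rfl⟩
  have hA3 := A3_every (le_refl 4) hPT hb2 Δ hΔ
  obtain ⟨g₂, hg₂, h21, h22', h23, h24⟩ := hA3 a b c (by simp [hΔdef]) (by simp [hΔdef])
    (by simp [hΔdef]) hab hcb.symm hca.symm
  obtain ⟨g₁, hg₁, h11', h12', h13, h14⟩ := hA3 b c d (by simp [hΔdef]) (by simp [hΔdef])
    (by simp [hΔdef]) hcb.symm hcd hdb.symm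
  have hg₀on : ∀ x ∈ Γ, (g₁ * g₂) x = σ₂ x := by
    intro x hx
    rw [hmemΓ] at hx
    simp only [Perm.mul_apply]
    rcases hx with rfl | rfl | rfl | rfl
    · rw [h21, h11', hσ₂a]
    · rw [h22', h12', hσ₂b]
    · rw [h23, h14 _ (by simp [hΔdef]) hab hca.symm hda.symm, hσ₂c]
    · rw [h24 _ (by simp [hΔdef]) hda hdb hcd.symm, h13, hσ₂d]
  have hg₀ : g₁ * g₂ ∈ Fx G {w} := by
    refine ⟨G.mul_mem hg₁ hg₂, fun x hx => ?_⟩
    rw [Finset.mem_singleton] at hx
    subst hx
    simp only [Perm.mul_apply]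
    rw [h24 _ (by simp [hΔdef]) (Ne.symm haw) (Ne.symm hbw) (Ne.symm hcw),
      h14 _ (by simp [hΔdef]) (Ne.symm hbw) (Ne.symm hcw) (Ne.symm hdw)]
  have hiH : i ∈ Fx G {w} := by
    refine ⟨h.mem, fun x hx => ?_⟩
    rw [Finset.mem_singleton] at hx
    rw [hx, h.fw]
  obtain ⟨s, hsH, hson, hst, hsit⟩ := two_lift hs1 hs2 h11 h22 h12
    ⟨a, haΓ, by rw [hσ₂a]; exact hca⟩ ⟨a, haΓ, by
      rw [hσ₂a, hσ₁a]
      exact hcb⟩ hiH hg₀ hionσ hg₀on h.two
  have hsG : s ∈ G := hsH.1
  have hsw : s w = w := hsH.2 w (Finset.mem_singleton_self w)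
  have hsa : s a = c := by rw [hson a haΓ, hσ₂a]
  have hsb : s b = d := by rw [hson b hbΓ, hσ₂b]
  have hsc : s c = a := by rw [hson c hcΓ, hσ₂c]
  have hsd : s d = b := by rw [hson d hdΓ, hσ₂d]
  have hss : s * s = 1 := by
    refine invol_of_fix hb2 hsG hst (S := Γ) (by omega) fun x hx => ?_
    rw [hmemΓ] at hx
    rcases hx with rfl | rfl | rfl | rfl
    · rw [hsa, hsc]
    · rw [hsb, hsd]
    · rw [hsc, hsa]
    · rw [hsd, hsb]
  have hsi2 : s * i * (s * i) = 1 := by
    refine invol_of_fix hb2 (G.mul_mem hsG h.mem) hsit (S := Γ) (by omega) fun x hx => ?_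
    rw [hmemΓ] at hx
    simp only [Perm.mul_apply]
    rcases hx with rfl | rfl | rfl | rfl
    · rw [← hbdef, hsb, hid, hsc]
    · rw [hib, hsa, ← hddef, hsd]
    · rw [← hddef, hsd, hib, hsa]
    · rw [hid, hsc, ← hbdef, hsb]
  have hsi : i * s = s * i := by
    have ht' : s⁻¹ = s := inv_eq_of_mul_eq_one_left hss
    have hi' : i⁻¹ = i := inv_eq_of_mul_eq_one_left h.sq
    have h2 : (s * i)⁻¹ = s * i := inv_eq_of_mul_eq_one_left hsi2
    rw [mul_inv_rev, ht', hi'] at h2
    exact h2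
  have hsix : ∀ v, i (s v) = s (i v) := fun v => by
    have := congrArg (fun p : Perm α => p v) hsi
    simpa using this
  have hsz : s z = z := by
    have h1 : i (s z) = s z := by rw [hsix, h.fz]
    rcases h.fix hF h1 with e | e
    · exfalso
      apply hwz
      apply s.injective
      rw [e, hsw]
    · exact e
  -- the Sylow subgroup
  let C := Csub G Γ i
  let B := C ⊓ Fx G {w}
  have hBA : B ≤ C := inf_le_left
  have hjC : j ∈ C := by
    refine ⟨hj, ?_, hij.symm⟩
    intro x hx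
    rw [hmemΓ] at hx
    rcases hx with rfl | rfl | rfl | rfl
    · rw [hja]; exact haΓ
    · rw [hjb]; exact hbΓ
    · rw [hjc, ← hddef]; exact hdΓ
    · rw [hjd]; exact hcΓ
  have hCphi : ∀ x ∈ C, ∀ v, v = w ∨ v = z → x v = w ∨ x v = z := by
    intro x hx v hv
    have h2 : ∀ y, x (i y) = i (x y) := fun y => by
      have := congrArg (fun p : Perm α => p y) hx.2.2
      simpa using this
    apply h.fix hF
    rw [← h2]
    rcases hv with rfl | rfl
    · rw [h.fw]
    · rw [h.fz]
  have hjB : j ∉ B := by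
    intro hc
    have := hc.2.2 w (Finset.mem_singleton_self w)
    rw [hjw] at this
    exact hwz this.symm
  have hidx : ∀ x ∈ C, x ∉ B → x * j ∈ B := by
    intro x hx hxB
    have hxw : x w ≠ w := fun e => hxB ⟨hx, hx.1, fun y hy => by
      rw [Finset.mem_singleton] at hy
      rw [hy, e]⟩
    have h1 : x w = z := (hCphi x hx w (Or.inl rfl)).resolve_left hxw
    have h2 : x z = w := by
      rcases hCphi x hx z (Or.inr rfl) with e | e
      · exact e
      · exfalso
        apply hwz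
        apply x.injective
        rw [h1, e]
    refine ⟨C.mul_mem hx hjC, G.mul_mem hx.1 hj, fun y hy => ?_⟩
    rw [Finset.mem_singleton] at hy
    subst hy
    simp only [Perm.mul_apply]
    rw [hjw, h2]
  have hiC : i ∈ C := by
    refine ⟨h.mem, ?_, rfl⟩
    intro x hx
    rw [hionσ x hx]
    exact hs1 x hx
  have hsC : s ∈ C := ⟨hsG, Stb_of_on hs2 hson, hsi.symm⟩
  let Q := kleinSub i s h.sq hss hsi
  have hQB : Q ≤ B := by
    intro x hx
    have hiB : i ∈ B := ⟨hiC, hiH⟩
    have hsB : s ∈ B := ⟨hsC, hsH⟩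
    rcases hx with e | e | e | e
    · rw [e]; exact B.one_mem
    · rw [e]; exact hiB
    · rw [e]; exact hsB
    · rw [e]; exact B.mul_mem hiB hsB
  have hpQ : IsPGroup 2 Q := by
    intro x
    refine ⟨1, Subtype.ext ?_⟩
    have h3 : (x : Perm α) * x = 1 := by
      rcases x.2 with e | e | e | e
      · rw [e]; simp
      · rw [e]; exact h.sq
      · rw [e]; exact hss
      · rw [e, mul_assoc, ← mul_assoc s, ← hsi, mul_assoc, hss, mul_one, h.sq]
    simp only [pow_one, Subgroup.coe_one, pow_two]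
    exact h3
  obtain ⟨P, hPC, hpP, hQP, hPB⟩ := sylow_escape_sub hBA hjC hjB hidx hQB hpQ
  obtain ⟨t₀, ht₀, ht₀B⟩ := SetLike.not_le_iff_exists.mp hPB
  have hiP : i ∈ P := hQP (Or.inr (Or.inl rfl))
  have hsP : s ∈ P := hQP (Or.inr (Or.inr (Or.inl rfl)))
  have hisP : i * s ∈ P := P.mul_mem hiP hsP
  have two_of : ∀ x ∈ P, IsTwo x := fun x hx => isTwo_of_pgroup hpP hx
  have hGP : ∀ x ∈ P, x ∈ G := fun x hx => (hPC hx).1
  have hcomm : ∀ x ∈ P, ∀ y, x (i y) = i (x y) := fun x hx y => by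
    have := congrArg (fun p : Perm α => p y) (hPC hx).2.2
    simpa using this
  have hstb : ∀ x ∈ P, Stb x Γ := fun x hx => (hPC hx).2.1
  have hcases3 : ∀ x ∈ P, x a = a → x b = b → x c = c → x = 1 := fun x hx h1 h2 h3 =>
    three_fix hF (hGP x hx) (two_of x hx) h1 h2 h3 hab hcb.symm hca.symm
  -- semiregularity outside `Σ`
  have hsemi : ∀ x ∈ P, ∀ v, v ≠ a → v ≠ b → v ≠ c → v ≠ d → v ≠ w → v ≠ z → x v = v → x = 1 := by
    intro x hx v hva hvb hvc hvd hvw hvz hxv
    have hi_notfix : i v ≠ v := by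
      intro e
      rcases h.fix hF e with e' | e'
      · exact hvw e'
      · exact hvz e'
    have hxa := hstb x hx a haΓ
    have hxc := hstb x hx c hcΓ
    rw [hmemΓ] at hxa hxc
    have hxb' : x b = i (x a) := hcomm x hx a
    have hxd' : x d = i (x c) := hcomm x hx c
    rcases hxa with e | e | e | e
    · -- `x a = a`
      rw [e] at hxb'
      exact three_fix hF (hGP x hx) (two_of x hx) e hxb' hxv hab (Ne.symm hvb) (Ne.symm hva)
    · -- `x a = b`
      rw [e, hib] at hxb'
      rcases hxc with e' | e' | e' | e'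
      · exfalso
        apply hcb
        apply x.injective
        rw [e', hxb']
      · exfalso
        apply hca
        apply x.injective
        rw [e', e]
      · -- `x c = c`
        rw [e'] at hxd'
        exact three_fix hF (hGP x hx) (two_of x hx) e' hxd' hxv hcd (Ne.symm hvd) (Ne.symm hvc)
      · -- `x c = d`
        rw [e', hid] at hxd'
        exfalso
        have hy : x * i = 1 := hcases3 _ (P.mul_mem hx hiP) (by
          simp only [Perm.mul_apply]; rw [← hbdef, hxb']) (by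
          simp only [Perm.mul_apply]; rw [hib, e]) (by
          simp only [Perm.mul_apply]; rw [← hddef, hxd'])
        have hxi : x = i := by
          have h3 : x = x * (i * i) := by rw [h.sq, mul_one]
          rw [h3, ← mul_assoc, hy, one_mul]
        rw [hxi] at hxv
        exact hi_notfix hxv
    · -- `x a = c`
      rw [e, ← hddef] at hxb'
      rcases hxc with e' | e' | e' | e'
      · -- `x c = a`
        rw [e', ← hbdef] at hxd'
        exfalso
        have hy : x * s = 1 := hcases3 _ (P.mul_mem hx hsP) (by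
          simp only [Perm.mul_apply]; rw [hsa, e']) (by
          simp only [Perm.mul_apply]; rw [hsb, hxd']) (by
          simp only [Perm.mul_apply]; rw [hsc, e])
        have hxs : x = s := by
          have h3 : x = x * (s * s) := by rw [hss, mul_one]
          rw [h3, ← mul_assoc, hy, one_mul]
        rw [hxs] at hxv
        have : s = 1 := three_fix hF hsG hst hsw hsz hxv hwz (Ne.symm hvz) (Ne.symm hvw)
        rw [this] at hsa
        exact hca hsa.symm
      · -- `x c = b`
        rw [e', hib] at hxd'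
        exfalso
        have hy : x * x * i = 1 := hcases3 _ (P.mul_mem (P.mul_mem hx hx) hiP) (by
          simp only [Perm.mul_apply]; rw [← hbdef, hxb', hxd']) (by
          simp only [Perm.mul_apply]; rw [hib, e, e']) (by
          simp only [Perm.mul_apply]; rw [← hddef, hxd', e])
        have hxx : x * x = i := by
          have h3 : x * x = x * x * (i * i) := by rw [h.sq, mul_one]
          rw [h3, ← mul_assoc, hy, one_mul]
        apply hi_notfix
        rw [← hxx]
        simp only [Perm.mul_apply]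
        rw [hxv, hxv]
      · exfalso
        apply hca
        apply x.injective
        rw [e', e]
      · exfalso
        apply hcb
        apply x.injective
        rw [e', hxb']
    · -- `x a = d`
      rw [e, hid] at hxb'
      rcases hxc with e' | e' | e' | e'
      · -- `x c = a`
        rw [e', ← hbdef] at hxd'
        exfalso
        have hy : x * x * i = 1 := hcases3 _ (P.mul_mem (P.mul_mem hx hx) hiP) (by
          simp only [Perm.mul_apply]; rw [← hbdef, hxb', e']) (by
          simp only [Perm.mul_apply]; rw [hib, e, hxd']) (by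
          simp only [Perm.mul_apply]; rw [← hddef, hxd', hxb'])
        have hxx : x * x = i := by
          have h3 : x * x = x * x * (i * i) := by rw [h.sq, mul_one]
          rw [h3, ← mul_assoc, hy, one_mul]
        apply hi_notfix
        rw [← hxx]
        simp only [Perm.mul_apply]
        rw [hxv, hxv]
      · -- `x c = b`
        rw [e', hib] at hxd'
        exfalso
        have hy : x * (i * s) = 1 := hcases3 _ (P.mul_mem hx hisP) (by
          simp only [Perm.mul_apply]; rw [hsa, ← hddef, hxd']) (by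
          simp only [Perm.mul_apply]; rw [hsb, hid, e']) (by
          simp only [Perm.mul_apply]; rw [hsc, ← hbdef, hxb'])
        have his2 : i * s * (i * s) = 1 := by
          rw [mul_assoc, ← mul_assoc s, ← hsi, mul_assoc, hss, mul_one, h.sq]
        have hxs : x = i * s := by
          have h3 : x = x * ((i * s) * (i * s)) := by rw [his2, mul_one]
          rw [h3, ← mul_assoc, hy, one_mul]
        rw [hxs] at hxv
        have h5 : i * s = 1 := three_fix hF (hGP _ hisP) (two_of _ hisP) (p := w) (q := z) (r := v)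
          (by simp only [Perm.mul_apply]; rw [hsw, h.fw])
          (by simp only [Perm.mul_apply]; rw [hsz, h.fz]) hxv hwz (Ne.symm hvz) (Ne.symm hvw)
        have h6 := congrArg (fun p : Perm α => p a) h5
        simp only [Perm.mul_apply, Perm.one_apply] at h6
        rw [hsa, ← hddef] at h6
        exact hda h6
      · exfalso
        apply hcb
        apply x.injective
        rw [e', hxb']
      · exfalso
        apply hca
        apply x.injective
        rw [e', e]
  -- the order of `P`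
  have hcard5 : 5 ≤ Nat.card P := by
    rw [← card_Ufin]
    have hsub : ({1, i, s, i * s, t₀} : Finset (Perm α)) ⊆ Ufin P := by
      intro x hx
      simp only [Finset.mem_insert, Finset.mem_singleton] at hx
      rw [mem_Ufin]
      rcases hx with e | e | e | e | e <;> rw [e]
      · exact P.one_mem
      · exact hiP
      · exact hsP
      · exact hisP
      · exact ht₀
    have ht₀w : t₀ w ≠ w := fun e => ht₀B ⟨hPC ht₀, (hPC ht₀).1, fun y hy => by
      rw [Finset.mem_singleton] at hy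
      rw [hy, e]⟩
    have hne : ∀ x : Perm α, x w = w → t₀ ≠ x := fun x hx e => ht₀w (by rw [e, hx])
    have h1i : (1 : Perm α) ≠ i := fun e => h.one e.symm
    have h1s : (1 : Perm α) ≠ s := fun e => by
      rw [← e] at hsa
      exact hca hsa.symm
    have his : i ≠ s := fun e => by
      rw [← e] at hsa
      exact hcb (hsa.symm)
    have hisa : (i * s) a = d := by
      simp only [Perm.mul_apply]
      rw [hsa]
    have h1is : (1 : Perm α) ≠ i * s := fun e => by
      rw [← e] at hisa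
      exact hda hisa.symm
    have hiis : i ≠ i * s := fun e => by
      rw [← e] at hisa
      exact hdb hisa.symm
    have hsis : s ≠ i * s := fun e => by
      rw [← e, hsa] at hisa
      exact hcd hisa
    have hcard : ({1, i, s, i * s, t₀} : Finset (Perm α)).card = 5 := by
      rw [Finset.card_eq_succ]
      refine ⟨1, {i, s, i * s, t₀}, ?_, rfl, ?_⟩
      · simp only [Finset.mem_insert, Finset.mem_singleton, not_or]
        exact ⟨h1i, h1s, h1is, (hne 1 rfl).symm⟩
      rw [Finset.card_eq_succ]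
      refine ⟨i, {s, i * s, t₀}, ?_, rfl, ?_⟩
      · simp only [Finset.mem_insert, Finset.mem_singleton, not_or]
        exact ⟨his, hiis, (hne i h.fw).symm⟩
      rw [Finset.card_eq_three]
      exact ⟨s, i * s, t₀, hsis, (hne s hsw).symm, (hne (i * s) (by
        simp only [Perm.mul_apply]; rw [hsw, h.fw])).symm, rfl⟩
    rw [← hcard]
    exact Finset.card_le_card hsub
  have h8P : 8 ∣ Nat.card P := by
    haveI : Fact (Nat.Prime 2) := ⟨Nat.prime_two⟩
    obtain ⟨r, hr⟩ := IsPGroup.iff_card.mp hpP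
    have hr3 : 3 ≤ r := by
      by_contra hc
      have : r ≤ 2 := by omega
      have h5 : 2 ^ r ≤ 2 ^ 2 := Nat.pow_le_pow_right (by norm_num) this
      rw [hr] at hcard5
      omega
    rw [hr]
    exact pow_dvd_pow 2 hr3
  -- the set `Σ`
  set Sg : Finset α := {a, b, c, d, w, z} with hSg
  have hSgcard : Sg.card = 6 := by
    rw [hSg, Finset.card_eq_succ]
    refine ⟨a, {b, c, d, w, z}, ?_, rfl, ?_⟩
    · simp only [Finset.mem_insert, Finset.mem_singleton, not_or]
      exact ⟨hab, hca.symm, hda.symm, haw, haz⟩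
    rw [Finset.card_eq_succ]
    refine ⟨b, {c, d, w, z}, ?_, rfl, ?_⟩
    · simp only [Finset.mem_insert, Finset.mem_singleton, not_or]
      exact ⟨hcb.symm, hdb.symm, hbw, hbz⟩
    rw [Finset.card_eq_succ]
    refine ⟨c, {d, w, z}, ?_, rfl, ?_⟩
    · simp only [Finset.mem_insert, Finset.mem_singleton, not_or]
      exact ⟨hcd, hcw, hcz⟩
    rw [Finset.card_eq_three]
    exact ⟨d, w, z, hdw, hdz, hwz, rfl⟩
  have hlift1 : ∀ q : α, (q = a ∨ q = b ∨ q = c ∨ q = d) →
      (q = a ∨ q = b ∨ q = c ∨ q = d ∨ q = w ∨ q = z) := by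
    rintro q (h1 | h1 | h1 | h1)
    · exact Or.inl h1
    · exact Or.inr (Or.inl h1)
    · exact Or.inr (Or.inr (Or.inl h1))
    · exact Or.inr (Or.inr (Or.inr (Or.inl h1)))
  have hlift2 : ∀ q : α, (q = w ∨ q = z) →
      (q = a ∨ q = b ∨ q = c ∨ q = d ∨ q = w ∨ q = z) := by
    rintro q (h1 | h1)
    · exact Or.inr (Or.inr (Or.inr (Or.inr (Or.inl h1))))
    · exact Or.inr (Or.inr (Or.inr (Or.inr (Or.inr h1))))
  have hstbSg : ∀ x ∈ P, Stb x Sg := by
    intro x hx y hy
    simp only [hSg, Finset.mem_insert, Finset.mem_singleton] at hy ⊢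
    rcases hy with e | e | e | e | e | e
    · rw [e]
      exact hlift1 _ ((hmemΓ _).mp (hstb x hx a haΓ))
    · rw [e]
      exact hlift1 _ ((hmemΓ _).mp (hstb x hx b hbΓ))
    · rw [e]
      exact hlift1 _ ((hmemΓ _).mp (hstb x hx c hcΓ))
    · rw [e]
      exact hlift1 _ ((hmemΓ _).mp (hstb x hx d hdΓ))
    · rw [e]
      exact hlift2 _ (hCphi x (hPC hx) w (Or.inl rfl))
    · rw [e]
      exact hlift2 _ (hCphi x (hPC hx) z (Or.inr rfl))
  have hdvd := dvd_card_of_orbF (P := P) (d := Nat.card P) (Sgᶜ) (by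
    intro g hg x hx
    rw [Finset.mem_compl] at hx ⊢
    exact fun hc => hx (((hstbSg g hg).mem_iff x).mp hc)) (by
    intro x hx
    rw [Finset.mem_compl] at hx
    have hne : x ≠ a ∧ x ≠ b ∧ x ≠ c ∧ x ≠ d ∧ x ≠ w ∧ x ≠ z := by
      simpa [hSg, not_or] using hx
    have h1 := card_eq_orbF_mul (P := P) (Q := ⊥) (u := x) (fun g => by
      constructor
      · intro hg
        rw [Subgroup.mem_bot] at hg
        rw [hg]
        exact ⟨P.one_mem, rfl⟩
      · rintro ⟨hg, hgx⟩
        rw [Subgroup.mem_bot]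
        exact hsemi g hg x hne.1 hne.2.1 hne.2.2.1 hne.2.2.2.1 hne.2.2.2.2.1 hne.2.2.2.2.2 hgx)
    simp only [Subgroup.card_bot, mul_one] at h1
    exact h1.symm)
  rw [Finset.card_compl, hSgcard] at hdvd
  exact h8P.trans hdvd

end Cfsg.Agent.Lib.LWAlt5
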