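import Mathlib
import Cfsg.Agent.Lib.LWAlt5

/-!
The sign argument excluding `t = 4`, degree at least 10.
-/

set_option autoImplicit false
set_option linter.unusedSectionVars false
set_option linter.style.haveILetI false

namespace Cfsg.Agent.Lib.LWAlt6

open Equiv Cfsg.Agent.Lib.LWBasic Cfsg.Agent.Lib.LWAlt1 Cfsg.Agent.Lib.LWAlt2
open Cfsg.Agent.Lib.LWAlt3 Cfsg.Agent.Lib.LWAlt4 Cfsg.Agent.Lib.LWAlt5

variable {α : Type*} [Fintype α] [DecidableEq α] {G : Subgroup (Perm α)}

/-- The sign of a fixed-point-free involution. -/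
lemma sign_fpf {X : Type*} [Fintype X] [DecidableEq X] {τ : Perm X} (h1 : τ * τ = 1)
    (h2 : ∀ p, τ p ≠ p) : Perm.sign τ = (-1) ^ (Fintype.card X / 2) := by
  haveI : Fact (Nat.Prime 2) := ⟨Nat.prime_two⟩
  have h3 : τ ^ 2 = 1 := by rw [pow_two, h1]
  have h4 := Perm.sign_of_cycleType_eq_replicate (σ := τ) (n := 2) (by norm_num)
    (Perm.cycleType_of_pow_prime_eq_one h3)
  have h5 : Fintype.card (Function.fixedPoints τ) = 0 := by
    rw [Fintype.card_eq_zero_iff]
    exact ⟨fun p => h2 p.1 p.2⟩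
  rw [h5, Nat.sub_zero, if_neg (by decide)] at h4
  exact h4

/-- The centraliser of `i` in the stabiliser of `w, z`. -/
def Nsub (G : Subgroup (Perm α)) (i : Perm α) (w z : α) : Subgroup (Perm α) where
  carrier := {x | x ∈ G ∧ x w = w ∧ x z = z ∧ x * i = i * x}
  mul_mem' := by
    rintro x y ⟨hx, hx1, hx2, hx3⟩ ⟨hy, hy1, hy2, hy3⟩
    refine ⟨G.mul_mem hx hy, by simp [hy1, hx1], by simp [hy2, hx2], ?_⟩
    rw [mul_assoc, hy3, ← mul_assoc, hx3, mul_assoc]
  one_mem' := ⟨G.one_mem, rfl, rfl, by simp⟩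
  inv_mem' := by
    rintro x ⟨hx, hx1, hx2, hx3⟩
    refine ⟨G.inv_mem hx, by rw [Perm.inv_eq_iff_eq, hx1], by rw [Perm.inv_eq_iff_eq, hx2], ?_⟩
    rw [inv_mul_eq_iff_eq_mul, ← mul_assoc, hx3, mul_assoc, mul_inv_cancel, mul_one]

/-- The 2-cycles of `i` as a finset of finsets. -/
def Mset (i : Perm α) (w z : α) : Finset (Finset α) :=
  ((Finset.univ.erase w).erase z).image fun y => ({y, i y} : Finset α)

lemma mem_Mset {i : Perm α} {w z : α} {P : Finset α} :
    P ∈ Mset i w z ↔ ∃ y, y ≠ w ∧ y ≠ z ∧ P = {y, i y} := by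
  simp only [Mset, Finset.mem_image, Finset.mem_erase, Finset.mem_univ, and_true]
  constructor
  · rintro ⟨y, ⟨h1, h2⟩, rfl⟩
    exact ⟨y, h2, h1, rfl⟩
  · rintro ⟨y, h1, h2, rfl⟩
    exact ⟨y, ⟨h2, h1⟩, rfl⟩

lemma map_pair (x : Perm α) {i : Perm α} (hx : x * i = i * x) (y : α) :
    ({y, i y} : Finset α).map x.toEmbedding = {x y, i (x y)} := by
  have h1 : x (i y) = i (x y) := by
    have := congrArg (fun p : Perm α => p y) hx
    simpa using this
  rw [Finset.map_insert, Finset.map_singleton]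
  simp only [Equiv.coe_toEmbedding]
  rw [h1]

lemma map_mem_Mset {i : Perm α} {w z : α} {x : Perm α} (hx : x ∈ Nsub G i w z) {P : Finset α}
    (hP : P ∈ Mset i w z) : P.map x.toEmbedding ∈ Mset i w z := by
  obtain ⟨y, h1, h2, rfl⟩ := mem_Mset.mp hP
  rw [map_pair x hx.2.2.2]
  refine mem_Mset.mpr ⟨x y, ?_, ?_, rfl⟩
  · intro e
    apply h1
    apply x.injective
    rw [e, hx.2.1]
  · intro e
    apply h2
    apply x.injective
    rw [e, hx.2.2.1]

/-- The permutation induced on the 2-cycles. -/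
noncomputable def psi (G : Subgroup (Perm α)) (i : Perm α) (w z : α) :
    Nsub G i w z →* Perm ↥(Mset i w z) :=
  MonoidHom.mk' (fun x => Perm.subtypePerm (Equiv.finsetCongr (x : Perm α)) (by
    intro P
    constructor
    · intro hP
      have h1 := map_mem_Mset (Subgroup.inv_mem _ x.2) hP
      have h2 : ((P.map (x : Perm α).toEmbedding).map ((x : Perm α)⁻¹).toEmbedding) = P := by
        rw [Finset.map_map]
        ext a
        simp
      have h3 : (Equiv.finsetCongr (x : Perm α) P) = P.map (x : Perm α).toEmbedding := rfl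
      rw [h3] at h1 hP
      rwa [h2] at h1
    · intro hP
      exact map_mem_Mset x.2 hP)) (by
    intro x y
    ext P a
    simp [Perm.subtypePerm]
    exact Iff.rfl)

lemma psi_apply (i : Perm α) (w z : α) (x : Nsub G i w z) (P : ↥(Mset i w z)) :
    ((psi G i w z x P : ↥(Mset i w z)) : Finset α) = (P : Finset α).map (x : Perm α).toEmbedding :=
  rfl

/-- The character. -/
noncomputable def eps (G : Subgroup (Perm α)) (i : Perm α) (w z : α) : Nsub G i w z →* ℤˣ :=
  Perm.sign.comp (psi G i w z)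

lemma eps_odd {i : Perm α} {w z : α} (x : Nsub G i w z) (hx : Odd (orderOf (x : Perm α))) :
    eps G i w z x = 1 := by
  have h1 : (eps G i w z x) ^ orderOf (x : Perm α) = 1 := by
    rw [← map_pow, Subgroup.orderOf_coe, pow_orderOf_eq_one, map_one]
  rcases Int.units_eq_one_or (eps G i w z x) with h | h
  · exact h
  · rw [h, hx.neg_one_pow] at h1
    exact absurd h1 (by decide)

/-- The number of 2-cycles. -/
lemma card_Mset (hF : F1 G 4) {i : Perm α} {w z : α} (h : Inv4 G i w z) :
    (Mset i w z).card * 2 + 2 = Fintype.card α := by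
  set Ω' := (Finset.univ.erase w).erase z with hΩ
  have hΩcard : Ω'.card + 2 = Fintype.card α := by
    have hcw : 1 ≤ Fintype.card α := Fintype.card_pos_iff.mpr ⟨w⟩
    have hzmem : z ∈ Finset.univ.erase w := Finset.mem_erase.mpr ⟨h.ne.symm, Finset.mem_univ z⟩
    have hcz : 1 ≤ (Finset.univ.erase w).card := Finset.card_pos.mpr ⟨z, hzmem⟩
    rw [hΩ, Finset.card_erase_of_mem hzmem, Finset.card_erase_of_mem (Finset.mem_univ w),
      Finset.card_univ] at *
    omega
  have h1 := Finset.card_eq_sum_card_image (fun y => ({y, i y} : Finset α)) Ω'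
  have h2 : ∀ P ∈ Ω'.image (fun y => ({y, i y} : Finset α)),
      (Ω'.filter fun y => ({y, i y} : Finset α) = P).card = 2 := by
    intro P hP
    obtain ⟨y, hy, rfl⟩ := Finset.mem_image.mp hP
    have hyne : i y ≠ y := by
      intro e
      rw [hΩ, Finset.mem_erase, Finset.mem_erase] at hy
      rcases h.fix hF e with e' | e'
      · exact hy.2.1 e'
      · exact hy.1 e'
    have h3 : (Ω'.filter fun y' => ({y', i y'} : Finset α) = {y, i y}) = {y, i y} := by
      ext y'
      simp only [Finset.mem_filter, Finset.mem_insert, Finset.mem_singleton]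
      constructor
      · rintro ⟨_, h4⟩
        have : y' ∈ ({y', i y'} : Finset α) := by simp
        rw [h4] at this
        simpa using this
      · rintro (rfl | rfl)
        · exact ⟨hy, rfl⟩
        · refine ⟨?_, ?_⟩
          · rw [hΩ, Finset.mem_erase, Finset.mem_erase] at hy ⊢
            refine ⟨fun e => hy.1 ?_, fun e => hy.2.1 ?_, Finset.mem_univ _⟩
            · apply i.injective
              rw [e, h.fz]
            · apply i.injective
              rw [e, h.fw]
          · rw [h.apply_apply, Finset.pair_comm]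
    rw [h3, Finset.card_pair hyne.symm]
  rw [Finset.sum_congr rfl h2, Finset.sum_const, smul_eq_mul] at h1
  have h3 : Mset i w z = Ω'.image (fun y => ({y, i y} : Finset α)) := rfl
  rw [h3]
  omega

/-- The exclusion of degree at least 10 for `t = 4`. -/
theorem no_four (hPT : PT G 4) (hF : F1 G 4) (hn : 10 ≤ Fintype.card α) : False := by
  have hb2 := hb2_of_F1 hF (by omega)
  obtain ⟨i, w, z, h⟩ := exists_inv4 hPT hF (by omega)
  have hwz := h.ne
  obtain ⟨q, hq⟩ := eight_dvd hPT hF h (by omega)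
  have hM := card_Mset hF h
  have hMcard : (Mset i w z).card = 4 * q + 2 := by omega
  -- 2-elements outside `⟨i⟩` have sign `-1`
  have hS1 : ∀ (t : Perm α) (ht : t ∈ Nsub G i w z), IsTwo t → t ≠ 1 → t ≠ i →
      eps G i w z ⟨t, ht⟩ = -1 := by
    intro t ht htt ht1 hti
    have htG : t ∈ G := ht.1
    have htt2 : t * t = 1 := sq_of_fix_two hPT hF htG htt ht.2.1 ht.2.2.1 hwz
    have h1 : psi G i w z ⟨t, ht⟩ * psi G i w z ⟨t, ht⟩ = 1 := by
      rw [← map_mul]
      have : (⟨t, ht⟩ : Nsub G i w z) * ⟨t, ht⟩ = 1 := Subtype.ext htt2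
      rw [this, map_one]
    have h2 : ∀ P, psi G i w z ⟨t, ht⟩ P ≠ P := by
      rintro ⟨P, hP⟩ hc
      obtain ⟨y, hy1, hy2, rfl⟩ := mem_Mset.mp hP
      have h3 := congrArg Subtype.val hc
      rw [psi_apply] at h3
      simp only at h3
      rw [map_pair t ht.2.2.2] at h3
      have h4 : t y ∈ ({y, i y} : Finset α) := by
        rw [← h3]
        simp
      simp only [Finset.mem_insert, Finset.mem_singleton] at h4
      rcases h4 with h4 | h4
      · exact ht1 (three_fix hF htG htt ht.2.1 ht.2.2.1 h4 hwz (Ne.symm hy2) (Ne.symm hy1))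
      · have him : i * t ∈ G := G.mul_mem h.mem htG
        have hcomm := ht.2.2.2
        have hit2 : IsTwo (i * t) := ⟨1, by
          rw [pow_one, pow_two, mul_assoc, ← mul_assoc t, hcomm, mul_assoc, htt2, mul_one, h.sq]⟩
        have h5 : i * t = 1 := three_fix hF him hit2 (p := w) (q := z) (r := y)
          (by simp only [Perm.mul_apply]; rw [ht.2.1, h.fw])
          (by simp only [Perm.mul_apply]; rw [ht.2.2.1, h.fz])
          (by simp only [Perm.mul_apply]; rw [h4, h.apply_apply]) hwz (Ne.symm hy2) (Ne.symm hy1)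
        apply hti
        have h6 : t = i * (i * t) := by rw [← mul_assoc, h.sq, one_mul]
        rw [h6, h5, mul_one]
    have h3 := sign_fpf h1 h2
    rw [Fintype.card_coe, hMcard] at h3
    have h4 : (4 * q + 2) / 2 = 2 * q + 1 := by omega
    rw [h4] at h3
    show Perm.sign (psi G i w z ⟨t, ht⟩) = -1
    rw [h3, pow_succ, pow_mul]
    simp
  have hiN : i ∈ Nsub G i w z := ⟨h.mem, h.fw, h.fz, rfl⟩
  have heps_i : eps G i w z ⟨i, hiN⟩ = 1 := by
    have h1 : psi G i w z ⟨i, hiN⟩ = 1 := by
      ext1 P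
      apply Subtype.ext
      rw [psi_apply]
      obtain ⟨P, hP⟩ := P
      obtain ⟨y, hy1, hy2, rfl⟩ := mem_Mset.mp hP
      simp only [Perm.one_apply]
      rw [map_pair i rfl, h.apply_apply, Finset.pair_comm]
    show Perm.sign (psi G i w z ⟨i, hiN⟩) = 1
    rw [h1, map_one]
  -- the kernel
  let K : Subgroup (Perm α) := (eps G i w z).ker.map (Nsub G i w z).subtype
  have hmemK : ∀ x (hx : x ∈ Nsub G i w z), eps G i w z ⟨x, hx⟩ = 1 → x ∈ K := by
    intro x hx h1
    exact ⟨⟨x, hx⟩, h1, rfl⟩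
  have hKmem : ∀ x ∈ K, ∃ hx : x ∈ Nsub G i w z, eps G i w z ⟨x, hx⟩ = 1 := by
    rintro _ ⟨⟨x, hx⟩, h1, rfl⟩
    exact ⟨hx, h1⟩
  have hiK : i ∈ K := hmemK i hiN heps_i
  -- transitivity
  have htrans : ∀ y y', y ≠ w → y ≠ z → y' ≠ w → y' ≠ z → ∃ x ∈ K, x y = y' := by
    intro y y' hy1 hy2 hy1' hy2'
    by_cases e1 : y' = y
    · exact ⟨1, K.one_mem, e1.symm⟩
    by_cases e2 : y' = i y
    · exact ⟨i, hiK, e2.symm⟩
    obtain ⟨e, _, heT⟩ := exists_avoid (T := {w, z, y, i y, y', i y'}) (Δ := Finset.univ) (by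
      have h1 : ({w, z, y, i y, y', i y'} : Finset α).card ≤ 6 := by
        refine (Finset.card_insert_le _ _).trans (Nat.succ_le_succ ?_)
        refine (Finset.card_insert_le _ _).trans (Nat.succ_le_succ ?_)
        exact Finset.card_le_four
      rw [Finset.card_univ]
      omega)
    simp only [Finset.mem_insert, Finset.mem_singleton, not_or] at heT
    obtain ⟨he1, he2, he3, he4, he5, he6⟩ := heT
    have hie : ∀ v, v ≠ e → i v ≠ e → v ≠ i e := by
      intro v h1 h2 h3
      apply h2
      rw [h3, h.apply_apply]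
    have hiew : i e ≠ w := by
      intro e'
      apply he1
      apply i.injective
      rw [e', h.fw]
    have hiez : i e ≠ z := by
      intro e'
      apply he2
      apply i.injective
      rw [e', h.fz]
    have heie : e ≠ i e := by
      intro e'
      rcases h.fix hF e'.symm with e'' | e''
      · exact he1 e''
      · exact he2 e''
    have hΓ' : ({e, i e, w, z} : Finset α).card = 4 := by
      rw [Finset.card_eq_succ]
      refine ⟨e, {i e, w, z}, by simp [heie, he1, he2], rfl, ?_⟩
      rw [Finset.card_eq_three]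
      exact ⟨i e, w, z, hiew, hiez, hwz, rfl⟩
    have hion : ∀ c ∈ ({e, i e, w, z} : Finset α), i c = swap e (i e) c := by
      intro c hc
      simp only [Finset.mem_insert, Finset.mem_singleton] at hc
      rcases hc with rfl | rfl | rfl | rfl
      · rw [swap_apply_left]
      · rw [swap_apply_right, h.apply_apply]
      · rw [h.fw, swap_apply_of_ne_of_ne (Ne.symm he1) (Ne.symm hiew)]
      · rw [h.fz, swap_apply_of_ne_of_ne (Ne.symm he2) (Ne.symm hiez)]
    have hyΓ : y ∉ ({e, i e, w, z} : Finset α) := by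
      simp only [Finset.mem_insert, Finset.mem_singleton, not_or]
      exact ⟨Ne.symm he3, hie y (Ne.symm he3) (Ne.symm he4), hy1, hy2⟩
    have hy'Γ : y' ∉ ({e, i e, w, z} : Finset α) := by
      simp only [Finset.mem_insert, Finset.mem_singleton, not_or]
      exact ⟨Ne.symm he5, hie y' (Ne.symm he5) (Ne.symm he6), hy1', hy2'⟩
    obtain ⟨c, hc, hci, hcy⟩ := exists_conj (le_refl 4) hPT hb2 hΓ' (a := e) (b := i e)
      (by simp) (by simp) heie h.mem h.two hion hyΓ hy'Γ
    have hcN : c ∈ Nsub G i w z := ⟨hc.1, hc.2 w (by simp), hc.2 z (by simp), hci⟩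
    have hUodd : Odd (Nat.card (Fx G {e, i e, w, z})) := by
      refine odd_card_of_no_invol fun g hg hgg => ?_
      by_contra hg1
      have h1 := hb2 g hg.1 ⟨1, by simpa [pow_two] using hgg⟩ hg1
      have h2 : ({e, i e, w, z} : Finset α) ⊆ Fix g := fun x hx => mem_Fix.mpr (hg.2 x hx)
      have h3 := Finset.card_le_card h2
      omega
    have hcodd : Odd (orderOf c) := by
      have h1 : orderOf (⟨c, hc⟩ : Fx G {e, i e, w, z}) ∣ Nat.card (Fx G {e, i e, w, z}) :=
        orderOf_dvd_natCard _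
      rw [Subgroup.orderOf_mk] at h1
      exact Odd.of_dvd_nat hUodd h1
    have hcK : c ∈ K := hmemK c hcN (eps_odd ⟨c, hcN⟩ hcodd)
    rcases hcy with hcy | hcy
    · exact ⟨c, hcK, hcy⟩
    · refine ⟨i * c, K.mul_mem hiK hcK, ?_⟩
      simp only [Perm.mul_apply]
      rw [hcy, h.apply_apply]
  -- the order of `K` is divisible by 4
  obtain ⟨y₀, _, hy₀⟩ := exists_avoid (T := {w, z}) (Δ := Finset.univ) (by
    have := Finset.card_le_two (a := w) (b := z)
    rw [Finset.card_univ]
    omega)
  simp only [Finset.mem_insert, Finset.mem_singleton, not_or] at hy₀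
  have horb : orbF K y₀ = (Finset.univ.erase w).erase z := by
    ext y
    simp only [mem_orbF, Finset.mem_erase, Finset.mem_univ, and_true]
    constructor
    · rintro ⟨x, hx, rfl⟩
      obtain ⟨hxN, _⟩ := hKmem x hx
      refine ⟨fun e => hy₀.2 ?_, fun e => hy₀.1 ?_⟩
      · apply x.injective
        rw [e, hxN.2.2.1]
      · apply x.injective
        rw [e, hxN.2.1]
    · rintro ⟨h1, h2⟩
      exact htrans y₀ y hy₀.1 hy₀.2 h2 h1
  have hKcard := card_eq_orbF_mul (P := K) (Q := Fx K {y₀}) (u := y₀) (fun g => by simp [mem_Fx])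
  have h4K : 2 ^ 2 ∣ Nat.card K := by
    rw [hKcard, horb]
    have h1 : ((Finset.univ.erase w).erase z).card + 2 = Fintype.card α := by
      have hzmem : z ∈ Finset.univ.erase w := Finset.mem_erase.mpr ⟨hwz.symm, Finset.mem_univ z⟩
      have hcz : 1 ≤ (Finset.univ.erase w).card := Finset.card_pos.mpr ⟨z, hzmem⟩
      rw [Finset.card_erase_of_mem hzmem]
      rw [Finset.card_erase_of_mem (Finset.mem_univ w), Finset.card_univ] at *
      omega
    have h2 : ((Finset.univ.erase w).erase z).card = 4 * (2 * q + 1) := by omega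
    rw [h2]
    exact Dvd.dvd.mul_right (Dvd.intro _ rfl) _
  haveI : Fact (Nat.Prime 2) := ⟨Nat.prime_two⟩
  obtain ⟨H, hH⟩ := Sylow.exists_subgroup_card_pow_prime 2 h4K
  let H' : Subgroup (Perm α) := H.map K.subtype
  have hH' : Nat.card H' = 4 := by
    rw [Subgroup.card_map_of_injective K.subtype_injective, hH]
    norm_num
  obtain ⟨t, htH, htT⟩ : ∃ t ∈ Ufin H', t ∉ ({1, i} : Finset (Perm α)) := by
    by_contra hc
    push Not at hc
    have h1 : Ufin H' ⊆ {1, i} := hc
    have h2 := Finset.card_le_card h1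
    rw [card_Ufin, hH'] at h2
    have h3 := Finset.card_le_two (a := (1 : Perm α)) (b := i)
    omega
  rw [mem_Ufin] at htH
  simp only [Finset.mem_insert, Finset.mem_singleton, not_or] at htT
  have htK : t ∈ K := by
    obtain ⟨x, _, rfl⟩ := htH
    exact x.2
  have htt : IsTwo t := by
    refine ⟨2, ?_⟩
    have h1 := pow_card_eq_one' (x := (⟨t, htH⟩ : H'))
    rw [hH'] at h1
    simpa using congrArg Subtype.val h1
  obtain ⟨htN, hteps⟩ := hKmem t htK
  have := hS1 t htN htt htT.1 htT.2
  rw [hteps] at this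
  exact absurd this (by decide)

/-- The combination. -/
theorem no_F1 {t : ℕ} (ht : 4 ≤ t) (hn : 2 * t + 2 ≤ Fintype.card α) (hPT : PT G t) (hF : F1 G t) :
    False := by
  rcases Nat.eq_or_lt_of_le ht with rfl | h
  · exact no_four hPT hF (by omega)
  · exact no_large (by omega) (by omega) hPT hF

end Cfsg.Agent.Lib.LWAlt6
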