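import Mathlib
import Cfsg.Agent.Lib.LWBasic
import Cfsg.Agent.Lib.LWReflect
import Cfsg.Agent.Lib.LWCore1

/-!
Core of the Livingstone-Wagner transitivity theorem, second part: reflections.
-/

set_option autoImplicit false
set_option linter.unusedSectionVars false
set_option linter.style.haveILetI false

namespace Cfsg.Agent.Lib.LWCore2

open Equiv Cfsg.Agent.Lib.LWBasic Cfsg.Agent.Lib.LWReflect Cfsg.Agent.Lib.LWCore1

variable {α : Type*} [Fintype α] [DecidableEq α] {G : Subgroup (Perm α)}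

lemma mul_self_apply {a : Perm α} (h : a * a = 1) (x : α) : a (a x) = x := by
  have := congrArg (fun p : Perm α => p x) h
  simpa using this

lemma inv_eq_of_invol {a : Perm α} (h : a * a = 1) : a⁻¹ = a :=
  inv_eq_of_mul_eq_one_left h

lemma trans_Fx {j : ℕ} (hPT : PT G j) {X : Finset α} (hX : X.card + 1 = j) {u v : α}
    (hu : u ∉ X) (hv : v ∉ X) : ∃ z ∈ Fx G X, z u = v := by
  classical
  let f : α → α := fun x => if x = u then v else x
  have hinj : Set.InjOn f (↑(insert u X) : Set α) := by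
    intro x hx y hy hxy
    simp only [Finset.coe_insert, Set.mem_insert_iff, Finset.mem_coe] at hx hy
    simp only [f] at hxy
    by_cases hxa : x = u
    · by_cases hya : y = u
      · rw [hxa, hya]
      · exfalso
        rw [if_pos hxa, if_neg hya] at hxy
        have : y ∈ X := hy.resolve_left hya
        exact hv (hxy ▸ this)
    · by_cases hya : y = u
      · exfalso
        rw [if_neg hxa, if_pos hya] at hxy
        have : x ∈ X := hx.resolve_left hxa
        exact hv (hxy ▸ this)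
      · rwa [if_neg hxa, if_neg hya] at hxy
  obtain ⟨g, hg, hg'⟩ := hPT (insert u X) f
    (by rw [Finset.card_insert_of_notMem hu, hX]) hinj
  refine ⟨g, ⟨hg, fun x hx => ?_⟩, ?_⟩
  · rw [hg' x (Finset.mem_insert_of_mem hx)]
    have : x ≠ u := fun e => hu (e ▸ hx)
    simp [f, this]
  · rw [hg' u (Finset.mem_insert_self _ _)]
    simp [f]

lemma two_pt {t : ℕ} (hB : ∀ A : Finset α, A.card = t → Fx G A = ⊥) {X : Finset α}
    (hX : X.card + 2 = t) {z : Perm α} (hz : z ∈ Fx G X) {x y : α} (hx : x ∉ X) (hy : y ∉ X)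
    (hxy : x ≠ y) (h1 : z x = x) (h2 : z y = y) : z = 1 := by
  have hcard : (insert x (insert y X)).card = t := by
    rw [Finset.card_insert_of_notMem, Finset.card_insert_of_notMem hy, ← hX]
    rw [Finset.mem_insert, not_or]
    exact ⟨hxy, hx⟩
  have hmem : z ∈ Fx G (insert x (insert y X)) :=
    (Fx_insert_iff z).mpr ⟨(Fx_insert_iff z).mpr ⟨hz, h2⟩, h1⟩
  rw [hB _ hcard] at hmem
  exact Subgroup.mem_bot.mp hmem

/-- Building a reflection system from one involution with a unique fixed point on the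
complement of `X`. -/
theorem refl_of_invol {X : Finset α}
    (htrans : ∀ u v, u ∉ X → v ∉ X → ∃ z ∈ Fx G X, z u = v)
    (htwo : ∀ z ∈ Fx G X, ∀ x y, x ∉ X → y ∉ X → x ≠ y → z x = x → z y = y → z = 1)
    {a : Perm α} (haG : a ∈ G) (haa : a * a = 1) (haX : ∀ x ∈ X, a x ∈ X) {w : α} (hw : w ∉ X)
    (haw : a w = w) (hauniq : ∀ x, x ∉ X → a x = x → x = w) :
    ∃ ρ : α → Perm α, Refl (Fx G X) Xᶜ ρ ∧ ρ w = a ∧
      ∀ u, u ∉ X → ρ u ∈ G ∧ ∀ c ∈ X, ρ u c = a c := by
  classical
  have h1 : ∀ u, ∃ z : Perm α, u ∉ X → (z ∈ Fx G X ∧ z w = u ∧ (u = w → z = 1)) := by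
    intro u
    by_cases hu : u ∉ X
    · by_cases huw : u = w
      · refine ⟨1, fun _ => ⟨(Fx G X).one_mem, by simp [huw], fun _ => rfl⟩⟩
      · obtain ⟨z, hz, hz'⟩ := htrans w u hw hu
        exact ⟨z, fun _ => ⟨hz, hz', fun e => absurd e huw⟩⟩
    · exact ⟨1, fun h => absurd h hu⟩
  choose x hx using h1
  have hxinvX : ∀ u, u ∉ X → ∀ y, y ∉ X → (x u)⁻¹ y ∉ X := by
    intro u hu y hy
    exact apply_notMem ((Fx G X).inv_mem (hx u hu).1).2 hy
  have haX' : ∀ y, y ∉ X → a y ∉ X := by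
    intro y hy hc
    have := haX _ hc
    rw [mul_self_apply haa] at this
    exact hy this
  have hρc : ∀ u, u ∉ X → ∀ c ∈ X, (x u * a * (x u)⁻¹) c = a c := by
    intro u hu c hc
    have h2 : (x u)⁻¹ c = c := ((Fx G X).inv_mem (hx u hu).1).2 c hc
    simp only [Perm.coe_mul, Function.comp_apply]
    rw [h2]
    exact (hx u hu).1.2 _ (haX c hc)
  refine ⟨fun u => x u * a * (x u)⁻¹, ⟨?_, ?_, ?_, ?_, ?_, ?_⟩, ?_, ?_⟩
  · intro u _
    calc x u * a * (x u)⁻¹ * (x u * a * (x u)⁻¹) = x u * (a * a) * (x u)⁻¹ := by group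
      _ = 1 := by rw [haa]; group
  · intro u hu y hy
    rw [Finset.mem_compl] at hu hy ⊢
    simp only [Perm.coe_mul, Function.comp_apply]
    exact apply_notMem (hx u hu).1.2 (haX' _ (hxinvX u hu y hy))
  · intro u hu
    rw [Finset.mem_compl] at hu
    have h2 : (x u)⁻¹ u = w := by
      rw [Perm.inv_eq_iff_eq]
      exact (hx u hu).2.1.symm
    simp only [Perm.coe_mul, Function.comp_apply]
    rw [h2, haw]
    exact (hx u hu).2.1
  · intro u hu y hy he
    rw [Finset.mem_compl] at hu hy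
    simp only [Perm.coe_mul, Function.comp_apply] at he
    have h2 : a ((x u)⁻¹ y) = (x u)⁻¹ y := by
      rw [Perm.eq_inv_iff_eq]
      exact he
    have h3 := hauniq _ (hxinvX u hu y hy) h2
    rw [Perm.inv_eq_iff_eq] at h3
    rw [h3]
    exact (hx u hu).2.1
  · intro u hu v hv
    rw [Finset.mem_compl] at hu hv
    refine ⟨G.mul_mem (G.mul_mem (G.mul_mem (hx u hu).1.1 haG) (G.inv_mem (hx u hu).1.1))
      (G.mul_mem (G.mul_mem (hx v hv).1.1 haG) (G.inv_mem (hx v hv).1.1)), fun c hc => ?_⟩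
    have h2 := hρc v hv c hc
    rw [Perm.mul_apply, h2, hρc u hu _ (haX c hc), mul_self_apply haa]
  · intro z hz y hy y' hy' hne h2 h3
    rw [Finset.mem_compl] at hy hy'
    exact htwo z hz y y' hy hy' hne h2 h3
  · have h2 : x w = 1 := (hx w hw).2.2 rfl
    simp [h2]
  · intro u hu
    exact ⟨G.mul_mem (G.mul_mem (hx u hu).1.1 haG) (G.inv_mem (hx u hu).1.1), hρc u hu⟩

/-- Existence of involutions inducing a given involution on a `t`-set when `s` is odd. -/
theorem exists_invol {t s : ℕ} (hPT : PT G t)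
    (hs : ∀ A : Finset α, A.card = t → Nat.card (Fx G A) = s) (hodd : Odd s)
    {A : Finset α} (hA : A.card = t) {σ : α → α} (hσ : Set.InjOn σ (↑A : Set α))
    (hσA : ∀ a ∈ A, σ a ∈ A) (hσσ : ∀ a ∈ A, σ (σ a) = a) :
    ∃ g ∈ G, g * g = 1 ∧ ∀ a ∈ A, g a = σ a := by
  obtain ⟨g, hg, hg'⟩ := hPT A σ hA hσ
  have hgg : g * g ∈ Fx G A := by
    refine ⟨G.mul_mem hg hg, fun a ha => ?_⟩
    simp only [Perm.coe_mul, Function.comp_apply]
    rw [hg' a ha, hg' _ (hσA a ha), hσσ a ha]
  have hpow : (g * g) ^ s = 1 := by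
    have h1 : ((⟨g * g, hgg⟩ : Fx G A)) ^ s = 1 := by
      rw [← hs A hA]
      exact pow_card_eq_one'
    simpa using congrArg Subtype.val h1
  obtain ⟨r, hr⟩ := hodd
  refine ⟨g * (g * g) ^ r, G.mul_mem hg (G.pow_mem (G.mul_mem hg hg) r), ?_, fun a ha => ?_⟩
  · have hc : Commute g ((g * g) ^ r) := (Commute.refl g |>.mul_right (Commute.refl g)).pow_right r
    calc g * (g * g) ^ r * (g * (g * g) ^ r) = (g * g) * ((g * g) ^ r * (g * g) ^ r) := by
          rw [mul_assoc, ← mul_assoc ((g * g) ^ r), hc.symm.eq, mul_assoc, mul_assoc]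
      _ = (g * g) ^ (2 * r + 1) := by
          rw [← pow_add, ← two_mul, pow_succ']
      _ = 1 := by rw [← hr, hpow]
  · have h1 : (g * g) ^ r ∈ Fx G A := (Fx G A).pow_mem hgg r
    simp only [Perm.coe_mul, Function.comp_apply]
    rw [h1.2 a ha, hg' a ha]

/-- An involution of `G` fixes fewer than `t` points when `s` is odd. -/
theorem card_fix_lt {t s : ℕ} (hs : ∀ A : Finset α, A.card = t → Nat.card (Fx G A) = s)
    (hodd : Odd s) {g : Perm α} (hg : g ∈ G) (hgg : g * g = 1) (hg1 : g ≠ 1) {C : Finset α}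
    (hC : ∀ c ∈ C, g c = c) : C.card < t := by
  by_contra hlt
  push Not at hlt
  obtain ⟨C', hC', hC'card⟩ := Finset.exists_subset_card_eq hlt
  have hmem : g ∈ Fx G C' := ⟨hg, fun c hc => hC c (hC' hc)⟩
  have hord : orderOf (⟨g, hmem⟩ : Fx G C') = 2 := by
    refine orderOf_eq_prime ?_ ?_
    · apply Subtype.ext
      simpa [pow_two] using hgg
    · intro hc
      exact hg1 (congrArg Subtype.val hc)
  have hd : 2 ∣ Nat.card (Fx G C') := by
    rw [← hord]
    exact orderOf_dvd_natCard _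
  rw [hs C' hC'card] at hd
  exact (Nat.not_even_iff_odd.mpr hodd) (even_iff_two_dvd.mpr hd)

/-- If `s` is even, all pairs outside a `(t-1)`-set are swapped and `G` is `(t+1)`-transitive. -/
theorem PT_of_even {t s : ℕ} (hH1 : HG G (t + 1))
    (hB : ∀ A : Finset α, A.card = t + 1 → Fx G A = ⊥)
    (hs : ∀ A : Finset α, A.card = t → Nat.card (Fx G A) = s) (heven : 2 ∣ s) :
    PT G (t + 1) := by
  classical
  refine PT_of_swaps hH1 ?_
  intro X hX a b ha hb hab
  have hXcard : X.card + 1 = t := by omega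
  haveI : Fact (Nat.Prime 2) := ⟨Nat.prime_two⟩
  -- choose involutions
  have h1 : ∀ w, ∃ i : Perm α, w ∉ X → i ∈ Fx G (insert w X) ∧ i * i = 1 ∧ i ≠ 1 := by
    intro w
    by_cases hw : w ∉ X
    · have hcard : (insert w X).card = t := by rw [Finset.card_insert_of_notMem hw, hXcard]
      have hd : 2 ∣ Nat.card (Fx G (insert w X)) := by rw [hs _ hcard]; exact heven
      obtain ⟨y, hy⟩ := exists_prime_orderOf_dvd_card' 2 hd
      refine ⟨y.1, fun _ => ⟨y.2, ?_, ?_⟩⟩
      · have := pow_orderOf_eq_one y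
        rw [hy, pow_two] at this
        exact congrArg Subtype.val this
      · intro hc
        have : y = 1 := Subtype.ext hc
        rw [this, orderOf_one] at hy
        omega
    · exact ⟨1, fun h => absurd h hw⟩
  choose i hi using h1
  have hT : ∀ w, w ∉ X → i w ∈ Fx G X := fun w hw => ((Fx_insert_iff _).mp (hi w hw).1).1
  have hrefl : Refl (Fx G X) Xᶜ i := by
    refine ⟨?_, ?_, ?_, ?_, ?_, ?_⟩
    · intro u hu
      exact (hi u (Finset.mem_compl.mp hu)).2.1
    · intro u hu x hx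
      rw [Finset.mem_compl] at hu hx ⊢
      exact apply_notMem (hT u hu).2 hx
    · intro u hu
      exact ((Fx_insert_iff _).mp (hi u (Finset.mem_compl.mp hu)).1).2
    · intro u hu x hx he
      rw [Finset.mem_compl] at hu hx
      by_contra hne
      exact (hi u hu).2.2 (two_pt hB (by omega) (hT u hu) hx hu hne he
        ((Fx_insert_iff _).mp (hi u hu).1).2)
    · intro u hu v hv
      rw [Finset.mem_compl] at hu hv
      exact (Fx G X).mul_mem (hT u hu) (hT v hv)
    · intro z hz x hx y hy hne h2 h3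
      rw [Finset.mem_compl] at hx hy
      exact two_pt hB (by omega) hz hx hy hne h2 h3
  obtain ⟨u, hu, hu'⟩ := hrefl.exists_apply (Finset.mem_compl.mpr ha) (Finset.mem_compl.mpr hb)
  refine ⟨i u, (hT u (Finset.mem_compl.mp hu)).1, (hT u (Finset.mem_compl.mp hu)).2, hu', ?_⟩
  rw [← hu', hrefl.rr hu]

/-- The count of fixed point free elements data for `T = Fx G X`. -/
lemma card_T_eq {t s : ℕ} (hPT : PT G t) {X : Finset α} (hX : X.card + 1 = t) {w : α} (hw : w ∉ X)
    (hs : ∀ A : Finset α, A.card = t → Nat.card (Fx G A) = s) :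
    Nat.card (Fx G X) = (Xᶜ).card * s := by
  classical
  have h2 : Nat.card (Fx G X) = (orbF (Fx G X) w).card * Nat.card (Fx G (insert w X)) :=
    card_eq_orbF_mul (fun g => Fx_insert_iff g)
  have h3 : orbF (Fx G X) w = Xᶜ := by
    ext v
    rw [Finset.mem_compl, mem_orbF]
    constructor
    · rintro ⟨g, hg, rfl⟩
      exact apply_notMem hg.2 hw
    · intro hv
      exact trans_Fx hPT hX hw hv
  rw [h2, h3, hs _ (by rw [Finset.card_insert_of_notMem hw, hX])]

open scoped Classical in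
lemma card_stab_eq {t s : ℕ} {X : Finset α} (hX : X.card + 1 = t)
    (hs : ∀ A : Finset α, A.card = t → Nat.card (Fx G A) = s) :
    ∀ u ∈ Xᶜ, (Finset.univ.filter fun z : Perm α => z ∈ Fx G X ∧ z u = u).card = s := by
  intro u hu
  rw [Finset.mem_compl] at hu
  rw [← hs (insert u X) (by rw [Finset.card_insert_of_notMem hu, hX])]
  rw [Nat.card_eq_fintype_card, Fintype.card_subtype]
  congr 1
  ext z
  simp only [Finset.mem_filter, Finset.mem_univ, true_and]
  exact (Fx_insert_iff z).symm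

end Cfsg.Agent.Lib.LWCore2
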