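import Mathlib
import Cfsg.Agent.Lib.LWBasic
import Cfsg.Agent.Lib.LWReflect
import Cfsg.Agent.Lib.LWCore1
import Cfsg.Agent.Lib.LWCore2

/-!
Core of the Livingstone-Wagner transitivity theorem, third part: the two parity cases.
-/

set_option autoImplicit false
set_option linter.unusedSectionVars false

namespace Cfsg.Agent.Lib.LWCore3

open Equiv Cfsg.Agent.Lib.LWBasic Cfsg.Agent.Lib.LWReflect Cfsg.Agent.Lib.LWCore1
  Cfsg.Agent.Lib.LWCore2

variable {α : Type*} [Fintype α] [DecidableEq α] {G : Subgroup (Perm α)}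

/-- An involution inducing the swap of two points of `X`, fixing the other points of `X`
and one more point. -/
theorem exists_swap_invol {t s : ℕ} (hPT : PT G t)
    (hs : ∀ A : Finset α, A.card = t → Nat.card (Fx G A) = s) (hodd : Odd s)
    {X : Finset α} (hX : X.card + 1 = t) {a b w : α} (ha : a ∈ X) (hb : b ∈ X) (hw : w ∉ X) :
    ∃ g ∈ G, g * g = 1 ∧ ∀ x ∈ insert w X, g x = swap a b x := by
  have hawne : a ≠ w := fun e => hw (e ▸ ha)
  have hbwne : b ≠ w := fun e => hw (e ▸ hb)
  refine exists_invol hPT hs hodd (A := insert w X) (by rw [Finset.card_insert_of_notMem hw, hX])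
    (σ := swap a b) ((swap a b).injective.injOn) ?_ ?_
  · intro x hx
    by_cases hxa : x = a
    · subst hxa
      rw [swap_apply_left]
      exact Finset.mem_insert_of_mem hb
    · by_cases hxb : x = b
      · subst hxb
        rw [swap_apply_right]
        exact Finset.mem_insert_of_mem ha
      · rwa [swap_apply_of_ne_of_ne hxa hxb]
  · intro x _
    simp

/-- Fixed points on the complement of `X` of an involution inducing a swap on `X`. -/
theorem card_fixW_le {t s : ℕ} (hs : ∀ A : Finset α, A.card = t → Nat.card (Fx G A) = s)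
    (hodd : Odd s) {X : Finset α} (hX : X.card + 1 = t) {a b : α} (ha : a ∈ X) (hb : b ∈ X)
    (hab : a ≠ b) {g : Perm α} (hg : g ∈ G) (hgg : g * g = 1) (hga : g a = b)
    (hgX : ∀ x ∈ X, x ≠ a → x ≠ b → g x = x) :
    ((Xᶜ).filter fun x => g x = x).card ≤ 2 := by
  classical
  have hg1 : g ≠ 1 := by
    rintro rfl
    exact hab hga
  set F := (Xᶜ).filter fun x => g x = x with hF
  set R := (X.erase a).erase b with hR
  have hRcard : R.card + 2 = X.card := by
    have hb' : b ∈ X.erase a := Finset.mem_erase.mpr ⟨Ne.symm hab, hb⟩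
    rw [hR, Finset.card_erase_of_mem hb', Finset.card_erase_of_mem ha]
    have := Finset.one_lt_card.mpr ⟨a, ha, b, hb, hab⟩
    omega
  have hdisj : Disjoint F R := by
    rw [Finset.disjoint_left]
    intro x hx hx'
    have h1 := (Finset.mem_filter.mp hx).1
    rw [Finset.mem_compl] at h1
    exact h1 (Finset.mem_of_mem_erase (Finset.mem_of_mem_erase hx'))
  have h := card_fix_lt hs hodd hg hgg hg1 (C := F ∪ R) (by
    intro c hc
    rcases Finset.mem_union.mp hc with h | h
    · exact (Finset.mem_filter.mp h).2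
    · rw [hR, Finset.mem_erase, Finset.mem_erase] at h
      exact hgX c h.2.2 h.2.1 h.1)
  rw [Finset.card_union_of_disjoint hdisj] at h
  omega

/-- The case of odd complement: impossible for `t ≥ 4`. -/
theorem case_odd {t s : ℕ} (ht : 4 ≤ t) (hPT : PT G t)
    (hB : ∀ A : Finset α, A.card = t + 1 → Fx G A = ⊥)
    (hs : ∀ A : Finset α, A.card = t → Nat.card (Fx G A) = s) (hodd : Odd s)
    {X : Finset α} (hX : X.card + 1 = t) (hWodd : Odd (Xᶜ).card) (hWbig : t + 1 ≤ (Xᶜ).card) :
    False := by
  classical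
  obtain ⟨a, b, c, ha, hb, hc, hab, hac, hbc⟩ := Finset.two_lt_card_iff.mp (by omega : 2 < X.card)
  obtain ⟨w, hw⟩ : (Xᶜ).Nonempty := by
    rw [← Finset.card_pos]
    omega
  have hw' : w ∉ X := Finset.mem_compl.mp hw
  -- a general construction
  have key : ∀ p q : α, p ∈ X → q ∈ X → p ≠ q → ∃ g ∈ G, g * g = 1 ∧
      (∀ x ∈ insert w X, g x = swap p q x) ∧
      ∃ ρ : α → Perm α, Refl (Fx G X) Xᶜ ρ ∧ ρ w = g := by
    intro p q hp hq hpq
    obtain ⟨g, hg, hgg, hg'⟩ := exists_swap_invol hPT hs hodd hX hp hq hw'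
    refine ⟨g, hg, hgg, hg', ?_⟩
    have hgw : g w = w := by
      rw [hg' w (Finset.mem_insert_self _ _)]
      refine swap_apply_of_ne_of_ne ?_ ?_
      · exact fun e => hw' (e ▸ hp)
      · exact fun e => hw' (e ▸ hq)
    have hgX : ∀ x ∈ X, g x = swap p q x := fun x hx => hg' x (Finset.mem_insert_of_mem hx)
    have hcardF := card_fixW_le hs hodd hX hp hq hpq hg hgg
      (by rw [hgX p hp, swap_apply_left])
      (fun x hx h1 h2 => by rw [hgX x hx, swap_apply_of_ne_of_ne h1 h2])
    have hpar := card_fix_modEq hgg (Xᶜ) (by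
      intro x hx
      rw [Finset.mem_compl] at hx ⊢
      intro hc
      apply hx
      have h1 := hgX _ hc
      rw [mul_self_apply hgg] at h1
      have h2 : swap p q (g x) = x := h1.symm
      have h3 : swap p q (swap p q (g x)) = swap p q x := congrArg _ h2
      rw [swap_apply_self] at h3
      have h4 : swap p q (g x) ∈ X := by
        by_cases h5 : g x = p
        · rw [h5, swap_apply_left]; exact hq
        · by_cases h6 : g x = q
          · rw [h6, swap_apply_right]; exact hp
          · rw [swap_apply_of_ne_of_ne h5 h6]; exact hc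
      rwa [h2] at h4)
    have hWodd' : (Xᶜ).card % 2 = 1 := Nat.odd_iff.mp hWodd
    have hcard1 : ((Xᶜ).filter fun x => g x = x).card = 1 := by omega
    have huniq : ∀ x, x ∉ X → g x = x → x = w := by
      intro x hx hxg
      have hmem1 : x ∈ (Xᶜ).filter fun x => g x = x :=
        Finset.mem_filter.mpr ⟨Finset.mem_compl.mpr hx, hxg⟩
      have hmem2 : w ∈ (Xᶜ).filter fun x => g x = x :=
        Finset.mem_filter.mpr ⟨hw, hgw⟩
      exact Finset.card_le_one.mp (le_of_eq hcard1) _ hmem1 _ hmem2
    have htrans : ∀ u v, u ∉ X → v ∉ X → ∃ z ∈ Fx G X, z u = v := fun u v hu hv =>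
      trans_Fx hPT hX hu hv
    have htwo : ∀ z ∈ Fx G X, ∀ x y, x ∉ X → y ∉ X → x ≠ y → z x = x → z y = y → z = 1 :=
      fun z hz x y hx hy hxy h1 h2 => two_pt hB (by omega) hz hx hy hxy h1 h2
    have haX : ∀ x ∈ X, g x ∈ X := by
      intro x hx
      rw [hgX x hx]
      by_cases h5 : x = p
      · rw [h5, swap_apply_left]; exact hq
      · by_cases h6 : x = q
        · rw [h6, swap_apply_right]; exact hp
        · rw [swap_apply_of_ne_of_ne h5 h6]; exact hx
    obtain ⟨ρ, hρ, hρw, -⟩ := refl_of_invol htrans htwo hg hgg haX hw' hgw huniq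
    exact ⟨ρ, hρ, hρw⟩
  obtain ⟨g₁, hg₁, hgg₁, hg₁', ρ₁, hρ₁, hρ₁w⟩ := key a b ha hb hab
  obtain ⟨g₂, hg₂, hgg₂, hg₂', ρ₂, hρ₂, hρ₂w⟩ := key b c hb hc hbc
  have hT := card_T_eq hPT hX hw' hs
  have hq := card_stab_eq hX hs
  have hfix : ∀ x ∈ Xᶜ, (g₁ * g₂) x = x := by
    intro x hx
    have := Refl.mul_fix hρ₁ hρ₂ hT hq hw hx
    rwa [hρ₁w, hρ₂w] at this
  obtain ⟨C, hC, hCcard⟩ := Finset.exists_subset_card_eq hWbig
  have hmem : g₁ * g₂ ∈ Fx G C := ⟨G.mul_mem hg₁ hg₂, fun x hx => hfix x (hC hx)⟩
  rw [hB C hCcard] at hmem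
  have h1 : g₁ * g₂ = 1 := Subgroup.mem_bot.mp hmem
  have h2 : g₁ = g₂ := by
    calc g₁ = g₁ * (g₂ * g₂) := by rw [hgg₂, mul_one]
      _ = (g₁ * g₂) * g₂ := by group
      _ = g₂ := by rw [h1, one_mul]
  have h3 : g₁ a = b := by
    rw [hg₁' a (Finset.mem_insert_of_mem ha), swap_apply_left]
  have h4 : g₂ a = a := by
    rw [hg₂' a (Finset.mem_insert_of_mem ha), swap_apply_of_ne_of_ne hab hac]
  rw [h2, h4] at h3
  exact hab h3

open scoped Classical in
/-- The case of even complement: `s = 1`. -/
theorem s_eq_one {t s : ℕ} (ht : 3 ≤ t) (hPT : PT G t)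
    (hB : ∀ A : Finset α, A.card = t + 1 → Fx G A = ⊥)
    (hs : ∀ A : Finset α, A.card = t → Nat.card (Fx G A) = s) (hodd : Odd s)
    {X : Finset α} (hX : X.card + 1 = t) (hWeven : Even (Xᶜ).card) (hWbig : 5 ≤ (Xᶜ).card) :
    s = 1 := by
  obtain ⟨a, ha, b, hb, hab⟩ := Finset.one_lt_card.mp (by omega : 1 < X.card)
  obtain ⟨w, hw⟩ : (Xᶜ).Nonempty := by
    rw [← Finset.card_pos]
    omega
  have hw' : w ∉ X := Finset.mem_compl.mp hw
  obtain ⟨g, hg, hgg, hg'⟩ := exists_swap_invol hPT hs hodd hX ha hb hw'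
  have hgw : g w = w := by
    rw [hg' w (Finset.mem_insert_self _ _)]
    refine swap_apply_of_ne_of_ne ?_ ?_
    · exact fun e => hw' (e ▸ ha)
    · exact fun e => hw' (e ▸ hb)
  have hgX : ∀ x ∈ X, g x = swap a b x := fun x hx => hg' x (Finset.mem_insert_of_mem hx)
  have hgXmem : ∀ x ∈ X, g x ∈ X := by
    intro x hx
    rw [hgX x hx]
    by_cases h5 : x = a
    · rw [h5, swap_apply_left]; exact hb
    · by_cases h6 : x = b
      · rw [h6, swap_apply_right]; exact ha
      · rw [swap_apply_of_ne_of_ne h5 h6]; exact hx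
  have hgW : ∀ x, x ∉ X → g x ∉ X := by
    intro x hx hc
    have := hgXmem _ hc
    rw [mul_self_apply hgg] at this
    exact hx this
  set F := (Xᶜ).filter fun x => g x = x with hF
  have hcardF : F.card ≤ 2 := card_fixW_le hs hodd hX ha hb hab hg hgg
    (by rw [hgX a ha, swap_apply_left])
    (fun x hx h1 h2 => by rw [hgX x hx, swap_apply_of_ne_of_ne h1 h2])
  have hpar := card_fix_modEq hgg (Xᶜ) (fun x hx => by
    rw [Finset.mem_compl] at hx ⊢
    exact hgW x hx)
  have hWeven' : (Xᶜ).card % 2 = 0 := Nat.even_iff.mp hWeven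
  have hwF : w ∈ F := Finset.mem_filter.mpr ⟨hw, hgw⟩
  have hFpos : 0 < F.card := Finset.card_pos.mpr ⟨w, hwF⟩
  have hcard2 : F.card = 2 := by
    have h1 : F.card % 2 = 0 := by
      rw [hF]
      omega
    omega
  obtain ⟨f₁, f₂, hf12, hFeq⟩ := Finset.card_eq_two.mp hcard2
  obtain ⟨w', hw'ne, hFw⟩ : ∃ w', w' ≠ w ∧ F = {w, w'} := by
    have : w ∈ ({f₁, f₂} : Finset α) := hFeq ▸ hwF
    simp only [Finset.mem_insert, Finset.mem_singleton] at this
    rcases this with rfl | rfl
    · exact ⟨f₂, Ne.symm hf12, hFeq⟩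
    · refine ⟨f₁, hf12, ?_⟩
      rw [hFeq, Finset.pair_comm]
  set T := Fx G X with hT
  have hgT : ∀ z ∈ T, g * z * g ∈ T := by
    intro z hz
    refine ⟨G.mul_mem (G.mul_mem hg hz.1) hg, fun c hc => ?_⟩
    simp only [Perm.coe_mul, Function.comp_apply]
    rw [hz.2 _ (hgXmem c hc), mul_self_apply hgg]
  have hginv : g⁻¹ = g := inv_eq_of_invol hgg
  -- the conjugates
  set I : Perm α → Perm α := fun x => x * g * x⁻¹ with hI
  have hIinv : ∀ x, I x * I x = 1 := by
    intro x
    simp only [hI]
    calc x * g * x⁻¹ * (x * g * x⁻¹) = x * (g * g) * x⁻¹ := by group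
      _ = 1 := by rw [hgg]; group
  have hIprod : ∀ x ∈ T, ∀ x' ∈ T, I x * I x' ∈ T := by
    intro x hx x' hx'
    have h1 : I x * I x' = x * (g * (x⁻¹ * x') * g) * x'⁻¹ := by
      simp only [hI]
      group
    rw [h1]
    exact T.mul_mem (T.mul_mem hx (hgT _ (T.mul_mem (T.inv_mem hx) hx'))) (T.inv_mem hx')
  set T₀ : Finset (Perm α) := Finset.univ.filter (· ∈ T) with hT₀
  have hcardT₀ : T₀.card = (Xᶜ).card * s := by
    rw [← card_T_eq hPT hX hw' hs, Nat.card_eq_fintype_card, Fintype.card_subtype]
  have hstab := card_stab_eq hX hs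
  -- elements fixing w after conjugation
  have hb1 : (T₀.filter fun x => I x w = w).card ≤ s * 2 := by
    have h0 : (T₀.filter fun x => I x w = w).card ≤
        s * ((T₀.filter fun x => I x w = w).image fun x => x⁻¹ w).card := by
      refine Finset.card_le_mul_card_image _ s ?_
      intro f _
      -- fibers
      by_cases hne : ((T₀.filter fun x => I x w = w).filter fun x => x⁻¹ w = f).Nonempty
      · obtain ⟨x₀, hx₀⟩ := hne
        rw [Finset.mem_filter, Finset.mem_filter] at hx₀
        have hx₀T : x₀ ∈ T := by simpa [hT₀] using hx₀.1.1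
        have hf : f ∈ Xᶜ := by
          rw [← hx₀.2, Finset.mem_compl]
          exact apply_notMem (T.inv_mem hx₀T).2 hw'
        rw [← hstab f hf]
        refine Finset.card_le_card_of_injOn (fun x => x₀⁻¹ * x) ?_ ?_
        · intro x hx
          rw [Finset.mem_coe, Finset.mem_filter, Finset.mem_filter] at hx
          have hxT : x ∈ T := by simpa [hT₀] using hx.1.1
          simp only [Finset.coe_filter, Finset.mem_univ, true_and, Set.mem_ofPred_eq]
          refine ⟨T.mul_mem (T.inv_mem hx₀T) hxT, ?_⟩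
          have h2 : x f = w := by
            rw [← hx.2]
            simp
          have h3 : x₀⁻¹ w = f := hx₀.2
          simp only [Perm.coe_mul, Function.comp_apply]
          rw [h2, h3]
        · intro x _ y _ hxy
          exact mul_left_cancel hxy
      · rw [Finset.not_nonempty_iff_eq_empty] at hne
        rw [hne]
        simp
    have h1 : ((T₀.filter fun x => I x w = w).image fun x => x⁻¹ w) ⊆ F := by
      intro f hf
      obtain ⟨x, hx, rfl⟩ := Finset.mem_image.mp hf
      rw [Finset.mem_filter] at hx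
      have hxT : x ∈ T := by simpa [hT₀] using hx.1
      refine Finset.mem_filter.mpr ⟨Finset.mem_compl.mpr (apply_notMem (T.inv_mem hxT).2 hw'), ?_⟩
      have h2 := hx.2
      simp only [hI, Perm.coe_mul, Function.comp_apply] at h2
      rw [Perm.eq_inv_iff_eq]
      exact h2
    have h2 := Finset.card_le_card h1
    rw [hcard2] at h2
    calc _ ≤ _ := h0
      _ ≤ s * 2 := Nat.mul_le_mul_left s h2
  -- the centralizer
  set C : Finset (Perm α) := T₀.filter fun l => l * g = g * l with hC
  have hCcard : C.card ≤ 2 := by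
    have h1 : Set.InjOn (fun l : Perm α => l w) (↑C : Set (Perm α)) := by
      intro l hl l' hl' he
      rw [Finset.mem_coe, Finset.mem_filter] at hl hl'
      have hlT : l ∈ T := by simpa [hT₀] using hl.1
      have hl'T : l' ∈ T := by simpa [hT₀] using hl'.1
      set d := l⁻¹ * l' with hd
      have hdT : d ∈ T := T.mul_mem (T.inv_mem hlT) hl'T
      have hdw : d w = w := by
        simp only [hd, Perm.coe_mul, Function.comp_apply]
        have he' : l w = l' w := he
        rw [← he']
        simp
      have hdg : d * g = g * d := by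
        have h2 : l⁻¹ * g = g * l⁻¹ := by
          have := hl.2
          calc l⁻¹ * g = l⁻¹ * (g * l) * l⁻¹ := by group
            _ = l⁻¹ * (l * g) * l⁻¹ := by rw [this]
            _ = g * l⁻¹ := by group
        calc d * g = l⁻¹ * (l' * g) := by rw [hd]; group
          _ = l⁻¹ * (g * l') := by rw [hl'.2]
          _ = (l⁻¹ * g) * l' := by group
          _ = (g * l⁻¹) * l' := by rw [h2]
          _ = g * d := by rw [hd]; group
      have hw'F : w' ∈ F := by rw [hFw]; simp
      have hdw' : d w' = w' := by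
        have h3 : d w' ∈ F := by
          have h4 := Finset.mem_filter.mp hw'F
          refine Finset.mem_filter.mpr ⟨?_, ?_⟩
          · rw [Finset.mem_compl]
            exact apply_notMem hdT.2 (Finset.mem_compl.mp h4.1)
          · have := congrArg (fun p : Perm α => p w') hdg
            simp only [Perm.coe_mul, Function.comp_apply] at this
            rw [h4.2] at this
            exact this.symm
        rw [hFw] at h3
        simp only [Finset.mem_insert, Finset.mem_singleton] at h3
        rcases h3 with h3 | h3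
        · exfalso
          have : d w' = d w := h3.trans hdw.symm
          exact hw'ne (d.injective this)
        · exact h3
      have hw'X : w' ∉ X := Finset.mem_compl.mp (Finset.mem_filter.mp hw'F).1
      have hd1 : d = 1 := two_pt hB (by omega) hdT hw' hw'X (Ne.symm hw'ne) hdw hdw'
      have : l⁻¹ * l' = 1 := hd1
      exact (inv_mul_eq_one.mp this)
    have h2 : C.image (fun l : Perm α => l w) ⊆ F := by
      intro f hf
      obtain ⟨l, hl, rfl⟩ := Finset.mem_image.mp hf
      rw [Finset.mem_filter] at hl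
      have hlT : l ∈ T := by simpa [hT₀] using hl.1
      refine Finset.mem_filter.mpr ⟨Finset.mem_compl.mpr (apply_notMem hlT.2 hw'), ?_⟩
      have := congrArg (fun p : Perm α => p w) hl.2
      simp only [Perm.coe_mul, Function.comp_apply] at this
      rw [hgw] at this
      exact this.symm
    have h3 := Finset.card_le_card h2
    rw [Finset.card_image_of_injOn h1, hcard2] at h3
    exact h3
  -- the elements moving w
  have hb2 : (T₀.filter fun x => ¬ I x w = w).card ≤ 2 * ((Xᶜ).erase w).card := by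
    have h0 : (T₀.filter fun x => ¬ I x w = w).card ≤
        2 * ((T₀.filter fun x => ¬ I x w = w).image fun x => I x w).card := by
      refine Finset.card_le_mul_card_image _ 2 ?_
      intro y hy
      obtain ⟨x₁, hx₁, hx₁y⟩ := Finset.mem_image.mp hy
      rw [Finset.mem_filter] at hx₁
      have hx₁T : x₁ ∈ T := by simpa [hT₀] using hx₁.1
      refine le_trans (Finset.card_le_card_of_injOn (fun x => x₁⁻¹ * x) ?_ ?_) hCcard
      · intro x hx
        rw [Finset.mem_coe, Finset.mem_filter, Finset.mem_filter] at hx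
        have hxT : x ∈ T := by simpa [hT₀] using hx.1.1
        rw [Finset.mem_coe, Finset.mem_filter]
        refine ⟨by simpa [hT₀] using T.mul_mem (T.inv_mem hx₁T) hxT, ?_⟩
        -- the two reflections coincide
        have hprod := hIprod x₁ hx₁T x hxT
        have hyne : w ≠ y := fun e => hx₁.2 (by rw [hx₁y]; exact e.symm)
        have hyX : y ∉ X := by
          rw [← hx₁y]
          simp only [hI, Perm.coe_mul, Function.comp_apply]
          exact apply_notMem hx₁T.2 (hgW _ (apply_notMem (T.inv_mem hx₁T).2 hw'))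
        have hrr : ∀ (z : Perm α) (w' : α), I z (I z w') = w' := fun z w' => mul_self_apply (hIinv z) w'
        have h5 : I x₁ * I x = 1 := by
          refine two_pt hB (by omega) hprod hw' hyX hyne ?_ ?_
          · rw [Perm.mul_apply, hx.2, ← hx₁y, hrr]
          · rw [Perm.mul_apply]
            have h6 : I x y = w := by
              rw [← hx.2, hrr]
            rw [h6, hx₁y]
        have h7 : I x₁ = I x := by
          have h8 := eq_inv_of_mul_eq_one_left h5
          rw [h8]
          exact inv_eq_of_mul_eq_one_left (hIinv x)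
        simp only [hI] at h7
        calc x₁⁻¹ * x * g = x₁⁻¹ * (x * g * x⁻¹) * x := by group
          _ = x₁⁻¹ * (x₁ * g * x₁⁻¹) * x := by rw [h7]
          _ = g * (x₁⁻¹ * x) := by group
      · intro x _ x' _ hxx
        exact mul_left_cancel hxx
    have h1 : ((T₀.filter fun x => ¬ I x w = w).image fun x => I x w) ⊆ (Xᶜ).erase w := by
      intro y hy
      obtain ⟨x, hx, rfl⟩ := Finset.mem_image.mp hy
      rw [Finset.mem_filter] at hx
      have hxT : x ∈ T := by simpa [hT₀] using hx.1
      refine Finset.mem_erase.mpr ⟨hx.2, Finset.mem_compl.mpr ?_⟩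
      simp only [hI, Perm.coe_mul, Function.comp_apply]
      exact apply_notMem hxT.2 (hgW _ (apply_notMem (T.inv_mem hxT).2 hw'))
    calc _ ≤ _ := h0
      _ ≤ 2 * ((Xᶜ).erase w).card := Nat.mul_le_mul_left 2 (Finset.card_le_card h1)
  have hsplit := Finset.card_filter_add_card_filter_not (s := T₀) (fun x => I x w = w)
  rw [hcardT₀] at hsplit
  rw [Finset.card_erase_of_mem hw] at hb2
  -- numerics
  by_contra hne
  have hs3 : 3 ≤ s := by
    obtain ⟨r, hr⟩ := hodd
    omega
  set N := (Xᶜ).card with hN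
  have h10 : N * s ≤ s * 2 + 2 * (N - 1) := by
    rw [← hsplit]
    exact Nat.add_le_add hb1 hb2
  obtain ⟨N', hN'⟩ : ∃ N', N = N' + 5 := ⟨N - 5, by omega⟩
  rw [hN'] at h10
  have h11 : N' + 5 - 1 = N' + 4 := by omega
  rw [h11] at h10
  nlinarith

end Cfsg.Agent.Lib.LWCore3
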