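import Mathlib
import Cfsg.Agent.Lib.LWBasic
import Cfsg.Agent.Lib.LWReflect
import Cfsg.Agent.Lib.LWCore1
import Cfsg.Agent.Lib.LWCore2
import Cfsg.Agent.Lib.LWCore3

/-!
Core of the Livingstone-Wagner transitivity theorem, fourth part: the sharply transitive case and
the final assembly.
-/

set_option autoImplicit false
set_option linter.unusedSectionVars false

namespace Cfsg.Agent.Lib.LWCore4

open Equiv Cfsg.Agent.Lib.LWBasic Cfsg.Agent.Lib.LWReflect Cfsg.Agent.Lib.LWCore1
  Cfsg.Agent.Lib.LWCore2 Cfsg.Agent.Lib.LWCore3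

variable {α : Type*} [Fintype α] [DecidableEq α] {G : Subgroup (Perm α)}

/-- A nontrivial element of `G` fixes fewer than `t` points if `t`-point stabilizers are trivial. -/
lemma card_fix_lt' {t : ℕ} (hF : ∀ A : Finset α, A.card = t → Fx G A = ⊥) {g : Perm α}
    (hg : g ∈ G) (hg1 : g ≠ 1) {C : Finset α} (hC : ∀ c ∈ C, g c = c) : C.card < t := by
  by_contra hlt
  push Not at hlt
  obtain ⟨C', hC', hC'card⟩ := Finset.exists_subset_card_eq hlt
  have hmem : g ∈ Fx G C' := ⟨hg, fun c hc => hC c (hC' hc)⟩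
  rw [hF C' hC'card] at hmem
  exact hg1 (Subgroup.mem_bot.mp hmem)

/-- The sharply transitive case with odd degree of the two point stabilizer. -/
theorem case_even {t : ℕ} (ht : 4 ≤ t) (hPT : PT G t)
    (hs : ∀ A : Finset α, A.card = t → Nat.card (Fx G A) = 1)
    {X : Finset α} (hX : X.card + 2 = t) (hWodd : Odd (Xᶜ).card) (hWbig : 10 ≤ (Xᶜ).card) :
    False := by
  classical
  have hF : ∀ A : Finset α, A.card = t → Fx G A = ⊥ := fun A hA => Fx_eq_bot_of_card (hs A hA)
  have hnt : t ≤ Fintype.card α := by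
    have h1 := Finset.card_add_card_compl X
    omega
  obtain ⟨a₀, ha₀, b₀, hb₀, hab₀⟩ := Finset.one_lt_card.mp (by omega : 1 < (Xᶜ).card)
  have ha₀' : a₀ ∉ X := Finset.mem_compl.mp ha₀
  have hb₀' : b₀ ∉ X := Finset.mem_compl.mp hb₀
  have hAcard : (insert a₀ (insert b₀ X)).card = t := by
    rw [Finset.card_insert_of_notMem, Finset.card_insert_of_notMem hb₀', ← hX]
    rw [Finset.mem_insert, not_or]
    exact ⟨hab₀, ha₀'⟩
  -- a reflection in Z
  obtain ⟨z₀, hz₀, hzz₀, hz₀'⟩ := exists_invol hPT hs (odd_one) hAcard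
    (σ := swap a₀ b₀) ((swap a₀ b₀).injective.injOn)
    (by
      intro x hx
      by_cases hxa : x = a₀
      · subst hxa
        rw [swap_apply_left]
        simp
      · by_cases hxb : x = b₀
        · subst hxb
          rw [swap_apply_right]
          simp
        · rwa [swap_apply_of_ne_of_ne hxa hxb])
    (fun x _ => by simp)
  have hz₀X : ∀ c ∈ X, z₀ c = c := by
    intro c hc
    rw [hz₀' c (Finset.mem_insert_of_mem (Finset.mem_insert_of_mem hc))]
    refine swap_apply_of_ne_of_ne ?_ ?_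
    · exact fun e => ha₀' (e ▸ hc)
    · exact fun e => hb₀' (e ▸ hc)
  have hz₀a : z₀ a₀ = b₀ := by
    rw [hz₀' a₀ (Finset.mem_insert_self _ _), swap_apply_left]
  have hz₀b : z₀ b₀ = a₀ := by
    rw [hz₀' b₀ (Finset.mem_insert_of_mem (Finset.mem_insert_self _ _)), swap_apply_right]
  have hz₀1 : z₀ ≠ 1 := by
    rintro rfl
    exact hab₀ hz₀a
  have hz₀Z : z₀ ∈ Fx G X := ⟨hz₀, hz₀X⟩
  have hpar := card_fix_modEq hzz₀ (Xᶜ) (fun x hx => by
    rw [Finset.mem_compl] at hx ⊢
    exact apply_notMem hz₀X hx)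
  have hWodd' : (Xᶜ).card % 2 = 1 := Nat.odd_iff.mp hWodd
  have hFne : ((Xᶜ).filter fun x => z₀ x = x).Nonempty := by
    rw [← Finset.card_pos]
    omega
  obtain ⟨x₀, hx₀⟩ := hFne
  rw [Finset.mem_filter] at hx₀
  have hx₀' : x₀ ∉ X := Finset.mem_compl.mp hx₀.1
  have htwo : ∀ z ∈ Fx G X, ∀ x y, x ∉ X → y ∉ X → x ≠ y → z x = x → z y = y → z = 1 :=
    fun z hz x y hx hy hxy h1 h2 => two_pt hF hX hz hx hy hxy h1 h2
  have hPT' : PT G (t - 1) := hPT.mono (by omega) hnt
  have htrans : ∀ u v, u ∉ X → v ∉ X → ∃ z ∈ Fx G X, z u = v := fun u v hu hv =>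
    trans_Fx hPT' (by omega) hu hv
  have huniq : ∀ x, x ∉ X → z₀ x = x → x = x₀ := by
    intro x hx hxz
    by_contra hne
    exact hz₀1 (htwo z₀ hz₀Z x x₀ hx hx₀' hne hxz hx₀.2)
  obtain ⟨ρ, hρ, -, hρG⟩ := refl_of_invol htrans htwo hz₀ hzz₀
    (fun x hx => by rw [hz₀X x hx]; exact hx) hx₀' hx₀.2 huniq
  have hρZ : ∀ u, u ∉ X → ρ u ∈ Fx G X := by
    intro u hu
    refine ⟨(hρG u hu).1, fun c hc => ?_⟩
    rw [(hρG u hu).2 c hc, hz₀X c hc]
  -- the second involution
  obtain ⟨a, ha, b, hb, hab⟩ := Finset.one_lt_card.mp (by omega : 1 < X.card)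
  obtain ⟨g, hg, hgg, hg'⟩ := exists_invol hPT hs (odd_one) hAcard
    (σ := swap a b) ((swap a b).injective.injOn)
    (by
      intro x hx
      by_cases hxa : x = a
      · subst hxa
        rw [swap_apply_left]
        simp [hb]
      · by_cases hxb : x = b
        · subst hxb
          rw [swap_apply_right]
          simp [ha]
        · rwa [swap_apply_of_ne_of_ne hxa hxb])
    (fun x _ => by simp)
  have hgX : ∀ x ∈ X, g x = swap a b x := fun x hx =>
    hg' x (Finset.mem_insert_of_mem (Finset.mem_insert_of_mem hx))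
  have hga : g a = b := by rw [hgX a ha, swap_apply_left]
  have hgb : g b = a := by rw [hgX b hb, swap_apply_right]
  have hg1 : g ≠ 1 := by
    rintro rfl
    exact hab hga
  have hgXmem : ∀ x ∈ X, g x ∈ X := by
    intro x hx
    rw [hgX x hx]
    by_cases h5 : x = a
    · rw [h5, swap_apply_left]; exact hb
    · by_cases h6 : x = b
      · rw [h6, swap_apply_right]; exact ha
      · rw [swap_apply_of_ne_of_ne h5 h6]; exact hx
  have hgW : ∀ x, x ∉ X → g x ∉ X := by
    intro x hx hc
    have := hgXmem _ hc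
    rw [mul_self_apply hgg] at this
    exact hx this
  set F := (Xᶜ).filter fun x => g x = x with hFdef
  set R := (X.erase a).erase b with hR
  have hRcard : R.card + 2 = X.card := by
    have hb' : b ∈ X.erase a := Finset.mem_erase.mpr ⟨Ne.symm hab, hb⟩
    rw [hR, Finset.card_erase_of_mem hb', Finset.card_erase_of_mem ha]
    have := Finset.one_lt_card.mpr ⟨a, ha, b, hb, hab⟩
    omega
  have hRfix : ∀ x ∈ R, g x = x := by
    intro x hx
    rw [hR, Finset.mem_erase, Finset.mem_erase] at hx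
    rw [hgX x hx.2.2, swap_apply_of_ne_of_ne hx.2.1 hx.1]
  have hRX : ∀ x ∈ R, x ∈ X := fun x hx => Finset.mem_of_mem_erase (Finset.mem_of_mem_erase hx)
  have hcardF : F.card ≤ 3 := by
    have hdisj : Disjoint F R := by
      rw [Finset.disjoint_left]
      intro x hx hx'
      exact (Finset.mem_compl.mp (Finset.mem_filter.mp hx).1) (hRX x hx')
    have h := card_fix_lt' hF hg hg1 (C := F ∪ R) (by
      intro c hc
      rcases Finset.mem_union.mp hc with h | h
      · exact (Finset.mem_filter.mp h).2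
      · exact hRfix c h)
    rw [Finset.card_union_of_disjoint hdisj] at h
    omega
  -- midpoints
  have hmid : ∀ x, ∃ m, x ∈ Xᶜ → m ∈ Xᶜ ∧ ρ m x = g x := by
    intro x
    by_cases hx : x ∈ Xᶜ
    · have hgx : g x ∈ Xᶜ := Finset.mem_compl.mpr (hgW x (Finset.mem_compl.mp hx))
      obtain ⟨u, hu, hu'⟩ := hρ.exists_apply hx hgx
      exact ⟨u, fun _ => ⟨hu, hu'⟩⟩
    · exact ⟨x, fun h => absurd h hx⟩
  choose m hm using hmid
  have hmF : ∀ x, x ∈ (Xᶜ) \ F → m x ∈ F := by
    intro x hx
    rw [Finset.mem_sdiff] at hx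
    obtain ⟨hm1, hm2⟩ := hm x hx.1
    have hxne : x ≠ g x := by
      intro he
      exact hx.2 (Finset.mem_filter.mpr ⟨hx.1, he.symm⟩)
    have hx' : x ∉ X := Finset.mem_compl.mp hx.1
    have hgx' : g x ∉ X := hgW x hx'
    have hm1' : m x ∉ X := Finset.mem_compl.mp hm1
    set r := ρ (m x) with hr
    have hrr : ∀ y, r (r y) = y := fun y => hρ.rr hm1 y
    set r' := g * r * g with hr'
    have hr'Z : r' ∈ Fx G X := by
      refine ⟨G.mul_mem (G.mul_mem hg (hρZ _ hm1').1) hg, fun c hc => ?_⟩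
      simp only [hr', Perm.coe_mul, Function.comp_apply]
      rw [(hρZ _ hm1').2 _ (hgXmem c hc), mul_self_apply hgg]
    have h1 : r' * r = 1 := by
      refine htwo _ ((Fx G X).mul_mem hr'Z (hρZ _ hm1')) x (g x) hx' hgx' hxne ?_ ?_
      · simp only [hr', Perm.coe_mul, Function.comp_apply]
        rw [hm2, mul_self_apply hgg, hm2, mul_self_apply hgg]
      · simp only [hr', Perm.coe_mul, Function.comp_apply]
        have hrgx : r (g x) = x := by rw [← hm2, hrr]
        rw [hrgx, hrgx]
    have h2 : r' = r := by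
      have h3 := eq_inv_of_mul_eq_one_left h1
      rw [h3]
      exact hρ.inv_eq hm1
    have h4 : r (g (m x)) = g (m x) := by
      calc r (g (m x)) = r' (g (m x)) := by rw [h2]
        _ = g (r (g (g (m x)))) := by simp [hr']
        _ = g (r (m x)) := by rw [mul_self_apply hgg]
        _ = g (m x) := by rw [hr, hρ.fix _ hm1]
    have h5 := hρ.fix_unique _ hm1 (g (m x)) (Finset.mem_compl.mpr (hgW _ hm1')) h4
    exact Finset.mem_filter.mpr ⟨hm1, h5⟩
  -- fibers
  have hfib : ∀ y ∈ ((Xᶜ) \ F).image m, (((Xᶜ) \ F).filter fun x => m x = y).card ≤ 2 := by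
    intro y hy
    obtain ⟨x₁, hx₁, rfl⟩ := Finset.mem_image.mp hy
    set y := m x₁ with hy'
    have hyF : y ∈ F := hmF x₁ hx₁
    have hyW : y ∈ Xᶜ := (Finset.mem_filter.mp hyF).1
    have hyX : y ∉ X := Finset.mem_compl.mp hyW
    set S := ((Xᶜ) \ F).filter fun x => m x = y with hS
    set γ := ρ y * g with hγ
    have hγG : γ ∈ G := G.mul_mem (hρZ y hyX).1 hg
    have hγ1 : γ ≠ 1 := by
      intro hc
      have h1 : γ a = a := by rw [hc]; rfl
      simp only [hγ, Perm.coe_mul, Function.comp_apply] at h1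
      rw [hga, (hρZ y hyX).2 b hb] at h1
      exact hab h1.symm
    have hfix1 : ∀ x ∈ S, γ x = x := by
      intro x hx
      rw [hS, Finset.mem_filter, Finset.mem_sdiff] at hx
      simp only [hγ, Perm.coe_mul, Function.comp_apply]
      have h1 := (hm x hx.1.1).2
      rw [hx.2] at h1
      rw [← h1, hρ.rr hyW]
    have hfix2 : γ y = y := by
      simp only [hγ, Perm.coe_mul, Function.comp_apply]
      rw [(Finset.mem_filter.mp hyF).2, hρ.fix y hyW]
    have hfix3 : ∀ x ∈ R, γ x = x := by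
      intro x hx
      simp only [hγ, Perm.coe_mul, Function.comp_apply]
      rw [hRfix x hx, (hρZ y hyX).2 x (hRX x hx)]
    have hyS : y ∉ S := by
      intro hc
      rw [hS, Finset.mem_filter, Finset.mem_sdiff] at hc
      exact hc.1.2 hyF
    have hd1 : Disjoint (insert y S) R := by
      rw [Finset.disjoint_left]
      intro x hx hx'
      rcases Finset.mem_insert.mp hx with rfl | hx1
      · exact hyX (hRX _ hx')
      · rw [hS, Finset.mem_filter, Finset.mem_sdiff] at hx1
        exact (Finset.mem_compl.mp hx1.1.1) (hRX x hx')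
    have h := card_fix_lt' hF hγG hγ1 (C := insert y S ∪ R) (by
      intro c hc
      rcases Finset.mem_union.mp hc with h | h
      · rcases Finset.mem_insert.mp h with rfl | h
        · exact hfix2
        · exact hfix1 c h
      · exact hfix3 c h)
    rw [Finset.card_union_of_disjoint hd1, Finset.card_insert_of_notMem hyS] at h
    omega
  have hle := Finset.card_le_mul_card_image _ 2 hfib
  have himg : ((Xᶜ) \ F).image m ⊆ F := by
    intro y hy
    obtain ⟨x, hx, rfl⟩ := Finset.mem_image.mp hy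
    exact hmF x hx
  have h3 := Finset.card_le_card himg
  have h4 : ((Xᶜ) \ F).card + F.card = (Xᶜ).card :=
    Finset.card_sdiff_add_card_eq_card (Finset.filter_subset _ _)
  omega

end Cfsg.Agent.Lib.LWCore4
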