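import Mathlib
import Cfsg.Agent.Lib.LWBasic

/-!
Homogeneity descends: transitivity on `(j+1)`-subsets implies transitivity on `j`-subsets when
`2 j < n`, through the identity `D U = U D + (n - 2 j)` for the incidence operators between subsets.
-/

set_option autoImplicit false
set_option linter.unusedSectionVars false

namespace Cfsg.Agent.Lib.LWDescent

open Equiv Cfsg.Agent.Lib.LWBasic

variable {α : Type*} [Fintype α] [DecidableEq α]

/-- Sum over facets. -/
def Up (f : Finset α → ℤ) (D : Finset α) : ℤ := ∑ x ∈ D, f (D.erase x)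

/-- Sum over one point extensions. -/
def Down (f : Finset α → ℤ) (A : Finset α) : ℤ := ∑ x ∈ Aᶜ, f (insert x A)

lemma down_up (f : Finset α → ℤ) (A : Finset α) :
    Down (Up f) A = Up (Down f) A + ((Fintype.card α : ℤ) - 2 * A.card) * f A := by
  have h1 : Down (Up f) A = ∑ x ∈ Aᶜ, (f A + ∑ y ∈ A, f (insert x (A.erase y))) := by
    refine Finset.sum_congr rfl fun x hx => ?_
    have hx' : x ∉ A := Finset.mem_compl.mp hx
    rw [Up, Finset.sum_insert hx', Finset.erase_insert hx']
    congr 1
    refine Finset.sum_congr rfl fun y hy => ?_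
    have hxy : x ≠ y := fun e => hx' (e ▸ hy)
    rw [Finset.erase_insert_of_ne hxy]
  have h2 : Up (Down f) A = ∑ y ∈ A, (f A + ∑ x ∈ Aᶜ, f (insert x (A.erase y))) := by
    refine Finset.sum_congr rfl fun y hy => ?_
    have h3 : (A.erase y)ᶜ = insert y Aᶜ := by
      ext z
      simp only [Finset.mem_compl, Finset.mem_erase, ne_eq, not_and, Finset.mem_insert]
      by_cases hzy : z = y <;> simp [hzy]
    have h4 : y ∉ Aᶜ := by simpa using hy
    rw [Down, h3, Finset.sum_insert h4, Finset.insert_erase hy]
  rw [h1, h2, Finset.sum_add_distrib, Finset.sum_add_distrib, Finset.sum_const, Finset.sum_const,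
    Finset.sum_comm (s := Aᶜ) (t := A), Finset.card_compl]
  have h5 : A.card ≤ Fintype.card α := Finset.card_le_univ A
  simp only [nsmul_eq_mul]
  push_cast [h5]
  ring

lemma sum_up_mul (f h : Finset α → ℤ) (j : ℕ) :
    ∑ D ∈ Finset.powersetCard (j + 1) (Finset.univ : Finset α), Up f D * h D =
      ∑ A ∈ Finset.powersetCard j (Finset.univ : Finset α), f A * Down h A := by
  simp only [Up, Down, Finset.sum_mul, Finset.mul_sum]
  rw [Finset.sum_sigma', Finset.sum_sigma']
  refine Finset.sum_bij' (fun p _ => ⟨p.1.erase p.2, p.2⟩) (fun p _ => ⟨insert p.2 p.1, p.2⟩)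
    ?_ ?_ ?_ ?_ ?_
  · rintro ⟨D, x⟩ hp
    simp only [Finset.mem_sigma, Finset.mem_powersetCard, Finset.subset_univ, true_and] at hp ⊢
    refine ⟨?_, ?_⟩
    · rw [Finset.card_erase_of_mem hp.2, hp.1]
      rfl
    · simp
  · rintro ⟨A, x⟩ hp
    simp only [Finset.mem_sigma, Finset.mem_powersetCard, Finset.subset_univ, true_and,
      Finset.mem_compl] at hp ⊢
    refine ⟨?_, Finset.mem_insert_self _ _⟩
    rw [Finset.card_insert_of_notMem hp.2, hp.1]
  · rintro ⟨D, x⟩ hp
    simp only [Finset.mem_sigma] at hp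
    simp [Finset.insert_erase hp.2]
  · rintro ⟨A, x⟩ hp
    simp only [Finset.mem_sigma, Finset.mem_compl] at hp
    simp [Finset.erase_insert hp.2]
  · rintro ⟨D, x⟩ hp
    simp only [Finset.mem_sigma] at hp
    simp [Finset.insert_erase hp.2]

/-- Injectivity of the up operator below the middle. -/
theorem eq_zero_of_up {i : ℕ} (hi : 2 * (i + 1) < Fintype.card α) {f : Finset α → ℤ}
    (h : ∀ D : Finset α, D.card = i + 2 → Up f D = 0) :
    ∀ A : Finset α, A.card = i + 1 → f A = 0 := by
  set P := Finset.powersetCard (i + 1) (Finset.univ : Finset α) with hP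
  have h1 : ∀ A ∈ P, Down (Up f) A = 0 := by
    intro A hA
    have hcard : A.card = i + 1 := (Finset.mem_powersetCard.mp hA).2
    refine Finset.sum_eq_zero fun x hx => h _ ?_
    rw [Finset.card_insert_of_notMem (Finset.mem_compl.mp hx), hcard]
  have h2 : ∑ A ∈ P, Up (Down f) A * f A + ((Fintype.card α : ℤ) - 2 * (i + 1)) *
      ∑ A ∈ P, f A * f A = 0 := by
    rw [Finset.mul_sum, ← Finset.sum_add_distrib]
    refine Finset.sum_eq_zero fun A hA => ?_
    have hcard : A.card = i + 1 := (Finset.mem_powersetCard.mp hA).2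
    have h3 := down_up f A
    rw [h1 A hA, hcard] at h3
    push_cast at h3
    linear_combination (-(f A)) * h3
  have h4 : ∑ A ∈ P, Up (Down f) A * f A =
      ∑ S ∈ Finset.powersetCard i (Finset.univ : Finset α), Down f S * Down f S :=
    sum_up_mul (Down f) f i
  have h5 : 0 ≤ ∑ S ∈ Finset.powersetCard i (Finset.univ : Finset α), Down f S * Down f S :=
    Finset.sum_nonneg fun S _ => mul_self_nonneg _
  have h6 : 0 ≤ ∑ A ∈ P, f A * f A := Finset.sum_nonneg fun A _ => mul_self_nonneg _
  have h7 : (0 : ℤ) < (Fintype.card α : ℤ) - 2 * (i + 1) := by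
    have : ((2 * (i + 1) : ℕ) : ℤ) < (Fintype.card α : ℤ) := by exact_mod_cast hi
    push_cast at this
    linarith
  have h8 : ∑ A ∈ P, f A * f A = 0 := by
    rw [h4] at h2
    nlinarith
  intro A hA
  have h9 := (Finset.sum_eq_zero_iff_of_nonneg (fun A _ => mul_self_nonneg (f A))).mp h8 A
    (Finset.mem_powersetCard.mpr ⟨Finset.subset_univ _, hA⟩)
  exact mul_self_eq_zero.mp h9

/-- Homogeneity descends. -/
theorem HG_descent {G : Subgroup (Perm α)} {j : ℕ} (hH : HG G (j + 1))
    (hj : 2 * j < Fintype.card α) : HG G j := by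
  classical
  cases j with
  | zero =>
    intro A B hA hB
    rw [Finset.card_eq_zero] at hA hB
    subst hA hB
    exact ⟨1, G.one_mem, by simp⟩
  | succ i =>
    intro A₀ B hA₀ hB
    -- the orbit of A₀
    set O : Finset α → Prop := fun C => ∃ g ∈ G, A₀.image g = C with hO
    have hO_inv : ∀ g ∈ G, ∀ C, O C → O (C.image g) := by
      rintro g hg C ⟨g', hg', rfl⟩
      refine ⟨g * g', G.mul_mem hg hg', ?_⟩
      rw [Finset.image_image]
      rfl
    let a : Finset α → ℤ := fun D => ((D.filter fun x => O (D.erase x)).card : ℤ)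
    -- a is constant on (i+2)-sets
    have ha_inv : ∀ g ∈ G, ∀ D : Finset α, a (D.image g) = a D := by
      intro g hg D
      simp only [a]
      congr 1
      have hinj : Function.Injective g := g.injective
      have himg : (D.image g).filter (fun x => O ((D.image g).erase x)) =
          (D.filter fun x => O (D.erase x)).image g := by
        ext y
        simp only [Finset.mem_filter, Finset.mem_image]
        constructor
        · rintro ⟨⟨x, hx, rfl⟩, hO'⟩
          refine ⟨x, ⟨hx, ?_⟩, rfl⟩
          have h1 : (D.image g).erase (g x) = (D.erase x).image g := by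
            rw [Finset.image_erase hinj]
          rw [h1] at hO'
          have h2 := hO_inv g⁻¹ (G.inv_mem hg) _ hO'
          rwa [Finset.image_image, show (g⁻¹ : Perm α) ∘ g = id from by ext; simp,
            Finset.image_id] at h2
        · rintro ⟨x, ⟨hx, hOx⟩, rfl⟩
          refine ⟨⟨x, hx, rfl⟩, ?_⟩
          rw [← Finset.image_erase hinj]
          exact hO_inv g hg _ hOx
      rw [himg, Finset.card_image_of_injective _ hinj]
    obtain ⟨D₀, -, hD₀⟩ : ∃ D₀ ⊆ (Finset.univ : Finset α), D₀.card = i + 2 :=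
      Finset.exists_subset_card_eq (by
        rw [Finset.card_univ]
        omega)
    have ha_const : ∀ D : Finset α, D.card = i + 2 → a D = a D₀ := by
      intro D hD
      obtain ⟨g, hg, rfl⟩ := hH D₀ D hD₀ hD
      exact ha_inv g hg D₀
    let f : Finset α → ℤ := fun C => ((i : ℤ) + 2) * (if O C then 1 else 0) - a D₀
    have hf : ∀ D : Finset α, D.card = i + 2 → Up f D = 0 := by
      intro D hD
      have h1 : Up f D = ((i : ℤ) + 2) * ∑ x ∈ D, (if O (D.erase x) then 1 else 0) -
          D.card * a D₀ := by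
        simp only [Up, f, Finset.sum_sub_distrib, Finset.mul_sum, Finset.sum_const, nsmul_eq_mul]
      have h2 : ∑ x ∈ D, (if O (D.erase x) then (1 : ℤ) else 0) = a D := by
        simp only [a]
        rw [Finset.sum_boole]
      rw [h1, h2, ha_const D hD, hD]
      push_cast
      ring
    have hzero := eq_zero_of_up (by omega) hf
    have hOA : O A₀ := ⟨1, G.one_mem, by simp⟩
    have h1 := hzero A₀ hA₀
    have h2 := hzero B hB
    simp only [f, if_pos hOA, mul_one] at h1
    simp only [f] at h2
    by_cases hOB : O B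
    · obtain ⟨g, hg, hg'⟩ := hOB
      exact ⟨g, hg, hg'⟩
    · rw [if_neg hOB] at h2
      have hi0 : (0 : ℤ) ≤ (i : ℤ) := Int.natCast_nonneg i
      exfalso
      omega

end Cfsg.Agent.Lib.LWDescent
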