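import Mathlib
import Cfsg.Agent.Lib.LWBasic
import Cfsg.Agent.Lib.LWReflect
import Cfsg.Agent.Lib.LWCore1
import Cfsg.Agent.Lib.LWCore2
import Cfsg.Agent.Lib.LWCore3
import Cfsg.Agent.Lib.LWCore4
import Cfsg.Agent.Lib.LWDescent

/-!
The Livingstone-Wagner theorem: a group transitive on `k`-subsets with `2 k ≤ n` is
`(k-1)`-transitive.
-/

set_option autoImplicit false
set_option linter.unusedSectionVars false

namespace Cfsg.Agent.Lib.LWMain

open Equiv Cfsg.Agent.Lib.LWBasic Cfsg.Agent.Lib.LWReflect Cfsg.Agent.Lib.LWCore1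
  Cfsg.Agent.Lib.LWCore2 Cfsg.Agent.Lib.LWCore3 Cfsg.Agent.Lib.LWCore4 Cfsg.Agent.Lib.LWDescent

variable {α : Type*} [Fintype α] [DecidableEq α] {G : Subgroup (Perm α)}

section Numerics

lemma num3a {M H : ℕ} (hM : 6 ≤ M) (h : (M + 1) * M * H = 120) : False := by
  have hH : 1 ≤ H := by
    rcases Nat.eq_zero_or_pos H with rfl | hH
    · simp at h
    · exact hH
  have hM2 : M ≤ 10 := by
    by_contra hc
    push Not at hc
    have h1 : 12 * 11 ≤ (M + 1) * M := Nat.mul_le_mul (by omega) (by omega)
    have h2 : (M + 1) * M * 1 ≤ (M + 1) * M * H := Nat.mul_le_mul_left _ hH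
    omega
  interval_cases M <;> omega

lemma num3b {M m s H : ℕ} (hM : 6 ≤ M) (hodd : Odd M) (hs : Odd s) (h1 : s * m = M + 1)
    (h2 : m * M * H = 120) : False := by
  have hd : M ∣ 120 := ⟨m * H, by rw [← h2]; ring⟩
  have hle : M ≤ 120 := Nat.le_of_dvd (by norm_num) hd
  obtain ⟨r, hr⟩ := hodd
  have hM15 : M = 15 := by
    interval_cases M <;> first | rfl | omega
  subst hM15
  have h3 : m * H = 8 := by nlinarith
  obtain ⟨q, rfl⟩ := hs
  have hq : q ≤ 8 := by
    have hmpos : 1 ≤ m := by
      rcases Nat.eq_zero_or_pos m with rfl | hm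
      · simp at h1
      · exact hm
    nlinarith
  interval_cases q <;> try omega
  have hm : m = 16 := by omega
  subst hm
  omega

lemma num2 {M m s H : ℕ} (hM : 5 ≤ M) (hm : 2 ≤ m) (hs : Odd s) (h1 : s * m = M + 1)
    (h2 : m * M * H = 24) : M = 8 ∧ H = 1 ∧ s = 3 := by
  have hH : 1 ≤ H := by
    rcases Nat.eq_zero_or_pos H with rfl | hH
    · simp at h2
    · exact hH
  have h3 : m * M ≤ 24 := by
    have : m * M * 1 ≤ m * M * H := Nat.mul_le_mul_left _ hH
    omega
  have hM2 : M ≤ 12 := by nlinarith
  have hm2 : m ≤ 4 := by nlinarith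
  obtain ⟨r, rfl⟩ := hs
  interval_cases M <;> interval_cases m <;> omega

end Numerics

open scoped Pointwise in
/-- The core step. -/
theorem core {t : ℕ} (hPT : PT G t) (hH1 : HG G (t + 1)) (hH2 : HG G (t + 2))
    (hn : 2 * t + 4 ≤ Fintype.card α) : PT G (t + 1) := by
  classical
  by_contra hnot
  obtain ⟨X, hX, y, z, hy, hz, hyz⟩ : ∃ X : Finset α, X.card = t ∧ ∃ y z, y ∉ X ∧ z ∉ X ∧
      z ∉ orbF (Fx G X) y := by
    by_contra hc
    push Not at hc
    exact hnot (PT_succ_of_orbits hPT hc)
  have hB := Fx_succ_bot hH1 hH2 hX hy hz hyz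
  set s := Nat.card (Fx G X) with hsdef
  have hs : ∀ A : Finset α, A.card = t → Nat.card (Fx G A) = s :=
    fun A hA => card_Fx_eq hPT.HG hA hX
  have hodd : Odd s := by
    rw [← Nat.not_even_iff_odd, even_iff_two_dvd]
    intro he
    exact hnot (PT_of_even hH1 hB hs he)
  have hspos : 0 < s := Nat.card_pos
  have horb : ∀ u, u ∉ X → (orbF (Fx G X) u).card = s := by
    intro u hu
    have h1 : Nat.card (Fx G X) = (orbF (Fx G X) u).card * Nat.card (Fx G (insert u X)) :=
      card_eq_orbF_mul (fun g => Fx_insert_iff g)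
    rw [hB (insert u X) (by rw [Finset.card_insert_of_notMem hu, hX])] at h1
    simp only [Subgroup.card_bot, mul_one] at h1
    exact h1.symm
  have hd : s ∣ (Xᶜ).card := by
    refine dvd_card_of_orbF (P := Fx G X) _ ?_ ?_
    · intro g hg x hx
      rw [Finset.mem_compl] at hx ⊢
      exact apply_notMem hg.2 hx
    · intro x hx
      exact horb x (Finset.mem_compl.mp hx)
  have hcompl : (Xᶜ).card = Fintype.card α - t := by
    rw [Finset.card_compl, hX]
  obtain ⟨m, hm⟩ := hd
  rw [hcompl] at hm
  have hsub : orbF (Fx G X) y ⊂ Xᶜ := by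
    rw [Finset.ssubset_iff_of_subset]
    · exact ⟨z, Finset.mem_compl.mpr hz, hyz⟩
    · intro v hv
      obtain ⟨g, hg, rfl⟩ := mem_orbF.mp hv
      exact Finset.mem_compl.mpr (apply_notMem hg.2 hy)
  have hlt := Finset.card_lt_card hsub
  rw [horb y hy, hcompl] at hlt
  have hm2 : 2 ≤ m := by
    by_contra hc
    push Not at hc
    interval_cases m <;> simp_all
  set M := Fintype.card α - t - 1 with hM
  have hMbig : t + 3 ≤ M := by omega
  have hsm : s * m = M + 1 := by omega
  -- numerical identity
  have hid : ∀ D : Finset α, D.card = t + 2 →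
      m * M * Nat.card (MulAction.stabilizer (↥G) D) = (t + 2).factorial := by
    intro D hD
    have h1 := order_identity hPT hH2 (by omega) hs hD
    have h2 : s * m * M * Nat.card (MulAction.stabilizer (↥G) D) = (t + 2).factorial * s := by
      rw [hM, ← hm]
      exact h1
    apply Nat.eq_of_mul_eq_mul_left hspos
    calc s * (m * M * Nat.card (MulAction.stabilizer (↥G) D))
        = s * m * M * Nat.card (MulAction.stabilizer (↥G) D) := by ring
      _ = (t + 2).factorial * s := h2
      _ = s * (t + 2).factorial := by ring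
  obtain ⟨D₀, -, hD₀⟩ : ∃ D₀ ⊆ (Finset.univ : Finset α), D₀.card = t + 2 :=
    Finset.exists_subset_card_eq (by
      rw [Finset.card_univ]
      omega)
  have hH₀pos : 0 < Nat.card (MulAction.stabilizer (↥G) D₀) := Nat.card_pos
  have hid₀ := hid D₀ hD₀
  -- subsets of the right size
  have hsubset : ∀ j, j ≤ t → ∃ A : Finset α, A.card = j := by
    intro j hj
    obtain ⟨A, -, hA⟩ : ∃ A ⊆ (Finset.univ : Finset α), A.card = j :=
      Finset.exists_subset_card_eq (by
        rw [Finset.card_univ]
        omega)
    exact ⟨A, hA⟩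
  obtain rfl | rfl | rfl | rfl | ht4 : t = 0 ∨ t = 1 ∨ t = 2 ∨ t = 3 ∨ 4 ≤ t := by omega
  · -- t = 0
    have h1 : m * M * 1 ≤ m * M * Nat.card (MulAction.stabilizer (↥G) D₀) :=
      Nat.mul_le_mul_left _ hH₀pos
    rw [hid₀] at h1
    norm_num [Nat.factorial] at h1
    nlinarith
  · -- t = 1
    have h1 : m * M * 1 ≤ m * M * Nat.card (MulAction.stabilizer (↥G) D₀) :=
      Nat.mul_le_mul_left _ hH₀pos
    rw [hid₀] at h1
    norm_num [Nat.factorial] at h1
    nlinarith
  · -- t = 2
    have hfac : (2 + 2).factorial = 24 := by norm_num [Nat.factorial]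
    rw [hfac] at hid₀
    obtain ⟨hM8, -, hs3⟩ := num2 (by omega) hm2 hodd hsm hid₀
    have hHone : ∀ D : Finset α, D.card = 2 + 2 →
        Nat.card (MulAction.stabilizer (↥G) D) = 1 := by
      intro D hD
      have h2 := hid D hD
      rw [hfac] at h2
      exact (num2 (by omega) hm2 hodd hsm h2).2.1
    have hn11 : Fintype.card α = 11 := by omega
    -- pick two points
    obtain ⟨a, b, hab⟩ : ∃ a b : α, a ≠ b := by
      have : 1 < Fintype.card α := by omega
      exact Fintype.exists_pair_of_one_lt_card this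
    have hA : ({a, b} : Finset α).card = 2 := Finset.card_pair hab
    obtain ⟨J, hJ, hJJ, hJ'⟩ := exists_invol hPT hs hodd hA (σ := swap a b)
      ((swap a b).injective.injOn)
      (by
        intro x hx
        simp only [Finset.mem_insert, Finset.mem_singleton] at hx ⊢
        rcases hx with rfl | rfl
        · simp
        · simp)
      (fun x _ => by simp)
    have hJa : J a = b := by
      rw [hJ' a (by simp), swap_apply_left]
    have hJb : J b = a := by
      rw [hJ' b (by simp), swap_apply_right]
    have hJ1 : J ≠ 1 := by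
      rintro rfl
      exact hab hJa
    set Φ := Finset.univ.filter fun x => J x = x with hΦ
    have hΦcard : Φ.card < 2 := card_fix_lt hs hodd hJ hJJ hJ1 (fun c hc => (Finset.mem_filter.mp hc).2)
    obtain ⟨c, hc⟩ : ∃ c, c ∉ ({a, b} : Finset α) ∪ Φ := by
      by_contra hc
      push Not at hc
      have h3 : ({a, b} : Finset α) ∪ Φ = Finset.univ := Finset.eq_univ_iff_forall.mpr hc
      have h4 := Finset.card_union_le ({a, b} : Finset α) Φ
      rw [h3, Finset.card_univ, hA] at h4
      omega
    rw [Finset.mem_union, not_or] at hc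
    have hca : c ≠ a := fun e => hc.1 (by simp [e])
    have hcb : c ≠ b := fun e => hc.1 (by simp [e])
    have hcJ : J c ≠ c := fun e => hc.2 (Finset.mem_filter.mpr ⟨Finset.mem_univ _, e⟩)
    have hJrr : ∀ x, J (J x) = x := mul_self_apply hJJ
    have hda : J c ≠ a := by
      intro e
      have h5 := congrArg J e
      rw [hJrr, hJa] at h5
      exact hcb h5
    have hdb : J c ≠ b := by
      intro e
      have h5 := congrArg J e
      rw [hJrr, hJb] at h5
      exact hca h5
    set D : Finset α := {a, b, c, J c} with hD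
    have hDcard : D.card = 2 + 2 := by
      rw [hD, Finset.card_insert_of_notMem, Finset.card_insert_of_notMem,
        Finset.card_pair (Ne.symm hcJ)]
      · simp only [Finset.mem_insert, Finset.mem_singleton, not_or]
        exact ⟨Ne.symm hcb, Ne.symm hdb⟩
      · simp only [Finset.mem_insert, Finset.mem_singleton, not_or]
        exact ⟨hab, Ne.symm hca, Ne.symm hda⟩
    have hstab : (⟨J, hJ⟩ : ↥G) ∈ MulAction.stabilizer (↥G) D := by
      rw [MulAction.mem_stabilizer_iff]
      ext v
      simp only [Finset.mem_smul_finset, Subgroup.mk_smul, Perm.smul_def]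
      constructor
      · rintro ⟨u, hu, rfl⟩
        simp only [hD, Finset.mem_insert, Finset.mem_singleton] at hu ⊢
        rcases hu with rfl | rfl | rfl | rfl
        · right; left; exact hJa
        · left; exact hJb
        · right; right; right; rfl
        · right; right; left; exact hJrr _
      · intro hv
        refine ⟨J v, ?_, hJrr v⟩
        simp only [hD, Finset.mem_insert, Finset.mem_singleton] at hv ⊢
        rcases hv with rfl | rfl | rfl | rfl
        · right; left; exact hJa
        · left; exact hJb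
        · right; right; right; rfl
        · right; right; left; exact hJrr _
    have hone := hHone D hDcard
    have huniq := (Nat.card_eq_one_iff_unique.mp hone).1
    have h6 : (⟨⟨J, hJ⟩, hstab⟩ : MulAction.stabilizer (↥G) D) = 1 := Subsingleton.elim _ _
    have h7 : J = 1 := congrArg (fun p : MulAction.stabilizer (↥G) D => (p.1.1 : Perm α)) h6
    exact hJ1 h7
  · -- t = 3
    have hfac : (3 + 2).factorial = 120 := by norm_num [Nat.factorial]
    rw [hfac] at hid₀
    obtain ⟨X', hX'⟩ := hsubset 2 (by omega)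
    have hX'c : (X'ᶜ).card = M + 2 := by
      rw [Finset.card_compl, hX']
      omega
    by_cases hpar : Even (M + 2)
    · have hs1 : s = 1 := s_eq_one le_rfl hPT hB hs hodd (X := X') (by omega)
        (by rw [hX'c]; exact hpar) (by omega)
      rw [hs1, one_mul] at hsm
      rw [hsm] at hid₀
      exact num3a (by omega) hid₀
    · have hMo : Odd M := by
        rw [Nat.not_even_iff_odd] at hpar
        obtain ⟨r, hr⟩ := hpar
        exact ⟨r - 1, by omega⟩
      exact num3b (by omega) hMo hodd hsm hid₀
  · -- t ≥ 4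
    obtain ⟨X', hX'⟩ := hsubset (t - 1) (by omega)
    have hX'c : (X'ᶜ).card = M + 2 := by
      rw [Finset.card_compl, hX']
      omega
    by_cases hpar : Even (M + 2)
    · have hs1 : s = 1 := s_eq_one (by omega) hPT hB hs hodd (X := X') (by omega)
        (by rw [hX'c]; exact hpar) (by omega)
      obtain ⟨X'', hX''⟩ := hsubset (t - 2) (by omega)
      have hX''c : (X''ᶜ).card = M + 3 := by
        rw [Finset.card_compl, hX'']
        omega
      refine case_even ht4 hPT (fun A hA => by rw [hs A hA, hs1]) (X := X'') (by omega) ?_ (by omega)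
      rw [hX''c]
      obtain ⟨r, hr⟩ := hpar
      exact ⟨r, by omega⟩
    · rw [Nat.not_even_iff_odd] at hpar
      exact case_odd ht4 hPT hB hs hodd (X := X') (by omega) (by rw [hX'c]; exact hpar) (by omega)

/-- The Livingstone-Wagner transitivity theorem, finset form. -/
theorem PT_of_HG {t : ℕ} : HG G (t + 1) → 2 * (t + 1) ≤ Fintype.card α → PT G t := by
  induction t with
  | zero => exact fun _ _ => PT_zero G
  | succ t ih =>
    intro hH hn
    have hH1 : HG G (t + 1) := HG_descent hH (by omega)
    exact core (ih hH1 (by omega)) hH1 hH (by omega)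

end Cfsg.Agent.Lib.LWMain
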