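import Mathlib
import Cfsg.Agent.Lib.LWAlt6
import Cfsg.Agent.Lib.LWMain

/-!
Livingstone-Wagner: homogeneity implies transitivity on `k ≥ 5` points when `2 k ≤ n`.
-/

set_option autoImplicit false
set_option linter.unusedSectionVars false
set_option linter.style.haveILetI false

namespace Cfsg.Agent.Lib.LWAlt7

open Equiv Cfsg.Agent.Lib.LWBasic Cfsg.Agent.Lib.LWAlt1 Cfsg.Agent.Lib.LWAlt2
open Cfsg.Agent.Lib.LWAlt4 Cfsg.Agent.Lib.LWAlt5 Cfsg.Agent.Lib.LWAlt6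

variable {α : Type*} [Fintype α] [DecidableEq α] {G : Subgroup (Perm α)}

/-- `g` induces the transposition of `a, b` on `Δ`. -/
def Act (G : Subgroup (Perm α)) (Δ : Finset α) (a b : α) : Prop :=
  ∃ g ∈ G, g a = b ∧ g b = a ∧ ∀ x ∈ Δ, x ≠ a → x ≠ b → g x = x

lemma Act.symm {Δ : Finset α} {a b : α} (h : Act G Δ a b) : Act G Δ b a := by
  obtain ⟨g, hg, h1, h2, h3⟩ := h
  exact ⟨g, hg, h2, h1, fun x hx h4 h5 => h3 x hx h5 h4⟩

lemma Act.step {Δ : Finset α} (hA : A3 G Δ) (hΔ : 5 ≤ Δ.card) {u v y : α} (h : Act G Δ u v)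
    (hu : u ∈ Δ) (hv : v ∈ Δ) (hy : y ∈ Δ) (huv : u ≠ v) (hyu : y ≠ u) : Act G Δ u y := by
  by_cases hyv : y = v
  · rw [hyv]
    exact h
  obtain ⟨g, hg, h1, h2, h3⟩ := h
  obtain ⟨p, hp, hpT⟩ := exists_avoid (T := {u, v, y}) (Δ := Δ) (by
    have := Finset.card_le_three (a := u) (b := v) (c := y)
    omega)
  simp only [Finset.mem_insert, Finset.mem_singleton, not_or] at hpT
  have hpu : p ≠ u := hpT.1
  have hpv : p ≠ v := hpT.2.1
  have hpy : p ≠ y := hpT.2.2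
  obtain ⟨r, hr, r1, r2, r3, r4⟩ := hA v y p hv hy hp (Ne.symm hyv) (Ne.symm hpy) (Ne.symm hpv)
  have hru : r u = u := r4 u hu huv (Ne.symm hyu) (Ne.symm hpu)
  have hinv : ∀ a b, r a = b → r⁻¹ b = a := fun a b h => by rw [Perm.inv_eq_iff_eq, h]
  refine ⟨r * g * r⁻¹, G.mul_mem (G.mul_mem hr hg) (G.inv_mem hr), ?_, ?_, fun x hx hxu hxy => ?_⟩
  · simp only [Perm.mul_apply]
    rw [hinv _ _ hru, h1, r1]
  · simp only [Perm.mul_apply]
    rw [hinv _ _ r1, h2, hru]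
  · simp only [Perm.mul_apply]
    by_cases hxv : x = v
    · rw [hxv, hinv _ _ r3, h3 p hp hpu hpv, r3]
    · by_cases hxp : x = p
      · rw [hxp, hinv _ _ r2, h3 y hy hyu hyv, r2]
      · have hrx := r4 x hx hxv hxy hxp
        rw [hinv _ _ hrx, h3 x hx hxu hxv, hrx]

lemma Act.all {Δ : Finset α} (hA : A3 G Δ) (hΔ : 5 ≤ Δ.card) {u v : α} (h : Act G Δ u v)
    (hu : u ∈ Δ) (hv : v ∈ Δ) (huv : u ≠ v) {x y : α} (hx : x ∈ Δ) (hy : y ∈ Δ) (hxy : x ≠ y) :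
    Act G Δ x y := by
  by_cases hxu : x = u
  · rw [hxu] at hxy ⊢
    exact h.step hA hΔ hu hv hy huv (Ne.symm hxy)
  · have h1 := h.step hA hΔ hu hv hx huv hxu
    exact h1.symm.step hA hΔ hx hu hy (Ne.symm hxu |> Ne.symm) (Ne.symm hxy)

/-- Three-cycles transfer along homogeneity. -/
lemma A3_of_HG {t : ℕ} (hH : HG G t) {Δ₀ Δ : Finset α} (h0 : Δ₀.card = t) (hΔ : Δ.card = t)
    (hA : A3 G Δ₀) : A3 G Δ := by
  obtain ⟨r, hr, hrΔ⟩ := hH Δ₀ Δ h0 hΔ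
  intro a b c ha hb hc hab hbc hac
  rw [← hrΔ] at ha hb hc
  obtain ⟨a', ha', rfl⟩ := Finset.mem_image.mp ha
  obtain ⟨b', hb', rfl⟩ := Finset.mem_image.mp hb
  obtain ⟨c', hc', rfl⟩ := Finset.mem_image.mp hc
  obtain ⟨g, hg, h1, h2, h3, h4⟩ := hA a' b' c' ha' hb' hc' (fun e => hab (by rw [e]))
    (fun e => hbc (by rw [e])) (fun e => hac (by rw [e]))
  refine ⟨r * g * r⁻¹, G.mul_mem (G.mul_mem hr hg) (G.inv_mem hr), ?_, ?_, ?_, fun x hx h5 h6 h7 => ?_⟩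
  · simp [h1]
  · simp [h2]
  · simp [h3]
  · rw [← hrΔ] at hx
    obtain ⟨x', hx', rfl⟩ := Finset.mem_image.mp hx
    have h8 := h4 x' hx' (fun e => h5 (by rw [e])) (fun e => h6 (by rw [e]))
      (fun e => h7 (by rw [e]))
    simp [h8]

/-- The Livingstone-Wagner theorem in terms of finsets. -/
theorem PT_of_HG_five {t : ℕ} (ht : 4 ≤ t) (hn : 2 * (t + 1) ≤ Fintype.card α)
    (hH : HG G (t + 1)) : PT G (t + 1) := by
  have hPT : PT G t := Cfsg.Agent.Lib.LWMain.PT_of_HG hH hn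
  by_cases hF : F1 G t
  · exact (no_F1 ht (by omega) hPT hF).elim
  unfold F1 at hF
  push Not at hF
  obtain ⟨S, u, v, g, hS, huS, hvS, huv, hg, h1, h2, h3⟩ := hF
  obtain ⟨Δ₀, h0, hA⟩ := exists_A3 ht (by omega) hPT
  set Δ₁ := insert u (insert v S) with hΔ₁def
  have hΔ₁ : Δ₁.card = t + 1 := by
    rw [hΔ₁def, Finset.card_insert_of_notMem, Finset.card_insert_of_notMem hvS, hS]
    simp only [Finset.mem_insert, not_or]
    exact ⟨huv, huS⟩
  have hA₁ := A3_of_HG hH h0 hΔ₁ hA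
  have hu : u ∈ Δ₁ := by simp [hΔ₁def]
  have hv : v ∈ Δ₁ := by simp [hΔ₁def]
  have hAct : Act G Δ₁ u v := by
    refine ⟨g, hg, h1, h2, fun x hx h4 h5 => ?_⟩
    simp only [hΔ₁def, Finset.mem_insert] at hx
    rcases hx with e | e | e
    · exact absurd e h4
    · exact absurd e h5
    · exact h3.1 x e
  refine Cfsg.Agent.Lib.LWCore1.PT_of_swaps hH fun X hX a b ha hb hab => ?_
  set Δ' := insert a (insert b X) with hΔ'def
  have hΔ' : Δ'.card = t + 1 := by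
    rw [hΔ'def, Finset.card_insert_of_notMem, Finset.card_insert_of_notMem hb, ← hX]
    simp only [Finset.mem_insert, not_or]
    exact ⟨hab, ha⟩
  obtain ⟨r, hr, hrΔ⟩ := hH Δ' Δ₁ hΔ' hΔ₁
  have hmem : ∀ x ∈ Δ', r x ∈ Δ₁ := fun x hx => by
    rw [← hrΔ]
    exact Finset.mem_image_of_mem r hx
  obtain ⟨g', hg', h4, h5, h6⟩ := hAct.all hA₁ (by omega) hu hv huv (hmem a (by simp [hΔ'def]))
    (hmem b (by simp [hΔ'def])) (fun e => hab (r.injective e))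
  refine ⟨r⁻¹ * g' * r, G.mul_mem (G.mul_mem (G.inv_mem hr) hg') hr, fun x hx => ?_, ?_, ?_⟩
  · simp only [Perm.mul_apply]
    have hxa : x ≠ a := fun e => ha (e ▸ hx)
    have hxb : x ≠ b := fun e => hb (e ▸ hx)
    rw [h6 _ (hmem x (by simp [hΔ'def, hx])) (fun e => hxa (r.injective e))
      (fun e => hxb (r.injective e))]
    simp
  · simp [h4]
  · simp [h5]

end Cfsg.Agent.Lib.LWAlt7
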