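import Cfsg.Agent.Lib.CharAvg

/-!
# The spherical function of a character whose restriction to `U` contains `1` once
-/

set_option autoImplicit false
set_option linter.unusedSectionVars false
set_option linter.unusedVariables false
set_option linter.style.haveILetI false

namespace Cfsg.Agent.Lib.LamRep50

open Cfsg Cfsg.Agent.Lib.CharBasic
open scoped ComplexConjugate

variable {G : Type*} [Group G] [Fintype G]

/-- The average of `χ` over the coset `g U`. -/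
noncomputable def lamF (χ : G → ℂ) (U : Subgroup G) [Fintype U] (g : G) : ℂ :=
  (Nat.card U : ℂ)⁻¹ * ∑ u : U, χ (g * u)

/-- The idempotent of `U`. -/
noncomputable def eU {n : ℕ} (ρ : Representation ℂ G (Fin n → ℂ)) (U : Subgroup G) [Fintype U] :
    Module.End ℂ (Fin n → ℂ) :=
  (Nat.card U : ℂ)⁻¹ • ∑ u : U, ρ u

theorem card_ne (U : Subgroup G) : (Nat.card U : ℂ) ≠ 0 := by exact_mod_cast (Nat.card_pos (α := U)).ne'

variable {U : Subgroup G} [Fintype U]

theorem lamF_right (χ : G → ℂ) {u : G} (hu : u ∈ U) (g : G) : lamF χ U (g * u) = lamF χ U g := by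
  unfold lamF
  congr 1
  apply Fintype.sum_equiv (Equiv.mulLeft (⟨u, hu⟩ : U))
  intro v
  simp [mul_assoc]

theorem lamF_left {χ : G → ℂ} (hχ : IsCharacter G χ) {u : G} (hu : u ∈ U) (g : G) :
    lamF χ U (u * g) = lamF χ U g := by
  unfold lamF
  congr 1
  apply Fintype.sum_equiv (Equiv.mulRight (⟨u, hu⟩ : U))
  intro v
  simp only [Equiv.coe_mulRight, Subgroup.coe_mul]
  rw [mul_assoc, char_mul_comm' hχ]
  simp [mul_assoc]

theorem lamF_inv {χ : G → ℂ} (hχ : IsCharacter G χ) (g : G) :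
    lamF χ U g⁻¹ = conj (lamF χ U g) := by
  unfold lamF
  rw [map_mul, map_inv₀, map_natCast, map_sum]
  congr 1
  apply Fintype.sum_equiv (Equiv.inv U)
  intro v
  simp only [Equiv.inv_apply, Subgroup.coe_inv]
  rw [char_conj_eq_inv hχ, mul_inv_rev, inv_inv, char_mul_comm' hχ]

section Rep

variable {n : ℕ} (ρ : Representation ℂ G (Fin n → ℂ))

theorem rho_mul_eU {v : G} (hv : v ∈ U) : ρ v * eU ρ U = eU ρ U := by
  unfold eU
  rw [mul_smul_comm, Finset.mul_sum]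
  congr 1
  apply Fintype.sum_equiv (Equiv.mulLeft (⟨v, hv⟩ : U))
  intro u
  simp

theorem eU_mul_rho {v : G} (hv : v ∈ U) : eU ρ U * ρ v = eU ρ U := by
  unfold eU
  rw [smul_mul_assoc, Finset.sum_mul]
  congr 1
  apply Fintype.sum_equiv (Equiv.mulRight (⟨v, hv⟩ : U))
  intro u
  simp

theorem eU_idem : eU ρ U * eU ρ U = eU ρ U := by
  have h1 : eU ρ U * eU ρ U = ((Nat.card U : ℂ)⁻¹ • ∑ u : U, ρ u) * eU ρ U := rfl
  rw [h1, smul_mul_assoc, Finset.sum_mul, Finset.sum_congr rfl (fun u _ => rho_mul_eU ρ u.2),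
    Finset.sum_const, ← Nat.cast_smul_eq_nsmul ℂ, smul_smul, Finset.card_univ,
    ← Nat.card_eq_fintype_card, inv_mul_cancel₀ (card_ne U), one_smul]

theorem trace_rho_eU (g : G) :
    LinearMap.trace ℂ (Fin n → ℂ) (ρ g * eU ρ U) = lamF ρ.character U g := by
  unfold eU lamF
  rw [mul_smul_comm, map_smul, Finset.mul_sum, map_sum, smul_eq_mul]
  congr 1
  apply Finset.sum_congr rfl
  intro u _
  rw [← map_mul]
  rfl

theorem trace_eU : LinearMap.trace ℂ (Fin n → ℂ) (eU ρ U) = lamF ρ.character U 1 := by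
  rw [← trace_rho_eU, map_one, one_mul]

/-- A rank one idempotent. -/
theorem sandwich (h : lamF ρ.character U 1 = 1) (X : Module.End ℂ (Fin n → ℂ)) :
    eU ρ U * X * eU ρ U = LinearMap.trace ℂ (Fin n → ℂ) (X * eU ρ U) • eU ρ U := by
  have hidem : IsIdempotentElem (eU ρ U) := eU_idem ρ
  have htr : LinearMap.trace ℂ (Fin n → ℂ) (eU ρ U) = 1 := by rw [trace_eU, h]
  have hrank : Module.finrank ℂ (LinearMap.range (eU ρ U)) = 1 := by
    have h1 := (LinearMap.IsIdempotentElem.isProj_range _ hidem).trace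
    rw [htr] at h1
    exact_mod_cast h1.symm
  obtain ⟨v, hv0, hv⟩ := finrank_eq_one_iff'.1 hrank
  have hex : ∃ c : ℂ, eU ρ U * X * eU ρ U = c • eU ρ U := by
    obtain ⟨c, hc⟩ := hv ⟨eU ρ U (X v), LinearMap.mem_range_self _ _⟩
    refine ⟨c, ?_⟩
    apply LinearMap.ext
    intro x
    obtain ⟨d, hd⟩ := hv ⟨eU ρ U x, LinearMap.mem_range_self _ _⟩
    have hd' : d • (v : Fin n → ℂ) = eU ρ U x := congrArg Subtype.val hd
    have hc' : c • (v : Fin n → ℂ) = eU ρ U (X v) := congrArg Subtype.val hc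
    simp only [Module.End.mul_apply, LinearMap.smul_apply]
    rw [← hd', map_smul, map_smul, ← hc', smul_comm]
  obtain ⟨c, hc⟩ := hex
  rw [hc]
  congr 1
  have h2 : LinearMap.trace ℂ (Fin n → ℂ) (eU ρ U * X * eU ρ U) = c := by
    rw [hc, map_smul, htr, smul_eq_mul, mul_one]
  rw [← h2, mul_assoc, LinearMap.trace_mul_comm, mul_assoc, hidem.eq]

/-- Multiplicativity. -/
theorem lam_mul_rep (h : lamF ρ.character U 1 = 1) (g k : G) :
    lamF ρ.character U g * lamF ρ.character U k =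
      (Nat.card U : ℂ)⁻¹ * ∑ u : U, lamF ρ.character U (g * u * k) := by
  have h1 := sandwich ρ h (ρ k)
  have h2 : LinearMap.trace ℂ (Fin n → ℂ) (ρ g * (eU ρ U * ρ k * eU ρ U)) =
      lamF ρ.character U g * lamF ρ.character U k := by
    rw [h1, mul_smul_comm, map_smul, trace_rho_eU, trace_rho_eU, smul_eq_mul, mul_comm]
  rw [← h2]
  have h3 : ρ g * (eU ρ U * ρ k * eU ρ U) =
      (Nat.card U : ℂ)⁻¹ • ∑ u : U, (ρ (g * u * k) * eU ρ U) := by
    have h4 : eU ρ U * ρ k * eU ρ U = ((Nat.card U : ℂ)⁻¹ • ∑ u : U, ρ u) * ρ k * eU ρ U := rfl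
    rw [h4, smul_mul_assoc, smul_mul_assoc, mul_smul_comm, Finset.sum_mul, Finset.sum_mul, Finset.mul_sum]
    congr 1
    apply Finset.sum_congr rfl
    intro u _
    rw [map_mul, map_mul]
    simp only [mul_assoc]
  rw [h3, map_smul, map_sum, smul_eq_mul]
  congr 1
  apply Finset.sum_congr rfl
  intro u _
  rw [trace_rho_eU]

/-- Schur orthogonality for the spherical function. -/
theorem lam_schur_rep (hρ : ρ.IsIrreducible) (h : lamF ρ.character U 1 = 1) :
    (n : ℂ) * ∑ g : G, lamF ρ.character U g * lamF ρ.character U g⁻¹ = (Nat.card G : ℂ) := by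
  set T : Module.End ℂ (Fin n → ℂ) := ∑ g : G, ρ g * eU ρ U * ρ g⁻¹ with hT
  have hcomm : ∀ x : G, T ∘ₗ ρ x = ρ x ∘ₗ T := by
    intro x
    show T * ρ x = ρ x * T
    rw [hT, Finset.sum_mul, Finset.mul_sum]
    apply Fintype.sum_equiv (Equiv.mulLeft x⁻¹)
    intro g
    show ρ g * eU ρ U * ρ g⁻¹ * ρ x = ρ x * (ρ (x⁻¹ * g) * eU ρ U * ρ (x⁻¹ * g)⁻¹)
    have e1 : ρ x * ρ (x⁻¹ * g) = ρ g := by rw [← map_mul]; simp
    have e2 : ρ (x⁻¹ * g)⁻¹ = ρ g⁻¹ * ρ x := by rw [← map_mul]; simp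
    calc ρ g * eU ρ U * ρ g⁻¹ * ρ x = ρ g * eU ρ U * (ρ g⁻¹ * ρ x) := by rw [mul_assoc]
      _ = ρ x * ρ (x⁻¹ * g) * eU ρ U * ρ (x⁻¹ * g)⁻¹ := by rw [e1, e2]
      _ = _ := by simp only [mul_assoc]
  obtain ⟨c, hc⟩ := schur_scalar hρ T hcomm
  have htr : LinearMap.trace ℂ (Fin n → ℂ) (eU ρ U) = 1 := by rw [trace_eU, h]
  have h1 : LinearMap.trace ℂ (Fin n → ℂ) T = (Nat.card G : ℂ) := by
    rw [hT, map_sum]
    have : ∀ g : G, LinearMap.trace ℂ (Fin n → ℂ) (ρ g * eU ρ U * ρ g⁻¹) = 1 := by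
      intro g
      rw [LinearMap.trace_mul_comm, ← mul_assoc, ← map_mul, inv_mul_cancel, map_one, one_mul, htr]
    rw [Finset.sum_congr rfl (fun g _ => this g), Finset.sum_const, nsmul_eq_mul, mul_one,
      Finset.card_univ, Nat.card_eq_fintype_card]
  have h2 : LinearMap.trace ℂ (Fin n → ℂ) T = c * n := by
    rw [hc, map_smul, LinearMap.trace_id, smul_eq_mul]
    simp
  have h3 : ∑ g : G, lamF ρ.character U g * lamF ρ.character U g⁻¹ = c := by
    have h4 : ∀ g : G, lamF ρ.character U g * lamF ρ.character U g⁻¹ =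
        LinearMap.trace ℂ (Fin n → ℂ) (ρ g * eU ρ U * ρ g⁻¹ * eU ρ U) := by
      intro g
      have h5 := sandwich ρ h (ρ g⁻¹)
      have h6 : ρ g * eU ρ U * ρ g⁻¹ * eU ρ U = ρ g * (eU ρ U * ρ g⁻¹ * eU ρ U) := by
        noncomm_ring
      rw [h6, h5, mul_smul_comm, map_smul, trace_rho_eU, trace_rho_eU, smul_eq_mul, mul_comm]
    rw [Finset.sum_congr rfl (fun g _ => h4 g), ← map_sum, ← Finset.sum_mul, ← hT, hc]
    have h7 : (c • LinearMap.id : Module.End ℂ (Fin n → ℂ)) * eU ρ U = c • eU ρ U := by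
      rw [smul_mul_assoc]
      rfl
    rw [h7, map_smul, htr, smul_eq_mul, mul_one]
  rw [h3, mul_comm, ← h2, h1]

end Rep

/-- The two relations, for irreducible characters. -/
theorem lam_mul_of_irr {χ : G → ℂ} (hχ : IsIrrCharacter G χ) (h : lamF χ U 1 = 1) (g k : G) :
    lamF χ U g * lamF χ U k = (Nat.card U : ℂ)⁻¹ * ∑ u : U, lamF χ U (g * u * k) := by
  obtain ⟨n, ρ, hρ, rfl⟩ := hχ
  exact lam_mul_rep ρ h g k

theorem lam_schur_of_irr {χ : G → ℂ} (hχ : IsIrrCharacter G χ) (h : lamF χ U 1 = 1) :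
    χ 1 * ∑ g : G, lamF χ U g * lamF χ U g⁻¹ = (Nat.card G : ℂ) := by
  obtain ⟨n, ρ, hρ, rfl⟩ := hχ
  rw [char_one_eq_rep]
  exact lam_schur_rep ρ hρ h

end Cfsg.Agent.Lib.LamRep50
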