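import Mathlib

/-!
# Landau's theorem

The number of solutions of `∑ 1 / nᵢ = q` in positive integers is finite; consequently, the order of
a finite group is bounded in terms of its class number.
-/

set_option autoImplicit false

namespace Cfsg.Agent.Lib.LandauBound

/-- Egyptian fractions are bounded. -/
theorem exists_bound (k : ℕ) : ∀ q : ℚ, 0 < q → ∃ N : ℕ, ∀ n : Fin k → ℕ, (∀ i, 0 < n i) →
    ∑ i, (1 : ℚ) / (n i : ℚ) = q → ∀ i, n i ≤ N := by
  induction k with
  | zero => exact fun _ _ => ⟨0, fun _ _ _ i => i.elim0⟩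
  | succ k ih =>
    intro q hq
    -- the bound on the smallest entry
    obtain ⟨B, hB⟩ := exists_nat_ge (((k : ℚ) + 1) / q)
    have hN : ∀ m : ℕ, ∃ N : ℕ, 0 < q - 1 / (m : ℚ) → ∀ n : Fin k → ℕ, (∀ i, 0 < n i) →
        ∑ i, (1 : ℚ) / (n i : ℚ) = q - 1 / (m : ℚ) → ∀ i, n i ≤ N := by
      intro m
      by_cases h : 0 < q - 1 / (m : ℚ)
      · obtain ⟨N, hN⟩ := ih _ h
        exact ⟨N, fun _ => hN⟩
      · exact ⟨0, fun h' => absurd h' h⟩
    choose Nf hNf using hN
    refine ⟨B + ∑ m ∈ Finset.range (B + 1), Nf m, ?_⟩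
    intro n hn hsum i
    -- the smallest entry
    obtain ⟨i₀, -, hi₀⟩ := Finset.exists_min_image Finset.univ n ⟨i, Finset.mem_univ i⟩
    have hpos0 : (0 : ℚ) < (n i₀ : ℚ) := by exact_mod_cast hn i₀
    have hle : q ≤ ((k : ℚ) + 1) * (1 / (n i₀ : ℚ)) := by
      rw [← hsum]
      calc ∑ i, (1 : ℚ) / (n i : ℚ) ≤ ∑ _i : Fin (k + 1), (1 : ℚ) / (n i₀ : ℚ) := by
            apply Finset.sum_le_sum
            intro j _
            have h1 : (n i₀ : ℚ) ≤ (n j : ℚ) := by exact_mod_cast hi₀ j (Finset.mem_univ j)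
            exact one_div_le_one_div_of_le hpos0 h1
        _ = ((k : ℚ) + 1) * (1 / (n i₀ : ℚ)) := by
            simp
    have hi₀B : n i₀ ≤ B := by
      have h1 : (n i₀ : ℚ) ≤ ((k : ℚ) + 1) / q := by
        rw [le_div_iff₀ hq]
        have h2 : (n i₀ : ℚ) * q ≤ (n i₀ : ℚ) * (((k : ℚ) + 1) * (1 / (n i₀ : ℚ))) :=
          mul_le_mul_of_nonneg_left hle hpos0.le
        have h3 : (n i₀ : ℚ) * (((k : ℚ) + 1) * (1 / (n i₀ : ℚ))) = (k : ℚ) + 1 := by
          field_simp
        linarith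
      have h2 : (n i₀ : ℚ) ≤ (B : ℚ) := h1.trans hB
      exact_mod_cast h2
    have hmem : n i₀ ∈ Finset.range (B + 1) := Finset.mem_range.mpr (by omega)
    have hNle : Nf (n i₀) ≤ ∑ m ∈ Finset.range (B + 1), Nf m :=
      Finset.single_le_sum (f := Nf) (fun _ _ => Nat.zero_le _) hmem
    -- remove the smallest entry
    by_cases hii : i = i₀
    · subst hii
      omega
    · obtain ⟨j, rfl⟩ := Fin.exists_succAbove_eq hii
      have hrest : ∑ j, (1 : ℚ) / (n (i₀.succAbove j) : ℚ) = q - 1 / (n i₀ : ℚ) := by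
        rw [← hsum, Fin.sum_univ_succAbove _ i₀]
        ring
      have hposrest : 0 < q - 1 / (n i₀ : ℚ) := by
        rw [← hrest]
        apply Finset.sum_pos' (fun j _ => by positivity)
        refine ⟨j, Finset.mem_univ j, ?_⟩
        have : (0 : ℚ) < (n (i₀.succAbove j) : ℚ) := by exact_mod_cast hn _
        positivity
      have := hNf (n i₀) hposrest (fun j => n (i₀.succAbove j)) (fun j => hn _) hrest j
      omega

/-- **Landau's theorem.** -/
theorem exists_bound_group (K : ℕ) : ∃ N : ℕ, ∀ (G : Type*) [Group G] [Finite G],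
    Nat.card (ConjClasses G) ≤ K → Nat.card G ≤ N := by
  have h1 : ∀ k : ℕ, ∃ N : ℕ, ∀ n : Fin k → ℕ, (∀ i, 0 < n i) →
      ∑ i, (1 : ℚ) / (n i : ℚ) = 1 → ∀ i, n i ≤ N := fun k => exists_bound k 1 one_pos
  choose Nf hNf using h1
  refine ⟨∑ k ∈ Finset.range (K + 1), Nf k, ?_⟩
  intro G _ _ hG
  classical
  letI : Fintype G := Fintype.ofFinite G
  letI : Fintype (ConjClasses G) := Fintype.ofFinite _
  set k := Fintype.card (ConjClasses G) with hk
  let e : Fin k ≃ ConjClasses G := (Fintype.equivFin (ConjClasses G)).symm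
  -- the orders of the centralizers
  let n : Fin k → ℕ := fun i => Nat.card G / (e i).carrier.ncard
  have hcar : ∀ c : ConjClasses G, c.carrier.ncard ∣ Nat.card G := by
    intro c
    obtain ⟨g, rfl⟩ := ConjClasses.mk_surjective c
    rw [← ConjAct.orbit_eq_carrier_conjClasses]
    have h2 := MulAction.card_orbit_mul_card_stabilizer_eq_card_group (ConjAct G) g
    have h3 : Fintype.card (ConjAct G) = Nat.card G := by
      rw [Nat.card_eq_fintype_card]
      rfl
    rw [← Nat.card_coe_set_eq, Nat.card_eq_fintype_card, ← h3, ← h2]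
    exact dvd_mul_right _ _
  have hcarpos : ∀ c : ConjClasses G, 0 < c.carrier.ncard := by
    intro c
    rw [Set.ncard_pos]
    obtain ⟨g, rfl⟩ := ConjClasses.mk_surjective c
    exact ⟨g, ConjClasses.mem_carrier_mk⟩
  have hnpos : ∀ i, 0 < n i := fun i =>
    Nat.div_pos (Nat.le_of_dvd Nat.card_pos (hcar _)) (hcarpos _)
  have hsum : ∑ i, (1 : ℚ) / (n i : ℚ) = 1 := by
    have h3 : ∀ i, (1 : ℚ) / (n i : ℚ) = ((e i).carrier.ncard : ℚ) / (Nat.card G : ℚ) := by
      intro i
      have h4 : n i * (e i).carrier.ncard = Nat.card G := Nat.div_mul_cancel (hcar _)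
      have h5 : (n i : ℚ) * ((e i).carrier.ncard : ℚ) = (Nat.card G : ℚ) := by exact_mod_cast h4
      have h6 : (0 : ℚ) < (n i : ℚ) := by exact_mod_cast hnpos i
      have h7 : (0 : ℚ) < ((e i).carrier.ncard : ℚ) := by exact_mod_cast hcarpos _
      rw [← h5]
      field_simp
    rw [Finset.sum_congr rfl (fun i _ => h3 i), ← Finset.sum_div]
    have h8 : ∑ i, (((e i).carrier.ncard : ℕ) : ℚ) = (Nat.card G : ℚ) := by
      have h9 := Group.sum_card_conj_classes_eq_card (G := G)
      rw [finsum_eq_sum_of_fintype] at h9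
      rw [← h9]
      push_cast
      exact Equiv.sum_comp e (fun c : ConjClasses G => ((c.carrier.ncard : ℕ) : ℚ))
    rw [h8]
    exact div_self (by exact_mod_cast Nat.card_pos.ne')
  -- the identity class
  obtain ⟨i₁, hi₁⟩ := e.surjective (ConjClasses.mk (1 : G))
  have hone : (e i₁).carrier.ncard = 1 := by
    rw [hi₁, Set.ncard_eq_one]
    refine ⟨1, ?_⟩
    ext x
    rw [ConjClasses.mem_carrier_iff_mk_eq, Set.mem_singleton_iff, ConjClasses.mk_eq_mk_iff_isConj]
    exact isConj_one_left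
  have hni : n i₁ = Nat.card G := by
    show Nat.card G / (e i₁).carrier.ncard = Nat.card G
    rw [hone, Nat.div_one]
  have h10 := hNf k n hnpos hsum i₁
  rw [hni] at h10
  have h11 : k ≤ K := by
    rw [hk, ← Nat.card_eq_fintype_card]
    exact hG
  have h12 : Nf k ≤ ∑ k ∈ Finset.range (K + 1), Nf k :=
    Finset.single_le_sum (f := Nf) (fun _ _ => Nat.zero_le _) (Finset.mem_range.mpr (by omega))
  exact h10.trans h12

end Cfsg.Agent.Lib.LandauBound
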