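import Mathlib

/-!
# Arithmetic of orders of groups of Lie type: the `p`-part against the order
-/

set_option autoImplicit false
set_option linter.unusedVariables false

namespace Cfsg.Agent.Lib.LieOrdShape

/-- The common shape of the orders. -/
theorem shape {p q f N D c d M : ℕ} (hp : p.Prime) (hq : q = p ^ f) (hf : 1 ≤ f) (hN : 1 ≤ N)
    (hd0 : 0 < d) (hdc : d.Coprime p) (hMc : M.Coprime p) (hM : M < q ^ D)
    (heq : d * c = q ^ N * M) (hD : D ≤ 2 * N) :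
    c.factorization p = N * f ∧ c < p ^ (3 * (N * f)) ∧
      (3 * D ≤ 5 * N → c ^ 3 < p ^ (8 * (N * f))) := by
  have hp0 : 0 < p := hp.pos
  have hq0 : 0 < q := by rw [hq]; exact pow_pos hp0 _
  have hM0 : M ≠ 0 := by
    rintro rfl
    have := (Nat.coprime_zero_left p).1 hMc
    exact hp.one_lt.ne' this
  have hc0 : c ≠ 0 := by
    rintro rfl
    rw [mul_zero] at heq
    have h1 : q ^ N * M ≠ 0 := mul_ne_zero (pow_ne_zero _ hq0.ne') hM0
    exact h1 heq.symm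
  have hndvd : ∀ {x : ℕ}, x.Coprime p → ¬ p ∣ x := by
    intro x hx h
    have h2 : p ∣ Nat.gcd x p := Nat.dvd_gcd h dvd_rfl
    rw [hx] at h2
    exact hp.one_lt.ne' (Nat.dvd_one.1 h2)
  have hfac : c.factorization p = N * f := by
    have h1 : (d * c).factorization p = (q ^ N * M).factorization p := by rw [heq]
    rw [Nat.factorization_mul hd0.ne' hc0, Nat.factorization_mul (pow_ne_zero _ hq0.ne') hM0] at h1
    simp only [Finsupp.add_apply] at h1
    rw [Nat.factorization_eq_zero_of_not_dvd (hndvd hdc), Nat.factorization_eq_zero_of_not_dvd (hndvd hMc),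
      zero_add, add_zero, hq, ← pow_mul, hp.factorization_pow, Finsupp.single_eq_same] at h1
    rw [h1]
    ring
  have hc1 : c < q ^ (N + D) := by
    calc c ≤ d * c := Nat.le_mul_of_pos_left c hd0
      _ = q ^ N * M := heq
      _ < q ^ N * q ^ D := Nat.mul_lt_mul_of_pos_left hM (pow_pos hq0 _)
      _ = q ^ (N + D) := (pow_add _ _ _).symm
  have hc2 : c < p ^ (f * (N + D)) := by
    rw [pow_mul, ← hq]
    exact hc1
  refine ⟨hfac, ?_, ?_⟩
  · refine lt_of_lt_of_le hc2 (Nat.pow_le_pow_right hp0 ?_)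
    have h1 : f * (N + D) ≤ f * (3 * N) := Nat.mul_le_mul_left _ (by omega)
    calc f * (N + D) ≤ f * (3 * N) := h1
      _ = 3 * (N * f) := by ring
  · intro h3
    have h4 : c ^ 3 < (p ^ (f * (N + D))) ^ 3 := Nat.pow_lt_pow_left hc2 (by norm_num)
    refine lt_of_lt_of_le h4 ?_
    rw [← pow_mul]
    refine Nat.pow_le_pow_right hp0 ?_
    have h1 : f * (N + D) * 3 = f * (3 * N + 3 * D) := by ring
    rw [h1]
    have h2 : f * (3 * N + 3 * D) ≤ f * (8 * N) := Nat.mul_le_mul_left _ (by omega)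
    calc f * (3 * N + 3 * D) ≤ f * (8 * N) := h2
      _ = 8 * (N * f) := by ring

section Basic

variable {p q f : ℕ}

theorem q_ge (hp : p.Prime) (hq : q = p ^ f) (hf : 1 ≤ f) : 2 ≤ q := by
  rw [hq]
  calc 2 ≤ p := hp.two_le
    _ = p ^ 1 := (pow_one p).symm
    _ ≤ p ^ f := Nat.pow_le_pow_right hp.pos hf

theorem p_dvd (hq : q = p ^ f) (hf : 1 ≤ f) : p ∣ q := by
  rw [hq]
  exact dvd_pow_self p (by omega)

theorem cop_sub (hp : p.Prime) (hq : q = p ^ f) (hf : 1 ≤ f) {i : ℕ} (hi : 1 ≤ i) :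
    (q ^ i - 1).Coprime p := by
  apply Nat.Coprime.symm
  rw [hp.coprime_iff_not_dvd]
  intro h
  have h1 : p ∣ q ^ i := (p_dvd hq hf).trans (dvd_pow_self q (by omega))
  have h2 : 1 ≤ q ^ i := Nat.one_le_pow _ _ (by have := q_ge hp hq hf; omega)
  have h3 : p ∣ 1 := by
    have := (Nat.dvd_sub h1 h)
    rwa [Nat.sub_sub_self h2] at this
  exact hp.one_lt.ne' (Nat.dvd_one.1 h3)

theorem cop_add (hp : p.Prime) (hq : q = p ^ f) (hf : 1 ≤ f) {i : ℕ} (hi : 1 ≤ i) :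
    (q ^ i + 1).Coprime p := by
  apply Nat.Coprime.symm
  rw [hp.coprime_iff_not_dvd]
  intro h
  have h1 : p ∣ q ^ i := (p_dvd hq hf).trans (dvd_pow_self q (by omega))
  have h3 : p ∣ 1 := (Nat.dvd_add_right h1).1 h
  exact hp.one_lt.ne' (Nat.dvd_one.1 h3)

theorem sub_lt (hq2 : 2 ≤ q) (i : ℕ) : q ^ i - 1 < q ^ i := by
  have h2 : 1 ≤ q ^ i := Nat.one_le_pow _ _ (by omega)
  omega

/-- `(q^a - 1)(q^b + 1) < q^(a+b)` for `a ≤ b`. -/
theorem pair_lt (hq2 : 2 ≤ q) {a b : ℕ} (hab : a ≤ b) : (q ^ a - 1) * (q ^ b + 1) < q ^ (a + b) := by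
  have h1 : 1 ≤ q ^ a := Nat.one_le_pow _ _ (by omega)
  have h2 : q ^ a ≤ q ^ b := Nat.pow_le_pow_right (by omega) hab
  obtain ⟨u, hu⟩ : ∃ u, q ^ a = u + 1 := ⟨q ^ a - 1, by omega⟩
  rw [pow_add, hu]
  have h3 : u < q ^ b := by omega
  have e : u + 1 - 1 = u := rfl
  rw [e]
  nlinarith

/-- The product over the range `q^(n-i) ...`. -/
theorem prod_GL_eq (q n : ℕ) (hq : 1 ≤ q) : ∏ i : Fin n, (q ^ n - q ^ (i : ℕ)) =
    q ^ (∑ i ∈ Finset.range n, i) * ∏ i ∈ Finset.range n, (q ^ (i + 1) - 1) := by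
  rw [Fin.prod_univ_eq_prod_range (fun i => q ^ n - q ^ i) n, ← Finset.prod_pow_eq_pow_sum]
  rw [← Finset.prod_range_reflect (fun i => q ^ (i + 1) - 1) n, ← Finset.prod_mul_distrib]
  refine Finset.prod_congr rfl fun i hi => ?_
  have hi' : i < n := Finset.mem_range.1 hi
  have e : n - 1 - i + 1 = n - i := by omega
  rw [e, Nat.mul_sub, mul_one, ← pow_add]
  congr 2
  omega

theorem sum_range_id_two (n : ℕ) : 2 * ∑ i ∈ Finset.range n, i = n * (n - 1) := by
  rw [mul_comm, Finset.sum_range_id_mul_two]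

theorem sum_add_two (k : ℕ) : 2 * ∑ i ∈ Finset.range k, (i + 2) = k * (k + 3) := by
  induction k with
  | zero => simp
  | succ k ih =>
    rw [Finset.sum_range_succ, mul_add, ih]
    ring

theorem sum_two_mul (m : ℕ) : ∑ i ∈ Finset.range m, (2 * (i + 1)) = m * (m + 1) := by
  induction m with
  | zero => simp
  | succ k ih =>
    rw [Finset.sum_range_succ, ih]
    ring

theorem prod_sub_lt {q : ℕ} (hq2 : 2 ≤ q) (g : ℕ → ℕ) (hg : ∀ i, 1 ≤ g i) {n : ℕ} (hn : 1 ≤ n) :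
    ∏ i ∈ Finset.range n, (q ^ g i - 1) < q ^ ∑ i ∈ Finset.range n, g i := by
  rw [← Finset.prod_pow_eq_pow_sum]
  apply Finset.prod_lt_prod_of_nonempty
  · intro i _
    have : 2 ^ g i ≤ q ^ g i := Nat.pow_le_pow_left hq2 _
    have h2 : 2 ^ 1 ≤ 2 ^ g i := Nat.pow_le_pow_right (by norm_num) (hg i)
    omega
  · intro i _
    exact sub_lt hq2 _
  · exact ⟨0, Finset.mem_range.2 (by omega)⟩

theorem cop_prod {p q f : ℕ} (hp : p.Prime) (hq : q = p ^ f) (hf : 1 ≤ f) (g : ℕ → ℕ) (hg : ∀ i, 1 ≤ g i) (n : ℕ) :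
    (∏ i ∈ Finset.range n, (q ^ g i - 1)).Coprime p :=
  Nat.Coprime.prod_left fun i _ => cop_sub hp hq hf (hg i)

/-- The unitary factors. -/
def uf (q i : ℕ) : ℕ := if Even i then q ^ (i + 1) + 1 else q ^ (i + 1) - 1

theorem uf_even (q s : ℕ) : uf q (2 * s) = q ^ (2 * s + 1) + 1 := by
  simp [uf]

theorem uf_odd (q s : ℕ) : uf q (2 * s + 1) = q ^ (2 * s + 2) - 1 := by
  simp [uf, Nat.even_add_one]

theorem P_even_le {q : ℕ} (hq2 : 2 ≤ q) (s : ℕ) :
    ∏ i ∈ Finset.range (2 * s), uf q (i + 1) ≤ q ^ ∑ i ∈ Finset.range (2 * s), (i + 2) := by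
  induction s with
  | zero => simp
  | succ s ih =>
    have e : 2 * (s + 1) = 2 * s + 1 + 1 := by ring
    rw [e, Finset.prod_range_succ, Finset.prod_range_succ, Finset.sum_range_succ, Finset.sum_range_succ,
      pow_add, pow_add, mul_assoc, mul_assoc]
    have e1 : uf q (2 * s + 1) = q ^ (2 * s + 2) - 1 := uf_odd q s
    have e2 : uf q (2 * s + 1 + 1) = q ^ (2 * s + 1 + 2) + 1 := by
      have : 2 * s + 1 + 1 = 2 * (s + 1) := by ring
      rw [this, uf_even]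
      rfl
    rw [e1, e2]
    refine Nat.mul_le_mul ih ?_
    rw [← pow_add]
    exact (pair_lt hq2 (by omega)).le

theorem P_lt {q : ℕ} (hq2 : 2 ≤ q) {t : ℕ} (ht : 1 ≤ t) :
    ∏ i ∈ Finset.range t, uf q (i + 1) < q ^ ∑ i ∈ Finset.range t, (i + 2) := by
  have hpos : 0 < q := by omega
  obtain ⟨s, hs | hs⟩ : ∃ s, t = 2 * s + 1 ∨ t = 2 * s + 2 := by
    rcases Nat.even_or_odd' t with ⟨s, hs | hs⟩
    · exact ⟨s - 1, Or.inr (by omega)⟩
    · exact ⟨s, Or.inl hs⟩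
  · subst hs
    rw [Finset.prod_range_succ, Finset.sum_range_succ, pow_add]
    have e1 : uf q (2 * s + 1) = q ^ (2 * s + 2) - 1 := uf_odd q s
    rw [e1]
    exact Nat.mul_lt_mul_of_le_of_lt (P_even_le hq2 s) (sub_lt hq2 _) (pow_pos hpos _)
  · subst hs
    have e : 2 * s + 2 = 2 * s + 1 + 1 := rfl
    rw [e, Finset.prod_range_succ, Finset.prod_range_succ, Finset.sum_range_succ, Finset.sum_range_succ,
      pow_add, pow_add, mul_assoc, mul_assoc]
    have e1 : uf q (2 * s + 1) = q ^ (2 * s + 2) - 1 := uf_odd q s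
    have e2 : uf q (2 * s + 1 + 1) = q ^ (2 * s + 1 + 2) + 1 := by
      have : 2 * s + 1 + 1 = 2 * (s + 1) := by ring
      rw [this, uf_even]
      rfl
    rw [e1, e2]
    refine Nat.mul_lt_mul_of_le_of_lt (P_even_le hq2 s) ?_ (pow_pos hpos _)
    rw [← pow_add]
    exact pair_lt hq2 (by omega)

end Basic

end Cfsg.Agent.Lib.LieOrdShape
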