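import Mathlib
import Cfsg.Agent.Lib.LieOrdShape
import Cfsg.Agent.S0243
import Cfsg.Agent.S0280
import Cfsg.Agent.S0292
import Cfsg.Agent.S0293
import Cfsg.Agent.S0294
import Cfsg.Agent.S1059
import Cfsg.Agent.S1062
import Cfsg.Agent.S1063
import Cfsg.Agent.S1064
import Cfsg.Agent.S1065
import Cfsg.Agent.S1066
import Cfsg.Agent.S1067
import Cfsg.Agent.S1068
import Cfsg.Agent.S1069
import Cfsg.Agent.S1163
import Cfsg.Agent.Lib.SpOrder
import Cfsg.Agent.Lib.SpCenter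

/-!
# The orders of the families of Lie type against their `p`-parts
-/

set_option autoImplicit false
set_option linter.unusedVariables false

namespace Cfsg.Agent.Lib.LieOrdFam

open Cfsg Cfsg.Agent.Lib.LieOrdShape

/-- The conclusion of the statement for a value `c`, with `p`-part `p ^ k`. -/
def Concl (p c k : ℕ) : Prop := c.factorization p = k ∧ c < p ^ (3 * k) ∧ c ^ 3 < p ^ (8 * k)

/-- Shape with both bounds. -/
theorem concl_of {p q f N D c d M : ℕ} (hp : p.Prime) (hq : q = p ^ f) (hf : 1 ≤ f) (hN : 1 ≤ N)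
    (hd0 : 0 < d) (hdc : d.Coprime p) (hMc : M.Coprime p) (hM : M < q ^ D)
    (heq : d * c = q ^ N * M) (hD : D ≤ 2 * N) (hD2 : 3 * D ≤ 5 * N) : Concl p c (N * f) := by
  obtain ⟨h1, h2, h3⟩ := shape hp hq hf hN hd0 hdc hMc hM heq hD
  exact ⟨h1, h2, h3 hD2⟩

variable {p q f : ℕ}

section Field

variable {F : Type*} [Field F] [Fintype F]

theorem exists_pow (hp : p.Prime) [CharP F p] : ∃ f, 1 ≤ f ∧ Fintype.card F = p ^ f := by
  haveI : Fact p.Prime := ⟨hp⟩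
  obtain ⟨n, hpp, hn⟩ := FiniteField.card F p
  exact ⟨n, n.pos, hn⟩

/-- The linear groups: equation in normal form. -/
theorem psl_eq (hq : Fintype.card F = q) (hq2 : 2 ≤ q) {n : ℕ} (hn : 2 ≤ n) :
    Nat.gcd n (q - 1) * Nat.card (Matrix.ProjectiveSpecialLinearGroup (Fin n) F) =
      q ^ (∑ i ∈ Finset.range n, i) * ∏ i ∈ Finset.range (n - 1), (q ^ (i + 2) - 1) := by
  have h := Cfsg.Agent.S0243.result hq n hn
  rw [prod_GL_eq q n (by omega)] at h
  obtain ⟨k, rfl⟩ : ∃ k, n = k + 1 := ⟨n - 1, by omega⟩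
  rw [Finset.prod_range_succ' (fun i => q ^ (i + 1) - 1) k] at h
  simp only [Nat.add_sub_cancel, zero_add, pow_one] at h ⊢
  have hq1 : 0 < q - 1 := by omega
  apply Nat.eq_of_mul_eq_mul_left hq1
  rw [mul_comm (q - 1), mul_assoc, mul_comm _ (q - 1), h]
  ring_nf

theorem concl_psl (hp : p.Prime) (hq : Fintype.card F = q) (hq' : q = p ^ f) (hf : 1 ≤ f) {n : ℕ} (hn : 2 ≤ n) :
    (Nat.card (Matrix.ProjectiveSpecialLinearGroup (Fin n) F)).factorization p = (∑ i ∈ Finset.range n, i) * f ∧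
    Nat.card (Matrix.ProjectiveSpecialLinearGroup (Fin n) F) < p ^ (3 * ((∑ i ∈ Finset.range n, i) * f)) ∧
    (3 ≤ n → Nat.card (Matrix.ProjectiveSpecialLinearGroup (Fin n) F) ^ 3 < p ^ (8 * ((∑ i ∈ Finset.range n, i) * f))) := by
  have hq2 := q_ge hp hq' hf
  have h2N := sum_range_id_two n
  have hN : 1 ≤ ∑ i ∈ Finset.range n, i := by
    have : 2 ≤ n * (n - 1) := by
      obtain ⟨k, rfl⟩ : ∃ k, n = k + 2 := ⟨n - 2, by omega⟩
      have : k + 2 - 1 = k + 1 := by omega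
      rw [this]
      nlinarith
    omega
  have hM := prod_sub_lt hq2 (fun i => i + 2) (fun i => by omega) (n := n - 1) (by omega)
  have hD2 := sum_add_two (n - 1)
  have hMc := cop_prod hp hq' hf (fun i => i + 2) (fun i => by omega) (n - 1)
  have hd0 : 0 < Nat.gcd n (q - 1) := Nat.gcd_pos_of_pos_left _ (by omega)
  have hdc : (Nat.gcd n (q - 1)).Coprime p := by
    have h1 : (q ^ 1 - 1).Coprime p := cop_sub hp hq' hf (by omega)
    rw [pow_one] at h1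
    exact Nat.Coprime.coprime_dvd_left (Nat.gcd_dvd_right _ _) h1
  obtain ⟨k, rfl⟩ : ∃ k, n = k + 2 := ⟨n - 2, by omega⟩
  have e1 : k + 2 - 1 = k + 1 := by omega
  rw [e1] at hM hD2 hMc h2N
  have h3 := shape hp hq' hf hN hd0 hdc hMc hM (by simpa [e1] using psl_eq hq hq2 (n := k + 2) hn) (by nlinarith)
  refine ⟨h3.1, h3.2.1, fun hn3 => h3.2.2 ?_⟩
  obtain ⟨j, rfl⟩ : ∃ j, k = j + 1 := ⟨k - 1, by omega⟩
  nlinarith

theorem concl_psp (hp : p.Prime) (hq : Fintype.card F = q) (hq' : q = p ^ f) (hf : 1 ≤ f) {m : ℕ} (hm : 2 ≤ m) :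
    Concl p (Nat.card (Cfsg.PSp m F)) (m ^ 2 * f) := by
  have hq2 := q_ge hp hq' hf
  have hM := prod_sub_lt hq2 (fun i => 2 * (i + 1)) (fun i => by omega) (n := m) (by omega)
  rw [sum_two_mul] at hM
  have hMc := cop_prod hp hq' hf (fun i => 2 * (i + 1)) (fun i => by omega) m
  haveI : Nonempty (Fin m) := ⟨⟨0, by omega⟩⟩
  have h1 := Subgroup.card_eq_card_quotient_mul_card_subgroup
    (Subgroup.center (Matrix.symplecticGroup (Fin m) F))
  have h2 := Cfsg.Agent.Lib.SpOrder.card_Sp (F := F) m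
  have h3 : Nat.card (Subgroup.center (Matrix.symplecticGroup (Fin m) F)) = Nat.gcd 2 (q - 1) := by
    have := Cfsg.Agent.Lib.SpCenter.card_center (l := Fin m) (F := F)
    rw [hq] at this
    exact this
  rw [hq] at h2
  have hd0 : 0 < Nat.gcd 2 (q - 1) := Nat.gcd_pos_of_pos_left _ (by omega)
  have hdc : (Nat.gcd 2 (q - 1)).Coprime p := by
    have h1 : (q ^ 1 - 1).Coprime p := cop_sub hp hq' hf (by omega)
    rw [pow_one] at h1
    exact Nat.Coprime.coprime_dvd_left (Nat.gcd_dvd_right _ _) h1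
  refine concl_of hp hq' hf (by nlinarith) hd0 hdc hMc hM ?_ (by nlinarith) (by nlinarith)
  rw [← h2, h1, h3]
  exact mul_comm _ _

theorem cop_uf (hp : p.Prime) (hq' : q = p ^ f) (hf : 1 ≤ f) (i : ℕ) : (uf q i).Coprime p := by
  unfold uf
  split_ifs
  · exact cop_add hp hq' hf (by omega)
  · exact cop_sub hp hq' hf (by omega)

theorem concl_psu (hp : p.Prime) (hq : Fintype.card F = q ^ 2) (hq' : q = p ^ f) (hf : 1 ≤ f) {n : ℕ} (hn : 3 ≤ n) :
    Concl p (Nat.card (Cfsg.PSU n F q)) ((n * (n - 1) / 2) * f) := by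
  have hq2 := q_ge hp hq' hf
  have h := Cfsg.Agent.S0280.result hq n (by omega)
  have h2N : 2 * (n * (n - 1) / 2) = n * (n - 1) := by
    rw [← Finset.sum_range_id n]
    exact sum_range_id_two n
  obtain ⟨k, rfl⟩ : ∃ k, n = k + 1 := ⟨n - 1, by omega⟩
  have hM := P_lt hq2 (t := k) (by omega)
  have hD2 := sum_add_two k
  have hMc : (∏ i ∈ Finset.range k, uf q (i + 1)).Coprime p :=
    Nat.Coprime.prod_left fun i _ => cop_uf hp hq' hf _
  have hd0 : 0 < Nat.gcd (k + 1) (q + 1) := Nat.gcd_pos_of_pos_left _ (by omega)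
  have hdc : (Nat.gcd (k + 1) (q + 1)).Coprime p := by
    have h1 : (q ^ 1 + 1).Coprime p := cop_add hp hq' hf (by omega)
    rw [pow_one] at h1
    exact Nat.Coprime.coprime_dvd_left (Nat.gcd_dvd_right _ _) h1
  have e : ∏ i ∈ Finset.range (k + 1), (if Even i then q ^ (i + 1) + 1 else q ^ (i + 1) - 1) =
      (∏ i ∈ Finset.range k, uf q (i + 1)) * (q + 1) := by
    have := Finset.prod_range_succ' (uf q) k
    simp only [uf, Even.zero, if_true, zero_add, pow_one] at this ⊢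
    exact this
  rw [e] at h
  have e1 : k + 1 - 1 = k := rfl
  rw [e1] at h2N
  have heq : Nat.gcd (k + 1) (q + 1) * Nat.card (Cfsg.PSU (k + 1) F q) =
      q ^ ((k + 1) * k / 2) * ∏ i ∈ Finset.range k, uf q (i + 1) := by
    apply Nat.eq_of_mul_eq_mul_left (show 0 < q + 1 by omega)
    have e2 : q ^ ((k + 1) * (k + 1 - 1) / 2) = q ^ ((k + 1) * k / 2) := by rw [e1]
    rw [e2] at h
    calc (q + 1) * (Nat.gcd (k + 1) (q + 1) * Nat.card (Cfsg.PSU (k + 1) F q))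
        = Nat.gcd (k + 1) (q + 1) * ((q + 1) * Nat.card (Cfsg.PSU (k + 1) F q)) := by ring
      _ = _ := h
      _ = _ := by ring
  rw [e1]
  refine concl_of hp hq' hf ?_ hd0 hdc hMc hM heq ?_ ?_
  · have : 2 ≤ k := by omega
    nlinarith
  · have : 2 ≤ k := by omega
    nlinarith
  · have : 2 ≤ k := by omega
    nlinarith

theorem concl_odd (hp : p.Prime) (hq : Fintype.card F = q) (hq' : q = p ^ f) (hf : 1 ≤ f) (hodd : Odd q) {m : ℕ}
    (hm : 3 ≤ m) : Concl p (Nat.card (Cfsg.POmega F (Cfsg.quadFormOdd m F))) (m ^ 2 * f) := by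
  have hq2 := q_ge hp hq' hf
  have hM := prod_sub_lt hq2 (fun i => 2 * (i + 1)) (fun i => by omega) (n := m) (by omega)
  rw [sum_two_mul] at hM
  have hMc := cop_prod hp hq' hf (fun i => 2 * (i + 1)) (fun i => by omega) m
  have h2 : (2 : ℕ).Coprime p := by
    rw [Nat.coprime_primes Nat.prime_two hp]
    rintro rfl
    have : 2 ∣ q := p_dvd hq' hf
    exact (Nat.not_even_iff_odd.2 hodd) (even_iff_two_dvd.2 this)
  exact concl_of hp hq' hf (by nlinarith) (by norm_num) h2 hMc hM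
    (Cfsg.Agent.S0292.result hq hodd m hm) (by nlinarith) (by nlinarith)

theorem concl_plus (hp : p.Prime) (hq : Fintype.card F = q) (hq' : q = p ^ f) (hf : 1 ≤ f) {m : ℕ}
    (hm : 4 ≤ m) : Concl p (Nat.card (Cfsg.POmega F (Cfsg.quadFormPlus m F))) ((m * (m - 1)) * f) := by
  have hq2 := q_ge hp hq' hf
  obtain ⟨k, rfl⟩ : ∃ k, m = k + 1 := ⟨m - 1, by omega⟩
  have e1 : k + 1 - 1 = k := rfl
  have hM := prod_sub_lt hq2 (fun i => 2 * (i + 1)) (fun i => by omega) (n := k) (by omega)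
  rw [sum_two_mul] at hM
  have hMc := cop_prod hp hq' hf (fun i => 2 * (i + 1)) (fun i => by omega) k
  have h := Cfsg.Agent.S0293.result hq (k + 1) hm
  rw [e1] at h ⊢
  have hc1 : (q ^ (k + 1) - 1).Coprime p := cop_sub hp hq' hf (by omega)
  have hd0 : 0 < Nat.gcd 4 (q ^ (k + 1) - 1) := Nat.gcd_pos_of_pos_left _ (by omega)
  have hdc : (Nat.gcd 4 (q ^ (k + 1) - 1)).Coprime p :=
    Nat.Coprime.coprime_dvd_left (Nat.gcd_dvd_right _ _) hc1
  refine concl_of hp hq' hf (D := (k + 1) + k * (k + 1)) ?_ hd0 hdc (Nat.Coprime.mul_left hc1 hMc) ?_ ?_ ?_ ?_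
  · nlinarith
  · exact lt_of_lt_of_eq (Nat.mul_lt_mul'' (sub_lt hq2 (k + 1)) hM) (by rw [← pow_add])
  · rw [h, mul_assoc]
  · nlinarith
  · nlinarith

theorem concl_minus (hp : p.Prime) (hq : Fintype.card F = q) (hq' : q = p ^ f) (hf : 1 ≤ f) {m : ℕ}
    (hm : 4 ≤ m) (a b : F) (hab : ∀ z₁ z₂ : F, z₁ ^ 2 + a * z₁ * z₂ + b * z₂ ^ 2 = 0 → z₁ = 0 ∧ z₂ = 0) :
    Concl p (Nat.card (Cfsg.POmega F (Cfsg.quadFormMinus (m - 1) F a b))) ((m * (m - 1)) * f) := by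
  have hq2 := q_ge hp hq' hf
  have h := Cfsg.Agent.S0294.result hq m hm a b hab
  obtain ⟨j, rfl⟩ : ∃ j, m = j + 2 := ⟨m - 2, by omega⟩
  have e1 : j + 2 - 1 = j + 1 := rfl
  rw [e1] at h ⊢
  have hMc := cop_prod hp hq' hf (fun i => 2 * (i + 1)) (fun i => by omega) (j + 1)
  have hc1 : (q ^ (j + 2) + 1).Coprime p := cop_add hp hq' hf (by omega)
  have hd0 : 0 < Nat.gcd 4 (q ^ (j + 2) + 1) := Nat.gcd_pos_of_pos_left _ (by omega)
  have hdc : (Nat.gcd 4 (q ^ (j + 2) + 1)).Coprime p :=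
    Nat.Coprime.coprime_dvd_left (Nat.gcd_dvd_right _ _) hc1
  have hprod : (q ^ (j + 2) + 1) * ∏ i ∈ Finset.range (j + 1), (q ^ (2 * (i + 1)) - 1) < q ^ ((j + 2) + (j + 1) * (j + 2)) := by
    have e2 := Finset.prod_range_succ' (fun i => q ^ (2 * (i + 1)) - 1) j
    rw [e2]
    have hM := prod_sub_lt hq2 (fun i => 2 * (i + 1 + 1)) (fun i => by omega) (n := j) (by omega)
    have hP := pair_lt hq2 (a := 2) (b := j + 2) (by omega)
    have e3 : ∑ i ∈ Finset.range j, (2 * (i + 1 + 1)) + 2 = (j + 1) * (j + 2) := by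
      have := sum_two_mul (j + 1)
      rw [Finset.sum_range_succ'] at this
      simpa using this
    calc (q ^ (j + 2) + 1) * ((∏ i ∈ Finset.range j, (q ^ (2 * (i + 1 + 1)) - 1)) * (q ^ (2 * (0 + 1)) - 1))
        = (∏ i ∈ Finset.range j, (q ^ (2 * (i + 1 + 1)) - 1)) * ((q ^ 2 - 1) * (q ^ (j + 2) + 1)) := by
          simp only [zero_add, mul_one]
          ring
      _ < q ^ (∑ i ∈ Finset.range j, (2 * (i + 1 + 1))) * q ^ (2 + (j + 2)) := Nat.mul_lt_mul'' hM hP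
      _ = q ^ ((j + 2) + (j + 1) * (j + 2)) := by
          rw [← pow_add]
          congr 1
          omega
  refine concl_of hp hq' hf (D := (j + 2) + (j + 1) * (j + 2)) ?_ hd0 hdc (Nat.Coprime.mul_left hc1 hMc) hprod ?_ ?_ ?_
  · nlinarith
  · rw [h, mul_assoc]
  · nlinarith
  · nlinarith

theorem concl_g2 (hp : p.Prime) (hq : Fintype.card F = q) (hq' : q = p ^ f) (hf : 1 ≤ f) :
    Concl p (Nat.card (Lie.chevG2.group F)) (6 * f) := by
  have hq2 := q_ge hp hq' hf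
  have hs := sub_lt hq2
  have hc : ∀ {i}, 1 ≤ i → (q ^ i - 1).Coprime p := fun hi => cop_sub hp hq' hf hi
  refine concl_of hp hq' hf (d := 1) (D := 8) (M := (q ^ 2 - 1) * (q ^ 6 - 1)) (by norm_num) (by norm_num)
    (by simp) (Nat.Coprime.mul_left (hc (by norm_num)) (hc (by norm_num))) ?_ ?_ (by norm_num) (by norm_num)
  · exact lt_of_lt_of_eq (Nat.mul_lt_mul'' (hs 2) (hs 6)) (by ring)
  · rw [Cfsg.Agent.S1059.result hq]
    ring

theorem concl_f4 (hp : p.Prime) (hq : Fintype.card F = q) (hq' : q = p ^ f) (hf : 1 ≤ f) :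
    Concl p (Nat.card (Lie.chevF4.group F)) (24 * f) := by
  have hq2 := q_ge hp hq' hf
  have hs := sub_lt hq2
  have hc : ∀ {i}, 1 ≤ i → (q ^ i - 1).Coprime p := fun hi => cop_sub hp hq' hf hi
  refine concl_of hp hq' hf (d := 1) (D := 28) (M := (q ^ 2 - 1) * (q ^ 6 - 1) * (q ^ 8 - 1) * (q ^ 12 - 1)) (by norm_num) (by norm_num)
    (by simp) (Nat.Coprime.mul_left (Nat.Coprime.mul_left (Nat.Coprime.mul_left (hc (by norm_num)) (hc (by norm_num))) (hc (by norm_num))) (hc (by norm_num))) ?_ ?_ (by norm_num) (by norm_num)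
  · exact lt_of_lt_of_eq (Nat.mul_lt_mul'' (Nat.mul_lt_mul'' (Nat.mul_lt_mul'' (hs 2) (hs 6)) (hs 8)) (hs 12)) (by ring)
  · rw [Cfsg.Agent.S1062.result hq]
    ring

theorem concl_e6 (hp : p.Prime) (hq : Fintype.card F = q) (hq' : q = p ^ f) (hf : 1 ≤ f) :
    Concl p (Nat.card (Lie.chevE6.group F)) (36 * f) := by
  have hq2 := q_ge hp hq' hf
  have hs := sub_lt hq2
  have hc : ∀ {i}, 1 ≤ i → (q ^ i - 1).Coprime p := fun hi => cop_sub hp hq' hf hi
  have hd0 : 0 < Nat.gcd 3 (q - 1) := Nat.gcd_pos_of_pos_left _ (by omega)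
  have hdc : (Nat.gcd 3 (q - 1)).Coprime p := by
    have h1 : (q ^ 1 - 1).Coprime p := hc (by omega)
    rw [pow_one] at h1
    exact Nat.Coprime.coprime_dvd_left (Nat.gcd_dvd_right _ _) h1
  refine concl_of hp hq' hf (D := 42) (M := (q ^ 2 - 1) * (q ^ 5 - 1) * (q ^ 6 - 1) * (q ^ 8 - 1) * (q ^ 9 - 1) * (q ^ 12 - 1)) (by norm_num) hd0 hdc
    (Nat.Coprime.mul_left (Nat.Coprime.mul_left (Nat.Coprime.mul_left (Nat.Coprime.mul_left (Nat.Coprime.mul_left (hc (by norm_num)) (hc (by norm_num))) (hc (by norm_num))) (hc (by norm_num))) (hc (by norm_num))) (hc (by norm_num))) ?_ ?_ (by norm_num) (by norm_num)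
  · exact lt_of_lt_of_eq (Nat.mul_lt_mul'' (Nat.mul_lt_mul'' (Nat.mul_lt_mul'' (Nat.mul_lt_mul'' (Nat.mul_lt_mul'' (hs 2) (hs 5)) (hs 6)) (hs 8)) (hs 9)) (hs 12)) (by ring)
  · rw [Cfsg.Agent.S1063.result hq]
    ring

theorem concl_e7 (hp : p.Prime) (hq : Fintype.card F = q) (hq' : q = p ^ f) (hf : 1 ≤ f) :
    Concl p (Nat.card (Lie.chevE7.group F)) (63 * f) := by
  have hq2 := q_ge hp hq' hf
  have hs := sub_lt hq2
  have hc : ∀ {i}, 1 ≤ i → (q ^ i - 1).Coprime p := fun hi => cop_sub hp hq' hf hi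
  have hd0 : 0 < Nat.gcd 2 (q - 1) := Nat.gcd_pos_of_pos_left _ (by omega)
  have hdc : (Nat.gcd 2 (q - 1)).Coprime p := by
    have h1 : (q ^ 1 - 1).Coprime p := hc (by omega)
    rw [pow_one] at h1
    exact Nat.Coprime.coprime_dvd_left (Nat.gcd_dvd_right _ _) h1
  refine concl_of hp hq' hf (D := 70) (M := (q ^ 2 - 1) * (q ^ 6 - 1) * (q ^ 8 - 1) * (q ^ 10 - 1) * (q ^ 12 - 1) * (q ^ 14 - 1) * (q ^ 18 - 1)) (by norm_num) hd0 hdc
    (Nat.Coprime.mul_left (Nat.Coprime.mul_left (Nat.Coprime.mul_left (Nat.Coprime.mul_left (Nat.Coprime.mul_left (Nat.Coprime.mul_left (hc (by norm_num)) (hc (by norm_num))) (hc (by norm_num))) (hc (by norm_num))) (hc (by norm_num))) (hc (by norm_num))) (hc (by norm_num))) ?_ ?_ (by norm_num) (by norm_num)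
  · exact lt_of_lt_of_eq (Nat.mul_lt_mul'' (Nat.mul_lt_mul'' (Nat.mul_lt_mul'' (Nat.mul_lt_mul'' (Nat.mul_lt_mul'' (Nat.mul_lt_mul'' (hs 2) (hs 6)) (hs 8)) (hs 10)) (hs 12)) (hs 14)) (hs 18)) (by ring)
  · rw [Cfsg.Agent.S1064.result hq]
    ring

theorem concl_e8 (hp : p.Prime) (hq : Fintype.card F = q) (hq' : q = p ^ f) (hf : 1 ≤ f) :
    Concl p (Nat.card (Lie.chevE8.group F)) (120 * f) := by
  have hq2 := q_ge hp hq' hf
  have hs := sub_lt hq2
  have hc : ∀ {i}, 1 ≤ i → (q ^ i - 1).Coprime p := fun hi => cop_sub hp hq' hf hi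
  refine concl_of hp hq' hf (d := 1) (D := 128) (M := (q ^ 2 - 1) * (q ^ 8 - 1) * (q ^ 12 - 1) * (q ^ 14 - 1) * (q ^ 18 - 1) * (q ^ 20 - 1) * (q ^ 24 - 1) * (q ^ 30 - 1)) (by norm_num) (by norm_num)
    (by simp) (Nat.Coprime.mul_left (Nat.Coprime.mul_left (Nat.Coprime.mul_left (Nat.Coprime.mul_left (Nat.Coprime.mul_left (Nat.Coprime.mul_left (Nat.Coprime.mul_left (hc (by norm_num)) (hc (by norm_num))) (hc (by norm_num))) (hc (by norm_num))) (hc (by norm_num))) (hc (by norm_num))) (hc (by norm_num))) (hc (by norm_num))) ?_ ?_ (by norm_num) (by norm_num)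
  · exact lt_of_lt_of_eq (Nat.mul_lt_mul'' (Nat.mul_lt_mul'' (Nat.mul_lt_mul'' (Nat.mul_lt_mul'' (Nat.mul_lt_mul'' (Nat.mul_lt_mul'' (Nat.mul_lt_mul'' (hs 2) (hs 8)) (hs 12)) (hs 14)) (hs 18)) (hs 20)) (hs 24)) (hs 30)) (by ring)
  · rw [Cfsg.Agent.S1065.result hq]
    ring

theorem concl_2e6 (hp : p.Prime) (hpq : IsPrimePow q) (hK : Fintype.card F = q ^ 2) (hq' : q = p ^ f) (hf : 1 ≤ f) :
    Concl p (Nat.card (Lie.twistedE6 F q)) (36 * f) := by
  have hq2 := q_ge hp hq' hf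
  have hs := sub_lt hq2
  have hc : ∀ {i}, 1 ≤ i → (q ^ i - 1).Coprime p := fun hi => cop_sub hp hq' hf hi
  have hc' : ∀ {i}, 1 ≤ i → (q ^ i + 1).Coprime p := fun hi => cop_add hp hq' hf hi
  have hd0 : 0 < Nat.gcd 3 (q + 1) := Nat.gcd_pos_of_pos_left _ (by omega)
  have hdc : (Nat.gcd 3 (q + 1)).Coprime p := by
    have h1 : (q ^ 1 + 1).Coprime p := hc' (by omega)
    rw [pow_one] at h1
    exact Nat.Coprime.coprime_dvd_left (Nat.gcd_dvd_right _ _) h1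
  refine concl_of hp hq' hf (D := 42) (M := ((q ^ 2 - 1) * (q ^ 5 + 1)) * (q ^ 6 - 1) * ((q ^ 8 - 1) * (q ^ 9 + 1)) * (q ^ 12 - 1)) (by norm_num) hd0 hdc
    (Nat.Coprime.mul_left (Nat.Coprime.mul_left (Nat.Coprime.mul_left (Nat.Coprime.mul_left (hc (by norm_num)) (hc' (by norm_num))) (hc (by norm_num))) (Nat.Coprime.mul_left (hc (by norm_num)) (hc' (by norm_num)))) (hc (by norm_num))) ?_ ?_ (by norm_num) (by norm_num)
  · exact lt_of_lt_of_eq (Nat.mul_lt_mul'' (Nat.mul_lt_mul'' (Nat.mul_lt_mul'' (pair_lt hq2 (a := 2) (b := 5) (by norm_num)) (hs 6)) (pair_lt hq2 (a := 8) (b := 9) (by norm_num))) (hs 12)) (by ring)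
  · rw [Cfsg.Agent.S1066.result hpq hK]
    ring

theorem concl_3d4 (hp : p.Prime) (hpq : IsPrimePow q) (hK : Fintype.card F = q ^ 3) (hq' : q = p ^ f) (hf : 1 ≤ f) :
    Concl p (Nat.card (Lie.twistedD4 F q)) (12 * f) := by
  have hq2 := q_ge hp hq' hf
  have hs := sub_lt hq2
  have hc : ∀ {i}, 1 ≤ i → (q ^ i - 1).Coprime p := fun hi => cop_sub hp hq' hf hi
  have hc3 : (q ^ 8 + q ^ 4 + 1).Coprime p := by
    apply Nat.Coprime.symm
    rw [hp.coprime_iff_not_dvd]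
    intro h
    have h1 : p ∣ q ^ 8 + q ^ 4 := dvd_add ((p_dvd hq' hf).trans (dvd_pow_self q (by norm_num)))
      ((p_dvd hq' hf).trans (dvd_pow_self q (by norm_num)))
    have h3 : p ∣ 1 := (Nat.dvd_add_right h1).1 h
    exact hp.one_lt.ne' (Nat.dvd_one.1 h3)
  have hlt : (q ^ 2 - 1) * (q ^ 8 + q ^ 4 + 1) < q ^ 10 := by
    obtain ⟨v, hv⟩ : ∃ v, q ^ 2 = v + 1 := ⟨q ^ 2 - 1, by have : 1 ≤ q ^ 2 := Nat.one_le_pow _ _ (by omega); omega⟩
    have e8 : q ^ 8 = (q ^ 2) ^ 4 := by ring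
    have e4 : q ^ 4 = (q ^ 2) ^ 2 := by ring
    have e10 : q ^ 10 = (q ^ 2) ^ 5 := by ring
    rw [e8, e4, e10, hv]
    have e : v + 1 - 1 = v := rfl
    rw [e]
    have e5 : (v + 1) ^ 5 = v * ((v + 1) ^ 4 + (v + 1) ^ 2 + 1) + (v ^ 4 + 3 * v ^ 3 + 4 * v ^ 2 + 2 * v + 1) := by ring
    rw [e5]
    omega
  refine concl_of hp hq' hf (d := 1) (D := 16) (M := ((q ^ 2 - 1) * (q ^ 8 + q ^ 4 + 1)) * (q ^ 6 - 1)) (by norm_num) (by norm_num)
    (by simp) (Nat.Coprime.mul_left (Nat.Coprime.mul_left (hc (by norm_num)) hc3) (hc (by norm_num))) ?_ ?_ (by norm_num) (by norm_num)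
  · exact lt_of_lt_of_eq (Nat.mul_lt_mul'' hlt (hs 6)) (by ring)
  · rw [Cfsg.Agent.S1067.result hpq hK]
    ring

theorem concl_sz {m : ℕ} (hm : 1 ≤ m) (hF : Fintype.card F = 2 ^ (2 * m + 1)) :
    Concl 2 (Nat.card (Lie.Sz F (2 ^ (m + 1)))) (2 * (2 * m + 1)) := by
  have hp : Nat.Prime 2 := Nat.prime_two
  have hc := (Cfsg.Agent.S1163.result hm hF).1
  generalize hqq : 2 ^ (2 * m + 1) = q at hc
  have hq' : q = 2 ^ (2 * m + 1) := hqq.symm
  have hf : 1 ≤ 2 * m + 1 := by omega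
  have hq2 := q_ge hp hq' hf
  have h1 := cop_sub hp hq' hf (i := 1) (by omega)
  have h2 := cop_add hp hq' hf (i := 2) (by omega)
  refine concl_of hp hq' hf (d := 1) (D := 3) (M := (q ^ 1 - 1) * (q ^ 2 + 1)) (by norm_num) (by norm_num) (by simp)
    (Nat.Coprime.mul_left h1 h2) (pair_lt hq2 (a := 1) (b := 2) (by norm_num)) ?_ (by norm_num) (by norm_num)
  rw [hc, pow_one]
  ring

theorem concl_2f4 {m : ℕ} (hF : Fintype.card F = 2 ^ (2 * m + 1)) :
    Concl 2 (Nat.card (Lie.twistedF4 F (2 ^ m))) (12 * (2 * m + 1)) := by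
  have hp : Nat.Prime 2 := Nat.prime_two
  have hc := Cfsg.Agent.S1068.result hF
  generalize hqq : 2 ^ (2 * m + 1) = q at hc
  have hq' : q = 2 ^ (2 * m + 1) := hqq.symm
  have hf : 1 ≤ 2 * m + 1 := by omega
  have hq2 := q_ge hp hq' hf
  have h1 := cop_sub hp hq' hf (i := 1) (by omega)
  have h2 := cop_add hp hq' hf (i := 3) (by omega)
  have h3 := cop_sub hp hq' hf (i := 4) (by omega)
  have h4 := cop_add hp hq' hf (i := 6) (by omega)
  refine concl_of hp hq' hf (d := 1) (D := 14) (M := ((q ^ 1 - 1) * (q ^ 3 + 1)) * ((q ^ 4 - 1) * (q ^ 6 + 1))) (by norm_num) (by norm_num) (by simp)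
    (Nat.Coprime.mul_left (Nat.Coprime.mul_left h1 h2) (Nat.Coprime.mul_left h3 h4)) ?_ ?_ (by norm_num) (by norm_num)
  · exact lt_of_lt_of_eq (Nat.mul_lt_mul'' (pair_lt hq2 (a := 1) (b := 3) (by norm_num)) (pair_lt hq2 (a := 4) (b := 6) (by norm_num))) (by ring)
  · rw [hc, pow_one]
    ring

theorem concl_2g2 {m : ℕ} (hF : Fintype.card F = 3 ^ (2 * m + 1)) :
    Concl 3 (Nat.card (Lie.twistedG2 F (3 ^ m))) (3 * (2 * m + 1)) := by
  have hp : Nat.Prime 3 := Nat.prime_three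
  have hc := Cfsg.Agent.S1069.result hF
  generalize hqq : 3 ^ (2 * m + 1) = q at hc
  have hq' : q = 3 ^ (2 * m + 1) := hqq.symm
  have hf : 1 ≤ 2 * m + 1 := by omega
  have hq2 := q_ge hp hq' hf
  have h1 := cop_sub hp hq' hf (i := 1) (by omega)
  have h2 := cop_add hp hq' hf (i := 3) (by omega)
  refine concl_of hp hq' hf (d := 1) (D := 4) (M := (q ^ 1 - 1) * (q ^ 3 + 1)) (by norm_num) (by norm_num) (by simp)
    (Nat.Coprime.mul_left h1 h2) (pair_lt hq2 (a := 1) (b := 3) (by norm_num)) ?_ (by norm_num) (by norm_num)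
  rw [hc, pow_one]
  ring

end Field

end Cfsg.Agent.Lib.LieOrdFam
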