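import Mathlib
import Cfsg.Agent.Lib.McLFus
import Cfsg.Agent.Lib.CoSimpleM22

/-!
# The concrete McLaughlin group of degree 275: generation and simplicity
-/

set_option autoImplicit false
set_option maxRecDepth 100000
set_option linter.all false

namespace Cfsg.Agent.Lib.McLGenFacts

open Cfsg.Agent.Lib.PermChain12 Cfsg.Agent.Lib.McLFusData Cfsg.Agent.Lib.McLBridge Cfsg.Agent.Lib.McLFus
  Cfsg.Agent.Lib.CoConf

variable {R : Subgroup Pm}

theorem word_spec' (h0 : ∀ l, l < 3 → ∃ g ∈ R, ∀ x : Fin 275, (g x).val = S l x.val) {w : List ℕ}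
    (h : ∀ a ∈ w, ∃ g ∈ R, ∀ x : Fin 275, (g x).val = S a x.val) :
    ∃ g ∈ R, ∀ x : Fin 275, (g x).val = walkF S w x.val := by
  induction w with
  | nil => exact ⟨1, R.one_mem, fun x => rfl⟩
  | cons a w ih =>
    obtain ⟨g, hg, hv⟩ := h a List.mem_cons_self
    obtain ⟨k, hk, hv'⟩ := ih (fun b hb => h b (List.mem_cons_of_mem _ hb))
    refine ⟨k * g, R.mul_mem hk hg, fun x => ?_⟩
    rw [Equiv.Perm.mul_apply, hv', hv]
    show _ = force (S a x.val) (walkF S w)
    rw [force_eq]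

theorem letter_spec' (h0 : ∀ l, l < 3 → ∃ g ∈ R, ∀ x : Fin 275, (g x).val = S l x.val) :
    ∀ l, l < 35 → ∃ g ∈ R, ∀ x : Fin 275, (g x).val = S l x.val := by
  intro l
  induction l using Nat.strong_induction_on with
  | _ l ih =>
    intro hl
    by_cases h3 : l < 3
    · exact h0 l h3
    · have h1 := allB_spec _ _ _ (by norm_num) def_chk (l - 3) (by omega)
      rw [show 3 + (l - 3) = l by omega] at h1
      simp only [Pdef, Bool.and_eq_true] at h1
      obtain ⟨h2, h4⟩ := h1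
      have hletters : ∀ a ∈ dW l, a < l := fun a ha =>
        Nat.le_of_ble_eq_true (List.all_eq_true.mp h2 a ha)
      obtain ⟨g, hg, hv⟩ := word_spec' h0 (w := dW l)
        (fun a ha => ih a (hletters a ha) (by have := hletters a ha; omega))
      refine ⟨g, hg, fun x => ?_⟩
      rw [hv]
      exact Nat.eq_of_beq_eq_true (allB_spec _ _ _ (by norm_num) h4 x.val x.2)

theorem Lt_mem' (h0 : ∀ l, l < 3 → ∃ g ∈ R, ∀ x : Fin 275, (g x).val = S l x.val) (l : ℕ) : Lt l ∈ R := by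
  by_cases hl : l < 35
  · obtain ⟨g, hg, hv⟩ := letter_spec' h0 l hl
    have : Lt l = g := by
      ext x
      rw [Lt_val hl, hv]
    rw [this]
    exact hg
  · rw [Lt, dif_neg hl]
    exact R.one_mem

theorem tr_mem' (h0 : ∀ l, l < 3 → ∃ g ∈ R, ∀ x : Fin 275, (g x).val = S l x.val) (par gen : ℕ → ℕ) (y : ℕ) :
    tr Lt par gen y ∈ R := by
  induction y using Nat.strong_induction_on with
  | _ y ih =>
    rw [tr]
    split_ifs with h
    · exact R.mul_mem (Lt_mem' h0 _) (ih _ h.2)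
    · exact R.one_mem

/-- A subgroup containing the three generators contains the concrete group. -/
theorem Pg_le (h0 : ∀ l, l < 3 → ∃ g ∈ R, ∀ x : Fin 275, (g x).val = S l x.val) : Pg ≤ R := by
  intro g hg
  obtain ⟨x, rfl⟩ := exists_tuple hg
  unfold fT
  exact R.mul_mem (tr_mem' h0 _ _ _) (R.mul_mem (tr_mem' h0 _ _ _) (R.mul_mem (tr_mem' h0 _ _ _)
    (R.mul_mem (tr_mem' h0 _ _ _) (tr_mem' h0 _ _ _))))

theorem simple_Pg : IsSimpleGroup Pg := by
  obtain ⟨e⟩ := equiv_of_card card_lb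
  have hH : IsSimpleGroup Cfsg.Agent.Lib.CoVec.McLG.H := by
    rw [H_eq]
    exact Cfsg.Agent.Lib.CoConf.mcl_simple _ _ CoConf.norm_v0 norm_lw0 dot_v0w0
  haveI := hH
  haveI h2 : IsSimpleGroup Spor.McL := mclEquiv.isSimpleGroup
  exact e.symm.isSimpleGroup

end Cfsg.Agent.Lib.McLGenFacts
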