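import Mathlib
import Cfsg.Agent.Lib.SchurStem
import Cfsg.Agent.Lib.AltSchurMain
import Cfsg.Agent.Lib.Pres.Carmichael

/-!
# Stem extensions: reduction to a kernel of prime order, and perfect subgroups containing a Sylow subgroup
-/

set_option autoImplicit false
set_option linter.unusedSectionVars false
set_option linter.unusedVariables false
set_option linter.style.haveILetI false

namespace Cfsg.Agent.Lib.LyMultA

open Subgroup Cfsg Cfsg.Agent.Lib.SchurStem
open scoped commutatorElement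

/-- A kernel can be reduced to a kernel of prime order. -/
theorem exists_prime_stem {Γ : Type} {G : Type} [Group Γ] [Group G] [Finite Γ] {σ : Γ →* G} (hσ : IsStemExtension σ)
    (hne : σ.ker ≠ ⊥) : ∃ (p : ℕ) (_ : p.Prime) (Γ₁ : Type) (_ : Group Γ₁) (_ : Finite Γ₁) (σ₁ : Γ₁ →* G),
      IsStemExtension σ₁ ∧ Nat.card σ₁.ker = p := by
  classical
  set K := σ.ker with hK
  -- a coatom of `K`
  have hnt : Nontrivial ↥K := by
    rw [Subgroup.nontrivial_iff_ne_bot]
    exact hne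
  haveI : Finite ↥K := inferInstance
  obtain ⟨L, hL, -⟩ : ∃ L : Subgroup ↥K, IsCoatom L ∧ ⊥ ≤ L := by
    obtain h | h := eq_top_or_exists_le_coatom (⊥ : Subgroup ↥K)
    · exact absurd h bot_ne_top
    · obtain ⟨L, hL, h2⟩ := h
      exact ⟨L, hL, h2⟩
  have hcomm : ∀ a b : ↥K, a * b = b * a := fun a b =>
    Subtype.ext (Subgroup.mem_center_iff.mp (hσ.2.1 b.2) a.1)
  -- the subgroup of `Γ`
  let K₀ : Subgroup Γ := L.map K.subtype
  have hK₀c : K₀ ≤ center Γ := by
    rintro _ ⟨x, -, rfl⟩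
    exact hσ.2.1 x.2
  haveI hK₀n : K₀.Normal := by
    constructor
    intro n hn g
    have h1 := Subgroup.mem_center_iff.mp (hK₀c hn) g
    rw [h1]
    simpa using hn
  have hK₀K : K₀ ≤ K := by
    rintro _ ⟨x, -, rfl⟩
    exact x.2
  let σ₁ : (Γ ⧸ K₀) →* G := QuotientGroup.lift K₀ σ (fun x hx => hK₀K hx)
  have hσ₁ : ∀ x, σ₁ (QuotientGroup.mk x) = σ x := fun x => rfl
  have hker : ∀ x : Γ, (QuotientGroup.mk x : Γ ⧸ K₀) ∈ σ₁.ker ↔ x ∈ K := by
    intro x
    rw [MonoidHom.mem_ker, hσ₁, hK, MonoidHom.mem_ker]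
  have hst : IsStemExtension σ₁ := by
    refine ⟨fun g => ?_, ?_, ?_⟩
    · obtain ⟨x, rfl⟩ := hσ.1 g
      exact ⟨QuotientGroup.mk x, rfl⟩
    · intro y hy
      obtain ⟨x, rfl⟩ := QuotientGroup.mk_surjective y
      rw [hker] at hy
      rw [Subgroup.mem_center_iff]
      intro g
      obtain ⟨z, rfl⟩ := QuotientGroup.mk_surjective g
      have h1 := Subgroup.mem_center_iff.mp (hσ.2.1 hy) z
      show ((z * x : Γ) : Γ ⧸ K₀) = ((x * z : Γ) : Γ ⧸ K₀)
      rw [h1]
    · intro y hy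
      obtain ⟨x, rfl⟩ := QuotientGroup.mk_surjective y
      rw [hker] at hy
      have h1 := hσ.2.2 hy
      have h2 : (QuotientGroup.mk' K₀) x ∈ (commutator Γ).map (QuotientGroup.mk' K₀) := ⟨x, h1, rfl⟩
      rw [commutator_def, Subgroup.map_commutator, Subgroup.map_top_of_surjective _ (QuotientGroup.mk'_surjective K₀)] at h2
      exact h2
  -- the kernel
  let ψ : ↥K →* ↥σ₁.ker :=
    { toFun := fun x => ⟨QuotientGroup.mk x.1, (hker _).2 x.2⟩
      map_one' := rfl
      map_mul' := fun _ _ => rfl }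
  have hψs : Function.Surjective ψ := by
    rintro ⟨y, hy⟩
    obtain ⟨x, rfl⟩ := QuotientGroup.mk_surjective y
    exact ⟨⟨x, (hker x).1 hy⟩, rfl⟩
  have hψk : ψ.ker = L := by
    ext x
    rw [MonoidHom.mem_ker]
    constructor
    · intro h
      have h1 : (QuotientGroup.mk x.1 : Γ ⧸ K₀) = 1 := congrArg Subtype.val h
      rw [QuotientGroup.eq_one_iff] at h1
      obtain ⟨w, hw, hw2⟩ := h1
      have : w = x := Subtype.ext hw2
      rwa [← this]
    · intro h
      apply Subtype.ext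
      show (QuotientGroup.mk x.1 : Γ ⧸ K₀) = 1
      rw [QuotientGroup.eq_one_iff]
      exact ⟨x, h, rfl⟩
  haveI hLn : L.Normal := ⟨fun n hn g => by
    have e : g * n * g⁻¹ = n := by rw [hcomm g n, mul_inv_cancel_right]
    rwa [e]⟩
  have hnt2 : Nontrivial (↥K ⧸ L) := by
    have hne' : ∃ x : ↥K, x ∉ L := by
      by_contra hall
      push Not at hall
      exact hL.1 (eq_top_iff.mpr fun x _ => hall x)
    obtain ⟨x, hx⟩ := hne'
    exact ⟨⟨(x : ↥K ⧸ L), 1, fun h => hx ((QuotientGroup.eq_one_iff x).1 h)⟩⟩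
  haveI hsimple : IsSimpleGroup (↥K ⧸ L) := by
    refine { eq_bot_or_eq_top_of_normal := ?_ }
    intro M hM
    let C := M.comap (QuotientGroup.mk' L)
    have hLC : L ≤ C := fun x hx => by
      show (QuotientGroup.mk' L) x ∈ M
      have : (QuotientGroup.mk' L) x = 1 := (QuotientGroup.eq_one_iff x).2 hx
      rw [this]
      exact M.one_mem
    rcases eq_or_lt_of_le hLC with h | h
    · left
      rw [eq_bot_iff]
      intro y hy
      obtain ⟨x, rfl⟩ := QuotientGroup.mk_surjective y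
      have hx : x ∈ C := hy
      rw [← h] at hx
      exact Subgroup.mem_bot.2 ((QuotientGroup.eq_one_iff x).2 hx)
    · right
      have h2 := hL.2 C h
      rw [eq_top_iff]
      intro y _
      obtain ⟨x, rfl⟩ := QuotientGroup.mk_surjective y
      have hx : x ∈ C := by rw [h2]; trivial
      exact hx
  haveI : IsMulCommutative (↥K ⧸ L) := ⟨⟨fun a b => by
    obtain ⟨x, rfl⟩ := QuotientGroup.mk_surjective a
    obtain ⟨y, rfl⟩ := QuotientGroup.mk_surjective b
    show ((x * y : ↥K) : ↥K ⧸ L) = ((y * x : ↥K) : ↥K ⧸ L)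
    rw [hcomm x y]⟩⟩
  have hprime : (Nat.card (↥K ⧸ L)).Prime := Group.is_simple_iff_prime_card.1 hsimple
  have heq : Nat.card ↥σ₁.ker = Nat.card (↥K ⧸ L) := by
    have e1 : (↥K ⧸ ψ.ker) ≃* ↥σ₁.ker := QuotientGroup.quotientKerEquivOfSurjective ψ hψs
    rw [← Nat.card_congr e1.toEquiv, hψk]
  exact ⟨Nat.card (↥K ⧸ L), hprime, Γ ⧸ K₀, inferInstance, inferInstance, σ₁, hst, heq⟩

section perfect

variable {Γ G : Type*} [Group Γ] [Group G] [Finite Γ] {σ : Γ →* G} (hσ : IsStemExtension σ) (H : Subgroup G)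

/-- The derived subgroup of the preimage. -/
def hatE (σ : Γ →* G) (H : Subgroup G) : Subgroup Γ := ⁅H.comap σ, H.comap σ⁆

include hσ in
theorem map_hatE (hH : ⁅H, H⁆ = H) : (hatE σ H).map σ = H := by
  unfold hatE
  rw [Subgroup.map_commutator, Subgroup.map_comap_eq_self_of_surjective hσ.1, hH]

theorem hatE_le : hatE σ H ≤ H.comap σ := by
  unfold hatE
  exact Subgroup.commutator_le_self _

include hσ in
theorem hatE_perfect (hH : ⁅H, H⁆ = H) : ⁅hatE σ H, hatE σ H⁆ = hatE σ H := by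
  apply le_antisymm (Subgroup.commutator_le_self _)
  have hm := map_hatE hσ H hH
  have key : ∀ a ∈ H.comap σ, ∃ a' ∈ hatE σ H, ∃ κ ∈ center Γ, a = a' * κ := by
    intro a ha
    have h1 : σ a ∈ (hatE σ H).map σ := by rw [hm]; exact ha
    obtain ⟨a', ha', e⟩ := h1
    refine ⟨a', ha', a'⁻¹ * a, hσ.2.1 ?_, by group⟩
    rw [MonoidHom.mem_ker, map_mul, map_inv, e, inv_mul_cancel]
  show ⁅H.comap σ, H.comap σ⁆ ≤ _
  rw [Subgroup.commutator_le]
  intro a ha b hb
  obtain ⟨a', ha', κ, hκ, rfl⟩ := key a ha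
  obtain ⟨b', hb', κ', hκ', rfl⟩ := key b hb
  have e : ⁅a' * κ, b' * κ'⁆ = ⁅a', b'⁆ := by
    have h1 := fun x => (Subgroup.mem_center_iff.mp hκ x)
    have h2 := fun x => (Subgroup.mem_center_iff.mp hκ' x)
    simp only [commutatorElement_def, mul_inv_rev]
    calc a' * κ * (b' * κ') * (κ⁻¹ * a'⁻¹) * (κ'⁻¹ * b'⁻¹)
        = a' * (κ * b') * κ' * κ⁻¹ * a'⁻¹ * κ'⁻¹ * b'⁻¹ := by group
      _ = a' * (b' * κ) * κ' * κ⁻¹ * a'⁻¹ * κ'⁻¹ * b'⁻¹ := by rw [← h1 b']
      _ = a' * b' * (κ * κ' * κ⁻¹) * a'⁻¹ * κ'⁻¹ * b'⁻¹ := by group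
      _ = a' * b' * κ' * a'⁻¹ * κ'⁻¹ * b'⁻¹ := by
          have : κ * κ' * κ⁻¹ = κ' := by rw [← h1 κ']; group
          rw [this]
      _ = a' * b' * (κ' * a'⁻¹) * κ'⁻¹ * b'⁻¹ := by group
      _ = a' * b' * (a'⁻¹ * κ') * κ'⁻¹ * b'⁻¹ := by rw [← h2 a'⁻¹]
      _ = a' * b' * a'⁻¹ * b'⁻¹ := by group
  rw [e]
  exact Subgroup.commutator_mem_commutator ha' hb'

include hσ in
/-- The transfer statement. -/
theorem pow_index_mem {k : Γ} (hk : k ∈ σ.ker) : k ^ H.index ∈ hatE σ H := by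
  obtain ⟨h, h2⟩ := pow_index_mem_commutator (H.comap σ) (hσ.2.1 hk) (hσ.2.2 hk)
  have hi := Subgroup.index_comap_of_surjective H hσ.1
  unfold hatE
  rw [← hi, ← Subgroup.map_subtype_commutator]
  exact ⟨_, h2, rfl⟩

/-- The map from the derived subgroup to the subgroup. -/
def toH (σ : Γ →* G) (H : Subgroup G) : ↥(hatE σ H) →* ↥H :=
  (σ.comp (hatE σ H).subtype).codRestrict H (fun x => hatE_le (σ := σ) H x.2)

include hσ in
theorem toH_surj (hH : ⁅H, H⁆ = H) : Function.Surjective (toH σ H) := by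
  rintro ⟨h, hh⟩
  have h1 : h ∈ (hatE σ H).map σ := by rw [map_hatE hσ H hH]; exact hh
  obtain ⟨e, he, e2⟩ := h1
  exact ⟨⟨e, he⟩, Subtype.ext e2⟩

include hσ in
/-- A stem extension of a quotient of a perfect subgroup. -/
theorem stem_of_perfect {L : Type*} [Group L] (hH : ⁅H, H⁆ = H) (π : ↥H →* L) (hπ : Function.Surjective π)
    (hc : ∀ x ∈ π.ker, ∀ y : ↥H, x * y = y * x) : IsStemExtension (π.comp (toH σ H)) := by
  classical
  set E := hatE σ H with hE
  have hP := hatE_perfect hσ H hH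
  refine ⟨hπ.comp (toH_surj hσ H hH), ?_, ?_⟩
  · -- central
    let N : Subgroup Γ := ((π.comp (toH σ H)).ker).map E.subtype
    have hNE : N ≤ E := by
      rintro _ ⟨x, -, rfl⟩
      exact x.2
    have h1 : ⁅E, N⁆ ≤ σ.ker := by
      rw [Subgroup.commutator_le]
      rintro a ha _ ⟨x, hx, rfl⟩
      rw [MonoidHom.mem_ker]
      let a' : ↥E := ⟨a, ha⟩
      have hx2 : toH σ H x ∈ π.ker := hx
      have h3 := hc _ hx2 (toH σ H a')
      have h4 : σ a * σ x.1 = σ x.1 * σ a := (congrArg Subtype.val h3).symm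
      rw [map_commutatorElement, commutatorElement_def]
      show σ a * σ x.1 * (σ a)⁻¹ * (σ x.1)⁻¹ = 1
      rw [h4]
      group
    have hb1 : ⁅⁅E, N⁆, E⁆ = ⊥ := by
      rw [eq_bot_iff, Subgroup.commutator_le]
      intro a ha b hb
      have h3 := Subgroup.mem_center_iff.mp (hσ.2.1 (h1 ha)) b
      rw [commutatorElement_eq_one_iff_commute.2 h3.symm]
      exact Subgroup.one_mem _
    have hb2 : ⁅⁅N, E⁆, E⁆ = ⊥ := by
      rw [Subgroup.commutator_comm N E]
      exact hb1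
    have hb3 : ⁅⁅E, E⁆, N⁆ = ⊥ := Subgroup.commutator_commutator_eq_bot_of_rotate hb1 hb2
    rw [hP] at hb3
    intro x hx
    rw [Subgroup.mem_center_iff]
    intro g
    apply Subtype.ext
    have h3 : ⁅g.1, x.1⁆ = 1 := by
      have h4 : ⁅g.1, x.1⁆ ∈ ⁅E, N⁆ := Subgroup.commutator_mem_commutator g.2 ⟨x, hx, rfl⟩
      rwa [hb3, Subgroup.mem_bot] at h4
    exact commutatorElement_eq_one_iff_commute.1 h3
  · -- derived
    have htop : commutator ↥E = ⊤ := by
      rw [commutator_def, eq_top_iff]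
      intro x _
      have h1 : x.1 ∈ ⁅E, E⁆ := by rw [hP]; exact x.2
      have h2 : (commutator ↥E).map E.subtype = ⁅E, E⁆ := Subgroup.map_subtype_commutator E
      rw [← h2] at h1
      obtain ⟨y, hy, e⟩ := h1
      have : y = x := Subtype.ext e
      rw [← this]
      exact hy
    rw [htop]
    exact le_top

end perfect

/-- A Sylow subgroup of prime order. -/
theorem false_of_cyclic {Γ G : Type*} [Group Γ] [Group G] [Finite Γ] [Finite G] {σ : Γ →* G} (hσ : IsStemExtension σ) {p : ℕ}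
    (hp : p.Prime) (hK : Nat.card σ.ker = p) (h1 : p ∣ Nat.card G) (h2 : ¬ p ^ 2 ∣ Nat.card G) : False := by
  haveI := Fact.mk hp
  obtain ⟨x, hx⟩ := exists_prime_orderOf_dvd_card' (G := G) p h1
  have hcard : (zpowers x).index * p = Nat.card G := by
    have := (zpowers x).index_mul_card
    rwa [Nat.card_zpowers, hx] at this
  have hcop : Nat.Coprime p (zpowers x).index := by
    rw [Nat.Prime.coprime_iff_not_dvd hp]
    intro hd
    apply h2
    rw [← hcard, pow_two, mul_comm]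
    exact Nat.mul_dvd_mul_right hd p
  -- an element of the kernel
  have hne : Nontrivial ↥σ.ker := by
    apply Finite.one_lt_card_iff_nontrivial.1
    rw [hK]
    exact hp.one_lt
  obtain ⟨k, hk⟩ := exists_ne (1 : ↥σ.ker)
  have h3 := pow_index_eq_one hσ (zpowers x) (comap_comm_of_zpowers σ hσ.1 hσ.2.1 x) k.2
  have h4 : k.1 ^ p = 1 := by
    have h5 : k ^ p = 1 := by
      have := pow_card_eq_one' (x := k)
      rwa [hK] at this
    exact congrArg Subtype.val h5
  have h6 : k.1 = 1 := by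
    have h7 := orderOf_dvd_of_pow_eq_one h3
    have h8 := orderOf_dvd_of_pow_eq_one h4
    have h9 := Nat.dvd_gcd h8 h7
    rw [hcop.gcd_eq_one, Nat.dvd_one, orderOf_eq_one_iff] at h9
    exact h9
  exact hk (Subtype.ext h6)

/-- A perfect subgroup with trivial multiplier, of index prime to the order of the kernel. -/
theorem false_of_perfect {Γ : Type} {G L : Type} [Group Γ] [Group G] [Group L] [Finite Γ] {σ : Γ →* G} (hσ : IsStemExtension σ)
    {p : ℕ} (hK : Nat.card σ.ker = p) (hp : p.Prime) (H : Subgroup G) (hH : ⁅H, H⁆ = H) (e : ↥H ≃* L)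
    (hM : HasCyclicSchurMultiplier L 1) (hidx : Nat.Coprime p H.index) [Finite L] : False := by
  have hst := stem_of_perfect hσ H hH (e.toMonoidHom) e.surjective (by
    intro x hx y
    have : x = 1 := by
      have h1 : e x = 1 := hx
      exact (map_eq_one_iff e e.injective).1 h1
    rw [this, one_mul, mul_one])
  obtain ⟨f, hf⟩ := hM.2 _ _ hst
  have hne : Nontrivial ↥σ.ker := by
    apply Finite.one_lt_card_iff_nontrivial.1
    rw [hK]
    exact hp.one_lt
  obtain ⟨k, hk⟩ := exists_ne (1 : ↥σ.ker)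
  have hmem := pow_index_mem hσ H k.2
  have hk2 : k.1 ^ H.index ≠ 1 := by
    intro h3
    have h4 : k.1 ^ p = 1 := by
      have h5 : k ^ p = 1 := by
        have := pow_card_eq_one' (x := k)
        rwa [hK] at this
      exact congrArg Subtype.val h5
    have h7 := orderOf_dvd_of_pow_eq_one h3
    have h8 := orderOf_dvd_of_pow_eq_one h4
    have h9 := Nat.dvd_gcd h8 h7
    rw [hidx.gcd_eq_one, Nat.dvd_one, orderOf_eq_one_iff] at h9
    exact hk (Subtype.ext h9)
  let w : ↥(hatE σ H) := ⟨k.1 ^ H.index, hmem⟩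
  have hw : w ∈ (e.toMonoidHom.comp (toH σ H)).ker := by
    rw [MonoidHom.mem_ker]
    have h3 : toH σ H w = 1 := by
      apply Subtype.ext
      show σ (k.1 ^ H.index) = 1
      rw [map_pow, k.2, one_pow]
    show e (toH σ H w) = 1
    rw [h3, map_one]
  obtain ⟨a, ha⟩ := hf ⟨w, hw⟩
  have : a = 1 := Subsingleton.elim _ _
  rw [this, map_one] at ha
  have h5 : w = 1 := (congrArg Subtype.val ha).symm
  exact hk2 (congrArg Subtype.val h5)

end Cfsg.Agent.Lib.LyMultA
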