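import Mathlib
import Cfsg.Agent.Lib.LyDce.VImg

/-!
# The presented Lyons group: relations among elements from their matrices
-/

set_option autoImplicit false
set_option maxRecDepth 100000
set_option linter.all false
set_option Elab.async false
set_option maxHeartbeats 0

namespace Cfsg.Agent.Lib.LyMultB

open Cfsg.Spor.Ly Cfsg.Agent.Lib.FpVec Cfsg.Agent.Lib.LyV111 Cfsg.Agent.Lib.LyDce Matrix

/-- The element `g` has the columns `c`. -/
def Is (g : RG) (c : List ℕ) : Prop :=
  Good 2048 5 111 c ∧ ((rho g : Matrix.GeneralLinearGroup (Fin 111) (ZMod 5)) : Matrix (Fin 111) (Fin 111) (ZMod 5)) =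
    mat 2048 5 111 c

/-- The element given by a list of columns of the image. -/
noncomputable def elOf {c : List ℕ} (h : Img c) : RG := Classical.choose h.2

theorem is_elOf {c : List ℕ} (h : Img c) : Is (elOf h) c := ⟨h.1, Classical.choose_spec h.2⟩

theorem Is.letter (x : Gen) (h : ex x = [(x, true)]) : Is (PresentedGroup.of x) (M x) := by
  refine ⟨good_of_valid par (valid_M x), ?_⟩
  rw [rho_of x h]
  rfl

theorem Is.letterI (x : Gen) (h : ex x = [(x, true)]) : Is (PresentedGroup.of x)⁻¹ (I x) := by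
  refine ⟨good_of_valid par (valid_I x), ?_⟩
  rw [map_inv, rho_of x h]
  rfl

theorem Is.mul7 {a c : RG} {A C D : List ℕ} (hA : Is a A) (hC : Is c C) (hl : D.length = 111)
    (h0 : ∀ i, i < 16 → Px A C D (i + 0)) (h16 : ∀ i, i < 16 → Px A C D (i + 16))
    (h32 : ∀ i, i < 16 → Px A C D (i + 32)) (h48 : ∀ i, i < 16 → Px A C D (i + 48))
    (h64 : ∀ i, i < 16 → Px A C D (i + 64)) (h80 : ∀ i, i < 16 → Px A C D (i + 80))
    (h96 : ∀ i, i < 15 → Px A C D (i + 96)) : Is (a * c) D := by
  have h := chunks h0 h16 h32 h48 h64 h80 h96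
  have e : mulL 2048 5 111 A C = D := by
    refine eq_of_getD (by rw [hl]; simpa [mulL] using hC.1.1) ?_
    intro k hk
    have hc2 : k < C.length := by simpa [mulL] using hk
    have hc3 : k < 111 := by rwa [hC.1.1] at hc2
    rw [← h k hc3]
    simp [mulL, List.getD_eq_getElem?_getD, List.getElem?_map, List.getElem?_eq_getElem hc2]
  rw [← e]
  refine ⟨good_mulL par hC.1, ?_⟩
  rw [mat_mulL par hA.1 hC.1, map_mul, Units.val_mul, hA.2, hC.2]

theorem Is.inv7 {a : RG} {A D : List ℕ} (hA : Is a A) (hl : D.length = 111)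
    (h0 : ∀ i, i < 16 → Qx A D (i + 0)) (h16 : ∀ i, i < 16 → Qx A D (i + 16))
    (h32 : ∀ i, i < 16 → Qx A D (i + 32)) (h48 : ∀ i, i < 16 → Qx A D (i + 48))
    (h64 : ∀ i, i < 16 → Qx A D (i + 64)) (h80 : ∀ i, i < 16 → Qx A D (i + 80))
    (h96 : ∀ i, i < 15 → Qx A D (i + 96)) : Is a⁻¹ D := by
  have h := chunks h0 h16 h32 h48 h64 h80 h96
  have hD' : Good 2048 5 111 D := by
    refine ⟨hl, fun c hc => ?_⟩
    obtain ⟨k, hk, rfl⟩ := List.getElem_of_mem hc
    have h1 := (h k (by omega)).1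
    rw [List.getD_eq_getElem _ _ hk] at h1
    rw [← h1]
    exact ⟨redu_lt (B := 2048) (p := 5) (by norm_num) (by norm_num) (by norm_num) 111 _,
      rd_redu (B := 2048) (p := 5) (by norm_num) (by norm_num) (by norm_num) 111 _⟩
  refine ⟨hD', ?_⟩
  have e : mulL 2048 5 111 A D = idL 2048 111 := by
    refine eq_of_getD (by simpa [mulL, idL] using hl) ?_
    intro c hc
    have hc2 : c < D.length := by simpa [mulL] using hc
    have hc3 : c < 111 := by rwa [hl] at hc2
    have h3 := (h c hc3).2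
    have h4 : (idL 2048 111).getD c 0 = 2048 ^ c := by
      simp [idL, List.getD_eq_getElem?_getD, List.getElem?_map, hc3]
    rw [h4, ← h3]
    simp [mulL, List.getD_eq_getElem?_getD, List.getElem?_map, List.getElem?_eq_getElem hc2]
  have h2 : mat 2048 5 111 A * mat 2048 5 111 D = 1 := by
    rw [← mat_mulL par hA.1 hD', e, mat_idL par]
  rw [← hA.2] at h2
  have h3 : ((rho a)⁻¹ : Matrix.GeneralLinearGroup (Fin 111) (ZMod 5)).val * ((rho a).val * mat 2048 5 111 D) =
      ((rho a)⁻¹ : Matrix.GeneralLinearGroup (Fin 111) (ZMod 5)).val := by rw [h2, mul_one]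
  rw [← mul_assoc, ← Units.val_mul, inv_mul_cancel, Units.val_one, one_mul] at h3
  rw [map_inv]
  exact h3.symm

/-- The image of a vector under a list of matrices. -/
def evalW (Ls : List (List ℕ)) (u : ℕ) : ℕ := Ls.foldr (fun A v => mv 2048 5 111 A v) u

/-- The check of a column of a relation. -/
abbrev WP (Ls Ms : List (List ℕ)) (c : ℕ) : Prop := evalW Ls (2048 ^ c) = evalW Ms (2048 ^ c)

theorem evalW_spec {gs : List RG} {Ls : List (List ℕ)} (h : List.Forall₂ Is gs Ls) {u : ℕ} (hu : Rd 2048 5 u) :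
    Rd 2048 5 (evalW Ls u) ∧ decV 2048 5 111 (evalW Ls u) = (rho gs.prod).val *ᵥ decV 2048 5 111 u := by
  induction h with
  | nil =>
    refine ⟨hu, ?_⟩
    simp [evalW]
  | @cons g L gs Ls hg hgs ih =>
    obtain ⟨h1, h2⟩ := ih
    have e : evalW (L :: Ls) u = mv 2048 5 111 L (evalW Ls u) := rfl
    rw [e]
    refine ⟨rd_mv par _ _, ?_⟩
    rw [decV_mv_good par hg.1 h1, h2, List.prod_cons, map_mul, Units.val_mul, hg.2, Matrix.mulVec_mulVec]

/-- A relation, from the columns. -/
theorem word_eq {gs hs : List RG} {Ls Ms : List (List ℕ)} (h1 : List.Forall₂ Is gs Ls) (h2 : List.Forall₂ Is hs Ms)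
    (h0 : ∀ i, i < 16 → WP Ls Ms (i + 0)) (h16 : ∀ i, i < 16 → WP Ls Ms (i + 16))
    (h32 : ∀ i, i < 16 → WP Ls Ms (i + 32)) (h48 : ∀ i, i < 16 → WP Ls Ms (i + 48))
    (h64 : ∀ i, i < 16 → WP Ls Ms (i + 64)) (h80 : ∀ i, i < 16 → WP Ls Ms (i + 80))
    (h96 : ∀ i, i < 15 → WP Ls Ms (i + 96)) : rho gs.prod = rho hs.prod := by
  have h := chunks h0 h16 h32 h48 h64 h80 h96
  apply Units.ext
  ext i j
  have hp : Rd 2048 5 (2048 ^ (j : ℕ)) := rd_pow par (by norm_num) (j : ℕ)
  have h3 := (evalW_spec h1 hp).2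
  have h4 := (evalW_spec h2 hp).2
  rw [h j j.2, h4, decV_pow par, Matrix.mulVec_single_one, Matrix.mulVec_single_one] at h3
  have h5 := congrFun h3 i
  simpa [Matrix.col_apply] using h5.symm

section table

open Cfsg.Agent.Lib.VecOrb

variable {S : List (List ℕ)} {key par' gen dep imgs : ℕ → ℕ} {n m v0 i0 : ℕ}

/-- The main theorem on tables: the order of the group is divisible by the number of rows. -/
theorem table_dvd_closure [Finite RG] (hS : ∀ c ∈ S, Img c) (hm : S.length = m)
    (hv : redu 2048 5 111 v0 = v0) (hi0 : i0 < n) (hk0 : key i0 = v0)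
    (h : ∀ i, i < n → rowOK key par' gen dep (actS S) v0 n i = true)
    (h2 : ∀ i, i < n → imgOK key (actS S) n m imgs i = true) :
    n ∣ Nat.card (Subgroup.closure {g : RG | ∃ s, (rho g).val = mat 2048 5 111 (S.getD s (idL 2048 111))}) := by
  classical
  letI := vAct
  have hP : Cfsg.Agent.Lib.FpVec.Par 2048 5 111 := Cfsg.Agent.Lib.LyV111.par
  have hdec : ∀ (s x : ℕ), Rd 2048 5 x → ∀ g : RG, (rho g).val = mat 2048 5 111 (S.getD s (idL 2048 111)) →
      decV 2048 5 111 (actS S s x) = g • decV 2048 5 111 x := by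
    intro s x hx g hg
    have h1 := decV_mv_good hP (img_getD hS s).1 hx
    show decV 2048 5 111 (mv 2048 5 111 _ x) = (rho g).val *ᵥ _
    rw [h1, hg]
  -- the generators
  let X : Set RG := {g | ∃ s, (rho g).val = mat 2048 5 111 (S.getD s (idL 2048 111))}
  let PP : Subgroup RG := Subgroup.closure X
  have hv1 : Rd 2048 5 v0 := by
    rw [← hv]
    exact rd_redu (B := 2048) (p := 5) (by norm_num) (by norm_num) (by norm_num) 111 v0
  have hv2 : v0 < 2048 ^ 111 := by
    rw [← hv]
    exact redu_lt (B := 2048) (p := 5) (by norm_num) (by norm_num) (by norm_num) 111 v0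
  -- every code is reached
  have hreach := reach_all h (fun x => Rd 2048 5 x ∧ x < 2048 ^ 111 ∧ ∃ g ∈ PP, decV 2048 5 111 x = g • decV 2048 5 111 v0)
    ⟨hv1, hv2, 1, PP.one_mem, (one_smul _ _).symm⟩ (by
    rintro s x ⟨h1, h3, g, hg, e⟩
    obtain ⟨-, t, ht⟩ := img_getD hS s
    refine ⟨rd_mv hP _ _, mv_lt111 _ _, t * g, PP.mul_mem (Subgroup.subset_closure ⟨s, ht⟩) hg, ?_⟩
    rw [hdec s x h1 t ht, e, mul_smul])
  -- the set of codes
  let O : Set VV := (fun i => decV 2048 5 111 (key i)) '' {i | i < n}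
  have hO : ∀ g ∈ PP, ∀ x ∈ O, g • x ∈ O := by
    have hT : ∀ g ∈ X, ∀ x ∈ O, g • x ∈ O := by
      rintro g ⟨s, hs⟩ _ ⟨i, hi, rfl⟩
      have hi' : i < n := hi
      by_cases hsm : s < m
      · obtain ⟨j, hj, e⟩ := imgOK_spec (h2 i hi') hi' s hsm
        refine ⟨j, hj, ?_⟩
        show decV 2048 5 111 (key j) = g • decV 2048 5 111 (key i)
        rw [← e, hdec s _ (hreach i hi').1 g hs]
      · have e : S.getD s (idL 2048 111) = idL 2048 111 := List.getD_eq_default _ _ (by omega)
        rw [e, mat_idL hP] at hs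
        refine ⟨i, hi, ?_⟩
        show decV 2048 5 111 (key i) = (rho g).val *ᵥ _
        rw [hs, Matrix.one_mulVec]
    intro g hg
    induction hg using Subgroup.closure_induction with
    | mem g hg => exact hT g hg
    | one => intro x hx; rwa [one_smul]
    | mul a b _ _ ha hb => intro x hx; rw [mul_smul]; exact ha _ (hb _ hx)
    | inv a _ ha =>
      intro x hx
      have h3 : ∀ k : ℕ, ∀ x ∈ O, a ^ k • x ∈ O := by
        intro k
        induction k with
        | zero => intro x hx; rwa [pow_zero, one_smul]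
        | succ k ih => intro x hx; rw [pow_succ, mul_smul]; exact ih _ (ha _ hx)
      have h4 : a⁻¹ = a ^ (orderOf a - 1) := by
        have h5 := orderOf_pos a
        rw [eq_comm, ← mul_eq_one_iff_eq_inv, ← pow_succ]
        rw [Nat.sub_add_cancel h5, pow_orderOf_eq_one]
      rw [h4]
      exact h3 _ x hx
  -- the orbit
  have hroot : decV 2048 5 111 v0 ∈ O := ⟨i0, hi0, by simp [hk0]⟩
  let y : VV := decV 2048 5 111 v0
  let e1 : Fin n → MulAction.orbit PP y := fun i => ⟨decV 2048 5 111 (key i), by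
    obtain ⟨-, -, g, hg, e⟩ := hreach i i.2
    exact ⟨⟨g, hg⟩, e.symm⟩⟩
  have he1 : Function.Bijective e1 := by
    constructor
    · intro i j e
      have e2 : decV 2048 5 111 (key i) = decV 2048 5 111 (key j) := congrArg Subtype.val e
      have hi := hreach i i.2
      have hj := hreach j j.2
      exact Fin.ext (key_inj h i.2 j.2 (code_inj' hi.1 hj.1 hi.2.1 hj.2.1 e2))
    · rintro ⟨_, ⟨g, rfl⟩⟩
      obtain ⟨i, hi, e⟩ := hO g.1 g.2 _ hroot
      exact ⟨⟨i, hi⟩, Subtype.ext e⟩
  have hcard : Nat.card (MulAction.orbit PP y) = n := by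
    rw [← Nat.card_congr (Equiv.ofBijective e1 he1)]
    simp
  have h3 : Nat.card (MulAction.orbit PP y) = (MulAction.stabilizer PP y).index :=
    Nat.card_congr (MulAction.orbitEquivQuotientStabilizer PP y)
  rw [← hcard, h3]
  exact Subgroup.index_dvd_card _

end table

end Cfsg.Agent.Lib.LyMultB
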