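import Mathlib
import Cfsg.Agent.Lib.LyMultA
import Cfsg.Agent.Lib.DoubleA11

/-!
# Stem extensions: the double cover of the alternating group of degree 11 inside the group
-/

set_option autoImplicit false
set_option linter.unusedSectionVars false
set_option linter.unusedVariables false
set_option linter.style.haveILetI false

namespace Cfsg.Agent.Lib.LyMultC

open Subgroup Cfsg Cfsg.Agent.Lib.SchurStem Cfsg.Agent.Lib.LyMultA Cfsg.Agent.Lib.Pres.Carmichael
open scoped commutatorElement

/-- A subgroup with a central involution and Carmichael's relations in the quotient is a double cover of the alternating group;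
its index is odd when the order of the group has the right power of two, so a stem extension cannot have kernel of order two. -/
theorem false_of_two {Γ G : Type} [Group Γ] [Group G] [Finite Γ] [Finite G] {σ : Γ →* G}
    (hσ : IsStemExtension σ) (hK : Nat.card σ.ker = 2)
    (x : Fin 9 → G) (β : G)
    (hcube : ∀ i, x i ^ 3 = 1)
    (hpair : ∀ i j, i ≠ j → (x i * x j) ^ 2 = β)
    (hβ2 : β ^ 2 = 1) (hβne : β ≠ 1)
    (hcomm : ∀ i, x i * β = β * x i)
    (p q : G) (hp : p ∈ closure (Set.range x)) (hq : q ∈ closure (Set.range x)) (hpq : ⁅p, q⁆ = β)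
    (hcard : ¬ 2 ^ 9 ∣ Nat.card G) : False := by
  classical
  set C₀ : Subgroup G := closure (Set.range x) with hC₀
  have hx0 : ∀ i, x i ∈ C₀ := fun i => subset_closure ⟨i, rfl⟩
  have hβC : β ∈ C₀ := by
    rw [← hpair 0 1 (by decide)]
    exact pow_mem (mul_mem (hx0 0) (hx0 1)) 2
  -- central element of the subgroup
  have hβc : ∀ a ∈ C₀, a * β = β * a := by
    intro a ha
    induction ha using Subgroup.closure_induction with
    | mem a ha =>
      obtain ⟨i, rfl⟩ := ha
      exact hcomm i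
    | one => simp
    | mul a b _ _ ha hb =>
      calc a * b * β = a * (b * β) := mul_assoc _ _ _
        _ = a * (β * b) := by rw [hb]
        _ = (a * β) * b := (mul_assoc _ _ _).symm
        _ = (β * a) * b := by rw [ha]
        _ = β * (a * b) := mul_assoc _ _ _
    | inv a _ ha =>
      have h2 : a⁻¹ * (a * β) * a⁻¹ = a⁻¹ * (β * a) * a⁻¹ := by rw [ha]
      simpa [mul_assoc] using h2.symm
  let b₀ : ↥C₀ := ⟨β, hβC⟩
  let Z : Subgroup ↥C₀ := zpowers b₀
  have hZc : ∀ z ∈ Z, ∀ a : ↥C₀, z * a = a * z := by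
    intro z hz a
    obtain ⟨n, rfl⟩ := Subgroup.mem_zpowers_iff.1 hz
    have h1 : a * b₀ = b₀ * a := Subtype.ext (hβc a.1 a.2)
    exact ((Commute.zpow_right (show Commute a b₀ from h1) n)).symm.eq
  haveI hZn : Z.Normal := ⟨fun n hn g => by
    have e : g * n * g⁻¹ = n := by rw [← hZc n hn g, mul_inv_cancel_right]
    rwa [e]⟩
  let Q := ↥C₀ ⧸ Z
  let mk : ↥C₀ →* Q := QuotientGroup.mk' Z
  have hmk_one : ∀ a : ↥C₀, mk a = 1 ↔ a ∈ Z := fun a => QuotientGroup.eq_one_iff a
  have hb₀ : b₀ ∈ Z := Subgroup.mem_zpowers b₀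
  let xQ : Fin 9 → Q := fun i => mk ⟨x i, hx0 i⟩
  have hCar : IsCar xQ := by
    constructor
    · intro i
      show mk _ ^ 3 = 1
      rw [← map_pow]
      have : (⟨x i, hx0 i⟩ : ↥C₀) ^ 3 = 1 := Subtype.ext (hcube i)
      rw [this, map_one]
    · intro i j hij
      show (mk _ * mk _) ^ 2 = 1
      rw [← map_mul, ← map_pow, hmk_one]
      have : ((⟨x i, hx0 i⟩ : ↥C₀) * ⟨x j, hx0 j⟩) ^ 2 = b₀ := Subtype.ext (hpair i j hij)
      rw [this]
      exact hb₀
  obtain ⟨θ, hθ⟩ := exists_theta xQ hCar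
  -- surjectivity
  have hgen : (⊤ : Subgroup ↥C₀) = closure (Set.range fun i => (⟨x i, hx0 i⟩ : ↥C₀)) := by
    symm
    rw [eq_top_iff]
    rintro ⟨a, ha⟩ -
    induction ha using Subgroup.closure_induction with
    | mem a ha =>
      obtain ⟨i, rfl⟩ := ha
      exact subset_closure ⟨i, rfl⟩
    | one => exact Subgroup.one_mem _
    | mul a b h1 h2 ha hb => exact Subgroup.mul_mem _ ha hb
    | inv a h1 ha => exact Subgroup.inv_mem _ ha
  have hθs : Function.Surjective θ := by
    intro y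
    obtain ⟨a, rfl⟩ := QuotientGroup.mk'_surjective Z y
    have ha : a ∈ closure (Set.range fun i => (⟨x i, hx0 i⟩ : ↥C₀)) := by
      rw [← hgen]; trivial
    induction ha using Subgroup.closure_induction with
    | mem a ha =>
      obtain ⟨i, rfl⟩ := ha
      exact ⟨_, hθ i⟩
    | one => exact ⟨1, by simp⟩
    | mul a b h1 h2 ha hb =>
      obtain ⟨u, hu⟩ := ha
      obtain ⟨v, hv⟩ := hb
      exact ⟨u * v, by rw [map_mul, hu, hv, map_mul]⟩
    | inv a h1 ha =>
      obtain ⟨u, hu⟩ := ha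
      exact ⟨u⁻¹, by rw [map_inv, hu, map_inv]⟩
  haveI hsimple : IsSimpleGroup (alternatingGroup (Fin 9 ⊕ Bool)) :=
    alternatingGroup.isSimpleGroup (by simp)
  -- `x 0` is not in `Z`
  have hZmem : ∀ a ∈ Z, a = 1 ∨ a = b₀ := by
    intro a ha
    obtain ⟨n, rfl⟩ := Subgroup.mem_zpowers_iff.1 ha
    have h2 : b₀ ^ 2 = 1 := Subtype.ext hβ2
    rcases Int.even_or_odd' n with ⟨k, rfl | rfl⟩
    · left
      rw [zpow_mul, zpow_ofNat, h2, one_zpow]
    · right
      rw [zpow_add, zpow_mul, zpow_ofNat, h2, one_zpow, one_mul, zpow_one]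
  have hnotZ : xQ 0 ≠ 1 := by
    intro h
    rw [hmk_one] at h
    have hh : x 0 = 1 ∨ x 0 = β := by
      rcases hZmem _ h with h1 | h1
      · left; exact congrArg Subtype.val h1
      · right; exact congrArg Subtype.val h1
    have h0 : x 0 = 1 := by
      rcases hh with h1 | h1
      · exact h1
      · exfalso
        have h3 := hcube 0
        rw [h1, pow_succ, hβ2, one_mul] at h3
        exact hβne h3
    have h1 := hpair 0 1 (by decide)
    rw [h0, one_mul] at h1
    have h3 := hcube 1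
    have h7 : x 1 = β ^ 2 := by
      rw [← h1, ← pow_mul, show 2 * 2 = 3 + 1 by norm_num, pow_add, h3, one_mul, pow_one]
    have h6 : x 1 = 1 := by rw [h7, hβ2]
    apply hβne
    rw [← h1, h6, one_pow]
  have hθinj : Function.Injective θ := by
    rcases hsimple.eq_bot_or_eq_top_of_normal θ.ker (MonoidHom.normal_ker θ) with h | h
    · exact (MonoidHom.ker_eq_bot_iff θ).1 h
    · exfalso
      apply hnotZ
      have : cycA (0 : Fin 9) ∈ θ.ker := by rw [h]; trivial
      rw [← hθ 0]
      exact this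
  let θe : alternatingGroup (Fin 9 ⊕ Bool) ≃* Q := MulEquiv.ofBijective θ ⟨hθinj, hθs⟩
  let eqv : (Fin 9 ⊕ Bool) ≃ Fin (9 + 2) := (Equiv.sumCongr (Equiv.refl _) finTwoEquiv.symm).trans finSumFinEquiv
  let αe : alternatingGroup (Fin 9 ⊕ Bool) ≃* alternatingGroup (Fin (9 + 2)) := Equiv.altCongrHom eqv
  let π : ↥C₀ →* alternatingGroup (Fin (9 + 2)) := (αe.toMonoidHom.comp θe.symm.toMonoidHom).comp mk
  have hπs : Function.Surjective π := by
    refine (αe.surjective.comp θe.symm.surjective).comp (QuotientGroup.mk'_surjective Z)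
  have hπker : ∀ a, π a = 1 ↔ a ∈ Z := by
    intro a
    rw [← hmk_one]
    constructor
    · intro h
      have h1 : αe (θe.symm (mk a)) = 1 := h
      have h2 := (map_eq_one_iff αe αe.injective).1 h1
      exact (map_eq_one_iff θe.symm θe.symm.injective).1 h2
    · intro h
      show αe (θe.symm (mk a)) = 1
      rw [h, map_one, map_one]
  -- perfect
  have hperf : ⁅C₀, C₀⁆ = C₀ := by
    apply le_antisymm (Subgroup.commutator_le_self _)
    have hAlt : commutator (alternatingGroup (Fin (9 + 2))) = ⊤ :=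
      commutator_alternatingGroup_eq_top (by simp)
    -- `C₀` is generated by the derived subgroup and `β`
    have hb : β ∈ ⁅C₀, C₀⁆ := by
      rw [← hpq]
      exact Subgroup.commutator_mem_commutator hp hq
    intro a ha
    let a' : ↥C₀ := ⟨a, ha⟩
    have h1 : π a' ∈ commutator (alternatingGroup (Fin (9 + 2))) := by rw [hAlt]; trivial
    rw [_root_.commutator_def, ← Subgroup.map_top_of_surjective π hπs, ← Subgroup.map_commutator] at h1
    obtain ⟨c, hc, hc2⟩ := h1
    have h2 : c⁻¹ * a' ∈ Z := by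
      rw [← hπker, map_mul, map_inv, hc2, inv_mul_cancel]
    have h3 : (c.1 : G) ∈ ⁅C₀, C₀⁆ := by
      have h4 : commutator ↥C₀ ≤ (⁅C₀, C₀⁆).comap C₀.subtype := by
        rw [← Subgroup.map_le_iff_le_comap, Subgroup.map_subtype_commutator]
      have h5 : c ∈ commutator ↥C₀ := hc
      exact h4 h5
    have h6 : ((c⁻¹ * a' : ↥C₀) : G) ∈ ⁅C₀, C₀⁆ := by
      rcases hZmem _ h2 with h7 | h7
      · rw [h7]; exact Subgroup.one_mem _
      · rw [h7]; exact hb
    have h8 : a = c.1 * ((c⁻¹ * a' : ↥C₀) : G) := by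
      simp [a']
    rw [h8]
    exact mul_mem h3 h6
  -- index
  have hfin : Finite ↥C₀ := inferInstance
  have hcardC : Nat.card ↥C₀ = 39916800 := by
    have h1 : Nat.card ↥C₀ = Nat.card Q * Nat.card Z := (Subgroup.card_eq_card_quotient_mul_card_subgroup Z)
    have h2 : Nat.card Q = Nat.card (alternatingGroup (Fin 9 ⊕ Bool)) := (Nat.card_congr θe.toEquiv).symm
    have h3 : Nat.card (alternatingGroup (Fin 9 ⊕ Bool)) = 19958400 := by
      haveI : Nontrivial (Fin 9 ⊕ Bool) := ⟨⟨Sum.inr true, Sum.inr false, by simp⟩⟩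
      have h5 := two_mul_nat_card_alternatingGroup (α := Fin 9 ⊕ Bool)
      have h6 : Nat.card (Equiv.Perm (Fin 9 ⊕ Bool)) = 39916800 := by
        rw [Nat.card_eq_fintype_card, Fintype.card_perm]
        simp
        decide
      omega
    have h4 : Nat.card Z = 2 := by
      have h5 : orderOf b₀ = 2 := by
        apply orderOf_eq_prime (Subtype.ext hβ2) (fun h => hβne (congrArg Subtype.val h))
      rw [Nat.card_zpowers, h5]
    rw [h1, h2, h3, h4]
  have hodd : ¬ 2 ∣ C₀.index := by
    intro hd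
    apply hcard
    have h1 := Subgroup.card_mul_index C₀
    rw [hcardC] at h1
    rw [← h1, show (2 : ℕ) ^ 9 = 256 * 2 by norm_num, show (39916800 : ℕ) = 256 * 155925 by norm_num, mul_assoc]
    exact Nat.mul_dvd_mul_left 256 (Dvd.dvd.mul_left hd 155925)
  -- the stem extension of the alternating group
  have hst := stem_of_perfect hσ C₀ hperf π hπs (by
    intro u hu y
    exact hZc u ((hπker u).1 hu) y)
  have hle : Nat.card (π.comp (toH σ C₀)).ker ≤ 2 :=
    Cfsg.Agent.Lib.AltSchurMain.stem_le_two (m := 9) (by norm_num) (by norm_num) (by norm_num) _ hst.1 hst.2.1 hst.2.2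
  -- three distinct elements in the kernel
  have hne : Nontrivial ↥σ.ker := by
    apply Finite.one_lt_card_iff_nontrivial.1
    rw [hK]
    norm_num
  obtain ⟨k, hk⟩ := exists_ne (1 : ↥σ.ker)
  have hk2 : k.1 ^ 2 = 1 := by
    have h5 : k ^ 2 = 1 := by
      have := pow_card_eq_one' (x := k)
      rwa [hK] at this
    exact congrArg Subtype.val h5
  have hmem := pow_index_mem hσ C₀ k.2
  have hkk : k.1 ^ C₀.index = k.1 := by
    obtain ⟨n, hn⟩ := Nat.odd_iff.2 (Nat.mod_two_ne_zero.1 (fun h => hodd (Nat.dvd_of_mod_eq_zero h)))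
    rw [hn, pow_succ, pow_mul, hk2, one_pow, one_mul]
  rw [hkk] at hmem
  have hβhat : β ∈ (hatE σ C₀).map σ := by
    rw [map_hatE hσ C₀ hperf]
    exact hβC
  obtain ⟨bh, hbh, hbh2⟩ := hβhat
  let e₁ : ↥(π.comp (toH σ C₀)).ker := 1
  let e₂ : ↥(π.comp (toH σ C₀)).ker := ⟨⟨k.1, hmem⟩, by
    rw [MonoidHom.mem_ker]
    have h1 : toH σ C₀ ⟨k.1, hmem⟩ = 1 := Subtype.ext k.2
    show π (toH σ C₀ ⟨k.1, hmem⟩) = 1
    rw [h1, map_one]⟩
  let e₃ : ↥(π.comp (toH σ C₀)).ker := ⟨⟨bh, hbh⟩, by
    rw [MonoidHom.mem_ker]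
    have h1 : toH σ C₀ ⟨bh, hbh⟩ = b₀ := Subtype.ext hbh2
    show π (toH σ C₀ ⟨bh, hbh⟩) = 1
    rw [h1, hπker]
    exact hb₀⟩
  have h12 : e₁ ≠ e₂ := by
    intro h
    have h1 : (1 : Γ) = k.1 := congrArg (fun w => w.1.1) h
    exact hk (Subtype.ext h1.symm)
  have h13 : e₁ ≠ e₃ := by
    intro h
    have h1 : (1 : Γ) = bh := congrArg (fun w => w.1.1) h
    apply hβne
    rw [← hbh2, ← h1, map_one]
  have h23 : e₂ ≠ e₃ := by
    intro h
    have h1 : k.1 = bh := congrArg (fun w => w.1.1) h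
    apply hβne
    rw [← hbh2, ← h1]
    exact k.2
  have hfinK : Finite ↥(π.comp (toH σ C₀)).ker := inferInstance
  haveI := Fintype.ofFinite ↥(π.comp (toH σ C₀)).ker
  have h3 : ({e₁, e₂, e₃} : Finset _).card = 3 := by
    rw [Finset.card_eq_three]
    exact ⟨e₁, e₂, e₃, h12, h13, h23, rfl⟩
  have h4 := Finset.card_le_univ ({e₁, e₂, e₃} : Finset ↥(π.comp (toH σ C₀)).ker)
  rw [h3, ← Nat.card_eq_fintype_card] at h4
  omega

/-- In the binary tetrahedral group. -/
theorem comm_of_rel {G : Type*} [Group G] {a b t : G} (ha : a * (a * a) = 1) (hb : b * (b * b) = 1)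
    (hab : a * b * (a * b) = t) (hta : a * t = t * a) (htb : b * t = t * b) (ht2 : t * t = 1) :
    a * b * (b * a) = t * (b * a) * (a * b) := by
  have ca : Commute a t := hta
  have cb : Commute b t := htb
  have cu : Commute (a * b) t := ca.mul_left cb
  have cw : Commute (b * a) t := cb.mul_left ca
  have cai : Commute a⁻¹ t := ca.inv_left
  set u := a * b with hu
  set w := b * a with hw
  have hww : w * w = t := by
    have e : w * w = a⁻¹ * (u * u) * a := by
      rw [hw, hu]; group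
    rw [e, hab, cai.eq, mul_assoc, inv_mul_cancel, mul_one]
  let v := a * u * a⁻¹
  have hvv : v * v = t := by
    have e : v * v = a * (u * u) * a⁻¹ := by
      show a * u * a⁻¹ * (a * u * a⁻¹) = _
      group
    rw [e, hab, ca.eq, mul_assoc, mul_inv_cancel, mul_one]
  have hwvu : w * v * u = 1 := by
    show b * a * (a * (a * b) * a⁻¹) * (a * b) = 1
    have e : b * a * (a * (a * b) * a⁻¹) * (a * b) = b * (a * (a * a)) * (b * b) := by group
    rw [e, ha, mul_one, hb]
  have hinvw : w⁻¹ = w * t := by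
    rw [inv_eq_iff_mul_eq_one, ← mul_assoc, hww, ht2]
  have hinvu : u⁻¹ = u * t := by
    rw [inv_eq_iff_mul_eq_one, ← mul_assoc, hab, ht2]
  have hv : v = w * u := by
    have e : v = w⁻¹ * (w * v * u) * u⁻¹ := by group
    rw [e, hwvu, hinvw, hinvu]
    calc w * t * 1 * (u * t) = w * (t * u) * t := by group
      _ = w * (u * t) * t := by rw [cu.eq]
      _ = w * u * (t * t) := by group
      _ = w * u := by rw [ht2, mul_one]
  rw [hv] at hvv
  have h1 : w * u * w = u := by
    have e : w * u * w = (w * u * (w * u)) * u⁻¹ := by group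
    rw [e, hvv, hinvu, ← mul_assoc, ← cu.eq, mul_assoc, ht2, mul_one]
  have h2 : w * u = u * (w * t) := by
    have e : w * u = (w * u * w) * w⁻¹ := by group
    rw [e, h1, hinvw]
  calc u * w = u * w * (t * t) := by rw [ht2, mul_one]
    _ = (u * (w * t)) * t := by group
    _ = (w * u) * t := by rw [← h2]
    _ = w * (u * t) := by group
    _ = w * (t * u) := by rw [cu.eq]
    _ = (w * t) * u := by group
    _ = (t * w) * u := by rw [cw.eq]

open Cfsg.Agent.Lib.DoubleA11 in
/-- The statement with the conjugates under an element of order nine. -/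
theorem false_of_two_car {Γ G : Type} [Group Γ] [Group G] [Finite Γ] [Finite G] {σ : Γ →* G}
    (hσ : IsStemExtension σ) (hK : Nat.card σ.ker = 2) {t h s : G}
    (ht2 : t ^ 2 = 1) (ht1 : t ≠ 1) (hh : h * t = t * h) (hs : s * t = t * s) (h9 : h ^ 9 = 1) (s3 : s ^ 3 = 1)
    (p1 : (s * (h ^ 1 * s * (h ^ 1)⁻¹)) ^ 2 = t) (p2 : (s * (h ^ 2 * s * (h ^ 2)⁻¹)) ^ 2 = t)
    (p3 : (s * (h ^ 3 * s * (h ^ 3)⁻¹)) ^ 2 = t) (p4 : (s * (h ^ 4 * s * (h ^ 4)⁻¹)) ^ 2 = t)
    (hcard : ¬ 2 ^ 9 ∣ Nat.card G) : False := by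
  classical
  have chk : ∀ k : ℕ, Commute (h ^ k) t := fun k => (show Commute h t from hh).pow_left k
  have cs : Commute s t := hs
  have cu : ∀ i, Commute (uu h s i) t := by
    intro i
    unfold uu
    exact ((chk i).mul_left cs).mul_left (chk i).inv_left
  have hconj : ∀ (k : ℕ), h ^ k * t * (h ^ k)⁻¹ = t := by
    intro k
    rw [(chk k).eq, mul_inv_cancel_right]
  have Pshift : ∀ k i j, (uu h s i * uu h s j) ^ 2 = t → (uu h s (i + k) * uu h s (j + k)) ^ 2 = t := by
    intro k i j hp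
    rw [uu_add, uu_add]
    have e : (h ^ k * uu h s i * (h ^ k)⁻¹ * (h ^ k * uu h s j * (h ^ k)⁻¹)) ^ 2
        = h ^ k * ((uu h s i * uu h s j) ^ 2) * (h ^ k)⁻¹ := by
      rw [sq, sq]; group
    rw [e, hp, hconj]
  have Psymm : ∀ i j, (uu h s i * uu h s j) ^ 2 = t → (uu h s j * uu h s i) ^ 2 = t := by
    intro i j hp
    have e : (uu h s j * uu h s i) ^ 2 = uu h s j * ((uu h s i * uu h s j) ^ 2) * (uu h s j)⁻¹ := by
      rw [sq, sq]; group
    rw [e, hp, (cu j).eq, mul_inv_cancel_right]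
  have u0 : uu h s 0 = s := by simp [uu]
  have hbase : ∀ d, 1 ≤ d → d ≤ 4 → (uu h s 0 * uu h s d) ^ 2 = t := by
    intro d h1d h4d
    rw [u0]
    interval_cases d
    · exact p1
    · exact p2
    · exact p3
    · exact p4
  have hlt : ∀ i j : ℕ, i < j → j < i + 9 → (uu h s i * uu h s j) ^ 2 = t := by
    intro i j hij hj
    by_cases hd : j - i ≤ 4
    · have := Pshift i _ _ (hbase (j - i) (by omega) hd)
      rwa [zero_add, Nat.sub_add_cancel hij.le] at this
    · have := Pshift j _ _ (hbase (9 - (j - i)) (by omega) (by omega))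
      rw [zero_add, show 9 - (j - i) + j = i + 9 by omega, uu_nine h s h9] at this
      exact Psymm _ _ this
  let x : Fin 9 → G := fun i => uu h s i
  have hcube : ∀ i, x i ^ 3 = 1 := by
    intro i
    show (h ^ (i : ℕ) * s * (h ^ (i : ℕ))⁻¹) ^ 3 = 1
    rw [conj_pow, s3, mul_one, mul_inv_cancel]
  have hcomm : ∀ i, x i * t = t * x i := fun i => (cu i).eq
  have hpair : ∀ i j, i ≠ j → (x i * x j) ^ 2 = t := by
    intro i j hij
    have hij' : (i : ℕ) ≠ j := fun e => hij (Fin.ext e)
    have hi := i.2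
    have hj := j.2
    rcases lt_or_gt_of_ne hij' with h1 | h1
    · exact hlt i j h1 (by omega)
    · exact Psymm _ _ (hlt j i h1 (by omega))
  have hp : x 0 * x 1 ∈ closure (Set.range x) :=
    mul_mem (subset_closure ⟨0, rfl⟩) (subset_closure ⟨1, rfl⟩)
  have hq : x 1 * x 0 ∈ closure (Set.range x) :=
    mul_mem (subset_closure ⟨1, rfl⟩) (subset_closure ⟨0, rfl⟩)
  have hc : ⁅x 0 * x 1, x 1 * x 0⁆ = t := by
    have e1 := comm_of_rel (a := x 0) (b := x 1) (t := t)
      (by have := hcube 0; rwa [pow_three] at this) (by have := hcube 1; rwa [pow_three] at this)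
      (by have := hpair 0 1 (by decide); rwa [sq] at this) (hcomm 0) (hcomm 1) (by rwa [sq] at ht2)
    rw [commutatorElement_def, e1]
    group
  exact false_of_two hσ hK x t hcube hpair ht2 ht1 hcomm _ _ hp hq hc hcard

end Cfsg.Agent.Lib.LyMultC
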