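import Mathlib
import Cfsg.Agent.Lib.LyMultA

/-!
# Stem extensions with kernel of order three: a normal elementary abelian subgroup inverted by an involution
-/

set_option autoImplicit false
set_option linter.unusedSectionVars false
set_option linter.unusedVariables false
set_option linter.style.haveILetI false

namespace Cfsg.Agent.Lib.LyMultD

open Subgroup Cfsg Cfsg.Agent.Lib.SchurStem Cfsg.Agent.Lib.LyMultA
open scoped commutatorElement

section aux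

variable {Γ : Type*} [Group Γ]

theorem closure_conj_mem [Finite Γ] (S : Set Γ) (M : Subgroup Γ) (h : ∀ a ∈ S, ∀ m ∈ M, a * m * a⁻¹ ∈ M) :
    ∀ a ∈ closure S, ∀ m ∈ M, a * m * a⁻¹ ∈ M := by
  intro a ha
  induction ha using Subgroup.closure_induction with
  | mem a ha => exact h a ha
  | one => intro m hm; simpa using hm
  | mul a b _ _ ha hb =>
    intro m hm
    have h1 := ha _ (hb m hm)
    have e : a * b * m * (a * b)⁻¹ = a * (b * m * b⁻¹) * a⁻¹ := by group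
    rwa [e]
  | inv a _ ha =>
    have hpow : ∀ n : ℕ, ∀ m ∈ M, a ^ n * m * (a ^ n)⁻¹ ∈ M := by
      intro n
      induction n with
      | zero => intro m hm; simpa using hm
      | succ n ih =>
        intro m hm
        have h1 := ih _ (ha m hm)
        have e : a ^ (n + 1) * m * (a ^ (n + 1))⁻¹ = a ^ n * (a * m * a⁻¹) * (a ^ n)⁻¹ := by
          rw [pow_succ]; group
        rwa [e]
    have h4 : a⁻¹ = a ^ (orderOf a - 1) := by
      have h5 := orderOf_pos a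
      rw [eq_comm, ← mul_eq_one_iff_eq_inv, ← pow_succ]
      rw [Nat.sub_add_cancel h5, pow_orderOf_eq_one]
    intro m hm
    rw [h4]
    exact hpow _ m hm

theorem comm_closure_mem [Finite Γ] (S : Set Γ) (M : Subgroup Γ) (hn : ∀ a ∈ S, ∀ m ∈ M, a * m * a⁻¹ ∈ M)
    (hc : ∀ a ∈ S, ∀ b ∈ S, ⁅a, b⁆ ∈ M) : ∀ a ∈ closure S, ∀ b ∈ closure S, ⁅a, b⁆ ∈ M := by
  have Hn := closure_conj_mem S M hn
  have h1 : ∀ a ∈ S, ∀ b ∈ closure S, ⁅a, b⁆ ∈ M := by
    intro a ha b hb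
    induction hb using Subgroup.closure_induction with
    | mem b hb => exact hc a ha b hb
    | one => simp
    | mul b c hb hc ih1 ih2 =>
      have e : ⁅a, b * c⁆ = ⁅a, b⁆ * (b * ⁅a, c⁆ * b⁻¹) := by
        simp only [commutatorElement_def]; group
      rw [e]
      exact M.mul_mem ih1 (Hn b hb _ ih2)
    | inv b hb ih =>
      have e : ⁅a, b⁻¹⁆ = b⁻¹ * ⁅a, b⁆⁻¹ * (b⁻¹)⁻¹ := by
        simp only [commutatorElement_def]; group
      rw [e]
      exact Hn _ (inv_mem hb) _ (M.inv_mem ih)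
  intro a ha b hb
  induction ha using Subgroup.closure_induction with
  | mem a ha => exact h1 a ha b hb
  | one => simp
  | mul c d hc' hd ih1 ih2 =>
    have e : ⁅c * d, b⁆ = c * ⁅d, b⁆ * c⁻¹ * ⁅c, b⁆ := by
      simp only [commutatorElement_def]; group
    rw [e]
    exact M.mul_mem (Hn c hc' _ ih2) ih1
  | inv c hc' ih =>
    have e : ⁅c⁻¹, b⁆ = c⁻¹ * ⁅c, b⁆⁻¹ * (c⁻¹)⁻¹ := by
      simp only [commutatorElement_def]; group
    rw [e]
    exact Hn _ (inv_mem hc') _ (M.inv_mem ih)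

theorem conj_closure_le {G : Type*} [Group G] (S : Set G) (x : G) (h : ∀ a ∈ S, x * a * x⁻¹ ∈ closure S) :
    ∀ a ∈ closure S, x * a * x⁻¹ ∈ closure S := by
  intro a ha
  induction ha using Subgroup.closure_induction with
  | mem a ha => exact h a ha
  | one => simp
  | mul a b _ _ ha hb =>
    have e : x * (a * b) * x⁻¹ = (x * a * x⁻¹) * (x * b * x⁻¹) := by group
    rw [e]
    exact mul_mem ha hb
  | inv a _ ha =>
    have e : x * a⁻¹ * x⁻¹ = (x * a * x⁻¹)⁻¹ := by group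
    rw [e]
    exact inv_mem ha

/-- The linear algebra behind the commutativity of the subgroup. -/
theorem solve3 {A : Type*} [CommGroup A] (a b c d : A) (hc3 : c ^ 3 = 1)
    (E1 : d = a⁻¹ * a * a * b * c * c) (E2 : c = b⁻¹ * a * b * b)
    (E3 : b = c⁻¹ * (a⁻¹ * a⁻¹) * a * a) (E4 : a = d⁻¹ * (b⁻¹ * b⁻¹) * a⁻¹) :
    a = 1 ∧ b = 1 ∧ c = 1 ∧ d = 1 := by
  have hb : b = c⁻¹ := by rw [E3]; group
  have hcc : c * c * c = 1 := by rw [← pow_three', hc3]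
  have ha : a = c * c := by
    have h2 : b⁻¹ * a * b * b = a * b := by
      calc b⁻¹ * a * b * b = a * (b⁻¹ * b) * b := by rw [mul_comm b⁻¹ a]; simp [mul_assoc]
        _ = a * b := by simp
    rw [h2, hb] at E2
    have h3 : c * c = a * c⁻¹ * c := by rw [← E2]
    rw [h3]; group
  have hd : d = 1 := by
    rw [E1, hb, ha]
    have : (c * c)⁻¹ * (c * c) * (c * c) * c⁻¹ * c * c = c * c * c := by
      rw [inv_mul_cancel, one_mul, mul_inv_cancel_right]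
    rw [this, hcc]
  have ha1 : a = 1 := by
    have h5 := E4
    rw [hd, hb] at h5
    rw [ha] at h5
    have h6 : c * c = 1 := by
      rw [h5]
      have e1 : (1 : A)⁻¹ * (c⁻¹⁻¹ * c⁻¹⁻¹) * (c * c)⁻¹ = (c * c) * (c * c)⁻¹ := by simp
      rw [e1]
      simp
    rw [ha, h6]
  have hc1 : c = 1 := by
    have h6 : c * c = 1 := by rw [← ha, ha1]
    have h7 := hcc
    rwa [h6, one_mul] at h7
  exact ⟨ha1, by rw [hb, hc1, inv_one], hc1, hd⟩

end aux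

/-- The stem extension with kernel of order three does not exist. -/
theorem false_of_three {Γ G : Type*} [Group Γ] [Group G] [Finite Γ] {σ : Γ →* G}
    (hσ : IsStemExtension σ) (hK : Nat.card σ.ker = 3)
    (g t y e v0 v1 v2 v3 v4 : G)
    (hg0 : g * v0 * g⁻¹ = v1) (hg1 : g * v1 * g⁻¹ = v2) (hg2 : g * v2 * g⁻¹ = v3) (hg3 : g * v3 * g⁻¹ = v4)
    (hg4 : g * v4 * g⁻¹ = v0 * v2 * v2 * v3 * v4 * v4)
    (hc1 : v0 * v1 = v1 * v0) (hc2 : v0 * v2 = v2 * v0) (hc3 : v0 * v3 = v3 * v0) (hc4 : v0 * v4 = v4 * v0)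
    (ht2 : t * t = 1) (ht0 : t * v0 * t * v0 = 1) (htg : t * g = g * t) (hte : t * e = e * t) (hty : t * y = y * t)
    (hy : y * y = 1) (hE : e * (y * e * y) = (y * e * y) * e)
    (heV : ∀ x ∈ ({v0, v1, v2, v3, v4} : Set G), e * x * e⁻¹ ∈ closure ({v0, v1, v2, v3, v4} : Set G))
    (hyV : ∀ x ∈ ({v0, v1, v2, v3, v4} : Set G), y * x * y⁻¹ ∈ closure ({v0, v1, v2, v3, v4} : Set G))
    (hidx : ¬ 3 ∣ (closure ({v0, v1, v2, v3, v4} : Set G) ⊔ closure {e, y * e * y}).index) : False := by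
  classical
  set V : Subgroup G := closure ({v0, v1, v2, v3, v4} : Set G) with hV
  have hs := hσ.1
  have hKc := hσ.2.1
  have hcen : ∀ k ∈ σ.ker, ∀ x, k * x = x * k := fun k hk x => (Subgroup.mem_center_iff.mp (hKc hk) x).symm
  have hexp : ∀ k ∈ σ.ker, k ^ 3 = 1 := by
    intro k hk
    have h5 : (⟨k, hk⟩ : ↥σ.ker) ^ 3 = 1 := by
      have := pow_card_eq_one' (x := (⟨k, hk⟩ : ↥σ.ker))
      rwa [hK] at this
    exact congrArg Subtype.val h5
  have hexp2 : ∀ k ∈ σ.ker, k * k = 1 → k = 1 := by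
    intro k hk h
    have h3 := hexp k hk
    rwa [pow_three', h, one_mul] at h3
  have hmemK : ∀ x, σ x = 1 → x ∈ σ.ker := fun x hx => hx
  -- lifts
  obtain ⟨gh, hgh⟩ := hs g
  obtain ⟨th, hth⟩ := hs t
  obtain ⟨yh, hyh⟩ := hs y
  obtain ⟨eh, heh⟩ := hs e
  obtain ⟨w0, hw0⟩ := hs v0
  set w1 := gh * w0 * gh⁻¹ with hw1d
  set w2 := gh * w1 * gh⁻¹ with hw2d
  set w3 := gh * w2 * gh⁻¹ with hw3d
  set w4 := gh * w3 * gh⁻¹ with hw4d
  set w5 := gh * w4 * gh⁻¹ with hw5d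
  have hw1 : σ w1 = v1 := by rw [hw1d, map_mul, map_mul, map_inv, hgh, hw0, hg0]
  have hw2 : σ w2 = v2 := by rw [hw2d, map_mul, map_mul, map_inv, hgh, hw1, hg1]
  have hw3 : σ w3 = v3 := by rw [hw3d, map_mul, map_mul, map_inv, hgh, hw2, hg2]
  have hw4 : σ w4 = v4 := by rw [hw4d, map_mul, map_mul, map_inv, hgh, hw3, hg3]
  have hw5 : σ w5 = v0 * v2 * v2 * v3 * v4 * v4 := by rw [hw5d, map_mul, map_mul, map_inv, hgh, hw4, hg4]
  -- commutators
  have hcK : ∀ a b : Γ, σ a * σ b = σ b * σ a → ⁅a, b⁆ ∈ σ.ker := by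
    intro a b h
    rw [MonoidHom.mem_ker, map_commutatorElement, commutatorElement_def, h]
    group
  have hshift : ∀ a b : Γ, ⁅a, b⁆ ∈ σ.ker → ⁅gh * a * gh⁻¹, gh * b * gh⁻¹⁆ = ⁅a, b⁆ := by
    intro a b h
    have e1 : ⁅gh * a * gh⁻¹, gh * b * gh⁻¹⁆ = gh * ⁅a, b⁆ * gh⁻¹ := by
      simp only [commutatorElement_def]; group
    rw [e1, ← hcen _ h gh, mul_inv_cancel_right]
  have hκ1 : ⁅w0, w1⁆ ∈ σ.ker := hcK _ _ (by rw [hw0, hw1, hc1])
  have hκ2 : ⁅w0, w2⁆ ∈ σ.ker := hcK _ _ (by rw [hw0, hw2, hc2])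
  have hκ3 : ⁅w0, w3⁆ ∈ σ.ker := hcK _ _ (by rw [hw0, hw3, hc3])
  have hκ4 : ⁅w0, w4⁆ ∈ σ.ker := hcK _ _ (by rw [hw0, hw4, hc4])
  -- the table of commutators
  have t12 : ⁅w1, w2⁆ = ⁅w0, w1⁆ := hshift w0 w1 hκ1
  have t13 : ⁅w1, w3⁆ = ⁅w0, w2⁆ := hshift w0 w2 hκ2
  have t14 : ⁅w1, w4⁆ = ⁅w0, w3⁆ := hshift w0 w3 hκ3
  have t15 : ⁅w1, w5⁆ = ⁅w0, w4⁆ := hshift w0 w4 hκ4
  have t23 : ⁅w2, w3⁆ = ⁅w0, w1⁆ := by rw [← t12]; exact hshift w1 w2 (t12 ▸ hκ1)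
  have t24 : ⁅w2, w4⁆ = ⁅w0, w2⁆ := by rw [← t13]; exact hshift w1 w3 (t13 ▸ hκ2)
  have t25 : ⁅w2, w5⁆ = ⁅w0, w3⁆ := by rw [← t14]; exact hshift w1 w4 (t14 ▸ hκ3)
  have t34 : ⁅w3, w4⁆ = ⁅w0, w1⁆ := by rw [← t23]; exact hshift w2 w3 (t23 ▸ hκ1)
  have t35 : ⁅w3, w5⁆ = ⁅w0, w2⁆ := by rw [← t24]; exact hshift w2 w4 (t24 ▸ hκ2)
  have t45 : ⁅w4, w5⁆ = ⁅w0, w1⁆ := by rw [← t34]; exact hshift w3 w4 (t34 ▸ hκ1)
  have hrev : ∀ a b : Γ, ⁅b, a⁆ = ⁅a, b⁆⁻¹ := fun a b => (commutatorElement_inv a b).symm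
  -- the relation
  obtain ⟨k, hk, hw5k⟩ : ∃ k ∈ σ.ker, w5 = w0 * w2 * w2 * w3 * w4 * w4 * k := by
    refine ⟨(w0 * w2 * w2 * w3 * w4 * w4)⁻¹ * w5, ?_, by group⟩
    rw [MonoidHom.mem_ker, map_mul, map_inv, hw5]
    simp only [map_mul, hw0, hw2, hw3, hw4]
    group
  -- expand
  have hexpand : ∀ x : Γ, ⁅x, w0⁆ ∈ σ.ker → ⁅x, w2⁆ ∈ σ.ker → ⁅x, w3⁆ ∈ σ.ker → ⁅x, w4⁆ ∈ σ.ker →
      ⁅x, w5⁆ = ⁅x, w0⁆ * ⁅x, w2⁆ * ⁅x, w2⁆ * ⁅x, w3⁆ * ⁅x, w4⁆ * ⁅x, w4⁆ := by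
    intro x h0 h2 h3 h4
    have hk1 : ⁅x, k⁆ = 1 := by
      rw [commutatorElement_eq_one_iff_commute]
      exact (hcen k hk x).symm
    have hcc : ⁅x, k⁆ ∈ center Γ := by rw [hk1]; exact Subgroup.one_mem _
    rw [hw5k, commutatorElement_mul_right _ _ _ hcc, hk1, mul_one,
      commutatorElement_mul_right _ _ _ (hKc h4), commutatorElement_mul_right _ _ _ (hKc h4),
      commutatorElement_mul_right _ _ _ (hKc h3), commutatorElement_mul_right _ _ _ (hKc h2),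
      commutatorElement_mul_right _ _ _ (hKc h2)]
  have hself : ∀ a : Γ, ⁅a, a⁆ = 1 := fun a => commutatorElement_self a
  have E1 := hexpand w1 (by rw [hrev w0 w1]; exact inv_mem hκ1) (by rw [t12]; exact hκ1) (by rw [t13]; exact hκ2) (by rw [t14]; exact hκ3)
  have E2 := hexpand w2 (by rw [hrev w0 w2]; exact inv_mem hκ2) (by rw [hself]; exact one_mem _) (by rw [t23]; exact hκ1) (by rw [t24]; exact hκ2)
  have E3 := hexpand w3 (by rw [hrev w0 w3]; exact inv_mem hκ3) (by rw [hrev w2 w3, t23]; exact inv_mem hκ1) (by rw [hself]; exact one_mem _) (by rw [t34]; exact hκ1)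
  have E4 := hexpand w4 (by rw [hrev w0 w4]; exact inv_mem hκ4) (by rw [hrev w2 w4, t24]; exact inv_mem hκ2) (by rw [hrev w3 w4, t34]; exact inv_mem hκ1) (by rw [hself]; exact one_mem _)
  rw [t15, hrev w0 w1, t12, t13, t14] at E1
  rw [t25, hrev w0 w2, hself, t23, t24] at E2
  rw [t35, hrev w0 w3, hrev w2 w3, t23, hself, t34] at E3
  rw [t45, hrev w0 w4, hrev w2 w4, t24, hrev w3 w4, t34, hself] at E4
  -- solve
  letI instC : CommGroup ↥(center Γ) :=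
    { (inferInstance : Group ↥(center Γ)) with
      mul_comm := fun a b => Subtype.ext (Subgroup.mem_center_iff.mp b.2 a.1) }
  let a : ↥(center Γ) := ⟨⁅w0, w1⁆, hKc hκ1⟩
  let b : ↥(center Γ) := ⟨⁅w0, w2⁆, hKc hκ2⟩
  let c : ↥(center Γ) := ⟨⁅w0, w3⁆, hKc hκ3⟩
  let d : ↥(center Γ) := ⟨⁅w0, w4⁆, hKc hκ4⟩
  have E2' : ⁅w0, w3⁆ = ⁅w0, w2⁆⁻¹ * ⁅w0, w1⁆ * ⁅w0, w2⁆ * ⁅w0, w2⁆ := E2.trans (by simp only [mul_one])
  have E3' : ⁅w0, w2⁆ = ⁅w0, w3⁆⁻¹ * (⁅w0, w1⁆⁻¹ * ⁅w0, w1⁆⁻¹) * ⁅w0, w1⁆ * ⁅w0, w1⁆ :=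
    E3.trans (by simp only [mul_one, mul_assoc])
  have E4' : ⁅w0, w1⁆ = ⁅w0, w4⁆⁻¹ * (⁅w0, w2⁆⁻¹ * ⁅w0, w2⁆⁻¹) * ⁅w0, w1⁆⁻¹ :=
    E4.trans (by simp only [mul_one, mul_assoc])
  have hsol := solve3 a b c d (Subtype.ext (hexp _ hκ3))
    (Subtype.ext E1) (Subtype.ext E2') (Subtype.ext E3') (Subtype.ext E4')
  obtain ⟨ha1, hb1, hc1', hd1⟩ := hsol
  have k1 : ⁅w0, w1⁆ = 1 := congrArg Subtype.val ha1
  have k2 : ⁅w0, w2⁆ = 1 := congrArg Subtype.val hb1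
  have k3 : ⁅w0, w3⁆ = 1 := congrArg Subtype.val hc1'
  have k4 : ⁅w0, w4⁆ = 1 := congrArg Subtype.val hd1
  -- the lifts commute
  have hcomm : ∀ a b : Γ, ⁅a, b⁆ = 1 → a * b = b * a := fun a b h => commutatorElement_eq_one_iff_commute.1 h
  let T : Set Γ := {w0, w1, w2, w3, w4}
  have hTc : ∀ a ∈ T, ∀ b ∈ T, ⁅a, b⁆ = 1 := by
    have hsym : ∀ a b : Γ, ⁅a, b⁆ = 1 → ⁅b, a⁆ = 1 := by
      intro a b h
      rw [hrev a b, h, inv_one]
    rintro a (rfl | rfl | rfl | rfl | rfl) b (rfl | rfl | rfl | rfl | rfl)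
    all_goals first
      | exact hself _
      | exact k1 | exact k2 | exact k3 | exact k4
      | (apply hsym; exact k1) | (apply hsym; exact k2) | (apply hsym; exact k3) | (apply hsym; exact k4)
      | (rw [t12]; exact k1) | (rw [t13]; exact k2) | (rw [t14]; exact k3) | (rw [t23]; exact k1)
      | (rw [t24]; exact k2) | (rw [t34]; exact k1)
      | (apply hsym; rw [t12]; exact k1) | (apply hsym; rw [t13]; exact k2) | (apply hsym; rw [t14]; exact k3)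
      | (apply hsym; rw [t23]; exact k1) | (apply hsym; rw [t24]; exact k2) | (apply hsym; rw [t34]; exact k1)
  have himgT : σ '' T = {v0, v1, v2, v3, v4} := by
    simp only [T, Set.image_insert_eq, Set.image_singleton, hw0, hw1, hw2, hw3, hw4]
  have hLc : ∀ x ∈ V.comap σ, ∀ y' ∈ V.comap σ, x * y' = y' * x :=
    comap_comm_of_lifts σ hKc T (fun a ha b hb => hcomm a b (hTc a ha b hb)) V (by rw [himgT])
  set L := V.comap σ with hLd
  -- the group `V` is commutative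
  have hVc : ∀ a ∈ V, ∀ b ∈ V, a * b = b * a := by
    intro a ha b hb
    obtain ⟨a', rfl⟩ := hs a
    obtain ⟨b', rfl⟩ := hs b
    rw [← map_mul, ← map_mul, hLc a' ha b' hb]
  -- `t` inverts `V`
  have htinv : t⁻¹ = t := (mul_eq_one_iff_inv_eq.1 ht2)
  have hinvbase : ∀ x, t * x * t⁻¹ = x⁻¹ → t * (g * x * g⁻¹) * t⁻¹ = (g * x * g⁻¹)⁻¹ := by
    intro x hx
    have e1 : t * (g * x * g⁻¹) * t⁻¹ = (t * g) * x * g⁻¹ * t⁻¹ := by group
    have e2 : g⁻¹ * t⁻¹ = t⁻¹ * g⁻¹ := by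
      rw [← mul_inv_rev, ← mul_inv_rev, htg]
    rw [e1, htg, mul_assoc _ g⁻¹, e2]
    have e3 : g * t * x * (t⁻¹ * g⁻¹) = g * (t * x * t⁻¹) * g⁻¹ := by group
    rw [e3, hx]
    group
  have hi0 : t * v0 * t⁻¹ = v0⁻¹ := by
    rw [htinv, eq_inv_iff_mul_eq_one]
    exact ht0
  have hi1 : t * v1 * t⁻¹ = v1⁻¹ := by rw [← hg0]; exact hinvbase _ hi0
  have hi2 : t * v2 * t⁻¹ = v2⁻¹ := by rw [← hg1]; exact hinvbase _ hi1
  have hi3 : t * v3 * t⁻¹ = v3⁻¹ := by rw [← hg2]; exact hinvbase _ hi2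
  have hi4 : t * v4 * t⁻¹ = v4⁻¹ := by rw [← hg3]; exact hinvbase _ hi3
  have hinv : ∀ a ∈ V, t * a * t⁻¹ = a⁻¹ := by
    intro a ha
    have ha' := ha
    induction ha using Subgroup.closure_induction with
    | mem a ha =>
      rcases ha with rfl | rfl | rfl | rfl | rfl
      · exact hi0
      · exact hi1
      · exact hi2
      · exact hi3
      · exact hi4
    | one => simp
    | mul a b h1 h2 ih1 ih2 =>
      have e1 : t * (a * b) * t⁻¹ = (t * a * t⁻¹) * (t * b * t⁻¹) := by group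
      rw [e1, ih1 h1, ih2 h2, mul_inv_rev, ← mul_inv_rev, ← mul_inv_rev, hVc a h1 b h2]
    | inv a h1 ih =>
      have e1 : t * a⁻¹ * t⁻¹ = (t * a * t⁻¹)⁻¹ := by group
      rw [e1, ih h1]
  -- the function
  let φ : Γ → Γ := fun x => x * (th * x * th⁻¹)
  have hLt : ∀ x ∈ L, th * x * th⁻¹ ∈ L := by
    intro x hx
    show σ (th * x * th⁻¹) ∈ V
    rw [map_mul, map_mul, map_inv, hth, hinv _ hx]
    exact inv_mem hx
  have hφK : ∀ x ∈ L, φ x ∈ σ.ker := by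
    intro x hx
    rw [MonoidHom.mem_ker]
    show σ (x * (th * x * th⁻¹)) = 1
    rw [map_mul, map_mul, map_mul, map_inv, hth, hinv _ hx]
    group
  have hφmul : ∀ x ∈ L, ∀ y' ∈ L, φ (x * y') = φ x * φ y' := by
    intro x hx y' hy'
    show x * y' * (th * (x * y') * th⁻¹) = x * (th * x * th⁻¹) * (y' * (th * y' * th⁻¹))
    have e1 : th * (x * y') * th⁻¹ = (th * x * th⁻¹) * (th * y' * th⁻¹) := by group
    rw [e1]
    calc x * y' * ((th * x * th⁻¹) * (th * y' * th⁻¹))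
        = x * (y' * (th * x * th⁻¹)) * (th * y' * th⁻¹) := by group
      _ = x * ((th * x * th⁻¹) * y') * (th * y' * th⁻¹) := by rw [hLc y' hy' _ (hLt x hx)]
      _ = _ := by group
  have hφone : φ 1 = 1 := by
    show (1 : Γ) * (th * 1 * th⁻¹) = 1
    group
  have hφinv : ∀ x ∈ L, φ x⁻¹ = (φ x)⁻¹ := by
    intro x hx
    have h1 := hφmul x⁻¹ (inv_mem hx) x hx
    rw [inv_mul_cancel, hφone] at h1
    exact eq_inv_of_mul_eq_one_left h1.symm
  let M : Subgroup Γ :=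
    { carrier := {x | x ∈ L ∧ φ x = 1}
      one_mem' := ⟨L.one_mem, hφone⟩
      mul_mem' := by
        rintro a b ⟨ha, ha2⟩ ⟨hb, hb2⟩
        exact ⟨L.mul_mem ha hb, by rw [hφmul a ha b hb, ha2, hb2, one_mul]⟩
      inv_mem' := by
        rintro a ⟨ha, ha2⟩
        exact ⟨L.inv_mem ha, by rw [hφinv a ha, ha2, inv_one]⟩ }
  have hMK : ∀ z ∈ M, z ∈ σ.ker → z = 1 := by
    rintro z ⟨-, hz⟩ hzk
    apply hexp2 z hzk
    have h1 : z * (th * z * th⁻¹) = 1 := hz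
    rw [← hcen z hzk th, mul_inv_cancel_right] at h1
    exact h1
  -- invariance
  have hφconj : ∀ u : Γ, σ u * t = t * σ u → ∀ x ∈ L, φ (u * x * u⁻¹) = φ x := by
    intro u hu x hx
    have hk' : ⁅th, u⁆ ∈ σ.ker := hcK _ _ (by rw [hth, hu])
    have e1 : th * u = ⁅th, u⁆ * (u * th) := by
      simp only [commutatorElement_def]; group
    have e2 : th * (u * x * u⁻¹) * th⁻¹ = u * (th * x * th⁻¹) * u⁻¹ := by
      have e3 : th * (u * x * u⁻¹) * th⁻¹ = (th * u) * x * (th * u)⁻¹ := by group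
      rw [e3, e1]
      have e4 : ⁅th, u⁆ * (u * th) * x * (⁅th, u⁆ * (u * th))⁻¹
          = ⁅th, u⁆ * ((u * th) * x * (u * th)⁻¹) * ⁅th, u⁆⁻¹ := by group
      rw [e4, hcen _ hk', mul_inv_cancel_right]
      group
    show u * x * u⁻¹ * (th * (u * x * u⁻¹) * th⁻¹) = φ x
    rw [e2]
    have e5 : u * x * u⁻¹ * (u * (th * x * th⁻¹) * u⁻¹) = u * φ x * u⁻¹ := by
      show _ = u * (x * (th * x * th⁻¹)) * u⁻¹
      group
    rw [e5, ← hcen _ (hφK x hx) u, mul_inv_cancel_right]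
  -- the two elements
  have hyinv : y⁻¹ = y := mul_eq_one_iff_inv_eq.1 hy
  set e2h := yh * eh * yh⁻¹ with he2d
  have he2h : σ e2h = y * e * y := by
    rw [he2d, map_mul, map_mul, map_inv, hyh, heh, hyinv]
  have ht_e : σ eh * t = t * σ eh := by rw [heh, hte]
  have ht_e2 : σ e2h * t = t * σ e2h := by
    rw [he2h]
    calc y * e * y * t = y * e * (t * y) := by rw [mul_assoc (y * e), hty]
      _ = y * (t * e) * y := by rw [hte]; group
      _ = t * (y * e * y) := by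
        rw [show y * (t * e) * y = (y * t) * e * y by group, ← hty]; group
  -- `V` is normalised
  have hVe : ∀ a ∈ V, e * a * e⁻¹ ∈ V := conj_closure_le _ e heV
  have hVy : ∀ a ∈ V, y * a * y⁻¹ ∈ V := conj_closure_le _ y hyV
  have hVe2 : ∀ a ∈ V, (y * e * y) * a * (y * e * y)⁻¹ ∈ V := by
    intro a ha
    have h1 := hVy _ (hVe _ (hVy a ha))
    have e1 : (y * e * y) * a * (y * e * y)⁻¹ = y * (e * (y * a * y⁻¹) * e⁻¹) * y⁻¹ := by
      rw [hyinv]; simp only [mul_inv_rev, hyinv]; group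
    rw [e1]
    exact h1
  have hLe : ∀ x ∈ L, eh * x * eh⁻¹ ∈ L := by
    intro x hx
    show σ (eh * x * eh⁻¹) ∈ V
    rw [map_mul, map_mul, map_inv, heh]
    exact hVe _ hx
  have hLe2 : ∀ x ∈ L, e2h * x * e2h⁻¹ ∈ L := by
    intro x hx
    show σ (e2h * x * e2h⁻¹) ∈ V
    rw [map_mul, map_mul, map_inv, he2h]
    exact hVe2 _ hx
  -- commutators with the elements of `L`
  have hcommu : ∀ u : Γ, σ u * t = t * σ u → (∀ x ∈ L, u * x * u⁻¹ ∈ L) → ∀ x ∈ L, ⁅u, x⁆ ∈ M := by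
    intro u hu hLu x hx
    have h1 : ⁅u, x⁆ = (u * x * u⁻¹) * x⁻¹ := by
      simp only [commutatorElement_def]
    rw [h1]
    refine ⟨L.mul_mem (hLu x hx) (L.inv_mem hx), ?_⟩
    rw [hφmul _ (hLu x hx) _ (L.inv_mem hx), hφconj u hu x hx, hφinv x hx, mul_inv_cancel]
  -- the commutator of the two elements
  have hceh : ⁅eh, e2h⁆ = 1 := by
    have hck : ⁅eh, e2h⁆ ∈ σ.ker := hcK _ _ (by rw [heh, he2h, hE])
    have hz : yh * yh ∈ σ.ker := by
      rw [MonoidHom.mem_ker, map_mul, hyh, hy]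
    have e1 : yh * e2h * yh⁻¹ = eh := by
      have e3 : yh * e2h * yh⁻¹ = (yh * yh) * eh * (yh * yh)⁻¹ := by
        rw [he2d]; group
      rw [e3, hcen _ hz, mul_inv_cancel_right]
    have e2 : ⁅yh * eh * yh⁻¹, yh * e2h * yh⁻¹⁆ = yh * ⁅eh, e2h⁆ * yh⁻¹ := by
      simp only [commutatorElement_def]; group
    rw [e1, ← he2d, ← hcen _ hck yh, mul_inv_cancel_right, hrev eh e2h] at e2
    apply hexp2 _ hck
    exact (inv_eq_iff_mul_eq_one.1 e2)
  -- the generators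
  let S : Set Γ := (L : Set Γ) ∪ {eh, e2h}
  have hSn : ∀ a ∈ S, ∀ m ∈ M, a * m * a⁻¹ ∈ M := by
    have hu : ∀ u : Γ, σ u * t = t * σ u → (∀ x ∈ L, u * x * u⁻¹ ∈ L) → ∀ m ∈ M, u * m * u⁻¹ ∈ M := by
      rintro u hu hLu m ⟨hm, hm2⟩
      exact ⟨hLu m hm, by rw [hφconj u hu m hm, hm2]⟩
    rintro a (ha | rfl | rfl) m hm
    · have h1 : a * m * a⁻¹ = m := by rw [hLc a ha m hm.1, mul_inv_cancel_right]
      rwa [h1]
    · exact hu _ ht_e hLe m hm
    · exact hu _ ht_e2 hLe2 m hm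
  have hSc : ∀ a ∈ S, ∀ b ∈ S, ⁅a, b⁆ ∈ M := by
    have hrevM : ∀ a b : Γ, ⁅a, b⁆ ∈ M → ⁅b, a⁆ ∈ M := by
      intro a b h
      rw [hrev a b]
      exact M.inv_mem h
    have h1 := hcommu eh ht_e hLe
    have h2 := hcommu e2h ht_e2 hLe2
    have hself' : ∀ a : Γ, ⁅a, a⁆ ∈ M := by
      intro a; rw [hself]; exact M.one_mem
    have hce2 : ⁅e2h, eh⁆ = 1 := by rw [hrev eh e2h, hceh, inv_one]
    rintro a (ha | rfl | rfl) b (hb | rfl | rfl)
    · have : ⁅a, b⁆ = 1 := commutatorElement_eq_one_iff_commute.2 (hLc a ha b hb)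
      rw [this]; exact M.one_mem
    · exact hrevM _ _ (h1 a ha)
    · exact hrevM _ _ (h2 a ha)
    · exact h1 b hb
    · exact hself' _
    · rw [hceh]; exact M.one_mem
    · exact h2 b hb
    · rw [hce2]; exact M.one_mem
    · exact hself' _
  have hCl := comm_closure_mem S M hSn hSc
  -- the preimage
  set U : Subgroup G := V ⊔ closure {e, y * e * y} with hUd
  have hUle : U ≤ (closure S).map σ := by
    refine sup_le ?_ ?_
    · intro a ha
      obtain ⟨a', rfl⟩ := hs a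
      exact ⟨a', subset_closure (Or.inl ha), rfl⟩
    · rw [Subgroup.closure_le]
      rintro a (rfl | rfl)
      · exact ⟨eh, subset_closure (Or.inr (Or.inl rfl)), heh⟩
      · exact ⟨e2h, subset_closure (Or.inr (Or.inr rfl)), he2h⟩
  have hkerL : ∀ z ∈ σ.ker, z ∈ L := by
    intro z hz
    show σ z ∈ V
    rw [hz]
    exact V.one_mem
  have hUh : U.comap σ ≤ closure S := by
    intro x hx
    obtain ⟨h, hh, e1⟩ := hUle hx
    have h3 : h⁻¹ * x ∈ σ.ker := by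
      rw [MonoidHom.mem_ker, map_mul, map_inv, e1, inv_mul_cancel]
    have h4 : h⁻¹ * x ∈ closure S := subset_closure (Or.inl (hkerL _ h3))
    have h5 := mul_mem hh h4
    simpa using h5
  have hhat : hatE σ U ≤ M := by
    unfold hatE
    rw [Subgroup.commutator_le]
    intro a ha b hb
    exact hCl a (hUh ha) b (hUh hb)
  -- the end
  have hne : Nontrivial ↥σ.ker := by
    apply Finite.one_lt_card_iff_nontrivial.1
    rw [hK]
    norm_num
  obtain ⟨k', hk'⟩ := exists_ne (1 : ↥σ.ker)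
  have hmem := pow_index_mem hσ U k'.2
  have h1 : k'.1 ^ U.index = 1 := hMK _ (hhat hmem) (pow_mem k'.2 _)
  have h2 : k'.1 ^ 3 = 1 := hexp _ k'.2
  have hcop : Nat.Coprime 3 U.index := (Nat.Prime.coprime_iff_not_dvd (by norm_num)).2 hidx
  have h7 := orderOf_dvd_of_pow_eq_one h1
  have h8 := orderOf_dvd_of_pow_eq_one h2
  have h9 := Nat.dvd_gcd h8 h7
  rw [Nat.Coprime.gcd_eq_one hcop, Nat.dvd_one, orderOf_eq_one_iff] at h9
  exact hk' (Subtype.ext h9)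

end Cfsg.Agent.Lib.LyMultD
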