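import Mathlib
import Cfsg.Agent.Lib.LyMultD
import Cfsg.Agent.Lib.LyDce.Final
import Cfsg.Agent.TcData.LyMT.Nodes

/-!
# The multiplier of the presented Lyons group: the prime three
-/

set_option autoImplicit false
set_option linter.all false
set_option maxRecDepth 100000
set_option maxHeartbeats 0

namespace Cfsg.Agent.Lib.LyMultE

open Subgroup Cfsg Cfsg.Agent.Lib.SchurStem Cfsg.Agent.Lib.LyMultA Cfsg.Agent.Lib.LyMultB Cfsg.Agent.Lib.LyDce
  Cfsg.Spor.Ly Cfsg.Agent.Lib.LyV111 Cfsg.Agent.Lib.FpVec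
open scoped commutatorElement

instance finRG : Finite RG := Nat.finite_of_card_ne_zero (by
  show Nat.card G ≠ 0
  rw [card_G]; norm_num)

theorem simpleRG : IsSimpleGroup RG := simple_G

/-- The representation is faithful. -/
theorem rho_inj : Function.Injective rho := by
  haveI := simpleRG
  rcases IsSimpleGroup.eq_bot_or_eq_top_of_normal rho.ker (MonoidHom.normal_ker rho) with h | h
  · exact (MonoidHom.ker_eq_bot_iff rho).1 h
  · exfalso
    have h1 : (PresentedGroup.of Gen.a : RG) ∈ rho.ker := by rw [h]; trivial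
    have h2 : rho (PresentedGroup.of Gen.a) = 1 := h1
    have h3 := (Is.letter Gen.a rfl).2
    rw [h2] at h3
    have h4 : mat 2048 5 111 (M Gen.a) = 1 := h3.symm
    have h5 := congrFun (congrFun h4 ⟨0, by norm_num⟩) ⟨1, by norm_num⟩
    rw [Matrix.one_apply_ne (by decide)] at h5
    revert h5
    decide +kernel

/-- Simple groups which are not commutative are perfect. -/
theorem perfect_of_equiv {H : Subgroup RG} {L : Type} [Group L] (e : ↥H ≃* L) (hs : IsSimpleGroup L)
    (hn : ¬ IsMulCommutative L) : ⁅H, H⁆ = H := by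
  have h1 : commutator L = ⊤ := by
    rcases hs.eq_bot_or_eq_top_of_normal (commutator L) inferInstance with h | h
    · exfalso
      apply hn
      refine ⟨⟨fun a b => ?_⟩⟩
      have h2 : ⁅a, b⁆ ∈ commutator L := by
        rw [_root_.commutator_def]
        exact Subgroup.commutator_mem_commutator (mem_top a) (mem_top b)
      rw [h, Subgroup.mem_bot] at h2
      exact commutatorElement_eq_one_iff_commute.1 h2
    · exact h
  have h2 : commutator ↥H = ⊤ := by
    rw [eq_top_iff]
    intro x _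
    have h3 : e x ∈ commutator L := by rw [h1]; trivial
    rw [_root_.commutator_def, ← Subgroup.map_top_of_surjective e.toMonoidHom e.surjective,
      ← Subgroup.map_commutator] at h3
    obtain ⟨y, hy, hy2⟩ := h3
    have : y = x := e.injective hy2
    rw [← this]
    exact hy
  have h3 := Subgroup.map_subtype_commutator H
  rw [h2] at h3
  rw [← h3]
  ext x
  refine ⟨fun hx => ?_, fun hx => ?_⟩
  · rw [Subgroup.mem_map] at hx
    obtain ⟨y, -, rfl⟩ := hx
    exact y.2
  · rw [Subgroup.mem_map]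
    exact ⟨⟨x, hx⟩, trivial, rfl⟩

/-- An element whose matrix has a nonzero entry off the diagonal is not trivial. -/
theorem Is_ne_one {g : RG} {c : List ℕ} (h : Is g c) (i j : Fin 111) (hij : i ≠ j) (hv : mat 2048 5 111 c i j ≠ 0) : g ≠ 1 := by
  intro h1
  have h3 := h.2
  rw [h1, map_one] at h3
  have h4 : mat 2048 5 111 c = 1 := h3.symm
  apply hv
  rw [h4, Matrix.one_apply_ne hij]

section three

open Cfsg.Agent.TcData.LyMT

/-- The relations and the case of the prime three, with opaque elements. -/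
theorem three_core {Γ : Type} [Group Γ] [Finite Γ] {σ : Γ →* RG} (hσ : IsStemExtension σ)
    (hK : Nat.card σ.ker = 3) (g gi t y e v0 v1 v2 v3 v4 x561 x672 : RG) (hgi : gi = g⁻¹)
    (hg0 : g * v0 * g⁻¹ = v1) (hg1 : g * v1 * g⁻¹ = v2) (hg2 : g * v2 * g⁻¹ = v3) (hg3 : g * v3 * g⁻¹ = v4)
    (r0 : rho ([g,v4,gi] : List RG).prod = rho ([v0,v2,v2,v3,v4,v4] : List RG).prod)
    (r1 : rho ([v0,v1] : List RG).prod = rho ([v1,v0] : List RG).prod)
    (r2 : rho ([v0,v2] : List RG).prod = rho ([v2,v0] : List RG).prod)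
    (r3 : rho ([v0,v3] : List RG).prod = rho ([v3,v0] : List RG).prod)
    (r4 : rho ([v0,v4] : List RG).prod = rho ([v4,v0] : List RG).prod)
    (r5 : rho ([t,t] : List RG).prod = rho ([] : List RG).prod)
    (r6 : rho ([t,v0,t,v0] : List RG).prod = rho ([] : List RG).prod)
    (r7 : rho ([t,g] : List RG).prod = rho ([g,t] : List RG).prod)
    (r8 : rho ([t,e] : List RG).prod = rho ([e,t] : List RG).prod)
    (r9 : rho ([t,y] : List RG).prod = rho ([y,t] : List RG).prod)
    (r10 : rho ([y,y] : List RG).prod = rho ([] : List RG).prod)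
    (r11 : rho ([e,y,e,y] : List RG).prod = rho ([y,e,y,e] : List RG).prod)
    (r12 : rho ([e,v0] : List RG).prod = rho ([v1,v1,v2,v3,v3,v4,v4,e] : List RG).prod)
    (r13 : rho ([e,v1] : List RG).prod = rho ([v2,e] : List RG).prod)
    (r14 : rho ([e,v2] : List RG).prod = rho ([v0,v0,v2,v3,v3,v4,e] : List RG).prod)
    (r15 : rho ([e,v3] : List RG).prod = rho ([v0,v0,e] : List RG).prod)
    (r16 : rho ([e,v4] : List RG).prod = rho ([v4,e] : List RG).prod)
    (r17 : rho ([y,v0] : List RG).prod = rho ([v0,v0,v2,v3,v3,v4,y] : List RG).prod)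
    (r18 : rho ([y,v1] : List RG).prod = rho ([v1,v1,y] : List RG).prod)
    (r19 : rho ([y,v2] : List RG).prod = rho ([v0,v1,v1,v2,v2,v3,v3,v4,y] : List RG).prod)
    (r20 : rho ([y,v3] : List RG).prod = rho ([v3,v3,y] : List RG).prod)
    (r21 : rho ([y,v4] : List RG).prod = rho ([v0,v0,v1,v2,v2,v3,v3,y] : List RG).prod)
    (r22 : rho ([x561] : List RG).prod = rho ([v0,v0,v1,v2,v2,v3,v3,v4,e] : List RG).prod)
    (r23 : rho ([x672] : List RG).prod = rho ([v4,v4,e,y,e,y] : List RG).prod)
    (is0 : Is v0 Cfsg.Agent.TcData.Ly.Syl.U.X381) (is1 : Is x561 Cfsg.Agent.TcData.Ly.Syl.U.X561)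
    (is2 : Is x672 Cfsg.Agent.TcData.Ly.Syl.U.X672) : False := by
  have R : ∀ {l1 l2 : List RG}, rho l1.prod = rho l2.prod → l1.prod = l2.prod := fun h => rho_inj h
  have r0 := R r0
  have r1 := R r1
  have r2 := R r2
  have r3 := R r3
  have r4 := R r4
  have r5 := R r5
  have r6 := R r6
  have r7 := R r7
  have r8 := R r8
  have r9 := R r9
  have r10 := R r10
  have r11 := R r11
  have r12 := R r12
  have r13 := R r13
  have r14 := R r14
  have r15 := R r15
  have r16 := R r16
  have r17 := R r17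
  have r18 := R r18
  have r19 := R r19
  have r20 := R r20
  have r21 := R r21
  have r22 := R r22
  have r23 := R r23
  simp only [List.prod_cons, List.prod_nil, mul_one] at r0 r1 r2 r3 r4 r5 r6 r7 r8 r9 r10 r11 r12 r13 r14 r15 r16 r17 r18 r19 r20 r21 r22 r23
  subst hgi
  set S3 : Set RG := {v0, v1, v2, v3, v4} with hS3
  have m0 : v0 ∈ closure S3 := subset_closure (by simp [S3])
  have m1 : v1 ∈ closure S3 := subset_closure (by simp [S3])
  have m2 : v2 ∈ closure S3 := subset_closure (by simp [S3])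
  have m3 : v3 ∈ closure S3 := subset_closure (by simp [S3])
  have m4 : v4 ∈ closure S3 := subset_closure (by simp [S3])
  have conjOf : ∀ {u x w : RG}, u * x = w * u → u * x * u⁻¹ = w := by
    intro u x w h
    rw [h, mul_inv_cancel_right]
  have he0 : e * v0 * e⁻¹ = v1 * v1 * v2 * v3 * v3 * v4 * v4 := conjOf (by simpa only [mul_assoc] using r12)
  have he1 : e * v1 * e⁻¹ = v2 := conjOf (by simpa only [mul_assoc] using r13)
  have he2 : e * v2 * e⁻¹ = v0 * v0 * v2 * v3 * v3 * v4 := conjOf (by simpa only [mul_assoc] using r14)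
  have he3 : e * v3 * e⁻¹ = v0 * v0 := conjOf (by simpa only [mul_assoc] using r15)
  have he4 : e * v4 * e⁻¹ = v4 := conjOf (by simpa only [mul_assoc] using r16)
  have hy0 : y * v0 * y⁻¹ = v0 * v0 * v2 * v3 * v3 * v4 := conjOf (by simpa only [mul_assoc] using r17)
  have hy1 : y * v1 * y⁻¹ = v1 * v1 := conjOf (by simpa only [mul_assoc] using r18)
  have hy2 : y * v2 * y⁻¹ = v0 * v1 * v1 * v2 * v2 * v3 * v3 * v4 := conjOf (by simpa only [mul_assoc] using r19)
  have hy3 : y * v3 * y⁻¹ = v3 * v3 := conjOf (by simpa only [mul_assoc] using r20)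
  have hy4 : y * v4 * y⁻¹ = v0 * v0 * v1 * v2 * v2 * v3 * v3 := conjOf (by simpa only [mul_assoc] using r21)
  have hcardG : Nat.card RG = 51765179004000000 := card_G
  -- the index
  set U : Subgroup RG := closure S3 ⊔ closure {e, y * e * y} with hU
  have hmv : ∀ x ∈ closure S3, x ∈ U := fun x hx => (le_sup_left : closure S3 ≤ U) hx
  have hme : e ∈ U := (le_sup_right : closure {e, y * e * y} ≤ U) (subset_closure (by simp))
  have hme2 : y * e * y ∈ U := (le_sup_right : closure {e, y * e * y} ≤ U) (subset_closure (by simp))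
  have hdvd : 2187 ∣ Nat.card U := by
    have h1 : ∀ i, i < 2187 → Cfsg.Agent.Lib.VecOrb.rowOK Cfsg.Agent.TcData.Ly.Syl.U.kk Cfsg.Agent.TcData.Ly.Syl.U.pp
        Cfsg.Agent.TcData.Ly.Syl.U.gg Cfsg.Agent.TcData.Ly.Syl.U.dd (actS Cfsg.Agent.TcData.Ly.Syl.U.S)
        Cfsg.Agent.TcData.Ly.Syl.U.v0 2187 i = true := fun i hi => by
      have := Cfsg.Agent.TcData.Ly.Syl.U.all_F i hi
      unfold Cfsg.Agent.TcData.Ly.Syl.U.F at this
      exact (Bool.and_eq_true _ _ ▸ this : _ ∧ _).1
    have h2 : ∀ i, i < 2187 → imgOK Cfsg.Agent.TcData.Ly.Syl.U.kk (actS Cfsg.Agent.TcData.Ly.Syl.U.S) 2187 3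
        Cfsg.Agent.TcData.Ly.Syl.U.ii i = true := fun i hi => by
      have := Cfsg.Agent.TcData.Ly.Syl.U.all_F i hi
      unfold Cfsg.Agent.TcData.Ly.Syl.U.F at this
      exact (Bool.and_eq_true _ _ ▸ this : _ ∧ _).2
    have h3 := table_dvd_closure (S := Cfsg.Agent.TcData.Ly.Syl.U.S) (key := Cfsg.Agent.TcData.Ly.Syl.U.kk)
      (par' := Cfsg.Agent.TcData.Ly.Syl.U.pp) (gen := Cfsg.Agent.TcData.Ly.Syl.U.gg)
      (dep := Cfsg.Agent.TcData.Ly.Syl.U.dd) (imgs := Cfsg.Agent.TcData.Ly.Syl.U.ii) (n := 2187) (m := 3)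
      (v0 := Cfsg.Agent.TcData.Ly.Syl.U.v0) (i0 := 746) Cfsg.Agent.TcData.Ly.Syl.U.hS rfl
      Cfsg.Agent.TcData.Ly.Syl.U.hv (by norm_num) Cfsg.Agent.TcData.Ly.Syl.U.hk0 h1 h2
    refine h3.trans (Subgroup.card_dvd_of_le ?_)
    rw [Subgroup.closure_le]
    rintro a ⟨s, hs⟩
    have hL : ∀ {n : RG} {c : List ℕ}, Is n c → (rho a).val = mat 2048 5 111 c → n ∈ U → a ∈ U := by
      intro n c hn h1 h2
      have : a = n := rho_inj (Units.ext (h1.trans hn.2.symm))
      rw [this]
      exact h2
    rcases s with _ | _ | _ | s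
    · exact hL is0 hs (hmv _ m0)
    · refine hL is1 hs ?_
      rw [r22]
      repeat' apply mul_mem
      all_goals first | exact hme | exact hmv _ m0 | exact hmv _ m1 | exact hmv _ m2 | exact hmv _ m3 | exact hmv _ m4
    · refine hL is2 hs ?_
      rw [r23]
      have h6 : v4 * (v4 * (e * (y * (e * y)))) = v4 * v4 * e * (y * e * y) := by simp only [mul_assoc]
      rw [h6]
      exact mul_mem (mul_mem (mul_mem (hmv _ m4) (hmv _ m4)) hme) hme2
    · have h1 : Cfsg.Agent.TcData.Ly.Syl.U.S.getD (s + 3) (idL 2048 111) = idL 2048 111 := by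
        apply List.getD_eq_default
        simp [Cfsg.Agent.TcData.Ly.Syl.U.S]
      rw [h1, mat_idL par] at hs
      have : a = 1 := rho_inj (Units.ext (by rw [hs, map_one]; rfl))
      rw [this]
      exact U.one_mem
  have hidx : ¬ 3 ∣ U.index := by
    intro h
    have h1 := Subgroup.card_mul_index U
    rw [hcardG] at h1
    have h2 : 2187 * 3 ∣ 51765179004000000 := by
      rw [← h1]
      exact Nat.mul_dvd_mul hdvd h
    norm_num at h2
  refine Cfsg.Agent.Lib.LyMultD.false_of_three hσ hK g t y e v0 v1 v2 v3 v4 hg0 hg1 hg2 hg3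
    (by simpa only [mul_assoc] using r0) r1 r2 r3 r4 r5 (by simpa only [mul_assoc] using r6) r7 r8 r9 r10
    (by simpa only [mul_assoc] using r11) ?_ ?_ hidx
  · rintro x (rfl | rfl | rfl | rfl | rfl)
    · rw [he0]
      repeat' apply mul_mem
      all_goals first | exact m0 | exact m1 | exact m2 | exact m3 | exact m4
    · rw [he1]; exact m2
    · rw [he2]
      repeat' apply mul_mem
      all_goals first | exact m0 | exact m1 | exact m2 | exact m3 | exact m4
    · rw [he3]
      repeat' apply mul_mem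
      all_goals first | exact m0 | exact m1 | exact m2 | exact m3 | exact m4
    · rw [he4]; exact m4
  · rintro x (rfl | rfl | rfl | rfl | rfl)
    · rw [hy0]
      repeat' apply mul_mem
      all_goals first | exact m0 | exact m1 | exact m2 | exact m3 | exact m4
    · rw [hy1]
      repeat' apply mul_mem
      all_goals first | exact m0 | exact m1 | exact m2 | exact m3 | exact m4
    · rw [hy2]
      repeat' apply mul_mem
      all_goals first | exact m0 | exact m1 | exact m2 | exact m3 | exact m4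
    · rw [hy3]
      repeat' apply mul_mem
      all_goals first | exact m0 | exact m1 | exact m2 | exact m3 | exact m4
    · rw [hy4]
      repeat' apply mul_mem
      all_goals first | exact m0 | exact m1 | exact m2 | exact m3 | exact m4

/-- The case of the prime three. -/
theorem case_three {Γ : Type} [Group Γ] [Finite Γ] {σ : Γ →* RG} (hσ : IsStemExtension σ)
    (hK : Nat.card σ.ker = 3) : False :=
  three_core hσ hK N_g N_gi N_t N_y N_e N_v0 N_v1 N_v2 N_v3 N_v4 N_U_X561 N_U_X672 rfl rfl rfl rfl rfl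
    r0 r1 r2 r3 r4 r5 r6 r7 r8 r9 r10 r11 r12 r13 r14 r15 r16 r17 r18 r19 r20 r21 r22 r23
    is_U_X381 is_U_X561 is_U_X672

end three

end Cfsg.Agent.Lib.LyMultE
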