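import Mathlib
import Cfsg.Agent.Lib.LyMultC
import Cfsg.Agent.Lib.LyMultE
import Cfsg.Agent.Lib.LyDce.VRep
import Cfsg.Agent.TcData.Ly.Syl.CarQ1
import Cfsg.Agent.S2100

/-!
# The multiplier of the presented Lyons group is trivial
-/

set_option autoImplicit false
set_option linter.all false
set_option maxRecDepth 100000
set_option maxHeartbeats 0

namespace Cfsg.Agent.Lib.LyMultF

open Subgroup Cfsg Cfsg.Agent.Lib.SchurStem Cfsg.Agent.Lib.LyMultA Cfsg.Agent.Lib.LyMultB Cfsg.Agent.Lib.LyDce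
  Cfsg.Spor.Ly Cfsg.Agent.Lib.LyV111 Cfsg.Agent.Lib.FpVec Cfsg.Agent.Lib.LyMultE
open scoped commutatorElement

section two

open Cfsg.Agent.TcData.Ly.Syl.CarP

theorem rep_inj {g g' : RG} {X : List ℕ} (h : Rep g X) (h' : Rep g' X) : g = g' :=
  rho_inj (Units.ext (h.2.trans h'.2.symm))

theorem rep_t : Rep (PresentedGroup.of Gen.a * (PresentedGroup.of Gen.d)⁻¹) X10 :=
  Rep.mul7 (Rep.letter .a rfl) (Rep.letterI .d rfl) (by decide +kernel) X10_0 X10_16 X10_32 X10_48 X10_64 X10_80 X10_96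

theorem car_rel (gh gs gt : RG) (hh : Rep gh X24) (hs : Rep gs X33) (ht : Rep gt X10) :
    gh * gt = gt * gh ∧ gs * gt = gt * gs ∧ gh ^ 9 = 1 ∧ gs ^ 3 = 1 ∧
      (gs * (gh ^ 1 * gs * (gh ^ 1)⁻¹)) ^ 2 = gt ∧ (gs * (gh ^ 2 * gs * (gh ^ 2)⁻¹)) ^ 2 = gt ∧
      (gs * (gh ^ 3 * gs * (gh ^ 3)⁻¹)) ^ 2 = gt ∧ (gs * (gh ^ 4 * gs * (gh ^ 4)⁻¹)) ^ 2 = gt := by
  have ri : Rep gh⁻¹ X34 := Rep.inv7 hh X34_len X34_0 X34_16 X34_32 X34_48 X34_64 X34_80 X34_96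
  have r0 : Rep gs X33 := hs
  have ra1 : Rep (gh * (gs)) X35 := Rep.mul7 hh r0 X35_len X35_0 X35_16 X35_32 X35_48 X35_64 X35_80 X35_96
  have r1 : Rep (gh * (gs) * gh⁻¹) X36 := Rep.mul7 ra1 ri X36_len X36_0 X36_16 X36_32 X36_48 X36_64 X36_80 X36_96
  have ra2 : Rep (gh * (gh * (gs) * gh⁻¹)) X37 := Rep.mul7 hh r1 X37_len X37_0 X37_16 X37_32 X37_48 X37_64 X37_80 X37_96
  have r2 : Rep (gh * (gh * (gs) * gh⁻¹) * gh⁻¹) X38 := Rep.mul7 ra2 ri X38_len X38_0 X38_16 X38_32 X38_48 X38_64 X38_80 X38_96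
  have ra3 : Rep (gh * (gh * (gh * (gs) * gh⁻¹) * gh⁻¹)) X39 := Rep.mul7 hh r2 X39_len X39_0 X39_16 X39_32 X39_48 X39_64 X39_80 X39_96
  have r3 : Rep (gh * (gh * (gh * (gs) * gh⁻¹) * gh⁻¹) * gh⁻¹) X40 := Rep.mul7 ra3 ri X40_len X40_0 X40_16 X40_32 X40_48 X40_64 X40_80 X40_96
  have ra4 : Rep (gh * (gh * (gh * (gh * (gs) * gh⁻¹) * gh⁻¹) * gh⁻¹)) X41 := Rep.mul7 hh r3 X41_len X41_0 X41_16 X41_32 X41_48 X41_64 X41_80 X41_96
  have r4 : Rep (gh * (gh * (gh * (gh * (gs) * gh⁻¹) * gh⁻¹) * gh⁻¹) * gh⁻¹) X42 := Rep.mul7 ra4 ri X42_len X42_0 X42_16 X42_32 X42_48 X42_64 X42_80 X42_96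
  have p1 : Rep (gs * (gh * (gs) * gh⁻¹)) X43 := Rep.mul7 hs r1 X43_len X43_0 X43_16 X43_32 X43_48 X43_64 X43_80 X43_96
  have pp1 : Rep (gs * (gh * (gs) * gh⁻¹) * (gs * (gh * (gs) * gh⁻¹))) X10 := Rep.mul7 p1 p1 (by decide +kernel) C0_0 C0_16 C0_32 C0_48 C0_64 C0_80 C0_96
  have e1 := rep_inj pp1 ht
  have p2 : Rep (gs * (gh * (gh * (gs) * gh⁻¹) * gh⁻¹)) X44 := Rep.mul7 hs r2 X44_len X44_0 X44_16 X44_32 X44_48 X44_64 X44_80 X44_96
  have pp2 : Rep (gs * (gh * (gh * (gs) * gh⁻¹) * gh⁻¹) * (gs * (gh * (gh * (gs) * gh⁻¹) * gh⁻¹))) X10 := Rep.mul7 p2 p2 (by decide +kernel) C1_0 C1_16 C1_32 C1_48 C1_64 C1_80 C1_96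
  have e2 := rep_inj pp2 ht
  have p3 : Rep (gs * (gh * (gh * (gh * (gs) * gh⁻¹) * gh⁻¹) * gh⁻¹)) X45 := Rep.mul7 hs r3 X45_len X45_0 X45_16 X45_32 X45_48 X45_64 X45_80 X45_96
  have pp3 : Rep (gs * (gh * (gh * (gh * (gs) * gh⁻¹) * gh⁻¹) * gh⁻¹) * (gs * (gh * (gh * (gh * (gs) * gh⁻¹) * gh⁻¹) * gh⁻¹))) X10 := Rep.mul7 p3 p3 (by decide +kernel) C2_0 C2_16 C2_32 C2_48 C2_64 C2_80 C2_96
  have e3 := rep_inj pp3 ht
  have p4 : Rep (gs * (gh * (gh * (gh * (gh * (gs) * gh⁻¹) * gh⁻¹) * gh⁻¹) * gh⁻¹)) X46 := Rep.mul7 hs r4 X46_len X46_0 X46_16 X46_32 X46_48 X46_64 X46_80 X46_96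
  have pp4 : Rep (gs * (gh * (gh * (gh * (gh * (gs) * gh⁻¹) * gh⁻¹) * gh⁻¹) * gh⁻¹) * (gs * (gh * (gh * (gh * (gh * (gs) * gh⁻¹) * gh⁻¹) * gh⁻¹) * gh⁻¹))) X10 := Rep.mul7 p4 p4 (by decide +kernel) C3_0 C3_16 C3_32 C3_48 C3_64 C3_80 C3_96
  have e4 := rep_inj pp4 ht
  have q1 : Rep (gs * gs) X47 := Rep.mul7 hs hs X47_len X47_0 X47_16 X47_32 X47_48 X47_64 X47_80 X47_96
  have q2 : Rep (gs * gs * gs) (idL 2048 111) := Rep.mul7 q1 hs (by simp [idL]) C4_0 C4_16 C4_32 C4_48 C4_64 C4_80 C4_96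
  have e5 := rep_inj q2 Rep.one
  have th : Rep (gt * gh) X48 := Rep.mul7 ht hh X48_len X48_0 X48_16 X48_32 X48_48 X48_64 X48_80 X48_96
  have ht2 : Rep (gh * gt) X48 := Rep.mul7 hh ht X48_len C5_0 C5_16 C5_32 C5_48 C5_64 C5_80 C5_96
  have e6 := rep_inj ht2 th
  have ts : Rep (gt * gs) X49 := Rep.mul7 ht hs X49_len X49_0 X49_16 X49_32 X49_48 X49_64 X49_80 X49_96
  have st2 : Rep (gs * gt) X49 := Rep.mul7 hs ht X49_len C6_0 C6_16 C6_32 C6_48 C6_64 C6_80 C6_96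
  have e7 := rep_inj st2 ts
  have h2 : Rep (gh * gh) X50 := Rep.mul7 hh hh X50_len X50_0 X50_16 X50_32 X50_48 X50_64 X50_80 X50_96
  have h4 : Rep (gh * gh * (gh * gh)) X51 := Rep.mul7 h2 h2 X51_len X51_0 X51_16 X51_32 X51_48 X51_64 X51_80 X51_96
  have h8 : Rep (gh * gh * (gh * gh) * (gh * gh * (gh * gh))) X52 := Rep.mul7 h4 h4 X52_len X52_0 X52_16 X52_32 X52_48 X52_64 X52_80 X52_96
  have h9 : Rep (gh * gh * (gh * gh) * (gh * gh * (gh * gh)) * gh) (idL 2048 111) := Rep.mul7 h8 hh (by simp [idL]) C7_0 C7_16 C7_32 C7_48 C7_64 C7_80 C7_96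
  have e8 := rep_inj h9 Rep.one
  refine ⟨e6, e7, ?_, ?_, ?_, ?_, ?_, ?_⟩
  · rw [← e8]
    simp only [pow_succ, pow_zero, one_mul]
    group
  · rw [← e5]
    simp only [pow_succ, pow_zero, one_mul]
  · rw [← e1, sq]
    congr 2 <;> simp only [pow_succ, pow_zero, one_mul] <;> group
  · rw [← e2, sq]
    congr 2 <;> simp only [pow_succ, pow_zero, one_mul] <;> group
  · rw [← e3, sq]
    congr 2 <;> simp only [pow_succ, pow_zero, one_mul] <;> group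
  · rw [← e4, sq]
    congr 2 <;> simp only [pow_succ, pow_zero, one_mul] <;> group

theorem tt_0 : ∀ i, i < 16 → WP [X10, X10] [] (i + 0) := by decide +kernel

theorem tt_16 : ∀ i, i < 16 → WP [X10, X10] [] (i + 16) := by decide +kernel

theorem tt_32 : ∀ i, i < 16 → WP [X10, X10] [] (i + 32) := by decide +kernel

theorem tt_48 : ∀ i, i < 16 → WP [X10, X10] [] (i + 48) := by decide +kernel

theorem tt_64 : ∀ i, i < 16 → WP [X10, X10] [] (i + 64) := by decide +kernel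

theorem tt_80 : ∀ i, i < 16 → WP [X10, X10] [] (i + 80) := by decide +kernel

theorem tt_96 : ∀ i, i < 15 → WP [X10, X10] [] (i + 96) := by decide +kernel

theorem t_sq : (PresentedGroup.of Gen.a * (PresentedGroup.of Gen.d)⁻¹ : RG) ^ 2 = 1 := by
  have h := word_eq (gs := [(PresentedGroup.of Gen.a * (PresentedGroup.of Gen.d)⁻¹ : RG), (PresentedGroup.of Gen.a * (PresentedGroup.of Gen.d)⁻¹ : RG)])
    (hs := []) (Ls := [X10, X10]) (Ms := []) (.cons rep_t (.cons rep_t .nil)) .nil tt_0 tt_16 tt_32 tt_48 tt_64 tt_80 tt_96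
  have h2 := rho_inj h
  simpa [sq] using h2

/-- The case of the prime two. -/
theorem case_two {Γ : Type} [Group Γ] [Finite Γ] {σ : Γ →* RG} (hσ : IsStemExtension σ)
    (hK : Nat.card σ.ker = 2) : False := by
  obtain ⟨gh, hh⟩ := Rep.of_img X24_img
  obtain ⟨gs, hs⟩ := Rep.of_img X33_img
  obtain ⟨a1, a2, a3, a4, a5, a6, a7, a8⟩ := car_rel gh gs _ hh hs rep_t
  have hcardG : Nat.card RG = 51765179004000000 := card_G
  have ht2 : (PresentedGroup.of Gen.a * (PresentedGroup.of Gen.d)⁻¹ : RG) ^ 2 = 1 := t_sq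
  have ht1 : (PresentedGroup.of Gen.a * (PresentedGroup.of Gen.d)⁻¹ : RG) ≠ 1 :=
    Is_ne_one rep_t 5 0 (by decide) (by decide +kernel)
  exact Cfsg.Agent.Lib.LyMultC.false_of_two_car hσ hK ht2 ht1 a1 a2 a3 a4 a5 a6 a7 a8 (by rw [hcardG]; norm_num)

end two

/-- The multiplier is trivial. -/
theorem ker_eq_bot (Γ : Type) [Group Γ] [Finite Γ] (σ : Γ →* Cfsg.Spor.Ly) (hσ : IsStemExtension σ) : σ.ker = ⊥ := by
  by_contra hne
  obtain ⟨p, hp, Γ₁, _, _, σ₁, hst, hcard⟩ := exists_prime_stem hσ hne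
  have hcardG : Nat.card RG = 51765179004000000 := card_G
  have hfin : Finite ↥σ₁.ker := inferInstance
  -- `p` divides the order
  have hdvd : p ∣ 51765179004000000 := by
    haveI := Fact.mk hp
    have hnt : Nontrivial ↥σ₁.ker := by
      apply Finite.one_lt_card_iff_nontrivial.1
      rw [hcard]
      exact hp.one_lt
    obtain ⟨k, hk⟩ := exists_ne (1 : ↥σ₁.ker)
    have h1 := pow_index_eq_one hst (⊥ : Subgroup RG) (by
      intro x hx y hy
      exact (Subgroup.mem_center_iff.mp (hst.2.1 hy) x)) k.2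
    have h2 : (⊥ : Subgroup RG).index = 51765179004000000 := by
      rw [Subgroup.index_bot, hcardG]
    rw [h2] at h1
    have h3 : k ^ 51765179004000000 = 1 := Subtype.ext h1
    have h4 : orderOf k = p := by
      have h5 : k ^ p = 1 := by
        have := pow_card_eq_one' (x := k)
        rwa [hcard] at this
      exact orderOf_eq_prime h5 hk
    rw [← h4]
    exact orderOf_dvd_of_pow_eq_one h3
  have hfac : (51765179004000000 : ℕ) = 2 ^ 8 * 3 ^ 7 * 5 ^ 6 * 7 * 11 * 31 * 37 * 67 := by norm_num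
  rw [hfac] at hdvd
  have hcases : p = 2 ∨ p = 3 ∨ p = 5 ∨ p = 7 ∨ p = 11 ∨ p = 31 ∨ p = 37 ∨ p = 67 := by
    have pr : ∀ {q : ℕ}, q.Prime → p ∣ q → p = q := fun hq h => (Nat.prime_dvd_prime_iff_eq hp hq).1 h
    rcases (Nat.Prime.dvd_mul hp).1 hdvd with h | h
    · rcases (Nat.Prime.dvd_mul hp).1 h with h | h
      · rcases (Nat.Prime.dvd_mul hp).1 h with h | h
        · rcases (Nat.Prime.dvd_mul hp).1 h with h | h
          · rcases (Nat.Prime.dvd_mul hp).1 h with h | h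
            · rcases (Nat.Prime.dvd_mul hp).1 h with h | h
              · rcases (Nat.Prime.dvd_mul hp).1 h with h | h
                · exact Or.inl (pr (by norm_num) (hp.dvd_of_dvd_pow h))
                · exact Or.inr (Or.inl (pr (by norm_num) (hp.dvd_of_dvd_pow h)))
              · exact Or.inr (Or.inr (Or.inl (pr (by norm_num) (hp.dvd_of_dvd_pow h))))
            · exact Or.inr (Or.inr (Or.inr (Or.inl (pr (by norm_num) h))))
          · exact Or.inr (Or.inr (Or.inr (Or.inr (Or.inl (pr (by norm_num) h)))))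
        · exact Or.inr (Or.inr (Or.inr (Or.inr (Or.inr (Or.inl (pr (by norm_num) h))))))
      · exact Or.inr (Or.inr (Or.inr (Or.inr (Or.inr (Or.inr (Or.inl (pr (by norm_num) h)))))))
    · exact Or.inr (Or.inr (Or.inr (Or.inr (Or.inr (Or.inr (Or.inr (pr (by norm_num) h)))))))
  have hcyc : ∀ q : ℕ, p = q → q ∣ 51765179004000000 → ¬ q ^ 2 ∣ 51765179004000000 → False := by
    rintro q rfl h1 h2
    refine false_of_cyclic hst hp hcard ?_ ?_
    · rw [hcardG]; exact h1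
    · rw [hcardG]; exact h2
  rcases hcases with h | h | h | h | h | h | h | h
  · subst h
    exact case_two hst hcard
  · subst h
    exact case_three hst hcard
  · subst h
    -- the subgroup `G₂(5)`
    obtain ⟨e⟩ := Cfsg.Agent.Lib.LyG25.main_iso Cfsg.Agent.Lib.LyV111.a_ne_one
    have hS := Cfsg.Agent.S1055.result (F := Cfsg.Agent.Lib.ChevG25.K) ⟨2, by decide, by decide⟩
    have hM := Cfsg.Agent.S2100.result (F := Cfsg.Agent.Lib.ChevG25.K) (by simp [ZMod.card])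
    haveI hfinL : Finite Cfsg.Agent.Lib.LyG25.GG := Nat.finite_of_card_ne_zero (by rw [Cfsg.Agent.Lib.LyG25.card_GG]; norm_num)
    refine false_of_perfect hst hcard hp HB (perfect_of_equiv e hS.1 hS.2) e hM ?_
    rw [index_eq]
    norm_num
  · exact hcyc 7 h (by norm_num) (by norm_num)
  · exact hcyc 11 h (by norm_num) (by norm_num)
  · exact hcyc 31 h (by norm_num) (by norm_num)
  · exact hcyc 37 h (by norm_num) (by norm_num)
  · exact hcyc 67 h (by norm_num) (by norm_num)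

end Cfsg.Agent.Lib.LyMultF
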