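import Mathlib
import Cfsg.Agent.Lib.M11TabData
import Cfsg.Agent.Lib.SteinerAut
import Cfsg.Agent.S0426
import Cfsg.Agent.Lib.CharInd

/-!
# A concrete model of the Mathieu group of degree 11 and its conjugacy classes
-/

set_option autoImplicit false
set_option maxRecDepth 100000
set_option linter.style.haveILetI false
set_option linter.unusedVariables false
set_option linter.unusedSectionVars false

namespace Cfsg.Agent.Lib.M11TabModel

open Cfsg Cfsg.Agent.Lib.M11TabData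

/-- The subset encoded by a bit mask. -/
def toF (m : ℕ) : Finset (Fin 11) := Finset.univ.filter (fun i => Nat.testBit m i = true)

/-- The concrete Steiner system. -/
def B0 : Set (Finset (Fin 11)) := {b | ∃ m ∈ masks, b = toF m}

theorem check_card : ∀ m ∈ masks, (toF m).card = 5 := by decide +kernel

theorem check_steiner : ∀ s : Finset (Fin 11), s.card = 4 →
    (masks.filter (fun m => decide (∀ x ∈ s, Nat.testBit m x = true))).length = 1 := by
  decide +kernel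

theorem steiner : IsSteinerSystem 4 5 B0 := by
  refine ⟨?_, ?_⟩
  · rintro b ⟨m, hm, rfl⟩
    exact check_card m hm
  · intro s hs
    have h1 := check_steiner s hs
    obtain ⟨m₀, hm₀⟩ := List.length_eq_one_iff.mp h1
    have hmem : ∀ m, m ∈ masks ∧ (∀ x ∈ s, Nat.testBit m x = true) ↔ m = m₀ := by
      intro m
      have h2 : m ∈ masks.filter (fun m => decide (∀ x ∈ s, Nat.testBit m x = true)) ↔ m = m₀ := by
        rw [hm₀]
        simp
      rw [← h2, List.mem_filter]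
      simp
    have hsub : ∀ m, s ⊆ toF m ↔ ∀ x ∈ s, Nat.testBit m x = true := by
      intro m
      simp [toF, Finset.subset_iff]
    obtain ⟨h3, h4⟩ := (hmem m₀).mpr rfl
    refine ⟨toF m₀, ⟨⟨m₀, h3, rfl⟩, (hsub m₀).mpr h4⟩, ?_⟩
    rintro b ⟨⟨m, hm, rfl⟩, hb⟩
    have h5 := (hmem m).mp ⟨hm, (hsub m).mp hb⟩
    rw [h5]

theorem check_img : ∀ b : Bool, ∀ m ∈ masks, ∃ m' ∈ masks, (toF m).image (gen b) = toF m' := by
  decide +kernel

theorem check_img' : ∀ b : Bool, ∀ m ∈ masks, ∃ m' ∈ masks, (toF m').image (gen b) = toF m := by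
  decide +kernel

/-- The concrete group. -/
abbrev M : Type := ↥(setSystemAut B0)

theorem gen_mem (b : Bool) : gen b ∈ setSystemAut B0 := by
  rw [Cfsg.Agent.Lib.SteinerAut.mem_aut_iff]
  ext x
  constructor
  · rintro ⟨y, ⟨m, hm, rfl⟩, rfl⟩
    obtain ⟨m', hm', h⟩ := check_img b m hm
    exact ⟨m', hm', h⟩
  · rintro ⟨m, hm, rfl⟩
    obtain ⟨m', hm', h⟩ := check_img' b m hm
    exact ⟨toF m', ⟨m', hm', rfl⟩, h⟩

theorem evalWord_mem (w : List Bool) : evalWord w ∈ setSystemAut B0 := by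
  induction w with
  | nil => exact Subgroup.one_mem _
  | cons b w ih => exact Subgroup.mul_mem _ (gen_mem b) ih

/-- The element of the group given by a word. -/
def el (w : List Bool) : M := ⟨evalWord w, evalWord_mem w⟩

theorem card_fin11 : Fintype.card (Fin 11) = 11 := by simp

theorem isM11 : IsM11 M := (Cfsg.Agent.S0426.result card_fin11 steiner).1

theorem card_M : Nat.card M = 7920 := isM11.2

theorem sharp (g : M) (h0 : (g : Equiv.Perm (Fin 11)) 0 = 0) (h1 : (g : Equiv.Perm (Fin 11)) 1 = 1)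
    (h2 : (g : Equiv.Perm (Fin 11)) 2 = 2) (h3 : (g : Equiv.Perm (Fin 11)) 3 = 3) : g = 1 := by
  have hs := (Cfsg.Agent.S0426.result card_fin11 steiner).2.2
  let x : Fin 4 ↪ Fin 11 := Fin.castLEEmb (by norm_num)
  have h := hs x
  have hg : g ∈ MulAction.stabilizer (setSystemAut B0) x := by
    rw [MulAction.mem_stabilizer_iff]
    ext i
    fin_cases i
    · show ((g : Equiv.Perm (Fin 11)) 0 : ℕ) = 0
      rw [h0]; rfl
    · show ((g : Equiv.Perm (Fin 11)) 1 : ℕ) = 1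
      rw [h1]; rfl
    · show ((g : Equiv.Perm (Fin 11)) 2 : ℕ) = 2
      rw [h2]; rfl
    · show ((g : Equiv.Perm (Fin 11)) 3 : ℕ) = 3
      rw [h3]; rfl
  rw [h, Subgroup.mem_bot] at hg
  exact hg

theorem iap (f : Equiv.Perm (Fin 11)) (x : Fin 11) : f⁻¹ (f x) = x := by simp

/-! ### Reading off the codes -/

theorem valid1 : ∀ p ∈ L1, ∀ i : Fin 11, ap p.1 i = (evalWord p.2 i : ℕ) := by decide +kernel
theorem valid2 : ∀ p ∈ L2, ∀ i : Fin 11, ap p.1 i = (evalWord p.2 i : ℕ) := by decide +kernel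
theorem valid3 : ∀ p ∈ L3, ∀ i : Fin 11, ap p.1 i = (evalWord p.2 i : ℕ) := by decide +kernel
theorem valid4 : ∀ p ∈ L4, ∀ i : Fin 11, ap p.1 i = (evalWord p.2 i : ℕ) := by decide +kernel
theorem validR : ∀ p ∈ repsL, ∀ i : Fin 11, ap p.1 i = (evalWord p.2 i : ℕ) := by decide +kernel

theorem tr1 : ∀ i : Fin 11, ∃ p ∈ L1, ap p.1 0 = i := by decide +kernel
theorem tr2 : ∀ i : Fin 11, (i : ℕ) ≠ 0 → ∃ p ∈ L2, ap p.1 0 = 0 ∧ ap p.1 1 = i := by decide +kernel
theorem tr3 : ∀ i : Fin 11, (i : ℕ) ≠ 0 → (i : ℕ) ≠ 1 →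
    ∃ p ∈ L3, ap p.1 0 = 0 ∧ ap p.1 1 = 1 ∧ ap p.1 2 = i := by decide +kernel
theorem tr4 : ∀ i : Fin 11, (i : ℕ) ≠ 0 → (i : ℕ) ≠ 1 → (i : ℕ) ≠ 2 →
    ∃ p ∈ L4, ap p.1 0 = 0 ∧ ap p.1 1 = 1 ∧ ap p.1 2 = 2 ∧ ap p.1 3 = i := by decide +kernel

/-- Index tuples. -/
abbrev X : Type := (ℕ × List Bool) × (ℕ × List Bool) × (ℕ × List Bool) × (ℕ × List Bool)

/-- All index tuples. -/
def allB : List X := L1.product (L2.product (L3.product L4))

theorem len_allB : allB.length = 7920 := by decide +kernel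

/-- The element given by an index tuple. -/
def dec (x : X) : M := el x.1.2 * el x.2.1.2 * el x.2.2.1.2 * el x.2.2.2.2

theorem el_apply (w : List Bool) (i : Fin 11) : ((el w : M) : Equiv.Perm (Fin 11)) i = evalWord w i :=
  rfl

theorem surj (g : M) : ∃ x ∈ allB, dec x = g := by
  have hval : ∀ (p : ℕ × List Bool) (v : ∀ i : Fin 11, ap p.1 i = (evalWord p.2 i : ℕ)) (n : ℕ)
      (i : Fin 11), (i : ℕ) = n → (evalWord p.2 i : ℕ) = ap p.1 n := by
    intro p v n i h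
    rw [← h, v]
  -- first step
  obtain ⟨a, ha, ha'⟩ := tr1 ((g : Equiv.Perm (Fin 11)) 0)
  have ha0 : evalWord a.2 0 = (g : Equiv.Perm (Fin 11)) 0 := by
    apply Fin.ext
    rw [hval a (valid1 a ha) 0 0 rfl, ha']
  let g1 : M := (el a.2)⁻¹ * g
  have hg1 : ∀ i, ((g1 : M) : Equiv.Perm (Fin 11)) i = (evalWord a.2)⁻¹ ((g : Equiv.Perm (Fin 11)) i) :=
    fun i => rfl
  have hg10 : (g1 : Equiv.Perm (Fin 11)) 0 = 0 := by
    rw [hg1, ← ha0, iap]
  have hg1ne : (((g1 : Equiv.Perm (Fin 11)) 1 : Fin 11) : ℕ) ≠ 0 := by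
    intro h
    have h2 : (g1 : Equiv.Perm (Fin 11)) 1 = (g1 : Equiv.Perm (Fin 11)) 0 := by
      rw [hg10]
      exact Fin.ext h
    exact absurd ((g1 : Equiv.Perm (Fin 11)).injective h2) (by decide)
  obtain ⟨b, hb, hb0, hb1⟩ := tr2 _ hg1ne
  have hb0' : evalWord b.2 0 = 0 := Fin.ext (by rw [hval b (valid2 b hb) 0 0 rfl, hb0]; rfl)
  have hb1' : evalWord b.2 1 = (g1 : Equiv.Perm (Fin 11)) 1 :=
    Fin.ext (by rw [hval b (valid2 b hb) 1 1 rfl, hb1])
  let g2 : M := (el b.2)⁻¹ * g1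
  have hg2 : ∀ i, ((g2 : M) : Equiv.Perm (Fin 11)) i = (evalWord b.2)⁻¹ ((g1 : Equiv.Perm (Fin 11)) i) :=
    fun i => rfl
  have hg20 : (g2 : Equiv.Perm (Fin 11)) 0 = 0 := by
    rw [hg2, hg10]
    nth_rewrite 1 [← hb0']
    rw [iap]
  have hg21 : (g2 : Equiv.Perm (Fin 11)) 1 = 1 := by
    rw [hg2, ← hb1', iap]
  have hg2ne0 : (((g2 : Equiv.Perm (Fin 11)) 2 : Fin 11) : ℕ) ≠ 0 := by
    intro h
    have h2 : (g2 : Equiv.Perm (Fin 11)) 2 = (g2 : Equiv.Perm (Fin 11)) 0 := by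
      rw [hg20]
      exact Fin.ext h
    exact absurd ((g2 : Equiv.Perm (Fin 11)).injective h2) (by decide)
  have hg2ne1 : (((g2 : Equiv.Perm (Fin 11)) 2 : Fin 11) : ℕ) ≠ 1 := by
    intro h
    have h2 : (g2 : Equiv.Perm (Fin 11)) 2 = (g2 : Equiv.Perm (Fin 11)) 1 := by
      rw [hg21]
      exact Fin.ext h
    exact absurd ((g2 : Equiv.Perm (Fin 11)).injective h2) (by decide)
  obtain ⟨c, hc, hc0, hc1, hc2⟩ := tr3 _ hg2ne0 hg2ne1
  have hc0' : evalWord c.2 0 = 0 := Fin.ext (by rw [hval c (valid3 c hc) 0 0 rfl, hc0]; rfl)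
  have hc1' : evalWord c.2 1 = 1 := Fin.ext (by rw [hval c (valid3 c hc) 1 1 rfl, hc1]; rfl)
  have hc2' : evalWord c.2 2 = (g2 : Equiv.Perm (Fin 11)) 2 :=
    Fin.ext (by rw [hval c (valid3 c hc) 2 2 rfl, hc2])
  let g3 : M := (el c.2)⁻¹ * g2
  have hg3 : ∀ i, ((g3 : M) : Equiv.Perm (Fin 11)) i = (evalWord c.2)⁻¹ ((g2 : Equiv.Perm (Fin 11)) i) :=
    fun i => rfl
  have hg30 : (g3 : Equiv.Perm (Fin 11)) 0 = 0 := by
    rw [hg3, hg20]
    nth_rewrite 1 [← hc0']
    rw [iap]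
  have hg31 : (g3 : Equiv.Perm (Fin 11)) 1 = 1 := by
    rw [hg3, hg21]
    nth_rewrite 1 [← hc1']
    rw [iap]
  have hg32 : (g3 : Equiv.Perm (Fin 11)) 2 = 2 := by
    rw [hg3, ← hc2', iap]
  have hg3ne : ∀ j : Fin 11, j = 0 ∨ j = 1 ∨ j = 2 → (g3 : Equiv.Perm (Fin 11)) 3 ≠ j := by
    rintro j (rfl | rfl | rfl) h
    · exact absurd ((g3 : Equiv.Perm (Fin 11)).injective (h.trans hg30.symm)) (by decide)
    · exact absurd ((g3 : Equiv.Perm (Fin 11)).injective (h.trans hg31.symm)) (by decide)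
    · exact absurd ((g3 : Equiv.Perm (Fin 11)).injective (h.trans hg32.symm)) (by decide)
  have hg3ne0 : (((g3 : Equiv.Perm (Fin 11)) 3 : Fin 11) : ℕ) ≠ 0 :=
    fun h => hg3ne 0 (Or.inl rfl) (Fin.ext h)
  have hg3ne1 : (((g3 : Equiv.Perm (Fin 11)) 3 : Fin 11) : ℕ) ≠ 1 :=
    fun h => hg3ne 1 (Or.inr (Or.inl rfl)) (Fin.ext h)
  have hg3ne2 : (((g3 : Equiv.Perm (Fin 11)) 3 : Fin 11) : ℕ) ≠ 2 :=
    fun h => hg3ne 2 (Or.inr (Or.inr rfl)) (Fin.ext h)
  obtain ⟨d, hd, hd0, hd1, hd2, hd3⟩ := tr4 _ hg3ne0 hg3ne1 hg3ne2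
  have hd0' : evalWord d.2 0 = 0 := Fin.ext (by rw [hval d (valid4 d hd) 0 0 rfl, hd0]; rfl)
  have hd1' : evalWord d.2 1 = 1 := Fin.ext (by rw [hval d (valid4 d hd) 1 1 rfl, hd1]; rfl)
  have hd2' : evalWord d.2 2 = 2 := Fin.ext (by rw [hval d (valid4 d hd) 2 2 rfl, hd2]; rfl)
  have hd3' : evalWord d.2 3 = (g3 : Equiv.Perm (Fin 11)) 3 :=
    Fin.ext (by rw [hval d (valid4 d hd) 3 3 rfl, hd3])
  let g4 : M := (el d.2)⁻¹ * g3
  have hg4 : ∀ i, ((g4 : M) : Equiv.Perm (Fin 11)) i = (evalWord d.2)⁻¹ ((g3 : Equiv.Perm (Fin 11)) i) :=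
    fun i => rfl
  have hg4one : g4 = 1 := by
    apply sharp
    · rw [hg4, hg30]
      nth_rewrite 1 [← hd0']
      rw [iap]
    · rw [hg4, hg31]
      nth_rewrite 1 [← hd1']
      rw [iap]
    · rw [hg4, hg32]
      nth_rewrite 1 [← hd2']
      rw [iap]
    · rw [hg4, ← hd3', iap]
  have hg3eq : g3 = el d.2 := by
    have : (el d.2)⁻¹ * g3 = 1 := hg4one
    exact (inv_mul_eq_one.mp this).symm
  have hg2eq : g2 = el c.2 * g3 := by
    show g2 = el c.2 * ((el c.2)⁻¹ * g2)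
    group
  have hg1eq : g1 = el b.2 * g2 := by
    show g1 = el b.2 * ((el b.2)⁻¹ * g1)
    group
  have hgeq : g = el a.2 * g1 := by
    show g = el a.2 * ((el a.2)⁻¹ * g)
    group
  refine ⟨(a, b, c, d), ?_, ?_⟩
  · exact List.mem_product.mpr ⟨ha, List.mem_product.mpr ⟨hb, List.mem_product.mpr ⟨hc, hd⟩⟩⟩
  · show el a.2 * el b.2 * el c.2 * el d.2 = g
    rw [hgeq, hg1eq, hg2eq, hg3eq]
    group

/-- The list of all elements. -/
def allM : List M := allB.map dec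

theorem mem_allM (g : M) : g ∈ allM := by
  obtain ⟨x, hx, rfl⟩ := surj g
  exact List.mem_map.mpr ⟨x, hx, rfl⟩

theorem nodup_allM : allM.Nodup := by
  classical
  have h2 : allM.length = 7920 := by
    rw [allM, List.length_map, len_allB]
  have h3 : allM.toFinset = Finset.univ := by
    ext g
    simp [mem_allM g]
  have h4 : allM.toFinset.card = allM.dedup.length := List.card_toFinset _
  rw [h3, Finset.card_univ, ← Nat.card_eq_fintype_card, card_M] at h4
  have h5 : allM.dedup = allM := List.Sublist.eq_of_length (List.dedup_sublist allM) (by omega)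
  rw [← h5]
  exact List.nodup_dedup allM

/-- Counting on the list. -/
theorem card_pred (P : M → Prop) (t : X → Bool) (ht : ∀ x ∈ allB, t x = true ↔ P (dec x)) :
    Nat.card {g : M // P g} = (allB.filter t).length := by
  classical
  have h1 : (allM.filter (fun g => decide (P g))).length = Nat.card {g : M // P g} := by
    rw [Nat.card_eq_fintype_card, Fintype.card_subtype]
    have h2 : (allM.filter (fun g => decide (P g))).Nodup := nodup_allM.filter _
    rw [← List.toFinset_card_of_nodup h2]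
    congr 1
    ext g
    simp [mem_allM g]
  rw [← h1, allM, List.filter_map, List.length_map]
  congr 1
  apply List.filter_congr
  intro x hx
  simp only [Function.comp]
  by_cases h : P (dec x)
  · rw [(ht x hx).mpr h]
    simp [h]
  · have h3 : t x ≠ true := fun h4 => h ((ht x hx).mp h4)
    simp [h, h3]

/-! ### The test -/

/-- The value of an index tuple at a point. -/
def appAll (x : X) (i : ℕ) : ℕ := ap x.1.1 (ap x.2.1.1 (ap x.2.2.1.1 (ap x.2.2.2.1 i)))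

/-- The range. -/
def rng : List ℕ := [0, 1, 2, 3, 4, 5, 6, 7, 8, 9, 10]

/-- The intertwining test. -/
def tt (rn sn : ℕ) (x : X) : Bool :=
  rng.all (fun i => Nat.beq (appAll x (ap rn i)) (ap sn (appAll x i)))

theorem appAll_eq (x : X) (hx : x ∈ allB) (i : Fin 11) :
    appAll x i = (((dec x : M) : Equiv.Perm (Fin 11)) i : ℕ) := by
  obtain ⟨ha, hx'⟩ := List.mem_product.mp hx
  obtain ⟨hb, hx''⟩ := List.mem_product.mp hx'
  obtain ⟨hc, hd⟩ := List.mem_product.mp hx''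
  unfold appAll
  rw [valid4 _ hd i, valid3 _ hc, valid2 _ hb, valid1 _ ha]
  rfl

theorem rng_mem (i : Fin 11) : (i : ℕ) ∈ rng := by
  revert i
  decide

theorem tt_iff (r s : M) (rn sn : ℕ) (hr : ∀ i : Fin 11, ap rn i = ((r : Equiv.Perm (Fin 11)) i : ℕ))
    (hs : ∀ i : Fin 11, ap sn i = ((s : Equiv.Perm (Fin 11)) i : ℕ)) (x : X) (hx : x ∈ allB) :
    tt rn sn x = true ↔ dec x * r = s * dec x := by
  unfold tt
  rw [List.all_eq_true]
  have hlt : ∀ i ∈ rng, i < 11 := by decide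
  constructor
  · intro h
    apply Subtype.ext
    ext i
    have h1 := Nat.eq_of_beq_eq_true (h i (rng_mem i))
    rw [hr i] at h1
    rw [appAll_eq x hx, appAll_eq x hx, hs] at h1
    exact h1
  · intro h i hi
    have hi' := hlt i hi
    let j : Fin 11 := ⟨i, hi'⟩
    have h1 : appAll x (ap rn j) = ap sn (appAll x j) := by
      rw [hr j]
      rw [appAll_eq x hx, appAll_eq x hx, hs]
      have h2 := congrArg (fun g : M => ((g : Equiv.Perm (Fin 11)) j : ℕ)) h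
      exact h2
    have h3 : appAll x (ap rn i) = ap sn (appAll x i) := h1
    rw [h3]
    exact Nat.beq_refl _

theorem card_inter (r s : M) (rn sn : ℕ) (hr : ∀ i : Fin 11, ap rn i = ((r : Equiv.Perm (Fin 11)) i : ℕ))
    (hs : ∀ i : Fin 11, ap sn i = ((s : Equiv.Perm (Fin 11)) i : ℕ)) :
    Nat.card {g : M // g * r = s * g} = (allB.filter (tt rn sn)).length :=
  card_pred (fun g => g * r = s * g) (tt rn sn) (fun x hx => tt_iff r s rn sn hr hs x hx)

end Cfsg.Agent.Lib.M11TabModel
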