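import Mathlib
import Cfsg.Agent.Lib.M11TabModel
import Cfsg.Agent.Lib.PermChar
import Cfsg.Agent.Lib.GenChar

/-!
# The conjugacy classes of the concrete Mathieu group of degree 11
-/

set_option autoImplicit false
set_option maxRecDepth 100000
set_option linter.style.haveILetI false
set_option linter.unusedVariables false
set_option linter.unusedSectionVars false

namespace Cfsg.Agent.Lib.M11TabClasses

open Cfsg Cfsg.Agent.Lib.M11TabData Cfsg.Agent.Lib.M11TabModel

noncomputable instance fintypeM : Fintype M := Fintype.ofFinite M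

/-- Words of the representatives. -/
def repW (i : Fin 10) : List Bool := (repsL.getD i (0, [])).2

/-- Codes of the representatives. -/
def repN (i : Fin 10) : ℕ := (repsL.getD i (0, [])).1

/-- The representatives. -/
def r (i : Fin 10) : M := el (repW i)

/-- Orders of the centralizers. -/
def cc : Fin 10 → ℕ := ![7920, 48, 18, 8, 5, 6, 8, 8, 11, 11]

/-- Sizes of the classes. -/
def cs : Fin 10 → ℕ := ![1, 165, 440, 990, 1584, 1320, 990, 990, 720, 720]

theorem hcode : ∀ (i : Fin 10) (j : Fin 11), ap (repN i) j = (evalWord (repW i) j : ℕ) := by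
  decide +kernel

theorem counts : ∀ i : Fin 10, (allB.filter (tt (repN i) (repN i))).length = cc i := by
  decide +kernel

theorem noconj : (allB.filter (tt (repN 6) (repN 7))).length = 0 ∧
    (allB.filter (tt (repN 8) (repN 9))).length = 0 := by
  decide +kernel

theorem card_cent (i : Fin 10) :
    Nat.card (Subgroup.centralizer ({r i} : Set M)) = cc i := by
  rw [← counts i, ← card_inter (r i) (r i) (repN i) (repN i) (hcode i) (hcode i)]
  refine Nat.card_congr (Equiv.subtypeEquivRight fun g => ?_)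
  rw [Subgroup.mem_centralizer_singleton_iff]

/-- Fixed points. -/
def fixN (g : Equiv.Perm (Fin 11)) : ℕ := (Finset.univ.filter (fun i => g i = i)).card

theorem fixN_conj (g c : Equiv.Perm (Fin 11)) : fixN (c * g * c⁻¹) = fixN g := by
  unfold fixN
  refine Finset.card_bij' (fun i _ => c⁻¹ i) (fun i _ => c i) ?_ ?_ ?_ ?_
  · intro i hi
    have hi' : (c * g * c⁻¹) i = i := (Finset.mem_filter.mp hi).2
    have h1 : c (g (c⁻¹ i)) = i := hi'
    refine Finset.mem_filter.mpr ⟨Finset.mem_univ _, ?_⟩
    apply c.injective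
    rw [h1]
    exact (show c (c⁻¹ i) = i from by simp).symm
  · intro i hi
    have hi' : g i = i := (Finset.mem_filter.mp hi).2
    refine Finset.mem_filter.mpr ⟨Finset.mem_univ _, ?_⟩
    show c (g (c⁻¹ (c i))) = c i
    rw [show c⁻¹ (c i) = i from by simp, hi']
  · intro i _
    simp
  · intro i _
    simp

theorem inv_ne : ∀ i j : Fin 10, i ≠ j → ¬ (i = 6 ∧ j = 7) → ¬ (i = 7 ∧ j = 6) →
    ¬ (i = 8 ∧ j = 9) → ¬ (i = 9 ∧ j = 8) →
    (fixN (evalWord (repW i)), fixN (evalWord (repW i) ^ 2)) ≠
      (fixN (evalWord (repW j)), fixN (evalWord (repW j) ^ 2)) := by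
  decide +kernel

theorem not_conj {i j : Fin 10} (hij : i ≠ j) : ¬ IsConj (r i) (r j) := by
  intro hc
  have hc' := hc
  rw [isConj_iff] at hc
  obtain ⟨c, hc⟩ := hc
  have hperm : (c : Equiv.Perm (Fin 11)) * evalWord (repW i) * (c : Equiv.Perm (Fin 11))⁻¹ =
      evalWord (repW j) := congrArg Subtype.val hc
  have hinter : c * r i = r j * c := by
    rw [← hc]
    group
  have hno : ∀ a b : Fin 10, (allB.filter (tt (repN a) (repN b))).length = 0 →
      ∀ c : M, ¬ (c * r a = r b * c) := by
    intro a b hab c hcc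
    rw [← card_inter (r a) (r b) (repN a) (repN b) (hcode a) (hcode b)] at hab
    have h1 : IsEmpty {g : M // g * r a = r b * g} := Finite.card_eq_zero_iff.mp hab
    exact h1.false ⟨c, hcc⟩
  by_cases h67 : i = 6 ∧ j = 7
  · rw [h67.1, h67.2] at hinter
    exact hno 6 7 noconj.1 c hinter
  by_cases h76 : i = 7 ∧ j = 6
  · have h1 : c⁻¹ * r 6 = r 7 * c⁻¹ := by
      rw [h76.1, h76.2] at hinter
      calc c⁻¹ * r 6 = c⁻¹ * (r 6 * c) * c⁻¹ := by group
        _ = c⁻¹ * (c * r 7) * c⁻¹ := by rw [hinter]
        _ = r 7 * c⁻¹ := by group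
    exact hno 6 7 noconj.1 c⁻¹ h1
  by_cases h89 : i = 8 ∧ j = 9
  · rw [h89.1, h89.2] at hinter
    exact hno 8 9 noconj.2 c hinter
  by_cases h98 : i = 9 ∧ j = 8
  · have h1 : c⁻¹ * r 8 = r 9 * c⁻¹ := by
      rw [h98.1, h98.2] at hinter
      calc c⁻¹ * r 8 = c⁻¹ * (r 8 * c) * c⁻¹ := by group
        _ = c⁻¹ * (c * r 9) * c⁻¹ := by rw [hinter]
        _ = r 9 * c⁻¹ := by group
    exact hno 8 9 noconj.2 c⁻¹ h1
  apply inv_ne i j hij h67 h76 h89 h98
  rw [← hperm]
  have h1 : ((c : Equiv.Perm (Fin 11)) * evalWord (repW i) * (c : Equiv.Perm (Fin 11))⁻¹) ^ 2 =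
      (c : Equiv.Perm (Fin 11)) * evalWord (repW i) ^ 2 * (c : Equiv.Perm (Fin 11))⁻¹ := by
    rw [conj_pow]
  rw [h1, fixN_conj, fixN_conj]

theorem cs_mul_cc : ∀ i : Fin 10, cs i * cc i = 7920 := by decide

theorem cc_pos : ∀ i : Fin 10, 0 < cc i := by decide

theorem card_conj (i : Fin 10) : Nat.card {x : M // IsConj (r i) x} = cs i := by
  have h1 := Cfsg.Agent.Lib.CharInd.card_conj_mul_card_centralizer (r i)
  rw [card_cent, card_M] at h1
  exact Nat.eq_of_mul_eq_mul_right (cc_pos i) (h1.trans (cs_mul_cc i).symm)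

theorem exists_conj (g : M) : ∃ i : Fin 10, IsConj (r i) g := by
  classical
  let K : Fin 10 → Finset M := fun i => Finset.univ.filter (fun x => IsConj (r i) x)
  have hK : ∀ i, (K i).card = cs i := by
    intro i
    rw [← card_conj i, Nat.card_eq_fintype_card, Fintype.card_subtype]
  have hdisj : ∀ i ∈ (Finset.univ : Finset (Fin 10)), ∀ j ∈ (Finset.univ : Finset (Fin 10)), i ≠ j →
      Disjoint (K i) (K j) := by
    intro i _ j _ hij
    rw [Finset.disjoint_left]
    intro x hxi hxj
    simp only [K, Finset.mem_filter, Finset.mem_univ, true_and] at hxi hxj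
    exact not_conj hij (hxi.trans hxj.symm)
  have hcard : (Finset.univ.biUnion K).card = 7920 := by
    rw [Finset.card_biUnion hdisj]
    simp only [hK]
    decide
  have huniv : Finset.univ.biUnion K = Finset.univ := by
    apply Finset.eq_univ_of_card
    rw [hcard, ← Nat.card_eq_fintype_card, card_M]
  have hg : g ∈ Finset.univ.biUnion K := by
    rw [huniv]
    exact Finset.mem_univ g
  obtain ⟨i, _, hi⟩ := Finset.mem_biUnion.mp hg
  refine ⟨i, ?_⟩
  simpa [K] using hi

/-- The class of an element. -/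
noncomputable def cl (g : M) : Fin 10 := Classical.choose (exists_conj g)

theorem cl_spec (g : M) : IsConj (r (cl g)) g := Classical.choose_spec (exists_conj g)

theorem cl_eq_of_conj {i : Fin 10} {g : M} (h : IsConj (r i) g) : cl g = i := by
  by_contra hne
  exact not_conj hne ((cl_spec g).trans h.symm)

theorem cl_r (i : Fin 10) : cl (r i) = i := cl_eq_of_conj (IsConj.refl _)

theorem cl_conj (g h : M) : cl (h * g * h⁻¹) = cl g := by
  apply cl_eq_of_conj
  refine (cl_spec g).trans ?_
  rw [isConj_iff]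
  exact ⟨h, rfl⟩

theorem fiber_card (i : Fin 10) : (Finset.univ.filter (fun g : M => cl g = i)).card = cs i := by
  classical
  rw [← card_conj i, Nat.card_eq_fintype_card, Fintype.card_subtype]
  congr 1
  ext g
  simp only [Finset.mem_filter, Finset.mem_univ, true_and]
  constructor
  · rintro rfl
    exact cl_spec g
  · intro h
    exact cl_eq_of_conj h

/-- Sums of class functions. -/
theorem sum_tf (v : Fin 10 → ℂ) : ∑ g : M, v (cl g) = ∑ i, (cs i : ℂ) * v i := by
  classical
  rw [← Finset.sum_fiberwise Finset.univ cl]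
  refine Finset.sum_congr rfl fun i _ => ?_
  have h1 : ∀ g ∈ Finset.univ.filter (fun g : M => cl g = i), v (cl g) = v i := by
    intro g hg
    rw [(Finset.mem_filter.mp hg).2]
  rw [Finset.sum_congr rfl h1, Finset.sum_const, fiber_card, nsmul_eq_mul]

/-- The class function with prescribed values. -/
noncomputable def tf (v : Fin 10 → ℂ) : M → ℂ := fun g => v (cl g)

theorem tf_r (v : Fin 10 → ℂ) (i : Fin 10) : tf v (r i) = v i := by
  simp [tf, cl_r]

theorem tf_isClass (v : Fin 10 → ℂ) : IsClassFunction M (tf v) := by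
  intro g h
  simp [tf, cl_conj]

/-- A class function is determined by its values on representatives. -/
theorem eq_tf {f : M → ℂ} (hf : IsClassFunction M f) {v : Fin 10 → ℂ} (h : ∀ i, f (r i) = v i) :
    f = tf v := by
  funext g
  have h1 := cl_spec g
  rw [isConj_iff] at h1
  obtain ⟨c, hc⟩ := h1
  rw [← hc, hf, h, tf, cl_conj]
  congr 1
  exact (cl_r _).symm

theorem card_conjClasses : Nat.card (ConjClasses M) = 10 := by
  classical
  let f : Fin 10 → ConjClasses M := fun i => ConjClasses.mk (r i)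
  have hf : Function.Bijective f := by
    constructor
    · intro i j hij
      by_contra hne
      exact not_conj hne (ConjClasses.mk_eq_mk_iff_isConj.mp hij)
    · intro c
      obtain ⟨g, rfl⟩ := ConjClasses.mk_surjective c
      exact ⟨cl g, ConjClasses.mk_eq_mk_iff_isConj.mpr (cl_spec g)⟩
  rw [← Nat.card_congr (Equiv.ofBijective f hf)]
  simp

end Cfsg.Agent.Lib.M11TabClasses
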