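import Mathlib
import Cfsg.Agent.Lib.M11TabClasses
import Cfsg.Agent.Lib.BlkBasic
import Cfsg.Agent.Lib.CharInd

/-!
# Permutation characters and characters induced from cyclic subgroups of the concrete group
-/

set_option autoImplicit false
set_option maxRecDepth 100000
set_option linter.style.haveILetI false
set_option linter.unusedVariables false
set_option linter.unusedSectionVars false

namespace Cfsg.Agent.Lib.M11TabPerm

open Cfsg Cfsg.Agent.Lib.M11TabData Cfsg.Agent.Lib.M11TabModel Cfsg.Agent.Lib.M11TabClasses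
open Cfsg.Agent.Lib.CharBasic Cfsg.Agent.Lib.GenChar

/-- The permutation underlying an element. -/
abbrev pp (g : M) : Equiv.Perm (Fin 11) := (g : Equiv.Perm (Fin 11))

/-- The fixed points of an element on a family of subsets. -/
def fixF (F : Finset (Finset (Fin 11))) (g : Equiv.Perm (Fin 11)) : ℕ :=
  (F.filter (fun s => s.image g = s)).card

theorem perm_family (F : Finset (Finset (Fin 11))) (hF : ∀ g : M, ∀ s ∈ F, s.image (pp g) ∈ F) :
    IsCharacter M (fun g => (fixF F (pp g) : ℂ)) := by
  classical
  letI act : MulAction M {s // s ∈ F} :=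
    { smul := fun g s => ⟨s.1.image (pp g), hF g s.1 s.2⟩
      one_smul := fun s => by
        apply Subtype.ext
        show s.1.image (pp 1) = s.1
        simp
      mul_smul := fun g h s => by
        apply Subtype.ext
        show s.1.image (pp (g * h)) = (s.1.image (pp h)).image (pp g)
        rw [Finset.image_image]
        rfl }
  have h := Cfsg.Agent.Lib.PermChar.isCharacter_pc (G := M) (Ω := {s // s ∈ F})
  have heq : (Cfsg.Agent.Lib.PermChar.pc M {s // s ∈ F}) = (fun g => (fixF F (pp g) : ℂ)) := by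
    funext g
    show ((Nat.card (MulAction.fixedBy {s // s ∈ F} g) : ℕ) : ℂ) = _
    congr 1
    rw [fixF, ← Nat.card_eq_finsetCard]
    refine Nat.card_congr
      { toFun := fun x => ⟨x.1.1, Finset.mem_filter.mpr ⟨x.1.2, congrArg Subtype.val x.2⟩⟩
        invFun := fun y => ⟨⟨y.1, (Finset.mem_filter.mp y.2).1⟩,
          Subtype.ext (Finset.mem_filter.mp y.2).2⟩
        left_inv := fun x => rfl
        right_inv := fun y => rfl }
  rw [← heq]
  exact h

/-- Families of subsets of a given size are stable. -/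
theorem stable_card (k : ℕ) (g : M) : ∀ s ∈ Finset.powersetCard k (Finset.univ : Finset (Fin 11)),
    s.image (pp g) ∈ Finset.powersetCard k (Finset.univ : Finset (Fin 11)) := by
  intro s hs
  rw [Finset.mem_powersetCard] at hs ⊢
  refine ⟨Finset.subset_univ _, ?_⟩
  rw [Finset.card_image_of_injective _ (pp g).injective, hs.2]

/-- The blocks as a finite set. -/
def blocksF : Finset (Finset (Fin 11)) := (masks.map toF).toFinset

theorem mem_blocksF (s : Finset (Fin 11)) : s ∈ blocksF ↔ s ∈ B0 := by
  simp only [blocksF, List.mem_toFinset, List.mem_map, B0, Set.mem_setOf_eq]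
  constructor
  · rintro ⟨m, hm, rfl⟩
    exact ⟨m, hm, rfl⟩
  · rintro ⟨m, hm, rfl⟩
    exact ⟨m, hm, rfl⟩

theorem stable_blocks (g : M) : ∀ s ∈ blocksF, s.image (pp g) ∈ blocksF := by
  intro s hs
  rw [mem_blocksF] at hs ⊢
  have h := Cfsg.Agent.Lib.SteinerAut.mem_aut_iff.mp g.2
  rw [← h]
  exact ⟨s, hs, rfl⟩

theorem pp_r (i : Fin 10) : pp (r i) = evalWord (repW i) := rfl

def p11N : Fin 10 → ℕ := ![11,3,2,3,1,0,1,1,0,0]
def p55N : Fin 10 → ℕ := ![55,7,1,3,0,1,1,1,0,0]
def p66N : Fin 10 → ℕ := ![66,10,3,2,1,1,0,0,0,0]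

theorem fix11 : ∀ i : Fin 10, fixF (Finset.powersetCard 1 Finset.univ) (evalWord (repW i)) = p11N i := by
  decide +kernel

theorem fix55 : ∀ i : Fin 10, fixF (Finset.powersetCard 2 Finset.univ) (evalWord (repW i)) = p55N i := by
  decide +kernel

theorem fix66 : ∀ i : Fin 10, fixF blocksF (evalWord (repW i)) = p66N i := by
  decide +kernel

/-! ### Characters induced from cyclic subgroups -/

section Cyclic

variable {G : Type*} [Group G] [Fintype G]

open Cfsg.Agent.Lib.CharIntegrality in
/-- The character induced from a linear character of a cyclic subgroup. -/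
theorem cyc_ind (a : G) (z : ℂ) (hz : z ^ orderOf a = 1) :
    IsCharacter G (fun g => (orderOf a : ℂ)⁻¹ *
      ((Nat.card (Subgroup.centralizer ({g} : Set G)) : ℂ) *
        ∑ k ∈ Finset.range (orderOf a), (classIndicator g (a ^ k) : ℂ) * z ^ k)) := by
  classical
  have hn : 0 < orderOf a := orderOf_pos a
  have hz0 : z ≠ 0 := by
    rintro rfl
    rw [zero_pow hn.ne'] at hz
    exact zero_ne_one hz
  let H : Subgroup G := Subgroup.zpowers a
  let gn : H := ⟨a, Subgroup.mem_zpowers a⟩
  have hgn : ∀ x : H, x ∈ Subgroup.zpowers gn := by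
    rintro ⟨x, k, rfl⟩
    exact ⟨k, Subtype.ext (by simp [gn])⟩
  have hord : orderOf gn = orderOf a := Subgroup.orderOf_mk a _
  let u : ℂˣ := Units.mk0 z hz0
  have hu : orderOf u ∣ orderOf gn := by
    rw [hord]
    apply orderOf_dvd_of_pow_eq_one
    apply Units.ext
    simpa [u] using hz
  let φ : H →* ℂˣ := monoidHomOfForallMemZpowers hgn hu
  have hφ : φ gn = u := monoidHomOfForallMemZpowers_apply_gen hgn hu
  have h1 : IsCharacter H (fun h => ((φ h : ℂˣ) : ℂ)) :=
    IsIrrCharacter.isCharacter (isIrrCharacter_of_hom φ)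
  have h2 := Cfsg.Agent.Lib.CharInd.indFun_isCharacter H h1
  have h3 : indFun H (fun h => ((φ h : ℂˣ) : ℂ)) = fun g => (orderOf a : ℂ)⁻¹ *
      ((Nat.card (Subgroup.centralizer ({g} : Set G)) : ℂ) *
        ∑ k ∈ Finset.range (orderOf a), (classIndicator g (a ^ k) : ℂ) * z ^ k) := by
    funext g
    rw [Cfsg.Agent.Lib.BlkBasic.indFun_eq_sum]
    have hcard : Nat.card H = orderOf a := Nat.card_zpowers a
    rw [hcard]
    congr 2
    have himg := IsCyclic.image_range_orderOf hgn
    rw [hord] at himg
    rw [← himg, Finset.sum_image]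
    · refine Finset.sum_congr rfl fun k _ => ?_
      have h4 : ((gn ^ k : H) : G) = a ^ k := by simp [gn]
      rw [h4, map_pow, hφ]
      simp [u]
    · intro i hi j hj hij
      have := pow_injOn_Iio_orderOf (x := gn)
      rw [hord] at this
      apply this _ _ hij
      · simpa using hi
      · simpa using hj
  rw [← h3]
  exact h2

end Cyclic

end Cfsg.Agent.Lib.M11TabPerm
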