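import Mathlib
import Cfsg.Agent.Lib.M11TabPerm

/-!
# The induced characters from the cyclic subgroups of orders 8 and 11
-/

set_option autoImplicit false
set_option maxRecDepth 100000
set_option linter.style.haveILetI false
set_option linter.unusedVariables false
set_option linter.unusedSectionVars false

namespace Cfsg.Agent.Lib.M11TabRoots

open Cfsg Cfsg.Agent.Lib.M11TabData Cfsg.Agent.Lib.M11TabModel Cfsg.Agent.Lib.M11TabClasses
open Cfsg.Agent.Lib.M11TabPerm
open Cfsg.Agent.Lib.CharBasic Cfsg.Agent.Lib.GenChar Cfsg.Agent.Lib.BlkBasic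
open Cfsg.Agent.Lib.CharIntegrality
open scoped ComplexConjugate

/-! ### Roots of unity -/

/-- A primitive 8th root of unity. -/
noncomputable def z8 : ℂ := Complex.exp (2 * Real.pi * Complex.I / (8 : ℕ))

/-- A primitive 11th root of unity. -/
noncomputable def z11 : ℂ := Complex.exp (2 * Real.pi * Complex.I / (11 : ℕ))

theorem z8_prim : IsPrimitiveRoot z8 8 := Complex.isPrimitiveRoot_exp 8 (by norm_num)

theorem z11_prim : IsPrimitiveRoot z11 11 := Complex.isPrimitiveRoot_exp 11 (by norm_num)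

theorem z8_pow : z8 ^ 8 = 1 := z8_prim.pow_eq_one

theorem z11_pow : z11 ^ 11 = 1 := z11_prim.pow_eq_one

theorem z8_four : z8 ^ 4 = -1 := by
  have h1 : (z8 ^ 4 - 1) * (z8 ^ 4 + 1) = 0 := by
    linear_combination z8_pow
  rcases mul_eq_zero.mp h1 with h | h
  · exact absurd (sub_eq_zero.mp h) (z8_prim.pow_ne_one_of_pos_of_lt (by norm_num) (by norm_num))
  · exact eq_neg_of_add_eq_zero_left h

theorem z11_sum : 1 + z11 + z11 ^ 2 + z11 ^ 3 + z11 ^ 4 + z11 ^ 5 + z11 ^ 6 + z11 ^ 7 + z11 ^ 8 +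
    z11 ^ 9 + z11 ^ 10 = 0 := by
  have h := z11_prim.geom_sum_eq_zero (by norm_num)
  simp only [Finset.sum_range_succ, Finset.sum_range_zero] at h
  simpa using h

theorem conj_of_norm {z : ℂ} {n : ℕ} (hn : 0 < n) (hz : z ^ n = 1) : conj z = z ^ (n - 1) := by
  have h1 : ‖z‖ = 1 := Complex.norm_eq_one_of_pow_eq_one hz hn.ne'
  rw [← Complex.inv_eq_conj h1]
  have hz0 : z ≠ 0 := by
    rintro rfl
    rw [zero_pow hn.ne'] at hz
    exact zero_ne_one hz
  field_simp
  rw [← pow_succ', Nat.sub_add_cancel hn, hz]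

theorem conj_z8 : conj z8 = z8 ^ 7 := conj_of_norm (by norm_num) z8_pow

theorem conj_z11 : conj z11 = z11 ^ 10 := conj_of_norm (by norm_num) z11_pow

/-- The irrationality on the classes of order 8. -/
noncomputable def al : ℂ := z8 + z8 ^ 3

/-- The first irrationality on the classes of order 11. -/
noncomputable def be : ℂ := z11 + z11 ^ 3 + z11 ^ 4 + z11 ^ 5 + z11 ^ 9

/-- The second irrationality on the classes of order 11. -/
noncomputable def be' : ℂ := z11 ^ 2 + z11 ^ 6 + z11 ^ 7 + z11 ^ 8 + z11 ^ 10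

theorem al_sq : al * al = -2 := by
  unfold al
  linear_combination (z8 ^ 2 + 2) * z8_four

theorem conj_al : conj al = -al := by
  unfold al
  rw [map_add, map_pow, conj_z8]
  linear_combination (z8 ^ 3 + z8 * (z8 ^ 16 - z8 ^ 12 + z8 ^ 8 - z8 ^ 4 + 1)) * z8_four

theorem al_ne_zero : al ≠ 0 := by
  intro h
  have := al_sq
  rw [h] at this
  norm_num at this

theorem conj_be : conj be = be' := by
  unfold be be'
  simp only [map_add, map_pow, conj_z11]
  linear_combination (z11 ^ 2 + z11 ^ 6 + z11 ^ 7 + z11 ^ 8 + z11 ^ 13 + z11 ^ 17 + z11 ^ 18 +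
    z11 ^ 19 + z11 ^ 24 + z11 ^ 28 + z11 ^ 29 + z11 ^ 35 + z11 ^ 39 + z11 ^ 46 + z11 ^ 57 +
    z11 ^ 68 + z11 ^ 79) * z11_pow

theorem conj_be' : conj be' = be := by
  rw [← conj_be]
  exact Complex.conj_conj _

theorem be_add : be + be' = -1 := by
  unfold be be'
  linear_combination z11_sum

theorem be_mul : be * be' = 3 := by
  unfold be be'
  linear_combination (5 + 2 * z11 + 2 * z11 ^ 2 + z11 ^ 3 + 2 * z11 ^ 4 + z11 ^ 5 + z11 ^ 6 +
    z11 ^ 8) * z11_pow + 2 * z11_sum

theorem be_ne : be ≠ be' := by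
  intro h
  have h1 := be_add
  have h2 := be_mul
  rw [← h] at h1 h2
  have h3 : (be + be) * (be + be) = 4 * (be * be) := by ring
  rw [h1, h2] at h3
  norm_num at h3

/-! ### Powers of the element of order 8 -/

def f8 : Fin 8 → Fin 10 := ![0,6,3,6,1,7,3,7]

def f11c : Fin 11 → Fin 10 := ![0,8,9,8,8,8,9,9,9,8,9]

theorem chk8 : ∀ k : Fin 8, ∃ w ∈ ([[], t8] : List (List Bool)),
    evalWord w * evalWord (repW (f8 k)) * (evalWord w)⁻¹ = evalWord (repW 6) ^ (k : ℕ) := by
  decide +kernel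

theorem chk11 : ∀ k : Fin 11, ∃ w ∈ ([[], t11, t11 ++ t11, t11 ++ t11 ++ t11,
      t11 ++ t11 ++ t11 ++ t11] : List (List Bool)),
    evalWord w * evalWord (repW (f11c k)) * (evalWord w)⁻¹ = evalWord (repW 8) ^ (k : ℕ) := by
  decide +kernel

theorem chkord8 : evalWord (repW 6) ^ (2 : ℕ) ^ 3 = 1 ∧ ¬ evalWord (repW 6) ^ (2 : ℕ) ^ 2 = 1 := by
  decide +kernel

theorem chkord11 : evalWord (repW 8) ^ 11 = 1 ∧ evalWord (repW 8) ≠ 1 := by
  decide +kernel

theorem coe_r_pow (i : Fin 10) (k : ℕ) :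
    ((r i ^ k : M) : Equiv.Perm (Fin 11)) = evalWord (repW i) ^ k := rfl

theorem ord8 : orderOf (r 6) = 8 := by
  have h := orderOf_eq_prime_pow (p := 2) (n := 2) (x := r 6)
    (fun h => chkord8.2 (congrArg Subtype.val h))
    (Subtype.ext chkord8.1)
  simpa using h

theorem ord11 : orderOf (r 8) = 11 := by
  haveI : Fact (Nat.Prime 11) := ⟨by norm_num⟩
  exact orderOf_eq_prime (Subtype.ext chkord11.1)
    (fun h => chkord11.2 (congrArg Subtype.val h))

theorem cl8 (k : Fin 8) : cl (r 6 ^ (k : ℕ)) = f8 k := by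
  apply cl_eq_of_conj
  obtain ⟨w, _, hw⟩ := chk8 k
  rw [isConj_iff]
  exact ⟨el w, Subtype.ext hw⟩

theorem cl11 (k : Fin 11) : cl (r 8 ^ (k : ℕ)) = f11c k := by
  apply cl_eq_of_conj
  obtain ⟨w, _, hw⟩ := chk11 k
  rw [isConj_iff]
  exact ⟨el w, Subtype.ext hw⟩

theorem indic (i : Fin 10) (y : M) :
    ((classIndicator (r i) y : ℤ) : ℂ) = if cl y = i then 1 else 0 := by
  by_cases h : cl y = i
  · rw [if_pos h, classIndicator_of_conj]
    · simp
    · subst h
      exact cl_spec y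
  · rw [if_neg h, classIndicator_of_not_conj]
    · simp
    · intro hc
      exact h (cl_eq_of_conj hc)

/-- Values of the character induced from the subgroup of order 8. -/
noncomputable def h8 : Fin 10 → ℂ := ![990,-6,0,0,0,0,al,-al,0,0]

/-- Values of the character induced from the subgroup of order 11. -/
noncomputable def h11 : Fin 10 → ℂ := ![720,0,0,0,0,0,0,0,be,be']

theorem h8_val (i : Fin 10) : ((8 : ℕ) : ℂ)⁻¹ * ((cc i : ℂ) * ∑ k : Fin 8,
    (if f8 k = i then z8 ^ (k : ℕ) else 0)) = h8 i := by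
  rw [Fin.sum_univ_eight]
  fin_cases i <;> simp [f8, h8, cc, al]
  · norm_num
  · rw [z8_four]; norm_num
  · linear_combination z8 ^ 2 * z8_four
  · linear_combination (z8 + z8 ^ 3) * z8_four

theorem h11_val (i : Fin 10) : ((11 : ℕ) : ℂ)⁻¹ * ((cc i : ℂ) * ∑ k : Fin 11,
    (if f11c k = i then z11 ^ (k : ℕ) else 0)) = h11 i := by
  fin_cases i <;> simp [Fin.sum_univ_succ, f11c, h11, cc, be, be']
  · norm_num
  · ring
  · ring

theorem isGen_of_values {f : M → ℂ} (hf : IsCharacter M f) {v : Fin 10 → ℂ}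
    (h : ∀ i, f (r i) = v i) : IsGeneralizedCharacter M (tf v) := by
  rw [← eq_tf (isClassFunction_of_isCharacter hf) h]
  exact isGen_of_isChar hf

theorem gen_h8 : IsGeneralizedCharacter M (tf h8) := by
  have hz : z8 ^ orderOf (r 6) = 1 := by rw [ord8]; exact z8_pow
  refine isGen_of_values (cyc_ind (r 6) z8 hz) fun i => ?_
  rw [← h8_val i]
  show ((orderOf (r 6) : ℕ) : ℂ)⁻¹ * (((Nat.card (Subgroup.centralizer ({r i} : Set M)) : ℕ) : ℂ) *
    ∑ k ∈ Finset.range (orderOf (r 6)), ((classIndicator (r i) (r 6 ^ k) : ℤ) : ℂ) * z8 ^ k) = _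
  rw [ord8, card_cent, Finset.sum_range]
  congr 3
  funext k
  rw [indic, cl8]
  split_ifs <;> simp

theorem gen_h11 : IsGeneralizedCharacter M (tf h11) := by
  have hz : z11 ^ orderOf (r 8) = 1 := by rw [ord11]; exact z11_pow
  refine isGen_of_values (cyc_ind (r 8) z11 hz) fun i => ?_
  rw [← h11_val i]
  show ((orderOf (r 8) : ℕ) : ℂ)⁻¹ * (((Nat.card (Subgroup.centralizer ({r i} : Set M)) : ℕ) : ℂ) *
    ∑ k ∈ Finset.range (orderOf (r 8)), ((classIndicator (r i) (r 8 ^ k) : ℤ) : ℂ) * z11 ^ k) = _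
  rw [ord11, card_cent, Finset.sum_range]
  congr 3
  funext k
  rw [indic, cl11]
  split_ifs <;> simp

theorem gen_family (F : Finset (Finset (Fin 11))) (hF : ∀ g : M, ∀ s ∈ F, s.image (pp g) ∈ F)
    (v : Fin 10 → ℕ) (hv : ∀ i, fixF F (evalWord (repW i)) = v i) :
    IsGeneralizedCharacter M (tf (fun i => (v i : ℂ))) := by
  refine isGen_of_values (perm_family F hF) fun i => ?_
  show ((fixF F (pp (r i)) : ℕ) : ℂ) = _
  rw [pp_r, hv]

theorem gen_p11 : IsGeneralizedCharacter M (tf (fun i => (p11N i : ℂ))) :=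
  gen_family _ (stable_card 1) p11N fix11

theorem gen_p55 : IsGeneralizedCharacter M (tf (fun i => (p55N i : ℂ))) :=
  gen_family _ (stable_card 2) p55N fix55

theorem gen_p66 : IsGeneralizedCharacter M (tf (fun i => (p66N i : ℂ))) :=
  gen_family _ stable_blocks p66N fix66

end Cfsg.Agent.Lib.M11TabRoots
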