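import Mathlib
import Cfsg.Agent.Lib.M11TabRoots

/-!
# The irreducible characters of the concrete Mathieu group of degree 11
-/

set_option autoImplicit false
set_option maxRecDepth 100000
set_option linter.style.haveILetI false
set_option linter.unusedVariables false
set_option linter.unusedSectionVars false

namespace Cfsg.Agent.Lib.M11TabIrr

open Cfsg Cfsg.Agent.Lib.M11TabData Cfsg.Agent.Lib.M11TabModel Cfsg.Agent.Lib.M11TabClasses
open Cfsg.Agent.Lib.M11TabPerm Cfsg.Agent.Lib.M11TabRoots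
open Cfsg.Agent.Lib.CharBasic Cfsg.Agent.Lib.GenChar
open scoped ComplexConjugate

theorem isGen_mul {G : Type*} [Group G] [Finite G] {a b : G → ℂ}
    (ha : IsGeneralizedCharacter G a) (hb : IsGeneralizedCharacter G b) :
    IsGeneralizedCharacter G (a * b) := by
  obtain ⟨a1, a2, h1, h2, rfl⟩ := ha
  obtain ⟨b1, b2, h3, h4, rfl⟩ := hb
  exact ⟨a1 * b1 + a2 * b2, a1 * b2 + a2 * b1,
    isCharacter_add (isCharacter_mul h1 h3) (isCharacter_mul h2 h4),
    isCharacter_add (isCharacter_mul h1 h4) (isCharacter_mul h2 h3), by ring⟩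

/-- A vector of values giving a generalized character. -/
def GV (v : Fin 10 → ℂ) : Prop := IsGeneralizedCharacter M (tf v)

theorem GV_add {u v : Fin 10 → ℂ} (hu : GV u) (hv : GV v) : GV (u + v) := isGen_add hu hv

theorem GV_sub {u v : Fin 10 → ℂ} (hu : GV u) (hv : GV v) : GV (u - v) := isGen_sub hu hv

theorem GV_mul {u v : Fin 10 → ℂ} (hu : GV u) (hv : GV v) : GV (u * v) := isGen_mul hu hv

theorem GV_nsmul {u : Fin 10 → ℂ} (k : ℕ) (hu : GV u) : GV (k • u) := isGen_nsmul hu k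

noncomputable def x1 : Fin 10 → ℂ := ![1,1,1,1,1,1,1,1,1,1]
noncomputable def x2 : Fin 10 → ℂ := ![10,2,1,2,0,-1,0,0,-1,-1]
noncomputable def x3 : Fin 10 → ℂ := ![10,-2,1,0,0,1,al,-al,-1,-1]
noncomputable def x4 : Fin 10 → ℂ := ![10,-2,1,0,0,1,-al,al,-1,-1]
noncomputable def x5 : Fin 10 → ℂ := ![11,3,2,-1,1,0,-1,-1,0,0]
noncomputable def x6 : Fin 10 → ℂ := ![16,0,-2,0,1,0,0,0,be,be']
noncomputable def x7 : Fin 10 → ℂ := ![16,0,-2,0,1,0,0,0,be',be]
noncomputable def x8 : Fin 10 → ℂ := ![44,4,-1,0,-1,1,0,0,0,0]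
noncomputable def x9 : Fin 10 → ℂ := ![45,-3,0,1,0,0,-1,-1,1,1]
noncomputable def x10 : Fin 10 → ℂ := ![55,-1,1,-1,0,-1,1,1,0,0]
noncomputable def xU : Fin 10 → ℂ := ![32,0,-4,0,2,0,0,0,-1,-1]
noncomputable def xT : Fin 10 → ℂ := ![20,-4,2,0,0,2,0,0,-2,-2]

noncomputable def p11 : Fin 10 → ℂ := fun i => (p11N i : ℂ)
noncomputable def p55 : Fin 10 → ℂ := fun i => (p55N i : ℂ)
noncomputable def p66 : Fin 10 → ℂ := fun i => (p66N i : ℂ)

theorem G_x1 : GV x1 := by
  refine isGen_of_values (f := fun _ => 1) (IsIrrCharacter.isCharacter isIrrCharacter_one) fun i => ?_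
  fin_cases i <;> simp [x1]

theorem G_x2 : GV x2 := by
  have h : x2 = p11 - x1 := by
    funext i
    fin_cases i <;> simp [x2, x1, p11, p11N] <;> norm_num
  rw [h]
  exact GV_sub gen_p11 G_x1

theorem G_x8 : GV x8 := by
  have h : x8 = p55 - p11 := by
    funext i
    fin_cases i <;> simp [x8, p55, p11, p55N, p11N] <;> norm_num
  rw [h]
  exact GV_sub gen_p55 gen_p11

theorem G_x9 : GV x9 := by
  have h : x9 = x2 * x2 - p55 := by
    funext i
    fin_cases i <;> simp [x9, x2, p55, p55N] <;> norm_num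
  rw [h]
  exact GV_sub (GV_mul G_x2 G_x2) gen_p55

theorem G_x5 : GV x5 := by
  have h : x5 = p66 - p55 := by
    funext i
    fin_cases i <;> simp [x5, p66, p55, p66N, p55N] <;> norm_num
  rw [h]
  exact GV_sub gen_p66 gen_p55

theorem G_x10 : GV x10 := by
  have h : x10 = x2 * x5 - x5 - x8 := by
    funext i
    show x10 i = x2 i * x5 i - x5 i - x8 i
    fin_cases i <;> simp [x10, x2, x5, x8] <;> norm_num
  rw [h]
  exact GV_sub (GV_sub (GV_mul G_x2 G_x5) G_x5) G_x8

theorem G_xU : GV xU := by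
  have h : xU = x2 * x8 - x2 - x5 - (3 : ℕ) • x8 - (2 : ℕ) • x9 - (3 : ℕ) • x10 := by
    funext i
    show xU i = x2 i * x8 i - x2 i - x5 i - (3 : ℕ) • x8 i - (2 : ℕ) • x9 i - (3 : ℕ) • x10 i
    fin_cases i <;> simp [xU, x2, x5, x8, x9, x10] <;> norm_num
  rw [h]
  exact GV_sub (GV_sub (GV_sub (GV_sub (GV_sub (GV_mul G_x2 G_x8) G_x2) G_x5) (GV_nsmul 3 G_x8))
    (GV_nsmul 2 G_x9)) (GV_nsmul 3 G_x10)

theorem G_xT : GV xT := by
  have h : xT = x2 * x9 - x2 - xU - (2 : ℕ) • x8 - (3 : ℕ) • x9 - (3 : ℕ) • x10 := by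
    funext i
    show xT i = x2 i * x9 i - x2 i - xU i - (2 : ℕ) • x8 i - (3 : ℕ) • x9 i - (3 : ℕ) • x10 i
    fin_cases i <;> simp [xT, xU, x2, x8, x9, x10] <;> norm_num
  rw [h]
  exact GV_sub (GV_sub (GV_sub (GV_sub (GV_sub (GV_mul G_x2 G_x9) G_x2) G_xU) (GV_nsmul 2 G_x8))
    (GV_nsmul 3 G_x9)) (GV_nsmul 3 G_x10)

theorem G_x3 : GV x3 := by
  have h : x3 = h8 - xT - x2 - x5 - (2 : ℕ) • xU - (5 : ℕ) • x8 - (6 : ℕ) • x9 - (7 : ℕ) • x10 := by
    funext i
    fin_cases i <;> simp [x3, h8, xT, xU, x2, x5, x8, x9, x10] <;> ring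
  rw [h]
  exact GV_sub (GV_sub (GV_sub (GV_sub (GV_sub (GV_sub (GV_sub gen_h8 G_xT) G_x2) G_x5)
    (GV_nsmul 2 G_xU)) (GV_nsmul 5 G_x8)) (GV_nsmul 6 G_x9)) (GV_nsmul 7 G_x10)

theorem G_x4 : GV x4 := by
  have h : x4 = xT - x3 := by
    funext i
    fin_cases i <;> simp [x4, x3, xT] <;> norm_num
  rw [h]
  exact GV_sub G_xT G_x3

theorem G_x6 : GV x6 := by
  have h : x6 = h11 - xU - x2 - xT - x5 - (4 : ℕ) • x8 - (4 : ℕ) • x9 - (5 : ℕ) • x10 := by
    funext i
    fin_cases i <;> simp [x6, h11, xT, xU, x2, x5, x8, x9, x10] <;> ring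
  rw [h]
  exact GV_sub (GV_sub (GV_sub (GV_sub (GV_sub (GV_sub (GV_sub gen_h11 G_xU) G_x2) G_xT) G_x5)
    (GV_nsmul 4 G_x8)) (GV_nsmul 4 G_x9)) (GV_nsmul 5 G_x10)

theorem G_x7 : GV x7 := by
  have h : x7 = xU - x6 := by
    funext i
    fin_cases i <;> simp [x7, x6, xU] <;> first | linear_combination be_add | norm_num
  rw [h]
  exact GV_sub G_xU G_x6

/-! ### Irreducibility -/

theorem r_zero : r 0 = 1 := rfl

theorem cl_one : cl 1 = 0 := by
  rw [← r_zero, cl_r]

theorem tf_one (v : Fin 10 → ℂ) : tf v 1 = v 0 := by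
  rw [tf, cl_one]

theorem irr_of {v : Fin 10 → ℂ} (hG : GV v)
    (hn : ∑ i, (cs i : ℂ) * (v i * conj (v i)) = 7920) {d : ℕ} (hd : 0 < d)
    (h0 : v 0 = d) : IsIrrCharacter M (tf v) := by
  have h1 : classInner (tf v) (tf v) = 1 := by
    unfold classInner
    have h2 : ∑ g : M, tf v g * conj (tf v g) = ∑ g : M, (fun i => v i * conj (v i)) (cl g) := rfl
    rw [h2, sum_tf (fun i => v i * conj (v i)), hn, card_M]
    norm_num
  rcases gen_norm_one hG h1 with h | h
  · exact h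
  · exfalso
    obtain ⟨d', hd', h3⟩ := isIrr_one_pos h
    have h4 : -(d : ℂ) = d' := by
      rw [← h3, ← h0, ← tf_one v]
      rfl
    have h5 : ((d + d' : ℕ) : ℂ) = 0 := by
      push_cast
      rw [← h4]
      ring
    have h6 : d + d' = 0 := by exact_mod_cast h5
    omega

theorem irr1 : IsIrrCharacter M (tf x1) :=
  irr_of (d := 1) G_x1 (by simp [map_ofNat, Fin.sum_univ_succ, x1, cs]; norm_num) (by norm_num) (by simp [x1])

theorem irr2 : IsIrrCharacter M (tf x2) :=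
  irr_of (d := 10) G_x2 (by simp [map_ofNat, Fin.sum_univ_succ, x2, cs]; norm_num) (by norm_num) (by simp [x2])

theorem irr3 : IsIrrCharacter M (tf x3) :=
  irr_of (d := 10) G_x3 (by simp [map_ofNat, Fin.sum_univ_succ, x3, cs, conj_al]; linear_combination (-1980) * al_sq) (by norm_num) (by simp [x3])

theorem irr4 : IsIrrCharacter M (tf x4) :=
  irr_of (d := 10) G_x4 (by simp [map_ofNat, Fin.sum_univ_succ, x4, cs, conj_al]; linear_combination (-1980) * al_sq) (by norm_num) (by simp [x4])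

theorem irr5 : IsIrrCharacter M (tf x5) :=
  irr_of (d := 11) G_x5 (by simp [map_ofNat, Fin.sum_univ_succ, x5, cs]; norm_num) (by norm_num) (by simp [x5])

theorem irr6 : IsIrrCharacter M (tf x6) :=
  irr_of (d := 16) G_x6 (by simp [map_ofNat, Fin.sum_univ_succ, x6, cs, conj_be, conj_be']; linear_combination 1440 * be_mul) (by norm_num) (by simp [x6])

theorem irr7 : IsIrrCharacter M (tf x7) :=
  irr_of (d := 16) G_x7 (by simp [map_ofNat, Fin.sum_univ_succ, x7, cs, conj_be, conj_be']; linear_combination 1440 * be_mul) (by norm_num) (by simp [x7])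

theorem irr8 : IsIrrCharacter M (tf x8) :=
  irr_of (d := 44) G_x8 (by simp [map_ofNat, Fin.sum_univ_succ, x8, cs]; norm_num) (by norm_num) (by simp [x8])

theorem irr9 : IsIrrCharacter M (tf x9) :=
  irr_of (d := 45) G_x9 (by simp [map_ofNat, Fin.sum_univ_succ, x9, cs]; norm_num) (by norm_num) (by simp [x9])

theorem irr10 : IsIrrCharacter M (tf x10) :=
  irr_of (d := 55) G_x10 (by simp [map_ofNat, Fin.sum_univ_succ, x10, cs]; norm_num) (by norm_num) (by simp [x10])

/-! ### The complete list -/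

/-- All value vectors. -/
noncomputable def vs : Fin 10 → (Fin 10 → ℂ) := ![x1, x2, x3, x4, x5, x6, x7, x8, x9, x10]

/-- All degrees. -/
def ds : Fin 10 → ℕ := ![1, 10, 10, 10, 11, 16, 16, 44, 45, 55]

theorem irr_vs (j : Fin 10) : IsIrrCharacter M (tf (vs j)) := by
  fin_cases j
  · exact irr1
  · exact irr2
  · exact irr3
  · exact irr4
  · exact irr5
  · exact irr6
  · exact irr7
  · exact irr8
  · exact irr9
  · exact irr10

theorem vs_zero (j : Fin 10) : vs j 0 = ds j := by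
  fin_cases j <;> simp [vs, ds, x1, x2, x3, x4, x5, x6, x7, x8, x9, x10]

theorem al_ne_neg : al ≠ -al := by
  intro h
  apply al_ne_zero
  have h2 : (2 : ℂ) * al = 0 := by linear_combination h
  simpa using h2

theorem vs_inj : Function.Injective vs := by
  intro j k h
  have h0 : (ds j : ℂ) = ds k := by rw [← vs_zero, ← vs_zero, h]
  have h0' : ds j = ds k := by exact_mod_cast h0
  have h1 := congrFun h 1
  have h6 := congrFun h 6
  have h8 := congrFun h 8
  by_contra hne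
  revert h0' h1 h6 h8 hne
  fin_cases j <;> fin_cases k <;>
    simp [vs, ds, x1, x2, x3, x4, x5, x6, x7, x8, x9, x10, al_ne_zero, al_ne_neg, al_ne_neg.symm, be_ne,
      be_ne.symm] <;>
    norm_num

/-- The irreducible characters. -/
noncomputable def irrMap (j : Fin 10) : IrrCharacter M := ⟨tf (vs j), irr_vs j⟩

theorem irrMap_inj : Function.Injective irrMap := by
  intro j k h
  apply vs_inj
  funext i
  have h1 : tf (vs j) = tf (vs k) := congrArg Subtype.val h
  have h2 := congrFun h1 (r i)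
  rwa [tf_r, tf_r] at h2

theorem card_irr : Nat.card (IrrCharacter M) = 10 := by
  rw [Cfsg.Agent.Lib.CharInd.card_irr_eq_card_conjClasses, card_conjClasses]

theorem irrMap_bij : Function.Bijective irrMap := by
  apply irrMap_inj.bijective_of_nat_card_le
  rw [card_irr]
  simp

theorem degree_irrMap (j : Fin 10) : charDegree ((irrMap j : IrrCharacter M) : M → ℂ) = ds j := by
  show ⌊(tf (vs j) 1).re⌋₊ = ds j
  rw [tf_one, vs_zero]
  simp

theorem count_ds (n : ℕ) : Nat.card {j : Fin 10 // ds j = n} =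
    (if n = 1 ∨ n = 11 ∨ n = 44 ∨ n = 45 ∨ n = 55 then 1 else if n = 10 then 3 else
      if n = 16 then 2 else 0) := by
  rw [Nat.card_eq_fintype_card, Fintype.card_subtype]
  by_cases h : n = 1 ∨ n = 11 ∨ n = 44 ∨ n = 45 ∨ n = 55 ∨ n = 10 ∨ n = 16
  · rcases h with rfl | rfl | rfl | rfl | rfl | rfl | rfl <;> decide
  · push Not at h
    obtain ⟨h1, h2, h3, h4, h5, h6, h7⟩ := h
    rw [if_neg (by tauto), if_neg h6, if_neg h7, Finset.card_eq_zero, Finset.filter_eq_empty_iff]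
    intro j _
    fin_cases j <;> simp [ds] <;> omega

theorem count_M (n : ℕ) : Nat.card {χ : IrrCharacter M // charDegree (χ : M → ℂ) = n} =
    (if n = 1 ∨ n = 11 ∨ n = 44 ∨ n = 45 ∨ n = 55 then 1 else if n = 10 then 3 else
      if n = 16 then 2 else 0) := by
  rw [← count_ds]
  symm
  refine Nat.card_congr (Equiv.subtypeEquiv (Equiv.ofBijective irrMap irrMap_bij) ?_)
  intro j
  rw [Equiv.ofBijective_apply, degree_irrMap]

end Cfsg.Agent.Lib.M11TabIrr
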