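import Mathlib
import Cfsg.Agent.Lib.GolaySift
import Cfsg.Agent.Lib.M24Facts
import Cfsg.Agent.Lib.ClassicalSL
import Cfsg.Agent.Lib.ClassicalCore
import Cfsg.Agent.Lib.SLTransfer

/-!
# The stabiliser of three points in `M24` is `PSL(3, 4)`
-/

set_option autoImplicit false
set_option maxRecDepth 100000

namespace Cfsg.Agent.Lib.M21PSL

open Cfsg Cfsg.Agent.Lib.Golay Cfsg.Agent.Lib.GolaySift Cfsg.Agent.Lib.M24Facts
open MulAction Matrix
open scoped LinearAlgebra.Projectivization

/-- The field with four elements, as a concrete type. -/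
def F4 : Type := Fin 4

instance : DecidableEq F4 := inferInstanceAs (DecidableEq (Fin 4))
instance : Fintype F4 := inferInstanceAs (Fintype (Fin 4))

/-- Addition. -/
def addF (a b : F4) : F4 :=
  (![![0, 1, 2, 3], ![1, 0, 3, 2], ![2, 3, 0, 1], ![3, 2, 1, 0]] : Fin 4 → Fin 4 → Fin 4) a b

/-- Multiplication. -/
def mulF (a b : F4) : F4 :=
  (![![0, 0, 0, 0], ![0, 1, 2, 3], ![0, 2, 3, 1], ![0, 3, 1, 2]] : Fin 4 → Fin 4 → Fin 4) a b

/-- Inversion. -/
def invF (a : F4) : F4 := (![0, 1, 3, 2] : Fin 4 → Fin 4) a

/-- Zero. -/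
def zeroF : F4 := (0 : Fin 4)

/-- One. -/
def oneF : F4 := (1 : Fin 4)

instance : Add F4 := ⟨addF⟩
instance : Mul F4 := ⟨mulF⟩
instance : Zero F4 := ⟨zeroF⟩
instance : One F4 := ⟨oneF⟩
instance : Neg F4 := ⟨fun a => a⟩
instance : Inv F4 := ⟨invF⟩

instance : Field F4 where
  nsmul := nsmulRec
  zsmul := zsmulRec
  add_assoc := by decide +kernel
  zero_add := by decide +kernel
  add_zero := by decide +kernel
  add_comm := by decide +kernel
  neg_add_cancel := by decide +kernel
  mul_assoc := by decide +kernel
  mul_comm := by decide +kernel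
  one_mul := by decide +kernel
  mul_one := by decide +kernel
  left_distrib := by decide +kernel
  right_distrib := by decide +kernel
  zero_mul := by decide +kernel
  mul_zero := by decide +kernel
  exists_pair_ne := ⟨zeroF, oneF, by decide +kernel⟩
  mul_inv_cancel := by decide +kernel
  inv_zero := by decide +kernel
  nnqsmul := _
  qsmul := _

theorem card_F4 : Fintype.card F4 = 4 := by decide +kernel

/-- The table of the points of the plane. -/
def tbl : List ℕ := [0,4,4,4,3,11,20,19,3,19,11,20,3,20,19,11,2,13,22,16,5,8,15,7,17,6,12,9,14,10,21,18,2,16,13,22,14,18,10,21,5,7,8,15,17,9,6,12,2,22,16,13,17,12,9,6,14,21,18,10,5,15,7,8]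

/-- The point of a vector. -/
def gp (a b c : F4) : ℕ := tbl.getD (a.1 + 4 * b.1 + 16 * c.1) 0

/-- The point of a vector, as a function. -/
def gpv (v : Fin 3 → F4) : ℕ := gp (v 0) (v 1) (v 2)

/-- A nonzero test. -/
def nz (a b c : F4) : Prop := a ≠ 0 ∨ b ≠ 0 ∨ c ≠ 0

instance (a b c : F4) : Decidable (nz a b c) := by unfold nz; infer_instance

theorem nz_of_ne {v : Fin 3 → F4} (hv : v ≠ 0) : nz (v 0) (v 1) (v 2) := by
  by_contra h
  simp only [nz, not_or, not_not] at h
  apply hv
  ext i
  fin_cases i
  · exact h.1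
  · exact h.2.1
  · exact h.2.2

theorem ne_of_nz {v : Fin 3 → F4} (hv : nz (v 0) (v 1) (v 2)) : v ≠ 0 := by
  rintro rfl
  simp [nz] at hv

theorem gp_scale : ∀ k a b c : F4, k ≠ 0 → nz a b c → gp (k * a) (k * b) (k * c) = gp a b c := by
  decide +kernel

theorem gp_lt : ∀ a b c : F4, nz a b c → gp a b c < 24 ∧ gp a b c ≠ 0 ∧ gp a b c ≠ 1 ∧
    gp a b c ≠ 23 := by
  decide +kernel

theorem gp_inj : ∀ a b c a' b' c' : F4, nz a b c → nz a' b' c' → gp a b c = gp a' b' c' →
    ∃ k : F4, k * a' = a ∧ k * b' = b ∧ k * c' = c := by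
  decide +kernel

theorem gp_surj : ∀ i : Fin 24, (i : ℕ) ≠ 0 → (i : ℕ) ≠ 1 → (i : ℕ) ≠ 23 →
    ∃ a b c : F4, nz a b c ∧ gp a b c = i := by
  decide +kernel

/-- The projective plane. -/
abbrev PP : Type := ℙ F4 (Fin 3 → F4)

/-- The point of the 24 of a projective point. -/
noncomputable def fP : PP → GolayPt :=
  Projectivization.lift (fun v : {v : Fin 3 → F4 // v ≠ 0} => pt (gpv v.1)) (by
    rintro ⟨a, ha⟩ ⟨b, hb⟩ t hab
    simp only at hab ⊢
    have ht : t ≠ 0 := by
      rintro rfl
      rw [zero_smul] at hab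
      exact ha hab
    rw [hab]
    have := gp_scale t (b 0) (b 1) (b 2) ht (nz_of_ne hb)
    simp only [gpv, Pi.smul_apply, smul_eq_mul]
    rw [this])

theorem fP_mk (v : Fin 3 → F4) (hv : v ≠ 0) :
    fP (Projectivization.mk F4 v hv) = pt (gpv v) := rfl

/-- The three removed points. -/
def rest (x : GolayPt) : Prop := x ≠ pt 0 ∧ x ≠ pt 1 ∧ x ≠ pt 23

noncomputable instance : DecidablePred rest := fun _ => Classical.propDecidable _

theorem pt_ne_of_ne {i j : ℕ} (hi : i < 24) (hj : j < 24) (h : i ≠ j) : pt i ≠ pt j := by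
  intro e
  have := congrArg idx e
  rw [idx_pt hi, idx_pt hj] at this
  exact h this

theorem fP_rest (P : PP) : rest (fP P) := by
  induction P using Projectivization.ind with
  | h v hv =>
    rw [fP_mk]
    obtain ⟨h1, h2, h3, h4⟩ := gp_lt _ _ _ (nz_of_ne hv)
    exact ⟨pt_ne_of_ne h1 (by norm_num) h2, pt_ne_of_ne h1 (by norm_num) h3,
      pt_ne_of_ne h1 (by norm_num) h4⟩

theorem fP_inj : Function.Injective fP := by
  intro P Q
  induction P using Projectivization.ind with
  | h v hv =>
    induction Q using Projectivization.ind with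
    | h w hw =>
      rw [fP_mk, fP_mk]
      intro h
      have h1 := congrArg idx h
      have lv : gpv v < 24 := (gp_lt _ _ _ (nz_of_ne hv)).1
      have lw : gpv w < 24 := (gp_lt _ _ _ (nz_of_ne hw)).1
      rw [idx_pt lv, idx_pt lw] at h1
      obtain ⟨k, k0, k1, k2⟩ := gp_inj _ _ _ _ _ _ (nz_of_ne hv) (nz_of_ne hw) h1
      rw [Projectivization.mk_eq_mk_iff']
      refine ⟨k, ?_⟩
      ext i
      fin_cases i
      · exact k0
      · exact k1
      · exact k2

theorem fP_surj {x : GolayPt} (hx : rest x) : ∃ P, fP P = x := by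
  have hi := idx_lt x
  obtain ⟨a, b, c, hn, hg⟩ := gp_surj ⟨idx x, hi⟩
    (fun h => hx.1 (by have h' : idx x = 0 := h; rw [← h', pt_idx]))
    (fun h => hx.2.1 (by have h' : idx x = 1 := h; rw [← h', pt_idx]))
    (fun h => hx.2.2 (by have h' : idx x = 23 := h; rw [← h', pt_idx]))
  have hv : ![a, b, c] ≠ 0 := ne_of_nz (by simpa using hn)
  refine ⟨Projectivization.mk F4 ![a, b, c] hv, ?_⟩
  rw [fP_mk]
  show pt (gp a b c) = x
  rw [hg]
  exact pt_idx x

/-- The plane as the complement of the three points. -/
noncomputable def eP : PP ≃ Subtype rest :=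
  Equiv.ofBijective (fun P => ⟨fP P, fP_rest P⟩)
    ⟨fun P Q h => fP_inj (congrArg Subtype.val h), fun ⟨x, hx⟩ => by
      obtain ⟨P, hP⟩ := fP_surj hx
      exact ⟨P, Subtype.ext hP⟩⟩

/-- The embedding of `PSL(3, 4)` in the permutations of the 24 points. -/
noncomputable def Phi : Matrix.ProjectiveSpecialLinearGroup (Fin 3) F4 →* Equiv.Perm GolayPt :=
  (Equiv.Perm.extendDomainHom eP).comp Projectivization.PSLAction.toPermHom

theorem Phi_inj : Function.Injective Phi :=
  (Equiv.Perm.extendDomainHom_injective eP).comp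
    ProjectiveSpecialLinearGroup.toPermHom_injective

/-- The table of the codes of the transvections. -/
def tc : List ℕ := [984818244535754528103549039458486304,984818244535754528103549039458486304,984818244535754528103549039458486304,984818244535754528103549039458486304,984818244535754528103549039458486304,984370798342469428377360417207715872,984674686509231270848998217272133664,984522237791282842243827263779473440,984818244535754528103549039458486304,976908108085554797803774220334904352,958572796407684634971422541721229344,972689358314341295732538083389849632,984818244535754528103549039458486304,971592882964418941354553515258775584,983548720921252936276249910206105632,975346028712660580592452217730074656,984818244535754528103549039458486304,984818244535754528103549039458486304,984818244535754528103549039458486304,984818244535754528103549039458486304,984818244535754528103549039458486304,975366630392323105260605610366440480,971594099268302134235014375640515616,983560732202510771760283209707927584,984818244535754528103549039458486304,976448692869377735270425038196672544,972512676110088067912772961567868960,961365507626256404119956257276790816,984818244535754528103549039458486304,984202951082164080105044112956360736,984724508489452699215480746259449888,984235865005994746954145143334668320,984818244535754528103549039458486304,984818244535754528103549039458486304,984818244535754528103549039458486304,984818244535754528103549039458486304]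

/-- The code of a transvection. -/
def tcode (i j : Fin 3) (c : F4) : ℕ := tc.getD ((i.1 * 3 + j.1) * 4 + c.1) 0

theorem tc_ok : ∀ (i j : Fin 3) (c : F4), isM24 (tcode i j c) = true ∧
    ap (tcode i j c) 0 = 0 ∧ ap (tcode i j c) 1 = 1 ∧ ap (tcode i j c) 23 = 23 := by
  decide +kernel

/-- The vector after a transvection. -/
def transV (i j : Fin 3) (c : F4) (v : Fin 3 → F4) : Fin 3 → F4 :=
  Function.update v i (v i + c * v j)

theorem tc_check : ∀ (i j : Fin 3) (c a b d : F4), i ≠ j → nz a b d →
    gpv (transV i j c ![a, b, d]) = ap (tcode i j c) (gp a b d) := by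
  decide +kernel

theorem transvection_smul {i j : Fin 3} (hij : i ≠ j) (c : F4) (v : Fin 3 → F4) :
    Matrix.SpecialLinearGroup.transvection hij c • v = transV i j c v := by
  rw [Matrix.SpecialLinearGroup.smul_def, Matrix.SpecialLinearGroup.transvection_coe]
  show ((1 : Matrix (Fin 3) (Fin 3) F4) + Matrix.single i j c) *ᵥ v = _
  rw [Matrix.add_mulVec, Matrix.one_mulVec, Matrix.single_mulVec]
  ext k
  by_cases hk : k = i
  · subst hk
    simp [transV]
  · simp [transV, hk]

theorem eta_v (v : Fin 3 → F4) : ![v 0, v 1, v 2] = v := by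
  ext i
  fin_cases i <;> rfl

/-- The image of a transvection is decoded from its code. -/
theorem Phi_transvection {i j : Fin 3} (hij : i ≠ j) (c : F4) :
    Phi (Matrix.SpecialLinearGroup.transvection hij c : Matrix.SpecialLinearGroup (Fin 3) F4) =
      decode (tcode i j c) := by
  obtain ⟨h1, h2, h3, h4⟩ := tc_ok i j c
  have hv := isM24_valid h1
  apply Equiv.ext
  intro x
  by_cases hx : rest x
  · obtain ⟨P, rfl⟩ := fP_surj hx
    have e1 : fP P = ((eP P : Subtype rest) : GolayPt) := rfl
    rw [e1]
    show Equiv.Perm.extendDomain _ eP _ = _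
    rw [Equiv.Perm.extendDomain_apply_image]
    induction P using Projectivization.ind with
    | h v hv' =>
      show fP (Projectivization.PSLAction.toPermHom ((Matrix.SpecialLinearGroup.transvection hij c : Matrix.SpecialLinearGroup (Fin 3) F4) : Matrix.ProjectiveSpecialLinearGroup (Fin 3) F4) (Projectivization.mk F4 v hv')) =
        decode (tcode i j c) (fP (Projectivization.mk F4 v hv'))
      have e2 : Projectivization.PSLAction.toPermHom ((Matrix.SpecialLinearGroup.transvection hij c : Matrix.SpecialLinearGroup (Fin 3) F4) : Matrix.ProjectiveSpecialLinearGroup (Fin 3) F4) (Projectivization.mk F4 v hv') =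
          (Matrix.SpecialLinearGroup.transvection hij c : Matrix.SpecialLinearGroup (Fin 3) F4) • (Projectivization.mk F4 v hv') := rfl
      have lv : gpv v < 24 := (gp_lt _ _ _ (nz_of_ne hv')).1
      rw [e2, Projectivization.smul_mk, fP_mk, fP_mk, decode_pt hv lv,
        transvection_smul]
      have h5 := tc_check i j c (v 0) (v 1) (v 2) hij (nz_of_ne hv')
      rw [eta_v] at h5
      rw [h5]
      rfl
  · have e3 : Equiv.Perm.extendDomain (Projectivization.PSLAction.toPermHom ((Matrix.SpecialLinearGroup.transvection hij c : Matrix.SpecialLinearGroup (Fin 3) F4) : Matrix.ProjectiveSpecialLinearGroup (Fin 3) F4)) eP x = x :=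
      Equiv.Perm.extendDomain_apply_not_subtype _ _ hx
    refine e3.trans ?_
    have hfix : ∀ k, k < 24 → ap (tcode i j c) k = k → decode (tcode i j c) (pt k) = pt k := by
      intro k hk hkk
      rw [decode_pt hv hk, hkk]
    simp only [rest, not_and_or, not_not] at hx
    rcases hx with rfl | rfl | rfl
    · exact (hfix 0 (by norm_num) h2).symm
    · exact (hfix 1 (by norm_num) h3).symm
    · exact (hfix 23 (by norm_num) h4).symm

/-- The image of `PSL` lies in the stabiliser chain. -/
theorem Phi_mem (g : Matrix.ProjectiveSpecialLinearGroup (Fin 3) F4) : Phi g ∈ G [1, 0, 23] := by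
  obtain ⟨A, rfl⟩ := QuotientGroup.mk_surjective g
  refine ClassicalSL.transvection_induction (fun A : Matrix.SpecialLinearGroup (Fin 3) F4 =>
    Phi (A : Matrix.ProjectiveSpecialLinearGroup (Fin 3) F4) ∈ G [1, 0, 23]) ?_ ?_ A
  · intro i j hij c
    show Phi (Matrix.SpecialLinearGroup.transvection hij c : Matrix.SpecialLinearGroup (Fin 3) F4) ∈ G [1, 0, 23]
    rw [Phi_transvection]
    obtain ⟨h1, h2, h3, h4⟩ := tc_ok i j c
    have hv := isM24_valid h1
    refine ⟨decode_mem_M24 h1, ?_⟩
    intro k hk
    simp only [List.mem_cons, List.not_mem_nil, or_false] at hk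
    rcases hk with rfl | rfl | rfl
    · rw [decode_pt hv (by norm_num), h3]
    · rw [decode_pt hv (by norm_num), h2]
    · rw [decode_pt hv (by norm_num), h4]
  · intro A B hA hB
    have : ((A * B : Matrix.SpecialLinearGroup (Fin 3) F4) : Matrix.ProjectiveSpecialLinearGroup (Fin 3) F4) =
        (A : Matrix.ProjectiveSpecialLinearGroup (Fin 3) F4) * (B : Matrix.ProjectiveSpecialLinearGroup (Fin 3) F4) := rfl
    show Phi ((A * B : Matrix.SpecialLinearGroup (Fin 3) F4) : Matrix.ProjectiveSpecialLinearGroup (Fin 3) F4) ∈ _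
    rw [this, map_mul]
    exact Subgroup.mul_mem _ hA hB

theorem card_SL3 : Nat.card (Matrix.SpecialLinearGroup (Fin 3) F4) = 60480 := by
  have h1 := ClassicalCore.card_GL_eq_mul_card_SL (n := Fin 3) (F := F4)
  rw [Matrix.card_GL_field 3, Fin.prod_univ_three, card_F4] at h1
  norm_num at h1
  rw [Nat.card_eq_fintype_card]
  omega

theorem card_PSL3 : Nat.card (Matrix.ProjectiveSpecialLinearGroup (Fin 3) F4) = 20160 := by
  have h1 : Nat.card (Matrix.SpecialLinearGroup (Fin 3) F4) =
      Nat.card (Matrix.ProjectiveSpecialLinearGroup (Fin 3) F4) *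
        Nat.card (Subgroup.center (Matrix.SpecialLinearGroup (Fin 3) F4)) :=
    Subgroup.card_eq_card_quotient_mul_card_subgroup _
  rw [ClassicalCore.card_center_SL, card_SL3, Fintype.card_fin, card_F4] at h1
  norm_num at h1
  rw [Nat.card_eq_fintype_card]
  omega

theorem range_Phi : Phi.range = G [1, 0, 23] := by
  apply Subgroup.eq_of_le_of_card_ge
  · rintro _ ⟨g, rfl⟩
    exact Phi_mem g
  · rw [card_G3, Nat.card_congr (MonoidHom.ofInjective Phi_inj).toEquiv.symm, card_PSL3]

/-- The chain stabiliser as an iterated stabiliser. -/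
def K21 : Subgroup M24 :=
  stabilizer M24 (pt 23) ⊓ stabilizer M24 (pt 0) ⊓ stabilizer M24 (pt 1)

/-- `K21` as a subgroup of permutations. -/
def k21Equiv : ↥K21 ≃* ↥(G [1, 0, 23]) where
  toFun a := ⟨a.1.1, a.1.2, fun i hi => by
    simp only [List.mem_cons, List.not_mem_nil, or_false] at hi
    rcases hi with rfl | rfl | rfl
    · exact a.2.2
    · exact a.2.1.2
    · exact a.2.1.1⟩
  invFun a := ⟨⟨a.1, a.2.1⟩, ⟨a.2.2 23 (by simp), a.2.2 0 (by simp)⟩, a.2.2 1 (by simp)⟩
  left_inv _ := rfl
  right_inv _ := rfl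
  map_mul' _ _ := rfl

/-- The standard three-point stabiliser is `PSL(3, 4)`. -/
theorem m21_rep : Nonempty (↥K21 ≃* Matrix.ProjectiveSpecialLinearGroup (Fin 3) F4) := by
  refine ⟨k21Equiv.trans ?_⟩
  refine (MulEquiv.subgroupCongr range_Phi.symm).trans ?_
  exact (MonoidHom.ofInjective Phi_inj).symm

/-- Conjugate three-point stabilisers are isomorphic. -/
theorem nonempty_conj {H X : Type*} [Group H] [MulAction H X] (g : H) (a b c : X) :
    Nonempty (↥(stabilizer H (g • a) ⊓ stabilizer H (g • b) ⊓ stabilizer H (g • c)) ≃*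
      ↥(stabilizer H a ⊓ stabilizer H b ⊓ stabilizer H c)) := by
  have h : stabilizer H (g • a) ⊓ stabilizer H (g • b) ⊓ stabilizer H (g • c) =
      (stabilizer H a ⊓ stabilizer H b ⊓ stabilizer H c).map (MulAut.conj g).toMonoidHom := by
    rw [stabilizer_smul_eq_stabilizer_map_conj, stabilizer_smul_eq_stabilizer_map_conj,
      stabilizer_smul_eq_stabilizer_map_conj, Subgroup.map_inf _ _ _ (MulAut.conj g).injective,
      Subgroup.map_inf _ _ _ (MulAut.conj g).injective]
  rw [h]
  exact ⟨((MulAut.conj g).subgroupMap _).symm⟩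

theorem m21_general (p q r : GolayPt) (hpq : p ≠ q) (hpr : p ≠ r) (hqr : q ≠ r) (F : Type)
    [Field F] [Fintype F] (hF : Fintype.card F = 4) :
    Nonempty (↥(stabilizer M24 p ⊓ stabilizer M24 q ⊓ stabilizer M24 r) ≃*
      ProjectiveSpecialLinearGroup (Fin 3) F) := by
  obtain ⟨g, h1, h2, h3⟩ := exists_three (a := pt 23) (b := pt 0) (c := pt 1) (a' := p) (b' := q)
    (c' := r) (pt_ne_of_ne (by norm_num) (by norm_num) (by norm_num))
    (pt_ne_of_ne (by norm_num) (by norm_num) (by norm_num))
    (pt_ne_of_ne (by norm_num) (by norm_num) (by norm_num)) hpq hpr hqr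
  obtain ⟨e1⟩ := nonempty_conj g (pt 23) (pt 0) (pt 1)
  rw [h1, h2, h3] at e1
  obtain ⟨e2⟩ := m21_rep
  have e3 : F4 ≃+* F := FiniteField.ringEquivOfCardEq (by rw [card_F4, hF])
  exact ⟨(e1.trans e2).trans (SLTransfer.pslEquiv e3)⟩

end Cfsg.Agent.Lib.M21PSL
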