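import Mathlib
import Cfsg.Agent.Lib.GolayTab

/-!
# The class table of the Mathieu group of degree 22
-/

set_option autoImplicit false
set_option maxRecDepth 100000
set_option linter.style.haveILetI false
set_option linter.unusedVariables false
set_option linter.unusedSectionVars false

namespace Cfsg.Agent.Lib.M22Tab

open Cfsg Cfsg.Agent.Lib.Golay Cfsg.Agent.Lib.GolaySearch Cfsg.Agent.Lib.ClassTab Cfsg.Agent.Lib.GolayTab

/-- Representatives. -/
def code : Fin 12 → ℕ := ![984818244535754528103549039458486304,984355386066803413838770983050249280,984112234954291870411265355038100544,971215170011181409770527145437791296,967532269917795608261166275949135904,964651224561358359861968274398315616,975143129001514695052197121622082656,975548972582912133185661121177652256,977946142385489797270112026068388896,973158462051759579421586644272196672,962383996633219575928678441960933056,974098467437194010205121400791368800]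

/-- Centraliser orders. -/
def cc : Fin 12 → ℕ := ![443520,384,36,32,16,5,12,7,7,8,11,11]

/-- Class sizes. -/
def cs : Fin 12 → ℕ := ![1,1155,12320,13860,27720,88704,36960,63360,63360,55440,40320,40320]

theorem hpre : ∀ x ∈ [0, 23], x < 24 := by decide

theorem hcode : ∀ i, inG [0, 23] (code i) = true := by decide +kernel

theorem hcnt : ∀ i, i ≠ 0 → cnt (code i) (code i) chain22 [] ([0, 23].map fun x => (x, x)) ≤ cc i := by
  decide +kernel

theorem hnc : ∀ i j, i ≠ j → ncOK [0, 23] chain22 [1, 2, 3, 4, 6] (code i) (code j) = true := by
  decide +kernel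

theorem hmul : ∀ i, cs i * cc i = Nat.card ↥(G [0, 23]) := by
  rw [card_G2]
  decide +kernel

theorem hpos : ∀ i, 0 < cc i := by decide +kernel

theorem hsum : ∑ i, cs i = Nat.card ↥(G [0, 23]) := by
  rw [card_G2]
  decide +kernel

/-- The class table. -/
noncomputable def T : Tab ↥(G [0, 23]) 12 :=
  mkTab good22 hpre code [1, 2, 3, 4, 6] hcode cc cs 0 (by rw [card_G2]; decide) hcnt hnc hmul hpos hsum

theorem hr (i : Fin 12) : ((T.r i : ↥(G [0, 23])) : Equiv.Perm GolayPt) = decode (code i) := rfl

theorem hv (i : Fin 12) : valid (code i) = true := valid_of_inG (hcode i)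

end Cfsg.Agent.Lib.M22Tab
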