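import Mathlib
import Cfsg.Agent.Lib.M22c46Data

/-!
# The checks for the covering group of `M22`: tables
-/

set_option autoImplicit false
set_option maxRecDepth 100000

namespace Cfsg.Agent.Lib.M22c46

open Cfsg.Agent.Lib.Golay Cfsg.Agent.Lib.GolaySift Cfsg.Agent.Lib.MathieuOut Cfsg.Agent.Lib.SchurCoset46
  Cfsg.Agent.Lib.SchurCosetGolay46 Cfsg.Agent.Lib.SchurPres46 Cfsg.Agent.Lib.SchurGolayTab46

theorem tab_ok : ded1.base.tabChk = true := by decide +kernel

theorem ded1_vars : (List.range ded1.NE).all ded1.varChk = true := by decide +kernel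

theorem ded1_ok : ded1.check = true := by
  unfold Ded.check Ded.tabOK
  rw [tab_ok, ded1_vars]
  rfl

theorem ded2_ok : ded2.check = true := by decide +kernel

theorem gt1_vs : (List.range nV).all gt1.vChk = true := by decide +kernel

theorem gt1_h : gt1.hChk = true := by decide +kernel

theorem gt2_vs : (List.range 55).all gt2.vChk = true := by decide +kernel

theorem gt2_h : gt2.hChk = true := by decide +kernel

theorem small_ok : smallChk 55 gt1.Hl cLh (fun k => tW.getD k []) 0 = true := by decide +kernel

theorem relsL_ok : (List.range nR).all (fun j => ((relsL.getD j []).all fun l => Nat.blt l 4) &&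
    eqC (wordC cL (relsL.getD j [])) idC) = true := by decide +kernel

end Cfsg.Agent.Lib.M22c46
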