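import Mathlib
import Cfsg.Agent.Lib.M22c46Data

/-!
# The checks for the covering group of `M22`: the monomial representation
-/

set_option autoImplicit false
set_option maxRecDepth 100000

namespace Cfsg.Agent.Lib.M22c46

open Cfsg.Agent.Lib.SchurPres46

theorem word_0 : wordOK (relsL.getD 0 []) 0 = true := by decide +kernel
theorem word_1 : wordOK (relsL.getD 1 []) 0 = true := by decide +kernel
theorem word_2 : wordOK (relsL.getD 2 []) 6 = true := by decide +kernel
theorem word_3 : wordOK (relsL.getD 3 []) 6 = true := by decide +kernel
theorem word_4 : wordOK (relsL.getD 4 []) 4 = true := by decide +kernel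
theorem word_5 : wordOK (relsL.getD 5 []) 4 = true := by decide +kernel
theorem word_6 : wordOK (relsL.getD 6 []) 4 = true := by decide +kernel
theorem word_7 : wordOK (relsL.getD 7 []) 8 = true := by decide +kernel
theorem word_8 : wordOK (relsL.getD 8 []) 4 = true := by decide +kernel
theorem word_9 : wordOK (relsL.getD 9 []) 0 = true := by decide +kernel
theorem word_10 : wordOK (relsL.getD 10 []) 0 = true := by decide +kernel
theorem word_11 : wordOK (relsL.getD 11 []) 1 = true := by decide +kernel
theorem word_12 : wordOK (relsL.getD 12 []) 2 = true := by decide +kernel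
theorem word_13 : wordOK (relsL.getD 13 []) 0 = true := by decide +kernel
theorem word_14 : wordOK (relsL.getD 14 []) 1 = true := by decide +kernel
theorem word_15 : wordOK (relsL.getD 15 []) 7 = true := by decide +kernel
theorem word_16 : wordOK (relsL.getD 16 []) 6 = true := by decide +kernel
theorem word_17 : wordOK (relsL.getD 17 []) 6 = true := by decide +kernel
theorem word_18 : wordOK (relsL.getD 18 []) 0 = true := by decide +kernel
theorem word_19 : wordOK (relsL.getD 19 []) 5 = true := by decide +kernel
theorem word_20 : wordOK (relsL.getD 20 []) 10 = true := by decide +kernel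
theorem word_21 : wordOK (relsL.getD 21 []) 6 = true := by decide +kernel
theorem exp_0 : wordOK (expL.getD 0 []) 0 = true := by decide +kernel
theorem exp_1 : wordOK (expL.getD 1 []) 4 = true := by decide +kernel
theorem exp_2 : wordOK (expL.getD 2 []) 0 = true := by decide +kernel

theorem words_ok : ∀ j, j < nR → wordOK (relsL.getD j []) (kL.getD j 0) = true := by
  intro j hj
  have hj' : j < 22 := hj
  interval_cases j
  · exact word_0
  · exact word_1
  · exact word_2
  · exact word_3
  · exact word_4
  · exact word_5
  · exact word_6
  · exact word_7
  · exact word_8
  · exact word_9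
  · exact word_10
  · exact word_11
  · exact word_12
  · exact word_13
  · exact word_14
  · exact word_15
  · exact word_16
  · exact word_17
  · exact word_18
  · exact word_19
  · exact word_20
  · exact word_21

theorem exps_ok : ∀ j, j < 3 → wordOK (expL.getD j []) (k2L.getD j 0) = true := by
  intro j hj
  interval_cases j
  · exact exp_0
  · exact exp_1
  · exact exp_2

end Cfsg.Agent.Lib.M22c46
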