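import Mathlib
import Cfsg.Agent.Lib.GolayTransport
import Cfsg.Agent.Lib.M24Facts

set_option autoImplicit false
set_option linter.unusedVariables false

/-!
# `M24` acts on sextets and trios; tetrads lie in sextets
-/

namespace Cfsg.Agent.Lib.M24Fam
open Cfsg Cfsg.Agent.Lib.Golay
open scoped Pointwise

theorem smul_mem_sextets {g : Equiv.Perm GolayPt} (hg : g ∈ M24) {S : Finset (Finset GolayPt)}
    (hS : S ∈ sextets) : g • S ∈ sextets := by
  refine ⟨by rw [Finset.card_smul_finset]; exact hS.1, ?_, ?_⟩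
  · intro t ht
    obtain ⟨y, hy, rfl⟩ := Finset.mem_smul_finset.1 ht
    rw [Finset.card_smul_finset]
    exact hS.2.1 y hy
  · intro t ht u hu htu
    obtain ⟨y, hy, rfl⟩ := Finset.mem_smul_finset.1 ht
    obtain ⟨z, hz, rfl⟩ := Finset.mem_smul_finset.1 hu
    have hyz : y ≠ z := fun h => htu (by rw [h])
    rw [← Finset.smul_finset_union]
    exact smul_mem_octads hg (hS.2.2 y hy z hz hyz)

theorem smul_mem_trios {g : Equiv.Perm GolayPt} (hg : g ∈ M24) {T : Finset (Finset GolayPt)}
    (hT : T ∈ trios) : g • T ∈ trios := by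
  refine ⟨by rw [Finset.card_smul_finset]; exact hT.1, ?_, ?_⟩
  · intro t ht
    obtain ⟨y, hy, rfl⟩ := Finset.mem_smul_finset.1 ht
    exact smul_mem_octads hg (hT.2.1 y hy)
  · intro t ht u hu htu
    obtain ⟨y, hy, rfl⟩ := Finset.mem_smul_finset.1 ht
    obtain ⟨z, hz, rfl⟩ := Finset.mem_smul_finset.1 hu
    have hyz : y ≠ z := fun h => htu (by rw [h])
    exact Finset.disjoint_left.2 (by
      intro p hp hq
      obtain ⟨a, ha, rfl⟩ := Finset.mem_smul_finset.1 hp
      obtain ⟨b, hb, hab⟩ := Finset.mem_smul_finset.1 hq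
      have : b = a := MulAction.injective g hab
      subst this
      exact Finset.disjoint_left.1 (hT.2.2 y hy z hz hyz) ha hb)

/-- a tetrad through the point `pt 0` lies in a sextet -/
theorem exists_sextet_of_zero {t : Finset GolayPt} (ht : t.card = 4) (h0 : pt 0 ∈ t) :
    ∃ S ∈ sextets, t ∈ S := by
  have h1 := mem_sexHead ht h0
  rw [← sexHead_eq] at h1
  obtain ⟨l, hl, hhead⟩ := List.mem_map.1 h1
  refine ⟨famOf l, famOf_mem_sextets (List.all_eq_true.1 sexL_ok l hl), ?_⟩
  have := ofMask_mem_famOf (headOf_mem l hl)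
  rwa [hhead, ofMask_toMask] at this

/-- every tetrad lies in a sextet -/
theorem exists_sextet {t : Finset GolayPt} (ht : t.card = 4) : ∃ S ∈ sextets, t ∈ S := by
  have hne : t.Nonempty := by rw [← Finset.card_pos]; omega
  obtain ⟨p, hp⟩ := hne
  obtain ⟨p', hp'⟩ : ∃ q : GolayPt, q ≠ p := by
    by_contra hall
    push Not at hall
    have : (Finset.univ : Finset GolayPt).card ≤ 1 := by
      rw [Finset.card_le_one]
      intro a _ b _
      rw [hall a, hall b]
    rw [Finset.card_univ, card_pt] at this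
    omega
  obtain ⟨q, hq⟩ : ∃ q : GolayPt, q ≠ pt 0 := by
    by_contra hall
    push Not at hall
    have : (Finset.univ : Finset GolayPt).card ≤ 1 := by
      rw [Finset.card_le_one]
      intro a _ b _
      rw [hall a, hall b]
    rw [Finset.card_univ, card_pt] at this
    omega
  obtain ⟨g, hgp, -⟩ := M24Facts.exists_two (a := p) (b := p') (c := pt 0) (d := q) (Ne.symm hp') (Ne.symm hq)
  have hg : (g : Equiv.Perm GolayPt) ∈ M24 := g.2
  have h1 : pt 0 ∈ (g : Equiv.Perm GolayPt) • t := by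
    rw [Finset.mem_smul_finset]
    exact ⟨p, hp, hgp⟩
  obtain ⟨S, hS, hmem⟩ := exists_sextet_of_zero (t := (g : Equiv.Perm GolayPt) • t)
    (by rw [Finset.card_smul_finset]; exact ht) h1
  refine ⟨(g : Equiv.Perm GolayPt)⁻¹ • S, smul_mem_sextets (M24.inv_mem hg) hS, ?_⟩
  rw [Finset.mem_smul_finset]
  exact ⟨_, hmem, inv_smul_smul _ _⟩

end Cfsg.Agent.Lib.M24Fam
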