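import Mathlib
import Cfsg.Agent.Lib.GolayTransport
import Cfsg.Agent.Lib.M24Facts

set_option autoImplicit false
set_option linter.unusedVariables false

/-!
# Fixed points of elements of prime order in `M24`, orbits, blocks
-/

namespace Cfsg.Agent.Lib.M24Index
open Cfsg Cfsg.Agent.Lib.Golay Cfsg.Agent.Lib.M24Facts Finset
open scoped Pointwise

/-- The congruence for the number of fixed points in an invariant set. -/
theorem card_modEq_fix {α : Type*} [DecidableEq α] (f : Equiv.Perm α) {p : ℕ} [Fact p.Prime]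
    (hf : f ^ p = 1) (Δ : Finset α) (hΔ : ∀ x, f x ∈ Δ ↔ x ∈ Δ) :
    Δ.card ≡ (Δ.filter (fun x => f x = x)).card [MOD p] := by
  classical
  let σ : Equiv.Perm ↥Δ := f.subtypePerm (fun x => hΔ x)
  have hσ : σ ^ p ^ 1 = 1 := by
    rw [pow_one]
    ext x
    have h1 : ((σ ^ p) x : α) = (f ^ p) x := by
      show (((f.subtypePerm (fun x => hΔ x)) ^ p) x : α) = _
      rw [Equiv.Perm.subtypePerm_pow]
      rfl
    rw [h1, hf]
    rfl
  have h2 := Equiv.Perm.card_compl_support_modEq hσ
  have h3 : σ.supportᶜ.card = (Δ.filter (fun x => f x = x)).card := by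
    apply Finset.card_bij (fun (x : ↥Δ) _ => (x : α))
    · intro x hx
      simp only [Finset.mem_compl, Equiv.Perm.mem_support, not_not] at hx
      rw [Finset.mem_filter]
      exact ⟨x.2, congrArg Subtype.val hx⟩
    · intro x _ y _ h
      exact Subtype.ext h
    · intro y hy
      rw [Finset.mem_filter] at hy
      refine ⟨⟨y, hy.1⟩, ?_, rfl⟩
      simp only [Finset.mem_compl, Equiv.Perm.mem_support, not_not]
      exact Subtype.ext hy.2
  rw [h3, Fintype.card_coe] at h2
  exact h2.symm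

/-- The fixed points of a permutation. -/
def fixF (g : Equiv.Perm GolayPt) : Finset GolayPt := univ.filter fun x => g x = x

theorem mem_fixF {g : Equiv.Perm GolayPt} {x : GolayPt} : x ∈ fixF g ↔ g x = x := by
  simp [fixF]

theorem card_fixF_le {g : Equiv.Perm GolayPt} (hg : g ∈ M24) {p : ℕ} (ho : orderOf g = p)
    (hp : ¬ p ∣ 48) : (fixF g).card ≤ 4 := by
  by_contra hc
  push Not at hc
  obtain ⟨P, hP, hPc⟩ := Finset.exists_subset_card_eq (show 5 ≤ (fixF g).card by omega)
  have hmem : g ∈ Golay.Fix P := by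
    rw [mem_Fix]
    exact ⟨hg, fun q hq => mem_fixF.1 (hP hq)⟩
  have h1 := Subgroup.orderOf_dvd_natCard (Golay.Fix P) hmem
  rw [card_Fix_five P hPc, ho] at h1
  exact hp h1

theorem card_univ_eq : (univ : Finset GolayPt).card = 24 := by
  rw [Finset.card_univ, card_pt]

theorem fixF_modEq {g : Equiv.Perm GolayPt} {p : ℕ} [Fact p.Prime] (ho : orderOf g = p) :
    24 ≡ (fixF g).card [MOD p] := by
  have h0 : g ^ p = 1 := by rw [← ho]; exact pow_orderOf_eq_one g
  have h := card_modEq_fix g h0 (univ : Finset GolayPt) (by simp)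
  rwa [card_univ_eq] at h

instance fact5 : Fact (Nat.Prime 5) := ⟨by norm_num⟩
instance fact7 : Fact (Nat.Prime 7) := ⟨by norm_num⟩
instance fact11 : Fact (Nat.Prime 11) := ⟨by norm_num⟩

theorem card_fixF_five {g : Equiv.Perm GolayPt} (hg : g ∈ M24) (ho : orderOf g = 5) :
    (fixF g).card = 4 := by
  have h1 := card_fixF_le hg ho (by norm_num)
  have h2 := fixF_modEq ho
  unfold Nat.ModEq at h2
  omega

theorem card_fixF_seven {g : Equiv.Perm GolayPt} (hg : g ∈ M24) (ho : orderOf g = 7) :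
    (fixF g).card = 3 := by
  have h1 := card_fixF_le hg ho (by norm_num)
  have h2 := fixF_modEq ho
  unfold Nat.ModEq at h2
  omega

theorem card_fixF_eleven {g : Equiv.Perm GolayPt} (hg : g ∈ M24) (ho : orderOf g = 11) :
    (fixF g).card = 2 := by
  have h1 := card_fixF_le hg ho (by norm_num)
  have h2 := fixF_modEq ho
  unfold Nat.ModEq at h2
  omega

/-- An invariant set smaller than the prime consists of fixed points. -/
theorem subset_fix_of_small {g : Equiv.Perm GolayPt} {p : ℕ} [Fact p.Prime] (ho : orderOf g = p)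
    {Δ : Finset GolayPt} (hΔ : ∀ x, g x ∈ Δ ↔ x ∈ Δ) (hc : Δ.card < p) {x : GolayPt} (hx : x ∈ Δ) :
    g x = x := by
  have h0 : g ^ p = 1 := by rw [← ho]; exact pow_orderOf_eq_one g
  have h := card_modEq_fix g h0 Δ hΔ
  have hle : (Δ.filter (fun x => g x = x)).card ≤ Δ.card := Finset.card_filter_le _ _
  have h2 : Δ.card = (Δ.filter (fun x => g x = x)).card := by
    unfold Nat.ModEq at h
    rw [Nat.mod_eq_of_lt hc, Nat.mod_eq_of_lt (lt_of_le_of_lt hle hc)] at h
    exact h
  have h3 := Finset.eq_of_subset_of_card_le (Finset.filter_subset (fun x => g x = x) Δ) h2.le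
  rw [← h3] at hx
  exact (Finset.mem_filter.1 hx).2

/-! ### orbits -/

/-- The orbit of a point under a subgroup. -/
noncomputable def orb (K : Subgroup (Equiv.Perm GolayPt)) (x : GolayPt) : Finset GolayPt := by
  classical exact univ.filter fun y => ∃ g ∈ K, g x = y

theorem mem_orb {K : Subgroup (Equiv.Perm GolayPt)} {x y : GolayPt} : y ∈ orb K x ↔ ∃ g ∈ K, g x = y := by
  classical
  simp [orb]

theorem self_mem_orb (K : Subgroup (Equiv.Perm GolayPt)) (x : GolayPt) : x ∈ orb K x :=
  mem_orb.2 ⟨1, K.one_mem, rfl⟩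

theorem orb_iff {K : Subgroup (Equiv.Perm GolayPt)} {g : Equiv.Perm GolayPt} (hg : g ∈ K) (x y : GolayPt) :
    g y ∈ orb K x ↔ y ∈ orb K x := by
  rw [mem_orb, mem_orb]
  constructor
  · rintro ⟨k, hk, h⟩
    refine ⟨g⁻¹ * k, K.mul_mem (K.inv_mem hg) hk, ?_⟩
    rw [Equiv.Perm.mul_apply, h]
    simp
  · rintro ⟨k, hk, h⟩
    exact ⟨g * k, K.mul_mem hg hk, by rw [Equiv.Perm.mul_apply, h]⟩

theorem card_orb_mul (K : Subgroup (Equiv.Perm GolayPt)) (x : GolayPt) :
    (orb K x).card * Nat.card ↥(K ⊓ MulAction.stabilizer (Equiv.Perm GolayPt) x) = Nat.card K := by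
  have h := card_eq_orbit_mul_inf K x
  have h2 : MulAction.orbit K x = ((orb K x : Finset GolayPt) : Set GolayPt) := by
    ext y
    rw [Finset.mem_coe, mem_orb, MulAction.mem_orbit_iff]
    constructor
    · rintro ⟨⟨g, hg⟩, rfl⟩
      exact ⟨g, hg, rfl⟩
    · rintro ⟨g, hg, rfl⟩
      exact ⟨⟨g, hg⟩, rfl⟩
  rw [h2, Set.ncard_coe_finset] at h
  exact h.symm

theorem card_orb_dvd (K : Subgroup (Equiv.Perm GolayPt)) (x : GolayPt) : (orb K x).card ∣ Nat.card K :=
  Dvd.intro _ (card_orb_mul K x)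

/-- An element of prime order exists when the prime divides the order. -/
theorem exists_order {K : Subgroup (Equiv.Perm GolayPt)} {p : ℕ} [Fact p.Prime] (h : p ∣ Nat.card K) :
    ∃ g ∈ K, orderOf g = p := by
  obtain ⟨x, hx⟩ := exists_prime_orderOf_dvd_card' p h
  exact ⟨x.1, x.2, by rw [← hx]; exact (Subgroup.orderOf_coe x)⟩

/-- Transitivity. -/
def Trans (H : Subgroup (Equiv.Perm GolayPt)) : Prop := ∀ x y : GolayPt, ∃ g ∈ H, g x = y

theorem mem_smul_iff {g : Equiv.Perm GolayPt} {B : Finset GolayPt} {x : GolayPt} :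
    g x ∈ g • B ↔ x ∈ B := by
  have : g x = g • x := rfl
  rw [this]
  exact Finset.smul_mem_smul_finset_iff g

theorem mem_smul_iff' {g : Equiv.Perm GolayPt} {B : Finset GolayPt} {x : GolayPt} :
    x ∈ g • B ↔ g⁻¹ x ∈ B := by
  rw [← mem_smul_iff (g := g) (x := g⁻¹ x)]
  simp

theorem apply_mem_iff_of_smul {g : Equiv.Perm GolayPt} {B : Finset GolayPt} (h : g • B = B) (x : GolayPt) :
    g x ∈ B ↔ x ∈ B := by
  conv_lhs => rw [← h]
  exact mem_smul_iff

theorem smul_eq_of_apply {g : Equiv.Perm GolayPt} {B : Finset GolayPt} (h : ∀ x, g x ∈ B ↔ x ∈ B) : g • B = B := by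
  ext y
  rw [mem_smul_iff', ← h]
  simp

/-- Blocks of imprimitivity. -/
def Blk (H : Subgroup (Equiv.Perm GolayPt)) (B : Finset GolayPt) : Prop :=
  ∀ g ∈ H, ∀ x ∈ B, g x ∈ B → g • B = B

theorem blk_of {H : Subgroup (Equiv.Perm GolayPt)} {a : GolayPt} {B : Finset GolayPt}
    (hK : ∀ k ∈ H, k a = a → k • B = B) (hU : ∀ y ∈ B, ∃ u ∈ H, u a = y ∧ u • B = B) : Blk H B := by
  intro g hg x hx hgx
  obtain ⟨u₁, hu₁, h1, h1'⟩ := hU x hx
  obtain ⟨u₂, hu₂, h2, h2'⟩ := hU _ hgx
  have hk := hK (u₂⁻¹ * g * u₁) (H.mul_mem (H.mul_mem (H.inv_mem hu₂) hg) hu₁) (by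
    rw [Equiv.Perm.mul_apply, Equiv.Perm.mul_apply, h1, ← h2]
    simp)
  have : g = u₂ * (u₂⁻¹ * g * u₁) * u₁⁻¹ := by group
  rw [this, mul_smul, mul_smul, inv_smul_eq_iff.2 h1'.symm, hk, h2']

/-- A translate of a block is a block. -/
theorem Blk.smul {H : Subgroup (Equiv.Perm GolayPt)} {B : Finset GolayPt} (hB : Blk H B)
    {g : Equiv.Perm GolayPt} (hg : g ∈ H) : Blk H (g • B) := by
  intro k hk x hx hkx
  rw [mem_smul_iff'] at hx hkx
  have h := hB (g⁻¹ * k * g) (H.mul_mem (H.mul_mem (H.inv_mem hg) hk) hg) (g⁻¹ x) hx (by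
    simpa using hkx)
  have h2 : k * g = g * (g⁻¹ * k * g) := by group
  rw [← mul_smul, h2, mul_smul, h]

/-- Two translates of a block agree or are disjoint. -/
theorem Blk.eq_or_disjoint {H : Subgroup (Equiv.Perm GolayPt)} {B : Finset GolayPt} (hB : Blk H B)
    {g : Equiv.Perm GolayPt} (hg : g ∈ H) : g • B = B ∨ Disjoint (g • B) B := by
  by_cases h : Disjoint (g • B) B
  · exact Or.inr h
  · left
    rw [Finset.not_disjoint_iff] at h
    obtain ⟨y, hy1, hy2⟩ := h
    rw [mem_smul_iff'] at hy1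
    exact hB g hg _ hy1 (by simpa using hy2)

/-- A block with a point of `M24`-element of order five of size three modulo five is impossible. -/
theorem no_blk {H : Subgroup (Equiv.Perm GolayPt)} (hM : H ≤ M24) (hT : Trans H) {B : Finset GolayPt}
    (hB : Blk H B) (hc : B.card % 5 = 3) {h : Equiv.Perm GolayPt} (hh : h ∈ H) (ho : orderOf h = 5)
    {a : GolayPt} (haB : a ∈ B) (ha : h a = a) : False := by
  have h5 : h ^ 5 = 1 := by rw [← ho]; exact pow_orderOf_eq_one h
  have hf4 := card_fixF_five (hM hh) ho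
  -- a general estimate for `h`-invariant translates
  have key : ∀ (C : Finset GolayPt), C.card = B.card → (∀ x, h x ∈ C ↔ x ∈ C) → 3 ≤ (C.filter (fun x => h x = x)).card := by
    intro C hCc hC
    have h1 := card_modEq_fix h h5 C hC
    unfold Nat.ModEq at h1
    rw [hCc, hc] at h1
    omega
  have hhB : ∀ x, h x ∈ B ↔ x ∈ B := apply_mem_iff_of_smul (hB h hh a haB (by rw [ha]; exact haB))
  have h1 := key B rfl hhB
  -- a fixed point outside
  have h2 : ∃ z, z ∉ B ∧ h z = z := by
    have h3 := card_modEq_fix h h5 (Bᶜ) (fun x => by rw [Finset.mem_compl, Finset.mem_compl, hhB])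
    unfold Nat.ModEq at h3
    have h4 : (Bᶜ).card = 24 - B.card := by rw [Finset.card_compl, card_pt]
    have h5 : B.card ≤ 24 := by
      have := Finset.card_le_univ B
      rwa [card_pt] at this
    have h6 : ((Bᶜ).filter (fun x => h x = x)).card ≠ 0 := by
      intro h0
      rw [h0, h4] at h3
      omega
    obtain ⟨z, hz⟩ := Finset.card_ne_zero.1 h6
    rw [Finset.mem_filter, Finset.mem_compl] at hz
    exact ⟨z, hz.1, hz.2⟩
  obtain ⟨z, hzB, hz⟩ := h2
  obtain ⟨g, hg, hgz⟩ := hT a z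
  have hzm : z ∈ g • B := by
    rw [← hgz]
    exact mem_smul_iff.2 haB
  have h3 := key (g • B) (by rw [Finset.card_smul_finset]) (apply_mem_iff_of_smul
    ((hB.smul hg) h hh z hzm (by rw [hz]; exact hzm)))
  have hdis : Disjoint (g • B) B := by
    rcases hB.eq_or_disjoint hg with h4 | h4
    · rw [h4] at hzm
      exact absurd hzm hzB
    · exact h4
  have h4 : ((g • B).filter (fun x => h x = x) ∪ B.filter (fun x => h x = x)).card ≤ (fixF h).card := by
    apply Finset.card_le_card
    intro x hx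
    rw [Finset.mem_union, Finset.mem_filter, Finset.mem_filter] at hx
    rcases hx with hx | hx <;> exact mem_fixF.2 hx.2
  rw [Finset.card_union_of_disjoint (Finset.disjoint_filter_filter hdis)] at h4
  omega

/-- The points fixed by an element of prime order that stabilise the stabiliser's orbit form a block. -/
theorem blk_of_fix {H : Subgroup (Equiv.Perm GolayPt)} (hT : Trans H) {a : GolayPt} {B : Finset GolayPt}
    (haB : a ∈ B) (hK : ∀ k ∈ H, k a = a → k • B = B) {h : Equiv.Perm GolayPt} (hh : h ∈ H)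
    (hfix : ∀ x, h x = x ↔ x ∈ B) {p : ℕ} [Fact p.Prime] (ho : orderOf h = p) (hc : B.card - 1 < p) :
    Blk H B := by
  apply blk_of hK
  intro y hy
  obtain ⟨u, hu, hua⟩ := hT a y
  refine ⟨u, hu, hua, ?_⟩
  have hhy : h y = y := (hfix y).2 hy
  have hk := hK (u⁻¹ * h * u) (H.mul_mem (H.mul_mem (H.inv_mem hu) hh) hu) (by
    rw [Equiv.Perm.mul_apply, Equiv.Perm.mul_apply, hua, hhy, ← hua]
    simp)
  have hinv : h • (u • B) = u • B := by
    have h2 : h * u = u * (u⁻¹ * h * u) := by group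
    rw [← mul_smul, h2, mul_smul, hk]
  have hinv2 := apply_mem_iff_of_smul hinv
  have hy' : y ∈ u • B := by
    rw [← hua]
    exact mem_smul_iff.2 haB
  have hsub : u • B ⊆ B := by
    intro x hx
    by_cases hxy : x = y
    · rw [hxy]; exact hy
    · have hE : ∀ w, h w ∈ (u • B).erase y ↔ w ∈ (u • B).erase y := by
        intro w
        rw [Finset.mem_erase, Finset.mem_erase, hinv2]
        constructor
        · rintro ⟨h1, h2⟩
          exact ⟨fun e => h1 (by rw [e, hhy]), h2⟩
        · rintro ⟨h1, h2⟩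
          refine ⟨fun e => h1 ?_, h2⟩
          apply h.injective
          rw [e, hhy]
      have hcE : ((u • B).erase y).card < p := by
        rw [Finset.card_erase_of_mem hy', Finset.card_smul_finset]
        exact hc
      exact (hfix x).1 (subset_fix_of_small ho hE hcE (Finset.mem_erase.2 ⟨hxy, hx⟩))
  exact Finset.eq_of_subset_of_card_le hsub (by rw [Finset.card_smul_finset])

end Cfsg.Agent.Lib.M24Index
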