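import Mathlib
import Cfsg.Agent.Lib.OrbitTree
import Cfsg.Agent.Lib.M24Facts
import Cfsg.Agent.Lib.GolayTransport

set_option autoImplicit false
set_option linter.unusedVariables false

/-!
# The action of an octad stabiliser on the octad: the alternating group; the splitting `2^4 : A8`
-/

namespace Cfsg.Agent.Lib.OctadAction
open Cfsg Cfsg.Agent.Lib.Golay Cfsg.Agent.Lib.OrbitTree Cfsg.Agent.Lib.M24Facts
open scoped Pointwise

/-- the action on the octad -/
def octAct (o : Finset GolayPt) : ↥(stabP o) →* Equiv.Perm ↥o :=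
  MonoidHom.mk' (fun g => g.1.subtypePerm (mem_ofMask_smul_iff (mem_stabP.1 g.2).2)) (by
    intro a b
    ext x
    rfl)

theorem octAct_apply (o : Finset GolayPt) (g : ↥(stabP o)) (x : ↥o) :
    ((octAct o g x : ↥o) : GolayPt) = g.1 x := rfl

theorem orbit_octads {o : Finset GolayPt} (ho : o ∈ octads) : MulAction.orbit M24 o = octads := by
  ext x
  rw [MulAction.mem_orbit_iff]
  constructor
  · rintro ⟨⟨g, hg⟩, rfl⟩
    exact smul_mem_octads hg ho
  · intro hx
    obtain ⟨g, hg, h⟩ := exists_smul_octad ho hx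
    exact ⟨⟨g, hg⟩, h⟩

theorem ncard_octads : octads.ncard = 759 := by
  rw [octads_eq_image, ncard_image_list octL ofMask (strictAsc_nodup octL_asc) ofMask_injOn_octL, octL_length]

theorem card_stabP_octad {o : Finset GolayPt} (ho : o ∈ octads) : Nat.card (stabP o) = 322560 := by
  have h := card_eq_orbit_mul M24 o
  rw [orbit_octads ho, ncard_octads, card_M24] at h
  have h2 : Nat.card (stabP o) = Nat.card ↥(M24 ⊓ MulAction.stabilizer (Equiv.Perm GolayPt) o) := rfl
  rw [h2]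
  omega

theorem card_ker_octAct {o : Finset GolayPt} (ho : o ∈ octads) : Nat.card (octAct o).ker = 16 := by
  rw [← card_octadFix ho]
  apply Nat.card_congr
  refine {
    toFun := fun g => ⟨g.1.1, ?_⟩
    invFun := fun g => ⟨⟨g.1, ?_⟩, ?_⟩
    left_inv := fun g => rfl
    right_inv := fun g => rfl }
  · rw [mem_octadFix]
    refine ⟨(mem_stabP.1 g.1.2).1, fun p hp => ?_⟩
    have h1 : octAct o g.1 = 1 := g.2
    have h2 := octAct_apply o g.1 ⟨p, hp⟩
    rw [h1] at h2
    exact h2.symm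
  · obtain ⟨h1, h2⟩ := mem_octadFix.1 g.2
    refine mem_stabP.2 ⟨h1, ?_⟩
    apply Finset.eq_of_subset_of_card_le
    · intro q hq
      obtain ⟨y, hy, rfl⟩ := Finset.mem_smul_finset.1 hq
      rw [Equiv.Perm.smul_def, h2 y hy]
      exact hy
    · rw [Finset.card_smul_finset]
  · obtain ⟨h1, h2⟩ := mem_octadFix.1 g.2
    rw [MonoidHom.mem_ker]
    apply Equiv.ext
    intro x
    apply Subtype.ext
    exact h2 x x.2

theorem card_perm_octad {o : Finset GolayPt} (ho : o ∈ octads) : Nat.card (Equiv.Perm ↥o) = 40320 := by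
  rw [Nat.card_eq_fintype_card, Fintype.card_perm, Fintype.card_coe, ho.2]
  rfl

/-- the image of the stabiliser is the alternating group -/
theorem range_octAct {o : Finset GolayPt} (ho : o ∈ octads) :
    (octAct o).range = alternatingGroup ↥o := by
  apply Equiv.Perm.eq_alternatingGroup_of_index_eq_two
  have h1 := Subgroup.card_mul_index (octAct o).ker
  rw [Subgroup.index_ker, card_ker_octAct ho, card_stabP_octad ho] at h1
  have h2 := Subgroup.card_mul_index (octAct o).range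
  rw [card_perm_octad ho] at h2
  have h3 : Nat.card (octAct o).range = 20160 := by omega
  rw [h3] at h2
  omega

/-! ### the points outside -/

theorem pt4_not_mem : pt 4 ∉ ofMask 8536111 := by
  rw [mem_ofMask, idx_pt (by norm_num)]
  decide

theorem exists_k {o : Finset GolayPt} (ho : o ∈ octads) {p : GolayPt} (hp : p ∉ o) :
    ∃ k ∈ M24, k • ofMask 8536111 = o ∧ k (pt 4) = p := by
  obtain ⟨k, hk, rfl⟩ := exists_smul_octad (ofMask_mem_octads O0_mem) ho
  have h1 : k⁻¹ p ∉ ofMask 8536111 := by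
    intro h
    apply hp
    rw [Finset.mem_smul_finset]
    exact ⟨_, h, by simp [Equiv.Perm.smul_def]⟩
  have h2 : idx (k⁻¹ p) ∈ L7 := idx_mem_L7_of_not_mem h1
  obtain ⟨u, hu, hup⟩ := levelOK_spec level7 (by decide) (by norm_num) _ h2
  rw [pt_idx] at hup
  rw [← octadFix_O0] at hu
  obtain ⟨hu1, hu2⟩ := mem_octadFix.1 hu
  refine ⟨k * u, M24.mul_mem hk hu1, ?_, ?_⟩
  · rw [mul_smul]
    congr 1
    apply Finset.eq_of_subset_of_card_le
    · intro q hq
      obtain ⟨y, hy, rfl⟩ := Finset.mem_smul_finset.1 hq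
      rw [Equiv.Perm.smul_def, hu2 y hy]
      exact hy
    · rw [Finset.card_smul_finset]
  · rw [Equiv.Perm.mul_apply, hup]
    simp

/-- the pointwise stabiliser is transitive outside -/
theorem trans_F {o : Finset GolayPt} (ho : o ∈ octads) {p q : GolayPt} (hp : p ∉ o) (hq : q ∉ o) :
    ∃ f ∈ octadFix o, f p = q := by
  obtain ⟨k, hk, rfl, rfl⟩ := exists_k ho hp
  have h1 : k⁻¹ q ∉ ofMask 8536111 := by
    intro h
    apply hq
    rw [Finset.mem_smul_finset]
    exact ⟨_, h, by simp [Equiv.Perm.smul_def]⟩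
  have h2 : idx (k⁻¹ q) ∈ L7 := idx_mem_L7_of_not_mem h1
  obtain ⟨u, hu, hup⟩ := levelOK_spec level7 (by decide) (by norm_num) _ h2
  rw [pt_idx] at hup
  rw [← octadFix_O0] at hu
  refine ⟨k * u * k⁻¹, octadFix_conj hk hu, ?_⟩
  have e : k⁻¹ (k (pt 4)) = pt 4 := by simp
  simp only [Equiv.Perm.mul_apply, e]
  rw [hup]
  simp

/-- the pointwise stabiliser is semiregular outside -/
theorem eq_one_of_fix {o : Finset GolayPt} (ho : o ∈ octads) {p : GolayPt} (hp : p ∉ o)
    {g : Equiv.Perm GolayPt} (hg : g ∈ octadFix o) (hgp : g p = p) : g = 1 := by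
  obtain ⟨k, hk, rfl, rfl⟩ := exists_k ho hp
  have h1 := octadFix_conj (M24.inv_mem hk) hg
  have h2 : k⁻¹ • k • ofMask 8536111 = ofMask 8536111 := inv_smul_smul k _
  rw [h2, octadFix_O0] at h1
  have h3 : k⁻¹ * g * k⁻¹⁻¹ ∈ G [4,5,3,2,1,0,23] := by
    rw [mem_G]
    refine ⟨h1.1, ?_⟩
    intro i hi
    rw [List.mem_cons] at hi
    rcases hi with rfl | hi
    · simp [Equiv.Perm.mul_apply, hgp]
    · exact h1.2 i hi
  rw [G7_eq_bot, Subgroup.mem_bot] at h3
  have : g = k * (k⁻¹ * g * k⁻¹⁻¹) * k⁻¹ := by group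
  rw [this, h3]
  simp

/-- the joint stabiliser -/
def jointStab (o : Finset GolayPt) (p : GolayPt) : Subgroup (Equiv.Perm GolayPt) :=
  M24 ⊓ MulAction.stabilizer (Equiv.Perm GolayPt) o ⊓ MulAction.stabilizer (Equiv.Perm GolayPt) p

theorem mem_jointStab {o : Finset GolayPt} {p : GolayPt} {g : Equiv.Perm GolayPt} :
    g ∈ jointStab o p ↔ g ∈ M24 ∧ g • o = o ∧ g p = p :=
  ⟨fun h => ⟨h.1.1, h.1.2, h.2⟩, fun h => ⟨⟨h.1, h.2.1⟩, h.2.2⟩⟩

theorem jointStab_le (o : Finset GolayPt) (p : GolayPt) : jointStab o p ≤ stabP o := fun g h =>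
  mem_stabP.2 ⟨(mem_jointStab.1 h).1, (mem_jointStab.1 h).2.1⟩

theorem octadFix_inf_jointStab {o : Finset GolayPt} (ho : o ∈ octads) {p : GolayPt} (hp : p ∉ o) :
    octadFix o ⊓ jointStab o p = ⊥ := by
  rw [eq_bot_iff]
  intro g hg
  rw [Subgroup.mem_bot]
  exact eq_one_of_fix ho hp hg.1 (mem_jointStab.1 hg.2).2.2

theorem octadFix_le_stabP {o : Finset GolayPt} : octadFix o ≤ stabP o := by
  intro g hg
  obtain ⟨h1, h2⟩ := mem_octadFix.1 hg
  refine mem_stabP.2 ⟨h1, ?_⟩
  apply Finset.eq_of_subset_of_card_le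
  · intro q hq
    obtain ⟨y, hy, rfl⟩ := Finset.mem_smul_finset.1 hq
    rw [Equiv.Perm.smul_def, h2 y hy]
    exact hy
  · rw [Finset.card_smul_finset]

/-- factorisation of an element of the stabiliser -/
theorem factor {o : Finset GolayPt} (ho : o ∈ octads) {p : GolayPt} (hp : p ∉ o) {g : Equiv.Perm GolayPt}
    (hg : g ∈ stabP o) : ∃ f ∈ octadFix o, f⁻¹ * g ∈ jointStab o p := by
  obtain ⟨h1, h2⟩ := mem_stabP.1 hg
  have hq : g p ∉ o := by
    rw [mem_ofMask_smul_iff h2]
    exact hp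
  obtain ⟨f, hf, hfp⟩ := trans_F ho hp hq
  refine ⟨f, hf, mem_jointStab.2 ⟨M24.mul_mem (M24.inv_mem (mem_octadFix.1 hf).1) h1, ?_, ?_⟩⟩
  · have h3 : f⁻¹ ∈ stabP o := (stabP o).inv_mem (octadFix_le_stabP hf)
    rw [mul_smul, h2]
    exact (mem_stabP.1 h3).2
  · rw [Equiv.Perm.mul_apply, ← hfp]
    simp

theorem octadFix_sup_jointStab {o : Finset GolayPt} (ho : o ∈ octads) {p : GolayPt} (hp : p ∉ o) :
    octadFix o ⊔ jointStab o p = stabP o := by
  apply le_antisymm
  · exact sup_le octadFix_le_stabP (jointStab_le o p)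
  · intro g hg
    obtain ⟨f, hf, h⟩ := factor ho hp hg
    have : g = f * (f⁻¹ * g) := by group
    rw [this]
    exact Subgroup.mul_mem_sup hf h

/-- the action of the joint stabiliser -/
def jointAct (o : Finset GolayPt) (p : GolayPt) : ↥(jointStab o p) →* Equiv.Perm ↥o :=
  (octAct o).comp (Subgroup.inclusion (jointStab_le o p))

theorem jointAct_injective {o : Finset GolayPt} (ho : o ∈ octads) {p : GolayPt} (hp : p ∉ o) :
    Function.Injective (jointAct o p) := by
  rw [injective_iff_map_eq_one]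
  intro g hg
  apply Subtype.ext
  apply eq_one_of_fix ho hp _ (mem_jointStab.1 g.2).2.2
  rw [mem_octadFix]
  refine ⟨(mem_jointStab.1 g.2).1, fun q hq => ?_⟩
  have h2 : ((jointAct o p g ⟨q, hq⟩ : ↥o) : GolayPt) = g.1 q := rfl
  rw [hg] at h2
  exact h2.symm

theorem range_jointAct {o : Finset GolayPt} (ho : o ∈ octads) {p : GolayPt} (hp : p ∉ o) :
    (jointAct o p).range = alternatingGroup ↥o := by
  rw [← range_octAct ho]
  apply le_antisymm
  · rintro _ ⟨g, rfl⟩
    exact ⟨_, rfl⟩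
  · rintro _ ⟨g, rfl⟩
    obtain ⟨f, hf, h⟩ := factor ho hp g.2
    refine ⟨⟨_, h⟩, ?_⟩
    apply Equiv.ext
    intro x
    apply Subtype.ext
    show (f⁻¹ * g.1) x = g.1 x
    rw [Equiv.Perm.mul_apply]
    have hgx : g.1 x ∈ o := (mem_ofMask_smul_iff (mem_stabP.1 g.2).2 _).2 x.2
    have := (mem_octadFix.1 hf).2 _ hgx
    rw [Equiv.Perm.inv_eq_iff_eq]
    exact this.symm

theorem jointStab_equiv {o : Finset GolayPt} (ho : o ∈ octads) {p : GolayPt} (hp : p ∉ o) :
    Nonempty (↥(jointStab o p) ≃* alternatingGroup (Fin 8)) := by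
  classical
  have e : ↥o ≃ Fin 8 := o.equivFinOfCardEq ho.2
  exact ⟨(MonoidHom.ofInjective (jointAct_injective ho hp)).trans
    ((MulEquiv.subgroupCongr (range_jointAct ho hp)).trans (Equiv.altCongrHom e))⟩

end Cfsg.Agent.Lib.OctadAction
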