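import Mathlib
import Cfsg.Agent.Lib.M24IndexA
import Cfsg.Agent.Lib.OctadAction

set_option autoImplicit false
set_option linter.unusedVariables false
set_option maxRecDepth 100000

/-!
# Overgroups of a Sylow 2-subgroup of `M24`: explicit data and the transitive case
-/

namespace Cfsg.Agent.Lib.M24Index
open Cfsg Cfsg.Agent.Lib.Golay Cfsg.Agent.Lib.M24Facts Finset
open scoped Pointwise

/-- The generators fixing `pt 23`. -/
def p1Gens : List ℕ := [970075068886824735502948315867678752, 966644684235801628085642631091160128, 975516884244971844369772178915361856, 968549099132806133275643015240778816, 975346028712660580592452217730074656, 976448692869377735270425038196672544, 983548720921252936276249910206105632]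

/-- The generator interchanging two tetrads of the octad. -/
def g10 : ℕ := 224999474499487510442561657767705123

/-- A polycyclic sequence of a Sylow 2-subgroup of `M24`, stabilising a binary tree on `Oct0`. -/
def pcGens : List ℕ := g10 :: 65317326862242040490847512905810658 :: 5825264939855201211798774637299767 :: p1Gens

/-- The octad. -/
def O0m : ℕ := 8536111
/-- The three smaller orbits of `p1Gens` on the octad -/
def Y1 : ℕ := 1
def Y2 : ℕ := 6
def Y4 : ℕ := 147496
/-- The complement of the octad -/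
def Y16 : ℕ := 16777215 ^^^ 8536111

theorem pc_valid' : ∀ c ∈ pcGens, valid c = true := by decide +kernel
theorem pc_M24 : ∀ c ∈ pcGens, isM24 c = true := by decide +kernel
theorem pc_O0 : ∀ c ∈ pcGens, img c O0m = O0m := by decide +kernel
theorem p1_sub : ∀ c ∈ p1Gens, c ∈ pcGens := by decide +kernel
theorem p1_fix : ∀ c ∈ p1Gens, ap c 23 = 23 := by decide +kernel

/-! ### reach -/

/-- One round of closure of a mask under the generators. -/
def reach1 (gs : List ℕ) (m : ℕ) : ℕ := gs.foldl (fun acc c => Nat.lor acc (img c acc)) m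

/-- Several rounds of closure. -/
def reachN (gs : List ℕ) : ℕ → ℕ → ℕ
  | 0, m => m
  | n + 1, m => reachN gs n (reach1 gs m)

theorem mem_ofMask_lor {a b : ℕ} {p : GolayPt} : p ∈ ofMask (Nat.lor a b) ↔ p ∈ ofMask a ∨ p ∈ ofMask b := by
  rw [ofMask_lor, Finset.mem_union]

theorem chi_reach1 {χ : GolayPt → Prop} {gs : List ℕ} (hv : ∀ c ∈ gs, valid c = true)
    (hχ : ∀ c ∈ gs, ∀ p, χ (decode c p) ↔ χ p) {x : GolayPt} (m : ℕ)
    (hm : ∀ p ∈ ofMask m, χ p ↔ χ x) : ∀ p ∈ ofMask (reach1 gs m), χ p ↔ χ x := by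
  induction gs generalizing m with
  | nil => exact hm
  | cons c l ih =>
    apply ih (fun d hd => hv d (List.mem_cons_of_mem _ hd))
      (fun d hd => hχ d (List.mem_cons_of_mem _ hd))
    intro p hp
    rw [mem_ofMask_lor] at hp
    rcases hp with hp | hp
    · exact hm p hp
    · have hc := hv c (by simp)
      rw [← decode_smul_ofMask hc, Finset.mem_smul_finset] at hp
      obtain ⟨q, hq, rfl⟩ := hp
      rw [Equiv.Perm.smul_def, hχ c (by simp) q]
      exact hm q hq

theorem chi_reachN {χ : GolayPt → Prop} {gs : List ℕ} (hv : ∀ c ∈ gs, valid c = true)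
    (hχ : ∀ c ∈ gs, ∀ p, χ (decode c p) ↔ χ p) {x : GolayPt} (n m : ℕ)
    (hm : ∀ p ∈ ofMask m, χ p ↔ χ x) : ∀ p ∈ ofMask (reachN gs n m), χ p ↔ χ x := by
  induction n generalizing m with
  | zero => exact hm
  | succ n ih => exact ih _ (chi_reach1 hv hχ m hm)

theorem mem_ofMask_single {i : ℕ} (hi : i < 24) {p : GolayPt} (hp : p ∈ ofMask (2 ^ i)) : p = pt i := by
  rw [mem_ofMask, Nat.testBit_two_pow] at hp
  simp only [decide_eq_true_eq] at hp
  rw [← pt_idx p, ← hp]

theorem chi_orbit {χ : GolayPt → Prop} {gs : List ℕ} (hv : ∀ c ∈ gs, valid c = true)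
    (hχ : ∀ c ∈ gs, ∀ p, χ (decode c p) ↔ χ p) {i n Y : ℕ} (hi : i < 24) (h : reachN gs n (2 ^ i) = Y) :
    ∀ p ∈ ofMask Y, χ p ↔ χ (pt i) := by
  rw [← h]
  apply chi_reachN hv hχ
  intro p hp
  rw [mem_ofMask_single hi hp]

theorem orb_a0 : reachN pcGens 4 (2 ^ 23) = O0m := by decide +kernel
theorem orb_z0 : reachN pcGens 4 (2 ^ 4) = Y16 := by decide +kernel
theorem orb_1 : reachN p1Gens 4 (2 ^ 0) = Y1 := by decide +kernel
theorem orb_2 : reachN p1Gens 4 (2 ^ 1) = Y2 := by decide +kernel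
theorem orb_4 : reachN p1Gens 4 (2 ^ 3) = Y4 := by decide +kernel
theorem orb_16 : reachN p1Gens 4 (2 ^ 4) = Y16 := by decide +kernel

theorem cover_bits : ∀ i ∈ idxL, (O0m.testBit i || Y16.testBit i) = true := by decide +kernel
theorem cover2_bits : ∀ i ∈ idxL, ((Nat.beq i 23) || Y1.testBit i || Y2.testBit i || Y4.testBit i || Y16.testBit i) = true := by
  decide +kernel

theorem cover (p : GolayPt) : p ∈ ofMask O0m ∨ p ∈ ofMask Y16 := by
  have h := cover_bits (idx p) (mem_idxL.2 (idx_lt p))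
  rw [Bool.or_eq_true] at h
  rcases h with h | h
  · exact Or.inl (mem_ofMask.2 h)
  · exact Or.inr (mem_ofMask.2 h)

theorem cover2 (p : GolayPt) : p = pt 23 ∨ p ∈ ofMask Y1 ∨ p ∈ ofMask Y2 ∨ p ∈ ofMask Y4 ∨ p ∈ ofMask Y16 := by
  have h := cover2_bits (idx p) (mem_idxL.2 (idx_lt p))
  simp only [Bool.or_eq_true] at h
  rcases h with ((((h | h) | h) | h) | h)
  · left
    have := Nat.eq_of_beq_eq_true h
    rw [← this, pt_idx]
  · exact Or.inr (Or.inl (mem_ofMask.2 h))
  · exact Or.inr (Or.inr (Or.inl (mem_ofMask.2 h)))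
  · exact Or.inr (Or.inr (Or.inr (Or.inl (mem_ofMask.2 h))))
  · exact Or.inr (Or.inr (Or.inr (Or.inr (mem_ofMask.2 h))))

/-- The possible orbits of the point stabiliser. -/
def dm (b₁ b₂ b₃ : Bool) : ℕ :=
  Nat.lor Y4 (Nat.lor (cond b₁ Y1 0) (Nat.lor (cond b₂ Y2 0) (cond b₃ Y16 0)))

theorem not_mem_ofMask_zero {p : GolayPt} : p ∉ ofMask 0 := by
  simp [mem_ofMask]

theorem mem_cond {b : Bool} {m : ℕ} {p : GolayPt} : p ∈ ofMask (cond b m 0) ↔ b = true ∧ p ∈ ofMask m := by
  cases b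
  · simpa using not_mem_ofMask_zero
  · simp

theorem eq_dm (Δ : Finset GolayPt) (hinv : ∀ c ∈ p1Gens, ∀ p, decode c p ∈ Δ ↔ p ∈ Δ)
    (h23 : pt 23 ∉ Δ) (h3 : pt 3 ∈ Δ) :
    Δ = ofMask (dm (decide (pt 0 ∈ Δ)) (decide (pt 1 ∈ Δ)) (decide (pt 4 ∈ Δ))) := by
  have hv : ∀ c ∈ p1Gens, valid c = true := fun c hc => pc_valid' c (p1_sub c hc)
  have e1 := chi_orbit (χ := fun p => p ∈ Δ) hv hinv (by norm_num) orb_1
  have e2 := chi_orbit (χ := fun p => p ∈ Δ) hv hinv (by norm_num) orb_2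
  have e4 := chi_orbit (χ := fun p => p ∈ Δ) hv hinv (by norm_num) orb_4
  have e16 := chi_orbit (χ := fun p => p ∈ Δ) hv hinv (by norm_num) orb_16
  ext p
  rw [dm, mem_ofMask_lor, mem_ofMask_lor, mem_ofMask_lor, mem_cond, mem_cond, mem_cond]
  simp only [decide_eq_true_eq]
  constructor
  · intro hp
    rcases cover2 p with h | h | h | h | h
    · rw [h] at hp; exact absurd hp h23
    · exact Or.inr (Or.inl ⟨(e1 p h).1 hp, h⟩)
    · exact Or.inr (Or.inr (Or.inl ⟨(e2 p h).1 hp, h⟩))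
    · exact Or.inl h
    · exact Or.inr (Or.inr (Or.inr ⟨(e16 p h).1 hp, h⟩))
  · rintro (h | ⟨h1, h⟩ | ⟨h1, h⟩ | ⟨h1, h⟩)
    · exact (e4 p h).2 h3
    · exact (e1 p h).2 h1
    · exact (e2 p h).2 h1
    · exact (e16 p h).2 h1

theorem pop_dm : pop (dm false false false) = 4 ∧ pop (dm true false false) = 5 ∧ pop (dm false true false) = 6 ∧
    pop (dm true true false) = 7 ∧ pop (dm false false true) = 20 ∧ pop (dm true false true) = 21 ∧
    pop (dm false true true) = 22 ∧ pop (dm true true true) = 23 := by decide +kernel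

/-! ### the octad is not a block -/

theorem pc_mem_smul {c : ℕ} (hc : c ∈ pcGens) : decode c • ofMask O0m = ofMask O0m := by
  rw [decode_smul_ofMask (pc_valid' c hc), pc_O0 c hc]

theorem O0m_mem : ofMask O0m ∈ octads := Oct0_mem_octads

theorem no_K_O0 {H : Subgroup (Equiv.Perm GolayPt)} (hM : H ≤ M24) (hT : Trans H)
    (hP : ∀ c ∈ pcGens, decode c ∈ H) (hK : ∀ k ∈ H, k (pt 23) = pt 23 → k • ofMask O0m = ofMask O0m)
    {h : Equiv.Perm GolayPt} (hh : h ∈ H) (ho : orderOf h = 5) (ha : h (pt 23) = pt 23) : False := by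
  have hB : Blk H (ofMask O0m) := by
    apply blk_of hK
    intro y hy
    have e := chi_orbit (χ := fun y => ∃ u ∈ H, u (pt 23) = y ∧ u • ofMask O0m = ofMask O0m) pc_valid' (by
      intro c hc p
      constructor
      · rintro ⟨u, hu, h1, h2⟩
        refine ⟨(decode c)⁻¹ * u, H.mul_mem (H.inv_mem (hP c hc)) hu, ?_, ?_⟩
        · rw [Equiv.Perm.mul_apply, h1]; simp
        · rw [mul_smul, h2, inv_smul_eq_iff, pc_mem_smul hc]
      · rintro ⟨u, hu, h1, h2⟩
        refine ⟨decode c * u, H.mul_mem (hP c hc) hu, ?_, ?_⟩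
        · rw [Equiv.Perm.mul_apply, h1]
        · rw [mul_smul, h2, pc_mem_smul hc]) (by norm_num) orb_a0
    exact (e y hy).2 ⟨1, H.one_mem, rfl, one_smul _ _⟩
  have hc : (ofMask O0m).card % 5 = 3 := by
    rw [card_ofMask]
    decide +kernel
  have ha0 : pt 23 ∈ ofMask O0m := by
    rw [mem_ofMask, idx_pt (by norm_num)]
    decide +kernel
  exact no_blk hM hT hB hc hh ho ha0 ha

/-- A stabiliser preserving at least five points of the octad inside it is impossible. -/
theorem no_K_sub {H : Subgroup (Equiv.Perm GolayPt)} (hM : H ≤ M24) (hT : Trans H)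
    (hP : ∀ c ∈ pcGens, decode c ∈ H) {B : Finset GolayPt} (hBO : B ⊆ ofMask O0m) (hBc : 5 ≤ B.card)
    (hK : ∀ k ∈ H, k (pt 23) = pt 23 → k • B = B)
    {h : Equiv.Perm GolayPt} (hh : h ∈ H) (ho : orderOf h = 5) (ha : h (pt 23) = pt 23) : False := by
  refine no_K_O0 hM hT hP (fun k hk hka => ?_) hh ho ha
  obtain ⟨P, hPB, hPc⟩ := Finset.exists_subset_card_eq hBc
  have h1 := hK k hk hka
  apply octad_unique_of_subset hPc (smul_mem_octads (hM hk) O0m_mem) O0m_mem _ (hPB.trans hBO)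
  intro x hx
  have hx2 : x ∈ k • B := by rw [h1]; exact hPB hx
  rw [mem_smul_iff'] at hx2 ⊢
  exact hBO hx2

end Cfsg.Agent.Lib.M24Index
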