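import Mathlib
import Cfsg.Agent.Lib.M24IndexB

set_option autoImplicit false
set_option linter.unusedVariables false
set_option maxRecDepth 100000

/-!
# Subgroups of `M24` of index 759, 276, 1771, 253 inside the permutations
-/

namespace Cfsg.Agent.Lib.M24Index
open Cfsg Cfsg.Agent.Lib.Golay Cfsg.Agent.Lib.M24Facts Finset
open scoped Pointwise

/-- The stabiliser in a subgroup. -/
abbrev St (H : Subgroup (Equiv.Perm GolayPt)) (x : GolayPt) : Subgroup (Equiv.Perm GolayPt) :=
  H ⊓ MulAction.stabilizer (Equiv.Perm GolayPt) x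

theorem mem_St {H : Subgroup (Equiv.Perm GolayPt)} {x : GolayPt} {g : Equiv.Perm GolayPt} :
    g ∈ St H x ↔ g ∈ H ∧ g x = x := by
  rw [St, Subgroup.mem_inf, MulAction.mem_stabilizer_iff]
  rfl

theorem card_inf_pt (p : GolayPt) : Nat.card ↥(St M24 p) = 10200960 := by
  rw [← card_stabilizer_one p]
  apply Nat.card_congr
  exact {
    toFun := fun g => ⟨⟨g.1, g.2.1⟩, g.2.2⟩
    invFun := fun g => ⟨g.1.1, g.1.2, g.2⟩
    left_inv := fun g => rfl
    right_inv := fun g => rfl }

theorem trans_of_orb {H : Subgroup (Equiv.Perm GolayPt)} {a : GolayPt} (h : ∀ y, y ∈ orb H a) : Trans H := by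
  intro x y
  obtain ⟨g₁, h1, h1'⟩ := mem_orb.1 (h x)
  obtain ⟨g₂, h2, h2'⟩ := mem_orb.1 (h y)
  refine ⟨g₂ * g₁⁻¹, H.mul_mem h2 (H.inv_mem h1), ?_⟩
  rw [Equiv.Perm.mul_apply, ← h1', ← h2']
  simp

theorem orb_univ {H : Subgroup (Equiv.Perm GolayPt)} (hT : Trans H) (x : GolayPt) : orb H x = univ := by
  ext y
  simp only [Finset.mem_univ, iff_true]
  obtain ⟨g, hg, h⟩ := hT x y
  exact mem_orb.2 ⟨g, hg, h⟩

theorem card_St {H : Subgroup (Equiv.Perm GolayPt)} (hT : Trans H) (x : GolayPt) :
    24 * Nat.card ↥(St H x) = Nat.card H := by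
  have h := card_orb_mul H x
  rwa [orb_univ hT, card_univ_eq] at h

theorem pow_order {g : Equiv.Perm GolayPt} {p : ℕ} (ho : orderOf g = p) : g ^ p = 1 := by
  rw [← ho]; exact pow_orderOf_eq_one g

/-- Index 276 in the transitive case is impossible. -/
theorem no_trans276 {H : Subgroup (Equiv.Perm GolayPt)} (hM : H ≤ M24) (hc : Nat.card H = 887040)
    (hT : Trans H) {h11 : Equiv.Perm GolayPt} (hh11 : h11 ∈ H) (o11 : orderOf h11 = 11) {p : GolayPt}
    (hp : p ∈ fixF h11) : False := by
  have cK : ∀ x, Nat.card ↥(St H x) = 36960 := by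
    intro x
    have := card_St hT x
    omega
  have hfix11 := card_fixF_eleven (hM hh11) o11
  -- the other fixed point
  obtain ⟨a, ha, hap⟩ : ∃ a ∈ fixF h11, a ≠ p := by
    apply Finset.exists_mem_ne (by omega)
  have h11K : h11 ∈ St H p := mem_St.2 ⟨hh11, mem_fixF.1 hp⟩
  obtain ⟨h7, h7K, o7⟩ := exists_order (K := St H p) (p := 7) (by rw [cK]; norm_num)
  have h7H := (mem_St.1 h7K).1
  have h7p := (mem_St.1 h7K).2
  have hfix7 := card_fixF_seven (hM h7H) o7
  -- the stabiliser of p fixes a
  have hKa : ∀ k ∈ St H p, k a = a := by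
    set Δ := orb (St H p) a with hΔ
    have hpΔ : p ∉ Δ := by
      intro hmem
      obtain ⟨k, hk, hk2⟩ := mem_orb.1 hmem
      have : k a = k p := by rw [hk2, (mem_St.1 hk).2]
      exact hap (k.injective this)
    have m11 := card_modEq_fix h11 (pow_order o11) Δ (orb_iff h11K a)
    have m7 := card_modEq_fix h7 (pow_order o7) Δ (orb_iff h7K a)
    have c11 : (Δ.filter fun x => h11 x = x).card = 1 := by
      have hsub : (Δ.filter fun x => h11 x = x) ⊆ (fixF h11).erase p := by
        intro x hx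
        rw [Finset.mem_filter] at hx
        refine Finset.mem_erase.2 ⟨fun e => hpΔ (e ▸ hx.1), mem_fixF.2 hx.2⟩
      have h1 := Finset.card_le_card hsub
      rw [Finset.card_erase_of_mem hp, hfix11] at h1
      have h2 : 0 < (Δ.filter fun x => h11 x = x).card :=
        Finset.card_pos.2 ⟨a, Finset.mem_filter.2 ⟨self_mem_orb _ a, mem_fixF.1 ha⟩⟩
      omega
    have c7 : (Δ.filter fun x => h7 x = x).card ≤ 2 := by
      have hsub : (Δ.filter fun x => h7 x = x) ⊆ (fixF h7).erase p := by
        intro x hx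
        rw [Finset.mem_filter] at hx
        refine Finset.mem_erase.2 ⟨fun e => hpΔ (e ▸ hx.1), mem_fixF.2 hx.2⟩
      have h1 := Finset.card_le_card hsub
      rw [Finset.card_erase_of_mem (mem_fixF.2 h7p), hfix7] at h1
      omega
    have hle : Δ.card ≤ 23 := by
      have hsub : Δ ⊆ univ.erase p := fun x hx => Finset.mem_erase.2 ⟨fun e => hpΔ (e ▸ hx), Finset.mem_univ x⟩
      have h1 := Finset.card_le_card hsub
      rwa [Finset.card_erase_of_mem (Finset.mem_univ p), card_univ_eq] at h1
    have hd : Δ.card ∣ 36960 := by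
      have := card_orb_dvd (St H p) a
      rwa [cK] at this
    unfold Nat.ModEq at m11 m7
    rw [c11] at m11
    have h1 : Δ.card = 1 ∨ Δ.card = 23 := by omega
    have h2 : Δ.card = 1 := by
      rcases h1 with h1 | h1
      · exact h1
      · rw [h1] at hd; norm_num at hd
    intro k hk
    have h3 : k a ∈ Δ := mem_orb.2 ⟨k, hk, rfl⟩
    exact Finset.card_le_one.1 h2.le _ h3 _ (self_mem_orb _ a)
  have hEq : St H p = St H a := by
    apply Subgroup.eq_of_le_of_card_ge
    · intro k hk
      exact mem_St.2 ⟨(mem_St.1 hk).1, hKa k hk⟩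
    · rw [cK, cK]
  -- a third fixed point of h7
  have ha7 : a ∈ fixF h7 := mem_fixF.2 (hKa h7 h7K)
  obtain ⟨z, hz7, hzp, hza⟩ : ∃ z ∈ fixF h7, z ≠ p ∧ z ≠ a := by
    have : 0 < (((fixF h7).erase p).erase a).card := by
      rw [Finset.card_erase_of_mem (Finset.mem_erase.2 ⟨hap, ha7⟩),
        Finset.card_erase_of_mem (mem_fixF.2 h7p), hfix7]
      norm_num
    obtain ⟨z, hz⟩ := Finset.card_pos.1 this
    rw [Finset.mem_erase, Finset.mem_erase] at hz
    exact ⟨z, hz.2.2, hz.2.1, hz.1⟩
  obtain ⟨g, hg, hgp⟩ := hT p z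
  set b := g a with hb
  -- fixing z and fixing b are equivalent in H
  have hiff : ∀ x ∈ H, x z = z ↔ x b = b := by
    intro x hx
    have hgx : g⁻¹ * x * g ∈ H := H.mul_mem (H.mul_mem (H.inv_mem hg) hx) hg
    have e1 : x z = z ↔ g⁻¹ * x * g ∈ St H p := by
      rw [mem_St]
      simp only [Equiv.Perm.mul_apply, hgp, hgx, true_and]
      constructor
      · intro h; rw [h, ← hgp]; simp
      · intro h
        have := congrArg g h
        rw [hgp] at this
        simpa using this
    have e2 : x b = b ↔ g⁻¹ * x * g ∈ St H a := by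
      rw [mem_St]
      simp only [Equiv.Perm.mul_apply, ← hb, hgx, true_and]
      constructor
      · intro h; rw [h, hb]; simp
      · intro h
        have := congrArg g h
        rw [← hb] at this
        simpa using this
    rw [e1, e2, hEq]
  have hb7 : b ∈ fixF h7 := mem_fixF.2 ((hiff h7 h7H).1 (mem_fixF.1 hz7))
  have hbz : b ≠ z := by
    intro e
    rw [hb, ← hgp] at e
    exact hap (g.injective e)
  -- the three fixed points
  have h3 : fixF h7 = {p, a, z} := by
    symm
    apply Finset.eq_of_subset_of_card_le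
    · intro x hx
      simp only [Finset.mem_insert, Finset.mem_singleton] at hx
      rcases hx with rfl | rfl | rfl
      · exact mem_fixF.2 h7p
      · exact ha7
      · exact hz7
    · rw [hfix7, Finset.card_insert_of_notMem, Finset.card_insert_of_notMem, Finset.card_singleton]
      · simpa using hza.symm
      · simp only [Finset.mem_insert, Finset.mem_singleton, not_or]
        exact ⟨hap.symm, hzp.symm⟩
  have hbpa : b = p ∨ b = a := by
    rw [h3] at hb7
    simp only [Finset.mem_insert, Finset.mem_singleton] at hb7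
    rcases hb7 with h | h | h
    · exact Or.inl h
    · exact Or.inr h
    · exact absurd h hbz
  -- so h11 fixes z
  have h11b : h11 b = b := by
    rcases hbpa with h | h
    · rw [h]; exact mem_fixF.1 hp
    · rw [h]; exact mem_fixF.1 ha
  have hz11 : z ∈ fixF h11 := mem_fixF.2 ((hiff h11 hh11).2 h11b)
  have h2 : fixF h11 = {p, a} := by
    symm
    apply Finset.eq_of_subset_of_card_le
    · intro x hx
      simp only [Finset.mem_insert, Finset.mem_singleton] at hx
      rcases hx with rfl | rfl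
      · exact hp
      · exact ha
    · rw [hfix11, Finset.card_insert_of_notMem, Finset.card_singleton]
      simpa using hap.symm
  rw [h2] at hz11
  simp only [Finset.mem_insert, Finset.mem_singleton] at hz11
  rcases hz11 with h | h
  · exact hzp h
  · exact hza h

/-- A subgroup of order 887040 preserves a pair of points. -/
theorem index276 {H : Subgroup (Equiv.Perm GolayPt)} (hM : H ≤ M24) (hc : Nat.card H = 887040) :
    ∃ s : Finset GolayPt, s.card = 2 ∧ ∀ g ∈ H, g • s = s := by
  obtain ⟨h11, h11H, o11⟩ := exists_order (K := H) (p := 11) (by rw [hc]; norm_num)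
  obtain ⟨h7, h7H, o7⟩ := exists_order (K := H) (p := 7) (by rw [hc]; norm_num)
  have f11 := card_fixF_eleven (hM h11H) o11
  have f7 := card_fixF_seven (hM h7H) o7
  obtain ⟨p, hp⟩ : (fixF h11).Nonempty := by rw [← Finset.card_pos]; omega
  set Δ := orb H p with hΔ
  have m11 := card_modEq_fix h11 (pow_order o11) Δ (orb_iff h11H p)
  have m7 := card_modEq_fix h7 (pow_order o7) Δ (orb_iff h7H p)
  have c11 : (Δ.filter fun x => h11 x = x).card ≤ 2 := by
    rw [← f11]
    apply Finset.card_le_card
    intro x hx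
    exact mem_fixF.2 (Finset.mem_filter.1 hx).2
  have c11' : 0 < (Δ.filter fun x => h11 x = x).card :=
    Finset.card_pos.2 ⟨p, Finset.mem_filter.2 ⟨self_mem_orb _ p, mem_fixF.1 hp⟩⟩
  have c7 : (Δ.filter fun x => h7 x = x).card ≤ 3 := by
    rw [← f7]
    apply Finset.card_le_card
    intro x hx
    exact mem_fixF.2 (Finset.mem_filter.1 hx).2
  have hle : Δ.card ≤ 24 := by
    have := Finset.card_le_univ Δ
    rwa [card_pt] at this
  have hd : Δ.card ∣ 887040 := by
    have := card_orb_dvd H p
    rwa [hc] at this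
  unfold Nat.ModEq at m11 m7
  have h1 : Δ.card = 1 ∨ Δ.card = 2 ∨ Δ.card = 23 ∨ Δ.card = 24 := by omega
  rcases h1 with h1 | h1 | h1 | h1
  · -- a fixed point
    exfalso
    have hfixp : ∀ g ∈ H, g p = p := by
      intro g hg
      have h3 : g p ∈ Δ := mem_orb.2 ⟨g, hg, rfl⟩
      exact Finset.card_le_one.1 h1.le _ h3 _ (self_mem_orb _ p)
    have hle2 : H ≤ St M24 p := fun g hg => mem_St.2 ⟨hM hg, hfixp g hg⟩
    have := Subgroup.card_dvd_of_le hle2
    rw [hc, card_inf_pt] at this
    norm_num at this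
  · exact ⟨Δ, h1, fun g hg => smul_eq_of_apply (orb_iff hg p)⟩
  · rw [h1] at hd; norm_num at hd
  · exfalso
    have hall : Δ = univ := Finset.eq_univ_of_card _ (by rw [h1, card_pt])
    have hT : Trans H := trans_of_orb (a := p) (fun y => by
      show y ∈ Δ
      rw [hall]; exact Finset.mem_univ y)
    exact no_trans276 hM hc hT h11H o11 hp

/-! ### overgroups of the Sylow subgroup -/

/-- The dichotomy for overgroups of the Sylow subgroup. -/
theorem trans_or_fix {H : Subgroup (Equiv.Perm GolayPt)} (hP : ∀ c ∈ pcGens, decode c ∈ H) :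
    Trans H ∨ ∀ g ∈ H, g • ofMask O0m = ofMask O0m := by
  have hinv : ∀ c ∈ pcGens, ∀ p, decode c p ∈ orb H (pt 23) ↔ p ∈ orb H (pt 23) :=
    fun c hc p => orb_iff (hP c hc) _ _
  have e1 := chi_orbit (χ := fun p => p ∈ orb H (pt 23)) pc_valid' hinv (by norm_num) orb_a0
  have e2 := chi_orbit (χ := fun p => p ∈ orb H (pt 23)) pc_valid' hinv (by norm_num) orb_z0
  have h0 := self_mem_orb H (pt 23)
  by_cases hz : pt 4 ∈ orb H (pt 23)
  · left
    apply trans_of_orb (a := pt 23)
    intro y
    rcases cover y with h | h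
    · exact (e1 y h).2 h0
    · exact (e2 y h).2 hz
  · right
    have hO : orb H (pt 23) = ofMask O0m := by
      ext y
      constructor
      · intro hy
        rcases cover y with h | h
        · exact h
        · exact absurd ((e2 y h).1 hy) hz
      · intro hy
        exact (e1 y hy).2 h0
    intro g hg
    rw [← hO]
    exact smul_eq_of_apply (orb_iff hg _)

/-- Facts on the orbit of the stabiliser of `pt 23`. -/
theorem orbit_facts {H : Subgroup (Equiv.Perm GolayPt)} (hP : ∀ c ∈ pcGens, decode c ∈ H) :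
    orb (St H (pt 23)) (pt 3) = ofMask (dm (decide (pt 0 ∈ orb (St H (pt 23)) (pt 3)))
      (decide (pt 1 ∈ orb (St H (pt 23)) (pt 3))) (decide (pt 4 ∈ orb (St H (pt 23)) (pt 3)))) := by
  apply eq_dm
  · intro c hc p
    apply orb_iff
    refine mem_St.2 ⟨hP c (p1_sub c hc), ?_⟩
    rw [decode_pt (pc_valid' c (p1_sub c hc)) (by norm_num), p1_fix c hc]
  · intro hmem
    obtain ⟨k, hk, hk2⟩ := mem_orb.1 hmem
    have e : k (pt 3) = k (pt 23) := by rw [hk2, (mem_St.1 hk).2]
    have h2 := k.injective e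
    have h3 := pt_injOn (by norm_num) (by norm_num) h2
    omega
  · exact self_mem_orb _ _

theorem smul_O0_part {k : Equiv.Perm GolayPt} {Δ : Finset GolayPt} (hk : k (pt 23) = pt 23) (hΔ : k • Δ = Δ) :
    k • (insert (pt 23) Δ) = insert (pt 23) Δ := by
  apply smul_eq_of_apply
  intro x
  rw [Finset.mem_insert, Finset.mem_insert, apply_mem_iff_of_smul hΔ]
  constructor
  · rintro (h | h)
    · left
      apply k.injective
      rw [h, hk]
    · exact Or.inr h
  · rintro (h | h)
    · left; rw [h, hk]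
    · exact Or.inr h

theorem pt23_not_dm (b₁ b₂ b₃ : Bool) : pt 23 ∉ ofMask (dm b₁ b₂ b₃) := by
  have : ∀ b₁ b₂ b₃ : Bool, (dm b₁ b₂ b₃).testBit 23 = false := by decide +kernel
  rw [mem_ofMask, idx_pt (by norm_num), this]
  simp

theorem dm_sub (b₁ b₂ : Bool) : ofMask (dm b₁ b₂ false) ⊆ ofMask O0m := by
  intro x hx
  rw [mem_ofMask] at hx ⊢
  have : ∀ b₁ b₂ : Bool, ∀ i ∈ idxL, (dm b₁ b₂ false).testBit i = true → O0m.testBit i = true := by decide +kernel
  exact this b₁ b₂ _ (mem_idxL.2 (idx_lt x)) hx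

/-- Main step with an element of order 7. -/
theorem caseA {H : Subgroup (Equiv.Perm GolayPt)} (hM : H ≤ M24) (hT : Trans H)
    (hP : ∀ c ∈ pcGens, decode c ∈ H) (hc5 : 5 ∣ Nat.card ↥(St H (pt 23)))
    (hc7 : 7 ∣ Nat.card ↥(St H (pt 23))) (hc11 : ¬ 11 ∣ Nat.card ↥(St H (pt 23)))
    (hc23 : ¬ 23 ∣ Nat.card ↥(St H (pt 23))) : False := by
  obtain ⟨h5, h5K, o5⟩ := exists_order (K := St H (pt 23)) (p := 5) hc5
  obtain ⟨h7, h7K, o7⟩ := exists_order (K := St H (pt 23)) (p := 7) hc7
  have h5H := (mem_St.1 h5K).1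
  have h5a := (mem_St.1 h5K).2
  have h7H := (mem_St.1 h7K).1
  have h7a := (mem_St.1 h7K).2
  have f7 := card_fixF_seven (hM h7H) o7
  set K := St H (pt 23) with hK
  set Δ := orb K (pt 3) with hΔ
  have hnot : pt 23 ∉ Δ := by
    intro hmem
    obtain ⟨k, hk, hk2⟩ := mem_orb.1 hmem
    have e : k (pt 3) = k (pt 23) := by rw [hk2, (mem_St.1 hk).2]
    have h3 := pt_injOn (by norm_num) (by norm_num) (k.injective e)
    omega
  have m7 := card_modEq_fix h7 (pow_order o7) Δ (orb_iff h7K _)
  have c7 : (Δ.filter fun x => h7 x = x).card ≤ 2 := by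
    have hsub : (Δ.filter fun x => h7 x = x) ⊆ (fixF h7).erase (pt 23) := by
      intro x hx
      rw [Finset.mem_filter] at hx
      exact Finset.mem_erase.2 ⟨fun e => hnot (e ▸ hx.1), mem_fixF.2 hx.2⟩
    have h1 := Finset.card_le_card hsub
    rw [Finset.card_erase_of_mem (mem_fixF.2 h7a), f7] at h1
    omega
  have hd := card_orb_dvd K (pt 3)
  have heq := orbit_facts hP
  rw [← hK, ← hΔ] at heq
  have hpres : ∀ k ∈ H, k (pt 23) = pt 23 → k • Δ = Δ := fun k hk hka =>
    smul_eq_of_apply (orb_iff (mem_St.2 ⟨hk, hka⟩) _)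
  unfold Nat.ModEq at m7
  obtain ⟨p4, p5, p6, p7, p20, p21, p22, p23⟩ := pop_dm
  -- the case analysis
  generalize hb₁ : decide (pt 0 ∈ Δ) = b₁ at heq
  generalize hb₂ : decide (pt 1 ∈ Δ) = b₂ at heq
  generalize hb₃ : decide (pt 4 ∈ Δ) = b₃ at heq
  have hcard : Δ.card = pop (dm b₁ b₂ b₃) := by rw [heq, card_ofMask]
  have sub_case : b₃ = false → 5 ≤ Δ.card + 1 → False := by
    intro hb h5c
    subst hb
    have hsub : insert (pt 23) Δ ⊆ ofMask O0m := by
      intro x hx
      rw [Finset.mem_insert] at hx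
      rcases hx with rfl | hx
      · rw [mem_ofMask, idx_pt (by norm_num)]; decide +kernel
      · rw [heq] at hx
        exact dm_sub _ _ hx
    refine no_K_sub hM hT hP hsub ?_ (fun k hk hka => smul_O0_part hka (hpres k hk hka)) h5H o5 h5a
    rw [Finset.card_insert_of_notMem hnot]
    exact h5c
  cases b₁ <;> cases b₂ <;> cases b₃
  · rw [hcard, p4] at m7; omega
  · rw [hcard, p20] at m7; omega
  · rw [hcard, p6] at m7; omega
  · rw [hcard, p22] at hd
    exact hc11 (Dvd.dvd.trans (by norm_num) hd)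
  · rw [hcard, p5] at m7; omega
  · -- orbit of size 21
    rw [hcard, p21] at hd m7
    set B := Δᶜ with hB
    have hBc : B.card = 3 := by
      rw [hB, Finset.card_compl, card_pt, hcard, p21]
    have ha : pt 23 ∈ B := by rw [hB, Finset.mem_compl]; exact hnot
    have hBK : ∀ k ∈ H, k (pt 23) = pt 23 → k • B = B := by
      intro k hk hka
      have h1 := hpres k hk hka
      apply smul_eq_of_apply
      intro x
      rw [hB, Finset.mem_compl, Finset.mem_compl, apply_mem_iff_of_smul h1]
    have hfix : ∀ x, h7 x = x ↔ x ∈ B := by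
      have hsub : B ⊆ fixF h7 := by
        intro x hx
        by_cases hxa : x = pt 23
        · rw [hxa]; exact mem_fixF.2 h7a
        · apply mem_fixF.2
          have hinv := apply_mem_iff_of_smul (hBK h7 h7H h7a)
          have hE : ∀ w, h7 w ∈ B.erase (pt 23) ↔ w ∈ B.erase (pt 23) := by
            intro w
            rw [Finset.mem_erase, Finset.mem_erase, hinv]
            constructor
            · rintro ⟨h1, h2⟩
              exact ⟨fun e => h1 (by rw [e, h7a]), h2⟩
            · rintro ⟨h1, h2⟩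
              refine ⟨fun e => h1 ?_, h2⟩
              apply h7.injective
              rw [e, h7a]
          exact subset_fix_of_small o7 hE (by rw [Finset.card_erase_of_mem ha, hBc]; norm_num)
            (Finset.mem_erase.2 ⟨hxa, hx⟩)
      have hEq : B = fixF h7 := Finset.eq_of_subset_of_card_le hsub (by rw [f7, hBc])
      intro x
      rw [hEq, mem_fixF]
    have hblk : Blk H B := blk_of_fix hT ha hBK h7H hfix o7 (by rw [hBc]; norm_num)
    exact no_blk hM hT hblk (by rw [hBc]) h5H o5 ha h5a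
  · exact sub_case rfl (by rw [hcard, p7]; norm_num)
  · rw [hcard, p23] at hd
    exact hc23 hd

/-- The tetrad of the binary tree. -/
def tauM : ℕ := 8388615

theorem tau_data : img g10 tauM = Y4 ∧ Nat.lor tauM Y4 = O0m ∧ pop tauM = 4 ∧ tauM.testBit 23 = true ∧ tauM ≠ Y4 := by
  decide +kernel

end Cfsg.Agent.Lib.M24Index
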