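import Mathlib
import Cfsg.Agent.Lib.OrbitTree

set_option autoImplicit false
set_option linter.unusedSectionVars false
set_option linter.unusedVariables false

/-!
# Classes of a family under a stabiliser in `M24`

`ClassData` collects the kernel checks for: the family `Y = dec '' F` is one orbit of `M24`, and the level sets of
the invariant `f` are `{x}` and the orbits of the stabiliser of `x`.
-/

namespace Cfsg.Agent.Lib.OrbitCheck
open Cfsg Cfsg.Agent.Lib.Golay Cfsg.Agent.Lib.OrbitTree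
open scoped Pointwise

section
variable {α : Type} {X : Type*} [MulAction (Equiv.Perm GolayPt) X]

/-- the data of a decomposition of a family into classes -/
structure ClassData (lt : α → α → Bool) (act : ℕ → α → α) (dec : α → X) (F : List α) (Y : Set X)
    (r0 : α) (f : X → ℕ) (f' : α → ℕ) (v0 : ℕ) {n : ℕ} (r : Fin n → α) (v s : Fin n → ℕ) : Prop where
  htot : Total lt
  hdec : ∀ c, valid c = true → ∀ x, decode c • dec x = dec (act c x)
  hY : Y = dec '' {y | y ∈ F}
  hnd : F.Nodup
  hinj : Set.InjOn dec {c | c ∈ F}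
  hYinv : ∀ g ∈ M24, ∀ z ∈ Y, g • z ∈ Y
  htrans : ∃ gM : List ℕ, gM.all isM24 = true ∧ orbitL lt act gM r0 = sortU lt F
  hf : ∀ g ∈ stabP (dec r0), ∀ x, f (g • x) = f x
  hf' : ∀ y ∈ F, f' y = f (dec y)
  hv0 : F.filter (fun y => Nat.beq (f' y) v0) = [r0]
  hclass : ∃ gS : List ℕ, (∀ c ∈ gS, valid c = true ∧ decode c ∈ stabP (dec r0)) ∧
    ∀ i, r i ∈ F ∧ f' (r i) = v i ∧
      orbitL lt act gS (r i) = sortU lt (F.filter fun y => Nat.beq (f' y) (v i)) ∧
      (F.filter fun y => Nat.beq (f' y) (v i)).length = s i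
  hall : ∀ y ∈ F, f' y = v0 ∨ ∃ i, f' y = v i
  hne : ∀ i, v i ≠ v0
  hinjv : Function.Injective v

variable {lt : α → α → Bool} {act : ℕ → α → α} {dec : α → X} {F : List α} {Y : Set X}
  {r0 : α} {f : X → ℕ} {f' : α → ℕ} {v0 : ℕ} {n : ℕ} {r : Fin n → α} {v s : Fin n → ℕ}

theorem ClassData.r0_mem (D : ClassData lt act dec F Y r0 f f' v0 r v s) : r0 ∈ F := by
  have h : r0 ∈ F.filter (fun y => Nat.beq (f' y) v0) := by rw [D.hv0]; simp
  exact (List.mem_filter.1 h).1

theorem ClassData.f'_r0 (D : ClassData lt act dec F Y r0 f f' v0 r v s) : f' r0 = v0 := by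
  have h : r0 ∈ F.filter (fun y => Nat.beq (f' y) v0) := by rw [D.hv0]; simp
  exact Nat.eq_of_beq_eq_true (List.mem_filter.1 h).2

theorem ClassData.f_r0 (D : ClassData lt act dec F Y r0 f f' v0 r v s) : f (dec r0) = v0 := by
  rw [← D.hf' r0 D.r0_mem, D.f'_r0]

theorem ClassData.orbit_all (D : ClassData lt act dec F Y r0 f f' v0 r v s) :
    MulAction.orbit M24 (dec r0) = Y := by
  obtain ⟨gM, h1, h2⟩ := D.htrans
  exact orbit_eq_of_check_all D.htot D.hdec (gens_M24 h1) D.hY D.hYinv D.r0_mem h2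

theorem ClassData.orbit_class (D : ClassData lt act dec F Y r0 f f' v0 r v s) (i : Fin n) :
    MulAction.orbit (stabP (dec r0)) (dec (r i)) = {z | z ∈ Y ∧ f z = v i} := by
  obtain ⟨gS, h1, h2⟩ := D.hclass
  obtain ⟨h3, h4, h5, -⟩ := h2 i
  exact orbit_eq_of_check D.htot D.hdec h1 D.hY (fun g hg z hz => D.hYinv g (mem_stabP.1 hg).1 z hz)
    D.hf D.hf' h3 h4 h5

theorem ClassData.ncard_class (D : ClassData lt act dec F Y r0 f f' v0 r v s) (i : Fin n) :
    {z | z ∈ Y ∧ f z = v i}.ncard = s i := by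
  obtain ⟨gS, h1, h2⟩ := D.hclass
  obtain ⟨-, -, -, h6⟩ := h2 i
  rw [← h6, D.hY]
  apply ncard_filter_image F dec D.hnd D.hinj
  intro y hy
  rw [D.hf' y hy, Nat.beq_eq]

theorem ClassData.eq_of_f (D : ClassData lt act dec F Y r0 f f' v0 r v s) {z : X} (hz : z ∈ Y)
    (h : f z = v0) : z = dec r0 := by
  rw [D.hY] at hz
  obtain ⟨y, hy, rfl⟩ := hz
  have : y ∈ F.filter (fun y => Nat.beq (f' y) v0) := by
    rw [List.mem_filter]
    refine ⟨hy, ?_⟩
    rw [D.hf' y hy, h]
    exact Nat.beq_refl v0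
  rw [D.hv0, List.mem_singleton] at this
  rw [this]

theorem ClassData.f_cases (D : ClassData lt act dec F Y r0 f f' v0 r v s) {z : X} (hz : z ∈ Y) :
    f z = v0 ∨ ∃ i, f z = v i := by
  rw [D.hY] at hz
  obtain ⟨y, hy, rfl⟩ := hz
  rw [← D.hf' y hy]
  exact D.hall y hy

/-- the decomposition -/
theorem ClassData.decomp (D : ClassData lt act dec F Y r0 f f' v0 r v s) :
    Decomp ↥M24 Y (dec r0) (fun i => dec (r i)) s := by
  apply Decomp.of_classes f v0 v D.orbit_all D.f_r0 (fun z hz h => D.eq_of_f hz h) _ D.ncard_class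
    (fun z hz => D.f_cases hz) D.hne D.hinjv
  intro i
  rw [orbit_stabilizer_eq]
  exact D.orbit_class i

/-- two elements with the same invariant are conjugate under the stabiliser of the base point -/
theorem ClassData.same_class (D : ClassData lt act dec F Y r0 f f' v0 r v s) {z z' : X}
    (hz : z ∈ Y) (hz' : z' ∈ Y) (h : f z = f z') : ∃ g ∈ stabP (dec r0), g • z = z' := by
  rcases D.f_cases hz with h0 | ⟨i, hi⟩
  · have e1 := D.eq_of_f hz h0
    have e2 := D.eq_of_f hz' (h ▸ h0)
    exact ⟨1, Subgroup.one_mem _, by rw [one_smul, e1, e2]⟩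
  · have e1 : z ∈ MulAction.orbit (stabP (dec r0)) (dec (r i)) := by
      rw [D.orbit_class]; exact ⟨hz, hi⟩
    have e2 : z' ∈ MulAction.orbit (stabP (dec r0)) (dec (r i)) := by
      rw [D.orbit_class]; exact ⟨hz', h ▸ hi⟩
    have e3 : z' ∈ MulAction.orbit (stabP (dec r0)) z := by
      rw [MulAction.orbit_eq_iff.2 e1]
      exact e2
    obtain ⟨g, hg⟩ := e3
    exact ⟨g.1, g.2, hg⟩

end

/-! ### invariants -/

theorem card_inter_smul (g : Equiv.Perm GolayPt) (a b : Finset GolayPt) :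
    (g • a ∩ g • b).card = (a ∩ b).card := by
  rw [← Finset.smul_finset_inter, Finset.card_smul_finset]

theorem card_inter_stab {g : Equiv.Perm GolayPt} {A : Finset GolayPt} (h : g • A = A)
    (z : Finset GolayPt) : (A ∩ g • z).card = (A ∩ z).card := by
  conv_lhs => rw [← h]
  exact card_inter_smul g A z

/-- the joint intersection pattern of two families -/
def Inv (S T : Finset (Finset GolayPt)) : ℕ := ∑ t ∈ S, ∑ u ∈ T, 64 ^ (t ∩ u).card

theorem sum_smul_fam (g : Equiv.Perm GolayPt) (S : Finset (Finset GolayPt)) (F : Finset GolayPt → ℕ) :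
    ∑ t ∈ g • S, F t = ∑ t ∈ S, F (g • t) := by
  rw [← Finset.image_smul, Finset.sum_image]
  exact fun a _ b _ h => MulAction.injective g h

theorem Inv_smul (g : Equiv.Perm GolayPt) (S T : Finset (Finset GolayPt)) :
    Inv (g • S) (g • T) = Inv S T := by
  unfold Inv
  rw [sum_smul_fam]
  apply Finset.sum_congr rfl
  intro t _
  rw [sum_smul_fam]
  apply Finset.sum_congr rfl
  intro u _
  rw [card_inter_smul]

theorem Inv_stab {g : Equiv.Perm GolayPt} {S : Finset (Finset GolayPt)} (h : g • S = S)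
    (T : Finset (Finset GolayPt)) : Inv S (g • T) = Inv S T := by
  conv_lhs => rw [← h]
  exact Inv_smul g S T

/-- the pattern, on lists -/
def invL (s y : List ℕ) : ℕ := (s.map fun t => (y.map fun u => 64 ^ pop (Nat.land t u)).sum).sum

theorem sum_famOf {l : List ℕ} (hl : strictAsc l = true) (hlt : allLt l = true) (F : Finset GolayPt → ℕ) :
    ∑ t ∈ famOf l, F t = (l.map fun m => F (ofMask m)).sum := by
  unfold famOf
  have hnd : (l.map ofMask).Nodup := by
    apply (List.nodup_map_iff_inj_on (strictAsc_nodup hl)).2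
    intro a ha b hb hab
    exact ofMask_injOn (allLt_spec hlt a ha) (allLt_spec hlt b hb) hab
  rw [List.sum_toFinset F hnd, List.map_map]
  rfl

theorem Inv_famOf {s y : List ℕ} (h1 : strictAsc s = true) (h2 : allLt s = true)
    (h3 : strictAsc y = true) (h4 : allLt y = true) : Inv (famOf s) (famOf y) = invL s y := by
  have h : ∀ t, (∑ u ∈ famOf y, 64 ^ (ofMask t ∩ u).card) = (y.map fun u => 64 ^ pop (Nat.land t u)).sum := by
    intro t
    rw [sum_famOf h3 h4 (fun u => 64 ^ (ofMask t ∩ u).card)]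
    apply congrArg List.sum
    apply List.map_congr_left
    intro u _
    show 64 ^ (ofMask t ∩ ofMask u).card = _
    rw [← ofMask_land, card_ofMask]
  unfold Inv invL
  rw [sum_famOf h1 h2 (fun t => ∑ u ∈ famOf y, 64 ^ (t ∩ u).card)]
  apply congrArg List.sum
  apply List.map_congr_left
  intro t _
  exact h t

end Cfsg.Agent.Lib.OrbitCheck
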