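import Mathlib
import Cfsg.Agent.Lib.OrbitCheck

set_option autoImplicit false
set_option linter.unusedVariables false
set_option maxRecDepth 100000

/-!
# Orbits of the stabiliser of a duad on duads (1, 44, 231), of a triad on triads (1, 63, 210, 630, 1120)
-/

namespace Cfsg.Agent.Lib.OrbKset
open Cfsg Cfsg.Agent.Lib.Golay Cfsg.Agent.Lib.OrbitTree Cfsg.Agent.Lib.OrbitCheck
open scoped Pointwise

/-- generators of `M24` -/
def genM : List ℕ := [183637701251919819251266769097525416, 473049272503898951895999984420542576]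

/-! ### `k`-sets -/

/-- a list of masks of all `k`-sets: distinct, of size `k`, and enough of them -/
theorem ksets_eq_image {k : ℕ} {F : List ℕ} (hnd : F.Nodup) (hlt : ∀ m ∈ F, m < 2 ^ 24)
    (hpop : ∀ m ∈ F, pop m = k) (hlen : F.length = Nat.choose 24 k) :
    {U : Finset GolayPt | U.card = k} = ofMask '' {m | m ∈ F} := by
  classical
  have himg : ((F.toFinset.image ofMask : Finset (Finset GolayPt))) =
      Finset.powersetCard k Finset.univ := by
    apply Finset.eq_of_subset_of_card_le
    · intro U hU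
      obtain ⟨m, hm, rfl⟩ := Finset.mem_image.1 hU
      rw [Finset.mem_powersetCard]
      refine ⟨Finset.subset_univ _, ?_⟩
      rw [card_ofMask]
      exact hpop m (List.mem_toFinset.1 hm)
    · rw [Finset.card_powersetCard, Finset.card_univ, card_pt, ← hlen, Finset.card_image_of_injOn,
        List.toFinset_card_of_nodup hnd]
      intro a ha b hb hab
      exact ofMask_injOn (hlt a (List.mem_toFinset.1 ha)) (hlt b (List.mem_toFinset.1 hb)) hab
  ext U
  simp only [Set.mem_ofPred_eq, Set.mem_image]
  constructor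
  · intro hU
    have : U ∈ Finset.powersetCard k (Finset.univ : Finset GolayPt) := by
      rw [Finset.mem_powersetCard]
      exact ⟨Finset.subset_univ _, hU⟩
    rw [← himg] at this
    obtain ⟨m, hm, rfl⟩ := Finset.mem_image.1 this
    exact ⟨m, List.mem_toFinset.1 hm, rfl⟩
  · rintro ⟨m, hm, rfl⟩
    rw [card_ofMask]
    exact hpop m hm

theorem smul_mem_ksets (k : ℕ) (g : Equiv.Perm GolayPt) {U : Finset GolayPt}
    (hU : U ∈ {U : Finset GolayPt | U.card = k}) : g • U ∈ {U : Finset GolayPt | U.card = k} := by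
  show (g • U).card = k
  rw [Finset.card_smul_finset]
  exact hU

/-! ### duads -/

/-- all duads -/
def duadL : List ℕ := sortU ltN ((List.range 24).flatMap fun i => (List.range i).map fun j => 2 ^ i + 2 ^ j)

theorem duadL_facts : strictAsc duadL = true ∧ allLt duadL = true ∧ (∀ m ∈ duadL, pop m = 2) ∧ duadL.length = Nat.choose 24 2 := by
  decide +kernel

theorem duads_eq_image : {U : Finset GolayPt | U.card = 2} = ofMask '' {m | m ∈ duadL} :=
  ksets_eq_image (strictAsc_nodup duadL_facts.1) (allLt_spec duadL_facts.2.1) duadL_facts.2.2.1 duadL_facts.2.2.2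

/-- generators of the stabiliser of the base duad -/
def duadGens : List ℕ := [592178639198554668435809354256632833, 798460246332340900074172312529845280]
/-- representatives -/
def dr : Fin 2 → ℕ := ![5, 12]
/-- values of the invariant -/
def dv : Fin 2 → ℕ := ![1, 0]
/-- sizes -/
def ds : Fin 2 → ℕ := ![44, 231]

theorem duad_M : genM.all isM24 = true ∧ orbitL ltN img genM 3 = sortU ltN duadL := by decide +kernel
theorem duad_S : duadGens.all (fun c => isM24 c && Nat.beq (img c 3) 3) = true := by decide +kernel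
theorem duad_cl : ∀ i, dr i ∈ duadL ∧ pop (Nat.land 3 (dr i)) = dv i ∧
    orbitL ltN img duadGens (dr i) = sortU ltN (duadL.filter fun y => Nat.beq (pop (Nat.land 3 y)) (dv i)) ∧
    (duadL.filter fun y => Nat.beq (pop (Nat.land 3 y)) (dv i)).length = ds i := by decide +kernel
theorem duad_0 : duadL.filter (fun y => Nat.beq (pop (Nat.land 3 y)) 2) = [3] := by decide +kernel
theorem duad_all : ∀ y ∈ duadL, pop (Nat.land 3 y) = 2 ∨ ∃ i, pop (Nat.land 3 y) = dv i := by decide +kernel

theorem duad_data : ClassData ltN img ofMask duadL {U : Finset GolayPt | U.card = 2} 3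
    (fun z => (ofMask 3 ∩ z).card) (fun y => pop (Nat.land 3 y)) 2 dr dv ds where
  htot := total_ltN
  hdec := total_act_mask
  hY := duads_eq_image
  hnd := strictAsc_nodup duadL_facts.1
  hinj := fun a ha b hb h => ofMask_injOn (allLt_spec duadL_facts.2.1 a ha) (allLt_spec duadL_facts.2.1 b hb) h
  hYinv := fun g hg z hz => smul_mem_ksets 2 g hz
  htrans := ⟨genM, duad_M⟩
  hf := fun g hg x => card_inter_stab (mem_stabP.1 hg).2 x
  hf' := fun y _ => by rw [← ofMask_land, card_ofMask]
  hv0 := duad_0
  hclass := ⟨duadGens, gens_stab_mask duad_S, duad_cl⟩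
  hall := duad_all
  hne := by decide
  hinjv := by decide

theorem isCoatom_duad {s : Finset GolayPt} (hs : s.card = 2) : IsCoatom (MulAction.stabilizer M24 s) := by
  obtain ⟨y', hy'⟩ := duad_data.decomp.transport (x' := s) hs
  apply hy'.isCoatom (by norm_num)
  decide

/-! ### triads -/

/-- all triads -/
def triadL : List ℕ := sortU ltN ((List.range 24).flatMap fun i => (List.range i).flatMap fun j =>
  (List.range j).map fun k => 2 ^ i + 2 ^ j + 2 ^ k)

theorem triadL_facts : strictAsc triadL = true ∧ allLt triadL = true ∧ (∀ m ∈ triadL, pop m = 3) ∧ triadL.length = Nat.choose 24 3 := by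
  decide +kernel

theorem triads_eq_image : {U : Finset GolayPt | U.card = 3} = ofMask '' {m | m ∈ triadL} :=
  ksets_eq_image (strictAsc_nodup triadL_facts.1) (allLt_spec triadL_facts.2.1) triadL_facts.2.2.1 triadL_facts.2.2.2

/-- the octads through the base triad -/
def octT : List ℕ := octL.filter fun o => Nat.beq (Nat.land 7 o) 7

/-- the union of the base triad with `m` lies in an octad -/
def inOct (m : ℕ) : Bool := octT.any fun o => Nat.beq (Nat.land (Nat.lor 7 m) o) (Nat.lor 7 m)

/-- the invariant, on masks -/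
def triF' (y : ℕ) : ℕ := 2 * pop (Nat.land 7 y) + cond (inOct y) 1 0

open Classical in
/-- the invariant -/
noncomputable def triF (U : Finset GolayPt) : ℕ :=
  2 * (ofMask 7 ∩ U).card + if ∃ o ∈ octads, ofMask 7 ∪ U ⊆ o then 1 else 0

theorem land_eq_of_subset {a b : ℕ} (ha : a < 2 ^ 24) (hb : b < 2 ^ 24) (h : ofMask a ⊆ ofMask b) :
    Nat.land a b = a := by
  apply ofMask_injOn (Nat.and_lt_two_pow _ hb) ha
  show ofMask (Nat.land a b) = ofMask a
  rw [ofMask_land, Finset.inter_eq_left.2 h]

theorem subset_of_land_eq {a b : ℕ} (h : Nat.land a b = a) : ofMask a ⊆ ofMask b := by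
  have := ofMask_land a b
  rw [h] at this
  rw [this]
  exact Finset.inter_subset_right

theorem inOct_spec {y : ℕ} (hy : y < 2 ^ 24) :
    inOct y = true ↔ ∃ o ∈ octads, ofMask 7 ∪ ofMask y ⊆ o := by
  have h7 : (7 : ℕ) < 2 ^ 24 := by norm_num
  have hm : Nat.lor 7 y < 2 ^ 24 := lt_of_lor h7 hy
  rw [← ofMask_lor]
  simp only [inOct, List.any_eq_true, octT, List.mem_filter, Nat.beq_eq]
  constructor
  · rintro ⟨o, ⟨ho, -⟩, he⟩
    exact ⟨ofMask o, ofMask_mem_octads ho, subset_of_land_eq he⟩
  · rintro ⟨o, ho, hs⟩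
    have ho' := (mem_octads_iff_list o).1 ho
    have hol : toMask o < 2 ^ 24 := toMask_lt o
    refine ⟨toMask o, ⟨ho', ?_⟩, ?_⟩
    · apply land_eq_of_subset h7 hol
      rw [ofMask_toMask]
      refine subset_trans ?_ hs
      rw [ofMask_lor]
      exact Finset.subset_union_left
    · apply land_eq_of_subset hm hol
      rw [ofMask_toMask]
      exact hs

theorem triF_eq {y : ℕ} (hy : y < 2 ^ 24) : triF' y = triF (ofMask y) := by
  classical
  unfold triF' triF
  rw [← ofMask_land, card_ofMask]
  congr 1
  cases h : inOct y with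
  | true => rw [if_pos ((inOct_spec hy).1 h)]; rfl
  | false =>
    rw [if_neg]
    · rfl
    · intro h2
      rw [(inOct_spec hy).2 h2] at h
      cases h

theorem exists_octad_smul {g : Equiv.Perm GolayPt} (hg : g ∈ M24) (A U : Finset GolayPt) :
    (∃ o ∈ octads, g • A ∪ g • U ⊆ o) ↔ ∃ o ∈ octads, A ∪ U ⊆ o := by
  constructor
  · rintro ⟨o, ho, hs⟩
    refine ⟨g⁻¹ • o, smul_mem_octads (M24.inv_mem hg) ho, ?_⟩
    intro p hp
    rw [Finset.mem_smul_finset]
    refine ⟨g p, hs ?_, by simp [Equiv.Perm.smul_def]⟩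
    rw [← Finset.smul_finset_union]
    exact Finset.mem_smul_finset.2 ⟨p, hp, rfl⟩
  · rintro ⟨o, ho, hs⟩
    refine ⟨g • o, smul_mem_octads hg ho, ?_⟩
    rw [← Finset.smul_finset_union]
    exact Finset.smul_finset_subset_smul_finset_iff.2 hs

theorem triF_stab {g : Equiv.Perm GolayPt} (hg : g ∈ stabP (ofMask 7)) (U : Finset GolayPt) :
    triF (g • U) = triF U := by
  classical
  obtain ⟨h1, h2⟩ := mem_stabP.1 hg
  unfold triF
  rw [card_inter_stab h2]
  congr 1
  have : (∃ o ∈ octads, ofMask 7 ∪ g • U ⊆ o) ↔ ∃ o ∈ octads, ofMask 7 ∪ U ⊆ o := by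
    conv_lhs => rw [← h2]
    exact exists_octad_smul h1 _ _
  simp only [this]

/-- generators of the stabiliser of the base triad -/
def triadGens : List ℕ := [178330689423878588205395987341411392, 144995386158164560956955562846423041]
/-- representatives -/
def tr : Fin 4 → ℕ := ![11, 152, 25, 56]
/-- values of the invariant -/
def tv : Fin 4 → ℕ := ![5, 1, 3, 0]
/-- sizes -/
def ts : Fin 4 → ℕ := ![63, 210, 630, 1120]

theorem triad_M : genM.all isM24 = true ∧ orbitL ltN img genM 7 = sortU ltN triadL := by decide +kernel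
theorem triad_S : triadGens.all (fun c => isM24 c && Nat.beq (img c 7) 7) = true := by decide +kernel
theorem triad_cl : (∀ i, tr i ∈ triadL ∧ triF' (tr i) = tv i ∧
    orbitL ltN img triadGens (tr i) = sortU ltN (triadL.filter fun y => Nat.beq (triF' y) (tv i)) ∧
    (triadL.filter fun y => Nat.beq (triF' y) (tv i)).length = ts i) ∧
    triadL.filter (fun y => Nat.beq (triF' y) 7) = [7] ∧
    (∀ y ∈ triadL, triF' y = 7 ∨ ∃ i, triF' y = tv i) := by decide +kernel

theorem triad_data : ClassData ltN img ofMask triadL {U : Finset GolayPt | U.card = 3} 7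
    triF triF' 7 tr tv ts where
  htot := total_ltN
  hdec := total_act_mask
  hY := triads_eq_image
  hnd := strictAsc_nodup triadL_facts.1
  hinj := fun a ha b hb h => ofMask_injOn (allLt_spec triadL_facts.2.1 a ha) (allLt_spec triadL_facts.2.1 b hb) h
  hYinv := fun g hg z hz => smul_mem_ksets 3 g hz
  htrans := ⟨genM, triad_M⟩
  hf := fun g hg x => triF_stab hg x
  hf' := fun y hy => triF_eq (allLt_spec triadL_facts.2.1 y hy)
  hv0 := triad_cl.2.1
  hclass := ⟨triadGens, gens_stab_mask triad_S, triad_cl.1⟩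
  hall := triad_cl.2.2
  hne := by decide
  hinjv := by decide

theorem isCoatom_triad {s : Finset GolayPt} (hs : s.card = 3) : IsCoatom (MulAction.stabilizer M24 s) := by
  obtain ⟨y', hy'⟩ := triad_data.decomp.transport (x' := s) hs
  apply hy'.isCoatom (by norm_num)
  decide

end Cfsg.Agent.Lib.OrbKset
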