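import Mathlib
import Cfsg.Agent.Lib.OrbitCheck
import Cfsg.Agent.Lib.M24Fam

set_option autoImplicit false
set_option linter.unusedVariables false
set_option maxRecDepth 100000

/-!
# Orbits of the stabiliser of a sextet on sextets: sizes 1, 90, 240, 1440
-/

namespace Cfsg.Agent.Lib.OrbSex
open Cfsg Cfsg.Agent.Lib.Golay Cfsg.Agent.Lib.OrbitTree Cfsg.Agent.Lib.OrbitCheck
open Cfsg.Agent.Lib.M24Fam
open scoped Pointwise

/-- generators of `M24` -/
def genM : List ℕ := [183637701251919819251266769097525416, 473049272503898951895999984420542576]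
/-- generators of the stabiliser of the base family -/
def gensS : List ℕ := [21227312029377407392012114966568113, 350777466060441860142015579296574665]
/-- the base family -/
def b0 : List ℕ := [15, 5264, 622848, 3416064, 4196928, 8536096]
/-- representatives -/
def rs : Fin 3 → List ℕ := ![[147, 5132, 272448, 737280, 7340544, 8421664], [23, 5256, 786976, 1065280, 2263040, 12656640], [51, 786948, 1188864, 2162760, 4216832, 8421760]]
/-- values of the invariant -/
def vs : Fin 3 → ℕ := ![49176, 525456, 17424]
/-- sizes -/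
def ss : Fin 3 → ℕ := ![90, 240, 1440]
/-- value at the base -/
def v0 : ℕ := 100663326

theorem check_M : genM.all isM24 = true ∧ orbitL ltL actFam genM b0 = sortU ltL sexL := by decide +kernel
theorem check_S : gensS.all (fun c => isM24 c && decide (actFam c b0 = b0)) = true := by decide +kernel
theorem check_cl : (∀ i, rs i ∈ sexL ∧ invL b0 (rs i) = vs i ∧
    orbitL ltL actFam gensS (rs i) = sortU ltL (sexL.filter fun y => Nat.beq (invL b0 y) (vs i)) ∧
    (sexL.filter fun y => Nat.beq (invL b0 y) (vs i)).length = ss i) ∧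
    sexL.filter (fun y => Nat.beq (invL b0 y) v0) = [b0] ∧
    (∀ y ∈ sexL, invL b0 y = v0 ∨ ∃ i, invL b0 y = vs i) := by decide +kernel
theorem check_ne : ∀ i, vs i ≠ v0 := by decide
theorem check_inj : Function.Injective vs := by decide
theorem b0_mem : b0 ∈ sexL := by
  have h : b0 ∈ sexL.filter (fun y => Nat.beq (invL b0 y) v0) := by rw [check_cl.2.1]; simp
  exact (List.mem_filter.1 h).1

/-- the data -/
theorem data : ClassData ltL actFam famOf sexL sextets b0 (fun z => Inv (famOf b0) z)
    (fun y => invL b0 y) v0 rs vs ss where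
  htot := total_ltL
  hdec := decode_smul_famOf'
  hY := sextets_eq_image
  hnd := sexL_nodup
  hinj := famOf_injOn_sexL
  hYinv := fun g hg z hz => smul_mem_sextets hg hz
  htrans := ⟨genM, check_M⟩
  hf := fun g hg x => Inv_stab (mem_stabP.1 hg).2 x
  hf' := fun y hy => by
    have h1 := sexOK_asc (List.all_eq_true.1 sexL_ok y hy)
    have h2 := sexOK_asc (List.all_eq_true.1 sexL_ok b0 b0_mem)
    exact (Inv_famOf h2.1 h2.2 h1.1 h1.2).symm
  hv0 := check_cl.2.1
  hclass := ⟨gensS, gens_stab_fam check_S, check_cl.1⟩
  hall := check_cl.2.2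
  hne := check_ne
  hinjv := check_inj

theorem decomp : Decomp ↥M24 sextets (famOf b0) (fun i => famOf (rs i)) ss := data.decomp

theorem transport {S : Finset (Finset GolayPt)} (hS : S ∈ sextets) : ∃ y', Decomp ↥M24 sextets S y' ss :=
  decomp.transport hS

theorem isCoatom_stab {S : Finset (Finset GolayPt)} (hS : S ∈ sextets) : IsCoatom (MulAction.stabilizer M24 S) := by
  obtain ⟨y', hy'⟩ := transport hS
  apply hy'.isCoatom (by norm_num)
  decide

end Cfsg.Agent.Lib.OrbSex
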