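import Mathlib
import Cfsg.Agent.Lib.OrbSex
import Cfsg.Agent.Lib.OrbKset

set_option autoImplicit false
set_option linter.unusedVariables false
set_option maxRecDepth 100000

/-!
# The stabiliser of a sextet: the action on the tetrads, and the normal subgroup `2^6`
-/

namespace Cfsg.Agent.Lib.SextetGroup
open Cfsg Cfsg.Agent.Lib.Golay Cfsg.Agent.Lib.OrbitTree Cfsg.Agent.Lib.OrbitCheck
open Cfsg.Agent.Lib.OrbSex Cfsg.Agent.Lib.OrbKset Cfsg.Agent.Lib.M24Fam
open scoped Pointwise

/-- elements inducing the transpositions of the base sextet -/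
def swapCodes : List ℕ := [610851179967784354991088726716062858, 718389028958318661335524506222436883, 734834830362565928195534817039405490, 956138802231383555134108374082558326, 132957874896301220531347458808649175, 236803654147158376957603411839158307, 714118892222886164854615872391709760, 971715653076599625189304579694529601, 527774271272007835315795536845504579, 610768735875373881212504721422583904, 233193580960332124803313033991487585, 677174094540983625651807491737062432, 729789753046001066573742491901660162, 554510440500522044515501389079707745, 479745525417719039136095150012432481]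

/-- the elements of the normal subgroup, for the base sextet -/
def nL : List ℕ := [216031257977568192633985706410183681, 216227626219662118351051565874283587, 216318847532394293368276183264821346, 216357873600481717532560151321610272, 219925044865404335602496549529060419, 220121809236599362611927091125488641, 220213109803259289183002082616117280, 220252532000447816943241873487593570, 222521510211855271950402112419037282, 222718116131712103283380056249960480, 222808941315343168920901544778468353, 222848521963869917746636076779308099, 236800286945862178090600553424980000, 236996496736617905827622674440945762, 237088193432378916389358651429618755, 237127377951804563922728501298400257, 589876195687847248275933451517984866, 590072960059042287979885064796342304, 590164260625702196097460789311507457, 590203682822890736552221651864912963, 593770854087813340775841408049317920, 593967222329907279187428339195347042, 594058443642639447269110080197362755, 594097469710726884127915119936080897, 596366844051235442731031181682347009, 596563053841991157773532231016383555,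 596654750537752186788767474980520034, 596693935057177821627616253167372320, 610645700039170093514306231153460291, 610842305959026912152763103302454273, 610933131142657984725827468219484192, 610972711791184720857040928538394722, 714491598279222785337596717859603523, 714687808069978514226414409217018881, 714779504765739530547128581499226144, 714818689285165176928702861026558050, 718385860550087782304118187552214017, 718582466469944612485300561041687619, 718673291653575672363843854276788322, 718712872302102422341373956619077664, 720981692062171673584743151055243296, 721178456433366701745969262992851042, 721269757000026622558066059189945411, 721309179197215149166510279720242177, 735260944179207422204995828047708258, 735457312421301346770266117170628640, 735548533734033527546468929854573569, 735587559802120952862548468252542019, 963721886883755259286232606933354528, 963918492803612076772893908740898914, 964009317987243155104936468951336003, 964048898635769892387945499611696129, 967616069900692509306086327477895266, 967812279691448225500382947153381408,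 967903976387209248756639995823983617, 967943160906634882443693203669386307, 970212376795805237283018220920374339, 970408745037899174542809581725223937, 970499966350631336865513127433832480, 970538992418718774876113737513730146, 984490757400711034068282643818023937, 984687521771906074924029827437560899, 984778822338565988800583747246260322, 984818244535754528103549039458486304]

theorem swap_check : ∀ t ∈ b0, ∀ u ∈ b0, t ≠ u → ∃ c ∈ swapCodes, isM24 c = true ∧ img c t = u ∧ img c u = t ∧
    ∀ v ∈ b0, v ≠ t → v ≠ u → img c v = v := by decide +kernel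

/-- the test on pairs -/
def pairOK (c : ℕ) : Bool :=
  b0.all fun t => duadL.all fun m => (!(Nat.beq (Nat.land m t) m)) || Nat.beq (img c m) m ||
    Nat.beq (img c m) (Nat.xor t m)

theorem n_check : nL.all (fun c => isM24 c && pairOK c) = true := by decide +kernel

/-- the list of images of a code -/
def perm24 (c : ℕ) : List ℕ := idxL.map (ap c)

theorem n_nodup : (nL.map perm24).Nodup ∧ nL.length = 64 := by decide +kernel

/-! ### transpositions of tetrads -/

theorem exists_conj {S : Finset (Finset GolayPt)} (hS : S ∈ sextets) :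
    ∃ k ∈ M24, k • famOf b0 = S := by
  have h : S ∈ MulAction.orbit M24 (famOf b0) := by rw [data.orbit_all]; exact hS
  obtain ⟨⟨k, hk⟩, he⟩ := h
  exact ⟨k, hk, he⟩

theorem swap_base {t u : Finset GolayPt} (ht : t ∈ famOf b0) (hu : u ∈ famOf b0) (htu : t ≠ u) :
    ∃ g ∈ M24, g • famOf b0 = famOf b0 ∧ g • t = u ∧ g • u = t ∧ ∀ v ∈ famOf b0, v ≠ t → v ≠ u → g • v = v := by
  obtain ⟨a, ha, rfl⟩ := mem_famOf.1 ht
  obtain ⟨b, hb, rfl⟩ := mem_famOf.1 hu
  have hab : a ≠ b := fun h => htu (by rw [h])
  obtain ⟨c, -, hc, h1, h2, h3⟩ := swap_check a ha b hb hab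
  have hv := isM24_valid hc
  have hfix : ∀ v ∈ famOf b0, v ≠ ofMask a → v ≠ ofMask b → decode c • v = v := by
    intro v hv1 hv2 hv3
    obtain ⟨m, hm, rfl⟩ := mem_famOf.1 hv1
    rw [decode_smul_ofMask hv, h3 m hm (fun h => hv2 (by rw [h])) (fun h => hv3 (by rw [h]))]
  have h4 : decode c • ofMask a = ofMask b := by rw [decode_smul_ofMask hv, h1]
  have h5 : decode c • ofMask b = ofMask a := by rw [decode_smul_ofMask hv, h2]
  refine ⟨decode c, decode_mem_M24 hc, ?_, h4, h5, hfix⟩
  apply Finset.eq_of_subset_of_card_le
  · intro w hw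
    obtain ⟨v, hv1, rfl⟩ := Finset.mem_smul_finset.1 hw
    by_cases e1 : v = ofMask a
    · rw [e1]; show decode c • ofMask a ∈ _; rw [h4]; exact hu
    · by_cases e2 : v = ofMask b
      · rw [e2]; show decode c • ofMask b ∈ _; rw [h5]; exact ht
      · show decode c • v ∈ _
        rw [hfix v hv1 e1 e2]; exact hv1
  · rw [Finset.card_smul_finset]

/-- every transposition of tetrads is induced -/
theorem swap_lift {S : Finset (Finset GolayPt)} (hS : S ∈ sextets) {t u : Finset GolayPt}
    (ht : t ∈ S) (hu : u ∈ S) (htu : t ≠ u) :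
    ∃ g ∈ M24, g • S = S ∧ g • t = u ∧ g • u = t ∧ ∀ v ∈ S, v ≠ t → v ≠ u → g • v = v := by
  obtain ⟨k, hk, rfl⟩ := exists_conj hS
  obtain ⟨t', ht', rfl⟩ := Finset.mem_smul_finset.1 ht
  obtain ⟨u', hu', rfl⟩ := Finset.mem_smul_finset.1 hu
  have htu' : t' ≠ u' := fun h => htu (by rw [h])
  obtain ⟨g, hg, h1, h2, h3, h4⟩ := swap_base ht' hu' htu'
  refine ⟨k * g * k⁻¹, M24.mul_mem (M24.mul_mem hk hg) (M24.inv_mem hk), ?_, ?_, ?_, ?_⟩
  · rw [mul_smul, mul_smul, inv_smul_smul, h1]
  · show (k * g * k⁻¹) • k • t' = k • u'
    rw [mul_smul, mul_smul, inv_smul_smul, h2]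
  · show (k * g * k⁻¹) • k • u' = k • t'
    rw [mul_smul, mul_smul, inv_smul_smul, h3]
  · intro v hv e1 e2
    obtain ⟨v', hv', rfl⟩ := Finset.mem_smul_finset.1 hv
    show (k * g * k⁻¹) • k • v' = k • v'
    rw [mul_smul, mul_smul, inv_smul_smul, h4 v' hv' (fun h => e1 (by rw [h])) (fun h => e2 (by rw [h]))]

/-! ### the action on the tetrads -/

theorem stab_iff' {x : Equiv.Perm GolayPt} {S : Finset (Finset GolayPt)} (h : x • S = S) (t : Finset GolayPt) :
    (x • t) ∈ S ↔ t ∈ S := by
  conv_lhs => rw [← h]
  rw [Finset.smul_mem_smul_finset_iff]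

theorem stab_iff {S : Finset (Finset GolayPt)} (g : ↥(MulAction.stabilizer M24 S)) (t : Finset GolayPt) :
    (g.1.1 • t) ∈ S ↔ t ∈ S := stab_iff' g.2 t

/-- the action on the tetrads -/
def tetAct (S : Finset (Finset GolayPt)) : ↥(MulAction.stabilizer M24 S) →* Equiv.Perm ↥S :=
  MonoidHom.mk' (fun g => (MulAction.toPerm g.1.1 : Equiv.Perm (Finset GolayPt)).subtypePerm (stab_iff g)) (by
    intro a b
    apply Equiv.ext
    intro t
    apply Subtype.ext
    exact mul_smul a.1.1 b.1.1 t.1)

theorem tetAct_apply {S : Finset (Finset GolayPt)} (g : ↥(MulAction.stabilizer M24 S)) (t : ↥S) :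
    ((tetAct S g t : ↥S) : Finset GolayPt) = g.1.1 • t.1 := rfl

theorem tetAct_surjective {S : Finset (Finset GolayPt)} (hS : S ∈ sextets) :
    Function.Surjective (tetAct S) := by
  rw [← MonoidHom.range_eq_top, eq_top_iff, ← Equiv.Perm.closure_isSwap, Subgroup.closure_le]
  rintro σ ⟨a, b, hab, rfl⟩
  have hab' : a.1 ≠ b.1 := fun h => hab (Subtype.ext h)
  obtain ⟨g, hg, h1, h2, h3, h4⟩ := swap_lift hS a.2 b.2 hab'
  refine ⟨⟨⟨g, hg⟩, h1⟩, ?_⟩
  apply Equiv.ext
  intro v
  apply Subtype.ext
  rw [tetAct_apply]
  show g • v.1 = _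
  by_cases e1 : v = a
  · rw [e1, Equiv.swap_apply_left]; exact h2
  · by_cases e2 : v = b
    · rw [e2, Equiv.swap_apply_right]; exact h3
    · rw [Equiv.swap_apply_of_ne_of_ne e1 e2]
      exact h4 v.1 v.2 (fun h => e1 (Subtype.ext h)) (fun h => e2 (Subtype.ext h))

theorem card_stab {S : Finset (Finset GolayPt)} (hS : S ∈ sextets) :
    Nat.card ↥(MulAction.stabilizer M24 S) = 138240 := by
  have h1 := Subgroup.card_mul_index (MulAction.stabilizer M24 S)
  have h2 : MulAction.orbit M24 S = sextets := by
    ext x
    rw [MulAction.mem_orbit_iff]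
    constructor
    · rintro ⟨⟨g, hg⟩, rfl⟩
      exact smul_mem_sextets hg hS
    · intro hx
      obtain ⟨k, hk, rfl⟩ := exists_conj hS
      obtain ⟨k', hk', rfl⟩ := exists_conj hx
      refine ⟨⟨k' * k⁻¹, M24.mul_mem hk' (M24.inv_mem hk)⟩, ?_⟩
      show (k' * k⁻¹) • k • famOf b0 = _
      rw [mul_smul, inv_smul_smul]
  have h3 := MulAction.index_stabilizer M24 S
  rw [show MulAction.orbit ↥M24 S = MulAction.orbit M24 S from rfl, h2, ncard_sextets] at h3
  rw [h3, card_M24] at h1
  omega

theorem card_perm_tets {S : Finset (Finset GolayPt)} (hS : S ∈ sextets) : Nat.card (Equiv.Perm ↥S) = 720 := by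
  rw [Nat.card_eq_fintype_card, Fintype.card_perm, Fintype.card_coe, hS.1]
  rfl

theorem card_ker {S : Finset (Finset GolayPt)} (hS : S ∈ sextets) : Nat.card (tetAct S).ker = 192 := by
  have h1 := Subgroup.card_mul_index (tetAct S).ker
  rw [Subgroup.index_ker, MonoidHom.range_eq_top.2 (tetAct_surjective hS), Subgroup.card_top,
    card_perm_tets hS, card_stab hS] at h1
  omega

theorem mem_ker_iff {S : Finset (Finset GolayPt)} (g : ↥(MulAction.stabilizer M24 S)) :
    g ∈ (tetAct S).ker ↔ ∀ t ∈ S, g.1.1 • t = t := by
  rw [MonoidHom.mem_ker]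
  constructor
  · intro h t ht
    have := tetAct_apply g ⟨t, ht⟩
    rw [h] at this
    exact this.symm
  · intro h
    apply Equiv.ext
    intro t
    apply Subtype.ext
    exact h t.1 t.2

/-! ### the pairs of a tetrad -/

/-- preserving the three partitions of each tetrad into pairs -/
def PairProp (S : Finset (Finset GolayPt)) (x : Equiv.Perm GolayPt) : Prop :=
  ∀ t ∈ S, ∀ π ⊆ t, π.card = 2 → x • π = π ∨ x • π = t \ π

theorem PairProp.conj {S : Finset (Finset GolayPt)} {x : Equiv.Perm GolayPt} (h : PairProp S x)
    (k : Equiv.Perm GolayPt) : PairProp (k • S) (k * x * k⁻¹) := by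
  intro t ht π hπ hc
  obtain ⟨t₀, ht₀, rfl⟩ := Finset.mem_smul_finset.1 ht
  have h1 : k⁻¹ • π ⊆ t₀ := by
    intro p hp
    obtain ⟨q, hq, rfl⟩ := Finset.mem_smul_finset.1 hp
    obtain ⟨r, hr, rfl⟩ := Finset.mem_smul_finset.1 (hπ hq)
    simpa [Equiv.Perm.smul_def] using hr
  have h2 : (k⁻¹ • π).card = 2 := by rw [Finset.card_smul_finset]; exact hc
  have e : (k * x * k⁻¹) • π = k • x • k⁻¹ • π := by rw [mul_smul, mul_smul]
  rw [e]
  rcases h t₀ ht₀ _ h1 h2 with h3 | h3
  · left
    rw [h3, smul_inv_smul]
  · right
    rw [h3, Finset.smul_finset_sdiff, smul_inv_smul]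

theorem card_sdiff_pair {S : Finset (Finset GolayPt)} (hS : S ∈ sextets) {t π : Finset GolayPt} (ht : t ∈ S)
    (hπ : π ⊆ t) (hc : π.card = 2) : (t \ π).card = 2 := by
  rw [Finset.card_sdiff_of_subset hπ, hS.2.1 t ht, hc]

theorem PairProp.mul {S : Finset (Finset GolayPt)} (hS : S ∈ sextets) {x y : Equiv.Perm GolayPt}
    (hx : PairProp S x) (hy : PairProp S y) : PairProp S (x * y) := by
  intro t ht π hπ hc
  rw [mul_smul]
  rcases hy t ht π hπ hc with h | h
  · rw [h]
    exact hx t ht π hπ hc
  · rw [h]
    rcases hx t ht (t \ π) Finset.sdiff_subset (card_sdiff_pair hS ht hπ hc) with h2 | h2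
    · right; exact h2
    · left
      rw [h2, Finset.sdiff_sdiff_eq_self hπ]

theorem PairProp.mem_tet {S : Finset (Finset GolayPt)} (hS : S ∈ sextets) {x : Equiv.Perm GolayPt}
    (hx : PairProp S x) {t : Finset GolayPt} (ht : t ∈ S) {p : GolayPt} (hp : p ∈ t) : x p ∈ t := by
  classical
  have hcard := hS.2.1 t ht
  obtain ⟨b, hb, hne⟩ := Finset.exists_mem_ne (by omega : 1 < t.card) p
  have hπ : ({p, b} : Finset GolayPt) ⊆ t := by
    intro q hq
    simp only [Finset.mem_insert, Finset.mem_singleton] at hq
    rcases hq with rfl | rfl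
    · exact hp
    · exact hb
  have hc : ({p, b} : Finset GolayPt).card = 2 := Finset.card_pair (Ne.symm hne)
  have h1 : x p ∈ x • ({p, b} : Finset GolayPt) := Finset.mem_smul_finset.2 ⟨p, by simp, rfl⟩
  rcases hx t ht _ hπ hc with h | h
  · rw [h] at h1
    exact hπ h1
  · rw [h] at h1
    exact (Finset.mem_sdiff.1 h1).1

theorem PairProp.sq {S : Finset (Finset GolayPt)} (hS : S ∈ sextets) {x : Equiv.Perm GolayPt}
    (hx : PairProp S x) : x * x = 1 := by
  classical
  apply Equiv.ext
  intro p
  rw [Equiv.Perm.mul_apply, Equiv.Perm.one_apply]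
  obtain ⟨t, ht, hp⟩ := sextet_covers hS p
  by_cases h0 : x p = p
  · rw [h0, h0]
  · have hc := hx.mem_tet hS ht hp
    have hπ : ({p, x p} : Finset GolayPt) ⊆ t := by
      intro q hq
      simp only [Finset.mem_insert, Finset.mem_singleton] at hq
      rcases hq with rfl | rfl
      · exact hp
      · exact hc
    have hcd : ({p, x p} : Finset GolayPt).card = 2 := Finset.card_pair (Ne.symm h0)
    have h1 : x p ∈ x • ({p, x p} : Finset GolayPt) := Finset.mem_smul_finset.2 ⟨p, by simp, rfl⟩
    have h2 : x (x p) ∈ x • ({p, x p} : Finset GolayPt) := Finset.mem_smul_finset.2 ⟨x p, by simp, rfl⟩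
    have h3 : x • ({p, x p} : Finset GolayPt) = {p, x p} := by
      rcases hx t ht _ hπ hcd with h | h
      · exact h
      · rw [h] at h1
        simp at h1
    rw [h3] at h2
    simp only [Finset.mem_insert, Finset.mem_singleton] at h2
    rcases h2 with h2 | h2
    · exact h2
    · exact absurd (x.injective h2) h0

theorem PairProp.smul_tet {S : Finset (Finset GolayPt)} (hS : S ∈ sextets) {x : Equiv.Perm GolayPt}
    (hx : PairProp S x) {t : Finset GolayPt} (ht : t ∈ S) : x • t = t := by
  apply Finset.eq_of_subset_of_card_le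
  · intro q hq
    obtain ⟨y, hy, rfl⟩ := Finset.mem_smul_finset.1 hq
    exact hx.mem_tet hS ht hy
  · rw [Finset.card_smul_finset]

/-- the normal subgroup -/
def hexN {S : Finset (Finset GolayPt)} (hS : S ∈ sextets) : Subgroup ↥(MulAction.stabilizer M24 S) where
  carrier := {x | PairProp S x.1.1}
  mul_mem' := fun {a b} ha hb => PairProp.mul hS ha hb
  one_mem' := by
    intro t ht π hπ hc
    left
    exact one_smul _ π
  inv_mem' := by
    intro x hx
    have h1 : x.1.1 * x.1.1 = 1 := PairProp.sq hS hx
    have h2 : x.1.1⁻¹ = x.1.1 := inv_eq_of_mul_eq_one_left h1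
    show PairProp S x.1.1⁻¹
    rw [h2]
    exact hx

theorem mem_hexN {S : Finset (Finset GolayPt)} {hS : S ∈ sextets} {x : ↥(MulAction.stabilizer M24 S)} :
    x ∈ hexN hS ↔ PairProp S x.1.1 := Iff.rfl

theorem hexN_normal {S : Finset (Finset GolayPt)} (hS : S ∈ sextets) : (hexN hS).Normal := by
  constructor
  intro x hx g
  have h := PairProp.conj (mem_hexN.1 hx) g.1.1
  have hg : g.1.1 • S = S := g.2
  rw [hg] at h
  exact h

theorem hexN_sq {S : Finset (Finset GolayPt)} (hS : S ∈ sextets) {x : ↥(MulAction.stabilizer M24 S)}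
    (hx : x ∈ hexN hS) : x * x = 1 :=
  Subtype.ext (Subtype.ext (PairProp.sq hS hx))

theorem hexN_le_ker {S : Finset (Finset GolayPt)} (hS : S ∈ sextets) : hexN hS ≤ (tetAct S).ker := by
  intro x hx
  rw [mem_ker_iff]
  intro t ht
  exact PairProp.smul_tet hS hx ht

/-! ### the base sextet: explicit elements -/

theorem ofMask_xor_of_sub {t m : ℕ} (h : Nat.land m t = m) : ofMask (Nat.xor t m) = ofMask t \ ofMask m := by
  ext p
  have hsub := subset_of_land_eq h
  rw [Finset.mem_sdiff, mem_ofMask, mem_ofMask, mem_ofMask, testBit_xor']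
  by_cases h1 : m.testBit (idx p) = true
  · have h2 : t.testBit (idx p) = true := mem_ofMask.1 (hsub (mem_ofMask.2 h1))
    simp [h1, h2]
  · simp only [Bool.not_eq_true] at h1
    simp [h1]

theorem pairProp_base {c : ℕ} (hc : c ∈ nL) : PairProp (famOf b0) (decode c) := by
  have hall := List.all_eq_true.1 n_check c hc
  simp only [Bool.and_eq_true] at hall
  obtain ⟨h1, h2⟩ := hall
  have hv := isM24_valid h1
  intro t ht π hπ hcard
  obtain ⟨a, ha, rfl⟩ := mem_famOf.1 ht
  have hπ' : π ∈ {U : Finset GolayPt | U.card = 2} := hcard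
  rw [duads_eq_image] at hπ'
  obtain ⟨m, hm, rfl⟩ := hπ'
  have hallb := List.all_eq_true.1 (List.all_eq_true.1 h2 a ha) m hm
  have hmlt : m < 2 ^ 24 := allLt_spec duadL_facts.2.1 m hm
  have halt : a < 2 ^ 24 := by
    have h3 := sexOK_asc (List.all_eq_true.1 sexL_ok b0 b0_mem)
    exact allLt_spec h3.2 a ha
  have hland : Nat.land m a = m := land_eq_of_subset hmlt halt hπ
  simp only [hland, Nat.beq_refl, Bool.not_true, Bool.false_or, Bool.or_eq_true, Nat.beq_eq] at hallb
  rw [decode_smul_ofMask hv]
  rcases hallb with h | h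
  · left; rw [h]
  · right; rw [h, ofMask_xor_of_sub hland]

theorem decode_inj_perm24 {c c' : ℕ} (hv : valid c = true) (hv' : valid c' = true)
    (h : decode c = decode c') : perm24 c = perm24 c' := by
  apply List.map_congr_left
  intro i hi
  have hi' := mem_idxL.1 hi
  have h1 := idx_decode hv (pt i)
  have h2 := idx_decode hv' (pt i)
  rw [h, h2, idx_pt hi'] at h1
  exact h1.symm

theorem card_hexN {S : Finset (Finset GolayPt)} (hS : S ∈ sextets) : Nat.card (hexN hS) = 64 := by
  classical
  have hval : ∀ c ∈ nL, isM24 c = true := fun c hc => by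
    have hall := List.all_eq_true.1 n_check c hc
    simp only [Bool.and_eq_true] at hall
    exact hall.1
  -- upper bound
  have hP : IsPGroup 2 (hexN hS) := by
    intro x
    refine ⟨1, ?_⟩
    apply Subtype.ext
    show (x.1) ^ 2 ^ 1 = 1
    rw [pow_one, pow_two]
    exact hexN_sq hS x.2
  have : Fact (Nat.Prime 2) := ⟨Nat.prime_two⟩
  obtain ⟨n, hn⟩ := IsPGroup.iff_card.1 hP
  have hdvd : Nat.card (hexN hS) ∣ 192 := by
    rw [← card_ker hS]
    exact Subgroup.card_dvd_of_le (hexN_le_ker hS)
  have hle : n ≤ 6 := by
    by_contra hlt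
    have h1 : 2 ^ 7 ∣ 2 ^ n := pow_dvd_pow 2 (by omega)
    rw [hn] at hdvd
    have h2 := h1.trans hdvd
    norm_num at h2
  -- lower bound
  obtain ⟨k, hk, hkS⟩ := exists_conj hS
  let A : Finset (Equiv.Perm GolayPt) := (nL.map fun c => k * decode c * k⁻¹).toFinset
  have hAcard : A.card = 64 := by
    rw [List.toFinset_card_of_nodup, List.length_map, n_nodup.2]
    apply List.Nodup.map_on _ (List.Nodup.of_map _ n_nodup.1)
    intro c hc c' hc' he
    have h1 : decode c = decode c' := by
      simpa using he
    have h2 := decode_inj_perm24 (isM24_valid (hval c hc)) (isM24_valid (hval c' hc')) h1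
    exact List.inj_on_of_nodup_map n_nodup.1 hc hc' h2
  let f : ↥(hexN hS) → Equiv.Perm GolayPt := fun x => x.1.1.1
  have hf : Function.Injective f := fun a b h => Subtype.ext (Subtype.ext (Subtype.ext h))
  have hsub : (A : Set (Equiv.Perm GolayPt)) ⊆ Set.range f := by
    intro g hg
    have hg' : g ∈ A := hg
    simp only [A, List.mem_toFinset, List.mem_map] at hg'
    obtain ⟨c, hc, rfl⟩ := hg'
    have hM : k * decode c * k⁻¹ ∈ M24 :=
      M24.mul_mem (M24.mul_mem hk (decode_mem_M24 (hval c hc))) (M24.inv_mem hk)
    have hPP := (pairProp_base hc).conj k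
    rw [hkS] at hPP
    have hst : (k * decode c * k⁻¹) • S = S := by
      have h1 := mem_stabP (x := famOf b0) (g := decode c)
      have hfix : decode c • famOf b0 = famOf b0 := by
        apply Finset.eq_of_subset_of_card_le
        · intro t ht
          obtain ⟨u, hu, rfl⟩ := Finset.mem_smul_finset.1 ht
          have : decode c • u = u := PairProp.smul_tet (by rw [← inv_smul_smul k (famOf b0), hkS]; exact smul_mem_sextets (M24.inv_mem hk) hS) (pairProp_base hc) hu
          show decode c • u ∈ _
          rw [this]
          exact hu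
        · rw [Finset.card_smul_finset]
      rw [← hkS, mul_smul, mul_smul, inv_smul_smul, hfix]
    exact ⟨⟨⟨⟨_, hM⟩, hst⟩, hPP⟩, rfl⟩
  have h64 : 64 ≤ Nat.card (hexN hS) := by
    have h1 : (A : Set (Equiv.Perm GolayPt)).ncard ≤ (Set.range f).ncard :=
      Set.ncard_le_ncard hsub (Set.toFinite _)
    rw [Set.ncard_coe_finset, hAcard, ← Nat.card_coe_set_eq, Nat.card_range_of_injective hf] at h1
    exact h1
  rw [hn] at h64 ⊢
  have : n = 6 := by
    by_contra hne
    have hlt : n ≤ 5 := by omega
    have : 2 ^ n ≤ 2 ^ 5 := Nat.pow_le_pow_right (by norm_num) hlt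
    omega
  rw [this]
  norm_num

end Cfsg.Agent.Lib.SextetGroup
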