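import Mathlib
import Cfsg.Agent.Lib.M24IndexC
import Cfsg.Agent.Lib.SextetGroup
import Cfsg.Agent.Lib.MathieuFusion

set_option autoImplicit false
set_option linter.unusedVariables false
set_option maxRecDepth 100000

/-!
# The sextet case; subgroups of `M24` of index 759, 276, 1771, 253
-/

namespace Cfsg.Agent.Lib.M24Index
open Cfsg Cfsg.Agent.Lib.Golay Cfsg.Agent.Lib.M24Facts Finset
open scoped Pointwise

/-- The translates of a set. -/
noncomputable def blocksOf (H : Subgroup (Equiv.Perm GolayPt)) (τ : Finset GolayPt) : Finset (Finset GolayPt) := by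
  classical exact univ.filter fun t => ∃ g ∈ H, g • τ = t

theorem mem_blocksOf {H : Subgroup (Equiv.Perm GolayPt)} {τ t : Finset GolayPt} :
    t ∈ blocksOf H τ ↔ ∃ g ∈ H, g • τ = t := by
  classical
  simp [blocksOf]

theorem blocks_smul {H : Subgroup (Equiv.Perm GolayPt)} {τ : Finset GolayPt} {g : Equiv.Perm GolayPt}
    (hg : g ∈ H) {t : Finset GolayPt} : g • t ∈ blocksOf H τ ↔ t ∈ blocksOf H τ := by
  rw [mem_blocksOf, mem_blocksOf]
  constructor
  · rintro ⟨k, hk, h⟩
    refine ⟨g⁻¹ * k, H.mul_mem (H.inv_mem hg) hk, ?_⟩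
    rw [mul_smul, h, inv_smul_smul]
  · rintro ⟨k, hk, h⟩
    exact ⟨g * k, H.mul_mem hg hk, by rw [mul_smul, h]⟩

theorem sextet_of_blk {H : Subgroup (Equiv.Perm GolayPt)} (hM : H ≤ M24) (hT : Trans H) {τ : Finset GolayPt}
    (hB : Blk H τ) (hc : τ.card = 4) {h : Equiv.Perm GolayPt} (hh : h ∈ H) (ho : orderOf h = 5)
    (hfix : ∀ x, h x = x ↔ x ∈ τ) {g₀ : Equiv.Perm GolayPt} (hg₀ : g₀ ∈ H) (hne : g₀ • τ ≠ τ)
    (hoct : τ ∪ g₀ • τ ∈ octads) :
    blocksOf H τ ∈ sextets ∧ ∀ g ∈ H, g • blocksOf H τ = blocksOf H τ := by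
  have hcard4 : ∀ t ∈ blocksOf H τ, t.card = 4 := by
    intro t ht
    obtain ⟨g, hg, rfl⟩ := mem_blocksOf.1 ht
    rw [Finset.card_smul_finset, hc]
  have hdis : ∀ t ∈ blocksOf H τ, ∀ u ∈ blocksOf H τ, t ≠ u → Disjoint t u := by
    intro t ht u hu htu
    obtain ⟨g, hg, rfl⟩ := mem_blocksOf.1 ht
    obtain ⟨g', hg', rfl⟩ := mem_blocksOf.1 hu
    rcases (hB.smul hg').eq_or_disjoint (H.mul_mem hg (H.inv_mem hg')) with h1 | h1
    · rw [mul_smul, inv_smul_smul] at h1
      exact absurd h1 htu
    · rwa [mul_smul, inv_smul_smul] at h1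
  have hτ : τ ∈ blocksOf H τ := mem_blocksOf.2 ⟨1, H.one_mem, one_smul _ _⟩
  have hcard6 : (blocksOf H τ).card = 6 := by
    have hU : (blocksOf H τ).biUnion id = univ := by
      ext x
      simp only [Finset.mem_biUnion, id, Finset.mem_univ, iff_true]
      obtain ⟨a, ha⟩ : τ.Nonempty := by rw [← Finset.card_pos]; omega
      obtain ⟨g, hg, hga⟩ := hT a x
      refine ⟨g • τ, mem_blocksOf.2 ⟨g, hg, rfl⟩, ?_⟩
      rw [← hga]
      exact mem_smul_iff.2 ha
    have h1 := Finset.card_biUnion (s := blocksOf H τ) (t := id) (fun t ht u hu htu => hdis t ht u hu htu)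
    rw [hU, card_univ_eq] at h1
    have h2 : ∑ u ∈ blocksOf H τ, (id u : Finset GolayPt).card = ∑ u ∈ blocksOf H τ, 4 :=
      Finset.sum_congr rfl (fun t ht => hcard4 t ht)
    rw [h2] at h1
    simp only [Finset.sum_const, smul_eq_mul] at h1
    omega
  have hhτ : h • τ = τ := by
    apply smul_eq_of_apply
    intro x
    constructor
    · intro hx
      have := (hfix _).2 hx
      rwa [h.injective this] at hx
    · intro hx
      rw [(hfix x).2 hx]
      exact hx
  -- the octad property
  have hN : ∀ u ∈ blocksOf H τ, u ≠ τ → τ ∪ u ∈ octads := by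
    classical
    let f : Equiv.Perm (Finset GolayPt) := MulAction.toPerm h
    have hf : f ^ 5 = 1 := by
      ext1 s
      have h1 : (f ^ 5) s = (h ^ 5) • s := by
        show (MulAction.toPermHom (Equiv.Perm GolayPt) (Finset GolayPt) h ^ 5) s = _
        rw [← map_pow]
        rfl
      rw [h1, pow_order ho, one_smul]
      rfl
    have hfa : ∀ s, f s = h • s := fun s => rfl
    let N : Finset (Finset GolayPt) := (blocksOf H τ).filter fun u => u ≠ τ ∧ τ ∪ u ∈ octads
    have hNi : ∀ u, f u ∈ N ↔ u ∈ N := by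
      intro u
      simp only [N, Finset.mem_filter, hfa, blocks_smul hh]
      have e1 : h • u ≠ τ ↔ u ≠ τ := by
        constructor
        · intro h1 h2
          apply h1
          rw [h2, hhτ]
        · intro h1 h2
          apply h1
          rw [← hhτ] at h2
          exact MulAction.injective h h2
      have e2 : τ ∪ h • u ∈ octads ↔ τ ∪ u ∈ octads := by
        constructor
        · intro h1
          have := smul_mem_octads (M24.inv_mem (hM hh)) h1
          rw [Finset.smul_finset_union] at this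
          rw [← hhτ] at this
          simpa using this
        · intro h1
          have := smul_mem_octads (hM hh) h1
          rwa [Finset.smul_finset_union, hhτ] at this
      rw [e1, e2]
    have hm := card_modEq_fix f hf N hNi
    have hz : (N.filter fun x => f x = x) = ∅ := by
      rw [Finset.eq_empty_iff_forall_notMem]
      intro u hu
      rw [Finset.mem_filter] at hu
      obtain ⟨hu1, hu2⟩ := hu
      rw [hfa] at hu2
      have hu3 : u ∈ blocksOf H τ ∧ (u ≠ τ ∧ τ ∪ u ∈ octads) := by
        simpa [N] using hu1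
      have hsub : u ⊆ τ := by
        intro x hx
        exact (hfix x).1 (subset_fix_of_small ho (apply_mem_iff_of_smul hu2)
          (by rw [hcard4 u hu3.1]; norm_num) hx)
      exact hu3.2.1 (Finset.eq_of_subset_of_card_le hsub (by rw [hc, hcard4 u hu3.1]))
    rw [hz, Finset.card_empty] at hm
    have hN0 : 0 < N.card := Finset.card_pos.2 ⟨g₀ • τ, by
      simp only [N, Finset.mem_filter]
      exact ⟨mem_blocksOf.2 ⟨g₀, hg₀, rfl⟩, hne, hoct⟩⟩
    have hsub : N ⊆ (blocksOf H τ).erase τ := by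
      intro u hu
      have hu3 : u ∈ blocksOf H τ ∧ (u ≠ τ ∧ τ ∪ u ∈ octads) := by
        simpa [N] using hu
      exact Finset.mem_erase.2 ⟨hu3.2.1, hu3.1⟩
    have hle := Finset.card_le_card hsub
    rw [Finset.card_erase_of_mem hτ, hcard6] at hle
    unfold Nat.ModEq at hm
    have hN5 : N.card = 5 := by omega
    have hEq := Finset.eq_of_subset_of_card_le hsub (by
      rw [Finset.card_erase_of_mem hτ, hcard6, hN5])
    intro u hu hne'
    have : u ∈ N := by
      rw [hEq]
      exact Finset.mem_erase.2 ⟨hne', hu⟩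
    simp only [N, Finset.mem_filter] at this
    exact this.2.2
  refine ⟨⟨hcard6, hcard4, ?_⟩, ?_⟩
  · intro t ht u hu htu
    obtain ⟨g, hg, rfl⟩ := mem_blocksOf.1 ht
    have h1 : g⁻¹ • u ∈ blocksOf H τ := (blocks_smul (H.inv_mem hg)).2 hu
    have h2 : g⁻¹ • u ≠ τ := by
      intro e
      apply htu
      rw [← e, smul_inv_smul]
    have h3 := smul_mem_octads (hM hg) (hN _ h1 h2)
    rwa [Finset.smul_finset_union, smul_inv_smul] at h3
  · intro g hg
    ext t
    rw [Finset.mem_smul_finset]
    constructor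
    · rintro ⟨y, hy, rfl⟩
      exact (blocks_smul hg).2 hy
    · intro ht
      exact ⟨g⁻¹ • t, (blocks_smul (H.inv_mem hg)).2 ht, smul_inv_smul _ _⟩

/-- The case of index 1771: the transitive case. -/
theorem caseB {H : Subgroup (Equiv.Perm GolayPt)} (hM : H ≤ M24) (hT : Trans H)
    (hP : ∀ c ∈ pcGens, decode c ∈ H) (hc : Nat.card ↥(St H (pt 23)) = 5760) :
    ∃ S ∈ sextets, ∀ g ∈ H, g • S = S := by
  obtain ⟨h5, h5K, o5⟩ := exists_order (K := St H (pt 23)) (p := 5) (by rw [hc]; norm_num)
  have h5H := (mem_St.1 h5K).1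
  have h5a := (mem_St.1 h5K).2
  have f5 := card_fixF_five (hM h5H) o5
  set K := St H (pt 23) with hK
  set Δ := orb K (pt 3) with hΔ
  have hnot : pt 23 ∉ Δ := by
    intro hmem
    obtain ⟨k, hk, hk2⟩ := mem_orb.1 hmem
    have e : k (pt 3) = k (pt 23) := by rw [hk2, (mem_St.1 hk).2]
    have h3 := pt_injOn (by norm_num) (by norm_num) (k.injective e)
    omega
  have m5 := card_modEq_fix h5 (pow_order o5) Δ (orb_iff h5K _)
  have c5 : (Δ.filter fun x => h5 x = x).card ≤ 3 := by
    have hsub : (Δ.filter fun x => h5 x = x) ⊆ (fixF h5).erase (pt 23) := by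
      intro x hx
      rw [Finset.mem_filter] at hx
      exact Finset.mem_erase.2 ⟨fun e => hnot (e ▸ hx.1), mem_fixF.2 hx.2⟩
    have h1 := Finset.card_le_card hsub
    rw [Finset.card_erase_of_mem (mem_fixF.2 h5a), f5] at h1
    omega
  have hd := card_orb_dvd K (pt 3)
  rw [hc] at hd
  have heq := orbit_facts hP
  rw [← hK, ← hΔ] at heq
  have hpres : ∀ k ∈ H, k (pt 23) = pt 23 → k • Δ = Δ := fun k hk hka =>
    smul_eq_of_apply (orb_iff (mem_St.2 ⟨hk, hka⟩) _)
  unfold Nat.ModEq at m5
  obtain ⟨p4, p5, p6, p7, p20, p21, p22, p23⟩ := pop_dm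
  generalize hb₁ : decide (pt 0 ∈ Δ) = b₁ at heq
  generalize hb₂ : decide (pt 1 ∈ Δ) = b₂ at heq
  generalize hb₃ : decide (pt 4 ∈ Δ) = b₃ at heq
  have hcard : Δ.card = pop (dm b₁ b₂ b₃) := by rw [heq, card_ofMask]
  have sub_case : b₃ = false → 5 ≤ Δ.card + 1 → False := by
    intro hb h5c
    subst hb
    have hsub : insert (pt 23) Δ ⊆ ofMask O0m := by
      intro x hx
      rw [Finset.mem_insert] at hx
      rcases hx with rfl | hx
      · rw [mem_ofMask, idx_pt (by norm_num)]; decide +kernel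
      · rw [heq] at hx
        exact dm_sub _ _ hx
    refine no_K_sub hM hT hP hsub ?_ (fun k hk hka => smul_O0_part hka (hpres k hk hka)) h5H o5 h5a
    rw [Finset.card_insert_of_notMem hnot]
    exact h5c
  cases b₁ <;> cases b₂ <;> cases b₃
  · rw [hcard, p4] at m5; omega
  · -- orbit of size 20
    have hΔm : Δ = ofMask (dm false false true) := heq
    set τ := Δᶜ with hτ
    have hτm : τ = ofMask tauM := by
      rw [hτ, hΔm]
      ext x
      rw [Finset.mem_compl, mem_ofMask, mem_ofMask]
      have : ∀ i ∈ idxL, tauM.testBit i = !(dm false false true).testBit i := by decide +kernel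
      rw [this _ (mem_idxL.2 (idx_lt x))]
      simp
    have hτc : τ.card = 4 := by
      rw [hτ, Finset.card_compl, card_pt, hcard, p20]
    have ha : pt 23 ∈ τ := by rw [hτ, Finset.mem_compl]; exact hnot
    have hBK : ∀ k ∈ H, k (pt 23) = pt 23 → k • τ = τ := by
      intro k hk hka
      have h1 := hpres k hk hka
      apply smul_eq_of_apply
      intro x
      rw [hτ, Finset.mem_compl, Finset.mem_compl, apply_mem_iff_of_smul h1]
    have hfix : ∀ x, h5 x = x ↔ x ∈ τ := by
      have hsub : τ ⊆ fixF h5 := by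
        intro x hx
        by_cases hxa : x = pt 23
        · rw [hxa]; exact mem_fixF.2 h5a
        · apply mem_fixF.2
          have hinv := apply_mem_iff_of_smul (hBK h5 h5H h5a)
          have hE : ∀ w, h5 w ∈ τ.erase (pt 23) ↔ w ∈ τ.erase (pt 23) := by
            intro w
            rw [Finset.mem_erase, Finset.mem_erase, hinv]
            constructor
            · rintro ⟨h1, h2⟩
              exact ⟨fun e => h1 (by rw [e, h5a]), h2⟩
            · rintro ⟨h1, h2⟩
              refine ⟨fun e => h1 ?_, h2⟩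
              apply h5.injective
              rw [e, h5a]
          exact subset_fix_of_small o5 hE (by rw [Finset.card_erase_of_mem ha, hτc]; norm_num)
            (Finset.mem_erase.2 ⟨hxa, hx⟩)
      have hEq : τ = fixF h5 := Finset.eq_of_subset_of_card_le hsub (by rw [f5, hτc])
      intro x
      rw [hEq, mem_fixF]
    have hblk : Blk H τ := blk_of_fix hT ha hBK h5H hfix o5 (by rw [hτc]; norm_num)
    have hg0mem : g10 ∈ pcGens := by decide +kernel
    have hsm : decode g10 • τ = ofMask Y4 := by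
      rw [hτm, decode_smul_ofMask (pc_valid' _ hg0mem), tau_data.1]
    have hne : decode g10 • τ ≠ τ := by
      rw [hsm, hτm]
      intro e
      have := ofMask_injOn (by decide +kernel) (by decide +kernel) e
      exact tau_data.2.2.2.2 this.symm
    have hoct : τ ∪ decode g10 • τ ∈ octads := by
      rw [hsm, hτm, ← ofMask_lor, tau_data.2.1]
      exact O0m_mem
    obtain ⟨h1, h2⟩ := sextet_of_blk hM hT hblk hτc h5H o5 hfix (hP _ hg0mem) hne hoct
    exact ⟨_, h1, h2⟩
  · exact (sub_case rfl (by rw [hcard, p6]; norm_num)).elim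
  · rw [hcard, p22] at hd
    norm_num at hd
  · exact (sub_case rfl (by rw [hcard, p5]; norm_num)).elim
  · rw [hcard, p21] at hd
    norm_num at hd
  · rw [hcard, p7] at hd
    norm_num at hd
  · rw [hcard, p23] at hd
    norm_num at hd

theorem card_octad_stab : Nat.card ↥(M24 ⊓ MulAction.stabilizer (Equiv.Perm GolayPt) (ofMask O0m)) = 322560 :=
  OctadAction.card_stabP_octad O0m_mem

theorem fix_le {H : Subgroup (Equiv.Perm GolayPt)} (hM : H ≤ M24)
    (h : ∀ g ∈ H, g • ofMask O0m = ofMask O0m) :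
    H ≤ M24 ⊓ MulAction.stabilizer (Equiv.Perm GolayPt) (ofMask O0m) :=
  fun g hg => Subgroup.mem_inf.2 ⟨hM hg, h g hg⟩

/-- A subgroup of order 322560 over the Sylow subgroup preserves the octad. -/
theorem index759 {H : Subgroup (Equiv.Perm GolayPt)} (hM : H ≤ M24) (hc : Nat.card H = 322560)
    (hP : ∀ c ∈ pcGens, decode c ∈ H) : ∀ g ∈ H, g • ofMask O0m = ofMask O0m := by
  rcases trans_or_fix hP with hT | h
  · exfalso
    have h1 := card_St hT (pt 23)
    have h2 : Nat.card ↥(St H (pt 23)) = 13440 := by omega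
    exact caseA hM hT hP (by rw [h2]; norm_num) (by rw [h2]; norm_num) (by rw [h2]; norm_num)
      (by rw [h2]; norm_num)
  · exact h

/-- There is no subgroup of order 967680 over the Sylow subgroup. -/
theorem index253 {H : Subgroup (Equiv.Perm GolayPt)} (hM : H ≤ M24) (hc : Nat.card H = 967680)
    (hP : ∀ c ∈ pcGens, decode c ∈ H) : False := by
  rcases trans_or_fix hP with hT | h
  · have h1 := card_St hT (pt 23)
    have h2 : Nat.card ↥(St H (pt 23)) = 40320 := by omega
    exact caseA hM hT hP (by rw [h2]; norm_num) (by rw [h2]; norm_num) (by rw [h2]; norm_num)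
      (by rw [h2]; norm_num)
  · have := Subgroup.card_dvd_of_le (fix_le hM h)
    rw [card_octad_stab, hc] at this
    norm_num at this

/-- A subgroup of order 138240 over the Sylow subgroup preserves a sextet. -/
theorem index1771 {H : Subgroup (Equiv.Perm GolayPt)} (hM : H ≤ M24) (hc : Nat.card H = 138240)
    (hP : ∀ c ∈ pcGens, decode c ∈ H) : ∃ S ∈ sextets, ∀ g ∈ H, g • S = S := by
  rcases trans_or_fix hP with hT | h
  · have h1 := card_St hT (pt 23)
    exact caseB hM hT hP (by omega)
  · exfalso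
    have := Subgroup.card_dvd_of_le (fix_le hM h)
    rw [card_octad_stab, hc] at this
    norm_num at this

/-! ### conjugating into position -/

theorem B_le : MathieuFusion.B pcGens ≤ M24 := by
  rw [MathieuFusion.B, Subgroup.closure_le]
  rintro _ ⟨c, hc, rfl⟩
  exact decode_mem_M24 (pc_M24 c hc)

theorem base_chk : MathieuFusion.baseChk pcGens = true := by decide +kernel

theorem card_B' : Nat.card (MathieuFusion.B pcGens) = 2 ^ 10 := MathieuFusion.card_B base_chk

/-- A subgroup of odd index has a conjugate over the Sylow subgroup. -/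
theorem exists_conj_over (H : Subgroup ↥M24) (hodd : ¬ 2 ∣ H.index) :
    ∃ g : ↥M24, ∀ c ∈ pcGens, ∃ x ∈ H, (x : Equiv.Perm GolayPt) = g.1⁻¹ * decode c * g.1 := by
  let P : Subgroup ↥M24 := (MathieuFusion.B pcGens).subgroupOf M24
  have hcP : Nat.card P = 2 ^ 10 := by
    rw [← card_B']
    exact Nat.card_congr (Subgroup.subgroupOfEquivOfLe B_le).toEquiv
  have hpg : IsPGroup 2 P := IsPGroup.of_card hcP
  obtain ⟨q, hq⟩ := hpg.nonempty_fixed_point_of_prime_not_dvd_card (↥M24 ⧸ H) hodd
  obtain ⟨g, rfl⟩ := QuotientGroup.mk_surjective q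
  refine ⟨g, fun c hc => ?_⟩
  have hdm : decode c ∈ M24 := decode_mem_M24 (pc_M24 c hc)
  have hmem : (⟨decode c, hdm⟩ : ↥M24) ∈ P := by
    show decode c ∈ MathieuFusion.B pcGens
    exact Subgroup.subset_closure ⟨c, hc, rfl⟩
  have h1 := hq ⟨⟨decode c, hdm⟩, hmem⟩
  have h2 : (((⟨decode c, hdm⟩ : ↥M24) * g : ↥M24) : ↥M24 ⧸ H) = (g : ↥M24 ⧸ H) := h1
  rw [QuotientGroup.eq] at h2
  refine ⟨(((⟨decode c, hdm⟩ : ↥M24) * g)⁻¹ * g)⁻¹, H.inv_mem h2, ?_⟩
  simp [mul_assoc]

end Cfsg.Agent.Lib.M24Index
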