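-- Shared library: six by six matrices over the concrete field with four elements and SU(6,2), as tables.
import Mathlib
import Cfsg.Agent.Lib.F4K
import Cfsg.Agent.Lib.UnitarySU

set_option autoImplicit false
set_option maxRecDepth 100000

namespace Cfsg.Agent.Lib.M6K4

open Cfsg Matrix Cfsg.Agent.Lib.F4K

/-- Matrices. -/
abbrev MM := Matrix (Fin 6) (Fin 6) K4

/-- The special unitary group. -/
abbrev SU0 := SU 6 K4 2

/-- The projective group. -/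
abbrev S0 := PSU 6 K4 2

/-- Tables. -/
@[ext] structure Mt where
  (a00 a01 a02 a03 a04 a05 a10 a11 a12 a13 a14 a15 a20 a21 a22 a23 a24 a25 a30 a31 a32 a33 a34 a35 a40 a41 a42 a43 a44 a45 a50 a51 a52 a53 a54 a55 : K4)

/-- A digit of a code. -/
def dg (c k : ℕ) : K4 := ⟨Nat.mod (Nat.shiftRight c (Nat.mul 2 k)) 4, Nat.mod_lt _ (by decide)⟩

/-- Decoding a matrix. -/
def decM (c : ℕ) : Mt :=
  ⟨dg c 0, dg c 1, dg c 2, dg c 3, dg c 4, dg c 5, dg c 6, dg c 7, dg c 8, dg c 9, dg c 10, dg c 11, dg c 12, dg c 13, dg c 14, dg c 15, dg c 16, dg c 17, dg c 18, dg c 19, dg c 20, dg c 21, dg c 22, dg c 23, dg c 24, dg c 25, dg c 26, dg c 27, dg c 28, dg c 29, dg c 30, dg c 31, dg c 32, dg c 33, dg c 34, dg c 35⟩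

/-- The matrix of a table. -/
def toM (m : Mt) : MM :=
  !![m.a00, m.a01, m.a02, m.a03, m.a04, m.a05; m.a10, m.a11, m.a12, m.a13, m.a14, m.a15; m.a20, m.a21, m.a22, m.a23, m.a24, m.a25; m.a30, m.a31, m.a32, m.a33, m.a34, m.a35; m.a40, m.a41, m.a42, m.a43, m.a44, m.a45; m.a50, m.a51, m.a52, m.a53, m.a54, m.a55]

/-- A sum of six products. -/
@[inline] def sp (a b c d e f g h i j k l : K4) : K4 :=
  K4.add (K4.add (K4.add (K4.add (K4.add (K4.mul a b) (K4.mul c d)) (K4.mul e f)) (K4.mul g h)) (K4.mul i j)) (K4.mul k l)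

theorem sp_eq (a b c d e f g h i j k l : K4) : sp a b c d e f g h i j k l = a * b + c * d + e * f + g * h + i * j + k * l := rfl

/-- The product. -/
def mmul (m n : Mt) : Mt :=
  ⟨sp m.a00 n.a00 m.a01 n.a10 m.a02 n.a20 m.a03 n.a30 m.a04 n.a40 m.a05 n.a50, sp m.a00 n.a01 m.a01 n.a11 m.a02 n.a21 m.a03 n.a31 m.a04 n.a41 m.a05 n.a51, sp m.a00 n.a02 m.a01 n.a12 m.a02 n.a22 m.a03 n.a32 m.a04 n.a42 m.a05 n.a52, sp m.a00 n.a03 m.a01 n.a13 m.a02 n.a23 m.a03 n.a33 m.a04 n.a43 m.a05 n.a53, sp m.a00 n.a04 m.a01 n.a14 m.a02 n.a24 m.a03 n.a34 m.a04 n.a44 m.a05 n.a54, sp m.a00 n.a05 m.a01 n.a15 m.a02 n.a25 m.a03 n.a35 m.a04 n.a45 m.a05 n.a55, sp m.a10 n.a00 m.a11 n.a10 m.a12 n.a20 m.a13 n.a30 m.a14 n.a40 m.a15 n.a50, sp m.a10 n.a01 m.a11 n.a11 m.a12 n.a21 m.a13 n.a31 m.a14 n.a41 m.a15 n.a51, sp m.a10 n.a02 m.a11 n.a12 m.a12 n.a22 m.a13 n.a32 m.a14 n.a42 m.a15 n.a52, sp m.a10 n.a03 m.a11 n.a13 m.a12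 n.a23 m.a13 n.a33 m.a14 n.a43 m.a15 n.a53, sp m.a10 n.a04 m.a11 n.a14 m.a12 n.a24 m.a13 n.a34 m.a14 n.a44 m.a15 n.a54, sp m.a10 n.a05 m.a11 n.a15 m.a12 n.a25 m.a13 n.a35 m.a14 n.a45 m.a15 n.a55, sp m.a20 n.a00 m.a21 n.a10 m.a22 n.a20 m.a23 n.a30 m.a24 n.a40 m.a25 n.a50, sp m.a20 n.a01 m.a21 n.a11 m.a22 n.a21 m.a23 n.a31 m.a24 n.a41 m.a25 n.a51, sp m.a20 n.a02 m.a21 n.a12 m.a22 n.a22 m.a23 n.a32 m.a24 n.a42 m.a25 n.a52, sp m.a20 n.a03 m.a21 n.a13 m.a22 n.a23 m.a23 n.a33 m.a24 n.a43 m.a25 n.a53, sp m.a20 n.a04 m.a21 n.a14 m.a22 n.a24 m.a23 n.a34 m.a24 n.a44 m.a25 n.a54, sp m.a20 n.a05 m.a21 n.a15 m.a22 n.a25 m.a23 n.a35 m.a24 n.a45 m.a25 n.a55, sp m.a30 n.a00 m.a31 n.a10 m.a32 n.a20 m.a33 n.a30 m.a34 n.a40 m.a35 n.a50, sp m.a30 n.a01 m.a31 n.a11 m.a32 n.a21 m.a33 n.a31 m.a34 n.a41 m.a35 n.a51, sp m.a30 n.a02 m.a31 n.a12 m.a32 n.a22 m.a33 n.a32 m.a34 n.a42 m.a35 n.a52, sp m.a30 n.a03 m.a31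 n.a13 m.a32 n.a23 m.a33 n.a33 m.a34 n.a43 m.a35 n.a53, sp m.a30 n.a04 m.a31 n.a14 m.a32 n.a24 m.a33 n.a34 m.a34 n.a44 m.a35 n.a54, sp m.a30 n.a05 m.a31 n.a15 m.a32 n.a25 m.a33 n.a35 m.a34 n.a45 m.a35 n.a55, sp m.a40 n.a00 m.a41 n.a10 m.a42 n.a20 m.a43 n.a30 m.a44 n.a40 m.a45 n.a50, sp m.a40 n.a01 m.a41 n.a11 m.a42 n.a21 m.a43 n.a31 m.a44 n.a41 m.a45 n.a51, sp m.a40 n.a02 m.a41 n.a12 m.a42 n.a22 m.a43 n.a32 m.a44 n.a42 m.a45 n.a52, sp m.a40 n.a03 m.a41 n.a13 m.a42 n.a23 m.a43 n.a33 m.a44 n.a43 m.a45 n.a53, sp m.a40 n.a04 m.a41 n.a14 m.a42 n.a24 m.a43 n.a34 m.a44 n.a44 m.a45 n.a54, sp m.a40 n.a05 m.a41 n.a15 m.a42 n.a25 m.a43 n.a35 m.a44 n.a45 m.a45 n.a55, sp m.a50 n.a00 m.a51 n.a10 m.a52 n.a20 m.a53 n.a30 m.a54 n.a40 m.a55 n.a50, sp m.a50 n.a01 m.a51 n.a11 m.a52 n.a21 m.a53 n.a31 m.a54 n.a41 m.a55 n.a51, sp m.a50 n.a02 m.a51 n.a12 m.a52 n.a22 m.a53 n.a32 m.a54 n.a42 m.a55 n.a52, sp m.a50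 n.a03 m.a51 n.a13 m.a52 n.a23 m.a53 n.a33 m.a54 n.a43 m.a55 n.a53, sp m.a50 n.a04 m.a51 n.a14 m.a52 n.a24 m.a53 n.a34 m.a54 n.a44 m.a55 n.a54, sp m.a50 n.a05 m.a51 n.a15 m.a52 n.a25 m.a53 n.a35 m.a54 n.a45 m.a55 n.a55⟩

theorem toM_mul (m n : Mt) : toM (mmul m n) = toM m * toM n := by
  ext i j
  rw [Matrix.mul_apply, Fin.sum_univ_six]
  fin_cases i <;> fin_cases j <;> rfl

/-- A scalar matrix. -/
def scal (c : K4) : Mt := ⟨c, 0, 0, 0, 0, 0, 0, c, 0, 0, 0, 0, 0, 0, c, 0, 0, 0, 0, 0, 0, c, 0, 0, 0, 0, 0, 0, c, 0, 0, 0, 0, 0, 0, c⟩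

/-- The identity. -/
def oneM : Mt := scal 1

theorem toM_scal (c : K4) : toM (scal c) = Matrix.scalar (Fin 6) c := by
  ext i j
  fin_cases i <;> fin_cases j <;> simp [toM, scal]

theorem toM_one : toM oneM = 1 := by
  rw [oneM, toM_scal]
  simp

/-- The transpose. -/
def trM (m : Mt) : Mt :=
  ⟨m.a00, m.a10, m.a20, m.a30, m.a40, m.a50, m.a01, m.a11, m.a21, m.a31, m.a41, m.a51, m.a02, m.a12, m.a22, m.a32, m.a42, m.a52, m.a03, m.a13, m.a23, m.a33, m.a43, m.a53, m.a04, m.a14, m.a24, m.a34, m.a44, m.a54, m.a05, m.a15, m.a25, m.a35, m.a45, m.a55⟩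

/-- Squaring entries. -/
@[inline] def frob (a : K4) : K4 := K4.mul a a

/-- The entries squared. -/
def cjM (m : Mt) : Mt :=
  ⟨frob m.a00, frob m.a01, frob m.a02, frob m.a03, frob m.a04, frob m.a05, frob m.a10, frob m.a11, frob m.a12, frob m.a13, frob m.a14, frob m.a15, frob m.a20, frob m.a21, frob m.a22, frob m.a23, frob m.a24, frob m.a25, frob m.a30, frob m.a31, frob m.a32, frob m.a33, frob m.a34, frob m.a35, frob m.a40, frob m.a41, frob m.a42, frob m.a43, frob m.a44, frob m.a45, frob m.a50, frob m.a51, frob m.a52, frob m.a53, frob m.a54, frob m.a55⟩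

/-- The adjoint. -/
def adj (m : Mt) : Mt :=
  ⟨frob m.a00, frob m.a10, frob m.a20, frob m.a30, frob m.a40, frob m.a50, frob m.a01, frob m.a11, frob m.a21, frob m.a31, frob m.a41, frob m.a51, frob m.a02, frob m.a12, frob m.a22, frob m.a32, frob m.a42, frob m.a52, frob m.a03, frob m.a13, frob m.a23, frob m.a33, frob m.a43, frob m.a53, frob m.a04, frob m.a14, frob m.a24, frob m.a34, frob m.a44, frob m.a54, frob m.a05, frob m.a15, frob m.a25, frob m.a35, frob m.a45, frob m.a55⟩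

/-- Equality test. -/
def keq (a b : K4) : Bool := Nat.beq a.1 b.1

theorem keq_eq {a b : K4} (h : keq a b = true) : a = b := Fin.ext (Nat.eq_of_beq_eq_true h)

/-- Equality test of matrices. -/
def meq (m n : Mt) : Bool :=
  keq m.a00 n.a00 && (keq m.a01 n.a01 && (keq m.a02 n.a02 && (keq m.a03 n.a03 && (keq m.a04 n.a04 && (keq m.a05 n.a05 && (keq m.a10 n.a10 && (keq m.a11 n.a11 && (keq m.a12 n.a12 && (keq m.a13 n.a13 && (keq m.a14 n.a14 && (keq m.a15 n.a15 && (keq m.a20 n.a20 && (keq m.a21 n.a21 && (keq m.a22 n.a22 && (keq m.a23 n.a23 && (keq m.a24 n.a24 && (keq m.a25 n.a25 && (keq m.a30 n.a30 && (keq m.a31 n.a31 && (keq m.a32 n.a32 && (keq m.a33 n.a33 && (keq m.a34 n.a34 && (keq m.a35 n.a35 && (keq m.a40 n.a40 && (keq m.a41 n.a41 && (keq m.a42 n.a42 && (keq m.a43 n.a43 && (keq m.a44 n.a44 && (keq m.a45 n.a45 && (keq m.a50 n.a50 && (keq m.a51 n.a51 && (keq m.a52 n.a52 && (keq m.a53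 n.a53 && (keq m.a54 n.a54 && (keq m.a55 n.a55)))))))))))))))))))))))))))))))))))

theorem meq_eq {m n : Mt} (h : meq m n = true) : m = n := by
  simp only [meq, Bool.and_eq_true] at h
  obtain ⟨h00, h01, h02, h03, h04, h05, h10, h11, h12, h13, h14, h15, h20, h21, h22, h23, h24, h25, h30, h31, h32, h33, h34, h35, h40, h41, h42, h43, h44, h45, h50, h51, h52, h53, h54, h55⟩ := h
  exact Mt.ext (keq_eq h00) (keq_eq h01) (keq_eq h02) (keq_eq h03) (keq_eq h04) (keq_eq h05) (keq_eq h10) (keq_eq h11) (keq_eq h12) (keq_eq h13) (keq_eq h14) (keq_eq h15) (keq_eq h20) (keq_eq h21) (keq_eq h22) (keq_eq h23) (keq_eq h24) (keq_eq h25) (keq_eq h30) (keq_eq h31) (keq_eq h32) (keq_eq h33) (keq_eq h34) (keq_eq h35) (keq_eq h40) (keq_eq h41) (keq_eq h42) (keq_eq h43) (keq_eq h44) (keq_eq h45) (keq_eq h50) (keq_eq h51) (keq_eq h52) (keq_eq h53) (keq_eq h54) (keq_eq h55)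

theorem toM_inj {m n : Mt} (h : toM m = toM n) : m = n := by
  have e : ∀ i j, toM m i j = toM n i j := fun i j => congrFun (congrFun h i) j
  exact Mt.ext (e 0 0) (e 0 1) (e 0 2) (e 0 3) (e 0 4) (e 0 5) (e 1 0) (e 1 1) (e 1 2) (e 1 3) (e 1 4) (e 1 5) (e 2 0) (e 2 1) (e 2 2) (e 2 3) (e 2 4) (e 2 5) (e 3 0) (e 3 1) (e 3 2) (e 3 3) (e 3 4) (e 3 5) (e 4 0) (e 4 1) (e 4 2) (e 4 3) (e 4 4) (e 4 5) (e 5 0) (e 5 1) (e 5 2) (e 5 3) (e 5 4) (e 5 5)


theorem frob_eq (a : K4) : frob a = a ^ 2 := by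
  rw [pow_two]
  rfl

theorem toM_cj (m : Mt) (i j : Fin 6) : toM (cjM m) i j = (toM m i j) ^ 2 := by
  fin_cases i <;> fin_cases j <;> exact frob_eq _

theorem toM_adj (m : Mt) (i j : Fin 6) : toM (adj m) i j = (toM m j i) ^ 2 := by
  fin_cases i <;> fin_cases j <;> exact frob_eq _

theorem sq_add' : ∀ a b : K4, (a + b) ^ 2 = a ^ 2 + b ^ 2 := by decide +kernel

theorem sq_sq' : ∀ a : K4, (a ^ 2) ^ 2 = a := by decide +kernel

/-- Squaring as an additive map. -/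
def frA : K4 →+ K4 := AddMonoidHom.mk' (fun a => a ^ 2) sq_add'

theorem sq_sum {ι : Type*} (s : Finset ι) (f : ι → K4) : (∑ i ∈ s, f i) ^ 2 = ∑ i ∈ s, f i ^ 2 :=
  map_sum frA f s

theorem herm_of (m : Mt) (h : mmul (adj m) m = oneM) (u v : Fin 6 → K4) :
    hermForm 6 K4 2 (toM m *ᵥ u) (toM m *ᵥ v) = hermForm 6 K4 2 u v := by
  have h0 := congrArg toM h
  rw [toM_mul, toM_one] at h0
  have h' : (toM m).transpose * toM (cjM m) = 1 := by
    have e : toM (cjM m) = (toM (adj m)).transpose := by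
      ext i j
      rw [Matrix.transpose_apply, toM_adj, toM_cj]
    rw [e, ← Matrix.transpose_mul, h0, Matrix.transpose_one]
  have key : (fun i => (toM m *ᵥ v) i ^ 2) = toM (cjM m) *ᵥ (fun i => v i ^ 2) := by
    funext i
    simp only [Matrix.mulVec, dotProduct, sq_sum, mul_pow, toM_cj]
  have e1 : hermForm 6 K4 2 (toM m *ᵥ u) (toM m *ᵥ v) = (toM m *ᵥ u) ⬝ᵥ (fun i => (toM m *ᵥ v) i ^ 2) := rfl
  have e2 : hermForm 6 K4 2 u v = u ⬝ᵥ (fun i => v i ^ 2) := rfl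
  rw [e1, e2, key, ← Matrix.vecMul_transpose (toM m) u, Matrix.dotProduct_mulVec, Matrix.vecMul_vecMul, h', Matrix.vecMul_one]

/-- The element of `SU` with a given table. -/
def ofMt (m : Mt) (hd : (toM m).det = 1) (h : mmul (adj m) m = oneM) : SU0 :=
  Cfsg.Agent.Lib.UnitarySU.SUofMatrix (toM m) hd (herm_of m h)

/-- The table of an element. -/
def Rq (g : SU0) (m : Mt) : Prop := ((g : Matrix.SpecialLinearGroup (Fin 6) K4) : MM) = toM m

theorem Rq_ofMt (m : Mt) (hd : (toM m).det = 1) (h : mmul (adj m) m = oneM) : Rq (ofMt m hd h) m := rfl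

theorem Rq_mul {g h : SU0} {x y : Mt} (h1 : Rq g x) (h2 : Rq h y) : Rq (g * h) (mmul x y) := by
  unfold Rq at *
  rw [toM_mul, ← h1, ← h2]
  rfl

theorem Rq_one : Rq 1 oneM := by
  unfold Rq
  rw [toM_one]
  rfl

theorem val_inj {g h : SU0} (e : ((g : Matrix.SpecialLinearGroup (Fin 6) K4) : MM) = ((h : Matrix.SpecialLinearGroup (Fin 6) K4) : MM)) : g = h :=
  Subtype.ext (Subtype.ext e)

theorem Rq_inj {g h : SU0} {m : Mt} (h1 : Rq g m) (h2 : Rq h m) : g = h := val_inj (h1.trans h2.symm)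

theorem hF4 : Fintype.card K4 = 2 ^ 2 := by
  rw [K4.card_K4]
  norm_num

theorem sigma_eq (a : K4) : Cfsg.Agent.Lib.UnitaryBasic.sigma hF4 a = a ^ 2 := rfl

/-- The adjoint of a table is its inverse. -/
theorem adj_mul_self {g : SU0} {m : Mt} (h : Rq g m) : toM (adj m) * toM m = 1 := by
  have h1 : (toM m).transpose * (toM m).map (Cfsg.Agent.Lib.UnitaryBasic.sigma hF4) = 1 :=
    Cfsg.Agent.Lib.UnitarySU.transpose_mul_map_sigma hF4 (by
      intro u v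
      rw [← h]
      exact g.2 u v)
  have h2 : toM (adj m) = ((toM m).map (Cfsg.Agent.Lib.UnitaryBasic.sigma hF4)).transpose := by
    ext i j
    rw [toM_adj]
    rfl
  rw [h2]
  have h3 := congrArg Matrix.transpose h1
  rw [Matrix.transpose_mul, Matrix.transpose_transpose, Matrix.transpose_one] at h3
  exact h3

theorem Rq_inv {g : SU0} {m : Mt} (h : Rq g m) : Rq g⁻¹ (adj m) := by
  have h1 := adj_mul_self h
  have h3 : (((g * g⁻¹ : SU0) : Matrix.SpecialLinearGroup (Fin 6) K4) : MM) = 1 := by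
    rw [mul_inv_cancel]
    rfl
  have h4 : ((g : Matrix.SpecialLinearGroup (Fin 6) K4) : MM) * (((g⁻¹ : SU0) : Matrix.SpecialLinearGroup (Fin 6) K4) : MM) = 1 := h3
  unfold Rq at *
  rw [h] at h4
  calc (((g⁻¹ : SU0) : Matrix.SpecialLinearGroup (Fin 6) K4) : MM)
      = (toM (adj m) * toM m) * (((g⁻¹ : SU0) : Matrix.SpecialLinearGroup (Fin 6) K4) : MM) := by rw [h1, Matrix.one_mul]
    _ = toM (adj m) := by rw [Matrix.mul_assoc, h4, Matrix.mul_one]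

theorem central_of_scal {g : SU0} {c : K4} (h : Rq g (scal c)) : g ∈ Subgroup.center SU0 := by
  rw [Subgroup.mem_center_iff]
  intro k
  apply val_inj
  have e1 : ((k * g : SU0) : Matrix.SpecialLinearGroup (Fin 6) K4).1 = (k : Matrix.SpecialLinearGroup (Fin 6) K4).1 * (g : Matrix.SpecialLinearGroup (Fin 6) K4).1 := rfl
  have e2 : ((g * k : SU0) : Matrix.SpecialLinearGroup (Fin 6) K4).1 = (g : Matrix.SpecialLinearGroup (Fin 6) K4).1 * (k : Matrix.SpecialLinearGroup (Fin 6) K4).1 := rfl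
  have h' : (g : Matrix.SpecialLinearGroup (Fin 6) K4).1 = Matrix.scalar (Fin 6) c := by
    have := h
    unfold Rq at this
    rw [this, toM_scal]
  show (k * g : SU0).1.1 = (g * k : SU0).1.1
  rw [e1, e2, h']
  exact ((Matrix.scalar_commute c (fun _ => mul_comm _ _) _)).symm

/-- Central elements are scalars of norm one. -/
theorem scal_of_central {g : SU0} (hg : g ∈ Subgroup.center SU0) : ∃ c : K4, c * c ^ 2 = 1 ∧ Rq g (scal c) := by
  have hoff : ∀ {k l : Fin 6}, k ≠ l → (g.1.1 : MM) k l = 0 := fun hkl =>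
    Cfsg.Agent.Lib.UnitarySU.center_offdiag_zero hF4 g hg hkl
  have hdg : ∀ {i j : Fin 6}, i ≠ j → (g.1.1 : MM) i i = (g.1.1 : MM) j j := fun hij =>
    Cfsg.Agent.Lib.UnitarySU.center_diag_eq hF4 g hg hij
  have hR : Rq g (scal ((g.1.1 : MM) 0 0)) := by
    unfold Rq
    ext i j
    rw [toM_scal]
    by_cases hij : i = j
    · subst hij
      by_cases hi : i = 0
      · subst hi
        simp
      · rw [hdg hi]
        simp
    · rw [hoff hij]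
      simp [hij]
  refine ⟨_, ?_, hR⟩
  have h1 := adj_mul_self hR
  have h2 := congrFun (congrFun h1 0) 0
  have h3 : (toM (adj (scal ((g.1.1 : MM) 0 0))) * toM (scal ((g.1.1 : MM) 0 0))) 0 0 =
      ((g.1.1 : MM) 0 0) ^ 2 * ((g.1.1 : MM) 0 0) := by
    have e : ∀ c : K4, (toM (adj (scal c)) * toM (scal c)) 0 0 = c ^ 2 * c := by
      decide +kernel
    exact e _
  rw [h3] at h2
  rw [mul_comm]
  simpa using h2

/-- The scalars. -/
def isS (m : Mt) : Bool :=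
  meq m (scal ⟨1, by decide⟩) || (meq m (scal ⟨2, by decide⟩) || meq m (scal ⟨3, by decide⟩))

theorem central_of_isS {g : SU0} {m : Mt} (h : Rq g m) (hs : isS m = true) : g ∈ Subgroup.center SU0 := by
  simp only [isS, Bool.or_eq_true] at hs
  rcases hs with h4 | h4 | h4
  · rw [meq_eq h4] at h
    exact central_of_scal h
  · rw [meq_eq h4] at h
    exact central_of_scal h
  · rw [meq_eq h4] at h
    exact central_of_scal h

theorem isS_scal : ∀ c : K4, c * c ^ 2 = 1 → isS (scal c) = true := by decide +kernel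

theorem isS_of_central {g : SU0} {m : Mt} (h : Rq g m) (hg : g ∈ Subgroup.center SU0) : isS m = true := by
  obtain ⟨c, hc, hR⟩ := scal_of_central hg
  have e : toM m = toM (scal c) := h.symm.trans hR
  have hm : m = scal c := toM_inj e
  rw [hm]
  exact isS_scal c hc

end Cfsg.Agent.Lib.M6K4
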