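import Mathlib

set_option autoImplicit false

namespace Cfsg.Agent.Lib.MacWClass

universe u

/-- A group all of whose involutions lie in a central elementary subgroup `V` of order at most 4,
and in which no element inverts an element of order 4. -/
structure XClass (Y : Type u) [Group Y] (V : Subgroup Y) : Prop where
  central : ∀ v ∈ V, ∀ y : Y, v * y = y * v
  sq : ∀ v ∈ V, v * v = 1
  inv : ∀ y : Y, y * y = 1 → y ∈ V
  card : Nat.card V ≤ 4
  noinv : ∀ g w : Y, orderOf w = 4 → g⁻¹ * w * g ≠ w⁻¹

instance : Fact (Nat.Prime 2) := ⟨Nat.prime_two⟩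

lemma exists_pow_order_four {Y : Type*} [Group Y] [Finite Y] (hP : IsPGroup 2 Y) (u : Y)
    (hu : u * u ≠ 1) : ∃ k : ℕ, orderOf (u ^ k) = 4 := by
  obtain ⟨n, hn⟩ := (IsPGroup.iff_orderOf.mp hP) u
  have h2 : 2 ≤ n := by
    by_contra h
    have h' : n = 0 ∨ n = 1 := by omega
    rcases h' with rfl | rfl
    · have : u = 1 := by simpa using hn
      exact hu (by simp [this])
    · apply hu
      have : u ^ 2 = 1 := by
        have := pow_orderOf_eq_one u
        rwa [hn, pow_one] at this
      rwa [pow_two] at this
  refine ⟨2 ^ (n - 2), ?_⟩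
  rw [orderOf_pow_of_dvd (by positivity) (by rw [hn]; exact pow_dvd_pow 2 (by omega)), hn]
  have : 2 ^ n = 2 ^ (n - 2) * 4 := by
    have : n = (n - 2) + 2 := by omega
    conv_lhs => rw [this, pow_add]
    norm_num
  rw [this, Nat.mul_div_cancel_left _ (by positivity)]

lemma exists_involution_pow {Y : Type*} [Group Y] [Finite Y] (hP : IsPGroup 2 Y) (u : Y)
    (hu : u ≠ 1) : ∃ k : ℕ, u ^ k ≠ 1 ∧ (u ^ k) * (u ^ k) = 1 := by
  obtain ⟨n, hn⟩ := (IsPGroup.iff_orderOf.mp hP) u
  have h1 : 1 ≤ n := by
    by_contra h
    have h' : n = 0 := by omega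
    subst h'
    exact hu (by simpa using hn)
  refine ⟨2 ^ (n - 1), ?_, ?_⟩
  · have : ¬ u ^ 2 ^ (n - 1) = 1 := by
      intro h
      have := orderOf_dvd_of_pow_eq_one h
      rw [hn] at this
      have := (Nat.pow_dvd_pow_iff_le_right (by norm_num : 1 < 2)).mp this
      omega
    exact this
  · rw [← pow_add, ← two_mul, ← pow_succ']
    have : n - 1 + 1 = n := by omega
    rw [this, ← hn, pow_orderOf_eq_one]

lemma card_ge_of_finset {Y : Type*} [Group Y] [Finite Y] (V : Subgroup Y) (s : Finset Y)
    (hs : ∀ x ∈ s, x ∈ V) : s.card ≤ Nat.card V := by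
  have : (s : Set Y) ⊆ (V : Set Y) := fun x hx => hs x (by simpa using hx)
  have h := Set.ncard_le_ncard this (Set.toFinite _)
  rw [Set.ncard_coe_finset] at h
  rwa [← Nat.card_coe_set_eq] at h

namespace XClass

variable {Y : Type u} [Group Y] [Finite Y] {V : Subgroup Y}

lemma sq_of_inverted (h : XClass Y V) (hP : IsPGroup 2 Y) (a k : Y) (hak : a⁻¹ * k * a = k⁻¹) :
    k * k = 1 := by
  by_contra hk
  obtain ⟨j, hj⟩ := exists_pow_order_four hP k hk
  apply h.noinv a (k ^ j) hj
  have : a⁻¹ * k ^ j * a = (a⁻¹ * k * a) ^ j := by
    simpa using (conj_pow (a := a⁻¹) (b := k) (i := j)).symm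
  rw [this, hak, inv_pow]

lemma comm_mod (h : XClass Y V) (hP : IsPGroup 2 Y) (a g : Y) (ha : a * a ∈ V) :
    a⁻¹ * g⁻¹ * a * g ∈ V := by
  set k := a⁻¹ * g⁻¹ * a * g with hk
  have h0 : g⁻¹ * a * g = a * k := by simp [hk, mul_assoc]
  have h1 : (a * k) * (a * k) = a * a := by
    rw [← h0]
    have : g⁻¹ * a * g * (g⁻¹ * a * g) = g⁻¹ * (a * a) * g := by group
    rw [this, h.central _ ha g⁻¹ |>.symm]
    group
  have h2 : a⁻¹ * k * a = k⁻¹ := by
    apply eq_inv_of_mul_eq_one_left
    have h3 : k * a * k = a := by
      have : a * (k * a * k) = a * a := by rw [← h1]; group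
      exact mul_left_cancel this
    calc a⁻¹ * k * a * k = a⁻¹ * (k * a * k) := by group
      _ = 1 := by rw [h3]; group
  exact h.inv k (h.sq_of_inverted hP a k h2)

lemma order_four (x : Y) (h1 : x * x ≠ 1) (h2 : (x * x) * (x * x) = 1) : orderOf x = 4 := by
  have e1 : x ^ 2 ^ 1 = x * x := by rw [pow_one, pow_two]
  have e2 : x ^ 2 ^ (1 + 1) = (x * x) * (x * x) := by
    norm_num [pow_succ, mul_assoc]
  have := orderOf_eq_prime_pow (x := x) (p := 2) (n := 1) (by rw [e1]; exact h1) (by rw [e2]; exact h2)
  simpa using this

lemma comm_of_sq (h : XClass Y V) (hP : IsPGroup 2 Y) (a b : Y) (ha : a * a ∈ V) (hb : b * b ∈ V) :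
    a * b = b * a := by
  classical
  by_contra hne
  set k := a⁻¹ * b⁻¹ * a * b with hk
  have hkV : k ∈ V := h.comm_mod hP a b ha
  have hkk : k * k = 1 := h.sq k hkV
  have hkc : ∀ y, k * y = y * k := h.central k hkV
  have hab : a * b = b * a * k := by simp [hk, mul_assoc]
  have hba : b * a = a * b * k := by
    rw [hab, mul_assoc, mul_assoc, hkk, mul_one]
  have hk1 : k ≠ 1 := by
    intro h1; rw [h1, mul_one] at hab; exact hne hab
  have haa : a * a ≠ 1 := by
    intro h1; exact hne (h.central a (h.inv a h1) b)
  have hbb : b * b ≠ 1 := by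
    intro h1; exact hne (h.central b (h.inv b h1) a).symm
  have haa2 : (a * a) * (a * a) = 1 := h.sq _ ha
  have hbb2 : (b * b) * (b * b) = 1 := h.sq _ hb
  have hoa : orderOf a = 4 := order_four a haa haa2
  have hob : orderOf b = 4 := order_four b hbb hbb2
  have hka : k ≠ a * a := by
    intro he
    apply h.noinv b a hoa
    have h3 : b⁻¹ * a * b = a * k := by simp [hk, mul_assoc]
    rw [h3, he]
    apply eq_inv_of_mul_eq_one_left
    calc a * (a * a) * a = (a * a) * (a * a) := by group
      _ = 1 := haa2
  have hkb : k ≠ b * b := by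
    intro he
    apply h.noinv a b hob
    have h3 : a⁻¹ * b * a = b * k := by
      have : a⁻¹ * b * a = a⁻¹ * (b * a) := by group
      rw [this, hba]; group
    rw [h3, he]
    apply eq_inv_of_mul_eq_one_left
    calc b * (b * b) * b = (b * b) * (b * b) := by group
      _ = 1 := hbb2
  have hcc : (a * b) * (a * b) = a * a * (b * b) * k := by
    calc (a * b) * (a * b) = a * (b * a) * b := by group
      _ = a * (a * b * k) * b := by rw [hba]
      _ = a * a * b * (k * b) := by group
      _ = a * a * b * (b * k) := by rw [hkc b]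
      _ = a * a * (b * b) * k := by group
  have hcV : (a * b) * (a * b) ∈ V := by
    rw [hcc]; exact V.mul_mem (V.mul_mem ha hb) hkV
  have hc1 : (a * b) * (a * b) ≠ 1 := by
    intro h1
    have := h.central (a * b) (h.inv _ h1) a
    apply hne
    have h4 : a * (a * b) = a * (b * a) := by
      rw [← this]; group
    exact mul_left_cancel h4
  have hoc : orderOf (a * b) = 4 := order_four _ hc1 (h.sq _ hcV)
  have hck : k ≠ (a * b) * (a * b) := by
    intro he
    apply h.noinv a (a * b) hoc
    have h3 : a⁻¹ * (a * b) * a = a * b * k := by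
      have : a⁻¹ * (a * b) * a = b * a := by group
      rw [this, hba]
    rw [h3, he]
    apply eq_inv_of_mul_eq_one_left
    calc a * b * ((a * b) * (a * b)) * (a * b) = ((a * b) * (a * b)) * ((a * b) * (a * b)) := by group
      _ = 1 := h.sq _ hcV
  have hab1 : a * a * (b * b) ≠ 1 := by
    intro h1
    apply hck
    rw [hcc, h1, one_mul]
  have habne : a * a ≠ b * b := by
    intro he
    apply hab1
    rw [he]; exact hbb2
  have hlast : a * a * (b * b) = k := by
    by_contra hne2
    have f7 : a * a ≠ a * a * (b * b) := fun he => hbb (by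
      have : a * a * 1 = a * a * (b * b) := by rw [mul_one]; exact he
      exact (mul_left_cancel this).symm)
    have f9 : b * b ≠ a * a * (b * b) := fun he => haa (by
      have : 1 * (b * b) = a * a * (b * b) := by rw [one_mul]; exact he
      exact (mul_right_cancel this).symm)
    have hcard : ({1, a * a, b * b, k, a * a * (b * b)} : Finset Y).card = 5 := by
      rw [Finset.card_insert_of_notMem, Finset.card_insert_of_notMem, Finset.card_insert_of_notMem,
        Finset.card_insert_of_notMem, Finset.card_singleton]
      · simp only [Finset.mem_singleton]; exact fun he => hne2 he.symm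
      · simp only [Finset.mem_insert, Finset.mem_singleton, not_or]; exact ⟨hkb.symm, f9⟩
      · simp only [Finset.mem_insert, Finset.mem_singleton, not_or]; exact ⟨habne, hka.symm, f7⟩
      · simp only [Finset.mem_insert, Finset.mem_singleton, not_or]
        exact ⟨haa.symm, hbb.symm, hk1.symm, hab1.symm⟩
    have hle := card_ge_of_finset V ({1, a * a, b * b, k, a * a * (b * b)} : Finset Y) (by
      intro x hx
      simp only [Finset.mem_insert, Finset.mem_singleton] at hx
      rcases hx with rfl | rfl | rfl | rfl | rfl
      · exact V.one_mem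
      · exact ha
      · exact hb
      · exact hkV
      · exact V.mul_mem ha hb)
    have := h.card
    omega
  apply hc1
  rw [hcc, hlast, hkk]

/-- The subgroup of elements squaring into `V`. -/
def SS (h : XClass Y V) (hP : IsPGroup 2 Y) : Subgroup Y where
  carrier := {y | y * y ∈ V}
  one_mem' := by simp [V.one_mem]
  mul_mem' := by
    intro a b ha hb
    have hc := h.comm_of_sq hP a b ha hb
    have : a * b * (a * b) = a * a * (b * b) := by
      calc a * b * (a * b) = a * (b * a) * b := by group
        _ = a * (a * b) * b := by rw [hc]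
        _ = _ := by group
    simp only [Set.mem_setOf_eq]
    rw [this]; exact V.mul_mem ha hb
  inv_mem' := by
    intro a ha
    have : a⁻¹ * a⁻¹ = (a * a)⁻¹ := by group
    simp only [Set.mem_setOf_eq]
    rw [this]; exact V.inv_mem ha

lemma mem_SS (h : XClass Y V) (hP : IsPGroup 2 Y) (y : Y) : y ∈ SS h hP ↔ y * y ∈ V := Iff.rfl

lemma card_map_le (h : XClass Y V) (hP : IsPGroup 2 Y) [V.Normal] :
    Nat.card ((SS h hP).map (QuotientGroup.mk' V)) ≤ Nat.card V := by
  have hch : ∀ y : ((SS h hP).map (QuotientGroup.mk' V)), ∃ a : Y, a ∈ SS h hP ∧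
      QuotientGroup.mk' V a = y := by
    rintro ⟨_, a, ha, rfl⟩
    exact ⟨a, ha, rfl⟩
  choose f hf1 hf2 using hch
  refine Nat.card_le_card_of_injective (fun y => (⟨f y * f y, hf1 y⟩ : V)) ?_
  intro x y hxy
  have he : f x * f x = f y * f y := congrArg Subtype.val hxy
  have hc := h.comm_of_sq hP (f x) (f y) (hf1 x) (hf1 y)
  have hs : ((f x)⁻¹ * f y) * ((f x)⁻¹ * f y) = 1 := by
    have h1 : (f x)⁻¹ * f y = f y * (f x)⁻¹ := by
      rw [inv_mul_eq_iff_eq_mul, ← mul_assoc, hc, mul_assoc, mul_inv_cancel, mul_one]
    calc ((f x)⁻¹ * f y) * ((f x)⁻¹ * f y) = (f x)⁻¹ * (f y * (f x)⁻¹) * f y := by group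
      _ = (f x)⁻¹ * ((f x)⁻¹ * f y) * f y := by rw [h1]
      _ = (f x * f x)⁻¹ * (f y * f y) := by group
      _ = 1 := by rw [he]; group
  have hm := h.inv _ hs
  have : QuotientGroup.mk' V (f x) = QuotientGroup.mk' V (f y) := QuotientGroup.eq.mpr hm
  apply Subtype.ext
  rw [← hf2 x, ← hf2 y, this]

lemma quot (h : XClass Y V) (hP : IsPGroup 2 Y) [V.Normal] :
    XClass (Y ⧸ V) ((SS h hP).map (QuotientGroup.mk' V)) where
  central := by
    rintro _ ⟨a, ha, rfl⟩ y
    obtain ⟨g, rfl⟩ := QuotientGroup.mk_surjective y
    have hk := h.comm_mod hP a g ha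
    show ((a * g : Y) : Y ⧸ V) = ((g * a : Y) : Y ⧸ V)
    symm
    refine QuotientGroup.eq.mpr ?_
    have : (g * a)⁻¹ * (a * g) = a⁻¹ * g⁻¹ * a * g := by group
    rw [this]; exact hk
  sq := by
    rintro _ ⟨a, ha, rfl⟩
    show ((a * a : Y) : Y ⧸ V) = 1
    exact (QuotientGroup.eq_one_iff _).mpr ha
  inv := by
    intro y hy
    obtain ⟨y, rfl⟩ := QuotientGroup.mk_surjective y
    have : ((y * y : Y) : Y ⧸ V) = 1 := hy
    have hy2 : y * y ∈ V := (QuotientGroup.eq_one_iff (y * y)).mp this
    exact ⟨y, hy2, rfl⟩
  card := (h.card_map_le hP).trans h.card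
  noinv := by
    intro g w hw he
    obtain ⟨g, rfl⟩ := QuotientGroup.mk_surjective g
    obtain ⟨w, rfl⟩ := QuotientGroup.mk_surjective w
    have hv : w * (g⁻¹ * w * g) ∈ V := by
      have : ((w * (g⁻¹ * w * g) : Y) : Y ⧸ V) = 1 := by
        have h1 : ((w * (g⁻¹ * w * g) : Y) : Y ⧸ V)
            = (w : Y ⧸ V) * ((g : Y ⧸ V)⁻¹ * (w : Y ⧸ V) * (g : Y ⧸ V)) := rfl
        rw [h1, he, mul_inv_cancel]
      exact (QuotientGroup.eq_one_iff _).mp this
    set v := w * (g⁻¹ * w * g) with hvdef
    have h2 : g⁻¹ * w * g = w⁻¹ * v := by simp [hvdef]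
    have hvv : v * v = 1 := h.sq v hv
    have h3 : g⁻¹ * (w * w) * g = (w * w)⁻¹ := by
      have : g⁻¹ * (w * w) * g = (g⁻¹ * w * g) * (g⁻¹ * w * g) := by group
      rw [this, h2]
      calc w⁻¹ * v * (w⁻¹ * v) = w⁻¹ * (v * w⁻¹) * v := by group
        _ = w⁻¹ * (w⁻¹ * v) * v := by rw [h.central v hv]
        _ = w⁻¹ * w⁻¹ * (v * v) := by group
        _ = (w * w)⁻¹ := by rw [hvv]; group
    have h4 : (w : Y ⧸ V) ^ 4 = 1 := by rw [← hw]; exact pow_orderOf_eq_one _
    have h5 : (w : Y ⧸ V) ^ 2 ≠ 1 := by
      intro h6
      have := orderOf_dvd_of_pow_eq_one h6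
      rw [hw] at this
      omega
    have hw4 : (w * w) * (w * w) ∈ V := by
      have : (((w * w) * (w * w) : Y) : Y ⧸ V) = 1 := by
        have h7 : (((w * w) * (w * w) : Y) : Y ⧸ V) = (w : Y ⧸ V) ^ 4 := by
          simp [pow_succ, mul_assoc]
        rw [h7, h4]
      exact (QuotientGroup.eq_one_iff _).mp this
    have hww : (w * w) * (w * w) ≠ 1 := by
      intro h6
      have := h.inv _ h6
      apply h5
      have h7 : (w : Y ⧸ V) ^ 2 = ((w * w : Y) : Y ⧸ V) := by simp [pow_two]
      rw [h7]; exact (QuotientGroup.eq_one_iff _).mpr this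
    have ho : orderOf (w * w) = 4 := order_four _ hww (h.sq _ hw4)
    exact h.noinv g (w * w) ho h3

lemma restrict (h : XClass Y V) (K : Subgroup Y) : XClass K (V.subgroupOf K) where
  central := by
    intro v hv y
    exact Subtype.ext (h.central v (Subgroup.mem_subgroupOf.mp hv) y)
  sq := by
    intro v hv
    exact Subtype.ext (h.sq v (Subgroup.mem_subgroupOf.mp hv))
  inv := by
    intro y hy
    exact Subgroup.mem_subgroupOf.mpr (h.inv y (congrArg Subtype.val hy))
  card := by
    refine le_trans ?_ h.card
    refine Nat.card_le_card_of_injective (fun x => (⟨(x.1 : Y), Subgroup.mem_subgroupOf.mp x.2⟩ : V)) ?_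
    intro x y hxy
    have : (x.1 : Y) = y.1 := by
      have := Subtype.ext_iff.mp hxy
      simpa using this
    exact Subtype.ext (Subtype.ext this)
  noinv := by
    intro g w hw he
    apply h.noinv g w (by rwa [Subgroup.orderOf_coe])
    have := congrArg Subtype.val he
    simpa using this

/-- Any two non-identity... a group equal to its `V` is 2-generated. -/
lemma gen_of_all (h : XClass Y V) (hall : ∀ y : Y, y ∈ V) :
    ∃ a b : Y, Subgroup.closure {a, b} = ⊤ := by
  classical
  by_cases h1 : ∀ y : Y, y = 1
  · refine ⟨1, 1, ?_⟩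
    ext y; rw [h1 y]; simp [one_mem]
  · push_neg at h1
    obtain ⟨a, ha⟩ := h1
    by_cases h2 : ∀ y : Y, y = 1 ∨ y = a
    · refine ⟨a, a, ?_⟩
      ext y
      simp only [Subgroup.mem_top, iff_true]
      rcases h2 y with rfl | rfl
      · exact one_mem _
      · exact Subgroup.subset_closure (by simp)
    · push_neg at h2
      obtain ⟨b, hb1, hb2⟩ := h2
      refine ⟨a, b, ?_⟩
      ext y
      simp only [Subgroup.mem_top, iff_true]
      have hA : a ∈ Subgroup.closure {a, b} := Subgroup.subset_closure (by simp)
      have hB : b ∈ Subgroup.closure {a, b} := Subgroup.subset_closure (by simp)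
      by_contra hy
      have hy1 : y ≠ 1 := fun e => hy (e ▸ one_mem _)
      have hya : y ≠ a := fun e => hy (e ▸ hA)
      have hyb : y ≠ b := fun e => hy (e ▸ hB)
      have hyab : y ≠ a * b := fun e => hy (e ▸ mul_mem hA hB)
      have haa : a * a = 1 := h.sq a (hall a)
      have hbb : b * b = 1 := h.sq b (hall b)
      have f1 : a * b ≠ 1 := fun e => hb2 (by
        have : a * b = a * a := by rw [e, haa]
        exact (mul_left_cancel this))
      have f2 : a * b ≠ a := fun e => hb1 (by
        have : a * b = a * 1 := by rw [e, mul_one]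
        exact mul_left_cancel this)
      have f3 : a * b ≠ b := fun e => ha (by
        have : a * b = 1 * b := by rw [e, one_mul]
        exact mul_right_cancel this)
      have hcard : ({1, a, b, a * b, y} : Finset Y).card = 5 := by
        rw [Finset.card_insert_of_notMem, Finset.card_insert_of_notMem, Finset.card_insert_of_notMem,
          Finset.card_insert_of_notMem, Finset.card_singleton]
        · simp only [Finset.mem_singleton]; exact hyab.symm
        · simp only [Finset.mem_insert, Finset.mem_singleton, not_or]; exact ⟨f3.symm, hyb.symm⟩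
        · simp only [Finset.mem_insert, Finset.mem_singleton, not_or]; exact ⟨hb2.symm, f2.symm, hya.symm⟩
        · simp only [Finset.mem_insert, Finset.mem_singleton, not_or]
          exact ⟨ha.symm, hb1.symm, f1.symm, hy1.symm⟩
      have hle := card_ge_of_finset V ({1, a, b, a * b, y} : Finset Y) (fun x _ => hall x)
      have := h.card
      omega

lemma two_elems (h : XClass Y V) (h2 : Nat.card V ≤ 2) (z v : Y) (hz : z ∈ V) (hv : v ∈ V)
    (hz1 : z ≠ 1) : v = 1 ∨ v = z := by
  classical
  by_contra hc
  push_neg at hc
  have hcard : ({1, z, v} : Finset Y).card = 3 := by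
    rw [Finset.card_insert_of_notMem, Finset.card_insert_of_notMem, Finset.card_singleton]
    · simp only [Finset.mem_singleton]; exact hc.2.symm
    · simp only [Finset.mem_insert, Finset.mem_singleton, not_or]; exact ⟨hz1.symm, hc.1.symm⟩
  have hle := card_ge_of_finset V ({1, z, v} : Finset Y) (by
    intro x hx
    simp only [Finset.mem_insert, Finset.mem_singleton] at hx
    rcases hx with rfl | rfl | rfl
    · exact V.one_mem
    · exact hz
    · exact hv)
  omega

end XClass

theorem xclass_gen : ∀ (n : ℕ) (Y : Type u) [Group Y] [Finite Y] (V : Subgroup Y), Nat.card Y = n →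
    IsPGroup 2 Y → XClass Y V →
    (∃ a b : Y, Subgroup.closure {a, b} = ⊤) ∧
      (Nat.card V ≤ 2 → ∃ a : Y, Subgroup.closure {a} = ⊤) := by
  intro n
  induction n using Nat.strong_induction_on with
  | _ n ih =>
    intro Y _ _ V hn hP h
    by_cases hV : V = ⊥
    · have hall : ∀ y : Y, y = 1 := by
        intro y
        by_contra hy
        obtain ⟨k, hk1, hk2⟩ := exists_involution_pow hP y hy
        have := h.inv _ hk2
        rw [hV, Subgroup.mem_bot] at this
        exact hk1 this
      have htop : ∀ S : Set Y, Subgroup.closure S = ⊤ := by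
        intro S
        ext y; rw [hall y]; simp [one_mem]
      exact ⟨⟨1, 1, htop _⟩, fun _ => ⟨1, htop _⟩⟩
    · haveI hnorm : V.Normal := ⟨fun v hv g => by
        have := h.central v hv g
        rw [← this]; simpa using hv⟩
      have hcardV : 2 ≤ Nat.card V := by
        by_contra hc
        have h1 : Nat.card V = 1 := by
          have : 0 < Nat.card V := Nat.card_pos
          omega
        exact hV (Subgroup.eq_bot_of_card_eq V h1)
      have hlt : Nat.card (Y ⧸ V) < n := by
        have h1 := Subgroup.card_eq_card_quotient_mul_card_subgroup V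
        have h2 : 0 < Nat.card (Y ⧸ V) := Nat.card_pos
        rw [← hn, h1]
        nlinarith
      obtain ⟨⟨a', b', hgen⟩, hcyc⟩ := ih _ hlt (Y ⧸ V) _ rfl (hP.to_quotient V) (h.quot hP)
      have hprod : ∀ (S : Set Y), Subgroup.closure ((QuotientGroup.mk' V) '' S) = ⊤ →
          ∀ y : Y, ∃ y₀ ∈ Subgroup.closure S, y₀⁻¹ * y ∈ V := by
        intro S hS y
        have hm : (Subgroup.closure S).map (QuotientGroup.mk' V) = ⊤ := by
          rw [MonoidHom.map_closure, hS]
        have : QuotientGroup.mk' V y ∈ (Subgroup.closure S).map (QuotientGroup.mk' V) := by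
          rw [hm]; trivial
        obtain ⟨y₀, hy₀, he⟩ := this
        exact ⟨y₀, hy₀, QuotientGroup.eq.mp he⟩
      constructor
      · obtain ⟨a, rfl⟩ := QuotientGroup.mk_surjective a'
        obtain ⟨b, rfl⟩ := QuotientGroup.mk_surjective b'
        have hp := hprod {a, b} (by
          have : (QuotientGroup.mk' V) '' {a, b} = {(a : Y ⧸ V), (b : Y ⧸ V)} := by
            simp [Set.image_insert_eq]
          rw [this]; exact hgen)
        set Y₀ := Subgroup.closure ({a, b} : Set Y) with hY₀
        by_cases hVY : V ≤ Y₀
        · refine ⟨a, b, ?_⟩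
          ext y
          simp only [Subgroup.mem_top, iff_true]
          obtain ⟨y₀, hy₀, hv⟩ := hp y
          have : y = y₀ * (y₀⁻¹ * y) := by group
          rw [this]
          exact Y₀.mul_mem hy₀ (hVY hv)
        · have hne : Y₀ ≠ ⊤ := by
            intro e; apply hVY; rw [e]; exact le_top
          have hcY₀ : Nat.card Y₀ < n := by
            have h1 := Subgroup.card_mul_index Y₀
            have h2 := Subgroup.one_lt_index_of_ne_top hne
            have h3 : 0 < Nat.card Y₀ := Nat.card_pos
            rw [← hn, ← h1]
            nlinarith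
          obtain ⟨-, hcyc₀⟩ := ih _ hcY₀ Y₀ (V.subgroupOf Y₀) rfl (hP.to_subgroup Y₀) (h.restrict Y₀)
          have hV₀ : Nat.card (V.subgroupOf Y₀) ≤ 2 := by
            set K := (V.subgroupOf Y₀).map Y₀.subtype with hK
            have hKV : K ≤ V := by
              rintro _ ⟨x, hx, rfl⟩
              exact Subgroup.mem_subgroupOf.mp hx
            have hKc : Nat.card K = Nat.card (V.subgroupOf Y₀) :=
              (Nat.card_congr (Subgroup.equivMapOfInjective _ _ Y₀.subtype_injective).toEquiv).symm
            have hKne : K ≠ V := by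
              intro e
              apply hVY
              intro v hv
              have : v ∈ K := by rw [e]; exact hv
              obtain ⟨x, _, rfl⟩ := this
              exact x.2
            have hdvd : Nat.card K ∣ Nat.card V := Subgroup.card_dvd_of_le hKV
            have hlt2 : Nat.card K < Nat.card V := by
              refine lt_of_le_of_ne (Nat.le_of_dvd Nat.card_pos hdvd) ?_
              intro e
              exact hKne (Subgroup.eq_of_le_of_card_ge hKV e.ge)
            rw [← hKc]
            have h4 := h.card
            by_contra hc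
            push_neg at hc
            have h5 : Nat.card K = 3 := by omega
            have h6 : Nat.card V = 4 := by omega
            rw [h5, h6] at hdvd
            omega
          obtain ⟨g, hg⟩ := hcyc₀ hV₀
          have hgY : Subgroup.closure {(g : Y)} = Y₀ := by
            have h1 : (Subgroup.closure ({g} : Set Y₀)).map Y₀.subtype = Y₀ := by
              rw [hg, ← MonoidHom.range_eq_map, Subgroup.range_subtype]
            rw [MonoidHom.map_closure] at h1
            simpa using h1
          obtain ⟨y', hy'V, hy'Y⟩ := Set.not_subset.mp hVY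
          by_cases hg1 : (g : Y) = 1
          · have hY₀bot : Y₀ = ⊥ := hgY.symm.trans (by rw [hg1]; simp)
            have hall : ∀ y : Y, y ∈ V := by
              intro y
              obtain ⟨y₀, hy₀, hv⟩ := hp y
              rw [hY₀bot, Subgroup.mem_bot] at hy₀
              rw [hy₀] at hv
              simpa using hv
            exact h.gen_of_all hall
          · refine ⟨g, y', ?_⟩
            obtain ⟨k, hk1, hk2⟩ := exists_involution_pow hP (g : Y) hg1
            have hkY : (g : Y) ^ k ∈ Y₀ := Y₀.pow_mem g.2 k
            have hkV : (g : Y) ^ k ∈ V := h.inv _ hk2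
            have hG : (g : Y) ∈ Subgroup.closure {(g : Y), y'} := Subgroup.subset_closure (by simp)
            have hY' : y' ∈ Subgroup.closure {(g : Y), y'} := Subgroup.subset_closure (by simp)
            have hY₀le : Y₀ ≤ Subgroup.closure {(g : Y), y'} := by
              have h7 : Subgroup.closure {(g : Y)} ≤ Subgroup.closure {(g : Y), y'} :=
                (Subgroup.closure_le _).mpr (by simpa using hG)
              exact hgY.ge.trans h7
            have hVle : ∀ v ∈ V, v ∈ Subgroup.closure {(g : Y), y'} := by
              intro v hv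
              by_contra hc
              classical
              set z := (g : Y) ^ k with hz
              have hvY : v ∉ Y₀ := fun e => hc (hY₀le e)
              have hvy : v ≠ y' := fun e => hc (e ▸ hY')
              have hvz : v ≠ z := fun e => hvY (e ▸ hkY)
              have hv1 : v ≠ 1 := fun e => hvY (e ▸ Y₀.one_mem)
              have hz1 : z ≠ 1 := hk1
              have hzy : z ≠ y' := fun e => hy'Y (e ▸ hkY)
              have hy1 : y' ≠ 1 := fun e => hy'Y (e ▸ Y₀.one_mem)
              have hmem : v = z * y' := by
                by_contra hn2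
                have f1 : z * y' ≠ 1 := fun e => hzy (by
                  have hzz : z * z = 1 := hk2
                  have : z * y' = z * z := by rw [e, hzz]
                  exact (mul_left_cancel this).symm)
                have f2 : z * y' ≠ z := fun e => hy1 (by
                  have : z * y' = z * 1 := by rw [e, mul_one]
                  exact mul_left_cancel this)
                have f3 : z * y' ≠ y' := fun e => hz1 (by
                  have : z * y' = 1 * y' := by rw [e, one_mul]
                  exact mul_right_cancel this)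
                have hcard : ({1, z, y', z * y', v} : Finset Y).card = 5 := by
                  rw [Finset.card_insert_of_notMem, Finset.card_insert_of_notMem,
                    Finset.card_insert_of_notMem, Finset.card_insert_of_notMem, Finset.card_singleton]
                  · simp only [Finset.mem_singleton]; exact fun e => hn2 e.symm
                  · simp only [Finset.mem_insert, Finset.mem_singleton, not_or]
                    exact ⟨f3.symm, hvy.symm⟩
                  · simp only [Finset.mem_insert, Finset.mem_singleton, not_or]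
                    exact ⟨hzy, f2.symm, hvz.symm⟩
                  · simp only [Finset.mem_insert, Finset.mem_singleton, not_or]
                    exact ⟨hz1.symm, hy1.symm, f1.symm, hv1.symm⟩
                have hle := card_ge_of_finset V ({1, z, y', z * y', v} : Finset Y) (by
                  intro x hx
                  simp only [Finset.mem_insert, Finset.mem_singleton] at hx
                  rcases hx with rfl | rfl | rfl | rfl | rfl
                  · exact V.one_mem
                  · exact hkV
                  · exact hy'V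
                  · exact V.mul_mem hkV hy'V
                  · exact hv)
                have := h.card
                omega
              apply hc
              rw [hmem]
              exact mul_mem (pow_mem hG k) hY'
            ext y
            simp only [Subgroup.mem_top, iff_true]
            obtain ⟨y₀, hy₀, hv⟩ := hp y
            have : y = y₀ * (y₀⁻¹ * y) := by group
            rw [this]
            exact mul_mem (hY₀le hy₀) (hVle _ hv)
      · intro hV2
        obtain ⟨a', ha'⟩ := hcyc ((h.card_map_le hP).trans hV2)
        obtain ⟨a, rfl⟩ := QuotientGroup.mk_surjective a'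
        have hp := hprod {a} (by
          have : (QuotientGroup.mk' V) '' {a} = {(a : Y ⧸ V)} := by simp
          rw [this]; exact ha')
        set Y₀ := Subgroup.closure ({a} : Set Y) with hY₀
        by_cases ha1 : a = 1
        · have hY₀bot : Y₀ = ⊥ := by rw [hY₀, ha1]; simp
          have hall : ∀ y : Y, y ∈ V := by
            intro y
            obtain ⟨y₀, hy₀, hv⟩ := hp y
            rw [hY₀bot, Subgroup.mem_bot] at hy₀
            rw [hy₀] at hv
            simpa using hv
          obtain ⟨z, hz, hz1⟩ : ∃ z ∈ V, z ≠ 1 := by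
            by_contra hc
            push_neg at hc
            exact hV ((Subgroup.eq_bot_iff_forall _).mpr hc)
          refine ⟨z, ?_⟩
          ext y
          simp only [Subgroup.mem_top, iff_true]
          rcases h.two_elems hV2 z y hz (hall y) hz1 with rfl | rfl
          · exact one_mem _
          · exact Subgroup.subset_closure rfl
        · refine ⟨a, ?_⟩
          obtain ⟨k, hk1, hk2⟩ := exists_involution_pow hP a ha1
          have hkY : a ^ k ∈ Y₀ := Y₀.pow_mem (Subgroup.subset_closure rfl) k
          have hkV : a ^ k ∈ V := h.inv _ hk2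
          ext y
          simp only [Subgroup.mem_top, iff_true]
          obtain ⟨y₀, hy₀, hv⟩ := hp y
          have : y = y₀ * (y₀⁻¹ * y) := by group
          rw [this]
          refine Y₀.mul_mem hy₀ ?_
          rcases h.two_elems hV2 (a ^ k) _ hkV hv hk1 with e | e
          · rw [e]; exact Y₀.one_mem
          · rw [e]; exact hkY

end Cfsg.Agent.Lib.MacWClass
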