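import Mathlib
import Cfsg.Agent.Lib.MacWClass

set_option autoImplicit false

namespace Cfsg.Agent.Lib.MacWSec

open Cfsg.Agent.Lib.MacWClass

universe u

variable {T : Type u} [Group T]

/-- A group-level version of the class. -/
structure XSub (Y V : Subgroup T) : Prop where
  le : V ≤ Y
  central : ∀ v ∈ V, ∀ y ∈ Y, v * y = y * v
  sq : ∀ v ∈ V, v * v = 1
  inv : ∀ y ∈ Y, y * y = 1 → y ∈ V
  card : Nat.card V ≤ 4
  noinv : ∀ g ∈ Y, ∀ w ∈ Y, orderOf w = 4 → g⁻¹ * w * g ≠ w⁻¹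

/-- `H / M` is elementary abelian. -/
structure Sec (H M : Subgroup T) : Prop where
  le : M ≤ H
  sq : ∀ a ∈ H, a * a ∈ M
  comm : ∀ a ∈ H, ∀ b ∈ H, a * b * a⁻¹ * b⁻¹ ∈ M

lemma four_elems {Q : Type*} [Group Q] (hc : ∀ x y : Q, x * y = y * x) (hs : ∀ x : Q, x * x = 1)
    (a b x : Q) (hx : x ∈ Subgroup.closure {a, b}) : x = 1 ∨ x = a ∨ x = b ∨ x = a * b := by
  have hinv : ∀ x : Q, x⁻¹ = x := fun x => inv_eq_of_mul_eq_one_left (hs x)
  have haa := hs a
  have hbb := hs b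
  induction hx using Subgroup.closure_induction with
  | mem x hx =>
    rcases hx with rfl | hx
    · right; left; rfl
    · right; right; left; exact hx
  | one => left; rfl
  | inv x _ ih => rw [hinv]; exact ih
  | mul x y _ _ ihx ihy =>
    have e1 : a * (a * b) = b := by rw [← mul_assoc, haa, one_mul]
    have e2 : b * (a * b) = a := by rw [hc a b, ← mul_assoc, hbb, one_mul]
    have e3 : (a * b) * a = b := by rw [hc a b, mul_assoc, haa, mul_one]
    have e4 : (a * b) * b = a := by rw [mul_assoc, hbb, mul_one]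
    have e5 : (a * b) * (a * b) = 1 := hs _
    have e6 : b * a = a * b := hc b a
    rcases ihx with rfl | rfl | rfl | rfl <;> rcases ihy with rfl | rfl | rfl | rfl <;>
      simp [haa, hbb, e1, e2, e3, e4, e5, e6]

lemma quot_card_le {K : Type*} [Group K] [Finite K] (a b : K)
    (hgen : Subgroup.closure {a, b} = ⊤) (M : Subgroup K) (hsq : ∀ x, x * x ∈ M)
    (hcomm : ∀ x y, x * y * x⁻¹ * y⁻¹ ∈ M) : Nat.card K ≤ 4 * Nat.card M := by
  classical
  haveI hn : M.Normal := ⟨fun m hm g => by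
    have h1 := hcomm g m
    have : g * m * g⁻¹ = (g * m * g⁻¹ * m⁻¹) * m := by group
    rw [this]; exact M.mul_mem h1 hm⟩
  have hcQ : ∀ x y : K ⧸ M, x * y = y * x := by
    intro x y
    obtain ⟨x, rfl⟩ := QuotientGroup.mk_surjective x
    obtain ⟨y, rfl⟩ := QuotientGroup.mk_surjective y
    show ((x * y : K) : K ⧸ M) = ((y * x : K) : K ⧸ M)
    symm
    refine QuotientGroup.eq.mpr ?_
    have h1 := hcomm x⁻¹ y⁻¹
    have : (y * x)⁻¹ * (x * y) = x⁻¹ * y⁻¹ * x⁻¹⁻¹ * y⁻¹⁻¹ := by group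
    rw [this]; exact h1
  have hsQ : ∀ x : K ⧸ M, x * x = 1 := by
    intro x
    obtain ⟨x, rfl⟩ := QuotientGroup.mk_surjective x
    show ((x * x : K) : K ⧸ M) = 1
    exact (QuotientGroup.eq_one_iff _).mpr (hsq x)
  set a' : K ⧸ M := (a : K ⧸ M)
  set b' : K ⧸ M := (b : K ⧸ M)
  have hall : ∀ q : K ⧸ M, q ∈ Subgroup.closure {a', b'} := by
    intro q
    obtain ⟨x, rfl⟩ := QuotientGroup.mk_surjective q
    have hx : x ∈ Subgroup.closure {a, b} := by rw [hgen]; trivial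
    have h1 : (x : K ⧸ M) = QuotientGroup.mk' M x := rfl
    have h2 : QuotientGroup.mk' M x ∈ (Subgroup.closure {a, b}).map (QuotientGroup.mk' M) :=
      ⟨x, hx, rfl⟩
    rw [MonoidHom.map_closure] at h2
    have h3 : (QuotientGroup.mk' M) '' {a, b} = {a', b'} := by
      simp [Set.image_insert_eq, a', b']
    rw [h3] at h2
    rwa [h1]
  have hcard : Nat.card (K ⧸ M) ≤ 4 := by
    have hfin : Finite (K ⧸ M) := inferInstance
    have hsub : (Set.univ : Set (K ⧸ M)) ⊆ (({1, a', b', a' * b'} : Finset (K ⧸ M)) : Set (K ⧸ M)) := by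
      intro q _
      have := four_elems hcQ hsQ a' b' q (hall q)
      simpa using this
    have h1 := Set.ncard_le_ncard hsub (Set.toFinite _)
    rw [Set.ncard_coe_finset, Set.ncard_univ] at h1
    exact h1.trans Finset.card_le_four
  rw [Subgroup.card_eq_card_quotient_mul_card_subgroup M]
  exact Nat.mul_le_mul_right _ hcard

section

variable [Finite T]

lemma card_subgroupOf (Y H : Subgroup T) : Nat.card (Y.subgroupOf H) = Nat.card ↥(H ⊓ Y) := by
  refine Nat.card_congr ⟨fun x => ⟨x.1.1, x.1.2, Subgroup.mem_subgroupOf.mp x.2⟩,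
    fun x => ⟨⟨x.1, x.2.1⟩, Subgroup.mem_subgroupOf.mpr x.2.2⟩, ?_, ?_⟩
  · intro x; rfl
  · intro x; rfl

lemma card_eq_relIndex_mul (Y H : Subgroup T) : Nat.card H = Nat.card ↥(H ⊓ Y) * Y.relIndex H := by
  rw [← card_subgroupOf, Subgroup.relIndex]
  exact (Subgroup.card_mul_index _).symm

lemma relIndex_ge_two {Y H : Subgroup T} (h : ¬ H ≤ Y) : 2 ≤ Y.relIndex H := by
  have h1 : Y.relIndex H ≠ 1 := fun e => h (Subgroup.relIndex_eq_one.mp e)
  have h0 : Y.relIndex H ≠ 0 := by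
    have := card_eq_relIndex_mul Y H
    intro e
    rw [e, mul_zero] at this
    exact (Nat.card_pos (α := H)).ne' this
  omega

theorem xsub_sec (hP : IsPGroup 2 T) {Y V H M : Subgroup T} (hX : XSub Y V) (hs : Sec H M)
    (hHY : H ≤ Y) : Nat.card H ≤ 4 * Nat.card M := by
  have hC : XClass H (V.subgroupOf H) :=
    { central := fun v hv y => Subtype.ext (hX.central v (Subgroup.mem_subgroupOf.mp hv) y (hHY y.2))
      sq := fun v hv => Subtype.ext (hX.sq v (Subgroup.mem_subgroupOf.mp hv))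
      inv := fun y hy => Subgroup.mem_subgroupOf.mpr (hX.inv y (hHY y.2) (congrArg Subtype.val hy))
      card := by
        refine le_trans ?_ hX.card
        refine Nat.card_le_card_of_injective
          (fun x => (⟨(x.1 : T), Subgroup.mem_subgroupOf.mp x.2⟩ : V)) ?_
        intro x y hxy
        have : (x.1 : T) = y.1 := by
          have := Subtype.ext_iff.mp hxy
          simpa using this
        exact Subtype.ext (Subtype.ext this)
      noinv := by
        intro g w hw he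
        apply hX.noinv g (hHY g.2) w (hHY w.2) (by rwa [Subgroup.orderOf_coe])
        have := congrArg Subtype.val he
        simpa using this }
  obtain ⟨⟨a, b, hgen⟩, -⟩ := xclass_gen _ H _ rfl (hP.to_subgroup H) hC
  have h1 := quot_card_le a b hgen (M.subgroupOf H)
    (fun x => Subgroup.mem_subgroupOf.mpr (hs.sq x x.2))
    (fun x y => Subgroup.mem_subgroupOf.mpr (hs.comm x x.2 y y.2))
  have h2 : Nat.card (M.subgroupOf H) = Nat.card M := by
    rw [card_subgroupOf]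
    congr 2
    simp [inf_eq_right.mpr hs.le]
  rwa [h2] at h1

lemma Sec.inf {H M : Subgroup T} (hs : Sec H M) (Y : Subgroup T) : Sec (H ⊓ Y) (M ⊓ Y) :=
  ⟨inf_le_inf_right Y hs.le, fun a ha => ⟨hs.sq a ha.1, Y.mul_mem ha.2 ha.2⟩,
    fun a ha b hb => ⟨hs.comm a ha.1 b hb.1,
      Y.mul_mem (Y.mul_mem (Y.mul_mem ha.2 hb.2) (Y.inv_mem ha.2)) (Y.inv_mem hb.2)⟩⟩

lemma Sec.inf' {H M Y C : Subgroup T} (hs : Sec H M) (hCY : C ≤ Y)
    (hC1 : ∀ y ∈ Y, y * y ∈ C) (hC2 : ∀ y ∈ Y, ∀ y' ∈ Y, y * y' * y⁻¹ * y'⁻¹ ∈ C) :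
    Sec (H ⊓ Y) (M ⊓ C) :=
  ⟨fun _ hx => ⟨hs.le hx.1, hCY hx.2⟩, fun a ha => ⟨hs.sq a ha.1, hC1 a ha.2⟩,
    fun a ha b hb => ⟨hs.comm a ha.1 b hb.1, hC2 a ha.2 b hb.2⟩⟩

theorem sec_bound (hP : IsPGroup 2 T) {Y C V : Subgroup T} (hYn : Y.Normal) (hX : XSub Y V)
    (hidx : Y.index ≤ 8) (hCY : C ≤ Y)
    (hC1 : ∀ y ∈ Y, y * y ∈ C) (hC2 : ∀ y ∈ Y, ∀ y' ∈ Y, y * y' * y⁻¹ * y'⁻¹ ∈ C)
    (href : 4 < Y.index → ∀ H M : Subgroup T, Sec H M → H ⊔ Y = ⊤ → M ≤ Y → ∃ m ∈ M, m ∉ C)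
    {H M : Subgroup T} (hs : Sec H M) : Nat.card H ≤ 16 * Nat.card M := by
  haveI := hYn
  have h2 : Nat.card ↥(H ⊓ Y) ≤ 4 * Nat.card ↥(M ⊓ Y) :=
    xsub_sec hP hX (hs.inf Y) inf_le_right
  have hcH := card_eq_relIndex_mul Y H
  have hcM := card_eq_relIndex_mul Y M
  have hMpos : 0 < Y.relIndex M := by
    rcases Nat.eq_zero_or_pos (Y.relIndex M) with e | e
    · rw [e, mul_zero] at hcM
      exact absurd hcM (Nat.card_pos (α := M)).ne'
    · exact e
  have hMY2 : Nat.card ↥(M ⊓ Y) ≤ Nat.card M := by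
    rw [hcM]; exact Nat.le_mul_of_pos_right _ hMpos
  by_cases hi : Y.relIndex H ≤ 4
  · rw [hcH]
    calc Nat.card ↥(H ⊓ Y) * Y.relIndex H ≤ (4 * Nat.card ↥(M ⊓ Y)) * 4 := Nat.mul_le_mul h2 hi
      _ ≤ 16 * Nat.card M := by nlinarith
  · push_neg at hi
    have hdvd : Y.relIndex H ∣ Y.index := Subgroup.relIndex_dvd_index_of_normal Y H
    have hipos : 0 < Y.index := Nat.pos_of_ne_zero (Subgroup.index_ne_zero_of_finite)
    obtain ⟨c, hc⟩ := hdvd
    have hc1 : c = 1 := by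
      have hc0 : c ≠ 0 := by
        intro e; rw [e, mul_zero] at hc; omega
      by_contra hne
      have : 2 ≤ c := by omega
      nlinarith
    have hieq : Y.relIndex H = Y.index := by rw [hc, hc1, mul_one]
    have hsup : H ⊔ Y = ⊤ := by
      have h3 : Y.relIndex (H ⊔ Y) = Y.relIndex H := Subgroup.relIndex_sup_right H Y
      have h4 : Y.relIndex (H ⊔ Y) * (H ⊔ Y).index = Y.index :=
        Subgroup.relIndex_mul_index le_sup_right
      rw [h3, hieq] at h4
      have h5 : (H ⊔ Y).index = 1 := by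
        have : Y.index * (H ⊔ Y).index = Y.index * 1 := by rw [h4, mul_one]
        exact Nat.eq_of_mul_eq_mul_left hipos this
      exact Subgroup.index_eq_one.mp h5
    have hi8 : Y.relIndex H ≤ 8 := hieq ▸ hidx
    by_cases hMle : M ≤ Y
    · obtain ⟨m, hm, hmC⟩ := href (by omega) H M hs hsup hMle
      have h6 : Nat.card ↥(H ⊓ Y) ≤ 4 * Nat.card ↥(M ⊓ C) :=
        xsub_sec hP hX (hs.inf' hCY hC1 hC2) inf_le_right
      have h7 : 2 ≤ C.relIndex M := relIndex_ge_two (fun e => hmC (e hm))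
      have h8 := card_eq_relIndex_mul C M
      rw [hcH]
      have h9 : 2 * Nat.card ↥(M ⊓ C) ≤ Nat.card M := by
        rw [h8]; nlinarith
      calc Nat.card ↥(H ⊓ Y) * Y.relIndex H ≤ (4 * Nat.card ↥(M ⊓ C)) * 8 := Nat.mul_le_mul h6 hi8
        _ ≤ 16 * Nat.card M := by nlinarith
    · have h7 : 2 ≤ Y.relIndex M := relIndex_ge_two hMle
      have h9 : 2 * Nat.card ↥(M ⊓ Y) ≤ Nat.card M := by
        rw [hcM]; nlinarith
      rw [hcH]
      calc Nat.card ↥(H ⊓ Y) * Y.relIndex H ≤ (4 * Nat.card ↥(M ⊓ Y)) * 8 := Nat.mul_le_mul h2 hi8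
        _ ≤ 16 * Nat.card M := by nlinarith

end

end Cfsg.Agent.Lib.MacWSec
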