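import Mathlib
import Cfsg.Agent.Lib.MacWSec

set_option autoImplicit false

namespace Cfsg.Agent.Lib.MacWK

open Cfsg.Agent.Lib.MacWClass Cfsg.Agent.Lib.MacWSec

universe u

variable {T : Type u} [Group T] [Finite T]

/-- The preimage of the `i`-th upper central term of `T / W`. -/
def DD (W : Subgroup T) [W.Normal] (i : ℕ) : Subgroup T :=
  (Subgroup.upperCentralSeries (T ⧸ W) i).comap (QuotientGroup.mk' W)

lemma DD_zero (W : Subgroup T) [W.Normal] {x : T} : x ∈ DD W 0 ↔ x ∈ W := by
  simp only [DD, Subgroup.mem_comap, Subgroup.upperCentralSeries_zero, Subgroup.mem_bot]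
  exact QuotientGroup.eq_one_iff x

lemma DD_succ (W : Subgroup T) [W.Normal] {i : ℕ} {x : T} (hx : x ∈ DD W (i + 1)) (g : T) :
    x⁻¹ * (g⁻¹ * x * g) ∈ DD W i := by
  have h1 : QuotientGroup.mk' W x ∈ Subgroup.upperCentralSeries (T ⧸ W) (i + 1) := hx
  have h2 : (QuotientGroup.mk' W x)⁻¹ ∈ Subgroup.upperCentralSeries (T ⧸ W) (i + 1) :=
    Subgroup.inv_mem _ h1
  have h3 := (Subgroup.mem_upperCentralSeries_succ_iff).mp h2 (QuotientGroup.mk' W g)⁻¹
  show QuotientGroup.mk' W (x⁻¹ * (g⁻¹ * x * g)) ∈ Subgroup.upperCentralSeries (T ⧸ W) i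
  have h4 : QuotientGroup.mk' W (x⁻¹ * (g⁻¹ * x * g)) =
      (QuotientGroup.mk' W x)⁻¹ * (QuotientGroup.mk' W g)⁻¹ * (QuotientGroup.mk' W x)⁻¹⁻¹ *
        (QuotientGroup.mk' W g)⁻¹⁻¹ := by
    simp only [map_mul, map_inv, inv_inv, mul_assoc]
  rw [h4]; exact h3

lemma DD_top (hP : IsPGroup 2 T) (W : Subgroup T) [W.Normal] : ∃ n, DD W n = ⊤ := by
  have hq : IsPGroup 2 (T ⧸ W) := hP.to_quotient W
  have hnil : Group.IsNilpotent (T ⧸ W) := hq.isNilpotent
  obtain ⟨n, hn⟩ := hnil.nilpotent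
  refine ⟨n, ?_⟩
  rw [DD, hn, Subgroup.comap_top]

lemma DD_ge (W : Subgroup T) [W.Normal] (i : ℕ) : W ≤ DD W i := by
  intro x hx
  show QuotientGroup.mk' W x ∈ Subgroup.upperCentralSeries (T ⧸ W) i
  have : QuotientGroup.mk' W x = 1 := (QuotientGroup.eq_one_iff x).mpr hx
  rw [this]; exact Subgroup.one_mem _

/-- A subgroup `D` normal in `T`, not inside `N`, contains an element central of order 2 modulo `N`. -/
theorem exists_central_mod (hP : IsPGroup 2 T) (N D : Subgroup T) [N.Normal] (hD : D.Normal)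
    (hND : ¬ D ≤ N) : ∃ x ∈ D, x ∉ N ∧ x * x ∈ N ∧ ∀ g : T, x⁻¹ * (g⁻¹ * x * g) ∈ N := by
  classical
  obtain ⟨n, hn⟩ := DD_top hP N
  have hex : ∃ i, ¬ ∀ x ∈ D, x ∈ DD N i → x ∈ N := by
    refine ⟨n, fun h => hND fun x hx => h x hx ?_⟩
    rw [hn]; trivial
  set i := Nat.find hex with hi
  have hspec := Nat.find_spec hex
  have hi0 : i ≠ 0 := by
    intro e
    apply hspec
    rw [← hi, e]
    intro x _ hx
    exact (DD_zero N).mp hx
  obtain ⟨j, hj⟩ := Nat.exists_eq_succ_of_ne_zero hi0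
  have hmin : ∀ x ∈ D, x ∈ DD N j → x ∈ N := by
    by_contra hc
    have := Nat.find_min hex (m := j) (by omega)
    exact this hc
  rw [← hi, hj] at hspec
  push_neg at hspec
  obtain ⟨c, hcD, hcDD, hcN⟩ := hspec
  have hcent : ∀ g : T, c⁻¹ * (g⁻¹ * c * g) ∈ N := by
    intro g
    apply hmin
    · apply D.mul_mem (D.inv_mem hcD)
      have := hD.conj_mem c hcD g⁻¹
      simpa using this
    · exact DD_succ N hcDD g
  have hcent' : ∀ g : T, ((g⁻¹ * c * g : T) : T ⧸ N) = (c : T ⧸ N) := by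
    intro g
    exact (QuotientGroup.eq.mpr (hcent g)).symm
  have hex2 : ∃ m : ℕ, c ^ (2 ^ m) ∈ N := by
    obtain ⟨k, hk⟩ := (IsPGroup.iff_orderOf.mp hP) c
    refine ⟨k, ?_⟩
    rw [← hk, pow_orderOf_eq_one]; exact N.one_mem
  set m := Nat.find hex2 with hm
  have hmspec := Nat.find_spec hex2
  have hm0 : m ≠ 0 := by
    intro e
    rw [← hm, e] at hmspec
    apply hcN
    simpa using hmspec
  obtain ⟨m', hm'⟩ := Nat.exists_eq_succ_of_ne_zero hm0
  have hnot : c ^ (2 ^ m') ∉ N := Nat.find_min hex2 (m := m') (by omega)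
  refine ⟨c ^ (2 ^ m'), D.pow_mem hcD _, hnot, ?_, ?_⟩
  · rw [← pow_add, ← two_mul, ← pow_succ']
    rw [← hm, hm'] at hmspec
    exact hmspec
  · intro g
    refine QuotientGroup.eq.mp ?_
    have h1 : g⁻¹ * c ^ (2 ^ m') * g = (g⁻¹ * c * g) ^ (2 ^ m') := by
      simpa using (conj_pow (a := g⁻¹) (b := c) (i := 2 ^ m')).symm
    rw [h1, QuotientGroup.mk_pow, QuotientGroup.mk_pow, hcent']

lemma conj_mem_cent {W : Subgroup T} (hW : W.Normal) {t : T}
    (ht : t ∈ Subgroup.centralizer (W : Set T)) (g : T) :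
    g⁻¹ * t * g ∈ Subgroup.centralizer (W : Set T) := by
  rw [Subgroup.mem_centralizer_iff] at ht ⊢
  intro w hw
  have h1 : g * w * g⁻¹ ∈ W := hW.conj_mem w hw g
  have h2 := ht _ h1
  calc w * (g⁻¹ * t * g) = g⁻¹ * ((g * w * g⁻¹) * t) * g := by group
    _ = g⁻¹ * (t * (g * w * g⁻¹)) * g := by rw [h2]
    _ = g⁻¹ * t * g * w := by group

lemma inverted_pow {t u : T} (h : t⁻¹ * u * t = u⁻¹) (k : ℕ) : t⁻¹ * u ^ k * t = (u ^ k)⁻¹ := by
  have : t⁻¹ * u ^ k * t = (t⁻¹ * u * t) ^ k := by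
    simpa using (conj_pow (a := t⁻¹) (b := u) (i := k)).symm
  rw [this, h, inv_pow]

lemma four_of_order {u : T} (h : orderOf u = 4) : (u * u) * (u * u) = 1 := by
  have := pow_orderOf_eq_one u
  rw [h] at this
  have e : u ^ 4 = (u * u) * (u * u) := by simp [pow_succ, mul_assoc]
  rwa [e] at this

lemma sq_ne_of_order {u : T} (h : orderOf u = 4) : u * u ≠ 1 := by
  intro e
  have e2 : u ^ 2 = 1 := by rw [pow_two, e]
  have := orderOf_dvd_of_pow_eq_one e2
  rw [h] at this
  omega

/-- The main lemma: in the centralizer of `W`, elements of order dividing 4 lie in `W`. -/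
theorem lemK (hP : IsPGroup 2 T) (W : Subgroup T) (hWn : W.Normal)
    (hWc : ∀ a ∈ W, ∀ b ∈ W, a * b = b * a)
    (hW4 : ∀ w ∈ W, (w * w) * (w * w) = 1)
    (hmax : ∀ t ∈ Subgroup.centralizer (W : Set T), t * t = 1 →
      (∀ g : T, ∃ v ∈ W, v * v = 1 ∧ g⁻¹ * t * g = t * v) → t ∈ W)
    (hext : ∀ x ∈ Subgroup.centralizer (W : Set T), (x * x) * (x * x) = 1 → x * x ∈ W →
      (¬ ∃ w ∈ W, w * w = x * x) → (∀ g : T, x⁻¹ * (g⁻¹ * x * g) ∈ W) → False)
    (htriv : ∀ x ∈ Subgroup.centralizer (W : Set T), (x * x) * (x * x) = 1 → x * x ∈ W →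
      (¬ ∃ w ∈ W, w * w = x * x) → ∀ g : T, ∃ w ∈ W, g⁻¹ * (x * x) * g = (x * x) * (w * w)) :
    ∀ x ∈ Subgroup.centralizer (W : Set T), (x * x) * (x * x) = 1 → x ∈ W := by
  haveI := hWn
  set C := Subgroup.centralizer (W : Set T) with hC
  have hcomm : ∀ w ∈ W, ∀ c ∈ C, w * c = c * w := by
    intro w hw c hc
    rw [hC, Subgroup.mem_centralizer_iff] at hc
    exact hc w hw
  obtain ⟨n, hn⟩ := DD_top hP W
  have key : ∀ i, ∀ x ∈ C, x ∈ DD W i → (x * x) * (x * x) = 1 → x ∈ W := by
    intro i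
    induction i with
    | zero =>
      intro x _ hx _
      exact (DD_zero W).mp hx
    | succ i ih =>
      have hinv : ∀ t ∈ C, t ∈ DD W (i + 1) → t * t = 1 → t ∈ W := by
        intro t htC htD htt
        apply hmax t htC htt
        intro g
        set u := t⁻¹ * (g⁻¹ * t * g) with hu
        have huC : u ∈ C := C.mul_mem (C.inv_mem htC) (conj_mem_cent hWn htC g)
        have huD : u ∈ DD W i := DD_succ W htD g
        have htinv : t⁻¹ = t := inv_eq_of_mul_eq_one_left htt
        have hrel : t⁻¹ * u * t = u⁻¹ := by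
          apply eq_inv_of_mul_eq_one_left
          have h1 : t * u = g⁻¹ * t * g := by simp [hu]
          have h2 : (t * u) * (t * u) = 1 := by
            rw [h1]
            have : g⁻¹ * t * g * (g⁻¹ * t * g) = g⁻¹ * (t * t) * g := by group
            rw [this, htt]; group
          rw [htinv]
          calc t * u * t * u = (t * u) * (t * u) := by group
            _ = 1 := h2
        have huu : u * u = 1 := by
          by_contra hne
          obtain ⟨k, hk⟩ := exists_pow_order_four hP u hne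
          have hkW : u ^ k ∈ W := ih (u ^ k) (C.pow_mem huC k) ((DD W i).pow_mem huD k)
            (four_of_order hk)
          have hc := hcomm _ hkW t htC
          have hinvk := inverted_pow hrel k
          have h3 : t⁻¹ * u ^ k * t = u ^ k := by
            rw [mul_assoc, hc]; group
          rw [h3] at hinvk
          apply sq_ne_of_order hk
          nth_rewrite 1 [hinvk]
          group
        have huW : u ∈ W := ih u huC huD (by rw [huu]; simp)
        exact ⟨u, huW, huu, by simp [hu]⟩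
      intro x hxC hxD hx4
      by_cases hxx : x * x = 1
      · exact hinv x hxC hxD hxx
      have hx2W : x * x ∈ W := hinv (x * x) (C.mul_mem hxC hxC) ((DD W (i + 1)).mul_mem hxD hxD) hx4
      by_cases hsq : ∃ w ∈ W, w * w = x * x
      · obtain ⟨w, hw, hwx⟩ := hsq
        have hcw := hcomm w hw x hxC
        have hwC : x * w⁻¹ ∈ DD W (i + 1) :=
          (DD W (i + 1)).mul_mem hxD ((DD W (i + 1)).inv_mem (DD_ge W (i + 1) hw))
        have hwC2 : x * w⁻¹ ∈ C := by
          apply C.mul_mem hxC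
          rw [hC, Subgroup.mem_centralizer_iff]
          intro h hh
          exact hWc h hh _ (W.inv_mem hw)
        have hsq1 : (x * w⁻¹) * (x * w⁻¹) = 1 := by
          have h1 : w⁻¹ * x = x * w⁻¹ := by
            rw [inv_mul_eq_iff_eq_mul, ← mul_assoc, hcw, mul_assoc, mul_inv_cancel, mul_one]
          calc (x * w⁻¹) * (x * w⁻¹) = x * (w⁻¹ * x) * w⁻¹ := by group
            _ = x * (x * w⁻¹) * w⁻¹ := by rw [h1]
            _ = (x * x) * (w * w)⁻¹ := by group
            _ = 1 := by rw [hwx]; group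
        have htW := hinv _ hwC2 hwC hsq1
        have : x = (x * w⁻¹) * w := by group
        rw [this]; exact W.mul_mem htW hw
      · exfalso
        apply hext x hxC hx4 hx2W hsq
        intro g
        set u := x⁻¹ * (g⁻¹ * x * g) with hu
        have huC : u ∈ C := C.mul_mem (C.inv_mem hxC) (conj_mem_cent hWn hxC g)
        have huD : u ∈ DD W i := DD_succ W hxD g
        obtain ⟨r, hr, he⟩ := htriv x hxC hx4 hx2W hsq g
        set ρ := r * r with hρ
        have hρW : ρ ∈ W := W.mul_mem hr hr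
        have hρρ : ρ * ρ = 1 := hW4 r hr
        have hrel : x⁻¹ * u * x * u = ρ := by
          have h1 : x * u = g⁻¹ * x * g := by simp [hu]
          have h2 : (x * u) * (x * u) = (x * x) * ρ := by
            rw [h1, ← he]; group
          have h3 : (x * x) * (x⁻¹ * u * x * u) = (x * x) * ρ := by
            rw [← h2]; group
          exact mul_left_cancel h3
        have hu4 : (u * u) * (u * u) = 1 := by
          by_contra hne
          obtain ⟨k, hk⟩ := exists_pow_order_four hP (u * u) hne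
          have hρu : ρ * u⁻¹ = u⁻¹ * ρ := hcomm ρ hρW _ (C.inv_mem huC)
          have hrel1 : x⁻¹ * u * x = ρ * u⁻¹ := by
            rw [← hrel]; group
          have hrel2 : x⁻¹ * (u * u) * x = (u * u)⁻¹ := by
            have : x⁻¹ * (u * u) * x = (x⁻¹ * u * x) * (x⁻¹ * u * x) := by group
            rw [this, hrel1]
            calc ρ * u⁻¹ * (ρ * u⁻¹) = ρ * (u⁻¹ * ρ) * u⁻¹ := by group
              _ = ρ * (ρ * u⁻¹) * u⁻¹ := by rw [hρu]
              _ = (ρ * ρ) * (u⁻¹ * u⁻¹) := by group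
              _ = (u * u)⁻¹ := by rw [hρρ]; group
          have hkW : (u * u) ^ k ∈ W := ih _ (C.pow_mem (C.mul_mem huC huC) k)
            ((DD W i).pow_mem ((DD W i).mul_mem huD huD) k) (four_of_order hk)
          have hc := hcomm _ hkW x hxC
          have hinvk := inverted_pow hrel2 k
          have h3 : x⁻¹ * (u * u) ^ k * x = (u * u) ^ k := by
            rw [mul_assoc, hc]; group
          rw [h3] at hinvk
          apply sq_ne_of_order hk
          nth_rewrite 1 [hinvk]
          group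
        exact ih u huC huD hu4
  intro x hx hx4
  exact key n x hx (by rw [hn]; trivial) hx4

end Cfsg.Agent.Lib.MacWK
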