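import Mathlib
import Cfsg.Agent.Lib.MacWK

set_option autoImplicit false

namespace Cfsg.Agent.Lib.MacWExt

open Cfsg.Agent.Lib.MacWClass Cfsg.Agent.Lib.MacWSec Cfsg.Agent.Lib.MacWK

universe u

variable {T : Type u} [Group T] [Finite T]

/-- The involutions of a commutative subgroup, with the identity. -/
def OmegaW (W : Subgroup T) (hc : ∀ a ∈ W, ∀ b ∈ W, a * b = b * a) : Subgroup T where
  carrier := {w | w ∈ W ∧ w * w = 1}
  one_mem' := ⟨W.one_mem, by simp⟩
  mul_mem' := by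
    rintro a b ⟨ha, ha2⟩ ⟨hb, hb2⟩
    refine ⟨W.mul_mem ha hb, ?_⟩
    calc a * b * (a * b) = a * (b * a) * b := by group
      _ = a * (a * b) * b := by rw [hc b hb a ha]
      _ = (a * a) * (b * b) := by group
      _ = 1 := by rw [ha2, hb2, one_mul]
  inv_mem' := by
    rintro a ⟨ha, ha2⟩
    refine ⟨W.inv_mem ha, ?_⟩
    have : a⁻¹ * a⁻¹ = (a * a)⁻¹ := by group
    rw [this, ha2, inv_one]

lemma mem_OmegaW {W : Subgroup T} {hc : ∀ a ∈ W, ∀ b ∈ W, a * b = b * a} {w : T} :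
    w ∈ OmegaW W hc ↔ w ∈ W ∧ w * w = 1 := Iff.rfl

lemma OmegaW_normal (W : Subgroup T) (hW : W.Normal) (hc : ∀ a ∈ W, ∀ b ∈ W, a * b = b * a) :
    (OmegaW W hc).Normal := ⟨fun w hw g => by
  refine ⟨hW.conj_mem w hw.1 g, ?_⟩
  have : g * w * g⁻¹ * (g * w * g⁻¹) = g * (w * w) * g⁻¹ := by group
  rw [this, hw.2]; group⟩

/-- No normal elementary abelian subgroup can properly contain `V` if `V` has maximal order. -/
lemma ext_card (V : Subgroup T) (hVn : V.Normal) (hVc : ∀ a ∈ V, ∀ b ∈ V, a * b = b * a)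
    (hVs : ∀ a ∈ V, a * a = 1) (t : T) (htt : t * t = 1) (htc : ∀ v ∈ V, v * t = t * v)
    (hconj : ∀ g : T, ∃ v ∈ V, g⁻¹ * t * g = t * v) (htV : t ∉ V)
    (hB : ∀ A : Subgroup T, A.Normal → IsMulCommutative A → (∀ a ∈ A, a ^ 2 = 1) →
      Nat.card A ≤ Nat.card V) : False := by
  let A : Subgroup T :=
    { carrier := {y | y ∈ V ∨ ∃ v ∈ V, y = t * v}
      one_mem' := Or.inl V.one_mem
      mul_mem' := by
        rintro a b (ha | ⟨v, hv, rfl⟩) (hb | ⟨w, hw, rfl⟩)
        · exact Or.inl (V.mul_mem ha hb)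
        · right
          refine ⟨a * w, V.mul_mem ha hw, ?_⟩
          rw [← mul_assoc, htc a ha, mul_assoc]
        · right
          exact ⟨v * b, V.mul_mem hv hb, by group⟩
        · left
          have : t * v * (t * w) = t * (v * t) * w := by group
          rw [this, htc v hv]
          have : t * (t * v) * w = (t * t) * (v * w) := by group
          rw [this, htt, one_mul]
          exact V.mul_mem hv hw
      inv_mem' := by
        rintro a (ha | ⟨v, hv, rfl⟩)
        · exact Or.inl (V.inv_mem ha)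
        · right
          refine ⟨v⁻¹, V.inv_mem hv, ?_⟩
          have h1 : t⁻¹ = t := inv_eq_of_mul_eq_one_left htt
          rw [mul_inv_rev, h1]
          have := htc v⁻¹ (V.inv_mem hv)
          exact this }
  have hAn : A.Normal := ⟨by
    rintro a (ha | ⟨v, hv, rfl⟩) g
    · exact Or.inl (hVn.conj_mem a ha g)
    · right
      obtain ⟨v', hv', he⟩ := hconj g⁻¹
      refine ⟨v' * (g * v * g⁻¹), V.mul_mem hv' (hVn.conj_mem v hv g), ?_⟩
      have h1 : g * t * g⁻¹ = t * v' := by simpa using he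
      calc g * (t * v) * g⁻¹ = (g * t * g⁻¹) * (g * v * g⁻¹) := by group
        _ = t * v' * (g * v * g⁻¹) := by rw [h1]
        _ = _ := by group⟩
  have hAc : IsMulCommutative A := ⟨⟨by
    rintro ⟨a, ha⟩ ⟨b, hb⟩
    apply Subtype.ext
    show a * b = b * a
    rcases ha with ha | ⟨v, hv, rfl⟩ <;> rcases hb with hb | ⟨w, hw, rfl⟩
    · exact hVc a ha b hb
    · calc a * (t * w) = t * (a * w) := by rw [← mul_assoc, htc a ha, mul_assoc]
        _ = t * (w * a) := by rw [hVc a ha w hw]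
        _ = t * w * a := by group
    · calc t * v * b = t * (b * v) := by rw [mul_assoc, hVc v hv b hb]
        _ = b * (t * v) := by rw [← mul_assoc, ← htc b hb, mul_assoc]
    · calc t * v * (t * w) = t * (v * t) * w := by group
        _ = t * (t * v) * w := by rw [htc v hv]
        _ = t * t * (v * w) := by group
        _ = t * t * (w * v) := by rw [hVc v hv w hw]
        _ = t * (t * w) * v := by group
        _ = t * (w * t) * v := by rw [htc w hw]
        _ = t * w * (t * v) := by group⟩⟩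
  have hAs : ∀ a ∈ A, a ^ 2 = 1 := by
    rintro a (ha | ⟨v, hv, rfl⟩)
    · rw [pow_two]; exact hVs a ha
    · rw [pow_two]
      have : t * v * (t * v) = t * (v * t) * v := by group
      rw [this, htc v hv]
      have : t * (t * v) * v = (t * t) * (v * v) := by group
      rw [this, htt, hVs v hv, one_mul]
  have hle : V ≤ A := fun v hv => Or.inl hv
  have hcard := hB A hAn hAc hAs
  have heq : V = A := Subgroup.eq_of_le_of_card_ge hle hcard
  apply htV
  rw [heq]
  exact Or.inr ⟨1, V.one_mem, by simp⟩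

/-- The class statement for the centralizer of `W`. -/
theorem xsub_cent (hP : IsPGroup 2 T) (W : Subgroup T) (hWn : W.Normal)
    (hWc : ∀ a ∈ W, ∀ b ∈ W, a * b = b * a)
    (hW4 : ∀ w ∈ W, (w * w) * (w * w) = 1)
    (hcard : Nat.card (OmegaW W hWc) ≤ 4)
    (hB : ∀ A : Subgroup T, A.Normal → IsMulCommutative A → (∀ a ∈ A, a ^ 2 = 1) →
      Nat.card A ≤ Nat.card (OmegaW W hWc))
    (hext : ∀ x ∈ Subgroup.centralizer (W : Set T), (x * x) * (x * x) = 1 → x * x ∈ W →
      (¬ ∃ w ∈ W, w * w = x * x) → (∀ g : T, x⁻¹ * (g⁻¹ * x * g) ∈ W) → False)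
    (htriv : ∀ x ∈ Subgroup.centralizer (W : Set T), (x * x) * (x * x) = 1 → x * x ∈ W →
      (¬ ∃ w ∈ W, w * w = x * x) → ∀ g : T, ∃ w ∈ W, g⁻¹ * (x * x) * g = (x * x) * (w * w)) :
    (∀ x ∈ Subgroup.centralizer (W : Set T), (x * x) * (x * x) = 1 → x ∈ W) ∧
      XSub (Subgroup.centralizer (W : Set T)) (OmegaW W hWc) := by
  have hcW : ∀ w ∈ W, ∀ c ∈ Subgroup.centralizer (W : Set T), w * c = c * w := by
    intro w hw c hc
    rw [Subgroup.mem_centralizer_iff] at hc
    exact hc w hw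
  have hK := lemK hP W hWn hWc hW4 (by
    intro t htC htt hconj
    by_contra htW
    refine ext_card (OmegaW W hWc) (OmegaW_normal W hWn hWc)
      (fun a ha b hb => hWc a ha.1 b hb.1) (fun a ha => ha.2) t htt
      (fun v hv => hcW v hv.1 t htC) ?_ (fun h => htW h.1) hB
    intro g
    obtain ⟨v, hv, hv2, he⟩ := hconj g
    exact ⟨v, ⟨hv, hv2⟩, he⟩) hext htriv
  refine ⟨hK, ?_⟩
  refine ⟨?_, ?_, ?_, ?_, hcard, ?_⟩
  · intro v hv
    rw [Subgroup.mem_centralizer_iff]
    intro w hw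
    exact hWc w hw v hv.1
  · intro v hv y hy
    exact hcW v hv.1 y hy
  · intro v hv
    exact hv.2
  · intro y hy hyy
    refine ⟨hK y hy (by rw [hyy, one_mul]), hyy⟩
  · intro g hg w hw ho he
    have hwW := hK w hw (four_of_order ho)
    have h1 : g⁻¹ * w * g = w := by
      rw [mul_assoc, hcW w hwW g hg]; group
    rw [h1] at he
    apply sq_ne_of_order ho
    nth_rewrite 1 [he]
    group

/-- Counting conjugates of a pair of elements. -/
lemma index_pair (C : Subgroup T) (x y : T)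
    (hC : ∀ g : T, g ∈ C ↔ (g * x * g⁻¹ = x ∧ g * y * g⁻¹ = y))
    (s t : Finset T) (hs : ∀ g : T, g * x * g⁻¹ ∈ s) (ht : ∀ g : T, g * y * g⁻¹ ∈ t) :
    C.index ≤ s.card * t.card ∧ (s.card * t.card ≤ C.index →
      ∀ a ∈ s, ∀ b ∈ t, ∃ g : T, g * x * g⁻¹ = a ∧ g * y * g⁻¹ = b) := by
  classical
  let F : T ⧸ C → (↥s × ↥t) := fun q => Quotient.liftOn' q
    (fun g => (⟨g * x * g⁻¹, hs g⟩, ⟨g * y * g⁻¹, ht g⟩)) (by
      intro a b hab
      have hab' : a⁻¹ * b ∈ C := QuotientGroup.leftRel_apply.mp hab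
      obtain ⟨h1, h2⟩ := (hC _).mp hab'
      have e1 : b * x * b⁻¹ = a * x * a⁻¹ := by
        have : b * x * b⁻¹ = a * ((a⁻¹ * b) * x * (a⁻¹ * b)⁻¹) * a⁻¹ := by group
        rw [this, h1]
      have e2 : b * y * b⁻¹ = a * y * a⁻¹ := by
        have : b * y * b⁻¹ = a * ((a⁻¹ * b) * y * (a⁻¹ * b)⁻¹) * a⁻¹ := by group
        rw [this, h2]
      simp [e1, e2])
  have hF : Function.Injective F := by
    intro p q
    induction p using Quotient.inductionOn'
    induction q using Quotient.inductionOn'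
    rename_i a b
    intro he
    have he' : ((⟨a * x * a⁻¹, hs a⟩ : ↥s), (⟨a * y * a⁻¹, ht a⟩ : ↥t)) =
        (⟨b * x * b⁻¹, hs b⟩, ⟨b * y * b⁻¹, ht b⟩) := he
    simp only [Prod.mk.injEq, Subtype.mk.injEq] at he'
    apply Quotient.sound'
    apply QuotientGroup.leftRel_apply.mpr
    apply (hC _).mpr
    constructor
    · calc a⁻¹ * b * x * (a⁻¹ * b)⁻¹ = a⁻¹ * (b * x * b⁻¹) * a := by group
        _ = a⁻¹ * (a * x * a⁻¹) * a := by rw [he'.1]
        _ = x := by group
    · calc a⁻¹ * b * y * (a⁻¹ * b)⁻¹ = a⁻¹ * (b * y * b⁻¹) * a := by group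
        _ = a⁻¹ * (a * y * a⁻¹) * a := by rw [he'.2]
        _ = y := by group
  have hcard : Nat.card (↥s × ↥t) = s.card * t.card := by
    rw [Nat.card_prod]; simp
  have h1 : C.index ≤ s.card * t.card := by
    rw [Subgroup.index, ← hcard]
    exact Nat.card_le_card_of_injective F hF
  refine ⟨h1, ?_⟩
  intro hle a ha b hb
  have hbij : Function.Bijective F := by
    refine (Nat.bijective_iff_injective_and_card F).mpr ⟨hF, ?_⟩
    rw [hcard]
    exact le_antisymm h1 hle
  obtain ⟨q, hq⟩ := hbij.2 (⟨a, ha⟩, ⟨b, hb⟩)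
  induction q using Quotient.inductionOn'
  rename_i g
  have hq' : ((⟨g * x * g⁻¹, hs g⟩ : ↥s), (⟨g * y * g⁻¹, ht g⟩ : ↥t)) = (⟨a, ha⟩, ⟨b, hb⟩) := hq
  simp only [Prod.mk.injEq, Subtype.mk.injEq] at hq'
  exact ⟨g, hq'.1, hq'.2⟩

lemma normal_closure_of_conj (S : Set T)
    (h : ∀ g : T, ∀ s ∈ S, g⁻¹ * s * g ∈ Subgroup.closure S) : (Subgroup.closure S).Normal := by
  refine ⟨fun n hn g => ?_⟩
  induction hn using Subgroup.closure_induction with
  | mem x hx =>
    have := h g⁻¹ x hx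
    simpa using this
  | one => simp
  | mul x y _ _ ihx ihy =>
    have : g * (x * y) * g⁻¹ = (g * x * g⁻¹) * (g * y * g⁻¹) := by group
    rw [this]; exact mul_mem ihx ihy
  | inv x _ ih =>
    have : g * x⁻¹ * g⁻¹ = (g * x * g⁻¹)⁻¹ := by group
    rw [this]; exact inv_mem ih

end Cfsg.Agent.Lib.MacWExt
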