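import Mathlib

set_option autoImplicit false

namespace Cfsg.Agent.Lib.MacWLA

abbrev F := ZMod 2 × ZMod 2
abbrev Lam := F × F

def Mact (p : Lam) (f : F) : F := (f.1 * p.1.1 + f.2 * p.2.1, f.1 * p.1.2 + f.2 * p.2.2)
def SSp (p : Lam) : Prop := ∀ f : F, f ≠ 0 → Mact p f ≠ f
def Singp (p : Lam) : Prop := ∃ f : F, f ≠ 0 ∧ Mact p f = 0
instance : DecidablePred SSp := fun p => by unfold SSp; infer_instance
instance : DecidablePred Singp := fun p => by unfold Singp; infer_instance

def Indep (a b c : Lam) : Prop := a ≠ 0 ∧ b ≠ 0 ∧ b ≠ a ∧ c ≠ 0 ∧ c ≠ a ∧ c ≠ b ∧ c ≠ a + b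
instance (a b c : Lam) : Decidable (Indep a b c) := by unfold Indep; infer_instance

def kap (f : F) : F := (f.1 + f.2, f.2)
def sig (p : Lam) : Lam := (kap p.1, kap (p.1 + p.2))

def e1 : F := (1, 0)
def e2 : F := (0, 1)
def Nz : Lam := (0, e1)
def om : Lam := (e2, e1 + e2)

def sp (a b c : Lam) : List Lam := [a, b, c, a + b, a + c, b + c, a + b + c]

def Q1 (a b c : Lam) : Prop := Indep a b c → ∃ x ∈ sp a b c, x ≠ 0 ∧ SSp x
instance (a b c : Lam) : Decidable (Q1 a b c) := by unfold Q1; infer_instance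

set_option maxRecDepth 1000000 in
set_option maxHeartbeats 0 in
set_option synthInstance.maxHeartbeats 0 in
theorem D1 : ∀ a b c : Lam, Q1 a b c := by
  decide

def Q3 (a b c : Lam) : Prop := Indep a b c → ∃ x ∈ sp a b c, x = Nz ∨ x + sig x = Nz
instance (a b c : Lam) : Decidable (Q3 a b c) := by unfold Q3; infer_instance

set_option maxRecDepth 1000000 in
set_option maxHeartbeats 0 in
set_option synthInstance.maxHeartbeats 0 in
theorem D3 : ∀ a b c : Lam, Q3 a b c := by
  decide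

theorem D2 : ∀ p : Lam, SSp p → ∀ v : F, ∃ f : F, f + Mact p f = v := by decide

theorem D5 : ∀ p : Lam, ¬ Singp p → ∀ v : F, ∃ f : F, Mact p f = v := by decide

theorem D6 : ∀ p : Lam, ¬ Singp p → p ≠ 0 := by decide

theorem Nz_SS : SSp Nz := by decide
theorem om_SS : SSp om := by decide
theorem om_nonsing : ¬ Singp om := by decide
theorem zero_SS : SSp 0 := by decide
theorem sig_Nz : sig Nz = Nz := by decide
theorem sig_zero : sig 0 = 0 := by decide
theorem Nz_ne : Nz ≠ 0 := by decide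

theorem sig_add : ∀ p q : Lam, sig (p + q) = sig p + sig q := by decide

def fixSet : Finset Lam := {0, Nz, (e1, e2), (e1, e1 + e2)}

theorem fix_mem : ∀ p : Lam, sig p = p → p ∈ fixSet := by decide

theorem fixSet_card : fixSet.card = 4 := by decide

theorem add_self_L : ∀ p : Lam, p + p = 0 := by decide

theorem sum_ne : ∀ a b c : Lam, Indep a b c →
    a ≠ 0 ∧ b ≠ 0 ∧ c ≠ 0 ∧ a + b ≠ 0 ∧ a + c ≠ 0 ∧ b + c ≠ 0 ∧ a + b + c ≠ 0 := by
  intro a b c h
  obtain ⟨h1, h2, h3, h4, h5, h6, h7⟩ := h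
  have char2 : ∀ x y : Lam, x + y = 0 → x = y := by
    intro x y hxy
    have := add_self_L y
    have h8 : x + y = y + y := by rw [hxy, this]
    exact add_right_cancel h8
  refine ⟨h1, h2, h4, fun e => h3 (char2 _ _ e).symm, fun e => h5 (char2 _ _ e).symm,
    fun e => h6 (char2 _ _ e).symm, fun e => h7 (char2 _ _ e).symm⟩

end Cfsg.Agent.Lib.MacWLA
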