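import Mathlib
import Cfsg.Agent.Lib.MacWExt
import Cfsg.Agent.Lib.MacWLA

set_option autoImplicit false

namespace Cfsg.Agent.Lib.MacWI1

open Cfsg.Agent.Lib.MacWClass Cfsg.Agent.Lib.MacWSec Cfsg.Agent.Lib.MacWK
  Cfsg.Agent.Lib.MacWExt Cfsg.Agent.Lib.MacWLA

universe u

variable {T : Type u} [Group T]

/-- Select `a` or `1` according to a bit. -/
def sel (a : T) (x : ZMod 2) : T := if x = 0 then 1 else a

lemma zmod2_cases : ∀ x : ZMod 2, x = 0 ∨ x = 1 := by decide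

@[simp] lemma sel_zero (a : T) : sel a 0 = 1 := if_pos rfl
@[simp] lemma sel_one (a : T) : sel a 1 = a := if_neg (by decide)

lemma sel_add {a : T} (h : a * a = 1) (x y : ZMod 2) : sel a (x + y) = sel a x * sel a y := by
  rcases zmod2_cases x with rfl | rfl <;> rcases zmod2_cases y with rfl | rfl
  · simp
  · simp
  · simp
  · have : (1 : ZMod 2) + 1 = 0 := by decide
    rw [this]; simp [h]

lemma sel_mul_self (a : T) (x : ZMod 2) : sel a x * sel a x = sel (a * a) x := by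
  rcases zmod2_cases x with rfl | rfl <;> simp

lemma sel_sq {a : T} (h : a * a = 1) (x : ZMod 2) : sel a x * sel a x = 1 := by
  rw [sel_mul_self, h]
  rcases zmod2_cases x with rfl | rfl <;> simp

lemma sel_comm {a b : T} (h : a * b = b * a) (x y : ZMod 2) :
    Commute (sel a x) (sel b y) := by
  rcases zmod2_cases x with rfl | rfl <;> rcases zmod2_cases y with rfl | rfl <;> simp [Commute, SemiconjBy, h]

lemma sel_mul_sel (a : T) (x y : ZMod 2) :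
    sel a x * sel a y = sel a (x + y) * sel (a * a) (x * y) := by
  rcases zmod2_cases x with rfl | rfl <;> rcases zmod2_cases y with rfl | rfl
  · simp
  · simp
  · simp
  · have : (1 : ZMod 2) + 1 = 0 := by decide
    rw [this]; simp

/-- Pairs of commuting elements of order 4 generating `Z4 × Z4`. -/
structure Z44 (w₁ w₂ : T) : Prop where
  comm : w₁ * w₂ = w₂ * w₁
  ne1 : w₁ * w₁ ≠ 1
  ne2 : w₂ * w₂ ≠ 1
  ne12 : w₁ * w₁ ≠ w₂ * w₂
  sq1 : (w₁ * w₁) * (w₁ * w₁) = 1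
  sq2 : (w₂ * w₂) * (w₂ * w₂) = 1

def bil (a b : T) (f : F) : T := sel a f.1 * sel b f.2

def phi (w₁ w₂ : T) (f : F) : T := bil (w₁ * w₁) (w₂ * w₂) f

def lam (w₁ w₂ : T) (f : F) : T := bil w₁ w₂ f

def WW (w₁ w₂ : T) : Subgroup T := Subgroup.closure {w₁, w₂}

lemma add_self_F : ∀ f : F, f + f = 0 := by decide

lemma F_cases : ∀ f : F, f = 0 ∨ f = e1 ∨ f = e2 ∨ f = e1 + e2 := by decide

lemma bil_zero (a b : T) : bil a b 0 = 1 := by
  show sel a 0 * sel b 0 = 1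
  simp

lemma bil_e1 (a b : T) : bil a b e1 = a := by
  show sel a 1 * sel b 0 = a
  simp

lemma bil_e2 (a b : T) : bil a b e2 = b := by
  show sel a 0 * sel b 1 = b
  simp

lemma bil_e12 (a b : T) : bil a b (e1 + e2) = a * b := by
  have : (e1 + e2 : F) = (1, 1) := by decide
  rw [this]
  show sel a 1 * sel b 1 = a * b
  simp

namespace Z44

variable {w₁ w₂ : T} (hz : Z44 w₁ w₂)
include hz

lemma zc : (w₁ * w₁) * (w₂ * w₂) = (w₂ * w₂) * (w₁ * w₁) := by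
  have h := hz.comm
  have : Commute w₁ w₂ := h
  exact ((this.mul_left this).mul_right (this.mul_left this))

lemma comm1 : w₁ * (w₂ * w₂) = (w₂ * w₂) * w₁ := by
  have h := hz.comm
  have : Commute w₁ w₂ := h
  exact this.mul_right this

lemma comm2 : w₂ * (w₁ * w₁) = (w₁ * w₁) * w₂ := by
  have h := hz.comm
  have : Commute w₂ w₁ := h.symm
  exact this.mul_right this

lemma phi_add (f g : F) : phi w₁ w₂ (f + g) = phi w₁ w₂ f * phi w₁ w₂ g := by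
  simp only [phi, bil, Prod.fst_add, Prod.snd_add]
  rw [sel_add hz.sq1, sel_add hz.sq2]
  exact (sel_comm hz.zc g.1 f.2).symm.mul_mul_mul_comm _ _ |>.symm

lemma phi_zero : phi w₁ w₂ 0 = 1 := bil_zero _ _

lemma phi_sq (f : F) : phi w₁ w₂ f * phi w₁ w₂ f = 1 := by
  rw [← hz.phi_add, add_self_F, hz.phi_zero]

lemma phi_inv (f : F) : (phi w₁ w₂ f)⁻¹ = phi w₁ w₂ f :=
  inv_eq_of_mul_eq_one_left (hz.phi_sq f)

lemma phi_eq_one {f : F} (h : phi w₁ w₂ f = 1) : f = 0 := by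
  rcases F_cases f with rfl | rfl | rfl | rfl
  · rfl
  · exact absurd (by simpa [phi, bil_e1] using h) hz.ne1
  · exact absurd (by simpa [phi, bil_e2] using h) hz.ne2
  · exfalso
    have h1 : (w₁ * w₁) * (w₂ * w₂) = 1 := by simpa [phi, bil_e12] using h
    apply hz.ne12
    have h2 : (w₂ * w₂)⁻¹ = w₂ * w₂ := inv_eq_of_mul_eq_one_left hz.sq2
    rw [← h2]
    exact eq_inv_of_mul_eq_one_left h1

lemma phi_inj : Function.Injective (phi w₁ w₂) := by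
  intro f g h
  have h1 : phi w₁ w₂ (f + g) = 1 := by
    rw [hz.phi_add, h, hz.phi_sq]
  have h2 := hz.phi_eq_one h1
  have h3 : f + g = g + g := by rw [h2, add_self_F]
  exact add_right_cancel h3

lemma lam_phi_comm (f g : F) : lam w₁ w₂ f * phi w₁ w₂ g = phi w₁ w₂ g * lam w₁ w₂ f := by
  simp only [lam, phi, bil]
  have c1 : Commute (sel w₁ f.1) (sel (w₁ * w₁) g.1) := by
    have : Commute w₁ (w₁ * w₁) := (Commute.refl w₁).mul_right (Commute.refl w₁)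
    exact sel_comm this _ _
  have c2 : Commute (sel w₁ f.1) (sel (w₂ * w₂) g.2) := sel_comm hz.comm1 _ _
  have c3 : Commute (sel w₂ f.2) (sel (w₁ * w₁) g.1) := sel_comm hz.comm2 _ _
  have c4 : Commute (sel w₂ f.2) (sel (w₂ * w₂) g.2) := by
    have : Commute w₂ (w₂ * w₂) := (Commute.refl w₂).mul_right (Commute.refl w₂)
    exact sel_comm this _ _
  exact ((c1.mul_right c2).mul_left (c3.mul_right c4))

lemma lam_mul (f g : F) : lam w₁ w₂ f * lam w₁ w₂ g =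
    lam w₁ w₂ (f + g) * phi w₁ w₂ (f.1 * g.1, f.2 * g.2) := by
  simp only [lam, phi, bil, Prod.fst_add, Prod.snd_add]
  have c : Commute w₁ w₂ := hz.comm
  have c' : Commute (sel w₂ f.2) (sel w₁ g.1) := (sel_comm hz.comm g.1 f.2).symm
  rw [c'.mul_mul_mul_comm, sel_mul_sel w₁ f.1 g.1, sel_mul_sel w₂ f.2 g.2]
  have c2 : Commute (sel (w₁ * w₁) (f.1 * g.1)) (sel w₂ (f.2 + g.2)) :=
    (sel_comm hz.comm2 _ _).symm
  exact c2.mul_mul_mul_comm _ _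

lemma lam_sq (f : F) : lam w₁ w₂ f * lam w₁ w₂ f = phi w₁ w₂ f := by
  simp only [lam, phi, bil]
  have c' : Commute (sel w₂ f.2) (sel w₁ f.1) := (sel_comm hz.comm f.1 f.2).symm
  rw [c'.mul_mul_mul_comm, sel_mul_self, sel_mul_self]

lemma lam_mem (f : F) : lam w₁ w₂ f ∈ WW w₁ w₂ := by
  have h1 : w₁ ∈ WW w₁ w₂ := Subgroup.subset_closure (by simp)
  have h2 : w₂ ∈ WW w₁ w₂ := Subgroup.subset_closure (by simp)
  simp only [lam, bil]
  apply mul_mem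
  · rcases zmod2_cases f.1 with e | e <;> rw [e] <;> simp [h1, one_mem]
  · rcases zmod2_cases f.2 with e | e <;> rw [e] <;> simp [h2, one_mem]

lemma phi_mem (f : F) : phi w₁ w₂ f ∈ WW w₁ w₂ := by
  rw [← hz.lam_sq]
  exact mul_mem (hz.lam_mem f) (hz.lam_mem f)

lemma normal_form {x : T} (hx : x ∈ WW w₁ w₂) : ∃ f f' : F, x = lam w₁ w₂ f * phi w₁ w₂ f' := by
  unfold WW at hx
  induction hx using Subgroup.closure_induction with
  | mem x hx =>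
    rcases hx with rfl | hx
    · exact ⟨e1, 0, by rw [hz.phi_zero, mul_one, lam, bil_e1]⟩
    · have : x = w₂ := hx
      subst this
      exact ⟨e2, 0, by rw [hz.phi_zero, mul_one, lam, bil_e2]⟩
  | one => exact ⟨0, 0, by rw [hz.phi_zero, mul_one, lam, bil_zero]⟩
  | mul x y _ _ ihx ihy =>
    obtain ⟨f, f', rfl⟩ := ihx
    obtain ⟨g, g', rfl⟩ := ihy
    refine ⟨f + g, (f.1 * g.1, f.2 * g.2) + (f' + g'), ?_⟩
    rw [hz.phi_add, hz.phi_add]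
    calc lam w₁ w₂ f * phi w₁ w₂ f' * (lam w₁ w₂ g * phi w₁ w₂ g')
        = lam w₁ w₂ f * (phi w₁ w₂ f' * lam w₁ w₂ g) * phi w₁ w₂ g' := by group
      _ = lam w₁ w₂ f * (lam w₁ w₂ g * phi w₁ w₂ f') * phi w₁ w₂ g' := by rw [hz.lam_phi_comm]
      _ = (lam w₁ w₂ f * lam w₁ w₂ g) * (phi w₁ w₂ f' * phi w₁ w₂ g') := by group
      _ = _ := by rw [hz.lam_mul]; group
  | inv x _ ih =>
    obtain ⟨f, f', rfl⟩ := ih
    refine ⟨f, f + f', ?_⟩
    apply inv_eq_of_mul_eq_one_left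
    rw [hz.phi_add]
    calc lam w₁ w₂ f * (phi w₁ w₂ f * phi w₁ w₂ f') * (lam w₁ w₂ f * phi w₁ w₂ f')
        = lam w₁ w₂ f * (phi w₁ w₂ f * (phi w₁ w₂ f' * lam w₁ w₂ f)) * phi w₁ w₂ f' := by group
      _ = lam w₁ w₂ f * (phi w₁ w₂ f * (lam w₁ w₂ f * phi w₁ w₂ f')) * phi w₁ w₂ f' := by
          rw [hz.lam_phi_comm]
      _ = (lam w₁ w₂ f * (phi w₁ w₂ f * lam w₁ w₂ f)) * (phi w₁ w₂ f' * phi w₁ w₂ f') := by group
      _ = (lam w₁ w₂ f * (lam w₁ w₂ f * phi w₁ w₂ f)) * (phi w₁ w₂ f' * phi w₁ w₂ f') := by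
          rw [hz.lam_phi_comm]
      _ = (lam w₁ w₂ f * lam w₁ w₂ f) * phi w₁ w₂ f * (phi w₁ w₂ f' * phi w₁ w₂ f') := by group
      _ = 1 := by rw [hz.lam_sq, hz.phi_sq, hz.phi_sq, one_mul]

lemma wc : ∀ a ∈ WW w₁ w₂, ∀ b ∈ WW w₁ w₂, a * b = b * a := by
  intro a ha b hb
  obtain ⟨f, f', rfl⟩ := hz.normal_form ha
  obtain ⟨g, g', rfl⟩ := hz.normal_form hb
  have hp : ∀ f g : F, phi w₁ w₂ f * phi w₁ w₂ g = phi w₁ w₂ g * phi w₁ w₂ f := by
    intro f g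
    rw [← hz.phi_add, ← hz.phi_add, add_comm]
  have hl : lam w₁ w₂ f * lam w₁ w₂ g = lam w₁ w₂ g * lam w₁ w₂ f := by
    rw [hz.lam_mul, hz.lam_mul, add_comm f g, mul_comm f.1, mul_comm f.2]
  calc lam w₁ w₂ f * phi w₁ w₂ f' * (lam w₁ w₂ g * phi w₁ w₂ g')
      = lam w₁ w₂ f * (phi w₁ w₂ f' * lam w₁ w₂ g) * phi w₁ w₂ g' := by group
    _ = lam w₁ w₂ f * (lam w₁ w₂ g * phi w₁ w₂ f') * phi w₁ w₂ g' := by rw [hz.lam_phi_comm]
    _ = (lam w₁ w₂ f * lam w₁ w₂ g) * (phi w₁ w₂ f' * phi w₁ w₂ g') := by group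
    _ = (lam w₁ w₂ g * lam w₁ w₂ f) * (phi w₁ w₂ g' * phi w₁ w₂ f') := by rw [hl, hp]
    _ = lam w₁ w₂ g * (lam w₁ w₂ f * phi w₁ w₂ g') * phi w₁ w₂ f' := by group
    _ = lam w₁ w₂ g * (phi w₁ w₂ g' * lam w₁ w₂ f) * phi w₁ w₂ f' := by rw [hz.lam_phi_comm]
    _ = lam w₁ w₂ g * phi w₁ w₂ g' * (lam w₁ w₂ f * phi w₁ w₂ f') := by group

lemma sq_of_mem {x : T} (hx : x ∈ WW w₁ w₂) : ∃ f : F, x * x = phi w₁ w₂ f := by
  obtain ⟨f, f', rfl⟩ := hz.normal_form hx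
  refine ⟨f, ?_⟩
  calc lam w₁ w₂ f * phi w₁ w₂ f' * (lam w₁ w₂ f * phi w₁ w₂ f')
      = lam w₁ w₂ f * (phi w₁ w₂ f' * lam w₁ w₂ f) * phi w₁ w₂ f' := by group
    _ = lam w₁ w₂ f * (lam w₁ w₂ f * phi w₁ w₂ f') * phi w₁ w₂ f' := by rw [hz.lam_phi_comm]
    _ = (lam w₁ w₂ f * lam w₁ w₂ f) * (phi w₁ w₂ f' * phi w₁ w₂ f') := by group
    _ = phi w₁ w₂ f := by rw [hz.lam_sq, hz.phi_sq, mul_one]

lemma w4 : ∀ w ∈ WW w₁ w₂, (w * w) * (w * w) = 1 := by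
  intro w hw
  obtain ⟨f, hf⟩ := hz.sq_of_mem hw
  rw [hf, hz.phi_sq]

/-- The 2-torsion of `W`. -/
def VV : Subgroup T := OmegaW (WW w₁ w₂) hz.wc

lemma mem_VV {v : T} : v ∈ hz.VV ↔ ∃ f : F, phi w₁ w₂ f = v := by
  constructor
  · rintro ⟨hv, hv2⟩
    obtain ⟨f, f', rfl⟩ := hz.normal_form hv
    refine ⟨f', ?_⟩
    have hf : phi w₁ w₂ f = 1 := by
      have h1 : lam w₁ w₂ f * phi w₁ w₂ f' * (lam w₁ w₂ f * phi w₁ w₂ f') = phi w₁ w₂ f := by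
        calc lam w₁ w₂ f * phi w₁ w₂ f' * (lam w₁ w₂ f * phi w₁ w₂ f')
            = lam w₁ w₂ f * (phi w₁ w₂ f' * lam w₁ w₂ f) * phi w₁ w₂ f' := by group
          _ = lam w₁ w₂ f * (lam w₁ w₂ f * phi w₁ w₂ f') * phi w₁ w₂ f' := by rw [hz.lam_phi_comm]
          _ = (lam w₁ w₂ f * lam w₁ w₂ f) * (phi w₁ w₂ f' * phi w₁ w₂ f') := by group
          _ = phi w₁ w₂ f := by rw [hz.lam_sq, hz.phi_sq, mul_one]
      rw [← h1]; exact hv2
    have h0 := hz.phi_eq_one hf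
    rw [h0, lam, bil_zero, one_mul]
  · rintro ⟨f, rfl⟩
    exact ⟨hz.phi_mem f, hz.phi_sq f⟩

lemma phi_mem_VV (f : F) : phi w₁ w₂ f ∈ hz.VV := hz.mem_VV.mpr ⟨f, rfl⟩

lemma card_VV : Nat.card hz.VV = 4 := by
  have hb : Function.Bijective (fun f : F => (⟨phi w₁ w₂ f, hz.phi_mem_VV f⟩ : hz.VV)) := by
    constructor
    · intro f g h
      exact hz.phi_inj (congrArg Subtype.val h)
    · rintro ⟨v, hv⟩
      obtain ⟨f, rfl⟩ := hz.mem_VV.mp hv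
      exact ⟨f, rfl⟩
  rw [← Nat.card_congr (Equiv.ofBijective _ hb)]
  simp [Nat.card_eq_fintype_card]

lemma VV_le : hz.VV ≤ WW w₁ w₂ := fun _ hv => hv.1

lemma VV_sq : ∀ v ∈ hz.VV, v * v = 1 := fun _ hv => hv.2

lemma VV_comm : ∀ a ∈ hz.VV, ∀ b ∈ hz.VV, a * b = b * a :=
  fun a ha b hb => hz.wc a ha.1 b hb.1

/-- Every involution of `W` is a square from `W`. -/
lemma exists_sq {v : T} (hv : v ∈ WW w₁ w₂) (hvv : v * v = 1) : ∃ w ∈ WW w₁ w₂, w * w = v := by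
  obtain ⟨f, rfl⟩ := hz.mem_VV.mp ⟨hv, hvv⟩
  exact ⟨lam w₁ w₂ f, hz.lam_mem f, hz.lam_sq f⟩

end Z44

end Cfsg.Agent.Lib.MacWI1
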