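import Mathlib
import Cfsg.Agent.Lib.MacWI1

set_option autoImplicit false

namespace Cfsg.Agent.Lib.MacWI2

open Cfsg.Agent.Lib.MacWClass Cfsg.Agent.Lib.MacWSec Cfsg.Agent.Lib.MacWK
  Cfsg.Agent.Lib.MacWExt Cfsg.Agent.Lib.MacWLA Cfsg.Agent.Lib.MacWI1

universe u

variable {T : Type u} [Group T] [Finite T]

/-- The standing hypotheses in the `Z4 × Z4` case. -/
structure SI (w₁ w₂ : T) : Prop where
  hz : Z44 w₁ w₂
  hP : IsPGroup 2 T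
  hWn : (WW w₁ w₂).Normal
  hE : ∀ A : Subgroup T, A.Normal → IsMulCommutative A → (∀ a ∈ A, a ^ 2 = 1) → Nat.card A ≤ 4
  hc : ∀ g : T, g⁻¹ * (w₁ * w₁) * g = w₁ * w₁

def psi (g w : T) : T := w⁻¹ * (g⁻¹ * w * g)

noncomputable def cc (w₁ w₂ : T) : T → F := Function.invFun (phi w₁ w₂)

noncomputable def mu (w₁ w₂ g : T) : Lam := (cc w₁ w₂ (psi g w₁), cc w₁ w₂ (psi g w₂))

def T1 {w₁ w₂ : T} (hz : Z44 w₁ w₂) : Subgroup T := Subgroup.centralizer (hz.VV : Set T)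

def CC (w₁ w₂ : T) : Subgroup T := Subgroup.centralizer (WW w₁ w₂ : Set T)

lemma add_cancel4 : ∀ a b : Lam, a + (b + a + b) = 0 := by decide

namespace SI

variable {w₁ w₂ : T} (h : SI w₁ w₂)
include h

lemma conj_W {w : T} (hw : w ∈ WW w₁ w₂) (g : T) : g⁻¹ * w * g ∈ WW w₁ w₂ := by
  have := h.hWn.conj_mem w hw g⁻¹
  simpa using this

lemma psi_W {w : T} (hw : w ∈ WW w₁ w₂) (g : T) : psi g w ∈ WW w₁ w₂ :=
  mul_mem (inv_mem hw) (h.conj_W hw g)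

lemma V_normal : h.hz.VV.Normal := OmegaW_normal _ h.hWn _

lemma mem_T1 {g : T} : g ∈ T1 h.hz ↔ ∀ v ∈ h.hz.VV, v * g = g * v := by
  rw [T1, Subgroup.mem_centralizer_iff]; rfl

lemma mem_CC {g : T} : g ∈ CC w₁ w₂ ↔ ∀ w ∈ WW w₁ w₂, w * g = g * w := by
  rw [CC, Subgroup.mem_centralizer_iff]; rfl

lemma W_le_C : WW w₁ w₂ ≤ CC w₁ w₂ := fun _ hw => h.mem_CC.mpr fun v hv => h.hz.wc v hv _ hw

lemma C_le_T1 : CC w₁ w₂ ≤ T1 h.hz := fun _ hg =>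
  h.mem_T1.mpr fun v hv => h.mem_CC.mp hg v (h.hz.VV_le hv)

lemma V_le_C : h.hz.VV ≤ CC w₁ w₂ := h.hz.VV_le.trans h.W_le_C

lemma V_le_T1 : h.hz.VV ≤ T1 h.hz := h.V_le_C.trans h.C_le_T1

lemma T1_conj_V {g v : T} (hg : g ∈ T1 h.hz) (hv : v ∈ h.hz.VV) : g⁻¹ * v * g = v := by
  have := h.mem_T1.mp hg v hv
  rw [mul_assoc, this]; group

lemma psi_V' {g w : T} (hg : g ∈ T1 h.hz) (hw : w ∈ WW w₁ w₂) : psi g w ∈ h.hz.VV := by
  refine ⟨h.psi_W hw g, ?_⟩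
  have h1 := h.hz.wc _ (inv_mem hw) _ (h.conj_W hw g)
  have h2 : (w * w) ∈ h.hz.VV := ⟨mul_mem hw hw, h.hz.w4 w hw⟩
  have h3 := h.T1_conj_V hg h2
  calc psi g w * psi g w = w⁻¹ * (g⁻¹ * w * g) * (w⁻¹ * (g⁻¹ * w * g)) := rfl
    _ = w⁻¹ * ((g⁻¹ * w * g) * w⁻¹) * (g⁻¹ * w * g) := by group
    _ = w⁻¹ * (w⁻¹ * (g⁻¹ * w * g)) * (g⁻¹ * w * g) := by rw [← h1]
    _ = (w * w)⁻¹ * (g⁻¹ * (w * w) * g) := by group
    _ = 1 := by rw [h3]; group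

lemma psi_mul {w w' : T} (hw : w ∈ WW w₁ w₂) (hw' : w' ∈ WW w₁ w₂) (g : T) :
    psi g (w * w') = psi g w * psi g w' := by
  have h1 := h.hz.wc _ (inv_mem hw') _ (h.psi_W hw g)
  calc psi g (w * w') = w'⁻¹ * (w⁻¹ * (g⁻¹ * w * g)) * (g⁻¹ * w' * g) := by
        simp only [psi]; group
    _ = psi g w * w'⁻¹ * (g⁻¹ * w' * g) := by
        have : w⁻¹ * (g⁻¹ * w * g) = psi g w := rfl
        rw [this, h1]
    _ = psi g w * psi g w' := by simp only [psi]; group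

lemma psi_VV {g v : T} (hg : g ∈ T1 h.hz) (hv : v ∈ h.hz.VV) : psi g v = 1 := by
  simp only [psi]
  rw [h.T1_conj_V hg hv]; group

lemma psi_comp {g g' w : T} (hg : g ∈ T1 h.hz) (hg' : g' ∈ T1 h.hz) (hw : w ∈ WW w₁ w₂) :
    psi (g * g') w = psi g w * psi g' w := by
  have h1 : g⁻¹ * w * g = w * psi g w := by simp [psi]
  have h2 := h.T1_conj_V hg' (h.psi_V' hg hw)
  have h3 : g'⁻¹ * w * g' = w * psi g' w := by simp [psi]
  have hc := h.hz.VV_comm _ (h.psi_V' hg' hw) _ (h.psi_V' hg hw)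
  calc psi (g * g') w = w⁻¹ * (g'⁻¹ * (g⁻¹ * w * g) * g') := by simp only [psi]; group
    _ = w⁻¹ * ((g'⁻¹ * w * g') * (g'⁻¹ * psi g w * g')) := by rw [h1]; group
    _ = psi g' w * psi g w := by rw [h2, h3]; group
    _ = psi g w * psi g' w := hc

lemma cc_phi (f : F) : cc w₁ w₂ (phi w₁ w₂ f) = f :=
  Function.leftInverse_invFun h.hz.phi_inj f

lemma phi_cc {v : T} (hv : v ∈ h.hz.VV) : phi w₁ w₂ (cc w₁ w₂ v) = v := by
  obtain ⟨f, rfl⟩ := h.hz.mem_VV.mp hv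
  rw [h.cc_phi]

lemma cc_mul {v v' : T} (hv : v ∈ h.hz.VV) (hv' : v' ∈ h.hz.VV) :
    cc w₁ w₂ (v * v') = cc w₁ w₂ v + cc w₁ w₂ v' := by
  obtain ⟨f, rfl⟩ := h.hz.mem_VV.mp hv
  obtain ⟨f', rfl⟩ := h.hz.mem_VV.mp hv'
  rw [← h.hz.phi_add, h.cc_phi, h.cc_phi, h.cc_phi]

lemma w1_mem : w₁ ∈ WW w₁ w₂ := Subgroup.subset_closure (by simp)
lemma w2_mem : w₂ ∈ WW w₁ w₂ := Subgroup.subset_closure (by simp)

lemma mu_mul {g g' : T} (hg : g ∈ T1 h.hz) (hg' : g' ∈ T1 h.hz) :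
    mu w₁ w₂ (g * g') = mu w₁ w₂ g + mu w₁ w₂ g' := by
  simp only [mu, Prod.mk_add_mk]
  rw [h.psi_comp hg hg' h.w1_mem, h.psi_comp hg hg' h.w2_mem,
    h.cc_mul (h.psi_V' hg h.w1_mem) (h.psi_V' hg' h.w1_mem),
    h.cc_mul (h.psi_V' hg h.w2_mem) (h.psi_V' hg' h.w2_mem)]

lemma mu_one : mu w₁ w₂ (1 : T) = 0 := by
  have h1 := h.mu_mul (one_mem (T1 h.hz)) (one_mem (T1 h.hz))
  rw [mul_one] at h1
  have h2 : (mu w₁ w₂ (1 : T)) + 0 = mu w₁ w₂ (1 : T) + mu w₁ w₂ (1 : T) := by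
    rw [add_zero]; exact h1
  exact (add_left_cancel h2).symm

lemma mu_inv {g : T} (hg : g ∈ T1 h.hz) : mu w₁ w₂ g⁻¹ = mu w₁ w₂ g := by
  have h1 := h.mu_mul (inv_mem hg) hg
  rw [inv_mul_cancel, h.mu_one] at h1
  have h2 := add_self_L (mu w₁ w₂ g)
  have h3 : mu w₁ w₂ g⁻¹ + mu w₁ w₂ g = mu w₁ w₂ g + mu w₁ w₂ g := by rw [← h1, h2]
  exact add_right_cancel h3

lemma mu_spec1 {g : T} (hg : g ∈ T1 h.hz) : psi g w₁ = phi w₁ w₂ (mu w₁ w₂ g).1 :=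
  (h.phi_cc (h.psi_V' hg h.w1_mem)).symm

lemma mu_spec2 {g : T} (hg : g ∈ T1 h.hz) : psi g w₂ = phi w₁ w₂ (mu w₁ w₂ g).2 :=
  (h.phi_cc (h.psi_V' hg h.w2_mem)).symm

lemma psi_sel (g w : T) (x : ZMod 2) : psi g (sel w x) = sel (psi g w) x := by
  rcases zmod2_cases x with rfl | rfl
  · simp [psi]
  · simp

lemma sel_phi (q : F) (x : ZMod 2) : sel (phi w₁ w₂ q) x = phi w₁ w₂ (x * q.1, x * q.2) := by
  rcases zmod2_cases x with rfl | rfl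
  · simp only [sel_zero, zero_mul]
    exact h.hz.phi_zero.symm
  · simp

lemma sel_mem {w : T} (hw : w ∈ WW w₁ w₂) (x : ZMod 2) : sel w x ∈ WW w₁ w₂ := by
  rcases zmod2_cases x with rfl | rfl
  · simp [one_mem]
  · simpa using hw

lemma psi_lam {g : T} (hg : g ∈ T1 h.hz) (f : F) :
    psi g (lam w₁ w₂ f) = phi w₁ w₂ (Mact (mu w₁ w₂ g) f) := by
  have e : lam w₁ w₂ f = sel w₁ f.1 * sel w₂ f.2 := rfl
  rw [e, h.psi_mul (h.sel_mem h.w1_mem _) (h.sel_mem h.w2_mem _), h.psi_sel, h.psi_sel,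
    h.mu_spec1 hg, h.mu_spec2 hg, h.sel_phi, h.sel_phi, ← h.hz.phi_add]
  rfl

lemma psi_normal {g : T} (hg : g ∈ T1 h.hz) (f f' : F) :
    psi g (lam w₁ w₂ f * phi w₁ w₂ f') = phi w₁ w₂ (Mact (mu w₁ w₂ g) f) := by
  rw [h.psi_mul (h.hz.lam_mem f) (h.hz.phi_mem f'), h.psi_VV hg (h.hz.phi_mem_VV f'), mul_one,
    h.psi_lam hg]

lemma mem_C_of_psi {g : T} (h1 : psi g w₁ = 1) (h2 : psi g w₂ = 1) : g ∈ CC w₁ w₂ := by
  have hcl : WW w₁ w₂ ≤ Subgroup.centralizer ({g} : Set T) := by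
    refine (Subgroup.closure_le _).mpr ?_
    have key : ∀ w : T, psi g w = 1 → w ∈ Subgroup.centralizer ({g} : Set T) := by
      intro w hw
      rw [Subgroup.mem_centralizer_iff]
      intro x hx
      rw [Set.mem_singleton_iff] at hx
      rw [hx]
      have h3 : g⁻¹ * w * g = w := by
        have := eq_of_inv_mul_eq_one hw
        exact this.symm
      calc g * w = g * (g⁻¹ * w * g) := by rw [h3]
        _ = w * g := by group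
    rintro x (rfl | hx)
    · exact key _ h1
    · have : x = w₂ := hx
      subst this
      exact key _ h2
  refine h.mem_CC.mpr fun w hw => ?_
  have := hcl hw
  rw [Subgroup.mem_centralizer_iff] at this
  exact (this g rfl).symm

lemma psi_C {g w : T} (hg : g ∈ CC w₁ w₂) (hw : w ∈ WW w₁ w₂) : psi g w = 1 := by
  simp only [psi]
  have := h.mem_CC.mp hg w hw
  rw [mul_assoc, this]; group

lemma mu_eq_zero {g : T} (hg : g ∈ T1 h.hz) : mu w₁ w₂ g = 0 ↔ g ∈ CC w₁ w₂ := by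
  constructor
  · intro h0
    apply h.mem_C_of_psi
    · rw [h.mu_spec1 hg, h0]; exact h.hz.phi_zero
    · rw [h.mu_spec2 hg, h0]; exact h.hz.phi_zero
  · intro hC
    have e0 : cc w₁ w₂ 1 = 0 := by
      have := h.cc_phi 0
      rwa [h.hz.phi_zero] at this
    simp only [mu]
    rw [h.psi_C hC h.w1_mem, h.psi_C hC h.w2_mem, e0]
    rfl

lemma mu_mul_C {g c : T} (hg : g ∈ T1 h.hz) (hc : c ∈ CC w₁ w₂) :
    mu w₁ w₂ (g * c) = mu w₁ w₂ g := by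
  rw [h.mu_mul hg (h.C_le_T1 hc), (h.mu_eq_zero (h.C_le_T1 hc)).mpr hc, add_zero]

lemma mem_C_of_mu {g g' : T} (hg : g ∈ T1 h.hz) (hg' : g' ∈ T1 h.hz)
    (he : mu w₁ w₂ g = mu w₁ w₂ g') : g⁻¹ * g' ∈ CC w₁ w₂ := by
  rw [← h.mu_eq_zero (mul_mem (inv_mem hg) hg'), h.mu_mul (inv_mem hg) hg', h.mu_inv hg, he,
    add_self_L]

lemma T1_normal : (T1 h.hz).Normal := ⟨fun t ht g => by
  have := conj_mem_cent (W := h.hz.VV) h.V_normal ht g⁻¹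
  simp only [inv_inv] at this
  exact this⟩

lemma C_normal : (CC w₁ w₂).Normal := ⟨fun t ht g => by
  have := conj_mem_cent (W := WW w₁ w₂) h.hWn ht g⁻¹
  simp only [inv_inv] at this
  exact this⟩

lemma comm_T1 {g y : T} (hg : g ∈ T1 h.hz) (hy : y ∈ T1 h.hz) :
    y⁻¹ * (g⁻¹ * y * g) ∈ CC w₁ w₂ := by
  have h1 : g⁻¹ * y ∈ T1 h.hz := mul_mem (inv_mem hg) hy
  have h2 : g⁻¹ * y * g ∈ T1 h.hz := mul_mem h1 hg
  rw [← h.mu_eq_zero (mul_mem (inv_mem hy) h2), h.mu_mul (inv_mem hy) h2, h.mu_mul h1 hg,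
    h.mu_mul (inv_mem hg) hy, h.mu_inv hy, h.mu_inv hg]
  exact add_cancel4 _ _

lemma sq_C {y : T} (hy : y ∈ T1 h.hz) : y * y ∈ CC w₁ w₂ := by
  rw [← h.mu_eq_zero (mul_mem hy hy), h.mu_mul hy hy, add_self_L]

lemma hB : ∀ A : Subgroup T, A.Normal → IsMulCommutative A → (∀ a ∈ A, a ^ 2 = 1) →
    Nat.card A ≤ Nat.card h.hz.VV := by
  intro A h1 h2 h3
  rw [h.hz.card_VV]
  exact h.hE A h1 h2 h3

lemma K : (∀ x ∈ CC w₁ w₂, (x * x) * (x * x) = 1 → x ∈ WW w₁ w₂) ∧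
    XSub (CC w₁ w₂) h.hz.VV := by
  refine xsub_cent h.hP (WW w₁ w₂) h.hWn h.hz.wc h.hz.w4 h.hz.card_VV.le h.hB ?_ ?_
  · intro x _ h1 h2 h3
    exact absurd (h.hz.exists_sq h2 h1) h3
  · intro x _ h1 h2 h3
    exact absurd (h.hz.exists_sq h2 h1) h3

lemma K1 {x : T} (hx : x ∈ CC w₁ w₂) (h4 : (x * x) * (x * x) = 1) : x ∈ WW w₁ w₂ :=
  h.K.1 x hx h4

lemma inv_none {g w : T} (hg : g ∈ T1 h.hz) (hS : SSp (mu w₁ w₂ g)) (hw : w ∈ WW w₁ w₂)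
    (ho : orderOf w = 4) : g⁻¹ * w * g ≠ w⁻¹ := by
  intro he
  obtain ⟨f, f', rfl⟩ := h.hz.normal_form hw
  set w := lam w₁ w₂ f * phi w₁ w₂ f' with hwdef
  have hsq : w * w = phi w₁ w₂ f := by
    rw [hwdef]
    calc lam w₁ w₂ f * phi w₁ w₂ f' * (lam w₁ w₂ f * phi w₁ w₂ f')
        = lam w₁ w₂ f * (phi w₁ w₂ f' * lam w₁ w₂ f) * phi w₁ w₂ f' := by group
      _ = lam w₁ w₂ f * (lam w₁ w₂ f * phi w₁ w₂ f') * phi w₁ w₂ f' := by rw [h.hz.lam_phi_comm]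
      _ = (lam w₁ w₂ f * lam w₁ w₂ f) * (phi w₁ w₂ f' * phi w₁ w₂ f') := by group
      _ = phi w₁ w₂ f := by rw [h.hz.lam_sq, h.hz.phi_sq, mul_one]
  have hf : f ≠ 0 := by
    rintro rfl
    apply sq_ne_of_order ho
    rw [hsq]; exact h.hz.phi_zero
  apply hS f hf
  apply h.hz.phi_inj
  rw [← h.psi_normal hg f f', ← hsq]
  show psi g w = w * w
  simp only [psi]
  rw [he, ← mul_inv_rev, hsq, h.hz.phi_inv]

lemma mem_V_of_fix {g w : T} (hg : g ∈ T1 h.hz) (hN : ¬ Singp (mu w₁ w₂ g)) (hw : w ∈ WW w₁ w₂)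
    (hfix : psi g w = 1) : w ∈ h.hz.VV := by
  obtain ⟨f, f', rfl⟩ := h.hz.normal_form hw
  rw [h.psi_normal hg] at hfix
  have h0 := h.hz.phi_eq_one hfix
  have hf : f = 0 := by
    by_contra hne
    exact hN ⟨f, hne, h0⟩
  subst hf
  have : lam w₁ w₂ 0 = 1 := bil_zero _ _
  rw [this, one_mul]
  exact h.hz.phi_mem_VV f'

lemma surj {y v : T} (hy : y ∈ T1 h.hz) (hS : SSp (mu w₁ w₂ y)) (hv : v ∈ h.hz.VV) :
    ∃ w ∈ WW w₁ w₂, (y⁻¹ * w * y) * w = v := by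
  obtain ⟨q, rfl⟩ := h.hz.mem_VV.mp hv
  obtain ⟨f, hf⟩ := D2 _ hS q
  refine ⟨lam w₁ w₂ f, h.hz.lam_mem f, ?_⟩
  have h1 : y⁻¹ * lam w₁ w₂ f * y = lam w₁ w₂ f * psi y (lam w₁ w₂ f) := by simp [psi]
  rw [h1, h.psi_lam hy, ← hf, h.hz.phi_add]
  calc lam w₁ w₂ f * phi w₁ w₂ (Mact (mu w₁ w₂ y) f) * lam w₁ w₂ f
      = lam w₁ w₂ f * (phi w₁ w₂ (Mact (mu w₁ w₂ y) f) * lam w₁ w₂ f) := by group
    _ = lam w₁ w₂ f * (lam w₁ w₂ f * phi w₁ w₂ (Mact (mu w₁ w₂ y) f)) := by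
        rw [h.hz.lam_phi_comm]
    _ = (lam w₁ w₂ f * lam w₁ w₂ f) * phi w₁ w₂ (Mact (mu w₁ w₂ y) f) := by group
    _ = _ := by rw [h.hz.lam_sq]

lemma inverted_sq {t u : T} (ht : t ∈ T1 h.hz) (hS : SSp (mu w₁ w₂ t)) (hu : u ∈ CC w₁ w₂)
    (hrel : t⁻¹ * u * t = u⁻¹) : u * u = 1 := by
  by_contra hne
  obtain ⟨k, hk⟩ := exists_pow_order_four h.hP u hne
  have hkW : u ^ k ∈ WW w₁ w₂ := h.K1 (pow_mem hu k) (four_of_order hk)
  exact h.inv_none ht hS hkW hk (inverted_pow hrel k)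

lemma inverted_of_inv {t g : T} (htt : t * t = 1) :
    t⁻¹ * (t⁻¹ * (g⁻¹ * t * g)) * t = (t⁻¹ * (g⁻¹ * t * g))⁻¹ := by
  apply eq_inv_of_mul_eq_one_left
  have htinv : t⁻¹ = t := inv_eq_of_mul_eq_one_left htt
  have h2 : (g⁻¹ * t * g) * (g⁻¹ * t * g) = 1 := by
    have : g⁻¹ * t * g * (g⁻¹ * t * g) = g⁻¹ * (t * t) * g := by group
    rw [this, htt]; group
  calc t⁻¹ * (t⁻¹ * (g⁻¹ * t * g)) * t * (t⁻¹ * (g⁻¹ * t * g))
      = t⁻¹ * t⁻¹ * (g⁻¹ * t * g) * (g⁻¹ * t * g) := by group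
    _ = t⁻¹ * t⁻¹ * ((g⁻¹ * t * g) * (g⁻¹ * t * g)) := by group
    _ = 1 := by rw [h2, htinv, htt, one_mul]

lemma F2 {y : T} (hy : y ∈ T1 h.hz) (hyC : y ∉ CC w₁ w₂)
    (hcen : ∀ g : T, y⁻¹ * (g⁻¹ * y * g) ∈ CC w₁ w₂) (hS : SSp (mu w₁ w₂ y)) :
    y * y ∉ h.hz.VV := by
  intro hyy
  obtain ⟨w, hw, hwv⟩ := h.surj hy hS hyy
  have hwC : w ∈ CC w₁ w₂ := h.W_le_C hw
  have hyy2 : (y * y) * (y * y) = 1 := h.hz.VV_sq _ hyy
  set t := y * w with ht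
  have htt : t * t = 1 := by
    calc t * t = (y * y) * ((y⁻¹ * w * y) * w) := by rw [ht]; group
      _ = 1 := by rw [hwv, hyy2]
  have htT : t ∈ T1 h.hz := mul_mem hy (h.C_le_T1 hwC)
  have hmu : mu w₁ w₂ t = mu w₁ w₂ y := h.mu_mul_C hy hwC
  have hSt : SSp (mu w₁ w₂ t) := hmu ▸ hS
  have htV : t ∉ h.hz.VV := by
    intro hc
    apply hyC
    have : y = t * w⁻¹ := by rw [ht]; group
    rw [this]
    exact mul_mem (h.V_le_C hc) (inv_mem hwC)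
  refine ext_card h.hz.VV h.V_normal h.hz.VV_comm h.hz.VV_sq t htt (h.mem_T1.mp htT) ?_ htV h.hB
  intro g
  set u := t⁻¹ * (g⁻¹ * t * g) with hu
  have huC : u ∈ CC w₁ w₂ := by
    have e : u = w⁻¹ * (y⁻¹ * (g⁻¹ * y * g)) * (g⁻¹ * w * g) := by
      rw [hu, ht]; group
    rw [e]
    exact mul_mem (mul_mem (inv_mem hwC) (hcen g)) (h.W_le_C (h.conj_W hw g))
  have huu : u * u = 1 := h.inverted_sq htT hSt huC (h.inverted_of_inv htt)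
  have huW : u ∈ WW w₁ w₂ := h.K1 huC (by rw [huu, one_mul])
  exact ⟨u, ⟨huW, huu⟩, by rw [hu]; group⟩

lemma xsubY {Y : Subgroup T} (hCY : CC w₁ w₂ ≤ Y) (hYT : Y ≤ T1 h.hz)
    (hS : ∀ y ∈ Y, SSp (mu w₁ w₂ y))
    (hcen : ∀ y ∈ Y, ∀ g : T, y⁻¹ * (g⁻¹ * y * g) ∈ CC w₁ w₂) : XSub Y h.hz.VV := by
  refine ⟨h.V_le_C.trans hCY, ?_, h.hz.VV_sq, ?_, h.hz.card_VV.le, ?_⟩
  · intro v hv y hy
    exact h.mem_T1.mp (hYT hy) v hv
  · intro y hy hyy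
    by_cases hyC : y ∈ CC w₁ w₂
    · exact ⟨h.K1 hyC (by rw [hyy, one_mul]), hyy⟩
    · exfalso
      apply h.F2 (hYT hy) hyC (hcen y hy) (hS y hy)
      rw [hyy]; exact one_mem _
  · intro g hg w hw ho he
    have h1 := hcen w hw g
    rw [he] at h1
    have h2 : w * w ∈ CC w₁ w₂ := by
      have := inv_mem h1
      have e : (w⁻¹ * w⁻¹)⁻¹ = w * w := by rw [mul_inv_rev, inv_inv]
      rwa [e] at this
    have h3 : w * w ∈ WW w₁ w₂ := h.K1 h2 (by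
      have := four_of_order ho
      have e : (w * w * (w * w)) * (w * w * (w * w)) = ((w * w) * (w * w)) * ((w * w) * (w * w)) := rfl
      rw [e, this, one_mul])
    have h4 : w * w ∈ h.hz.VV := ⟨h3, four_of_order ho⟩
    by_cases hwC : w ∈ CC w₁ w₂
    · exact h.inv_none (hYT hg) (hS g hg) (h.K1 hwC (four_of_order ho)) ho he
    · exact h.F2 (hYT hw) hwC (hcen w hw) (hS w hw) h4

lemma sq_mem_V {y : T} (hy : y ∈ T1 h.hz) (hN : ¬ Singp (mu w₁ w₂ y)) : y * y ∈ h.hz.VV := by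
  have h1 := h.sq_C hy
  by_cases h2 : (y * y) * (y * y) = 1
  · exact ⟨h.K1 h1 (by rw [h2, one_mul]), h2⟩
  · exfalso
    obtain ⟨k, hk⟩ := exists_pow_order_four h.hP (y * y) h2
    have h3 : (y * y) ^ k ∈ WW w₁ w₂ := h.K1 (pow_mem h1 k) (four_of_order hk)
    have h4 : psi y ((y * y) ^ k) = 1 := by
      simp only [psi]
      have hc : Commute y ((y * y) ^ k) :=
        ((Commute.refl y).mul_right (Commute.refl y)).pow_right k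
      have : y⁻¹ * (y * y) ^ k * y = (y * y) ^ k := by
        rw [mul_assoc, ← hc.eq]; group
      rw [this]; group
    have h5 := h.mem_V_of_fix hy hN h3 h4
    exact sq_ne_of_order hk h5.2

lemma omega_central {x : T} (hx : x ∈ T1 h.hz)
    (hcen : ∀ g : T, x⁻¹ * (g⁻¹ * x * g) ∈ CC w₁ w₂) (hS : SSp (mu w₁ w₂ x))
    (hN : ¬ Singp (mu w₁ w₂ x)) : False := by
  have hxC : x ∉ CC w₁ w₂ := fun hc => D6 _ hN ((h.mu_eq_zero hx).mpr hc)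
  exact h.F2 hx hxC hcen hS (h.sq_mem_V hx hN)

lemma omega_Nz {x xz : T} (hx : x ∈ T1 h.hz) (hS : SSp (mu w₁ w₂ x))
    (hN : ¬ Singp (mu w₁ w₂ x)) (hxz : xz ∈ T1 h.hz) (hmz : mu w₁ w₂ xz = Nz)
    (hcen : ∀ y ∈ T1 h.hz, mu w₁ w₂ y = Nz → ∀ g : T, y⁻¹ * (g⁻¹ * y * g) ∈ CC w₁ w₂) : False := by
  have hxx := h.sq_mem_V hx hN
  -- step: the centralizer is W
  have hCW : CC w₁ w₂ ≤ WW w₁ w₂ := by
    by_contra hne
    haveI := h.hWn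
    obtain ⟨c, hcC, hcW, hc2, -⟩ := exists_central_mod h.hP (WW w₁ w₂) (CC w₁ w₂) h.C_normal hne
    have hxc : x * c ∈ T1 h.hz := mul_mem hx (h.C_le_T1 hcC)
    have hmuc : mu w₁ w₂ (x * c) = mu w₁ w₂ x := h.mu_mul_C hx hcC
    have hxcc := h.sq_mem_V hxc (by rw [hmuc]; exact hN)
    set v := (x⁻¹ * c * x) * c with hv
    have hvV : v ∈ h.hz.VV := by
      have e : v = (x * x)⁻¹ * ((x * c) * (x * c)) := by rw [hv]; group
      rw [e]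
      exact mul_mem (inv_mem hxx) hxcc
    have hvv := h.hz.VV_sq v hvV
    have hvc : v * c = c * v := h.mem_CC.mp hcC v (h.hz.VV_le hvV)
    have hvc' : v * c⁻¹ = c⁻¹ * v := by
      rw [eq_inv_mul_iff_mul_eq, ← mul_assoc, ← hvc, mul_assoc, mul_inv_cancel, mul_one]
    have e1 : x⁻¹ * c * x = v * c⁻¹ := by rw [hv]; group
    have e2 : x⁻¹ * (c * c) * x = (c * c)⁻¹ := by
      calc x⁻¹ * (c * c) * x = (x⁻¹ * c * x) * (x⁻¹ * c * x) := by group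
        _ = v * c⁻¹ * (v * c⁻¹) := by rw [e1]
        _ = v * (c⁻¹ * v) * c⁻¹ := by group
        _ = v * (v * c⁻¹) * c⁻¹ := by rw [hvc']
        _ = (v * v) * (c⁻¹ * c⁻¹) := by group
        _ = (c * c)⁻¹ := by rw [hvv]; group
    by_cases h4 : (c * c) * (c * c) = 1
    · exact hcW (h.K1 hcC h4)
    · have ho : orderOf (c * c) = 4 := XClass.order_four (c * c) h4 (h.hz.w4 _ hc2)
      exact h.inv_none hx hS hc2 ho e2
  -- step: an involution over `x`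
  obtain ⟨w, hw, hwv⟩ := h.surj hx hS hxx
  have hwC : w ∈ CC w₁ w₂ := h.W_le_C hw
  have hxx2 : (x * x) * (x * x) = 1 := h.hz.VV_sq _ hxx
  set t := x * w with ht
  have htt : t * t = 1 := by
    calc t * t = (x * x) * ((x⁻¹ * w * x) * w) := by rw [ht]; group
      _ = 1 := by rw [hwv, hxx2]
  have htT : t ∈ T1 h.hz := mul_mem hx (h.C_le_T1 hwC)
  have hmu : mu w₁ w₂ t = mu w₁ w₂ x := h.mu_mul_C hx hwC
  have hSt : SSp (mu w₁ w₂ t) := hmu ▸ hS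
  have hNt : ¬ Singp (mu w₁ w₂ t) := hmu ▸ hN
  have hiv : ∀ g ∈ T1 h.hz, t⁻¹ * (g⁻¹ * t * g) ∈ h.hz.VV := by
    intro g hg
    have huC := h.comm_T1 hg htT
    have huu := h.inverted_sq htT hSt huC (h.inverted_of_inv htt)
    exact ⟨hCW huC, huu⟩
  set v := t⁻¹ * (xz⁻¹ * t * xz) with hvdef
  have hvV : v ∈ h.hz.VV := hiv xz hxz
  have hvv := h.hz.VV_sq v hvV
  obtain ⟨f, hf⟩ := D5 _ hNt (cc w₁ w₂ v)
  set w' := lam w₁ w₂ f with hw'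
  have hw'W : w' ∈ WW w₁ w₂ := h.hz.lam_mem f
  have hpsi : psi t w' = v := by
    rw [hw', h.psi_lam htT, hf, h.phi_cc hvV]
  have e3 : t⁻¹ * w' * t = w' * v := by
    rw [← hpsi]; simp [psi]
  have e4 : t⁻¹ * xz * t = xz * v := by
    have h1 : t⁻¹ * xz⁻¹ * t = v * xz⁻¹ := by rw [hvdef]; group
    have h2 : (t⁻¹ * xz⁻¹ * t)⁻¹ = t⁻¹ * xz * t := by group
    rw [← h2, h1, mul_inv_rev, inv_inv, inv_eq_of_mul_eq_one_left hvv]
  set d := xz * w' with hd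
  have hdT : d ∈ T1 h.hz := mul_mem hxz (h.C_le_T1 (h.W_le_C hw'W))
  have hvw : v * w' = w' * v := h.hz.wc _ (h.hz.VV_le hvV) _ hw'W
  have e5 : t⁻¹ * d * t = d := by
    calc t⁻¹ * d * t = (t⁻¹ * xz * t) * (t⁻¹ * w' * t) := by rw [hd]; group
      _ = xz * v * (w' * v) := by rw [e3, e4]
      _ = xz * (v * w') * v := by group
      _ = xz * (w' * v) * v := by rw [hvw]
      _ = xz * w' * (v * v) := by group
      _ = d := by rw [hvv, mul_one]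
  have hmud : mu w₁ w₂ d = Nz := by
    rw [hd, h.mu_mul_C hxz (h.W_le_C hw'W), hmz]
  have hd2 : d * d ∈ WW w₁ w₂ := hCW (h.sq_C hdT)
  have hfix : psi t (d * d) = 1 := by
    simp only [psi]
    have : t⁻¹ * (d * d) * t = (t⁻¹ * d * t) * (t⁻¹ * d * t) := by group
    rw [this, e5]; group
  have hdV := h.mem_V_of_fix htT hNt hd2 hfix
  have hdC : d ∉ CC w₁ w₂ := by
    intro hc
    have := (h.mu_eq_zero hdT).mpr hc
    rw [hmud] at this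
    exact Nz_ne this
  exact h.F2 hdT hdC (hcen d hdT hmud) (by rw [hmud]; exact Nz_SS) hdV

end SI

end Cfsg.Agent.Lib.MacWI2
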