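import Mathlib
import Cfsg.Agent.Lib.MacWI2

set_option autoImplicit false

namespace Cfsg.Agent.Lib.MacWI2

open Cfsg.Agent.Lib.MacWClass Cfsg.Agent.Lib.MacWSec Cfsg.Agent.Lib.MacWK
  Cfsg.Agent.Lib.MacWExt Cfsg.Agent.Lib.MacWLA Cfsg.Agent.Lib.MacWI1

universe u

variable {T : Type u} [Group T] [Finite T]

lemma Mact_e1 : ∀ p : Lam, Mact p e1 = p.1 := by decide
lemma Mact_e12 : ∀ p : Lam, Mact p (e1 + e2) = p.1 + p.2 := by decide
lemma char2_eq : ∀ a b : Lam, a + b = 0 → a = b := by decide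
lemma add_zero_of_eq : ∀ a b c : Lam, (a + c) + (b + c) = 0 → a = b := by
  intro a b c h
  apply char2_eq
  have e : (a + c) + (b + c) = (a + b) + (c + c) := by abel
  rw [e, add_self_L, add_zero] at h
  exact h

namespace SI

variable {w₁ w₂ : T} (h : SI w₁ w₂)
include h

lemma phi_e1 : phi w₁ w₂ e1 = w₁ * w₁ := bil_e1 _ _
lemma phi_e2 : phi w₁ w₂ e2 = w₂ * w₂ := bil_e2 _ _
lemma phi_e12 : phi w₁ w₂ (e1 + e2) = (w₁ * w₁) * (w₂ * w₂) := bil_e12 _ _

lemma z1_mem : w₁ * w₁ ∈ h.hz.VV := by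
  rw [← h.phi_e1]; exact h.hz.phi_mem_VV _

lemma z2_mem : w₂ * w₂ ∈ h.hz.VV := by
  rw [← h.phi_e2]; exact h.hz.phi_mem_VV _

lemma mem_T1_of_z2 {g : T} (hg : g⁻¹ * (w₂ * w₂) * g = w₂ * w₂) : g ∈ T1 h.hz := by
  refine h.mem_T1.mpr fun v hv => ?_
  obtain ⟨f, rfl⟩ := h.hz.mem_VV.mp hv
  have key : g⁻¹ * phi w₁ w₂ f * g = phi w₁ w₂ f := by
    rcases F_cases f with rfl | rfl | rfl | rfl
    · rw [h.hz.phi_zero]; group
    · rw [h.phi_e1]; exact h.hc g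
    · rw [h.phi_e2]; exact hg
    · rw [h.phi_e12]
      have : g⁻¹ * ((w₁ * w₁) * (w₂ * w₂)) * g = (g⁻¹ * (w₁ * w₁) * g) * (g⁻¹ * (w₂ * w₂) * g) := by
        group
      rw [this, h.hc g, hg]
  calc phi w₁ w₂ f * g = g * (g⁻¹ * phi w₁ w₂ f * g) := by group
    _ = g * phi w₁ w₂ f := by rw [key]

lemma z1_comm (g : T) : g * (w₁ * w₁) * g⁻¹ = w₁ * w₁ := by
  have := h.hc g⁻¹
  simpa using this

lemma s_conj_z2 {s : T} (hs : s ∉ T1 h.hz) : s⁻¹ * (w₂ * w₂) * s = (w₁ * w₁) * (w₂ * w₂) := by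
  have hV : s⁻¹ * (w₂ * w₂) * s ∈ h.hz.VV := by
    have := h.V_normal.conj_mem _ h.z2_mem s⁻¹
    simpa using this
  obtain ⟨f, hf⟩ := h.hz.mem_VV.mp hV
  rcases F_cases f with rfl | rfl | rfl | rfl
  · exfalso
    rw [h.hz.phi_zero] at hf
    apply h.hz.ne2
    have : w₂ * w₂ = s * (s⁻¹ * (w₂ * w₂) * s) * s⁻¹ := by group
    rw [this, ← hf]; group
  · exfalso
    rw [h.phi_e1] at hf
    apply h.hz.ne12
    have e : w₂ * w₂ = s * (s⁻¹ * (w₂ * w₂) * s) * s⁻¹ := by group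
    rw [e, ← hf, h.z1_comm]
  · exfalso
    rw [h.phi_e2] at hf
    exact hs (h.mem_T1_of_z2 hf.symm)
  · rw [← hf, h.phi_e12]

lemma s_conj_z2' {s : T} (hs : s ∉ T1 h.hz) : s * (w₂ * w₂) * s⁻¹ = (w₁ * w₁) * (w₂ * w₂) := by
  have hs' : s⁻¹ ∉ T1 h.hz := fun hc => hs (by simpa using inv_mem hc)
  have := h.s_conj_z2 hs'
  simpa using this

lemma conj_phi {τ : T} (h1 : τ⁻¹ * (w₁ * w₁) * τ = w₁ * w₁)
    (h2 : τ⁻¹ * (w₂ * w₂) * τ = (w₁ * w₁) * (w₂ * w₂)) (f : F) :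
    τ⁻¹ * phi w₁ w₂ f * τ = phi w₁ w₂ (kap f) := by
  have k0 : kap 0 = 0 := by decide
  have k1 : kap e1 = e1 := by decide
  have k2 : kap e2 = e1 + e2 := by decide
  have k3 : kap (e1 + e2) = e2 := by decide
  rcases F_cases f with rfl | rfl | rfl | rfl
  · rw [k0, h.hz.phi_zero]; group
  · rw [k1, h.phi_e1]; exact h1
  · rw [k2, h.phi_e2, h.phi_e12]; exact h2
  · rw [k3, h.phi_e12, h.phi_e2]
    have : τ⁻¹ * ((w₁ * w₁) * (w₂ * w₂)) * τ = (τ⁻¹ * (w₁ * w₁) * τ) * (τ⁻¹ * (w₂ * w₂) * τ) := by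
      group
    rw [this, h1, h2, ← mul_assoc, h.hz.sq1, one_mul]

lemma conj_sq_form {a : T} {f : F} (ha : a ∈ WW w₁ w₂) (hsq : a * a = phi w₁ w₂ f) :
    ∃ f' : F, a = lam w₁ w₂ f * phi w₁ w₂ f' := by
  obtain ⟨g, g', rfl⟩ := h.hz.normal_form ha
  have h1 : lam w₁ w₂ g * phi w₁ w₂ g' * (lam w₁ w₂ g * phi w₁ w₂ g') = phi w₁ w₂ g := by
    calc lam w₁ w₂ g * phi w₁ w₂ g' * (lam w₁ w₂ g * phi w₁ w₂ g')
        = lam w₁ w₂ g * (phi w₁ w₂ g' * lam w₁ w₂ g) * phi w₁ w₂ g' := by group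
      _ = lam w₁ w₂ g * (lam w₁ w₂ g * phi w₁ w₂ g') * phi w₁ w₂ g' := by rw [h.hz.lam_phi_comm]
      _ = (lam w₁ w₂ g * lam w₁ w₂ g) * (phi w₁ w₂ g' * phi w₁ w₂ g') := by group
      _ = phi w₁ w₂ g := by rw [h.hz.lam_sq, h.hz.phi_sq, mul_one]
  rw [h1] at hsq
  have := h.hz.phi_inj hsq
  subst this
  exact ⟨g', rfl⟩

lemma mu_conj {g s : T} (hg : g ∈ T1 h.hz) (hs : s ∉ T1 h.hz) :
    mu w₁ w₂ (s⁻¹ * g * s) = sig (mu w₁ w₂ g) := by
  have hb : ∀ w : T, psi (s⁻¹ * g * s) w = s⁻¹ * psi g (s * w * s⁻¹) * s := by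
    intro w; simp only [psi]; group
  have hc1 : s⁻¹ * (w₁ * w₁) * s = w₁ * w₁ := h.hc s
  have hc2 := h.s_conj_z2 hs
  -- first generator
  have hw1 : (s * w₁ * s⁻¹) ∈ WW w₁ w₂ := by
    have := h.hWn.conj_mem _ h.w1_mem s
    exact this
  have hw2 : (s * w₂ * s⁻¹) ∈ WW w₁ w₂ := h.hWn.conj_mem _ h.w2_mem s
  obtain ⟨f1, e1'⟩ := h.conj_sq_form (f := e1) hw1 (by
    rw [h.phi_e1]
    have : s * w₁ * s⁻¹ * (s * w₁ * s⁻¹) = s * (w₁ * w₁) * s⁻¹ := by group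
    rw [this, h.z1_comm])
  obtain ⟨f2, e2'⟩ := h.conj_sq_form (f := e1 + e2) hw2 (by
    rw [h.phi_e12]
    have : s * w₂ * s⁻¹ * (s * w₂ * s⁻¹) = s * (w₂ * w₂) * s⁻¹ := by group
    rw [this, h.s_conj_z2' hs])
  have p1 : psi (s⁻¹ * g * s) w₁ = phi w₁ w₂ (kap (mu w₁ w₂ g).1) := by
    rw [hb, e1', h.psi_normal hg, Mact_e1]
    exact h.conj_phi hc1 hc2 _
  have p2 : psi (s⁻¹ * g * s) w₂ = phi w₁ w₂ (kap ((mu w₁ w₂ g).1 + (mu w₁ w₂ g).2)) := by
    rw [hb, e2', h.psi_normal hg, Mact_e12]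
    exact h.conj_phi hc1 hc2 _
  simp only [mu] at p1 p2 ⊢
  rw [p1, p2, h.cc_phi, h.cc_phi]
  rfl

lemma index_T1 : (T1 h.hz).index ≤ 2 := by
  classical
  have hC : ∀ g : T, g ∈ T1 h.hz ↔
      (g * (w₂ * w₂) * g⁻¹ = w₂ * w₂ ∧ g * (w₁ * w₁) * g⁻¹ = w₁ * w₁) := by
    intro g
    constructor
    · intro hg
      have hg' : g⁻¹ ∈ T1 h.hz := inv_mem hg
      have h1 := h.T1_conj_V hg' h.z2_mem
      have h2 := h.T1_conj_V hg' h.z1_mem
      simp only [inv_inv] at h1 h2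
      exact ⟨h1, h2⟩
    · rintro ⟨h1, -⟩
      apply h.mem_T1_of_z2
      have : g⁻¹ * (w₂ * w₂) * g = g⁻¹ * (g * (w₂ * w₂) * g⁻¹) * g := by rw [h1]
      rw [this]; group
  obtain ⟨h1, -⟩ := index_pair (T1 h.hz) (w₂ * w₂) (w₁ * w₁) hC
    ({w₂ * w₂, (w₁ * w₁) * (w₂ * w₂)} : Finset T) ({w₁ * w₁} : Finset T)
    (by
      intro g
      by_cases hg : g ∈ T1 h.hz
      · simp [((hC g).mp hg).1]
      · simp [h.s_conj_z2' hg])
    (by
      intro g
      simp [h.z1_comm])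
  refine h1.trans ?_
  have h2 : ({w₂ * w₂, (w₁ * w₁) * (w₂ * w₂)} : Finset T).card ≤ 2 := Finset.card_le_two
  simpa using h2

/-- The action homomorphism on `T1`. -/
noncomputable def muH : ↥(T1 h.hz) →* Multiplicative Lam :=
  MonoidHom.mk' (fun g => Multiplicative.ofAdd (mu w₁ w₂ g.1)) (by
    intro a b
    show Multiplicative.ofAdd (mu w₁ w₂ (a.1 * b.1)) = _
    rw [h.mu_mul a.2 b.2, ofAdd_add])

/-- The values taken by `mu` on `T1`. -/
def InL (p : Lam) : Prop := ∃ g ∈ T1 h.hz, mu w₁ w₂ g = p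

/-- Number of values of `mu`. -/
noncomputable def nL : ℕ := Nat.card h.muH.range

lemma nL_dvd : h.nL ∣ 2 ^ 4 := by
  have h1 : Nat.card h.muH.range ∣ Nat.card (Multiplicative Lam) :=
    Subgroup.card_subgroup_dvd_card _
  have h2 : Nat.card (Multiplicative Lam) = 2 ^ 4 := by
    simp [Nat.card_eq_fintype_card]
  rwa [h2] at h1

lemma index_C : (CC w₁ w₂).index = h.nL * (T1 h.hz).index := by
  have h1 : (CC w₁ w₂).subgroupOf (T1 h.hz) = h.muH.ker := by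
    ext g
    rw [Subgroup.mem_subgroupOf, MonoidHom.mem_ker]
    show g.1 ∈ CC w₁ w₂ ↔ Multiplicative.ofAdd (mu w₁ w₂ g.1) = 1
    rw [← h.mu_eq_zero g.2]
    exact ofAdd_eq_one.symm
  have h2 : (CC w₁ w₂).relIndex (T1 h.hz) = h.nL := by
    rw [Subgroup.relIndex, h1, Subgroup.index_ker]
    rfl
  rw [← h2]
  exact (Subgroup.relIndex_mul_index h.C_le_T1).symm

lemma pick (S : Finset Lam) (hS : S.card < h.nL) : ∃ p, h.InL p ∧ p ∉ S := by
  by_contra hc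
  push_neg at hc
  have hle : h.nL ≤ S.card := by
    have hmem : ∀ x : h.muH.range, Multiplicative.toAdd x.1 ∈ S := by
      rintro ⟨_, g, rfl⟩
      exact hc _ ⟨g.1, g.2, rfl⟩
    have hinj : Function.Injective (fun x : h.muH.range => (⟨Multiplicative.toAdd x.1, hmem x⟩ : S)) := by
      intro x y hxy
      apply Subtype.ext
      have := congrArg Subtype.val hxy
      exact Multiplicative.toAdd.injective this
    have h1 := Nat.card_le_card_of_injective _ hinj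
    have h2 : Nat.card ↥S = S.card := by simp
    rw [h2] at h1
    exact h1
  omega

lemma InL_add {p q : Lam} (hp : h.InL p) (hq : h.InL q) : h.InL (p + q) := by
  obtain ⟨g, hg, rfl⟩ := hp
  obtain ⟨g', hg', rfl⟩ := hq
  exact ⟨g * g', mul_mem hg hg', h.mu_mul hg hg'⟩

lemma InL_sp {a b c x : Lam} (ha : h.InL a) (hb : h.InL b) (hc : h.InL c) (hx : x ∈ sp a b c) :
    h.InL x := by
  simp only [sp, List.mem_cons, List.not_mem_nil, or_false] at hx
  rcases hx with rfl | rfl | rfl | rfl | rfl | rfl | rfl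
  · exact ha
  · exact hb
  · exact hc
  · exact h.InL_add ha hb
  · exact h.InL_add ha hc
  · exact h.InL_add hb hc
  · exact h.InL_add (h.InL_add ha hb) hc

lemma exists_indep (hn : 8 ≤ h.nL) : ∃ a b c : Lam, h.InL a ∧ h.InL b ∧ h.InL c ∧ Indep a b c := by
  classical
  obtain ⟨a, ha, ha'⟩ := h.pick {0} (by simp; omega)
  obtain ⟨b, hb, hb'⟩ := h.pick {0, a} (lt_of_le_of_lt Finset.card_le_two (by omega))
  obtain ⟨c, hc, hc'⟩ := h.pick {0, a, b, a + b} (lt_of_le_of_lt Finset.card_le_four (by omega))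
  simp only [Finset.mem_insert, Finset.mem_singleton, not_or] at ha' hb' hc'
  exact ⟨a, b, c, ha, hb, hc, ha', hb'.1, hb'.2, hc'.1, hc'.2.1, hc'.2.2.1, hc'.2.2.2⟩

/-- The subgroup over `{0, l}`. -/
def YY (l : Lam) : Subgroup T where
  carrier := {g | g ∈ T1 h.hz ∧ (mu w₁ w₂ g = 0 ∨ mu w₁ w₂ g = l)}
  one_mem' := ⟨one_mem _, Or.inl h.mu_one⟩
  mul_mem' := by
    rintro a b ⟨ha, ha'⟩ ⟨hb, hb'⟩
    refine ⟨mul_mem ha hb, ?_⟩
    rw [h.mu_mul ha hb]
    rcases ha' with e | e <;> rcases hb' with e' | e' <;> rw [e, e']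
    · left; simp
    · right; simp
    · right; simp
    · left; exact add_self_L l
  inv_mem' := by
    rintro a ⟨ha, ha'⟩
    refine ⟨inv_mem ha, ?_⟩
    rw [h.mu_inv ha]
    exact ha'

lemma C_le_YY (l : Lam) : CC w₁ w₂ ≤ h.YY l := fun _ hg =>
  ⟨h.C_le_T1 hg, Or.inl ((h.mu_eq_zero (h.C_le_T1 hg)).mpr hg)⟩

lemma YY_le_T1 (l : Lam) : h.YY l ≤ T1 h.hz := fun _ hg => hg.1

lemma YY_index_le (l : Lam) : (h.YY l).index ≤ (CC w₁ w₂).index := by
  have h1 : (h.YY l).index ∣ (CC w₁ w₂).index := Subgroup.index_dvd_of_le (h.C_le_YY l)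
  exact Nat.le_of_dvd (Nat.pos_of_ne_zero Subgroup.index_ne_zero_of_finite) h1

lemma YY_index_two {l : Lam} (hl : h.InL l) (hl0 : l ≠ 0) :
    2 * (h.YY l).index ≤ (CC w₁ w₂).index := by
  have h1 := Subgroup.relIndex_mul_index (h.C_le_YY l)
  rw [← h1]
  refine Nat.mul_le_mul_right _ (relIndex_ge_two ?_)
  intro hle
  obtain ⟨g, hg, rfl⟩ := hl
  have := hle (⟨hg, Or.inr rfl⟩ : g ∈ h.YY (mu w₁ w₂ g))
  exact hl0 ((h.mu_eq_zero hg).mpr this)

theorem bound_YY (l : Lam) (hlS : SSp l)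
    (hcen : ∀ y ∈ T1 h.hz, mu w₁ w₂ y = l → ∀ g : T, y⁻¹ * (g⁻¹ * y * g) ∈ CC w₁ w₂)
    (hidx : (h.YY l).index ≤ 8)
    (href : 4 < (h.YY l).index → ∀ H M : Subgroup T, Sec H M → H ⊔ h.YY l = ⊤ → M ≤ h.YY l →
      ∃ m ∈ M, m ∉ CC w₁ w₂)
    {H M : Subgroup T} (hs : Sec H M) : Nat.card H ≤ 16 * Nat.card M := by
  have hcen' : ∀ y ∈ h.YY l, ∀ g : T, y⁻¹ * (g⁻¹ * y * g) ∈ CC w₁ w₂ := by
    rintro y ⟨hy, e | e⟩ g
    · have hyC := (h.mu_eq_zero hy).mp e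
      refine mul_mem (inv_mem hyC) ?_
      have := h.C_normal.conj_mem y hyC g⁻¹
      simpa using this
    · exact hcen y hy e g
  have hYn : (h.YY l).Normal := ⟨fun y hy g => by
    have h1 := hcen' y hy g⁻¹
    have e : g * y * g⁻¹ = y * (y⁻¹ * (g⁻¹⁻¹ * y * g⁻¹)) := by group
    rw [e]
    exact mul_mem hy (h.C_le_YY l h1)⟩
  have hX : XSub (h.YY l) h.hz.VV := by
    refine h.xsubY (h.C_le_YY l) (h.YY_le_T1 l) ?_ hcen'
    rintro y ⟨-, e | e⟩
    · rw [e]; exact zero_SS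
    · rw [e]; exact hlS
  refine sec_bound h.hP hYn hX hidx (h.C_le_YY l) ?_ ?_ href hs
  · intro y hy; exact h.sq_C hy.1
  · intro y hy y' hy'
    have := h.comm_T1 (inv_mem hy'.1) (inv_mem hy.1)
    simpa [mul_assoc] using this

lemma href_all {l : Lam} (hl : sig l = l) {g₀ s : T} (hg₀ : g₀ ∈ T1 h.hz)
    (hsg : sig (mu w₁ w₂ g₀) ≠ mu w₁ w₂ g₀) (hs : s ∉ T1 h.hz)
    {H M : Subgroup T} (hsec : Sec H M) (hsup : H ⊔ h.YY l = ⊤) (hYn : (h.YY l).Normal) :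
    ∃ m ∈ M, m ∉ CC w₁ w₂ := by
  haveI := hYn
  have hmem : ∀ x : T, ∃ a ∈ H, ∃ b ∈ h.YY l, a * b = x := by
    intro x
    have hx : x ∈ ((H ⊔ h.YY l : Subgroup T) : Set T) := by rw [hsup]; trivial
    rw [Subgroup.mul_normal] at hx
    obtain ⟨a, ha, b, hb, e⟩ := Set.mem_mul.mp hx
    exact ⟨a, ha, b, hb, e⟩
  obtain ⟨a, ha, y, hy, e1'⟩ := hmem g₀
  obtain ⟨a', ha', y', hy', e2'⟩ := hmem s
  have hyT := h.YY_le_T1 l hy
  have hy'T := h.YY_le_T1 l hy'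
  have haT : a ∈ T1 h.hz := by
    have : a = g₀ * y⁻¹ := by rw [← e1']; group
    rw [this]; exact mul_mem hg₀ (inv_mem hyT)
  have ha'T : a' ∉ T1 h.hz := by
    intro hc
    apply hs
    rw [← e2']; exact mul_mem hc hy'T
  have hmua : mu w₁ w₂ g₀ = mu w₁ w₂ a + mu w₁ w₂ y := by
    rw [← e1', h.mu_mul haT hyT]
  have hsy : sig (mu w₁ w₂ y) = mu w₁ w₂ y := by
    rcases hy.2 with e | e
    · rw [e]; exact sig_zero
    · rw [e]; exact hl
  refine ⟨a⁻¹ * a'⁻¹ * a⁻¹⁻¹ * a'⁻¹⁻¹, hsec.comm _ (inv_mem ha) _ (inv_mem ha'), ?_⟩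
  intro hmC
  have e3 : a⁻¹ * a'⁻¹ * a⁻¹⁻¹ * a'⁻¹⁻¹ = a⁻¹ * (a'⁻¹ * a * a') := by group
  rw [e3] at hmC
  have hconj : a'⁻¹ * a * a' ∈ T1 h.hz := by
    have := h.T1_normal.conj_mem a haT a'⁻¹
    simpa using this
  have hT := mul_mem (inv_mem haT) hconj
  have h0 := (h.mu_eq_zero hT).mpr hmC
  rw [h.mu_mul (inv_mem haT) hconj, h.mu_inv haT, h.mu_conj haT ha'T] at h0
  have h1 : mu w₁ w₂ a = sig (mu w₁ w₂ a) := char2_eq _ _ h0
  apply hsg
  rw [hmua, sig_add, hsy, ← h1]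

theorem caseI_bound {H M : Subgroup T} (hs : Sec H M) : Nat.card H ≤ 16 * Nat.card M := by
  classical
  have hidxC := h.index_C
  obtain ⟨k, hk, hnk⟩ := (Nat.dvd_prime_pow Nat.prime_two).mp h.nL_dvd
  have hT1 := h.index_T1
  have hT0 : (T1 h.hz).index ≠ 0 := Subgroup.index_ne_zero_of_finite
  by_cases hT : ∀ g : T, g ∈ T1 h.hz
  · -- the whole group centralizes `V`
    have hidx1 : (T1 h.hz).index = 1 := by
      rw [Subgroup.index_eq_one]
      exact (Subgroup.eq_top_iff' _).mpr hT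
    rw [hidx1, mul_one] at hidxC
    have hcen : ∀ y ∈ T1 h.hz, ∀ g : T, y⁻¹ * (g⁻¹ * y * g) ∈ CC w₁ w₂ :=
      fun y hy g => h.comm_T1 (hT g) hy
    interval_cases k
    · refine h.bound_YY 0 zero_SS (fun y hy _ g => hcen y hy g) ?_ ?_ hs
      · have := h.YY_index_le 0; omega
      · intro hc; have := h.YY_index_le 0; omega
    · refine h.bound_YY 0 zero_SS (fun y hy _ g => hcen y hy g) ?_ ?_ hs
      · have := h.YY_index_le 0; omega
      · intro hc; have := h.YY_index_le 0; omega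
    · refine h.bound_YY 0 zero_SS (fun y hy _ g => hcen y hy g) ?_ ?_ hs
      · have := h.YY_index_le 0; omega
      · intro hc; have := h.YY_index_le 0; omega
    · obtain ⟨a, b, c, ha, hb, hc, hI⟩ := h.exists_indep (by omega)
      obtain ⟨x, hx, hx0, hxS⟩ := D1 a b c hI
      have hxL := h.InL_sp ha hb hc hx
      have h2 := h.YY_index_two hxL hx0
      refine h.bound_YY x hxS (fun y hy _ g => hcen y hy g) (by omega) ?_ hs
      intro hc4; omega
    · exfalso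
      obtain ⟨p, hpL, hp⟩ := h.pick (Finset.univ.erase om) (by
        rw [Finset.card_erase_of_mem (Finset.mem_univ _)]
        have : (Finset.univ : Finset Lam).card = 16 := by decide
        omega)
      have hpo : p = om := by
        by_contra hne
        exact hp (Finset.mem_erase.mpr ⟨hne, Finset.mem_univ _⟩)
      subst hpo
      obtain ⟨x, hx, hxm⟩ := hpL
      exact h.omega_central hx (hcen x hx) (by rw [hxm]; exact om_SS) (by rw [hxm]; exact om_nonsing)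
  · -- some element moves `V`
    push_neg at hT
    obtain ⟨s, hsT⟩ := hT
    have hidx2 : (T1 h.hz).index = 2 := by
      have h1 : (T1 h.hz).index ≠ 1 := by
        intro e
        rw [Subgroup.index_eq_one] at e
        exact hsT (by rw [e]; trivial)
      omega
    rw [hidx2] at hidxC
    have hsigL : ∀ p, h.InL p → h.InL (sig p) := by
      rintro p ⟨g, hg, rfl⟩
      refine ⟨s⁻¹ * g * s, ?_, h.mu_conj hg hsT⟩
      have := h.T1_normal.conj_mem g hg s⁻¹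
      simpa using this
    have hcenNz : ∀ y ∈ T1 h.hz, mu w₁ w₂ y = Nz → ∀ g : T, y⁻¹ * (g⁻¹ * y * g) ∈ CC w₁ w₂ := by
      intro y hy hm g
      by_cases hg : g ∈ T1 h.hz
      · exact h.comm_T1 hg hy
      · have hc : g⁻¹ * y * g ∈ T1 h.hz := by
          have := h.T1_normal.conj_mem y hy g⁻¹
          simpa using this
        apply h.mem_C_of_mu hy hc
        rw [h.mu_conj hy hg, hm, sig_Nz]
    have hcen0 : ∀ y ∈ T1 h.hz, mu w₁ w₂ y = 0 → ∀ g : T, y⁻¹ * (g⁻¹ * y * g) ∈ CC w₁ w₂ := by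
      intro y hy hm g
      have hyC := (h.mu_eq_zero hy).mp hm
      refine mul_mem (inv_mem hyC) ?_
      have := h.C_normal.conj_mem y hyC g⁻¹
      simpa using this
    have hYnorm : ∀ l : Lam, (∀ y ∈ T1 h.hz, mu w₁ w₂ y = l → ∀ g : T, y⁻¹ * (g⁻¹ * y * g) ∈ CC w₁ w₂) →
        (h.YY l).Normal := by
      intro l hl
      refine ⟨fun y hy g => ?_⟩
      have h1 : y⁻¹ * (g⁻¹⁻¹ * y * g⁻¹) ∈ CC w₁ w₂ := by
        rcases hy.2 with e | e
        · exact hcen0 y hy.1 e g⁻¹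
        · exact hl y hy.1 e g⁻¹
      have e : g * y * g⁻¹ = y * (y⁻¹ * (g⁻¹⁻¹ * y * g⁻¹)) := by group
      rw [e]
      exact mul_mem hy (h.C_le_YY l h1)
    interval_cases k
    · refine h.bound_YY 0 zero_SS hcen0 ?_ ?_ hs
      · have := h.YY_index_le 0; omega
      · intro hc; have := h.YY_index_le 0; omega
    · refine h.bound_YY 0 zero_SS hcen0 ?_ ?_ hs
      · have := h.YY_index_le 0; omega
      · intro hc; have := h.YY_index_le 0; omega
    · by_cases hNz : h.InL Nz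
      · have h2 := h.YY_index_two hNz Nz_ne
        refine h.bound_YY Nz Nz_SS hcenNz (by omega) ?_ hs
        intro hc4; omega
      · refine h.bound_YY 0 zero_SS hcen0 (by have := h.YY_index_le 0; omega) ?_ hs
        intro _ H' M' hsec hsup _
        obtain ⟨p, hpL, hp⟩ := h.pick (fixSet.erase Nz) (by
          rw [Finset.card_erase_of_mem (by decide), fixSet_card]
          omega)
        have hpN : p ≠ Nz := fun e => hNz (e ▸ hpL)
        have hpsig : sig p ≠ p := fun e =>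
          hp (Finset.mem_erase.mpr ⟨hpN, fix_mem p e⟩)
        obtain ⟨g₀, hg₀, rfl⟩ := hpL
        exact h.href_all sig_zero hg₀ hpsig hsT hsec hsup (hYnorm 0 hcen0)
    · have hNz : h.InL Nz := by
        obtain ⟨a, b, c, ha, hb, hc, hI⟩ := h.exists_indep (by omega)
        obtain ⟨x, hx, hx'⟩ := D3 a b c hI
        have hxL := h.InL_sp ha hb hc hx
        rcases hx' with e | e
        · exact e ▸ hxL
        · rw [← e]; exact h.InL_add hxL (hsigL x hxL)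
      have h2 := h.YY_index_two hNz Nz_ne
      refine h.bound_YY Nz Nz_SS hcenNz (by omega) ?_ hs
      intro _ H' M' hsec hsup _
      obtain ⟨p, hpL, hp⟩ := h.pick fixSet (by rw [fixSet_card]; omega)
      have hpsig : sig p ≠ p := fun e => hp (fix_mem p e)
      obtain ⟨g₀, hg₀, rfl⟩ := hpL
      exact h.href_all sig_Nz hg₀ hpsig hsT hsec hsup (hYnorm Nz hcenNz)
    · exfalso
      have hall : ∀ q : Lam, h.InL q := by
        intro q
        obtain ⟨p, hpL, hp⟩ := h.pick (Finset.univ.erase q) (by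
          rw [Finset.card_erase_of_mem (Finset.mem_univ _)]
          have : (Finset.univ : Finset Lam).card = 16 := by decide
          omega)
        have hpo : p = q := by
          by_contra hne
          exact hp (Finset.mem_erase.mpr ⟨hne, Finset.mem_univ _⟩)
        exact hpo ▸ hpL
      obtain ⟨x, hx, hxm⟩ := hall om
      obtain ⟨xz, hxz, hxzm⟩ := hall Nz
      exact h.omega_Nz hx (by rw [hxm]; exact om_SS) (by rw [hxm]; exact om_nonsing) hxz hxzm hcenNz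

end SI

end Cfsg.Agent.Lib.MacWI2
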