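import Mathlib
import Cfsg.Agent.Lib.MacWI3

set_option autoImplicit false

namespace Cfsg.Agent.Lib.MacWCase

open Cfsg.Agent.Lib.MacWClass Cfsg.Agent.Lib.MacWSec Cfsg.Agent.Lib.MacWK
  Cfsg.Agent.Lib.MacWExt Cfsg.Agent.Lib.MacWLA Cfsg.Agent.Lib.MacWI1 Cfsg.Agent.Lib.MacWI2

universe u

variable {T : Type u} [Group T] [Finite T]

theorem caseI_entry (hP : IsPGroup 2 T)
    (hE : ∀ A : Subgroup T, A.Normal → IsMulCommutative A → (∀ a ∈ A, a ^ 2 = 1) → Nat.card A ≤ 4)
    {w₁ w₂ : T} (hz : Z44 w₁ w₂) (hWn : (WW w₁ w₂).Normal) {H M : Subgroup T} (hs : Sec H M) :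
    Nat.card H ≤ 16 * Nat.card M := by
  have hV : hz.VV.Normal := OmegaW_normal _ hWn _
  have ph1 : phi w₁ w₂ e1 = w₁ * w₁ := bil_e1 _ _
  have ph2 : phi w₁ w₂ e2 = w₂ * w₂ := bil_e2 _ _
  have ph3 : phi w₁ w₂ (e1 + e2) = (w₁ * w₁) * (w₂ * w₂) := bil_e12 _ _
  have hne : ¬ hz.VV ≤ ⊥ := by
    intro hle
    have h1 : w₁ * w₁ ∈ hz.VV := by rw [← ph1]; exact hz.phi_mem_VV e1
    exact hz.ne1 (Subgroup.mem_bot.mp (hle h1))
  obtain ⟨x, hxV, hx1, -, hxc⟩ := exists_central_mod hP ⊥ hz.VV hV hne
  have hcen : ∀ g : T, g⁻¹ * x * g = x := fun g => by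
    have := Subgroup.mem_bot.mp (hxc g)
    exact (eq_of_inv_mul_eq_one this).symm
  obtain ⟨f, rfl⟩ := hz.mem_VV.mp hxV
  rcases F_cases f with rfl | rfl | rfl | rfl
  · exact absurd (by rw [hz.phi_zero]; exact one_mem _) hx1
  · rw [ph1] at hcen
    exact SI.caseI_bound ⟨hz, hP, hWn, hE, hcen⟩ hs
  · rw [ph2] at hcen
    have hz' : Z44 w₂ w₁ := ⟨hz.comm.symm, hz.ne2, hz.ne1, hz.ne12.symm, hz.sq2, hz.sq1⟩
    have hW' : (WW w₂ w₁).Normal := by
      have : WW w₂ w₁ = WW w₁ w₂ := by
        unfold WW; rw [Set.pair_comm]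
      rw [this]; exact hWn
    exact SI.caseI_bound ⟨hz', hP, hW', hE, hcen⟩ hs
  · rw [ph3] at hcen
    have c : Commute w₁ w₂ := hz.comm
    have e1' : (w₁ * w₂) * (w₁ * w₂) = (w₁ * w₁) * (w₂ * w₂) := c.symm.mul_mul_mul_comm _ _
    have hz' : Z44 (w₁ * w₂) w₂ := by
      refine ⟨(c.symm.mul_right (Commute.refl w₂)).symm.eq, ?_, hz.ne2, ?_, ?_, hz.sq2⟩
      · rw [e1']
        intro e
        apply hz.ne12
        have h2 : (w₂ * w₂)⁻¹ = w₂ * w₂ := inv_eq_of_mul_eq_one_left hz.sq2
        rw [← h2]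
        exact eq_inv_of_mul_eq_one_left e
      · rw [e1']
        intro e
        apply hz.ne1
        have : (w₁ * w₁) * (w₂ * w₂) = 1 * (w₂ * w₂) := by rw [e, one_mul]
        exact mul_right_cancel this
      · rw [e1', hz.zc]
        calc (w₂ * w₂) * (w₁ * w₁) * ((w₂ * w₂) * (w₁ * w₁))
            = (w₂ * w₂) * ((w₁ * w₁) * (w₂ * w₂)) * (w₁ * w₁) := by group
          _ = (w₂ * w₂) * ((w₂ * w₂) * (w₁ * w₁)) * (w₁ * w₁) := by rw [hz.zc]
          _ = ((w₂ * w₂) * (w₂ * w₂)) * ((w₁ * w₁) * (w₁ * w₁)) := by group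
          _ = 1 := by rw [hz.sq1, hz.sq2, one_mul]
    have hW' : (WW (w₁ * w₂) w₂).Normal := by
      have : WW (w₁ * w₂) w₂ = WW w₁ w₂ := by
        apply le_antisymm
        · refine (Subgroup.closure_le _).mpr ?_
          rintro a (rfl | ha)
          · exact mul_mem (Subgroup.subset_closure (by simp)) (Subgroup.subset_closure (by simp))
          · have : a = w₂ := ha
            subst this
            exact Subgroup.subset_closure (by simp)
        · refine (Subgroup.closure_le _).mpr ?_
          have h2 : w₂ ∈ WW (w₁ * w₂) w₂ := Subgroup.subset_closure (by simp)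
          have h3 : w₁ * w₂ ∈ WW (w₁ * w₂) w₂ := Subgroup.subset_closure (by simp)
          intro a ha
          rcases ha with ha | ha
          · rw [ha]
            have := mul_mem h3 (inv_mem h2)
            simpa using this
          · have : a = w₂ := ha
            rw [this]
            exact h2
      rw [this]; exact hWn
    refine SI.caseI_bound ⟨hz', hP, hW', hE, ?_⟩ hs
    rw [e1']
    exact hcen

lemma card_le_finset (S : Finset T) (h : ∀ x : T, x ∈ S) : Nat.card T ≤ S.card := by
  have hinj : Function.Injective (fun x : T => (⟨x, h x⟩ : S)) := by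
    intro a b hab
    have h' : (⟨a, h a⟩ : S).1 = (⟨b, h b⟩ : S).1 := congrArg Subtype.val hab
    exact h'
  have h1 := Nat.card_le_card_of_injective _ hinj
  have h2 : Nat.card ↥S = S.card := by simp
  rwa [h2] at h1

lemma card_sub_le_finset (V : Subgroup T) (S : Finset T) (h : ∀ x ∈ V, x ∈ S) :
    Nat.card V ≤ S.card := by
  have hinj : Function.Injective (fun x : V => (⟨x.1, h x.1 x.2⟩ : S)) := by
    intro a b hab
    have h' : (⟨a.1, h a.1 a.2⟩ : S).1 = (⟨b.1, h b.1 b.2⟩ : S).1 := congrArg Subtype.val hab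
    exact Subtype.ext h'
  have h1 := Nat.card_le_card_of_injective _ hinj
  have h2 : Nat.card ↥S = S.card := by simp
  rwa [h2] at h1

lemma trivial_bound (H M : Subgroup T) (hT : Nat.card T ≤ 16) : Nat.card H ≤ 16 * Nat.card M := by
  have h1 : Nat.card H ≤ Nat.card T := Nat.card_le_card_of_injective _ Subtype.val_injective
  have h2 : 0 < Nat.card M := Nat.card_pos
  nlinarith

lemma two_of_card {V : Subgroup T} (hV : Nat.card V ≤ 2) {z v : T} (hz : z ∈ V) (hv : v ∈ V)
    (hz1 : z ≠ 1) : v = 1 ∨ v = z := by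
  classical
  by_contra hc
  push_neg at hc
  have hcard : ({1, z, v} : Finset T).card = 3 := by
    rw [Finset.card_insert_of_notMem, Finset.card_insert_of_notMem, Finset.card_singleton]
    · simpa using hc.2.symm
    · simp only [Finset.mem_insert, Finset.mem_singleton, not_or]
      exact ⟨hz1.symm, hc.1.symm⟩
  have := card_ge_of_finset V ({1, z, v} : Finset T) (by
    intro x hx
    simp only [Finset.mem_insert, Finset.mem_singleton] at hx
    rcases hx with rfl | rfl | rfl
    · exact V.one_mem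
    · exact hz
    · exact hv)
  omega

lemma four_of_card {V : Subgroup T} (hV : Nat.card V ≤ 4) (hVs : ∀ v ∈ V, v * v = 1) {z y : T}
    (hz : z ∈ V) (hy : y ∈ V) (hz1 : z ≠ 1) (hy1 : y ≠ 1) (hyz : y ≠ z) :
    ∀ v ∈ V, v = 1 ∨ v = z ∨ v = y ∨ v = z * y := by
  classical
  intro v hv
  by_contra hc
  push_neg at hc
  obtain ⟨h1, h2, h3, h4⟩ := hc
  have f1 : z * y ≠ 1 := fun e => hyz (by
    have : z * y = z * z := by rw [e, hVs z hz]
    exact mul_left_cancel this)
  have f2 : z * y ≠ z := fun e => hy1 (by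
    have : z * y = z * 1 := by rw [e, mul_one]
    exact mul_left_cancel this)
  have f3 : z * y ≠ y := fun e => hz1 (by
    have : z * y = 1 * y := by rw [e, one_mul]
    exact mul_right_cancel this)
  have hcard : ({1, z, y, z * y, v} : Finset T).card = 5 := by
    rw [Finset.card_insert_of_notMem, Finset.card_insert_of_notMem, Finset.card_insert_of_notMem,
      Finset.card_insert_of_notMem, Finset.card_singleton]
    · simp only [Finset.mem_singleton]; exact h4.symm
    · simp only [Finset.mem_insert, Finset.mem_singleton, not_or]; exact ⟨f3.symm, h3.symm⟩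
    · simp only [Finset.mem_insert, Finset.mem_singleton, not_or]; exact ⟨hyz.symm, f2.symm, h2.symm⟩
    · simp only [Finset.mem_insert, Finset.mem_singleton, not_or]
      exact ⟨hz1.symm, hy1.symm, f1.symm, h1.symm⟩
  have := card_ge_of_finset V ({1, z, y, z * y, v} : Finset T) (by
    intro x hx
    simp only [Finset.mem_insert, Finset.mem_singleton] at hx
    rcases hx with rfl | rfl | rfl | rfl | rfl
    · exact V.one_mem
    · exact hz
    · exact hy
    · exact V.mul_mem hz hy
    · exact hv)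
  omega

lemma exists_other {V : Subgroup T} (hV : 3 ≤ Nat.card V) (z : T) : ∃ y ∈ V, y ≠ 1 ∧ y ≠ z := by
  classical
  by_contra hc
  push_neg at hc
  have := card_sub_le_finset V ({1, z} : Finset T) (by
    intro x hx
    by_cases h1 : x = 1
    · simp [h1]
    · simp [hc x hx h1])
  have h2 : ({1, z} : Finset T).card ≤ 2 := Finset.card_le_two
  omega

/-- Case 0: no normal elementary subgroup of order 4. -/
theorem case0 (hP : IsPGroup 2 T)
    (hB2 : ∀ A : Subgroup T, A.Normal → IsMulCommutative A → (∀ a ∈ A, a ^ 2 = 1) → Nat.card A ≤ 2)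
    {H M : Subgroup T} (hs : Sec H M) : Nat.card H ≤ 16 * Nat.card M := by
  classical
  by_cases hT : Nat.card T ≤ 16
  · exact trivial_bound H M hT
  push_neg at hT
  have htop : (⊤ : Subgroup T).Normal := inferInstance
  have hne : ¬ (⊤ : Subgroup T) ≤ ⊥ := by
    intro hle
    have := card_le_finset ({1} : Finset T) (fun x => by
      have := Subgroup.mem_bot.mp (hle (Subgroup.mem_top x))
      simp [this])
    simp at this
    omega
  obtain ⟨z, -, hz1, hzz, hzc⟩ := exists_central_mod hP ⊥ ⊤ htop hne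
  have hz1' : z ≠ 1 := fun e => hz1 (by rw [e]; exact one_mem _)
  have hzz' : z * z = 1 := Subgroup.mem_bot.mp hzz
  have hzc' : ∀ g : T, g⁻¹ * z * g = z := fun g =>
    (eq_of_inv_mul_eq_one (Subgroup.mem_bot.mp (hzc g))).symm
  have hzc2 : ∀ g : T, g * z = z * g := fun g => by
    have := hzc' g
    calc g * z = g * (g⁻¹ * z * g) := by rw [this]
      _ = z * g := by group
  let Z : Subgroup T :=
    { carrier := {w | w = 1 ∨ w = z}
      one_mem' := Or.inl rfl
      mul_mem' := by
        rintro a b (rfl | rfl) (rfl | rfl)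
        · left; simp
        · right; simp
        · right; simp
        · left; exact hzz'
      inv_mem' := by
        rintro a (rfl | rfl)
        · left; simp
        · right; exact inv_eq_of_mul_eq_one_left hzz' }
  have hZmem : ∀ w : T, w ∈ Z ↔ (w = 1 ∨ w = z) := fun w => Iff.rfl
  haveI hZn : Z.Normal := ⟨by
    rintro a (rfl | rfl) g
    · left; simp
    · right
      have := hzc' g⁻¹
      simpa using this⟩
  have hZcard2 : 2 ≤ Nat.card Z := by
    have h1 : ({1, z} : Finset T).card = 2 := Finset.card_pair hz1'.symm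
    have := card_ge_of_finset Z ({1, z} : Finset T) (by
      intro x hx
      simp only [Finset.mem_insert, Finset.mem_singleton] at hx
      exact hx)
    omega
  have hne2 : ¬ (⊤ : Subgroup T) ≤ Z := by
    intro hle
    have := card_le_finset ({1, z} : Finset T) (fun x => by
      have h5 : x = 1 ∨ x = z := hle (Subgroup.mem_top x)
      simpa using h5)
    have h2 : ({1, z} : Finset T).card ≤ 2 := Finset.card_le_two
    omega
  obtain ⟨x, -, hxZ, hxx, hxc⟩ := exists_central_mod hP Z ⊤ htop hne2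
  have hx1 : x * x ≠ 1 := by
    intro hxx1
    refine ext_card Z hZn ?_ ?_ x hxx1 ?_ ?_ hxZ ?_
    · rintro a (rfl | rfl) b (rfl | rfl) <;> simp
    · rintro a (rfl | rfl)
      · simp
      · exact hzz'
    · rintro v (rfl | rfl)
      · simp
      · exact (hzc2 x).symm
    · intro g
      exact ⟨_, hxc g, by group⟩
    · intro A h1 h2 h3
      exact (hB2 A h1 h2 h3).trans hZcard2
  have hxxz : x * x = z := by
    rcases hxx with e | e
    · exact absurd e hx1
    · exact e
  -- the cyclic subgroup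
  let W : Subgroup T := Subgroup.zpowers x
  have hxW : x ∈ W := Subgroup.mem_zpowers x
  have hzW : z ∈ W := by
    rw [← hxxz]; exact mul_mem hxW hxW
  have hconjx : ∀ g : T, ∃ v, (v = 1 ∨ v = z) ∧ g⁻¹ * x * g = x * v := fun g =>
    ⟨_, hxc g, by group⟩
  have hWn : W.Normal := ⟨by
    intro n hn g
    obtain ⟨k, rfl⟩ := Subgroup.mem_zpowers_iff.mp hn
    obtain ⟨v, hv, he⟩ := hconjx g⁻¹
    have h1 : g * x * g⁻¹ ∈ W := by
      have e : g * x * g⁻¹ = x * v := by simpa using he
      rw [e]
      rcases hv with rfl | rfl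
      · simpa using hxW
      · exact mul_mem hxW hzW
    have e2 : g * x ^ k * g⁻¹ = (g * x * g⁻¹) ^ k := by
      simpa using (conj_zpow (a := g) (b := x) (i := k)).symm
    rw [e2]
    exact zpow_mem h1 k⟩
  have hWc : ∀ a ∈ W, ∀ b ∈ W, a * b = b * a := by
    intro a ha b hb
    obtain ⟨m, rfl⟩ := Subgroup.mem_zpowers_iff.mp ha
    obtain ⟨n, rfl⟩ := Subgroup.mem_zpowers_iff.mp hb
    exact zpow_mul_comm x m n
  have hW4 : ∀ w ∈ W, (w * w) * (w * w) = 1 := by
    intro w hw
    obtain ⟨k, rfl⟩ := Subgroup.mem_zpowers_iff.mp hw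
    have c : Commute x x := Commute.refl x
    have e : x ^ k * x ^ k = z ^ k := by
      rw [← hxxz, c.mul_zpow]
    rw [e]
    have c2 : Commute z z := Commute.refl z
    rw [← c2.mul_zpow, hzz', one_zpow]
  set V := OmegaW W hWc with hVdef
  have hVn : V.Normal := OmegaW_normal W hWn hWc
  have hVc : IsMulCommutative V := ⟨⟨by
    rintro ⟨a, ha⟩ ⟨b, hb⟩
    exact Subtype.ext (hWc a ha.1 b hb.1)⟩⟩
  have hVcard : Nat.card V ≤ 2 := hB2 V hVn hVc (fun a ha => by
    rw [pow_two]; exact ha.2)
  have hzV : z ∈ V := ⟨hzW, hzz'⟩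
  have hVcard2 : 2 ≤ Nat.card V := by
    have h1 : ({1, z} : Finset T).card = 2 := Finset.card_pair hz1'.symm
    have := card_ge_of_finset V ({1, z} : Finset T) (by
      intro x hx
      simp only [Finset.mem_insert, Finset.mem_singleton] at hx
      rcases hx with rfl | rfl
      · exact V.one_mem
      · exact hzV)
    omega
  have hsqs : ∀ y : T, (y * y) * (y * y) = 1 → y * y ∈ W → ∃ w ∈ W, w * w = y * y := by
    intro y h4 hyW
    rcases two_of_card hVcard hzV (⟨hyW, h4⟩ : y * y ∈ V) hz1' with e | e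
    · exact ⟨1, one_mem _, by rw [e]; simp⟩
    · exact ⟨x, hxW, by rw [e, hxxz]⟩
  obtain ⟨-, hX⟩ := xsub_cent hP W hWn hWc hW4 (hVcard.trans (by norm_num)) (by
      intro A h1 h2 h3
      exact (hB2 A h1 h2 h3).trans hVcard2)
    (fun y _ h4 hyW hn => absurd (hsqs y h4 hyW) hn)
    (fun y _ h4 hyW hn => absurd (hsqs y h4 hyW) hn)
  have hcW : ∀ g : T, g ∈ Subgroup.centralizer (W : Set T) ↔
      (g * x * g⁻¹ = x ∧ g * 1 * g⁻¹ = 1) := by
    intro g
    rw [Subgroup.mem_centralizer_iff]
    constructor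
    · intro hg
      have := hg x hxW
      refine ⟨?_, by group⟩
      rw [← this]; group
    · rintro ⟨h1, -⟩ w hw
      obtain ⟨k, rfl⟩ := Subgroup.mem_zpowers_iff.mp hw
      have c : Commute g x := by
        show g * x = x * g
        calc g * x = g * x * g⁻¹ * g := by group
          _ = x * g := by rw [h1]
      exact (c.zpow_right k).symm.eq
  obtain ⟨hidx, -⟩ := index_pair (Subgroup.centralizer (W : Set T)) x 1 hcW
    ({x, x * z} : Finset T) ({1} : Finset T)
    (by
      intro g
      obtain ⟨v, hv, he⟩ := hconjx g⁻¹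
      have e : g * x * g⁻¹ = x * v := by simpa using he
      rw [e]
      rcases hv with rfl | rfl <;> simp)
    (by intro g; simp)
  have hC : ({x, x * z} : Finset T).card ≤ 2 := Finset.card_le_two
  have hidx2 : (Subgroup.centralizer (W : Set T)).index ≤ 2 := by
    simpa using hidx.trans (by simpa using hC)
  have hYn : (Subgroup.centralizer (W : Set T)).Normal := ⟨fun t ht g => by
    have := conj_mem_cent (W := W) hWn ht g⁻¹
    simpa using this⟩
  refine sec_bound hP hYn hX (by omega) le_rfl (fun y hy => mul_mem hy hy)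
    (fun y hy y' hy' => mul_mem (mul_mem (mul_mem hy hy') (inv_mem hy)) (inv_mem hy')) ?_ hs
  intro h; omega

end Cfsg.Agent.Lib.MacWCase
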