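import Mathlib
import Cfsg.Agent.Lib.MacWCase

set_option autoImplicit false

namespace Cfsg.Agent.Lib.MacWCase2

open Cfsg.Agent.Lib.MacWClass Cfsg.Agent.Lib.MacWSec Cfsg.Agent.Lib.MacWK
  Cfsg.Agent.Lib.MacWExt Cfsg.Agent.Lib.MacWLA Cfsg.Agent.Lib.MacWI1 Cfsg.Agent.Lib.MacWI2
  Cfsg.Agent.Lib.MacWCase

universe u

variable {T : Type u} [Group T] [Finite T]

/-- `V ∪ rV` as a subgroup. -/
def WR (V : Subgroup T) (r : T) (hrc : ∀ v ∈ V, v * r = r * v) (hrr : r * r ∈ V) : Subgroup T where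
  carrier := {w | w ∈ V ∨ ∃ v ∈ V, w = r * v}
  one_mem' := Or.inl V.one_mem
  mul_mem' := by
    rintro a b (ha | ⟨v, hv, rfl⟩) (hb | ⟨w, hw, rfl⟩)
    · exact Or.inl (V.mul_mem ha hb)
    · right
      refine ⟨a * w, V.mul_mem ha hw, ?_⟩
      rw [← mul_assoc, hrc a ha, mul_assoc]
    · right
      exact ⟨v * b, V.mul_mem hv hb, by group⟩
    · left
      have : r * v * (r * w) = (r * r) * (v * w) := by
        calc r * v * (r * w) = r * (v * r) * w := by group
          _ = r * (r * v) * w := by rw [hrc v hv]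
          _ = _ := by group
      rw [this]
      exact V.mul_mem hrr (V.mul_mem hv hw)
  inv_mem' := by
    rintro a (ha | ⟨v, hv, rfl⟩)
    · exact Or.inl (V.inv_mem ha)
    · right
      refine ⟨(r * r)⁻¹ * v⁻¹, V.mul_mem (V.inv_mem hrr) (V.inv_mem hv), ?_⟩
      have h1 : v⁻¹ * r⁻¹ = r⁻¹ * v⁻¹ := by
        rw [← mul_inv_rev, ← mul_inv_rev, hrc v hv]
      rw [mul_inv_rev, h1]; group

lemma conj_two {V : Subgroup T} (hVn : V.Normal) {z y : T}
    (hfour : ∀ v ∈ V, v = 1 ∨ v = z ∨ v = y ∨ v = z * y) (hy : y ∈ V)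
    (hzc : ∀ g : T, g⁻¹ * z * g = z) (hy1 : y ≠ 1) (hyz : y ≠ z) (g : T) :
    g * y * g⁻¹ = y ∨ g * y * g⁻¹ = z * y := by
  have h1 : g * y * g⁻¹ ∈ V := hVn.conj_mem y hy g
  rcases hfour _ h1 with e | e | e | e
  · exfalso
    apply hy1
    have : y = g⁻¹ * (g * y * g⁻¹) * g := by group
    rw [this, e]; group
  · exfalso
    apply hyz
    have : y = g⁻¹ * (g * y * g⁻¹) * g := by group
    rw [this, e, hzc g]
  · exact Or.inl e
  · exact Or.inr e

theorem case2 (hP : IsPGroup 2 T)
    (hE : ∀ A : Subgroup T, A.Normal → IsMulCommutative A → (∀ a ∈ A, a ^ 2 = 1) → Nat.card A ≤ 4)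
    (hnoZ : ∀ w₁ w₂ : T, Z44 w₁ w₂ → ¬ (WW w₁ w₂).Normal)
    (V : Subgroup T) (hVn : V.Normal) (hVc : ∀ a ∈ V, ∀ b ∈ V, a * b = b * a)
    (hVs : ∀ a ∈ V, a * a = 1) (hV4 : Nat.card V = 4)
    {H M : Subgroup T} (hs : Sec H M) : Nat.card H ≤ 16 * Nat.card M := by
  classical
  by_cases hT : Nat.card T ≤ 16
  · exact trivial_bound H M hT
  push_neg at hT
  haveI := hVn
  have hB : ∀ A : Subgroup T, A.Normal → IsMulCommutative A → (∀ a ∈ A, a ^ 2 = 1) →
      Nat.card A ≤ Nat.card V := by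
    intro A h1 h2 h3
    rw [hV4]
    exact hE A h1 h2 h3
  have hCn : (Subgroup.centralizer (V : Set T)).Normal := ⟨fun t ht g => by
    have := conj_mem_cent (W := V) hVn ht g⁻¹
    simpa using this⟩
  -- the centralizer of `V` is larger than `V`
  have hneC : ¬ Subgroup.centralizer (V : Set T) ≤ V := by
    intro hle
    have hne : ¬ V ≤ ⊥ := by
      intro h0
      have h1 : V = ⊥ := le_bot_iff.mp h0
      rw [h1] at hV4
      simp at hV4
    obtain ⟨z₀, hz₀V, hz₀1, -, hz₀c⟩ := exists_central_mod hP ⊥ V hVn hne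
    have hz₀1' : z₀ ≠ 1 := fun e => hz₀1 (by rw [e]; exact one_mem _)
    have hz₀c' : ∀ g : T, g⁻¹ * z₀ * g = z₀ := fun g =>
      (eq_of_inv_mul_eq_one (Subgroup.mem_bot.mp (hz₀c g))).symm
    obtain ⟨y₀, hy₀V, hy₀1, hy₀z⟩ := exists_other (V := V) (by omega) z₀
    have hfour := four_of_card hV4.le hVs hz₀V hy₀V hz₀1' hy₀1 hy₀z
    have hcW : ∀ g : T, g ∈ Subgroup.centralizer (V : Set T) ↔
        (g * y₀ * g⁻¹ = y₀ ∧ g * z₀ * g⁻¹ = z₀) := by
      intro g
      rw [Subgroup.mem_centralizer_iff]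
      constructor
      · intro hg
        constructor
        · rw [← hg y₀ hy₀V]; group
        · rw [← hg z₀ hz₀V]; group
      · rintro ⟨h1, h2⟩ v hv
        have c1 : y₀ * g = g * y₀ := by
          calc y₀ * g = (g * y₀ * g⁻¹) * g := by rw [h1]
            _ = g * y₀ := by group
        have c2 : z₀ * g = g * z₀ := by
          calc z₀ * g = (g * z₀ * g⁻¹) * g := by rw [h2]
            _ = g * z₀ := by group
        rcases hfour v hv with e | e | e | e
        · rw [e]; simp
        · rw [e]; exact c2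
        · rw [e]; exact c1
        · rw [e]
          calc z₀ * y₀ * g = z₀ * (y₀ * g) := by group
            _ = z₀ * (g * y₀) := by rw [c1]
            _ = (z₀ * g) * y₀ := by group
            _ = (g * z₀) * y₀ := by rw [c2]
            _ = g * (z₀ * y₀) := by group
    obtain ⟨hidx, -⟩ := index_pair (Subgroup.centralizer (V : Set T)) y₀ z₀ hcW
      ({y₀, z₀ * y₀} : Finset T) ({z₀} : Finset T)
      (by
        intro g
        rcases conj_two hVn hfour hy₀V hz₀c' hy₀1 hy₀z g with e | e <;> simp [e])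
      (by
        intro g
        have := hz₀c' g⁻¹
        simp only [inv_inv] at this
        simp [this])
    have h2 : ({y₀, z₀ * y₀} : Finset T).card ≤ 2 := Finset.card_le_two
    have hidx2 : (Subgroup.centralizer (V : Set T)).index ≤ 2 := by
      have e : ({y₀, z₀ * y₀} : Finset T).card * ({z₀} : Finset T).card =
          ({y₀, z₀ * y₀} : Finset T).card := by simp
      rw [e] at hidx
      omega
    have h3 := Subgroup.card_mul_index (Subgroup.centralizer (V : Set T))
    have h4 : Nat.card (Subgroup.centralizer (V : Set T)) ≤ Nat.card V :=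
      Subgroup.card_le_of_le hle
    have h5 : Nat.card T ≤ 4 * 2 := by
      rw [← h3]
      exact Nat.mul_le_mul (h4.trans hV4.le) hidx2
    omega
  obtain ⟨r, hrC, hrV, hzV, hrv⟩ := exists_central_mod hP V (Subgroup.centralizer (V : Set T)) hCn hneC
  have hrc : ∀ v ∈ V, v * r = r * v := fun v hv => Subgroup.mem_centralizer_iff.mp hrC v hv
  have hz1 : r * r ≠ 1 := by
    intro hrr
    exact ext_card V hVn hVc hVs r hrr hrc (fun g => ⟨_, hrv g, by group⟩) hrV hB
  set z := r * r with hzdef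
  have hzc : ∀ g : T, g⁻¹ * z * g = z := by
    intro g
    set v := r⁻¹ * (g⁻¹ * r * g) with hv
    have hvV : v ∈ V := hrv g
    have e : g⁻¹ * r * g = r * v := by rw [hv]; group
    calc g⁻¹ * z * g = (g⁻¹ * r * g) * (g⁻¹ * r * g) := by rw [hzdef]; group
      _ = r * v * (r * v) := by rw [e]
      _ = r * (v * r) * v := by group
      _ = r * (r * v) * v := by rw [hrc v hvV]
      _ = (r * r) * (v * v) := by group
      _ = z := by rw [hVs v hvV, mul_one]
  obtain ⟨y, hyV, hy1, hyz⟩ := exists_other (V := V) (by omega) z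
  have hfour := four_of_card hV4.le hVs hzV hyV hz1 hy1 hyz
  set W₀ := WR V r hrc hzV with hW₀
  have hrW : r ∈ W₀ := Or.inr ⟨1, V.one_mem, by simp⟩
  have hVW : V ≤ W₀ := fun v hv => Or.inl hv
  have hWn : W₀.Normal := ⟨by
    rintro a (ha | ⟨v, hv, rfl⟩) g
    · exact Or.inl (hVn.conj_mem a ha g)
    · right
      refine ⟨(r⁻¹ * (g⁻¹⁻¹ * r * g⁻¹)) * (g * v * g⁻¹), V.mul_mem (hrv g⁻¹) (hVn.conj_mem v hv g), ?_⟩
      group⟩
  have hWc : ∀ a ∈ W₀, ∀ b ∈ W₀, a * b = b * a := by
    rintro a (ha | ⟨v, hv, rfl⟩) b (hb | ⟨w, hw, rfl⟩)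
    · exact hVc a ha b hb
    · calc a * (r * w) = r * (a * w) := by rw [← mul_assoc, hrc a ha, mul_assoc]
        _ = r * (w * a) := by rw [hVc a ha w hw]
        _ = r * w * a := by group
    · calc r * v * b = r * (b * v) := by rw [mul_assoc, hVc v hv b hb]
        _ = b * (r * v) := by rw [← mul_assoc, ← hrc b hb, mul_assoc]
    · calc r * v * (r * w) = r * (v * r) * w := by group
        _ = r * (r * v) * w := by rw [hrc v hv]
        _ = r * r * (v * w) := by group
        _ = r * r * (w * v) := by rw [hVc v hv w hw]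
        _ = r * (r * w) * v := by group
        _ = r * (w * r) * v := by rw [hrc w hw]
        _ = r * w * (r * v) := by group
  have hsqrv : ∀ v ∈ V, (r * v) * (r * v) = z := by
    intro v hv
    calc (r * v) * (r * v) = r * (v * r) * v := by group
      _ = r * (r * v) * v := by rw [hrc v hv]
      _ = (r * r) * (v * v) := by group
      _ = z := by rw [hVs v hv, mul_one]
  have hW4 : ∀ w ∈ W₀, (w * w) * (w * w) = 1 := by
    rintro w (hw | ⟨v, hv, rfl⟩)
    · rw [hVs w hw, one_mul]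
    · rw [hsqrv v hv]; exact hVs z hzV
  have hOmMem : ∀ w : T, w ∈ OmegaW W₀ hWc ↔ w ∈ V := by
    intro w
    constructor
    · rintro ⟨hw | ⟨v, hv, rfl⟩, h2⟩
      · exact hw
      · exfalso
        rw [hsqrv v hv] at h2
        exact hz1 h2
    · intro hw
      exact ⟨hVW hw, hVs w hw⟩
  have hOm : OmegaW W₀ hWc = V := Subgroup.ext hOmMem
  have hextra : ∀ x : T, (x * x) * (x * x) = 1 → x * x ∈ W₀ → (¬ ∃ w ∈ W₀, w * w = x * x) →
      x * x ∈ V ∧ x * x ≠ 1 ∧ x * x ≠ z := by
    intro x h4 hx2W hn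
    exact ⟨(hOmMem _).mp ⟨hx2W, h4⟩, fun e => hn ⟨1, one_mem _, by rw [e]; simp⟩,
      fun e => hn ⟨r, hrW, e.symm⟩⟩
  obtain ⟨-, hX⟩ := xsub_cent hP W₀ hWn hWc hW4 (by rw [hOm, hV4]) (by rw [hOm]; exact hB)
    (by
      intro x hxC h4 hx2W hn hconj
      obtain ⟨hxV, hx1, hxz⟩ := hextra x h4 hx2W hn
      have hZ : Z44 r x := ⟨Subgroup.mem_centralizer_iff.mp hxC r hrW, hz1, hx1,
        fun e => hxz e.symm, hVs z hzV, h4⟩
      apply hnoZ r x hZ
      have hfour' := four_of_card hV4.le hVs hzV hxV hz1 hx1 hxz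
      have hr' : r ∈ WW r x := Subgroup.subset_closure (by simp)
      have hx' : x ∈ WW r x := Subgroup.subset_closure (by simp)
      have hVle : ∀ v ∈ V, v ∈ WW r x := by
        intro v hv
        rcases hfour' v hv with e | e | e | e
        · rw [e]; exact one_mem _
        · rw [e]; exact mul_mem hr' hr'
        · rw [e]; exact mul_mem hx' hx'
        · rw [e]; exact mul_mem (mul_mem hr' hr') (mul_mem hx' hx')
      show (Subgroup.closure ({r, x} : Set T)).Normal
      apply normal_closure_of_conj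
      intro g s hs
      rcases hs with hs | hs
      · rw [hs]
        have e : g⁻¹ * r * g = r * (r⁻¹ * (g⁻¹ * r * g)) := by group
        rw [e]
        exact mul_mem hr' (hVle _ (hrv g))
      · have hs' : s = x := hs
        rw [hs']
        have e : g⁻¹ * x * g = x * (x⁻¹ * (g⁻¹ * x * g)) := by group
        rw [e]
        refine mul_mem hx' ?_
        rcases hconj g with h5 | ⟨v, hv, h5⟩
        · exact hVle _ h5
        · rw [h5]
          exact mul_mem hr' (hVle v hv))
    (by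
      intro x hxC h4 hx2W hn g
      obtain ⟨hxV, hx1, hxz⟩ := hextra x h4 hx2W hn
      have hfour' := four_of_card hV4.le hVs hzV hxV hz1 hx1 hxz
      have hgV : g⁻¹ * (x * x) * g ∈ V := by
        have := hVn.conj_mem _ hxV g⁻¹
        simpa using this
      rcases hfour' _ hgV with e | e | e | e
      · exfalso
        apply hx1
        have e2 : x * x = g * (g⁻¹ * (x * x) * g) * g⁻¹ := by group
        rw [e2, e]; group
      · exfalso
        apply hxz
        have e2 : x * x = g * (g⁻¹ * (x * x) * g) * g⁻¹ := by group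
        rw [e2, e]
        have := hzc g⁻¹
        simpa using this
      · exact ⟨1, one_mem _, by rw [e]; simp⟩
      · exact ⟨r, hrW, by rw [e]; exact hVc _ hzV _ hxV⟩)
  -- the index of the centralizer of `W₀`
  have hcW : ∀ g : T, g ∈ Subgroup.centralizer (W₀ : Set T) ↔
      (g * r * g⁻¹ = r ∧ g * y * g⁻¹ = y) := by
    intro g
    rw [Subgroup.mem_centralizer_iff]
    constructor
    · intro hg
      constructor
      · rw [← hg r hrW]; group
      · rw [← hg y (hVW hyV)]; group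
    · rintro ⟨h1, h2⟩ w hw
      have c1 : r * g = g * r := by
        calc r * g = (g * r * g⁻¹) * g := by rw [h1]
          _ = g * r := by group
      have c2 : y * g = g * y := by
        calc y * g = (g * y * g⁻¹) * g := by rw [h2]
          _ = g * y := by group
      have c3 : z * g = g * z := by
        rw [hzdef]
        calc r * r * g = r * (r * g) := by group
          _ = r * (g * r) := by rw [c1]
          _ = (r * g) * r := by group
          _ = (g * r) * r := by rw [c1]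
          _ = g * (r * r) := by group
      have c4 : ∀ v ∈ V, v * g = g * v := by
        intro v hv
        rcases hfour v hv with e | e | e | e
        · rw [e]; simp
        · rw [e]; exact c3
        · rw [e]; exact c2
        · rw [e]
          calc z * y * g = z * (y * g) := by group
            _ = z * (g * y) := by rw [c2]
            _ = (z * g) * y := by group
            _ = (g * z) * y := by rw [c3]
            _ = g * (z * y) := by group
      rcases hw with hw | ⟨v, hv, rfl⟩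
      · exact c4 w hw
      · calc r * v * g = r * (v * g) := by group
          _ = r * (g * v) := by rw [c4 v hv]
          _ = (r * g) * v := by group
          _ = (g * r) * v := by rw [c1]
          _ = g * (r * v) := by group
  have hS : ∀ g : T, g * r * g⁻¹ ∈ ({r, r * z, r * y, r * (z * y)} : Finset T) := by
    intro g
    have h1 : r⁻¹ * (g⁻¹⁻¹ * r * g⁻¹) ∈ V := hrv g⁻¹
    have e : g * r * g⁻¹ = r * (r⁻¹ * (g⁻¹⁻¹ * r * g⁻¹)) := by group
    rw [e]
    rcases hfour _ h1 with e2 | e2 | e2 | e2 <;> rw [e2] <;> simp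
  have hS2 : ∀ g : T, g * y * g⁻¹ ∈ ({y, z * y} : Finset T) := by
    intro g
    rcases conj_two hVn hfour hyV hzc hy1 hyz g with e | e <;> simp [e]
  obtain ⟨hidx, hsurj⟩ := index_pair (Subgroup.centralizer (W₀ : Set T)) r y hcW
    ({r, r * z, r * y, r * (z * y)} : Finset T) ({y, z * y} : Finset T) hS hS2
  have hc1 : ({r, r * z, r * y, r * (z * y)} : Finset T).card ≤ 4 := Finset.card_le_four
  have hc2 : ({y, z * y} : Finset T).card ≤ 2 := Finset.card_le_two
  have hcc : ({r, r * z, r * y, r * (z * y)} : Finset T).card * ({y, z * y} : Finset T).card ≤ 8 :=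
    Nat.mul_le_mul hc1 hc2
  have hYn : (Subgroup.centralizer (W₀ : Set T)).Normal := ⟨fun t ht g => by
    have := conj_mem_cent (W := W₀) hWn ht g⁻¹
    simpa using this⟩
  refine sec_bound hP hYn hX (hidx.trans hcc) le_rfl (fun y hy => mul_mem hy hy)
    (fun y hy y' hy' => mul_mem (mul_mem (mul_mem hy hy') (inv_mem hy)) (inv_mem hy')) ?_ hs
  intro hgt H' M' hsec hsup _
  haveI := hYn
  have hie : 8 ≤ (Subgroup.centralizer (W₀ : Set T)).index := by
    obtain ⟨n, hn⟩ := IsPGroup.iff_card.mp hP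
    have hdvd : (Subgroup.centralizer (W₀ : Set T)).index ∣ 2 ^ n := by
      rw [← hn]; exact Subgroup.index_dvd_card _
    obtain ⟨j, -, hj⟩ := (Nat.dvd_prime_pow Nat.prime_two).mp hdvd
    rw [hj] at hgt ⊢
    have hj3 : 3 ≤ j := by
      by_contra hlt
      have : j ≤ 2 := by omega
      have h2 : 2 ^ j ≤ 2 ^ 2 := Nat.pow_le_pow_right (by norm_num) this
      omega
    have h2 : 2 ^ 3 ≤ 2 ^ j := Nat.pow_le_pow_right (by norm_num) hj3
    simpa using h2
  have hsu := hsurj (hcc.trans hie)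
  obtain ⟨g₁, h1r, h1y⟩ := hsu (r * y) (by simp) y (by simp)
  obtain ⟨g₂, h2r, h2y⟩ := hsu r (by simp) (z * y) (by simp)
  have hmem : ∀ x : T, ∃ a ∈ H', ∃ b ∈ Subgroup.centralizer (W₀ : Set T), a * b = x := by
    intro x
    have hx : x ∈ ((H' ⊔ Subgroup.centralizer (W₀ : Set T) : Subgroup T) : Set T) := by
      rw [hsup]; trivial
    rw [Subgroup.mul_normal] at hx
    obtain ⟨a, ha, b, hb, e⟩ := Set.mem_mul.mp hx
    exact ⟨a, ha, b, hb, e⟩
  obtain ⟨A, hA, c₁, hc₁, e₁⟩ := hmem g₁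
  obtain ⟨B, hB', c₂, hc₂, e₂⟩ := hmem g₂
  have hfix : ∀ (a c u : T), c ∈ Subgroup.centralizer (W₀ : Set T) → c * u * c⁻¹ = u →
      (a * c) * u * (a * c)⁻¹ = a * u * a⁻¹ := by
    intro a c u _ hu
    calc (a * c) * u * (a * c)⁻¹ = a * (c * u * c⁻¹) * a⁻¹ := by group
      _ = a * u * a⁻¹ := by rw [hu]
  have hc₁' := (hcW c₁).mp hc₁
  have hc₂' := (hcW c₂).mp hc₂
  have A1 : A * r * A⁻¹ = r * y := by
    rw [← h1r, ← e₁]; exact (hfix A c₁ r hc₁ hc₁'.1).symm
  have A2 : A * y * A⁻¹ = y := by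
    rw [← hfix A c₁ y hc₁ hc₁'.2, e₁]; exact h1y
  have B1 : B * r * B⁻¹ = r := by
    rw [← hfix B c₂ r hc₂ hc₂'.1, e₂]; exact h2r
  have B2 : B * y * B⁻¹ = z * y := by
    rw [← hfix B c₂ y hc₂ hc₂'.2, e₂]; exact h2y
  have hzA : A * z * A⁻¹ = z := by
    have := hzc A⁻¹
    simpa using this
  have hyy := hVs y hyV
  refine ⟨A * B * A⁻¹ * B⁻¹, hsec.comm A hA B hB', ?_⟩
  intro hmC
  obtain ⟨hm, -⟩ := (hcW _).mp hmC
  have Binv : B⁻¹ * r * B = r := by
    have e : B⁻¹ * r * B = B⁻¹ * (B * r * B⁻¹) * B := by rw [B1]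
    rw [e]; group
  have Ainv : A⁻¹ * r * A = r * y := by
    have e : A * (r * y) * A⁻¹ = r := by
      calc A * (r * y) * A⁻¹ = (A * r * A⁻¹) * (A * y * A⁻¹) := by group
        _ = r * y * y := by rw [A1, A2]
        _ = r * (y * y) := by group
        _ = r := by rw [hyy, mul_one]
    have e2 : A⁻¹ * r * A = A⁻¹ * (A * (r * y) * A⁻¹) * A := by rw [e]
    rw [e2]; group
  have hcomp : (A * B * A⁻¹ * B⁻¹) * r * (A * B * A⁻¹ * B⁻¹)⁻¹ = r * z := by
    calc (A * B * A⁻¹ * B⁻¹) * r * (A * B * A⁻¹ * B⁻¹)⁻¹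
        = A * (B * (A⁻¹ * (B⁻¹ * r * B) * A) * B⁻¹) * A⁻¹ := by group
      _ = A * (B * (r * y) * B⁻¹) * A⁻¹ := by rw [Binv, Ainv]
      _ = A * ((B * r * B⁻¹) * (B * y * B⁻¹)) * A⁻¹ := by group
      _ = A * (r * (z * y)) * A⁻¹ := by rw [B1, B2]
      _ = (A * r * A⁻¹) * (A * z * A⁻¹) * (A * y * A⁻¹) := by group
      _ = r * y * z * y := by rw [A1, A2, hzA]
      _ = r * (y * z) * y := by group
      _ = r * (z * y) * y := by rw [hVc y hyV z hzV]
      _ = r * z * (y * y) := by group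
      _ = r * z := by rw [hyy, mul_one]
  rw [hcomp] at hm
  apply hz1
  have : r * z = r * 1 := by rw [hm, mul_one]
  exact mul_left_cancel this

end Cfsg.Agent.Lib.MacWCase2
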