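import Mathlib
import Cfsg.Agent.Lib.MacWCase2

set_option autoImplicit false

namespace Cfsg.Agent.Lib.MacWMain

open Cfsg.Agent.Lib.MacWClass Cfsg.Agent.Lib.MacWSec Cfsg.Agent.Lib.MacWK
  Cfsg.Agent.Lib.MacWExt Cfsg.Agent.Lib.MacWLA Cfsg.Agent.Lib.MacWI1 Cfsg.Agent.Lib.MacWI2
  Cfsg.Agent.Lib.MacWCase Cfsg.Agent.Lib.MacWCase2

universe u

variable {T : Type u} [Group T] [Finite T]

theorem main_bound (hP : IsPGroup 2 T)
    (hE : ∀ A : Subgroup T, A.Normal → IsMulCommutative A → (∀ a ∈ A, a ^ 2 = 1) → Nat.card A ≤ 4)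
    {H M : Subgroup T} (hs : Sec H M) : Nat.card H ≤ 16 * Nat.card M := by
  by_cases h1 : ∃ w₁ w₂ : T, Z44 w₁ w₂ ∧ (WW w₁ w₂).Normal
  · obtain ⟨w₁, w₂, hz, hn⟩ := h1
    exact caseI_entry hP hE hz hn hs
  have hnoZ : ∀ w₁ w₂ : T, Z44 w₁ w₂ → ¬ (WW w₁ w₂).Normal := fun w₁ w₂ hz hn => h1 ⟨w₁, w₂, hz, hn⟩
  by_cases h2 : ∃ A : Subgroup T, A.Normal ∧ IsMulCommutative A ∧ (∀ a ∈ A, a ^ 2 = 1) ∧
      Nat.card A = 4
  · obtain ⟨A, hn, hc, hs2, h4⟩ := h2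
    refine case2 hP hE hnoZ A hn ?_ ?_ h4 hs
    · intro a ha b hb
      have := hc.is_comm.comm ⟨a, ha⟩ ⟨b, hb⟩
      exact congrArg Subtype.val this
    · intro a ha
      have := hs2 a ha
      rwa [pow_two] at this
  · refine case0 hP ?_ hs
    intro A hn hc hs2
    have h3 := hE A hn hc hs2
    have h4 : Nat.card A ≠ 4 := fun e => h2 ⟨A, hn, hc, hs2, e⟩
    obtain ⟨k, hk⟩ := IsPGroup.iff_card.mp (hP.to_subgroup A)
    have h5 : Nat.card A ≠ 3 := by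
      intro e
      rw [e] at hk
      have : (3 : ℕ) ∣ 2 ^ k := by rw [← hk]
      have := Nat.Prime.dvd_of_dvd_pow Nat.prime_three this
      omega
    omega

end Cfsg.Agent.Lib.MacWMain
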