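import Mathlib
import Cfsg.Prelude.Def_AxialAlgebras

/-!
Basic API for Majorana pairs (`Cfsg.Axial.IsMajoranaPair`): eigenspaces, fusion rules, the decomposition of
a vector into eigencomponents, orthogonality, transport along automorphisms.
-/

set_option autoImplicit false

namespace Cfsg.Agent.Lib.Majorana

open Cfsg.Axial

variable {V : Type*} [AddCommGroup V] [Module ℝ V]
variable {mul : V →ₗ[ℝ] V →ₗ[ℝ] V} {B : LinearMap.BilinForm ℝ V}

theorem mem_eigen {a u : V} {c : ℝ} : u ∈ eigen mul a c ↔ mul a u = c • u := by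
  unfold eigen
  rw [Module.End.mem_eigenspace_iff]

theorem eigenSum_singleton (a : V) (c : ℝ) : eigenSum mul a {c} = eigen mul a c := by
  unfold eigenSum
  simp

theorem eigenSum_pair (a : V) (c d : ℝ) :
    eigenSum mul a {c, d} = eigen mul a c ⊔ eigen mul a d := by
  unfold eigenSum
  rw [iSup_insert, iSup_singleton]

theorem eigenSum_three (a : V) (c d e : ℝ) :
    eigenSum mul a {c, d, e} = eigen mul a c ⊔ (eigen mul a d ⊔ eigen mul a e) := by
  unfold eigenSum
  rw [iSup_insert, iSup_insert, iSup_singleton]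

theorem eigenSum_four (a : V) (c d e f : ℝ) :
    eigenSum mul a {c, d, e, f} = eigen mul a c ⊔ (eigen mul a d ⊔ (eigen mul a e ⊔ eigen mul a f)) := by
  unfold eigenSum
  rw [iSup_insert, iSup_insert, iSup_insert, iSup_singleton]

/-! ### The fusion law -/

theorem quarter_ne_t : (1 / 4 : ℝ) ≠ 1 / 32 := by norm_num

theorem law_qq : monsterLaw (1 / 4 : ℝ) (1 / 32) (1 / 4) (1 / 4) = {1, 0} := by
  unfold monsterLaw
  rw [if_neg (by norm_num), if_neg (by norm_num), if_pos (by norm_num)]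

theorem law_0q : monsterLaw (1 / 4 : ℝ) (1 / 32) 0 (1 / 4) = {1 / 4} := by
  unfold monsterLaw
  rw [if_neg (by norm_num), if_neg (by norm_num), if_neg (by norm_num), if_pos (by norm_num)]

theorem law_q0 : monsterLaw (1 / 4 : ℝ) (1 / 32) (1 / 4) 0 = {1 / 4} := by
  unfold monsterLaw
  rw [if_neg (by norm_num), if_neg (by norm_num), if_neg (by norm_num), if_pos (by norm_num)]

theorem law_00 : monsterLaw (1 / 4 : ℝ) (1 / 32) 0 0 = {0} := by
  unfold monsterLaw
  rw [if_neg (by norm_num), if_neg (by norm_num), if_neg (by norm_num), if_neg (by norm_num),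
    if_pos rfl]

theorem law_tt : monsterLaw (1 / 4 : ℝ) (1 / 32) (1 / 32) (1 / 32) = {1, 0, 1 / 4} := by
  unfold monsterLaw
  rw [if_pos (by norm_num)]

theorem law_0t : monsterLaw (1 / 4 : ℝ) (1 / 32) 0 (1 / 32) = {1 / 32} := by
  unfold monsterLaw
  rw [if_neg (by norm_num), if_pos (by norm_num)]

theorem law_t0 : monsterLaw (1 / 4 : ℝ) (1 / 32) (1 / 32) 0 = {1 / 32} := by
  unfold monsterLaw
  rw [if_neg (by norm_num), if_pos (by norm_num)]

theorem law_qt : monsterLaw (1 / 4 : ℝ) (1 / 32) (1 / 4) (1 / 32) = {1 / 32} := by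
  unfold monsterLaw
  rw [if_neg (by norm_num), if_pos (by norm_num)]

theorem law_tq : monsterLaw (1 / 4 : ℝ) (1 / 32) (1 / 32) (1 / 4) = {1 / 32} := by
  unfold monsterLaw
  rw [if_neg (by norm_num), if_pos (by norm_num)]

/-! ### Structure of a primitive axis -/

/-- A bundling of what we use from a Majorana pair. -/
structure Axis (mul : V →ₗ[ℝ] V →ₗ[ℝ] V) (a : V) : Prop where
  ne_zero : a ≠ 0
  idem : mul a a = a
  top : eigen mul a 1 ⊔ (eigen mul a 0 ⊔ (eigen mul a (1 / 4) ⊔ eigen mul a (1 / 32))) = ⊤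
  line : eigen mul a 1 = Submodule.span ℝ {a}
  qq : ∀ u ∈ eigen mul a (1 / 4), ∀ v ∈ eigen mul a (1 / 4), mul u v ∈ eigen mul a 1 ⊔ eigen mul a 0
  zq : ∀ u ∈ eigen mul a 0, ∀ v ∈ eigen mul a (1 / 4), mul u v ∈ eigen mul a (1 / 4)
  zz : ∀ u ∈ eigen mul a 0, ∀ v ∈ eigen mul a 0, mul u v ∈ eigen mul a 0
  tt : ∀ u ∈ eigen mul a (1 / 32), ∀ v ∈ eigen mul a (1 / 32),
    mul u v ∈ eigen mul a 1 ⊔ (eigen mul a 0 ⊔ eigen mul a (1 / 4))
  zt : ∀ u ∈ eigen mul a 0, ∀ v ∈ eigen mul a (1 / 32), mul u v ∈ eigen mul a (1 / 32)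
  qt : ∀ u ∈ eigen mul a (1 / 4), ∀ v ∈ eigen mul a (1 / 32), mul u v ∈ eigen mul a (1 / 32)

theorem axis_of_pair {μ : V ≃ₗ[ℝ] V} {a : V} (h : IsMajoranaPair mul B μ a) : Axis mul a := by
  obtain ⟨-, -, ⟨⟨h0, hid, htop, hf⟩, hline⟩, -⟩ := h
  have hS1 : (1 : ℝ) ∈ majoranaSpectrum := by simp [majoranaSpectrum]
  have hS0 : (0 : ℝ) ∈ majoranaSpectrum := by simp [majoranaSpectrum]
  have hSq : (1 / 4 : ℝ) ∈ majoranaSpectrum := by simp [majoranaSpectrum]
  have hSt : (1 / 32 : ℝ) ∈ majoranaSpectrum := by simp [majoranaSpectrum]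
  refine ⟨h0, hid, ?_, hline, ?_, ?_, ?_, ?_, ?_, ?_⟩
  · rw [← eigenSum_four]; exact htop
  · intro u hu v hv
    have := hf _ hSq _ hSq u hu v hv
    rwa [law_qq, eigenSum_pair] at this
  · intro u hu v hv
    have := hf _ hS0 _ hSq u hu v hv
    rwa [law_0q, eigenSum_singleton] at this
  · intro u hu v hv
    have := hf _ hS0 _ hS0 u hu v hv
    rwa [law_00, eigenSum_singleton] at this
  · intro u hu v hv
    have := hf _ hSt _ hSt u hu v hv
    rwa [law_tt, eigenSum_three] at this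
  · intro u hu v hv
    have := hf _ hS0 _ hSt u hu v hv
    rwa [law_0t, eigenSum_singleton] at this
  · intro u hu v hv
    have := hf _ hSq _ hSt u hu v hv
    rwa [law_qt, eigenSum_singleton] at this

/-- The four-term decomposition. -/
theorem Axis.decomp {a : V} (h : Axis mul a) (x : V) :
    ∃ (c : ℝ) (u v w : V), x = c • a + u + v + w ∧ u ∈ eigen mul a 0 ∧ v ∈ eigen mul a (1 / 4) ∧
      w ∈ eigen mul a (1 / 32) := by
  have hx : x ∈ (⊤ : Submodule ℝ V) := Submodule.mem_top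
  rw [← h.top] at hx
  obtain ⟨y1, hy1, y2, hy2, rfl⟩ := Submodule.mem_sup.mp hx
  obtain ⟨u, hu, y3, hy3, rfl⟩ := Submodule.mem_sup.mp hy2
  obtain ⟨v, hv, w, hw, rfl⟩ := Submodule.mem_sup.mp hy3
  rw [h.line] at hy1
  obtain ⟨c, rfl⟩ := Submodule.mem_span_singleton.mp hy1
  exact ⟨c, u, v, w, by abel, hu, hv, hw⟩

/-- Independence of eigenspaces for four distinct eigenvalues, in the form of uniqueness of components. -/
theorem comp_unique {a x1 x0 xq xt y1 y0 yq yt : V}
    (hx1 : x1 ∈ eigen mul a 1) (hx0 : x0 ∈ eigen mul a 0) (hxq : xq ∈ eigen mul a (1 / 4))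
    (hxt : xt ∈ eigen mul a (1 / 32))
    (hy1 : y1 ∈ eigen mul a 1) (hy0 : y0 ∈ eigen mul a 0) (hyq : yq ∈ eigen mul a (1 / 4))
    (hyt : yt ∈ eigen mul a (1 / 32))
    (h : x1 + x0 + xq + xt = y1 + y0 + yq + yt) :
    x1 = y1 ∧ x0 = y0 ∧ xq = yq ∧ xt = yt := by
  have hx1' := mem_eigen.mp hx1
  have hx0' := mem_eigen.mp hx0
  have hxq' := mem_eigen.mp hxq
  have hxt' := mem_eigen.mp hxt
  have hy1' := mem_eigen.mp hy1
  have hy0' := mem_eigen.mp hy0
  have hyq' := mem_eigen.mp hyq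
  have hyt' := mem_eigen.mp hyt
  -- put differences
  set d1 := x1 - y1 with hd1
  set d0 := x0 - y0 with hd0
  set dq := xq - yq with hdq
  set dt := xt - yt with hdt
  have h0 : d1 + d0 + dq + dt = 0 := by
    rw [hd1, hd0, hdq, hdt]
    have : x1 - y1 + (x0 - y0) + (xq - yq) + (xt - yt) = (x1 + x0 + xq + xt) - (y1 + y0 + yq + yt) := by
      abel
    rw [this, h, sub_self]
  have e1 : mul a d1 = d1 := by
    rw [hd1, map_sub, hx1', hy1', one_smul, one_smul]
  have e0 : mul a d0 = 0 := by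
    rw [hd0, map_sub, hx0', hy0', zero_smul, zero_smul, sub_zero]
  have eq : mul a dq = (1 / 4 : ℝ) • dq := by
    rw [hdq, map_sub, hxq', hyq', smul_sub]
  have et : mul a dt = (1 / 32 : ℝ) • dt := by
    rw [hdt, map_sub, hxt', hyt', smul_sub]
  -- apply mul a repeatedly
  have s1 : d1 + (1 / 4 : ℝ) • dq + (1 / 32 : ℝ) • dt = 0 := by
    have := congrArg (mul a) h0
    simpa [map_add, e1, e0, eq, et] using this
  have s2 : d1 + (1 / 16 : ℝ) • dq + (1 / 1024 : ℝ) • dt = 0 := by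
    have := congrArg (mul a) s1
    simp only [map_add, map_smul, e1, eq, et, map_zero, smul_smul] at this
    convert this using 3 <;> norm_num
  have s3 : d1 + (1 / 64 : ℝ) • dq + (1 / 32768 : ℝ) • dt = 0 := by
    have := congrArg (mul a) s2
    simp only [map_add, map_smul, e1, eq, et, map_zero, smul_smul] at this
    convert this using 3 <;> norm_num
  -- eliminate
  have hdt0 : dt = 0 := by
    linear_combination (norm := module) (8192 / 217 : ℝ) • s1 + (-40960 / 217 : ℝ) • s2 + (32768 / 217 : ℝ) • s3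
  have hdq0 : dq = 0 := by
    linear_combination (norm := module) (-16 / 21 : ℝ) • s1 + (176 / 7 : ℝ) • s2 + (-512 / 21 : ℝ) • s3
  have hd10 : d1 = 0 := by
    linear_combination (norm := module) (1 / 93 : ℝ) • s1 + (-12 / 31 : ℝ) • s2 + (128 / 93 : ℝ) • s3
  have hd00 : d0 = 0 := by
    rw [hdt0, hdq0, hd10] at h0
    simpa using h0
  exact ⟨sub_eq_zero.mp hd10, sub_eq_zero.mp hd00, sub_eq_zero.mp hdq0, sub_eq_zero.mp hdt0⟩

theorem zero_mem_eigen (a : V) (c : ℝ) : (0 : V) ∈ eigen mul a c := Submodule.zero_mem _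

/-- A `1/4`-eigenvector in the sum of the `1`- and `0`-eigenspaces vanishes. -/
theorem quarter_of_sup {a v : V} (hv : v ∈ eigen mul a (1 / 4))
    (h : v ∈ eigen mul a 1 ⊔ eigen mul a 0) : v = 0 := by
  obtain ⟨y1, hy1, y0, hy0, rfl⟩ := Submodule.mem_sup.mp h
  have := comp_unique (a := a) (x1 := y1) (x0 := y0) (xq := 0) (xt := 0) (y1 := 0) (y0 := 0)
    (yq := y1 + y0) (yt := 0) hy1 hy0 (zero_mem_eigen _ _) (zero_mem_eigen _ _)
    (zero_mem_eigen _ _) (zero_mem_eigen _ _) hv (zero_mem_eigen _ _) (by simp)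
  exact this.2.2.1.symm

/-! ### Transport along automorphisms -/

section Transport

variable {g : V ≃ₗ[ℝ] V}

theorem eigen_map (hg : ∀ u v : V, g (mul u v) = mul (g u) (g v)) (a : V) (c : ℝ) :
    eigen mul (g a) c = (eigen mul a c).map (g : V →ₗ[ℝ] V) := by
  ext x
  rw [Submodule.mem_map]
  constructor
  · intro hx
    refine ⟨g.symm x, ?_, by simp⟩
    rw [mem_eigen] at hx ⊢
    apply g.injective
    rw [hg, LinearEquiv.apply_symm_apply, map_smul, LinearEquiv.apply_symm_apply, hx]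
  · rintro ⟨y, hy, rfl⟩
    rw [mem_eigen] at hy ⊢
    show mul (g a) (g y) = c • g y
    rw [← hg, hy, map_smul]

theorem eigenSum_map (hg : ∀ u v : V, g (mul u v) = mul (g u) (g v)) (a : V) (S : Set ℝ) :
    eigenSum mul (g a) S = (eigenSum mul a S).map (g : V →ₗ[ℝ] V) := by
  unfold eigenSum
  simp only [Submodule.map_iSup, eigen_map hg]

/-- Transport of a Majorana pair along an automorphism. -/
theorem pair_conj {μ : V ≃ₗ[ℝ] V} {a : V} (hg : ∀ u v : V, g (mul u v) = mul (g u) (g v))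
    (hgB : ∀ u v : V, B (g u) (g v) = B u v) (h : IsMajoranaPair mul B μ a) :
    IsMajoranaPair mul B (g * μ * g⁻¹) (g a) := by
  obtain ⟨h1, h2, ⟨⟨h0, hid, htop, hf⟩, hline⟩, hm1, hm2⟩ := h
  have hginv : ∀ x, g⁻¹ x = g.symm x := fun _ => rfl
  have hsymm : ∀ u v : V, g.symm (mul u v) = mul (g.symm u) (g.symm v) := by
    intro u v
    apply g.injective
    rw [hg]
    simp
  have hconj : ∀ x, (g * μ * g⁻¹) x = g (μ (g.symm x)) := fun _ => rfl
  refine ⟨?_, ?_, ⟨⟨?_, ?_, ?_, ?_⟩, ?_⟩, ?_, ?_⟩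
  · intro u v
    simp only [hconj]
    rw [hsymm, h1, hg]
  · intro u v
    simp only [hconj]
    rw [hgB, h2, ← hgB]
    simp
  · intro h'
    apply h0
    apply g.injective
    simpa using h'
  · rw [← hg, hid]
  · rw [eigenSum_map hg, htop, Submodule.map_top]
    exact LinearMap.range_eq_top.mpr g.surjective
  · intro c hc d hd u hu v hv
    rw [eigen_map hg] at hu hv
    obtain ⟨u', hu', rfl⟩ := Submodule.mem_map.mp hu
    obtain ⟨v', hv', rfl⟩ := Submodule.mem_map.mp hv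
    rw [eigenSum_map hg]
    refine Submodule.mem_map.mpr ⟨mul u' v', hf c hc d hd u' hu' v' hv', ?_⟩
    exact hg u' v'
  · rw [eigen_map hg, hline, Submodule.map_span, Set.image_singleton]
    rfl
  · intro v hv
    rw [eigenSum_map hg] at hv
    obtain ⟨v', hv', rfl⟩ := Submodule.mem_map.mp hv
    show (g * μ * g⁻¹) (g v') = g v'
    rw [hconj]
    have := hm1 v' hv'
    simp only [LinearEquiv.coe_coe] at this ⊢
    rw [LinearEquiv.symm_apply_apply, this]
  · intro v hv
    rw [eigen_map hg] at hv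
    obtain ⟨v', hv', rfl⟩ := Submodule.mem_map.mp hv
    show (g * μ * g⁻¹) (g v') = - g v'
    rw [hconj]
    have := hm2 v' hv'
    simp only [LinearEquiv.coe_coe] at this ⊢
    rw [LinearEquiv.symm_apply_apply, this, map_neg]

end Transport

/-! ### Elements fixed by a Miyamoto involution -/

/-- A vector fixed by the Miyamoto involution of `a` has no `1/32`-component. -/
theorem decomp_fixed {μ : V ≃ₗ[ℝ] V} {a b : V} (h : IsMajoranaPair mul B μ a) (hfix : μ b = b) :
    ∃ (c : ℝ) (u v : V), b = c • a + u + v ∧ u ∈ eigen mul a 0 ∧ v ∈ eigen mul a (1 / 4) := by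
  have hax := axis_of_pair h
  obtain ⟨c, u, v, w, hb, hu, hv, hw⟩ := hax.decomp b
  obtain ⟨-, -, -, hm1, hm2⟩ := h
  have hplus : c • a + u + v ∈ eigenSum mul a {1, 0, 1 / 4} := by
    rw [eigenSum_three]
    have ha1 : c • a ∈ eigen mul a 1 := by
      rw [hax.line]; exact Submodule.smul_mem _ _ (Submodule.mem_span_singleton_self a)
    refine Submodule.mem_sup.mpr ⟨c • a, ha1, u + v, ?_, by abel⟩
    exact Submodule.add_mem_sup hu hv
  have e1 : μ (c • a + u + v) = c • a + u + v := hm1 _ hplus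
  have e2 : μ w = - w := hm2 _ hw
  have e3 : μ b = (c • a + u + v) - w := by
    rw [hb, map_add, e1, e2, sub_eq_add_neg]
  rw [hfix] at e3
  have hw0 : w = 0 := by
    have : (2 : ℝ) • w = 0 := by
      have e4 : c • a + u + v + w = c • a + u + v - w := by rw [← hb]; exact e3
      linear_combination (norm := module) e4
    exact (smul_eq_zero.mp this).resolve_left (by norm_num)
  refine ⟨c, u, v, ?_, hu, hv⟩
  rw [hb, hw0, add_zero]

/-- Eigenvectors for different eigenvalues are orthogonal. -/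
theorem orth_of_ne (hcomm : IsCommMul mul) (hassoc : ∀ u v w : V, B u (mul v w) = B (mul u v) w)
    {a x y : V} {c d : ℝ} (hx : x ∈ eigen mul a c) (hy : y ∈ eigen mul a d) (hcd : c ≠ d) :
    B x y = 0 := by
  rw [mem_eigen] at hx hy
  have h := hassoc x a y
  rw [hy, hcomm x a, hx] at h
  simp only [map_smul, LinearMap.smul_apply, smul_eq_mul] at h
  have : (c - d) * B x y = 0 := by linarith
  exact (mul_eq_zero.mp this).resolve_left (sub_ne_zero.mpr hcd)

section OneSided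

variable {a b u v : V} {c : ℝ}

theorem mul_a_b (ha : Axis mul a) (hb : b = c • a + u + v) (hu : u ∈ eigen mul a 0)
    (hv : v ∈ eigen mul a (1 / 4)) : mul a b = c • a + (1 / 4 : ℝ) • v := by
  rw [hb, map_add, map_add, map_smul, ha.idem, mem_eigen.mp hu, mem_eigen.mp hv]
  simp

theorem B_a_b (hcomm : IsCommMul mul) (hassoc : ∀ u v w : V, B u (mul v w) = B (mul u v) w)
    (ha : Axis mul a) (hn : B a a = 1) (hb : b = c • a + u + v) (hu : u ∈ eigen mul a 0)
    (hv : v ∈ eigen mul a (1 / 4)) : B a b = c := by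
  have ha1 : a ∈ eigen mul a 1 := by rw [mem_eigen, ha.idem, one_smul]
  have e1 : B a u = 0 := orth_of_ne hcomm hassoc ha1 hu (by norm_num)
  have e2 : B a v = 0 := orth_of_ne hcomm hassoc ha1 hv (by norm_num)
  rw [hb, map_add, map_add, map_smul, e1, e2, hn]
  simp

/-- The expansion of `b * b` with `b = c a + u + v`. -/
theorem expand_sq (hcomm : IsCommMul mul) (ha : Axis mul a) (hb : b = c • a + u + v)
    (hu : u ∈ eigen mul a 0) (hv : v ∈ eigen mul a (1 / 4)) :
    mul b b = (c ^ 2) • a + (c / 2) • v + mul u u + (2 : ℝ) • mul u v + mul v v := by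
  have h1 := mem_eigen.mp hu
  have h2 := mem_eigen.mp hv
  have h3 : mul u a = 0 := by rw [hcomm, h1, zero_smul]
  have h4 : mul v a = (1 / 4 : ℝ) • v := by rw [hcomm, h2]
  have h5 : mul v u = mul u v := hcomm v u
  rw [hb]
  simp only [map_add, map_smul, LinearMap.add_apply, LinearMap.smul_apply, ha.idem, h1, h2, h3, h4,
    h5, smul_zero, zero_smul, add_zero, zero_add]
  module

/-- `u * v` from idempotence of `b`. -/
theorem mul_u_v (hcomm : IsCommMul mul) (ha : Axis mul a) (hbb : mul b b = b) (hb : b = c • a + u + v)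
    (hu : u ∈ eigen mul a 0) (hv : v ∈ eigen mul a (1 / 4)) :
    mul u v = (1 / 2 - c / 4 : ℝ) • v := by
  have hexp := expand_sq hcomm ha hb hu hv
  rw [hbb] at hexp
  obtain ⟨s1, hs1, s0, hs0, hss⟩ := Submodule.mem_sup.mp (ha.qq v hv v hv)
  have huv := ha.zq u hu v hv
  have huu := ha.zz u hu u hu
  have ha1 : ∀ t : ℝ, t • a ∈ eigen mul a 1 := fun t => by
    rw [ha.line]; exact Submodule.smul_mem _ _ (Submodule.mem_span_singleton_self a)
  have hq1 : (c / 2) • v + (2 : ℝ) • mul u v ∈ eigen mul a (1 / 4) :=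
    Submodule.add_mem _ (Submodule.smul_mem _ _ hv) (Submodule.smul_mem _ _ huv)
  have h := comp_unique (a := a) (ha1 c) hu hv (zero_mem_eigen a _)
    (Submodule.add_mem _ (ha1 (c ^ 2)) hs1)
    (Submodule.add_mem _ huu hs0) hq1 (zero_mem_eigen a _) (by
      rw [add_zero, add_zero, ← hb, hexp, ← hss]
      abel)
  have h3 := h.2.2.1
  linear_combination (norm := module) (-(1 / 2 : ℝ)) • h3

end OneSided

section TwoSided

variable {a b u v u' v' : V} {c : ℝ}

/-- The key identity: with mutual decompositions, `c = 1/8` or `v = 0`. -/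
theorem c_or_v (hcomm : IsCommMul mul) (ha : Axis mul a) (hb' : Axis mul b)
    (hb : b = c • a + u + v) (hu : u ∈ eigen mul a 0) (hv : v ∈ eigen mul a (1 / 4))
    (ha' : a = c • b + u' + v') (hu' : u' ∈ eigen mul b 0) (hv' : v' ∈ eigen mul b (1 / 4)) :
    c = 1 / 8 ∨ v = 0 := by
  have h1 := mul_a_b ha hb hu hv
  have h2 := mul_a_b hb' ha' hu' hv'
  have hba : mul b a = mul a b := hcomm b a
  -- `v'` in terms of the rest
  have hv'eq : v' = (4 * c) • a + v - (4 * c) • b := by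
    have : (1 / 4 : ℝ) • v' = c • a + (1 / 4 : ℝ) • v - c • b := by
      rw [← h1, ← hba, h2]; abel
    linear_combination (norm := module) (4 : ℝ) • this
  -- way (A)
  have hA : mul b (mul a b) = c • b + (1 / 16 : ℝ) • v' := by
    rw [← hba, h2, map_add, map_smul, map_smul, hb'.idem, mem_eigen.mp hv', smul_smul]
    norm_num
  have hA' : mul b (mul a b)
      = ((3 * c ^ 2 / 4 + c / 4 : ℝ)) • a + ((3 * c / 4 : ℝ)) • u + ((3 * c / 4 + 1 / 16 : ℝ)) • v := by
    rw [hA, hv'eq, hb]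
    module
  -- way (B)
  have huv := mul_u_v hcomm ha hb'.idem hb hu hv
  have hvu : mul b v = (c / 4 + (1 / 2 - c / 4 : ℝ)) • v + mul v v := by
    rw [hb]
    simp only [map_add, map_smul, LinearMap.add_apply, LinearMap.smul_apply, mem_eigen.mp hv, huv]
    module
  have hB : mul b (mul a b) = (c ^ 2) • a + ((c / 4 + 1 / 8 : ℝ)) • v + (1 / 4 : ℝ) • mul v v := by
    rw [h1, map_add, map_smul, map_smul, hba, h1, hvu]
    module
  obtain ⟨s1, hs1, s0, hs0, hss⟩ := Submodule.mem_sup.mp (ha.qq v hv v hv)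
  have ha1 : ∀ t : ℝ, t • a ∈ eigen mul a 1 := fun t => by
    rw [ha.line]; exact Submodule.smul_mem _ _ (Submodule.mem_span_singleton_self a)
  have hcomp := comp_unique (a := a) (x1 := (3 * c ^ 2 / 4 + c / 4 : ℝ) • a) (x0 := (3 * c / 4 : ℝ) • u)
    (xq := (3 * c / 4 + 1 / 16 : ℝ) • v) (xt := 0)
    (y1 := (c ^ 2) • a + (1 / 4 : ℝ) • s1) (y0 := (1 / 4 : ℝ) • s0) (yq := (c / 4 + 1 / 8 : ℝ) • v) (yt := 0)
    (ha1 _) (Submodule.smul_mem _ _ hu) (Submodule.smul_mem _ _ hv) (zero_mem_eigen _ _)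
    (Submodule.add_mem _ (ha1 _) (Submodule.smul_mem _ _ hs1)) (Submodule.smul_mem _ _ hs0)
    (Submodule.smul_mem _ _ hv) (zero_mem_eigen _ _) (by
      rw [add_zero, add_zero, ← hA', hB, ← hss]
      module)
  have h3 := hcomp.2.2.1
  have h4 : (c / 2 - 1 / 16 : ℝ) • v = 0 := by
    linear_combination (norm := module) h3
  rcases smul_eq_zero.mp h4 with h5 | h5
  · left; linarith
  · right; exact h5

/-- The `2A` consequences of `c = 1/8` on one side. -/
theorem twoA_side (ha : Axis mul a)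
    (hb : b = (1 / 8 : ℝ) • a + u + v) (hu : u ∈ eigen mul a 0) (hv : v ∈ eigen mul a (1 / 4)) :
    (a + b - (8 : ℝ) • mul a b = (1 / 8 : ℝ) • a + u - v) ∧
    mul a (a + b - (8 : ℝ) • mul a b) = (1 / 8 : ℝ) • (a + (a + b - (8 : ℝ) • mul a b) - b) := by
  have h1 := mul_a_b ha hb hu hv
  have h2 : a + b - (8 : ℝ) • mul a b = (1 / 8 : ℝ) • a + u - v := by
    rw [h1]
    nth_rewrite 1 [hb]
    module
  refine ⟨h2, ?_⟩
  rw [h2]
  simp only [map_add, map_sub, map_smul, ha.idem, mem_eigen.mp hu, mem_eigen.mp hv]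
  nth_rewrite 1 [hb]
  module

theorem twoA_sq (hcomm : IsCommMul mul) (ha : Axis mul a) (hbb : mul b b = b)
    (hb : b = (1 / 8 : ℝ) • a + u + v) (hu : u ∈ eigen mul a 0) (hv : v ∈ eigen mul a (1 / 4)) :
    mul ((1 / 8 : ℝ) • a + u - v) ((1 / 8 : ℝ) • a + u - v) = (1 / 8 : ℝ) • a + u - v := by
  have hexp := expand_sq hcomm ha hb hu hv
  have huv := mul_u_v hcomm ha hbb hb hu hv
  have h1 := mem_eigen.mp hu
  have h2 := mem_eigen.mp hv
  have h3 : mul u a = 0 := by rw [hcomm, h1, zero_smul]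
  have h4 : mul v a = (1 / 4 : ℝ) • v := by rw [hcomm, h2]
  have h5 : mul v u = mul u v := hcomm v u
  rw [hbb] at hexp
  have e : mul ((1 / 8 : ℝ) • a + u - v) ((1 / 8 : ℝ) • a + u - v) =
      ((1 / 8 : ℝ) ^ 2) • a - ((1 / 16 : ℝ)) • v + mul u u - (2 : ℝ) • mul u v + mul v v := by
    simp only [map_add, map_sub, map_smul, LinearMap.add_apply, LinearMap.sub_apply, LinearMap.smul_apply,
      ha.idem, h1, h2, h3, h4, h5]
    module
  rw [e]
  rw [huv] at hexp ⊢
  have : mul u u + mul v v = b - ((1 / 8 : ℝ) ^ 2) • a - (1 / 16 : ℝ) • v - (2 : ℝ) • (1 / 2 - (1 / 8 : ℝ) / 4) • v := by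
    rw [hexp]
    module
  have e5 : ((1 / 8 : ℝ) ^ 2) • a - (1 / 16 : ℝ) • v + mul u u - (2 : ℝ) • ((1 / 2 - (1 / 8 : ℝ) / 4) • v) + mul v v
      = ((1 / 8 : ℝ) ^ 2) • a - (1 / 16 : ℝ) • v - (2 : ℝ) • ((1 / 2 - (1 / 8 : ℝ) / 4) • v) + (mul u u + mul v v) := by
    abel
  rw [e5, this]
  nth_rewrite 1 [hb]
  module

end TwoSided

end Cfsg.Agent.Lib.Majorana
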