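import Mathlib
import Cfsg.Agent.Lib.Majorana

/-!
Dihedral sequences of Majorana axes and the Norton-Sakuma relations.
-/

set_option autoImplicit false

namespace Cfsg.Agent.Lib.MajoranaDih

open Cfsg.Axial Cfsg.Agent.Lib.Majorana

variable {V : Type*} [AddCommGroup V] [Module ℝ V]
variable {mul : V →ₗ[ℝ] V →ₗ[ℝ] V} {B : LinearMap.BilinForm ℝ V}

/-! ### Single axis lemmas -/

/-- Action of the Miyamoto map on a decomposition. -/
theorem miyamoto_apply {μ : V ≃ₗ[ℝ] V} {a u v w : V} {c : ℝ} (h : IsMajoranaPair mul B μ a)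
    (hu : u ∈ eigen mul a 0) (hv : v ∈ eigen mul a (1 / 4)) (hw : w ∈ eigen mul a (1 / 32)) :
    μ (c • a + u + v + w) = c • a + u + v - w := by
  have hax := axis_of_pair h
  obtain ⟨-, -, -, hm1, hm2⟩ := h
  have hplus : c • a + u + v ∈ eigenSum mul a {1, 0, 1 / 4} := by
    rw [eigenSum_three]
    have ha1 : c • a ∈ eigen mul a 1 := by
      rw [hax.line]; exact Submodule.smul_mem _ _ (Submodule.mem_span_singleton_self a)
    refine Submodule.mem_sup.mpr ⟨c • a, ha1, u + v, ?_, by abel⟩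
    exact Submodule.add_mem_sup hu hv
  have e1 : μ (c • a + u + v) = c • a + u + v := hm1 _ hplus
  have e2 : μ w = - w := hm2 _ hw
  rw [map_add, e1, e2, sub_eq_add_neg]

/-- A Miyamoto map is an involution. -/
theorem miyamoto_invol {μ : V ≃ₗ[ℝ] V} {a : V} (h : IsMajoranaPair mul B μ a) (x : V) : μ (μ x) = x := by
  obtain ⟨c, u, v, w, rfl, hu, hv, hw⟩ := (axis_of_pair h).decomp x
  rw [miyamoto_apply h hu hv hw]
  have := miyamoto_apply (c := c) (w := -w) h hu hv (Submodule.neg_mem _ hw)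
  rw [← sub_eq_add_neg] at this
  rw [this]
  abel

/-- `x - μ x` is a `1/32`-eigenvector. -/
theorem anti_of_pair {μ : V ≃ₗ[ℝ] V} {a : V} (h : IsMajoranaPair mul B μ a) (x : V) :
    mul a (x - μ x) = (1 / 32 : ℝ) • (x - μ x) := by
  obtain ⟨c, u, v, w, rfl, hu, hv, hw⟩ := (axis_of_pair h).decomp x
  rw [miyamoto_apply h hu hv hw]
  have e : c • a + u + v + w - (c • a + u + v - w) = (2 : ℝ) • w := by module
  rw [e, map_smul, mem_eigen.mp hw]
  module

/-- A Miyamoto map fixes its own axis. -/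
theorem miyamoto_fix {μ : V ≃ₗ[ℝ] V} {a : V} (h : IsMajoranaPair mul B μ a) : μ a = a := by
  have hax := axis_of_pair h
  have := miyamoto_apply (c := 1) (u := 0) (v := 0) (w := 0) h (zero_mem_eigen _ _) (zero_mem_eigen _ _)
    (zero_mem_eigen _ _)
  simpa using this

/-- The Miyamoto map is determined by the axis. -/
theorem miyamoto_unique {μ μ' : V ≃ₗ[ℝ] V} {a : V} (h : IsMajoranaPair mul B μ a)
    (h' : IsMajoranaPair mul B μ' a) : μ = μ' := by
  ext x
  obtain ⟨c, u, v, w, rfl, hu, hv, hw⟩ := (axis_of_pair h).decomp x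
  rw [miyamoto_apply h hu hv hw, miyamoto_apply h' hu hv hw]

/-- The quadratic relation on vectors fixed by the Miyamoto map. -/
theorem fixed_quad (hcomm : IsCommMul mul) (hassoc : ∀ u v w : V, B u (mul v w) = B (mul u v) w)
    {μ : V ≃ₗ[ℝ] V} {a y : V} (h : IsMajoranaPair mul B μ a) (hn : B a a = 1) (hfix : μ y = y) :
    mul a (mul a y) = (3 / 4 * B a y) • a + (1 / 4 : ℝ) • mul a y := by
  have hax := axis_of_pair h
  obtain ⟨c, u, v, hy, hu, hv⟩ := decomp_fixed h hfix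
  have hB := B_a_b hcomm hassoc hax hn hy hu hv
  have h1 := mul_a_b hax hy hu hv
  rw [hB, h1, map_add, map_smul, map_smul, hax.idem, mem_eigen.mp hv]
  module

/-- A vector in the sum of the `1`- and `0`-eigenspaces: action of the axis. -/
theorem mul_of_sup (hcomm : IsCommMul mul) (hassoc : ∀ u v w : V, B u (mul v w) = B (mul u v) w)
    {a x : V} (hax : Axis mul a) (hn : B a a = 1) (hx : x ∈ eigen mul a 1 ⊔ eigen mul a 0) :
    mul a x = B a x • a := by
  obtain ⟨y1, hy1, y0, hy0, rfl⟩ := Submodule.mem_sup.mp hx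
  have ha1 : a ∈ eigen mul a 1 := by rw [mem_eigen, hax.idem, one_smul]
  rw [hax.line] at hy1
  obtain ⟨c, rfl⟩ := Submodule.mem_span_singleton.mp hy1
  have e1 : B a y0 = 0 := orth_of_ne hcomm hassoc ha1 hy0 (by norm_num)
  rw [map_add, map_add, map_smul, map_smul, hax.idem, mem_eigen.mp hy0, e1, hn]
  simp

/-! ### Dihedral sequences -/

/-- A dihedral sequence of Majorana axes. -/
structure Dih (mul : V →ₗ[ℝ] V →ₗ[ℝ] V) (B : LinearMap.BilinForm ℝ V) (a : ℤ → V)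
    (m : ℤ → V ≃ₗ[ℝ] V) : Prop where
  comm : IsCommMul mul
  sym : ∀ u v, B u v = B v u
  pos : ∀ u, u ≠ 0 → 0 < B u u
  assoc : ∀ u v w, B u (mul v w) = B (mul u v) w
  pair : ∀ i, IsMajoranaPair mul B (m i) (a i)
  refl : ∀ i j, m i (a j) = a (2 * i - j)
  norm : ∀ i, B (a i) (a i) = 1

namespace Dih

variable {a : ℤ → V} {m : ℤ → V ≃ₗ[ℝ] V} (h : Dih mul B a m)
include h

theorem ax (i : ℤ) : Axis mul (a i) := axis_of_pair (h.pair i)

theorem ip_refl (k i j : ℤ) : B (a (2 * k - i)) (a (2 * k - j)) = B (a i) (a j) := by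
  rw [← h.refl, ← h.refl]
  exact (h.pair k).2.1 _ _

theorem ip_shift (k i j : ℤ) : B (a (i + 2 * k)) (a (j + 2 * k)) = B (a i) (a j) := by
  have e1 := h.ip_refl 0 i j
  have e2 := h.ip_refl k (2 * 0 - i) (2 * 0 - j)
  rw [e1] at e2
  have e3 : 2 * k - (2 * 0 - i) = i + 2 * k := by ring
  have e4 : 2 * k - (2 * 0 - j) = j + 2 * k := by ring
  rwa [e3, e4] at e2

theorem anti (i k : ℤ) : mul (a i) (a (i + k) - a (i - k)) = (1 / 32 : ℝ) • (a (i + k) - a (i - k)) := by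
  have := anti_of_pair (h.pair i) (a (i + k))
  rw [h.refl] at this
  have e : 2 * i - (i + k) = i - k := by ring
  rwa [e] at this

/-- The product element at distance `k`. -/
noncomputable def Rk (mul : V →ₗ[ℝ] V →ₗ[ℝ] V) (a : ℤ → V) (i k : ℤ) : V :=
  mul (a i) (a (i + k)) - (1 / 32 : ℝ) • (a i + a (i + k))

omit h in
theorem Rk_def (i k : ℤ) : Rk mul a i k = mul (a i) (a (i + k)) - (1 / 32 : ℝ) • (a i + a (i + k)) := rfl

omit h in
theorem mul_plus (i k : ℤ) : mul (a i) (a (i + k)) = (1 / 32 : ℝ) • (a i + a (i + k)) + Rk mul a i k := by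
  rw [Rk_def]; abel

/-- `Rk` at distance `k` does not change when one moves by `k`. -/
theorem Rk_back (i k : ℤ) : Rk mul a (i - k) k = Rk mul a i k := by
  have h1 := h.anti i k
  rw [map_sub] at h1
  rw [Rk_def, Rk_def]
  have e : i - k + k = i := by ring
  rw [e, h.comm (a (i - k)) (a i)]
  linear_combination (norm := module) -h1

theorem mul_minus (i k : ℤ) : mul (a i) (a (i - k)) = (1 / 32 : ℝ) • (a i + a (i - k)) + Rk mul a i k := by
  have h1 := h.Rk_back i k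
  rw [Rk_def] at h1
  have e : i - k + k = i := by ring
  rw [e, h.comm (a (i - k)) (a i)] at h1
  rw [← h1]
  module

theorem Rk_forward (i k : ℤ) : Rk mul a (i + k) k = Rk mul a i k := by
  have := h.Rk_back (i + k) k
  have e : i + k - k = i := by ring
  rw [e] at this
  exact this.symm

/-- The distance-one element `s`. -/
theorem Rk_one (i : ℤ) : Rk mul a i 1 = Rk mul a 0 1 := by
  induction i using Int.induction_on with
  | zero => rfl
  | succ n ih =>
    rw [h.Rk_forward (n : ℤ) 1, ih]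
  | pred n ih =>
    have := h.Rk_forward (-(n : ℤ) - 1) 1
    have e : -(n : ℤ) - 1 + 1 = -(n : ℤ) := by ring
    rw [e, ih] at this
    exact this.symm

theorem ip_one (i : ℤ) : B (a i) (a (i + 1)) = B (a 0) (a 1) := by
  obtain ⟨k, rfl | rfl⟩ := Int.even_or_odd' i
  · have := h.ip_shift k 0 1
    convert this using 3 <;> ring_nf
  · have e1 := h.ip_shift k 1 2
    have e2 := h.ip_refl 1 1 0
    have e3 : B (a 1) (a 2) = B (a 0) (a 1) := by
      have e4 : (2 : ℤ) * 1 - 1 = 1 := by norm_num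
      have e5 : (2 : ℤ) * 1 - 0 = 2 := by norm_num
      rw [e4, e5] at e2
      rw [e2, h.sym]
    calc B (a (2 * k + 1)) (a (2 * k + 1 + 1)) = B (a (1 + 2 * k)) (a (2 + 2 * k)) := by
          rw [show 2 * k + 1 = 1 + 2 * k by ring, show 1 + 2 * k + 1 = 2 + 2 * k by ring]
      _ = B (a 1) (a 2) := e1
      _ = B (a 0) (a 1) := e3

theorem ip_minus_one (i : ℤ) : B (a i) (a (i - 1)) = B (a 0) (a 1) := by
  rw [h.sym, ← h.ip_one (i - 1)]
  congr 2
  ring_nf

theorem ip_minus (i k : ℤ) : B (a i) (a (i - k)) = B (a i) (a (i + k)) := by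
  have := h.ip_refl i i (i + k)
  have e1 : 2 * i - i = i := by ring
  have e2 : 2 * i - (i + k) = i - k := by ring
  rwa [e1, e2] at this

theorem mul_a_a (i : ℤ) : mul (a i) (a i) = a i := (h.ax i).idem

theorem ip_s (i : ℤ) : B (Rk mul a 0 1) (a i) = (31 * B (a 0) (a 1) - 1) / 32 := by
  rw [← h.Rk_one i, Rk_def]
  have e1 : B (mul (a i) (a (i + 1))) (a i) = B (a 0) (a 1) := by
    rw [h.comm (a i), ← h.assoc, h.mul_a_a, h.sym, h.ip_one]
  simp only [map_sub, map_smul, map_add, LinearMap.sub_apply, LinearMap.smul_apply, LinearMap.add_apply,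
    smul_eq_mul, e1, h.norm]
  rw [h.sym (a (i + 1)) (a i), h.ip_one]
  ring

theorem mul_a_Rk (i k : ℤ) : mul (a i) (Rk mul a i k) =
    (3 / 4 * B (a i) (a (i + k)) - 25 / 1024) • a i + (7 / 32 : ℝ) • Rk mul a i k
      + (7 / 2048 : ℝ) • (a (i + k) + a (i - k)) := by
  have hfix : m i (a (i + k) + a (i - k)) = a (i + k) + a (i - k) := by
    rw [map_add, h.refl, h.refl]
    have e1 : 2 * i - (i + k) = i - k := by ring
    have e2 : 2 * i - (i - k) = i + k := by ring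
    rw [e1, e2, add_comm]
  have hq := fixed_quad h.comm h.assoc (h.pair i) (h.norm i) hfix
  have hy : mul (a i) (a (i + k) + a (i - k))
      = (1 / 32 : ℝ) • (a i + a (i + k)) + Rk mul a i k + ((1 / 32 : ℝ) • (a i + a (i - k)) + Rk mul a i k) := by
    rw [map_add, h.mul_minus, mul_plus]
  have hB : B (a i) (a (i + k) + a (i - k)) = 2 * B (a i) (a (i + k)) := by
    rw [map_add, h.ip_minus]; ring
  rw [hB, hy] at hq
  simp only [map_add, map_smul, h.mul_a_a, h.mul_minus, mul_plus] at hq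
  linear_combination (norm := module) (1 / 2 : ℝ) • hq

theorem mul_a_s (i : ℤ) : mul (a i) (Rk mul a 0 1) =
    (3 / 4 * B (a 0) (a 1) - 25 / 1024) • a i + (7 / 32 : ℝ) • Rk mul a 0 1
      + (7 / 2048 : ℝ) • (a (i + 1) + a (i - 1)) := by
  have := h.mul_a_Rk i 1
  rwa [h.Rk_one, h.ip_one] at this

theorem ip_two_step (c : ℤ) : B (a (c - 1)) (a (c + 1)) = B (a c) (a (c + 2)) := by
  set s := Rk mul a 0 1 with hs
  have e : B (mul (a c) s) (a (c + 1)) = B (mul (a (c + 1)) s) (a c) := by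
    rw [← h.assoc, h.comm s, h.sym]
  rw [h.mul_a_s c, h.mul_a_s (c + 1)] at e
  simp only [map_add, map_smul, LinearMap.add_apply, LinearMap.smul_apply, smul_eq_mul, h.ip_s, h.norm] at e
  have e1 : B (a (c + 1 + 1)) (a c) = B (a c) (a (c + 2)) := by
    rw [h.sym]; congr 2; ring
  have e2 : B (a (c + 1 - 1)) (a c) = 1 := by
    have : c + 1 - 1 = c := by ring
    rw [this, h.norm]
  rw [e1, e2, h.ip_one, h.sym (a (c + 1)) (a c), h.ip_one, h.sym (a (c - 1)) (a (c + 1))] at e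
  rw [h.sym (a (c - 1)) (a (c + 1))]
  linarith

theorem ip_two (i : ℤ) : B (a i) (a (i + 2)) = B (a 0) (a 2) := by
  induction i using Int.induction_on with
  | zero => rfl
  | succ n ih =>
    have := h.ip_two_step ((n : ℤ) + 1)
    have e1 : (n : ℤ) + 1 - 1 = n := by ring
    have e2 : (n : ℤ) + 1 + 1 = n + 2 := by ring
    rw [e1, e2, ih] at this
    exact this.symm
  | pred n ih =>
    have := h.ip_two_step (-(n : ℤ))
    have e2 : -(n : ℤ) + 1 = -(n : ℤ) - 1 + 2 := by ring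
    rw [e2, ih] at this
    exact this

theorem ip_minus_two (i : ℤ) : B (a i) (a (i - 2)) = B (a 0) (a 2) := by
  rw [h.ip_minus, h.ip_two]

theorem mul_a_R (i : ℤ) : mul (a i) (Rk mul a i 2) =
    (3 / 4 * B (a 0) (a 2) - 25 / 1024) • a i + (7 / 32 : ℝ) • Rk mul a i 2
      + (7 / 2048 : ℝ) • (a (i + 2) + a (i - 2)) := by
  have := h.mul_a_Rk i 2
  rwa [h.ip_two] at this

theorem R_period (i : ℤ) : Rk mul a (i + 2) 2 = Rk mul a i 2 := h.Rk_forward i 2

theorem R_period' (i : ℤ) : Rk mul a (i - 1) 2 = Rk mul a (i + 1) 2 := by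
  have := h.R_period (i - 1)
  have e : i - 1 + 2 = i + 1 := by ring
  rw [e] at this
  exact this.symm

end Dih

/-! ### The abstract fusion computation -/

theorem core {a p q s R S : V} {l M : ℝ} (hcomm : IsCommMul mul)
    (haa : mul a a = a)
    (hap : mul a p = (1 / 32 : ℝ) • (a + p) + s)
    (haq : mul a q = (1 / 32 : ℝ) • (a + q) + R)
    (has : mul a s = (3 / 4 * l - 25 / 1024) • a + (7 / 32 : ℝ) • s + (7 / 1024 : ℝ) • p)
    (hpp : mul p p = (17 / 32 : ℝ) • p + (1 / 2 : ℝ) • S)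
    (hps : mul p s = (3 / 4 * l - 25 / 1024) • p + (7 / 32 : ℝ) • s + (7 / 2048 : ℝ) • (a + q))
    (f1 : mul a (mul ((7 / 8 : ℝ) • p + (3 * l - 1 / 8) • a - (4 : ℝ) • s)
      ((7 / 8 : ℝ) • p + (3 * l - 1 / 8) • a - (4 : ℝ) • s)) = 0)
    (f2 : mul a (mul ((4 : ℝ) • s + (1 / 8 : ℝ) • p + (1 / 8 - 4 * l) • a)
      ((4 : ℝ) • s + (1 / 8 : ℝ) • p + (1 / 8 - 4 * l) • a)) = (l - l ^ 2 - (1 - M) / 64) • a)
    (f3 : mul a (mul ((7 / 8 : ℝ) • p + (3 * l - 1 / 8) • a - (4 : ℝ) • s)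
      ((4 : ℝ) • s + (1 / 8 : ℝ) • p + (1 / 8 - 4 * l) • a)) =
      (1 / 4 : ℝ) • mul ((7 / 8 : ℝ) • p + (3 * l - 1 / 8) • a - (4 : ℝ) • s)
      ((4 : ℝ) • s + (1 / 8 : ℝ) • p + (1 / 8 - 4 * l) • a)) :
    mul a S = (7 / 96 : ℝ) • R + (-32 / 3 * l ^ 2 + 5 / 3 * l - 1 / 24 * M - 127 / 3072) • a
        + (1 / 3 * l - 19 / 1536) • p + (7 / 3072 : ℝ) • q + (32 / 3 * l - 19 / 48) • s ∧
    mul s s = (-7 / 1536 : ℝ) • R + (7 / 2048 : ℝ) • S
        + (7 / 6 * l ^ 2 - 7 / 384 * l + 7 / 1536 * M - 7 / 98304) • a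
        + (49 / 384 * l - 245 / 98304) • p + (49 / 98304 : ℝ) • q + (-5 / 12 * l - 13 / 1536) • s := by
  have hpa : mul p a = mul a p := hcomm p a
  have hsa : mul s a = mul a s := hcomm s a
  have hsp : mul s p = mul p s := hcomm s p
  simp only [map_add, map_sub, map_smul, LinearMap.add_apply, LinearMap.sub_apply, LinearMap.smul_apply,
    hpa, hsa, hsp, haa, hap, has, hps, hpp, haq] at f1 f2 f3
  constructor
  · linear_combination (norm := module) (8 / 3 : ℝ) • f1 - (8 / 3 : ℝ) • f2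
  · linear_combination (norm := module) (-1 / 24 : ℝ) • f1 + (7 / 24 : ℝ) • f2 + (1 / 4 : ℝ) • f3

namespace Dih

variable {a : ℤ → V} {m : ℤ → V ≃ₗ[ℝ] V} (h : Dih mul B a m)
include h

/-- `(v,v)` for the `1/4`-eigenvector of the sequence. -/
theorem B_s_s (i : ℤ) : B (Rk mul a 0 1) (Rk mul a 0 1) =
    (3 / 4 * B (a 0) (a 1) - 25 / 1024) * B (a 0) (a 1) + (7 / 32) * ((31 * B (a 0) (a 1) - 1) / 32)
      + (7 / 2048) * (1 + B (a 0) (a 2)) - (1 / 16) * ((31 * B (a 0) (a 1) - 1) / 32) := by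
  have e0 : Rk mul a 0 1 = mul (a i) (a (i + 1)) - (1 / 32 : ℝ) • (a i + a (i + 1)) := by
    rw [← h.Rk_one i, Rk_def]
  set s := Rk mul a 0 1 with hs
  have e1 : B s (mul (a i) (a (i + 1))) = B (mul (a i) s) (a (i + 1)) := by
    rw [h.assoc, h.comm s]
  have e2 := h.mul_a_s i
  rw [← hs] at e2
  have e3 : B s (a i) = (31 * B (a 0) (a 1) - 1) / 32 := h.ip_s i
  have e4 : B s (a (i + 1)) = (31 * B (a 0) (a 1) - 1) / 32 := h.ip_s (i + 1)
  calc B s s = B s (mul (a i) (a (i + 1)) - (1 / 32 : ℝ) • (a i + a (i + 1))) := by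
        nth_rewrite 2 [e0]; rfl
    _ = _ := by
      rw [map_sub, e1, e2]
      simp only [map_add, map_smul, LinearMap.add_apply, LinearMap.smul_apply, smul_eq_mul, e3, e4, h.norm]
      have e5 : B (a i) (a (i + 1)) = B (a 0) (a 1) := h.ip_one i
      have e6 : B (a (i - 1)) (a (i + 1)) = B (a 0) (a 2) := by
        have := h.ip_two (i - 1)
        rwa [show i - 1 + 2 = i + 1 by ring] at this
      rw [e5, e6]
      ring

/-- The main output of the fusion rules at a centre `i`. -/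
theorem center (i : ℤ) :
    mul (a i) (Rk mul a (i + 1) 2) = (7 / 96 : ℝ) • Rk mul a i 2
        + (-32 / 3 * (B (a 0) (a 1)) ^ 2 + 5 / 3 * (B (a 0) (a 1)) - 1 / 24 * (B (a 0) (a 2)) - 127 / 3072) • a i
        + (1 / 3 * (B (a 0) (a 1)) - 19 / 1536) • ((1 / 2 : ℝ) • (a (i + 1) + a (i - 1)))
        + (7 / 3072 : ℝ) • ((1 / 2 : ℝ) • (a (i + 2) + a (i - 2)))
        + (32 / 3 * (B (a 0) (a 1)) - 19 / 48) • Rk mul a 0 1 ∧
    mul (Rk mul a 0 1) (Rk mul a 0 1) = (-7 / 1536 : ℝ) • Rk mul a i 2 + (7 / 2048 : ℝ) • Rk mul a (i + 1) 2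
        + (7 / 6 * (B (a 0) (a 1)) ^ 2 - 7 / 384 * (B (a 0) (a 1)) + 7 / 1536 * (B (a 0) (a 2)) - 7 / 98304) • a i
        + (49 / 384 * (B (a 0) (a 1)) - 245 / 98304) • ((1 / 2 : ℝ) • (a (i + 1) + a (i - 1)))
        + (49 / 98304 : ℝ) • ((1 / 2 : ℝ) • (a (i + 2) + a (i - 2)))
        + (-5 / 12 * (B (a 0) (a 1)) - 13 / 1536) • Rk mul a 0 1 := by
  set l := B (a 0) (a 1) with hl
  set M := B (a 0) (a 2) with hM
  set s := Rk mul a 0 1 with hs
  set p := (1 / 2 : ℝ) • (a (i + 1) + a (i - 1)) with hp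
  set q := (1 / 2 : ℝ) • (a (i + 2) + a (i - 2)) with hq
  set R := Rk mul a i 2 with hR
  set S := Rk mul a (i + 1) 2 with hS
  have hax := h.ax i
  have haa : mul (a i) (a i) = a i := h.mul_a_a i
  have hs1 : ∀ j, Rk mul a j 1 = s := fun j => h.Rk_one j
  have hap : mul (a i) p = (1 / 32 : ℝ) • (a i + p) + s := by
    rw [hp, map_smul, map_add, mul_plus, h.mul_minus, hs1]
    module
  have haq : mul (a i) q = (1 / 32 : ℝ) • (a i + q) + R := by
    rw [hq, map_smul, map_add, mul_plus, h.mul_minus]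
    module
  have has : mul (a i) s = (3 / 4 * l - 25 / 1024) • a i + (7 / 32 : ℝ) • s + (7 / 1024 : ℝ) • p := by
    rw [h.mul_a_s, hp]
    module
  have hS' : mul (a (i + 1)) (a (i - 1)) = (1 / 32 : ℝ) • (a (i + 1) + a (i - 1)) + S := by
    have := h.mul_minus (i + 1) 2
    rwa [show i + 1 - 2 = i - 1 by ring] at this
  have haam : mul (a (i - 1)) (a (i + 1)) = mul (a (i + 1)) (a (i - 1)) := h.comm _ _
  have hpp : mul p p = (17 / 32 : ℝ) • p + (1 / 2 : ℝ) • S := by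
    rw [hp]
    simp only [map_add, map_smul, LinearMap.add_apply, LinearMap.smul_apply, h.mul_a_a, hS', haam]
    module
  have hps : mul p s = (3 / 4 * l - 25 / 1024) • p + (7 / 32 : ℝ) • s + (7 / 2048 : ℝ) • (a i + q) := by
    rw [hp, map_smul, map_add, LinearMap.smul_apply, LinearMap.add_apply, h.mul_a_s, h.mul_a_s, hq,
      show i + 1 + 1 = i + 2 by ring, show i + 1 - 1 = i by ring, show i - 1 + 1 = i by ring,
      show i - 1 - 1 = i - 2 by ring]
    module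
  -- the eigenvectors
  set u := (7 / 8 : ℝ) • p + (3 * l - 1 / 8) • a i - (4 : ℝ) • s with hu
  set v := (4 : ℝ) • s + (1 / 8 : ℝ) • p + (1 / 8 - 4 * l) • a i with hv
  have hu0 : u ∈ eigen mul (a i) 0 := by
    rw [mem_eigen, hu]
    simp only [map_sub, map_add, map_smul, haa, hap, has]
    module
  have hvq : v ∈ eigen mul (a i) (1 / 4) := by
    rw [mem_eigen, hv]
    simp only [map_add, map_smul, haa, hap, has]
    module
  have f1 : mul (a i) (mul u u) = 0 := by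
    have := mem_eigen.mp (hax.zz u hu0 u hu0)
    simpa using this
  have f3 : mul (a i) (mul u v) = (1 / 4 : ℝ) • mul u v := mem_eigen.mp (hax.zq u hu0 v hvq)
  have f2 : mul (a i) (mul v v) = (l - l ^ 2 - (1 - M) / 64) • a i := by
    rw [mul_of_sup h.comm h.assoc hax (h.norm i) (hax.qq v hvq v hvq)]
    congr 1
    have e1 : B (a i) (mul v v) = (1 / 4 : ℝ) * B v v := by
      rw [h.assoc, mem_eigen.mp hvq, map_smul, LinearMap.smul_apply, smul_eq_mul]
    have bss : B s s = (3 / 4 * l - 25 / 1024) * l + (7 / 32) * ((31 * l - 1) / 32)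
      + (7 / 2048) * (1 + M) - (1 / 16) * ((31 * l - 1) / 32) := h.B_s_s i
    have bsa : B s (a i) = (31 * l - 1) / 32 := h.ip_s i
    have bas : B (a i) s = (31 * l - 1) / 32 := by rw [h.sym]; exact bsa
    have bsp : B s p = (31 * l - 1) / 32 := by
      rw [hp, map_smul, map_add, smul_eq_mul]
      have e2 : B s (a (i + 1)) = (31 * l - 1) / 32 := h.ip_s (i + 1)
      have e3 : B s (a (i - 1)) = (31 * l - 1) / 32 := h.ip_s (i - 1)
      rw [e2, e3]; ring
    have bps : B p s = (31 * l - 1) / 32 := by rw [h.sym]; exact bsp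
    have bap : B (a i) p = l := by
      rw [hp, map_smul, map_add, smul_eq_mul]
      have e2 : B (a i) (a (i + 1)) = l := h.ip_one i
      have e3 : B (a i) (a (i - 1)) = l := h.ip_minus_one i
      rw [e2, e3]; ring
    have bpa : B p (a i) = l := by rw [h.sym]; exact bap
    have bpp : B p p = (1 + M) / 2 := by
      have e2 : B (a (i - 1)) (a (i + 1)) = M := by
        have := h.ip_two (i - 1)
        rwa [show i - 1 + 2 = i + 1 by ring] at this
      have e3 : B (a (i + 1)) (a (i - 1)) = M := by rw [h.sym]; exact e2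
      rw [hp]
      simp only [map_add, map_smul, LinearMap.add_apply, LinearMap.smul_apply, smul_eq_mul, h.norm, e2, e3]
      ring
    have baa' : B (a i) (a i) = 1 := h.norm i
    have bvv : B v v = 4 * l - 4 * l ^ 2 - (1 - M) / 16 := by
      rw [hv]
      simp only [map_add, map_smul, LinearMap.add_apply, LinearMap.smul_apply, smul_eq_mul,
        bss, bsa, bas, bsp, bps, bap, bpa, bpp, baa']
      ring
    rw [e1, bvv]
    ring
  exact core h.comm haa hap haq has hpp hps f1 f2 f3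

/-- The basic relation between the two distance-two elements. -/
theorem rel (i : ℤ) : (32 : ℝ) • (Rk mul a i 2 - Rk mul a (i + 1) 2) =
    (a (i - 2) - a (i + 3)) + (256 * B (a 0) (a 1) - 6) • (a (i - 1) - a (i + 2))
      + ((32768 * (B (a 0) (a 1)) ^ 2 - 2304 * B (a 0) (a 1) + 128 * B (a 0) (a 2) + 33) / 7) • (a i - a (i + 1)) := by
  have h0 := (h.center i).2
  have h1 := (h.center (i + 1)).2
  rw [show i + 1 + 1 = i + 2 by ring, show i + 1 - 1 = i by ring, show i + 1 + 2 = i + 3 by ring,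
    show i + 1 - 2 = i - 1 by ring, h.R_period i] at h1
  rw [h0] at h1
  linear_combination (norm := module) (-196608 / 49 : ℝ) • h1

/-- The recurrence for the axes. -/
theorem recur (c : ℤ) : (a (c + 3) - a (c - 3)) + (256 * B (a 0) (a 1) - 5) • (a (c + 2) - a (c - 2))
    + ((32768 * (B (a 0) (a 1)) ^ 2 - 512 * B (a 0) (a 1) + 128 * B (a 0) (a 2) - 9) / 7) • (a (c + 1) - a (c - 1)) = 0 := by
  have h0 := h.rel (c - 1)
  have h1 := h.rel c
  rw [show c - 1 + 1 = c by ring, show c - 1 - 2 = c - 3 by ring, show c - 1 + 3 = c + 2 by ring,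
    show c - 1 - 1 = c - 2 by ring, show c - 1 + 2 = c + 1 by ring, h.R_period' c] at h0
  linear_combination (norm := module) h0 + h1

/-- The distance-three element. -/
theorem R3 (i : ℤ) : Rk mul a i 3 =
    ((40 / 3) * B (a 0) (a 1) + (-37 / 96)) • a (i - 1) + (-1 / 24 : ℝ) • a (i - 2)
      + ((88064 / 21) * (B (a 0) (a 1)) ^ 2 + (-5576 / 21) * B (a 0) (a 1) + (-160 / 21) * B (a 0) (a 2) + (2705 / 672)) • a i
      + ((-1024 / 7) * (B (a 0) (a 1)) ^ 2 + (328 / 21) * B (a 0) (a 1) + (-4 / 7) * B (a 0) (a 2) + (-29 / 84)) • a (i + 1)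
      + ((-8) * B (a 0) (a 1) + (11 / 96)) • a (i + 2) + (-1 / 32 : ℝ) • a (i + 3)
      + ((-256) * B (a 0) (a 1) + (7 / 3)) • Rk mul a i 2
      + ((-32768 / 7) * (B (a 0) (a 1)) ^ 2 + (19456 / 21) * B (a 0) (a 1) + (-128 / 7) * B (a 0) (a 2) + (-491 / 21)) • Rk mul a 0 1 := by
  have h0 := congrArg (mul (a i)) (h.rel i)
  have hs1 : ∀ j, Rk mul a j 1 = Rk mul a 0 1 := fun j => h.Rk_one j
  simp only [map_add, map_sub, map_smul] at h0
  rw [h.mul_a_R, (h.center i).1, h.mul_minus i 2, mul_plus i 3, h.mul_minus i 1, mul_plus i 2,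
    h.mul_a_a, mul_plus i 1, hs1 i] at h0
  linear_combination (norm := module) h0

/-- The reduced relation among six consecutive axes. -/
theorem D2 : ((-32) * B (a 0) (a 1) + (5 / 8)) • a (-2)
      + ((-8192) * (B (a 0) (a 1)) ^ 2 + 352 * B (a 0) (a 1) + (-15 / 4)) • a (-1)
      + ((-1048576 / 7) * (B (a 0) (a 1)) ^ 3 + (-4096 / 7) * B (a 0) (a 1) * B (a 0) (a 2) + (81920 / 7) * (B (a 0) (a 1)) ^ 2
          + (-2304 / 7) * B (a 0) (a 1) + (32 / 7) * B (a 0) (a 2) + (24 / 7)) • a 0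
      + ((262144 / 7) * (B (a 0) (a 1)) ^ 3 + (1024 / 7) * B (a 0) (a 1) * B (a 0) (a 2) + (-20480 / 7) * (B (a 0) (a 1)) ^ 2
          + (576 / 7) * B (a 0) (a 1) + (-8 / 7) * B (a 0) (a 2) + (-6 / 7)) • a 1
      + ((786432 / 7) * (B (a 0) (a 1)) ^ 3 + (3072 / 7) * B (a 0) (a 1) * B (a 0) (a 2) + (-16384 / 7) * (B (a 0) (a 1)) ^ 2
          + (-544 / 7) * B (a 0) (a 1) + (-72 / 7) * B (a 0) (a 2) + (93 / 56)) • a 2
      + ((12288 / 7) * (B (a 0) (a 1)) ^ 2 + (32 / 7) * B (a 0) (a 1) + (48 / 7) * B (a 0) (a 2) + (-31 / 28)) • a 3 = 0 := by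
  have e0 := h.R3 0
  have e3 := h.R3 3
  have r0 := h.rel 0
  have c1 := h.recur 1
  have c2 := h.recur 2
  have c3 := h.recur 3
  have efw : Rk mul a 3 3 = Rk mul a 0 3 := h.Rk_forward 0 3
  have eR : Rk mul a 3 2 = Rk mul a 1 2 := h.R_period 1
  rw [show (0 : ℤ) - 1 = -1 by norm_num, show (0 : ℤ) - 2 = -2 by norm_num, show (0 : ℤ) + 1 = 1 by norm_num,
    show (0 : ℤ) + 2 = 2 by norm_num, show (0 : ℤ) + 3 = 3 by norm_num] at e0
  rw [show (3 : ℤ) - 1 = 2 by norm_num, show (3 : ℤ) - 2 = 1 by norm_num, show (3 : ℤ) + 1 = 4 by norm_num,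
    show (3 : ℤ) + 2 = 5 by norm_num, show (3 : ℤ) + 3 = 6 by norm_num, efw, eR] at e3
  rw [show (0 : ℤ) - 1 = -1 by norm_num, show (0 : ℤ) - 2 = -2 by norm_num, show (0 : ℤ) + 1 = 1 by norm_num,
    show (0 : ℤ) + 2 = 2 by norm_num, show (0 : ℤ) + 3 = 3 by norm_num] at r0
  rw [show (1 : ℤ) - 1 = 0 by norm_num, show (1 : ℤ) - 2 = -1 by norm_num, show (1 : ℤ) - 3 = -2 by norm_num,
    show (1 : ℤ) + 1 = 2 by norm_num, show (1 : ℤ) + 2 = 3 by norm_num, show (1 : ℤ) + 3 = 4 by norm_num] at c1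
  rw [show (2 : ℤ) - 1 = 1 by norm_num, show (2 : ℤ) - 2 = 0 by norm_num, show (2 : ℤ) - 3 = -1 by norm_num,
    show (2 : ℤ) + 1 = 3 by norm_num, show (2 : ℤ) + 2 = 4 by norm_num, show (2 : ℤ) + 3 = 5 by norm_num] at c2
  rw [show (3 : ℤ) - 1 = 2 by norm_num, show (3 : ℤ) - 2 = 1 by norm_num, show (3 : ℤ) - 3 = 0 by norm_num,
    show (3 : ℤ) + 1 = 4 by norm_num, show (3 : ℤ) + 2 = 5 by norm_num, show (3 : ℤ) + 3 = 6 by norm_num] at c3
  rw [e0] at e3
  linear_combination (norm := module) e3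
    + ((256 * B (a 0) (a 1) - 7 / 3) / 32) • r0 - (1 / 32 : ℝ) • c3 - (1 / 24 : ℝ) • c2
    - ((-24) * B (a 0) (a 1) + 19 / 32) • c1

theorem b_m2 : B (a (-2)) (a 0) = B (a 0) (a 2) := by
  rw [h.sym]
  have := h.ip_minus 0 2
  rwa [show (0 : ℤ) - 2 = -2 by norm_num, show (0 : ℤ) + 2 = 2 by norm_num] at this

theorem b_m1 : B (a (-1)) (a 0) = B (a 0) (a 1) := by
  rw [h.sym]
  have := h.ip_minus 0 1
  rwa [show (0 : ℤ) - 1 = -1 by norm_num, show (0 : ℤ) + 1 = 1 by norm_num] at this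

theorem b_R0 : B (Rk mul a 0 2) (a 0) = (31 * B (a 0) (a 2) - 1) / 32 := by
  rw [Rk_def, show (0 : ℤ) + 2 = 2 by norm_num]
  have e1 : B (mul (a 0) (a 2)) (a 0) = B (a 0) (a 2) := by
    rw [h.comm (a 0), ← h.assoc, h.mul_a_a, h.sym]
  simp only [map_sub, map_smul, map_add, LinearMap.sub_apply, LinearMap.smul_apply, LinearMap.add_apply,
    smul_eq_mul, e1, h.norm]
  rw [h.sym (a 2) (a 0)]
  ring

theorem b_R1 : B (Rk mul a 1 2) (a 0) = (B (a 0) (a 2) + 30 * B (a 0) (a 1) - 1) / 32 := by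
  have e0 : Rk mul a 1 2 = mul (a (-1)) (a 1) - (1 / 32 : ℝ) • (a (-1) + a 1) := by
    have := h.R_period (-1)
    rw [show (-1 : ℤ) + 2 = 1 by norm_num] at this
    rw [this, Rk_def, show (-1 : ℤ) + 2 = 1 by norm_num]
  have e1 : mul (a 1) (a (-1)) = mul (a (-1)) (a 1) := h.comm _ _
  have e2 : B (mul (a (-1)) (a 1)) (a 0) = (1 / 32) * (B (a 0) (a 2) + B (a 0) (a 1)) + (31 * B (a 0) (a 1) - 1) / 32 := by
    rw [← e1, ← h.assoc]
    have e3 : mul (a (-1)) (a 0) = (1 / 32 : ℝ) • (a (-1) + a 0) + Rk mul a 0 1 := by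
      have := mul_plus (mul := mul) (a := a) (-1) 1
      rwa [show (-1 : ℤ) + 1 = 0 by norm_num, h.Rk_one] at this
    rw [e3]
    simp only [map_add, map_smul, smul_eq_mul]
    have e4 : B (a 1) (a (-1)) = B (a 0) (a 2) := by
      have := h.ip_two (-1)
      rw [show (-1 : ℤ) + 2 = 1 by norm_num] at this
      rw [h.sym, this]
    have e5 : B (a 1) (a 0) = B (a 0) (a 1) := h.sym _ _
    have e6 : B (a 1) (Rk mul a 0 1) = (31 * B (a 0) (a 1) - 1) / 32 := by
      rw [h.sym]; exact h.ip_s 1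
    rw [e4, e5, e6]
  rw [e0, map_sub, LinearMap.sub_apply, e2]
  simp only [map_smul, map_add, LinearMap.smul_apply, LinearMap.add_apply, smul_eq_mul]
  rw [h.b_m1, h.sym (a 1) (a 0)]
  ring

theorem nu : B (a 0) (a 3) = B (a 0) (a 2) + (256 * B (a 0) (a 1) + 24) * (B (a 0) (a 1) - B (a 0) (a 2))
    + ((32768 * (B (a 0) (a 1)) ^ 2 - 2304 * B (a 0) (a 1) + 128 * B (a 0) (a 2) + 33) / 7) * (1 - B (a 0) (a 1)) := by
  have r0 := congrArg (fun x => B x (a 0)) (h.rel 0)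
  rw [show (0 : ℤ) - 1 = -1 by norm_num, show (0 : ℤ) - 2 = -2 by norm_num, show (0 : ℤ) + 1 = 1 by norm_num,
    show (0 : ℤ) + 2 = 2 by norm_num, show (0 : ℤ) + 3 = 3 by norm_num] at r0
  simp only [map_add, map_sub, map_smul, LinearMap.add_apply, LinearMap.sub_apply, LinearMap.smul_apply,
    smul_eq_mul, h.b_R0, h.b_R1, h.b_m2, h.b_m1, h.norm] at r0
  rw [h.sym (a 3) (a 0), h.sym (a 2) (a 0), h.sym (a 1) (a 0)] at r0
  linarith

theorem P1 : (2097152) * (B (a 0) (a 1)) ^ 4 + (40960) * (B (a 0) (a 1)) ^ 2 * (B (a 0) (a 2))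
    + (-2326528) * (B (a 0) (a 1)) ^ 3 + (8896) * (B (a 0) (a 1)) * (B (a 0) (a 2))
    + (184320) * (B (a 0) (a 1)) ^ 2 + (128) * (B (a 0) (a 2)) ^ 2 + (-4800) * (B (a 0) (a 1))
    + (-167) * (B (a 0) (a 2)) + (39) = 0 := by
  have r0 := congrArg (fun x => B x (a 1)) (h.D2)
  have e1 : B (a (-2)) (a 1) = B (a 0) (a 3) := by
    have := h.ip_shift 1 (-2) 1
    rw [show (-2 : ℤ) + 2 * 1 = 0 by norm_num, show (1 : ℤ) + 2 * 1 = 3 by norm_num] at this
    exact this.symm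
  have e2 : B (a (-1)) (a 1) = B (a 0) (a 2) := by
    have := h.ip_two (-1)
    rwa [show (-1 : ℤ) + 2 = 1 by norm_num] at this
  have e3 : B (a 2) (a 1) = B (a 0) (a 1) := by
    rw [h.sym]
    have := h.ip_one 1
    rwa [show (1 : ℤ) + 1 = 2 by norm_num] at this
  have e4 : B (a 3) (a 1) = B (a 0) (a 2) := by
    rw [h.sym]
    have := h.ip_two 1
    rwa [show (1 : ℤ) + 2 = 3 by norm_num] at this
  simp only [map_add, map_smul, map_zero, LinearMap.add_apply, LinearMap.smul_apply, LinearMap.zero_apply,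
    smul_eq_mul, e1, e2, e3, e4, h.norm] at r0
  rw [h.nu] at r0
  linear_combination (56 / 3) * r0

theorem P0 : (-536870912) * (B (a 0) (a 1)) ^ 5 + (-26214400) * (B (a 0) (a 1)) ^ 3 * (B (a 0) (a 2))
    + (605028352) * (B (a 0) (a 1)) ^ 4 + (-94208) * (B (a 0) (a 1)) * (B (a 0) (a 2)) ^ 2
    + (1593344) * (B (a 0) (a 1)) ^ 2 * (B (a 0) (a 2)) + (-44138496) * (B (a 0) (a 1)) ^ 3
    + (-165856) * (B (a 0) (a 1)) * (B (a 0) (a 2)) + (860160) * (B (a 0) (a 1)) ^ 2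
    + (-2784) * (B (a 0) (a 2)) ^ 2 + (2016) * (B (a 0) (a 1)) + (2901) * (B (a 0) (a 2)) + (-117) = 0 := by
  have r0 := congrArg (fun x => B x (a 0)) (h.D2)
  simp only [map_add, map_smul, map_zero, LinearMap.add_apply, LinearMap.smul_apply, LinearMap.zero_apply,
    smul_eq_mul, h.b_m2, h.b_m1, h.norm] at r0
  rw [h.sym (a 3) (a 0), h.sym (a 2) (a 0), h.sym (a 1) (a 0), h.nu] at r0
  linear_combination (196 / 3) * r0

theorem eq_of_ip_one {n : ℤ} (hn : B (a 0) (a n) = 1) : a n = a 0 := by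
  by_contra hne
  have hne' : a n - a 0 ≠ 0 := sub_ne_zero.mpr hne
  have h1 := h.pos _ hne'
  have h2 : B (a n - a 0) (a n - a 0) = 0 := by
    simp only [map_sub, LinearMap.sub_apply, h.norm]
    rw [h.sym (a n) (a 0), hn]
    norm_num
  linarith

theorem res_zero : (B (a 0) (a 1) - 1) * (B (a 0) (a 1) - 0) * (B (a 0) (a 1) - 1 / 8) * (B (a 0) (a 1) - 13 / 256)
    * (B (a 0) (a 1) - 1 / 64) * (B (a 0) (a 1) - 1 / 64) * (B (a 0) (a 1) - 1 / 32) * (B (a 0) (a 1) - 3 / 128)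
    * (B (a 0) (a 1) - 5 / 256) = 0 := by
  have h1 := h.P1
  have h0 := h.P0
  set l := B (a 0) (a 1) with hl
  set M := B (a 0) (a 2) with hM
  linear_combination (1 / (-6508011309204729810124800 : ℝ)) * ((-135107988821114880) * l ^ 6 + (-6069304185323520) * l ^ 4 * M + (-5369223141685985280) * l ^ 5 + (-14119790884945920) * l ^ 3 * M + (280744488672952320) * l ^ 4 + (-264897476689920) * l ^ 2 * M + (-22599844107386880) * l ^ 3 + (5474699182080) * l * M + (616326758400000) * l ^ 2 + (-4773652070400) * l + (33354547200) * M + (-1401753600)) * h1 + (1 / (-6508011309204729810124800 : ℝ)) * ((-527765581332480) * l ^ 5 + (-8246337208320) * l ^ 3 * M + (-8860689330339840) * l ^ 4 + (-18940805775360) * l ^ 2 * M + (-1155872336117760) * l ^ 3 + (199816642560) * l * M + (41892288921600) * l ^ 2 + (-308635238400) * l + (1533542400) * M + (-467251200)) * h0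

theorem G4 : B (a 0) (a 4) = B (a 0) (a 2)
    - (256 * B (a 0) (a 1) - 5) * (B (a 0) (a 3) - B (a 0) (a 1))
    - ((32768 * (B (a 0) (a 1)) ^ 2 - 512 * B (a 0) (a 1) + 128 * B (a 0) (a 2) - 9) / 7) * (B (a 0) (a 2) - 1) := by
  have c := congrArg (fun x => B (a 0) x) (h.recur 1)
  rw [show (1 : ℤ) + 3 = 4 by norm_num, show (1 : ℤ) - 3 = -2 by norm_num, show (1 : ℤ) + 2 = 3 by norm_num,
    show (1 : ℤ) - 2 = -1 by norm_num, show (1 : ℤ) + 1 = 2 by norm_num, show (1 : ℤ) - 1 = 0 by norm_num] at c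
  simp only [map_add, map_sub, map_smul, map_zero, smul_eq_mul, h.norm] at c
  rw [h.sym (a 0) (a (-2)), h.sym (a 0) (a (-1)), h.b_m2, h.b_m1] at c
  linarith

theorem G5 : B (a 0) (a 5) = B (a 0) (a 1)
    - (256 * B (a 0) (a 1) - 5) * (B (a 0) (a 4) - 1)
    - ((32768 * (B (a 0) (a 1)) ^ 2 - 512 * B (a 0) (a 1) + 128 * B (a 0) (a 2) - 9) / 7) * (B (a 0) (a 3) - B (a 0) (a 1)) := by
  have c := congrArg (fun x => B (a 0) x) (h.recur 2)
  rw [show (2 : ℤ) + 3 = 5 by norm_num, show (2 : ℤ) - 3 = -1 by norm_num, show (2 : ℤ) + 2 = 4 by norm_num,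
    show (2 : ℤ) - 2 = 0 by norm_num, show (2 : ℤ) + 1 = 3 by norm_num, show (2 : ℤ) - 1 = 1 by norm_num] at c
  simp only [map_add, map_sub, map_smul, map_zero, smul_eq_mul, h.norm] at c
  rw [h.sym (a 0) (a (-1)), h.b_m1] at c
  linarith

theorem G6 : B (a 0) (a 6) = 1
    - (256 * B (a 0) (a 1) - 5) * (B (a 0) (a 5) - B (a 0) (a 1))
    - ((32768 * (B (a 0) (a 1)) ^ 2 - 512 * B (a 0) (a 1) + 128 * B (a 0) (a 2) - 9) / 7) * (B (a 0) (a 4) - B (a 0) (a 2)) := by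
  have c := congrArg (fun x => B (a 0) x) (h.recur 3)
  rw [show (3 : ℤ) + 3 = 6 by norm_num, show (3 : ℤ) - 3 = 0 by norm_num, show (3 : ℤ) + 2 = 5 by norm_num,
    show (3 : ℤ) - 2 = 1 by norm_num, show (3 : ℤ) + 1 = 4 by norm_num, show (3 : ℤ) - 1 = 2 by norm_num] at c
  simp only [map_add, map_sub, map_smul, map_zero, smul_eq_mul, h.norm] at c
  linarith

/-- The period of a dihedral sequence of axes is at most six. -/
theorem period : ∃ n : ℕ, 1 ≤ n ∧ n ≤ 6 ∧ a n = a 0 := by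
  have r := h.res_zero
  have p1 := h.P1
  have p0 := h.P0
  have n3 := h.nu
  have n4 := h.G4
  have n5 := h.G5
  have n6 := h.G6
  set l := B (a 0) (a 1) with hl
  set M := B (a 0) (a 2) with hM
  set G3 := B (a 0) (a 3) with hG3
  set G4 := B (a 0) (a 4) with hG4
  set G5 := B (a 0) (a 5) with hG5
  set G6 := B (a 0) (a 6) with hG6
  have hn1 : l = 1 → ∃ n : ℕ, 1 ≤ n ∧ n ≤ 6 ∧ a n = a 0 := fun e =>
    ⟨1, le_rfl, by norm_num, by simpa using h.eq_of_ip_one (n := 1) e⟩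
  have hn2 : M = 1 → ∃ n : ℕ, 1 ≤ n ∧ n ≤ 6 ∧ a n = a 0 := fun e =>
    ⟨2, by norm_num, by norm_num, by simpa using h.eq_of_ip_one (n := 2) e⟩
  have hn3 : G3 = 1 → ∃ n : ℕ, 1 ≤ n ∧ n ≤ 6 ∧ a n = a 0 := fun e =>
    ⟨3, by norm_num, by norm_num, by simpa using h.eq_of_ip_one (n := 3) e⟩
  have hn4 : G4 = 1 → ∃ n : ℕ, 1 ≤ n ∧ n ≤ 6 ∧ a n = a 0 := fun e =>
    ⟨4, by norm_num, by norm_num, by simpa using h.eq_of_ip_one (n := 4) e⟩
  have hn5 : G5 = 1 → ∃ n : ℕ, 1 ≤ n ∧ n ≤ 6 ∧ a n = a 0 := fun e =>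
    ⟨5, by norm_num, by norm_num, by simpa using h.eq_of_ip_one (n := 5) e⟩
  have hn6 : G6 = 1 → ∃ n : ℕ, 1 ≤ n ∧ n ≤ 6 ∧ a n = a 0 := fun e =>
    ⟨6, by norm_num, by norm_num, by simpa using h.eq_of_ip_one (n := 6) e⟩
  simp only [mul_eq_zero, sub_eq_zero] at r
  rcases r with ((((((((r | r) | r) | r) | r) | r) | r) | r) | r)
  · exact hn1 r
  · -- l = 0
    rw [r] at p1 p0
    refine hn2 ?_
    ring_nf at p1 p0 ⊢
    linarith
  · -- l = 1/8
    rw [r] at p1 p0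
    refine hn2 ?_
    ring_nf at p1 p0 ⊢
    linarith
  · -- l = 13/256
    rw [r] at p1 p0 n3
    have hMv : M = 13 / 256 := by
      ring_nf at p1 p0 ⊢
      linarith
    refine hn3 ?_
    rw [n3, hMv]
    norm_num
  · -- l = 1/64
    rw [r] at p1 n3 n4
    have : (8 * M - 1) * (64 * M - 1) = 0 := by
      ring_nf at p1 ⊢
      linarith
    rcases mul_eq_zero.mp this with e | e
    · have hMv : M = 1 / 8 := by linarith
      refine hn4 ?_
      rw [n4, n3, hMv]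
      norm_num
    · have hMv : M = 1 / 64 := by linarith
      refine hn3 ?_
      rw [n3, hMv]
      norm_num
  · -- l = 1/64 (second factor)
    rw [r] at p1 n3 n4
    have : (8 * M - 1) * (64 * M - 1) = 0 := by
      ring_nf at p1 ⊢
      linarith
    rcases mul_eq_zero.mp this with e | e
    · have hMv : M = 1 / 8 := by linarith
      refine hn4 ?_
      rw [n4, n3, hMv]
      norm_num
    · have hMv : M = 1 / 64 := by linarith
      refine hn3 ?_
      rw [n3, hMv]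
      norm_num
  · -- l = 1/32
    rw [r] at p1 p0 n3 n4
    have hMv : M = 0 := by
      ring_nf at p1 p0 ⊢
      linarith
    refine hn4 ?_
    rw [n4, n3, hMv]
    norm_num
  · -- l = 3/128
    rw [r] at p1 p0 n3 n4 n5
    have hMv : M = 3 / 128 := by
      ring_nf at p1 p0 ⊢
      linarith
    refine hn5 ?_
    rw [n5, n4, n3, hMv]
    norm_num
  · -- l = 5/256
    rw [r] at p1 p0 n3 n4 n5 n6
    have hMv : M = 13 / 256 := by
      ring_nf at p1 p0 ⊢
      linarith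
    refine hn6 ?_
    rw [n6, n5, n4, n3, hMv]
    norm_num

end Dih

/-- The group of automorphisms of the algebra with its form. -/
def autSub (mul : V →ₗ[ℝ] V →ₗ[ℝ] V) (B : LinearMap.BilinForm ℝ V) : Subgroup (V ≃ₗ[ℝ] V) where
  carrier := {g | (∀ u v : V, g (mul u v) = mul (g u) (g v)) ∧ ∀ u v : V, B (g u) (g v) = B u v}
  mul_mem' := by
    rintro g g' ⟨h1, h2⟩ ⟨h1', h2'⟩
    refine ⟨fun u v => ?_, fun u v => ?_⟩
    · show g (g' (mul u v)) = mul (g (g' u)) (g (g' v))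
      rw [h1', h1]
    · show B (g (g' u)) (g (g' v)) = B u v
      rw [h2, h2']
  one_mem' := ⟨fun _ _ => rfl, fun _ _ => rfl⟩
  inv_mem' := by
    rintro g ⟨h1, h2⟩
    have hginv : ∀ x, g⁻¹ x = g.symm x := fun _ => rfl
    refine ⟨fun u v => ?_, fun u v => ?_⟩
    · rw [hginv, hginv, hginv]
      apply g.injective
      rw [h1]
      simp
    · rw [hginv, hginv, ← h2]
      simp

theorem pair_mem {μ : V ≃ₗ[ℝ] V} {a : V} (h : IsMajoranaPair mul B μ a) : μ ∈ autSub mul B := ⟨h.1, h.2.1⟩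

theorem mul_self_of_pair {μ : V ≃ₗ[ℝ] V} {a : V} (h : IsMajoranaPair mul B μ a) : μ * μ = 1 := by
  ext x
  exact miyamoto_invol h x

section Build

variable {μ₀ μ₁ : V ≃ₗ[ℝ] V} {a₀ a₁ : V}

/-- The axes of the sequence generated by two Majorana involutions. -/
noncomputable def seqAxis (μ₀ μ₁ : V ≃ₗ[ℝ] V) (a₀ a₁ : V) (i : ℤ) : V :=
  ((μ₁ * μ₀) ^ (i / 2)) (if i % 2 = 0 then a₀ else a₁)

/-- The involutions of the sequence generated by two Majorana involutions. -/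
noncomputable def seqInv (μ₀ μ₁ : V ≃ₗ[ℝ] V) (i : ℤ) : V ≃ₗ[ℝ] V :=
  (μ₁ * μ₀) ^ i * μ₀

theorem seqAxis_even (k : ℤ) : seqAxis μ₀ μ₁ a₀ a₁ (2 * k) = ((μ₁ * μ₀) ^ k) a₀ := by
  unfold seqAxis
  rw [show 2 * k / 2 = k by omega, if_pos (by omega)]

theorem seqAxis_odd (k : ℤ) : seqAxis μ₀ μ₁ a₀ a₁ (2 * k + 1) = ((μ₁ * μ₀) ^ k) a₁ := by
  unfold seqAxis
  rw [show (2 * k + 1) / 2 = k by omega, if_neg (by omega)]

theorem conj_zpow (h₀ : μ₀ * μ₀ = 1) (h₁ : μ₁ * μ₁ = 1) (k : ℤ) :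
    μ₀ * (μ₁ * μ₀) ^ k = (μ₁ * μ₀) ^ (-k) * μ₀ := by
  have hs : SemiconjBy μ₀ (μ₁ * μ₀) (μ₁ * μ₀)⁻¹ := by
    unfold SemiconjBy
    have : (μ₁ * μ₀)⁻¹ = μ₀ * μ₁ := by
      rw [inv_eq_iff_mul_eq_one, mul_assoc, ← mul_assoc μ₀, h₀, one_mul, h₁]
    rw [this, mul_assoc]
  have := hs.zpow_right k
  unfold SemiconjBy at this
  rw [this, inv_zpow, zpow_neg]

theorem seqDih (hV : IsMajoranaAmbient mul B) (h₀ : IsMajoranaPair mul B μ₀ a₀)
    (h₁ : IsMajoranaPair mul B μ₁ a₁) (hn₀ : B a₀ a₀ = 1) (hn₁ : B a₁ a₁ = 1) :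
    Dih mul B (seqAxis μ₀ μ₁ a₀ a₁) (seqInv μ₀ μ₁) := by
  obtain ⟨hcomm, hsym, hpos, hassoc, -⟩ := hV
  have e₀ := mul_self_of_pair h₀
  have e₁ := mul_self_of_pair h₁
  set T := μ₁ * μ₀ with hT
  have hTmem : T ∈ autSub mul B := mul_mem (pair_mem h₁) (pair_mem h₀)
  have hTk : ∀ k : ℤ, T ^ k ∈ autSub mul B := fun k => zpow_mem hTmem k
  have hconj := conj_zpow e₀ e₁
  rw [← hT] at hconj
  have hμ₁ : T * μ₀ = μ₁ := by rw [hT, mul_assoc, e₀, mul_one]
  have hpair : ∀ i, IsMajoranaPair mul B (seqInv μ₀ μ₁ i) (seqAxis μ₀ μ₁ a₀ a₁ i) := by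
    intro i
    obtain ⟨k, rfl | rfl⟩ := Int.even_or_odd' i
    · rw [seqAxis_even]
      have := pair_conj (hTk k).1 (hTk k).2 h₀
      convert this using 1
      unfold seqInv
      rw [← hT, mul_assoc, ← zpow_neg, hconj, ← mul_assoc, ← zpow_add, neg_neg]
      congr 2
      ring
    · rw [seqAxis_odd]
      have := pair_conj (hTk k).1 (hTk k).2 h₁
      convert this using 1
      unfold seqInv
      rw [← hT, ← hμ₁, mul_assoc (T ^ k), mul_assoc T, ← zpow_neg, hconj, ← mul_assoc T, ← zpow_one_add,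
        ← mul_assoc, ← zpow_add]
      congr 2
      ring
  refine ⟨hcomm, hsym, hpos, hassoc, hpair, ?_, ?_⟩
  · intro i j
    have hinv : μ₀ (a₁) = T⁻¹ a₁ := by
      have h1 : T⁻¹ = μ₀ * μ₁ := by
        rw [hT, inv_eq_iff_mul_eq_one, mul_assoc, ← mul_assoc μ₀, e₀, one_mul, e₁]
      rw [h1]
      show μ₀ a₁ = μ₀ (μ₁ a₁)
      rw [miyamoto_fix h₁]
    have hact : ∀ (k : ℤ) (x : V), seqInv μ₀ μ₁ i ((T ^ k) x) = (T ^ (i - k)) (μ₀ x) := by
      intro k x
      unfold seqInv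
      rw [← hT]
      show (T ^ i * (μ₀ * T ^ k)) x = _
      rw [hconj, ← mul_assoc, ← zpow_add, ← sub_eq_add_neg]
      rfl
    obtain ⟨k, rfl | rfl⟩ := Int.even_or_odd' j
    · rw [seqAxis_even, hact, miyamoto_fix h₀, show 2 * i - 2 * k = 2 * (i - k) by ring, seqAxis_even]
    · rw [seqAxis_odd, hact, hinv, show 2 * i - (2 * k + 1) = 2 * (i - k - 1) + 1 by ring, seqAxis_odd]
      rw [show i - k - 1 = (i - k) + (-1) by ring, zpow_add, zpow_neg_one]
      rfl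
  · intro i
    obtain ⟨k, rfl | rfl⟩ := Int.even_or_odd' i
    · rw [seqAxis_even, (hTk k).2, hn₀]
    · rw [seqAxis_odd, (hTk k).2, hn₁]

/-- Two Majorana involutions generate a dihedral group of order at most twelve. -/
theorem sakuma (hV : IsMajoranaAmbient mul B) (h₀ : IsMajoranaPair mul B μ₀ a₀)
    (h₁ : IsMajoranaPair mul B μ₁ a₁) (hn₀ : B a₀ a₀ = 1) (hn₁ : B a₁ a₁ = 1) :
    ∃ n : ℕ, 1 ≤ n ∧ n ≤ 6 ∧ (μ₀ * μ₁) ^ n = 1 := by
  have hD := seqDih hV h₀ h₁ hn₀ hn₁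
  obtain ⟨n, h1, h6, hn⟩ := hD.period
  refine ⟨n, h1, h6, ?_⟩
  have e₀ := mul_self_of_pair h₀
  have e₁ := mul_self_of_pair h₁
  have hm : seqInv μ₀ μ₁ n = seqInv μ₀ μ₁ 0 := by
    have p1 := hD.pair n
    rw [hn] at p1
    exact miyamoto_unique p1 (hD.pair 0)
  have hTn : (μ₁ * μ₀) ^ (n : ℤ) = 1 := by
    unfold seqInv at hm
    simpa using hm
  have h1' : μ₀ * μ₁ = (μ₁ * μ₀)⁻¹ := by
    symm
    rw [inv_eq_iff_mul_eq_one, mul_assoc, ← mul_assoc μ₀, e₀, one_mul, e₁]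
  rw [h1', inv_pow, ← zpow_natCast, hTn, inv_one]

end Build

end Cfsg.Agent.Lib.MajoranaDih
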