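import Mathlib
import Cfsg.Agent.Lib.FrobLam9
import Cfsg.Agent.Lib.FrobIrr9
import Cfsg.Agent.Lib.Clifford
import Cfsg.Agent.Lib.InducedIrr
import Cfsg.Agent.Lib.CharCentral

/-!
# The twisted mass bound

`K` a finite nilpotent group, `R` a normal subgroup, `b` a `K`-invariant linear character of `R`.
If `θ₁, θ₄` are irreducible characters of `K` over `b` with `θ₁(1) < f ≤ θ₄(1)` then the squares of
the degrees smaller than `f` of the irreducible characters over `b` sum to at least `f²`.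
-/

set_option autoImplicit false
set_option linter.unusedSectionVars false
open Cfsg

namespace Cfsg.Agent.Lib.MassBound

open Cfsg.Agent.Lib.CharBasic Cfsg.Agent.Lib.GenChar Cfsg.Agent.Lib.CharInd
  Cfsg.Agent.Lib.CharInduction Cfsg.Agent.Lib.CharKernel Cfsg.Agent.Lib.InducedIrr
  Cfsg.Agent.Lib.CharCentral Cfsg.Agent.Lib.FrobLam9 Cfsg.Agent.Lib.Clifford
open scoped ComplexConjugate

universe u

section Basic

variable {K : Type u} [Group K]

/-- `b` is a `K`-invariant linear function on the subgroup `R`. -/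
structure IsLin (R : Subgroup K) (b : K → ℂ) : Prop where
  mul : ∀ r ∈ R, ∀ s ∈ R, b (r * s) = b r * b s
  inv : ∀ k, ∀ r ∈ R, b (k * r * k⁻¹) = b r
  one : b 1 = 1

/-- `θ` lies over `b`: on `R` it is `θ(1) b`. -/
def Over (R : Subgroup K) (b θ : K → ℂ) : Prop := ∀ r ∈ R, θ r = θ 1 * b r

variable {R : Subgroup K} {b : K → ℂ}

theorem IsLin.pow (hb : IsLin R b) {r : K} (hr : r ∈ R) (n : ℕ) : b (r ^ n) = b r ^ n := by
  induction n with
  | zero => simp [hb.one]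
  | succ n ih => rw [pow_succ, hb.mul _ (R.pow_mem hr n) _ hr, ih, pow_succ]

theorem IsLin.mul_inv (hb : IsLin R b) {r : K} (hr : r ∈ R) : b r * b r⁻¹ = 1 := by
  rw [← hb.mul _ hr _ (R.inv_mem hr), mul_inv_cancel, hb.one]

theorem IsLin.ne_zero (hb : IsLin R b) {r : K} (hr : r ∈ R) : b r ≠ 0 := by
  intro h
  have := hb.mul_inv hr
  rw [h, zero_mul] at this
  exact zero_ne_one this

theorem comm_mem [hR : R.Normal] {r : K} (hr : r ∈ R) (g : K) : r * g * r⁻¹ * g⁻¹ ∈ R := by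
  have : r * g * r⁻¹ * g⁻¹ = r * (g * r⁻¹ * g⁻¹) := by group
  rw [this]
  exact R.mul_mem hr (hR.conj_mem _ (R.inv_mem hr) g)

/-- Commutators with `R` are in the kernel of `b`. -/
theorem IsLin.comm [hR : R.Normal] (hb : IsLin R b) {r : K} (hr : r ∈ R) (g : K) :
    b (r * g * r⁻¹ * g⁻¹) = 1 := by
  have : r * g * r⁻¹ * g⁻¹ = r * (g * r⁻¹ * g⁻¹) := by group
  rw [this, hb.mul _ hr _ (hR.conj_mem _ (R.inv_mem hr) g), hb.inv g _ (R.inv_mem hr),
    hb.mul_inv hr]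

variable [Finite K]

theorem IsLin.pow_order (hb : IsLin R b) {r : K} (hr : r ∈ R) : b r ^ orderOf r = 1 := by
  rw [← hb.pow hr, pow_orderOf_eq_one, hb.one]

theorem IsLin.norm (hb : IsLin R b) {r : K} (hr : r ∈ R) : ‖b r‖ = 1 :=
  Complex.norm_eq_one_of_pow_eq_one (hb.pow_order hr) (orderOf_pos r).ne'

theorem IsLin.mul_conj (hb : IsLin R b) {r : K} (hr : r ∈ R) : b r * conj (b r) = 1 := by
  rw [Complex.mul_conj, Complex.normSq_eq_norm_sq, hb.norm hr]
  simp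

/-- The unit valued homomorphism on `R`. -/
noncomputable def IsLin.hom (hb : IsLin R b) : R →* ℂˣ where
  toFun r := Units.mk0 (b r) (hb.ne_zero r.2)
  map_one' := by
    ext
    simp [hb.one]
  map_mul' r s := by
    ext
    simp [hb.mul r r.2 s s.2]

theorem IsLin.isIrr (hb : IsLin R b) : IsIrrCharacter R (fun r : R => b r) :=
  isIrrCharacter_of_hom hb.hom

/-- The elements central modulo the kernel of a character. -/
def centralMod {χ : K → ℂ} (hχ : IsCharacter K χ) : Subgroup K :=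
  (Subgroup.center (K ⧸ charKer hχ)).comap (QuotientGroup.mk' (charKer hχ))

theorem mem_centralMod {χ : K → ℂ} (hχ : IsCharacter K χ) {z : K} :
    z ∈ centralMod hχ ↔ ∀ g, χ (z * g * z⁻¹ * g⁻¹) = χ 1 := by
  unfold centralMod
  rw [Subgroup.mem_comap, Subgroup.mem_center_iff]
  constructor
  · intro h g
    have h1 := h (g : K ⧸ charKer hχ)
    have h2 : (z * g * z⁻¹ * g⁻¹ : K) ∈ charKer hχ := by
      rw [← QuotientGroup.eq_one_iff]
      simp only [QuotientGroup.mk_mul, QuotientGroup.mk_inv]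
      simp only [QuotientGroup.mk'_apply] at h1
      rw [← h1]
      group
    exact (mem_charKer hχ).mp h2
  · intro h g
    obtain ⟨g, rfl⟩ := QuotientGroup.mk_surjective g
    have h2 : (z * g * z⁻¹ * g⁻¹ : K) ∈ charKer hχ := (mem_charKer hχ).mpr (h g)
    rw [← QuotientGroup.eq_one_iff] at h2
    simp only [QuotientGroup.mk_mul, QuotientGroup.mk_inv] at h2
    simp only [QuotientGroup.mk'_apply]
    have h3 : (z : K ⧸ charKer hχ) * g = g * z := by
      have e : (z : K ⧸ charKer hχ) * g * (z : K ⧸ charKer hχ)⁻¹ * (g : K ⧸ charKer hχ)⁻¹ *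
          (g * z) = (z : K ⧸ charKer hχ) * g := by group
      rw [h2, one_mul] at e
      exact e.symm
    exact h3.symm

/-- An element central modulo the kernel acts as a scalar. -/
theorem scalar_mul {χ : K → ℂ} (hχ : IsIrrCharacter K χ) {z : K}
    (hz : ∀ g, χ (z * g * z⁻¹ * g⁻¹) = χ 1) (y : K) : χ 1 * χ (z * y) = χ z * χ y := by
  classical
  have hc := IsIrrCharacter.isCharacter hχ
  obtain ⟨χ', h1, h2⟩ := exists_quotient_irr (charKer hc) hχ (fun x hx => hx)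
  have hz' : z ∈ centralMod hc := (mem_centralMod hc).mpr hz
  have hcen : ∀ g : K ⧸ charKer hc, ((z : K ⧸ charKer hc)) * g = g * (z : K ⧸ charKer hc) := by
    intro g
    have := (Subgroup.mem_center_iff.mp hz') g
    exact this.symm
  have h4 := central_mul h1 hcen (y : K ⧸ charKer hc)
  rw [← QuotientGroup.mk_mul, h2, h2, h2] at h4
  have h5 : χ' 1 = χ 1 := by
    have := h2 1
    simpa using this
  rw [h5] at h4
  exact h4

/-- A subgroup central modulo the kernel gives a linear function. -/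
theorem isLin_of_central {χ : K → ℂ} (hχ : IsIrrCharacter K χ) {A : Subgroup K}
    (hA : ∀ z ∈ A, ∀ g, χ (z * g * z⁻¹ * g⁻¹) = χ 1) : IsLin A (fun y => χ y / χ 1) := by
  have h0 := isIrr_one_ne_zero hχ
  refine ⟨?_, ?_, div_self h0⟩
  · intro r hr s _
    have := scalar_mul hχ (hA r hr) s
    show χ (r * s) / χ 1 = χ r / χ 1 * (χ s / χ 1)
    field_simp
    linear_combination this
  · intro k r _
    show χ (k * r * k⁻¹) / χ 1 = χ r / χ 1
    rw [char_apply_conj (IsIrrCharacter.isCharacter hχ)]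

theorem over_of_central {χ : K → ℂ} (hχ : IsIrrCharacter K χ) (A : Subgroup K) :
    Over A (fun y => χ y / χ 1) χ := by
  intro r _
  have h0 := isIrr_one_ne_zero hχ
  show χ r = χ 1 * (χ r / χ 1)
  field_simp

theorem over_central [R.Normal] (hb : IsLin R b) {θ : K → ℂ} (hθ : Over R b θ) {r : K} (hr : r ∈ R)
    (g : K) : θ (r * g * r⁻¹ * g⁻¹) = θ 1 := by
  rw [hθ _ (comm_mem hr g), hb.comm hr g, mul_one]

theorem over_mul [R.Normal] (hb : IsLin R b) {θ : K → ℂ} (hθ : IsIrrCharacter K θ)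
    (ho : Over R b θ) {r : K} (hr : r ∈ R) (y : K) : θ (r * y) = b r * θ y := by
  have h := scalar_mul hθ (over_central hb ho hr) y
  rw [ho r hr] at h
  have h0 := isIrr_one_ne_zero hθ
  apply mul_left_cancel₀ h0
  linear_combination h

open scoped ComplexOrder in
/-- A member of the decomposition of a character with a scalar value is scalar there. -/
theorem constituent_scalar {H : Type*} [Group H] [Finite H] (m : IrrCharacter H → ℕ) {r : H} {w : ℂ}
    (hw : ‖w‖ = 1)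
    (hr : (∑ i, m i • (i : H → ℂ)) r = (∑ i, m i • (i : H → ℂ)) 1 * w) {i : IrrCharacter H}
    (hi : m i ≠ 0) : (i : H → ℂ) r = (i : H → ℂ) 1 * w := by
  classical
  have hw1 : w * conj w = 1 := by
    rw [Complex.mul_conj, Complex.normSq_eq_norm_sq, hw]
    simp
  have hval : ∀ y, (∑ i, m i • (i : H → ℂ)) y = ∑ j : IrrCharacter H, (m j : ℂ) * (j : H → ℂ) y := by
    intro y
    rw [Finset.sum_apply]
    refine Finset.sum_congr rfl fun j _ => ?_
    simp
  rw [hval, hval] at hr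
  -- real parts
  have h1 : ∑ j : IrrCharacter H, (m j : ℂ) * (conj w * (j : H → ℂ) r) =
      ∑ j : IrrCharacter H, (m j : ℂ) * (j : H → ℂ) 1 := by
    have : ∑ j : IrrCharacter H, (m j : ℂ) * (conj w * (j : H → ℂ) r) =
        conj w * ∑ j : IrrCharacter H, (m j : ℂ) * (j : H → ℂ) r := by
      rw [Finset.mul_sum]
      exact Finset.sum_congr rfl fun j _ => by ring
    rw [this, hr]
    linear_combination (∑ j : IrrCharacter H, (m j : ℂ) * (j : H → ℂ) 1) * hw1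
  have hdeg : ∀ j : IrrCharacter H, (j : H → ℂ) 1 = (charDegree (j : H → ℂ) : ℂ) := fun j =>
    one_eq_charDegree (IsIrrCharacter.isCharacter j.2)
  have hbd : ∀ j : IrrCharacter H, ‖(j : H → ℂ) r‖ ≤ (charDegree (j : H → ℂ) : ℝ) := by
    intro j
    have := char_norm_le (IsIrrCharacter.isCharacter j.2) r
    rw [hdeg j] at this
    simpa using this
  have hre : ∀ j : IrrCharacter H, (conj w * (j : H → ℂ) r).re ≤ (charDegree (j : H → ℂ) : ℝ) := by
    intro j
    refine (Complex.re_le_norm _).trans ?_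
    rw [norm_mul, Complex.norm_conj, hw, one_mul]
    exact hbd j
  have h2 : ∑ j : IrrCharacter H, (m j : ℝ) * ((charDegree (j : H → ℂ) : ℝ) -
      (conj w * (j : H → ℂ) r).re) = 0 := by
    have h3 := congrArg Complex.re h1
    simp only [Complex.re_sum, Complex.natCast_re, hdeg, Complex.mul_re, Complex.natCast_im,
      zero_mul, sub_zero, Complex.mul_im] at h3
    rw [← sub_eq_zero, ← Finset.sum_sub_distrib] at h3
    rw [← neg_eq_zero, ← Finset.sum_neg_distrib, ← h3]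
    refine Finset.sum_congr rfl fun j _ => ?_
    simp only [Complex.mul_re]
    ring
  have h3 := (Finset.sum_eq_zero_iff_of_nonneg (fun j _ => mul_nonneg (Nat.cast_nonneg _)
    (sub_nonneg.mpr (hre j)))).mp h2 i (Finset.mem_univ i)
  have hm : (m i : ℝ) ≠ 0 := by exact_mod_cast hi
  have h4 := (mul_eq_zero.mp h3).resolve_left hm
  have h5 : (conj w * (i : H → ℂ) r).re = ‖conj w * (i : H → ℂ) r‖ := by
    apply le_antisymm (Complex.re_le_norm _)
    rw [norm_mul, Complex.norm_conj, hw, one_mul]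
    have := hbd i
    linarith
  have h6 : 0 ≤ conj w * (i : H → ℂ) r := (Complex.re_eq_norm).mp h5
  have h7 : conj w * (i : H → ℂ) r = (charDegree (i : H → ℂ) : ℂ) := by
    apply Complex.ext
    · simp only [Complex.natCast_re]
      linarith
    · simp only [Complex.natCast_im]
      exact ((Complex.le_def.mp h6).2).symm
  rw [hdeg i, ← h7]
  linear_combination (-(i : H → ℂ) r) * hw1

open Classical in
/-- The sum of the squares of the degrees of the characters over `b`. -/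
theorem total_mass [hR : R.Normal] (hb : IsLin R b) :
    ∑ θ : IrrCharacter K, (if Over R b (θ : K → ℂ) then charDegree (θ : K → ℂ) ^ 2 else 0) =
      R.index := by
  letI := Fintype.ofFinite K
  letI := Fintype.ofFinite R
  set a : R → ℂ := fun r => b r with ha
  have hai : IsIrrCharacter R a := hb.isIrr
  have hRne : (Nat.card R : ℂ) ≠ 0 := natCard_subgroup_ne_zero R
  have hdeg : ∀ j : IrrCharacter K, (j : K → ℂ) 1 = (charDegree (j : K → ℂ) : ℂ) := fun j =>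
    one_eq_charDegree (IsIrrCharacter.isCharacter j.2)
  have key : ∀ θ : IrrCharacter K, ∑ r : R, (θ : K → ℂ) r * conj (b r) =
      if Over R b (θ : K → ℂ) then (Nat.card R : ℂ) * (θ : K → ℂ) 1 else 0 := by
    intro θ
    by_cases ho : Over R b (θ : K → ℂ)
    · rw [if_pos ho]
      have : ∀ r : R, (θ : K → ℂ) r * conj (b r) = (θ : K → ℂ) 1 := by
        intro r
        rw [ho r r.2, mul_assoc, hb.mul_conj r.2, mul_one]
      simp only [this, Finset.sum_const, Finset.card_univ, nsmul_eq_mul, Nat.card_eq_fintype_card]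
    · rw [if_neg ho]
      by_contra hne
      apply ho
      have hin : classInner (fun n : R => (θ : K → ℂ) n) a ≠ 0 := by
        unfold classInner
        refine mul_ne_zero (inv_ne_zero hRne) hne
      obtain ⟨e, -, he, -⟩ := restrict_eq_smul_of_invariant R hai
        (fun g n => hb.inv g n n.2) θ.2 hin
      intro r hr
      have h1 := congrFun he ⟨r, hr⟩
      have h2 := congrFun he 1
      simp only [Pi.smul_apply, smul_eq_mul, ha, OneMemClass.coe_one, hb.one, mul_one] at h1 h2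
      rw [h1, h2]
  have hdouble : ∑ θ : IrrCharacter K, (θ : K → ℂ) 1 * ∑ r : R, (θ : K → ℂ) r * conj (b r) =
      (Nat.card K : ℂ) := by
    have h1 : ∑ θ : IrrCharacter K, (θ : K → ℂ) 1 * ∑ r : R, (θ : K → ℂ) r * conj (b r) =
        ∑ r : R, conj (b r) * ∑ θ : IrrCharacter K, (θ : K → ℂ) 1 * (θ : K → ℂ) r := by
      simp only [Finset.mul_sum]
      rw [Finset.sum_comm]
      refine Finset.sum_congr rfl fun r _ => Finset.sum_congr rfl fun θ _ => by ring
    rw [h1, Finset.sum_eq_single (1 : R)]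
    · have := sum_irr_deg_mul ((1 : R) : K)
      rw [this]
      simp [hb.one]
    · intro r _ hr
      have h2 := sum_irr_deg_mul (r : K)
      have hr' : (r : K) ≠ 1 := fun h => hr (Subtype.ext h)
      rw [h2, if_neg hr', mul_zero]
    · simp
  have hmain : (Nat.card R : ℂ) * ((∑ θ : IrrCharacter K,
      (if Over R b (θ : K → ℂ) then charDegree (θ : K → ℂ) ^ 2 else 0) : ℕ) : ℂ) =
      (Nat.card K : ℂ) := by
    rw [← hdouble]
    push_cast
    rw [Finset.mul_sum]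
    refine Finset.sum_congr rfl fun θ _ => ?_
    rw [key θ]
    by_cases ho : Over R b (θ : K → ℂ)
    · rw [if_pos ho, if_pos ho, hdeg θ]
      ring
    · rw [if_neg ho, if_neg ho]
      simp
  have h3 : Nat.card R * (∑ θ : IrrCharacter K,
      (if Over R b (θ : K → ℂ) then charDegree (θ : K → ℂ) ^ 2 else 0)) = Nat.card K := by
    exact_mod_cast hmain
  have h4 := Subgroup.card_mul_index R
  rw [← h4] at h3
  exact Nat.eq_of_mul_eq_mul_left Nat.card_pos h3

end Basic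


section Step

variable {K : Type u} [Group K] [Finite K] {R : Subgroup K} {b : K → ℂ}

theorem index_lt_of_le {H J : Subgroup K} (h : H ≤ J) (hne : ¬ J ≤ H) : J.index < H.index := by
  have h1 := Subgroup.relIndex_mul_index h
  have h2 : H.relIndex J ≠ 1 := fun h3 => hne (Subgroup.relIndex_eq_one.mp h3)
  have h3 : J.index ≠ 0 := Subgroup.index_ne_zero_of_finite
  have h4 : H.index ≠ 0 := Subgroup.index_ne_zero_of_finite
  have h5 : H.relIndex J ≠ 0 := by
    intro h6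
    rw [h6, zero_mul] at h1
    exact h4 h1.symm
  rw [← h1]
  have h6 : 2 ≤ H.relIndex J := by omega
  have h7 : 0 < J.index := Nat.pos_of_ne_zero h3
  nlinarith

/-- An element outside `R`, central modulo `R`, with a prime power in `R`. -/
theorem exists_central_prime (hnil : Group.IsNilpotent K) (R : Subgroup K) [hR : R.Normal]
    (hne : R ≠ ⊤) :
    ∃ (x : K) (q : ℕ), q.Prime ∧ x ∉ R ∧ x ^ q ∈ R ∧ ∀ g : K, x * g * x⁻¹ * g⁻¹ ∈ R := by
  have hnot : ¬ (⊤ : Subgroup K) ≤ R := fun h => hne (top_le_iff.mp h)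
  obtain ⟨z, -, hzR, hzc⟩ := exists_central_mod hnil R _ ⊤ rfl Subgroup.normal_top hnot
  have hz1 : (z : K ⧸ R) ≠ 1 := fun h => hzR ((QuotientGroup.eq_one_iff z).mp h)
  have hm : orderOf (z : K ⧸ R) ≠ 1 := fun h => hz1 (orderOf_eq_one_iff.mp h)
  obtain ⟨q, hq, c, hc⟩ := Nat.exists_prime_and_dvd hm
  have hm0 : orderOf (z : K ⧸ R) ≠ 0 := (orderOf_pos _).ne'
  have hc0 : c ≠ 0 := by
    rintro rfl
    rw [mul_zero] at hc
    exact hm0 hc
  have hcom : ∀ g : K, Commute (z : K ⧸ R) (g : K ⧸ R) := by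
    intro g
    have h2 := (QuotientGroup.eq_one_iff _).mpr (hzc g)
    simp only [QuotientGroup.mk_mul, QuotientGroup.mk_inv] at h2
    have e : (z : K ⧸ R) * g * (z : K ⧸ R)⁻¹ * (g : K ⧸ R)⁻¹ * (g * z) = (z : K ⧸ R) * g := by group
    rw [h2, one_mul] at e
    exact e.symm
  refine ⟨z ^ c, q, hq, ?_, ?_, ?_⟩
  · intro h
    have h1 : (z : K ⧸ R) ^ c = 1 := by
      rw [← QuotientGroup.mk_pow]
      exact (QuotientGroup.eq_one_iff _).mpr h
    have h2 := orderOf_dvd_of_pow_eq_one h1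
    rw [hc] at h2
    have h3 := Nat.le_of_dvd (Nat.pos_of_ne_zero hc0) h2
    have h4 := hq.two_le
    have h5 : 0 < c := Nat.pos_of_ne_zero hc0
    nlinarith
  · rw [← QuotientGroup.eq_one_iff, QuotientGroup.mk_pow, QuotientGroup.mk_pow, ← pow_mul, mul_comm,
      ← hc]
    exact pow_orderOf_eq_one _
  · intro g
    rw [← QuotientGroup.eq_one_iff]
    simp only [QuotientGroup.mk_mul, QuotientGroup.mk_inv, QuotientGroup.mk_pow]
    have h3 := ((hcom g).pow_left c).eq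
    rw [h3]
    group

/-- The subgroup generated by `R` and `x`. -/
def Aof (R : Subgroup K) (x : K) : Subgroup K := R ⊔ Subgroup.zpowers x

theorem le_Aof (R : Subgroup K) (x : K) : R ≤ Aof R x := le_sup_left

theorem self_mem_Aof (R : Subgroup K) (x : K) : x ∈ Aof R x :=
  (le_sup_right : Subgroup.zpowers x ≤ Aof R x) (Subgroup.mem_zpowers x)

theorem mem_Aof [R.Normal] {x y : K} (hy : y ∈ Aof R x) : ∃ r ∈ R, ∃ n : ℕ, y = r * x ^ n := by
  have h1 : y ∈ ((R ⊔ Subgroup.zpowers x : Subgroup K) : Set K) := hy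
  rw [Subgroup.normal_mul R (Subgroup.zpowers x)] at h1
  obtain ⟨r, hr, z, hz, rfl⟩ := Set.mem_mul.mp h1
  have h2 : z ∈ Submonoid.powers x := mem_powers_iff_mem_zpowers.mpr hz
  obtain ⟨n, rfl⟩ := Submonoid.mem_powers_iff _ _ |>.mp h2
  exact ⟨r, hr, n, rfl⟩

theorem comm_mem_right [R.Normal] {x : K} (hx : ∀ g : K, x * g * x⁻¹ * g⁻¹ ∈ R) (k : K) :
    k * x * k⁻¹ * x⁻¹ ∈ R := by
  have : k * x * k⁻¹ * x⁻¹ = (x * k * x⁻¹ * k⁻¹)⁻¹ := by group
  rw [this]
  exact R.inv_mem (hx k)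

theorem Aof_normal [hR : R.Normal] {x : K} (hx : ∀ g : K, x * g * x⁻¹ * g⁻¹ ∈ R) :
    (Aof R x).Normal := by
  refine ⟨fun y hy k => ?_⟩
  obtain ⟨r, hr, n, rfl⟩ := mem_Aof hy
  have h1 : k * (r * x ^ n) * k⁻¹ = (k * r * k⁻¹) * (k * x * k⁻¹) ^ n := by
    rw [conj_pow]
    group
  rw [h1]
  have h2 : k * x * k⁻¹ ∈ Aof R x := by
    have e : k * x * k⁻¹ = (k * x * k⁻¹ * x⁻¹) * x := by group
    rw [e]
    exact Subgroup.mul_mem _ (le_Aof R x (comm_mem_right hx k)) (self_mem_Aof R x)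
  exact Subgroup.mul_mem _ (le_Aof R x (hR.conj_mem r hr k)) (Subgroup.pow_mem _ h2 n)

/-- Two linear functions which agree on `R` and `x` agree on `R ⊔ ⟨x⟩`. -/
theorem lin_ext [R.Normal] {x : K} {a a' : K → ℂ} (ha : IsLin (Aof R x) a) (ha' : IsLin (Aof R x) a')
    (hR : ∀ r ∈ R, a r = a' r) (hx : a x = a' x) {y : K} (hy : y ∈ Aof R x) : a y = a' y := by
  obtain ⟨r, hr, n, rfl⟩ := mem_Aof hy
  have h1 := Subgroup.pow_mem _ (self_mem_Aof R x) n
  rw [ha.mul _ (le_Aof R x hr) _ h1, ha'.mul _ (le_Aof R x hr) _ h1, ha.pow (self_mem_Aof R x),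
    ha'.pow (self_mem_Aof R x), hx, hR r hr]

open Classical in
/-- The sum of the squares of the degrees smaller than `f` of the characters over `b`. -/
noncomputable def Mass (R : Subgroup K) (b : K → ℂ) (f : ℕ) : ℕ :=
  ∑ θ : IrrCharacter K, if Over R b (θ : K → ℂ) ∧ charDegree (θ : K → ℂ) < f then
    charDegree (θ : K → ℂ) ^ 2 else 0

theorem Mass_mono {A : Subgroup K} {a : K → ℂ} (h : ∀ θ : K → ℂ, IsIrrCharacter K θ → Over A a θ → Over R b θ)
    (f : ℕ) : Mass A a f ≤ Mass R b f := by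
  classical
  unfold Mass
  refine Finset.sum_le_sum (fun θ _ => ?_)
  by_cases h1 : Over A a (θ : K → ℂ) ∧ charDegree (θ : K → ℂ) < f
  · rw [if_pos h1, if_pos ⟨h _ θ.2 h1.1, h1.2⟩]
  · rw [if_neg h1]
    exact Nat.zero_le _

/-- If all characters over `b` are of small degree, the mass is the index. -/
theorem Mass_eq_index [R.Normal] (hb : IsLin R b) {f : ℕ}
    (h : ∀ θ : K → ℂ, IsIrrCharacter K θ → Over R b θ → charDegree θ < f) : Mass R b f = R.index := by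
  classical
  rw [← total_mass hb]
  unfold Mass
  refine Finset.sum_congr rfl (fun θ _ => ?_)
  by_cases h1 : Over R b (θ : K → ℂ)
  · rw [if_pos ⟨h1, h _ θ.2 h1⟩, if_pos h1]
  · rw [if_neg (fun h2 => h1 h2.1), if_neg h1]

theorem deg_sq_le_of_over [R.Normal] (hb : IsLin R b) {θ : K → ℂ} (hθ : IsIrrCharacter K θ)
    (ho : Over R b θ) : charDegree θ ^ 2 ≤ R.index :=
  deg_sq_le_index hθ R (fun _ hz g => over_central hb ho hz g)

/-- The commutator function is multiplicative. -/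
theorem gg_mul [hR : R.Normal] (hb : IsLin R b) {x : K} (hx : ∀ g : K, x * g * x⁻¹ * g⁻¹ ∈ R) (k k' : K) :
    b ((k * k') * x * (k * k')⁻¹ * x⁻¹) = b (k * x * k⁻¹ * x⁻¹) * b (k' * x * k'⁻¹ * x⁻¹) := by
  have e : (k * k') * x * (k * k')⁻¹ * x⁻¹ = (k * (k' * x * k'⁻¹ * x⁻¹) * k⁻¹) * (k * x * k⁻¹ * x⁻¹) := by
    group
  rw [e, hb.mul _ (hR.conj_mem _ (comm_mem_right hx k') k) _ (comm_mem_right hx k),
    hb.inv k _ (comm_mem_right hx k')]
  ring

theorem gg_ne_zero [R.Normal] (hb : IsLin R b) {x : K} (hx : ∀ g : K, x * g * x⁻¹ * g⁻¹ ∈ R) (k : K) :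
    b (k * x * k⁻¹ * x⁻¹) ≠ 0 := hb.ne_zero (comm_mem_right hx k)

/-- The commutator function as a homomorphism. -/
noncomputable def ggHom [R.Normal] (hb : IsLin R b) {x : K} (hx : ∀ g : K, x * g * x⁻¹ * g⁻¹ ∈ R) :
    K →* ℂˣ where
  toFun k := Units.mk0 (b (k * x * k⁻¹ * x⁻¹)) (gg_ne_zero hb hx k)
  map_one' := by
    ext
    simp [hb.one]
  map_mul' k k' := by
    ext
    simp only [Units.val_mk0, Units.val_mul]
    exact gg_mul hb hx k k'

theorem mem_ker_ggHom [R.Normal] (hb : IsLin R b) {x : K} (hx : ∀ g : K, x * g * x⁻¹ * g⁻¹ ∈ R) (k : K) :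
    k ∈ (ggHom hb hx).ker ↔ b (k * x * k⁻¹ * x⁻¹) = 1 := by
  rw [MonoidHom.mem_ker]
  constructor
  · intro h
    have := congrArg Units.val h
    simpa [ggHom] using this
  · intro h
    ext
    simpa [ggHom] using h

theorem gg_pow [hR : R.Normal] (hb : IsLin R b) {x : K} (hx : ∀ g : K, x * g * x⁻¹ * g⁻¹ ∈ R) (k : K) (n : ℕ) :
    k * x ^ n * k⁻¹ * (x ^ n)⁻¹ ∈ R ∧ b (k * x ^ n * k⁻¹ * (x ^ n)⁻¹) = b (k * x * k⁻¹ * x⁻¹) ^ n := by
  induction n with
  | zero => simp [hb.one, R.one_mem]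
  | succ n ih =>
    have e : k * x ^ (n + 1) * k⁻¹ * (x ^ (n + 1))⁻¹ =
        (k * x * k⁻¹ * x⁻¹) * (x * (k * x ^ n * k⁻¹ * (x ^ n)⁻¹) * x⁻¹) := by
      rw [pow_succ']
      group
    rw [e]
    have h1 := comm_mem_right hx k
    have h2 := hR.conj_mem _ ih.1 x
    refine ⟨R.mul_mem h1 h2, ?_⟩
    rw [hb.mul _ h1 _ h2, hb.inv x _ ih.1, ih.2, pow_succ]
    ring

/-- The values of the commutator function are `q`-th roots of unity. -/
theorem gg_pow_eq_one [hR : R.Normal] (hb : IsLin R b) {x : K} (hx : ∀ g : K, x * g * x⁻¹ * g⁻¹ ∈ R) (k : K)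
    {q : ℕ} (hq : x ^ q ∈ R) : b (k * x * k⁻¹ * x⁻¹) ^ q = 1 := by
  rw [← (gg_pow hb hx k q).2, hb.mul _ (hR.conj_mem _ hq k) _ (R.inv_mem hq), hb.inv k _ hq,
    hb.mul_inv hq]

/-- If `x` is central modulo the kernel of `b`, it is central modulo the kernels of the characters
over `b`. -/
theorem Aof_central [hR : R.Normal] (hb : IsLin R b) {x : K}
    (hx : ∀ g : K, x * g * x⁻¹ * g⁻¹ ∈ R) (hg : ∀ k, b (k * x * k⁻¹ * x⁻¹) = 1)
    {θ : K → ℂ} (hθ : IsIrrCharacter K θ) (ho : Over R b θ) : ∀ z ∈ Aof R x, ∀ g,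
      θ (z * g * z⁻¹ * g⁻¹) = θ 1 := by
  intro z hz
  have hle : Aof R x ≤ centralMod (IsIrrCharacter.isCharacter hθ) := by
    apply sup_le
    · intro r hr
      rw [mem_centralMod]
      exact over_central hb ho hr
    · rw [Subgroup.zpowers_le, mem_centralMod]
      intro g
      rw [ho _ (hx g)]
      have e : x * g * x⁻¹ * g⁻¹ = (g * x * g⁻¹ * x⁻¹)⁻¹ := by group
      have h1 := hb.mul_inv (comm_mem_right hx g)
      rw [hg g, one_mul] at h1
      rw [e, h1, mul_one]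
  exact (mem_centralMod _).mp (hle hz)

/-- The first case of the induction: the element `x` is central modulo the kernel of `b`. -/
theorem step_one [hR : R.Normal] (hb : IsLin R b) {x : K} (hxR : x ∉ R)
    (hx : ∀ g : K, x * g * x⁻¹ * g⁻¹ ∈ R) (hg : ∀ k, b (k * x * k⁻¹ * x⁻¹) = 1)
    {θ₁ θ₄ : K → ℂ} (h₁ : IsIrrCharacter K θ₁) (h₄ : IsIrrCharacter K θ₄)
    (ho₁ : Over R b θ₁) (ho₄ : Over R b θ₄) {f : ℕ} (hf₁ : charDegree θ₁ < f)
    (hf₄ : f ≤ charDegree θ₄)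
    (ih : ∀ (A : Subgroup K) (_ : A.Normal) (a : K → ℂ), IsLin A a → A.index < R.index →
      ∀ θ₁ θ₄ : K → ℂ, IsIrrCharacter K θ₁ → IsIrrCharacter K θ₄ → Over A a θ₁ → Over A a θ₄ →
      charDegree θ₁ < f → f ≤ charDegree θ₄ → f ^ 2 ≤ Mass A a f) :
    f ^ 2 ≤ Mass R b f := by
  classical
  have hAn : (Aof R x).Normal := Aof_normal hx
  have hcent : ∀ θ : K → ℂ, IsIrrCharacter K θ → Over R b θ → ∀ z ∈ Aof R x, ∀ g,
      θ (z * g * z⁻¹ * g⁻¹) = θ 1 := fun θ hθ ho => Aof_central hb hx hg hθ ho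
  have hidx : (Aof R x).index < R.index :=
    index_lt_of_le (le_Aof R x) (fun h => hxR (h (self_mem_Aof R x)))
  set a : K → ℂ := fun y => θ₁ y / θ₁ 1 with ha
  have hal : IsLin (Aof R x) a := isLin_of_central h₁ (hcent θ₁ h₁ ho₁)
  have hao₁ : Over (Aof R x) a θ₁ := over_of_central h₁ _
  have h01 := isIrr_one_ne_zero h₁
  have habR : ∀ r ∈ R, a r = b r := by
    intro r hr
    show θ₁ r / θ₁ 1 = b r
    rw [ho₁ r hr]
    field_simp
  have htrans : ∀ θ : K → ℂ, IsIrrCharacter K θ → Over (Aof R x) a θ → Over R b θ := by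
    intro θ _ ho r hr
    rw [ho r (le_Aof R x hr), habR r hr]
  refine le_trans ?_ (Mass_mono htrans f)
  by_cases hbig : ∃ θ : K → ℂ, IsIrrCharacter K θ ∧ Over (Aof R x) a θ ∧ f ≤ charDegree θ
  · obtain ⟨θ', h1, h2, h3⟩ := hbig
    exact ih _ hAn a hal hidx θ₁ θ' h₁ h1 hao₁ h2 hf₁ h3
  · push Not at hbig
    rw [Mass_eq_index hal (fun θ h1 h2 => hbig θ h1 h2)]
    have h1 : charDegree θ₄ ^ 2 ≤ (Aof R x).index := deg_sq_le_index h₄ _ (hcent θ₄ h₄ ho₄)
    exact (Nat.pow_le_pow_left hf₄ 2).trans h1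

end Step

section StepTwo

variable {K : Type u} [Group K] [Fintype K] {R : Subgroup K} [hR : R.Normal] {b : K → ℂ}
  {J : Subgroup K} [hJ : J.Normal]

/-- The restriction to a subgroup. -/
theorem res_isLin (hb : IsLin R b) : IsLin (R.subgroupOf J) (fun u : J => b u) := by
  refine ⟨?_, ?_, ?_⟩
  · intro r hr s hs
    rw [Subgroup.mem_subgroupOf] at hr hs
    exact hb.mul r hr s hs
  · intro k r hr
    rw [Subgroup.mem_subgroupOf] at hr
    exact hb.inv k r hr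
  · exact hb.one

theorem res_hx {x : K} (hx : ∀ g : K, x * g * x⁻¹ * g⁻¹ ∈ R) (hxJ : x ∈ J) (u : J) :
    (⟨x, hxJ⟩ : J) * u * (⟨x, hxJ⟩ : J)⁻¹ * u⁻¹ ∈ R.subgroupOf J := by
  rw [Subgroup.mem_subgroupOf]
  exact hx u

theorem conjBy_at_one (k : K) (θ : J → ℂ) : conjBy J hJ k θ 1 = θ 1 := by
  rw [conjBy_apply]
  congr 1
  apply Subtype.ext
  simp

theorem conjBy_x (hb : IsLin R b) {x : K} (hx : ∀ g : K, x * g * x⁻¹ * g⁻¹ ∈ R) (hRJ : R ≤ J)
    (hxJ : x ∈ J) {θ : J → ℂ} (hθ : IsIrrCharacter J θ)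
    (ho : Over (R.subgroupOf J) (fun u : J => b u) θ) (k : K) :
    conjBy J hJ k θ ⟨x, hxJ⟩ = b (k * x * k⁻¹ * x⁻¹) * θ ⟨x, hxJ⟩ := by
  have hc := comm_mem_right hx k
  have e : (⟨k * x * k⁻¹, hJ.conj_mem x hxJ k⟩ : J) = ⟨k * x * k⁻¹ * x⁻¹, hRJ hc⟩ * ⟨x, hxJ⟩ := by
    apply Subtype.ext
    simp
  rw [conjBy_apply]
  show θ ⟨k * x * k⁻¹, _⟩ = _
  rw [e, over_mul (res_isLin hb) hθ ho (by rw [Subgroup.mem_subgroupOf]; exact hc)]

theorem conjBy_over (hb : IsLin R b) {θ : J → ℂ} (ho : Over (R.subgroupOf J) (fun u : J => b u) θ)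
    (k : K) : Over (R.subgroupOf J) (fun u : J => b u) (conjBy J hJ k θ) := by
  intro r hr
  rw [Subgroup.mem_subgroupOf] at hr
  rw [conjBy_at_one, conjBy_apply]
  have h1 : (⟨k * r * k⁻¹, hJ.conj_mem r r.2 k⟩ : J) ∈ R.subgroupOf J := by
    rw [Subgroup.mem_subgroupOf]
    exact hR.conj_mem _ hr k
  rw [ho _ h1]
  show θ 1 * b (k * r * k⁻¹) = θ 1 * b r
  rw [hb.inv k _ hr]

/-- Under the hypotheses of the second case the value at `x` does not vanish. -/
theorem val_x_ne_zero (hb : IsLin R b) {x : K} (hx : ∀ g : K, x * g * x⁻¹ * g⁻¹ ∈ R)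
    (hJm : ∀ k, k ∈ J ↔ b (k * x * k⁻¹ * x⁻¹) = 1) (hxJ : x ∈ J)
    {θ : J → ℂ} (hθ : IsIrrCharacter J θ) (ho : Over (R.subgroupOf J) (fun u : J => b u) θ) :
    IsLin (Aof (R.subgroupOf J) ⟨x, hxJ⟩) (fun y => θ y / θ 1) ∧ θ ⟨x, hxJ⟩ ≠ 0 := by
  haveI : (R.subgroupOf J).Normal := inferInstance
  have hg : ∀ u : J, b (((u * ⟨x, hxJ⟩ * u⁻¹ * (⟨x, hxJ⟩ : J)⁻¹ : J)) : K) = 1 := fun u =>
    (hJm u).mp u.2
  have hc := Aof_central (R := R.subgroupOf J) (b := fun u : J => b u) (res_isLin hb)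
    (res_hx hx hxJ) hg hθ ho
  have hl := isLin_of_central hθ hc
  refine ⟨hl, ?_⟩
  have h1 := hl.ne_zero (self_mem_Aof _ _)
  intro h2
  apply h1
  show θ ⟨x, hxJ⟩ / θ 1 = 0
  rw [h2, zero_div]

/-- Induced characters are irreducible. -/
theorem ind_irr_J (hb : IsLin R b) {x : K} (hx : ∀ g : K, x * g * x⁻¹ * g⁻¹ ∈ R) (hRJ : R ≤ J)
    (hJm : ∀ k, k ∈ J ↔ b (k * x * k⁻¹ * x⁻¹) = 1) (hxJ : x ∈ J)
    {θ : J → ℂ} (hθ : IsIrrCharacter J θ) (ho : Over (R.subgroupOf J) (fun u : J => b u) θ) :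
    IsIrrCharacter K (indFun J θ) := by
  classical
  have hne := (val_x_ne_zero hb hx hJm hxJ hθ ho).2
  have hstab : Nat.card {g : K // conjBy J hJ g θ = θ} = Nat.card J := by
    apply Nat.card_congr
    apply Equiv.subtypeEquivRight
    intro g
    constructor
    · intro h
      rw [hJm]
      have h1 := congrFun h ⟨x, hxJ⟩
      rw [conjBy_x hb hx hRJ hxJ hθ ho] at h1
      exact mul_right_cancel₀ hne (h1.trans (one_mul _).symm)
    · intro hg
      funext a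
      rw [conjBy_apply]
      exact isClassFunction_of_isCharacter (IsIrrCharacter.isCharacter hθ) a ⟨g, hg⟩
  have hnorm := natCard_mul_classInner_indFun_self J hJ θ hθ
  rw [hstab] at hnorm
  have hN0 : (Nat.card J : ℂ) ≠ 0 := Nat.cast_ne_zero.mpr Nat.card_pos.ne'
  have hnorm1 : classInner (indFun J θ) (indFun J θ) = 1 := by
    apply mul_left_cancel₀ hN0
    rw [hnorm, mul_one]
  exact isIrrCharacter_of_norm_one (indFun_isCharacter J (IsIrrCharacter.isCharacter hθ)) hnorm1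

/-- Induced characters are over `b`. -/
theorem ind_over (hb : IsLin R b) (hRJ : R ≤ J) {θ : J → ℂ}
    (ho : Over (R.subgroupOf J) (fun u : J => b u) θ) : Over R b (indFun J θ) := by
  intro r hr
  have hov := conjBy_over (hJ := hJ) hb ho
  have h1 := indFun_of_mem_normal J hJ θ ⟨r, hRJ hr⟩
  have h2 : ∀ k : K, conjBy J hJ k θ ⟨r, hRJ hr⟩ = θ 1 * b r := by
    intro k
    have h3 := hov k ⟨r, hRJ hr⟩ (by rw [Subgroup.mem_subgroupOf]; exact hr)
    rw [h3, conjBy_at_one]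
  simp only [h2, Finset.sum_const, Finset.card_univ, nsmul_eq_mul] at h1
  show indFun J θ r = _
  rw [show (r : K) = ((⟨r, hRJ hr⟩ : J) : K) from rfl, h1, indFun_one]
  have hK := Subgroup.card_mul_index J
  have hN0 : (Nat.card J : ℂ) ≠ 0 := Nat.cast_ne_zero.mpr Nat.card_pos.ne'
  rw [← Nat.card_eq_fintype_card, ← hK]
  push_cast
  field_simp

/-- A character of `K` over `b` is induced from `J`. -/
theorem exists_constituent (hb : IsLin R b) {x : K} (hx : ∀ g : K, x * g * x⁻¹ * g⁻¹ ∈ R) (hRJ : R ≤ J)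
    (hJm : ∀ k, k ∈ J ↔ b (k * x * k⁻¹ * x⁻¹) = 1) (hxJ : x ∈ J)
    {θ : K → ℂ} (hθ : IsIrrCharacter K θ) (ho : Over R b θ) :
    ∃ θ₀ : J → ℂ, IsIrrCharacter J θ₀ ∧ Over (R.subgroupOf J) (fun u : J => b u) θ₀ ∧
      indFun J θ₀ = θ := by
  classical
  letI : Fintype J := Fintype.ofFinite J
  have hc := IsIrrCharacter.isCharacter hθ
  obtain ⟨m, hm⟩ := exists_nat_decomp (isCharacter_restrict J hc)
  have hex : ∃ i, m i ≠ 0 := by
    by_contra hcon
    push Not at hcon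
    have h1 := congrFun hm 1
    simp only [hcon, zero_smul, Finset.sum_const_zero] at h1
    exact isIrr_one_ne_zero hθ h1
  obtain ⟨i, hi⟩ := hex
  have hover : Over (R.subgroupOf J) (fun u : J => b u) (i : J → ℂ) := by
    intro r hr
    rw [Subgroup.mem_subgroupOf] at hr
    refine constituent_scalar m (hb.norm hr) ?_ hi
    rw [← hm]
    exact ho r hr
  refine ⟨i, i.2, hover, ?_⟩
  have hind := ind_irr_J hb hx hRJ hJm hxJ i.2 hover
  by_contra hne
  have h0 := classInner_irr_ne hind hθ hne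
  rw [frobenius J _ (isClassFunction_of_isCharacter hc), hm] at h0
  have h1 : classInner (∑ j, m j • (j : J → ℂ)) (i : J → ℂ) = 0 := by
    rw [← classInner_conj_symm, h0, map_zero]
  rw [classInner_nat_decomp m _ i.2] at h1
  exact hi (by exact_mod_cast h1)

/-- Conjugacy from the equality of the induced characters. -/
theorem conj_of_ind_eq {θ θ' : J → ℂ} (hθ : IsIrrCharacter J θ) (hθ' : IsIrrCharacter J θ')
    (hI : IsIrrCharacter K (indFun J θ)) (h : indFun J θ = indFun J θ') :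
    ∃ k, conjBy J hJ k θ = θ' := by
  classical
  letI : Fintype J := Fintype.ofFinite J
  have h1 := classInner_indFun_indFun J hJ θ θ'
  rw [← h, classInner_irr_self hI] at h1
  by_contra hcon
  push Not at hcon
  have h2 : ∑ x : K, ∑ y : K, classInner (conjBy J hJ x θ) (conjBy J hJ y θ') = 0 := by
    refine Finset.sum_eq_zero fun x _ => Finset.sum_eq_zero fun y _ => ?_
    apply classInner_irr_ne (isIrrCharacter_conjBy J hJ x hθ) (isIrrCharacter_conjBy J hJ y hθ')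
    intro he
    apply hcon (x * y⁻¹)
    rw [← conjBy_conjBy, he, conjBy_conjBy, mul_inv_cancel, conjBy_one]
  rw [h2, mul_zero] at h1
  exact one_ne_zero h1

/-- Injectivity of induction on the characters over `a`. -/
theorem ind_inj_over (hb : IsLin R b) {x : K} (hx : ∀ g : K, x * g * x⁻¹ * g⁻¹ ∈ R) (hRJ : R ≤ J)
    (hJm : ∀ k, k ∈ J ↔ b (k * x * k⁻¹ * x⁻¹) = 1) (hxJ : x ∈ J)
    {θ θ' : J → ℂ} (hθ : IsIrrCharacter J θ) (hθ' : IsIrrCharacter J θ')
    (ho : Over (R.subgroupOf J) (fun u : J => b u) θ) {a : J → ℂ}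
    (hoa : Over (Aof (R.subgroupOf J) ⟨x, hxJ⟩) a θ) (hoa' : Over (Aof (R.subgroupOf J) ⟨x, hxJ⟩) a θ')
    (h : indFun J θ = indFun J θ') : θ = θ' := by
  obtain ⟨k, hk⟩ := conj_of_ind_eq hθ hθ' (ind_irr_J hb hx hRJ hJm hxJ hθ ho) h
  have h1 := congrFun hk ⟨x, hxJ⟩
  rw [conjBy_x hb hx hRJ hxJ hθ ho, hoa' _ (self_mem_Aof _ _), hoa _ (self_mem_Aof _ _)] at h1
  have h2 : θ' 1 = θ 1 := by
    rw [← hk, conjBy_at_one]
  rw [h2] at h1
  have hne := (val_x_ne_zero hb hx hJm hxJ hθ ho).2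
  rw [hoa _ (self_mem_Aof _ _)] at hne
  have h3 : b (k * x * k⁻¹ * x⁻¹) = 1 := by
    apply mul_right_cancel₀ hne
    rw [h1, one_mul]
  have hkJ : k ∈ J := (hJm k).mpr h3
  rw [← hk]
  funext u
  rw [conjBy_apply]
  exact (isClassFunction_of_isCharacter (IsIrrCharacter.isCharacter hθ) u ⟨k, hkJ⟩).symm

end StepTwo

section Main

/-- The second case of the induction. -/
theorem step_two {K : Type u} [Group K] [Finite K] {R : Subgroup K} [hR : R.Normal] {b : K → ℂ}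
    (hnil : Group.IsNilpotent K) (hb : IsLin R b) {x : K} (hxR : x ∉ R)
    (hx : ∀ g : K, x * g * x⁻¹ * g⁻¹ ∈ R) {q : ℕ} (hq : q.Prime) (hxq : x ^ q ∈ R) {k₀ : K}
    (hk₀ : b (k₀ * x * k₀⁻¹ * x⁻¹) ≠ 1)
    {θ₁ θ₄ : K → ℂ} (h₁ : IsIrrCharacter K θ₁) (h₄ : IsIrrCharacter K θ₄)
    (ho₁ : Over R b θ₁) (ho₄ : Over R b θ₄) {f : ℕ} (hf₁ : charDegree θ₁ < f)
    (hf₄ : f ≤ charDegree θ₄)
    (ih : ∀ (L : Type u) [Group L] [Finite L], Group.IsNilpotent L →
      ∀ (A : Subgroup L) (_ : A.Normal) (a : L → ℂ), IsLin A a → A.index < R.index →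
      ∀ θ₁ θ₄ : L → ℂ, IsIrrCharacter L θ₁ → IsIrrCharacter L θ₄ → Over A a θ₁ → Over A a θ₄ →
      ∀ f : ℕ, charDegree θ₁ < f → f ≤ charDegree θ₄ → f ^ 2 ≤ Mass A a f) :
    f ^ 2 ≤ Mass R b f := by
  classical
  letI := Fintype.ofFinite K
  set J : Subgroup K := (ggHom hb hx).ker with hJdef
  haveI hJ : J.Normal := MonoidHom.normal_ker _
  have hJm : ∀ k, k ∈ J ↔ b (k * x * k⁻¹ * x⁻¹) = 1 := mem_ker_ggHom hb hx
  have hRJ : R ≤ J := fun r hr => (hJm r).mpr (hb.comm hr x)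
  have hxJ : x ∈ J := by
    rw [hJm]
    have e : x * x * x⁻¹ * x⁻¹ = 1 := by group
    rw [e, hb.one]
  have hk₀J : k₀ ∉ J := fun h => hk₀ ((hJm k₀).mp h)
  set x₁ : J := ⟨x, hxJ⟩ with hx₁
  set R₁ : Subgroup J := R.subgroupOf J with hR₁
  set b₁ : J → ℂ := fun u => b u with hb₁
  have hb₁l : IsLin R₁ b₁ := res_isLin hb
  have hx₁c : ∀ u : J, x₁ * u * x₁⁻¹ * u⁻¹ ∈ R₁ := res_hx hx hxJ
  have hx₁R : x₁ ∉ R₁ := by
    rw [hR₁, Subgroup.mem_subgroupOf]
    exact hxR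
  set A₁ : Subgroup J := Aof R₁ x₁ with hA₁
  haveI hA₁n : A₁.Normal := Aof_normal hx₁c
  set e := J.index with he
  have he0 : 0 < e := Nat.pos_of_ne_zero Subgroup.index_ne_zero_of_finite
  -- the indices
  have hidx : A₁.index < R.index := by
    have h1 : A₁.index < R₁.index :=
      index_lt_of_le (le_Aof R₁ x₁) (fun h => hx₁R (h (self_mem_Aof R₁ x₁)))
    have h2 := Subgroup.relIndex_mul_index hRJ
    have h3 : R₁.index = R.relIndex J := rfl
    rw [h3] at h1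
    rw [← h2]
    exact lt_of_lt_of_le h1 (Nat.le_mul_of_pos_right _ he0)
  -- the constituents
  obtain ⟨θ₀₁, h01, ho01, hi01⟩ := exists_constituent hb hx hRJ hJm hxJ h₁ ho₁
  obtain ⟨θ', h', ho', hi'⟩ := exists_constituent hb hx hRJ hJm hxJ h₄ ho₄
  have hvn := fun {θ : J → ℂ} (hθ : IsIrrCharacter J θ) (ho : Over R₁ b₁ θ) =>
    val_x_ne_zero hb hx hJm hxJ hθ ho
  set a : J → ℂ := fun y => θ₀₁ y / θ₀₁ 1 with ha
  have hal : IsLin A₁ a := (hvn h01 ho01).1
  have hao₁ : Over A₁ a θ₀₁ := over_of_central h01 _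
  have h0n : θ₀₁ 1 ≠ 0 := isIrr_one_ne_zero h01
  have h0n' : θ' 1 ≠ 0 := isIrr_one_ne_zero h'
  have haR : ∀ r ∈ R₁, a r = b₁ r := by
    intro r hr
    show θ₀₁ r / θ₀₁ 1 = b₁ r
    rw [ho01 r hr]
    field_simp
    rfl
  -- the two values at `x`
  set a' : J → ℂ := fun y => θ' y / θ' 1 with ha'
  have hal' : IsLin A₁ a' := (hvn h' ho').1
  have ha'R : ∀ r ∈ R₁, a' r = b₁ r := by
    intro r hr
    show θ' r / θ' 1 = b₁ r
    rw [ho' r hr]
    field_simp
    rfl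
  have hxq₁ : x₁ ^ q ∈ R₁ := by
    rw [hR₁, Subgroup.mem_subgroupOf]
    simpa [hx₁] using hxq
  have hβq : a x₁ ^ q = b₁ (x₁ ^ q) := by
    rw [← hal.pow (self_mem_Aof R₁ x₁), haR _ hxq₁]
  have hαq : a' x₁ ^ q = b₁ (x₁ ^ q) := by
    rw [← hal'.pow (self_mem_Aof R₁ x₁), ha'R _ hxq₁]
  have hαne : a' x₁ ≠ 0 := hal'.ne_zero (self_mem_Aof R₁ x₁)
  set w := a x₁ / a' x₁ with hw
  have hwq : w ^ q = 1 := by
    rw [hw, div_pow, hβq, hαq]
    apply div_self
    rw [← hαq]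
    exact pow_ne_zero _ hαne
  -- a conjugating element
  have hζq := gg_pow_eq_one hb hx k₀ hxq
  have hprim : IsPrimitiveRoot (b (k₀ * x * k₀⁻¹ * x⁻¹)) q := by
    haveI : Fact q.Prime := ⟨hq⟩
    have h1 := orderOf_eq_prime hζq hk₀
    rw [← h1]
    exact IsPrimitiveRoot.orderOf _
  haveI : NeZero q := ⟨hq.ne_zero⟩
  obtain ⟨i, -, hi⟩ := hprim.eq_pow_of_pow_eq_one hwq
  set k₁ := k₀ ^ i with hk₁
  have hk₁v : b (k₁ * x * k₁⁻¹ * x⁻¹) = w := by
    rw [← hi]
    have h1 : ggHom hb hx k₁ = (ggHom hb hx k₀) ^ i := by rw [hk₁, map_pow]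
    have h2 := congrArg Units.val h1
    simpa [ggHom] using h2
  set θ₀₄ : J → ℂ := conjBy J hJ k₁ θ' with hθ₀₄
  have h04 : IsIrrCharacter J θ₀₄ := isIrrCharacter_conjBy J hJ k₁ h'
  have ho04 : Over R₁ b₁ θ₀₄ := conjBy_over hb ho' k₁
  have h04one : θ₀₄ 1 = θ' 1 := conjBy_at_one k₁ θ'
  have h04x : θ₀₄ x₁ = a x₁ * θ₀₄ 1 := by
    rw [hθ₀₄, conjBy_x hb hx hRJ hxJ h' ho', hk₁v, conjBy_at_one]
    show w * θ' x₁ = _
    rw [hw]
    have : a' x₁ = θ' x₁ / θ' 1 := rfl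
    have h5 : θ' x₁ = a' x₁ * θ' 1 := by
      rw [this]
      field_simp
    rw [h5]
    field_simp
  have hao₄ : Over A₁ a θ₀₄ := by
    have hl4 := (hvn h04 ho04).1
    have h04n : θ₀₄ 1 ≠ 0 := isIrr_one_ne_zero h04
    intro y hy
    have h5 : a y = θ₀₄ y / θ₀₄ 1 := by
      refine lin_ext hal hl4 ?_ ?_ hy
      · intro r hr
        rw [haR r hr]
        show b₁ r = θ₀₄ r / θ₀₄ 1
        rw [ho04 r hr]
        field_simp
      · show a x₁ = θ₀₄ x₁ / θ₀₄ 1
        rw [h04x]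
        field_simp
    rw [h5]
    field_simp
  -- degrees
  have hdeg : ∀ θ₀ : J → ℂ, IsIrrCharacter J θ₀ → charDegree (indFun J θ₀) = e * charDegree θ₀ :=
    fun θ₀ h => FrobIrr9.charDegree_ind (IsIrrCharacter.isCharacter h)
  have hd1 : e * charDegree θ₀₁ = charDegree θ₁ := by rw [← hdeg _ h01, hi01]
  have hd4 : e * charDegree θ₀₄ = charDegree θ₄ := by
    have h5 : charDegree θ₀₄ = charDegree θ' := by
      have h6 := h04one
      rw [one_eq_charDegree (IsIrrCharacter.isCharacter h04),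
        one_eq_charDegree (IsIrrCharacter.isCharacter h')] at h6
      exact_mod_cast h6
    rw [h5, ← hdeg _ h', hi']
  set f' := (f - 1) / e + 1 with hf'
  have hf'₁ : charDegree θ₀₁ < f' := by
    rw [hf', Nat.lt_succ_iff, Nat.le_div_iff_mul_le he0, mul_comm, hd1]
    omega
  have hf'₄ : f' ≤ charDegree θ₀₄ := by
    rw [hf']
    apply Nat.succ_le_of_lt
    rw [Nat.div_lt_iff_lt_mul he0, mul_comm, hd4]
    have : 0 < charDegree θ₄ := charDegree_pos h₄
    omega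
  have hff' : f ≤ e * f' := by
    rw [hf', mul_add, mul_one]
    have h5 := Nat.div_add_mod (f - 1) e
    have h6 := Nat.mod_lt (f - 1) he0
    omega
  -- the induction hypothesis
  have hmain := ih J inferInstance A₁ hA₁n a hal hidx θ₀₁ θ₀₄ h01 h04 hao₁ hao₄ f' hf'₁ hf'₄
  -- the map
  have hoR : ∀ θ₀ : J → ℂ, Over A₁ a θ₀ → Over R₁ b₁ θ₀ := by
    intro θ₀ ho r hr
    rw [ho r (le_Aof R₁ x₁ hr), haR r hr]
  have hmass : e ^ 2 * Mass A₁ a f' ≤ Mass R b f := by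
    unfold Mass
    rw [← Finset.sum_filter, ← Finset.sum_filter, Finset.mul_sum]
    set S₁ := Finset.univ.filter (fun θ₀ : IrrCharacter J => Over A₁ a (θ₀ : J → ℂ) ∧
      charDegree (θ₀ : J → ℂ) < f') with hS₁
    set T := Finset.univ.filter (fun θ : IrrCharacter K => Over R b (θ : K → ℂ) ∧
      charDegree (θ : K → ℂ) < f) with hT
    let I : IrrCharacter J → IrrCharacter K := fun θ₀ =>
      if h : IsIrrCharacter K (indFun J (θ₀ : J → ℂ)) then ⟨_, h⟩ else ⟨fun _ => 1, isIrrCharacter_one⟩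
    have hI : ∀ θ₀ ∈ S₁, ((I θ₀ : IrrCharacter K) : K → ℂ) = indFun J (θ₀ : J → ℂ) := by
      intro θ₀ h
      have h5 := (Finset.mem_filter.mp h).2.1
      have h6 := ind_irr_J hb hx hRJ hJm hxJ θ₀.2 (hoR _ h5)
      simp only [I, dif_pos h6]
    have hinj : Set.InjOn I S₁ := by
      intro θ₀ h θ₀' h' heq
      have h5 := (Finset.mem_filter.mp h).2.1
      have h6 := (Finset.mem_filter.mp h').2.1
      have h7 : indFun J (θ₀ : J → ℂ) = indFun J (θ₀' : J → ℂ) := by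
        rw [← hI θ₀ h, ← hI θ₀' h', heq]
      exact Subtype.ext (ind_inj_over hb hx hRJ hJm hxJ θ₀.2 θ₀'.2 (hoR _ h5) h5 h6 h7)
    have hsub : S₁.image I ⊆ T := by
      intro θ hθ
      obtain ⟨θ₀, h, rfl⟩ := Finset.mem_image.mp hθ
      have h5 := Finset.mem_filter.mp h
      rw [hT, Finset.mem_filter]
      refine ⟨Finset.mem_univ _, ?_, ?_⟩
      · rw [hI θ₀ h]
        exact ind_over hb hRJ (hoR _ h5.2.1)
      · rw [hI θ₀ h, hdeg _ θ₀.2]
        have h6 := h5.2.2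
        have h7 : charDegree (θ₀ : J → ℂ) ≤ (f - 1) / e := Nat.lt_succ_iff.mp h6
        have h8 := Nat.div_mul_le_self (f - 1) e
        have h9 : e * charDegree (θ₀ : J → ℂ) ≤ f - 1 :=
          le_trans (by rw [mul_comm]; exact Nat.mul_le_mul_right _ h7) h8
        have h10 : 0 < f := by
          have := charDegree_pos h₁
          omega
        omega
    calc ∑ θ₀ ∈ S₁, e ^ 2 * charDegree (θ₀ : J → ℂ) ^ 2
        = ∑ θ₀ ∈ S₁, charDegree ((I θ₀ : IrrCharacter K) : K → ℂ) ^ 2 := by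
          refine Finset.sum_congr rfl fun θ₀ h => ?_
          rw [hI θ₀ h, hdeg _ θ₀.2]
          ring
      _ = ∑ θ ∈ S₁.image I, charDegree (θ : K → ℂ) ^ 2 :=
          (Finset.sum_image (f := fun θ : IrrCharacter K => charDegree (θ : K → ℂ) ^ 2) hinj).symm
      _ ≤ _ := Finset.sum_le_sum_of_subset_of_nonneg hsub (fun _ _ _ => Nat.zero_le _)
  calc f ^ 2 ≤ (e * f') ^ 2 := Nat.pow_le_pow_left hff' 2
    _ = e ^ 2 * f' ^ 2 := by ring
    _ ≤ e ^ 2 * Mass A₁ a f' := Nat.mul_le_mul_left _ hmain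
    _ ≤ _ := hmass

/-- The induction. -/
theorem mass_bound_aux (n : ℕ) : ∀ (K : Type u) [Group K] [Finite K], Group.IsNilpotent K →
    ∀ (R : Subgroup K) (_ : R.Normal) (b : K → ℂ), IsLin R b → R.index = n →
    ∀ θ₁ θ₄ : K → ℂ, IsIrrCharacter K θ₁ → IsIrrCharacter K θ₄ → Over R b θ₁ → Over R b θ₄ →
    ∀ f : ℕ, charDegree θ₁ < f → f ≤ charDegree θ₄ → f ^ 2 ≤ Mass R b f := by
  induction n using Nat.strong_induction_on with
  | _ n ih =>
    intro K _ _ hnil R hR b hb hn θ₁ θ₄ h₁ h₄ ho₁ ho₄ f hf₁ hf₄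
    have hne : R ≠ ⊤ := by
      rintro rfl
      have h1 := deg_sq_le_of_over hb h₄ ho₄
      rw [Subgroup.index_top] at h1
      have h2 := charDegree_pos h₁
      have h3 : 2 ≤ charDegree θ₄ := by omega
      have h4 : 2 ^ 2 ≤ charDegree θ₄ ^ 2 := Nat.pow_le_pow_left h3 2
      omega
    obtain ⟨x, q, hq, hxR, hxq, hx⟩ := exists_central_prime hnil R hne
    by_cases hg : ∀ k, b (k * x * k⁻¹ * x⁻¹) = 1
    · refine step_one hb hxR hx hg h₁ h₄ ho₁ ho₄ hf₁ hf₄ ?_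
      intro A hA a ha hlt θ₁' θ₄' h₁' h₄' ho₁' ho₄' hf₁' hf₄'
      exact ih _ (hn ▸ hlt) K hnil A hA a ha rfl θ₁' θ₄' h₁' h₄' ho₁' ho₄' f hf₁' hf₄'
    · push Not at hg
      obtain ⟨k₀, hk₀⟩ := hg
      refine step_two hnil hb hxR hx hq hxq hk₀ h₁ h₄ ho₁ ho₄ hf₁ hf₄ ?_
      intro L _ _ hnilL A hA a ha hlt θ₁' θ₄' h₁' h₄' ho₁' ho₄' f' hf₁' hf₄'
      exact ih _ (hn ▸ hlt) L hnilL A hA a ha rfl θ₁' θ₄' h₁' h₄' ho₁' ho₄' f' hf₁' hf₄'

/-- **The mass bound.** -/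
theorem mass_bound {K : Type u} [Group K] [Finite K] (hnil : Group.IsNilpotent K) (R : Subgroup K)
    [hR : R.Normal] {b : K → ℂ} (hb : IsLin R b) {θ₁ θ₄ : K → ℂ} (h₁ : IsIrrCharacter K θ₁)
    (h₄ : IsIrrCharacter K θ₄) (ho₁ : Over R b θ₁) (ho₄ : Over R b θ₄) {f : ℕ}
    (hf₁ : charDegree θ₁ < f) (hf₄ : f ≤ charDegree θ₄) : f ^ 2 ≤ Mass R b f :=
  mass_bound_aux _ K hnil R hR b hb rfl θ₁ θ₄ h₁ h₄ ho₁ ho₄ f hf₁ hf₄

/-- The form of the mass bound without the restriction on `θ₄`: one has `θ₄(1)² ≥ f²` hence the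
bound when all the characters over `b` have degree smaller than `f`. -/
theorem mass_bound' {K : Type u} [Group K] [Finite K] (hnil : Group.IsNilpotent K) (R : Subgroup K)
    [hR : R.Normal] {b : K → ℂ} (hb : IsLin R b) {θ₁ : K → ℂ} (h₁ : IsIrrCharacter K θ₁)
    (ho₁ : Over R b θ₁) {f : ℕ} (hf₁ : charDegree θ₁ < f) (hf : f ^ 2 ≤ R.index) :
    f ^ 2 ≤ Mass R b f := by
  by_cases h : ∃ θ₄ : K → ℂ, IsIrrCharacter K θ₄ ∧ Over R b θ₄ ∧ f ≤ charDegree θ₄
  · obtain ⟨θ₄, h₄, ho₄, hf₄⟩ := h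
    exact mass_bound hnil R hb h₁ h₄ ho₁ ho₄ hf₁ hf₄
  · push Not at h
    rw [Mass_eq_index hb (fun θ hθ ho => h θ hθ ho)]
    exact hf

end Main

end Cfsg.Agent.Lib.MassBound
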