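import Mathlib

/-!
# Matrices over `ZMod p` as packed rows

A row of a matrix is one natural number with 16-bit fields. A product of matrices is evaluated by the kernel
with big number arithmetic: a row of `A * B` is `∑ A i k • (row k of B)`, computed in one number, after which its
fields are reduced mod `p`.
-/

set_option autoImplicit false
set_option linter.unusedSimpArgs false

namespace Cfsg.Agent.Lib.MatPack36

/-- The field `j` of a packed row. -/
def dg (R j : ℕ) : ℕ := R / 65536 ^ j % 65536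

/-- The number with the fields `f 0, f 1, ..., f (k - 1)`. -/
def pk (f : ℕ → ℕ) : ℕ → ℕ
  | 0 => 0
  | k + 1 => f 0 + 65536 * pk (fun j => f (j + 1)) k

/-- Reduction of the first `k` fields mod `p`. -/
noncomputable def nrm (p k x : ℕ) : ℕ :=
  Nat.rec (motive := fun _ => ℕ → ℕ) (fun _ => 0)
    (fun _ ih x => Nat.add (Nat.mod (Nat.mod x 65536) p) (Nat.mul 65536 (ih (Nat.shiftRight x 16)))) k x

/-- The combination of the rows `Bs` with the fields of `v` as coefficients. -/
noncomputable def comb (v : ℕ) (Bs : List ℕ) : ℕ :=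
  List.rec (motive := fun _ => ℕ → ℕ) (fun _ => 0)
    (fun b _ ih v => Nat.add (Nat.mul (Nat.mod v 65536) b) (ih (Nat.shiftRight v 16))) Bs v

/-- The product of two matrices given by packed rows. -/
noncomputable def mmul (p k : ℕ) (A Bs : List ℕ) : List ℕ :=
  List.rec (motive := fun _ => List ℕ) [] (fun r _ ih => List.cons (nrm p k (comb r Bs)) ih) A

/-- A word of tables. -/
noncomputable def evF (p k : ℕ) (Ms : ℕ → List ℕ) (w : List ℕ) (acc : List ℕ) : List ℕ :=
  List.rec (motive := fun _ => List ℕ → List ℕ) (fun acc => acc)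
    (fun x _ ih acc => ih (mmul p k acc (Ms x))) w acc

/-- The identity. -/
def idL (k : ℕ) : List ℕ := (List.range k).map fun i => 65536 ^ i

theorem dg_zero (x : ℕ) : dg x 0 = x % 65536 := by simp [dg]

theorem dg_succ (x j : ℕ) : dg x (j + 1) = dg (x / 65536) j := by
  simp only [dg, pow_succ', Nat.div_div_eq_div_mul]

theorem nrm_succ (p k x : ℕ) : nrm p (k + 1) x = x % 65536 % p + 65536 * nrm p k (x / 65536) := by
  have h : Nat.shiftRight x 16 = x / 65536 := by
    show x >>> 16 = x / 65536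
    rw [Nat.shiftRight_eq_div_pow]
  show Nat.add (Nat.mod (Nat.mod x 65536) p) (Nat.mul 65536 (nrm p k (Nat.shiftRight x 16))) = _
  rw [h]
  rfl

theorem nrm_eq (p : ℕ) : ∀ k x, nrm p k x = pk (fun j => dg x j % p) k
  | 0, x => rfl
  | k + 1, x => by
    rw [nrm_succ, nrm_eq p k]
    simp only [pk, dg_zero, dg_succ]

theorem comb_cons (b : ℕ) (Bs : List ℕ) (v : ℕ) :
    comb v (b :: Bs) = v % 65536 * b + comb (v / 65536) Bs := by
  have h : Nat.shiftRight v 16 = v / 65536 := by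
    show v >>> 16 = v / 65536
    rw [Nat.shiftRight_eq_div_pow]
  show Nat.add (Nat.mul (Nat.mod v 65536) b) (comb (Nat.shiftRight v 16) Bs) = _
  rw [h]
  rfl

theorem comb_eq : ∀ (Bs : List ℕ) (v : ℕ),
    comb v Bs = ∑ i ∈ Finset.range Bs.length, dg v i * Bs.getD i 0
  | [], v => rfl
  | b :: Bs, v => by
    rw [comb_cons, comb_eq Bs, List.length_cons, Finset.sum_range_succ', add_comm]
    simp [dg_zero, dg_succ]

theorem pk_congr {f g : ℕ → ℕ} : ∀ {k : ℕ}, (∀ j, j < k → f j = g j) → pk f k = pk g k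
  | 0, _ => rfl
  | k + 1, h => by
    simp only [pk]
    rw [h 0 (by omega), pk_congr (k := k) (fun j hj => h (j + 1) (by omega))]

theorem pk_add (f g : ℕ → ℕ) : ∀ k, pk (fun j => f j + g j) k = pk f k + pk g k
  | 0 => rfl
  | k + 1 => by
    simp only [pk]
    rw [pk_add (fun j => f (j + 1)) (fun j => g (j + 1)) k]
    ring

theorem pk_mul (c : ℕ) (f : ℕ → ℕ) : ∀ k, pk (fun j => c * f j) k = c * pk f k
  | 0 => by simp [pk]
  | k + 1 => by
    simp only [pk]
    rw [pk_mul c (fun j => f (j + 1)) k]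
    ring

theorem pk_sum (s : ℕ) (F : ℕ → ℕ → ℕ) (k : ℕ) :
    pk (fun j => ∑ i ∈ Finset.range s, F i j) k = ∑ i ∈ Finset.range s, pk (F i) k := by
  induction s with
  | zero =>
    simp only [Finset.range_zero, Finset.sum_empty]
    induction k with
    | zero => rfl
    | succ k ih => simpa [pk] using ih
  | succ s ih =>
    simp only [Finset.sum_range_succ]
    rw [pk_add, ih]

theorem pk_lt {f : ℕ → ℕ} : ∀ {k : ℕ}, (∀ j, j < k → f j < 65536) → pk f k < 65536 ^ k
  | 0, _ => by simp [pk]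
  | k + 1, h => by
    have h0 := h 0 (by omega)
    have h1 := pk_lt (f := fun j => f (j + 1)) (k := k) (fun j hj => h (j + 1) (by omega))
    simp only [pk, pow_succ']
    omega

theorem dg_pk {f : ℕ → ℕ} : ∀ {k : ℕ}, (∀ j, j < k → f j < 65536) → ∀ {j : ℕ}, j < k → dg (pk f k) j = f j
  | 0, _, j, hj => by omega
  | k + 1, h, 0, _ => by
    have h0 := h 0 (by omega)
    simp only [pk, dg_zero]
    rw [Nat.add_mul_mod_self_left, Nat.mod_eq_of_lt h0]
  | k + 1, h, j + 1, hj => by
    have h0 := h 0 (by omega)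
    have e : (f 0 + 65536 * pk (fun j => f (j + 1)) k) / 65536 = pk (fun j => f (j + 1)) k := by omega
    simp only [pk, dg_succ]
    rw [e]
    exact dg_pk (f := fun j => f (j + 1)) (fun j hj => h (j + 1) (by omega)) (by omega)

theorem dg_pk_ge {f : ℕ → ℕ} {k j : ℕ} (hf : ∀ j, j < k → f j < 65536) (hj : k ≤ j) : dg (pk f k) j = 0 := by
  have h1 := pk_lt hf
  have h2 : 65536 ^ k ≤ 65536 ^ j := Nat.pow_le_pow_right (by norm_num) hj
  unfold dg
  rw [Nat.div_eq_of_lt (by omega)]

/-- The valid rows of length `k`. -/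
def VR (k p R : ℕ) : Prop := (∀ j, j < k → dg R j < p) ∧ R = pk (dg R) k

/-- The valid matrices. -/
def VM (k p : ℕ) (A : List ℕ) : Prop := A.length = k ∧ ∀ R ∈ A, VR k p R

/-- The matrix of packed rows. -/
def toM (k p : ℕ) (A : List ℕ) : Matrix (Fin k) (Fin k) (ZMod p) :=
  fun i j => ((dg (A.getD i 0) j : ℕ) : ZMod p)

theorem vr_nrm {k p : ℕ} (hp : 0 < p) (hp' : p ≤ 65536) (x : ℕ) : VR k p (nrm p k x) := by
  rw [nrm_eq]
  have hb : ∀ j, j < k → dg x j % p < 65536 := fun j _ => lt_of_lt_of_le (Nat.mod_lt _ hp) hp'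
  refine ⟨fun j hj => ?_, ?_⟩
  · rw [dg_pk hb hj]
    exact Nat.mod_lt _ hp
  · exact pk_congr fun j hj => (dg_pk hb hj).symm

theorem vr_iff {k p R : ℕ} (hp : 0 < p) (hp' : p ≤ 65536) (h : nrm p k R = R) : VR k p R := by
  rw [← h]
  exact vr_nrm hp hp' R

theorem vm_mmul {k p : ℕ} (hp : 0 < p) (hp' : p ≤ 65536) (Bs : List ℕ) :
    ∀ (A : List ℕ), (mmul p k A Bs).length = A.length ∧ ∀ R ∈ mmul p k A Bs, VR k p R
  | [] => ⟨rfl, by intro R hR; cases hR⟩
  | r :: A => by
    have h := vm_mmul (k := k) hp hp' Bs A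
    have e : mmul p k (r :: A) Bs = nrm p k (comb r Bs) :: mmul p k A Bs := rfl
    rw [e]
    refine ⟨by simp [h.1], ?_⟩
    intro R hR
    rcases List.mem_cons.mp hR with rfl | hR
    · exact vr_nrm hp hp' _
    · exact h.2 R hR

theorem getD_mmul {k p : ℕ} (Bs : List ℕ) : ∀ (A : List ℕ) (i : ℕ), i < A.length →
    (mmul p k A Bs).getD i 0 = nrm p k (comb (A.getD i 0) Bs)
  | [], i, hi => by simp at hi
  | r :: A, 0, _ => rfl
  | r :: A, i + 1, hi => by
    have e : mmul p k (r :: A) Bs = nrm p k (comb r Bs) :: mmul p k A Bs := rfl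
    rw [e]
    simp only [List.getD_cons_succ]
    exact getD_mmul Bs A i (by simpa using hi)

theorem getD_mem_vr {k p : ℕ} {A : List ℕ} (hA : VM k p A) {i : ℕ} (hi : i < k) : VR k p (A.getD i 0) := by
  apply hA.2
  have : i < A.length := by rw [hA.1]; exact hi
  rw [List.getD_eq_getElem _ _ this]
  exact List.getElem_mem this

theorem mmul_field {k p : ℕ} (hp : 0 < p) (hp' : p ≤ 65536) (hb : k * (p - 1) * (p - 1) < 65536) {A Bs : List ℕ}
    (hA : VM k p A) (hB : VM k p Bs) {i j : ℕ} (hi : i < k) (hj : j < k) :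
    dg ((mmul p k A Bs).getD i 0) j =
      (∑ l ∈ Finset.range k, dg (A.getD i 0) l * dg (Bs.getD l 0) j) % p := by
  rw [getD_mmul _ _ _ (by rw [hA.1]; exact hi), nrm_eq]
  have hb2 : ∀ j, j < k → dg (comb (A.getD i 0) Bs) j % p < 65536 :=
    fun j _ => lt_of_lt_of_le (Nat.mod_lt _ hp) hp'
  rw [dg_pk hb2 hj]
  congr 1
  rw [comb_eq, hB.1]
  have e1 : ∑ l ∈ Finset.range k, dg (A.getD i 0) l * Bs.getD l 0
      = pk (fun j => ∑ l ∈ Finset.range k, dg (A.getD i 0) l * dg (Bs.getD l 0) j) k := by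
    rw [pk_sum]
    apply Finset.sum_congr rfl
    intro l hl
    have hl' : l < k := Finset.mem_range.mp hl
    have := (getD_mem_vr hB hl').2
    rw [pk_mul, ← this]
  rw [e1]
  have hdig : ∀ j, ∑ l ∈ Finset.range k, dg (A.getD i 0) l * dg (Bs.getD l 0) j ≤ k * ((p - 1) * (p - 1)) ∨ ¬ j < k := by
    intro j
    by_cases hj : j < k
    · left
      have : ∑ l ∈ Finset.range k, dg (A.getD i 0) l * dg (Bs.getD l 0) j ≤ ∑ l ∈ Finset.range k, (p - 1) * (p - 1) := by
        apply Finset.sum_le_sum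
        intro l hl
        have hl' : l < k := Finset.mem_range.mp hl
        have h1 := (getD_mem_vr hA hi).1 l hl'
        have h2 := (getD_mem_vr hB hl').1 j hj
        exact Nat.mul_le_mul (by omega) (by omega)
      simpa using this
    · exact Or.inr hj
  refine dg_pk (fun j hj => ?_) hj
  rcases hdig j with h | h
  · have : k * ((p - 1) * (p - 1)) = k * (p - 1) * (p - 1) := by ring
    omega
  · exact absurd hj h

theorem toM_mmul {k p : ℕ} (hp : 0 < p) (hp' : p ≤ 65536) (hb : k * (p - 1) * (p - 1) < 65536) {A Bs : List ℕ}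
    (hA : VM k p A) (hB : VM k p Bs) : toM k p (mmul p k A Bs) = toM k p A * toM k p Bs := by
  ext i j
  rw [Matrix.mul_apply]
  show ((dg ((mmul p k A Bs).getD i 0) j : ℕ) : ZMod p) = ∑ l : Fin k, ((dg (A.getD i 0) l : ℕ) : ZMod p) * ((dg (Bs.getD l 0) j : ℕ) : ZMod p)
  rw [mmul_field hp hp' hb hA hB i.2 j.2, ZMod.natCast_mod]
  push_cast
  rw [Finset.sum_range (fun l => ((dg (A.getD i 0) l : ℕ) : ZMod p) * ((dg (Bs.getD l 0) j : ℕ) : ZMod p))]

theorem vm_mmul' {k p : ℕ} (hp : 0 < p) (hp' : p ≤ 65536) {A : List ℕ} (hA : VM k p A) (Bs : List ℕ) :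
    VM k p (mmul p k A Bs) := by
  have := vm_mmul (k := k) hp hp' Bs A
  exact ⟨this.1.trans hA.1, this.2⟩

theorem evF_spec {k p : ℕ} (hp : 0 < p) (hp' : p ≤ 65536) (hb : k * (p - 1) * (p - 1) < 65536) {Ms : ℕ → List ℕ}
    (hMs : ∀ i, VM k p (Ms i)) :
    ∀ (w : List ℕ) {acc : List ℕ}, VM k p acc →
      VM k p (evF p k Ms w acc) ∧ toM k p (evF p k Ms w acc) = toM k p acc * (w.map fun i => toM k p (Ms i)).prod
  | [], acc, h => ⟨h, by simp [evF]⟩
  | x :: w, acc, h => by
    have e : evF p k Ms (x :: w) acc = evF p k Ms w (mmul p k acc (Ms x)) := rfl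
    rw [e]
    have h1 := evF_spec hp hp' hb hMs w (vm_mmul' hp hp' h (Ms x))
    refine ⟨h1.1, ?_⟩
    rw [h1.2, toM_mmul hp hp' hb h (hMs x), List.map_cons, List.prod_cons, mul_assoc]

/-! ## The identity -/

theorem pow_eq_pk : ∀ (k i : ℕ), i < k → 65536 ^ i = pk (fun j => if j = i then 1 else 0) k
  | 0, i, h => by omega
  | k + 1, 0, _ => by
    simp only [pk, pow_zero, if_true]
    have : pk (fun j => if j + 1 = 0 then 1 else 0) k = 0 := by
      have e : pk (fun j => if j + 1 = 0 then 1 else 0) k = pk (fun j => 0 * 0) k := pk_congr (by intro j _; simp)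
      rw [e, pk_mul]
      simp
    rw [this]
    norm_num
  | k + 1, i + 1, h => by
    simp only [pk, Nat.add_eq_zero_iff, one_ne_zero, and_false, if_false, Nat.add_right_cancel_iff, zero_add]
    rw [← pow_eq_pk k i (by omega), pow_succ']
    simp

theorem dg_pow {k i j : ℕ} (hi : i < k) (hj : j < k) : dg (65536 ^ i) j = if j = i then 1 else 0 := by
  rw [pow_eq_pk k i hi, dg_pk _ hj]
  intro j _
  split_ifs <;> norm_num

theorem idL_length (k : ℕ) : (idL k).length = k := by simp [idL]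

theorem idL_getD {k i : ℕ} (hi : i < k) : (idL k).getD i 0 = 65536 ^ i := by
  simp [idL, List.getD_eq_getElem, hi]

theorem vm_idL {k p : ℕ} (hp : 1 < p) : VM k p (idL k) := by
  refine ⟨idL_length k, ?_⟩
  intro R hR
  obtain ⟨i, hi, rfl⟩ := List.mem_map.mp hR
  have hi' : i < k := List.mem_range.mp hi
  refine ⟨fun j hj => ?_, ?_⟩
  · rw [dg_pow hi' hj]
    split_ifs <;> omega
  · rw [pow_eq_pk k i hi']
    refine pk_congr fun j hj => ?_
    rw [← pow_eq_pk k i hi', dg_pow hi' hj]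

theorem toM_idL {k p : ℕ} : toM k p (idL k) = 1 := by
  ext i j
  show ((dg ((idL k).getD i 0) j : ℕ) : ZMod p) = _
  rw [idL_getD i.2, dg_pow i.2 j.2, Matrix.one_apply]
  by_cases h : i = j
  · subst h; simp
  · have h' : (j : ℕ) ≠ i := fun e => h (Fin.ext e.symm)
    simp [h, h']

/-! ## Words in a general linear group -/

/-- The invertible matrix of an involutory table. -/
def unitOf {k p : ℕ} (A : List ℕ) (h : toM k p A * toM k p A = 1) : (Matrix (Fin k) (Fin k) (ZMod p))ˣ :=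
  ⟨toM k p A, toM k p A, h, h⟩

theorem prod_coe {k p : ℕ} (U : ℕ → (Matrix (Fin k) (Fin k) (ZMod p))ˣ) (w : List ℕ) :
    (((w.map U).prod : (Matrix (Fin k) (Fin k) (ZMod p))ˣ) : Matrix (Fin k) (Fin k) (ZMod p)) =
      (w.map fun i => ((U i : (Matrix (Fin k) (Fin k) (ZMod p))ˣ) : Matrix (Fin k) (Fin k) (ZMod p))).prod := by
  induction w with
  | nil => simp
  | cons x w ih => simp [ih]

/-- A word with value one. -/
theorem word_one {k p : ℕ} (hp : 1 < p) (hp' : p ≤ 65536) (hb : k * (p - 1) * (p - 1) < 65536) {Ms : ℕ → List ℕ}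
    (hMs : ∀ i, VM k p (Ms i)) (U : ℕ → (Matrix (Fin k) (Fin k) (ZMod p))ˣ)
    (hU : ∀ i, ((U i : (Matrix (Fin k) (Fin k) (ZMod p))ˣ) : Matrix (Fin k) (Fin k) (ZMod p)) = toM k p (Ms i))
    {w : List ℕ} (h : evF p k Ms w (idL k) = idL k) : (w.map U).prod = 1 := by
  apply Units.ext
  rw [prod_coe]
  have h1 := (evF_spec (by omega) hp' hb hMs w (vm_idL hp)).2
  rw [h, toM_idL, one_mul] at h1
  simp only [hU]
  rw [Units.val_one]
  exact h1.symm

end Cfsg.Agent.Lib.MatPack36
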