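import Mathlib

set_option autoImplicit false

namespace Cfsg.Agent.Lib.MatTranspose

open Polynomial Matrix

/-- Coordinates of `AdjoinRoot.mk f h` for `deg h < deg f`. -/
theorem powerBasis_repr_mk {F : Type*} [Field F] (f : F[X]) (hf : f ≠ 0) (h : F[X])
    (hh : h.natDegree < f.natDegree) (i : Fin (AdjoinRoot.powerBasis hf).dim) :
    (AdjoinRoot.powerBasis hf).basis.repr (AdjoinRoot.mk f h) i = h.coeff (i : ℕ) := by
  have hdim : (AdjoinRoot.powerBasis hf).dim = f.natDegree := rfl
  have key : ∀ j : Fin (AdjoinRoot.powerBasis hf).dim, AdjoinRoot.mk f (C (h.coeff (j : ℕ)) * X ^ (j : ℕ)) =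
      (h.coeff (j : ℕ)) • (AdjoinRoot.powerBasis hf).basis j := by
    intro j
    rw [PowerBasis.basis_eq_pow, AdjoinRoot.powerBasis_gen, map_mul, map_pow, AdjoinRoot.mk_X,
      Algebra.smul_def]
    rfl
  have h1 : AdjoinRoot.mk f h = ∑ j : Fin (AdjoinRoot.powerBasis hf).dim,
      (h.coeff (j : ℕ)) • (AdjoinRoot.powerBasis hf).basis j := by
    conv_lhs => rw [h.as_sum_range' f.natDegree hh]
    rw [map_sum]
    simp only [← C_mul_X_pow_eq_monomial]
    rw [← Fin.sum_univ_eq_sum_range (fun k => AdjoinRoot.mk f (C (h.coeff k) * X ^ k)) (f.natDegree)]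
    exact Finset.sum_congr rfl fun j _ => key j
  rw [h1, map_sum]
  simp only [map_smul, Module.Basis.repr_self, Finsupp.coe_finsetSum, Finset.sum_apply,
    Finsupp.smul_apply, Finsupp.single_apply, smul_eq_mul, mul_ite, mul_one, mul_zero,
    Finset.sum_ite_eq', Finset.mem_univ, if_true]

theorem exists_frobenius_functional {F : Type*} [Field F] (f : F[X]) (hf : f ≠ 0) :
    ∃ l : AdjoinRoot f →ₗ[F] F, ∀ x : AdjoinRoot f, x ≠ 0 → ∃ y, l (y * x) ≠ 0 := by
  by_cases hd : f.natDegree = 0
  · refine ⟨0, ?_⟩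
    intro x hx
    exfalso
    have : IsUnit f := by
      rw [Polynomial.isUnit_iff_degree_eq_zero]
      rw [Polynomial.degree_eq_natDegree hf, hd]; rfl
    have hs : Subsingleton (AdjoinRoot f) := by
      have h1 : AdjoinRoot.mk f f = 0 := AdjoinRoot.mk_self
      have h2 : (1 : AdjoinRoot f) = 0 := by
        have := (this.map (AdjoinRoot.mk f))
        rw [h1] at this
        exact (isUnit_zero_iff.mp this).symm
      exact subsingleton_of_zero_eq_one h2.symm
    exact hx (Subsingleton.elim _ _)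
  have hd' : 0 < f.natDegree := Nat.pos_of_ne_zero hd
  let top : Fin (AdjoinRoot.powerBasis hf).dim := ⟨f.natDegree - 1, by
    change f.natDegree - 1 < f.natDegree; omega⟩
  refine ⟨(AdjoinRoot.powerBasis hf).basis.coord top, ?_⟩
  intro x hx
  obtain ⟨g, rfl⟩ := AdjoinRoot.mk_surjective x
  set r := g % f with hr
  have hmkr : AdjoinRoot.mk f r = AdjoinRoot.mk f g := by
    rw [AdjoinRoot.mk_eq_mk]
    rw [hr, EuclideanDomain.mod_eq_sub_mul_div]
    exact ⟨-(g / f), by ring⟩
  have hr0 : r ≠ 0 := by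
    intro h0
    rw [h0, map_zero] at hmkr
    exact hx hmkr.symm
  have hdeg : r.degree < f.degree := EuclideanDomain.mod_lt g hf
  have hdeg' : r.natDegree < f.natDegree := Polynomial.natDegree_lt_natDegree hr0 hdeg
  refine ⟨AdjoinRoot.mk f (X ^ (f.natDegree - 1 - r.natDegree)), ?_⟩
  rw [← hmkr, ← map_mul]
  set h := X ^ (f.natDegree - 1 - r.natDegree) * r with hh
  have hhdeg : h.natDegree = f.natDegree - 1 := by
    rw [hh, Polynomial.natDegree_mul (pow_ne_zero _ Polynomial.X_ne_zero) hr0,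
      Polynomial.natDegree_X_pow]
    omega
  rw [Module.Basis.coord_apply, powerBasis_repr_mk f hf h (by omega) top]
  change h.coeff (f.natDegree - 1) ≠ 0
  rw [← hhdeg]
  rw [Polynomial.coeff_natDegree, Polynomial.leadingCoeff_ne_zero]
  rw [hh]
  exact mul_ne_zero (pow_ne_zero _ Polynomial.X_ne_zero) hr0

/-- Reinterpret an element of the module quotient as an element of `AdjoinRoot`. -/
def toAR {F : Type*} [Field F] (f : F[X]) (y : F[X] ⧸ Submodule.span F[X] {f}) : AdjoinRoot f := y

theorem toAR_add {F : Type*} [Field F] (f : F[X]) (x y : F[X] ⧸ Submodule.span F[X] {f}) :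
    toAR f (x + y) = toAR f x + toAR f y := rfl

theorem toAR_smul {F : Type*} [Field F] (f r : F[X]) (y : F[X] ⧸ Submodule.span F[X] {f}) :
    toAR f (r • y) = AdjoinRoot.mk f r * toAR f y := by
  obtain ⟨g, rfl⟩ := Submodule.mkQ_surjective _ y
  rfl

/-- A matrix is similar to its transpose, over any field. -/
theorem isConj_transpose {F : Type*} [Field F] {ι : Type*} [Fintype ι] [DecidableEq ι]
    (A : Matrix ι ι F) : IsConj A Aᵀ := by
  classical
  let T : (ι → F) →ₗ[F] (ι → F) := A.mulVecLin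
  have htors : Module.IsTorsion F[X] (Module.AEval' T) :=
    Module.AEval.isTorsion_of_finiteDimensional F (ι → F) T
  obtain ⟨J, hJ, p, hp, e, ⟨φ⟩⟩ := Module.equiv_directSum_of_isTorsion htors
  let f : J → F[X] := fun i => p i ^ e i
  have hf : ∀ i, f i ≠ 0 := fun i => pow_ne_zero _ (hp i).ne_zero
  choose l hl using fun i => exists_frobenius_functional (f i) (hf i)
  let Φ : Module.AEval' T ≃ₗ[F[X]] (∀ i, F[X] ⧸ Submodule.span F[X] {f i}) :=
    φ.trans (DirectSum.linearEquivFunOnFintype F[X] J _)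
  let ψ : (ι → F) → (∀ i, AdjoinRoot (f i)) := fun v i =>
    toAR (f i) (Φ (Module.AEval'.of T v) i)
  have hadd : ∀ u v, ψ (u + v) = ψ u + ψ v := by
    intro u v
    ext1 i
    simp only [ψ, map_add, Pi.add_apply, toAR_add]
  have hsmul : ∀ (c : F) v, ψ (c • v) = c • ψ v := by
    intro c v
    ext1 i
    have : Module.AEval'.of T (c • v) = (C c : F[X]) • Module.AEval'.of T v := by
      rw [map_smul, Module.AEval.C_smul]
    simp only [ψ, this, map_smul, Pi.smul_apply, toAR_smul]
    rw [Algebra.smul_def]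
    rfl
  have hX : ∀ v i, ψ (A *ᵥ v) i = AdjoinRoot.mk (f i) X * ψ v i := by
    intro v i
    have : Module.AEval'.of T (A *ᵥ v) = (X : F[X]) • Module.AEval'.of T v := by
      rw [Module.AEval'.X_smul_of]; rfl
    simp only [ψ, this, map_smul, Pi.smul_apply, toAR_smul]
  have hsurj : ∀ a : (∀ i, AdjoinRoot (f i)), ∃ v, ψ v = a := by
    intro a
    refine ⟨(Module.AEval'.of T).symm (Φ.symm a), ?_⟩
    ext1 i
    simp only [ψ, LinearEquiv.apply_symm_apply]
    exact congrFun (Φ.apply_symm_apply a) i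
  have hinj : ∀ v, ψ v = 0 → v = 0 := by
    intro v hv
    have h1 : Φ (Module.AEval'.of T v) = 0 := by
      ext1 i
      exact congrFun hv i
    have h2 := (LinearEquiv.map_eq_zero_iff Φ).mp h1
    exact (LinearEquiv.map_eq_zero_iff _).mp h2
  -- the bilinear form
  let B : LinearMap.BilinForm F (ι → F) := LinearMap.mk₂ F
    (fun u v => ∑ i, l i (ψ u i * ψ v i))
    (by
      intro a b c
      rw [← Finset.sum_add_distrib]
      refine Finset.sum_congr rfl fun i _ => ?_
      rw [hadd, Pi.add_apply, add_mul, map_add])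
    (by
      intro c a b
      rw [smul_eq_mul, Finset.mul_sum]
      refine Finset.sum_congr rfl fun i _ => ?_
      rw [hsmul, Pi.smul_apply, smul_mul_assoc, map_smul, smul_eq_mul])
    (by
      intro a b c
      rw [← Finset.sum_add_distrib]
      refine Finset.sum_congr rfl fun i _ => ?_
      rw [hadd, Pi.add_apply, mul_add, map_add])
    (by
      intro c a b
      rw [smul_eq_mul, Finset.mul_sum]
      refine Finset.sum_congr rfl fun i _ => ?_
      rw [hsmul, Pi.smul_apply, mul_smul_comm, map_smul, smul_eq_mul])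
  have hB : ∀ u v, B u v = ∑ i, l i (ψ u i * ψ v i) := fun u v => rfl
  have hadj : ∀ u v, B (A *ᵥ u) v = B u (A *ᵥ v) := by
    intro u v
    rw [hB, hB]
    refine Finset.sum_congr rfl fun i _ => ?_
    rw [hX, hX]
    congr 1
    ring
  let S : Matrix ι ι F := LinearMap.BilinForm.toMatrix' B
  have hS : ∀ u v, u ⬝ᵥ (S *ᵥ v) = B u v := by
    intro u v
    have := Matrix.toBilin'_apply' S u v
    rw [← this]
    simp [S]
  have hentry : ∀ (M : Matrix ι ι F) (a b : ι), (Pi.single a 1 : ι → F) ⬝ᵥ (M *ᵥ Pi.single b 1) = M a b := by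
    intro M a b
    simp
  have hSA : S * A = Aᵀ * S := by
    ext a b
    rw [← hentry (S * A), ← hentry (Aᵀ * S), ← Matrix.mulVec_mulVec, ← Matrix.mulVec_mulVec, hS,
      Matrix.dotProduct_mulVec, Matrix.vecMul_transpose, hS, hadj]
  have hSunit : IsUnit S := by
    rw [← Matrix.mulVec_injective_iff_isUnit]
    intro x y hxy
    have hw : S *ᵥ (x - y) = 0 := by
      rw [Matrix.mulVec_sub]; exact sub_eq_zero.mpr hxy
    have hBw : ∀ u, B u (x - y) = 0 := by
      intro u
      rw [← hS, hw]; simp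
    have hψ : ψ (x - y) = 0 := by
      by_contra hne
      obtain ⟨i, hi⟩ := Function.ne_iff.mp hne
      obtain ⟨z, hz⟩ := hl i _ hi
      obtain ⟨u, hu⟩ := hsurj (Pi.single i z)
      apply hz
      have h1 := hBw u
      rw [hB, hu, Finset.sum_eq_single i] at h1
      · simpa using h1
      · intro j _ hj
        simp [Pi.single_eq_of_ne hj]
      · intro h; exact absurd (Finset.mem_univ i) h
    exact sub_eq_zero.mp (hinj _ hψ)
  exact ⟨hSunit.unit, hSA⟩

end Cfsg.Agent.Lib.MatTranspose
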