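import Mathlib
import Cfsg.Prelude.Def_Classical

set_option autoImplicit false

namespace Cfsg.Agent.Lib.MaxTS

open Module LinearMap

variable {F V : Type*} [Field F] [AddCommGroup V] [Module F V] [FiniteDimensional F V]

/-- A quadratic map `Q` with polar form `B`, non-degenerate. -/
structure QPair (Q : V → F) (B : LinearMap.BilinForm F V) : Prop where
  add : ∀ x y, Q (x + y) = Q x + Q y + B x y
  smul : ∀ (c : F) (x : V), Q (c • x) = c * c * Q x
  symm : ∀ x y, B x y = B y x
  nd : B.Nondegenerate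

/-- `W` is totally singular. -/
def TS (Q : V → F) (W : Submodule F V) : Prop := ∀ w ∈ W, Q w = 0

variable {Q : V → F} {B : LinearMap.BilinForm F V}

lemma QPair.refl (h : QPair Q B) : B.IsRefl := by
  intro x y hxy
  rw [h.symm, hxy]

lemma QPair.zero (h : QPair Q B) : Q 0 = 0 := by
  have := h.smul 0 0
  simpa using this

lemma QPair.self (h : QPair Q B) (x : V) : B x x = 2 * Q x := by
  have h1 := h.add x x
  have h2 := h.smul 2 x
  have h3 : (2 : F) • x = x + x := two_smul F x
  rw [h3, h1] at h2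
  linear_combination h2

lemma TS.ortho (h : QPair Q B) {W : Submodule F V} (hW : TS Q W) {u v : V} (hu : u ∈ W) (hv : v ∈ W) :
    B u v = 0 := by
  have h1 := h.add u v
  rw [hW _ (W.add_mem hu hv), hW _ hu, hW _ hv] at h1
  linear_combination -h1

lemma TS.mono {W W' : Submodule F V} (hW : TS Q W) (hle : W' ≤ W) : TS Q W' :=
  fun w hw => hW w (hle hw)

lemma TS.le_orth (h : QPair Q B) {W : Submodule F V} (hW : TS Q W) : W ≤ B.orthogonal W := by
  intro v hv
  rw [LinearMap.BilinForm.mem_orthogonal_iff]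
  intro u hu
  exact hW.ortho h hu hv

lemma TS.orth_eq (h : QPair Q B) {m : ℕ} (hV : finrank F V = 2 * m) {W : Submodule F V} (hW : TS Q W)
    (hd : finrank F W = m) : B.orthogonal W = W := by
  symm
  apply Submodule.eq_of_le_of_finrank_eq (hW.le_orth h)
  rw [LinearMap.BilinForm.finrank_orthogonal h.nd, hV, hd]
  omega

lemma orth_sup (B : LinearMap.BilinForm F V) (A C : Submodule F V) :
    B.orthogonal (A ⊔ C) = B.orthogonal A ⊓ B.orthogonal C := by
  ext x
  simp only [LinearMap.BilinForm.mem_orthogonal_iff, Submodule.mem_inf]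
  constructor
  · intro hx
    exact ⟨fun a ha => hx a (Submodule.mem_sup_left ha), fun c hc => hx c (Submodule.mem_sup_right hc)⟩
  · rintro ⟨h1, h2⟩ y hy
    obtain ⟨a, ha, c, hc, rfl⟩ := Submodule.mem_sup.mp hy
    have h3 := h1 a ha
    have h4 := h2 c hc
    rw [map_add, LinearMap.add_apply, h3, h4, add_zero]

lemma le_orth_of_le (h : QPair Q B) {U0 W : Submodule F V} (hW : TS Q W) (hle : U0 ≤ W) :
    W ≤ B.orthogonal U0 :=
  (hW.le_orth h).trans (LinearMap.BilinForm.orthogonal_le hle)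

/-- The exchange lemma. -/
theorem exch (h : QPair Q B) {m : ℕ} (hV : finrank F V = 2 * m) {X U0 : Submodule F V}
    (hX : TS Q X) (hXd : finrank F X = m) (hU : TS Q U0) (hUd : finrank F U0 + 1 = m) :
    TS Q ((X ⊓ B.orthogonal U0) ⊔ U0) ∧ finrank F ↥((X ⊓ B.orthogonal U0) ⊔ U0) = m ∧
      finrank F ↥(X ⊓ B.orthogonal U0) = finrank F ↥(X ⊓ U0) + 1 := by
  have h1 : X ⊓ B.orthogonal U0 = B.orthogonal (X ⊔ U0) := by
    rw [orth_sup, hX.orth_eq h hV hXd]
  have h2 : finrank F ↥(X ⊓ B.orthogonal U0) = finrank F ↥(X ⊓ U0) + 1 := by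
    rw [h1, LinearMap.BilinForm.finrank_orthogonal h.nd, hV]
    have := Submodule.finrank_sup_add_finrank_inf_eq X U0
    omega
  have h3 : (X ⊓ B.orthogonal U0) ⊓ U0 = X ⊓ U0 := by
    rw [inf_assoc, inf_eq_right.mpr (hU.le_orth h)]
  refine ⟨?_, ?_, h2⟩
  · intro w hw
    obtain ⟨x, hx, u, hu, rfl⟩ := Submodule.mem_sup.mp hw
    rw [h.add, hX _ hx.1, hU _ hu]
    have hx2 : x ∈ B.orthogonal U0 := hx.2
    rw [LinearMap.BilinForm.mem_orthogonal_iff] at hx2
    have h4 := hx2 u hu
    rw [h.symm] at h4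
    rw [h4]; ring
  · have := Submodule.finrank_sup_add_finrank_inf_eq (X ⊓ B.orthogonal U0) U0
    rw [h3, h2] at this
    omega

lemma eq_of_mem_notMem {U0 W W' : Submodule F V} {w : V} (hw0 : w ∉ U0) (hle : U0 ≤ W) (hle' : U0 ≤ W')
    (hw : w ∈ W) (hw' : w ∈ W') (hd : finrank F W = finrank F U0 + 1) (hd' : finrank F W' = finrank F U0 + 1) :
    W = W' := by
  have h1 : U0 ⊔ Submodule.span F {w} ≤ W := sup_le hle (by simpa using hw)
  have h2 : U0 ⊔ Submodule.span F {w} ≤ W' := sup_le hle' (by simpa using hw')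
  have h3 : finrank F ↥(U0 ⊔ Submodule.span F {w}) = finrank F U0 + 1 := Submodule.finrank_sup_span_singleton hw0
  have h4 := Submodule.eq_of_le_of_finrank_eq h1 (by omega)
  have h5 := Submodule.eq_of_le_of_finrank_eq h2 (by omega)
  rw [← h4, h5]

/-- An `(m-1)`-dimensional t.s. subspace lies in exactly two maximal t.s. subspaces. -/
theorem two_maxTS (h : QPair Q B) {m : ℕ} (hV : finrank F V = 2 * m) {U0 W1 : Submodule F V}
    (hU : TS Q U0) (hUd : finrank F U0 + 1 = m) (hW1 : TS Q W1) (hW1d : finrank F W1 = m) (hle : U0 ≤ W1) :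
    ∃ W2 : Submodule F V, TS Q W2 ∧ finrank F W2 = m ∧ U0 ≤ W2 ∧ W2 ≠ W1 ∧
      ∀ W : Submodule F V, TS Q W → finrank F W = m → U0 ≤ W → W = W1 ∨ W = W2 := by
  classical
  -- a ∈ W1 \ U0
  have hlt : U0 < W1 := lt_of_le_of_ne hle (by
    rintro rfl; omega)
  obtain ⟨a, haW, haU⟩ := SetLike.exists_of_lt hlt
  have hW1o : W1 ≤ B.orthogonal U0 := le_orth_of_le h hW1 hle
  have haO := hW1o haW
  have hdO : finrank F ↥(B.orthogonal U0) = m + 1 := by
    rw [LinearMap.BilinForm.finrank_orthogonal h.nd, hV]; omega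
  -- b
  have hoo : B.orthogonal (B.orthogonal U0) = U0 := LinearMap.BilinForm.orthogonal_orthogonal h.nd h.refl U0
  have hex : ∃ n ∈ B.orthogonal U0, B n a ≠ 0 := by
    by_contra hcon
    push Not at hcon
    apply haU
    rw [← hoo, LinearMap.BilinForm.mem_orthogonal_iff]
    intro n hn
    exact hcon n hn
  obtain ⟨n, hnO, hna⟩ := hex
  have hQa : Q a = 0 := hW1 a haW
  have haa : B a a = 0 := by rw [h.self, hQa, mul_zero]
  obtain ⟨b1, hb1O, hab1⟩ : ∃ b1 ∈ B.orthogonal U0, B a b1 = 1 := by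
    refine ⟨(B n a)⁻¹ • n, Submodule.smul_mem _ _ hnO, ?_⟩
    rw [map_smul, smul_eq_mul, h.symm a n, inv_mul_cancel₀ hna]
  have hba1 : B b1 a = 1 := by rw [h.symm, hab1]
  obtain ⟨b, hbO, hab, hQb⟩ : ∃ b ∈ B.orthogonal U0, B a b = 1 ∧ Q b = 0 := by
    refine ⟨b1 + (-(Q b1)) • a, Submodule.add_mem _ hb1O (Submodule.smul_mem _ _ haO), ?_, ?_⟩
    · rw [map_add, map_smul, smul_eq_mul, hab1, haa, mul_zero, add_zero]
    · rw [h.add, h.smul, hQa, map_smul, smul_eq_mul, hba1]
      ring
  have hortho : ∀ {u y : V}, u ∈ U0 → y ∈ B.orthogonal U0 → B u y = 0 := by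
    intro u y hu hy
    rw [LinearMap.BilinForm.mem_orthogonal_iff] at hy
    exact hy u hu
  have hbU : b ∉ U0 := by
    intro hb'
    have := hortho hb' haO
    rw [h.symm, hab] at this
    exact one_ne_zero this
  have hbW1 : b ∉ W1 := by
    intro hb'
    have := hW1.ortho h haW hb'
    rw [hab] at this
    exact one_ne_zero this
  -- W2
  let W2 := U0 ⊔ Submodule.span F {b}
  have hW2b : b ∈ W2 := Submodule.mem_sup_right (Submodule.mem_span_singleton_self b)
  have hW2TS : TS Q W2 := by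
    intro w hw
    obtain ⟨u, hu, y, hy, rfl⟩ := Submodule.mem_sup.mp hw
    obtain ⟨c, rfl⟩ := Submodule.mem_span_singleton.mp hy
    rw [h.add, hU _ hu, h.smul, hQb, map_smul, smul_eq_mul, hortho hu hbO]
    ring
  have hW2d : finrank F W2 = m := by
    have : finrank F W2 = finrank F U0 + 1 := Submodule.finrank_sup_span_singleton hbU
    omega
  have hW2le : U0 ≤ W2 := le_sup_left
  have hne : W2 ≠ W1 := by
    intro he
    exact hbW1 (he ▸ hW2b)
  refine ⟨W2, hW2TS, hW2d, hW2le, hne, ?_⟩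
  -- classification
  intro W hW hWd hWle
  have hWa : U0 ⊔ Submodule.span F {a} = W1 := by
    apply Submodule.eq_of_le_of_finrank_eq
    · exact sup_le hle (by simpa using haW)
    · rw [Submodule.finrank_sup_span_singleton haU]; omega
  have hSd : finrank F ↥(W1 ⊔ Submodule.span F {b}) = m + 1 := by
    rw [Submodule.finrank_sup_span_singleton hbW1, hW1d]
  have hS : W1 ⊔ Submodule.span F {b} = B.orthogonal U0 := by
    apply Submodule.eq_of_le_of_finrank_eq
    · exact sup_le hW1o (by simpa using hbO)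
    · rw [hSd, hdO]
  have hWO : W ≤ B.orthogonal U0 := le_orth_of_le h hW hWle
  have hlt' : U0 < W := lt_of_le_of_ne hWle (by
    rintro rfl; omega)
  obtain ⟨w, hwW, hwU⟩ := SetLike.exists_of_lt hlt'
  have hwS : w ∈ W1 ⊔ Submodule.span F {b} := hS ▸ hWO hwW
  rw [← hWa] at hwS
  obtain ⟨y, hy, z, hz, rfl⟩ := Submodule.mem_sup.mp hwS
  obtain ⟨u, hu, y', hy', rfl⟩ := Submodule.mem_sup.mp hy
  obtain ⟨α, rfl⟩ := Submodule.mem_span_singleton.mp hy'
  obtain ⟨β, rfl⟩ := Submodule.mem_span_singleton.mp hz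
  -- the value of Q
  have hval : Q (u + α • a + β • b) = α * β := by
    have e1 : B (u + α • a) (β • b) = α * β := by
      simp only [map_add, LinearMap.add_apply, map_smul, LinearMap.smul_apply, smul_eq_mul, hab, hortho hu hbO]
      ring
    have e2 : B u (α • a) = 0 := by
      rw [map_smul, hortho hu haO]; simp
    rw [h.add, h.add u, hU u hu, h.smul, hQa, h.smul, hQb, e1, e2]
    ring
  have hαβ : α * β = 0 := by
    rw [← hval]; exact hW _ hwW
  rcases mul_eq_zero.mp hαβ with hα | hβ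
  · right
    subst hα
    have hw2 : u + (0:F) • a + β • b ∈ W2 := by
      rw [zero_smul, add_zero]
      exact W2.add_mem (hW2le hu) (W2.smul_mem _ hW2b)
    exact eq_of_mem_notMem hwU hWle hW2le hwW hw2 (by omega) (by omega)
  · left
    subst hβ
    have hw2 : u + α • a + (0:F) • b ∈ W1 := by
      rw [zero_smul, add_zero]
      exact W1.add_mem (hle hu) (W1.smul_mem _ haW)
    exact eq_of_mem_notMem hwU hWle hle hwW hw2 (by omega) (by omega)

/-- Helper for the parity lemma: `Y = U` case. -/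
lemma adj_aux (h : QPair Q B) {U W X : Submodule F V}
    (hU : TS Q U) (hW : TS Q W)
    (hY : (X ⊓ B.orthogonal (U ⊓ W)) ≤ U) :
    X ⊓ U = X ⊓ B.orthogonal (U ⊓ W) ∧ X ⊓ W = X ⊓ (U ⊓ W) := by
  have h1 : U ≤ B.orthogonal (U ⊓ W) := le_orth_of_le h hU inf_le_left
  have h2 : W ≤ B.orthogonal (U ⊓ W) := le_orth_of_le h hW inf_le_right
  constructor
  · apply le_antisymm
    · exact le_inf inf_le_left (inf_le_right.trans h1)
    · exact le_inf inf_le_left hY
  · apply le_antisymm
    · intro x hx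
      refine ⟨hx.1, hY ⟨hx.1, h2 hx.2⟩, hx.2⟩
    · exact le_inf inf_le_left (inf_le_right.trans inf_le_right)

/-- Two adjacent maximal t.s. subspaces have different parity relative to a third. -/
theorem adj_parity (h : QPair Q B) {m : ℕ} (hV : finrank F V = 2 * m) {U W X : Submodule F V}
    (hU : TS Q U) (hUd : finrank F U = m) (hW : TS Q W) (hWd : finrank F W = m)
    (hX : TS Q X) (hXd : finrank F X = m) (hUW : finrank F ↥(U ⊓ W) + 1 = m) :
    (finrank F ↥(X ⊓ U) = finrank F ↥(X ⊓ (U ⊓ W)) + 1 ∧ finrank F ↥(X ⊓ W) = finrank F ↥(X ⊓ (U ⊓ W))) ∨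
    (finrank F ↥(X ⊓ W) = finrank F ↥(X ⊓ (U ⊓ W)) + 1 ∧ finrank F ↥(X ⊓ U) = finrank F ↥(X ⊓ (U ⊓ W))) := by
  have hU0 : TS Q (U ⊓ W) := hU.mono inf_le_left
  obtain ⟨hY, hYd, hfr⟩ := exch h hV hX hXd hU0 hUW
  obtain ⟨W2, -, -, -, -, hall⟩ := two_maxTS h hV hU0 hUW hU hUd inf_le_left
  have hne : W ≠ U := by
    rintro rfl
    rw [inf_idem] at hUW
    omega
  have hW2 : W = W2 := (hall W hW hWd inf_le_right).resolve_left hne
  rcases hall _ hY hYd le_sup_right with hYU | hYW
  · left
    have hle : X ⊓ B.orthogonal (U ⊓ W) ≤ U := by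
      have : X ⊓ B.orthogonal (U ⊓ W) ≤ (X ⊓ B.orthogonal (U ⊓ W)) ⊔ (U ⊓ W) := le_sup_left
      rwa [hYU] at this
    obtain ⟨e1, e2⟩ := adj_aux h hU hW hle
    rw [e1, e2, hfr]
    exact ⟨rfl, rfl⟩
  · right
    have hle : X ⊓ B.orthogonal (W ⊓ U) ≤ W := by
      have : X ⊓ B.orthogonal (U ⊓ W) ≤ (X ⊓ B.orthogonal (U ⊓ W)) ⊔ (U ⊓ W) := le_sup_left
      rw [hYW, ← hW2] at this
      rwa [inf_comm W U]
    obtain ⟨e1, e2⟩ := adj_aux h hW hU hle
    rw [inf_comm W U] at e1 e2
    rw [e1, e2, hfr]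
    exact ⟨rfl, rfl⟩

/-- Intermediate subspaces of every dimension exist. -/
lemma exists_between_finrank {A C : Submodule F V} (hAC : A ≤ C) (k : ℕ) (h1 : finrank F A ≤ k) (h2 : k ≤ finrank F C) :
    ∃ D : Submodule F V, A ≤ D ∧ D ≤ C ∧ finrank F D = k := by
  induction k, h1 using Nat.le_induction with
  | base => exact ⟨A, le_rfl, hAC, rfl⟩
  | succ k hk ih =>
    obtain ⟨D, hAD, hDC, hDk⟩ := ih (by omega)
    have hlt : D < C := lt_of_le_of_ne hDC (by
      rintro rfl; omega)
    obtain ⟨x, hxC, hxD⟩ := SetLike.exists_of_lt hlt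
    refine ⟨D ⊔ Submodule.span F {x}, hAD.trans le_sup_left, sup_le hDC (by simpa using hxC), ?_⟩
    rw [Submodule.finrank_sup_span_singleton hxD, hDk]

/-- The parity theorem: `m - dim (U ∩ W)` defines a relation with even sum on triples. -/
theorem parity (h : QPair Q B) {m : ℕ} (hV : finrank F V = 2 * m) :
    ∀ (k : ℕ) (U W X : Submodule F V), TS Q U → finrank F U = m → TS Q W → finrank F W = m →
      TS Q X → finrank F X = m → m - finrank F ↥(U ⊓ W) = k →
      Even ((m - finrank F ↥(U ⊓ W)) + (m - finrank F ↥(W ⊓ X)) + (m - finrank F ↥(U ⊓ X))) := by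
  intro k
  induction k using Nat.strong_induction_on with
  | _ k ih =>
    intro U W X hU hUd hW hWd hX hXd hk
    have hinfU : finrank F ↥(U ⊓ W) ≤ m := hUd ▸ Submodule.finrank_mono inf_le_left
    by_cases hk0 : k = 0
    · -- U = W
      have hUW : U = W := by
        have h1 : U ⊓ W = U := Submodule.eq_of_le_of_finrank_eq inf_le_left (by omega)
        have h2 : U ⊓ W = W := Submodule.eq_of_le_of_finrank_eq inf_le_right (by omega)
        rw [← h1, h2]
      subst hUW
      rw [Nat.even_iff]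
      omega
    · -- choose a hyperplane of U containing U ⊓ W
      obtain ⟨U0, hU0a, hU0b, hU0d⟩ := exists_between_finrank (inf_le_left : U ⊓ W ≤ U) (m - 1) (by omega) (by omega)
      have hU0 : TS Q U0 := hU.mono hU0b
      have hU0d' : finrank F U0 + 1 = m := by omega
      obtain ⟨hU', hU'd, hfr⟩ := exch h hV hW hWd hU0 hU0d'
      set U' := (W ⊓ B.orthogonal U0) ⊔ U0 with hU'def
      have hWU0 : W ⊓ U0 = U ⊓ W := by
        apply le_antisymm
        · exact fun x hx => ⟨hU0b hx.2, hx.1⟩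
        · exact le_inf inf_le_right hU0a
      rw [hWU0] at hfr
      have hU0U' : U0 ≤ U' := le_sup_right
      have hne : U' ≠ U := by
        intro he
        have h1 : W ⊓ B.orthogonal U0 ≤ W ⊓ U := le_inf inf_le_left (he ▸ (le_sup_left : W ⊓ B.orthogonal U0 ≤ U'))
        have h2 := Submodule.finrank_mono h1
        rw [inf_comm W U] at h2
        omega
      have hinf : finrank F ↥(U ⊓ U') + 1 = m := by
        have h1 : finrank F U0 ≤ finrank F ↥(U ⊓ U') := Submodule.finrank_mono (le_inf hU0b hU0U')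
        have h2 : finrank F ↥(U ⊓ U') ≤ m := hUd ▸ Submodule.finrank_mono inf_le_left
        have h3 : finrank F ↥(U ⊓ U') ≠ m := by
          intro h4
          apply hne
          have h5 : U ⊓ U' = U := Submodule.eq_of_le_of_finrank_eq inf_le_left (by omega)
          have h6 : U ⊓ U' = U' := Submodule.eq_of_le_of_finrank_eq inf_le_right (by omega)
          rw [← h6, h5]
        omega
      have hlt : finrank F ↥(U ⊓ W) + 1 ≤ finrank F ↥(U' ⊓ W) := by
        rw [← hfr]
        exact Submodule.finrank_mono (le_inf le_sup_left inf_le_left |>.trans (by rw [inf_comm]))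
      have hIH := ih (m - finrank F ↥(U' ⊓ W)) (by omega) U' W X hU' hU'd hW hWd hX hXd rfl
      have hA := adj_parity h hV hU hUd hU' hU'd hW hWd hinf
      have hB := adj_parity h hV hU hUd hU' hU'd hX hXd hinf
      rw [inf_comm W U, inf_comm W U'] at hA
      rw [inf_comm X U, inf_comm X U'] at hB
      have b1 : finrank F ↥(U' ⊓ W) ≤ m := hU'd ▸ Submodule.finrank_mono inf_le_left
      have b2 : finrank F ↥(W ⊓ X) ≤ m := hWd ▸ Submodule.finrank_mono inf_le_left
      have b3 : finrank F ↥(U ⊓ X) ≤ m := hUd ▸ Submodule.finrank_mono inf_le_left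
      have b4 : finrank F ↥(U' ⊓ X) ≤ m := hU'd ▸ Submodule.finrank_mono inf_le_left
      rw [Nat.even_iff] at hIH ⊢
      omega

/-- Exactly two maximal t.s. subspaces over a codimension one t.s. subspace, given that a maximal one exists. -/
theorem card_eq_two (h : QPair Q B) {m : ℕ} (hV : finrank F V = 2 * m) {A U0 : Submodule F V}
    (hA : TS Q A) (hAd : finrank F A = m) (hU : TS Q U0) (hUd : finrank F U0 + 1 = m) :
    Nat.card {W : Submodule F V // finrank F W = m ∧ (∀ w ∈ W, Q w = 0) ∧ U0 ≤ W} = 2 := by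
  obtain ⟨hY, hYd, -⟩ := exch h hV hA hAd hU hUd
  obtain ⟨W2, hW2, hW2d, hW2le, hne, hall⟩ := two_maxTS h hV hU hUd hY hYd le_sup_right
  rw [Nat.card_eq_two_iff]
  refine ⟨⟨_, hYd, hY, le_sup_right⟩, ⟨W2, hW2d, hW2, hW2le⟩, ?_, ?_⟩
  · intro he
    exact hne (congrArg Subtype.val he).symm
  · ext ⟨W, hW1, hW2', hW3⟩
    simp only [Set.mem_insert_iff, Set.mem_singleton_iff, Set.mem_univ, iff_true, Subtype.mk.injEq]
    exact hall W hW2' hW1 hW3

/-- Two adjacent maximal t.s. subspaces exist as soon as one does (`m ≥ 1`). -/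
theorem exists_adjacent (h : QPair Q B) {m : ℕ} (hm : 1 ≤ m) (hV : finrank F V = 2 * m) {A : Submodule F V}
    (hA : TS Q A) (hAd : finrank F A = m) :
    ∃ W : Submodule F V, TS Q W ∧ finrank F W = m ∧ finrank F ↥(A ⊓ W) + 1 = m := by
  obtain ⟨U0, -, hU0b, hU0d⟩ := exists_between_finrank (bot_le : ⊥ ≤ A) (m - 1) (by simp) (by omega)
  obtain ⟨W2, hW2, hW2d, hW2le, hne, -⟩ := two_maxTS h hV (hA.mono hU0b) (by omega) hA hAd hU0b
  refine ⟨W2, hW2, hW2d, ?_⟩
  have h1 : finrank F U0 ≤ finrank F ↥(A ⊓ W2) := Submodule.finrank_mono (le_inf hU0b hW2le)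
  have h2 : finrank F ↥(A ⊓ W2) ≤ m := hAd ▸ Submodule.finrank_mono inf_le_left
  have h3 : finrank F ↥(A ⊓ W2) ≠ m := by
    intro h4
    apply hne
    have h5 : A ⊓ W2 = A := Submodule.eq_of_le_of_finrank_eq inf_le_left (by omega)
    have h6 : A ⊓ W2 = W2 := Submodule.eq_of_le_of_finrank_eq inf_le_right (by omega)
    rw [← h6, h5]
  omega

/-! ### The hyperbolic form `quadFormPlus` -/

/-- The polar form of `quadFormPlus`. -/
noncomputable def plusB (m : ℕ) (F : Type*) [Field F] : LinearMap.BilinForm F (Fin m ⊕ Fin m → F) :=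
  LinearMap.mk₂ F (fun x y => ∑ i : Fin m, (x (.inl i) * y (.inr i) + x (.inr i) * y (.inl i)))
    (by intro a b c; rw [← Finset.sum_add_distrib]; refine Finset.sum_congr rfl fun i _ => ?_; simp; ring)
    (by intro c a b; rw [smul_eq_mul, Finset.mul_sum]; refine Finset.sum_congr rfl fun i _ => ?_; simp; ring)
    (by intro a b c; rw [← Finset.sum_add_distrib]; refine Finset.sum_congr rfl fun i _ => ?_; simp; ring)
    (by intro c a b; rw [smul_eq_mul, Finset.mul_sum]; refine Finset.sum_congr rfl fun i _ => ?_; simp; ring)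

lemma plusB_apply (m : ℕ) (F : Type*) [Field F] (x y : Fin m ⊕ Fin m → F) :
    plusB m F x y = ∑ i : Fin m, (x (.inl i) * y (.inr i) + x (.inr i) * y (.inl i)) := rfl

lemma plus_pair (m : ℕ) (F : Type*) [Field F] : QPair (Cfsg.quadFormPlus m F) (plusB m F) where
  add x y := by
    simp only [Cfsg.quadFormPlus, plusB_apply]
    rw [← Finset.sum_add_distrib, ← Finset.sum_add_distrib]
    refine Finset.sum_congr rfl fun i _ => ?_
    simp only [Pi.add_apply]
    ring
  smul c x := by
    simp only [Cfsg.quadFormPlus]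
    rw [Finset.mul_sum]
    refine Finset.sum_congr rfl fun i _ => ?_
    simp only [Pi.smul_apply, smul_eq_mul]
    ring
  symm x y := by
    simp only [plusB_apply]
    refine Finset.sum_congr rfl fun i _ => ?_
    ring
  nd := by
    classical
    have key : ∀ x : Fin m ⊕ Fin m → F, (∀ y, plusB m F x y = 0) → x = 0 := by
      intro x hx
      funext j
      rcases j with i | i
      · have := hx (Pi.single (.inr i) 1)
        rw [plusB_apply, Finset.sum_eq_single i] at this
        · simpa using this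
        · intro k _ hk
          simp [hk]
        · simp
      · have := hx (Pi.single (.inl i) 1)
        rw [plusB_apply, Finset.sum_eq_single i] at this
        · simpa using this
        · intro k _ hk
          simp [hk]
        · simp
    refine ⟨key, ?_⟩
    intro y hy
    apply key
    intro x
    rw [(show plusB m F y x = plusB m F x y by
      simp only [plusB_apply]; refine Finset.sum_congr rfl fun i _ => ?_; ring)]
    exact hy x

lemma plus_finrank (m : ℕ) (F : Type*) [Field F] : finrank F (Fin m ⊕ Fin m → F) = 2 * m := by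
  rw [Module.finrank_fintype_fun_eq_card]
  simp [two_mul]

/-- The standard maximal t.s. subspace. -/
lemma exists_std (m : ℕ) (F : Type*) [Field F] :
    ∃ A : Submodule F (Fin m ⊕ Fin m → F), TS (Cfsg.quadFormPlus m F) A ∧ finrank F A = m := by
  let f : (Fin m → F) →ₗ[F] (Fin m ⊕ Fin m → F) :=
    { toFun := fun a => Sum.elim a 0
      map_add' := by
        intro a b; funext j; rcases j with i | i <;> simp
      map_smul' := by
        intro c a; funext j; rcases j with i | i <;> simp }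
  have hf : Function.Injective f := by
    intro a b hab
    funext i
    exact congrFun hab (.inl i)
  refine ⟨LinearMap.range f, ?_, ?_⟩
  · rintro _ ⟨a, rfl⟩
    simp [Cfsg.quadFormPlus, f]
  · rw [LinearMap.finrank_range_of_inj hf]
    simp

end Cfsg.Agent.Lib.MaxTS
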