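import Cfsg.Agent.Lib.McC22Tab

set_option autoImplicit false
set_option maxRecDepth 100000
set_option Elab.async false

namespace Cfsg.Agent.Lib.McC22St3

open Cfsg.Agent.Lib.ChainCert Cfsg.Agent.Lib.ProgBits Cfsg.Agent.Lib.ProgChain Cfsg.Agent.Lib.PermChain Cfsg.Agent.Lib.TcBits
open Cfsg.Agent.Lib.McC22Tab

theorem st3_10_0 : allR (guard Pst3 (nat_lit 3265)) 10 (nat_lit 0) = true := by decide +kernel
theorem st3_10_1024 : allR (guard Pst3 (nat_lit 3265)) 10 (nat_lit 1024) = true := by decide +kernel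
theorem st3_10_2048 : allR (guard Pst3 (nat_lit 3265)) 10 (nat_lit 2048) = true := by decide +kernel
theorem st3_10_3072 : allR (guard Pst3 (nat_lit 3265)) 10 (nat_lit 3072) = true := by decide +kernel
theorem st3_11_0 : allR (guard Pst3 (nat_lit 3265)) 11 (nat_lit 0) = true := allR_join (mid := nat_lit 1024) rfl st3_10_0 st3_10_1024
theorem st3_11_2048 : allR (guard Pst3 (nat_lit 3265)) 11 (nat_lit 2048) = true := allR_join (mid := nat_lit 3072) rfl st3_10_2048 st3_10_3072
theorem st3_12_0 : allR (guard Pst3 (nat_lit 3265)) 12 (nat_lit 0) = true := allR_join (mid := nat_lit 2048) rfl st3_11_0 st3_11_2048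
theorem st3_all : ∀ i, i < (nat_lit 3265) → Pst3 i = true := of_guard (k := 12) (by norm_num) st3_12_0

end Cfsg.Agent.Lib.McC22St3
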