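import Mathlib
import Cfsg.Prelude.Def_KGroupFacts
import Cfsg.Agent.Lib.SchurCover46

/-!
# Central extensions by corestriction

Let `G` act on a finite set `X` with base point `x₀`, with a section `τ`, and let `ρ : U → G` be a central
extension of the stabiliser of `x₀`. The wreath-type group `B` of pairs `(f, g)`, where `f y` lifts the cocycle
`(τ y)⁻¹ g τ (g⁻¹ y)`, is an extension of `G` by the functions from `X` to the kernel of `ρ`. Dividing out the functions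
whose product is trivial, one gets a central extension of `G` by the kernel of `ρ`.
-/

set_option autoImplicit false
set_option linter.unusedVariables false
set_option linter.unusedSectionVars false
set_option linter.style.haveILetI false

namespace Cfsg.Agent.Lib.SchurCor22

open Subgroup Cfsg Cfsg.Agent.Lib.SchurCover46

/-- The carrier of the wreath-type group. -/
structure Wr (U G X : Type) where
  /-- the function -/
  f : X → U
  /-- the element of the group -/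
  g : G

namespace Wr

variable {U G X : Type} [Group U] [Group G] [MulAction G X]

@[ext] theorem ext' {a b : Wr U G X} (h1 : a.f = b.f) (h2 : a.g = b.g) : a = b := by
  cases a; cases b; simp_all

instance : Mul (Wr U G X) := ⟨fun a b => ⟨fun y => a.f y * b.f (a.g⁻¹ • y), a.g * b.g⟩⟩
instance : One (Wr U G X) := ⟨⟨fun _ => 1, 1⟩⟩
instance : Inv (Wr U G X) := ⟨fun a => ⟨fun y => (a.f (a.g • y))⁻¹, a.g⁻¹⟩⟩

@[simp] theorem mul_f (a b : Wr U G X) (y : X) : (a * b).f y = a.f y * b.f (a.g⁻¹ • y) := rfl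
@[simp] theorem mul_g (a b : Wr U G X) : (a * b).g = a.g * b.g := rfl
@[simp] theorem one_f (y : X) : (1 : Wr U G X).f y = 1 := rfl
@[simp] theorem one_g : (1 : Wr U G X).g = 1 := rfl
@[simp] theorem inv_f (a : Wr U G X) (y : X) : (a⁻¹).f y = (a.f (a.g • y))⁻¹ := rfl
@[simp] theorem inv_g (a : Wr U G X) : (a⁻¹).g = a.g⁻¹ := rfl

instance : Group (Wr U G X) :=
  Group.ofLeftAxioms
    (fun a b c => by
      apply ext'
      · funext y
        simp [mul_assoc, mul_smul]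
      · simp [mul_assoc])
    (fun a => by
      apply ext'
      · funext y
        simp
      · simp)
    (fun a => by
      apply ext'
      · funext y
        simp
      · simp)

theorem pow_g (a : Wr U G X) (n : ℕ) : (a ^ n).g = a.g ^ n := by
  induction n with
  | zero => simp
  | succ n ih => rw [pow_succ, pow_succ, mul_g, ih]

/-- The elements as pairs. -/
def toPair : Wr U G X ≃ (X → U) × G where
  toFun a := (a.f, a.g)
  invFun p := ⟨p.1, p.2⟩
  left_inv _ := rfl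
  right_inv _ := rfl

instance [Finite X] [Finite U] [Finite G] : Finite (Wr U G X) := Finite.of_equiv _ toPair.symm

end Wr

section main

variable {U G X A : Type} [Group U] [Group G] [MulAction G X] [CommGroup A] [Fintype X]
  (ρ : U →* G) (τ : X → G)

/-- The wreath-type group. -/
def B : Subgroup (Wr U G X) where
  carrier := {a | ∀ y, ρ (a.f y) = (τ y)⁻¹ * a.g * τ (a.g⁻¹ • y)}
  one_mem' := by
    intro y
    simp
  mul_mem' := by
    intro a b ha hb y
    rw [Wr.mul_f, map_mul, ha y, hb, Wr.mul_g, mul_inv_rev, mul_smul]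
    group
  inv_mem' := by
    intro a ha y
    rw [Wr.inv_f, map_inv, ha, Wr.inv_g, inv_inv, inv_smul_smul]
    group

theorem mem_B {a : Wr U G X} : a ∈ B ρ τ ↔ ∀ y, ρ (a.f y) = (τ y)⁻¹ * a.g * τ (a.g⁻¹ • y) := Iff.rfl

/-- The map to the group. -/
def piB : ↥(B ρ τ) →* G where
  toFun a := a.1.g
  map_one' := rfl
  map_mul' _ _ := rfl

theorem piB_apply (a : ↥(B ρ τ)) : piB ρ τ a = a.1.g := rfl

theorem f_mem_ker {a : ↥(B ρ τ)} (ha : a ∈ (piB ρ τ).ker) (y : X) : a.1.f y ∈ ρ.ker := by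
  have h1 : a.1.g = 1 := ha
  rw [MonoidHom.mem_ker, a.2 y, h1]
  simp

variable (θ : ↥ρ.ker ≃* A)

/-- The product of the values of a function with values in the kernel. -/
noncomputable def chi : ↥(piB ρ τ).ker →* A where
  toFun a := ∏ y, θ ⟨a.1.1.f y, f_mem_ker ρ τ a.2 y⟩
  map_one' := by
    apply Finset.prod_eq_one
    intro y _
    exact map_one θ
  map_mul' a b := by
    rw [← Finset.prod_mul_distrib]
    apply Finset.prod_congr rfl
    intro y _
    rw [← map_mul]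
    congr 1
    apply Subtype.ext
    show a.1.1.f y * b.1.1.f (a.1.1.g⁻¹ • y) = a.1.1.f y * b.1.1.f y
    have h1 : a.1.1.g = 1 := a.2
    rw [h1]
    simp

/-- The subgroup of functions with trivial product. -/
noncomputable def NN : Subgroup ↥(B ρ τ) := (chi ρ τ θ).ker.map (piB ρ τ).ker.subtype

variable {ρ τ θ}

theorem mem_NN {a : ↥(B ρ τ)} : a ∈ NN ρ τ θ ↔ ∃ h : a ∈ (piB ρ τ).ker, chi ρ τ θ ⟨a, h⟩ = 1 := by
  constructor
  · rintro ⟨b, hb, rfl⟩
    exact ⟨b.2, hb⟩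
  · rintro ⟨h, e⟩
    exact ⟨⟨a, h⟩, e, rfl⟩

/-- Conjugation does not change the product. -/
theorem conj_mem_ker (hcen : ∀ k ∈ ρ.ker, ∀ u, k * u = u * k) (b : ↥(B ρ τ)) {a : ↥(B ρ τ)} (ha : a ∈ (piB ρ τ).ker) :
    ∃ h : b * a * b⁻¹ ∈ (piB ρ τ).ker, chi ρ τ θ ⟨b * a * b⁻¹, h⟩ = chi ρ τ θ ⟨a, ha⟩ := by
  have h1 : a.1.g = 1 := ha
  have hm : b * a * b⁻¹ ∈ (piB ρ τ).ker := by
    rw [MonoidHom.mem_ker, map_mul, map_mul, map_inv, show piB ρ τ a = 1 from ha]
    simp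
  refine ⟨hm, ?_⟩
  have hval : ∀ y, ((b * a * b⁻¹ : ↥(B ρ τ)) : Wr U G X).f y = a.1.f (b.1.g⁻¹ • y) := by
    intro y
    have e1 : ((b * a * b⁻¹ : ↥(B ρ τ)) : Wr U G X) = b.1 * a.1 * b.1⁻¹ := rfl
    rw [e1, Wr.mul_f, Wr.mul_f, Wr.inv_f, Wr.mul_g, h1, mul_one, smul_inv_smul]
    have h2 := hcen _ (f_mem_ker ρ τ ha (b.1.g⁻¹ • y)) (b.1.f y)
    rw [← h2, mul_inv_cancel_right]
  show ∏ y, θ ⟨_, _⟩ = ∏ y, θ ⟨_, _⟩
  refine Fintype.prod_equiv (MulAction.toPerm (b.1.g⁻¹)) _ _ ?_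
  intro y
  congr 1
  apply Subtype.ext
  exact hval y

theorem instNN (hcen : ∀ k ∈ ρ.ker, ∀ u, k * u = u * k) : (NN ρ τ θ).Normal := ⟨by
  intro a ha b
  obtain ⟨h, e⟩ := mem_NN.mp ha
  obtain ⟨h2, e2⟩ := conj_mem_ker (θ := θ) hcen b h
  exact mem_NN.mpr ⟨h2, e2.trans e⟩⟩

theorem NN_le : NN ρ τ θ ≤ (piB ρ τ).ker := by
  rintro _ ⟨b, _, rfl⟩
  exact b.2

/-- The values on the whole wreath-type group of the product. -/
noncomputable def chiV (θ : ↥ρ.ker ≃* A) (a : Wr U G X) : A := by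
  classical
  exact ∏ y, if h : ρ (a.f y) = 1 then θ ⟨a.f y, h⟩ else 1

theorem chi_eq_chiV (a : ↥(piB ρ τ).ker) : chi ρ τ θ a = chiV θ a.1.1 := by
  classical
  show (∏ y, θ ⟨a.1.1.f y, f_mem_ker ρ τ a.2 y⟩) = ∏ y, if h : ρ (a.1.1.f y) = 1 then θ ⟨a.1.1.f y, h⟩ else 1
  apply Finset.prod_congr rfl
  intro y _
  rw [dif_pos (MonoidHom.mem_ker.mp (f_mem_ker ρ τ a.2 y))]

/-- The central extension. -/
theorem exists_central [Finite U] [Finite G] [Finite X] {x₀ : X} (hτ : ∀ x, τ x • x₀ = x) (hρ₁ : ∀ u, ρ u • x₀ = x₀)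
    (hρ₂ : ∀ g : G, g • x₀ = x₀ → ∃ u, ρ u = g) (hcen : ∀ k ∈ ρ.ker, ∀ u, k * u = u * k) :
    ∃ (Γ : Type) (_ : Group Γ) (_ : Finite Γ) (σ : Γ →* G) (q : ↥(B ρ τ) →* Γ),
      Function.Surjective q ∧ Function.Surjective σ ∧ (∀ a : ↥(B ρ τ), σ (q a) = a.1.g) ∧
      (∀ a : ↥(B ρ τ), a.1.g = 1 → (q a = 1 ↔ chiV θ a.1 = 1)) ∧ σ.ker ≤ center Γ ∧ Nonempty (σ.ker ≃* A) := by
  classical
  haveI : (NN ρ τ θ).Normal := instNN hcen
  let N := NN ρ τ θ
  let σ : ↥(B ρ τ) ⧸ N →* G := QuotientGroup.lift N (piB ρ τ) (fun x hx => NN_le hx)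
  have hsurj : Function.Surjective (piB ρ τ) := by
    intro g
    have hex : ∀ y, ∃ u, ρ u = (τ y)⁻¹ * g * τ (g⁻¹ • y) := by
      intro y
      apply hρ₂
      rw [mul_smul, mul_smul, hτ, smul_inv_smul, inv_smul_eq_iff, hτ]
    choose f hf using hex
    exact ⟨⟨⟨f, g⟩, hf⟩, rfl⟩
  -- the kernel
  let φ : ↥(piB ρ τ).ker →* ↥σ.ker :=
    { toFun := fun a => ⟨((a.1 : ↥(B ρ τ)) : ↥(B ρ τ) ⧸ N), a.2⟩
      map_one' := rfl
      map_mul' := fun _ _ => rfl }
  have hφ : Function.Surjective φ := by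
    rintro ⟨k, hk⟩
    obtain ⟨b, rfl⟩ := QuotientGroup.mk_surjective k
    exact ⟨⟨b, hk⟩, rfl⟩
  have hχ : Function.Surjective (chi ρ τ θ) := by
    intro a₀
    let k := θ.symm a₀
    let F : Wr U G X := ⟨fun y => if y = x₀ then k.1 else 1, 1⟩
    have hF : F ∈ B ρ τ := by
      intro y
      by_cases hy : y = x₀
      · simp only [F, if_pos hy]
        rw [MonoidHom.mem_ker.mp k.2]
        simp
      · simp only [F, if_neg hy]
        simp
    refine ⟨⟨⟨F, hF⟩, rfl⟩, ?_⟩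
    rw [chi_eq_chiV]
    show (∏ y, if h : ρ (F.f y) = 1 then θ ⟨F.f y, h⟩ else 1) = a₀
    rw [Finset.prod_eq_single x₀]
    · have h0 : F.f x₀ = k.1 := by simp [F]
      rw [dif_pos (by rw [h0]; exact k.2)]
      have : (⟨F.f x₀, by rw [h0]; exact k.2⟩ : ↥ρ.ker) = k := Subtype.ext h0
      rw [this]
      simp [k]
    · intro y _ hy
      have h0 : F.f y = 1 := by simp [F, hy]
      have h1 : ρ (F.f y) = 1 := by rw [h0, map_one]
      rw [dif_pos h1]
      have : (⟨F.f y, h1⟩ : ↥ρ.ker) = 1 := Subtype.ext h0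
      rw [this, map_one]
    · intro h
      exact absurd (Finset.mem_univ _) h
  have hker : φ.ker = (chi ρ τ θ).ker := by
    ext a
    rw [MonoidHom.mem_ker, MonoidHom.mem_ker]
    constructor
    · intro h
      have h1 : ((a.1 : ↥(B ρ τ)) : ↥(B ρ τ) ⧸ N) = 1 := congrArg Subtype.val h
      have h2 : a.1 ∈ N := (QuotientGroup.eq_one_iff _).mp h1
      obtain ⟨h3, h4⟩ := mem_NN.mp h2
      exact h4
    · intro h
      apply Subtype.ext
      have h2 : a.1 ∈ N := mem_NN.mpr ⟨a.2, h⟩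
      exact (QuotientGroup.eq_one_iff _).mpr h2
  refine ⟨↥(B ρ τ) ⧸ N, inferInstance, inferInstance, σ, QuotientGroup.mk' N, QuotientGroup.mk'_surjective N, ?_, fun a => rfl, ?_, ?_, ?_⟩
  · intro g
    obtain ⟨b, rfl⟩ := hsurj g
    exact ⟨(b : ↥(B ρ τ) ⧸ N), rfl⟩
  · intro a ha
    have hk : a ∈ (piB ρ τ).ker := ha
    constructor
    · intro h
      have h2 : a ∈ N := (QuotientGroup.eq_one_iff _).mp h
      obtain ⟨h3, h4⟩ := mem_NN.mp h2
      rw [chi_eq_chiV] at h4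
      exact h4
    · intro h
      apply (QuotientGroup.eq_one_iff _).mpr
      refine mem_NN.mpr ⟨hk, ?_⟩
      rw [chi_eq_chiV]
      exact h
  · intro k hk
    rw [Subgroup.mem_center_iff]
    intro g
    obtain ⟨a, rfl⟩ := QuotientGroup.mk_surjective k
    obtain ⟨b, rfl⟩ := QuotientGroup.mk_surjective g
    have ha : a ∈ (piB ρ τ).ker := hk
    obtain ⟨h2, e2⟩ := conj_mem_ker (θ := θ) hcen b ha
    have h3 : b * a * b⁻¹ * a⁻¹ ∈ N := by
      refine mem_NN.mpr ⟨(piB ρ τ).ker.mul_mem h2 ((piB ρ τ).ker.inv_mem ha), ?_⟩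
      have e3 : (⟨b * a * b⁻¹ * a⁻¹, (piB ρ τ).ker.mul_mem h2 ((piB ρ τ).ker.inv_mem ha)⟩ : ↥(piB ρ τ).ker) =
          ⟨b * a * b⁻¹, h2⟩ * (⟨a, ha⟩)⁻¹ := rfl
      rw [e3, map_mul, map_inv, e2, mul_inv_cancel]
    have h4 : ((b * a * b⁻¹ * a⁻¹ : ↥(B ρ τ)) : ↥(B ρ τ) ⧸ N) = 1 := (QuotientGroup.eq_one_iff _).mpr h3
    have h5 : (b : ↥(B ρ τ) ⧸ N) * a = a * b := by
      have e4 : ((b * a * b⁻¹ * a⁻¹ : ↥(B ρ τ)) : ↥(B ρ τ) ⧸ N) =
          (b : ↥(B ρ τ) ⧸ N) * a * (b : ↥(B ρ τ) ⧸ N)⁻¹ * (a : ↥(B ρ τ) ⧸ N)⁻¹ := rfl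
      rw [e4] at h4
      have h6 : (b : ↥(B ρ τ) ⧸ N) * a * (b : ↥(B ρ τ) ⧸ N)⁻¹ = a := by
        exact mul_inv_eq_one.mp h4
      exact mul_inv_eq_iff_eq_mul.mp h6
    exact h5
  · exact ⟨((QuotientGroup.quotientKerEquivOfSurjective φ hφ).symm.trans
      (QuotientGroup.quotientMulEquivOfEq hker)).trans (QuotientGroup.quotientKerEquivOfSurjective _ hχ)⟩

/-- The product of a list of elements of the wreath-type group, evaluated at a point. -/
def pathP : List (Wr U G X) → X → U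
  | [], _ => 1
  | b :: l, y => b.f y * pathP l (b.g⁻¹ • y)

theorem prod_f (l : List (Wr U G X)) (y : X) : (l.prod).f y = pathP l y := by
  induction l generalizing y with
  | nil => rfl
  | cons b l ih =>
    rw [List.prod_cons, Wr.mul_f, ih]
    rfl

theorem prod_g (l : List (Wr U G X)) : (l.prod).g = (l.map Wr.g).prod := by
  induction l with
  | nil => rfl
  | cons b l ih =>
    rw [List.prod_cons, Wr.mul_g, ih]
    rfl

/-- A stem extension by the kernel of prime order from lifts of generators of `G`. -/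
theorem exists_stem [Finite U] [Finite G] [Finite X] {x₀ : X} {p m n : ℕ} (hp : p.Prime)
    (θ : ↥ρ.ker ≃* Multiplicative (ZMod p))
    (hτ : ∀ x, τ x • x₀ = x) (hρ₁ : ∀ u, ρ u • x₀ = x₀)
    (hρ₂ : ∀ g : G, g • x₀ = x₀ → ∃ u, ρ u = g) (hcen : ∀ k ∈ ρ.ker, ∀ u, k * u = u * k)
    (s : ℕ → G) (hgen : closure (s '' Set.Iio m) = ⊤) (L : ℕ → Wr U G X) (hL : ∀ i, L i ∈ B ρ τ)
    (hLg : ∀ i, (L i).g = s i) (hn : Nat.Coprime n p)
    (hLn : ∀ i, i < m → ∃ d, d ∣ n ∧ s i ^ d = 1 ∧ chiV θ (L i ^ d) = 1)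
    (w : List ℕ) (hw : ∀ i ∈ w, i < m) (hw1 : ((w.map L).prod).g = 1) (hw2 : chiV θ (w.map L).prod ≠ 1) :
    ∃ (Γ : Type) (_ : Group Γ) (_ : Finite Γ) (σ : Γ →* G), IsStemExtension σ ∧
      Nonempty (σ.ker ≃* Multiplicative (ZMod p)) := by
  classical
  haveI : Fact p.Prime := ⟨hp⟩
  obtain ⟨Γ, _, _, σ, q, hq, hσ, hσq, hq1, hcenΓ, ⟨ι⟩⟩ :=
    exists_central (θ := θ) (ρ := ρ) (τ := τ) hτ hρ₁ hρ₂ hcen
  let x : ℕ → Γ := fun i => q ⟨L i, hL i⟩
  have hxg : ∀ i, σ (x i) = s i := by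
    intro i
    rw [hσq]
    exact hLg i
  set S : Set Γ := x '' Set.Iio m with hS
  have hSn : ∀ g ∈ S, g ^ n = 1 := by
    rintro _ ⟨i, hi, rfl⟩
    obtain ⟨d, ⟨c, rfl⟩, hd1, hd2⟩ := hLn i hi
    have h1 : (x i) ^ d = q (⟨L i, hL i⟩ ^ d) := by rw [map_pow]
    have h2 : ((⟨L i, hL i⟩ : ↥(B ρ τ)) ^ d).1 = L i ^ d := rfl
    have h3 : (x i) ^ d = 1 := by
      rw [h1]
      refine (hq1 _ ?_).mpr ?_
      · rw [h2, Wr.pow_g, hLg]
        exact hd1
      · rw [h2]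
        exact hd2
    rw [pow_mul, h3, one_pow]
  have hcK : Nat.card σ.ker = p := by
    rw [Nat.card_congr ι.toEquiv]
    show Nat.card (ZMod p) = p
    rw [Nat.card_zmod]
  let σ₁ : ↥(closure S) →* G := σ.comp (closure S).subtype
  have hσ₁ : Function.Surjective σ₁ := by
    rw [← MonoidHom.range_eq_top, MonoidHom.range_comp, Subgroup.range_subtype, MonoidHom.map_closure, hS,
      Set.image_image]
    have : (fun a => σ (x a)) = s := funext hxg
    rw [this, hgen]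
  have hcen₁ : σ₁.ker ≤ center ↥(closure S) := by
    intro z hz
    rw [Subgroup.mem_center_iff]
    intro g
    apply Subtype.ext
    exact Subgroup.mem_center_iff.mp (hcenΓ hz) g.1
  have hcomm₁ : σ₁.ker ≤ commutator ↥(closure S) := by
    intro z hz
    refine mem_commutator_of_gens S hSn hn z ?_
    have h1 : (⟨z.1, hz⟩ : σ.ker) ^ p = 1 := by
      have := pow_card_eq_one' (x := (⟨z.1, hz⟩ : σ.ker))
      rwa [hcK] at this
    apply Subtype.ext
    have h3 : ((⟨z.1, hz⟩ : σ.ker) ^ p).1 = (1 : σ.ker).1 := by rw [h1]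
    exact h3
  refine ⟨↥(closure S), inferInstance, inferInstance, σ₁, ⟨hσ₁, hcen₁, hcomm₁⟩, ?_⟩
  -- the element of the relator
  have hRB : (w.map L).prod ∈ B ρ τ := by
    apply Subgroup.list_prod_mem
    intro a ha
    obtain ⟨i, _, rfl⟩ := List.mem_map.mp ha
    exact hL i
  have hRq : ∀ w' : List ℕ, (∀ i ∈ w', i < m) → ∃ (hB : (w'.map L).prod ∈ B ρ τ),
      q ⟨(w'.map L).prod, hB⟩ ∈ closure S := by
    intro w' hw'
    induction w' with
    | nil =>
      exact ⟨Subgroup.one_mem _, by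
        have : q ⟨([].map L).prod, Subgroup.one_mem _⟩ = 1 := map_one q
        rw [this]
        exact Subgroup.one_mem _⟩
    | cons i l ih =>
      obtain ⟨hB, hl⟩ := ih (fun j hj => hw' j (List.mem_cons_of_mem _ hj))
      refine ⟨Subgroup.mul_mem _ (hL i) hB, ?_⟩
      have e : q ⟨((i :: l).map L).prod, Subgroup.mul_mem _ (hL i) hB⟩ = x i * q ⟨(l.map L).prod, hB⟩ := by
        rw [← map_mul]
        rfl
      rw [e]
      exact Subgroup.mul_mem _ (Subgroup.subset_closure ⟨i, hw' i List.mem_cons_self, rfl⟩) hl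
  obtain ⟨hB, hR⟩ := hRq w hw
  set r : ↥(closure S) := ⟨q ⟨(w.map L).prod, hB⟩, hR⟩ with hr
  have hr1 : r ∈ σ₁.ker := by
    rw [MonoidHom.mem_ker]
    show σ (q ⟨(w.map L).prod, hB⟩) = 1
    rw [hσq]
    exact hw1
  have hr2 : r ≠ 1 := by
    intro h
    apply hw2
    have h3 : q ⟨(w.map L).prod, hB⟩ = 1 := congrArg Subtype.val h
    exact (hq1 _ hw1).mp h3
  let j : σ₁.ker →* σ.ker :=
    { toFun := fun z => ⟨z.1.1, z.2⟩
      map_one' := rfl
      map_mul' := fun _ _ => rfl }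
  have hj : Function.Injective j := by
    intro a b h
    apply Subtype.ext
    apply Subtype.ext
    have h3 : (j a).1 = (j b).1 := by rw [h]
    exact h3
  have hdvd : Nat.card σ₁.ker ∣ p := by
    rw [← hcK]
    exact Subgroup.card_dvd_of_injective j hj
  have hcard : Nat.card σ₁.ker = p := by
    rcases (Nat.dvd_prime hp).mp hdvd with h | h
    · exfalso
      haveI : Subsingleton σ₁.ker := (Nat.card_eq_one_iff_unique.mp h).1
      have : (⟨r, hr1⟩ : σ₁.ker) = 1 := Subsingleton.elim _ _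
      exact hr2 (congrArg Subtype.val this)
    · exact h
  have h2 : Nat.card (Multiplicative (ZMod p)) = p := by
    show Nat.card (ZMod p) = p
    rw [Nat.card_zmod]
  exact ⟨mulEquivOfPrimeCardEq hcard h2⟩

end main

end Cfsg.Agent.Lib.SchurCor22
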