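import Cfsg.Agent.Lib.McExt22
import Cfsg.Agent.Lib.SchurCor22

/-!
# The McLaughlin group: the stem extension with kernel of order three, by corestriction
-/

set_option autoImplicit false
set_option maxRecDepth 100000
set_option linter.style.haveILetI false
set_option linter.unusedSectionVars false

namespace Cfsg.Agent.Lib.McCover22

open Subgroup MulAction Cfsg Cfsg.Agent.Lib.TcBits Cfsg.Agent.Lib.PermChain Cfsg.Agent.Lib.ProgBits
  Cfsg.Agent.Lib.ProgChain Cfsg.Agent.Lib.ProgMask22 Cfsg.Agent.Lib.ProgPair22 Cfsg.Agent.Lib.McCD22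
  Cfsg.Agent.Lib.McGroup22 Cfsg.Agent.Lib.ProgRes22 Cfsg.Agent.Lib.McExt22 Cfsg.Agent.Lib.SchurCor22

/-- The base point. -/
abbrev b₀ : Fin 275 := ⟨0, by norm_num⟩

/-- The section. -/
noncomputable def τ (y : Fin 275) : ↥K := e (Cfsg.Agent.Lib.McK22Tab.tw0 y.val)

theorem tau_chk : ∀ y, y < 275 → ptChk pr (Cfsg.Agent.Lib.McK22Tab.tw0 y) y 0 = true := by decide +kernel

theorem smul_val (g : ↥K) (y : Fin 275) : g • y = g.1 y := rfl

theorem hτ (x : Fin 275) : τ x • b₀ = x := by
  apply Fin.ext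
  exact ctx.prodW_pt (w := Cfsg.Agent.Lib.McK22Tab.tw0 x.val) (p := x.val) (b := b₀) (tau_chk x.val x.isLt)

/-- The generators. -/
noncomputable def s : ℕ → ↥K := s2 hL

theorem s_of_lt {i : ℕ} (hi : i < 2) : s i = e [i] := by
  have : i = 0 ∨ i = 1 := by omega
  rcases this with rfl | rfl
  · rfl
  · exact s2_of_ne hL (by norm_num)

theorem s_gen : closure (s '' Set.Iio 2) = ⊤ := s2_closure_top rfl hL

theorem inv_chk : ∀ i, i < 2 → ∀ y, y < 275 → Nat.blt (INV i y) 275 = true ∧ ptChk pr [i] y (INV i y) = true := by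
  decide +kernel

/-- The index of a generator. -/
def ii (i : ℕ) : ℕ := cond (Nat.beq i 0) 0 1

theorem ii_lt (i : ℕ) : ii i < 2 := by
  unfold ii
  cases Nat.beq i 0 <;> simp

theorem s_ii (i : ℕ) : s i = e [ii i] := by
  by_cases h : i = 0
  · subst h
    rfl
  · have h1 : Nat.beq i 0 = false := by
      cases h2 : Nat.beq i 0 with
      | false => rfl
      | true => exact absurd (Nat.eq_of_beq_eq_true h2) h
    unfold ii
    rw [h1]
    exact s2_of_ne hL h

theorem cond_ii (i y : ℕ) : cond (Nat.beq (ii i) 0) y (Nat.add 275 y) = cond (Nat.beq i 0) y (Nat.add 275 y) := by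
  unfold ii
  cases Nat.beq i 0 <;> rfl

theorem INV_ii (i y : ℕ) : INV (ii i) y = INV i y := by
  unfold INV
  rw [cond_ii]

theorem WW_ii (i y : ℕ) : WW (ii i) y = WW i y := by
  unfold WW
  rw [cond_ii]

theorem inv_val (i : ℕ) (y : Fin 275) : ((s i)⁻¹ • y).val = INV i y.val := by
  obtain ⟨h1, h2⟩ := inv_chk (ii i) (ii_lt i) y.val y.isLt
  rw [INV_ii] at h1 h2
  have hlt : INV i y.val < 275 := by simpa [Nat.blt] using h1
  let y' : Fin 275 := ⟨INV i y.val, hlt⟩
  have h3 : (prodW (lp pr 275) [ii i] y').val = y.val := ctx.prodW_pt (w := [ii i]) (p := y.val) (b := y') h2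
  have h4 : s i • y' = y := by
    apply Fin.ext
    rw [s_ii]
    exact h3
  have h5 : (s i)⁻¹ • y = y' := inv_smul_eq_iff.mpr h4.symm
  rw [h5]

/-- The check of a lift. -/
noncomputable def Bchk (j y : ℕ) : Bool :=
  (WW j y).all (fun e => Nat.blt e totC) &&
  wChkM Cfsg.Agent.Lib.McC22Tab.R Cfsg.Agent.Lib.McC22Tab.Y prJ MS (sh (Cfsg.Agent.Lib.McK22Tab.tw0 y) ++ WW j y)
    (sh [j] ++ sh (Cfsg.Agent.Lib.McK22Tab.tw0 (INV j y)))

theorem B_chk : ∀ j, j < 2 → ∀ y, y < 275 → Bchk j y = true := by decide +kernel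

/-- The lifts of the generators. -/
noncomputable def L (i : ℕ) : Wr ↥U₀ ↥K (Fin 275) := ⟨fun y => lf (WW i y.val), s i⟩

theorem L_mem (i : ℕ) : L i ∈ B ρ τ := by
  intro y
  have h := B_chk (ii i) (ii_lt i) y.val y.isLt
  rw [Bchk, Bool.and_eq_true, WW_ii, INV_ii] at h
  obtain ⟨h1, h2⟩ := h
  have h3 := J_eq h2
  rw [prodW_append, prodW_append, J_sh, J_sh, J_sh] at h3
  have e1 : (L i).g = s i := rfl
  have e2 : (L i).f y = lf (WW i y.val) := rfl
  rw [e1, e2]
  have e3 : τ ((s i)⁻¹ • y) = e (Cfsg.Agent.Lib.McK22Tab.tw0 (INV i y.val)) := by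
    rw [τ, inv_val]
  have h4 : τ y * ρ (lf (WW i y.val)) = s i * τ ((s i)⁻¹ • y) := by
    apply Subtype.ext
    rw [e3, s_ii]
    show prodW (lp pr 275) (Cfsg.Agent.Lib.McK22Tab.tw0 y.val) * (ρ (lf (WW i y.val))).1 = _
    rw [ρ_lf h1, h3]
    rfl
  rw [mul_assoc, ← h4, inv_mul_cancel_left]

/-- The word along a path. -/
def pathW : List ℕ → ℕ → List ℕ
  | [], _ => []
  | i :: r, y => WW i y ++ pathW r (INV i y)

theorem path_snd (r : List ℕ) (y : Fin 275) :
    (pathP (r.map L) y).1.2 = prodW T (pathW r y.val) := by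
  induction r generalizing y with
  | nil => rfl
  | cons i r ih =>
    have e1 : pathP ((i :: r).map L) y = (L i).f y * pathP (r.map L) ((L i).g⁻¹ • y) := rfl
    have e2 : ((L i).g⁻¹ • y).val = INV i y.val := inv_val i y
    have e3 : pathW (i :: r) y.val = WW i y.val ++ pathW r (INV i y.val) := rfl
    rw [e1, e3, prodW_append, ← e2, ← ih]
    show (lf (WW i y.val)).1.2 * _ = _
    rw [lf_snd]

theorem prod_s (r : List ℕ) (hr : ∀ i ∈ r, i < 2) : ((r.map L).map Wr.g).prod = e r := by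
  induction r with
  | nil => rfl
  | cons i r ih =>
    have h1 : e (i :: r) = e [i] * e r := el_cons hL i r
    rw [h1, ← ih (fun a ha => hr a (List.mem_cons_of_mem _ ha)), ← s_of_lt (hr i List.mem_cons_self)]
    rfl

/-- The sum of the values of a function. -/
def sumF (f : ℕ → ℕ) : ℕ → ℕ
  | 0 => 0
  | n + 1 => sumF f n + f n

theorem sum_fin (f : ℕ → ℕ) (n : ℕ) : ∑ y : Fin n, f y.val = sumF f n := by
  rw [Fin.sum_univ_eq_sum_range f n]
  induction n with
  | zero => rfl
  | succ n ih => rw [Finset.sum_range_succ, ih]; rfl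

section chi

variable (θ : ↥ρ.ker ≃* Multiplicative (ZMod 3))

/-- The value of the product along a relation. -/
theorem chiV_word {r : List ℕ} {q : ℕ} (hr : ∀ i ∈ r, i < 2)
    (hg : e r = 1) (hchk : ∀ y, y < 275 → ptChk prC (pathW r y) (275 + VV q y) 275 = true ∧ VV q y < 3) :
    chiV θ (r.map L).prod = (θ omK) ^ (sumF (VV q) 275) := by
  classical
  rw [← sum_fin, ← Finset.prod_pow_eq_pow_sum]
  unfold chiV
  apply Finset.prod_congr rfl
  intro y _
  set a := (r.map L).prod with ha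
  have hB : a ∈ B ρ τ := by
    apply Subgroup.list_prod_mem
    intro b hb
    obtain ⟨i, _, rfl⟩ := List.mem_map.mp hb
    exact L_mem i
  have hag : a.g = 1 := by
    rw [ha, prod_g, prod_s r hr, hg]
  have h1 : ρ (a.f y) = 1 := by
    rw [hB y, hag]
    simp
  rw [dif_pos h1]
  obtain ⟨h2, h3⟩ := hchk y.val y.isLt
  have h4 : (a.f y).1.2 = prodW T (pathW r y.val) := by
    rw [ha, prod_f, path_snd]
  have h5 : ((⟨a.f y, h1⟩ : ρ.ker).1.1.2 p275).val = 275 + VV q y.val := by
    show ((a.f y).1.2 p275).val = _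
    rw [h4]
    exact ctxC.prodW_pt (w := pathW r y.val) (p := 275 + VV q y.val) (b := p275) h2
  rw [val_ker _ h3 h5, map_pow]

end chi

theorem s_pow_chk : wChk Cfsg.Agent.Lib.McK22Tab.R Cfsg.Agent.Lib.McK22Tab.Y pr (List.replicate 5 0) [] = true ∧
    wChk Cfsg.Agent.Lib.McK22Tab.R Cfsg.Agent.Lib.McK22Tab.Y pr (List.replicate 7 1) [] = true ∧
    wChk Cfsg.Agent.Lib.McK22Tab.R Cfsg.Agent.Lib.McK22Tab.Y pr [0, 1, 0, 1, 0, 1, 0, 1] [] = true := by
  decide +kernel

theorem path_chk0 : ∀ y, y < 275 → ptChk prC (pathW (List.replicate 5 0) y) (275 + VV 0 y) 275 = true ∧ VV 0 y < 3 := by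
  decide +kernel

theorem path_chk1 : ∀ y, y < 275 → ptChk prC (pathW (List.replicate 7 1) y) (275 + VV 1 y) 275 = true ∧ VV 1 y < 3 := by
  decide +kernel

theorem path_chk2 : ∀ y, y < 275 → ptChk prC (pathW [0, 1, 0, 1, 0, 1, 0, 1] y) (275 + VV 2 y) 275 = true ∧ VV 2 y < 3 := by
  decide +kernel

theorem sum0 : sumF (VV 0) 275 = 270 := by decide +kernel
theorem sum1 : sumF (VV 1) 275 = 324 := by decide +kernel
theorem sum2 : sumF (VV 2) 275 = 289 := by decide +kernel

/-- The stem extension. -/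
theorem exists_stem : ∃ (Γ : Type) (_ : Group Γ) (_ : Finite Γ) (σ : Γ →* ↥K), IsStemExtension σ ∧
    Nonempty (σ.ker ≃* Multiplicative (ZMod 3)) := by
  classical
  haveI : Fact (Nat.Prime 3) := ⟨Nat.prime_three⟩
  have h3 : Nat.card (Multiplicative (ZMod 3)) = 3 := by
    show Nat.card (ZMod 3) = 3
    rw [Nat.card_zmod]
  let θ : ↥ρ.ker ≃* Multiplicative (ZMod 3) := mulEquivOfPrimeCardEq card_ker h3
  have ht3 : (θ omK) ^ 3 = 1 := by
    rw [← map_pow]
    have := pow_card_eq_one' (x := omK)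
    rw [card_ker] at this
    rw [this, map_one]
  have ht1 : θ omK ≠ 1 := by
    intro h
    apply omK_ne
    exact θ.injective (h.trans (map_one θ).symm)
  have hfix : ∀ u : ↥U₀, ρ u • b₀ = b₀ := by
    intro u
    have h1 : ρ u ∈ closure ({xK, yK} : Set ↥K) := by
      rw [← ρ_range]
      exact ⟨u, rfl⟩
    have h2 : closure ({xK, yK} : Set ↥K) ≤ stabilizer ↥K b₀ := by
      rw [closure_le]
      rintro _ (rfl | rfl)
      · apply Fin.ext
        exact ctx.prodW_pt (w := Wxk) (p := 0) (b := b₀) (by decide +kernel)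
      · apply Fin.ext
        exact ctx.prodW_pt (w := Wyk) (p := 0) (b := b₀) (by decide +kernel)
    exact h2 h1
  have hstab : ∀ g : ↥K, g • b₀ = b₀ → ∃ u, ρ u = g := by
    intro g hg
    have h2 : closure ({xK, yK} : Set ↥K) = stabilizer ↥K b₀ := by
      apply Subgroup.eq_of_le_of_card_ge
      · rw [closure_le]
        rintro _ (rfl | rfl)
        · apply Fin.ext
          exact ctx.prodW_pt (w := Wxk) (p := 0) (b := b₀) (by decide +kernel)
        · apply Fin.ext
          exact ctx.prodW_pt (w := Wyk) (p := 0) (b := b₀) (by decide +kernel)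
      · have h4 : (stabilizer ↥K b₀).index = 275 := by
          rw [MulAction.index_stabilizer]
          have h5 : orbit ↥K b₀ = Set.univ := by
            ext x
            simp only [Set.mem_univ, iff_true]
            exact ⟨τ x, hτ x⟩
          rw [h5, Set.ncard_univ]
          simp
        have h5 := Subgroup.card_mul_index (stabilizer ↥K b₀)
        rw [h4, card_K] at h5
        rw [card_xy]
        omega
    have h3 : g ∈ ρ.range := by
      rw [ρ_range, h2]
      exact hg
    exact h3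
  have hL0 : (L 0) ^ 5 = ((List.replicate 5 0).map L).prod := by
    rw [List.map_replicate, List.prod_replicate]
  have hL1 : (L 1) ^ 7 = ((List.replicate 7 1).map L).prod := by
    rw [List.map_replicate, List.prod_replicate]
  have e5 : e (List.replicate 5 0) = 1 := eq_of_chk s_pow_chk.1
  have e7 : e (List.replicate 7 1) = 1 := eq_of_chk s_pow_chk.2.1
  have e8 : e [0, 1, 0, 1, 0, 1, 0, 1] = 1 := eq_of_chk s_pow_chk.2.2
  refine SchurCor22.exists_stem (ρ := ρ) (τ := τ) (x₀ := b₀) (p := 3) (m := 2) (n := 35) Nat.prime_three θ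
    hτ hfix hstab ker_central s s_gen L L_mem (fun _ => rfl) (by norm_num) ?_ [0, 1, 0, 1, 0, 1, 0, 1]
    (by simp) ?_ ?_
  · intro i hi
    have : i = 0 ∨ i = 1 := by omega
    rcases this with rfl | rfl
    · refine ⟨5, by norm_num, ?_, ?_⟩
      · rw [s_of_lt (by norm_num), ← el_replicate hL]
        exact e5
      · rw [hL0, chiV_word θ (by simp) e5 path_chk0, sum0]
        rw [show 270 = 3 * 90 by norm_num, pow_mul, ht3, one_pow]
    · refine ⟨7, by norm_num, ?_, ?_⟩
      · rw [s_of_lt (by norm_num), ← el_replicate hL]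
        exact e7
      · rw [hL1, chiV_word θ (by simp) e7 path_chk1, sum1]
        rw [show 324 = 3 * 108 by norm_num, pow_mul, ht3, one_pow]
  · rw [prod_g, prod_s _ (by simp)]
    exact e8
  · rw [chiV_word θ (by simp) e8 path_chk2, sum2]
    rw [show 289 = 3 * 96 + 1 by norm_num, pow_add, pow_mul, ht3, one_pow, one_mul, pow_one]
    exact ht1

end Cfsg.Agent.Lib.McCover22
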