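import Cfsg.Agent.Lib.McE22Chk
import Cfsg.Agent.Lib.McE22St0
import Cfsg.Agent.Lib.McE22St1

set_option autoImplicit false
set_option maxRecDepth 100000
set_option linter.unusedSectionVars false

/-! Generated file: the chain and the order of the group. -/

namespace Cfsg.Agent.Lib.McE22Main

open Cfsg.Agent.Lib.ChainCert Cfsg.Agent.Lib.ProgBits Cfsg.Agent.Lib.ProgChain Cfsg.Agent.Lib.PermChain Cfsg.Agent.Lib.TcBits
open Cfsg.Agent.Lib.McE22Tab
open Cfsg.Agent.Lib.McE22Chk Cfsg.Agent.Lib.McE22St0 Cfsg.Agent.Lib.McE22St1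

theorem hN : nat_lit 512 = 2 ^ 9 := by norm_num
theorem hM : M = 2 ^ 275 - 1 := by decide +kernel
theorem hR : R = repU 512 9 := by decide +kernel
theorem hY : Y = yId 9 := by decide +kernel
theorem htot : ∀ e, 4 ≤ e → pr e = [] := by
  intro e he
  rw [pr, show Nat.ble ((nat_lit 4)) e = true from Nat.ble_eq_true_of_le he]
  rfl

/-- the context -/
theorem ctx : Ctx 275 9 pr R Y :=
  ctx_mk' (N := (nat_lit 512)) (M := M) (tot := 4) (by norm_num) hN hM hR hY let_all htot

/-- the letters -/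
noncomputable abbrev g : ℕ → Equiv.Perm (Fin 275) := lp pr 275

theorem hOb1 : Om1.testBit 0 = true := by decide +kernel
theorem hroot1 : tw1 0 = [] := by decide +kernel
theorem lev1 : (∀ e, 2 ≤ e → g e ∈ grp g 2 2) ∧
    Level (grp g 2 2) (grp g 4 0) ⟨0, by norm_num⟩
      (fun p => prodW g (tw1 p.val)) (orbF 275 Om1) :=
  level_bundle ctx (lo := 2) (ns := 2) (hi := 4) (ns' := 0) (b := 0) (Om := Om1) (tw := tw1) (st := stE1) (der := derT) (wA := certA) (wB := certB) (by norm_num)
    der1_all cert1_all fix1_all img1_all hOb1 hroot1 st1_all (letters_bottom ctx htot)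
theorem cOm1 : (orbF 275 Om1).card = 3 := by
  rw [card_orbF]; decide +kernel
theorem hOb0 : Om0.testBit 10 = true := by decide +kernel
theorem hroot0 : tw0 10 = [] := by decide +kernel
theorem lev0 : (∀ e, 0 ≤ e → g e ∈ grp g 0 2) ∧
    Level (grp g 0 2) (grp g 2 2) ⟨10, by norm_num⟩
      (fun p => prodW g (tw0 p.val)) (orbF 275 Om0) :=
  level_bundle ctx (lo := 0) (ns := 2) (hi := 2) (ns' := 2) (b := 10) (Om := Om0) (tw := tw0) (st := stE0) (der := derT) (wA := certA) (wB := certB) (by norm_num)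
    der0_all cert0_all fix0_all img0_all hOb0 hroot0 st0_all (lev1).1
theorem cOm0 : (orbF 275 Om0).card = 3 := by
  rw [card_orbF]; decide +kernel
theorem cardH2 : Nat.card (grp g 4 0) = 1 := by
  rw [grp_zero]; simp
theorem cardH1 : Nat.card (grp g 2 2) = 3 := by
  rw [(lev1).2.card, cOm1, cardH2]
theorem cardH0 : Nat.card (grp g 0 2) = 9 := by
  rw [(lev0).2.card, cOm0, cardH1]

end Cfsg.Agent.Lib.McE22Main
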