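import Cfsg.Agent.Lib.ProgChain

/-!
# Equality of permutations of the first points from masked comparisons
-/

set_option autoImplicit false
set_option linter.unusedSectionVars false

namespace Cfsg.Agent.Lib.ProgRes22

open Cfsg.Agent.Lib.TcBits Cfsg.Agent.Lib.PermChain Cfsg.Agent.Lib.ProgBits

variable {n k : ℕ} {pr : ℕ → List (ℕ × ℕ)} {R Y : ℕ}

/-- The test of an equation between words on the first points. -/
def wChkM (R Y : ℕ) (pr : ℕ → List (ℕ × ℕ)) (Ms : ℕ) (w1 w2 : List ℕ) : Bool :=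
  Nat.beq (Nat.land (xWord R pr Y w1) Ms) (Nat.land (xWord R pr Y w2) Ms)

theorem prodW_eq_mask (C : Ctx n k pr R Y) {Ms : ℕ} (hMs : Ms = (2 ^ n - 1) * R) {w1 w2 : List ℕ}
    (h : wChkM R Y pr Ms w1 w2 = true) : prodW (lp pr n) w1 = prodW (lp pr n) w2 := by
  have h0 : (xWord R pr Y w1) &&& Ms = (xWord R pr Y w2) &&& Ms := Nat.eq_of_beq_eq_true h
  have hn2 : n ≤ 2 ^ k := C.hn
  have hMlt : 2 ^ n - 1 < 2 ^ (2 ^ k) := by
    have h1 : 2 ^ n ≤ 2 ^ (2 ^ k) := Nat.pow_le_pow_right (by norm_num) hn2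
    have h2 : 0 < 2 ^ n := by positivity
    omega
  have hpos : 0 < 2 ^ k := by positivity
  have hbit : ∀ j i, j < k → i < n → Ms.testBit (j * 2 ^ k + i) = true := by
    intro j i hj hi
    rw [hMs, C.hR, testBit_mul_repU hMlt]
    have h1 : (j * 2 ^ k + i) % 2 ^ k = i := by
      rw [Nat.mul_comm, Nat.mul_add_mod, Nat.mod_eq_of_lt (lt_of_lt_of_le hi hn2)]
    have h2 : j * 2 ^ k + i < k * 2 ^ k := by
      have h3 : (j + 1) * 2 ^ k ≤ k * 2 ^ k := Nat.mul_le_mul_right _ hj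
      rw [add_mul, one_mul] at h3
      have := lt_of_lt_of_le hi hn2
      omega
    rw [h1, Nat.testBit_two_pow_sub_one]
    simp [h2, hi]
  apply Equiv.ext
  intro i
  apply Fin.ext
  rw [C.prodW_apply, C.prodW_apply]
  have hi : i.val < 2 ^ k := lt_of_lt_of_le i.isLt C.hn
  have hv := C.hv
  have h1 := wordPerm_lt (L := 2 ^ k) (pr := pr) (w := w1) (fun e _ => hv e) hi
  have h2 := wordPerm_lt (L := 2 ^ k) (pr := pr) (w := w2) (fun e _ => hv e) hi
  apply Nat.eq_of_testBit_eq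
  intro j
  by_cases hj : j < k
  · have h3 := testBit_xWord (J := k) (L := 2 ^ k) (pr := pr) (w := w1) (fun e _ => hv e) (yId k) hj hi
    have h4 := testBit_xWord (J := k) (L := 2 ^ k) (pr := pr) (w := w2) (fun e _ => hv e) (yId k) hj hi
    have hb := hbit j i.val hj i.isLt
    have h5 : (xWord R pr Y w1).testBit (j * 2 ^ k + i.val) = (xWord R pr Y w2).testBit (j * 2 ^ k + i.val) := by
      have h6 := congrArg (fun z => z.testBit (j * 2 ^ k + i.val)) h0
      simp only [Nat.testBit_and, hb, Bool.and_true] at h6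
      exact h6
    rw [C.hR, C.hY, h3, h4, testBit_yId hj h1, testBit_yId hj h2] at h5
    exact h5
  · have hk : 2 ^ k ≤ 2 ^ j := Nat.pow_le_pow_right (by norm_num) (by omega)
    rw [Nat.testBit_lt_two_pow (lt_of_lt_of_le h1 hk), Nat.testBit_lt_two_pow (lt_of_lt_of_le h2 hk)]

end Cfsg.Agent.Lib.ProgRes22
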