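import Cfsg.Agent.Lib.McGroup22
import Cfsg.Agent.Lib.McC22Main
import Cfsg.Agent.Lib.McS22Main
import Cfsg.Agent.Lib.McCD22
import Cfsg.Agent.Lib.ProgRes22

/-!
# The McLaughlin group: the central extension of the point stabiliser

Pairs of an element of the group and a permutation of `653` points which agree on the first `275` points.
-/

set_option autoImplicit false
set_option maxRecDepth 100000
set_option linter.style.haveILetI false
set_option linter.unusedSectionVars false
set_option exponentiation.threshold 1000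

namespace Cfsg.Agent.Lib.McExt22

open Subgroup MulAction Cfsg Cfsg.Agent.Lib.TcBits Cfsg.Agent.Lib.PermChain Cfsg.Agent.Lib.ProgBits
  Cfsg.Agent.Lib.ProgChain Cfsg.Agent.Lib.ProgMask22 Cfsg.Agent.Lib.ProgPair22 Cfsg.Agent.Lib.McCD22
  Cfsg.Agent.Lib.McGroup22 Cfsg.Agent.Lib.ProgRes22

/-- The programs of the extension. -/
noncomputable abbrev prC := Cfsg.Agent.Lib.McC22Tab.pr

theorem ctxC : Ctx 653 10 prC Cfsg.Agent.Lib.McC22Tab.R Cfsg.Agent.Lib.McC22Tab.Y :=
  Cfsg.Agent.Lib.McC22Main.ctx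

/-- The letters of the extension. -/
noncomputable abbrev T : ℕ → Equiv.Perm (Fin 653) := lp prC 653

/-- The letters of the extension and of the group together. -/
noncomputable def prJ (e : ℕ) : List (ℕ × ℕ) := cond (Nat.ble totC e) (pr (e - totC)) (prC e)

theorem prJ_high (e : ℕ) : prJ (e + totC) = pr e := by
  unfold prJ
  rw [show Nat.ble totC (e + totC) = true from Nat.ble_eq_true_of_le (by omega), cond_true, Nat.add_sub_cancel]

theorem prJ_low {e : ℕ} (h : e < totC) : prJ e = prC e := by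
  unfold prJ
  rw [show Nat.ble totC e = false from by
    cases h2 : Nat.ble totC e with
    | false => rfl
    | true => exact absurd (Nat.le_of_ble_eq_true h2) (by omega), cond_false]

theorem hl_J : ∀ e, e < 147 → letterChk (nat_lit 1024) Cfsg.Agent.Lib.McK22Tab.M (prJ e) = true := by
  decide +kernel

theorem htot_J : ∀ e, 147 ≤ e → prJ e = [] := by
  intro e he
  obtain ⟨d, rfl⟩ : ∃ d, e = d + totC := ⟨e - totC, by
    have : totC = 57 := rfl
    omega⟩
  rw [prJ_high]
  apply Cfsg.Agent.Lib.McK22Main.htot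
  have : totC = 57 := rfl
  omega

theorem ctxJ : Ctx 275 10 prJ Cfsg.Agent.Lib.McC22Tab.R Cfsg.Agent.Lib.McC22Tab.Y :=
  ctx_mk' (N := nat_lit 1024) (M := Cfsg.Agent.Lib.McK22Tab.M) (tot := 147) (by norm_num)
    Cfsg.Agent.Lib.McC22Main.hN Cfsg.Agent.Lib.McK22Main.hM Cfsg.Agent.Lib.McC22Main.hR Cfsg.Agent.Lib.McC22Main.hY
    hl_J htot_J

/-- The letters on the first points. -/
noncomputable abbrev J : ℕ → Equiv.Perm (Fin 275) := lp prJ 275

/-- The mask of the first points. -/
def MS : ℕ := Nat.mul Cfsg.Agent.Lib.McK22Tab.M Cfsg.Agent.Lib.McC22Tab.R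

theorem hMS : MS = (2 ^ 275 - 1) * Cfsg.Agent.Lib.McC22Tab.R := by
  rw [MS, Cfsg.Agent.Lib.McK22Main.hM]
  rfl

/-- Masked equality of words. -/
theorem J_eq {w1 w2 : List ℕ}
    (h : wChkM Cfsg.Agent.Lib.McC22Tab.R Cfsg.Agent.Lib.McC22Tab.Y prJ MS w1 w2 = true) :
    prodW J w1 = prodW J w2 :=
  prodW_eq_mask ctxJ hMS h

/-- The shift of a word in the letters of the group. -/
def sh (w : List ℕ) : List ℕ := w.map (· + totC)

theorem J_high (e : ℕ) : J (e + totC) = lp pr 275 e := by
  show restr 275 (progPerm (prJ (e + totC))) = restr 275 (progPerm (pr e))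
  rw [prJ_high]

theorem J_sh (w : List ℕ) : prodW J (sh w) = prodW (lp pr 275) w := by
  induction w with
  | nil => rfl
  | cons a w ih =>
    show prodW J ((a + totC) :: sh w) = _
    rw [prodW_cons, prodW_cons, ih, J_high]

theorem wordPerm_low {w : List ℕ} (hw : w.all (fun e => Nat.blt e totC) = true) :
    wordPerm prJ w = wordPerm prC w := by
  induction w with
  | nil => rfl
  | cons a w ih =>
    simp only [List.all_cons, Bool.and_eq_true] at hw
    have h1 : a < totC := by simpa [Nat.blt] using hw.1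
    have h2 := ih hw.2
    have e1 : ∀ (pr' : ℕ → List (ℕ × ℕ)), wordPerm pr' (a :: w) = progPerm (pr' a) * wordPerm pr' w := by
      intro pr'
      simp [wordPerm]
    rw [e1, e1, h2, prJ_low h1]

/-- The embedding of the first points. -/
abbrev cP (p : Fin 275) : Fin 653 := Fin.castLE (by norm_num) p

theorem J_T_val {W : List ℕ} (hW : W.all (fun e => Nat.blt e totC) = true) (p : Fin 275) :
    (prodW J W p).val = (prodW T W (cP p)).val := by
  rw [ctxJ.prodW_apply, ctxC.prodW_apply, wordPerm_low hW]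
  rfl

/-- Two generators of the point stabiliser. -/
noncomputable def xK : ↥K := e Wxk
noncomputable def yK : ↥K := e Wyk

theorem xK_chk : wChkM Cfsg.Agent.Lib.McC22Tab.R Cfsg.Agent.Lib.McC22Tab.Y prJ MS (sh Wxk) [0] = true := by
  decide +kernel

theorem yK_chk : wChkM Cfsg.Agent.Lib.McC22Tab.R Cfsg.Agent.Lib.McC22Tab.Y prJ MS (sh Wyk) [1] = true := by
  decide +kernel

theorem xK_val : xK.1 = prodW J [0] := by
  show prodW (lp pr 275) Wxk = _
  rw [← J_sh, J_eq xK_chk]

theorem yK_val : yK.1 = prodW J [1] := by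
  show prodW (lp pr 275) Wyk = _
  rw [← J_sh, J_eq yK_chk]

/-- The pairs which agree on the first points. -/
def Ag (u : ↥K × Equiv.Perm (Fin 653)) : Prop := ∀ p : Fin 275, (u.2 (cP p)).val = (u.1.1 p).val

theorem Ag_mul {u v : ↥K × Equiv.Perm (Fin 653)} (hu : Ag u) (hv : Ag v) : Ag (u * v) := by
  intro p
  have h1 : v.2 (cP p) = cP (v.1.1 p) := Fin.ext (hv p)
  show (u.2 (v.2 (cP p))).val = (u.1.1 (v.1.1 p)).val
  rw [h1]
  exact hu _

theorem Ag_inv {u : ↥K × Equiv.Perm (Fin 653)} (hu : Ag u) : Ag u⁻¹ := by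
  intro p
  have h1 : u.2 (cP ((u.1.1)⁻¹ p)) = cP p := by
    apply Fin.ext
    rw [hu]
    simp
  show ((u.2)⁻¹ (cP p)).val = ((u.1.1)⁻¹ p).val
  rw [← h1]
  simp

theorem Ag_word {k : ↥K} {W : List ℕ} (hW : W.all (fun e => Nat.blt e totC) = true) (hk : k.1 = prodW J W) :
    Ag (k, prodW T W) := by
  intro p
  show (prodW T W (cP p)).val = (k.1 p).val
  rw [hk, J_T_val hW]

/-- The subgroup of pairs generated by the two generators. -/
noncomputable def U₀ : Subgroup (↥K × Equiv.Perm (Fin 653)) :=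
  closure {(xK, prodW T [0]), (yK, prodW T [1])}

instance : Finite ↥U₀ := inferInstance

theorem Ag_of_mem {u : ↥K × Equiv.Perm (Fin 653)} (hu : u ∈ U₀) : Ag u := by
  unfold U₀ at hu
  induction hu using Subgroup.closure_induction with
  | mem z hz =>
    rcases hz with rfl | rfl
    · exact Ag_word (by decide +kernel) xK_val
    · exact Ag_word (by decide +kernel) yK_val
  | one => intro p; rfl
  | mul a b _ _ ha hb => exact Ag_mul ha hb
  | inv a _ ha => exact Ag_inv ha

theorem snd_map : U₀.map (MonoidHom.snd ↥K (Equiv.Perm (Fin 653))) = grp T 0 2 := by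
  rw [U₀, MonoidHom.map_closure, grp_pair]
  congr 1
  ext z
  simp [Set.image_insert_eq, prodW_cons, prodW_nil]

theorem snd_inj {u v : ↥K × Equiv.Perm (Fin 653)} (hu : u ∈ U₀) (hv : v ∈ U₀) (h : u.2 = v.2) : u = v := by
  apply Prod.ext _ h
  apply Subtype.ext
  apply Equiv.ext
  intro p
  apply Fin.ext
  rw [← Ag_of_mem hu p, ← Ag_of_mem hv p, h]

theorem card_U₀ : Nat.card ↥U₀ = 9797760 := by
  rw [← Cfsg.Agent.Lib.McC22Main.cardH0, ← snd_map]
  refine Nat.card_congr (Equiv.ofBijective ((MonoidHom.snd ↥K (Equiv.Perm (Fin 653))).subgroupMap U₀) ⟨?_, ?_⟩)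
  · intro a b h
    apply Subtype.ext
    apply snd_inj a.2 b.2
    exact congrArg Subtype.val h
  · exact MonoidHom.subgroupMap_surjective _ _

/-- The homomorphism to the group. -/
noncomputable def ρ : ↥U₀ →* ↥K := (MonoidHom.fst ↥K (Equiv.Perm (Fin 653))).comp U₀.subtype

theorem ρ_apply (u : ↥U₀) : ρ u = u.1.1 := rfl

theorem ρ_range : ρ.range = closure ({xK, yK} : Set ↥K) := by
  rw [ρ, MonoidHom.range_comp, Subgroup.range_subtype, U₀, MonoidHom.map_closure]
  congr 1
  simp [Set.image_insert_eq]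

theorem card_xy : Nat.card (closure ({xK, yK} : Set ↥K)) = 3265920 := by
  rw [card_closure_pair]
  have h1 : xK.1 = lp Cfsg.Agent.Lib.McS22Tab.pr 275 0 := by
    have h := prodW_eq_cross ctx Cfsg.Agent.Lib.McS22Main.ctx (w1 := Wxk) (w2 := [0]) (by decide +kernel)
    show prodW (lp pr 275) Wxk = _
    simpa [prodW_cons, prodW_nil] using h
  have h2 : yK.1 = lp Cfsg.Agent.Lib.McS22Tab.pr 275 1 := by
    have h := prodW_eq_cross ctx Cfsg.Agent.Lib.McS22Main.ctx (w1 := Wyk) (w2 := [1]) (by decide +kernel)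
    show prodW (lp pr 275) Wyk = _
    simpa [prodW_cons, prodW_nil] using h
  rw [h1, h2, ← grp_pair]
  exact Cfsg.Agent.Lib.McS22Main.cardH0

theorem card_ker : Nat.card ρ.ker = 3 := by
  have h2 : ρ.ker.index = 3265920 := by
    rw [Subgroup.index_ker, ρ_range]
    exact card_xy
  have h3 := Subgroup.card_mul_index ρ.ker
  rw [h2, card_U₀] at h3
  have h4 : 3265920 * Nat.card ρ.ker = 3265920 * 3 := by
    rw [mul_comm, h3]
  exact Nat.eq_of_mul_eq_mul_left (by norm_num) h4

/-! ### Lifts of words -/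

theorem exists_lift (W : List ℕ) : ∃ u : ↥U₀, u.1.2 = prodW T W := by
  have h : prodW T W ∈ grp T 0 2 :=
    Subgroup.list_prod_mem _ (by
      intro x hx
      obtain ⟨e, _, rfl⟩ := List.mem_map.mp hx
      exact (Cfsg.Agent.Lib.McC22Main.lev0).1 e (Nat.zero_le e))
  rw [← snd_map] at h
  obtain ⟨u, hu, e⟩ := h
  exact ⟨⟨u, hu⟩, e⟩

/-- A lift of a word. -/
noncomputable def lf (W : List ℕ) : ↥U₀ := (exists_lift W).choose

theorem lf_snd (W : List ℕ) : (lf W).1.2 = prodW T W := (exists_lift W).choose_spec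

theorem ρ_lf {W : List ℕ} (hW : W.all (fun e => Nat.blt e totC) = true) : (ρ (lf W)).1 = prodW J W := by
  apply Equiv.ext
  intro p
  apply Fin.ext
  rw [J_T_val hW, ρ_apply, ← Ag_of_mem (lf W).2 p, lf_snd]

/-! ### The scalar -/

/-- The scalar. -/
noncomputable def om : ↥U₀ := lf Wom

/-- The third point of the fibre. -/
abbrev p275 : Fin 653 := ⟨275, by norm_num⟩
abbrev p276 : Fin 653 := ⟨276, by norm_num⟩
abbrev p277 : Fin 653 := ⟨277, by norm_num⟩

theorem om_chk : wChkM Cfsg.Agent.Lib.McC22Tab.R Cfsg.Agent.Lib.McC22Tab.Y prJ MS Wom [] = true := by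
  decide +kernel

theorem ρ_om : ρ om = 1 := by
  apply Subtype.ext
  rw [om, ρ_lf (by decide +kernel), J_eq om_chk]
  rfl

theorem om_275 : (om.1.2 p275) = p276 := by
  apply Fin.ext
  rw [om, lf_snd]
  exact ctxC.prodW_pt (w := Wom) (p := 276) (b := p275) (by decide +kernel)

theorem om_276 : (om.1.2 p276) = p277 := by
  apply Fin.ext
  rw [om, lf_snd]
  exact ctxC.prodW_pt (w := Wom) (p := 277) (b := p276) (by decide +kernel)

theorem om_comm_chk : ∀ i, i < 2 → wChk Cfsg.Agent.Lib.McC22Tab.R Cfsg.Agent.Lib.McC22Tab.Y prC (Wom ++ [i]) (i :: Wom) = true := by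
  decide +kernel

theorem om_comm_gen {i : ℕ} (hi : i < 2) : prodW T Wom * prodW T [i] = prodW T [i] * prodW T Wom := by
  have h := ctxC.prodW_eq (om_comm_chk i hi)
  rw [prodW_append, show (i :: Wom) = [i] ++ Wom from rfl, prodW_append] at h
  exact h

theorem om_central (u : ↥U₀) : om * u = u * om := by
  have h1 : (om.1).1 = 1 := ρ_om
  have h2 : (om.1).2 = prodW T Wom := lf_snd _
  have key : ∀ z ∈ U₀, om.1 * z = z * om.1 := by
    intro z hz
    unfold U₀ at hz
    induction hz using Subgroup.closure_induction with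
    | mem z hz =>
      have e1 : om.1 = (1, prodW T Wom) := Prod.ext h1 h2
      rcases hz with rfl | rfl
      · rw [e1]
        exact Prod.ext (by simp) (om_comm_gen (by norm_num))
      · rw [e1]
        exact Prod.ext (by simp) (om_comm_gen (by norm_num))
    | one => simp
    | mul a b _ _ ha hb => rw [← mul_assoc, ha, mul_assoc, hb, mul_assoc]
    | inv a _ ha =>
      have h3 := congrArg (fun t => a⁻¹ * t * a⁻¹) ha
      simp only [mul_assoc, inv_mul_cancel_left, mul_inv_cancel, mul_one] at h3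
      exact h3.symm
  exact Subtype.ext (key u.1 u.2)

/-- The scalar in the kernel. -/
noncomputable def omK : ρ.ker := ⟨om, ρ_om⟩

theorem omK_ne : omK ≠ 1 := by
  intro h
  have h1 : om = 1 := congrArg Subtype.val h
  have h2 := om_275
  rw [h1] at h2
  exact absurd h2 (by decide)

theorem ker_central : ∀ k ∈ ρ.ker, ∀ u, k * u = u * k := by
  haveI : Fact (Nat.Prime 3) := ⟨Nat.prime_three⟩
  intro k hk u
  have h1 : (⟨k, hk⟩ : ρ.ker) ∈ zpowers omK := mem_zpowers_of_prime_card card_ker omK_ne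
  obtain ⟨i, hi⟩ := Subgroup.mem_zpowers_iff.mp h1
  have h2 : k = om ^ i := by
    have := congrArg Subtype.val hi
    simpa [omK] using this.symm
  rw [h2]
  exact ((show Commute om u from om_central u).zpow_left i).eq

/-- The elements of the kernel are determined by the image of a point. -/
theorem val_ker (k : ρ.ker) {v : ℕ} (hv : v < 3) (h : (k.1.1.2 p275).val = 275 + v) : k = omK ^ v := by
  haveI : Fact (Nat.Prime 3) := ⟨Nat.prime_three⟩
  obtain ⟨n, hn⟩ := Submonoid.mem_powers_iff _ _ |>.mp (mem_powers_of_prime_card card_ker omK_ne (g' := k))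
  have ho : omK ^ 3 = 1 := by
    have := pow_card_eq_one' (x := omK)
    rwa [card_ker] at this
  have hn3 : omK ^ (n % 3) = k := by
    rw [← hn]
    conv_rhs => rw [← Nat.div_add_mod n 3, pow_add, pow_mul, ho, one_pow, one_mul]
  have hlt : n % 3 < 3 := Nat.mod_lt _ (by norm_num)
  rw [← hn3] at h ⊢
  generalize n % 3 = j at h hlt ⊢
  have hj : j = v := by
    interval_cases j
    · have h1 : ((omK ^ 0 : ρ.ker).1.1.2 p275).val = 275 := rfl
      omega
    · have h1 : ((omK ^ 1 : ρ.ker).1.1.2 p275) = om.1.2 p275 := by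
        rw [pow_one]
        rfl
      rw [h1, om_275] at h
      have : 276 = 275 + v := h
      omega
    · have h1 : ((omK ^ 2 : ρ.ker).1.1.2 p275) = om.1.2 (om.1.2 p275) := by
        rw [pow_two]
        rfl
      rw [h1, om_275, om_276] at h
      have : 277 = 275 + v := h
      omega
  rw [hj]

end Cfsg.Agent.Lib.McExt22
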