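import Cfsg.Agent.Lib.McG322Tab

set_option autoImplicit false
set_option maxRecDepth 100000
set_option Elab.async false

namespace Cfsg.Agent.Lib.McG322Chk

open Cfsg.Agent.Lib.ChainCert Cfsg.Agent.Lib.ProgBits Cfsg.Agent.Lib.ProgChain Cfsg.Agent.Lib.PermChain Cfsg.Agent.Lib.TcBits
open Cfsg.Agent.Lib.McG322Tab

theorem let_4_0 : allR (guard Plet (nat_lit 10)) 4 (nat_lit 0) = true := by decide +kernel
theorem let_all : ∀ i, i < (nat_lit 10) → Plet i = true := of_guard (k := 4) (by norm_num) let_4_0
theorem der0_1_0 : allR (guard Pder0 (nat_lit 2)) 1 (nat_lit 0) = true := by decide +kernel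
theorem der0_all : ∀ i, i < (nat_lit 2) → Pder0 i = true := of_guard (k := 1) (by norm_num) der0_1_0
theorem cert0_2_0 : allR (guard Pcert0 (nat_lit 4)) 2 (nat_lit 0) = true := by decide +kernel
theorem cert0_all : ∀ i, i < (nat_lit 4) → Pcert0 i = true := of_guard (k := 2) (by norm_num) cert0_2_0
theorem fix0_2_0 : allR (guard Pfix0 (nat_lit 4)) 2 (nat_lit 0) = true := by decide +kernel
theorem fix0_all : ∀ i, i < (nat_lit 4) → Pfix0 i = true := of_guard (k := 2) (by norm_num) fix0_2_0
theorem img0_9_0 : allR (guard Pimg0 (nat_lit 275)) 9 (nat_lit 0) = true := by decide +kernel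
theorem img0_all : ∀ i, i < (nat_lit 275) → Pimg0 i = true := of_guard (k := 9) (by norm_num) img0_9_0
theorem der1_2_0 : allR (guard Pder1 (nat_lit 4)) 2 (nat_lit 0) = true := by decide +kernel
theorem der1_all : ∀ i, i < (nat_lit 4) → Pder1 i = true := of_guard (k := 2) (by norm_num) der1_2_0
theorem cert1_3_0 : allR (guard Pcert1 (nat_lit 6)) 3 (nat_lit 0) = true := by decide +kernel
theorem cert1_all : ∀ i, i < (nat_lit 6) → Pcert1 i = true := of_guard (k := 3) (by norm_num) cert1_3_0
theorem fix1_3_0 : allR (guard Pfix1 (nat_lit 6)) 3 (nat_lit 0) = true := by decide +kernel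
theorem fix1_all : ∀ i, i < (nat_lit 6) → Pfix1 i = true := of_guard (k := 3) (by norm_num) fix1_3_0
theorem img1_9_0 : allR (guard Pimg1 (nat_lit 275)) 9 (nat_lit 0) = true := by decide +kernel
theorem img1_all : ∀ i, i < (nat_lit 275) → Pimg1 i = true := of_guard (k := 9) (by norm_num) img1_9_0
theorem der2_3_0 : allR (guard Pder2 (nat_lit 6)) 3 (nat_lit 0) = true := by decide +kernel
theorem der2_all : ∀ i, i < (nat_lit 6) → Pder2 i = true := of_guard (k := 3) (by norm_num) der2_3_0
theorem cert2_3_0 : allR (guard Pcert2 (nat_lit 8)) 3 (nat_lit 0) = true := by decide +kernel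
theorem cert2_all : ∀ i, i < (nat_lit 8) → Pcert2 i = true := of_guard (k := 3) (by norm_num) cert2_3_0
theorem fix2_3_0 : allR (guard Pfix2 (nat_lit 8)) 3 (nat_lit 0) = true := by decide +kernel
theorem fix2_all : ∀ i, i < (nat_lit 8) → Pfix2 i = true := of_guard (k := 3) (by norm_num) fix2_3_0
theorem img2_9_0 : allR (guard Pimg2 (nat_lit 275)) 9 (nat_lit 0) = true := by decide +kernel
theorem img2_all : ∀ i, i < (nat_lit 275) → Pimg2 i = true := of_guard (k := 9) (by norm_num) img2_9_0
theorem der3_3_0 : allR (guard Pder3 (nat_lit 8)) 3 (nat_lit 0) = true := by decide +kernel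
theorem der3_all : ∀ i, i < (nat_lit 8) → Pder3 i = true := of_guard (k := 3) (by norm_num) der3_3_0
theorem cert3_4_0 : allR (guard Pcert3 (nat_lit 10)) 4 (nat_lit 0) = true := by decide +kernel
theorem cert3_all : ∀ i, i < (nat_lit 10) → Pcert3 i = true := of_guard (k := 4) (by norm_num) cert3_4_0
theorem fix3_4_0 : allR (guard Pfix3 (nat_lit 10)) 4 (nat_lit 0) = true := by decide +kernel
theorem fix3_all : ∀ i, i < (nat_lit 10) → Pfix3 i = true := of_guard (k := 4) (by norm_num) fix3_4_0
theorem img3_9_0 : allR (guard Pimg3 (nat_lit 275)) 9 (nat_lit 0) = true := by decide +kernel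
theorem img3_all : ∀ i, i < (nat_lit 275) → Pimg3 i = true := of_guard (k := 9) (by norm_num) img3_9_0
theorem der4_4_0 : allR (guard Pder4 (nat_lit 10)) 4 (nat_lit 0) = true := by decide +kernel
theorem der4_all : ∀ i, i < (nat_lit 10) → Pder4 i = true := of_guard (k := 4) (by norm_num) der4_4_0
theorem cert4_4_0 : allR (guard Pcert4 (nat_lit 10)) 4 (nat_lit 0) = true := by decide +kernel
theorem cert4_all : ∀ i, i < (nat_lit 10) → Pcert4 i = true := of_guard (k := 4) (by norm_num) cert4_4_0
theorem fix4_4_0 : allR (guard Pfix4 (nat_lit 10)) 4 (nat_lit 0) = true := by decide +kernel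
theorem fix4_all : ∀ i, i < (nat_lit 10) → Pfix4 i = true := of_guard (k := 4) (by norm_num) fix4_4_0
theorem img4_9_0 : allR (guard Pimg4 (nat_lit 275)) 9 (nat_lit 0) = true := by decide +kernel
theorem img4_all : ∀ i, i < (nat_lit 275) → Pimg4 i = true := of_guard (k := 9) (by norm_num) img4_9_0

end Cfsg.Agent.Lib.McG322Chk
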