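import Cfsg.Agent.Lib.McG422Tab

set_option autoImplicit false
set_option maxRecDepth 100000
set_option Elab.async false

namespace Cfsg.Agent.Lib.McG422Chk

open Cfsg.Agent.Lib.ChainCert Cfsg.Agent.Lib.ProgBits Cfsg.Agent.Lib.ProgChain Cfsg.Agent.Lib.PermChain Cfsg.Agent.Lib.TcBits
open Cfsg.Agent.Lib.McG422Tab

theorem let_5_0 : allR (guard Plet (nat_lit 17)) 5 (nat_lit 0) = true := by decide +kernel
theorem let_all : ∀ i, i < (nat_lit 17) → Plet i = true := of_guard (k := 5) (by norm_num) let_5_0
theorem der0_4_0 : allR (guard Pder0 (nat_lit 11)) 4 (nat_lit 0) = true := by decide +kernel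
theorem der0_all : ∀ i, i < (nat_lit 11) → Pder0 i = true := of_guard (k := 4) (by norm_num) der0_4_0
theorem cert0_4_0 : allR (guard Pcert0 (nat_lit 13)) 4 (nat_lit 0) = true := by decide +kernel
theorem cert0_all : ∀ i, i < (nat_lit 13) → Pcert0 i = true := of_guard (k := 4) (by norm_num) cert0_4_0
theorem fix0_4_0 : allR (guard Pfix0 (nat_lit 13)) 4 (nat_lit 0) = true := by decide +kernel
theorem fix0_all : ∀ i, i < (nat_lit 13) → Pfix0 i = true := of_guard (k := 4) (by norm_num) fix0_4_0
theorem img0_9_0 : allR (guard Pimg0 (nat_lit 275)) 9 (nat_lit 0) = true := by decide +kernel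
theorem img0_all : ∀ i, i < (nat_lit 275) → Pimg0 i = true := of_guard (k := 9) (by norm_num) img0_9_0
theorem der1_4_0 : allR (guard Pder1 (nat_lit 13)) 4 (nat_lit 0) = true := by decide +kernel
theorem der1_all : ∀ i, i < (nat_lit 13) → Pder1 i = true := of_guard (k := 4) (by norm_num) der1_4_0
theorem cert1_4_0 : allR (guard Pcert1 (nat_lit 15)) 4 (nat_lit 0) = true := by decide +kernel
theorem cert1_all : ∀ i, i < (nat_lit 15) → Pcert1 i = true := of_guard (k := 4) (by norm_num) cert1_4_0
theorem fix1_4_0 : allR (guard Pfix1 (nat_lit 15)) 4 (nat_lit 0) = true := by decide +kernel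
theorem fix1_all : ∀ i, i < (nat_lit 15) → Pfix1 i = true := of_guard (k := 4) (by norm_num) fix1_4_0
theorem img1_9_0 : allR (guard Pimg1 (nat_lit 275)) 9 (nat_lit 0) = true := by decide +kernel
theorem img1_all : ∀ i, i < (nat_lit 275) → Pimg1 i = true := of_guard (k := 9) (by norm_num) img1_9_0
theorem der2_4_0 : allR (guard Pder2 (nat_lit 15)) 4 (nat_lit 0) = true := by decide +kernel
theorem der2_all : ∀ i, i < (nat_lit 15) → Pder2 i = true := of_guard (k := 4) (by norm_num) der2_4_0
theorem cert2_5_0 : allR (guard Pcert2 (nat_lit 17)) 5 (nat_lit 0) = true := by decide +kernel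
theorem cert2_all : ∀ i, i < (nat_lit 17) → Pcert2 i = true := of_guard (k := 5) (by norm_num) cert2_5_0
theorem fix2_5_0 : allR (guard Pfix2 (nat_lit 17)) 5 (nat_lit 0) = true := by decide +kernel
theorem fix2_all : ∀ i, i < (nat_lit 17) → Pfix2 i = true := of_guard (k := 5) (by norm_num) fix2_5_0
theorem img2_9_0 : allR (guard Pimg2 (nat_lit 275)) 9 (nat_lit 0) = true := by decide +kernel
theorem img2_all : ∀ i, i < (nat_lit 275) → Pimg2 i = true := of_guard (k := 9) (by norm_num) img2_9_0
theorem der3_5_0 : allR (guard Pder3 (nat_lit 17)) 5 (nat_lit 0) = true := by decide +kernel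
theorem der3_all : ∀ i, i < (nat_lit 17) → Pder3 i = true := of_guard (k := 5) (by norm_num) der3_5_0
theorem cert3_5_0 : allR (guard Pcert3 (nat_lit 17)) 5 (nat_lit 0) = true := by decide +kernel
theorem cert3_all : ∀ i, i < (nat_lit 17) → Pcert3 i = true := of_guard (k := 5) (by norm_num) cert3_5_0
theorem fix3_5_0 : allR (guard Pfix3 (nat_lit 17)) 5 (nat_lit 0) = true := by decide +kernel
theorem fix3_all : ∀ i, i < (nat_lit 17) → Pfix3 i = true := of_guard (k := 5) (by norm_num) fix3_5_0
theorem img3_9_0 : allR (guard Pimg3 (nat_lit 275)) 9 (nat_lit 0) = true := by decide +kernel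
theorem img3_all : ∀ i, i < (nat_lit 275) → Pimg3 i = true := of_guard (k := 9) (by norm_num) img3_9_0

end Cfsg.Agent.Lib.McG422Chk
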