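import Cfsg.Agent.Lib.McGroup22
import Cfsg.Agent.Lib.McG122Main
import Cfsg.Agent.Lib.McG222Main
import Cfsg.Agent.Lib.McG322Main
import Cfsg.Agent.Lib.McG422Main

/-!
# The McLaughlin group: all points are good
-/

set_option autoImplicit false
set_option maxRecDepth 100000
set_option linter.style.haveILetI false
set_option linter.unusedSectionVars false

namespace Cfsg.Agent.Lib.McGood22

open Subgroup MulAction Cfsg.Agent.Lib.ChainCert Cfsg.Agent.Lib.TcBits Cfsg.Agent.Lib.PermChain Cfsg.Agent.Lib.ProgBits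
  Cfsg.Agent.Lib.ProgChain Cfsg.Agent.Lib.ProgMask22 Cfsg.Agent.Lib.ProgPair22 Cfsg.Agent.Lib.McD22
  Cfsg.Agent.Lib.McGroup22 Cfsg.Agent.Lib.SchurRel19 Cfsg.Agent.Lib.SchurRel22
open scoped Pointwise

/-- The data of a generator. -/
def gW (k i : ℕ) : List ℕ × List ℕ × ℕ × ℕ := (goodL.getD k []).getD i ([], [], 1, 1)

/-- The number of generators. -/
def nsG (k : ℕ) : ℕ := (goodL.getD k []).length

/-- The check of a generator. -/
noncomputable def Pgood (k i : ℕ) : Bool :=
  Nat.beq (wordApply pr (gW k i).1 (MT 0)) (MT 0) &&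
  Nat.beq (wordApply pr (gW k i).2.1 (MT (STH k))) (MT 0) &&
  wChk Cfsg.Agent.Lib.McK22Tab.R Cfsg.Agent.Lib.McK22Tab.Y pr ((gW k i).2.1 ++ (gW k i).1) ((gW k i).1 ++ (gW k i).2.1) &&
  wChk Cfsg.Agent.Lib.McK22Tab.R Cfsg.Agent.Lib.McK22Tab.Y pr (List.flatten (List.replicate (gW k i).2.2.1 (gW k i).2.1)) [] &&
  wChk Cfsg.Agent.Lib.McK22Tab.R Cfsg.Agent.Lib.McK22Tab.Y pr (List.flatten (List.replicate (gW k i).2.2.2 (gW k i).1)) [] &&
  Nat.beq (Nat.gcd (gW k i).2.2.1 (gW k i).2.2.2) 1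

theorem good_chk : ∀ k, k < 5 → ∀ i, i < nsG k → Pgood k i = true := by decide +kernel

/-- The check of the orbits of the stabiliser. -/
def Pho (c : ℕ) : Bool :=
  cond (Nat.beq c (STH (HO c))) true (Nat.blt (LT c) 4 && Nat.beq (HO (PT c)) (HO c))

theorem ho_all : ∀ c, c < 7128 → Pho c = true :=
  of_guard (k := 13) (by norm_num) (by decide +kernel)

theorem HO_lt (c : ℕ) : HO c < 5 := by
  unfold HO
  cases Nat.ble 6876 c <;> cases Nat.ble 4251 c <;> cases Nat.ble 751 c <;> cases Nat.ble 1 c <;> simp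

theorem STH_lt : ∀ k, k < 5 → STH k < 7128 := by decide

theorem HO_zero : HO 0 = 0 := by decide

theorem STH_zero : STH 0 = 0 := by decide

theorem ho_tree : ∀ c, c < 7128 → ∃ h : ↥K, h • x₀ = x₀ ∧ h • ι (STH (HO c)) = ι c := by
  intro c
  induction c using Nat.strong_induction_on with
  | _ c ih =>
    intro hc
    have h := ho_all c hc
    rw [Pho] at h
    by_cases h1 : c = STH (HO c)
    · refine ⟨1, one_smul _ _, ?_⟩
      rw [one_smul, ← h1]
    · have h2 : Nat.beq c (STH (HO c)) = false := by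
        cases h3 : Nat.beq c (STH (HO c)) with
        | false => rfl
        | true => exact absurd (Nat.eq_of_beq_eq_true h3) h1
      rw [h2, cond_false, Bool.and_eq_true] at h
      have h0 : c ≠ 0 := by
        rintro rfl
        exact h1 (by rw [HO_zero, STH_zero])
      obtain ⟨h3, h4, h5⟩ := tree_ι hc h0
      have h6 : LT c < 4 := by simpa [Nat.blt] using h.1
      have h7 : HO (PT c) = HO c := Nat.eq_of_beq_eq_true h.2
      obtain ⟨g, hg1, hg2⟩ := ih _ h3 (by omega)
      rw [h7] at hg2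
      refine ⟨sT (LT c) * g, ?_, ?_⟩
      · rw [mul_smul, hg1]
        exact mem_stabilizer_iff.mp (sT_mem h6)
      · rw [mul_smul, hg2, h5]

/-- The set of the numbers of an orbit. -/
def orbS (k : ℕ) : Finset (Fin 7128) := Finset.univ.filter (fun c => Nat.beq (HO c.val) k = true)

theorem card_orbS : ∀ k, k < 5 → (orbS k).card = SZH k := by
  intro k hk
  unfold orbS
  rw [card_filter_eq_cntB (fun c => Nat.beq (HO c) k) 7128]
  revert k
  decide +kernel

/-- The orbits of the stabiliser and the stabilisers of two points. -/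
theorem card_Sx_le {k : ℕ} (hk : k < 5) :
    Nat.card (Sx (G := ↥K) x₀ (ι (STH k))) * SZH k ≤ 126000 := by
  classical
  let R : Set X := (fun c : Fin 7128 => ι c.val) '' (orbS k : Set (Fin 7128))
  have hinj : Function.Injective (fun c : Fin 7128 => ι c.val) := by
    intro a b h
    exact Fin.ext (ι_inj a.isLt b.isLt h)
  have hR : R.ncard = SZH k := by
    rw [Set.ncard_image_of_injective _ hinj, Set.ncard_coe_finset, card_orbS k hk]
  have h1 := card_Sx_mul_le (G := ↥K) (x₀ := x₀) (y := ι (STH k)) (R := R) (by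
    rintro _ ⟨c, hc, rfl⟩
    have hc' : Nat.beq (HO c.val) k = true := (Finset.mem_filter.mp hc).2
    have h2 : HO c.val = k := Nat.eq_of_beq_eq_true hc'
    obtain ⟨h, h3, h4⟩ := ho_tree c.val c.isLt
    rw [h2] at h4
    exact ⟨h, h3, h4⟩)
  rwa [hR, card_H] at h1

/-- The number of elements of a subgroup generated by elements of the group. -/
theorem card_closure_image (f : ℕ → ↥K) (g : ℕ → Equiv.Perm (Fin 275)) (ns : ℕ) (h : ∀ i, i < ns → (f i).1 = g i) :
    Nat.card (closure (f '' Set.Iio ns)) = Nat.card (grp g 0 ns) := by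
  have h1 : (closure (f '' Set.Iio ns)).map K.subtype = grp g 0 ns := by
    rw [MonoidHom.map_closure]
    unfold grp genOf
    congr 1
    ext z
    constructor
    · rintro ⟨_, ⟨i, hi, rfl⟩, rfl⟩
      have hi' : i < ns := hi
      exact ⟨i, List.mem_range'_1.mpr ⟨Nat.zero_le _, by omega⟩, h i hi'⟩
    · rintro ⟨i, hi, rfl⟩
      have hi' := (List.mem_range'_1.mp hi).2
      have hi2 : i < ns := by omega
      exact ⟨f i, ⟨i, hi2, rfl⟩, h i hi2⟩
  rw [← h1]
  exact Nat.card_congr (Subgroup.equivMapOfInjective _ _ K.subtype_injective).toEquiv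

/-- The elements of a generating system. -/
noncomputable def lG (k i : ℕ) : ↥K := e (gW k i).1

/-- The good points. -/
theorem good_rep {k : ℕ} (hk : k < 5) (hcard : Nat.card (closure (lG k '' Set.Iio (nsG k))) * SZH k = 126000)
    (hpos : 0 < SZH k)
    {Q : Type} [Group Q] (π : Q →* ↥K) (W : Subgroup Q) (C : Compl π x₀ W) : Good π x₀ W (ι (STH k)) := by
  have hdata : ∀ i, i < nsG k → lG k i • x₀ = x₀ ∧ e (gW k i).2.1 • x₀ = ι (STH k) ∧
      e (gW k i).2.1 * lG k i = lG k i * e (gW k i).2.1 ∧ e (gW k i).2.1 ^ (gW k i).2.2.1 = 1 ∧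
      lG k i ^ (gW k i).2.2.2 = 1 ∧ Nat.Coprime (gW k i).2.2.1 (gW k i).2.2.2 := by
    intro i hi
    have h := good_chk k hk i hi
    simp only [Pgood, Bool.and_eq_true] at h
    obtain ⟨⟨⟨⟨⟨h1, h2⟩, h3⟩, h4⟩, h5⟩, h6⟩ := h
    refine ⟨?_, ?_, ?_, ?_, ?_, Nat.eq_of_beq_eq_true h6⟩
    · exact mem_stabilizer_iff.mp (mem_H (Nat.eq_of_beq_eq_true h1))
    · apply Subtype.ext
      rw [smul_val, ι_val (STH_lt k hk)]
      exact smul_bitSet ctx _ _ rfl (Nat.eq_of_beq_eq_true h2)
    · rw [lG, ← el_append hL, ← el_append hL]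
      exact eq_of_chk h3
    · rw [← el_pow hL]
      exact eq_of_chk h4
    · rw [lG, ← el_pow hL]
      exact eq_of_chk h5
  have hle : closure (lG k '' Set.Iio (nsG k)) ≤ Sx (G := ↥K) x₀ (ι (STH k)) := by
    rw [closure_le]
    rintro _ ⟨i, hi, rfl⟩
    obtain ⟨h1, h2, h3, -, -, -⟩ := hdata i hi
    refine ⟨h1, ?_⟩
    show lG k i • ι (STH k) = ι (STH k)
    rw [← h2, ← mul_smul, ← h3, mul_smul, h1]
  have heq : closure (lG k '' Set.Iio (nsG k)) = Sx (G := ↥K) x₀ (ι (STH k)) := by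
    apply Subgroup.eq_of_le_of_card_ge hle
    have h1 := card_Sx_le hk
    rw [← hcard] at h1
    exact Nat.le_of_mul_le_mul_right h1 hpos
  apply good_of_closure C heq.symm.le
  rintro _ ⟨i, hi, rfl⟩
  obtain ⟨h1, h2, h3, h4, h5, h6⟩ := hdata i hi
  rw [← h2]
  exact mem_Nx_of_comm C h1 h3 h4 h5 h6

theorem cards : ∀ k, 1 ≤ k → k < 5 → 0 < SZH k := by decide

theorem nsG_1 : nsG 1 = 2 := by decide
theorem nsG_2 : nsG 2 = 2 := by decide
theorem nsG_3 : nsG 3 = 2 := by decide
theorem nsG_4 : nsG 4 = 3 := by decide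

theorem hc1 : Nat.card (closure (lG 1 '' Set.Iio (nsG 1))) * SZH 1 = 126000 := by
  rw [card_closure_image (lG 1) (lp Cfsg.Agent.Lib.McG122Tab.pr 275) (nsG 1), nsG_1, Cfsg.Agent.Lib.McG122Main.cardH0]
  · decide
  · intro i hi
    have h := prodW_eq_cross ctx Cfsg.Agent.Lib.McG122Main.ctx (w1 := (gW 1 i).1) (w2 := [i]) (by
      revert i
      rw [nsG_1]
      decide +kernel)
    show prodW (lp pr 275) (gW 1 i).1 = _
    simpa [prodW_cons, prodW_nil] using h

theorem hc2 : Nat.card (closure (lG 2 '' Set.Iio (nsG 2))) * SZH 2 = 126000 := by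
  rw [card_closure_image (lG 2) (lp Cfsg.Agent.Lib.McG222Tab.pr 275) (nsG 2), nsG_2, Cfsg.Agent.Lib.McG222Main.cardH0]
  · decide
  · intro i hi
    have h := prodW_eq_cross ctx Cfsg.Agent.Lib.McG222Main.ctx (w1 := (gW 2 i).1) (w2 := [i]) (by
      revert i
      rw [nsG_2]
      decide +kernel)
    show prodW (lp pr 275) (gW 2 i).1 = _
    simpa [prodW_cons, prodW_nil] using h

theorem hc3 : Nat.card (closure (lG 3 '' Set.Iio (nsG 3))) * SZH 3 = 126000 := by
  rw [card_closure_image (lG 3) (lp Cfsg.Agent.Lib.McG322Tab.pr 275) (nsG 3), nsG_3, Cfsg.Agent.Lib.McG322Main.cardH0]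
  · decide
  · intro i hi
    have h := prodW_eq_cross ctx Cfsg.Agent.Lib.McG322Main.ctx (w1 := (gW 3 i).1) (w2 := [i]) (by
      revert i
      rw [nsG_3]
      decide +kernel)
    show prodW (lp pr 275) (gW 3 i).1 = _
    simpa [prodW_cons, prodW_nil] using h

theorem hc4 : Nat.card (closure (lG 4 '' Set.Iio (nsG 4))) * SZH 4 = 126000 := by
  rw [card_closure_image (lG 4) (lp Cfsg.Agent.Lib.McG422Tab.pr 275) (nsG 4), nsG_4, Cfsg.Agent.Lib.McG422Main.cardH0]
  · decide
  · intro i hi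
    have h := prodW_eq_cross ctx Cfsg.Agent.Lib.McG422Main.ctx (w1 := (gW 4 i).1) (w2 := [i]) (by
      revert i
      rw [nsG_4]
      decide +kernel)
    show prodW (lp pr 275) (gW 4 i).1 = _
    simpa [prodW_cons, prodW_nil] using h

/-- All the points are good. -/
theorem hgood (Q : Type) [Group Q] (π : Q →* ↥K) (W : Subgroup Q) (C : Compl π x₀ W) (x : X) : Good π x₀ W x := by
  obtain ⟨c, hc, rfl⟩ := exists_ι x
  obtain ⟨h, h1, h2⟩ := ho_tree c hc
  rw [← h2]
  apply good_smul C _ h1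
  have hlt := HO_lt c
  generalize HO c = k at hlt
  interval_cases k
  · rw [STH_zero, ι_zero]
    exact good_base C
  · exact good_rep (by norm_num) hc1 (by decide) π W C
  · exact good_rep (by norm_num) hc2 (by decide) π W C
  · exact good_rep (by norm_num) hc3 (by decide) π W C
  · exact good_rep (by norm_num) hc4 (by decide) π W C

end Cfsg.Agent.Lib.McGood22
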