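import Mathlib

/-!
# Integer certificates for small linear systems over abelian groups
-/

set_option autoImplicit false

namespace Cfsg.Agent.Lib.SchurLin22

variable {A : Type*} [AddCommGroup A] (N : ℕ)

/-- The coefficient in a row: the last unknown has the index `N`. -/
def rowF (l : List ℕ) (i : ℕ) : ℤ := if i = N then -1 else (l.count i : ℤ)

/-- Evaluation of a linear form. -/
def ev (a : ℕ → A) (f : ℕ → ℤ) : A := ∑ i ∈ Finset.range (N + 1), f i • a i

theorem ev_row_aux (a : ℕ → A) (l : List ℕ) (hl : ∀ k ∈ l, k < N) :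
    ∑ i ∈ Finset.range N, ((l.count i : ℤ)) • a i = (l.map a).sum := by
  induction l with
  | nil => simp
  | cons b l ih =>
    have hb := hl b (by simp)
    rw [List.map_cons, List.sum_cons, ← ih (fun k hk => hl k (by simp [hk]))]
    have h1 : ∀ i, ((b :: l).count i : ℤ) • a i = (if b = i then a i else 0) + ((l.count i : ℤ)) • a i := by
      intro i
      rw [List.count_cons]
      by_cases h : b = i
      · subst h
        simp [add_smul, add_comm]
      · simp [h]
    simp only [h1]
    rw [Finset.sum_add_distrib, Finset.sum_ite_eq, if_pos (Finset.mem_range.2 hb)]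

theorem ev_row (a : ℕ → A) (l : List ℕ) (hl : ∀ k ∈ l, k < N) :
    ev N a (rowF N l) = (l.map a).sum - a N := by
  unfold ev
  rw [Finset.sum_range_succ]
  have h1 : ∑ i ∈ Finset.range N, rowF N l i • a i = ∑ i ∈ Finset.range N, ((l.count i : ℤ)) • a i := by
    apply Finset.sum_congr rfl
    intro i hi
    have : i ≠ N := by
      have := Finset.mem_range.1 hi
      omega
    simp [rowF, this]
  rw [h1, ev_row_aux N a l hl]
  simp [rowF, sub_eq_add_neg]

/-- A combination of rows. -/
def comb : List ℤ → List (List ℕ) → ℕ → ℤ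
  | c :: cs, r :: rs, i => c * rowF N r i + comb cs rs i
  | _, _, _ => 0

theorem ev_comb (a : ℕ → A) (cs : List ℤ) (rs : List (List ℕ)) (h : ∀ r ∈ rs, ev N a (rowF N r) = 0) :
    ev N a (comb N cs rs) = 0 := by
  induction cs generalizing rs with
  | nil => simp [ev, comb]
  | cons c cs ih =>
    cases rs with
    | nil => simp [ev, comb]
    | cons r rs =>
      have h1 := h r (by simp)
      have h2 := ih rs (fun r' hr' => h r' (by simp [hr']))
      unfold ev at h1 h2 ⊢
      have h3 : ∀ i, comb N (c :: cs) (r :: rs) i • a i = c • (rowF N r i • a i) + comb N cs rs i • a i := by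
        intro i
        show (c * rowF N r i + comb N cs rs i) • a i = _
        rw [add_smul, mul_smul]
      simp only [h3]
      rw [Finset.sum_add_distrib, ← Finset.smul_sum, h1, h2]
      simp

/-- The solution from an integer certificate. -/
theorem linear_solve (a : ℕ → A) {rows : List (List ℕ)} (h : ∀ r ∈ rows, ev N a (rowF N r) = 0) {k : ℕ}
    (hk : k < N) (cs : List ℤ) (G₁ G₂ C : ℕ → ℤ)
    (hc : ∀ i, i < N + 1 → comb N cs rows i = (if i = k then 1 else 0) - G₁ i + G₂ i + C i) :
    a k = ev N a G₁ - ev N a G₂ - ev N a C := by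
  have h1 := ev_comb N a cs rows h
  have h2 : ev N a (comb N cs rows) = ev N a (fun i => (if i = k then 1 else 0) - G₁ i + G₂ i + C i) := by
    apply Finset.sum_congr rfl
    intro i hi
    rw [hc i (Finset.mem_range.1 hi)]
  rw [h2] at h1
  have h3 : ev N a (fun i => (if i = k then 1 else 0) - G₁ i + G₂ i + C i) = a k - ev N a G₁ + ev N a G₂ + ev N a C := by
    unfold ev
    have h4 : ∀ i, ((if i = k then (1 : ℤ) else 0) - G₁ i + G₂ i + C i) • a i =
        (if i = k then a i else 0) - G₁ i • a i + G₂ i • a i + C i • a i := by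
      intro i
      rw [add_smul, add_smul, sub_smul]
      by_cases hi : i = k
      · simp [hi]
      · simp [hi]
    simp only [h4]
    rw [Finset.sum_add_distrib, Finset.sum_add_distrib, Finset.sum_sub_distrib, Finset.sum_ite_eq',
      if_pos (Finset.mem_range.2 (by omega))]
  rw [h3] at h1
  have h5 : a k = (a k - ev N a G₁ + ev N a G₂ + ev N a C) + ev N a G₁ - ev N a G₂ - ev N a C := by
    abel
  rw [h1, zero_add] at h5
  exact h5

end Cfsg.Agent.Lib.SchurLin22
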