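import Mathlib
import Cfsg.Prelude.Def_KGroupFacts
import Cfsg.Agent.Lib.SchurRel19

/-!
# Stem extensions through a perfect point stabiliser which need not lift

If `H` is a perfect point stabiliser and the linear system of `SchurRel19` has only trivial solutions, then the kernel of
every stem extension of `G` is contained in the kernel of a stem extension of `H`.

A pair of points is good for elements `l` fixing the base point and commuting with an element of coprime order that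
carries the base point to the other point.
-/

set_option autoImplicit false
set_option linter.unusedVariables false
set_option linter.unusedSectionVars false

namespace Cfsg.Agent.Lib.SchurRel22

open MulAction Subgroup Cfsg Cfsg.Agent.Lib.SchurRel19
open scoped commutatorElement

universe u v w

section good

variable {Γ : Type u} {G : Type v} {X : Type w} [Group Γ] [Group G] [MulAction G X]
  {π : Γ →* G} {x₀ : X} {W : Subgroup Γ}

theorem pow_W_eq_one (C : Compl π x₀ W) {w : Γ} (hw : w ∈ W) {n : ℕ} (h : π w ^ n = 1) : w ^ n = 1 :=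
  C.inter _ (by rw [map_pow, h]) (W.pow_mem hw n)

/-- An element of the stabiliser commuting with an element of coprime order which moves the base point to `x`. -/
theorem mem_Nx_of_comm (C : Compl π x₀ W) {l c : G} {m n : ℕ} (hl : l • x₀ = x₀) (hcl : c * l = l * c)
    (hc : c ^ m = 1) (hln : l ^ n = 1) (hco : Nat.Coprime m n) : l ∈ Nx C (c • x₀) := by
  refine ⟨hl, fun g hg w hw e => ?_⟩
  obtain ⟨d, rfl⟩ := C.surj c
  set ε := d⁻¹ * w * d * w⁻¹ with hε
  have h1 : π ε = 1 := by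
    simp only [hε, map_mul, map_inv, e]
    have : (π d)⁻¹ * l * π d = l := by
      rw [mul_assoc, ← hcl, inv_mul_cancel_left]
    rw [this, mul_inv_cancel]
  have hcen := C.cen ε h1
  have hw1 : d⁻¹ * w * d = ε * w := by simp [hε]
  -- conjugates of powers
  have hn : ∀ j : ℕ, d⁻¹ * w ^ j * d = ε ^ j * w ^ j := by
    intro j
    induction j with
    | zero => simp
    | succ j ih =>
      have h2 : d⁻¹ * w ^ (j + 1) * d = (d⁻¹ * w ^ j * d) * (d⁻¹ * w * d) := by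
        rw [pow_succ]; group
      rw [h2, ih, hw1, pow_succ, pow_succ]
      have h3 : w ^ j * ε = ε * w ^ j := (Commute.pow_right (show Commute ε w from hcen w) j).eq.symm
      calc ε ^ j * w ^ j * (ε * w) = ε ^ j * (w ^ j * ε) * w := by group
        _ = ε ^ j * (ε * w ^ j) * w := by rw [h3]
        _ = ε ^ j * ε * (w ^ j * w) := by group
  have hwn : w ^ n = 1 := pow_W_eq_one C hw (by rw [e, hln])
  have hεn : ε ^ n = 1 := by
    have h2 := hn n
    rw [hwn, mul_one, mul_one] at h2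
    rw [← h2]
    group
  have hm : ∀ j : ℕ, (d ^ j)⁻¹ * w * d ^ j = ε ^ j * w := by
    intro j
    induction j with
    | zero => simp
    | succ j ih =>
      have h2 : (d ^ (j + 1))⁻¹ * w * d ^ (j + 1) = d⁻¹ * ((d ^ j)⁻¹ * w * d ^ j) * d := by
        rw [pow_succ]; group
      rw [h2, ih]
      have hcj : ∀ g, ε ^ j * g = g * ε ^ j := fun g => (Commute.pow_left (show Commute ε g from hcen g) j).eq
      have h3 : d⁻¹ * (ε ^ j * w) * d = ε ^ j * (d⁻¹ * w * d) := by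
        calc d⁻¹ * (ε ^ j * w) * d = (d⁻¹ * ε ^ j) * w * d := by group
          _ = (ε ^ j * d⁻¹) * w * d := by rw [hcj d⁻¹]
          _ = _ := by group
      rw [h3, hw1, pow_succ]
      group
  have hεm : ε ^ m = 1 := by
    have h2 := hm m
    have hdm : π (d ^ m) = 1 := by rw [map_pow, hc]
    have h3 := C.cen _ hdm w
    have h4 : (d ^ m)⁻¹ * w * d ^ m = w := by
      rw [mul_assoc, ← h3, inv_mul_cancel_left]
    rw [h4] at h2
    exact (mul_eq_right.mp h2.symm)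
  have hε1 : ε = 1 := by
    have h2 := (pow_gcd_eq_one (a := ε)).mpr ⟨hεm, hεn⟩
    rwa [hco, pow_one] at h2
  have hcomm : d⁻¹ * w * d = w := by
    rw [hw1, hε1, one_mul]
  -- the element over the base point
  have hfix : π (d⁻¹ * g) • x₀ = x₀ := by
    rw [map_mul, map_inv, mul_smul, hg, inv_smul_smul]
  obtain ⟨k, hk, v, hv, hdg⟩ := C.dec _ hfix
  have e1 : g⁻¹ * w * g = (d⁻¹ * g)⁻¹ * (d⁻¹ * w * d) * (d⁻¹ * g) := by group
  rw [e1, hcomm, hdg]
  have e2 : (k * v)⁻¹ * w * (k * v) = v⁻¹ * (k⁻¹ * (w * k)) * v := by group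
  rw [e2, ← C.cen k hk w, inv_mul_cancel_left]
  exact W.mul_mem (W.mul_mem (W.inv_mem hv) hw) hv

/-- A generating set of the two point stabiliser in the subgroup gives a good point. -/
theorem good_of_closure (C : Compl π x₀ W) {x : X} {L : Set G} (hS : Sx (G := G) x₀ x ≤ closure L)
    (hL : ∀ l ∈ L, l ∈ Nx C x) : Good π x₀ W x :=
  good_of_le C (hS.trans ((closure_le _).mpr hL))

/-- The orders of the stabiliser of two points from a lower bound of the orbit. -/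
theorem card_Sx_mul_le [Finite G] {y : X} {R : Set X} (hR : ∀ r ∈ R, ∃ h : G, h • x₀ = x₀ ∧ h • y = r) :
    Nat.card (Sx (G := G) x₀ y) * R.ncard ≤ Nat.card (stabilizer G x₀) := by
  classical
  let H := stabilizer G x₀
  let O := orbit ↥H y
  have hO : O.ncard * Nat.card (stabilizer ↥H y) = Nat.card ↥H := by
    have h1 := Subgroup.card_mul_index (stabilizer ↥H y)
    have h2 : (stabilizer ↥H y).index = O.ncard := by
      rw [← Nat.card_coe_set_eq, Subgroup.index, Nat.card_congr (orbitEquivQuotientStabilizer ↥H y)]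
    rw [h2] at h1
    rw [mul_comm]
    exact h1
  have hst : Nat.card (stabilizer ↥H y) = Nat.card (Sx (G := G) x₀ y) := by
    refine Nat.card_congr ⟨fun s => ⟨s.1.1, s.1.2, s.2⟩, fun s => ⟨⟨s.1, s.2.1⟩, s.2.2⟩, fun _ => rfl, fun _ => rfl⟩
  have hle : R ⊆ O := by
    intro r hr
    obtain ⟨h, h1, h2⟩ := hR r hr
    exact ⟨⟨h, h1⟩, h2⟩
  have hOfin : O.Finite := Set.finite_range _
  have h3 : R.ncard ≤ O.ncard := Set.ncard_le_ncard hle hOfin
  calc Nat.card (Sx (G := G) x₀ y) * R.ncard ≤ Nat.card (Sx (G := G) x₀ y) * O.ncard := Nat.mul_le_mul_left _ h3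
    _ = O.ncard * Nat.card (stabilizer ↥H y) := by rw [hst, mul_comm]
    _ = Nat.card ↥H := hO

end good

section reduce

variable {Γ : Type u} {G : Type v} {X : Type w} [Group Γ] [Group G] [MulAction G X]

/-- The kernel of a stem extension lies in the commutator subgroup of the preimage of a point stabiliser. -/
theorem ker_mem_comm [IsPretransitive G X] {σ : Γ →* G} (hσ : IsStemExtension σ) {x₀ : X}
    (hperf : commutator ↥(stabilizer G x₀) = ⊤)
    (hgood : ∀ (Q : Type u) [Group Q] (π : Q →* G) (W : Subgroup Q) (C : Compl π x₀ W) (x : X), Good π x₀ W x)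
    (Y : G) (m : ℕ) (hY : Y ^ m = 1)
    (hgen : closure ((stabilizer G x₀ : Set G) ∪ {Y}) = ⊤)
    (hsys : ∀ (A : Type u) [AddCommGroup A] (κ : X → A) (v : A),
      (∀ x, ∀ l : G, l • x₀ = x₀ → l • (Y⁻¹ • x₀) = Y⁻¹ • x₀ → κ (l • x) = κ x) →
      (∀ x, ∑ e ∈ Finset.range m, κ ((Y ^ e) • x) = v) →
      ∃ (g : X → A) (c : A), (∀ h : G, h • x₀ = x₀ → ∀ x, g (h • x) = g x) ∧ ∀ x, κ x = g (Y • x) - g x - c) :
    ∀ k ∈ σ.ker, ∃ h : k ∈ (stabilizer G x₀).comap σ,
      (⟨k, h⟩ : ↥((stabilizer G x₀).comap σ)) ∈ commutator ↥((stabilizer G x₀).comap σ) := by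
  classical
  set H := stabilizer G x₀ with hH
  set Ht := H.comap σ with hHt
  let Ψ : ↥Ht →* ↥H := (σ.comp Ht.subtype).codRestrict H (fun x => x.2)
  have hsurj : Function.Surjective Ψ := by
    rintro ⟨h, hh⟩
    obtain ⟨y, hy⟩ := hσ.1 h
    have hyH : y ∈ Ht := by
      show σ y ∈ H
      rw [hy]
      exact hh
    exact ⟨⟨y, hyH⟩, Subtype.ext hy⟩
  set D : Subgroup ↥Ht := commutator ↥Ht with hD
  have hmapD : D.map Ψ = ⊤ := by
    rw [hD, commutator_def, Subgroup.map_commutator, Subgroup.map_top_of_surjective _ hsurj, ← commutator_def, hperf]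
  set D' : Subgroup Γ := D.map Ht.subtype with hD'
  set N : Subgroup Γ := σ.ker ⊓ D' with hN
  haveI hNn : N.Normal := ⟨fun n hn g => by
    have h1 : g * n * g⁻¹ = n := by
      have := Subgroup.mem_center_iff.mp (hσ.2.1 hn.1) g
      rw [this]
      group
    rw [h1]
    exact hn⟩
  have hNk : N ≤ σ.ker := inf_le_left
  let π : Γ ⧸ N →* G := QuotientGroup.lift N σ (fun x hx => hNk hx)
  have hπ : ∀ a : Γ, π (a : Γ ⧸ N) = σ a := fun a => rfl
  let W : Subgroup (Γ ⧸ N) := D'.map (QuotientGroup.mk' N)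
  have C : Compl π x₀ W := by
    refine ⟨?_, ?_, ?_, ?_, ?_⟩
    · intro g
      obtain ⟨a, rfl⟩ := hσ.1 g
      exact ⟨(a : Γ ⧸ N), rfl⟩
    · intro k hk g
      obtain ⟨a, rfl⟩ := QuotientGroup.mk_surjective k
      obtain ⟨b, rfl⟩ := QuotientGroup.mk_surjective g
      have ha : a ∈ σ.ker := hk
      have h1 := Subgroup.mem_center_iff.mp (hσ.2.1 ha) b
      rw [← QuotientGroup.mk_mul, ← QuotientGroup.mk_mul, h1]
    · rintro w ⟨d, ⟨d₀, hd₀, rfl⟩, rfl⟩
      exact d₀.2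
    · intro g hg
      obtain ⟨a, rfl⟩ := QuotientGroup.mk_surjective g
      have ha : a ∈ Ht := hg
      have h1 : Ψ ⟨a, ha⟩ ∈ D.map Ψ := by rw [hmapD]; trivial
      obtain ⟨d₀, hd₀, e⟩ := h1
      have e' : σ d₀.1 = σ a := congrArg Subtype.val e
      refine ⟨((a * d₀.1⁻¹ : Γ) : Γ ⧸ N), ?_, ((d₀.1 : Γ) : Γ ⧸ N), ⟨d₀.1, ⟨d₀, hd₀, rfl⟩, rfl⟩, ?_⟩
      · show σ (a * d₀.1⁻¹) = 1
        rw [map_mul, map_inv, e', mul_inv_cancel]
      · rw [← QuotientGroup.mk_mul, inv_mul_cancel_right]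
    · rintro k hk ⟨d, hd, rfl⟩
      have h1 : σ d = 1 := hk
      have h2 : d ∈ N := ⟨h1, hd⟩
      exact (QuotientGroup.eq_one_iff d).mpr h2
  have hstem : π.ker ≤ commutator (Γ ⧸ N) := by
    intro x hx
    obtain ⟨a, rfl⟩ := QuotientGroup.mk_surjective x
    have ha : a ∈ σ.ker := hx
    have h1 := hσ.2.2 ha
    have h2 : (commutator Γ).map (QuotientGroup.mk' N) ≤ commutator (Γ ⧸ N) := by
      rw [commutator_def, Subgroup.map_commutator]
      exact Subgroup.commutator_mono le_top le_top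
    exact h2 ⟨a, h1, rfl⟩
  have hbot := ker_eq_bot_of_system C hstem (fun x => hgood (Γ ⧸ N) π W C x) Y m hY hgen hsys
  intro k hk
  have h1 : (k : Γ ⧸ N) ∈ π.ker := hk
  rw [hbot, Subgroup.mem_bot] at h1
  have h2 : k ∈ N := (QuotientGroup.eq_one_iff k).mp h1
  obtain ⟨d₀, hd₀, e⟩ := h2.2
  have e' : d₀.1 = k := e
  subst e'
  exact ⟨d₀.2, hd₀⟩

/-- The stem extension of a perfect subgroup. -/
theorem stem_comm {σ : Γ →* G} (hσ : IsStemExtension σ) {H : Subgroup G} (hperf : commutator ↥H = ⊤) :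
    ∃ σ₂ : ↥(commutator ↥(H.comap σ)) →* ↥H, IsStemExtension σ₂ ∧
      ∀ z : ↥(commutator ↥(H.comap σ)), ((σ₂ z : ↥H) : G) = σ ((z : ↥(H.comap σ)) : Γ) := by
  classical
  set Ht := H.comap σ with hHt
  let Ψ : ↥Ht →* ↥H := (σ.comp Ht.subtype).codRestrict H (fun x => x.2)
  have hΨ : ∀ x : ↥Ht, ((Ψ x : ↥H) : G) = σ x := fun x => rfl
  have hsurj : Function.Surjective Ψ := by
    rintro ⟨h, hh⟩
    obtain ⟨y, hy⟩ := hσ.1 h
    have hyH : y ∈ Ht := by
      show σ y ∈ H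
      rw [hy]
      exact hh
    exact ⟨⟨y, hyH⟩, Subtype.ext hy⟩
  set D : Subgroup ↥Ht := commutator ↥Ht with hD
  have hmapD : D.map Ψ = ⊤ := by
    rw [hD, commutator_def, Subgroup.map_commutator, Subgroup.map_top_of_surjective _ hsurj, ← commutator_def, hperf]
  have hcen : ∀ z : ↥Ht, Ψ z = 1 → ∀ x : ↥Ht, z * x = x * z := by
    intro z hz x
    have h1 : (z : Γ) ∈ σ.ker := by
      rw [MonoidHom.mem_ker]
      exact congrArg Subtype.val hz
    have h2 := Subgroup.mem_center_iff.mp (hσ.2.1 h1) (x : Γ)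
    exact Subtype.ext h2.symm
  have hdec : ∀ x : ↥Ht, ∃ d ∈ D, ∃ z : ↥Ht, Ψ z = 1 ∧ x = d * z := by
    intro x
    have : Ψ x ∈ D.map Ψ := by rw [hmapD]; trivial
    obtain ⟨d, hd, hdx⟩ := this
    refine ⟨d, hd, d⁻¹ * x, ?_, by group⟩
    rw [map_mul, map_inv, hdx, inv_mul_cancel]
  refine ⟨Ψ.comp D.subtype, ⟨?_, ?_, ?_⟩, fun z => rfl⟩
  · intro h
    have : h ∈ D.map Ψ := by rw [hmapD]; trivial
    obtain ⟨d, hd, e⟩ := this
    exact ⟨⟨d, hd⟩, e⟩
  · intro z hz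
    rw [Subgroup.mem_center_iff]
    intro g
    apply Subtype.ext
    exact (hcen z.1 hz g.1).symm
  · intro z hz
    have hT : D ≤ (commutator ↥D).map D.subtype := by
      rw [hD, commutator_def, Subgroup.commutator_le]
      intro a _ b _
      obtain ⟨d₁, hd₁, z₁, hz₁, rfl⟩ := hdec a
      obtain ⟨d₂, hd₂, z₂, hz₂, rfl⟩ := hdec b
      have c1 := hcen z₁ hz₁
      have c2 := hcen z₂ hz₂
      have e : ⁅d₁ * z₁, d₂ * z₂⁆ = ⁅d₁, d₂⁆ := by
        simp only [commutatorElement_def]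
        have c1' : ∀ g, z₁⁻¹ * g = g * z₁⁻¹ := by
          intro g
          calc z₁⁻¹ * g = z₁⁻¹ * (g * z₁) * z₁⁻¹ := by group
            _ = z₁⁻¹ * (z₁ * g) * z₁⁻¹ := by rw [c1]
            _ = g * z₁⁻¹ := by group
        have c2' : ∀ g, z₂⁻¹ * g = g * z₂⁻¹ := by
          intro g
          calc z₂⁻¹ * g = z₂⁻¹ * (g * z₂) * z₂⁻¹ := by group
            _ = z₂⁻¹ * (z₂ * g) * z₂⁻¹ := by rw [c2]
            _ = g * z₂⁻¹ := by group
        calc d₁ * z₁ * (d₂ * z₂) * (d₁ * z₁)⁻¹ * (d₂ * z₂)⁻¹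
            = d₁ * (z₁ * (d₂ * z₂)) * (z₁⁻¹ * d₁⁻¹) * (z₂⁻¹ * d₂⁻¹) := by group
          _ = d₁ * ((d₂ * z₂) * z₁) * (z₁⁻¹ * d₁⁻¹) * (z₂⁻¹ * d₂⁻¹) := by rw [c1 (d₂ * z₂)]
          _ = d₁ * d₂ * z₂ * d₁⁻¹ * (z₂⁻¹ * d₂⁻¹) := by group
          _ = d₁ * d₂ * (d₁⁻¹ * z₂) * (z₂⁻¹ * d₂⁻¹) := by rw [mul_assoc (d₁ * d₂) z₂, c2 d₁⁻¹]
          _ = d₁ * d₂ * d₁⁻¹ * d₂⁻¹ := by group
      rw [e]
      have h1 : ⁅(⟨d₁, hd₁⟩ : ↥D), (⟨d₂, hd₂⟩ : ↥D)⁆ ∈ commutator ↥D :=
        Subgroup.commutator_mem_commutator (Subgroup.mem_top _) (Subgroup.mem_top _)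
      exact ⟨_, h1, rfl⟩
    obtain ⟨y, hy, e⟩ := hT z.2
    have e' : y = z := Subtype.ext e
    rwa [e'] at hy

/-- The bound for the kernel of a stem extension from a bound for the perfect point stabiliser. -/
theorem up_of_system [IsPretransitive G X] {σ : Γ →* G} (hσ : IsStemExtension σ) {x₀ : X}
    (hperf : commutator ↥(stabilizer G x₀) = ⊤)
    (hgood : ∀ (Q : Type u) [Group Q] (π : Q →* G) (W : Subgroup Q) (C : Compl π x₀ W) (x : X), Good π x₀ W x)
    (Y : G) (m : ℕ) (hY : Y ^ m = 1)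
    (hgen : closure ((stabilizer G x₀ : Set G) ∪ {Y}) = ⊤)
    (hsys : ∀ (A : Type u) [AddCommGroup A] (κ : X → A) (v : A),
      (∀ x, ∀ l : G, l • x₀ = x₀ → l • (Y⁻¹ • x₀) = Y⁻¹ • x₀ → κ (l • x) = κ x) →
      (∀ x, ∑ e ∈ Finset.range m, κ ((Y ^ e) • x) = v) →
      ∃ (g : X → A) (c : A), (∀ h : G, h • x₀ = x₀ → ∀ x, g (h • x) = g x) ∧ ∀ x, κ x = g (Y • x) - g x - c)
    [Finite Γ] {r : ℕ}
    (hup : ∀ (Γ₂ : Type u) [Group Γ₂] [Finite Γ₂] (σ₂ : Γ₂ →* ↥(stabilizer G x₀)), IsStemExtension σ₂ →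
      ∃ u : σ₂.ker, u ^ r = 1 ∧ ∀ k : σ₂.ker, k ∈ zpowers u) :
    ∃ u : σ.ker, u ^ r = 1 ∧ ∀ k : σ.ker, k ∈ zpowers u := by
  obtain ⟨σ₂, hσ₂, hval⟩ := stem_comm hσ hperf
  obtain ⟨u, hu, hall⟩ := hup _ σ₂ hσ₂
  have hker : ∀ z : σ₂.ker, (((z : ↥(commutator ↥((stabilizer G x₀).comap σ))) :
      ↥((stabilizer G x₀).comap σ)) : Γ) ∈ σ.ker := by
    intro z
    rw [MonoidHom.mem_ker, ← hval]
    have : σ₂ z.1 = 1 := z.2
    rw [this]
    rfl
  let f : σ₂.ker →* σ.ker :=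
    { toFun := fun z => ⟨_, hker z⟩
      map_one' := rfl
      map_mul' := fun _ _ => rfl }
  refine ⟨f u, ?_, ?_⟩
  · rw [← map_pow, hu, map_one]
  · intro k
    obtain ⟨h, hd⟩ := ker_mem_comm hσ hperf hgood Y m hY hgen hsys k.1 k.2
    have hz : (⟨⟨k.1, h⟩, hd⟩ : ↥(commutator ↥((stabilizer G x₀).comap σ))) ∈ σ₂.ker := by
      rw [MonoidHom.mem_ker]
      apply Subtype.ext
      rw [hval]
      exact k.2
    obtain ⟨i, hi⟩ := Subgroup.mem_zpowers_iff.mp (hall ⟨_, hz⟩)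
    refine Subgroup.mem_zpowers_iff.mpr ⟨i, ?_⟩
    rw [← map_zpow, hi]
    rfl

end reduce

end Cfsg.Agent.Lib.SchurRel22
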