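import Cfsg.Agent.Lib.McK22Main
import Cfsg.Agent.Lib.McU22Main
import Cfsg.Agent.Lib.McD22
import Cfsg.Agent.Lib.McT22
import Cfsg.Agent.Lib.ProgPair22
import Cfsg.Agent.Lib.SchurRel22
import Cfsg.Agent.Lib.SchurLin22

/-!
# The McLaughlin group on `275` points and the subsets of `50` points
-/

set_option autoImplicit false
set_option maxRecDepth 100000
set_option linter.style.haveILetI false
set_option exponentiation.threshold 1000

namespace Cfsg.Agent.Lib.McGroup22

open Subgroup MulAction Cfsg.Agent.Lib.ChainCert Cfsg.Agent.Lib.TcBits Cfsg.Agent.Lib.PermChain Cfsg.Agent.Lib.ProgBits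
  Cfsg.Agent.Lib.ProgChain Cfsg.Agent.Lib.ProgMask22 Cfsg.Agent.Lib.ProgPair22 Cfsg.Agent.Lib.McD22
open scoped Pointwise

/-- The programs. -/
noncomputable abbrev pr := Cfsg.Agent.Lib.McK22Tab.pr

/-- The group. -/
noncomputable abbrev K : Subgroup (Equiv.Perm (Fin 275)) := grp (lp pr 275) 0 2

theorem ctx : Ctx 275 9 pr Cfsg.Agent.Lib.McK22Tab.R Cfsg.Agent.Lib.McK22Tab.Y := Cfsg.Agent.Lib.McK22Main.ctx

theorem ctxT : Ctx 275 9 Cfsg.Agent.Lib.McT22.pr Cfsg.Agent.Lib.McK22Tab.R Cfsg.Agent.Lib.McK22Tab.Y :=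
  ctx_mk' (N := nat_lit 512) (M := Cfsg.Agent.Lib.McK22Tab.M) (tot := 5) (by norm_num) Cfsg.Agent.Lib.McK22Main.hN
    Cfsg.Agent.Lib.McK22Main.hM Cfsg.Agent.Lib.McK22Main.hR Cfsg.Agent.Lib.McK22Main.hY Cfsg.Agent.Lib.McT22.hl
    Cfsg.Agent.Lib.McT22.htot

theorem hL : ∀ e, lp pr 275 e ∈ K := fun e => (Cfsg.Agent.Lib.McK22Main.lev0).1 e (Nat.zero_le e)

theorem card_K : Nat.card K = 898128000 := Cfsg.Agent.Lib.McK22Main.cardH0

instance : Finite ↥K := inferInstance

/-- Elements of the group from words. -/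
noncomputable abbrev e (w : List ℕ) : ↥K := el hL w

/-- Equality of words. -/
theorem eq_of_chk {v w : List ℕ} (h : wChk Cfsg.Agent.Lib.McK22Tab.R Cfsg.Agent.Lib.McK22Tab.Y pr v w = true) :
    e v = e w := el_eq hL ctx h

/-- Five elements. -/
noncomputable def sT (i : ℕ) : ↥K := e (Ws i)

theorem sT_chk : ∀ i, i < 5 → Nat.beq (xWord Cfsg.Agent.Lib.McK22Tab.R pr Cfsg.Agent.Lib.McK22Tab.Y (Ws i))
    (xWord Cfsg.Agent.Lib.McK22Tab.R Cfsg.Agent.Lib.McT22.pr Cfsg.Agent.Lib.McK22Tab.Y [i]) = true := by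
  decide +kernel

theorem sT_val {i : ℕ} (hi : i < 5) : (sT i).1 = prodW (lp Cfsg.Agent.Lib.McT22.pr 275) [i] :=
  prodW_eq_cross ctx ctxT (sT_chk i hi)

/-- The subsets. -/
def mask (c : ℕ) : Set (Fin 275) := bitSet 275 (MT c)

/-- The numbers of the points. -/
abbrev nX : ℕ := 7128

theorem smul_mask {i c d : ℕ} (hi : i < 5) (h : wordApply Cfsg.Agent.Lib.McT22.pr [i] (MT d) = MT c) :
    sT i • mask c = mask d :=
  smul_bitSet ctxT (sT i) [i] (sT_val hi) h

/-- The check of the tree. -/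
def Ptree (c : ℕ) : Bool :=
  cond (Nat.beq c 0) true (Nat.blt (PT c) c && Nat.blt (LT c) 5 &&
    Nat.beq (wordApply Cfsg.Agent.Lib.McT22.pr [LT c] (MT c)) (MT (PT c)))

theorem tree_all : ∀ c, c < 7128 → Ptree c = true :=
  of_guard (k := 13) (by norm_num) (by decide +kernel)

theorem tree_of {c : ℕ} (hc : c < 7128) (h0 : c ≠ 0) :
    PT c < c ∧ LT c < 5 ∧ sT (LT c) • mask (PT c) = mask c := by
  have h := tree_all c hc
  have h1 : Nat.beq c 0 = false := by
    cases h2 : Nat.beq c 0 with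
    | false => rfl
    | true => exact absurd (Nat.eq_of_beq_eq_true h2) h0
  rw [Ptree, h1, cond_false, Bool.and_eq_true, Bool.and_eq_true] at h
  have h3 : PT c < c := by
    have := h.1.1
    simpa [Nat.blt] using this
  have h4 : LT c < 5 := by
    have := h.1.2
    simpa [Nat.blt] using this
  exact ⟨h3, h4, smul_mask h4 (Nat.eq_of_beq_eq_true h.2)⟩

/-- The set of the points. -/
abbrev X : Type := ↥(orbit ↥K (mask 0))

/-- The base point. -/
noncomputable def x₀ : X := ⟨mask 0, mem_orbit_self _⟩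

theorem mask_mem : ∀ c, c < 7128 → mask c ∈ orbit ↥K (mask 0) := by
  intro c
  induction c using Nat.strong_induction_on with
  | _ c ih =>
    intro hc
    by_cases h0 : c = 0
    · subst h0
      exact mem_orbit_self _
    · obtain ⟨h1, h2, h3⟩ := tree_of hc h0
      obtain ⟨g, hg⟩ := ih _ h1 (by omega)
      refine ⟨sT (LT c) * g, ?_⟩
      show (sT (LT c) * g) • mask 0 = mask c
      rw [mul_smul, ← h3]
      congr 1

/-- The points from their numbers. -/
noncomputable def ι (c : ℕ) : X := if h : c < 7128 then ⟨mask c, mask_mem c h⟩ else x₀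

theorem ι_val {c : ℕ} (hc : c < 7128) : (ι c).1 = mask c := by
  simp only [ι, dif_pos hc]

theorem ι_zero : ι 0 = x₀ := by
  apply Subtype.ext
  rw [ι_val (by norm_num)]
  rfl

theorem smul_val (g : ↥K) (x : X) : (g • x).1 = g • x.1 := rfl

theorem smul_ι {i c d : ℕ} (hi : i < 5) (hc : c < 7128) (hd : d < 7128)
    (h : wordApply Cfsg.Agent.Lib.McT22.pr [i] (MT d) = MT c) : sT i • ι c = ι d := by
  apply Subtype.ext
  rw [smul_val, ι_val hc, ι_val hd]
  exact smul_mask hi h

theorem tree_ι {c : ℕ} (hc : c < 7128) (h0 : c ≠ 0) : PT c < c ∧ LT c < 5 ∧ sT (LT c) • ι (PT c) = ι c := by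
  obtain ⟨h1, h2, h3⟩ := tree_of hc h0
  refine ⟨h1, h2, ?_⟩
  apply Subtype.ext
  rw [smul_val, ι_val hc, ι_val (by omega)]
  exact h3

/-- The masks are different. -/
theorem MT_lt (c : ℕ) : MT c < 2 ^ 275 := by
  have h : MT c ≤ 60708402882054033466233184588234965832575213720379360039119137804340758912662765567 :=
    Nat.and_le_right
  have e : (2 : ℕ) ^ 275 = 60708402882054033466233184588234965832575213720379360039119137804340758912662765568 := by
    norm_num
  omega

theorem sort_lt : ∀ i, i < 7127 → Nat.blt (MT (SR i)) (MT (SR (i + 1))) = true :=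
  of_guard (P := fun i => Nat.blt (MT (SR i)) (MT (SR (i + 1)))) (k := 13) (by norm_num) (by decide +kernel)

theorem sort_pos : ∀ c, c < 7128 → (Nat.blt (POS c) 7128 && Nat.beq (SR (POS c)) c) = true :=
  of_guard (P := fun c => Nat.blt (POS c) 7128 && Nat.beq (SR (POS c)) c) (k := 13) (by norm_num) (by decide +kernel)

theorem MT_inj {c d : ℕ} (hc : c < 7128) (hd : d < 7128) (h : MT c = MT d) : c = d := by
  have h1 := sort_pos c hc
  have h2 := sort_pos d hd
  rw [Bool.and_eq_true] at h1 h2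
  have e1 : SR (POS c) = c := Nat.eq_of_beq_eq_true h1.2
  have e2 : SR (POS d) = d := Nat.eq_of_beq_eq_true h2.2
  have l1 : POS c < 7128 := by simpa [Nat.blt] using h1.1
  have l2 : POS d < 7128 := by simpa [Nat.blt] using h2.1
  have mono : ∀ i j, i < j → j < 7128 → MT (SR i) < MT (SR j) := by
    apply lt_of_adjacent (f := fun i => MT (SR i)) (n := 7128)
    intro i hi
    have := sort_lt i (by omega)
    simpa [Nat.blt] using this
  have h3 : MT (SR (POS c)) = MT (SR (POS d)) := by rw [e1, e2, h]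
  rcases Nat.lt_trichotomy (POS c) (POS d) with h4 | h4 | h4
  · exact absurd h3 (ne_of_lt (mono _ _ h4 l2))
  · rw [← e1, ← e2, h4]
  · exact absurd h3.symm (ne_of_lt (mono _ _ h4 l1))

theorem bitSet_inj {M N : ℕ} (hM : M < 2 ^ 275) (hN : N < 2 ^ 275) (h : bitSet 275 M = bitSet 275 N) : M = N := by
  apply Nat.eq_of_testBit_eq
  intro j
  by_cases hj : j < 275
  · have h1 := Set.ext_iff.mp h ⟨j, hj⟩
    simp only [mem_bitSet] at h1
    cases h2 : M.testBit j <;> cases h3 : N.testBit j <;> simp_all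
  · have hk : (2 : ℕ) ^ 275 ≤ 2 ^ j := Nat.pow_le_pow_right (by norm_num) (by omega)
    rw [Nat.testBit_lt_two_pow (lt_of_lt_of_le hM hk), Nat.testBit_lt_two_pow (lt_of_lt_of_le hN hk)]

theorem ι_inj {c d : ℕ} (hc : c < 7128) (hd : d < 7128) (h : ι c = ι d) : c = d := by
  have h1 : mask c = mask d := by
    rw [← ι_val hc, ← ι_val hd, h]
  exact MT_inj hc hd (bitSet_inj (MT_lt c) (MT_lt d) h1)

/-- The stabiliser. -/
noncomputable abbrev H : Subgroup ↥K := stabilizer ↥K x₀

theorem mem_H_iff {g : ↥K} : g ∈ H ↔ g • mask 0 = mask 0 := by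
  rw [mem_stabilizer_iff]
  constructor
  · intro h
    exact congrArg Subtype.val h
  · intro h
    exact Subtype.ext h

/-- Elements of the stabiliser from words fixing the mask. -/
theorem mem_H {w : List ℕ} (h : wordApply pr w (MT 0) = MT 0) : e w ∈ H :=
  mem_H_iff.mpr (smul_bitSet ctx (e w) w rfl h)

theorem sT_mem_chk : ∀ i, i < 4 → Nat.beq (wordApply pr (Ws i) (MT 0)) (MT 0) = true := by decide +kernel

theorem sT_mem {i : ℕ} (hi : i < 4) : sT i ∈ H := mem_H (Nat.eq_of_beq_eq_true (sT_mem_chk i hi))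

/-- The generators of the stabiliser. -/
noncomputable def uH : ↥H := ⟨sT 2, sT_mem (by norm_num)⟩
noncomputable def vH : ↥H := ⟨sT 3, sT_mem (by norm_num)⟩

/-- The elements of the group in the stabiliser as elements of the group of permutations. -/
theorem card_closure_H (a b : ↥H) : Nat.card (closure ({a, b} : Set ↥H)) =
    Nat.card (closure ({a.1.1, b.1.1} : Set (Equiv.Perm (Fin 275)))) := by
  have h : (closure ({a, b} : Set ↥H)).map (K.subtype.comp H.subtype) =
      closure ({a.1.1, b.1.1} : Set (Equiv.Perm (Fin 275))) := by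
    rw [MonoidHom.map_closure]
    congr 1
    simp [Set.image_insert_eq]
  rw [← h]
  exact Nat.card_congr (Subgroup.equivMapOfInjective _ _
    (fun x y hxy => Subtype.ext (Subtype.ext hxy))).toEquiv

theorem u_eq : (sT 2).1 = lp Cfsg.Agent.Lib.McU22Tab.pr 275 0 := by
  have h := prodW_eq_cross ctx Cfsg.Agent.Lib.McU22Main.ctx (w1 := Ws 2) (w2 := [0]) (by decide +kernel)
  show prodW (lp pr 275) (Ws 2) = _
  simpa [prodW_cons, prodW_nil] using h

theorem v_eq : (sT 3).1 = lp Cfsg.Agent.Lib.McU22Tab.pr 275 1 := by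
  have h := prodW_eq_cross ctx Cfsg.Agent.Lib.McU22Main.ctx (w1 := Ws 3) (w2 := [1]) (by decide +kernel)
  show prodW (lp pr 275) (Ws 3) = _
  simpa [prodW_cons, prodW_nil] using h

theorem card_uv : Nat.card (closure ({uH, vH} : Set ↥H)) = 126000 := by
  rw [card_closure_H]
  have h : ({uH.1.1, vH.1.1} : Set (Equiv.Perm (Fin 275))) =
      {lp Cfsg.Agent.Lib.McU22Tab.pr 275 0, lp Cfsg.Agent.Lib.McU22Tab.pr 275 1} := by
    rw [← u_eq, ← v_eq]
    rfl
  rw [h, ← grp_pair]
  exact Cfsg.Agent.Lib.McU22Main.cardH0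

/-- The counting of the points. -/
theorem card_H_X : Nat.card ↥H = 126000 ∧ Nat.card X = 7128 := by
  have h1 : Nat.card ↥H * Nat.card X = 898128000 := by
    have h2 := Subgroup.card_mul_index H
    have h3 : H.index = Nat.card X := by
      have h4 : orbit ↥K x₀ = Set.univ := orbit_eq_univ _ _
      rw [Subgroup.index, ← Nat.card_congr (orbitEquivQuotientStabilizer ↥K x₀), h4, Nat.card_coe_set_eq, Set.ncard_univ]
    rw [h3, card_K] at h2
    exact h2
  have h2 : 126000 ≤ Nat.card ↥H := by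
    rw [← card_uv]
    exact Nat.card_le_card_of_injective _ (Subgroup.subtype_injective _)
  have h3 : 7128 ≤ Nat.card X := by
    have hinj : Function.Injective (fun c : Fin 7128 => ι c.val) := by
      intro a b h
      exact Fin.ext (ι_inj a.isLt b.isLt h)
    have := Nat.card_le_card_of_injective _ hinj
    simpa using this
  constructor
  · by_contra hne
    have h4 : 126001 ≤ Nat.card ↥H := by omega
    have h5 := Nat.mul_le_mul h4 h3
    omega
  · by_contra hne
    have h4 : 7129 ≤ Nat.card X := by omega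
    have h5 := Nat.mul_le_mul h2 h4
    omega

theorem card_H : Nat.card ↥H = 126000 := card_H_X.1

theorem closure_uv : closure ({uH, vH} : Set ↥H) = ⊤ :=
  Subgroup.eq_top_of_card_eq _ (by rw [card_uv, card_H])

/-- All the points are numbered. -/
theorem exists_ι (x : X) : ∃ c, c < 7128 ∧ x = ι c := by
  have hinj : Function.Injective (fun c : Fin 7128 => ι c.val) := by
    intro a b h
    exact Fin.ext (ι_inj a.isLt b.isLt h)
  have hb : Function.Bijective (fun c : Fin 7128 => ι c.val) :=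
    (Nat.bijective_iff_injective_and_card _).mpr ⟨hinj, by rw [card_H_X.2]; simp⟩
  obtain ⟨c, hc⟩ := hb.2 x
  exact ⟨c.val, c.isLt, hc.symm⟩

/-- The element of order three. -/
noncomputable abbrev Yg : ↥K := sT 4

theorem Y_pow : Yg ^ 3 = 1 := by
  have h : e (List.flatten (List.replicate 3 (Ws 4))) = e [] := eq_of_chk (by decide +kernel)
  have h2 := el_pow hL (Ws 4) 3
  rw [← show sT 4 = el hL (Ws 4) from rfl] at h2
  rw [Yg, ← h2]
  exact h

theorem hgen : closure ((H : Set ↥K) ∪ {Yg}) = ⊤ := by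
  set M := closure ((H : Set ↥K) ∪ {Yg}) with hM
  have h1 : ∀ i, i < 5 → sT i ∈ M := by
    intro i hi
    apply Subgroup.subset_closure
    by_cases h4 : i = 4
    · subst h4
      exact Or.inr rfl
    · exact Or.inl (sT_mem (by omega))
  have h2 : ∀ c, c < 7128 → ∃ m ∈ M, m • x₀ = ι c := by
    intro c
    induction c using Nat.strong_induction_on with
    | _ c ih =>
      intro hc
      by_cases h0 : c = 0
      · subst h0
        exact ⟨1, M.one_mem, by rw [one_smul, ι_zero]⟩
      · obtain ⟨h3, h4, h5⟩ := tree_ι hc h0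
        obtain ⟨m, hm, e1⟩ := ih _ h3 (by omega)
        exact ⟨sT (LT c) * m, M.mul_mem (h1 _ h4) hm, by rw [mul_smul, e1, h5]⟩
  rw [eq_top_iff]
  intro g _
  obtain ⟨c, hc, e1⟩ := exists_ι (g • x₀)
  obtain ⟨m, hm, e2⟩ := h2 c hc
  have h3 : m⁻¹ * g ∈ H := by
    rw [mem_stabilizer_iff, mul_smul, e1, ← e2, inv_smul_smul]
  have h4 : m⁻¹ * g ∈ M := Subgroup.subset_closure (Or.inl h3)
  have h5 := M.mul_mem hm h4
  simpa using h5

end Cfsg.Agent.Lib.McGroup22
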