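import Cfsg.Agent.Lib.McGroup22
import Cfsg.Agent.Lib.McLFus

/-!
# The group of permutations of `275` points is the McLaughlin group
-/

set_option autoImplicit false
set_option maxRecDepth 100000

namespace Cfsg.Agent.Lib.McIso22

open Subgroup Cfsg Cfsg.Agent.Lib.PermChain Cfsg.Agent.Lib.PermChain12 Cfsg.Agent.Lib.ProgBits Cfsg.Agent.Lib.ProgChain
  Cfsg.Agent.Lib.ProgPair22 Cfsg.Agent.Lib.McGroup22 Cfsg.Agent.Lib.McLFusData Cfsg.Agent.Lib.McLFus
  Cfsg.Agent.Lib.McLBridge

/-- The words of the two generators. -/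
def wa : List ℕ := [20, 14, 15, 20, 13, 26, 6, 24, 32, 4]
def wb : List ℕ := [21, 18, 16, 13, 17, 12, 25, 16, 32, 22]

theorem a_chk : ∀ x, x < 275 → ptChk pr [0] (walkF S wa x) x = true := by decide +kernel

theorem b_chk : ∀ x, x < 275 → ptChk pr [1] (walkF S wb x) x = true := by decide +kernel

theorem a_mem : lp pr 275 0 ∈ Pg := by
  have h : lp pr 275 0 = El wa := by
    apply Equiv.ext
    intro x
    apply Fin.ext
    rw [El_apply (by decide)]
    have h1 := ctx.prodW_pt (w := [0]) (p := walkF S wa x.val) (b := x) (a_chk x.val x.isLt)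
    simpa [prodW_cons, prodW_nil] using h1
  rw [h]
  exact El_mem (by decide)

theorem b_mem : lp pr 275 1 ∈ Pg := by
  have h : lp pr 275 1 = El wb := by
    apply Equiv.ext
    intro x
    apply Fin.ext
    rw [El_apply (by decide)]
    have h1 := ctx.prodW_pt (w := [1]) (p := walkF S wb x.val) (b := x) (b_chk x.val x.isLt)
    simpa [prodW_cons, prodW_nil] using h1
  rw [h]
  exact El_mem (by decide)

theorem K_eq : K = Pg := by
  apply Subgroup.eq_of_le_of_card_ge
  · show grp (lp pr 275) 0 2 ≤ Pg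
    rw [grp_pair, closure_le]
    rintro _ (rfl | rfl)
    · exact a_mem
    · exact b_mem
  · rw [card_K, card_Pg]

/-- The isomorphism. -/
theorem iso_K : Nonempty (↥K ≃* ↥Spor.McL) := by
  obtain ⟨φ⟩ := equiv_of_card (by rw [card_Pg])
  exact ⟨(MulEquiv.subgroupCongr K_eq).trans φ.symm⟩

end Cfsg.Agent.Lib.McIso22
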