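import Mathlib
import Cfsg.Agent.Lib.McLRk3A

set_option autoImplicit false
set_option linter.unusedSectionVars false
set_option linter.unusedVariables false
set_option linter.style.haveILetI false
set_option linter.unusedSimpArgs false

/-!
# The group side of the recognition of the rank three graph on 275 points
-/

namespace Cfsg.Agent.Lib.McLRk3B

open MulAction Finset Cfsg.Agent.Lib.McLRk3A

/-- The ambient permutation group. -/
abbrev Pm := Equiv.Perm (Fin 275)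

/-- The point stabiliser. -/
def A0 (P : Subgroup Pm) (a₀ : Fin 275) : Subgroup Pm := P ⊓ stabilizer Pm a₀

theorem smul_pm (g : Pm) (x : Fin 275) : g • x = g x := rfl

theorem invApp (d : Pm) (b : Fin 275) : d⁻¹ (d b) = b := by simp

theorem appInv (d : Pm) (b : Fin 275) : d (d⁻¹ b) = b := by simp

section

variable (P : Subgroup Pm) (ad : Fin 275 → Fin 275 → Prop) [DecidableRel ad] (a₀ y₀ z₁ z₂ : Fin 275) (t : Pm)
  (KK : List (Finset (Fin 275))) (L : Fin 4 → Fin 162 → Finset (Fin 275)) (σ : Fin 4 → Pm)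
  (π : Fin 4 → Fin 162 → Fin 275)

/-- The concrete facts on the group and the graph. -/
structure Conc : Prop where
  ad_symm : ∀ x y, ad x y → ad y x
  ad_irr : ∀ x, ¬ ad x x
  ad_inv : ∀ g ∈ P, ∀ x y, ad (g x) (g y) ↔ ad x y
  cardBs : (univ.filter (fun x => ad a₀ x)).card = 112
  cardCs : (univ.filter (fun x => x ≠ a₀ ∧ ¬ ad a₀ x)).card = 162
  cardA : Nat.card (A0 P a₀) = 3265920
  y₀B : ad a₀ y₀
  transB : ∀ y, ad a₀ y → ∃ h ∈ A0 P a₀, h y₀ = y
  z₁30 : ad a₀ z₁ ∧ ad y₀ z₁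
  z₂81 : ad a₀ z₂ ∧ z₂ ≠ y₀ ∧ ¬ ad y₀ z₂
  trans30 : ∀ z, ad a₀ z → ad y₀ z → ∃ h ∈ A0 P a₀, h y₀ = y₀ ∧ h z₁ = z
  trans81 : ∀ z, ad a₀ z → z ≠ y₀ → ¬ ad y₀ z → ∃ h ∈ A0 P a₀, h y₀ = y₀ ∧ h z₂ = z
  c30 : (univ.filter (fun z => ad a₀ z ∧ ad y₀ z)).card = 30
  c81 : (univ.filter (fun z => ad a₀ z ∧ z ≠ y₀ ∧ ¬ ad y₀ z)).card = 81
  cliqB : ∀ z w, ad a₀ z → ad a₀ w → ad z w → (univ.filter (fun x => ad a₀ x ∧ ad z x ∧ ad w x)).card = 2
  t_mem : t ∈ A0 P a₀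
  t_ord : orderOf t = 7
  KK_spec : ∀ K ∈ KK, K.card = 4 ∧ (∀ x ∈ K, ad a₀ x) ∧ (∀ x ∈ K, ∀ y ∈ K, x ≠ y → ad x y)
  hemi : ∀ S : Finset (Fin 275), (∀ x ∈ S, ad a₀ x) → S.image t = S → (∀ K ∈ KK, (S ∩ K).card = 2) → ∃ j, S = L j 0
  reach : ∀ j i, ∃ k ∈ A0 P a₀, (L j 0).image k = L j i
  L_inj : ∀ j, Function.Injective (L j)
  clsX : ∀ j (i : Fin 162), 1 ≤ i.val → i.val ≤ 56 → ∃ r ∈ A0 P a₀, (L j 0).image r = L j 0 ∧ (L j 1).image r = L j i
  clsY : ∀ j (i : Fin 162), 57 ≤ i.val → ∃ r ∈ A0 P a₀, (L j 0).image r = L j 0 ∧ (L j 57).image r = L j i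
  intX : ∀ j (i : Fin 162), 1 ≤ i.val → i.val ≤ 56 → (L j 0 ∩ L j i).card = 20
  intY : ∀ j (i : Fin 162), 57 ≤ i.val → (L j 0 ∩ L j i).card = 32
  σ_B : ∀ j y, ad a₀ y → ad a₀ (σ j y)
  σ_ad : ∀ j y y', ad a₀ y → ad a₀ y' → (ad (σ j y) (σ j y') ↔ ad y y')
  π_C : ∀ j i, π j i ≠ a₀ ∧ ¬ ad a₀ (π j i)
  π_inj : ∀ j, Function.Injective (π j)
  π_spec : ∀ j i, (L j i).image (σ j) = univ.filter (fun y => ad a₀ y ∧ ad (π j i) y)
  C_int : ∀ c c', c ≠ a₀ → ¬ ad a₀ c → c' ≠ a₀ → ¬ ad a₀ c' → c ≠ c' →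
    (ad c c' ↔ ((univ.filter (fun y => ad a₀ y ∧ ad c y)) ∩ (univ.filter (fun y => ad a₀ y ∧ ad c' y))).card = 20)

variable {P ad a₀ y₀ z₁ z₂ t KK L σ π}

theorem num_O : ∀ n : Fin 113, n.1 ∣ 29160 → n.1 % 3 = 1 → n.1 = 1 ∨ n.1 = 4 ∨ n.1 = 10 ∨ n.1 = 40 := by
  decide

section L1

variable (hC : Conc P ad a₀ y₀ z₁ z₂ t KK L σ π)
include hC

theorem A0_le_P : A0 P a₀ ≤ P := inf_le_left

theorem A0_fix {g : Pm} (hg : g ∈ A0 P a₀) : g a₀ = a₀ := hg.2

theorem A0_B {g : Pm} (hg : g ∈ A0 P a₀) {y : Fin 275} (hy : ad a₀ y) : ad a₀ (g y) := by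
  have := (hC.ad_inv g hg.1 a₀ y).2 hy
  rwa [A0_fix hC hg] at this

theorem orbit_A0 {y : Fin 275} (hy : ad a₀ y) : (orbit (A0 P a₀) y).ncard = 112 := by
  have e : orbit (A0 P a₀) y = ((univ.filter (fun x => ad a₀ x) : Finset (Fin 275)) : Set (Fin 275)) := by
    ext z
    simp only [coe_filter, mem_univ, true_and, Set.mem_ofPred_eq]
    constructor
    · rintro ⟨g, rfl⟩
      exact A0_B hC g.2 hy
    · intro hz
      obtain ⟨h1, h1m, h1e⟩ := hC.transB y hy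
      obtain ⟨h2, h2m, h2e⟩ := hC.transB z hz
      refine ⟨⟨h2 * h1⁻¹, (A0 P a₀).mul_mem h2m ((A0 P a₀).inv_mem h1m)⟩, ?_⟩
      show (h2 * h1⁻¹) y = z
      rw [Equiv.Perm.mul_apply, ← h1e, invApp, h2e]
  rw [e, Set.ncard_coe_finset, hC.cardBs]

theorem card_A1 {y : Fin 275} (hy : ad a₀ y) : Nat.card ↥(A0 P a₀ ⊓ stabilizer Pm y) = 29160 := by
  have h := card_eq_orbit_mul_inf (A0 P a₀) y
  rw [hC.cardA, orbit_A0 hC hy] at h
  omega

/-- The stabiliser of the base point of the lines. -/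
abbrev A1 (P : Subgroup Pm) (a₀ y₀ : Fin 275) : Subgroup Pm := A0 P a₀ ⊓ stabilizer Pm y₀

theorem A1_inv {g : Pm} (hg : g ∈ A1 P a₀ y₀) {z : Fin 275} : ad y₀ (g z) ↔ ad y₀ z := by
  have := hC.ad_inv g hg.1.1 y₀ z
  have hy : g y₀ = y₀ := hg.2
  rwa [hy] at this

theorem card_D30 {z : Fin 275} (hz : ad a₀ z) (hz' : ad y₀ z) : Nat.card ↥(A1 P a₀ y₀ ⊓ stabilizer Pm z) = 972 := by
  have e : orbit (A1 P a₀ y₀) z = ((univ.filter (fun z => ad a₀ z ∧ ad y₀ z) : Finset (Fin 275)) : Set (Fin 275)) := by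
    ext w
    simp only [coe_filter, mem_univ, true_and, Set.mem_ofPred_eq]
    constructor
    · rintro ⟨g, rfl⟩
      exact ⟨A0_B hC g.2.1 hz, (A1_inv hC g.2).2 hz'⟩
    · rintro ⟨hw, hw'⟩
      obtain ⟨h1, h1m, h1f, h1e⟩ := hC.trans30 z hz hz'
      obtain ⟨h2, h2m, h2f, h2e⟩ := hC.trans30 w hw hw'
      have m1 : h1 ∈ A1 P a₀ y₀ := ⟨h1m, h1f⟩
      have m2 : h2 ∈ A1 P a₀ y₀ := ⟨h2m, h2f⟩
      refine ⟨⟨h2 * h1⁻¹, (A1 P a₀ y₀).mul_mem m2 ((A1 P a₀ y₀).inv_mem m1)⟩, ?_⟩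
      show (h2 * h1⁻¹) z = w
      rw [Equiv.Perm.mul_apply, ← h1e, invApp, h2e]
  have h := card_eq_orbit_mul_inf (A1 P a₀ y₀) z
  rw [e, Set.ncard_coe_finset, hC.c30, card_A1 hC hC.y₀B] at h
  omega

theorem card_D81 {z : Fin 275} (hz : ad a₀ z) (hne : z ≠ y₀) (hz' : ¬ ad y₀ z) :
    Nat.card ↥(A1 P a₀ y₀ ⊓ stabilizer Pm z) = 360 := by
  have e : orbit (A1 P a₀ y₀) z = ((univ.filter (fun z => ad a₀ z ∧ z ≠ y₀ ∧ ¬ ad y₀ z) : Finset (Fin 275)) : Set (Fin 275)) := by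
    ext w
    simp only [coe_filter, mem_univ, true_and, Set.mem_ofPred_eq]
    constructor
    · rintro ⟨g, rfl⟩
      refine ⟨A0_B hC g.2.1 hz, ?_, fun h3 => hz' ((A1_inv hC g.2).1 h3)⟩
      intro h3
      apply hne
      have hg : (g : Pm) y₀ = y₀ := g.2.2
      exact (g : Pm).injective (h3.trans hg.symm)
    · rintro ⟨hw, hwne, hw'⟩
      obtain ⟨h1, h1m, h1f, h1e⟩ := hC.trans81 z hz hne hz'
      obtain ⟨h2, h2m, h2f, h2e⟩ := hC.trans81 w hw hwne hw'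
      have m1 : h1 ∈ A1 P a₀ y₀ := ⟨h1m, h1f⟩
      have m2 : h2 ∈ A1 P a₀ y₀ := ⟨h2m, h2f⟩
      refine ⟨⟨h2 * h1⁻¹, (A1 P a₀ y₀).mul_mem m2 ((A1 P a₀ y₀).inv_mem m1)⟩, ?_⟩
      show (h2 * h1⁻¹) z = w
      rw [Equiv.Perm.mul_apply, ← h1e, invApp, h2e]
  have h := card_eq_orbit_mul_inf (A1 P a₀ y₀) z
  rw [e, Set.ncard_coe_finset, hC.c81, card_A1 hC hC.y₀B] at h
  omega

/-- A subgroup of order `29160` whose subgroup of order `729` fixes the line fixes the line. -/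
theorem fix_of_T (H T : Subgroup Pm) (hH : H ≤ A0 P a₀) (cH : Nat.card H = 29160) (hT : T ≤ H)
    (cT : Nat.card T = 729) (fT : ∀ g ∈ T, g y₀ = y₀) : ∀ g ∈ H, g y₀ = y₀ := by
  classical
  have hTA1 : T ≤ A1 P a₀ y₀ := fun g hg => ⟨hH (hT hg), fT g hg⟩
  set O := orbit H y₀ with hO
  have hOB : ∀ z ∈ O, ad a₀ z := by
    rintro z ⟨g, rfl⟩
    exact A0_B hC (hH g.2) hC.y₀B
  have c1 := card_eq_orbit_mul_inf H y₀
  rw [cH] at c1
  have hOd : O.ncard ∣ 29160 := ⟨_, c1⟩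
  -- no other fixed point of `T`
  have hnofix : ∀ z, ad a₀ z → z ≠ y₀ → ¬ ∀ g ∈ T, g z = z := by
    intro z hz hne hfix
    have hle : T ≤ A1 P a₀ y₀ ⊓ stabilizer Pm z := le_inf hTA1 (fun g hg => hfix g hg)
    have hd := Subgroup.card_dvd_of_le hle
    rw [cT] at hd
    by_cases hz' : ad y₀ z
    · rw [card_D30 hC hz hz'] at hd
      omega
    · rw [card_D81 hC hz hne hz'] at hd
      omega
  -- the orbit size modulo 3
  haveI : Fact (Nat.Prime 3) := ⟨by norm_num⟩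
  have hTp : IsPGroup 3 ↥(T.subgroupOf H) := by
    apply IsPGroup.of_card (n := 6)
    rw [Nat.card_congr (Subgroup.subgroupOfEquivOfLe hT).toEquiv, cT]
    norm_num
  have hm := hTp.card_modEq_card_fixedPoints ↥O
  have hfix : Nat.card (fixedPoints ↥(T.subgroupOf H) ↥O) = 1 := by
    have hy₀O : y₀ ∈ O := mem_orbit_self y₀
    rw [Nat.card_eq_one_iff_unique]
    refine ⟨⟨?_⟩, ⟨⟨⟨y₀, hy₀O⟩, ?_⟩⟩⟩
    · rintro ⟨⟨z₁', hz₁⟩, h1⟩ ⟨⟨z₂', hz₂⟩, h2⟩
      have key : ∀ z (hz : z ∈ O), (⟨z, hz⟩ : ↥O) ∈ fixedPoints ↥(T.subgroupOf H) ↥O → z = y₀ := by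
        intro z hz h3
        by_contra hne
        apply hnofix z (hOB z hz) hne
        intro g hg
        have h4 := h3 ⟨⟨g, hT hg⟩, by simpa [Subgroup.mem_subgroupOf] using hg⟩
        exact congrArg Subtype.val h4
      have e1 := key z₁' hz₁ h1
      have e2 := key z₂' hz₂ h2
      apply Subtype.ext
      apply Subtype.ext
      exact e1.trans e2.symm
    · rintro ⟨⟨g, hg⟩, hg'⟩
      apply Subtype.ext
      exact fT g (by simpa [Subgroup.mem_subgroupOf] using hg')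
  rw [hfix, Nat.card_coe_set_eq] at hm
  have hm3 : O.ncard % 3 = 1 := hm
  have hO112 : O.ncard ≤ 112 := by
    rw [← hC.cardBs, ← Set.ncard_coe_finset]
    apply Set.ncard_le_ncard _ (Finset.finite_toSet _)
    intro z hz
    simpa using hOB z hz
  have hnum := num_O (⟨O.ncard, by omega⟩ : Fin 113) hOd hm3
  simp only at hnum
  -- points of the orbit are adjacent to the base point
  have hadj : ∀ z ∈ O, z ≠ y₀ → ad y₀ z := by
    intro z hz hne
    by_contra hna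
    have c2 := card_eq_orbit_mul_inf T z
    rw [cT] at c2
    have hle : T ⊓ stabilizer Pm z ≤ A1 P a₀ y₀ ⊓ stabilizer Pm z := inf_le_inf_right _ hTA1
    have hd1 := Subgroup.card_dvd_of_le hle
    rw [card_D81 hC (hOB z hz) hne hna] at hd1
    have hd2 : Nat.card ↥(T ⊓ stabilizer Pm z) ∣ 729 := ⟨_, by rw [c2]; ring⟩
    have hd3 : Nat.card ↥(T ⊓ stabilizer Pm z) ∣ 9 := by
      have := Nat.dvd_gcd hd1 hd2
      simpa using this
    have hle9 := Nat.le_of_dvd (by norm_num) hd3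
    have ho : 81 ≤ (orbit T z).ncard := by
      by_contra hlt
      have h1 : (orbit T z).ncard ≤ 80 := by omega
      have := Nat.mul_le_mul h1 hle9
      omega
    have hsub : insert y₀ (orbit T z) ⊆ O := by
      intro w hw
      rcases hw with rfl | ⟨g, rfl⟩
      · exact mem_orbit_self _
      · obtain ⟨u, hu⟩ := hz
        refine ⟨⟨g.1, hT g.2⟩ * u, ?_⟩
        show (g.1 * u.1) y₀ = g.1 z
        rw [Equiv.Perm.mul_apply]
        exact congrArg g.1 hu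
    have hnotin : y₀ ∉ orbit T z := by
      rintro ⟨g, hg⟩
      apply hne
      have h1 : g.1 z = y₀ := hg
      have h2 : g.1 y₀ = y₀ := fT g.1 g.2
      exact g.1.injective (h1.trans h2.symm)
    have hfin : (orbit T z).Finite := Set.toFinite _
    have h3 := Set.ncard_le_ncard hsub (Set.toFinite _)
    rw [Set.ncard_insert_of_notMem hnotin hfin] at h3
    omega
  -- the orbit is a clique
  have hcliq : ∀ z ∈ O, ∀ w ∈ O, z ≠ w → ad z w := by
    rintro z ⟨u, rfl⟩ w hw hne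
    have hu : (u : Pm) ∈ P := (hH u.2).1
    have h1 : (u : Pm)⁻¹ w ∈ O := by
      obtain ⟨v, rfl⟩ := hw
      refine ⟨u⁻¹ * v, ?_⟩
      rfl
    have h2 : (u : Pm)⁻¹ w ≠ y₀ := by
      intro e
      apply hne
      show (u : Pm) y₀ = w
      rw [← e, appInv]
    have h3 := hadj _ h1 h2
    have h4 := (hC.ad_inv (u : Pm) hu y₀ ((u : Pm)⁻¹ w)).2 h3
    rwa [appInv] at h4
  by_cases hone : O.ncard = 1
  · obtain ⟨w, hw⟩ := Set.ncard_eq_one.1 hone
    have hy : y₀ ∈ O := mem_orbit_self y₀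
    rw [hw, Set.mem_singleton_iff] at hy
    intro g hg
    have h1 : g y₀ ∈ O := ⟨⟨g, hg⟩, rfl⟩
    rw [hw, Set.mem_singleton_iff] at h1
    rw [h1, hy]
  · exfalso
    obtain ⟨z, hz, hne⟩ : ∃ z ∈ O, z ≠ y₀ := by
      by_contra hcon
      push Not at hcon
      apply hone
      rw [Set.ncard_eq_one]
      refine ⟨y₀, ?_⟩
      ext w
      constructor
      · intro hw
        exact hcon w hw
      · rintro rfl
        exact mem_orbit_self _
    have hyz : ad y₀ z := hadj z hz hne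
    -- at most four points
    have hle4 : O.ncard ≤ 4 := by
      have hsub : O ⊆ insert y₀ (insert z ((univ.filter (fun x => ad a₀ x ∧ ad y₀ x ∧ ad z x) : Finset (Fin 275)) : Set (Fin 275))) := by
        intro w hw
        by_cases h1 : w = y₀
        · left
          exact h1
        · by_cases h2 : w = z
          · right
            left
            exact h2
          · right
            right
            simp only [coe_filter, mem_univ, true_and, Set.mem_ofPred_eq]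
            exact ⟨hOB w hw, hcliq y₀ (mem_orbit_self _) w hw (Ne.symm h1), hcliq z hz w hw (Ne.symm h2)⟩
      have h3 := Set.ncard_le_ncard hsub (Set.toFinite _)
      have h4 := Set.ncard_insert_le y₀ (insert z ((univ.filter (fun x => ad a₀ x ∧ ad y₀ x ∧ ad z x) : Finset (Fin 275)) : Set (Fin 275)))
      have h5 := Set.ncard_insert_le z ((univ.filter (fun x => ad a₀ x ∧ ad y₀ x ∧ ad z x) : Finset (Fin 275)) : Set (Fin 275))
      rw [Set.ncard_coe_finset, hC.cliqB y₀ z hC.y₀B (hOB z hz) hyz] at h5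
      omega
    have h4 : O.ncard = 4 := by omega
    rw [h4] at c1
    have cH1 : Nat.card ↥(H ⊓ stabilizer Pm y₀) = 7290 := by omega
    have c3 := card_eq_orbit_mul_inf (H ⊓ stabilizer Pm y₀) z
    rw [cH1] at c3
    have hsub : insert y₀ (orbit ↥(H ⊓ stabilizer Pm y₀) z) ⊆ O := by
      intro w hw
      rcases hw with rfl | ⟨g, rfl⟩
      · exact mem_orbit_self _
      · obtain ⟨u, hu⟩ := hz
        refine ⟨⟨g.1, g.2.1⟩ * u, ?_⟩
        show (g.1 * u.1) y₀ = g.1 z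
        rw [Equiv.Perm.mul_apply]
        exact congrArg g.1 hu
    have hnotin : y₀ ∉ orbit ↥(H ⊓ stabilizer Pm y₀) z := by
      rintro ⟨g, hg⟩
      apply hne
      have h1 : g.1 z = y₀ := hg
      have h2 : g.1 y₀ = y₀ := g.2.2
      exact g.1.injective (h1.trans h2.symm)
    have h5 := Set.ncard_le_ncard hsub (Set.toFinite _)
    rw [Set.ncard_insert_of_notMem hnotin (Set.toFinite _), h4] at h5
    have hle : (H ⊓ stabilizer Pm y₀) ⊓ stabilizer Pm z ≤ A1 P a₀ y₀ ⊓ stabilizer Pm z :=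
      inf_le_inf_right _ (inf_le_inf_right _ hH)
    have h6 := Subgroup.card_le_of_le hle
    rw [card_D30 hC (hOB z hz) hyz] at h6
    have h7 : (orbit ↥(H ⊓ stabilizer Pm y₀) z).ncard ≤ 3 := by omega
    have := Nat.mul_le_mul h7 h6
    omega

/-- Subgroups of order `29160` are line stabilisers. -/
theorem exists_line (H : Subgroup Pm) (hH : H ≤ A0 P a₀) (cH : Nat.card H = 29160) :
    ∃ y, ad a₀ y ∧ ∀ g ∈ A0 P a₀, g ∈ H ↔ g y = y := by
  classical
  haveI : Fact (Nat.Prime 3) := ⟨by norm_num⟩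
  obtain ⟨K, hK⟩ := Sylow.exists_subgroup_card_pow_prime (G := H) 3 (n := 6) (by rw [cH]; norm_num)
  set T : Subgroup Pm := K.map H.subtype with hTdef
  have cT : Nat.card T = 729 := by
    rw [hTdef, Subgroup.card_map_of_injective H.subtype_injective, hK]
    norm_num
  have hT : T ≤ H := by
    rintro _ ⟨k, _, rfl⟩
    exact k.2
  -- a fixed line
  let Sa : SubMulAction ↥T (Fin 275) :=
    { carrier := {x | ad a₀ x}
      smul_mem' := by
        intro c x hx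
        exact A0_B hC (hH (hT c.2)) hx }
  have hTp : IsPGroup 3 ↥T := by
    apply IsPGroup.of_card (n := 6)
    rw [cT]
    norm_num
  have hm := hTp.card_modEq_card_fixedPoints ↥Sa
  have cSa : Nat.card ↥Sa = 112 := by
    rw [← hC.cardBs, ← Fintype.card_subtype, Nat.card_eq_fintype_card]
    exact Fintype.card_congr (Equiv.refl _)
  rw [cSa] at hm
  have hne : Nat.card (fixedPoints ↥T ↥Sa) ≠ 0 := by
    intro h0
    rw [h0] at hm
    have : 112 % 3 = 0 % 3 := hm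
    omega
  haveI : Finite (fixedPoints ↥T ↥Sa) := Set.toFinite _
  have hpos : 0 < Nat.card (fixedPoints ↥T ↥Sa) := Nat.pos_of_ne_zero hne
  obtain ⟨⟨⟨y, hy⟩, hyf⟩⟩ := (Nat.card_pos_iff.1 hpos).1
  have hyB : ad a₀ y := hy
  have hyT : ∀ g ∈ T, g y = y := by
    intro g hg
    have := hyf ⟨g, hg⟩
    exact congrArg Subtype.val this
  obtain ⟨h, hhm, hhe⟩ := hC.transB y hyB
  -- conjugate by `h`
  let φ : Pm →* Pm := (MulAut.conj h⁻¹).toMonoidHom
  have hφ : Function.Injective φ := (MulAut.conj h⁻¹).injective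
  have hφa : ∀ g, φ g = h⁻¹ * g * h := by
    intro g
    simp [φ, MulAut.conj_apply]
  have hH2 : H.map φ ≤ A0 P a₀ := by
    rintro _ ⟨g, hg, rfl⟩
    rw [hφa]
    exact (A0 P a₀).mul_mem ((A0 P a₀).mul_mem ((A0 P a₀).inv_mem hhm) (hH hg)) hhm
  have hfix := fix_of_T hC (H.map φ) (T.map φ) hH2 (by rw [Subgroup.card_map_of_injective hφ, cH])
    (Subgroup.map_mono hT) (by rw [Subgroup.card_map_of_injective hφ, cT]) (by
      rintro _ ⟨g, hg, rfl⟩
      rw [hφa]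
      show h⁻¹ (g (h y₀)) = y₀
      rw [hhe, hyT g hg, ← hhe, invApp])
  have hle : H ≤ A0 P a₀ ⊓ stabilizer Pm y := by
    intro g hg
    refine ⟨hH hg, ?_⟩
    have h1 := hfix (φ g) ⟨g, hg, rfl⟩
    rw [hφa] at h1
    have h2 : h⁻¹ (g (h y₀)) = y₀ := h1
    rw [hhe] at h2
    show g y = y
    have h3 := congrArg h h2
    rwa [appInv, hhe] at h3
  have heq : H = A0 P a₀ ⊓ stabilizer Pm y :=
    Subgroup.eq_of_le_of_card_ge hle (by rw [card_A1 hC hyB, cH])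
  refine ⟨y, hyB, fun g hg => ?_⟩
  rw [heq]
  exact ⟨fun h1 => h1.2, fun h1 => ⟨hg, h1⟩⟩

end L1

end

end Cfsg.Agent.Lib.McLRk3B
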