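import Mathlib
import Cfsg.Agent.Lib.McLRk3B

set_option autoImplicit false
set_option linter.unusedSectionVars false
set_option linter.unusedVariables false
set_option linter.style.haveILetI false
set_option linter.unusedSimpArgs false

/-!
# Recognition of the rank three graph on 275 points: the lines
-/

namespace Cfsg.Agent.Lib.McLRk3C

open MulAction Finset Cfsg.Agent.Lib.McLRk3A Cfsg.Agent.Lib.McLRk3B

/-- Two elements of prime order whose square does not divide the group order are conjugate up to a power. -/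
theorem exists_conj_zpow {X : Type*} [Group X] [Finite X] (p : ℕ) [hp : Fact p.Prime] (hd : ¬ p ^ 2 ∣ Nat.card X)
    {u v : X} (hu : orderOf u = p) (hv : orderOf v = p) : ∃ y : X, ∃ k : ℤ, v = y * u ^ k * y⁻¹ := by
  have key : ∀ w : X, orderOf w = p → ∀ Q : Sylow p X, Subgroup.zpowers w ≤ (Q : Subgroup X) →
      (Q : Subgroup X) = Subgroup.zpowers w := by
    intro w hw Q hQ
    symm
    apply Subgroup.eq_of_le_of_card_ge hQ
    rw [Nat.card_zpowers, hw]
    obtain ⟨n, hn⟩ := IsPGroup.iff_card.1 Q.isPGroup'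
    rw [hn]
    have h1 : p ^ n ∣ Nat.card X := by
      rw [← hn]
      exact Subgroup.card_subgroup_dvd_card _
    have h2 : n ≤ 1 := by
      by_contra hlt
      apply hd
      exact (pow_dvd_pow p (by omega : 2 ≤ n)).trans h1
    calc p ^ n ≤ p ^ 1 := Nat.pow_le_pow_right hp.out.pos h2
      _ = p := pow_one p
  have hP : ∀ w : X, orderOf w = p → IsPGroup p (Subgroup.zpowers w) := by
    intro w hw
    apply IsPGroup.of_card (n := 1)
    rw [Nat.card_zpowers, hw, pow_one]
  obtain ⟨Q₁, hQ₁⟩ := (hP u hu).exists_le_sylow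
  obtain ⟨Q₂, hQ₂⟩ := (hP v hv).exists_le_sylow
  obtain ⟨y, hy⟩ := MulAction.exists_smul_eq X Q₁ Q₂
  have e1 := key u hu Q₁ hQ₁
  have hvm : v ∈ (Q₂ : Subgroup X) := hQ₂ (Subgroup.mem_zpowers v)
  rw [← hy, Sylow.coe_subgroup_smul] at hvm
  rw [Subgroup.mem_smul_pointwise_iff_exists] at hvm
  obtain ⟨s, hs, e2⟩ := hvm
  rw [e1] at hs
  obtain ⟨k, rfl⟩ := Subgroup.mem_zpowers_iff.1 hs
  refine ⟨y, k, ?_⟩
  rw [← e2]
  rfl

section

variable {P : Subgroup Pm} {ad : Fin 275 → Fin 275 → Prop} [DecidableRel ad] {a₀ y₀ z₁ z₂ : Fin 275} {t : Pm}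
  {KK : List (Finset (Fin 275))} {L : Fin 4 → Fin 162 → Finset (Fin 275)} {σ : Fin 4 → Pm}
  {π : Fin 4 → Fin 162 → Fin 275}

variable {Ω : Type*} [Fintype Ω] [DecidableEq Ω] {G : Subgroup (Equiv.Perm Ω)} {a b c : Ω}

/-- The action on the concrete points. -/
def Ea (E : stabilizer G a ≃* A0 P a₀) (x : stabilizer G a) : Pm := ((E x : A0 P a₀) : Pm)

theorem Ea_mem (E : stabilizer G a ≃* A0 P a₀) (x : stabilizer G a) : Ea E x ∈ A0 P a₀ := (E x).2

theorem Ea_mul (E : stabilizer G a ≃* A0 P a₀) (x y : stabilizer G a) : Ea E (x * y) = Ea E x * Ea E y := by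
  unfold Ea
  rw [map_mul]
  rfl

theorem Ea_inv (E : stabilizer G a ≃* A0 P a₀) (x : stabilizer G a) : Ea E x⁻¹ = (Ea E x)⁻¹ := by
  unfold Ea
  rw [map_inv]
  rfl

theorem Ea_inj (E : stabilizer G a ≃* A0 P a₀) {x y : stabilizer G a} (h : Ea E x = Ea E y) : x = y :=
  E.injective (Subtype.ext h)

theorem Ea_surj (E : stabilizer G a ≃* A0 P a₀) {g : Pm} (hg : g ∈ A0 P a₀) : ∃ x, Ea E x = g :=
  ⟨E.symm ⟨g, hg⟩, by simp [Ea]⟩

/-- An equivariant parametrisation of the lines. -/
structure PhiData (E : stabilizer G a ≃* A0 P a₀) (b : Ω) (ad : Fin 275 → Fin 275 → Prop) (a₀ : Fin 275)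
    (φ : Ω → Fin 275) : Prop where
  equiv : ∀ x : stabilizer G a, ∀ z ∈ orbit (stabilizer G a) b, φ (x • z) = Ea E x (φ z)
  mem : ∀ z ∈ orbit (stabilizer G a) b, ad a₀ (φ z)
  inj : ∀ z ∈ orbit (stabilizer G a) b, ∀ z' ∈ orbit (stabilizer G a) b, φ z = φ z' → z = z'
  surj : ∀ y, ad a₀ y → ∃ z ∈ orbit (stabilizer G a) b, φ z = y

variable (hC : Conc P ad a₀ y₀ z₁ z₂ t KK L σ π) (h : R3 G a b c) (E : stabilizer G a ≃* A0 P a₀)
include hC h E

theorem card_A : Nat.card (stabilizer G a) = 3265920 := by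
  rw [Nat.card_congr E.toEquiv, hC.cardA]

theorem card_stab_orbit (x : Ω) :
    Nat.card (stabilizer (stabilizer G a) x) * (orbit (stabilizer G a) x).ncard = 3265920 := by
  have h1 := Subgroup.card_mul_index (stabilizer (stabilizer G a) x)
  rw [index_stabilizer, card_A hC h E] at h1
  exact h1

theorem exists_phi : ∃ φ, PhiData E b ad a₀ φ := by
  classical
  -- the subgroup
  let ψ : stabilizer G a →* Pm :=
    { toFun := Ea E
      map_one' := by simp [Ea]
      map_mul' := Ea_mul E }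
  have hψ : Function.Injective ψ := fun x y hxy => Ea_inj E hxy
  set H : Subgroup Pm := (stabilizer (stabilizer G a) b).map ψ with hH
  have cH : Nat.card H = 29160 := by
    rw [hH, Subgroup.card_map_of_injective hψ]
    have := card_stab_orbit hC h E b
    rw [h.hb] at this
    omega
  have hHle : H ≤ A0 P a₀ := by
    rintro _ ⟨x, _, rfl⟩
    exact Ea_mem E x
  obtain ⟨y₁, hy₁, hy₁H⟩ := exists_line hC H hHle cH
  have key : ∀ x : stabilizer G a, Ea E x y₁ = y₁ ↔ x • b = b := by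
    intro x
    rw [← hy₁H _ (Ea_mem E x)]
    constructor
    · rintro ⟨x', hx', e⟩
      have : x' = x := Ea_inj E e
      rw [← this]
      exact hx'
    · intro hx
      exact ⟨x, hx, rfl⟩
  -- the map
  let φ : Ω → Fin 275 := fun z =>
    if hz : z ∈ orbit (stabilizer G a) b then Ea E (Classical.choose hz) y₁ else y₁
  have hφ : ∀ x : stabilizer G a, φ (x • b) = Ea E x y₁ := by
    intro x
    have hz : x • b ∈ orbit (stabilizer G a) b := ⟨x, rfl⟩
    simp only [φ, dif_pos hz]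
    have hc : Classical.choose hz • b = x • b := Classical.choose_spec hz
    have h1 : (x⁻¹ * Classical.choose hz) • b = b := by
      rw [mul_smul, hc, inv_smul_smul]
    have h2 := (key _).2 h1
    rw [Ea_mul, Ea_inv, Equiv.Perm.mul_apply] at h2
    have h3 := congrArg (Ea E x) h2
    rwa [appInv] at h3
  refine ⟨φ, ?_, ?_, ?_, ?_⟩
  · rintro x z ⟨m, rfl⟩
    have e : x • (fun m : stabilizer G a => m • b) m = (x * m) • b := by
      show x • m • b = _
      rw [mul_smul]
    simp only [] at *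
    rw [e, hφ]
    show _ = Ea E x (φ (m • b))
    rw [hφ, Ea_mul, Equiv.Perm.mul_apply]
  · rintro z ⟨m, rfl⟩
    show ad a₀ (φ (m • b))
    rw [hφ]
    exact A0_B hC (Ea_mem E m) hy₁
  · rintro z ⟨m, rfl⟩ z' ⟨m', rfl⟩ e
    have e' : Ea E m y₁ = Ea E m' y₁ := by
      have h1 : φ (m • b) = φ (m' • b) := e
      rwa [hφ, hφ] at h1
    have h2 : Ea E (m⁻¹ * m') y₁ = y₁ := by
      rw [Ea_mul, Ea_inv, Equiv.Perm.mul_apply, ← e', invApp]
    have h3 := (key _).1 h2
    rw [mul_smul] at h3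
    have h4 := congrArg (fun w => m • w) h3
    simp only [smul_inv_smul] at h4
    exact h4.symm
  · intro y hy
    have hinj : Set.InjOn φ (↑(univ.filter (fun z => z ∈ orbit (stabilizer G a) b)) : Set Ω) := by
      intro z hz z' hz' e
      simp only [coe_filter, mem_univ, true_and, Set.mem_ofPred_eq] at hz hz'
      obtain ⟨m, rfl⟩ := hz
      obtain ⟨m', rfl⟩ := hz'
      have e' : Ea E m y₁ = Ea E m' y₁ := by
        have h1 : φ (m • b) = φ (m' • b) := e
        rwa [hφ, hφ] at h1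
      have h2 : Ea E (m⁻¹ * m') y₁ = y₁ := by
        rw [Ea_mul, Ea_inv, Equiv.Perm.mul_apply, ← e', invApp]
      have h3 := (key _).1 h2
      rw [mul_smul] at h3
      have h4 := congrArg (fun w => m • w) h3
      simp only [smul_inv_smul] at h4
      exact h4.symm
    have hsub : (univ.filter (fun z => z ∈ orbit (stabilizer G a) b)).image φ ⊆ univ.filter (fun x => ad a₀ x) := by
      intro w hw
      obtain ⟨z, hz, rfl⟩ := mem_image.1 hw
      simp only [mem_filter, mem_univ, true_and] at hz ⊢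
      obtain ⟨m, rfl⟩ := hz
      show ad a₀ (φ (m • b))
      rw [hφ]
      exact A0_B hC (Ea_mem E m) hy₁
    have hcard : ((univ.filter (fun z => z ∈ orbit (stabilizer G a) b)).image φ).card = 112 := by
      rw [card_image_of_injOn hinj, card_filter_orbit, h.hb]
    have heq := eq_of_subset_of_card_le hsub (by rw [hcard, hC.cardBs])
    have hy' : y ∈ (univ.filter (fun z => z ∈ orbit (stabilizer G a) b)).image φ := by
      rw [heq]
      simpa using hy
    obtain ⟨z, hz, rfl⟩ := mem_image.1 hy'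
    exact ⟨z, by simpa using hz, rfl⟩

theorem lines_adj {φ : Ω → Fin 275} (hφ : PhiData E b ad a₀ φ) :
    lam G a b a b = 30 ∧ lam G a b a c = 56 ∧
      ∀ z ∈ orbit (stabilizer G a) b, ∀ z' ∈ orbit (stabilizer G a) b, (Gam G a b z z' ↔ ad (φ z) (φ z')) := by
  classical
  obtain ⟨b₁, hb₁, e₁⟩ := hφ.surj y₀ hC.y₀B
  set Bf : Finset Ω := univ.filter (fun z => z ∈ orbit (stabilizer G a) b) with hBf
  set Λ : Finset (Fin 275) := (Bf.filter (fun z => Gam G a b b₁ z)).image φ with hΛ
  have cΛ : Λ.card = lam G a b a b := by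
    rw [← lam_b h ((Gam_a b₁).2 hb₁), hΛ, card_image_of_injOn]
    · unfold lam
      congr 1
      ext z
      simp only [hBf, mem_filter, mem_univ, true_and, Gam_a]
    · intro z hz z' hz' e
      simp only [hBf, coe_filter, mem_filter, mem_univ, true_and, Set.mem_ofPred_eq] at hz hz'
      exact hφ.inj z hz.1 z' hz'.1 e
  have hcl : ∀ g ∈ A0 P a₀, g y₀ = y₀ → ∀ w ∈ Λ, g w ∈ Λ := by
    intro g hg hgy w hw
    obtain ⟨z, hz, rfl⟩ := mem_image.1 hw
    simp only [hBf, mem_filter, mem_univ, true_and] at hz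
    obtain ⟨x, hx⟩ := Ea_surj E hg
    have hxb : x • b₁ ∈ orbit (stabilizer G a) b := orbit_stable x.2 hb₁
    have e2 : x • b₁ = b₁ := by
      apply hφ.inj _ hxb _ hb₁
      rw [hφ.equiv x b₁ hb₁, hx, e₁, hgy]
    have e3 : Gam G a b b₁ (x • z) := by
      have h1 := (Gam_smul (x : G) b₁ z).2 hz.2
      have e4 : (x : G) • b₁ = b₁ := e2
      rw [e4] at h1
      exact h1
    apply mem_image.2
    refine ⟨x • z, ?_, ?_⟩
    · simp only [hBf, mem_filter, mem_univ, true_and]
      exact ⟨orbit_stable x.2 hz.1, e3⟩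
    · rw [hφ.equiv x z hz.1, hx]
  have hsubΛ : ∀ w ∈ Λ, ad a₀ w ∧ w ≠ y₀ := by
    intro w hw
    obtain ⟨z, hz, rfl⟩ := mem_image.1 hw
    simp only [hBf, mem_filter, mem_univ, true_and] at hz
    refine ⟨hφ.mem z hz.1, ?_⟩
    intro e
    have : z = b₁ := hφ.inj z hz.1 b₁ hb₁ (e.trans e₁.symm)
    rw [this] at hz
    exact Gam_irrefl h b₁ hz.2
  set X : Finset (Fin 275) := univ.filter (fun z => ad a₀ z ∧ ad y₀ z) with hX
  set Y : Finset (Fin 275) := univ.filter (fun z => ad a₀ z ∧ z ≠ y₀ ∧ ¬ ad y₀ z) with hY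
  have hXcl : ∀ w ∈ Λ, w ∈ X → X ⊆ Λ := by
    intro w hw hwX w' hw'
    simp only [hX, mem_filter, mem_univ, true_and] at hwX hw'
    obtain ⟨h1, h1m, h1f, h1e⟩ := hC.trans30 w hwX.1 hwX.2
    obtain ⟨h2, h2m, h2f, h2e⟩ := hC.trans30 w' hw'.1 hw'.2
    have := hcl (h2 * h1⁻¹) ((A0 P a₀).mul_mem h2m ((A0 P a₀).inv_mem h1m))
      (by
        show h2 (h1⁻¹ y₀) = y₀
        have : h1⁻¹ y₀ = y₀ := by
          have h3 := invApp h1 y₀
          rwa [h1f] at h3
        rw [this, h2f]) w hw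
    have e : (h2 * h1⁻¹) w = w' := by
      show h2 (h1⁻¹ w) = w'
      rw [← h1e, invApp, h2e]
    rwa [e] at this
  have hYcl : ∀ w ∈ Λ, w ∈ Y → Y ⊆ Λ := by
    intro w hw hwY w' hw'
    simp only [hY, mem_filter, mem_univ, true_and] at hwY hw'
    obtain ⟨h1, h1m, h1f, h1e⟩ := hC.trans81 w hwY.1 hwY.2.1 hwY.2.2
    obtain ⟨h2, h2m, h2f, h2e⟩ := hC.trans81 w' hw'.1 hw'.2.1 hw'.2.2
    have := hcl (h2 * h1⁻¹) ((A0 P a₀).mul_mem h2m ((A0 P a₀).inv_mem h1m))
      (by
        show h2 (h1⁻¹ y₀) = y₀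
        have : h1⁻¹ y₀ = y₀ := by
          have h3 := invApp h1 y₀
          rwa [h1f] at h3
        rw [this, h2f]) w hw
    have e : (h2 * h1⁻¹) w = w' := by
      show h2 (h1⁻¹ w) = w'
      rw [← h1e, invApp, h2e]
    rwa [e] at this
  have hcover : ∀ w ∈ Λ, w ∈ X ∨ w ∈ Y := by
    intro w hw
    obtain ⟨h1, h2⟩ := hsubΛ w hw
    by_cases h3 : ad y₀ w
    · left
      simp only [hX, mem_filter, mem_univ, true_and]
      exact ⟨h1, h3⟩
    · right
      simp only [hY, mem_filter, mem_univ, true_and]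
      exact ⟨h1, h2, h3⟩
  have hdXY : Disjoint X Y := by
    rw [Finset.disjoint_left]
    intro w h1 h2
    simp only [hX, hY, mem_filter, mem_univ, true_and] at h1 h2
    exact h2.2.2 h1.2
  have cX : X.card = 30 := hC.c30
  have cY : Y.card = 81 := hC.c81
  have hedge := edge_count h
  have hΛX : Λ = X := by
    by_cases h1 : ∃ w ∈ Λ, w ∈ X
    · obtain ⟨w, hw, hwX⟩ := h1
      have hXsub := hXcl w hw hwX
      by_cases h2 : ∃ w ∈ Λ, w ∈ Y
      · exfalso
        obtain ⟨w', hw', hwY⟩ := h2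
        have hYsub := hYcl w' hw' hwY
        have hΛeq : Λ = X ∪ Y := by
          apply Subset.antisymm
          · intro u hu
            rcases hcover u hu with h3 | h3
            · exact mem_union_left _ h3
            · exact mem_union_right _ h3
          · exact union_subset hXsub hYsub
        have h3 : lam G a b a b = 111 := by
          rw [← cΛ, hΛeq, card_union_of_disjoint hdXY, cX, cY]
        exact mu_ne_zero h h3
      · push Not at h2
        apply Subset.antisymm _ hXsub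
        intro u hu
        rcases hcover u hu with h3 | h3
        · exact h3
        · exact absurd h3 (h2 u hu)
    · exfalso
      push Not at h1
      by_cases h2 : ∃ w ∈ Λ, w ∈ Y
      · obtain ⟨w', hw', hwY⟩ := h2
        have hYsub := hYcl w' hw' hwY
        have hΛeq : Λ = Y := by
          apply Subset.antisymm _ hYsub
          intro u hu
          rcases hcover u hu with h3 | h3
          · exact absurd h3 (h1 u hu)
          · exact h3
        have h3 : lam G a b a b = 81 := by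
          rw [← cΛ, hΛeq, cY]
        rw [h3] at hedge
        omega
      · push Not at h2
        have hΛeq : Λ = ∅ := by
          apply eq_empty_of_forall_notMem
          intro u hu
          rcases hcover u hu with h3 | h3
          · exact h1 u hu h3
          · exact h2 u hu h3
        have h3 : lam G a b a b = 0 := by
          rw [← cΛ, hΛeq, card_empty]
        rw [h3] at hedge
        omega
  have hl : lam G a b a b = 30 := by
    rw [← cΛ, hΛX, cX]
  have hm : lam G a b a c = 56 := by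
    rw [hl] at hedge
    omega
  refine ⟨hl, hm, ?_⟩
  have hb1 : ∀ z ∈ orbit (stabilizer G a) b, (Gam G a b b₁ z ↔ ad y₀ (φ z)) := by
    intro z hz
    constructor
    · intro h1
      have : φ z ∈ Λ := mem_image.2 ⟨z, by
        simp only [hBf, mem_filter, mem_univ, true_and]
        exact ⟨hz, h1⟩, rfl⟩
      rw [hΛX] at this
      simp only [hX, mem_filter, mem_univ, true_and] at this
      exact this.2
    · intro h1
      have : φ z ∈ Λ := by
        rw [hΛX]
        simp only [hX, mem_filter, mem_univ, true_and]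
        exact ⟨hφ.mem z hz, h1⟩
      obtain ⟨z', hz', e⟩ := mem_image.1 this
      simp only [hBf, mem_filter, mem_univ, true_and] at hz'
      have := hφ.inj z' hz'.1 z hz e
      rw [← this]
      exact hz'.2
  intro z hz z' hz'
  have hzb : z ∈ orbit (stabilizer G a) b₁ := by
    rw [orbit_eq_iff.2 hb₁]
    exact hz
  obtain ⟨x, hx⟩ := hzb
  have hx' : x • b₁ = z := hx
  have h1 := Gam_smul (G := G) (a := a) (b := b) (x : G) b₁ ((x : G)⁻¹ • z')
  rw [smul_inv_smul] at h1
  have e4 : (x : G) • b₁ = z := hx'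
  rw [e4] at h1
  rw [h1]
  have hm' : (x : G)⁻¹ • z' ∈ orbit (stabilizer G a) b := orbit_stable (Subgroup.inv_mem _ x.2) hz'
  rw [hb1 _ hm']
  have e5 : φ ((x : G)⁻¹ • z') = (Ea E x)⁻¹ (φ z') := by
    have := hφ.equiv x⁻¹ z' hz'
    rw [Ea_inv] at this
    exact this
  rw [e5]
  have h2 := hC.ad_inv (Ea E x) (Ea_mem E x).1 y₀ ((Ea E x)⁻¹ (φ z'))
  rw [appInv] at h2
  have e6 : Ea E x y₀ = φ z := by
    rw [← e₁, ← hφ.equiv x b₁ hb₁, hx']
  rw [e6] at h2
  exact h2.symm

end

section Hemi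

variable {P : Subgroup Pm} {ad : Fin 275 → Fin 275 → Prop} [DecidableRel ad] {a₀ y₀ z₁ z₂ : Fin 275} {t : Pm}
  {KK : List (Finset (Fin 275))} {L : Fin 4 → Fin 162 → Finset (Fin 275)} {σ : Fin 4 → Pm}
  {π : Fin 4 → Fin 162 → Fin 275}

variable {Ω : Type*} [Fintype Ω] [DecidableEq Ω] {G : Subgroup (Equiv.Perm Ω)} {a b c : Ω}

open Classical in
/-- The lines adjacent to a vertex. -/
noncomputable def Sc (G : Subgroup (Equiv.Perm Ω)) (a b : Ω) (φ : Ω → Fin 275) (c' : Ω) : Finset (Fin 275) :=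
  ((univ.filter (fun z => z ∈ orbit (stabilizer G a) b)).filter (fun z => Gam G a b c' z)).image φ

theorem mem_Sc {φ : Ω → Fin 275} {c' : Ω} {y : Fin 275} :
    y ∈ Sc G a b φ c' ↔ ∃ z ∈ orbit (stabilizer G a) b, Gam G a b c' z ∧ φ z = y := by
  classical
  unfold Sc
  simp only [mem_image, mem_filter, mem_univ, true_and]
  constructor
  · rintro ⟨z, ⟨h1, h2⟩, h3⟩
    exact ⟨z, h1, h2, h3⟩
  · rintro ⟨z, h1, h2, h3⟩
    exact ⟨z, ⟨h1, h2⟩, h3⟩

theorem Sc_smul {E : stabilizer G a ≃* A0 P a₀} {φ : Ω → Fin 275} (hφ : PhiData E b ad a₀ φ) (x : stabilizer G a)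
    (c' : Ω) : Sc G a b φ (x • c') = (Sc G a b φ c').image (Ea E x) := by
  classical
  ext y
  simp only [mem_image, mem_Sc]
  constructor
  · rintro ⟨z, hz, h1, rfl⟩
    have hz0 : x⁻¹ • z ∈ orbit (stabilizer G a) b := orbit_stable (Subgroup.inv_mem _ x.2) hz
    refine ⟨φ (x⁻¹ • z), ⟨x⁻¹ • z, hz0, ?_, rfl⟩, ?_⟩
    · have h2 := (Gam_smul (G := G) (a := a) (b := b) (x : G) c' (x⁻¹ • z)).1
      apply h2
      have e : (x : G) • ((x⁻¹ : stabilizer G a) • z) = z := smul_inv_smul x z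
      rw [e]
      exact h1
    · rw [← hφ.equiv x _ hz0, smul_inv_smul]
  · rintro ⟨_, ⟨z, hz, h1, rfl⟩, rfl⟩
    refine ⟨x • z, orbit_stable x.2 hz, ?_, ?_⟩
    · exact (Gam_smul (G := G) (a := a) (b := b) (x : G) c' z).2 h1
    · rw [hφ.equiv x z hz]

end Hemi

end Cfsg.Agent.Lib.McLRk3C
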