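import Mathlib
import Cfsg.Agent.Lib.McLRk3C
import Cfsg.Agent.Lib.OutMcL

set_option autoImplicit false
set_option linter.unusedSectionVars false
set_option linter.unusedVariables false
set_option linter.style.haveILetI false
set_option linter.unusedSimpArgs false

/-!
# Recognition of the rank three graph on 275 points: the remaining vertices
-/

namespace Cfsg.Agent.Lib.McLRk3D

open MulAction Finset Cfsg.Agent.Lib.McLRk3A Cfsg.Agent.Lib.McLRk3B Cfsg.Agent.Lib.McLRk3C

section

variable {P : Subgroup Pm} {ad : Fin 275 → Fin 275 → Prop} [DecidableRel ad] {a₀ y₀ z₁ z₂ : Fin 275} {t : Pm}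
  {KK : List (Finset (Fin 275))} {L : Fin 4 → Fin 162 → Finset (Fin 275)} {σ : Fin 4 → Pm}
  {π : Fin 4 → Fin 162 → Fin 275}

variable {Ω : Type*} [Fintype Ω] [DecidableEq Ω] {G : Subgroup (Equiv.Perm Ω)} {a b c : Ω}

variable (hC : Conc P ad a₀ y₀ z₁ z₂ t KK L σ π) (h : R3 G a b c) (E : stabilizer G a ≃* A0 P a₀)
  {φ : Ω → Fin 275} (hφ : PhiData E b ad a₀ φ)
include hC h hφ

theorem Sc_sub (c' : Ω) {y : Fin 275} (hy : y ∈ Sc G a b φ c') : ad a₀ y := by
  obtain ⟨z, hz, _, rfl⟩ := mem_Sc.1 hy
  exact hφ.mem z hz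

theorem Sc_two {c' : Ω} (hc' : c' ∈ orbit (stabilizer G a) c) {K : Finset (Fin 275)} (hK : K ∈ KK) :
    (Sc G a b φ c' ∩ K).card = 2 := by
  classical
  obtain ⟨hl, hm, hadj⟩ := lines_adj hC h E hφ
  obtain ⟨hK4, hKB, hKc⟩ := hC.KK_spec K hK
  set K₁ : Finset Ω := (univ.filter (fun z => z ∈ orbit (stabilizer G a) b)).filter (fun z => φ z ∈ K) with hK₁
  have hinj : Set.InjOn φ (↑K₁ : Set Ω) := by
    intro z hz z' hz' e
    simp only [hK₁, coe_filter, mem_filter, mem_univ, true_and, Set.mem_ofPred_eq] at hz hz'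
    exact hφ.inj z hz.1 z' hz'.1 e
  have himg : K₁.image φ = K := by
    ext y
    simp only [mem_image, hK₁, mem_filter, mem_univ, true_and]
    constructor
    · rintro ⟨z, hz, rfl⟩
      exact hz.2
    · intro hy
      obtain ⟨z, hz, rfl⟩ := hφ.surj y (hKB y hy)
      exact ⟨z, ⟨hz, hy⟩, rfl⟩
  have cK₁ : K₁.card = 4 := by
    rw [← card_image_of_injOn hinj, himg, hK4]
  have ha : a ∉ K₁ := by
    simp only [hK₁, mem_filter, mem_univ, true_and, not_and]
    intro h1
    exact absurd h1 (a_not_B h)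
  have hcl := clique_two (Ω := Ω) (fun x y => Gam G a b x y) h.card (fun x y hxy => Gam_symm h hxy)
    (fun x => Gam_irrefl h x)
    (fun x => by
      have := card_Nb h x
      unfold Nb at this
      convert this)
    (fun x y hxy => by
      have h1 := lam_b h hxy
      rw [hl] at h1
      unfold lam at h1
      convert h1)
    (insert a K₁) (by rw [card_insert_of_notMem ha, cK₁])
    (by
      intro x hx y hy hne
      simp only [mem_insert] at hx hy
      have hK₁m : ∀ z, z ∈ K₁ → z ∈ orbit (stabilizer G a) b ∧ φ z ∈ K := by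
        intro z hz
        simpa [hK₁] using hz
      rcases hx with rfl | hx
      · rcases hy with rfl | hy
        · exact absurd rfl hne
        · exact (Gam_a y).2 (hK₁m y hy).1
      · rcases hy with rfl | hy
        · exact Gam_symm h ((Gam_a x).2 (hK₁m x hx).1)
        · rw [hadj x (hK₁m x hx).1 y (hK₁m y hy).1]
          apply hKc _ (hK₁m x hx).2 _ (hK₁m y hy).2
          intro e
          exact hne (hφ.inj x (hK₁m x hx).1 y (hK₁m y hy).1 e))
    c' (by
      simp only [mem_insert, not_or]
      constructor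
      · rintro rfl
        exact a_not_C h hc'
      · intro h1
        have : c' ∈ orbit (stabilizer G a) b := by
          simp only [hK₁, mem_filter, mem_univ, true_and] at h1
          exact h1.1
        exact B_disj_C h this hc')
  have hna : ¬ Gam G a b c' a := by
    intro h1
    exact B_disj_C h ((Gam_a c').1 (Gam_symm h h1)) hc'
  have e1 : (insert a K₁).filter (fun k => Gam G a b c' k) = K₁.filter (fun k => Gam G a b c' k) := by
    rw [filter_insert, if_neg hna]
  have e2 : Sc G a b φ c' ∩ K = (K₁.filter (fun k => Gam G a b c' k)).image φ := by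
    ext y
    simp only [mem_inter, mem_Sc, mem_image, mem_filter, hK₁, mem_univ, true_and]
    constructor
    · rintro ⟨⟨z, hz, h1, rfl⟩, h2⟩
      exact ⟨z, ⟨⟨hz, h2⟩, h1⟩, rfl⟩
    · rintro ⟨z, ⟨⟨hz, h2⟩, h1⟩, rfl⟩
      exact ⟨⟨z, hz, h1, rfl⟩, h2⟩
  have hinj2 : Set.InjOn φ (↑(K₁.filter (fun k => Gam G a b c' k)) : Set Ω) :=
    hinj.mono (coe_subset.2 (filter_subset _ _))
  rw [e2, card_image_of_injOn hinj2]
  rw [e1] at hcl
  convert hcl

/-- Some vertex of the large orbit has one of the four standard sets of lines. -/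
theorem exists_rep : ∃ j, ∃ c₁ ∈ orbit (stabilizer G a) c, Sc G a b φ c₁ = L j 0 := by
  classical
  have c1 := card_stab_orbit hC h E c
  rw [h.hc] at c1
  have hd : 7 ∣ Nat.card (stabilizer (stabilizer G a) c) := ⟨2880, by omega⟩
  haveI : Fact (Nat.Prime 7) := ⟨by norm_num⟩
  obtain ⟨x, hx⟩ := exists_prime_orderOf_dvd_card' (G := stabilizer (stabilizer G a) c) 7 hd
  -- the order in the group `A`
  have hx' : orderOf (x : stabilizer G a) = 7 := by
    rw [Subgroup.orderOf_coe, hx]
  set t' : stabilizer G a := E.symm ⟨t, hC.t_mem⟩ with ht'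
  have ht'o : orderOf t' = 7 := by
    rw [ht', MulEquiv.orderOf_eq, Subgroup.orderOf_mk, hC.t_ord]
  have hnd : ¬ 7 ^ 2 ∣ Nat.card (stabilizer G a) := by
    rw [card_A hC h E]
    norm_num
  obtain ⟨y, k, hy⟩ := exists_conj_zpow 7 hnd hx' ht'o
  set x₁ : stabilizer G a := y * (x : stabilizer G a) ^ k * y⁻¹ with hx₁
  have hEa : Ea E t' = t := by
    simp [Ea, ht']
  have hfix : (x : stabilizer G a) ^ k • c = c := by
    have hm : (x : stabilizer G a) ^ k ∈ stabilizer (stabilizer G a) c :=
      Subgroup.zpow_mem _ x.2 k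
    exact hm
  have hc₁ : x₁ • (y • c) = y • c := by
    rw [hx₁]
    simp only [mul_smul, inv_smul_smul, hfix]
  have hinv : (Sc G a b φ (y • c)).image t = Sc G a b φ (y • c) := by
    rw [← hEa, hy, ← Sc_smul hφ, hc₁]
  have hmemC : y • c ∈ orbit (stabilizer G a) c := ⟨y, rfl⟩
  obtain ⟨j, hj⟩ := hC.hemi (Sc G a b φ (y • c)) (fun w hw => Sc_sub hC h E hφ _ hw) hinv
    (fun K hK => Sc_two hC h E hφ hmemC hK)
  exact ⟨j, y • c, hmemC, hj⟩

theorem exists_iota {j : Fin 4} {c₁ : Ω} (hc₁ : c₁ ∈ orbit (stabilizer G a) c) (hS : Sc G a b φ c₁ = L j 0) :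
    ∃ ι : Fin 162 → Ω, (∀ i, ι i ∈ orbit (stabilizer G a) c) ∧ (∀ i, Sc G a b φ (ι i) = L j i) ∧
      (∀ c' ∈ orbit (stabilizer G a) c, ∃ i, ι i = c') := by
  classical
  have hex : ∀ i : Fin 162, ∃ x : stabilizer G a, (L j 0).image (Ea E x) = L j i := by
    intro i
    obtain ⟨k, hk, e⟩ := hC.reach j i
    obtain ⟨x, rfl⟩ := Ea_surj E hk
    exact ⟨x, e⟩
  choose X hX using hex
  let ι : Fin 162 → Ω := fun i => X i • c₁
  have hιC : ∀ i, ι i ∈ orbit (stabilizer G a) c := fun i => orbit_stable (X i).2 hc₁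
  have hιS : ∀ i, Sc G a b φ (ι i) = L j i := by
    intro i
    show Sc G a b φ (X i • c₁) = _
    rw [Sc_smul hφ, hS, hX]
  have hinj : Function.Injective ι := by
    intro i i' e
    apply hC.L_inj j
    rw [← hιS, ← hιS, e]
  refine ⟨ι, hιC, hιS, ?_⟩
  intro c' hc'
  have hsub : univ.image ι ⊆ univ.filter (fun z => z ∈ orbit (stabilizer G a) c) := by
    intro w hw
    obtain ⟨i, _, rfl⟩ := mem_image.1 hw
    simpa using hιC i
  have hcard : (univ.filter (fun z => z ∈ orbit (stabilizer G a) c)).card ≤ (univ.image ι).card := by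
    rw [card_filter_orbit, h.hc, card_image_of_injective _ hinj]
    simp
  have heq := eq_of_subset_of_card_le hsub hcard
  have : c' ∈ univ.image ι := by
    rw [heq]
    simpa using hc'
  obtain ⟨i, _, rfl⟩ := mem_image.1 this
  exact ⟨i, rfl⟩

/-- The family of sets of lines determines the vertices, and the adjacency among the vertices. -/
theorem C_adj {j : Fin 4} {c₁ : Ω} (hc₁ : c₁ ∈ orbit (stabilizer G a) c) (hS : Sc G a b φ c₁ = L j 0)
    {ι : Fin 162 → Ω} (hιC : ∀ i, ι i ∈ orbit (stabilizer G a) c) (hιS : ∀ i, Sc G a b φ (ι i) = L j i)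
    (hιs : ∀ c' ∈ orbit (stabilizer G a) c, ∃ i, ι i = c') :
    ∀ i i', i ≠ i' → (Gam G a b (ι i) (ι i') ↔ (L j i ∩ L j i').card = 20) := by
  classical
  obtain ⟨hl, hm, hadj⟩ := lines_adj hC h E hφ
  have hSinj : ∀ c' ∈ orbit (stabilizer G a) c, ∀ c'' ∈ orbit (stabilizer G a) c,
      Sc G a b φ c' = Sc G a b φ c'' → c' = c'' := by
    intro c' hc' c'' hc'' e
    obtain ⟨i, rfl⟩ := hιs c' hc'
    obtain ⟨i', rfl⟩ := hιs c'' hc''
    rw [hιS, hιS] at e
    rw [hC.L_inj j e]
  have hι0 : ι 0 = c₁ := hSinj _ (hιC 0) _ hc₁ (by rw [hιS, hS])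
  have hinj : Function.Injective ι := by
    intro i i' e
    apply hC.L_inj j
    rw [← hιS, ← hιS, e]
  -- the closure property
  have hclos : ∀ r ∈ A0 P a₀, (L j 0).image r = L j 0 → ∀ i i', (L j i).image r = L j i' →
      (Gam G a b c₁ (ι i) ↔ Gam G a b c₁ (ι i')) := by
    intro r hr hr0 i i' hri
    obtain ⟨x, rfl⟩ := Ea_surj E hr
    have h1 : x • c₁ = c₁ := by
      apply hSinj _ (orbit_stable x.2 hc₁) _ hc₁
      show Sc G a b φ (x • c₁) = _
      rw [Sc_smul hφ, hS, hr0]
    have h2 : x • ι i = ι i' := by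
      apply hSinj _ (orbit_stable x.2 (hιC i)) _ (hιC i')
      show Sc G a b φ (x • ι i) = _
      rw [Sc_smul hφ, hιS, hri, hιS]
    have h3 := Gam_smul (G := G) (a := a) (b := b) (x : G) c₁ (ι i)
    have e1 : (x : G) • c₁ = c₁ := h1
    have e2 : (x : G) • ι i = ι i' := h2
    rw [e1, e2] at h3
    exact h3.symm
  -- the count
  have cN : (univ.filter (fun i => Gam G a b c₁ (ι i))).card = 56 := by
    have h1 := card_Nb h c₁
    have e1 : Nb G a b c₁ = ((univ.filter (fun z => z ∈ orbit (stabilizer G a) b)).filter (fun z => Gam G a b c₁ z)) ∪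
        ((univ.filter (fun i => Gam G a b c₁ (ι i))).image ι) := by
      ext z
      simp only [Nb, mem_filter, mem_univ, true_and, mem_union, mem_image]
      constructor
      · intro hz
        rcases cover h z with h2 | h2 | h2
        · exfalso
          rw [h2] at hz
          exact B_disj_C h ((Gam_a c₁).1 (Gam_symm h hz)) hc₁
        · exact Or.inl ⟨h2, hz⟩
        · obtain ⟨i, rfl⟩ := hιs z h2
          exact Or.inr ⟨i, hz, rfl⟩
      · rintro (⟨_, h2⟩ | ⟨i, h2, rfl⟩)
        · exact h2
        · exact h2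
    have hdj : Disjoint ((univ.filter (fun z => z ∈ orbit (stabilizer G a) b)).filter (fun z => Gam G a b c₁ z))
        ((univ.filter (fun i => Gam G a b c₁ (ι i))).image ι) := by
      rw [Finset.disjoint_left]
      intro z h1 h2
      obtain ⟨i, _, rfl⟩ := mem_image.1 h2
      simp only [mem_filter, mem_univ, true_and] at h1
      exact B_disj_C h h1.1 (hιC i)
    have e2 : ((univ.filter (fun z => z ∈ orbit (stabilizer G a) b)).filter (fun z => Gam G a b c₁ z)).card = 56 := by
      have hne : a ≠ c₁ := by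
        rintro rfl
        exact a_not_C h hc₁
      have hna : ¬ Gam G a b a c₁ := fun h2 => B_disj_C h ((Gam_a c₁).1 h2) hc₁
      have h3 := lam_c h hne hna
      rw [hm] at h3
      rw [← h3]
      unfold lam
      congr 1
      ext z
      simp only [mem_filter, mem_univ, true_and, Gam_a]
    rw [e1, card_union_of_disjoint hdj, e2, card_image_of_injective _ hinj] at h1
    omega
  have hX : ∀ i : Fin 162, 1 ≤ i.val → i.val ≤ 56 → (Gam G a b c₁ (ι 1) ↔ Gam G a b c₁ (ι i)) := by
    intro i h1 h2
    obtain ⟨r, hr, e1, e2⟩ := hC.clsX j i h1 h2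
    exact hclos r hr e1 1 i e2
  have hY : ∀ i : Fin 162, 57 ≤ i.val → (Gam G a b c₁ (ι 57) ↔ Gam G a b c₁ (ι i)) := by
    intro i h1
    obtain ⟨r, hr, e1, e2⟩ := hC.clsY j i h1
    exact hclos r hr e1 57 i e2
  have hzero : ¬ Gam G a b c₁ (ι 0) := by
    rw [hι0]
    exact Gam_irrefl h c₁
  have hcase : ∀ i : Fin 162, i.val = 0 ∨ (1 ≤ i.val ∧ i.val ≤ 56) ∨ 57 ≤ i.val := by
    intro i
    omega
  have hi0 : ∀ i : Fin 162, i.val = 0 → i = 0 := fun i hi => Fin.ext hi
  have hN : ∀ i : Fin 162, (Gam G a b c₁ (ι i) ↔ (1 ≤ i.val ∧ i.val ≤ 56)) := by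
    by_cases h1 : Gam G a b c₁ (ι 1)
    · by_cases h57 : Gam G a b c₁ (ι 57)
      · exfalso
        have e : univ.filter (fun i => Gam G a b c₁ (ι i)) = univ.filter (fun i : Fin 162 => i.val ≠ 0) := by
          ext i
          simp only [mem_filter, mem_univ, true_and]
          rcases hcase i with h2 | h2 | h2
          · rw [hi0 i h2]
            simp [hzero]
          · have := (hX i h2.1 h2.2).1 h1
            simp only [this, true_iff]
            omega
          · have := (hY i h2).1 h57
            simp only [this, true_iff]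
            omega
        rw [e] at cN
        have : (univ.filter (fun i : Fin 162 => i.val ≠ 0)).card = 161 := by decide +kernel
        omega
      · intro i
        rcases hcase i with h2 | h2 | h2
        · rw [hi0 i h2]
          simp [hzero]
        · simp only [h2.1, h2.2, and_self, iff_true]
          exact (hX i h2.1 h2.2).1 h1
        · constructor
          · intro h3
            exact absurd ((hY i h2).2 h3) h57
          · intro h3
            omega
    · exfalso
      by_cases h57 : Gam G a b c₁ (ι 57)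
      · have e : univ.filter (fun i => Gam G a b c₁ (ι i)) = univ.filter (fun i : Fin 162 => 57 ≤ i.val) := by
          ext i
          simp only [mem_filter, mem_univ, true_and]
          rcases hcase i with h2 | h2 | h2
          · rw [hi0 i h2]
            simp [hzero]
          · constructor
            · intro h3
              exact absurd ((hX i h2.1 h2.2).2 h3) h1
            · intro h3
              omega
          · simp only [h2, iff_true]
            exact (hY i h2).1 h57
        rw [e] at cN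
        have : (univ.filter (fun i : Fin 162 => 57 ≤ i.val)).card = 105 := by decide +kernel
        omega
      · have e : univ.filter (fun i => Gam G a b c₁ (ι i)) = ∅ := by
          apply eq_empty_of_forall_notMem
          intro i hi
          simp only [mem_filter, mem_univ, true_and] at hi
          rcases hcase i with h2 | h2 | h2
          · rw [hi0 i h2] at hi
            exact hzero hi
          · exact h1 ((hX i h2.1 h2.2).2 hi)
          · exact h57 ((hY i h2).2 hi)
        rw [e] at cN
        simp at cN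
  have hN2 : ∀ i : Fin 162, i ≠ 0 → (Gam G a b c₁ (ι i) ↔ (L j 0 ∩ L j i).card = 20) := by
    intro i hne
    rcases hcase i with h2 | h2 | h2
    · exact absurd (hi0 i h2) hne
    · rw [hC.intX j i h2.1 h2.2]
      simp only [iff_true]
      exact (hN i).2 h2
    · rw [hC.intY j i h2]
      constructor
      · intro h3
        have := (hN i).1 h3
        omega
      · intro h3
        omega
  intro i i' hne
  -- move the first vertex to `c₁`
  have hc₁' : ι i ∈ orbit (stabilizer G a) c₁ := by
    rw [orbit_eq_iff.2 hc₁]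
    exact hιC i
  obtain ⟨x, hx⟩ := hc₁'
  have hx' : x • c₁ = ι i := hx
  have hm' : x⁻¹ • ι i' ∈ orbit (stabilizer G a) c := orbit_stable (Subgroup.inv_mem _ x.2) (hιC i')
  obtain ⟨i₂, hi₂⟩ := hιs _ hm'
  have e3 : x • ι i₂ = ι i' := by
    rw [hi₂, smul_inv_smul]
  have hi₂0 : i₂ ≠ 0 := by
    rintro rfl
    rw [hι0, hx'] at e3
    exact hne (hinj e3)
  have h1 := Gam_smul (G := G) (a := a) (b := b) (x : G) c₁ (ι i₂)
  have e1 : (x : G) • c₁ = ι i := hx'
  have e2 : (x : G) • ι i₂ = ι i' := e3
  rw [e1, e2] at h1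
  rw [h1, hN2 i₂ hi₂0]
  have e4 : L j i = (L j 0).image (Ea E x) := by
    rw [← hιS i, ← hx', Sc_smul hφ, hS]
  have e5 : L j i' = (L j i₂).image (Ea E x) := by
    rw [← hιS i', ← e3, Sc_smul hφ, hιS]
  have hinjE : Function.Injective (Ea E x) := (Ea E x).injective
  rw [e4, e5, ← image_inter _ _ hinjE, card_image_of_injective _ hinjE]

/-- The graph on `Ω` is isomorphic to the concrete graph. -/
theorem graph_iso : ∃ f : Ω ≃ Fin 275, ∀ x y, Gam G a b x y ↔ ad (f x) (f y) := by
  classical
  obtain ⟨hl, hm, hadj⟩ := lines_adj hC h E hφ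
  obtain ⟨j, c₁, hc₁, hS⟩ := exists_rep hC h E hφ
  obtain ⟨ι, hιC, hιS, hιs⟩ := exists_iota hC h E hφ hc₁ hS
  have hcadj := C_adj hC h E hφ hc₁ hS hιC hιS hιs
  have hinj : Function.Injective ι := by
    intro i i' e
    apply hC.L_inj j
    rw [← hιS, ← hιS, e]
  let f0 : Ω → Fin 275 := fun z =>
    if z = a then a₀ else if z ∈ orbit (stabilizer G a) b then σ j (φ z) else π j (Function.invFun ι z)
  have f_a : f0 a = a₀ := by simp [f0]
  have f_B : ∀ z ∈ orbit (stabilizer G a) b, f0 z = σ j (φ z) := by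
    intro z hz
    have hne : z ≠ a := by
      rintro rfl
      exact a_not_B h hz
    simp [f0, hne, hz]
  have f_C : ∀ i, f0 (ι i) = π j i := by
    intro i
    have hne : ι i ≠ a := by
      intro e
      exact a_not_C h (e ▸ hιC i)
    have hnb : ι i ∉ orbit (stabilizer G a) b := fun h2 => B_disj_C h h2 (hιC i)
    simp only [f0, hne, if_false, hnb]
    rw [Function.leftInverse_invFun hinj i]
  have hcases : ∀ z, z = a ∨ z ∈ orbit (stabilizer G a) b ∨ ∃ i, ι i = z := by
    intro z
    rcases cover h z with h2 | h2 | h2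
    · exact Or.inl h2
    · exact Or.inr (Or.inl h2)
    · exact Or.inr (Or.inr (hιs z h2))
  have hfB : ∀ z ∈ orbit (stabilizer G a) b, ad a₀ (f0 z) := by
    intro z hz
    rw [f_B z hz]
    exact hC.σ_B j _ (hφ.mem z hz)
  have hf0inj : Function.Injective f0 := by
    intro x y e
    have hne1 : ∀ z ∈ orbit (stabilizer G a) b, f0 z ≠ a₀ := by
      intro z hz e2
      have := hfB z hz
      rw [e2] at this
      exact hC.ad_irr _ this
    rcases hcases x with rfl | hx | ⟨i, rfl⟩
    · rcases hcases y with rfl | hy | ⟨i, rfl⟩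
      · rfl
      · rw [f_a] at e
        exact absurd e.symm (hne1 y hy)
      · rw [f_a, f_C] at e
        exact absurd e.symm (hC.π_C j i).1
    · rcases hcases y with rfl | hy | ⟨i, rfl⟩
      · rw [f_a] at e
        exact absurd e (hne1 x hx)
      · rw [f_B x hx, f_B y hy] at e
        exact hφ.inj x hx y hy ((σ j).injective e)
      · exfalso
        have h2 := hfB x hx
        rw [e, f_C] at h2
        exact (hC.π_C j i).2 h2
    · rcases hcases y with rfl | hy | ⟨i', rfl⟩
      · rw [f_a, f_C] at e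
        exact absurd e (hC.π_C j i).1
      · exfalso
        have h2 := hfB y hy
        rw [← e, f_C] at h2
        exact (hC.π_C j i).2 h2
      · rw [f_C, f_C] at e
        rw [hC.π_inj j e]
  have hbij : Function.Bijective f0 := by
    rw [Fintype.bijective_iff_injective_and_card]
    refine ⟨hf0inj, ?_⟩
    rw [h.card]
    simp
  let f : Ω ≃ Fin 275 := Equiv.ofBijective f0 hbij
  have hf : ∀ z, f z = f0 z := fun z => rfl
  -- the pairs
  have hsymm : ∀ x y, (Gam G a b x y ↔ ad (f0 x) (f0 y)) → (Gam G a b y x ↔ ad (f0 y) (f0 x)) := by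
    intro x y h2
    constructor
    · intro h3
      exact hC.ad_symm _ _ (h2.1 (Gam_symm h h3))
    · intro h3
      exact Gam_symm h (h2.2 (hC.ad_symm _ _ h3))
  have h_a : ∀ y, Gam G a b a y ↔ ad (f0 a) (f0 y) := by
    intro y
    rw [f_a, Gam_a]
    rcases hcases y with rfl | hy | ⟨i, rfl⟩
    · rw [f_a]
      constructor
      · intro h2
        exact absurd h2 (a_not_B h)
      · intro h2
        exact absurd h2 (hC.ad_irr _)
    · constructor
      · intro _
        exact hfB y hy
      · intro _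
        exact hy
    · rw [f_C]
      constructor
      · intro h2
        exact absurd (hιC i) (fun h3 => B_disj_C h h2 h3)
      · intro h2
        exact absurd h2 (hC.π_C j i).2
  have h_BB : ∀ y ∈ orbit (stabilizer G a) b, ∀ y' ∈ orbit (stabilizer G a) b,
      (Gam G a b y y' ↔ ad (f0 y) (f0 y')) := by
    intro y hy y' hy'
    rw [f_B y hy, f_B y' hy', hC.σ_ad j _ _ (hφ.mem y hy) (hφ.mem y' hy')]
    exact hadj y hy y' hy'
  have h_CB : ∀ i, ∀ y ∈ orbit (stabilizer G a) b, (Gam G a b (ι i) y ↔ ad (f0 (ι i)) (f0 y)) := by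
    intro i y hy
    rw [f_C, f_B y hy]
    have e1 : Gam G a b (ι i) y ↔ φ y ∈ L j i := by
      rw [← hιS i, mem_Sc]
      constructor
      · intro h2
        exact ⟨y, hy, h2, rfl⟩
      · rintro ⟨z, hz, h2, e⟩
        rwa [← hφ.inj z hz y hy e]
    have e2 : ad (π j i) (σ j (φ y)) ↔ σ j (φ y) ∈ (L j i).image (σ j) := by
      rw [hC.π_spec j i]
      simp only [mem_filter, mem_univ, true_and]
      constructor
      · intro h2
        exact ⟨hC.σ_B j _ (hφ.mem y hy), h2⟩
      · intro h2
        exact h2.2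
    rw [e1, e2, (σ j).injective.mem_finset_image]
  have h_CC : ∀ i i', (Gam G a b (ι i) (ι i') ↔ ad (f0 (ι i)) (f0 (ι i'))) := by
    intro i i'
    rw [f_C, f_C]
    by_cases hne : i = i'
    · subst hne
      constructor
      · intro h2
        exact absurd h2 (Gam_irrefl h _)
      · intro h2
        exact absurd h2 (hC.ad_irr _)
    · rw [hcadj i i' hne, hC.C_int _ _ (hC.π_C j i).1 (hC.π_C j i).2 (hC.π_C j i').1 (hC.π_C j i').2
        (fun e => hne (hC.π_inj j e)), ← hC.π_spec j i, ← hC.π_spec j i',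
        ← image_inter _ _ (σ j).injective, card_image_of_injective _ (σ j).injective]
  refine ⟨f, ?_⟩
  intro x y
  rw [hf, hf]
  rcases hcases x with rfl | hx | ⟨i, rfl⟩
  · exact h_a y
  · rcases hcases y with rfl | hy | ⟨i, rfl⟩
    · exact hsymm _ _ (h_a x)
    · exact h_BB x hx y hy
    · exact hsymm _ _ (h_CB i x hx)
  · rcases hcases y with rfl | hy | ⟨i', rfl⟩
    · exact hsymm _ _ (h_a _)
    · exact h_CB i y hy
    · exact h_CC i i'

end

/-- Groups of the same order preserving a common relation, whose permutation group has at most two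
such cosets, coincide when one of them is simple. -/
theorem eq_of_simple {X : Type*} [Finite X] {W P Q : Subgroup (Equiv.Perm X)} (hP : P ≤ W) (hQ : Q ≤ W)
    {n : ℕ} (hcW : Nat.card W ≤ 2 * n) (hcP : Nat.card P = n) (hcQ : Nat.card Q = n) (hn : 2 < n)
    (hs : IsSimpleGroup P) : P = Q := by
  classical
  have hnpos : 0 < n := by omega
  have hWne : Q.relIndex W ≠ 0 := by
    intro h0
    have h1 := Subgroup.card_mul_index (Q.subgroupOf W)
    have h2 : (Q.subgroupOf W).index = 0 := h0
    rw [h2, mul_zero] at h1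
    have : Nat.card W ≠ 0 := Nat.card_pos.ne'
    exact this h1.symm
  have h1 : Q.relIndex P ≤ Q.relIndex W := Subgroup.relIndex_le_of_le_right hP hWne
  have h2 : Q.relIndex W ≤ 2 := by
    have h3 := Subgroup.card_mul_index (Q.subgroupOf W)
    rw [Nat.card_congr (Subgroup.subgroupOfEquivOfLe hQ).toEquiv, hcQ] at h3
    have h4 : n * Q.relIndex W ≤ n * 2 := by
      calc n * Q.relIndex W = Nat.card W := h3
        _ ≤ 2 * n := hcW
        _ = n * 2 := mul_comm _ _
    exact Nat.le_of_mul_le_mul_left h4 hnpos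
  have hcardP : Nat.card P = n := hcP
  have hle : P ≤ Q := by
    rw [← Subgroup.relIndex_eq_one]
    have h3 : Q.relIndex P ≠ 0 := by
      intro h0
      have h4 := Subgroup.card_mul_index (Q.subgroupOf P)
      have h5 : (Q.subgroupOf P).index = 0 := h0
      rw [h5, mul_zero] at h4
      have : Nat.card P ≠ 0 := Nat.card_pos.ne'
      exact this h4.symm
    have h4 : Q.relIndex P = 1 ∨ Q.relIndex P = 2 := by omega
    rcases h4 with h4 | h4
    · exact h4
    · exfalso
      have h5 : (Q.subgroupOf P).index = 2 := h4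
      haveI : (Q.subgroupOf P).Normal := Subgroup.normal_of_index_eq_two h5
      rcases (Subgroup.Normal.eq_bot_or_eq_top (inferInstance : (Q.subgroupOf P).Normal)) with h6 | h6
      · rw [h6, Subgroup.index_bot, hcardP] at h5
        omega
      · rw [h6, Subgroup.index_top] at h5
        omega
  exact Subgroup.eq_of_le_of_card_ge hle (by rw [hcP, hcQ])

section Final

variable {ad : Fin 275 → Fin 275 → Prop} {Ω : Type*} [Fintype Ω] [DecidableEq Ω] {G : Subgroup (Equiv.Perm Ω)}
  {a b : Ω}

/-- The transported group. -/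
theorem iso_of_graph_iso {P : Subgroup Pm} (hP : P ≤ Cfsg.Agent.Lib.OutMcL.AutAdj ad) {n : ℕ}
    (hcW : Nat.card (Cfsg.Agent.Lib.OutMcL.AutAdj ad) ≤ 2 * n) (hcP : Nat.card P = n) (hn : 2 < n)
    (hs : IsSimpleGroup P) (hcG : Nat.card G = n) (f : Ω ≃ Fin 275)
    (hf : ∀ x y, Gam G a b x y ↔ ad (f x) (f y)) : Nonempty (G ≃* P) := by
  classical
  let ψ : Equiv.Perm Ω ≃* Pm := f.permCongrHom
  let Q : Subgroup Pm := G.map ψ.toMonoidHom
  have hQ : Q ≤ Cfsg.Agent.Lib.OutMcL.AutAdj ad := by
    rintro _ ⟨g, hg, rfl⟩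
    intro x y
    have e : ∀ z, f.symm ((ψ g) z) = g (f.symm z) := by
      intro z
      show f.symm (f (g (f.symm z))) = _
      simp
    have h1 := hf ((⟨g, hg⟩ : G) • f.symm x) ((⟨g, hg⟩ : G) • f.symm y)
    rw [Gam_smul, hf] at h1
    simp only [Equiv.apply_symm_apply] at h1
    have e2 : ∀ z, f ((⟨g, hg⟩ : G) • f.symm z) = ψ g z := fun z => rfl
    rw [e2, e2] at h1
    exact h1.symm
  have hcQ : Nat.card Q = n := by
    rw [← hcG]
    exact Nat.card_congr (G.equivMapOfInjective ψ.toMonoidHom ψ.injective).toEquiv.symm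
  have e := eq_of_simple hP hQ hcW hcP hcQ hn hs
  refine ⟨(G.equivMapOfInjective ψ.toMonoidHom ψ.injective).trans (MulEquiv.subgroupCongr e.symm)⟩

end Final

end Cfsg.Agent.Lib.McLRk3D
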