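import Mathlib
import Cfsg.Agent.Lib.McLRk3B
import Cfsg.Agent.Lib.McLRk3T
import Cfsg.Agent.Lib.McLBridge
import Cfsg.Agent.Lib.McLConc

set_option autoImplicit false
set_option linter.unusedSectionVars false
set_option linter.unusedVariables false
set_option linter.style.haveILetI false
set_option linter.unusedSimpArgs false
set_option maxRecDepth 100000
set_option exponentiation.threshold 1000

/-!
# Explicit checks on the rank three graph on 275 points: the letters and the graph
-/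

namespace Cfsg.Agent.Lib.McLRk3E

open MulAction Finset Cfsg.Agent.Lib.McLRk3A Cfsg.Agent.Lib.McLRk3B Cfsg.Agent.Lib.McLRk3T
  Cfsg.Agent.Lib.PermChain12

open Cfsg.Agent.Lib.McLBridge (Pg gen_spec)

/-- A bit of a number. -/
noncomputable def tb (m x : ℕ) : Bool := Nat.beq (Nat.land (Nat.shiftRight m x) 1) 1

theorem tb_eq (m x : ℕ) : tb m x = Nat.testBit m x := by
  have h1 : Nat.land (Nat.shiftRight m x) 1 = (m >>> x) % 2 := by
    show (m >>> x) &&& 1 = _
    exact Nat.and_one_is_mod _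
  have h2 : Nat.testBit m x = ((m >>> x) % 2 == 1) := by
    rw [Nat.testBit, Nat.one_and_eq_mod_two]
    by_cases h : (m >>> x) % 2 = 1
    · simp [h]
    · have h' : (m >>> x) % 2 = 0 := by omega
      simp [h']
  unfold tb
  rw [h1, h2, Bool.eq_iff_iff, beq_iff_eq]
  exact iff_of_eq Nat.beq_eq

/-- Equality of booleans. -/
def bE (a b : Bool) : Bool := cond a b (not b)

theorem bE_spec {a b : Bool} (h : bE a b = true) : a = b := by
  cases a <;> cases b <;> simp_all [bE]

/-- The letters. -/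
noncomputable def Q (l x : ℕ) : ℕ := tg 9 511 QT (Nat.add (Nat.mul l 275) x)

/-- The number of letters. -/
abbrev NL : ℕ := 28

/-- The word defining a letter. -/
def DW (l : ℕ) : List ℕ := DT.getD l []

/-- Validity of the definition of a letter. -/
noncomputable def Ldef (l : ℕ) : Bool :=
  cond (Nat.ble l 2)
    (allB 275 9 (fun x => Nat.beq (Q l x) (Cfsg.Agent.Lib.McLFusData.S l x)))
    (and ((DW l).all (fun m => Nat.ble (Nat.succ m) l))
      (allB 275 9 (fun x => Nat.beq (walkF Q (DW l) x) (Q l x))))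

theorem Ldef_chk : allB NL 5 Ldef = true := by decide +kernel

theorem word_ex (w : List ℕ) (hw : ∀ m ∈ w, ∃ g ∈ Pg, ∀ x : Fin 275, (g x).val = Q m x.val) :
    ∃ g ∈ Pg, ∀ x : Fin 275, (g x).val = walkF Q w x.val := by
  induction w with
  | nil =>
    refine ⟨1, Pg.one_mem, ?_⟩
    intro x
    rw [walkF_eq]
    rfl
  | cons m w ih =>
    obtain ⟨g₁, h₁, e₁⟩ := hw m (by simp)
    obtain ⟨g₂, h₂, e₂⟩ := ih (fun n hn => hw n (List.mem_cons_of_mem _ hn))
    refine ⟨g₂ * g₁, Pg.mul_mem h₂ h₁, ?_⟩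
    intro x
    rw [Equiv.Perm.mul_apply, e₂, e₁, walkF_eq, walkF_eq]
    rfl

theorem letter_ex : ∀ l, l < NL → ∃ g ∈ Pg, ∀ x : Fin 275, (g x).val = Q l x.val := by
  intro l
  induction l using Nat.strong_induction_on with
  | _ l ih =>
    intro hl
    have h := allB_spec _ _ _ (by norm_num) Ldef_chk l hl
    unfold Ldef at h
    by_cases h2 : l ≤ 2
    · rw [Nat.ble_eq_true_of_le h2, cond_true] at h
      obtain ⟨g, hg, e⟩ := gen_spec (l := l) (by omega)
      refine ⟨g, hg, ?_⟩
      intro x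
      rw [e]
      exact (Nat.eq_of_beq_eq_true (allB_spec _ _ _ (by norm_num) h x.val x.2)).symm
    · have h3 : Nat.ble l 2 = false := by
        rw [← Bool.not_eq_true, Nat.ble_eq]
        exact h2
      rw [h3, cond_false, Bool.and_eq_true, List.all_eq_true] at h
      obtain ⟨h4, h5⟩ := h
      obtain ⟨g, hg, e⟩ := word_ex (DW l) (fun m hm => ih m (Nat.le_of_ble_eq_true (h4 m hm)) (by
        have := Nat.le_of_ble_eq_true (h4 m hm)
        omega))
      refine ⟨g, hg, ?_⟩
      intro x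
      rw [e]
      exact Nat.eq_of_beq_eq_true (allB_spec _ _ _ (by norm_num) h5 x.val x.2)

/-- The permutation of a letter. -/
noncomputable def Lp (l : ℕ) : Pm :=
  if h : l < NL then Classical.choose (letter_ex l h) else 1

theorem Lp_mem {l : ℕ} (h : l < NL) : Lp l ∈ Pg := by
  unfold Lp
  rw [dif_pos h]
  exact (Classical.choose_spec (letter_ex l h)).1

theorem Lp_val {l : ℕ} (h : l < NL) (x : Fin 275) : (Lp l x).val = Q l x.val := by
  unfold Lp
  rw [dif_pos h]
  exact (Classical.choose_spec (letter_ex l h)).2 x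

/-! ### Graph -/

/-- The relation on numbers. -/
noncomputable def adN (x y : ℕ) : Bool := tb RT (Nat.add (Nat.mul x 275) y)

/-- The relation. -/
def ad (x y : Fin 275) : Prop := adN x.val y.val = true

noncomputable instance instDecAd : DecidableRel ad := fun x y => Bool.decEq _ _

theorem ad_symm_chk : allB 275 9 (fun x => allB 275 9 (fun y => bE (adN x y) (adN y x))) = true := by
  decide +kernel

theorem ad_irr_chk : allB 275 9 (fun x => not (adN x x)) = true := by decide +kernel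

theorem ad_symm (x y : Fin 275) (h : ad x y) : ad y x := by
  have h1 := allB_spec _ _ _ (by norm_num) (allB_spec _ _ _ (by norm_num) ad_symm_chk x.val x.2) y.val y.2
  unfold ad
  rw [← bE_spec h1]
  exact h

theorem ad_irr (x : Fin 275) : ¬ ad x x := by
  have h1 := allB_spec _ _ _ (by norm_num) ad_irr_chk x.val x.2
  unfold ad
  simpa using h1

/-! ### Counting -/

/-- Counting in a range. -/
noncomputable def cnt (p : ℕ → Bool) (n : ℕ) : ℕ :=
  Nat.rec (motive := fun _ => ℕ) 0 (fun i ih => cond (p i) (Nat.succ ih) ih) n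

theorem cnt_succ (p : ℕ → Bool) (n : ℕ) : cnt p (n + 1) = cond (p n) (cnt p n + 1) (cnt p n) := rfl

theorem cnt_eq (p : ℕ → Bool) (n : ℕ) : ((range n).filter (fun x => p x = true)).card = cnt p n := by
  induction n with
  | zero => simp [cnt]
  | succ n ih =>
    rw [range_add_one, filter_insert, cnt_succ]
    cases h : p n
    · simpa using ih
    · simp only [if_true, cond_true]
      rw [card_insert_of_notMem (by simp), ih]

theorem card_fil (p : Fin 275 → Prop) [DecidablePred p] (q : ℕ → Bool) (h : ∀ x : Fin 275, p x ↔ q x.val = true) :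
    (univ.filter p).card = cnt q 275 := by
  rw [← cnt_eq]
  apply Finset.card_bij (fun x _ => x.val)
  · intro x hx
    simp only [mem_filter, mem_univ, true_and] at hx
    simp only [mem_filter, mem_range]
    exact ⟨x.2, (h x).1 hx⟩
  · intro x _ y _ e
    exact Fin.ext e
  · intro y hy
    simp only [mem_filter, mem_range] at hy
    refine ⟨⟨y, hy.1⟩, ?_, rfl⟩
    simp only [mem_filter, mem_univ, true_and]
    exact (h ⟨y, hy.1⟩).2 hy.2

/-! ### Sets given by masks -/

/-- The set with a given mask. -/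
noncomputable def mset (m : ℕ) : Finset (Fin 275) := univ.filter (fun x => tb m x.val = true)

theorem mem_mset {m : ℕ} {x : Fin 275} : x ∈ mset m ↔ tb m x.val = true := by
  simp [mset]

theorem mset_image {g : Pm} {m m' : ℕ} (h : ∀ x : Fin 275, tb m' (g x).val = tb m x.val) :
    (mset m).image g = mset m' := by
  ext y
  simp only [mem_image, mem_mset]
  constructor
  · rintro ⟨x, hx, rfl⟩
    rw [h, hx]
  · intro hy
    refine ⟨g⁻¹ y, ?_, appInv g y⟩
    rw [← h, appInv, hy]

/-- Agreement of two masks along a letter. -/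
noncomputable def imgOK (l m m' : ℕ) : Bool := allB 275 9 (fun x => bE (tb m' (Q l x)) (tb m x))

theorem image_letter {l m m' : ℕ} (hl : l < NL) (h : imgOK l m m' = true) : (mset m).image (Lp l) = mset m' := by
  apply mset_image
  intro x
  rw [Lp_val hl]
  exact bE_spec (allB_spec _ _ _ (by norm_num) h x.val x.2)

/-! ### Closure -/

/-- Adding the images of the first elements under a letter. -/
noncomputable def stpA (l m n : ℕ) : ℕ :=
  Nat.rec (motive := fun _ => ℕ) m (fun x ih => cond (tb m x) (Nat.lor ih (Nat.pow 2 (Q l x))) ih) n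

/-- Several letters. -/
noncomputable def stps (ls : List ℕ) : ℕ → ℕ :=
  List.rec (motive := fun _ => ℕ → ℕ) (fun m => m) (fun l _ ih m => force (stpA l m 275) ih) ls

/-- The closure. -/
noncomputable def clo (ls : List ℕ) (fuel : ℕ) : ℕ → ℕ :=
  Nat.rec (motive := fun _ => ℕ → ℕ) (fun m => m) (fun _ ih m => force (stps ls m) ih) fuel

theorem stpA_inv {R : ℕ → Prop} {l m : ℕ} (hl : ∀ x, x < 275 → R x → R (Q l x)) (hm : ∀ x, tb m x = true → R x)
    (n : ℕ) (hn : n ≤ 275) : ∀ y, tb (stpA l m n) y = true → R y := by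
  induction n with
  | zero => exact hm
  | succ n ih =>
    intro y hy
    have e : stpA l m (n + 1) = cond (tb m n) (Nat.lor (stpA l m n) (Nat.pow 2 (Q l n))) (stpA l m n) := rfl
    rw [e] at hy
    cases h : tb m n
    · rw [h] at hy
      exact ih (by omega) y hy
    · rw [h, cond_true, tb_eq] at hy
      have e2 : Nat.lor (stpA l m n) (Nat.pow 2 (Q l n)) = stpA l m n ||| 2 ^ (Q l n) := rfl
      rw [e2, Nat.testBit_or, Bool.or_eq_true] at hy
      rcases hy with hy | hy
      · rw [← tb_eq] at hy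
        exact ih (by omega) y hy
      · rw [Nat.testBit_two_pow] at hy
        have : Q l n = y := by simpa using hy
        rw [← this]
        exact hl n (by omega) (hm n h)

theorem stps_inv {R : ℕ → Prop} {ls : List ℕ} (hl : ∀ l ∈ ls, ∀ x, x < 275 → R x → R (Q l x)) :
    ∀ m, (∀ x, tb m x = true → R x) → ∀ y, tb (stps ls m) y = true → R y := by
  induction ls with
  | nil =>
    intro m hm y hy
    exact hm y hy
  | cons l ls ih =>
    intro m hm y hy
    have e : stps (l :: ls) m = force (stpA l m 275) (stps ls) := rfl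
    rw [e, force_eq] at hy
    exact ih (fun k hk => hl k (List.mem_cons_of_mem _ hk)) _
      (stpA_inv (hl l (by simp)) hm 275 le_rfl) y hy

theorem clo_inv {R : ℕ → Prop} {ls : List ℕ} (hl : ∀ l ∈ ls, ∀ x, x < 275 → R x → R (Q l x)) (fuel : ℕ) :
    ∀ m, (∀ x, tb m x = true → R x) → ∀ y, tb (clo ls fuel m) y = true → R y := by
  induction fuel with
  | zero =>
    intro m hm y hy
    exact hm y hy
  | succ fuel ih =>
    intro m hm y hy
    have e : clo ls (fuel + 1) m = force (stps ls m) (clo ls fuel) := rfl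
    rw [e, force_eq] at hy
    exact ih _ (stps_inv hl m hm) y hy

/-- Reaching points with a subgroup containing the letters. -/
theorem reach_clo {H : Subgroup Pm} {ls : List ℕ} (hls : ∀ l ∈ ls, l < NL ∧ Lp l ∈ H) (fuel : ℕ) (z : Fin 275)
    {x : Fin 275} (hx : tb (clo ls fuel (2 ^ z.val)) x.val = true) : ∃ h ∈ H, h z = x := by
  have key := clo_inv (R := fun y => ∃ h ∈ H, (h z).val = y) (ls := ls) (by
    rintro l hl y hy ⟨h, hh, rfl⟩
    refine ⟨Lp l * h, H.mul_mem (hls l hl).2 hh, ?_⟩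
    rw [Equiv.Perm.mul_apply, Lp_val (hls l hl).1]) fuel (2 ^ z.val) (by
    intro y hy
    refine ⟨1, H.one_mem, ?_⟩
    rw [tb_eq, Nat.testBit_two_pow] at hy
    simpa using hy) x.val hx
  obtain ⟨h, hh, e⟩ := key
  exact ⟨h, hh, Fin.ext e⟩

/-! ### The base points -/

/-- The base point. -/
abbrev a₀ : Fin 275 := 235
/-- The base line. -/
abbrev y₀ : Fin 275 := 0
/-- A line meeting the base line. -/
abbrev z₁ : Fin 275 := 6
/-- A line not meeting the base line. -/
abbrev z₂ : Fin 275 := 1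

theorem mem_A0 {l : ℕ} (hl : l < NL) (h : Nat.beq (Q l 235) 235 = true) : Lp l ∈ A0 Pg a₀ := by
  refine ⟨Lp_mem hl, ?_⟩
  show Lp l a₀ = a₀
  apply Fin.ext
  rw [Lp_val hl]
  exact Nat.eq_of_beq_eq_true h

theorem y₀B : ad a₀ y₀ := by
  show adN 235 0 = true
  decide +kernel

theorem z₁30 : ad a₀ z₁ ∧ ad y₀ z₁ := by
  constructor
  · show adN 235 6 = true
    decide +kernel
  · show adN 0 6 = true
    decide +kernel

theorem z₂81 : ad a₀ z₂ ∧ z₂ ≠ y₀ ∧ ¬ ad y₀ z₂ := by
  refine ⟨?_, by decide, ?_⟩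
  · show adN 235 1 = true
    decide +kernel
  · show ¬ adN 0 1 = true
    decide +kernel

theorem cardBs : (univ.filter (fun x => ad a₀ x)).card = 112 := by
  rw [card_fil (fun x => ad a₀ x) (fun x => adN 235 x) (fun x => Iff.rfl)]
  decide +kernel

theorem cardCs : (univ.filter (fun x => x ≠ a₀ ∧ ¬ ad a₀ x)).card = 162 := by
  rw [card_fil _ (fun x => and (not (Nat.beq x 235)) (not (adN 235 x)))]
  · decide +kernel
  · intro x
    simp only [Bool.and_eq_true, Bool.not_eq_true', ad, ne_eq, Fin.ext_iff]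
    have e : ((a₀ : Fin 275) : ℕ) = 235 := rfl
    rw [e]
    constructor
    · rintro ⟨h1, h2⟩
      refine ⟨?_, by simpa using h2⟩
      rw [← Bool.not_eq_true, Nat.beq_eq]
      exact h1
    · rintro ⟨h1, h2⟩
      refine ⟨?_, by simpa using h2⟩
      rw [← Bool.not_eq_true, Nat.beq_eq] at h1
      exact h1

theorem c30 : (univ.filter (fun z => ad a₀ z ∧ ad y₀ z)).card = 30 := by
  rw [card_fil _ (fun x => and (adN 235 x) (adN 0 x))]
  · decide +kernel
  · intro x
    simp only [Bool.and_eq_true]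
    exact Iff.rfl

theorem c81 : (univ.filter (fun z => ad a₀ z ∧ z ≠ y₀ ∧ ¬ ad y₀ z)).card = 81 := by
  rw [card_fil _ (fun x => and (adN 235 x) (and (not (Nat.beq x 0)) (not (adN 0 x))))]
  · decide +kernel
  · intro x
    simp only [Bool.and_eq_true, Bool.not_eq_true', ad, ne_eq, Fin.ext_iff]
    have e : ((y₀ : Fin 275) : ℕ) = 0 := rfl
    rw [e]
    constructor
    · rintro ⟨h0, h1, h2⟩
      refine ⟨h0, ?_, by simpa using h2⟩
      rw [← Bool.not_eq_true, Nat.beq_eq]
      exact h1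
    · rintro ⟨h0, h1, h2⟩
      refine ⟨h0, ?_, by simpa using h2⟩
      rw [← Bool.not_eq_true, Nat.beq_eq] at h1
      exact h1

/-! ### Transitivity -/

theorem lets_A0 : ∀ l ∈ [1, 6, 7], l < NL ∧ Lp l ∈ A0 Pg a₀ := by
  intro l hl
  simp only [List.mem_cons, List.not_mem_nil, or_false] at hl
  rcases hl with rfl | rfl | rfl
  · exact ⟨by norm_num, mem_A0 (by norm_num) (by decide +kernel)⟩
  · exact ⟨by norm_num, mem_A0 (by norm_num) (by decide +kernel)⟩
  · exact ⟨by norm_num, mem_A0 (by norm_num) (by decide +kernel)⟩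

theorem transB_chk : allB 275 9 (fun y => or (not (adN 235 y)) (tb (clo [1, 6, 7] 12 (2 ^ 0)) y)) = true := by
  decide +kernel

theorem transB (y : Fin 275) (hy : ad a₀ y) : ∃ h ∈ A0 Pg a₀, h y₀ = y := by
  have h1 := allB_spec _ _ _ (by norm_num) transB_chk y.val y.2
  rw [Bool.or_eq_true] at h1
  rcases h1 with h1 | h1
  · rw [Bool.not_eq_true', ] at h1
    have h2 : adN 235 y.val = true := hy
    rw [h2] at h1
    exact absurd h1 (by decide)
  · exact reach_clo lets_A0 12 y₀ h1

/-! ### The stabiliser of the base line -/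

theorem mem_A1 {l : ℕ} (hl : l < NL) (h : Nat.beq (Q l 235) 235 = true) (h' : Nat.beq (Q l 0) 0 = true) :
    Lp l ∈ A1 Pg a₀ y₀ := by
  refine ⟨mem_A0 hl h, ?_⟩
  show Lp l y₀ = y₀
  apply Fin.ext
  rw [Lp_val hl]
  exact Nat.eq_of_beq_eq_true h'

theorem lets_A1 : ∀ l ∈ [10, 11], l < NL ∧ Lp l ∈ A1 Pg a₀ y₀ := by
  intro l hl
  simp only [List.mem_cons, List.not_mem_nil, or_false] at hl
  rcases hl with rfl | rfl
  · exact ⟨by norm_num, mem_A1 (by norm_num) (by decide +kernel) (by decide +kernel)⟩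
  · exact ⟨by norm_num, mem_A1 (by norm_num) (by decide +kernel) (by decide +kernel)⟩

theorem trans30_chk : allB 275 9 (fun y => or (not (and (adN 235 y) (adN 0 y))) (tb (clo [10, 11] 12 (2 ^ 6)) y)) = true := by
  decide +kernel

theorem trans81_chk : allB 275 9 (fun y => or (not (and (adN 235 y) (and (not (Nat.beq y 0)) (not (adN 0 y)))))
    (tb (clo [10, 11] 12 (2 ^ 1)) y)) = true := by
  decide +kernel

theorem trans30 (z : Fin 275) (hz : ad a₀ z) (hz' : ad y₀ z) : ∃ h ∈ A0 Pg a₀, h y₀ = y₀ ∧ h z₁ = z := by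
  have h1 := allB_spec _ _ _ (by norm_num) trans30_chk z.val z.2
  have h2 : adN 235 z.val = true := hz
  have h3 : adN 0 z.val = true := hz'
  rw [h2, h3] at h1
  have h4 : tb (clo [10, 11] 12 (2 ^ 6)) z.val = true := by simpa using h1
  obtain ⟨h, hh, e⟩ := reach_clo lets_A1 12 z₁ h4
  exact ⟨h, hh.1, hh.2, e⟩

theorem trans81 (z : Fin 275) (hz : ad a₀ z) (hne : z ≠ y₀) (hz' : ¬ ad y₀ z) :
    ∃ h ∈ A0 Pg a₀, h y₀ = y₀ ∧ h z₂ = z := by
  have h1 := allB_spec _ _ _ (by norm_num) trans81_chk z.val z.2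
  have h2 : adN 235 z.val = true := hz
  have h3 : adN 0 z.val = false := by
    rw [← Bool.not_eq_true]
    exact hz'
  have h5 : Nat.beq z.val 0 = false := by
    rw [← Bool.not_eq_true, Nat.beq_eq]
    intro e
    exact hne (Fin.ext e)
  rw [h2, h3, h5] at h1
  have h4 : tb (clo [10, 11] 12 (2 ^ 1)) z.val = true := by simpa using h1
  obtain ⟨h, hh, e⟩ := reach_clo lets_A1 12 z₂ h4
  exact ⟨h, hh.1, hh.2, e⟩

/-! ### Rows of the graph -/

/-- The mask of all points. -/
def M275 : ℕ := nat_lit 0x7ffffffffffffffffffffffffffffffffffffffffffffffffffffffffffffffffffff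

theorem M275_eq : M275 = 2 ^ 275 - 1 := by decide +kernel

/-- A row of the graph. -/
noncomputable def row (x : ℕ) : ℕ := tg 275 M275 RT x

theorem tb_row {x y : ℕ} (hy : y < 275) : tb (row x) y = adN x y := by
  unfold row tg adN
  rw [tb_eq, tb_eq]
  have e : Nat.land (Nat.shiftRight RT (Nat.mul 275 x)) M275 = (RT >>> (275 * x)) &&& (2 ^ 275 - 1) := by
    rw [← M275_eq]
    rfl
  rw [e, Nat.testBit_and, Nat.testBit_shiftRight, Nat.testBit_two_pow_sub_one]
  have e2 : Nat.add (Nat.mul x 275) y = 275 * x + y := by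
    show x * 275 + y = _
    ring
  rw [e2]
  simp [hy]

/-- The bit of a conjunction. -/
theorem tb_land (m m' y : ℕ) : tb (Nat.land m m') y = and (tb m y) (tb m' y) := by
  rw [tb_eq, tb_eq, tb_eq]
  exact Nat.testBit_and _ _ _

/-! ### The form -/

open Cfsg Cfsg.Agent.Lib.CoVec Cfsg.Agent.Lib.CoConf in
theorem ad_W_chk : allB 275 9 (fun y => bE (adN 235 y) (Nat.beq (McLGraph.W (McLBridge.vC 235) (McLBridge.vC y)) 1)) = true := by
  decide +kernel

theorem ad_gen_chk : allB 3 2 (fun l => allB 275 9 (fun x => allB 275 9 (fun y =>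
    bE (adN (Q l x) (Q l y)) (adN x y)))) = true := by
  decide +kernel

theorem clo_all_chk : allB 275 9 (fun x => tb (clo [0, 1, 2] 12 (2 ^ 235)) x) = true := by
  decide +kernel

open Cfsg Cfsg.Agent.Lib.CoVec Cfsg.Agent.Lib.CoConf in
/-- The form as a relation on the points. -/
def DD (x y : Fin 275) : Prop := dotInt ((McLBridge.vv x : LL) : GolayPt → ℤ) ((McLBridge.vv y : LL) : GolayPt → ℤ) = 8

open Cfsg Cfsg.Agent.Lib.CoVec Cfsg.Agent.Lib.CoConf in
theorem DD_inv (g : Pm) (hg : g ∈ Pg) (x y : Fin 275) : DD (g x) (g y) ↔ DD x y := by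
  obtain ⟨h, rfl⟩ := hg
  have e : ∀ z, (McLBridge.vv (McLBridge.ι h z) : LL) = (h : Co0) • (McLBridge.vv z : LL) := fun z => by
    have := congrArg Subtype.val (McLBridge.ι_apply h z)
    exact this
  unfold DD
  rw [e, e, dot_smul]

open Cfsg Cfsg.Agent.Lib.CoVec Cfsg.Agent.Lib.CoConf in
theorem ad_iff_base (y : Fin 275) : ad a₀ y ↔ DD a₀ y := by
  have h1 := bE_spec (allB_spec 275 9 _ (by norm_num) ad_W_chk y.val y.2)
  have e : dotInt ((McLBridge.vv a₀ : LL) : GolayPt → ℤ) ((McLBridge.vv y : LL) : GolayPt → ℤ) =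
      (dotA (McLBridge.vC 235) (McLBridge.vC y.val) : ℤ) - (dotB (McLBridge.vC 235) (McLBridge.vC y.val) : ℤ) :=
    dotInt_dec _ _
  unfold DD
  rw [e]
  show adN 235 y.val = true ↔ _
  rw [h1, Nat.beq_eq, McLConc.W_aux]
  by_cases h : dotA (McLBridge.vC 235) (McLBridge.vC y.val) = dotB (McLBridge.vC 235) (McLBridge.vC y.val) + 8
  · rw [if_pos h]
    simp only [true_iff]
    rw [h]
    push_cast
    ring
  · rw [if_neg h]
    simp only [zero_ne_one, false_iff]
    omega

theorem lets_gen {l : ℕ} (hl : l ∈ [0, 1, 2]) : l < 3 := by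
  simp only [List.mem_cons, List.not_mem_nil, or_false] at hl
  omega

theorem ad_iff_dot : ∀ x y : Fin 275, ad x y ↔ DD x y := by
  have key := clo_inv (R := fun x => ∀ hx : x < 275, ∀ y : Fin 275, ad ⟨x, hx⟩ y ↔ DD ⟨x, hx⟩ y) (ls := [0, 1, 2]) (by
    intro l hl x hx hR hQ y
    have hl3 : l < 3 := lets_gen hl
    have hlN : l < NL := by
      show l < 28
      omega
    have e1 : (⟨Q l x, hQ⟩ : Fin 275) = Lp l ⟨x, hx⟩ := by
      apply Fin.ext
      rw [Lp_val hlN]
    have e2 : y = Lp l ((Lp l)⁻¹ y) := (appInv _ _).symm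
    rw [e1, e2, DD_inv _ (Lp_mem hlN), ← hR hx ((Lp l)⁻¹ y)]
    have h1 := bE_spec (allB_spec 275 9 _ (by norm_num) (allB_spec 275 9 _ (by norm_num)
      (allB_spec 3 2 _ (by norm_num) ad_gen_chk l hl3) x hx) ((Lp l)⁻¹ y).val ((Lp l)⁻¹ y).2)
    unfold ad
    rw [Lp_val hlN, Lp_val hlN]
    show adN (Q l x) (Q l ((Lp l)⁻¹ y).val) = true ↔ _
    rw [h1]) 12 (2 ^ 235) (by
    intro x hx hx' y
    rw [tb_eq, Nat.testBit_two_pow] at hx
    have : 235 = x := by simpa using hx
    subst this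
    exact ad_iff_base y)
  intro x y
  exact key x.val (allB_spec 275 9 _ (by norm_num) clo_all_chk x.val x.2) x.2 y

theorem ad_inv (g : Pm) (hg : g ∈ Pg) (x y : Fin 275) : ad (g x) (g y) ↔ ad x y := by
  rw [ad_iff_dot, ad_iff_dot, DD_inv g hg]

/-! ### Moving pairs -/

theorem A0_fix' {g : Pm} (hg : g ∈ A0 Pg a₀) : g a₀ = a₀ := hg.2

theorem A0_ad {g : Pm} (hg : g ∈ A0 Pg a₀) {y : Fin 275} : ad a₀ (g y) ↔ ad a₀ y := by
  have := ad_inv g hg.1 a₀ y
  rwa [A0_fix' hg] at this

theorem count_move {g : Pm} (hg : g ∈ A0 Pg a₀) (u v : Fin 275) :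
    (univ.filter (fun x => ad a₀ x ∧ ad (g u) x ∧ ad (g v) x)).card =
      (univ.filter (fun x => ad a₀ x ∧ ad u x ∧ ad v x)).card := by
  rw [← card_image_of_injective (univ.filter (fun x => ad a₀ x ∧ ad u x ∧ ad v x)) g.injective]
  congr 1
  ext y
  simp only [mem_filter, mem_univ, true_and, mem_image]
  constructor
  · rintro ⟨h1, h2, h3⟩
    refine ⟨g⁻¹ y, ⟨?_, ?_, ?_⟩, appInv g y⟩
    · rw [← A0_ad hg, appInv]
      exact h1
    · rw [← ad_inv g hg.1, appInv]
      exact h2
    · rw [← ad_inv g hg.1, appInv]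
      exact h3
  · rintro ⟨x, ⟨h1, h2, h3⟩, rfl⟩
    exact ⟨A0_ad hg |>.2 h1, (ad_inv g hg.1 _ _).2 h2, (ad_inv g hg.1 _ _).2 h3⟩

theorem cliq_base : cnt (tb (Nat.land (Nat.land (row 235) (row 0)) (row 6))) 275 = 2 := by decide +kernel

theorem cliqB (z w : Fin 275) (hz : ad a₀ z) (hw : ad a₀ w) (hzw : ad z w) :
    (univ.filter (fun x => ad a₀ x ∧ ad z x ∧ ad w x)).card = 2 := by
  obtain ⟨h, hh, rfl⟩ := transB z hz
  have h1 : ad a₀ (h⁻¹ w) := by
    rw [← A0_ad hh, appInv]
    exact hw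
  have h2 : ad y₀ (h⁻¹ w) := by
    rw [← ad_inv h hh.1, appInv]
    exact hzw
  obtain ⟨k, hk, hk1, hk2⟩ := trans30 _ h1 h2
  have e1 : h y₀ = (h * k) y₀ := by
    rw [Equiv.Perm.mul_apply, hk1]
  have e2 : w = (h * k) z₁ := by
    rw [Equiv.Perm.mul_apply, hk2, appInv]
  rw [e1, e2, count_move ((A0 Pg a₀).mul_mem hh hk)]
  rw [card_fil _ (tb (Nat.land (Nat.land (row 235) (row 0)) (row 6)))]
  · exact cliq_base
  · intro x
    rw [tb_land, tb_land, tb_row x.2, tb_row x.2, tb_row x.2]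
    simp only [Bool.and_eq_true]
    unfold ad
    tauto

/-! ### The large orbit -/

/-- A vertex. -/
abbrev c₀ : Fin 275 := 270

theorem c₀C : c₀ ≠ a₀ ∧ ¬ ad a₀ c₀ := by
  refine ⟨by decide, ?_⟩
  show ¬ adN 235 270 = true
  decide +kernel

theorem transC_chk : allB 275 9 (fun c => or (or (Nat.beq c 235) (adN 235 c)) (tb (clo [1, 6, 7] 12 (2 ^ 270)) c)) = true := by
  decide +kernel

theorem transC (c : Fin 275) (hc : c ≠ a₀) (hc' : ¬ ad a₀ c) : ∃ h ∈ A0 Pg a₀, h c₀ = c := by
  have h1 := allB_spec _ _ _ (by norm_num) transC_chk c.val c.2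
  have h2 : adN 235 c.val = false := by
    rw [← Bool.not_eq_true]
    exact hc'
  have h3 : Nat.beq c.val 235 = false := by
    rw [← Bool.not_eq_true, Nat.beq_eq]
    intro e
    exact hc (Fin.ext e)
  rw [h2, h3] at h1
  have h4 : tb (clo [1, 6, 7] 12 (2 ^ 270)) c.val = true := by simpa using h1
  exact reach_clo lets_A0 12 c₀ h4

theorem Cint_chk : allB 275 9 (fun d => or (or (Nat.beq d 235) (or (adN 235 d) (Nat.beq d 270)))
    (bE (adN 270 d) (Nat.beq (cnt (tb (Nat.land (Nat.land (row 235) (row 270)) (row d))) 275) 20))) = true := by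
  decide +kernel

/-- The lines adjacent to a vertex. -/
noncomputable abbrev XX (c : Fin 275) : Finset (Fin 275) := univ.filter (fun y => ad a₀ y ∧ ad c y)

theorem XX_inter (c c' : Fin 275) : XX c ∩ XX c' = univ.filter (fun y => ad a₀ y ∧ ad c y ∧ ad c' y) := by
  ext y
  simp only [XX, mem_inter, mem_filter, mem_univ, true_and]
  tauto

theorem C_int (c c' : Fin 275) (hc : c ≠ a₀) (hc1 : ¬ ad a₀ c) (hc' : c' ≠ a₀) (hc1' : ¬ ad a₀ c') (hne : c ≠ c') :
    (ad c c' ↔ ((univ.filter (fun y => ad a₀ y ∧ ad c y)) ∩ (univ.filter (fun y => ad a₀ y ∧ ad c' y))).card = 20) := by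
  obtain ⟨k, hk, rfl⟩ := transC c hc hc1
  have e1 := XX_inter (k c₀) c'
  unfold XX at e1
  rw [e1]
  have e2 : c' = k (k⁻¹ c') := (appInv k c').symm
  set d := k⁻¹ c' with hd
  rw [e2, count_move hk, ad_inv k hk.1]
  have hd1 : d ≠ a₀ := by
    intro e
    apply hc'
    rw [e2, e]
    exact A0_fix' hk
  have hd2 : ¬ ad a₀ d := by
    intro h
    apply hc1'
    rw [e2]
    exact (A0_ad hk).2 h
  have hd3 : d ≠ c₀ := by
    intro e
    apply hne
    rw [e2, e]
  have h1 := allB_spec _ _ _ (by norm_num) Cint_chk d.val d.2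
  have h2 : adN 235 d.val = false := by
    rw [← Bool.not_eq_true]
    exact hd2
  have h3 : Nat.beq d.val 235 = false := by
    rw [← Bool.not_eq_true, Nat.beq_eq]
    intro e
    exact hd1 (Fin.ext e)
  have h4 : Nat.beq d.val 270 = false := by
    rw [← Bool.not_eq_true, Nat.beq_eq]
    intro e
    exact hd3 (Fin.ext e)
  rw [h2, h3, h4] at h1
  have h5 := bE_spec (by simpa using h1 : bE (adN 270 d.val) (Nat.beq (cnt (tb (Nat.land (Nat.land (row 235) (row 270)) (row d.val))) 275) 20) = true)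
  rw [card_fil _ (tb (Nat.land (Nat.land (row 235) (row 270)) (row d.val)))]
  · show adN 270 d.val = true ↔ _
    rw [h5, Nat.beq_eq]
  · intro x
    rw [tb_land, tb_land, tb_row x.2, tb_row x.2, tb_row x.2]
    simp only [Bool.and_eq_true]
    unfold ad
    tauto

end Cfsg.Agent.Lib.McLRk3E
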