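import Mathlib
import Cfsg.Agent.Lib.McLRk3E

set_option autoImplicit false
set_option linter.unusedSectionVars false
set_option linter.unusedVariables false
set_option linter.style.haveILetI false
set_option linter.unusedSimpArgs false
set_option maxRecDepth 100000
set_option exponentiation.threshold 1000

/-!
# Explicit checks on the rank three graph on 275 points: the sets of lines
-/

namespace Cfsg.Agent.Lib.McLRk3G

open MulAction Finset Cfsg.Agent.Lib.McLRk3A Cfsg.Agent.Lib.McLRk3B Cfsg.Agent.Lib.McLRk3T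
  Cfsg.Agent.Lib.PermChain12 Cfsg.Agent.Lib.McLRk3E

open Cfsg.Agent.Lib.McLBridge (Pg gen_spec)

/-! ### The sets -/

theorem image_mul (a b : Pm) (s : Finset (Fin 275)) : s.image (a * b : Pm) = (s.image b).image a := by
  rw [image_image]
  rfl

/-- The mask of a set of lines. -/
noncomputable def LM (j i : ℕ) : ℕ := tg 275 M275 LT (Nat.add (Nat.mul j 162) i)

/-- The parent of a set of lines. -/
noncomputable def PR (j i : ℕ) : ℕ := tg 8 255 PT (Nat.add (Nat.mul j 162) i)

/-- The letter of a set of lines. -/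
noncomputable def GR (j i : ℕ) : ℕ := tg 8 255 GT (Nat.add (Nat.mul j 162) i)

/-- The sets of lines. -/
noncomputable def LF (j : Fin 4) (i : Fin 162) : Finset (Fin 275) := mset (LM j.val i.val)

theorem tree_chk : allB 4 2 (fun j => allB 162 8 (fun i => or (Nat.beq i 0)
    (and (Nat.ble (Nat.succ (PR j i)) i) (and (Nat.ble (Nat.succ (GR j i)) NL) (and (Nat.beq (Q (GR j i) 235) 235)
      (imgOK (GR j i) (LM j (PR j i)) (LM j i))))))) = true := by
  decide +kernel

theorem tree_spec {j i : ℕ} (hj : j < 4) (hi : i < 162) (h0 : i ≠ 0) :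
    PR j i < i ∧ GR j i < NL ∧ Lp (GR j i) ∈ A0 Pg a₀ ∧ (mset (LM j (PR j i))).image (Lp (GR j i)) = mset (LM j i) := by
  have h := allB_spec 162 8 _ (by norm_num) (allB_spec 4 2 _ (by norm_num) tree_chk j hj) i hi
  have h1 : Nat.beq i 0 = false := by
    rw [← Bool.not_eq_true, Nat.beq_eq]
    exact h0
  rw [h1] at h
  simp only [Bool.false_or, Bool.and_eq_true] at h
  obtain ⟨h2, h3, h4, h5⟩ := h
  have h6 : GR j i < NL := Nat.le_of_ble_eq_true h3
  exact ⟨Nat.le_of_ble_eq_true h2, h6, mem_A0 h6 h4, image_letter h6 h5⟩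

theorem reachN {j : ℕ} (hj : j < 4) : ∀ i, i < 162 → ∃ k ∈ A0 Pg a₀, (mset (LM j 0)).image k = mset (LM j i) := by
  intro i
  induction i using Nat.strong_induction_on with
  | _ i ih =>
    intro hi
    by_cases h0 : i = 0
    · subst h0
      refine ⟨1, (A0 Pg a₀).one_mem, ?_⟩
      ext y
      simp
    · obtain ⟨h1, h2, h3, h4⟩ := tree_spec hj hi h0
      obtain ⟨k, hk, e⟩ := ih _ h1 (by omega)
      refine ⟨Lp (GR j i) * k, (A0 Pg a₀).mul_mem h3 hk, ?_⟩
      rw [← h4, ← e, image_image]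
      rfl

theorem reach (j : Fin 4) (i : Fin 162) : ∃ k ∈ A0 Pg a₀, (LF j 0).image k = LF j i :=
  reachN j.2 i.val i.2

theorem cls_chk : allB 4 2 (fun j => allB 162 8 (fun i =>
    or (Nat.ble i 1) (or (Nat.beq i 57) (and (imgOK (GR j i) (LM j 0) (LM j 0))
      (cond (Nat.ble i 56) (Nat.ble 1 (PR j i)) (Nat.ble 57 (PR j i))))))) = true := by
  decide +kernel

theorem cls_spec {j i : ℕ} (hj : j < 4) (hi : i < 162) (h1 : 2 ≤ i) (h57 : i ≠ 57) :
    (mset (LM j 0)).image (Lp (GR j i)) = mset (LM j 0) ∧ (i ≤ 56 → 1 ≤ PR j i) ∧ (57 ≤ i → 57 ≤ PR j i) := by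
  have h := allB_spec 162 8 _ (by norm_num) (allB_spec 4 2 _ (by norm_num) cls_chk j hj) i hi
  have h2 : Nat.ble i 1 = false := by
    rw [← Bool.not_eq_true, Nat.ble_eq]
    omega
  have h3 : Nat.beq i 57 = false := by
    rw [← Bool.not_eq_true, Nat.beq_eq]
    exact h57
  rw [h2, h3] at h
  simp only [Bool.false_or, Bool.and_eq_true] at h
  obtain ⟨h4, h5⟩ := h
  have hl : GR j i < NL := (tree_spec hj hi (by omega)).2.1
  refine ⟨image_letter hl h4, ?_, ?_⟩
  · intro h6
    rw [Nat.ble_eq_true_of_le h6, cond_true] at h5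
    exact Nat.le_of_ble_eq_true h5
  · intro h6
    have h7 : Nat.ble i 56 = false := by
      rw [← Bool.not_eq_true, Nat.ble_eq]
      omega
    rw [h7, cond_false] at h5
    exact Nat.le_of_ble_eq_true h5

theorem clsXN {j : ℕ} (hj : j < 4) : ∀ i, 1 ≤ i → i ≤ 56 → ∃ r ∈ A0 Pg a₀,
    (mset (LM j 0)).image r = mset (LM j 0) ∧ (mset (LM j 1)).image r = mset (LM j i) := by
  intro i
  induction i using Nat.strong_induction_on with
  | _ i ih =>
    intro h1 h2
    by_cases h3 : i = 1
    · subst h3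
      refine ⟨1, (A0 Pg a₀).one_mem, ?_, ?_⟩ <;>
      · ext y
        simp
    · obtain ⟨h4, h5, h6, h7⟩ := tree_spec hj (by omega : i < 162) (by omega)
      obtain ⟨h8, h9, -⟩ := cls_spec hj (by omega : i < 162) (by omega) (by omega)
      obtain ⟨r, hr, e1, e2⟩ := ih _ h4 (h9 h2) (by omega)
      refine ⟨Lp (GR j i) * r, (A0 Pg a₀).mul_mem h6 hr, ?_, ?_⟩
      · rw [image_mul, e1]
        exact h8
      · rw [image_mul, e2]
        exact h7

theorem clsYN {j : ℕ} (hj : j < 4) : ∀ i, 57 ≤ i → i < 162 → ∃ r ∈ A0 Pg a₀,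
    (mset (LM j 0)).image r = mset (LM j 0) ∧ (mset (LM j 57)).image r = mset (LM j i) := by
  intro i
  induction i using Nat.strong_induction_on with
  | _ i ih =>
    intro h1 h2
    by_cases h3 : i = 57
    · subst h3
      refine ⟨1, (A0 Pg a₀).one_mem, ?_, ?_⟩ <;>
      · ext y
        simp
    · obtain ⟨h4, h5, h6, h7⟩ := tree_spec hj (by omega : i < 162) (by omega)
      obtain ⟨h8, -, h9⟩ := cls_spec hj (by omega : i < 162) (by omega) (by omega)
      obtain ⟨r, hr, e1, e2⟩ := ih _ h4 (h9 h1) (by omega)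
      refine ⟨Lp (GR j i) * r, (A0 Pg a₀).mul_mem h6 hr, ?_, ?_⟩
      · rw [image_mul, e1]
        exact h8
      · rw [image_mul, e2]
        exact h7

theorem clsX (j : Fin 4) (i : Fin 162) (h1 : 1 ≤ i.val) (h2 : i.val ≤ 56) :
    ∃ r ∈ A0 Pg a₀, (LF j 0).image r = LF j 0 ∧ (LF j 1).image r = LF j i :=
  clsXN j.2 i.val h1 h2

theorem clsY (j : Fin 4) (i : Fin 162) (h1 : 57 ≤ i.val) :
    ∃ r ∈ A0 Pg a₀, (LF j 0).image r = LF j 0 ∧ (LF j 57).image r = LF j i :=
  clsYN j.2 i.val h1 i.2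

theorem inj_chk : allB 4 2 (fun j => allB 162 8 (fun i => allB 162 8 (fun i' =>
    or (Nat.beq i i') (not (Nat.beq (LM j i) (LM j i')))))) = true := by
  decide +kernel

theorem LM_lt (j i : ℕ) : LM j i < 2 ^ 275 := by
  have h : LM j i ≤ M275 := by
    unfold LM tg
    exact Nat.and_le_right
  rw [M275_eq] at h
  have : 0 < 2 ^ 275 := by positivity
  omega

theorem mset_inj {m m' : ℕ} (hm : m < 2 ^ 275) (hm' : m' < 2 ^ 275) (h : mset m = mset m') : m = m' := by
  apply Nat.eq_of_testBit_eq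
  intro x
  by_cases hx : x < 275
  · have h1 : (⟨x, hx⟩ : Fin 275) ∈ mset m ↔ (⟨x, hx⟩ : Fin 275) ∈ mset m' := by rw [h]
    rw [mem_mset, mem_mset] at h1
    rw [← tb_eq, ← tb_eq]
    exact Bool.eq_iff_iff.2 h1
  · have hx' : 2 ^ 275 ≤ 2 ^ x := Nat.pow_le_pow_right (by norm_num) (by omega)
    rw [Nat.testBit_lt_two_pow (by omega), Nat.testBit_lt_two_pow (by omega)]

theorem L_inj (j : Fin 4) : Function.Injective (LF j) := by
  intro i i' e
  have h1 := mset_inj (LM_lt _ _) (LM_lt _ _) e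
  have h := allB_spec 162 8 _ (by norm_num) (allB_spec 162 8 _ (by norm_num) (allB_spec 4 2 _ (by norm_num) inj_chk j.val j.2)
    i.val i.2) i'.val i'.2
  rw [Bool.or_eq_true] at h
  rcases h with h | h
  · exact Fin.ext (Nat.eq_of_beq_eq_true h)
  · rw [h1] at h
    simp at h

theorem int_chk : allB 4 2 (fun j => allB 162 8 (fun i => or (Nat.beq i 0)
    (Nat.beq (cnt (tb (Nat.land (LM j 0) (LM j i))) 275) (cond (Nat.ble i 56) 20 32)))) = true := by
  decide +kernel

theorem int_spec (j : Fin 4) (i : Fin 162) (h0 : 1 ≤ i.val) :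
    (LF j 0 ∩ LF j i).card = cond (Nat.ble i.val 56) 20 32 := by
  have h := allB_spec 162 8 _ (by norm_num) (allB_spec 4 2 _ (by norm_num) int_chk j.val j.2) i.val i.2
  have h1 : Nat.beq i.val 0 = false := by
    rw [← Bool.not_eq_true, Nat.beq_eq]
    omega
  rw [h1, Bool.false_or] at h
  have e : LF j 0 ∩ LF j i = univ.filter (fun y : Fin 275 => tb (Nat.land (LM j.val 0) (LM j.val i.val)) y.val = true) := by
    ext y
    simp only [LF, mem_inter, mem_mset, mem_filter, mem_univ, true_and, tb_land, Bool.and_eq_true]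
    rfl
  rw [e, card_fil _ (tb (Nat.land (LM j.val 0) (LM j.val i.val))) (fun x => Iff.rfl)]
  exact Nat.eq_of_beq_eq_true h

theorem intX (j : Fin 4) (i : Fin 162) (h1 : 1 ≤ i.val) (h2 : i.val ≤ 56) : (LF j 0 ∩ LF j i).card = 20 := by
  rw [int_spec j i h1, Nat.ble_eq_true_of_le h2, cond_true]

theorem intY (j : Fin 4) (i : Fin 162) (h1 : 57 ≤ i.val) : (LF j 0 ∩ LF j i).card = 32 := by
  have h7 : Nat.ble i.val 56 = false := by
    rw [← Bool.not_eq_true, Nat.ble_eq]
    omega
  rw [int_spec j i (by omega), h7, cond_false]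

/-! ### The graph maps and the vertices -/

/-- The value of a graph map. -/
noncomputable def SGM (j x : ℕ) : ℕ := tg 9 511 SGT (Nat.add (Nat.mul j 275) x)

/-- The vertex of a set of lines. -/
noncomputable def PIM (j i : ℕ) : ℕ := tg 9 511 IT (Nat.add (Nat.mul j 162) i)

theorem sig_chk : allB 4 2 (fun j => allB 275 9 (fun x => and (Nat.ble (Nat.succ (SGM j x)) 275)
    (allB 275 9 (fun y => or (Nat.beq x y) (not (Nat.beq (SGM j x) (SGM j y))))))) = true := by
  decide +kernel

theorem sig_lt (j : Fin 4) (x : Fin 275) : SGM j.val x.val < 275 := by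
  have h := allB_spec 275 9 _ (by norm_num) (allB_spec 4 2 _ (by norm_num) sig_chk j.val j.2) x.val x.2
  rw [Bool.and_eq_true] at h
  exact Nat.le_of_ble_eq_true h.1

theorem sig_inj (j : Fin 4) {x y : Fin 275} (h : SGM j.val x.val = SGM j.val y.val) : x = y := by
  have h1 := allB_spec 275 9 _ (by norm_num) (allB_spec 4 2 _ (by norm_num) sig_chk j.val j.2) x.val x.2
  rw [Bool.and_eq_true] at h1
  have h2 := allB_spec 275 9 _ (by norm_num) h1.2 y.val y.2
  rw [Bool.or_eq_true] at h2
  rcases h2 with h2 | h2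
  · exact Fin.ext (Nat.eq_of_beq_eq_true h2)
  · rw [h] at h2
    simp at h2

/-- The graph maps. -/
noncomputable def sig (j : Fin 4) : Pm :=
  Equiv.ofBijective (fun x => (⟨SGM j.val x.val, sig_lt j x⟩ : Fin 275))
    (Finite.injective_iff_bijective.1 (fun x y e => sig_inj j (congrArg Fin.val e)))

theorem sig_val (j : Fin 4) (x : Fin 275) : (sig j x).val = SGM j.val x.val := rfl

theorem sB_chk : allB 4 2 (fun j => allB 275 9 (fun y => or (not (adN 235 y)) (adN 235 (SGM j y)))) = true := by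
  decide +kernel

theorem σ_B (j : Fin 4) (y : Fin 275) (hy : ad a₀ y) : ad a₀ (sig j y) := by
  have h := allB_spec 275 9 _ (by norm_num) (allB_spec 4 2 _ (by norm_num) sB_chk j.val j.2) y.val y.2
  have hy' : adN 235 y.val = true := hy
  rw [hy'] at h
  show adN 235 (SGM j.val y.val) = true
  simpa using h

theorem sAd_chk : allB 4 2 (fun j => allB 275 9 (fun y => or (not (adN 235 y)) (allB 275 9 (fun y' =>
    or (not (adN 235 y')) (bE (adN (SGM j y) (SGM j y')) (adN y y')))))) = true := by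
  decide +kernel

theorem σ_ad (j : Fin 4) (y y' : Fin 275) (hy : ad a₀ y) (hy' : ad a₀ y') : ad (sig j y) (sig j y') ↔ ad y y' := by
  have h := allB_spec 275 9 _ (by norm_num) (allB_spec 4 2 _ (by norm_num) sAd_chk j.val j.2) y.val y.2
  have h1 : adN 235 y.val = true := hy
  rw [h1] at h
  have h2 := allB_spec 275 9 _ (by norm_num) (by simpa using h) y'.val y'.2
  have h3 : adN 235 y'.val = true := hy'
  rw [h3] at h2
  have h4 := bE_spec (by simpa using h2 : bE (adN (SGM j.val y.val) (SGM j.val y'.val)) (adN y.val y'.val) = true)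
  show adN (SGM j.val y.val) (SGM j.val y'.val) = true ↔ adN y.val y'.val = true
  rw [h4]

theorem pi_chk : allB 4 2 (fun j => allB 162 8 (fun i => and (Nat.ble (Nat.succ (PIM j i)) 275)
    (and (not (Nat.beq (PIM j i) 235)) (not (adN 235 (PIM j i)))))) = true := by
  decide +kernel

theorem pi_lt (j : Fin 4) (i : Fin 162) : PIM j.val i.val < 275 := by
  have h := allB_spec 162 8 _ (by norm_num) (allB_spec 4 2 _ (by norm_num) pi_chk j.val j.2) i.val i.2
  rw [Bool.and_eq_true] at h
  exact Nat.le_of_ble_eq_true h.1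

/-- The vertices. -/
noncomputable def piF (j : Fin 4) (i : Fin 162) : Fin 275 := ⟨PIM j.val i.val, pi_lt j i⟩

theorem π_C (j : Fin 4) (i : Fin 162) : piF j i ≠ a₀ ∧ ¬ ad a₀ (piF j i) := by
  have h := allB_spec 162 8 _ (by norm_num) (allB_spec 4 2 _ (by norm_num) pi_chk j.val j.2) i.val i.2
  simp only [Bool.and_eq_true, Bool.not_eq_true'] at h
  obtain ⟨-, h1, h2⟩ := h
  constructor
  · intro e
    have e1 : PIM j.val i.val = 235 := congrArg Fin.val e
    rw [e1] at h1
    exact absurd h1 (by decide)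
  · intro h3
    have h4 : adN 235 (PIM j.val i.val) = true := h3
    rw [h4] at h2
    exact absurd h2 (by decide)

theorem pInj_chk : allB 4 2 (fun j => allB 162 8 (fun i => allB 162 8 (fun i' =>
    or (Nat.beq i i') (not (Nat.beq (PIM j i) (PIM j i')))))) = true := by
  decide +kernel

theorem π_inj (j : Fin 4) : Function.Injective (piF j) := by
  intro i i' e
  have h1 : PIM j.val i.val = PIM j.val i'.val := congrArg Fin.val e
  have h := allB_spec 162 8 _ (by norm_num) (allB_spec 162 8 _ (by norm_num) (allB_spec 4 2 _ (by norm_num) pInj_chk j.val j.2)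
    i.val i.2) i'.val i'.2
  rw [Bool.or_eq_true] at h
  rcases h with h | h
  · exact Fin.ext (Nat.eq_of_beq_eq_true h)
  · rw [h1] at h
    simp at h

theorem pSpec_chk : allB 4 2 (fun j => allB 162 8 (fun i => allB 275 9 (fun y =>
    bE (tb (LM j i) y) (and (adN 235 (SGM j y)) (adN (PIM j i) (SGM j y)))))) = true := by
  decide +kernel

theorem π_spec (j : Fin 4) (i : Fin 162) :
    (LF j i).image (sig j) = univ.filter (fun y => ad a₀ y ∧ ad (piF j i) y) := by
  have h := allB_spec 162 8 _ (by norm_num) (allB_spec 4 2 _ (by norm_num) pSpec_chk j.val j.2) i.val i.2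
  have key : ∀ x : Fin 275, x ∈ LF j i ↔ (ad a₀ (sig j x) ∧ ad (piF j i) (sig j x)) := by
    intro x
    have h1 := bE_spec (allB_spec 275 9 _ (by norm_num) h x.val x.2)
    unfold LF
    rw [mem_mset, h1, Bool.and_eq_true]
    exact Iff.rfl
  ext y
  simp only [mem_image, mem_filter, mem_univ, true_and]
  constructor
  · rintro ⟨x, hx, rfl⟩
    exact (key x).1 hx
  · intro hy
    refine ⟨(sig j)⁻¹ y, ?_, appInv _ _⟩
    rw [key, appInv]
    exact hy

end Cfsg.Agent.Lib.McLRk3G
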