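import Mathlib
import Cfsg.Agent.Lib.McLRk3G

set_option autoImplicit false
set_option linter.unusedSectionVars false
set_option linter.unusedVariables false
set_option linter.style.haveILetI false
set_option linter.unusedSimpArgs false
set_option maxRecDepth 100000
set_option exponentiation.threshold 1000

/-!
# Explicit checks on the rank three graph on 275 points: the invariant sets
-/

namespace Cfsg.Agent.Lib.McLRk3H

open MulAction Finset Cfsg.Agent.Lib.McLRk3A Cfsg.Agent.Lib.McLRk3B Cfsg.Agent.Lib.McLRk3T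
  Cfsg.Agent.Lib.PermChain12 Cfsg.Agent.Lib.McLRk3E Cfsg.Agent.Lib.McLRk3G

open Cfsg.Agent.Lib.McLBridge (Pg gen_spec)

/-! ### The element of order seven -/

/-- The element of order seven. -/
noncomputable abbrev t : Pm := Lp 1

theorem t_mem : t ∈ A0 Pg a₀ := mem_A0 (by norm_num) (by decide +kernel)

/-- Iterating the element. -/
noncomputable def tIter (k x : ℕ) : ℕ := Nat.rec (motive := fun _ => ℕ) x (fun _ ih => Q 1 ih) k

theorem tpow_val (k : ℕ) (x : Fin 275) : ((t ^ k) x).val = tIter k x.val := by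
  induction k with
  | zero => rfl
  | succ k ih =>
    rw [pow_succ', Equiv.Perm.mul_apply, Lp_val (by norm_num), ih]
    rfl

theorem t7_chk : allB 275 9 (fun x => Nat.beq (tIter 7 x) x) = true := by decide +kernel

theorem t_move : Q 1 0 ≠ 0 := by decide +kernel

theorem t_ord : orderOf t = 7 := by
  haveI : Fact (Nat.Prime 7) := ⟨by norm_num⟩
  apply orderOf_eq_prime
  · ext x
    rw [tpow_val]
    exact Nat.eq_of_beq_eq_true (allB_spec 275 9 _ (by norm_num) t7_chk x.val x.2)
  · intro h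
    apply t_move
    have h1 : (t y₀).val = Q 1 0 := Lp_val (by norm_num) y₀
    rw [← h1, h]
    rfl

/-! ### The cliques -/

/-- A point of a clique. -/
noncomputable def kp (k n : ℕ) : ℕ := tg 9 511 CL (Nat.add (Nat.mul k 4) n)

/-- A point of a clique. -/
noncomputable def pf (k n : ℕ) : Fin 275 := ⟨kp k n % 275, Nat.mod_lt _ (by norm_num)⟩

/-- A clique. -/
noncomputable def Kf (k : ℕ) : Finset (Fin 275) := (range 4).image (pf k)

/-- The cliques. -/
noncomputable def KL : List (Finset (Fin 275)) := (List.range 8).map Kf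

theorem K_chk : allB 8 3 (fun k => allB 4 2 (fun n => and (Nat.ble (Nat.succ (kp k n)) 275) (and (adN 235 (kp k n))
    (allB 4 2 (fun n' => or (Nat.beq n n') (and (not (Nat.beq (kp k n) (kp k n'))) (adN (kp k n) (kp k n')))))))) = true := by
  decide +kernel

theorem K_spec {k n : ℕ} (hk : k < 8) (hn : n < 4) : (pf k n).val = kp k n ∧ ad a₀ (pf k n) ∧
    ∀ n', n' < 4 → n ≠ n' → (pf k n ≠ pf k n' ∧ ad (pf k n) (pf k n')) := by
  have h := allB_spec 4 2 _ (by norm_num) (allB_spec 8 3 _ (by norm_num) K_chk k hk) n hn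
  simp only [Bool.and_eq_true] at h
  obtain ⟨h1, h2, h3⟩ := h
  have hv : ∀ n', n' < 4 → (pf k n').val = kp k n' := by
    intro n' hn'
    have h4 := allB_spec 4 2 _ (by norm_num) (allB_spec 8 3 _ (by norm_num) K_chk k hk) n' hn'
    simp only [Bool.and_eq_true] at h4
    exact Nat.mod_eq_of_lt (Nat.le_of_ble_eq_true h4.1)
  refine ⟨hv n hn, ?_, ?_⟩
  · show adN a₀.val (pf k n).val = true
    rw [hv n hn]
    exact h2
  · intro n' hn' hne
    have h4 := allB_spec 4 2 _ (by norm_num) h3 n' hn'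
    rw [Bool.or_eq_true, Bool.and_eq_true] at h4
    rcases h4 with h4 | ⟨h4, h5⟩
    · exact absurd (Nat.eq_of_beq_eq_true h4) hne
    · constructor
      · intro e
        have e1 : kp k n = kp k n' := by
          rw [← hv n hn, ← hv n' hn', e]
        rw [e1] at h4
        simp at h4
      · show adN (pf k n).val (pf k n').val = true
        rw [hv n hn, hv n' hn']
        exact h5

theorem Kf_inj {k : ℕ} (hk : k < 8) : Set.InjOn (pf k) (↑(range 4) : Set ℕ) := by
  intro n hn n' hn' e
  simp only [coe_range, Set.mem_Iio] at hn hn'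
  by_contra hne
  exact (K_spec hk hn).2.2 n' hn' hne |>.1 e

theorem KK_spec (K : Finset (Fin 275)) (hK : K ∈ KL) :
    K.card = 4 ∧ (∀ x ∈ K, ad a₀ x) ∧ (∀ x ∈ K, ∀ y ∈ K, x ≠ y → ad x y) := by
  obtain ⟨k, hk, rfl⟩ := List.mem_map.1 hK
  have hk' : k < 8 := List.mem_range.1 hk
  refine ⟨?_, ?_, ?_⟩
  · unfold Kf
    rw [card_image_of_injOn (Kf_inj hk')]
    simp
  · intro x hx
    obtain ⟨n, hn, rfl⟩ := mem_image.1 hx
    exact (K_spec hk' (mem_range.1 hn)).2.1
  · intro x hx y hy hne
    obtain ⟨n, hn, rfl⟩ := mem_image.1 hx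
    obtain ⟨n', hn', rfl⟩ := mem_image.1 hy
    have hnn : n ≠ n' := by
      rintro rfl
      exact hne rfl
    exact ((K_spec hk' (mem_range.1 hn)).2.2 n' (mem_range.1 hn') hnn).2

/-! ### The invariant sets -/

/-- The orbit of a line. -/
noncomputable def OIf (y : ℕ) : ℕ := tg 5 31 OT y
/-- The exponent of a line. -/
noncomputable def KIf (y : ℕ) : ℕ := tg 3 7 KIT y
/-- The base line of an orbit. -/
noncomputable def ROf (i : ℕ) : ℕ := tg 9 511 RO i
/-- The four solutions. -/
noncomputable def sol (j : ℕ) : ℕ := tg 16 65535 SL j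

/-- The base line of an orbit. -/
noncomputable def rep (i : ℕ) : Fin 275 := ⟨ROf i % 275, Nat.mod_lt _ (by norm_num)⟩

theorem orb_chk : allB 275 9 (fun y => or (not (adN 235 y)) (and (Nat.ble (Nat.succ (OIf y)) 16)
    (and (Nat.ble (Nat.succ (ROf (OIf y))) 275) (Nat.beq (tIter (KIf y) (ROf (OIf y))) y)))) = true := by
  decide +kernel

theorem orb_spec (y : Fin 275) (hy : ad a₀ y) : OIf y.val < 16 ∧ (t ^ (KIf y.val)) (rep (OIf y.val)) = y := by
  have h := allB_spec 275 9 _ (by norm_num) orb_chk y.val y.2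
  have h0 : adN 235 y.val = true := hy
  rw [h0] at h
  simp only [Bool.not_true, Bool.false_or, Bool.and_eq_true] at h
  obtain ⟨h1, h2, h3⟩ := h
  refine ⟨Nat.le_of_ble_eq_true h1, ?_⟩
  apply Fin.ext
  rw [tpow_val]
  have e : (rep (OIf y.val)).val = ROf (OIf y.val) := Nat.mod_eq_of_lt (Nat.le_of_ble_eq_true h2)
  rw [e]
  exact Nat.eq_of_beq_eq_true h3

/-- The value of a bit. -/
noncomputable def bitv (e i : ℕ) : ℕ := cond (tb e i) 1 0

/-- The sum over a clique. -/
noncomputable def bsum (e k : ℕ) : ℕ :=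
  Nat.add (bitv e (OIf (kp k 0))) (Nat.add (bitv e (OIf (kp k 1))) (Nat.add (bitv e (OIf (kp k 2))) (bitv e (OIf (kp k 3)))))

/-- The clique conditions. -/
noncomputable def clq (e : ℕ) : Bool :=
  and (Nat.beq (bsum e 0) 2) (and (Nat.beq (bsum e 1) 2) (and (Nat.beq (bsum e 2) 2) (and (Nat.beq (bsum e 3) 2)
    (and (Nat.beq (bsum e 4) 2) (and (Nat.beq (bsum e 5) 2) (and (Nat.beq (bsum e 6) 2) (Nat.beq (bsum e 7) 2)))))))

/-- The solutions. -/
noncomputable def solq (e : ℕ) : Bool :=
  or (Nat.beq e (sol 0)) (or (Nat.beq e (sol 1)) (or (Nat.beq e (sol 2)) (Nat.beq e (sol 3))))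

theorem hemi_chk : allB 65536 16 (fun e => or (not (clq e)) (solq e)) = true := by
  decide +kernel

theorem sol_chk : allB 4 2 (fun j => allB 275 9 (fun y =>
    bE (tb (LM j 0) y) (and (adN 235 y) (tb (sol j) (OIf y))))) = true := by
  decide +kernel

theorem exists_bits (f : ℕ → Bool) (n : ℕ) : ∃ e, e < 2 ^ n ∧ ∀ i, i < n → tb e i = f i := by
  induction n with
  | zero => exact ⟨0, by norm_num, fun i hi => absurd hi (by omega)⟩
  | succ n ih =>
    obtain ⟨e, he, h⟩ := ih
    have hle : 2 ^ n ≤ 2 ^ (n + 1) := Nat.pow_le_pow_right (by norm_num) (by omega)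
    cases hf : f n
    · refine ⟨e, by omega, ?_⟩
      intro i hi
      by_cases hin : i = n
      · subst hin
        rw [hf, tb_eq]
        exact Nat.testBit_lt_two_pow he
      · exact h i (by omega)
    · refine ⟨e ||| 2 ^ n, ?_, ?_⟩
      · apply Nat.or_lt_two_pow <;> omega
      · intro i hi
        rw [tb_eq, Nat.testBit_or, Nat.testBit_two_pow]
        by_cases hin : i = n
        · subst hin
          simp [hf]
        · have : decide (n = i) = false := by
            simp
            omega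
          rw [this, Bool.or_false, ← tb_eq]
          exact h i (by omega)

theorem card_clique (S : Finset (Fin 275)) {k : ℕ} (hk : k < 8) :
    (S ∩ Kf k).card = (if pf k 0 ∈ S then 1 else 0) + ((if pf k 1 ∈ S then 1 else 0) +
      ((if pf k 2 ∈ S then 1 else 0) + (if pf k 3 ∈ S then 1 else 0))) := by
  have e : S ∩ Kf k = (Kf k).filter (fun x => x ∈ S) := by
    ext x
    simp only [mem_inter, mem_filter]
    tauto
  rw [e, card_filter]
  unfold Kf
  rw [sum_image (Kf_inj hk)]
  simp only [sum_range_succ, range_zero, sum_empty]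
  omega

theorem hemi (S : Finset (Fin 275)) (h1 : ∀ x ∈ S, ad a₀ x) (h2 : S.image t = S) (h3 : ∀ K ∈ KL, (S ∩ K).card = 2) :
    ∃ j, S = LF j 0 := by
  classical
  have mem_t : ∀ x, t x ∈ S ↔ x ∈ S := by
    intro x
    constructor
    · intro hx
      rw [← h2] at hx
      obtain ⟨x', hx', e⟩ := mem_image.1 hx
      rwa [← t.injective e]
    · intro hx
      rw [← h2]
      exact mem_image_of_mem _ hx
  have mem_tk : ∀ k x, (t ^ k) x ∈ S ↔ x ∈ S := by
    intro k x
    induction k with
    | zero => rfl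
    | succ k ih =>
      rw [pow_succ', Equiv.Perm.mul_apply, mem_t, ih]
  have key1 : ∀ y, ad a₀ y → (y ∈ S ↔ rep (OIf y.val) ∈ S) := by
    intro y hy
    obtain ⟨-, e⟩ := orb_spec y hy
    rw [← mem_tk (KIf y.val) (rep (OIf y.val)), e]
  obtain ⟨e, he, hbits⟩ := exists_bits (fun i => decide (rep i ∈ S)) 16
  have key2 : ∀ y, ad a₀ y → (y ∈ S ↔ tb e (OIf y.val) = true) := by
    intro y hy
    rw [key1 y hy, hbits _ (orb_spec y hy).1]
    simp
  have hbv : ∀ y, ad a₀ y → bitv e (OIf y.val) = if y ∈ S then 1 else 0 := by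
    intro y hy
    unfold bitv
    by_cases hS : y ∈ S
    · rw [if_pos hS, (key2 y hy).1 hS]
      rfl
    · have : tb e (OIf y.val) = false := by
        rw [← Bool.not_eq_true]
        exact fun h => hS ((key2 y hy).2 h)
      rw [if_neg hS, this]
      rfl
  have hcl : ∀ k, k < 8 → Nat.beq (bsum e k) 2 = true := by
    intro k hk
    have h4 := h3 (Kf k) (List.mem_map.2 ⟨k, List.mem_range.2 hk, rfl⟩)
    rw [card_clique S hk, ← hbv _ (K_spec hk (by norm_num : 0 < 4)).2.1, ← hbv _ (K_spec hk (by norm_num : 1 < 4)).2.1,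
      ← hbv _ (K_spec hk (by norm_num : 2 < 4)).2.1, ← hbv _ (K_spec hk (by norm_num : 3 < 4)).2.1,
      (K_spec hk (by norm_num : 0 < 4)).1, (K_spec hk (by norm_num : 1 < 4)).1,
      (K_spec hk (by norm_num : 2 < 4)).1, (K_spec hk (by norm_num : 3 < 4)).1] at h4
    unfold bsum
    rw [Nat.beq_eq]
    exact h4
  have hclq : clq e = true := by
    unfold clq
    simp only [Bool.and_eq_true]
    exact ⟨hcl 0 (by norm_num), hcl 1 (by norm_num), hcl 2 (by norm_num), hcl 3 (by norm_num), hcl 4 (by norm_num),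
      hcl 5 (by norm_num), hcl 6 (by norm_num), hcl 7 (by norm_num)⟩
  have hs := allB_spec 65536 16 _ (by norm_num) hemi_chk e (by norm_num at he; exact he)
  rw [hclq] at hs
  simp only [Bool.not_true, Bool.false_or] at hs
  have hj : ∃ j : Fin 4, e = sol j.val := by
    unfold solq at hs
    simp only [Bool.or_eq_true] at hs
    rcases hs with h | h | h | h
    · exact ⟨0, Nat.eq_of_beq_eq_true h⟩
    · exact ⟨1, Nat.eq_of_beq_eq_true h⟩
    · exact ⟨2, Nat.eq_of_beq_eq_true h⟩
    · exact ⟨3, Nat.eq_of_beq_eq_true h⟩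
  obtain ⟨j, rfl⟩ := hj
  refine ⟨j, ?_⟩
  ext y
  have h5 := bE_spec (allB_spec 275 9 _ (by norm_num) (allB_spec 4 2 _ (by norm_num) sol_chk j.val j.2) y.val y.2)
  have e0 : ((0 : Fin 162) : ℕ) = 0 := rfl
  unfold LF
  rw [mem_mset, e0, h5, Bool.and_eq_true]
  constructor
  · intro hy
    have hy' := h1 y hy
    exact ⟨hy', (key2 y hy').1 hy⟩
  · rintro ⟨h6, h7⟩
    exact (key2 y h6).2 h7

end Cfsg.Agent.Lib.McLRk3H
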