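import Mathlib
import Cfsg.Agent.Lib.U43LatData
import Cfsg.Agent.Lib.FiTU2
import Cfsg.Agent.Lib.CoU43
import Cfsg.Agent.Lib.Co0Order
import Cfsg.Agent.Lib.MonsterTrans
import Cfsg.Agent.S1578
import Cfsg.Agent.S1579
import Cfsg.Agent.S1580

/-!
# The stabilizer of three vectors of the lattice permutes `280` sets of vectors as `PSU(4, 3)`.
-/

set_option autoImplicit false
set_option maxRecDepth 100000

open Cfsg Cfsg.Agent.Lib.Leech Cfsg.Agent.Lib.Co0Mono Cfsg.Agent.Lib.Co0Frame
open Cfsg.Agent.Lib.U43LatData Cfsg.Agent.Lib.FiTData Cfsg.Agent.Lib.CoVec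
open Cfsg.Agent.Lib.FiTU (piF piN iota0 g1 g2 g3 T0 iota_g1 iota_g2 iota_g3 iota_T0 all_mem iota iota_mk iota_inj card_PSU)
open Cfsg.Agent.Lib.Golay (decode isM24 decode_mem_M24 reduce)
open Cfsg.Agent.Lib.F9K (K9)

namespace Cfsg.Agent.Lib.U43LatA

/-! ### The vectors -/

/-- The code of a vector. -/
def yN (i : ℕ) : ℕ := Nat.land (Nat.shiftRight yP (Nat.mul 192 i)) (Nat.sub (2 ^ 192) 1)

theorem y_ok : ∀ i : Fin 112, memL (yN i) = true ∧ Nat.blt (yN i) (2 ^ 192) = true ∧ Nat.ble (sqN (yN i)) 2000 = true := by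
  decide +kernel

theorem lt_of_blt {a b : ℕ} (h : Nat.blt a b = true) : a < b := by simpa [Nat.blt_eq] using h

theorem st_of {n : ℕ} (h1 : memL n = true) (h2 : Nat.blt n (2 ^ 192) = true) (h3 : Nat.ble (sqN n) 2000 = true) : St n := by
  refine ⟨lt_of_blt h2, mem_of_memL h1, ?_⟩
  rw [sqNorm_dec]
  exact_mod_cast Nat.le_of_ble_eq_true h3

theorem y_st (i : Fin 112) : St (yN i) := st_of (y_ok i).1 (y_ok i).2.1 (y_ok i).2.2

/-- The vectors. -/
def yV (i : Fin 112) : leechLattice := (y_st i).vec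

theorem yN_inj : ∀ i j : Fin 112, yN i = yN j → i = j := by decide +kernel

theorem yV_inj : Function.Injective yV := by
  intro i j h
  apply yN_inj
  have h1 : dec (yN i) = dec (yN j) := congrArg Subtype.val h
  exact dec_injOn (y_st i).1 (y_st j).1 h1

theorem u_ok : memL uT = true ∧ Nat.blt uT (2 ^ 192) = true ∧ sqN uT = 48 := by decide +kernel
theorem v_ok : memL vT = true ∧ Nat.blt vT (2 ^ 192) = true ∧ sqN vT = 32 := by decide +kernel
theorem x_ok : memL xT = true ∧ Nat.blt xT (2 ^ 192) = true ∧ sqN xT = 32 := by decide +kernel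

theorem st_of' {n k : ℕ} (h1 : memL n = true) (h2 : Nat.blt n (2 ^ 192) = true) (h3 : sqN n = k) (hk : k ≤ 2000) : St n := by
  refine ⟨lt_of_blt h2, mem_of_memL h1, ?_⟩
  rw [sqNorm_dec, h3]
  exact_mod_cast hk

theorem u_st : St uT := st_of' u_ok.1 u_ok.2.1 u_ok.2.2 (by norm_num)
theorem v_st : St vT := st_of' v_ok.1 v_ok.2.1 v_ok.2.2 (by norm_num)
theorem x_st : St xT := st_of' x_ok.1 x_ok.2.1 x_ok.2.2 (by norm_num)

/-- The vector of norm `48`. -/
def uV : leechLattice := u_st.vec
/-- A minimal vector. -/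
def vV : leechLattice := v_st.vec
/-- A second minimal vector. -/
def xV : leechLattice := x_st.vec

theorem norm_uV : sqNorm (uV : GolayPt → ℤ) = 48 := by
  show sqNorm (dec uT) = 48
  rw [sqNorm_dec, u_ok.2.2]
  rfl

theorem norm_vV : sqNorm (vV : GolayPt → ℤ) = 32 := by
  show sqNorm (dec vT) = 32
  rw [sqNorm_dec, v_ok.2.2]
  rfl

theorem norm_xV : sqNorm (xV : GolayPt → ℤ) = 32 := by
  show sqNorm (dec xT) = 32
  rw [sqNorm_dec, x_ok.2.2]
  rfl

/-! ### The stabilizer -/

/-- The stabilizer of the three vectors. -/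
noncomputable abbrev S0 : Subgroup Co0 :=
  MulAction.stabilizer Co0 uV ⊓ MulAction.stabilizer Co0 vV ⊓ MulAction.stabilizer Co0 xV

theorem fix_of {g : Co0} {f : ℕ → ℕ} (hf : ActsOn g f) {n : ℕ} (hn : St n) (h : f n = n) : g • hn.vec = hn.vec := by
  apply Subtype.ext
  have h1 := (hf n hn).2
  rw [h] at h1
  exact h1

theorem mem_S0 {g : Co0} {f : ℕ → ℕ} (hf : ActsOn g f) (h1 : f uT = uT) (h2 : f vT = vT) (h3 : f xT = xT) : g ∈ S0 :=
  ⟨⟨fix_of hf u_st h1, fix_of hf v_st h2⟩, fix_of hf x_st h3⟩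

/-! ### The family -/

/-- A member of a set of the family. -/
def spN (j k : ℕ) : ℕ := Nat.land (Nat.shiftRight spQ (Nat.mul 7 (Nat.add (Nat.mul 4 j) k))) 127

/-- The members of a set of the family. -/
def spE (j : ℕ) : List ℕ := (List.range 4).map (spN j)

theorem spE_lt : ∀ j : Fin 280, (spE j).all (Nat.blt · 112) = true := by decide +kernel

theorem spE_lt' {j : Fin 280} {n : ℕ} (h : n ∈ spE j) : n < 112 :=
  lt_of_blt (List.all_eq_true.1 (spE_lt j) n h)

theorem spE_nodup : ∀ j : Fin 280, (spE j).Nodup := by decide +kernel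

/-- A set of the family, by numbers. -/
def II (j : Fin 280) : Finset (Fin 112) := Finset.univ.filter fun b => b.val ∈ spE j

theorem mem_II {j : Fin 280} {b : Fin 112} : b ∈ II j ↔ b.val ∈ spE j := by
  simp [II]

attribute [local irreducible] II

theorem image_II (j : Fin 280) : (II j).image Fin.val = (spE j).toFinset := by
  ext n
  simp only [Finset.mem_image, List.mem_toFinset, mem_II]
  constructor
  · rintro ⟨b, hb, rfl⟩
    exact hb
  · intro h
    exact ⟨⟨n, spE_lt' h⟩, h, rfl⟩

theorem card_II (j : Fin 280) : (II j).card = 4 := by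
  have h1 : ((II j).image Fin.val).card = (II j).card := Finset.card_image_of_injective _ Fin.val_injective
  rw [← h1, image_II, List.toFinset_card_of_nodup (spE_nodup j)]
  simp [spE]

/-- A sum determining the set. -/
def key (j : ℕ) : ℕ := ((spE j).map fun n => n ^ 3).sum

theorem key_nodup : ((List.range 280).map key).Nodup := by decide +kernel

theorem key_eq (j : Fin 280) : ∑ b ∈ II j, (b.val : ℕ) ^ 3 = key j := by
  have h1 : ∑ n ∈ (II j).image Fin.val, n ^ 3 = ∑ b ∈ II j, (b.val : ℕ) ^ 3 :=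
    Finset.sum_image (fun a _ b _ h => Fin.val_injective h)
  rw [← h1, image_II]
  exact List.sum_toFinset _ (spE_nodup j)

theorem II_inj {j k : Fin 280} (h : II j = II k) : j = k := by
  have h1 : key j = key k := by
    rw [← key_eq, ← key_eq, h]
  have h2 := (List.inj_on_of_nodup_map key_nodup) (List.mem_range.2 j.2) (List.mem_range.2 k.2) h1
  exact Fin.ext h2

open Classical in
/-- A set of the family. -/
noncomputable def Sp (j : Fin 280) : Finset leechLattice := (II j).image yV

theorem Sp_inj {j k : Fin 280} (h : Sp j = Sp k) : j = k :=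
  II_inj (Finset.image_injective yV_inj h)

open Classical in
theorem card_Sp (j : Fin 280) : (Sp j).card = 4 := by
  unfold Sp
  rw [Finset.card_image_of_injective _ yV_inj, card_II]

open Classical in
/-- A permutation mapping the members of one set into another. -/
theorem image_of {a : Equiv.Perm leechLattice} {j j' : Fin 280} (h : ∀ b ∈ Sp j, a b ∈ Sp j') :
    (Sp j).image a = Sp j' := by
  apply Finset.eq_of_subset_of_card_le
  · intro b hb
    obtain ⟨c, hc, rfl⟩ := Finset.mem_image.1 hb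
    exact h c hc
  · rw [Finset.card_image_of_injective _ a.injective, card_Sp, card_Sp]

attribute [local irreducible] Sp

/-! ### The stabilizer of the family -/

open Classical in
/-- The permutation preserves the family. -/
def Pres (a : Equiv.Perm leechLattice) : Prop := ∀ j : Fin 280, ∃ j' : Fin 280, (Sp j).image a = Sp j'

open Classical in
theorem Pres_inv {a : Equiv.Perm leechLattice} (h : Pres a) : Pres a⁻¹ := by
  choose f hf using h
  have hinj : Function.Injective f := by
    intro j k e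
    apply Sp_inj
    have h1 : (Sp j).image a = (Sp k).image a := by rw [hf, hf, e]
    exact Finset.image_injective a.injective h1
  have hs : Function.Surjective f := Finite.surjective_of_injective hinj
  intro j
  obtain ⟨k, rfl⟩ := hs j
  refine ⟨k, ?_⟩
  rw [← hf, Finset.image_image]
  have : (⇑a⁻¹ ∘ ⇑a) = id := by
    funext x
    simp
  rw [this, Finset.image_id]

open Classical in
/-- The elements of the stabilizer of the three vectors preserving the family. -/
noncomputable def HH : Subgroup Co0 where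
  carrier := {a | a ∈ S0 ∧ Pres (a : Equiv.Perm leechLattice)}
  mul_mem' := by
    rintro a b ⟨h1, h2⟩ ⟨h3, h4⟩
    refine ⟨S0.mul_mem h1 h3, ?_⟩
    intro j
    obtain ⟨k, hk⟩ := h4 j
    obtain ⟨l, hl⟩ := h2 k
    refine ⟨l, ?_⟩
    rw [← hl, ← hk, Finset.image_image]
    rfl
  one_mem' := by
    refine ⟨S0.one_mem, fun j => ⟨j, ?_⟩⟩
    show (Sp j).image (⇑(1 : Equiv.Perm leechLattice)) = Sp j
    have : ⇑(1 : Equiv.Perm leechLattice) = id := rfl
    rw [this, Finset.image_id]
  inv_mem' := by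
    rintro a ⟨h1, h2⟩
    exact ⟨S0.inv_mem h1, Pres_inv h2⟩

open Classical in
/-- The action on the family. -/
noncomputable def fB (a : HH) (j : Fin 280) : Fin 280 := Classical.choose (a.2.2 j)

open Classical in
theorem fB_spec (a : HH) (j : Fin 280) : (Sp j).image ((a : Co0) : Equiv.Perm leechLattice) = Sp (fB a j) :=
  Classical.choose_spec (a.2.2 j)

open Classical in
theorem fB_of {a : HH} {j j' : Fin 280} (h : (Sp j).image ((a : Co0) : Equiv.Perm leechLattice) = Sp j') : fB a j = j' :=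
  Sp_inj (by rw [← fB_spec, h])

open Classical in
theorem fB_mul (a b : HH) (j : Fin 280) : fB (a * b) j = fB a (fB b j) := by
  apply fB_of
  rw [← fB_spec a, ← fB_spec b, Finset.image_image]
  rfl

open Classical in
theorem fB_one (j : Fin 280) : fB 1 j = j := by
  apply fB_of
  show (Sp j).image (⇑(1 : Equiv.Perm leechLattice)) = Sp j
  have : ⇑(1 : Equiv.Perm leechLattice) = id := rfl
  rw [this, Finset.image_id]

/-- The map to the permutations of the family. -/
noncomputable def rhoB : HH →* Equiv.Perm (Fin 280) where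
  toFun a := ⟨fB a, fB a⁻¹, fun j => by rw [← fB_mul, inv_mul_cancel, fB_one],
    fun j => by rw [← fB_mul, mul_inv_cancel, fB_one]⟩
  map_one' := Equiv.ext fB_one
  map_mul' a b := Equiv.ext (fB_mul a b)

theorem rhoB_apply (a : HH) (j : Fin 280) : rhoB a j = fB a j := rfl

/-! ### Explicit elements -/

theorem red0 : reduce 0 = 0 := by decide +kernel

/-- A permutation of the coordinates. -/
noncomputable def mo (c : ℕ) (h : isM24 c = true) : Co0 :=
  monoCo0 (ofMask_mem_codeSets (m := 0) (by norm_num) red0) (decode_mem_M24 h)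

theorem mo_acts {c : ℕ} (h : isM24 c = true) : ActsOn (mo c h) (actMono c 0) :=
  actMono_spec h (by norm_num) red0

/-- A word with two `xi`. -/
noncomputable def wd (a b c : ℕ) (ha : isM24 a = true) (hb : isM24 b = true) (hc : isM24 c = true) : Co0 :=
  mo a ha * xiCo0 * mo b hb * xiCo0 * mo c hc

/-- The action of the word on codes. -/
def fw (a b c n : ℕ) : ℕ := actMono a 0 (actXi (actMono b 0 (actXi (actMono c 0 n))))

theorem wd_acts {a b c : ℕ} (ha : isM24 a = true) (hb : isM24 b = true) (hc : isM24 c = true) :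
    ActsOn (wd a b c ha hb hc) (fw a b c) :=
  (((((mo_acts ha).mul actXi_acts).mul (mo_acts hb)).mul actXi_acts).mul (mo_acts hc))

/-- A table of numbers below `112`. -/
def tauN (P i : ℕ) : ℕ := Nat.land (Nat.shiftRight P (Nat.mul 7 i)) 127

/-- The check on the vectors. -/
def chkV (a b c P : ℕ) (i : Fin 112) : Bool :=
  Nat.blt (tauN P i) 112 && Nat.beq (fw a b c (yN i)) (yN (tauN P i))

/-- The check on the family. -/
def chkF (P Q : ℕ) (j : Fin 280) : Bool :=
  (spE j).all fun n => (spE (piF Q j)).any fun m => Nat.beq m (tauN P n)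

open Classical in
theorem image_gen {g : Co0} {a b c P Q : ℕ} (hf : ActsOn g (fw a b c)) (h1 : ∀ i, chkV a b c P i = true)
    (h2 : ∀ j, chkF P Q j = true) (j : Fin 280) :
    (Sp j).image (g : Equiv.Perm leechLattice) = Sp (piF Q j) := by
  have hv : ∀ i : Fin 112, ∃ h : tauN P i < 112, (g : Equiv.Perm leechLattice) (yV i) = yV ⟨tauN P i, h⟩ := by
    intro i
    have h3 := h1 i
    simp only [chkV, Bool.and_eq_true] at h3
    refine ⟨lt_of_blt h3.1, Subtype.ext ?_⟩
    have h4 := (hf _ (y_st i)).2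
    rw [Nat.eq_of_beq_eq_true h3.2] at h4
    exact h4
  refine image_of (a := g) (j := j) (j' := piF Q j) ?_
  intro w hw
  have hmem : ∀ {k : Fin 280} {w : leechLattice}, w ∈ Sp k ↔ ∃ i ∈ II k, yV i = w := by
    intro k w
    unfold Sp
    simp only [Finset.mem_image]
  obtain ⟨i, hi, rfl⟩ := hmem.1 hw
  obtain ⟨h5, h6⟩ := hv i
  rw [h6]
  refine hmem.2 ⟨⟨tauN P i, h5⟩, mem_II.2 ?_, rfl⟩
  have h7 := List.all_eq_true.1 (h2 j) i (mem_II.1 hi)
  obtain ⟨m, hm, h8⟩ := List.any_eq_true.1 h7
  have e8' := Nat.eq_of_beq_eq_true h8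
  show tauN P i ∈ _
  rw [← e8']
  exact hm

theorem m_ok : (isM24 a1a = true ∧ isM24 a1b = true ∧ isM24 a1c = true) ∧ (isM24 a2a = true ∧ isM24 a2b = true ∧ isM24 a2c = true) ∧
    (isM24 a3a = true ∧ isM24 a3b = true ∧ isM24 a3c = true) := by decide +kernel

/-- The first element. -/
noncomputable def e1 : Co0 := wd a1a a1b a1c m_ok.1.1 m_ok.1.2.1 m_ok.1.2.2
/-- The second element. -/
noncomputable def e2 : Co0 := wd a2a a2b a2c m_ok.2.1.1 m_ok.2.1.2.1 m_ok.2.1.2.2
/-- The third element. -/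
noncomputable def e3 : Co0 := wd a3a a3b a3c m_ok.2.2.1 m_ok.2.2.2.1 m_ok.2.2.2.2

theorem e1_acts : ActsOn e1 (fw a1a a1b a1c) := wd_acts _ _ _
theorem e2_acts : ActsOn e2 (fw a2a a2b a2c) := wd_acts _ _ _
theorem e3_acts : ActsOn e3 (fw a3a a3b a3c) := wd_acts _ _ _

theorem e1_S : e1 ∈ S0 := mem_S0 e1_acts (by decide +kernel) (by decide +kernel) (by decide +kernel)
theorem e2_S : e2 ∈ S0 := mem_S0 e2_acts (by decide +kernel) (by decide +kernel) (by decide +kernel)
theorem e3_S : e3 ∈ S0 := mem_S0 e3_acts (by decide +kernel) (by decide +kernel) (by decide +kernel)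

theorem v1 : ∀ i, chkV a1a a1b a1c tau1 i = true := by decide +kernel
theorem v2 : ∀ i, chkV a2a a2b a2c tau2 i = true := by decide +kernel
theorem v3 : ∀ i, chkV a3a a3b a3c tau3 i = true := by decide +kernel
theorem f1 : ∀ j, chkF tau1 pi1P j = true := by decide +kernel
theorem f2 : ∀ j, chkF tau2 pi2P j = true := by decide +kernel
theorem f3 : ∀ j, chkF tau3 pi3P j = true := by decide +kernel

/-- The first element. -/
noncomputable def b1 : HH := ⟨e1, e1_S, fun j => ⟨_, image_gen e1_acts v1 f1 j⟩⟩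
/-- The second element. -/
noncomputable def b2 : HH := ⟨e2, e2_S, fun j => ⟨_, image_gen e2_acts v2 f2 j⟩⟩
/-- The third element. -/
noncomputable def b3 : HH := ⟨e3, e3_S, fun j => ⟨_, image_gen e3_acts v3 f3 j⟩⟩

theorem rhoB_b1 : rhoB b1 = iota0 g1 := Equiv.ext fun j => by
  rw [rhoB_apply, iota_g1]
  exact fB_of (image_gen e1_acts v1 f1 j)

theorem rhoB_b2 : rhoB b2 = iota0 g2 := Equiv.ext fun j => by
  rw [rhoB_apply, iota_g2]
  exact fB_of (image_gen e2_acts v2 f2 j)

theorem rhoB_b3 : rhoB b3 = iota0 g3 := Equiv.ext fun j => by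
  rw [rhoB_apply, iota_g3]
  exact fB_of (image_gen e3_acts v3 f3 j)

theorem iota0_mem (s : Cfsg.Agent.Lib.FiTU.G) : iota0 s ∈ rhoB.range := by
  have h : s ∈ (rhoB.range).comap iota0 := by
    refine all_mem ?_ ?_ ?_ ?_ s
    · exact ⟨b1, rhoB_b1⟩
    · exact ⟨b2, rhoB_b2⟩
    · exact ⟨b3, rhoB_b3⟩
    · show iota0 T0 ∈ rhoB.range
      rw [iota_T0, map_mul, map_mul, map_mul]
      have h1 : iota0 g1 ∈ rhoB.range := ⟨b1, rhoB_b1⟩
      exact mul_mem (mul_mem (mul_mem h1 h1) h1) h1
  exact h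

theorem iota_le : iota.range ≤ rhoB.range := by
  rintro _ ⟨x, rfl⟩
  obtain ⟨s, rfl⟩ := QuotientGroup.mk_surjective x
  rw [iota_mk]
  exact iota0_mem s

theorem card_iota_range : Nat.card iota.range = 3265920 := by
  rw [← card_PSU]
  exact (Nat.card_congr (MonoidHom.ofInjective iota_inj).toEquiv).symm

end Cfsg.Agent.Lib.U43LatA
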