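import Mathlib
import Cfsg.Agent.Lib.U43LatA
import Cfsg.Agent.Lib.SUTransfer

/-!
# The stabilizer of three vectors of the lattice is `PSU(4, 3)`.
-/

set_option autoImplicit false

open Cfsg Cfsg.Agent.Lib.Leech Cfsg.Agent.Lib.Co0Mono Cfsg.Agent.Lib.Co0Frame
open Cfsg.Agent.Lib.CoVec Cfsg.Agent.Lib.U43LatA
open Cfsg.Agent.Lib.FiTU (iota iota_inj card_PSU)
open Cfsg.Agent.Lib.F9K (K9)

namespace Cfsg.Agent.Lib.U43LatB

theorem card_step {G α : Type*} [Group G] [Finite G] [MulAction G α] (A : Subgroup G) (w : α) (Ω : Set α)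
    (htrans : ∀ y ∈ Ω, ∃ g ∈ A, g • w = y) : Nat.card ↥(A ⊓ MulAction.stabilizer G w) * Ω.ncard ≤ Nat.card A := by
  have h1 : (MulAction.stabilizer A w).index = (MulAction.orbit A w).ncard := MulAction.index_stabilizer _ _
  have h2 := Subgroup.card_mul_index (MulAction.stabilizer A w)
  have e : Nat.card (MulAction.stabilizer A w) = Nat.card ↥(A ⊓ MulAction.stabilizer G w) :=
    Nat.card_congr ⟨fun x => ⟨x.1.1, x.1.2, x.2⟩, fun y => ⟨⟨y.1, y.2.1⟩, y.2.2⟩, fun _ => rfl, fun _ => rfl⟩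
  have hsub : Ω ⊆ MulAction.orbit A w := by
    intro y hy
    obtain ⟨g, hg, rfl⟩ := htrans y hy
    exact ⟨⟨g, hg⟩, rfl⟩
  have hfin : (MulAction.orbit A w).Finite := Set.finite_range _
  have h3 := Set.ncard_le_ncard hsub hfin
  rw [← h2, e, h1]
  exact Nat.mul_le_mul_left _ h3

/-- The order of the stabilizer of three vectors. -/
theorem card_le (u v x : ↥leechLattice) (hu : sqNorm (u : GolayPt → ℤ) = 48)
    (hv : sqNorm (v : GolayPt → ℤ) = 32 ∧ sqNorm ((u - v) : GolayPt → ℤ) = 32)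
    (hx : x ∈ {x : ↥leechLattice | sqNorm (x : GolayPt → ℤ) = 32 ∧ sqNorm ((u - x) : GolayPt → ℤ) = 32 ∧
      dotInt (v : GolayPt → ℤ) (x : GolayPt → ℤ) = 16}) :
    Nat.card ↥(MulAction.stabilizer Co0 u ⊓ MulAction.stabilizer Co0 v ⊓ MulAction.stabilizer Co0 x) ≤ 3265920 := by
  have h0 := card_step (⊤ : Subgroup Co0) u Cfsg.Agent.Lib.CoConf.N48 (by
    intro y hy
    obtain ⟨g, hg⟩ := Cfsg.Agent.Lib.MonsterTrans.coTrans.t48 u y hu hy
    exact ⟨g, Subgroup.mem_top _, hg⟩)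
  rw [top_inf_eq, Subgroup.card_top, Cfsg.Agent.Lib.CoConf.ncard_N48, Cfsg.Agent.Lib.Co0Order.card_Co0] at h0
  have h1 := card_step (MulAction.stabilizer Co0 u) v
    {w : ↥leechLattice | sqNorm (w : GolayPt → ℤ) = 32 ∧ sqNorm ((u - w) : GolayPt → ℤ) = 32} (by
    intro y hy
    obtain ⟨g, h2, h3⟩ := Cfsg.Agent.S1579.result u v y hu hv hy
    exact ⟨g, h2, h3⟩)
  rw [Cfsg.Agent.S1578.result u hu] at h1
  obtain ⟨h3, h4⟩ := Cfsg.Agent.S1580.result u v hu hv
  have h2 := card_step (MulAction.stabilizer Co0 u ⊓ MulAction.stabilizer Co0 v) x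
    {x : ↥leechLattice | sqNorm (x : GolayPt → ℤ) = 32 ∧ sqNorm ((u - x) : GolayPt → ℤ) = 32 ∧
      dotInt (v : GolayPt → ℤ) (x : GolayPt → ℤ) = 16} (by
    intro y hy
    obtain ⟨g, h5, h6, h7⟩ := h4 x hx y hy
    exact ⟨g, ⟨h5, h6⟩, h7⟩)
  rw [h3] at h2
  omega

/-! ### The standard triple -/

theorem dot_uv : dotInt (uV : GolayPt → ℤ) (vV : GolayPt → ℤ) = 24 := Cfsg.Agent.Lib.CoConf.dot_code (by decide +kernel)
theorem dot_ux : dotInt (uV : GolayPt → ℤ) (xV : GolayPt → ℤ) = 24 := Cfsg.Agent.Lib.CoConf.dot_code (by decide +kernel)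
theorem dot_vx : dotInt (vV : GolayPt → ℤ) (xV : GolayPt → ℤ) = 16 := Cfsg.Agent.Lib.CoConf.dot_code (by decide +kernel)

theorem hv_std : sqNorm (vV : GolayPt → ℤ) = 32 ∧ sqNorm ((uV - vV : ↥leechLattice) : GolayPt → ℤ) = 32 :=
  ⟨norm_vV, (Cfsg.Agent.Lib.CoConf.dot_of_norm_sub norm_uV norm_vV).2 dot_uv⟩

theorem hx_std : xV ∈ {x : ↥leechLattice | sqNorm (x : GolayPt → ℤ) = 32 ∧ sqNorm ((uV - x : ↥leechLattice) : GolayPt → ℤ) = 32 ∧
      dotInt (vV : GolayPt → ℤ) (x : GolayPt → ℤ) = 16} :=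
  ⟨norm_xV, (Cfsg.Agent.Lib.CoConf.dot_of_norm_sub norm_uV norm_xV).2 dot_ux, dot_vx⟩

theorem arith (k r h s : ℕ) (h2 : k * r = h) (h1 : h ≤ s) (hS : s ≤ 3265920) (h3 : 3265920 ≤ r) (h4 : 1 ≤ k) :
    r = 3265920 ∧ k = 1 ∧ h = s := by
  have h5 : r ≤ k * r := Nat.le_mul_of_pos_left _ h4
  have h6 : r = 3265920 := by omega
  subst h6
  have h7 : k = 1 := by omega
  subst h7
  exact ⟨rfl, rfl, by omega⟩

/-- The stabilizer of the standard triple. -/
theorem S0_iso : Nonempty (S0 ≃* PSU 4 K9 3) := by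
  have hS : Nat.card S0 ≤ 3265920 := card_le uV vV xV norm_uV hv_std hx_std
  have hle : HH ≤ S0 := fun a ha => ha.1
  have h1 : Nat.card HH ≤ Nat.card S0 := Subgroup.card_le_of_le hle
  have h2 := Subgroup.card_mul_index rhoB.ker
  rw [Subgroup.index_ker rhoB] at h2
  have h3 : 3265920 ≤ Nat.card rhoB.range := by
    have h5 := Subgroup.card_le_of_le iota_le
    rw [card_iota_range] at h5
    exact h5
  have h4 : 1 ≤ Nat.card rhoB.ker := Nat.card_pos
  obtain ⟨h5, h6, h7⟩ := arith _ _ _ _ h2 h1 hS h3 h4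
  have hk : rhoB.ker = ⊥ := Subgroup.eq_bot_of_card_eq _ h6
  have hinj : Function.Injective rhoB := (MonoidHom.ker_eq_bot_iff _).1 hk
  have hHH : HH = S0 := by
    apply Subgroup.eq_of_le_of_card_ge hle
    exact h7.ge
  have hr : iota.range = rhoB.range := by
    apply Subgroup.eq_of_le_of_card_ge iota_le
    rw [h5, card_iota_range]
  exact ⟨(MulEquiv.subgroupCongr hHH.symm).trans ((MonoidHom.ofInjective hinj).trans
    ((MulEquiv.subgroupCongr hr.symm).trans (MonoidHom.ofInjective iota_inj).symm))⟩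

theorem conj_iso {G α : Type*} [Group G] [MulAction G α] (k : G) (u v x : α) :
    Nonempty (↥(MulAction.stabilizer G u ⊓ MulAction.stabilizer G v ⊓ MulAction.stabilizer G x) ≃*
      ↥(MulAction.stabilizer G (k • u) ⊓ MulAction.stabilizer G (k • v) ⊓ MulAction.stabilizer G (k • x))) := by
  have hinj : Function.Injective (MulAut.conj k).toMonoidHom := (MulAut.conj k).injective
  have e : MulAction.stabilizer G (k • u) ⊓ MulAction.stabilizer G (k • v) ⊓ MulAction.stabilizer G (k • x) =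
      (MulAction.stabilizer G u ⊓ MulAction.stabilizer G v ⊓ MulAction.stabilizer G x).map (MulAut.conj k).toMonoidHom := by
    rw [Subgroup.map_inf _ _ _ hinj, Subgroup.map_inf _ _ _ hinj, MulAction.stabilizer_smul_eq_stabilizer_map_conj,
      MulAction.stabilizer_smul_eq_stabilizer_map_conj, MulAction.stabilizer_smul_eq_stabilizer_map_conj]
  exact ⟨((MulAut.conj k).subgroupMap _).trans (MulEquiv.subgroupCongr e.symm)⟩

/-- `PSU` over isomorphic fields. -/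
theorem psu_congr {F K : Type*} [Field F] [Field K] (φ : F ≃+* K) (n q : ℕ) : Nonempty (PSU n F q ≃* PSU n K q) := by
  let e : SU n F q ≃* SU n K q := Cfsg.Agent.Lib.SUTransfer.suEquiv φ
  have he : (Subgroup.center (SU n F q)).map e.toMonoidHom = Subgroup.center (SU n K q) := by
    ext y
    constructor
    · rintro ⟨a, ha, rfl⟩
      rw [Subgroup.mem_center_iff]
      intro g
      obtain ⟨g', rfl⟩ := e.surjective g
      show e g' * e a = e a * e g'
      rw [← map_mul, ← map_mul, Subgroup.mem_center_iff.1 ha g']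
    · intro hy
      refine ⟨e.symm y, ?_, e.apply_symm_apply y⟩
      rw [SetLike.mem_coe, Subgroup.mem_center_iff]
      intro g
      apply e.injective
      rw [map_mul, map_mul, e.apply_symm_apply]
      exact Subgroup.mem_center_iff.1 hy _
  exact ⟨QuotientGroup.congr _ _ e he⟩

/-- The main theorem. -/
theorem main (u v x : ↥leechLattice) (hu : sqNorm (u : GolayPt → ℤ) = 48)
    (hv : sqNorm (v : GolayPt → ℤ) = 32 ∧ sqNorm ((u - v) : GolayPt → ℤ) = 32)
    (hx : x ∈ {x : ↥leechLattice | sqNorm (x : GolayPt → ℤ) = 32 ∧ sqNorm ((u - x) : GolayPt → ℤ) = 32 ∧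
      dotInt (v : GolayPt → ℤ) (x : GolayPt → ℤ) = 16}) (F : Type) [Field F] [Fintype F] (hF : Fintype.card F = 9) :
    Nonempty (↥(MulAction.stabilizer Co0 u ⊓ MulAction.stabilizer Co0 v ⊓ MulAction.stabilizer Co0 x) ≃* PSU 4 F 3) := by
  have hd := (Cfsg.Agent.Lib.CoConf.dot_of_norm_sub hu hv.1).1 hv.2
  have hx1 : x ∈ Cfsg.Agent.Lib.CoConf.DS [(v, 16), (u, 24)] := by
    rw [← Cfsg.Agent.Lib.CoConf.set275_eq u v hu]
    exact hx
  have hx2 : xV ∈ Cfsg.Agent.Lib.CoConf.DS [(vV, 16), (uV, 24)] := by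
    rw [← Cfsg.Agent.Lib.CoConf.set275_eq uV vV norm_uV]
    exact hx_std
  obtain ⟨g, g1, g2, g3⟩ := Cfsg.Agent.Lib.CoConf.triple_move u v x hu hv.1 hd hx1
  obtain ⟨g', g1', g2', g3'⟩ := Cfsg.Agent.Lib.CoConf.triple_move uV vV xV norm_uV norm_vV dot_uv hx2
  obtain ⟨e1⟩ := conj_iso (g'⁻¹ * g) u v x
  have h1 : (g'⁻¹ * g) • u = uV := by
    rw [mul_smul, g1, ← g1', inv_smul_smul]
  have h2 : (g'⁻¹ * g) • v = vV := by
    rw [mul_smul, g2, ← g2', inv_smul_smul]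
  have h3 : (g'⁻¹ * g) • x = xV := by
    rw [mul_smul, g3, ← g3', inv_smul_smul]
  rw [h1, h2, h3] at e1
  obtain ⟨e2⟩ := S0_iso
  have hc : Fintype.card K9 = Fintype.card F := by
    rw [hF]
    exact Cfsg.Agent.Lib.FiTU.hF
  obtain ⟨e3⟩ := psu_congr (FiniteField.ringEquivOfCardEq hc) 4 3
  exact ⟨e1.trans (e2.trans e3)⟩

end Cfsg.Agent.Lib.U43LatB
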