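import Mathlib
import Cfsg.Agent.Lib.McLRk3H
import Cfsg.Agent.Lib.McLRk3D
import Cfsg.Agent.Lib.U43LatB

set_option autoImplicit false
set_option linter.unusedSectionVars false
set_option linter.unusedVariables false
set_option linter.style.haveILetI false
set_option linter.unusedSimpArgs false
set_option maxRecDepth 100000
set_option exponentiation.threshold 1000

/-!
# Recognition of the McLaughlin group from the rank three action on 275 points
-/

namespace Cfsg.Agent.Lib.McLRk3I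

open MulAction Finset Cfsg Cfsg.Agent.Lib.McLRk3A Cfsg.Agent.Lib.McLRk3B Cfsg.Agent.Lib.McLRk3C Cfsg.Agent.Lib.McLRk3D
  Cfsg.Agent.Lib.McLRk3T Cfsg.Agent.Lib.PermChain12 Cfsg.Agent.Lib.McLRk3E Cfsg.Agent.Lib.McLRk3G
  Cfsg.Agent.Lib.McLRk3H Cfsg.Agent.Lib.CoVec Cfsg.Agent.Lib.CoConf

open Cfsg.Agent.Lib.McLBridge

/-- The stabiliser is simple. -/
theorem simple_H : IsSimpleGroup McLG.H := by
  have h := mcl_simple McLConc.v McLConc.w McLConc.hv McLConc.hw McLConc.hvw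
  rw [H_eq]
  exact h

theorem ι_inj : Function.Injective ι := by
  haveI := simple_H
  rcases IsSimpleGroup.eq_bot_or_eq_top_of_normal ι.ker ι.normal_ker with h | h
  · exact (MonoidHom.ker_eq_bot_iff ι).1 h
  · exfalso
    have h1 : eE 0 ∈ ι.ker := by
      rw [h]
      trivial
    have h2 : ι (eE 0) = 1 := h1
    have h3 := ι_eE (g := 0) (by norm_num) (1 : Fin 275)
    rw [h2] at h3
    have h4 : Cfsg.Agent.Lib.McLFusData.S 0 1 ≠ 1 := by decide +kernel
    exact h4 h3.symm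

/-- The group of permutations is the stabiliser. -/
noncomputable def HPg : McLG.H ≃* Pg :=
  MulEquiv.ofBijective ι.rangeRestrict ⟨MonoidHom.rangeRestrict_injective_iff.2 ι_inj, ι.rangeRestrict_surjective⟩

theorem simple_Pg : IsSimpleGroup Pg := by
  haveI := simple_H
  exact HPg.symm.isSimpleGroup

theorem card_Pg : Nat.card Pg = 898128000 := by
  rw [← Nat.card_congr HPg.toEquiv, card_H]

theorem trans_Pg (x : Fin 275) : ∃ h ∈ Pg, h a₀ = x := by
  refine reach_clo (H := Pg) (ls := [0, 1, 2]) (fun l hl => ?_) 12 a₀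
    (allB_spec 275 9 _ (by norm_num) clo_all_chk x.val x.2)
  have hl3 : l < NL := by
    have := lets_gen hl
    show l < 28
    omega
  exact ⟨hl3, Lp_mem hl3⟩

theorem cardA : Nat.card (A0 Pg a₀) = 3265920 := by
  have h := card_eq_orbit_mul_inf Pg a₀
  have e : orbit Pg a₀ = Set.univ := by
    ext y
    simp only [Set.mem_univ, iff_true]
    obtain ⟨g, hg, rfl⟩ := trans_Pg y
    exact ⟨⟨g, hg⟩, rfl⟩
  rw [e, Set.ncard_univ, Nat.card_eq_fintype_card (α := Fin 275), Fintype.card_fin, card_Pg] at h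
  show Nat.card ↥(Pg ⊓ stabilizer (Equiv.Perm (Fin 275)) a₀) = _
  omega

theorem conc : Conc Pg ad a₀ y₀ z₁ z₂ t KL LF sig piF where
  ad_symm := ad_symm
  ad_irr := ad_irr
  ad_inv := ad_inv
  cardBs := cardBs
  cardCs := cardCs
  cardA := cardA
  y₀B := y₀B
  transB := transB
  z₁30 := z₁30
  z₂81 := z₂81
  trans30 := trans30
  trans81 := trans81
  c30 := c30
  c81 := c81
  cliqB := cliqB
  t_mem := t_mem
  t_ord := t_ord
  KK_spec := KK_spec
  hemi := hemi
  reach := reach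
  L_inj := L_inj
  clsX := clsX
  clsY := clsY
  intX := intX
  intY := intY
  σ_B := σ_B
  σ_ad := σ_ad
  π_C := π_C
  π_inj := π_inj
  π_spec := π_spec
  C_int := C_int

theorem Pg_le : Pg ≤ Cfsg.Agent.Lib.OutMcL.AutAdj ad := fun g hg x y => ad_inv g hg x y

theorem adj_iff (x y : Fin 275) : McLConc.Adj (τE x) (τE y) ↔ ad x y := (ad_iff_dot x y).symm

theorem card_Aut : Nat.card (Cfsg.Agent.Lib.OutMcL.AutAdj ad) ≤ 2 * 898128000 := by
  have key := McLConc.card_aut_le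
  refine le_trans ?_ key
  let τ : Fin 275 ≃ DS McLConc.A := τE
  have hτ : ∀ x y, McLConc.Adj (τ x) (τ y) ↔ ad x y := adj_iff
  let F : Cfsg.Agent.Lib.OutMcL.AutAdj ad → Cfsg.Agent.Lib.OutMcL.AutAdj McLConc.Adj := fun g =>
    ⟨τ.permCongr g.1, by
      intro x y
      have e : ∀ z, (τ.permCongr g.1) z = τ (g.1 (τ.symm z)) := fun z => rfl
      rw [e, e, hτ]
      have h1 := g.2 (τ.symm x) (τ.symm y)
      have h2 := hτ (τ.symm x) (τ.symm y)
      simp only [Equiv.apply_symm_apply] at h2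
      rw [h2]
      exact h1⟩
  apply Nat.card_le_card_of_injective F
  intro g g' e
  apply Subtype.ext
  have h1 : τ.permCongr g.1 = τ.permCongr g'.1 := congrArg Subtype.val e
  exact (Equiv.permCongr τ).injective h1

/-! ### The point stabiliser -/

/-- The vector of the base point. -/
noncomputable abbrev xP : LL := vv a₀

theorem hu : sqNorm (McLG.lu0 : GolayPt → ℤ) = 48 := McLConc.hu

theorem hv : sqNorm (McLG.lv0 : GolayPt → ℤ) = 32 ∧ sqNorm ((McLG.lu0 - McLG.lv0) : GolayPt → ℤ) = 32 := by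
  refine ⟨McLConc.hv, ?_⟩
  have e : (McLG.lu0 - McLG.lv0 : LL) = McLWG.lw0 := by
    have e2 : (McLG.lv0 + McLWG.lw0 : LL) = McLG.lu0 := McLConc.e_uvw
    rw [← e2]
    abel
  show sqNorm ((McLG.lu0 - McLG.lv0 : LL) : GolayPt → ℤ) = 32
  rw [e]
  exact McLConc.hw

theorem hx : xP ∈ {x : LL | sqNorm (x : GolayPt → ℤ) = 32 ∧ sqNorm ((McLG.lu0 - x) : GolayPt → ℤ) = 32 ∧
    dotInt (McLG.lv0 : GolayPt → ℤ) (x : GolayPt → ℤ) = 16} := by
  rw [set275_eq McLG.lu0 McLG.lv0 hu]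
  exact vv_mem a₀

/-- The stabiliser of the base point as a subgroup of the lattice group. -/
noncomputable abbrev S3 : Subgroup Co0 :=
  stabilizer Co0 McLG.lu0 ⊓ stabilizer Co0 McLG.lv0 ⊓ stabilizer Co0 xP

/-- The map to the concrete stabiliser. -/
noncomputable def PhiHom : S3 →* A0 Pg a₀ where
  toFun h := ⟨ι ⟨h.1, h.2.1⟩, ⟨⟨_, rfl⟩, by
    show ι ⟨h.1, h.2.1⟩ a₀ = a₀
    apply τE.injective
    rw [ι_apply]
    apply Subtype.ext
    exact h.2.2⟩⟩
  map_one' := by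
    apply Subtype.ext
    show ι ⟨1, _⟩ = 1
    exact map_one ι
  map_mul' a b := by
    apply Subtype.ext
    show ι ⟨a.1 * b.1, _⟩ = ι ⟨a.1, _⟩ * ι ⟨b.1, _⟩
    exact map_mul ι (⟨a.1, a.2.1⟩ : McLG.H) (⟨b.1, b.2.1⟩ : McLG.H)

theorem PhiHom_bij : Function.Bijective PhiHom := by
  constructor
  · intro x y e
    have h1 : ι ⟨x.1, x.2.1⟩ = ι ⟨y.1, y.2.1⟩ := congrArg Subtype.val e
    have h2 := ι_inj h1
    have h3 : x.1 = y.1 := congrArg (fun z : McLG.H => z.1) h2
    exact Subtype.ext h3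
  · rintro ⟨g, ⟨h, rfl⟩, hfix⟩
    have h1 : ι h a₀ = a₀ := hfix
    have h2 := ι_apply h a₀
    rw [h1] at h2
    have h3 : vv a₀ = (h : Co0) • vv a₀ := congrArg Subtype.val h2
    refine ⟨⟨h.1, h.2, h3.symm⟩, ?_⟩
    apply Subtype.ext
    rfl

/-- The main recognition theorem. -/
theorem main {Ω : Type*} [Fintype Ω] [DecidableEq Ω] (hΩ : Fintype.card Ω = 275) (G : Subgroup (Equiv.Perm Ω))
    [IsPretransitive G Ω] (a : Ω) (K : Type) [Field K] [Fintype K] (hK : Fintype.card K = 9)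
    (e : stabilizer G a ≃* PSU 4 K 3) (b c : Ω) (hb : (orbit (stabilizer G a) b).ncard = 112)
    (hc : (orbit (stabilizer G a) c).ncard = 162) : Spor.IsoMcL G := by
  obtain ⟨eL⟩ := Cfsg.Agent.Lib.U43LatB.main McLG.lu0 McLG.lv0 xP hu hv hx K hK
  let E : stabilizer G a ≃* A0 Pg a₀ := e.trans (eL.symm.trans (MulEquiv.ofBijective PhiHom PhiHom_bij))
  have h : R3 G a b c := ⟨hΩ, inferInstance, hb, hc⟩
  have hC := conc
  obtain ⟨φ, hφ⟩ := exists_phi hC h E
  obtain ⟨f, hf⟩ := graph_iso hC h E hφ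
  have hcG : Nat.card G = 898128000 := by
    have h1 := Subgroup.card_mul_index (stabilizer G a)
    have e1 : orbit G a = Set.univ := orbit_eq_univ G a
    rw [index_stabilizer, e1, Set.ncard_univ, Nat.card_eq_fintype_card (α := Ω), hΩ, card_A hC h E] at h1
    omega
  obtain ⟨eG⟩ := iso_of_graph_iso (a := a) (b := b) Pg_le card_Aut card_Pg (by norm_num) simple_Pg hcG f hf
  exact ⟨eG.trans (HPg.symm.trans mclEquiv.symm)⟩

end Cfsg.Agent.Lib.McLRk3I
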