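import Cfsg.Agent.Lib.McGood22
import Cfsg.Agent.Lib.SchurLoc22
import Cfsg.Agent.Lib.SchurTower

/-!
# The McLaughlin group: the stabiliser is perfect, and the linear system
-/

set_option autoImplicit false
set_option maxRecDepth 100000
set_option linter.style.haveILetI false
set_option linter.unusedSectionVars false

namespace Cfsg.Agent.Lib.McSys22

open Subgroup MulAction Cfsg Cfsg.Agent.Lib.ChainCert Cfsg.Agent.Lib.TcBits Cfsg.Agent.Lib.PermChain
  Cfsg.Agent.Lib.ProgBits Cfsg.Agent.Lib.ProgChain Cfsg.Agent.Lib.ProgMask22 Cfsg.Agent.Lib.ProgPair22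
  Cfsg.Agent.Lib.McD22 Cfsg.Agent.Lib.McGroup22 Cfsg.Agent.Lib.SchurLin22 Cfsg.Agent.Lib.SchurPerf
  Cfsg.Agent.Lib.SchurTower Cfsg.Agent.Lib.SchurCoset46
open scoped Pointwise

/-- The generators of the stabiliser, as a sequence. -/
noncomputable def sH (i : ℕ) : ↥H := if i = 0 then uH else vH

theorem sH_image : sH '' Set.Iio 2 = {uH, vH} := by
  ext z
  simp only [Set.mem_image, Set.mem_Iio, Set.mem_insert_iff, Set.mem_singleton_iff]
  constructor
  · rintro ⟨i, hi, rfl⟩
    have : i = 0 ∨ i = 1 := by omega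
    rcases this with rfl | rfl
    · left
      simp [sH]
    · right
      simp [sH]
  · rintro (rfl | rfl)
    · exact ⟨0, by norm_num, by simp [sH]⟩
    · exact ⟨1, by norm_num, by simp [sH]⟩

theorem closure_sH : closure (sH '' Set.Iio 2) = ⊤ := by
  rw [sH_image, closure_uv]

/-- Words in the two generators of the stabiliser without inverse letters. -/
theorem evW_sH (w : List ℕ) (hw : ∀ l ∈ w, l = 0 ∨ l = 2) :
    (evW sH w).1 = e (w.flatMap fun l => if l = 0 then Wu else Wv) := by
  induction w with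
  | nil => rfl
  | cons l w ih =>
    have h1 := ih (fun a ha => hw a (List.mem_cons_of_mem _ ha))
    have h2 : (lett sH l).1 = e (if l = 0 then Wu else Wv) := by
      rcases hw l List.mem_cons_self with rfl | rfl
      · have := lett_even sH 0
        simp only [Nat.mul_zero] at this
        rw [this]
        rfl
      · have := lett_even sH 1
        simp only [Nat.mul_one] at this
        rw [this]
        rfl
    show (lett sH l * evW sH w).1 = e ((if l = 0 then Wu else Wv) ++ _)
    rw [Subgroup.coe_mul, h1, h2]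
    exact (el_append hL _ _).symm

theorem evW_sH_one {w : List ℕ} (hw : ∀ l ∈ w, l = 0 ∨ l = 2)
    (h : wChk Cfsg.Agent.Lib.McK22Tab.R Cfsg.Agent.Lib.McK22Tab.Y pr
      (w.flatMap fun l => if l = 0 then Wu else Wv) [] = true) : evW sH w = 1 := by
  apply Subtype.ext
  rw [evW_sH w hw]
  exact eq_of_chk h

/-- The stabiliser is perfect. -/
theorem perfect_H : commutator ↥H = ⊤ := by
  have r1 : evW sH (List.replicate 3 0) = 1 := evW_sH_one (by decide) (by decide +kernel)
  have r2 : evW sH (List.replicate 7 2) = 1 := evW_sH_one (by decide) (by decide +kernel)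
  have r3 : evW sH (List.flatten (List.replicate 8 [0, 2])) = 1 := evW_sH_one (by decide) (by decide +kernel)
  refine perfect_of_combo closure_sH
    [(19, List.replicate 3 0), (8, List.replicate 7 2), (-7, List.flatten (List.replicate 8 [0, 2]))]
    [(16, List.replicate 3 0), (7, List.replicate 7 2), (-6, List.flatten (List.replicate 8 [0, 2]))]
    ?_ ?_ (by decide) (by decide) (by decide) (by decide)
  · intro p hp
    simp only [List.mem_cons, List.not_mem_nil, or_false] at hp
    rcases hp with rfl | rfl | rfl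
    · exact ⟨by decide, r1⟩
    · exact ⟨by decide, r2⟩
    · exact ⟨by decide, r3⟩
  · intro p hp
    simp only [List.mem_cons, List.not_mem_nil, or_false] at hp
    rcases hp with rfl | rfl | rfl
    · exact ⟨by decide, r1⟩
    · exact ⟨by decide, r2⟩
    · exact ⟨by decide, r3⟩

/-! ### The linear system -/

/-- The check of the orbits of the small group. -/
def Poo (c : ℕ) : Bool :=
  Nat.blt (OO c) 76 && cond (Nat.beq c (RP (OO c))) true (Nat.blt (LT c) 2 && Nat.beq (OO (PT c)) (OO c))

theorem oo_all : ∀ c, c < 7128 → Poo c = true :=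
  of_guard (k := 13) (by norm_num) (by decide +kernel)

theorem OO_lt {c : ℕ} (hc : c < 7128) : OO c < 76 := by
  have h := oo_all c hc
  rw [Poo, Bool.and_eq_true] at h
  simpa [Nat.blt] using h.1

/-- The fixed point of the small group. -/
theorem qI_chk : wordApply Cfsg.Agent.Lib.McT22.pr [4] (MT 0) = MT qI := by decide +kernel

theorem qI_lt : qI < 7128 := by decide

theorem Y_qI : Yg • ι qI = x₀ := by
  rw [← ι_zero]
  exact smul_ι (by norm_num) qI_lt (by norm_num) qI_chk

theorem Yinv_x₀ : Yg⁻¹ • x₀ = ι qI := by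
  rw [← Y_qI, inv_smul_smul]

theorem l_chk : ∀ i, i < 2 → wordApply Cfsg.Agent.Lib.McT22.pr [i] (MT qI) = MT qI := by decide +kernel

theorem sT_fix_x₀ {i : ℕ} (hi : i < 2) : sT i • x₀ = x₀ :=
  mem_stabilizer_iff.mp (sT_mem (by omega))

theorem sT_fix_qI {i : ℕ} (hi : i < 2) : sT i • (Yg⁻¹ • x₀) = Yg⁻¹ • x₀ := by
  rw [Yinv_x₀]
  exact smul_ι (by omega) qI_lt qI_lt (l_chk i hi)

/-- The rows of the system. -/
def Prow (t : ℕ × ℕ × ℕ) : Bool :=
  Nat.blt t.1 7128 && Nat.blt t.2.1 7128 && Nat.blt t.2.2 7128 &&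
  Nat.beq (wordApply Cfsg.Agent.Lib.McT22.pr [4] (MT t.2.1)) (MT t.1) &&
  Nat.beq (wordApply Cfsg.Agent.Lib.McT22.pr [4] (MT t.2.2)) (MT t.2.1)

theorem row_chk : ∀ t ∈ rowsT, Prow t = true := by decide +kernel

/-- The check of the solution of the system. -/
def Pcert (j : ℕ) : Bool :=
  (List.range 77).all fun i => decide (comb 76 (certAt j) rowLabels i =
    (if i = j then 1 else 0) - Gf (HO (YR j)) i + Gf (HO (RP j)) i + Cf i)

theorem cert_chk : ∀ j, j < 76 → Pcert j = true := by decide +kernel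

/-- The check of the representatives. -/
def Prep (j : ℕ) : Bool :=
  Nat.blt (RP j) 7128 && Nat.blt (YR j) 7128 && Nat.beq (OO (RP j)) j &&
  Nat.beq (wordApply Cfsg.Agent.Lib.McT22.pr [4] (MT (YR j))) (MT (RP j)) &&
  Nat.beq (cntB (fun i => (MT (RP j)).testBit i && (MT 0).testBit i) 275) (colV (HO (RP j))) &&
  Nat.beq (cntB (fun i => (MT (YR j)).testBit i && (MT 0).testBit i) 275) (colV (HO (YR j)))

theorem rep_chk : ∀ j, j < 76 → Prep j = true := by decide +kernel

theorem kOf_colV : ∀ k, k < 5 → kOf (colV k) = k := by decide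

/-- The size of the intersection with the base subset. -/
noncomputable def colX (x : X) : ℕ := (x.1 ∩ mask 0).ncard

theorem colX_smul {h : ↥K} (hh : h • x₀ = x₀) (x : X) : colX (h • x) = colX x := by
  have h1 : h • mask 0 = mask 0 := mem_H_iff.mp hh
  unfold colX
  rw [smul_val]
  have h2 : h • x.1 ∩ mask 0 = h • (x.1 ∩ mask 0) := by
    rw [Set.smul_set_inter, h1]
  rw [h2, Set.ncard_smul_set]

theorem colX_ι {c : ℕ} (hc : c < 7128) :
    colX (ι c) = cntB (fun i => (MT c).testBit i && (MT 0).testBit i) 275 := by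
  classical
  unfold colX
  rw [ι_val hc, ← card_filter_eq_cntB, ← Set.ncard_coe_finset]
  congr 1
  ext p
  simp [mask, mem_bitSet]

section solve

variable {A : Type} [AddCommGroup A] (κ : X → A) (v : A)

/-- The solution of the system. -/
theorem hsys
    (h1 : ∀ x, ∀ l : ↥K, l • x₀ = x₀ → l • (Yg⁻¹ • x₀) = Yg⁻¹ • x₀ → κ (l • x) = κ x)
    (h2 : ∀ x, ∑ e ∈ Finset.range 3, κ ((Yg ^ e) • x) = v) :
    ∃ (g : X → A) (c : A), (∀ h : ↥K, h • x₀ = x₀ → ∀ x, g (h • x) = g x) ∧ ∀ x, κ x = g (Yg • x) - g x - c := by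
  classical
  let a : ℕ → A := fun j => if j < 76 then κ (ι (RP j)) else v
  have ha76 : a 76 = v := by simp [a]
  have hS : ∀ {i : ℕ}, i < 2 → ∀ x, κ (sT i • x) = κ x := fun hi x => h1 x _ (sT_fix_x₀ hi) (sT_fix_qI hi)
  have hoo : ∀ c, c < 7128 → κ (ι c) = a (OO c) := by
    intro c
    induction c using Nat.strong_induction_on with
    | _ c ih =>
      intro hc
      have h := oo_all c hc
      rw [Poo, Bool.and_eq_true] at h
      have hlt : OO c < 76 := by simpa [Nat.blt] using h.1
      by_cases h3 : c = RP (OO c)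
      · simp only [a, if_pos hlt]
        rw [← h3]
      · have h4 : Nat.beq c (RP (OO c)) = false := by
          cases h5 : Nat.beq c (RP (OO c)) with
          | false => rfl
          | true => exact absurd (Nat.eq_of_beq_eq_true h5) h3
        have h5 := h.2
        rw [h4, cond_false, Bool.and_eq_true] at h5
        have h0 : c ≠ 0 := by
          rintro rfl
          exact h3 (by decide)
        obtain ⟨h6, h7, h8⟩ := tree_ι hc h0
        have h9 : LT c < 2 := by simpa [Nat.blt] using h5.1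
        have h10 : OO (PT c) = OO c := Nat.eq_of_beq_eq_true h5.2
        rw [← h8, hS h9, ih _ h6 (by omega), h10]
  have hrows : ∀ r ∈ rowLabels, ev 76 a (rowF 76 r) = 0 := by
    intro r hr
    obtain ⟨t, ht, rfl⟩ := List.mem_map.mp hr
    have hp := row_chk t ht
    simp only [Prow, Bool.and_eq_true] at hp
    obtain ⟨⟨⟨⟨hp1, hp2⟩, hp3⟩, hp4⟩, hp5⟩ := hp
    have l1 : t.1 < 7128 := by simpa [Nat.blt] using hp1
    have l2 : t.2.1 < 7128 := by simpa [Nat.blt] using hp2
    have l3 : t.2.2 < 7128 := by simpa [Nat.blt] using hp3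
    have s1 : Yg • ι t.1 = ι t.2.1 := smul_ι (by norm_num) l1 l2 (Nat.eq_of_beq_eq_true hp4)
    have s2 : Yg • ι t.2.1 = ι t.2.2 := smul_ι (by norm_num) l2 l3 (Nat.eq_of_beq_eq_true hp5)
    rw [ev_row 76 a _ (by
      intro k hk
      simp only [List.mem_cons, List.not_mem_nil, or_false] at hk
      rcases hk with rfl | rfl | rfl
      · exact OO_lt l1
      · exact OO_lt l2
      · exact OO_lt l3)]
    have h3 := h2 (ι t.1)
    simp only [Finset.sum_range_succ, Finset.sum_range_zero, zero_add, pow_zero, one_smul, pow_one, pow_two,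
      mul_smul, s1, s2] at h3
    rw [hoo _ l1, hoo _ l2, hoo _ l3] at h3
    rw [ha76, ← h3]
    simp [add_assoc]
  have hsol : ∀ j, j < 76 → a j = ev 76 a (Gf (HO (YR j))) - ev 76 a (Gf (HO (RP j))) - ev 76 a Cf := by
    intro j hj
    refine linear_solve 76 a hrows hj (certAt j) _ _ _ ?_
    intro i hi
    have h3 := cert_chk j hj
    rw [Pcert, List.all_eq_true] at h3
    exact of_decide_eq_true (h3 i (List.mem_range.mpr hi))
  let g : X → A := fun x => ev 76 a (Gf (kOf (colX x)))
  have hgι : ∀ j, j < 76 → g (ι (RP j)) = ev 76 a (Gf (HO (RP j))) ∧ g (ι (YR j)) = ev 76 a (Gf (HO (YR j))) := by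
    intro j hj
    have hp := rep_chk j hj
    simp only [Prep, Bool.and_eq_true] at hp
    obtain ⟨⟨⟨⟨⟨hp1, hp2⟩, -⟩, -⟩, hp5⟩, hp6⟩ := hp
    have l1 : RP j < 7128 := by simpa [Nat.blt] using hp1
    have l2 : YR j < 7128 := by simpa [Nat.blt] using hp2
    constructor
    · show ev 76 a (Gf (kOf (colX (ι (RP j))))) = _
      rw [colX_ι l1, Nat.eq_of_beq_eq_true hp5, kOf_colV _ (Cfsg.Agent.Lib.McGood22.HO_lt _)]
    · show ev 76 a (Gf (kOf (colX (ι (YR j))))) = _
      rw [colX_ι l2, Nat.eq_of_beq_eq_true hp6, kOf_colV _ (Cfsg.Agent.Lib.McGood22.HO_lt _)]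
  have hinv : ∀ h : ↥K, h • x₀ = x₀ → ∀ x, g (h • x) = g x := by
    intro h hh x
    show ev 76 a (Gf (kOf (colX (h • x)))) = ev 76 a (Gf (kOf (colX x)))
    rw [colX_smul hh]
  refine ⟨g, ev 76 a Cf, hinv, ?_⟩
  have hP : ∀ c, c < 7128 → κ (ι c) = g (Yg • ι c) - g (ι c) - ev 76 a Cf := by
    intro c
    induction c using Nat.strong_induction_on with
    | _ c ih =>
      intro hc
      have h := oo_all c hc
      rw [Poo, Bool.and_eq_true] at h
      have hlt : OO c < 76 := by simpa [Nat.blt] using h.1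
      by_cases h3 : c = RP (OO c)
      · have hp := rep_chk (OO c) hlt
        simp only [Prep, Bool.and_eq_true] at hp
        obtain ⟨⟨⟨⟨⟨hp1, hp2⟩, -⟩, hp4⟩, -⟩, -⟩ := hp
        have l1 : RP (OO c) < 7128 := by simpa [Nat.blt] using hp1
        have l2 : YR (OO c) < 7128 := by simpa [Nat.blt] using hp2
        have s1 : Yg • ι (RP (OO c)) = ι (YR (OO c)) := smul_ι (by norm_num) l1 l2 (Nat.eq_of_beq_eq_true hp4)
        obtain ⟨g1, g2⟩ := hgι _ hlt
        have h4 := hsol (OO c) hlt
        have e2 : ι c = ι (RP (OO c)) := congrArg ι h3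
        rw [hoo c hc, e2, s1, g1, g2]
        exact h4
      · have h4 : Nat.beq c (RP (OO c)) = false := by
          cases h5 : Nat.beq c (RP (OO c)) with
          | false => rfl
          | true => exact absurd (Nat.eq_of_beq_eq_true h5) h3
        have h5 := h.2
        rw [h4, cond_false, Bool.and_eq_true] at h5
        have h0 : c ≠ 0 := by
          rintro rfl
          exact h3 (by decide)
        obtain ⟨h6, h7, h8⟩ := tree_ι hc h0
        have h9 : LT c < 2 := by simpa [Nat.blt] using h5.1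
        have h10 := ih _ h6 (by omega)
        have hconj : (Yg * sT (LT c) * Yg⁻¹) • x₀ = x₀ := by
          rw [mul_smul, mul_smul, sT_fix_qI h9, smul_inv_smul]
        have e1 : Yg • ι c = (Yg * sT (LT c) * Yg⁻¹) • (Yg • ι (PT c)) := by
          rw [← h8]
          simp [mul_smul]
        rw [e1, hinv _ hconj, ← h8, hS h9, hinv _ (sT_fix_x₀ h9)]
        exact h10
  intro x
  obtain ⟨c, hc, rfl⟩ := exists_ι x
  exact hP c hc

end solve

end Cfsg.Agent.Lib.McSys22
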