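import Cfsg.Agent.Lib.McSys22
import Cfsg.Agent.Lib.McQ22Main
import Cfsg.Agent.Lib.McE22Main
import Cfsg.Agent.Lib.McF22Main
import Cfsg.Agent.Lib.SchurPackC

/-!
# The Schur multiplier of the McLaughlin group: the upper bound
-/

set_option autoImplicit false
set_option maxRecDepth 100000
set_option linter.style.haveILetI false
set_option linter.unusedSectionVars false

namespace Cfsg.Agent.Lib.McUp22

open Subgroup MulAction Cfsg Cfsg.Agent.Lib.ChainCert Cfsg.Agent.Lib.TcBits Cfsg.Agent.Lib.PermChain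
  Cfsg.Agent.Lib.ProgBits Cfsg.Agent.Lib.ProgChain Cfsg.Agent.Lib.ProgMask22 Cfsg.Agent.Lib.ProgPair22
  Cfsg.Agent.Lib.McD22 Cfsg.Agent.Lib.McGroup22 Cfsg.Agent.Lib.McSys22 Cfsg.Agent.Lib.SchurLoc22
  Cfsg.Agent.Lib.SchurStem Cfsg.Agent.Lib.SchurLocal12
open scoped Pointwise commutatorElement

/-- The tail of the argument for a pair of elements which commute in the quotient. -/
theorem comm_index_mem {Γ G : Type*} [Group Γ] [Group G] [Finite Γ] {σ : Γ →* G} (hσ : IsStemExtension σ) {A B : Γ}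
    (hc1 : σ ⁅A, B⁆ = 1) {k : Γ} (hk : k ∈ σ.ker) :
    k ^ (closure ({σ A, σ B} : Set G)).index ∈ zpowers ⁅A, B⁆ := by
  have hc := hσ.2.1
  set C := ⁅A, B⁆ with hC
  have hCc : ∀ g : Γ, g * C = C * g := fun g => (Subgroup.mem_center_iff.mp (hc hc1) g)
  set Ah := (closure ({σ A, σ B} : Set G)).comap σ with hAh
  set T : Set Γ := {A, B} ∪ (σ.ker : Set Γ) with hT
  have hT1 : ∀ t ∈ T, t * C = C * t := fun t _ => hCc t
  have hT2 : ∀ t ∈ T, ∀ t' ∈ T, ⁅t, t'⁆ ∈ zpowers C := by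
    have hcen : ∀ t : Γ, t ∈ (σ.ker : Set Γ) → ∀ t' : Γ, ⁅t, t'⁆ = 1 ∧ ⁅t', t⁆ = 1 := by
      intro t ht t'
      have h1 := Subgroup.mem_center_iff.mp (hc ht) t'
      constructor
      · exact commutatorElement_eq_one_iff_mul_comm.mpr h1.symm
      · exact commutatorElement_eq_one_iff_mul_comm.mpr h1
    have h1m : (1 : Γ) ∈ zpowers C := Subgroup.one_mem _
    rintro t ((rfl | rfl) | ht) t' ((rfl | rfl) | ht')
    · simp [Subgroup.one_mem]
    · exact Subgroup.mem_zpowers _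
    · exact (hcen t' ht' _).2 ▸ h1m
    · rw [← commutatorElement_inv]
      exact Subgroup.inv_mem _ (Subgroup.mem_zpowers _)
    · simp [Subgroup.one_mem]
    · exact (hcen t' ht' _).2 ▸ h1m
    · exact (hcen t ht _).1 ▸ h1m
    · exact (hcen t ht _).1 ▸ h1m
    · exact (hcen t ht _).1 ▸ h1m
  have hle : Ah ≤ closure T := by
    intro x hx
    have hx' : σ x ∈ closure ({σ A, σ B} : Set G) := hx
    have himg : ({σ A, σ B} : Set G) = σ '' {A, B} := by simp [Set.image_insert_eq]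
    rw [himg, ← MonoidHom.map_closure] at hx'
    obtain ⟨y, hy, hxy⟩ := hx'
    have h3 : y⁻¹ * x ∈ σ.ker := by
      rw [MonoidHom.mem_ker, map_mul, map_inv, hxy, inv_mul_cancel]
    have h4 : y ∈ closure T := Subgroup.closure_mono Set.subset_union_left hy
    have h5 : y⁻¹ * x ∈ closure T := Subgroup.subset_closure (Or.inr h3)
    have h6 := Subgroup.mul_mem _ h4 h5
    simpa using h6
  have hD := comm_mem_of_gens T hT1 hT2
  obtain ⟨h6, h7⟩ := pow_index_mem_commutator Ah (hc hk) (hσ.2.2 hk)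
  have h8 : commutator Ah ≤ (zpowers C).subgroupOf Ah := by
    rw [_root_.commutator_def, Subgroup.commutator_le]
    rintro ⟨x, hx⟩ _ ⟨y, hy⟩ _
    rw [Subgroup.mem_subgroupOf]
    exact hD x (hle hx) y (hle hy)
  have h9 := h8 h7
  rw [Subgroup.mem_subgroupOf] at h9
  have h10 : k ^ Ah.index ∈ zpowers C := h9
  rwa [hAh, Subgroup.index_comap_of_surjective _ hσ.1] at h10

/-- The check of equality of words. -/
noncomputable abbrev chk (v w : List ℕ) : Bool :=
  wChk Cfsg.Agent.Lib.McK22Tab.R Cfsg.Agent.Lib.McK22Tab.Y pr v w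

theorem pow_word {w : List ℕ} (m : ℕ) (h : chk (List.flatten (List.replicate m w)) [] = true) : e w ^ m = 1 := by
  rw [← el_pow hL w m]
  exact eq_of_chk h

theorem mul_word {a b c d : List ℕ} (h : chk (a ++ b) (c ++ d) = true) : e a * e b = e c * e d := by
  have h1 := eq_of_chk h
  have e1 := el_append hL a b
  have e2 := el_append hL c d
  rw [← e1, ← e2]
  exact h1

theorem conj_of_mul {G : Type*} [Group G] {t a c : G} (h : t * a = c * t) : t * a * t⁻¹ = c := by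
  rw [h]
  group

/-- Elements of the stabiliser. -/
noncomputable def xH : ↥H := ⟨e Wx, mem_H (by decide +kernel)⟩
noncomputable def yH : ↥H := ⟨e Wy, mem_H (by decide +kernel)⟩
noncomputable def a3H : ↥H := ⟨e Wa3, mem_H (by decide +kernel)⟩
noncomputable def b3H : ↥H := ⟨e Wb3, mem_H (by decide +kernel)⟩
noncomputable def a5H : ↥H := ⟨e Wa5, mem_H (by decide +kernel)⟩
noncomputable def b5H : ↥H := ⟨e Wb5, mem_H (by decide +kernel)⟩
noncomputable def c5H : ↥H := ⟨e Wc5, mem_H (by decide +kernel)⟩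
noncomputable def t5H : ↥H := ⟨e Wt5, mem_H (by decide +kernel)⟩

/-! ### The semidihedral subgroup -/

theorem xH_pow : xH ^ 8 = 1 := Subtype.ext (pow_word 8 (by decide +kernel))

theorem yH_pow : yH ^ 2 = 1 := Subtype.ext (pow_word 2 (by decide +kernel))

theorem yxy : yH * xH * yH⁻¹ = xH ^ 3 := by
  apply conj_of_mul
  apply Subtype.ext
  show e Wy * e Wx = (e Wx) ^ 3 * e Wy
  rw [← el_pow hL Wx 3]
  exact mul_word (by decide +kernel)

theorem x4_ne : xH ^ 4 ≠ 1 := by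
  intro h
  have h1 : (e Wx) ^ 4 = 1 := congrArg Subtype.val h
  rw [← el_pow hL Wx 4] at h1
  have h2 := ctx.prodW_pt (w := List.flatten (List.replicate 4 Wx)) (p := qx4.2) (b := ⟨qx4.1, by decide⟩)
    (by decide +kernel)
  have h3 : prodW (lp pr 275) (List.flatten (List.replicate 4 Wx)) = 1 := congrArg Subtype.val h1
  rw [h3] at h2
  exact absurd h2 (by decide)

theorem card_xy : Nat.card (closure ({xH, yH} : Set ↥H)) = 16 := by
  rw [card_closure_H]
  have h1 : (e Wx).1 = lp Cfsg.Agent.Lib.McQ22Tab.pr 275 0 := by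
    have h := prodW_eq_cross ctx Cfsg.Agent.Lib.McQ22Main.ctx (w1 := Wx) (w2 := [0]) (by decide +kernel)
    simpa [prodW_cons, prodW_nil] using h
  have h2 : (e Wy).1 = lp Cfsg.Agent.Lib.McQ22Tab.pr 275 1 := by
    have h := prodW_eq_cross ctx Cfsg.Agent.Lib.McQ22Main.ctx (w1 := Wy) (w2 := [1]) (by decide +kernel)
    simpa [prodW_cons, prodW_nil] using h
  have h : ({xH.1.1, yH.1.1} : Set (Equiv.Perm (Fin 275))) =
      {lp Cfsg.Agent.Lib.McQ22Tab.pr 275 0, lp Cfsg.Agent.Lib.McQ22Tab.pr 275 1} := by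
    rw [← h1, ← h2]
    rfl
  rw [h, ← grp_pair]
  exact Cfsg.Agent.Lib.McQ22Main.cardH0

theorem index_xy : (closure ({xH, yH} : Set ↥H)).index = 7875 := by
  have h := Subgroup.card_mul_index (closure ({xH, yH} : Set ↥H))
  rw [card_xy, card_H] at h
  omega

/-! ### The elementary abelian subgroup of order nine -/

theorem card_ab3 : Nat.card (closure ({a3H, b3H} : Set ↥H)) = 9 := by
  rw [card_closure_H]
  have h1 : (e Wa3).1 = lp Cfsg.Agent.Lib.McE22Tab.pr 275 0 := by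
    have h := prodW_eq_cross ctx Cfsg.Agent.Lib.McE22Main.ctx (w1 := Wa3) (w2 := [0]) (by decide +kernel)
    simpa [prodW_cons, prodW_nil] using h
  have h2 : (e Wb3).1 = lp Cfsg.Agent.Lib.McE22Tab.pr 275 1 := by
    have h := prodW_eq_cross ctx Cfsg.Agent.Lib.McE22Main.ctx (w1 := Wb3) (w2 := [1]) (by decide +kernel)
    simpa [prodW_cons, prodW_nil] using h
  have h : ({a3H.1.1, b3H.1.1} : Set (Equiv.Perm (Fin 275))) =
      {lp Cfsg.Agent.Lib.McE22Tab.pr 275 0, lp Cfsg.Agent.Lib.McE22Tab.pr 275 1} := by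
    rw [← h1, ← h2]
    rfl
  rw [h, ← grp_pair]
  exact Cfsg.Agent.Lib.McE22Main.cardH0

theorem index_ab3 : (closure ({a3H, b3H} : Set ↥H)).index = 14000 := by
  have h := Subgroup.card_mul_index (closure ({a3H, b3H} : Set ↥H))
  rw [card_ab3, card_H] at h
  omega

theorem ab3_comm : a3H * b3H = b3H * a3H := Subtype.ext (mul_word (by decide +kernel))

/-! ### The Sylow subgroup for five -/

theorem card_ab5 : Nat.card (closure ({a5H, b5H} : Set ↥H)) = 125 := by
  rw [card_closure_H]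
  have h1 : (e Wa5).1 = lp Cfsg.Agent.Lib.McF22Tab.pr 275 0 := by
    have h := prodW_eq_cross ctx Cfsg.Agent.Lib.McF22Main.ctx (w1 := Wa5) (w2 := [0]) (by decide +kernel)
    simpa [prodW_cons, prodW_nil] using h
  have h2 : (e Wb5).1 = lp Cfsg.Agent.Lib.McF22Tab.pr 275 1 := by
    have h := prodW_eq_cross ctx Cfsg.Agent.Lib.McF22Main.ctx (w1 := Wb5) (w2 := [1]) (by decide +kernel)
    simpa [prodW_cons, prodW_nil] using h
  have h : ({a5H.1.1, b5H.1.1} : Set (Equiv.Perm (Fin 275))) =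
      {lp Cfsg.Agent.Lib.McF22Tab.pr 275 0, lp Cfsg.Agent.Lib.McF22Tab.pr 275 1} := by
    rw [← h1, ← h2]
    rfl
  rw [h, ← grp_pair]
  exact Cfsg.Agent.Lib.McF22Main.cardH0

theorem index_ab5 : (closure ({a5H, b5H} : Set ↥H)).index = 1008 := by
  have h := Subgroup.card_mul_index (closure ({a5H, b5H} : Set ↥H))
  rw [card_ab5, card_H] at h
  omega

theorem comm5 : ⁅a5H, b5H⁆ = c5H := by
  rw [commutatorElement_def]
  have h1 : a5H * b5H = c5H * b5H * a5H := by
    rw [mul_assoc]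
    apply Subtype.ext
    show e Wa5 * e Wb5 = e Wc5 * (e Wb5 * e Wa5)
    have := mul_word (a := Wa5) (b := Wb5) (c := Wc5) (d := Wb5 ++ Wa5) (by decide +kernel)
    have e1 : e (Wb5 ++ Wa5) = e Wb5 * e Wa5 := el_append hL _ _
    rwa [e1] at this
  rw [h1]
  group

theorem ker_pow {Γ : Type} [Group Γ] [Finite Γ] {σ : Γ →* ↥H} (hσ : IsStemExtension σ) {k : Γ} (hk : k ∈ σ.ker) :
    k ^ 3 = 1 := by
  have h7875 : k ^ 7875 = 1 := by
    have h := sd16_pow_index hσ xH_pow yH_pow yxy x4_ne hk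
    rwa [index_xy] at h
  have h1008 : k ^ 1008 = 1 := by
    have hta : t5H * a5H * t5H⁻¹ = a5H ^ 2 := by
      apply conj_of_mul
      apply Subtype.ext
      show e Wt5 * e Wa5 = (e Wa5) ^ 2 * e Wt5
      rw [← el_pow hL Wa5 2]
      exact mul_word (by decide +kernel)
    have htb : t5H * b5H * t5H⁻¹ = b5H ^ 2 := by
      apply conj_of_mul
      apply Subtype.ext
      show e Wt5 * e Wb5 = (e Wb5) ^ 2 * e Wt5
      rw [← el_pow hL Wb5 2]
      exact mul_word (by decide +kernel)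
    have htc : t5H * c5H * t5H⁻¹ = c5H ^ (2 * 2) := by
      apply conj_of_mul
      apply Subtype.ext
      show e Wt5 * e Wc5 = (e Wc5) ^ (2 * 2) * e Wt5
      rw [← el_pow hL Wc5 (2 * 2)]
      exact mul_word (by decide +kernel)
    have hc1 : c5H ≠ 1 := by
      intro h
      have h0 : e Wc5 = 1 := congrArg Subtype.val h
      have h2 := ctx.prodW_pt (w := Wc5) (p := qc5.2) (b := ⟨qc5.1, by decide⟩) (by decide +kernel)
      have h3 : prodW (lp pr 275) Wc5 = 1 := congrArg Subtype.val h0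
      rw [h3] at h2
      exact absurd h2 (by decide)
    have hca : a5H * c5H = c5H * a5H := Subtype.ext (mul_word (by decide +kernel))
    have hcb : b5H * c5H = c5H * b5H := Subtype.ext (mul_word (by decide +kernel))
    have ha5 : a5H ^ 5 = 1 := Subtype.ext (pow_word 5 (by decide +kernel))
    have hb5 : b5H ^ 5 = 1 := Subtype.ext (pow_word 5 (by decide +kernel))
    have h := scalar_pow_index hσ (a := a5H) (b := b5H) (t := t5H) (p := 5) (i := 2) (by norm_num)
      ha5 hb5 hta htb (by rw [comm5]; exact hca) (by rw [comm5]; exact hcb) (by rw [comm5]; exact htc)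
      (by norm_num) (by norm_num) (by rw [comm5]; exact hc1) hk
    rwa [index_ab5] at h
  have h63 : k ^ 63 = 1 := by
    have e1 : Nat.gcd 7875 1008 = 63 := by norm_num
    rw [← e1]
    exact (pow_gcd_eq_one (a := k)).mpr ⟨h7875, h1008⟩
  have hsq := Cfsg.Agent.Lib.SchurPackC.sq_orderOf_dvd hσ hk
  rw [card_H] at hsq
  have hd : orderOf k ∣ 63 := orderOf_dvd_of_pow_eq_one h63
  have hle : orderOf k ≤ 63 := Nat.le_of_dvd (by norm_num) hd
  have aux : ∀ d, d ≤ 63 → d ∣ 63 → d ^ 2 ∣ 126000 → d ∣ 3 := by decide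
  exact orderOf_dvd_iff_pow_eq_one.mp (aux _ hle hd hsq)

/-- The kernel of exponent three is generated by a commutator. -/
theorem up_generic {Γ G : Type*} [Group Γ] [Group G] [Finite Γ] {σ : Γ →* G} (hσ : IsStemExtension σ) {a b : G}
    (hab : a * b = b * a) (hidx : (closure ({a, b} : Set G)).index = 14000) (hker : ∀ k ∈ σ.ker, k ^ 3 = 1) :
    ∃ u : σ.ker, u ^ 3 = 1 ∧ ∀ k : σ.ker, k ∈ zpowers u := by
  obtain ⟨A, hA⟩ := hσ.1 a
  obtain ⟨B, hB⟩ := hσ.1 b
  have hc1 : σ ⁅A, B⁆ = 1 := by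
    rw [map_commutatorElement, hA, hB, commutatorElement_eq_one_iff_mul_comm]
    exact hab
  refine ⟨⟨⁅A, B⁆, hc1⟩, Subtype.ext (hker _ hc1), ?_⟩
  intro k
  have h1 := comm_index_mem hσ hc1 k.2
  rw [hA, hB, hidx] at h1
  have h3 := hker _ k.2
  have h2 : k.1 ^ 14000 = k.1 ^ 2 := by
    have e1 : 14000 = 3 * 4666 + 2 := by norm_num
    rw [e1, pow_add, pow_mul, h3, one_pow, one_mul]
  rw [h2] at h1
  obtain ⟨i, hi⟩ := Subgroup.mem_zpowers_iff.mp h1
  refine Subgroup.mem_zpowers_iff.mpr ⟨2 * i, ?_⟩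
  apply Subtype.ext
  show (⁅A, B⁆ : Γ) ^ (2 * i) = k.1
  rw [mul_comm, zpow_mul, hi]
  have h4 : k.1 ^ 4 = k.1 := by
    have e1 : 4 = 3 + 1 := by norm_num
    rw [e1, pow_add, h3, one_mul, pow_one]
  have e2 : (k.1 ^ 2) ^ (2 : ℤ) = k.1 ^ 4 := by
    rw [zpow_two]
    group
  rw [e2, h4]

/-- The bound for the stabiliser. -/
theorem up_H (Γ₂ : Type) [Group Γ₂] [Finite Γ₂] (σ₂ : Γ₂ →* ↥H) (hσ : IsStemExtension σ₂) :
    ∃ u : σ₂.ker, u ^ 3 = 1 ∧ ∀ k : σ₂.ker, k ∈ zpowers u :=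
  up_generic hσ ab3_comm index_ab3 (fun _ hk => ker_pow hσ hk)

/-- The upper bound. -/
theorem up {Γ : Type} [Group Γ] [Finite Γ] {σ : Γ →* ↥K} (hσ : IsStemExtension σ) :
    ∃ u : σ.ker, u ^ 3 = 1 ∧ ∀ k : σ.ker, k ∈ zpowers u :=
  Cfsg.Agent.Lib.SchurRel22.up_of_system hσ perfect_H Cfsg.Agent.Lib.McGood22.hgood Yg 3 Y_pow hgen
    (fun A _ κ v h1 h2 => hsys κ v h1 h2) up_H

end Cfsg.Agent.Lib.McUp22
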