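import Mathlib
import Cfsg.Agent.Lib.J2Sec20Base
import Cfsg.Agent.Lib.LeechTheta

set_option autoImplicit false
set_option maxRecDepth 100000
set_option linter.unusedVariables false

/-! The census of the vectors of squared length 32, by chunks of sorted codes.

Every vector of the lattice of squared length 32 is in a sorted list of 196560 codes, since the list consists of
distinct such vectors and there are exactly 196560 of them. -/

namespace Cfsg.Agent.Lib.MinCensus20

open Cfsg Cfsg.Agent.Lib.CoVec Cfsg.Agent.Lib.CoConf Cfsg.Agent.Lib.Co2Rel20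
open Cfsg.Agent.Lib.Co3Rel19 (dd dd_val dd_eq smul_dd smul_dd_eq dd_inj)
open Cfsg.Agent.Lib.PermChain12 (force force_eq allB allB_spec)

/-- an entry of a chunk -/
def ent (w i : ℕ) : ℕ := Nat.land (Nat.shiftRight w (Nat.mul 192 i)) 6277101735386680763835789423207666416102355444464034512895

/-- the check of a code -/
def oneChk (n : ℕ) : Bool :=
  and (stChk n) (Nat.beq (sqN n) 32)

/-- the check of a chunk of `c` codes, `nx` being the next code after the chunk -/
noncomputable def chunkChk (c w nx : ℕ) : Bool :=
  allB c 10 fun i => force (ent w i) fun n =>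
    and (oneChk n) (Nat.blt n (cond (Nat.beq (Nat.add i 1) c) nx (ent w (Nat.add i 1))))

theorem chunkChk_spec {c w nx : ℕ} (hc : c ≤ 1024) (h : chunkChk c w nx = true) {i : ℕ} (hi : i < c) :
    oneChk (ent w i) = true ∧ ent w i < (if i + 1 = c then nx else ent w (i + 1)) := by
  unfold chunkChk at h
  have h1 := allB_spec _ _ _ hc h i hi
  simp only [force_eq, Bool.and_eq_true] at h1
  refine ⟨h1.1, ?_⟩
  have h2 : ent w i < cond (Nat.beq (Nat.add i 1) c) nx (ent w (Nat.add i 1)) := by
    have := h1.2
    rwa [Nat.blt_eq] at this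
  by_cases e : i + 1 = c
  · have : Nat.beq (Nat.add i 1) c = true := by
      rw [Nat.beq_eq]; exact e
    rw [this] at h2
    rw [if_pos e]
    exact h2
  · have : Nat.beq (Nat.add i 1) c = false := by
      cases hh : Nat.beq (Nat.add i 1) c
      · rfl
      · exact absurd (Nat.eq_of_beq_eq_true hh) e
    rw [this] at h2
    rw [if_neg e]
    exact h2

section census

variable {W : ℕ → ℕ} {J c : ℕ}

/-- the data -/
structure Census (W : ℕ → ℕ) (J c : ℕ) : Prop where
  hc : 0 < c
  one : ∀ j < J, ∀ i < c, oneChk (ent (W j) i) = true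
  lt1 : ∀ j < J, ∀ i, i + 1 < c → ent (W j) i < ent (W j) (i + 1)
  lt2 : ∀ j, j + 1 < J → ent (W j) (c - 1) < ent (W (j + 1)) 0
  card : J * c = 196560

/-- the global code -/
def glob (W : ℕ → ℕ) (c t : ℕ) : ℕ := ent (W (t / c)) (t % c)

theorem glob_lt_succ (C : Census W J c) {t : ℕ} (ht : t + 1 < J * c) : glob W c t < glob W c (t + 1) := by
  have hc := C.hc
  unfold glob
  by_cases h : (t + 1) % c = 0
  · have h1 : (t + 1) / c = t / c + 1 := by
      have := @Nat.succ_div t c
      rw [if_pos (Nat.dvd_of_mod_eq_zero h)] at this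
      exact this
    have h2 : t % c = c - 1 := by
      have h3 := Nat.mod_add_div t c
      have h4 := Nat.mod_add_div (t + 1) c
      have h5 := Nat.mod_lt t hc
      rw [h, h1, zero_add, Nat.mul_add] at h4
      omega
    rw [h1, h, h2]
    apply C.lt2
    have : (t + 1) / c < J := Nat.div_lt_of_lt_mul (by rwa [Nat.mul_comm] at ht)
    rw [h1] at this
    exact this
  · have h1 : (t + 1) / c = t / c := by
      have := @Nat.succ_div t c
      rw [if_neg (fun hd => h (Nat.mod_eq_zero_of_dvd hd))] at this
      simpa using this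
    have h2 : (t + 1) % c = t % c + 1 := by
      have h3 := Nat.mod_add_div t c
      have h4 := Nat.mod_add_div (t + 1) c
      rw [h1] at h4
      omega
    rw [h1, h2]
    apply C.lt1
    · exact Nat.div_lt_of_lt_mul (by
        have : t < J * c := by omega
        rwa [Nat.mul_comm] at this)
    · rw [← h2]
      exact Nat.mod_lt _ hc

theorem glob_lt (C : Census W J c) {s t : ℕ} (hst : s < t) (ht : t < J * c) : glob W c s < glob W c t := by
  induction t with
  | zero => omega
  | succ t ih =>
    rcases Nat.lt_succ_iff_lt_or_eq.1 hst with h | h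
    · exact (ih h (by omega)).trans (glob_lt_succ C ht)
    · subst h
      exact glob_lt_succ C ht

theorem glob_inj (C : Census W J c) {s t : ℕ} (hs : s < J * c) (ht : t < J * c) (h : glob W c s = glob W c t) : s = t := by
  rcases Nat.lt_trichotomy s t with h1 | h1 | h1
  · exact absurd h (glob_lt C h1 ht).ne
  · exact h1
  · exact absurd h.symm (glob_lt C h1 hs).ne

theorem glob_one (C : Census W J c) {t : ℕ} (ht : t < J * c) :
    oneChk (glob W c t) = true := by
  apply C.one
  · exact Nat.div_lt_of_lt_mul (by rwa [Nat.mul_comm] at ht)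
  · exact Nat.mod_lt _ C.hc

theorem glob_st (C : Census W J c) {t : ℕ} (ht : t < J * c) : St (glob W c t) ∧ sqN (glob W c t) = 32 := by
  have h := glob_one C ht
  simp only [oneChk, Bool.and_eq_true] at h
  exact ⟨St_of_stChk h.1, Nat.eq_of_beq_eq_true h.2⟩

/-- Every vector of squared length 32 is in the census. -/
theorem census_all (C : Census W J c) (x : GolayPt → ℤ) (hx : x ∈ leechLattice) (hn : sqNorm x = 32) :
    ∃ t < J * c, x = dec (glob W c t) := by
  classical
  set S : Finset (GolayPt → ℤ) := (Finset.range (J * c)).image fun t => dec (glob W c t) with hS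
  have hcard : S.card = 196560 := by
    rw [hS, Finset.card_image_of_injOn, Finset.card_range, C.card]
    intro s hs t ht h
    have hs' : s < J * c := Finset.mem_range.1 hs
    have ht' : t < J * c := Finset.mem_range.1 ht
    exact glob_inj C hs' ht' (dec_injOn (glob_st C hs').1.1 (glob_st C ht').1.1 h)
  have hsub : (S : Set (GolayPt → ℤ)) ⊆ {x | x ∈ leechLattice ∧ sqNorm x = 32} := by
    intro y hy
    rw [hS, Finset.coe_image] at hy
    obtain ⟨t, ht, rfl⟩ := hy
    have ht' : t < J * c := Finset.mem_range.1 ht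
    obtain ⟨h1, h2⟩ := glob_st C ht'
    refine ⟨h1.2.1, ?_⟩
    rw [sqNorm_dec, h2]
    rfl
  have hfin : {x : GolayPt → ℤ | x ∈ leechLattice ∧ sqNorm x = 32}.Finite := by
    apply Set.finite_of_ncard_ne_zero
    rw [Cfsg.Agent.Lib.LeechTheta.ncard32]
    norm_num
  have heq : (S : Set (GolayPt → ℤ)) = {x | x ∈ leechLattice ∧ sqNorm x = 32} := by
    apply Set.eq_of_subset_of_ncard_le hsub _ hfin
    rw [Cfsg.Agent.Lib.LeechTheta.ncard32, Set.ncard_coe_finset, hcard]
  have hmem : x ∈ (S : Set (GolayPt → ℤ)) := by
    rw [heq]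
    exact ⟨hx, hn⟩
  rw [hS, Finset.coe_image] at hmem
  obtain ⟨t, ht, e⟩ := hmem
  exact ⟨t, Finset.mem_range.1 ht, e.symm⟩

end census

end Cfsg.Agent.Lib.MinCensus20
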