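import Mathlib
import Cfsg.Agent.Lib.StarGrp
import Cfsg.Agent.Lib.PermModule

/-!
# Corner dimensions in group algebras over a field

`cor a b` is the corner `a A b` (for idempotents).  We prove the Peirce inequality and the fact that
the group algebra of a `p`-group `X` embeds in the corner of every nonzero `X`-fixed idempotent.
-/

set_option autoImplicit false
set_option linter.unusedSectionVars false
set_option linter.unusedVariables false
set_option linter.style.haveILetI false

namespace Cfsg.Agent.Lib.MinDimA

open MonoidAlgebra Cfsg.Agent.Lib.StarGrp Cfsg.Agent.Lib.BlockResidue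

universe u v w

section Generic

variable {k : Type v} {A : Type w} [Field k] [Ring A] [Algebra k A]

/-- The corner. -/
def cor (k : Type v) {A : Type w} [Field k] [Ring A] [Algebra k A] (a b : A) : Submodule k A where
  carrier := {x | a * x * b = x}
  add_mem' := by
    intro x y hx hy
    show a * (x + y) * b = x + y
    have hx : a * x * b = x := hx
    have hy : a * y * b = y := hy
    rw [mul_add, add_mul, hx, hy]
  zero_mem' := by simp
  smul_mem' := by
    intro c x hx
    show a * (c • x) * b = c • x
    have hx : a * x * b = x := hx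
    rw [mul_smul_comm, smul_mul_assoc, hx]

theorem mem_cor {a b x : A} : x ∈ cor k a b ↔ a * x * b = x := Iff.rfl

/-- The dimension of the corner. -/
noncomputable def ED (k : Type v) {A : Type w} [Field k] [Ring A] [Algebra k A] (a : A) : ℕ :=
  Module.finrank k (cor k a a)

variable [FiniteDimensional k A]

theorem ED_mono {a a' : A} (h1 : a * a' = a') (h2 : a' * a = a') : ED k a' ≤ ED k a := by
  apply Submodule.finrank_mono
  intro x hx
  rw [mem_cor] at hx ⊢
  rw [← hx]
  calc a * (a' * x * a') * a = (a * a') * x * (a' * a) := by noncomm_ring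
    _ = a' * x * a' := by rw [h1, h2]

/-- Conjugating both sides. -/
theorem finrank_cor_conj {a t t' s s' : A} (h1 : t * t' = 1) (h2 : t' * t = 1) (h3 : s * s' = 1)
    (h4 : s' * s = 1) :
    Module.finrank k (cor k (t * a * t') (s * a * s')) = Module.finrank k (cor k a a) := by
  symm
  refine LinearEquiv.finrank_eq (LinearEquiv.ofLinear
    { toFun := fun x => ⟨t * x.1 * s', ?_⟩
      map_add' := ?_
      map_smul' := ?_ }
    { toFun := fun x => ⟨t' * x.1 * s, ?_⟩
      map_add' := ?_
      map_smul' := ?_ } ?_ ?_)
  · have hx := (mem_cor (k := k)).1 x.2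
    rw [mem_cor]
    calc t * a * t' * (t * x.1 * s') * (s * a * s') = t * a * (t' * t) * x.1 * (s' * s) * a * s' := by
          noncomm_ring
      _ = t * (a * x.1 * a) * s' := by rw [h2, h4]; noncomm_ring
      _ = t * x.1 * s' := by rw [hx]
  · intro x y
    apply Subtype.ext
    show t * (x.1 + y.1) * s' = t * x.1 * s' + t * y.1 * s'
    noncomm_ring
  · intro c x
    apply Subtype.ext
    show t * (c • x.1) * s' = c • (t * x.1 * s')
    rw [mul_smul_comm, smul_mul_assoc]
  · have hx := (mem_cor (k := k)).1 x.2
    rw [mem_cor]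
    calc a * (t' * x.1 * s) * a
        = (t' * t) * a * t' * x.1 * s * a * (s' * s) := by rw [h2, h4]; noncomm_ring
      _ = t' * (t * a * t' * x.1 * (s * a * s')) * s := by noncomm_ring
      _ = t' * x.1 * s := by rw [hx]
  · intro x y
    apply Subtype.ext
    show t' * (x.1 + y.1) * s = t' * x.1 * s + t' * y.1 * s
    noncomm_ring
  · intro c x
    apply Subtype.ext
    show t' * (c • x.1) * s = c • (t' * x.1 * s)
    rw [mul_smul_comm, smul_mul_assoc]
  · ext x
    show t * (t' * x.1 * s) * s' = x.1
    calc t * (t' * x.1 * s) * s' = (t * t') * x.1 * (s * s') := by noncomm_ring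
      _ = x.1 := by rw [h1, h3]; noncomm_ring
  · ext x
    show t' * (t * x.1 * s') * s = x.1
    calc t' * (t * x.1 * s') * s = (t' * t) * x.1 * (s' * s) := by noncomm_ring
      _ = x.1 := by rw [h2, h4]; noncomm_ring

/-- The Peirce inequality. -/
theorem peirce {S : Type*} [Fintype S] [DecidableEq S] (a : S → A) (hid : ∀ s, a s * a s = a s)
    (horth : ∀ s t, s ≠ t → a s * a t = 0) :
    ∑ st : S × S, Module.finrank k (cor k (a st.1) (a st.2)) ≤ ED k (∑ s, a s) := by
  classical
  set b := ∑ s, a s with hb
  have hl : ∀ s, b * a s = a s := by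
    intro s
    rw [hb, Finset.sum_mul, Finset.sum_eq_single s]
    · exact hid s
    · intro t _ ht
      exact horth t s ht
    · simp
  have hr : ∀ s, a s * b = a s := by
    intro s
    rw [hb, Finset.mul_sum, Finset.sum_eq_single s]
    · exact hid s
    · intro t _ ht
      exact horth s t ht.symm
    · simp
  let Φ : (Π st : S × S, cor k (a st.1) (a st.2)) →ₗ[k] cor k b b :=
    { toFun := fun v => ⟨∑ st, (v st).1, by
        rw [mem_cor]
        have h0 : ∀ c : A, c * (∑ st, (v st).1) * c = ∑ st, c * (v st).1 * c := by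
          intro c
          rw [Finset.mul_sum, Finset.sum_mul]
        rw [h0 b]
        apply Finset.sum_congr rfl
        intro st _
        have h := (mem_cor (k := k)).1 (v st).2
        calc b * (v st).1 * b = b * (a st.1 * (v st).1 * a st.2) * b := by rw [h]
          _ = (b * a st.1) * (v st).1 * (a st.2 * b) := by noncomm_ring
          _ = (v st).1 := by rw [hl, hr, h]⟩
      map_add' := by
        intro v w
        apply Subtype.ext
        simp [Finset.sum_add_distrib]
      map_smul' := by
        intro c v
        apply Subtype.ext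
        simp [Finset.smul_sum] }
  have hinj : Function.Injective Φ := by
    rw [← LinearMap.ker_eq_bot, LinearMap.ker_eq_bot']
    intro v hv
    have h0 : ∑ st, (v st).1 = 0 := congrArg Subtype.val hv
    funext st
    apply Subtype.ext
    show (v st).1 = 0
    have h1 : a st.1 * (∑ st', (v st').1) * a st.2 = (v st).1 := by
      rw [Finset.mul_sum, Finset.sum_mul, Finset.sum_eq_single st]
      · exact (mem_cor (k := k)).1 (v st).2
      · intro st' _ hne
        have h := (mem_cor (k := k)).1 (v st').2
        rw [← h]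
        by_cases h2 : st'.1 = st.1
        · have h3 : st'.2 ≠ st.2 := fun h3 => hne (Prod.ext h2 h3)
          calc a st.1 * (a st'.1 * (v st').1 * a st'.2) * a st.2
              = a st.1 * a st'.1 * (v st').1 * (a st'.2 * a st.2) := by noncomm_ring
            _ = 0 := by rw [horth _ _ h3, mul_zero]
        · calc a st.1 * (a st'.1 * (v st').1 * a st'.2) * a st.2
              = (a st.1 * a st'.1) * (v st').1 * a st'.2 * a st.2 := by noncomm_ring
            _ = 0 := by rw [horth _ _ (Ne.symm h2)]; simp
      · simp
    rw [← h1, h0]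
    simp
  have h2 := LinearMap.finrank_le_finrank_of_injective hinj
  rw [Module.finrank_pi_fintype] at h2
  exact h2

/-- The case of two idempotents. -/
theorem ED_add_le {a b : A} (ha : a * a = a) (hb : b * b = b) (hab : a * b = 0) (hba : b * a = 0) :
    ED k a + ED k b ≤ ED k (a + b) := by
  classical
  have h := peirce (k := k) (S := Bool) (fun s => if s then a else b)
    (by
      intro s
      cases s <;> simp [ha, hb])
    (by
      intro s t hst
      cases s <;> cases t <;> simp_all)
  have h1 : ∑ s : Bool, (if s then a else b) = a + b := by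
    simp [Fintype.sum_bool]
  rw [h1] at h
  refine le_trans ?_ h
  have h2 : ∀ x : Bool × Bool, x ∈ ({(true, true), (false, false)} : Finset (Bool × Bool)) →
      x ∈ (Finset.univ : Finset (Bool × Bool)) := fun _ _ => Finset.mem_univ _
  have h3 := Finset.sum_le_sum_of_subset (s := ({(true, true), (false, false)} : Finset (Bool × Bool)))
    (t := Finset.univ) (f := fun st : Bool × Bool =>
      Module.finrank k (cor k (if st.1 then a else b) (if st.2 then a else b))) (fun x hx => h2 x hx)
  refine le_trans ?_ h3
  rw [Finset.sum_pair (by decide)]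
  simp [ED]

end Generic

section Group

variable {k : Type v} [Field k] {G : Type u} [Group G] [Fintype G] {p : ℕ} [hp : Fact p.Prime]

noncomputable local instance fintypeSubM (K : Subgroup G) : Fintype K := Fintype.ofFinite K

instance finiteDim_MA : FiniteDimensional k (MonoidAlgebra k G) := by
  show Module.Finite k (MonoidAlgebra k G)
  infer_instance

/-- The sum of the elements of a subgroup. -/
noncomputable def sig (k : Type v) [Field k] (X : Subgroup G) : MonoidAlgebra k G := ∑ u : X, ofG k (u : G)

/-- Left multiplication as a representation. -/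
noncomputable def leftRep (k : Type v) [Field k] (X : Subgroup G) : Representation k X (MonoidAlgebra k G) where
  toFun u := LinearMap.mulLeft k (ofG k (u : G))
  map_one' := by
    ext x
    simp
  map_mul' u v := by
    apply LinearMap.ext
    intro x
    simp [mul_assoc]

theorem coeff_ofG_mul (g : G) (x : MonoidAlgebra k G) (h : G) :
    (ofG k g * x).coeff h = x.coeff (g⁻¹ * h) := by
  show ((single g (1 : k)) * x).coeff h = _
  rw [coeff_single_mul']

/-- Left invariant elements are multiples of the sum of the group. -/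
theorem exists_sig_mul {X : Subgroup G} {v : MonoidAlgebra k G} (hv : ∀ u ∈ X, ofG k u * v = v) :
    ∃ b, sig k X * b = v := by
  classical
  have hinv : ∀ u ∈ X, ∀ g, v.coeff (u⁻¹ * g) = v.coeff g := by
    intro u hu g
    rw [← coeff_ofG_mul, hv u hu]
  let q : G → Quotient (QuotientGroup.rightRel X) := fun g => Quotient.mk _ g
  let r : G → G := fun g => Quotient.out (q g)
  have hr : ∀ g, g * (r g)⁻¹ ∈ X := by
    intro g
    have h1 : q (r g) = q g := Quotient.out_eq (q g)
    have h2 : (QuotientGroup.rightRel X) (r g) g := Quotient.exact h1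
    rw [QuotientGroup.rightRel_apply] at h2
    exact h2
  have hrr : ∀ u ∈ X, ∀ g, r (u * g) = r g := by
    intro u hu g
    have h1 : q (u * g) = q g := by
      apply Quotient.sound
      show (QuotientGroup.rightRel X) (u * g) g
      rw [QuotientGroup.rightRel_apply]
      have : g * (u * g)⁻¹ = u⁻¹ := by group
      rw [this]
      exact X.inv_mem hu
    show Quotient.out (q (u * g)) = Quotient.out (q g)
    rw [h1]
  have hrv : ∀ g, v.coeff (r g) = v.coeff g := by
    intro g
    have h1 := hinv _ (hr g) g
    have h2 : (g * (r g)⁻¹)⁻¹ * g = r g := by group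
    rw [h2] at h1
    exact h1
  refine ⟨ofFun fun g => if r g = g then v.coeff g else 0, ?_⟩
  apply ext_coeff
  intro g
  unfold sig
  rw [Finset.sum_mul, MonoidAlgebra.coeff_sum, Finsupp.finsetSum_apply]
  simp only [coeff_ofG_mul, coeff_ofFun]
  rw [Finset.sum_eq_single (⟨g * (r g)⁻¹, hr g⟩ : X)]
  · have h1 : (g * (r g)⁻¹)⁻¹ * g = r g := by group
    show (if r ((g * (r g)⁻¹)⁻¹ * g) = (g * (r g)⁻¹)⁻¹ * g then v.coeff ((g * (r g)⁻¹)⁻¹ * g) else 0) = _
    rw [h1, if_pos, hrv]
    have h2 : r g = r (r g) := by
      conv_rhs => rw [← h1]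
      rw [hrr _ (X.inv_mem (hr g))]
    exact h2.symm
  · intro u _ hu
    rw [if_neg]
    intro h1
    apply hu
    have h2 : r ((u : G)⁻¹ * g) = r g := hrr _ (X.inv_mem u.2) g
    rw [h2] at h1
    apply Subtype.ext
    show (u : G) = g * (r g)⁻¹
    rw [h1]
    group
  · simp

variable [CharP k p]

/-- The sum of the group does not kill a nonzero fixed idempotent. -/
theorem sig_mul_ne_zero {X : Subgroup G} (hX : IsPGroup p X) {x : MonoidAlgebra k G} (hxx : x * x = x)
    (hx0 : x ≠ 0) (hfix : x ∈ cen k (X : Set G)) : sig k X * x ≠ 0 := by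
  classical
  intro h0
  let W : Submodule k (MonoidAlgebra k G) :=
    { carrier := {y | x * y = y}
      add_mem' := by
        intro a b ha hb
        show x * (a + b) = a + b
        rw [mul_add, show x * a = a from ha, show x * b = b from hb]
      zero_mem' := by
        show x * 0 = 0
        simp
      smul_mem' := by
        intro c a ha
        show x * (c • a) = c • a
        rw [mul_smul_comm, show x * a = a from ha] }
  have hmemW : ∀ y, y ∈ W ↔ x * y = y := fun y => Iff.rfl
  have hstab : ∀ g : X, ∀ y ∈ W, leftRep k X g y ∈ W := by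
    intro g y hy
    rw [hmemW] at hy ⊢
    show x * (ofG k (g : G) * y) = ofG k (g : G) * y
    rw [← mul_assoc, ← mem_cen.1 hfix g g.2, mul_assoc, hy]
  obtain ⟨v, hvW, hv0, hvfix⟩ := Cfsg.Agent.Lib.PermModule.exists_fixed_vector hX (leftRep k X) W hstab
    ((hmemW x).2 hxx) hx0
  obtain ⟨b, hb⟩ := exists_sig_mul (k := k) (X := X) (v := v) (fun u hu => hvfix ⟨u, hu⟩)
  apply hv0
  have hcomm : x * sig k X = sig k X * x := by
    unfold sig
    rw [Finset.mul_sum, Finset.sum_mul]
    refine Finset.sum_congr rfl fun u _ => ?_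
    exact (mem_cen.1 hfix u u.2).symm
  calc v = x * v := ((hmemW v).1 hvW).symm
    _ = x * (sig k X * b) := by rw [hb]
    _ = (sig k X * x) * b := by rw [← mul_assoc, hcomm]
    _ = 0 := by rw [h0, zero_mul]

/-- Elements supported on a subgroup. -/
def SuppOn (X : Subgroup G) (ξ : MonoidAlgebra k G) : Prop := ∀ g, g ∉ X → ξ.coeff g = 0

/-- Injectivity on the group algebra of `X`. -/
theorem eq_zero_of_supp {X : Subgroup G} (hX : IsPGroup p X) {x : MonoidAlgebra k G} (hxx : x * x = x)
    (hx0 : x ≠ 0) (hfix : x ∈ cen k (X : Set G)) {ξ : MonoidAlgebra k G} (hξ : SuppOn X ξ)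
    (hξx : ξ * x = 0) : ξ = 0 := by
  classical
  by_contra hne
  let W : Submodule k (MonoidAlgebra k G) :=
    { carrier := {y | SuppOn X y ∧ y * x = 0}
      add_mem' := by
        rintro a b ⟨ha1, ha2⟩ ⟨hb1, hb2⟩
        refine ⟨fun g hg => ?_, by rw [add_mul, ha2, hb2, add_zero]⟩
        rw [MonoidAlgebra.coeff_add, Finsupp.add_apply, ha1 g hg, hb1 g hg, add_zero]
      zero_mem' := ⟨fun g hg => rfl, by simp⟩
      smul_mem' := by
        rintro c a ⟨ha1, ha2⟩
        refine ⟨fun g hg => ?_, by rw [smul_mul_assoc, ha2, smul_zero]⟩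
        rw [MonoidAlgebra.coeff_smul, Finsupp.smul_apply, ha1 g hg, smul_zero] }
  have hstab : ∀ g : X, ∀ y ∈ W, leftRep k X g y ∈ W := by
    rintro g y ⟨h1, h2⟩
    refine ⟨fun h hh => ?_, ?_⟩
    · show (ofG k (g : G) * y).coeff h = 0
      rw [coeff_ofG_mul]
      apply h1
      intro h3
      apply hh
      have := X.mul_mem g.2 h3
      simpa using this
    · show ofG k (g : G) * y * x = 0
      rw [mul_assoc, h2, mul_zero]
  obtain ⟨v, hvW, hv0, hvfix⟩ := Cfsg.Agent.Lib.PermModule.exists_fixed_vector hX (leftRep k X) W hstab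
    (v₀ := ξ) ⟨hξ, hξx⟩ hne
  -- `v` is a multiple of the sum
  have hvc : ∀ u ∈ X, v.coeff u = v.coeff 1 := by
    intro u hu
    have h1 : (ofG k u * v).coeff u = v.coeff 1 := by
      rw [coeff_ofG_mul, inv_mul_cancel]
    have h2 : ofG k u * v = v := hvfix ⟨u, hu⟩
    rw [h2] at h1
    exact h1
  have hv1 : v.coeff 1 ≠ 0 := by
    intro h0
    apply hv0
    apply ext_coeff
    intro g
    by_cases hg : g ∈ X
    · rw [hvc g hg, h0]
      rfl
    · rw [hvW.1 g hg]
      rfl
  have hvs : v = (v.coeff 1) • sig k X := by
    apply ext_coeff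
    intro g
    unfold sig
    rw [MonoidAlgebra.coeff_smul, Finsupp.smul_apply, MonoidAlgebra.coeff_sum, Finsupp.finsetSum_apply]
    by_cases hg : g ∈ X
    · rw [hvc g hg, Finset.sum_eq_single (⟨g, hg⟩ : X)]
      · simp [ofG, MonoidAlgebra.coeff_single]
      · intro u _ hu
        have : (u : G) ≠ g := fun h => hu (Subtype.ext h)
        simp [ofG, MonoidAlgebra.coeff_single, this]
      · simp
    · rw [hvW.1 g hg, Finset.sum_eq_zero]
      · simp
      · intro u _
        have : (u : G) ≠ g := fun h => hg (h ▸ u.2)
        simp [ofG, MonoidAlgebra.coeff_single, this]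
  apply sig_mul_ne_zero hX hxx hx0 hfix
  have h3 := hvW.2
  rw [hvs, smul_mul_assoc] at h3
  exact (smul_eq_zero.1 h3).resolve_left hv1

/-- The linear map from functions on `X`. -/
noncomputable def incl (k : Type v) [Field k] (X : Subgroup G) : (X → k) →ₗ[k] MonoidAlgebra k G where
  toFun a := ∑ u : X, a u • ofG k (u : G)
  map_add' a b := by
    simp [add_smul, Finset.sum_add_distrib]
  map_smul' c a := by
    simp [smul_smul, Finset.smul_sum]

theorem incl_supp (X : Subgroup G) (a : X → k) : SuppOn X (incl k X a) := by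
  classical
  intro g hg
  show (∑ u : X, a u • ofG k (u : G)).coeff g = 0
  rw [MonoidAlgebra.coeff_sum, Finsupp.finsetSum_apply]
  refine Finset.sum_eq_zero fun u _ => ?_
  have : (u : G) ≠ g := fun h => hg (h ▸ u.2)
  simp [ofG, MonoidAlgebra.coeff_single, this]

theorem incl_inj (X : Subgroup G) : Function.Injective (incl k X) := by
  classical
  rw [← LinearMap.ker_eq_bot, LinearMap.ker_eq_bot']
  intro a ha
  funext u
  have h1 := congrArg (fun y : MonoidAlgebra k G => y.coeff (u : G)) ha
  simp only [incl, LinearMap.coe_mk, AddHom.coe_mk] at h1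
  rw [MonoidAlgebra.coeff_sum, Finsupp.finsetSum_apply, Finset.sum_eq_single u] at h1
  · simpa [ofG, MonoidAlgebra.coeff_single] using h1
  · intro v _ hv
    have : (v : G) ≠ u := fun h => hv (Subtype.ext h)
    simp [ofG, MonoidAlgebra.coeff_single, this]
  · simp

theorem incl_comm {X : Subgroup G} {x : MonoidAlgebra k G} (hfix : x ∈ cen k (X : Set G)) (a : X → k) :
    x * incl k X a = incl k X a * x := by
  simp only [incl, LinearMap.coe_mk, AddHom.coe_mk]
  rw [Finset.mul_sum, Finset.sum_mul]
  refine Finset.sum_congr rfl fun u _ => ?_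
  rw [mul_smul_comm, smul_mul_assoc, ← mem_cen.1 hfix u u.2]

/-- The local map. -/
noncomputable def locMap {X : Subgroup G} {x : MonoidAlgebra k G} (hxx : x * x = x)
    (hfix : x ∈ cen k (X : Set G)) : (X → k) →ₗ[k] cor k x x where
  toFun a := ⟨incl k X a * x, by
    rw [mem_cor, ← mul_assoc, incl_comm hfix, mul_assoc (incl k X a), hxx, mul_assoc, hxx]⟩
  map_add' a b := by
    apply Subtype.ext
    simp [add_mul]
  map_smul' c a := by
    apply Subtype.ext
    simp [smul_mul_assoc]

theorem locMap_inj {X : Subgroup G} (hX : IsPGroup p X) {x : MonoidAlgebra k G} (hxx : x * x = x)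
    (hx0 : x ≠ 0) (hfix : x ∈ cen k (X : Set G)) : Function.Injective (locMap hxx hfix) := by
  rw [← LinearMap.ker_eq_bot, LinearMap.ker_eq_bot']
  intro a ha
  have h1 : incl k X a * x = 0 := congrArg Subtype.val ha
  have h2 := eq_zero_of_supp hX hxx hx0 hfix (incl_supp X a) h1
  apply incl_inj (k := k) X
  rw [h2, map_zero]

/-- **The local bound**. -/
theorem card_le_ED {X : Subgroup G} (hX : IsPGroup p X) {x : MonoidAlgebra k G} (hxx : x * x = x)
    (hx0 : x ≠ 0) (hfix : x ∈ cen k (X : Set G)) : Nat.card X ≤ ED k x := by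
  have h1 := LinearMap.finrank_le_finrank_of_injective (locMap_inj hX hxx hx0 hfix)
  rw [Module.finrank_fintype_fun_eq_card] at h1
  rw [Nat.card_eq_fintype_card]
  exact h1

/-- When the bound is sharp the corner is spanned by `X`. -/
theorem exists_of_ED_le {X : Subgroup G} (hX : IsPGroup p X) {x : MonoidAlgebra k G} (hxx : x * x = x)
    (hx0 : x ≠ 0) (hfix : x ∈ cen k (X : Set G)) (hle : ED k x ≤ Nat.card X) (y : MonoidAlgebra k G) :
    ∃ ξ, SuppOn X ξ ∧ x * y * x = ξ * x := by
  have h1 := locMap_inj hX hxx hx0 hfix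
  have h2 : Module.finrank k (X → k) = Module.finrank k (cor k x x) := by
    apply le_antisymm (LinearMap.finrank_le_finrank_of_injective h1)
    rw [Module.finrank_fintype_fun_eq_card, ← Nat.card_eq_fintype_card]
    exact hle
  have h3 := (LinearMap.injective_iff_surjective_of_finrank_eq_finrank h2).1 h1
  have hmem : x * y * x ∈ cor k x x := by
    rw [mem_cor]
    calc x * (x * y * x) * x = (x * x) * y * (x * x) := by noncomm_ring
      _ = x * y * x := by rw [hxx]
  obtain ⟨a, ha⟩ := h3 ⟨_, hmem⟩
  refine ⟨incl k X a, incl_supp X a, ?_⟩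
  exact (congrArg Subtype.val ha).symm

end Group

end Cfsg.Agent.Lib.MinDimA
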