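import Mathlib
import Cfsg.Agent.Lib.MinDimA
import Cfsg.Agent.Lib.StarII

/-!
# The dimension bound for corners of fixed idempotents

If `e` is a central idempotent of `R[G]` whose Brauer image vanishes on `p`-subgroups of order larger
than `d`, then a nonzero idempotent `i ≤ e` fixed by a `p`-subgroup `X` has corner of dimension at least
`|X|² / d`.  We also determine the structure in the case of equality.
-/

set_option autoImplicit false
set_option linter.unusedSectionVars false
set_option linter.unusedVariables false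
set_option linter.style.haveILetI false

namespace Cfsg.Agent.Lib.MinDimB

open Polynomial IsLocalRing Cfsg Cfsg.Agent.Lib.StarFit Cfsg.Agent.Lib.StarGrp
open Cfsg.Agent.Lib.StarLoc Cfsg.Agent.Lib.BlockLocal Cfsg.Agent.Lib.BlockCover
open Cfsg.Agent.Lib.BlockResidue Cfsg.Agent.Lib.StarBlk Cfsg.Agent.Lib.StarP
open Cfsg.Agent.Lib.StarFit.LocSys Cfsg.Agent.Lib.MinDimA Cfsg.Agent.Lib.StarII

universe u

variable {G : Type u} [Group G] [Fintype G] {p : ℕ} [hp : Fact p.Prime] {M : Ideal AlgInt}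
  [hMp : M.IsPrime]

local notation "𝐂[" R "]" => Subgroup.centralizer ((R : Subgroup G) : Set G)
local notation "𝐍[" R "]" => Subgroup.normalizer ((R : Subgroup G) : Set G)

noncomputable local instance fintypeSubB {A : Type*} [Group A] [Finite A] (K : Subgroup A) : Fintype K :=
  Fintype.ofFinite K

local notation "𝐑" => localSubring M
local notation "𝐤" => ResidueField (localSubring M)

theorem charP_k (hM : IsPModular p M) : CharP (ResidueField (localSubring M)) p := by
  rw [CharP.charP_iff_prime_eq_zero hp.out, ← map_natCast (residue (localSubring M))]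
  exact (residue_eq_zero_iff _).2 (hpm_of hM)

theorem red_cj (t : G) (x : MonoidAlgebra (localSubring M) G) : red (cj t x) = cj t (red x) :=
  red_conj t x

theorem cj_ofG_eq {R : Type*} [CommRing R] (t : G) (x : MonoidAlgebra R G) :
    cj t x = ofG R t * x * ofG R t⁻¹ := rfl

theorem SS_bot_iff {X : Subgroup G} {x : MonoidAlgebra (localSubring M) G} :
    x ∈ SS M X ⊥ ↔ x ∈ cen (localSubring M) (X : Set G) := by
  constructor
  · exact SS_left
  · intro h
    rw [mem_cen] at h ⊢
    rintro e (he | he)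
    · exact h e he
    · have : e = 1 := by simpa using he
      rw [this, ofG_one, one_mul, mul_one]

/-- The nonlocal step, in convenient form. -/
theorem nonlocal_data (hM : IsPModular p M) {X : Subgroup G} (hX : IsPGroup p X)
    {i : MonoidAlgebra (localSubring M) G} (hi : PrimIn (SS M X ⊥) i) (h0 : br X i = 0) :
    ∃ (Z : Subgroup G) (τ : G), Z ≤ X ∧ (Z.subgroupOf X).index = p ∧ τ ∈ X ∧ τ ∉ Z ∧
      ∃ j ∈ SS M Z ⊥, j * j = j ∧ i * j = j ∧ j * i = j ∧
        (∀ k < p, ∀ l < p, k ≠ l → red (cj (τ ^ k) j * cj (τ ^ l) j) = 0) ∧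
        red (∑ k ∈ Finset.range p, cj (τ ^ k) j) = red i := by
  classical
  have hpm := hpm_of hM
  have hpp := hp.out
  have hHp : ∀ s ∈ (⊥ : Subgroup G), ¬ p ∣ orderOf s := by
    intro s hs
    have : s = 1 := by simpa using hs
    rw [this, orderOf_one]
    exact hpp.one_lt.ne' ∘ Nat.dvd_one.1
  have hQH : ∀ τ ∈ X, ∀ s ∈ (⊥ : Subgroup G), τ * s = s * τ := by
    intro τ _ s hs
    have : s = 1 := by simpa using hs
    rw [this, mul_one, one_mul]
  obtain ⟨Z, hZQ, hidx, w, hwS, hiw, hwi, hrtr⟩ := rosenberg splitR_local hX hHp hQH hi h0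
  have hZne : Z ≠ X := by
    rintro rfl
    have : (Z.subgroupOf Z).index = 1 := by
      rw [Subgroup.subgroupOf_self, Subgroup.index_top]
    rw [this] at hidx
    exact hpp.one_lt.ne hidx
  obtain ⟨τ, hτQ, hτZ⟩ : ∃ t ∈ X, t ∉ Z := by
    by_contra hne
    push Not at hne
    exact hZne (le_antisymm hZQ hne)
  haveI hnorm := normal_of_index_p hX hidx
  have hτN : τ ∈ 𝐍[Z] := by
    apply mem_normalizer_of_conj_le
    intro d hd
    have h1 : (⟨d, hZQ hd⟩ : X) ∈ Z.subgroupOf X := Subgroup.mem_subgroupOf.2 hd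
    have h2 := hnorm.conj_mem _ h1 (⟨τ, hτQ⟩ : X)⁻¹
    rw [Subgroup.mem_subgroupOf] at h2
    simpa using h2
  have hτH := hQH τ hτQ
  have hτp : τ ^ p ∈ Z := by
    have h1 : (QuotientGroup.mk (⟨τ, hτQ⟩ : X) : X ⧸ Z.subgroupOf X) ^ p = 1 := by
      rw [← hidx]
      exact pow_card_eq_one'
    rw [← QuotientGroup.mk_pow, QuotientGroup.eq_one_iff, Subgroup.mem_subgroupOf] at h1
    simpa using h1
  have hiZ : i ∈ SS M Z ⊥ := SS_anti hZQ hi.mem
  obtain ⟨j, hjS, hjj, hij, hji, horth, hsum⟩ := exists_as (L := LL M G) (S := SS M Z ⊥) p hpm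
    (t := ofG (localSubring M) τ) (t' := ofG (localSubring M) τ⁻¹) (a := i) (w := w)
    (ofG_mul_inv τ) (ofG_inv_mul τ) (fun x hx => cj_mem_SS hτN hτH hx)
    (fun x hx => by
      rw [pow_conj]
      exact cj_eq_of_mem hx (Or.inl hτp))
    hiZ hi.idem (cj_eq_of_mem hi.mem (Or.inl hτQ)) hwS hiw hwi
    (by
      simp_rw [pow_conj]
      rw [← rtr_eq_sum_pow hX hZQ hidx hτQ hτZ (SS_left hwS), hrtr])
  simp_rw [pow_conj] at horth hsum
  exact ⟨Z, τ, hZQ, hidx, hτQ, hτZ, j, hjS, hjj, hij, hji, horth, hsum⟩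

/-- The dimension inequality of the nonlocal step. -/
theorem ED_step {τ : G} {j i : MonoidAlgebra (localSubring M) G} (hjj : j * j = j)
    (horth : ∀ k < p, ∀ l < p, k ≠ l → red (cj (τ ^ k) j * cj (τ ^ l) j) = 0)
    (hsum : red (∑ k ∈ Finset.range p, cj (τ ^ k) j) = red i) :
    p * p * ED (ResidueField (localSubring M)) (red j) ≤ ED (ResidueField (localSubring M)) (red i) := by
  classical
  set J := red j with hJ
  have hJJ : J * J = J := by rw [hJ, ← map_mul, hjj]
  let a : Fin p → MonoidAlgebra (ResidueField (localSubring M)) G := fun k => cj (τ ^ (k : ℕ)) J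
  have ha : ∀ k, a k = red (cj (τ ^ (k : ℕ)) j) := fun k => (red_cj _ _).symm
  have hid : ∀ s, a s * a s = a s := by
    intro s
    show cj _ J * cj _ J = cj _ J
    rw [← cj_mul', hJJ]
  have hor : ∀ s t, s ≠ t → a s * a t = 0 := by
    intro s t hst
    rw [ha, ha, ← map_mul]
    exact horth s s.2 t t.2 (fun h => hst (Fin.ext h))
  have h1 := peirce (k := ResidueField (localSubring M)) a hid hor
  have h2 : ∑ s, a s = red i := by
    rw [← hsum, map_sum, ← Fin.sum_univ_eq_sum_range (fun k => red (cj (τ ^ k) j)) p]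
    exact Finset.sum_congr rfl fun k _ => ha k
  rw [h2] at h1
  refine le_trans (le_of_eq ?_) h1
  have h3 : ∀ st : Fin p × Fin p, Module.finrank (ResidueField (localSubring M)) (cor (ResidueField (localSubring M)) (a st.1) (a st.2)) =
      ED (ResidueField (localSubring M)) J := by
    intro st
    exact finrank_cor_conj (ofG_mul_inv _) (ofG_inv_mul _) (ofG_mul_inv _) (ofG_inv_mul _)
  simp only [h3]
  rw [Finset.sum_const, Finset.card_univ, Fintype.card_prod, Fintype.card_fin, smul_eq_mul]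

/-- **The dimension bound.** -/
theorem lemA (hM : IsPModular p M) {e : MonoidAlgebra (localSubring M) G} {d : ℕ}
    (hloc : ∀ X : Subgroup G, IsPGroup p X → br X e ≠ 0 → Nat.card X ≤ d)
    (hcen : ∀ E : Set G, e ∈ cen (localSubring M) E) :
    ∀ (n : ℕ) (X : Subgroup G), Nat.card X = n → IsPGroup p X →
      ∀ i ∈ SS M X ⊥, i * i = i → e * i = i → i ≠ 0 →
        Nat.card X ^ 2 ≤ d * ED (ResidueField (localSubring M)) (red i) := by
  classical
  haveI := charP_k hM
  intro n
  induction n using Nat.strong_induction_on with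
  | _ n ih =>
  intro X hn hX i hiS hii hei hi0
  obtain ⟨κ, _, f, hf1, hf2, hf3⟩ := exists_prim_decomp (LL M G) hiS hii
  have hne : Nonempty κ := by
    by_contra hemp
    rw [not_nonempty_iff] at hemp
    apply hi0
    rw [← hf3]
    simp
  obtain ⟨j₀⟩ := hne
  have hidem : ∀ j, f j * f j = f j := fun j => (hf1 j).idem
  have hl : ∀ j, i * f j = f j := sum_left hidem hf2 hf3
  have hr : ∀ j, f j * i = f j := sum_right hidem hf2 hf3
  set ι := f j₀ with hι
  have hιp : PrimIn (SS M X ⊥) ι := hf1 j₀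
  have hle : ED (ResidueField (localSubring M)) (red ι) ≤ ED (ResidueField (localSubring M)) (red i) :=
    ED_mono (by rw [← map_mul, hl]) (by rw [← map_mul, hr])
  have heι : e * ι = ι := by
    calc e * ι = e * (i * ι) := by rw [show i * ι = ι from hl j₀]
      _ = (e * i) * ι := (mul_assoc _ _ _).symm
      _ = ι := by rw [hei, show i * ι = ι from hl j₀]
  refine le_trans ?_ (Nat.mul_le_mul_left d hle)
  by_cases h0 : br X ι = 0
  · obtain ⟨Z, τ, hZX, hidx, hτX, hτZ, j, hjS, hjj, hιj, hjι, horth, hsum⟩ := nonlocal_data hM hX hιp h0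
    have hj0 : j ≠ 0 := by
      rintro rfl
      apply hιp.ne
      apply (LL M G).eq_zero_of_phi_eq_zero hιp.idem
      show red ι = 0
      rw [← hsum]
      simp [cj]
    have hej : e * j = j := by
      rw [← hιj, ← mul_assoc, heι]
    have hZne : Z ≠ X := by
      rintro rfl
      exact hτZ hτX
    have hZlt : Nat.card Z < n := by
      rw [← hn]
      exact Cfsg.Agent.Lib.BrauerSub.card_lt_card_of_lt (lt_of_le_of_ne hZX hZne)
    have h1 := ih _ hZlt Z rfl (hX.to_le hZX) j hjS hjj hej hj0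
    have h2 := ED_step hjj horth hsum
    have h3 : Nat.card X = p * Nat.card Z := by
      have h4 := (Z.subgroupOf X).index_mul_card
      rw [hidx] at h4
      rw [← h4, ← Nat.card_congr (Subgroup.subgroupOfEquivOfLe hZX).toEquiv]
    rw [h3]
    calc (p * Nat.card Z) ^ 2 = p * p * Nat.card Z ^ 2 := by ring
      _ ≤ p * p * (d * ED _ (red j)) := Nat.mul_le_mul_left _ h1
      _ = d * (p * p * ED _ (red j)) := by ring
      _ ≤ _ := Nat.mul_le_mul_left _ h2
  · -- local
    have hcX := SS_left hιp.mem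
    have hbr : br X e ≠ 0 := by
      intro h1
      apply h0
      rw [← heι, br_mul (hpm_of hM) hX (hcen _) hcX, h1, zero_mul]
    have h1 := hloc X hX hbr
    have hred0 : red ι ≠ 0 := fun h => hιp.ne ((LL M G).eq_zero_of_phi_eq_zero hιp.idem h)
    have h2 := card_le_ED (k := ResidueField (localSubring M)) hX (x := red ι)
      (by rw [← map_mul, hιp.idem]) hred0 (red_mem_cen hcX)
    rw [sq]
    exact Nat.mul_le_mul h1 h2

/-- Powers of an element outside an index `p` subgroup. -/
theorem exists_pow_mul {Z X : Subgroup G} (hidx : (Z.subgroupOf X).index = p) (hXp : IsPGroup p X)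
    {τ : G} (hτX : τ ∈ X) (hτZ : τ ∉ Z) {x : G} (hxX : x ∈ X) (hxZ : x ∉ Z) :
    ∃ a, 0 < a ∧ a < p ∧ ∃ z ∈ Z, x = τ ^ a * z := by
  classical
  haveI hnorm := normal_of_index_p hXp hidx
  let Q := X ⧸ Z.subgroupOf X
  letI : Fintype Q := Fintype.ofFinite Q
  have hcard : Fintype.card Q = p := by
    rw [← Nat.card_eq_fintype_card]
    exact hidx
  have hq0 : (QuotientGroup.mk (⟨τ, hτX⟩ : X) : Q) ≠ 1 := by
    intro h
    rw [QuotientGroup.eq_one_iff, Subgroup.mem_subgroupOf] at h
    exact hτZ h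
  have hq1 : (QuotientGroup.mk (⟨x, hxX⟩ : X) : Q) ≠ 1 := by
    intro h
    rw [QuotientGroup.eq_one_iff, Subgroup.mem_subgroupOf] at h
    exact hxZ h
  obtain ⟨n, hn⟩ := mem_powers_of_prime_card (G := Q) hidx (g' := (QuotientGroup.mk (⟨x, hxX⟩ : X) : Q)) hq0
  replace hn : (QuotientGroup.mk (⟨τ, hτX⟩ : X) : Q) ^ n = QuotientGroup.mk (⟨x, hxX⟩ : X) := hn
  have hpow : (QuotientGroup.mk (⟨τ, hτX⟩ : X) : Q) ^ p = 1 := by
    rw [← hcard]
    exact pow_card_eq_one
  have hn2 : (QuotientGroup.mk (⟨τ, hτX⟩ : X) : Q) ^ (n % p) = QuotientGroup.mk (⟨x, hxX⟩ : X) := by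
    rw [← hn]
    conv_rhs => rw [← Nat.mod_add_div n p, pow_add, pow_mul, hpow, one_pow, mul_one]
  refine ⟨n % p, ?_, Nat.mod_lt _ hp.out.pos, (τ ^ (n % p))⁻¹ * x, ?_, by group⟩
  · rw [Nat.pos_iff_ne_zero]
    intro h0
    rw [h0, pow_zero] at hn2
    exact hq1 hn2.symm
  · rw [← QuotientGroup.mk_pow, QuotientGroup.eq] at hn2
    rw [Subgroup.mem_subgroupOf] at hn2
    simpa using hn2

theorem red_rtr (X Y : Subgroup G) (y : MonoidAlgebra (localSubring M) G) :
    red (rtr X Y y) = rtr X Y (red y) := by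
  unfold rtr
  rw [map_sum]
  exact Finset.sum_congr rfl fun q _ => red_cj _ _

theorem out_mem_of_eq_one (Q Z : Subgroup G) (q₀ : Z ⧸ Q.subgroupOf Z)
    (hq₀ : q₀ = QuotientGroup.mk (1 : Z)) : ((q₀.out : Z) : G) ∈ Q := by
  have h1 : (QuotientGroup.mk q₀.out : Z ⧸ Q.subgroupOf Z) = QuotientGroup.mk (1 : Z) := by
    rw [QuotientGroup.out_eq', hq₀]
  rw [QuotientGroup.eq, Subgroup.mem_subgroupOf] at h1
  have h2 := Q.inv_mem h1
  simpa using h2

theorem eq_one_of_out_mem (Q Z : Subgroup G) {q₀ : Z ⧸ Q.subgroupOf Z} (q : Z ⧸ Q.subgroupOf Z)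
    (hq₀ : q₀ = QuotientGroup.mk (1 : Z)) (h : ((q.out : Z) : G) ∈ Q) : q = q₀ := by
  rw [hq₀, ← QuotientGroup.out_eq' q, QuotientGroup.eq, Subgroup.mem_subgroupOf]
  have h2 := Q.inv_mem h
  simpa using h2

/-- In a sum of orthogonal conjugates, the summand at the trivial coset absorbs. -/
theorem mul_rtr_self {R : Type*} [CommRing R] {Q Z : Subgroup G} {J : MonoidAlgebra R G}
    (hQZ : Q ≤ Z) (hJJ : J * J = J) (hJ : J ∈ cen R (Q : Set G))
    (horth : ∀ x ∈ Z, x ∉ Q → J * cj x J = 0) : J * rtr Q Z J = J := by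
  classical
  unfold rtr
  set q₀ : Z ⧸ Q.subgroupOf Z := QuotientGroup.mk (1 : Z) with hq₀
  rw [Finset.mul_sum, Finset.sum_eq_single q₀]
  · exact (by rw [cj_eq_of_mem hJ (out_mem_of_eq_one Q Z q₀ hq₀), hJJ])
  · intro q _ hq
    apply horth _ (q.out).2
    intro h1
    exact hq (eq_one_of_out_mem Q Z q hq₀ h1)
  · simp

theorem rtr_mul_self {R : Type*} [CommRing R] {Q Z : Subgroup G} {J : MonoidAlgebra R G}
    (hQZ : Q ≤ Z) (hJJ : J * J = J) (hJ : J ∈ cen R (Q : Set G))
    (horth : ∀ x ∈ Z, x ∉ Q → J * cj x J = 0) : rtr Q Z J * J = J := by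
  classical
  have horth' : ∀ x ∈ Z, x ∉ Q → cj x J * J = 0 := by
    intro x hx hxQ
    have h1 := horth x⁻¹ (Z.inv_mem hx) (fun h => hxQ (by simpa using Q.inv_mem h))
    have h2 : cj x (J * cj x⁻¹ J) = cj x J * J := by
      rw [cj_mul', ← cj_mul, mul_inv_cancel, cj_one]
    rw [← h2, h1]
    simp [cj]
  unfold rtr
  set q₀ : Z ⧸ Q.subgroupOf Z := QuotientGroup.mk (1 : Z) with hq₀
  rw [Finset.sum_mul, Finset.sum_eq_single q₀]
  · exact (by rw [cj_eq_of_mem hJ (out_mem_of_eq_one Q Z q₀ hq₀), hJJ])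
  · intro q _ hq
    apply horth' _ (q.out).2
    intro h1
    exact hq (eq_one_of_out_mem Q Z q hq₀ h1)
  · simp

/-- **The structure in the case of equality.** -/
theorem lemB (hM : IsPModular p M) {e : MonoidAlgebra (localSubring M) G} {d : ℕ}
    (hloc : ∀ X : Subgroup G, IsPGroup p X → br X e ≠ 0 → Nat.card X ≤ d)
    (hcen : ∀ E : Set G, e ∈ cen (localSubring M) E) :
    ∀ (n : ℕ) (X : Subgroup G), Nat.card X = n → IsPGroup p X →
      ∀ i ∈ SS M X ⊥, i * i = i → e * i = i → i ≠ 0 →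
        d * ED (ResidueField (localSubring M)) (red i) ≤ Nat.card X ^ 2 →
        ∃ Q : Subgroup G, Q ≤ X ∧ Nat.card Q = d ∧ ∃ j ∈ cen (localSubring M) (Q : Set G),
          j * j = j ∧ j ≠ 0 ∧ red (rtr Q X j) = red i ∧
          (∀ x ∈ X, x ∉ Q → red j * cj x (red j) = 0) ∧
          ED (ResidueField (localSubring M)) (red j) ≤ Nat.card Q := by
  classical
  haveI := charP_k hM
  have hA := lemA hM hloc hcen
  have hpos : ∀ X : Subgroup G, 0 < Nat.card X := fun X => Nat.card_pos
  intro n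
  induction n using Nat.strong_induction_on with
  | _ n ih =>
  intro X hn hX i hiS hii hei hi0 hle
  -- `i` is primitive
  have hprim : PrimIn (SS M X ⊥) i := by
    refine ⟨hiS, hii, hi0, ?_⟩
    intro q hqS hqq hiq hqi
    by_contra hne
    push Not at hne
    obtain ⟨hq0, hqi'⟩ := hne
    set b := i - q with hb
    have hbS : b ∈ SS M X ⊥ := (SS M X ⊥).sub_mem hiS hqS
    have hbb : b * b = b := by
      rw [hb, mul_sub, sub_mul, sub_mul, hii, hiq, hqi, hqq]
      abel
    have hqb : q * b = 0 := by rw [hb, mul_sub, hqi, hqq, sub_self]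
    have hbq : b * q = 0 := by rw [hb, sub_mul, hiq, hqq, sub_self]
    have hb0 : b ≠ 0 := fun h => hqi' (sub_eq_zero.1 h).symm
    have heq : e * q = q := by
      calc e * q = e * (i * q) := by rw [hiq]
        _ = (e * i) * q := (mul_assoc _ _ _).symm
        _ = q := by rw [hei, hiq]
    have heb : e * b = b := by
      rw [hb, mul_sub, hei, heq]
    have h1 := hA _ X rfl hX q hqS hqq heq hq0
    have h2 := hA _ X rfl hX b hbS hbb heb hb0
    have h3 := ED_add_le (k := ResidueField (localSubring M)) (a := red q) (b := red b)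
      (by rw [← map_mul, hqq]) (by rw [← map_mul, hbb]) (by rw [← map_mul, hqb, map_zero])
      (by rw [← map_mul, hbq, map_zero])
    have h4 : red q + red b = red i := by
      rw [← map_add, hb]
      simp
    rw [h4] at h3
    have h5 : 0 < Nat.card X ^ 2 := pow_pos (hpos X) 2
    have h6 : d * (ED (ResidueField (localSubring M)) (red q) + ED (ResidueField (localSubring M)) (red b))
        ≤ d * ED (ResidueField (localSubring M)) (red i) := Nat.mul_le_mul_left _ h3
    rw [mul_add] at h6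
    omega
  have hredii : red i * red i = red i := by rw [← map_mul, hii]
  have hcX := SS_left hiS
  have hred0 : red i ≠ 0 := fun h => hi0 ((LL M G).eq_zero_of_phi_eq_zero hii h)
  by_cases h0 : br X i = 0
  · obtain ⟨Z, τ, hZX, hidx, hτX, hτZ, j, hjS, hjj, hij, hji, horth, hsum⟩ := nonlocal_data hM hX hprim h0
    have hj0 : j ≠ 0 := by
      rintro rfl
      apply hi0
      apply (LL M G).eq_zero_of_phi_eq_zero hii
      show red i = 0
      rw [← hsum]
      simp [cj]
    have hej : e * j = j := by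
      calc e * j = e * (i * j) := by rw [hij]
        _ = (e * i) * j := (mul_assoc _ _ _).symm
        _ = j := by rw [hei, hij]
    have hZne : Z ≠ X := by
      rintro rfl
      exact hτZ hτX
    have hZlt : Nat.card Z < n := by
      rw [← hn]
      exact Cfsg.Agent.Lib.BrauerSub.card_lt_card_of_lt (lt_of_le_of_ne hZX hZne)
    have h2 := ED_step hjj horth hsum
    have h3 : Nat.card X = p * Nat.card Z := by
      have h4 := (Z.subgroupOf X).index_mul_card
      rw [hidx] at h4
      rw [← h4, ← Nat.card_congr (Subgroup.subgroupOfEquivOfLe hZX).toEquiv]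
    have hle' : d * ED (ResidueField (localSubring M)) (red j) ≤ Nat.card Z ^ 2 := by
      have hpp : 0 < p * p := Nat.mul_pos hp.out.pos hp.out.pos
      apply Nat.le_of_mul_le_mul_left _ hpp
      calc p * p * (d * ED _ (red j)) = d * (p * p * ED _ (red j)) := by ring
        _ ≤ d * ED _ (red i) := Nat.mul_le_mul_left _ h2
        _ ≤ Nat.card X ^ 2 := hle
        _ = p * p * Nat.card Z ^ 2 := by rw [h3]; ring
    obtain ⟨Q, hQZ, hQd, j₁, hj₁, hj₁j₁, hj₁0, hrtr, hor, hED⟩ := ih _ hZlt Z rfl (hX.to_le hZX) j hjS hjj hej hj0 hle'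
    set J₁ := red j₁ with hJ₁
    set J := red j with hJ
    have hJ₁J₁ : J₁ * J₁ = J₁ := by rw [hJ₁, ← map_mul, hj₁j₁]
    have hJ₁cen : J₁ ∈ cen (ResidueField (localSubring M)) (Q : Set G) := red_mem_cen hj₁
    have hJcen : J ∈ cen (ResidueField (localSubring M)) (Z : Set G) := red_mem_cen (SS_left hjS)
    have hrtr' : rtr Q Z J₁ = J := by rw [← red_rtr, hrtr]
    have hJ₁J : J₁ * J = J₁ := by
      rw [← hrtr']
      exact mul_rtr_self hQZ hJ₁J₁ hJ₁cen hor
    have hJJ₁ : J * J₁ = J₁ := by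
      rw [← hrtr']
      exact rtr_mul_self hQZ hJ₁J₁ hJ₁cen hor
    refine ⟨Q, hQZ.trans hZX, hQd, j₁, hj₁, hj₁j₁, hj₁0, ?_, ?_, hED⟩
    · rw [← rtr_trans hj₁ hQZ hZX, red_rtr, hrtr, rtr_eq_sum_pow hX hZX hidx hτX hτZ hJcen, ← hsum, map_sum]
      exact Finset.sum_congr rfl fun k _ => (red_cj _ _).symm
    · intro x hxX hxQ
      by_cases hxZ : x ∈ Z
      · exact hor x hxZ hxQ
      obtain ⟨a, ha0, hap, z, hz, rfl⟩ := exists_pow_mul hidx hX hτX hτZ hxX hxZ
      have h5 : J * cj (τ ^ a * z) J = 0 := by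
        rw [cj_mul, cj_eq_of_mem hJcen hz]
        have h6 := horth 0 hp.out.pos a hap (Nat.ne_of_lt ha0)
        rw [map_mul, red_cj, red_cj, pow_zero, cj_one] at h6
        exact h6
      have h7 : cj (τ ^ a * z) J * cj (τ ^ a * z) J₁ = cj (τ ^ a * z) J₁ := by
        rw [← cj_mul', hJJ₁]
      calc J₁ * cj (τ ^ a * z) J₁ = (J₁ * J) * (cj (τ ^ a * z) J * cj (τ ^ a * z) J₁) := by
            rw [hJ₁J, h7]
        _ = J₁ * (J * cj (τ ^ a * z) J) * cj (τ ^ a * z) J₁ := by noncomm_ring
        _ = 0 := by rw [h5]; simp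
  · -- local
    have hbr : br X e ≠ 0 := by
      intro h1
      apply h0
      rw [← hei, br_mul (hpm_of hM) hX (hcen _) hcX, h1, zero_mul]
    have h1 := hloc X hX hbr
    have h2 := card_le_ED (k := ResidueField (localSubring M)) hX (x := red i) hredii hred0 (red_mem_cen hcX)
    have h3 : 0 < Nat.card X := hpos X
    have h4 : d ≤ Nat.card X := by
      apply Nat.le_of_mul_le_mul_right _ h3
      calc d * Nat.card X ≤ d * ED _ (red i) := Nat.mul_le_mul_left _ h2
        _ ≤ Nat.card X ^ 2 := hle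
        _ = Nat.card X * Nat.card X := sq _
    have h5 : Nat.card X = d := le_antisymm h1 h4
    refine ⟨X, le_rfl, h5, i, hcX, hii, hi0, by rw [rtr_self hcX], fun x hx hx' => absurd hx hx', ?_⟩
    apply Nat.le_of_mul_le_mul_left _ h3
    rw [← h5] at hle
    calc Nat.card X * ED _ (red i) ≤ Nat.card X ^ 2 := hle
      _ = Nat.card X * Nat.card X := sq _

end Cfsg.Agent.Lib.MinDimB
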