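import Mathlib
import Cfsg.Agent.Lib.MinDimB

/-!
# Source idempotents with corner `k Q`: the twisted Brauer computation
-/

set_option autoImplicit false
set_option linter.unusedSectionVars false
set_option linter.unusedVariables false
set_option linter.style.haveILetI false

namespace Cfsg.Agent.Lib.MinDimC

open Polynomial IsLocalRing Cfsg Cfsg.Agent.Lib.StarFit Cfsg.Agent.Lib.StarGrp
open Cfsg.Agent.Lib.StarLoc Cfsg.Agent.Lib.BlockLocal Cfsg.Agent.Lib.BlockCover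
open Cfsg.Agent.Lib.BlockResidue Cfsg.Agent.Lib.StarBlk Cfsg.Agent.Lib.StarP
open Cfsg.Agent.Lib.StarFit.LocSys Cfsg.Agent.Lib.MinDimA Cfsg.Agent.Lib.StarII
open Cfsg.Agent.Lib.MinDimB

universe u

variable {G : Type u} [Group G] [Fintype G] {p : ℕ} [hp : Fact p.Prime] {M : Ideal AlgInt}
  [hMp : M.IsPrime]

local notation "𝐂[" R "]" => Subgroup.centralizer ((R : Subgroup G) : Set G)
local notation "𝐍[" R "]" => Subgroup.normalizer ((R : Subgroup G) : Set G)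

noncomputable local instance fintypeSubC {A : Type*} [Group A] [Finite A] (K : Subgroup A) : Fintype K :=
  Fintype.ofFinite K

section Coeff

variable {k : Type*} [Field k]

theorem coeff_triple (a b : MonoidAlgebra k G) (g z : G) :
    (a * ofG k g * b).coeff z = ∑ t, a.coeff t * b.coeff (g⁻¹ * (t⁻¹ * z)) := by
  rw [mul_assoc, coeff_mul_eq]
  refine Finset.sum_congr rfl fun t _ => ?_
  rw [coeff_ofG_mul]

theorem mem_C_conj {T : Subgroup G} {g c : G} (hg : g ∈ 𝐍[T]) (hc : c ∈ 𝐂[T]) : g⁻¹ * c * g ∈ 𝐂[T] := by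
  rw [Subgroup.mem_centralizer_iff] at hc ⊢
  intro u hu
  have h1 : g * u * g⁻¹ ∈ T := (Subgroup.mem_normalizer_iff.1 hg u).1 hu
  have h2 := hc _ h1
  calc u * (g⁻¹ * c * g) = g⁻¹ * ((g * u * g⁻¹) * c) * g := by group
    _ = g⁻¹ * (c * (g * u * g⁻¹)) * g := by rw [h2]
    _ = _ := by group

theorem mem_conj_inv {T : Subgroup G} {g u : G} (hg : g ∈ 𝐍[T]) (hu : u ∈ T) : g⁻¹ * u * g ∈ T := by
  have := (Subgroup.mem_normalizer_iff.1 ((𝐍[T]).inv_mem hg) u).1 hu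
  simpa using this

end Coeff

section K1

variable {T : Subgroup G} {g₁ : G}

/-- Support of the product of Brauer images. -/
theorem coeff_br_triple_zero (hg₁ : g₁ ∈ 𝐍[T]) (X Y : MonoidAlgebra (localSubring M) G) {z : G}
    (hz : z * g₁⁻¹ ∉ 𝐂[T]) : (br T X * ofG _ g₁ * br T Y).coeff z = 0 := by
  classical
  rw [coeff_triple]
  refine Finset.sum_eq_zero fun t _ => ?_
  by_cases ht : t ∈ 𝐂[T]
  · by_cases hb : g₁⁻¹ * (t⁻¹ * z) ∈ 𝐂[T]
    · exfalso
      apply hz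
      have h1 := mem_C_conj ((𝐍[T]).inv_mem hg₁) hb
      rw [inv_inv] at h1
      have h2 := (𝐂[T]).mul_mem ht h1
      have e1 : t * (g₁ * (g₁⁻¹ * (t⁻¹ * z)) * g₁⁻¹) = z * g₁⁻¹ := by group
      rwa [e1] at h2
    · rw [br_coeff_not_mem _ _ hb, mul_zero]
  · rw [br_coeff_not_mem _ _ ht, zero_mul]

/-- The Brauer images compute the product on the coset. -/
theorem coeff_br_triple (hM : IsPModular p M) (hT : IsPGroup p T) (hg₁ : g₁ ∈ 𝐍[T])
    {X Y : MonoidAlgebra (localSubring M) G} (hX : X ∈ cen (localSubring M) (T : Set G))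
    (hY : Y ∈ cen (localSubring M) (T : Set G)) {z : G} (hz : z * g₁⁻¹ ∈ 𝐂[T]) :
    (br T X * ofG _ g₁ * br T Y).coeff z = (red X * ofG _ g₁ * red Y).coeff z := by
  classical
  have hk : ((p : ℕ) : ResidueField (localSubring M)) = 0 := by
    rw [← map_natCast (residue (localSubring M))]
    exact (residue_eq_zero_iff _).2 (hpm_of hM)
  rw [coeff_triple, coeff_triple]
  have hX' := mem_cen_coeff.1 (red_mem_cen hX)
  have hY' := mem_cen_coeff.1 (red_mem_cen hY)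
  set f : G → ResidueField (localSubring M) :=
    fun t => (red X).coeff t * (red Y).coeff (g₁⁻¹ * (t⁻¹ * z)) with hf
  have hzc : ∀ u ∈ T, u⁻¹ * z = z * (g₁⁻¹ * u⁻¹ * g₁) := by
    intro u hu
    have h1 := (Subgroup.mem_centralizer_iff.1 hz) u⁻¹ (T.inv_mem hu)
    calc u⁻¹ * z = (u⁻¹ * (z * g₁⁻¹)) * g₁ := by group
      _ = ((z * g₁⁻¹) * u⁻¹) * g₁ := by rw [h1]
      _ = _ := by group
  have hinv : ∀ (u : T) (t : G), f ((u : G) * t * (u : G)⁻¹) = f t := by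
    intro u t
    simp only [hf]
    have h1 := hX' (u : G) u.2 ((u : G) * t * (u : G)⁻¹)
    have e1 : (u : G)⁻¹ * ((u : G) * t * (u : G)⁻¹) * (u : G) = t := by group
    rw [e1] at h1
    have hu' : g₁⁻¹ * (u : G) * g₁ ∈ T := mem_conj_inv hg₁ u.2
    have h2 := hY' _ hu' (g₁⁻¹ * (((u : G) * t * (u : G)⁻¹)⁻¹ * z))
    have e2 : (g₁⁻¹ * (u : G) * g₁)⁻¹ * (g₁⁻¹ * (((u : G) * t * (u : G)⁻¹)⁻¹ * z)) * (g₁⁻¹ * (u : G) * g₁) =
        g₁⁻¹ * (t⁻¹ * z) := by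
      have e3 : ((u : G) * t * (u : G)⁻¹)⁻¹ * z = (u : G) * t⁻¹ * ((u : G)⁻¹ * z) := by group
      rw [e3, hzc u u.2]
      group
    rw [e2] at h2
    rw [← h1, ← h2]
  have key := Cfsg.Agent.Lib.CharAutP.sum_eq_sum_fixed (S := ResidueField (localSubring M)) p hT hk
    (fun (d : T) (a : G) => (d : G) * a * (d : G)⁻¹) (by simp) (by
      intro g h a
      simp only [Subgroup.coe_mul]
      group) f hinv
  rw [key]
  have hconv : ∑ a : {a : G // ∀ d : T, (d : G) * a * (d : G)⁻¹ = a}, f a.1 =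
      ∑ a ∈ Finset.univ.filter (fun a : G => ∀ d : T, (d : G) * a * (d : G)⁻¹ = a), f a :=
    (Finset.sum_subtype _ (by simp) f).symm
  rw [hconv, Finset.sum_filter]
  refine Finset.sum_congr rfl fun t _ => ?_
  by_cases ht : ∀ d : T, (d : G) * t * (d : G)⁻¹ = t
  · have ht' : t ∈ 𝐂[T] := mem_cen_iff_forall_commute.2 ht
    have hb : g₁⁻¹ * (t⁻¹ * z) ∈ 𝐂[T] := by
      have h1 := (𝐂[T]).mul_mem ((𝐂[T]).inv_mem ht') hz
      have h2 := mem_C_conj hg₁ h1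
      have e1 : g₁⁻¹ * (t⁻¹ * (z * g₁⁻¹)) * g₁ = g₁⁻¹ * (t⁻¹ * z) := by group
      rwa [e1] at h2
    rw [if_pos ht, br_coeff_mem T _ ht', br_coeff_mem T _ hb]
    simp only [hf, coeff_red]
  · have ht' : t ∉ 𝐂[T] := fun h => ht (mem_cen_iff_forall_commute.1 h)
    rw [if_neg ht, br_coeff_not_mem T _ ht', zero_mul]

end K1

section K2

variable {T Q : Subgroup G} {j : MonoidAlgebra (localSubring M) G}

local notation "𝐉" => red j

/-- **The key vanishing.** -/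
theorem brK (hM : IsPModular p M) (hT : IsPGroup p T) (hjQ : j ∈ cen (localSubring M) (Q : Set G))
    (hspan : ∀ y, ∃ ξ, SuppOn Q ξ ∧ red j * y * red j = ξ * red j)
    (hinj : ∀ ξ, SuppOn Q ξ → ξ * red j = 0 → ξ = 0) {x y g₁ : G}
    (hTx : ∀ u ∈ T, x⁻¹ * u * x ∈ Q) (hTy : ∀ u ∈ T, y⁻¹ * u * y ∈ Q) (hg₁ : g₁ ∈ 𝐍[T])
    (hno : ∀ q ∈ Q, x * q * y⁻¹ * g₁⁻¹ ∉ 𝐂[T]) :
    br T (cj x j) * ofG _ g₁ * br T (cj y j) = 0 := by
  classical
  have hk : ((p : ℕ) : ResidueField (localSubring M)) = 0 := by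
    rw [← map_natCast (residue (localSubring M))]
    exact (residue_eq_zero_iff _).2 (hpm_of hM)
  set J := red j with hJ
  have hJQ : J ∈ cen (ResidueField (localSubring M)) (Q : Set G) := red_mem_cen hjQ
  have hcenx : ∀ {x : G}, (∀ u ∈ T, x⁻¹ * u * x ∈ Q) → cj x j ∈ cen (localSubring M) (T : Set G) := by
    intro x hTx
    rw [mem_cen_conj]
    intro u hu
    show cj u (cj x j) = cj x j
    have e1 : u * x = x * (x⁻¹ * u * x) := by group
    rw [← cj_mul, e1, cj_mul, cj_eq_of_mem hjQ (hTx u hu)]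
  apply ext_coeff
  intro z
  by_cases hz : z * g₁⁻¹ ∈ 𝐂[T]
  swap
  · rw [coeff_br_triple_zero hg₁ _ _ hz]
    rfl
  rw [coeff_br_triple hM hT hg₁ (hcenx hTx) (hcenx hTy) hz, red_cj, red_cj]
  obtain ⟨ξ, hξ, hξJ⟩ := hspan (ofG _ (x⁻¹ * g₁ * y))
  set η := ofG (ResidueField (localSubring M)) x * ξ * ofG _ y⁻¹ with hη
  have hprod : cj x J * ofG _ g₁ * cj y J = η * cj y J := by
    simp only [cj_ofG_eq]
    calc ofG _ x * J * ofG _ x⁻¹ * ofG _ g₁ * (ofG _ y * J * ofG _ y⁻¹)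
        = ofG _ x * (J * (ofG _ x⁻¹ * ofG _ g₁ * ofG _ y) * J) * ofG _ y⁻¹ := by noncomm_ring
      _ = ofG _ x * (J * ofG _ (x⁻¹ * g₁ * y) * J) * ofG _ y⁻¹ := by simp only [ofG_mul]
      _ = ofG _ x * (ξ * J) * ofG _ y⁻¹ := by rw [hξJ]
      _ = ofG _ x * ξ * (ofG _ y⁻¹ * ofG _ y) * J * ofG _ y⁻¹ := by
          rw [ofG_inv_mul]
          noncomm_ring
      _ = _ := by rw [hη]; noncomm_ring
  rw [hprod, coeff_mul_eq]
  -- the twisted invariance
  have hηc : ∀ d, η.coeff d = ξ.coeff (x⁻¹ * d * y) := by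
    intro d
    rw [hη, mul_assoc, coeff_ofG_mul]
    have : (ξ * ofG (ResidueField (localSubring M)) y⁻¹).coeff (x⁻¹ * d) = ξ.coeff (x⁻¹ * d * y) := by
      show (ξ * MonoidAlgebra.single y⁻¹ (1 : ResidueField (localSubring M))).coeff _ = _
      rw [coeff_mul_single', inv_inv]
    exact this
  have hφ : ∀ u ∈ T, g₁⁻¹ * u * g₁ ∈ T := fun u hu => mem_conj_inv hg₁ hu
  have htw : ∀ u ∈ T, ∀ d, η.coeff (u * d * (g₁⁻¹ * u * g₁)⁻¹) = η.coeff d := by
    intro u hu d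
    -- the element `ξ'`
    set u' := g₁⁻¹ * u⁻¹ * g₁ with hu'
    have hu'T : u' ∈ T := hφ _ (T.inv_mem hu)
    set a₁ := x⁻¹ * u⁻¹ * x with ha₁
    have ha₁Q : a₁ ∈ Q := hTx _ (T.inv_mem hu)
    set a₂ := y⁻¹ * u' * y with ha₂
    have ha₂Q : a₂ ∈ Q := hTy _ hu'T
    set ξ' := ofG (ResidueField (localSubring M)) a₁ * ξ * ofG _ a₂⁻¹ with hξ'
    have hsupp : SuppOn Q (ξ' - ξ) := by
      intro g hg
      rw [MonoidAlgebra.coeff_sub, Finsupp.sub_apply, hξ g hg, sub_zero, hξ', mul_assoc, coeff_ofG_mul]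
      have e : (ξ * ofG (ResidueField (localSubring M)) a₂⁻¹).coeff (a₁⁻¹ * g) = ξ.coeff (a₁⁻¹ * g * a₂) := by
        show (ξ * MonoidAlgebra.single a₂⁻¹ (1 : ResidueField (localSubring M))).coeff _ = _
        rw [coeff_mul_single', inv_inv]
      rw [e]
      apply hξ
      intro h1
      apply hg
      have h2 := Q.mul_mem (Q.mul_mem ha₁Q h1) (Q.inv_mem ha₂Q)
      have e2 : a₁ * (a₁⁻¹ * g * a₂) * a₂⁻¹ = g := by group
      rwa [e2] at h2
    have hmul : (ξ' - ξ) * J = 0 := by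
      rw [sub_mul, sub_eq_zero, hξ', ← hξJ]
      have hc : ofG (ResidueField (localSubring M)) a₂⁻¹ * J = J * ofG _ a₂⁻¹ :=
        mem_cen.1 hJQ _ (Q.inv_mem ha₂Q)
      have hc1 : ofG (ResidueField (localSubring M)) a₁ * J = J * ofG _ a₁ := mem_cen.1 hJQ _ ha₁Q
      calc ofG _ a₁ * ξ * ofG _ a₂⁻¹ * J = ofG _ a₁ * (ξ * J) * ofG _ a₂⁻¹ := by
            rw [mul_assoc (ofG _ a₁ * ξ), hc]
            noncomm_ring
        _ = ofG _ a₁ * (J * ofG _ (x⁻¹ * g₁ * y) * J) * ofG _ a₂⁻¹ := by rw [hξJ]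
        _ = (ofG _ a₁ * J) * ofG _ (x⁻¹ * g₁ * y) * (J * ofG _ a₂⁻¹) := by noncomm_ring
        _ = J * (ofG _ a₁ * ofG _ (x⁻¹ * g₁ * y) * ofG _ a₂⁻¹) * J := by
            rw [hc1, ← hc]
            noncomm_ring
        _ = J * ofG _ (x⁻¹ * g₁ * y) * J := by
            congr 2
            rw [← ofG_mul, ← ofG_mul]
            congr 1
            simp only [ha₁, ha₂, hu']
            group
    have hξ'eq : ξ' = ξ := sub_eq_zero.1 (hinj _ hsupp hmul)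
    have e : ∀ w, (ξ * ofG (ResidueField (localSubring M)) a₂⁻¹).coeff w = ξ.coeff (w * a₂) := by
      intro w
      show (ξ * MonoidAlgebra.single a₂⁻¹ (1 : ResidueField (localSubring M))).coeff _ = _
      rw [coeff_mul_single', inv_inv]
    have hc : ∀ w, ξ.coeff w = ξ.coeff (a₁⁻¹ * w * a₂) := by
      intro w
      conv_lhs => rw [← hξ'eq, hξ', mul_assoc, coeff_ofG_mul, e]
    rw [hηc, hηc, hc (x⁻¹ * d * y)]
    congr 1
    simp only [ha₁, ha₂, hu']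
    group
  -- the sum over `T`
  have hc0 : ∀ g₂ ∈ T, ∀ d', (cj y J).coeff (g₂⁻¹ * d' * g₂) = (cj y J).coeff d' := by
    intro g₂ hg₂ d'
    have hyT : cj y J ∈ cen (ResidueField (localSubring M)) (T : Set G) := by
      have h1 := hcenx hTy
      have h2 := red_mem_cen h1
      rwa [red_cj] at h2
    exact mem_cen_coeff.1 hyT g₂ hg₂ d'
  have hfix := Cfsg.Agent.Lib.CharAutP.sum_eq_sum_fixed (S := ResidueField (localSubring M)) p hT hk
    (fun (u : T) (d : G) => (u : G) * d * (g₁⁻¹ * (u : G) * g₁)⁻¹) (by simp) (by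
      intro u v d
      simp only [Subgroup.coe_mul]
      group) (fun d => η.coeff d * (cj y J).coeff (d⁻¹ * z)) (by
      intro u d
      have hu := u.2
      rw [htw _ hu]
      congr 1
      have hzc : (u : G)⁻¹ * z = z * (g₁⁻¹ * (u : G)⁻¹ * g₁) := by
        have h1 := (Subgroup.mem_centralizer_iff.1 hz) (u : G)⁻¹ (T.inv_mem hu)
        calc (u : G)⁻¹ * z = ((u : G)⁻¹ * (z * g₁⁻¹)) * g₁ := by group
          _ = ((z * g₁⁻¹) * (u : G)⁻¹) * g₁ := by rw [h1]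
          _ = _ := by group
      have e1 : ((u : G) * d * (g₁⁻¹ * (u : G) * g₁)⁻¹)⁻¹ * z =
          (g₁⁻¹ * (u : G) * g₁) * (d⁻¹ * z) * (g₁⁻¹ * (u : G) * g₁)⁻¹ := by
        have e2 : ((u : G) * d * (g₁⁻¹ * (u : G) * g₁)⁻¹)⁻¹ * z =
            (g₁⁻¹ * (u : G) * g₁) * d⁻¹ * ((u : G)⁻¹ * z) := by group
        rw [e2, hzc]
        group
      have h3 := hc0 (g₁⁻¹ * (u : G)⁻¹ * g₁) (hφ _ (T.inv_mem hu)) (d⁻¹ * z)
      rw [← h3]
      congr 1
      rw [e1]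
      group)
  classical
  rw [MonoidAlgebra.coeff_zero, Finsupp.zero_apply] 
  letI : Fintype {d : G // ∀ u : T, (u : G) * d * (g₁⁻¹ * (u : G) * g₁)⁻¹ = d} := Fintype.ofFinite _
  rw [hfix]
  refine Finset.sum_eq_zero fun d _ => ?_
  have hd : ξ.coeff (x⁻¹ * d.1 * y) = 0 := by
    by_contra hne
    have hq : x⁻¹ * d.1 * y ∈ Q := by
      by_contra hq
      exact hne (hξ _ hq)
    apply hno _ hq
    rw [mem_cen_iff_forall_commute]
    intro u
    have h1 := d.2 u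
    have e1 : x * (x⁻¹ * d.1 * y) * y⁻¹ * g₁⁻¹ = d.1 * g₁⁻¹ := by group
    rw [e1]
    calc (u : G) * (d.1 * g₁⁻¹) * (u : G)⁻¹ =
        ((u : G) * d.1 * (g₁⁻¹ * (u : G) * g₁)⁻¹) * g₁⁻¹ := by group
      _ = d.1 * g₁⁻¹ := by rw [h1]
  rw [hηc, hd, zero_mul]

end K2

end Cfsg.Agent.Lib.MinDimC
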