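import Mathlib
import Cfsg.Agent.Lib.MinDimC
import Cfsg.Agent.Lib.StarInner

/-!
# Idempotents below a block of a subgroup; the block idempotent is primitive in the center
-/

set_option autoImplicit false
set_option linter.unusedSectionVars false
set_option linter.unusedVariables false
set_option linter.style.haveILetI false

namespace Cfsg.Agent.Lib.MinDimD

open Polynomial IsLocalRing Cfsg Cfsg.Agent.Lib.StarFit Cfsg.Agent.Lib.StarGrp
open Cfsg.Agent.Lib.StarLoc Cfsg.Agent.Lib.BlockLocal Cfsg.Agent.Lib.BlockCover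
open Cfsg.Agent.Lib.BlockResidue Cfsg.Agent.Lib.StarBlk Cfsg.Agent.Lib.StarP
open Cfsg.Agent.Lib.StarFit.LocSys Cfsg.Agent.Lib.MinDimA Cfsg.Agent.Lib.StarII
open Cfsg.Agent.Lib.MinDimB Cfsg.Agent.Lib.MinDimC
open Cfsg.Agent.Lib.BrauerMap Cfsg.Agent.Lib.BrauerPair Cfsg.Agent.Lib.BrauerSub
open Cfsg.Agent.Lib.BlockIdem Cfsg.Agent.Lib.CharIntegrality Cfsg.Agent.Lib.BlkBasic

universe u

variable {G : Type u} [Group G] [Fintype G] {p : ℕ} [hp : Fact p.Prime] {M : Ideal AlgInt}
  [hMp : M.IsPrime]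

local notation "𝐂[" R "]" => Subgroup.centralizer ((R : Subgroup G) : Set G)
local notation "𝐍[" R "]" => Subgroup.normalizer ((R : Subgroup G) : Set G)

noncomputable local instance fintypeSubD {A : Type*} [Group A] [Finite A] (K : Subgroup A) : Fintype K :=
  Fintype.ofFinite K

section Dich

theorem memLocalIdeal_of_max (x : localSubring M) (h : x ∈ maximalIdeal (localSubring M)) :
    MemLocalIdeal M (x : ℂ) := by
  by_contra hcon
  rw [mem_maximalIdeal, mem_nonunits_iff] at h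
  apply h
  refine IsUnit.of_mul_eq_one (⟨(x : ℂ)⁻¹, memLocalRing_inv x.2 hcon⟩ : localSubring M) ?_
  apply Subtype.ext
  exact mul_inv_eq_one_of_not_memLocalIdeal hcon

theorem coeF_sub {X : Type*} [Group X] [Fintype X] (x y : MonoidAlgebra (localSubring M) X) :
    coeF (x - y) = coeF x - coeF y := by
  funext g
  simp [coeF_apply]

theorem exists_lift_cl (K : Subgroup G) {F : MonoidAlgebra (ResidueField (localSubring M)) G}
    (hs : ∀ g, g ∉ K → F.coeff g = 0) (hc : F ∈ cen (ResidueField (localSubring M)) (K : Set G)) :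
    ∃ (a : K → ℂ) (y : MonoidAlgebra (localSubring M) G), IsClassFunction K a ∧ coeF y = ext0 K a ∧
      red y = F := by
  classical
  let l : ResidueField (localSubring M) → localSubring M :=
    Function.surjInv (residue_surjective (R := localSubring M))
  have hl : ∀ z, residue (localSubring M) (l z) = z := Function.surjInv_eq _
  refine ⟨fun x => (l (F.coeff (x : G)) : ℂ),
    ofFun fun g => if g ∈ K then l (F.coeff g) else 0, ?_, ?_, ?_⟩
  · intro g h
    show ((l (F.coeff ((h * g * h⁻¹ : K) : G)) : localSubring M) : ℂ) = _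
    have h1 := mem_cen_coeff.1 hc (h : G)⁻¹ (K.inv_mem h.2) (g : G)
    simp only [inv_inv] at h1
    simp only [Subgroup.coe_mul, Subgroup.coe_inv]
    rw [h1]
  · funext g
    rw [coeF_apply, coeff_ofFun]
    by_cases hg : g ∈ K
    · rw [if_pos hg, ext0_of_mem _ _ hg]
    · rw [if_neg hg, ext0_of_not_mem _ _ hg]
      rfl
  · apply ext_coeff
    intro g
    rw [coeff_red, coeff_ofFun]
    by_cases hg : g ∈ K
    · rw [if_pos hg, hl]
    · rw [if_neg hg, map_zero, hs g hg]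

/-- **The block idempotent is primitive in the center of `k K`.** -/
theorem idem_dichotomy (K : Subgroup G) (b : BlockT M K)
    {F : MonoidAlgebra (ResidueField (localSubring M)) G} (hs : ∀ g, g ∉ K → F.coeff g = 0)
    (hc : F ∈ cen (ResidueField (localSubring M)) (K : Set G)) (hid : F * F = F)
    (hle : F * red (eB K b) = F) (hle' : red (eB K b) * F = F) :
    F = 0 ∨ F = red (eB K b) := by
  classical
  obtain ⟨a, y, hcl, hy, hred⟩ := exists_lift_cl K hs hc
  have hbcl := BlockNormal.blockCoeff_isClassFunction b.1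
  have hR : ∀ x, MemLocalRing M (a x) := by
    intro x
    have := coeF_local y (x : G)
    rwa [hy, ext0_coe] at this
  have hZ := mem_Zc_of_classFunction (M := M) hcl hR
  obtain ⟨χ₀, hχ₀⟩ := b.2
  have hmem₀ : χ₀ ∈ b.1 := by
    rw [hχ₀]
    exact mem_blockOf_self χ₀
  have hsb : ∀ ξ ∈ b.1, MemLocalIdeal M (omega (χ₀ : K → ℂ) a - omega (ξ : K → ℂ) a) := by
    intro ξ hξ
    have h1 : SameBlock M (χ₀ : K → ℂ) ξ := by
      rw [hχ₀] at hξ
      exact hξ
    exact memLocalIdeal_sub_of_mem_Zc hZ h1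
  have hne : Fintype.card (IrrCharacter K) ≠ 0 := by
    have : Nonempty (IrrCharacter K) := ⟨χ₀⟩
    exact Fintype.card_ne_zero
  -- the central character is idempotent modulo the ideal
  have hidemω : MemLocalIdeal M (omega (χ₀ : K → ℂ) a * omega (χ₀ : K → ℂ) a - omega (χ₀ : K → ℂ) a) := by
    rw [← omega_conv χ₀.2 hcl hcl, ← omega_sub_eq]
    apply memLocalIdeal_omega_of_values K
    · intro g t
      simp only [Pi.sub_apply]
      rw [conv_isClassFunction hcl hcl g t, hcl g t]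
    · intro x
      have h1 : red (y * y - y) = 0 := by
        rw [map_sub, map_mul, hred, hid, sub_self]
      have h2 := red_eq_zero_iff.1 h1 (x : G)
      have h3 : coeF (y * y - y) (x : G) = (conv a a - a) x := by
        rw [coeF_sub, coeF_mul, hy, conv_ext0]
        simp only [Pi.sub_apply, ext0_coe]
      rw [← h3]
      exact memLocalIdeal_of_max _ h2
  rcases memLocalIdeal_or_of_idem (memLocalRing_of_mem_Zc hZ χ₀) hidemω with h0 | h1
  · left
    have hcoe : coeF (y * eB K b) = ext0 K (conv a (blockCoeff b.1)) := by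
      rw [coeF_mul, coeF_eB, hy, subgroupBlockCoeff_eq_ext0, conv_ext0]
    have hfcl := conv_isClassFunction hcl hbcl
    have hω : ∀ ξ' : IrrCharacter K, MemLocalIdeal M (omega (ξ' : K → ℂ) (conv a (blockCoeff b.1))) := by
      intro ξ'
      rw [omega_conv ξ'.2 hcl hbcl, BrauerPair.omega_blockCoeff]
      by_cases hξ' : ξ' ∈ b.1
      · rw [ind_of_mem hξ', mul_one]
        have h2 := memLocalIdeal_sub h0 (hsb ξ' hξ')
        have e : omega (χ₀ : K → ℂ) a - (omega (χ₀ : K → ℂ) a - omega (ξ' : K → ℂ) a) =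
            omega (ξ' : K → ℂ) a := by ring
        rwa [e] at h2
      · rw [ind_of_not_mem hξ', mul_zero]
        exact memLocalIdeal_zero
    have hnil := red_nil_of_omega K hcoe hfcl hω
    rw [map_pow, map_mul, hred, hle] at hnil
    exact eq_zero_of_idem_pow hid hne hnil
  · right
    have hcoe : coeF (eB K b - y * eB K b) = ext0 K (blockCoeff b.1 - conv a (blockCoeff b.1)) := by
      rw [coeF_sub, coeF_mul, coeF_eB, hy, subgroupBlockCoeff_eq_ext0, conv_ext0]
      funext g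
      by_cases hg : g ∈ K
      · simp [ext0_of_mem _ _ hg]
      · simp [ext0_of_not_mem _ _ hg]
    have hfcl : IsClassFunction K (blockCoeff b.1 - conv a (blockCoeff b.1)) := by
      intro g t
      simp only [Pi.sub_apply]
      rw [conv_isClassFunction hcl hbcl g t, hbcl g t]
    have hω : ∀ ξ' : IrrCharacter K,
        MemLocalIdeal M (omega (ξ' : K → ℂ) (blockCoeff b.1 - conv a (blockCoeff b.1))) := by
      intro ξ'
      rw [omega_sub_eq, omega_conv ξ'.2 hcl hbcl, BrauerPair.omega_blockCoeff]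
      by_cases hξ' : ξ' ∈ b.1
      · rw [ind_of_mem hξ', mul_one]
        have h2 := memLocalIdeal_sub (hsb ξ' hξ') h1
        have e : (omega (χ₀ : K → ℂ) a - omega (ξ' : K → ℂ) a) - (omega (χ₀ : K → ℂ) a - 1) =
            1 - omega (ξ' : K → ℂ) a := by ring
        rwa [e] at h2
      · rw [ind_of_not_mem hξ', mul_zero, sub_self]
        exact memLocalIdeal_zero
    have hnil := red_nil_of_omega K hcoe hfcl hω
    rw [map_pow, map_sub, map_mul, hred, hle] at hnil
    have hidem' : (red (eB K b) - F) * (red (eB K b) - F) = red (eB K b) - F := by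
      have hb2 : red (eB K b) * red (eB K b) = red (eB K b) := by
        rw [← map_mul, eB_idem]
      rw [sub_mul, mul_sub, mul_sub, hb2, hle, hle', hid]
      abel
    have h3 := eq_zero_of_idem_pow hidem' hne hnil
    exact (sub_eq_zero.1 h3).symm

/-- A Brauer pair of `B` has nonzero image. -/
theorem br_ne_of_pair {B : Set (IrrCharacter G)} (hB : IsPBlock M B) {Q : Subgroup G}
    (c : BlockT M 𝐂[Q]) (hpair : IsBrauerPairOf p M B Q c.1) : br Q (eG B hB) * bb Q c ≠ 0 := by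
  classical
  intro h0
  set x := eG B hB with hx
  have hxC : x ∈ cen (localSubring M) (𝐂[Q] : Set G) := eG_mem_cen B hB _
  have hβC : Inv 𝐂[Q] (coeF x) := inv_coeF_of_mem_cen hxC
  have hR : ∀ g, MemLocalRing M (coeF x g) := fun g => coeF_local x g
  have hrcl : IsClassFunction 𝐂[Q] (resC 𝐂[Q] (coeF x)) := resC_isClassFunction hβC
  have hrR : ∀ g, MemLocalRing M (resC 𝐂[Q] (coeF x) g) := fun g => hR g
  obtain ⟨y₁, hy₁⟩ : ∃ y₁ : MonoidAlgebra (localSubring M) G, coeF y₁ = ext0 𝐂[Q] (resC 𝐂[Q] (coeF x)) :=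
    ⟨toR _ (memLocalRing_ext0 𝐂[Q] hrR), rfl⟩
  have hcoe : coeF (y₁ * eB 𝐂[Q] c) = ext0 𝐂[Q] (conv (resC 𝐂[Q] (coeF x)) (blockCoeff c.1)) := by
    rw [coeF_mul, coeF_eB, hy₁, subgroupBlockCoeff_eq_ext0, conv_ext0]
  have hfcl : IsClassFunction 𝐂[Q] (conv (resC 𝐂[Q] (coeF x)) (blockCoeff c.1)) :=
    conv_isClassFunction hrcl (BlockNormal.blockCoeff_isClassFunction c.1)
  have hredy : red (y₁ * eB 𝐂[Q] c) = br Q x * bb Q c := by
    rw [map_mul, bb_eq]
    congr 1
    apply ext_coeff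
    intro z
    by_cases hz' : z ∈ 𝐂[Q]
    · rw [br_coeff_mem Q x hz', coeff_red]
      congr 1
      apply Subtype.ext
      show coeF y₁ z = coeF x z
      rw [hy₁, ext0_of_mem _ _ hz']
      rfl
    · rw [br_coeff_not_mem Q x hz', coeff_red]
      have : y₁.coeff z = 0 := by
        apply Subtype.ext
        show coeF y₁ z = 0
        rw [hy₁, ext0_of_not_mem _ _ hz']
      rw [this, map_zero]
  rw [h0] at hredy
  have hval : ∀ g, MemLocalIdeal M (conv (resC 𝐂[Q] (coeF x)) (blockCoeff c.1) g) := by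
    intro g
    have h2 := red_eq_zero_iff.1 hredy (g : G)
    have h3 : coeF (y₁ * eB 𝐂[Q] c) (g : G) = conv (resC 𝐂[Q] (coeF x)) (blockCoeff c.1) g := by
      rw [hcoe, ext0_coe]
    rw [← h3]
    exact memLocalIdeal_of_max _ h2
  obtain ⟨χ₀, hχ₀⟩ := c.2
  have hmem₀ : χ₀ ∈ c.1 := by
    rw [hχ₀]
    exact mem_blockOf_self χ₀
  have h4 := memLocalIdeal_omega_of_values 𝐂[Q] hfcl hval χ₀
  rw [omega_conv χ₀.2 hrcl (BlockNormal.blockCoeff_isClassFunction c.1),
    BrauerPair.omega_blockCoeff, ind_of_mem hmem₀, mul_one] at h4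
  have h5 := hpair.2.2 χ₀ hmem₀
  rw [brauerOmega_eq] at h5
  have h6 := memLocalIdeal_sub h4 h5
  have e : omega (χ₀ : 𝐂[Q] → ℂ) (resC 𝐂[Q] (coeF x)) - (brO Q (blockCoeff B) χ₀ - 1) = 1 := by
    unfold brO
    rw [hx, coeF_eG]
    ring
  rw [e] at h6
  exact not_memLocalIdeal_one h6

end Dich

section Abs

variable {A ι : Type*} [Ring A] [Fintype ι] [DecidableEq ι] (i : ι → A)
  (hid : ∀ s, i s * i s = i s) (horth : ∀ s t, s ≠ t → i s * i t = 0) (S : Finset ι)

include hid horth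

theorem partial_mul_total : (∑ s ∈ S, i s) * (∑ s, i s) = ∑ s ∈ S, i s := by
  rw [Finset.sum_mul]
  refine Finset.sum_congr rfl fun s _ => ?_
  rw [Finset.mul_sum, Finset.sum_eq_single s]
  · exact hid s
  · intro t _ ht
    exact horth s t ht.symm
  · simp

theorem total_mul_partial : (∑ s, i s) * (∑ s ∈ S, i s) = ∑ s ∈ S, i s := by
  rw [Finset.mul_sum]
  refine Finset.sum_congr rfl fun s _ => ?_
  rw [Finset.sum_mul, Finset.sum_eq_single s]
  · exact hid s
  · intro t _ ht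
    exact horth t s ht
  · simp

theorem partial_idem : (∑ s ∈ S, i s) * (∑ s ∈ S, i s) = ∑ s ∈ S, i s := by
  rw [Finset.sum_mul]
  refine Finset.sum_congr rfl fun s hs => ?_
  rw [Finset.mul_sum, Finset.sum_eq_single_of_mem s hs]
  · exact hid s
  · intro t _ ht
    exact horth s t ht.symm

theorem comm_of_blocks {z : A} (hz : z * ∑ s, i s = (∑ s, i s) * z)
    (h1 : ∀ s ∈ S, ∀ t, t ∉ S → i s * z * i t = 0) (h2 : ∀ s ∈ S, ∀ t, t ∉ S → i t * z * i s = 0) :
    z * ∑ s ∈ S, i s = (∑ s ∈ S, i s) * z := by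
  have hFt := partial_mul_total i hid horth S
  have htF := total_mul_partial i hid horth S
  have hsum : ∑ s, i s = ∑ s ∈ S, i s + ∑ s ∈ Sᶜ, i s := (Finset.sum_add_sum_compl S i).symm
  set F := ∑ s ∈ S, i s with hF
  set F' := ∑ s ∈ Sᶜ, i s with hF'
  have h3 : F * z * F' = 0 := by
    rw [hF, hF', Finset.mul_sum]
    refine Finset.sum_eq_zero fun t ht => ?_
    rw [Finset.sum_mul, Finset.sum_mul]
    exact Finset.sum_eq_zero fun s hs => h1 s hs t (Finset.mem_compl.1 ht)
  have h4 : F' * z * F = 0 := by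
    rw [hF, hF', Finset.mul_sum]
    refine Finset.sum_eq_zero fun t ht => ?_
    rw [Finset.sum_mul, Finset.sum_mul]
    exact Finset.sum_eq_zero fun s hs => h2 t ht s (Finset.mem_compl.1 hs)
  calc z * F = z * ((∑ s, i s) * F) := by rw [htF]
    _ = (z * ∑ s, i s) * F := by rw [mul_assoc]
    _ = ((∑ s, i s) * z) * F := by rw [hz]
    _ = (F + F') * z * F := by rw [hsum]
    _ = F * z * F := by rw [add_mul, add_mul, h4, add_zero]
    _ = F * z * (F + F') := by rw [mul_add, h3, add_zero]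
    _ = F * (z * ∑ s, i s) := by rw [hsum]; noncomm_ring
    _ = F * ((∑ s, i s) * z) := by rw [hz]
    _ = (F * ∑ s, i s) * z := by rw [mul_assoc]
    _ = F * z := by rw [hFt]

end Abs

section Cos

variable {P Q : Subgroup G}

theorem smul_eq_mk (v : P) (q : P ⧸ Q.subgroupOf P) :
    v • q = QuotientGroup.mk (v * q.out) := by
  conv_lhs => rw [← QuotientGroup.out_eq' q]
  rfl

theorem cj_out_smul {R : Type*} [CommRing R] {j : MonoidAlgebra R G} (hj : j ∈ cen R (Q : Set G))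
    (v : P) (q : P ⧸ Q.subgroupOf P) :
    cj (((v • q).out : P) : G) j = cj (v : G) (cj ((q.out : P) : G) j) := by
  rw [smul_eq_mk, cj_out hj, Subgroup.coe_mul, cj_mul]

theorem smul_eq_self_iff (v : P) (q : P ⧸ Q.subgroupOf P) :
    v • q = q ↔ ((q.out : P) : G)⁻¹ * (v : G) * ((q.out : P) : G) ∈ Q := by
  rw [smul_eq_mk]
  conv_lhs => rhs; rw [← QuotientGroup.out_eq' q]
  rw [eq_comm, QuotientGroup.eq, Subgroup.mem_subgroupOf]
  simp only [Subgroup.coe_mul, Subgroup.coe_inv]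
  rw [mul_assoc]

theorem eq_smul_of (d : P) (q q' : P ⧸ Q.subgroupOf P)
    (h : ((q.out : P) : G)⁻¹ * (d : G) * ((q'.out : P) : G) ∈ Q) : q = d • q' := by
  rw [smul_eq_mk]
  conv_lhs => rw [← QuotientGroup.out_eq' q]
  rw [QuotientGroup.eq, Subgroup.mem_subgroupOf]
  simp only [Subgroup.coe_mul, Subgroup.coe_inv]
  rwa [← mul_assoc]

end Cos

section Core

theorem mem_C_of_coprime {T : Subgroup G} {h w : G} (hN : h ∈ 𝐍[T]) {m : ℕ} (hw : w ^ (p ^ m) = 1)
    (hreg : ¬ p ∣ orderOf h) (hwh : w * h ∈ 𝐂[T]) : h ∈ 𝐂[T] := by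
  have h1 : ∀ u ∈ T, h * u * h⁻¹ = w⁻¹ * u * w := by
    intro u hu
    have h0 := Subgroup.mem_centralizer_iff.1 hwh u hu
    calc h * u * h⁻¹ = w⁻¹ * ((w * h) * u) * h⁻¹ := by group
      _ = w⁻¹ * (u * (w * h)) * h⁻¹ := by rw [h0]
      _ = _ := by group
  have h2 : ∀ n : ℕ, ∀ u ∈ T, h ^ n * u * (h ^ n)⁻¹ = (w ^ n)⁻¹ * u * w ^ n := by
    intro n
    induction n with
    | zero =>
      intro u hu
      simp
    | succ n ih =>
      intro u hu
      have hu' : h * u * h⁻¹ ∈ T := (Subgroup.mem_normalizer_iff.1 hN u).1 hu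
      have e1 : h ^ (n + 1) * u * (h ^ (n + 1))⁻¹ = h ^ n * (h * u * h⁻¹) * (h ^ n)⁻¹ := by
        rw [pow_succ]
        group
      rw [e1, ih _ hu', h1 u hu, pow_succ]
      group
  have hcop : (orderOf h).Coprime (orderOf w) := by
    obtain ⟨k, -, hk⟩ := (Nat.dvd_prime_pow hp.out).1 (orderOf_dvd_of_pow_eq_one hw)
    rw [hk]
    apply Nat.Coprime.pow_right
    exact ((Nat.Prime.coprime_iff_not_dvd hp.out).2 hreg).symm
  obtain ⟨m', hm'⟩ := exists_pow_eq_self_of_coprime hcop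
  have h3 : ∀ u ∈ T, u * w ^ orderOf h = w ^ orderOf h * u := by
    intro u hu
    have h4 := h2 (orderOf h) u hu
    rw [pow_orderOf_eq_one, one_mul, inv_one, mul_one] at h4
    calc u * w ^ orderOf h = w ^ orderOf h * ((w ^ orderOf h)⁻¹ * u * w ^ orderOf h) := by group
      _ = _ := by rw [← h4]
  have hwC : w ∈ 𝐂[T] := by
    rw [← hm', Subgroup.mem_centralizer_iff]
    intro u hu
    exact ((show Commute u (w ^ orderOf h) from h3 u hu).pow_right m').eq
  have h5 := (𝐂[T]).mul_mem ((𝐂[T]).inv_mem hwC) hwh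
  rwa [inv_mul_cancel_left] at h5

theorem br_cj_of_mem {R : Type*} [CommRing R] [IsLocalRing R] {T : Subgroup G} {u : G} (hu : u ∈ T)
    (y : MonoidAlgebra R G) : br T (cj u y) = br T y := by
  classical
  apply ext_coeff
  intro z
  by_cases hz : z ∈ 𝐂[T]
  · rw [br_coeff_mem T _ hz, br_coeff_mem T _ hz, coeff_cj]
    have h1 := Subgroup.mem_centralizer_iff.1 hz u hu
    have h2 : u⁻¹ * z * u = z := by
      rw [mul_assoc, ← h1, inv_mul_cancel_left]
    rw [h2]
  · rw [br_coeff_not_mem T _ hz, br_coeff_not_mem T _ hz]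

theorem cj_mem_cen {R : Type*} [CommRing R] {T Q : Subgroup G} {j : MonoidAlgebra R G}
    (hj : j ∈ cen R (Q : Set G)) {x : G} (hTx : ∀ u ∈ T, x⁻¹ * u * x ∈ Q) :
    cj x j ∈ cen R (T : Set G) := by
  rw [mem_cen_conj]
  intro u hu
  show cj u (cj x j) = cj x j
  have e1 : u * x = x * (x⁻¹ * u * x) := by group
  rw [← cj_mul, e1, cj_mul, cj_eq_of_mem hj (hTx u hu)]

theorem cj_orth {R : Type*} [CommRing R] {P Q : Subgroup G} {J : MonoidAlgebra R G}
    (horth : ∀ x ∈ P, x ∉ Q → J * cj x J = 0) {x x' : G} (hx : x ∈ P) (hx' : x' ∈ P)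
    (hne : x⁻¹ * x' ∉ Q) : cj x J * cj x' J = 0 := by
  have h1 := horth (x⁻¹ * x') (P.mul_mem (P.inv_mem hx) hx') hne
  calc cj x J * cj x' J = cj x (J * cj (x⁻¹ * x') J) := by
        rw [cj_mul', ← cj_mul, mul_inv_cancel_left]
    _ = 0 := by
        rw [h1]
        simp [cj]

theorem le_normC (T : Subgroup G) {z : G} (hz : z ∈ 𝐂[T]) : z ∈ 𝐍[T] := by
  rw [Subgroup.mem_normalizer_iff]
  intro u
  have key : ∀ u ∈ T, z * u * z⁻¹ = u := fun u hu => by
    have h1 := Subgroup.mem_centralizer_iff.1 hz u hu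
    rw [← h1, mul_inv_cancel_right]
  constructor
  · intro hu
    rwa [key u hu]
  · intro hu
    have h1 := Subgroup.mem_centralizer_iff.1 hz _ hu
    have h2 : u = z * u * z⁻¹ := by
      calc u = z⁻¹ * ((z * u * z⁻¹) * z) := by group
        _ = z⁻¹ * (z * (z * u * z⁻¹)) := by rw [h1]
        _ = z * u * z⁻¹ := by group
    rwa [← h2] at hu

theorem cj_inj {R : Type*} [CommRing R] (t : G) {X : MonoidAlgebra R G} (h : cj t X = 0) : X = 0 := by
  have h1 : cj t⁻¹ (cj t X) = X := by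
    rw [← cj_mul, inv_mul_cancel, cj_one]
  rw [← h1, h]
  simp [cj]

/-- **The core of the argument.** If the block idempotent is the trace of an idempotent `j` fixed by
`Q` whose corner is spanned by `k Q`, then elements of `N(T)` of order prime to `p` stabilizing a block
occurring in the Brauer image of the block idempotent centralize `T`. -/
theorem nil_core (hM : IsPModular p M) {P Q T : Subgroup G} (hP : IsPGroup p P) (hTP : T ≤ P)
    {e j : MonoidAlgebra (localSubring M) G} (hecen : ∀ E : Set G, e ∈ cen (localSubring M) E)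
    (hj : j ∈ cen (localSubring M) (Q : Set G)) (hjj : j * j = j) (hQP : Q ≤ P)
    (hrt : red (rtr Q P j) = red e)
    (horth : ∀ x ∈ P, x ∉ Q → red j * cj x (red j) = 0)
    (hspan : ∀ y, ∃ ξ, SuppOn Q ξ ∧ red j * y * red j = ξ * red j)
    (hinj : ∀ ξ, SuppOn Q ξ → ξ * red j = 0 → ξ = 0)
    (c : BlockT M 𝐂[T]) (hne : br T e * bb T c ≠ 0) {h : G} (hN : h ∈ 𝐍[T])
    (hstab : cj h (eB 𝐂[T] c) = eB 𝐂[T] c) (hreg : ¬ p ∣ orderOf h) : h ∈ 𝐂[T] := by
  classical
  have hk : ((p : ℕ) : ResidueField (localSubring M)) = 0 := by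
    rw [← map_natCast (residue (localSubring M))]
    exact (residue_eq_zero_iff _).2 (hpm_of hM)
  have hTp : IsPGroup p T := hP.to_le hTP
  have hpm := hpm_of hM
  have hCN : ∀ z ∈ 𝐂[T], z ∈ 𝐍[T] := fun z hz => le_normC T hz
  set b₀ := bb T c with hb₀
  -- the action
  let a : T → (P ⧸ Q.subgroupOf P) → (P ⧸ Q.subgroupOf P) := fun u q => (⟨u, hTP u.2⟩ : P) • q
  have ha1 : ∀ z, a 1 z = z := fun z => one_smul P z
  have hamul : ∀ u v z, a (u * v) z = a u (a v z) := fun u v z =>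
    mul_smul (⟨u, hTP u.2⟩ : P) (⟨v, hTP v.2⟩ : P) z
  let I : (P ⧸ Q.subgroupOf P) → MonoidAlgebra (ResidueField (localSubring M)) G :=
    fun q => br T (cj ((q.out : P) : G) j)
  have hIinv : ∀ (u : T) q, I (a u q) = I q := by
    intro u q
    show br T (cj ((((⟨u, hTP u.2⟩ : P) • q).out : P) : G) j) = _
    rw [cj_out_smul hj]
    exact br_cj_of_mem u.2 _
  letI : Fintype {q // ∀ u, a u q = q} := Fintype.ofFinite _
  have hsum : br T e = ∑ q : {q // ∀ u, a u q = q}, I q.1 := by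
    have h1 : br T e = br T (rtr Q P j) := by
      have h2 : br T (e - rtr Q P j) = 0 := br_eq_zero_of_red (by rw [map_sub, hrt, sub_self])
      rw [map_sub, sub_eq_zero] at h2
      exact h2
    rw [h1]
    unfold rtr
    rw [map_sum]
    apply ext_coeff
    intro z
    rw [MonoidAlgebra.coeff_sum, Finsupp.finsetSum_apply, MonoidAlgebra.coeff_sum,
      Finsupp.finsetSum_apply]
    have hfx := Cfsg.Agent.Lib.CharAutP.sum_eq_sum_fixed (S := ResidueField (localSubring M)) p hTp hk a ha1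
      hamul (fun q => (I q).coeff z) (fun u q => by simp only [hIinv])
    convert hfx
  have hTx : ∀ q : {q // ∀ u, a u q = q}, ∀ u ∈ T,
      ((q.1.out : P) : G)⁻¹ * u * ((q.1.out : P) : G) ∈ Q := by
    intro q u hu
    exact (smul_eq_self_iff (⟨u, hTP hu⟩ : P) q.1).1 (q.2 ⟨u, hu⟩)
  have hWc : ∀ q : {q // ∀ u, a u q = q}, cj ((q.1.out : P) : G) j ∈ cen (localSubring M) (T : Set G) :=
    fun q => cj_mem_cen hj (hTx q)
  let i : {q // ∀ u, a u q = q} → MonoidAlgebra (ResidueField (localSubring M)) G := fun q => I q.1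
  have hi : ∀ q, i q * i q = i q := by
    intro q
    show br T _ * br T _ = br T _
    rw [← br_mul hpm hTp (hWc q) (hWc q), ← cj_mul', hjj]
  have hiorth : ∀ q q', q ≠ q' → i q * i q' = 0 := by
    intro q q' hqq
    show br T _ * br T _ = 0
    rw [← br_mul hpm hTp (hWc q) (hWc q')]
    apply br_eq_zero_of_red
    rw [map_mul, red_cj, red_cj]
    apply cj_orth horth (q.1.out : P).2 (q'.1.out : P).2
    intro hin
    apply hqq
    apply Subtype.ext
    rw [← QuotientGroup.out_eq' q.1, ← QuotientGroup.out_eq' q'.1, QuotientGroup.eq,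
      Subgroup.mem_subgroupOf]
    simpa using hin
  -- the linking
  have hlink : ∀ (q q' : {q // ∀ u, a u q = q}) (z : G), z ∈ 𝐂[T] → i q * ofG _ z * i q' ≠ 0 →
      ∃ d : P, (d : G) ∈ 𝐂[T] ∧ q.1 = d • q'.1 := by
    intro q q' z hz hne'
    by_contra hno
    apply hne'
    apply brK hM hTp hj hspan hinj (hTx q) (hTx q') (hCN z hz)
    intro s hs hmem
    apply hno
    have hdP : ((q.1.out : P) : G) * s * ((q'.1.out : P) : G)⁻¹ ∈ P :=
      P.mul_mem (P.mul_mem (q.1.out : P).2 (hQP hs)) (P.inv_mem (q'.1.out : P).2)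
    refine ⟨⟨_, hdP⟩, ?_, ?_⟩
    · have h1 := (𝐂[T]).mul_mem hmem hz
      simpa using h1
    · apply eq_smul_of
      simpa [mul_assoc] using hs
  -- the first idempotent
  have hsum' : br T e = ∑ q, i q := hsum
  obtain ⟨q₀, hq₀⟩ : ∃ q, i q * b₀ ≠ 0 := by
    by_contra hcon
    push_neg at hcon
    apply hne
    rw [hsum', Finset.sum_mul]
    exact Finset.sum_eq_zero fun q _ => hcon q
  let S : Finset {q // ∀ u, a u q = q} :=
    Finset.univ.filter (fun q => ∃ d : P, (d : G) ∈ 𝐂[T] ∧ q.1 = d • q₀.1)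
  have hS : ∀ q, q ∈ S ↔ ∃ d : P, (d : G) ∈ 𝐂[T] ∧ q.1 = d • q₀.1 := by
    intro q
    simp [S]
  have hq₀S : q₀ ∈ S := (hS q₀).2 ⟨1, (𝐂[T]).one_mem, (one_smul _ _).symm⟩
  set F := ∑ q ∈ S, i q with hF
  have hεC : br T e ∈ cen (ResidueField (localSubring M)) (𝐂[T] : Set G) := by
    rw [mem_cen_conj]
    intro z hz
    show cj z (br T e) = br T e
    rw [← br_cj (hCN z hz), cj_eq_of_mem (hecen _) hz]
  have hFC : F ∈ cen (ResidueField (localSubring M)) (𝐂[T] : Set G) := by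
    rw [mem_cen]
    intro z hz
    apply comm_of_blocks i hi hiorth S
    · rw [← hsum']
      exact mem_cen.1 hεC z hz
    · intro s hs t ht
      by_contra hne'
      obtain ⟨d, hd, hdt⟩ := hlink s t z hz hne'
      obtain ⟨d₁, hd₁, hd₁s⟩ := (hS s).1 hs
      apply ht
      rw [hS]
      refine ⟨d⁻¹ * d₁, (𝐂[T]).mul_mem ((𝐂[T]).inv_mem hd) hd₁, ?_⟩
      rw [mul_smul, ← hd₁s, hdt, inv_smul_smul]
    · intro s hs t ht
      by_contra hne'
      obtain ⟨d, hd, hdt⟩ := hlink t s z hz hne'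
      obtain ⟨d₁, hd₁, hd₁s⟩ := (hS s).1 hs
      apply ht
      rw [hS]
      refine ⟨d * d₁, (𝐂[T]).mul_mem hd hd₁, ?_⟩
      rw [mul_smul, ← hd₁s, hdt]
  have hFbr : F = br T (∑ q ∈ S, cj ((q.1.out : P) : G) j) := by
    rw [map_sum]
  have hFs : ∀ g, g ∉ 𝐂[T] → F.coeff g = 0 := by
    intro g hg
    rw [hFbr, br_coeff_not_mem T _ hg]
  have hb₀s : ∀ g, g ∉ 𝐂[T] → b₀.coeff g = 0 := by
    intro g hg
    rw [hb₀]
    unfold bb
    rw [br_coeff_not_mem T _ hg]
  have hFb : F * b₀ = b₀ * F := by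
    rw [hFbr]
    exact (bb_commute T _ c).eq
  have hFF : F * F = F := partial_idem i hi hiorth S
  have hbb : b₀ * b₀ = b₀ := bb_idem T c
  have hF₁ : F * b₀ = red (eB 𝐂[T] c) := by
    have h1 : F * b₀ = 0 ∨ F * b₀ = red (eB 𝐂[T] c) := by
      apply idem_dichotomy
      · intro g hg
        rw [coeff_mul_eq]
        refine Finset.sum_eq_zero fun t _ => ?_
        by_cases ht : t ∈ 𝐂[T]
        · rw [hb₀s _ (fun h' => hg (by simpa using (𝐂[T]).mul_mem ht h')), mul_zero]
        · rw [hFs _ ht, zero_mul]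
      · refine (cen _ _).mul_mem hFC ?_
        rw [hb₀, bb_eq]
        exact red_mem_cen (eB_mem_cen _ c)
      · calc F * b₀ * (F * b₀) = F * (b₀ * F) * b₀ := by simp only [mul_assoc]
          _ = F * (F * b₀) * b₀ := by rw [hFb]
          _ = (F * F) * (b₀ * b₀) := by simp only [mul_assoc]
          _ = F * b₀ := by rw [hFF, hbb]
      · rw [← bb_eq, ← hb₀, mul_assoc, hbb]
      · rw [← bb_eq, ← hb₀, ← mul_assoc, ← hFb, mul_assoc, hbb]
    rcases h1 with h1 | h1
    · exfalso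
      apply hq₀
      have h2 : i q₀ * F = i q₀ := by
        rw [hF, Finset.mul_sum, Finset.sum_eq_single_of_mem q₀ hq₀S]
        · exact hi q₀
        · intro t _ ht
          exact hiorth q₀ t ht.symm
      rw [← h2, mul_assoc, h1, mul_zero]
    · exact h1
  have hF₂ : F * b₀ = b₀ := by
    rw [hF₁, hb₀, bb_eq]
  -- the conjugate
  have hcjb : cj h b₀ = b₀ := by
    rw [hb₀, bb_eq, ← red_cj, hstab]
  have hne2 : cj h (i q₀) * b₀ ≠ 0 := by
    intro h0
    apply hq₀
    apply cj_inj h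
    rw [cj_mul', hcjb, h0]
  obtain ⟨s, hsS, hs⟩ : ∃ s ∈ S, cj h (i q₀) * i s ≠ 0 := by
    by_contra hcon
    push_neg at hcon
    apply hne2
    have h1 : cj h (i q₀) * F = 0 := by
      rw [hF, Finset.mul_sum]
      exact Finset.sum_eq_zero fun s hs => hcon s hs
    rw [← hF₂, ← mul_assoc, h1, zero_mul]
  obtain ⟨d', hd', hd's⟩ := (hS s).1 hsS
  have his : i s = cj (d' : G) (i q₀) := by
    show I s.1 = _
    rw [hd's]
    show br T _ = cj (d' : G) (br T _)
    rw [cj_out_smul hj, br_cj (hCN _ hd')]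
  rw [his] at hs
  -- the middle term
  have hmid : i q₀ * ofG _ (h⁻¹ * (d' : G)) * i q₀ ≠ 0 := by
    intro h0
    apply hs
    simp only [cj_ofG_eq]
    calc ofG _ h * i q₀ * ofG _ h⁻¹ * (ofG _ (d' : G) * i q₀ * ofG _ (d' : G)⁻¹)
        = ofG _ h * (i q₀ * (ofG _ h⁻¹ * ofG _ (d' : G)) * i q₀) * ofG _ (d' : G)⁻¹ := by noncomm_ring
      _ = 0 := by
        rw [← ofG_mul, h0]
        simp
  have hg₁ : h⁻¹ * (d' : G) ∈ 𝐍[T] := (𝐍[T]).mul_mem ((𝐍[T]).inv_mem hN) (hCN _ hd')
  -- the application of the key vanishing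
  have hex : ∃ s' ∈ Q, ((q₀.1.out : P) : G) * s' * ((q₀.1.out : P) : G)⁻¹ * (h⁻¹ * (d' : G))⁻¹ ∈ 𝐂[T] := by
    by_contra hcon
    push_neg at hcon
    exact hmid (brK hM hTp hj hspan hinj (hTx q₀) (hTx q₀) hg₁ hcon)
  obtain ⟨s', hs', hmem⟩ := hex
  set w := ((q₀.1.out : P) : G) * s' * ((q₀.1.out : P) : G)⁻¹ * (d' : G)⁻¹ with hw
  have hwP : w ∈ P := P.mul_mem (P.mul_mem (P.mul_mem (q₀.1.out : P).2 (hQP hs'))
    (P.inv_mem (q₀.1.out : P).2)) (P.inv_mem d'.2)
  obtain ⟨m, hm⟩ := hP ⟨w, hwP⟩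
  have hm' : w ^ (p ^ m) = 1 := by
    have := congrArg Subtype.val hm
    simpa using this
  apply mem_C_of_coprime hN hm' hreg
  have e : w * h = ((q₀.1.out : P) : G) * s' * ((q₀.1.out : P) : G)⁻¹ * (h⁻¹ * (d' : G))⁻¹ := by
    rw [hw]
    group
  rw [e]
  exact hmem

end Core

end Cfsg.Agent.Lib.MinDimD
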