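import Mathlib
import Cfsg.Agent.Lib.MinDimD
import Cfsg.Agent.Lib.CharKernel
import Cfsg.Agent.Lib.BrauerMax
import Cfsg.Agent.Lib.BrauerStab

/-!
# The dimension of a corner of an idempotent bounded by its trace
-/

set_option autoImplicit false
set_option linter.unusedSectionVars false
set_option linter.unusedVariables false
set_option linter.style.haveILetI false

namespace Cfsg.Agent.Lib.MinDimE

open Polynomial IsLocalRing Cfsg Cfsg.Agent.Lib.StarFit Cfsg.Agent.Lib.StarGrp
open Cfsg.Agent.Lib.StarLoc Cfsg.Agent.Lib.BlockLocal Cfsg.Agent.Lib.BlockCover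
open Cfsg.Agent.Lib.BlockResidue Cfsg.Agent.Lib.StarBlk Cfsg.Agent.Lib.StarP
open Cfsg.Agent.Lib.StarFit.LocSys Cfsg.Agent.Lib.MinDimA Cfsg.Agent.Lib.StarII
open Cfsg.Agent.Lib.MinDimB Cfsg.Agent.Lib.MinDimC Cfsg.Agent.Lib.MinDimD
open Cfsg.Agent.Lib.BrauerMap Cfsg.Agent.Lib.BrauerPair Cfsg.Agent.Lib.BrauerSub
open Cfsg.Agent.Lib.BlockIdem Cfsg.Agent.Lib.CharIntegrality Cfsg.Agent.Lib.BlkBasic

universe u

variable {G : Type u} [Group G] [Fintype G] {p : ℕ} [hp : Fact p.Prime] {M : Ideal AlgInt}
  [hMp : M.IsPrime]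

/-- Convolution by `β` as a linear map. -/
noncomputable def convL (β : G → ℂ) : (G → ℂ) →ₗ[ℂ] (G → ℂ) where
  toFun := conv β
  map_add' f g := by
    funext z
    simp [conv, mul_add, Finset.sum_add_distrib]
  map_smul' c f := by
    funext z
    simp only [conv, Pi.smul_apply, smul_eq_mul, RingHom.id_apply, Finset.mul_sum]
    exact Finset.sum_congr rfl fun x _ => by ring

theorem trace_convL (β : G → ℂ) :
    LinearMap.trace ℂ (G → ℂ) (convL β) = (Fintype.card G : ℂ) * β 1 := by
  classical
  rw [LinearMap.trace_eq_matrix_trace ℂ (Pi.basisFun ℂ G), LinearMap.toMatrix_eq_toMatrix',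
    Matrix.trace]
  have h1 : ∀ g : G, (LinearMap.toMatrix' (convL β)).diag g = β 1 := by
    intro g
    rw [Matrix.diag_apply, LinearMap.toMatrix'_apply]
    show conv β _ g = _
    unfold conv
    rw [Finset.sum_eq_single 1]
    · simp
    · intro x _ hx
      have : x⁻¹ * g ≠ g := by
        intro h
        apply hx
        have h2 : x⁻¹ = 1 := by
          simpa using h
        simpa using h2
      have h3 : (Pi.single g (1 : ℂ) : G → ℂ) (x⁻¹ * g) = 0 := Pi.single_eq_of_ne this 1
      simp only [Function.update, h3]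
      simp [Pi.single_apply, this]
    · simp
  simp only [h1]
  simp

theorem convL_idem {β : G → ℂ} (h : conv β β = β) : IsIdempotentElem (convL β) := by
  unfold IsIdempotentElem
  apply LinearMap.ext
  intro f
  show conv β (conv β f) = conv β f
  rw [← Cfsg.Agent.Lib.BlockSecond.conv_assoc', h]

theorem finrank_range_convL {β : G → ℂ} (h : conv β β = β) :
    ((Module.finrank ℂ (LinearMap.range (convL β)) : ℕ) : ℂ) = (Fintype.card G : ℂ) * β 1 := by
  have h1 := (LinearMap.IsIdempotentElem.isProj_range (convL β) (convL_idem h)).trace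
  rw [← h1, trace_convL]

/-- The dimension of the corner of an idempotent over the residue field is bounded by the rank of the
idempotent over `ℂ`. -/
theorem ED_le_finrank {e : MonoidAlgebra (localSubring M) G} (he : e * e = e) :
    ED (ResidueField (localSubring M)) (red e) ≤
      Module.finrank ℂ (LinearMap.range (convL (coeF e))) := by
  classical
  set E := red e with hE
  have hEE : E * E = E := by
    rw [hE, ← map_mul, he]
  let V := cor (ResidueField (localSubring M)) E E
  let b := Module.finBasis (ResidueField (localSubring M)) V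
  have hext : ∀ j, ∃ g : MonoidAlgebra (ResidueField (localSubring M)) G →ₗ[ResidueField (localSubring M)]
      ResidueField (localSubring M), g.comp V.subtype = b.coord j :=
    fun j => LinearMap.exists_extend _
  choose g hg using hext
  let l : ResidueField (localSubring M) → localSubring M :=
    Function.surjInv (residue_surjective (R := localSubring M))
  have hl : ∀ z, residue (localSubring M) (l z) = z := Function.surjInv_eq _
  let v' : _ → MonoidAlgebra (localSubring M) G :=
    fun i => ofFun fun t => l ((b i : MonoidAlgebra (ResidueField (localSubring M)) G).coeff t)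
  have hv' : ∀ i, red (v' i) = (b i : MonoidAlgebra (ResidueField (localSubring M)) G) := by
    intro i
    apply ext_coeff
    intro t
    rw [coeff_red, coeff_ofFun, hl]
  let u := fun i => e * v' i * e
  have hu : ∀ i, red (u i) = (b i : MonoidAlgebra (ResidueField (localSubring M)) G) := by
    intro i
    show red (e * v' i * e) = _
    rw [map_mul, map_mul, hv', ← hE]
    exact (b i).2
  have hexpand : ∀ (j) (x : MonoidAlgebra (ResidueField (localSubring M)) G),
      g j x = ∑ t, x.coeff t * g j (ofG _ t) := by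
    intro j x
    conv_lhs => rw [BlockResidue.eq_sum_single x, map_sum]
    refine Finset.sum_congr rfl fun t _ => ?_
    have e1 : MonoidAlgebra.single t (x.coeff t) = x.coeff t • ofG (ResidueField (localSubring M)) t := by
      show MonoidAlgebra.single t (x.coeff t) = x.coeff t • MonoidAlgebra.single t 1
      rw [MonoidAlgebra.smul_single, smul_eq_mul, mul_one]
    rw [e1, map_smul, smul_eq_mul]
  let Dm : Matrix _ _ (localSubring M) :=
    Matrix.of fun i j => ∑ t, l (g j (ofG _ t)) * (u i).coeff t
  have hDm : (residue (localSubring M)).mapMatrix Dm = 1 := by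
    ext i j
    simp only [RingHom.mapMatrix_apply, Matrix.map_apply, Dm, Matrix.of_apply]
    rw [map_sum]
    have h1 : ∀ t, residue (localSubring M) (l (g j (ofG _ t)) * (u i).coeff t) =
        (b i : MonoidAlgebra (ResidueField (localSubring M)) G).coeff t * g j (ofG _ t) := by
      intro t
      rw [map_mul, hl, ← coeff_red, hu, mul_comm]
    simp only [h1]
    rw [← hexpand]
    have h2 := LinearMap.congr_fun (hg j) (b i)
    simp only [LinearMap.comp_apply, Submodule.subtype_apply] at h2
    rw [h2, Module.Basis.coord_apply, Module.Basis.repr_self, Matrix.one_apply]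
    by_cases hij : i = j
    · rw [hij, Finsupp.single_eq_same, if_pos rfl]
    · rw [Finsupp.single_eq_of_ne (by tauto), if_neg hij]
  have hdet : Dm.det ≠ 0 := by
    intro h0
    have h1 := RingHom.map_det (residue (localSubring M)) Dm
    rw [hDm, Matrix.det_one, h0, map_zero] at h1
    exact zero_ne_one h1
  have hdetC : (Dm.map (localSubring M).subtype).det ≠ 0 := by
    intro h0
    apply hdet
    have h1 := RingHom.map_det ((localSubring M).subtype) Dm
    apply Subtype.ext
    show ((Dm.det : localSubring M) : ℂ) = 0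
    have h2 : (localSubring M).subtype Dm.det = ((Dm.det : localSubring M) : ℂ) := rfl
    rw [← h2, h1]
    exact h0
  have hind : LinearIndependent ℂ (fun i => coeF (u i)) := by
    rw [Fintype.linearIndependent_iff]
    intro c hc
    have hvm : Matrix.vecMul c (Dm.map (localSubring M).subtype) = 0 := by
      funext j
      simp only [Matrix.vecMul, dotProduct, Matrix.map_apply, Dm, Matrix.of_apply, Pi.zero_apply]
      have h1 : ∀ i, c i * (localSubring M).subtype (∑ t, l (g j (ofG _ t)) * (u i).coeff t) =
          ∑ t, ((l (g j (ofG _ t)) : localSubring M) : ℂ) * (c i * coeF (u i) t) := by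
        intro i
        rw [map_sum, Finset.mul_sum]
        refine Finset.sum_congr rfl fun t _ => ?_
        rw [map_mul]
        show c i * (_ * coeF (u i) t) = _
        simp only [Subring.subtype_apply]
        ring
      simp only [h1]
      rw [Finset.sum_comm]
      refine Finset.sum_eq_zero fun t _ => ?_
      rw [← Finset.mul_sum]
      have h2 := congrFun hc t
      simp only [Finset.sum_apply, Pi.smul_apply, smul_eq_mul, Pi.zero_apply] at h2
      rw [h2, mul_zero]
    have h3 := Matrix.eq_zero_of_vecMul_eq_zero hdetC hvm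
    intro i
    rw [h3]
    rfl
  let f : _ → LinearMap.range (convL (coeF e)) := fun i =>
    ⟨coeF (u i), ⟨coeF (v' i * e), by
      show conv (coeF e) (coeF (v' i * e)) = coeF (e * v' i * e)
      rw [← coeF_mul, mul_assoc]⟩⟩
  have hf : LinearIndependent ℂ f :=
    LinearIndependent.of_comp (LinearMap.range (convL (coeF e))).subtype hind
  have h5 := hf.fintype_card_le_finrank
  simpa [V, ED] using h5

section Final

local notation "𝐂[" R "]" => Subgroup.centralizer ((R : Subgroup G) : Set G)
local notation "𝐍[" R "]" => Subgroup.normalizer ((R : Subgroup G) : Set G)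
local notation "𝐤" => ResidueField (localSubring M)

theorem card_mul_coeF_eG {B : Set (IrrCharacter G)} (hB : IsPBlock M B) :
    (Fintype.card G : ℂ) * coeF (eG B hB) 1 = ((∑ᶠ χ ∈ B, charDegree (χ : G → ℂ) ^ 2 : ℕ) : ℂ) := by
  classical
  have hG : (Nat.card G : ℂ) ≠ 0 := by
    exact_mod_cast Nat.card_pos.ne'
  rw [coeF_eG, ← Nat.card_eq_fintype_card]
  unfold blockCoeff
  rw [mul_inv_cancel_left₀ hG]
  have h1 := (Nat.castAddMonoidHom ℂ).map_finsum_mem
    (fun χ : IrrCharacter G => charDegree (χ : G → ℂ) ^ 2) (Set.toFinite B)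
  have h2 : ((∑ᶠ χ ∈ B, charDegree (χ : G → ℂ) ^ 2 : ℕ) : ℂ) =
      ∑ᶠ χ ∈ B, ((charDegree (χ : G → ℂ) ^ 2 : ℕ) : ℂ) := h1
  rw [h2]
  refine finsum_mem_congr rfl fun χ _ => ?_
  have h3 := Cfsg.Agent.Lib.CharKernel.one_eq_charDegree (Cfsg.Agent.Lib.CharBasic.IsIrrCharacter.isCharacter χ.2)
  rw [h3]
  simp [pow_two]

/-- **A block with `∑ χ(1)² = p^(2a-d)` is nilpotent.** -/
theorem nilpotent_of_min (hM : IsPModular p M) {B : Set (IrrCharacter G)} (hB : IsPBlock M B)
    {D : Subgroup G} (hD : IsDefectGroup p M B D) {a d : ℕ} (ha : (Nat.card G).factorization p = a)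
    (hd : Nat.card D = p ^ d)
    (hmin : ∑ᶠ χ ∈ B, charDegree (χ : G → ℂ) ^ 2 = p ^ (2 * a - d)) : IsNilpotentBlock p M B := by
  classical
  haveI := charP_k hM
  set e := eG B hB with he
  have hee : e * e = e := eG_idem B hB
  have hED : ED (ResidueField (localSubring M)) (red e) ≤ p ^ (2 * a - d) := by
    have h1 := ED_le_finrank hee
    have hc : conv (coeF e) (coeF e) = coeF e := by
      rw [← coeF_mul, hee]
    have h2 := finrank_range_convL hc
    rw [card_mul_coeF_eG hB, hmin] at h2
    have h4 := Nat.cast_injective h2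
    rwa [h4] at h1
  have hloc : ∀ X : Subgroup G, IsPGroup p X → br X e ≠ 0 → Nat.card X ≤ Nat.card D := by
    intro X hX hne
    obtain ⟨b, hb⟩ : ∃ b : BlockT M 𝐂[X], br X e * bb X b ≠ 0 := by
      by_contra hcon
      push Not at hcon
      apply hne
      have := sum_bb (M := M) X
      calc br X e = br X e * ∑ b, bb X b := by rw [this, mul_one]
        _ = 0 := by
          rw [Finset.mul_sum]
          exact Finset.sum_eq_zero fun b _ => hcon b
    have hpair := Cfsg.Agent.Lib.StarInner.pair_of_br_ne hM hB hX b hb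
    obtain ⟨D', hD', hle⟩ := Cfsg.Agent.Lib.BrauerCen.exists_defect_ge hM hpair
    obtain ⟨t, ht⟩ := Cfsg.Agent.Lib.BrauerMax.exists_conj_of_isDefectGroup hM hB hD' hD
    calc Nat.card X ≤ Nat.card D' := Subgroup.card_le_of_le hle
      _ = Nat.card D := by
        rw [← ht, Subgroup.card_map_of_injective (MulAut.conj t).injective]
  have he0 : e ≠ 0 := by
    intro h0
    obtain ⟨χ, hχ⟩ := id hB
    have hmem : χ ∈ B := by
      rw [hχ]
      exact mem_blockOf_self χ
    apply Cfsg.Agent.Lib.BrauerStab.blockCoeff_ne_zero_of_mem hmem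
    funext x
    have h1 := coeF_eG B hB
    rw [← he, h0] at h1
    rw [← h1]
    rfl
  refine ⟨hB, fun T c hpair h hN hstab hreg => ?_⟩
  have hTp : IsPGroup p T := hpair.1.1
  obtain ⟨P, hTP⟩ := hTp.exists_le_sylow
  have hPp : IsPGroup p (P : Subgroup G) := P.isPGroup'
  have hPc : Nat.card (P : Subgroup G) = p ^ a := by
    rw [Sylow.card_eq_multiplicity, ha]
  have hda : d ≤ a := by
    have hDp : IsPGroup p D := IsPGroup.of_card hd
    obtain ⟨P', hP'⟩ := hDp.exists_le_sylow
    have h1 := Subgroup.card_le_of_le hP'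
    rw [hd, Sylow.card_eq_multiplicity, ha] at h1
    exact (Nat.pow_le_pow_iff_right hp.out.one_lt).1 h1
  have hcount : Nat.card D * ED (ResidueField (localSubring M)) (red e) ≤
      Nat.card (P : Subgroup G) ^ 2 := by
    rw [hd, hPc]
    calc p ^ d * ED (ResidueField (localSubring M)) (red e) ≤ p ^ d * p ^ (2 * a - d) :=
          Nat.mul_le_mul_left _ hED
      _ = (p ^ a) ^ 2 := by
        rw [← pow_add, ← pow_mul]
        congr 1
        omega
  obtain ⟨Q, hQP, hQc, j, hj, hjj, hj0, hrt, horth, hEDj⟩ :=
    lemB hM hloc (eG_mem_cen B hB) _ (P : Subgroup G) rfl hPp e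
      (SS_bot_iff.2 (eG_mem_cen B hB _)) hee hee he0 hcount
  have hQp : IsPGroup p Q := hPp.to_le hQP
  have hJJ : red j * red j = red j := by
    rw [← map_mul, hjj]
  have hJ0 : red j ≠ 0 := fun h0 => hj0 ((LL M G).eq_zero_of_phi_eq_zero hjj h0)
  have hJc : red j ∈ cen (ResidueField (localSubring M)) (Q : Set G) := red_mem_cen hj
  have hspan := exists_of_ED_le hQp hJJ hJ0 hJc hEDj
  have hinj : ∀ ξ, SuppOn Q ξ → ξ * red j = 0 → ξ = 0 :=
    fun ξ hξ h0 => eq_zero_of_supp hQp hJJ hJ0 hJc hξ h0
  have hst' : cj h (eB 𝐂[T] ⟨c, hpair.1.2⟩) = eB 𝐂[T] ⟨c, hpair.1.2⟩ :=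
    cj_eB_of_stabilizes hstab
  exact nil_core hM hPp hTP (eG_mem_cen B hB) hj hjj hQP hrt horth hspan hinj ⟨c, hpair.1.2⟩
    (br_ne_of_pair hB ⟨c, hpair.1.2⟩ hpair) hN hst' hreg

end Final

end Cfsg.Agent.Lib.MinDimE
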