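import Mathlib
import Cfsg.Agent.Lib.CharBasic

/-!
# Permutation representations and degrees of irreducible representations

If every non-trivial irreducible complex representation of `G` has degree at least `d`, then every
proper subgroup `K` of `G` has index at least `d + 1`; if moreover the index is at most `2 d`, then
`K` is transitive on the cosets other than `K` itself, so `(index - 1) ∣ |K|`.
-/

set_option autoImplicit false
set_option linter.unusedSectionVars false
set_option linter.unusedVariables false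

namespace Cfsg.Agent.Lib.PermDeg

open Cfsg.Agent.Lib.CharBasic

/-- All non-trivial irreducible complex representations of `G` have degree at least `d`. -/
def DegBd (G : Type*) [Group G] (d : ℕ) : Prop :=
  ∀ (k : ℕ) (ρ : Representation ℂ G (Fin k → ℂ)), ρ.IsIrreducible → (∃ g, ρ g ≠ 1) → d ≤ k

section general

variable {G : Type*} [Group G] [Finite G] {d : ℕ}

/-- A non-zero representation without fixed vectors has dimension at least `d`. -/
theorem le_finrank (hd : DegBd G d) {V : Type*} [AddCommGroup V] [Module ℂ V] [FiniteDimensional ℂ V]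
    (ρ : Representation ℂ G V) [Nontrivial V] (hfix : ∀ v, (∀ g, ρ g v = v) → v = 0) :
    d ≤ Module.finrank ℂ V := by
  induction hn : Module.finrank ℂ V using Nat.strong_induction_on generalizing V with
  | _ n ih =>
    by_cases hi : ρ.IsIrreducible
    · let e : V ≃ₗ[ℂ] (Fin n → ℂ) := LinearEquiv.ofFinrankEq _ _ (by simp [hn])
      have h1 := transport_isIrreducible e ρ hi
      refine hd n (transport e ρ) h1 ?_
      obtain ⟨v, hv⟩ := exists_ne (0 : V)
      by_contra hcon
      push Not at hcon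
      apply hv
      apply hfix
      intro g
      have h2 := hcon g
      have h3 := congrArg (fun (f : (Fin n → ℂ) →ₗ[ℂ] (Fin n → ℂ)) => f (e v)) h2
      simp only [transport_apply, LinearEquiv.symm_apply_apply, Module.End.one_apply] at h3
      exact e.injective h3
    · rw [isIrreducible_iff] at hi
      push Not at hi
      obtain ⟨U, hU, hUb, hUt⟩ := hi inferInstance
      let S : Subrepresentation ρ := ⟨U, fun g v hv => hU g v hv⟩
      have hn1 : Nontrivial S.toSubmodule := by
        rw [Submodule.nontrivial_iff_ne_bot]; exact hUb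
      have hlt : Module.finrank ℂ S.toSubmodule < n := by
        rw [← hn]
        exact Submodule.finrank_lt hUt
      refine (ih _ hlt S.toRepresentation ?_ rfl).trans hlt.le
      intro v hv
      have := hfix v.1 (fun g => congrArg Subtype.val (hv g))
      exact Subtype.ext this

/-- A reducible representation without fixed vectors has dimension at least `2 d`. -/
theorem two_mul_le_finrank (hd : DegBd G d) {V : Type*} [AddCommGroup V] [Module ℂ V]
    [FiniteDimensional ℂ V] (ρ : Representation ℂ G V) (hfix : ∀ v, (∀ g, ρ g v = v) → v = 0)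
    (U : Submodule ℂ V) (hU : ∀ g, ∀ v ∈ U, ρ g v ∈ U) (hUb : U ≠ ⊥) (hUt : U ≠ ⊤) :
    2 * d ≤ Module.finrank ℂ V := by
  let S : Subrepresentation ρ := ⟨U, fun g v hv => hU g v hv⟩
  have : NeZero (Nat.card G : ℂ) := ⟨by exact_mod_cast Nat.card_pos.ne'⟩
  obtain ⟨S', hS'⟩ := exists_isCompl S
  have hc : IsCompl S.toSubmodule S'.toSubmodule := by
    constructor
    · rw [disjoint_iff]
      exact congrArg Subrepresentation.toSubmodule (hS'.inf_eq_bot)
    · rw [codisjoint_iff]
      exact congrArg Subrepresentation.toSubmodule (hS'.sup_eq_top)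
  have hdim := Submodule.finrank_add_eq_of_isCompl hc
  have hn1 : Nontrivial S.toSubmodule := by
    rw [Submodule.nontrivial_iff_ne_bot]; exact hUb
  have hn2 : Nontrivial S'.toSubmodule := by
    rw [Submodule.nontrivial_iff_ne_bot]
    intro hbot
    rw [hbot] at hc
    exact hUt (by simpa using hc.sup_eq_top)
  have h1 : d ≤ Module.finrank ℂ S.toSubmodule := by
    refine le_finrank hd S.toRepresentation ?_
    intro v hv
    have := hfix v.1 (fun g => congrArg Subtype.val (hv g))
    exact Subtype.ext this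
  have h2 : d ≤ Module.finrank ℂ S'.toSubmodule := by
    refine le_finrank hd S'.toRepresentation ?_
    intro v hv
    have := hfix v.1 (fun g => congrArg Subtype.val (hv g))
    exact Subtype.ext this
  omega

end general

section perm

variable {G : Type*} [Group G] (K : Subgroup G)

/-- The permutation representation on the functions on the cosets. -/
noncomputable def permRep : Representation ℂ G ((G ⧸ K) → ℂ) where
  toFun g := LinearMap.funLeft ℂ ℂ (fun x : G ⧸ K => g⁻¹ • x)
  map_one' := by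
    ext f x
    simp [LinearMap.funLeft]
  map_mul' g h := by
    ext f x
    simp [LinearMap.funLeft, mul_smul]

lemma permRep_apply (g : G) (f : (G ⧸ K) → ℂ) (x : G ⧸ K) : permRep K g f x = f (g⁻¹ • x) := rfl

variable [Fintype (G ⧸ K)]

/-- The sum of the values. -/
noncomputable def sumL : ((G ⧸ K) → ℂ) →ₗ[ℂ] ℂ := ∑ x, LinearMap.proj x

lemma sumL_apply (f : (G ⧸ K) → ℂ) : sumL K f = ∑ x, f x := by
  simp [sumL]

lemma sumL_perm (g : G) (f : (G ⧸ K) → ℂ) : sumL K (permRep K g f) = sumL K f := by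
  rw [sumL_apply, sumL_apply]
  exact Equiv.sum_comp (MulAction.toPerm (g⁻¹ : G)) f

/-- The functions with zero sum. -/
noncomputable def WW : Subrepresentation (permRep K) :=
  ⟨LinearMap.ker (sumL K), fun g v hv => by
    rw [LinearMap.mem_ker] at hv ⊢
    rw [sumL_perm, hv]⟩

lemma mem_WW {f : (G ⧸ K) → ℂ} : f ∈ (WW K).toSubmodule ↔ ∑ x, f x = 0 := by
  show f ∈ LinearMap.ker (sumL K) ↔ _
  rw [LinearMap.mem_ker, sumL_apply]

lemma const_of_fixed {f : (G ⧸ K) → ℂ} (hf : ∀ g, permRep K g f = f) (x : G ⧸ K) :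
    f x = f (QuotientGroup.mk 1 : G ⧸ K) := by
  obtain ⟨g, rfl⟩ := QuotientGroup.mk_surjective x
  have := congrFun (hf g) (QuotientGroup.mk g)
  rw [permRep_apply] at this
  rw [← this, MulAction.Quotient.smul_mk]
  simp

lemma card_ne_zero' : ((Fintype.card (G ⧸ K) : ℕ) : ℂ) ≠ 0 := by
  haveI : Nonempty (G ⧸ K) := ⟨QuotientGroup.mk 1⟩
  exact_mod_cast Fintype.card_ne_zero

lemma WW_no_fixed (v : (WW K).toSubmodule) (hv : ∀ g, (WW K).toRepresentation g v = v) : v = 0 := by
  have h1 : ∀ g, permRep K g v.1 = v.1 := fun g => congrArg Subtype.val (hv g)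
  have h2 := (mem_WW K).1 v.2
  have h3 := const_of_fixed K h1
  rw [Finset.sum_congr rfl (fun x _ => h3 x), Finset.sum_const, Finset.card_univ, nsmul_eq_mul] at h2
  have h4 := (mul_eq_zero.1 h2).resolve_left (card_ne_zero' K)
  apply Subtype.ext
  funext x
  rw [h3 x, h4]
  rfl

lemma finrank_WW : Module.finrank ℂ (WW K).toSubmodule + 1 = Fintype.card (G ⧸ K) := by
  have h1 := LinearMap.finrank_range_add_finrank_ker (sumL K)
  have h2 : LinearMap.range (sumL K) = ⊤ := by
    rw [LinearMap.range_eq_top]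
    intro c
    refine ⟨fun _ => c / (Fintype.card (G ⧸ K) : ℂ), ?_⟩
    rw [sumL_apply, Finset.sum_const, Finset.card_univ, nsmul_eq_mul]
    field_simp [card_ne_zero' K]
  rw [h2, finrank_top, Module.finrank_self, Module.finrank_fintype_fun_eq_card] at h1
  have h3 : (WW K).toSubmodule = LinearMap.ker (sumL K) := rfl
  rw [h3]
  omega

end perm

section main

variable {G : Type*} [Group G] [Finite G] {d : ℕ}

/-- **The bound for the index.** -/
theorem add_one_le_index (hd : DegBd G d) (K : Subgroup G) (hK : K ≠ ⊤) : d + 1 ≤ K.index := by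
  classical
  haveI : Fintype (G ⧸ K) := Fintype.ofFinite _
  have hidx : K.index = Fintype.card (G ⧸ K) := by
    rw [Subgroup.index, Nat.card_eq_fintype_card]
  have h1 : K.index ≠ 1 := fun h => hK (Subgroup.index_eq_one.1 h)
  have h2 : K.index ≠ 0 := Subgroup.index_ne_zero_of_finite
  have h3 := finrank_WW K
  rw [← hidx] at h3
  haveI : Nontrivial (WW K).toSubmodule := by
    apply Module.nontrivial_of_finrank_pos (R := ℂ)
    omega
  have h4 := le_finrank hd (WW K).toRepresentation (WW_no_fixed K)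
  omega

section schur

variable (K : Subgroup G) [Fintype (G ⧸ K)]

/-- The intertwiner attached to a `K`-fixed vector. -/
noncomputable def TT (v : (G ⧸ K) → ℂ) : ((G ⧸ K) → ℂ) →ₗ[ℂ] ((G ⧸ K) → ℂ) :=
  ∑ x : G ⧸ K, (LinearMap.toSpanSingleton ℂ _ (permRep K (Quotient.out x) v)) ∘ₗ LinearMap.proj x

lemma TT_apply (v f : (G ⧸ K) → ℂ) :
    TT K v f = ∑ x : G ⧸ K, f x • permRep K (Quotient.out x) v := by
  simp [TT, LinearMap.sum_apply]

variable {K}

lemma out_smul {v : (G ⧸ K) → ℂ} (hv : ∀ k ∈ K, permRep K k v = v) (g : G) (x : G ⧸ K) :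
    permRep K (Quotient.out (g • x)) v = permRep K g (permRep K (Quotient.out x) v) := by
  have h1 : (QuotientGroup.mk (Quotient.out (g • x)) : G ⧸ K) = QuotientGroup.mk (g * Quotient.out x) := by
    rw [QuotientGroup.out_eq']
    conv_lhs => rw [← QuotientGroup.out_eq' x]
    rfl
  have hk := QuotientGroup.eq.1 h1
  have h2 : Quotient.out (g • x) = g * Quotient.out x * ((Quotient.out (g • x))⁻¹ * (g * Quotient.out x))⁻¹ := by
    group
  have h3 : permRep K (Quotient.out (g • x)) v = permRep K (g * Quotient.out x) (permRep K ((Quotient.out (g • x))⁻¹ * (g * Quotient.out x))⁻¹ v) := by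
    conv_lhs => rw [h2, map_mul]
    rfl
  rw [h3, hv _ (K.inv_mem hk), map_mul]
  rfl

lemma TT_comm {v : (G ⧸ K) → ℂ} (hv : ∀ k ∈ K, permRep K k v = v) (g : G) (f : (G ⧸ K) → ℂ) :
    TT K v (permRep K g f) = permRep K g (TT K v f) := by
  rw [TT_apply, TT_apply, map_sum]
  rw [← Equiv.sum_comp (MulAction.toPerm (g : G))]
  refine Finset.sum_congr rfl fun x _ => ?_
  simp only [MulAction.toPerm_apply, permRep_apply, map_smul, inv_smul_smul]
  rw [out_smul hv]

lemma TT_mem_WW {v : (G ⧸ K) → ℂ} (hvW : v ∈ (WW K).toSubmodule) (f : (G ⧸ K) → ℂ) :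
    TT K v f ∈ (WW K).toSubmodule := by
  rw [TT_apply]
  refine Submodule.sum_mem _ fun x _ => Submodule.smul_mem _ _ ?_
  exact (WW K).apply_mem_toSubmodule _ hvW

open Classical in
/-- The one-point function. -/
noncomputable def dl : (G ⧸ K) → ℂ := Pi.single (QuotientGroup.mk 1) 1

open Classical in
lemma TT_dl {v : (G ⧸ K) → ℂ} (hv : ∀ k ∈ K, permRep K k v = v) :
    TT K v (dl (K := K)) = v := by
  rw [TT_apply, Finset.sum_eq_single (QuotientGroup.mk 1)]
  · have h1 : (Quotient.out (QuotientGroup.mk 1 : G ⧸ K) : G) ∈ K := by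
      have : (QuotientGroup.mk (Quotient.out (QuotientGroup.mk 1 : G ⧸ K)) : G ⧸ K) = QuotientGroup.mk 1 :=
        QuotientGroup.out_eq' _
      have h2 := QuotientGroup.eq.1 this
      simpa using h2
    rw [hv _ h1]
    simp [dl]
  · intro b _ hb
    simp [dl, Pi.single_apply, hb]
  · simp

/-- **Schur.** If the zero-sum functions form an irreducible representation, the `K`-fixed vectors in
them are multiples of a single vector. -/
theorem fixed_eq_smul (hirr : ∀ U : Submodule ℂ ((G ⧸ K) → ℂ), U ≤ (WW K).toSubmodule →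
      (∀ g, ∀ v ∈ U, permRep K g v ∈ U) → U = ⊥ ∨ U = (WW K).toSubmodule)
    (hne : (WW K).toSubmodule ≠ ⊥)
    {v : (G ⧸ K) → ℂ} (hvW : v ∈ (WW K).toSubmodule) (hv : ∀ k ∈ K, permRep K k v = v) :
    ∃ c : ℂ, v = c • (dl (K := K) - (Fintype.card (G ⧸ K) : ℂ)⁻¹ • fun _ => 1) := by
  classical
  set W := (WW K).toSubmodule with hW
  set T := TT K v with hT
  have hTW : ∀ f ∈ W, T f ∈ W := fun f _ => TT_mem_WW hvW f
  let T' : W →ₗ[ℂ] W := T.restrict hTW
  haveI : Nontrivial W := by
    rw [Submodule.nontrivial_iff_ne_bot]; exact hne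
  obtain ⟨c, hc⟩ := Module.End.exists_eigenvalue T'
  obtain ⟨⟨w, hwW⟩, hw⟩ := hc.exists_hasEigenvector
  have hw1 : T w = c • w := by
    have := hw.apply_eq_smul
    exact congrArg Subtype.val this
  have hw2 : w ≠ 0 := by
    intro h0
    apply hw.2
    exact Subtype.ext h0
  -- the eigenspace
  let U : Submodule ℂ ((G ⧸ K) → ℂ) := W ⊓ LinearMap.ker (T - c • LinearMap.id)
  have hU1 : U ≤ W := inf_le_left
  have hU2 : ∀ g, ∀ u ∈ U, permRep K g u ∈ U := by
    intro g u hu
    refine ⟨(WW K).apply_mem_toSubmodule _ hu.1, ?_⟩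
    have h3 := hu.2
    simp only [SetLike.mem_coe, LinearMap.mem_ker, LinearMap.sub_apply, LinearMap.smul_apply,
      LinearMap.id_apply, sub_eq_zero] at h3 ⊢
    rw [hT, TT_comm hv, ← hT, h3, map_smul]
  have hU3 : U ≠ ⊥ := by
    intro h0
    have : w ∈ U := ⟨hwW, by simp [hw1]⟩
    rw [h0] at this
    exact hw2 (by simpa using this)
  have hU4 : U = W := (hirr U hU1 hU2).resolve_left hU3
  have hscal : ∀ f ∈ W, T f = c • f := by
    intro f hf
    rw [← hU4] at hf
    have h3 := hf.2
    simpa [sub_eq_zero] using h3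
  -- the sum of all translates vanishes
  have hT1 : T (fun _ => 1) = 0 := by
    have h3 : ∀ g, permRep K g (T (fun _ => 1)) = T (fun _ => 1) := by
      intro g
      rw [hT, ← TT_comm hv]
      rfl
    have h4 := WW_no_fixed K ⟨T (fun _ => 1), TT_mem_WW hvW _⟩
      (fun g => Subtype.ext (h3 g))
    exact congrArg Subtype.val h4
  have hf1 : dl (K := K) - (Fintype.card (G ⧸ K) : ℂ)⁻¹ • (fun _ => 1) ∈ W := by
    rw [hW, mem_WW]
    have h5 := card_ne_zero' K
    simp [dl, Finset.sum_sub_distrib, Finset.card_univ, h5]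
  refine ⟨c, ?_⟩
  rw [← hscal _ hf1, map_sub, map_smul, hT1, smul_zero, sub_zero]
  exact (TT_dl hv).symm

end schur

/-- If the index is at most `2 d`, the subgroup is transitive on the other cosets. -/
theorem transitive_of_lt (hd : DegBd G d) (K : Subgroup G) (hK : K ≠ ⊤) (hm : K.index ≤ 2 * d)
    {x y : G ⧸ K} (hx : x ≠ QuotientGroup.mk 1) (hy : y ≠ QuotientGroup.mk 1) :
    ∃ k ∈ K, k • x = y := by
  classical
  haveI : Fintype (G ⧸ K) := Fintype.ofFinite _
  have hidx : K.index = Fintype.card (G ⧸ K) := by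
    rw [Subgroup.index, Nat.card_eq_fintype_card]
  have h1 : K.index ≠ 1 := fun h => hK (Subgroup.index_eq_one.1 h)
  have h2 : K.index ≠ 0 := Subgroup.index_ne_zero_of_finite
  have h3 := finrank_WW K
  rw [← hidx] at h3
  by_contra hcon
  push Not at hcon
  -- the irreducibility
  have hne : (WW K).toSubmodule ≠ ⊥ := by
    intro h0
    rw [h0, finrank_bot] at h3
    omega
  have hirr : ∀ U : Submodule ℂ ((G ⧸ K) → ℂ), U ≤ (WW K).toSubmodule →
      (∀ g, ∀ v ∈ U, permRep K g v ∈ U) → U = ⊥ ∨ U = (WW K).toSubmodule := by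
    intro U hU hinv
    by_contra hc
    push Not at hc
    obtain ⟨hb, ht⟩ := hc
    let U' : Submodule ℂ (WW K).toSubmodule := U.comap (WW K).toSubmodule.subtype
    have hU' : U'.map (WW K).toSubmodule.subtype = U := by
      rw [Submodule.map_comap_subtype]
      exact inf_eq_right.2 hU
    have h4 := two_mul_le_finrank hd (WW K).toRepresentation (WW_no_fixed K) U'
      (fun g v hv => hinv g v.1 hv)
      (by
        intro h0
        apply hb
        rw [← hU', h0, Submodule.map_bot])
      (by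
        intro h0
        apply ht
        rw [← hU', h0, Submodule.map_subtype_top])
    omega
  -- the vector
  let ox : G ⧸ K → Prop := fun z => ∃ k ∈ K, k • x = z
  let oy : G ⧸ K → Prop := fun z => ∃ k ∈ K, k • y = z
  have hox : ∀ k ∈ K, ∀ z, ox (k⁻¹ • z) ↔ ox z := by
    intro k hk z
    constructor
    · rintro ⟨l, hl, h⟩
      exact ⟨k * l, K.mul_mem hk hl, by rw [mul_smul, h, smul_inv_smul]⟩
    · rintro ⟨l, hl, h⟩
      exact ⟨k⁻¹ * l, K.mul_mem (K.inv_mem hk) hl, by rw [mul_smul, h]⟩
  have hoy : ∀ k ∈ K, ∀ z, oy (k⁻¹ • z) ↔ oy z := by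
    intro k hk z
    constructor
    · rintro ⟨l, hl, h⟩
      exact ⟨k * l, K.mul_mem hk hl, by rw [mul_smul, h, smul_inv_smul]⟩
    · rintro ⟨l, hl, h⟩
      exact ⟨k⁻¹ * l, K.mul_mem (K.inv_mem hk) hl, by rw [mul_smul, h]⟩
  let a : ℕ := (Finset.univ.filter ox).card
  let b : ℕ := (Finset.univ.filter oy).card
  have hb0 : (b : ℂ) ≠ 0 := by
    have : 0 < b := Finset.card_pos.2 ⟨y, by simpa [oy] using ⟨1, K.one_mem, one_smul _ _⟩⟩
    exact_mod_cast this.ne'
  let f : G ⧸ K → ℂ := fun z => (if ox z then (b : ℂ) else 0) - (if oy z then (a : ℂ) else 0)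
  have hfW : f ∈ (WW K).toSubmodule := by
    rw [mem_WW]
    simp only [f, Finset.sum_sub_distrib, Finset.sum_ite, Finset.sum_const_zero, add_zero,
      Finset.sum_const, nsmul_eq_mul]
    simp only [a, b]
    ring
  have hfK : ∀ k ∈ K, permRep K k f = f := by
    intro k hk
    funext z
    rw [permRep_apply]
    simp only [f, hox k hk, hoy k hk]
  have ho : ∀ k ∈ K, ∀ w : G ⧸ K, w ≠ QuotientGroup.mk 1 → k • w ≠ QuotientGroup.mk 1 := by
    intro k hk w hw h
    apply hw
    have h5 : w = k⁻¹ • (QuotientGroup.mk 1 : G ⧸ K) := by rw [← h, inv_smul_smul]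
    rw [h5, MulAction.Quotient.smul_mk, QuotientGroup.eq]
    simpa using hk
  have hf0 : f (QuotientGroup.mk 1) = 0 := by
    have h5 : ¬ ox (QuotientGroup.mk 1) := by
      rintro ⟨k, hk, h⟩
      exact ho k hk x hx h
    have h6 : ¬ oy (QuotientGroup.mk 1) := by
      rintro ⟨k, hk, h⟩
      exact ho k hk y hy h
    simp [f, h5, h6]
  have hfx : f x = b := by
    have h5 : ox x := ⟨1, K.one_mem, one_smul _ _⟩
    have h6 : ¬ oy x := by
      rintro ⟨k, hk, h⟩
      apply hcon k⁻¹ (K.inv_mem hk)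
      rw [← h, inv_smul_smul]
    simp [f, h5, h6]
  obtain ⟨c, hc⟩ := fixed_eq_smul hirr hne hfW hfK
  have h5 := congrFun hc (QuotientGroup.mk 1)
  rw [hf0] at h5
  have h6 : (dl (K := K) - (Fintype.card (G ⧸ K) : ℂ)⁻¹ • (fun _ => 1) : G ⧸ K → ℂ) (QuotientGroup.mk 1) ≠ 0 := by
    simp only [dl, Pi.sub_apply, Pi.single_eq_same, Pi.smul_apply, smul_eq_mul, mul_one]
    have h7 : (Fintype.card (G ⧸ K) : ℂ) ≠ 1 := by
      rw [← hidx]
      exact_mod_cast h1
    have h8 := card_ne_zero' K
    intro h9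
    apply h7
    field_simp at h9
    linear_combination h9
  have h7 : c = 0 := by
    have h8 : c * (dl (K := K) - (Fintype.card (G ⧸ K) : ℂ)⁻¹ • (fun _ => 1) : G ⧸ K → ℂ) (QuotientGroup.mk 1) = 0 := by
      simpa using h5.symm
    exact (mul_eq_zero.1 h8).resolve_right h6
  have h8 := congrFun hc x
  rw [hfx, h7] at h8
  exact hb0 (by simpa using h8)

/-- Divisibility from double transitivity. -/
theorem index_mul_dvd (hd : DegBd G d) (K : Subgroup G) (hK : K ≠ ⊤) (hm : K.index ≤ 2 * d) :
    K.index * (K.index - 1) ∣ Nat.card G := by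
  classical
  haveI : Fintype (G ⧸ K) := Fintype.ofFinite _
  have hidx : K.index = Fintype.card (G ⧸ K) := by
    rw [Subgroup.index, Nat.card_eq_fintype_card]
  have h1 : K.index ≠ 1 := fun h => hK (Subgroup.index_eq_one.1 h)
  have h2 : K.index ≠ 0 := Subgroup.index_ne_zero_of_finite
  have h3 : 1 < Fintype.card (G ⧸ K) := by omega
  haveI : Nontrivial (G ⧸ K) := Fintype.one_lt_card_iff_nontrivial.1 h3
  obtain ⟨x, hx⟩ := exists_ne (QuotientGroup.mk 1 : G ⧸ K)
  have h4 : MulAction.orbit K x = {z : G ⧸ K | z ≠ QuotientGroup.mk 1} := by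
    ext z
    constructor
    · rintro ⟨k, rfl⟩ h
      apply hx
      have h5 : x = (k⁻¹ : G) • (QuotientGroup.mk 1 : G ⧸ K) := by
        rw [← h]
        exact (inv_smul_smul (k : G) x).symm
      rw [h5, MulAction.Quotient.smul_mk, QuotientGroup.eq]
      simp
    · intro hz
      obtain ⟨k, hk, h⟩ := transitive_of_lt hd K hK hm hx hz
      exact ⟨⟨k, hk⟩, h⟩
  have h5 : (MulAction.orbit K x).ncard = K.index - 1 := by
    rw [h4]
    have h6 : {z : G ⧸ K | z ≠ QuotientGroup.mk 1} = ({QuotientGroup.mk 1} : Set (G ⧸ K))ᶜ := by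
      ext z; simp
    rw [h6, Set.ncard_compl, Set.ncard_singleton, Nat.card_eq_fintype_card, ← hidx]
  have h6 := MulAction.index_stabilizer K x
  rw [h5] at h6
  have h7 : K.index - 1 ∣ Nat.card K := by
    rw [← h6]
    exact Subgroup.index_dvd_card _
  rw [← Subgroup.card_mul_index K, mul_comm]
  exact mul_dvd_mul_right h7 _

end main

end Cfsg.Agent.Lib.PermDeg
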