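import Mathlib
import Cfsg.Agent.Lib.PermDeg
import Cfsg.Agent.Lib.SLMinC
import Cfsg.Agent.Lib.ClassicalCore

/-!
# The minimal index of `PSL_n(q)`: fixed points of transvections on coset spaces
-/

set_option autoImplicit false
set_option linter.unusedSectionVars false
set_option linter.unusedVariables false

namespace Cfsg.Agent.Lib.MinIdxA

open Matrix Cfsg.Agent.S2392 Cfsg.Agent.Lib.TvGL Cfsg.Agent.Lib.ReprFourier
  Cfsg.Agent.Lib.FourierAb Cfsg.Agent.Lib.SLMinA Cfsg.Agent.Lib.SLMinE Cfsg.Agent.Lib.SLMinF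
  Cfsg.Agent.Lib.SLMinB Cfsg.Agent.Lib.SLMinD Cfsg.Agent.Lib.SLMinC Cfsg.Agent.Lib.PermDeg
open scoped MatrixGroups

section fix

variable {G : Type*} [Group G] (K : Subgroup G)

/-- The number of fixed points on the cosets. -/
noncomputable def fx (g : G) : ℕ := Nat.card {x : G ⧸ K // g • x = x}

lemma fx_conj (h g : G) : fx K (h * g * h⁻¹) = fx K g := by
  apply Nat.card_congr
  refine
    { toFun := fun x => ⟨h⁻¹ • x.1, ?_⟩
      invFun := fun x => ⟨h • x.1, ?_⟩
      left_inv := fun x => Subtype.ext (smul_inv_smul h x.1)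
      right_inv := fun x => Subtype.ext (inv_smul_smul h x.1) }
  · have := x.2
    rw [mul_smul, mul_smul] at this
    rw [← mul_smul, ← mul_smul] at *
    have h2 := congrArg (fun y => h⁻¹ • y) this
    simp only [← mul_smul] at h2
    simpa [mul_assoc] using h2
  · have := x.2
    rw [mul_smul, mul_smul, inv_smul_smul, this]

variable [Finite G]

lemma fx_eq_index {g : G} (h : fx K g = K.index) (x : G ⧸ K) : g • x = x := by
  classical
  haveI : Fintype (G ⧸ K) := Fintype.ofFinite _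
  have h1 : K.index = Fintype.card (G ⧸ K) := by
    rw [Subgroup.index, Nat.card_eq_fintype_card]
  rw [h1, fx, Nat.card_eq_fintype_card] at h
  have h2 : (Finset.univ.filter fun x : G ⧸ K => g • x = x) = Finset.univ := by
    apply Finset.eq_univ_of_card
    rw [← h, Fintype.card_subtype]
  have h3 : x ∈ Finset.univ.filter fun x : G ⧸ K => g • x = x := by
    rw [h2]; exact Finset.mem_univ x
  exact (Finset.mem_filter.1 h3).2

lemma fx_le (g : G) : fx K g ≤ K.index := by
  classical
  haveI : Fintype (G ⧸ K) := Fintype.ofFinite _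
  have h1 : K.index = Fintype.card (G ⧸ K) := by
    rw [Subgroup.index, Nat.card_eq_fintype_card]
  rw [h1, fx, Nat.card_eq_fintype_card]
  exact Fintype.card_subtype_le _

lemma fx_pos_of_mem {g : G} (hg : g ∈ K) : 0 < fx K g := by
  haveI : Finite (G ⧸ K) := inferInstance
  rw [fx, Nat.card_pos_iff]
  refine ⟨⟨⟨QuotientGroup.mk 1, ?_⟩⟩, inferInstance⟩
  rw [MulAction.Quotient.smul_mk, QuotientGroup.eq]
  simpa using K.inv_mem hg

end fix

section sl

variable {F : Type*} [Field F] [Fintype F] [DecidableEq F] {k : ℕ}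

lemma degBd_rad (hk : 2 ≤ k) : DegBd (SL(k + 1, F)) (Fintype.card F ^ k - 1) := by
  intro d ρ hρ hnt
  obtain ⟨ψ, hψ⟩ := exists_primitive F
  have hu₀ : (Pi.single ⟨0, by omega⟩ 1 : Fin k → F) ≠ 0 := by
    intro h0
    have := congrFun h0 ⟨0, by omega⟩
    simp at this
  have hnt' : ∃ g, matR ρ g ≠ 1 := by
    obtain ⟨g, hg⟩ := hnt
    exact ⟨g, fun h => hg (rho_eq_one ρ h)⟩
  have h1 := dim_eq (matR ρ) hψ hk hu₀
  have h2 := m_pos (matR ρ) hψ hk hnt' hu₀
  rw [h1]
  calc Fintype.card F ^ k - 1 ≤ (Fintype.card F ^ k - 1) * rk (ee (matR ρ) ψ (Pi.single ⟨0, by omega⟩ 1)) :=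
        Nat.le_mul_of_pos_right _ h2
    _ ≤ _ := Nat.le_add_left _ _

lemma normal_eq_top_of_tau (hk : 1 ≤ k) (N : Subgroup SL(k + 1, F)) [N.Normal]
    (h : ∀ v, tau v ∈ N) : N = ⊤ := by
  apply Cfsg.Agent.Lib.SLGen.eq_top_of_forall_transvection_mem
  intro i j hij c
  have h1 : Matrix.SpecialLinearGroup.transvection hij c = tt (c • Pi.single i 1) (Pi.single j 1) := by
    have hd : (Pi.single j 1 : Fin (k + 1) → F) ⬝ᵥ (c • Pi.single i 1) = 0 := by
      simp [Ne.symm hij]
    apply Subtype.ext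
    rw [tt_coe hd]
    change Matrix.transvection i j c = _
    ext r s
    simp only [Matrix.transvection, Matrix.add_apply, vecMulVec_apply, Matrix.single_apply,
      Pi.smul_apply, smul_eq_mul, Pi.single_apply]
    rcases eq_or_ne r i with rfl | h1 <;> rcases eq_or_ne s j with rfl | h2
    · simp
    · simp [h2, Ne.symm h2]
    · simp [h1, Ne.symm h1]
    · simp [h1, h2, Ne.symm h1, Ne.symm h2]
  rw [h1]
  have hne : (Pi.single j 1 : Fin (k + 1) → F) ≠ 0 := by
    intro h0
    have := congrFun h0 j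
    simp at this
  obtain ⟨g, hg⟩ := exists_row hk hne
  have hd : (Pi.single j 1 : Fin (k + 1) → F) ⬝ᵥ (c • Pi.single i 1) = 0 := by
    simp [Ne.symm hij]
  obtain ⟨v, hv⟩ := param_surj hg hd
  rw [hv, ← param_conj hg]
  exact ‹N.Normal›.conj_mem _ (h v) g

variable (K : Subgroup SL(k + 1, F))

lemma fx_tau (hk : 2 ≤ k) {v w : Fin k → F} (hv : v ≠ 0) (hw : w ≠ 0) :
    fx K (tau v) = fx K (tau w) := by
  obtain ⟨g, hg⟩ := exists_sl_mulVec hk hv hw
  have h1 : hat g * tau v * (hat g)⁻¹ = tau w := by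
    rw [hat_mul_tau, hg, mul_inv_cancel_right]
  rw [← h1, fx_conj]

lemma fx_of_TT (hk : 2 ≤ k) {t : SL(k + 1, F)} (ht : t ∈ TT k F) {w : Fin k → F} (hw : w ≠ 0) :
    fx K t = fx K (tau w) := by
  obtain ⟨a, x, ha, hx, hax, rfl⟩ := mem_TT.1 ht
  obtain ⟨g, hg⟩ := exists_row (k := k) (by omega) hx
  obtain ⟨v, rfl⟩ := param_surj hg hax
  have hv : v ≠ 0 := by
    rintro rfl
    apply ha
    rw [sn_zero, Matrix.mulVec_zero]
  rw [← param_conj hg, fx_conj]
  exact fx_tau K hk hv hw

lemma tau_mem_TT {v : Fin k → F} (hv : v ≠ 0) : tau v ∈ TT k F := by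
  refine mem_TT.2 ⟨sn v 0, ln, ?_, ln_ne, ?_, (tau_eq v).symm⟩
  · intro h0
    exact hv (sn_eq_zero h0).1
  · simp [ln_dot]

variable {K}

/-- The key congruence. -/
theorem index_eq (hk : 2 ≤ k) (hK : K ≠ ⊤) {v₀ : Fin k → F} (hv₀ : v₀ ≠ 0) :
    ∃ b, 1 ≤ b ∧ K.index = fx K (tau v₀) + Fintype.card F ^ k * b := by
  classical
  haveI : Fintype (SL(k + 1, F) ⧸ K) := Fintype.ofFinite _
  set Q := Fintype.card F ^ k with hQ
  set f := fx K (tau v₀) with hf
  have hQ0 : 0 < Q := pow_pos Fintype.card_pos _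
  -- the homomorphism
  let τ : Multiplicative (Fin k → F) →* SL(k + 1, F) :=
    { toFun := fun a => tau (Multiplicative.toAdd a)
      map_one' := tau_zero
      map_mul' := fun a b => tau_add _ _ }
  letI : MulAction (Multiplicative (Fin k → F)) (SL(k + 1, F) ⧸ K) := MulAction.compHom _ τ
  haveI : ∀ a : Multiplicative (Fin k → F), Fintype (MulAction.fixedBy (SL(k + 1, F) ⧸ K) a) :=
    fun a => Fintype.ofFinite _
  haveI : Fintype (MulAction.orbitRel.Quotient (Multiplicative (Fin k → F)) (SL(k + 1, F) ⧸ K)) :=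
    Fintype.ofFinite _
  have hB := MulAction.sum_card_fixedBy_eq_card_orbits_mul_card_group
    (Multiplicative (Fin k → F)) (SL(k + 1, F) ⧸ K)
  set N := Fintype.card (MulAction.orbitRel.Quotient (Multiplicative (Fin k → F)) (SL(k + 1, F) ⧸ K))
  have hc : Fintype.card (Multiplicative (Fin k → F)) = Q := by
    rw [hQ]
    simp [Fintype.card_multiplicative]
  have h1 : ∀ a : Multiplicative (Fin k → F), Fintype.card (MulAction.fixedBy (SL(k + 1, F) ⧸ K) a) =
      fx K (tau (Multiplicative.toAdd a)) := by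
    intro a
    rw [← Nat.card_eq_fintype_card]
    rfl
  have h2 : ∑ a : Multiplicative (Fin k → F), fx K (tau (Multiplicative.toAdd a)) =
      ∑ v : Fin k → F, fx K (tau v) :=
    Equiv.sum_comp (Multiplicative.toAdd) (fun v : Fin k → F => fx K (tau v))
  rw [Finset.sum_congr rfl (fun a _ => h1 a), h2, hc] at hB
  rw [← Finset.add_sum_erase _ _ (Finset.mem_univ (0 : Fin k → F)), tau_zero] at hB
  have h3 : ∀ v ∈ Finset.univ.erase (0 : Fin k → F), fx K (tau v) = f :=
    fun v hv => fx_tau K hk (Finset.ne_of_mem_erase hv) hv₀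
  have h4 : fx K (1 : SL(k + 1, F)) = K.index := by
    rw [fx, Subgroup.index]
    apply Nat.card_congr
    exact ⟨fun x => x.1, fun x => ⟨x, one_smul _ _⟩, fun x => rfl, fun x => rfl⟩
  rw [Finset.sum_congr rfl h3, Finset.sum_const, Finset.card_erase_of_mem (Finset.mem_univ _),
    Finset.card_univ, smul_eq_mul, h4] at hB
  have h5 : Fintype.card (Fin k → F) = Q := by simp [hQ]
  rw [h5] at hB
  -- `f` is not the index
  have hne : f ≠ K.index := by
    intro h6
    have h7 : ∀ v, tau v ∈ K.normalCore := by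
      intro v
      change ∀ g, g * tau v * g⁻¹ ∈ K
      intro g
      by_cases hv : v = 0
      · subst hv
        rw [tau_zero]
        simp [K.one_mem]
      · have h8 : fx K (tau v) = K.index := by rw [fx_tau K hk hv hv₀]; exact h6
        have h9 := fx_eq_index K h8 (QuotientGroup.mk g⁻¹)
        rw [MulAction.Quotient.smul_mk, QuotientGroup.eq] at h9
        simpa [mul_assoc] using (K.inv_mem h9)
    have h8 := normal_eq_top_of_tau (by omega) K.normalCore h7
    apply hK
    rw [eq_top_iff, ← h8]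
    exact Subgroup.normalCore_le K
  have hle : f ≤ K.index := fx_le K _
  obtain ⟨e, he⟩ : ∃ e, K.index = f + e := ⟨K.index - f, by omega⟩
  have he0 : 0 < e := by omega
  rw [he] at hB
  have h6 : e + Q * f = N * Q := by
    obtain ⟨Q', hQ'⟩ : ∃ Q', Q = Q' + 1 := ⟨Q - 1, by omega⟩
    rw [hQ'] at hB ⊢
    simp only [Nat.add_sub_cancel] at hB
    nlinarith
  have h7 : f ≤ N := by
    by_contra hcon
    push Not at hcon
    have : N * Q ≤ f * Q := Nat.mul_le_mul_right _ hcon.le
    nlinarith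
  obtain ⟨b, hb⟩ : ∃ b, N = f + b := ⟨N - f, by omega⟩
  have h8 : e = Q * b := by
    rw [hb] at h6
    nlinarith
  refine ⟨b, ?_, ?_⟩
  · rw [Nat.one_le_iff_ne_zero]
    rintro rfl
    omega
  · rw [he, h8]

/-- When the index is `q^k`, the subgroup contains no transvection. -/
theorem not_mem_of_index (hk : 2 ≤ k) (hK : K ≠ ⊤) (hm : K.index = Fintype.card F ^ k)
    {t : SL(k + 1, F)} (ht : t ∈ TT k F) : t ∉ K := by
  intro hmem
  have hv₀ : (Pi.single ⟨0, by omega⟩ 1 : Fin k → F) ≠ 0 := by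
    intro h0
    have := congrFun h0 ⟨0, by omega⟩
    simp at this
  obtain ⟨b, hb, h⟩ := index_eq hk hK hv₀
  have h1 := fx_pos_of_mem K hmem
  rw [fx_of_TT K hk ht hv₀] at h1
  have hQ : 0 < Fintype.card F ^ k := pow_pos Fintype.card_pos _
  have h2 : Fintype.card F ^ k ≤ Fintype.card F ^ k * b := Nat.le_mul_of_pos_right _ hb
  omega

/-- Cardinality of `SL`. -/
lemma card_SL (n : ℕ) [NeZero n] :
    (Fintype.card F - 1) * Nat.card (SL(n, F)) = ∏ i : Fin n, (Fintype.card F ^ n - Fintype.card F ^ i.1) := by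
  haveI : Nonempty (Fin n) := ⟨0⟩
  rw [← Cfsg.Agent.Lib.ClassicalCore.card_GL_eq_mul_card_SL]
  exact Matrix.card_GL_field n

/-- An involution of `SL_3` in characteristic two is a transvection. -/
theorem mem_TT_of_sq (hc : (2 : F) = 0) {g : SL(2 + 1, F)} (hg : g * g = 1) (hg1 : g ≠ 1) :
    g ∈ TT 2 F := by
  classical
  -- `N = g - 1`
  set N : Matrix (Fin 3) (Fin 3) F := g.1 - 1 with hN
  have hN2 : N * N = 0 := by
    have h1 : g.1 * g.1 = 1 := by
      have := congrArg Subtype.val hg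
      simpa using this
    have h2 : N * N = g.1 * g.1 - (2 : F) • g.1 + 1 := by
      rw [hN, sub_mul, mul_sub, mul_sub, two_smul]
      simp only [mul_one, one_mul]
      abel
    rw [h2, h1, hc, zero_smul, sub_zero]
    have h3 : (1 : Matrix (Fin 3) (Fin 3) F) + 1 = (2 : F) • 1 := by rw [two_smul]
    rw [h3, hc, zero_smul]
  have hN0 : N ≠ 0 := by
    intro h0
    apply hg1
    apply Subtype.ext
    have := sub_eq_zero.1 h0
    simpa using this
  -- the rank
  let T : (Fin 3 → F) →ₗ[F] (Fin 3 → F) := Matrix.mulVecLin N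
  have hT : ∀ v, T (T v) = 0 := by
    intro v
    change N *ᵥ (N *ᵥ v) = 0
    rw [Matrix.mulVec_mulVec, hN2, Matrix.zero_mulVec]
  have hr := LinearMap.finrank_range_add_finrank_ker T
  have hle : LinearMap.range T ≤ LinearMap.ker T := by
    rintro _ ⟨v, rfl⟩
    exact hT v
  have hle2 := Submodule.finrank_mono hle
  rw [Module.finrank_fin_fun] at hr
  have hr1 : Module.finrank F (LinearMap.range T) ≤ 1 := by omega
  obtain ⟨a, ha⟩ := finrank_le_one_iff.1 hr1
  -- the coefficients
  have hcoef : ∀ j : Fin 3, ∃ c : F, N *ᵥ Pi.single j 1 = c • a.1 := by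
    intro j
    obtain ⟨c, hc'⟩ := ha ⟨T (Pi.single j 1), ⟨_, rfl⟩⟩
    refine ⟨c, ?_⟩
    have := congrArg Subtype.val hc'
    exact this.symm
  choose x hx using hcoef
  have hNeq : N = vecMulVec a.1 x := by
    ext i j
    have h1 := congrFun (hx j) i
    simp only [Matrix.mulVec_single_one, Matrix.col_apply, Pi.smul_apply, smul_eq_mul] at h1
    rw [h1, vecMulVec_apply, mul_comm]
  have ha0 : a.1 ≠ 0 := by
    intro h0
    apply hN0
    rw [hNeq, h0]
    ext i j
    simp [vecMulVec_apply]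
  have hx0 : x ≠ 0 := by
    intro h0
    apply hN0
    rw [hNeq, h0]
    ext i j
    simp [vecMulVec_apply]
  have hax : x ⬝ᵥ a.1 = 0 := by
    have h1 : N * N = (x ⬝ᵥ a.1) • N := by
      rw [hNeq]
      ext i j
      simp only [Matrix.mul_apply, vecMulVec_apply, Matrix.smul_apply, smul_eq_mul, dotProduct]
      rw [Finset.sum_mul]
      refine Finset.sum_congr rfl fun l _ => ?_
      ring
    rw [hN2] at h1
    exact (smul_eq_zero.1 h1.symm).resolve_right hN0
  refine mem_TT.2 ⟨a.1, x, ha0, hx0, hax, ?_⟩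
  apply Subtype.ext
  rw [tt_coe hax, ← hNeq, hN]
  simp

/-- No subgroup of even order and index `q²` in `SL_3` in characteristic two. -/
theorem false_of_even (hc : (2 : F) = 0) (K : Subgroup SL(2 + 1, F)) (hK : K ≠ ⊤)
    (hm : K.index = Fintype.card F ^ 2) (h2 : 2 ∣ Nat.card K) : False := by
  haveI : Fact (Nat.Prime 2) := ⟨Nat.prime_two⟩
  obtain ⟨x, hx⟩ := exists_prime_orderOf_dvd_card' 2 h2
  have h3 : x.1 * x.1 = 1 := by
    have := pow_orderOf_eq_one x
    rw [hx, pow_two] at this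
    exact congrArg Subtype.val this
  have h4 : x.1 ≠ 1 := by
    intro h0
    have h5 : x = 1 := Subtype.ext h0
    rw [h5, orderOf_one] at hx
    omega
  exact not_mem_of_index (by omega) hK hm (mem_TT_of_sq hc h3 h4) x.2

lemma index_ge (hk : 2 ≤ k) (K : Subgroup SL(k + 1, F)) (hK : K ≠ ⊤) : Fintype.card F ^ k ≤ K.index := by
  have hv₀ : (Pi.single ⟨0, by omega⟩ 1 : Fin k → F) ≠ 0 := by
    intro h0
    have := congrFun h0 ⟨0, by omega⟩
    simp at this
  obtain ⟨b, hb, h⟩ := index_eq hk hK hv₀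
  have h2 : Fintype.card F ^ k ≤ Fintype.card F ^ k * b := Nat.le_mul_of_pos_right _ hb
  omega

/-- The case of `SL_3(2)`. -/
theorem case_two (hq : Fintype.card F = 2) (K : Subgroup SL(2 + 1, F)) (hK : K ≠ ⊤) : 7 ≤ K.index := by
  by_contra hcon
  push Not at hcon
  have hc : (2 : F) = 0 := by
    have h1 := FiniteField.cast_card_eq_zero F
    rw [hq] at h1
    exact_mod_cast h1
  have h1 : Nat.card (SL(2 + 1, F)) = 168 := by
    have := card_SL (F := F) 3
    rw [hq] at this
    simpa [Fin.prod_univ_three] using this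
  have h2 := index_ge (by omega) K hK
  rw [hq] at h2
  have h3 := index_mul_dvd (degBd_rad (F := F) (k := 2) (by omega)) K hK (by rw [hq]; omega)
  rw [h1] at h3
  have h4 := Subgroup.card_mul_index K
  rw [h1] at h4
  have h5 : K.index = 4 := by
    generalize K.index = m at *
    interval_cases m <;> first | rfl | (exfalso; revert h3; decide)
  apply false_of_even hc K hK (by rw [hq, h5]; norm_num)
  rw [h5] at h4
  omega

/-- The case of `SL_3(4)`. -/
theorem case_four (hq : Fintype.card F = 4) (K : Subgroup SL(2 + 1, F)) (hK : K ≠ ⊤) : 21 ≤ K.index := by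
  by_contra hcon
  push Not at hcon
  have hc : (2 : F) = 0 := by
    have h1 := FiniteField.cast_card_eq_zero F
    rw [hq] at h1
    have h2 : (2 : F) * 2 = 0 := by
      rw [← h1]; norm_num
    exact mul_self_eq_zero.1 h2
  have h1 : Nat.card (SL(2 + 1, F)) = 60480 := by
    have h1' : Nat.card (SL(3, F)) = 60480 := by
      have := card_SL (F := F) 3
      rw [hq] at this
      simp [Fin.prod_univ_three] at this
      rw [Nat.card_eq_fintype_card]
      omega
    exact h1'
  have h2 := index_ge (by omega) K hK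
  rw [hq] at h2
  have h3 := index_mul_dvd (degBd_rad (F := F) (k := 2) (by omega)) K hK (by rw [hq]; omega)
  rw [h1] at h3
  have h4 := Subgroup.card_mul_index K
  rw [h1] at h4
  have h5 : K.index = 16 := by
    generalize K.index = m at *
    interval_cases m <;> first | rfl | (exfalso; revert h3; decide)
  apply false_of_even hc K hK (by rw [hq, h5]; norm_num)
  rw [h5] at h4
  omega

section three

/-- The elementary vectors. -/
def e₀ : Fin 3 → F := Pi.single 0 1
def e₁ : Fin 3 → F := Pi.single 1 1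
def e₂ : Fin 3 → F := Pi.single 2 1

noncomputable def x12 : SL(3, F) := tt e₀ e₁
noncomputable def x13 : SL(3, F) := tt e₀ e₂
noncomputable def x23 : SL(3, F) := tt e₁ e₂

noncomputable def dd1 : SL(3, F) :=
  ⟨Matrix.diagonal ![-1, -1, 1], by simp [Matrix.det_diagonal, Fin.prod_univ_three]⟩

lemma h01 : (e₁ : Fin 3 → F) ⬝ᵥ e₀ = 0 := by simp [e₀, e₁, dotProduct, Fin.sum_univ_three]
lemma h02 : (e₂ : Fin 3 → F) ⬝ᵥ e₀ = 0 := by simp [e₀, e₂, dotProduct, Fin.sum_univ_three]
lemma h12 : (e₂ : Fin 3 → F) ⬝ᵥ e₁ = 0 := by simp [e₁, e₂, dotProduct, Fin.sum_univ_three]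

lemma x12_mv (v : Fin 3 → F) : x12.1 *ᵥ v = v + (v 1) • e₀ := by
  rw [x12, tt_mulVec h01]
  simp [e₁, dotProduct, Fin.sum_univ_three]

lemma x13_mv (v : Fin 3 → F) : x13.1 *ᵥ v = v + (v 2) • e₀ := by
  rw [x13, tt_mulVec h02]
  simp [e₂, dotProduct, Fin.sum_univ_three]

lemma x23_mv (v : Fin 3 → F) : x23.1 *ᵥ v = v + (v 2) • e₁ := by
  rw [x23, tt_mulVec h12]
  simp [e₂, dotProduct, Fin.sum_univ_three]

lemma dd1_mv (v : Fin 3 → F) : dd1.1 *ᵥ v = ![- v 0, - v 1, v 2] := by
  funext i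
  fin_cases i <;> simp [dd1, Matrix.mulVec_diagonal]

lemma sl3_ext {A B : SL(3, F)} (h : ∀ v : Fin 3 → F, A.1 *ᵥ v = B.1 *ᵥ v) : A = B := by
  apply Subtype.ext
  exact Matrix.ext_of_mulVec_single (fun i => h _) 

lemma rel_comm : (x12 : SL(3, F)) * x13 = x13 * x12 := by
  apply sl3_ext
  intro v
  simp only [Matrix.SpecialLinearGroup.coe_mul, ← Matrix.mulVec_mulVec, x12_mv, x13_mv]
  funext i
  fin_cases i <;> simp [e₀] <;> ring

lemma rel_three : (x12 : SL(3, F)) * x23 = x13 * x23 * x12 := by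
  apply sl3_ext
  intro v
  simp only [Matrix.SpecialLinearGroup.coe_mul, ← Matrix.mulVec_mulVec, x12_mv, x13_mv, x23_mv]
  funext i
  fin_cases i <;> simp [e₀, e₁] <;> ring

lemma rel_d : (dd1 : SL(3, F)) * x12 = x12 * dd1 := by
  apply sl3_ext
  intro v
  simp only [Matrix.SpecialLinearGroup.coe_mul, ← Matrix.mulVec_mulVec, x12_mv, dd1_mv]
  funext i
  fin_cases i <;> simp [e₀] <;> ring

variable (K : Subgroup SL(3 + 1, F))

lemma tau_mul_hat (a b : Fin 3 → F) (A B : SL(3, F)) :
    (tau a * hat A) * (tau b * hat B) = tau (a + A.1 *ᵥ b) * hat (A * B) := by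
  rw [hat_mul, tau_add]
  have := hat_mul_tau A b
  calc tau a * hat A * (tau b * hat B) = tau a * (hat A * tau b) * hat B := by group
    _ = tau a * (tau (A.1 *ᵥ b) * hat A) * hat B := by rw [this]
    _ = _ := by group

variable {K} (hT : ∀ t ∈ TT 3 F, t ∉ K)

include hT

lemma uniq {a b : Fin 3 → F} {A : SL(3, F)} (ha : tau a * hat A ∈ K) (hb : tau b * hat A ∈ K) : a = b := by
  by_contra hne
  have h1 : a - b ≠ 0 := sub_ne_zero.2 hne
  apply hT _ (tau_mem_TT h1)
  have h2 := K.mul_mem ha (K.inv_mem hb)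
  have h3 : tau a * hat A * (tau b * hat A)⁻¹ = tau (a - b) := by
    have h4 : tau a = tau (a - b) * tau b := by
      rw [← tau_add]; simp
    rw [_root_.mul_inv_rev, mul_assoc, mul_inv_cancel_left, h4, mul_inv_cancel_right]
  rwa [h3] at h2

/-- The contradiction: the subgroup would contain a transvection. -/
theorem false_of_lifts (hc : (2 : F) ≠ 0) (hS : ∀ g : SL(3 + 1, F), ∃ v : Fin 3 → F, tau v * g ∈ K) : False := by
  obtain ⟨p, hp⟩ := hS (hat x12)
  obtain ⟨r, hr⟩ := hS (hat x13)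
  obtain ⟨s, hs⟩ := hS (hat x23)
  obtain ⟨u, hu⟩ := hS (hat dd1)
  -- the relations
  have R8 : p + x12.1 *ᵥ r = r + x13.1 *ᵥ p := by
    have h1 := K.mul_mem hp hr
    have h2 := K.mul_mem hr hp
    rw [tau_mul_hat] at h1 h2
    rw [rel_comm] at h1
    exact uniq hT h1 h2
  have R7 : p + x12.1 *ᵥ s = r + x13.1 *ᵥ s + (x13 * x23 : SL(3, F)).1 *ᵥ p := by
    have h1 := K.mul_mem hp hs
    have h2 := K.mul_mem (K.mul_mem hr hs) hp
    rw [tau_mul_hat] at h1 h2
    rw [tau_mul_hat] at h2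
    rw [rel_three] at h1
    exact uniq hT h1 h2
  have R4 : u + dd1.1 *ᵥ p = p + x12.1 *ᵥ u := by
    have h1 := K.mul_mem hu hp
    have h2 := K.mul_mem hp hu
    rw [tau_mul_hat] at h1 h2
    rw [rel_d] at h1
    exact uniq hT h1 h2
  -- components
  have c8 := congrFun R8 0
  have c7 := congrFun R7 1
  have c4 := congrFun R4 1
  rw [Matrix.SpecialLinearGroup.coe_mul, ← Matrix.mulVec_mulVec] at c7
  simp only [Pi.add_apply, x12_mv, x13_mv, x23_mv, dd1_mv, Pi.smul_apply, smul_eq_mul] at c8 c7 c4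
  simp [e₀, e₁] at c8 c7 c4
  have hp1 : p 1 = 0 := by
    have h1 : (2 : F) * p 1 = 0 := by linear_combination -c4
    exact (mul_eq_zero.1 h1).resolve_left hc
  have hp2 : p 2 = 0 := by
    have h1 : (2 : F) * p 2 = 0 := by linear_combination -c7 - c8
    exact (mul_eq_zero.1 h1).resolve_left hc
  -- the transvection
  set a : Fin (3 + 1) → F := sn e₀ 0 with ha
  set y : Fin (3 + 1) → F := sn e₁ 0 with hy
  have hpe : sn p 0 = p 0 • a := by
    apply sn_ext
    · intro i
      simp only [Pi.smul_apply, smul_eq_mul, ha, sn_castSucc]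
      fin_cases i <;> simp [e₀, hp1, hp2]
    · simp only [Pi.smul_apply, smul_eq_mul, ha, sn_last, mul_zero]
  have halast : a (Fin.last 3) = 0 := by rw [ha, sn_last]
  have hdot1 : (p 0 • (ln : Fin (3 + 1) → F)) ⬝ᵥ a = 0 := by
    rw [smul_dotProduct, ln_dot, halast, smul_zero]
  have hdot2 : y ⬝ᵥ a = 0 := by
    rw [hy, ha, dot_sn, h01]
    simp
  have h1 : tau p * hat x12 = tt a (p 0 • ln + y) := by
    rw [tau_eq, x12, hat_tt, hpe, tt_smul, ← ha, ← hy, tt_add_right hdot1 hdot2]
  apply hT _ _ hp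
  rw [h1]
  refine mem_TT.2 ⟨a, _, ?_, ?_, ?_, rfl⟩
  · intro h0
    have := congrFun h0 (Fin.castSucc (0 : Fin 3))
    rw [ha, sn_castSucc] at this
    simp [e₀] at this
  · intro h0
    have := congrFun h0 (Fin.castSucc (1 : Fin 3))
    simp only [Pi.add_apply, Pi.smul_apply, smul_eq_mul, ln, hy, sn_castSucc] at this
    simp [e₁] at this
  · rw [add_dotProduct, hdot1, hdot2, add_zero]

end three

/-- Every element lifts when the index is `q^k`. -/
lemma lifts (hk : 2 ≤ k) (K : Subgroup SL(k + 1, F)) (hT : ∀ t ∈ TT k F, t ∉ K)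
    (hm : K.index = Fintype.card F ^ k) (g : SL(k + 1, F)) : ∃ v : Fin k → F, tau v * g ∈ K := by
  classical
  haveI : Fintype (SL(k + 1, F) ⧸ K) := Fintype.ofFinite _
  have hidx : K.index = Fintype.card (SL(k + 1, F) ⧸ K) := by
    rw [Subgroup.index, Nat.card_eq_fintype_card]
  let f : (Fin k → F) → SL(k + 1, F) ⧸ K := fun w => QuotientGroup.mk (tau w)
  have hinj : Function.Injective f := by
    intro w w' h
    by_contra hne
    have h1 : w' - w ≠ 0 := sub_ne_zero.2 (Ne.symm hne)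
    apply hT _ (tau_mem_TT h1)
    have h2 := QuotientGroup.eq.1 h
    have h3 : (tau w)⁻¹ * tau w' = tau (w' - w) := by
      have h4 : tau w' = tau w * tau (w' - w) := by
        rw [← tau_add]; simp
      rw [h4, inv_mul_cancel_left]
    rwa [h3] at h2
  have hbij : Function.Bijective f := by
    rw [Fintype.bijective_iff_injective_and_card]
    refine ⟨hinj, ?_⟩
    rw [← hidx, hm]
    simp
  obtain ⟨w, hw⟩ := hbij.2 (QuotientGroup.mk g)
  have h2 := QuotientGroup.eq.1 hw
  refine ⟨-w, ?_⟩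
  have h3 : (tau w)⁻¹ = tau (-w) := by
    rw [eq_comm, eq_inv_iff_mul_eq_one, ← tau_add]
    simp [tau_zero]
  rwa [h3] at h2

/-- The case of `SL_4(3)`. -/
theorem case_three (hq : Fintype.card F = 3) (K : Subgroup SL(3 + 1, F)) (hK : K ≠ ⊤) : 40 ≤ K.index := by
  by_contra hcon
  push Not at hcon
  have hc : (2 : F) ≠ 0 := by
    intro h0
    have h1 := FiniteField.cast_card_eq_zero F
    rw [hq] at h1
    have h2 : (3 : F) = 2 + 1 := by norm_num
    push_cast at h1
    rw [h2, h0, zero_add] at h1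
    exact one_ne_zero h1
  have h1 : Nat.card (SL(3 + 1, F)) = 12130560 := by
    have h1' : Nat.card (SL(4, F)) = 12130560 := by
      have := card_SL (F := F) 4
      rw [hq] at this
      simp [Fin.prod_univ_four] at this
      rw [Nat.card_eq_fintype_card]
      omega
    exact h1'
  have h2 := index_ge (by omega) K hK
  rw [hq] at h2
  have h3 := index_mul_dvd (degBd_rad (F := F) (k := 3) (by omega)) K hK (by rw [hq]; omega)
  rw [h1] at h3
  have h5 : K.index = 27 := by
    generalize K.index = m at *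
    interval_cases m <;> first | rfl | (exfalso; revert h3; decide)
  have h6 : K.index = Fintype.card F ^ 3 := by rw [hq, h5]; norm_num
  have hT : ∀ t ∈ TT 3 F, t ∉ K := fun t ht => not_mem_of_index (by omega) hK h6 ht
  exact false_of_lifts hT hc (lifts (by omega) K hT h6)

end sl

end Cfsg.Agent.Lib.MinIdxA
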