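import Mathlib
import Cfsg.Agent.Lib.Monomial
import Cfsg.Agent.Lib.CharKernel

/-!
# Nilpotent groups with a faithful character of degree `n` have an abelian subgroup of index dividing `n!`
-/

set_option autoImplicit false

namespace Cfsg.Agent.Lib.MonoAbel

open Cfsg Cfsg.Agent.Lib.CharBasic Cfsg.Agent.Lib.CharInd Cfsg.Agent.Lib.CharKernel
  Cfsg.Agent.Lib.Monomial

universe u

variable {X : Type u} [Group X] [Finite X]

theorem index_normalCore_dvd (F : Subgroup X) : F.normalCore.index ∣ (F.index).factorial := by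
  classical
  letI := Fintype.ofFinite X
  letI : Fintype (X ⧸ F) := Fintype.ofFinite _
  have h1 : F.normalCore = (MulAction.toPermHom X (X ⧸ F)).ker := F.normalCore_eq_ker
  rw [h1, Subgroup.index_ker]
  have h2 : Nat.card (MulAction.toPermHom X (X ⧸ F)).range ∣ Nat.card (Equiv.Perm (X ⧸ F)) :=
    Subgroup.card_subgroup_dvd_card _
  have h3 : Nat.card (Equiv.Perm (X ⧸ F)) = (F.index).factorial := by
    rw [Nat.card_eq_fintype_card, Fintype.card_perm, Subgroup.index_eq_card, Nat.card_eq_fintype_card]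
  rwa [h3] at h2

theorem index_iInf_dvd {ι : Type*} (s : Finset ι) (C : ι → Subgroup X) (hC : ∀ i, (C i).Normal) :
    (s.inf C).index ∣ ∏ i ∈ s, (C i).index := by
  classical
  induction s using Finset.induction_on with
  | empty => simp
  | insert a s ha ih =>
    rw [Finset.inf_insert, Finset.prod_insert ha]
    have h1 : ((C a) ⊓ s.inf C).index = ((C a).relIndex (s.inf C)) * (s.inf C).index := by
      rw [← Subgroup.inf_relIndex_right, Subgroup.relIndex_mul_index inf_le_right]
    rw [h1]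
    haveI := hC a
    exact Nat.mul_dvd_mul (Subgroup.relIndex_dvd_index_of_normal _ _) ih

theorem indFun_comm_eq [Fintype X] {F : Subgroup X} (μ : F →* ℂˣ) {a b : X} (ha : a ∈ F.normalCore)
    (hb : b ∈ F.normalCore) :
    indFun F (fun e => ((μ e : ℂˣ) : ℂ)) (a * b * a⁻¹ * b⁻¹) =
      indFun F (fun e => ((μ e : ℂˣ) : ℂ)) 1 := by
  classical
  rw [indFun_apply, indFun_apply]
  congr 1
  refine Finset.sum_congr rfl fun x _ => ?_
  have hcore : ∀ c ∈ F.normalCore, x⁻¹ * c * x ∈ F := by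
    intro c hc
    have h1 := (Subgroup.normalCore_normal F).conj_mem c hc x⁻¹
    rw [inv_inv] at h1
    exact Subgroup.normalCore_le F h1
  have hu := hcore a ha
  have hv := hcore b hb
  have h1 : x⁻¹ * (a * b * a⁻¹ * b⁻¹) * x =
      (x⁻¹ * a * x) * (x⁻¹ * b * x) * (x⁻¹ * a * x)⁻¹ * (x⁻¹ * b * x)⁻¹ := by group
  have hmem : (x⁻¹ * a * x) * (x⁻¹ * b * x) * (x⁻¹ * a * x)⁻¹ * (x⁻¹ * b * x)⁻¹ ∈ F :=
    F.mul_mem (F.mul_mem (F.mul_mem hu hv) (F.inv_mem hu)) (F.inv_mem hv)
  have h2 : x⁻¹ * 1 * x = 1 := by group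
  rw [h1, h2, extendByZero_of_mem F _ hmem, extendByZero_of_mem F _ F.one_mem]
  have h3 : (⟨_, hmem⟩ : F) = (⟨_, hu⟩ : F) * ⟨_, hv⟩ * (⟨_, hu⟩ : F)⁻¹ * (⟨_, hv⟩ : F)⁻¹ := rfl
  rw [h3]
  simp only [map_mul, map_inv]
  have h4 : ((μ ⟨_, hu⟩ * μ ⟨_, hv⟩ * (μ ⟨_, hu⟩)⁻¹ * (μ ⟨_, hv⟩)⁻¹ : ℂˣ)) = 1 := by
    rw [mul_comm (μ ⟨_, hu⟩) (μ ⟨_, hv⟩)]
    group
  rw [h4]
  have h5 : μ (⟨1, F.one_mem⟩ : F) = 1 := map_one μ
  rw [h5]

/-- A finite nilpotent group with a faithful character of degree `n` has an abelian subgroup whose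
index divides `n!`. -/
theorem exists_abelian_sub [Group.IsNilpotent X] {χ : X → ℂ} (hχ : IsCharacter X χ)
    (hf : ∀ g, χ g = χ 1 → g = 1) :
    ∃ D : Subgroup X, (∀ a ∈ D, ∀ b ∈ D, a * b = b * a) ∧ D.index ∣ (charDegree χ).factorial := by
  classical
  letI := Fintype.ofFinite X
  obtain ⟨m, hm⟩ := exists_nat_decomp hχ
  have hmono : ∀ i : IrrCharacter X, ∃ (F : Subgroup X) (μ : F →* ℂˣ),
      (i : X → ℂ) = indFun F (fun e => ((μ e : ℂˣ) : ℂ)) := fun i =>
    exists_monomial _ X _ rfl i.2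
  choose F μ hF using hmono
  let S : Finset (IrrCharacter X) := Finset.univ.filter (fun i => m i ≠ 0)
  let D : Subgroup X := S.inf (fun i => (F i).normalCore)
  have hdeg : ∀ i : IrrCharacter X, charDegree (i : X → ℂ) = (F i).index := by
    intro i
    have h1 : (i : X → ℂ) 1 = ((F i).index : ℂ) := by
      rw [hF i, indFun_apply]
      have h2 : ∀ x : X, extendByZero (F i) (fun e => ((μ i e : ℂˣ) : ℂ)) (x⁻¹ * 1 * x) = 1 := by
        intro x
        have h3 : x⁻¹ * 1 * x = 1 := by group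
        rw [h3, extendByZero_of_mem (F i) _ (F i).one_mem]
        have h5 : μ i (⟨1, (F i).one_mem⟩ : F i) = 1 := map_one _
        rw [h5]
        simp
      rw [Finset.sum_congr rfl (fun x _ => h2 x)]
      simp only [Finset.sum_const, Finset.card_univ, nsmul_eq_mul, mul_one]
      rw [← Nat.card_eq_fintype_card, ← Subgroup.card_mul_index (F i)]
      push_cast
      have : (Nat.card (F i) : ℂ) ≠ 0 := by exact_mod_cast Nat.card_pos.ne'
      field_simp
    have h2 := one_eq_charDegree (IsIrrCharacter.isCharacter i.2)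
    rw [h1] at h2
    exact_mod_cast h2.symm
  refine ⟨D, ?_, ?_⟩
  · intro a ha b hb
    have hg : χ (a * b * a⁻¹ * b⁻¹) = χ 1 := by
      rw [hm]
      simp only [Finset.sum_apply, Pi.smul_apply]
      refine Finset.sum_congr rfl fun i _ => ?_
      by_cases hi : m i = 0
      · rw [hi]; simp
      · have hS : i ∈ S := by simp [S, hi]
        have ha' : a ∈ (F i).normalCore := (Finset.inf_le hS : D ≤ _) ha
        have hb' : b ∈ (F i).normalCore := (Finset.inf_le hS : D ≤ _) hb
        congr 1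
        rw [hF i]
        exact indFun_comm_eq (μ i) ha' hb'
    have h1 := hf _ hg
    have h2 : a * b * a⁻¹ = b := by
      rw [mul_inv_eq_one] at h1
      exact h1
    rw [mul_inv_eq_iff_eq_mul] at h2
    exact h2
  · have h1 : D.index ∣ ∏ i ∈ S, ((F i).normalCore).index :=
      index_iInf_dvd S _ (fun i => Subgroup.normalCore_normal _)
    have h2 : ∏ i ∈ S, ((F i).normalCore).index ∣ ∏ i ∈ S, (charDegree (i : X → ℂ)).factorial := by
      refine Finset.prod_dvd_prod_of_dvd _ _ fun i _ => ?_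
      rw [hdeg i]
      exact index_normalCore_dvd _
    have h3 : ∏ i ∈ S, (charDegree (i : X → ℂ)).factorial ∣
        (∑ i ∈ S, charDegree (i : X → ℂ)).factorial := Nat.prod_factorial_dvd_factorial_sum _ _
    have h4 : ∑ i ∈ S, charDegree (i : X → ℂ) ≤ charDegree χ := by
      have h5 : (charDegree χ : ℂ) = ((∑ i, m i * charDegree (i : X → ℂ) : ℕ) : ℂ) := by
        rw [← one_eq_charDegree hχ, hm]
        simp only [Finset.sum_apply, Pi.smul_apply]
        push_cast
        refine Finset.sum_congr rfl fun i _ => ?_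
        rw [one_eq_charDegree (IsIrrCharacter.isCharacter i.2)]
        simp
      have h6 : charDegree χ = ∑ i, m i * charDegree (i : X → ℂ) := by exact_mod_cast h5
      rw [h6]
      calc ∑ i ∈ S, charDegree (i : X → ℂ) ≤ ∑ i ∈ S, m i * charDegree (i : X → ℂ) := by
            refine Finset.sum_le_sum fun i hi => ?_
            have hi' : m i ≠ 0 := by simpa [S] using hi
            exact Nat.le_mul_of_pos_left _ (Nat.pos_of_ne_zero hi')
        _ ≤ _ := Finset.sum_le_sum_of_subset_of_nonneg (Finset.subset_univ _) (fun _ _ _ => Nat.zero_le _)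
    exact h1.trans (h2.trans (h3.trans (Nat.factorial_dvd_factorial h4)))

end Cfsg.Agent.Lib.MonoAbel
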