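import Mathlib
import Cfsg.Prelude.Def_MonsterType
import Cfsg.Agent.Lib.LargeQuot
import Cfsg.Agent.Lib.CharTwoLocal

/-!
# A criterion for Baby Monster type, in terms of a central extension of the centralizer of an involution.
-/

set_option autoImplicit false

open Cfsg

namespace Cfsg.Agent.Lib.MonsterBabyB

/-- The data of a cover `π : L → C(zb)` with kernel `⟨τ⟩`. -/
structure Cover {H : Type*} [Group H] (zb : H) {L : Type*} [Group L]
    (π : L →* Subgroup.centralizer ({zb} : Set H)) (τ ζ : L) (F₁ : L →* Spor.Co2) (Rl : Subgroup L)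
    (Rp : leechPerpU → L → Prop) : Prop where
  π_surj : Function.Surjective π
  π_ker : ∀ x, π x = 1 ↔ x = 1 ∨ x = τ
  π_ζ : ((π ζ : Subgroup.centralizer ({zb} : Set H)) : H) = zb
  F_surj : Function.Surjective F₁
  F_ker : ∀ x, F₁ x = 1 ↔ x ∈ Rl
  τ_mem : τ ∈ Rl
  ζ_mem : ζ ∈ Rl
  τ_ne : τ ≠ ζ
  τ_one : τ ≠ 1
  ζ_ne : ζ ≠ 1
  ζ_sq : ζ * ζ = 1
  card : Nat.card Rl = 2 ^ 24
  comm : ∀ a ∈ Rl, ∀ b ∈ Rl, a * b * a⁻¹ * b⁻¹ = 1 ∨ a * b * a⁻¹ * b⁻¹ = ζ
  sq : ∀ a ∈ Rl, a ^ 2 = 1 ∨ a ^ 2 = ζ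
  cen : ∀ a ∈ Rl, (∀ b ∈ Rl, a * b = b * a) → a = 1 ∨ a = τ ∨ a = ζ ∨ a = τ * ζ
  non : ∃ a ∈ Rl, ∃ b ∈ Rl, a * b ≠ b * a
  hO : ∀ P : Subgroup Spor.Co2, P.Normal → IsPGroup 2 P → P = ⊥
  hC : ∀ x, (∀ q ∈ Rl, x * q * x⁻¹ * q⁻¹ = 1 ∨ x * q * x⁻¹ * q⁻¹ = τ) → x ∈ Rl
  weak : ∃ g : H, ∃ q ∈ Rl, g * zb * g⁻¹ = ((π q : Subgroup.centralizer ({zb} : Set H)) : H) ∧
    g * zb * g⁻¹ ≠ zb
  rp_ex : ∀ x, ∃ q, Rp x q
  rp_mem : ∀ x q, Rp x q → q ∈ Rl
  rp_add : ∀ x y q r, Rp x q → Rp y r → Rp (x + y) (q * r)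
  rp_surj : ∀ q ∈ Rl, ∃ x, Rp x q
  rp_triv : ∀ x q, Rp x q → ((q = 1 ∨ q = τ ∨ q = ζ ∨ q = τ * ζ) ↔
    (∃ w : leechLattice, (x : leechLattice) = w + w) ∨
      ∃ w : leechLattice, (x : leechLattice) = Spor.leechU + (w + w))
  rp_uniq : ∀ x q r, Rp x q → Rp x r → r = q ∨ r = q * ζ
  rp_act : ∀ (x y : leechPerpU) (q h : L), Rp x q → (F₁ h) • (x : leechLattice) = (y : leechLattice) →
    Rp y (h * q * h⁻¹)

variable {H : Type*} [Group H] {zb : H} {L : Type*} [Group L]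
  {π : L →* Subgroup.centralizer ({zb} : Set H)} {τ ζ : L} {F₁ : L →* Spor.Co2} {Rl : Subgroup L}
  {Rp : leechPerpU → L → Prop}

namespace Cover

variable (C : Cover zb π τ ζ F₁ Rl Rp)

include C in
theorem ker_le : π.ker ≤ F₁.ker := by
  intro x hx
  rcases (C.π_ker x).1 hx with rfl | rfl
  · exact one_mem _
  · exact (C.F_ker _).2 C.τ_mem

/-- The map to `Co2`. -/
noncomputable def F : Subgroup.centralizer ({zb} : Set H) →* Spor.Co2 :=
  (π.liftOfSurjective C.π_surj) ⟨F₁, C.ker_le⟩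

theorem F_π (x : L) : C.F (π x) = F₁ x :=
  π.liftOfRightInverse_comp_apply _ _ ⟨F₁, C.ker_le⟩ x

theorem F_surjective : Function.Surjective C.F := by
  intro y
  obtain ⟨x, rfl⟩ := C.F_surj y
  exact ⟨π x, C.F_π x⟩

theorem mem_ker_iff {d : Subgroup.centralizer ({zb} : Set H)} :
    d ∈ C.F.ker ↔ ∃ q ∈ Rl, π q = d := by
  constructor
  · intro hd
    obtain ⟨x, rfl⟩ := C.π_surj d
    refine ⟨x, ?_, rfl⟩
    rw [MonoidHom.mem_ker, C.F_π] at hd
    exact (C.F_ker x).1 hd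
  · rintro ⟨q, hq, rfl⟩
    rw [MonoidHom.mem_ker, C.F_π]
    exact (C.F_ker q).2 hq

/-- Elements of `R`. -/
def toR (q : L) (hq : q ∈ Rl) : C.F.ker := ⟨π q, C.mem_ker_iff.2 ⟨q, hq, rfl⟩⟩

theorem exists_toR (r : C.F.ker) : ∃ (q : L) (hq : q ∈ Rl), r = C.toR q hq := by
  obtain ⟨q, hq, h⟩ := C.mem_ker_iff.1 r.2
  exact ⟨q, hq, Subtype.ext h.symm⟩

theorem toR_mul {q r : L} (hq : q ∈ Rl) (hr : r ∈ Rl) :
    C.toR (q * r) (Rl.mul_mem hq hr) = C.toR q hq * C.toR r hr :=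
  Subtype.ext (map_mul π q r)

theorem toR_eq_one_iff {q : L} (hq : q ∈ Rl) : C.toR q hq = 1 ↔ q = 1 ∨ q = τ := by
  rw [← C.π_ker q]
  exact ⟨fun h => congrArg Subtype.val h, fun h => Subtype.ext h⟩

theorem toR_conj {q r : L} (hq : q ∈ Rl) (hr : r ∈ Rl) :
    C.toR (q * r * q⁻¹ * r⁻¹) (Rl.mul_mem (Rl.mul_mem (Rl.mul_mem hq hr) (Rl.inv_mem hq)) (Rl.inv_mem hr)) =
      C.toR q hq * C.toR r hr * (C.toR q hq)⁻¹ * (C.toR r hr)⁻¹ :=
  Subtype.ext (by simp [toR])

theorem toR_pow {q : L} (hq : q ∈ Rl) (n : ℕ) : C.toR (q ^ n) (Rl.pow_mem hq n) = C.toR q hq ^ n :=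
  Subtype.ext (by simp [toR])

theorem comm_zeta (r : C.F.ker) : r * C.toR ζ C.ζ_mem = C.toR ζ C.ζ_mem * r := by
  apply Subtype.ext
  apply Subtype.ext
  show ((r : Subgroup.centralizer ({zb} : Set H)) : H) * ((π ζ : Subgroup.centralizer ({zb} : Set H)) : H) = ((π ζ : Subgroup.centralizer ({zb} : Set H)) : H) * ((r : Subgroup.centralizer ({zb} : Set H)) : H)
  rw [C.π_ζ]
  exact Subgroup.mem_centralizer_singleton_iff.1 (r : Subgroup.centralizer ({zb} : Set H)).2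

theorem zeta_mem_center : C.toR ζ C.ζ_mem ∈ Subgroup.center C.F.ker := by
  rw [Subgroup.mem_center_iff]
  exact C.comm_zeta

theorem toR_tau : C.toR τ C.τ_mem = 1 := (C.toR_eq_one_iff _).2 (Or.inr rfl)

theorem toR_central_iff {q : L} (hq : q ∈ Rl) :
    C.toR q hq ∈ Subgroup.center C.F.ker ↔ q = 1 ∨ q = τ ∨ q = ζ ∨ q = τ * ζ := by
  constructor
  · intro h
    apply C.cen q hq
    intro b hb
    have h1 := Subgroup.mem_center_iff.1 h (C.toR b hb)
    have h2 : C.toR (q * b * q⁻¹ * b⁻¹) (Rl.mul_mem (Rl.mul_mem (Rl.mul_mem hq hb) (Rl.inv_mem hq)) (Rl.inv_mem hb)) = 1 := by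
      rw [C.toR_conj hq hb, ← h1]
      group
    rcases (C.toR_eq_one_iff _).1 h2 with h3 | h3
    · calc q * b = (q * b * q⁻¹ * b⁻¹) * (b * q) := by group
        _ = b * q := by rw [h3, one_mul]
    · rcases C.comm q hq b hb with h4 | h4
      · rw [h4] at h3
        calc q * b = (q * b * q⁻¹ * b⁻¹) * (b * q) := by group
          _ = b * q := by rw [h4, one_mul]
      · exfalso
        rw [h4] at h3
        exact C.τ_ne h3.symm
  · rintro (rfl | rfl | rfl | rfl)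
    · have : C.toR 1 hq = 1 := (C.toR_eq_one_iff _).2 (Or.inl rfl)
      rw [this]
      exact Subgroup.one_mem _
    · rw [C.toR_tau]
      exact Subgroup.one_mem _
    · exact C.zeta_mem_center
    · rw [C.toR_mul C.τ_mem C.ζ_mem, C.toR_tau, one_mul]
      exact C.zeta_mem_center

theorem isPGroup_ker : IsPGroup 2 C.F.ker := by
  intro r
  obtain ⟨q, hq, rfl⟩ := C.exists_toR r
  refine ⟨2, ?_⟩
  rw [← C.toR_pow hq]
  apply (C.toR_eq_one_iff _).2
  left
  have h4 : q ^ 2 ^ 2 = (q ^ 2) ^ 2 := by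
    rw [← pow_mul]
    norm_num
  rw [h4]
  rcases C.sq q hq with h | h
  · rw [h, one_pow]
  · rw [h, pow_two, C.ζ_sq]

theorem extra [Finite H] : IsExtraspecial 2 C.F.ker := by
  refine Cfsg.Agent.Lib.LargeQuot.extraspecial_of_elements C.isPGroup_ker (C.toR ζ C.ζ_mem) ?_ ?_ ?_ ?_ ?_
  · intro h
    rcases (C.toR_eq_one_iff _).1 h with h1 | h1
    · exact C.ζ_ne h1
    · exact C.τ_ne h1.symm
  · intro a b
    obtain ⟨q, hq, rfl⟩ := C.exists_toR a
    obtain ⟨r, hr, rfl⟩ := C.exists_toR b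
    rw [← C.toR_conj hq hr]
    rcases C.comm q hq r hr with h | h
    · left
      apply (C.toR_eq_one_iff _).2
      exact Or.inl h
    · right
      apply Subtype.ext
      exact congrArg π h
  · intro a
    obtain ⟨q, hq, rfl⟩ := C.exists_toR a
    rw [← C.toR_pow hq]
    rcases C.sq q hq with h | h
    · left
      apply (C.toR_eq_one_iff _).2
      exact Or.inl h
    · right
      apply Subtype.ext
      exact congrArg π h
  · intro a ha
    obtain ⟨q, hq, rfl⟩ := C.exists_toR a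
    have h1 : C.toR q hq ∈ Subgroup.center C.F.ker := Subgroup.mem_center_iff.2 (fun b => (ha b).symm)
    rcases (C.toR_central_iff hq).1 h1 with rfl | rfl | rfl | rfl
    · left
      exact (C.toR_eq_one_iff _).2 (Or.inl rfl)
    · left
      exact C.toR_tau
    · right
      rfl
    · right
      rw [C.toR_mul C.τ_mem C.ζ_mem, C.toR_tau, one_mul]
  · obtain ⟨a, ha, b, hb, hab⟩ := C.non
    refine ⟨C.toR a ha, C.toR b hb, ?_⟩
    rw [← C.toR_conj ha hb]
    intro h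
    rcases (C.toR_eq_one_iff _).1 h with h1 | h1
    · apply hab
      calc a * b = (a * b * a⁻¹ * b⁻¹) * (b * a) := by group
        _ = b * a := by rw [h1, one_mul]
    · rcases C.comm a ha b hb with h2 | h2
      · apply hab
        calc a * b = (a * b * a⁻¹ * b⁻¹) * (b * a) := by group
          _ = b * a := by rw [h2, one_mul]
      · rw [h2] at h1
        exact C.τ_ne h1.symm

theorem card_ker [Finite L] : Nat.card C.F.ker = 2 ^ 23 := by
  have h1 := Cfsg.Agent.Lib.LargeQuot.card_map_mul π Rl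
  have h2 : Rl.map π = C.F.ker := by
    ext d
    rw [C.mem_ker_iff]
    constructor
    · rintro ⟨q, hq, rfl⟩
      exact ⟨q, hq, rfl⟩
    · rintro ⟨q, hq, rfl⟩
      exact ⟨q, hq, rfl⟩
  have h3 : Nat.card ↥(π.ker.subgroupOf Rl) = 2 := by
    rw [Nat.card_eq_two_iff' (1 : π.ker.subgroupOf Rl)]
    refine ⟨⟨⟨τ, C.τ_mem⟩, ?_⟩, ?_, ?_⟩
    · show τ ∈ π.ker
      rw [MonoidHom.mem_ker]
      exact (C.π_ker τ).2 (Or.inr rfl)
    · intro h
      exact C.τ_one (congrArg (fun t : π.ker.subgroupOf Rl => ((t : Rl) : L)) h)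
    · rintro ⟨⟨x, hx⟩, hx'⟩ hne
      have h5 : x ∈ π.ker := hx'
      rw [MonoidHom.mem_ker] at h5
      rcases (C.π_ker x).1 h5 with rfl | rfl
      · exact absurd rfl hne
      · rfl
  rw [h2, h3, C.card] at h1
  omega

/-- The map `ψ`. -/
noncomputable def psi (x : leechPerpU) : C.F.ker ⧸ Subgroup.center C.F.ker :=
  QuotientGroup.mk (C.toR (Classical.choose (C.rp_ex x)) (C.rp_mem _ _ (Classical.choose_spec (C.rp_ex x))))

theorem psi_eq {x : leechPerpU} {q : L} (h : Rp x q) :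
    C.psi x = QuotientGroup.mk (C.toR q (C.rp_mem _ _ h)) := by
  have hs := Classical.choose_spec (C.rp_ex x)
  rcases C.rp_uniq _ _ _ hs h with h1 | h1
  · unfold psi
    congr 2
    exact h1.symm
  · unfold psi
    apply QuotientGroup.eq.2
    have h2 : C.toR q (C.rp_mem _ _ h) = C.toR (Classical.choose (C.rp_ex x)) (C.rp_mem _ _ hs) * C.toR ζ C.ζ_mem := by
      rw [← C.toR_mul]
      congr 1
    rw [h2]
    simpa using C.zeta_mem_center

include C in
/-- The main theorem. -/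
theorem baby [Finite H] [Finite L] : IsOfBabyMonsterType H := by
  have hp : Fact (Nat.Prime 2) := ⟨Nat.prime_two⟩
  have hzb1 : zb ≠ 1 := by
    intro h
    have h1 : π ζ = 1 := Subtype.ext (C.π_ζ.trans h)
    rcases (C.π_ker ζ).1 h1 with h2 | h2
    · exact C.ζ_ne h2
    · exact C.τ_ne h2.symm
  have hzb2 : orderOf zb = 2 := by
    apply orderOf_eq_prime _ hzb1
    rw [← C.π_ζ, pow_two, ← Subgroup.coe_mul, ← map_mul, C.ζ_sq, map_one]
    rfl
  have hcore : pCore 2 (Subgroup.centralizer ({zb} : Set H)) = C.F.ker := by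
    apply le_antisymm
    · have hM : ((pCore 2 (Subgroup.centralizer ({zb} : Set H))).map C.F).Normal :=
        Subgroup.Normal.map inferInstance _ C.F_surjective
      have hP : IsPGroup 2 ((pCore 2 (Subgroup.centralizer ({zb} : Set H))).map C.F) :=
        (Cfsg.Agent.Lib.PCore.isPGroup_pCore 2).map _
      have := C.hO _ hM hP
      exact (Subgroup.map_eq_bot_iff _).1 this
    · exact Cfsg.Agent.Lib.PCore.le_pCore inferInstance C.isPGroup_ker
  have hfit : generalizedFittingSubgroup (Subgroup.centralizer ({zb} : Set H)) = C.F.ker := by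
    rw [← hcore]
    apply Cfsg.Agent.Lib.CharTwoLocal.generalizedFitting_eq_pCore
    rw [hcore]
    intro d hd
    obtain ⟨x, rfl⟩ := C.π_surj d
    have h1 : x ∈ Rl := by
      apply C.hC
      intro q hq
      have h2 := Subgroup.mem_centralizer_iff.1 hd (π q) (C.mem_ker_iff.2 ⟨q, hq, rfl⟩)
      have h3 : π (x * q * x⁻¹ * q⁻¹) = 1 := by
        simp only [map_mul, map_inv]
        rw [← h2]
        group
      exact (C.π_ker _).1 h3
    exact C.mem_ker_iff.2 ⟨x, h1, rfl⟩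
  obtain ⟨g, q, hq, hg1, hg2⟩ := C.weak
  refine ⟨zb, C.F.ker, inferInstance, ⟨hzb2, hfit, C.extra, C.card_ker, g, ?_, hg2⟩,
    QuotientGroup.quotientKerEquivOfSurjective C.F C.F_surjective, C.psi, ?_, ?_, ?_, ?_⟩
  · have hmem : g * zb * g⁻¹ ∈ Subgroup.centralizer ({zb} : Set H) := by
      rw [hg1]
      exact (π q).2
    refine ⟨hmem, ?_⟩
    have h1 : (⟨g * zb * g⁻¹, hmem⟩ : Subgroup.centralizer ({zb} : Set H)) = π q := Subtype.ext hg1
    rw [h1]
    exact C.mem_ker_iff.2 ⟨q, hq, rfl⟩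
  · intro x y
    obtain ⟨a, ha⟩ := C.rp_ex x
    obtain ⟨b, hb⟩ := C.rp_ex y
    rw [C.psi_eq ha, C.psi_eq hb, C.psi_eq (C.rp_add _ _ _ _ ha hb), C.toR_mul]
    rfl
  · intro y
    obtain ⟨r, rfl⟩ := QuotientGroup.mk_surjective y
    obtain ⟨a, ha, rfl⟩ := C.exists_toR r
    obtain ⟨x, hx⟩ := C.rp_surj a ha
    exact ⟨x, C.psi_eq hx⟩
  · intro x
    obtain ⟨a, ha⟩ := C.rp_ex x
    rw [C.psi_eq ha, QuotientGroup.eq_one_iff, C.toR_central_iff, C.rp_triv _ _ ha]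
  · intro h g₁ hg₁ x y hxy r hr
    obtain ⟨h', rfl⟩ := C.π_surj h
    have hF : F₁ h' = g₁ := by
      rw [← hg₁, ← C.F_π]
      rfl
    obtain ⟨a, ha⟩ := C.rp_ex x
    have h1 := C.rp_act x y a h' ha (by rw [hF]; exact hxy)
    rw [C.psi_eq h1]
    rw [C.psi_eq ha] at hr
    have h2 : (C.toR a (C.rp_mem _ _ ha))⁻¹ * r ∈ Subgroup.center C.F.ker := QuotientGroup.eq.1 hr
    apply QuotientGroup.eq.2
    set c : C.F.ker := (C.toR a (C.rp_mem _ _ ha))⁻¹ * r with hc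
    have hπζ : ∀ d : Subgroup.centralizer ({zb} : Set H), d * π ζ = π ζ * d := by
      intro d
      apply Subtype.ext
      show (d : H) * ((π ζ : Subgroup.centralizer ({zb} : Set H)) : H) = ((π ζ : Subgroup.centralizer ({zb} : Set H)) : H) * (d : H)
      rw [C.π_ζ]
      exact Subgroup.mem_centralizer_singleton_iff.1 d.2
    have hcv : π h' * (c : Subgroup.centralizer ({zb} : Set H)) * (π h')⁻¹ = c := by
      obtain ⟨b, hb, hcb⟩ := C.exists_toR c
      have h3 : C.toR b hb ∈ Subgroup.center C.F.ker := hcb ▸ h2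
      have h4 : (c : Subgroup.centralizer ({zb} : Set H)) = π b := by rw [hcb]; rfl
      rw [h4]
      rcases (C.toR_central_iff hb).1 h3 with h5 | h5 | h5 | h5
      · rw [h5]
        simp
      · rw [h5, (C.π_ker τ).2 (Or.inr rfl)]
        simp
      · rw [h5, hπζ]
        group
      · rw [h5, map_mul, (C.π_ker τ).2 (Or.inr rfl), one_mul, hπζ]
        group
    have hrv : (r : Subgroup.centralizer ({zb} : Set H)) = π a * (c : Subgroup.centralizer ({zb} : Set H)) := by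
      show _ = π a * ((π a)⁻¹ * (r : Subgroup.centralizer ({zb} : Set H)))
      group
    convert h2 using 1
    apply Subtype.ext
    show (π (h' * a * h'⁻¹))⁻¹ * (π h' * (r : Subgroup.centralizer ({zb} : Set H)) * (π h')⁻¹) = (c : Subgroup.centralizer ({zb} : Set H))
    rw [hrv]
    simp only [map_mul, map_inv]
    calc _ = π h' * (c : Subgroup.centralizer ({zb} : Set H)) * (π h')⁻¹ := by group
      _ = _ := hcv

end Cover

end Cfsg.Agent.Lib.MonsterBabyB
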