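import Mathlib
import Cfsg.Agent.Lib.MonsterBabyA
import Cfsg.Agent.Lib.MonsterBabyB

/-!
# Monster type: the centralizer of an involution of `Q` not conjugate to `z`.
-/

set_option autoImplicit false

open Cfsg
open Cfsg.Agent.Lib.LargeExtra Cfsg.Agent.Lib.LargePair Cfsg.Agent.Lib.MonsterLocal
open Cfsg.Agent.Lib.Co0Mono Cfsg.Agent.Lib.Leech
open Cfsg.Agent.Lib.Co0Frame Cfsg.Agent.Lib.MonsterMain Cfsg.Agent.Lib.MonsterBabyA
open Cfsg.Agent.Lib.MonsterBabyB

namespace Cfsg.Agent.Lib.MonsterBabyC

section co2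

theorem co2_le : Spor.Co2 ≤ Co0 := inf_le_left

/-- `Co2` in `Co1`. -/
noncomputable def co2L : Spor.Co2 →* Spor.Co1 := mkCo.comp (Subgroup.inclusion co2_le)

theorem co2L_apply (c : Spor.Co2) : co2L c = mkCo ⟨c.1, co2_le c.2⟩ := rfl

theorem co2L_inj : Function.Injective co2L := by
  rw [injective_iff_map_eq_one]
  intro c hc
  have h1 : (⟨c.1, co2_le c.2⟩ : Co0) ∈ Subgroup.center Co0 := mkCo_eq_one_iff.1 hc
  rcases center_cases h1 with h2 | h2
  · have h3 : c.1 = (1 : Co0).1 := congrArg Subtype.val h2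
    exact Subtype.ext h3
  · exfalso
    have h5 : (⟨c.1, co2_le c.2⟩ : Co0).1 Spor.leechU = Spor.leechU := c.2.2
    rw [h2] at h5
    have h6 : -Spor.leechU = Spor.leechU := h5
    have h8 := congrArg (fun v : leechLattice => (v : GolayPt → ℤ) none) h6
    simp only [AddSubgroup.coe_neg, Pi.neg_apply] at h8
    have h9 : ((Spor.leechU : leechLattice) : GolayPt → ℤ) none = 4 := by decide +kernel
    rw [h9] at h8
    omega

theorem sqNorm_leechU : sqNorm ((Spor.leechU : leechLattice) : GolayPt → ℤ) = 32 := by decide +kernel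

/-- Elements fixing the class of the short vector come from `Co2`. -/
theorem exists_co2 {g : Co0} (hg : ∃ w : leechLattice, g.1 Spor.leechU = Spor.leechU + (w + w)) :
    ∃ c : Spor.Co2, co2L c = mkCo g := by
  rcases cong_pm sqNorm_leechU hg with h3 | h3
  · exact ⟨⟨g.1, g.2, h3⟩, rfl⟩
  · have h4 : (g * negCo0 : Co0).1 Spor.leechU = Spor.leechU := by
      show g.1 (-Spor.leechU) = _
      rw [co0_neg, h3, neg_neg]
    refine ⟨⟨(g * negCo0 : Co0).1, (g * negCo0 : Co0).2, h4⟩, ?_⟩
    show mkCo (g * negCo0) = _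
    rw [map_mul, mkCo_eq_one_iff.2 Cfsg.Agent.S0398.neg_center, mul_one]

/-- A homomorphism into the range of an injective one factors. -/
theorem exists_factor {X Y W : Type*} [Group X] [Group Y] [Group W] {f : Y →* W} (hf : Function.Injective f)
    {g : X →* W} (h : ∀ x, g x ∈ f.range) : ∃ k : X →* Y, ∀ x, f (k x) = g x := by
  refine ⟨(MonoidHom.ofInjective hf).symm.toMonoidHom.comp (g.codRestrict f.range h), fun x => ?_⟩
  exact MonoidHom.apply_ofInjective_symm hf ⟨g x, h x⟩

end co2

variable {G : Type*} [Group G] [Finite G] {z : G} {Q : Subgroup (CC z)} [Q.Normal]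
  {e : (CC z) ⧸ Q ≃* Spor.Co1} {ψ : leechLattice → Q ⧸ Subgroup.center Q}

section cards

variable {t : G}

/-- The centralizer of `t` in `Q`. -/
theorem card_B (D : Data z Q e ψ) (htQ : t ∈ Q0 Q) (ht1 : t ≠ 1) (htz : t ≠ z) (htt : t * t = 1) :
    Nat.card ↥(Q0 Q ⊓ CC t) = 2 ^ 24 ∧
    ∀ a ∈ Q0 Q, (∀ b ∈ Q0 Q ⊓ CC t, a * b = b * a) → a = 1 ∨ a = z ∨ a = t ∨ a = z * t := by
  have hS := D.setting
  have hz2 : z ^ 2 = 1 := by rw [pow_two]; exact hS.extra.sq_eq
  have ht2 : t ^ 2 = 1 := by rw [pow_two]; exact htt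
  have hzt : z * t = t * z := (hS.extra.cen t htQ).symm
  set A := Cfsg.Agent.Lib.KleinTools.kleinOf z t hz2 ht2 hzt with hA
  have hAle : A ≤ Q0 Q := by
    intro x hx
    rcases Cfsg.Agent.Lib.KleinTools.mem_kleinOf.1 hx with rfl | rfl | rfl | rfl
    · exact Subgroup.one_mem _
    · exact hS.extra.mem
    · exact htQ
    · exact Subgroup.mul_mem _ hS.extra.mem htQ
  have htA : t ∈ A := Cfsg.Agent.Lib.KleinTools.mem_kleinOf.2 (Or.inr (Or.inr (Or.inl rfl)))
  have hzA : z ∈ A := Cfsg.Agent.Lib.KleinTools.mem_kleinOf.2 (Or.inr (Or.inl rfl))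
  have hK : IsKleinFour A :=
    Cfsg.Agent.Lib.KleinTools.isKleinFour_kleinOf hz2 ht2 hzt hS.extra.ne_one ht1 htz.symm
  have hc4 : Nat.card A = 4 := IsKleinFour.card_four
  have h1 := Cfsg.Agent.Lib.ExtraDual.card_mul_centralizer hS.extra hAle hzA
  rw [hc4, D.card_Q0] at h1
  have h2 : Q0 Q ⊓ Subgroup.centralizer (A : Set G) = Q0 Q ⊓ CC t := by
    ext x
    simp only [Subgroup.mem_inf, and_congr_right_iff]
    intro hx
    constructor
    · intro h3
      rw [Subgroup.mem_centralizer_singleton_iff]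
      exact (Subgroup.mem_centralizer_iff.1 h3 t htA).symm
    · intro h3
      rw [Subgroup.mem_centralizer_singleton_iff] at h3
      have h5 := hS.extra.cen x hx
      rw [Subgroup.mem_centralizer_iff]
      intro a ha
      rcases Cfsg.Agent.Lib.KleinTools.mem_kleinOf.1 ha with rfl | rfl | rfl | rfl
      · simp
      · exact h5.symm
      · exact h3.symm
      · calc z * t * x = z * (t * x) := by group
          _ = z * (x * t) := by rw [h3]
          _ = (z * x) * t := by group
          _ = (x * z) * t := by rw [h5]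
          _ = x * (z * t) := by group
  rw [h2] at h1
  have hB : Nat.card ↥(Q0 Q ⊓ CC t) = 2 ^ 24 := by omega
  refine ⟨hB, ?_⟩
  intro a haQ hab
  have hzB : z ∈ Q0 Q ⊓ CC t := ⟨hS.extra.mem, Subgroup.mem_centralizer_singleton_iff.2 hzt⟩
  have h3 := Cfsg.Agent.Lib.ExtraDual.card_mul_centralizer hS.extra (A := Q0 Q ⊓ CC t) inf_le_left hzB
  rw [hB, D.card_Q0] at h3
  have h4 : Nat.card ↥(Q0 Q ⊓ Subgroup.centralizer ((Q0 Q ⊓ CC t : Subgroup G) : Set G)) = 4 := by omega
  have h5 : A ≤ Q0 Q ⊓ Subgroup.centralizer ((Q0 Q ⊓ CC t : Subgroup G) : Set G) := by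
    intro x hx
    refine ⟨hAle hx, Subgroup.mem_centralizer_iff.2 ?_⟩
    intro b hb
    have h6 := Subgroup.mem_centralizer_singleton_iff.1 hb.2
    have h7 := hS.extra.cen b hb.1
    rcases Cfsg.Agent.Lib.KleinTools.mem_kleinOf.1 hx with rfl | rfl | rfl | rfl
    · simp
    · exact h7
    · exact h6
    · calc b * (z * t) = (b * z) * t := by group
        _ = (z * b) * t := by rw [h7]
        _ = z * (b * t) := by group
        _ = z * (t * b) := by rw [h6]
        _ = z * t * b := by group
  have h6 := Subgroup.eq_of_le_of_card_ge h5 (by rw [h4, hc4])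
  have h7 : a ∈ A := by
    rw [h6]
    exact ⟨haQ, Subgroup.mem_centralizer_iff.2 (fun b hb => (hab b hb).symm)⟩
  exact Cfsg.Agent.Lib.KleinTools.mem_kleinOf.1 h7

end cards

section main

variable {t : G} [hn : ((Subgroup.zpowers t).subgroupOf (CC t)).Normal]

/-- The main construction. -/
theorem main (D : Data z Q e ψ) (T : CoTrans) (hrep : Rep ψ Spor.leechU t) (ht2 : orderOf t = 2)
    (ht : ¬ IsConj z t) :
    IsOfBabyMonsterType (↥(CC t) ⧸ (Subgroup.zpowers t).subgroupOf (CC t)) := by
  classical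
  have hS := D.setting
  have htQ : t ∈ Q0 Q := hrep.mem
  have htC : t ∈ CC z := (D.mem_Q0_iff.1 htQ).1
  have htcz : t * z = z * t := Subgroup.mem_centralizer_singleton_iff.1 htC
  have hzt : z ∈ CC t := Subgroup.mem_centralizer_singleton_iff.2 htcz.symm
  have hzz : z ∈ CC z := Subgroup.mem_centralizer_singleton_iff.2 rfl
  have htt' : t ∈ CC t := Subgroup.mem_centralizer_singleton_iff.2 rfl
  have ht1 : t ≠ 1 := by
    rintro rfl
    simp at ht2
  have htz : t ≠ z := by
    rintro rfl
    exact ht (IsConj.refl _)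
  have htt : t * t = 1 := by
    rw [← pow_two, ← ht2]
    exact pow_orderOf_eq_one t
  obtain ⟨hB, hcenB⟩ := card_B D htQ ht1 htz htt
  -- the quotient
  let N := (Subgroup.zpowers t).subgroupOf (CC t)
  let zb : ↥(CC t) ⧸ N := QuotientGroup.mk ⟨z, hzt⟩
  have hmemN : ∀ y : CC t, y ∈ N ↔ (y : G) = 1 ∨ (y : G) = t := by
    intro y
    constructor
    · intro h
      exact zpowers_eq_of_order_two ht2 h
    · rintro (h | h)
      · have : y = 1 := Subtype.ext h
        rw [this]
        exact Subgroup.one_mem _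
      · show (y : G) ∈ Subgroup.zpowers t
        rw [h]
        exact Subgroup.mem_zpowers t
  let L := ↥(CC z ⊓ CC t)
  have hinc : ∀ x : L, ((QuotientGroup.mk' N).comp (Subgroup.inclusion (inf_le_right : CC z ⊓ CC t ≤ CC t))) x ∈
      Subgroup.centralizer ({zb} : Set (↥(CC t) ⧸ N)) := by
    intro x
    rw [Subgroup.mem_centralizer_singleton_iff]
    show (QuotientGroup.mk _ : ↥(CC t) ⧸ N) * QuotientGroup.mk _ = QuotientGroup.mk _ * QuotientGroup.mk _
    rw [← QuotientGroup.mk_mul, ← QuotientGroup.mk_mul]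
    congr 1
    apply Subtype.ext
    exact Subgroup.mem_centralizer_singleton_iff.1 x.2.1
  let π : L →* Subgroup.centralizer ({zb} : Set (↥(CC t) ⧸ N)) :=
    ((QuotientGroup.mk' N).comp (Subgroup.inclusion (inf_le_right : CC z ⊓ CC t ≤ CC t))).codRestrict _ hinc
  let τ : L := ⟨t, htC, htt'⟩
  let ζ : L := ⟨z, hzz, hzt⟩
  let phiL : L →* Spor.Co1 := (phi Q e).comp (Subgroup.inclusion (inf_le_left : CC z ⊓ CC t ≤ CC z))
  have hphiL : ∀ x : L, phiL x ∈ co2L.range := by
    intro x
    obtain ⟨g, hg⟩ := exists_lift' (Q := Q) (e := e) (⟨x.1, x.2.1⟩ : CC z)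
    have hcomm : ((⟨x.1, x.2.1⟩ : CC z) : G) * t = t * ((⟨x.1, x.2.1⟩ : CC z) : G) :=
      Subgroup.mem_centralizer_singleton_iff.1 x.2.2
    have h1 := D.fix_of_comm hrep hg.symm hcomm
    obtain ⟨c, hc⟩ := exists_co2 h1
    exact ⟨c, hc.trans hg⟩
  obtain ⟨F₁, hF₁⟩ := exists_factor co2L_inj hphiL
  let Rl : Subgroup L := (Q0 Q).subgroupOf (CC z ⊓ CC t)
  have hmemRl : ∀ x : L, x ∈ Rl ↔ (x : G) ∈ Q0 Q := fun x => Iff.rfl
  have hRlcard : Nat.card Rl = 2 ^ 24 := by
    rw [← hB]
    have h1 : Rl.map (CC z ⊓ CC t).subtype = Q0 Q ⊓ CC t := by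
      ext x
      constructor
      · rintro ⟨y, hy, rfl⟩
        exact ⟨hy, y.2.2⟩
      · rintro ⟨hx, hc⟩
        exact ⟨⟨x, (D.mem_Q0_iff.1 hx).1, hc⟩, hx, rfl⟩
    rw [← h1, Subgroup.card_map_of_injective (CC z ⊓ CC t).subtype_injective]
  let Rp : leechPerpU → L → Prop := fun x q => Rep ψ (x : leechLattice) (q : G)
  have hcomm_iff : ∀ {v : leechLattice} {a : G}, Rep ψ v a →
      (a * t = t * a ↔ (16 : ℤ) ∣ dotInt (v : GolayPt → ℤ) Spor.vecU) := by
    intro v a hv
    exact rep_comm_iff D T hv hrep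
  have C : Cover zb π τ ζ F₁ Rl Rp := by
    refine
      { π_surj := ?_
        π_ker := ?_
        π_ζ := rfl
        F_surj := ?_
        F_ker := ?_
        τ_mem := htQ
        ζ_mem := hS.extra.mem
        τ_ne := fun h => htz (congrArg Subtype.val h)
        τ_one := fun h => ht1 (congrArg Subtype.val h)
        ζ_ne := fun h => hS.extra.ne_one (congrArg Subtype.val h)
        ζ_sq := Subtype.ext hS.extra.sq_eq
        card := hRlcard
        comm := ?_
        sq := ?_
        cen := ?_
        non := ?_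
        hO := co2_no_normal T
        hC := ?_
        weak := ?_
        rp_ex := ?_
        rp_mem := fun x q h => h.mem
        rp_add := fun x y q r h h' => D.rep_add h h'
        rp_surj := ?_
        rp_triv := ?_
        rp_uniq := ?_
        rp_act := ?_ }
    · -- π_surj
      intro d
      obtain ⟨y, hy⟩ := QuotientGroup.mk_surjective (d : ↥(CC t) ⧸ N)
      have h1 : (QuotientGroup.mk y : ↥(CC t) ⧸ N) * zb = zb * QuotientGroup.mk y := by
        rw [hy]
        exact Subgroup.mem_centralizer_singleton_iff.1 d.2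
      have h2 : (y * ⟨z, hzt⟩ : CC t)⁻¹ * (⟨z, hzt⟩ * y) ∈ N := QuotientGroup.eq.1 h1
      have h3 : (y : G) * z = z * (y : G) := by
        rcases (hmemN _).1 h2 with h4 | h4
        · have h5 : ((y : G) * z)⁻¹ * (z * (y : G)) = 1 := h4
          exact inv_mul_eq_one.1 h5
        · exfalso
          have h5 : ((y : G) * z)⁻¹ * (z * (y : G)) = t := h4
          apply not_conj_mul D htQ ht1 htz ht
          refine isConj_iff.2 ⟨(y : G)⁻¹, ?_⟩
          have h6 : z * (y : G) = (y : G) * z * t := by
            calc z * (y : G) = ((y : G) * z) * (((y : G) * z)⁻¹ * (z * (y : G))) := by group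
              _ = (y : G) * z * t := by rw [h5]
          calc (y : G)⁻¹ * z * (y : G)⁻¹⁻¹ = (y : G)⁻¹ * (z * (y : G)) := by group
            _ = (y : G)⁻¹ * ((y : G) * z * t) := by rw [h6]
            _ = z * t := by group
            _ = t * z := htcz.symm
      refine ⟨⟨(y : G), Subgroup.mem_centralizer_singleton_iff.2 h3, y.2⟩, ?_⟩
      apply Subtype.ext
      exact hy
    · -- π_ker
      intro x
      constructor
      · intro h
        have h1 : (QuotientGroup.mk (⟨x.1, x.2.2⟩ : CC t) : ↥(CC t) ⧸ N) = 1 := congrArg Subtype.val h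
        have h2 := (QuotientGroup.eq_one_iff _).1 h1
        rcases (hmemN _).1 h2 with h3 | h3
        · left
          exact Subtype.ext h3
        · right
          exact Subtype.ext h3
      · intro h
        apply Subtype.ext
        show (QuotientGroup.mk (⟨x.1, x.2.2⟩ : CC t) : ↥(CC t) ⧸ N) = 1
        rw [QuotientGroup.eq_one_iff, hmemN]
        rcases h with rfl | rfl
        · left
          rfl
        · right
          rfl
    · -- F_surj
      intro c
      have hg0 : ((⟨c.1, co2_le c.2⟩ : Co0) : Equiv.Perm leechLattice) Spor.leechU = Spor.leechU + (0 + 0) := by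
        rw [add_zero, add_zero]
        exact c.2.2
      obtain ⟨c', hc', hcc⟩ := D.exists_lift_comm hrep ht1 htz hg0
      refine ⟨⟨c', c'.2, Subgroup.mem_centralizer_singleton_iff.2 hcc⟩, ?_⟩
      apply co2L_inj
      rw [hF₁]
      exact hc'
    · -- F_ker
      intro x
      constructor
      · intro h
        have h1 := hF₁ x
        rw [h, map_one] at h1
        have h2 : phi Q e (⟨x.1, x.2.1⟩ : CC z) = 1 := h1.symm
        rw [phi_eq_one_iff] at h2
        exact ⟨_, h2, rfl⟩
      · intro h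
        apply co2L_inj
        rw [hF₁, map_one]
        obtain ⟨hc, hq⟩ := D.mem_Q0_iff.1 ((hmemRl x).1 h)
        exact phi_eq_one_iff.2 hq
    · -- comm
      intro a ha b hb
      rcases hS.extra.comm _ ((hmemRl a).1 ha) _ ((hmemRl b).1 hb) with h | h
      · left
        exact Subtype.ext h
      · right
        exact Subtype.ext h
    · -- sq
      intro a ha
      rcases hS.extra.sq _ ((hmemRl a).1 ha) with h | h
      · left
        exact Subtype.ext h
      · right
        exact Subtype.ext h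
    · -- cen
      intro a ha hab
      have h1 := hcenB _ ((hmemRl a).1 ha) (by
        intro b hb
        have h2 := hab ⟨b, (D.mem_Q0_iff.1 hb.1).1, hb.2⟩ hb.1
        exact congrArg Subtype.val h2)
      rcases h1 with h | h | h | h
      · left
        exact Subtype.ext h
      · right; right; left
        exact Subtype.ext h
      · right; left
        exact Subtype.ext h
      · right; right; right
        apply Subtype.ext
        rw [h]
        exact (hS.extra.cen t htQ).symm
    · -- non
      by_contra hcon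
      push Not at hcon
      have h1 : Q0 Q ⊓ CC t ≤ Q0 Q ⊓ Subgroup.centralizer ((Q0 Q ⊓ CC t : Subgroup G) : Set G) := by
        intro x hx
        refine ⟨hx.1, Subgroup.mem_centralizer_iff.2 ?_⟩
        intro y hy
        have h2 := hcon ⟨y, (D.mem_Q0_iff.1 hy.1).1, hy.2⟩ hy.1 ⟨x, (D.mem_Q0_iff.1 hx.1).1, hx.2⟩ hx.1
        exact congrArg Subtype.val h2
      have h2 := Cfsg.Agent.Lib.ExtraDual.card_mul_centralizer hS.extra (A := Q0 Q ⊓ CC t) inf_le_left
        ⟨hS.extra.mem, hzt⟩
      rw [hB, D.card_Q0] at h2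
      have h3 := Subgroup.card_le_of_le h1
      rw [hB] at h3
      have h4 : Nat.card ↥(Q0 Q ⊓ Subgroup.centralizer ((Q0 Q ⊓ CC t : Subgroup G) : Set G)) = 4 := by omega
      rw [h4] at h3
      norm_num at h3
    · -- hC
      intro x hx
      obtain ⟨g, hg⟩ := exists_lift' (Q := Q) (e := e) (⟨x.1, x.2.1⟩ : CC z)
      have hcomm : ((⟨x.1, x.2.1⟩ : CC z) : G) * t = t * ((⟨x.1, x.2.1⟩ : CC z) : G) :=
        Subgroup.mem_centralizer_singleton_iff.1 x.2.2
      have h1 := D.fix_of_comm hrep hg.symm hcomm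
      have hg1 : g ∈ TrivSub Spor.leechU := by
        refine ⟨cong_pm sqNorm_leechU h1, ?_⟩
        intro v hv
        obtain ⟨a, ha⟩ := exists_rep_of (G := G) (z := z) (Q := Q) (ψ := ψ) v
        have hat : a * t = t * a := (hcomm_iff ha).2 hv
        let q : L := ⟨a, (D.mem_Q0_iff.1 ha.mem).1, Subgroup.mem_centralizer_singleton_iff.2 hat⟩
        have hq : q ∈ Rl := ha.mem
        have h2 := D.rep_conj ha hg
        rcases hx q hq with h3 | h3
        · have h4 : (x : G) * a * (x : G)⁻¹ * a⁻¹ = 1 := congrArg Subtype.val h3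
          have h5 : (x : G) * a * (x : G)⁻¹ = a := mul_inv_eq_one.1 h4
          change Rep ψ _ ((x : G) * a * (x : G)⁻¹) at h2
          rw [h5] at h2
          obtain ⟨w, hw⟩ := D.rep_cong h2 ha
          refine ⟨w, Or.inl ?_⟩
          rw [hw]
          abel
        · have h4 : (x : G) * a * (x : G)⁻¹ * a⁻¹ = t := congrArg Subtype.val h3
          have h5 : (x : G) * a * (x : G)⁻¹ = t * a := mul_inv_eq_iff_eq_mul.1 h4
          change Rep ψ _ ((x : G) * a * (x : G)⁻¹) at h2
          rw [h5] at h2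
          obtain ⟨w, hw⟩ := D.rep_cong h2 (D.rep_add hrep ha)
          refine ⟨w, Or.inr ?_⟩
          rw [hw]
          abel
      have hcen := triv_central T sqNorm_leechU hg1
      have h2 : phi Q e (⟨x.1, x.2.1⟩ : CC z) = 1 := by
        rw [← hg]
        exact mkCo_eq_one_iff.2 hcen
      rw [phi_eq_one_iff] at h2
      exact ⟨_, h2, rfl⟩
    · -- weak
      obtain ⟨g, hg1, hg2, hg3, hg4⟩ := exists_conj_fix D T htQ ht2 ht
      have hgt : g ∈ CC t := Subgroup.mem_centralizer_singleton_iff.2 hg1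
      have hq2 : g * z * g⁻¹ ∈ CC t := (CC t).mul_mem ((CC t).mul_mem hgt hzt) ((CC t).inv_mem hgt)
      let q : L := ⟨g * z * g⁻¹, (D.mem_Q0_iff.1 hg2).1, hq2⟩
      refine ⟨QuotientGroup.mk ⟨g, hgt⟩, q, hg2, rfl, ?_⟩
      intro h
      have h1 : (QuotientGroup.mk (⟨g * z * g⁻¹, hq2⟩ : CC t) : ↥(CC t) ⧸ N) = QuotientGroup.mk ⟨z, hzt⟩ := h
      have h2 := QuotientGroup.eq.1 h1
      rcases (hmemN _).1 h2 with h3 | h3
      · have h4 : (g * z * g⁻¹)⁻¹ * z = 1 := h3
        exact hg3 (inv_mul_eq_one.1 h4)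
      · have h4 : (g * z * g⁻¹)⁻¹ * z = t := h3
        apply hg4
        have h5 : z = (g * z * g⁻¹) * t := by
          rw [← h4]
          group
        calc g * z * g⁻¹ = (g * z * g⁻¹) * t * t := by rw [mul_assoc _ t t, htt, mul_one]
          _ = z * t := by rw [← h5]
          _ = t * z := htcz.symm
    · -- rp_ex
      intro x
      obtain ⟨a, ha⟩ := exists_rep_of (G := G) (z := z) (Q := Q) (ψ := ψ) (x : leechLattice)
      have hat : a * t = t * a := (hcomm_iff ha).2 x.2
      exact ⟨⟨a, (D.mem_Q0_iff.1 ha.mem).1, Subgroup.mem_centralizer_singleton_iff.2 hat⟩, ha⟩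
    · -- rp_surj
      intro q hq
      obtain ⟨w, hw⟩ := D.exists_rep ((hmemRl q).1 hq)
      have h1 : (q : G) * t = t * (q : G) := Subgroup.mem_centralizer_singleton_iff.1 q.2.2
      exact ⟨⟨w, (hcomm_iff hw).1 h1⟩, hw⟩
    · -- rp_triv
      intro x q hx
      have hx' : Rep ψ (x : leechLattice) (q : G) := hx
      constructor
      · rintro (h | h | h | h)
        · left
          apply (D.rep_central_iff hx').1
          left
          exact congrArg Subtype.val h
        · right
          have h1 : (q : G) = t := congrArg Subtype.val h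
          rw [h1] at hx'
          obtain ⟨w, hw⟩ := D.rep_cong hx' hrep
          exact ⟨w, hw⟩
        · left
          apply (D.rep_central_iff hx').1
          right
          exact congrArg Subtype.val h
        · right
          have h1 : (q : G) = t * z := congrArg Subtype.val h
          rw [h1] at hx'
          obtain ⟨w, hw⟩ := D.rep_cong hx' (D.rep_mul_z hrep)
          exact ⟨w, hw⟩
      · rintro (⟨w, hw⟩ | ⟨w, hw⟩)
        · rcases (D.rep_central_iff hx').2 ⟨w, hw⟩ with h | h
          · left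
            exact Subtype.ext h
          · right; right; left
            exact Subtype.ext h
        · have h1 := D.rep_congr hrep w
          rw [← hw] at h1
          rcases D.rep_eq h1 hx' with h | h
          · right; left
            exact Subtype.ext h
          · right; right; right
            exact Subtype.ext h
    · -- rp_uniq
      intro x q r hq hr
      rcases D.rep_eq hq hr with h | h
      · left
        exact Subtype.ext h
      · right
        exact Subtype.ext h
    · -- rp_act
      intro x y q h hq hy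
      have hc : mkCo (⟨(F₁ h).1, co2_le (F₁ h).2⟩ : Co0) = phi Q e (⟨h.1, h.2.1⟩ : CC z) := hF₁ h
      have h1 := D.rep_conj hq hc
      have h2 : ((⟨(F₁ h).1, co2_le (F₁ h).2⟩ : Co0) : Equiv.Perm leechLattice) (x : leechLattice) = (y : leechLattice) := hy
      rw [h2] at h1
      exact h1
  exact C.baby

end main

end Cfsg.Agent.Lib.MonsterBabyC
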