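import Mathlib
import Cfsg.Prelude.Def_Characters
import Cfsg.Agent.Lib.CharBasic
import Cfsg.Agent.Lib.PermChar

/-!
Multiplicity-free representations and commutativity of the commutant.
-/

set_option autoImplicit false

namespace Cfsg.Agent.Lib.MultFree

open Cfsg Representation Module
open Cfsg.Agent.Lib.CharBasic

variable {G : Type*} [Group G] [Fintype G] {V W : Type*} [AddCommGroup V] [Module ℂ V]
  [FiniteDimensional ℂ V] [AddCommGroup W] [Module ℂ W] [FiniteDimensional ℂ W]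

/-- Inner products as dimensions of spaces of intertwiners. -/
theorem classInner_eq_finrank (ρ₁ : Representation ℂ G V) (ρ₂ : Representation ℂ G W) :
    classInner ρ₂.character ρ₁.character = finrank ℂ (IntertwiningMap ρ₁ ρ₂) := by
  have hne : (Nat.card G : ℂ) ≠ 0 := natCard_ne_zero'
  have : Invertible (Nat.card G : ℂ) := invertibleOfNonzero hne
  rw [classInner_eq_inv (isCharacter_of_rep' ρ₁),
    Representation.card_inv_mul_sum_char_mul_char_eq_finrank ρ₁ ρ₂]

/-- Composition of an intertwiner with an endomorphism commuting with the group. -/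
def compL {ρ₀ : Representation ℂ G W} {ρ : Representation ℂ G V} (S : V →ₗ[ℂ] V)
    (hS : ∀ g, S ∘ₗ ρ g = ρ g ∘ₗ S) (F : IntertwiningMap ρ₀ ρ) : IntertwiningMap ρ₀ ρ :=
  ⟨S ∘ₗ F.toLinearMap, fun g => by
    rw [LinearMap.comp_assoc, F.isIntertwining' g, ← LinearMap.comp_assoc, hS g,
      LinearMap.comp_assoc]⟩

@[simp] lemma compL_apply {ρ₀ : Representation ℂ G W} {ρ : Representation ℂ G V} (S : V →ₗ[ℂ] V)
    (hS : ∀ g, S ∘ₗ ρ g = ρ g ∘ₗ S) (F : IntertwiningMap ρ₀ ρ) (x : W) :
    compL S hS F x = S (F x) := rfl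

/-- An intertwiner out of a nonzero subrepresentation: there is an irreducible `ρ₀` and a nonzero
intertwiner from `ρ₀` to it. -/
theorem exists_irr_map (ρ : Representation ℂ G V) (hV : Nontrivial V) :
    ∃ (n : ℕ) (ρ₀ : Representation ℂ G (Fin n → ℂ)), ρ₀.IsIrreducible ∧
      Nontrivial (IntertwiningMap ρ₀ ρ) ∧ classInner ρ.character ρ₀.character ≠ 0 := by
  classical
  obtain ⟨m, hm⟩ := exists_nat_decomp_rep V ρ
  have hex : ∃ i, m i ≠ 0 := by
    by_contra hcon
    push Not at hcon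
    have h1 : ρ.character = 0 := by
      rw [hm]
      simp [hcon]
    have h2 := Representation.char_one ρ
    rw [h1] at h2
    have h3 : finrank ℂ V = 0 := by
      have : ((finrank ℂ V : ℕ) : ℂ) = 0 := by rw [← h2]; rfl
      exact_mod_cast this
    have h4 : 0 < finrank ℂ V := finrank_pos
    omega
  obtain ⟨i, hi⟩ := hex
  obtain ⟨n, ρ₀, hirr, hchar⟩ := i.2
  have h1 : classInner ρ.character ρ₀.character = m i := by
    rw [hm, hchar]
    exact classInner_nat_decomp m _ i.2
  have h2 : (finrank ℂ (IntertwiningMap ρ₀ ρ) : ℂ) = m i := by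
    rw [← classInner_eq_finrank, h1]
  refine ⟨n, ρ₀, hirr, ?_, ?_⟩
  · by_contra hcon
    rw [not_nontrivial_iff_subsingleton] at hcon
    have h3 : finrank ℂ (IntertwiningMap ρ₀ ρ) = 0 := finrank_zero_of_subsingleton
    rw [h3] at h2
    apply hi
    exact_mod_cast h2.symm
  · rw [h1]
    exact_mod_cast hi

/-- Multiplicity-freeness implies commutativity of the commutant. -/
theorem comm_of_mf (ρ : Representation ℂ G V)
    (hmf : ∀ χ : G → ℂ, IsIrrCharacter G χ → classInner ρ.character χ = 0 ∨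
      classInner ρ.character χ = 1)
    (S T : V →ₗ[ℂ] V) (hS : ∀ g, S ∘ₗ ρ g = ρ g ∘ₗ S) (hT : ∀ g, T ∘ₗ ρ g = ρ g ∘ₗ T) :
    S ∘ₗ T = T ∘ₗ S := by
  classical
  -- the kernel of the commutator
  let M : V →ₗ[ℂ] V := S ∘ₗ T - T ∘ₗ S
  have hM : ∀ g v, M (ρ g v) = ρ g (M v) := by
    intro g v
    have h1 := LinearMap.congr_fun (hS g) (T v)
    have h2 := LinearMap.congr_fun (hT g) (S v)
    have h3 := LinearMap.congr_fun (hT g) v
    have h4 := LinearMap.congr_fun (hS g) v
    simp only [LinearMap.comp_apply] at h1 h2 h3 h4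
    simp only [M, LinearMap.sub_apply, LinearMap.comp_apply, map_sub]
    rw [h3, h1, h4, h2]
  let K : Subrepresentation ρ := ⟨LinearMap.ker M, fun g v hv => by
    rw [LinearMap.mem_ker] at hv ⊢
    rw [hM, hv, map_zero]⟩
  obtain ⟨K', hK'⟩ := Cfsg.Agent.Lib.CharEquiv.exists_complement ρ K
  have hK'bot : K'.toSubmodule = ⊥ := by
    by_contra hne
    have hnt : Nontrivial K'.toSubmodule := Submodule.nontrivial_iff_ne_bot.2 hne
    obtain ⟨n, ρ₀, hirr, hnt2, hin⟩ := exists_irr_map K'.toRepresentation hnt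
    obtain ⟨f', hf'⟩ := exists_ne (0 : IntertwiningMap ρ₀ K'.toRepresentation)
    let F : IntertwiningMap ρ₀ ρ := ⟨K'.toSubmodule.subtype ∘ₗ f'.toLinearMap, fun g => by
      apply LinearMap.ext
      intro x
      have := congrArg Subtype.val (LinearMap.congr_fun (f'.isIntertwining' g) x)
      exact this⟩
    have hFne : F ≠ 0 := by
      intro h
      apply hf'
      refine IntertwiningMap.ext (LinearMap.ext fun x => ?_)
      have := congrArg (fun P : IntertwiningMap ρ₀ ρ => P x) h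
      exact Subtype.ext this
    have hχ : IsIrrCharacter G ρ₀.character := ⟨n, ρ₀, hirr, rfl⟩
    have hin2 := Cfsg.Agent.Lib.PermChar.constituent_of_sub ρ K' hχ hin
    have h1 : finrank ℂ (IntertwiningMap ρ₀ ρ) = 1 := by
      have := (hmf _ hχ).resolve_left hin2
      rw [classInner_eq_finrank] at this
      exact_mod_cast this
    have hspan := (finrank_eq_one_iff_of_nonzero' F hFne).1 h1
    obtain ⟨c, hc⟩ := hspan (compL S hS F)
    obtain ⟨d, hd⟩ := hspan (compL T hT F)
    have hFK : ∀ x, F x ∈ K.toSubmodule := by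
      intro x
      show M (F x) = 0
      have h2 : S (F x) = c • F x := (congrArg (fun P : IntertwiningMap ρ₀ ρ => P x) hc).symm
      have h3 : T (F x) = d • F x := (congrArg (fun P : IntertwiningMap ρ₀ ρ => P x) hd).symm
      simp only [M, LinearMap.sub_apply, LinearMap.comp_apply]
      rw [h2, h3, map_smul, map_smul, h2, h3, smul_smul, smul_smul, mul_comm, sub_self]
    have hFK' : ∀ x, F x ∈ K'.toSubmodule := fun x => (f' x).2
    apply hFne
    refine IntertwiningMap.ext (LinearMap.ext fun x => ?_)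
    exact Submodule.disjoint_def.1 hK'.disjoint (F x) (hFK x) (hFK' x)
  have htop : K.toSubmodule = ⊤ := by
    have := hK'.sup_eq_top
    rwa [hK'bot, sup_bot_eq] at this
  have hM0 : M = 0 := LinearMap.ker_eq_top.1 htop
  exact sub_eq_zero.1 hM0

/-- Commutativity of the commutant implies multiplicity-freeness. -/
theorem mf_of_comm (ρ : Representation ℂ G V)
    (hcomm : ∀ S T : V →ₗ[ℂ] V, (∀ g, S ∘ₗ ρ g = ρ g ∘ₗ S) → (∀ g, T ∘ₗ ρ g = ρ g ∘ₗ T) →
      S ∘ₗ T = T ∘ₗ S)
    (χ : G → ℂ) (hχ : IsIrrCharacter G χ) :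
    classInner ρ.character χ = 0 ∨ classInner ρ.character χ = 1 := by
  classical
  obtain ⟨n, ρ₀, hirr, rfl⟩ := hχ
  rw [classInner_eq_finrank ρ₀ ρ]
  by_contra hcon
  push Not at hcon
  have h0 : finrank ℂ (IntertwiningMap ρ₀ ρ) ≠ 0 := fun h => hcon.1 (by rw [h]; simp)
  have h1 : finrank ℂ (IntertwiningMap ρ₀ ρ) ≠ 1 := fun h => hcon.2 (by rw [h]; simp)
  have hnt : Nontrivial (IntertwiningMap ρ₀ ρ) :=
    Module.nontrivial_of_finrank_pos (R := ℂ) (Nat.pos_of_ne_zero h0)
  obtain ⟨f₁, hf₁⟩ := exists_ne (0 : IntertwiningMap ρ₀ ρ)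
  obtain ⟨f₂, hf₂⟩ : ∃ f₂ : IntertwiningMap ρ₀ ρ, ∀ c : ℂ, c • f₁ ≠ f₂ := by
    by_contra hno
    push Not at hno
    have := finrank_le_one f₁ hno
    omega
  have hinj : Function.Injective f₁ :=
    (Representation.IsIrreducible.injective_or_eq_zero f₁).resolve_right hf₁
  -- a linear left inverse
  have hker : LinearMap.ker f₁.toLinearMap = ⊥ := LinearMap.ker_eq_bot.2 hinj
  obtain ⟨L, hL⟩ := LinearMap.exists_leftInverse_of_injective f₁.toLinearMap hker
  have hcard : (Nat.card G : ℂ) ≠ 0 := natCard_ne_zero'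
  -- averaging
  let g : V →ₗ[ℂ] (Fin n → ℂ) := (Nat.card G : ℂ)⁻¹ • ∑ h : G, (ρ₀ h) ∘ₗ L ∘ₗ (ρ (h⁻¹))
  have hg : ∀ (x : G) (v : V), g (ρ x v) = ρ₀ x (g v) := by
    intro x v
    simp only [g, LinearMap.smul_apply, LinearMap.sum_apply, LinearMap.comp_apply, map_smul, map_sum]
    congr 1
    refine Fintype.sum_equiv (Equiv.mulLeft x⁻¹) _ _ (fun h => ?_)
    simp only [Equiv.coe_mulLeft]
    have e1 : ρ (h⁻¹) (ρ x v) = ρ ((x⁻¹ * h)⁻¹) v := by
      rw [← Module.End.mul_apply, ← map_mul]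
      congr 2
      group
    have e2 : ρ₀ h = ρ₀ x * ρ₀ (x⁻¹ * h) := by
      rw [← map_mul]
      congr 1
      group
    rw [e1, e2, Module.End.mul_apply]
  have hgf : ∀ x, g (f₁ x) = x := by
    intro x
    simp only [g, LinearMap.smul_apply, LinearMap.sum_apply, LinearMap.comp_apply]
    have h3 : ∀ h : G, ρ₀ h (L (ρ (h⁻¹) (f₁ x))) = x := by
      intro h
      have e1 : ρ (h⁻¹) (f₁ x) = f₁ (ρ₀ (h⁻¹) x) :=
        (LinearMap.congr_fun (f₁.isIntertwining' (h⁻¹)) x).symm
      have e2 : L (f₁ (ρ₀ (h⁻¹) x)) = ρ₀ (h⁻¹) x := LinearMap.congr_fun hL _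
      rw [e1, e2, ← Module.End.mul_apply, ← map_mul, mul_inv_cancel, map_one, Module.End.one_apply]
    simp only [h3, Finset.sum_const, Finset.card_univ, Nat.card_eq_fintype_card] 
    rw [Nat.card_eq_fintype_card] at hcard
    rw [← Nat.cast_smul_eq_nsmul ℂ, smul_smul, inv_mul_cancel₀ hcard, one_smul]
  -- Schur
  obtain ⟨c, hc⟩ := schur_scalar hirr (g ∘ₗ f₂.toLinearMap) (fun x => by
    apply LinearMap.ext
    intro v
    simp only [LinearMap.comp_apply]
    have := LinearMap.congr_fun (f₂.isIntertwining' x) v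
    simp only [LinearMap.comp_apply] at this
    rw [this, hg])
  -- the two commuting operators
  have hS : ∀ x, (f₁.toLinearMap ∘ₗ g) ∘ₗ ρ x = ρ x ∘ₗ (f₁.toLinearMap ∘ₗ g) := by
    intro x
    apply LinearMap.ext
    intro v
    simp only [LinearMap.comp_apply]
    rw [hg]
    exact LinearMap.congr_fun (f₁.isIntertwining' x) (g v)
  have hT : ∀ x, (f₂.toLinearMap ∘ₗ g) ∘ₗ ρ x = ρ x ∘ₗ (f₂.toLinearMap ∘ₗ g) := by
    intro x
    apply LinearMap.ext
    intro v
    simp only [LinearMap.comp_apply]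
    rw [hg]
    exact LinearMap.congr_fun (f₂.isIntertwining' x) (g v)
  have hcm := hcomm _ _ hS hT
  apply hf₂ c
  refine IntertwiningMap.ext (LinearMap.ext fun x => ?_)
  have h4 := LinearMap.congr_fun hcm (f₁ x)
  simp only [LinearMap.comp_apply] at h4
  have h41 : g (f₁ x) = x := hgf x
  have h43 : g (f₁.toLinearMap x) = x := hgf x
  have h42 : g (f₂.toLinearMap x) = c • x := by
    have := LinearMap.congr_fun hc x
    simpa using this
  rw [h41, h42, map_smul, h43] at h4
  exact h4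

end Cfsg.Agent.Lib.MultFree
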