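import Mathlib
import Cfsg.Prelude.Def_Characters
import Cfsg.Agent.Lib.CharBasic
import Cfsg.Agent.Lib.CharKernel
import Cfsg.Agent.Lib.PermChar
import Cfsg.Agent.Lib.MultFree

/-!
Intertwiners of permutation modules as invariant matrices; averaging; the operators
`opOf χ ρ` have their range spanned by images of intertwiners.
-/

set_option autoImplicit false
set_option linter.unusedSectionVars false

namespace Cfsg.Agent.Lib.MultFree2

open Cfsg Representation Module Matrix
open Cfsg.Agent.Lib.CharBasic Cfsg.Agent.Lib.MultFree Cfsg.Agent.Lib.PermChar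

section leftinv

variable {G : Type*} [Group G] [Fintype G] {V W : Type*} [AddCommGroup V] [Module ℂ V]
  [FiniteDimensional ℂ V] [AddCommGroup W] [Module ℂ W] [FiniteDimensional ℂ W]

/-- Every nonzero map out of an irreducible representation has an equivariant left inverse. -/
theorem exists_left_inv {ρ₀ : Representation ℂ G W} (hirr : ρ₀.IsIrreducible)
    (ρ : Representation ℂ G V) (f₁ : IntertwiningMap ρ₀ ρ) (hf₁ : f₁ ≠ 0) :
    ∃ g : V →ₗ[ℂ] W, (∀ (x : G) (v : V), g (ρ x v) = ρ₀ x (g v)) ∧ ∀ x, g (f₁ x) = x := by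
  classical
  have hinj : Function.Injective f₁ :=
    (Representation.IsIrreducible.injective_or_eq_zero f₁).resolve_right hf₁
  have hker : LinearMap.ker f₁.toLinearMap = ⊥ := LinearMap.ker_eq_bot.2 hinj
  obtain ⟨L, hL⟩ := LinearMap.exists_leftInverse_of_injective f₁.toLinearMap hker
  have hcard : (Nat.card G : ℂ) ≠ 0 := natCard_ne_zero'
  refine ⟨(Nat.card G : ℂ)⁻¹ • ∑ h : G, (ρ₀ h) ∘ₗ L ∘ₗ (ρ (h⁻¹)), ?_, ?_⟩
  · intro x v
    simp only [LinearMap.smul_apply, LinearMap.sum_apply, LinearMap.comp_apply, map_smul, map_sum]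
    congr 1
    refine Fintype.sum_equiv (Equiv.mulLeft x⁻¹) _ _ (fun h => ?_)
    simp only [Equiv.coe_mulLeft]
    have e1 : ρ (h⁻¹) (ρ x v) = ρ ((x⁻¹ * h)⁻¹) v := by
      rw [← Module.End.mul_apply, ← map_mul]
      congr 2
      group
    have e2 : ρ₀ h = ρ₀ x * ρ₀ (x⁻¹ * h) := by
      rw [← map_mul]
      congr 1
      group
    rw [e1, e2, Module.End.mul_apply]
  · intro x
    simp only [LinearMap.smul_apply, LinearMap.sum_apply, LinearMap.comp_apply]
    have h3 : ∀ h : G, ρ₀ h (L (ρ (h⁻¹) (f₁ x))) = x := by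
      intro h
      have e1 : ρ (h⁻¹) (f₁ x) = f₁ (ρ₀ (h⁻¹) x) :=
        (LinearMap.congr_fun (f₁.isIntertwining' (h⁻¹)) x).symm
      have e2 : L (f₁ (ρ₀ (h⁻¹) x)) = ρ₀ (h⁻¹) x := LinearMap.congr_fun hL _
      rw [e1, e2, ← Module.End.mul_apply, ← map_mul, mul_inv_cancel, map_one, Module.End.one_apply]
    simp only [h3, Finset.sum_const, Finset.card_univ]
    rw [Nat.card_eq_fintype_card] at hcard
    rw [Nat.card_eq_fintype_card, ← Nat.cast_smul_eq_nsmul ℂ, smul_smul, inv_mul_cancel₀ hcard,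
      one_smul]

/-- The averaged matrix-coefficient intertwiners. -/
noncomputable def avgCoef {n : ℕ} (ρ₀ : Representation ℂ G (Fin n → ℂ)) (ρ : Representation ℂ G V)
    (v : V) (i : Fin n) : IntertwiningMap ρ₀ ρ where
  toLinearMap :=
    { toFun := fun u => ∑ g : G, ((ρ₀ g⁻¹ u) i) • ρ g v
      map_add' := fun a b => by
        simp only [map_add, Pi.add_apply, add_smul, Finset.sum_add_distrib]
      map_smul' := fun c a => by
        simp only [map_smul, Pi.smul_apply, smul_eq_mul, RingHom.id_apply, Finset.smul_sum,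
          smul_smul] }
  isIntertwining' := fun h => by
    apply LinearMap.ext
    intro u
    simp only [LinearMap.comp_apply, LinearMap.coe_mk, AddHom.coe_mk, map_sum, map_smul]
    refine Fintype.sum_equiv (Equiv.mulLeft h⁻¹) _ _ (fun g => ?_)
    simp only [Equiv.coe_mulLeft]
    have e1 : ρ₀ g⁻¹ (ρ₀ h u) = ρ₀ (h⁻¹ * g)⁻¹ u := by
      rw [← Module.End.mul_apply, ← map_mul]
      congr 2
      group
    have e2 : ρ g v = ρ h (ρ (h⁻¹ * g) v) := by
      rw [← Module.End.mul_apply, ← map_mul]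
      congr 2
      group
    rw [e1, e2]

theorem avgCoef_apply {n : ℕ} (ρ₀ : Representation ℂ G (Fin n → ℂ)) (ρ : Representation ℂ G V)
    (v : V) (i : Fin n) (u : Fin n → ℂ) :
    avgCoef ρ₀ ρ v i u = ∑ g : G, ((ρ₀ g⁻¹ u) i) • ρ g v := rfl

/-- The operator `opOf χ ρ` is a sum of values of intertwiners. -/
theorem opOf_eq_sum_avg {n : ℕ} (ρ₀ : Representation ℂ G (Fin n → ℂ)) (ρ : Representation ℂ G V)
    (v : V) :
    opOf ρ₀.character ρ v = ∑ i : Fin n, avgCoef ρ₀ ρ v i (Pi.single i 1) := by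
  classical
  simp only [avgCoef_apply]
  rw [Finset.sum_comm]
  unfold opOf
  rw [LinearMap.sum_apply, ← Equiv.sum_comp (Equiv.inv G)]
  refine Finset.sum_congr rfl fun g _ => ?_
  simp only [Equiv.inv_apply, inv_inv, LinearMap.smul_apply]
  rw [← Finset.sum_smul]
  congr 1
  show LinearMap.trace ℂ _ (ρ₀ g⁻¹) = _
  rw [LinearMap.trace_eq_matrix_trace ℂ (Pi.basisFun ℂ (Fin n))]
  simp only [Matrix.trace, Matrix.diag, LinearMap.toMatrix_apply, Pi.basisFun_apply,
    Pi.basisFun_repr]

/-- If the space of intertwiners has dimension at most one, an intertwiner of `V` acts by a scalar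
on the range of `opOf χ ρ`. -/
theorem comp_opOf_eq_smul {n : ℕ} (ρ₀ : Representation ℂ G (Fin n → ℂ)) (ρ : Representation ℂ G V)
    (hle : finrank ℂ (IntertwiningMap ρ₀ ρ) ≤ 1) (S : V →ₗ[ℂ] V)
    (hS : ∀ g, S ∘ₗ ρ g = ρ g ∘ₗ S) :
    ∃ c : ℂ, S ∘ₗ opOf ρ₀.character ρ = c • opOf ρ₀.character ρ := by
  classical
  -- all intertwiners are mapped to their multiples
  have key : ∃ c : ℂ, ∀ T : IntertwiningMap ρ₀ ρ, compL S hS T = c • T := by
    by_cases hsub : Subsingleton (IntertwiningMap ρ₀ ρ)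
    · exact ⟨0, fun T => Subsingleton.elim _ _⟩
    · rw [not_subsingleton_iff_nontrivial] at hsub
      obtain ⟨F, hF⟩ := exists_ne (0 : IntertwiningMap ρ₀ ρ)
      have hone : finrank ℂ (IntertwiningMap ρ₀ ρ) = 1 :=
        le_antisymm hle (Nat.one_le_iff_ne_zero.2 (fun h => by
          have : Subsingleton (IntertwiningMap ρ₀ ρ) := finrank_zero_iff.1 h
          exact hF (Subsingleton.elim _ _)))
      have hspan := (finrank_eq_one_iff_of_nonzero' F hF).1 hone
      obtain ⟨c, hc⟩ := hspan (compL S hS F)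
      refine ⟨c, fun T => ?_⟩
      obtain ⟨d, rfl⟩ := hspan T
      apply IntertwiningMap.ext
      apply LinearMap.ext
      intro x
      have hx : S (F x) = c • F x := (congrArg (fun P : IntertwiningMap ρ₀ ρ => P x) hc).symm
      show S (d • F x) = c • d • F x
      rw [map_smul, hx, smul_comm]
  obtain ⟨c, hc⟩ := key
  refine ⟨c, LinearMap.ext fun v => ?_⟩
  simp only [LinearMap.comp_apply, LinearMap.smul_apply]
  rw [opOf_eq_sum_avg, map_sum, Finset.smul_sum]
  refine Finset.sum_congr rfl fun i _ => ?_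
  exact congrArg (fun P : IntertwiningMap ρ₀ ρ => P (Pi.single i 1)) (hc (avgCoef ρ₀ ρ v i))

/-- If there are no intertwiners, `opOf χ ρ` vanishes. -/
theorem opOf_eq_zero_of_subsingleton {n : ℕ} (ρ₀ : Representation ℂ G (Fin n → ℂ))
    (ρ : Representation ℂ G V) (hsub : Subsingleton (IntertwiningMap ρ₀ ρ)) :
    opOf ρ₀.character ρ = 0 := by
  apply LinearMap.ext
  intro v
  rw [opOf_eq_sum_avg]
  refine Finset.sum_eq_zero fun i _ => ?_
  rw [Subsingleton.elim (avgCoef ρ₀ ρ v i) 0]
  rfl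

end leftinv

section completeness

variable {G : Type*} [Group G] [Fintype G] {V : Type*} [AddCommGroup V] [Module ℂ V]

/-- Completeness of the operators `opOf χ ρ`. -/
theorem sum_opOf (ρ : Representation ℂ G V) :
    ∑ χ : IrrCharacter G, (χ : G → ℂ) 1 • opOf (χ : G → ℂ) ρ = (Nat.card G : ℂ) • LinearMap.id := by
  classical
  unfold opOf
  simp only [Finset.smul_sum, smul_smul]
  rw [Finset.sum_comm]
  have h : ∀ g : G, ∑ χ : IrrCharacter G, ((χ : G → ℂ) 1 * (χ : G → ℂ) g) • ρ g⁻¹ =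
      (if g = 1 then (Nat.card G : ℂ) else 0) • ρ g⁻¹ := by
    intro g
    rw [← Finset.sum_smul, Cfsg.Agent.Lib.CharKernel.sum_irr_deg_mul]
  simp only [h]
  rw [Finset.sum_eq_single 1]
  · simp
    rfl
  · intro b _ hb
    simp [hb]
  · simp

end completeness

section perm

variable {G : Type*} [Group G] {Ω : Type*} [Fintype Ω] [DecidableEq Ω] [MulAction G Ω]

/-- Matrices invariant under the diagonal action. -/
def IsInvMat (G : Type*) [Group G] {Ω : Type*} [MulAction G Ω] (A : Matrix Ω Ω ℂ) : Prop :=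
  ∀ (g : G) (x y : Ω), A (g • x) (g • y) = A x y

omit [DecidableEq Ω] in
theorem permRep_apply' (g : G) (v : Ω → ℂ) (x : Ω) : permRep ℂ G Ω g v x = v (g⁻¹ • x) := rfl

theorem isInvMat_iff (A : Matrix Ω Ω ℂ) :
    (∀ g : G, (toLin' A) ∘ₗ permRep ℂ G Ω g = permRep ℂ G Ω g ∘ₗ toLin' A) ↔ IsInvMat G A := by
  constructor
  · intro h g x y
    have h1 := congrFun (LinearMap.congr_fun (h g) (Pi.single y 1)) (g • x)
    simp only [LinearMap.comp_apply, permRep_apply', toLin'_apply, inv_smul_smul] at h1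
    have h2 : (permRep ℂ G Ω g (Pi.single y 1)) = Pi.single (g • y) (1 : ℂ) := by
      funext z
      rw [permRep_apply']
      simp only [Pi.single_apply]
      by_cases hz : z = g • y
      · simp [hz]
      · have : g⁻¹ • z ≠ y := fun h => hz (by rw [← h]; simp)
        simp [hz, this]
    rw [h2, mulVec_single_one, mulVec_single_one] at h1
    simpa using h1
  · intro h g
    apply LinearMap.ext
    intro v
    funext x
    simp only [LinearMap.comp_apply, permRep_apply', toLin'_apply, mulVec, dotProduct]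
    rw [← Equiv.sum_comp (MulAction.toPerm g)]
    refine Finset.sum_congr rfl fun y _ => ?_
    simp only [MulAction.toPerm_apply, inv_smul_smul]
    have := h g (g⁻¹ • x) y
    rw [smul_inv_smul] at this
    rw [this]

theorem toLin'_mem (S : (Ω → ℂ) →ₗ[ℂ] (Ω → ℂ)) :
    (∀ g : G, S ∘ₗ permRep ℂ G Ω g = permRep ℂ G Ω g ∘ₗ S) ↔ IsInvMat G (LinearMap.toMatrix' S) := by
  rw [← isInvMat_iff, toLin'_toMatrix']

omit [Fintype Ω] [DecidableEq Ω] in
theorem IsInvMat.map_conj {A : Matrix Ω Ω ℂ} (h : IsInvMat G A) :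
    IsInvMat G (A.map (starRingEnd ℂ)) := by
  intro g x y
  simp [map_apply, h g x y]

omit [DecidableEq Ω] in
theorem IsInvMat.mul {A B : Matrix Ω Ω ℂ} (hA : IsInvMat G A) (hB : IsInvMat G B) :
    IsInvMat G (A * B) := by
  intro g x y
  simp only [mul_apply]
  rw [← Equiv.sum_comp (MulAction.toPerm g)]
  refine Finset.sum_congr rfl fun z _ => ?_
  simp only [MulAction.toPerm_apply]
  rw [hA g x z, hB g z y]

omit [Fintype Ω] [DecidableEq Ω] in
theorem IsInvMat.transpose {A : Matrix Ω Ω ℂ} (h : IsInvMat G A) : IsInvMat G Aᵀ := by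
  intro g x y
  simp [transpose_apply, h g y x]

/-- The matrix of a group element. -/
theorem toMatrix_permRep (g : G) (x y : Ω) :
    LinearMap.toMatrix' (permRep ℂ G Ω g) x y = if g⁻¹ • x = y then 1 else 0 := by
  rw [LinearMap.toMatrix'_apply, permRep_apply']
  simp [Pi.single_apply]

theorem toMatrix_permRep_map_conj (g : G) :
    (LinearMap.toMatrix' (permRep ℂ G Ω g)).map (starRingEnd ℂ) =
      LinearMap.toMatrix' (permRep ℂ G Ω g) := by
  ext x y
  rw [map_apply, toMatrix_permRep]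
  split_ifs <;> simp

theorem toMatrix_permRep_transpose (g : G) :
    (LinearMap.toMatrix' (permRep ℂ G Ω g))ᵀ = LinearMap.toMatrix' (permRep ℂ G Ω g⁻¹) := by
  ext x y
  rw [transpose_apply, toMatrix_permRep, toMatrix_permRep, inv_inv]
  by_cases h : g⁻¹ • y = x
  · have : g • x = y := by rw [← h]; simp
    simp [h, this]
  · have : g • x ≠ y := fun h' => h (by rw [← h']; simp)
    simp [h, this]

end perm

end Cfsg.Agent.Lib.MultFree2
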