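import Mathlib
import Cfsg.Prelude.Def_Characters
import Cfsg.Agent.Lib.CharBasic
import Cfsg.Agent.Lib.MultFree2

/-!
The central idempotent of a multiplicity one constituent, built from `opOf`.
-/

set_option autoImplicit false
set_option linter.unusedSectionVars false

namespace Cfsg.Agent.Lib.MultFree3

open Cfsg Representation Module
open Cfsg.Agent.Lib.CharBasic Cfsg.Agent.Lib.MultFree Cfsg.Agent.Lib.MultFree2

variable {G : Type*} [Group G] [Fintype G] {V : Type*} [AddCommGroup V] [Module ℂ V]
  [FiniteDimensional ℂ V]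

/-- The idempotent of a multiplicity one constituent. -/
theorem idem_of_mult_one (ρ : Representation ℂ G V) {n : ℕ} (ρ₀ : Representation ℂ G (Fin n → ℂ))
    (hirr : ρ₀.IsIrreducible) (h1 : classInner ρ.character ρ₀.character = 1) :
    let P : V →ₗ[ℂ] V := ((n : ℂ) / (Nat.card G : ℂ)) • opOf ρ₀.character ρ
    (∀ g, P ∘ₗ ρ g = ρ g ∘ₗ P) ∧ P ∘ₗ P = P ∧ LinearMap.trace ℂ V P = n := by
  classical
  intro P
  have hχ : IsCharacter G ρ₀.character := isCharacter_of_rep' ρ₀
  have hcl := isClassFunction_of_isCharacter hχ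
  have hG : (Nat.card G : ℂ) ≠ 0 := natCard_ne_zero'
  have hfin : finrank ℂ (IntertwiningMap ρ₀ ρ) = 1 := by
    have := classInner_eq_finrank ρ₀ ρ
    rw [h1] at this
    exact_mod_cast this.symm
  have hnt : Nontrivial (IntertwiningMap ρ₀ ρ) :=
    Module.nontrivial_of_finrank_pos (R := ℂ) (by omega)
  obtain ⟨F, hF⟩ := exists_ne (0 : IntertwiningMap ρ₀ ρ)
  -- the scalar on the irreducible
  obtain ⟨c', hc'⟩ := schur_scalar hirr (opOf ρ₀.character ρ₀) (opOf_comm hcl ρ₀)
  have hcn : c' * n = Nat.card G := by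
    have h2 := trace_opOf ρ₀.character ρ₀
    rw [hc', map_smul, LinearMap.trace_id] at h2
    simp only [Module.finrank_fin_fun, smul_eq_mul] at h2
    rw [h2]
    have h3 := classInner_eq_inv (χ := ρ₀.character) hχ
    rw [classInner_irr_self ⟨n, ρ₀, hirr, rfl⟩] at h3
    field_simp at h3
    linear_combination -h3
  have hn : (n : ℂ) ≠ 0 := by
    intro h
    rw [h, mul_zero] at hcn
    exact hG hcn.symm
  have hc'0 : c' ≠ 0 := by
    intro h
    rw [h, zero_mul] at hcn
    exact hG hcn.symm
  -- naturality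
  have hnat : ∀ u, opOf ρ₀.character ρ (F u) = F (opOf ρ₀.character ρ₀ u) := by
    intro u
    simp only [opOf, LinearMap.sum_apply, LinearMap.smul_apply, map_sum, map_smul]
    refine Finset.sum_congr rfl fun g _ => ?_
    congr 1
    exact (LinearMap.congr_fun (F.isIntertwining' g⁻¹) u).symm
  have hOF : ∀ u, opOf ρ₀.character ρ (F u) = c' • F u := by
    intro u
    rw [hnat, hc']
    simp
  -- the square
  obtain ⟨c, hc⟩ := comp_opOf_eq_smul ρ₀ ρ hfin.le (opOf ρ₀.character ρ) (opOf_comm hcl ρ)
  have hcc : c = c' := by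
    obtain ⟨u, hu⟩ : ∃ u, F u ≠ 0 := by
      by_contra hcon
      push Not at hcon
      exact hF (IntertwiningMap.ext (LinearMap.ext hcon))
    have h2 := LinearMap.congr_fun hc (F u)
    simp only [LinearMap.comp_apply, LinearMap.smul_apply, hOF, map_smul, smul_smul] at h2
    have h3 : (c' * c' - c * c') • F u = 0 := by
      rw [sub_smul, h2, sub_self]
    rcases smul_eq_zero.1 h3 with h4 | h4
    · have h5 : (c' - c) * c' = 0 := by linear_combination h4
      rcases mul_eq_zero.1 h5 with h6 | h6
      · exact (sub_eq_zero.1 h6).symm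
      · exact absurd h6 hc'0
    · exact absurd h4 hu
  rw [hcc] at hc
  refine ⟨fun g => ?_, ?_, ?_⟩
  · simp only [P, LinearMap.smul_comp, LinearMap.comp_smul]
    rw [opOf_comm hcl ρ]
  · simp only [P, LinearMap.smul_comp, LinearMap.comp_smul, smul_smul]
    rw [hc, smul_smul]
    congr 1
    have hc'e : c' = (Nat.card G : ℂ) / n := by
      rw [eq_div_iff hn]
      exact hcn
    rw [hc'e]
    field_simp
  · simp only [P, map_smul, smul_eq_mul]
    rw [trace_opOf]
    have h3 := classInner_eq_inv (χ := ρ₀.character) (isCharacter_of_rep' ρ)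
    have h4 : classInner ρ₀.character ρ.character = 1 := by
      rw [← classInner_conj_symm, h1, map_one]
    rw [h4] at h3
    have hS : ∑ g : G, ρ₀.character g * ρ.character g⁻¹ = Nat.card G := by
      have h5 := congrArg (fun z => (Nat.card G : ℂ) * z) h3
      simp only [mul_one, ← mul_assoc, mul_inv_cancel₀ hG, one_mul] at h5
      exact h5.symm
    rw [hS]
    field_simp

/-- The operator of a nontrivial irreducible character kills the invariants. -/
theorem opOf_const {χ : G → ℂ} (hχ : IsIrrCharacter G χ) (hne : χ ≠ fun _ => 1) (ρ : Representation ℂ G V)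
    (v : V) (hv : ∀ g, ρ g v = v) : opOf χ ρ v = 0 := by
  simp only [opOf, LinearMap.sum_apply, LinearMap.smul_apply, hv]
  rw [← Finset.sum_smul]
  have h1 := classInner_irr_ne hχ isIrrCharacter_one hne
  unfold classInner at h1
  simp only [map_one, mul_one] at h1
  have hG : (Nat.card G : ℂ) ≠ 0 := natCard_ne_zero'
  have h2 : ∑ g, χ g = 0 := by
    rcases mul_eq_zero.1 h1 with h3 | h3
    · exact absurd (inv_eq_zero.1 h3) hG
    · exact h3
  rw [h2, zero_smul]

end Cfsg.Agent.Lib.MultFree3
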