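import Mathlib

/-!
# Normal coverings by two subgroups: reduction to the central extension
-/

set_option autoImplicit false

namespace Cfsg.Agent.Lib.NC2

/-- Two proper subgroups of `G` containing the centre whose conjugates cover `G` give the same
in `G / Z(G)`. -/
theorem cover_quot {G : Type*} [Group G] (H K : Subgroup G) (hHz : Subgroup.center G ≤ H)
    (hKz : Subgroup.center G ≤ K) (hH : H ≠ ⊤) (hK : K ≠ ⊤)
    (hc : ∀ g : G, ∃ x : G, x * g * x⁻¹ ∈ H ∨ x * g * x⁻¹ ∈ K) :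
    ∃ H' K' : Subgroup (G ⧸ Subgroup.center G), H' ≠ ⊤ ∧ K' ≠ ⊤ ∧
      ∀ g : G ⧸ Subgroup.center G, ∃ x : G ⧸ Subgroup.center G, x * g * x⁻¹ ∈ H' ∨ x * g * x⁻¹ ∈ K' := by
  have key : ∀ L : Subgroup G, Subgroup.center G ≤ L → L ≠ ⊤ →
      L.map (QuotientGroup.mk' (Subgroup.center G)) ≠ ⊤ := by
    intro L hL hne htop
    apply hne
    rw [eq_top_iff]
    intro g _
    have hg : (QuotientGroup.mk' (Subgroup.center G) g) ∈ L.map (QuotientGroup.mk' (Subgroup.center G)) := by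
      rw [htop]; trivial
    obtain ⟨l, hl, hle⟩ := hg
    have h2 : l⁻¹ * g ∈ Subgroup.center G := by
      apply QuotientGroup.eq.1
      exact hle
    have h3 : g = l * (l⁻¹ * g) := by group
    rw [h3]
    exact L.mul_mem hl (hL h2)
  refine ⟨H.map (QuotientGroup.mk' _), K.map (QuotientGroup.mk' _), key H hHz hH, key K hKz hK, ?_⟩
  intro g
  obtain ⟨g, rfl⟩ := QuotientGroup.mk_surjective g
  obtain ⟨x, hx⟩ := hc g
  refine ⟨(x : G ⧸ Subgroup.center G), ?_⟩
  rcases hx with hx | hx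
  · left
    exact ⟨_, hx, rfl⟩
  · right
    exact ⟨_, hx, rfl⟩

end Cfsg.Agent.Lib.NC2
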