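import Mathlib

/-!
Irreducible polynomials of the same degree over a finite field: each has a root in the stem field of
the other. Artin-Schreier cubics in characteristic three.
-/

set_option autoImplicit false

namespace Cfsg.Agent.Lib.NC2Cub

open Polynomial

variable {F : Type*} [Field F] [Fintype F]

/-- A root of `p` in `F[X]/f`, when `p` and `f` are irreducible of equal degree. -/
theorem exists_comp_dvd {f p : F[X]} (hf : Irreducible f) (hp : Irreducible p)
    (hd : f.natDegree = p.natDegree) : ∃ r : F[X], f ∣ p.comp r := by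
  classical
  haveI : Fact (Irreducible f) := ⟨hf⟩
  haveI : Fact (Irreducible p) := ⟨hp⟩
  have hf0 : f ≠ 0 := hf.ne_zero
  have hp0 : p ≠ 0 := hp.ne_zero
  let K := AdjoinRoot f
  let K2 := AdjoinRoot p
  let pbf := AdjoinRoot.powerBasis hf0
  let pbp := AdjoinRoot.powerBasis hp0
  haveI : Module.Finite F K := pbf.finite
  haveI : Module.Finite F K2 := pbp.finite
  haveI : Finite K := Module.finite_of_finite F
  haveI : Finite K2 := Module.finite_of_finite F
  letI : Fintype K := Fintype.ofFinite K
  letI : Fintype K2 := Fintype.ofFinite K2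
  have hcK : Fintype.card K = Fintype.card F ^ f.natDegree := by
    have h1 := Module.card_eq_pow_finrank (K := F) (V := K)
    rw [h1, pbf.finrank]
    simp [pbf]
  have hcK2 : Fintype.card K2 = Fintype.card F ^ p.natDegree := by
    have h1 := Module.card_eq_pow_finrank (K := F) (V := K2)
    rw [h1, pbp.finrank]
    simp [pbp]
  have hcc : Fintype.card K2 = Fintype.card K := by rw [hcK, hcK2, hd]
  -- `p` divides `X^Q - X`
  have h1 : p ∣ X ^ Fintype.card K - X := by
    rw [← AdjoinRoot.mk_eq_zero]
    have h2 : (AdjoinRoot.root p) ^ Fintype.card K2 = AdjoinRoot.root p := FiniteField.pow_card _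
    rw [hcc] at h2
    simp only [map_sub, map_pow, AdjoinRoot.mk_X, h2, sub_self]
  have h3 : (p.map (algebraMap F K)) ∣ (X ^ Fintype.card K - X : K[X]) := by
    have := Polynomial.map_dvd (algebraMap F K) h1
    simpa using this
  have hsp : (X ^ Fintype.card K - X : K[X]).Splits := by
    have h5 := FiniteField.roots_X_pow_card_sub_X K
    have hne := FiniteField.X_pow_card_sub_X_ne_zero K (Fintype.one_lt_card (α := K))
    have hdeg := FiniteField.X_pow_card_sub_X_natDegree_eq K (Fintype.one_lt_card (α := K))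
    rw [Polynomial.splits_iff_card_roots, h5, hdeg]
    simp
  have hsp2 : (p.map (algebraMap F K)).Splits := hsp.of_dvd (FiniteField.X_pow_card_sub_X_ne_zero K (Fintype.one_lt_card (α := K))) h3
  have hdeg2 : (p.map (algebraMap F K)).degree ≠ 0 := by
    rw [degree_map]
    exact (Polynomial.degree_pos_of_irreducible hp).ne'
  obtain ⟨y, hy⟩ := hsp2.exists_eval_eq_zero hdeg2
  obtain ⟨r, rfl⟩ := AdjoinRoot.mk_surjective y
  refine ⟨r, ?_⟩
  rw [← AdjoinRoot.mk_eq_zero]
  have h6 : AdjoinRoot.mk f (p.comp r) = eval₂ (algebraMap F K) (AdjoinRoot.mk f r) p := by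
    rw [Polynomial.comp, Polynomial.hom_eval₂]
    rfl
  rw [h6, ← Polynomial.eval_map]
  exact hy

/-- In characteristic three, `x ↦ x ^ 3` is bijective on a finite field. -/
theorem exists_cube_root (h3 : (3 : F) = 0) (c : F) : ∃ b : F, b ^ 3 = c := by
  have hinj : Function.Injective (fun x : F => x ^ 3) := by
    intro x y hxy
    have hxy' : x ^ 3 = y ^ 3 := hxy
    have h : (x - y) ^ 3 = 0 := by
      have : (x - y) ^ 3 = x ^ 3 - y ^ 3 - 3 * (x ^ 2 * y - x * y ^ 2) := by ring
      rw [this, hxy', h3]; ring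
    exact sub_eq_zero.1 (pow_eq_zero_iff (by norm_num) |>.1 h)
  exact (Finite.surjective_of_injective hinj) c

theorem cube_inj (h3 : (3 : F) = 0) {x y : F} (h : x ^ 3 = y ^ 3) : x = y := by
  have h' : (x - y) ^ 3 = 0 := by
    have : (x - y) ^ 3 = x ^ 3 - y ^ 3 - 3 * (x ^ 2 * y - x * y ^ 2) := by ring
    rw [this, h, h3]; ring
  exact sub_eq_zero.1 (pow_eq_zero_iff (by norm_num) |>.1 h')

/-- The cubes of `x ^ 3 - x` and `i` : `i ^ 3 = i` in a field of characteristic three. -/
theorem trichotomy {i : F} (h : i ^ 3 = i) : i = 0 ∨ i = 1 ∨ i = -1 := by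
  have h1 : i * ((i - 1) * (i + 1)) = 0 := by linear_combination h
  rcases mul_eq_zero.1 h1 with h2 | h2
  · exact Or.inl h2
  · rcases mul_eq_zero.1 h2 with h4 | h4
    · exact Or.inr (Or.inl (sub_eq_zero.1 h4))
    · exact Or.inr (Or.inr (eq_neg_of_add_eq_zero_left h4))

/-- A non-surjective Artin-Schreier value. -/
theorem exists_not_image (h3 : (3 : F) = 0) (h2 : (2 : F) ≠ 0) :
    ∃ c : F, ∀ x : F, x ^ 3 - x ≠ c := by
  by_contra hcon
  push_neg at hcon
  have hsurj : Function.Surjective (fun x : F => x ^ 3 - x) := fun c => hcon c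
  have hinj := Finite.injective_iff_surjective.2 hsurj
  have h01 : (fun x : F => x ^ 3 - x) 0 = (fun x : F => x ^ 3 - x) 1 := by simp
  have := hinj h01
  exact zero_ne_one this

end Cfsg.Agent.Lib.NC2Cub
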