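import Mathlib
import Cfsg.Prelude.Def_Classical
import Cfsg.Agent.Lib.NC2Base
import Cfsg.Agent.Lib.SpBasic
import Cfsg.Agent.Lib.SpCenter

/-!
# `PSp_{2m}(F)`, `F` finite of even order, is the union of the conjugates of two orthogonal groups
-/

set_option autoImplicit false

namespace Cfsg.Agent.Lib.NC2SpE

open Matrix Cfsg.Agent.Lib.SpBasic

variable {F : Type*} [Field F] {m : ℕ}

local notation "V" => (Fin m ⊕ Fin m → F)

/-- Quadratic forms polarising to `ω`. -/
structure IsQ (Q : (Fin m ⊕ Fin m → F) → F) : Prop where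
  add : ∀ x y, Q (x + y) = Q x + Q y + ω x y
  smul : ∀ (c : F) x, Q (c • x) = c ^ 2 * Q x

/-- The form `Q + ω(·, v)²`. -/
def shift (Q : (Fin m ⊕ Fin m → F) → F) (v : Fin m ⊕ Fin m → F) : (Fin m ⊕ Fin m → F) → F :=
  fun x => Q x + (ω x v) ^ 2

/-- The isometry group of a function on the natural module. -/
def O (Q : (Fin m ⊕ Fin m → F) → F) : Subgroup (Sp (Fin m) F) where
  carrier := {A | ∀ x, Q (A • x) = Q x}
  mul_mem' := by
    intro a b ha hb x
    show Q ((a * b) • x) = Q x
    rw [mul_smul, ha, hb]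
  one_mem' := by
    intro x
    show Q ((1 : Sp (Fin m) F) • x) = Q x
    rw [one_smul]
  inv_mem' := by
    intro a ha x
    show Q (a⁻¹ • x) = Q x
    have := ha (a⁻¹ • x)
    rw [smul_inv_smul] at this
    exact this.symm

variable [CharP F 2]

omit [CharP F 2] in
lemma IsQ.neg {Q : (Fin m ⊕ Fin m → F) → F} (hQ : IsQ Q) (x : Fin m ⊕ Fin m → F) : Q (-x) = Q x := by
  have := hQ.smul (-1) x
  simpa using this

lemma sq_add' (a b : F) : (a + b) ^ 2 = a ^ 2 + b ^ 2 := by
  have h : (2 : F) = 0 := CharTwo.two_eq_zero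
  linear_combination (a * b) * h

lemma sq_inj {a b : F} (h : a ^ 2 = b ^ 2) : a = b := by
  have h2 : (a + b) ^ 2 = 0 := by
    rw [sq_add', h, CharTwo.add_self_eq_zero]
  have h3 : a + b = 0 := by simpa using h2
  exact CharTwo.add_eq_zero.1 h3

lemma shift_isQ {Q : (Fin m ⊕ Fin m → F) → F} (hQ : IsQ Q) (v : Fin m ⊕ Fin m → F) : IsQ (shift Q v) := by
  refine ⟨?_, ?_⟩
  · intro x y
    simp only [shift, hQ.add, ω_add_left, sq_add']
    ring
  · intro c x
    simp only [shift, hQ.smul, ω_smul_left]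
    ring

lemma shift_shift (Q : (Fin m ⊕ Fin m → F) → F) (u v : Fin m ⊕ Fin m → F) :
    shift (shift Q u) v = shift Q (u + v) := by
  funext x
  simp only [shift, ω_add_right, sq_add']
  ring

/-- A representation of linear forms by `ω`. -/
lemma exists_rep (ℓ : (Fin m ⊕ Fin m → F) →ₗ[F] F) : ∃ w, ∀ x, ℓ x = ω x w := by
  refine ⟨Sum.elim (fun i => ℓ (eR i)) (fun i => - ℓ (eL i)), ?_⟩
  intro x
  have h1 : ℓ x = ∑ s, x s • ℓ (Pi.single s 1) := by
    have h2 := ℓ.pi_apply_eq_sum_univ x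
    rw [h2]
    apply Finset.sum_congr rfl
    intro s _
    congr 2
    funext j
    simp [Pi.single_apply, eq_comm]
  rw [h1, Fintype.sum_sum_type, ω, J_mulVec]
  simp only [dotProduct, Fintype.sum_sum_type, Sum.elim_inl, Sum.elim_inr, smul_eq_mul, mul_neg, neg_neg]

/-- Left version of the representation. -/
lemma exists_rep' (ℓ : (Fin m ⊕ Fin m → F) →ₗ[F] F) : ∃ w, ∀ x, ℓ x = ω w x := by
  obtain ⟨w, hw⟩ := exists_rep ℓ
  refine ⟨-w, fun x => ?_⟩
  rw [hw, ω_neg_left, ω_comm]

variable [Finite F]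

lemma exists_sqrt : ∃ r : F → F, ∀ a, r a ^ 2 = a := by
  have hinj : Function.Injective (fun a : F => a ^ 2) := fun a b h => sq_inj h
  have hb := Finite.surjective_of_injective hinj
  exact ⟨Function.surjInv hb, Function.surjInv_eq hb⟩

/-- Every element of `Sp` fixes a quadratic form polarising to `ω` (Dye). -/
theorem exists_fixed {Q : (Fin m ⊕ Fin m → F) → F} (hQ : IsQ Q) (A : Sp (Fin m) F) :
    ∃ v, ∀ x, shift Q v (A • x) = shift Q v x := by
  classical
  obtain ⟨r, hr⟩ := exists_sqrt (F := F)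
  have hradd : ∀ a b, r (a + b) = r a + r b := by
    intro a b
    apply sq_inj
    rw [hr, sq_add', hr, hr]
  have hrmul : ∀ (c a : F), r (c ^ 2 * a) = c * r a := by
    intro c a
    apply sq_inj
    rw [hr, mul_pow, hr]
  let L : (Fin m ⊕ Fin m → F) → F := fun x => Q (A • x) + Q x
  have hL : ∀ x y, L (x + y) = L x + L y := by
    intro x y
    simp only [L, smul_add, hQ.add, ω_smul_smul]
    have : ω x y + ω x y = 0 := CharTwo.add_self_eq_zero _
    linear_combination this
  let ℓ : (Fin m ⊕ Fin m → F) →ₗ[F] F :=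
    { toFun := fun x => r (L x)
      map_add' := by
        intro x y
        show r (L (x + y)) = r (L x) + r (L y)
        rw [hL, hradd]
      map_smul' := by
        intro c x
        show r (L (c • x)) = c • r (L x)
        have : L (c • x) = c ^ 2 * L x := by
          simp only [L, smul_comm A c x, hQ.smul]
          ring
        rw [this, hrmul]
        rfl }
  have hℓ : ∀ x, ℓ x = r (L x) := fun x => rfl
  obtain ⟨w, hw⟩ := exists_rep ℓ
  -- the map `v ↦ A⁻¹ v - v`
  let f : (Fin m ⊕ Fin m → F) →ₗ[F] (Fin m ⊕ Fin m → F) :=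
    { toFun := fun v => A⁻¹ • v - v
      map_add' := by
        intro x y
        simp only [smul_add]
        abel
      map_smul' := by
        intro c x
        simp only [RingHom.id_apply, smul_sub, smul_comm _ c] }
  have hwf : w ∈ LinearMap.range f := by
    by_contra hne
    obtain ⟨φ, hφ1, hφ2⟩ := Submodule.exists_le_ker_of_notMem hne
    obtain ⟨x, hx⟩ := exists_rep' φ
    have hfix : A • x = x := by
      have h0 : ∀ y, ω (A • x - x) y = 0 := by
        intro y
        have h1 : φ (f y) = 0 := by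
          have : f y ∈ LinearMap.ker φ := hφ2 ⟨y, rfl⟩
          simpa using this
        rw [hx] at h1
        have h2 : f y = A⁻¹ • y - y := rfl
        rw [h2, ω_sub_right, ← ω_smul_left_eq] at h1
        rw [ω_sub_left]
        exact h1
      have := eq_zero_of_ω_eq_zero h0
      exact sub_eq_zero.1 this
    have h3 : ℓ x = 0 := by
      rw [hℓ]
      have : L x = 0 := by
        simp only [L, hfix]
        exact CharTwo.add_self_eq_zero _
      rw [this]
      apply sq_inj
      rw [hr]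
      simp
    apply hφ1
    rw [hx, ← hw, h3]
  obtain ⟨v, hv⟩ := hwf
  refine ⟨v, fun x => ?_⟩
  have hwv : w = A⁻¹ • v - v := hv.symm
  have h1 : ω x w = ω (A • x) v - ω x v := by
    rw [hwv, ω_sub_right, ω_smul_left_eq]
  have h2 : L x = (ω x w) ^ 2 := by
    rw [← hw, hℓ, hr]
  simp only [shift]
  have h3 : Q (A • x) + Q x = (ω (A • x) v - ω x v) ^ 2 := by
    rw [← h1, ← h2]
  have h4 : (ω (A • x) v - ω x v) = ω (A • x) v + ω x v := CharTwo.sub_eq_add _ _
  rw [h4, sq_add'] at h3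
  have h5 : ∀ a : F, a + a = 0 := CharTwo.add_self_eq_zero
  have h6 := h5 (Q x)
  have h7 := h5 ((ω (A • x) v) ^ 2)
  linear_combination h3 - h6 + h7

omit [Finite F] in
/-- A transvection realises the shift by a vector whose value is of Artin-Schreier type. -/
lemma T_shift {Q : (Fin m ⊕ Fin m → F) → F} (hQ : IsQ Q) {v : Fin m ⊕ Fin m → F} {e : F}
    (he : e ^ 2 * Q v + e = 1) (x : Fin m ⊕ Fin m → F) :
    Q (T v e • x) = shift Q v x := by
  rw [T_smul, hQ.add, hQ.smul]
  simp only [shift, ω_smul_right]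
  have hcomm : ω v x = ω x v := by
    rw [ω_comm, CharTwo.neg_eq]
  rw [hcomm]
  linear_combination (ω x v) ^ 2 * he

omit [Finite F] in
lemma exists_e {a s : F} (h : a = s ^ 2 + s) : ∃ e : F, e ^ 2 * a + e = 1 := by
  by_cases ha : a = 0
  · exact ⟨1, by simp [ha]⟩
  · refine ⟨s / a, ?_⟩
    have h2 : s ^ 2 + s = a := h.symm
    field_simp
    linear_combination h2

/-- The Artin-Schreier subgroup. -/
def wp : F →+ F where
  toFun := fun s => s ^ 2 + s
  map_zero' := by simp
  map_add' := by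
    intro a b
    rw [sq_add']
    ring

omit [Finite F] in
lemma wp_apply (s : F) : wp s = s ^ 2 + s := rfl

lemma wp_index : (wp (F := F)).range.index = 2 := by
  classical
  haveI := Fintype.ofFinite F
  have hker : (wp (F := F)).ker = AddSubgroup.zmultiples (1 : F) := by
    ext s
    rw [AddMonoidHom.mem_ker, wp_apply]
    constructor
    · intro h
      have h2 : s * (s + 1) = 0 := by linear_combination h
      rcases mul_eq_zero.1 h2 with h3 | h3
      · rw [h3]; exact zero_mem _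
      · have : s = 1 := by
          have := CharTwo.add_eq_zero.1 h3
          exact this
        rw [this]
        exact AddSubgroup.mem_zmultiples _
    · intro h
      obtain ⟨k, rfl⟩ := AddSubgroup.mem_zmultiples_iff.1 h
      have h2 : (2 : F) = 0 := CharTwo.two_eq_zero
      have : ∀ j : ℤ, (j • (1 : F)) ^ 2 + j • (1 : F) = 0 := by
        intro j
        rcases Int.even_or_odd' j with ⟨i, rfl | rfl⟩
        · simp [h2]
        · simp [h2, CharTwo.add_self_eq_zero]
      exact this k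
  have hk2 : Nat.card (wp (F := F)).ker = 2 := by
    haveI : Fact (Nat.Prime 2) := ⟨Nat.prime_two⟩
    rw [hker, Nat.card_zmultiples, addOrderOf_eq_prime (by rw [two_nsmul]; exact CharTwo.add_self_eq_zero _) one_ne_zero]
  have h1 := AddSubgroup.card_mul_index (wp (F := F)).ker
  have h2 := AddSubgroup.card_mul_index (wp (F := F)).range
  have h3 : (wp (F := F)).ker.index = Nat.card (wp (F := F)).range := AddSubgroup.index_ker _
  rw [h3] at h1
  have hpos : 0 < Nat.card (wp (F := F)).range := Nat.card_pos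
  rw [hk2, ← h2, mul_comm] at h1
  exact (Nat.eq_of_mul_eq_mul_left hpos h1).symm

lemma exists_not_wp : ∃ c : F, c ∉ (wp (F := F)).range := by
  by_contra h
  push Not at h
  have : (wp (F := F)).range = ⊤ := by
    ext x
    simp [h x]
  have h2 := wp_index (F := F)
  rw [this] at h2
  simp at h2

lemma add_mem_wp {a b : F} (ha : a ∉ (wp (F := F)).range) (hb : b ∉ (wp (F := F)).range) :
    a + b ∈ (wp (F := F)).range := by
  rw [AddSubgroup.add_mem_iff_of_index_two wp_index]
  simp [ha, hb]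

omit [CharP F 2] [Finite F] in
/-- The standard form. -/
def Q0 (x : Fin m ⊕ Fin m → F) : F := ∑ i, x (Sum.inl i) * x (Sum.inr i)

omit [Finite F] in
lemma Q0_isQ : IsQ (Q0 : (Fin m ⊕ Fin m → F) → F) := by
  refine ⟨?_, ?_⟩
  · intro x y
    rw [ω_apply]
    simp only [Q0, Pi.add_apply, add_mul, mul_add]
    rw [← Finset.sum_add_distrib, ← Finset.sum_add_distrib]
    apply Finset.sum_congr rfl
    intro i _
    have h2 : ∀ a : F, a + a = 0 := CharTwo.add_self_eq_zero
    have h3 := h2 (x (Sum.inl i) * y (Sum.inr i))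
    linear_combination h3
  · intro c x
    simp only [Q0, Pi.smul_apply, smul_eq_mul, Finset.mul_sum]
    apply Finset.sum_congr rfl
    intro i _
    ring

/-- The classification of the shifted forms. -/
lemma exists_T {c : F} (hc : c ∉ (wp (F := F)).range) (i : Fin m) (v : Fin m ⊕ Fin m → F) :
    ∃ t : Sp (Fin m) F, (∀ x, shift Q0 v x = Q0 (t • x)) ∨
      (∀ x, shift Q0 v x = shift Q0 (c • eL i + eR i) (t • x)) := by
  have hQ₀ := Q0_isQ (F := F) (m := m)
  by_cases hv : Q0 v ∈ (wp (F := F)).range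
  · obtain ⟨s, hs⟩ := hv
    obtain ⟨e, he⟩ := exists_e (a := Q0 v) (s := s) hs.symm
    exact ⟨T v e, Or.inl fun x => (T_shift hQ₀ he x).symm⟩
  · set v₁ : Fin m ⊕ Fin m → F := c • eL i + eR i with hv₁
    have hQ₁ := shift_isQ hQ₀ v₁
    have hQv₁ : Q0 v₁ = c := by
      rw [hv₁, hQ₀.add, hQ₀.smul]
      have h1 : Q0 (eL i : Fin m ⊕ Fin m → F) = 0 := by
        simp [Q0]
      have h2 : Q0 (eR i : Fin m ⊕ Fin m → F) = 0 := by
        simp [Q0]
      rw [h1, h2, ω_smul_left, ω_eR_right]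
      simp [CharTwo.neg_eq]
    have hself : ω v₁ v₁ = 0 := ω_self _
    have hu : shift Q0 v₁ (v + v₁) ∈ (wp (F := F)).range := by
      simp only [shift, hQ₀.add, ω_add_left, hself, add_zero, hQv₁]
      have h1 : Q0 v + c ∈ (wp (F := F)).range := add_mem_wp hv hc
      have h2 : ω v v₁ ^ 2 + ω v v₁ ∈ (wp (F := F)).range := ⟨_, rfl⟩
      have h3 := add_mem h1 h2
      convert h3 using 1
      ring
    obtain ⟨s, hs⟩ := hu
    obtain ⟨e, he⟩ := exists_e (a := shift Q0 v₁ (v + v₁)) (s := s) hs.symm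
    refine ⟨T (v + v₁) e, Or.inr fun x => ?_⟩
    rw [T_shift hQ₁ he x, shift_shift]
    have : v₁ + (v + v₁) = v := by
      have : v₁ + v₁ = 0 := by
        funext j
        exact CharTwo.add_self_eq_zero _
      rw [add_comm v v₁, ← add_assoc, this, zero_add]
    rw [this]

/-- The main theorem at the level of `Sp`. -/
theorem main (hm : 2 ≤ m) :
    ∃ H K : Subgroup (Sp (Fin m) F), Subgroup.center _ ≤ H ∧ Subgroup.center _ ≤ K ∧
      H ≠ ⊤ ∧ K ≠ ⊤ ∧ ∀ g : Sp (Fin m) F, ∃ x : Sp (Fin m) F, x * g * x⁻¹ ∈ H ∨ x * g * x⁻¹ ∈ K := by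
  classical
  haveI : Nonempty (Fin m) := ⟨⟨0, by omega⟩⟩
  obtain ⟨c, hc⟩ := exists_not_wp (F := F)
  let i : Fin m := ⟨0, by omega⟩
  let j : Fin m := ⟨1, by omega⟩
  have hij : i ≠ j := by simp [i, j, Fin.ext_iff]
  set v₁ : Fin m ⊕ Fin m → F := c • eL i + eR i with hv₁
  have hQ₀ := Q0_isQ (F := F) (m := m)
  have hQ₁ := shift_isQ hQ₀ v₁
  have hcen : ∀ Q : (Fin m ⊕ Fin m → F) → F, IsQ Q → Subgroup.center (Sp (Fin m) F) ≤ O Q := by
    intro Q hQ z hz x
    rcases (Cfsg.Agent.Lib.SpCenter.mem_center_iff).1 hz with rfl | rfl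
    · simp
    · have : (Cfsg.Agent.Lib.SpCenter.negOne : Sp (Fin m) F) • x = -x := by
        simp [Cfsg.Agent.Lib.SpCenter.negOne, Sp_smul_def]
      rw [this, hQ.neg]
  have hprop : ∀ Q : (Fin m ⊕ Fin m → F) → F, IsQ Q → Q (eL j) = 0 → O Q ≠ ⊤ := by
    intro Q hQ h0 htop
    have h1 : T (eL j) 1 ∈ O Q := by rw [htop]; trivial
    have h2 := h1 (eR j)
    have h3 : (1 : F) ^ 2 * Q (eL j) + 1 = 1 := by rw [h0]; ring
    rw [T_shift hQ h3] at h2
    simp only [shift] at h2
    rw [ω_eL_right] at h2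
    simp at h2
  refine ⟨O Q0, O (shift Q0 v₁), hcen _ hQ₀, hcen _ hQ₁, ?_, ?_, ?_⟩
  · exact hprop _ hQ₀ (by simp [Q0])
  · apply hprop _ hQ₁
    simp only [shift]
    have h1 : Q0 (eL j : Fin m ⊕ Fin m → F) = 0 := by simp [Q0]
    have h2 : ω (eL j) v₁ = 0 := by
      rw [hv₁, ω_add_right, ω_smul_right, ω_eL_right, ω_eR_right]
      simp [hij, hij.symm]
    rw [h1, h2]
    simp
  · intro g
    obtain ⟨v, hv⟩ := exists_fixed hQ₀ g
    obtain ⟨t, ht⟩ := exists_T (F := F) hc i v
    refine ⟨t, ?_⟩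
    have key : ∀ Q : (Fin m ⊕ Fin m → F) → F, (∀ x, shift Q0 v x = Q (t • x)) →
        t * g * t⁻¹ ∈ O Q := by
      intro Q hQ y
      have h1 := hv (t⁻¹ • y)
      rw [hQ, hQ, smul_inv_smul] at h1
      show Q ((t * g * t⁻¹) • y) = Q y
      rw [mul_smul, mul_smul]
      exact h1
    rcases ht with ht | ht
    · exact Or.inl (key _ ht)
    · exact Or.inr (key _ ht)

end Cfsg.Agent.Lib.NC2SpE
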