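import Mathlib
import Cfsg.Prelude.Def_G2
import Cfsg.Agent.Lib.ZornAlg
import Cfsg.Agent.Lib.NC2SpE

/-!
# `G₂(F)`, `F` finite of even order, is the union of the conjugates of two subgroups

Both are stabilisers of a two-dimensional subalgebra containing `1`.
-/

set_option autoImplicit false

namespace Cfsg.Agent.Lib.NC2G2

open Matrix Cfsg.Lie Cfsg.Agent.Lib.ZornAlg

variable {F : Type*} [Field F]

/-- The action of `G₂`. -/
def act (g : G2 F) (x : Fin 8 → F) : Fin 8 → F := (g.1 : Matrix (Fin 8) (Fin 8) F) *ᵥ x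

lemma act_mul' (g h : G2 F) (x : Fin 8 → F) : act (g * h) x = act g (act h x) := by
  simp [act, Matrix.mulVec_mulVec]

lemma act_one' (x : Fin 8 → F) : act (1 : G2 F) x = x := by
  simp [act]

lemma act_inv_act (g : G2 F) (x : Fin 8 → F) : act g (act g⁻¹ x) = x := by
  rw [← act_mul', mul_inv_cancel, act_one']

lemma act_act_inv (g : G2 F) (x : Fin 8 → F) : act g⁻¹ (act g x) = x := by
  rw [← act_mul', inv_mul_cancel, act_one']

lemma act_add (g : G2 F) (x y : Fin 8 → F) : act g (x + y) = act g x + act g y := by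
  simp [act, Matrix.mulVec_add]

lemma act_smul (g : G2 F) (c : F) (x : Fin 8 → F) : act g (c • x) = c • act g x := by
  simp [act, Matrix.mulVec_smul]

lemma act_sub (g : G2 F) (x y : Fin 8 → F) : act g (x - y) = act g x - act g y := by
  simp [act, Matrix.mulVec_sub]

lemma act_mulZ (g : G2 F) (x y : Fin 8 → F) : act g (zornMul x y) = zornMul (act g x) (act g y) :=
  g.2 x y

lemma act_zOne (g : G2 F) : act g zOne = zOne := by
  have h := act_mulZ g zOne (act g⁻¹ zOne)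
  rw [zOne_mul, act_inv_act, mul_zOne] at h
  exact h.symm

/-- The trace. -/
def tr (x : Fin 8 → F) : F := x 0 + x 7

/-- The norm. -/
def nrm (x : Fin 8 → F) : F := x 0 * x 7 - (x 1 * x 4 + x 2 * x 5 + x 3 * x 6)

lemma zorn_sq (x : Fin 8 → F) : zornMul x x = tr x • x - nrm x • zOne := by
  apply ext8 <;> simp [tr, nrm, zOne] <;> ring

lemma tr_add (x y : Fin 8 → F) : tr (x + y) = tr x + tr y := by
  simp [tr]; ring

lemma nrm_add (x y : Fin 8 → F) : nrm (x + y) = nrm x + nrm y + zPolar x y := by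
  simp [nrm, zPolar]; ring

lemma nrm_add_one (x : Fin 8 → F) (c : F) : nrm (x + c • zOne) = nrm x + c ^ 2 + c * tr x := by
  simp [nrm, tr, zOne]; ring

lemma tr_add_one (x : Fin 8 → F) (c : F) : tr (x + c • zOne) = tr x + 2 * c := by
  simp [tr, zOne]; ring

/-- Automorphisms preserve the trace and the norm. -/
lemma act_tr_nrm (g : G2 F) (x : Fin 8 → F) : tr (act g x) = tr x ∧ nrm (act g x) = nrm x := by
  have h1 : act g (zornMul x x) = zornMul (act g x) (act g x) := act_mulZ g x x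
  rw [zorn_sq, zorn_sq, act_sub, act_smul, act_smul, act_zOne] at h1
  have h2 : (tr x - tr (act g x)) • act g x = (nrm x - nrm (act g x)) • zOne := by
    have h3 := sub_eq_zero.2 h1
    rw [sub_smul, sub_smul]
    have h4 : tr x • act g x - tr (act g x) • act g x - (nrm x • zOne - nrm (act g x) • (zOne : Fin 8 → F)) =
      tr x • act g x - nrm x • zOne - (tr (act g x) • act g x - nrm (act g x) • zOne) := by abel
    exact sub_eq_zero.1 (h4.trans h3)
  by_cases h5 : tr x - tr (act g x) = 0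
  · rw [h5, zero_smul] at h2
    have h6 : nrm x - nrm (act g x) = 0 := by
      by_contra hne
      have h7 := smul_eq_zero.1 h2.symm
      rcases h7 with h7 | h7
      · exact hne h7
      · have := congrFun h7 0
        simp [zOne] at this
    exact ⟨(sub_eq_zero.1 h5).symm, (sub_eq_zero.1 h6).symm⟩
  · exfalso
    -- then `x` is a scalar, so that the trace is preserved
    have h6 : act g x = ((tr x - tr (act g x))⁻¹ * (nrm x - nrm (act g x))) • zOne := by
      rw [mul_smul, ← h2, smul_smul, inv_mul_cancel₀ h5, one_smul]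
    have h7 : x = ((tr x - tr (act g x))⁻¹ * (nrm x - nrm (act g x))) • zOne := by
      have := act_act_inv g x
      rw [h6, act_smul, act_zOne] at this
      exact this.symm
    apply h5
    rw [h6, ← h7, sub_self]

lemma act_tr (g : G2 F) (x : Fin 8 → F) : tr (act g x) = tr x := (act_tr_nrm g x).1

lemma act_nrm (g : G2 F) (x : Fin 8 → F) : nrm (act g x) = nrm x := (act_tr_nrm g x).2

lemma polar_eq (x y : Fin 8 → F) : zPolar x y = nrm (x + y) - nrm x - nrm y := by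
  rw [nrm_add]; ring

lemma act_polar (g : G2 F) (x y : Fin 8 → F) : zPolar (act g x) (act g y) = zPolar x y := by
  rw [polar_eq, polar_eq, ← act_add, act_nrm, act_nrm, act_nrm]

lemma polar_add_right (x y z : Fin 8 → F) : zPolar x (y + z) = zPolar x y + zPolar x z := by
  simp [zPolar]; ring

lemma polar_sub_right (x y z : Fin 8 → F) : zPolar x (y - z) = zPolar x y - zPolar x z := by
  simp [zPolar]; ring

lemma polar_sub_left (x y z : Fin 8 → F) : zPolar (x - y) z = zPolar x z - zPolar y z := by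
  simp [zPolar]; ring

lemma polar_smul_right (x z : Fin 8 → F) (c : F) : zPolar x (c • z) = c * zPolar x z := by
  simp [zPolar]; ring

lemma polar_one (x : Fin 8 → F) : zPolar x zOne = tr x := by
  simp [zPolar, tr, zOne]

/-- Representation of linear forms by the polar form. -/
lemma exists_rep (φ : (Fin 8 → F) →ₗ[F] F) : ∃ z, ∀ y, φ y = zPolar z y := by
  let e : Fin 8 → (Fin 8 → F) := fun s => Pi.single s 1
  refine ⟨![φ (e 7), - φ (e 4), - φ (e 5), - φ (e 6), - φ (e 1), - φ (e 2), - φ (e 3), φ (e 0)], ?_⟩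
  intro y
  have h1 : φ y = ∑ s, y s * φ (e s) := by
    have h2 := φ.pi_apply_eq_sum_univ y
    rw [h2]
    apply Finset.sum_congr rfl
    intro s _
    have : (fun j => if s = j then (1 : F) else 0) = e s := by
      funext j
      simp [e, Pi.single_apply, eq_comm]
    rw [this, smul_eq_mul]
  rw [h1, Fin.sum_univ_eight]
  simp [zPolar]
  ring

/-- Building an element of `G₂` from an explicit automorphism. -/
lemma exists_G2 (φ ψ : (Fin 8 → F) → (Fin 8 → F))
    (hadd : ∀ x y, φ (x + y) = φ x + φ y) (hsmul : ∀ (c : F) x, φ (c • x) = c • φ x)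
    (hinv : ∀ x, φ (ψ x) = x) (hmul : ∀ x y, φ (zornMul x y) = zornMul (φ x) (φ y)) :
    ∃ g : G2 F, ∀ x, act g x = φ x := by
  let L : (Fin 8 → F) →ₗ[F] (Fin 8 → F) :=
    { toFun := φ
      map_add' := hadd
      map_smul' := hsmul }
  let M := LinearMap.toMatrix' L
  have hM : ∀ x, M *ᵥ x = φ x := fun x => by
    simp [M, L]
  have hs : Function.Surjective M.mulVec := fun x => ⟨ψ x, by rw [hM, hinv]⟩
  have hu : IsUnit M := Matrix.mulVec_surjective_iff_isUnit.1 hs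
  refine ⟨⟨hu.unit, ?_⟩, ?_⟩
  · intro x y
    have hc : (Units.coeHom (Matrix (Fin 8) (Fin 8) F) hu.unit) = M := rfl
    rw [hc, hM, hM, hM, hmul]
  · intro x
    exact hM x

/-- The swap. -/
lemma exists_swap : ∃ g : G2 F, ∀ x, act g x = ![x 7, -x 4, -x 5, -x 6, -x 1, -x 2, -x 3, x 0] := by
  apply exists_G2 _ (fun x => ![x 7, -x 4, -x 5, -x 6, -x 1, -x 2, -x 3, x 0])
  · intro x y; apply ext8 <;> simp <;> ring
  · intro c x; apply ext8 <;> simp
  · intro x; apply ext8 <;> simp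
  · intro x y; apply ext8 <;> simp <;> ring

/-- The family `E_w`. -/
def Ew (w₀ w₁ w₂ : F) (x : Fin 8 → F) : Fin 8 → F :=
  let d := w₀ * x 4 + w₁ * x 5 + w₂ * x 6
  ![x 0 - d,
    x 1 + (x 0 - x 7) * w₀ - d * w₀,
    x 2 + (x 0 - x 7) * w₁ - d * w₁,
    x 3 + (x 0 - x 7) * w₂ - d * w₂,
    x 4 + (w₁ * x 3 - w₂ * x 2),
    x 5 + (w₂ * x 1 - w₀ * x 3),
    x 6 + (w₀ * x 2 - w₁ * x 1),
    x 7 + d]

lemma exists_Ew (w₀ w₁ w₂ : F) : ∃ g : G2 F, ∀ x, act g x = Ew w₀ w₁ w₂ x := by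
  apply exists_G2 _ (Ew (-w₀) (-w₁) (-w₂))
  · intro x y; apply ext8 <;> simp [Ew] <;> ring
  · intro c x; apply ext8 <;> simp [Ew] <;> ring
  · intro x; apply ext8 <;> simp [Ew] <;> ring
  · intro x y; apply ext8 <;> simp [Ew] <;> ring

/-- The family `S_{u,v}` from `SL₃`. -/
def Su (u v : F) (x : Fin 8 → F) : Fin 8 → F :=
  ![x 0, x 1, x 2, x 3 + u * x 1 + v * x 2, x 4 - u * x 6, x 5 - v * x 6, x 6, x 7]

lemma exists_Su (u v : F) : ∃ g : G2 F, ∀ x, act g x = Su u v x := by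
  apply exists_G2 _ (Su (-u) (-v))
  · intro x y; apply ext8 <;> simp [Su] <;> ring
  · intro c x; apply ext8 <;> simp [Su] <;> ring
  · intro x; apply ext8 <;> simp [Su] <;> ring
  · intro x y; apply ext8 <;> simp [Su] <;> ring

/-- The transposed family from `SL₃`. -/
def Ru (u v : F) (x : Fin 8 → F) : Fin 8 → F :=
  ![x 0, x 1 - u * x 3, x 2 - v * x 3, x 3, x 4, x 5, x 6 + u * x 4 + v * x 5, x 7]

lemma exists_Ru (u v : F) : ∃ g : G2 F, ∀ x, act g x = Ru u v x := by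
  apply exists_G2 _ (Ru (-u) (-v))
  · intro x y; apply ext8 <;> simp [Ru] <;> ring
  · intro c x; apply ext8 <;> simp [Ru] <;> ring
  · intro x; apply ext8 <;> simp [Ru] <;> ring
  · intro x y; apply ext8 <;> simp [Ru] <;> ring

/-- Being in one orbit. -/
def Orb (x y : Fin 8 → F) : Prop := ∃ g : G2 F, act g x = y

lemma Orb.refl (x : Fin 8 → F) : Orb x x := ⟨1, act_one' x⟩

lemma Orb.trans {x y z : Fin 8 → F} (h1 : Orb x y) (h2 : Orb y z) : Orb x z := by
  obtain ⟨g, rfl⟩ := h1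
  obtain ⟨h, rfl⟩ := h2
  exact ⟨h * g, act_mul' h g x⟩

lemma Orb.tr {x y : Fin 8 → F} (h1 : Orb x y) : tr y = tr x := by
  obtain ⟨g, rfl⟩ := h1
  exact act_tr g x

lemma Orb.nrm {x y : Fin 8 → F} (h1 : Orb x y) : nrm y = nrm x := by
  obtain ⟨g, rfl⟩ := h1
  exact act_nrm g x

lemma step1 (x : Fin 8 → F) (hb : x 4 ≠ 0 ∨ x 5 ≠ 0 ∨ x 6 ≠ 0) : ∃ y, Orb x y ∧ y 6 = 1 := by
  have h4 : ∀ z : Fin 8 → F, z 4 ≠ 0 → ∃ y, Orb z y ∧ y 6 = 1 := by
    intro z hz
    obtain ⟨R, hR⟩ := exists_Ru ((1 - z 6) / z 4) (0 : F)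
    refine ⟨_, ⟨R, rfl⟩, ?_⟩
    rw [hR]
    simp [Ru]
    field_simp
    ring
  rcases hb with h | h | h
  · exact h4 x h
  · obtain ⟨R, hR⟩ := exists_Ru (0 : F) ((1 - x 6) / x 5)
    refine ⟨_, ⟨R, rfl⟩, ?_⟩
    rw [hR]
    simp [Ru]
    field_simp
    ring
  · obtain ⟨S, hS⟩ := exists_Su (1 : F) 0
    by_cases h4' : x 4 = 0
    · obtain ⟨y, hy1, hy2⟩ := h4 (act S x) (by
        rw [hS]
        simpa [Su, h4'] using h)
      exact ⟨y, Orb.trans ⟨S, rfl⟩ hy1, hy2⟩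
    · exact h4 x h4'

lemma step2 (x : Fin 8 → F) (h : x 6 = 1) :
    ∃ y, Orb x y ∧ y 4 = 0 ∧ y 5 = 0 ∧ y 6 = 1 ∧ y 0 = x 0 ∧ y 7 = x 7 := by
  obtain ⟨S, hS⟩ := exists_Su (x 4) (x 5)
  refine ⟨_, ⟨S, rfl⟩, ?_⟩
  rw [hS]
  simp [Su, h]

section char2

variable [CharP F 2]

lemma two0 : (2 : F) = 0 := CharTwo.two_eq_zero

lemma tr_zOne : tr (zOne : Fin 8 → F) = 0 := by
  simp [tr, zOne, CharTwo.add_self_eq_zero]

/-- A vector orthogonal to all trace zero vectors is a scalar. -/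
lemma eq_smul_one_of_perp {t : Fin 8 → F} (h : ∀ w, tr w = 0 → zPolar t w = 0) : t = t 0 • zOne := by
  have hs : ∀ k : Fin 8, k ≠ 0 → k ≠ 7 → tr (Pi.single k 1 : Fin 8 → F) = 0 := by
    intro k h0 h7
    simp [tr, Pi.single_apply, h0.symm, h7.symm]
  have h1 := h _ (hs 4 (by decide) (by decide))
  have h2 := h _ (hs 5 (by decide) (by decide))
  have h3 := h _ (hs 6 (by decide) (by decide))
  have h4 := h _ (hs 1 (by decide) (by decide))
  have h5 := h _ (hs 2 (by decide) (by decide))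
  have h6 := h _ (hs 3 (by decide) (by decide))
  have h7 := h _ tr_zOne
  rw [polar_one] at h7
  simp [zPolar, Pi.single_apply] at h1 h2 h3 h4 h5 h6
  have h8 : t 7 = t 0 := by
    have : t 0 + t 7 = 0 := h7
    rw [CharTwo.add_eq_zero.1 this]
  apply ext8 <;> simp [zOne, *]

/-- The main fixed point lemma: `g` stabilises `F + F x` for some `x` of trace `1`. -/
theorem exists_fixed (g : G2 F) : ∃ (x : Fin 8 → F) (c : F), tr x = 1 ∧ act g x = x + c • zOne := by
  let y₀ : Fin 8 → F := ![0, 0, 0, 0, 0, 0, 0, 1]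
  have hy₀ : tr y₀ = 1 := by simp [tr, y₀]
  let gL : (Fin 8 → F) →ₗ[F] (Fin 8 → F) := Matrix.mulVecLin (g.1 : Matrix (Fin 8) (Fin 8) F)
  have hgL : ∀ x, gL x = act g x := fun x => rfl
  let trL : (Fin 8 → F) →ₗ[F] F :=
    { toFun := tr
      map_add' := tr_add
      map_smul' := by
        intro c x
        simp [tr]; ring }
  have htrL : ∀ x, trL x = tr x := fun x => rfl
  let S : Submodule F (Fin 8 → F) := (LinearMap.ker trL).map (gL - LinearMap.id) ⊔ Submodule.span F {zOne}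
  have hu : act g y₀ - y₀ ∈ S := by
    by_contra hne
    obtain ⟨φ, hφ1, hφ2⟩ := Submodule.exists_le_ker_of_notMem hne
    obtain ⟨z, hz⟩ := exists_rep φ
    have h1 : ∀ u ∈ S, zPolar z u = 0 := by
      intro u hu
      rw [← hz]
      simpa using hφ2 hu
    have h2 : tr z = 0 := by
      rw [← polar_one]
      apply h1
      exact Submodule.mem_sup_right (Submodule.mem_span_singleton_self _)
    have h3 : ∀ w, tr w = 0 → zPolar z (act g w - w) = 0 := by
      intro w hw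
      apply h1
      apply Submodule.mem_sup_left
      exact ⟨w, by simpa [htrL] using hw, by simp [hgL]⟩
    have h4 : ∀ w, tr w = 0 → zPolar (act g⁻¹ z - z) w = 0 := by
      intro w hw
      rw [polar_sub_left]
      have h5 := act_polar g (act g⁻¹ z) w
      rw [act_inv_act] at h5
      rw [← h5]
      have h6 := h3 w hw
      rw [polar_sub_right] at h6
      exact h6
    have h5 := eq_smul_one_of_perp h4
    set c := (act g⁻¹ z - z) 0 with hc
    have h6 : act g⁻¹ z = z + c • zOne := by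
      rw [← h5]; abel
    have h7 : c = 0 := by
      have h8 := act_nrm g⁻¹ z
      rw [h6, nrm_add_one, h2, mul_zero, add_zero] at h8
      have h9 : c ^ 2 = 0 := by linear_combination h8
      simpa using h9
    have h8 : act g z = z := by
      have h9 := act_inv_act g z
      rw [h6, h7, zero_smul, add_zero] at h9
      exact h9
    apply hφ1
    rw [hz, polar_sub_right]
    have h9 := act_polar g z y₀
    rw [h8] at h9
    rw [h9, sub_self]
  obtain ⟨u, hu1, v, hv1, huv⟩ := Submodule.mem_sup.1 hu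
  obtain ⟨w, hw, rfl⟩ := hu1
  obtain ⟨s, rfl⟩ := Submodule.mem_span_singleton.1 hv1
  refine ⟨y₀ - w, s, ?_, ?_⟩
  · have : tr w = 0 := by simpa [htrL] using hw
    simp only [tr] at this hy₀ ⊢
    simp only [Pi.sub_apply]
    linear_combination hy₀ - this
  · have h1 : act g y₀ - y₀ = (act g w - w) + s • zOne := by
      rw [← huv]
      simp [hgL]
    rw [act_sub]
    have h2 : act g y₀ = y₀ + (act g w - w) + s • zOne := by
      rw [add_assoc, ← h1]; abel
    rw [h2]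
    abel

lemma step0 (x : Fin 8 → F) (hx : tr x = 1) : ∃ y, Orb x y ∧ (y 4 ≠ 0 ∨ y 5 ≠ 0 ∨ y 6 ≠ 0) := by
  by_cases hb : x 4 ≠ 0 ∨ x 5 ≠ 0 ∨ x 6 ≠ 0
  · exact ⟨x, Orb.refl x, hb⟩
  push Not at hb
  obtain ⟨σ, hσ⟩ := exists_swap (F := F)
  have hswap : ∀ z : Fin 8 → F, (z 1 ≠ 0 ∨ z 2 ≠ 0 ∨ z 3 ≠ 0) →
      ∃ y, Orb z y ∧ (y 4 ≠ 0 ∨ y 5 ≠ 0 ∨ y 6 ≠ 0) := by
    intro z hz
    refine ⟨_, ⟨σ, rfl⟩, ?_⟩
    rw [hσ]
    simpa using hz
  by_cases ha : x 1 ≠ 0 ∨ x 2 ≠ 0 ∨ x 3 ≠ 0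
  · exact hswap x ha
  push Not at ha
  obtain ⟨E, hE⟩ := exists_Ew (1 : F) 0 0
  obtain ⟨y, hy1, hy2⟩ := hswap (act E x) (by
    left
    rw [hE]
    have h1 : x 0 + x 7 = 1 := hx
    have h2 : x 0 - x 7 = 1 := by rw [CharTwo.sub_eq_add]; exact h1
    simp [Ew, hb.1, hb.2.1, hb.2.2, ha.1, h2])
  exact ⟨y, Orb.trans ⟨E, rfl⟩ hy1, hy2⟩

lemma step3 (x : Fin 8 → F) (hx : tr x = 1) : ∃ y, Orb x y ∧ y 0 = 0 ∧ y 4 = 0 ∧ y 5 = 0 ∧ y 6 = 1 ∧ y 7 = 1 := by
  obtain ⟨y₀, h1, h2⟩ := step0 x hx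
  obtain ⟨y₁, h3, h4⟩ := step1 y₀ h2
  obtain ⟨y₂, h5, h6, h7, h8, -, -⟩ := step2 y₁ h4
  obtain ⟨E, hE⟩ := exists_Ew (0 : F) 0 (y₂ 0)
  have h9 : Orb y₂ (Ew 0 0 (y₂ 0) y₂) := ⟨E, hE y₂⟩
  obtain ⟨y₃, h10, h11, h12, h13, h14, h15⟩ := step2 (Ew 0 0 (y₂ 0) y₂) (by simp [Ew, h8])
  have hO := (h1.trans h3).trans (h5.trans (h9.trans h10))
  refine ⟨y₃, hO, ?_, h11, h12, h13, ?_⟩
  · rw [h14]
    simp [Ew, h8]
  · have h16 : tr y₃ = 1 := by rw [hO.tr, hx]
    have h17 : y₃ 0 = 0 := by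
      rw [h14]
      simp [Ew, h8]
    simpa [tr, h17] using h16

/-- The normal form. -/
def xn (n : F) : Fin 8 → F := ![0, 0, 0, n, 0, 0, 1, 1]

/-- Transitivity on elements of trace `1` and given norm. -/
theorem orb_xn (x : Fin 8 → F) (hx : tr x = 1) : Orb x (xn (nrm x)) := by
  obtain ⟨y, hy, h0, h4, h5, h6, h7⟩ := step3 x hx
  obtain ⟨E, hE⟩ := exists_Ew (y 1) (y 2) (0 : F)
  have h9 : Orb y (Ew (y 1) (y 2) 0 y) := ⟨E, hE y⟩
  set w := Ew (y 1) (y 2) 0 y with hw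
  obtain ⟨S, hS⟩ := exists_Su (w 4) (w 5)
  have h10 : Orb w (Su (w 4) (w 5) w) := ⟨S, hS w⟩
  have hw6 : w 6 = 1 := by
    rw [hw]; simp [Ew, h6]; ring
  have hw1 : w 1 = 0 := by
    rw [hw]; simp [Ew, h0, h4, h5, h6, h7]
  have hw2 : w 2 = 0 := by
    rw [hw]; simp [Ew, h0, h4, h5, h6, h7]
  have hw3 : w 3 = y 3 := by
    rw [hw]; simp [Ew, h0, h4, h5, h6, h7]
  have hw0 : w 0 = 0 := by
    rw [hw]; simp [Ew, h0, h4, h5, h6, h7]
  have hw7 : w 7 = 1 := by
    rw [hw]; simp [Ew, h0, h4, h5, h6, h7]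
  have h11 : Su (w 4) (w 5) w = xn (y 3) := by
    apply ext8 <;> simp [Su, xn, hw0, hw1, hw2, hw3, hw6, hw7]
  rw [h11] at h10
  have hO := hy.trans (h9.trans h10)
  have h12 : nrm (xn (y 3)) = nrm x := hO.nrm
  have h13 : nrm (xn (y 3)) = y 3 := by
    simp [nrm, xn, CharTwo.neg_eq]
  rw [h13] at h12
  rw [← h12]
  exact hO

/-- The stabiliser of `F + F (xn n)`. -/
def stab (n : F) : Subgroup (G2 F) where
  carrier := {g | ∃ c : F, act g (xn n) = xn n + c • zOne}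
  mul_mem' := by
    rintro a b ⟨c, hc⟩ ⟨d, hd⟩
    refine ⟨c + d, ?_⟩
    rw [act_mul', hd, act_add, act_smul, act_zOne, hc, add_smul, add_assoc]
  one_mem' := ⟨0, by simp [act_one']⟩
  inv_mem' := by
    rintro a ⟨c, hc⟩
    refine ⟨-c, ?_⟩
    have h1 := act_act_inv a (xn n)
    rw [hc, act_add, act_smul, act_zOne] at h1
    rw [neg_smul, ← sub_eq_add_neg]
    exact eq_sub_of_add_eq h1

lemma stab_ne_top (n : F) : stab n ≠ ⊤ := by
  intro h
  obtain ⟨S, hS⟩ := exists_Su (1 : F) 0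
  have h1 : S ∈ stab n := by rw [h]; trivial
  obtain ⟨c, hc⟩ := h1
  rw [hS] at hc
  have := congrFun hc 4
  simp [Su, xn, zOne] at this

variable [Finite F]

open Cfsg.Agent.Lib.NC2SpE in
/-- The main theorem for `G₂`. -/
theorem main : ∃ H K : Subgroup (G2 F), H ≠ ⊤ ∧ K ≠ ⊤ ∧ ∀ g : G2 F, ∃ x : G2 F, x * g * x⁻¹ ∈ H ∨ x * g * x⁻¹ ∈ K := by
  obtain ⟨c₁, hc₁⟩ := exists_not_wp (F := F)
  refine ⟨stab 0, stab c₁, stab_ne_top _, stab_ne_top _, ?_⟩
  intro g
  obtain ⟨x, c, hx, hgx⟩ := exists_fixed g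
  have key : ∀ r : F, ∃ τ : G2 F, τ * g * τ⁻¹ ∈ stab (nrm (x + r • zOne)) := by
    intro r
    have h1 : tr (x + r • zOne) = 1 := by
      rw [tr_add_one, hx, two0]; ring
    obtain ⟨τ, hτ⟩ := orb_xn _ h1
    refine ⟨τ, c, ?_⟩
    rw [← hτ, act_mul', act_mul', act_act_inv, act_add, act_smul, act_zOne, hgx, add_right_comm,
      act_add, act_smul, act_zOne]
  by_cases h : nrm x ∈ (wp (F := F)).range
  · obtain ⟨r, hr⟩ := h
    obtain ⟨τ, hτ⟩ := key r
    refine ⟨τ, Or.inl ?_⟩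
    have : nrm (x + r • zOne) = 0 := by
      rw [nrm_add_one, hx, ← hr, wp_apply]
      have h2 : ∀ a : F, a + a = 0 := CharTwo.add_self_eq_zero
      linear_combination h2 (r ^ 2 + r)
    rwa [this] at hτ
  · obtain ⟨r, hr⟩ := add_mem_wp h hc₁
    obtain ⟨τ, hτ⟩ := key r
    refine ⟨τ, Or.inr ?_⟩
    have : nrm (x + r • zOne) = c₁ := by
      rw [nrm_add_one, hx]
      rw [wp_apply] at hr
      have h2 : ∀ a : F, a + a = 0 := CharTwo.add_self_eq_zero
      linear_combination hr + h2 (nrm x)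
    rwa [this] at hτ

end char2

end Cfsg.Agent.Lib.NC2G2
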