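import Mathlib
import Cfsg.Agent.Lib.NC2Base

/-!
# `PSL_n(F)`, `n = 2, 3, 4`, is the union of the conjugates of two subgroups

These are a point stabiliser and the centraliser of a field of degree `d` (`d = 2, 3, 2`).
-/

set_option autoImplicit false

namespace Cfsg.Agent.Lib.NC2Lin

open Matrix Polynomial Module

section poly

variable {F : Type*} [Field F] [Fintype F]

lemma comp_pow_card (f r : F[X]) : f.comp (r ^ Fintype.card F) = (f.comp r) ^ Fintype.card F := by
  have h := FiniteField.expand_card f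
  have h2 : f.comp (r ^ Fintype.card F) = (expand F (Fintype.card F) f).comp r := by
    rw [expand_eq_comp_X_pow, comp_assoc]
    simp
  rw [h2, h]
  simp

lemma comp_pow_card_pow (f r : F[X]) (i : ℕ) :
    f.comp (r ^ (Fintype.card F) ^ i) = (f.comp r) ^ (Fintype.card F) ^ i := by
  induction i with
  | zero => simp
  | succ i ih =>
    rw [pow_succ, pow_mul, comp_pow_card, ih, pow_mul]

lemma exists_dvd_comp (f : F[X]) (d : ℕ) (hd : 2 ≤ d)
    (hroot : ∀ p : F[X], Irreducible p → d ∣ p.natDegree → ∃ r : F[X], p ∣ f.comp r) (χ : F[X]) :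
    (∀ p : F[X], Irreducible p → p ∣ χ → d ∣ p.natDegree) → ∃ r : F[X], χ ∣ f.comp r := by
  induction χ using UniqueFactorizationMonoid.induction_on_coprime with
  | h0 =>
    intro h
    have := h X irreducible_X (dvd_zero _)
    rw [natDegree_X] at this
    have h1 := Nat.le_of_dvd one_pos this
    omega
  | h1 hu =>
    intro _
    exact ⟨0, hu.dvd⟩
  | hpr i hp =>
    rename_i p
    intro h
    by_cases hi : i = 0
    · subst hi
      exact ⟨0, by simp⟩
    obtain ⟨r₀, hr₀⟩ := hroot p hp.irreducible (h p hp.irreducible (dvd_pow_self p hi))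
    refine ⟨r₀ ^ (Fintype.card F) ^ i, ?_⟩
    rw [comp_pow_card_pow]
    have h2 : i ≤ (Fintype.card F) ^ i := (Nat.lt_pow_self Fintype.one_lt_card).le
    exact (pow_dvd_pow p h2).trans (pow_dvd_pow_of_dvd hr₀ _)
  | hcp hxy hx hy =>
    rename_i x y
    intro h
    obtain ⟨rx, hrx⟩ := hx (fun p hp hd => h p hp (hd.trans (dvd_mul_right _ _)))
    obtain ⟨ry, hry⟩ := hy (fun p hp hd => h p hp (hd.trans (dvd_mul_left _ _)))
    have hco := hxy.isCoprime
    obtain ⟨u, v, huv⟩ := hco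
    refine ⟨rx * (v * y) + ry * (u * x), ?_⟩
    have hcomp : ∀ a : F[X], f.comp a = (f.map C).eval a := by
      intro a
      rw [eval_map, Polynomial.comp]
    have key : ∀ (s a b : F[X]), s ∣ a - b → s ∣ f.comp b → s ∣ f.comp a := by
      intro s a b h1 h2
      have h3 : a - b ∣ (f.map C).eval a - (f.map C).eval b := sub_dvd_eval_sub a b _
      rw [← hcomp, ← hcomp] at h3
      have h4 := dvd_add (h1.trans h3) h2
      simpa using h4
    apply IsCoprime.mul_dvd ⟨u, v, huv⟩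
    · apply key x _ rx _ hrx
      refine ⟨(ry - rx) * u, ?_⟩
      have : v * y = 1 - u * x := by linear_combination huv
      rw [this]
      ring
    · apply key y _ ry _ hry
      refine ⟨(rx - ry) * v, ?_⟩
      have : u * x = 1 - v * y := by linear_combination huv
      rw [this]
      ring

variable {E : Type*} [Field E] [Algebra F E] [Finite E]

lemma exists_root_mod (α : E) (p : F[X]) (hp : Irreducible p) (hd : finrank F E ∣ p.natDegree) :
    ∃ r : F[X], p ∣ (minpoly F α).comp r := by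
  haveI : Fact (Irreducible p) := ⟨hp⟩
  have hfr : finrank F (AdjoinRoot p) = p.natDegree := by
    rw [(AdjoinRoot.powerBasis hp.ne_zero).finrank, AdjoinRoot.powerBasis_dim]
  have hnd : 0 < p.natDegree := hp.natDegree_pos
  haveI : Module.Finite F (AdjoinRoot p) := (AdjoinRoot.powerBasis hp.ne_zero).finite
  haveI : Finite (AdjoinRoot p) := Module.finite_of_finite F
  obtain ⟨φ⟩ := FiniteField.nonempty_algHom_of_finrank_dvd (F := F) (K := E) (L := AdjoinRoot p)
    (by rw [hfr]; exact hd)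
  obtain ⟨r, hr⟩ := AdjoinRoot.mk_surjective (φ α)
  refine ⟨r, ?_⟩
  rw [← AdjoinRoot.mk_eq_zero]
  have h1 : aeval (φ α) (minpoly F α) = 0 := by
    rw [aeval_algHom_apply, minpoly.aeval, map_zero]
  rw [← hr] at h1
  rw [Polynomial.comp, hom_eval₂, ← h1, aeval_def]
  rfl

end poly

section trans

variable {F : Type*} [Field F] {n : ℕ}

lemma val_mul' (a b : SpecialLinearGroup (Fin n) F) : (a * b).1 = a.1 * b.1 := rfl

lemma inv_mulVec_mulVec (a : SpecialLinearGroup (Fin n) F) (v : Fin n → F) : (a⁻¹).1 *ᵥ (a.1 *ᵥ v) = v := by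
  rw [mulVec_mulVec, ← val_mul', inv_mul_cancel]
  simp

lemma mulVec_inv_mulVec (a : SpecialLinearGroup (Fin n) F) (v : Fin n → F) : a.1 *ᵥ ((a⁻¹).1 *ᵥ v) = v := by
  rw [mulVec_mulVec, ← val_mul', mul_inv_cancel]
  simp

/-- The elementary matrix `1 + u φ`, for `φ(u) = 0`. -/
def tv (u φ : Fin n → F) (h : φ ⬝ᵥ u = 0) : SpecialLinearGroup (Fin n) F :=
  ⟨1 + replicateCol (Fin 1) u * replicateRow (Fin 1) φ, by
    have h2 := det_one_add_replicateCol_mul_replicateRow (ι := Fin 1) u φ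
    rw [h, add_zero] at h2
    exact h2⟩

lemma tv_mulVec (u φ : Fin n → F) (h : φ ⬝ᵥ u = 0) (v : Fin n → F) :
    (tv u φ h).1 *ᵥ v = v + (φ ⬝ᵥ v) • u := by
  simp only [tv, add_mulVec, one_mulVec, ← mulVec_mulVec]
  congr 1
  ext i
  simp [mulVec, replicateRow, dotProduct, Finset.mul_sum, mul_comm, smul_eq_mul]

/-- `SL_n` is transitive on nonzero vectors. -/
lemma exists_SL_map (hn : 2 ≤ n) (i₀ : Fin n) {v : Fin n → F} (hv : v ≠ 0) :
    ∃ x : SpecialLinearGroup (Fin n) F, x.1 *ᵥ v = Pi.single i₀ 1 := by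
  classical
  have key : ∀ w : Fin n → F, ∀ i, i ≠ i₀ → w i ≠ 0 →
      ∃ x : SpecialLinearGroup (Fin n) F, x.1 *ᵥ w = Pi.single i₀ 1 := by
    intro w i hi hw
    let φ : Fin n → F := Pi.single i₀ 1 + Pi.single i ((1 - w i₀) * (w i)⁻¹)
    have h1 : φ ⬝ᵥ w = 1 := by
      simp only [φ, add_dotProduct, single_dotProduct]
      field_simp
      ring
    have h2 : φ ⬝ᵥ (Pi.single i₀ 1 : Fin n → F) = 1 := by
      simp only [φ, add_dotProduct, single_dotProduct]
      simp [hi, Pi.single_apply]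
    have h3 : φ ⬝ᵥ ((Pi.single i₀ 1 : Fin n → F) - w) = 0 := by
      rw [dotProduct_sub, h1, h2, sub_self]
    refine ⟨tv _ φ h3, ?_⟩
    rw [tv_mulVec, h1, one_smul]
    abel
  obtain ⟨i, hi⟩ : ∃ i, v i ≠ 0 := by
    by_contra hc
    push Not at hc
    exact hv (funext hc)
  by_cases hi₀ : i = i₀
  · -- move to another coordinate
    obtain ⟨j, hj⟩ : ∃ j : Fin n, j ≠ i₀ := by
      by_contra hc
      push Not at hc
      have : Subsingleton (Fin n) := ⟨fun a b => by rw [hc a, hc b]⟩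
      have h2 : Fintype.card (Fin n) ≤ 1 := Fintype.card_le_one_iff_subsingleton.2 this
      simp at h2
      omega
    by_cases hvj : v j = 0
    · have h3 : (Pi.single i₀ 1 : Fin n → F) ⬝ᵥ (Pi.single j 1 : Fin n → F) = 0 := by
        simp [hj]
      obtain ⟨x, hx⟩ := key ((tv _ _ h3).1 *ᵥ v) j hj (by
        rw [tv_mulVec]
        subst hi₀
        simp [hvj, hi])
      refine ⟨x * tv _ _ h3, ?_⟩
      rw [val_mul', ← mulVec_mulVec, hx]
    · exact key v j hj hvj
  · exact key v i hi₀ hi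

end trans

section main

variable {F : Type*} [Field F] [Fintype F] {n : ℕ}

/-- Line stabiliser. -/
def Hl (i₀ : Fin n) : Subgroup (SpecialLinearGroup (Fin n) F) where
  carrier := {g | ∃ c : F, g.1 *ᵥ (Pi.single i₀ 1) = c • Pi.single i₀ 1}
  mul_mem' := by
    rintro a b ⟨c, hc⟩ ⟨d, hd⟩
    refine ⟨c * d, ?_⟩
    rw [val_mul', ← mulVec_mulVec, hd, mulVec_smul, hc, smul_smul, mul_comm]
  one_mem' := ⟨1, by rw [one_smul]; exact one_mulVec _⟩
  inv_mem' := by
    rintro a ⟨c, hc⟩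
    have hc0 : c ≠ 0 := by
      rintro rfl
      have h1 := inv_mulVec_mulVec a (Pi.single i₀ 1)
      rw [hc, zero_smul, mulVec_zero] at h1
      have := congrFun h1 i₀
      simp at this
    refine ⟨c⁻¹, ?_⟩
    have h1 := inv_mulVec_mulVec a (Pi.single i₀ 1)
    rw [hc, mulVec_smul] at h1
    nth_rw 2 [← h1]
    rw [smul_smul, inv_mul_cancel₀ hc0, one_smul]

lemma Hl_ne_top (hn : 2 ≤ n) (i₀ : Fin n) : Hl (F := F) i₀ ≠ ⊤ := by
  classical
  intro htop
  obtain ⟨j, hj⟩ : ∃ j : Fin n, j ≠ i₀ := by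
    by_contra hc
    push Not at hc
    have : Subsingleton (Fin n) := ⟨fun a b => by rw [hc a, hc b]⟩
    have h2 : Fintype.card (Fin n) ≤ 1 := Fintype.card_le_one_iff_subsingleton.2 this
    simp at h2
    omega
  have h3 : (Pi.single i₀ 1 : Fin n → F) ⬝ᵥ (Pi.single j 1 : Fin n → F) = 0 := by
    simp [hj]
  have h4 : tv _ _ h3 ∈ Hl (F := F) i₀ := by rw [htop]; trivial
  obtain ⟨c, hc⟩ := h4
  rw [tv_mulVec] at hc
  have := congrFun hc j
  simp [hj, hj.symm] at this

lemma center_le_Hl (i₀ : Fin n) : Subgroup.center _ ≤ Hl (F := F) i₀ := by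
  intro z hz
  obtain ⟨r, -, hr⟩ := Matrix.SpecialLinearGroup.mem_center_iff.1 hz
  refine ⟨r, ?_⟩
  have : z.1 = scalar (Fin n) r := hr.symm
  rw [this]
  ext j
  simp [scalar_apply, mulVec_diagonal]

variable {E : Type*} [Field E] [Algebra F E] [Finite E] {k : ℕ}

/-- Coordinates of an algebra map to matrices. -/
lemma exists_coords (ρ : E →ₐ[F] Matrix (Fin n) (Fin n) F) (hk : finrank F E * k = n) :
    ∃ S : (Fin k → E) ≃ₗ[F] (Fin n → F), ∀ (a : E) x, S (a • x) = ρ a *ᵥ S x := by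
  letI mod : Module E (Fin n → F) :=
    { smul := fun a v => ρ a *ᵥ v
      one_smul := fun v => by
        show ρ 1 *ᵥ v = v
        simp
      mul_smul := fun a b v => by
        show ρ (a * b) *ᵥ v = ρ a *ᵥ (ρ b *ᵥ v)
        rw [map_mul, mulVec_mulVec]
      smul_zero := fun a => by
        show ρ a *ᵥ 0 = 0
        simp
      smul_add := fun a v w => by
        show ρ a *ᵥ (v + w) = ρ a *ᵥ v + ρ a *ᵥ w
        rw [mulVec_add]
      add_smul := fun a b v => by
        show ρ (a + b) *ᵥ v = ρ a *ᵥ v + ρ b *ᵥ v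
        rw [map_add, add_mulVec]
      zero_smul := fun v => by
        show ρ 0 *ᵥ v = 0
        simp }
  have hsm : ∀ (a : E) (v : Fin n → F), a • v = ρ a *ᵥ v := fun a v => rfl
  haveI tower : IsScalarTower F E (Fin n → F) := by
    refine ⟨fun c a v => ?_⟩
    rw [hsm, hsm, map_smul, smul_mulVec]
  have hpos : 0 < finrank F E := finrank_pos
  haveI : Module.Finite F E := Module.Finite.of_finite
  have hfr : finrank F E * finrank E (Fin n → F) = n := by
    have := Module.finrank_mul_finrank F E (Fin n → F)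
    simpa using this
  have hk2 : finrank E (Fin n → F) = k := by
    apply Nat.eq_of_mul_eq_mul_left hpos
    rw [hfr, hk]
  haveI : Module.Finite E (Fin n → F) := Module.Finite.of_restrictScalars_finite F E _
  have h3 : finrank E (Fin k → E) = finrank E (Fin n → F) := by
    rw [hk2]; simp
  let T := LinearEquiv.ofFinrankEq (Fin k → E) (Fin n → F) h3
  refine ⟨T.restrictScalars F, fun a x => ?_⟩
  show T (a • x) = ρ a *ᵥ T x
  rw [map_smul]
  rfl

/-- Multiplication by `a` in the model. -/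
def mulE (ι : (Fin k → E) ≃ₗ[F] (Fin n → F)) (a : E) (v : Fin n → F) : Fin n → F := ι (a • ι.symm v)

lemma mulE_coords (ι : (Fin k → E) ≃ₗ[F] (Fin n → F)) (a : E) (x : Fin k → E) :
    mulE ι a (ι x) = ι (a • x) := by
  simp [mulE]

lemma mulE_smul (ι : (Fin k → E) ≃ₗ[F] (Fin n → F)) (a : E) (c : F) (v : Fin n → F) :
    mulE ι a (c • v) = c • mulE ι a v := by
  simp only [mulE, map_smul]
  rw [smul_comm]
  simp

/-- The centraliser of the field `E`. -/
def Kc (ι : (Fin k → E) ≃ₗ[F] (Fin n → F)) : Subgroup (SpecialLinearGroup (Fin n) F) where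
  carrier := {g | ∀ a v, g.1 *ᵥ mulE ι a v = mulE ι a (g.1 *ᵥ v)}
  mul_mem' := by
    intro g h hg hh a v
    rw [val_mul', ← mulVec_mulVec, ← mulVec_mulVec, hh, hg]
  one_mem' := by
    intro a v
    show (1 : Matrix _ _ F) *ᵥ _ = mulE ι a ((1 : Matrix _ _ F) *ᵥ v)
    simp
  inv_mem' := by
    intro g hg a v
    have h1 := hg a ((g⁻¹).1 *ᵥ v)
    rw [mulVec_inv_mulVec] at h1
    rw [← h1, inv_mulVec_mulVec]

lemma center_le_Kc (ι : (Fin k → E) ≃ₗ[F] (Fin n → F)) : Subgroup.center _ ≤ Kc ι := by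
  intro z hz a v
  obtain ⟨r, -, hr⟩ := Matrix.SpecialLinearGroup.mem_center_iff.1 hz
  have h1 : ∀ w : Fin n → F, z.1 *ᵥ w = r • w := by
    intro w
    have : z.1 = scalar (Fin n) r := hr.symm
    rw [this]
    ext j
    simp [scalar_apply, mulVec_diagonal]
  rw [h1, h1, mulE_smul]

lemma Kc_ne_top (ι : (Fin k → E) ≃ₗ[F] (Fin n → F)) (hk : 0 < k) (hd : 2 ≤ finrank F E) : Kc ι ≠ ⊤ := by
  intro htop
  haveI : Module.Finite F E := Module.Finite.of_finite
  have h1 : finrank F E = 1 := by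
    rw [_root_.finrank_eq_one_iff_of_nonzero' (1 : E) one_ne_zero]
    intro α
    let L : (Fin n → F) →ₗ[F] (Fin n → F) :=
      { toFun := mulE ι α
        map_add' := by
          intro x y
          simp [mulE, smul_add]
        map_smul' := by
          intro c x
          exact mulE_smul ι α c x }
    have hL : ∀ v, LinearMap.toMatrix' L *ᵥ v = mulE ι α v := fun v => by
      rw [LinearMap.toMatrix'_mulVec]
      rfl
    obtain ⟨c, hc⟩ := Matrix.mem_range_scalar_of_commute_transvectionStruct (M := LinearMap.toMatrix' L) (by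
      intro t
      let t' : SpecialLinearGroup (Fin n) F := ⟨t.toMatrix, t.det⟩
      have h2 : t' ∈ Kc ι := by rw [htop]; trivial
      have h3 : t'.1 * LinearMap.toMatrix' L = LinearMap.toMatrix' L * t'.1 := by
        apply mulVec_injective
        funext v
        rw [← mulVec_mulVec, ← mulVec_mulVec, hL, hL]
        exact h2 α v
      exact h3)
    refine ⟨c, ?_⟩
    have h4 : ∀ v, mulE ι α v = c • v := by
      intro v
      rw [← hL, ← hc]
      ext j
      simp [scalar_apply, mulVec_diagonal]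
    have h5 := h4 (ι (fun _ => 1))
    rw [mulE_coords, ← map_smul] at h5
    have h6 := ι.injective h5
    have := congrFun h6 ⟨0, hk⟩
    simpa using this.symm
  omega

/-- The element conjugating a structure to the model. -/
lemma exists_conj (ι : (Fin k → E) ≃ₗ[F] (Fin n → F)) (hk : 0 < k) (hkn : finrank F E * k = n)
    (ρ : E →ₐ[F] Matrix (Fin n) (Fin n) F) :
    ∃ x : SpecialLinearGroup (Fin n) F, ∀ a w, x.1 *ᵥ (ρ a *ᵥ w) = mulE ι a (x.1 *ᵥ w) := by
  classical
  obtain ⟨S, hS⟩ := exists_coords ρ hkn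
  haveI : Module.Finite F E := Module.Finite.of_finite
  let P : (Fin n → F) ≃ₗ[F] (Fin n → F) := S.symm.trans ι
  have hP : ∀ a v, P (ρ a *ᵥ v) = mulE ι a (P v) := by
    intro a v
    have h1 : S (a • S.symm v) = ρ a *ᵥ v := by
      rw [hS, S.apply_symm_apply]
    have h2 : S.symm (ρ a *ᵥ v) = a • S.symm v := by
      rw [← h1, S.symm_apply_apply]
    show ι (S.symm (ρ a *ᵥ v)) = mulE ι a (ι (S.symm v))
    rw [mulE_coords, h2]
  have hδ : LinearMap.det (P : (Fin n → F) →ₗ[F] (Fin n → F)) ≠ 0 := (LinearEquiv.isUnit_det' P).ne_zero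
  obtain ⟨a₀, ha₀⟩ := FiniteField.norm_surjective F E (LinearMap.det (P : (Fin n → F) →ₗ[F] (Fin n → F)))⁻¹
  let i₀ : Fin k := ⟨0, hk⟩
  let C : (Fin k → E) →ₗ[E] (Fin k → E) := Matrix.toLin' (diagonal (Function.update (fun _ => 1) i₀ a₀))
  have hCdet : LinearMap.det C = a₀ := by
    rw [LinearMap.det_toLin', det_diagonal, Finset.prod_update_of_mem (Finset.mem_univ _)]
    simp
  have hCF : LinearMap.det (C.restrictScalars F) = (LinearMap.det (P : (Fin n → F) →ₗ[F] (Fin n → F)))⁻¹ := by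
    rw [LinearMap.det_restrictScalars, hCdet, ha₀]
  let C' : (Fin n → F) →ₗ[F] (Fin n → F) := (ι : (Fin k → E) →ₗ[F] (Fin n → F)).comp ((C.restrictScalars F).comp (ι.symm : (Fin n → F) →ₗ[F] (Fin k → E)))
  have hC'det : LinearMap.det C' = (LinearMap.det (P : (Fin n → F) →ₗ[F] (Fin n → F)))⁻¹ := by
    rw [← hCF]
    exact LinearMap.det_conj _ ι
  let Q : (Fin n → F) →ₗ[F] (Fin n → F) := C'.comp (P : (Fin n → F) →ₗ[F] (Fin n → F))
  have hQdet : LinearMap.det Q = 1 := by
    rw [LinearMap.det_comp, hC'det, inv_mul_cancel₀ hδ]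
  let x : SpecialLinearGroup (Fin n) F := ⟨LinearMap.toMatrix' Q, by rw [LinearMap.det_toMatrix']; exact hQdet⟩
  have hx : ∀ v, x.1 *ᵥ v = Q v := fun v => by
    simp [x]
  refine ⟨x, fun a w => ?_⟩
  rw [hx, hx]
  show C' (P (ρ a *ᵥ w)) = mulE ι a (C' (P w))
  rw [hP]
  show ι (C (ι.symm (mulE ι a (P w)))) = mulE ι a (ι (C (ι.symm (P w))))
  rw [mulE_coords]
  congr 1
  simp [mulE, map_smul]

/-- The algebra map commuting with a matrix with suitable characteristic polynomial. -/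
lemma exists_rho (g : Matrix (Fin n) (Fin n) F) (hd : 2 ≤ finrank F E)
    (hχ : ∀ p : F[X], Irreducible p → p ∣ g.charpoly → finrank F E ∣ p.natDegree) :
    ∃ ρ : E →ₐ[F] Matrix (Fin n) (Fin n) F, ∀ a, ρ a * g = g * ρ a := by
  haveI : Module.Finite F E := Module.Finite.of_finite
  let pb := Field.powerBasisOfFiniteOfSeparable F E
  obtain ⟨r, hr⟩ := exists_dvd_comp (minpoly F pb.gen) (finrank F E) hd
    (fun p hp hdvd => exists_root_mod pb.gen p hp hdvd) g.charpoly hχ
  have hθ : aeval (aeval g r) (minpoly F pb.gen) = 0 := by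
    rw [← aeval_comp]
    obtain ⟨s, hs⟩ := hr
    rw [hs, map_mul, aeval_self_charpoly, zero_mul]
  refine ⟨pb.lift _ hθ, fun a => ?_⟩
  obtain ⟨q, hq⟩ := pb.exists_eq_aeval' a
  rw [hq, pb.lift_aeval, ← aeval_comp]
  have hcomm : ∀ s : F[X], aeval g s * g = g * aeval g s := by
    intro s
    have h1 : aeval g (s * X) = aeval g (X * s) := by rw [mul_comm]
    simpa using h1
  exact hcomm _

end main

/-- The theorem for `SL_n`, with the numerical condition as a hypothesis. -/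
theorem main_SL {F : Type*} [Field F] [Fintype F] {n k : ℕ} (hn : 2 ≤ n)
    {E : Type*} [Field E] [Algebra F E] [Finite E] (hkn : finrank F E * k = n) (hd : 2 ≤ finrank F E)
    (hnd : ∀ χ : F[X], χ.Monic → χ.natDegree = n → (∀ c, ¬ χ.IsRoot c) →
      ∀ p : F[X], Irreducible p → p ∣ χ → finrank F E ∣ p.natDegree) :
    ∃ H K : Subgroup (SpecialLinearGroup (Fin n) F), Subgroup.center _ ≤ H ∧ Subgroup.center _ ≤ K ∧
      H ≠ ⊤ ∧ K ≠ ⊤ ∧ ∀ g, ∃ x, x * g * x⁻¹ ∈ H ∨ x * g * x⁻¹ ∈ K := by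
  classical
  haveI : Module.Finite F E := Module.Finite.of_finite
  have hk : 0 < k := by
    rcases Nat.eq_zero_or_pos k with h | h
    · subst h; simp at hkn; omega
    · exact h
  have hfr : finrank F (Fin k → E) = finrank F (Fin n → F) := by
    rw [Module.finrank_pi_fintype, Module.finrank_fin_fun, ← hkn]
    simp [mul_comm]
  let ι : (Fin k → E) ≃ₗ[F] (Fin n → F) := LinearEquiv.ofFinrankEq _ _ hfr
  let i₀ : Fin n := ⟨0, by omega⟩
  refine ⟨Hl i₀, Kc ι, center_le_Hl i₀, center_le_Kc ι, Hl_ne_top hn i₀, Kc_ne_top ι hk hd, ?_⟩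
  intro g
  by_cases hroot : ∃ c, g.1.charpoly.IsRoot c
  · obtain ⟨c, hc⟩ := hroot
    have h1 := Matrix.mem_spectrum_of_isRoot_charpoly hc
    rw [spectrum.mem_iff, Matrix.isUnit_iff_isUnit_det, isUnit_iff_ne_zero, not_not] at h1
    obtain ⟨v, hv, hv2⟩ := Matrix.exists_mulVec_eq_zero_iff.2 h1
    have hgv : g.1 *ᵥ v = c • v := by
      have h3 : (algebraMap F (Matrix (Fin n) (Fin n) F) c) *ᵥ v = c • v := by
        rw [Algebra.algebraMap_eq_smul_one, smul_mulVec, one_mulVec]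
      rw [sub_mulVec, h3] at hv2
      exact (sub_eq_zero.1 hv2).symm
    obtain ⟨x, hx⟩ := exists_SL_map hn i₀ hv
    refine ⟨x, Or.inl ⟨c, ?_⟩⟩
    rw [val_mul', val_mul', ← hx]
    simp only [← mulVec_mulVec]
    rw [inv_mulVec_mulVec, hgv, mulVec_smul]
  · push Not at hroot
    have hχ := hnd g.1.charpoly (charpoly_monic _) (by simp [charpoly_natDegree_eq_dim]) hroot
    obtain ⟨ρ, hρ⟩ := exists_rho (E := E) g.1 hd (fun p hp hdvd => hχ p hp hdvd)
    obtain ⟨x, hx⟩ := exists_conj ι hk hkn ρ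
    refine ⟨x, Or.inr ?_⟩
    intro a v
    have h1 : mulE ι a v = x.1 *ᵥ (ρ a *ᵥ ((x⁻¹).1 *ᵥ v)) := by
      rw [hx, mulVec_inv_mulVec]
    have hy : ∀ u, (x * g * x⁻¹).1 *ᵥ u = x.1 *ᵥ (g.1 *ᵥ ((x⁻¹).1 *ᵥ u)) := by
      intro u
      simp only [val_mul', mulVec_mulVec, Matrix.mul_assoc]
    have h2 : ∀ w, g.1 *ᵥ (ρ a *ᵥ w) = ρ a *ᵥ (g.1 *ᵥ w) := by
      intro w
      rw [mulVec_mulVec, mulVec_mulVec, hρ]
    rw [h1, hy, hy, inv_mulVec_mulVec, h2, hx]

lemma deg_facts {F : Type*} [Field F] {χ p : F[X]} (hχ : χ.Monic) (hr : ∀ c, ¬ χ.IsRoot c)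
    (hp : Irreducible p) (hd : p ∣ χ) :
    ∃ ns, p.natDegree + ns = χ.natDegree ∧ p.natDegree ≠ 0 ∧ p.natDegree ≠ 1 ∧ ns ≠ 1 := by
  obtain ⟨s, rfl⟩ := hd
  have hs0 : s ≠ 0 := by
    rintro rfl
    simp at hχ
  refine ⟨s.natDegree, (natDegree_mul hp.ne_zero hs0).symm, hp.natDegree_pos.ne', ?_, ?_⟩
  · intro h
    obtain ⟨c, hc⟩ := exists_root_of_degree_eq_one ((degree_eq_iff_natDegree_eq_of_pos one_pos).2 h)
    exact hr c (hc.dvd (dvd_mul_right p s))
  · intro h
    obtain ⟨c, hc⟩ := exists_root_of_degree_eq_one ((degree_eq_iff_natDegree_eq_of_pos one_pos).2 h)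
    exact hr c (hc.dvd (dvd_mul_left s p))

/-- The algebra `E` of degree `d`, and the general conclusion at the level of `PSL`. -/
theorem cover_PSL {F : Type} [Field F] [Fintype F] (n d k : ℕ) (hn : 2 ≤ n) (hd : 2 ≤ d) (hkn : d * k = n)
    (hnd : ∀ np ns : ℕ, np + ns = n → np ≠ 0 → np ≠ 1 → ns ≠ 1 → d ∣ np) :
    ∃ H K : Subgroup (ProjectiveSpecialLinearGroup (Fin n) F), H ≠ ⊤ ∧ K ≠ ⊤ ∧
      ∀ g : ProjectiveSpecialLinearGroup (Fin n) F, ∃ x : ProjectiveSpecialLinearGroup (Fin n) F,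
        x * g * x⁻¹ ∈ H ∨ x * g * x⁻¹ ∈ K := by
  obtain ⟨p, hp⟩ := CharP.exists F
  haveI : Fact p.Prime := ⟨by
    obtain ⟨m, hm, -⟩ := FiniteField.card F p
    exact hm⟩
  haveI : NeZero d := ⟨by omega⟩
  have hfr : finrank F (FiniteField.Extension F p d) = d := FiniteField.finrank_extension F p d
  obtain ⟨H, K, h1, h2, h3, h4, h5⟩ := main_SL (E := FiniteField.Extension F p d) (k := k) hn
    (by rw [hfr]; exact hkn) (by rw [hfr]; exact hd) (by
      intro χ hm hdeg hr q hq hdvd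
      rw [hfr]
      obtain ⟨ns, h1, h2, h3, h4⟩ := deg_facts hm hr hq hdvd
      exact hnd _ _ (by rw [h1, hdeg]) h2 h3 h4)
  exact Cfsg.Agent.Lib.NC2.cover_quot H K h1 h2 h3 h4 h5

end Cfsg.Agent.Lib.NC2Lin
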