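import Mathlib
import Cfsg.Agent.Lib.NC2Cub
import Cfsg.Agent.Lib.UnitaryConjGU
import Cfsg.Agent.Lib.SU3Sylow
import Cfsg.Agent.Lib.FFNorm

/-!
`SU₃(3^a)`: the Artin-Schreier generator `Th b`, the cyclic permutation, conjugacy of self-adjoint roots.
-/

set_option autoImplicit false
set_option linter.unusedSectionVars false
set_option linter.unusedSimpArgs false
set_option linter.unusedVariables false
set_option linter.style.longLine false

namespace Cfsg.Agent.Lib.NC2U3

open Matrix Polynomial Cfsg Cfsg.Agent.Lib.NC2Cub Cfsg.Agent.Lib.UnitaryConjGU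
open Cfsg.Agent.Lib.UnitaryBasic Cfsg.Agent.Lib.HermCount Cfsg.Agent.Lib.SU3Sylow
open scoped MatrixGroups

variable {F : Type*} [Field F] [Fintype F] {q : ℕ}

section field

theorem pow_q_add (hF : Fintype.card F = q ^ 2) (x y : F) : (x + y) ^ q = x ^ q + y ^ q :=
  map_add (sigma hF) x y

theorem pow_q_sub (hF : Fintype.card F = q ^ 2) (x y : F) : (x - y) ^ q = x ^ q - y ^ q :=
  map_sub (sigma hF) x y

theorem pow_q_neg (hF : Fintype.card F = q ^ 2) (x : F) : (-x) ^ q = -x ^ q :=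
  map_neg (sigma hF) x

theorem pow_q_one_neg (hF : Fintype.card F = q ^ 2) : (-1 : F) ^ q = -1 := by
  rw [pow_q_neg hF, one_pow]

/-- A root of an Artin-Schreier polynomial with rational constant is rational. -/
theorem real_of_root (hF : Fintype.card F = q ^ 2) (h3 : (3 : F) = 0) (h2 : (2 : F) ≠ 0) {c x : F}
    (hc : c ^ q = c) (hx : x ^ 3 - x = c) : x ^ q = x := by
  have hxq : (x ^ q) ^ 3 - x ^ q = c := by
    have h1 : (x ^ 3 - x) ^ q = c ^ q := by rw [hx]
    rw [pow_q_sub hF, hc] at h1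
    rw [← pow_mul, mul_comm, pow_mul, h1]
  have hi : (x ^ q - x) ^ 3 = x ^ q - x := by
    have : (x ^ q - x) ^ 3 = (x ^ q) ^ 3 - x ^ 3 - 3 * ((x ^ q) ^ 2 * x - x ^ q * x ^ 2) := by ring
    rw [this, h3]
    linear_combination hxq - hx
  have hqq : (x ^ q) ^ q = x := pow_q_pow_q hF x
  rcases trichotomy hi with h | h | h
  · exact sub_eq_zero.1 h
  · exfalso
    have h5 : x ^ q = x + 1 := by linear_combination h
    have h6 : (x ^ q) ^ q = x ^ q + 1 := by
      conv_lhs => rw [h5]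
      rw [pow_q_add hF, one_pow]
    rw [hqq, h5] at h6
    apply h2
    linear_combination -h6
  · exfalso
    have h5 : x ^ q = x - 1 := by linear_combination h
    have h6 : (x ^ q) ^ q = x ^ q - 1 := by
      conv_lhs => rw [h5]
      rw [pow_q_sub hF, one_pow]
    rw [hqq, h5] at h6
    apply h2
    linear_combination h6

/-- The parameter of the generator. -/
theorem exists_b (hF : Fintype.card F = q ^ 2) (h3 : (3 : F) = 0) (h2 : (2 : F) ≠ 0) :
    ∃ b : F, b ≠ 0 ∧ b ^ q = b ∧ ∀ x : F, x ^ 3 - x ≠ -b ^ 3 := by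
  classical
  let S := {x : F // x ^ q = x}
  let w : S → S := fun x => ⟨x.1 ^ 3 - x.1, by
    rw [pow_q_sub hF, ← pow_mul, mul_comm, pow_mul, x.2]⟩
  have hw : ¬ Function.Injective w := by
    intro hinj
    have h0 : (⟨0, by
        have : q ≠ 0 := by
          intro h
          subst h
          have := Fintype.one_lt_card (α := F)
          simp at hF
        rw [zero_pow this]⟩ : S) = ⟨1, one_pow q⟩ := by
      apply hinj
      apply Subtype.ext
      simp [w]
    have := congrArg Subtype.val h0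
    exact zero_ne_one this
  have hw2 : ¬ Function.Surjective w := fun h => hw (Finite.injective_iff_surjective.2 h)
  rw [Function.Surjective] at hw2
  push_neg at hw2
  obtain ⟨c, hc⟩ := hw2
  obtain ⟨b, hb⟩ := exists_cube_root h3 (-c.1)
  have hbq : b ^ q = b := by
    apply cube_inj h3
    rw [← pow_mul, mul_comm, pow_mul, hb, pow_q_neg hF, c.2]
  have hnot : ∀ x : F, x ^ 3 - x ≠ -b ^ 3 := by
    intro x hx
    rw [hb, neg_neg] at hx
    have hxq := real_of_root hF h3 h2 c.2 hx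
    apply hc ⟨x, hxq⟩
    exact Subtype.ext hx
  refine ⟨b, ?_, hbq, hnot⟩
  rintro rfl
  apply hnot 0
  simp

end field

section mats

/-- The generator. -/
def Th (b : F) : Matrix (Fin 3) (Fin 3) F := !![0, b, b; b, -1, b; b, b, 1]

/-- The cyclic permutation. -/
def Pm : Matrix (Fin 3) (Fin 3) F := !![0, 0, 1; 1, 0, 0; 0, 1, 0]

theorem Th_cube (h3 : (3 : F) = 0) (b : F) :
    Th b ^ 3 = Th b + (-b ^ 3) • (1 : Matrix (Fin 3) (Fin 3) F) := by
  ext i j
  fin_cases i <;> fin_cases j <;>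
    simp [Th, pow_succ, Matrix.mul_apply, Fin.sum_univ_three] <;>
    first
      | linear_combination (b ^ 3) * h3
      | linear_combination (b ^ 3 - b ^ 2) * h3
      | linear_combination (b ^ 3 + b ^ 2) * h3

theorem Pm_Th (h3 : (3 : F) = 0) (b : F) :
    Pm * Th b = (Th b + (1 : F) • (1 : Matrix (Fin 3) (Fin 3) F)) * Pm := by
  ext i j
  fin_cases i <;> fin_cases j <;>
    simp [Th, Pm, Matrix.mul_apply, Fin.sum_univ_three] <;>
    first
      | linear_combination h3
      | linear_combination -h3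
      | ring

theorem Pm_cube (h3 : (3 : F) = 0) : ((Pm : Matrix (Fin 3) (Fin 3) F) - 1) ^ 3 = 0 := by
  ext i j
  fin_cases i <;> fin_cases j <;>
    simp [Pm, pow_succ, Matrix.mul_apply, Fin.sum_univ_three, Matrix.one_apply] <;>
    first
      | linear_combination h3
      | linear_combination -h3
      | ring

theorem Pm_det : (Pm : Matrix (Fin 3) (Fin 3) F).det = 1 := by
  simp [Pm, Matrix.det_fin_three]

theorem Pm_mulVec (v : Fin 3 → F) : (Pm : Matrix (Fin 3) (Fin 3) F) *ᵥ v = ![v 2, v 0, v 1] := by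
  ext i
  fin_cases i <;> simp [Pm, Matrix.mulVec, dotProduct, Fin.sum_univ_three]

theorem Pm_unitary (u v : Fin 3 → F) :
    hermForm 3 F q ((Pm : Matrix (Fin 3) (Fin 3) F) *ᵥ u) ((Pm : Matrix (Fin 3) (Fin 3) F) *ᵥ v) = hermForm 3 F q u v := by
  rw [Pm_mulVec, Pm_mulVec]
  simp [hermForm, Fin.sum_univ_three]
  ring

theorem st_Th (hF : Fintype.card F = q ^ 2) {b : F} (hb : b ^ q = b) : st q (Th b) = Th b := by
  have h0 : (0 : F) ^ q = 0 := by
    have : q ≠ 0 := by
      intro h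
      subst h
      simp at hF
    exact zero_pow this
  ext i j
  fin_cases i <;> fin_cases j <;>
    simp [Th, st_apply, hb, h0, pow_q_one_neg hF]

/-- A polynomial of degree three with no root annihilating `A`: every non-zero vector is cyclic. -/
theorem isUnit_col3_of_irr {p : F[X]} (hp : Irreducible p) (hd : p.natDegree = 3)
    {A : Matrix (Fin 3) (Fin 3) F} (hA : aeval A p = 0) {v : Fin 3 → F} (hv : v ≠ 0) :
    IsUnit (col3 v (A *ᵥ v) (A *ᵥ (A *ᵥ v))) := by
  apply isUnit_col3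
  intro x hx
  by_contra hx0
  let s : F[X] := C (x 0) + C (x 1) * X + C (x 2) * X ^ 2
  have hs : s ≠ 0 := by
    intro h
    apply hx0
    have h0 : s.coeff 0 = 0 := by rw [h]; simp
    have h1 : s.coeff 1 = 0 := by rw [h]; simp
    have h2 : s.coeff 2 = 0 := by rw [h]; simp
    simp [s, coeff_X, coeff_C, coeff_one] at h0 h1 h2
    ext i
    fin_cases i <;> simpa
  have hsd : s.natDegree < 3 := by
    have : s.natDegree ≤ 2 := by
      simp only [s]
      compute_degree
    omega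
  have hnd : ¬ p ∣ s := by
    intro h
    have := Polynomial.natDegree_le_of_dvd h hs
    omega
  have hco : IsCoprime p s := (hp.coprime_iff_not_dvd).2 hnd
  obtain ⟨a, b, hab⟩ := hco
  have h1 : aeval A (a * p + b * s) = 1 := by rw [hab]; simp
  rw [map_add, map_mul, map_mul, hA, mul_zero, zero_add] at h1
  have h2 : (aeval A s) *ᵥ v = 0 := by
    have h3 : aeval A s = x 0 • (1 : Matrix (Fin 3) (Fin 3) F) + x 1 • A + x 2 • (A * A) := by
      simp [s, pow_two, Algebra.smul_def, aeval_C]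
    rw [h3, Matrix.add_mulVec, Matrix.add_mulVec, Matrix.smul_mulVec, Matrix.smul_mulVec,
      Matrix.smul_mulVec, Matrix.one_mulVec, ← Matrix.mulVec_mulVec]
    exact hx
  apply hv
  have h4 : ((aeval A b) * (aeval A s)) *ᵥ v = v := by rw [h1, Matrix.one_mulVec]
  rw [← h4, ← Matrix.mulVec_mulVec, h2, Matrix.mulVec_zero]

/-- The cubic Artin-Schreier polynomial. -/
noncomputable def asP (c : F) : F[X] := X ^ 3 - X - C c

theorem asP_natDegree (c : F) : (asP c).natDegree = 3 := by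
  unfold asP
  compute_degree!

theorem asP_irr {c : F} (hc : ∀ x : F, x ^ 3 - x ≠ c) : Irreducible (asP c) := by
  apply irreducible_of_degree_le_three_of_not_isRoot
  · rw [asP_natDegree]; decide
  · intro x hx
    apply hc x
    simp [asP, IsRoot] at hx
    exact sub_eq_zero.1 hx

theorem aeval_asP {A : Matrix (Fin 3) (Fin 3) F} {c : F}
    (h : A ^ 3 = A + c • (1 : Matrix (Fin 3) (Fin 3) F)) : aeval A (asP c) = 0 := by
  simp only [asP, map_sub, map_pow, aeval_X, aeval_C, h, Algebra.algebraMap_eq_smul_one]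
  abel

/-- Two matrices with the same irreducible Artin-Schreier relation are similar. -/
theorem conj_of_cubic {c : F} (hc : ∀ x : F, x ^ 3 - x ≠ c) {A A' : Matrix (Fin 3) (Fin 3) F}
    (hA : A ^ 3 = A + c • (1 : Matrix (Fin 3) (Fin 3) F))
    (hA' : A' ^ 3 = A' + c • (1 : Matrix (Fin 3) (Fin 3) F)) :
    ∃ Y Y' : Matrix (Fin 3) (Fin 3) F, Y * Y' = 1 ∧ Y * A = A' * Y := by
  classical
  have hi := asP_irr hc
  have hd := asP_natDegree c
  let v : Fin 3 → F := Pi.single 0 1
  have hv : v ≠ 0 := by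
    intro h
    have := congrFun h 0
    simp [v] at this
  let B := col3 v (A *ᵥ v) (A *ᵥ (A *ᵥ v))
  let B' := col3 v (A' *ᵥ v) (A' *ᵥ (A' *ᵥ v))
  have hB : IsUnit B := isUnit_col3_of_irr hi hd (aeval_asP hA) hv
  have hB' : IsUnit B' := isUnit_col3_of_irr hi hd (aeval_asP hA') hv
  let K : Matrix (Fin 3) (Fin 3) F := !![0, 0, c; 1, 0, 1; 0, 1, 0]
  have key : ∀ (X : Matrix (Fin 3) (Fin 3) F), X ^ 3 = X + c • (1 : Matrix (Fin 3) (Fin 3) F) →
      X * col3 v (X *ᵥ v) (X *ᵥ (X *ᵥ v)) = col3 v (X *ᵥ v) (X *ᵥ (X *ᵥ v)) * K := by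
    intro X hX
    have h3v : X *ᵥ (X *ᵥ (X *ᵥ v)) = X *ᵥ v + c • v := by
      have : X *ᵥ (X *ᵥ (X *ᵥ v)) = (X ^ 3) *ᵥ v := by
        simp [pow_succ, Matrix.mulVec_mulVec, mul_assoc]
      rw [this, hX, Matrix.add_mulVec, Matrix.smul_mulVec, Matrix.one_mulVec]
    rw [mul_col3, h3v]
    ext i j
    fin_cases j <;> simp [col3, K, Matrix.mul_apply, Fin.sum_univ_three]
    ring
  obtain ⟨Bi, hBi, hBi2⟩ : ∃ Bi : Matrix (Fin 3) (Fin 3) F, B * Bi = 1 ∧ Bi * B = 1 := by
    obtain ⟨Bu, hBu⟩ := hB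
    exact ⟨(↑Bu⁻¹ : Matrix (Fin 3) (Fin 3) F), by rw [← hBu]; simp, by rw [← hBu]; simp⟩
  obtain ⟨Bi', hBi', hBi2'⟩ : ∃ Bi : Matrix (Fin 3) (Fin 3) F, B' * Bi = 1 ∧ Bi * B' = 1 := by
    obtain ⟨Bu, hBu⟩ := hB'
    exact ⟨(↑Bu⁻¹ : Matrix (Fin 3) (Fin 3) F), by rw [← hBu]; simp, by rw [← hBu]; simp⟩
  refine ⟨B' * Bi, B * Bi', ?_, ?_⟩
  · calc B' * Bi * (B * Bi') = B' * (Bi * B) * Bi' := by simp only [mul_assoc]
      _ = 1 := by rw [hBi2, mul_one, hBi']
  · have h1 : A * B = B * K := key A hA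
    have h2 : A' * B' = B' * K := key A' hA'
    have h3 : Bi * A = K * Bi := by
      calc Bi * A = Bi * A * (B * Bi) := by rw [hBi, mul_one]
        _ = Bi * (A * B) * Bi := by simp only [mul_assoc]
        _ = Bi * (B * K) * Bi := by rw [h1]
        _ = (Bi * B) * K * Bi := by simp only [mul_assoc]
        _ = K * Bi := by rw [hBi2, one_mul]
    calc B' * Bi * A = B' * (Bi * A) := by rw [mul_assoc]
      _ = B' * (K * Bi) := by rw [h3]
      _ = (B' * K) * Bi := by rw [mul_assoc]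
      _ = (A' * B') * Bi := by rw [h2]
      _ = A' * (B' * Bi) := by rw [mul_assoc]

/-- Similar self-adjoint matrices are unitarily similar. -/
theorem exists_unitary_conj (hF : Fintype.card F = q ^ 2) {n : ℕ} {t T Y Y' : Matrix (Fin n) (Fin n) F}
    (ht : st q t = t) (hT : st q T = T) (hY : Y * Y' = 1) (hYt : Y * t = T * Y) :
    ∃ x : Matrix (Fin n) (Fin n) F, st q x * x = 1 ∧ x * t = T * x := by
  have hY2 : Y' * Y = 1 := mul_eq_one_comm.mp hY
  let C := st q Y' * Y'
  have hCst : st q C = C := by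
    simp only [C]
    rw [st_mul hF, st_st hF]
  have hCC' : C * (Y * st q Y) = 1 := by
    calc C * (Y * st q Y) = st q Y' * (Y' * Y) * st q Y := by simp only [C, mul_assoc]
      _ = st q (Y * Y') := by rw [hY2, mul_one, st_mul hF]
      _ = 1 := by rw [hY, st_one hF]
  have hst : t * st q Y = st q Y * T := by
    have := congrArg (st q) hYt
    rw [st_mul hF, st_mul hF, ht, hT] at this
    exact this
  have hY't : Y' * T = t * Y' := by
    calc Y' * T = Y' * T * (Y * Y') := by rw [hY, mul_one]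
      _ = Y' * (T * Y) * Y' := by simp only [mul_assoc]
      _ = Y' * (Y * t) * Y' := by rw [hYt]
      _ = (Y' * Y) * t * Y' := by simp only [mul_assoc]
      _ = t * Y' := by rw [hY2, one_mul]
  have hstY' : st q Y' * t = T * st q Y' := by
    have := congrArg (st q) hY't
    rw [st_mul hF, st_mul hF, ht, hT] at this
    exact this.symm
  have hCT : C * T = T * C := by
    calc C * T = st q Y' * (Y' * T) := by simp only [C, mul_assoc]
      _ = st q Y' * (t * Y') := by rw [hY't]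
      _ = (st q Y' * t) * Y' := by rw [mul_assoc]
      _ = (T * st q Y') * Y' := by rw [hstY']
      _ = T * C := by simp only [C, mul_assoc]
  obtain ⟨D, D', hD, hD', h1, h2, h3⟩ := exists_norm hF hCst hCC'
  have hDT := closure_commute hF hCT hD
  refine ⟨D * Y, ?_, ?_⟩
  · rw [st_mul hF]
    calc st q Y * st q D * (D * Y) = st q Y * (st q D * D) * Y := by simp only [mul_assoc]
      _ = st q Y * C * Y := by rw [h3]
      _ = st q (Y' * Y) * (Y' * Y) := by
          simp only [C, st_mul hF, mul_assoc]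
      _ = 1 := by rw [hY2, st_one hF, one_mul]
  · calc D * Y * t = D * (Y * t) := by rw [mul_assoc]
      _ = D * (T * Y) := by rw [hYt]
      _ = (D * T) * Y := by rw [mul_assoc]
      _ = (T * D) * Y := by rw [hDT]
      _ = T * (D * Y) := by rw [mul_assoc]

end mats

section group

theorem three_zero {a : ℕ} (hF : Fintype.card F = q ^ 2) (hq : q = 3 ^ a) (ha : 1 ≤ a) : (3 : F) = 0 := by
  have h := Nat.cast_card_eq_zero F
  rw [hF, hq] at h
  push_cast at h
  rw [← pow_mul] at h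
  exact (pow_eq_zero_iff (by omega)).1 h

theorem two_ne (h3 : (3 : F) = 0) : (2 : F) ≠ 0 := by
  intro h
  have : (1 : F) = 3 - 2 := by norm_num
  rw [h3, h] at this
  simp at this

/-- The matrix of an element of `SU`. -/
abbrev mt (A : SU 3 F q) : Matrix (Fin 3) (Fin 3) F := A.1.1

theorem mt_mul (A B : SU 3 F q) : mt (A * B) = mt A * mt B := rfl

theorem mt_one : mt (1 : SU 3 F q) = 1 := rfl

theorem mt_inv_mul (A : SU 3 F q) : mt A⁻¹ * mt A = 1 := by
  rw [← mt_mul, inv_mul_cancel, mt_one]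

theorem mt_mul_inv (A : SU 3 F q) : mt A * mt A⁻¹ = 1 := by
  rw [← mt_mul, mul_inv_cancel, mt_one]

theorem mt_st (hF : Fintype.card F = q ^ 2) (g : SU 3 F q) : st q (mt g) * mt g = 1 :=
  st_mul_self_of_mem (g := Matrix.SpecialLinearGroup.toGL g.1) hF (fun u v => g.2 u v)

theorem herm_of_st (hF : Fintype.card F = q ^ 2) {n : ℕ} {A : Matrix (Fin n) (Fin n) F} (hA : st q A * A = 1)
    (u v : Fin n → F) : hermForm n F q (A *ᵥ u) (A *ᵥ v) = hermForm n F q u v := by
  have hdet : A.det ≠ 0 := by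
    intro h
    have := congrArg Matrix.det hA
    rw [Matrix.det_mul, h, mul_zero, Matrix.det_one] at this
    exact zero_ne_one this
  have hg := mem_of_st_mul_self hF (g := Matrix.GeneralLinearGroup.mkOfDetNeZero A hdet) hA
  exact hg u v

theorem det_st (hF : Fintype.card F = q ^ 2) {n : ℕ} (A : Matrix (Fin n) (Fin n) F) : (st q A).det = A.det ^ q := by
  rw [st_eq hF, Matrix.det_transpose]
  have := RingHom.map_det (sigma hF) A
  rw [sigma_apply] at this
  rw [this]
  rfl

theorem st_smul (hF : Fintype.card F = q ^ 2) {n : ℕ} (c : F) (A : Matrix (Fin n) (Fin n) F) :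
    st q (c • A) = c ^ q • st q A := by
  ext i j
  simp [st_apply, mul_pow]

/-- A scalar multiple of a unitary matrix lies in `SU₃`, in characteristic three. -/
theorem exists_SU_scale (hF : Fintype.card F = q ^ 2) (h3 : (3 : F) = 0) {x : Matrix (Fin 3) (Fin 3) F}
    (hx : st q x * x = 1) : ∃ l : F, l ≠ 0 ∧ ∃ z : SU 3 F q, mt z = l • x := by
  have hd : x.det ^ q * x.det = 1 := by
    have := congrArg Matrix.det hx
    rwa [Matrix.det_mul, det_st hF, Matrix.det_one] at this
  have hd0 : x.det ≠ 0 := by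
    intro h
    rw [h, mul_zero] at hd
    exact zero_ne_one hd
  obtain ⟨l, hl⟩ := exists_cube_root h3 (x.det)⁻¹
  have hl0 : l ≠ 0 := by
    rintro rfl
    have : (0 : F) ^ 3 = 0 := by norm_num
    rw [this] at hl
    exact inv_ne_zero hd0 hl.symm
  have hln : l ^ q * l = 1 := by
    apply cube_inj h3
    rw [mul_pow, ← pow_mul, mul_comm q 3, pow_mul, hl, one_pow, inv_pow, ← mul_inv, hd, inv_one]
  have hst : st q (l • x) * (l • x) = 1 := by
    rw [st_smul hF, Matrix.smul_mul, Matrix.mul_smul, smul_smul, hx, hln, one_smul]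
  have hdet : (l • x).det = 1 := by
    rw [Matrix.det_smul, Fintype.card_fin, hl, inv_mul_cancel₀ hd0]
  exact ⟨l, hl0, ⟨⟨l • x, hdet⟩, fun u v => herm_of_st hF hst u v⟩, rfl⟩

/-- The line stabiliser. -/
def e00 : Fin 3 → F := Pi.single 0 1

theorem e00_ne : (e00 : Fin 3 → F) ≠ 0 := by
  intro h
  have := congrFun h 0
  simp [e00] at this

def HH (F : Type*) [Field F] [Fintype F] (q : ℕ) : Subgroup (SU 3 F q) where
  carrier := {A | ∃ l : F, mt A *ᵥ e00 = l • e00}
  one_mem' := ⟨1, by simp [mt_one]⟩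
  mul_mem' := by
    rintro A B ⟨l, hl⟩ ⟨k, hk⟩
    refine ⟨l * k, ?_⟩
    rw [mt_mul, ← Matrix.mulVec_mulVec, hk, Matrix.mulVec_smul, hl, smul_smul, mul_comm]
  inv_mem' := by
    rintro A ⟨l, hl⟩
    have h1 : mt A⁻¹ *ᵥ (mt A *ᵥ e00) = e00 := by
      rw [Matrix.mulVec_mulVec, mt_inv_mul, Matrix.one_mulVec]
    rw [hl, Matrix.mulVec_smul] at h1
    have hl0 : l ≠ 0 := by
      rintro rfl
      rw [zero_smul] at h1
      exact e00_ne h1.symm
    refine ⟨l⁻¹, ?_⟩
    rw [← h1, smul_smul, inv_mul_cancel₀ hl0, one_smul, h1]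

/-- The normaliser of the field generated by `Th b`. -/
def KK (b : F) : Subgroup (SU 3 F q) where
  carrier := {A | ∃ i : F, mt A * Th b = (Th b + i • (1 : Matrix (Fin 3) (Fin 3) F)) * mt A}
  one_mem' := ⟨0, by simp [mt_one]⟩
  mul_mem' := by
    rintro A B ⟨i, hi⟩ ⟨j, hj⟩
    refine ⟨i + j, ?_⟩
    show mt A * mt B * Th b = (Th b + (i + j) • (1 : Matrix (Fin 3) (Fin 3) F)) * (mt A * mt B)
    calc mt A * mt B * Th b = mt A * (mt B * Th b) := by rw [mul_assoc]
      _ = mt A * ((Th b + j • (1 : Matrix (Fin 3) (Fin 3) F)) * mt B) := by rw [hj]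
      _ = (mt A * Th b + j • mt A) * mt B := by
          rw [← mul_assoc, mul_add, mul_smul_comm, mul_one]
      _ = ((Th b + i • (1 : Matrix (Fin 3) (Fin 3) F)) * mt A + j • mt A) * mt B := by rw [hi]
      _ = _ := by
          simp only [add_mul, add_smul, smul_mul_assoc, one_mul, mul_assoc, add_assoc]
  inv_mem' := by
    rintro A ⟨i, hi⟩
    refine ⟨-i, ?_⟩
    have h1 : Th b * mt A⁻¹ = mt A⁻¹ * (Th b + i • (1 : Matrix (Fin 3) (Fin 3) F)) := by
      calc Th b * mt A⁻¹ = (mt A⁻¹ * mt A) * Th b * mt A⁻¹ := by rw [mt_inv_mul, one_mul]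
        _ = mt A⁻¹ * (mt A * Th b) * mt A⁻¹ := by simp only [mul_assoc]
        _ = mt A⁻¹ * ((Th b + i • (1 : Matrix (Fin 3) (Fin 3) F)) * mt A) * mt A⁻¹ := by rw [hi]
        _ = mt A⁻¹ * (Th b + i • (1 : Matrix (Fin 3) (Fin 3) F)) * (mt A * mt A⁻¹) := by simp only [mul_assoc]
        _ = _ := by rw [mt_mul_inv, mul_one]
    have h2 : mt A⁻¹ * Th b = Th b * mt A⁻¹ - i • mt A⁻¹ := by
      rw [h1, mul_add, mul_smul_comm, mul_one]
      abel
    rw [h2, add_mul, neg_smul, neg_mul, smul_mul_assoc, one_mul]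
    abel

theorem center_scalar (hF : Fintype.card F = q ^ 2) {z : SU 3 F q} (hz : z ∈ Subgroup.center (SU 3 F q)) :
    ∃ d : F, mt z = d • (1 : Matrix (Fin 3) (Fin 3) F) := by
  refine ⟨mt z 0 0, ?_⟩
  ext i j
  by_cases hij : i = j
  · subst hij
    by_cases hi : i = 0
    · subst hi
      simp
    · have := Cfsg.Agent.Lib.UnitarySU.center_diag_eq hF z hz hi
      simp [this]
  · have := Cfsg.Agent.Lib.UnitarySU.center_offdiag_zero hF z hz hij
    simp [this, Matrix.one_apply, hij]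

theorem center_le_HH (hF : Fintype.card F = q ^ 2) : Subgroup.center (SU 3 F q) ≤ HH F q := by
  intro z hz
  obtain ⟨d, hd⟩ := center_scalar hF hz
  refine ⟨d, ?_⟩
  rw [hd, Matrix.smul_mulVec, Matrix.one_mulVec]

theorem center_le_KK (hF : Fintype.card F = q ^ 2) (b : F) : Subgroup.center (SU 3 F q) ≤ KK b := by
  intro z hz
  obtain ⟨d, hd⟩ := center_scalar hF hz
  refine ⟨0, ?_⟩
  rw [hd, zero_smul, add_zero, Matrix.smul_mul, Matrix.mul_smul, one_mul, mul_one]

/-- The cyclic permutation as an element of `SU₃`. -/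
def PmS : SU 3 F q := ⟨⟨Pm, Pm_det⟩, fun u v => Pm_unitary u v⟩

theorem PmS_mem (b : F) (h3 : (3 : F) = 0) : (PmS : SU 3 F q) ∈ KK b := ⟨1, Pm_Th h3 b⟩

theorem HH_ne_top : HH F q ≠ ⊤ := by
  intro h
  have : (PmS : SU 3 F q) ∈ HH F q := by rw [h]; trivial
  obtain ⟨l, hl⟩ := this
  have h1 := congrFun hl 1
  have h0 := congrFun hl 0
  have e2 : (mt (PmS : SU 3 F q)) = Pm := rfl
  rw [e2, Pm_mulVec] at h0 h1
  simp [e00] at h1

theorem KK_ne_top (hF : Fintype.card F = q ^ 2) {b : F} (hb : b ≠ 0) : KK b ≠ (⊤ : Subgroup (SU 3 F q)) := by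
  intro h
  obtain ⟨a, ha, ha2⟩ := Cfsg.Agent.Lib.UnitarySU.exists_nrm_one_sq_ne_one hF
  have ha0 : a ≠ 0 := by
    rintro rfl
    apply ha2
    have hq0 : q ≠ 0 := by
      intro h
      subst h
      simp at hF
    simp [nrm, zero_pow hq0] at ha
  let d : Fin 3 → F := ![a, a⁻¹, 1]
  have hd : ∀ i, nrm q (d i) = 1 := by
    intro i
    fin_cases i
    · exact ha
    · show nrm q a⁻¹ = 1
      unfold nrm at ha ⊢
      rw [inv_pow, ← mul_inv, ha, inv_one]
    · show nrm q (1 : F) = 1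
      simp [nrm]
  let A : SU 3 F q := ⟨⟨Matrix.diagonal d, by
    simp [Matrix.det_diagonal, Fin.prod_univ_three, d, ha0]⟩, fun u v => Cfsg.Agent.Lib.UnitarySU.diagonal_unitary hd u v⟩
  have : A ∈ KK b := by rw [h]; trivial
  obtain ⟨i, hi⟩ := this
  have h1 := congrFun (congrFun hi 0) 1
  have e2 : mt A = Matrix.diagonal d := rfl
  rw [e2] at h1
  simp [Matrix.mul_apply, Fin.sum_univ_three, Th, d, Matrix.diagonal_apply, Matrix.one_apply] at h1
  apply ha2
  have h2 : a * b * a = b * a⁻¹ * a := by rw [h1]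
  rw [mul_assoc b, inv_mul_cancel₀ ha0, mul_one] at h2
  have h4 : b * (a ^ 2) = b * 1 := by linear_combination h2
  exact mul_left_cancel₀ hb h4

end group

end Cfsg.Agent.Lib.NC2U3
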