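import Mathlib
import Cfsg.Agent.Lib.SpBasic
import Cfsg.Agent.Lib.SpCenter
import Cfsg.Agent.Lib.SympWitt
import Cfsg.Agent.Lib.NC2U3A

/-!
`Sp₆` in characteristic three: the adjoint, frames, stable two-spaces.
-/

set_option autoImplicit false
set_option linter.unusedSectionVars false
set_option linter.unusedSimpArgs false
set_option linter.unusedVariables false
set_option linter.style.longLine false

namespace Cfsg.Agent.Lib.NC2Sp6

open Matrix Polynomial Cfsg.Agent.Lib.SpBasic Cfsg.Agent.Lib.NC2Cub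

variable {F : Type*} [Field F]

/-- The index type. -/
abbrev I6 := Fin 3 ⊕ Fin 3

/-- The matrix algebra. -/
abbrev M6 (F : Type*) [Field F] := Matrix I6 I6 F

/-- The space. -/
abbrev V6 (F : Type*) [Field F] := I6 → F

local notation "JJ" => (J (Fin 3) F)

/-- The symplectic group. -/
abbrev SP (F : Type*) [Field F] := Sp (Fin 3) F

/-- The adjoint for the form. -/
def ad (X : M6 F) : M6 F := -(JJ * Xᵀ * JJ)

theorem JJ_JJ : JJ * JJ = -1 := J_squared (Fin 3) F

theorem JJ_t : JJᵀ = -JJ := J_transpose (Fin 3) F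

theorem ad_add (X Y : M6 F) : ad (X + Y) = ad X + ad Y := by
  simp only [ad, transpose_add, mul_add, add_mul, neg_add]

theorem ad_sub (X Y : M6 F) : ad (X - Y) = ad X - ad Y := by
  simp only [ad, transpose_sub, mul_sub, sub_mul, neg_sub]
  abel

theorem ad_neg (X : M6 F) : ad (-X) = -ad X := by
  simp only [ad, transpose_neg, mul_neg, neg_mul]

theorem ad_smul (c : F) (X : M6 F) : ad (c • X) = c • ad X := by
  simp only [ad, transpose_smul, mul_smul_comm, smul_mul_assoc, smul_neg]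

theorem ad_one : ad (1 : M6 F) = 1 := by
  simp only [ad, transpose_one, mul_one, JJ_JJ, neg_neg]

theorem ad_zero : ad (0 : M6 F) = 0 := by
  simp only [ad, transpose_zero, mul_zero, zero_mul, neg_zero]

theorem ad_mul (X Y : M6 F) : ad (X * Y) = ad Y * ad X := by
  have h : JJ * Yᵀ * JJ * (JJ * Xᵀ * JJ) = JJ * Yᵀ * (JJ * JJ) * Xᵀ * JJ := by noncomm_ring
  simp only [ad, transpose_mul, neg_mul_neg, h, JJ_JJ]
  noncomm_ring

theorem ad_ad (X : M6 F) : ad (ad X) = X := by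
  have h1 : (JJ * Xᵀ * JJ)ᵀ = JJ * X * JJ := by
    rw [transpose_mul, transpose_mul, transpose_transpose, JJ_t]
    noncomm_ring
  have h : JJ * (JJ * X * JJ) * JJ = (JJ * JJ) * X * (JJ * JJ) := by noncomm_ring
  simp only [ad, transpose_neg, h1, mul_neg, neg_mul, neg_neg, h, JJ_JJ]
  simp

theorem ad_pow (X : M6 F) (n : ℕ) : ad (X ^ n) = ad X ^ n := by
  induction n with
  | zero => simp [ad_one]
  | succ n ih => rw [pow_succ, ad_mul, ih, pow_succ']

theorem ω_ad (X : M6 F) (x y : V6 F) : ω (X *ᵥ x) y = ω x (ad X *ᵥ y) := by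
  have h : JJ * ad X = Xᵀ * JJ := by
    have : JJ * (-(JJ * Xᵀ * JJ)) = -((JJ * JJ) * Xᵀ * JJ) := by noncomm_ring
    rw [ad, this, JJ_JJ]
    noncomm_ring
  rw [ω, ω, Matrix.mulVec_mulVec, h, ← Matrix.mulVec_mulVec, Matrix.dotProduct_mulVec x Xᵀ,
    Matrix.vecMul_transpose]

theorem ω_ad' (X : M6 F) (x y : V6 F) : ω x (X *ᵥ y) = ω (ad X *ᵥ x) y := by
  rw [ω_ad, ad_ad]

theorem ad_sp (A : SP F) : ad A.1 * A.1 = 1 := by
  have h : A.1ᵀ * JJ * A.1 = JJ := SymplecticGroup.mem_iff'.1 A.2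
  have : ad A.1 * A.1 = -(JJ * (A.1ᵀ * JJ * A.1)) := by
    rw [ad]
    noncomm_ring
  rw [this, h, JJ_JJ, neg_neg]

theorem sp_ad (A : SP F) : A.1 * ad A.1 = 1 := mul_eq_one_comm.mp (ad_sp A)

theorem mem_of_ad {X : M6 F} (h : ad X * X = 1) : X ∈ symplecticGroup (Fin 3) F := by
  rw [SymplecticGroup.mem_iff']
  have h1 : -(JJ * (Xᵀ * JJ * X)) = 1 := by
    rw [← h, ad]
    noncomm_ring
  have h2 : JJ * (-(JJ * (Xᵀ * JJ * X))) = JJ * 1 := by rw [h1]
  have h3 : JJ * (-(JJ * (Xᵀ * JJ * X))) = -((JJ * JJ) * (Xᵀ * JJ * X)) := by noncomm_ring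
  rw [h3, JJ_JJ] at h2
  simpa using h2

theorem sp_inv (A : SP F) : (A⁻¹).1 = ad A.1 := by
  have h1 : (A⁻¹).1 * A.1 = 1 := by
    have : (A⁻¹ * A).1 = 1 := by rw [inv_mul_cancel]; rfl
    exact this
  calc (A⁻¹).1 = (A⁻¹).1 * (A.1 * ad A.1) := by rw [sp_ad, mul_one]
    _ = ((A⁻¹).1 * A.1) * ad A.1 := by rw [mul_assoc]
    _ = ad A.1 := by rw [h1, one_mul]

theorem sp_mul (A B : SP F) : (A * B).1 = A.1 * B.1 := rfl

theorem sp_one : (1 : SP F).1 = 1 := rfl

theorem alt_self (h2 : (2 : F) ≠ 0) {s : M6 F} (hs : ad s = s) (x : V6 F) : ω x (s *ᵥ x) = 0 := by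
  have h1 : ω (s *ᵥ x) x = ω x (s *ᵥ x) := by
    rw [ω_ad, hs]
  have h3 := ω_comm (s *ᵥ x) x
  rw [h1] at h3
  have h4 : (2 : F) * ω x (s *ᵥ x) = 0 := by linear_combination h3
  exact (mul_eq_zero.1 h4).resolve_left h2

/-! ### frames -/

/-- The matrix with given columns. -/
def col6 (E : I6 → V6 F) : M6 F := Matrix.of fun i j => E j i

theorem col6_apply (E : I6 → V6 F) (i j : I6) : col6 E i j = E j i := rfl

theorem col6_mulVec (E : I6 → V6 F) (c : V6 F) : col6 E *ᵥ c = ∑ j, c j • E j := by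
  ext i
  simp [col6, Matrix.mulVec, dotProduct, Finset.sum_apply, mul_comm]

theorem mul_col6 (X : M6 F) (E : I6 → V6 F) : X * col6 E = col6 (fun j => X *ᵥ E j) := by
  ext i j
  simp [col6, Matrix.mul_apply, Matrix.mulVec, dotProduct]

theorem gram_col6 (E E' : I6 → V6 F) : (col6 E)ᵀ * JJ * col6 E' = Matrix.of fun i j => ω (E i) (E' j) := by
  ext i j
  simp only [Matrix.mul_apply, col6_apply, transpose_apply, of_apply, ω, dotProduct, Matrix.mulVec,
    Finset.sum_mul, Finset.mul_sum]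
  rw [Finset.sum_comm]
  apply Finset.sum_congr rfl
  intro k _
  apply Finset.sum_congr rfl
  intro l _
  ring

/-- Two frames with the same Gram matrix and the same action are conjugate under `Sp₆`. -/
theorem conj_of_frames {E E₀ : I6 → V6 F} {G G' C X X₀ : M6 F} (hGG : G' * G = 1)
    (hE : ∀ i j, ω (E i) (E j) = G i j) (hE₀ : ∀ i j, ω (E₀ i) (E₀ j) = G i j)
    (hX : X * col6 E = col6 E * C) (hX₀ : X₀ * col6 E₀ = col6 E₀ * C) :
    ∃ A : SP F, A.1 * X = X₀ * A.1 := by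
  have hg : (col6 E)ᵀ * JJ * col6 E = G := by
    rw [gram_col6]; ext i j; exact hE i j
  have hg₀ : (col6 E₀)ᵀ * JJ * col6 E₀ = G := by
    rw [gram_col6]; ext i j; exact hE₀ i j
  -- inverses
  obtain ⟨Bi, hBi⟩ : ∃ Bi : M6 F, Bi * col6 E = 1 := ⟨G' * ((col6 E)ᵀ * JJ), by
    rw [mul_assoc, hg, hGG]⟩
  have hBi2 : col6 E * Bi = 1 := mul_eq_one_comm.mp hBi
  let x : M6 F := col6 E₀ * Bi
  have hxmem : x ∈ symplecticGroup (Fin 3) F := by
    rw [SymplecticGroup.mem_iff']
    have h1 : xᵀ * JJ * x = Biᵀ * ((col6 E₀)ᵀ * JJ * col6 E₀) * Bi := by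
      simp only [x, transpose_mul, mul_assoc]
    rw [h1, hg₀, ← hg]
    have h2 : Biᵀ * ((col6 E)ᵀ * JJ * col6 E) * Bi = (col6 E * Bi)ᵀ * JJ * (col6 E * Bi) := by
      simp only [transpose_mul, mul_assoc]
    rw [h2, hBi2]
    simp
  refine ⟨⟨x, hxmem⟩, ?_⟩
  show x * X = X₀ * x
  have h3 : Bi * X = C * Bi := by
    calc Bi * X = Bi * X * (col6 E * Bi) := by rw [hBi2, mul_one]
      _ = Bi * (X * col6 E) * Bi := by simp only [mul_assoc]
      _ = Bi * (col6 E * C) * Bi := by rw [hX]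
      _ = (Bi * col6 E) * C * Bi := by simp only [mul_assoc]
      _ = C * Bi := by rw [hBi, one_mul]
  calc x * X = col6 E₀ * (Bi * X) := by simp only [x, mul_assoc]
    _ = (col6 E₀ * C) * Bi := by rw [h3, mul_assoc]
    _ = (X₀ * col6 E₀) * Bi := by rw [hX₀]
    _ = X₀ * x := by simp only [x, mul_assoc]

/-! ### evenness -/

theorem even_of_skew (h2 : (2 : F) ≠ 0) {S : M6 F} (hS : Sᵀ = -S) (W : Submodule F (V6 F))
    (hW : ∀ x ∈ W, (∀ y ∈ W, x ⬝ᵥ (S *ᵥ y) = 0) → x = 0) : Even (Module.finrank F W) := by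
  classical
  by_contra hodd
  have hodd' : Odd (Module.finrank F W) := Nat.not_even_iff_odd.1 hodd
  set n := Module.finrank F W with hn
  let b := Module.finBasis F W
  have hskew : ∀ x y : V6 F, x ⬝ᵥ (S *ᵥ y) = - (y ⬝ᵥ (S *ᵥ x)) := by
    intro x y
    have h1 : y ⬝ᵥ (S *ᵥ x) = x ⬝ᵥ (Sᵀ *ᵥ y) := by
      rw [Matrix.dotProduct_mulVec, dotProduct_comm, Matrix.mulVec_transpose]
    rw [h1, hS, Matrix.neg_mulVec, dotProduct_neg, neg_neg]
  let G : Matrix (Fin n) (Fin n) F := Matrix.of fun i j => ((b i : W) : V6 F) ⬝ᵥ (S *ᵥ ((b j : W) : V6 F))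
  have hG : Gᵀ = -G := by
    ext i j
    simp only [G, transpose_apply, of_apply, neg_apply]
    exact hskew _ _
  have hdet : G.det = 0 := by
    have h1 : G.det = -G.det := by
      conv_lhs => rw [← Matrix.det_transpose, hG, Matrix.det_neg]
      simp only [Fintype.card_fin, hodd'.neg_one_pow]
      ring
    have h3 : (2 : F) * G.det = 0 := by linear_combination h1
    exact (mul_eq_zero.1 h3).resolve_left h2
  obtain ⟨c, hc0, hc⟩ := Matrix.exists_mulVec_eq_zero_iff.2 hdet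
  apply hc0
  let w : W := ∑ j, c j • b j
  have hwv : (w : V6 F) = ∑ j, c j • ((b j : W) : V6 F) := by
    simp [w]
  have h1 : ∀ i, ((b i : W) : V6 F) ⬝ᵥ (S *ᵥ (w : V6 F)) = 0 := by
    intro i
    have h4 := congrFun hc i
    rw [hwv, Matrix.mulVec_sum, dotProduct_sum]
    simp only [Matrix.mulVec_smul, dotProduct_smul, smul_eq_mul]
    simp only [Matrix.mulVec, G, dotProduct, of_apply, Pi.zero_apply] at h4
    rw [← h4]
    apply Finset.sum_congr rfl
    intro j _
    rw [mul_comm]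
    rfl
  have h5 : (w : V6 F) = 0 := by
    apply hW w w.2
    intro y hy
    rw [hskew]
    have hy' : (⟨y, hy⟩ : W) = ∑ i, b.repr ⟨y, hy⟩ i • b i := (b.sum_repr _).symm
    have hy2 : y = ∑ i, b.repr ⟨y, hy⟩ i • ((b i : W) : V6 F) := by
      have h8 := congrArg (Subtype.val) hy'
      simp only [AddSubmonoidClass.coe_finset_sum, Submodule.coe_smul] at h8
      exact h8
    rw [hy2, sum_dotProduct]
    simp only [smul_dotProduct, h1, smul_zero, Finset.sum_const_zero, neg_zero]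
  have h6 : w = 0 := Subtype.ext h5
  have h7 := (Fintype.linearIndependent_iff.1 b.linearIndependent) c h6
  ext j
  exact h7 j

/-! ### stable two-spaces -/

/-- `g` stabilises a non-degenerate two-space. -/
def Dec (g : SP F) : Prop :=
  ∃ U : Submodule F (V6 F), Module.finrank F U = 2 ∧ (∀ x ∈ U, g • x ∈ U) ∧
    (∀ x ∈ U, (∀ y ∈ U, ω x y = 0) → x = 0)

theorem inv_stable (A : SP F) (U : Submodule F (V6 F)) (h : ∀ x ∈ U, A • x ∈ U) : ∀ x ∈ U, A⁻¹ • x ∈ U := by
  let f : U →ₗ[F] U := LinearMap.restrict (Matrix.mulVecLin A.1) (p := U) (q := U) (fun x hx => h x hx)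
  have hinj : Function.Injective f := by
    intro x y hxy
    have h1 : A • (x : V6 F) = A • (y : V6 F) := congrArg Subtype.val hxy
    exact Subtype.ext (smul_left_cancel A h1)
  have hsurj := LinearMap.injective_iff_surjective.1 hinj
  intro x hx
  obtain ⟨y, hy⟩ := hsurj ⟨x, hx⟩
  have h2 : A • (y : V6 F) = x := congrArg Subtype.val hy
  rw [← h2, inv_smul_smul]
  exact y.2

/-- The standard hyperbolic plane. -/
def W0 : Submodule F (V6 F) := Submodule.span F {eL (0 : Fin 3), eR (0 : Fin 3)}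

/-- Its stabiliser. -/
def HH6 : Subgroup (SP F) where
  carrier := {A | ∀ x ∈ (W0 : Submodule F (V6 F)), A • x ∈ (W0 : Submodule F (V6 F))}
  one_mem' := by
    intro x hx
    rwa [one_smul]
  mul_mem' := fun ha hb x hx => by
    rw [mul_smul]
    exact ha _ (hb x hx)
  inv_mem' := fun ha => inv_stable _ _ ha

theorem pair_indep {u w : V6 F} (h : ω u w ≠ 0) : LinearIndependent F ![u, w] := by
  rw [LinearIndependent.pair_iff]
  intro s t hst
  have e1 := congrArg (fun y => ω y w) hst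
  have e2 := congrArg (fun y => ω y u) hst
  simp only [ω_add_left, ω_smul_left, ω_self, ω_zero_left, mul_zero, add_zero, zero_add] at e1 e2
  have hs : s = 0 := (mul_eq_zero.1 e1).resolve_right h
  have hwu : ω w u ≠ 0 := by
    intro h0
    apply h
    rw [ω_comm, h0, neg_zero]
  have ht : t = 0 := (mul_eq_zero.1 e2).resolve_right hwu
  exact ⟨hs, ht⟩

/-- A stable non-degenerate two-space can be moved to the standard one. -/
theorem exists_conj_of_Dec {g : SP F} (hg : Dec g) : ∃ z : SP F, z * g * z⁻¹ ∈ HH6 := by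
  classical
  obtain ⟨U, hU2, hgU, hUn⟩ := hg
  haveI : Nontrivial U := Module.nontrivial_of_finrank_pos (R := F) (by omega)
  obtain ⟨⟨u, huU⟩, hu0⟩ := exists_ne (0 : U)
  have hu0' : u ≠ 0 := fun h => hu0 (Subtype.ext h)
  obtain ⟨w, hwU, hw⟩ : ∃ w ∈ U, ω u w ≠ 0 := by
    by_contra hcon
    push_neg at hcon
    exact hu0' (hUn u huU hcon)
  let w' : V6 F := (-(ω u w)⁻¹) • w
  have hw'U : w' ∈ U := U.smul_mem _ hwU
  have huw' : ω u w' = -1 := by
    simp only [w', ω_smul_right]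
    field_simp
  have huw'ne : ω u w' ≠ 0 := by
    rw [huw']
    exact neg_ne_zero.2 one_ne_zero
  have hind := pair_indep huw'ne
  have hspan : Submodule.span F {u, w'} = U := by
    apply Submodule.eq_of_le_of_finrank_eq
    · rw [Submodule.span_le]
      intro y hy
      rcases hy with rfl | rfl
      · exact huU
      · exact hw'U
    · have := finrank_span_eq_card hind
      have hr : Set.range ![u, w'] = {u, w'} := by
        ext y
        constructor
        · rintro ⟨i, rfl⟩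
          fin_cases i <;> simp
        · rintro (rfl | rfl)
          · exact ⟨0, rfl⟩
          · exact ⟨1, rfl⟩
      rw [hr] at this
      rw [hU2]
      simpa using this
  have hf : ω (eL (0 : Fin 3)) (eR (0 : Fin 3)) = (-1 : F) := by
    rw [ω_eR_right]
    simp
  have hfne : ω (eL (0 : Fin 3)) (eR (0 : Fin 3)) ≠ (0 : F) := by
    rw [hf]
    exact neg_ne_zero.2 one_ne_zero
  obtain ⟨A, hA⟩ := Cfsg.Agent.Lib.SympWitt.exists_sp_tuple (m := 3) ![u, w'] ![eL (0 : Fin 3), eR (0 : Fin 3)] hind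
    (pair_indep hfne) (by
      intro i j
      have h1 : ∀ a b : V6 F, Cfsg.sympForm 3 F a b = ω a b := fun _ _ => rfl
      rw [h1, h1]
      fin_cases i <;> fin_cases j <;> simp [ω_self, huw', hf]
      · rw [ω_comm, huw', ω_comm, hf])
  have hA0 : A • u = eL (0 : Fin 3) := hA 0
  have hA1 : A • w' = eR (0 : Fin 3) := hA 1
  refine ⟨A, ?_⟩
  intro x hx
  obtain ⟨a, b, rfl⟩ := Submodule.mem_span_pair.1 hx
  have hlin : ∀ c d : F, A • (c • u + d • w') = c • eL (0 : Fin 3) + d • eR (0 : Fin 3) := by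
    intro c d
    show A.1 *ᵥ (c • u + d • w') = _
    rw [Matrix.mulVec_add, Matrix.mulVec_smul, Matrix.mulVec_smul]
    rw [← hA0, ← hA1]
    rfl
  have h1 : A⁻¹ • (a • eL (0 : Fin 3) + b • eR (0 : Fin 3)) = a • u + b • w' := by
    rw [← hlin, inv_smul_smul]
  rw [mul_smul, mul_smul, h1]
  have h2 : g • (a • u + b • w') ∈ Submodule.span F {u, w'} := by
    rw [hspan]
    apply hgU
    exact U.add_mem (U.smul_mem _ huU) (U.smul_mem _ hw'U)
  obtain ⟨c, d, hcd⟩ := Submodule.mem_span_pair.1 h2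
  rw [← hcd, hlin]
  exact Submodule.add_mem _ (Submodule.smul_mem _ _ (Submodule.subset_span (by simp)))
    (Submodule.smul_mem _ _ (Submodule.subset_span (by simp)))

/-- The form as a bilinear form. -/
abbrev bB : LinearMap.BilinForm F (V6 F) := Cfsg.Agent.Lib.SympWitt.sympB 3 F

theorem bB_apply (x y : V6 F) : bB x y = ω x y := rfl

/-- A stable subspace on which the form is non-degenerate yields a stable non-degenerate two-space. -/
theorem dec_of_stable (h2 : (2 : F) ≠ 0) {g : SP F} {W : Submodule F (V6 F)} (hg : ∀ x ∈ W, g • x ∈ W)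
    (hW : ∀ x ∈ W, (∀ y ∈ W, ω x y = 0) → x = 0) (h0 : W ≠ ⊥) (h1 : W ≠ ⊤) : Dec g := by
  classical
  have hnd : (bB : LinearMap.BilinForm F (V6 F)).Nondegenerate := Cfsg.Agent.Lib.SympWitt.sympB_nondeg
  have hJt : (JJ)ᵀ = -JJ := JJ_t
  have hev : Even (Module.finrank F W) := even_of_skew h2 hJt W hW
  have hV : Module.finrank F (V6 F) = 6 := by simp
  have hle : Module.finrank F W ≤ 6 := by
    have := Submodule.finrank_le W
    omega
  have hne0 : Module.finrank F W ≠ 0 := by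
    intro h
    exact h0 (Submodule.finrank_eq_zero.1 h)
  have hne6 : Module.finrank F W ≠ 6 := by
    intro h
    apply h1
    apply Submodule.eq_top_of_finrank_eq
    omega
  have hcases : Module.finrank F W = 2 ∨ Module.finrank F W = 4 := by
    obtain ⟨k, hk⟩ := hev
    omega
  rcases hcases with h2' | h4
  · exact ⟨W, h2', hg, hW⟩
  · let P := (bB : LinearMap.BilinForm F (V6 F)).orthogonal W
    have hP : ∀ x, x ∈ P ↔ ∀ y ∈ W, ω y x = 0 := by
      intro x
      exact LinearMap.BilinForm.mem_orthogonal_iff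
    have hPr : Module.finrank F P = 2 := by
      rw [LinearMap.BilinForm.finrank_orthogonal hnd W, hV, h4]
    have hinf : W ⊓ P = ⊥ := by
      rw [Submodule.eq_bot_iff]
      rintro y ⟨hy1, hy2⟩
      apply hW y hy1
      intro z hz
      rw [ω_comm, (hP y).1 hy2 z hz, neg_zero]
    have hsup : W ⊔ P = ⊤ := by
      apply Submodule.eq_top_of_finrank_eq
      have h6 := Submodule.finrank_sup_add_finrank_inf_eq W P
      rw [hinf, finrank_bot, hPr, h4] at h6
      rw [hV]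
      omega
    refine ⟨P, hPr, ?_, ?_⟩
    · intro x hx
      rw [hP] at hx ⊢
      intro y hy
      have h3 := ω_smul_smul g (g⁻¹ • y) x
      rw [smul_inv_smul] at h3
      rw [h3]
      exact hx _ (inv_stable g W hg y hy)
    · intro x hx hxP
      apply eq_zero_of_ω_eq_zero
      intro z
      have hz : z ∈ W ⊔ P := by rw [hsup]; trivial
      obtain ⟨a, ha, c, hc, rfl⟩ := Submodule.mem_sup.1 hz
      rw [ω_add_right, hxP c hc, add_zero, ω_comm, (hP x).1 hx a ha, neg_zero]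

/-! ### The generator, the normaliser -/

open Cfsg.Agent.Lib.NC2U3 in
/-- The generator on `V₆`. -/
def Th6 (b : F) : M6 F := Matrix.fromBlocks (Th b) 0 0 (Th b)

open Cfsg.Agent.Lib.NC2U3 in
/-- The permutation on `V₆`. -/
def P6 : M6 F := Matrix.fromBlocks Pm 0 0 Pm

theorem ad_blocks (A : Matrix (Fin 3) (Fin 3) F) : ad (Matrix.fromBlocks A 0 0 A) = Matrix.fromBlocks Aᵀ 0 0 Aᵀ := by
  rw [ad, Matrix.fromBlocks_transpose, J]
  simp only [Matrix.fromBlocks_multiply, Matrix.fromBlocks_neg]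
  simp

theorem one_blocks : (1 : M6 F) = Matrix.fromBlocks 1 0 0 1 := Matrix.fromBlocks_one.symm

theorem smul_one_blocks (c : F) : c • (1 : M6 F) = Matrix.fromBlocks (c • 1) 0 0 (c • 1) := by
  rw [one_blocks, Matrix.fromBlocks_smul]
  simp

open Cfsg.Agent.Lib.NC2U3 in
theorem Th_transpose (b : F) : (Th b)ᵀ = Th b := by
  ext i j
  fin_cases i <;> fin_cases j <;> simp [Th]

theorem ad_Th6 (b : F) : ad (Th6 b) = Th6 b := by
  rw [Th6, ad_blocks, Th_transpose]

variable [Fintype F]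

open Cfsg.Agent.Lib.NC2U3 in
theorem Th6_cube (h3 : (3 : F) = 0) (b : F) : Th6 b ^ 3 = Th6 b + (-b ^ 3) • (1 : M6 F) := by
  rw [smul_one_blocks, Th6, pow_succ, pow_two, Matrix.fromBlocks_multiply, Matrix.fromBlocks_multiply,
    Matrix.fromBlocks_add]
  simp only [mul_zero, zero_mul, add_zero, zero_add]
  rw [← pow_two, ← pow_succ, Th_cube h3]

open Cfsg.Agent.Lib.NC2U3 in
theorem P6_Th6 (h3 : (3 : F) = 0) (b : F) : P6 * Th6 b = (Th6 b + (1 : F) • (1 : M6 F)) * P6 := by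
  rw [smul_one_blocks, Th6, P6, Matrix.fromBlocks_add, Matrix.fromBlocks_multiply, Matrix.fromBlocks_multiply]
  simp only [mul_zero, zero_mul, add_zero, zero_add]
  rw [Pm_Th h3]

open Cfsg.Agent.Lib.NC2U3 in
theorem Pm_orth : (Pm : Matrix (Fin 3) (Fin 3) F)ᵀ * Pm = 1 := by
  ext i j
  fin_cases i <;> fin_cases j <;> simp [Pm, Matrix.mul_apply, Fin.sum_univ_three, Matrix.one_apply]

theorem P6_mem : (P6 : M6 F) ∈ symplecticGroup (Fin 3) F := by
  apply mem_of_ad
  rw [P6, ad_blocks, Matrix.fromBlocks_multiply, one_blocks]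
  simp only [mul_zero, zero_mul, add_zero, zero_add, Pm_orth]

/-- The permutation as an element. -/
def P6S : SP F := ⟨P6, P6_mem⟩

/-- The normaliser. -/
def KK6 (b : F) : Subgroup (SP F) where
  carrier := {A | ∃ i : F, A.1 * Th6 b = (Th6 b + i • (1 : M6 F)) * A.1}
  one_mem' := ⟨0, by rw [sp_one]; simp⟩
  mul_mem' := by
    rintro A B ⟨i, hi⟩ ⟨j, hj⟩
    refine ⟨i + j, ?_⟩
    rw [sp_mul]
    calc A.1 * B.1 * Th6 b = A.1 * (B.1 * Th6 b) := by rw [mul_assoc]
      _ = A.1 * ((Th6 b + j • (1 : M6 F)) * B.1) := by rw [hj]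
      _ = (A.1 * Th6 b + j • A.1) * B.1 := by
          rw [← mul_assoc, mul_add, mul_smul_comm, mul_one]
      _ = ((Th6 b + i • (1 : M6 F)) * A.1 + j • A.1) * B.1 := by rw [hi]
      _ = _ := by
          simp only [add_mul, add_smul, smul_mul_assoc, one_mul, mul_assoc, add_assoc]
  inv_mem' := by
    rintro A ⟨i, hi⟩
    refine ⟨-i, ?_⟩
    have hAi : (A⁻¹).1 * A.1 = 1 := by rw [← sp_mul, inv_mul_cancel, sp_one]
    have hiA : A.1 * (A⁻¹).1 = 1 := by rw [← sp_mul, mul_inv_cancel, sp_one]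
    have h1 : Th6 b * (A⁻¹).1 = (A⁻¹).1 * (Th6 b + i • (1 : M6 F)) := by
      calc Th6 b * (A⁻¹).1 = ((A⁻¹).1 * A.1) * Th6 b * (A⁻¹).1 := by rw [hAi, one_mul]
        _ = (A⁻¹).1 * (A.1 * Th6 b) * (A⁻¹).1 := by simp only [mul_assoc]
        _ = (A⁻¹).1 * ((Th6 b + i • (1 : M6 F)) * A.1) * (A⁻¹).1 := by rw [hi]
        _ = (A⁻¹).1 * (Th6 b + i • (1 : M6 F)) * (A.1 * (A⁻¹).1) := by simp only [mul_assoc]
        _ = _ := by rw [hiA, mul_one]
    have h2 : (A⁻¹).1 * Th6 b = Th6 b * (A⁻¹).1 - i • (A⁻¹).1 := by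
      rw [h1, mul_add, mul_smul_comm, mul_one]
      abel
    rw [h2, add_mul, neg_smul, neg_mul, smul_mul_assoc, one_mul]
    abel

theorem center_le_HH6 : Subgroup.center (SP F) ≤ HH6 := by
  intro z hz
  rcases (Cfsg.Agent.Lib.SpCenter.mem_center_iff).1 hz with rfl | rfl
  · exact one_mem _
  · intro x hx
    rw [Cfsg.Agent.Lib.SpCenter.negOne_smul]
    exact Submodule.neg_mem _ hx

theorem center_le_KK6 (b : F) : Subgroup.center (SP F) ≤ KK6 b := by
  intro z hz
  rcases (Cfsg.Agent.Lib.SpCenter.mem_center_iff).1 hz with rfl | rfl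
  · exact one_mem _
  · refine ⟨0, ?_⟩
    show -1 * Th6 b = (Th6 b + (0 : F) • (1 : M6 F)) * (-1)
    simp

open Cfsg.Agent.Lib.NC2U3 in
theorem HH6_ne_top : (HH6 : Subgroup (SP F)) ≠ ⊤ := by
  intro h
  have h1 : (P6S : SP F) ∈ (HH6 : Subgroup (SP F)) := by rw [h]; trivial
  have h2 : (P6S : SP F) • (eL (0 : Fin 3) : V6 F) ∈ (W0 : Submodule F (V6 F)) :=
    h1 _ (Submodule.subset_span (by simp))
  obtain ⟨a, b, hab⟩ := Submodule.mem_span_pair.1 h2
  have h3 := congrFun hab (Sum.inl 1)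
  have e : (P6S : SP F) • (eL (0 : Fin 3) : V6 F) = P6 *ᵥ eL (0 : Fin 3) := rfl
  rw [e] at h3
  simp [P6, Pm, Matrix.mulVec, dotProduct, Fintype.sum_sum_type, Fin.sum_univ_three, Pi.single_apply] at h3

open Cfsg.Agent.Lib.NC2U3 in
theorem KK6_ne_top {b : F} (hb : b ≠ 0) : KK6 b ≠ (⊤ : Subgroup (SP F)) := by
  intro h
  have h1 : (T (eL (0 : Fin 3)) (1 : F)) ∈ KK6 b := by rw [h]; trivial
  obtain ⟨i, hi⟩ := h1
  have hE : ∀ r s : I6, (T (eL (0 : Fin 3)) (1 : F)).1 r s = (1 : M6 F) r s + (eL (0 : Fin 3) : V6 F) r * JJ (Sum.inl 0) s := by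
    intro r s
    show tMat _ _ r s = _
    simp [tMat, vecMulVec_apply, Matrix.vecMul, dotProduct, Fintype.sum_sum_type, Fin.sum_univ_three, Pi.single_apply]
  have h2 := congrFun (congrFun hi (Sum.inl 1)) (Sum.inr 0)
  simp only [Matrix.mul_apply, Fintype.sum_sum_type, Fin.sum_univ_three, hE] at h2
  simp [Th6, Th, J, Pi.single_apply, Matrix.one_apply] at h2
  exact hb h2

end Cfsg.Agent.Lib.NC2Sp6
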