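import Mathlib
import Cfsg.Agent.Lib.NC2SpA

/-!
`Sp₆` in characteristic three: self-adjoint Artin-Schreier elements are conjugate; unipotent elements of type `J₃²`.
-/

set_option autoImplicit false
set_option linter.unusedSectionVars false
set_option linter.unusedSimpArgs false
set_option linter.unusedVariables false
set_option linter.style.longLine false

namespace Cfsg.Agent.Lib.NC2Sp6

open Matrix Polynomial Cfsg.Agent.Lib.SpBasic Cfsg.Agent.Lib.NC2Cub Cfsg.Agent.Lib.NC2U3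

variable {F : Type*} [Field F] [Fintype F]

local notation "JJ" => (J (Fin 3) F)

/-- A functional with prescribed values. -/
theorem exists_partner3 {a b c : V6 F} (hind : ∀ x : Fin 3 → F, x 0 • a + x 1 • b + x 2 • c = 0 → x = 0) :
    ∃ y : V6 F, ω a y = 0 ∧ ω b y = 0 ∧ ω c y = 1 := by
  classical
  let Φ : V6 F →ₗ[F] (Fin 3 → F) :=
    { toFun := fun y => ![ω a y, ω b y, ω c y]
      map_add' := by
        intro y z
        ext i
        fin_cases i <;> simp [ω_add_right]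
      map_smul' := by
        intro r y
        ext i
        fin_cases i <;> simp [ω_smul_right] }
  have hsurj : LinearMap.range Φ = ⊤ := by
    by_contra hne
    obtain ⟨f, hf0, hf⟩ := Submodule.exists_le_ker_of_lt_top _ (lt_top_iff_ne_top.2 hne)
    apply hf0
    let x : Fin 3 → F := fun i => f (Pi.single i 1)
    have hall : ∀ w : Fin 3 → F, f w = w 0 * x 0 + w 1 * x 1 + w 2 * x 2 := by
      intro w
      have hw : w = w 0 • Pi.single 0 1 + w 1 • Pi.single 1 1 + w 2 • Pi.single 2 1 := by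
        ext i
        fin_cases i <;> simp
      conv_lhs => rw [hw]
      simp only [map_add, map_smul, smul_eq_mul, x]
    have hv : x 0 • a + x 1 • b + x 2 • c = 0 := by
      apply eq_zero_of_ω_eq_zero
      intro y
      have h1 : f (Φ y) = 0 := hf ⟨y, rfl⟩
      rw [hall] at h1
      simp only [Φ, LinearMap.coe_mk, AddHom.coe_mk, Matrix.cons_val_zero, Matrix.cons_val_one,
        Matrix.cons_val] at h1
      simp only [ω_add_left, ω_smul_left]
      linear_combination h1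
    have hx0 := hind x hv
    refine LinearMap.ext fun w => ?_
    rw [hall]
    have e0 : x 0 = 0 := by rw [hx0]; rfl
    have e1 : x 1 = 0 := by rw [hx0]; rfl
    have e2 : x 2 = 0 := by rw [hx0]; rfl
    simp [e0, e1, e2]
  have h1 : (![0, 0, 1] : Fin 3 → F) ∈ LinearMap.range Φ := by rw [hsurj]; trivial
  obtain ⟨y, hy⟩ := h1
  refine ⟨y, congrFun hy 0, congrFun hy 1, congrFun hy 2⟩

/-- Cyclic vectors. -/
theorem indep3 {p : F[X]} (hp : Irreducible p) (hd : p.natDegree = 3) {A : M6 F} (hA : aeval A p = 0)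
    {v : V6 F} (hv : v ≠ 0) (x : Fin 3 → F) (hx : x 0 • v + x 1 • (A *ᵥ v) + x 2 • (A *ᵥ (A *ᵥ v)) = 0) : x = 0 := by
  by_contra hx0
  let s : F[X] := C (x 0) + C (x 1) * X + C (x 2) * X ^ 2
  have hs : s ≠ 0 := by
    intro h
    apply hx0
    have h0 : s.coeff 0 = 0 := by rw [h]; simp
    have h1 : s.coeff 1 = 0 := by rw [h]; simp
    have h2 : s.coeff 2 = 0 := by rw [h]; simp
    simp [s, coeff_X, coeff_C, coeff_one] at h0 h1 h2
    ext i
    fin_cases i <;> simpa
  have hsd : s.natDegree < 3 := by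
    have : s.natDegree ≤ 2 := by
      simp only [s]
      compute_degree
    omega
  have hnd : ¬ p ∣ s := by
    intro h
    have := Polynomial.natDegree_le_of_dvd h hs
    omega
  have hco : IsCoprime p s := (hp.coprime_iff_not_dvd).2 hnd
  obtain ⟨a, b, hab⟩ := hco
  have h1 : aeval A (a * p + b * s) = 1 := by rw [hab]; simp
  rw [map_add, map_mul, map_mul, hA, mul_zero, zero_add] at h1
  have h2 : (aeval A s) *ᵥ v = 0 := by
    have h3 : aeval A s = x 0 • (1 : M6 F) + x 1 • A + x 2 • (A * A) := by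
      simp [s, pow_two, Algebra.smul_def, aeval_C]
    rw [h3, Matrix.add_mulVec, Matrix.add_mulVec, Matrix.smul_mulVec, Matrix.smul_mulVec,
      Matrix.smul_mulVec, Matrix.one_mulVec, ← Matrix.mulVec_mulVec]
    exact hx
  apply hv
  have h4 : ((aeval A b) * (aeval A s)) *ᵥ v = v := by rw [h1, Matrix.one_mulVec]
  rw [← h4, ← Matrix.mulVec_mulVec, h2, Matrix.mulVec_zero]

theorem aeval_asP6 {A : M6 F} {c : F} (h : A ^ 3 = A + c • (1 : M6 F)) : aeval A (asP c) = 0 := by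
  simp only [asP, map_sub, map_pow, aeval_X, aeval_C, h, Algebra.algebraMap_eq_smul_one]
  abel

/-- The Gram block. -/
def LP : Matrix (Fin 3) (Fin 3) F := !![0, 0, 1; 0, 1, 0; 1, 0, 1]

def LPi : Matrix (Fin 3) (Fin 3) F := !![-1, 0, 1; 0, 1, 0; 1, 0, 0]

theorem LPi_LP : (LPi : Matrix (Fin 3) (Fin 3) F) * LP = 1 := by
  ext i j
  fin_cases i <;> fin_cases j <;> simp [LP, LPi, Matrix.mul_apply, Fin.sum_univ_three, Matrix.one_apply]

/-- The Gram matrix of an Artin-Schreier frame. -/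
def GP : M6 F := Matrix.fromBlocks 0 LP (-LP) 0

def GPi : M6 F := Matrix.fromBlocks 0 (-LPi) LPi 0

theorem GPi_GP : (GPi : M6 F) * GP = 1 := by
  rw [GPi, GP, Matrix.fromBlocks_multiply, ← Matrix.fromBlocks_one]
  simp [LPi_LP]

def KP (c : F) : Matrix (Fin 3) (Fin 3) F := !![0, 0, c; 1, 0, 1; 0, 1, 0]

def CP (c : F) : M6 F := Matrix.fromBlocks (KP c) 0 0 (KP c)

/-- Frame of a self-adjoint Artin-Schreier element. -/
theorem frame_of_theta (h2 : (2 : F) ≠ 0) {c : F} (hc : ∀ x : F, x ^ 3 - x ≠ c) {θ : M6 F} (hs : ad θ = θ)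
    (hθ : θ ^ 3 = θ + c • (1 : M6 F)) :
    ∃ E : I6 → V6 F, (∀ i j, ω (E i) (E j) = GP i j) ∧ θ * col6 E = col6 E * CP c := by
  classical
  have hi := asP_irr hc
  have hd := asP_natDegree c
  let t : V6 F → V6 F := fun z => θ *ᵥ z
  have hadj : ∀ x y, ω (t x) y = ω x (t y) := by
    intro x y
    simp only [t]
    rw [ω_ad, hs]
  have ht3 : ∀ z, t (t (t z)) = t z + c • z := by
    intro z
    have : t (t (t z)) = (θ ^ 3) *ᵥ z := by
      simp [t, pow_succ, Matrix.mulVec_mulVec, mul_assoc]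
    rw [this, hθ, Matrix.add_mulVec, Matrix.smul_mulVec, Matrix.one_mulVec]
  have tadd : ∀ x y, t (x + y) = t x + t y := fun x y => Matrix.mulVec_add _ _ _
  have tsmul : ∀ (a : F) x, t (a • x) = a • t x := fun a x => Matrix.mulVec_smul _ _ _
  let v : V6 F := Pi.single (Sum.inl 0) 1
  have hv : v ≠ 0 := by
    intro h
    have := congrFun h (Sum.inl 0)
    simp [v] at this
  have hind := indep3 hi hd (aeval_asP6 hθ) hv
  obtain ⟨y, hy0, hy1, hy2⟩ := exists_partner3 (a := v) (b := t v) (c := t (t v)) hind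
  have a01 : ∀ z, ω z (t z) = 0 := fun z => alt_self h2 hs z
  -- values
  have l0 : ω v y = 0 := hy0
  have l1 : ω v (t y) = 0 := by rw [← hadj]; exact hy1
  have l2 : ω v (t (t y)) = 1 := by rw [← hadj, ← hadj]; exact hy2
  have l3 : ω v (t (t (t y))) = 0 := by rw [ht3, ω_add_right, ω_smul_right, l1, l0]; ring
  have l4 : ω v (t (t (t (t y)))) = 1 := by
    rw [ht3, ω_add_right, ω_smul_right, l2, l1]; ring
  have m1 : ∀ (z : V6 F) , ω z (t (t z)) = 0 := by
    intro z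
    rw [← hadj, ω_self]
  have m2 : ∀ (z : V6 F), ω (t z) (t (t z)) = 0 := by
    intro z
    rw [hadj, ht3, ω_add_right, ω_smul_right, a01, ω_self]
    ring
  have flip : ∀ a b : V6 F, ω a b = 0 → ω b a = 0 := by
    intro a b h
    rw [ω_comm, h, neg_zero]
  let E : I6 → V6 F := Sum.elim ![v, t v, t (t v)] ![y, t y, t (t y)]
  refine ⟨E, ?_, ?_⟩
  · have e01 : ∀ (i j : Fin 3), ω (![v, t v, t (t v)] i) (![y, t y, t (t y)] j) = LP i j := by
      intro i j
      fin_cases i <;> fin_cases j <;>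
        simp [LP, hadj, l0, l1, l2, l3, l4]
    have e00 : ∀ (z : V6 F) (i j : Fin 3), ω (![z, t z, t (t z)] i) (![z, t z, t (t z)] j) = 0 := by
      intro z i j
      fin_cases i <;> fin_cases j <;>
        simp [ω_self (x := _), a01, m1, m2, flip _ _ (a01 z), flip _ _ (m1 z), flip _ _ (m2 z)]
    rintro (i | i) (j | j)
    · simpa [E, GP] using e00 v i j
    · simpa [E, GP] using e01 i j
    · have := e01 j i
      have h5 : (LP : Matrix (Fin 3) (Fin 3) F) i j = LP j i := by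
        fin_cases i <;> fin_cases j <;> simp [LP]
      show ω (![y, t y, t (t y)] i) (![v, t v, t (t v)] j) = -(LP : Matrix (Fin 3) (Fin 3) F) i j
      rw [ω_comm (![y, t y, t (t y)] i), this, h5]
    · simpa [E, GP] using e00 y i j
  · rw [mul_col6]
    ext r s
    rcases s with s | s
    · fin_cases s
      · simp [col6, E, CP, KP, Matrix.mul_apply, Fintype.sum_sum_type, Fin.sum_univ_three, t]
      · simp [col6, E, CP, KP, Matrix.mul_apply, Fintype.sum_sum_type, Fin.sum_univ_three, t]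
      · have h7 : ((θ * (θ * θ)) *ᵥ v) r = (θ *ᵥ v) r + c * v r := by
          have e : θ * (θ * θ) = θ ^ 3 := by noncomm_ring
          rw [e, hθ]
          simp [Matrix.add_mulVec, Matrix.smul_mulVec]
        simp [col6, E, CP, KP, Matrix.mul_apply, Fintype.sum_sum_type, Fin.sum_univ_three, t]
        linear_combination h7
    · fin_cases s
      · simp [col6, E, CP, KP, Matrix.mul_apply, Fintype.sum_sum_type, Fin.sum_univ_three, t]
      · simp [col6, E, CP, KP, Matrix.mul_apply, Fintype.sum_sum_type, Fin.sum_univ_three, t]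
      · have h7 : ((θ * (θ * θ)) *ᵥ y) r = (θ *ᵥ y) r + c * y r := by
          have e : θ * (θ * θ) = θ ^ 3 := by noncomm_ring
          rw [e, hθ]
          simp [Matrix.add_mulVec, Matrix.smul_mulVec]
        simp [col6, E, CP, KP, Matrix.mul_apply, Fintype.sum_sum_type, Fin.sum_univ_three, t]
        linear_combination h7

/-- Self-adjoint Artin-Schreier elements are conjugate. -/
theorem conj_theta (h2 : (2 : F) ≠ 0) {c : F} (hc : ∀ x : F, x ^ 3 - x ≠ c) {θ A : M6 F} (hs : ad θ = θ)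
    (hθ : θ ^ 3 = θ + c • (1 : M6 F)) (hsA : ad A = A) (hA : A ^ 3 = A + c • (1 : M6 F)) :
    ∃ z : SP F, z.1 * θ = A * z.1 := by
  obtain ⟨E, hE, hX⟩ := frame_of_theta h2 hc hs hθ
  obtain ⟨E₀, hE₀, hX₀⟩ := frame_of_theta h2 hc hsA hA
  exact conj_of_frames GPi_GP hE hE₀ hX hX₀

/-! ### The class `J₃²` -/

def LJ : Matrix (Fin 3) (Fin 3) F := !![0, 0, 1; 1, -1, 0; 1, 0, 0]

def LJi : Matrix (Fin 3) (Fin 3) F := !![0, 0, 1; 0, -1, 1; 1, 0, 0]

def GJ : M6 F := Matrix.fromBlocks 0 LJ (-LJᵀ) 0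

def GJi : M6 F := Matrix.fromBlocks 0 (-LJiᵀ) LJi 0

theorem LJi_LJ : (LJi : Matrix (Fin 3) (Fin 3) F) * LJ = 1 := by
  ext i j
  fin_cases i <;> fin_cases j <;> simp [LJ, LJi, Matrix.mul_apply, Fin.sum_univ_three, Matrix.one_apply]

theorem GJi_GJ : (GJi : M6 F) * GJ = 1 := by
  have h : (LJiᵀ : Matrix (Fin 3) (Fin 3) F) * LJᵀ = 1 := by
    rw [← Matrix.transpose_mul, mul_eq_one_comm.mp LJi_LJ, Matrix.transpose_one]
  rw [GJi, GJ, Matrix.fromBlocks_multiply, ← Matrix.fromBlocks_one]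
  simp [LJi_LJ, h]

def KJ : Matrix (Fin 3) (Fin 3) F := !![1, 0, 0; 1, 1, 0; 0, 1, 1]

def CJ : M6 F := Matrix.fromBlocks KJ 0 0 KJ

/-- A frame for unipotent elements of type `J₃²`. -/
theorem frame_J3 (h2 : (2 : F) ≠ 0) (h3 : (3 : F) = 0) {g : M6 F} (hg : ad g * g = 1)
    (hM3 : (g - 1) ^ 3 = 0) (hM2 : (g - 1) ^ 2 ≠ 0) :
    ∃ E : I6 → V6 F, (∀ i j, ω (E i) (E j) = GJ i j) ∧ g * col6 E = col6 E * CJ := by
  classical
  set Mm := g - 1 with hMm
  have hgM : g = 1 + Mm := by rw [hMm]; abel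
  have hadg : ad g = 1 - Mm + Mm ^ 2 := by
    have h1 : (1 - Mm + Mm ^ 2) * g = 1 := by
      rw [hgM]
      have : (1 - Mm + Mm ^ 2) * (1 + Mm) = 1 + Mm ^ 3 := by noncomm_ring
      rw [this, hM3, add_zero]
    have h4 : g * ad g = 1 := mul_eq_one_comm.mp hg
    calc ad g = ((1 - Mm + Mm ^ 2) * g) * ad g := by rw [h1, one_mul]
      _ = (1 - Mm + Mm ^ 2) * (g * ad g) := by rw [mul_assoc]
      _ = _ := by rw [h4, mul_one]
  have hadM : ad Mm = -Mm + Mm ^ 2 := by
    rw [hMm, ad_sub, ad_one, ← hMm, hadg]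
    abel
  have hadM2 : ad (Mm ^ 2) = Mm ^ 2 := by
    rw [ad_pow, hadM]
    have : (-Mm + Mm ^ 2) ^ 2 = Mm ^ 2 - 2 • (Mm ^ 3) + Mm ^ 3 * Mm := by noncomm_ring
    rw [this, hM3]
    simp
  let t : V6 F → V6 F := fun z => Mm *ᵥ z
  have tt : ∀ z, t (t z) = (Mm ^ 2) *ᵥ z := by
    intro z
    simp [t, pow_two, Matrix.mulVec_mulVec]
  have ttt : ∀ z, t (t (t z)) = 0 := by
    intro z
    have : t (t (t z)) = (Mm ^ 3) *ᵥ z := by
      simp [t, pow_succ, Matrix.mulVec_mulVec, mul_assoc]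
    rw [this, hM3, Matrix.zero_mulVec]
  have tadd : ∀ x y, t (x + y) = t x + t y := fun x y => Matrix.mulVec_add _ _ _
  have tsmul : ∀ (a : F) x, t (a • x) = a • t x := fun a x => Matrix.mulVec_smul _ _ _
  have r1 : ∀ a b, ω (t a) b = -ω a (t b) + ω a (t (t b)) := by
    intro a b
    simp only [t]
    rw [ω_ad, hadM, Matrix.add_mulVec, ω_add_right, Matrix.neg_mulVec, ω_neg_right, pow_two, ← Matrix.mulVec_mulVec]
  have r2 : ∀ a b, ω (t (t a)) b = ω a (t (t b)) := by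
    intro a b
    rw [tt, tt, ω_ad, hadM2]
  have alt2 : ∀ a, ω a (t (t a)) = 0 := by
    intro a
    rw [tt]
    exact alt_self h2 hadM2 a
  have flip : ∀ a b : V6 F, ω a b = 0 → ω b a = 0 := by
    intro a b h
    rw [ω_comm, h, neg_zero]
  -- derived values
  have r3 : ∀ a b, ω (t a) (t b) = -ω a (t (t b)) := by
    intro a b
    rw [r1, ttt]
    simp [ω_zero_right]
  have r4 : ∀ a b, ω (t a) (t (t b)) = 0 := by
    intro a b
    have h0 : t (0 : V6 F) = 0 := Matrix.mulVec_zero _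
    rw [r1, ttt, h0]
    simp [ω_zero_right]
  have r5 : ∀ a b, ω (t (t a)) (t b) = 0 := by
    intro a b
    rw [r2, ttt, ω_zero_right]
  have r6 : ∀ a b, ω (t (t a)) (t (t b)) = 0 := by
    intro a b
    rw [r2, ttt, ω_zero_right]
  -- a pair
  obtain ⟨x, y, hxy⟩ : ∃ x y, ω x (t (t y)) ≠ 0 := by
    by_contra hcon
    push_neg at hcon
    apply hM2
    ext i j
    have h1 : t (t (Pi.single j 1)) = 0 := by
      apply eq_zero_of_ω_eq_zero
      intro z
      exact flip _ _ (hcon z _)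
    rw [tt] at h1
    have := congrFun h1 i
    simpa using this
  have h0 : t (0 : V6 F) = 0 := Matrix.mulVec_zero _
  obtain ⟨v, v', hv1⟩ : ∃ v v', ω v (t (t v')) = 1 :=
    ⟨x, (ω x (t (t y)))⁻¹ • y, by
      rw [tsmul, tsmul, ω_smul_right]
      exact inv_mul_cancel₀ hxy⟩
  have hv1' : ω v' (t (t v)) = -1 := by
    rw [ω_comm, r2, hv1]
  -- step 1
  obtain ⟨a0, ha0⟩ : ∃ a0, a0 = ω v (t v) := ⟨_, rfl⟩
  obtain ⟨v1, hv1d⟩ : ∃ v1, v1 = v + a0 • t v' := ⟨_, rfl⟩
  have tv1 : t v1 = t v + a0 • t (t v') := by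
    rw [hv1d, tadd, tsmul]
  have ttv1 : t (t v1) = t (t v) := by
    rw [tv1, tadd, tsmul, ttt, smul_zero, add_zero]
  have h11 : ω v1 (t (t v')) = 1 := by
    rw [hv1d, ω_add_left, ω_smul_left, r4, hv1]
    ring
  have h12 : ω v1 (t v1) = 0 := by
    rw [tv1, hv1d]
    simp only [ω_add_left, ω_add_right, ω_smul_left, ω_smul_right, r3, r4, hv1, hv1', ttt, ω_zero_right]
    rw [← ha0]
    linear_combination a0 * h3
  -- step 2
  obtain ⟨a1, ha1⟩ : ∃ a1, a1 = ω v' (t v') := ⟨_, rfl⟩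
  obtain ⟨v2, hv2d⟩ : ∃ v2, v2 = v' + (-a1) • t v1 := ⟨_, rfl⟩
  have tv2 : t v2 = t v' + (-a1) • t (t v1) := by
    rw [hv2d, tadd, tsmul]
  have ttv2 : t (t v2) = t (t v') := by
    rw [tv2, tadd, tsmul, ttt, smul_zero, add_zero]
  have h21 : ω v1 (t (t v2)) = 1 := by rw [ttv2, h11]
  have h21' : ω v' (t (t v1)) = -1 := by
    rw [ω_comm, r2, h11]
  have h22 : ω v2 (t v2) = 0 := by
    rw [tv2, hv2d]
    simp only [ω_add_left, ω_add_right, ω_smul_left, ω_smul_right, r3, r4, h11, h21', r6, ω_self, ttt, ω_zero_right]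
    rw [← ha1]
    linear_combination a1 * h3
  -- step 3
  obtain ⟨c, hc⟩ : ∃ c, c = ω v1 (t v2) := ⟨_, rfl⟩
  obtain ⟨d, hd⟩ : ∃ d, d = ω (t v1) v2 := ⟨_, rfl⟩
  obtain ⟨e, he⟩ : ∃ e, e = ω v1 v2 := ⟨_, rfl⟩
  obtain ⟨z, hzd⟩ : ∃ z, z = v1 + c • t v1 + (-e - c * d) • t (t v1) := ⟨_, rfl⟩
  have tz : t z = t v1 + c • t (t v1) := by
    rw [hzd, tadd, tadd, tsmul, tsmul, ttt, smul_zero, add_zero]
  have ttz : t (t z) = t (t v1) := by
    rw [tz, tadd, tsmul, ttt, smul_zero, add_zero]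
  have z1 : ω z (t z) = 0 := by
    rw [tz, hzd]
    simp only [ω_add_left, ω_add_right, ω_smul_left, ω_smul_right, h12, alt2, r4, r5, ω_self]
    ring
  have z3 : ω z v2 = 0 := by
    rw [hzd]
    simp only [ω_add_left, ω_smul_left, r2, h21]
    rw [← he, ← hd]
    ring
  have z4 : ω z (t v2) = 0 := by
    rw [hzd]
    simp only [ω_add_left, ω_smul_left, r3, r5, h21, ttt, ω_zero_right]
    rw [← hc]
    ring
  have z5 : ω z (t (t v2)) = 1 := by
    rw [hzd]
    simp only [ω_add_left, ω_smul_left, r4, r6, h21, ttt, ω_zero_right]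
    ring
  let E : I6 → V6 F := Sum.elim ![z, t z, t (t z)] ![v2, t v2, t (t v2)]
  have hgv : ∀ w, g *ᵥ w = w + t w := by
    intro w
    rw [hgM, Matrix.add_mulVec, Matrix.one_mulVec]
  refine ⟨E, ?_, ?_⟩
  · have e00 : ∀ (w : V6 F), ω w (t w) = 0 → ∀ i j : Fin 3, ω (![w, t w, t (t w)] i) (![w, t w, t (t w)] j) = 0 := by
      intro w hw i j
      fin_cases i <;> fin_cases j <;>
        simp [ω_self, hw, alt2, r4, r5, flip _ _ hw, flip _ _ (alt2 w)]
    have e01 : ∀ (i j : Fin 3), ω (![z, t z, t (t z)] i) (![v2, t v2, t (t v2)] j) = (LJ : Matrix (Fin 3) (Fin 3) F) i j := by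
      intro i j
      have f10 : ω (t z) v2 = 1 := by rw [r1, z4, z5]; ring
      have f11 : ω (t z) (t v2) = -1 := by rw [r3, z5]
      have f12 : ω (t z) (t (t v2)) = 0 := r4 _ _
      have f20 : ω (t (t z)) v2 = 1 := by rw [r2, z5]
      have f21 : ω (t (t z)) (t v2) = 0 := r5 _ _
      have f22 : ω (t (t z)) (t (t v2)) = 0 := r6 _ _
      fin_cases i <;> fin_cases j <;>
        simp [LJ, z3, z4, z5, f10, f11, f12, f20, f21, f22]
    rintro (i | i) (j | j)
    · simpa [E, GJ] using e00 z z1 i j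
    · simpa [E, GJ] using e01 i j
    · have := e01 j i
      show ω (![v2, t v2, t (t v2)] i) (![z, t z, t (t z)] j) = -(LJ : Matrix (Fin 3) (Fin 3) F) j i
      rw [ω_comm (![v2, t v2, t (t v2)] i), this]
    · simpa [E, GJ] using e00 v2 h22 i j
  · rw [mul_col6]
    ext r s
    rcases s with s | s
    · fin_cases s
      · have := congrFun (hgv z) r
        simp [col6, E, CJ, KJ, Matrix.mul_apply, Fintype.sum_sum_type, Fin.sum_univ_three, this]
      · have := congrFun (hgv (t z)) r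
        simp [col6, E, CJ, KJ, Matrix.mul_apply, Fintype.sum_sum_type, Fin.sum_univ_three, this]
      · have := congrFun (hgv (t (t z))) r
        simp [col6, E, CJ, KJ, Matrix.mul_apply, Fintype.sum_sum_type, Fin.sum_univ_three, this, ttt]
    · fin_cases s
      · have := congrFun (hgv v2) r
        simp [col6, E, CJ, KJ, Matrix.mul_apply, Fintype.sum_sum_type, Fin.sum_univ_three, this]
      · have := congrFun (hgv (t v2)) r
        simp [col6, E, CJ, KJ, Matrix.mul_apply, Fintype.sum_sum_type, Fin.sum_univ_three, this]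
      · have := congrFun (hgv (t (t v2))) r
        simp [col6, E, CJ, KJ, Matrix.mul_apply, Fintype.sum_sum_type, Fin.sum_univ_three, this, ttt]

theorem P6_cube (h3 : (3 : F) = 0) : ((P6 : M6 F) - 1) ^ 3 = 0 := by
  have e : (P6 : M6 F) - 1 = Matrix.fromBlocks (Pm - 1) 0 0 (Pm - 1) := by
    rw [P6, one_blocks, sub_eq_add_neg, Matrix.fromBlocks_neg, Matrix.fromBlocks_add]
    simp [sub_eq_add_neg]
  rw [e, pow_succ, pow_two, Matrix.fromBlocks_multiply, Matrix.fromBlocks_multiply]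
  simp only [mul_zero, zero_mul, add_zero, zero_add]
  rw [← pow_two, ← pow_succ, Pm_cube h3]
  exact Matrix.fromBlocks_zero

theorem P6_sq_ne : ((P6 : M6 F) - 1) ^ 2 ≠ 0 := by
  intro h
  have e : (P6 : M6 F) - 1 = Matrix.fromBlocks (Pm - 1) 0 0 (Pm - 1) := by
    rw [P6, one_blocks, sub_eq_add_neg, Matrix.fromBlocks_neg, Matrix.fromBlocks_add]
    simp [sub_eq_add_neg]
  rw [e, pow_two, Matrix.fromBlocks_multiply] at h
  have h1 := congrFun (congrFun h (Sum.inl 0)) (Sum.inl 0)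
  simp [Pm, Matrix.mul_apply, Fin.sum_univ_three, Matrix.one_apply] at h1

/-- All unipotent elements of type `J₃²` are conjugate to the permutation. -/
theorem conj_J3 (h2 : (2 : F) ≠ 0) (h3 : (3 : F) = 0) {g : SP F}
    (hM3 : (g.1 - 1) ^ 3 = 0) (hM2 : (g.1 - 1) ^ 2 ≠ 0) : ∃ z : SP F, z.1 * g.1 = P6 * z.1 := by
  obtain ⟨E, hE, hX⟩ := frame_J3 h2 h3 (ad_sp g) hM3 hM2
  obtain ⟨E₀, hE₀, hX₀⟩ := frame_J3 h2 h3 (ad_sp (P6S : SP F)) (P6_cube h3) P6_sq_ne
  exact conj_of_frames GJi_GJ hE hE₀ hX hX₀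

end Cfsg.Agent.Lib.NC2Sp6
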