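import Mathlib
import Cfsg.Agent.Lib.NC2U3A

/-!
`SU₃(3^a)`: every element has a non-isotropic eigenvector, or no eigenvector, or is regular unipotent.
-/

set_option autoImplicit false
set_option linter.unusedSectionVars false
set_option linter.unusedSimpArgs false
set_option linter.unusedVariables false
set_option linter.style.longLine false

namespace Cfsg.Agent.Lib.NC2U3

open Matrix Polynomial Cfsg Cfsg.Agent.Lib.NC2Cub Cfsg.Agent.Lib.UnitaryConjGU
open Cfsg.Agent.Lib.UnitaryBasic Cfsg.Agent.Lib.HermCount Cfsg.Agent.Lib.SU3Sylow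
open scoped MatrixGroups

variable {F : Type*} [Field F] [Fintype F] {q : ℕ}

local notation "h(" u ", " v ")" => hermForm 3 F q u v

theorem q_ne (hF : Fintype.card F = q ^ 2) : q ≠ 0 := by
  intro h
  subst h
  simp at hF

theorem herm_swap_zero (hF : Fintype.card F = q ^ 2) {u v : Fin 3 → F} (h : h(u, v) = 0) : h(v, u) = 0 := by
  rw [← herm_conj hF u v, h, zero_pow (q_ne hF)]

theorem herm_swap_ne (hF : Fintype.card F = q ^ 2) {u v : Fin 3 → F} (h : h(u, v) ≠ 0) : h(v, u) ≠ 0 := by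
  intro h2
  exact h (herm_swap_zero hF h2)

theorem regular_of_eigen (hF : Fintype.card F = q ^ 2) (h3 : (3 : F) = 0) {M : Matrix (Fin 3) (Fin 3) F}
    (hst : st q M * M = 1) (hdet : M.det = 1)
    (hN : ∀ (v : Fin 3 → F) (μ : F), v ≠ 0 → M *ᵥ v = μ • v → h(v, v) = 0)
    {v : Fin 3 → F} {l : F} (hv0 : v ≠ 0) (hv : M *ᵥ v = l • v) :
    (M - 1) ^ 3 = 0 ∧ (M - 1) ^ 2 ≠ 0 := by
  classical
  have hU : ∀ x y : Fin 3 → F, h(M *ᵥ x, M *ᵥ y) = h(x, y) := herm_of_st hF hst
  have hvv : h(v, v) = 0 := hN v l hv0 hv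
  have hq0 := q_ne hF
  have hl0 : l ≠ 0 := by
    rintro rfl
    rw [zero_smul] at hv
    apply hv0
    have h1 : (st q M * M) *ᵥ v = v := by rw [hst, Matrix.one_mulVec]
    rw [← Matrix.mulVec_mulVec, hv, Matrix.mulVec_zero] at h1
    exact h1.symm
  -- partner
  obtain ⟨u, huv⟩ : ∃ u, h(u, v) ≠ 0 := by
    by_contra hcon
    push_neg at hcon
    apply hv0
    apply herm_nondeg hF
    intro y
    exact herm_swap_zero hF (hcon y)
  have hvu := herm_swap_ne hF huv
  obtain ⟨w, hw0, hwv', hwu'⟩ := exists_ne_zero_ker (fun i => v i ^ q) (fun i => u i ^ q)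
  have hwv : h(w, v) = 0 := hwv'
  have hwu : h(w, u) = 0 := hwu'
  have hvw := herm_swap_zero hF hwv
  have huw := herm_swap_zero hF hwu
  have huni : ∀ {a b : Fin 3 → F}, IsUnit (col3 a b w) → h(w, w) = 0 → h(a, w) = 0 → h(b, w) = 0 → False := by
    intro a b hB hww haw hbw
    apply hw0
    obtain ⟨Bu, hBu⟩ := hB
    have hall : ∀ y, h(y, w) = 0 := by
      intro y
      have hy : y = (Bu : Matrix (Fin 3) (Fin 3) F) *ᵥ ((↑Bu⁻¹ : Matrix (Fin 3) (Fin 3) F) *ᵥ y) := by
        rw [Matrix.mulVec_mulVec, Units.mul_inv, Matrix.one_mulVec]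
      rw [hy, hBu, col3_mulVec, herm_add_left, herm_add_left, herm_smul_left, herm_smul_left, herm_smul_left, haw, hbw, hww]
      simp
    apply herm_nondeg hF
    intro y
    exact herm_swap_zero hF (hall y)
  have hww : h(w, w) ≠ 0 := by
    intro hww
    refine huni (a := v) (b := u) ?_ hww hvw huw
    apply isUnit_col3
    intro x hx
    have e1 := congrArg (fun y => h(y, v)) hx
    have e2 := congrArg (fun y => h(y, u)) hx
    have e3 : h((0 : Fin 3 → F), v) = 0 := by simp [hermForm]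
    have e4 : h((0 : Fin 3 → F), u) = 0 := by simp [hermForm]
    simp only [herm_add_left, herm_smul_left, hvv, hwv, e3, hvu, hwu, e4, mul_zero, add_zero, zero_add] at e1 e2
    have hx1 : x 1 = 0 := (mul_eq_zero.1 e1).resolve_right huv
    have hx0 : x 0 = 0 := by
      have : x 0 * h(v, u) + x 1 * h(u, u) = 0 := e2
      rw [hx1, zero_mul, add_zero] at this
      exact (mul_eq_zero.1 this).resolve_right hvu
    rw [hx0, hx1, zero_smul, zero_smul, zero_add, zero_add] at hx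
    have hx2 : x 2 = 0 := by
      by_contra hne
      exact hw0 ((smul_eq_zero.1 hx).resolve_left hne)
    ext i
    fin_cases i <;> simp [hx0, hx1, hx2]
  have hBu : IsUnit (col3 v w u) := by
    apply isUnit_col3
    intro x hx
    have e1 := congrArg (fun y => h(y, v)) hx
    have e2 := congrArg (fun y => h(y, w)) hx
    have e3 : h((0 : Fin 3 → F), v) = 0 := by simp [hermForm]
    have e4 : h((0 : Fin 3 → F), w) = 0 := by simp [hermForm]
    simp only [herm_add_left, herm_smul_left, hvv, hwv, e3, hvw, huw, e4, mul_zero, add_zero, zero_add] at e1 e2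
    have hx2 : x 2 = 0 := (mul_eq_zero.1 e1).resolve_right huv
    have hx1 : x 1 = 0 := (mul_eq_zero.1 e2).resolve_right hww
    rw [hx1, hx2, zero_smul, zero_smul, add_zero, add_zero] at hx
    have hx0 : x 0 = 0 := by
      by_contra hne
      exact hv0 ((smul_eq_zero.1 hx).resolve_left hne)
    ext i
    fin_cases i <;> simp [hx0, hx1, hx2]
  -- coordinates
  have hcoord : ∀ y : Fin 3 → F, ∃ a b c : F, y = a • v + b • w + c • u := by
    intro y
    obtain ⟨Bu, hBu'⟩ := hBu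
    refine ⟨((↑Bu⁻¹ : Matrix (Fin 3) (Fin 3) F) *ᵥ y) 0, ((↑Bu⁻¹ : Matrix (Fin 3) (Fin 3) F) *ᵥ y) 1, ((↑Bu⁻¹ : Matrix (Fin 3) (Fin 3) F) *ᵥ y) 2, ?_⟩
    have hy : y = (Bu : Matrix (Fin 3) (Fin 3) F) *ᵥ ((↑Bu⁻¹ : Matrix (Fin 3) (Fin 3) F) *ᵥ y) := by
      rw [Matrix.mulVec_mulVec, Units.mul_inv, Matrix.one_mulVec]
    conv_lhs => rw [hy, hBu', col3_mulVec]
  obtain ⟨a, b, c, hMw⟩ := hcoord (M *ᵥ w)
  obtain ⟨a', b', c', hMu⟩ := hcoord (M *ᵥ u)
  have e1 : c = 0 := by
    have h1 := hU w v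
    rw [hv, hMw, hwv, herm_smul_right] at h1
    simp only [herm_add_left, herm_smul_left, hvv, hwv, mul_zero, add_zero, zero_add] at h1
    have h2 := (mul_eq_zero.1 h1).resolve_left (pow_ne_zero q hl0)
    exact (mul_eq_zero.1 h2).resolve_right huv
  subst e1
  rw [zero_smul, add_zero] at hMw
  have e2 : b * b ^ q = 1 := by
    have h1 := hU w w
    rw [hMw] at h1
    simp only [herm_add_left, herm_smul_left, herm_add_right hF, herm_smul_right, hvv, hwv, hvw, mul_zero, add_zero, zero_add] at h1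
    have h2 : (b * b ^ q - 1) * h(w, w) = 0 := by linear_combination h1
    exact sub_eq_zero.1 ((mul_eq_zero.1 h2).resolve_right hww)
  have e3 : b = l := by
    by_contra hne
    have hne' : b - l ≠ 0 := sub_ne_zero.2 hne
    let k := a / (b - l)
    have hk : a + k * l = b * k := by
      simp only [k]
      field_simp
      ring
    have hM' : M *ᵥ (w + k • v) = b • (w + k • v) := by
      rw [Matrix.mulVec_add, Matrix.mulVec_smul, hMw, hv, smul_add, smul_smul, smul_smul]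
      have : a • v + b • w + (k * l) • v = (a + k * l) • v + b • w := by
        rw [add_smul]; abel
      rw [this, hk, add_comm]
    have h0 := hN (w + k • v) b (by
      intro h0
      rw [h0] at hM'
      have : h(w + k • v, w + k • v) = h(w, w) := by
        simp only [herm_add_left, herm_smul_left, herm_add_right hF, herm_smul_right, hvv, hwv, hvw, mul_zero, add_zero, zero_add]
      rw [h0] at this
      apply hww
      rw [← this]
      simp [hermForm]) hM'
    simp only [herm_add_left, herm_smul_left, herm_add_right hF, herm_smul_right, hvv, hwv, hvw, mul_zero, add_zero, zero_add] at h0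
    exact hww h0
  subst e3
  have e4 : b ^ q * c' = 1 := by
    have h1 := hU u v
    rw [hv, hMu, herm_smul_right] at h1
    simp only [herm_add_left, herm_smul_left, hvv, hwv, mul_zero, add_zero, zero_add] at h1
    have h2 : (b ^ q * c' - 1) * h(u, v) = 0 := by linear_combination h1
    exact sub_eq_zero.1 ((mul_eq_zero.1 h2).resolve_right huv)
  have e5 : c' = b := by
    calc c' = (b * b ^ q) * c' := by rw [e2, one_mul]
      _ = b * (b ^ q * c') := by ring
      _ = b := by rw [e4, mul_one]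
  subst e5
  have hMB : M * col3 v w u = col3 v w u * !![c', a, a'; 0, c', b'; 0, 0, c'] := by
    rw [mul_col3, hv, hMw, hMu]
    ext i j
    fin_cases j <;> simp [col3, Matrix.mul_apply, Fin.sum_univ_three] <;> ring
  have hdetB : (col3 v w u).det ≠ 0 := ((Matrix.isUnit_iff_isUnit_det _).1 hBu).ne_zero
  have e6 : c' ^ 3 = 1 := by
    have h1 := congrArg Matrix.det hMB
    have hT : (!![c', a, a'; 0, c', b'; 0, 0, c'] : Matrix (Fin 3) (Fin 3) F).det = c' ^ 3 := by
      simp [Matrix.det_fin_three]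
      ring
    rw [Matrix.det_mul, Matrix.det_mul, hdet, one_mul, hT] at h1
    exact (mul_left_cancel₀ hdetB (by rw [mul_one]; exact h1)).symm
  have e7 : c' = 1 := cube_inj h3 (by rw [e6, one_pow])
  subst e7
  let N : Matrix (Fin 3) (Fin 3) F := !![0, a, a'; 0, 0, b'; 0, 0, 0]
  have hNB : (M - 1) * col3 v w u = col3 v w u * N := by
    have : (!![1, a, a'; 0, 1, b'; 0, 0, 1] : Matrix (Fin 3) (Fin 3) F) = 1 + N := by
      ext i j
      fin_cases i <;> fin_cases j <;> simp [N, Matrix.one_apply]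
    rw [this, mul_add, mul_one] at hMB
    rw [sub_mul, one_mul, hMB]
    abel
  have hNB2 : (M - 1) ^ 2 * col3 v w u = col3 v w u * N ^ 2 := by
    rw [pow_two, pow_two, mul_assoc, hNB, ← mul_assoc, hNB, mul_assoc]
  have hNB3 : (M - 1) ^ 3 * col3 v w u = col3 v w u * N ^ 3 := by
    rw [pow_succ, pow_succ N, mul_assoc, hNB, ← mul_assoc, hNB2, mul_assoc]
  have hN2 : N ^ 2 = !![0, 0, a * b'; 0, 0, 0; 0, 0, 0] := by
    ext i j
    fin_cases i <;> fin_cases j <;> simp [N, pow_two, Matrix.mul_apply, Fin.sum_univ_three]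
  have hN3 : N ^ 3 = 0 := by
    rw [pow_succ, hN2]
    ext i j
    fin_cases i <;> fin_cases j <;> simp [N, Matrix.mul_apply, Fin.sum_univ_three]
  constructor
  · rw [hN3, mul_zero] at hNB3
    exact (hBu.mul_left_eq_zero).1 hNB3
  · intro h0
    rw [h0, zero_mul, hN2] at hNB2
    have h1 := (hBu.mul_right_eq_zero).1 hNB2.symm
    have h2 : a * b' = 0 := by
      have := congrFun (congrFun h1 0) 2
      simpa using this
    have ha : a ≠ 0 := by
      rintro rfl
      rw [zero_smul, zero_add] at hMw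
      exact hww (hN w 1 hw0 hMw)
    have hb : b' = 0 := (mul_eq_zero.1 h2).resolve_left ha
    subst hb
    rw [zero_smul, add_zero, one_smul] at hMu
    rw [one_smul] at hMw
    have h4 := hU u w
    rw [hMu, hMw, huw] at h4
    simp only [herm_add_left, herm_smul_left, herm_add_right hF, herm_smul_right, hvv, hvw, huw, mul_zero, add_zero, zero_add] at h4
    have h5 := (mul_eq_zero.1 h4).resolve_right huv
    exact ha (pow_eq_zero_iff hq0 |>.1 h5)

/-- The trichotomy. -/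
theorem trichotomy3 (hF : Fintype.card F = q ^ 2) (h3 : (3 : F) = 0) {M : Matrix (Fin 3) (Fin 3) F}
    (hst : st q M * M = 1) (hdet : M.det = 1) :
    (∃ (v : Fin 3 → F) (μ : F), M *ᵥ v = μ • v ∧ h(v, v) ≠ 0) ∨
    (∀ (v : Fin 3 → F) (μ : F), M *ᵥ v = μ • v → v = 0) ∨
    ((M - 1) ^ 3 = 0 ∧ (M - 1) ^ 2 ≠ 0) := by
  by_cases h1 : ∃ (v : Fin 3 → F) (μ : F), M *ᵥ v = μ • v ∧ h(v, v) ≠ 0
  · exact Or.inl h1
  right
  by_cases h2 : ∀ (v : Fin 3 → F) (μ : F), M *ᵥ v = μ • v → v = 0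
  · exact Or.inl h2
  right
  push_neg at h1 h2
  obtain ⟨v, μ, hv, hv0⟩ := h2
  exact regular_of_eigen hF h3 hst hdet (fun x m _ hx => h1 x m hx) hv0 hv

section conj

variable (b : F)

theorem mem_KK_of_Pm {b : F} (h3 : (3 : F) = 0) {z g : SU 3 F q} (h : mt z * mt g = Pm * mt z) :
    z * g * z⁻¹ ∈ KK b := by
  have : mt (z * g * z⁻¹) = Pm := by
    calc mt (z * g * z⁻¹) = mt z * mt g * mt z⁻¹ := rfl
      _ = Pm * mt z * mt z⁻¹ := by rw [h]
      _ = Pm := by rw [mul_assoc, mt_mul_inv, mul_one]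
  refine ⟨1, ?_⟩
  rw [this]
  exact Pm_Th h3 b

theorem mem_KK_of_comm {b : F} {z g : SU 3 F q} {t : Matrix (Fin 3) (Fin 3) F}
    (hz : mt z * t = Th b * mt z) (ht : t * mt g = mt g * t) : z * g * z⁻¹ ∈ KK b := by
  refine ⟨0, ?_⟩
  rw [zero_smul, add_zero]
  have hz' : mt z⁻¹ * Th b = t * mt z⁻¹ := by
    calc mt z⁻¹ * Th b = mt z⁻¹ * Th b * (mt z * mt z⁻¹) := by rw [mt_mul_inv, mul_one]
      _ = mt z⁻¹ * (Th b * mt z) * mt z⁻¹ := by simp only [mul_assoc]
      _ = mt z⁻¹ * (mt z * t) * mt z⁻¹ := by rw [hz]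
      _ = (mt z⁻¹ * mt z) * t * mt z⁻¹ := by simp only [mul_assoc]
      _ = t * mt z⁻¹ := by rw [mt_inv_mul, one_mul]
  show mt z * mt g * mt z⁻¹ * Th b = Th b * (mt z * mt g * mt z⁻¹)
  calc mt z * mt g * mt z⁻¹ * Th b = mt z * mt g * (mt z⁻¹ * Th b) := by rw [mul_assoc]
    _ = mt z * (mt g * t) * mt z⁻¹ := by rw [hz']; simp only [mul_assoc]
    _ = mt z * (t * mt g) * mt z⁻¹ := by rw [ht]
    _ = (mt z * t) * mt g * mt z⁻¹ := by simp only [mul_assoc]
    _ = Th b * mt z * mt g * mt z⁻¹ := by rw [hz]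
    _ = _ := by simp only [mul_assoc]

/-- Case of a non-isotropic eigenvector. -/
theorem caseA (hF : Fintype.card F = q ^ 2) (h3 : (3 : F) = 0) {g : SU 3 F q} {v : Fin 3 → F} {μ : F}
    (hv : mt g *ᵥ v = μ • v) (hn : h(v, v) ≠ 0) : ∃ z : SU 3 F q, z * g * z⁻¹ ∈ HH F q := by
  classical
  have hfix := herm_self_fixed hF v
  obtain ⟨x, hx0, hx⟩ := Cfsg.Agent.Lib.FFNorm.exists_norm_eq hF (inv_ne_zero hn) (by rw [inv_pow, hfix])
  have hv1 : hermForm (2 + 1) F q (x • v) (x • v) = 1 := by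
    have : h(x • v, x • v) = x * (x ^ q * h(v, v)) := by
      rw [herm_smul_left, herm_smul_right]
    show h(x • v, x • v) = 1
    rw [this, ← mul_assoc, ← pow_succ', hx, inv_mul_cancel₀ hn]
  obtain ⟨g0, hg0⟩ := exists_U_e0 hF hv1
  let A : Matrix (Fin 3) (Fin 3) F := LinearMap.toMatrix' ((g0 : (Fin 3 → F) ≃ₗ[F] (Fin 3 → F)) : (Fin 3 → F) →ₗ[F] (Fin 3 → F))
  have hAv : ∀ y, A *ᵥ y = (g0 : (Fin 3 → F) ≃ₗ[F] (Fin 3 → F)) y := by
    intro y
    simp [A, LinearMap.toMatrix'_mulVec]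
  have hAU : ∀ u w : Fin 3 → F, h(A *ᵥ u, A *ᵥ w) = h(u, w) := by
    intro u w
    rw [hAv, hAv]
    exact U_apply g0 u w
  have hAst : st q A * A = 1 := st_mul_self_of_mem hF (g := (Cfsg.Agent.Lib.UnitarySU.GUofMatrix hF A hAU).1) (Cfsg.Agent.Lib.UnitarySU.GUofMatrix hF A hAU).2
  have hA2 : A * st q A = 1 := mul_eq_one_comm.mp hAst
  have hst2 : st q (st q A) * st q A = 1 := by rw [st_st hF]; exact hA2
  obtain ⟨l, hl0, z, hz⟩ := exists_SU_scale hF h3 hst2
  have he : (Fin.cons 1 0 : Fin 3 → F) = e00 := by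
    funext i
    refine Fin.cases ?_ (fun j => ?_) i
    · simp [e00]
    · simp [e00, Fin.succ_ne_zero]
  have hAe : A *ᵥ e00 = x • v := by
    rw [hAv, ← he]
    exact hg0
  -- `z` maps `l⁻¹ x v` to `e00`
  have h1 : mt z *ᵥ (l⁻¹ • (x • v)) = e00 := by
    rw [hz, ← hAe, Matrix.mulVec_smul, Matrix.smul_mulVec, Matrix.mulVec_mulVec, hAst, Matrix.one_mulVec,
      smul_smul, inv_mul_cancel₀ hl0, one_smul]
  have h2 : mt z⁻¹ *ᵥ e00 = l⁻¹ • (x • v) := by
    rw [← h1, Matrix.mulVec_mulVec, mt_inv_mul, Matrix.one_mulVec]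
  refine ⟨z, μ, ?_⟩
  have e : mt (z * g * z⁻¹) = mt z * mt g * mt z⁻¹ := rfl
  rw [e]
  calc (mt z * mt g * mt z⁻¹) *ᵥ e00 = mt z *ᵥ (mt g *ᵥ (mt z⁻¹ *ᵥ e00)) := by
        simp only [Matrix.mulVec_mulVec, mul_assoc]
    _ = mt z *ᵥ (mt g *ᵥ (l⁻¹ • (x • v))) := by rw [h2]
    _ = mt z *ᵥ (μ • (l⁻¹ • (x • v))) := by
        congr 1
        rw [Matrix.mulVec_smul, Matrix.mulVec_smul, hv, smul_comm x, smul_comm l⁻¹]
    _ = μ • e00 := by rw [Matrix.mulVec_smul, h1]

/-- Case of a regular unipotent element. -/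
theorem caseC (hF : Fintype.card F = q ^ 2) (h3 : (3 : F) = 0) (b : F) {g : SU 3 F q}
    (h1 : (mt g - 1) ^ 3 = 0) (h2 : (mt g - 1) ^ 2 ≠ 0) : ∃ z : SU 3 F q, z * g * z⁻¹ ∈ KK b := by
  classical
  obtain ⟨y, hy⟩ : ∃ y : Fin 3 → F, ((mt g - 1) ^ 2) *ᵥ y ≠ 0 := by
    by_contra hcon
    push_neg at hcon
    apply h2
    ext i j
    have := congrFun (hcon (Pi.single j 1)) i
    simpa using this
  set N := mt g - 1 with hN
  have hM : mt g = 1 + N := by rw [hN]; abel
  have hN3y : ∀ y : Fin 3 → F, N *ᵥ (((N ^ 2)) *ᵥ y) = 0 := by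
    intro y
    rw [Matrix.mulVec_mulVec, ← pow_succ', h1, Matrix.zero_mulVec]
  have hNN : ∀ y : Fin 3 → F, N *ᵥ (N *ᵥ y) = (N ^ 2) *ᵥ y := by
    intro y
    rw [Matrix.mulVec_mulVec, pow_two]
  have hgy : ∀ y : Fin 3 → F, mt g *ᵥ y = y + N *ᵥ y := by
    intro y
    rw [hM, Matrix.add_mulVec, Matrix.one_mulVec]
  -- cyclic basis
  have hB : IsUnit (col3 y (mt g *ᵥ y) (mt g *ᵥ (mt g *ᵥ y))) := by
    apply isUnit_col3
    intro x hx
    simp only [hgy, Matrix.mulVec_add, hNN] at hx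
    have e0 : (x 0 + x 1 + x 2) • y + (x 1 + 2 * x 2) • (N *ᵥ y) + x 2 • ((N ^ 2) *ᵥ y) = 0 := by
      rw [← hx]
      simp only [add_smul, smul_add, two_mul]
      abel
    have e1 := congrArg (fun t => N *ᵥ t) e0
    simp only [Matrix.mulVec_add, Matrix.mulVec_smul, hNN, hN3y, Matrix.mulVec_zero, smul_zero, add_zero] at e1
    have e2 := congrArg (fun t => N *ᵥ t) e1
    simp only [Matrix.mulVec_add, Matrix.mulVec_smul, hNN, hN3y, Matrix.mulVec_zero, smul_zero, add_zero] at e2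
    have a0 : x 0 + x 1 + x 2 = 0 := (smul_eq_zero.1 e2).resolve_right hy
    rw [a0, zero_smul, zero_add] at e1
    have a1 : x 1 + 2 * x 2 = 0 := (smul_eq_zero.1 e1).resolve_right hy
    rw [a0, a1, zero_smul, zero_smul, zero_add, zero_add] at e0
    have a2 : x 2 = 0 := (smul_eq_zero.1 e0).resolve_right hy
    have a3 : x 1 = 0 := by rw [a2] at a1; simpa using a1
    have a4 : x 0 = 0 := by rw [a2, a3] at a0; simpa using a0
    ext i
    fin_cases i <;> simp [a2, a3, a4]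
  set B := col3 y (mt g *ᵥ y) (mt g *ᵥ (mt g *ᵥ y)) with hBdef
  have hg3 : mt g *ᵥ (mt g *ᵥ (mt g *ᵥ y)) = y := by
    have h4 : (mt g) ^ 3 = 1 := by
      have e : (1 + N) ^ 3 = 1 + 3 • N + 3 • N ^ 2 + N ^ 3 := by noncomm_ring
      have h3N : ∀ X : Matrix (Fin 3) (Fin 3) F, 3 • X = 0 := by
        intro X
        rw [← Nat.cast_smul_eq_nsmul F]
        push_cast
        rw [h3, zero_smul]
      rw [hM, e, h3N, h3N, h1]
      simp
    have : mt g *ᵥ (mt g *ᵥ (mt g *ᵥ y)) = (mt g) ^ 3 *ᵥ y := by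
      simp [pow_succ, Matrix.mulVec_mulVec, mul_assoc]
    rw [this, h4, Matrix.one_mulVec]
  have hMB : mt g * B = B * Pm := by
    rw [hBdef, mul_col3, hg3]
    ext i j
    fin_cases j <;> simp [col3, Pm, Matrix.mul_apply, Fin.sum_univ_three]
  obtain ⟨Bi, hBi, hBi2⟩ : ∃ Bi : Matrix (Fin 3) (Fin 3) F, B * Bi = 1 ∧ Bi * B = 1 := by
    obtain ⟨Bu, hBu⟩ := hB
    exact ⟨(↑Bu⁻¹ : Matrix (Fin 3) (Fin 3) F), by rw [← hBu]; simp, by rw [← hBu]; simp⟩
  have hBiM : Bi * mt g = Pm * Bi := by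
    calc Bi * mt g = Bi * mt g * (B * Bi) := by rw [hBi, mul_one]
      _ = Bi * (mt g * B) * Bi := by simp only [mul_assoc]
      _ = Bi * (B * Pm) * Bi := by rw [hMB]
      _ = (Bi * B) * Pm * Bi := by simp only [mul_assoc]
      _ = Pm * Bi := by rw [hBi2, one_mul]
  let gU : GU 3 F q := Cfsg.Agent.Lib.UnitarySU.GUofMatrix hF (mt g) (fun u v => g.2 u v)
  let pU : GU 3 F q := Cfsg.Agent.Lib.UnitarySU.GUofMatrix hF Pm (fun u v => Pm_unitary u v)
  let PP : GL (Fin 3) F := ⟨Bi, B, hBi2, hBi⟩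
  have hconj : IsConj (gU : GL (Fin 3) F) (pU : GL (Fin 3) F) := by
    rw [isConj_iff]
    refine ⟨PP, ?_⟩
    rw [mul_inv_eq_iff_eq_mul]
    apply Units.ext
    exact hBiM
  have hc2 := isConj_GU_of_GL hF gU pU hconj
  obtain ⟨E, hE⟩ := isConj_iff.1 hc2
  have hE1 : (E : GL (Fin 3) F).1 * mt g = Pm * (E : GL (Fin 3) F).1 := by
    have h5 : E * gU = pU * E := by rw [← hE]; group
    have h6 := congrArg (fun X : GU 3 F q => ((X : GL (Fin 3) F) : Matrix (Fin 3) (Fin 3) F)) h5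
    exact h6
  obtain ⟨l, hl0, z, hz⟩ := exists_SU_scale hF h3 (st_mul_self_of_mem hF E.2)
  refine ⟨z, mem_KK_of_Pm h3 ?_⟩
  rw [hz, Matrix.smul_mul, Matrix.mul_smul, hE1]

theorem st_sub_aux (hF : Fintype.card F = q ^ 2) {n : ℕ} (X Y : Matrix (Fin n) (Fin n) F) : st q (X - Y) = st q X - st q Y := by
  ext i j
  simp only [st_apply, Matrix.sub_apply]
  exact pow_q_sub hF _ _

theorem comm_aeval {Y M : Matrix (Fin 3) (Fin 3) F} (h : Y * M = M * Y) (r : F[X]) :
    Y * aeval M r = aeval M r * Y := by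
  induction r using Polynomial.induction_on' with
  | add p q hp hq => rw [map_add, mul_add, add_mul, hp, hq]
  | monomial n c =>
    rw [aeval_monomial]
    have hc : Commute Y M := h
    have h2 : Y * M ^ n = M ^ n * Y := (hc.pow_right n).eq
    rw [Algebra.algebraMap_eq_smul_one, smul_mul_assoc, one_mul, mul_smul_comm, smul_mul_assoc, h2]

theorem cube_sub_comm {R : Type*} [Ring R] (h3 : ∀ x : R, 3 • x = 0) {A B : R} (hAB : A * B = B * A) :
    (A - B) ^ 3 = A ^ 3 - B ^ 3 := by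
  have e : (A - B) ^ 3 = A * A * A - A * A * B - A * B * A - B * A * A + A * B * B + B * A * B + B * B * A - B * B * B := by
    noncomm_ring
  have e1 : A * B * A = A * A * B := by rw [mul_assoc, ← hAB, mul_assoc]
  have e2 : B * A * A = A * A * B := by rw [← hAB, mul_assoc, ← hAB, mul_assoc]
  have e3 : B * A * B = A * B * B := by rw [← hAB]
  have e4 : B * B * A = A * B * B := by rw [mul_assoc, ← hAB, ← mul_assoc, ← hAB]
  rw [e, e1, e2, e3, e4]
  have h5 := h3 (A * A * B)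
  have h6 := h3 (A * B * B)
  have e5 : A ^ 3 = A * A * A := by noncomm_ring
  have e6 : B ^ 3 = B * B * B := by noncomm_ring
  rw [e5, e6]
  have e7 : A * A * A - A * A * B - A * A * B - A * A * B + A * B * B + A * B * B + A * B * B - B * B * B
      = A * A * A - B * B * B - 3 • (A * A * B) + 3 • (A * B * B) := by
    simp only [succ_nsmul, zero_nsmul, zero_add]
    abel
  rw [e7, h5, h6]
  simp

/-- The case of no eigenvector. -/
theorem caseB (hF : Fintype.card F = q ^ 2) (h3 : (3 : F) = 0) {b : F} (hb : b ^ q = b)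
    (hnot : ∀ x : F, x ^ 3 - x ≠ -b ^ 3) {g : SU 3 F q} (hne : ∀ (v : Fin 3 → F) (μ : F), mt g *ᵥ v = μ • v → v = 0) :
    ∃ z : SU 3 F q, z * g * z⁻¹ ∈ KK b := by
  classical
  have h2 := two_ne h3
  set M := mt g with hM
  have hst : st q M * M = 1 := mt_st hF g
  have hst2 : M * st q M = 1 := mul_eq_one_comm.mp hst
  set f := M.charpoly with hf
  have hfd : f.natDegree = 3 := by
    rw [hf, Matrix.charpoly_natDegree_eq_dim]
    simp
  have hfroot : ∀ x, ¬ IsRoot f x := by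
    intro x hx
    have h1 : (Matrix.scalar (Fin 3) x - M).det = 0 := by
      rw [← Matrix.eval_charpoly]
      exact hx
    obtain ⟨v, hv0, hv⟩ := Matrix.exists_mulVec_eq_zero_iff.2 h1
    apply hv0
    apply hne v x
    rw [Matrix.sub_mulVec, sub_eq_zero] at hv
    rw [← hv]
    ext i
    simp [Matrix.scalar_apply, Matrix.mulVec_diagonal]
  have hfi : Irreducible f :=
    irreducible_of_degree_le_three_of_not_isRoot (by rw [hfd]; decide) hfroot
  have hfM : aeval M f = 0 := Matrix.aeval_self_charpoly M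
  have hpi := asP_irr hnot
  obtain ⟨r, hr⟩ := exists_comp_dvd hfi hpi (by rw [hfd, asP_natDegree])
  set t := aeval M r with ht
  have ht3 : t ^ 3 = t + (-b ^ 3) • (1 : Matrix (Fin 3) (Fin 3) F) := by
    have h1 : aeval t (asP (-b ^ 3)) = 0 := by
      rw [ht, ← aeval_comp]
      obtain ⟨w, hw⟩ := hr
      rw [hw, map_mul, hfM, zero_mul]
    simp only [asP, map_sub, map_pow, aeval_X, aeval_C, Algebra.algebraMap_eq_smul_one] at h1
    rw [sub_sub, sub_eq_zero] at h1
    exact h1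
  have htM : t * M = M * t := by
    rw [ht]
    have := comm_aeval (Y := M) (M := M) rfl r
    exact this.symm
  -- the adjoint
  have hqc : (-b ^ 3) ^ q = -b ^ 3 := by
    rw [pow_q_neg hF, ← pow_mul, mul_comm, pow_mul, hb]
  set t' := st q t with ht'
  have ht'M : t' * M = M * t' := by
    have h1 : t' * st q M = st q M * t' := by
      rw [ht', ← st_mul hF, ← st_mul hF, htM]
    calc t' * M = (M * st q M) * (t' * M) := by rw [hst2, one_mul]
      _ = M * (st q M * t') * M := by simp only [mul_assoc]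
      _ = M * (t' * st q M) * M := by rw [h1]
      _ = M * t' * (st q M * M) := by simp only [mul_assoc]
      _ = M * t' := by rw [hst, mul_one]
  have htt' : t' * t = t * t' := by
    rw [ht]
    exact comm_aeval ht'M r
  have ht'3 : t' ^ 3 = t' + (-b ^ 3) • (1 : Matrix (Fin 3) (Fin 3) F) := by
    have h1 := congrArg (st q) ht3
    have h4 : st q (t ^ 3) = t' ^ 3 := by
      simp only [pow_succ, pow_zero, one_mul, st_mul hF, ht']
      simp only [mul_assoc]
    rw [h4, st_add hF, st_smul hF, hqc, st_one hF] at h1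
    exact h1
  have h3M : ∀ x : Matrix (Fin 3) (Fin 3) F, 3 • x = 0 := by
    intro X
    rw [← Nat.cast_smul_eq_nsmul F]
    push_cast
    rw [h3, zero_smul]
  set i := t' - t with hi
  have hi3 : i ^ 3 = i := by
    rw [hi, cube_sub_comm h3M htt', ht'3, ht3]
    abel
  have hiM : i * M = M * i := by
    rw [hi, sub_mul, mul_sub, ht'M, htM]
  -- commuting matrices are zero or injective
  have hinj : ∀ Y : Matrix (Fin 3) (Fin 3) F, Y * M = M * Y → ∀ v : Fin 3 → F, v ≠ 0 → Y *ᵥ v = 0 → Y = 0 := by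
    intro Y hY v hv hYv
    have hU := isUnit_col3_of_irr hfi hfd hfM hv
    have h1 : Y * col3 v (M *ᵥ v) (M *ᵥ (M *ᵥ v)) = 0 := by
      have hYMv : Y *ᵥ (M *ᵥ v) = 0 := by
        rw [Matrix.mulVec_mulVec, hY, ← Matrix.mulVec_mulVec, hYv, Matrix.mulVec_zero]
      have hYMMv : Y *ᵥ (M *ᵥ (M *ᵥ v)) = 0 := by
        rw [Matrix.mulVec_mulVec, hY, ← Matrix.mulVec_mulVec, hYMv, Matrix.mulVec_zero]
      rw [mul_col3, hYv, hYMv, hYMMv]
      ext i j
      fin_cases j <;> simp [col3]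
    exact (hU.mul_left_eq_zero).1 h1
  have hprod : i * ((i - 1) * (i + 1)) = 0 := by
    have : i * ((i - 1) * (i + 1)) = i ^ 3 - i := by noncomm_ring
    rw [this, hi3, sub_self]
  have hcases : i = 0 ∨ i = 1 ∨ i = -1 := by
    by_cases c1 : i + 1 = 0
    · right; right
      exact eq_neg_of_add_eq_zero_left c1
    by_cases c2 : i - 1 = 0
    · right; left
      exact sub_eq_zero.1 c2
    by_cases c3 : i = 0
    · exact Or.inl c3
    exfalso
    have v1 : (i + 1) *ᵥ (e00 : Fin 3 → F) ≠ 0 := by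
      intro h0
      exact c1 (hinj _ (by rw [add_mul, mul_add, hiM]; simp) _ e00_ne h0)
    have v2 : (i - 1) *ᵥ ((i + 1) *ᵥ (e00 : Fin 3 → F)) ≠ 0 := by
      intro h0
      exact c2 (hinj _ (by rw [sub_mul, mul_sub, hiM]; simp) _ v1 h0)
    have v3 : i *ᵥ ((i - 1) *ᵥ ((i + 1) *ᵥ (e00 : Fin 3 → F))) ≠ 0 := by
      intro h0
      exact c3 (hinj _ hiM _ v2 h0)
    apply v3
    rw [Matrix.mulVec_mulVec, Matrix.mulVec_mulVec, mul_assoc, hprod, Matrix.zero_mulVec]
  have hself : t' = t := by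
    rcases hcases with c | c | c
    · exact sub_eq_zero.1 c
    · exfalso
      have e1 : t' = t + 1 := by rw [← c, hi]; abel
      have e2 := congrArg (st q) e1
      rw [st_add hF, st_one hF, ht', st_st hF, ← ht', e1] at e2
      have := congrFun (congrFun e2 0) 0
      simp only [Matrix.add_apply, Matrix.one_apply_eq] at this
      apply h2
      linear_combination -this
    · exfalso
      have e1 : t' = t - 1 := by
        have : t' - t = -1 := c
        rw [sub_eq_iff_eq_add] at this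
        rw [this]
        abel
      have e2 := congrArg (st q) e1
      rw [st_sub_aux hF, st_one hF, ht', st_st hF, ← ht', e1] at e2
      have := congrFun (congrFun e2 0) 0
      simp only [Matrix.sub_apply, Matrix.one_apply_eq] at this
      apply h2
      linear_combination this
  obtain ⟨Y, Y', hY, hYt⟩ := conj_of_cubic hnot ht3 (Th_cube h3 b)
  obtain ⟨x, hx, hxt⟩ := exists_unitary_conj hF hself (st_Th hF hb) hY hYt
  obtain ⟨l, hl0, z, hz⟩ := exists_SU_scale hF h3 hx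
  refine ⟨z, mem_KK_of_comm (t := t) ?_ htM⟩
  rw [hz, Matrix.smul_mul, Matrix.mul_smul, hxt]

end conj

/-- Part (5) in terms of subgroups of `SU₃(q)`, `q = 3^a`. -/
theorem main {a : ℕ} (hF : Fintype.card F = q ^ 2) (ha : 1 ≤ a) (hq : q = 3 ^ a) :
    ∃ H K : Subgroup (SU 3 F q), Subgroup.center (SU 3 F q) ≤ H ∧ Subgroup.center (SU 3 F q) ≤ K ∧
      H ≠ ⊤ ∧ K ≠ ⊤ ∧ ∀ g : SU 3 F q, ∃ x : SU 3 F q, x * g * x⁻¹ ∈ H ∨ x * g * x⁻¹ ∈ K := by
  have h3 := three_zero hF hq ha
  have h2 := two_ne h3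
  obtain ⟨b, hb0, hbq, hnot⟩ := exists_b hF h3 h2
  refine ⟨HH F q, KK b, center_le_HH hF, center_le_KK hF b, HH_ne_top, KK_ne_top hF hb0, ?_⟩
  intro g
  rcases trichotomy3 hF h3 (mt_st hF g) g.1.2 with ⟨v, μ, hv, hn⟩ | h1 | ⟨h1, h2'⟩
  · obtain ⟨z, hz⟩ := caseA hF h3 hv hn
    exact ⟨z, Or.inl hz⟩
  · obtain ⟨z, hz⟩ := caseB hF h3 hbq hnot h1
    exact ⟨z, Or.inr hz⟩
  · obtain ⟨z, hz⟩ := caseC hF h3 b h1 h2'
    exact ⟨z, Or.inr hz⟩

end Cfsg.Agent.Lib.NC2U3
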