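import Mathlib
import Cfsg.Agent.Lib.NC2SpB
import Cfsg.Agent.Lib.NC2U3B

/-!
`Sp₆` in characteristic three: a cyclic element normalises a self-adjoint Artin-Schreier generator.
The derivation `x d/dx` on `F[g] = F[x]/(x² - t x + 1)³` and Jacobson's formula.
-/

set_option autoImplicit false
set_option linter.unusedSectionVars false
set_option linter.unusedSimpArgs false
set_option linter.unusedVariables false
set_option linter.style.longLine false

namespace Cfsg.Agent.Lib.NC2Sp6

open Matrix Polynomial Cfsg.Agent.Lib.SpBasic Cfsg.Agent.Lib.NC2Cub Cfsg.Agent.Lib.NC2U3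

variable {F : Type*} [Field F] [Fintype F]

/-- Jacobson's formula for `p = 3`. -/
theorem jacobson {R : Type*} [Ring R] (h3 : ∀ x : R, 3 • x = 0) {D a a' a'' : R} (h1 : D * a = a * D + a')
    (h2 : D * a' = a' * D + a'') (hc : a * a' = a' * a) (hD : D ^ 3 = D) :
    (-D + a) ^ 3 - (-D + a) = a'' + a ^ 3 - a := by
  have e : (-D + a) ^ 3 = -D ^ 3 + (D * D * a + D * a * D + a * D * D) - (D * a * a + a * D * a + a * a * D) + a ^ 3 := by
    noncomm_ring
  have e1 : D * D * a = a * D * D + 2 • (a' * D) + a'' := by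
    calc D * D * a = D * (D * a) := by rw [mul_assoc]
      _ = D * (a * D + a') := by rw [h1]
      _ = (D * a) * D + D * a' := by rw [mul_add, mul_assoc]
      _ = (a * D + a') * D + (a' * D + a'') := by rw [h1, h2]
      _ = _ := by rw [add_mul, two_nsmul]; abel
  have e2 : D * a * D = a * D * D + a' * D := by
    rw [h1, add_mul]
  have e3 : D * a * a = a * a * D + 2 • (a * a') + a' * a - a * a' := by
    have : D * a * a = (a * D + a') * a := by rw [h1]
    rw [this, add_mul, mul_assoc, h1, mul_add, ← mul_assoc, two_nsmul]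
    abel
  have e4 : a * D * a = a * a * D + a * a' := by
    rw [mul_assoc, h1, mul_add, mul_assoc]
  have s1 : D * D * a + D * a * D + a * D * D = a'' := by
    rw [e1, e2]
    have h5 := h3 (a * D * D)
    have h6 := h3 (a' * D)
    simp only [succ_nsmul, zero_nsmul, zero_add] at h5 h6 ⊢
    calc _ = (a * D * D + a * D * D + a * D * D) + (a' * D + a' * D + a' * D) + a'' := by abel
      _ = a'' := by rw [h5, h6]; simp
  have s2 : D * a * a + a * D * a + a * a * D = 0 := by
    rw [e3, e4, ← hc]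
    have h5 := h3 (a * a * D)
    have h6 := h3 (a * a')
    simp only [succ_nsmul, zero_nsmul, zero_add] at h5 h6 ⊢
    calc _ = (a * a * D + a * a * D + a * a * D) + (a * a' + a * a' + a * a') := by abel
      _ = 0 := by rw [h5, h6]; simp
  rw [e, s1, s2, hD]
  abel

theorem cube_add_comm {R : Type*} [Ring R] (h3 : ∀ x : R, 3 • x = 0) {A B : R} (hAB : A * B = B * A) :
    (A + B) ^ 3 = A ^ 3 + B ^ 3 := by
  have h1 : A * (-B) = (-B) * A := by simp [hAB]
  have := cube_sub_comm h3 h1
  rw [sub_neg_eq_add] at this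
  rw [this]
  have h2 : (-B) ^ 3 = -(B ^ 3) := by noncomm_ring
  rw [h2, sub_neg_eq_add]

/-- The six operators. -/
def Wm (N G : M6 F) (c : I6 → F) : M6 F :=
  c (.inl 0) • 1 + c (.inl 1) • N + c (.inl 2) • (N * N) + c (.inr 0) • G + c (.inr 1) • (N * G) + c (.inr 2) • (N * N * G)

/-- The data of a cyclic element with its derivation. -/
structure Cy (G G' N D : M6 F) (t : F) (v : V6 F) : Prop where
  gg' : G * G' = 1
  adG : ad G = G'
  T : G + G' = t • 1 + N
  N3 : N * N * N = 0
  DG : D * G = G * D + G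
  D3 : D ^ 3 = D
  h3 : (3 : F) = 0
  ind : ∀ c, Wm N G c *ᵥ v = 0 → c = 0
  span : ∀ w, ∃ c, Wm N G c *ᵥ v = w

/-- The commutator with `D`. -/
def br (D X : M6 F) : M6 F := D * X - X * D

theorem br_add (D X Y : M6 F) : br D (X + Y) = br D X + br D Y := by
  simp only [br, mul_add, add_mul]
  abel

theorem br_sub (D X Y : M6 F) : br D (X - Y) = br D X - br D Y := by
  simp only [br, mul_sub, sub_mul]
  abel

theorem br_smul (D X : M6 F) (c : F) : br D (c • X) = c • br D X := by
  simp only [br, mul_smul_comm, smul_mul_assoc, smul_sub]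

theorem br_mul (D X Y : M6 F) : br D (X * Y) = br D X * Y + X * br D Y := by
  simp only [br, mul_sub, sub_mul, mul_assoc]
  abel

theorem br_one (D : M6 F) : br D 1 = 0 := by
  simp [br]

namespace Cy

variable {G G' N D : M6 F} {t : F} {v : V6 F} (C : Cy G G' N D t v)
include C

theorem g'g : G' * G = 1 := mul_eq_one_comm.mp C.gg'

theorem two_ne : (2 : F) ≠ 0 := Cfsg.Agent.Lib.NC2U3.two_ne C.h3

theorem h3M (X : M6 F) : 3 • X = 0 := by
  rw [← Nat.cast_smul_eq_nsmul F]
  push_cast
  rw [C.h3, zero_smul]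

theorem NG : N * G = G * N := by
  have h : N = G + G' - t • 1 := by rw [C.T]; abel
  rw [h]
  simp only [sub_mul, mul_sub, add_mul, mul_add, C.gg', C.g'g, smul_mul_assoc, mul_smul_comm, one_mul, mul_one]

theorem NG' : N * G' = G' * N := by
  calc N * G' = (G' * G) * (N * G') := by rw [C.g'g, one_mul]
    _ = G' * (G * N) * G' := by simp only [mul_assoc]
    _ = G' * (N * G) * G' := by rw [C.NG]
    _ = G' * N * (G * G') := by simp only [mul_assoc]
    _ = G' * N := by rw [C.gg', mul_one]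

theorem adG' : ad G' = G := by rw [← C.adG, ad_ad]

theorem adN : ad N = N := by
  have h := congrArg ad C.T
  rw [ad_add, ad_add, C.adG, C.adG', ad_smul, ad_one] at h
  have h2 : t • 1 + ad N = t • 1 + N := by rw [← h, ← C.T]; abel
  exact add_left_cancel h2

theorem g'_eq : G' = t • 1 + N - G := by rw [← C.T]; abel

theorem cW {X : M6 F} (hG : X * G = G * X) (hN : X * N = N * X) (c : I6 → F) : X * Wm N G c = Wm N G c * X := by
  have h1 : X * (N * N) = (N * N) * X := by
    rw [← mul_assoc, hN, mul_assoc, hN, mul_assoc]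
  have h2 : X * (N * G) = (N * G) * X := by
    rw [← mul_assoc, hN, mul_assoc, hG, mul_assoc]
  have h4 : X * (N * N * G) = (N * N * G) * X := by
    rw [← mul_assoc, h1, mul_assoc, hG]
    simp only [mul_assoc]
  simp only [Wm, mul_add, add_mul, mul_smul_comm, smul_mul_assoc, mul_one, one_mul, hN, hG, h1, h2, h4]

theorem comm_g' {X : M6 F} (hG : X * G = G * X) : X * G' = G' * X := by
  calc X * G' = (G' * G) * (X * G') := by rw [C.g'g, one_mul]
    _ = G' * (G * X) * G' := by simp only [mul_assoc]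
    _ = G' * (X * G) * G' := by rw [hG]
    _ = G' * X * (G * G') := by simp only [mul_assoc]
    _ = G' * X := by rw [C.gg', mul_one]

theorem comm_N {X : M6 F} (hG : X * G = G * X) : X * N = N * X := by
  have h : N = G + G' - t • 1 := by rw [C.T]; abel
  rw [h]
  simp only [sub_mul, mul_sub, add_mul, mul_add, hG, C.comm_g' hG, smul_mul_assoc, mul_smul_comm, one_mul, mul_one]

theorem comm_eq {X : M6 F} (hG : X * G = G * X) : ∃ c, X = Wm N G c := by
  obtain ⟨c, hc⟩ := C.span (X *ᵥ v)
  refine ⟨c, ?_⟩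
  have hWG : Wm N G c * G = G * Wm N G c := by
    have := C.cW (X := G) rfl C.NG.symm c
    exact this.symm
  have hE : (X - Wm N G c) * G = G * (X - Wm N G c) := by
    rw [sub_mul, mul_sub, hG, hWG]
  have hEN := C.comm_N hE
  have hEv : (X - Wm N G c) *ᵥ v = 0 := by
    rw [Matrix.sub_mulVec, hc, sub_self]
  have hall : ∀ w, (X - Wm N G c) *ᵥ w = 0 := by
    intro w
    obtain ⟨c', rfl⟩ := C.span w
    rw [Matrix.mulVec_mulVec, C.cW hE hEN c', ← Matrix.mulVec_mulVec, hEv, Matrix.mulVec_zero]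
  have h0 : X - Wm N G c = 0 := by
    ext i j
    have := congrFun (hall (Pi.single j 1)) i
    simpa using this
  exact sub_eq_zero.1 h0

theorem comm2 {X Y : M6 F} (hX : X * G = G * X) (hY : Y * G = G * Y) : X * Y = Y * X := by
  obtain ⟨c, rfl⟩ := C.comm_eq hY
  exact C.cW hX (C.comm_N hX) c

theorem cbr {X : M6 F} (hX : X * G = G * X) : br D X * G = G * br D X := by
  simp only [br, sub_mul, mul_sub]
  have h1 : D * X * G = (G * D + G) * X := by rw [mul_assoc, hX, ← mul_assoc, C.DG]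
  have h2 : X * D * G = X * G * D + X * G := by rw [mul_assoc, C.DG, mul_add, ← mul_assoc]
  rw [h1, h2, hX, add_mul]
  simp only [mul_assoc]
  abel

/-- The commutator with the inverse. -/
theorem brG : br D G = G := by
  rw [br, C.DG]
  abel

theorem brG' : br D G' = -G' := by
  have h1 : G' * (D * G) * G' = G' * (G * D + G) * G' := by rw [C.DG]
  have h2 : G' * (D * G) * G' = G' * D := by
    rw [mul_assoc, mul_assoc, C.gg', mul_one]
  have h4 : G' * (G * D + G) * G' = D * G' + G' := by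
    rw [mul_add, add_mul, ← mul_assoc, C.g'g, one_mul, one_mul]
  rw [h2, h4] at h1
  rw [br, h1]
  abel

theorem brT : br D (G + G') = G - G' := by
  rw [br_add, C.brG, C.brG']
  abel

theorem brd : br D (G - G') = G + G' := by
  rw [br_sub, C.brG, C.brG']
  abel

theorem brN : br D N = G - G' := by
  have h : N = G + G' - t • 1 := by rw [C.T]; abel
  rw [h, br_sub, C.brT, br_smul, br_one, smul_zero, sub_zero]

theorem d_eq : G - G' = (2 : F) • G - t • 1 - N := by
  rw [C.g'_eq]
  rw [two_smul]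
  abel

theorem ad_Wm (c : I6 → F) : ad (Wm N G c) =
    c (.inl 0) • 1 + c (.inl 1) • N + c (.inl 2) • (N * N) + c (.inr 0) • G' + c (.inr 1) • (N * G') + c (.inr 2) • (N * N * G') := by
  have e1 : ad (N * G) = N * G' := by rw [ad_mul, C.adG, C.adN, C.NG']
  have e2 : ad (N * N) = N * N := by rw [ad_mul, C.adN]
  have e3 : ad (N * N * G) = N * N * G' := by
    rw [ad_mul, e2, C.adG]
    calc G' * (N * N) = (G' * N) * N := by rw [mul_assoc]
      _ = (N * G') * N := by rw [C.NG']
      _ = N * (G' * N) := by rw [mul_assoc]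
      _ = N * (N * G') := by rw [C.NG']
      _ = N * N * G' := by rw [mul_assoc]
  simp only [Wm, ad_add, ad_smul, ad_one, C.adN, C.adG, e1, e2, e3]

/-- An element of `F[g]`, self-adjoint and constant for the derivation, is a scalar. -/
theorem scalar_of {X : M6 F} (hX : X * G = G * X) (hs : ad X = X) (hD : D * X = X * D) : ∃ k : F, X = k • 1 := by
  classical
  obtain ⟨c, rfl⟩ := C.comm_eq hX
  have h2 := C.two_ne
  -- the coefficients of `g` vanish
  let c2 : I6 → F := Sum.elim
    ![-t * c (.inr 0), -c (.inr 0) - t * c (.inr 1), -c (.inr 1) - t * c (.inr 2)]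
    ![2 * c (.inr 0), 2 * c (.inr 1), 2 * c (.inr 2)]
  have e1 : Wm N G c - ad (Wm N G c) = Wm N G c2 := by
    rw [C.ad_Wm, C.g'_eq]
    simp only [Wm, c2, Sum.elim_inl, Sum.elim_inr, Matrix.cons_val_zero, Matrix.cons_val_one, Matrix.cons_val,
      mul_sub, mul_add, mul_smul_comm, mul_one, C.N3, smul_zero, sub_zero]
    module
  have e2 : Wm N G c2 *ᵥ v = 0 := by
    rw [← e1, hs, sub_self, Matrix.zero_mulVec]
  have e3 := C.ind c2 e2
  have a0 : c (.inr 0) = 0 := by
    have := congrFun e3 (.inr 0)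
    simp only [c2, Sum.elim_inr, Matrix.cons_val_zero, Pi.zero_apply] at this
    exact (mul_eq_zero.1 this).resolve_left h2
  have a1 : c (.inr 1) = 0 := by
    have := congrFun e3 (.inr 1)
    simp only [c2, Sum.elim_inr, Matrix.cons_val_one, Matrix.cons_val_zero, Pi.zero_apply] at this
    exact (mul_eq_zero.1 this).resolve_left h2
  have a2 : c (.inr 2) = 0 := by
    have := congrFun e3 (.inr 2)
    simp only [c2, Sum.elim_inr, Matrix.cons_val, Pi.zero_apply] at this
    exact (mul_eq_zero.1 this).resolve_left h2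
  have hW : Wm N G c = c (.inl 0) • 1 + c (.inl 1) • N + c (.inl 2) • (N * N) := by
    simp only [Wm, a0, a1, a2, zero_smul, add_zero]
  rw [hW] at hD ⊢
  have hbr : br D (c (.inl 0) • 1 + c (.inl 1) • N + c (.inl 2) • (N * N)) = 0 := by
    rw [br, hD, sub_self]
  rw [br_add, br_add, br_smul, br_smul, br_smul, br_one, smul_zero, zero_add, br_mul, C.brN] at hbr
  have hdN : (G - G') * N = N * (G - G') := by
    rw [sub_mul, mul_sub, C.NG, C.NG']
  rw [hdN, C.d_eq] at hbr
  let c3 : I6 → F := Sum.elim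
    ![-t * c (.inl 1), -c (.inl 1) - 2 * t * c (.inl 2), -2 * c (.inl 2)]
    ![2 * c (.inl 1), 4 * c (.inl 2), 0]
  have e4 : Wm N G c3 = 0 := by
    rw [← hbr]
    simp only [Wm, c3, Sum.elim_inl, Sum.elim_inr, Matrix.cons_val_zero, Matrix.cons_val_one, Matrix.cons_val,
      mul_sub, mul_add, mul_smul_comm, mul_one, zero_smul, add_zero, mul_assoc]
    module
  have e5 := C.ind c3 (by rw [e4, Matrix.zero_mulVec])
  have b1 : c (.inl 1) = 0 := by
    have := congrFun e5 (.inr 0)
    simp only [c3, Sum.elim_inr, Matrix.cons_val_zero, Pi.zero_apply] at this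
    exact (mul_eq_zero.1 this).resolve_left h2
  have b2 : c (.inl 2) = 0 := by
    have := congrFun e5 (.inl 2)
    simp only [c3, Sum.elim_inl, Matrix.cons_val, Pi.zero_apply] at this
    have h5 : (2 : F) * c (.inl 2) = 0 := by linear_combination -this
    exact (mul_eq_zero.1 h5).resolve_left h2
  exact ⟨c (.inl 0), by simp [b1, b2]⟩

/-- Jacobson's formula for an element of `F[g]`. -/
theorem jac {a : M6 F} (ha : a * G = G * a) :
    (-D + a) ^ 3 - (-D + a) = br D (br D a) + a ^ 3 - a := by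
  refine jacobson C.h3M (a' := br D a) (a'' := br D (br D a)) ?_ ?_ (C.comm2 ha (C.cbr ha)) C.D3
  · rw [br]; abel
  · have : ∀ X, D * X = X * D + br D X := fun X => by rw [br]; abel
    exact this _

theorem exists_theta (b : F) :
    ∃ θ : M6 F, ad θ = θ ∧ θ ^ 3 = θ + (-b ^ 3) • (1 : M6 F) ∧ G * θ = (θ + (1 : F) • (1 : M6 F)) * G := by
  classical
  have h3 := C.h3
  -- the correction
  obtain ⟨Z, hZdef⟩ : ∃ Z, Z = ad D - D := ⟨_, rfl⟩
  have hadD : ad D = D + Z := by rw [hZdef]; abel
  have hZ : Z * G = G * Z := by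
    have h1 := congrArg ad C.DG
    rw [ad_mul, ad_add, ad_mul, C.adG] at h1
    have h2 : ad D * G = G * ad D + G := by
      calc ad D * G = (G * G') * (ad D * G) := by rw [C.gg', one_mul]
        _ = G * (G' * ad D) * G := by simp only [mul_assoc]
        _ = G * (ad D * G' + G') * G := by rw [h1]
        _ = G * ad D * (G' * G) + G * G' * G := by simp only [mul_add, add_mul, mul_assoc]
        _ = G * ad D + G := by rw [C.g'g, C.gg', mul_one, one_mul]
    rw [hZdef, sub_mul, mul_sub, h2, C.DG]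
    abel
  have hadZ : ad Z = -Z := by
    rw [hZdef, ad_sub, ad_ad]
    abel
  have hZ3 : Z + Z + Z = 0 := by
    have := C.h3M Z
    simpa only [succ_nsmul, zero_nsmul, zero_add] using this
  have hmZ : -Z - Z = Z := by
    calc -Z - Z = -(Z + Z + Z) + Z := by abel
      _ = Z := by rw [hZ3]; simp
  have hX0 : ((-D + Z) ^ 3 - (-D + Z)) * G = G * ((-D + Z) ^ 3 - (-D + Z)) := by
    rw [C.jac hZ]
    have h1 := C.cbr (C.cbr hZ)
    have h2 : Z ^ 3 * G = G * Z ^ 3 := ((show Commute Z G from hZ).pow_left 3).eq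
    simp only [add_mul, sub_mul, mul_add, mul_sub, h1, h2, hZ]
  have had0 : ad (-D + Z) = -D + Z := by
    rw [ad_add, ad_neg, hadD, hadZ, neg_add, add_assoc, ← sub_eq_add_neg, hmZ]
  have hX0ad : ad ((-D + Z) ^ 3 - (-D + Z)) = (-D + Z) ^ 3 - (-D + Z) := by
    rw [ad_sub, ad_pow, had0]
  have hX0D : D * ((-D + Z) ^ 3 - (-D + Z)) = ((-D + Z) ^ 3 - (-D + Z)) * D := by
    have h1 : (-D + Z) * ((-D + Z) ^ 3 - (-D + Z)) = ((-D + Z) ^ 3 - (-D + Z)) * (-D + Z) := by
      rw [mul_sub, sub_mul, ← pow_succ', ← pow_succ]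
    have h2 := C.comm2 hX0 hZ
    obtain ⟨Xx, hXx⟩ : ∃ X, X = (-D + Z) ^ 3 - (-D + Z) := ⟨_, rfl⟩
    rw [← hXx] at h1 h2 ⊢
    have h4 : D = Z - (-D + Z) := by abel
    rw [h4, sub_mul, mul_sub, ← h2, ← h1]
  obtain ⟨k, hk⟩ := C.scalar_of hX0 hX0ad hX0D
  have hjZ := C.jac hZ
  rw [hk] at hjZ
  -- the total element
  obtain ⟨T1, hT1⟩ : ∃ T1, T1 = G + G' := ⟨_, rfl⟩
  have hT1c : T1 * G = G * T1 := by
    rw [hT1, add_mul, mul_add, C.gg', C.g'g]
  have hT1ad : ad T1 = T1 := by
    rw [hT1, ad_add, C.adG, C.adG']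
    abel
  have hT13 : T1 ^ 3 = (t ^ 3) • (1 : M6 F) := by
    rw [hT1, C.T]
    have hc : (t • (1 : M6 F)) * N = N * (t • (1 : M6 F)) := by simp
    rw [cube_add_comm C.h3M hc]
    have h1 : N ^ 3 = 0 := by
      have := C.N3
      rw [pow_succ, pow_two]
      exact this
    rw [h1, add_zero, _root_.smul_pow, one_pow]
  have hbT1 : br D T1 = G - G' := by rw [hT1]; exact C.brT
  have hbd : br D (G - G') = T1 := by rw [hT1]; exact C.brd
  -- final assembly
  have fin : ∀ w : M6 F, w * G = G * w → ad w = w →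
      (-D + (Z + w)) ^ 3 - (-D + (Z + w)) = (-b ^ 3) • (1 : M6 F) →
      ∃ θ : M6 F, ad θ = θ ∧ θ ^ 3 = θ + (-b ^ 3) • (1 : M6 F) ∧ G * θ = (θ + (1 : F) • (1 : M6 F)) * G := by
    intro w hw hadw hc
    refine ⟨-D + (Z + w), ?_, ?_, ?_⟩
    · rw [ad_add, ad_neg, ad_add, hadD, hadZ, hadw]
      rw [neg_add]
      have : -D + -Z + (-Z + w) = -D + ((-Z - Z) + w) := by abel
      rw [this, hmZ]
    · rw [← hc]
      abel
    · rw [one_smul, add_mul, add_mul, one_mul, neg_mul, C.DG, mul_add, mul_neg, add_mul, hZ, hw, mul_add]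
      abel
  have hcomm : ∀ w : M6 F, w * G = G * w → Z * w = w * Z := fun w hw => C.comm2 hZ hw
  have hbr2 : ∀ w : M6 F, br D (br D (Z + w)) = br D (br D Z) + br D (br D w) := by
    intro w
    rw [br_add, br_add]
  by_cases ht : t = 0
  · -- `t = 0`
    subst ht
    obtain ⟨α, hα⟩ : ∃ α : F, α = -b ^ 3 - k := ⟨_, rfl⟩
    have hTT : (T1 * T1) * G = G * (T1 * T1) := by
      rw [mul_assoc, hT1c, ← mul_assoc, hT1c, mul_assoc]
    have hw : (α • (T1 * T1)) * G = G * (α • (T1 * T1)) := by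
      rw [smul_mul_assoc, hTT, mul_smul_comm]
    have hwad : ad (α • (T1 * T1)) = α • (T1 * T1) := by
      rw [ad_smul, ad_mul, hT1ad]
    refine fin _ hw hwad ?_
    have h1 := C.jac (a := Z + α • (T1 * T1)) (by rw [add_mul, mul_add, hZ, hw])
    rw [h1, hbr2, br_smul, br_smul]
    have hb1 : br D (T1 * T1) = (G - G') * T1 + T1 * (G - G') := by
      rw [br_mul, hbT1]
    have hb2 : br D (br D (T1 * T1)) = T1 * T1 + (G - G') * (G - G') + ((G - G') * (G - G') + T1 * T1) := by
      rw [hb1, br_add, br_mul, br_mul, hbT1, hbd]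
    have hdd : (G - G') * (G - G') = T1 * T1 - (4 : F) • (1 : M6 F) := by
      rw [hT1]
      simp only [sub_mul, mul_sub, add_mul, mul_add, C.gg', C.g'g]
      have h4 : (4 : F) • (1 : M6 F) = 1 + 1 + 1 + 1 := by
        have : (4 : F) = 1 + 1 + 1 + 1 := by norm_num
        rw [this]
        simp only [add_smul, one_smul]
      rw [h4]
      abel
    have hbb : br D (br D (T1 * T1)) = T1 * T1 + (1 : F) • (1 : M6 F) := by
      rw [hb2, hdd]
      have h4 : (4 : F) = 1 := by linear_combination h3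
      have h3T : (3 : F) • (T1 * T1) = 0 := by rw [h3, zero_smul]
      rw [h4, one_smul]
      have h5 : (1 : M6 F) + 1 + 1 = 0 := by
        have := C.h3M (1 : M6 F)
        simpa only [succ_nsmul, zero_nsmul, zero_add] using this
      have h6 : T1 * T1 + T1 * T1 + T1 * T1 = 0 := by
        have := C.h3M (T1 * T1)
        simpa only [succ_nsmul, zero_nsmul, zero_add] using this
      calc T1 * T1 + (T1 * T1 - 1) + (T1 * T1 - 1 + T1 * T1) = (T1 * T1 + T1 * T1 + T1 * T1) + T1 * T1 - ((1 : M6 F) + 1 + 1) + 1 := by abel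
        _ = T1 * T1 + 1 := by rw [h5, h6]; abel
    rw [hbb, cube_add_comm C.h3M (by
      rw [mul_smul_comm, smul_mul_assoc, C.comm2 hZ hTT])]
    have hT6 : (α • (T1 * T1)) ^ 3 = 0 := by
      rw [_root_.smul_pow]
      have : (T1 * T1) ^ 3 = T1 ^ 3 * T1 ^ 3 := by noncomm_ring
      rw [this, hT13]
      simp [h3]
    rw [hT6, add_zero]
    have e : br D (br D Z) + α • (T1 * T1 + (1 : F) • (1 : M6 F)) + Z ^ 3 - (Z + α • (T1 * T1)) =
        (br D (br D Z) + Z ^ 3 - Z) + α • (1 : M6 F) := by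
      simp only [smul_add, one_smul]
      abel
    rw [e, ← hjZ, ← add_smul, hα]
    congr 1
    ring
  · -- `t ≠ 0`
    obtain ⟨α, hα⟩ := exists_cube_root h3 ((-b ^ 3 - k) / t ^ 3)
    have hw : (α • T1) * G = G * (α • T1) := by
      rw [smul_mul_assoc, hT1c, mul_smul_comm]
    have hwad : ad (α • T1) = α • T1 := by
      rw [ad_smul, hT1ad]
    refine fin _ hw hwad ?_
    have h1 := C.jac (a := Z + α • T1) (by rw [add_mul, mul_add, hZ, hw])
    rw [h1, hbr2, br_smul, br_smul, hbT1, hbd, cube_add_comm C.h3M (by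
      rw [mul_smul_comm, smul_mul_assoc, C.comm2 hZ hT1c])]
    rw [_root_.smul_pow, hT13, hα]
    have e : br D (br D Z) + α • T1 + (Z ^ 3 + ((-b ^ 3 - k) / t ^ 3) • (t ^ 3) • (1 : M6 F)) - (Z + α • T1) =
        (br D (br D Z) + Z ^ 3 - Z) + ((-b ^ 3 - k) / t ^ 3 * t ^ 3) • (1 : M6 F) := by
      rw [mul_smul]
      abel
    rw [e, ← hjZ, ← add_smul]
    congr 1
    field_simp
    ring

end Cy

end Cfsg.Agent.Lib.NC2Sp6
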