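import Mathlib
import Cfsg.Agent.Lib.NC2SpC

/-!
`Sp₆` in characteristic three: the frame of a cyclic element and the derivation on it.
-/

set_option autoImplicit false
set_option linter.unusedSectionVars false
set_option linter.unusedSimpArgs false
set_option linter.unusedVariables false
set_option linter.style.longLine false

namespace Cfsg.Agent.Lib.NC2Sp6

open Matrix Polynomial Cfsg.Agent.Lib.SpBasic Cfsg.Agent.Lib.NC2Cub Cfsg.Agent.Lib.NC2U3

variable {F : Type*} [Field F] [Fintype F]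

local notation "JJ" => (J (Fin 3) F)

/-- `g` on the frame. -/
def G0 (t : F) : M6 F :=
  Matrix.fromBlocks !![0, 0, 0; 0, 0, 0; 0, 0, 0] !![-1, 0, 0; 0, -1, 0; 0, 0, -1]
    !![1, 0, 0; 0, 1, 0; 0, 0, 1] !![t, 0, 0; 1, t, 0; 0, 1, t]

/-- The derivation on the frame. -/
def D0 (t : F) : M6 F :=
  Matrix.fromBlocks !![0, -t, 0; 0, -1, t; 0, 0, 1] !![0, 1, 0; 0, 0, -1; 0, 0, 0]
    !![0, 2, 0; 0, 0, 1; 0, 0, 0] !![1, t, 0; 0, -1, 2 * t; 0, 0, 0]

theorem D0_G0 (h3 : (3 : F) = 0) (t : F) : D0 t * G0 t = G0 t * D0 t + G0 t := by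
  rw [D0, G0, Matrix.fromBlocks_multiply, Matrix.fromBlocks_multiply, Matrix.fromBlocks_add]
  simp only [Matrix.mul_fin_three]
  congr 1 <;> ext i j <;> fin_cases i <;> fin_cases j <;>
    simp <;>
    first
      | ring1
      | linear_combination h3
      | linear_combination -h3
      | linear_combination t * h3
      | linear_combination -t * h3

theorem D0_cube (h3 : (3 : F) = 0) (t : F) : D0 t ^ 3 = D0 t := by
  rw [pow_succ, pow_two, D0, Matrix.fromBlocks_multiply, Matrix.fromBlocks_multiply]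
  simp only [Matrix.mul_fin_three]
  congr 1 <;> ext i j <;> fin_cases i <;> fin_cases j <;>
    simp <;>
    first
      | ring1
      | linear_combination h3
      | linear_combination -h3
      | linear_combination t * h3
      | linear_combination -t * h3

/-- The frame of a nilpotent self-adjoint operator is independent. -/
theorem frame_ind (h2 : (2 : F) ≠ 0) {N : M6 F} (hN : ad N = N) (hN3 : N * N * N = 0) {x y : V6 F}
    (h : ω x (N *ᵥ (N *ᵥ y)) ≠ 0) (c : I6 → F)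
    (hc : c (.inl 0) • x + c (.inl 1) • (N *ᵥ x) + c (.inl 2) • (N *ᵥ (N *ᵥ x)) + c (.inr 0) • y +
      c (.inr 1) • (N *ᵥ y) + c (.inr 2) • (N *ᵥ (N *ᵥ y)) = 0) : c = 0 := by
  classical
  obtain ⟨a, ha⟩ : ∃ a, a = ω x (N *ᵥ (N *ᵥ y)) := ⟨_, rfl⟩
  rw [← ha] at h
  have self : ∀ p q : V6 F, ω (N *ᵥ p) q = ω p (N *ᵥ q) := by
    intro p q
    rw [ω_ad, hN]
  have n3 : ∀ z : V6 F, N *ᵥ (N *ᵥ (N *ᵥ z)) = 0 := by
    intro z
    rw [Matrix.mulVec_mulVec, Matrix.mulVec_mulVec, hN3, Matrix.zero_mulVec]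
  have alt1 : ∀ z : V6 F, ω z (N *ᵥ z) = 0 := fun z => alt_self h2 hN z
  have alt2 : ∀ z : V6 F, ω z (N *ᵥ (N *ᵥ z)) = 0 := by
    intro z
    have hs : ad (N * N) = N * N := by rw [ad_mul, hN]
    have := alt_self h2 hs z
    rwa [← Matrix.mulVec_mulVec] at this
  have alt1' : ∀ z : V6 F, ω (N *ᵥ z) z = 0 := by
    intro z
    rw [ω_comm, alt1, neg_zero]
  have alt2' : ∀ z : V6 F, ω (N *ᵥ (N *ᵥ z)) z = 0 := by
    intro z
    rw [ω_comm, alt2, neg_zero]
  have pair : ∀ z : V6 F, c (.inl 0) * ω x z + c (.inl 1) * ω (N *ᵥ x) z + c (.inl 2) * ω (N *ᵥ (N *ᵥ x)) z + c (.inr 0) * ω y z +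
      c (.inr 1) * ω (N *ᵥ y) z + c (.inr 2) * ω (N *ᵥ (N *ᵥ y)) z = 0 := by
    intro z
    have := congrArg (fun w => ω w z) hc
    simpa only [ω_add_left, ω_smul_left, ω_zero_left] using this
  -- the mixed values
  have v1 : ω (N *ᵥ x) (N *ᵥ y) = a := by rw [self, ha]
  have v2 : ω (N *ᵥ (N *ᵥ x)) y = a := by rw [self, self, ha]
  have v3 : ω y (N *ᵥ (N *ᵥ x)) = -a := by rw [ω_comm, v2]
  have v4 : ω (N *ᵥ y) (N *ᵥ x) = -a := by rw [ω_comm, v1]
  have v5 : ω (N *ᵥ (N *ᵥ y)) x = -a := by rw [ω_comm, ha]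
  have z1 : ω (N *ᵥ x) (N *ᵥ (N *ᵥ y)) = 0 := by rw [self, n3, ω_zero_right]
  have z2 : ω (N *ᵥ (N *ᵥ x)) (N *ᵥ (N *ᵥ y)) = 0 := by rw [self, self, n3, ω_zero_right]
  have z3 : ω (N *ᵥ y) (N *ᵥ (N *ᵥ y)) = 0 := by rw [self, n3, ω_zero_right]
  have z4 : ω (N *ᵥ (N *ᵥ y)) (N *ᵥ (N *ᵥ y)) = 0 := ω_self _
  have z5 : ω (N *ᵥ (N *ᵥ x)) (N *ᵥ y) = 0 := by rw [self, self, n3, ω_zero_right]
  have z6 : ω (N *ᵥ (N *ᵥ y)) (N *ᵥ y) = 0 := by rw [self, self, n3, ω_zero_right]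
  have z7 : ω (N *ᵥ y) (N *ᵥ (N *ᵥ x)) = 0 := by rw [self, n3, ω_zero_right]
  have z8 : ω (N *ᵥ (N *ᵥ y)) (N *ᵥ (N *ᵥ x)) = 0 := by rw [self, self, n3, ω_zero_right]
  have z9 : ω (N *ᵥ (N *ᵥ y)) (N *ᵥ x) = 0 := by rw [self, self, n3, ω_zero_right]
  have c0 : c (.inl 0) = 0 := by
    have := pair (N *ᵥ (N *ᵥ y))
    rw [z1, z2, alt2, z3, z4, ← ha] at this
    have h5 : c (.inl 0) * a = 0 := by linear_combination this
    exact (mul_eq_zero.1 h5).resolve_right h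
  have c1 : c (.inl 1) = 0 := by
    have := pair (N *ᵥ y)
    rw [v1, z5, alt1, ω_self, z6, c0] at this
    have h5 : c (.inl 1) * a = 0 := by linear_combination this
    exact (mul_eq_zero.1 h5).resolve_right h
  have c2 : c (.inl 2) = 0 := by
    have := pair y
    rw [v2, ω_self, alt1', alt2', c0, c1] at this
    have h5 : c (.inl 2) * a = 0 := by linear_combination this
    exact (mul_eq_zero.1 h5).resolve_right h
  have c3 : c (.inr 0) = 0 := by
    have := pair (N *ᵥ (N *ᵥ x))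
    rw [v3, z7, z8, c0, c1, c2] at this
    have h5 : c (.inr 0) * a = 0 := by linear_combination -this
    exact (mul_eq_zero.1 h5).resolve_right h
  have c4 : c (.inr 1) = 0 := by
    have := pair (N *ᵥ x)
    rw [v4, z9, c0, c1, c2, c3] at this
    have h5 : c (.inr 1) * a = 0 := by linear_combination -this
    exact (mul_eq_zero.1 h5).resolve_right h
  have c5 : c (.inr 2) = 0 := by
    have := pair x
    rw [v5, c0, c1, c2, c3, c4] at this
    have h5 : c (.inr 2) * a = 0 := by linear_combination -this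
    exact (mul_eq_zero.1 h5).resolve_right h
  ext i
  rcases i with i | i <;> fin_cases i
  · exact c0
  · exact c1
  · exact c2
  · exact c3
  · exact c4
  · exact c5

/-- The frame of a cyclic vector. -/
def frm (N G : M6 F) (v : V6 F) : I6 → V6 F :=
  Sum.elim ![v, N *ᵥ v, N *ᵥ (N *ᵥ v)] ![G *ᵥ v, N *ᵥ (G *ᵥ v), N *ᵥ (N *ᵥ (G *ᵥ v))]

theorem col6_frm_mulVec (N G : M6 F) (v : V6 F) (c : I6 → F) :
    col6 (frm N G v) *ᵥ c = Wm N G c *ᵥ v := by
  rw [col6_mulVec, Fintype.sum_sum_type, Fin.sum_univ_three, Fin.sum_univ_three]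
  simp only [frm, Sum.elim_inl, Sum.elim_inr, Wm, Matrix.add_mulVec, Matrix.smul_mulVec, Matrix.one_mulVec,
    ← Matrix.mulVec_mulVec, Matrix.cons_val_zero, Matrix.cons_val_one, Matrix.cons_val]
  abel

/-- A cyclic element gives rise to `Cy`. -/
theorem cy_of_frame (h3 : (3 : F) = 0) (g : SP F) {N : M6 F} {t : F}
    (hT : g.1 + ad g.1 = t • 1 + N) (hN3 : N * N * N = 0) {v : V6 F}
    (hv : ω v (N *ᵥ (N *ᵥ (g.1 *ᵥ v))) ≠ 0) :
    ∃ D, Cy g.1 (ad g.1) N D t v := by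
  classical
  have h2 : (2 : F) ≠ 0 := Cfsg.Agent.Lib.NC2U3.two_ne h3
  obtain ⟨G, hG⟩ : ∃ G, G = g.1 := ⟨_, rfl⟩
  rw [← hG] at hT hv ⊢
  obtain ⟨G', hG'⟩ : ∃ G', G' = ad G := ⟨_, rfl⟩
  rw [← hG'] at hT ⊢
  have hgg' : G * G' = 1 := by rw [hG', hG]; exact sp_ad g
  have hg'g : G' * G = 1 := by rw [hG', hG]; exact ad_sp g
  have hadG : ad G = G' := hG'.symm
  have hadG' : ad G' = G := by rw [← hadG, ad_ad]
  have hadN : ad N = N := by
    have h := congrArg ad hT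
    rw [ad_add, ad_add, hadG, hadG', ad_smul, ad_one] at h
    have h2 : t • 1 + ad N = t • 1 + N := by rw [← h, ← hT]; abel
    exact add_left_cancel h2
  have hNG : N * G = G * N := by
    have h : N = G + G' - t • 1 := by rw [hT]; abel
    rw [h]
    simp only [sub_mul, mul_sub, add_mul, mul_add, hgg', hg'g, smul_mul_assoc, mul_smul_comm, one_mul, mul_one]
  have hGG : G * G = t • G + N * G - 1 := by
    have h : G' = t • 1 + N - G := by rw [← hT]; abel
    have h1 : G * G' = 1 := hgg'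
    rw [h, mul_sub, mul_add, mul_smul_comm, mul_one, ← hNG] at h1
    rw [← h1]
    abel
  have hind : ∀ c, Wm N G c *ᵥ v = 0 → c = 0 := by
    intro c hc
    apply frame_ind h2 hadN hN3 hv c
    rw [← hc, ← col6_frm_mulVec, col6_mulVec, Fintype.sum_sum_type, Fin.sum_univ_three, Fin.sum_univ_three]
    simp only [frm, Sum.elim_inl, Sum.elim_inr, Matrix.cons_val_zero, Matrix.cons_val_one, Matrix.cons_val]
    abel
  have hcol : ∀ c, col6 (frm N G v) *ᵥ c = 0 → c = 0 := by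
    intro c hc
    rw [col6_frm_mulVec] at hc
    exact hind c hc
  have hinj : Function.Injective (col6 (frm N G v)).mulVec := by
    intro a b hab
    have := hcol (a - b) (by rw [Matrix.mulVec_sub, hab, sub_self])
    exact sub_eq_zero.1 this
  have hunit : IsUnit (col6 (frm N G v)) := Matrix.mulVec_injective_iff_isUnit.1 hinj
  obtain ⟨Bu, hBu⟩ := hunit
  obtain ⟨B, hB⟩ : ∃ B, B = col6 (frm N G v) := ⟨_, rfl⟩
  obtain ⟨Bi, hBi1, hBi2⟩ : ∃ Bi, B * Bi = 1 ∧ Bi * B = 1 :=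
    ⟨(Bu⁻¹ : (M6 F)ˣ).1, by rw [hB, ← hBu]; exact Bu.mul_inv, by rw [hB, ← hBu]; exact Bu.inv_mul⟩
  have hspan : ∀ w, ∃ c, Wm N G c *ᵥ v = w := by
    intro w
    refine ⟨Bi *ᵥ w, ?_⟩
    rw [← col6_frm_mulVec, ← hB, Matrix.mulVec_mulVec, hBi1, Matrix.one_mulVec]
  have hGB : G * B = B * G0 t := by
    have n3 : ∀ z : V6 F, N *ᵥ (N *ᵥ (N *ᵥ z)) = 0 := by
      intro z
      rw [Matrix.mulVec_mulVec, Matrix.mulVec_mulVec, hN3, Matrix.zero_mulVec]
    have sw : ∀ z : V6 F, G *ᵥ (N *ᵥ z) = N *ᵥ (G *ᵥ z) := by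
      intro z
      rw [Matrix.mulVec_mulVec, Matrix.mulVec_mulVec, hNG]
    have sq : G *ᵥ (G *ᵥ v) = t • (G *ᵥ v) + N *ᵥ (G *ᵥ v) - v := by
      rw [Matrix.mulVec_mulVec, hGG, Matrix.sub_mulVec, Matrix.add_mulVec, Matrix.smul_mulVec, Matrix.one_mulVec,
        ← Matrix.mulVec_mulVec]
    have e4 : G *ᵥ (N *ᵥ (G *ᵥ v)) = t • (N *ᵥ (G *ᵥ v)) + N *ᵥ (N *ᵥ (G *ᵥ v)) - N *ᵥ v := by
      rw [sw, sq, Matrix.mulVec_sub, Matrix.mulVec_add, Matrix.mulVec_smul]
    have e5 : G *ᵥ (N *ᵥ (N *ᵥ (G *ᵥ v))) = t • (N *ᵥ (N *ᵥ (G *ᵥ v))) - N *ᵥ (N *ᵥ v) := by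
      rw [sw, e4, Matrix.mulVec_sub, Matrix.mulVec_add, Matrix.mulVec_smul, n3, add_zero]
    rw [hB, mul_col6]
    ext i j
    rw [col6_apply, Matrix.mul_apply, Fintype.sum_sum_type, Fin.sum_univ_three, Fin.sum_univ_three]
    simp only [col6_apply]
    rcases j with j | j <;> fin_cases j
    · simp [G0, frm, -Matrix.mulVec_mulVec]
    · simp [G0, frm, sw, -Matrix.mulVec_mulVec]
    · simp [G0, frm, sw, -Matrix.mulVec_mulVec]
    · simp [G0, frm, sq, -Matrix.mulVec_mulVec]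
      ring
    · simp [G0, frm, e4, -Matrix.mulVec_mulVec]
      ring
    · simp [G0, frm, e5, -Matrix.mulVec_mulVec]
      ring
  have hBiG : Bi * G = G0 t * Bi := by
    calc Bi * G = Bi * G * (B * Bi) := by rw [hBi1, mul_one]
      _ = Bi * (G * B) * Bi := by simp only [mul_assoc]
      _ = Bi * (B * G0 t) * Bi := by rw [hGB]
      _ = (Bi * B) * G0 t * Bi := by simp only [mul_assoc]
      _ = G0 t * Bi := by rw [hBi2, one_mul]
  refine ⟨B * D0 t * Bi, ⟨hgg', hadG, hT, hN3, ?_, ?_, h3, hind, hspan⟩⟩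
  · calc B * D0 t * Bi * G = B * (D0 t * (Bi * G)) := by simp only [mul_assoc]
      _ = B * ((D0 t * G0 t) * Bi) := by rw [hBiG]; simp only [mul_assoc]
      _ = B * ((G0 t * D0 t + G0 t) * Bi) := by rw [D0_G0 h3]
      _ = (B * G0 t) * D0 t * Bi + (B * G0 t) * Bi := by simp only [add_mul, mul_add, mul_assoc]
      _ = (G * B) * D0 t * Bi + (G * B) * Bi := by rw [hGB]
      _ = G * (B * D0 t * Bi) + G * (B * Bi) := by simp only [mul_assoc]
      _ = _ := by rw [hBi1, mul_one]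
  · have hsq : (B * D0 t * Bi) * (B * D0 t * Bi) = B * (D0 t * D0 t) * Bi := by
      calc _ = B * D0 t * (Bi * B) * D0 t * Bi := by simp only [mul_assoc]
        _ = _ := by rw [hBi2, mul_one]; simp only [mul_assoc]
    rw [pow_succ, pow_two, hsq]
    have hc := D0_cube h3 t
    rw [pow_succ, pow_two] at hc
    calc _ = B * (D0 t * D0 t) * (Bi * B) * D0 t * Bi := by simp only [mul_assoc]
      _ = B * (D0 t * D0 t * D0 t) * Bi := by rw [hBi2, mul_one]; simp only [mul_assoc]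
      _ = _ := by rw [hc]

end Cfsg.Agent.Lib.NC2Sp6
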