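import Mathlib
import Cfsg.Agent.Lib.NC2SpD

/-!
`Sp₆` in characteristic three: polynomials in a self-adjoint operator.
-/

set_option autoImplicit false
set_option linter.unusedSectionVars false
set_option linter.unusedSimpArgs false
set_option linter.unusedVariables false
set_option linter.style.longLine false

namespace Cfsg.Agent.Lib.NC2Sp6

open Matrix Polynomial Cfsg.Agent.Lib.SpBasic Cfsg.Agent.Lib.NC2Cub Cfsg.Agent.Lib.NC2U3

variable {F : Type*} [Field F] [Fintype F]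

local notation "JJ" => (J (Fin 3) F)

/-- The cyclic element lands in the normaliser. -/
theorem mem_KK6_of {b : F} (z g : SP F) {θ : M6 F} {i : F} (hz : z.1 * θ = Th6 b * z.1)
    (hg : g.1 * θ = (θ + i • (1 : M6 F)) * g.1) : z * g * z⁻¹ ∈ KK6 b := by
  refine ⟨i, ?_⟩
  have hzi : (z⁻¹).1 * z.1 = 1 := by rw [← sp_mul, inv_mul_cancel, sp_one]
  have hiz : z.1 * (z⁻¹).1 = 1 := by rw [← sp_mul, mul_inv_cancel, sp_one]
  have h1 : (z⁻¹).1 * Th6 b = θ * (z⁻¹).1 := by
    calc (z⁻¹).1 * Th6 b = (z⁻¹).1 * (Th6 b * z.1) * (z⁻¹).1 := by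
          rw [mul_assoc (z⁻¹).1, mul_assoc (Th6 b), hiz, mul_one]
      _ = (z⁻¹).1 * (z.1 * θ) * (z⁻¹).1 := by rw [hz]
      _ = ((z⁻¹).1 * z.1) * θ * (z⁻¹).1 := by simp only [mul_assoc]
      _ = _ := by rw [hzi, one_mul]
  rw [sp_mul, sp_mul]
  calc z.1 * g.1 * (z⁻¹).1 * Th6 b = z.1 * g.1 * ((z⁻¹).1 * Th6 b) := by rw [mul_assoc]
    _ = z.1 * (g.1 * θ) * (z⁻¹).1 := by rw [h1]; simp only [mul_assoc]
    _ = z.1 * ((θ + i • (1 : M6 F)) * g.1) * (z⁻¹).1 := by rw [hg]
    _ = (z.1 * θ + i • z.1) * g.1 * (z⁻¹).1 := by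
        simp only [mul_add, add_mul, mul_smul_comm, smul_mul_assoc, mul_one, one_mul, mul_assoc]
    _ = (Th6 b * z.1 + i • z.1) * g.1 * (z⁻¹).1 := by rw [hz]
    _ = _ := by
        simp only [mul_add, add_mul, mul_smul_comm, smul_mul_assoc, mul_one, one_mul, mul_assoc]

/-- The cyclic elements. -/
theorem cyc_case (h3 : (3 : F) = 0) {b : F} (hb : ∀ x : F, x ^ 3 - x ≠ -b ^ 3) (g : SP F) {N : M6 F} {t : F}
    (hT : g.1 + ad g.1 = t • 1 + N) (hN3 : N * N * N = 0) {v : V6 F}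
    (hv : ω v (N *ᵥ (N *ᵥ (g.1 *ᵥ v))) ≠ 0) : ∃ z : SP F, z * g * z⁻¹ ∈ KK6 b := by
  have h2 : (2 : F) ≠ 0 := Cfsg.Agent.Lib.NC2U3.two_ne h3
  obtain ⟨D, C⟩ := cy_of_frame h3 g hT hN3 hv
  obtain ⟨θ, hs, hc, hG⟩ := C.exists_theta b
  obtain ⟨z, hz⟩ := conj_theta h2 hb hs hc (ad_Th6 b) (Th6_cube h3 b)
  exact ⟨z, mem_KK6_of z g hz hG⟩

theorem ti_finrank_le (W : Submodule F (V6 F)) (h : ∀ x ∈ W, ∀ y ∈ W, ω x y = 0) : Module.finrank F W ≤ 3 := by
  have hnd : (bB : LinearMap.BilinForm F (V6 F)).Nondegenerate := Cfsg.Agent.Lib.SympWitt.sympB_nondeg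
  have hV : Module.finrank F (V6 F) = 6 := by simp
  have hle : W ≤ (bB : LinearMap.BilinForm F (V6 F)).orthogonal W := by
    intro x hx
    rw [LinearMap.BilinForm.mem_orthogonal_iff]
    intro y hy
    exact h y hy x hx
  have h1 := Submodule.finrank_mono hle
  rw [LinearMap.BilinForm.finrank_orthogonal hnd W, hV] at h1
  have h2 := Submodule.finrank_le W
  omega

theorem ad_aeval {T : M6 F} (hT : ad T = T) (f : F[X]) : ad (aeval T f) = aeval T f := by
  induction f using Polynomial.induction_on' with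
  | add p q hp hq => rw [map_add, ad_add, hp, hq]
  | monomial n c =>
    rw [aeval_monomial, Algebra.algebraMap_eq_smul_one, smul_mul_assoc, one_mul, ad_smul, ad_pow, hT]

theorem comm_aeval6 {Y T : M6 F} (h : Y * T = T * Y) (r : F[X]) :
    Y * aeval T r = aeval T r * Y := by
  induction r using Polynomial.induction_on' with
  | add p q hp hq => rw [map_add, mul_add, add_mul, hp, hq]
  | monomial n c =>
    rw [aeval_monomial]
    have hc : Commute Y T := h
    have h2 : Y * T ^ n = T ^ n * Y := (hc.pow_right n).eq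
    rw [Algebra.algebraMap_eq_smul_one, smul_mul_assoc, one_mul, mul_smul_comm, smul_mul_assoc, h2]

/-- The coprime factorisation gives a decomposition. -/
theorem dec_of_coprime (h2 : (2 : F) ≠ 0) (g : SP F) {T : M6 F} (hTs : ad T = T) (hTG : T * g.1 = g.1 * T)
    {f₁ f₂ : F[X]} (hco : IsCoprime f₁ f₂) (h0 : aeval T (f₁ * f₂) = 0) (h1 : aeval T f₁ ≠ 0)
    (h1' : aeval T f₂ ≠ 0) : Dec g := by
  classical
  obtain ⟨A, hA⟩ : ∃ A, A = aeval T f₁ := ⟨_, rfl⟩
  obtain ⟨B, hB⟩ : ∃ B, B = aeval T f₂ := ⟨_, rfl⟩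
  obtain ⟨u, w, huw⟩ := hco
  obtain ⟨U, hU⟩ : ∃ U, U = aeval T u := ⟨_, rfl⟩
  obtain ⟨W, hW⟩ : ∃ W, W = aeval T w := ⟨_, rfl⟩
  have hid : U * A + W * B = 1 := by
    have := congrArg (aeval T) huw
    rw [map_add, map_mul, map_mul, map_one] at this
    rw [hU, hA, hW, hB]
    exact this
  have hAB : A * B = 0 := by
    rw [hA, hB, ← map_mul]
    exact h0
  have hBA : B * A = 0 := by
    rw [hA, hB, ← map_mul, mul_comm, h0]
  have hWA : A * W = W * A := by
    rw [hA, hW, ← map_mul, ← map_mul, mul_comm]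
  have hUA : A * U = U * A := by
    rw [hA, hU, ← map_mul, ← map_mul, mul_comm]
  have hadUA : ad (U * A) = U * A := by
    rw [hU, hA, ← map_mul]
    exact ad_aeval hTs _
  have hGA : g.1 * A = A * g.1 := by
    rw [hA]
    exact comm_aeval6 hTG.symm _
  let K : Submodule F (V6 F) := LinearMap.ker (Matrix.mulVecLin A)
  have hK : ∀ x, x ∈ K ↔ A *ᵥ x = 0 := fun x => by simp [K]
  refine dec_of_stable h2 (W := K) ?_ ?_ ?_ ?_
  · intro x hx
    rw [hK] at hx ⊢
    rw [Cfsg.Agent.Lib.SpBasic.Sp_smul_def, Matrix.mulVec_mulVec, ← hGA, ← Matrix.mulVec_mulVec, hx, Matrix.mulVec_zero]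
  · intro x hx hxK
    apply eq_zero_of_ω_eq_zero
    intro z
    have hx' := (hK x).1 hx
    have e : z = (U * A) *ᵥ z + W *ᵥ (B *ᵥ z) := by
      rw [Matrix.mulVec_mulVec, ← Matrix.add_mulVec, hid, Matrix.one_mulVec]
    rw [e, ω_add_right]
    have t1 : ω x ((U * A) *ᵥ z) = 0 := by
      rw [ω_ad', hadUA, ← Matrix.mulVec_mulVec, hx', Matrix.mulVec_zero, ω_zero_left]
    have t2 : ω x (W *ᵥ (B *ᵥ z)) = 0 := by
      apply hxK
      rw [hK, Matrix.mulVec_mulVec, Matrix.mulVec_mulVec, hWA, mul_assoc, hAB, mul_zero, Matrix.zero_mulVec]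
    rw [t1, t2, add_zero]
  · intro hbot
    apply h1'
    rw [← hB]
    ext i j
    have h5 : (B *ᵥ (Pi.single j 1)) ∈ K := by
      rw [hK, Matrix.mulVec_mulVec, hAB, Matrix.zero_mulVec]
    rw [hbot, Submodule.mem_bot] at h5
    have := congrFun h5 i
    simpa using this
  · intro htop
    apply h1
    rw [← hA]
    ext i j
    have h5 : (Pi.single j 1 : V6 F) ∈ K := by
      rw [htop]
      trivial
    have := congrFun ((hK _).1 h5) i
    simpa using this

/-- A totally isotropic span. -/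
theorem ti_span {S : Set (V6 F)} (h : ∀ x ∈ S, ∀ y ∈ S, ω x y = 0) :
    ∀ x ∈ Submodule.span F S, ∀ y ∈ Submodule.span F S, ω x y = 0 := by
  have h1 : ∀ x ∈ S, ∀ y ∈ Submodule.span F S, ω x y = 0 := by
    intro x hx y hy
    induction hy using Submodule.span_induction with
    | mem y hy => exact h x hx y hy
    | zero => exact ω_zero_right x
    | add a c _ _ ha hc => rw [ω_add_right, ha, hc, add_zero]
    | smul r a _ ha => rw [ω_smul_right, ha, mul_zero]
  intro x hx y hy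
  induction hx using Submodule.span_induction with
  | mem x hx => exact h1 x hx y hy
  | zero => exact ω_zero_left y
  | add a c _ _ ha hc => rw [ω_add_left, ha, hc, add_zero]
  | smul r a _ ha => rw [ω_smul_left, ha, mul_zero]

/-- Any vector is killed by a nonzero polynomial in `T` of degree at most three. -/
theorem cyc_bound (h2 : (2 : F) ≠ 0) {T : M6 F} (hT : ad T = T) (w : V6 F) :
    ∃ f : F[X], f ≠ 0 ∧ f.natDegree ≤ 3 ∧ aeval T f *ᵥ w = 0 := by
  classical
  let Φ₀ : F[X] →ₗ[F] V6 F :=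
    { toFun := fun a => aeval T a *ᵥ w
      map_add' := by
        intro a c
        rw [map_add, Matrix.add_mulVec]
      map_smul' := by
        intro r a
        rw [map_smul, Matrix.smul_mulVec, RingHom.id_apply] }
  have hΦ₀ : ∀ a, Φ₀ a = aeval T a *ᵥ w := fun a => rfl
  have hti : ∀ x ∈ LinearMap.range Φ₀, ∀ y ∈ LinearMap.range Φ₀, ω x y = 0 := by
    rintro x ⟨a, rfl⟩ y ⟨c, rfl⟩
    rw [hΦ₀, hΦ₀, ω_ad, ad_aeval hT, Matrix.mulVec_mulVec, ← map_mul]
    exact alt_self h2 (ad_aeval hT _) w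
  have hle := ti_finrank_le _ hti
  let Φ := Φ₀.domRestrict (Polynomial.degreeLT F 4)
  have hker : LinearMap.ker Φ ≠ ⊥ := by
    intro hb
    have h1 : Module.finrank F (LinearMap.range Φ) = Module.finrank F (Polynomial.degreeLT F 4) :=
      LinearMap.finrank_range_of_inj (LinearMap.ker_eq_bot.1 hb)
    have h4 : Module.finrank F (Polynomial.degreeLT F 4) = 4 := by
      rw [(Polynomial.degreeLTEquiv F 4).finrank_eq]
      simp
    have h5 : LinearMap.range Φ ≤ LinearMap.range Φ₀ := by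
      rintro _ ⟨a, rfl⟩
      exact ⟨a.1, rfl⟩
    have h6 := Submodule.finrank_mono h5
    omega
  obtain ⟨a, ha, ha0⟩ := (Submodule.ne_bot_iff _).1 hker
  have ha0' : a.1 ≠ 0 := fun h => ha0 (Subtype.ext h)
  refine ⟨a.1, ha0', ?_, ?_⟩
  · have h1 := a.2
    rw [Polynomial.mem_degreeLT] at h1
    have h2 : a.1.natDegree < 4 := Polynomial.natDegree_lt_iff_degree_lt ha0' |>.2 (by exact_mod_cast h1)
    omega
  · exact LinearMap.mem_ker.1 ha

/-- The primary bound. -/
theorem primary_bound (h2 : (2 : F) ≠ 0) {T : M6 F} (hT : ad T = T) {p : F[X]} (hp : Irreducible p) {e : ℕ}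
    (h0 : aeval T (p ^ (e + 1)) = 0) (h1 : aeval T (p ^ e) ≠ 0) : (e + 1) * p.natDegree ≤ 3 := by
  classical
  have hw : ∃ w : V6 F, aeval T (p ^ e) *ᵥ w ≠ 0 := by
    by_contra hcon
    push_neg at hcon
    apply h1
    ext i j
    have := congrFun (hcon (Pi.single j 1)) i
    simpa using this
  obtain ⟨w, hw⟩ := hw
  obtain ⟨f, hf0, hfd, hfw⟩ := cyc_bound h2 hT w
  obtain ⟨d, hd⟩ : ∃ d, d = EuclideanDomain.gcd f (p ^ (e + 1)) := ⟨_, rfl⟩
  have hd1 : d ∣ f := by rw [hd]; exact EuclideanDomain.gcd_dvd_left _ _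
  have hd2 : d ∣ p ^ (e + 1) := by rw [hd]; exact EuclideanDomain.gcd_dvd_right _ _
  have hdw : aeval T d *ᵥ w = 0 := by
    rw [hd, EuclideanDomain.gcd_eq_gcd_ab, mul_comm f, map_add, map_mul, map_mul, Matrix.add_mulVec, h0, zero_mul,
      Matrix.zero_mulVec, add_zero, ← Matrix.mulVec_mulVec, hfw, Matrix.mulVec_zero]
  obtain ⟨i, hi, hass⟩ := (dvd_prime_pow hp.prime _).1 hd2
  have hie : i = e + 1 := by
    by_contra hne
    have hle : i ≤ e := by omega
    have h5 : d ∣ p ^ e := hass.dvd.trans (pow_dvd_pow p hle)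
    obtain ⟨k, hk⟩ := h5
    apply hw
    rw [hk, mul_comm d, map_mul, ← Matrix.mulVec_mulVec, hdw, Matrix.mulVec_zero]
  subst hie
  have h6 : p ^ (e + 1) ∣ f := hass.symm.dvd.trans hd1
  have h7 := Polynomial.natDegree_le_of_dvd h6 hf0
  rw [Polynomial.natDegree_pow] at h7
  omega

/-- The case of an irreducible cubic. -/
theorem case31 (h3 : (3 : F) = 0) {b : F} (hb : ∀ x : F, x ^ 3 - x ≠ -b ^ 3) (g : SP F) {T : M6 F} (hTs : ad T = T)
    (hTG : T * g.1 = g.1 * T) {p : F[X]} (hp : Irreducible p) (hd : p.natDegree = 3) (h0 : aeval T p = 0) :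
    ∃ z : SP F, z * g * z⁻¹ ∈ KK6 b := by
  have h2 : (2 : F) ≠ 0 := Cfsg.Agent.Lib.NC2U3.two_ne h3
  obtain ⟨r, hr⟩ := exists_comp_dvd hp (asP_irr hb) (by rw [hd, asP_natDegree])
  obtain ⟨θ, hθ⟩ : ∃ θ, θ = aeval T r := ⟨_, rfl⟩
  have hθ3 : θ ^ 3 = θ + (-b ^ 3) • (1 : M6 F) := by
    have h1 : aeval θ (asP (-b ^ 3)) = 0 := by
      rw [hθ, ← aeval_comp]
      obtain ⟨w, hw⟩ := hr
      rw [hw, map_mul, h0, zero_mul]
    simp only [asP, map_sub, map_pow, aeval_X, aeval_C, Algebra.algebraMap_eq_smul_one] at h1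
    rw [sub_sub, sub_eq_zero] at h1
    exact h1
  have hs : ad θ = θ := by rw [hθ]; exact ad_aeval hTs r
  obtain ⟨z, hz⟩ := conj_theta h2 hb hs hθ3 (ad_Th6 b) (Th6_cube h3 b)
  refine ⟨z, mem_KK6_of (i := 0) z g hz ?_⟩
  rw [zero_smul, add_zero, hθ]
  exact comm_aeval6 hTG.symm r

/-- The case of an irreducible quadratic does not occur. -/
theorem case21 (h2 : (2 : F) ≠ 0) {T : M6 F} (hTs : ad T = T) {p : F[X]} (hp : Irreducible p)
    (hd : p.natDegree = 2) (h0 : aeval T p = 0) : False := by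
  classical
  have hlead : p.coeff 2 ≠ 0 := by
    intro h
    have : p.leadingCoeff = 0 := by
      rw [Polynomial.leadingCoeff, hd, h]
    exact hp.ne_zero (Polynomial.leadingCoeff_eq_zero.1 this)
  obtain ⟨α, hα⟩ : ∃ α, α = -p.coeff 1 / p.coeff 2 := ⟨_, rfl⟩
  obtain ⟨β, hβ⟩ : ∃ β, β = -p.coeff 0 / p.coeff 2 := ⟨_, rfl⟩
  have hT2 : T * T = α • T + β • (1 : M6 F) := by
    have h1 : aeval T p = p.coeff 0 • (1 : M6 F) + p.coeff 1 • T + p.coeff 2 • (T * T) := by
      rw [Polynomial.aeval_eq_sum_range, hd, Finset.sum_range_succ, Finset.sum_range_succ, Finset.sum_range_succ,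
        Finset.sum_range_zero, zero_add, pow_zero, pow_one, pow_two]
    rw [h1] at h0
    have h3 : p.coeff 2 • (T * T) = p.coeff 2 • (α • T + β • (1 : M6 F)) := by
      rw [smul_add, smul_smul, smul_smul, hα, hβ, mul_div_cancel₀ _ hlead, mul_div_cancel₀ _ hlead, neg_smul, neg_smul]
      rw [← sub_eq_zero, ← h0]
      abel
    exact smul_right_injective _ hlead h3
  have hroot : ∀ x : F, x * x ≠ α * x + β := by
    intro x hx
    have hev : p.eval x = 0 := by
      rw [Polynomial.eval_eq_sum_range, hd, Finset.sum_range_succ, Finset.sum_range_succ, Finset.sum_range_succ,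
        Finset.sum_range_zero, zero_add, pow_zero, pow_one, pow_two, hx, hα, hβ]
      field_simp
      ring
    have h1 := Polynomial.degree_eq_one_of_irreducible_of_root hp hev
    have h4 : p.natDegree = 1 := Polynomial.natDegree_eq_of_degree_eq_some (by simpa using h1)
    rw [hd] at h4
    exact absurd h4 (by norm_num)
  have hTT : ∀ z : V6 F, T *ᵥ (T *ᵥ z) = α • (T *ᵥ z) + β • z := by
    intro z
    rw [Matrix.mulVec_mulVec, hT2, Matrix.add_mulVec, Matrix.smul_mulVec, Matrix.smul_mulVec, Matrix.one_mulVec]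
  have hstab : ∀ (W : Submodule F (V6 F)), (∀ x ∈ W, T *ᵥ x ∈ W) → ∀ (d e : F) (z : V6 F), (d ≠ 0 ∨ e ≠ 0) →
      d • z + e • (T *ᵥ z) ∈ W → z ∈ W := by
    intro W hW d e z hde hz
    obtain ⟨n, hn⟩ : ∃ n, n = d * d + d * e * α - e * e * β := ⟨_, rfl⟩
    have hn0 : n ≠ 0 := by
      intro h0'
      rw [h0'] at hn
      by_cases he : e = 0
      · subst he
        have hd0 : d ≠ 0 := by simpa using hde
        apply hd0
        have : d * d = 0 := by linear_combination -hn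
        exact mul_self_eq_zero.1 this
      · apply hroot (-d / e)
        field_simp
        linear_combination -hn
    have h1 : n • z = (d + e * α) • (d • z + e • (T *ᵥ z)) - e • (T *ᵥ (d • z + e • (T *ᵥ z))) := by
      rw [Matrix.mulVec_add, Matrix.mulVec_smul, Matrix.mulVec_smul, hTT, hn]
      module
    have h4 : n • z ∈ W := by
      rw [h1]
      exact W.sub_mem (W.smul_mem _ hz) (W.smul_mem _ (hW _ hz))
    have h5 := W.smul_mem n⁻¹ h4
    rwa [smul_smul, inv_mul_cancel₀ hn0, one_smul] at h5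
  obtain ⟨v₁, hv₁⟩ : ∃ v : V6 F, v ≠ 0 := ⟨Pi.single (.inl 0) 1, by
    intro h
    have := congrFun h (.inl 0)
    simp at this⟩
  let W₁ : Submodule F (V6 F) := Submodule.span F {v₁, T *ᵥ v₁}
  have hW₁ : ∀ x ∈ W₁, T *ᵥ x ∈ W₁ := by
    intro x hx
    obtain ⟨a, c, rfl⟩ := Submodule.mem_span_pair.1 hx
    rw [Matrix.mulVec_add, Matrix.mulVec_smul, Matrix.mulVec_smul, hTT]
    apply Submodule.mem_span_pair.2
    exact ⟨c * β, a + c * α, by module⟩
  have hnd : (bB : LinearMap.BilinForm F (V6 F)).Nondegenerate := Cfsg.Agent.Lib.SympWitt.sympB_nondeg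
  have hV : Module.finrank F (V6 F) = 6 := by simp
  have hf1 : Module.finrank F W₁ ≤ 2 := by
    have h1 := finrank_span_finset_le_card (R := F) ({v₁, T *ᵥ v₁} : Finset (V6 F))
    have h4 : (({v₁, T *ᵥ v₁} : Finset (V6 F)).card) ≤ 2 := Finset.card_le_two
    have e : ((({v₁, T *ᵥ v₁} : Finset (V6 F))) : Set (V6 F)) = {v₁, T *ᵥ v₁} := by simp
    rw [e] at h1
    exact h1.trans h4
  have hnle : ¬ (bB : LinearMap.BilinForm F (V6 F)).orthogonal W₁ ≤ W₁ := by
    intro hle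
    have h1 := Submodule.finrank_mono hle
    rw [LinearMap.BilinForm.finrank_orthogonal hnd W₁, hV] at h1
    omega
  obtain ⟨v₂, hv₂, hv₂'⟩ := SetLike.not_le_iff_exists.1 hnle
  have hort : ∀ y ∈ W₁, ω y v₂ = 0 := fun y hy => LinearMap.BilinForm.mem_orthogonal_iff.1 hv₂ y hy
  have m1 : v₁ ∈ W₁ := Submodule.subset_span (by simp)
  have m2 : T *ᵥ v₁ ∈ W₁ := Submodule.subset_span (by simp)
  have self : ∀ a c : V6 F, ω (T *ᵥ a) c = ω a (T *ᵥ c) := by
    intro a c
    rw [ω_ad, hTs]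
  let E : Fin 4 → V6 F := ![v₁, T *ᵥ v₁, v₂, T *ᵥ v₂]
  have hind : LinearIndependent F E := by
    rw [Fintype.linearIndependent_iff]
    intro c hc
    rw [Fin.sum_univ_four] at hc
    simp only [E, Matrix.cons_val_zero, Matrix.cons_val_one, Matrix.cons_val] at hc
    have h23 : c 2 = 0 ∧ c 3 = 0 := by
      by_contra hcon
      have hde : c 2 ≠ 0 ∨ c 3 ≠ 0 := by
        by_contra hh
        push_neg at hh
        exact hcon hh
      apply hv₂'
      apply hstab W₁ hW₁ (c 2) (c 3) v₂ hde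
      have e : c 2 • v₂ + c 3 • (T *ᵥ v₂) = -(c 0 • v₁ + c 1 • (T *ᵥ v₁)) := by
        rw [eq_neg_iff_add_eq_zero, ← hc]
        abel
      rw [e]
      exact W₁.neg_mem (W₁.add_mem (W₁.smul_mem _ m1) (W₁.smul_mem _ m2))
    have h01 : c 0 = 0 ∧ c 1 = 0 := by
      by_contra hcon
      have hde : c 0 ≠ 0 ∨ c 1 ≠ 0 := by
        by_contra hh
        push_neg at hh
        exact hcon hh
      apply hv₁
      have h5 : c 0 • v₁ + c 1 • (T *ᵥ v₁) ∈ (⊥ : Submodule F (V6 F)) := by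
        rw [Submodule.mem_bot]
        rw [h23.1, h23.2] at hc
        simpa using hc
      have := hstab ⊥ (by
        intro x hx
        rw [Submodule.mem_bot] at hx ⊢
        rw [hx, Matrix.mulVec_zero]) (c 0) (c 1) v₁ hde h5
      simpa using this
    intro i
    fin_cases i
    · exact h01.1
    · exact h01.2
    · exact h23.1
    · exact h23.2
  have hEti : ∀ x ∈ Set.range E, ∀ y ∈ Set.range E, ω x y = 0 := by
    have a1 : ω v₁ (T *ᵥ v₁) = 0 := alt_self h2 hTs v₁
    have a2 : ω v₂ (T *ᵥ v₂) = 0 := alt_self h2 hTs v₂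
    have a3 : ω v₁ v₂ = 0 := hort _ m1
    have a4 : ω (T *ᵥ v₁) v₂ = 0 := hort _ m2
    have a5 : ω v₁ (T *ᵥ v₂) = 0 := by rw [← self, a4]
    have a6 : ω (T *ᵥ v₁) (T *ᵥ v₂) = 0 := by
      rw [← self, hTT, ω_add_left, ω_smul_left, ω_smul_left, a3, a4]
      simp
    have flip : ∀ a c : V6 F, ω a c = 0 → ω c a = 0 := by
      intro a c h
      rw [ω_comm, h, neg_zero]
    rintro _ ⟨i, rfl⟩ _ ⟨j, rfl⟩
    fin_cases i <;> fin_cases j
    · exact ω_self _
    · exact a1
    · exact a3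
    · exact a5
    · exact flip _ _ a1
    · exact ω_self _
    · exact a4
    · exact a6
    · exact flip _ _ a3
    · exact flip _ _ a4
    · exact ω_self _
    · exact a2
    · exact flip _ _ a5
    · exact flip _ _ a6
    · exact flip _ _ a2
    · exact ω_self _
  have hfin := ti_finrank_le _ (ti_span hEti)
  rw [finrank_span_eq_card hind] at hfin
  simp at hfin

end Cfsg.Agent.Lib.NC2Sp6
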