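import Mathlib
import Cfsg.Agent.Lib.NC2SpF

/-!
`Sp₆` in characteristic three: the elements with `g + g⁻¹ = t + N`, `N` nilpotent.
-/

set_option autoImplicit false
set_option linter.unusedSectionVars false
set_option linter.unusedSimpArgs false
set_option linter.unusedVariables false
set_option linter.style.longLine false

namespace Cfsg.Agent.Lib.NC2Sp6

open Matrix Polynomial Cfsg.Agent.Lib.SpBasic Cfsg.Agent.Lib.NC2Cub Cfsg.Agent.Lib.NC2U3

variable {F : Type*} [Field F] [Fintype F]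

local notation "JJ" => (J (Fin 3) F)

theorem adN_of {g : SP F} {N : M6 F} {t : F} (hT : g.1 + ad g.1 = t • 1 + N) : ad N = N := by
  have h := congrArg ad hT
  rw [ad_add, ad_add, ad_ad, ad_smul, ad_one] at h
  have h2 : t • 1 + ad N = t • 1 + N := by rw [← h, ← hT]; abel
  exact add_left_cancel h2

theorem NG_of {g : SP F} {N : M6 F} {t : F} (hT : g.1 + ad g.1 = t • 1 + N) : N * g.1 = g.1 * N := by
  have h : N = g.1 + ad g.1 - t • 1 := by rw [hT]; abel
  rw [h]
  simp only [sub_mul, mul_sub, add_mul, mul_add, sp_ad, ad_sp, smul_mul_assoc, mul_smul_comm, one_mul, mul_one]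

theorem GG_of {g : SP F} {N : M6 F} {t : F} (hT : g.1 + ad g.1 = t • 1 + N) :
    g.1 * g.1 = t • g.1 + N * g.1 - 1 := by
  have h : ad g.1 = t • 1 + N - g.1 := by rw [← hT]; abel
  have h1 : g.1 * ad g.1 = 1 := sp_ad g
  rw [h, mul_sub, mul_add, mul_smul_comm, mul_one, ← NG_of hT] at h1
  rw [← h1]
  abel

theorem smul_sp (g : SP F) (x : V6 F) : g • x = g.1 *ᵥ x := Cfsg.Agent.Lib.SpBasic.Sp_smul_def g x

/-- A stable hyperbolic pair. -/
theorem dec_of_pair (g : SP F) {u : V6 F} {c d : F}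
    (h : g.1 *ᵥ (g.1 *ᵥ u) = c • (g.1 *ᵥ u) + d • u) (hu : ω u (g.1 *ᵥ u) ≠ 0) : Dec g := by
  classical
  refine ⟨Submodule.span F {u, g.1 *ᵥ u}, ?_, ?_, ?_⟩
  · have h1 := finrank_span_eq_card (pair_indep hu)
    have e : Set.range ![u, g.1 *ᵥ u] = {u, g.1 *ᵥ u} := by simp [Matrix.range_cons, Set.pair_comm]
    rw [e] at h1
    simpa using h1
  · intro x hx
    obtain ⟨a, k, rfl⟩ := Submodule.mem_span_pair.1 hx
    rw [smul_sp, Matrix.mulVec_add, Matrix.mulVec_smul, Matrix.mulVec_smul, h]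
    apply Submodule.mem_span_pair.2
    exact ⟨k * d, a + k * c, by module⟩
  · intro x hx hort
    obtain ⟨a, k, rfl⟩ := Submodule.mem_span_pair.1 hx
    have e1 := hort (g.1 *ᵥ u) (Submodule.subset_span (by simp))
    have e2 := hort u (Submodule.subset_span (by simp))
    simp only [ω_add_left, ω_smul_left, ω_self, mul_zero, add_zero] at e1
    have hu' : ω (g.1 *ᵥ u) u ≠ 0 := by
      intro h0
      apply hu
      rw [ω_comm, h0, neg_zero]
    simp only [ω_add_left, ω_smul_left, ω_self, mul_zero, zero_add] at e2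
    have ha := (mul_eq_zero.1 e1).resolve_right hu
    have hk := (mul_eq_zero.1 e2).resolve_right hu'
    rw [ha, hk]
    simp

/-- Polarisation: a form vanishing on the diagonal. -/
theorem polar_of {K : M6 F} (hK : ∀ v : V6 F, ω v (K *ᵥ v) = 0) (x y : V6 F) :
    ω x (K *ᵥ y) = - ω y (K *ᵥ x) := by
  have h1 := hK (x + y)
  rw [Matrix.mulVec_add, ω_add_left, ω_add_right, ω_add_right, hK x, hK y] at h1
  linear_combination h1

/-- A self-adjoint form that is alternating on the diagonal: `K = ad K`. -/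
theorem eq_ad_of {K : M6 F} (hK : ∀ v : V6 F, ω v (K *ᵥ v) = 0) : K = ad K := by
  ext i j
  have h : K *ᵥ (Pi.single j 1) = ad K *ᵥ (Pi.single j 1) := by
    rw [← sub_eq_zero]
    apply eq_zero_of_ω_eq_zero
    intro x
    rw [ω_sub_left, ω_comm (K *ᵥ _), polar_of hK x, ω_ad (ad K), ad_ad]
    ring
  have := congrFun h i
  simpa using this

/-- The case `g + g⁻¹ = t`. -/
theorem case11 (h2 : (2 : F) ≠ 0) (g : SP F) {t : F} (hT : g.1 + ad g.1 = t • 1) : Dec g ∨ g ∈ (HH6 : Subgroup (SP F)) := by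
  classical
  have hT' : g.1 + ad g.1 = t • 1 + 0 := by rw [add_zero, hT]
  by_cases hex : ∃ u : V6 F, ω u (g.1 *ᵥ u) ≠ 0
  · obtain ⟨u, hu⟩ := hex
    left
    refine dec_of_pair g (c := t) (d := -1) ?_ hu
    have := GG_of hT'
    rw [Matrix.mulVec_mulVec, this, zero_mul, add_zero, Matrix.sub_mulVec, Matrix.smul_mulVec, Matrix.one_mulVec]
    module
  · right
    push_neg at hex
    have h1 := eq_ad_of hex
    have h4 : (2 : F) • g.1 = t • 1 := by
      rw [two_smul, ← hT]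
      exact congrArg (fun X => g.1 + X) h1
    have h5 : g.1 = (t / 2) • (1 : M6 F) := by
      have := congrArg (fun X => (2 : F)⁻¹ • X) h4
      simp only [smul_smul, inv_mul_cancel₀ h2, one_smul] at this
      rw [this, div_eq_inv_mul]
    intro x hx
    rw [smul_sp, h5, Matrix.smul_mulVec, Matrix.one_mulVec]
    exact Submodule.smul_mem _ _ hx

/-- The frame spans. -/
theorem frame_span (h2 : (2 : F) ≠ 0) {N : M6 F} (hN : ad N = N) (hN3 : N * N * N = 0) {x y : V6 F}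
    (h : ω x (N *ᵥ (N *ᵥ y)) ≠ 0) (w : V6 F) :
    ∃ c : I6 → F, c (.inl 0) • x + c (.inl 1) • (N *ᵥ x) + c (.inl 2) • (N *ᵥ (N *ᵥ x)) + c (.inr 0) • y +
      c (.inr 1) • (N *ᵥ y) + c (.inr 2) • (N *ᵥ (N *ᵥ y)) = w := by
  classical
  let E : I6 → V6 F := Sum.elim ![x, N *ᵥ x, N *ᵥ (N *ᵥ x)] ![y, N *ᵥ y, N *ᵥ (N *ᵥ y)]
  have hE : ∀ c : I6 → F, col6 E *ᵥ c = c (.inl 0) • x + c (.inl 1) • (N *ᵥ x) + c (.inl 2) • (N *ᵥ (N *ᵥ x)) + c (.inr 0) • y +
      c (.inr 1) • (N *ᵥ y) + c (.inr 2) • (N *ᵥ (N *ᵥ y)) := by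
    intro c
    rw [col6_mulVec, Fintype.sum_sum_type, Fin.sum_univ_three, Fin.sum_univ_three]
    simp only [E, Sum.elim_inl, Sum.elim_inr, Matrix.cons_val_zero, Matrix.cons_val_one, Matrix.cons_val]
    abel
  have hinj : Function.Injective (col6 E).mulVec := by
    intro a c hac
    have h1 : col6 E *ᵥ (a - c) = 0 := by rw [Matrix.mulVec_sub, hac, sub_self]
    rw [hE] at h1
    exact sub_eq_zero.1 (frame_ind h2 hN hN3 h _ h1)
  have hsurj : Function.Surjective (col6 E).mulVec :=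
    Matrix.mulVec_surjective_iff_isUnit.2 (Matrix.mulVec_injective_iff_isUnit.1 hinj)
  obtain ⟨c, hc⟩ := hsurj w
  exact ⟨c, by rw [← hE]; exact hc⟩

/-- Elements with a Jordan block of size three in `g + g⁻¹`. -/
theorem case13 (h3 : (3 : F) = 0) {b : F} (hb : ∀ x : F, x ^ 3 - x ≠ -b ^ 3) (g : SP F) {N : M6 F} {t : F}
    (hT : g.1 + ad g.1 = t • 1 + N) (hN3 : N * N * N = 0) (hN2 : N * N ≠ 0) :
    ∃ z : SP F, z * g * z⁻¹ ∈ KK6 b := by
  classical
  have h2 : (2 : F) ≠ 0 := Cfsg.Agent.Lib.NC2U3.two_ne h3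
  by_cases hex : ∃ v : V6 F, ω v (N *ᵥ (N *ᵥ (g.1 *ᵥ v))) ≠ 0
  · obtain ⟨v, hv⟩ := hex
    exact cyc_case h3 hb g hT hN3 hv
  exfalso
  push_neg at hex
  have hadN := adN_of hT
  have hNG := NG_of hT
  have hGG := GG_of hT
  obtain ⟨G, hG⟩ : ∃ G, G = g.1 := ⟨_, rfl⟩
  rw [← hG] at hex hNG hGG hT
  obtain ⟨G', hG'⟩ : ∃ G', G' = ad G := ⟨_, rfl⟩
  rw [← hG'] at hT
  have hgg' : G * G' = 1 := by rw [hG', hG]; exact sp_ad g
  have hg'g : G' * G = 1 := by rw [hG', hG]; exact ad_sp g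
  have hG'e : G' = t • 1 + N - G := by rw [← hT]; abel
  have hNG' : N * G' = G' * N := by
    rw [hG'e]
    simp only [mul_sub, sub_mul, mul_add, add_mul, mul_smul_comm, smul_mul_assoc, mul_one, one_mul, hNG]
  have hK : ∀ v : V6 F, ω v ((N * N * G) *ᵥ v) = 0 := by
    intro v
    rw [← Matrix.mulVec_mulVec, ← Matrix.mulVec_mulVec]
    exact hex v
  have hKad := eq_ad_of hK
  have hadK : ad (N * N * G) = t • (N * N) - N * N * G := by
    rw [ad_mul, ad_mul, hadN, ← hG', hG'e]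
    have e1 : N * N * G = G * (N * N) := by
      rw [mul_assoc, hNG, ← mul_assoc, hNG, mul_assoc]
    have e2 : N * (N * N) = 0 := by rw [← mul_assoc, hN3]
    simp only [sub_mul, add_mul, smul_mul_assoc, one_mul, e2, add_zero]
    rw [e1]
  rw [hadK] at hKad
  obtain ⟨l, hl⟩ : ∃ l : F, l = t / 2 := ⟨_, rfl⟩
  have ht : t = 2 * l := by rw [hl]; field_simp
  have hKl : N * N * G = l • (N * N) := by
    have h4 : (2 : F) • (N * N * G) = t • (N * N) := by
      rw [two_smul]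
      nth_rw 1 [hKad]
      abel
    have h5 := congrArg (fun X => (2 : F)⁻¹ • X) h4
    simp only [smul_smul, inv_mul_cancel₀ h2, one_smul] at h5
    rw [h5, hl, div_eq_inv_mul]
  obtain ⟨P, hP⟩ : ∃ P, P = G - l • (1 : M6 F) := ⟨_, rfl⟩
  have hNNP : N * N * P = 0 := by
    rw [hP, mul_sub, hKl, mul_smul_comm, mul_one, sub_self]
  have hPN : P * N = N * P := by
    rw [hP, sub_mul, mul_sub, hNG]
    simp
  have hPP0 : P * P = N * G + (l * l - 1) • (1 : M6 F) := by
    rw [hP]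
    simp only [sub_mul, mul_sub, smul_mul_assoc, mul_smul_comm, one_mul, mul_one, hGG, ht]
    module
  have hl2 : l * l - 1 = 0 := by
    have h4 : N * N * (P * P) = 0 := by rw [← mul_assoc, hNNP, zero_mul]
    rw [hPP0, mul_add, mul_smul_comm, mul_one, ← mul_assoc, hN3, zero_mul, zero_add] at h4
    by_contra hne
    exact hN2 ((smul_eq_zero.1 h4).resolve_left hne)
  have hPP : P * P = N * G := by rw [hPP0, hl2, zero_smul, add_zero]
  -- the frame
  obtain ⟨x, y, hxy⟩ : ∃ x y : V6 F, ω x (N *ᵥ (N *ᵥ y)) ≠ 0 := by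
    by_contra hcon
    push_neg at hcon
    apply hN2
    ext i j
    have h5 : N *ᵥ (N *ᵥ (Pi.single j 1)) = 0 := by
      apply eq_zero_of_ω_eq_zero
      intro x
      rw [ω_comm, hcon, neg_zero]
    rw [Matrix.mulVec_mulVec] at h5
    have := congrFun h5 i
    simpa using this
  have n3 : ∀ z : V6 F, N *ᵥ (N *ᵥ (N *ᵥ z)) = 0 := by
    intro z
    rw [Matrix.mulVec_mulVec, Matrix.mulVec_mulVec, hN3, Matrix.zero_mulVec]
  have hvals : ∀ z : V6 F, ∃ a c : F, N *ᵥ (N *ᵥ z) = a • (N *ᵥ (N *ᵥ x)) + c • (N *ᵥ (N *ᵥ y)) ∧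
      ∃ z' : V6 F, z = a • x + c • y + N *ᵥ z' := by
    intro z
    obtain ⟨c, hc⟩ := frame_span h2 hadN hN3 hxy z
    refine ⟨c (.inl 0), c (.inr 0), ?_, c (.inl 1) • x + c (.inl 2) • (N *ᵥ x) + c (.inr 1) • y + c (.inr 2) • (N *ᵥ y), ?_⟩
    · rw [← hc]
      simp only [Matrix.mulVec_add, Matrix.mulVec_smul, n3, smul_zero, add_zero]
    · rw [← hc]
      simp only [Matrix.mulVec_add, Matrix.mulVec_smul]
      abel
  have hker : ∀ w : V6 F, N *ᵥ (N *ᵥ w) = 0 → ∃ z, w = N *ᵥ z := by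
    intro w hw
    obtain ⟨a, c, h4, z', h5⟩ := hvals w
    rw [hw] at h4
    have h6 := frame_ind h2 hadN hN3 hxy (Sum.elim ![0, 0, a] ![0, 0, c]) (by
      simp only [Sum.elim_inl, Sum.elim_inr, Matrix.cons_val_zero, Matrix.cons_val_one, Matrix.cons_val, zero_smul,
        zero_add, add_zero]
      exact h4.symm)
    have ha : a = 0 := by simpa using congrFun h6 (.inl 2)
    have hc : c = 0 := by simpa using congrFun h6 (.inr 2)
    exact ⟨z', by rw [h5, ha, hc]; simp⟩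
  have hPw : ∀ w : V6 F, ∃ z, P *ᵥ w = N *ᵥ z := by
    intro w
    apply hker
    rw [Matrix.mulVec_mulVec, Matrix.mulVec_mulVec, hNNP, Matrix.zero_mulVec]
  obtain ⟨z₁, hz₁⟩ := hPw x
  obtain ⟨z₂, hz₂⟩ := hPw z₁
  have e1 : (N * G) *ᵥ x = N *ᵥ (N *ᵥ z₂) := by
    rw [← hPP, ← Matrix.mulVec_mulVec, hz₁, Matrix.mulVec_mulVec, hPN, ← Matrix.mulVec_mulVec, hz₂]
  have e2 : N *ᵥ x = N *ᵥ (N *ᵥ (G' *ᵥ z₂)) := by
    have h4 : N *ᵥ x = G' *ᵥ ((N * G) *ᵥ x) := by
      rw [Matrix.mulVec_mulVec, hNG, ← mul_assoc, hg'g, one_mul]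
    rw [h4, e1, Matrix.mulVec_mulVec, Matrix.mulVec_mulVec, Matrix.mulVec_mulVec, Matrix.mulVec_mulVec,
      ← hNG', mul_assoc, ← hNG', mul_assoc]
  obtain ⟨a, c, h4, -⟩ := hvals (G' *ᵥ z₂)
  rw [h4] at e2
  have h6 := frame_ind h2 hadN hN3 hxy (Sum.elim ![0, 1, -a] ![0, 0, -c]) (by
    simp only [Sum.elim_inl, Sum.elim_inr, Matrix.cons_val_zero, Matrix.cons_val_one, Matrix.cons_val, zero_smul,
      zero_add, add_zero, one_smul, neg_smul]
    have e3 := sub_eq_zero.2 e2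
    rw [← e3]
    abel)
  have : (1 : F) = 0 := by simpa using congrFun h6 (.inl 1)
  exact one_ne_zero this

/-- The kernel of a self-adjoint operator has even dimension. -/
theorem even_ker (h2 : (2 : F) ≠ 0) {N : M6 F} (hN : ad N = N) :
    Even (Module.finrank F (LinearMap.ker (Matrix.mulVecLin N))) := by
  classical
  obtain ⟨K, hK⟩ : ∃ K, K = LinearMap.ker (Matrix.mulVecLin N) := ⟨_, rfl⟩
  rw [← hK]
  have hmem : ∀ x, x ∈ K ↔ N *ᵥ x = 0 := fun x => by simp [hK]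
  obtain ⟨W, hW⟩ := Submodule.exists_isCompl K
  have hS : (JJ * N)ᵀ = -(JJ * N) := by
    have h1 : JJ * N = Nᵀ * JJ := by
      nth_rw 1 [← hN]
      rw [ad]
      have : JJ * (-(JJ * Nᵀ * JJ)) = -((JJ * JJ) * Nᵀ * JJ) := by noncomm_ring
      rw [this, JJ_JJ]
      noncomm_ring
    rw [Matrix.transpose_mul, JJ_t, h1]
    noncomm_ring
  have hev := even_of_skew h2 hS W (by
    intro x hx hxW
    have h1 : ∀ y ∈ W, ω x (N *ᵥ y) = 0 := by
      intro y hy
      have := hxW y hy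
      rwa [← Matrix.mulVec_mulVec] at this
    have h4 : N *ᵥ x = 0 := by
      apply eq_zero_of_ω_eq_zero
      intro z
      rw [ω_ad, hN]
      have hz : z ∈ K ⊔ W := by rw [hW.sup_eq_top]; trivial
      obtain ⟨k, hk, c, hc, rfl⟩ := Submodule.mem_sup.1 hz
      rw [Matrix.mulVec_add, (hmem k).1 hk, zero_add]
      exact h1 c hc
    have h5 : x ∈ K ⊓ W := ⟨(hmem x).2 h4, hx⟩
    rw [hW.inf_eq_bot] at h5
    exact h5)
  have hsum := Submodule.finrank_add_eq_of_isCompl hW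
  have hV : Module.finrank F (V6 F) = 6 := by simp
  rw [hV] at hsum
  have h6 : Even (Module.finrank F K + Module.finrank F W) := by
    rw [hsum]
    decide
  exact (Nat.even_add.1 h6).2 hev

/-- The unipotent elements with `(g + g⁻¹ - 2)² = 0`. -/
theorem case12_two (h3 : (3 : F) = 0) (g : SP F) {N : M6 F}
    (hT : g.1 + ad g.1 = (2 : F) • 1 + N) (hN2 : N * N = 0) (hN0 : N ≠ 0) :
    Dec g ∨ ∃ z : SP F, z.1 * g.1 = P6 * z.1 := by
  classical
  have h2 : (2 : F) ≠ 0 := Cfsg.Agent.Lib.NC2U3.two_ne h3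
  have hadN := adN_of hT
  have hNG := NG_of hT
  have hGG := GG_of hT
  have hadg : ad g.1 * g.1 = 1 := ad_sp g
  have hadg' : g.1 * ad g.1 = 1 := sp_ad g
  obtain ⟨M, hM⟩ : ∃ M, M = g.1 - 1 := ⟨_, rfl⟩
  have hGM : g.1 = 1 + M := by rw [hM]; abel
  have hMM : M * M = N * g.1 := by
    rw [hM]
    simp only [sub_mul, mul_sub, one_mul, mul_one, hGG]
    rw [two_smul]
    abel
  have hNM : N * M = M * N := by
    rw [hM, mul_sub, sub_mul, hNG]
    simp
  have hadM : ad M = N - M := by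
    rw [hM, ad_sub, ad_one]
    have h1 : ad g.1 = (2 : F) • 1 + N - g.1 := by rw [← hT]; abel
    rw [h1, two_smul]
    abel
  have hNMM : N * (M * M) = 0 := by
    rw [hMM, ← mul_assoc, hN2, zero_mul]
  have hM4 : M * M * (M * M) = 0 := by
    rw [hMM]
    calc N * g.1 * (N * g.1) = N * (g.1 * N) * g.1 := by simp only [mul_assoc]
      _ = N * (N * g.1) * g.1 := by rw [hNG]
      _ = (N * N) * (g.1 * g.1) := by simp only [mul_assoc]
      _ = 0 := by rw [hN2, zero_mul]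
  have hMMne : M * M ≠ 0 := by
    intro h0
    apply hN0
    rw [hMM] at h0
    calc N = N * (g.1 * ad g.1) := by rw [hadg', mul_one]
      _ = (N * g.1) * ad g.1 := by rw [mul_assoc]
      _ = 0 := by rw [h0, zero_mul]
  by_cases hM3 : M * M * M = 0
  · right
    apply conj_J3 h2 h3
    · rw [← hM, pow_succ, pow_two]
      exact hM3
    · rw [← hM, pow_two]
      exact hMMne
  left
  have hadK : ad (M * M * M) = -(M * M * M) := by
    rw [ad_mul, ad_mul, hadM]
    have e1 : (N - M) * (N - M) = M * M - (N * M + N * M) := by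
      simp only [sub_mul, mul_sub, hN2, ← hNM]
      abel
    rw [e1]
    simp only [sub_mul, mul_sub, mul_add, add_mul, ← mul_assoc, hNMM]
    have e2 : N * N * M = 0 := by rw [hN2, zero_mul]
    have e3 : M * N * M = N * (M * M) := by rw [← hNM, mul_assoc]
    have e4 : N * M * M = N * (M * M) := by rw [mul_assoc]
    simp only [e2, e3, e4, hNMM]
    simp
  obtain ⟨v, hv⟩ : ∃ v : V6 F, ω v ((M * M * M) *ᵥ v) ≠ 0 := by
    by_contra hcon
    push_neg at hcon
    have h1 := eq_ad_of hcon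
    rw [hadK] at h1
    apply hM3
    have h4 : (2 : F) • (M * M * M) = 0 := by
      rw [two_smul]
      nth_rw 1 [h1]
      abel
    exact (smul_eq_zero.1 h4).resolve_left h2
  obtain ⟨c, hc⟩ : ∃ c, c = ω v ((M * M * M) *ᵥ v) := ⟨_, rfl⟩
  rw [← hc] at hv
  rw [← Matrix.mulVec_mulVec, ← Matrix.mulVec_mulVec] at hc
  have n_mm : ∀ z : V6 F, N *ᵥ (M *ᵥ (M *ᵥ z)) = 0 := by
    intro z
    rw [Matrix.mulVec_mulVec, Matrix.mulVec_mulVec, mul_assoc, hNMM, Matrix.zero_mulVec]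
  have m4 : ∀ z : V6 F, M *ᵥ (M *ᵥ (M *ᵥ (M *ᵥ z))) = 0 := by
    intro z
    have : M * (M * (M * M)) = 0 := by
      rw [← mul_assoc M M, hM4]
    rw [Matrix.mulVec_mulVec, Matrix.mulVec_mulVec, Matrix.mulVec_mulVec, mul_assoc, mul_assoc, this, Matrix.zero_mulVec]
  have self : ∀ a k : V6 F, ω (M *ᵥ a) k = ω a (N *ᵥ k) - ω a (M *ᵥ k) := by
    intro a k
    rw [ω_ad, hadM, Matrix.sub_mulVec, ω_sub_right]
  have a13 : ω (M *ᵥ v) (M *ᵥ (M *ᵥ (M *ᵥ v))) = 0 := by
    rw [self, n_mm, m4, ω_zero_right, sub_self]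
  have a12 : ω (M *ᵥ v) (M *ᵥ (M *ᵥ v)) = -c := by
    rw [self, n_mm, ω_zero_right, zero_sub, hc]
  have a23 : ω (M *ᵥ (M *ᵥ v)) (M *ᵥ (M *ᵥ (M *ᵥ v))) = 0 := by
    rw [self, n_mm, m4, ω_zero_right, sub_self]
  have flip : ∀ a k : V6 F, ω a k = 0 → ω k a = 0 := by
    intro a k h
    rw [ω_comm, h, neg_zero]
  let E : Fin 4 → V6 F := ![v, M *ᵥ v, M *ᵥ (M *ᵥ v), M *ᵥ (M *ᵥ (M *ᵥ v))]
  have hEmem : ∀ x, x ∈ Submodule.span F (Set.range E) ↔
      ∃ k : Fin 4 → F, k 0 • v + k 1 • (M *ᵥ v) + k 2 • (M *ᵥ (M *ᵥ v)) + k 3 • (M *ᵥ (M *ᵥ (M *ᵥ v))) = x := by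
    intro x
    rw [Submodule.mem_span_range_iff_exists_fun]
    simp only [Fin.sum_univ_four, E, Matrix.cons_val_zero, Matrix.cons_val_one, Matrix.cons_val]
  have hv0 : v ≠ 0 := by
    rintro rfl
    apply hv
    rw [hc]
    simp only [Matrix.mulVec_zero, ω_zero_left, ω_zero_right]
  apply dec_of_stable h2 (W := Submodule.span F (Set.range E))
  · intro x hx
    obtain ⟨k, rfl⟩ := (hEmem x).1 hx
    apply (hEmem _).2
    refine ⟨![k 0, k 0 + k 1, k 1 + k 2, k 2 + k 3], ?_⟩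
    rw [smul_sp, hGM]
    simp only [Matrix.add_mulVec, Matrix.one_mulVec, Matrix.mulVec_add, Matrix.mulVec_smul, m4, smul_zero, add_zero,
      Matrix.cons_val_zero, Matrix.cons_val_one, Matrix.cons_val]
    module
  · intro x hx hort
    obtain ⟨k, rfl⟩ := (hEmem x).1 hx
    have m0 : v ∈ Submodule.span F (Set.range E) := Submodule.subset_span ⟨0, rfl⟩
    have m1 : M *ᵥ v ∈ Submodule.span F (Set.range E) := Submodule.subset_span ⟨1, rfl⟩
    have m2 : M *ᵥ (M *ᵥ v) ∈ Submodule.span F (Set.range E) := Submodule.subset_span ⟨2, rfl⟩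
    have m3 : M *ᵥ (M *ᵥ (M *ᵥ v)) ∈ Submodule.span F (Set.range E) := Submodule.subset_span ⟨3, rfl⟩
    have e3 := hort _ m3
    have e2 := hort _ m2
    have e1 := hort _ m1
    have e0 := hort _ m0
    simp only [ω_add_left, ω_smul_left] at e0 e1 e2 e3
    rw [a13, a23, ω_self, ← hc] at e3
    have k0 : k 0 = 0 := by
      have : k 0 * c = 0 := by linear_combination e3
      exact (mul_eq_zero.1 this).resolve_right hv
    rw [a12, ω_self, flip _ _ a23, k0] at e2
    have k1 : k 1 = 0 := by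
      have : k 1 * c = 0 := by linear_combination -e2
      exact (mul_eq_zero.1 this).resolve_right hv
    have a21 : ω (M *ᵥ (M *ᵥ v)) (M *ᵥ v) = c := by rw [ω_comm, a12, neg_neg]
    rw [a21, flip _ _ a13, k0, k1] at e1
    have k2 : k 2 = 0 := by
      have : k 2 * c = 0 := by linear_combination e1
      exact (mul_eq_zero.1 this).resolve_right hv
    have a30 : ω (M *ᵥ (M *ᵥ (M *ᵥ v))) v = -c := by rw [ω_comm, ← hc]
    rw [a30, k0, k1, k2] at e0
    have k3 : k 3 = 0 := by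
      have : k 3 * c = 0 := by linear_combination -e0
      exact (mul_eq_zero.1 this).resolve_right hv
    rw [k0, k1, k2, k3]
    simp
  · intro hbot
    apply hv0
    have m0 : v ∈ Submodule.span F (Set.range E) := Submodule.subset_span ⟨0, rfl⟩
    rw [hbot] at m0
    exact m0
  · intro htop
    have h1 := finrank_range_le_card (R := F) E
    rw [Set.finrank, htop, finrank_top] at h1
    simp at h1

/-- The permutation lands in the normaliser. -/
theorem mem_KK6_P6 (h3 : (3 : F) = 0) (b : F) (z g : SP F) (hz : z.1 * g.1 = P6 * z.1) : z * g * z⁻¹ ∈ KK6 b := by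
  refine ⟨1, ?_⟩
  have hiz : z.1 * (z⁻¹).1 = 1 := by rw [← sp_mul, mul_inv_cancel, sp_one]
  have e : (z * g * z⁻¹).1 = P6 := by
    rw [sp_mul, sp_mul, hz, mul_assoc, hiz, mul_one]
  rw [e]
  exact P6_Th6 h3 b

open Cfsg.Agent.Lib.SpCenter in
theorem negOne_val (g : SP F) : ((negOne : SP F) * g).1 = -g.1 := by
  rw [sp_mul]
  show (-1 : M6 F) * g.1 = -g.1
  simp

open Cfsg.Agent.Lib.SpCenter in
/-- The case `(g + g⁻¹ - t)² = 0`. -/
theorem case12 (h3 : (3 : F) = 0) (b : F) (g : SP F) {N : M6 F} {t : F}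
    (hT : g.1 + ad g.1 = t • 1 + N) (hN2 : N * N = 0) (hN0 : N ≠ 0) :
    Dec g ∨ ∃ z : SP F, z * g * z⁻¹ ∈ KK6 b := by
  classical
  have h2 : (2 : F) ≠ 0 := Cfsg.Agent.Lib.NC2U3.two_ne h3
  have hadN := adN_of hT
  have hNG := NG_of hT
  have hGG := GG_of hT
  by_cases hex : ∃ u : V6 F, N *ᵥ u = 0 ∧ ω u (g.1 *ᵥ u) ≠ 0
  · obtain ⟨u, hu0, hu⟩ := hex
    left
    refine dec_of_pair g (c := t) (d := -1) ?_ hu
    rw [Matrix.mulVec_mulVec, hGG, Matrix.sub_mulVec, Matrix.add_mulVec, Matrix.smul_mulVec, Matrix.one_mulVec,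
      hNG, ← Matrix.mulVec_mulVec, hu0, Matrix.mulVec_zero, add_zero]
    module
  push_neg at hex
  have htt : t * t = 4 := by
    by_contra ht
    have hnd : (bB : LinearMap.BilinForm F (V6 F)).Nondegenerate := Cfsg.Agent.Lib.SympWitt.sympB_nondeg
    have hrefl : (bB : LinearMap.BilinForm F (V6 F)).IsRefl := by
      intro x y h
      rw [bB_apply] at h ⊢
      rw [ω_comm, h, neg_zero]
    obtain ⟨K, hK⟩ : ∃ K, K = LinearMap.ker (Matrix.mulVecLin N) := ⟨_, rfl⟩
    obtain ⟨R, hR⟩ : ∃ R, R = LinearMap.range (Matrix.mulVecLin N) := ⟨_, rfl⟩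
    have hmemK : ∀ x, x ∈ K ↔ N *ᵥ x = 0 := fun x => by simp [hK]
    have hmemR : ∀ x, x ∈ R ↔ ∃ y, N *ᵥ y = x := fun x => by simp [hR]
    have hOR : (bB : LinearMap.BilinForm F (V6 F)).orthogonal R = K := by
      ext x
      rw [LinearMap.BilinForm.mem_orthogonal_iff, hmemK]
      constructor
      · intro h
        apply eq_zero_of_ω_eq_zero
        intro y
        rw [ω_ad, hadN, ω_comm]
        have h9 : ω (N *ᵥ y) x = 0 := h _ ((hmemR _).2 ⟨y, rfl⟩)
        rw [h9, neg_zero]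
      · intro h y hy
        obtain ⟨z, rfl⟩ := (hmemR y).1 hy
        show ω (N *ᵥ z) x = 0
        rw [ω_ad, hadN, h, ω_zero_right]
    have hOK : (bB : LinearMap.BilinForm F (V6 F)).orthogonal K = R := by
      rw [← hOR]
      exact LinearMap.BilinForm.orthogonal_orthogonal hnd hrefl R
    have hKR : K ≤ R := by
      intro w hw
      have hw0 := (hmemK w).1 hw
      obtain ⟨A, hA⟩ : ∃ A, A = (2 : F) • g.1 - t • (1 : M6 F) := ⟨_, rfl⟩
      have hAw : A *ᵥ w ∈ R := by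
        rw [← hOK, LinearMap.BilinForm.mem_orthogonal_iff]
        intro u hu
        have hu0 := (hmemK u).1 hu
        show ω u (A *ᵥ w) = 0
        have h1 := hex (u + w) (by rw [Matrix.mulVec_add, hu0, hw0, add_zero])
        rw [Matrix.mulVec_add, ω_add_left, ω_add_right, ω_add_right, hex u hu0, hex w hw0] at h1
        have h4 : ω w (g.1 *ᵥ u) = ω (ad g.1 *ᵥ w) u := by
          rw [ω_ad (ad g.1), ad_ad]
        have h5 : ad g.1 *ᵥ w = t • w - g.1 *ᵥ w := by
          have : ad g.1 = t • 1 + N - g.1 := by rw [← hT]; abel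
          rw [this, Matrix.sub_mulVec, Matrix.add_mulVec, Matrix.smul_mulVec, Matrix.one_mulVec, hw0, add_zero]
        rw [h4, h5, ω_sub_left, ω_smul_left, ω_comm w u, ω_comm (g.1 *ᵥ w) u] at h1
        rw [hA, Matrix.sub_mulVec, Matrix.smul_mulVec, Matrix.smul_mulVec, Matrix.one_mulVec, ω_sub_right, ω_smul_right,
          ω_smul_right]
        linear_combination h1
      obtain ⟨y, hy⟩ := (hmemR _).1 hAw
      have hNA : N * A = A * N := by
        rw [hA]
        simp only [mul_sub, sub_mul, mul_smul_comm, smul_mul_assoc, mul_one, one_mul, hNG]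
      have hAA : A * A = (4 : F) • (N * g.1) + (t * t - 4) • (1 : M6 F) := by
        rw [hA]
        simp only [mul_sub, sub_mul, mul_smul_comm, smul_mul_assoc, mul_one, one_mul, hGG]
        module
      have hAAw : (t * t - 4) • w = N *ᵥ (A *ᵥ y) := by
        rw [Matrix.mulVec_mulVec, hNA, ← Matrix.mulVec_mulVec, hy, Matrix.mulVec_mulVec, hAA, Matrix.add_mulVec,
          Matrix.smul_mulVec, Matrix.smul_mulVec, Matrix.one_mulVec, hNG, ← Matrix.mulVec_mulVec, hw0, Matrix.mulVec_zero,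
          smul_zero, zero_add]
      have hne : t * t - 4 ≠ 0 := fun h => ht (sub_eq_zero.1 h)
      have h6 : w = N *ᵥ ((t * t - 4)⁻¹ • (A *ᵥ y)) := by
        rw [Matrix.mulVec_smul, ← hAAw, smul_smul, inv_mul_cancel₀ hne, one_smul]
      exact (hmemR _).2 ⟨_, h6.symm⟩
    have hRK : R ≤ K := by
      intro x hx
      obtain ⟨y, rfl⟩ := (hmemR x).1 hx
      rw [hmemK, Matrix.mulVec_mulVec, hN2, Matrix.zero_mulVec]
    have hEq : K = R := le_antisymm hKR hRK
    have hev := even_ker h2 hadN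
    have hrn := LinearMap.finrank_range_add_finrank_ker (Matrix.mulVecLin N)
    have hV : Module.finrank F (V6 F) = 6 := by simp
    rw [hV, ← hK, ← hR, ← hEq] at hrn
    rw [← hK] at hev
    obtain ⟨k, hk⟩ := hev
    omega
  have ht2 : t = 2 ∨ t = -2 := by
    have : (t - 2) * (t + 2) = 0 := by linear_combination htt
    rcases mul_eq_zero.1 this with h | h
    · exact Or.inl (sub_eq_zero.1 h)
    · exact Or.inr (eq_neg_of_add_eq_zero_left h)
  rcases ht2 with rfl | rfl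
  · rcases case12_two h3 g hT hN2 hN0 with h | ⟨z, hz⟩
    · exact Or.inl h
    · exact Or.inr ⟨z, mem_KK6_P6 h3 b z g hz⟩
  · have hT₁ : ((negOne : SP F) * g).1 + ad ((negOne : SP F) * g).1 = (2 : F) • 1 + (-N) := by
      rw [negOne_val, ad_neg]
      have : -g.1 + -ad g.1 = -(g.1 + ad g.1) := by abel
      rw [this, hT, neg_add, neg_smul, neg_neg]
    rcases case12_two h3 _ hT₁ (by rw [neg_mul_neg, hN2]) (neg_ne_zero.2 hN0) with h | ⟨z, hz⟩
    · left
      obtain ⟨U, hU2, hU, hUn⟩ := h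
      refine ⟨U, hU2, ?_, hUn⟩
      intro x hx
      have h1 := hU x hx
      rw [mul_smul, negOne_smul] at h1
      have h4 := U.neg_mem h1
      rwa [neg_neg] at h4
    · right
      refine ⟨z, ?_⟩
      have h1 := mem_KK6_P6 h3 b z _ hz
      have h4 : (negOne : SP F) ∈ KK6 b := center_le_KK6 b negOne_mem_center
      have h5 := (KK6 b).mul_mem h4 h1
      have e : (negOne : SP F) * (z * ((negOne : SP F) * g) * z⁻¹) = z * g * z⁻¹ := by
        have e1 : (z * ((negOne : SP F) * g) * z⁻¹).1 = -(z * g * z⁻¹).1 := by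
          rw [sp_mul, sp_mul, negOne_val, sp_mul, sp_mul, mul_neg, neg_mul]
        apply Subtype.ext
        rw [negOne_val, e1, neg_neg]
      rwa [e] at h5

end Cfsg.Agent.Lib.NC2Sp6
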