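import Mathlib
import Cfsg.Agent.Lib.NC2SpG

/-!
`Sp₆(3^a)` is the union of the conjugates of two proper subgroups containing the centre.
-/

set_option autoImplicit false
set_option linter.unusedSectionVars false
set_option linter.unusedSimpArgs false
set_option linter.unusedVariables false
set_option linter.style.longLine false

namespace Cfsg.Agent.Lib.NC2Sp6

open Matrix Polynomial Cfsg.Agent.Lib.SpBasic Cfsg.Agent.Lib.NC2Cub Cfsg.Agent.Lib.NC2U3

variable {F : Type*} [Field F] [Fintype F]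

/-- The covering by the two classes. -/
theorem covering (h3 : (3 : F) = 0) {b : F} (hb : ∀ x : F, x ^ 3 - x ≠ -b ^ 3) (g : SP F) :
    ∃ z : SP F, z * g * z⁻¹ ∈ (HH6 : Subgroup (SP F)) ∨ z * g * z⁻¹ ∈ KK6 b := by
  classical
  have h2 : (2 : F) ≠ 0 := Cfsg.Agent.Lib.NC2U3.two_ne h3
  have ofDec : Dec g → ∃ z : SP F, z * g * z⁻¹ ∈ (HH6 : Subgroup (SP F)) ∨ z * g * z⁻¹ ∈ KK6 b := by
    intro h
    obtain ⟨z, hz⟩ := exists_conj_of_Dec h
    exact ⟨z, Or.inl hz⟩
  have ofKK : (∃ z : SP F, z * g * z⁻¹ ∈ KK6 b) → ∃ z : SP F, z * g * z⁻¹ ∈ (HH6 : Subgroup (SP F)) ∨ z * g * z⁻¹ ∈ KK6 b := by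
    rintro ⟨z, hz⟩
    exact ⟨z, Or.inr hz⟩
  obtain ⟨T, hT⟩ : ∃ T, T = g.1 + ad g.1 := ⟨_, rfl⟩
  have hTs : ad T = T := by
    rw [hT, ad_add, ad_ad]
    abel
  have hTG : T * g.1 = g.1 * T := by
    rw [hT, add_mul, mul_add, sp_ad, ad_sp]
  have hint : IsIntegral F T := IsIntegral.of_finite F T
  have hm0 := minpoly.ne_zero hint
  have hm := minpoly.aeval F T
  obtain ⟨p, hp, hpm⟩ := WfDvdMonoid.exists_irreducible_factor (minpoly.not_isUnit F T) hm0
  have hfin : FiniteMultiplicity p (minpoly F T) := FiniteMultiplicity.of_not_isUnit hp.not_isUnit hm0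
  obtain ⟨c, hc, hnd⟩ := hfin.exists_eq_pow_mul_and_not_dvd
  obtain ⟨e, he⟩ : ∃ e, e = multiplicity p (minpoly F T) := ⟨_, rfl⟩
  rw [← he] at hc
  have he0 : e ≠ 0 := by
    rintro rfl
    rw [pow_zero, one_mul] at hc
    rw [hc] at hpm
    exact hnd hpm
  obtain ⟨k, rfl⟩ := Nat.exists_eq_succ_of_ne_zero he0
  have hcT : aeval T c ≠ 0 := by
    intro h
    exact hnd (hpm.trans (minpoly.dvd F T h))
  by_cases hP : aeval T (p ^ (k + 1)) = 0
  · have hP1 : aeval T (p ^ k) ≠ 0 := by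
      intro h
      have h1 := minpoly.dvd F T h
      have h4 : p ^ (k + 1) ∣ minpoly F T := ⟨c, hc⟩
      have h5 := Polynomial.natDegree_le_of_dvd (h4.trans h1) (pow_ne_zero _ hp.ne_zero)
      rw [Polynomial.natDegree_pow, Polynomial.natDegree_pow] at h5
      have h6 := hp.natDegree_pos
      nlinarith
    have hbd := primary_bound h2 hTs hp hP hP1
    have hd0 := hp.natDegree_pos
    obtain ⟨d, hd⟩ : ∃ d, d = p.natDegree := ⟨_, rfl⟩
    rw [← hd] at hbd hd0
    have hd3 : d ≤ 3 := by nlinarith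
    have hk3 : k ≤ 2 := by nlinarith
    interval_cases d
    · -- linear
      have hle : p.natDegree ≤ 1 := by omega
      have hpe := Polynomial.eq_X_add_C_of_natDegree_le_one hle
      obtain ⟨a, ha⟩ : ∃ a, a = p.coeff 1 := ⟨_, rfl⟩
      obtain ⟨a₀, ha₀⟩ : ∃ a₀, a₀ = p.coeff 0 := ⟨_, rfl⟩
      rw [← ha, ← ha₀] at hpe
      have ha0 : a ≠ 0 := by
        intro h
        rw [h, C_0, zero_mul, zero_add] at hpe
        rw [hpe, natDegree_C] at hd
        omega
      obtain ⟨t, ht⟩ : ∃ t, t = -a₀ / a := ⟨_, rfl⟩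
      obtain ⟨N, hN⟩ : ∃ N, N = T - t • (1 : M6 F) := ⟨_, rfl⟩
      have hTN : g.1 + ad g.1 = t • 1 + N := by
        rw [← hT, hN]
        abel
      have hevp : aeval T p = a • N := by
        rw [hpe, hN, ht]
        simp only [map_add, map_mul, aeval_C, aeval_X, Algebra.algebraMap_eq_smul_one, smul_mul_assoc, one_mul, smul_sub, smul_smul]
        rw [mul_div_cancel₀ _ ha0, neg_smul]
        abel
      have hevk : ∀ j : ℕ, aeval T (p ^ j) = a ^ j • N ^ j := by
        intro j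
        rw [map_pow, hevp, _root_.smul_pow]
      rw [hevk] at hP hP1
      have hN0 : N ^ (k + 1) = 0 := (smul_eq_zero.1 hP).resolve_left (pow_ne_zero _ ha0)
      have hN1 : N ^ k ≠ 0 := by
        intro h
        apply hP1
        rw [h, smul_zero]
      interval_cases k
      · rw [pow_one] at hN0
        rw [hN0, add_zero] at hTN
        rcases case11 h2 g hTN with h | h
        · exact ofDec h
        · exact ⟨1, Or.inl (by simpa using h)⟩
      · rw [pow_two] at hN0
        rw [pow_one] at hN1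
        rcases case12 h3 b g hTN hN0 hN1 with h | h
        · exact ofDec h
        · exact ofKK h
      · rw [pow_succ, pow_two] at hN0
        rw [pow_two] at hN1
        exact ofKK (case13 h3 hb g hTN hN0 hN1)
    · -- quadratic
      have hk0 : k = 0 := by omega
      subst hk0
      rw [zero_add, pow_one] at hP
      exact (case21 h2 hTs hp hd.symm hP).elim
    · -- cubic
      have hk0 : k = 0 := by omega
      subst hk0
      rw [zero_add, pow_one] at hP
      exact ofKK (case31 h3 hb g hTs hTG hp hd.symm hP)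
  · apply ofDec
    have hco : IsCoprime (p ^ (k + 1)) c := ((hp.coprime_iff_not_dvd).2 hnd).pow_left
    exact dec_of_coprime h2 g hTs hTG hco (by rw [← hc]; exact hm) hP hcT

/-- The main theorem. -/
theorem main (h3 : (3 : F) = 0) :
    ∃ H K : Subgroup (Matrix.symplecticGroup (Fin 3) F), Subgroup.center _ ≤ H ∧ Subgroup.center _ ≤ K ∧ H ≠ ⊤ ∧ K ≠ ⊤ ∧
      ∀ g, ∃ x, x * g * x⁻¹ ∈ H ∨ x * g * x⁻¹ ∈ K := by
  have h2 : (2 : F) ≠ 0 := Cfsg.Agent.Lib.NC2U3.two_ne h3
  obtain ⟨c, hc⟩ := exists_not_image h3 h2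
  obtain ⟨b, hb⟩ := exists_cube_root h3 (-c)
  have hb' : ∀ x : F, x ^ 3 - x ≠ -b ^ 3 := by
    intro x
    rw [hb, neg_neg]
    exact hc x
  have hb0 : b ≠ 0 := by
    rintro rfl
    apply hb' 0
    simp
  exact ⟨HH6, KK6 b, center_le_HH6, center_le_KK6 b, HH6_ne_top, KK6_ne_top hb0, fun g => covering h3 hb' g⟩

end Cfsg.Agent.Lib.NC2Sp6
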