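import Mathlib
import Cfsg.Agent.Lib.UWitt
import Cfsg.Agent.Lib.UnitarySU
import Cfsg.Agent.Lib.HermFrame
import Cfsg.Agent.Lib.HermOrtho
import Cfsg.Agent.Lib.NC2SpE
import Cfsg.Agent.Lib.NC2Lin

/-!
# Unitary groups: eigenvectors in dimension two, irreducible elements
-/

set_option autoImplicit false
set_option linter.unusedSectionVars false
set_option linter.unusedVariables false

namespace Cfsg.Agent.Lib.NC2U

open Module Matrix Polynomial Cfsg Cfsg.Agent.Lib.HermForm Cfsg.Agent.Lib.FFNorm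

variable {F : Type*} [Field F] [Fintype F] {q : ℕ}

section field

lemma ex_norm (hF : Fintype.card F = q ^ 2) {a : F} (ha : a ^ q = a) : ∃ μ : F, μ * μ ^ q = a := by
  have hq := two_le hF
  by_cases h0 : a = 0
  · refine ⟨0, ?_⟩
    rw [h0]; simp
  obtain ⟨x, -, hx⟩ := exists_norm_eq hF h0 ha
  exact ⟨x, by rw [← hx]; ring⟩

lemma ex_trace_one (hF : Fintype.card F = q ^ 2) : ∃ d : F, d + d ^ q = 1 := by
  obtain ⟨d, hd⟩ := Cfsg.Agent.Lib.UForm.exists_trace_one (Cfsg.Agent.H97.Asch.herm_unitary (n := 1) hF)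
  exact ⟨d, hd⟩

lemma ex_trace (hF : Fintype.card F = q ^ 2) {a : F} (ha : a ^ q = a) : ∃ s : F, s + s ^ q = a := by
  obtain ⟨d, hd⟩ := ex_trace_one hF
  refine ⟨a * d, ?_⟩
  rw [mul_pow, ha]
  linear_combination a * hd

lemma ex_traceless (hF : Fintype.card F = q ^ 2) : ∃ c : F, c ≠ 0 ∧ c + c ^ q = 0 := by
  obtain ⟨c, hc, hc2⟩ := Cfsg.Agent.Lib.UForm.exists_traceless (Cfsg.Agent.H97.Asch.herm_unitary (n := 1) hF)
  exact ⟨c, hc, hc2⟩

lemma one_pow_q (x : F) (hx : x = 1) : x ^ q = 1 := by rw [hx, one_pow]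

lemma two_pow_q (hF : Fintype.card F = q ^ 2) : (2 : F) ^ q = 2 := by
  have h := add_pow_q hF (1 : F) 1
  simpa [one_add_one_eq_two] using h

lemma neg_one_pow_q (hF : Fintype.card F = q ^ 2) : (-1 : F) ^ q = -1 := by
  rw [neg_pow_q hF, one_pow]

lemma pow_q_inv (hF : Fintype.card F = q ^ 2) {x : F} : (x⁻¹) ^ q = (x ^ q)⁻¹ := inv_pow x q

/-- A quadratic equation over the fixed field has a solution. -/
lemma exists_quad (hF : Fintype.card F = q ^ 2) {A C : F} (hA : A ^ q = A) (hC : C ^ q = C) :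
    ∃ τ : F, τ ^ 2 + A * τ = C := by
  have hq := two_le hF
  by_cases h2 : (2 : F) = 0
  · haveI : CharP F 2 := CharTwo.of_one_ne_zero_of_two_eq_zero one_ne_zero h2
    by_cases hA0 : A = 0
    · obtain ⟨r, hr⟩ := Cfsg.Agent.Lib.NC2SpE.exists_sqrt (F := F)
      exact ⟨r C, by rw [hr, hA0]; ring⟩
    · have hc : (C / A ^ 2) ^ q = C / A ^ 2 := by
        rw [div_pow, ← pow_mul, mul_comm 2 q, pow_mul, hC, hA]
      obtain ⟨t, ht⟩ := ex_trace hF hc
      have hmem : t + t ^ q ∈ (Cfsg.Agent.Lib.NC2SpE.wp (F := F)).range := by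
        by_cases ht0 : t ∈ (Cfsg.Agent.Lib.NC2SpE.wp (F := F)).range
        · obtain ⟨ρ, hρ⟩ := ht0
          have : t ^ q ∈ (Cfsg.Agent.Lib.NC2SpE.wp (F := F)).range := by
            refine ⟨ρ ^ q, ?_⟩
            rw [Cfsg.Agent.Lib.NC2SpE.wp_apply] at hρ ⊢
            rw [← hρ, add_pow_q hF, ← pow_mul, ← pow_mul, mul_comm]
          exact add_mem ⟨ρ, hρ⟩ this
        · have : t ^ q ∉ (Cfsg.Agent.Lib.NC2SpE.wp (F := F)).range := by
            rintro ⟨ρ, hρ⟩
            apply ht0
            refine ⟨ρ ^ q, ?_⟩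
            rw [Cfsg.Agent.Lib.NC2SpE.wp_apply] at hρ ⊢
            have h3 : t = (t ^ q) ^ q := (pow_pow_self hF t).symm
            rw [h3, ← hρ, add_pow_q hF, ← pow_mul, ← pow_mul, mul_comm]
          exact Cfsg.Agent.Lib.NC2SpE.add_mem_wp ht0 this
      rw [ht] at hmem
      obtain ⟨ρ, hρ⟩ := hmem
      rw [Cfsg.Agent.Lib.NC2SpE.wp_apply] at hρ
      refine ⟨A * ρ, ?_⟩
      have hA2 : A ^ 2 ≠ 0 := pow_ne_zero _ hA0
      have : C = A ^ 2 * (C / A ^ 2) := by field_simp
      rw [this, ← hρ]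
      ring
  · set D : F := C + A ^ 2 / 4 with hD
    have h4 : (4 : F) = 2 ^ 2 := by norm_num
    have h40 : (4 : F) ≠ 0 := by rw [h4]; exact pow_ne_zero _ h2
    have hDq : D ^ q = D := by
      rw [hD, add_pow_q hF, hC, div_pow, ← pow_mul, mul_comm 2 q, pow_mul, hA, h4, ← pow_mul, mul_comm 2 q,
        pow_mul, two_pow_q hF]
    obtain ⟨r, hr⟩ : ∃ r : F, r ^ 2 = D := by
      by_cases hD0 : D = 0
      · exact ⟨0, by rw [hD0]; ring⟩
      obtain ⟨x, -, hx⟩ := exists_norm_eq hF hD0 hDq
      obtain ⟨p, k, hpp, hp, hqp⟩ := exists_char_pow hF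
      have hodd : Odd q := by
        rw [hqp]
        apply Odd.pow
        apply hpp.odd_of_ne_two
        rintro rfl
        exact h2 (by
          have := CharP.cast_eq_zero F 2
          simpa using this)
      obtain ⟨m, hm⟩ := hodd
      refine ⟨x ^ (m + 1), ?_⟩
      rw [← hx, ← pow_mul, hm]
      congr 1
      ring
    refine ⟨r - A / 2, ?_⟩
    have : r ^ 2 * 4 = C * 4 + A ^ 2 := by
      rw [hr, hD]
      field_simp
    field_simp
    linear_combination this

end field

section eigen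

/-- In a two-dimensional space, a vector and a second independent one span. -/
lemma span_pair_top {V : Type*} [AddCommGroup V] [Module F V] (hd : finrank F V = 2) {x y : V} (hx : x ≠ 0)
    (hy : ∀ c : F, y ≠ c • x) (z : V) : ∃ a b : F, z = a • x + b • y := by
  classical
  have hli : LinearIndependent F ![x, y] := by
    rw [LinearIndependent.pair_iff]
    intro s t hst
    by_cases ht : t = 0
    · subst ht
      simp only [zero_smul, add_zero] at hst
      exact ⟨(smul_eq_zero.1 hst).resolve_right hx, rfl⟩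
    · exfalso
      apply hy (-(t⁻¹ * s))
      have h2 : t • y = (-s) • x := by
        rw [neg_smul]
        exact eq_neg_of_add_eq_zero_right hst
      calc y = t⁻¹ • (t • y) := by rw [smul_smul, inv_mul_cancel₀ ht, one_smul]
        _ = _ := by rw [h2, smul_smul]; congr 1; ring
  haveI : Module.Finite F V := Module.finite_of_finrank_pos (by omega)
  have hspan : Submodule.span F (Set.range ![x, y]) = ⊤ := by
    apply Submodule.eq_top_of_finrank_eq
    rw [finrank_span_eq_card hli, hd]
    simp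
  have hz : z ∈ Submodule.span F (Set.range ![x, y]) := by rw [hspan]; trivial
  obtain ⟨c, hc⟩ := (Submodule.mem_span_range_iff_exists_fun F).1 hz
  rw [Fin.sum_univ_two] at hc
  exact ⟨c 0, c 1, by simpa using hc.symm⟩

/-- An isometry of a non-degenerate two-dimensional Hermitian space has an eigenvector. -/
theorem exists_eigen (hF : Fintype.card F = q ^ 2) {V : Type*} [AddCommGroup V] [Module F V]
    [FiniteDimensional F V] {k : V → V → F} (hk : HermFrame.IsHerm q k) (hd : finrank F V = 2)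
    (B : V →ₗ[F] V) (hB : ∀ x y, k (B x) (B y) = k x y) :
    ∃ x, x ≠ 0 ∧ ∃ μ : F, B x = μ • x := by
  classical
  have hq := two_le hF
  obtain ⟨e, he⟩ := HermFrame.exists_equiv hF hd hk
  obtain ⟨a, ha⟩ := ex_norm hF (neg_one_pow_q hF)
  set w : V := e.symm ![1, a] with hw
  have hw0 : w ≠ 0 := by
    intro h
    have h1 : e w = ![1, a] := by rw [hw]; simp
    rw [h, map_zero] at h1
    have := congrFun h1 0
    simp at this
  have hww : k w w = 0 := by
    rw [he]
    have h1 : e w = ![1, a] := by rw [hw]; simp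
    rw [h1, hermForm, Fin.sum_univ_two]
    simp [ha]
  by_cases hdep : ∃ μ : F, B w = μ • w
  · exact ⟨w, hw0, hdep⟩
  push Not at hdep
  have hsp := span_pair_top hd hw0 hdep
  obtain ⟨β, α, hBB⟩ := hsp (B (B w))
  have hpow : ∀ x : F, (x ^ q) ^ q = x := pow_pow_self hF
  set b := k w (B w) with hb
  have hb' : k (B w) w = b ^ q := by rw [hb, hk.conj]
  have hb0 : b ≠ 0 := by
    intro h0
    apply hw0
    apply hk.nondeg
    intro y
    obtain ⟨c, d, rfl⟩ := hsp y
    rw [hk.add_right hF, hk.smul_right, hk.smul_right, hww, ← hb, h0]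
    ring
  have hbb : k (B w) (B w) = 0 := by rw [hB, hww]
  -- the two relations
  have E1 : β ^ q * b ^ q = b := by
    have h1 := hB w (B w)
    rw [hBB, hk.add_right hF, hk.smul_right, hk.smul_right, hb', hbb] at h1
    linear_combination h1
  have E2 : α * β ^ q * b ^ q + β * α ^ q * b = 0 := by
    have h1 := hB (B w) (B w)
    rw [hBB, hbb, hk.add_left, hk.add_right hF, hk.add_right hF, hk.smul_left, hk.smul_left, hk.smul_right,
      hk.smul_right, hk.smul_left, hk.smul_left, hk.smul_right, hk.smul_right, hww, hb', hbb, ← hb] at h1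
    linear_combination h1
  have E1' : β * b = b ^ q := by
    have := congrArg (fun x => x ^ q) E1
    simp only [mul_pow, hpow] at this
    exact this
  have E3 : α * b + α ^ q * b ^ q = 0 := by
    have h1 : α * (β ^ q * b ^ q) + α ^ q * (β * b) = 0 := by linear_combination E2
    rwa [E1, E1'] at h1
  obtain ⟨ω, hω0, hω⟩ := ex_traceless hF
  have hωq : ω ^ q = -ω := by linear_combination hω
  have hbq0 : b ^ q ≠ 0 := pow_ne_zero _ hb0
  set κ := b ^ q * ω with hκ
  have hκ0 : κ ≠ 0 := mul_ne_zero hbq0 hω0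
  have hκq : κ ^ q = - (b * ω) := by
    rw [hκ, mul_pow, hpow, hωq]
    ring
  have hA : (α / κ) ^ q = α / κ := by
    rw [div_pow, hκq, div_eq_div_iff (by rw [← hκq]; exact pow_ne_zero _ hκ0) hκ0, hκ]
    linear_combination ω * E3
  have hC : (β / κ ^ 2) ^ q = β / κ ^ 2 := by
    rw [div_pow, ← pow_mul, mul_comm 2 q, pow_mul, hκq,
      div_eq_div_iff (pow_ne_zero _ (by rw [← hκq]; exact pow_ne_zero _ hκ0)) (pow_ne_zero _ hκ0), hκ]
    have h1 : β ^ q * (b ^ q) ^ 2 = β * b ^ 2 := by
      calc β ^ q * (b ^ q) ^ 2 = (β ^ q * b ^ q) * b ^ q := by ring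
        _ = b * b ^ q := by rw [E1]
        _ = b * (β * b) := by rw [E1']
        _ = _ := by ring
    linear_combination ω ^ 2 * h1
  obtain ⟨τ, hτ⟩ := exists_quad hF hA hC
  set s := κ * τ with hs
  have hsq : s ^ 2 + α * s = β := by
    have h1 : κ ^ 2 * (τ ^ 2 + α / κ * τ) = κ ^ 2 * (β / κ ^ 2) := by rw [hτ]
    have h2 : κ ^ 2 * (β / κ ^ 2) = β := by field_simp
    have h3 : κ ^ 2 * (τ ^ 2 + α / κ * τ) = s ^ 2 + α * s := by
      rw [hs]; field_simp
    rw [← h3, h1, h2]
  refine ⟨B w + s • w, ?_, α + s, ?_⟩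
  · intro h0
    apply hdep (-s)
    rw [neg_smul]
    exact eq_neg_of_add_eq_zero_left h0
  · rw [map_add, map_smul, hBB, smul_add, smul_smul, add_smul]
    have : (α + s) * s = β := by rw [← hsq]; ring
    rw [this]
    abel

end eigen

section irr

variable {n : ℕ}

lemma herm_nondeg_right (hF : Fintype.card F = q ^ 2) {w : Fin n → F} (h : ∀ z, hermForm n F q z w = 0) :
    w = 0 := by
  by_contra h0
  obtain ⟨z, hz⟩ := exists_hermForm_ne_zero hF h0
  apply hz
  have h1 := hermForm_conj hF z w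
  rw [h z, zero_pow (by have := two_le hF; omega)] at h1
  exact h1.symm

lemma herm_nondeg_left (hF : Fintype.card F = q ^ 2) {w : Fin n → F} (h : ∀ z, hermForm n F q w z = 0) :
    w = 0 := by
  by_contra h0
  obtain ⟨z, hz⟩ := exists_hermForm_ne_zero hF h0
  exact hz (h z)

/-- The adjoint of a polynomial in a unitary matrix. -/
lemma adjoint_aeval (hF : Fintype.card F = q ^ 2) {A B : Matrix (Fin n) (Fin n) F}
    (hA : ∀ u v, hermForm n F q (A *ᵥ u) (A *ᵥ v) = hermForm n F q u v) (hAB : A * B = 1)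
    (a : F[X]) (x y : Fin n → F) :
    hermForm n F q (aeval A a *ᵥ x) y = hermForm n F q x (aeval B (a.map (frobQ hF)) *ᵥ y) := by
  have h1 : ∀ x y, hermForm n F q (A *ᵥ x) y = hermForm n F q x (B *ᵥ y) := by
    intro x y
    have : y = A *ᵥ (B *ᵥ y) := by rw [mulVec_mulVec, hAB, one_mulVec]
    nth_rw 1 [this]
    rw [hA]
  have h2 : ∀ (i : ℕ) (x y : Fin n → F), hermForm n F q ((A ^ i) *ᵥ x) y = hermForm n F q x ((B ^ i) *ᵥ y) := by
    intro i
    induction i with
    | zero => intro x y; simp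
    | succ i ih =>
      intro x y
      rw [pow_succ', pow_succ, ← mulVec_mulVec, ← mulVec_mulVec, h1, ih]
  induction a using Polynomial.induction_on' with
  | add a b ha hb =>
    rw [map_add, add_mulVec, hermForm_add_left, ha, hb, Polynomial.map_add, map_add, add_mulVec,
      hermForm_add_right hF]
  | monomial i c =>
    rw [aeval_monomial, map_monomial, aeval_monomial]
    simp only [Algebra.algebraMap_eq_smul_one, smul_mul_assoc, one_mul, smul_mulVec, frobQ_apply]
    rw [hermForm_smul_left, hermForm_smul_right, pow_pow_self hF, h2]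

variable (q) in
/-- The map `y ↦ (y⁻¹) ^ q`. -/
def Psi {L : Type*} [Field L] (y : L) : L := (y⁻¹) ^ q

lemma Psi_two {L : Type*} [Field L] (y : L) : Psi q (Psi q y) = y ^ (q ^ 2) := by
  simp only [Psi, inv_pow, inv_inv, ← pow_mul, sq]

lemma Psi_iter_two {L : Type*} [Field L] (m : ℕ) (y : L) : (Psi q)^[2 * m] y = y ^ (q ^ (2 * m)) := by
  induction m with
  | zero => simp
  | succ m ih =>
    rw [show 2 * (m + 1) = 2 + 2 * m by ring, Function.iterate_add_apply, ih]
    rw [Function.iterate_succ_apply, Function.iterate_one, Psi_two, pow_add, pow_mul, ← pow_mul, mul_comm]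

variable (p : F[X]) [Fact (Irreducible p)]

lemma adj_finite : Module.Finite F (AdjoinRoot p) :=
  (AdjoinRoot.powerBasis (Fact.out : Irreducible p).ne_zero).finite

lemma adj_finrank : finrank F (AdjoinRoot p) = p.natDegree := by
  rw [(AdjoinRoot.powerBasis (Fact.out : Irreducible p).ne_zero).finrank, AdjoinRoot.powerBasis_dim]

lemma adj_card (hF : Fintype.card F = q ^ 2) : Nat.card (AdjoinRoot p) = q ^ (2 * p.natDegree) := by
  haveI := adj_finite p
  rw [Module.natCard_eq_pow_finrank (K := F), adj_finrank, Nat.card_eq_fintype_card, hF, pow_mul]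

lemma exists_frobL (hF : Fintype.card F = q ^ 2) {L : Type*} [Field L] [Algebra F L] :
    ∃ Fr : L →+* L, ∀ z, Fr z = z ^ q := by
  obtain ⟨p₀, k, hpp, hp, rfl⟩ := exists_char_pow hF
  haveI : Fact p₀.Prime := ⟨hpp⟩
  haveI : CharP L p₀ := charP_of_injective_algebraMap (algebraMap F L).injective p₀
  exact ⟨iterateFrobenius L p₀ k, fun z => iterateFrobenius_def p₀ k z⟩

lemma Psi_injective (hF : Fintype.card F = q ^ 2) {L : Type*} [Field L] [Algebra F L] :
    Function.Injective (Psi q : L → L) := by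
  obtain ⟨Fr, hFr⟩ := exists_frobL (L := L) hF
  intro y z h
  simp only [Psi, ← hFr] at h
  exact inv_injective (Fr.injective h)

/-- The iterates of `Psi` at a root give back the root. -/
theorem irr_iter [NeZero n] (hF : Fintype.card F = q ^ 2) {A : Matrix (Fin n) (Fin n) F}
    (hA : ∀ u v, hermForm n F q (A *ᵥ u) (A *ᵥ v) = hermForm n F q u v)
    (hm : p.Monic) (hdeg : 2 ≤ p.natDegree) (h0 : aeval A p = 0) :
    ∃ k, 1 ≤ k ∧ k ≤ p.natDegree ∧ (Psi q)^[k] (AdjoinRoot.root p) = AdjoinRoot.root p := by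
  classical
  haveI : Nonempty (Fin n) := ⟨⟨0, Nat.pos_of_ne_zero (NeZero.ne n)⟩⟩
  have hirr : Irreducible p := Fact.out
  have hmin : ∀ a : F[X], aeval A a = 0 → p ∣ a := by
    intro a ha
    rw [minpoly.eq_of_irreducible_of_monic hirr h0 hm]
    exact minpoly.dvd _ _ ha
  set lam : AdjoinRoot p := AdjoinRoot.root p with hlam
  have hlam0 : lam ≠ 0 := by
    intro h
    rw [hlam, ← AdjoinRoot.mk_X, AdjoinRoot.mk_eq_zero] at h
    have := natDegree_le_of_dvd h X_ne_zero
    rw [natDegree_X] at this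
    omega
  obtain ⟨r, hr⟩ := AdjoinRoot.mk_surjective (lam⁻¹)
  have hrX : p ∣ r * X - 1 := by
    rw [← AdjoinRoot.mk_eq_zero, map_sub, map_mul, hr, AdjoinRoot.mk_X, map_one, ← hlam, inv_mul_cancel₀ hlam0, sub_self]
  set B := aeval A r with hB
  have hBA : B * A = 1 := by
    have h1 : aeval A (r * X - 1) = 0 := by
      obtain ⟨c, hc⟩ := hrX
      rw [hc, map_mul, h0, zero_mul]
    simpa [sub_eq_zero] using h1
  have hAB : A * B = 1 := mul_eq_one_comm.1 hBA
  have hbar : aeval B (p.map (frobQ hF)) = 0 := by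
    apply Matrix.mulVec_injective
    funext y
    rw [zero_mulVec]
    apply herm_nondeg_right hF
    intro z
    rw [← adjoint_aeval hF hA hAB, h0, zero_mulVec, hermForm_zero_left]
  have hdvd : p ∣ (p.map (frobQ hF)).comp r := by
    apply hmin
    rw [aeval_comp, ← hB, hbar]
  -- the relation in the field
  haveI := adj_finite p
  let alg := algebraMap F (AdjoinRoot p)
  have h1 : ((p.map (frobQ hF))).eval₂ alg lam⁻¹ = 0 := by
    rw [← AdjoinRoot.mk_eq_zero, Polynomial.comp, hom_eval₂, hr] at hdvd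
    exact hdvd
  obtain ⟨Fr, hFr⟩ := exists_frobL (L := AdjoinRoot p) hF
  have hFralg : ∀ c : F, Fr (alg (frobQ hF c)) = alg c := by
    intro c
    rw [hFr, ← map_pow, frobQ_apply, pow_pow_self hF]
  have h2 : p.eval₂ alg (Psi q lam) = 0 := by
    have h3 := congrArg Fr h1
    rw [map_zero, hom_eval₂, eval₂_map] at h3
    have h4 : ((Fr.comp alg).comp (frobQ hF)) = alg := by
      ext c
      exact hFralg c
    rw [h4, hFr] at h3
    exact h3
  -- all the iterates are roots
  have h3 : ∀ y : AdjoinRoot p, p.eval₂ alg y = 0 → p.eval₂ alg (Psi q y) = 0 := by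
    intro y hy
    let ψ : AdjoinRoot p →ₐ[F] AdjoinRoot p := AdjoinRoot.liftAlgHom p (Algebra.ofId F _) y hy
    have hψ : ψ lam = y := by
      exact AdjoinRoot.liftAlgHom_root _ _ _ _
    have h4 := congrArg ψ h2
    rw [map_zero] at h4
    have h5 : ψ (p.eval₂ alg (Psi q lam)) = p.eval₂ alg (ψ (Psi q lam)) := by
      exact (Polynomial.aeval_algHom_apply ψ (Psi q lam) p).symm
    rw [h5] at h4
    have h6 : ψ (Psi q lam) = Psi q y := by
      simp only [Psi, map_pow, map_inv₀, hψ]
    rwa [h6] at h4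
  have h4 : ∀ i : ℕ, p.eval₂ alg ((Psi q)^[i] lam) = 0 := by
    intro i
    induction i with
    | zero =>
      exact AdjoinRoot.eval₂_root p
    | succ i ih =>
      rw [Function.iterate_succ_apply']
      exact h3 _ ih
  -- pigeonhole
  let S : Finset (AdjoinRoot p) := (p.map alg).roots.toFinset
  have hScard : S.card ≤ p.natDegree := by
    calc S.card ≤ Multiset.card (p.map alg).roots := Multiset.toFinset_card_le _
      _ ≤ (p.map alg).natDegree := Polynomial.card_roots' _
      _ = p.natDegree := natDegree_map _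
  have hmaps : ∀ i ∈ (Finset.univ : Finset (Fin (p.natDegree + 1))), (Psi q)^[(i : ℕ)] lam ∈ S := by
    intro i _
    rw [Multiset.mem_toFinset, mem_roots (hm.map alg).ne_zero, IsRoot, eval_map]
    exact h4 i
  obtain ⟨i, -, j, -, hij, hEq⟩ := Finset.exists_ne_map_eq_of_card_lt_of_maps_to
    (by simp; omega) hmaps
  have key : ∀ a b : ℕ, a < b → (Psi q)^[a] lam = (Psi q)^[b] lam → (Psi q)^[b - a] lam = lam := by
    intro a b hab h
    have h5 : (Psi q)^[b] lam = (Psi q)^[a] ((Psi q)^[b - a] lam) := by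
      rw [← Function.iterate_add_apply]
      congr 1
      omega
    rw [h5] at h
    exact ((Psi_injective hF).iterate a h).symm
  have hi := i.2
  have hj := j.2
  rcases lt_or_gt_of_ne (fun h => hij (Fin.ext h) : (i : ℕ) ≠ j) with h | h
  · exact ⟨j - i, by omega, by omega, key _ _ h hEq⟩
  · exact ⟨i - j, by omega, by omega, key _ _ h hEq.symm⟩

/-- If the root is fixed by a power of the Frobenius map, then the degree is small. -/
lemma natDegree_le_of_root_pow (hF : Fintype.card F = q ^ 2) (m : ℕ) (hm0 : m ≠ 0)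
    (h : (AdjoinRoot.root p) ^ (q ^ (2 * m)) = AdjoinRoot.root p) : p.natDegree ≤ m := by
  classical
  have hq := two_le hF
  haveI := adj_finite p
  haveI : Finite (AdjoinRoot p) := Module.finite_of_finite F
  haveI := Fintype.ofFinite (AdjoinRoot p)
  obtain ⟨Fr, hFr⟩ := exists_frobL (L := AdjoinRoot p) hF
  have hFr2 : ∀ (i : ℕ) (z : AdjoinRoot p), (Fr ^ i) z = z ^ (q ^ i) := by
    intro i z
    induction i with
    | zero => simp
    | succ i ih =>
      rw [pow_succ', RingHom.mul_def, RingHom.comp_apply, ih, hFr, ← pow_mul, pow_succ]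
  have hc : ∀ c : F, c ^ (q ^ (2 * m)) = c := by
    intro c
    clear h
    induction m with
    | zero => simp
    | succ m ih =>
      by_cases hm : m = 0
      · subst hm
        simpa using pow_sq hF c
      · rw [show 2 * (m + 1) = 2 * m + 2 by ring, pow_add, pow_mul, ih hm, pow_sq hF]
  let φ : AdjoinRoot p →ₐ[F] AdjoinRoot p :=
    { toRingHom := Fr ^ (2 * m)
      commutes' := by
        intro c
        show (Fr ^ (2 * m)) _ = _
        rw [hFr2, ← map_pow, hc] }
  have hφ : φ = AlgHom.id F _ := by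
    apply AdjoinRoot.algHom_ext
    show (Fr ^ (2 * m)) _ = _
    rw [hFr2, h]
    rfl
  have hall : ∀ z : AdjoinRoot p, z ^ (q ^ (2 * m)) = z := by
    intro z
    have := congrArg (fun f : AdjoinRoot p →ₐ[F] AdjoinRoot p => f z) hφ
    show _ = _
    have h2 : φ z = z ^ (q ^ (2 * m)) := hFr2 _ _
    rw [← h2]
    exact this
  have h1 := Cfsg.Agent.H97.Asch.card_le_of_forall_pow (F := AdjoinRoot p) (Q := q ^ (2 * m))
    (Nat.one_lt_pow (by omega) (by omega)) hall
  rw [← Nat.card_eq_fintype_card, adj_card p hF] at h1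
  have h2 := (Nat.pow_le_pow_iff_right (by omega : 1 < q)).1 h1
  omega

end irr

end Cfsg.Agent.Lib.NC2U
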