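import Mathlib
import Cfsg.Agent.Lib.NC2U

/-!
# Every element of `GU₄` has a nonisotropic eigenvector or an invariant totally isotropic plane
-/

set_option autoImplicit false
set_option linter.unusedSectionVars false
set_option linter.unusedVariables false

namespace Cfsg.Agent.Lib.NC2U4

open Module Matrix Polynomial Cfsg Cfsg.Agent.Lib.HermForm Cfsg.Agent.Lib.FFNorm Cfsg.Agent.Lib.NC2U
  Cfsg.Agent.Lib.HermOrtho

variable {F : Type*} [Field F] [Fintype F] {q : ℕ}

section generic

variable {n : ℕ}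

lemma unitary_inj (hF : Fintype.card F = q ^ 2) {A : Matrix (Fin n) (Fin n) F}
    (hA : ∀ u v, hermForm n F q (A *ᵥ u) (A *ᵥ v) = hermForm n F q u v) {x : Fin n → F} (h : A *ᵥ x = 0) :
    x = 0 := by
  apply herm_nondeg_left hF
  intro z
  rw [← hA, h, hermForm_zero_left]

lemma herm_swap_zero (hF : Fintype.card F = q ^ 2) {x y : Fin n → F} (h : hermForm n F q x y = 0) :
    hermForm n F q y x = 0 := by
  rw [← hermForm_conj hF x y, h, zero_pow (by have := two_le hF; omega)]

lemma herm_self_pow (hF : Fintype.card F = q ^ 2) (x : Fin n → F) :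
    (hermForm n F q x x) ^ q = hermForm n F q x x := hermForm_conj hF x x

/-- An eigenvector from a root of the characteristic polynomial. -/
lemma eigen_of_root {A : Matrix (Fin n) (Fin n) F} {c : F} (hc : A.charpoly.IsRoot c) :
    ∃ v, v ≠ 0 ∧ A *ᵥ v = c • v := by
  have h1 := Matrix.mem_spectrum_of_isRoot_charpoly hc
  rw [spectrum.mem_iff, Matrix.isUnit_iff_isUnit_det, isUnit_iff_ne_zero, not_not] at h1
  obtain ⟨v, hv, hv2⟩ := Matrix.exists_mulVec_eq_zero_iff.2 h1
  refine ⟨v, hv, ?_⟩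
  have h3 : (algebraMap F (Matrix (Fin n) (Fin n) F) c) *ᵥ v = c • v := by
    rw [Algebra.algebraMap_eq_smul_one, smul_mulVec, one_mulVec]
  rw [sub_mulVec, h3] at hv2
  exact (sub_eq_zero.1 hv2).symm

/-- The hyperbolic partner of an isotropic vector. -/
lemma exists_partner (hF : Fintype.card F = q ^ 2) {v : Fin n → F} (hv : v ≠ 0) (hvv : hermForm n F q v v = 0) :
    ∃ f, hermForm n F q f v = 1 ∧ hermForm n F q v f = 1 ∧ hermForm n F q f f = 0 := by
  have hq := two_le hF
  have h1 : ∃ z, hermForm n F q z v ≠ 0 := by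
    by_contra hc
    push Not at hc
    exact hv (herm_nondeg_right hF hc)
  obtain ⟨z, hz⟩ := h1
  obtain ⟨y, hyv⟩ : ∃ y, hermForm n F q y v = 1 :=
    ⟨(hermForm n F q z v)⁻¹ • z, by rw [hermForm_smul_left, inv_mul_cancel₀ hz]⟩
  have hvy : hermForm n F q v y = 1 := by
    rw [← hermForm_conj hF y v, hyv, one_pow]
  have hyy : (- hermForm n F q y y) ^ q = - hermForm n F q y y := by
    rw [neg_pow_q hF, herm_self_pow hF]
  obtain ⟨τ, hτ⟩ := ex_trace hF hyy
  refine ⟨y + τ • v, ?_, ?_, ?_⟩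
  · rw [hermForm_add_left, hermForm_smul_left, hvv, hyv]; ring
  · rw [hermForm_add_right hF, hermForm_smul_right, hvv, hvy]; ring
  · rw [hermForm_add_left, hermForm_add_right hF, hermForm_add_right hF, hermForm_smul_left, hermForm_smul_left,
      hermForm_smul_right, hermForm_smul_right, hvv, hyv, hvy]
    linear_combination hτ

/-- The restriction of the form to a nondegenerate subspace. -/
lemma isHerm_sub (hF : Fintype.card F = q ^ 2) {U : Submodule F (Fin n → F)} (hU : ND q U) :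
    HermFrame.IsHerm q (fun x y : U => hermForm n F q (x : Fin n → F) y) where
  add_left := fun u u' v => by
    simp [hermForm_add_left]
  smul_left := fun c u v => by
    simp [hermForm_smul_left]
  conj := fun u v => hermForm_conj hF _ _
  nondeg := fun x hx => by
    have := hU x x.2 (fun v hv => hx ⟨v, hv⟩)
    exact Subtype.ext this

end generic

section four

local notation "h" => hermForm 4 F q

/-- The first alternative: a nonisotropic eigenvector. -/
def Alt1 (A : Matrix (Fin 4) (Fin 4) F) (q : ℕ) : Prop :=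
  ∃ (x : Fin 4 → F) (c : F), hermForm 4 F q x x ≠ 0 ∧ A *ᵥ x = c • x

/-- The second alternative: an invariant totally isotropic plane. -/
def Alt2 (A : Matrix (Fin 4) (Fin 4) F) (q : ℕ) : Prop :=
  ∃ a b : Fin 4 → F, a ≠ 0 ∧ (∀ c : F, b ≠ c • a) ∧ hermForm 4 F q a a = 0 ∧ hermForm 4 F q a b = 0 ∧
    hermForm 4 F q b b = 0 ∧ (∃ c₁ c₂ : F, A *ᵥ a = c₁ • a + c₂ • b) ∧ (∃ c₃ c₄ : F, A *ᵥ b = c₃ • a + c₄ • b)

/-- A vector `x` with `A x = μ x + c v` for an eigenvector `v` with another eigenvalue. -/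
lemma eig_of_ne (hF : Fintype.card F = q ^ 2) {A : Matrix (Fin 4) (Fin 4) F} {v x : Fin 4 → F} {lam μ c : F}
    (hvv : h v v = 0) (hAv : A *ᵥ v = lam • v) (hxv : h x v = 0) (hAx : A *ᵥ x = μ • x + c • v)
    (hne : μ ≠ lam) (hxx : h x x ≠ 0) : Alt1 A q := by
  have hμ : μ - lam ≠ 0 := sub_ne_zero.2 hne
  set d := c / (μ - lam) with hd
  have hvx : h v x = 0 := herm_swap_zero hF hxv
  refine ⟨x + d • v, μ, ?_, ?_⟩
  · rw [hermForm_add_left, hermForm_add_right hF, hermForm_add_right hF, hermForm_smul_left, hermForm_smul_left,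
      hermForm_smul_right, hermForm_smul_right, hvv, hxv, hvx]
    simpa using hxx
  · rw [mulVec_add, mulVec_smul, hAx, hAv, smul_add, smul_smul, smul_smul, add_assoc, ← add_smul]
    congr 2
    rw [hd]
    field_simp
    ring

/-- The case of an isotropic eigenvector. -/
theorem iso_case (hF : Fintype.card F = q ^ 2) {A : Matrix (Fin 4) (Fin 4) F}
    (hA : ∀ u v, h (A *ᵥ u) (A *ᵥ v) = h u v) {v : Fin 4 → F} {lam : F} (hv : v ≠ 0) (hvv : h v v = 0)
    (hAv : A *ᵥ v = lam • v) : Alt1 A q ∨ Alt2 A q := by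
  classical
  have hq := two_le hF
  have hlam : lam ≠ 0 := by
    rintro rfl
    rw [zero_smul] at hAv
    exact hv (unitary_inj hF hA hAv)
  obtain ⟨f, hfv, hvf, hff⟩ := exists_partner hF hv hvv
  -- the orthogonal complement of the hyperbolic plane
  let W : Submodule F (Fin 4 → F) := Submodule.span F {v, f}
  have hWmem : ∀ u ∈ W, ∃ a b : F, u = a • v + b • f := by
    intro u hu
    obtain ⟨a, b, hab⟩ := Submodule.mem_span_pair.1 hu
    exact ⟨a, b, hab.symm⟩
  have hWnd : ND q W := by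
    intro u hu hperp
    obtain ⟨a, b, rfl⟩ := hWmem u hu
    have h1 := hperp v (Submodule.subset_span (by simp))
    have h2 := hperp f (Submodule.subset_span (by simp))
    rw [hermForm_add_left, hermForm_smul_left, hermForm_smul_left, hvv, hfv] at h1
    rw [hermForm_add_left, hermForm_smul_left, hermForm_smul_left, hvf, hff] at h2
    have hb : b = 0 := by simpa using h1
    have ha : a = 0 := by simpa using h2
    simp [ha, hb]
  have hWfin : finrank F W = 2 := by
    have hli : LinearIndependent F ![v, f] := by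
      rw [LinearIndependent.pair_iff]
      intro s t hst
      have h1 := congrArg (fun z => h z v) hst
      have h2 := congrArg (fun z => h z f) hst
      simp only [hermForm_add_left, hermForm_smul_left, hvv, hfv, hvf, hff, hermForm_zero_left] at h1 h2
      constructor
      · simpa using h2
      · simpa using h1
    have h3 := finrank_span_eq_card hli
    have h4 : Set.range ![v, f] = {v, f} := by
      ext z
      simp only [Set.mem_range, Fin.exists_fin_two, Set.mem_insert_iff, Set.mem_singleton_iff,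
        Matrix.cons_val_zero, Matrix.cons_val_one, eq_comm]
    rw [h4] at h3
    simpa using h3
  obtain ⟨hUfin, hUnd⟩ := perp_props hF hWnd hWfin
  let U : Submodule F (Fin 4 → F) := perp (q := q) W
  have hUfin' : finrank F U = 2 := by
    rw [hUfin]
  have hUmem : ∀ u, u ∈ U ↔ h u v = 0 ∧ h u f = 0 := by
    intro u
    constructor
    · intro hu
      exact ⟨hu v (Submodule.subset_span (by simp)), hu f (Submodule.subset_span (by simp))⟩
    · rintro ⟨h1, h2⟩ z hz
      obtain ⟨a, b, rfl⟩ := hWmem z hz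
      rw [hermForm_add_right hF, hermForm_smul_right, hermForm_smul_right, h1, h2]
      ring
  have hAperp : ∀ x, h x v = 0 → h (A *ᵥ x) v = 0 := by
    intro x hx
    have h1 : v = A *ᵥ (lam⁻¹ • v) := by
      rw [mulVec_smul, hAv, smul_smul, inv_mul_cancel₀ hlam, one_smul]
    rw [h1, hA, hermForm_smul_right, hx, mul_zero]
  -- the induced map on `U`
  let P : U →ₗ[F] U :=
    { toFun := fun x => ⟨A *ᵥ (x : Fin 4 → F) - (h (A *ᵥ (x : Fin 4 → F)) f) • v, by
        rw [hUmem]
        have hx := (hUmem x).1 x.2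
        constructor
        · rw [hermForm_sub_left, hermForm_smul_left, hvv, hAperp _ hx.1]
          ring
        · rw [hermForm_sub_left, hermForm_smul_left, hvf]
          ring⟩
      map_add' := by
        intro x y
        apply Subtype.ext
        simp only [Submodule.coe_add, mulVec_add, hermForm_add_left, add_smul]
        abel
      map_smul' := by
        intro c x
        apply Subtype.ext
        simp only [Submodule.coe_smul, mulVec_smul, hermForm_smul_left, RingHom.id_apply, smul_sub, smul_smul] }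
  have hPval : ∀ x : U, ((P x : U) : Fin 4 → F) = A *ᵥ (x : Fin 4 → F) - (h (A *ᵥ (x : Fin 4 → F)) f) • v := fun x => rfl
  have hPiso : ∀ x y : U, h ((P x : U) : Fin 4 → F) ((P y : U) : Fin 4 → F) = h (x : Fin 4 → F) y := by
    intro x y
    rw [hPval, hPval, hermForm_sub_left, hermForm_sub_right hF, hermForm_sub_right hF, hA, hermForm_smul_left,
      hermForm_smul_right, hermForm_smul_right, hermForm_smul_left, hvv,
      hAperp _ ((hUmem y).1 y.2).1 |> fun h0 => (herm_swap_zero hF h0), hAperp _ ((hUmem x).1 x.2).1]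
    ring
  haveI : FiniteDimensional F U := inferInstance
  obtain ⟨x, hx0, μ, hPx⟩ := exists_eigen hF (isHerm_sub hF hUnd) hUfin' P hPiso
  -- notation for the vector
  have hxU := (hUmem x).1 x.2
  set x' : Fin 4 → F := (x : Fin 4 → F) with hx'
  have hx'0 : x' ≠ 0 := fun h0 => hx0 (Subtype.ext h0)
  set c := h (A *ᵥ x') f with hc
  have hAx : A *ᵥ x' = μ • x' + c • v := by
    have h1 := congrArg (Subtype.val) hPx
    rw [hPval] at h1
    have h2 : A *ᵥ x' - c • v = μ • x' := h1
    rw [← h2]; abel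
  have hindep : ∀ z : Fin 4 → F, z ∈ U → z ≠ 0 → ∀ d : F, z ≠ d • v := by
    intro z hz hz0 d hd
    have h1 := ((hUmem z).1 hz).2
    rw [hd, hermForm_smul_left, hvf, mul_one] at h1
    apply hz0
    rw [hd, h1, zero_smul]
  by_cases hxx : h x' x' = 0
  · right
    exact ⟨v, x', hv, hindep x' x.2 hx'0, hvv, herm_swap_zero hF hxU.1, hxx, ⟨lam, 0, by simp [hAv]⟩,
      ⟨c, μ, by rw [hAx, add_comm]⟩⟩
  by_cases hμ : μ = lam
  swap
  · left
    exact eig_of_ne hF hvv hAv hxU.1 hAx hμ hxx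
  -- now the second vector
  obtain ⟨z, hz⟩ : ∃ z : U, ∀ c : F, c • x ≠ z := by
    by_contra hc'
    push Not at hc'
    have := finrank_le_one x hc'
    omega
  obtain ⟨y', hy'U, hy'x, hy'0⟩ : ∃ y' : Fin 4 → F, y' ∈ U ∧ h y' x' = 0 ∧ y' ≠ 0 := by
    refine ⟨(z : Fin 4 → F) - (h (z : Fin 4 → F) x' / h x' x') • x', U.sub_mem z.2 (U.smul_mem _ x.2), ?_, ?_⟩
    · rw [hermForm_sub_left, hermForm_smul_left]
      field_simp
      ring
    · intro h0
      apply hz (h (z : Fin 4 → F) x' / h x' x')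
      apply Subtype.ext
      have := sub_eq_zero.1 h0
      exact this.symm
  -- `x', y'` span `U`
  have hspan : ∀ w : U, ∃ a b : F, (w : Fin 4 → F) = a • x' + b • y' := by
    intro w
    obtain ⟨a, b, hab⟩ := span_pair_top hUfin' hx0 (y := ⟨y', hy'U⟩) (by
      intro d hd
      have h1 := congrArg Subtype.val hd
      have h2 : y' = d • x' := h1
      rw [h2, hermForm_smul_left] at hy'x
      have hd0 : d = 0 := by simpa [hxx] using hy'x
      apply hy'0
      rw [h2, hd0, zero_smul]) w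
    exact ⟨a, b, congrArg Subtype.val hab⟩
  have hy'y' : h y' y' ≠ 0 := by
    intro h0
    apply hy'0
    apply hUnd y' hy'U
    intro w hw
    obtain ⟨a, b, hab⟩ := hspan ⟨w, hw⟩
    have hab' : w = a • x' + b • y' := hab
    rw [hab', hermForm_add_right hF, hermForm_smul_right, hermForm_smul_right, hy'x, h0]
    ring
  have hy'U2 := (hUmem y').1 hy'U
  -- the action on `y'`
  let y₀ : U := ⟨y', hy'U⟩
  obtain ⟨a, b, hab⟩ := hspan (P y₀)
  have hPy : h ((P y₀ : U) : Fin 4 → F) x' = 0 := by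
    have h1 := hPiso y₀ x
    have h2 : ((P x : U) : Fin 4 → F) = μ • x' := congrArg Subtype.val hPx
    rw [h2, hermForm_smul_right] at h1
    have h3 : h (y₀ : Fin 4 → F) x' = 0 := hy'x
    rw [h3, hμ] at h1
    have hpow : lam ^ q ≠ 0 := pow_ne_zero _ hlam
    exact (mul_eq_zero.1 h1).resolve_left hpow
  have ha0 : a = 0 := by
    rw [hab, hermForm_add_left, hermForm_smul_left, hermForm_smul_left, hy'x] at hPy
    simpa [hxx] using hPy
  set c' := h (A *ᵥ y') f with hc'
  have hAy : A *ᵥ y' = b • y' + c' • v := by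
    have h1 := hPval y₀
    rw [hab, ha0, zero_smul, zero_add] at h1
    have h2 : b • y' = A *ᵥ y' - c' • v := h1
    rw [h2]; abel
  by_cases hb : b = lam
  swap
  · left
    exact eig_of_ne hF hvv hAv hy'U2.1 hAy hb hy'y'
  -- the fixed combination
  set t := c' • x' - c • y' with ht
  have hAt : A *ᵥ t = lam • t := by
    rw [ht, mulVec_sub, mulVec_smul, mulVec_smul, hAx, hAy, hμ, hb]
    module
  have htU : t ∈ U := U.sub_mem (U.smul_mem _ x.2) (U.smul_mem _ hy'U)
  by_cases ht0 : t = 0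
  · -- then `x'` is an eigenvector
    have hc0 : c' = 0 := by
      have h1 := congrArg (fun z => h z x') ht0
      simp only [ht, hermForm_sub_left, hermForm_smul_left, hy'x, hermForm_zero_left] at h1
      simpa [hxx] using h1
    have hcc : c = 0 := by
      have h1 := congrArg (fun z => h z y') ht0
      simp only [ht, hermForm_sub_left, hermForm_smul_left, hermForm_zero_left, hc0] at h1
      simpa [hy'y'] using h1
    left
    refine ⟨x', lam, hxx, ?_⟩
    rw [hAx, hcc, hμ]
    simp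
  by_cases htt : h t t = 0
  · right
    exact ⟨v, t, hv, hindep t htU ht0, hvv, herm_swap_zero hF ((hUmem t).1 htU).1, htt, ⟨lam, 0, by simp [hAv]⟩,
      ⟨0, lam, by simp [hAt]⟩⟩
  · left
    exact ⟨t, lam, htt, hAt⟩

/-- The case without eigenvectors. -/
theorem noeig_case (hF : Fintype.card F = q ^ 2) {A : Matrix (Fin 4) (Fin 4) F}
    (hA : ∀ u v, h (A *ᵥ u) (A *ᵥ v) = h u v) (hno : ∀ (x : Fin 4 → F) (c : F), x ≠ 0 → A *ᵥ x ≠ c • x) :
    Alt2 A q := by
  classical
  have hq := two_le hF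
  have hroot : ∀ c, ¬ A.charpoly.IsRoot c := by
    intro c hc
    obtain ⟨v, hv, hv2⟩ := eigen_of_root hc
    exact hno v c hv hv2
  have hint : IsIntegral F A := Matrix.isIntegral A
  have hm0 : minpoly F A ≠ 0 := minpoly.ne_zero hint
  obtain ⟨p, hpm, hpi, s, hs⟩ := exists_monic_irreducible_factor (minpoly F A) (minpoly.not_isUnit F A)
  haveI : Fact (Irreducible p) := ⟨hpi⟩
  have hs0 : s ≠ 0 := by
    rintro rfl
    simp at hs
    exact hm0 hs
  have hpχ : p ∣ A.charpoly := (Dvd.intro _ hs.symm).trans (Matrix.minpoly_dvd_charpoly A)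
  obtain ⟨ns, hn1, hn2, hn3, hn4⟩ := Cfsg.Agent.Lib.NC2Lin.deg_facts (Matrix.charpoly_monic A) hroot hpi hpχ
  have hdegχ : A.charpoly.natDegree = 4 := by
    simp [Matrix.charpoly_natDegree_eq_dim]
  rw [hdegχ] at hn1
  have hnp : p.natDegree = 2 ∨ p.natDegree = 4 := by omega
  rcases hnp with hnp | hnp
  swap
  · -- irreducible characteristic polynomial: impossible
    exfalso
    have hpA : aeval A p = 0 := by
      obtain ⟨s₂, hs₂⟩ := hpχ
      have h1 : s₂.natDegree = 0 := by
        have h2 : s₂ ≠ 0 := by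
          rintro rfl
          have := Matrix.charpoly_monic A
          rw [hs₂, mul_zero] at this
          simp at this
        have h3 := natDegree_mul hpi.ne_zero h2
        rw [← hs₂] at h3
        omega
      have h2 : s₂.Monic := by
        apply Monic.of_mul_monic_left hpm
        rw [← hs₂]
        exact Matrix.charpoly_monic A
      have h3 : s₂ = 1 := (Monic.natDegree_eq_zero h2).1 h1
      rw [h3, mul_one] at hs₂
      rw [← hs₂]
      exact Matrix.aeval_self_charpoly A
    obtain ⟨k, hk1, hk2, hk3⟩ := irr_iter p hF hA hpm (by omega) hpA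
    rw [hnp] at hk2
    have hk12 : k ∣ 12 := by
      interval_cases k <;> decide
    have h12 : (Psi q)^[12] (AdjoinRoot.root p) = AdjoinRoot.root p := by
      have : Function.IsPeriodicPt (Psi q) k (AdjoinRoot.root p) := hk3
      exact this.trans_dvd hk12
    rw [show 12 = 2 * 6 by norm_num, Psi_iter_two] at h12
    haveI := adj_finite p
    haveI : Finite (AdjoinRoot p) := Module.finite_of_finite F
    haveI := Fintype.ofFinite (AdjoinRoot p)
    have h8 : (AdjoinRoot.root p) ^ (q ^ 8) = AdjoinRoot.root p := by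
      have h1 := FiniteField.pow_card (AdjoinRoot.root p)
      rw [← Nat.card_eq_fintype_card, adj_card p hF, hnp] at h1
      exact h1
    have h4 : (AdjoinRoot.root p) ^ (q ^ (2 * 2)) = AdjoinRoot.root p := by
      have h5 : (AdjoinRoot.root p) ^ (q ^ (2 * 6)) = ((AdjoinRoot.root p) ^ (q ^ 8)) ^ (q ^ 4) := by
        rw [← pow_mul, ← pow_add]
      rw [h5, h8] at h12
      exact h12
    have := natDegree_le_of_root_pow p hF 2 (by norm_num) h4
    omega
  -- a root of the quadratic factor in the kernel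
  have hsA : aeval A s ≠ 0 := by
    intro h0
    have h1 := minpoly.dvd F A h0
    have h2 := natDegree_le_of_dvd h1 hs0
    rw [hs, natDegree_mul hpi.ne_zero hs0] at h2
    omega
  obtain ⟨u, hu⟩ : ∃ u, aeval A s *ᵥ u ≠ 0 := by
    by_contra hc
    push Not at hc
    apply hsA
    apply Matrix.mulVec_injective
    funext u
    rw [hc u, zero_mulVec]
  obtain ⟨w, hu, hpw⟩ : ∃ w : Fin 4 → F, w ≠ 0 ∧ aeval A p *ᵥ w = 0 := by
    refine ⟨aeval A s *ᵥ u, hu, ?_⟩
    rw [mulVec_mulVec, ← map_mul, ← hs, minpoly.aeval, zero_mulVec]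
  -- expand
  have hpq := eq_quadratic_of_degree_le_two (p := p) (by rw [degree_eq_natDegree hpi.ne_zero, hnp]; rfl)
  have hp2 : p.coeff 2 = 1 := by
    have : p.leadingCoeff = 1 := hpm
    rw [leadingCoeff, hnp] at this
    exact this
  set α := - p.coeff 1 with hα
  set β := - p.coeff 0 with hβ
  have hA2 : A *ᵥ (A *ᵥ w) = α • (A *ᵥ w) + β • w := by
    rw [hpq, hp2] at hpw
    simp only [map_add, map_mul, aeval_C, aeval_X, map_pow, add_mulVec, map_one, Algebra.algebraMap_eq_smul_one,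
      smul_mul_assoc, one_mul, smul_mulVec, one_smul, one_mulVec] at hpw
    have h1 : (A ^ 2) *ᵥ w = A *ᵥ (A *ᵥ w) := by
      rw [sq, mulVec_mulVec]
    rw [h1] at hpw
    rw [hα, hβ]
    have h2 := congrArg id hpw
    rw [neg_smul, neg_smul]
    have h3 : A *ᵥ (A *ᵥ w) = - (p.coeff 1 • (A *ᵥ w) + p.coeff 0 • w) := by
      rw [eq_neg_iff_add_eq_zero, ← add_assoc]
      exact hpw
    rw [h3]
    abel
  have hw0 : w ≠ 0 := hu
  have hAw0 : A *ᵥ w ≠ 0 := fun h0 => hw0 (unitary_inj hF hA h0)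
  have hnoAw : ∀ c : F, A *ᵥ w ≠ c • w := fun c => hno w c hw0
  have hβ0 : β ≠ 0 := by
    intro h0
    rw [h0, zero_smul, add_zero] at hA2
    exact hno _ α hAw0 hA2
  -- the invariant plane
  let U : Submodule F (Fin 4 → F) := Submodule.span F {w, A *ᵥ w}
  have hUmem : ∀ y, y ∈ U ↔ ∃ a b : F, a • w + b • (A *ᵥ w) = y := fun y => Submodule.mem_span_pair
  have hUfin : finrank F U = 2 := by
    have hli : LinearIndependent F ![w, A *ᵥ w] := by
      rw [LinearIndependent.pair_iff]
      intro s t hst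
      by_cases ht : t = 0
      · subst ht
        simp only [zero_smul, add_zero] at hst
        exact ⟨(smul_eq_zero.1 hst).resolve_right hw0, rfl⟩
      · exfalso
        apply hnoAw (-(t⁻¹ * s))
        have h2 : t • (A *ᵥ w) = (-s) • w := by
          rw [neg_smul]
          exact eq_neg_of_add_eq_zero_right hst
        calc A *ᵥ w = t⁻¹ • (t • (A *ᵥ w)) := by rw [smul_smul, inv_mul_cancel₀ ht, one_smul]
          _ = _ := by rw [h2, smul_smul]; congr 1; ring
    have h3 := finrank_span_eq_card hli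
    have h4 : Set.range ![w, A *ᵥ w] = {w, A *ᵥ w} := by
      ext z
      simp only [Set.mem_range, Fin.exists_fin_two, Set.mem_insert_iff, Set.mem_singleton_iff,
        Matrix.cons_val_zero, Matrix.cons_val_one, eq_comm]
    rw [h4] at h3
    simpa using h3
  have hUinv : ∀ y ∈ U, A *ᵥ y ∈ U := by
    intro y hy
    obtain ⟨a, b, rfl⟩ := (hUmem y).1 hy
    rw [hUmem]
    refine ⟨b * β, a + b * α, ?_⟩
    rw [mulVec_add, mulVec_smul, mulVec_smul, hA2]
    module
  have hUsurj : ∀ y ∈ U, ∃ y' ∈ U, A *ᵥ y' = y := by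
    intro y hy
    obtain ⟨a, b, rfl⟩ := (hUmem y).1 hy
    refine ⟨(a * β⁻¹) • ((A *ᵥ w) - α • w) + b • w, ?_, ?_⟩
    · rw [hUmem]
      refine ⟨b - a * β⁻¹ * α, a * β⁻¹, ?_⟩
      module
    · rw [mulVec_add, mulVec_smul, mulVec_smul, mulVec_sub, mulVec_smul, hA2]
      have : (a * β⁻¹) • (α • (A *ᵥ w) + β • w - α • (A *ᵥ w)) = a • w := by
        rw [add_sub_cancel_left, smul_smul, mul_assoc, inv_mul_cancel₀ hβ0, mul_one]
      rw [this]
  by_cases hND : ND q U
  · exfalso
    let B : U →ₗ[F] U :=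
      { toFun := fun y => ⟨A *ᵥ (y : Fin 4 → F), hUinv y y.2⟩
        map_add' := fun x y => Subtype.ext (by
          show A *ᵥ ((x : Fin 4 → F) + y) = A *ᵥ (x : Fin 4 → F) + A *ᵥ (y : Fin 4 → F)
          exact mulVec_add _ _ _)
        map_smul' := fun c x => Subtype.ext (by
          show A *ᵥ (c • (x : Fin 4 → F)) = c • A *ᵥ (x : Fin 4 → F)
          exact mulVec_smul _ _ _) }
    obtain ⟨x, hx0, μ, hx⟩ := exists_eigen hF (isHerm_sub hF hND) hUfin B (fun x y => hA _ _)
    apply hno x μ (fun h0 => hx0 (Subtype.ext h0))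
    exact congrArg Subtype.val hx
  · -- a nonzero radical vector
    unfold ND at hND
    push Not at hND
    obtain ⟨r, hrU, hr, hr0⟩ := hND
    have hAr : ∀ y ∈ U, h (A *ᵥ r) y = 0 := by
      intro y hy
      obtain ⟨y', hy', rfl⟩ := hUsurj y hy
      rw [hA, hr y' hy']
    have hrad : ∀ y ∈ U, ∀ z ∈ U, h y z = 0 := by
      intro y hy z hz
      -- `r` and `A r` span `U`
      let r₀ : U := ⟨r, hrU⟩
      have hsp := span_pair_top hUfin (x := r₀) (y := ⟨A *ᵥ r, hUinv r hrU⟩)
        (fun h0 => hr0 (congrArg Subtype.val h0))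
        (fun c hc => hno r c hr0 (congrArg Subtype.val hc))
      obtain ⟨a, b, hab⟩ := hsp ⟨y, hy⟩
      have hab' : y = a • r + b • (A *ᵥ r) := congrArg Subtype.val hab
      rw [hab', hermForm_add_left, hermForm_smul_left, hermForm_smul_left, hr z hz, hAr z hz]
      ring
    have hwU : w ∈ U := Submodule.subset_span (by simp)
    have hAwU : A *ᵥ w ∈ U := hUinv w hwU
    exact ⟨w, A *ᵥ w, hw0, hnoAw, hrad _ hwU _ hwU, hrad _ hwU _ hAwU, hrad _ hAwU _ hAwU,
      ⟨0, 1, by simp⟩, ⟨β, α, by rw [hA2, add_comm]⟩⟩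

/-- The classification. -/
theorem classify (hF : Fintype.card F = q ^ 2) {A : Matrix (Fin 4) (Fin 4) F}
    (hA : ∀ u v, h (A *ᵥ u) (A *ᵥ v) = h u v) : Alt1 A q ∨ Alt2 A q := by
  by_cases hno : ∀ (x : Fin 4 → F) (c : F), x ≠ 0 → A *ᵥ x ≠ c • x
  · exact Or.inr (noeig_case hF hA hno)
  · push Not at hno
    obtain ⟨x, c, hx0, hx⟩ := hno
    by_cases hxx : h x x = 0
    · exact iso_case hF hA hx0 hxx hx
    · exact Or.inl ⟨x, c, hxx, hx⟩

end four

section group

variable {n : ℕ}

/-- The stabiliser of a subspace in `SU`. -/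
def stabS (q : ℕ) (W : Submodule F (Fin n → F)) : Subgroup (SU n F q) where
  carrier := {s | ∀ v, v ∈ W ↔ (s.1.1 : Matrix (Fin n) (Fin n) F) *ᵥ v ∈ W}
  mul_mem' := by
    intro a b ha hb v
    have : ((a * b).1.1 : Matrix (Fin n) (Fin n) F) *ᵥ v = a.1.1 *ᵥ (b.1.1 *ᵥ v) := by
      rw [mulVec_mulVec]
      rfl
    rw [this, ← ha, ← hb]
  one_mem' := by
    intro v
    have : ((1 : SU n F q).1.1 : Matrix (Fin n) (Fin n) F) = 1 := rfl
    rw [this, one_mulVec]
  inv_mem' := by
    intro a ha v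
    have h1 : ∀ w : Fin n → F, (a.1.1 : Matrix (Fin n) (Fin n) F) *ᵥ ((a⁻¹).1.1 *ᵥ w) = w := by
      intro w
      rw [mulVec_mulVec]
      have : (a.1.1 : Matrix (Fin n) (Fin n) F) * (a⁻¹).1.1 = ((a * a⁻¹).1.1 : Matrix (Fin n) (Fin n) F) := rfl
      rw [this, mul_inv_cancel]
      exact one_mulVec _
    have h2 := ha ((a⁻¹).1.1 *ᵥ v)
    rw [h1] at h2
    exact h2.symm

lemma su_inv_mulVec (a : SU n F q) (w : Fin n → F) :
    (a.1.1 : Matrix (Fin n) (Fin n) F) *ᵥ ((a⁻¹).1.1 *ᵥ w) = w := by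
  rw [mulVec_mulVec]
  have : (a.1.1 : Matrix (Fin n) (Fin n) F) * (a⁻¹).1.1 = ((a * a⁻¹).1.1 : Matrix (Fin n) (Fin n) F) := rfl
  rw [this, mul_inv_cancel]
  exact one_mulVec _

lemma su_mulVec_inv (a : SU n F q) (w : Fin n → F) :
    ((a⁻¹).1.1 : Matrix (Fin n) (Fin n) F) *ᵥ (a.1.1 *ᵥ w) = w := by
  rw [mulVec_mulVec]
  have : ((a⁻¹).1.1 : Matrix (Fin n) (Fin n) F) * a.1.1 = ((a⁻¹ * a).1.1 : Matrix (Fin n) (Fin n) F) := rfl
  rw [this, inv_mul_cancel]
  exact one_mulVec _

lemma su_conj_mulVec (x g : SU n F q) (v : Fin n → F) :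
    ((x * g * x⁻¹).1.1 : Matrix (Fin n) (Fin n) F) *ᵥ v = x.1.1 *ᵥ (g.1.1 *ᵥ ((x⁻¹).1.1 *ᵥ v)) := by
  rw [mulVec_mulVec, mulVec_mulVec]
  rfl

/-- An injective map preserving a subspace: the inverse image is contained in the subspace. -/
lemma mem_of_mulVec_mem {A : Matrix (Fin n) (Fin n) F} (hA : ∀ x, A *ᵥ x = 0 → x = 0)
    {W : Submodule F (Fin n → F)} (hW : ∀ v ∈ W, A *ᵥ v ∈ W) {v : Fin n → F} (hv : A *ᵥ v ∈ W) : v ∈ W := by
  let R : W →ₗ[F] W := (Matrix.mulVecLin A).restrict hW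
  have hinj : Function.Injective R := by
    rw [injective_iff_map_eq_zero]
    intro y hy
    apply Subtype.ext
    apply hA
    exact congrArg Subtype.val hy
  have hsurj := LinearMap.surjective_of_injective hinj
  obtain ⟨y, hy⟩ := hsurj ⟨_, hv⟩
  have h1 : A *ᵥ (y : Fin n → F) = A *ᵥ v := congrArg Subtype.val hy
  have h2 : A *ᵥ ((y : Fin n → F) - v) = 0 := by rw [mulVec_sub, h1, sub_self]
  have h3 := hA _ h2
  rw [← sub_eq_zero.1 h3]
  exact y.2

/-- Conjugation: from an invariant subspace to the standard one. -/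
lemma conj_mem_stab (hF : Fintype.card F = q ^ 2) (g x : SU n F q) {W W' : Submodule F (Fin n → F)}
    (h1 : ∀ v ∈ W', g.1.1 *ᵥ v ∈ W') (h2 : ∀ v, v ∈ W' ↔ x.1.1 *ᵥ v ∈ W) :
    x * g * x⁻¹ ∈ stabS q W := by
  intro v
  rw [su_conj_mulVec]
  have h3 : v ∈ W ↔ (x⁻¹).1.1 *ᵥ v ∈ W' := by
    rw [h2, su_inv_mulVec]
  rw [h3, ← h2]
  constructor
  · exact h1 _
  · apply mem_of_mulVec_mem _ h1
    intro y hy
    exact unitary_inj hF g.2 hy

/-- The pair version of the above condition. -/
lemma mem_pair_iff (hF : Fintype.card F = q ^ 2) (x : SU n F q) {a b w₁ w₂ : Fin n → F} {m m' : F} (hm : m ≠ 0)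
    (hm' : m' ≠ 0) (ha : x.1.1 *ᵥ a = m • w₁) (hb : x.1.1 *ᵥ b = m' • w₂) (v : Fin n → F) :
    v ∈ Submodule.span F {a, b} ↔ x.1.1 *ᵥ v ∈ Submodule.span F {w₁, w₂} := by
  rw [Submodule.mem_span_pair, Submodule.mem_span_pair]
  constructor
  · rintro ⟨c, d, rfl⟩
    refine ⟨c * m, d * m', ?_⟩
    rw [mulVec_add, mulVec_smul, mulVec_smul, ha, hb, smul_smul, smul_smul]
  · rintro ⟨c, d, h⟩
    refine ⟨c * m⁻¹, d * m'⁻¹, ?_⟩
    apply (show Function.Injective (fun z => x.1.1 *ᵥ z) from fun z z' hz => by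
      have h0 : x.1.1 *ᵥ (z - z') = 0 := by rw [mulVec_sub]; exact sub_eq_zero.2 hz
      exact sub_eq_zero.1 (unitary_inj hF x.2 h0))
    show x.1.1 *ᵥ _ = x.1.1 *ᵥ v
    rw [mulVec_add, mulVec_smul, mulVec_smul, ha, hb, smul_smul, smul_smul, mul_assoc, mul_assoc,
      inv_mul_cancel₀ hm, inv_mul_cancel₀ hm', mul_one, mul_one, h]

/-- Central elements act as scalars. -/
lemma center_scalar (hF : Fintype.card F = q ^ 2) (hn : 2 ≤ n) (z : SU n F q) (hz : z ∈ Subgroup.center (SU n F q)) :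
    ∃ c : F, c ≠ 0 ∧ ∀ v : Fin n → F, z.1.1 *ᵥ v = c • v := by
  have h0 : Fin n := ⟨0, by omega⟩
  refine ⟨(z.1.1 : Matrix (Fin n) (Fin n) F) h0 h0, ?_, ?_⟩
  · intro h1
    have h2 : ∀ v : Fin n → F, z.1.1 *ᵥ v = 0 := by
      intro v
      funext i
      simp only [mulVec, dotProduct, Pi.zero_apply]
      apply Finset.sum_eq_zero
      intro j _
      by_cases hij : i = j
      · subst hij
        by_cases hi0 : i = h0
        · subst hi0; rw [h1, zero_mul]
        · rw [UnitarySU.center_diag_eq hF z hz hi0, h1, zero_mul]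
      · rw [UnitarySU.center_offdiag_zero hF z hz hij, zero_mul]
    have h3 := unitary_inj (x := (fun _ => 1 : Fin n → F)) hF z.2 (h2 _)
    have := congrFun h3 h0
    simp at this
  · intro v
    funext i
    simp only [mulVec, dotProduct, Pi.smul_apply, smul_eq_mul]
    rw [Finset.sum_eq_single i]
    · by_cases hi0 : i = h0
      · subst hi0; rfl
      · rw [UnitarySU.center_diag_eq hF z hz hi0]
    · intro j _ hj
      rw [UnitarySU.center_offdiag_zero hF z hz hj.symm, zero_mul]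
    · simp

lemma center_le_stab (hF : Fintype.card F = q ^ 2) (hn : 2 ≤ n) (W : Submodule F (Fin n → F)) :
    Subgroup.center (SU n F q) ≤ stabS q W := by
  intro z hz v
  obtain ⟨c, hc, hv⟩ := center_scalar hF hn z hz
  rw [hv]
  exact (W.smul_mem_iff hc).symm

/-- An element of `SU` given by `GU` data. -/
noncomputable def toSU (A : GL (Fin n) F) (hA : A ∈ Cfsg.GU n F q) (hdet : (A : Matrix (Fin n) (Fin n) F).det = 1) :
    SU n F q := UnitarySU.SUofMatrix (A : Matrix (Fin n) (Fin n) F) hdet hA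

end group

section main4

local notation "h" => hermForm 4 F q

/-- The nonisotropic point: moving a nonisotropic vector to the first coordinate vector. -/
lemma exists_to_point (hF : Fintype.card F = q ^ 2) {x₀ : Fin 4 → F} (hx : h x₀ x₀ ≠ 0) :
    ∃ (x : SU 4 F q) (μ : F), μ ≠ 0 ∧ x.1.1 *ᵥ x₀ = μ • (Pi.single 0 1 : Fin 4 → F) := by
  classical
  have hq := two_le hF
  obtain ⟨μ, hμ⟩ := ex_norm hF (herm_self_pow hF x₀)
  have hμ0 : μ ≠ 0 := by
    rintro rfl
    apply hx
    rw [← hμ]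
    simp
  have hμq : μ ^ q ≠ 0 := pow_ne_zero _ hμ0
  set e₀ : Fin 4 → F := Pi.single 0 1 with he₀
  have he₀e₀ : h e₀ e₀ = 1 := by
    simp [e₀, hermForm, Fin.sum_univ_four, one_pow, zero_pow (show q ≠ 0 by omega)]
  have hxx : h x₀ x₀ = μ * μ ^ q := hμ.symm
  let i : F →ₗ[F] (Fin 4 → F) := LinearMap.toSpanSingleton F _ x₀
  let j : F →ₗ[F] (Fin 4 → F) := LinearMap.toSpanSingleton F _ (μ • e₀)
  have hx0 : x₀ ≠ 0 := by
    rintro rfl
    apply hx
    exact hermForm_zero_left _
  have he0 : e₀ ≠ 0 := by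
    intro h0
    rw [h0, hermForm_zero_left] at he₀e₀
    exact zero_ne_one he₀e₀
  have hi : Function.Injective i := by
    rw [injective_iff_map_eq_zero]
    intro c hc
    have : c • x₀ = 0 := hc
    exact (smul_eq_zero.1 this).resolve_right hx0
  have hj : Function.Injective j := by
    rw [injective_iff_map_eq_zero]
    intro c hc
    have : c • (μ • e₀) = 0 := hc
    rw [smul_smul] at this
    have h1 := (smul_eq_zero.1 this).resolve_right he0
    exact (mul_eq_zero.1 h1).resolve_right hμ0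
  obtain ⟨A, hA, hAx⟩ := UWitt.exists_GU_of_maps hF i j hi hj (by
    intro c d
    simp only [i, j, LinearMap.toSpanSingleton_apply, hermForm_smul_left, hermForm_smul_right, he₀e₀, hxx]
    ring)
  have hAx0 : (A : Matrix (Fin 4) (Fin 4) F) *ᵥ x₀ = μ • e₀ := by
    have := hAx (1 : F)
    simpa [i, j] using this
  -- correct the determinant
  have hdet0 : (A : Matrix (Fin 4) (Fin 4) F).det ≠ 0 := by
    have h1 := A.isUnit
    exact ((Matrix.isUnit_iff_isUnit_det _).1 h1).ne_zero
  have hnrm : HermCount.nrm q (A : Matrix (Fin 4) (Fin 4) F).det = 1 := UnitarySU.nrm_det hF (fun u v => hA u v)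
  set δ := (A : Matrix (Fin 4) (Fin 4) F).det⁻¹ with hδ
  have hδn : HermCount.nrm q δ = 1 := by
    unfold HermCount.nrm at hnrm ⊢
    rw [hδ, inv_pow, ← mul_inv, hnrm, inv_one]
  let d : Fin 4 → F := Function.update (fun _ => 1) 1 δ
  have hd : ∀ k, HermCount.nrm q (d k) = 1 := by
    intro k
    by_cases hk : k = 1
    · subst hk
      simpa [d] using hδn
    · simp [d, hk, HermCount.nrm]
  have hddet : (diagonal d).det = δ := by
    rw [det_diagonal, Finset.prod_update_of_mem (Finset.mem_univ _)]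
    simp
  let M : Matrix (Fin 4) (Fin 4) F := diagonal d * (A : Matrix (Fin 4) (Fin 4) F)
  have hMdet : M.det = 1 := by
    rw [det_mul, hddet, hδ, inv_mul_cancel₀ hdet0]
  have hMu : ∀ u v : Fin 4 → F, h (M *ᵥ u) (M *ᵥ v) = h u v := by
    intro u v
    simp only [M]
    rw [← mulVec_mulVec, ← mulVec_mulVec, UnitarySU.diagonal_unitary hd]
    exact hA u v
  refine ⟨UnitarySU.SUofMatrix M hMdet hMu, μ, hμ0, ?_⟩
  show M *ᵥ x₀ = _
  simp only [M]
  rw [← mulVec_mulVec, hAx0, mulVec_smul]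
  congr 1
  funext k
  rw [mulVec_diagonal]
  by_cases hk : k = 0
  · subst hk
    simp [d, e₀]
  · simp [e₀, hk]

/-- The standard totally isotropic plane and what is needed for it. -/
lemma exists_plane (hF : Fintype.card F = q ^ 2) :
    ∃ w₁ w₂ : Fin 4 → F, ∃ a : F, w₁ = ![1, a, 0, 0] ∧ w₂ = ![0, 0, 1, a] ∧ a ≠ 0 ∧ h w₁ w₁ = 0 ∧ h w₁ w₂ = 0 ∧ h w₂ w₂ = 0 ∧
      ∀ (x : GL (Fin 4) F), x ∈ Cfsg.GU 4 F q → ∃ (m : F) (T : GL (Fin 4) F), m ≠ 0 ∧
        (T : Matrix (Fin 4) (Fin 4) F) *ᵥ w₁ = m • w₁ ∧ (T : Matrix (Fin 4) (Fin 4) F) *ᵥ w₂ = w₂ ∧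
        T * x ∈ Cfsg.GU 4 F q ∧ ((T * x : GL (Fin 4) F) : Matrix (Fin 4) (Fin 4) F).det = 1 := by
  classical
  have hq := two_le hF
  have hq0 : q ≠ 0 := by omega
  obtain ⟨a, ha⟩ := ex_norm hF (neg_one_pow_q hF)
  have ha0 : a ≠ 0 := by
    rintro rfl
    simp at ha
  refine ⟨![1, a, 0, 0], ![0, 0, 1, a], a, rfl, rfl, ha0, ?_, ?_, ?_, ?_⟩
  · simp [hermForm, Fin.sum_univ_four, hq0, ha]
  · simp [hermForm, Fin.sum_univ_four, hq0]
  · simp [hermForm, Fin.sum_univ_four, hq0, ha]
  intro x hx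
  set w₁ : Fin 4 → F := ![1, a, 0, 0] with hw₁
  set w₂ : Fin 4 → F := ![0, 0, 1, a] with hw₂
  have h11 : h w₁ w₁ = 0 := by simp [w₁, hermForm, Fin.sum_univ_four, hq0, ha]
  have h12 : h w₁ w₂ = 0 := by simp [w₁, w₂, hermForm, Fin.sum_univ_four, hq0]
  obtain ⟨τ, hτ⟩ := ex_trace hF (neg_one_pow_q hF)
  set e₀ : Fin 4 → F := Pi.single 0 1 with he₀
  have he₁ : h e₀ w₁ = 1 := by simp [e₀, w₁, hermForm, Fin.sum_univ_four, hq0]
  have h1e : h w₁ e₀ = 1 := by simp [e₀, w₁, hermForm, Fin.sum_univ_four, hq0]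
  have hee : h e₀ e₀ = 1 := by simp [e₀, hermForm, Fin.sum_univ_four, hq0]
  have he₂ : h e₀ w₂ = 0 := by simp [e₀, w₂, hermForm, Fin.sum_univ_four, hq0]
  set g := e₀ + τ • w₁ with hg
  have hg1 : h g w₁ = 1 := by
    rw [hg, hermForm_add_left, hermForm_smul_left, he₁, h11]; ring
  have hgg : h g g = 0 := by
    rw [hg, hermForm_add_left, hermForm_add_right hF, hermForm_add_right hF, hermForm_smul_left, hermForm_smul_left,
      hermForm_smul_right, hermForm_smul_right, hee, he₁, h1e, h11]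
    linear_combination hτ
  obtain ⟨m, hm0, T, hT, hT1, hT2⟩ := UWitt.exists_torus_fix hF hx h11 hgg hg1
  have hg2 : h w₂ g = 0 := by
    rw [hg, hermForm_add_right hF, hermForm_smul_right, herm_swap_zero hF he₂, herm_swap_zero hF h12]
    ring
  have h21 : h w₂ w₁ = 0 := herm_swap_zero hF h12
  have h1g : h w₁ g = 1 := by
    rw [← hermForm_conj hF g w₁, hg1, one_pow]
  refine ⟨m, T, hm0, ?_, ?_, hT2.1, (Cfsg.Agent.Lib.TvGL.mem_specialLinear_iff _).1 hT2.2⟩
  · rw [hT1, h1g, h11]
    module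
  · rw [hT1, hg2, h21]
    module

/-- The main theorem for `SU₄`. -/
theorem main (hF : Fintype.card F = q ^ 2) :
    ∃ H K : Subgroup (SU 4 F q), Subgroup.center _ ≤ H ∧ Subgroup.center _ ≤ K ∧
      H ≠ ⊤ ∧ K ≠ ⊤ ∧ ∀ g : SU 4 F q, ∃ x : SU 4 F q, x * g * x⁻¹ ∈ H ∨ x * g * x⁻¹ ∈ K := by
  classical
  have hq := two_le hF
  have hq0 : q ≠ 0 := by omega
  obtain ⟨w₁, w₂, a, hw₁, hw₂, ha0, h11, h12, h22, htor⟩ := exists_plane hF
  set e₀ : Fin 4 → F := Pi.single 0 1 with he₀
  refine ⟨stabS q (Submodule.span F {e₀, e₀}), stabS q (Submodule.span F {w₁, w₂}),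
    center_le_stab hF (by norm_num) _, center_le_stab hF (by norm_num) _, ?_, ?_, ?_⟩
  · -- the point stabiliser is proper
    intro htop
    let S : SU 4 F q := UnitarySU.SUofMatrix (UnitarySU.swapMat 0 1) (UnitarySU.swapMat_det (by decide))
      (UnitarySU.swapMat_unitary hF 0 1)
    have h1 : S ∈ stabS q (Submodule.span F {e₀, e₀}) := by rw [htop]; trivial
    have h2 := (h1 e₀).1 (Submodule.subset_span (by simp))
    obtain ⟨c, d, hcd⟩ := Submodule.mem_span_pair.1 h2
    have h3 := congrFun hcd 1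
    have h4 : (S.1.1 : Matrix (Fin 4) (Fin 4) F) = UnitarySU.swapMat 0 1 := rfl
    rw [h4, UnitarySU.swapMat_mulVec] at h3
    simp [e₀, Equiv.swap_apply_right] at h3
  · -- the plane stabiliser is proper
    intro htop
    let S : SU 4 F q := UnitarySU.SUofMatrix (UnitarySU.swapMat 1 2) (UnitarySU.swapMat_det (by decide))
      (UnitarySU.swapMat_unitary hF 1 2)
    have h1 : S ∈ stabS q (Submodule.span F {w₁, w₂}) := by rw [htop]; trivial
    have h2 := (h1 w₁).1 (Submodule.subset_span (by simp))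
    obtain ⟨c, d, hcd⟩ := Submodule.mem_span_pair.1 h2
    have h4 : (S.1.1 : Matrix (Fin 4) (Fin 4) F) = UnitarySU.swapMat 1 2 := rfl
    rw [h4] at hcd
    have h3 := congrFun hcd 0
    have h5 := congrFun hcd 1
    rw [UnitarySU.swapMat_mulVec] at h3 h5
    have hs0 : Equiv.swap (1 : Fin 4) 2 0 = 0 := Equiv.swap_apply_of_ne_of_ne (by decide) (by decide)
    have hs1 : Equiv.swap (1 : Fin 4) 2 1 = 2 := Equiv.swap_apply_left _ _
    simp [hs0, hw₁, hw₂] at h3
    simp [hs1, hw₁, hw₂] at h5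
    rw [h3] at h5
    rcases h5 with h5 | h5
    · exact one_ne_zero h5
    · exact ha0 h5
  · intro g
    rcases classify hF (A := (g.1.1 : Matrix (Fin 4) (Fin 4) F)) g.2 with ⟨x₀, c, hx₀, hgx⟩ | ⟨a', b', ha', hb', haa, hab, hbb, ⟨c₁, c₂, hga⟩, ⟨c₃, c₄, hgb⟩⟩
    · obtain ⟨x, μ, hμ, hx⟩ := exists_to_point hF hx₀
      refine ⟨x, Or.inl ?_⟩
      apply conj_mem_stab hF g x (W' := Submodule.span F {x₀, x₀})
      · intro v hv
        obtain ⟨s, t, rfl⟩ := Submodule.mem_span_pair.1 hv
        rw [mulVec_add, mulVec_smul, mulVec_smul, hgx]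
        exact Submodule.mem_span_pair.2 ⟨s * c, t * c, by rw [smul_smul, smul_smul]⟩
      · exact mem_pair_iff hF x hμ hμ hx hx
    · -- the plane
      let i : (Fin 2 → F) →ₗ[F] (Fin 4 → F) :=
        (LinearMap.proj 0).smulRight a' + (LinearMap.proj 1).smulRight b'
      let j : (Fin 2 → F) →ₗ[F] (Fin 4 → F) :=
        (LinearMap.proj 0).smulRight w₁ + (LinearMap.proj 1).smulRight w₂
      have hiv : ∀ c, i c = c 0 • a' + c 1 • b' := fun c => by simp [i]
      have hjv : ∀ c, j c = c 0 • w₁ + c 1 • w₂ := fun c => by simp [j]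
      have hi : Function.Injective i := by
        rw [injective_iff_map_eq_zero]
        intro c hc
        rw [hiv] at hc
        have hc1 : c 1 = 0 := by
          by_contra hne
          apply hb' (-(c 1)⁻¹ * c 0)
          have h1 : c 1 • b' = -(c 0 • a') := eq_neg_of_add_eq_zero_right hc
          calc b' = (c 1)⁻¹ • (c 1 • b') := by rw [smul_smul, inv_mul_cancel₀ hne, one_smul]
            _ = _ := by rw [h1, smul_neg, smul_smul, neg_mul, neg_smul]
        rw [hc1, zero_smul, add_zero] at hc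
        have hc0 : c 0 = 0 := (smul_eq_zero.1 hc).resolve_right ha'
        funext k
        fin_cases k
        · exact hc0
        · exact hc1
      have hj : Function.Injective j := by
        rw [injective_iff_map_eq_zero]
        intro c hc
        rw [hjv] at hc
        have h0 := congrFun hc 0
        have h1 := congrFun hc 2
        simp [hw₁, hw₂] at h0 h1
        funext k
        fin_cases k
        · exact h0
        · exact h1
      have hba : h b' a' = 0 := herm_swap_zero hF hab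
      have h21 : h w₂ w₁ = 0 := herm_swap_zero hF h12
      obtain ⟨A₁, hA₁, hA₁x⟩ := UWitt.exists_GU_of_maps hF i j hi hj (by
        intro c d
        rw [hiv, hiv, hjv, hjv]
        simp only [hermForm_add_left, hermForm_add_right hF, hermForm_smul_left, hermForm_smul_right, haa, hab, hba,
          hbb, h11, h12, h21, h22])
      have hA₁a : (A₁ : Matrix (Fin 4) (Fin 4) F) *ᵥ a' = w₁ := by
        have := hA₁x ![1, 0]
        rw [hiv, hjv] at this
        simpa using this
      have hA₁b : (A₁ : Matrix (Fin 4) (Fin 4) F) *ᵥ b' = w₂ := by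
        have := hA₁x ![0, 1]
        rw [hiv, hjv] at this
        simpa using this
      obtain ⟨m, T, hm0, hT1, hT2, hTx, hdet⟩ := htor A₁ hA₁
      let x : SU 4 F q := toSU (T * A₁) hTx hdet
      have hxv : ∀ v, (x.1.1 : Matrix (Fin 4) (Fin 4) F) *ᵥ v =
          (T : Matrix (Fin 4) (Fin 4) F) *ᵥ ((A₁ : Matrix (Fin 4) (Fin 4) F) *ᵥ v) := by
        intro v
        rw [mulVec_mulVec]
        rfl
      refine ⟨x, Or.inr ?_⟩
      apply conj_mem_stab hF g x (W' := Submodule.span F {a', b'})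
      · intro v hv
        obtain ⟨s, t, rfl⟩ := Submodule.mem_span_pair.1 hv
        rw [mulVec_add, mulVec_smul, mulVec_smul, hga, hgb]
        refine Submodule.mem_span_pair.2 ⟨s * c₁ + t * c₃, s * c₂ + t * c₄, ?_⟩
        module
      · apply mem_pair_iff hF x hm0 one_ne_zero (m' := 1)
        · rw [hxv, hA₁a, hT1]
        · rw [hxv, hA₁b, hT2, one_smul]

end main4

end Cfsg.Agent.Lib.NC2U4
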