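import Mathlib

/-!
# Chains in a finite poset: the recursion and Weisner's theorem

For a finite set `L` of a poset with least element `b`, `chainSum L b x` is the alternating sum over
the chains of `L` strictly between `b` and `x`.  Up to a sign this is the Möbius function of `L`.
-/

set_option autoImplicit false
set_option linter.unusedSectionVars false
set_option linter.unusedVariables false
set_option linter.style.haveILetI false

namespace Cfsg.Agent.Lib.NChainA

open scoped Classical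

section Poset

variable {α : Type*} [PartialOrder α]

/-- The chains of `L` strictly between `b` and `x`. -/
noncomputable def CC (L : Finset α) (b x : α) : Finset (Finset α) :=
  ((L.filter (fun y => b < y ∧ y < x)).powerset).filter
    (fun c => ∀ y ∈ c, ∀ w ∈ c, y ≤ w ∨ w ≤ y)

theorem mem_CC {L : Finset α} {b x : α} {c : Finset α} :
    c ∈ CC L b x ↔ (∀ y ∈ c, y ∈ L ∧ b < y ∧ y < x) ∧ ∀ y ∈ c, ∀ w ∈ c, y ≤ w ∨ w ≤ y := by
  unfold CC
  rw [Finset.mem_filter, Finset.mem_powerset]
  constructor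
  · rintro ⟨h1, h2⟩
    refine ⟨fun y hy => ?_, h2⟩
    have := h1 hy
    rw [Finset.mem_filter] at this
    exact ⟨this.1, this.2.1, this.2.2⟩
  · rintro ⟨h1, h2⟩
    refine ⟨fun y hy => ?_, h2⟩
    rw [Finset.mem_filter]
    exact ⟨(h1 y hy).1, (h1 y hy).2.1, (h1 y hy).2.2⟩

/-- The alternating sum over chains. -/
noncomputable def chainSum (L : Finset α) (b x : α) : ℤ :=
  ∑ c ∈ CC L b x, (-1 : ℤ) ^ c.card

/-- The top of a nonempty chain. -/
theorem exists_top {c : Finset α} (hc : c.Nonempty) (hch : ∀ y ∈ c, ∀ w ∈ c, y ≤ w ∨ w ≤ y) :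
    ∃ y ∈ c, ∀ w ∈ c, w ≤ y := by
  obtain ⟨y, hy, hm⟩ := c.exists_maximal hc
  refine ⟨y, hy, fun w hw => ?_⟩
  rcases hch y hy w hw with h | h
  · exact hm hw h
  · exact h

/-- The top of a finset, by choice. -/
noncomputable def topOf (d : α) (c : Finset α) : α :=
  if h : ∃ y ∈ c, ∀ w ∈ c, w ≤ y then h.choose else d

theorem topOf_spec (d : α) {c : Finset α} (hc : c.Nonempty)
    (hch : ∀ y ∈ c, ∀ w ∈ c, y ≤ w ∨ w ≤ y) :
    topOf d c ∈ c ∧ ∀ w ∈ c, w ≤ topOf d c := by
  unfold topOf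
  have h := exists_top hc hch
  rw [dif_pos h]
  exact h.choose_spec

theorem topOf_eq (d : α) {c : Finset α} {y : α} (hy : y ∈ c) (hm : ∀ w ∈ c, w ≤ y)
    (hch : ∀ y ∈ c, ∀ w ∈ c, y ≤ w ∨ w ≤ y) : topOf d c = y := by
  have h := topOf_spec d ⟨y, hy⟩ hch
  exact le_antisymm (hm _ h.1) (h.2 _ hy)

/-- **Recursion for the alternating sum.** -/
theorem chainSum_rec (L : Finset α) (b x : α) :
    chainSum L b x = 1 - ∑ y ∈ L.filter (fun y => b < y ∧ y < x), chainSum L b y := by
  have h0 : (∅ : Finset α) ∈ CC L b x := by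
    rw [mem_CC]
    simp
  unfold chainSum
  rw [← Finset.add_sum_erase _ _ h0]
  simp only [Finset.card_empty, pow_zero]
  rw [sub_eq_add_neg]
  congr 1
  rw [← Finset.sum_neg_distrib]
  have : ∀ y ∈ L.filter (fun y => b < y ∧ y < x),
      -∑ c ∈ CC L b y, (-1 : ℤ) ^ c.card = ∑ c ∈ CC L b y, (-1 : ℤ) ^ (insert y c).card := by
    intro y hy
    rw [← Finset.sum_neg_distrib]
    refine Finset.sum_congr rfl fun c hc => ?_
    have hyc : y ∉ c := fun h => lt_irrefl y ((mem_CC.mp hc).1 y h).2.2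
    rw [Finset.card_insert_of_notMem hyc, pow_succ]
    ring
  rw [Finset.sum_congr rfl this, Finset.sum_sigma']
  refine Finset.sum_nbij' (fun c => ⟨topOf x c, c.erase (topOf x c)⟩)
    (fun q => insert q.1 q.2) ?_ ?_ ?_ ?_ ?_
  · intro c hc
    rw [Finset.mem_erase] at hc
    obtain ⟨hne, hc⟩ := hc
    have hne' : c.Nonempty := Finset.nonempty_iff_ne_empty.mpr hne
    have hc' := mem_CC.mp hc
    obtain ⟨h1, h2⟩ := topOf_spec x hne' hc'.2
    rw [Finset.mem_sigma, Finset.mem_filter]
    refine ⟨⟨(hc'.1 _ h1).1, (hc'.1 _ h1).2.1, (hc'.1 _ h1).2.2⟩, ?_⟩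
    rw [mem_CC]
    refine ⟨fun y hy => ?_, fun y hy w hw => hc'.2 y (Finset.mem_of_mem_erase hy) w
      (Finset.mem_of_mem_erase hw)⟩
    rw [Finset.mem_erase] at hy
    exact ⟨(hc'.1 y hy.2).1, (hc'.1 y hy.2).2.1, lt_of_le_of_ne (h2 y hy.2) hy.1⟩
  · rintro ⟨y, c⟩ hq
    rw [Finset.mem_sigma, Finset.mem_filter] at hq
    obtain ⟨⟨hy, hby, hyx⟩, hc⟩ := hq
    have hc' := mem_CC.mp hc
    rw [Finset.mem_erase]
    refine ⟨Finset.insert_ne_empty _ _, ?_⟩
    rw [mem_CC]
    refine ⟨fun w hw => ?_, fun w hw w' hw' => ?_⟩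
    · rcases Finset.mem_insert.mp hw with rfl | hw
      · exact ⟨hy, hby, hyx⟩
      · exact ⟨(hc'.1 w hw).1, (hc'.1 w hw).2.1, (hc'.1 w hw).2.2.trans hyx⟩
    · rcases Finset.mem_insert.mp hw with rfl | hw
      · rcases Finset.mem_insert.mp hw' with rfl | hw'
        · exact Or.inl le_rfl
        · exact Or.inr (hc'.1 w' hw').2.2.le
      · rcases Finset.mem_insert.mp hw' with rfl | hw'
        · exact Or.inl (hc'.1 w hw).2.2.le
        · exact hc'.2 w hw w' hw'
  · intro c hc
    rw [Finset.mem_erase] at hc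
    obtain ⟨hne, hc⟩ := hc
    have hne' : c.Nonempty := Finset.nonempty_iff_ne_empty.mpr hne
    have hc' := mem_CC.mp hc
    obtain ⟨h1, h2⟩ := topOf_spec x hne' hc'.2
    exact Finset.insert_erase h1
  · rintro ⟨y, c⟩ hq
    rw [Finset.mem_sigma, Finset.mem_filter] at hq
    obtain ⟨⟨hy, hby, hyx⟩, hc⟩ := hq
    have hc' := mem_CC.mp hc
    have hyc : y ∉ c := fun h => lt_irrefl y (hc'.1 y h).2.2
    have hch : ∀ w ∈ insert y c, ∀ w' ∈ insert y c, w ≤ w' ∨ w' ≤ w := by
      intro w hw w' hw'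
      rcases Finset.mem_insert.mp hw with rfl | hw1
      · rcases Finset.mem_insert.mp hw' with rfl | hw2
        · exact Or.inl le_rfl
        · exact Or.inr (hc'.1 w' hw2).2.2.le
      · rcases Finset.mem_insert.mp hw' with rfl | hw2
        · exact Or.inl (hc'.1 w hw1).2.2.le
        · exact hc'.2 w hw1 w' hw2
    have h1 : topOf x (insert y c) = y := by
      refine topOf_eq x (Finset.mem_insert_self _ _) (fun w hw => ?_) hch
      rcases Finset.mem_insert.mp hw with rfl | hw
      · exact le_rfl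
      · exact (hc'.1 w hw).2.2.le
    simp only [h1, Finset.erase_insert hyc]
  · intro c hc
    rw [Finset.mem_erase] at hc
    obtain ⟨hne, hc⟩ := hc
    have hne' : c.Nonempty := Finset.nonempty_iff_ne_empty.mpr hne
    have hc' := mem_CC.mp hc
    obtain ⟨h1, h2⟩ := topOf_spec x hne' hc'.2
    simp only [Finset.insert_erase h1]

/-- The Möbius function. -/
noncomputable def MM (L : Finset α) (b x : α) : ℤ :=
  if x = b then 1 else -chainSum L b x

theorem MM_bot (L : Finset α) (b : α) : MM L b b = 1 := by simp [MM]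

theorem MM_of_ne (L : Finset α) {b x : α} (h : x ≠ b) : MM L b x = -chainSum L b x := by
  simp [MM, h]

/-- **Hall's recursion.** -/
theorem sum_MM_le {L : Finset α} {b x : α} (hb : b ∈ L) (hbot : ∀ y ∈ L, b ≤ y) (hx : x ∈ L)
    (hbx : b < x) : ∑ y ∈ L.filter (· ≤ x), MM L b y = 0 := by
  have h1 : L.filter (· ≤ x) = insert b (insert x (L.filter (fun y => b < y ∧ y < x))) := by
    ext y
    simp only [Finset.mem_filter, Finset.mem_insert]
    constructor
    · rintro ⟨hy, hyx⟩
      by_cases h1 : y = b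
      · exact Or.inl h1
      · by_cases h2 : y = x
        · exact Or.inr (Or.inl h2)
        · exact Or.inr (Or.inr ⟨hy, lt_of_le_of_ne (hbot y hy) (Ne.symm h1), lt_of_le_of_ne hyx h2⟩)
    · rintro (rfl | rfl | ⟨hy, h1, h2⟩)
      · exact ⟨hb, hbx.le⟩
      · exact ⟨hx, le_rfl⟩
      · exact ⟨hy, h2.le⟩
  have h2 : x ∉ L.filter (fun y => b < y ∧ y < x) := by
    simp
  have h3 : b ∉ insert x (L.filter (fun y => b < y ∧ y < x)) := by
    simp only [Finset.mem_insert, Finset.mem_filter, not_or]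
    refine ⟨hbx.ne, ?_⟩
    simp
  rw [h1, Finset.sum_insert h3, Finset.sum_insert h2, MM_bot, MM_of_ne L hbx.ne', chainSum_rec]
  have h4 : ∀ y ∈ L.filter (fun y => b < y ∧ y < x), MM L b y = -chainSum L b y := by
    intro y hy
    rw [Finset.mem_filter] at hy
    exact MM_of_ne L hy.2.1.ne'
  rw [Finset.sum_congr rfl h4, Finset.sum_neg_distrib]
  ring

end Poset

section Lattice

variable {α : Type*} [Lattice α]

/-- **Weisner's theorem.** -/
theorem weisner {L : Finset α} {b t a : α} (hb : b ∈ L) (hbot : ∀ y ∈ L, b ≤ y)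
    (ht : t ∈ L) (htop : ∀ y ∈ L, y ≤ t) (hsup : ∀ x ∈ L, ∀ y ∈ L, x ⊔ y ∈ L)
    (ha : a ∈ L) (hba : b < a) : ∑ x ∈ L.filter (fun x => x ⊔ a = t), MM L b x = 0 := by
  have key : ∀ (n : ℕ) (z : α), (L.filter (· < z)).card = n → z ∈ L → a ≤ z →
      ∑ x ∈ L.filter (fun x => x ⊔ a = z), MM L b x = 0 := by
    intro n
    induction n using Nat.strong_induction_on with
    | _ n ih =>
      intro z hn hz haz
      have hbz : b < z := lt_of_lt_of_le hba haz
      have h1 := sum_MM_le hb hbot hz hbz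
      -- group by `x ⊔ a`
      have h2 : ∑ y ∈ L.filter (· ≤ z), MM L b y =
          ∑ w ∈ L.filter (fun w => a ≤ w ∧ w ≤ z), ∑ x ∈ L.filter (fun x => x ⊔ a = w), MM L b x := by
        rw [← Finset.sum_fiberwise_of_maps_to (g := fun x => x ⊔ a)
          (t := L.filter (fun w => a ≤ w ∧ w ≤ z))]
        · refine Finset.sum_congr rfl fun w hw => ?_
          rw [Finset.mem_filter] at hw
          apply Finset.sum_congr _ fun _ _ => rfl
          ext x
          simp only [Finset.mem_filter]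
          constructor
          · rintro ⟨⟨h1, -⟩, h3⟩
            exact ⟨h1, h3⟩
          · rintro ⟨h1, h3⟩
            exact ⟨⟨h1, (le_sup_left.trans_eq h3).trans hw.2.2⟩, h3⟩
        · intro x hx
          rw [Finset.mem_filter] at hx ⊢
          exact ⟨hsup x hx.1 a ha, le_sup_right, sup_le hx.2 haz⟩
      have hmem : z ∈ L.filter (fun w => a ≤ w ∧ w ≤ z) := by
        rw [Finset.mem_filter]
        exact ⟨hz, haz, le_rfl⟩
      rw [h2, ← Finset.add_sum_erase _ _ hmem] at h1
      have h3 : ∑ w ∈ (L.filter (fun w => a ≤ w ∧ w ≤ z)).erase z,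
          ∑ x ∈ L.filter (fun x => x ⊔ a = w), MM L b x = 0 := by
        refine Finset.sum_eq_zero fun w hw => ?_
        rw [Finset.mem_erase, Finset.mem_filter] at hw
        obtain ⟨hne, hw, haw, hwz⟩ := hw
        have hlt : w < z := lt_of_le_of_ne hwz hne
        refine ih _ ?_ w rfl hw haw
        rw [← hn]
        apply Finset.card_lt_card
        rw [Finset.ssubset_iff_of_subset]
        · exact ⟨w, by simp [hw, hlt], by simp⟩
        · intro v hv
          rw [Finset.mem_filter] at hv ⊢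
          exact ⟨hv.1, hv.2.trans hlt⟩
      rw [h3, add_zero] at h1
      exact h1
  exact key _ t rfl ht (htop a ha)

end Lattice

end Cfsg.Agent.Lib.NChainA
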