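import Mathlib
import Cfsg.Agent.Lib.BlockKL
import Cfsg.Agent.Lib.BrauerConj
import Cfsg.Agent.Lib.BlockSecond

/-!
# The difference `k - l` for a union of blocks, in terms of local data
-/

set_option autoImplicit false
set_option linter.unusedSectionVars false
set_option linter.unusedVariables false
set_option linter.style.haveILetI false

namespace Cfsg.Agent.Lib.NChainB

open Cfsg Cfsg.Agent.Lib.CharBasic Cfsg.Agent.Lib.CharInd Cfsg.Agent.Lib.CharIntegrality
open Cfsg.Agent.Lib.BlockLocal Cfsg.Agent.Lib.BlockIdem Cfsg.Agent.Lib.BlockQ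
open Cfsg.Agent.Lib.BlockOrtho Cfsg.Agent.Lib.BlockSubsection Cfsg.Agent.Lib.BrauerPair
open Cfsg.Agent.Lib.BlkOrth Cfsg.Agent.Lib.BlockKL Cfsg.Agent.Lib.BrauerConj
open Cfsg.Agent.Lib.BlockSecond Cfsg.Agent.Lib.BlkBasic
open scoped ComplexConjugate Classical

universe u

section Rank

variable {G : Type u} [Group G] [Fintype G] {M : Ideal AlgInt} {p : ℕ}

theorem blockProj_blockProj_disjoint {B B' : Set (IrrCharacter G)} (h : Disjoint B B') (θ : G → ℂ) :
    blockProj B (blockProj B' θ) = 0 := by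
  funext g
  unfold blockProj
  apply Finset.sum_eq_zero
  intro ξ _
  have := classInner_blockProj B' θ ξ
  unfold blockProj at this
  rw [this]
  by_cases hξ : ξ ∈ B
  · have h2 : ξ ∉ B' := Set.disjoint_left.mp h hξ
    rw [indB_of_not_mem h2]
    simp
  · rw [indB_of_not_mem hξ]
    simp

theorem regProjL_comp_eq_zero (hM : IsPModular p M) {B B' : Set (IrrCharacter G)} (hB' : IsPBlock M B')
    (h : Disjoint B B') (θ : G → ℂ) : regProjL p B (regProjL p B' θ) = 0 := by
  rw [regProjL_apply, regProjL_apply]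
  rw [← blockProj_pRegularPart hM hB' (blockProj_idem B' θ), blockProj_blockProj_disjoint h]
  funext g
  unfold pRegularPart
  simp

theorem trace_regProjL_eq (hM : IsPModular p M) {B : Set (IrrCharacter G)} (hB : IsPBlock M B) :
    LinearMap.trace ℂ (G → ℂ) (regProjL p B) = (blockRank p B : ℂ) := by
  have h1 := (LinearMap.IsIdempotentElem.isProj_range _ (regProjL_idem hM hB)).trace
  rw [range_regProjL] at h1
  exact h1

/-- A union of blocks. -/
def unionB (𝓑 : Finset (BlockT M G)) : Set (IrrCharacter G) := {χ | ∃ β ∈ 𝓑, χ ∈ β.1}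

theorem blockT_disjoint [M.IsPrime] {β β' : BlockT M G} (h : β ≠ β') : Disjoint β.1 β'.1 := by
  rcases eq_or_disjoint_of_isPBlock β.2 β'.2 with h1 | h1
  · exact absurd (Subtype.ext h1) h
  · exact h1

theorem indB_unionB [M.IsPrime] (𝓑 : Finset (BlockT M G)) (χ : IrrCharacter G) :
    indB (unionB 𝓑) χ = ∑ β ∈ 𝓑, indB β.1 χ := by
  by_cases h : χ ∈ unionB 𝓑
  · obtain ⟨β, hβ, hχ⟩ := h
    rw [indB_of_mem (show χ ∈ unionB 𝓑 from ⟨β, hβ, hχ⟩), Finset.sum_eq_single β]
    · exact (indB_of_mem hχ).symm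
    · intro β' _ hne
      exact indB_of_not_mem fun h1 => Set.disjoint_left.mp (blockT_disjoint hne) h1 hχ
    · intro h1
      exact absurd hβ h1
  · rw [indB_of_not_mem h]
    symm
    apply Finset.sum_eq_zero
    intro β hβ
    exact indB_of_not_mem fun h1 => h (show χ ∈ unionB 𝓑 from ⟨β, hβ, h1⟩)

theorem blockProj_unionB [M.IsPrime] (𝓑 : Finset (BlockT M G)) (θ : G → ℂ) :
    blockProj (unionB 𝓑) θ = ∑ β ∈ 𝓑, blockProj β.1 θ := by
  funext g
  rw [Finset.sum_apply]
  unfold blockProj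
  rw [Finset.sum_comm]
  refine Finset.sum_congr rfl fun ξ _ => ?_
  rw [indB_unionB, Finset.sum_mul]

theorem regProjL_unionB [M.IsPrime] (𝓑 : Finset (BlockT M G)) :
    regProjL p (unionB 𝓑) = ∑ β ∈ 𝓑, regProjL p β.1 := by
  apply LinearMap.ext
  intro θ
  rw [regProjL_apply, blockProj_unionB, pRegularPart_sum, LinearMap.sum_apply]
  rfl

/-- **The rank is additive on unions of blocks.** -/
theorem blockRank_unionB (hM : IsPModular p M) (𝓑 : Finset (BlockT M G)) :
    (blockRank p (unionB 𝓑) : ℂ) = ∑ β ∈ 𝓑, (blockRank p β.1 : ℂ) := by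
  haveI := isPrime_of_isPModular hM
  have hid : IsIdempotentElem (regProjL p (unionB 𝓑)) := by
    rw [regProjL_unionB]
    unfold IsIdempotentElem
    rw [Finset.sum_mul_sum]
    refine Finset.sum_congr rfl fun β hβ => ?_
    rw [Finset.sum_eq_single β]
    · exact (regProjL_idem hM β.2)
    · intro β' _ hne
      apply LinearMap.ext
      intro θ
      exact regProjL_comp_eq_zero hM β'.2 (blockT_disjoint hne.symm) θ
    · intro h1
      exact absurd hβ h1
  have h1 := (LinearMap.IsIdempotentElem.isProj_range _ hid).trace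
  rw [range_regProjL] at h1
  unfold blockRank
  rw [← h1, regProjL_unionB, map_sum]
  refine Finset.sum_congr rfl fun β _ => ?_
  exact trace_regProjL_eq hM β.2

theorem card_bF_unionB [M.IsPrime] (𝓑 : Finset (BlockT M G)) :
    (bF (unionB 𝓑)).card = ∑ β ∈ 𝓑, (bF β.1).card := by
  have h1 : bF (unionB 𝓑) = 𝓑.biUnion (fun β => bF β.1) := by
    ext χ
    simp only [mem_bF, Finset.mem_biUnion]
    rfl
  rw [h1, Finset.card_biUnion]
  intro β _ β' _ hne
  show Disjoint (bF β.1) (bF β'.1)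
  rw [Finset.disjoint_left]
  intro χ h2 h3
  rw [mem_bF] at h2 h3
  exact Set.disjoint_left.mp (blockT_disjoint hne) h2 h3

/-- **`k - l` of a union of blocks.** -/
theorem card_sub_rank_unionB (hM : IsPModular p M) (𝓑 : Finset (BlockT M G)) :
    (Nat.card G : ℂ) * (((bF (unionB 𝓑)).card : ℂ) - (blockRank p (unionB 𝓑) : ℂ)) =
      ∑ z : G, if (∃ k : ℕ, orderOf z = p ^ k) ∧ z ≠ 1 then ∑ β ∈ 𝓑, vz p β.1 z else 0 := by
  haveI := isPrime_of_isPModular hM
  rw [blockRank_unionB hM, card_bF_unionB]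
  push_cast
  rw [← Finset.sum_sub_distrib, Finset.mul_sum]
  have h : ∀ β ∈ 𝓑, (Nat.card G : ℂ) * (((bF β.1).card : ℂ) - (blockRank p β.1 : ℂ)) =
      ∑ z : G, if (∃ k : ℕ, orderOf z = p ^ k) ∧ z ≠ 1 then vz p β.1 z else 0 :=
    fun β _ => card_sub_rank hM β.2
  rw [Finset.sum_congr rfl h, Finset.sum_comm]
  refine Finset.sum_congr rfl fun z _ => ?_
  by_cases hz : (∃ k : ℕ, orderOf z = p ^ k) ∧ z ≠ 1
  · simp only [if_pos hz]
  · simp only [if_neg hz, Finset.sum_const_zero]

end Rank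

section Twist

variable {H H' : Type u} [Group H] [Group H']

theorem twistSetE_symm_twistSetE (σ : H ≃* H') (f : Set (IrrCharacter H)) :
    twistSetE σ.symm (twistSetE σ f) = f := by
  ext χ
  constructor
  · rintro ⟨_, ⟨ψ, hψ, rfl⟩, rfl⟩
    rwa [twistE_twistE_symm]
  · intro hχ
    exact ⟨twistE σ χ, ⟨χ, hχ, rfl⟩, twistE_twistE_symm σ χ⟩

theorem twistSetE_twistSetE_symm (σ : H ≃* H') (f : Set (IrrCharacter H')) :
    twistSetE σ (twistSetE σ.symm f) = f := by
  ext χ
  constructor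
  · rintro ⟨_, ⟨ψ, hψ, rfl⟩, rfl⟩
    rwa [twistE_symm_twistE]
  · intro hχ
    exact ⟨twistE σ.symm χ, ⟨χ, hχ, rfl⟩, twistE_symm_twistE σ χ⟩

theorem blockRank_twistSetE {p : ℕ} (σ : H ≃* H') (f : Set (IrrCharacter H)) :
    blockRank p (twistSetE σ f) = blockRank p f := by
  unfold blockRank
  let L : (H → ℂ) ≃ₗ[ℂ] (H' → ℂ) := LinearEquiv.funCongrLeft ℂ ℂ σ.symm.toEquiv
  have h1 : Submodule.span ℂ ((fun χ : IrrCharacter H' => pRegularPart p (χ : H' → ℂ)) '' twistSetE σ f) =
      (Submodule.span ℂ ((fun χ : IrrCharacter H => pRegularPart p (χ : H → ℂ)) '' f)).map L.toLinearMap := by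
    rw [Submodule.map_span]
    congr 1
    ext φ
    constructor
    · rintro ⟨_, ⟨χ, hχ, rfl⟩, rfl⟩
      refine ⟨pRegularPart p (χ : H → ℂ), ⟨χ, hχ, rfl⟩, ?_⟩
      funext x
      show pRegularPart p (χ : H → ℂ) (σ.symm x) = pRegularPart p ((twistE σ χ : IrrCharacter H') : H' → ℂ) x
      unfold pRegularPart IsPRegular
      have ho : orderOf (σ.symm x) = orderOf x := MulEquiv.orderOf_eq σ.symm x
      rw [ho]
      by_cases hx : p ∣ orderOf x <;> simp [hx]
    · rintro ⟨_, ⟨χ, hχ, rfl⟩, rfl⟩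
      refine ⟨twistE σ χ, ⟨χ, hχ, rfl⟩, ?_⟩
      funext x
      show pRegularPart p ((twistE σ χ : IrrCharacter H') : H' → ℂ) x = pRegularPart p (χ : H → ℂ) (σ.symm x)
      unfold pRegularPart IsPRegular
      have ho : orderOf (σ.symm x) = orderOf x := MulEquiv.orderOf_eq σ.symm x
      rw [ho]
      by_cases hx : p ∣ orderOf x <;> simp [hx]
  rw [h1]
  exact LinearEquiv.finrank_map_eq L _

/-- The bijection between the blocks of isomorphic groups. -/
noncomputable def blockEquiv (M : Ideal AlgInt) (σ : H ≃* H') : BlockT M H ≃ BlockT M H' where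
  toFun F := ⟨twistSetE σ F.1, isPBlock_twistSetE σ F.2⟩
  invFun F := ⟨twistSetE σ.symm F.1, isPBlock_twistSetE σ.symm F.2⟩
  left_inv F := Subtype.ext (twistSetE_symm_twistSetE σ F.1)
  right_inv F := Subtype.ext (twistSetE_twistSetE_symm σ F.1)

theorem sum_twist [Finite H] [Finite H'] {p : ℕ} {M : Ideal AlgInt} (σ : H ≃* H')
    (P : Set (IrrCharacter H) → Prop) (Q : Set (IrrCharacter H') → Prop)
    (h : ∀ F, IsPBlock M F → (P F ↔ Q (twistSetE σ F))) :
    ∑ F : BlockT M H, (if P F.1 then (blockRank p F.1 : ℂ) else 0) =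
      ∑ F : BlockT M H', (if Q F.1 then (blockRank p F.1 : ℂ) else 0) := by
  rw [← Equiv.sum_comp (blockEquiv M σ)]
  refine Finset.sum_congr rfl fun F _ => ?_
  have h1 : ((blockEquiv M σ F).1) = twistSetE σ F.1 := rfl
  rw [h1, blockRank_twistSetE]
  by_cases hP : P F.1
  · rw [if_pos hP, if_pos ((h F.1 F.2).mp hP)]
  · rw [if_neg hP, if_neg (fun h2 => hP ((h F.1 F.2).mpr h2))]

end Twist

section Trans

variable {K : Type u} [Group K] [Fintype K] {M : Ideal AlgInt}

theorem class_expand [Fintype (ConjClasses K)] {c : K → ℂ} (hc : IsClassFunction K c) (x : K) :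
    c x = ∑ L : ConjClasses K, c (Quotient.out L) * (classIndicator (Quotient.out L) x : ℂ) := by
  rw [Finset.sum_eq_single (ConjClasses.mk x)]
  · have h1 : IsConj (Quotient.out (ConjClasses.mk x)) x := by
      rw [← ConjClasses.mk_eq_mk_iff_isConj]
      exact Quotient.out_eq _
    rw [classIndicator_of_conj h1]
    obtain ⟨u, hu⟩ := isConj_iff.mp h1
    have h2 := hc (Quotient.out (ConjClasses.mk x)) u
    rw [hu] at h2
    rw [h2]
    simp
  · intro L _ hL
    have h1 : ¬ IsConj (Quotient.out L) x := by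
      intro h2
      apply hL
      rw [← ConjClasses.mk_eq_mk_iff_isConj] at h2
      rw [← h2]
      exact (Quotient.out_eq _).symm
    rw [classIndicator_of_not_conj h1]
    simp
  · intro h
    exact absurd (Finset.mem_univ _) h

/-- **Transitivity of induction of central characters.** -/
theorem induced_trans [M.IsPrime] (J : Subgroup K) [Fintype J] (θ : J → ℂ) (ξ : IrrCharacter K)
    (h : ∀ x : K, MemLocalIdeal M (inducedCentralChar J θ x - centralChar (ξ : K → ℂ) x))
    {c : K → ℂ} (hc : IsClassFunction K c) (hcR : ∀ x, MemLocalRing M (c x)) :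
    MemLocalIdeal M (∑ j : J, c (j : K) * θ j / θ 1 - omega (ξ : K → ℂ) c) := by
  letI : Fintype (ConjClasses K) := Fintype.ofFinite _
  rw [omega_eq_sum_classes ξ hc]
  have h1 : ∑ j : J, c (j : K) * θ j / θ 1 = ∑ L : ConjClasses K, c (Quotient.out L) *
      inducedCentralChar J θ (Quotient.out L) := by
    simp_rw [inducedCentralChar_eq_sum, Finset.mul_sum]
    rw [Finset.sum_comm]
    refine Finset.sum_congr rfl fun j _ => ?_
    rw [class_expand hc (j : K), Finset.sum_mul, Finset.sum_div]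
    refine Finset.sum_congr rfl fun L _ => ?_
    ring
  rw [h1, ← Finset.sum_sub_distrib]
  refine memLocalIdeal_sum _ _ fun L _ => ?_
  rw [← mul_sub]
  exact memLocalIdeal_mul_left (hcR _) (h _)

end Trans

end Cfsg.Agent.Lib.NChainB
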