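import Mathlib
import Cfsg.Agent.Lib.NChainA
import Cfsg.Agent.Lib.PuigBasic

/-!
# The Euler characteristic of the complex of normal chains of `p`-subgroups

Let `A ≤ G` have a central element `z` of order `p`.  The alternating sum over the chains of nontrivial
`A`-invariant `p`-subgroups in which every member is normal in the largest one equals `1`.
-/

set_option autoImplicit false
set_option linter.unusedSectionVars false
set_option linter.unusedVariables false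
set_option linter.style.haveILetI false

namespace Cfsg.Agent.Lib.NChainG

open Cfsg.Agent.Lib.NChainA
open scoped Classical

variable {G : Type*} [Group G] [Finite G]

noncomputable local instance fintypeSubNC : Fintype (Subgroup G) := Fintype.ofFinite _

local notation "𝐍[" Q "]" => Subgroup.normalizer ((Q : Subgroup G) : Set G)

theorem le_normalizer_of_conj {K Q : Subgroup G} (h : ∀ g ∈ K, ∀ x ∈ Q, g * x * g⁻¹ ∈ Q) : K ≤ 𝐍[Q] := by
  intro g hg
  rw [Subgroup.mem_normalizer_iff]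
  intro x
  refine ⟨h g hg x, fun hx => ?_⟩
  have := h g⁻¹ (K.inv_mem hg) _ hx
  simpa [mul_assoc] using this

theorem conj_mem {K Q : Subgroup G} (h : K ≤ 𝐍[Q]) {g x : G} (hg : g ∈ K) (hx : x ∈ Q) :
    g * x * g⁻¹ ∈ Q :=
  (Subgroup.mem_normalizer_iff.mp (h hg) x).mp hx

theorem le_normalizer_sup {K X Y : Subgroup G} (hx : K ≤ 𝐍[X]) (hy : K ≤ 𝐍[Y]) : K ≤ 𝐍[X ⊔ Y] := by
  apply le_normalizer_of_conj
  intro g hg w hw
  have h1 : X ⊔ Y ≤ (X ⊔ Y).comap (MulAut.conj g).toMonoidHom := by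
    apply sup_le
    · intro a ha
      exact (le_sup_left : X ≤ X ⊔ Y) (conj_mem hx hg ha)
    · intro a ha
      exact (le_sup_right : Y ≤ X ⊔ Y) (conj_mem hy hg ha)
  exact h1 hw

theorem le_normalizer_of_comm {T Q : Subgroup G} (hT : ∀ t ∈ T, ∀ t' ∈ T, t * t' = t' * t) (hQ : Q ≤ T) :
    T ≤ 𝐍[Q] := by
  apply le_normalizer_of_conj
  intro g hg x hx
  rw [hT g hg x (hQ hx), mul_assoc, mul_inv_cancel, mul_one]
  exact hx

/-- The lattice of `A`-invariant normal subgroups of `T`. -/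
noncomputable def Lat (A T : Subgroup G) : Finset (Subgroup G) :=
  Finset.univ.filter (fun Q => Q ≤ T ∧ T ≤ 𝐍[Q] ∧ A ≤ 𝐍[Q])

theorem mem_Lat {A T Q : Subgroup G} : Q ∈ Lat A T ↔ Q ≤ T ∧ T ≤ 𝐍[Q] ∧ A ≤ 𝐍[Q] := by
  simp [Lat]

theorem bot_mem_Lat (A T : Subgroup G) : (⊥ : Subgroup G) ∈ Lat A T := by
  rw [mem_Lat]
  have h : ∀ K : Subgroup G, K ≤ 𝐍[(⊥ : Subgroup G)] := by
    intro K
    apply le_normalizer_of_conj
    intro g _ x hx
    rw [Subgroup.mem_bot] at hx ⊢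
    simp [hx]
  exact ⟨bot_le, h _, h _⟩

theorem self_mem_Lat {A T : Subgroup G} (h : A ≤ 𝐍[T]) : T ∈ Lat A T := by
  rw [mem_Lat]
  exact ⟨le_rfl, Subgroup.le_normalizer, h⟩

theorem sup_mem_Lat {A T X Y : Subgroup G} (hX : X ∈ Lat A T) (hY : Y ∈ Lat A T) : X ⊔ Y ∈ Lat A T := by
  rw [mem_Lat] at *
  exact ⟨sup_le hX.1 hY.1, le_normalizer_sup hX.2.1 hY.2.1, le_normalizer_sup hX.2.2 hY.2.2⟩

section Main

variable {p : ℕ} [hp : Fact p.Prime]

/-- A subgroup is *good* if it is elementary abelian and centralized by `z`. -/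
def IsW (p : ℕ) (z : G) (T : Subgroup G) : Prop :=
  (∀ t ∈ T, t ^ p = 1) ∧ (∀ t ∈ T, ∀ t' ∈ T, t * t' = t' * t) ∧ ∀ t ∈ T, t * z = z * t

/-- The Frattini-type subgroup. -/
noncomputable def aa (p : ℕ) (z : G) (T : Subgroup G) : Subgroup G :=
  Subgroup.closure ({w | ∃ t ∈ T, w = t ^ p} ∪ {w | ∃ t ∈ T, ∃ v ∈ T ⊔ Subgroup.zpowers z, w = t * v * t⁻¹ * v⁻¹})

theorem aa_le {z : G} {T : Subgroup G} (hzT : z ∈ 𝐍[T]) : aa p z T ≤ T := by
  unfold aa
  rw [Subgroup.closure_le]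
  rintro w (⟨t, ht, rfl⟩ | ⟨t, ht, v, hv, rfl⟩)
  · exact T.pow_mem ht p
  · have hvN : T ⊔ Subgroup.zpowers z ≤ 𝐍[T] :=
      sup_le Subgroup.le_normalizer ((Subgroup.zpowers_le (H := 𝐍[T])).mpr hzT)
    have h1 := conj_mem hvN hv (T.inv_mem ht)
    have : t * v * t⁻¹ * v⁻¹ = t * (v * t⁻¹ * v⁻¹) := by group
    rw [this]
    exact T.mul_mem ht h1

theorem le_normalizer_aa {K T : Subgroup G} {z : G} (h1 : K ≤ 𝐍[T])
    (h2 : K ≤ 𝐍[T ⊔ Subgroup.zpowers z]) : K ≤ 𝐍[aa p z T] := by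
  apply le_normalizer_of_conj
  intro g hg w hw
  have h3 : aa p z T ≤ (aa p z T).comap (MulAut.conj g).toMonoidHom := by
    conv_lhs => unfold aa
    rw [Subgroup.closure_le]
    rintro w (⟨t, ht, rfl⟩ | ⟨t, ht, v, hv, rfl⟩)
    · apply Subgroup.subset_closure
      left
      refine ⟨g * t * g⁻¹, conj_mem h1 hg ht, ?_⟩
      simp [MulAut.conj_apply, conj_pow]
    · apply Subgroup.subset_closure
      right
      refine ⟨g * t * g⁻¹, conj_mem h1 hg ht, g * v * g⁻¹, conj_mem h2 hg hv, ?_⟩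
      simp only [MulEquiv.coe_toMonoidHom, MulAut.conj_apply]
      group
  exact h3 hw

theorem isW_of_aa_eq_bot {z : G} {T : Subgroup G} (h : aa p z T = ⊥) : IsW p z T := by
  have hmem : ∀ w, (w ∈ ({w | ∃ t ∈ T, w = t ^ p} ∪
      {w | ∃ t ∈ T, ∃ v ∈ T ⊔ Subgroup.zpowers z, w = t * v * t⁻¹ * v⁻¹})) → w = 1 := by
    intro w hw
    have := Subgroup.subset_closure hw
    change w ∈ aa p z T at this
    rw [h, Subgroup.mem_bot] at this
    exact this
  refine ⟨fun t ht => hmem _ (Or.inl ⟨t, ht, rfl⟩), fun t ht t' ht' => ?_, fun t ht => ?_⟩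
  · have := hmem _ (Or.inr ⟨t, ht, t', (le_sup_left : T ≤ T ⊔ Subgroup.zpowers z) ht', rfl⟩)
    have h2 : t * t' * t⁻¹ * t'⁻¹ * t' * t = t * t' := by group
    rw [this] at h2
    simpa using h2.symm
  · have := hmem _ (Or.inr ⟨t, ht, z,
      (le_sup_right : Subgroup.zpowers z ≤ T ⊔ Subgroup.zpowers z) (Subgroup.mem_zpowers z), rfl⟩)
    have h2 : t * z * t⁻¹ * z⁻¹ * z * t = t * z := by group
    rw [this] at h2
    simpa using h2.symm

/-- **The Frattini property.** -/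
theorem eq_of_sup_aa {z : G} {T x : Subgroup G} (hT : IsPGroup p T) (hzo : orderOf z = p)
    (hzT : z ∈ 𝐍[T]) (hxT : x ≤ T) (hxN : T ≤ 𝐍[x]) (hzx : z ∈ 𝐍[x])
    (hs : x ⊔ aa p z T = T) : x = T := by
  by_contra hne
  set W : Subgroup G := T ⊔ Subgroup.zpowers z with hWdef
  have hzp : IsPGroup p (Subgroup.zpowers z) := by
    apply IsPGroup.of_card (n := 1)
    rw [Nat.card_zpowers, hzo, pow_one]
  have hW : IsPGroup p W :=
    hT.to_sup_of_normal_left' hzp ((Subgroup.zpowers_le (H := 𝐍[T])).mpr hzT)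
  have hWT : W ≤ 𝐍[T] := sup_le Subgroup.le_normalizer ((Subgroup.zpowers_le (H := 𝐍[T])).mpr hzT)
  have hWx : W ≤ 𝐍[x] := sup_le hxN ((Subgroup.zpowers_le (H := 𝐍[x])).mpr hzx)
  have hTW : T ≤ W := le_sup_left
  let S : Set (Subgroup G) := {R | x ≤ R ∧ R < T ∧ W ≤ 𝐍[R]}
  have hxS : x ∈ S := ⟨le_rfl, lt_of_le_of_ne hxT hne, hWx⟩
  obtain ⟨R, hxR, hRmax⟩ := (Set.toFinite S).exists_le_maximal hxS
  obtain ⟨hR1, hR2, hR3⟩ := hRmax.prop
  have hRW : R ≤ W := hR2.le.trans hTW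
  haveI hRn : (R.subgroupOf W).Normal := (Subgroup.normal_subgroupOf_iff_le_normalizer hRW).mpr hR3
  haveI hTn : (T.subgroupOf W).Normal := (Subgroup.normal_subgroupOf_iff_le_normalizer hTW).mpr hWT
  let π : W →* W ⧸ R.subgroupOf W := QuotientGroup.mk' (R.subgroupOf W)
  have hπs : Function.Surjective π := QuotientGroup.mk'_surjective _
  have hker : ∀ w : W, π w = 1 ↔ (w : G) ∈ R := by
    intro w
    rw [QuotientGroup.mk'_apply, QuotientGroup.eq_one_iff, Subgroup.mem_subgroupOf]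
  have hQ : IsPGroup p (W ⧸ R.subgroupOf W) := hW.to_quotient _
  let Tb : Subgroup (W ⧸ R.subgroupOf W) := (T.subgroupOf W).map π
  haveI hTb : Tb.Normal := Subgroup.Normal.map hTn π hπs
  have hTbne : Tb ≠ ⊥ := by
    obtain ⟨t, ht, htR⟩ := SetLike.exists_of_lt hR2
    intro h0
    have : π ⟨t, hTW ht⟩ ∈ Tb := ⟨⟨t, hTW ht⟩, by simpa [Subgroup.mem_subgroupOf] using ht, rfl⟩
    rw [h0, Subgroup.mem_bot, hker] at this
    exact htR this
  obtain ⟨c, hcT, hc1, hcZ⟩ := Cfsg.Agent.Lib.PuigBasic.exists_mem_center_of_normal hQ Tb hTbne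
  obtain ⟨m, hm⟩ := (IsPGroup.iff_orderOf.mp hQ) c
  have hm0 : m ≠ 0 := by
    rintro rfl
    rw [pow_zero, orderOf_eq_one_iff] at hm
    exact hc1 hm
  obtain ⟨m', rfl⟩ := Nat.exists_eq_succ_of_ne_zero hm0
  let c' := c ^ (p ^ m')
  have hc'o : c' ^ p = 1 := by
    show (c ^ p ^ m') ^ p = 1
    rw [← pow_mul, ← pow_succ, ← hm]
    exact pow_orderOf_eq_one c
  have hc'1 : c' ≠ 1 := by
    intro h
    have := orderOf_dvd_of_pow_eq_one h
    rw [hm] at this
    have h2 := Nat.pow_dvd_pow_iff_le_right hp.out.one_lt |>.mp this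
    omega
  have hc'T : c' ∈ Tb := Tb.pow_mem hcT _
  have hc'Z : c' ∈ Subgroup.center (W ⧸ R.subgroupOf W) := Subgroup.pow_mem _ hcZ _
  obtain ⟨tq, htq, htqc⟩ := hc'T
  have htT : (tq : G) ∈ T := by simpa [Subgroup.mem_subgroupOf] using htq
  have htR : (tq : G) ∉ R := by
    intro h
    apply hc'1
    rw [← htqc]
    exact (hker _).mpr h
  set t : G := (tq : G) with htdef
  have hcom : ∀ g : W, (g : G) * t * (g : G)⁻¹ * t⁻¹ ∈ R := by
    intro g
    have h1 : π (g * tq * g⁻¹ * tq⁻¹) = 1 := by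
      simp only [map_mul, map_inv, htqc]
      have := (Subgroup.mem_center_iff.mp hc'Z) (π g)
      rw [this]
      group
    have := (hker _).mp h1
    simpa using this
  -- the next step of the chain
  have hR1max : R ⊔ Subgroup.zpowers t = T := by
    by_contra hneT
    have hle : R ⊔ Subgroup.zpowers t ≤ T :=
      sup_le hR2.le ((Subgroup.zpowers_le (H := T)).mpr htT)
    have hmem : R ⊔ Subgroup.zpowers t ∈ S := by
      refine ⟨hR1.trans le_sup_left, lt_of_le_of_ne hle hneT, ?_⟩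
      apply le_normalizer_of_conj
      intro g hg w hw
      have h3 : R ⊔ Subgroup.zpowers t ≤ (R ⊔ Subgroup.zpowers t).comap (MulAut.conj g).toMonoidHom := by
        apply sup_le
        · intro a ha
          exact (le_sup_left : R ≤ R ⊔ Subgroup.zpowers t) (conj_mem hR3 hg ha)
        · rw [Subgroup.zpowers_le]
          show g * t * g⁻¹ ∈ R ⊔ Subgroup.zpowers t
          have h4 := hcom ⟨g, hg⟩
          have h5 : g * t * g⁻¹ = (g * t * g⁻¹ * t⁻¹) * t := by group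
          rw [h5]
          exact Subgroup.mul_mem _ ((le_sup_left : R ≤ R ⊔ Subgroup.zpowers t) h4)
            ((le_sup_right : Subgroup.zpowers t ≤ R ⊔ Subgroup.zpowers t) (Subgroup.mem_zpowers t))
      exact h3 hw
    have h6 := hRmax.le_of_ge hmem le_sup_left
    exact htR (h6 ((le_sup_right : Subgroup.zpowers t ≤ R ⊔ Subgroup.zpowers t) (Subgroup.mem_zpowers t)))
  -- every element of `T` lies in the cyclic central subgroup modulo `R`
  have hTc : ∀ τ ∈ T, ∃ τ' : W, (τ' : G) = τ ∧ π τ' ∈ Subgroup.zpowers c' := by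
    have h7 : T ≤ ((Subgroup.zpowers c').comap π).map W.subtype := by
      rw [← hR1max]
      apply sup_le
      · intro r hr
        refine ⟨⟨r, hRW hr⟩, ?_, rfl⟩
        show π ⟨r, hRW hr⟩ ∈ Subgroup.zpowers c'
        rw [(hker ⟨r, hRW hr⟩).mpr hr]
        exact Subgroup.one_mem _
      · rw [Subgroup.zpowers_le]
        refine ⟨tq, ?_, rfl⟩
        show π tq ∈ Subgroup.zpowers c'
        rw [htqc]
        exact Subgroup.mem_zpowers c'
    intro τ hτ
    obtain ⟨τ', h8, h9⟩ := h7 hτ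
    exact ⟨τ', h9, h8⟩
  have haR : aa p z T ≤ R := by
    unfold aa
    rw [Subgroup.closure_le]
    rintro w (⟨τ, hτ, rfl⟩ | ⟨τ, hτ, v, hv, rfl⟩)
    · obtain ⟨τ', rfl, h8⟩ := hTc τ hτ
      obtain ⟨k, hk⟩ := Subgroup.mem_zpowers_iff.mp h8
      have h9 : π (τ' ^ p) = 1 := by
        rw [map_pow, ← hk, ← zpow_natCast, ← zpow_mul, mul_comm, zpow_mul, zpow_natCast, hc'o, one_zpow]
      simpa using (hker _).mp h9
    · obtain ⟨τ', rfl, h8⟩ := hTc τ hτ
      obtain ⟨k, hk⟩ := Subgroup.mem_zpowers_iff.mp h8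
      have h9 : π (τ' * ⟨v, hv⟩ * τ'⁻¹ * (⟨v, hv⟩ : W)⁻¹) = 1 := by
        simp only [map_mul, map_inv, ← hk]
        have h10 := (Subgroup.mem_center_iff.mp (Subgroup.zpow_mem _ hc'Z k) (π ⟨v, hv⟩))
        rw [← h10]
        group
      simpa using (hker _).mp h9
  have := sup_le hR1 haR
  rw [hs] at this
  exact absurd (lt_of_lt_of_le hR2 this) (lt_irrefl _)

/-- The chains of the statement. -/
def IsCh (p : ℕ) (s : Finset (Subgroup G)) : Prop :=
  s.Nonempty ∧ (∀ Q ∈ s, ∀ R ∈ s, Q ≤ R ∨ R ≤ Q) ∧ (∀ Q ∈ s, Q ≠ ⊥ ∧ IsPGroup p Q) ∧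
    ∃ T ∈ s, ∀ Q ∈ s, Q ≤ T ∧ T ≤ 𝐍[Q]

/-- The `A`-invariant chains. -/
noncomputable def ChA (p : ℕ) (A : Subgroup G) : Finset (Finset (Subgroup G)) :=
  Finset.univ.filter (fun s => IsCh p s ∧ ∀ Q ∈ s, A ≤ 𝐍[Q])

/-- The possible tops. -/
noncomputable def YY (p : ℕ) (A : Subgroup G) : Finset (Subgroup G) :=
  Finset.univ.filter (fun Q => Q ≠ ⊥ ∧ IsPGroup p Q ∧ A ≤ 𝐍[Q])

theorem mem_YY {A Q : Subgroup G} : Q ∈ YY p A ↔ Q ≠ ⊥ ∧ IsPGroup p Q ∧ A ≤ 𝐍[Q] := by
  simp [YY]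

theorem mem_ChA {A : Subgroup G} {s : Finset (Subgroup G)} :
    s ∈ ChA p A ↔ IsCh p s ∧ ∀ Q ∈ s, A ≤ 𝐍[Q] := by
  simp [ChA]

/-- Sorting the chains by their top. -/
theorem sum_ChA (A : Subgroup G) :
    ∑ s ∈ ChA p A, (-1 : ℤ) ^ (s.card - 1) =
      ∑ T ∈ YY p A, chainSum (Lat A T) ⊥ T := by
  unfold chainSum
  rw [Finset.sum_sigma']
  refine Finset.sum_nbij' (fun s => ⟨topOf ⊥ s, s.erase (topOf ⊥ s)⟩)
    (fun q => insert q.1 q.2) ?_ ?_ ?_ ?_ ?_
  · intro s hs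
    obtain ⟨⟨hne, hch, hpg, T, hT, hTm⟩, hA⟩ := mem_ChA.mp hs
    have htop : topOf ⊥ s = T := topOf_eq ⊥ hT (fun w hw => (hTm w hw).1) hch
    rw [Finset.mem_sigma]
    simp only [htop]
    refine ⟨mem_YY.mpr ⟨(hpg T hT).1, (hpg T hT).2, hA T hT⟩, ?_⟩
    rw [mem_CC]
    refine ⟨fun y hy => ?_, fun y hy w hw => hch y (Finset.mem_of_mem_erase hy) w
      (Finset.mem_of_mem_erase hw)⟩
    rw [Finset.mem_erase] at hy
    refine ⟨mem_Lat.mpr ⟨(hTm y hy.2).1, (hTm y hy.2).2, hA y hy.2⟩,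
      bot_lt_iff_ne_bot.mpr (hpg y hy.2).1, lt_of_le_of_ne (hTm y hy.2).1 hy.1⟩
  · rintro ⟨T, c⟩ hq
    rw [Finset.mem_sigma] at hq
    obtain ⟨hT, hc⟩ := hq
    obtain ⟨hT1, hT2, hT3⟩ := mem_YY.mp hT
    have hc' := mem_CC.mp hc
    rw [mem_ChA]
    refine ⟨⟨Finset.insert_nonempty _ _, ?_, ?_, T, Finset.mem_insert_self _ _, ?_⟩, ?_⟩
    · intro w hw w' hw'
      rcases Finset.mem_insert.mp hw with rfl | hw1
      · rcases Finset.mem_insert.mp hw' with rfl | hw2
        · exact Or.inl le_rfl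
        · exact Or.inr (hc'.1 w' hw2).2.2.le
      · rcases Finset.mem_insert.mp hw' with rfl | hw2
        · exact Or.inl (hc'.1 w hw1).2.2.le
        · exact hc'.2 w hw1 w' hw2
    · intro Q hQ
      rcases Finset.mem_insert.mp hQ with rfl | hQ1
      · exact ⟨hT1, hT2⟩
      · exact ⟨(hc'.1 Q hQ1).2.1.ne', hT2.to_le (hc'.1 Q hQ1).2.2.le⟩
    · intro Q hQ
      rcases Finset.mem_insert.mp hQ with rfl | hQ1
      · exact ⟨le_rfl, Subgroup.le_normalizer⟩
      · exact ⟨(hc'.1 Q hQ1).2.2.le, (mem_Lat.mp (hc'.1 Q hQ1).1).2.1⟩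
    · intro Q hQ
      rcases Finset.mem_insert.mp hQ with rfl | hQ1
      · exact hT3
      · exact (mem_Lat.mp (hc'.1 Q hQ1).1).2.2
  · intro s hs
    obtain ⟨⟨hne, hch, hpg, T, hT, hTm⟩, hA⟩ := mem_ChA.mp hs
    exact Finset.insert_erase (topOf_spec ⊥ hne hch).1
  · rintro ⟨T, c⟩ hq
    rw [Finset.mem_sigma] at hq
    obtain ⟨hT, hc⟩ := hq
    have hc' := mem_CC.mp hc
    have hTc : T ∉ c := fun h => lt_irrefl T (hc'.1 T h).2.2
    have hch : ∀ w ∈ insert T c, ∀ w' ∈ insert T c, w ≤ w' ∨ w' ≤ w := by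
      intro w hw w' hw'
      rcases Finset.mem_insert.mp hw with rfl | hw1
      · rcases Finset.mem_insert.mp hw' with rfl | hw2
        · exact Or.inl le_rfl
        · exact Or.inr (hc'.1 w' hw2).2.2.le
      · rcases Finset.mem_insert.mp hw' with rfl | hw2
        · exact Or.inl (hc'.1 w hw1).2.2.le
        · exact hc'.2 w hw1 w' hw2
    have h1 : topOf ⊥ (insert T c) = T := by
      refine topOf_eq ⊥ (Finset.mem_insert_self _ _) (fun w hw => ?_) hch
      rcases Finset.mem_insert.mp hw with rfl | hw1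
      · exact le_rfl
      · exact (hc'.1 w hw1).2.2.le
    simp only [h1, Finset.erase_insert hTc]
  · intro s hs
    obtain ⟨⟨hne, hch, hpg, T, hT, hTm⟩, hA⟩ := mem_ChA.mp hs
    have h1 := (topOf_spec ⊥ hne hch).1
    rw [Finset.card_erase_of_mem h1]

section Euler

variable {A : Subgroup G} {z : G}

/-- Vanishing at the non-good subgroups. -/
theorem chainSum_eq_zero (hzA : z ∈ A) (hzc : ∀ a ∈ A, a * z = z * a) (hzo : orderOf z = p)
    {T : Subgroup G} (hT : T ∈ YY p A) (hW : ¬ IsW p z T) : chainSum (Lat A T) ⊥ T = 0 := by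
  obtain ⟨hT1, hT2, hT3⟩ := mem_YY.mp hT
  have hzT : z ∈ 𝐍[T] := hT3 hzA
  have hale := aa_le (p := p) hzT
  have hane : aa p z T ≠ ⊥ := fun h => hW (isW_of_aa_eq_bot h)
  have hTmem : T ∈ Lat A T := self_mem_Lat hT3
  have hAW : A ≤ 𝐍[T ⊔ Subgroup.zpowers z] := by
    refine le_normalizer_sup hT3 ?_
    apply le_normalizer_of_conj
    intro g hg w hw
    obtain ⟨k, rfl⟩ := Subgroup.mem_zpowers_iff.mp hw
    have hcomm : Commute g z := hzc g hg
    have : g * z ^ k * g⁻¹ = z ^ k := by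
      rw [(hcomm.zpow_right k).eq, mul_assoc, mul_inv_cancel, mul_one]
    rw [this]
    exact Subgroup.zpow_mem_zpowers z k
  have hamem : aa p z T ∈ Lat A T := by
    rw [mem_Lat]
    refine ⟨hale, le_normalizer_aa Subgroup.le_normalizer (le_sup_left.trans Subgroup.le_normalizer),
      le_normalizer_aa hT3 hAW⟩
  have h := weisner (L := Lat A T) (b := ⊥) (t := T) (a := aa p z T) (bot_mem_Lat A T)
    (fun y _ => bot_le) hTmem (fun y hy => (mem_Lat.mp hy).1) (fun x hx y hy => sup_mem_Lat hx hy)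
    hamem (bot_lt_iff_ne_bot.mpr hane)
  have h1 : (Lat A T).filter (fun x => x ⊔ aa p z T = T) = {T} := by
    ext x
    simp only [Finset.mem_filter, Finset.mem_singleton]
    constructor
    · rintro ⟨hx, hs⟩
      obtain ⟨h2, h3, h4⟩ := mem_Lat.mp hx
      exact eq_of_sup_aa hT2 hzo hzT h2 h3 (h4 hzA) hs
    · rintro rfl
      exact ⟨hTmem, sup_eq_left.mpr hale⟩
  rw [h1, Finset.sum_singleton, MM_of_ne _ hT1] at h
  simpa using h

/-- The value of the Möbius function of a subgroup. -/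
noncomputable def mm (A T : Subgroup G) : ℤ := MM (Lat A T) ⊥ T

theorem IsW.mono {T x : Subgroup G} (h : IsW p z T) (hx : x ≤ T) : IsW p z x :=
  ⟨fun t ht => h.1 t (hx ht), fun t ht t' ht' => h.2.1 t (hx ht) t' (hx ht'), fun t ht => h.2.2 t (hx ht)⟩

theorem MM_Lat_eq {T x : Subgroup G} (hT : IsW p z T) (hx : x ∈ Lat A T) :
    MM (Lat A T) ⊥ x = mm A x := by
  unfold mm
  by_cases h0 : x = ⊥
  · subst h0
    rw [MM_bot, MM_bot]
  rw [MM_of_ne _ h0, MM_of_ne _ h0]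
  congr 1
  unfold chainSum
  have hxT := (mem_Lat.mp hx).1
  apply Finset.sum_congr _ fun _ _ => rfl
  ext c
  rw [mem_CC, mem_CC]
  constructor
  · rintro ⟨h1, h2⟩
    refine ⟨fun y hy => ⟨?_, (h1 y hy).2⟩, h2⟩
    have hyL := mem_Lat.mp (h1 y hy).1
    exact mem_Lat.mpr ⟨(h1 y hy).2.2.le, le_normalizer_of_comm (hT.mono hxT).2.1 (h1 y hy).2.2.le, hyL.2.2⟩
  · rintro ⟨h1, h2⟩
    refine ⟨fun y hy => ⟨?_, (h1 y hy).2⟩, h2⟩
    have hyL := mem_Lat.mp (h1 y hy).1
    have hyT : y ≤ T := (h1 y hy).2.2.le.trans hxT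
    exact mem_Lat.mpr ⟨hyT, le_normalizer_of_comm hT.2.1 hyT, hyL.2.2⟩

/-- A good subgroup together with `z` is good. -/
theorem isW_sup {x : Subgroup G} (hzo : orderOf z = p) (hx : IsW p z x) :
    IsW p z (x ⊔ Subgroup.zpowers z) := by
  set K := x ⊔ Subgroup.zpowers z with hK
  have h1 : K ≤ Subgroup.centralizer ({z} : Set G) := by
    apply sup_le
    · intro t ht
      rw [Subgroup.mem_centralizer_singleton_iff]
      exact hx.2.2 t ht
    · intro t ht
      rw [Subgroup.mem_centralizer_singleton_iff]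
      obtain ⟨k, rfl⟩ := Subgroup.mem_zpowers_iff.mp ht
      exact ((Commute.refl z).zpow_left k).eq
  have h2 : ∀ y ∈ x, K ≤ Subgroup.centralizer ({y} : Set G) := by
    intro y hy
    apply sup_le
    · intro t ht
      rw [Subgroup.mem_centralizer_singleton_iff]
      exact hx.2.1 t ht y hy
    · intro t ht
      rw [Subgroup.mem_centralizer_singleton_iff]
      obtain ⟨k, rfl⟩ := Subgroup.mem_zpowers_iff.mp ht
      have : Commute z y := (hx.2.2 y hy).symm
      exact (this.zpow_left k).eq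
  have h3 : ∀ t' ∈ K, K ≤ Subgroup.centralizer ({t'} : Set G) := by
    intro t' ht'
    apply sup_le
    · intro t ht
      rw [Subgroup.mem_centralizer_singleton_iff]
      exact (Subgroup.mem_centralizer_singleton_iff.mp (h2 t ht ht')).symm
    · intro t ht
      rw [Subgroup.mem_centralizer_singleton_iff]
      obtain ⟨k, rfl⟩ := Subgroup.mem_zpowers_iff.mp ht
      have : Commute z t' := (Subgroup.mem_centralizer_singleton_iff.mp (h1 ht')).symm
      exact (this.zpow_left k).eq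
  refine ⟨?_, fun t ht t' ht' => Subgroup.mem_centralizer_singleton_iff.mp (h3 t' ht' ht),
    fun t ht => Subgroup.mem_centralizer_singleton_iff.mp (h1 ht)⟩
  -- the exponent
  let S : Subgroup G :=
    { carrier := {t | t ∈ K ∧ t ^ p = 1}
      one_mem' := ⟨K.one_mem, one_pow p⟩
      mul_mem' := by
        rintro a b ⟨ha, ha1⟩ ⟨hb, hb1⟩
        refine ⟨K.mul_mem ha hb, ?_⟩
        have hc : Commute a b := Subgroup.mem_centralizer_singleton_iff.mp (h3 b hb ha)
        rw [hc.mul_pow, ha1, hb1, one_mul]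
      inv_mem' := by
        rintro a ⟨ha, ha1⟩
        exact ⟨K.inv_mem ha, by rw [inv_pow, ha1, inv_one]⟩ }
  have hKS : K ≤ S := by
    apply sup_le
    · intro t ht
      exact ⟨(le_sup_left : x ≤ K) ht, hx.1 t ht⟩
    · intro t ht
      refine ⟨(le_sup_right : Subgroup.zpowers z ≤ K) ht, ?_⟩
      obtain ⟨k, rfl⟩ := Subgroup.mem_zpowers_iff.mp ht
      rw [← zpow_natCast, ← zpow_mul, mul_comm, zpow_mul, zpow_natCast, ← hzo, pow_orderOf_eq_one, one_zpow]
  intro t ht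
  exact (hKS ht).2

/-- **The Euler characteristic of the complex of normal chains.** -/
theorem euler_eq_one (hzA : z ∈ A) (hzc : ∀ a ∈ A, a * z = z * a) (hzo : orderOf z = p) :
    ∑ s ∈ ChA p A, (-1 : ℤ) ^ (s.card - 1) = 1 := by
  have hzp : IsPGroup p (Subgroup.zpowers z) := by
    apply IsPGroup.of_card (n := 1)
    rw [Nat.card_zpowers, hzo, pow_one]
  have hz1 : z ≠ 1 := by
    rintro rfl
    rw [orderOf_one] at hzo
    exact hp.out.one_lt.ne hzo
  have hZne : Subgroup.zpowers z ≠ ⊥ := by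
    intro h
    rw [Subgroup.zpowers_eq_bot] at h
    exact hz1 h
  have hAZ : A ≤ 𝐍[Subgroup.zpowers z] := by
    apply le_normalizer_of_conj
    intro g hg w hw
    obtain ⟨k, rfl⟩ := Subgroup.mem_zpowers_iff.mp hw
    have hcomm : Commute g z := hzc g hg
    have : g * z ^ k * g⁻¹ = z ^ k := by
      rw [(hcomm.zpow_right k).eq, mul_assoc, mul_inv_cancel, mul_one]
    rw [this]
    exact Subgroup.zpow_mem_zpowers z k
  rw [sum_ChA]
  set Y := YY p A with hY
  set YW := Y.filter (IsW p z) with hYW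
  set Y1 := YW.filter (fun T => z ∈ T) with hY1
  set Y0 := YW.filter (fun T => z ∉ T) with hY0
  have h1 : ∑ T ∈ Y, chainSum (Lat A T) ⊥ T = ∑ T ∈ YW, -mm A T := by
    rw [hYW, Finset.sum_filter]
    refine Finset.sum_congr rfl fun T hT => ?_
    by_cases hW : IsW p z T
    · rw [if_pos hW]
      have := (mem_YY.mp hT).1
      unfold mm
      rw [MM_of_ne _ this, neg_neg]
    · rw [if_neg hW]
      exact chainSum_eq_zero hzA hzc hzo hT hW
  -- Weisner at the members of `Y1`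
  have hW1 : ∀ T ∈ Y1, mm A T = -∑ x ∈ (Lat A T).filter (fun x => x ⊔ Subgroup.zpowers z = T ∧ z ∉ x), mm A x := by
    intro T hT
    rw [hY1, Finset.mem_filter, hYW, Finset.mem_filter] at hT
    obtain ⟨⟨hTY, hTW⟩, hzT⟩ := hT
    obtain ⟨hT1, hT2, hT3⟩ := mem_YY.mp hTY
    have hTmem : T ∈ Lat A T := self_mem_Lat hT3
    have hZT : Subgroup.zpowers z ≤ T := (Subgroup.zpowers_le (H := T)).mpr hzT
    have hamem : Subgroup.zpowers z ∈ Lat A T :=
      mem_Lat.mpr ⟨hZT, le_normalizer_of_comm hTW.2.1 hZT, hAZ⟩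
    have h := weisner (L := Lat A T) (b := ⊥) (t := T) (a := Subgroup.zpowers z) (bot_mem_Lat A T)
      (fun y _ => bot_le) hTmem (fun y hy => (mem_Lat.mp hy).1) (fun x hx y hy => sup_mem_Lat hx hy)
      hamem (bot_lt_iff_ne_bot.mpr hZne)
    have h2 : (Lat A T).filter (fun x => x ⊔ Subgroup.zpowers z = T) =
        insert T ((Lat A T).filter (fun x => x ⊔ Subgroup.zpowers z = T ∧ z ∉ x)) := by
      ext x
      simp only [Finset.mem_filter, Finset.mem_insert]
      constructor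
      · rintro ⟨hx, hs⟩
        by_cases hzx : z ∈ x
        · left
          rw [← hs]
          exact (sup_eq_left.mpr ((Subgroup.zpowers_le (H := x)).mpr hzx)).symm
        · exact Or.inr ⟨hx, hs, hzx⟩
      · rintro (rfl | ⟨hx, hs, -⟩)
        · exact ⟨hTmem, sup_eq_left.mpr hZT⟩
        · exact ⟨hx, hs⟩
    have h3 : T ∉ (Lat A T).filter (fun x => x ⊔ Subgroup.zpowers z = T ∧ z ∉ x) := by
      simp [hzT]
    rw [h2, Finset.sum_insert h3] at h
    have h4 : ∑ x ∈ (Lat A T).filter (fun x => x ⊔ Subgroup.zpowers z = T ∧ z ∉ x), MM (Lat A T) ⊥ x =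
        ∑ x ∈ (Lat A T).filter (fun x => x ⊔ Subgroup.zpowers z = T ∧ z ∉ x), mm A x := by
      refine Finset.sum_congr rfl fun x hx => ?_
      exact MM_Lat_eq hTW (Finset.mem_filter.mp hx).1
    rw [h4] at h
    change mm A T + _ = 0 at h
    linarith
  -- the pairing
  have h2 : ∑ T ∈ Y1, ∑ x ∈ (Lat A T).filter (fun x => x ⊔ Subgroup.zpowers z = T ∧ z ∉ x), mm A x =
      ∑ x ∈ insert (⊥ : Subgroup G) Y0, mm A x := by
    rw [Finset.sum_sigma']
    refine Finset.sum_nbij' (fun q => q.2) (fun x => ⟨x ⊔ Subgroup.zpowers z, x⟩) ?_ ?_ ?_ ?_ ?_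
    · rintro ⟨T, x⟩ hq
      obtain ⟨hT, hx'⟩ := Finset.mem_sigma.mp hq
      obtain ⟨hx, hs, hzx⟩ := Finset.mem_filter.mp hx'
      dsimp only at hT hx hs hzx
      rw [hY1, Finset.mem_filter, hYW, Finset.mem_filter] at hT
      obtain ⟨⟨hTY, hTW⟩, hzT⟩ := hT
      obtain ⟨hT1, hT2, hT3⟩ := mem_YY.mp hTY
      obtain ⟨hx1, hx2, hx3⟩ := mem_Lat.mp hx
      simp only
      by_cases h0 : x = ⊥
      · rw [h0]
        exact Finset.mem_insert_self _ _
      · apply Finset.mem_insert_of_mem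
        rw [hY0, Finset.mem_filter, hYW, Finset.mem_filter]
        exact ⟨⟨mem_YY.mpr ⟨h0, hT2.to_le hx1, hx3⟩, hTW.mono hx1⟩, hzx⟩
    · intro x hx
      apply Finset.mem_sigma.mpr
      -- `x` is good
      have hxW : IsW p z x ∧ z ∉ x ∧ IsPGroup p x ∧ A ≤ 𝐍[x] := by
        rcases Finset.mem_insert.mp hx with rfl | hx
        · refine ⟨⟨fun t ht => ?_, fun t ht t' ht' => ?_, fun t ht => ?_⟩, ?_, ?_, ?_⟩
          · rw [Subgroup.mem_bot] at ht
            simp [ht]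
          · rw [Subgroup.mem_bot] at ht ht'
            simp [ht, ht']
          · rw [Subgroup.mem_bot] at ht
            simp [ht]
          · rw [Subgroup.mem_bot]
            exact hz1
          · exact IsPGroup.of_bot
          · exact (mem_Lat.mp (bot_mem_Lat A (⊥ : Subgroup G))).2.2
        · rw [hY0, Finset.mem_filter, hYW, Finset.mem_filter] at hx
          obtain ⟨⟨hxY, hxW⟩, hzx⟩ := hx
          obtain ⟨-, h2, h3⟩ := mem_YY.mp hxY
          exact ⟨hxW, hzx, h2, h3⟩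
      obtain ⟨hxW, hzx, hxp, hxA⟩ := hxW
      have hTW := isW_sup hzo hxW
      have hTp : IsPGroup p (x ⊔ Subgroup.zpowers z : Subgroup G) := by
        apply hxp.to_sup_of_normal_left' hzp
        rw [Subgroup.zpowers_le]
        exact hxA hzA
      have hzT : z ∈ x ⊔ Subgroup.zpowers z :=
        (le_sup_right : Subgroup.zpowers z ≤ x ⊔ Subgroup.zpowers z) (Subgroup.mem_zpowers z)
      refine ⟨?_, Finset.mem_filter.mpr ⟨?_, rfl, hzx⟩⟩
      · show x ⊔ Subgroup.zpowers z ∈ Y1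
        rw [hY1, Finset.mem_filter, hYW, Finset.mem_filter]
        refine ⟨⟨mem_YY.mpr ⟨?_, hTp, le_normalizer_sup hxA hAZ⟩, hTW⟩, hzT⟩
        intro h0
        rw [h0, Subgroup.mem_bot] at hzT
        exact hz1 hzT
      · exact mem_Lat.mpr ⟨le_sup_left, le_normalizer_of_comm hTW.2.1 le_sup_left, hxA⟩
    · rintro ⟨T, x⟩ hq
      obtain ⟨hT, hx'⟩ := Finset.mem_sigma.mp hq
      obtain ⟨hx, hs, hzx⟩ := Finset.mem_filter.mp hx'
      dsimp only at hT hx hs hzx
      simp only [hs]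
    · intro x hx
      rfl
    · intro q hq
      rfl
  have hbot : (⊥ : Subgroup G) ∉ Y0 := by
    rw [hY0, Finset.mem_filter, hYW, Finset.mem_filter]
    rintro ⟨⟨h3, -⟩, -⟩
    exact (mem_YY.mp h3).1 rfl
  rw [h1, Finset.sum_neg_distrib, ← Finset.sum_filter_add_sum_filter_not YW (fun T => z ∈ T),
    Finset.sum_congr rfl hW1, Finset.sum_neg_distrib, h2, Finset.sum_insert hbot]
  have : mm A (⊥ : Subgroup G) = 1 := MM_bot _ _
  rw [this]
  ring

end Euler

end Main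

end Cfsg.Agent.Lib.NChainG
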