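import Mathlib
import Cfsg.Agent.Lib.NChainG
import Cfsg.Agent.Lib.NChainB

/-!
# The alternating sum over normal chains of `p`-subgroups: local part and Möbius inversion
-/

set_option autoImplicit false
set_option linter.unusedSectionVars false
set_option linter.unusedVariables false
set_option linter.style.haveILetI false

namespace Cfsg.Agent.Lib.NChainC

open Cfsg Cfsg.Agent.Lib.CharBasic Cfsg.Agent.Lib.CharInd Cfsg.Agent.Lib.CharIntegrality
open Cfsg.Agent.Lib.BlockLocal Cfsg.Agent.Lib.BlockIdem Cfsg.Agent.Lib.BlockQ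
open Cfsg.Agent.Lib.BlockOrtho Cfsg.Agent.Lib.BlockSubsection Cfsg.Agent.Lib.BrauerPair
open Cfsg.Agent.Lib.BlkOrth Cfsg.Agent.Lib.BlockKL Cfsg.Agent.Lib.BrauerConj
open Cfsg.Agent.Lib.BlockSecond Cfsg.Agent.Lib.BlkBasic Cfsg.Agent.Lib.NChainB
open Cfsg.Agent.Lib.NChainG
open scoped ComplexConjugate Classical

universe u

variable {G : Type u} [Group G] [Finite G] {p : ℕ} {M : Ideal AlgInt}

local notation "𝐍[" Q "]" => Subgroup.normalizer ((Q : Subgroup G) : Set G)

attribute [local instance] Cfsg.Agent.Lib.NChainG.fintypeSubNC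

section Local

/-- The local contribution of a subgroup. -/
noncomputable def ell (M : Ideal AlgInt) (p : ℕ) (b : Set (IrrCharacter G)) (J : Subgroup G) : ℂ :=
  ∑ F : BlockT M J, if IsInducedBlock M J F.1 b then (blockRank p F.1 : ℂ) else 0

/-- The weighted local contribution of a subgroup. -/
noncomputable def FF (M : Ideal AlgInt) (p : ℕ) (b : Set (IrrCharacter G)) (J : Subgroup G) : ℂ :=
  (Nat.card J : ℂ) * ell M p b J

variable (H : Subgroup G) (y : H)

/-- The centralizer in `H` of an element of `H`, as a subgroup of `G`. -/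
def eJ : Subgroup.centralizer ({y} : Set H) ≃* ((H ⊓ Subgroup.centralizer ({(y : G)} : Set G) : Subgroup G) : Type u) where
  toFun x := ⟨x.1.1, x.1.2, by
    show ((x : H) : G) ∈ Subgroup.centralizer ({(y : G)} : Set G)
    rw [Subgroup.mem_centralizer_singleton_iff]
    have := congrArg Subtype.val (Subgroup.mem_centralizer_singleton_iff.mp x.2)
    exact this⟩
  invFun x := ⟨⟨x.1, x.2.1⟩, by
    rw [Subgroup.mem_centralizer_singleton_iff]
    exact Subtype.ext (Subgroup.mem_centralizer_singleton_iff.mp x.2.2)⟩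
  left_inv x := rfl
  right_inv x := rfl
  map_mul' x x' := rfl

theorem eJ_coe (x : Subgroup.centralizer ({y} : Set H)) : ((eJ H y x : _) : G) = ((x : H) : G) := rfl

theorem classIndicator_coe_isClass (g : G) :
    IsClassFunction H (fun x : H => ((classIndicator g (x : G) : ℤ) : ℂ)) := by
  intro x h
  have h1 : IsConj g (((h * x * h⁻¹ : H) : G)) ↔ IsConj g (x : G) := by
    have h2 : IsConj (x : G) (((h * x * h⁻¹ : H) : G)) := isConj_iff.mpr ⟨(h : G), by simp⟩
    exact ⟨fun h3 => h3.trans h2.symm, fun h3 => h3.trans h2⟩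
  show ((classIndicator g ((h * x * h⁻¹ : H) : G) : ℤ) : ℂ) = ((classIndicator g (x : G) : ℤ) : ℂ)
  by_cases h3 : IsConj g (x : G)
  · rw [classIndicator_of_conj h3, classIndicator_of_conj (h1.mpr h3)]
  · rw [classIndicator_of_not_conj h3, classIndicator_of_not_conj (fun h4 => h3 (h1.mp h4))]

theorem induced_twist_sub [M.IsPrime] (θ : IrrCharacter (Subgroup.centralizer ({y} : Set H)))
    (ξ : IrrCharacter H)
    (h : ∀ x : H, MemLocalIdeal M (inducedCentralChar (Subgroup.centralizer ({y} : Set H))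
      (θ : Subgroup.centralizer ({y} : Set H) → ℂ) x -
      centralChar (ξ : H → ℂ) x)) (g : G) :
    MemLocalIdeal M (inducedCentralChar (H ⊓ Subgroup.centralizer ({(y : G)} : Set G))
      (twistE (eJ H y) θ : ((H ⊓ Subgroup.centralizer ({(y : G)} : Set G) : Subgroup G) : Type u) → ℂ) g -
        inducedCentralChar H (ξ : H → ℂ) g) := by
  letI : Fintype G := Fintype.ofFinite G
  letI : Fintype H := Fintype.ofFinite H
  letI : Fintype (Subgroup.centralizer ({y} : Set H)) := Fintype.ofFinite _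
  letI : Fintype ((H ⊓ Subgroup.centralizer ({(y : G)} : Set G) : Subgroup G) : Type u) := Fintype.ofFinite _
  rw [inducedCentralChar_eq_sum, inducedCentralChar_eq_sum]
  have h1 := induced_trans (M := M) (K := H) (Subgroup.centralizer ({y} : Set H))
    (θ : Subgroup.centralizer ({y} : Set H) → ℂ) ξ h
    (classIndicator_coe_isClass H g) (fun x => memLocalRing_intCast _)
  have h2 : ∑ x : ((H ⊓ Subgroup.centralizer ({(y : G)} : Set G) : Subgroup G) : Type u),
      ((classIndicator g (x : G) : ℤ) : ℂ) *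
        (twistE (eJ H y) θ : ((H ⊓ Subgroup.centralizer ({(y : G)} : Set G) : Subgroup G) : Type u) → ℂ) x /
        (twistE (eJ H y) θ : ((H ⊓ Subgroup.centralizer ({(y : G)} : Set G) : Subgroup G) : Type u) → ℂ) 1 =
      ∑ j : Subgroup.centralizer ({y} : Set H), ((classIndicator g ((j : H) : G) : ℤ) : ℂ) *
        (θ : Subgroup.centralizer ({y} : Set H) → ℂ) j / (θ : Subgroup.centralizer ({y} : Set H) → ℂ) 1 := by
    rw [← Equiv.sum_comp (eJ H y).toEquiv]
    refine Finset.sum_congr rfl fun j _ => ?_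
    simp [twistE_apply, eJ_coe]
  rw [h2]
  have h3 : ∑ x : H, ((classIndicator g (x : G) : ℤ) : ℂ) * (ξ : H → ℂ) x / (ξ : H → ℂ) 1 =
      omega (ξ : H → ℂ) (fun x : H => ((classIndicator g (x : G) : ℤ) : ℂ)) := by
    unfold omega
    rw [Finset.sum_div]
  rw [h3]
  exact h1

theorem isPBlock_nonempty' [M.IsPrime] {K : Type u} [Group K] [Finite K] {B : Set (IrrCharacter K)}
    (hB : IsPBlock M B) : B.Nonempty := by
  letI : Fintype K := Fintype.ofFinite K
  obtain ⟨χ, rfl⟩ := hB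
  exact ⟨χ, mem_blockOf_self χ⟩

/-- **Transitivity of block induction.** -/
theorem isInduced_iff (hM : IsPModular p M) {b : Set (IrrCharacter G)} (hb : IsPBlock M b)
    (hy : ∃ k : ℕ, orderOf y = p ^ k) {F : Set (IrrCharacter (Subgroup.centralizer ({y} : Set H)))}
    (hF : IsPBlock M F) :
    (∃ β : Set (IrrCharacter H), IsInducedBlock M (Subgroup.centralizer ({y} : Set H)) F β ∧
      IsInducedBlock M H β b) ↔
    IsInducedBlock M (H ⊓ Subgroup.centralizer ({(y : G)} : Set G)) (twistSetE (eJ H y) F) b := by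
  haveI := isPrime_of_isPModular hM
  haveI : Fact p.Prime := ⟨hM.1⟩
  letI : Fintype H := Fintype.ofFinite H
  constructor
  · rintro ⟨β, hβ1, hβ2⟩
    refine ⟨isPBlock_twistSetE _ hF, hb, ?_⟩
    rintro _ ⟨θ, hθ, rfl⟩ χ hχ g
    obtain ⟨ξ, hξ⟩ := isPBlock_nonempty' hβ1.2.1
    have h1 := induced_twist_sub H y θ ξ (hβ1.2.2 θ hθ ξ hξ) g
    have h2 := hβ2.2.2 ξ hξ χ hχ g
    have h3 := memLocalIdeal_add h1 h2
    simpa using h3
  · intro h
    have hzg : IsPGroup p (Subgroup.zpowers y) := by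
      obtain ⟨k, hk⟩ := hy
      apply IsPGroup.of_card (n := k)
      rw [Nat.card_zpowers, hk]
    have hH' : Subgroup.centralizer ({y} : Set H) = Subgroup.centralizer ((Subgroup.zpowers y : Subgroup H) : Set H) := by
      rw [centralizer_zpowers_eq]
    obtain ⟨β, hβ⟩ := exists_isInducedBlock_centralizer hM hzg hH' hF
    refine ⟨β, hβ, hβ.2.1, hb, fun ξ hξ χ hχ g => ?_⟩
    obtain ⟨θ, hθ⟩ := isPBlock_nonempty' hF
    have h1 := induced_twist_sub H y θ ξ (hβ.2.2 θ hθ ξ hξ) g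
    have h2 := h.2.2 (twistE (eJ H y) θ) ⟨θ, hθ, rfl⟩ χ hχ g
    have h3 := memLocalIdeal_sub h2 h1
    simpa using h3

/-- Uniqueness of the induced block. -/
theorem induced_unique [Fact p.Prime] (hM : IsPModular p M) {K : Type u} [Group K] [Finite K] (J : Subgroup K)
    {F : Set (IrrCharacter J)} {β β' : Set (IrrCharacter K)}
    (h : IsInducedBlock M J F β) (h' : IsInducedBlock M J F β') : β = β' := by
  haveI := isPrime_of_isPModular hM
  letI : Fintype K := Fintype.ofFinite K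
  obtain ⟨θ, hθ⟩ := isPBlock_nonempty' h.1
  obtain ⟨ξ, hξ⟩ := isPBlock_nonempty' h.2.1
  obtain ⟨ξ', hξ'⟩ := isPBlock_nonempty' h'.2.1
  have hsame : SameBlock M (ξ : K → ℂ) (ξ' : K → ℂ) := by
    intro g
    have h1 := h.2.2 θ hθ ξ hξ g
    have h2 := h'.2.2 θ hθ ξ' hξ' g
    have h3 := memLocalIdeal_sub h2 h1
    simpa using h3
  rcases eq_or_disjoint_of_isPBlock h.2.1 h'.2.1 with h1 | h1
  · exact h1
  · exfalso
    refine Set.disjoint_left.mp h1 hξ ?_
    obtain ⟨χ₀, hχ₀⟩ := h'.2.1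
    rw [hχ₀] at hξ' ⊢
    exact sameBlock_trans hξ' (sameBlock_symm hsame)

/-- **The local formula.** -/
theorem term_eq [Fintype G] (hM : IsPModular p M) {b : Set (IrrCharacter G)} (hb : IsPBlock M b) :
    (Nat.card H : ℂ) * ((Nat.card {ψ : IrrCharacter H | ∃ β : Set (IrrCharacter H), ψ ∈ β ∧
        IsInducedBlock M H β b} : ℂ) -
      (blockRank p {ψ : IrrCharacter H | ∃ β : Set (IrrCharacter H), ψ ∈ β ∧
        IsInducedBlock M H β b} : ℂ)) =
    ∑ u : G, if (∃ k : ℕ, orderOf u = p ^ k) ∧ u ≠ 1 ∧ u ∈ H then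
      FF M p b (H ⊓ Subgroup.centralizer ({u} : Set G)) else 0 := by
  haveI := isPrime_of_isPModular hM
  haveI : Fact p.Prime := ⟨hM.1⟩
  letI : Fintype H := Fintype.ofFinite H
  let 𝓑 : Finset (BlockT M H) := Finset.univ.filter (fun β => IsInducedBlock M H β.1 b)
  have hS : {ψ : IrrCharacter H | ∃ β : Set (IrrCharacter H), ψ ∈ β ∧ IsInducedBlock M H β b} = unionB 𝓑 := by
    ext ψ
    constructor
    · rintro ⟨β, hψ, hβ⟩
      exact ⟨⟨β, hβ.1⟩, by simpa [𝓑] using hβ, hψ⟩
    · rintro ⟨β, hβ, hψ⟩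
      exact ⟨β.1, hψ, by simpa [𝓑] using hβ⟩
  rw [hS]
  have hcard : Nat.card (unionB 𝓑) = (bF (unionB 𝓑)).card := by
    rw [Nat.card_coe_set_eq, Set.ncard_eq_toFinset_card _ (Set.toFinite _)]
    rfl
  rw [hcard, card_sub_rank_unionB hM]
  -- the local step
  have key : ∀ z : H, (∃ k : ℕ, orderOf z = p ^ k) → ∑ β ∈ 𝓑, vz p β.1 z =
      FF M p b (H ⊓ Subgroup.centralizer ({(z : G)} : Set G)) := by
    intro z hz
    have h1 : ∀ β ∈ 𝓑, vz p β.1 z = (Nat.card (Subgroup.centralizer ({z} : Set H)) : ℂ) *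
        ∑ F : BlockT M (Subgroup.centralizer ({z} : Set H)),
          if IsInducedBlock M (Subgroup.centralizer ({z} : Set H)) F.1 β.1 then
            (blockRank p F.1 : ℂ) else 0 := fun β _ => vz_eq hM β.2 hz
    rw [Finset.sum_congr rfl h1, ← Finset.mul_sum, Finset.sum_comm]
    have h2 : ∀ F : BlockT M (Subgroup.centralizer ({z} : Set H)),
        (∑ β ∈ 𝓑, if IsInducedBlock M (Subgroup.centralizer ({z} : Set H)) F.1 β.1 then
            (blockRank p F.1 : ℂ) else 0) =
        if (∃ β : Set (IrrCharacter H), IsInducedBlock M (Subgroup.centralizer ({z} : Set H)) F.1 β ∧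
          IsInducedBlock M H β b) then (blockRank p F.1 : ℂ) else 0 := by
      intro F
      by_cases hex : ∃ β : Set (IrrCharacter H), IsInducedBlock M (Subgroup.centralizer ({z} : Set H)) F.1 β ∧
          IsInducedBlock M H β b
      · rw [if_pos hex]
        obtain ⟨β, hβ1, hβ2⟩ := hex
        have hmem : (⟨β, hβ2.1⟩ : BlockT M H) ∈ 𝓑 := by simpa [𝓑] using hβ2
        rw [Finset.sum_eq_single (⟨β, hβ2.1⟩ : BlockT M H)]
        · rw [if_pos hβ1]
        · intro β' _ hne
          rw [if_neg]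
          intro h3
          exact hne (Subtype.ext (induced_unique hM _ h3 hβ1))
        · intro h3
          exact absurd hmem h3
      · rw [if_neg hex]
        apply Finset.sum_eq_zero
        intro β hβ
        rw [if_neg]
        intro h3
        exact hex ⟨β.1, h3, by simpa [𝓑] using hβ⟩
    rw [Finset.sum_congr rfl fun F _ => h2 F]
    unfold FF ell
    rw [Nat.card_congr (eJ H z).toEquiv]
    congr 1
    refine Eq.trans (Finset.sum_congr rfl fun F _ => ?_) (sum_twist (p := p) (M := M) (eJ H z)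
      (fun F => ∃ β : Set (IrrCharacter H),
        IsInducedBlock M (Subgroup.centralizer ({z} : Set H)) F β ∧ IsInducedBlock M H β b)
      (fun F => IsInducedBlock M (H ⊓ Subgroup.centralizer ({(z : G)} : Set G)) F b)
      (fun F hF => isInduced_iff H z hM hb hz hF))
    split_ifs <;> rfl
  -- the sum over `H`
  have h1 : ∀ z : H, (if (∃ k : ℕ, orderOf z = p ^ k) ∧ z ≠ 1 then ∑ β ∈ 𝓑, vz p β.1 z else 0) =
      if (∃ k : ℕ, orderOf (z : G) = p ^ k) ∧ (z : G) ≠ 1 then
        FF M p b (H ⊓ Subgroup.centralizer ({(z : G)} : Set G)) else 0 := by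
    intro z
    have ho : orderOf (z : G) = orderOf z := Subgroup.orderOf_coe z
    have hne : (z : G) ≠ 1 ↔ z ≠ 1 := by simp
    rw [ho]
    by_cases h2 : (∃ k : ℕ, orderOf z = p ^ k) ∧ z ≠ 1
    · rw [if_pos h2, if_pos ⟨h2.1, hne.mpr h2.2⟩, key z h2.1]
    · rw [if_neg h2, if_neg (fun h3 => h2 ⟨h3.1, hne.mp h3.2⟩)]
  refine Eq.trans (Finset.sum_congr rfl fun z _ => ?_) (?_ : ∑ z : H, (if (∃ k : ℕ, orderOf (z : G) = p ^ k) ∧ (z : G) ≠ 1 then
      FF M p b (H ⊓ Subgroup.centralizer ({(z : G)} : Set G)) else 0) = _)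
  · rw [← h1 z]
    split_ifs <;> rfl
  have h2 : ∑ u ∈ Finset.univ.filter (· ∈ H), (if (∃ k : ℕ, orderOf u = p ^ k) ∧ u ≠ 1 then
        FF M p b (H ⊓ Subgroup.centralizer ({u} : Set G)) else 0) =
      ∑ z : H, (if (∃ k : ℕ, orderOf (z : G) = p ^ k) ∧ (z : G) ≠ 1 then
        FF M p b (H ⊓ Subgroup.centralizer ({(z : G)} : Set G)) else 0) :=
    Finset.sum_subtype (Finset.univ.filter (· ∈ H)) (by simp) _
  rw [← h2, Finset.sum_filter]
  refine Finset.sum_congr rfl fun u _ => ?_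
  by_cases h3 : u ∈ H
  · by_cases h4 : (∃ k : ℕ, orderOf u = p ^ k) ∧ u ≠ 1
    · simp only [if_pos h3, if_pos h4, if_pos (show (∃ k : ℕ, orderOf u = p ^ k) ∧ u ≠ 1 ∧ u ∈ H from ⟨h4.1, h4.2, h3⟩)]
    · rw [if_pos h3, if_neg h4, if_neg (fun h5 => h4 ⟨h5.1, h5.2.1⟩)]
  · rw [if_neg h3, if_neg (fun h5 => h3 h5.2.2)]

end Local

section Mobius

/-- The stabilizer of a chain. -/
noncomputable def NN (s : Finset (Subgroup G)) : Subgroup G := ⨅ Q ∈ s, 𝐍[Q]

theorem mem_NN {s : Finset (Subgroup G)} {x : G} : x ∈ NN s ↔ ∀ Q ∈ s, x ∈ 𝐍[Q] := by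
  simp [NN, Subgroup.mem_iInf]

theorem le_NN {s : Finset (Subgroup G)} {J : Subgroup G} : J ≤ NN s ↔ ∀ Q ∈ s, J ≤ 𝐍[Q] := by
  simp [NN]

variable [hp : Fact p.Prime]

/-- The chains fixed by `u`. -/
noncomputable def Xu (p : ℕ) (u : G) : Finset (Finset (Subgroup G)) :=
  Finset.univ.filter (fun s => IsCh p s ∧ u ∈ NN s)

theorem sum_Xu_le {u : G} (hu : ∃ k : ℕ, orderOf u = p ^ k) (hu1 : u ≠ 1) {J : Subgroup G}
    (hJ : J ≤ Subgroup.centralizer ({u} : Set G)) :
    ∑ s ∈ Xu p u, (if J ≤ NN s then (-1 : ℤ) ^ (s.card - 1) else 0) = 1 := by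
  obtain ⟨k, hk⟩ := hu
  have hk0 : k ≠ 0 := by
    rintro rfl
    rw [pow_zero, orderOf_eq_one_iff] at hk
    exact hu1 hk
  obtain ⟨k, rfl⟩ := Nat.exists_eq_succ_of_ne_zero hk0
  set z := u ^ (p ^ k) with hz
  have hzo : orderOf z = p := by
    rw [hz, orderOf_pow_of_dvd (pow_ne_zero _ hp.out.ne_zero) (by rw [hk]; exact pow_dvd_pow _ (Nat.le_succ k)), hk,
      Nat.succ_eq_add_one, pow_succ, Nat.mul_div_cancel_left _ (pow_pos hp.out.pos _)]
  set A := J ⊔ Subgroup.zpowers u with hA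
  have huA : u ∈ A := (le_sup_right : Subgroup.zpowers u ≤ A) (Subgroup.mem_zpowers u)
  have hzA : z ∈ A := A.pow_mem huA _
  have hAc : A ≤ Subgroup.centralizer ({z} : Set G) := by
    have h1 : Subgroup.centralizer ({u} : Set G) ≤ Subgroup.centralizer ({z} : Set G) := by
      intro x hx
      rw [Subgroup.mem_centralizer_singleton_iff] at hx ⊢
      have hc : Commute x u := hx
      exact (hc.pow_right _).eq
    apply sup_le (hJ.trans h1)
    rw [Subgroup.zpowers_le, Subgroup.mem_centralizer_singleton_iff]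
    exact ((Commute.refl u).pow_right _).eq
  have hzc : ∀ a ∈ A, a * z = z * a := fun a ha => Subgroup.mem_centralizer_singleton_iff.mp (hAc ha)
  have h1 := euler_eq_one (p := p) (A := A) hzA hzc hzo
  refine Eq.trans ?_ h1
  rw [← Finset.sum_filter]
  apply Finset.sum_congr _ fun _ _ => rfl
  ext s
  simp only [Finset.mem_filter, Xu, Finset.mem_univ, true_and, mem_ChA]
  constructor
  · rintro ⟨⟨h2, h3⟩, h4⟩
    refine ⟨h2, fun Q hQ => sup_le (le_NN.mp h4 Q hQ) ?_⟩
    rw [Subgroup.zpowers_le]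
    exact mem_NN.mp h3 Q hQ
  · rintro ⟨h2, h3⟩
    exact ⟨⟨h2, mem_NN.mpr fun Q hQ => h3 Q hQ huA⟩, le_NN.mpr fun Q hQ => le_sup_left.trans (h3 Q hQ)⟩

/-- **Möbius inversion on the stabilizers.** -/
theorem mobius {u : G} (hu : ∃ k : ℕ, orderOf u = p ^ k) (hu1 : u ≠ 1) (f : Subgroup G → ℂ) :
    ∑ s ∈ Xu p u, (((-1 : ℤ) ^ (s.card - 1) : ℤ) : ℂ) * f (NN s ⊓ Subgroup.centralizer ({u} : Set G)) =
      f (Subgroup.centralizer ({u} : Set G)) := by
  set L := Subgroup.centralizer ({u} : Set G) with hL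
  let w : Finset (Subgroup G) → ℤ := fun s => (-1 : ℤ) ^ (s.card - 1)
  let c : Subgroup G → ℤ := fun J => ∑ s ∈ Xu p u, if NN s ⊓ L = J then w s else 0
  have hsum : ∀ J, J ≤ L → ∑ J' ∈ Finset.univ.filter (fun J' => J ≤ J' ∧ J' ≤ L), c J' = 1 := by
    intro J hJ
    have h1 := sum_Xu_le hu hu1 hJ
    refine Eq.trans ?_ h1
    simp only [c]
    rw [Finset.sum_comm]
    refine Finset.sum_congr rfl fun s _ => ?_
    rw [Finset.sum_ite_eq]
    by_cases h2 : J ≤ NN s
    · rw [if_pos h2, if_pos]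
      rw [Finset.mem_filter]
      exact ⟨Finset.mem_univ _, le_inf h2 hJ, inf_le_right⟩
    · rw [if_neg h2, if_neg]
      rw [Finset.mem_filter]
      rintro ⟨-, h3, -⟩
      exact h2 (h3.trans inf_le_left)
  have hc : ∀ J : Subgroup G, J ≤ L → c J = if J = L then 1 else 0 := by
    intro J
    induction J using WellFoundedGT.induction with
    | ind J ih =>
      intro hJ
      have h1 := hsum J hJ
      have hJmem : J ∈ Finset.univ.filter (fun J' => J ≤ J' ∧ J' ≤ L) := by
        rw [Finset.mem_filter]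
        exact ⟨Finset.mem_univ _, le_rfl, hJ⟩
      rw [← Finset.add_sum_erase _ _ hJmem] at h1
      by_cases hJL : J = L
      · rw [if_pos hJL]
        have h2 : ∑ J' ∈ (Finset.univ.filter (fun J' => J ≤ J' ∧ J' ≤ L)).erase J, c J' = 0 := by
          apply Finset.sum_eq_zero
          intro J' hJ'
          rw [Finset.mem_erase, Finset.mem_filter] at hJ'
          obtain ⟨h3, -, h4, h5⟩ := hJ'
          exact absurd (le_antisymm (h5.trans hJL.ge) h4) h3
        rw [h2, add_zero] at h1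
        exact h1
      · rw [if_neg hJL]
        have h2 : ∑ J' ∈ (Finset.univ.filter (fun J' => J ≤ J' ∧ J' ≤ L)).erase J, c J' = 1 := by
          have hLmem : L ∈ (Finset.univ.filter (fun J' => J ≤ J' ∧ J' ≤ L)).erase J := by
            rw [Finset.mem_erase, Finset.mem_filter]
            exact ⟨Ne.symm hJL, Finset.mem_univ _, hJ, le_rfl⟩
          rw [Finset.sum_eq_single L]
          · rw [ih L (lt_of_le_of_ne hJ hJL) le_rfl, if_pos rfl]
          · intro J' hJ' hne
            rw [Finset.mem_erase, Finset.mem_filter] at hJ'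
            obtain ⟨h3, -, h4, h5⟩ := hJ'
            rw [ih J' (lt_of_le_of_ne h4 (Ne.symm h3)) h5, if_neg hne]
          · intro h3
            exact absurd hLmem h3
        rw [h2] at h1
        linarith
  have hc0 : ∀ J : Subgroup G, ¬ J ≤ L → c J = 0 := by
    intro J hJ
    apply Finset.sum_eq_zero
    intro s _
    rw [if_neg]
    rintro rfl
    exact hJ inf_le_right
  have h3 : ∑ s ∈ Xu p u, ((w s : ℤ) : ℂ) * f (NN s ⊓ L) =
      ∑ J : Subgroup G, ((c J : ℤ) : ℂ) * f J := by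
    simp only [c]
    push_cast
    simp_rw [Finset.sum_mul]
    rw [Finset.sum_comm]
    refine Finset.sum_congr rfl fun s _ => ?_
    rw [Finset.sum_eq_single (NN s ⊓ L)]
    · rw [if_pos rfl]
    · intro J _ hJ
      rw [if_neg (Ne.symm hJ), zero_mul]
    · intro h
      exact absurd (Finset.mem_univ _) h
  have h4 : ∑ s ∈ Xu p u, (((-1 : ℤ) ^ (s.card - 1) : ℤ) : ℂ) * f (NN s ⊓ L) =
      ∑ s ∈ Xu p u, ((w s : ℤ) : ℂ) * f (NN s ⊓ L) := rfl
  rw [h4, h3, Finset.sum_eq_single L]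
  · rw [hc L le_rfl, if_pos rfl]
    simp
  · intro J _ hJ
    by_cases h5 : J ≤ L
    · rw [hc J h5, if_neg hJ]
      simp
    · rw [hc0 J h5]
      simp
  · intro h
    exact absurd (Finset.mem_univ _) h

/-- **The alternating sum over normal chains.** -/
theorem main_chain (hM : IsPModular p M) {b : Set (IrrCharacter G)} (hb : IsPBlock M b) :
    (Nat.card G : ℤ) * ((Nat.card b : ℤ) - (blockRank p b : ℤ)) =
      ∑ᶠ s ∈ {s : Finset (Subgroup G) | IsCh p s}, (-1 : ℤ) ^ (s.card - 1) * (Nat.card (NN s) : ℤ) *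
        ((Nat.card {ψ : IrrCharacter (NN s) | ∃ β : Set (IrrCharacter (NN s)), ψ ∈ β ∧
            IsInducedBlock M (NN s) β b} : ℤ) -
          (blockRank p {ψ : IrrCharacter (NN s) | ∃ β : Set (IrrCharacter (NN s)), ψ ∈ β ∧
            IsInducedBlock M (NN s) β b} : ℤ)) := by
  letI : Fintype G := Fintype.ofFinite G
  haveI := isPrime_of_isPModular hM
  set Ch : Finset (Finset (Subgroup G)) := Finset.univ.filter (IsCh p) with hCh
  have hset : {s : Finset (Subgroup G) | IsCh p s} = (Ch : Set (Finset (Subgroup G))) := by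
    ext s
    simp [hCh]
  rw [hset, finsum_mem_coe_finset]
  apply Int.cast_injective (α := ℂ)
  push_cast
  have hcard : Nat.card b = (bF b).card := by
    rw [Nat.card_coe_set_eq, Set.ncard_eq_toFinset_card _ (Set.toFinite _)]
    rfl
  rw [hcard, card_sub_rank hM hb]
  have h1 : ∀ s ∈ Ch, ((-1 : ℂ) ^ (s.card - 1)) * (Nat.card (NN s) : ℂ) *
      ((Nat.card {ψ : IrrCharacter (NN s) | ∃ β : Set (IrrCharacter (NN s)), ψ ∈ β ∧
            IsInducedBlock M (NN s) β b} : ℂ) -
          (blockRank p {ψ : IrrCharacter (NN s) | ∃ β : Set (IrrCharacter (NN s)), ψ ∈ β ∧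
            IsInducedBlock M (NN s) β b} : ℂ)) =
      ∑ u : G, (-1 : ℂ) ^ (s.card - 1) * if (∃ k : ℕ, orderOf u = p ^ k) ∧ u ≠ 1 ∧ u ∈ NN s then
        FF M p b (NN s ⊓ Subgroup.centralizer ({u} : Set G)) else 0 := by
    intro s _
    rw [mul_assoc, term_eq (NN s) hM hb, Finset.mul_sum]
  rw [Finset.sum_congr rfl h1, Finset.sum_comm]
  refine Finset.sum_congr rfl fun u _ => ?_
  by_cases hu : (∃ k : ℕ, orderOf u = p ^ k) ∧ u ≠ 1
  · rw [if_pos hu]
    have h2 := mobius hu.1 hu.2 (FF M p b)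
    have h3 : vz p b u = FF M p b (Subgroup.centralizer ({u} : Set G)) := by
      rw [vz_eq hM hb hu.1]
      rfl
    rw [h3, ← h2]
    unfold Xu
    rw [Finset.sum_filter, hCh, Finset.sum_filter]
    refine Finset.sum_congr rfl fun s _ => ?_
    by_cases hs : IsCh p s
    · by_cases h4 : u ∈ NN s
      · simp only [if_pos hs, if_pos (show IsCh p s ∧ u ∈ NN s from ⟨hs, h4⟩),
          if_pos (show (∃ k : ℕ, orderOf u = p ^ k) ∧ u ≠ 1 ∧ u ∈ NN s from ⟨hu.1, hu.2, h4⟩)]
        push_cast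
        rfl
      · simp only [if_pos hs, if_neg (show ¬ (IsCh p s ∧ u ∈ NN s) from fun h5 => h4 h5.2),
          if_neg (show ¬ ((∃ k : ℕ, orderOf u = p ^ k) ∧ u ≠ 1 ∧ u ∈ NN s) from fun h5 => h4 h5.2.2), mul_zero]
    · simp only [if_neg hs, if_neg (show ¬ (IsCh p s ∧ u ∈ NN s) from fun h5 => hs h5.1)]
  · rw [if_neg hu]
    symm
    apply Finset.sum_eq_zero
    intro s _
    rw [if_neg (fun h5 => hu ⟨h5.1, h5.2.1⟩), mul_zero]

end Mobius

end Cfsg.Agent.Lib.NChainC
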