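import Mathlib
import Cfsg.Agent.Lib.UniqueSub
import Cfsg.Agent.S0201

/-!
# Central involutions

A finite group of even order in which distinct involutions never commute and with no nontrivial
normal subgroup of odd order has a central involution.  (Sylow `2`-subgroups are cyclic or generalized
quaternion: Burnside's transfer theorem or the Brauer–Suzuki theorem.)
-/

set_option autoImplicit false
set_option linter.unusedSectionVars false
set_option linter.style.haveILetI false

namespace Cfsg.Agent.Lib.NagaoCI

theorem exists_central_involution {X : Type*} [Group X] [Finite X]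
    (hev : Even (Nat.card X))
    (huniq : ∀ a b : X, a * a = 1 → b * b = 1 → a ≠ 1 → b ≠ 1 → a * b = b * a → a = b)
    (hO : ∀ N : Subgroup X, N.Normal → Odd (Nat.card N) → N = ⊥) :
    ∃ z : X, z ≠ 1 ∧ z * z = 1 ∧ ∀ g, g * z = z * g := by
  classical
  haveI hp2 : Fact (Nat.Prime 2) := ⟨Nat.prime_two⟩
  obtain ⟨S⟩ : Nonempty (Sylow 2 X) := inferInstance
  have hScard : Nat.card (S : Subgroup X) = 2 ^ (Nat.card X).factorization 2 :=
    Sylow.card_eq_multiplicity S
  have hfac : 0 < (Nat.card X).factorization 2 :=
    Nat.Prime.factorization_pos_of_dvd Nat.prime_two Nat.card_pos.ne' (even_iff_two_dvd.1 hev)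
  have h2Q : 2 ∣ Nat.card (S : Subgroup X) := by
    rw [hScard]; exact dvd_pow_self 2 hfac.ne'
  -- the cyclic case
  have hcyc : IsCyclic (S : Subgroup X) → ∃ z : X, z ≠ 1 ∧ z * z = 1 ∧ ∀ g, g * z = z * g := by
    intro hT
    have hmin : (Nat.card X).minFac = 2 := (Nat.minFac_eq_two_iff _).2 (even_iff_two_dvd.1 hev)
    have hN := IsCyclic.normalizer_le_centralizer hmin hT
    have hc := IsCyclic.isComplement' hmin hT
    set φ := MonoidHom.transferSylow S hN with hφ
    have hK : Odd (Nat.card φ.ker) := by
      have h1 : Nat.card φ.ker = (S : Subgroup X).index := by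
        have h3 := hc.card_mul_card
        have h4 := (S : Subgroup X).card_mul_index
        have hpos : 0 < Nat.card (S : Subgroup X) := Nat.card_pos
        have : Nat.card φ.ker * Nat.card (S : Subgroup X)
            = (S : Subgroup X).index * Nat.card (S : Subgroup X) := by
          rw [h3, ← h4, mul_comm]
        exact Nat.eq_of_mul_eq_mul_right hpos this
      rw [h1, ← Nat.not_even_iff_odd, even_iff_two_dvd]
      exact Sylow.not_dvd_index S
    have hKbot := hO φ.ker inferInstance hK
    have hStop : (S : Subgroup X) = ⊤ := by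
      have h3 := hc.card_mul_card
      rw [hKbot, Subgroup.card_bot, one_mul] at h3
      exact Subgroup.eq_top_of_card_eq _ h3
    obtain ⟨z, hz⟩ := exists_prime_orderOf_dvd_card' (G := (S : Subgroup X)) 2 h2Q
    have hz1 : (z : X) ≠ 1 := by
      intro h
      have : z = 1 := Subtype.ext h
      rw [this] at hz
      simp at hz
    have hz2 : (z : X) * z = 1 := by
      have := pow_orderOf_eq_one z
      rw [hz, pow_two] at this
      exact_mod_cast congrArg Subtype.val this
    refine ⟨z, hz1, hz2, fun g => ?_⟩
    have hg : g ∈ (S : Subgroup X) := by rw [hStop]; trivial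
    have := (IsCyclic.commGroup (α := (S : Subgroup X))).mul_comm ⟨g, hg⟩ z
    exact congrArg Subtype.val this
  -- unique involution of `S`
  have hQ : IsPGroup 2 (S : Subgroup X) := S.isPGroup'
  haveI hntQ : Nontrivial (S : Subgroup X) := by
    apply Finite.one_lt_card_iff_nontrivial.1
    have := Nat.le_of_dvd Nat.card_pos h2Q
    omega
  haveI := hQ.center_nontrivial
  obtain ⟨z₀, hz₀⟩ : ∃ z₀ : Subgroup.center (S : Subgroup X), orderOf z₀ = 2 := by
    apply exists_prime_orderOf_dvd_card'
    have hpg : IsPGroup 2 (Subgroup.center (S : Subgroup X)) := hQ.to_subgroup _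
    obtain ⟨k, hk⟩ := hpg.exists_card_eq
    have h1 : 1 < Nat.card (Subgroup.center (S : Subgroup X)) := Finite.one_lt_card
    rw [hk] at h1 ⊢
    exact dvd_pow_self 2 (by rintro rfl; simp at h1)
  have hz₀1 : (((z₀ : (S : Subgroup X)) : X)) ≠ 1 := by
    intro h
    have : z₀ = 1 := Subtype.ext (Subtype.ext h)
    rw [this] at hz₀
    simp at hz₀
  have hz₀2 : ((z₀ : (S : Subgroup X)) : X) * (z₀ : (S : Subgroup X)) = 1 := by
    have := pow_orderOf_eq_one z₀
    rw [hz₀, pow_two] at this
    have h := congrArg (fun u : Subgroup.center (S : Subgroup X) => (((u : (S : Subgroup X))) : X)) this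
    simpa using h
  have hall : ∀ a : (S : Subgroup X), a * a = 1 → a ≠ 1 → a = z₀ := by
    intro a ha ha1
    have hcomm : a * (z₀ : (S : Subgroup X)) = (z₀ : (S : Subgroup X)) * a :=
      ((Subgroup.mem_center_iff.1 z₀.2) a)
    have h := huniq (a : X) ((z₀ : (S : Subgroup X)) : X) (by exact_mod_cast congrArg Subtype.val ha)
      hz₀2 (fun h => ha1 (Subtype.ext h)) hz₀1 (by exact_mod_cast congrArg Subtype.val hcomm)
    exact Subtype.ext h
  have huniqSub : ∀ H K : Subgroup (S : Subgroup X), Nat.card H = 2 → Nat.card K = 2 → H = K := by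
    have key : ∀ H : Subgroup (S : Subgroup X), Nat.card H = 2 →
        H = Subgroup.zpowers (z₀ : (S : Subgroup X)) := by
      intro H hH
      have : IsCyclic H := isCyclic_of_prime_card hH
      obtain ⟨g, hg⟩ := IsCyclic.exists_generator (α := H)
      have hgo : orderOf g = 2 := by
        rw [orderOf_eq_card_of_forall_mem_zpowers hg, hH]
      have hg1 : (g : (S : Subgroup X)) = z₀ := by
        apply hall
        · have := pow_orderOf_eq_one g
          rw [hgo, pow_two] at this
          exact_mod_cast congrArg Subtype.val this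
        · intro h
          have : g = 1 := Subtype.ext h
          rw [this] at hgo
          simp at hgo
      apply le_antisymm
      · intro u hu
        obtain ⟨k, hk⟩ := hg ⟨u, hu⟩
        refine ⟨k, ?_⟩
        have := congrArg Subtype.val hk
        simp only [Subgroup.coe_zpow] at this
        rw [hg1] at this
        exact this
      · rw [Subgroup.zpowers_le, ← hg1]
        exact g.2
    intro H K hH hK
    rw [key H hH, key K hK]
  rcases Cfsg.Agent.Lib.UniqueSub.main 2 hQ huniqSub with hc | ⟨_, n, ⟨e⟩⟩
  · exact hcyc hc
  · rcases n with _ | n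
    · apply hcyc
      have hQ1 : IsCyclic (QuaternionGroup (2 ^ 0)) := by
        apply isCyclic_of_orderOf_eq_card (QuaternionGroup.xa (0 : ZMod (2 * 2 ^ 0)))
        rw [QuaternionGroup.orderOf_xa]
        simp [QuaternionGroup.card]
      exact isCyclic_of_surjective e.symm e.symm.surjective
    · have hc := Cfsg.Agent.S0201.result S n e hO
      have : Nontrivial (Subgroup.center X) := by
        apply Finite.one_lt_card_iff_nontrivial.1
        omega
      obtain ⟨z, hz⟩ := exists_ne (1 : Subgroup.center X)
      have hz2 : z ^ 2 = 1 := by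
        have := pow_card_eq_one' (x := z)
        rwa [hc] at this
      refine ⟨z, fun h => hz (Subtype.ext h), ?_, fun g => ?_⟩
      · have h := congrArg Subtype.val hz2
        simpa [pow_two] using h
      · exact ((Subgroup.mem_center_iff.1 z.2) g)

end Cfsg.Agent.Lib.NagaoCI
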