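import Mathlib
import Cfsg.Agent.Lib.LVBasic
import Cfsg.Agent.Lib.NagaoCI

/-!
# Four-fold transitive groups with odd four-point stabilisers: basic tools

Involutions, their fixed points, conjugacy of involutions which agree on four points.
-/

set_option autoImplicit false
set_option linter.unusedSectionVars false
set_option linter.style.haveILetI false

namespace Cfsg.Agent.Lib.NagaoBase

open Equiv Finset MulAction
open Cfsg.Agent.Lib.LVBasic

section Abstract

variable {H : Type*} [Group H]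

/-- Two involutions whose product has odd order are conjugate by a power of the product. -/
theorem conj_of_inv {t t' : H} (ht : t * t = 1) (ht' : t' * t' = 1) (k : ℕ)
    (hk : (t * t') ^ (2 * k + 1) = 1) : (t * t') ^ k * t * ((t * t') ^ k)⁻¹ = t' := by
  have hti : t⁻¹ = t := inv_eq_of_mul_eq_one_left ht
  have hti' : t'⁻¹ = t' := inv_eq_of_mul_eq_one_left ht'
  have h1 : t * (t * t') * t⁻¹ = (t * t')⁻¹ := by
    rw [hti, mul_inv_rev, hti, hti', ← mul_assoc, ht, one_mul]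
  have h2 : t * (t * t') ^ k * t⁻¹ = ((t * t') ^ k)⁻¹ := by
    rw [← conj_pow, h1, inv_pow]
  have h3 : t * ((t * t') ^ k)⁻¹ * t⁻¹ = (t * t') ^ k := by
    have h31 : ∀ x : H, t * x⁻¹ * t⁻¹ = (t * x * t⁻¹)⁻¹ := by
      intro x; group
    rw [h31, h2, inv_inv]
  have h4 : (t * t') ^ k * t * ((t * t') ^ k)⁻¹ = (t * t') ^ k * (t * ((t * t') ^ k)⁻¹ * t⁻¹) * t := by
    generalize (t * t') ^ k = x
    group
  rw [h4, h3]
  have h5 : (t * t') ^ k * (t * t') ^ k * (t * t') = 1 := by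
    rw [← hk, pow_succ, pow_mul', pow_two]
  have h6 : (t * t') ^ k * (t * t') ^ k = (t * t')⁻¹ := eq_inv_of_mul_eq_one_left h5
  rw [h6, mul_inv_rev, hti, hti', mul_assoc, ht, mul_one]

theorem pow_odd_of_sq {g : H} (h : g * g = 1) (k : ℕ) : g ^ (2 * k + 1) = g := by
  rw [pow_succ, pow_mul, pow_two, h, one_pow, one_mul]

end Abstract

variable {α : Type*} [Fintype α] [DecidableEq α]

/-- The set of fixed points of a permutation. -/
def Fx (t : Perm α) : Finset α := univ.filter (fun x => t x = x)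

@[simp] theorem mem_Fx {t : Perm α} {x : α} : x ∈ Fx t ↔ t x = x := by simp [Fx]

theorem Fx_conj (g t : Perm α) : Fx (g * t * g⁻¹) = (Fx t).image g := by
  ext y
  simp only [mem_Fx, Finset.mem_image, Perm.mul_apply]
  constructor
  · intro h
    refine ⟨g⁻¹ y, ?_, by simp⟩
    have := congrArg (fun z => g⁻¹ z) h
    simpa using this
  · rintro ⟨x, hx, rfl⟩
    simp [hx]

theorem card_Fx_conj (g t : Perm α) : (Fx (g * t * g⁻¹)).card = (Fx t).card := by
  rw [Fx_conj, Finset.card_image_of_injective _ g.injective]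

theorem mem_Fx_conj {g t : Perm α} {x : α} : g x ∈ Fx (g * t * g⁻¹) ↔ x ∈ Fx t := by
  simp [Perm.mul_apply]

theorem sq_apply {t : Perm α} (h : t * t = 1) (x : α) : t (t x) = x := by
  have := congrArg (fun p : Perm α => p x) h
  simpa [Perm.mul_apply] using this

theorem Fx_parity {t : Perm α} (h : t * t = 1) : (Fx t).card % 2 = Fintype.card α % 2 := by
  have h1 : 2 ∣ t.support.card := by
    apply Equiv.Perm.two_dvd_card_support
    rw [pow_two, h]
  have h2 : (Fx t).card + t.support.card = Fintype.card α := by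
    have : t.support = (Fx t)ᶜ := by
      ext x
      simp [Perm.mem_support]
    rw [this, Finset.card_add_card_compl]
  omega

/-- Involution on an odd invariant set has a fixed point. -/
theorem exists_fixed_of_odd {t : Perm α} (h : t * t = 1) (S : Finset α) (hS : ∀ x ∈ S, t x ∈ S)
    (hodd : S.card % 2 = 1) : ∃ x ∈ S, t x = x := by
  by_contra hne
  push Not at hne
  have : Even S.card := by
    have key : ∀ T : Finset α, (∀ x ∈ T, t x ∈ T) → (∀ x ∈ T, t x ≠ x) → Even T.card := by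
      intro T
      induction T using Finset.strongInduction with
      | H T ih =>
        intro hT hT'
        rcases T.eq_empty_or_nonempty with rfl | ⟨x, hx⟩
        · simp
        have hsub : ({x, t x} : Finset α) ⊆ T := by
          intro y hy
          simp only [Finset.mem_insert, Finset.mem_singleton] at hy
          rcases hy with rfl | rfl
          · exact hx
          · exact hT x hx
        have hss : T \ {x, t x} ⊂ T := by
          refine ⟨Finset.sdiff_subset, fun hh => ?_⟩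
          have := hh hx
          simp at this
        have hev := ih _ hss ?_ ?_
        · have hc := Finset.card_sdiff_add_card_eq_card hsub
          have h2 : ({x, t x} : Finset α).card = 2 := Finset.card_pair (hT' x hx).symm
          rw [← hc, h2]
          exact hev.add (by decide)
        · intro y hy
          simp only [Finset.mem_sdiff, Finset.mem_insert, Finset.mem_singleton, not_or] at hy ⊢
          refine ⟨hT y hy.1, fun h' => hy.2.2 ?_, fun h' => hy.2.1 ?_⟩
          · have := congrArg t h'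
            rw [sq_apply h] at this
            exact this
          · exact t.injective h'
        · intro y hy
          exact hT' y (Finset.sdiff_subset hy)
    exact key S hS hne
  rw [Nat.even_iff] at this
  omega

/-- The basic hypotheses: `G` is four-fold transitive with odd four-point stabilisers. -/
structure Ctx (G : Subgroup (Perm α)) (d : ℕ) : Prop where
  hd : Odd d
  h4 : ∀ v w : Fin 4 ↪ α, ∃ g ∈ G, ∀ i, g (v i) = w i
  hH : ∀ D : Finset α, D.card = 4 → Nat.card (fixS G D) = d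

/-- `t` is an involution of `G`. -/
def IsI (G : Subgroup (Perm α)) (t : Perm α) : Prop := t ∈ G ∧ t * t = 1 ∧ t ≠ 1

/-- `t, s` are distinct commuting involutions of `G`. -/
def Cp (G : Subgroup (Perm α)) (t s : Perm α) : Prop := IsI G t ∧ IsI G s ∧ t ≠ s ∧ t * s = s * t

variable {G : Subgroup (Perm α)} {d : ℕ}

theorem IsI.conj {t g : Perm α} (ht : IsI G t) (hg : g ∈ G) : IsI G (g * t * g⁻¹) := by
  refine ⟨G.mul_mem (G.mul_mem hg ht.1) (G.inv_mem hg), ?_, ?_⟩
  · have : g * t * g⁻¹ * (g * t * g⁻¹) = g * (t * t) * g⁻¹ := by group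
    rw [this, ht.2.1]; group
  · intro h
    apply ht.2.2
    have : t = g⁻¹ * (g * t * g⁻¹) * g := by group
    rw [this, h]; group

theorem Cp.mul {t s : Perm α} (h : Cp G t s) : IsI G (t * s) := by
  refine ⟨G.mul_mem h.1.1 h.2.1.1, ?_, ?_⟩
  · have : t * s * (t * s) = t * (s * t) * s := by group
    rw [this, ← h.2.2.2]
    have : t * (t * s) * s = (t * t) * (s * s) := by group
    rw [this, h.1.2.1, h.2.1.2.1, one_mul]
  · intro he
    apply h.2.2.1
    have : t = (t * s) * s⁻¹ := by group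
    rw [this, he, one_mul]
    exact (inv_eq_of_mul_eq_one_left h.2.1.2.1)

theorem Cp.symm {t s : Perm α} (h : Cp G t s) : Cp G s t :=
  ⟨h.2.1, h.1, h.2.2.1.symm, h.2.2.2.symm⟩

theorem Cp.left_mul {t s : Perm α} (h : Cp G t s) : Cp G t (t * s) := by
  refine ⟨h.1, h.mul, ?_, ?_⟩
  · intro he
    apply h.2.1.2.2
    have : s = t⁻¹ * (t * s) := by group
    rw [this, ← he]
    group
  · calc t * (t * s) = (t * t) * s := by group
      _ = s := by rw [h.1.2.1, one_mul]
      _ = s * (t * t) := by rw [h.1.2.1, mul_one]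
      _ = (s * t) * t := by group
      _ = (t * s) * t := by rw [h.2.2.2]

theorem Cp.right_mul {t s : Perm α} (h : Cp G t s) : Cp G (t * s) s := by
  refine ⟨h.mul, h.2.1, ?_, ?_⟩
  · intro he
    apply h.1.2.2
    have : t = (t * s) * s⁻¹ := by group
    rw [this, he]
    group
  · calc (t * s) * s = t * (s * s) := by group
      _ = t := by rw [h.2.1.2.1, mul_one]
      _ = (s * s) * t := by rw [h.2.1.2.1, one_mul]
      _ = s * (s * t) := by group
      _ = s * (t * s) := by rw [h.2.2.2]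

namespace Ctx

variable (C : Ctx G d)
include C

theorem pow_d {D : Finset α} (hD : D.card = 4) {g : Perm α} (hg : g ∈ fixS G D) : g ^ d = 1 := by
  have := pow_card_eq_one' (x := (⟨g, hg⟩ : fixS G D))
  rw [C.hH D hD] at this
  exact congrArg Subtype.val this

theorem odd_order {D : Finset α} (hD : D.card = 4) {g : Perm α} (hg : g ∈ fixS G D) :
    Odd (orderOf g) :=
  Odd.of_dvd_nat C.hd (orderOf_dvd_of_pow_eq_one (C.pow_d hD hg))

omit C in
theorem fix_of_sq_fix {g : Perm α} (hg : Odd (orderOf g)) {u : α} (h : g (g u) = u) : g u = u := by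
  obtain ⟨k, hk⟩ := hg
  have h1 : ∀ i : ℕ, (g ^ (2 * i)) u = u := by
    intro i
    induction i with
    | zero => simp
    | succ i ih =>
      have : g ^ (2 * (i + 1)) = g ^ (2 * i) * (g * g) := by
        rw [mul_add, pow_add]; group
      rw [this, Perm.mul_apply, Perm.mul_apply, h, ih]
  have h2 : g ^ (2 * k + 1) = 1 := by rw [← hk, pow_orderOf_eq_one]
  have h3 := congrArg (fun p : Perm α => p u) h2
  simp only [pow_succ, Perm.mul_apply, Perm.one_apply] at h3
  have h4 : (g ^ (2 * k)) (g u) = g ((g ^ (2 * k)) u) := by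
    have : g ^ (2 * k) * g = g * g ^ (2 * k) := (Commute.pow_left (Commute.refl g) _)
    have := congrArg (fun p : Perm α => p u) this
    simpa [Perm.mul_apply] using this
  rw [h4, h1 k] at h3
  exact h3

omit C in
theorem eq_of_swap_odd {g : Perm α} (hg : Odd (orderOf g)) {u v : α} (h1 : g u = v) (h2 : g v = u) :
    u = v := by
  have : g (g u) = u := by rw [h1, h2]
  rw [← h1, fix_of_sq_fix hg this]

/-- An element of a four-point stabiliser does not swap two distinct points. -/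
theorem eq_of_swap {D : Finset α} (hD : D.card = 4) {g : Perm α} (hg : g ∈ fixS G D) {u v : α}
    (h1 : g u = v) (h2 : g v = u) : u = v :=
  eq_of_swap_odd (C.odd_order hD hg) h1 h2

/-- A permutation is realised on a four-point set. -/
theorem agree {D : Finset α} (hD : D.card = 4) (f : Perm α) : ∃ g ∈ G, ∀ x ∈ D, g x = f x := by
  classical
  let e : D ≃ Fin 4 := Finset.equivFinOfCardEq hD
  let v : Fin 4 ↪ α := ⟨fun i => (e.symm i : α), fun i j h => by
    have : e.symm i = e.symm j := Subtype.ext h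
    exact e.symm.injective this⟩
  let w : Fin 4 ↪ α := ⟨fun i => f (e.symm i : α), fun i j h => by
    have : e.symm i = e.symm j := Subtype.ext (f.injective h)
    exact e.symm.injective this⟩
  obtain ⟨g, hg, hgv⟩ := C.h4 v w
  refine ⟨g, hg, fun x hx => ?_⟩
  have := hgv (e ⟨x, hx⟩)
  change g (e.symm (e ⟨x, hx⟩) : α) = f (e.symm (e ⟨x, hx⟩) : α) at this
  simpa using this

/-- Tuple form of four-fold transitivity. -/
theorem agree4 {a b c e a' b' c' e' : α} (h1 : a ≠ b) (h2 : a ≠ c) (h3 : a ≠ e) (h4 : b ≠ c)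
    (h5 : b ≠ e) (h6 : c ≠ e) (h1' : a' ≠ b') (h2' : a' ≠ c') (h3' : a' ≠ e') (h4' : b' ≠ c')
    (h5' : b' ≠ e') (h6' : c' ≠ e') : ∃ g ∈ G, g a = a' ∧ g b = b' ∧ g c = c' ∧ g e = e' := by
  let v : Fin 4 ↪ α := ⟨![a, b, c, e], by
    intro i j h
    fin_cases i <;> fin_cases j <;> simp_all⟩
  let w : Fin 4 ↪ α := ⟨![a', b', c', e'], by
    intro i j h
    fin_cases i <;> fin_cases j <;> simp_all⟩
  obtain ⟨g, hg, hgv⟩ := C.h4 v w
  refine ⟨g, hg, ?_, ?_, ?_, ?_⟩
  · exact hgv 0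
  · exact hgv 1
  · exact hgv 2
  · exact hgv 3

omit C in
theorem card4 {a b c e : α} (h1 : a ≠ b) (h2 : a ≠ c) (h3 : a ≠ e) (h4 : b ≠ c) (h5 : b ≠ e)
    (h6 : c ≠ e) : ({a, b, c, e} : Finset α).card = 4 := by
  rw [Finset.card_insert_of_notMem (by simp [h1, h2, h3]),
    Finset.card_insert_of_notMem (by simp [h4, h5]),
    Finset.card_insert_of_notMem (by simp [h6]), Finset.card_singleton]

/-- Involutions agreeing on four points are conjugate by an element of the stabiliser, a power of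
their product. -/
theorem conj_of_agree {t t' : Perm α} (ht : t ∈ G) (ht' : t' ∈ G) (h2 : t * t = 1) (h2' : t' * t' = 1)
    {D : Finset α} (hD : D.card = 4) (hag : ∀ x ∈ D, t x = t' x) :
    ∃ c ∈ fixS G D, c * t * c⁻¹ = t' ∧ ∀ e : Perm α, e * t = t * e → e * t' = t' * e → e * c = c * e := by
  have hmem : t * t' ∈ fixS G D := by
    refine ⟨G.mul_mem ht ht', fun x hx => ?_⟩
    rw [Perm.mul_apply, ← hag x hx, sq_apply h2]
  obtain ⟨k, hk⟩ := C.odd_order hD hmem
  have hk' : (t * t') ^ (2 * k + 1) = 1 := by rw [← hk, pow_orderOf_eq_one]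
  refine ⟨(t * t') ^ k, Subgroup.pow_mem _ hmem k, conj_of_inv h2 h2' k hk', fun e h1 h3 => ?_⟩
  have hc : Commute e (t * t') := by
    apply Commute.mul_right h1 h3
  exact (hc.pow_right k)

/-- Lifting commuting patterns. -/
theorem comm_lift {t : Perm α} (ht : t ∈ G) (h2 : t * t = 1) {D : Finset α} (hD : D.card = 4)
    (htD : ∀ x ∈ D, t x ∈ D) {f : Perm α} (hfD : ∀ x ∈ D, f x ∈ D) (hff : ∀ x ∈ D, f (f x) = x)
    (hft : ∀ x ∈ D, f (t x) = t (f x)) :
    ∃ s ∈ G, s * s = 1 ∧ s * t = t * s ∧ ∀ x ∈ D, s x = f x := by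
  obtain ⟨g, hg, hgf⟩ := C.agree hD f
  have hginv : ∀ x ∈ D, g⁻¹ x = f x := by
    intro x hx
    rw [Perm.inv_eq_iff_eq, hgf _ (hfD x hx), hff x hx]
  have h2' : (g * t * g⁻¹) * (g * t * g⁻¹) = 1 := by
    have : g * t * g⁻¹ * (g * t * g⁻¹) = g * (t * t) * g⁻¹ := by group
    rw [this, h2]; group
  have hag : ∀ x ∈ D, (g * t * g⁻¹) x = t x := by
    intro x hx
    simp only [Perm.mul_apply]
    rw [hginv x hx, hgf _ (htD _ (hfD x hx)), hft _ (hfD x hx), hff x hx]
  obtain ⟨c, hc, hct, -⟩ := C.conj_of_agree (G.mul_mem (G.mul_mem hg ht) (G.inv_mem hg)) ht h2' h2 hD hag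
  have hwt : (c * g) * t = t * (c * g) := by
    have : (c * g) * t = (c * (g * t * g⁻¹) * c⁻¹) * (c * g) := by group
    rw [this, hct]
  have hw : ∀ x ∈ D, (c * g) x = f x := by
    intro x hx
    rw [Perm.mul_apply, hgf x hx, hc.2 _ (hfD x hx)]
  have hwG : c * g ∈ G := G.mul_mem hc.1 hg
  have hw2 : (c * g) * (c * g) ∈ fixS G D := by
    refine ⟨G.mul_mem hwG hwG, fun x hx => ?_⟩
    rw [Perm.mul_apply, hw x hx, hw _ (hfD x hx), hff x hx]
  obtain ⟨k, hk⟩ := C.hd
  refine ⟨(c * g) ^ d, G.pow_mem hwG d, ?_, ?_, ?_⟩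
  · have h3 := C.pow_d hD hw2
    rw [← (Commute.refl (c * g)).mul_pow]
    exact h3
  · exact (Commute.pow_left (show Commute (c * g) t from hwt) d)
  · intro x hx
    rw [hk, pow_succ, Perm.mul_apply, hw x hx, pow_mul, pow_two]
    have : ∀ i : ℕ, ((c * g * (c * g)) ^ i) (f x) = f x := by
      intro i
      induction i with
      | zero => simp
      | succ i ih =>
        rw [pow_succ, Perm.mul_apply, hw2.2 _ (hfD x hx), ih]
    exact this k

/-- pattern `(a b)(x)(y)` -/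
theorem pat0 {a b x y : α} (h1 : a ≠ b) (h2 : a ≠ x) (h3 : a ≠ y) (h4 : b ≠ x) (h5 : b ≠ y)
    (h6 : x ≠ y) : ∃ s ∈ G, s * s = 1 ∧ s a = b ∧ s b = a ∧ s x = x ∧ s y = y := by
  have hD := card4 h1 h2 h3 h4 h5 h6
  obtain ⟨s, hs, hss, -, hsf⟩ := C.comm_lift (t := 1) G.one_mem (by simp) hD (by simp)
    (f := swap a b) (by
      intro z hz
      simp only [Finset.mem_insert, Finset.mem_singleton] at hz ⊢
      rcases hz with rfl | rfl | rfl | rfl
      · simp
      · simp
      · simp [swap_apply_of_ne_of_ne h2.symm h4.symm]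
      · simp [swap_apply_of_ne_of_ne h3.symm h5.symm]) (by
      intro z _
      simp) (by simp)
  refine ⟨s, hs, hss, ?_, ?_, ?_, ?_⟩
  · rw [hsf a (by simp)]; simp
  · rw [hsf b (by simp)]; simp
  · rw [hsf x (by simp), swap_apply_of_ne_of_ne h2.symm h4.symm]
  · rw [hsf y (by simp), swap_apply_of_ne_of_ne h3.symm h5.symm]

omit C in
theorem four_of_cycle {t : Perm α} (h2 : t * t = 1) {a c : α} (ha : t a ≠ a) (hc : t c ≠ c) (hca : c ≠ a)
    (hct : c ≠ t a) :
    a ≠ t a ∧ a ≠ c ∧ a ≠ t c ∧ t a ≠ c ∧ t a ≠ t c ∧ c ≠ t c := by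
  refine ⟨ha.symm, hca.symm, ?_, hct.symm, ?_, hc.symm⟩
  · intro h
    apply hct
    rw [h, sq_apply h2]
  · intro h
    exact hca (t.injective h).symm

/-- pattern `(a c)(ta tc)` commuting with `t`. -/
theorem pat1 {t : Perm α} (ht : t ∈ G) (h2 : t * t = 1) {a c : α} (ha : t a ≠ a) (hc : t c ≠ c)
    (hca : c ≠ a) (hct : c ≠ t a) :
    ∃ s ∈ G, s * s = 1 ∧ s * t = t * s ∧ s a = c ∧ s c = a := by
  obtain ⟨h1, h2', h3, h4, h5, h6⟩ := four_of_cycle h2 ha hc hca hct
  have hD := card4 h1 h2' h3 h4 h5 h6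
  have hf1 : (swap a c * swap (t a) (t c)) a = c := by
    rw [Perm.mul_apply, swap_apply_of_ne_of_ne h1 h3, swap_apply_left]
  have hf2 : (swap a c * swap (t a) (t c)) c = a := by
    rw [Perm.mul_apply, swap_apply_of_ne_of_ne h4.symm h6, swap_apply_right]
  have hf3 : (swap a c * swap (t a) (t c)) (t a) = t c := by
    rw [Perm.mul_apply, swap_apply_left, swap_apply_of_ne_of_ne h3.symm h6.symm]
  have hf4 : (swap a c * swap (t a) (t c)) (t c) = t a := by
    rw [Perm.mul_apply, swap_apply_right, swap_apply_of_ne_of_ne h1.symm h4]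
  obtain ⟨s, hs, hss, hst, hsf⟩ := C.comm_lift ht h2 hD (by
      intro z hz
      simp only [Finset.mem_insert, Finset.mem_singleton] at hz ⊢
      rcases hz with rfl | rfl | rfl | rfl
      · simp
      · simp [sq_apply h2]
      · simp
      · simp [sq_apply h2])
    (f := swap a c * swap (t a) (t c)) (by
      intro z hz
      simp only [Finset.mem_insert, Finset.mem_singleton] at hz ⊢
      rcases hz with rfl | rfl | rfl | rfl
      · simp [hf1]
      · simp [hf3]
      · simp [hf2]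
      · simp [hf4]) (by
      intro z hz
      simp only [Finset.mem_insert, Finset.mem_singleton] at hz
      rcases hz with rfl | rfl | rfl | rfl
      · rw [hf1, hf2]
      · rw [hf3, hf4]
      · rw [hf2, hf1]
      · rw [hf4, hf3]) (by
      intro z hz
      simp only [Finset.mem_insert, Finset.mem_singleton] at hz
      rcases hz with rfl | rfl | rfl | rfl
      · rw [hf3, hf1]
      · rw [sq_apply h2, hf1, hf3, sq_apply h2]
      · rw [hf4, hf2]
      · rw [sq_apply h2, hf2, hf4, sq_apply h2])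
  exact ⟨s, hs, hss, hst, by rw [hsf a (by simp), hf1], by rw [hsf c (by simp), hf2]⟩

/-- pattern `(c tc)` fixing `a, ta`, commuting with `t`. -/
theorem pat2 {t : Perm α} (ht : t ∈ G) (h2 : t * t = 1) {a c : α} (ha : t a ≠ a) (hc : t c ≠ c)
    (hca : c ≠ a) (hct : c ≠ t a) :
    ∃ s ∈ G, s * s = 1 ∧ s * t = t * s ∧ s a = a ∧ s (t a) = t a ∧ s c = t c ∧ s (t c) = c := by
  obtain ⟨h1, h2', h3, h4, h5, h6⟩ := four_of_cycle h2 ha hc hca hct
  have hD := card4 h1 h2' h3 h4 h5 h6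
  have hf1 : (swap c (t c)) a = a := swap_apply_of_ne_of_ne h2' h3
  have hf2 : (swap c (t c)) (t a) = t a := swap_apply_of_ne_of_ne h4 h5
  have hf3 : (swap c (t c)) c = t c := swap_apply_left _ _
  have hf4 : (swap c (t c)) (t c) = c := swap_apply_right _ _
  obtain ⟨s, hs, hss, hst, hsf⟩ := C.comm_lift ht h2 hD (by
      intro z hz
      simp only [Finset.mem_insert, Finset.mem_singleton] at hz ⊢
      rcases hz with rfl | rfl | rfl | rfl
      · simp
      · simp [sq_apply h2]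
      · simp
      · simp [sq_apply h2])
    (f := swap c (t c)) (by
      intro z hz
      simp only [Finset.mem_insert, Finset.mem_singleton] at hz ⊢
      rcases hz with rfl | rfl | rfl | rfl
      · simp [hf1]
      · simp [hf2]
      · simp [hf3]
      · simp [hf4]) (by
      intro z _
      simp) (by
      intro z hz
      simp only [Finset.mem_insert, Finset.mem_singleton] at hz
      rcases hz with rfl | rfl | rfl | rfl
      · rw [hf2, hf1]
      · rw [sq_apply h2, hf1, hf2, sq_apply h2]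
      · rw [hf4, hf3, sq_apply h2]
      · rw [sq_apply h2, hf3, hf4])
  exact ⟨s, hs, hss, hst, by rw [hsf a (by simp), hf1], by rw [hsf (t a) (by simp), hf2],
    by rw [hsf c (by simp), hf3], by rw [hsf (t c) (by simp), hf4]⟩

theorem card_Fx_le {t : Perm α} (ht : IsI G t) : (Fx t).card ≤ 3 := by
  by_contra hlt
  push Not at hlt
  obtain ⟨D, hD, hDc⟩ := Finset.exists_subset_card_eq (s := Fx t) (n := 4) (by omega)
  have hmem : t ∈ fixS G D := ⟨ht.1, fun x hx => mem_Fx.1 (hD hx)⟩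
  have h1 := C.pow_d hDc hmem
  obtain ⟨k, hk⟩ := C.hd
  rw [hk, pow_odd_of_sq ht.2.1] at h1
  exact ht.2.2 h1

/-- Every involution is conjugate to every other one. -/
theorem conj_all (hn : 6 ≤ Fintype.card α) {t t' : Perm α} (ht : IsI G t) (ht' : IsI G t') :
    ∃ g ∈ G, g * t * g⁻¹ = t' := by
  have key : ∀ u : Perm α, IsI G u → ∃ a c : α, u a ≠ a ∧ u c ≠ c ∧ c ≠ a ∧ c ≠ u a := by
    intro u hu
    have hle := C.card_Fx_le hu
    have h1 : ∃ a, a ∉ Fx u := by
      by_contra hh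
      push Not at hh
      have : Fx u = univ := Finset.eq_univ_of_forall hh
      rw [this, Finset.card_univ] at hle
      omega
    obtain ⟨a, ha⟩ := h1
    have h2 : ∃ c, c ∉ Fx u ∪ {a, u a} := by
      by_contra hh
      push Not at hh
      have : Fx u ∪ {a, u a} = univ := Finset.eq_univ_of_forall hh
      have h3 := Finset.card_union_le (Fx u) {a, u a}
      have h4 : ({a, u a} : Finset α).card ≤ 2 := Finset.card_le_two
      rw [this, Finset.card_univ] at h3
      omega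
    obtain ⟨c, hc⟩ := h2
    simp only [Finset.mem_union, mem_Fx, Finset.mem_insert, Finset.mem_singleton, not_or] at hc
    exact ⟨a, c, by simpa using ha, hc.1, hc.2.1, hc.2.2⟩
  obtain ⟨a, c, h1, h2, h3, h4⟩ := key t ht
  obtain ⟨a', c', h1', h2', h3', h4'⟩ := key t' ht'
  obtain ⟨e1, e2, e3, e4, e5, e6⟩ := four_of_cycle ht.2.1 h1 h2 h3 h4
  obtain ⟨e1', e2', e3', e4', e5', e6'⟩ := four_of_cycle ht'.2.1 h1' h2' h3' h4'
  obtain ⟨g, hg, g1, g2, g3, g4⟩ := C.agree4 e1 e2 e3 e4 e5 e6 e1' e2' e3' e4' e5' e6'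
  have hD := card4 e1' e2' e3' e4' e5' e6'
  have hI := ht.conj hg
  have hag : ∀ x ∈ ({a', t' a', c', t' c'} : Finset α), (g * t * g⁻¹) x = t' x := by
    have hi1 : g⁻¹ a' = a := by rw [Perm.inv_eq_iff_eq, g1]
    have hi2 : g⁻¹ (t' a') = t a := by rw [Perm.inv_eq_iff_eq, g2]
    have hi3 : g⁻¹ c' = c := by rw [Perm.inv_eq_iff_eq, g3]
    have hi4 : g⁻¹ (t' c') = t c := by rw [Perm.inv_eq_iff_eq, g4]
    intro x hx
    simp only [Finset.mem_insert, Finset.mem_singleton] at hx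
    rcases hx with rfl | rfl | rfl | rfl
    · simp only [Perm.mul_apply, hi1, g2]
    · simp only [Perm.mul_apply, hi2, sq_apply ht.2.1, sq_apply ht'.2.1, g1]
    · simp only [Perm.mul_apply, hi3, g4]
    · simp only [Perm.mul_apply, hi4, sq_apply ht.2.1, sq_apply ht'.2.1, g3]
  obtain ⟨k, hk, hkt, -⟩ := C.conj_of_agree hI.1 ht'.1 hI.2.1 ht'.2.1 hD hag
  refine ⟨k * g, G.mul_mem hk.1 hg, ?_⟩
  rw [← hkt]
  group

end Ctx


/-- Regularity of a point with respect to commuting involutions. -/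
def Reg (t s : Perm α) (a : α) : Prop := t a ≠ a ∧ s a ≠ a ∧ (t * s) a ≠ a

theorem pair_tuple {t s : Perm α} (h : Cp G t s) {a : α} (hr : Reg t s a) :
    a ≠ t a ∧ a ≠ s a ∧ a ≠ t (s a) ∧ t a ≠ s a ∧ t a ≠ t (s a) ∧ s a ≠ t (s a) := by
  obtain ⟨h1, h2, h3⟩ := hr
  rw [Perm.mul_apply] at h3
  have hh : ∀ y, t (s y) = s (t y) := fun y => by
    have := congrArg (fun p : Perm α => p y) h.2.2.2
    simpa [Perm.mul_apply] using this
  refine ⟨h1.symm, h2.symm, h3.symm, ?_, ?_, ?_⟩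
  · intro he
    apply h3
    rw [hh, he, sq_apply h.2.1.2.1]
  · intro he
    exact h2 (t.injective he).symm
  · intro he
    apply h1
    have := congrArg s he
    rw [sq_apply h.2.1.2.1, ← hh, sq_apply h.2.1.2.1] at this
    rw [← this]

namespace Ctx

variable (C : Ctx G d)
include C

theorem pair_move {t₀ s₀ t : Perm α} (h : Cp G t₀ s₀) {a₀ : α} (hr : Reg t₀ s₀ a₀) (ht : IsI G t)
    {a c : α} (ha : t a ≠ a) (hc : t c ≠ c) (hca : c ≠ a) (hct : c ≠ t a) :
    ∃ g ∈ G, g * t₀ * g⁻¹ = t ∧ g a₀ = a ∧ g (s₀ a₀) = c := by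
  obtain ⟨e1, e2, e3, e4, e5, e6⟩ := pair_tuple h hr
  obtain ⟨e1', e2', e3', e4', e5', e6'⟩ := four_of_cycle ht.2.1 ha hc hca hct
  obtain ⟨g, hg, g1, g2, g3, g4⟩ := C.agree4 e1 e2 e3 e4 e5 e6 e1' e2' e3' e4' e5' e6'
  have hD := card4 e1' e2' e3' e4' e5' e6'
  have hI := h.1.conj hg
  have hag : ∀ x ∈ ({a, t a, c, t c} : Finset α), (g * t₀ * g⁻¹) x = t x := by
    have hi1 : g⁻¹ a = a₀ := by rw [Perm.inv_eq_iff_eq, g1]
    have hi2 : g⁻¹ (t a) = t₀ a₀ := by rw [Perm.inv_eq_iff_eq, g2]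
    have hi3 : g⁻¹ c = s₀ a₀ := by rw [Perm.inv_eq_iff_eq, g3]
    have hi4 : g⁻¹ (t c) = t₀ (s₀ a₀) := by rw [Perm.inv_eq_iff_eq, g4]
    intro x hx
    simp only [Finset.mem_insert, Finset.mem_singleton] at hx
    rcases hx with rfl | rfl | rfl | rfl
    · simp only [Perm.mul_apply, hi1, g2]
    · simp only [Perm.mul_apply, hi2, sq_apply h.1.2.1, sq_apply ht.2.1, g1]
    · simp only [Perm.mul_apply, hi3, g4]
    · simp only [Perm.mul_apply, hi4, sq_apply h.1.2.1, sq_apply ht.2.1, g3]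
  obtain ⟨k, hk, hkt, -⟩ := C.conj_of_agree hI.1 ht.1 hI.2.1 ht.2.1 hD hag
  refine ⟨k * g, G.mul_mem hk.1 hg, ?_, ?_, ?_⟩
  · rw [← hkt]
    group
  · rw [Perm.mul_apply, g1, hk.2 a (by simp)]
  · rw [Perm.mul_apply, g3, hk.2 c (by simp)]

theorem pair_conj {t₁ s₁ t₂ s₂ : Perm α} (h₁ : Cp G t₁ s₁) (h₂ : Cp G t₂ s₂) {a₁ a₂ : α}
    (hr₁ : Reg t₁ s₁ a₁) (hr₂ : Reg t₂ s₂ a₂) :
    ∃ g ∈ G, g * t₁ * g⁻¹ = t₂ ∧ g * s₁ * g⁻¹ = s₂ ∧ g a₁ = a₂ := by
  obtain ⟨e1, e2, e3, e4, e5, e6⟩ := pair_tuple h₂ hr₂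
  obtain ⟨g, hg, g1, g2, g3⟩ := C.pair_move h₁ hr₁ h₂.1 (a := a₂) (c := s₂ a₂) hr₂.1 (Ne.symm e6)
    (Ne.symm e2) (Ne.symm e4)
  have hc₂ : ∀ y, t₂ (s₂ y) = s₂ (t₂ y) := fun y => by
    have := congrArg (fun p : Perm α => p y) h₂.2.2.2
    simpa [Perm.mul_apply] using this
  have hc₁ : ∀ y, t₁ (s₁ y) = s₁ (t₁ y) := fun y => by
    have := congrArg (fun p : Perm α => p y) h₁.2.2.2
    simpa [Perm.mul_apply] using this
  have hgt : ∀ y, g (t₁ y) = t₂ (g y) := by
    intro y
    have := congrArg (fun p : Perm α => p (g y)) g1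
    simpa [Perm.mul_apply] using this
  have hI := h₁.2.1.conj hg
  have hi1 : g⁻¹ a₂ = a₁ := by rw [Perm.inv_eq_iff_eq, g2]
  have hi3 : g⁻¹ (s₂ a₂) = s₁ a₁ := by rw [Perm.inv_eq_iff_eq, g3]
  have hi2 : g⁻¹ (t₂ a₂) = t₁ a₁ := by rw [Perm.inv_eq_iff_eq, hgt, g2]
  have hi4 : g⁻¹ (t₂ (s₂ a₂)) = t₁ (s₁ a₁) := by rw [Perm.inv_eq_iff_eq, hgt, g3]
  have hD := card4 e1 e2 e3 e4 e5 e6
  have hag : ∀ x ∈ ({a₂, t₂ a₂, s₂ a₂, t₂ (s₂ a₂)} : Finset α), (g * s₁ * g⁻¹) x = s₂ x := by
    intro x hx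
    simp only [Finset.mem_insert, Finset.mem_singleton] at hx
    rcases hx with rfl | rfl | rfl | rfl
    · simp only [Perm.mul_apply, hi1, g3]
    · simp only [Perm.mul_apply, hi2]
      rw [← hc₁, hgt, g3, ← hc₂]
    · simp only [Perm.mul_apply, hi3, sq_apply h₁.2.1.2.1, sq_apply h₂.2.1.2.1, g2]
    · simp only [Perm.mul_apply, hi4]
      rw [hc₁, sq_apply h₁.2.1.2.1, hc₂, sq_apply h₂.2.1.2.1, hgt, g2]
  have hc1 : t₂ * (g * s₁ * g⁻¹) = (g * s₁ * g⁻¹) * t₂ := by
    rw [← g1]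
    have : g * t₁ * g⁻¹ * (g * s₁ * g⁻¹) = g * (t₁ * s₁) * g⁻¹ := by group
    rw [this, h₁.2.2.2]
    group
  obtain ⟨k, hk, hkt, hke⟩ := C.conj_of_agree hI.1 h₂.2.1.1 hI.2.1 h₂.2.1.2.1 hD hag
  have hkc : t₂ * k = k * t₂ := hke t₂ hc1 h₂.2.2.2
  refine ⟨k * g, G.mul_mem hk.1 hg, ?_, ?_, ?_⟩
  · have : k * g * t₁ * (k * g)⁻¹ = k * (g * t₁ * g⁻¹) * k⁻¹ := by group
    rw [this, g1, ← hkc]
    group
  · rw [← hkt]
    group
  · rw [Perm.mul_apply, g2, hk.2 a₂ (by simp)]

/-- If commuting distinct involutions with the same fixed points exist, then every involution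
admits such a partner moving a given point to another given point. -/
theorem exists_same {g : ℕ} (hn : 4 ≤ Fintype.card α) (hg : ∀ u, IsI G u → (Fx u).card = g)
    (hS : ∃ t s, Cp G t s ∧ Fx t = Fx s) {t : Perm α} (ht : IsI G t) {a c : α} (ha : t a ≠ a)
    (hc : t c ≠ c) (hca : c ≠ a) (hct : c ≠ t a) :
    ∃ s, Cp G t s ∧ Fx s = Fx t ∧ s a = c ∧ s c = a := by
  obtain ⟨t₀, s₀, h₀, hF⟩ := hS
  have hFm : Fx (t₀ * s₀) = Fx t₀ := by
    symm
    apply Finset.eq_of_subset_of_card_le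
    · intro x hx
      rw [mem_Fx, Perm.mul_apply]
      have hx' : x ∈ Fx s₀ := hF ▸ hx
      rw [mem_Fx.1 hx', mem_Fx.1 hx]
    · rw [hg _ h₀.mul, hg _ h₀.1]
  obtain ⟨a₀, ha₀⟩ : ∃ a₀, a₀ ∉ Fx t₀ := by
    by_contra hh
    push Not at hh
    have : Fx t₀ = univ := Finset.eq_univ_of_forall hh
    have hle := C.card_Fx_le h₀.1
    rw [this, Finset.card_univ] at hle
    omega
  have hr : Reg t₀ s₀ a₀ := by
    refine ⟨fun h => ha₀ (mem_Fx.2 h), fun h => ha₀ ?_, fun h => ha₀ ?_⟩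
    · rw [hF]; exact mem_Fx.2 h
    · rw [← hFm]; exact mem_Fx.2 h
  obtain ⟨h, hhG, h1, h2, h3⟩ := C.pair_move h₀ hr ht ha hc hca hct
  have hsI := h₀.2.1.conj hhG
  have hcomm : t * (h * s₀ * h⁻¹) = (h * s₀ * h⁻¹) * t := by
    rw [← h1]
    have : h * t₀ * h⁻¹ * (h * s₀ * h⁻¹) = h * (t₀ * s₀) * h⁻¹ := by group
    rw [this, h₀.2.2.2]
    group
  have hi1 : h⁻¹ a = a₀ := by rw [Perm.inv_eq_iff_eq, h2]
  have hi3 : h⁻¹ c = s₀ a₀ := by rw [Perm.inv_eq_iff_eq, h3]
  have hsa : (h * s₀ * h⁻¹) a = c := by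
    simp only [Perm.mul_apply, hi1, h3]
  have hsc : (h * s₀ * h⁻¹) c = a := by
    simp only [Perm.mul_apply, hi3, sq_apply h₀.2.1.2.1, h2]
  refine ⟨h * s₀ * h⁻¹, ⟨ht, hsI, ?_, hcomm⟩, ?_, hsa, hsc⟩
  · intro he
    apply hct
    rw [he, hsa]
  · rw [Fx_conj, ← hF, ← h1, Fx_conj]

end Ctx

/-- A Klein four-subgroup. -/
def klein (t s : Perm α) (ht : t * t = 1) (hs : s * s = 1) (hc : t * s = s * t) : Subgroup (Perm α) where
  carrier := {1, t, s, t * s}
  one_mem' := by simp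
  mul_mem' := by
    intro a b ha hb
    simp only [Set.mem_insert_iff, Set.mem_singleton_iff] at ha hb ⊢
    have e1 : t * (t * s) = s := by rw [← mul_assoc, ht, one_mul]
    have e3 : s * (t * s) = t := by rw [← mul_assoc, hc.symm, mul_assoc, hs, mul_one]
    have e4 : t * s * t = s := by rw [mul_assoc, hc.symm, ← mul_assoc, ht, one_mul]
    have e5 : t * s * s = t := by rw [mul_assoc, hs, mul_one]
    have e6 : t * s * (t * s) = 1 := by rw [← mul_assoc, e4, hs]
    rcases ha with rfl | rfl | rfl | rfl <;> rcases hb with rfl | rfl | rfl | rfl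
    · simp
    · simp
    · simp
    · simp
    · simp
    · simp [ht]
    · simp
    · simp [e1]
    · simp
    · simp [hc.symm]
    · simp [hs]
    · simp [e3]
    · simp
    · simp [e4]
    · simp [e5]
    · simp [e6]
  inv_mem' := by
    intro a ha
    simp only [Set.mem_insert_iff, Set.mem_singleton_iff] at ha ⊢
    have e6 : t * s * (t * s) = 1 := by
      rw [← mul_assoc, mul_assoc t s t, hc.symm, ← mul_assoc, ht, one_mul, hs]
    rcases ha with rfl | rfl | rfl | rfl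
    · simp
    · right; left; exact inv_eq_of_mul_eq_one_left ht
    · right; right; left; exact inv_eq_of_mul_eq_one_left hs
    · right; right; right; exact inv_eq_of_mul_eq_one_left e6

theorem mem_klein {t s : Perm α} {ht : t * t = 1} {hs : s * s = 1} {hc : t * s = s * t} {a : Perm α} :
    a ∈ klein t s ht hs hc ↔ a = 1 ∨ a = t ∨ a = s ∨ a = t * s := by
  show a ∈ ({1, t, s, t * s} : Set (Perm α)) ↔ _
  simp

theorem Cp.klein_sq {t s : Perm α} (h : Cp G t s) {a : Perm α}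
    (ha : a ∈ klein t s h.1.2.1 h.2.1.2.1 h.2.2.2) : a * a = 1 := by
  rw [mem_klein] at ha
  rcases ha with rfl | rfl | rfl | rfl
  · simp
  · exact h.1.2.1
  · exact h.2.1.2.1
  · exact h.mul.2.1

theorem Cp.klein_card {t s : Perm α} (h : Cp G t s) :
    Nat.card (klein t s h.1.2.1 h.2.1.2.1 h.2.2.2) = 4 := by
  classical
  have h1 : ((klein t s h.1.2.1 h.2.1.2.1 h.2.2.2 : Subgroup (Perm α)) : Set (Perm α))
      = (({1, t, s, t * s} : Finset (Perm α)) : Set (Perm α)) := by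
    ext a
    simp [mem_klein]
  have h2 : Nat.card (klein t s h.1.2.1 h.2.1.2.1 h.2.2.2) =
      Nat.card (((klein t s h.1.2.1 h.2.1.2.1 h.2.2.2 : Subgroup (Perm α)) : Set (Perm α))) := rfl
  rw [h2, h1, Nat.card_coe_set_eq, Set.ncard_coe_finset]
  have e1 : (1 : Perm α) ≠ t := h.1.2.2.symm
  have e2 : (1 : Perm α) ≠ s := h.2.1.2.2.symm
  have e3 : (1 : Perm α) ≠ t * s := h.mul.2.2.symm
  have e4 : t ≠ s := h.2.2.1
  have e5 : t ≠ t * s := h.left_mul.2.2.1
  have e6 : s ≠ t * s := h.right_mul.2.2.1.symm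
  exact Ctx.card4 e1 e2 e3 e4 e5 e6

theorem Cp.klein_not_cyclic {t s : Perm α} (h : Cp G t s) :
    ¬ IsCyclic (klein t s h.1.2.1 h.2.1.2.1 h.2.2.2) := by
  intro hcy
  obtain ⟨g, hg⟩ := IsCyclic.exists_generator (α := klein t s h.1.2.1 h.2.1.2.1 h.2.2.2)
  have ho := orderOf_eq_card_of_forall_mem_zpowers hg
  rw [h.klein_card] at ho
  have hg2 : g * g = 1 := Subtype.ext (h.klein_sq g.2)
  have : orderOf g ∣ 2 := orderOf_dvd_of_pow_eq_one (by rw [pow_two, hg2])
  rw [ho] at this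
  omega

theorem Cp.klein_comm {t s : Perm α} (h : Cp G t s) :
    IsMulCommutative (klein t s h.1.2.1 h.2.1.2.1 h.2.2.2) := by
  refine ⟨⟨fun a b => Subtype.ext ?_⟩⟩
  have ha := a.2
  have hb := b.2
  have hab : (a : Perm α) * b ∈ klein t s h.1.2.1 h.2.1.2.1 h.2.2.2 :=
    Subgroup.mul_mem _ ha hb
  have h1 := h.klein_sq ha
  have h2 := h.klein_sq hb
  have h3 := h.klein_sq hab
  show (a : Perm α) * b = b * a
  have ia : (a : Perm α)⁻¹ = a := inv_eq_of_mul_eq_one_left h1
  have ib : (b : Perm α)⁻¹ = b := inv_eq_of_mul_eq_one_left h2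
  have iab : ((a : Perm α) * b)⁻¹ = a * b := inv_eq_of_mul_eq_one_left h3
  calc (a : Perm α) * b = ((a : Perm α) * b)⁻¹ := iab.symm
    _ = (b : Perm α)⁻¹ * (a : Perm α)⁻¹ := mul_inv_rev _ _
    _ = b * a := by rw [ia, ib]

end Cfsg.Agent.Lib.NagaoBase
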