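import Mathlib
import Cfsg.Agent.Lib.NagaoBase
import Cfsg.Agent.Lib.LVFour
import Cfsg.Agent.S0058

/-!
# Four-fold transitive groups with odd four-point stabilisers: even degree

Such a group has degree at most `6` if its degree is even.
-/

set_option autoImplicit false
set_option linter.unusedSectionVars false
set_option linter.style.haveILetI false

namespace Cfsg.Agent.Lib.NagaoBase

open Equiv Finset MulAction
open Cfsg.Agent.Lib.LVBasic

variable {α : Type*} [Fintype α] [DecidableEq α] {G : Subgroup (Perm α)} {d : ℕ}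

/-- four distinct points -/
theorem exists_four (hn : 4 ≤ Fintype.card α) :
    ∃ a b c e : α, a ≠ b ∧ a ≠ c ∧ a ≠ e ∧ b ≠ c ∧ b ≠ e ∧ c ≠ e := by
  obtain ⟨f⟩ : Nonempty (Fin 4 ↪ α) := Function.Embedding.nonempty_of_card_le (by simpa using hn)
  refine ⟨f 0, f 1, f 2, f 3, ?_, ?_, ?_, ?_, ?_, ?_⟩ <;>
    · intro h
      have := f.injective h
      simp at this

/-- There are points outside a set of small size. -/
theorem exists_notMem {S : Finset α} (h : S.card < Fintype.card α) : ∃ a, a ∉ S := by
  by_contra hh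
  push Not at hh
  have : S = univ := Finset.eq_univ_of_forall hh
  rw [this, Finset.card_univ] at h
  omega

namespace Ctx

variable (C : Ctx G d)
include C

/-- all involutions have the same number of fixed points: even degree -/
theorem card_Fx_even (hn : 6 ≤ Fintype.card α) (hev : Fintype.card α % 2 = 0) {t : Perm α}
    (ht : IsI G t) : (Fx t).card = 2 := by
  obtain ⟨a, b, x, y, h1, h2, h3, h4, h5, h6⟩ := exists_four (α := α) (by omega)
  obtain ⟨s, hs, hss, hsa, -, hsx, hsy⟩ := C.pat0 h1 h2 h3 h4 h5 h6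
  have hsI : IsI G s := ⟨hs, hss, fun he => h1 (by rw [he] at hsa; simpa using hsa)⟩
  obtain ⟨g, hg, hgt⟩ := C.conj_all hn hsI ht
  have hc : (Fx t).card = (Fx s).card := by rw [← hgt, card_Fx_conj]
  have hle := C.card_Fx_le hsI
  have hge : 2 ≤ (Fx s).card := by
    have : ({x, y} : Finset α) ⊆ Fx s := by
      intro z hz
      simp only [Finset.mem_insert, Finset.mem_singleton] at hz
      rcases hz with rfl | rfl
      · exact mem_Fx.2 hsx
      · exact mem_Fx.2 hsy
    have h := Finset.card_le_card this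
    rwa [Finset.card_pair h6] at h
  have hp := Fx_parity hss
  omega

/-- all involutions have the same number of fixed points: odd degree -/
theorem card_Fx_odd (hn : 7 ≤ Fintype.card α) (hodd : Fintype.card α % 2 = 1) {t : Perm α}
    (ht : IsI G t) : (Fx t).card = 3 := by
  obtain ⟨a, b, x, y, h1, h2, h3, h4, h5, h6⟩ := exists_four (α := α) (by omega)
  obtain ⟨s, hs, hss, hsa, -, hsx, hsy⟩ := C.pat0 h1 h2 h3 h4 h5 h6
  have hsI : IsI G s := ⟨hs, hss, fun he => h1 (by rw [he] at hsa; simpa using hsa)⟩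
  obtain ⟨g, hg, hgt⟩ := C.conj_all (by omega) hsI ht
  have hc : (Fx t).card = (Fx s).card := by rw [← hgt, card_Fx_conj]
  have hle := C.card_Fx_le hsI
  have hge : 2 ≤ (Fx s).card := by
    have : ({x, y} : Finset α) ⊆ Fx s := by
      intro z hz
      simp only [Finset.mem_insert, Finset.mem_singleton] at hz
      rcases hz with rfl | rfl
      · exact mem_Fx.2 hsx
      · exact mem_Fx.2 hsy
    have h := Finset.card_le_card this
    rwa [Finset.card_pair h6] at h
  have hp := Fx_parity hss
  omega

/-- An element of a four-point stabiliser preserving a two-element set fixes it pointwise. -/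
theorem fix_on_two {D : Finset α} (hD : D.card = 4) {k : Perm α} (hk : k ∈ fixS G D) {S : Finset α}
    (hS : S.card = 2) (hkS : ∀ y ∈ S, k y ∈ S) : ∀ y ∈ S, k y = y := by
  obtain ⟨u, v, huv, rfl⟩ := Finset.card_eq_two.1 hS
  have hu : k u ∈ ({u, v} : Finset α) := hkS u (by simp)
  have hv : k v ∈ ({u, v} : Finset α) := hkS v (by simp)
  simp only [Finset.mem_insert, Finset.mem_singleton] at hu hv
  have hmain : k u = u ∧ k v = v := by
    rcases hu with hu | hu
    · refine ⟨hu, ?_⟩
      rcases hv with hv | hv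
      · exact absurd (k.injective (hu.trans hv.symm)) huv
      · exact hv
    · rcases hv with hv | hv
      · exact absurd (C.eq_of_swap hD hk hu hv) huv
      · exact absurd (k.injective (hu.trans hv.symm)) huv
  intro y hy
  simp only [Finset.mem_insert, Finset.mem_singleton] at hy
  rcases hy with rfl | rfl
  · exact hmain.1
  · exact hmain.2

/-- Coprime action of a four-group on a four-point stabiliser: a point fixed by the three
centralisers is fixed. -/
theorem fix_of_cent {t s : Perm α} (h : Cp G t s) {D : Finset α} (hD : D.card = 4)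
    (hDt : ∀ y ∈ D, t y ∈ D) (hDs : ∀ y ∈ D, s y ∈ D) {x : α}
    (h1 : ∀ k ∈ fixS G D, k * t = t * k → k x = x)
    (h2 : ∀ k ∈ fixS G D, k * s = s * k → k x = x)
    (h3 : ∀ k ∈ fixS G D, k * (t * s) = (t * s) * k → k x = x) :
    ∀ k ∈ fixS G D, k x = x := by
  have hnorm : klein t s h.1.2.1 h.2.1.2.1 h.2.2.2 ≤ Subgroup.normalizer (fixS G D : Set (Perm α)) := by
    intro a ha
    have ha2 := h.klein_sq ha
    have hinv : a⁻¹ = a := inv_eq_of_mul_eq_one_left ha2
    have haG : a ∈ G := by
      rw [mem_klein] at ha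
      rcases ha with rfl | rfl | rfl | rfl
      · exact G.one_mem
      · exact h.1.1
      · exact h.2.1.1
      · exact h.mul.1
    have haD : ∀ y ∈ D, a y ∈ D := by
      rw [mem_klein] at ha
      rcases ha with rfl | rfl | rfl | rfl
      · simp
      · exact hDt
      · exact hDs
      · intro y hy
        rw [Perm.mul_apply]
        exact hDt _ (hDs y hy)
    have hconj : ∀ k ∈ fixS G D, a * k * a⁻¹ ∈ fixS G D := by
      intro k hk
      refine ⟨G.mul_mem (G.mul_mem haG hk.1) (G.inv_mem haG), fun y hy => ?_⟩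
      rw [hinv, Perm.mul_apply, Perm.mul_apply, hk.2 _ (haD y hy), sq_apply ha2]
    rw [Subgroup.mem_normalizer_iff]
    intro k
    refine ⟨hconj k, fun hk' => ?_⟩
    have := hconj _ hk'
    have e : a * (a * k * a⁻¹) * a⁻¹ = (a * a) * k * (a * a)⁻¹ := by group
    rw [e, ha2] at this
    simpa using this
  have hcop : (Nat.card (klein t s h.1.2.1 h.2.1.2.1 h.2.2.2)).Coprime (Nat.card (fixS G D)) := by
    rw [h.klein_card, C.hH D hD]
    have : (4 : ℕ) = 2 ^ 2 := rfl
    rw [this]
    exact Nat.Coprime.pow_left 2 (Nat.coprime_two_left.mpr C.hd)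
  haveI := h.klein_comm
  have key := Cfsg.Agent.S0058.result (klein t s h.1.2.1 h.2.1.2.1 h.2.2.2) (fixS G D)
    h.klein_not_cyclic hnorm hcop
  have hle : (⨆ a ∈ {a : Perm α | a ∈ klein t s h.1.2.1 h.2.1.2.1 h.2.2.2 ∧ a ≠ 1},
      fixS G D ⊓ Subgroup.centralizer {a}) ≤ fixS (⊤ : Subgroup (Perm α)) {x} := by
    refine iSup₂_le ?_
    rintro a ⟨ha, ha1⟩ k ⟨hk, hkc⟩
    refine ⟨trivial, fun y hy => ?_⟩
    rw [Finset.mem_singleton] at hy
    subst hy
    have hkc' : k * a = a * k := Subgroup.mem_centralizer_singleton_iff.1 hkc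
    rw [mem_klein] at ha
    rcases ha with rfl | rfl | rfl | rfl
    · exact absurd rfl ha1
    · exact h1 k hk hkc'
    · exact h2 k hk hkc'
    · exact h3 k hk hkc'
  rw [key] at hle
  intro k hk
  exact (hle hk).2 x (by simp)

/-- In the case where two commuting involutions have the same fixed points, the group is sharply
four-transitive. -/
theorem d_eq_one_of_same (hn : 6 ≤ Fintype.card α) (hev : Fintype.card α % 2 = 0)
    (hS : ∃ t s, Cp G t s ∧ Fx t = Fx s) : d = 1 := by
  have hg : ∀ u, IsI G u → (Fx u).card = 2 := fun u hu => C.card_Fx_even hn hev hu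
  -- step 1: fixing the four points of two cycles fixes the fixed points
  have step1 : ∀ t, IsI G t → ∀ a c, t a ≠ a → t c ≠ c → c ≠ a → c ≠ t a →
      ∀ k ∈ fixS G {a, t a, c, t c}, ∀ x ∈ Fx t, k x = x := by
    intro t ht a c ha hc hca hct k hk x hx
    obtain ⟨s, hs, hFs, hsa, hsc⟩ := C.exists_same (by omega) hg hS ht ha hc hca hct
    obtain ⟨h1, h2', h3, h4, h5, h6⟩ := Ctx.four_of_cycle ht.2.1 ha hc hca hct
    have hD := Ctx.card4 h1 h2' h3 h4 h5 h6
    have hFm : Fx (t * s) = Fx t := by
      symm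
      apply Finset.eq_of_subset_of_card_le
      · intro z hz
        rw [mem_Fx, Perm.mul_apply]
        have hz' : z ∈ Fx s := hFs ▸ hz
        rw [mem_Fx.1 hz', mem_Fx.1 hz]
      · rw [hg _ hs.mul, hg _ ht]
    have hcomm : ∀ y, s (t y) = t (s y) := fun y => by
      have := congrArg (fun p : Perm α => p y) hs.2.2.2
      simpa [Perm.mul_apply] using this.symm
    have hDt : ∀ y ∈ ({a, t a, c, t c} : Finset α), t y ∈ ({a, t a, c, t c} : Finset α) := by
      intro y hy
      simp only [Finset.mem_insert, Finset.mem_singleton] at hy ⊢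
      rcases hy with rfl | rfl | rfl | rfl
      · simp
      · simp [sq_apply ht.2.1]
      · simp
      · simp [sq_apply ht.2.1]
    have hDs : ∀ y ∈ ({a, t a, c, t c} : Finset α), s y ∈ ({a, t a, c, t c} : Finset α) := by
      intro y hy
      simp only [Finset.mem_insert, Finset.mem_singleton] at hy ⊢
      rcases hy with rfl | rfl | rfl | rfl
      · simp [hsa]
      · simp [hcomm, hsa]
      · simp [hsc]
      · simp [hcomm, hsc]
    have hinv : ∀ u : Perm α, Fx u = Fx t → ∀ k' ∈ fixS G ({a, t a, c, t c} : Finset α),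
        k' * u = u * k' → k' x = x := by
      intro u hu k' hk' hcu
      have hS2 : (Fx t).card = 2 := hg t ht
      refine C.fix_on_two hD hk' hS2 (fun y hy => ?_) x hx
      rw [← hu] at hy ⊢
      rw [mem_Fx] at hy ⊢
      have := congrArg (fun p : Perm α => p y) hcu
      simp only [Perm.mul_apply, hy] at this
      exact this.symm
    exact C.fix_of_cent hs hD hDt hDs (hinv t rfl) (hinv s hFs) (hinv _ hFm) k hk
  -- step 2
  obtain ⟨x, y, a, c, h1, h2, h3, h4, h5, h6⟩ := exists_four (α := α) (by omega)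
  have hD0 : ({x, y, a, c} : Finset α).card = 4 := Ctx.card4 h1 h2 h3 h4 h5 h6
  have htriv : fixS G {x, y, a, c} = ⊥ := by
    rw [eq_bot_iff]
    intro k hk
    rw [Subgroup.mem_bot]
    ext b
    rw [Perm.one_apply]
    by_cases hb : b ∈ ({x, y, a, c} : Finset α)
    · exact hk.2 b hb
    simp only [Finset.mem_insert, Finset.mem_singleton, not_or] at hb
    obtain ⟨hb1, hb2, hb3, hb4⟩ := hb
    -- pattern `(a b)(x)(y)`
    obtain ⟨t, htG, htt, hta, htb, htx, hty⟩ := C.pat0 (a := a) (b := b) (x := x) (y := y)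
      (Ne.symm hb3) h2.symm h4.symm (by tauto) (by tauto) h1
    have htI : IsI G t := ⟨htG, htt, fun he => hb3 (by rw [he] at hta; simpa using hta.symm)⟩
    have hFt : Fx t = {x, y} := by
      symm
      apply Finset.eq_of_subset_of_card_le
      · intro z hz
        simp only [Finset.mem_insert, Finset.mem_singleton] at hz
        rcases hz with rfl | rfl
        · exact mem_Fx.2 htx
        · exact mem_Fx.2 hty
      · rw [hg t htI, Finset.card_pair h1]
    have htc : t c ≠ c := by
      intro he
      have : c ∈ Fx t := mem_Fx.2 he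
      rw [hFt] at this
      simp only [Finset.mem_insert, Finset.mem_singleton] at this
      rcases this with rfl | rfl
      · exact h3 rfl
      · exact h5 rfl
    have hk4 := step1 t htI a c (by rw [hta]; exact hb3) htc h6.symm (by rw [hta]; exact Ne.symm hb4)
    obtain ⟨e1, e2, e3, e4, e5, e6⟩ := Ctx.four_of_cycle htt (a := a) (c := c) (by rw [hta]; exact hb3) htc h6.symm (by rw [hta]; exact Ne.symm hb4)
    have hD1 := Ctx.card4 e1 e2 e3 e4 e5 e6
    have hle : fixS G {a, t a, c, t c} ≤ fixS G {x, y, a, c} := by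
      intro k' hk'
      refine ⟨hk'.1, fun z hz => ?_⟩
      simp only [Finset.mem_insert, Finset.mem_singleton] at hz
      rcases hz with rfl | rfl | rfl | rfl
      · exact hk4 k' hk' _ (mem_Fx.2 htx)
      · exact hk4 k' hk' _ (mem_Fx.2 hty)
      · exact hk'.2 _ (by simp)
      · exact hk'.2 _ (by simp)
    have heq : fixS G {a, t a, c, t c} = fixS G {x, y, a, c} :=
      Subgroup.eq_of_le_of_card_ge hle (by rw [C.hH _ hD1, C.hH _ hD0])
    have hk' : k ∈ fixS G {a, t a, c, t c} := by rw [heq]; exact hk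
    have := hk'.2 (t a) (by simp)
    rwa [hta] at this
  have := C.hH _ hD0
  rw [htriv, Subgroup.card_bot] at this
  exact this.symm

/-- The sharply transitive case. -/
theorem card_of_d_one (hd1 : d = 1) (hn : 6 ≤ Fintype.card α) :
    Fintype.card α = 6 ∨ Fintype.card α = 7 ∨ Fintype.card α = 9 ∨ Fintype.card α = 11 := by
  have hC : Cfsg.Agent.Lib.LVFour.Cfg G (univ : Finset α) 1 := by
    refine ⟨fun g _ x hx => absurd (Finset.mem_univ x) hx, odd_one, ?_, ?_, ?_⟩
    · intro A _ hA
      rw [C.hH A hA, hd1]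
    · intro A _ hA
      obtain ⟨D, hD, hDc⟩ := Finset.exists_subset_card_eq (s := A) (n := 4) (by omega)
      have hb : fixS G D = ⊥ := by
        apply Subgroup.eq_bot_of_card_eq
        rw [C.hH D hDc, hd1]
      rw [eq_bot_iff, ← hb]
      exact fixS_anti G hD
    · intro a b x y _ _ _ _ h1 h2 h3 h4 h5 h6
      obtain ⟨s, hs, -, hsa, hsb, hsx, hsy⟩ := C.pat0 h1 h2 h3 h4 h5 h6
      exact ⟨s, hs, hsx, hsy, hsa, hsb⟩
  have := hC.card_cases (by rw [Finset.card_univ]; omega)
  rw [Finset.card_univ] at this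
  omega

/-- The case with no commuting pairs with the same fixed points. -/
theorem false_of_not_same (hn : 6 ≤ Fintype.card α) (hev : Fintype.card α % 2 = 0)
    (hS : ¬ ∃ t s, Cp G t s ∧ Fx t = Fx s) : False := by
  classical
  have hg : ∀ u, IsI G u → (Fx u).card = 2 := fun u hu => C.card_Fx_even hn hev hu
  obtain ⟨x, y, a₀, c₀, h1, h2, h3, h4, h5, h6⟩ := exists_four (α := α) (by omega)
  -- the two-point stabiliser
  let L : Subgroup (Perm α) := fixS G {x, y}
  have hLmem : ∀ g : Perm α, g ∈ L ↔ g ∈ G ∧ g x = x ∧ g y = y := by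
    intro g
    show g ∈ fixS G {x, y} ↔ _
    rw [mem_fixS]
    simp
  have hFL : ∀ u : Perm α, IsI G u → u ∈ L → Fx u = {x, y} := by
    intro u hu huL
    symm
    apply Finset.eq_of_subset_of_card_le
    · intro z hz
      simp only [Finset.mem_insert, Finset.mem_singleton] at hz
      obtain ⟨-, hux, huy⟩ := (hLmem u).1 huL
      rcases hz with rfl | rfl
      · exact mem_Fx.2 hux
      · exact mem_Fx.2 huy
    · rw [hg u hu, Finset.card_pair h1]
  -- an involution of `L`
  obtain ⟨t₀, ht₀, ht₀t, ht₀a, -, ht₀x, ht₀y⟩ := C.pat0 (a := a₀) (b := c₀) (x := x) (y := y) h6 h2.symm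
    h4.symm h3.symm h5.symm h1
  have ht₀L : t₀ ∈ L := (hLmem _).2 ⟨ht₀, ht₀x, ht₀y⟩
  have ht₀1 : t₀ ≠ 1 := fun he => h6 (by rw [he] at ht₀a; simpa using ht₀a)
  have hev' : Even (Nat.card L) := by
    have ho : orderOf (⟨t₀, ht₀L⟩ : L) = 2 := by
      apply orderOf_eq_prime
      · exact Subtype.ext (by simpa [pow_two] using ht₀t)
      · intro he
        exact ht₀1 (congrArg Subtype.val he)
    rw [even_iff_two_dvd, ← ho]
    exact orderOf_dvd_natCard _
  -- central involution
  obtain ⟨z, hz1, hzz, hzc⟩ := Cfsg.Agent.Lib.NagaoCI.exists_central_involution (X := L) hev' (by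
      intro a b ha hb ha1 hb1 hab
      by_contra hne
      have hI : ∀ e : L, e * e = 1 → e ≠ 1 → IsI G (e : Perm α) := by
        intro e he he1
        exact ⟨((hLmem _).1 e.2).1, by exact_mod_cast congrArg Subtype.val he,
          fun h => he1 (Subtype.ext h)⟩
      apply hS
      refine ⟨a, b, ⟨hI a ha ha1, hI b hb hb1, fun h => hne (Subtype.ext h), ?_⟩, ?_⟩
      · exact_mod_cast congrArg Subtype.val hab
      · rw [hFL _ (hI a ha ha1) a.2, hFL _ (hI b hb hb1) b.2]) (by
      intro N hN hNodd
      by_contra hne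
      obtain ⟨k, hk1⟩ := Subgroup.ne_bot_iff_exists_ne_one.1 hne
      have hk1' : (((k : N) : L) : Perm α) ≠ 1 := fun h => hk1 (Subtype.ext (Subtype.ext h))
      obtain ⟨a, ha⟩ : ∃ a, (((k : N) : L) : Perm α) a ≠ a := by
        by_contra hh
        push Not at hh
        exact hk1' (Equiv.ext hh)
      have hkL := (hLmem _).1 ((k : N) : L).2
      have hax : a ≠ x := fun h => ha (by rw [h]; exact hkL.2.1)
      have hay : a ≠ y := fun h => ha (by rw [h]; exact hkL.2.2)
      set b := (((k : N) : L) : Perm α) a with hb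
      have hbx : b ≠ x := fun h => hax ((((k : N) : L) : Perm α).injective (h.trans hkL.2.1.symm))
      have hby : b ≠ y := fun h => hay ((((k : N) : L) : Perm α).injective (h.trans hkL.2.2.symm))
      let N' : Subgroup (Perm α) := N.map L.subtype
      have hcardN' : Nat.card N' = Nat.card N :=
        Subgroup.card_map_of_injective L.subtype_injective
      have hmemN' : ∀ g : Perm α, g ∈ N' → g x = x ∧ g y = y := by
        rintro g ⟨g', -, rfl⟩
        exact ((hLmem _).1 g'.2).2
      have horb : orbF N' a = univ \ {x, y} := by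
        ext c
        simp only [mem_orbF, Finset.mem_sdiff, Finset.mem_univ, true_and, Finset.mem_insert,
          Finset.mem_singleton, not_or]
        constructor
        · rintro ⟨g, hg, rfl⟩
          obtain ⟨g1, g2⟩ := hmemN' g hg
          exact ⟨fun h => hax (g.injective (h.trans g1.symm)), fun h => hay (g.injective (h.trans g2.symm))⟩
        · rintro ⟨hcx, hcy⟩
          by_cases hca : c = a
          · exact ⟨1, N'.one_mem, by simp [hca]⟩
          obtain ⟨g, hg, g1, g2, g3, g4⟩ := C.agree4 (a := x) (b := y) (c := a) (e := b)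
            (a' := x) (b' := y) (c' := a) (e' := c) h1 hax.symm hbx.symm hay.symm hby.symm ha.symm
            h1 hax.symm (Ne.symm hcx) hay.symm (Ne.symm hcy) (Ne.symm hca)
          have hgL : g ∈ L := (hLmem _).2 ⟨hg, g1, g2⟩
          refine ⟨(⟨g, hgL⟩ * (k : L) * (⟨g, hgL⟩ : L)⁻¹ : L), ?_, ?_⟩
          · exact ⟨_, hN.conj_mem _ k.2 _, rfl⟩
          · show (g * ((k : N) : L).1 * g⁻¹) a = c
            have hi : g⁻¹ a = a := by rw [Perm.inv_eq_iff_eq, g3]
            simp only [Perm.mul_apply, hi]
            rw [← hb, g4]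
      have hoc := orb_card N' a
      rw [hcardN', horb] at hoc
      have hcs : (univ \ ({x, y} : Finset α)).card = Fintype.card α - 2 := by
        rw [Finset.card_sdiff_of_subset (Finset.subset_univ _), Finset.card_pair h1, Finset.card_univ]
      rw [hcs] at hoc
      have hodd2 : Odd (Fintype.card α - 2) := Odd.of_dvd_nat hNodd ⟨_, hoc.symm⟩
      have : (Fintype.card α - 2) % 2 = 1 := Nat.odd_iff.1 hodd2
      omega)
  have hz1' : (z : Perm α) ≠ 1 := fun h => hz1 (Subtype.ext h)
  obtain ⟨a, ha⟩ : ∃ a, (z : Perm α) a ≠ a := by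
    by_contra hh
    push Not at hh
    exact hz1' (Equiv.ext hh)
  have hzL := (hLmem _).1 z.2
  have hax : a ≠ x := fun h => ha (by rw [h]; exact hzL.2.1)
  have hay : a ≠ y := fun h => ha (by rw [h]; exact hzL.2.2)
  have hbx : (z : Perm α) a ≠ x := fun h => hax ((z : Perm α).injective (h.trans hzL.2.1.symm))
  have hby : (z : Perm α) a ≠ y := fun h => hay ((z : Perm α).injective (h.trans hzL.2.2.symm))
  obtain ⟨b, hb⟩ : ∃ b, b ∉ ({x, y, a, (z : Perm α) a} : Finset α) := by
    apply exists_notMem
    have : ({x, y, a, (z : Perm α) a} : Finset α).card ≤ 4 := Finset.card_le_four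
    omega
  simp only [Finset.mem_insert, Finset.mem_singleton, not_or] at hb
  obtain ⟨hb1, hb2, hb3, hb4⟩ := hb
  obtain ⟨g, hg, g1, g2, g3, g4⟩ := C.agree4 (a := x) (b := y) (c := a) (e := (z : Perm α) a)
    (a' := x) (b' := y) (c' := a) (e' := b) h1 hax.symm hbx.symm hay.symm hby.symm ha.symm
    h1 hax.symm (Ne.symm hb1) hay.symm (Ne.symm hb2) (Ne.symm hb3)
  have hgL : g ∈ L := (hLmem _).2 ⟨hg, g1, g2⟩
  have hcomm := hzc ⟨g, hgL⟩
  have h7 : g * (z : Perm α) = (z : Perm α) * g := congrArg Subtype.val hcomm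
  have h8 := congrArg (fun p : Perm α => p a) h7
  simp only [Perm.mul_apply, g3, g4] at h8
  exact hb4 h8

/-- Four-fold transitive groups with odd four-point stabilisers have no even degree at least `8`. -/
theorem even_kill (hn : 8 ≤ Fintype.card α) (hev : Fintype.card α % 2 = 0) : False := by
  by_cases hS : ∃ t s, Cp G t s ∧ Fx t = Fx s
  · have h1 := C.d_eq_one_of_same (by omega) hev hS
    have h2 := C.card_of_d_one h1 (by omega)
    omega
  · exact C.false_of_not_same (by omega) hev hS

end Ctx

end Cfsg.Agent.Lib.NagaoBase
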