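import Mathlib
import Cfsg.Agent.Lib.NagaoEven

/-!
# Four-fold transitive groups with odd four-point stabilisers: odd degree, first part

The restriction to a point stabiliser, the case of commuting involutions with the same fixed points,
commuting pairs.
-/

set_option autoImplicit false
set_option linter.unusedSectionVars false
set_option linter.style.haveILetI false

namespace Cfsg.Agent.Lib.NagaoBase

open Equiv Finset MulAction
open Cfsg.Agent.Lib.LVBasic

variable {α : Type*} [Fintype α] [DecidableEq α] {G : Subgroup (Perm α)} {d : ℕ}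

theorem comm_apply {g t : Perm α} (h : g * t = t * g) (y : α) : g (t y) = t (g y) := by
  have := congrArg (fun p : Perm α => p y) h
  simpa [Perm.mul_apply] using this

theorem Fx_inv {g t : Perm α} (h : g * t = t * g) {y : α} (hy : y ∈ Fx t) : g y ∈ Fx t := by
  rw [mem_Fx] at hy ⊢
  rw [← comm_apply h, hy]

namespace Ctx

variable (C : Ctx G d)
include C

/-- A four-element set is the image of a given one. -/
theorem exists_image {D D' : Finset α} (hD : D.card = 4) (hD' : D'.card = 4) :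
    ∃ g ∈ G, D.image g = D' := by
  classical
  let e : D ≃ Fin 4 := Finset.equivFinOfCardEq hD
  let e' : D' ≃ Fin 4 := Finset.equivFinOfCardEq hD'
  let v : Fin 4 ↪ α := ⟨fun i => (e.symm i : α), fun i j h => by
    have : e.symm i = e.symm j := Subtype.ext h
    exact e.symm.injective this⟩
  let w : Fin 4 ↪ α := ⟨fun i => (e'.symm i : α), fun i j h => by
    have : e'.symm i = e'.symm j := Subtype.ext h
    exact e'.symm.injective this⟩
  obtain ⟨g, hg, hgv⟩ := C.h4 v w
  have himg : ∀ x ∈ D, g x ∈ D' := by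
    intro x hx
    have := hgv (e ⟨x, hx⟩)
    change g (e.symm (e ⟨x, hx⟩) : α) = (e'.symm (e ⟨x, hx⟩) : α) at this
    rw [Equiv.symm_apply_apply] at this
    simp only at this
    rw [this]
    exact (e'.symm _).2
  refine ⟨g, hg, ?_⟩
  apply Finset.eq_of_subset_of_card_le
  · intro y hy
    obtain ⟨x, hx, rfl⟩ := Finset.mem_image.1 hy
    exact himg x hx
  · rw [Finset.card_image_of_injective _ g.injective, hD, hD']

/-- Tracking a point through the conjugacy of involutions. -/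
theorem conj_point {t₁ t₂ : Perm α} (h₁ : IsI G t₁) (h₂ : IsI G t₂) {a₁ c₁ a₂ c₂ : α}
    (ha₁ : t₁ a₁ ≠ a₁) (hc₁ : t₁ c₁ ≠ c₁) (hca₁ : c₁ ≠ a₁) (hct₁ : c₁ ≠ t₁ a₁)
    (ha₂ : t₂ a₂ ≠ a₂) (hc₂ : t₂ c₂ ≠ c₂) (hca₂ : c₂ ≠ a₂) (hct₂ : c₂ ≠ t₂ a₂) :
    ∃ g ∈ G, g * t₁ * g⁻¹ = t₂ ∧ g a₁ = a₂ := by
  obtain ⟨e1, e2, e3, e4, e5, e6⟩ := four_of_cycle h₁.2.1 ha₁ hc₁ hca₁ hct₁
  obtain ⟨e1', e2', e3', e4', e5', e6'⟩ := four_of_cycle h₂.2.1 ha₂ hc₂ hca₂ hct₂
  obtain ⟨g, hg, g1, g2, g3, g4⟩ := C.agree4 e1 e2 e3 e4 e5 e6 e1' e2' e3' e4' e5' e6'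
  have hD := card4 e1' e2' e3' e4' e5' e6'
  have hI := h₁.conj hg
  have hag : ∀ x ∈ ({a₂, t₂ a₂, c₂, t₂ c₂} : Finset α), (g * t₁ * g⁻¹) x = t₂ x := by
    have hi1 : g⁻¹ a₂ = a₁ := by rw [Perm.inv_eq_iff_eq, g1]
    have hi2 : g⁻¹ (t₂ a₂) = t₁ a₁ := by rw [Perm.inv_eq_iff_eq, g2]
    have hi3 : g⁻¹ c₂ = c₁ := by rw [Perm.inv_eq_iff_eq, g3]
    have hi4 : g⁻¹ (t₂ c₂) = t₁ c₁ := by rw [Perm.inv_eq_iff_eq, g4]
    intro x hx
    simp only [Finset.mem_insert, Finset.mem_singleton] at hx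
    rcases hx with rfl | rfl | rfl | rfl
    · simp only [Perm.mul_apply, hi1, g2]
    · simp only [Perm.mul_apply, hi2, sq_apply h₁.2.1, sq_apply h₂.2.1, g1]
    · simp only [Perm.mul_apply, hi3, g4]
    · simp only [Perm.mul_apply, hi4, sq_apply h₁.2.1, sq_apply h₂.2.1, g3]
  obtain ⟨k, hk, hkt, -⟩ := C.conj_of_agree hI.1 h₂.1 hI.2.1 h₂.2.1 hD hag
  refine ⟨k * g, G.mul_mem hk.1 hg, ?_, ?_⟩
  · rw [← hkt]
    group
  · rw [Perm.mul_apply, g1, hk.2 a₂ (by simp)]

end Ctx

/-- A constructor for the context. -/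
theorem ctx_of (h4 : ∀ v w : Fin 4 ↪ α, ∃ g ∈ G, ∀ i, g (v i) = w i) {D₀ : Finset α}
    (hD₀ : D₀.card = 4) (hodd : Odd (Nat.card (fixS G D₀))) : Ctx G (Nat.card (fixS G D₀)) := by
  have hi : ∀ D : Finset α, D.card = 4 → ∃ g ∈ G, D₀.image g = D := by
    intro D hD
    classical
    let e : D₀ ≃ Fin 4 := Finset.equivFinOfCardEq hD₀
    let e' : D ≃ Fin 4 := Finset.equivFinOfCardEq hD
    let v : Fin 4 ↪ α := ⟨fun i => (e.symm i : α), fun i j h => by
      have : e.symm i = e.symm j := Subtype.ext h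
      exact e.symm.injective this⟩
    let w : Fin 4 ↪ α := ⟨fun i => (e'.symm i : α), fun i j h => by
      have : e'.symm i = e'.symm j := Subtype.ext h
      exact e'.symm.injective this⟩
    obtain ⟨g, hg, hgv⟩ := h4 v w
    have himg : ∀ x ∈ D₀, g x ∈ D := by
      intro x hx
      have := hgv (e ⟨x, hx⟩)
      change g (e.symm (e ⟨x, hx⟩) : α) = (e'.symm (e ⟨x, hx⟩) : α) at this
      rw [Equiv.symm_apply_apply] at this
      simp only at this
      rw [this]
      exact (e'.symm _).2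
    refine ⟨g, hg, ?_⟩
    apply Finset.eq_of_subset_of_card_le
    · intro y hy
      obtain ⟨x, hx, rfl⟩ := Finset.mem_image.1 hy
      exact himg x hx
    · rw [Finset.card_image_of_injective _ g.injective, hD, hD₀]
  refine ⟨hodd, h4, fun D hD => ?_⟩
  obtain ⟨g, hg, rfl⟩ := hi D hD
  exact card_fixS_image G hg D₀

/-! ### Restriction to a point stabiliser -/

/-- The restriction of the stabiliser of a point to the other points. -/
def resHom (G : Subgroup (Perm α)) (x : α) : fixS G {x} →* Perm {y : α // y ≠ x} where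
  toFun g := (g : Perm α).subtypePerm (fun y => by
    have hgx : (g : Perm α) x = x := g.2.2 x (by simp)
    constructor
    · intro h hy
      exact h (by rw [hy, hgx])
    · intro h hy
      exact h ((g : Perm α).injective (hy.trans hgx.symm)))
  map_one' := by
    ext y
    simp
  map_mul' := by
    intro g h
    ext y
    rfl

theorem resHom_apply (x : α) (g : fixS G {x}) (y : {y : α // y ≠ x}) :
    ((resHom G x g y : {y : α // y ≠ x}) : α) = (g : Perm α) y := rfl

theorem resHom_injective (x : α) : Function.Injective (resHom G x) := by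
  intro g h he
  apply Subtype.ext
  ext y
  by_cases hy : y = x
  · subst hy
    rw [g.2.2 y (by simp), h.2.2 y (by simp)]
  · have := congrArg (fun p : Perm {y : α // y ≠ x} => ((p ⟨y, hy⟩ : {y : α // y ≠ x}) : α)) he
    simpa [resHom_apply] using this

/-- If four-point stabilisers are transitive on the remaining points, the point stabiliser yields a
four-transitive group with odd four-point stabilisers. -/
theorem Ctx.res_ctx (C : Ctx G d) (h5 : ∀ J : Finset α, J.card = 4 → ∀ a b, a ∉ J → b ∉ J →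
    ∃ h ∈ fixS G J, h a = b) (x : α) (hn : 6 ≤ Fintype.card α) :
    ∃ d', Ctx (resHom G x).range d' := by
  classical
  have h4 : ∀ v w : Fin 4 ↪ {y : α // y ≠ x}, ∃ g ∈ (resHom G x).range, ∀ i, g (v i) = w i := by
    intro v w
    have hv : ∀ i, ((v i : {y : α // y ≠ x}) : α) ≠ x := fun i => (v i).2
    have hw : ∀ i, ((w i : {y : α // y ≠ x}) : α) ≠ x := fun i => (w i).2
    have hvi : ∀ i j, i ≠ j → ((v i : {y : α // y ≠ x}) : α) ≠ v j := fun i j hij h =>
      hij (v.injective (Subtype.ext h))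
    have hwi : ∀ i j, i ≠ j → ((w i : {y : α // y ≠ x}) : α) ≠ w j := fun i j hij h =>
      hij (w.injective (Subtype.ext h))
    obtain ⟨g₁, hg₁, g1, g2, g3, g4⟩ := C.agree4 (a := x) (b := v 0) (c := v 1) (e := v 2)
      (a' := x) (b' := w 0) (c' := w 1) (e' := w 2) (hv 0).symm (hv 1).symm (hv 2).symm
      (hvi _ _ (by decide)) (hvi _ _ (by decide)) (hvi _ _ (by decide))
      (hw 0).symm (hw 1).symm (hw 2).symm
      (hwi _ _ (by decide)) (hwi _ _ (by decide)) (hwi _ _ (by decide))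
    have hJ : ({x, (w 0 : α), (w 1 : α), (w 2 : α)} : Finset α).card = 4 :=
      Ctx.card4 (hw 0).symm (hw 1).symm (hw 2).symm
      (hwi _ _ (by decide)) (hwi _ _ (by decide)) (hwi _ _ (by decide))
    have hu : g₁ (v 3) ∉ ({x, (w 0 : α), (w 1 : α), (w 2 : α)} : Finset α) := by
      simp only [Finset.mem_insert, Finset.mem_singleton, not_or]
      refine ⟨?_, ?_, ?_, ?_⟩
      · intro h
        exact hv 3 (g₁.injective (h.trans g1.symm))
      · intro h
        exact hvi 3 0 (by decide) (g₁.injective (h.trans g2.symm))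
      · intro h
        exact hvi 3 1 (by decide) (g₁.injective (h.trans g3.symm))
      · intro h
        exact hvi 3 2 (by decide) (g₁.injective (h.trans g4.symm))
    have hw3 : ((w 3 : {y : α // y ≠ x}) : α) ∉ ({x, (w 0 : α), (w 1 : α), (w 2 : α)} : Finset α) := by
      simp only [Finset.mem_insert, Finset.mem_singleton, not_or]
      exact ⟨hw 3, hwi 3 0 (by decide), hwi 3 1 (by decide), hwi 3 2 (by decide)⟩
    obtain ⟨h, hh, hhu⟩ := h5 _ hJ _ _ hu hw3
    have hgx : (h * g₁) x = x := by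
      rw [Perm.mul_apply, g1]
      exact hh.2 x (by simp)
    have hmem : h * g₁ ∈ fixS G {x} := ⟨G.mul_mem hh.1 hg₁, fun y hy => by
      rw [Finset.mem_singleton] at hy
      rw [hy, hgx]⟩
    refine ⟨resHom G x ⟨h * g₁, hmem⟩, ⟨_, rfl⟩, fun i => ?_⟩
    apply Subtype.ext
    rw [resHom_apply]
    show (h * g₁) (v i) = w i
    rw [Perm.mul_apply]
    fin_cases i
    · show h (g₁ (v 0)) = w 0
      rw [g2]
      exact hh.2 _ (by simp)
    · show h (g₁ (v 1)) = w 1
      rw [g3]
      exact hh.2 _ (by simp)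
    · show h (g₁ (v 2)) = w 2
      rw [g4]
      exact hh.2 _ (by simp)
    · exact hhu
  have hcard : 4 ≤ Fintype.card {y : α // y ≠ x} := by
    rw [Fintype.card_subtype_compl, Fintype.card_subtype_eq]
    omega
  obtain ⟨D₀, -, hD₀⟩ := Finset.exists_subset_card_eq (s := (univ : Finset {y : α // y ≠ x})) (n := 4)
    (by rw [Finset.card_univ]; exact hcard)
  refine ⟨_, ctx_of h4 hD₀ ?_⟩
  -- oddness
  rw [← Nat.not_even_iff_odd, even_iff_two_dvd]
  intro h2
  obtain ⟨k, hk⟩ := exists_prime_orderOf_dvd_card' (G := fixS (resHom G x).range D₀) 2 h2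
  have hkm := (k : Perm {y : α // y ≠ x})
  obtain ⟨g, hg⟩ : ∃ g : fixS G {x}, resHom G x g = (k : Perm {y : α // y ≠ x}) := k.2.1
  -- `g` lies in a four-point stabiliser of `G`
  have hD₁ : (D₀.map ⟨Subtype.val, Subtype.val_injective⟩).card = 4 := by
    rw [Finset.card_map, hD₀]
  have hgm : (g : Perm α) ∈ fixS G (D₀.map ⟨Subtype.val, Subtype.val_injective⟩) := by
    refine ⟨(g.2).1, fun y hy => ?_⟩
    obtain ⟨z, hz, rfl⟩ := Finset.mem_map.1 hy
    have h1 := k.2.2 z hz
    rw [← hg] at h1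
    have := congrArg Subtype.val h1
    simpa [resHom_apply] using this
  have hk2 : k * k = 1 := by
    have := pow_orderOf_eq_one k
    rwa [hk, pow_two] at this
  have hg2 : (g : Perm α) * g = 1 := by
    have h1 : resHom G x (g * g) = 1 := by
      rw [map_mul, hg]
      exact congrArg Subtype.val hk2
    have h2 : g * g = 1 := resHom_injective x (by rw [h1, map_one])
    exact congrArg Subtype.val h2
  have hp := C.pow_d hD₁ hgm
  obtain ⟨m, hm⟩ := C.hd
  rw [hm, pow_odd_of_sq hg2] at hp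
  have hk1 : k = 1 := by
    apply Subtype.ext
    show (k : Perm {y : α // y ≠ x}) = 1
    rw [← hg]
    have : g = 1 := Subtype.ext hp
    rw [this, map_one]
  rw [hk1] at hk
  simp at hk

/-- Five-fold transitivity is impossible for odd degree at least `9`. -/
theorem Ctx.five_kill (C : Ctx G d) (h5 : ∀ J : Finset α, J.card = 4 → ∀ a b, a ∉ J → b ∉ J →
    ∃ h ∈ fixS G J, h a = b) (hn : 9 ≤ Fintype.card α) (hodd : Fintype.card α % 2 = 1) : False := by
  obtain ⟨x⟩ : Nonempty α := by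
    apply Fintype.card_pos_iff.1
    omega
  obtain ⟨d', C'⟩ := C.res_ctx h5 x (by omega)
  have hcard : Fintype.card {y : α // y ≠ x} = Fintype.card α - 1 := by
    rw [Fintype.card_subtype_compl, Fintype.card_subtype_eq]
  exact C'.even_kill (by omega) (by omega)

/-- Transitivity of four-point stabilisers spreads. -/
theorem Ctx.five_spread (C : Ctx G d) {J₀ : Finset α} (hJ₀ : J₀.card = 4)
    (h : ∀ a b, a ∉ J₀ → b ∉ J₀ → ∃ h ∈ fixS G J₀, h a = b) :
    ∀ J : Finset α, J.card = 4 → ∀ a b, a ∉ J → b ∉ J → ∃ h ∈ fixS G J, h a = b := by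
  intro J hJ a b ha hb
  obtain ⟨g, hg, rfl⟩ := C.exists_image hJ₀ hJ
  have ha' : g⁻¹ a ∉ J₀ := by
    intro hh
    apply ha
    refine Finset.mem_image.2 ⟨_, hh, by simp⟩
  have hb' : g⁻¹ b ∉ J₀ := by
    intro hh
    apply hb
    refine Finset.mem_image.2 ⟨_, hh, by simp⟩
  obtain ⟨k, hk, hka⟩ := h _ _ ha' hb'
  refine ⟨g * k * g⁻¹, ⟨G.mul_mem (G.mul_mem hg hk.1) (G.inv_mem hg), fun y hy => ?_⟩, ?_⟩
  · obtain ⟨z, hz, rfl⟩ := Finset.mem_image.1 hy
    simp [Perm.mul_apply, hk.2 z hz]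
  · simp only [Perm.mul_apply, hka]
    simp

end Cfsg.Agent.Lib.NagaoBase
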