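import Mathlib
import Cfsg.Agent.Lib.NagaoOdd1

/-!
# Four-fold transitive groups with odd four-point stabilisers: odd degree, second part

The case of commuting involutions with the same fixed points; the structure of commuting pairs
otherwise.
-/

set_option autoImplicit false
set_option linter.unusedSectionVars false
set_option linter.style.haveILetI false

namespace Cfsg.Agent.Lib.NagaoBase

open Equiv Finset MulAction
open Cfsg.Agent.Lib.LVBasic

variable {α : Type*} [Fintype α] [DecidableEq α] {G : Subgroup (Perm α)} {d : ℕ}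

theorem card_eq_four {J : Finset α} (hJ : J.card = 4) :
    ∃ a b x y : α, a ≠ b ∧ a ≠ x ∧ a ≠ y ∧ b ≠ x ∧ b ≠ y ∧ x ≠ y ∧ J = {a, b, x, y} := by
  obtain ⟨a, ha⟩ : J.Nonempty := by
    rw [← Finset.card_pos]; omega
  have h3 : (J.erase a).card = 3 := by
    rw [Finset.card_erase_of_mem ha, hJ]
  obtain ⟨b, x, y, h1, h2, h4, he⟩ := Finset.card_eq_three.1 h3
  have hb : b ∈ J.erase a := by rw [he]; simp
  have hx : x ∈ J.erase a := by rw [he]; simp
  have hy : y ∈ J.erase a := by rw [he]; simp
  refine ⟨a, b, x, y, (Finset.ne_of_mem_erase hb).symm, (Finset.ne_of_mem_erase hx).symm,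
    (Finset.ne_of_mem_erase hy).symm, h1, h2, h4, ?_⟩
  rw [← he, Finset.insert_erase ha]

namespace Ctx

variable (C : Ctx G d)
include C

/-- An involution with prescribed fixed points. -/
theorem exists_inv_with_Fx (hn : 7 ≤ Fintype.card α) (hodd : Fintype.card α % 2 = 1) {x y z : α}
    (hxy : x ≠ y) (hxz : x ≠ z) (hyz : y ≠ z) : ∃ t, IsI G t ∧ Fx t = {x, y, z} := by
  obtain ⟨a, b, u, v, h1, h2, h3, h4, h5, h6⟩ := exists_four (α := α) (by omega)
  obtain ⟨t₀, ht₀, ht₀₀, hta, -, -, -⟩ := C.pat0 h1 h2 h3 h4 h5 h6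
  have hI : IsI G t₀ := ⟨ht₀, ht₀₀, fun he => h1 (by rw [he] at hta; simpa using hta)⟩
  have hc := C.card_Fx_odd hn hodd hI
  obtain ⟨u₁, u₂, u₃, e1, e2, e3, hF⟩ := Finset.card_eq_three.1 hc
  obtain ⟨u₄, hu₄⟩ : ∃ u₄, u₄ ∉ Fx t₀ := exists_notMem (by omega)
  obtain ⟨w, hw⟩ : ∃ w, w ∉ ({x, y, z} : Finset α) := exists_notMem (by
    have : ({x, y, z} : Finset α).card ≤ 3 := Finset.card_le_three
    omega)
  rw [hF] at hu₄
  simp only [Finset.mem_insert, Finset.mem_singleton, not_or] at hu₄ hw
  obtain ⟨g, hg, g1, g2, g3, g4⟩ := C.agree4 (a := u₁) (b := u₂) (c := u₃) (e := u₄) (a' := x) (b' := y)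
    (c' := z) (e' := w) e1 e2 (Ne.symm hu₄.1) e3 (Ne.symm hu₄.2.1) (Ne.symm hu₄.2.2) hxy hxz
    (Ne.symm hw.1) hyz (Ne.symm hw.2.1) (Ne.symm hw.2.2)
  refine ⟨g * t₀ * g⁻¹, hI.conj hg, ?_⟩
  rw [Fx_conj, hF, Finset.image_insert, Finset.image_insert, Finset.image_singleton, g1, g2, g3]

/-- If commuting involutions with the same fixed points exist, four-point stabilisers are transitive
on the remaining points. -/
theorem trans_of_same (hn : 7 ≤ Fintype.card α) (hodd : Fintype.card α % 2 = 1)
    (hS : ∃ t s, Cp G t s ∧ Fx t = Fx s) :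
    ∀ J : Finset α, J.card = 4 → ∀ z z', z ∉ J → z' ∉ J → ∃ h ∈ fixS G J, h z = z' := by
  intro J hJ z z' hz hz'
  obtain ⟨a, b, x, y, h1, h2, h3, h4, h5, h6, rfl⟩ := card_eq_four hJ
  have hg : ∀ u, IsI G u → (Fx u).card = 3 := fun u hu => C.card_Fx_odd hn hodd hu
  have key : ∀ z, z ∉ ({a, b, x, y} : Finset α) → ∃ s, IsI G s ∧ Fx s = {x, y, z} ∧ s a = b ∧ s b = a := by
    intro z hz
    simp only [Finset.mem_insert, Finset.mem_singleton, not_or] at hz
    obtain ⟨hz1, hz2, hz3, hz4⟩ := hz
    obtain ⟨t, ht, hF⟩ := C.exists_inv_with_Fx hn hodd h6 (Ne.symm hz3) (Ne.symm hz4)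
    have hta : t a ≠ a := by
      intro he
      have : a ∈ Fx t := mem_Fx.2 he
      rw [hF] at this
      simp only [Finset.mem_insert, Finset.mem_singleton] at this
      rcases this with h | h | h
      · exact h2 h
      · exact h3 h
      · exact hz1 h.symm
    have htb : t b ≠ b := by
      intro he
      have : b ∈ Fx t := mem_Fx.2 he
      rw [hF] at this
      simp only [Finset.mem_insert, Finset.mem_singleton] at this
      rcases this with h | h | h
      · exact h4 h
      · exact h5 h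
      · exact hz2 h.symm
    by_cases hba : b = t a
    · exact ⟨t, ht, hF, hba.symm, by rw [hba, sq_apply ht.2.1]⟩
    · obtain ⟨s, hs, hFs, hsa, hsb⟩ := C.exists_same (by omega) hg hS ht hta htb (Ne.symm h1) hba
      exact ⟨s, hs.2.1, hFs.trans hF, hsa, hsb⟩
  obtain ⟨s, hs, hF, hsa, hsb⟩ := key z hz
  obtain ⟨s', hs', hF', hsa', hsb'⟩ := key z' hz'
  have hD := card4 h1 h2 h3 h4 h5 h6
  have hsx : s x = x := mem_Fx.1 (by rw [hF]; simp)
  have hsy : s y = y := mem_Fx.1 (by rw [hF]; simp)
  have hsx' : s' x = x := mem_Fx.1 (by rw [hF']; simp)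
  have hsy' : s' y = y := mem_Fx.1 (by rw [hF']; simp)
  obtain ⟨k, hk, hkt, -⟩ := C.conj_of_agree hs.1 hs'.1 hs.2.1 hs'.2.1 hD (by
    intro u hu
    simp only [Finset.mem_insert, Finset.mem_singleton] at hu
    rcases hu with rfl | rfl | rfl | rfl
    · rw [hsa, hsa']
    · rw [hsb, hsb']
    · rw [hsx, hsx']
    · rw [hsy, hsy'])
  refine ⟨k, hk, ?_⟩
  have hz1 : z ∈ Fx s := by rw [hF]; simp
  have hz2 : k z ∈ Fx s' := by
    rw [← hkt]
    exact mem_Fx_conj.2 hz1
  rw [hF'] at hz2
  simp only [Finset.mem_insert, Finset.mem_singleton] at hz2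
  simp only [Finset.mem_insert, Finset.mem_singleton, not_or] at hz
  rcases hz2 with h | h | h
  · exact absurd (k.injective (h.trans (hk.2 x (by simp)).symm)) hz.2.2.1
  · exact absurd (k.injective (h.trans (hk.2 y (by simp)).symm)) hz.2.2.2
  · exact h

end Ctx

/-! ### The structure of commuting pairs in the other case -/

/-- The centraliser of `t` in the stabiliser of `Fx t` and `p`. -/
def C5 (G : Subgroup (Perm α)) (t : Perm α) (p : α) : Subgroup (Perm α) :=
  fixS G (Fx t ∪ {p}) ⊓ Subgroup.centralizer {t}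

theorem mem_C5 {t g : Perm α} {p : α} :
    g ∈ C5 G t p ↔ g ∈ G ∧ (∀ y, t y = y → g y = y) ∧ g p = p ∧ g * t = t * g := by
  unfold C5
  rw [Subgroup.mem_inf, mem_fixS, Subgroup.mem_centralizer_singleton_iff]
  constructor
  · rintro ⟨⟨h1, h2⟩, h3⟩
    exact ⟨h1, fun y hy => h2 y (by simp [hy]), h2 p (by simp), h3⟩
  · rintro ⟨h1, h2, h3, h4⟩
    refine ⟨⟨h1, fun y hy => ?_⟩, h4⟩
    simp only [Finset.mem_union, mem_Fx, Finset.mem_singleton] at hy
    rcases hy with hy | rfl
    · exact h2 y hy
    · exact h3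

/-- The subgroup of `C5 G t p` commuting with `s` too. -/
def W2 (G : Subgroup (Perm α)) (t s : Perm α) (p : α) : Subgroup (Perm α) :=
  C5 G t p ⊓ Subgroup.centralizer {s}

theorem mem_W2 {t s g : Perm α} {p : α} : g ∈ W2 G t s p ↔ g ∈ C5 G t p ∧ g * s = s * g := by
  unfold W2
  rw [Subgroup.mem_inf, Subgroup.mem_centralizer_singleton_iff]

theorem W2_le (t s : Perm α) (p : α) : W2 G t s p ≤ C5 G t p := inf_le_left

theorem C5_le (t : Perm α) (p : α) : C5 G t p ≤ fixS G (Fx t ∪ {p}) := inf_le_left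

theorem card_J {t : Perm α} (h3 : (Fx t).card = 3) {p : α} (hp : t p ≠ p) :
    (Fx t ∪ {p}).card = 4 := by
  rw [Finset.card_union_of_disjoint (by simpa using hp), h3, Finset.card_singleton]

theorem Ctx.odd_orb (C : Ctx G d) {J : Finset α} (hJ : J.card = 4) {V : Subgroup (Perm α)}
    (hV : V ≤ fixS G J) (x : α) : (orbF V x).card % 2 = 1 := by
  have h1 : Odd (Nat.card V) := by
    apply Odd.of_dvd_nat (n := d) C.hd
    rw [← C.hH J hJ]
    exact Subgroup.card_dvd_of_le hV
  have h2 := orb_card V x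
  have h3 : Odd (orbF V x).card := Odd.of_dvd_nat h1 ⟨_, h2.symm⟩
  exact Nat.odd_iff.1 h3

section B

variable (C : Ctx G d) (hg : ∀ u, IsI G u → (Fx u).card = 3)
  (hB : ¬ ∃ t s, Cp G t s ∧ Fx t = Fx s)
include hg hB

omit hB in
/-- commuting involutions have a common fixed point -/
theorem cp_w {t s : Perm α} (h : Cp G t s) : ∃ w, t w = w ∧ s w = w := by
  obtain ⟨w, hw, hsw⟩ := exists_fixed_of_odd h.2.1.2.1 (Fx t) (by
    intro y hy
    exact Fx_inv h.2.2.2.symm hy) (by rw [hg t h.1])
  exact ⟨w, mem_Fx.1 hw, hsw⟩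

/-- and only one -/
theorem cp_inter {t s : Perm α} (h : Cp G t s) {w y : α} (htw : t w = w) (hsw : s w = w)
    (hty : t y = y) (hsy : s y = y) : y = w := by
  by_contra hne
  have h3 := hg t h.1
  have hsub : ({y, w} : Finset α) ⊆ Fx t := by
    intro z hz
    simp only [Finset.mem_insert, Finset.mem_singleton] at hz
    rcases hz with rfl | rfl
    · exact mem_Fx.2 hty
    · exact mem_Fx.2 htw
  obtain ⟨v, hv, hv'⟩ := Finset.exists_mem_notMem_of_card_lt_card (s := ({y, w} : Finset α))
    (t := Fx t) (by rw [Finset.card_pair hne, h3]; omega)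
  simp only [Finset.mem_insert, Finset.mem_singleton, not_or] at hv'
  have hF : Fx t = {y, w, v} := by
    symm
    apply Finset.eq_of_subset_of_card_le
    · intro z hz
      simp only [Finset.mem_insert, Finset.mem_singleton] at hz
      rcases hz with rfl | rfl | rfl
      · exact mem_Fx.2 hty
      · exact mem_Fx.2 htw
      · exact hv
    · rw [h3, Finset.card_eq_three.2 ⟨y, w, v, hne, Ne.symm hv'.1, Ne.symm hv'.2, rfl⟩]
  have hsv : s v = v := by
    have h1 : s v ∈ Fx t := Fx_inv h.2.2.2.symm hv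
    rw [hF] at h1
    simp only [Finset.mem_insert, Finset.mem_singleton] at h1
    rcases h1 with h1 | h1 | h1
    · exact absurd (s.injective (h1.trans hsy.symm)) hv'.1
    · exact absurd (s.injective (h1.trans hsw.symm)) hv'.2
    · exact h1
  apply hB
  refine ⟨t, s, h, ?_⟩
  apply Finset.eq_of_subset_of_card_le
  · intro z hz
    rw [hF] at hz
    simp only [Finset.mem_insert, Finset.mem_singleton] at hz
    rcases hz with rfl | rfl | rfl
    · exact mem_Fx.2 hsy
    · exact mem_Fx.2 hsw
    · exact mem_Fx.2 hsv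
  · rw [h3, hg s h.2.1]

omit hB in
/-- the fixed points of `s` -/
theorem Fx_eq_of {t s : Perm α} (h : Cp G t s) {w p : α} (htw : t w = w) (hsw : s w = w) (hsp : s p = p)
    (htp : t p ≠ p) : Fx s = {w, p, t p} := by
  symm
  have hc : ∀ y, s (t y) = t (s y) := comm_apply h.2.2.2.symm
  apply Finset.eq_of_subset_of_card_le
  · intro z hz
    simp only [Finset.mem_insert, Finset.mem_singleton] at hz
    rcases hz with rfl | rfl | rfl
    · exact mem_Fx.2 hsw
    · exact mem_Fx.2 hsp
    · exact mem_Fx.2 (by rw [hc, hsp])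
  · rw [hg s h.2.1]
    have e1 : w ≠ p := fun he => htp (by rw [← he]; exact htw)
    have e2 : w ≠ t p := fun he => e1 (by
      have := congrArg t he
      rwa [htw, sq_apply h.1.2.1] at this)
    rw [Finset.card_eq_three.2 ⟨w, p, t p, e1, e2, Ne.symm htp, rfl⟩]

/-- data of a commuting pair -/
theorem cp_data {t s : Perm α} (h : Cp G t s) : ∃ w x p p' : α, t w = w ∧ s w = w ∧ t x = x ∧ s x ≠ x ∧
    s p = p ∧ t p ≠ p ∧ (t * s) p' = p' ∧ t p' ≠ p' := by
  obtain ⟨w, htw, hsw⟩ := cp_w hg h
  have hexists : ∀ u : Perm α, IsI G u → ∃ x, u x = x ∧ x ≠ w := by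
    intro u hu
    obtain ⟨x, hx, hx'⟩ := Finset.exists_mem_notMem_of_card_lt_card (s := ({w} : Finset α))
      (t := Fx u) (by rw [Finset.card_singleton, hg u hu]; omega)
    exact ⟨x, mem_Fx.1 hx, by simpa using hx'⟩
  obtain ⟨x, hx, hxw⟩ := hexists t h.1
  obtain ⟨p, hp, hpw⟩ := hexists s h.2.1
  obtain ⟨p', hp', hpw'⟩ := hexists _ h.mul
  refine ⟨w, x, p, p', htw, hsw, hx, ?_, hp, ?_, hp', ?_⟩
  · intro he
    exact hxw (cp_inter hg hB h htw hsw hx he)
  · intro he
    exact hpw (cp_inter hg hB h htw hsw he hp)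
  · intro he
    apply hpw'
    refine cp_inter hg hB h.left_mul htw ?_ he hp'
    rw [Perm.mul_apply, hsw, htw]

/-- The number of points is at least `11`; the fixed point sets and their union. -/
theorem seven {t s : Perm α} (h : Cp G t s) {w x p p' : α} (htw : t w = w) (hsw : s w = w)
    (htx : t x = x) (hsx : s x ≠ x) (hsp : s p = p) (htp : t p ≠ p) (hmp : (t * s) p' = p')
    (htp' : t p' ≠ p') :
    Fx t ∪ Fx s ∪ Fx (t * s) = {w, x, s x, p, t p, p', t p'} ∧
      ({w, x, s x, p, t p, p', t p'} : Finset α).card = 7 := by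
  have hts := h.2.2.2
  have hc : ∀ y, t (s y) = s (t y) := comm_apply hts
  have htt := sq_apply h.1.2.1
  have hss := sq_apply h.2.1.2.1
  have hF1 : Fx t = {w, x, s x} := Fx_eq_of hg h.symm hsw htw htx hsx
  have hF2 : Fx s = {w, p, t p} := Fx_eq_of hg h htw hsw hsp htp
  have hmw : (t * s) w = w := by rw [Perm.mul_apply, hsw, htw]
  have hF3 : Fx (t * s) = {w, p', t p'} := Fx_eq_of hg h.left_mul htw hmw hmp htp'
  have hsp' : s p' = t p' := by
    have := congrArg t hmp
    rw [Perm.mul_apply, htt] at this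
    exact this
  have hsp'' : s (t p') = p' := by rw [← hsp', hss]
  constructor
  · rw [hF1, hF2, hF3]
    ext y
    simp only [Finset.mem_union, Finset.mem_insert, Finset.mem_singleton]
    tauto
  · have e1 : w ≠ x := by
      intro he
      exact hsx (by rw [← he]; exact hsw)
    have e2 : w ≠ s x := by
      intro he
      have := congrArg s he
      rw [hsw, hss] at this
      exact e1 this
    have e3 : x ≠ s x := Ne.symm hsx
    have e4 : w ≠ p := fun he => htp (by rw [← he]; exact htw)
    have e5 : x ≠ p := fun he => htp (by rw [← he]; exact htx)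
    have e6 : s x ≠ p := fun he => htp (by rw [← he, hc, htx])
    have e7 : w ≠ t p := fun he => htp (by
      have := congrArg t he
      rw [htw, htt] at this
      rw [← this]
      exact htw)
    have e8 : x ≠ t p := fun he => htp (by
      have := congrArg t he
      rw [htx, htt] at this
      rw [← this]
      exact htx)
    have e9 : s x ≠ t p := fun he => htp (by
      have := congrArg t he
      rw [hc, htx, htt] at this
      rw [← this, hc, htx])
    have e10 : p ≠ t p := Ne.symm htp
    have hsnp : s p' ≠ p' := by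
      rw [hsp']; exact htp'
    have e11 : w ≠ p' := fun he => hsnp (by rw [← he]; exact hsw)
    have e12 : x ≠ p' := fun he => htp' (by rw [← he]; exact htx)
    have e13 : s x ≠ p' := fun he => htp' (by rw [← he, hc, htx])
    have e14 : p ≠ p' := fun he => hsnp (by rw [← he]; exact hsp)
    have e15 : t p ≠ p' := fun he => hsnp (by rw [← he, ← hc, hsp])
    have e16 : w ≠ t p' := fun he => htp' (by
      have := congrArg t he
      rw [htw, htt] at this
      rw [← this]
      exact htw)
    have e17 : x ≠ t p' := fun he => htp' (by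
      have := congrArg t he
      rw [htx, htt] at this
      rw [← this]
      exact htx)
    have e18 : s x ≠ t p' := fun he => htp' (by
      have := congrArg t he
      rw [hc, htx, htt] at this
      rw [← this, hc, htx])
    have e19 : p ≠ t p' := fun he => e14 (by
      have h5 := hsp''
      rw [← he, hsp] at h5
      exact h5)
    have e20 : t p ≠ t p' := fun he => e14 (t.injective he)
    have e21 : p' ≠ t p' := Ne.symm htp'
    rw [Finset.card_insert_of_notMem (by simp [e1, e2, e4, e7, e11, e16]),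
      Finset.card_insert_of_notMem (by simp [e3, e5, e8, e12, e17]),
      Finset.card_insert_of_notMem (by simp [e6, e9, e13, e18]),
      Finset.card_insert_of_notMem (by simp [e10, e14, e19]),
      Finset.card_insert_of_notMem (by simp [e15, e20]),
      Finset.card_insert_of_notMem (by simp [e21]), Finset.card_singleton]

end B

end Cfsg.Agent.Lib.NagaoBase
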