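import Mathlib
import Cfsg.Agent.Lib.NagaoOdd2

/-!
# Four-fold transitive groups with odd four-point stabilisers: odd degree, third part

Orbits of the centraliser `C5 G t p` on the two-cycles of `t`.
-/

set_option autoImplicit false
set_option linter.unusedSectionVars false
set_option linter.style.haveILetI false

namespace Cfsg.Agent.Lib.NagaoBase

open Equiv Finset MulAction
open Cfsg.Agent.Lib.LVBasic

variable {α : Type*} [Fintype α] [DecidableEq α] {G : Subgroup (Perm α)} {d : ℕ}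

/-- Elements of `C5` fix `p` and `t p`, and send non-fixed points of `t` to such. -/
theorem C5_facts {t g : Perm α} {p : α} (hg' : g ∈ C5 G t p) :
    g p = p ∧ g (t p) = t p ∧ g * t = t * g ∧ ∀ y, t y = y → g y = y := by
  obtain ⟨-, h2, h3, h4⟩ := mem_C5.1 hg'
  exact ⟨h3, by rw [comm_apply h4, h3], h4, h2⟩

section B

variable (C : Ctx G d) (hg : ∀ u, IsI G u → (Fx u).card = 3)
  (hB : ¬ ∃ t s, Cp G t s ∧ Fx t = Fx s)
include C hg hB

/-- `W2` is transitive on the orbits of the four-group on the regular points. -/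
theorem W2_trans {t s : Perm α} (h : Cp G t s) {p : α} (hsp : s p = p) (htp : t p ≠ p) {a a' : α}
    (hr : Reg t s a) (hr' : Reg t s a') :
    ∃ g ∈ W2 G t s p, a' = g a ∨ a' = t (g a) ∨ a' = s (g a) ∨ a' = t (s (g a)) := by
  obtain ⟨k, hk, hkt, hks, hka⟩ := C.pair_conj h h hr hr'
  have hkt' : k * t = t * k := by
    calc k * t = (k * t * k⁻¹) * k := by group
      _ = t * k := by rw [hkt]
  have hks' : k * s = s * k := by
    calc k * s = (k * s * k⁻¹) * k := by group
      _ = s * k := by rw [hks]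
  obtain ⟨w, x, p₀, p₀', htw, hsw, htx, hsx, -, -, -, -⟩ := cp_data hg hB h
  have htt := sq_apply h.1.2.1
  have hss := sq_apply h.2.1.2.1
  have hF1 : Fx t = {w, x, s x} := Fx_eq_of hg h.symm hsw htw htx hsx
  have hF2 : Fx s = {w, p, t p} := Fx_eq_of hg h htw hsw hsp htp
  have hwx : w ≠ x := fun he => hsx (by rw [← he]; exact hsw)
  have hwp : w ≠ p := fun he => htp (by rw [← he]; exact htw)
  -- general: elements commuting with both fix `w`
  have hfixw : ∀ k' : Perm α, k' * t = t * k' → k' * s = s * k' → k' w = w := by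
    intro k' h1 h2
    have e1 : t (k' w) = k' w := by rw [← comm_apply h1, htw]
    have e2 : s (k' w) = k' w := by rw [← comm_apply h2, hsw]
    exact cp_inter hg hB h htw hsw e1 e2
  have hcts : t * s = s * t := h.2.2.2
  -- first correction
  obtain ⟨k₁, hk₁, hk₁t, hk₁s, hk₁x, hk₁e⟩ : ∃ k₁ ∈ G, k₁ * t = t * k₁ ∧ k₁ * s = s * k₁ ∧ k₁ x = x ∧
      (k = k₁ ∨ k = s * k₁) := by
    have hkx : k x ∈ Fx t := Fx_inv hkt' (mem_Fx.2 htx)
    rw [hF1] at hkx
    simp only [Finset.mem_insert, Finset.mem_singleton] at hkx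
    rcases hkx with hkx | hkx | hkx
    · exact absurd (k.injective (hkx.trans (hfixw k hkt' hks').symm)) (Ne.symm hwx)
    · exact ⟨k, hk, hkt', hks', hkx, Or.inl rfl⟩
    · refine ⟨s * k, G.mul_mem h.2.1.1 hk, ?_, ?_, ?_, Or.inr ?_⟩
      · calc s * k * t = s * (k * t) := by group
          _ = s * (t * k) := by rw [hkt']
          _ = (s * t) * k := by group
          _ = (t * s) * k := by rw [hcts]
          _ = t * (s * k) := by group
      · calc s * k * s = s * (k * s) := by group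
          _ = s * (s * k) := by rw [hks']
      · rw [Perm.mul_apply, hkx, hss]
      · rw [← mul_assoc, h.2.1.2.1, one_mul]
  -- second correction
  obtain ⟨k₂, hk₂, hk₂t, hk₂s, hk₂x, hk₂p, hk₂e⟩ : ∃ k₂ ∈ G, k₂ * t = t * k₂ ∧ k₂ * s = s * k₂ ∧
      k₂ x = x ∧ k₂ p = p ∧ (k₁ = k₂ ∨ k₁ = t * k₂) := by
    have hkx : k₁ p ∈ Fx s := Fx_inv hk₁s (mem_Fx.2 hsp)
    rw [hF2] at hkx
    simp only [Finset.mem_insert, Finset.mem_singleton] at hkx
    rcases hkx with hkx | hkx | hkx
    · exact absurd (k₁.injective (hkx.trans (hfixw k₁ hk₁t hk₁s).symm)) (Ne.symm hwp)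
    · exact ⟨k₁, hk₁, hk₁t, hk₁s, hk₁x, hkx, Or.inl rfl⟩
    · refine ⟨t * k₁, G.mul_mem h.1.1 hk₁, ?_, ?_, ?_, ?_, Or.inr ?_⟩
      · calc t * k₁ * t = t * (k₁ * t) := by group
          _ = t * (t * k₁) := by rw [hk₁t]
      · calc t * k₁ * s = t * (k₁ * s) := by group
          _ = t * (s * k₁) := by rw [hk₁s]
          _ = (t * s) * k₁ := by group
          _ = (s * t) * k₁ := by rw [hcts]
          _ = s * (t * k₁) := by group
      · rw [Perm.mul_apply, hk₁x, htx]
      · rw [Perm.mul_apply, hkx, htt]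
      · rw [← mul_assoc, h.1.2.1, one_mul]
  have hk₂w := hfixw k₂ hk₂t hk₂s
  have hmem : k₂ ∈ W2 G t s p := by
    rw [mem_W2, mem_C5]
    refine ⟨⟨hk₂, fun y hy => ?_, hk₂p, hk₂t⟩, hk₂s⟩
    have : y ∈ Fx t := mem_Fx.2 hy
    rw [hF1] at this
    simp only [Finset.mem_insert, Finset.mem_singleton] at this
    rcases this with rfl | rfl | rfl
    · exact hk₂w
    · exact hk₂x
    · rw [comm_apply hk₂s, hk₂x]
  refine ⟨k₂, hmem, ?_⟩
  rw [← hka]
  rcases hk₁e with rfl | rfl <;> rcases hk₂e with rfl | rfl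
  · exact Or.inl rfl
  · exact Or.inr (Or.inl rfl)
  · exact Or.inr (Or.inr (Or.inl rfl))
  · refine Or.inr (Or.inr (Or.inr ?_))
    simp only [Perm.mul_apply]
    rw [comm_apply hcts.symm]

/-- The orbits of `C5 G t p`: they are at most two, exchanged by `t`, as soon as `C5 G t p` is
nontrivial on the fixed points of a suitable `s`. -/
theorem orbit_cover {t s : Perm α} (h : Cp G t s) {p c₀ : α} (hsp : s p = p) (htp : t p ≠ p)
    (hmc : (t * s) c₀ = c₀) (htc₀ : t c₀ ≠ c₀) {g₀ : Perm α} (hg₀ : g₀ ∈ C5 G t p)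
    (hg₀c : g₀ c₀ ≠ c₀) :
    ∀ c, t c ≠ c → c ≠ p → c ≠ t p → c ∈ orbF (C5 G t p) c₀ ∨ t c ∈ orbF (C5 G t p) c₀ := by
  have h3 := hg t h.1
  have hJ := card_J h3 htp
  have htt := sq_apply h.1.2.1
  have hss := sq_apply h.2.1.2.1
  have hcts : t * s = s * t := h.2.2.2
  obtain ⟨w, htw, hsw⟩ := cp_w hg h
  have hmw : (t * s) w = w := by rw [Perm.mul_apply, hsw, htw]
  have hF2 : Fx s = {w, p, t p} := Fx_eq_of hg h htw hsw hsp htp
  have hF3 : Fx (t * s) = {w, c₀, t c₀} := Fx_eq_of hg h.left_mul htw hmw hmc htc₀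
  set O := orbF (C5 G t p) c₀ with hO
  have hc₀O : c₀ ∈ O := self_mem_orbF _ _
  have hOinv : ∀ g ∈ C5 G t p, ∀ y ∈ O, g y ∈ O := by
    intro g hg' y hy
    obtain ⟨g', hg'', rfl⟩ := mem_orbF.1 hy
    exact mem_orbF.2 ⟨g * g', Subgroup.mul_mem _ hg' hg'', rfl⟩
  have hoddC5 : ∀ g ∈ C5 G t p, Odd (orderOf g) := fun g hg' => C.odd_order hJ (C5_le t p hg')
  -- no element of `C5` moves `y` to `t y` unless `t y = y`
  have hswap : ∀ g ∈ C5 G t p, ∀ y, g y = t y → t y = y := by
    intro g hg' y hy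
    obtain ⟨-, -, hcomm, -⟩ := C5_facts hg'
    have : g (t y) = y := by rw [comm_apply hcomm, hy, htt]
    exact (Ctx.eq_of_swap_odd (hoddC5 g hg') hy this).symm
  have hnO : t c₀ ∉ O := by
    intro hh
    obtain ⟨g, hg', hgc⟩ := mem_orbF.1 hh
    exact htc₀ (hswap g hg' c₀ hgc)
  have hdisj : ∀ y ∈ O, t y ∉ O := by
    intro y hy hty
    obtain ⟨g₁, hg₁, rfl⟩ := mem_orbF.1 hy
    obtain ⟨g₂, hg₂, hgt⟩ := mem_orbF.1 hty
    apply hnO
    refine mem_orbF.2 ⟨g₁⁻¹ * g₂, Subgroup.mul_mem _ (Subgroup.inv_mem _ hg₁) hg₂, ?_⟩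
    rw [Perm.mul_apply, hgt, ← comm_apply (C5_facts hg₁).2.2.1]
    simp
  have hc₀p : c₀ ≠ p := by
    rintro rfl
    apply htp
    have := hmc
    rw [Perm.mul_apply, hsp] at this
    exact this
  have hc₀tp : c₀ ≠ t p := by
    rintro rfl
    apply htp
    have := hmc
    rw [Perm.mul_apply, ← comm_apply hcts.symm, htt, hsp] at this
    exact this.symm
  have hOprop : ∀ y ∈ O, t y ≠ y ∧ y ≠ p ∧ y ≠ t p := by
    intro y hy
    obtain ⟨g, hg', rfl⟩ := mem_orbF.1 hy
    obtain ⟨f1, f2, f3, f4⟩ := C5_facts hg'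
    refine ⟨?_, ?_, ?_⟩
    · intro he
      have h5 := f4 _ he
      have h6 := g.injective h5
      rw [h6] at he
      exact htc₀ he
    · intro he
      exact hc₀p (g.injective (he.trans f1.symm))
    · intro he
      exact hc₀tp (g.injective (he.trans f2.symm))
  have hreg : ∀ c, t c ≠ c → c ≠ p → c ≠ t p → c ≠ c₀ → c ≠ t c₀ → Reg t s c := by
    intro c h1 h2 h3' h4 h5
    refine ⟨h1, ?_, ?_⟩
    · intro he
      have : c ∈ Fx s := mem_Fx.2 he
      rw [hF2] at this
      simp only [Finset.mem_insert, Finset.mem_singleton] at this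
      rcases this with rfl | rfl | rfl
      · exact h1 htw
      · exact h2 rfl
      · exact h3' rfl
    · intro he
      have : c ∈ Fx (t * s) := mem_Fx.2 he
      rw [hF3] at this
      simp only [Finset.mem_insert, Finset.mem_singleton] at this
      rcases this with rfl | rfl | rfl
      · exact h1 htw
      · exact h4 rfl
      · exact h5 rfl
  set a₁ := g₀ c₀ with ha₁
  have ha₁O : a₁ ∈ O := mem_orbF.2 ⟨g₀, hg₀, rfl⟩
  have hOreg : ∀ y ∈ O, y ≠ c₀ → Reg t s y := by
    intro y hy hyc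
    obtain ⟨q1, q2, q3⟩ := hOprop y hy
    refine hreg y q1 q2 q3 hyc ?_
    rintro rfl
    exact hnO hy
  have hra₁ : Reg t s a₁ := hOreg a₁ ha₁O hg₀c
  -- `c₀` is fixed by `W2`
  have hWc₀ : ∀ g ∈ W2 G t s p, g c₀ = c₀ := by
    intro g hg'
    obtain ⟨hg1, hg2⟩ := mem_W2.1 hg'
    obtain ⟨f1, f2, f3, f4⟩ := C5_facts hg1
    have hcm : g * (t * s) = (t * s) * g := by
      calc g * (t * s) = (g * t) * s := by group
        _ = (t * g) * s := by rw [f3]
        _ = t * (g * s) := by group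
        _ = t * (s * g) := by rw [hg2]
        _ = (t * s) * g := by group
    have hm : g c₀ ∈ Fx (t * s) := Fx_inv hcm (mem_Fx.2 hmc)
    rw [hF3] at hm
    simp only [Finset.mem_insert, Finset.mem_singleton] at hm
    rcases hm with hm | hm | hm
    · exfalso
      have hw' := f4 w htw
      have := g.injective (hm.trans hw'.symm)
      rw [this] at htc₀
      exact htc₀ htw
    · exact hm
    · exact absurd (hswap g hg1 c₀ hm) htc₀
  have hW5 : W2 G t s p ≤ fixS G (Fx t ∪ {p}) := (W2_le t s p).trans (C5_le t p)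
  -- the parity argument
  have hpar : s a₁ ∈ O ∨ t (s a₁) ∈ O := by
    by_contra hne
    push Not at hne
    obtain ⟨hn1, hn2⟩ := hne
    have hOeq : O = insert c₀ (orbF (W2 G t s p) a₁) := by
      ext y
      rw [Finset.mem_insert]
      constructor
      · intro hy
        by_cases hyc : y = c₀
        · exact Or.inl hyc
        right
        obtain ⟨g, hgW, hcases⟩ := W2_trans C hg hB h hsp htp hra₁ (hOreg y hy hyc)
        obtain ⟨hg1, hg2⟩ := mem_W2.1 hgW
        obtain ⟨f1, f2, f3, f4⟩ := C5_facts hg1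
        rcases hcases with he | he | he | he
        · exact mem_orbF.2 ⟨g, hgW, he.symm⟩
        · exact absurd (by rw [← he]; exact hy) (hdisj _ (hOinv g hg1 a₁ ha₁O))
        · exfalso
          apply hn1
          have h5 : s (g a₁) = g (s a₁) := (comm_apply hg2 a₁).symm
          rw [h5] at he
          have h6 := hOinv g⁻¹ (Subgroup.inv_mem _ hg1) y hy
          rw [he] at h6
          simpa using h6
        · exfalso
          apply hn2
          have h5 : t (s (g a₁)) = g (t (s a₁)) := by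
            rw [comm_apply f3, comm_apply hg2]
          rw [h5] at he
          have h6 := hOinv g⁻¹ (Subgroup.inv_mem _ hg1) y hy
          rw [he] at h6
          simpa using h6
      · rintro (rfl | hy)
        · exact hc₀O
        · obtain ⟨g, hgW, rfl⟩ := mem_orbF.1 hy
          exact hOinv g ((W2_le t s p) hgW) a₁ ha₁O
    have hnot : c₀ ∉ orbF (W2 G t s p) a₁ := by
      intro hh
      obtain ⟨g, hgW, hge⟩ := mem_orbF.1 hh
      have h1 := hWc₀ g hgW
      have h2 : g a₁ = g c₀ := hge.trans h1.symm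
      exact hg₀c (g.injective h2)
    have hc1 := C.odd_orb hJ (C5_le t p) c₀
    have hc2 := C.odd_orb hJ hW5 a₁
    rw [← hO, hOeq, Finset.card_insert_of_notMem hnot] at hc1
    omega
  -- conclusion
  intro c h1 h2 h3'
  by_cases h4 : c = c₀
  · left; rw [h4]; exact hc₀O
  by_cases h5 : c = t c₀
  · right; rw [h5, htt]; exact hc₀O
  obtain ⟨g, hgW, hcases⟩ := W2_trans C hg hB h hsp htp hra₁ (hreg c h1 h2 h3' h4 h5)
  obtain ⟨hg1, hg2⟩ := mem_W2.1 hgW
  obtain ⟨f1, f2, f3, f4⟩ := C5_facts hg1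
  rcases hcases with he | he | he | he
  · left
    rw [he]
    exact hOinv g hg1 a₁ ha₁O
  · right
    rw [he, htt]
    exact hOinv g hg1 a₁ ha₁O
  · have h7 : s (g a₁) = g (s a₁) := (comm_apply hg2 a₁).symm
    rw [h7] at he
    rcases hpar with hp' | hp'
    · left
      rw [he]
      exact hOinv g hg1 _ hp'
    · right
      rw [he, ← comm_apply f3]
      exact hOinv g hg1 _ hp'
  · have h7 : s (g a₁) = g (s a₁) := (comm_apply hg2 a₁).symm
    rw [h7, ← comm_apply f3] at he
    rcases hpar with hp' | hp'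
    · right
      rw [he, comm_apply f3, htt]
      exact hOinv g hg1 _ hp'
    · left
      rw [he]
      exact hOinv g hg1 _ hp'

omit hB in
/-- The four-point stabiliser fixes `t p` unless it is transitive on the remaining points. -/
theorem fix_or_trans {t : Perm α} (ht : IsI G t) {p c₀ : α} (htp : t p ≠ p)
    (hc₀p : c₀ ≠ p) (hc₀tp : c₀ ≠ t p)
    (hcov : ∀ c, t c ≠ c → c ≠ p → c ≠ t p → c ∈ orbF (C5 G t p) c₀ ∨ t c ∈ orbF (C5 G t p) c₀) :
    (∀ h ∈ fixS G (Fx t ∪ {p}), h (t p) = t p) ∨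
      (∀ a b, a ∉ Fx t ∪ {p} → b ∉ Fx t ∪ {p} → ∃ h ∈ fixS G (Fx t ∪ {p}), h a = b) := by
  have h3 := hg t ht
  have hJ := card_J h3 htp
  have htt := sq_apply ht.2.1
  set H := fixS G (Fx t ∪ {p}) with hH
  set O := orbF (C5 G t p) c₀ with hO
  have hle : C5 G t p ≤ H := C5_le t p
  set Q := orbF H (t p) with hQ
  have htpQ : t p ∈ Q := self_mem_orbF _ _
  have hHfacts : ∀ h ∈ H, h p = p ∧ (∀ y, t y = y → h y = h y ∧ h y = y) := by
    intro h hh
    refine ⟨hh.2 p (by simp), fun y hy => ⟨rfl, hh.2 y (by simp [hy])⟩⟩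
  have hOp : ∀ y ∈ O, y ≠ p ∧ y ≠ t p := by
    intro y hy
    obtain ⟨g, hg', rfl⟩ := mem_orbF.1 hy
    obtain ⟨f1, f2, -, -⟩ := C5_facts hg'
    exact ⟨fun he => hc₀p (g.injective (he.trans f1.symm)),
      fun he => hc₀tp (g.injective (he.trans f2.symm))⟩
  have hQsub : ∀ y ∈ Q, y ≠ t p → y ∈ O ∨ t y ∈ O := by
    intro y hy hyt
    obtain ⟨h, hh, rfl⟩ := mem_orbF.1 hy
    have hp' := hh.2 p (by simp)
    apply hcov
    · intro he
      have h5 : h (t p) = t p := by
        have : h (h (t p)) = h (t p) := hh.2 _ (by simp [he])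
        exact h.injective this
      exact hyt h5
    · intro he
      have : t p = p := h.injective (he.trans hp'.symm)
      exact htp this
    · exact hyt
  -- `O`, resp. `t O`, is contained in `Q` as soon as it meets it
  have hAQ : ∀ y ∈ O, y ∈ Q → ∀ z ∈ O, z ∈ Q := by
    intro y hy hyQ z hz
    obtain ⟨g, hg', rfl⟩ := mem_orbF.1 hy
    obtain ⟨g', hg'', rfl⟩ := mem_orbF.1 hz
    obtain ⟨h, hh, he⟩ := mem_orbF.1 hyQ
    refine mem_orbF.2 ⟨g' * g⁻¹ * h, H.mul_mem (H.mul_mem (hle hg'') (H.inv_mem (hle hg'))) hh, ?_⟩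
    simp only [Perm.mul_apply, he]
    simp
  have hBQ : ∀ y ∈ O, t y ∈ Q → ∀ z ∈ O, t z ∈ Q := by
    intro y hy hyQ z hz
    obtain ⟨g, hg', rfl⟩ := mem_orbF.1 hy
    obtain ⟨g', hg'', rfl⟩ := mem_orbF.1 hz
    obtain ⟨h, hh, he⟩ := mem_orbF.1 hyQ
    refine mem_orbF.2 ⟨g' * g⁻¹ * h, H.mul_mem (H.mul_mem (hle hg'') (H.inv_mem (hle hg'))) hh, ?_⟩
    simp only [Perm.mul_apply, he]
    rw [← comm_apply (C5_facts hg').2.2.1, ← comm_apply (C5_facts hg'').2.2.1]
    simp
  have hcO := C.odd_orb hJ (C5_le t p) c₀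
  have hcQ := C.odd_orb hJ (le_refl H) (t p)
  by_cases h1 : ∃ y ∈ O, y ∈ Q
  · obtain ⟨y₁, hy₁, hy₁Q⟩ := h1
    by_cases h2 : ∃ y ∈ O, t y ∈ Q
    · -- transitive
      obtain ⟨y₂, hy₂, hy₂Q⟩ := h2
      right
      have hall : ∀ a, a ∉ Fx t ∪ {p} → a ∈ Q := by
        intro a ha
        simp only [Finset.mem_union, mem_Fx, Finset.mem_singleton, not_or] at ha
        by_cases hat : a = t p
        · rw [hat]; exact htpQ
        rcases hcov a ha.1 ha.2 hat with h5 | h5
        · exact hAQ y₁ hy₁ hy₁Q a h5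
        · have := hBQ y₂ hy₂ hy₂Q _ h5
          rwa [htt] at this
      intro a b ha hb
      obtain ⟨h₁, hh₁, rfl⟩ := mem_orbF.1 (hall a ha)
      obtain ⟨h₂, hh₂, rfl⟩ := mem_orbF.1 (hall b hb)
      refine ⟨h₂ * h₁⁻¹, H.mul_mem hh₂ (H.inv_mem hh₁), ?_⟩
      simp [Perm.mul_apply]
    · -- `Q = {t p} ∪ O`
      exfalso
      push Not at h2
      have hQeq : Q = insert (t p) O := by
        ext y
        rw [Finset.mem_insert]
        constructor
        · intro hy
          by_cases hyt : y = t p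
          · exact Or.inl hyt
          right
          rcases hQsub y hy hyt with h5 | h5
          · exact h5
          · have := h2 _ h5
            rw [htt] at this
            exact absurd hy this
        · rintro (rfl | hy)
          · exact htpQ
          · exact hAQ y₁ hy₁ hy₁Q y hy
      have hnot : t p ∉ O := fun hh => (hOp _ hh).2 rfl
      rw [← hQ, hQeq, Finset.card_insert_of_notMem hnot] at hcQ
      rw [← hO] at hcO
      omega
  · push Not at h1
    by_cases h2 : ∃ y ∈ O, t y ∈ Q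
    · exfalso
      obtain ⟨y₂, hy₂, hy₂Q⟩ := h2
      have hQeq : Q = insert (t p) (O.image t) := by
        ext y
        rw [Finset.mem_insert, Finset.mem_image]
        constructor
        · intro hy
          by_cases hyt : y = t p
          · exact Or.inl hyt
          right
          rcases hQsub y hy hyt with h5 | h5
          · exact absurd hy (h1 _ h5)
          · exact ⟨_, h5, htt y⟩
        · rintro (rfl | ⟨z, hz, rfl⟩)
          · exact htpQ
          · exact hBQ y₂ hy₂ hy₂Q z hz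
      have hnot : t p ∉ O.image t := by
        intro hh
        obtain ⟨z, hz, he⟩ := Finset.mem_image.1 hh
        exact (hOp z hz).1 (t.injective he)
      rw [← hQ, hQeq, Finset.card_insert_of_notMem hnot,
        Finset.card_image_of_injective _ t.injective] at hcQ
      rw [← hO] at hcO
      omega
    · left
      push Not at h2
      intro h hh
      by_contra hne
      have hy : h (t p) ∈ Q := mem_orbF.2 ⟨h, hh, rfl⟩
      rcases hQsub _ hy hne with h5 | h5
      · exact h1 _ h5 hy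
      · have := h2 _ h5
        rw [htt] at this
        exact this hy

end B

end Cfsg.Agent.Lib.NagaoBase
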