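import Mathlib
import Cfsg.Agent.Lib.NagaoOdd3

/-!
# Four-fold transitive groups with odd four-point stabilisers: odd degree, conclusion
-/

set_option autoImplicit false
set_option linter.unusedSectionVars false
set_option linter.style.haveILetI false

namespace Cfsg.Agent.Lib.NagaoBase

open Equiv Finset MulAction
open Cfsg.Agent.Lib.LVBasic

variable {α : Type*} [Fintype α] [DecidableEq α] {G : Subgroup (Perm α)} {d : ℕ}

theorem C5_conj {t g k : Perm α} {p : α} (hgG : g ∈ G) (hk : k ∈ C5 G t p) :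
    g * k * g⁻¹ ∈ C5 G (g * t * g⁻¹) (g p) := by
  obtain ⟨h1, h2, h3, h4⟩ := mem_C5.1 hk
  rw [mem_C5]
  refine ⟨G.mul_mem (G.mul_mem hgG h1) (G.inv_mem hgG), fun y hy => ?_, ?_, ?_⟩
  · have hy' : y ∈ Fx (g * t * g⁻¹) := mem_Fx.2 hy
    rw [Fx_conj] at hy'
    obtain ⟨z, hz, rfl⟩ := Finset.mem_image.1 hy'
    simp [Perm.mul_apply, h2 z (mem_Fx.1 hz)]
  · simp [Perm.mul_apply, h3]
  · calc g * k * g⁻¹ * (g * t * g⁻¹) = g * (k * t) * g⁻¹ := by group
      _ = g * (t * k) * g⁻¹ := by rw [h4]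
      _ = g * t * g⁻¹ * (g * k * g⁻¹) := by group

namespace Ctx

variable (C : Ctx G d)
include C

theorem exists_moved {t : Perm α} (ht : IsI G t) (hn : 6 ≤ Fintype.card α) :
    ∃ a c : α, t a ≠ a ∧ t c ≠ c ∧ c ≠ a ∧ c ≠ t a := by
  have hle := C.card_Fx_le ht
  obtain ⟨a, ha⟩ : ∃ a, a ∉ Fx t := exists_notMem (by omega)
  obtain ⟨c, hc⟩ : ∃ c, c ∉ Fx t ∪ {a, t a} := exists_notMem (by
    have h3 := Finset.card_union_le (Fx t) {a, t a}
    have h4 : ({a, t a} : Finset α).card ≤ 2 := Finset.card_le_two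
    omega)
  simp only [Finset.mem_union, mem_Fx, Finset.mem_insert, Finset.mem_singleton, not_or] at hc
  exact ⟨a, c, by simpa using ha, hc.1, hc.2.1, hc.2.2⟩

/-- A commuting pair with a regular point. -/
theorem exists_cp {t : Perm α} (ht : IsI G t) {a c : α} (ha : t a ≠ a) (hc : t c ≠ c) (hca : c ≠ a)
    (hct : c ≠ t a) : ∃ s, Cp G t s ∧ Reg t s a ∧ s a = c ∧ s c = a := by
  obtain ⟨s, hs, hss, hst, hsa, hsc⟩ := C.pat1 ht.1 ht.2.1 ha hc hca hct
  have hs1 : s ≠ 1 := fun he => hca (by rw [he] at hsa; simpa using hsa.symm)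
  have hts : t ≠ s := fun he => hct (by rw [← hsa, he])
  refine ⟨s, ⟨ht, ⟨hs, hss, hs1⟩, hts, hst.symm⟩, ⟨ha, by rw [hsa]; exact hca, ?_⟩, hsa, hsc⟩
  rw [Perm.mul_apply, hsa]
  intro he
  apply hct
  rw [← he, sq_apply ht.2.1]

/-- `s` can also be chosen with `s p = p`, `s c = t c`. -/
theorem exists_cp' {t : Perm α} (ht : IsI G t) {p c : α} (ha : t p ≠ p) (hc : t c ≠ c) (hca : c ≠ p)
    (hct : c ≠ t p) : ∃ s, Cp G t s ∧ s p = p ∧ (t * s) c = c := by
  obtain ⟨s, hs, hss, hst, hsp, -, hsc, -⟩ := C.pat2 ht.1 ht.2.1 ha hc hca hct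
  have hs1 : s ≠ 1 := fun he => hc (by rw [he] at hsc; simpa using hsc.symm)
  have hts : t ≠ s := fun he => ha (by rw [he]; exact hsp)
  refine ⟨s, ⟨ht, ⟨hs, hss, hs1⟩, hts, hst.symm⟩, hsp, ?_⟩
  rw [Perm.mul_apply, hsc, sq_apply ht.2.1]

end Ctx

section B

variable (C : Ctx G d) (hn : 7 ≤ Fintype.card α) (hodd : Fintype.card α % 2 = 1)
  (hB : ¬ ∃ t s, Cp G t s ∧ Fx t = Fx s)
include C hn hodd hB

/-- The degree is at least `11`. -/
theorem card_ge_eleven : 11 ≤ Fintype.card α := by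
  have hg : ∀ u, IsI G u → (Fx u).card = 3 := fun u hu => C.card_Fx_odd hn hodd hu
  obtain ⟨a₀, b₀, x₀, y₀, h1, h2, h3, h4, h5, h6⟩ := exists_four (α := α) (by omega)
  obtain ⟨t, ht, htt, hta, -, -, -⟩ := C.pat0 h1 h2 h3 h4 h5 h6
  have htI : IsI G t := ⟨ht, htt, fun he => h1 (by rw [he] at hta; simpa using hta)⟩
  obtain ⟨a, c, ha, hc, hca, hct⟩ := C.exists_moved htI (by omega)
  obtain ⟨s, hs, hr, hsa, hsc⟩ := C.exists_cp htI ha hc hca hct
  obtain ⟨w, x, p, p', h7, h8, h9, h10, h11, h12, h13, h14⟩ := cp_data hg hB hs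
  obtain ⟨hF, hF7⟩ := seven hg hB hs h7 h8 h9 h10 h11 h12 h13 h14
  obtain ⟨e1, e2, e3, e4, e5, e6⟩ := Ctx.four_of_cycle htt ha hc hca hct
  have hcomm := comm_apply hs.2.2.2
  have hss := sq_apply hs.2.1.2.1
  have hdis : Disjoint ({w, x, s x, p, t p, p', t p'} : Finset α) {a, t a, c, t c} := by
    rw [← hF, Finset.disjoint_left]
    intro y hy hy'
    simp only [Finset.mem_union, mem_Fx] at hy
    simp only [Finset.mem_insert, Finset.mem_singleton] at hy'
    rcases hy' with rfl | rfl | rfl | rfl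
    · rcases hy with (hy | hy) | hy
      · exact ha hy
      · rw [hsa] at hy; exact hca hy
      · rw [Perm.mul_apply, hsa] at hy
        exact e3 hy.symm
    · rcases hy with (hy | hy) | hy
      · rw [sq_apply htt] at hy; exact ha hy.symm
      · rw [← hcomm, hsa] at hy
        exact e5 hy.symm
      · rw [Perm.mul_apply, ← hcomm, sq_apply htt, hsa] at hy
        exact e4.symm hy
    · rcases hy with (hy | hy) | hy
      · exact hc hy
      · rw [hsc] at hy; exact e2 hy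
      · rw [Perm.mul_apply, hsc] at hy
        exact e4 hy
    · rcases hy with (hy | hy) | hy
      · rw [sq_apply htt] at hy; exact hc hy.symm
      · rw [← hcomm, hsc] at hy
        exact e5 hy
      · rw [Perm.mul_apply, ← hcomm, sq_apply htt, hsc] at hy
        exact e3 hy
  have hD := Ctx.card4 e1 e2 e3 e4 e5 e6
  have hcard := Finset.card_le_univ (({w, x, s x, p, t p, p', t p'} : Finset α) ∪ {a, t a, c, t c})
  rw [Finset.card_union_of_disjoint hdis, hF7, hD] at hcard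
  omega

/-- If some `C5` is nontrivial we get a contradiction. -/
theorem false_of_P (hP : ∃ t p, IsI G t ∧ t p ≠ p ∧ C5 G t p ≠ ⊥) : False := by
  have hg : ∀ u, IsI G u → (Fx u).card = 3 := fun u hu => C.card_Fx_odd hn hodd hu
  have h11 := card_ge_eleven C hn hodd hB
  -- nontriviality spreads
  have hall : ∀ t p, IsI G t → t p ≠ p → ∃ k ∈ C5 G t p, k ≠ 1 := by
    obtain ⟨t₁, p₁, ht₁, hp₁, hne⟩ := hP
    obtain ⟨k, hk, hk1⟩ := (Subgroup.ne_bot_iff_exists_ne_one.1 hne : ∃ a : C5 G t₁ p₁, a ≠ 1) |>.imp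
      (fun a ha => And.intro a.2 (fun h => ha (Subtype.ext h))) |> fun ⟨a, h1, h2⟩ => (⟨(a : Perm α), h1, h2⟩ : ∃ k ∈ C5 G t₁ p₁, k ≠ 1)
    intro t p ht hp
    obtain ⟨c₁, hc₁⟩ : ∃ c₁, c₁ ∉ Fx t₁ ∪ {p₁, t₁ p₁} := exists_notMem (by
      have h3 := Finset.card_union_le (Fx t₁) {p₁, t₁ p₁}
      have h4 : ({p₁, t₁ p₁} : Finset α).card ≤ 2 := Finset.card_le_two
      rw [hg t₁ ht₁] at h3
      omega)
    obtain ⟨c, hc⟩ : ∃ c, c ∉ Fx t ∪ {p, t p} := exists_notMem (by
      have h3 := Finset.card_union_le (Fx t) {p, t p}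
      have h4 : ({p, t p} : Finset α).card ≤ 2 := Finset.card_le_two
      rw [hg t ht] at h3
      omega)
    simp only [Finset.mem_union, mem_Fx, Finset.mem_insert, Finset.mem_singleton, not_or] at hc₁ hc
    obtain ⟨g, hgG, hgt, hgp⟩ := C.conj_point ht₁ ht hp₁ hc₁.1 hc₁.2.1 hc₁.2.2 hp hc.1 hc.2.1 hc.2.2
    have h5 := C5_conj hgG hk
    rw [hgt, hgp] at h5
    refine ⟨_, h5, fun he => hk1 ?_⟩
    have : k = g⁻¹ * (g * k * g⁻¹) * g := by group
    rw [this, he]
    group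
  -- the orbit cover
  have hcov : ∀ t p, IsI G t → t p ≠ p → ∃ c₀, t c₀ ≠ c₀ ∧ c₀ ≠ p ∧ c₀ ≠ t p ∧ (∃ k ∈ C5 G t p, k c₀ ≠ c₀) ∧
      ∀ c, t c ≠ c → c ≠ p → c ≠ t p → c ∈ orbF (C5 G t p) c₀ ∨ t c ∈ orbF (C5 G t p) c₀ := by
    intro t p ht hp
    obtain ⟨k, hk, hk1⟩ := hall t p ht hp
    obtain ⟨c₀, hc₀⟩ : ∃ c₀, k c₀ ≠ c₀ := by
      by_contra hh
      push Not at hh
      exact hk1 (Equiv.ext hh)
    obtain ⟨f1, f2, f3, f4⟩ := C5_facts hk
    have h1 : t c₀ ≠ c₀ := fun he => hc₀ (f4 _ he)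
    have h2 : c₀ ≠ p := by rintro rfl; exact hc₀ f1
    have h3 : c₀ ≠ t p := by rintro rfl; exact hc₀ f2
    obtain ⟨s, hs, hsp, hmc⟩ := C.exists_cp' ht hp h1 h2 h3
    exact ⟨c₀, h1, h2, h3, ⟨k, hk, hc₀⟩, orbit_cover C hg hB hs hsp hp hmc h1 hk hc₀⟩
  -- the four-point stabiliser fixes `t p`
  have hW : ∀ t p, IsI G t → t p ≠ p → ∀ h ∈ fixS G (Fx t ∪ {p}), h (t p) = t p := by
    intro t p ht hp
    obtain ⟨c₀, h1, h2, h3, -, h5⟩ := hcov t p ht hp
    rcases fix_or_trans C hg ht hp h2 h3 h5 with h6 | h6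
    · exact h6
    · exfalso
      exact C.five_kill (C.five_spread (card_J (hg t ht) hp) h6) (by omega) hodd
  -- no other fixed points
  have hNF : ∀ t p c, IsI G t → t p ≠ p → t c ≠ c → c ≠ p → c ≠ t p → ∃ g ∈ C5 G t p, g c ≠ c := by
    intro t p c ht hp hc hcp hct
    obtain ⟨c₀, h1, h2, h3, ⟨k, hk, hkc⟩, h5⟩ := hcov t p ht hp
    rcases h5 c hc hcp hct with h6 | h6
    · obtain ⟨g', hg', rfl⟩ := mem_orbF.1 h6
      refine ⟨g' * k * g'⁻¹, Subgroup.mul_mem _ (Subgroup.mul_mem _ hg' hk) (Subgroup.inv_mem _ hg'), ?_⟩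
      simp only [Perm.mul_apply]
      intro he
      have e : g'⁻¹ (g' c₀) = c₀ := by simp
      rw [e] at he
      exact hkc (g'.injective he)
    · obtain ⟨g', hg', he⟩ := mem_orbF.1 h6
      refine ⟨g' * k * g'⁻¹, Subgroup.mul_mem _ (Subgroup.mul_mem _ hg' hk) (Subgroup.inv_mem _ hg'), ?_⟩
      intro h7
      have hm : g' * k * g'⁻¹ ∈ C5 G t p :=
        Subgroup.mul_mem _ (Subgroup.mul_mem _ hg' hk) (Subgroup.inv_mem _ hg')
      have h8 : (g' * k * g'⁻¹) (t c) = t c := by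
        rw [comm_apply (C5_facts hm).2.2.1, h7]
      rw [← he] at h8
      simp only [Perm.mul_apply] at h8
      have e : g'⁻¹ (g' c₀) = c₀ := by simp
      rw [e] at h8
      exact hkc (g'.injective h8)
  -- uniqueness of the involution with given fixed points
  have huniq : ∀ t t', IsI G t → IsI G t' → Fx t = Fx t' → t = t' := by
    intro t t' ht ht' hF
    ext p
    by_cases hp : t p = p
    · have : p ∈ Fx t' := by rw [← hF]; exact mem_Fx.2 hp
      rw [hp, mem_Fx.1 this]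
    · have hp' : t' p ≠ p := by
        intro he
        have : p ∈ Fx t := by rw [hF]; exact mem_Fx.2 he
        exact hp (mem_Fx.1 this)
      by_contra hne
      have hc1 : t (t' p) ≠ t' p := by
        intro he
        have : t' p ∈ Fx t' := by rw [← hF]; exact mem_Fx.2 he
        have h2 := mem_Fx.1 this
        rw [sq_apply ht'.2.1] at h2
        exact hp' h2.symm
      obtain ⟨g, hg', hgc⟩ := hNF t p (t' p) ht hp hc1 hp' (Ne.symm hne)
      apply hgc
      have h3 : g ∈ fixS G (Fx t' ∪ {p}) := by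
        rw [← hF]
        exact C5_le t p hg'
      exact hW t' p ht' hp' g h3
  have hFixY : ∀ t p y, IsI G t → t p ≠ p → (∀ h ∈ fixS G (Fx t ∪ {p}), h y = y) →
      t y = y ∨ y = p ∨ y = t p := by
    intro t p y ht hp hy
    by_contra hne
    push Not at hne
    obtain ⟨g, hg', hgc⟩ := hNF t p y ht hp hne.1 hne.2.1 hne.2.2
    exact hgc (hy g (C5_le t p hg'))
  have hcent : ∀ t, IsI G t → ∀ h ∈ G, (∀ y, t y = y → h y = y) → h * t = t * h := by
    intro t ht h hh hfix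
    have h1 : h * t * h⁻¹ = t := by
      apply huniq _ _ (ht.conj hh) ht
      rw [Fx_conj]
      ext y
      simp only [Finset.mem_image, mem_Fx]
      constructor
      · rintro ⟨z, hz, rfl⟩
        rw [hfix z hz, hz]
      · intro hy
        exact ⟨y, hy, hfix y hy⟩
    calc h * t = (h * t * h⁻¹) * h := by group
      _ = t * h := by rw [h1]
  -- step Z
  obtain ⟨a₀, b₀, x₀, y₀, h1, h2, h3, h4, h5, h6⟩ := exists_four (α := α) (by omega)
  obtain ⟨t₁, ht, htt, hta, -, -, -⟩ := C.pat0 h1 h2 h3 h4 h5 h6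
  have ht₁ : IsI G t₁ := ⟨ht, htt, fun he => h1 (by rw [he] at hta; simpa using hta)⟩
  obtain ⟨a, -, ha, -⟩ := C.exists_moved ht₁ (by omega)
  obtain ⟨w, hw, hw'⟩ : ∃ w, w ∈ Fx t₁ ∧ True := by
    obtain ⟨w, hw⟩ : (Fx t₁).Nonempty := by
      rw [← Finset.card_pos, hg t₁ ht₁]; omega
    exact ⟨w, hw, trivial⟩
  obtain ⟨c, hc, hc'⟩ := Finset.exists_mem_notMem_of_card_lt_card (s := ({w} : Finset α))
    (t := Fx t₁) (by rw [Finset.card_singleton, hg t₁ ht₁]; omega)
  rw [Finset.mem_singleton] at hc'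
  rw [mem_Fx] at hw hc
  set b := t₁ a with hb
  have hab : a ≠ b := Ne.symm ha
  have haw : a ≠ w := by
    rintro rfl
    exact ha hw
  have hbw : b ≠ w := by
    intro he
    have := congrArg t₁ he
    rw [hb, sq_apply htt, hw] at this
    exact haw this
  obtain ⟨t₂, ht₂, hF₂⟩ := C.exists_inv_with_Fx hn hodd hab haw hbw
  have hca : c ≠ a := by
    rintro rfl
    exact ha hc
  have hcb : c ≠ b := by
    intro he
    have := congrArg t₁ he
    rw [hc, hb, sq_apply htt] at this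
    exact hca this
  have ht₂a : t₂ a = a := mem_Fx.1 (by rw [hF₂]; simp)
  have ht₂b : t₂ b = b := mem_Fx.1 (by rw [hF₂]; simp)
  have ht₂w : t₂ w = w := mem_Fx.1 (by rw [hF₂]; simp)
  have ht₂c : t₂ c ≠ c := by
    intro he
    have : c ∈ Fx t₂ := mem_Fx.2 he
    rw [hF₂] at this
    simp only [Finset.mem_insert, Finset.mem_singleton] at this
    rcases this with h | h | h
    · exact hca h
    · exact hcb h
    · exact hc' h
  have hJ₁ := card_J (hg t₁ ht₁) ha
  have hJ₂ := card_J (hg t₂ ht₂) ht₂c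
  set H := fixS G (Fx t₁ ∪ {a}) with hH
  have hHfix : ∀ h ∈ H, h a = a ∧ h b = b ∧ ∀ y, t₁ y = y → h y = y := by
    intro h hh
    exact ⟨hh.2 a (by simp), hW t₁ a ht₁ ha h hh, fun y hy => hh.2 y (by simp [hy])⟩
  have hHle : H ≤ fixS G (Fx t₂ ∪ {c}) := by
    intro h hh
    obtain ⟨f1, f2, f3⟩ := hHfix h hh
    refine ⟨hh.1, fun y hy => ?_⟩
    rw [hF₂] at hy
    simp only [Finset.mem_union, Finset.mem_insert, Finset.mem_singleton] at hy
    rcases hy with (rfl | rfl | rfl) | rfl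
    · exact f1
    · exact f2
    · exact f3 _ hw
    · exact f3 _ hc
  have hHeq : H = fixS G (Fx t₂ ∪ {c}) :=
    Subgroup.eq_of_le_of_card_ge hHle (by rw [C.hH _ hJ₁, C.hH _ hJ₂])
  -- `t₂ c` lies in the fixed points of `t₁`
  have hec : t₁ (t₂ c) = t₂ c := by
    have h7 : ∀ h ∈ H, h (t₂ c) = t₂ c := by
      intro h hh
      rw [hHeq] at hh
      exact hW t₂ c ht₂ ht₂c h hh
    rcases hFixY t₁ a (t₂ c) ht₁ ha (fun h hh => h7 h hh) with h8 | h8 | h8
    · exact h8
    · exfalso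
      have := congrArg t₂ h8
      rw [sq_apply ht₂.2.1, ht₂a] at this
      exact hca this
    · exfalso
      have := congrArg t₂ h8
      rw [sq_apply ht₂.2.1, ← hb, ht₂b] at this
      exact hcb this
  -- `t₂` preserves the fixed points of `t₁`
  have hF₁ : Fx t₁ = {w, c, t₂ c} := by
    symm
    apply Finset.eq_of_subset_of_card_le
    · intro z hz
      simp only [Finset.mem_insert, Finset.mem_singleton] at hz
      rcases hz with rfl | rfl | rfl
      · exact mem_Fx.2 hw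
      · exact mem_Fx.2 hc
      · exact mem_Fx.2 hec
    · rw [hg t₁ ht₁]
      have e1 : w ≠ c := Ne.symm hc'
      have e2 : w ≠ t₂ c := by
        intro he
        have := congrArg t₂ he
        rw [sq_apply ht₂.2.1, ht₂w] at this
        exact e1 this
      rw [Finset.card_eq_three.2 ⟨w, c, t₂ c, e1, e2, Ne.symm ht₂c, rfl⟩]
  have hcomm : t₂ * t₁ = t₁ * t₂ := by
    have h9 : t₂ * t₁ * t₂⁻¹ = t₁ := by
      apply huniq _ _ (ht₁.conj ht₂.1) ht₁
      rw [Fx_conj, hF₁, Finset.image_insert, Finset.image_insert, Finset.image_singleton, ht₂w,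
        sq_apply ht₂.2.1]
      ext y
      simp only [Finset.mem_insert, Finset.mem_singleton]
      tauto
    calc t₂ * t₁ = (t₂ * t₁ * t₂⁻¹) * t₂ := by group
      _ = t₁ * t₂ := by rw [h9]
  have hne : t₁ ≠ t₂ := by
    rintro rfl
    exact ha ht₂a
  have hCp : Cp G t₁ t₂ := ⟨ht₁, ht₂, hne, hcomm.symm⟩
  obtain ⟨w', -, -, p', htw', hsw', -, -, -, -, hmp', htp'⟩ := cp_data hg hB hCp
  have hmw' : (t₁ * t₂) w' = w' := by rw [Perm.mul_apply, hsw', htw']
  have hF₃ : Fx (t₁ * t₂) = {w', p', t₁ p'} := Fx_eq_of hg hCp.left_mul htw' hmw' hmp' htp'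
  have hmem : ∀ h ∈ H, h p' = p' := by
    intro h hh
    obtain ⟨f1, f2, f3⟩ := hHfix h hh
    have hhc₁ : h * t₁ = t₁ * h := hcent t₁ ht₁ h hh.1 f3
    have hhc₂ : h * t₂ = t₂ * h := by
      apply hcent t₂ ht₂ h hh.1
      intro y hy
      have : y ∈ Fx t₂ := mem_Fx.2 hy
      rw [hF₂] at this
      simp only [Finset.mem_insert, Finset.mem_singleton] at this
      rcases this with rfl | rfl | rfl
      · exact f1
      · exact f2
      · exact f3 _ hw
    have hhc : h * (t₁ * t₂) = (t₁ * t₂) * h := by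
      calc h * (t₁ * t₂) = (h * t₁) * t₂ := by group
        _ = (t₁ * h) * t₂ := by rw [hhc₁]
        _ = t₁ * (h * t₂) := by group
        _ = t₁ * (t₂ * h) := by rw [hhc₂]
        _ = (t₁ * t₂) * h := by group
    have hw'f := f3 w' htw'
    have hwp' : w' ≠ p' := fun he => htp' (by rw [← he]; exact htw')
    have hwtp' : w' ≠ t₁ p' := fun he => hwp' (by
      have := congrArg t₁ he
      rwa [htw', sq_apply htt] at this)
    have hS : ({p', t₁ p'} : Finset α).card = 2 := Finset.card_pair (Ne.symm htp')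
    refine C.fix_on_two hJ₁ hh hS (fun y hy => ?_) p' (by simp)
    have hyF : y ∈ Fx (t₁ * t₂) := by
      rw [hF₃]
      simp only [Finset.mem_insert, Finset.mem_singleton] at hy ⊢
      tauto
    have h10 := Fx_inv hhc hyF
    rw [hF₃] at h10
    simp only [Finset.mem_insert, Finset.mem_singleton] at h10 hy ⊢
    rcases h10 with h10 | h10
    · exfalso
      have : y = w' := h.injective (h10.trans hw'f.symm)
      rcases hy with rfl | rfl
      · exact hwp' this.symm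
      · exact hwtp' this.symm
    · exact h10
  rcases hFixY t₁ a p' ht₁ ha hmem with h8 | h8 | h8
  · exact htp' h8
  · rw [h8, Perm.mul_apply, ht₂a] at hmp'
    exact ha hmp'
  · rw [h8, Perm.mul_apply, ht₂b, hb, sq_apply htt] at hmp'
    exact hab hmp'

end B

end Cfsg.Agent.Lib.NagaoBase
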