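import Mathlib
import Cfsg.Agent.Lib.NagaoOdd4

/-!
# Four-fold transitive groups with odd four-point stabilisers: the degree eleven case; the main result
-/

set_option autoImplicit false
set_option linter.unusedSectionVars false
set_option linter.style.haveILetI false

namespace Cfsg.Agent.Lib.NagaoBase

open Equiv Finset MulAction
open Cfsg.Agent.Lib.LVBasic

variable {α : Type*} [Fintype α] [DecidableEq α] {G : Subgroup (Perm α)} {d : ℕ}

section B

variable (C : Ctx G d) (hn : 7 ≤ Fintype.card α) (hodd : Fintype.card α % 2 = 1)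
  (hB : ¬ ∃ t s, Cp G t s ∧ Fx t = Fx s)
include C hn hodd hB

/-- If all `C5` are trivial, the degree is `11` and the group is sharply four-transitive. -/
theorem eleven_of_notP (hP : ∀ t p, IsI G t → t p ≠ p → C5 G t p = ⊥) :
    Fintype.card α = 11 ∧ d = 1 := by
  classical
  have hg : ∀ u, IsI G u → (Fx u).card = 3 := fun u hu => C.card_Fx_odd hn hodd hu
  have h11 := card_ge_eleven C hn hodd hB
  obtain ⟨a₀, b₀, x₀, y₀, h1, h2, h3, h4, h5, h6⟩ := exists_four (α := α) (by omega)
  obtain ⟨t, ht, htt, hta, -, -, -⟩ := C.pat0 h1 h2 h3 h4 h5 h6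
  have htI : IsI G t := ⟨ht, htt, fun he => h1 (by rw [he] at hta; simpa using hta)⟩
  obtain ⟨a, c, ha, hc, hca, hct⟩ := C.exists_moved htI (by omega)
  obtain ⟨s, hs, hr, hsa, hsc⟩ := C.exists_cp htI ha hc hca hct
  obtain ⟨w, x, p, p', h7, h8, h9, h10, h11', h12, h13, h14⟩ := cp_data hg hB hs
  obtain ⟨hF, hF7⟩ := seven hg hB hs h7 h8 h9 h10 h11' h12 h13 h14
  -- degree
  have hcard : Fintype.card α = 11 := by
    have hcov : (univ : Finset α) ⊆ ({w, x, s x, p, t p, p', t p'} : Finset α) ∪ {a, t a, c, t c} := by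
      intro y _
      rw [Finset.mem_union, ← hF]
      by_cases hry : Reg t s y
      · right
        obtain ⟨g, hgW, hcases⟩ := W2_trans C hg hB hs h11' h12 hr hry
        have hg1 : g = 1 := by
          have := (W2_le t s p) hgW
          rw [hP t p htI h12] at this
          exact this
        rw [hg1] at hcases
        simp only [Perm.one_apply, hsa] at hcases
        simp only [Finset.mem_insert, Finset.mem_singleton]
        exact hcases
      · left
        simp only [Reg, not_and_or, not_not] at hry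
        simp only [Finset.mem_union, mem_Fx]
        rcases hry with hry | hry | hry
        · exact Or.inl (Or.inl hry)
        · exact Or.inl (Or.inr hry)
        · exact Or.inr hry
    have hle := Finset.card_le_card hcov
    have h5' := Finset.card_union_le ({w, x, s x, p, t p, p', t p'} : Finset α) {a, t a, c, t c}
    have h6' : ({a, t a, c, t c} : Finset α).card ≤ 4 := Finset.card_le_four
    rw [Finset.card_univ] at hle
    omega
  refine ⟨hcard, ?_⟩
  -- the three-point stabiliser
  have hσ := hg t htI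
  obtain ⟨u₁, u₂, u₃, e1, e2, e3, hσe⟩ := Finset.card_eq_three.1 hσ
  let E : Subgroup (Perm α) := fixS G (Fx t)
  have hEmem : ∀ g : Perm α, g ∈ E ↔ g ∈ G ∧ ∀ y ∈ Fx t, g y = y := fun g => Iff.rfl
  have htE : t ∈ E := (hEmem _).2 ⟨ht, fun y hy => mem_Fx.1 hy⟩
  have hev' : Even (Nat.card E) := by
    have ho : orderOf (⟨t, htE⟩ : E) = 2 := by
      apply orderOf_eq_prime
      · exact Subtype.ext (by simpa [pow_two] using htt)
      · intro he
        exact htI.2.2 (congrArg Subtype.val he)
    rw [even_iff_two_dvd, ← ho]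
    exact orderOf_dvd_natCard _
  have hFE : ∀ u : Perm α, IsI G u → u ∈ E → Fx u = Fx t := by
    intro u hu huE
    symm
    apply Finset.eq_of_subset_of_card_le
    · intro y hy
      exact mem_Fx.2 (((hEmem u).1 huE).2 y hy)
    · rw [hg u hu, hσ]
  have hcompl : ((Fx t)ᶜ).card = 8 := by
    rw [Finset.card_compl, hσ, hcard]
  obtain ⟨z, hz1, hzz, hzc⟩ := Cfsg.Agent.Lib.NagaoCI.exists_central_involution (X := E) hev' (by
      intro a b ha hb ha1 hb1 hab
      by_contra hne
      have hI : ∀ e : E, e * e = 1 → e ≠ 1 → IsI G (e : Perm α) := by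
        intro e he he1
        exact ⟨((hEmem _).1 e.2).1, by exact_mod_cast congrArg Subtype.val he,
          fun h => he1 (Subtype.ext h)⟩
      apply hB
      refine ⟨a, b, ⟨hI a ha ha1, hI b hb hb1, fun h => hne (Subtype.ext h), ?_⟩, ?_⟩
      · exact_mod_cast congrArg Subtype.val hab
      · rw [hFE _ (hI a ha ha1) a.2, hFE _ (hI b hb hb1) b.2]) (by
      intro N hN hNodd
      let N' : Subgroup (Perm α) := N.map E.subtype
      have hcardN' : Nat.card N' = Nat.card N :=
        Subgroup.card_map_of_injective E.subtype_injective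
      have hmemN' : ∀ g : Perm α, g ∈ N' → g ∈ E := by
        rintro g ⟨g', -, rfl⟩
        exact g'.2
      have hconjN' : ∀ g ∈ E, ∀ k ∈ N', g * k * g⁻¹ ∈ N' := by
        rintro g hg' k ⟨k', hk', rfl⟩
        exact ⟨(⟨g, hg'⟩ : E) * k' * (⟨g, hg'⟩ : E)⁻¹, hN.conj_mem _ hk' _, rfl⟩
      have horbimg : ∀ g ∈ E, ∀ y, orbF N' (g y) = (orbF N' y).image g := by
        intro g hg' y
        ext v
        simp only [mem_orbF, Finset.mem_image]
        constructor
        · rintro ⟨k, hk, rfl⟩
          refine ⟨(g⁻¹ * k * g) y, ⟨g⁻¹ * k * g, ?_, rfl⟩, by simp [Perm.mul_apply]⟩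
          have := hconjN' g⁻¹ (E.inv_mem hg') k hk
          simpa using this
        · rintro ⟨_, ⟨k, hk, rfl⟩, rfl⟩
          refine ⟨g * k * g⁻¹, hconjN' g hg' k hk, by simp [Perm.mul_apply]⟩
      obtain ⟨y₀, hy₀⟩ : ∃ y₀, y₀ ∉ Fx t := exists_notMem (by omega)
      have heq : ∀ y ∈ (Fx t)ᶜ, (orbF N' y).card = (orbF N' y₀).card := by
        intro y hy
        rw [Finset.mem_compl] at hy
        rw [hσe] at hy hy₀
        simp only [Finset.mem_insert, Finset.mem_singleton, not_or] at hy hy₀
        obtain ⟨g, hg', g1, g2, g3, g4⟩ := C.agree4 (a := u₁) (b := u₂) (c := u₃) (e := y₀)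
          (a' := u₁) (b' := u₂) (c' := u₃) (e' := y) e1 e2 (Ne.symm hy₀.1) e3 (Ne.symm hy₀.2.1)
          (Ne.symm hy₀.2.2) e1 e2 (Ne.symm hy.1) e3 (Ne.symm hy.2.1) (Ne.symm hy.2.2)
        have hgE : g ∈ E := by
          refine (hEmem _).2 ⟨hg', fun v hv => ?_⟩
          rw [hσe] at hv
          simp only [Finset.mem_insert, Finset.mem_singleton] at hv
          rcases hv with rfl | rfl | rfl
          · exact g1
          · exact g2
          · exact g3
        rw [← g4, horbimg g hgE, Finset.card_image_of_injective _ g.injective]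
      have hdvd := dvd_card_of_orbits N' (orbF N' y₀).card (Fx t)ᶜ (by
        intro g hg' v hv
        rw [Finset.mem_compl] at hv ⊢
        intro hh
        have hgE := hmemN' g hg'
        have h9' := ((hEmem g).1 hgE).2 _ hh
        exact hv (by rwa [g.injective h9'] at hh)) heq
      rw [hcompl] at hdvd
      have hoddorb : Odd (orbF N' y₀).card := by
        have h1' := orb_card N' y₀
        rw [hcardN'] at h1'
        exact Odd.of_dvd_nat hNodd ⟨_, h1'.symm⟩
      have hone : (orbF N' y₀).card = 1 := by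
        have hc' : Nat.Coprime (orbF N' y₀).card 8 := by
          have : (8 : ℕ) = 2 ^ 3 := rfl
          rw [this]
          exact Nat.Coprime.pow_right 3 (Nat.coprime_two_right.mpr hoddorb)
        exact Nat.Coprime.eq_one_of_dvd hc' hdvd
      have hfixN : ∀ k ∈ N', ∀ y, k y = y := by
        intro k hk y
        by_cases hy : y ∈ Fx t
        · exact ((hEmem k).1 (hmemN' k hk)).2 y hy
        · have hc1 := heq y (Finset.mem_compl.2 hy)
          rw [hone] at hc1
          obtain ⟨v, hv⟩ := Finset.card_eq_one.1 hc1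
          have h1' : y ∈ orbF N' y := self_mem_orbF _ _
          have h2' : k y ∈ orbF N' y := mem_orbF.2 ⟨k, hk, rfl⟩
          rw [hv, Finset.mem_singleton] at h1' h2'
          exact h2'.trans h1'.symm
      rw [eq_bot_iff]
      intro k hk
      rw [Subgroup.mem_bot]
      apply Subtype.ext
      have h1' : (k : Perm α) ∈ N' := ⟨k, hk, rfl⟩
      exact Equiv.ext (hfixN _ h1'))
  have hzI : IsI G (z : Perm α) :=
    ⟨((hEmem _).1 z.2).1, by exact_mod_cast congrArg Subtype.val hzz, fun h => hz1 (Subtype.ext h)⟩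
  have hFz : Fx (z : Perm α) = Fx t := hFE _ hzI z.2
  obtain ⟨q, hq⟩ : ∃ q, q ∉ Fx t := exists_notMem (by omega)
  have hzq : (z : Perm α) q ≠ q := by
    intro he
    apply hq
    rw [← hFz]
    exact mem_Fx.2 he
  have hC5 := hP _ q hzI hzq
  have hJ := card_J (hg _ hzI) hzq
  have hbot : fixS G (Fx (z : Perm α) ∪ {q}) = ⊥ := by
    rw [eq_bot_iff]
    intro g hg'
    rw [← hC5, mem_C5]
    have hgE : g ∈ E := by
      refine (hEmem _).2 ⟨hg'.1, fun y hy => hg'.2 y ?_⟩
      rw [hFz]
      simp [hy]
    refine ⟨hg'.1, fun y hy => hg'.2 y (by simp [hy]), hg'.2 q (by simp), ?_⟩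
    exact congrArg Subtype.val (hzc ⟨g, hgE⟩)
  have := C.hH _ hJ
  rw [hbot, Subgroup.card_bot] at this
  exact this.symm

end B

namespace Ctx

variable (C : Ctx G d)
include C

/-- The classification in odd degree. -/
theorem odd_main (hn : 7 ≤ Fintype.card α) (hodd : Fintype.card α % 2 = 1) :
    (Fintype.card α = 7 ∧ d = 3) ∨ (Fintype.card α = 11 ∧ d = 1) := by
  classical
  by_cases hS : ∃ t s, Cp G t s ∧ Fx t = Fx s
  · left
    have h5 := C.trans_of_same hn hodd hS
    have h7 : Fintype.card α = 7 := by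
      by_contra hne
      exact C.five_kill h5 (by omega) hodd
    refine ⟨h7, ?_⟩
    obtain ⟨J, -, hJ⟩ := Finset.exists_subset_card_eq (s := (univ : Finset α)) (n := 4)
      (by rw [Finset.card_univ]; omega)
    obtain ⟨a, ha⟩ : ∃ a, a ∉ J := exists_notMem (by omega)
    have h1 := orb_card (fixS G J) a
    rw [C.hH J hJ] at h1
    have h2 : orbF (fixS G J) a = Jᶜ := by
      ext y
      rw [mem_orbF, Finset.mem_compl]
      constructor
      · rintro ⟨g, hg, rfl⟩ hy
        have := hg.2 _ hy
        have h3 := g.injective this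
        rw [h3] at hy
        exact ha hy
      · intro hy
        obtain ⟨g, hg, hgy⟩ := h5 J hJ a y ha hy
        exact ⟨g, hg, hgy⟩
    have h3 : (Jᶜ).card = 3 := by
      rw [Finset.card_compl, hJ, h7]
    have h4 : fixS (fixS G J) {a} = ⊥ := by
      rw [eq_bot_iff]
      intro g hg
      rw [Subgroup.mem_bot]
      have hgJ : g ∈ fixS G J := hg.1
      have hga : g a = a := hg.2 a (by simp)
      have hS2 : ((Jᶜ).erase a).card = 2 := by
        rw [Finset.card_erase_of_mem (Finset.mem_compl.2 ha), h3]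
      have hfix := C.fix_on_two hJ hgJ hS2 (by
        intro y hy
        rw [Finset.mem_erase, Finset.mem_compl] at hy ⊢
        refine ⟨fun h => hy.1 (g.injective (h.trans hga.symm)), fun h => hy.2 ?_⟩
        have := hgJ.2 _ h
        rwa [g.injective this] at h)
      ext y
      rw [Perm.one_apply]
      by_cases hyJ : y ∈ J
      · exact hgJ.2 y hyJ
      by_cases hya : y = a
      · rw [hya, hga]
      · exact hfix y (by
          rw [Finset.mem_erase, Finset.mem_compl]
          exact ⟨hya, hyJ⟩)
    rw [h2, h3, h4, Subgroup.card_bot, mul_one] at h1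
    exact h1.symm
  · right
    by_cases hP : ∃ t p, IsI G t ∧ t p ≠ p ∧ C5 G t p ≠ ⊥
    · exact (false_of_P C hn hodd hS hP).elim
    · push Not at hP
      exact eleven_of_notP C hn hodd hS hP

end Ctx

end Cfsg.Agent.Lib.NagaoBase
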