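import Mathlib
import Cfsg.Prelude.Def_Perm

/-!
Elementary algebra in a near-field (`Cfsg.NearField`).
-/

set_option autoImplicit false

namespace Cfsg.Agent.Lib.NearFieldBasic

open Cfsg

variable {F : Type*} [NearField F]

lemma nf_zero_mul (c : F) : (0 : F) * c = 0 := by
  have h : ((0 : F) + 0) * c = 0 * c + 0 * c := NearField.right_distrib 0 0 c
  rw [add_zero] at h
  exact (left_eq_add.mp h)

lemma nf_neg_mul (a c : F) : (-a) * c = -(a * c) := by
  have h : (-a + a) * c = (-a) * c + a * c := NearField.right_distrib (-a) a c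
  rw [neg_add_cancel, nf_zero_mul] at h
  exact (eq_neg_of_add_eq_zero_left h.symm)

lemma nf_sub_mul (a b c : F) : (a + -b) * c = a * c + -(b * c) := by
  rw [NearField.right_distrib, nf_neg_mul]

/-- A choice of two-sided inverse. -/
noncomputable def nfInv (a : F) (ha : a ≠ 0) : F := (NearField.exists_inv a ha).choose

lemma mul_nfInv (a : F) (ha : a ≠ 0) : a * nfInv a ha = 1 := (NearField.exists_inv a ha).choose_spec.1

lemma nfInv_mul (a : F) (ha : a ≠ 0) : nfInv a ha * a = 1 := (NearField.exists_inv a ha).choose_spec.2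

lemma one_ne_zero' : (1 : F) ≠ 0 := (NearField.zero_ne_one (F := F)).symm

lemma eq_zero_of_mul_eq_zero {a b : F} (hb : b ≠ 0) (h : a * b = 0) : a = 0 := by
  have h1 : a * (b * nfInv b hb) = 0 := by
    rw [← mul_assoc, h, nf_zero_mul]
  rwa [mul_nfInv, mul_one] at h1

lemma mul_ne_zero' {a b : F} (ha : a ≠ 0) (hb : b ≠ 0) : a * b ≠ 0 :=
  fun h => ha (eq_zero_of_mul_eq_zero hb h)

/-- Right multiplication by a fixed element as an additive homomorphism. -/
def rightMulHom (c : F) : F →+ F where
  toFun x := x * c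
  map_zero' := nf_zero_mul c
  map_add' x y := NearField.right_distrib x y c

@[simp] lemma rightMulHom_apply (c x : F) : rightMulHom c x = x * c := rfl

lemma nsmul_mul (n : ℕ) (x c : F) : (n • x) * c = n • (x * c) :=
  (rightMulHom c).map_nsmul n x

end Cfsg.Agent.Lib.NearFieldBasic
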