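import Mathlib

/-! Norms to the prime field of `GaloisField p q` as values of a polynomial. -/

set_option autoImplicit false

namespace Cfsg.Agent.Lib.NormPoly

open Polynomial

variable (p q : ℕ) [hp : Fact p.Prime] [hq : Fact q.Prime]

local notation "𝔽" => GaloisField p q

theorem finrank_eq : Module.finrank (ZMod p) (GaloisField p q) = q :=
  GaloisField.finrank p hq.out.ne_zero

/-- The norm polynomial. -/
noncomputable def normPoly (z : GaloisField p q) : (GaloisField p q)[X] :=
  ∏ i ∈ Finset.range q, (X + C (z ^ (p ^ i)))

omit hq in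
theorem normPoly_monic (z : GaloisField p q) : (normPoly p q z).Monic :=
  monic_prod_of_monic _ _ (fun _ _ => monic_X_add_C _)

omit hq in
theorem normPoly_natDegree (z : GaloisField p q) : (normPoly p q z).natDegree = q := by
  unfold normPoly
  rw [natDegree_prod_of_monic _ _ (fun _ _ => monic_X_add_C _)]
  simp only [natDegree_X_add_C, Finset.sum_const, Finset.card_range, smul_eq_mul, mul_one]

/-- `N(t + z) = g_z(t)` for `t` in the prime field. -/
theorem norm_add_eq_eval (z : GaloisField p q) (t : ZMod p) :
    algebraMap (ZMod p) (GaloisField p q) (Algebra.norm (ZMod p) (algebraMap (ZMod p) _ t + z)) =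
      (normPoly p q z).eval (algebraMap (ZMod p) _ t) := by
  rw [FiniteField.algebraMap_norm_eq_prod_pow, finrank_eq, normPoly, eval_prod]
  apply Finset.prod_congr rfl
  intro i _
  rw [Nat.card_zmod, add_pow_char_pow, ← map_pow, ZMod.pow_card_pow]
  simp

/-- A polynomial function: if `N(t + z)` takes one value `c` on the whole prime field then `p ≤ q`. -/
theorem le_of_norm_const (z : GaloisField p q) (c : ZMod p)
    (h : ∀ t : ZMod p, Algebra.norm (ZMod p) (algebraMap (ZMod p) (GaloisField p q) t + z) = c) :
    p ≤ q := by
  classical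
  set g : (GaloisField p q)[X] := normPoly p q z - C (algebraMap (ZMod p) _ c) with hg
  have hdeg : g.natDegree = q := by
    rw [hg, natDegree_sub_C, normPoly_natDegree]
  have hg0 : g ≠ 0 := by
    intro h0
    rw [h0, natDegree_zero] at hdeg
    exact hq.out.ne_zero hdeg.symm
  have hinj : Function.Injective (algebraMap (ZMod p) (GaloisField p q)) :=
    (algebraMap (ZMod p) (GaloisField p q)).injective
  let Z : Finset (GaloisField p q) := Finset.univ.image (algebraMap (ZMod p) (GaloisField p q))
  have hZ : Z.card = p := by
    rw [Finset.card_image_of_injective _ hinj, Finset.card_univ, ZMod.card]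
  have hsub : Z.val ⊆ g.roots := by
    intro x hx
    have hx' : x ∈ Z := hx
    obtain ⟨t, -, rfl⟩ := Finset.mem_image.mp hx'
    rw [mem_roots hg0, IsRoot, hg, eval_sub, eval_C, ← norm_add_eq_eval, h t, sub_self]
  have := card_le_degree_of_subset_roots hsub
  rwa [hZ, hdeg] at this

end Cfsg.Agent.Lib.NormPoly
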