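import Mathlib
import Cfsg.Agent.Lib.FrobBlock
import Cfsg.Agent.Lib.TwoTrans
import Cfsg.Agent.Lib.CharAvg

/-!
# Groups of prime degree whose Sylow normalizer has order `2p`
-/

set_option autoImplicit false
set_option linter.unusedSectionVars false
set_option linter.unusedVariables false
set_option linter.style.haveILetI false
set_option linter.all false

namespace Cfsg.Agent.Lib.NormTwoP

open Cfsg Cfsg.Agent.Lib Cfsg.Agent.Lib.FrobBlock Cfsg.Agent.Lib.CharBasic Subgroup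
open Cfsg.Agent.Lib.DefectOne (cj cj_coe smul_apply smul_ne_one)
open Cfsg.Agent.Lib.BlockNormal (irrOne)
open scoped ComplexConjugate

universe u

/-- Two squares summing to two over a finset containing a distinguished element. -/
theorem x_two {ι : Type*} [DecidableEq ι] (X : Finset ι) (a : ι → ℤ) (o : ι) (ho : o ∈ X) (hao : a o = 1)
    (h1 : ∀ χ ∈ X, a χ ≠ 0) (hs : ∑ χ ∈ X, a χ ^ 2 = 2) :
    ∃ θ, θ ≠ o ∧ X = {o, θ} ∧ (a θ = 1 ∨ a θ = -1) := by
  have h2 : ∑ χ ∈ X.erase o, a χ ^ 2 = 1 := by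
    have := Finset.add_sum_erase X (fun χ => a χ ^ 2) ho
    simp only [hao] at this
    linarith
  have h3 : (X.erase o).card ≤ 1 := by
    have h4 : ∑ χ ∈ X.erase o, (1 : ℤ) ≤ ∑ χ ∈ X.erase o, a χ ^ 2 := by
      apply Finset.sum_le_sum
      intro χ hχ
      have h5 := h1 χ (Finset.mem_of_mem_erase hχ)
      have h6 : 0 < a χ ^ 2 := by positivity
      omega
    rw [h2] at h4
    simp only [Finset.sum_const, nsmul_eq_mul, mul_one] at h4
    exact_mod_cast h4
  have h4 : (X.erase o).Nonempty := by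
    by_contra h
    rw [Finset.not_nonempty_iff_eq_empty] at h
    rw [h] at h2
    simp at h2
  obtain ⟨θ, hθ⟩ := Finset.card_eq_one.1 (le_antisymm h3 (Finset.card_pos.2 h4))
  have h5 : θ ∈ X.erase o := by rw [hθ]; simp
  refine ⟨θ, Finset.ne_of_mem_erase h5, ?_, ?_⟩
  · ext χ
    simp only [Finset.mem_insert, Finset.mem_singleton]
    constructor
    · intro hχ
      by_cases h6 : χ = o
      · exact Or.inl h6
      · right
        have h7 : χ ∈ X.erase o := Finset.mem_erase.2 ⟨h6, hχ⟩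
        rw [hθ] at h7
        simpa using h7
    · rintro (rfl | rfl)
      · exact ho
      · exact Finset.mem_of_mem_erase h5
  · rw [hθ] at h2
    simp only [Finset.sum_singleton] at h2
    have h6 : (a θ - 1) * (a θ + 1) = 0 := by linarith
    rcases mul_eq_zero.1 h6 with h | h
    · left; linarith
    · right; linarith

section Main

variable {G : Type u} [Group G] [Fintype G] {p : ℕ} [hp : Fact p.Prime] {M : Ideal AlgInt}
variable {P : Sylow p G} (H : Hyp P)

set_option quotPrecheck false in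
local notation "𝔸" => ↥(P : Subgroup G)
set_option quotPrecheck false in
local notation "𝔑" => ↥(normalizer ((P : Subgroup G) : Set G))

/-- Sum of a nontrivial linear character over the group. -/
theorem sum_lin [Fintype 𝔸] (ψ : 𝔸 →* ℂˣ) (hψ : ψ ≠ 1) : ∑ y : 𝔸, ((ψ y : ℂˣ) : ℂ) = 0 := by
  obtain ⟨y₀, hy₀⟩ : ∃ y₀, ψ y₀ ≠ 1 := by
    by_contra h
    push Not at h
    exact hψ (MonoidHom.ext fun y => by simpa using h y)
  have h1 : ((ψ y₀ : ℂˣ) : ℂ) ≠ 1 := fun h => hy₀ (Units.ext h)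
  have h2 : ((ψ y₀ : ℂˣ) : ℂ) * ∑ y : 𝔸, ((ψ y : ℂˣ) : ℂ) = ∑ y : 𝔸, ((ψ y : ℂˣ) : ℂ) := by
    rw [Finset.mul_sum]
    refine Finset.sum_equiv (Equiv.mulLeft y₀) (by simp) fun y _ => ?_
    simp
  have h3 : (((ψ y₀ : ℂˣ) : ℂ) - 1) * ∑ y : 𝔸, ((ψ y : ℂˣ) : ℂ) = 0 := by
    linear_combination h2
  exact (mul_eq_zero.1 h3).resolve_left (sub_ne_zero.2 h1)

include H in
/-- The size of a nontrivial orbit on the dual. -/
theorem card_orbit [Fintype 𝔑] [Fintype (𝔸 →* ℂˣ)] [DecidableEq (𝔸 →* ℂˣ)] {ψ : 𝔸 →* ℂˣ} (hψ : ψ ≠ 1)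
    [DecidablePred fun f : 𝔸 →* ℂˣ => ∃ n : 𝔑, n • ψ = f] :
    (Finset.univ.filter fun f : 𝔸 →* ℂˣ => ∃ n : 𝔑, n • ψ = f).card *
      Nat.card (centralizer ((P : Subgroup G) : Set G)) = Nat.card 𝔑 := by
  classical
  have h1 : Nat.card 𝔑 = ∑ f : 𝔸 →* ℂˣ, (Finset.univ.filter (fun n : 𝔑 => n • ψ = f)).card := by
    rw [Nat.card_eq_fintype_card, ← Finset.card_univ]
    exact Finset.card_eq_sum_card_fiberwise (fun n _ => Finset.mem_univ (n • ψ))
  rw [h1, Finset.card_eq_sum_ones, Finset.sum_mul, Finset.sum_filter]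
  refine Finset.sum_congr rfl fun f _ => ?_
  rw [H.card_fiber_dual hψ f]
  simp

set_option maxHeartbeats 2000000 in
open Classical in
include H in
/-- The block data when `[N : C] = 2`. -/
theorem block_data [Fintype 𝔸] [Fintype 𝔑] [Fintype (𝔸 →* ℂˣ)] (hM : IsPModular p M)
    (hP : Nat.card 𝔸 = p) (hp5 : 5 ≤ p)
    (hN : Nat.card 𝔑 = 2 * Nat.card (centralizer ((P : Subgroup G) : Set G)))
    (hCy : ∀ y : 𝔸, y ≠ 1 → Nat.card (centralizer ({(y : G)} : Set G)) = p) :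
    ∃ (θ : IrrCharacter G) (Y : Finset (IrrCharacter G)) (ε κ : ℤ),
      (ε = 1 ∨ ε = -1) ∧ (κ = 1 ∨ κ = -1) ∧ θ ≠ irrOne G ∧ irrOne G ∉ Y ∧ θ ∉ Y ∧ Y.Nonempty ∧
      (∀ y : 𝔸, y ≠ 1 → (θ : G → ℂ) y = ε) ∧
      (∀ η ∈ Y, ∀ g : G, ¬ p ∣ orderOf g → (κ : ℂ) * (η : G → ℂ) g + 1 + ε * (θ : G → ℂ) g = 0) ∧
      (∀ η ∈ Y, ∑ y : 𝔸, (η : G → ℂ) y = (η : G → ℂ) 1 + 2 * κ) ∧
      (∀ y : 𝔸, y ≠ 1 → ∑ η ∈ Y, (η : G → ℂ) y * conj ((η : G → ℂ) y) = (p : ℂ) - 2) ∧
      (∀ χ : IrrCharacter G, χ ≠ irrOne G → χ ≠ θ → χ ∉ Y → ∀ y : 𝔸, y ≠ 1 → (χ : G → ℂ) y = 0) := by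
  obtain ⟨Xf, Yf, a, d, σ, ζ, r, hr, hr2, hU, hD, hYc, h1X, ha1, hσ, hnz, hvX, hζY, hYζ, hiff, hvY, hnorm, hagree, hlin⟩ :=
    H.main2 hM 2 (by norm_num) hN (by rw [hP]; omega)
  have hr' : r * 2 = p - 1 := by rw [hr, hP]
  have hrZ : ((r : ℤ) * 2) = (p : ℤ) - 1 := by
    have : (r * 2 + 1 : ℕ) = p := by omega
    have h2 : ((r * 2 + 1 : ℕ) : ℤ) = (p : ℤ) := by rw [this]
    push_cast at h2
    linarith
  have hr2' : (2 : ℤ) ≤ r := by exact_mod_cast hr2
  have hσ2 : σ ^ 2 = 1 := by rcases hσ with rfl | rfl <;> norm_num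
  have hs1 : 1 ≤ ∑ χ ∈ Xf, a χ ^ 2 := by
    have h3 : a (irrOne G) ^ 2 ≤ ∑ χ ∈ Xf, a χ ^ 2 :=
      Finset.single_le_sum (f := fun χ => a χ ^ 2) (fun i _ => sq_nonneg _) h1X
    rw [ha1] at h3
    simpa using h3
  have hnorm' : ∑ χ ∈ Xf, a χ ^ 2 + (r : ℤ) * d ^ 2 - 2 * σ * d = 2 := by exact_mod_cast hnorm
  have hYne : Yf.Nonempty := by
    rw [← Finset.card_pos, hYc]
    omega
  obtain ⟨η₀, hη₀⟩ := hYne
  -- determine `d`
  have hdcase : (d = 0 ∧ ∑ χ ∈ Xf, a χ ^ 2 = 2) ∨ (r = 2 ∧ d = σ ∧ ∑ χ ∈ Xf, a χ ^ 2 = 2) := by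
    by_cases hd0 : d = 0
    · left
      subst hd0
      refine ⟨rfl, ?_⟩
      linarith
    · right
      have hd1 : 1 ≤ d ^ 2 := by
        have : 0 < d ^ 2 := by positivity
        omega
      have h5 : (r : ℤ) * d ^ 2 - 2 * σ * d ≤ 1 := by linarith
      -- `σ d ≤ |d| ≤ d²`
      have h6 : σ * d ≤ d ^ 2 := by
        rcases hσ with rfl | rfl <;> nlinarith
      have hrle : (r : ℤ) ≤ 3 := by nlinarith
      have hd2 : d = σ := by
        rcases hσ with rfl | rfl
        · have h7 : d ≤ 1 := by nlinarith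
          have h8 : -1 ≤ d := by nlinarith
          have h9 : d ≠ -1 := by
            rintro rfl
            norm_num at h5
            linarith
          omega
        · have h7 : d ≤ 1 := by nlinarith
          have h8 : -1 ≤ d := by nlinarith
          have h9 : d ≠ 1 := by
            rintro rfl
            norm_num at h5
            linarith
          omega
      subst hd2
      have hrcase : (r : ℤ) = 2 ∨ (r : ℤ) = 3 := by omega
      rcases hrcase with hr3 | hr3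
      · refine ⟨by exact_mod_cast hr3, rfl, ?_⟩
        rw [hr3] at hnorm'
        nlinarith
      · exfalso
        have hA : ∑ χ ∈ Xf, a χ ^ 2 = 1 := by
          rw [hr3] at hnorm'
          nlinarith
        -- `Xf = {1}`
        have hX : Xf = {irrOne G} := by
          ext χ
          rw [Finset.mem_singleton]
          constructor
          · intro hχ
            by_contra hne
            have h7 : a (irrOne G) ^ 2 + a χ ^ 2 ≤ ∑ χ ∈ Xf, a χ ^ 2 := by
              rw [← Finset.add_sum_erase Xf _ h1X]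
              have h8 : a χ ^ 2 ≤ ∑ χ' ∈ Xf.erase (irrOne G), a χ' ^ 2 :=
                Finset.single_le_sum (f := fun χ => a χ ^ 2) (fun i _ => sq_nonneg _)
                  (Finset.mem_erase.2 ⟨hne, hχ⟩)
              linarith
            rw [hA, ha1] at h7
            have h8 : 0 < a χ ^ 2 := by
              have := hnz χ hχ
              positivity
            linarith
          · rintro rfl
            exact h1X
        have h7 := hlin η₀ hη₀ 1 (by simp [(Fact.out : p.Prime).one_lt.ne'])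
        rw [hX, Finset.sum_singleton, ha1] at h7
        obtain ⟨n, hn⟩ : ∃ n : ℕ, (η₀ : G → ℂ) 1 = n := ⟨_, Cfsg.Agent.Lib.CharKernel.one_eq_charDegree
          (IsIrrCharacter.isCharacter η₀.2)⟩
        have h8 : ((irrOne G : IrrCharacter G) : G → ℂ) 1 = 1 := rfl
        rw [hn, h8] at h7
        have h9 : (r : ℂ) = 3 := by exact_mod_cast hr3
        rw [h9] at h7
        have h10 : (3 * d - d) * (n : ℤ) + 1 = 0 := by
          have : (((3 * d - d) * (n : ℤ) + 1 : ℤ) : ℂ) = 0 := by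
            push_cast
            linear_combination h7
          exact_mod_cast this
        have h11 : 2 * (d * (n : ℤ)) + 1 = 0 := by linarith
        omega
  have hA : ∑ χ ∈ Xf, a χ ^ 2 = 2 := by
    rcases hdcase with h | h
    · exact h.2
    · exact h.2.2
  obtain ⟨θ, hθ1, hXeq, hε⟩ := x_two Xf a (irrOne G) h1X ha1 hnz hA
  have hθX : θ ∈ Xf := by rw [hXeq]; simp
  have hdisj : ∀ χ, χ ∈ Xf → χ ∉ Yf := fun χ h1 h2 => Finset.disjoint_left.1 hD h1 h2
  have hone : ∀ g : G, ((irrOne G : IrrCharacter G) : G → ℂ) g = 1 := fun g => rfl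
  set κ : ℤ := (r : ℤ) * d - σ with hκ
  have hκ1 : κ = 1 ∨ κ = -1 := by
    rcases hdcase with ⟨h, -⟩ | ⟨h1, h2, -⟩
    · rw [hκ, h]
      rcases hσ with rfl | rfl <;> simp
    · rw [hκ, h1, h2]
      rcases hσ with rfl | rfl <;> simp
  have hκc : (κ : ℂ) = (r : ℂ) * d - σ := by
    rw [hκ]; push_cast; ring
  have hκ2 : (p : ℤ) - 1 = 2 * (r : ℤ) := by linarith
  refine ⟨θ, Yf, a θ, κ, hε, hκ1, hθ1, hdisj _ h1X, hdisj _ hθX, ⟨η₀, hη₀⟩, ?_, ?_, ?_, ?_, ?_⟩
  · exact fun y hy => hvX θ hθX y hy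
  · intro η hη g hg
    have h1 := hlin η hη g hg
    rw [hXeq, Finset.sum_pair hθ1.symm, ha1, hone] at h1
    rw [hκc]
    push_cast at h1
    linear_combination h1
  · intro η hη
    obtain ⟨ψ, hψ, rfl⟩ := hYζ η hη
    let O : 𝔸 → ℂ := fun y => ∑ ψ' : 𝔸 →* ℂˣ, if ∃ n : 𝔑, n • ψ = ψ' then ((ψ' y : ℂˣ) : ℂ) else 0
    have hO1 : O 1 = 2 := by
      have h1 := card_orbit H hψ (ψ := ψ)
      rw [hN] at h1
      have hC : 0 < Nat.card (centralizer ((P : Subgroup G) : Set G)) := Nat.card_pos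
      have h2 : (Finset.univ.filter fun f : 𝔸 →* ℂˣ => ∃ n : 𝔑, n • ψ = f).card = 2 :=
        Nat.eq_of_mul_eq_mul_right hC h1
      simp only [O, map_one, Units.val_one]
      rw [Finset.sum_boole, h2]
      norm_num
    have hOs : ∑ y : 𝔸, O y = 0 := by
      simp only [O]
      rw [Finset.sum_comm]
      refine Finset.sum_eq_zero fun ψ' _ => ?_
      by_cases h1 : ∃ n : 𝔑, n • ψ = ψ'
      · simp only [if_pos h1]
        obtain ⟨n, rfl⟩ := h1
        exact sum_lin _ (smul_ne_one _ n hψ)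
      · simp only [if_neg h1, Finset.sum_const_zero]
    have hOe : ∑ y ∈ Finset.univ.erase (1 : 𝔸), O y = -2 := by
      have h1 := Finset.add_sum_erase Finset.univ O (Finset.mem_univ (1 : 𝔸))
      rw [hOs, hO1] at h1
      linear_combination h1
    have hcard : ((Finset.univ.erase (1 : 𝔸)).card : ℂ) = (p : ℂ) - 1 := by
      rw [Finset.card_erase_of_mem (Finset.mem_univ _), Finset.card_univ, ← Nat.card_eq_fintype_card, hP,
        Nat.cast_sub (Fact.out : p.Prime).one_lt.le]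
      simp
    have h2 := Finset.add_sum_erase Finset.univ (fun y : 𝔸 => ((ζ ψ : IrrCharacter G) : G → ℂ) y) (Finset.mem_univ (1 : 𝔸))
    simp only [Subgroup.coe_one] at h2
    have h3 : ∑ y ∈ Finset.univ.erase (1 : 𝔸), ((ζ ψ : IrrCharacter G) : G → ℂ) y =
        ∑ y ∈ Finset.univ.erase (1 : 𝔸), ((d : ℂ) + σ * O y) :=
      Finset.sum_congr rfl fun y hy => hvY ψ hψ y (Finset.ne_of_mem_erase hy)
    rw [h3, Finset.sum_add_distrib, ← Finset.mul_sum, hOe, Finset.sum_const, nsmul_eq_mul, hcard] at h2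
    rw [← h2, hκc]
    have h4 : (p : ℂ) - 1 = 2 * r := by
      have : (((p : ℤ) - 1 : ℤ) : ℂ) = ((2 * (r : ℤ) : ℤ) : ℂ) := by rw [hκ2]
      push_cast at this
      exact this
    rw [h4]
    ring
  · intro y hy
    have hy0 : (y : G) ≠ 1 := fun h => hy (Subtype.ext h)
    have h1 := H.sum_norm hM y.2 hy0
    rw [← hU, Finset.sum_union hD, hXeq, Finset.sum_pair hθ1.symm, hone,
      hvX θ hθX y hy, hP] at h1
    have h2 : ((a θ : ℂ)) * conj (a θ : ℂ) = 1 := by
      rcases hε with h | h <;> rw [h] <;> simp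
    rw [h2] at h1
    simp only [map_one, mul_one] at h1
    linear_combination h1
  · intro χ h1 h2 h3 y hy
    have hy0 : (y : G) ≠ 1 := fun h => hy (Subtype.ext h)
    have hχ : χ ∉ SingConst.B₀ M G := by
      rw [← hU, Finset.mem_union, hXeq]
      simp only [Finset.mem_insert, Finset.mem_singleton, not_or]
      exact ⟨⟨h1, h2⟩, h3⟩
    have h4 := H.sum_norm hM y.2 hy0
    have h5 := Cfsg.Agent.Lib.CharInd.sum_irr_mul_conj (y : G) (y : G)
    rw [if_pos (IsConj.refl _), hCy y hy] at h5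
    have h6 := Finset.sum_compl_add_sum (SingConst.B₀ M G)
      (fun χ : IrrCharacter G => (χ : G → ℂ) y * conj ((χ : G → ℂ) y))
    rw [h5, h4, hP] at h6
    have h7 : ∑ χ ∈ (SingConst.B₀ M G)ᶜ, (Complex.normSq ((χ : G → ℂ) y)) = 0 := by
      have h8 : ((∑ χ ∈ (SingConst.B₀ M G)ᶜ, (Complex.normSq ((χ : G → ℂ) y)) : ℝ) : ℂ) = 0 := by
        push_cast
        rw [← add_eq_right.1 h6]
        refine Finset.sum_congr rfl fun χ _ => ?_
        rw [Complex.mul_conj]
      exact_mod_cast h8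
    have h8 := (Finset.sum_eq_zero_iff_of_nonneg (fun χ _ => Complex.normSq_nonneg _)).1 h7 χ
      (Finset.mem_compl.2 hχ)
    exact Complex.normSq_eq_zero.1 h8

end Main

end Cfsg.Agent.Lib.NormTwoP
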