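import Mathlib
import Cfsg.Agent.Lib.NormTwoP

/-!
# Groups of prime degree whose Sylow normalizer has order `2p`, part 2
-/

set_option autoImplicit false
set_option linter.unusedSectionVars false
set_option linter.unusedVariables false
set_option linter.style.haveILetI false
set_option linter.all false

namespace Cfsg.Agent.Lib.NormTwoP

open Cfsg Cfsg.Agent.Lib Cfsg.Agent.Lib.FrobBlock Cfsg.Agent.Lib.CharBasic Subgroup
open Cfsg.Agent.Lib.DefectOne (cj cj_coe smul_apply smul_ne_one)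
open Cfsg.Agent.Lib.BlockNormal (irrOne)
open Cfsg.Agent.Lib.CharKernel (charKer mem_charKer one_eq_charDegree charDegree_pos)
open scoped ComplexConjugate

universe u v

section Split

variable {G : Type u} [Group G] [Finite G]

open Classical in
/-- The complement of `{1, θ} ∪ Y`. -/
noncomputable def rest (θ : IrrCharacter G) (Y : Finset (IrrCharacter G)) : Finset (IrrCharacter G) :=
  (insert (irrOne G) (insert θ Y))ᶜ

open Classical in
theorem mem_rest {θ : IrrCharacter G} {Y : Finset (IrrCharacter G)} {χ : IrrCharacter G} :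
    χ ∈ rest θ Y ↔ χ ≠ irrOne G ∧ χ ≠ θ ∧ χ ∉ Y := by
  simp [rest]

open Classical in
theorem sum_split {β : Type*} [AddCommMonoid β] {θ : IrrCharacter G} {Y : Finset (IrrCharacter G)}
    (hθ1 : θ ≠ irrOne G) (h1Y : irrOne G ∉ Y) (hθY : θ ∉ Y) (F : IrrCharacter G → β) :
    ∑ i, F i = F (irrOne G) + (F θ + (∑ η ∈ Y, F η + ∑ χ ∈ rest θ Y, F χ)) := by
  have h1 := Finset.sum_add_sum_compl (insert (irrOne G) (insert θ Y)) F
  have h2 : irrOne G ∉ insert θ Y := by
    simp [h1Y, hθ1.symm]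
  rw [Finset.sum_insert h2, Finset.sum_insert hθY] at h1
  rw [← h1, rest]
  simp only [add_assoc]

end Split

section Main

variable {G : Type u} [Group G] [Fintype G] {p : ℕ} [hp : Fact p.Prime]
variable {P : Sylow p G}

set_option quotPrecheck false in
local notation "𝔸" => ↥(P : Subgroup G)
set_option quotPrecheck false in
local notation "𝔑" => ↥(normalizer ((P : Subgroup G) : Set G))

/-- The output of `block_data`. -/
structure BD (P : Sylow p G) [Fintype ↥(P : Subgroup G)] (θ : IrrCharacter G) (Y : Finset (IrrCharacter G)) (ε κ : ℤ) : Prop where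
  hε : ε = 1 ∨ ε = -1
  hκ : κ = 1 ∨ κ = -1
  hθ1 : θ ≠ irrOne G
  h1Y : irrOne G ∉ Y
  hθY : θ ∉ Y
  hYne : Y.Nonempty
  vθ : ∀ y : ↥(P : Subgroup G), y ≠ 1 → (θ : G → ℂ) y = ε
  lin : ∀ η ∈ Y, ∀ g : G, ¬ p ∣ orderOf g → (κ : ℂ) * (η : G → ℂ) g + 1 + ε * (θ : G → ℂ) g = 0
  sumY : ∀ η ∈ Y, ∑ y : ↥(P : Subgroup G), (η : G → ℂ) y = (η : G → ℂ) 1 + 2 * κ
  normY : ∀ y : ↥(P : Subgroup G), y ≠ 1 → ∑ η ∈ Y, (η : G → ℂ) y * conj ((η : G → ℂ) y) = (p : ℂ) - 2
  zero : ∀ χ : IrrCharacter G, χ ≠ irrOne G → χ ≠ θ → χ ∉ Y → ∀ y : ↥(P : Subgroup G), y ≠ 1 → (χ : G → ℂ) y = 0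

/-- The degree as a natural number. -/
noncomputable abbrev dg (χ : IrrCharacter G) : ℕ := charDegree (χ : G → ℂ)

theorem dg_eq (χ : IrrCharacter G) : (χ : G → ℂ) 1 = (dg χ : ℂ) :=
  one_eq_charDegree (IsIrrCharacter.isCharacter χ.2)

theorem dg_pos (χ : IrrCharacter G) : 0 < dg χ := charDegree_pos χ.2

theorem dg_one : dg (irrOne G) = 1 := by
  have h := dg_eq (irrOne G)
  have h2 : ((irrOne G : IrrCharacter G) : G → ℂ) 1 = 1 := rfl
  rw [h2] at h
  exact_mod_cast h.symm

/-- Evaluate a natural decomposition. -/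
theorem decomp_apply (m : IrrCharacter G → ℕ) (g : G) :
    (∑ i, m i • (i : G → ℂ)) g = ∑ i, (m i : ℂ) * (i : G → ℂ) g := by
  simp [Finset.sum_apply]

open Classical in
/-- The degree of a decomposition. -/
theorem decomp_one (m : IrrCharacter G → ℕ) {θ : IrrCharacter G} {Y : Finset (IrrCharacter G)}
    (hθ1 : θ ≠ irrOne G) (h1Y : irrOne G ∉ Y) (hθY : θ ∉ Y) :
    (∑ i, m i • (i : G → ℂ)) 1 = ((m (irrOne G) + (m θ * dg θ + (∑ η ∈ Y, m η * dg η +
      ∑ χ ∈ rest θ Y, m χ * dg χ)) : ℕ) : ℂ) := by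
  rw [decomp_apply]
  have h1 : ∀ i : IrrCharacter G, (m i : ℂ) * (i : G → ℂ) 1 = ((m i * dg i : ℕ) : ℂ) := by
    intro i
    rw [dg_eq]
    push_cast
    ring
  simp only [h1]
  rw [← Nat.cast_sum, sum_split hθ1 h1Y hθY, dg_one, mul_one]

open Classical in
/-- The sum over nonidentity elements of the Sylow subgroup. -/
theorem decomp_B [Fintype 𝔸] {θ : IrrCharacter G} {Y : Finset (IrrCharacter G)} {ε κ : ℤ} (hD : BD P θ Y ε κ)
    (hP : Nat.card 𝔸 = p) (m : IrrCharacter G → ℕ) :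
    ∑ y ∈ Finset.univ.erase (1 : 𝔸), (∑ i, m i • (i : G → ℂ)) (y : G) =
      ((p : ℂ) - 1) * ((m (irrOne G) : ℂ) + ε * m θ) + 2 * κ * ((∑ η ∈ Y, m η : ℕ) : ℂ) := by
  simp only [decomp_apply]
  rw [Finset.sum_comm]
  rw [sum_split hD.hθ1 hD.h1Y hD.hθY]
  have hcard : ((Finset.univ.erase (1 : 𝔸)).card : ℂ) = (p : ℂ) - 1 := by
    rw [Finset.card_erase_of_mem (Finset.mem_univ _), Finset.card_univ, ← Nat.card_eq_fintype_card, hP,
      Nat.cast_sub (Fact.out : p.Prime).one_lt.le]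
    simp
  have h1 : ∑ y ∈ Finset.univ.erase (1 : 𝔸), (m (irrOne G) : ℂ) * ((irrOne G : IrrCharacter G) : G → ℂ) y =
      ((p : ℂ) - 1) * m (irrOne G) := by
    have : ∀ y : 𝔸, (m (irrOne G) : ℂ) * ((irrOne G : IrrCharacter G) : G → ℂ) y = m (irrOne G) := fun y => by
      simp [irrOne]
    simp only [this, Finset.sum_const, nsmul_eq_mul, hcard]
  have h2 : ∑ y ∈ Finset.univ.erase (1 : 𝔸), (m θ : ℂ) * (θ : G → ℂ) y = ((p : ℂ) - 1) * (ε * m θ) := by
    rw [Finset.sum_congr rfl (fun y hy => by rw [hD.vθ y (Finset.ne_of_mem_erase hy)])]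
    simp only [Finset.sum_const, nsmul_eq_mul, hcard]
    ring
  have h3 : ∑ η ∈ Y, ∑ y ∈ Finset.univ.erase (1 : 𝔸), (m η : ℂ) * (η : G → ℂ) y =
      2 * κ * ((∑ η ∈ Y, m η : ℕ) : ℂ) := by
    push_cast
    rw [Finset.mul_sum]
    refine Finset.sum_congr rfl fun η hη => ?_
    rw [← Finset.mul_sum]
    have h4 := Finset.add_sum_erase Finset.univ (fun y : 𝔸 => (η : G → ℂ) y) (Finset.mem_univ (1 : 𝔸))
    simp only [Subgroup.coe_one] at h4
    rw [hD.sumY η hη] at h4
    have h5 : ∑ y ∈ Finset.univ.erase (1 : 𝔸), (η : G → ℂ) y = 2 * κ := by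
      linear_combination h4
    rw [h5]
    ring
  have h4 : ∑ χ ∈ rest θ Y, ∑ y ∈ Finset.univ.erase (1 : 𝔸), (m χ : ℂ) * (χ : G → ℂ) y = 0 := by
    refine Finset.sum_eq_zero fun χ hχ => Finset.sum_eq_zero fun y hy => ?_
    obtain ⟨h5, h6, h7⟩ := mem_rest.1 hχ
    rw [hD.zero χ h5 h6 h7 y (Finset.ne_of_mem_erase hy), mul_zero]
  rw [h1, h2, h3, h4]
  ring

section Action

variable {α : Type v} [MulAction G α] [Finite α]

/-- Burnside's lemma for a transitive action. -/
theorem sum_fix [MulAction.IsPretransitive G α] (hne : Nonempty α) :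
    ∑ g : G, (TwoTrans.fix α g : ℂ) = (Nat.card G : ℂ) := by
  have hone : Nat.card (MulAction.orbitRel.Quotient G α) = 1 := by
    obtain ⟨u⟩ := (MulAction.pretransitive_iff_unique_quotient_of_nonempty G α).mp inferInstance
    exact Nat.card_unique
  have := TwoTrans.sum_card_fixedBy (G := G) (Y := α)
  rw [hone, one_mul] at this
  unfold TwoTrans.fix
  exact_mod_cast this

/-- The multiplicity of the principal character. -/
theorem mult_one [MulAction.IsPretransitive G α] (hne : Nonempty α) (m : IrrCharacter G → ℕ)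
    (hm : (fun g : G => (TwoTrans.fix α g : ℂ)) = ∑ i, m i • (i : G → ℂ)) : m (irrOne G) = 1 := by
  have h1 := classInner_nat_decomp m (fun _ => (1 : ℂ)) isIrrCharacter_one
  rw [← hm] at h1
  have h2 : classInner (fun g : G => (TwoTrans.fix α g : ℂ)) (fun _ => (1 : ℂ)) = 1 := by
    unfold classInner
    simp only [map_one, mul_one]
    rw [sum_fix hne]
    exact inv_mul_cancel₀ natCard_ne_zero'
  rw [h2] at h1
  have h3 : ((m (irrOne G) : ℕ) : ℂ) = 1 := h1.symm
  exact_mod_cast h3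

/-- A lower bound for the degree of a character that is constant `-1` on the nonidentity
elements of a subgroup. -/
theorem deg_ge [Fintype 𝔸] (hP : Nat.card 𝔸 = p) {χ : G → ℂ} (hχ : IsCharacter G χ) (d : ℕ) (hd : χ 1 = d)
    (hv : ∀ y : 𝔸, y ≠ 1 → χ y = -1) : p ≤ d + 1 := by
  classical
  have h1 := isCharacter_restrict (P : Subgroup G) hχ
  obtain ⟨n, hn⟩ := classInner_char_char h1 (isCharacter_one (G := 𝔸))
  unfold classInner at hn
  simp only [map_one, mul_one] at hn
  rw [hP] at hn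
  have hp0 : (p : ℂ) ≠ 0 := by exact_mod_cast (Fact.out : p.Prime).ne_zero
  have h2 : ∑ g : 𝔸, χ (g : G) = (n : ℂ) * p := by
    rw [inv_mul_eq_iff_eq_mul₀ hp0] at hn
    rw [hn]
    ring
  have h3 := Finset.add_sum_erase Finset.univ (fun y : 𝔸 => χ y) (Finset.mem_univ (1 : 𝔸))
  simp only [Subgroup.coe_one] at h3
  rw [h2, hd, Finset.sum_congr rfl (fun y hy => hv y (Finset.ne_of_mem_erase hy))] at h3
  simp only [Finset.sum_const, nsmul_eq_mul] at h3
  have hcard : ((Finset.univ.erase (1 : 𝔸)).card : ℂ) = (p : ℂ) - 1 := by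
    rw [Finset.card_erase_of_mem (Finset.mem_univ _), Finset.card_univ, ← Nat.card_eq_fintype_card, hP,
      Nat.cast_sub (Fact.out : p.Prime).one_lt.le]
    simp
  rw [hcard] at h3
  have h4 : ((d + 1 : ℕ) : ℤ) = (n : ℤ) * p + p := by
    have : (((d + 1 : ℕ) : ℤ) : ℂ) = (((n : ℤ) * p + p : ℤ) : ℂ) := by
      push_cast
      linear_combination h3
    exact_mod_cast this
  have h5 : (0 : ℤ) ≤ (n : ℤ) * p := by positivity
  have h6 : (p : ℤ) ≤ ((d + 1 : ℕ) : ℤ) := by rw [h4]; linarith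
  exact_mod_cast h6

open Classical in
/-- The permutation character in terms of the block data. -/
theorem analysis [Fintype 𝔸] [MulAction.IsPretransitive G α] {θ : IrrCharacter G} {Y : Finset (IrrCharacter G)} {ε κ : ℤ}
    (hD : BD P θ Y ε κ) (hP : Nat.card 𝔸 = p) (hα : Nat.card α = p)
    (hf0 : ∀ y : 𝔸, y ≠ 1 → TwoTrans.fix α (y : G) = 0) :
    (ε = 1 ∧ dg θ = 1 ∧ ∀ g : G, ¬ p ∣ orderOf g → (θ : G → ℂ) g = 1 → TwoTrans.fix α g = p) ∨
    (κ = 1 ∧ ε = -1 ∧ dg θ + 1 = p ∧ (∀ η ∈ Y, dg η + 2 = p) ∧ ∀ g : G, (TwoTrans.fix α g : ℂ) = 1 + (θ : G → ℂ) g) := by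
  have hp1 : 1 < p := (Fact.out : p.Prime).one_lt
  have hne : Nonempty α := by
    have : 0 < Nat.card α := by omega
    exact (Nat.card_pos_iff.mp this).1
  obtain ⟨m, hm⟩ := exists_nat_decomp (TwoTrans.isCharacter_fix α (G := G))
  have hm1 := mult_one hne m hm
  have hfix1 : TwoTrans.fix α (1 : G) = p := by
    rw [← hα]
    unfold TwoTrans.fix
    exact Nat.card_congr ((Equiv.subtypeUnivEquiv (fun a => by simp [MulAction.mem_fixedBy])))
  have hval : ∀ g, (TwoTrans.fix α g : ℂ) = (∑ i, m i • (i : G → ℂ)) g := fun g => congrFun hm g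
  set S := ∑ η ∈ Y, m η with hS
  set A := ∑ η ∈ Y, m η * dg η with hA
  set R := ∑ χ ∈ rest θ Y, m χ * dg χ with hR
  set D := dg θ with hDd
  have hE2 : p = 1 + (m θ * D + (A + R)) := by
    have h1 := hval 1
    rw [hfix1, decomp_one m hD.hθ1 hD.h1Y hD.hθY, hm1] at h1
    exact_mod_cast h1
  have hE1 : ((p : ℤ) - 1) * (1 + ε * (m θ : ℤ)) + 2 * κ * (S : ℤ) = 0 := by
    have h1 := decomp_B hD hP m
    have h0 : ∑ y ∈ Finset.univ.erase (1 : 𝔸), (∑ i, m i • (i : G → ℂ)) (y : G) = 0 :=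
      Finset.sum_eq_zero fun y hy => by
        rw [← hval, hf0 y (Finset.ne_of_mem_erase hy)]
        simp
    rw [h0, hm1] at h1
    have : ((((p : ℤ) - 1) * (1 + ε * (m θ : ℤ)) + 2 * κ * (S : ℤ) : ℤ) : ℂ) = 0 := by
      rw [hS]
      push_cast at h1 ⊢
      linear_combination -h1
    exact_mod_cast this
  have hlin1 : ∀ η ∈ Y, κ * (dg η : ℤ) + 1 + ε * (D : ℤ) = 0 := by
    intro η hη
    have h1 := hD.lin η hη 1 (by simp [(Fact.out : p.Prime).one_lt.ne'])
    rw [dg_eq, dg_eq] at h1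
    have : ((κ * (dg η : ℤ) + 1 + ε * (D : ℤ) : ℤ) : ℂ) = 0 := by
      push_cast
      exact h1
    exact_mod_cast this
  have hDpos : 0 < D := dg_pos θ
  have hYpos : ∀ η : IrrCharacter G, 0 < dg η := dg_pos
  obtain ⟨η₀, hη₀⟩ := hD.hYne
  have hSum : ∀ (c : ℕ), (∀ η ∈ Y, dg η = c) → A = S * c := by
    intro c hc
    rw [hA, hS, Finset.sum_mul]
    exact Finset.sum_congr rfl fun η hη => by rw [hc η hη]
  have hmpos : ∀ (χ) , χ ∈ rest θ Y → R = 0 → m χ = 0 := by
    intro χ hχ hR0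
    have h1 := (Finset.sum_eq_zero_iff.1 hR0) χ hχ
    exact (mul_eq_zero.1 h1).resolve_right (hYpos χ).ne'
  have hπ : ∀ g, R = 0 → (TwoTrans.fix α g : ℂ) = 1 + ((m θ : ℂ) * (θ : G → ℂ) g + ∑ η ∈ Y, (m η : ℂ) * (η : G → ℂ) g) := by
    intro g hR0
    rw [hval, decomp_apply, sum_split hD.hθ1 hD.h1Y hD.hθY, hm1]
    have h1 : ∑ χ ∈ rest θ Y, (m χ : ℂ) * (χ : G → ℂ) g = 0 :=
      Finset.sum_eq_zero fun χ hχ => by rw [hmpos χ hχ hR0]; simp
    rw [h1, add_zero]
    simp [irrOne]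
  rcases hD.hε with hε | hε
  · left
    subst hε
    have hκ : κ = -1 := by
      rcases hD.hκ with h | h
      · exfalso
        have := hlin1 η₀ hη₀
        rw [h] at this
        have h2 := hYpos η₀
        omega
      · exact h
    subst hκ
    have hdη : ∀ η ∈ Y, dg η = 1 + D := by
      intro η hη
      have := hlin1 η hη
      omega
    have hA2 := hSum _ hdη
    have h3 : (2 : ℤ) * S = ((p : ℤ) - 1) * (1 + m θ) := by linarith
    have hpZ : (1 : ℤ) < p := by exact_mod_cast hp1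
    have hE2Z : (p : ℤ) = 1 + ((m θ : ℤ) * D + ((S : ℤ) * (1 + D) + R)) := by
      rw [hA2] at hE2
      exact_mod_cast hE2
    have hmθ : m θ = 0 := by
      by_contra h0
      have h1 : (1 : ℤ) ≤ m θ := by
        have : 1 ≤ m θ := Nat.one_le_iff_ne_zero.2 h0
        exact_mod_cast this
      have h2 : (1 : ℤ) ≤ D := by exact_mod_cast hDpos
      have h4 : (0 : ℤ) ≤ R := by positivity
      have h5 : (0 : ℤ) ≤ (m θ : ℤ) * D := by positivity
      have h6 : (2 : ℤ) * ((p : ℤ) - 1) = 2 * ((m θ : ℤ) * D) + ((p : ℤ) - 1) * (1 + m θ) * (1 + D) + 2 * R := by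
        linear_combination 2 * hE2Z + (1 + (D : ℤ)) * h3
      nlinarith
    have hD1 : D = 1 := by
      by_contra h0
      have h2 : (2 : ℤ) ≤ D := by
        have : 2 ≤ D := by omega
        exact_mod_cast this
      have h4 : (0 : ℤ) ≤ R := by positivity
      rw [hmθ] at h3 hE2Z
      have h6 : (2 : ℤ) * ((p : ℤ) - 1) = ((p : ℤ) - 1) * (1 + D) + 2 * R := by
        push_cast at h3 hE2Z
        linear_combination 2 * hE2Z + (1 + (D : ℤ)) * h3
      nlinarith
    have hR0 : R = 0 := by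
      rw [hmθ, hD1] at hE2Z
      rw [hmθ] at h3
      push_cast at hE2Z h3
      have : (R : ℤ) = 0 := by linarith
      exact_mod_cast this
    refine ⟨rfl, hD1, fun g hg hθg => ?_⟩
    have h1 := hπ g hR0
    rw [hmθ] at h1
    have h2 : ∀ η ∈ Y, (η : G → ℂ) g = 2 := by
      intro η hη
      have := hD.lin η hη g hg
      rw [hθg] at this
      push_cast at this
      linear_combination -this
    rw [Finset.sum_congr rfl (fun η hη => by rw [h2 η hη])] at h1
    rw [← Finset.sum_mul] at h1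
    have h3' : ((TwoTrans.fix α g : ℕ) : ℤ) = p := by
      have : (((TwoTrans.fix α g : ℕ) : ℤ) : ℂ) = ((p : ℤ) : ℂ) := by
        have h4 : ((2 * (S : ℤ) : ℤ) : ℂ) = (((p : ℤ) - 1) * (1 + (m θ : ℤ)) : ℤ) := by rw [h3]
        rw [hmθ] at h4
        push_cast at h4 ⊢
        rw [hS] at h4
        push_cast at h4
        rw [h1]
        linear_combination h4
      exact_mod_cast this
    exact_mod_cast h3'
  · right
    subst hε
    have hκ : κ = 1 := by
      rcases hD.hκ with h | h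
      · exact h
      · exfalso
        have := hlin1 η₀ hη₀
        rw [h] at this
        have h2 := hYpos η₀
        omega
    subst hκ
    have hdη : ∀ η ∈ Y, dg η + 1 = D := by
      intro η hη
      have := hlin1 η hη
      omega
    have hmθ : 1 ≤ m θ := by
      by_contra h0
      have h1 : m θ = 0 := by omega
      rw [h1] at hE1
      have hpZ : (1 : ℤ) < p := by exact_mod_cast hp1
      have : (0 : ℤ) ≤ S := by positivity
      push_cast at hE1
      linarith
    have hD1 : p ≤ D + 1 := by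
      refine deg_ge hP (IsIrrCharacter.isCharacter θ.2) D (dg_eq θ) fun y hy => ?_
      rw [hD.vθ y hy]
      simp
    have hD2 : m θ * D ≤ p - 1 := by omega
    have hD3 : D + 1 = p := by
      have : 1 * D ≤ m θ * D := Nat.mul_le_mul_right _ hmθ
      omega
    have hm2 : m θ = 1 := by
      by_contra h0
      have h1 : 2 ≤ m θ := by omega
      have : 2 * D ≤ m θ * D := Nat.mul_le_mul_right _ h1
      omega
    have hAR : A + R = 0 := by
      rw [hm2] at hE2
      omega
    have hR0 : R = 0 := by omega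
    have hS0 : S = 0 := by
      rw [hm2] at hE1
      push_cast at hE1
      have : (S : ℤ) = 0 := by linarith
      exact_mod_cast this
    refine ⟨rfl, rfl, hD3, fun η hη => ?_, fun g => ?_⟩
    · have := hdη η hη
      omega
    · have h1 := hπ g hR0
      rw [hm2] at h1
      have h2 : ∑ η ∈ Y, (m η : ℂ) * (η : G → ℂ) g = 0 := by
        refine Finset.sum_eq_zero fun η hη => ?_
        rw [Finset.sum_eq_zero_iff.1 hS0 η hη]
        simp
      rw [h2] at h1
      simpa using h1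

/-- Moments of `θ` in the second case of `analysis`. -/
theorem moments [Fintype 𝔸] [MulAction.IsPretransitive G α] {θ : IrrCharacter G} {Y : Finset (IrrCharacter G)}
    (hD : BD P θ Y (-1) 1) (hP : Nat.card 𝔸 = p) (hp5 : 5 ≤ p) (hα : Nat.card α = p)
    (hd : dg θ + 1 = p) (hdY : ∀ η ∈ Y, dg η + 2 = p)
    (hπ : ∀ g : G, (TwoTrans.fix α g : ℂ) = 1 + (θ : G → ℂ) g) :
    ∑ g : G, (θ : G → ℂ) g = 0 ∧ ∑ g : G, (θ : G → ℂ) g * (θ : G → ℂ) g = Nat.card G ∧
      ∑ g : G, (θ : G → ℂ) g * (θ : G → ℂ) g * (θ : G → ℂ) g = Nat.card G := by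
  classical
  have hGne : (Nat.card G : ℂ) ≠ 0 := natCard_ne_zero'
  have hconj : ∀ g, conj ((θ : G → ℂ) g) = (θ : G → ℂ) g := by
    intro g
    have h1 : (θ : G → ℂ) g = (TwoTrans.fix α g : ℂ) - 1 := by rw [hπ]; ring
    rw [h1]
    simp
  have hfix1 : TwoTrans.fix α (1 : G) = p := by
    rw [← hα]
    unfold TwoTrans.fix
    exact Nat.card_congr ((Equiv.subtypeUnivEquiv (fun a => by simp [MulAction.mem_fixedBy])))
  have hS1 : ∑ g : G, (θ : G → ℂ) g = 0 := by
    have h1 := classInner_irr_ne θ.2 isIrrCharacter_one (fun h => hD.hθ1 (Subtype.ext h))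
    unfold classInner at h1
    simp only [map_one, mul_one] at h1
    exact (mul_eq_zero.1 h1).resolve_left (inv_ne_zero hGne)
  have hS2 : ∑ g : G, (θ : G → ℂ) g * (θ : G → ℂ) g = Nat.card G := by
    have h1 := classInner_irr_self θ.2
    unfold classInner at h1
    simp only [hconj] at h1
    rwa [inv_mul_eq_iff_eq_mul₀ hGne, mul_one] at h1
  refine ⟨hS1, hS2, ?_⟩
  -- the square
  have hψ : IsCharacter G (fun g => (θ : G → ℂ) g * (θ : G → ℂ) g) :=
    isCharacter_mul (IsIrrCharacter.isCharacter θ.2) (IsIrrCharacter.isCharacter θ.2)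
  obtain ⟨n, hn⟩ := exists_nat_decomp hψ
  have hval : ∀ g, (θ : G → ℂ) g * (θ : G → ℂ) g = (∑ i, n i • (i : G → ℂ)) g := fun g => congrFun hn g
  have hn1 : n (irrOne G) = 1 := by
    have h1 := classInner_nat_decomp n (fun _ => (1 : ℂ)) isIrrCharacter_one
    rw [← hn] at h1
    have h2 : classInner (fun g => (θ : G → ℂ) g * (θ : G → ℂ) g) (fun _ => (1 : ℂ)) = 1 := by
      unfold classInner
      simp only [map_one, mul_one]
      rw [hS2]
      exact inv_mul_cancel₀ hGne
    rw [h2] at h1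
    have h3 : ((n (irrOne G) : ℕ) : ℂ) = 1 := h1.symm
    exact_mod_cast h3
  have hnθ : ((n θ : ℕ) : ℂ) * Nat.card G = ∑ g : G, (θ : G → ℂ) g * (θ : G → ℂ) g * (θ : G → ℂ) g := by
    have h1 := classInner_nat_decomp n (θ : G → ℂ) θ.2
    rw [← hn] at h1
    unfold classInner at h1
    simp only [hconj] at h1
    have h3 : ((n θ : ℕ) : ℂ) = (Nat.card G : ℂ)⁻¹ * ∑ g : G, (θ : G → ℂ) g * (θ : G → ℂ) g * (θ : G → ℂ) g := h1.symm
    rw [h3]
    field_simp
  set S := ∑ η ∈ Y, n η with hS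
  set A := ∑ η ∈ Y, n η * dg η with hA
  set R := ∑ χ ∈ rest θ Y, n χ * dg χ with hR
  have hp1 : 1 < p := (Fact.out : p.Prime).one_lt
  -- the sum over the Sylow subgroup
  have hE1 : 2 * (S : ℤ) = ((p : ℤ) - 1) * (n θ : ℤ) := by
    have h1 := decomp_B hD hP n
    have h0 : ∑ y ∈ Finset.univ.erase (1 : 𝔸), (∑ i, n i • (i : G → ℂ)) (y : G) = (p : ℂ) - 1 := by
      have h2 : ∀ y ∈ Finset.univ.erase (1 : 𝔸), (∑ i, n i • (i : G → ℂ)) (y : G) = 1 := by
        intro y hy
        rw [← hval, hD.vθ y (Finset.ne_of_mem_erase hy)]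
        simp
      rw [Finset.sum_congr rfl h2]
      simp only [Finset.sum_const, nsmul_eq_mul, mul_one]
      rw [Finset.card_erase_of_mem (Finset.mem_univ _), Finset.card_univ, ← Nat.card_eq_fintype_card, hP,
        Nat.cast_sub hp1.le]
      simp
    rw [h0, hn1] at h1
    have : ((2 * (S : ℤ) : ℤ) : ℂ) = ((((p : ℤ) - 1) * (n θ : ℤ) : ℤ) : ℂ) := by
      rw [hS]
      push_cast at h1 ⊢
      linear_combination -h1
    exact_mod_cast this
  have hE2 : (dg θ) * (dg θ) = 1 + (n θ * dg θ + (A + R)) := by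
    have h1 := hval 1
    rw [decomp_one n hD.hθ1 hD.h1Y hD.hθY, hn1, dg_eq] at h1
    exact_mod_cast h1
  have hA2 : A + 2 * S = S * p := by
    rw [hA, hS, Finset.sum_mul, Finset.mul_sum, ← Finset.sum_add_distrib]
    refine Finset.sum_congr rfl fun η hη => ?_
    rw [← hdY η hη]
    ring
  have hc1 : n θ ≤ 1 := by
    by_contra h0
    have h1 : 2 ≤ n θ := by omega
    have hD' : dg θ = p - 1 := by omega
    obtain ⟨q, hq⟩ : ∃ q, p = q + 1 := ⟨p - 1, by omega⟩
    have hZ : (((dg θ : ℤ)) * dg θ = 1 + ((n θ : ℤ) * dg θ + ((A : ℤ) + R))) := by exact_mod_cast hE2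
    have hA2Z : (A : ℤ) + 2 * S = S * p := by exact_mod_cast hA2
    have hdZ : (dg θ : ℤ) = (p : ℤ) - 1 := by
      have : ((dg θ + 1 : ℕ) : ℤ) = p := by rw [hd]
      push_cast at this
      linarith
    have h2 : (2 : ℤ) ≤ n θ := by exact_mod_cast h1
    have hpZ : (5 : ℤ) ≤ p := by exact_mod_cast hp5
    have hR0 : (0 : ℤ) ≤ R := by positivity
    rw [hdZ] at hZ
    -- `2 (p-1)^2 = 2 + 2 c (p-1) + 2 A + 2 R`, `2 A = 2 S p - 4 S = 2 S (p - 2) = c (p-1)(p-2)`
    have h3 : 2 * (A : ℤ) = (n θ : ℤ) * ((p : ℤ) - 1) * ((p : ℤ) - 2) := by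
      have h4 : 2 * (A : ℤ) = 2 * (S : ℤ) * ((p : ℤ) - 2) := by linear_combination 2 * hA2Z
      rw [h4, hE1]
      ring
    have h5 : 2 * (((p : ℤ) - 1) * ((p : ℤ) - 1)) = 2 + 2 * ((n θ : ℤ) * ((p : ℤ) - 1)) +
        (n θ : ℤ) * ((p : ℤ) - 1) * ((p : ℤ) - 2) + 2 * R := by
      linear_combination 2 * hZ + h3
    -- `n θ * (p - 1) * p ≤ 2 p (p - 2)`
    have h6 : (2 : ℤ) * (((p : ℤ) - 1) * (p : ℤ)) ≤ (n θ : ℤ) * (((p : ℤ) - 1) * (p : ℤ)) := by
      apply mul_le_mul_of_nonneg_right h2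
      nlinarith
    nlinarith
  -- positivity of the third moment
  have htr : ∑ g : G, ((TwoTrans.fix α g : ℤ) * ((TwoTrans.fix α g : ℤ) - 1) * ((TwoTrans.fix α g : ℤ) - 2)) =
      (n θ : ℤ) * Nat.card G := by
    have : ((∑ g : G, ((TwoTrans.fix α g : ℤ) * ((TwoTrans.fix α g : ℤ) - 1) * ((TwoTrans.fix α g : ℤ) - 2)) : ℤ) : ℂ) =
        (((n θ : ℤ) * Nat.card G : ℤ) : ℂ) := by
      push_cast
      rw [hnθ]
      have h1 : ∀ g : G, (TwoTrans.fix α g : ℂ) * ((TwoTrans.fix α g : ℂ) - 1) * ((TwoTrans.fix α g : ℂ) - 2) =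
          (θ : G → ℂ) g * (θ : G → ℂ) g * (θ : G → ℂ) g - (θ : G → ℂ) g := by
        intro g
        rw [hπ]
        ring
      simp only [h1]
      rw [Finset.sum_sub_distrib, hS1, sub_zero]
    exact_mod_cast this
  have hnonneg : ∀ f : ℕ, (0 : ℤ) ≤ (f : ℤ) * ((f : ℤ) - 1) * ((f : ℤ) - 2) := by
    intro f
    rcases f with _ | _ | _ | f
    · simp
    · simp
    · simp
    · have : (0 : ℤ) ≤ (f : ℤ) := by positivity
      push_cast
      nlinarith [mul_nonneg this this, mul_nonneg (mul_nonneg this this) this]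
  have hc2 : 1 ≤ n θ := by
    by_contra h0
    have h1 : n θ = 0 := by omega
    rw [h1] at htr
    have h2 := Finset.single_le_sum (f := fun g : G => (TwoTrans.fix α g : ℤ) * ((TwoTrans.fix α g : ℤ) - 1) * ((TwoTrans.fix α g : ℤ) - 2))
      (fun g _ => hnonneg _) (Finset.mem_univ (1 : G))
    rw [htr, hfix1] at h2
    have hpZ : (5 : ℤ) ≤ p := by exact_mod_cast hp5
    have h3 : (0 : ℤ) < (p : ℤ) * ((p : ℤ) - 1) * ((p : ℤ) - 2) := by
      apply mul_pos (mul_pos _ _) <;> linarith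
    rw [Nat.cast_zero, zero_mul] at h2
    linarith
  have hc : n θ = 1 := by omega
  rw [← hnθ, hc]
  simp

/-- Sylow subgroups of prime order are determined by any nonidentity element. -/
theorem sylow_ti (hP : Nat.card 𝔸 = p) (Q Q' : Sylow p G) {g : G} (hg : g ∈ (Q : Subgroup G))
    (hg' : g ∈ (Q' : Subgroup G)) (h1 : g ≠ 1) : Q = Q' := by
  have hc : ∀ Q : Sylow p G, Nat.card (Q : Subgroup G) = p := fun Q =>
    (Nat.card_congr (Q.equiv P).toEquiv).trans hP
  have h2 : ∀ Q : Sylow p G, g ∈ (Q : Subgroup G) → zpowers g = (Q : Subgroup G) := by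
    intro Q hQ
    have h3 : orderOf g ∣ p := by
      rw [← hc Q]
      exact Subgroup.orderOf_dvd_natCard _ hQ
    have h4 : orderOf g = p := by
      rcases (Nat.dvd_prime (Fact.out : p.Prime)).1 h3 with h | h
      · exact absurd (orderOf_eq_one_iff.1 h) h1
      · exact h
    refine Subgroup.eq_of_le_of_card_ge ?_ ?_
    · rwa [Subgroup.zpowers_le]
    · rw [Nat.card_zpowers, h4, hc Q]
  apply Sylow.ext
  rw [← h2 Q hg, h2 Q' hg']

open Classical in
/-- The number of nonidentity elements of the Sylow subgroups. -/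
theorem card_singular (hP : Nat.card 𝔸 = p) (SS : Finset G)
    (hSS : ∀ g, g ∈ SS ↔ ∃ Q : Sylow p G, g ∈ (Q : Subgroup G) ∧ g ≠ 1) :
    SS.card * Nat.card (normalizer ((P : Subgroup G) : Set G)) = (p - 1) * Nat.card G := by
  letI : Fintype (Sylow p G) := Fintype.ofFinite _
  have hc : ∀ Q : Sylow p G, Nat.card (Q : Subgroup G) = p := fun Q =>
    (Nat.card_congr (Q.equiv P).toEquiv).trans hP
  have h1 : SS = (Finset.univ : Finset (Sylow p G)).biUnion
        (fun Q => (Finset.univ.filter fun g : G => g ∈ (Q : Subgroup G)).erase 1) := by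
    ext g
    simp only [hSS, Finset.mem_filter, Finset.mem_univ, true_and, Finset.mem_biUnion, Finset.mem_erase]
    constructor
    · rintro ⟨Q, h1, h2⟩
      exact ⟨Q, h2, h1⟩
    · rintro ⟨Q, h1, h2⟩
      exact ⟨Q, h2, h1⟩
  have h2 : ∀ Q : Sylow p G, ((Finset.univ.filter fun g : G => g ∈ (Q : Subgroup G)).erase 1).card = p - 1 := by
    intro Q
    rw [Finset.card_erase_of_mem (by simp [one_mem]), ← Fintype.card_subtype, ← Nat.card_eq_fintype_card]
    simp only [hc Q]
  rw [h1, Finset.card_biUnion]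
  · simp only [h2, Finset.sum_const, Finset.card_univ, smul_eq_mul]
    have h4 : Nat.card (Sylow p G) = (normalizer ((P : Subgroup G) : Set G)).index := P.card_eq_index_normalizer
    rw [← Nat.card_eq_fintype_card, h4]
    have h3 := (normalizer ((P : Subgroup G) : Set G)).card_mul_index
    rw [← h3]
    ring
  · intro Q _ Q' _ hne
    show Disjoint _ _
    rw [Finset.disjoint_left]
    intro g hg hg'
    simp only [Finset.mem_erase, Finset.mem_filter, Finset.mem_univ, true_and] at hg hg'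
    exact hne (sylow_ti hP Q Q' hg.2 hg'.2 hg.1)

/-- A fixed point count equal to the degree forces the identity. -/
theorem eq_one_of_fix [FaithfulSMul G α] (hα : Nat.card α = p) {g : G} (h : TwoTrans.fix α g = p) : g = 1 := by
  have h1 : (MulAction.fixedBy α g) = Set.univ := by
    apply Set.eq_of_subset_of_ncard_le (Set.subset_univ _)
    rw [Set.ncard_univ, hα, ← h]
    unfold TwoTrans.fix
    rw [Nat.card_coe_set_eq]
  apply eq_of_smul_eq_smul (α := α)
  intro a
  have h2 : a ∈ MulAction.fixedBy α g := by rw [h1]; trivial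
  rw [one_smul]
  exact h2

theorem fix_le (hα : Nat.card α = p) (g : G) : TwoTrans.fix α g ≤ p := by
  unfold TwoTrans.fix
  rw [Nat.card_coe_set_eq, ← hα, ← Set.ncard_univ]
  exact Set.ncard_le_ncard (Set.subset_univ _)

open Classical in
/-- The final count. -/
theorem sharp [FaithfulSMul G α] (hP : Nat.card 𝔸 = p) (hN2 : Nat.card 𝔑 = 2 * p) (hα : Nat.card α = p)
    (hp5 : 5 ≤ p) (hf0 : ∀ Q : Sylow p G, ∀ g ∈ (Q : Subgroup G), g ≠ 1 → TwoTrans.fix α g = 0)
    (θ : G → ℂ) (hπ : ∀ g : G, (TwoTrans.fix α g : ℂ) = 1 + θ g)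
    (hS1 : ∑ g : G, θ g = 0) (hS2 : ∑ g : G, θ g * θ g = Nat.card G)
    (hS3 : ∑ g : G, θ g * θ g * θ g = Nat.card G) :
    (∀ g : G, g ≠ 1 → TwoTrans.fix α g ≤ 2) ∧ Nat.card G = p * (p - 1) * (p - 2) := by
  have hfix1 : TwoTrans.fix α (1 : G) = p := by
    rw [← hα]
    unfold TwoTrans.fix
    exact Nat.card_congr ((Equiv.subtypeUnivEquiv (fun a => by simp [MulAction.mem_fixedBy])))
  have hpZ : (5 : ℤ) ≤ p := by exact_mod_cast hp5
  set f : G → ℤ := fun g => (TwoTrans.fix α g : ℤ) with hf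
  set t : G → ℤ := fun g => (f g - 1) * (f g - 2) * ((p : ℤ) - f g) with ht
  have hG : (0 : ℤ) < Nat.card G := by exact_mod_cast (Nat.card_pos (α := G))
  have hsum : ∑ g : G, t g = ((p : ℤ) - 1) * Nat.card G := by
    have : ((∑ g : G, t g : ℤ) : ℂ) = ((((p : ℤ) - 1) * Nat.card G : ℤ) : ℂ) := by
      have h1 : ∀ g : G, ((t g : ℤ) : ℂ) = (p : ℂ) * (θ g * θ g) - θ g * θ g * θ g - ((p : ℂ) - 1) * θ g := by
        intro g
        simp only [ht, hf]
        push_cast
        rw [hπ]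
        ring
      push_cast
      simp only [h1]
      rw [Finset.sum_sub_distrib, Finset.sum_sub_distrib, ← Finset.mul_sum, ← Finset.mul_sum, hS1, hS2, hS3]
      ring
    exact_mod_cast this
  have hle : ∀ g, f g ≤ p := fun g => by
    simp only [hf]
    exact_mod_cast fix_le hα g
  have hnonneg : ∀ g, 0 ≤ t g := by
    intro g
    have h1 : ∀ n : ℕ, (0 : ℤ) ≤ ((n : ℤ) - 1) * ((n : ℤ) - 2) := by
      intro n
      rcases n with _ | _ | n
      · norm_num
      · norm_num
      · push_cast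
        nlinarith
    exact mul_nonneg (h1 _) (by linarith [hle g])
  set SS := Finset.univ.filter fun g : G => ∃ Q : Sylow p G, g ∈ (Q : Subgroup G) ∧ g ≠ 1 with hSS
  have hval : ∀ g ∈ SS, t g = 2 * p := by
    intro g hg
    obtain ⟨Q, h1, h2⟩ := (Finset.mem_filter.1 hg).2
    simp only [ht, hf]
    rw [hf0 Q g h1 h2]
    push_cast
    ring
  have hcard := card_singular hP SS (fun g => by simp [hSS])
  rw [hN2] at hcard
  have hsum2 : ∑ g ∈ SS, t g = ((p : ℤ) - 1) * Nat.card G := by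
    rw [Finset.sum_congr rfl hval]
    simp only [Finset.sum_const, nsmul_eq_mul]
    have h1 : ((SS.card * (2 * p) : ℕ) : ℤ) = (((p - 1) * Nat.card G : ℕ) : ℤ) := by rw [hcard]
    have h2 : ((p - 1 : ℕ) : ℤ) = (p : ℤ) - 1 := by
      rw [Nat.cast_sub (Fact.out : p.Prime).one_lt.le]
      simp
    rw [Nat.cast_mul, Nat.cast_mul (p - 1), h2] at h1
    push_cast at h1
    exact h1
  have hrest : ∑ g ∈ Finset.univ.filter (fun g : G => ¬ ∃ Q : Sylow p G, g ∈ (Q : Subgroup G) ∧ g ≠ 1), t g = 0 := by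
    have h1 := Finset.sum_filter_add_sum_filter_not (Finset.univ : Finset G)
      (fun g : G => ∃ Q : Sylow p G, g ∈ (Q : Subgroup G) ∧ g ≠ 1) t
    rw [← hSS, hsum2, hsum] at h1
    linarith
  have hzero := (Finset.sum_eq_zero_iff_of_nonneg (fun g _ => hnonneg g)).1 hrest
  have hle2 : ∀ g : G, g ≠ 1 → TwoTrans.fix α g ≤ 2 := by
    intro g hg
    by_cases h1 : ∃ Q : Sylow p G, g ∈ (Q : Subgroup G) ∧ g ≠ 1
    · obtain ⟨Q, h2, h3⟩ := h1
      rw [hf0 Q g h2 h3]
      omega
    · have h2 := hzero g (Finset.mem_filter.2 ⟨Finset.mem_univ _, h1⟩)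
      simp only [ht, hf] at h2
      by_contra h3
      have h4 : TwoTrans.fix α g ≠ p := fun h => hg (eq_one_of_fix hα h)
      have h5 := fix_le hα g
      have h6 : (3 : ℤ) ≤ (TwoTrans.fix α g : ℤ) := by
        have : 3 ≤ TwoTrans.fix α g := by omega
        exact_mod_cast this
      have h7 : (TwoTrans.fix α g : ℤ) < p := by
        have : TwoTrans.fix α g < p := by omega
        exact_mod_cast this
      have h8 : (0 : ℤ) < ((TwoTrans.fix α g : ℤ) - 1) * ((TwoTrans.fix α g : ℤ) - 2) * ((p : ℤ) - (TwoTrans.fix α g : ℤ)) := by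
        apply mul_pos (mul_pos _ _) <;> linarith
      linarith
  refine ⟨hle2, ?_⟩
  have htr : ∑ g : G, (f g * (f g - 1) * (f g - 2)) = Nat.card G := by
    have : ((∑ g : G, (f g * (f g - 1) * (f g - 2)) : ℤ) : ℂ) = ((Nat.card G : ℤ) : ℂ) := by
      have h1 : ∀ g : G, (((f g * (f g - 1) * (f g - 2)) : ℤ) : ℂ) = θ g * θ g * θ g - θ g := by
        intro g
        simp only [hf]
        push_cast
        rw [hπ]
        ring
      rw [Int.cast_sum]
      simp only [h1]
      rw [Finset.sum_sub_distrib, hS1, hS3, sub_zero]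
      simp
    exact_mod_cast this
  rw [Finset.sum_eq_single (1 : G)] at htr
  · simp only [hf] at htr
    rw [hfix1] at htr
    have h1 : 2 ≤ p := by omega
    have h2 : 1 ≤ p := by omega
    have : ((Nat.card G : ℕ) : ℤ) = ((p * (p - 1) * (p - 2) : ℕ) : ℤ) := by
      rw [← htr, Nat.cast_mul, Nat.cast_mul, Nat.cast_sub h1, Nat.cast_sub h2]
      push_cast
      ring
    exact_mod_cast this
  · intro g _ hg
    have h1 := hle2 g hg
    simp only [hf]
    interval_cases h : TwoTrans.fix α g <;> norm_num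
  · intro h
    exact absurd (Finset.mem_univ _) h

/-- A normal subgroup containing a Sylow subgroup, with no nontrivial `p`-regular elements. -/
theorem normal_of_ker (K : Subgroup G) [hK : K.Normal] (hPK : (P : Subgroup G) ≤ K)
    (hreg : ∀ g ∈ K, ¬ p ∣ orderOf g → g = 1) : (P : Subgroup G).Normal := by
  have hp : p.Prime := Fact.out
  have h1 : IsPGroup p K := by
    intro g
    obtain ⟨e, n', h2, h3⟩ := Nat.exists_eq_pow_mul_and_not_dvd (orderOf_pos (g : G)).ne' p hp.ne_one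
    refine ⟨e, ?_⟩
    have h4 : orderOf ((g : G) ^ p ^ e) = n' := by
      rw [orderOf_pow_of_dvd (pow_ne_zero _ hp.ne_zero) (by rw [h3]; exact dvd_mul_right _ _), h3,
        Nat.mul_div_cancel_left _ (pow_pos hp.pos _)]
    have h5 := hreg _ (K.pow_mem g.2 (p ^ e)) (by rwa [h4])
    exact Subtype.ext (by simpa using h5)
  have h2 : K = (P : Subgroup G) := P.is_maximal' h1 hPK
  rw [← h2]
  exact hK

set_option maxHeartbeats 1000000 in
open Classical in
/-- The main dichotomy. -/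
theorem main_abs [FaithfulSMul G α] [MulAction.IsPretransitive G α] (H : Hyp P) {M : Ideal AlgInt} (hM : IsPModular p M)
    [Fintype 𝔸] [Fintype 𝔑] [Fintype (𝔸 →* ℂˣ)]
    (hP : Nat.card 𝔸 = p) (hp5 : 5 ≤ p) (hα : Nat.card α = p) (hN2 : Nat.card 𝔑 = 2 * p)
    (hC : Nat.card (centralizer ((P : Subgroup G) : Set G)) = p)
    (hCy : ∀ y : 𝔸, y ≠ 1 → Nat.card (centralizer ({(y : G)} : Set G)) = p)
    (hf0 : ∀ Q : Sylow p G, ∀ g ∈ (Q : Subgroup G), g ≠ 1 → TwoTrans.fix α g = 0) :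
    (P : Subgroup G).Normal ∨ ((∀ g : G, g ≠ 1 → TwoTrans.fix α g ≤ 2) ∧ Nat.card G = p * (p - 1) * (p - 2)) := by
  obtain ⟨θ, Y, ε, κ, h1, h2, h3, h4, h5, h6, h7, h8, h9, h10, h11⟩ := block_data H hM hP hp5 (hN2.trans (by rw [hC])) hCy
  have hD : BD P θ Y ε κ := ⟨h1, h2, h3, h4, h5, h6, h7, h8, h9, h10, h11⟩
  have hf0' : ∀ y : 𝔸, y ≠ 1 → TwoTrans.fix α (y : G) = 0 := fun y hy =>
    hf0 P y y.2 (fun h => hy (Subtype.ext h))
  rcases analysis (α := α) hD hP hα hf0' with ⟨hε, hd, hker⟩ | ⟨hκ, hε, hd, hdY, hπ⟩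
  · left
    subst hε
    have hθ1 : (θ : G → ℂ) 1 = 1 := by
      rw [dg_eq, hd]
      simp
    have hχ := IsIrrCharacter.isCharacter θ.2
    refine normal_of_ker (charKer hχ) ?_ ?_
    · intro y hy
      rw [mem_charKer, hθ1]
      by_cases hy1 : y = 1
      · rw [hy1, hθ1]
      · rw [hD.vθ ⟨y, hy⟩ (fun h => hy1 (congrArg Subtype.val h))]
        simp
    · intro g hg hreg
      rw [mem_charKer, hθ1] at hg
      exact eq_one_of_fix hα (hker g hreg hg)
  · right
    subst hε
    subst hκ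
    obtain ⟨hS1, hS2, hS3⟩ := moments (α := α) hD hP hp5 hα hd hdY hπ
    exact sharp hP hN2 hα hp5 hf0 _ hπ hS1 hS2 hS3

end Action

end Main

section Wrapper

variable {G : Type u} [Group G] [Fintype G] {p : ℕ} [hp : Fact p.Prime]
variable {α : Type v} [MulAction G α] [Finite α] [FaithfulSMul G α]

/-- An element of order `p` acting faithfully on `p` points has no fixed point. -/
theorem fix_zero_of_order (hα : Nat.card α = p) {g : G} (h : orderOf g = p) : TwoTrans.fix α g = 0 := by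
  have hpp : p.Prime := Fact.out
  have h1 : IsPGroup p (zpowers g) := by
    apply IsPGroup.of_card (n := 1)
    rw [Nat.card_zpowers, h, pow_one]
  have h2 := h1.card_modEq_card_fixedPoints α
  have h3 : Nat.card (MulAction.fixedPoints (zpowers g) α) = TwoTrans.fix α g := by
    unfold TwoTrans.fix
    apply Nat.card_congr
    apply Equiv.setCongr
    ext a
    constructor
    · intro ha
      exact ha ⟨g, mem_zpowers g⟩
    · intro ha z
      obtain ⟨k, hk⟩ := mem_zpowers_iff.1 z.2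
      have h4 : ((g ^ k : G)) • a = a := by
        have h5 : g ∈ MulAction.stabilizer G a := ha
        exact (MulAction.stabilizer G a).zpow_mem h5 k
      show (z : G) • a = a
      rw [← hk]
      exact h4
  rw [h3, hα] at h2
  have h4 : p ∣ TwoTrans.fix α g := by
    have h5 : p ≡ 0 [MOD p] := by simp [Nat.ModEq]
    exact Nat.modEq_zero_iff_dvd.1 (h2.symm.trans h5)
  have h5 : TwoTrans.fix α g ≤ p := fix_le hα g
  rcases Nat.eq_zero_or_pos (TwoTrans.fix α g) with h6 | h6
  · exact h6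
  · have h7 := Nat.le_of_dvd h6 h4
    have h8 : TwoTrans.fix α g = p := le_antisymm h5 h7
    have h9 := eq_one_of_fix hα h8
    rw [h9, orderOf_one] at h
    exact absurd h.symm hpp.ne_one

/-- The orbit of a point under an element of order `p` without fixed points is everything. -/
theorem exists_zpow_smul (hα : Nat.card α = p) {y : G} (hy : orderOf y = p) (a b : α) :
    ∃ k : ℤ, y ^ k • a = b := by
  have hpp : p.Prime := Fact.out
  have h0 := fix_zero_of_order hα hy
  have hnf : y • a ≠ a := by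
    intro h
    have h1 : 0 < Nat.card (MulAction.fixedBy α y) := by
      haveI : Nonempty (MulAction.fixedBy α y) := ⟨⟨a, h⟩⟩
      exact Nat.card_pos
    unfold TwoTrans.fix at h0
    omega
  have h1 := (MulAction.stabilizer (zpowers y) a).card_mul_index
  rw [MulAction.index_stabilizer, Nat.card_zpowers, hy] at h1
  have h2 : (MulAction.orbit (zpowers y) a).ncard ∣ p := ⟨_, by rw [← h1, mul_comm]⟩
  have h3 : (MulAction.orbit (zpowers y) a).ncard = p := by
    rcases (Nat.dvd_prime hpp).1 h2 with h | h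
    · exfalso
      obtain ⟨c, hc⟩ := Set.ncard_eq_one.1 h
      have h4 : a ∈ MulAction.orbit (zpowers y) a := MulAction.mem_orbit_self a
      have h5 : y • a ∈ MulAction.orbit (zpowers y) a := ⟨⟨y, mem_zpowers y⟩, rfl⟩
      rw [hc] at h4 h5
      rw [Set.mem_singleton_iff] at h4 h5
      exact hnf (h5.trans h4.symm)
    · exact h
  have h4 : MulAction.orbit (zpowers y) a = Set.univ := by
    apply Set.eq_of_subset_of_ncard_le (Set.subset_univ _)
    rw [Set.ncard_univ, hα, h3]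
  have h5 : b ∈ MulAction.orbit (zpowers y) a := by rw [h4]; trivial
  obtain ⟨z, hz⟩ := h5
  obtain ⟨k, hk⟩ := mem_zpowers_iff.1 z.2
  refine ⟨k, ?_⟩
  rw [hk]
  exact hz

/-- Transitivity. -/
theorem pretransitive_of_order (hα : Nat.card α = p) {y : G} (hy : orderOf y = p) :
    MulAction.IsPretransitive G α := by
  refine ⟨fun a b => ?_⟩
  obtain ⟨k, hk⟩ := exists_zpow_smul hα hy a b
  exact ⟨_, hk⟩

/-- The centralizer of an element of order `p`. -/
theorem centralizer_eq_zpowers (hα : Nat.card α = p) {y : G} (hy : orderOf y = p) :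
    centralizer ({y} : Set G) = zpowers y := by
  apply le_antisymm
  · intro g hg
    rw [mem_centralizer_singleton_iff] at hg
    have hpp : p.Prime := Fact.out
    have hne : Nonempty α := by
      have : 0 < Nat.card α := by rw [hα]; exact hpp.pos
      exact (Nat.card_pos_iff.mp this).1
    obtain ⟨a⟩ := hne
    obtain ⟨k, hk⟩ := exists_zpow_smul hα hy a (g • a)
    have hcomm : ∀ j : ℤ, g * y ^ j = y ^ j * g := fun j => (Commute.zpow_right hg j)
    have h1 : y ^ (-k) * g = 1 := by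
      apply eq_of_smul_eq_smul (α := α)
      intro b
      obtain ⟨j, rfl⟩ := exists_zpow_smul hα hy a b
      rw [← mul_smul, mul_assoc, hcomm, ← mul_assoc, one_smul, mul_smul, mul_smul, ← hk, ← mul_smul, ← mul_smul,
        ← zpow_add, ← zpow_add]
      congr 2
      ring
    have h2 : g = y ^ k := by
      rw [zpow_neg] at h1
      exact inv_mul_eq_one.1 h1 |>.symm
    rw [h2]
    exact zpow_mem_zpowers _ _
  · rw [zpowers_le, mem_centralizer_singleton_iff]

end Wrapper

end Cfsg.Agent.Lib.NormTwoP
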