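import Mathlib
import Cfsg.Agent.Lib.Sharply2
import Cfsg.Agent.S0695
import Cfsg.Agent.S0696

/-!
Normal subgroups of multiply transitive and multiply primitive groups: induction on the degree of
transitivity via point stabilisers.
-/

set_option autoImplicit false

namespace Cfsg.Agent.Lib.NormalTrans

open MulAction SubMulAction Cfsg.Agent.Lib.Sharply2

set_option linter.unusedSectionVars false

section sharp

variable {X : Type*} [Fintype X] [DecidableEq X] {H' : Subgroup (Equiv.Perm X)}

/-- An involution with a fixed point inverts the regular fixed-point-free subgroup. -/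
lemma involution_inverts (hH : IsSharp2 H') {a : X} {s y : Equiv.Perm X} (hs : s ∈ H') (hsa : s a = a)
    (hs2 : s * s = 1) (hs1 : s ≠ 1) (hy : y ∈ hH.fpfSubgroup) : s * y * s⁻¹ = y⁻¹ := by
  have hsinv : s⁻¹ = s := (eq_inv_of_mul_eq_one_left hs2).symm
  have hconj := hH.conj_mem_fpf hs hy
  set y' := s * y * s⁻¹ with hy'
  let w := y * y'
  have hw : w ∈ hH.fpfSubgroup := mul_mem hy hconj
  have hcomm : s * w = w * s := by
    have h1 : s * y' = y * s := by
      rw [hy', hsinv, ← mul_assoc, ← mul_assoc, hs2, one_mul]
    have h2 : s * y = y' * s := by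
      rw [hy', hsinv, mul_assoc, hs2, mul_one]
    have h3 := hH.commute_of_mem_fpf hy hconj
    simp only [w]
    rw [← mul_assoc, h2, mul_assoc, h1, ← mul_assoc, ← h3]
  have hw1 : w = 1 := by
    rcases hw.2 with h | h
    · exact h
    · exfalso
      have h1 : s (w a) = w a := by
        have := congrArg (fun f : Equiv.Perm X => f a) hcomm
        simpa [hsa] using this
      exact hs1 (hH.sh s hs (h a).symm hsa h1)
  exact (eq_inv_of_mul_eq_one_right hw1)

/-- A sharply two-transitive group has at most one involution fixing a given point. -/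
theorem involution_unique (hH : IsSharp2 H') {a : X} {s t : Equiv.Perm X} (hs : s ∈ H') (ht : t ∈ H')
    (hsa : s a = a) (hta : t a = a) (hs2 : s * s = 1) (ht2 : t * t = 1) (hs1 : s ≠ 1) (ht1 : t ≠ 1) :
    s = t := by
  have hsinv : s⁻¹ = s := (eq_inv_of_mul_eq_one_left hs2).symm
  have htinv : t⁻¹ = t := (eq_inv_of_mul_eq_one_left ht2).symm
  have hst : s * t = 1 := by
    ext b
    obtain ⟨y, hy, hyb⟩ := hH.regular_exists a b
    have h1 := involution_inverts hH ht hta ht2 ht1 hy
    have h2 := involution_inverts hH hs hsa hs2 hs1 (inv_mem hy)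
    have h3 : t * y = y⁻¹ * t := by
      rw [← h1, mul_assoc, inv_mul_cancel, mul_one]
    have h4 : s * y⁻¹ = y * s := by
      have h2' : s * y⁻¹ * s⁻¹ = y := by rw [h2, inv_inv]
      calc s * y⁻¹ = (s * y⁻¹ * s⁻¹) * s := by group
        _ = y * s := by rw [h2']
    have h5 : (s * t) * y = y * (s * t) := by
      rw [mul_assoc, h3, ← mul_assoc, h4, mul_assoc]
    have h6 := congrArg (fun f : Equiv.Perm X => f a) h5
    simp only [Equiv.Perm.mul_apply, hta, hsa, hyb] at h6
    simpa using h6
  rw [eq_inv_of_mul_eq_one_left hst, htinv]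

end sharp

section action

variable {G : Type*} [Group G] {X : Type*} [MulAction G X]

/-- Non-trivial normal subgroups of primitive faithful groups are transitive. -/
theorem pretransitive_of_normal [FaithfulSMul G X] [IsPreprimitive G X] (H : Subgroup G) [H.Normal]
    (hH : H ≠ ⊥) : IsPretransitive H X := by
  apply IsQuasiPreprimitive.isPretransitive_of_normal
  intro hfix
  apply hH
  rw [eq_bot_iff]
  intro g hg
  rw [Subgroup.mem_bot]
  apply FaithfulSMul.eq_of_smul_eq_smul (α := X)
  intro x
  have hx : x ∈ fixedPoints H X := by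
    rw [hfix]; trivial
  rw [one_smul]
  exact hx ⟨g, hg⟩

/-- The stabiliser acts faithfully on the remaining points. -/
theorem faithful_ofStabilizer [FaithfulSMul G X] (a : X) :
    FaithfulSMul (stabilizer G a) (ofStabilizer G a) := by
  refine ⟨fun {g₁ g₂} h => ?_⟩
  apply Subtype.ext
  apply FaithfulSMul.eq_of_smul_eq_smul (α := X)
  intro x
  by_cases hx : x = a
  · subst hx
    have h1 : (g₁ : G) • x = x := g₁.2
    have h2 : (g₂ : G) • x = x := g₂.2
    rw [h1, h2]
  · exact congrArg Subtype.val (h ⟨x, hx⟩)

/-- Passing from the stabiliser in the big group to the subgroup. -/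
theorem transfer (H : Subgroup G) [IsPretransitive H X] (a : X) {k : ℕ}
    (hN : IsMultiplyPretransitive (H.subgroupOf (stabilizer G a)) (ofStabilizer G a) k) :
    IsMultiplyPretransitive H X (k + 1) := by
  rw [ofStabilizer.isMultiplyPretransitive (a := a)]
  let φ : (H.subgroupOf (stabilizer G a)) → stabilizer H a := fun n => ⟨⟨n.1.1, n.2⟩, n.1.2⟩
  let f : ofStabilizer G a →ₑ[φ] ofStabilizer H a :=
    { toFun := fun x => ⟨x.1, x.2⟩
      map_smul' := fun n x => rfl }
  refine IsPretransitive.of_embedding (f := f) ?_
  rintro ⟨x, hx⟩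
  exact ⟨⟨x, hx⟩, rfl⟩

/-- High transitivity forces the full symmetric group. -/
theorem surjective_of_trans [Finite X] {n : ℕ} (hn : Nat.card X - 1 ≤ n) (hn2 : n ≤ Nat.card X)
    (h : IsMultiplyPretransitive G X n) : Function.Surjective (toPermHom G X) := by
  have h2 : IsMultiplyPretransitive G X (Nat.card X - 1) := isMultiplyPretransitive_of_le hn hn2
  have h3 : IsMultiplyPretransitive (toPermHom G X).range X (Nat.card X - 1) := by
    refine ⟨fun x y => ?_⟩
    obtain ⟨g, hg⟩ := h2.exists_smul_eq x y
    refine ⟨⟨toPermHom G X g, ⟨g, rfl⟩⟩, ?_⟩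
    exact hg
  have h4 := Equiv.Perm.eq_top_of_isMultiplyPretransitive h3
  rwa [MonoidHom.range_eq_top] at h4

/-- The stabiliser is not the full symmetric group when the group is not. -/
theorem not_surjective_ofStabilizer [IsPretransitive G X] (a : X)
    (hns : ¬ Function.Surjective (toPermHom G X)) :
    ¬ Function.Surjective (toPermHom (stabilizer G a) (ofStabilizer G a)) := by
  intro hs
  apply hns
  intro π
  obtain ⟨g, hg⟩ := exists_smul_eq G a (π a)
  let ρ : Equiv.Perm X := (toPermHom G X g)⁻¹ * π
  have hρa : ρ a = a := by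
    change g⁻¹ • π a = a
    rw [← hg, inv_smul_smul]
  have hρ : ∀ x, ρ x ∈ ofStabilizer G a ↔ x ∈ ofStabilizer G a := by
    intro x
    rw [mem_ofStabilizer_iff, mem_ofStabilizer_iff]
    exact not_congr ⟨fun h => ρ.injective (h.trans hρa.symm), fun h => by rw [h, hρa]⟩
  obtain ⟨g', hg'⟩ := hs (ρ.subtypePerm hρ)
  refine ⟨g * g', ?_⟩
  ext x
  by_cases hx : x = a
  · subst hx
    change (g * (g' : G)) • x = π x
    have h1 : (g' : G) • x = x := g'.2
    rw [mul_smul, h1, hg]
  · have h1 : (g' : G) • x = ρ x := by
      have := congrArg (fun f : Equiv.Perm (ofStabilizer G a) => ((f ⟨x, hx⟩ : ofStabilizer G a) : X)) hg'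
      exact this
    change (g * (g' : G)) • x = π x
    rw [mul_smul, h1]
    change g • (g⁻¹ • π x) = π x
    rw [smul_inv_smul]

/-- The sharply two-transitive situation: a regular stabiliser of exponent two has at most two
elements. -/
theorem false_of_regular_exponent_two [Finite X] [FaithfulSMul G X] (H : Subgroup G)
    [IsPretransitive H X] (a : X)
    (htr : IsPretransitive (H.subgroupOf (stabilizer G a)) (ofStabilizer G a))
    (hreg : ∀ b : ofStabilizer G a, stabilizer (H.subgroupOf (stabilizer G a)) b = ⊥)
    (hsq : ∀ n ∈ H.subgroupOf (stabilizer G a), n ^ 2 = 1)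
    (hcard : 3 ≤ Nat.card (ofStabilizer G a)) : False := by
  classical
  letI : Fintype X := Fintype.ofFinite X
  set N := H.subgroupOf (stabilizer G a) with hN
  have h2 : IsMultiplyPretransitive H X 2 := by
    have h1 : IsMultiplyPretransitive N (ofStabilizer G a) 1 :=
      is_one_pretransitive_iff.mpr htr
    exact transfer H a h1
  let H' : Subgroup (Equiv.Perm X) := H.map (toPermHom G X)
  have hsharp : IsSharp2 H' := by
    refine ⟨?_, ?_⟩
    · intro u v x y huv hxy
      obtain ⟨g, hg1, hg2⟩ := is_two_pretransitive_iff.mp h2 huv hxy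
      exact ⟨toPermHom G X g, ⟨g, g.2, rfl⟩, hg1, hg2⟩
    · rintro _ ⟨h, hh, rfl⟩ u v huv hu hv
      -- move `u` to `a`
      obtain ⟨⟨g, hgH⟩, hg⟩ := exists_smul_eq H u a
      have hg' : g • u = a := hg
      have hb : g • v ≠ a := by
        rw [← hg']
        intro h1
        exact huv (MulAction.injective g h1).symm
      have hu' : h • u = u := hu
      have hv' : h • v = v := hv
      have hconjH : g * h * g⁻¹ ∈ H := H.mul_mem (H.mul_mem hgH hh) (H.inv_mem hgH)
      have hconja : (g * h * g⁻¹) • a = a := by
        rw [← hg']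
        simp [mul_smul, hu']
      let n : N := ⟨⟨g * h * g⁻¹, hconja⟩, hconjH⟩
      have hnb : n ∈ stabilizer N (⟨g • v, hb⟩ : ofStabilizer G a) := by
        rw [mem_stabilizer_iff]
        apply Subtype.ext
        change (g * h * g⁻¹) • (g • v) = g • v
        simp [mul_smul, hv']
      rw [hreg, Subgroup.mem_bot] at hnb
      have h1 : g * h * g⁻¹ = 1 := congrArg (fun z : N => ((z : stabilizer G a) : G)) hnb
      have h3 : h = 1 := by
        have : h = g⁻¹ * (g * h * g⁻¹) * g := by group
        rw [this, h1]
        simp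
      rw [h3, map_one]
  -- three points
  letI : Fintype (ofStabilizer G a) := Fintype.ofFinite _
  obtain ⟨b₀, b₁, b₂, h01, h02, h12⟩ := Fintype.two_lt_card_iff.mp
    (show 2 < Fintype.card (ofStabilizer G a) by
      rw [← Nat.card_eq_fintype_card]; omega)
  obtain ⟨s, hs⟩ := htr.exists_smul_eq b₀ b₁
  obtain ⟨t, ht⟩ := htr.exists_smul_eq b₀ b₂
  have hsq' : ∀ z : N, toPermHom G X (z : stabilizer G a) * toPermHom G X (z : stabilizer G a) = 1 := by
    intro z
    have h1 := hsq _ z.2
    rw [← map_mul, ← pow_two]
    have h2 : ((z : stabilizer G a) : G) ^ 2 = 1 := congrArg Subtype.val h1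
    rw [h2, map_one]
  have hne1 : ∀ z : N, z • b₀ ≠ b₀ → toPermHom G X ((z : stabilizer G a) : G) ≠ 1 := by
    intro z hz h1
    apply hz
    apply Subtype.ext
    have := congrArg (fun f : Equiv.Perm X => f (b₀ : X)) h1
    exact this
  have heq := involution_unique hsharp (a := a) (s := toPermHom G X ((s : stabilizer G a) : G))
    (t := toPermHom G X ((t : stabilizer G a) : G)) ⟨_, s.2, rfl⟩ ⟨_, t.2, rfl⟩
    ((s : stabilizer G a).2) ((t : stabilizer G a).2) (hsq' s) (hsq' t)
    (hne1 s (by rw [hs]; exact h01.symm)) (hne1 t (by rw [ht]; exact h02.symm))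
  apply h12
  rw [← hs, ← ht]
  apply Subtype.ext
  have := congrArg (fun f : Equiv.Perm X => f (b₀ : X)) heq
  exact this

end action

section main

universe u v

lemma card_coe_aux {Y : Type*} [Finite Y] {n : ℕ} (hn : n ≤ Nat.card Y) : (n : ℕ∞) ≤ ENat.card Y := by
  rw [ENat.card_eq_coe_natCard]
  exact_mod_cast hn

lemma subgroupOf_ne_bot {G : Type*} [Group G] {X : Type*} [MulAction G X] (H : Subgroup G) (a : X)
    (ha : stabilizer H a ≠ ⊥) : H.subgroupOf (stabilizer G a) ≠ ⊥ := by
  obtain ⟨h, hh⟩ := Subgroup.ne_bot_iff_exists_ne_one.mp ha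
  refine Subgroup.ne_bot_iff_exists_ne_one.mpr ⟨⟨⟨((h : stabilizer H a) : H), h.2⟩, (h : stabilizer H a).1.2⟩, ?_⟩
  intro h1
  apply hh
  apply Subtype.ext
  apply Subtype.ext
  exact congrArg (fun z : H.subgroupOf (stabilizer G a) => ((z : stabilizer G a) : G)) h1

/-- Normal subgroups of multiply primitive groups. -/
theorem main_prim (k : ℕ) : ∀ (G : Type u) [Group G] (X : Type v) [Finite X] [MulAction G X]
    [FaithfulSMul G X], k + 1 ≤ Nat.card X → IsMultiplyPreprimitive G X (k + 1) →
    ¬ Function.Surjective (toPermHom G X) → ∀ (H : Subgroup G) [H.Normal], H ≠ ⊥ →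
    (∃ a : X, stabilizer H a ≠ ⊥) → IsMultiplyPretransitive H X (k + 1) := by
  induction k with
  | zero =>
    intro G _ X _ _ _ _ hG _ H _ hH _
    have h1 : IsPreprimitive G X := (is_one_preprimitive_iff G X).mp hG
    exact is_one_pretransitive_iff.mpr (pretransitive_of_normal H hH)
  | succ k ih =>
    intro G _ X _ _ _ hcard hG hns H _ hH hex
    obtain ⟨a, ha⟩ := hex
    have hG1 : IsMultiplyPreprimitive G X 1 :=
      isMultiplyPreprimitive_of_le G X hG (by omega) (card_coe_aux hcard)
    have hprim : IsPreprimitive G X := (is_one_preprimitive_iff G X).mp hG1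
    have htr : IsPretransitive H X := pretransitive_of_normal H hH
    have hGa : IsMultiplyPreprimitive (stabilizer G a) (ofStabilizer G a) (k + 1) :=
      isMultiplyPreprimitive_ofStabilizer G X
    have hfaith := faithful_ofStabilizer (G := G) a
    have hns' := not_surjective_ofStabilizer a hns
    have hcard1 := nat_card_ofStabilizer_add_one_eq G a
    have hcard' : k + 1 ≤ Nat.card (ofStabilizer G a) := by omega
    have hNne := subgroupOf_ne_bot H a ha
    have hGa1 : IsMultiplyPreprimitive (stabilizer G a) (ofStabilizer G a) 1 :=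
      isMultiplyPreprimitive_of_le _ _ hGa (by omega) (card_coe_aux hcard')
    have hprimGa : IsPreprimitive (stabilizer G a) (ofStabilizer G a) := (is_one_preprimitive_iff _ _).mp hGa1
    have htrN : IsPretransitive (H.subgroupOf (stabilizer G a)) (ofStabilizer G a) :=
      pretransitive_of_normal _ hNne
    by_cases hreg : ∃ b : ofStabilizer G a, stabilizer (H.subgroupOf (stabilizer G a)) b ≠ ⊥
    · exact transfer H a (ih (stabilizer G a) (ofStabilizer G a) hcard' hGa hns' _ hNne hreg)
    · push Not at hreg
      by_cases hk : k = 0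
      · subst hk
        exact transfer H a (is_one_pretransitive_iff.mpr htrN)
      · exfalso
        have hGa2 : IsMultiplyPreprimitive (stabilizer G a) (ofStabilizer G a) 2 :=
          isMultiplyPreprimitive_of_le _ _ hGa (by omega) (card_coe_aux hcard')
        letI : Fintype (ofStabilizer G a) := Fintype.ofFinite _
        have hcard2 : 2 ≤ Fintype.card (ofStabilizer G a) := by
          rw [← Nat.card_eq_fintype_card]; omega
        have hsurj2 : Nat.card (ofStabilizer G a) ≤ 3 → False := by
          intro h3
          exact hns' (surjective_of_trans (n := 2) (by omega) (by omega) hGa2.isMultiplyPretransitive)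
        rcases Cfsg.Agent.S0695.result hcard2 hGa2 (H.subgroupOf (stabilizer G a)) htrN hreg with
          hc | ⟨_, hsq, _⟩
        · rw [← Nat.card_eq_fintype_card] at hc
          exact hsurj2 hc.le
        · by_cases h3 : 3 ≤ Nat.card (ofStabilizer G a)
          · exact false_of_regular_exponent_two H a htrN hreg hsq h3
          · exact hsurj2 (by omega)

/-- Jordan's theorem on normal subgroups of multiply transitive groups. -/
theorem main_trans (k : ℕ) : ∀ (G : Type u) [Group G] (X : Type v) [Finite X] [MulAction G X]
    [FaithfulSMul G X], k + 2 < Nat.card X → IsMultiplyPretransitive G X (k + 2) →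
    ∀ (H : Subgroup G) [H.Normal], H ≠ ⊥ →
    IsMultiplyPretransitive H X (k + 1) ∨ (k = 1 ∧ IsMulCommutative H ∧ ∀ n ∈ H, n ^ 2 = 1) := by
  induction k with
  | zero =>
    intro G _ X _ _ _ _ hG H _ hH
    have h1 : IsPreprimitive G X := isPreprimitive_of_is_two_pretransitive hG
    exact Or.inl (is_one_pretransitive_iff.mpr (pretransitive_of_normal H hH))
  | succ k ih =>
    intro G _ X _ _ _ hcard hG H _ hH
    have hG2 : IsMultiplyPretransitive G X 2 := isMultiplyPretransitive_of_le (n := k + 1 + 2) (by omega) (by omega)
    have hprim : IsPreprimitive G X := isPreprimitive_of_is_two_pretransitive hG2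
    have htr : IsPretransitive H X := pretransitive_of_normal H hH
    have hne : Nonempty X := by
      exact (Nat.card_pos_iff.mp (by omega)).1
    obtain ⟨a⟩ := hne
    have hGa : IsMultiplyPretransitive (stabilizer G a) (ofStabilizer G a) (k + 2) :=
      ofStabilizer.isMultiplyPretransitive.mp hG
    have hfaith := faithful_ofStabilizer (G := G) a
    have hcard1 := nat_card_ofStabilizer_add_one_eq G a
    have hcard' : k + 2 < Nat.card (ofStabilizer G a) := by omega
    by_cases hN : stabilizer H a = ⊥
    · -- the regular case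
      have hreg : ∀ x : X, stabilizer H x = ⊥ := by
        intro x
        obtain ⟨g, hg⟩ := htr.exists_smul_eq x a
        rw [eq_bot_iff]
        intro h hh
        rw [Subgroup.mem_bot]
        have h1 : g * h * g⁻¹ ∈ stabilizer H a := by
          rw [mem_stabilizer_iff, ← hg]
          simp [mul_smul]
          exact hh
        rw [hN, Subgroup.mem_bot] at h1
        have : h = g⁻¹ * (g * h * g⁻¹) * g := by group
        rw [this, h1]
        simp
      letI : Fintype X := Fintype.ofFinite _
      have hcardF : Fintype.card X = Nat.card X := (Nat.card_eq_fintype_card).symm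
      have hprim2 : IsMultiplyPreprimitive G X 2 := by
        have h1 : IsMultiplyPreprimitive G X (k + 2) :=
          isMultiplyPreprimitive_of_isMultiplyPretransitive_succ G X (n := k + 2)
            (card_coe_aux hcard.le)
        exact isMultiplyPreprimitive_of_le _ _ h1 (by omega) (card_coe_aux (by omega))
      rcases Cfsg.Agent.S0695.result (by omega) hprim2 H htr hreg with hc | ⟨hcomm, hsq, _⟩
      · omega
      · by_cases hk : k = 0
        · subst hk
          exact Or.inr ⟨rfl, hcomm, hsq⟩
        · exfalso
          have h1 : IsMultiplyPreprimitive G X (k + 2) :=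
            isMultiplyPreprimitive_of_isMultiplyPretransitive_succ G X (n := k + 2)
              (card_coe_aux hcard.le)
          have h3 : IsMultiplyPreprimitive G X 3 :=
            isMultiplyPreprimitive_of_le _ _ h1 (by omega) (card_coe_aux (by omega))
          have := Cfsg.Agent.S0696.result (by omega) h3 H htr hreg
          omega
    · have hNne := subgroupOf_ne_bot H a hN
      rcases ih (stabilizer G a) (ofStabilizer G a) hcard' hGa _ hNne with h1 | ⟨hk, hcomm, hsq⟩
      · exact Or.inl (transfer H a h1)
      · exfalso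
        subst hk
        have hGa2 : IsMultiplyPretransitive (stabilizer G a) (ofStabilizer G a) 2 :=
          isMultiplyPretransitive_of_le (n := 1 + 2) (by omega) (by omega)
        have hprimGa : IsPreprimitive (stabilizer G a) (ofStabilizer G a) :=
          isPreprimitive_of_is_two_pretransitive hGa2
        have htrN : IsPretransitive (H.subgroupOf (stabilizer G a)) (ofStabilizer G a) :=
          pretransitive_of_normal _ hNne
        refine false_of_regular_exponent_two H a htrN ?_ hsq (by omega)
        -- abelian and transitive, hence regular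
        intro b
        rw [eq_bot_iff]
        intro n hn
        rw [Subgroup.mem_bot]
        apply FaithfulSMul.eq_of_smul_eq_smul (α := ofStabilizer G a)
        intro c
        obtain ⟨m, hm⟩ := htrN.exists_smul_eq b c
        rw [one_smul, ← hm, smul_smul, hcomm.is_comm.comm n m, mul_smul]
        congr 1

end main

end Cfsg.Agent.Lib.NormalTrans

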