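import Mathlib
import Cfsg.Agent.Lib.FrobCount
import Cfsg.Agent.Lib.Nse7920

/-!
# A verified search for the numbers of elements of given orders

Given a list `S` of allowed values of `k ↦ #{g : orderOf g = k}`, a depth first search using
the divisibility `φ k ∣ c k`, Frobenius' theorem and the closure of element orders under
divisors determines the order of the group and all the counts.
-/

set_option autoImplicit false

namespace Cfsg.Agent.Lib.NseCheck

open Cfsg.Agent.Lib.FrobCount

/-- Sum of the values in `acc` over the keys dividing `d`. -/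
def sumDiv : List (ℕ × ℕ) → ℕ → ℕ
  | [], _ => 0
  | kv :: t, d => (if d % kv.1 = 0 then kv.2 else 0) + sumDiv t d

/-- The local test for the value `v` at the key `k` with totient `f`. -/
def allowed (acc : List (ℕ × ℕ)) (k f v : ℕ) : Bool :=
  (v % f == 0) && (v == 0 || acc.all (fun kv => k % kv.1 != 0 || kv.2 != 0)) &&
    ((sumDiv acc k + v) % k == 0)

/-- The test at a leaf. -/
def leafOK (S : List ℕ) (N N₀ : ℕ) (T acc : List (ℕ × ℕ)) : Bool :=
  !(S.all (fun m => acc.any (fun kv => kv.2 == m))) ||
  !((List.range (N + 1)).all (fun d => d == 0 || N % d != 0 || sumDiv acc d % d == 0)) ||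
  ((N == N₀) && T.all (fun kv => acc.any (fun e => e.1 == kv.1 && e.2 == kv.2)) &&
    acc.all (fun e => e.2 == 0 || T.any (fun kv => e.1 == kv.1 && e.2 == kv.2)))

/-- The search. -/
def go (S : List ℕ) (N N₀ : ℕ) (T : List (ℕ × ℕ)) : List (ℕ × ℕ) → List (ℕ × ℕ) → ℕ → Bool
  | [], acc, s => s != N || leafOK S N N₀ T acc
  | kf :: ks, acc, s =>
      decide (N < s) ||
        (0 :: S).all (fun v => !allowed acc kf.1 kf.2 v || go S N N₀ T ks ((kf.1, v) :: acc) (s + v))

/-- The top level check. -/
def checkAll (S : List ℕ) (cands : List (ℕ × ℕ)) (Nmax B N₀ : ℕ) (T : List (ℕ × ℕ)) : Bool :=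
  (List.range (Nmax + 1)).all (fun N => N == 0 || B % N != 0 ||
    go S N N₀ T (cands.filter (fun kf => kf.1 != 1 && N % kf.1 == 0)) [(1, 1)] 1)

/-- The sum of the `c k` over the keys dividing `d`. -/
def sumC (c : ℕ → ℕ) : List (ℕ × ℕ) → ℕ → ℕ
  | [], _ => 0
  | kf :: t, d => (if d % kf.1 = 0 then c kf.1 else 0) + sumC c t d

/-- The hypotheses on the count function `c` used by the search. -/
structure Hyp (S : List ℕ) (c F : ℕ → ℕ) (N : ℕ) : Prop where
  val : ∀ k, c k = 0 ∨ c k ∈ S
  tot : ∀ k, Nat.totient k ∣ c k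
  clos : ∀ k d, d ∣ k → c k ≠ 0 → c d ≠ 0
  frob : ∀ d, d ∣ N → d ∣ F d

theorem go_sound {S : List ℕ} {c F : ℕ → ℕ} {N N₀ : ℕ} {T : List (ℕ × ℕ)} (H : Hyp S c F N) :
    ∀ (ks acc : List (ℕ × ℕ)) (s : ℕ),
      (∀ kf ∈ ks, Nat.totient kf.1 = kf.2) →
      (∀ kf ∈ ks, 0 < kf.1) →
      (∀ kf ∈ ks, kf.1 ∣ N) →
      (ks.map Prod.fst).Pairwise (· < ·) →
      (∀ kv ∈ acc, kv.2 = c kv.1) →
      (∀ d, F d = sumDiv acc d + sumC c ks d) →
      N = s + (ks.map (fun kf => c kf.1)).sum →
      (∀ k, c k ≠ 0 → k ∈ acc.map Prod.fst ∨ k ∈ ks.map Prod.fst) →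
      (∀ m ∈ S, ∃ k, c k = m ∧ m ≠ 0) →
      go S N N₀ T ks acc s = true →
      N = N₀ ∧ (∀ kv ∈ T, c kv.1 = kv.2) ∧ (∀ k, c k ≠ 0 → (k, c k) ∈ T) := by
  intro ks
  induction ks with
  | nil =>
    intro acc s _ _ _ _ hacc hF hs hcov hS hgo
    simp only [List.map_nil, List.sum_nil, add_zero] at hs
    simp only [go, bne_iff_ne, ne_eq, Bool.or_eq_true] at hgo
    have hgo' : leafOK S N N₀ T acc = true := by
      rcases hgo with h | h
      · exact absurd hs.symm h
      · exact h
    have hmem : ∀ k, c k ≠ 0 → (k, c k) ∈ acc := by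
      intro k hk
      have h1 := hcov k hk
      simp only [List.map_nil, List.not_mem_nil, or_false, List.mem_map] at h1
      obtain ⟨⟨k', v⟩, hkv, hk'⟩ := h1
      simp only at hk'
      subst hk'
      have := hacc _ hkv
      simp only at this
      rw [← this]
      exact hkv
    have h1 : (S.all (fun m => acc.any (fun kv => kv.2 == m))) = true := by
      rw [List.all_eq_true]
      intro m hm
      obtain ⟨k, hk, hm0⟩ := hS m hm
      have hk0 : c k ≠ 0 := by rw [hk]; exact hm0
      rw [List.any_eq_true]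
      refine ⟨(k, c k), hmem k hk0, ?_⟩
      simp [hk]
    have h2 : ((List.range (N + 1)).all (fun d => d == 0 || N % d != 0 || sumDiv acc d % d == 0)) = true := by
      rw [List.all_eq_true]
      intro d _
      by_cases hd : d = 0
      · simp [hd]
      by_cases hNd : N % d = 0
      · have h3 := H.frob d (Nat.dvd_of_mod_eq_zero hNd)
        rw [hF d] at h3
        simp only [sumC, add_zero] at h3
        have h4 : sumDiv acc d % d = 0 := Nat.mod_eq_zero_of_dvd h3
        simp [h4]
      · simp [hNd]
    unfold leafOK at hgo'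
    rw [h1, h2] at hgo'
    simp only [Bool.not_true, Bool.false_or, Bool.and_eq_true, beq_iff_eq, List.all_eq_true,
      List.any_eq_true, Bool.or_eq_true] at hgo'
    obtain ⟨⟨h3, h4⟩, h5⟩ := hgo'
    refine ⟨h3, ?_, ?_⟩
    · intro kv hkv
      obtain ⟨e, he, he1, he2⟩ := h4 kv hkv
      have := hacc e he
      rw [← he1, ← he2, this]
    · intro k hk
      rcases h5 _ (hmem k hk) with h | ⟨kv, hkv, h6, h7⟩
      · simp only at h
        exact absurd h hk
      · simp only at h6 h7
        have : (k, c k) = kv := Prod.ext h6 h7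
        rw [this]
        exact hkv
  | cons kf ks ih =>
    intro acc s htot hpos hdvd hsort hacc hF hs hcov hS hgo
    simp only [List.map_cons, List.sum_cons] at hs
    simp only [go, Bool.or_eq_true, decide_eq_true_eq] at hgo
    have hgo' := hgo.resolve_left (by omega)
    rw [List.all_eq_true] at hgo'
    have hk0 : 0 < kf.1 := hpos kf (by simp)
    have hkN : kf.1 ∣ N := hdvd kf (by simp)
    have hkf : Nat.totient kf.1 = kf.2 := htot kf (by simp)
    have hv : c kf.1 ∈ (0 :: S) := by
      rcases H.val kf.1 with h | h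
      · rw [h]; simp
      · exact List.mem_cons_of_mem _ h
    have hsorted := hsort
    rw [List.map_cons, List.pairwise_cons] at hsorted
    have hzero : sumC c ks kf.1 = 0 := by
      have : ∀ (l : List (ℕ × ℕ)), (∀ a ∈ l.map Prod.fst, kf.1 < a) → sumC c l kf.1 = 0 := by
        intro l
        induction l with
        | nil => intro _; rfl
        | cons x t iht =>
          intro hlt
          have h1 : kf.1 < x.1 := hlt x.1 (by simp)
          have h2 : ¬ kf.1 % x.1 = 0 := by
            rw [Nat.mod_eq_of_lt h1]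
            exact hk0.ne'
          simp only [sumC, if_neg h2, zero_add]
          exact iht (fun a ha => hlt a (by simp [ha]))
      exact this ks hsorted.1
    have hal : allowed acc kf.1 kf.2 (c kf.1) = true := by
      unfold allowed
      simp only [Bool.and_eq_true, beq_iff_eq, Bool.or_eq_true, List.all_eq_true, bne_iff_ne, ne_eq]
      refine ⟨⟨?_, ?_⟩, ?_⟩
      · rw [← hkf]
        exact Nat.mod_eq_zero_of_dvd (H.tot _)
      · by_cases h0 : c kf.1 = 0
        · exact Or.inl h0
        · right
          intro kv hkv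
          by_cases h1 : kf.1 % kv.1 = 0
          · right
            rw [hacc kv hkv]
            exact H.clos _ _ (Nat.dvd_of_mod_eq_zero h1) h0
          · exact Or.inl h1
      · have h3 := H.frob _ hkN
        rw [hF kf.1] at h3
        simp only [sumC, Nat.mod_self, if_true, hzero, add_zero] at h3
        exact Nat.mod_eq_zero_of_dvd h3
    have h := hgo' _ hv
    rw [hal] at h
    simp only [Bool.not_true, Bool.false_or] at h
    refine ih _ _ (fun x hx => htot x (List.mem_cons_of_mem _ hx))
      (fun x hx => hpos x (List.mem_cons_of_mem _ hx)) (fun x hx => hdvd x (List.mem_cons_of_mem _ hx))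
      hsorted.2 ?_ ?_ ?_ ?_ hS h
    · intro kv hkv
      rcases List.mem_cons.1 hkv with rfl | h1
      · rfl
      · exact hacc kv h1
    · intro d
      rw [hF d]
      simp only [sumC, sumDiv]
      ring
    · rw [hs]
      ring
    · intro k hk
      rcases hcov k hk with h1 | h1
      · left
        simp only [List.map_cons, List.mem_cons]
        exact Or.inr h1
      · simp only [List.map_cons, List.mem_cons] at h1 ⊢
        rcases h1 with h1 | h1
        · exact Or.inl (Or.inl h1)
        · exact Or.inr h1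

section group

variable {G : Type*} [Group G] [Finite G]

/-- The number of elements of order `k`. -/
noncomputable def cnt (G : Type*) [Group G] (k : ℕ) : ℕ := Nat.card {g : G // orderOf g = k}

theorem cnt_ne_zero_iff (k : ℕ) : cnt G k ≠ 0 ↔ ∃ g : G, orderOf g = k := by
  unfold cnt
  rw [Ne, Nat.card_eq_zero]
  constructor
  · intro h
    push Not at h
    obtain ⟨⟨g, hg⟩⟩ := h.1
    exact ⟨g, hg⟩
  · rintro ⟨g, hg⟩ (h | h)
    · exact h.false ⟨g, hg⟩
    · exact h.false

theorem cnt_one : cnt G 1 = 1 := by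
  unfold cnt
  have : Unique {g : G // orderOf g = 1} := ⟨⟨⟨1, orderOf_one⟩⟩, fun ⟨g, hg⟩ =>
    Subtype.ext (orderOf_eq_one_iff.1 hg)⟩
  exact Nat.card_unique

theorem cnt_clos (k d : ℕ) (hd : d ∣ k) (h : cnt G k ≠ 0) : cnt G d ≠ 0 := by
  rw [cnt_ne_zero_iff] at h ⊢
  obtain ⟨g, rfl⟩ := h
  exact ⟨_, orderOf_pow_orderOf_div (orderOf_pos g).ne' hd⟩

/-- The number of solutions of `x ^ d = 1` in terms of the counts. -/
theorem card_pow_eq_sumC (L : List (ℕ × ℕ)) (hnd : (L.map Prod.fst).Nodup)
    (hL : ∀ g : G, orderOf g ∈ L.map Prod.fst) (d : ℕ) :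
    Nat.card {x : G // x ^ d = 1} = sumC (cnt G) L d := by
  classical
  cases nonempty_fintype G
  have key : ∀ (L : List (ℕ × ℕ)), (L.map Prod.fst).Nodup →
      (Finset.univ.filter (fun x : G => x ^ d = 1 ∧ orderOf x ∈ L.map Prod.fst)).card
        = sumC (cnt G) L d := by
    intro L
    induction L with
    | nil => intro _; simp [sumC]
    | cons a t ih =>
      intro hnd
      rw [List.map_cons, List.nodup_cons] at hnd
      have h1 : (Finset.univ.filter (fun x : G => x ^ d = 1 ∧ orderOf x ∈ (a :: t).map Prod.fst))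
          = (Finset.univ.filter (fun x : G => x ^ d = 1 ∧ orderOf x = a.1)) ∪
            (Finset.univ.filter (fun x : G => x ^ d = 1 ∧ orderOf x ∈ t.map Prod.fst)) := by
        ext x
        simp only [List.map_cons, List.mem_cons, Finset.mem_filter, Finset.mem_univ, true_and,
          Finset.mem_union]
        tauto
      rw [h1, Finset.card_union_of_disjoint, ih hnd.2]
      · simp only [sumC]
        congr 1
        by_cases hmod : d % a.1 = 0
        · rw [if_pos hmod]
          unfold cnt
          rw [Nat.card_eq_fintype_card, Fintype.card_subtype]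
          congr 1
          ext x
          simp only [Finset.mem_filter, Finset.mem_univ, true_and, and_iff_right_iff_imp]
          intro hx
          rw [← orderOf_dvd_iff_pow_eq_one, hx]
          exact Nat.dvd_of_mod_eq_zero hmod
        · rw [if_neg hmod, Finset.card_eq_zero, Finset.filter_eq_empty_iff]
          rintro x - ⟨hx, hx2⟩
          apply hmod
          rw [← hx2]
          exact Nat.mod_eq_zero_of_dvd (orderOf_dvd_of_pow_eq_one hx)
      · rw [Finset.disjoint_filter]
        rintro x - ⟨_, hx⟩ ⟨_, hx2⟩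
        rw [hx] at hx2
        exact hnd.1 hx2
  rw [← key L hnd, Nat.card_eq_fintype_card, Fintype.card_subtype]
  congr 1
  ext x
  simp only [Finset.mem_filter, Finset.mem_univ, true_and]
  exact ⟨fun h => ⟨h, hL x⟩, fun h => h.1⟩

/-- `sumC` over all keys is the sum of the counts. -/
theorem sumC_zero (c : ℕ → ℕ) (L : List (ℕ × ℕ)) : sumC c L 0 = (L.map (fun kf => c kf.1)).sum := by
  induction L with
  | nil => rfl
  | cons a t ih =>
    simp only [sumC, Nat.zero_mod, if_true, List.map_cons, List.sum_cons, ih]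

/-- `sumC` commutes with filtering out the zero contributions. -/
theorem sumC_filter (c : ℕ → ℕ) (L : List (ℕ × ℕ)) (p : ℕ × ℕ → Bool)
    (h : ∀ a ∈ L, p a = false → c a.1 = 0) (d : ℕ) : sumC c (L.filter p) d = sumC c L d := by
  induction L with
  | nil => rfl
  | cons a t ih =>
    have iht := ih (fun b hb => h b (List.mem_cons_of_mem _ hb))
    by_cases hp : p a = true
    · simp only [List.filter_cons, hp, if_true, sumC, iht]
    · have hp' : p a = false := by simpa using hp
      have := h a (by simp) hp'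
      simp only [List.filter_cons, hp', Bool.false_eq_true, if_false, sumC, iht, this, ite_self, zero_add]

/-- **The main theorem of the search**. -/
theorem main_check (S : List ℕ) (cands : List (ℕ × ℕ)) (Ps : List ℕ) (M Nmax B N₀ : ℕ) (T : List (ℕ × ℕ))
    (hS : ∀ g : G, cnt G (orderOf g) ∈ S)
    (hS' : ∀ m ∈ S, ∃ g : G, cnt G (orderOf g) = m)
    (hS0 : ∀ m ∈ S, m ≠ 0 ∧ m ≤ M)
    (hcand1 : (1, 1) ∈ cands)
    (htot : ∀ kf ∈ cands, Nat.totient kf.1 = kf.2)
    (hsort : (cands.map Prod.fst).Pairwise (· < ·))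
    (hpos : ∀ kf ∈ cands, 0 < kf.1)
    (hPs : ∀ m ∈ S, ∀ p ∈ List.range (m + 2), p.Prime → (p - 1) ∣ m → p ∣ m + 1 → p ∈ Ps)
    (hclos : ∀ kf ∈ cands, ∀ p ∈ Ps, p * kf.1 ∈ cands.map Prod.fst ∨
      ∀ m ∈ S, ¬ Nat.totient (p * kf.1) ∣ m)
    (hmax : cands.length * M ≤ Nmax)
    (hNmax : Nmax < 2 ^ 20)
    (hB : ∀ p ∈ Ps, ∀ e ∈ List.range 20, p ^ e ≤ Nmax → p ^ e ∣ B)
    (hchk : checkAll S cands Nmax B N₀ T = true) :
    Nat.card G = N₀ ∧ (∀ kv ∈ T, cnt G kv.1 = kv.2) ∧ (∀ k, cnt G k ≠ 0 → (k, cnt G k) ∈ T) := by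
  classical
  set c := cnt G with hc
  set N := Nat.card G with hN
  have hN0 : 0 < N := Nat.card_pos
  -- values
  have hval : ∀ k, c k = 0 ∨ c k ∈ S := by
    intro k
    by_cases h : c k = 0
    · exact Or.inl h
    · obtain ⟨g, rfl⟩ := (cnt_ne_zero_iff k).1 h
      exact Or.inr (hS g)
  -- element orders are primes from `Ps`
  have hprime : ∀ p : ℕ, p.Prime → c p ≠ 0 → p ∈ Ps := by
    intro p hp hcp
    have hm : c p ∈ S := (hval p).resolve_left hcp
    have h1 : (p - 1) ∣ c p := by
      have := totient_dvd_card_orderOf (G := G) p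
      rwa [Nat.totient_prime hp] at this
    obtain ⟨g, hg⟩ := (cnt_ne_zero_iff p).1 hcp
    have hpN : p ∣ N := by
      rw [← hg]
      exact orderOf_dvd_natCard g
    have h2 : p ∣ c p + 1 := Cfsg.Agent.Lib.Nse7920.prime_dvd_succ_count p hp hpN
    have h3 : p ≤ c p + 1 := Nat.le_of_dvd (by omega) h2
    exact hPs _ hm p (List.mem_range.2 (by omega)) hp h1 h2
  -- element orders are candidates
  have hcand : ∀ k, c k ≠ 0 → k ∈ cands.map Prod.fst := by
    intro k
    induction k using Nat.strong_induction_on with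
    | _ k ih =>
      intro hk
      obtain ⟨g, hg⟩ := (cnt_ne_zero_iff k).1 hk
      have hk0 : 0 < k := hg ▸ orderOf_pos g
      by_cases hk1 : k = 1
      · subst hk1
        exact List.mem_map.2 ⟨(1, 1), hcand1, rfl⟩
      · have hp := Nat.minFac_prime hk1
        obtain ⟨k', hk'⟩ := Nat.minFac_dvd k
        have hk'pos : 0 < k' := by
          rcases Nat.eq_zero_or_pos k' with h | h
          · subst h
            omega
          · exact h
        have hlt : k' < k := by
          have := hp.two_le
          nlinarith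
        have h1 : c k' ≠ 0 := cnt_clos k k' ⟨_, by rw [mul_comm]; exact hk'⟩ hk
        have h2 := ih k' hlt h1
        obtain ⟨kf, hkf, hkf2⟩ := List.mem_map.1 h2
        have h3 : c (Nat.minFac k) ≠ 0 := cnt_clos k _ (Nat.minFac_dvd k) hk
        have h4 := hprime _ hp h3
        rcases hclos kf hkf _ h4 with h5 | h5
        · rw [hkf2, ← hk'] at h5
          exact h5
        · exfalso
          rw [hkf2, ← hk'] at h5
          exact h5 _ ((hval k).resolve_left hk) (totient_dvd_card_orderOf (G := G) k)
  have hnd : (cands.map Prod.fst).Nodup := hsort.imp (fun h => h.ne)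
  have hL : ∀ g : G, orderOf g ∈ cands.map Prod.fst := by
    intro g
    exact hcand _ ((cnt_ne_zero_iff _).2 ⟨g, rfl⟩)
  have hF := card_pow_eq_sumC (G := G) cands hnd hL
  -- the total
  have hNsum : N = (cands.map (fun kf => c kf.1)).sum := by
    have h0 := hF 0
    rw [sumC_zero] at h0
    rw [← h0, hN]
    exact Nat.card_congr ⟨fun x => ⟨x, pow_zero x⟩, fun x => x.1, fun _ => rfl, fun _ => rfl⟩
  have hNle : N ≤ Nmax := by
    refine le_trans ?_ hmax
    rw [hNsum]
    have h1 : ∀ x ∈ cands.map (fun kf => c kf.1), x ≤ M := by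
      intro x hx
      obtain ⟨kf, _, rfl⟩ := List.mem_map.1 hx
      rcases hval kf.1 with h | h
      · rw [h]; exact Nat.zero_le _
      · exact (hS0 _ h).2
    have := List.sum_le_card_nsmul _ _ h1
    simpa using this
  have hNB : N ∣ B := by
    rw [Nat.dvd_iff_prime_pow_dvd_dvd]
    intro p e hp hpe
    by_cases he : e = 0
    · subst he
      simp
    · have h1 : p ∣ N := (dvd_pow_self p he).trans hpe
      have h2 : c p ≠ 0 := by
        haveI := Fact.mk hp
        obtain ⟨g, hg⟩ := exists_prime_orderOf_dvd_card' (G := G) p h1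
        exact (cnt_ne_zero_iff p).2 ⟨g, hg⟩
      have h3 := hprime p hp h2
      have h4 : p ^ e ≤ Nmax := (Nat.le_of_dvd hN0 hpe).trans hNle
      have h5 : e < 20 := by
        have h6 : 2 ^ e ≤ p ^ e := Nat.pow_le_pow_left hp.two_le e
        have h7 : 2 ^ e < 2 ^ 20 := by omega
        exact (Nat.pow_lt_pow_iff_right (by norm_num)).1 h7
      exact hB p h3 e (List.mem_range.2 h5) h4
  -- run the check at `N`
  have hN' := List.all_eq_true.1 hchk N (List.mem_range.2 (by omega))
  have hNmod : B % N = 0 := Nat.mod_eq_zero_of_dvd hNB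
  simp only [Bool.or_eq_true, beq_iff_eq, bne_iff_ne, ne_eq, hN0.ne', false_or, hNmod, not_true_eq_false] at hN'
  set ks := cands.filter (fun kf => kf.1 != 1 && N % kf.1 == 0) with hks
  have hdrop : ∀ a ∈ cands, (a.1 != 1 && N % a.1 == 0) = false → a.1 = 1 ∨ c a.1 = 0 := by
    intro a _ h
    simp only [Bool.and_eq_false_iff, bne_eq_false_iff_eq, beq_eq_false_iff_ne] at h
    rcases h with h | h
    · exact Or.inl h
    · right
      by_contra hne
      obtain ⟨g, hg⟩ := (cnt_ne_zero_iff _).1 hne
      apply h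
      rw [← hg]
      exact Nat.mod_eq_zero_of_dvd (orderOf_dvd_natCard g)
  have hone : c 1 = 1 := cnt_one
  -- split `cands` into the key `1` and the rest
  have hsplit : ∀ (L : List (ℕ × ℕ)) , (∀ a ∈ L, (a.1 != 1 && N % a.1 == 0) = false → a.1 = 1 ∨ c a.1 = 0) →
      (L.map Prod.fst).Nodup → ∀ d, sumC c L d =
        (if (1 : ℕ) ∈ L.map Prod.fst then 1 else 0) + sumC c (L.filter (fun kf => kf.1 != 1 && N % kf.1 == 0)) d := by
    intro L
    induction L with
    | nil => intro _ _ d; simp [sumC]
    | cons a t ih =>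
      intro h hnd d
      rw [List.map_cons, List.nodup_cons] at hnd
      have iht := ih (fun b hb => h b (List.mem_cons_of_mem _ hb)) hnd.2 d
      by_cases hp : (a.1 != 1 && N % a.1 == 0) = true
      · have ha1 : a.1 ≠ 1 := by
          simp only [Bool.and_eq_true, bne_iff_ne, ne_eq] at hp
          exact hp.1
        have hmem : (1 : ℕ) ∈ (a :: t).map Prod.fst ↔ (1 : ℕ) ∈ t.map Prod.fst := by
          simp only [List.map_cons, List.mem_cons]
          constructor
          · rintro (h1 | h1)
            · exact absurd h1.symm ha1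
            · exact h1
          · exact Or.inr
        simp only [hmem, List.filter_cons, hp, if_true, sumC, iht]
        ring
      · have hp' : (a.1 != 1 && N % a.1 == 0) = false := by simpa using hp
        rcases h a (by simp) hp' with h1 | h1
        · have h2 : (1 : ℕ) ∉ t.map Prod.fst := by
            rw [← h1]
            exact hnd.1
          have h3 : (1 : ℕ) ∈ (a :: t).map Prod.fst := by simp [h1]
          have hf : List.filter (fun kf : ℕ × ℕ => kf.1 != 1 && N % kf.1 == 0) (a :: t) =
              List.filter (fun kf : ℕ × ℕ => kf.1 != 1 && N % kf.1 == 0) t :=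
            List.filter_cons_of_neg (by simpa using hp')
          rw [if_pos h3, hf]
          simp only [sumC]
          rw [iht, if_neg h2, h1, hone, Nat.mod_one]
          simp
        · have hmem : (1 : ℕ) ∈ (a :: t).map Prod.fst ↔ (1 : ℕ) ∈ t.map Prod.fst := by
            simp only [List.map_cons, List.mem_cons]
            constructor
            · rintro (h2 | h2)
              · rw [← h2] at h1
                rw [hone] at h1
                exact absurd h1 one_ne_zero
              · exact h2
            · exact Or.inr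
          simp only [hmem, List.filter_cons, hp', Bool.false_eq_true, if_false, sumC, iht, h1, ite_self,
            zero_add]
  have h1mem : (1 : ℕ) ∈ cands.map Prod.fst := List.mem_map.2 ⟨(1, 1), hcand1, rfl⟩
  have hFks : ∀ d, Nat.card {x : G // x ^ d = 1} = sumDiv [(1, 1)] d + sumC c ks d := by
    intro d
    rw [hF d, hsplit cands hdrop hnd d, if_pos h1mem]
    simp only [sumDiv, Nat.mod_one, if_true, add_zero]
    rfl
  have hH : Hyp S c (fun d => Nat.card {x : G // x ^ d = 1}) N :=
    { val := hval
      tot := fun k => totient_dvd_card_orderOf (G := G) k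
      clos := fun k d hd h => cnt_clos k d hd h
      frob := fun d hd => frobenius_dvd_card_pow_eq_one G d hd }
  have hsub : ∀ a ∈ ks, a ∈ cands := fun a ha => (List.mem_filter.1 ha).1
  refine go_sound hH ks [(1, 1)] 1 (fun a ha => htot a (hsub a ha)) (fun a ha => hpos a (hsub a ha)) ?_ ?_ ?_ hFks ?_ ?_ ?_ hN'
  · intro a ha
    have := (List.mem_filter.1 ha).2
    simp only [Bool.and_eq_true, beq_iff_eq] at this
    exact Nat.dvd_of_mod_eq_zero this.2
  · have : (ks.map Prod.fst).Sublist (cands.map Prod.fst) :=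
      List.Sublist.map _ List.filter_sublist
    exact List.Pairwise.sublist this hsort
  · intro kv hkv
    simp only [List.mem_singleton] at hkv
    subst hkv
    exact hone.symm
  · -- the sum
    have h0 := hFks 0
    rw [sumC_zero] at h0
    have h1 : Nat.card {x : G // x ^ 0 = 1} = N :=
      Nat.card_congr ⟨fun x => x.1, fun x => ⟨x, pow_zero x⟩, fun _ => rfl, fun _ => rfl⟩
    rw [h1] at h0
    simpa [sumDiv] using h0
  · intro k hk
    by_cases h1 : k = 1
    · left
      simp [h1]
    · right
      have h2 := hcand k hk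
      obtain ⟨kf, hkf, hkf2⟩ := List.mem_map.1 h2
      refine List.mem_map.2 ⟨kf, List.mem_filter.2 ⟨hkf, ?_⟩, hkf2⟩
      simp only [Bool.and_eq_true, bne_iff_ne, ne_eq, beq_iff_eq]
      rw [hkf2]
      refine ⟨h1, ?_⟩
      obtain ⟨g, hg⟩ := (cnt_ne_zero_iff _).1 hk
      rw [← hg]
      exact Nat.mod_eq_zero_of_dvd (orderOf_dvd_natCard g)
  · intro m hm
    obtain ⟨g, hg⟩ := hS' m hm
    exact ⟨_, hg, (hS0 m hm).1⟩

end group

end Cfsg.Agent.Lib.NseCheck
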