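import Mathlib

/-!
# Simple groups of order 175560: the arithmetic of the order formula
-/

set_option autoImplicit false

namespace Cfsg.Agent.Lib.O175.P1

/-! ### The arithmetic -/

/-- The divisors of `21945`. -/
def DL : List ℕ := [1, 3, 5, 7, 11, 15, 19, 21, 33, 35, 55, 57, 77, 95, 105, 133, 165, 209, 231, 285, 385, 399,
  627, 665, 1045, 1155, 1463, 1995, 3135, 4389, 7315, 21945]

/-- The equation of the order formula, tested at one point. -/
def tst (m a b x : ℕ) : Bool :=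
  (21945 * (x - 1) ^ 2 * a ^ 2 * b ^ 2 != 8 * x * (x + 1) * m ^ 3 * (a + b) ^ 2) &&
  ((21945 * (x + 1) ^ 2 * a ^ 2 * b ^ 2 != 8 * x * (x - 1) * m ^ 3 * (a + b) ^ 2) || (m == 1045 && a == 1045))

/-- All divisors `y * z` of `175560`. -/
def chk : Bool :=
  DL.all fun m => DL.all fun a => (m % a != 0) || DL.all fun b => (m % b != 0) ||
    [1, 2, 4, 8].all fun y => DL.all fun z => tst m a b (y * z)

theorem chk_true : chk = true := by decide +kernel

theorem dl_complete : ((List.range 21946).all fun m => (21945 % m != 0) || DL.contains m) = true := by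
  decide +kernel

theorem mem_DL {m : ℕ} (h : m ∣ 21945) : m ∈ DL := by
  have h0 := dl_complete
  rw [List.all_eq_true] at h0
  have hle : m ≤ 21945 := Nat.le_of_dvd (by norm_num) h
  have h1 := h0 m (List.mem_range.2 (by omega))
  have h2 : 21945 % m = 0 := Nat.mod_eq_zero_of_dvd h
  simpa [h2] using h1

theorem tst_spec {m a b x : ℕ} (hm : m ∣ 21945) (ha : a ∣ m) (hb : b ∣ m) (hx : x ∣ 175560) :
    tst m a b x = true := by
  have h0 := chk_true
  unfold chk at h0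
  rw [List.all_eq_true] at h0
  have h1 := h0 m (mem_DL hm)
  rw [List.all_eq_true] at h1
  have ham : a ∣ 21945 := ha.trans hm
  have hbm : b ∣ 21945 := hb.trans hm
  have h2 := h1 a (mem_DL ham)
  have h3 : m % a = 0 := Nat.mod_eq_zero_of_dvd ha
  have h4 : m % b = 0 := Nat.mod_eq_zero_of_dvd hb
  simp only [h3, bne_self_eq_false, Bool.false_or] at h2
  rw [List.all_eq_true] at h2
  have h5 := h2 b (mem_DL hbm)
  simp only [h4, bne_self_eq_false, Bool.false_or] at h5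
  rw [List.all_eq_true] at h5
  have hx' : x ∣ 8 * 21945 := by simpa using hx
  obtain ⟨y, z, hy, hz, rfl⟩ := (Nat.dvd_mul).1 hx'
  have hy' : y ∈ [1, 2, 4, 8] := by
    have hle : y ≤ 8 := Nat.le_of_dvd (by norm_num) hy
    interval_cases y <;> simp_all
  have h6 := h5 y hy'
  rw [List.all_eq_true] at h6
  exact h6 z (mem_DL hz)

theorem num_main {m a b x : ℕ} {δ : ℤ} (hm : m ∣ 21945) (ha : a ∣ m) (hb : b ∣ m) (hx : x ∣ 175560)
    (hδ : δ = 1 ∨ δ = -1)
    (hq : (21945 : ℚ) * ((x : ℚ) - (δ : ℚ)) ^ 2 * (a : ℚ) ^ 2 * (b : ℚ) ^ 2 =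
      8 * (x : ℚ) * ((x : ℚ) + (δ : ℚ)) * (m : ℚ) ^ 3 * ((a : ℚ) + (b : ℚ)) ^ 2) :
    m = 1045 ∧ a = 1045 := by
  have ht := tst_spec hm ha hb hx
  have hx0 : x ≠ 0 := by
    rintro rfl
    norm_num at hx
  obtain ⟨k, rfl⟩ := Nat.exists_eq_succ_of_ne_zero hx0
  simp only [tst, Bool.and_eq_true, Bool.or_eq_true, bne_iff_ne, beq_iff_eq, Nat.succ_eq_add_one,
    Nat.add_sub_cancel] at ht
  rcases hδ with rfl | rfl
  · exfalso
    apply ht.1
    have : (21945 : ℚ) * (k : ℚ) ^ 2 * (a : ℚ) ^ 2 * (b : ℚ) ^ 2 =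
        8 * ((k : ℚ) + 1) * ((k : ℚ) + 1 + 1) * (m : ℚ) ^ 3 * ((a : ℚ) + (b : ℚ)) ^ 2 := by
      push_cast at hq
      have e : (k : ℚ) + 1 - 1 = k := by ring
      rwa [e] at hq
    exact_mod_cast this
  · rcases ht.2 with h | h
    · exfalso
      apply h
      have : (21945 : ℚ) * ((k : ℚ) + 1 + 1) ^ 2 * (a : ℚ) ^ 2 * (b : ℚ) ^ 2 =
          8 * ((k : ℚ) + 1) * (k : ℚ) * (m : ℚ) ^ 3 * ((a : ℚ) + (b : ℚ)) ^ 2 := by
        push_cast at hq
        have e : (k : ℚ) + 1 - (-1) = (k : ℚ) + 1 + 1 := by ring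
        have e2 : (k : ℚ) + 1 + (-1) = k := by ring
        rwa [e, e2] at hq
      exact_mod_cast this
    · exact h

end Cfsg.Agent.Lib.O175.P1
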