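import Mathlib
import Cfsg.Agent.Lib.FrobCount
import Cfsg.Agent.Lib.JZM5b

/-!
# A simple group of order `175560`: the order of the centraliser of an involution
-/

set_option autoImplicit false
set_option linter.unusedVariables false
set_option linter.unusedSectionVars false
set_option linter.style.haveILetI false
set_option maxRecDepth 100000

namespace Cfsg.Agent.Lib.O175

open Subgroup

variable {G : Type*} [Group G] [Finite G]

theorem p4_check : ∀ m ∈ Nat.divisors 21945, (21945 / m + 1) % 8 = 0 →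
    8 * m ∈ ({56, 120, 440, 760, 1848, 3192, 11704, 25080} : Finset ℕ) := by
  decide +kernel

theorem p4_exists_sylow_mem {t : G} (h : t ^ 8 = 1) : ∃ P : Sylow 2 G, t ∈ (P : Subgroup G) := by
  haveI : Fact (Nat.Prime 2) := ⟨Nat.prime_two⟩
  have h1 : orderOf t ∣ 2 ^ 3 := orderOf_dvd_of_pow_eq_one h
  obtain ⟨k, -, hk⟩ := (Nat.dvd_prime_pow Nat.prime_two).1 h1
  have hpg : IsPGroup 2 (zpowers t) := IsPGroup.of_card (n := k) (by rw [Nat.card_zpowers, hk])
  obtain ⟨Q, hQ⟩ := hpg.exists_le_sylow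
  exact ⟨Q, hQ (mem_zpowers t)⟩

/-- P4: the order of the centraliser of an involution. -/
theorem card_cent (hG : Nat.card G = 175560)
    (hE : ∀ P : Sylow 2 G, ∀ x ∈ (P : Subgroup G), x * x = 1)
    (hconj : ∀ a b : G, orderOf a = 2 → orderOf b = 2 → IsConj a b) (t : G) (ht : orderOf t = 2) :
    Nat.card (Subgroup.centralizer ({t} : Set G)) ∈
      ({56, 120, 440, 760, 1848, 3192, 11704, 25080} : Finset ℕ) := by
  classical
  haveI : Fact (Nat.Prime 2) := ⟨Nat.prime_two⟩
  set I : Set G := {g | orderOf g = 2} with hI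
  have hsq : ∀ g : G, g ^ 8 = 1 → g * g = 1 := by
    intro g hg
    obtain ⟨P, hP⟩ := p4_exists_sylow_mem hg
    exact hE P g hP
  have ht2 : t ^ 2 = 1 := by rw [← ht]; exact pow_orderOf_eq_one t
  have h8set : {g : G | g ^ 8 = 1} = insert 1 I := by
    ext g
    constructor
    · intro h
      by_cases h1 : g = 1
      · exact Or.inl h1
      · exact Or.inr (orderOf_eq_prime (by rw [pow_two]; exact hsq g h) h1)
    · rintro (rfl | h)
      · simp
      · have h3 : g ^ 2 = 1 := by
          have h4 := pow_orderOf_eq_one g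
          rwa [show orderOf g = 2 from h] at h4
        change g ^ 8 = 1
        calc g ^ 8 = (g ^ 2) ^ 4 := by rw [← pow_mul]
          _ = 1 := by rw [h3, one_pow]
  have hdvd8 : 8 ∣ Nat.card G := by rw [hG]; norm_num
  have hfrob := Cfsg.Agent.Lib.FrobCount.frobenius_dvd_card_pow_eq_one G 8 hdvd8
  have hcard8 : Nat.card {g : G // g ^ 8 = 1} = Nat.card I + 1 := by
    have h5 : Nat.card {g : G // g ^ 8 = 1} = Nat.card ↥{g : G | g ^ 8 = 1} := rfl
    rw [h5, Nat.card_coe_set_eq, h8set, Set.ncard_insert_of_notMem, ← Nat.card_coe_set_eq]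
    simp [hI]
  rw [hcard8] at hfrob
  have hct := Cfsg.Agent.Lib.JZM5.card_transitive (J := t) (H := (⊤ : Subgroup G)) I
    (fun n _ u hu => by
      have h6 : orderOf (MulAut.conj n u) = orderOf u :=
        orderOf_injective (MulAut.conj n).toMonoidHom (MulAut.conj n).injective u
      rw [MulAut.conj_apply] at h6
      change orderOf (n * u * n⁻¹) = 2
      rw [h6]
      exact hu)
    ht
    (fun u hu => by
      obtain ⟨c, hc⟩ := isConj_iff.1 (hconj t u ht hu)
      exact ⟨c, mem_top c, hc⟩)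
  rw [Subgroup.card_top, top_inf_eq, hG] at hct
  -- the Sylow subgroup
  obtain ⟨P, hP⟩ := p4_exists_sylow_mem (t := t) (by
    calc t ^ 8 = (t ^ 2) ^ 4 := by rw [← pow_mul]
      _ = 1 := by rw [ht2, one_pow])
  have hPC : (P : Subgroup G) ≤ centralizer ({t} : Set G) := by
    intro x hx
    rw [mem_centralizer_singleton_iff]
    have h1 := hE P x hx
    have h2 := hE P t hP
    have h3 := hE P (x * t) (mul_mem hx hP)
    have h4 : x⁻¹ = x := inv_eq_of_mul_eq_one_left h1
    have h5 : t⁻¹ = t := inv_eq_of_mul_eq_one_left h2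
    have h6 := eq_inv_of_mul_eq_one_left h3
    rw [mul_inv_rev, h4, h5] at h6
    exact h6
  have hP8 : 8 ∣ Nat.card (centralizer ({t} : Set G)) := by
    have h1 := P.card_eq_multiplicity
    have h2 : Nat.card P ∣ Nat.card (centralizer ({t} : Set G)) := Subgroup.card_dvd_of_le hPC
    have hn : Nat.card G ≠ 0 := Nat.card_pos.ne'
    have h4 : 3 ≤ (Nat.card G).factorization 2 :=
      (Nat.Prime.pow_dvd_iff_le_factorization Nat.prime_two hn).1 hdvd8
    rw [h1] at h2
    exact (pow_dvd_pow 2 h4).trans h2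
  obtain ⟨m, hm⟩ := hP8
  rw [hm] at hct ⊢
  set i := Nat.card I with hi
  have h21 : i * m = 21945 := by nlinarith
  have hmd : m ∈ Nat.divisors 21945 := Nat.mem_divisors.2 ⟨⟨i, by rw [← h21, mul_comm]⟩, by norm_num⟩
  apply p4_check m hmd
  have hmpos : 0 < m := Nat.pos_of_mem_divisors hmd
  have hquot : 21945 / m = i := by
    rw [← h21]
    exact Nat.mul_div_cancel _ hmpos
  rw [hquot]
  exact Nat.mod_eq_zero_of_dvd hfrob

end Cfsg.Agent.Lib.O175
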