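import Mathlib
import Cfsg.Agent.Lib.SmallGroups2

/-!
# Order 175560: three centralizer orders excluded by Sylow counting
-/

set_option autoImplicit false
set_option linter.unusedVariables false
set_option linter.unusedSectionVars false

namespace Cfsg.Agent.Lib.O175

open Subgroup Cfsg.Agent.Lib.SmallGroups2

variable {G : Type*} [Group G] [Finite G]

/-- Normalizer of a Sylow subgroup of `H` maps into the normalizer of its image. -/
theorem card_norm_dvd_p5 {r : ℕ} [Fact r.Prime] (H : Subgroup G) (S : Sylow r H) (Y : Sylow r G)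
    (hY : (Y : Subgroup G) = (S : Subgroup H).map H.subtype) :
    Nat.card (normalizer ((S : Subgroup H) : Set H)) ∣
      Nat.card (normalizer ((Y : Subgroup G) : Set G)) := by
  let f : normalizer ((S : Subgroup H) : Set H) →* normalizer ((Y : Subgroup G) : Set G) :=
    { toFun := fun x => ⟨((x : H) : G), by
        rw [Subgroup.mem_normalizer_iff, hY]
        intro y
        constructor
        · rintro ⟨a, ha, rfl⟩
          refine ⟨(x : H) * a * (x : H)⁻¹, (Subgroup.mem_normalizer_iff.1 x.2 a).1 ha, ?_⟩
          simp
        · rintro ⟨a, ha, hay⟩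
          refine ⟨(x : H)⁻¹ * a * (x : H), ?_, ?_⟩
          · have h1 := (Subgroup.mem_normalizer_iff.1 x.2 ((x : H)⁻¹ * a * (x : H))).2
            apply h1
            have h2 : (x : H) * ((x : H)⁻¹ * a * (x : H)) * (x : H)⁻¹ = a := by group
            rw [h2]
            exact ha
          · have h3 : (H.subtype a) = ((x : H) : G) * y * ((x : H) : G)⁻¹ := hay
            have h4 : (a : G) = ((x : H) : G) * y * ((x : H) : G)⁻¹ := h3
            show (((x : H)⁻¹ * a * (x : H) : H) : G) = y
            push_cast
            rw [h4]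
            group⟩
      map_one' := rfl
      map_mul' := fun a b => rfl }
  have hf : Function.Injective f := by
    intro a b hab
    have h1 : ((a : H) : G) = ((b : H) : G) := by
      have h0 := congrArg (fun z : normalizer ((Y : Subgroup G) : Set G) => (z : G)) hab
      exact h0
    exact Subtype.ext (Subtype.ext h1)
  exact Subgroup.card_dvd_of_injective f hf

/-- The Sylow count of `G` divides the cofactor of the normalizer in `H`. -/
theorem nr_dvd_p5 {r m c k : ℕ} [Fact r.Prime] (hrG : Nat.card G = r * m) (hrm : ¬ r ∣ m)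
    (H : Subgroup G) (S : Sylow r H) (hS : r ∣ Nat.card (S : Subgroup H))
    (hc : Nat.card (normalizer ((S : Subgroup H) : Set H)) = c) (hc0 : 0 < c)
    (hk : Nat.card G = c * k) : Nat.card (Sylow r G) ∣ k := by
  have hr : r.Prime := Fact.out
  have hrG' : Nat.card G = r ^ 1 * m := by rw [hrG, pow_one]
  -- the image is a Sylow subgroup
  have hcardS : Nat.card ((S : Subgroup H).map H.subtype) = r := by
    have h0 : Nat.card ((S : Subgroup H).map H.subtype) = Nat.card (S : Subgroup H) :=
      Subgroup.card_map_of_injective H.subtype_injective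
    rw [h0]
    have h1 : Nat.card (S : Subgroup H) ∣ Nat.card H := Subgroup.card_subgroup_dvd_card _
    have h2 : Nat.card H ∣ Nat.card G := Subgroup.card_subgroup_dvd_card _
    obtain ⟨j, hj⟩ := IsPGroup.iff_card.1 S.isPGroup'
    have h3 : r ^ j ∣ r ^ 1 * m := by
      rw [← hj, ← hrG']
      exact h1.trans h2
    have h4 : r ^ j ∣ r ^ 1 := (Nat.Coprime.pow_left j
      ((Nat.Prime.coprime_iff_not_dvd hr).2 hrm)).dvd_of_dvd_mul_right h3
    have h5 : j ≤ 1 := (Nat.pow_dvd_pow_iff_le_right hr.one_lt).1 h4
    have h6 : j ≠ 0 := by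
      rintro rfl
      rw [pow_zero] at hj
      rw [hj] at hS
      exact hr.one_lt.ne' (Nat.dvd_one.1 hS)
    have h7 : j = 1 := by omega
    rw [hj, h7, pow_one]
  have hfact : (Nat.card G).factorization r = 1 := by
    rw [hrG, Nat.factorization_mul hr.ne_zero (by
      rintro rfl
      exact hrm (dvd_zero r))]
    simp [hr.factorization_self, Nat.factorization_eq_zero_of_not_dvd hrm]
  let Y : Sylow r G := Sylow.ofCard ((S : Subgroup H).map H.subtype) (by rw [hcardS, hfact, pow_one])
  have hY : (Y : Subgroup G) = (S : Subgroup H).map H.subtype := Sylow.coe_ofCard _ _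
  have h1 := card_norm_dvd_p5 H S Y hY
  rw [hc] at h1
  obtain ⟨d, hd⟩ := h1
  have h2 := card_normalizer_mul_card_sylow Y
  rw [hd, hk, mul_assoc] at h2
  have h3 := Nat.eq_of_mul_eq_mul_left hc0 h2
  exact ⟨d, by rw [← h3, mul_comm]⟩

section main

variable [IsSimpleGroup G]

theorem not_comm_p5 (hG : Nat.card G = 175560) : ¬ IsMulCommutative G := by
  apply not_isMulCommutative_of_not_prime
  rw [hG]
  norm_num

/-- `|C(t)| = 11704` or `25080`: the index is too small. -/
theorem no_small (hG : Nat.card G = 175560) (t : G) (ht : orderOf t = 2)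
    (h : Nat.card (centralizer ({t} : Set G)) = 11704 ∨ Nat.card (centralizer ({t} : Set G)) = 25080) :
    False := by
  have hc := not_comm_p5 hG
  have h1 := Subgroup.card_mul_index (centralizer ({t} : Set G))
  rw [hG] at h1
  have hbad : ∀ n, n < 19 → (centralizer ({t} : Set G)).index = n → 1 < n → False := by
    intro n hn hi h1n
    have h2 := Cfsg.Agent.Lib.SmallGroups.two_mul_card_dvd_factorial_index hc
      (centralizer ({t} : Set G)) (by
        intro htop
        rw [htop, Subgroup.index_top] at hi
        omega)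
    rw [hi, hG] at h2
    have h3 : 19 ∣ n.factorial := dvd_trans (by norm_num) h2
    have h4 := (Nat.Prime.dvd_factorial (by norm_num : Nat.Prime 19)).1 h3
    omega
  rcases h with h | h
  · rw [h] at h1
    exact hbad 15 (by norm_num) (by omega) (by norm_num)
  · rw [h] at h1
    exact hbad 7 (by norm_num) (by omega) (by norm_num)

/-- `|C(t)| = 3192`: `Y₁₉` is normal in `C(t)`. -/
theorem no_3192 (hG : Nat.card G = 175560) (t : G) (ht : orderOf t = 2)
    (h : Nat.card (centralizer ({t} : Set G)) = 3192) : False := by
  haveI : Fact (Nat.Prime 19) := ⟨by norm_num⟩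
  have hc := not_comm_p5 hG
  set H := centralizer ({t} : Set G) with hH
  obtain ⟨S⟩ := (inferInstance : Nonempty (Sylow 19 H))
  have h19 : Nat.card H = 19 ^ 1 * 168 := by rw [h]; norm_num
  have hmem := card_sylow_mem_filter (p := 19) h19 (by norm_num) (by norm_num)
  have hset : (Nat.divisors 168).filter (fun n => n % 19 = 1 % 19) = {1} := by decide +kernel
  rw [hset, Finset.mem_singleton] at hmem
  have hnorm := card_normalizer_mul_card_sylow S
  rw [hmem, mul_one, h] at hnorm
  have hS : 19 ∣ Nat.card (S : Subgroup H) := by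
    rw [sylow_card_of_card_eq h19 (by norm_num) S]
    norm_num
  have hdvd := nr_dvd_p5 (r := 19) (m := 9240) (c := 3192) (k := 55) (by rw [hG]) (by norm_num) H S hS hnorm
    (by norm_num) (by rw [hG])
  have hmemG : Nat.card (Sylow 19 G) ∈ (Nat.divisors 55).filter (fun n => n % 19 = 1 % 19) := by
    rw [Finset.mem_filter, Nat.mem_divisors]
    exact ⟨⟨hdvd, by norm_num⟩, card_sylow_mod⟩
  have hset2 : (Nat.divisors 55).filter (fun n => n % 19 = 1 % 19) = {1} := by decide +kernel
  rw [hset2, Finset.mem_singleton] at hmemG
  exact card_sylow_ne_one hc (p := 19) (by rw [hG]; norm_num) hmemG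

/-- `|C(t)| = 1848`: counting Sylow `11`-subgroups. -/
theorem no_1848 (hG : Nat.card G = 175560) (t : G) (ht : orderOf t = 2)
    (h : Nat.card (centralizer ({t} : Set G)) = 1848) : False := by
  haveI : Fact (Nat.Prime 11) := ⟨by norm_num⟩
  have hc := not_comm_p5 hG
  set H := centralizer ({t} : Set G) with hH
  obtain ⟨S⟩ := (inferInstance : Nonempty (Sylow 11 H))
  have h11 : Nat.card H = 11 ^ 1 * 168 := by rw [h]; norm_num
  have hmem := card_sylow_mem_filter (p := 11) h11 (by norm_num) (by norm_num)
  have hset : (Nat.divisors 168).filter (fun n => n % 11 = 1 % 11) = {1, 12, 56} := by decide +kernel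
  rw [hset] at hmem
  have hnorm := card_normalizer_mul_card_sylow S
  rw [h] at hnorm
  have hS : 11 ∣ Nat.card (S : Subgroup H) := by
    rw [sylow_card_of_card_eq h11 (by norm_num) S]
    norm_num
  have hneq := card_sylow_ne_one hc (p := 11) (by rw [hG]; norm_num)
  have hGm : Nat.card G = 11 * 15960 := by rw [hG]
  simp only [Finset.mem_insert, Finset.mem_singleton] at hmem
  rcases hmem with h1 | h1 | h1
  · -- `H ≤ N(Y)`
    rw [h1, mul_one] at hnorm
    have hdvd := nr_dvd_p5 (r := 11) (m := 15960) (c := 1848) (k := 95) hGm (by norm_num) H S hS hnorm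
      (by norm_num) (by rw [hG])
    have hmemG : Nat.card (Sylow 11 G) ∈ (Nat.divisors 95).filter (fun n => n % 11 = 1 % 11) := by
      rw [Finset.mem_filter, Nat.mem_divisors]
      exact ⟨⟨hdvd, by norm_num⟩, card_sylow_mod⟩
    have hset2 : (Nat.divisors 95).filter (fun n => n % 11 = 1 % 11) = {1} := by decide +kernel
    rw [hset2, Finset.mem_singleton] at hmemG
    exact hneq hmemG
  · -- normalizer of order `154`
    rw [h1] at hnorm
    have h154 : Nat.card (normalizer ((S : Subgroup H) : Set H)) = 154 := by omega
    have hdvd := nr_dvd_p5 (r := 11) (m := 15960) (c := 154) (k := 1140) hGm (by norm_num) H S hS h154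
      (by norm_num) (by rw [hG])
    have hmemG : Nat.card (Sylow 11 G) ∈ (Nat.divisors 1140).filter (fun n => n % 11 = 1 % 11) := by
      rw [Finset.mem_filter, Nat.mem_divisors]
      exact ⟨⟨hdvd, by norm_num⟩, card_sylow_mod⟩
    have hset2 : (Nat.divisors 1140).filter (fun n => n % 11 = 1 % 11) = {1, 12} := by decide +kernel
    rw [hset2] at hmemG
    simp only [Finset.mem_insert, Finset.mem_singleton] at hmemG
    rcases hmemG with h2 | h2
    · exact hneq h2
    · have h3 := two_mul_card_dvd_factorial_card_sylow hc (p := 11) (by rw [hG]; norm_num)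
      rw [h2, hG] at h3
      have h4 : 19 ∣ Nat.factorial 12 := dvd_trans (by norm_num) h3
      have h5 := (Nat.Prime.dvd_factorial (by norm_num : Nat.Prime 19)).1 h4
      omega
  · -- normalizer of order `33`, but it contains `t`
    rw [h1] at hnorm
    have h33 : Nat.card (normalizer ((S : Subgroup H) : Set H)) = 33 := by omega
    have htH : t ∈ H := by
      rw [hH, mem_centralizer_singleton_iff]
    have htN : (⟨t, htH⟩ : H) ∈ normalizer ((S : Subgroup H) : Set H) := by
      rw [Subgroup.mem_normalizer_iff]
      intro y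
      have hy : (⟨t, htH⟩ : H) * y * (⟨t, htH⟩ : H)⁻¹ = y := by
        apply Subtype.ext
        have h2 : (y : G) * t = t * y := by
          have h3 : (y : G) ∈ centralizer ({t} : Set G) := y.2
          rw [mem_centralizer_singleton_iff] at h3
          exact h3
        show t * (y : G) * t⁻¹ = y
        rw [← h2]
        group
      rw [hy]
    have h2 := Subgroup.orderOf_dvd_natCard _ htN
    rw [h33] at h2
    have h3 : orderOf (⟨t, htH⟩ : H) = 2 := by
      rw [Subgroup.orderOf_mk]
      exact ht
    rw [h3] at h2
    omega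

end main

end Cfsg.Agent.Lib.O175
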