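import Mathlib
import Cfsg.Agent.Lib.SmallGroups2

set_option autoImplicit false

/-! # Simple group of order 175560: the centralizer of an involution does not have order 56. -/

namespace Cfsg.Agent.Lib.O175

open Subgroup Cfsg.Agent.Lib.SmallGroups2

variable {G : Type*} [Group G] [Finite G] [IsSimpleGroup G]

theorem p6_card_sylow_seven (hG : Nat.card G = 175560) (hna : ¬ IsMulCommutative G)
    (n : ℕ) (hn : n = Nat.card (Sylow 7 G)) [Fact (Nat.Prime 7)] (hdvd : n ∣ 3135) : n = 57 := by
  have h1 : n % 7 = 1 % 7 := by rw [hn]; exact card_sylow_mod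
  have h2 : 2 * Nat.card G ∣ (Nat.card (Sylow 7 G)).factorial :=
    two_mul_card_dvd_factorial_card_sylow hna (by rw [hG]; norm_num)
  have h3 : 19 ≤ n := by
    rw [hn]
    have h4 : 19 ∣ (Nat.card (Sylow 7 G)).factorial := by
      refine dvd_trans ?_ h2
      rw [hG]; norm_num
    exact (Nat.Prime.dvd_factorial (by norm_num)).1 h4
  have h5 : n ∈ (Nat.divisors 3135).filter (fun n => n % 7 = 1 % 7 ∧ 19 ≤ n) := by
    rw [Finset.mem_filter, Nat.mem_divisors]
    exact ⟨⟨hdvd, by norm_num⟩, h1, h3⟩
  have h6 : (Nat.divisors 3135).filter (fun n => n % 7 = 1 % 7 ∧ 19 ≤ n) = {57} := by decide +kernel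
  rw [h6, Finset.mem_singleton] at h5
  exact h5

theorem no_56 (hG : Nat.card G = 175560)
    (_hE : ∀ P : Sylow 2 G, ∀ x ∈ (P : Subgroup G), x * x = 1)
    (hconj : ∀ a b : G, orderOf a = 2 → orderOf b = 2 → IsConj a b)
    (t : G) (ht : orderOf t = 2)
    (h : Nat.card (centralizer ({t} : Set G)) = 56) : False := by
  classical
  have hna : ¬ IsMulCommutative G := not_isMulCommutative_of_not_prime (by rw [hG]; norm_num)
  haveI f7 : Fact (Nat.Prime 7) := ⟨by norm_num⟩
  haveI f11 : Fact (Nat.Prime 11) := ⟨by norm_num⟩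
  haveI f2 : Fact (Nat.Prime 2) := ⟨by norm_num⟩
  set H := centralizer ({t} : Set G) with hH
  have htcomm : ∀ x : H, (x : G) * t = t * x := by
    intro x
    have h0 : (x : G) ∈ centralizer ({t} : Set G) := x.2
    exact (Subgroup.mem_centralizer_iff.1 h0 t rfl).symm
  have htH : t ∈ H := by
    rw [hH, Subgroup.mem_centralizer_iff]
    intro y hy
    rw [Set.mem_singleton_iff.1 hy]
  obtain ⟨S⟩ : Nonempty (Sylow 7 H) := inferInstance
  have h56 : Nat.card H = 7 ^ 1 * 8 := by rw [h]; norm_num
  -- `S` is normal in `H`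
  have hn7 : Nat.card (Sylow 7 H) = 1 := by
    have h1 := card_sylow_mem_filter h56 (by norm_num) (by norm_num)
    have h2 : (Nat.divisors 8).filter (fun n => n % 7 = 1 % 7) = {1, 8} := by decide +kernel
    rw [h2] at h1
    simp only [Finset.mem_insert, Finset.mem_singleton] at h1
    rcases h1 with h1 | h1
    · exact h1
    · exfalso
      have h3 := card_normalizer_mul_card_sylow S
      rw [h1, h56] at h3
      have h4 : Nat.card (normalizer ((S : Subgroup H) : Set H)) = 7 := by omega
      let τ : H := ⟨t, htH⟩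
      have hτ : τ ∈ normalizer ((S : Subgroup H) : Set H) := by
        rw [Subgroup.mem_normalizer_iff]
        intro x
        have : τ * x * τ⁻¹ = x := by
          apply Subtype.ext
          show t * (x : G) * t⁻¹ = x
          rw [← htcomm x]
          group
        rw [this]
      have h5 : orderOf τ = 2 := by
        rw [← Subgroup.orderOf_coe τ]
        exact ht
      have h6 : orderOf (⟨τ, hτ⟩ : normalizer ((S : Subgroup H) : Set H)) = 2 := by
        rw [← Subgroup.orderOf_coe]
        exact h5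
      have h7 := orderOf_dvd_natCard (⟨τ, hτ⟩ : normalizer ((S : Subgroup H) : Set H))
      rw [h6, h4] at h7
      norm_num at h7
  have hSn : (S : Subgroup H).Normal := by
    haveI := (Nat.card_eq_one_iff_unique.1 hn7).1
    exact Sylow.normal_of_subsingleton S
  -- `F`
  set F : Subgroup G := (S : Subgroup H).map H.subtype with hF
  have hF7 : Nat.card F = 7 := by
    rw [hF, Subgroup.card_map_of_injective H.subtype_injective, sylow_card_of_card_eq h56 (by norm_num) S, pow_one]
  have hFp : IsPGroup 7 F := IsPGroup.of_card (n := 1) (by rw [hF7, pow_one])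
  obtain ⟨P, hFP⟩ := hFp.exists_le_sylow
  have hG7 : Nat.card G = 7 ^ 1 * 25080 := by rw [hG]; norm_num
  have hG7' : Nat.card G = 7 * 25080 := by rw [hG]
  have hP7 : Nat.card (P : Subgroup G) = 7 := by
    rw [sylow_card_of_card_eq hG7 (by norm_num) P, pow_one]
  have hFeq : F = (P : Subgroup G) := Subgroup.eq_of_le_of_card_ge hFP (by rw [hP7, hF7])
  have hHN : H ≤ normalizer ((P : Subgroup G) : Set G) := by
    intro g hg
    rw [Subgroup.mem_normalizer_iff]
    rw [← hFeq]
    have key : ∀ (u : H) (x : G), x ∈ F → (u : G) * x * (u : G)⁻¹ ∈ F := by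
      intro u x hx
      obtain ⟨s, hs, rfl⟩ := hx
      refine ⟨u * s * u⁻¹, hSn.conj_mem s hs u, ?_⟩
      simp
    intro x
    constructor
    · exact key ⟨g, hg⟩ x
    · intro hx
      have := key ⟨g, hg⟩⁻¹ _ hx
      simpa [mul_assoc] using this
  -- numbers
  have hNm := card_normalizer_mul_card_sylow P
  rw [hG] at hNm
  obtain ⟨k, hk⟩ := Subgroup.card_dvd_of_le hHN
  rw [h] at hk
  have hd : Nat.card (Sylow 7 G) ∣ 3135 := by
    refine ⟨k, ?_⟩
    rw [hk] at hNm
    nlinarith
  have hn57 : Nat.card (Sylow 7 G) = 57 := p6_card_sylow_seven hG hna _ rfl hd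
  have hN3080 : Nat.card (normalizer ((P : Subgroup G) : Set G)) = 3080 := by
    rw [hn57] at hNm
    omega
  obtain ⟨s, hs1, hs6, hsN, hsr⟩ := exists_relIndex_of_card_eq hna hG7' (by norm_num) P
  have hs2 : s = 2 := by
    rw [hN3080] at hsN
    have h6 : s ≤ 6 := Nat.le_of_dvd (by norm_num) hs6
    interval_cases s <;> first | rfl | (exfalso; revert hs6; norm_num; done) | (exfalso; revert hsN; norm_num; done)
  -- the centralizer
  set C := centralizer ((P : Subgroup G) : Set G) with hC
  have hCN : C ≤ normalizer ((P : Subgroup G) : Set G) := by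
    intro g hg
    rw [Subgroup.mem_normalizer_iff]
    intro x
    constructor
    · intro hx
      have h1 := (Subgroup.mem_centralizer_iff.1 hg) x hx
      have : g * x * g⁻¹ = x := by rw [← h1]; group
      rw [this]; exact hx
    · intro hx
      have h1 := (Subgroup.mem_centralizer_iff.1 hg) _ hx
      have h2 : g * x * g⁻¹ * g = g * (g * x * g⁻¹) := h1
      have h3 : g * x = g * (g * x * g⁻¹) := by simpa using h2
      have h4 : x = g * x * g⁻¹ := mul_left_cancel h3
      rw [h4]; exact hx
  have hCidx : C.index = 114 := by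
    have h1 := Subgroup.relIndex_mul_index hCN
    have h2 := Subgroup.card_mul_index (normalizer ((P : Subgroup G) : Set G))
    rw [hN3080, hG] at h2
    have h3 : (normalizer ((P : Subgroup G) : Set G)).index = 57 := by omega
    rw [hsr, hs2, h3] at h1
    omega
  have hC1540 : Nat.card C = 11 ^ 1 * 140 := by
    have h1 := Subgroup.card_mul_index C
    rw [hCidx, hG] at h1
    omega
  -- Sylow 11 of `C`
  obtain ⟨Y⟩ : Nonempty (Sylow 11 C) := inferInstance
  have hY11 : Nat.card (Y : Subgroup C) = 11 := by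
    rw [sylow_card_of_card_eq hC1540 (by norm_num) Y, pow_one]
  have hn11 : Nat.card (Sylow 11 C) = 1 := by
    have h1 := card_sylow_mem_filter hC1540 (by norm_num) (by norm_num)
    have h2 : (Nat.divisors 140).filter (fun n => n % 11 = 1 % 11) = {1} := by decide +kernel
    rw [h2, Finset.mem_singleton] at h1
    exact h1
  have hYn : (Y : Subgroup C).Normal := by
    haveI := (Nat.card_eq_one_iff_unique.1 hn11).1
    exact Sylow.normal_of_subsingleton Y
  set Z := centralizer (((Y : Subgroup C)) : Set C) with hZ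
  have hZidx : Z.index ∣ 10 := by
    have h1 := relIndex_dvd_of_prime_card Y hY11
    have h2 : normalizer (((Y : Subgroup C)) : Set C) = ⊤ := Subgroup.normalizer_eq_top_iff.2 hYn
    rw [h2, Subgroup.relIndex_top_right] at h1
    exact h1
  have hZeven : 2 ∣ Nat.card Z := by
    have h1 := Subgroup.card_mul_index Z
    rw [hC1540] at h1
    obtain ⟨c, hc⟩ := hZidx
    have h3 : Z.index ≤ 10 := Nat.le_of_dvd (by norm_num) ⟨c, hc⟩
    have h0 : Z.index ≠ 0 := Subgroup.index_ne_zero_of_finite
    have hcases : Z.index = 1 ∨ Z.index = 2 ∨ Z.index = 5 ∨ Z.index = 10 := by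
      have h4 : Z.index ∈ Nat.divisors 10 := by
        rw [Nat.mem_divisors]; exact ⟨⟨c, hc⟩, by norm_num⟩
      have h5 : Nat.divisors 10 = {1, 2, 5, 10} := by decide +kernel
      rw [h5] at h4
      simpa using h4
    rcases hcases with h4 | h4 | h4 | h4 <;> rw [h4] at h1 <;> omega
  obtain ⟨a, ha⟩ := exists_prime_orderOf_dvd_card' 2 hZeven
  obtain ⟨y, hy⟩ := exists_prime_orderOf_dvd_card' 11 (by rw [hY11] : 11 ∣ Nat.card (Y : Subgroup C))
  have haG : orderOf ((a : C) : G) = 2 := by
    rw [Subgroup.orderOf_coe, Subgroup.orderOf_coe]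
    exact ha
  have hyG : orderOf (((y : C)) : G) = 11 := by
    rw [Subgroup.orderOf_coe, Subgroup.orderOf_coe]
    exact hy
  have hcomm : ((y : C) : G) * ((a : C) : G) = ((a : C) : G) * ((y : C) : G) := by
    have h1 := (Subgroup.mem_centralizer_iff.1 a.2) (y : C) y.2
    exact congrArg Subtype.val h1
  obtain ⟨c, hc⟩ := isConj_iff.1 (hconj _ t haG ht)
  have hy' : c * ((y : C) : G) * c⁻¹ ∈ H := by
    rw [hH, Subgroup.mem_centralizer_iff]
    intro w hw
    rw [Set.mem_singleton_iff.1 hw, ← hc]
    calc c * ((a : C) : G) * c⁻¹ * (c * ((y : C) : G) * c⁻¹)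
        = c * (((a : C) : G) * ((y : C) : G)) * c⁻¹ := by group
      _ = c * (((y : C) : G) * ((a : C) : G)) * c⁻¹ := by rw [hcomm]
      _ = c * ((y : C) : G) * c⁻¹ * (c * ((a : C) : G) * c⁻¹) := by group
  have hord : orderOf (c * ((y : C) : G) * c⁻¹) = 11 := by
    have h1 : c * ((y : C) : G) * c⁻¹ = MulAut.conj c ((y : C) : G) := by simp [MulAut.conj_apply]
    rw [h1, MulEquiv.orderOf_eq]
    exact hyG
  have h7 := Subgroup.orderOf_dvd_natCard H hy'
  rw [hord, h] at h7
  norm_num at h7

end Cfsg.Agent.Lib.O175
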