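import Mathlib
import Cfsg.Agent.Lib.SmallGroups2

/-!
# A simple group of order `175560`: no involution centraliser of order `440` or `760`
-/

set_option autoImplicit false
set_option linter.unusedVariables false
set_option linter.unusedSectionVars false
set_option linter.style.longLine false
set_option linter.style.haveILetI false
set_option maxRecDepth 100000

namespace Cfsg.Agent.Lib.O175

open Subgroup
open Cfsg.Agent.Lib.SmallGroups2

section basic

variable {G : Type*} [Group G] [Finite G]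

theorem p7_card_map (H : Subgroup G) (S : Subgroup H) : Nat.card (S.map H.subtype) = Nat.card S :=
  Nat.card_congr (S.equivMapOfInjective _ H.subtype_injective).toEquiv.symm

theorem p7_sylow_of_card {r a m : ℕ} [Fact r.Prime] (h : Nat.card G = r ^ a * m) (hm : ¬ r ∣ m)
    (Y : Subgroup G) (hY : Nat.card Y = r ^ a) : ∃ P : Sylow r G, (P : Subgroup G) = Y := by
  have hpg : IsPGroup r Y := IsPGroup.of_card hY
  obtain ⟨P, hP⟩ := hpg.exists_le_sylow
  refine ⟨P, (Subgroup.eq_of_le_of_card_ge hP ?_).symm⟩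
  rw [sylow_card_of_card_eq h hm P, hY]

theorem p7_card_sylow_mul_dvd {r : ℕ} [Fact r.Prime] (P : Sylow r G) (L : Subgroup G)
    (hL : L ≤ normalizer ((P : Subgroup G) : Set G)) :
    Nat.card (Sylow r G) * Nat.card L ∣ Nat.card G := by
  have h1 := card_normalizer_mul_card_sylow P
  have h2 : Nat.card L ∣ Nat.card (normalizer ((P : Subgroup G) : Set G)) :=
    Subgroup.card_dvd_of_le hL
  rw [← h1, mul_comm]
  exact Nat.mul_dvd_mul_right h2 _

theorem p7_mem_of_index_three (H N : Subgroup G) (hHN : H ≤ N) (hidx : Nat.card N = 3 * Nat.card H)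
    {z : G} (hz : z ∈ N) (hz5 : z ^ 5 = 1) : z ∈ H := by
  have hc : Nat.card (H.subgroupOf N) = Nat.card H :=
    Nat.card_congr (subgroupOfEquivOfLe hHN).toEquiv
  have h3 := Subgroup.card_mul_index (H.subgroupOf N)
  have hpos : 0 < Nat.card H := Nat.card_pos
  have hi : (H.subgroupOf N).index = 3 := by
    rw [hc, hidx] at h3
    have : Nat.card H * (H.subgroupOf N).index = Nat.card H * 3 := by rw [h3]; ring
    exact Nat.eq_of_mul_eq_mul_left hpos this
  have hq : Nat.card (N ⧸ H.subgroupOf N) = 3 := hi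
  let z' : N := ⟨z, hz⟩
  let σ : Equiv.Perm (N ⧸ H.subgroupOf N) := MulAction.toPermHom N (N ⧸ H.subgroupOf N) z'
  have h6 : σ ^ 6 = 1 := by
    haveI : Finite (N ⧸ H.subgroupOf N) := inferInstance
    have h := pow_card_eq_one' (x := σ)
    rwa [Nat.card_perm, hq, show Nat.factorial 3 = 6 by decide] at h
  have h5 : σ ^ 5 = 1 := by
    have hz5' : z' ^ 5 = 1 := Subtype.ext (by simpa [z'] using hz5)
    have : σ ^ 5 = MulAction.toPermHom N (N ⧸ H.subgroupOf N) (z' ^ 5) := by
      simp [σ, map_pow]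
    rw [this, hz5', map_one]
  have h1 : σ = 1 := by
    have : σ = σ ^ 6 * (σ ^ 5)⁻¹ := by
      rw [pow_succ σ 5]; group
    rw [this, h6, h5]; simp
  have h2 : σ ((1 : N) : N ⧸ H.subgroupOf N) = ((1 : N) : N ⧸ H.subgroupOf N) := by
    rw [h1]; rfl
  have h3' : z' • ((1 : N) : N ⧸ H.subgroupOf N) = ((1 : N) : N ⧸ H.subgroupOf N) := h2
  have h4 : ((z' * 1 : N) : N ⧸ H.subgroupOf N) = ((1 : N) : N ⧸ H.subgroupOf N) := h3'
  rw [mul_one, QuotientGroup.eq] at h4
  have h7 : z'⁻¹ ∈ H.subgroupOf N := by simpa using h4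
  have h8 : z' ∈ H.subgroupOf N := by simpa using (H.subgroupOf N).inv_mem h7
  exact Subgroup.mem_subgroupOf.1 h8

theorem p7_mem_of_unique' {p : ℕ} [Fact p.Prime] (S : Sylow p G)
    (hn : Nat.card (Sylow p G) = 1) {x : G} (hxp : x ^ p = 1) : x ∈ (S : Subgroup G) := by
  have hp : p.Prime := Fact.out
  have h1 : orderOf x ∣ p ^ 1 := by rw [pow_one]; exact orderOf_dvd_of_pow_eq_one hxp
  obtain ⟨k, -, hk⟩ := (Nat.dvd_prime_pow hp).1 h1
  have hpg : IsPGroup p (zpowers x) := IsPGroup.of_card (n := k) (by rw [Nat.card_zpowers, hk])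
  obtain ⟨Q, hQ⟩ := hpg.exists_le_sylow
  haveI hs : Subsingleton (Sylow p G) := (Nat.card_eq_one_iff_unique.1 hn).1
  have hQS : Q = S := Subsingleton.elim _ _
  rw [hQS] at hQ
  exact hQ (mem_zpowers x)

theorem p7_mem_of_unique {p : ℕ} [Fact p.Prime] (H : Subgroup G) (S : Sylow p H)
    (hn : Nat.card (Sylow p H) = 1) {x : G} (hx : x ∈ H) (hxp : x ^ p = 1) :
    x ∈ (S : Subgroup H).map H.subtype := by
  let x' : H := ⟨x, hx⟩
  have hx' : x' ^ p = 1 := Subtype.ext (by simpa [x'] using hxp)
  exact ⟨x', p7_mem_of_unique' S hn hx', rfl⟩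

theorem p7_le_normalizer_of (Y N : Subgroup G) (h : ∀ g ∈ N, ∀ y ∈ Y, g * y * g⁻¹ ∈ Y) :
    N ≤ normalizer (Y : Set G) := by
  intro g hg
  rw [mem_normalizer_iff]
  intro y
  constructor
  · exact h g hg y
  · intro hy
    have := h g⁻¹ (N.inv_mem hg) _ hy
    simpa [mul_assoc] using this

theorem p7_exists_ne {p : ℕ} (hp : p.Prime) (Y : Subgroup G) (hY : Nat.card Y = p) : ∃ u ∈ Y, u ≠ 1 := by
  by_contra hcon
  push Not at hcon
  have : Y = ⊥ := (Subgroup.eq_bot_iff_forall Y).2 hcon
  rw [this, Subgroup.card_bot] at hY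
  exact hp.one_lt.ne hY

theorem p7_mem_centralizer_of_coprime (S : Subgroup G) [IsCyclic S] {y : G}
    (hy : y ∈ normalizer (S : Set G)) (hc : (orderOf y).Coprime (Nat.totient (Nat.card S))) :
    y ∈ centralizer (S : Set G) := by
  let φ := S.normalizerMonoidHom
  let y' : normalizer (S : Set G) := ⟨y, hy⟩
  have hy1 : y' ^ orderOf y = 1 := Subtype.ext (by simp [y', pow_orderOf_eq_one])
  have h1 : (φ y') ^ orderOf y = 1 := by rw [← map_pow, hy1, map_one]
  have h2 : (φ y') ^ Nat.card (MulAut S) = 1 := pow_card_eq_one'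
  rw [IsCyclic.card_mulAut] at h2
  have h3 : orderOf (φ y') = 1 :=
    Nat.eq_one_of_dvd_coprimes hc (orderOf_dvd_of_pow_eq_one h1) (orderOf_dvd_of_pow_eq_one h2)
  have h4 : φ y' = 1 := orderOf_eq_one_iff.1 h3
  have h5 : y' ∈ φ.ker := h4
  rw [show φ = S.normalizerMonoidHom from rfl, normalizerMonoidHom_ker] at h5
  exact Subgroup.mem_subgroupOf.1 h5

end basic

section core

variable {K : Type*} [Group K] [Finite K]

theorem p7_conj_swap {y a z : K} (ha : a * y * a⁻¹ ∈ zpowers y) (hz : z * y * z⁻¹ ∈ zpowers y) :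
    (a * z) * y * (a * z)⁻¹ = (z * a) * y * (z * a)⁻¹ := by
  obtain ⟨l, hl⟩ := ha
  obtain ⟨u, hu⟩ := hz
  have hl' : y ^ l = a * y * a⁻¹ := hl
  have hu' : y ^ u = z * y * z⁻¹ := hu
  have L : (a * z) * y * (a * z)⁻¹ = a * (z * y * z⁻¹) * a⁻¹ := by group
  have R : (z * a) * y * (z * a)⁻¹ = z * (a * y * a⁻¹) * z⁻¹ := by group
  rw [L, R, ← hu', ← hl', ← conj_zpow, ← conj_zpow, ← hl', ← hu', ← zpow_mul, ← zpow_mul, mul_comm]

theorem p7_comm_of_invert {y a z : K} (hz5 : z ^ 5 = 1) (haa : a * a = 1) (hinv : a * z * a⁻¹ = z⁻¹)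
    (ha : a * y * a⁻¹ ∈ zpowers y) (hz : z * y * z⁻¹ ∈ zpowers y) : z * y = y * z := by
  have hsw := p7_conj_swap ha hz
  have hainv : a⁻¹ = a := inv_eq_of_mul_eq_one_left haa
  set w := a * y * a⁻¹ with hw
  have haz : a * z = z⁻¹ * a := by
    calc a * z = (a * z * a⁻¹) * a := by group
      _ = z⁻¹ * a := by rw [hinv]
  have h1 : (a * z) * y * (a * z)⁻¹ = z⁻¹ * w * z := by
    rw [haz, hw]; group
  have h2 : (z * a) * y * (z * a)⁻¹ = z * w * z⁻¹ := by
    rw [hw]; group
  rw [h1, h2] at hsw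
  have hc2 : Commute (z ^ 2) w := by
    show z ^ 2 * w = w * z ^ 2
    have : z * (z⁻¹ * w * z) * z = z * (z * w * z⁻¹) * z := by rw [hsw]
    simp only [pow_two]
    calc z * z * w = z * (z * w * z⁻¹) * z := by group
      _ = z * (z⁻¹ * w * z) * z := this.symm
      _ = w * (z * z) := by group
  have hc6 : Commute ((z ^ 2) ^ 3) w := hc2.pow_left 3
  have hz6 : (z ^ 2) ^ 3 = z := by
    rw [← pow_mul, show 2 * 3 = 5 + 1 by norm_num, pow_succ, hz5, one_mul]
  rw [hz6] at hc6
  have hyw : a * w * a⁻¹ = y := by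
    rw [hw, hainv]
    calc a * (a * y * a) * a = (a * a) * y * (a * a) := by group
      _ = y := by rw [haa]; group
  have h3 : (a * z * a⁻¹) * (a * w * a⁻¹) = (a * w * a⁻¹) * (a * z * a⁻¹) := by
    have : z * w = w * z := hc6
    calc (a * z * a⁻¹) * (a * w * a⁻¹) = a * (z * w) * a⁻¹ := by group
      _ = a * (w * z) * a⁻¹ := by rw [this]
      _ = (a * w * a⁻¹) * (a * z * a⁻¹) := by group
  rw [hinv, hyw] at h3
  have h4 : Commute z⁻¹ y := h3
  exact (Commute.inv_left_iff.1 h4)

theorem p7_mod5 : ∀ m, m < 5 → m * m ≡ 1 [MOD 5] → m = 1 ∨ m = 4 := by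
  intro m hm h
  interval_cases m <;> simp_all [Nat.ModEq]

theorem p7_core440 (hK : Nat.card K = 440) (hE : ∀ S : Sylow 2 K, ∀ x ∈ (S : Subgroup K), x * x = 1)
    (h5 : Nat.card (Sylow 5 K) = 11) :
    ∃ z : K, orderOf z = 5 ∧ ∃ R : Sylow 2 K, ∀ a ∈ (R : Subgroup K), a * z = z * a := by
  classical
  haveI : Fact (Nat.Prime 2) := ⟨by norm_num⟩
  haveI : Fact (Nat.Prime 5) := ⟨by norm_num⟩
  haveI : Fact (Nat.Prime 11) := ⟨by norm_num⟩
  have h11 : Nat.card (Sylow 11 K) = 1 := by
    have h := card_sylow_mem_filter (G := K) (p := 11) (a := 1) (m := 40) (by rw [hK]; norm_num) (by norm_num) (by norm_num)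
    have he : (Nat.divisors 40).filter (fun n => n % 11 = 1 % 11) = {1} := by decide +kernel
    rw [he, Finset.mem_singleton] at h
    exact h
  obtain ⟨S11⟩ : Nonempty (Sylow 11 K) := inferInstance
  obtain ⟨S5⟩ : Nonempty (Sylow 5 K) := inferInstance
  have hc11 : Nat.card (S11 : Subgroup K) = 11 := by
    simpa using sylow_card_of_card_eq (G := K) (p := 11) (a := 1) (m := 40) (by rw [hK]; norm_num) (by norm_num) S11
  have hc5 : Nat.card (S5 : Subgroup K) = 5 := by
    simpa using sylow_card_of_card_eq (G := K) (p := 5) (a := 1) (m := 88) (by rw [hK]; norm_num) (by norm_num) S5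
  obtain ⟨y, hyS, hy1⟩ := p7_exists_ne (by norm_num : Nat.Prime 11) _ hc11
  obtain ⟨z, hzS, hz1⟩ := p7_exists_ne (by norm_num : Nat.Prime 5) _ hc5
  have hyo : orderOf y = 11 := orderOf_eq_of_mem_of_ne_one (by norm_num) hc11 hyS hy1
  have hzo : orderOf z = 5 := orderOf_eq_of_mem_of_ne_one (by norm_num) hc5 hzS hz1
  have hzS5 : zpowers z = (S5 : Subgroup K) := zpowers_eq_of_mem_of_ne_one (by norm_num) hc5 hzS hz1
  have hyS11 : zpowers y = (S11 : Subgroup K) := zpowers_eq_of_mem_of_ne_one (by norm_num) hc11 hyS hy1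
  have hy11 : y ^ 11 = 1 := by rw [← hyo]; exact pow_orderOf_eq_one y
  have hz5 : z ^ 5 = 1 := by rw [← hzo]; exact pow_orderOf_eq_one z
  have hyconj : ∀ g : K, g * y * g⁻¹ ∈ zpowers y := by
    intro g
    rw [hyS11]
    refine p7_mem_of_unique' S11 h11 ?_
    rw [conj_pow, hy11]; group
  -- the normalizer of the Sylow 5-subgroup
  set NK := normalizer ((S5 : Subgroup K) : Set K) with hNK
  have hcN : Nat.card NK = 40 := by
    have h : Nat.card NK * Nat.card (Sylow 5 K) = Nat.card K := card_normalizer_mul_card_sylow S5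
    rw [h5, hK] at h
    omega
  have hnc : z * y ≠ y * z := by
    intro hcomm
    have hyN : y ∈ NK := by
      refine p7_le_normalizer_of (S5 : Subgroup K) (zpowers y) (fun g hg u hu => ?_) (mem_zpowers y)
      obtain ⟨j, rfl⟩ := hg
      rw [← hzS5] at hu ⊢
      obtain ⟨i, rfl⟩ := hu
      have hcom : Commute (y ^ j) (z ^ i) := ((Commute.symm hcomm).zpow_zpow j i)
      have hh : y ^ j * z ^ i * (y ^ j)⁻¹ = z ^ i := by
        show (fun k : ℤ => y ^ k) j * (fun k : ℤ => z ^ k) i * ((fun k : ℤ => y ^ k) j)⁻¹ = _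
        simp only
        rw [hcom.eq]; group
      show (fun k : ℤ => y ^ k) j * (fun k : ℤ => z ^ k) i * ((fun k : ℤ => y ^ k) j)⁻¹ ∈ zpowers z
      simp only
      rw [hh]
      exact zpow_mem (mem_zpowers z) i
    have hd := Subgroup.orderOf_dvd_natCard NK hyN
    rw [hyo, hcN] at hd
    omega
  -- a Sylow 2-subgroup inside the normalizer
  obtain ⟨R0⟩ : Nonempty (Sylow 2 NK) := inferInstance
  have hcR0 : Nat.card (R0 : Subgroup NK) = 2 ^ 3 :=
    sylow_card_of_card_eq (G := NK) (p := 2) (a := 3) (m := 5) (by rw [hcN]; norm_num) (by norm_num) R0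
  obtain ⟨R, hR⟩ := p7_sylow_of_card (G := K) (r := 2) (a := 3) (m := 55) (by rw [hK]; norm_num) (by norm_num)
    ((R0 : Subgroup NK).map NK.subtype) (by rw [p7_card_map, hcR0])
  refine ⟨z, hzo, R, fun a ha => ?_⟩
  have haa : a * a = 1 := hE R a ha
  have haN : a ∈ NK := by
    rw [hR] at ha
    obtain ⟨b, -, rfl⟩ := ha
    exact b.2
  have hainv : a⁻¹ = a := inv_eq_of_mul_eq_one_left haa
  have hzc : a * z * a⁻¹ ∈ zpowers z := by
    rw [hzS5]
    exact (mem_normalizer_iff.1 haN z).1 hzS
  obtain ⟨n, hn⟩ := mem_powers_iff_mem_zpowers.2 hzc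
  have hn' : z ^ n = a * z * a⁻¹ := hn
  have hm : z ^ (n % 5) = a * z * a⁻¹ := by
    rw [← hn', ← hzo, pow_mod_orderOf]
  have hlt : n % 5 < 5 := Nat.mod_lt _ (by norm_num)
  set m := n % 5 with hmdef
  have hmm : z ^ (m * m) = z ^ 1 := by
    have h1 : a * (z ^ m) * a⁻¹ = z := by
      rw [hm, hainv]
      calc a * (a * z * a) * a = (a * a) * z * (a * a) := by group
        _ = z := by rw [haa]; group
    have h2 : a * (z ^ m) * a⁻¹ = (a * z * a⁻¹) ^ m := conj_pow.symm
    rw [h2, ← hm, ← pow_mul] at h1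
    rw [pow_one]; exact h1
  have hmod := pow_eq_pow_iff_modEq.1 hmm
  rw [hzo] at hmod
  have hcases := p7_mod5 m hlt hmod
  rcases hcases with h1 | h4
  · rw [h1, pow_one] at hm
    calc a * z = (a * z * a⁻¹) * a := by group
      _ = z * a := by rw [← hm]
  · exfalso
    rw [h4] at hm
    have hinv : a * z * a⁻¹ = z⁻¹ := by
      rw [← hm]
      exact eq_inv_of_mul_eq_one_left (by rw [← pow_succ, hz5])
    exact hnc (p7_comm_of_invert hz5 haa hinv (hyconj a) (hyconj z))

theorem p7_core760 (hK : Nat.card K = 760) (τ : K) (hτ : orderOf τ = 2) (hτc : ∀ x : K, x * τ = τ * x) :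
    Nat.card (Sylow 19 K) = 1 ∧ Nat.card (Sylow 5 K) = 1 := by
  classical
  haveI : Fact (Nat.Prime 5) := ⟨by norm_num⟩
  haveI : Fact (Nat.Prime 19) := ⟨by norm_num⟩
  have h19 : Nat.card (Sylow 19 K) = 1 ∨ Nat.card (Sylow 19 K) = 20 := by
    have h := card_sylow_mem_filter (G := K) (p := 19) (a := 1) (m := 40) (by rw [hK]; norm_num) (by norm_num) (by norm_num)
    have he : (Nat.divisors 40).filter (fun n => n % 19 = 1 % 19) = {1, 20} := by decide +kernel
    rw [he] at h
    simpa using h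
  have h5 : Nat.card (Sylow 5 K) = 1 ∨ Nat.card (Sylow 5 K) = 76 := by
    have h := card_sylow_mem_filter (G := K) (p := 5) (a := 1) (m := 152) (by rw [hK]; norm_num) (by norm_num) (by norm_num)
    have he : (Nat.divisors 152).filter (fun n => n % 5 = 1 % 5) = {1, 76} := by decide +kernel
    rw [he] at h
    simpa using h
  obtain ⟨S19⟩ : Nonempty (Sylow 19 K) := inferInstance
  obtain ⟨S5⟩ : Nonempty (Sylow 5 K) := inferInstance
  have hc19all : ∀ P : Sylow 19 K, Nat.card (P : Subgroup K) = 19 := fun P => by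
    simpa using sylow_card_of_card_eq (G := K) (p := 19) (a := 1) (m := 40) (by rw [hK]; norm_num) (by norm_num) P
  have hc5all : ∀ P : Sylow 5 K, Nat.card (P : Subgroup K) = 5 := fun P => by
    simpa using sylow_card_of_card_eq (G := K) (p := 5) (a := 1) (m := 152) (by rw [hK]; norm_num) (by norm_num) P
  obtain ⟨y, hyS, hy1⟩ := p7_exists_ne (by norm_num : Nat.Prime 19) _ (hc19all S19)
  obtain ⟨z, hzS, hz1⟩ := p7_exists_ne (by norm_num : Nat.Prime 5) _ (hc5all S5)
  have hyo : orderOf y = 19 := orderOf_eq_of_mem_of_ne_one (by norm_num) (hc19all S19) hyS hy1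
  have hzo : orderOf z = 5 := orderOf_eq_of_mem_of_ne_one (by norm_num) (hc5all S5) hzS hz1
  have hzS5 : zpowers z = (S5 : Subgroup K) := zpowers_eq_of_mem_of_ne_one (by norm_num) (hc5all S5) hzS hz1
  have hyS19 : zpowers y = (S19 : Subgroup K) := zpowers_eq_of_mem_of_ne_one (by norm_num) (hc19all S19) hyS hy1
  haveI : IsCyclic (S5 : Subgroup K) := isCyclic_of_prime_card (hc5all S5)
  haveI : IsCyclic (S19 : Subgroup K) := isCyclic_of_prime_card (hc19all S19)
  -- commuting generators give membership in normalizers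
  have hcomm_norm : ∀ {u v : K}, u * v = v * u → zpowers v ≤ normalizer ((zpowers u : Subgroup K) : Set K) := by
    intro u v huv
    refine p7_le_normalizer_of (zpowers u) (zpowers v) (fun g hg x hx => ?_)
    obtain ⟨j, rfl⟩ := hg
    obtain ⟨i, rfl⟩ := hx
    have hcom : Commute (v ^ j) (u ^ i) := (Commute.symm huv).zpow_zpow j i
    show (fun k : ℤ => v ^ k) j * (fun k : ℤ => u ^ k) i * ((fun k : ℤ => v ^ k) j)⁻¹ ∈ zpowers u
    simp only
    rw [hcom.eq]
    simpa using zpow_mem (mem_zpowers u) i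
  have hnormal : ∀ {p : ℕ} [Fact p.Prime] (P : Sylow p K) (hP : Nat.card (Sylow p K) = 1) (g : K),
      g ∈ normalizer ((P : Subgroup K) : Set K) := by
    intro p _ P hP g
    haveI hs : Subsingleton (Sylow p K) := (Nat.card_eq_one_iff_unique.1 hP).1
    haveI : (P : Subgroup K).Normal := Sylow.normal_of_subsingleton P
    rw [(Subgroup.normalizer_eq_top_iff).2 inferInstance]
    trivial
  -- (b)
  have hb : Nat.card (Sylow 19 K) = 1 → Nat.card (Sylow 5 K) = 1 := by
    intro hn
    rcases h5 with h | h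
    · exact h
    exfalso
    have hzc : z ∈ centralizer ((S19 : Subgroup K) : Set K) := by
      refine p7_mem_centralizer_of_coprime (S19 : Subgroup K) (hnormal S19 hn z) ?_
      rw [hzo, hc19all S19, Nat.totient_prime (by norm_num)]
      norm_num
    have hyz : z * y = y * z := (mem_centralizer_iff.1 hzc y hyS).symm
    have hyN : y ∈ normalizer ((S5 : Subgroup K) : Set K) := by
      have := hcomm_norm hyz (mem_zpowers y)
      rwa [hzS5] at this
    have hd := Subgroup.orderOf_dvd_natCard _ hyN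
    have hN : Nat.card (normalizer ((S5 : Subgroup K) : Set K)) * 76 = 760 := by
      have := card_normalizer_mul_card_sylow S5
      rwa [h, hK] at this
    have hN10 : Nat.card (normalizer ((S5 : Subgroup K) : Set K)) = 10 := by omega
    rw [hN10, hyo] at hd
    omega
  -- (a)
  have ha : Nat.card (Sylow 5 K) = 1 → Nat.card (Sylow 19 K) = 1 := by
    intro hn
    rcases h19 with h | h
    · exact h
    exfalso
    have hyc : y ∈ centralizer ((S5 : Subgroup K) : Set K) := by
      refine p7_mem_centralizer_of_coprime (S5 : Subgroup K) (hnormal S5 hn y) ?_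
      rw [hyo, hc5all S5, Nat.totient_prime (by norm_num)]
      norm_num
    have hyz : y * z = z * y := (mem_centralizer_iff.1 hyc z hzS).symm
    have hzN : z ∈ normalizer ((S19 : Subgroup K) : Set K) := by
      have := hcomm_norm hyz (mem_zpowers z)
      rwa [hyS19] at this
    have hd := Subgroup.orderOf_dvd_natCard _ hzN
    have hN : Nat.card (normalizer ((S19 : Subgroup K) : Set K)) * 20 = 760 := by
      have := card_normalizer_mul_card_sylow S19
      rwa [h, hK] at this
    have hN38 : Nat.card (normalizer ((S19 : Subgroup K) : Set K)) = 38 := by omega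
    rw [hN38, hzo] at hd
    omega
  -- (c)
  have hc : ¬ (Nat.card (Sylow 19 K) = 20 ∧ Nat.card (Sylow 5 K) = 76) := by
    rintro ⟨h1, h2⟩
    have hA : Nat.card {g : K // orderOf g = 19} = 360 := by
      rw [card_orderOf_eq_prime hc19all, h1]
    have hC : Nat.card {g : K // orderOf g = 5} = 304 := by
      rw [card_orderOf_eq_prime hc5all, h2]
    have hτ19 : τ ^ 19 = τ := by
      have h : τ ^ 2 = 1 := by rw [← hτ]; exact pow_orderOf_eq_one τ
      rw [show 19 = 2 * 9 + 1 by norm_num, pow_succ, pow_mul, h, one_pow, one_mul]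
    have hτ1 : τ ≠ 1 := by
      rintro rfl
      rw [orderOf_one] at hτ
      omega
    have hpow19 : ∀ a : K, a ^ 19 = 1 → (τ * a) ^ 19 = τ := by
      intro a ha
      have hcm : Commute τ a := (hτc a).symm
      rw [hcm.mul_pow, ha, mul_one, hτ19]
    let f : {g : K // orderOf g = 19} ⊕ ({g : K // orderOf g = 19} ⊕ {g : K // orderOf g = 5}) → K :=
      fun x => match x with
        | Sum.inl a => a.1
        | Sum.inr (Sum.inl a) => τ * a.1
        | Sum.inr (Sum.inr c) => c.1
    have hf : Function.Injective f := by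
      have h19p : ∀ a : {g : K // orderOf g = 19}, a.1 ^ 19 = 1 := fun a => by
        have := pow_orderOf_eq_one a.1
        rwa [a.2] at this
      have h5p : ∀ c : {g : K // orderOf g = 5}, c.1 ^ 5 = 1 := fun c => by
        have := pow_orderOf_eq_one c.1
        rwa [c.2] at this
      have hAC : ∀ (a : {g : K // orderOf g = 19}) (c : {g : K // orderOf g = 5}), a.1 ≠ c.1 := by
        intro a c h
        have := a.2
        rw [h, c.2] at this
        omega
      have hBA : ∀ (a b : {g : K // orderOf g = 19}), τ * a.1 ≠ b.1 := by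
        intro a b h
        have h1 := hpow19 a.1 (h19p a)
        rw [h, h19p b] at h1
        exact hτ1 h1.symm
      have hBC : ∀ (a : {g : K // orderOf g = 19}) (c : {g : K // orderOf g = 5}), τ * a.1 ≠ c.1 := by
        intro a c h
        have h1 := hpow19 a.1 (h19p a)
        have h2 : (τ * a.1) ^ 38 = 1 := by
          rw [show 38 = 19 * 2 by norm_num, pow_mul, h1, ← hτ]
          exact pow_orderOf_eq_one τ
        rw [h] at h2
        have hd := orderOf_dvd_of_pow_eq_one h2
        rw [c.2] at hd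
        omega
      rintro (a | a | c) (b | b | d) h
      · exact congrArg _ (Subtype.ext h)
      · exact absurd h.symm (hBA b a)
      · exact absurd h (hAC a d)
      · exact absurd h (hBA a b)
      · exact congrArg (fun x => Sum.inr (Sum.inl x)) (Subtype.ext (mul_left_cancel h))
      · exact absurd h (hBC a d)
      · exact absurd h.symm (hAC b c)
      · exact absurd h.symm (hBC b c)
      · exact congrArg (fun x => Sum.inr (Sum.inr x)) (Subtype.ext h)
    have hle := Nat.card_le_card_of_injective f hf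
    rw [Nat.card_sum, Nat.card_sum, hA, hC, hK] at hle
    omega
  rcases h19 with h | h
  · exact ⟨h, hb h⟩
  · rcases h5 with h' | h'
    · exact ⟨ha h', h'⟩
    · exact absurd ⟨h, h'⟩ hc

end core

section main

variable {G : Type*} [Group G] [Finite G]

theorem p7_norm5 (H N : Subgroup G) (hHN : H ≤ N) (hidx : Nat.card N = 3 * Nat.card H)
    [Fact (Nat.Prime 5)] (S : Sylow 5 H) (hn : Nat.card (Sylow 5 H) = 1)
    (hc : Nat.card ((S : Subgroup H).map H.subtype) = 5) :
    N ≤ normalizer (((S : Subgroup H).map H.subtype : Subgroup G) : Set G) := by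
  refine p7_le_normalizer_of _ N (fun g hg u hu => ?_)
  have hu5 : u ^ 5 = 1 := by
    have h := Subgroup.orderOf_dvd_natCard _ hu
    rw [hc] at h
    exact orderOf_dvd_iff_pow_eq_one.1 h
  have huH : u ∈ H := by
    obtain ⟨b, -, rfl⟩ := hu
    exact b.2
  have hx5 : (g * u * g⁻¹) ^ 5 = 1 := by
    rw [conj_pow, hu5]; group
  have hxN : g * u * g⁻¹ ∈ N := N.mul_mem (N.mul_mem hg (hHN huH)) (N.inv_mem hg)
  have hxH : g * u * g⁻¹ ∈ H := p7_mem_of_index_three H N hHN hidx hxN hx5
  exact p7_mem_of_unique H S hn hxH hx5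

theorem p7_no_440 [IsSimpleGroup G] (hG : Nat.card G = 175560)
    (hE : ∀ P : Sylow 2 G, ∀ x ∈ (P : Subgroup G), x * x = 1) (H : Subgroup G) (hH : Nat.card H = 440) : False := by
  classical
  haveI : Fact (Nat.Prime 2) := ⟨by norm_num⟩
  haveI : Fact (Nat.Prime 5) := ⟨by norm_num⟩
  haveI : Fact (Nat.Prime 11) := ⟨by norm_num⟩
  have hnc : ¬ IsMulCommutative G := not_isMulCommutative_of_not_prime (by rw [hG]; norm_num)
  -- Sylow 11 of H
  have h11 : Nat.card (Sylow 11 H) = 1 := by
    have h := card_sylow_mem_filter (G := H) (p := 11) (a := 1) (m := 40) (by rw [hH]; norm_num) (by norm_num) (by norm_num)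
    have he : (Nat.divisors 40).filter (fun n => n % 11 = 1 % 11) = {1} := by decide +kernel
    rw [he, Finset.mem_singleton] at h
    exact h
  obtain ⟨S11⟩ : Nonempty (Sylow 11 H) := inferInstance
  have hc11 : Nat.card (S11 : Subgroup H) = 11 := by
    simpa using sylow_card_of_card_eq (G := H) (p := 11) (a := 1) (m := 40) (by rw [hH]; norm_num) (by norm_num) S11
  set Y := (S11 : Subgroup H).map H.subtype with hY
  have hcY : Nat.card Y = 11 := by rw [hY, p7_card_map, hc11]
  have hHY : H ≤ normalizer (Y : Set G) := by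
    refine p7_le_normalizer_of Y H (fun g hg u hu => ?_)
    have hu11 : u ^ 11 = 1 := by
      have h := Subgroup.orderOf_dvd_natCard _ hu
      rw [hcY] at h
      exact orderOf_dvd_iff_pow_eq_one.1 h
    have huH : u ∈ H := by
      obtain ⟨b, -, rfl⟩ := hu
      exact b.2
    refine p7_mem_of_unique H S11 h11 (H.mul_mem (H.mul_mem hg huH) (H.inv_mem hg)) ?_
    rw [conj_pow, hu11]; group
  obtain ⟨P11, hP11⟩ := p7_sylow_of_card (G := G) (r := 11) (a := 1) (m := 15960) (by rw [hG]; norm_num) (by norm_num) Y (by simpa using hcY)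
  have hn11 : Nat.card (Sylow 11 G) = 133 := by
    have h1 := p7_card_sylow_mul_dvd P11 H (by rw [hP11]; exact hHY)
    rw [hH, hG] at h1
    have h2 : Nat.card (Sylow 11 G) ∣ 399 := Nat.dvd_of_mul_dvd_mul_right (by norm_num : 0 < 440) (by simpa using h1)
    have h3 := card_sylow_mod (G := G) (p := 11)
    have h4 := card_sylow_ne_one hnc (p := 11) (by rw [hG]; norm_num)
    have h5 : Nat.card (Sylow 11 G) ∈ (Nat.divisors 399).filter (fun n => n % 11 = 1 % 11 ∧ n ≠ 1) := by
      rw [Finset.mem_filter, Nat.mem_divisors]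
      exact ⟨⟨h2, by norm_num⟩, h3, h4⟩
    have he : (Nat.divisors 399).filter (fun n => n % 11 = 1 % 11 ∧ n ≠ 1) = {133} := by decide +kernel
    rw [he, Finset.mem_singleton] at h5
    exact h5
  set N := normalizer (Y : Set G) with hN
  have hcN : Nat.card N = 1320 := by
    have h : Nat.card N * Nat.card (Sylow 11 G) = Nat.card G := by
      rw [hN, ← hP11]; exact card_normalizer_mul_card_sylow P11
    rw [hn11, hG] at h
    omega
  have h5H : Nat.card (Sylow 5 H) = 1 ∨ Nat.card (Sylow 5 H) = 11 := by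
    have h := card_sylow_mem_filter (G := H) (p := 5) (a := 1) (m := 88) (by rw [hH]; norm_num) (by norm_num) (by norm_num)
    have he : (Nat.divisors 88).filter (fun n => n % 5 = 1 % 5) = {1, 11} := by decide +kernel
    rw [he] at h
    simpa using h
  rcases h5H with h51 | h511
  · -- unique Sylow 5
    obtain ⟨S5⟩ : Nonempty (Sylow 5 H) := inferInstance
    have hc5 : Nat.card (S5 : Subgroup H) = 5 := by
      simpa using sylow_card_of_card_eq (G := H) (p := 5) (a := 1) (m := 88) (by rw [hH]; norm_num) (by norm_num) S5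
    have hcY5 : Nat.card ((S5 : Subgroup H).map H.subtype) = 5 := by rw [p7_card_map, hc5]
    have hNY5 := p7_norm5 H N hHY (by rw [hcN, hH]) S5 h51 hcY5
    obtain ⟨P5, hP5⟩ := p7_sylow_of_card (G := G) (r := 5) (a := 1) (m := 35112) (by rw [hG]; norm_num) (by norm_num) ((S5 : Subgroup H).map H.subtype) (by rw [pow_one]; exact hcY5)
    have h1 := p7_card_sylow_mul_dvd P5 N (by rw [hP5]; exact hNY5)
    rw [hcN, hG] at h1
    have h2 : Nat.card (Sylow 5 G) ∣ 133 := Nat.dvd_of_mul_dvd_mul_right (by norm_num : 0 < 1320) (by simpa using h1)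
    have h3 := card_sylow_mod (G := G) (p := 5)
    have h4 := card_sylow_ne_one hnc (p := 5) (by rw [hG]; norm_num)
    have h5 : Nat.card (Sylow 5 G) ∈ (Nat.divisors 133).filter (fun n => n % 5 = 1 % 5 ∧ n ≠ 1) := by
      rw [Finset.mem_filter, Nat.mem_divisors]
      exact ⟨⟨h2, by norm_num⟩, h3, h4⟩
    have he : (Nat.divisors 133).filter (fun n => n % 5 = 1 % 5 ∧ n ≠ 1) = ∅ := by decide +kernel
    rw [he] at h5
    simp at h5
  · -- eleven Sylow 5
    have hEH : ∀ S : Sylow 2 H, ∀ x ∈ (S : Subgroup H), x * x = 1 := by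
      intro S x hx
      have hcS : Nat.card (S : Subgroup H) = 2 ^ 3 :=
        sylow_card_of_card_eq (G := H) (p := 2) (a := 3) (m := 55) (by rw [hH]; norm_num) (by norm_num) S
      obtain ⟨P, hP⟩ := p7_sylow_of_card (G := G) (r := 2) (a := 3) (m := 21945) (by rw [hG]; norm_num) (by norm_num)
        ((S : Subgroup H).map H.subtype) (by rw [p7_card_map, hcS])
      have hx' : (x : G) ∈ (P : Subgroup G) := by
        rw [hP]; exact ⟨x, hx, rfl⟩
      exact Subtype.ext (hE P _ hx')
    obtain ⟨z, hzo, R, hR⟩ := p7_core440 hH hEH h511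
    set z' : G := (z : G) with hz'
    have hzo' : orderOf z' = 5 := by
      rw [hz', Subgroup.orderOf_coe, hzo]
    have hcZ : Nat.card (zpowers z') = 5 := by rw [Nat.card_zpowers, hzo']
    obtain ⟨P5, hP5⟩ := p7_sylow_of_card (G := G) (r := 5) (a := 1) (m := 35112) (by rw [hG]; norm_num) (by norm_num) (zpowers z') (by simpa using hcZ)
    obtain ⟨s, hs1, hs2, hs3, hs4⟩ := exists_relIndex_of_card_eq hnc (p := 5) (m := 35112) (by rw [hG]) (by norm_num) P5
    have hCN : centralizer ((P5 : Subgroup G) : Set G) ≤ normalizer ((P5 : Subgroup G) : Set G) :=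
      Subgroup.centralizer_le_normalizer _
    have hcR : Nat.card (R : Subgroup H) = 2 ^ 3 :=
      sylow_card_of_card_eq (G := H) (p := 2) (a := 3) (m := 55) (by rw [hH]; norm_num) (by norm_num) R
    have hRC : (R : Subgroup H).map H.subtype ≤ centralizer ((P5 : Subgroup G) : Set G) := by
      rintro _ ⟨a, ha, rfl⟩
      rw [mem_centralizer_iff]
      intro w hw
      rw [hP5] at hw
      obtain ⟨i, rfl⟩ := hw
      have hcomm : Commute ((a : H) : G) z' := by
        show ((a : H) : G) * (z : G) = (z : G) * ((a : H) : G)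
        exact congrArg Subtype.val (hR a ha)
      have hh : Commute ((fun k : ℤ => z' ^ k) i) ((a : H) : G) := (hcomm.symm.zpow_left i)
      exact hh.eq
    have h8 : 8 ∣ Nat.card (centralizer ((P5 : Subgroup G) : Set G)) := by
      have := Subgroup.card_dvd_of_le hRC
      rwa [p7_card_map, hcR] at this
    have h1 := Subgroup.relIndex_mul_index hCN
    have h2 := Subgroup.card_mul_index (centralizer ((P5 : Subgroup G) : Set G))
    have h3 := Subgroup.card_mul_index (normalizer ((P5 : Subgroup G) : Set G))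
    rw [hs4] at h1
    have hcard : Nat.card (normalizer ((P5 : Subgroup G) : Set G)) = Nat.card (centralizer ((P5 : Subgroup G) : Set G)) * s := by
      have hpos : 0 < (normalizer ((P5 : Subgroup G) : Set G)).index := Nat.pos_of_ne_zero Subgroup.index_ne_zero_of_finite
      apply Nat.eq_of_mul_eq_mul_right hpos
      rw [h3, mul_assoc, h1, h2]
    have h2s : 2 ∣ s := by
      have h4 : s ∈ Nat.divisors 4 := Nat.mem_divisors.2 ⟨by simpa using hs2, by norm_num⟩
      have he : Nat.divisors 4 = {1, 2, 4} := by decide +kernel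
      rw [he] at h4
      simp at h4
      rcases h4 with rfl | rfl | rfl <;> omega
    have h16 : 16 ∣ Nat.card (normalizer ((P5 : Subgroup G) : Set G)) := by
      rw [hcard]
      exact (by norm_num : 16 = 8 * 2) ▸ Nat.mul_dvd_mul h8 h2s
    have h16G : 16 ∣ 175560 := by
      rw [← hG]
      exact h16.trans (Subgroup.card_subgroup_dvd_card _)
    omega

theorem p7_no_760 [IsSimpleGroup G] (hG : Nat.card G = 175560) (t : G) (ht : orderOf t = 2)
    (h : Nat.card (centralizer ({t} : Set G)) = 760) : False := by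
  classical
  haveI : Fact (Nat.Prime 5) := ⟨by norm_num⟩
  haveI : Fact (Nat.Prime 19) := ⟨by norm_num⟩
  have hnc : ¬ IsMulCommutative G := not_isMulCommutative_of_not_prime (by rw [hG]; norm_num)
  set H := centralizer ({t} : Set G) with hHdef
  have htH : t ∈ H := by
    rw [hHdef, mem_centralizer_iff]
    intro x hx
    rw [Set.mem_singleton_iff.1 hx]
  have hτ : orderOf (⟨t, htH⟩ : H) = 2 := by
    rw [← Subgroup.orderOf_coe]; exact ht
  have hτc : ∀ x : H, x * ⟨t, htH⟩ = ⟨t, htH⟩ * x := by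
    intro x
    apply Subtype.ext
    have hx : (x : G) ∈ centralizer ({t} : Set G) := x.2
    rw [mem_centralizer_iff] at hx
    exact (hx t (Set.mem_singleton t)).symm
  obtain ⟨h19, h5⟩ := p7_core760 h ⟨t, htH⟩ hτ hτc
  obtain ⟨S19⟩ : Nonempty (Sylow 19 H) := inferInstance
  have hc19 : Nat.card (S19 : Subgroup H) = 19 := by
    simpa using sylow_card_of_card_eq (G := H) (p := 19) (a := 1) (m := 40) (by rw [h]; norm_num) (by norm_num) S19
  set Y := (S19 : Subgroup H).map H.subtype with hY
  have hcY : Nat.card Y = 19 := by rw [hY, p7_card_map, hc19]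
  have hHY : H ≤ normalizer (Y : Set G) := by
    refine p7_le_normalizer_of Y H (fun g hg u hu => ?_)
    have hu19 : u ^ 19 = 1 := by
      have h := Subgroup.orderOf_dvd_natCard _ hu
      rw [hcY] at h
      exact orderOf_dvd_iff_pow_eq_one.1 h
    have huH : u ∈ H := by
      obtain ⟨b, -, rfl⟩ := hu
      exact b.2
    refine p7_mem_of_unique H S19 h19 (H.mul_mem (H.mul_mem hg huH) (H.inv_mem hg)) ?_
    rw [conj_pow, hu19]; group
  obtain ⟨P19, hP19⟩ := p7_sylow_of_card (G := G) (r := 19) (a := 1) (m := 9240) (by rw [hG]; norm_num) (by norm_num) Y (by simpa using hcY)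
  have hn19 : Nat.card (Sylow 19 G) = 77 := by
    have h1 := p7_card_sylow_mul_dvd P19 H (by rw [hP19]; exact hHY)
    rw [h, hG] at h1
    have h2 : Nat.card (Sylow 19 G) ∣ 231 := Nat.dvd_of_mul_dvd_mul_right (by norm_num : 0 < 760) (by simpa using h1)
    have h3 := card_sylow_mod (G := G) (p := 19)
    have h4 := card_sylow_ne_one hnc (p := 19) (by rw [hG]; norm_num)
    have h5 : Nat.card (Sylow 19 G) ∈ (Nat.divisors 231).filter (fun n => n % 19 = 1 % 19 ∧ n ≠ 1) := by
      rw [Finset.mem_filter, Nat.mem_divisors]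
      exact ⟨⟨h2, by norm_num⟩, h3, h4⟩
    have he : (Nat.divisors 231).filter (fun n => n % 19 = 1 % 19 ∧ n ≠ 1) = {77} := by decide +kernel
    rw [he, Finset.mem_singleton] at h5
    exact h5
  set N := normalizer (Y : Set G) with hN
  have hcN : Nat.card N = 2280 := by
    have h' : Nat.card N * Nat.card (Sylow 19 G) = Nat.card G := by
      rw [hN, ← hP19]; exact card_normalizer_mul_card_sylow P19
    rw [hn19, hG] at h'
    omega
  obtain ⟨S5⟩ : Nonempty (Sylow 5 H) := inferInstance
  have hc5 : Nat.card (S5 : Subgroup H) = 5 := by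
    simpa using sylow_card_of_card_eq (G := H) (p := 5) (a := 1) (m := 152) (by rw [h]; norm_num) (by norm_num) S5
  have hcY5 : Nat.card ((S5 : Subgroup H).map H.subtype) = 5 := by rw [p7_card_map, hc5]
  have hNY5 := p7_norm5 H N hHY (by rw [hcN, h]) S5 h5 hcY5
  obtain ⟨P5, hP5⟩ := p7_sylow_of_card (G := G) (r := 5) (a := 1) (m := 35112) (by rw [hG]; norm_num) (by norm_num) ((S5 : Subgroup H).map H.subtype) (by rw [pow_one]; exact hcY5)
  have h1 := p7_card_sylow_mul_dvd P5 N (by rw [hP5]; exact hNY5)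
  rw [hcN, hG] at h1
  have h2 : Nat.card (Sylow 5 G) ∣ 77 := Nat.dvd_of_mul_dvd_mul_right (by norm_num : 0 < 2280) (by simpa using h1)
  have h3 := card_sylow_mod (G := G) (p := 5)
  have h4 := card_sylow_ne_one hnc (p := 5) (by rw [hG]; norm_num)
  have h6 : Nat.card (Sylow 5 G) ∈ (Nat.divisors 77).filter (fun n => n % 5 = 1 % 5 ∧ n ≠ 1) := by
    rw [Finset.mem_filter, Nat.mem_divisors]
    exact ⟨⟨h2, by norm_num⟩, h3, h4⟩
  have he : (Nat.divisors 77).filter (fun n => n % 5 = 1 % 5 ∧ n ≠ 1) = {11} := by decide +kernel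
  rw [he, Finset.mem_singleton] at h6
  have h7 := two_mul_card_dvd_factorial_card_sylow hnc (p := 5) (by rw [hG]; norm_num)
  rw [h6, hG] at h7
  have h8 : ¬ (2 * 175560 ∣ Nat.factorial 11) := by decide +kernel
  exact h8 h7

/-- No involution centraliser of order `440`. -/
theorem no_440 [IsSimpleGroup G] (hG : Nat.card G = 175560)
    (hE : ∀ P : Sylow 2 G, ∀ x ∈ (P : Subgroup G), x * x = 1)
    (hconj : ∀ a b : G, orderOf a = 2 → orderOf b = 2 → IsConj a b) (t : G) (ht : orderOf t = 2)
    (h : Nat.card (centralizer ({t} : Set G)) = 440) : False :=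
  p7_no_440 hG hE _ h

/-- No involution centraliser of order `760`. -/
theorem no_760 [IsSimpleGroup G] (hG : Nat.card G = 175560)
    (hE : ∀ P : Sylow 2 G, ∀ x ∈ (P : Subgroup G), x * x = 1)
    (hconj : ∀ a b : G, orderOf a = 2 → orderOf b = 2 → IsConj a b) (t : G) (ht : orderOf t = 2)
    (h : Nat.card (centralizer ({t} : Set G)) = 760) : False :=
  p7_no_760 hG t ht h

end main

end Cfsg.Agent.Lib.O175
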