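import Mathlib
import Cfsg.Agent.Lib.SmallGroups2
import Cfsg.Agent.Lib.O4320Sixty79
import Cfsg.Agent.S0494
import Cfsg.Agent.S0987

/-!
# Order 120 with a central involution and elementary abelian Sylow 2-subgroups
-/

set_option autoImplicit false
set_option linter.style.haveILetI false

namespace Cfsg.Agent.Lib.O175

open Subgroup Cfsg.Agent.Lib.SmallGroups2

/-- A central involution in an elementary abelian Sylow 2-subgroup survives in a linear character. -/
theorem p8_exists_char_ne {G : Type*} [Group G] [Finite G] (t : G) (ht : orderOf t = 2)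
    (htc : ∀ x, x * t = t * x) (P : Sylow 2 G) (hP : ∀ x ∈ (P : Subgroup G), x * x = 1) :
    ∃ χ : G →* Multiplicative (ZMod 2), χ t ≠ 1 := by
  classical
  haveI : Fact (Nat.Prime 2) := ⟨Nat.prime_two⟩
  have htP : t ∈ (P : Subgroup G) := by
    have hpg : IsPGroup 2 (Subgroup.zpowers t) := by
      rw [IsPGroup.iff_card, Nat.card_zpowers, ht]
      exact ⟨1, by norm_num⟩
    have h1 : Subgroup.zpowers t ⊓ normalizer ((P : Subgroup G) : Set G) = Subgroup.zpowers t ⊓ (P : Subgroup G) :=
      hpg.inf_normalizer_sylow P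
    have h2 : t ∈ Subgroup.zpowers t ⊓ normalizer ((P : Subgroup G) : Set G) := by
      refine Subgroup.mem_inf.2 ⟨Subgroup.mem_zpowers t, ?_⟩
      rw [mem_normalizer_iff]
      intro h
      have : t * h * t⁻¹ = h := by rw [← htc h]; group
      rw [this]
    rw [h1] at h2
    exact h2.2
  have hcomm : ∀ a b : (P : Subgroup G), a * b = b * a := by
    intro a b
    have ha : (a : G) * a = 1 := hP _ a.2
    have hb : (b : G) * b = 1 := hP _ b.2
    have hab : ((a : G) * b) * ((a : G) * b) = 1 := hP _ (mul_mem a.2 b.2)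
    apply Subtype.ext
    show (a : G) * b = b * a
    have ha' : (a : G)⁻¹ = a := inv_eq_of_mul_eq_one_left ha
    have hb' : (b : G)⁻¹ = b := inv_eq_of_mul_eq_one_left hb
    have hab' : ((a : G) * b)⁻¹ = a * b := inv_eq_of_mul_eq_one_left hab
    rw [mul_inv_rev, ha', hb'] at hab'
    exact hab'.symm
  letI cg : CommGroup (P : Subgroup G) := { (inferInstance : Group (P : Subgroup G)) with mul_comm := hcomm }
  letI : Module (ZMod 2) (Additive (P : Subgroup G)) := AddCommGroup.zmodModule (n := 2) (fun x => by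
    have h2 : ((Additive.toMul x : (P : Subgroup G)) : G) * (Additive.toMul x : (P : Subgroup G)) = 1 := hP _ (Additive.toMul x).2
    have h3 : (Additive.toMul x : (P : Subgroup G)) * (Additive.toMul x : (P : Subgroup G)) = 1 := Subtype.ext h2
    rw [two_nsmul]
    exact h3)
  obtain ⟨φ, hφ⟩ : ∃ φ : Module.Dual (ZMod 2) (Additive (P : Subgroup G)),
      φ (Additive.ofMul (⟨t, htP⟩ : (P : Subgroup G))) ≠ 0 := by
    by_contra h
    push Not at h
    have h1 := (Module.forall_dual_apply_eq_zero_iff (ZMod 2) (Additive.ofMul (⟨t, htP⟩ : (P : Subgroup G)))).1 h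
    have h2 : (⟨t, htP⟩ : (P : Subgroup G)) = 1 := h1
    have h3 : t = 1 := congrArg Subtype.val h2
    rw [h3, orderOf_one] at ht
    omega
  let ϕ : (P : Subgroup G) →* Multiplicative (ZMod 2) := AddMonoidHom.toMultiplicativeRight φ.toAddMonoidHom
  refine ⟨ϕ.transfer, ?_⟩
  have hodd : ¬ 2 ∣ (P : Subgroup G).index := P.not_dvd_index
  obtain ⟨k, hk⟩ : ∃ k, (P : Subgroup G).index = 2 * k + 1 := ⟨(P : Subgroup G).index / 2, by omega⟩
  have hpow : t ^ (P : Subgroup G).index = t := by
    rw [hk, pow_succ, pow_mul, ← ht, pow_orderOf_eq_one, one_pow, one_mul]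
  have key : ∀ (k : ℕ) (g₀ : G), g₀⁻¹ * t ^ k * g₀ ∈ (P : Subgroup G) → g₀⁻¹ * t ^ k * g₀ = t ^ k := by
    intro k g₀ _
    have h1 : ∀ j : ℕ, g₀⁻¹ * t ^ j = t ^ j * g₀⁻¹ := by
      intro j
      induction j with
      | zero => simp
      | succ j ih =>
        rw [pow_succ, ← mul_assoc, ih, mul_assoc, htc, ← mul_assoc]
    rw [h1, mul_assoc, inv_mul_cancel, mul_one]
  rw [MonoidHom.transfer_eq_pow ϕ t key]
  have h5 : (⟨t ^ (P : Subgroup G).index, MonoidHom.transfer_eq_pow_aux t key⟩ : (P : Subgroup G)) = ⟨t, htP⟩ :=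
    Subtype.ext hpow
  rw [h5]
  intro h6
  apply hφ
  exact h6

/-- If every Sylow `p`-subgroup lies in `D` and `D` has a unique one, so does the group. -/
theorem p8_card_sylow_of_le {G : Type*} [Group G] [Finite G] {p : ℕ} [Fact p.Prime] (D : Subgroup G)
    (hall : ∀ Q : Sylow p G, (Q : Subgroup G) ≤ D) (h : Nat.card (Sylow p D) = 1) :
    Nat.card (Sylow p G) = 1 := by
  rw [Nat.card_eq_one_iff_unique]
  refine ⟨⟨fun a b => ?_⟩, inferInstance⟩
  have hs : Subsingleton (Sylow p D) := (Nat.card_eq_one_iff_unique.1 h).1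
  exact Sylow.subtype_injective (hP := hall a) (hQ := hall b) (Subsingleton.elim _ _)

/-- Odd-order Sylow subgroups lie in the kernel of a character of order two. -/
theorem p8_sylow_le_ker {G : Type*} [Group G] [Finite G] {p : ℕ} [Fact p.Prime] (hp2 : p ≠ 2)
    (χ : G →* Multiplicative (ZMod 2)) (Q : Sylow p G) : (Q : Subgroup G) ≤ χ.ker := by
  intro x hx
  rw [MonoidHom.mem_ker]
  have hp : p.Prime := Fact.out
  obtain ⟨k, hk⟩ := Q.isPGroup' ⟨x, hx⟩
  have h1 : x ^ (p ^ k) = 1 := congrArg Subtype.val hk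
  have h2 : χ x ^ (p ^ k) = 1 := by rw [← map_pow, h1, map_one]
  have h3 : ∀ a : Multiplicative (ZMod 2), a ^ 2 = 1 := by decide
  have h4 : orderOf (χ x) ∣ p ^ k := orderOf_dvd_of_pow_eq_one h2
  have h5 : orderOf (χ x) ∣ 2 := orderOf_dvd_of_pow_eq_one (h3 _)
  have hc : Nat.Coprime (p ^ k) 2 := by
    apply Nat.Coprime.pow_left
    exact (Nat.coprime_primes hp Nat.prime_two).2 hp2
  have h6 := Nat.dvd_gcd h4 h5
  rw [hc] at h6
  exact orderOf_eq_one_iff.1 (Nat.dvd_one.1 h6)

theorem p8_card_ker_half {G : Type*} [Group G] [Finite G] (χ : G →* Multiplicative (ZMod 2)) (t : G) (ht : χ t ≠ 1) :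
    Nat.card χ.ker * 2 = Nat.card G := by
  have h1 := Subgroup.card_mul_index χ.ker
  rw [Subgroup.index_ker] at h1
  have h2 : Nat.card χ.range = 2 := by
    have h3 : Nat.card χ.range ∣ Nat.card (Multiplicative (ZMod 2)) := Subgroup.card_subgroup_dvd_card _
    have h4 : Nat.card (Multiplicative (ZMod 2)) = 2 := by simp
    rw [h4] at h3
    rcases (Nat.dvd_prime Nat.prime_two).1 h3 with h5 | h5
    · exfalso
      have h6 : χ.range = ⊥ := by
        rw [← Subgroup.card_eq_one] at *
        exact h5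
      have h7 : χ t ∈ χ.range := ⟨t, rfl⟩
      rw [h6, Subgroup.mem_bot] at h7
      exact ht h7
    · exact h5
  rw [h2] at h1
  exact h1

/-- A group of order 60 with elementary abelian Sylow 2-subgroups and no normal Sylow 5-subgroup is simple. -/
theorem p8_simple60 {K : Type*} [Group K] [Finite K] (h60 : Nat.card K = 60)
    (hE : ∀ W : Sylow 2 K, ∀ x ∈ (W : Subgroup K), x * x = 1) (hn5 : Nat.card (Sylow 5 K) ≠ 1) :
    IsSimpleGroup K := by
  classical
  haveI f2 : Fact (Nat.Prime 2) := ⟨by norm_num⟩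
  haveI f3 : Fact (Nat.Prime 3) := ⟨by norm_num⟩
  haveI f5 : Fact (Nat.Prime 5) := ⟨by norm_num⟩
  obtain ⟨S⟩ := (inferInstance : Nonempty (Sylow 5 K))
  have hS5 : Nat.card (S : Subgroup K) = 5 := by
    have := sylow_card_of_card_eq (p := 5) (a := 1) (m := 12) (by rw [h60]; norm_num) (by norm_num) S
    simpa using this
  have hn : ¬ (S : Subgroup K).Normal := by
    intro h
    haveI := Sylow.unique_of_normal S h
    exact hn5 (Nat.card_unique)
  refine Cfsg.Agent.Lib.O4320Sixty79.isSimple_of_card_sixty h60 S ?_ hn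
  -- the normalizer has order 10
  have hn6 : Nat.card (Sylow 5 K) = 6 := by
    have h1 := card_sylow_dvd (p := 5) (a := 1) (m := 12) (G := K) (by rw [h60]; norm_num) (by norm_num)
    have h2 := card_sylow_mod (G := K) (p := 5)
    have h3 : Nat.card (Sylow 5 K) ≤ 12 := Nat.le_of_dvd (by norm_num) h1
    interval_cases h : Nat.card (Sylow 5 K) <;> omega
  have hN : Nat.card (normalizer ((S : Subgroup K) : Set K)) = 10 := by
    have := card_normalizer_mul_card_sylow S
    rw [hn6, h60] at this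
    omega
  have hSc : (S : Subgroup K) ≤ centralizer ((S : Subgroup K) : Set K) := by
    rw [le_centralizer_iff_isMulCommutative]
    haveI : IsCyclic (S : Subgroup K) := isCyclic_of_prime_card hS5
    infer_instance
  set C := centralizer ((S : Subgroup K) : Set K) with hC
  have hCN : C ≤ normalizer ((S : Subgroup K) : Set K) := centralizer_le_normalizer _
  have hd1 : Nat.card C ∣ 10 := by
    rw [← hN]; exact Subgroup.card_dvd_of_le hCN
  have hd2 : 5 ∣ Nat.card C := by
    rw [← hS5]; exact Subgroup.card_dvd_of_le hSc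
  have hcases : Nat.card C = 5 ∨ Nat.card C = 10 := by
    have h3 : Nat.card C ≤ 10 := Nat.le_of_dvd (by norm_num) hd1
    interval_cases h : Nat.card C <;> omega
  rcases hcases with h5 | h10
  · have : (S : Subgroup K) = C := Subgroup.eq_of_le_of_card_ge hSc (by rw [h5, hS5])
    rw [← this]
  exfalso
  obtain ⟨y0, hy0⟩ := exists_prime_orderOf_dvd_card' (G := C) 2 (by rw [h10]; norm_num)
  set y : K := (y0 : K) with hy
  have hyo : orderOf y = 2 := by rw [hy, Subgroup.orderOf_coe, hy0]
  have hyS : ∀ s ∈ (S : Subgroup K), s * y = y * s := by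
    intro s hs
    exact (mem_centralizer_iff.1 y0.2) s hs
  obtain ⟨W, hW⟩ := exists_sylow_mem_of_orderOf hyo
  have hW4 : Nat.card (W : Subgroup K) = 4 := by
    have := sylow_card_of_card_eq (p := 2) (a := 2) (m := 15) (by rw [h60]; norm_num) (by norm_num) W
    simpa using this
  set D := centralizer ({y} : Set K) with hD
  have hSD : (S : Subgroup K) ≤ D := by
    intro s hs
    rw [hD, mem_centralizer_iff]
    intro h hh
    rw [Set.mem_singleton_iff] at hh
    subst hh
    exact (hyS s hs).symm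
  have hWD : (W : Subgroup K) ≤ D := by
    intro a ha
    rw [hD, mem_centralizer_iff]
    intro h hh
    rw [Set.mem_singleton_iff] at hh
    subst hh
    have h1 := hE W a ha
    have h2 := hE W _ hW
    have h3 := hE W _ (mul_mem ha hW)
    have ha' : a⁻¹ = a := inv_eq_of_mul_eq_one_left h1
    have hb' : y⁻¹ = y := inv_eq_of_mul_eq_one_left h2
    have hab' : (a * y)⁻¹ = a * y := inv_eq_of_mul_eq_one_left h3
    rw [mul_inv_rev, ha', hb'] at hab'
    exact hab'
  have hD4 : 4 ∣ Nat.card D := by rw [← hW4]; exact Subgroup.card_dvd_of_le hWD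
  have hD5 : 5 ∣ Nat.card D := by rw [← hS5]; exact Subgroup.card_dvd_of_le hSD
  have hD60 : Nat.card D ∣ 60 := by rw [← h60]; exact Subgroup.card_subgroup_dvd_card D
  have hDc : Nat.card D = 20 ∨ Nat.card D = 60 := by
    have h3 : Nat.card D ≤ 60 := Nat.le_of_dvd (by norm_num) hD60
    interval_cases h : Nat.card D <;> omega
  apply hn5
  rcases hDc with h20 | h60'
  · -- index 3: every Sylow 5-subgroup fixes each of the three cosets
    have hidx : D.index = 3 := by
      have := Subgroup.card_mul_index D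
      rw [h20, h60] at this
      omega
    have hpg : IsPGroup 5 ↥(S : Subgroup K) := S.isPGroup'
    have h1 := hpg.card_modEq_card_fixedPoints (α := K ⧸ D)
    have hcq : Nat.card (K ⧸ D) = 3 := hidx
    rw [hcq] at h1
    have hfix : MulAction.fixedPoints ↥(S : Subgroup K) (K ⧸ D) = Set.univ := by
      have h2 : Nat.card (MulAction.fixedPoints ↥(S : Subgroup K) (K ⧸ D)) ≤ 3 := by
        rw [← hcq]
        exact Nat.card_le_card_of_injective _ Subtype.val_injective
      have h3 : Nat.card (MulAction.fixedPoints ↥(S : Subgroup K) (K ⧸ D)) = 3 := by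
        unfold Nat.ModEq at h1
        omega
      apply Set.eq_of_subset_of_ncard_le (Set.subset_univ _)
      rw [Set.ncard_univ, hcq, ← Nat.card_coe_set_eq, h3]
    have hall : ∀ Q : Sylow 5 K, (Q : Subgroup K) ≤ D := by
      intro Q
      obtain ⟨g, rfl⟩ := MulAction.exists_smul_eq K S Q
      intro u hu
      have h2 : g⁻¹ * u * g ∈ (S : Subgroup K) := mem_smul_sylow_iff.1 hu
      have h3 : ((g⁻¹ : K) : K ⧸ D) ∈ MulAction.fixedPoints ↥(S : Subgroup K) (K ⧸ D) := by
        rw [hfix]; trivial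
      have h4 := h3 ⟨_, h2⟩
      have h5 : ((g⁻¹ * u * g * g⁻¹ : K) : K ⧸ D) = ((g⁻¹ : K) : K ⧸ D) := h4
      rw [QuotientGroup.eq] at h5
      have h6 : (g⁻¹ * u * g * g⁻¹)⁻¹ * g⁻¹ = u⁻¹ := by group
      rw [h6] at h5
      exact inv_mem_iff.1 h5
    apply p8_card_sylow_of_le D hall
    have h2 := card_sylow_dvd (p := 5) (a := 1) (m := 4) (G := D) (by rw [h20]; norm_num) (by norm_num)
    have h3 := card_sylow_mod (G := D) (p := 5)
    have h4 : Nat.card (Sylow 5 D) ≤ 4 := Nat.le_of_dvd (by norm_num) h2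
    interval_cases h : Nat.card (Sylow 5 D) <;> omega
  · -- `y` is central
    have hytop : D = ⊤ := by
      apply Subgroup.eq_top_of_card_eq
      rw [h60', h60]
    have hyc : ∀ x, x * y = y * x := by
      intro x
      have : x ∈ D := by rw [hytop]; trivial
      rw [hD, mem_centralizer_iff] at this
      exact (this y rfl).symm
    obtain ⟨χ, hχ⟩ := p8_exists_char_ne y hyo hyc W (hE W)
    have hcard := p8_card_ker_half χ y hχ
    rw [h60] at hcard
    have h30 : Nat.card χ.ker = 2 * 3 * 5 := by omega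
    apply p8_card_sylow_of_le χ.ker (fun Q => p8_sylow_le_ker (by norm_num) χ Q)
    obtain ⟨R⟩ := (inferInstance : Nonempty (Sylow 5 χ.ker))
    have h2 := Cfsg.Agent.S0987.result 2 3 5 (by norm_num) (by norm_num) (by norm_num) (by norm_num) h30 R
    haveI := Sylow.unique_of_normal R h2
    exact Nat.card_unique

theorem p8_c2_cases : ∀ a : Multiplicative (ZMod 2), a = 1 ∨ a = Multiplicative.ofAdd 1 := by decide

theorem p8_c2_mul : (Multiplicative.ofAdd 1 : Multiplicative (ZMod 2)) * Multiplicative.ofAdd 1 = 1 := by decide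

theorem p8_c2_ne : (Multiplicative.ofAdd 1 : Multiplicative (ZMod 2)) ≠ 1 := by decide

/-- The isomorphism. -/
theorem iso120 {H : Type*} [Group H] [Finite H] (h120 : Nat.card H = 120) (t : H) (ht : orderOf t = 2)
    (htc : ∀ x, x * t = t * x) (hE : ∀ S : Sylow 2 H, ∀ x ∈ (S : Subgroup H), x * x = 1)
    (hn5 : Nat.card (Sylow 5 H) ≠ 1) :
    Nonempty (H ≃* Multiplicative (ZMod 2) × alternatingGroup (Fin 5)) := by
  classical
  haveI f2 : Fact (Nat.Prime 2) := ⟨by norm_num⟩
  haveI f5 : Fact (Nat.Prime 5) := ⟨by norm_num⟩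
  obtain ⟨P⟩ := (inferInstance : Nonempty (Sylow 2 H))
  obtain ⟨χ, hχ⟩ := p8_exists_char_ne t ht htc P (hE P)
  have hcard := p8_card_ker_half χ t hχ
  rw [h120] at hcard
  have h60 : Nat.card χ.ker = 60 := by omega
  have hE' : ∀ W : Sylow 2 χ.ker, ∀ x ∈ (W : Subgroup χ.ker), x * x = 1 := by
    intro W x hx
    have hpg : IsPGroup 2 ((W : Subgroup χ.ker).map χ.ker.subtype) := W.isPGroup'.map _
    obtain ⟨Q, hQ⟩ := hpg.exists_le_sylow
    have h1 : (x : H) ∈ (Q : Subgroup H) := hQ ⟨x, hx, rfl⟩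
    exact Subtype.ext (hE Q _ h1)
  have hn5' : Nat.card (Sylow 5 χ.ker) ≠ 1 := fun h =>
    hn5 (p8_card_sylow_of_le χ.ker (fun Q => p8_sylow_le_ker (by norm_num) χ Q) h)
  haveI := p8_simple60 h60 hE' hn5'
  obtain ⟨E⟩ := Cfsg.Agent.S0494.result h60
  -- the retraction onto the kernel
  obtain ⟨c, hC2, hcc, hc1⟩ : ∃ c : Multiplicative (ZMod 2), (∀ a, a = 1 ∨ a = c) ∧ c * c = 1 ∧ c ≠ 1 :=
    ⟨_, p8_c2_cases, p8_c2_mul, p8_c2_ne⟩
  have hχt : χ t = c := (hC2 _).resolve_left hχ
  have ht2 : t * t = 1 := by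
    rw [← pow_two, ← ht, pow_orderOf_eq_one]
  let s0 : Multiplicative (ZMod 2) → H := fun a => if a = 1 then 1 else t
  have hs01 : s0 1 = 1 := by simp [s0]
  have hs0c : s0 c = t := by simp [s0, hc1]
  have hs0mul : ∀ a b, s0 (a * b) = s0 a * s0 b := by
    intro a b
    rcases hC2 a with rfl | rfl <;> rcases hC2 b with rfl | rfl
    · simp [hs01]
    · simp [hs01]
    · simp [hs01]
    · rw [hcc, hs01, hs0c, ht2]
  have hs0central : ∀ a x, x * s0 a = s0 a * x := by
    intro a x
    rcases hC2 a with rfl | rfl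
    · simp [hs01]
    · rw [hs0c]; exact htc x
  have hker : ∀ g, g * s0 (χ g) ∈ χ.ker := by
    intro g
    rw [MonoidHom.mem_ker, map_mul]
    rcases hC2 (χ g) with h | h
    · rw [h, hs01, map_one, mul_one]
    · rw [h, hs0c, hχt, hcc]
  let r : H →* χ.ker :=
    { toFun := fun g => ⟨g * s0 (χ g), hker g⟩
      map_one' := by
        apply Subtype.ext
        simp [hs01]
      map_mul' := by
        intro g g'
        apply Subtype.ext
        show g * g' * s0 (χ (g * g')) = g * s0 (χ g) * (g' * s0 (χ g'))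
        rw [map_mul, hs0mul]
        simp only [mul_assoc]
        rw [← mul_assoc (s0 (χ g)) g', ← hs0central (χ g) g']
        simp only [mul_assoc] }
  let F : H →* Multiplicative (ZMod 2) × χ.ker := χ.prod r
  have hFinj : Function.Injective F := by
    intro g g' h
    have h1 : χ g = χ g' := congrArg Prod.fst h
    have h2 : g * s0 (χ g) = g' * s0 (χ g') := congrArg (fun z => ((Prod.snd z : χ.ker) : H)) h
    rw [h1] at h2
    exact mul_right_cancel h2
  have hFbij : Function.Bijective F := by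
    apply hFinj.bijective_of_nat_card_le
    rw [Nat.card_prod, h60, h120]
    simp
  exact ⟨(MulEquiv.ofBijective F hFbij).trans (MulEquiv.prodCongr (MulEquiv.refl _) E)⟩

end Cfsg.Agent.Lib.O175
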