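import Cfsg.Agent.Lib.SmallGroups2
import Cfsg.Prelude.Def_SporadicB

/-! Wrapper for the uniqueness of the simple group of order 175560: from the centraliser data
to a 2-central involution with centraliser `2 × A₅`. -/

set_option autoImplicit false

namespace Cfsg.Agent.Lib.O175

open Subgroup Cfsg.Agent.Lib.SmallGroups2

variable {G : Type*} [Group G] [Finite G]

theorem twoCentral_of_elem (hE : ∀ P : Sylow 2 G, ∀ x ∈ (P : Subgroup G), x * x = 1) (t : G)
    (ht : orderOf t = 2) : Cfsg.IsTwoCentralInvolution t := by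
  refine ⟨ht, ?_⟩
  haveI : Fact (Nat.Prime 2) := ⟨Nat.prime_two⟩
  obtain ⟨P, hP⟩ := exists_sylow_mem_of_orderOf ht
  refine ⟨P, hP, fun x hx => ?_⟩
  have h1 := hE P x hx
  have h2 := hE P t hP
  have h3 := hE P (x * t) (P.mul_mem hx hP)
  have hx' : x⁻¹ = x := inv_eq_of_mul_eq_one_left h1
  have ht' : t⁻¹ = t := inv_eq_of_mul_eq_one_left h2
  have h4 : (x * t)⁻¹ = x * t := inv_eq_of_mul_eq_one_left h3
  rw [mul_inv_rev, hx', ht'] at h4
  exact h4.symm

theorem elem_centralizer (hE : ∀ P : Sylow 2 G, ∀ x ∈ (P : Subgroup G), x * x = 1)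
    (K : Subgroup G) : ∀ S : Sylow 2 K, ∀ x ∈ (S : Subgroup K), x * x = 1 := by
  intro S x hx
  haveI : Fact (Nat.Prime 2) := ⟨Nat.prime_two⟩
  have hp : IsPGroup 2 ((S : Subgroup K).map K.subtype) :=
    S.isPGroup'.map K.subtype
  obtain ⟨Q, hQ⟩ := hp.exists_le_sylow
  have hm : (x : G) ∈ (Q : Subgroup G) := hQ (Subgroup.mem_map_of_mem K.subtype hx)
  have := hE Q _ hm
  exact Subtype.ext (by simpa using this)

theorem nat_key_n5 : ∀ n ∈ Finset.range 1464, n ∣ 1463 → n % 5 = 1 → 19 ≤ n → False := by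
  decide +kernel

theorem hn5_of_card [IsSimpleGroup G] (hG : Nat.card G = 175560) (t : G)
    (h : Nat.card (centralizer ({t} : Set G)) = 120) :
    Nat.card (Sylow 5 (centralizer ({t} : Set G))) ≠ 1 := by
  intro h1
  set H := centralizer ({t} : Set G) with hH
  haveI : Fact (Nat.Prime 5) := ⟨by norm_num⟩
  haveI : Fact (Nat.Prime 19) := ⟨by norm_num⟩
  obtain ⟨hsub, hne⟩ := (Nat.card_eq_one_iff_unique).1 h1
  obtain ⟨S⟩ := hne
  haveI hSn : (S : Subgroup H).Normal := Sylow.normal_of_subsingleton S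
  have hScard : Nat.card (S : Subgroup H) = 5 := by
    have := sylow_card_of_card_eq (p := 5) (a := 1) (m := 24) (G := H) (by rw [h]; norm_num) (by norm_num) S
    simpa using this
  set A : Subgroup G := (S : Subgroup H).map H.subtype with hA
  have hAcard : Nat.card A = 5 := by
    rw [hA, Subgroup.card_map_of_injective H.subtype_injective]
    exact hScard
  have hAp : IsPGroup 5 A := IsPGroup.of_card (n := 1) (by simpa using hAcard)
  obtain ⟨Y, hY⟩ := hAp.exists_le_sylow
  have hYcard : Nat.card (Y : Subgroup G) = 5 := by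
    have := sylow_card_of_card_eq (p := 5) (a := 1) (m := 35112) (G := G) (by rw [hG]; norm_num) (by norm_num) Y
    simpa using this
  have hAY : A = (Y : Subgroup G) := Subgroup.eq_of_le_of_card_ge hY (by rw [hYcard, hAcard])
  have hle : H ≤ normalizer ((Y : Subgroup G) : Set G) := by
    rw [← hAY, hA]
    have h2 := Subgroup.le_normalizer_map (H := (S : Subgroup H)) H.subtype
    intro g hg
    apply h2
    refine ⟨⟨g, hg⟩, ?_, rfl⟩
    have : normalizer ((S : Subgroup H) : Set H) = ⊤ := Subgroup.normalizer_eq_top_iff.2 hSn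
    simp only [SetLike.mem_coe]
    rw [this]
    exact Subgroup.mem_top _
  have hdvd : Nat.card H ∣ Nat.card (normalizer ((Y : Subgroup G) : Set G)) :=
    Subgroup.card_dvd_of_le hle
  have hmul := card_normalizer_mul_card_sylow Y
  rw [hG] at hmul
  rw [h] at hdvd
  obtain ⟨k, hk⟩ := hdvd
  have hnG : ¬ IsMulCommutative G := by
    apply not_isMulCommutative_of_not_prime
    rw [hG]; norm_num
  have hn1 : Nat.card (Sylow 5 G) ∣ 1463 := by
    rw [hk] at hmul
    refine ⟨k, ?_⟩
    nlinarith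
  have hmod : Nat.card (Sylow 5 G) % 5 = 1 % 5 := card_sylow_mod
  have hf := two_mul_card_dvd_factorial_card_sylow (G := G) hnG (p := 5) (by rw [hG]; norm_num)
  have h19 : 19 ∣ (Nat.card (Sylow 5 G)).factorial :=
    dvd_trans (by rw [hG]; norm_num) hf
  have h19' : 19 ≤ Nat.card (Sylow 5 G) := (Nat.Prime.dvd_factorial (by norm_num)).1 h19
  have hle2 : Nat.card (Sylow 5 G) ≤ 1463 := Nat.le_of_dvd (by norm_num) hn1
  exact nat_key_n5 _ (Finset.mem_range.2 (by omega)) hn1 (by simpa using hmod) h19'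

/-- The assembly: any finite simple group of order 175560 has a 2-central involution with centraliser
`2 × A₅`, given the pieces. -/
theorem exists_inv_of_pieces [IsSimpleGroup G] (hG : Nat.card G = 175560)
    (hE : ∀ P : Sylow 2 G, ∀ x ∈ (P : Subgroup G), x * x = 1)
    (hcc : ∀ t : G, orderOf t = 2 → Nat.card (centralizer ({t} : Set G)) = 120)
    (iso120 : ∀ (t : G), orderOf t = 2 → ∀ (t' : centralizer ({t} : Set G)), orderOf t' = 2 →
      (∀ x, x * t' = t' * x) →
      (∀ S : Sylow 2 (centralizer ({t} : Set G)), ∀ x ∈ (S : Subgroup (centralizer ({t} : Set G))), x * x = 1) →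
      Nat.card (Sylow 5 (centralizer ({t} : Set G))) ≠ 1 →
      Nonempty (centralizer ({t} : Set G) ≃* Multiplicative (ZMod 2) × alternatingGroup (Fin 5))) :
    ∃ t : G, Cfsg.IsTwoCentralInvolution t ∧
      Nonempty (centralizer ({t} : Set G) ≃* Multiplicative (ZMod 2) × alternatingGroup (Fin 5)) := by
  haveI : Fact (Nat.Prime 2) := ⟨Nat.prime_two⟩
  obtain ⟨t, ht⟩ := exists_prime_orderOf_dvd_card' (G := G) 2 (by rw [hG]; norm_num)
  refine ⟨t, twoCentral_of_elem hE t ht, ?_⟩
  have hmem : t ∈ centralizer ({t} : Set G) := by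
    rw [Subgroup.mem_centralizer_iff]
    intro g hg
    rw [Set.mem_singleton_iff] at hg
    rw [hg]
  refine iso120 t ht ⟨t, hmem⟩ (by rw [← Subgroup.orderOf_coe]; exact ht) ?_ (elem_centralizer hE _) (hn5_of_card hG t (hcc t ht))
  intro x
  have hx := x.2
  rw [Subgroup.mem_centralizer_iff] at hx
  exact Subtype.ext (hx t rfl).symm

end Cfsg.Agent.Lib.O175
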