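import Mathlib
import Cfsg.Agent.Lib.O83D52
import Cfsg.Agent.Lib.OrthForm
import Cfsg.Agent.Lib.OrthoCount

/-!
# Eight reflections of the plus type form on `F₃⁸`

Codes of vectors in base three, the reflections on codes, and the matrices of the nine letters
`b, c, d, e, f, g, j, h, i`.
-/

set_option autoImplicit false
set_option maxRecDepth 100000
set_option linter.all false

namespace Cfsg.Agent.Lib.O83

open Cfsg Matrix
open Cfsg.Agent.Lib.OrthoCount (qPlus qPlus_apply)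

/-- The coordinates. -/
abbrev I8 : Type := Fin 4 ⊕ Fin 4

/-- The quadratic form. -/
noncomputable abbrev Q0 : QuadraticForm (ZMod 3) (I8 → ZMod 3) := qPlus 4 (ZMod 3)

/-- The position of a coordinate. -/
def pos : I8 → ℕ
  | .inl k => k
  | .inr k => 4 + k

/-- A ternary digit. -/
def dig (i k : ℕ) : ℕ := (i / 3 ^ k) % 3

/-- The vector of a code. -/
def decN (i : ℕ) : I8 → ZMod 3 := fun j => ((dig i (pos j) : ℕ) : ZMod 3)

/-- The polar form on codes. -/
def polN (a i : ℕ) : ℕ :=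
  dig a 0 * dig i 4 + dig a 4 * dig i 0 + dig a 1 * dig i 5 + dig a 5 * dig i 1
    + dig a 2 * dig i 6 + dig a 6 * dig i 2 + dig a 3 * dig i 7 + dig a 7 * dig i 3

/-- A digit of the image under the reflection. -/
def newD (a i k : ℕ) : ℕ := (dig i k + 2 * polN a i * dig a k) % 3

/-- A digit of the negative. -/
def negD (c k : ℕ) : ℕ := (2 * dig c k) % 3

/-- The code of given digits. -/
def pack (d : ℕ → ℕ) : ℕ :=
  d 0 + 3 * d 1 + 9 * d 2 + 27 * d 3 + 81 * d 4 + 243 * d 5 + 729 * d 6 + 2187 * d 7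

/-- The code of the image of the vector `i` under the reflection in `a`. -/
def imgR (a i : ℕ) : ℕ := pack (newD a i)

/-- The code of the negative. -/
def negC (c : ℕ) : ℕ := pack (negD c)

theorem newD_lt (a i k : ℕ) : newD a i k < 3 := Nat.mod_lt _ (by norm_num)

theorem negD_lt (c k : ℕ) : negD c k < 3 := Nat.mod_lt _ (by norm_num)

theorem pack_lt {d : ℕ → ℕ} (h : ∀ k, d k < 3) : pack d < 6561 := by
  have h0 := h 0
  have h1 := h 1
  have h2 := h 2
  have h3 := h 3
  have h4 := h 4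
  have h5 := h 5
  have h6 := h 6
  have h7 := h 7
  unfold pack
  omega

theorem dig_sum {d0 d1 d2 d3 d4 d5 d6 d7 : ℕ} (h0 : d0 < 3) (h1 : d1 < 3) (h2 : d2 < 3) (h3 : d3 < 3)
    (h4 : d4 < 3) (h5 : d5 < 3) (h6 : d6 < 3) (h7 : d7 < 3) (s : ℕ)
    (hs : s = d0 + 3 * d1 + 9 * d2 + 27 * d3 + 81 * d4 + 243 * d5 + 729 * d6 + 2187 * d7) :
    dig s 0 = d0 ∧ dig s 1 = d1 ∧ dig s 2 = d2 ∧ dig s 3 = d3 ∧ dig s 4 = d4 ∧ dig s 5 = d5 ∧ dig s 6 = d6
      ∧ dig s 7 = d7 := by
  simp only [dig]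
  norm_num
  refine ⟨?_, ?_, ?_, ?_, ?_, ?_, ?_, ?_⟩ <;> omega

theorem dig_pack {d : ℕ → ℕ} (h : ∀ k, d k < 3) (j : I8) : dig (pack d) (pos j) = d (pos j) := by
  obtain ⟨h0, h1, h2, h3, h4, h5, h6, h7⟩ := dig_sum (h 0) (h 1) (h 2) (h 3) (h 4) (h 5) (h 6) (h 7) (pack d) rfl
  rcases j with k | k
  · fin_cases k
    · exact h0
    · exact h1
    · exact h2
    · exact h3
  · fin_cases k
    · exact h4
    · exact h5
    · exact h6
    · exact h7

theorem polar_Q0 (u v : I8 → ZMod 3) : QuadraticMap.polar (⇑Q0) u v =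
    u (.inl 0) * v (.inr 0) + u (.inr 0) * v (.inl 0) + u (.inl 1) * v (.inr 1) + u (.inr 1) * v (.inl 1)
      + u (.inl 2) * v (.inr 2) + u (.inr 2) * v (.inl 2) + u (.inl 3) * v (.inr 3) + u (.inr 3) * v (.inl 3) := by
  simp only [QuadraticMap.polar, qPlus_apply, quadFormPlus, Fin.sum_univ_four, Pi.add_apply]
  ring

theorem polN_cast (a i : ℕ) : ((polN a i : ℕ) : ZMod 3) = QuadraticMap.polar (⇑Q0) (decN a) (decN i) := by
  rw [polar_Q0]
  show _ = ((dig a 0 : ℕ) : ZMod 3) * ((dig i 4 : ℕ) : ZMod 3) + ((dig a 4 : ℕ) : ZMod 3) * ((dig i 0 : ℕ) : ZMod 3)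
    + ((dig a 1 : ℕ) : ZMod 3) * ((dig i 5 : ℕ) : ZMod 3) + ((dig a 5 : ℕ) : ZMod 3) * ((dig i 1 : ℕ) : ZMod 3)
    + ((dig a 2 : ℕ) : ZMod 3) * ((dig i 6 : ℕ) : ZMod 3) + ((dig a 6 : ℕ) : ZMod 3) * ((dig i 2 : ℕ) : ZMod 3)
    + ((dig a 3 : ℕ) : ZMod 3) * ((dig i 7 : ℕ) : ZMod 3) + ((dig a 7 : ℕ) : ZMod 3) * ((dig i 3 : ℕ) : ZMod 3)
  unfold polN
  push_cast
  ring

theorem two_eq : (2 : ZMod 3) = -1 := by decide

theorem decN_imgR (a i : ℕ) :
    decN (imgR a i) = decN i - QuadraticMap.polar (⇑Q0) (decN a) (decN i) • decN a := by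
  ext j
  have h : decN (imgR a i) j = ((newD a i (pos j) : ℕ) : ZMod 3) := by
    unfold decN imgR
    rw [dig_pack (newD_lt a i)]
  rw [h, newD, ZMod.natCast_mod, ← polN_cast]
  push_cast
  rw [two_eq]
  simp only [Pi.sub_apply, Pi.smul_apply, smul_eq_mul, decN]
  ring

theorem decN_negC (c : ℕ) : decN (negC c) = - decN c := by
  ext j
  have h : decN (negC c) j = ((negD c (pos j) : ℕ) : ZMod 3) := by
    unfold decN negC
    rw [dig_pack (negD_lt c)]
  rw [h, negD, ZMod.natCast_mod]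
  push_cast
  rw [two_eq]
  simp only [Pi.neg_apply, decN]
  ring

theorem decN_inj {i j : ℕ} (hi : i < 6561) (hj : j < 6561) (h : decN i = decN j) : i = j := by
  have key : ∀ c : I8, dig i (pos c) = dig j (pos c) := by
    intro c
    have h1 := congrFun h c
    unfold decN at h1
    have h2 := (ZMod.natCast_eq_natCast_iff' _ _ 3).1 h1
    unfold dig at h2 ⊢
    omega
  have h0 := key (.inl 0)
  have h1 := key (.inl 1)
  have h2 := key (.inl 2)
  have h3 := key (.inl 3)
  have h4 := key (.inr 0)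
  have h5 := key (.inr 1)
  have h6 := key (.inr 2)
  have h7 := key (.inr 3)
  simp only [pos, dig, Fin.val_zero, Fin.val_one, Fin.val_two] at h0 h1 h2 h3 h4 h5 h6 h7
  norm_num at h0 h1 h2 h3 h4 h5 h6 h7
  have h3' : i / 27 % 3 = j / 27 % 3 := h3
  have h7' : i / 2187 % 3 = j / 2187 % 3 := h7
  omega

/-- The code of a letter. -/
def vc (i : Fin 9) : ℕ := vcL.getD i 0

theorem hQv (i : Fin 9) : Q0 (decN (vc i)) = 1 := by
  rw [qPlus_apply]
  simp only [quadFormPlus, Fin.sum_univ_four]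
  revert i
  decide +kernel

/-- The matrices of the letters. -/
noncomputable def Mat (i : Fin 9) : Matrix I8 I8 (ZMod 3) := reflectionMatrix (⇑Q0) (decN (vc i))

theorem hQv0 (i : Fin 9) : Q0 (decN (vc i)) ≠ 0 := by
  rw [hQv]
  decide

theorem Mat_mulVec (i : Fin 9) (u : I8 → ZMod 3) :
    Mat i *ᵥ u = u - QuadraticMap.polar (⇑Q0) (decN (vc i)) u • decN (vc i) := by
  rw [Mat, Cfsg.Agent.Lib.OrthForm.reflectionMatrix_mulVec, hQv, inv_one, one_mul]

theorem decN_img (i : Fin 9) (c : ℕ) : decN (imgR (vc i) c) = Mat i *ᵥ decN c := by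
  rw [decN_imgR, Mat_mulVec]

theorem Mat_sq (i : Fin 9) : Mat i * Mat i = 1 := by
  set v := decN (vc i) with hv
  have h0 : Q0 v ≠ 0 := hQv0 i
  have key : ∀ u, reflectionMatrix (⇑Q0) v *ᵥ (reflectionMatrix (⇑Q0) v *ᵥ u) = u := by
    intro u
    rw [Cfsg.Agent.Lib.OrthForm.reflectionMatrix_mulVec Q0 v u, mulVec_sub, mulVec_smul,
      Cfsg.Agent.Lib.OrthForm.reflection_self Q0 h0, Cfsg.Agent.Lib.OrthForm.reflectionMatrix_mulVec]
    simp
  rw [Mat]
  ext a b
  have h1 := congrFun (key (Pi.single b 1)) a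
  rw [mulVec_mulVec, mulVec_single_one] at h1
  simpa [Matrix.one_apply, Pi.single_apply, eq_comm] using h1

/-- The isometry group. -/
noncomputable abbrev OG : Subgroup (Matrix.GeneralLinearGroup I8 (ZMod 3)) := isometryGroup (ZMod 3) (⇑Q0)

/-- The generators as isometries. -/
noncomputable def genO (i : Fin 9) : OG :=
  ⟨⟨Mat i, Mat i, Mat_sq i, Mat_sq i⟩, (Cfsg.Agent.Lib.OrthForm.mem_isometryGroup Q0 _).2 (by
    intro u
    show Q0 (Mat i *ᵥ u) = Q0 u
    rw [Mat, Cfsg.Agent.Lib.OrthForm.Q_reflection Q0 (hQv0 i)])⟩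

/-- The matrix of an isometry. -/
noncomputable def matOf : OG →* Matrix I8 I8 (ZMod 3) := (Units.coeHom _).comp (Subgroup.subtype _)

theorem matOf_genO (i : Fin 9) : matOf (genO i) = Mat i := rfl

theorem matOf_genO_inv (i : Fin 9) : matOf (genO i)⁻¹ = Mat i := rfl

theorem eq_one_of_matOf {g : OG} (h : matOf g = 1) : g = 1 := Subtype.ext (Units.ext h)

theorem genO_sq (i : Fin 9) : genO i * genO i = 1 := by
  apply eq_one_of_matOf
  rw [map_mul, matOf_genO, Mat_sq]

theorem decN_single (j : I8) : decN (3 ^ pos j) = Pi.single j 1 := by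
  revert j
  decide +kernel

theorem Q_matOf (g : OG) (u : I8 → ZMod 3) : Q0 (matOf g *ᵥ u) = Q0 u :=
  (Cfsg.Agent.Lib.OrthForm.mem_isometryGroup Q0 _).1 g.2 u

theorem polar_matOf (g : OG) (u v : I8 → ZMod 3) :
    QuadraticMap.polar (⇑Q0) (matOf g *ᵥ u) (matOf g *ᵥ v) = QuadraticMap.polar (⇑Q0) u v := by
  simp only [QuadraticMap.polar, ← mulVec_add, Q_matOf]

theorem ext_single {M : Matrix I8 I8 (ZMod 3)} (h : ∀ j, M *ᵥ (Pi.single j 1 : I8 → ZMod 3) = Pi.single j 1) : M = 1 := by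
  ext i j
  have h1 := congrFun (h j) i
  rw [mulVec_single_one] at h1
  simpa [Matrix.one_apply, Pi.single_apply, eq_comm] using h1

/-- A cube of a product of two reflections. -/
theorem edge_cube {a b : Fin 9}
    (h : ∀ j : I8, imgR (vc a) (imgR (vc b) (imgR (vc a) (imgR (vc b) (imgR (vc a) (imgR (vc b) (3 ^ pos j)))))) = 3 ^ pos j) :
    (genO a * genO b) ^ 3 = 1 := by
  have hM : ∀ j : I8, Mat a *ᵥ (Mat b *ᵥ (Mat a *ᵥ (Mat b *ᵥ (Mat a *ᵥ (Mat b *ᵥ decN (3 ^ pos j)))))) = decN (3 ^ pos j) := by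
    intro j
    have h1 := congrArg decN (h j)
    rw [decN_img a, decN_img b, decN_img a, decN_img b, decN_img a, decN_img b] at h1
    exact h1
  apply eq_one_of_matOf
  have e : matOf ((genO a * genO b) ^ 3) = Mat a * (Mat b * (Mat a * (Mat b * (Mat a * Mat b)))) := by
    simp only [map_pow, map_mul, matOf_genO, pow_succ, pow_zero, one_mul, mul_assoc]
  rw [e]
  apply ext_single
  intro j
  have h2 := hM j
  rw [decN_single] at h2
  simpa only [mulVec_mulVec] using h2

theorem cube01 : (genO 0 * genO 1) ^ 3 = 1 := edge_cube (a := 0) (b := 1) (by decide +kernel)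
theorem cube12 : (genO 1 * genO 2) ^ 3 = 1 := edge_cube (a := 1) (b := 2) (by decide +kernel)
theorem cube23 : (genO 2 * genO 3) ^ 3 = 1 := edge_cube (a := 2) (b := 3) (by decide +kernel)
theorem cube27 : (genO 2 * genO 7) ^ 3 = 1 := edge_cube (a := 2) (b := 7) (by decide +kernel)
theorem cube34 : (genO 3 * genO 4) ^ 3 = 1 := edge_cube (a := 3) (b := 4) (by decide +kernel)
theorem cube45 : (genO 4 * genO 5) ^ 3 = 1 := edge_cube (a := 4) (b := 5) (by decide +kernel)
theorem cube56 : (genO 5 * genO 6) ^ 3 = 1 := edge_cube (a := 5) (b := 6) (by decide +kernel)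
theorem cube78 : (genO 7 * genO 8) ^ 3 = 1 := edge_cube (a := 7) (b := 8) (by decide +kernel)

/-- The coefficients of the standard basis. -/
def CT (j : I8) (i : Fin 9) : ZMod 3 :=
  (([[2, 1, 0, 0, 0, 0, 0, 0, 0], [0, 0, 0, 0, 0, 1, 2, 0, 0], [0, 0, 0, 1, 0, 2, 0, 2, 0], [2, 2, 0, 1, 0, 2, 2, 0, 0],
    [1, 2, 2, 0, 0, 0, 0, 0, 0], [0, 0, 0, 0, 2, 2, 1, 0, 0], [1, 2, 0, 2, 0, 1, 0, 2, 0], [0, 1, 0, 2, 0, 1, 1, 0, 0]] :
      List (List ℕ)).getD (pos j) []).getD i 0

theorem hspan (j : I8) : (Pi.single j 1 : I8 → ZMod 3) = ∑ i : Fin 9, CT j i • decN (vc i) := by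
  revert j
  decide +kernel

/-- A matrix scalar on the vectors of the letters is scalar. -/
theorem eq_scalar {h : Matrix I8 I8 (ZMod 3)} {s : ZMod 3} (hh : ∀ i : Fin 9, h *ᵥ decN (vc i) = s • decN (vc i)) :
    h = s • (1 : Matrix I8 I8 (ZMod 3)) := by
  ext a b
  have h1 : h *ᵥ (Pi.single b 1 : I8 → ZMod 3) = s • (Pi.single b 1 : I8 → ZMod 3) := by
    rw [hspan b, mulVec_sum, Finset.smul_sum]
    refine Finset.sum_congr rfl fun i _ => ?_
    rw [mulVec_smul, hh i, smul_comm]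
  have h2 := congrFun h1 a
  rw [mulVec_single_one] at h2
  simpa [Matrix.one_apply, Pi.single_apply, eq_comm] using h2

/-- Two vectors equal up to sign. -/
def Rel (u v : I8 → ZMod 3) : Prop := u = v ∨ u = - v

theorem Rel.mat (h : Matrix I8 I8 (ZMod 3)) {u v : I8 → ZMod 3} (r : Rel u v) : Rel (h *ᵥ u) (h *ᵥ v) := by
  rcases r with rfl | rfl
  · exact Or.inl rfl
  · right
    rw [mulVec_neg]

theorem Rel.trans' {u v w : I8 → ZMod 3} (r : Rel u v) (r' : Rel v w) : Rel u w := by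
  rcases r with rfl | rfl <;> rcases r' with rfl | rfl
  · exact Or.inl rfl
  · exact Or.inr rfl
  · exact Or.inr rfl
  · left
    simp

theorem Rel.symm' {u v : I8 → ZMod 3} (r : Rel u v) : Rel v u := by
  rcases r with rfl | rfl
  · exact Or.inl rfl
  · right
    simp

/-- Propagation of the sign along an edge. -/
theorem sign_edge (g : OG) {a b : Fin 9}
    (hpol : QuadraticMap.polar (⇑Q0) (decN (vc a)) (decN (vc b)) = -1) {s : ZMod 3} (hs : s = 1 ∨ s = -1)
    (ha : matOf g *ᵥ decN (vc a) = s • decN (vc a)) (hb : Rel (matOf g *ᵥ decN (vc b)) (decN (vc b))) :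
    matOf g *ᵥ decN (vc b) = s • decN (vc b) := by
  have h1 := polar_matOf g (decN (vc a)) (decN (vc b))
  rw [ha, hpol] at h1
  rcases hb with hb | hb
  · rw [hb] at h1
    have h2 : s = 1 := by
      have h3 : QuadraticMap.polar (⇑Q0) (s • decN (vc a)) (decN (vc b)) = s * QuadraticMap.polar (⇑Q0) (decN (vc a)) (decN (vc b)) := by
        simp only [polar_Q0, Pi.smul_apply, smul_eq_mul]
        ring
      rw [h3, hpol] at h1
      rcases hs with rfl | rfl
      · rfl
      · exact absurd h1 (by decide)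
    rw [hb, h2, one_smul]
  · rw [hb] at h1
    have h2 : s = -1 := by
      have h3 : QuadraticMap.polar (⇑Q0) (s • decN (vc a)) (- decN (vc b)) = - (s * QuadraticMap.polar (⇑Q0) (decN (vc a)) (decN (vc b))) := by
        simp only [polar_Q0, Pi.smul_apply, Pi.neg_apply, smul_eq_mul]
        ring
      rw [h3, hpol] at h1
      rcases hs with rfl | rfl
      · exact absurd h1 (by decide)
      · rfl
    rw [hb, h2, neg_one_smul]

theorem pol {a b : Fin 9} (h : (polN (vc a) (vc b)) % 3 = 2) :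
    QuadraticMap.polar (⇑Q0) (decN (vc a)) (decN (vc b)) = -1 := by
  rw [← polN_cast, ← two_eq, ← ZMod.natCast_mod, h]
  rfl

theorem pol01 : QuadraticMap.polar (⇑Q0) (decN (vc 0)) (decN (vc 1)) = -1 := pol (a := 0) (b := 1) (by decide +kernel)
theorem pol12 : QuadraticMap.polar (⇑Q0) (decN (vc 1)) (decN (vc 2)) = -1 := pol (a := 1) (b := 2) (by decide +kernel)
theorem pol23 : QuadraticMap.polar (⇑Q0) (decN (vc 2)) (decN (vc 3)) = -1 := pol (a := 2) (b := 3) (by decide +kernel)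
theorem pol27 : QuadraticMap.polar (⇑Q0) (decN (vc 2)) (decN (vc 7)) = -1 := pol (a := 2) (b := 7) (by decide +kernel)
theorem pol34 : QuadraticMap.polar (⇑Q0) (decN (vc 3)) (decN (vc 4)) = -1 := pol (a := 3) (b := 4) (by decide +kernel)
theorem pol45 : QuadraticMap.polar (⇑Q0) (decN (vc 4)) (decN (vc 5)) = -1 := pol (a := 4) (b := 5) (by decide +kernel)
theorem pol56 : QuadraticMap.polar (⇑Q0) (decN (vc 5)) (decN (vc 6)) = -1 := pol (a := 5) (b := 6) (by decide +kernel)
theorem pol78 : QuadraticMap.polar (⇑Q0) (decN (vc 7)) (decN (vc 8)) = -1 := pol (a := 7) (b := 8) (by decide +kernel)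

/-- An isometry keeping all the lines of the letters is `±1`. -/
theorem matOf_eq_sign (g : OG) (hg : ∀ i : Fin 9, Rel (matOf g *ᵥ decN (vc i)) (decN (vc i))) :
    matOf g = (1 : Matrix I8 I8 (ZMod 3)) ∨ matOf g = (-1 : ZMod 3) • (1 : Matrix I8 I8 (ZMod 3)) := by
  have key : ∀ s : ZMod 3, (s = 1 ∨ s = -1) → matOf g *ᵥ decN (vc 0) = s • decN (vc 0) →
      matOf g = s • (1 : Matrix I8 I8 (ZMod 3)) := by
    intro s hs h0
    have h1 := sign_edge g pol01 hs h0 (hg 1)
    have h2 := sign_edge g pol12 hs h1 (hg 2)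
    have h3 := sign_edge g pol23 hs h2 (hg 3)
    have h7 := sign_edge g pol27 hs h2 (hg 7)
    have h4 := sign_edge g pol34 hs h3 (hg 4)
    have h5 := sign_edge g pol45 hs h4 (hg 5)
    have h6 := sign_edge g pol56 hs h5 (hg 6)
    have h8 := sign_edge g pol78 hs h7 (hg 8)
    apply eq_scalar
    intro i
    fin_cases i
    · exact h0
    · exact h1
    · exact h2
    · exact h3
    · exact h4
    · exact h5
    · exact h6
    · exact h7
    · exact h8
  rcases hg 0 with h | h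
  · left
    have := key 1 (Or.inl rfl) (by rw [h, one_smul])
    rwa [one_smul] at this
  · right
    exact key (-1) (Or.inr rfl) (by rw [h, neg_one_smul])

/-- Isometries which are scalar are central. -/
theorem central_of_sign {g : OG} (h : matOf g = 1 ∨ matOf g = (-1 : ZMod 3) • (1 : Matrix I8 I8 (ZMod 3))) (x : OG) :
    x * g = g * x := by
  have inj : ∀ {a b : OG}, matOf a = matOf b → a = b := fun {a b} hab => Subtype.ext (Units.ext hab)
  apply inj
  rw [map_mul, map_mul]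
  rcases h with h | h <;> rw [h]
  · simp
  · simp

end Cfsg.Agent.Lib.O83
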