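import Mathlib
import Cfsg.Agent.Lib.Fi23K24
import Cfsg.Agent.Lib.O83V52

/-!
# The nine letters `b, …, j` of `Fi₂₃` act on 1080 points as reflections on `F₃⁸`
-/

set_option autoImplicit false
set_option maxRecDepth 1000000
set_option linter.all false

namespace Cfsg.Agent.Lib.O83

open Cfsg Matrix
open Cfsg.Agent.Lib.OutTree36 Cfsg.Agent.Lib.TcBits Cfsg.Agent.Lib.TcPres Cfsg.Agent.Lib.PresChain36
open Cfsg.Agent.Lib.TcFacts (allRange allRange_spec sumRange)
open Cfsg.Agent.TcData.Fi23.I31671 Cfsg.Agent.TcData.Fi23 Cfsg.Agent.TcChain36.Fi23 Cfsg.Agent.TcChain36.Out.Fi23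
open Cfsg.Agent.Lib.Fi23K24

/-- The nine letters. -/
noncomputable abbrev x (i : Fin 9) : Gq := Lt (i.val + 1)

theorem iv_x (i : Fin 9) : iv (i.val + 1) = i.val + 1 := by
  revert i; decide +kernel

theorem x_inv (i : Fin 9) : (x i)⁻¹ = x i := by
  rw [x, ← hiv, iv_x]

theorem x_sq (i : Fin 9) : x i * x i = 1 := by
  nth_rewrite 1 [← x_inv i]
  simp

/-- The code of the vector of a point. -/
def cc (p : ℕ) : ℕ := tget 13 ccT p

/-- The point of a code. -/
def ci (c : ℕ) : ℕ := tget 15 ciT c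

/-- The check of the action of a letter. -/
def chkE (i p : ℕ) : Bool :=
  cond (M1.testBit p)
    (cond (M1.testBit (ap (i + 1) p))
      (Bool.or (Nat.beq (imgR (vcL.getD i 0) (cc p)) (cc (ap (i + 1) p)))
        (Nat.beq (imgR (vcL.getD i 0) (cc p)) (negC (cc (ap (i + 1) p)))))
      false)
    true

/-- The check of the codes. -/
def chkC (p : ℕ) : Bool :=
  cond (M1.testBit p)
    (Bool.and (Nat.blt (cc p) 6561) (Bool.and (Nat.beq (ci (cc p)) p) (Nat.beq (ci (negC (cc p))) p)))
    true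

theorem chkE_all0 : allRange (chkE 0) 15 0 = true := by decide +kernel
theorem chkE_all1 : allRange (chkE 1) 15 0 = true := by decide +kernel
theorem chkE_all2 : allRange (chkE 2) 15 0 = true := by decide +kernel
theorem chkE_all3 : allRange (chkE 3) 15 0 = true := by decide +kernel
theorem chkE_all4 : allRange (chkE 4) 15 0 = true := by decide +kernel
theorem chkE_all5 : allRange (chkE 5) 15 0 = true := by decide +kernel
theorem chkE_all6 : allRange (chkE 6) 15 0 = true := by decide +kernel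
theorem chkE_all7 : allRange (chkE 7) 15 0 = true := by decide +kernel
theorem chkE_all8 : allRange (chkE 8) 15 0 = true := by decide +kernel

theorem chkC_all : allRange chkC 15 0 = true := by decide +kernel

theorem M1_small : M1 < 2 ^ 31671 := by decide +kernel

theorem M1_lt {p : ℕ} (h : M1.testBit p = true) : p < 31671 := by
  by_contra h1
  have h2 : M1 < 2 ^ p := lt_of_lt_of_le M1_small (Nat.pow_le_pow_right (by norm_num) (by omega))
  rw [Nat.testBit_lt_two_pow h2] at h
  exact Bool.noConfusion h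

theorem p_lt {p : ℕ} (h : M1.testBit p = true) : p < 0 + 2 ^ 15 := by
  have := M1_lt h
  norm_num
  omega

theorem chkE_spec (i : Fin 9) {p : ℕ} (h : M1.testBit p = true) : chkE i p = true := by
  have hp := p_lt h
  have key : allRange (chkE i) 15 0 = true := by
    fin_cases i
    · exact chkE_all0
    · exact chkE_all1
    · exact chkE_all2
    · exact chkE_all3
    · exact chkE_all4
    · exact chkE_all5
    · exact chkE_all6
    · exact chkE_all7
    · exact chkE_all8
  exact allRange_spec 15 0 key p (Nat.zero_le _) hp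

theorem step_x (i : Fin 9) {p : ℕ} (h : M1.testBit p = true) :
    M1.testBit (Phi (x i) p) = true ∧ Rel (decN (cc (Phi (x i) p))) (Mat i *ᵥ decN (cc p)) := by
  have h1 := chkE_spec i h
  have e : Phi (x i) p = ap (i.val + 1) p := H.ap_eq _ p (M1_lt h)
  rw [e]
  unfold chkE at h1
  rw [h, cond_true] at h1
  cases h2 : M1.testBit (ap (i.val + 1) p) with
  | false =>
    rw [h2] at h1
    exact Bool.noConfusion h1
  | true =>
    rw [h2, cond_true, Bool.or_eq_true] at h1
    refine ⟨rfl, ?_⟩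
    rw [← decN_img i (cc p)]
    rcases h1 with h1 | h1
    · left
      have h3 := Nat.eq_of_beq_eq_true h1
      show decN (cc _) = decN (imgR (vcL.getD i.val 0) (cc p))
      rw [h3]
    · right
      have h3 := Nat.eq_of_beq_eq_true h1
      show decN (cc _) = - decN (imgR (vcL.getD i.val 0) (cc p))
      rw [h3, decN_negC]
      simp

/-- The free group on the letters. -/
abbrev F9 : Type := FreeGroup (Fin 9)

/-- The map to the group. -/
noncomputable def uG : F9 →* Gq := FreeGroup.lift x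

/-- The map to the isometries. -/
noncomputable def vO : F9 →* OG := FreeGroup.lift genO

theorem uG_of (i : Fin 9) : uG (FreeGroup.of i) = x i := FreeGroup.lift_apply_of

theorem vO_of (i : Fin 9) : vO (FreeGroup.of i) = genO i := FreeGroup.lift_apply_of

theorem equiv_free (w : F9) : ∀ p, M1.testBit p = true →
    M1.testBit (Phi (uG w) p) = true ∧ Rel (decN (cc (Phi (uG w) p))) (matOf (vO w) *ᵥ decN (cc p)) := by
  induction w using FreeGroup.induction_on with
  | C1 =>
    intro p hp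
    simp only [map_one, Equiv.Perm.one_apply, one_mulVec]
    exact ⟨hp, Or.inl rfl⟩
  | of i =>
    intro p hp
    rw [uG_of, vO_of, matOf_genO]
    exact step_x i hp
  | inv_of i _ =>
    intro p hp
    have e1 : uG (FreeGroup.of i)⁻¹ = x i := by rw [map_inv, uG_of, x_inv]
    have e2 : matOf (vO (FreeGroup.of i)⁻¹) = Mat i := by rw [map_inv, vO_of]; rfl
    rw [e1, e2]
    exact step_x i hp
  | mul u v hu hv =>
    intro p hp
    obtain ⟨h1, h2⟩ := hv p hp
    obtain ⟨h3, h4⟩ := hu _ h1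
    have e : matOf (vO (u * v)) = matOf (vO u) * matOf (vO v) := by rw [map_mul, map_mul]
    have e' : Phi (uG (u * v)) p = Phi (uG u) (Phi (uG v) p) := by rw [map_mul, map_mul, Equiv.Perm.mul_apply]
    rw [e, e', ← mulVec_mulVec]
    exact ⟨h3, h4.trans' (h2.mat _)⟩

theorem chkC_spec {p : ℕ} (h : M1.testBit p = true) :
    cc p < 6561 ∧ ci (cc p) = p ∧ ci (negC (cc p)) = p := by
  have h1 := allRange_spec 15 0 chkC_all p (Nat.zero_le _) (p_lt h)
  unfold chkC at h1
  rw [h, cond_true] at h1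
  have h2 : Nat.blt (cc p) 6561 = true ∧ Nat.beq (ci (cc p)) p = true ∧ Nat.beq (ci (negC (cc p))) p = true := by
    simpa using h1
  exact ⟨by simpa [Nat.blt_eq] using h2.1, Nat.eq_of_beq_eq_true h2.2.1, Nat.eq_of_beq_eq_true h2.2.2⟩

/-- Two points of the same line are equal. -/
theorem eq_of_rel {p q : ℕ} (hp : M1.testBit p = true) (hq : M1.testBit q = true)
    (h : Rel (decN (cc p)) (decN (cc q))) : p = q := by
  obtain ⟨h1, h2, h3⟩ := chkC_spec hp
  obtain ⟨h4, h5, h6⟩ := chkC_spec hq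
  rcases h with h | h
  · have := decN_inj h1 h4 h
    rw [← h2, this, h5]
  · rw [← decN_negC] at h
    have h7 : cc p = negC (cc q) := decN_inj h1 (pack_lt (fun k => Nat.mod_lt _ (by norm_num))) h
    rw [← h2, h7, h6]

/-- An element acting as a scalar acts trivially. -/
theorem fix_of_sign {w : F9} (h : matOf (vO w) = 1 ∨ matOf (vO w) = (-1 : ZMod 3) • (1 : Matrix I8 I8 (ZMod 3))) {p : ℕ}
    (hp : M1.testBit p = true) : Phi (uG w) p = p := by
  obtain ⟨h1, h2⟩ := equiv_free w p hp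
  apply eq_of_rel h1 hp
  refine Rel.trans' h2 ?_
  rcases h with h | h
  · rw [h, one_mulVec]
    exact Or.inl rfl
  · rw [h, smul_mulVec, one_mulVec]
    right
    simp

/-! ### The points of the letters -/

/-- Words of the points of the letters. -/
def wL : List (List ℕ) := [
  [2, 3, 8, 4, 5, 3, 4, 2, 3, 8, 6, 7, 5, 6, 4, 5, 3, 4, 2, 3, 8, 1, 2, 3, 4, 5, 6, 7],
  [3, 8, 4, 5, 3, 4, 1, 2, 3, 8, 6, 7, 5, 6, 4, 5, 3, 4, 2, 3, 8, 1, 2, 3, 4, 5, 6, 7],
  [8, 4, 5, 2, 3, 4, 1, 2, 3, 8, 6, 7, 5, 6, 4, 5, 3, 4, 2, 3, 8, 1, 2, 3, 4, 5, 6, 7],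
  [3, 8, 5, 2, 3, 4, 1, 2, 3, 8, 6, 7, 5, 6, 4, 5, 3, 4, 2, 3, 8, 1, 2, 3, 4, 5, 6, 7],
  [4, 3, 8, 2, 3, 4, 1, 2, 3, 8, 6, 7, 5, 6, 4, 5, 3, 4, 2, 3, 8, 1, 2, 3, 4, 5, 6, 7],
  [5, 4, 3, 8, 2, 3, 4, 1, 2, 3, 8, 7, 5, 6, 4, 5, 3, 4, 2, 3, 8, 1, 2, 3, 4, 5, 6, 7],
  [6, 5, 4, 3, 8, 2, 3, 4, 1, 2, 3, 8, 5, 6, 4, 5, 3, 4, 2, 3, 8, 1, 2, 3, 4, 5, 6, 7],
  [3, 4, 5, 2, 3, 4, 1, 2, 3, 8, 6, 7, 5, 6, 4, 5, 3, 4, 2, 3, 8, 1, 2, 3, 4, 5, 6, 7],
  [8, 3, 4, 2, 3, 8, 5, 6, 4, 5, 3, 4, 2, 3, 8, 9, 7, 6, 5, 4, 3, 8, 2, 3, 4, 5, 6, 7]]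

/-- The word of the first letter. -/
def wA : List ℕ := [1, 2, 3, 8, 4, 5, 3, 4, 2, 3, 8, 6, 7, 5, 6, 4, 5, 3, 4, 2, 3, 8, 0, 1, 2, 3, 4, 5, 6, 7]

/-- The point of a letter. -/
def pt (i : Fin 9) : ℕ := ptL.getD i.val 0

theorem x_eq_trq (i : Fin 9) : x i = trq (wL.getD i.val []) := by
  have h : isOne ap bsL (trW (wL.getD i.val []) ++ [i.val + 1]) = true := by
    revert i; decide +kernel
  have h1 := evL_eq_one h
  rw [evL_append, evL_trW, evL_cons, evL_nil, mul_one] at h1
  rw [← x_inv i]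
  exact (eq_inv_of_mul_eq_one_left h1).symm ▸ by simp

theorem pq_x (i : Fin 9) : Pq (x i) (pt i) := by
  have h : ev ap (wL.getD i.val []) 0 = pt i := by
    revert i; decide +kernel
  rw [← h]
  exact pq_of_word (x_eq_trq i)

theorem pt_M1 (i : Fin 9) : M1.testBit (pt i) = true := by
  revert i; decide +kernel

theorem pq_a : Pq (Lt 0) 11589 := by
  have h : isOne ap bsL (trW wA ++ [0]) = true := by decide +kernel
  have h1 := evL_eq_one h
  rw [evL_append, evL_trW, evL_cons, evL_nil, mul_one] at h1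
  have h2 : Lt 0 = trq wA := by
    have h3 : (Lt 0)⁻¹ = Lt 0 := by
      have : iv 0 = 0 := by decide +kernel
      rw [← hiv, this]
    rw [← h3]
    exact (eq_inv_of_mul_eq_one_left h1).symm ▸ by simp
  have h4 : ev ap wA 0 = 11589 := by decide +kernel
  rw [← h4]
  exact pq_of_word h2

/-- The check of the fixed points of five letters. -/
def chkA (r : ℕ) : Bool :=
  cond (Nat.blt r 31671)
    (cond (Nat.beq (ap 2 r) r)
      (cond (Nat.beq (ap 3 r) r)
        (cond (Nat.beq (ap 4 r) r)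
          (cond (Nat.beq (ap 5 r) r)
            (cond (Nat.beq (ap 8 r) r)
              (Bool.or (M1.testBit r) (Nat.beq r 11589))
              true)
            true)
          true)
        true)
      true)
    true

theorem chkA_all : allRange chkA 15 0 = true := by decide +kernel

theorem fix_A {r : ℕ} (hr : r < 31671) (h2 : Phi (Lt 2) r = r) (h3 : Phi (Lt 3) r = r) (h4 : Phi (Lt 4) r = r)
    (h5 : Phi (Lt 5) r = r) (h8 : Phi (Lt 8) r = r) : M1.testBit r = true ∨ r = 11589 := by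
  have h := allRange_spec 15 0 chkA_all r (Nat.zero_le _) (by norm_num; omega)
  rw [H.ap_eq _ r hr] at h2 h3 h4 h5 h8
  unfold chkA at h
  have e : Nat.blt r 31671 = true := by simpa [Nat.blt_eq] using hr
  have b2 : Nat.beq (ap 2 r) r = true := by rw [h2]; exact Nat.beq_refl r
  have b3 : Nat.beq (ap 3 r) r = true := by rw [h3]; exact Nat.beq_refl r
  have b4 : Nat.beq (ap 4 r) r = true := by rw [h4]; exact Nat.beq_refl r
  have b5 : Nat.beq (ap 5 r) r = true := by rw [h5]; exact Nat.beq_refl r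
  have b8 : Nat.beq (ap 8 r) r = true := by rw [h8]; exact Nat.beq_refl r
  rw [e, b2, b3, b4, b5, b8] at h
  simp only [cond_true, Bool.or_eq_true] at h
  rcases h with h | h
  · exact Or.inl h
  · exact Or.inr (Nat.eq_of_beq_eq_true h)

theorem not_M1_a : M1.testBit 11589 = false := by decide +kernel

theorem a_fix2 : ap 2 11589 = 11589 ∧ ap 3 11589 = 11589 ∧ ap 4 11589 = 11589 ∧ ap 5 11589 = 11589 ∧ ap 8 11589 = 11589 := by
  decide +kernel

/-- An element of the group acting trivially on the 1080 points is trivial. -/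
theorem eq_one_of_fix {g : Gq} (h : ∀ p, M1.testBit p = true → Phi g p = p) : g = 1 := by
  have hc : ∀ i : Fin 9, g * x i = x i * g := fun i => comm_of_fix (pq_x i) (h _ (pt_M1 i))
  have hlet : ∀ i : Fin 9, Phi (x i) 11589 = 11589 → Phi (x i) (Phi g 11589) = Phi g 11589 := by
    intro i hi
    rw [← Equiv.Perm.mul_apply, ← map_mul, ← hc i, map_mul, Equiv.Perm.mul_apply, hi]
  have hbd : Phi g 11589 < 31671 := H.bd _ _ (by norm_num)
  obtain ⟨a2, a3, a4, a5, a8⟩ := a_fix2
  have ha : Phi g 11589 = 11589 := by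
    have h2 := hlet 1 (by rw [show x 1 = Lt 2 from rfl, H.ap_eq _ _ (by norm_num)]; exact a2)
    have h3 := hlet 2 (by rw [show x 2 = Lt 3 from rfl, H.ap_eq _ _ (by norm_num)]; exact a3)
    have h4 := hlet 3 (by rw [show x 3 = Lt 4 from rfl, H.ap_eq _ _ (by norm_num)]; exact a4)
    have h5 := hlet 4 (by rw [show x 4 = Lt 5 from rfl, H.ap_eq _ _ (by norm_num)]; exact a5)
    have h8 := hlet 7 (by rw [show x 7 = Lt 8 from rfl, H.ap_eq _ _ (by norm_num)]; exact a8)
    rcases fix_A hbd h2 h3 h4 h5 h8 with hM | he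
    · have h9 := h _ hM
      have h10 := (Phi g).injective h9
      rw [h10] at hM
      rw [not_M1_a] at hM
      exact Bool.noConfusion hM
    · exact he
  have hc0 : g * Lt 0 = Lt 0 * g := comm_of_fix pq_a ha
  have hLt : ∀ j, j < 10 → g * Lt j = Lt j * g := by
    intro j hj
    interval_cases j
    · exact hc0
    · exact hc 0
    · exact hc 1
    · exact hc 2
    · exact hc 3
    · exact hc 4
    · exact hc 5
    · exact hc 6
    · exact hc 7
    · exact hc 8
  have hcen : ∀ y : Gq, g * y = y * g := by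
    intro y
    have hy : y ∈ Subgroup.closure (Lt '' {j | j < 10}) := by
      rw [hgen]; trivial
    induction hy using Subgroup.closure_induction with
    | mem z hz =>
      obtain ⟨j, hj, rfl⟩ := hz
      exact hLt j hj
    | one => simp
    | mul a b _ _ h1 h2 =>
      calc g * (a * b) = (g * a) * b := by group
        _ = a * (g * b) := by rw [h1]; group
        _ = a * (b * g) := by rw [h2]
        _ = _ := by group
    | inv a _ h1 =>
      calc g * a⁻¹ = a⁻¹ * (a * g) * a⁻¹ := by group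
        _ = a⁻¹ * (g * a) * a⁻¹ := by rw [h1]
        _ = _ := by group
  have h0 : Phi g 0 = 0 := h 0 (by decide +kernel)
  apply hbs
  intro b hb
  obtain ⟨u, hu⟩ := htrans b (hbn b hb)
  rw [← hu, ← Equiv.Perm.mul_apply, ← map_mul, hcen u, map_mul, Equiv.Perm.mul_apply, h0]

end Cfsg.Agent.Lib.O83
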