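import Mathlib
import Cfsg.Agent.Lib.O83A52

/-!
# The even part of the group of the nine letters, the subgroup `Ω₇(3)` in it
-/

set_option autoImplicit false
set_option maxRecDepth 1000000
set_option linter.all false

namespace Cfsg.Agent.Lib.O83

open Cfsg Matrix
open Cfsg.Agent.Lib.OutTree36 Cfsg.Agent.Lib.TcBits Cfsg.Agent.Lib.TcPres Cfsg.Agent.Lib.PresChain36
open Cfsg.Agent.Lib.TcFacts (allRange allRange_spec sumRange)
open Cfsg.Agent.TcData.Fi23.I31671 Cfsg.Agent.TcData.Fi23 Cfsg.Agent.TcChain36.Fi23 Cfsg.Agent.TcChain36.Out.Fi23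
open Cfsg.Agent.Lib.Fi23K24

/-! ### Even words -/

/-- The parity of a word. -/
noncomputable def sg : F9 →* Multiplicative (ZMod 2) := FreeGroup.lift (fun _ => Multiplicative.ofAdd 1)

theorem sg_of (i : Fin 9) : sg (FreeGroup.of i) = Multiplicative.ofAdd 1 := FreeGroup.lift_apply_of

/-- The even words. -/
noncomputable abbrev K0 : Subgroup F9 := sg.ker

/-- The even part of the group of the nine letters. -/
noncomputable abbrev EvG : Subgroup Gq := K0.map uG

theorem two_one : (Multiplicative.ofAdd (1 : ZMod 2)) * Multiplicative.ofAdd (1 : ZMod 2) = 1 := by decide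

/-- The word of a list of letters. -/
noncomputable def toF : List ℕ → F9
  | [] => 1
  | l :: w => FreeGroup.of (Fin.ofNat 9 (l - 1)) * toF w

theorem letter_eq {l : ℕ} (h1 : 1 ≤ l) (h2 : l ≤ 9) : x (Fin.ofNat 9 (l - 1)) = Lt l := by
  show Lt (((l - 1) % 9) + 1) = Lt l
  congr 1
  omega

theorem evL_toF (w : List ℕ) (h : ∀ l ∈ w, 1 ≤ l ∧ l ≤ 9) :
    uG (toF w) = evL Lt w ∧ sg (toF w) = (Multiplicative.ofAdd (1 : ZMod 2)) ^ w.length := by
  induction w with
  | nil => exact ⟨by simp [toF], by simp [toF]⟩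
  | cons l w ih =>
    obtain ⟨h1, h2⟩ := ih (fun m hm => h m (List.mem_cons_of_mem _ hm))
    obtain ⟨h3, h4⟩ := h l List.mem_cons_self
    refine ⟨?_, ?_⟩
    · rw [toF, map_mul, uG_of, letter_eq h3 h4, h1, evL_cons]
    · rw [toF, map_mul, sg_of, h2, List.length_cons, pow_succ']

/-- Even words are in the even part. -/
theorem mem_of_even {w : List ℕ} (h : ∀ l ∈ w, 1 ≤ l ∧ l ≤ 9) (he : w.length % 2 = 0) : evL Lt w ∈ EvG := by
  obtain ⟨h1, h2⟩ := evL_toF w h
  refine ⟨toF w, ?_, h1⟩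
  rw [SetLike.mem_coe, MonoidHom.mem_ker, h2]
  obtain ⟨k, hk⟩ : ∃ k, w.length = 2 * k := ⟨w.length / 2, by omega⟩
  rw [hk, pow_mul, pow_two, two_one, one_pow]

theorem uG_mem_range (i : Fin 9) : x i ∈ uG.range := ⟨FreeGroup.of i, uG_of i⟩

theorem mul_mem_Ev (i j : Fin 9) : x i * x j ∈ EvG := by
  refine ⟨FreeGroup.of i * FreeGroup.of j, ?_, by rw [map_mul, uG_of, uG_of]⟩
  rw [SetLike.mem_coe, MonoidHom.mem_ker, map_mul, sg_of, sg_of, two_one]

/-- The generators of the even part. -/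
noncomputable def CC : Subgroup Gq := Subgroup.closure (Set.range fun l : Fin 9 => x 0 * x l)

theorem x0_conj {c : Gq} (hc : c ∈ CC) : x 0 * c * x 0 ∈ CC := by
  have h00 := x_sq 0
  induction hc using Subgroup.closure_induction with
  | mem z hz =>
    obtain ⟨l, rfl⟩ := hz
    have e : x 0 * (x 0 * x l) * x 0 = (x 0 * x l)⁻¹ := by
      rw [_root_.mul_inv_rev, x_inv, x_inv, ← mul_assoc, h00, one_mul]
    show x 0 * (x 0 * x l) * x 0 ∈ CC
    rw [e]
    exact Subgroup.inv_mem _ (Subgroup.subset_closure ⟨l, rfl⟩)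
  | one =>
    rw [mul_one, h00]
    exact Subgroup.one_mem _
  | mul a b _ _ h1 h2 =>
    have e : x 0 * (a * b) * x 0 = (x 0 * a * x 0) * (x 0 * b * x 0) := by
      calc x 0 * (a * b) * x 0 = x 0 * a * 1 * b * x 0 := by group
        _ = x 0 * a * (x 0 * x 0) * b * x 0 := by rw [h00]
        _ = _ := by group
    rw [e]
    exact Subgroup.mul_mem _ h1 h2
  | inv a _ h1 =>
    have e : x 0 * a⁻¹ * x 0 = (x 0 * a * x 0)⁻¹ := by
      rw [_root_.mul_inv_rev, _root_.mul_inv_rev, x_inv, mul_assoc]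
    rw [e]
    exact Subgroup.inv_mem _ h1

theorem parity (w : F9) : (sg w = 1 ∧ uG w ∈ CC) ∨ (sg w = Multiplicative.ofAdd 1 ∧ uG w * x 0 ∈ CC) := by
  have h00 := x_sq 0
  induction w using FreeGroup.induction_on with
  | C1 =>
    left
    exact ⟨map_one _, by rw [map_one]; exact Subgroup.one_mem _⟩
  | of i =>
    right
    refine ⟨sg_of i, ?_⟩
    rw [uG_of]
    have e : x i * x 0 = (x 0 * x i)⁻¹ := by rw [_root_.mul_inv_rev, x_inv, x_inv]
    rw [e]
    exact Subgroup.inv_mem _ (Subgroup.subset_closure ⟨i, rfl⟩)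
  | inv_of i _ =>
    right
    refine ⟨by rw [map_inv, sg_of]; decide, ?_⟩
    rw [map_inv, uG_of, x_inv]
    have e : x i * x 0 = (x 0 * x i)⁻¹ := by rw [_root_.mul_inv_rev, x_inv, x_inv]
    rw [e]
    exact Subgroup.inv_mem _ (Subgroup.subset_closure ⟨i, rfl⟩)
  | mul u v hu hv =>
    rcases hu with ⟨h1, h2⟩ | ⟨h1, h2⟩ <;> rcases hv with ⟨h3, h4⟩ | ⟨h3, h4⟩
    · left
      exact ⟨by rw [map_mul, h1, h3, one_mul], by rw [map_mul]; exact Subgroup.mul_mem _ h2 h4⟩
    · right
      refine ⟨by rw [map_mul, h1, h3, one_mul], ?_⟩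
      rw [map_mul, mul_assoc]
      exact Subgroup.mul_mem _ h2 h4
    · right
      refine ⟨by rw [map_mul, h1, h3, mul_one], ?_⟩
      have e : uG (u * v) * x 0 = (uG u * x 0) * (x 0 * uG v * x 0) := by
        calc uG (u * v) * x 0 = uG u * 1 * uG v * x 0 := by rw [map_mul]; group
          _ = uG u * (x 0 * x 0) * uG v * x 0 := by rw [h00]
          _ = _ := by group
      rw [e]
      exact Subgroup.mul_mem _ h2 (x0_conj h4)
    · left
      refine ⟨by rw [map_mul, h1, h3]; exact two_one, ?_⟩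
      have e : uG (u * v) = (uG u * x 0) * (x 0 * (uG v * x 0) * x 0) := by
        calc uG (u * v) = uG u * 1 * uG v * 1 := by rw [map_mul]; group
          _ = uG u * (x 0 * x 0) * uG v * (x 0 * x 0) := by rw [h00]
          _ = _ := by group
      rw [e]
      exact Subgroup.mul_mem _ h2 (x0_conj h4)

theorem Ev_le : EvG ≤ CC := by
  rintro _ ⟨w, hw, rfl⟩
  rcases parity w with ⟨_, h⟩ | ⟨h1, _⟩
  · exact h
  · have h2 : sg w = 1 := hw
    rw [h2] at h1
    exact absurd h1 (by decide)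

theorem Ev_le_range : EvG ≤ uG.range := by
  rintro _ ⟨w, _, rfl⟩
  exact ⟨w, rfl⟩

/-! ### A lower bound for the order -/

section card

variable {Γ : Type*} [Group Γ]

/-- The orbit-stabilizer bound with masks. -/
theorem card_mul_le [Finite Γ] (Φ : Γ →* Equiv.Perm ℕ) {K S : Subgroup Γ} (hSK : S ≤ K) {p M : ℕ}
    (hM : Sound Φ K p M) (hS : ∀ s ∈ S, Φ s p = p) :
    {i | M.testBit i = true}.ncard * Nat.card S ≤ Nat.card K := by
  classical
  choose f hf1 hf2 using fun i : {i // M.testBit i = true} => hM i.1 i.2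
  let g : {i // M.testBit i = true} × S → K := fun q => ⟨f q.1 * q.2.1, K.mul_mem (hf1 q.1) (hSK q.2.2)⟩
  have hg : Function.Injective g := by
    rintro ⟨i, s⟩ ⟨j, t⟩ h
    have h1 : f i * s.1 = f j * t.1 := congrArg Subtype.val h
    have h2 := congrArg (fun u => Φ u p) h1
    simp only [map_mul, Equiv.Perm.mul_apply, hS s.1 s.2, hS t.1 t.2, hf2] at h2
    have h3 : i = j := Subtype.ext h2
    subst h3
    have h4 : s.1 = t.1 := mul_left_cancel h1
    have h5 : s = t := Subtype.ext h4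
    rw [h5]
  have h := Nat.card_le_card_of_injective g hg
  rw [Nat.card_prod] at h
  rwa [← Nat.card_coe_set_eq]

/-- Soundness of the growth of a mask by generators in a subgroup. -/
theorem grow_sound {K : Subgroup Γ} {Φ : Γ →* Equiv.Perm ℕ} {Lt0 : ℕ → Γ} {wa : List ℕ → ℕ → ℕ}
    (hwa : ∀ w X i, (wa w X).testBit i = X.testBit (Φ (evL Lt0 w) i)) {gens : List (List ℕ)}
    (hg : ∀ g ∈ gens, evL Lt0 g ∈ K) :
    ∀ (t M y : ℕ), (growS wa gens t M).testBit y = true → ∃ h ∈ K, M.testBit (Φ h y) = true := by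
  have step : ∀ (gens' : List (List ℕ)), (∀ g ∈ gens', evL Lt0 g ∈ K) → ∀ (M y : ℕ),
      (growS1 wa gens' M).testBit y = true → ∃ h ∈ K, M.testBit (Φ h y) = true := by
    intro gens'
    unfold growS1
    induction gens' with
    | nil => exact fun _ M y h => ⟨1, K.one_mem, by simpa using h⟩
    | cons g gens' ih =>
      intro hg' M y h
      rw [List.foldl_cons] at h
      obtain ⟨h1, h2, h3⟩ := ih (fun g' hg'' => hg' g' (List.mem_cons_of_mem _ hg'')) _ _ h
      have h4 : (M ||| wa g M).testBit (Φ h1 y) = true := h3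
      rw [Nat.testBit_or, Bool.or_eq_true] at h4
      rcases h4 with h4 | h4
      · exact ⟨h1, h2, h4⟩
      · rw [hwa] at h4
        refine ⟨evL Lt0 g * h1, K.mul_mem (hg' g List.mem_cons_self) h2, ?_⟩
        simpa [Equiv.Perm.mul_apply] using h4
  intro t
  induction t with
  | zero =>
    intro M y h
    exact ⟨1, K.one_mem, by simpa [growS] using h⟩
  | succ t ih =>
    intro M y h
    rw [growS] at h
    obtain ⟨h1, h2, h3⟩ := ih _ y h
    obtain ⟨h4, h5, h6⟩ := step gens hg _ _ h3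
    refine ⟨h4 * h1, K.mul_mem h5 h2, ?_⟩
    simpa [Equiv.Perm.mul_apply] using h6

/-- A mask grown from the point `0` is in the orbit of `0`. -/
theorem sound_of_grow {K : Subgroup Γ} {Φ : Γ →* Equiv.Perm ℕ} {Lt0 : ℕ → Γ} {wa : List ℕ → ℕ → ℕ}
    (hwa : ∀ w X i, (wa w X).testBit i = X.testBit (Φ (evL Lt0 w) i)) {gens : List (List ℕ)}
    (hg : ∀ g ∈ gens, evL Lt0 g ∈ K) {t M : ℕ} (hM : growS wa gens t 1 = M) : Sound Φ K 0 M := by
  intro i hi
  rw [← hM] at hi
  obtain ⟨h, hh, h1⟩ := grow_sound hwa hg t 1 i hi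
  have h2 : Φ h i = 0 := by
    by_contra h3
    obtain ⟨k, hk⟩ : ∃ k, Φ h i = k + 1 := ⟨Φ h i - 1, by omega⟩
    rw [hk] at h1
    simp [Nat.testBit_succ] at h1
  refine ⟨h⁻¹, K.inv_mem hh, ?_⟩
  rw [← h2, map_inv]
  simp

end card

/-! ### The action of the even part on the 1080 points -/

/-- The generators of the even part, as words. -/
def ysW : List (List ℕ) := [[1, 2], [1, 3], [1, 4], [1, 5], [1, 6], [1, 7], [1, 8], [1, 9]]

theorem ysW_mem : ∀ g ∈ ysW, evL Lt0 g ∈ EvG := by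
  intro g hg
  have h1 : ∀ l ∈ g, 1 ≤ l ∧ l ≤ 9 := by
    revert g
    decide +kernel
  have h2 : g.length % 2 = 0 := by
    revert g
    decide +kernel
  have h3 : evL Lt0 g = evL Lt g := by
    refine (evL_small g ?_).symm
    intro j hj
    have := h1 j hj
    omega
  rw [h3]
  exact mem_of_even h1 h2

theorem grow_M1 : growS wa ysW t1 1 = M1 := by decide +kernel

theorem sound_M1 : Sound Phi EvG 0 M1 := sound_of_grow hwa ysW_mem grow_M1

theorem M1_small' : M1 < 2 ^ 2 ^ 15 := lt_of_lt_of_le M1_small (Nat.pow_le_pow_right (by norm_num) (by norm_num))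

theorem card_M1 : {i | M1.testBit i = true}.ncard = 1080 := by
  rw [ncard_mask M1_small']
  decide +kernel

end Cfsg.Agent.Lib.O83
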