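import Mathlib
import Cfsg.Agent.Lib.O83B52
import Cfsg.Agent.Lib.OrthoCardFinal
import Cfsg.Agent.Lib.Fi22O7.Main
import Cfsg.Agent.S0295

/-!
# The even part of the group of the nine letters is `PΩ₈⁺(3)`
-/

set_option autoImplicit false
set_option maxRecDepth 1000000
set_option linter.all false

namespace Cfsg.Agent.Lib.O83

open Cfsg Matrix
open Cfsg.Agent.Lib.OutTree36 Cfsg.Agent.Lib.TcBits Cfsg.Agent.Lib.TcPres Cfsg.Agent.Lib.PresChain36
open Cfsg.Agent.Lib.TcFacts (allRange allRange_spec sumRange)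
open Cfsg.Agent.TcData.Fi23.I31671 Cfsg.Agent.TcData.Fi23 Cfsg.Agent.TcChain36.Fi23 Cfsg.Agent.TcChain36.Out.Fi23
open Cfsg.Agent.Lib.Fi23K24
open Cfsg.Agent.TcChain36.Fi22.Y232 (Gen relL)

/-! ### The subgroup `Ω₇(3)` -/

/-- The letter of a generator. -/
def idx : Gen → ℕ
  | .b => 1
  | .c => 2
  | .d => 3
  | .e => 4
  | .f => 5
  | .g => 6
  | .h => 8
  | .i => 9

/-- The images of the generators of `Ω₇(3)`. -/
noncomputable def A7 (l : Gen) : Gq := Lt 10 * Lt (idx l)

/-- The word of a relator. -/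
def wordOf (r : FreeGroup Gen) : List ℕ :=
  (r.toWord.map fun q => [10, idx q.1]).flatten

theorem chkRel : relL.all (fun r => isOne ap bsL (wordOf r)) = true := by decide +kernel

theorem iv_A (l : Gen) : iv (idx l) = idx l := by
  cases l <;> decide +kernel

theorem iv_z : iv 10 = 10 := by decide +kernel

theorem z_comm (l : Gen) : Lt 10 * Lt (idx l) = Lt (idx l) * Lt 10 := by
  have h : isOne ap bsL [10, idx l, 10, idx l] = true := by
    cases l <;> decide +kernel
  have h1 := evL_eq_one h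
  simp only [evL_cons, evL_nil, mul_one] at h1
  have hz : (Lt 10)⁻¹ = Lt 10 := by rw [← hiv, iv_z]
  have hl : (Lt (idx l))⁻¹ = Lt (idx l) := by rw [← hiv, iv_A]
  have h2 : Lt 10 * Lt (idx l) * (Lt 10 * Lt (idx l)) = 1 := by
    rw [mul_assoc]; exact h1
  have h3 : Lt 10 * Lt (idx l) = (Lt 10 * Lt (idx l))⁻¹ := eq_inv_of_mul_eq_one_left h2
  rw [_root_.mul_inv_rev, hz, hl] at h3
  exact h3

theorem A7_inv (l : Gen) : (A7 l)⁻¹ = A7 l := by
  have hz : (Lt 10)⁻¹ = Lt 10 := by rw [← hiv, iv_z]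
  have hl : (Lt (idx l))⁻¹ = Lt (idx l) := by rw [← hiv, iv_A]
  rw [A7, _root_.mul_inv_rev, hz, hl, z_comm]

theorem lift_word (L : List (Gen × Bool)) :
    List.prod (L.map fun q => cond q.2 (A7 q.1) (A7 q.1)⁻¹) = evL Lt ((L.map fun q => [10, idx q.1]).flatten) := by
  induction L with
  | nil => rfl
  | cons q L ih =>
    rw [List.map_cons, List.prod_cons, ih, List.map_cons, List.flatten_cons, evL_append]
    have : cond q.2 (A7 q.1) (A7 q.1)⁻¹ = evL Lt [10, idx q.1] := by
      simp only [evL_cons, evL_nil, mul_one]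
      cases q.2
      · simp only [cond_false, A7_inv]; rfl
      · rfl
    rw [this]

theorem lift_eq (r : FreeGroup Gen) : FreeGroup.lift A7 r = evL Lt (wordOf r) := by
  conv_lhs => rw [← FreeGroup.mk_toWord (x := r)]
  rw [FreeGroup.lift_mk, lift_word]
  rfl

theorem hA7 : ∀ r ∈ Cfsg.Agent.TcChain36.Fi22.Y232.RR, FreeGroup.lift A7 r = 1 := by
  intro r hr
  rw [lift_eq]
  apply evL_eq_one
  have h := chkRel
  rw [List.all_eq_true] at h
  exact h r hr

/-- The presented group. -/
abbrev Gp7 : Type := PresentedGroup Cfsg.Agent.TcChain36.Fi22.Y232.RR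

/-- The map to the big group. -/
noncomputable def psi7 : Gp7 →* Gq := PresentedGroup.toGroup hA7

theorem psi7_of (l : Gen) : psi7 (PresentedGroup.of l) = A7 l := PresentedGroup.toGroup.of hA7

/-- The presented group is simple. -/
theorem simple7 : IsSimpleGroup Gp7 := by
  have hP : Nat.card Gp7 = 4585351680 := Cfsg.Agent.Lib.Fi22O7.card_spec.1
  haveI : Finite (Cfsg.POmega (ZMod 3) (⇑Cfsg.Agent.Lib.Fi22O7.Q0)) :=
    Nat.finite_of_card_ne_zero (by rw [Cfsg.Agent.Lib.Fi22O7.card_POmega]; norm_num)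
  have hb : Function.Bijective Cfsg.Agent.Lib.Fi22O7.phi :=
    Cfsg.Agent.Lib.Fi22O7.phi_inj.bijective_of_nat_card_le (by rw [hP, Cfsg.Agent.Lib.Fi22O7.card_POmega])
  have hs : IsSimpleGroup (Cfsg.POmega (ZMod 3) (⇑Cfsg.Agent.Lib.Fi22O7.Q0)) := by
    rw [← Cfsg.Agent.Lib.Fi22O7.form_eq]
    exact Cfsg.Agent.S0295.result (by rw [ZMod.card]; decide) 3 (by norm_num)
  haveI := hs
  exact (MulEquiv.ofBijective _ hb).isSimpleGroup

theorem A7_ne_comm : ¬ (A7 .b * A7 .c = A7 .c * A7 .b) := by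
  intro h
  have h1 : evL Lt [10, 1, 10, 2, 10, 1, 10, 2] ≠ 1 := evL_ne_one (by decide +kernel)
  apply h1
  simp only [evL_cons, evL_nil, mul_one]
  have hA : ∀ l, (A7 l)⁻¹ = A7 l := A7_inv
  have e : Lt 10 * (Lt 1 * (Lt 10 * (Lt 2 * (Lt 10 * (Lt 1 * (Lt 10 * Lt 2)))))) = A7 .b * A7 .c * (A7 .b * A7 .c) := by
    simp only [A7, idx, mul_assoc]
  have hb : A7 .b * A7 .b = 1 := by
    nth_rewrite 1 [← hA .b]
    simp
  have hc : A7 .c * A7 .c = 1 := by
    nth_rewrite 1 [← hA .c]
    simp
  rw [e]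
  calc A7 .b * A7 .c * (A7 .b * A7 .c) = A7 .b * (A7 .c * A7 .b) * A7 .c := by group
    _ = A7 .b * (A7 .b * A7 .c) * A7 .c := by rw [h]
    _ = (A7 .b * A7 .b) * (A7 .c * A7 .c) := by group
    _ = 1 := by rw [hb, hc, one_mul]

theorem psi7_inj : Function.Injective psi7 := by
  haveI := simple7
  rw [injective_iff_map_eq_one]
  intro g hg
  rcases IsSimpleGroup.eq_bot_or_eq_top_of_normal psi7.ker psi7.normal_ker with h | h
  · have : g ∈ psi7.ker := hg
    rw [h] at this
    exact this
  · exfalso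
    have h1 : PresentedGroup.of Gen.b ∈ psi7.ker := by rw [h]; trivial
    have h2 : PresentedGroup.of Gen.c ∈ psi7.ker := by rw [h]; trivial
    have h3 : A7 .b = 1 := by rw [← psi7_of]; exact h1
    have h4 : A7 .c = 1 := by rw [← psi7_of]; exact h2
    exact A7_ne_comm (by rw [h3, h4])

theorem center7 : Subgroup.center Gp7 = ⊥ := by
  haveI := simple7
  rcases IsSimpleGroup.eq_bot_or_eq_top_of_normal (Subgroup.center Gp7) inferInstance with h | h
  · exact h
  · exfalso
    have h1 : PresentedGroup.of Gen.b ∈ Subgroup.center Gp7 := by rw [h]; trivial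
    have h2 := Subgroup.mem_center_iff.1 h1 (PresentedGroup.of Gen.c)
    have h3 := congrArg psi7 h2
    rw [map_mul, map_mul, psi7_of, psi7_of] at h3
    exact A7_ne_comm h3.symm

/-- The subgroup. -/
noncomputable abbrev K7 : Subgroup Gq := psi7.range

theorem card_Gp7 : Nat.card Gp7 = 4585351680 := Cfsg.Agent.Lib.Fi22O7.card_spec.1

theorem card_K7 : Nat.card K7 = 4585351680 := by
  rw [← card_Gp7]
  exact (Nat.card_congr (MonoidHom.ofInjective psi7_inj).toEquiv).symm

theorem K7_eq : K7 = Subgroup.closure (Set.range A7) := by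
  show psi7.range = _
  rw [MonoidHom.range_eq_map, ← PresentedGroup.closure_range_of, MonoidHom.map_closure]
  congr 1
  ext y
  constructor
  · rintro ⟨_, ⟨l, rfl⟩, rfl⟩
    exact ⟨l, (psi7_of l).symm⟩
  · rintro ⟨l, rfl⟩
    exact ⟨_, ⟨l, rfl⟩, psi7_of l⟩

/-- The word of the base transposition. -/
def zW : List ℕ := defsL.getD 10 []

theorem zW_spec : ∀ l ∈ zW, 1 ≤ l ∧ l ≤ 8 := by decide +kernel

theorem zW_len : zW.length = 57 := by decide +kernel

theorem zW_eq : Lt 10 = evL Lt zW := by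
  show evL Lt0 (defsL.getD 10 []) = _
  refine (evL_small zW ?_).symm
  intro j hj
  have := zW_spec j hj
  omega

theorem idx_spec (l : Gen) : 1 ≤ idx l ∧ idx l ≤ 9 := by
  cases l <;> decide +kernel

theorem A7_mem (l : Gen) : A7 l ∈ EvG := by
  have e : A7 l = evL Lt (zW ++ [idx l]) := by
    rw [evL_append, ← zW_eq, evL_cons, evL_nil, mul_one]
    rfl
  rw [e]
  apply mem_of_even
  · intro m hm
    rw [List.mem_append] at hm
    rcases hm with hm | hm
    · have := zW_spec m hm
      omega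
    · rw [List.mem_singleton] at hm
      rw [hm]
      exact idx_spec l
  · simp [zW_len]

theorem K7_le : K7 ≤ EvG := by
  rw [K7_eq, Subgroup.closure_le]
  rintro _ ⟨l, rfl⟩
  exact A7_mem l

/-- The letters of `Ω₇(3)` fix the base point. -/
theorem A7_fix (l : Gen) : Phi (A7 l) 0 = 0 := by
  have h1 : Phi (Lt (idx l)) 0 = 0 := by
    rw [H.ap_eq _ _ (by norm_num)]
    cases l <;> decide +kernel
  rw [A7, map_mul, Equiv.Perm.mul_apply, h1, H.ap_eq _ _ (by norm_num)]
  decide +kernel

theorem K7_fix {k : Gq} (hk : k ∈ K7) : Phi k 0 = 0 := by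
  rw [K7_eq] at hk
  induction hk using Subgroup.closure_induction with
  | mem z hz =>
    obtain ⟨l, rfl⟩ := hz
    exact A7_fix l
  | one => simp
  | mul a b _ _ h1 h2 => rw [map_mul, Equiv.Perm.mul_apply, h2, h1]
  | inv a _ h1 =>
    rw [map_inv, Equiv.Perm.inv_eq_iff_eq, h1]

/-- The check of the fixed points of `Ω₇(3)`. -/
def chkF (p : ℕ) : Bool :=
  cond (Nat.blt p 31671)
    (cond (Nat.beq (ap 10 (ap 1 p)) p)
      (cond (Nat.beq (ap 10 (ap 2 p)) p)
        (cond (Nat.beq (ap 10 (ap 3 p)) p)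
          (cond (Nat.beq (ap 10 (ap 4 p)) p)
            (cond (Nat.beq (ap 10 (ap 5 p)) p)
              (cond (Nat.beq (ap 10 (ap 6 p)) p)
                (cond (Nat.beq (ap 10 (ap 8 p)) p)
                  (cond (Nat.beq (ap 10 (ap 9 p)) p)
                    (Nat.beq p 0)
                    true)
                  true)
                true)
              true)
            true)
          true)
        true)
      true)
    true

theorem chkF_all : allRange chkF 15 0 = true := by decide +kernel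

theorem fix_K7 {r : ℕ} (hr : r < 31671) (h : ∀ k ∈ K7, Phi k r = r) : r = 0 := by
  have h0 := allRange_spec 15 0 chkF_all r (Nat.zero_le _) (by norm_num; omega)
  have key : ∀ l : Gen, ap 10 (ap (idx l) r) = r := by
    intro l
    have h1 := h (A7 l) (by rw [K7_eq]; exact Subgroup.subset_closure ⟨l, rfl⟩)
    rw [A7, map_mul, Equiv.Perm.mul_apply, H.ap_eq _ _ hr, H.ap_eq _ _ (by
      rw [← H.ap_eq _ _ hr]
      exact H.bd _ _ hr)] at h1
    exact h1
  unfold chkF at h0
  have e : Nat.blt r 31671 = true := by simpa [Nat.blt_eq] using hr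
  have b : ∀ l : Gen, Nat.beq (ap 10 (ap (idx l) r)) r = true := by
    intro l
    rw [key l]
    exact Nat.beq_refl r
  have b1 := b .b
  have b2 := b .c
  have b3 := b .d
  have b4 := b .e
  have b5 := b .f
  have b6 := b .g
  have b8 := b .h
  have b9 := b .i
  simp only [idx] at b1 b2 b3 b4 b5 b6 b8 b9
  rw [e, b1, b2, b3, b4, b5, b6, b8, b9] at h0
  exact Nat.eq_of_beq_eq_true h0

/-- The centralizer of the even part in the whole group is trivial. -/
theorem centralizer_Ev {c : Gq} (hc : ∀ y ∈ EvG, c * y = y * c) : c = 1 := by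
  have h0 : Phi c 0 = 0 := by
    apply fix_K7 (h1bd c)
    intro k hk
    rw [← Equiv.Perm.mul_apply, ← map_mul, ← hc k (K7_le hk), map_mul, Equiv.Perm.mul_apply, K7_fix hk]
  apply eq_one_of_fix
  intro p hp
  obtain ⟨y, hy, rfl⟩ := sound_M1 p hp
  rw [← Equiv.Perm.mul_apply, ← map_mul, hc y hy, map_mul, Equiv.Perm.mul_apply, h0]

/-! ### The map to `PΩ₈⁺(3)` -/

/-- The isometries of even words are in `Ω`. -/
theorem vO_mem {w : F9} (hw : w ∈ K0) : vO w ∈ commutator OG := by
  set f : F9 →* Abelianization OG := (Abelianization.of (G := OG)).comp vO with hf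
  have hs : ∀ i : Fin 9, (f (FreeGroup.of i)) ^ 2 = 1 := by
    intro i
    show Abelianization.of (vO (FreeGroup.of i)) ^ 2 = 1
    rw [vO_of, ← map_pow, pow_two, genO_sq, map_one]
  have edge : ∀ a b : Fin 9, (genO a * genO b) ^ 3 = 1 → f (FreeGroup.of a) = f (FreeGroup.of b) := by
    intro a b h
    refine Cfsg.Agent.Lib.Fi22O7.eq_of_edge (hs a) (hs b) ?_
    simp only [hf, MonoidHom.comp_apply, vO_of]
    rw [← map_mul, ← map_pow, h, map_one]
  have e01 := edge 0 1 cube01
  have e12 := edge 1 2 cube12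
  have e23 := edge 2 3 cube23
  have e27 := edge 2 7 cube27
  have e34 := edge 3 4 cube34
  have e45 := edge 4 5 cube45
  have e56 := edge 5 6 cube56
  have e78 := edge 7 8 cube78
  have hall : ∀ i : Fin 9, f (FreeGroup.of i) = f (FreeGroup.of 0) := by
    intro i
    fin_cases i
    · rfl
    · exact e01.symm
    · exact e12.symm.trans e01.symm
    · exact e23.symm.trans (e12.symm.trans e01.symm)
    · exact e34.symm.trans (e23.symm.trans (e12.symm.trans e01.symm))
    · exact e45.symm.trans (e34.symm.trans (e23.symm.trans (e12.symm.trans e01.symm)))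
    · exact e56.symm.trans (e45.symm.trans (e34.symm.trans (e23.symm.trans (e12.symm.trans e01.symm))))
    · exact e27.symm.trans (e12.symm.trans e01.symm)
    · exact e78.symm.trans (e27.symm.trans (e12.symm.trans e01.symm))
  set t := f (FreeGroup.of 0) with ht
  have ht2 : t * t = 1 := by rw [← pow_two]; exact hs 0
  have key : ∀ u : F9, (sg u = 1 ∧ f u = 1) ∨ (sg u = Multiplicative.ofAdd 1 ∧ f u = t) := by
    intro u
    induction u using FreeGroup.induction_on with
    | C1 => exact Or.inl ⟨map_one _, map_one _⟩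
    | of i => exact Or.inr ⟨sg_of i, hall i⟩
    | inv_of i _ =>
      refine Or.inr ⟨by rw [map_inv, sg_of]; decide, ?_⟩
      rw [map_inv, hall i]
      exact inv_eq_of_mul_eq_one_left ht2
    | mul u v hu hv =>
      rcases hu with ⟨h1, h2⟩ | ⟨h1, h2⟩ <;> rcases hv with ⟨h3, h4⟩ | ⟨h3, h4⟩
      · exact Or.inl ⟨by rw [map_mul, h1, h3, one_mul], by rw [map_mul, h2, h4, one_mul]⟩
      · exact Or.inr ⟨by rw [map_mul, h1, h3, one_mul], by rw [map_mul, h2, h4, one_mul]⟩
      · exact Or.inr ⟨by rw [map_mul, h1, h3, mul_one], by rw [map_mul, h2, h4, mul_one]⟩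
      · exact Or.inl ⟨by rw [map_mul, h1, h3]; exact two_one, by rw [map_mul, h2, h4, ht2]⟩
  have h1 : f w = 1 := by
    rcases key w with ⟨_, h⟩ | ⟨h1, _⟩
    · exact h
    · have h2 : sg w = 1 := hw
      rw [h2] at h1
      exact absurd h1 (by decide)
  exact (QuotientGroup.eq_one_iff _).mp h1

/-- The map of even words to `Ω`. -/
noncomputable def vK : ↥K0 →* Cfsg.Omega (ZMod 3) (⇑Q0) :=
  (vO.comp K0.subtype).codRestrict _ (fun w => vO_mem w.2)

/-- The map of even words to `PΩ`. -/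
noncomputable def phK : ↥K0 →* Cfsg.POmega (ZMod 3) (⇑Q0) := (QuotientGroup.mk' _).comp vK

/-- The map of even words to the even part. -/
noncomputable def piK : ↥K0 →* ↥EvG := uG.subgroupMap K0

theorem piK_surj : Function.Surjective piK := uG.subgroupMap_surjective K0

/-- The vector of a letter and its point. -/
theorem rel_pt (i : Fin 9) : Rel (decN (vc i)) (decN (cc (pt i))) := by
  have h : vc i = cc (pt i) ∨ vc i = negC (cc (pt i)) := by
    revert i; decide +kernel
  rcases h with h | h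
  · left; rw [h]
  · right; rw [h, decN_negC]

/-- Words which are trivial in the group act as scalars. -/
theorem sign_of_one {w : F9} (h : uG w = 1) :
    matOf (vO w) = (1 : Matrix I8 I8 (ZMod 3)) ∨ matOf (vO w) = (-1 : ZMod 3) • (1 : Matrix I8 I8 (ZMod 3)) := by
  apply matOf_eq_sign
  intro i
  have h1 := (equiv_free w (pt i) (pt_M1 i)).2
  rw [h, map_one, Equiv.Perm.one_apply] at h1
  have h2 := Rel.mat (matOf (vO w)) (rel_pt i)
  exact h2.trans' (h1.symm'.trans' (rel_pt i).symm')

theorem mem_center_Omega {g : Cfsg.Omega (ZMod 3) (⇑Q0)} (h : ∀ x : OG, x * g.1 = g.1 * x) :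
    g ∈ Subgroup.center (Cfsg.Omega (ZMod 3) (⇑Q0)) := by
  rw [Subgroup.mem_center_iff]
  intro y
  apply Subtype.ext
  exact h y.1

theorem ker_le : piK.ker ≤ phK.ker := by
  intro w hw
  have h1 : uG w.1 = 1 := congrArg Subtype.val hw
  rw [MonoidHom.mem_ker]
  apply (QuotientGroup.eq_one_iff _).2
  apply mem_center_Omega
  exact central_of_sign (sign_of_one h1)

/-- The map of the even part to `PΩ`. -/
noncomputable def theta : ↥EvG →* Cfsg.POmega (ZMod 3) (⇑Q0) :=
  piK.liftOfSurjective piK_surj ⟨phK, ker_le⟩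

theorem theta_piK (w : ↥K0) : theta (piK w) = phK w :=
  MonoidHom.liftOfRightInverse_comp_apply piK _ _ _ _

theorem theta_inj : Function.Injective theta := by
  rw [injective_iff_map_eq_one]
  intro g hg
  obtain ⟨w, rfl⟩ := piK_surj g
  rw [theta_piK] at hg
  have h1 : vK w ∈ Subgroup.center (Cfsg.Omega (ZMod 3) (⇑Q0)) := (QuotientGroup.eq_one_iff _).1 hg
  have key : uG w.1 = 1 := by
    apply centralizer_Ev
    rintro _ ⟨v, hv, rfl⟩
    -- the commutator acts trivially
    have hvm : v ∈ K0 := hv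
    have h2 : vK w * vK ⟨v, hvm⟩ = vK ⟨v, hvm⟩ * vK w := (Subgroup.mem_center_iff.1 h1 _).symm
    have h3 : vO w.1 * vO v = vO v * vO w.1 := congrArg Subtype.val h2
    have h4 : vO (w.1 * v * w.1⁻¹ * v⁻¹) = 1 := by
      rw [map_mul, map_mul, map_mul, map_inv, map_inv, h3]
      group
    have h5 : uG (w.1 * v * w.1⁻¹ * v⁻¹) = 1 := by
      apply eq_one_of_fix
      intro p hp
      apply fix_of_sign _ hp
      left
      rw [h4, map_one]
    rw [map_mul, map_mul, map_mul, map_inv, map_inv] at h5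
    have h6 : uG w.1 * uG v * (uG w.1)⁻¹ = uG v := by
      have := eq_of_mul_inv_eq_one h5
      exact this
    calc uG w.1 * uG v = uG w.1 * uG v * (uG w.1)⁻¹ * uG w.1 := by group
      _ = _ := by rw [h6]
  exact Subtype.ext key

theorem form_eq8 : Cfsg.quadFormPlus 4 (ZMod 3) = ⇑Q0 :=
  funext fun v => (Cfsg.Agent.Lib.OrthoCount.qPlus_apply 4 v).symm

theorem card_POmega8 : Nat.card (Cfsg.POmega (ZMod 3) (⇑Q0)) = 4952179814400 := by
  have h := Cfsg.Agent.Lib.OrthoCardFinal.card_POmega_plus (F := ZMod 3) (q := 3) (ZMod.card 3) 4 (by norm_num)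
  rw [form_eq8] at h
  norm_num [Finset.prod_range_succ] at h
  omega

theorem card_Ev_ge : 4952179814400 ≤ Nat.card EvG := by
  have h := card_mul_le Phi K7_le sound_M1 (fun s hs => K7_fix hs)
  rw [card_M1, card_K7] at h
  omega

/-- The even part is `PΩ₈⁺(3)`. -/
theorem theta_bij : Function.Bijective theta := by
  haveI : Finite (Cfsg.POmega (ZMod 3) (⇑Q0)) :=
    Nat.finite_of_card_ne_zero (by rw [card_POmega8]; norm_num)
  exact theta_inj.bijective_of_nat_card_le (by rw [card_POmega8]; exact card_Ev_ge)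

theorem card_Ev : Nat.card EvG = 4952179814400 := by
  rw [← card_POmega8]
  exact Nat.card_congr (Equiv.ofBijective _ theta_bij)

/-- The even part is `PΩ₈⁺(3)`. -/
noncomputable def EvEquiv : ↥EvG ≃* Cfsg.POmega (ZMod 3) (Cfsg.quadFormPlus 4 (ZMod 3)) := by
  rw [form_eq8]
  exact MulEquiv.ofBijective _ theta_bij

end Cfsg.Agent.Lib.O83
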