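import Mathlib
import Cfsg.Agent.Lib.O83C52
import Cfsg.Agent.Lib.ThreeTransS3
import Cfsg.Agent.Lib.BalanceB
import Cfsg.Agent.S0296
import Cfsg.Prelude.Def_FischerSpaces

/-!
# The subgroup `PΩ₈⁺(3) : S₃` of the concrete `Fi₂₃`
-/

set_option autoImplicit false
set_option maxRecDepth 1000000
set_option linter.all false

namespace Cfsg.Agent.Lib.O83

open Cfsg
open Cfsg.Agent.Lib.OutTree36 Cfsg.Agent.Lib.TcBits Cfsg.Agent.Lib.TcPres Cfsg.Agent.Lib.PresChain36
open Cfsg.Agent.Lib.TcFacts (allRange allRange_spec sumRange)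
open Cfsg.Agent.TcData.Fi23.I31671 Cfsg.Agent.TcData.Fi23 Cfsg.Agent.TcChain36.Out.Fi23
open Cfsg.Agent.Lib.Fi23K24
open Cfsg.Agent.TcChain36.Fi22.Y232 (Gen relL)

/-! ### The transposition outside the letters -/

/-- The word of the point of the extra transposition. -/
def wb : List ℕ := [0, 1, 2, 3, 8, 9, 4, 3, 8, 5, 6, 4, 5, 2, 3, 4, 1, 2, 3, 8, 9, 5, 3, 4, 1, 2, 3, 8, 0, 1, 2, 3, 4, 5, 6, 7]

/-- The extra transposition. -/
noncomputable def b2 : Gq := trq wb

theorem b2_eq : b2 = evL Lt (trW wb) := (evL_trW wb).symm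

theorem hiz' : Lt 10 = (zz : Gq) := hiz

theorem zz_inv : (zz : Gq)⁻¹ = zz := by
  have h : iv 10 = 10 := by decide +kernel
  rw [← hiz', ← hiv, h]

theorem b2_inv : b2⁻¹ = b2 := by
  simp only [b2, trq, _root_.mul_inv_rev, inv_inv, zz_inv, mul_assoc]

theorem b2_sq : b2 * b2 = 1 := by
  nth_rewrite 1 [← b2_inv]
  simp

theorem pq_b2 : Pq b2 23118 := by
  have h : ev ap wb 0 = 23118 := by decide +kernel
  rw [← h]
  exact trq_pq wb

/-- The conjugates of the generators of the even part under the extra transposition. -/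
theorem b2_conj (n : Fin 9) (hn : n ≠ 0) : b2 * (x 0 * x n) * b2 = evL Lt (Wds.getD (n.val - 1) []) := by
  have h : isOne ap bsL (trW wb ++ ([1, n.val + 1] ++ (trW wb ++ invW iv (Wds.getD (n.val - 1) [])))) = true := by
    revert n
    decide +kernel
  have h1 := evL_eq_one h
  rw [evL_append, evL_append, evL_append, ← b2_eq, evL_invW hiv] at h1
  simp only [evL_cons, evL_nil, mul_one] at h1
  have e : b2 * (x 0 * x n) * b2 * (evL Lt (Wds.getD (n.val - 1) []))⁻¹ = 1 := by
    rw [← h1]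
    simp only [mul_assoc]
    rfl
  exact eq_of_mul_inv_eq_one e

theorem Wds_spec : ∀ W ∈ Wds, (∀ l ∈ W, 1 ≤ l ∧ l ≤ 9) ∧ W.length % 2 = 0 := by decide +kernel

theorem b2_gen (n : Fin 9) : b2 * (x 0 * x n) * b2 ∈ EvG := by
  by_cases hn : n = 0
  · rw [hn, x_sq, mul_one, b2_sq]
    exact Subgroup.one_mem _
  · rw [b2_conj n hn]
    have h : Wds.getD (n.val - 1) [] ∈ Wds := by
      revert n
      decide +kernel
    obtain ⟨h1, h2⟩ := Wds_spec _ h
    exact mem_of_even h1 h2

theorem b2_norm_CC {c : Gq} (hc : c ∈ CC) : b2 * c * b2 ∈ EvG := by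
  induction hc using Subgroup.closure_induction with
  | mem z hz =>
    obtain ⟨l, rfl⟩ := hz
    exact b2_gen l
  | one =>
    rw [mul_one, b2_sq]
    exact Subgroup.one_mem _
  | mul a b _ _ h1 h2 =>
    have e : b2 * (a * b) * b2 = (b2 * a * b2) * (b2 * b * b2) := by
      calc b2 * (a * b) * b2 = b2 * a * 1 * b * b2 := by group
        _ = b2 * a * (b2 * b2) * b * b2 := by rw [b2_sq]
        _ = _ := by group
    rw [e]
    exact Subgroup.mul_mem _ h1 h2
  | inv a _ h1 =>
    have e : b2 * a⁻¹ * b2 = (b2 * a * b2)⁻¹ := by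
      rw [_root_.mul_inv_rev, _root_.mul_inv_rev, b2_inv, mul_assoc]
    rw [e]
    exact Subgroup.inv_mem _ h1

theorem b2_norm {c : Gq} (hc : c ∈ EvG) : b2 * c * b2 ∈ EvG := b2_norm_CC (Ev_le hc)

/-! ### The subgroup -/

/-- The subgroup. -/
noncomputable def LL : Subgroup Gq := Subgroup.closure (Set.range x ∪ {b2})

theorem x_mem_LL (i : Fin 9) : x i ∈ LL := Subgroup.subset_closure (Or.inl ⟨i, rfl⟩)

theorem b2_mem_LL : b2 ∈ LL := Subgroup.subset_closure (Or.inr rfl)

theorem range_le_LL : uG.range ≤ LL := by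
  rw [uG, FreeGroup.range_lift_eq_closure]
  apply Subgroup.closure_mono
  exact Set.subset_union_left

theorem Ev_le_LL : EvG ≤ LL := Ev_le_range.trans range_le_LL

theorem mem_norm_of_invol {g : Gq} (hg : g⁻¹ = g) (h : ∀ c ∈ EvG, g * c * g ∈ EvG) :
    g ∈ Subgroup.normalizer (EvG : Set Gq) := by
  rw [Subgroup.mem_normalizer_iff]
  intro c
  rw [hg]
  constructor
  · exact h c
  · intro hc
    have h1 := h _ hc
    have h2 : g * (g * c * g) * g = c := by
      have h3 : g * g = 1 := by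
        nth_rewrite 1 [← hg]
        simp
      calc g * (g * c * g) * g = (g * g) * c * (g * g) := by group
        _ = c := by rw [h3]; group
    rwa [h2] at h1

theorem x_norm (i : Fin 9) : x i ∈ Subgroup.normalizer (EvG : Set Gq) := by
  apply mem_norm_of_invol (x_inv i)
  rintro _ ⟨w, hw, rfl⟩
  refine ⟨FreeGroup.of i * w * (FreeGroup.of i)⁻¹, ?_, ?_⟩
  · exact (sg.normal_ker).conj_mem w hw _
  · rw [map_mul, map_mul, map_inv, uG_of, x_inv]

theorem LL_le_norm : LL ≤ Subgroup.normalizer (EvG : Set Gq) := by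
  rw [LL, Subgroup.closure_le]
  rintro g (⟨i, rfl⟩ | hg)
  · exact x_norm i
  · have hg' : g = b2 := hg
    rw [hg']
    exact mem_norm_of_invol b2_inv (fun c hc => b2_norm hc)

/-- The even part, in the subgroup. -/
noncomputable abbrev NN : Subgroup ↥LL := EvG.subgroupOf LL

instance NN_normal : NN.Normal :=
  (Subgroup.normal_subgroupOf_iff_le_normalizer Ev_le_LL).2 LL_le_norm

/-- The quotient. -/
abbrev QQ : Type := ↥LL ⧸ NN

/-- The image of a letter. -/
noncomputable def sQ : QQ := QuotientGroup.mk ⟨x 0, x_mem_LL 0⟩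

/-- The image of the extra transposition. -/
noncomputable def tQ : QQ := QuotientGroup.mk ⟨b2, b2_mem_LL⟩

theorem mk_x (i : Fin 9) : (QuotientGroup.mk ⟨x i, x_mem_LL i⟩ : QQ) = sQ := by
  rw [sQ, QuotientGroup.eq]
  show (x i)⁻¹ * x 0 ∈ EvG
  rw [x_inv]
  exact mul_mem_Ev i 0

theorem sQ_sq : sQ * sQ = 1 := by
  rw [sQ, ← QuotientGroup.mk_mul]
  have : (⟨x 0, x_mem_LL 0⟩ * ⟨x 0, x_mem_LL 0⟩ : ↥LL) = 1 := Subtype.ext (x_sq 0)
  rw [this]
  rfl

theorem tQ_sq : tQ * tQ = 1 := by
  rw [tQ, ← QuotientGroup.mk_mul]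
  have : (⟨b2, b2_mem_LL⟩ * ⟨b2, b2_mem_LL⟩ : ↥LL) = 1 := Subtype.ext b2_sq
  rw [this]
  rfl

theorem braid_b2 : x 0 * b2 * x 0 = b2 * x 0 * b2 := by
  have h : isOne ap bsL ([1] ++ (trW wb ++ ([1] ++ (trW wb ++ ([1] ++ trW wb))))) = true := by decide +kernel
  have h1 := evL_eq_one h
  simp only [evL_append, ← b2_eq, evL_cons, evL_nil, mul_one] at h1
  have h0 : Lt 1 = x 0 := rfl
  rw [h0] at h1
  have h2 : x 0 * b2 * x 0 = (b2 * (x 0 * b2))⁻¹ := by
    apply eq_inv_of_mul_eq_one_left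
    rw [← h1]
    simp only [mul_assoc]
  rw [h2, _root_.mul_inv_rev, _root_.mul_inv_rev, b2_inv, x_inv, mul_assoc]

theorem braid_Q : sQ * tQ * sQ = tQ * sQ * tQ := by
  rw [sQ, tQ, ← QuotientGroup.mk_mul, ← QuotientGroup.mk_mul, ← QuotientGroup.mk_mul, ← QuotientGroup.mk_mul]
  congr 1
  exact Subtype.ext braid_b2

/-- The map from the dihedral group. -/
noncomputable def dQ : DihedralGroup 3 →* QQ := Cfsg.Agent.Lib.ThreeTransS3.dihedralHom sQ_sq tQ_sq braid_Q

theorem dQ_surj : Function.Surjective dQ := by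
  rw [← MonoidHom.range_eq_top, dQ, Cfsg.Agent.Lib.ThreeTransS3.dihedralHom_range, eq_top_iff]
  intro q _
  obtain ⟨g, rfl⟩ := QuotientGroup.mk_surjective q
  obtain ⟨g, hg⟩ := g
  have key : ∀ (g : Gq) (hg : g ∈ LL), (QuotientGroup.mk ⟨g, hg⟩ : QQ) ∈ Subgroup.closure ({sQ, tQ} : Set QQ) := by
    intro g hg
    induction hg using Subgroup.closure_induction with
    | mem z hz =>
      rcases hz with ⟨i, rfl⟩ | hz
      · have := mk_x i
        exact this ▸ Subgroup.subset_closure (by simp)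
      · have hz' : z = b2 := hz
        subst hz'
        exact Subgroup.subset_closure (by simp [tQ])
    | one => exact Subgroup.one_mem _
    | mul a b ha hb h1 h2 => exact Subgroup.mul_mem _ h1 h2
    | inv a ha h1 => exact Subgroup.inv_mem _ h1
  exact key g hg

instance finQ : Finite QQ := inferInstance

theorem card_QQ_le : Nat.card QQ ≤ 6 := by
  have h := Nat.card_le_card_of_surjective dQ dQ_surj
  rwa [DihedralGroup.nat_card] at h

theorem card_NN : Nat.card NN = 4952179814400 := by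
  rw [← card_Ev]
  exact Nat.card_congr (Subgroup.subgroupOfEquivOfLe Ev_le_LL).toEquiv

theorem card_LL : Nat.card LL = Nat.card QQ * 4952179814400 := by
  rw [← card_NN]
  exact Subgroup.card_eq_card_quotient_mul_card_subgroup NN

/-! ### The centralizer of the base transposition -/

theorem zz_ne_one : zz ≠ 1 := by
  rw [← hiz']
  have h : (!isOne ap bsL [10]) = true := by decide +kernel
  have := evL_ne_one h
  simpa [evL_cons, evL_nil] using this

theorem zz_sq : zz * zz = 1 := by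
  nth_rewrite 1 [← zz_inv]
  simp

theorem zz_mem_range : zz ∈ uG.range := by
  rw [← hiz', zW_eq]
  have h : zW.length % 1 = 0 := by omega
  obtain ⟨h1, _⟩ := evL_toF zW (fun l hl => by
    have := zW_spec l hl
    omega)
  exact ⟨_, h1⟩

theorem zz_mem_LL : zz ∈ LL := range_le_LL zz_mem_range

/-- The map from the group of order two. -/
noncomputable def f2 : Multiplicative (ZMod 2) →* Gq :=
  MonoidHom.mk' (fun a => if a = 1 then 1 else zz) (by
    intro a b
    have hcases : ∀ a : Multiplicative (ZMod 2), a = 1 ∨ a = Multiplicative.ofAdd 1 := by decide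
    have hne : (Multiplicative.ofAdd (1 : ZMod 2)) ≠ 1 := by decide
    rcases hcases a with rfl | rfl <;> rcases hcases b with rfl | rfl
    · simp
    · simp
    · simp
    · rw [two_one]
      simp [hne, zz_sq])

theorem f2_one : f2 1 = 1 := map_one f2

theorem f2_gen : f2 (Multiplicative.ofAdd 1) = zz := by
  show (if (Multiplicative.ofAdd (1 : ZMod 2)) = 1 then 1 else zz) = zz
  rw [if_neg (by decide)]

theorem f2_cases (a : Multiplicative (ZMod 2)) : f2 a = 1 ∨ f2 a = zz := by
  by_cases h : a = 1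
  · left; rw [h, f2_one]
  · right
    show (if a = 1 then 1 else zz) = zz
    rw [if_neg h]

theorem comm_K7 {k : Gq} (hk : k ∈ K7) : k * zz = zz * k := (hs' k).1 (K7_fix hk)

/-- The direct product inside the group. -/
noncomputable def mu : Multiplicative (ZMod 2) × Gp7 →* Gq :=
  MonoidHom.noncommCoprod f2 psi7 (by
    intro a g
    have hk : psi7 g ∈ K7 := ⟨g, rfl⟩
    rcases f2_cases a with h | h
    · rw [h]; exact Commute.one_left _
    · rw [h]; exact (comm_K7 hk).symm)

theorem mu_apply (a : Multiplicative (ZMod 2)) (g : Gp7) : mu (a, g) = f2 a * psi7 g := rfl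

theorem mu_inj : Function.Injective mu := by
  rw [injective_iff_map_eq_one]
  rintro ⟨a, g⟩ h
  rw [mu_apply] at h
  have hcases : ∀ a : Multiplicative (ZMod 2), a = 1 ∨ a = Multiplicative.ofAdd 1 := by decide
  rcases hcases a with rfl | rfl
  · rw [f2_one, one_mul] at h
    have : g = 1 := psi7_inj (by rw [h, map_one])
    rw [this]
    rfl
  · exfalso
    rw [f2_gen] at h
    have h1 : psi7 g = zz := by
      have h2 : psi7 g = zz⁻¹ := eq_inv_of_mul_eq_one_right h
      rwa [zz_inv] at h2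
    have hc : g ∈ Subgroup.center Gp7 := by
      rw [Subgroup.mem_center_iff]
      intro y
      apply psi7_inj
      rw [map_mul, map_mul, h1]
      exact comm_K7 ⟨y, rfl⟩
    rw [center7, Subgroup.mem_bot] at hc
    rw [hc, map_one] at h1
    exact zz_ne_one h1.symm

/-- The centralizer of the base transposition in the subgroup. -/
noncomputable abbrev CL : Subgroup Gq := LL ⊓ Subgroup.centralizer ({zz} : Set Gq)

theorem mu_range_le : mu.range ≤ CL := by
  rintro _ ⟨⟨a, g⟩, rfl⟩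
  rw [mu_apply]
  have hk : psi7 g ∈ K7 := ⟨g, rfl⟩
  refine Subgroup.mem_inf.2 ⟨?_, ?_⟩
  · refine Subgroup.mul_mem _ ?_ (Ev_le_LL (K7_le hk))
    rcases f2_cases a with h | h
    · rw [h]; exact Subgroup.one_mem _
    · rw [h]; exact zz_mem_LL
  · rw [Subgroup.mem_centralizer_singleton_iff]
    rcases f2_cases a with h | h
    · rw [h, one_mul]
      exact comm_K7 hk
    · rw [h, mul_assoc, comm_K7 hk, ← mul_assoc]

theorem card_mu : Nat.card mu.range = 2 * 4585351680 := by
  have h1 : Nat.card mu.range = Nat.card (Multiplicative (ZMod 2) × Gp7) :=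
    (Nat.card_congr (MonoidHom.ofInjective mu_inj).toEquiv).symm
  rw [h1, Nat.card_prod, card_Gp7]
  congr 1
  rw [Nat.card_congr Multiplicative.toAdd, Nat.card_eq_fintype_card, ZMod.card]

/-! ### The orbit of the base point -/

/-- The generators of the subgroup, as words. -/
def gsW : List (List ℕ) := [[1], [2], [3], [4], [5], [6], [7], [8], [9], bw]

theorem bw_eq : evL Lt bw = b2 := by
  have h : isOne ap bsL (bw ++ trW wb) = true := by decide +kernel
  have h1 := evL_eq_one h
  rw [evL_append, ← b2_eq] at h1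
  have h2 := eq_inv_of_mul_eq_one_left h1
  rwa [b2_inv] at h2

theorem gsW_mem : ∀ g ∈ gsW, evL Lt0 g ∈ LL := by
  have h1 : ∀ j ∈ bw, j < 10 := by decide +kernel
  have hb : evL Lt0 bw ∈ LL := by
    rw [← evL_small bw h1, bw_eq]
    exact b2_mem_LL
  have hl : ∀ i : Fin 9, evL Lt0 [i.val + 1] ∈ LL := by
    intro i
    rw [← evL_small [i.val + 1] (by
      intro j hj
      rw [List.mem_singleton] at hj
      have := i.2
      omega)]
    simp only [evL_cons, evL_nil, mul_one]
    exact x_mem_LL i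
  intro g hg
  simp only [gsW, List.mem_cons, List.not_mem_nil, or_false] at hg
  rcases hg with rfl | rfl | rfl | rfl | rfl | rfl | rfl | rfl | rfl | rfl
  · exact hl 0
  · exact hl 1
  · exact hl 2
  · exact hl 3
  · exact hl 4
  · exact hl 5
  · exact hl 6
  · exact hl 7
  · exact hl 8
  · exact hb

theorem grow_Sg : growS wa gsW t2 1 = Sg := by decide +kernel

theorem sound_Sg : Sound Phi LL 0 Sg := sound_of_grow hwa gsW_mem grow_Sg

theorem Sg_small : Sg < 2 ^ 2 ^ 15 := by decide +kernel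

theorem card_Sg : {i | Sg.testBit i = true}.ncard = 3240 := by
  rw [ncard_mask Sg_small]
  decide +kernel

theorem CL_fix {s : Gq} (hs : s ∈ CL) : Phi s 0 = 0 := by
  have h1 : s * zz = zz * s := Subgroup.mem_centralizer_singleton_iff.1 (Subgroup.mem_inf.1 hs).2
  exact (hs' s).2 h1

theorem card_mu_le : 3240 * (2 * 4585351680) ≤ Nat.card LL := by
  have h := card_mul_le Phi (mu_range_le.trans inf_le_left) sound_Sg (fun s hs => CL_fix (mu_range_le hs))
  rwa [card_Sg, card_mu] at h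

theorem card_QQ : Nat.card QQ = 6 := by
  have h1 := card_mu_le
  rw [card_LL] at h1
  have h2 := card_QQ_le
  omega

theorem card_LL_eq : Nat.card LL = 6 * 4952179814400 := by
  rw [card_LL, card_QQ]

theorem dQ_bij : Function.Bijective dQ :=
  dQ_surj.bijective_of_nat_card_le (by rw [DihedralGroup.nat_card, card_QQ])

/-- The quotient is the symmetric group of degree three. -/
theorem QQ_perm : Nonempty (QQ ≃* Equiv.Perm (Fin 3)) := by
  obtain ⟨e⟩ := Cfsg.Agent.Lib.ThreeTransS3.nonempty_dihedral_equiv_perm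
  exact ⟨(MulEquiv.ofBijective dQ dQ_bij).symm.trans e⟩

theorem CL_eq : CL = mu.range := by
  symm
  apply Subgroup.eq_of_le_of_card_ge mu_range_le
  have h := card_mul_le Phi (K := LL) (S := CL) inf_le_left sound_Sg (fun s hs => CL_fix hs)
  rw [card_Sg, card_LL_eq] at h
  rw [card_mu]
  have h' : 3240 * Nat.card CL ≤ 6 * 4952179814400 := h
  have g' : Nat.card CL ≤ 2 * 4585351680 := by omega
  exact g'

/-- The centralizer of the base transposition. -/
theorem CL_iso : Nonempty (↥CL ≃* Multiplicative (ZMod 2) × POmega (ZMod 3) (quadFormOdd 3 (ZMod 3))) := by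
  have hP : Nat.card Gp7 = 4585351680 := card_Gp7
  haveI : Finite (Cfsg.POmega (ZMod 3) (⇑Cfsg.Agent.Lib.Fi22O7.Q0)) :=
    Nat.finite_of_card_ne_zero (by rw [Cfsg.Agent.Lib.Fi22O7.card_POmega]; norm_num)
  have hb : Function.Bijective Cfsg.Agent.Lib.Fi22O7.phi :=
    Cfsg.Agent.Lib.Fi22O7.phi_inj.bijective_of_nat_card_le (by rw [hP, Cfsg.Agent.Lib.Fi22O7.card_POmega])
  rw [Cfsg.Agent.Lib.Fi22O7.form_eq]
  refine ⟨(MulEquiv.subgroupCongr CL_eq).trans ((MonoidHom.ofInjective mu_inj).symm.trans ?_)⟩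
  exact MulEquiv.prodCongr (MulEquiv.refl _) (MulEquiv.ofBijective _ hb)

/-! ### All transpositions of the subgroup are conjugate -/

theorem three' {t d : Gq} (ht : t ∈ D0) (hd : d ∈ D0) : (t * d) ^ 2 = 1 ∨ (t * d) ^ 3 = 1 := by
  obtain ⟨g, rfl⟩ := isConj_iff.mp ht
  obtain ⟨h, rfl⟩ := isConj_iff.mp hd
  have e : g * zz * g⁻¹ * (h * zz * h⁻¹) = g * (zz * ((g⁻¹ * h) * zz * (g⁻¹ * h)⁻¹)) * g⁻¹ := by group
  have ep : ∀ n : ℕ, (g * zz * g⁻¹ * (h * zz * h⁻¹)) ^ n = g * (zz * ((g⁻¹ * h) * zz * (g⁻¹ * h)⁻¹)) ^ n * g⁻¹ := by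
    intro n
    rw [e]
    exact conj_pow
  rw [ep, ep]
  rcases Cfsg.Agent.TcChain36.Fi23.three (g⁻¹ * h) with h1 | h1
  · left; rw [h1]; group
  · right; rw [h1]; group

theorem D0_sq {t : Gq} (ht : t ∈ D0) : t * t = 1 := by
  obtain ⟨g, rfl⟩ := isConj_iff.mp ht
  calc g * zz * g⁻¹ * (g * zz * g⁻¹) = g * (zz * zz) * g⁻¹ := by group
    _ = 1 := by rw [zz_sq]; group

theorem D0_ne {t : Gq} (ht : t ∈ D0) : t ≠ 1 := by
  obtain ⟨g, rfl⟩ := isConj_iff.mp ht
  intro h
  apply zz_ne_one
  have : zz = g⁻¹ * (g * zz * g⁻¹) * g := by group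
  rw [this, h]
  group

/-- The conjugates of the base transposition in the subgroup. -/
def conjL (d : Gq) : Prop := ∃ g ∈ LL, d = g * zz * g⁻¹

theorem conjL_of_pq {d : Gq} {p : ℕ} (hd : Pq d p) (hp : Sg.testBit p = true) : conjL d := by
  obtain ⟨h, hh, rfl⟩ := sound_Sg p hp
  refine ⟨h, hh, ?_⟩
  exact pq_inj hd (pq_conj Pt_self h)

theorem conjL_x (i : Fin 9) : conjL (x i) :=
  conjL_of_pq (pq_x i) (by revert i; decide +kernel)

theorem conjL_b2 : conjL b2 := conjL_of_pq pq_b2 (by decide +kernel)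

theorem conjL_mem_D0 {d : Gq} (h : conjL d) : d ∈ D0 := by
  obtain ⟨g, _, rfl⟩ := h
  exact isConj_iff.mpr ⟨g, rfl⟩

theorem conjL_mem_LL {d : Gq} (h : conjL d) : d ∈ LL := by
  obtain ⟨g, hg, rfl⟩ := h
  exact Subgroup.mul_mem _ (Subgroup.mul_mem _ hg zz_mem_LL) (Subgroup.inv_mem _ hg)

/-- All transpositions in the subgroup are conjugate. -/
theorem conjL_of_mem {d : Gq} (hd : d ∈ D0) (hL : d ∈ LL) : conjL d := by
  by_contra hn
  have hcomm : ∀ t, conjL t → t * d = d * t := by
    intro t ht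
    have htD := conjL_mem_D0 ht
    have ht2 := D0_sq htD
    have hd2 := D0_sq hd
    have htinv : t⁻¹ = t := inv_eq_of_mul_eq_one_left ht2
    have hdinv : d⁻¹ = d := inv_eq_of_mul_eq_one_left hd2
    rcases three' htD hd with h | h
    · rw [pow_two] at h
      have h1 := eq_inv_of_mul_eq_one_left h
      rw [_root_.mul_inv_rev, htinv, hdinv] at h1
      exact h1
    · exfalso
      apply hn
      obtain ⟨g, hg, rfl⟩ := ht
      refine ⟨(g * zz * g⁻¹ * d) * g, Subgroup.mul_mem _ (Subgroup.mul_mem _ (conjL_mem_LL ⟨g, hg, rfl⟩) hL) hg, ?_⟩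
      set t := g * zz * g⁻¹ with htd
      have e : (t * d) * g * zz * ((t * d) * g)⁻¹ = (t * d) * t * (t * d)⁻¹ := by
        rw [htd]; group
      rw [e, _root_.mul_inv_rev, hdinv, htinv]
      have h3 : t * d * t * d * t * d = 1 := by
        rw [← h]
        simp only [pow_succ, pow_zero, one_mul, mul_assoc]
      have h4 : t * d * t * d * t = d⁻¹ := eq_inv_of_mul_eq_one_left h3
      rw [hdinv] at h4
      exact h4.symm.trans (by simp only [mul_assoc])
  have hcen : ∀ y ∈ LL, d * y = y * d := by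
    intro y hy
    induction hy using Subgroup.closure_induction with
    | mem z hz =>
      rcases hz with ⟨i, rfl⟩ | hz
      · exact (hcomm _ (conjL_x i)).symm
      · have hz' : z = b2 := hz
        rw [hz']
        exact (hcomm _ conjL_b2).symm
    | one => simp
    | mul a b _ _ h1 h2 =>
      calc d * (a * b) = (d * a) * b := by group
        _ = a * (d * b) := by rw [h1]; group
        _ = a * (b * d) := by rw [h2]
        _ = _ := by group
    | inv a _ h1 =>
      calc d * a⁻¹ = a⁻¹ * (a * d) * a⁻¹ := by group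
        _ = a⁻¹ * (d * a) * a⁻¹ := by rw [h1]
        _ = _ := by group
  exact D0_ne hd (centralizer_Ev (fun y hy => hcen y (Ev_le_LL hy)))

/-- The centralizer of a transposition of the subgroup. -/
theorem CLd_iso {d : Gq} (hd : d ∈ D0) (hL : d ∈ LL) :
    Nonempty (↥(LL ⊓ Subgroup.centralizer ({d} : Set Gq)) ≃* Multiplicative (ZMod 2) × POmega (ZMod 3) (quadFormOdd 3 (ZMod 3))) := by
  obtain ⟨e⟩ := CL_iso
  obtain ⟨g, hg, rfl⟩ := conjL_of_mem hd hL
  have hmap : CL.map (MulAut.conj g).toMonoidHom = LL ⊓ Subgroup.centralizer ({g * zz * g⁻¹} : Set Gq) := by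
    ext y
    constructor
    · rintro ⟨s, hs, rfl⟩
      obtain ⟨hs1, hs2⟩ := Subgroup.mem_inf.1 hs
      have hs3 : s * zz = zz * s := Subgroup.mem_centralizer_singleton_iff.1 hs2
      refine Subgroup.mem_inf.2 ⟨Subgroup.mul_mem _ (Subgroup.mul_mem _ hg hs1) (Subgroup.inv_mem _ hg), ?_⟩
      rw [Subgroup.mem_centralizer_singleton_iff]
      show g * s * g⁻¹ * (g * zz * g⁻¹) = g * zz * g⁻¹ * (g * s * g⁻¹)
      calc g * s * g⁻¹ * (g * zz * g⁻¹) = g * (s * zz) * g⁻¹ := by group
        _ = g * (zz * s) * g⁻¹ := by rw [hs3]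
        _ = _ := by group
    · intro hy
      obtain ⟨hy1, hy2⟩ := Subgroup.mem_inf.1 hy
      rw [Subgroup.mem_centralizer_singleton_iff] at hy2
      refine ⟨g⁻¹ * y * g, Subgroup.mem_inf.2 ⟨Subgroup.mul_mem _ (Subgroup.mul_mem _ (Subgroup.inv_mem _ hg) hy1) hg, ?_⟩, ?_⟩
      · rw [Subgroup.mem_centralizer_singleton_iff]
        calc g⁻¹ * y * g * zz = g⁻¹ * (y * (g * zz * g⁻¹)) * g := by group
          _ = g⁻¹ * (g * zz * g⁻¹ * y) * g := by rw [hy2]
          _ = _ := by group
      · show g * (g⁻¹ * y * g) * g⁻¹ = y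
        group
  exact ⟨((MulEquiv.subgroupCongr hmap).symm.trans (MulEquiv.subgroupMap (MulAut.conj g) CL).symm).trans e⟩

/-! ### `F*` -/

open scoped commutatorElement in
/-- A simple nonabelian group is quasisimple. -/
theorem qs_of_simple {X : Type*} [Group X] [IsSimpleGroup X] {a b : X} (hab : a * b ≠ b * a) : IsQuasisimple X := by
  apply Cfsg.Agent.Lib.LocalCore.qs_of_perfect
  · rcases IsSimpleGroup.eq_bot_or_eq_top_of_normal (commutator X) inferInstance with h | h
    · exfalso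
      apply hab
      have h1 : ⁅a, b⁆ ∈ commutator X := Subgroup.commutator_mem_commutator trivial trivial
      rw [h, Subgroup.mem_bot, commutatorElement_eq_one_iff_mul_comm] at h1
      exact h1
    · exact h
  · intro N hN
    rcases IsSimpleGroup.eq_bot_or_eq_top_of_normal N hN with h | h
    · right
      rw [h]
      exact bot_le
    · exact Or.inl h

theorem simple_NN : IsSimpleGroup ↥EvG := by
  have h := Cfsg.Agent.S0296.result (F := ZMod 3) 4 (by norm_num)
  haveI := h
  exact EvEquiv.isSimpleGroup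

theorem ev_noncomm : ∃ a b : ↥EvG, a * b ≠ b * a :=
  ⟨⟨A7 .b, A7_mem _⟩, ⟨A7 .c, A7_mem _⟩, fun h => A7_ne_comm (congrArg Subtype.val h)⟩

theorem qs_Ev : IsQuasisimple ↥EvG := by
  haveI := simple_NN
  obtain ⟨a, b, hab⟩ := ev_noncomm
  exact qs_of_simple hab

theorem qs_NN : IsQuasisimple ↥NN :=
  Cfsg.Agent.Lib.LocalCore.qs_of_mulEquiv (Subgroup.subgroupOfEquivOfLe Ev_le_LL).symm qs_Ev

theorem centralizer_NN : Subgroup.centralizer (NN : Set ↥LL) = ⊥ := by
  rw [eq_bot_iff]
  intro c hc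
  rw [Subgroup.mem_centralizer_iff] at hc
  rw [Subgroup.mem_bot]
  apply Subtype.ext
  show c.1 = 1
  apply centralizer_Ev
  intro y hy
  have h1 := hc ⟨y, Ev_le_LL hy⟩ hy
  exact (congrArg Subtype.val h1).symm

theorem genFit_LL : generalizedFittingSubgroup ↥LL = NN :=
  Cfsg.Agent.Lib.BalanceB.genFit_of_almost_simple NN_normal qs_NN centralizer_NN

/-- The generalized Fitting subgroup of the subgroup. -/
theorem main_F : Nonempty (↥(generalizedFittingSubgroup ↥LL) ≃* POmega (ZMod 3) (quadFormPlus 4 (ZMod 3))) :=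
  ⟨((MulEquiv.subgroupCongr genFit_LL).trans (Subgroup.subgroupOfEquivOfLe Ev_le_LL)).trans EvEquiv⟩

/-- The quotient by the generalized Fitting subgroup. -/
theorem main_Q : Nonempty (↥LL ⧸ generalizedFittingSubgroup ↥LL ≃* Equiv.Perm (Fin 3)) := by
  obtain ⟨e⟩ := QQ_perm
  exact ⟨(QuotientGroup.quotientMulEquivOfEq genFit_LL).trans e⟩

/-- The subgroup is generated by the transpositions it contains. -/
theorem main_D : IsDSubgroup D0 LL := by
  apply le_antisymm
  · rw [Subgroup.closure_le]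
    exact fun d hd => hd.2
  · rw [LL, Subgroup.closure_le]
    rintro g (⟨i, rfl⟩ | hg)
    · exact Subgroup.subset_closure ⟨conjL_mem_D0 (conjL_x i), x_mem_LL i⟩
    · have hg' : g = b2 := hg
      rw [hg']
      exact Subgroup.subset_closure ⟨conjL_mem_D0 conjL_b2, b2_mem_LL⟩

end Cfsg.Agent.Lib.O83
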