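import Mathlib
import Cfsg.Agent.Lib.O83L52

/-! The structure of the subgroup `PΩ₈⁺(3).S₃` of `Fi₂₃` in the form used for the type of `Fi₂₄`. -/

set_option autoImplicit false
set_option linter.all false

namespace Cfsg.Agent.Lib.O83

open Cfsg
open Cfsg.Agent.Lib.Fi23K24

/-- The generators of the subgroup, as a set of letters and the extra transposition. -/
theorem LL_eq_closure :
    LL = Subgroup.closure
      ((fun j => Cfsg.Agent.TcChain36.Out.Fi23.Lt j) '' {j | 1 ≤ j ∧ j < 10} ∪ {b2}) := by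
  unfold LL
  congr 2
  ext g
  constructor
  · rintro ⟨i, rfl⟩
    exact ⟨i.val + 1, ⟨by omega, by have := i.isLt; omega⟩, rfl⟩
  · rintro ⟨j, ⟨h1, h2⟩, rfl⟩
    refine ⟨⟨j - 1, by omega⟩, ?_⟩
    show Cfsg.Agent.TcChain36.Out.Fi23.Lt (j - 1 + 1) = _
    rw [Nat.sub_add_cancel h1]

/-- The subgroup has trivial centre. -/
theorem center_LL : Subgroup.center ↥LL = ⊥ := by
  rw [eq_bot_iff, ← centralizer_NN]
  intro c hc
  rw [Subgroup.mem_centralizer_iff]
  intro y _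
  exact (Subgroup.mem_center_iff.1 hc y)

/-- The normal subgroup `PΩ₈⁺(3)` with quotient `S₃`. -/
theorem struct_LL :
    ∃ (N : Subgroup ↥LL) (_ : N.Normal),
      Nonempty (↥N ≃* POmega (ZMod 3) (quadFormPlus 4 (ZMod 3))) ∧
      Nonempty ((↥LL ⧸ N) ≃* Equiv.Perm (Fin 3)) :=
  ⟨NN, NN_normal, ⟨(Subgroup.subgroupOfEquivOfLe Ev_le_LL).trans EvEquiv⟩, QQ_perm⟩

end Cfsg.Agent.Lib.O83
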