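import Mathlib
import Cfsg.Agent.Lib.O8PMain
import Cfsg.Agent.Lib.O8CData

/-!
# Kernel checks for the tables of the group on 3240 points
-/

set_option autoImplicit false
set_option maxRecDepth 100000
set_option Elab.async false

namespace Cfsg.Agent.Lib.O8CChk

open Cfsg.Agent.Lib.OutTree36 Cfsg.Agent.Lib.PcClass36 Cfsg.Agent.Lib.O8CT Cfsg.Agent.Lib.O8CData
open Cfsg.Agent.Lib.O8PMain Cfsg.Agent.Lib.O8PTab Cfsg.Agent.Lib.ProgBits

/-- The mask of a copy. -/
def MK (k : ℕ) : ℕ := Nat.shiftLeft (Nat.sub (Nat.pow 2 1080) 1) (Nat.mul 1080 k)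

/-- The numbers of fixed points of a word on the copies. -/
noncomputable def fixW (M : ℕ) (w : List ℕ) : ℕ :=
  Cfsg.Agent.Lib.OutTree36.cntR (fun p => Nat.blt p 3240 && tb M p && Nat.beq (ev ap w p) p) 12 0

/-- The values of the invariant. -/
def valL : List (ℕ × ℕ × ℕ) :=
  [(108, 108, 108), (0, 0, 108), (0, 0, 135), (0, 108, 0), (0, 135, 0), (135, 0, 0), (27, 0, 0), (27, 27, 27), (108, 0, 0),
    (0, 0, 27), (0, 27, 0), (9, 9, 9), (18, 18, 18)]

theorem h_letters : allN 8 (fun e => allR (fun p => !(Nat.blt p 3240) || ptChk pr [e] (ap e p) p) 12 0) = true := by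
  decide +kernel

theorem h_defs : allN 23 (fun i => allR (fun p => !(Nat.blt p 3240) || Nat.beq (ev ap (defs.getD i []) p) (ap i p)) 12 0) = true := by
  decide +kernel

theorem h_defs8 : allN 23 (fun i => (defs.getD i []).all (fun a => Nat.blt a 8)) = true := by
  decide +kernel

theorem h_mask : allN 3 (fun k => allN 8 (fun e => allR (fun p => !(Nat.blt p 3240) || boolE (tb (MK k) (ap e p)) (tb (MK k) p)) 12 0)) = true := by
  decide +kernel

theorem h_fix : allN 13 (fun j =>
    Nat.beq (fixW (MK 0) (yW j)) (valL.getD j (0, 0, 0)).1 && Nat.beq (fixW (MK 1) (yW j)) (valL.getD j (0, 0, 0)).2.1 &&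
      Nat.beq (fixW (MK 2) (yW j)) (valL.getD j (0, 0, 0)).2.2) = true := by
  decide +kernel

theorem h_y3 : allN 13 (fun j => eqB ap bs (yW j ++ yW j ++ yW j) []) = true := by decide +kernel

theorem h_y1 : allN 13 (fun j => !(eqB ap bs (yW j) [])) = true := by decide +kernel

/-- The shift of the copies. -/
def tau : List ℕ := [2, 1, 3, 0, 6, 5, 7, 4]

theorem h_tau : allN 8 (fun e => allR (fun p => !(Nat.blt p 3240) ||
    Nat.beq (ap (tau.getD e 0) (Nat.mod (Nat.add p 1080) 3240)) (Nat.mod (Nat.add (ap e p) 1080) 3240)) 12 0) = true := by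
  decide +kernel

end Cfsg.Agent.Lib.O8CChk
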