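import Mathlib
import Cfsg.Agent.Lib.O8CChk
import Cfsg.Agent.Lib.O8CTree

/-!
# The group on 3240 points: 13 classes of elements of order 3
-/

set_option autoImplicit false
set_option maxRecDepth 100000
set_option Elab.async false
set_option linter.all false

namespace Cfsg.Agent.Lib.O8CGam

open Equiv
open Cfsg.Agent.Lib.OutTree36 Cfsg.Agent.Lib.PcClass36 Cfsg.Agent.Lib.O8CT Cfsg.Agent.Lib.O8CData Cfsg.Agent.Lib.O8CTree
open Cfsg.Agent.Lib.O8CChk
open Cfsg.Agent.Lib.O8PMain Cfsg.Agent.Lib.O8PTab Cfsg.Agent.Lib.ProgBits Cfsg.Agent.Lib.ProgChain Cfsg.Agent.Lib.PermChain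

/-- The group. -/
noncomputable abbrev GG : Subgroup (Perm (Fin 3240)) := grp g 0 8

/-- Extension of permutations of a segment. -/
noncomputable def iotaH : Perm (Fin 3240) →* Perm ℕ :=
  Equiv.Perm.extendDomainHom (Fin.equivSubtype (n := 3240))

theorem iotaH_inj : Function.Injective iotaH := Equiv.Perm.extendDomainHom_injective _

theorem iotaH_lt (w : Perm (Fin 3240)) {i : ℕ} (hi : i < 3240) : iotaH w i = (w ⟨i, hi⟩).val := by
  show Equiv.Perm.extendDomain w (Fin.equivSubtype (n := 3240)) i = _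
  rw [Equiv.Perm.extendDomain_apply_subtype (p := fun i => i < 3240) w _ hi]
  rfl

theorem iotaH_ge (w : Perm (Fin 3240)) {i : ℕ} (hi : ¬ i < 3240) : iotaH w i = i := by
  show Equiv.Perm.extendDomain w (Fin.equivSubtype (n := 3240)) i = _
  rw [Equiv.Perm.extendDomain_apply_not_subtype (p := fun i => i < 3240) w _ hi]

/-- The action on numbers. -/
noncomputable def Φ : GG →* Perm ℕ := iotaH.comp GG.subtype

theorem Φ_lt (x : GG) {i : ℕ} (hi : i < 3240) : Φ x i = (x.1 ⟨i, hi⟩).val := iotaH_lt _ hi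

theorem Φ_ge (x : GG) {i : ℕ} (hi : ¬ i < 3240) : Φ x i = i := iotaH_ge _ hi

theorem Φ_bd (x : GG) (p : ℕ) (hp : p < 3240) : Φ x p < 3240 := by
  rw [Φ_lt x hp]
  exact (x.1 _).isLt

/-- The root generators. -/
noncomputable def Lt0 (e : ℕ) : GG := if h : e < 8 then ⟨g e, gen_mem_grp _ (by omega) (by omega)⟩ else 1

/-- The letters of the tables. -/
noncomputable def Lt (i : ℕ) : GG := evL Lt0 (defs.getD i [])

theorem hap0 {e : ℕ} (he : e < 8) {p : ℕ} (hp : p < 3240) : Φ (Lt0 e) p = ap e p := by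
  have h1 := allR_spec 12 0 (allN_spec h_letters he) p (Nat.zero_le _) (by norm_num; omega)
  have h2 : Nat.blt p 3240 = true := Nat.ble_eq_true_of_le hp
  rw [h2] at h1
  have h3 : ptChk pr [e] (ap e p) p = true := by simpa using h1
  rw [Φ_lt _ hp]
  have h4 := ctx.prodW_pt (w := [e]) (p := ap e p) (b := ⟨p, hp⟩) h3
  rw [Lt0, dif_pos he]
  simpa [prodW] using h4

theorem hev0 : ∀ (w : List ℕ), w.all (fun a => Nat.blt a 8) = true → ∀ p, p < 3240 → Φ (evL Lt0 w) p = ev ap w p
  | [], _, p, _ => by simp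
  | a :: w, h, p, hp => by
    rw [List.all_cons, Bool.and_eq_true] at h
    have h2 : a < 8 := blt_true h.1
    simp only [evL_cons, map_mul, Perm.mul_apply, ev_cons]
    rw [hev0 w h.2 p hp, ← hev0 w h.2 p hp, hap0 h2 (Φ_bd _ _ hp), hev0 w h.2 p hp]

theorem defs_ge {i : ℕ} (hi : ¬ i < 23) : defs.getD i [] = [] := by
  have : defs.length = 23 := by decide
  exact List.getD_eq_default _ _ (by omega)

theorem hLt : TabRep Φ 3240 Lt ap where
  bd := Φ_bd
  ap_eq := by
    intro i p hp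
    by_cases hi : i < 23
    · rw [Lt, hev0 _ (allN_spec h_defs8 hi) p hp]
      have h1 := allR_spec 12 0 (allN_spec h_defs hi) p (Nat.zero_le _) (by norm_num; omega)
      have h2 : Nat.blt p 3240 = true := Nat.ble_eq_true_of_le hp
      rw [h2] at h1
      exact beq_true (by simpa using h1)
    · rw [Lt, defs_ge hi]
      have h2 : Nat.blt i 23 = false := by
        rw [Bool.eq_false_iff]
        intro h
        exact hi (blt_true h)
      simp [ap, h2]

theorem hbs : ∀ x : GG, (∀ b ∈ bs, Φ x b = b) → x = 1 := by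
  intro x hq
  have hq' : ∀ b (hb : b < 3240), b ∈ bs → x.1 ⟨b, hb⟩ = ⟨b, hb⟩ := by
    intro b hb hbs
    apply Fin.ext
    rw [← Φ_lt x hb]
    exact hq b hbs
  have hx := x.2
  have h0 : x.1 ∈ grp g 72 2 := by
    rw [(lev0).2.stab]
    exact ⟨hx, hq' 0 (by norm_num) (by decide)⟩
  have h1 : x.1 ∈ grp g 113 2 := by
    rw [(lev1).2.stab]
    exact ⟨h0, hq' 27 (by norm_num) (by decide)⟩
  have h2 : x.1 ∈ grp g 137 2 := by
    rw [(lev2).2.stab]
    exact ⟨h1, hq' 64 (by norm_num) (by decide)⟩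
  have h3 : x.1 ∈ grp g 151 3 := by
    rw [(lev3).2.stab]
    exact ⟨h2, hq' 99 (by norm_num) (by decide)⟩
  have h4 : x.1 ∈ grp g 157 2 := by
    rw [(lev4).2.stab]
    exact ⟨h3, hq' 1 (by norm_num) (by decide)⟩
  have h5 : x.1 ∈ grp g 164 2 := by
    rw [(lev5).2.stab]
    exact ⟨h4, hq' 108 (by norm_num) (by decide)⟩
  have h6 : x.1 ∈ grp g 166 2 := by
    rw [(lev6).2.stab]
    exact ⟨h5, hq' 109 (by norm_num) (by decide)⟩
  have h7 : x.1 ∈ grp g 168 2 := by
    rw [(lev7).2.stab]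
    exact ⟨h6, hq' 351 (by norm_num) (by decide)⟩
  have h8 : x.1 ∈ grp g 170 2 := by
    rw [(lev8).2.stab]
    exact ⟨h7, hq' 352 (by norm_num) (by decide)⟩
  have h9 : x.1 ∈ grp g 172 0 := by
    rw [(lev9).2.stab]
    exact ⟨h8, hq' 3 (by norm_num) (by decide)⟩
  rw [grp_zero] at h9
  exact Subtype.ext (Subgroup.mem_bot.mp h9)

theorem hbn : ∀ b ∈ bs, b < 3240 := by decide

/-- Elements trivial on the points of the first copy are trivial. -/
theorem eq_one_of_fix (x : GG) (h : ∀ p, p < 1080 → Φ x p = p) : x = 1 := by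
  apply hbs
  intro b hb
  apply h
  have : ∀ b ∈ bs, b < 1080 := by decide
  exact this b hb

theorem hcardG : Nat.card GG = 3 ^ ix.length * 9318400 := by
  rw [cardH0]
  norm_num [ix]

theorem hq3 : ¬ 3 ∣ 9318400 := by norm_num

theorem hPc : PcOK (ix.map Lt) := pcOK_ofM hLt hbs hbn (d := 12) (by norm_num) pc_ok

theorem hNm : Norm Lt bL ix := chkNm_sound hLt hbs hbn nm_ok

/-- The representatives. -/
noncomputable def yy (j : Fin 13) : GG := evL Lt (yW j.val)

theorem hcov (x : GG) (hx3 : x ^ 3 = 1) (hx1 : x ≠ 1) : ∃ j : Fin 13, ∃ h : GG, h * x * h⁻¹ = yy j := by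
  obtain ⟨j, hj, h, hh⟩ := cover_tree hLt hbs hbn hNm hPc (K := 13) (yW := yW) (q := 9318400) hcardG hq3
    (c := root) (by decide) tree_ok hx3 hx1
  exact ⟨⟨j, hj⟩, h, hh⟩

theorem hy3 (j : Fin 13) : yy j ^ 3 = 1 := by
  have h1 := eqB_sound hLt hbs hbn (allN_spec h_y3 j.2)
  simp only [evL_append, evL_nil] at h1
  rw [pow_succ, pow_two]
  exact h1

theorem hy1 (j : Fin 13) : yy j ≠ 1 := eqB_false hLt hbs hbn (allN_spec h_y1 j.2)

/-- Invariance of a mask. -/
theorem mask_GG {k : ℕ} (hk : k < 3) : ∀ x ∈ GG, ∀ p, (MK k).testBit (iotaH x p) = (MK k).testBit p := by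
  intro x hx
  induction hx using Subgroup.closure_induction with
  | mem x hx =>
    obtain ⟨e, he, rfl⟩ := hx
    have he8 : e < 8 := by
      have := List.mem_range'_1.mp he
      omega
    intro p
    by_cases hp : p < 3240
    · have h1 := allR_spec 12 0 (allN_spec (allN_spec h_mask hk) he8) p (Nat.zero_le _) (by norm_num; omega)
      have h2 : Nat.blt p 3240 = true := Nat.ble_eq_true_of_le hp
      rw [h2] at h1
      have h3 := boolE_spec (by simpa using h1)
      rw [tb_eq, tb_eq] at h3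
      have h4 := hap0 he8 hp
      rw [Lt0, dif_pos he8] at h4
      have h5 : iotaH (g e) p = ap e p := h4
      rw [h5, h3]
    · rw [iotaH_ge _ hp]
  | one => simp
  | mul x y _ _ hx hy =>
    intro p
    rw [map_mul, Perm.mul_apply, hx, hy]
  | inv x _ hx =>
    intro p
    have := hx (iotaH x⁻¹ p)
    have e : iotaH x (iotaH x⁻¹ p) = p := by
      rw [← Perm.mul_apply, ← map_mul]
      simp
    rw [e] at this
    exact this.symm

/-- The count of fixed points through the tables. -/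
theorem fixC_cnt (M : ℕ) (w : List ℕ) :
    fixC Φ 3240 M (evL Lt w) = fixW M w := by
  classical
  set f : ℕ → Bool := fun p => Nat.blt p 3240 && tb M p && Nat.beq (ev ap w p) p with hf
  have h1 : fixC Φ 3240 M (evL Lt w) = ((Finset.range (2 ^ 12)).filter fun p => f p = true).card := by
    unfold fixC
    congr 1
    ext p
    simp only [Finset.mem_filter, Finset.mem_range, hf, Bool.and_eq_true, tb_eq]
    constructor
    · rintro ⟨h1, h2, h3⟩
      refine ⟨by norm_num; omega, ⟨Nat.ble_eq_true_of_le h1, h2⟩, ?_⟩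
      rw [hLt.ev_eq w h1] at h3
      rw [h3]
      exact Nat.beq_refl _
    · rintro ⟨_, ⟨h1, h2⟩, h3⟩
      have h4 : p < 3240 := blt_true h1
      refine ⟨h4, h2, ?_⟩
      rw [hLt.ev_eq w h4]
      exact beq_true h3
  rw [h1, fixW, cntR_eq, Finset.card_filter]
  apply Finset.sum_congr rfl
  intro i _
  rw [Nat.zero_add]
  have key : ∀ b : Bool, (if b = true then 1 else 0) = cond b 1 0 := by
    intro b; cases b <;> rfl
  exact key (f i)

/-- The invariant. -/
noncomputable def FF (x : GG) : ℕ × ℕ × ℕ :=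
  (fixC Φ 3240 (MK 0) x, fixC Φ 3240 (MK 1) x, fixC Φ 3240 (MK 2) x)

theorem hbG (x : GG) (p : ℕ) (hp : p < 3240) : Φ x p < 3240 := Φ_bd x p hp

theorem hmG {k : ℕ} (hk : k < 3) (x : GG) (p : ℕ) : (MK k).testBit (Φ x p) = (MK k).testBit p := mask_GG hk x.1 x.2 p

theorem FF_conj (h x : GG) : FF (h * x * h⁻¹) = FF x := by
  simp only [FF]
  rw [fixC_conj hbG (hmG (by norm_num)), fixC_conj hbG (hmG (by norm_num)), fixC_conj hbG (hmG (by norm_num))]

theorem FF_inv (x : GG) : FF x⁻¹ = FF x := by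
  simp only [FF]
  rw [fixC_inv, fixC_inv, fixC_inv]

theorem FF_y (j : Fin 13) : FF (yy j) = valL.getD j.val (0, 0, 0) := by
  have h := allN_spec h_fix j.2
  simp only [Bool.and_eq_true] at h
  obtain ⟨⟨h0, h1⟩, h2⟩ := h
  simp only [FF, yy]
  rw [fixC_cnt, fixC_cnt, fixC_cnt, beq_true h0, beq_true h1, beq_true h2]

theorem val_inj : ∀ i j : Fin 13, valL.getD i.val (0, 0, 0) = valL.getD j.val (0, 0, 0) → i = j := by decide

theorem FF_inj : Function.Injective (FF ∘ yy) := by
  intro i j h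
  apply val_inj
  simpa only [Function.comp, FF_y] using h

/-- The first half of the statement for the group of permutations. -/
theorem classes_GG : ClassesOf GG 13 :=
  classes_main yy hy3 hy1 hcov FF FF_conj FF_inv FF_inj

end Cfsg.Agent.Lib.O8CGam
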