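import Mathlib
import Cfsg.Agent.Lib.O8CLines
import Cfsg.Agent.Lib.O8CGam
import Cfsg.Agent.Lib.OrthoCardFinal

/-!
# The lines of norm 1 and the Siegel transformations on codes
-/

set_option autoImplicit false
set_option maxRecDepth 100000
set_option Elab.async false
set_option linter.all false

namespace Cfsg.Agent.Lib.O8CBr1

open Cfsg QuadraticMap
open Cfsg.Agent.Lib.OutTree36 Cfsg.Agent.Lib.O8CT Cfsg.Agent.Lib.O8CData Cfsg.Agent.Lib.O8CLines
open Cfsg.Agent.Lib.OrthoBasic Cfsg.Agent.Lib.OrthoSiegel Cfsg.Agent.Lib.OrthoCount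

/-- The coordinates. -/
abbrev I8 : Type := Fin 4 ⊕ Fin 4

/-- The space. -/
abbrev V8 : Type := I8 → ZMod 3

/-- The quadratic form. -/
noncomputable abbrev Q8 : QuadraticForm (ZMod 3) V8 := qPlus 4 (ZMod 3)

/-- The position of a coordinate. -/
def pos : I8 → ℕ
  | .inl k => k
  | .inr k => 4 + k

/-- A ternary digit. -/
def dig (i k : ℕ) : ℕ := Nat.mod (Nat.div i (Nat.pow 3 k)) 3

theorem dig_eq (i k : ℕ) : dig i k = (i / 3 ^ k) % 3 := rfl

theorem dig_lt (i k : ℕ) : dig i k < 3 := Nat.mod_lt _ (by norm_num)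

/-- The vector of a code. -/
def decN (i : ℕ) : V8 := fun j => ((dig i (pos j) : ℕ) : ZMod 3)

/-- The polar form on codes. -/
def polN (a i : ℕ) : ℕ :=
  dig a 0 * dig i 4 + dig a 4 * dig i 0 + dig a 1 * dig i 5 + dig a 5 * dig i 1 + dig a 2 * dig i 6 + dig a 6 * dig i 2
    + dig a 3 * dig i 7 + dig a 7 * dig i 3

/-- The form on codes. -/
def qN (a : ℕ) : ℕ := dig a 0 * dig a 4 + dig a 1 * dig a 5 + dig a 2 * dig a 6 + dig a 3 * dig a 7

/-- A digit of the image under a Siegel transformation. -/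
def newD (e y x k : ℕ) : ℕ :=
  (dig x k + polN x e * dig y k + 2 * (polN x y + qN y * polN x e) * dig e k) % 3

/-- The code of the image under a Siegel transformation. -/
def imgS (e y x : ℕ) : ℕ :=
  newD e y x 0 + 3 * newD e y x 1 + 9 * newD e y x 2 + 27 * newD e y x 3 + 81 * newD e y x 4 + 243 * newD e y x 5
    + 729 * newD e y x 6 + 2187 * newD e y x 7

/-- The negative of a code. -/
def negN (c : ℕ) : ℕ :=
  (2 * dig c 0) % 3 + 3 * ((2 * dig c 1) % 3) + 9 * ((2 * dig c 2) % 3) + 27 * ((2 * dig c 3) % 3) + 81 * ((2 * dig c 4) % 3)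
    + 243 * ((2 * dig c 5) % 3) + 729 * ((2 * dig c 6) % 3) + 2187 * ((2 * dig c 7) % 3)

theorem dig_sum {d0 d1 d2 d3 d4 d5 d6 d7 : ℕ} (h0 : d0 < 3) (h1 : d1 < 3) (h2 : d2 < 3) (h3 : d3 < 3)
    (h4 : d4 < 3) (h5 : d5 < 3) (h6 : d6 < 3) (h7 : d7 < 3) (s : ℕ)
    (hs : s = d0 + 3 * d1 + 9 * d2 + 27 * d3 + 81 * d4 + 243 * d5 + 729 * d6 + 2187 * d7) :
    dig s 0 = d0 ∧ dig s 1 = d1 ∧ dig s 2 = d2 ∧ dig s 3 = d3 ∧ dig s 4 = d4 ∧ dig s 5 = d5 ∧ dig s 6 = d6 ∧ dig s 7 = d7 := by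
  simp only [dig_eq]
  norm_num
  refine ⟨?_, ?_, ?_, ?_, ?_, ?_, ?_, ?_⟩ <;> omega

theorem dig_of_sum {d : ℕ → ℕ} (hd : ∀ k, d k < 3) {s : ℕ}
    (hs : s = d 0 + 3 * d 1 + 9 * d 2 + 27 * d 3 + 81 * d 4 + 243 * d 5 + 729 * d 6 + 2187 * d 7) (j : I8) :
    dig s (pos j) = d (pos j) := by
  obtain ⟨h0, h1, h2, h3, h4, h5, h6, h7⟩ := dig_sum (hd 0) (hd 1) (hd 2) (hd 3) (hd 4) (hd 5) (hd 6) (hd 7) s hs
  rcases j with k | k
  · fin_cases k
    · exact h0
    · exact h1
    · exact h2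
    · exact h3
  · fin_cases k
    · exact h4
    · exact h5
    · exact h6
    · exact h7

theorem polar_Q8 (u v : V8) : QuadraticMap.polar (⇑Q8) u v =
    u (.inl 0) * v (.inr 0) + u (.inr 0) * v (.inl 0) + u (.inl 1) * v (.inr 1) + u (.inr 1) * v (.inl 1)
      + u (.inl 2) * v (.inr 2) + u (.inr 2) * v (.inl 2) + u (.inl 3) * v (.inr 3) + u (.inr 3) * v (.inl 3) := by
  simp only [QuadraticMap.polar, qPlus_apply, quadFormPlus, Fin.sum_univ_four, Pi.add_apply]
  ring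

theorem Q8_apply (u : V8) : Q8 u =
    u (.inl 0) * u (.inr 0) + u (.inl 1) * u (.inr 1) + u (.inl 2) * u (.inr 2) + u (.inl 3) * u (.inr 3) := by
  simp only [qPlus_apply, quadFormPlus, Fin.sum_univ_four]

theorem decN_inl0 (a : ℕ) : decN a (.inl 0) = ((dig a 0 : ℕ) : ZMod 3) := rfl
theorem decN_inl1 (a : ℕ) : decN a (.inl 1) = ((dig a 1 : ℕ) : ZMod 3) := rfl
theorem decN_inl2 (a : ℕ) : decN a (.inl 2) = ((dig a 2 : ℕ) : ZMod 3) := rfl
theorem decN_inl3 (a : ℕ) : decN a (.inl 3) = ((dig a 3 : ℕ) : ZMod 3) := rfl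
theorem decN_inr0 (a : ℕ) : decN a (.inr 0) = ((dig a 4 : ℕ) : ZMod 3) := rfl
theorem decN_inr1 (a : ℕ) : decN a (.inr 1) = ((dig a 5 : ℕ) : ZMod 3) := rfl
theorem decN_inr2 (a : ℕ) : decN a (.inr 2) = ((dig a 6 : ℕ) : ZMod 3) := rfl
theorem decN_inr3 (a : ℕ) : decN a (.inr 3) = ((dig a 7 : ℕ) : ZMod 3) := rfl

theorem polN_cast (a i : ℕ) : ((polN a i : ℕ) : ZMod 3) = QuadraticMap.polar (⇑Q8) (decN a) (decN i) := by
  rw [polar_Q8]
  simp only [decN_inl0, decN_inl1, decN_inl2, decN_inl3, decN_inr0, decN_inr1, decN_inr2, decN_inr3]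
  unfold polN
  push_cast
  ring

theorem qN_cast (a : ℕ) : ((qN a : ℕ) : ZMod 3) = Q8 (decN a) := by
  rw [Q8_apply]
  simp only [decN_inl0, decN_inl1, decN_inl2, decN_inl3, decN_inr0, decN_inr1, decN_inr2, decN_inr3]
  unfold qN
  push_cast
  ring

theorem two_eq : (2 : ZMod 3) = -1 := by decide

theorem decN_imgS (e y x : ℕ) : decN (imgS e y x) = siegelLin Q8 (decN e) (decN y) (decN x) := by
  ext j
  have h : decN (imgS e y x) j = ((newD e y x (pos j) : ℕ) : ZMod 3) := by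
    unfold decN
    rw [dig_of_sum (s := imgS e y x) (d := newD e y x) (fun k => Nat.mod_lt _ (by norm_num)) rfl j]
  rw [h, newD, ZMod.natCast_mod, siegelLin_apply, ← polN_cast, ← polN_cast, ← qN_cast]
  push_cast
  rw [two_eq]
  simp only [Pi.sub_apply, Pi.add_apply, Pi.smul_apply, smul_eq_mul, decN]
  ring

theorem decN_negN (c : ℕ) : decN (negN c) = - decN c := by
  ext j
  have h : decN (negN c) j = (((2 * dig c (pos j)) % 3 : ℕ) : ZMod 3) := by
    unfold decN
    rw [dig_of_sum (s := negN c) (d := fun k => (2 * dig c k) % 3) (fun k => Nat.mod_lt _ (by norm_num)) rfl j]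
  rw [h, ZMod.natCast_mod]
  push_cast
  rw [two_eq]
  simp only [Pi.neg_apply, decN]
  ring

theorem decN_inj {i j : ℕ} (hi : i < 6561) (hj : j < 6561) (h : decN i = decN j) : i = j := by
  have key : ∀ c : I8, dig i (pos c) = dig j (pos c) := by
    intro c
    have h1 := congrFun h c
    unfold decN at h1
    have h2 := (ZMod.natCast_eq_natCast_iff' _ _ 3).1 h1
    rwa [Nat.mod_eq_of_lt (dig_lt _ _), Nat.mod_eq_of_lt (dig_lt _ _)] at h2
  have h0 := key (.inl 0)
  have h1 := key (.inl 1)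
  have h2 := key (.inl 2)
  have h3 := key (.inl 3)
  have h4 := key (.inr 0)
  have h5 := key (.inr 1)
  have h6 := key (.inr 2)
  have h7 := key (.inr 3)
  simp only [pos, dig_eq, Fin.val_zero, Fin.val_one, Fin.val_two] at h0 h1 h2 h3 h4 h5 h6 h7
  have e3 : ((3 : Fin 4) : ℕ) = 3 := rfl
  rw [e3] at h3 h7
  norm_num at h0 h1 h2 h3 h4 h5 h6 h7
  omega

/-- The code of a line. -/
noncomputable def cd (p : ℕ) : ℕ := tget 13 cdT p

/-- The line of a code. -/
noncomputable def idx (c : ℕ) : ℕ := tget 11 idxT c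

/-- The vector of a line. -/
noncomputable def vec (p : ℕ) : V8 := decN (cd p)

/-- The first vector of a root generator. -/
def eL : List ℕ := [1, 3, 9, 9, 81, 243, 729, 729]

/-- The second vector of a root generator. -/
def yL : List ℕ := [486, 1458, 4374, 27, 3, 9, 27, 4374]

theorem c1 : allN 8 (fun e => allR (fun p => !(Nat.blt p 1080) ||
    (Nat.beq (imgS (eL.getD e 0) (yL.getD e 0) (cd p)) (cd (ap e p)) ||
      Nat.beq (imgS (eL.getD e 0) (yL.getD e 0) (cd p)) (negN (cd (ap e p))))) 11 0) = true := by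
  decide +kernel

theorem c2 : allR (fun p => !(Nat.blt p 1080) ||
    (Nat.blt (cd p) 6561 && Nat.blt (negN (cd p)) 6561 && Nat.beq (idx (cd p)) p && Nat.beq (idx (negN (cd p))) p)) 11 0 = true := by
  decide +kernel

theorem c3 : allR (fun c => !(Nat.blt c 6561) || !(Nat.beq (qN c % 3) 1) ||
    (Nat.blt (idx c) 1080 && (Nat.beq (cd (idx c)) c || Nat.beq (negN (cd (idx c))) c))) 13 0 = true := by
  decide +kernel

theorem c4 : allN 8 (fun e => Nat.beq (qN (eL.getD e 0) % 3) 0 && Nat.beq (polN (eL.getD e 0) (yL.getD e 0) % 3) 0) = true := by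
  decide +kernel

/-- The image of a line under a letter. -/
theorem img_letter {e p : ℕ} (he : e < 8) (hp : p < 1080) :
    siegelLin Q8 (decN (eL.getD e 0)) (decN (yL.getD e 0)) (vec p) = vec (ap e p) ∨
      siegelLin Q8 (decN (eL.getD e 0)) (decN (yL.getD e 0)) (vec p) = - vec (ap e p) := by
  have h1 := allR_spec 11 0 (allN_spec c1 he) p (Nat.zero_le _) (by norm_num; omega)
  have h2 : Nat.blt p 1080 = true := Nat.ble_eq_true_of_le hp
  rw [h2] at h1
  have h3 : (Nat.beq (imgS (eL.getD e 0) (yL.getD e 0) (cd p)) (cd (ap e p)) ||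
      Nat.beq (imgS (eL.getD e 0) (yL.getD e 0) (cd p)) (negN (cd (ap e p)))) = true := by simpa using h1
  rw [Bool.or_eq_true] at h3
  unfold vec
  rw [← decN_imgS]
  rcases h3 with h | h
  · left; rw [beq_true h]
  · right; rw [beq_true h, decN_negN]

/-- Lines are told apart by their vectors. -/
theorem line_eq {p q : ℕ} (hp : p < 1080) (hq : q < 1080) (h : vec p = vec q ∨ vec p = - vec q) : p = q := by
  have hc : ∀ p, p < 1080 → cd p < 6561 ∧ negN (cd p) < 6561 ∧ idx (cd p) = p ∧ idx (negN (cd p)) = p := by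
    intro p hp
    have h1 := allR_spec 11 0 c2 p (Nat.zero_le _) (by norm_num; omega)
    have h2 : Nat.blt p 1080 = true := Nat.ble_eq_true_of_le hp
    rw [h2] at h1
    have h3 : (Nat.blt (cd p) 6561 && Nat.blt (negN (cd p)) 6561 && Nat.beq (idx (cd p)) p && Nat.beq (idx (negN (cd p))) p) = true := by
      simpa using h1
    simp only [Bool.and_eq_true] at h3
    obtain ⟨⟨⟨h4, h5⟩, h6⟩, h7⟩ := h3
    exact ⟨blt_true h4, blt_true h5, beq_true h6, beq_true h7⟩
  obtain ⟨p1, p2, p3, p4⟩ := hc p hp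
  obtain ⟨q1, q2, q3, q4⟩ := hc q hq
  rcases h with h | h
  · have := decN_inj p1 q1 h
    rw [← p3, this, q3]
  · rw [vec, vec, ← decN_negN] at h
    have := decN_inj p1 q2 h
    rw [← p3, this, q4]

/-- A vector of norm 1 with a code comes from a line. -/
theorem code_line {c : ℕ} (hc : c < 6561) (hq : qN c % 3 = 1) : ∃ p, p < 1080 ∧ (decN c = vec p ∨ decN c = - vec p) := by
  have h1 := allR_spec 13 0 c3 c (Nat.zero_le _) (by norm_num; omega)
  have h2 : Nat.blt c 6561 = true := Nat.ble_eq_true_of_le hc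
  have h3 : Nat.beq (qN c % 3) 1 = true := by rw [hq]; rfl
  rw [h2, h3] at h1
  have h4 : (Nat.blt (idx c) 1080 && (Nat.beq (cd (idx c)) c || Nat.beq (negN (cd (idx c))) c)) = true := by simpa using h1
  simp only [Bool.and_eq_true, Bool.or_eq_true] at h4
  obtain ⟨h5, h6⟩ := h4
  refine ⟨idx c, blt_true h5, ?_⟩
  rcases h6 with h | h
  · left; rw [vec, beq_true h]
  · right; rw [vec, ← decN_negN, beq_true h]

theorem Q_eL {e : ℕ} (he : e < 8) : Q8 (decN (eL.getD e 0)) = 0 := by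
  have h := allN_spec c4 he
  simp only [Bool.and_eq_true] at h
  have h1 := beq_true h.1
  rw [← qN_cast, ← ZMod.natCast_mod, h1]
  rfl

theorem polar_eL {e : ℕ} (he : e < 8) : QuadraticMap.polar (⇑Q8) (decN (eL.getD e 0)) (decN (yL.getD e 0)) = 0 := by
  have h := allN_spec c4 he
  simp only [Bool.and_eq_true] at h
  have h1 := beq_true h.2
  rw [← polN_cast, ← ZMod.natCast_mod, h1]
  rfl

end Cfsg.Agent.Lib.O8CBr1
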