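import Mathlib
import Cfsg.Agent.Lib.O8CBr1

/-!
# The bridge between `PΩ⁺₈(3)` and the group on 3240 points
-/

set_option autoImplicit false
set_option maxRecDepth 100000
set_option Elab.async false
set_option linter.all false

namespace Cfsg.Agent.Lib.O8CBr2

open Cfsg QuadraticMap Equiv
open Cfsg.Agent.Lib.OutTree36 Cfsg.Agent.Lib.O8CT Cfsg.Agent.Lib.O8CData Cfsg.Agent.Lib.O8CBr1 Cfsg.Agent.Lib.O8CGam
  Cfsg.Agent.Lib.O8CChk
open Cfsg.Agent.Lib.OrthoBasic Cfsg.Agent.Lib.OrthoSiegel Cfsg.Agent.Lib.OrthoCount Cfsg.Agent.Lib.OrthoSimple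
  Cfsg.Agent.Lib.OrthoFinal Cfsg.Agent.Lib.OrthoOrder Cfsg.Agent.Lib.OrthoGen

theorem hQ8 : Nondeg Q8 := nondeg_qPlus 4

theorem hgen8 : genR Q8 = ⊤ := genR_qPlus 4

/-- A frame. -/
noncomputable def fr8 : Frame Q8 := Classical.choice (framePlus (F := ZMod 3) 1)

/-- The group of Siegel transformations. -/
noncomputable abbrev EE : Subgroup (OG Q8) := siegelE Q8

/-- The linear map of an element. -/
noncomputable def toL (x : EE) : V8 ≃ₗ[ZMod 3] V8 := ((x : OG Q8) : V8 ≃ₗ[ZMod 3] V8)

theorem toL_mul (x y : EE) (v : V8) : toL (x * y) v = toL x (toL y v) := rfl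

theorem toL_one (v : V8) : toL 1 v = v := rfl

theorem toL_inv_left (x : EE) (v : V8) : toL x⁻¹ (toL x v) = v := by
  rw [← toL_mul, inv_mul_cancel, toL_one]

theorem eqE {x y : EE} (h : ∀ v, toL x v = toL y v) : x = y :=
  Subtype.ext (Subtype.ext (LinearEquiv.ext h))

theorem MK0_eq : MK 0 = 2 ^ 1080 - 1 := by decide +kernel

theorem Φ_lt1 (γ : GG) {p : ℕ} (hp : p < 1080) : Φ γ p < 1080 := by
  have h := hmG (k := 0) (by norm_num) γ p
  rw [MK0_eq, Nat.testBit_two_pow_sub_one, Nat.testBit_two_pow_sub_one] at h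
  simpa [hp] using h

/-- The relation between transformations and permutations. -/
def Rel (x : EE) (γ : GG) : Prop :=
  ∀ p, p < 1080 → toL x (vec p) = vec (Φ γ p) ∨ toL x (vec p) = - vec (Φ γ p)

/-- The subgroup of pairs in relation. -/
noncomputable def SS : Subgroup (EE × GG) where
  carrier := {z | Rel z.1 z.2}
  one_mem' := by
    intro p _
    left
    simp [toL_one]
  mul_mem' := by
    rintro ⟨x, γ⟩ ⟨x', γ'⟩ h h' p hp
    simp only [Set.mem_setOf_eq, Prod.mk_mul_mk, map_mul, Perm.mul_apply] at h h' ⊢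
    have hq := Φ_lt1 γ' hp
    rw [toL_mul]
    rcases h' p hp with h1 | h1 <;> rcases h _ hq with h2 | h2
    · left; rw [h1, h2]
    · right; rw [h1, h2]
    · right; rw [h1, map_neg, h2]
    · left; rw [h1, map_neg, h2, neg_neg]
  inv_mem' := by
    rintro ⟨x, γ⟩ h p hp
    simp only [Set.mem_setOf_eq, Prod.inv_mk] at h ⊢
    have hq := Φ_lt1 γ⁻¹ hp
    have e : Φ γ (Φ γ⁻¹ p) = p := by
      rw [← Perm.mul_apply, ← map_mul]
      simp
    rcases h _ hq with h2 | h2
    · left
      rw [e] at h2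
      rw [← h2, toL_inv_left]
    · right
      rw [e] at h2
      have h3 : vec p = - toL x (vec (Φ γ⁻¹ p)) := by rw [h2, neg_neg]
      rw [h3, map_neg, toL_inv_left]

theorem mem_SS {x : EE} {γ : GG} : (x, γ) ∈ SS ↔ Rel x γ := Iff.rfl

/-- The transformation of a root generator. -/
noncomputable def sO (e : ℕ) : OG Q8 :=
  if h : e < 8 then
    OG.ofLinear hQ8 (siegelLin Q8 (decN (eL.getD e 0)) (decN (yL.getD e 0))) (siegelLin_Q Q8 (Q_eL h) (polar_eL h))
  else 1

theorem sO_apply {e : ℕ} (h : e < 8) (v : V8) :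
    ((sO e : OG Q8) : V8 ≃ₗ[ZMod 3] V8) v = siegelLin Q8 (decN (eL.getD e 0)) (decN (yL.getD e 0)) v := by
  rw [sO, dif_pos h, OG.ofLinear_apply]

theorem sO_siegel {e : ℕ} (h : e < 8) : IsSiegel (sO e) (decN (eL.getD e 0)) (decN (yL.getD e 0)) :=
  ⟨Q_eL h, polar_eL h, fun x => sO_apply h x⟩

/-- The root generators in the group of Siegel transformations. -/
noncomputable def sE (e : ℕ) : EE :=
  ⟨sO e, by
    by_cases h : e < 8
    · exact (sO_siegel h).mem
    · rw [sO, dif_neg h]
      exact Subgroup.one_mem _⟩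

theorem sE_apply {e : ℕ} (h : e < 8) (v : V8) : toL (sE e) v = siegelLin Q8 (decN (eL.getD e 0)) (decN (yL.getD e 0)) v :=
  sO_apply h v

theorem rel_letter {e : ℕ} (he : e < 8) : (sE e, Lt0 e) ∈ SS := by
  intro p hp
  show toL (sE e) (vec p) = _ ∨ toL (sE e) (vec p) = _
  rw [sE_apply he, hap0 he (by omega)]
  exact img_letter he hp

/-- The projection to the group of permutations. -/
noncomputable def p2 : SS →* GG := (MonoidHom.snd EE GG).comp SS.subtype

/-- The projection to the quotient by the centre. -/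
noncomputable def p1 : SS →* (EE ⧸ Subgroup.center EE) :=
  (QuotientGroup.mk' (Subgroup.center EE)).comp ((MonoidHom.fst EE GG).comp SS.subtype)

theorem p2_surj : Function.Surjective p2 := by
  have key : ∀ γ (hγ : γ ∈ GG), ∃ x : EE, (x, (⟨γ, hγ⟩ : GG)) ∈ SS := by
    intro γ hγ
    change γ ∈ Subgroup.closure _ at hγ
    induction hγ using Subgroup.closure_induction with
    | mem y hy =>
      obtain ⟨k, hk, rfl⟩ := hy
      have hk8 : k < 8 := by
        have := List.mem_range'_1.mp hk
        omega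
      refine ⟨sE k, ?_⟩
      have := rel_letter hk8
      rw [Lt0, dif_pos hk8] at this
      exact this
    | one => exact ⟨1, SS.one_mem⟩
    | mul a b _ _ ha hb =>
      obtain ⟨x, hx⟩ := ha
      obtain ⟨y, hy⟩ := hb
      exact ⟨x * y, SS.mul_mem hx hy⟩
    | inv a _ ha =>
      obtain ⟨x, hx⟩ := ha
      exact ⟨x⁻¹, SS.inv_mem hx⟩
  rintro ⟨γ, hγ⟩
  obtain ⟨x, hx⟩ := key γ hγ
  exact ⟨⟨(x, ⟨γ, hγ⟩), hx⟩, rfl⟩

theorem zmod_key : ∀ c d d' u w : ZMod 3, c * 1 + u = d * (1 + 0) → c * 1 - u = d' * (1 - 0) → c * 0 + w = d * (0 + 1) →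
    c * 0 - w = d' * (0 - 1) → d = c := by decide

/-- A transformation preserving all lines of norm 1 is a scalar. -/
theorem scalar_of_rel {x : EE} (h : Rel x 1) : ∃ l : ZMod 3, ∀ v, toL x v = l • v := by
  -- vectors with a code of norm 1 are eigenvectors
  have hP : ∀ c, c < 6561 → qN c % 3 = 1 → ∃ k : ZMod 3, toL x (decN c) = k • decN c := by
    intro c hc hq
    obtain ⟨p, hp, hcp⟩ := code_line hc hq
    have h1 := h p hp
    simp only [map_one, Perm.one_apply] at h1
    rcases hcp with e | e <;> rcases h1 with h2 | h2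
    · exact ⟨1, by rw [e, h2, one_smul]⟩
    · exact ⟨-1, by rw [e, h2, neg_smul, one_smul]⟩
    · exact ⟨1, by rw [e, map_neg, h2, one_smul]⟩
    · exact ⟨-1, by rw [e, map_neg, h2, neg_smul, one_smul]⟩
  have key : ∀ (a b c0 : ℕ) (i j : I8) (c : ZMod 3), a < 6561 → toL x (decN a) = c • decN a →
      (∃ ap am : ℕ, ap < 6561 ∧ am < 6561 ∧ qN ap % 3 = 1 ∧ qN am % 3 = 1 ∧ decN ap = decN a + decN b ∧ decN am = decN a - decN b) →
      decN a i = 1 → decN b i = 0 → decN a j = 0 → decN b j = 1 → toL x (decN b) = c • decN b := by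
    intro a b c0 i j c ha hga ⟨ap, am, hap, ham, hqp, hqm, ep, em⟩ hai hbi haj hbj
    obtain ⟨d, hd⟩ := hP ap hap hqp
    obtain ⟨d', hd'⟩ := hP am ham hqm
    rw [ep, map_add] at hd
    rw [em, map_sub] at hd'
    rw [hga] at hd hd'
    have h1 := congrFun hd i
    have h2 := congrFun hd j
    have h3 := congrFun hd' i
    have h4 := congrFun hd' j
    simp only [Pi.add_apply, Pi.sub_apply, Pi.smul_apply, smul_eq_mul, hai, hbi, haj, hbj] at h1 h2 h3 h4
    -- the values at the two coordinates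
    set u := toL x (decN b) i with hu
    set w := toL x (decN b) j with hw
    have h5 : d = c := zmod_key c d d' u w h1 h3 h2 h4
    have : toL x (decN b) = d • (decN a + decN b) - c • decN a := by
      rw [← hd]
      simp
    rw [this, h5]
    ext t
    simp only [Pi.sub_apply, Pi.add_apply, Pi.smul_apply, smul_eq_mul]
    ring
  obtain ⟨c, hc⟩ := hP 82 (by norm_num) (by decide +kernel)
  obtain ⟨u1⟩ : Nonempty Unit := ⟨()⟩
  have hu : ∀ (k : ℕ), k = 1 ∨ k = 2 ∨ k = 3 ∨ k = 5 ∨ k = 6 ∨ k = 7 → toL x (decN (3 ^ k)) = c • decN (3 ^ k) := by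
    intro k hk
    rcases hk with rfl | rfl | rfl | rfl | rfl | rfl
    · exact key 82 (3 ^ 1) 0 (.inl 0) (.inl 1) c (by norm_num) hc ⟨85, 88, by norm_num, by norm_num, by decide +kernel, by decide +kernel,
        by decide +kernel, by decide +kernel⟩ (by decide +kernel) (by decide +kernel) (by decide +kernel) (by decide +kernel)
    · exact key 82 (3 ^ 2) 0 (.inl 0) (.inl 2) c (by norm_num) hc ⟨91, 100, by norm_num, by norm_num, by decide +kernel, by decide +kernel,
        by decide +kernel, by decide +kernel⟩ (by decide +kernel) (by decide +kernel) (by decide +kernel) (by decide +kernel)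
    · exact key 82 (3 ^ 3) 0 (.inl 0) (.inl 3) c (by norm_num) hc ⟨109, 136, by norm_num, by norm_num, by decide +kernel, by decide +kernel,
        by decide +kernel, by decide +kernel⟩ (by decide +kernel) (by decide +kernel) (by decide +kernel) (by decide +kernel)
    · exact key 82 (3 ^ 5) 0 (.inl 0) (.inr 1) c (by norm_num) hc ⟨325, 568, by norm_num, by norm_num, by decide +kernel, by decide +kernel,
        by decide +kernel, by decide +kernel⟩ (by decide +kernel) (by decide +kernel) (by decide +kernel) (by decide +kernel)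
    · exact key 82 (3 ^ 6) 0 (.inl 0) (.inr 2) c (by norm_num) hc ⟨811, 1540, by norm_num, by norm_num, by decide +kernel, by decide +kernel,
        by decide +kernel, by decide +kernel⟩ (by decide +kernel) (by decide +kernel) (by decide +kernel) (by decide +kernel)
    · exact key 82 (3 ^ 7) 0 (.inl 0) (.inr 3) c (by norm_num) hc ⟨2269, 4456, by norm_num, by norm_num, by decide +kernel, by decide +kernel,
        by decide +kernel, by decide +kernel⟩ (by decide +kernel) (by decide +kernel) (by decide +kernel) (by decide +kernel)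
  -- the second base vector
  have hc2 : toL x (decN 246) = c • decN 246 := by
    have e : decN 246 = decN (3 ^ 1) + decN (3 ^ 5) := by decide +kernel
    rw [e, map_add, hu 1 (by simp), hu 5 (by simp), smul_add]
  have h0 : toL x (decN (3 ^ 0)) = c • decN (3 ^ 0) :=
    key 246 (3 ^ 0) 0 (.inl 1) (.inl 0) c (by norm_num) hc2 ⟨247, 248, by norm_num, by norm_num, by decide +kernel, by decide +kernel,
        by decide +kernel, by decide +kernel⟩ (by decide +kernel) (by decide +kernel) (by decide +kernel) (by decide +kernel)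
  have h4 : toL x (decN (3 ^ 4)) = c • decN (3 ^ 4) :=
    key 246 (3 ^ 4) 0 (.inl 1) (.inr 0) c (by norm_num) hc2 ⟨327, 408, by norm_num, by norm_num, by decide +kernel, by decide +kernel,
        by decide +kernel, by decide +kernel⟩ (by decide +kernel) (by decide +kernel) (by decide +kernel) (by decide +kernel)
  refine ⟨c, ?_⟩
  have hall : ∀ i : I8, toL x (Pi.single i 1) = c • Pi.single i 1 := by
    have e : ∀ i : I8, (Pi.single i 1 : V8) = decN (3 ^ pos i) := by decide +kernel
    intro i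
    rw [e]
    rcases i with k | k <;> fin_cases k
    · exact h0
    · exact hu 1 (by simp)
    · exact hu 2 (by simp)
    · exact hu 3 (by simp)
    · exact h4
    · exact hu 5 (by simp)
    · exact hu 6 (by simp)
    · exact hu 7 (by simp)
  intro v
  have hv : v = ∑ i : I8, v i • (Pi.single i 1 : V8) := by
    ext j
    simp [Finset.sum_apply, Pi.single_apply]
  rw [hv, map_sum, Finset.smul_sum]
  apply Finset.sum_congr rfl
  intro i _
  rw [map_smul, hall, smul_comm]

theorem ker_le : p2.ker ≤ p1.ker := by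
  rintro ⟨⟨x, γ⟩, hz⟩ hk
  have h1 : γ = 1 := hk
  subst h1
  obtain ⟨l, hl⟩ := scalar_of_rel hz
  show (QuotientGroup.mk' (Subgroup.center EE)) x = 1
  rw [QuotientGroup.mk'_apply, QuotientGroup.eq_one_iff]
  exact scalar_center hl

/-- The map from the group of permutations to the quotient by the centre. -/
noncomputable def phi : GG →* (EE ⧸ Subgroup.center EE) := (p2.liftOfSurjective p2_surj) ⟨p1, ker_le⟩

theorem phi_p2 (z : SS) : phi (p2 z) = p1 z :=
  MonoidHom.liftOfRightInverse_comp_apply _ _ _ _ _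

theorem phi_inj : Function.Injective phi := by
  rw [injective_iff_map_eq_one]
  intro γ hγ
  obtain ⟨⟨⟨x, γ'⟩, hz⟩, rfl⟩ := p2_surj γ
  rw [phi_p2] at hγ
  have hc : x ∈ Subgroup.center EE := by
    have h2 : (QuotientGroup.mk' (Subgroup.center EE)) x = 1 := hγ
    rwa [QuotientGroup.mk'_apply, QuotientGroup.eq_one_iff] at h2
  obtain ⟨l, hl2, hl⟩ := center_scalar hQ8 fr8 x hc
  show γ' = 1
  apply eq_one_of_fix
  intro p hp
  have hq := Φ_lt1 γ' hp
  have h1 := hz p hp
  have e1 : toL x (vec p) = l • vec p := hl _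
  rw [e1] at h1
  have hl' : ∀ l : ZMod 3, l ^ 2 = 1 → l = 1 ∨ l = -1 := by decide
  symm
  apply line_eq hp hq
  rcases hl' l hl2 with rfl | rfl
  · rw [one_smul] at h1
    exact h1
  · rw [neg_smul, one_smul] at h1
    rcases h1 with h1 | h1
    · right
      rw [← h1, neg_neg]
    · left
      exact neg_injective h1

/-- The form agrees with the one of the statement. -/
theorem hf8 : ∀ v, Cfsg.quadFormPlus 4 (ZMod 3) v = Q8 v := fun v => (qPlus_apply _ v).symm

/-- The simple group as a quotient. -/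
noncomputable def ePom : Cfsg.POmega (ZMod 3) (Cfsg.quadFormPlus 4 (ZMod 3)) ≃* (EE ⧸ Subgroup.center EE) :=
  pomegaEquiv (V := Unit) _ Q8 hf8 (omega_eq_E hQ8 hgen8 fr8)

theorem card_PP : Nat.card (Cfsg.POmega (ZMod 3) (Cfsg.quadFormPlus 4 (ZMod 3))) = 4952179814400 := by
  have h := Cfsg.Agent.Lib.OrthoCardFinal.card_POmega_plus (F := ZMod 3) (q := 3) (ZMod.card 3) 4 le_rfl
  norm_num [Finset.prod_range_succ] at h
  omega

instance : Finite (EE ⧸ Subgroup.center EE) := by
  apply Nat.finite_of_card_ne_zero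
  rw [← Nat.card_congr ePom.toEquiv, card_PP]
  norm_num

theorem phi_bij : Function.Bijective phi := by
  apply phi_inj.bijective_of_nat_card_le
  rw [← Nat.card_congr ePom.toEquiv, card_PP, Cfsg.Agent.Lib.O8PMain.cardH0]

/-- The isomorphism with the quotient. -/
noncomputable def iotaQ : GG ≃* (EE ⧸ Subgroup.center EE) := MulEquiv.ofBijective phi phi_bij

/-- The simple group is the group of permutations. -/
noncomputable def ePG : Cfsg.POmega (ZMod 3) (Cfsg.quadFormPlus 4 (ZMod 3)) ≃* GG := ePom.trans iotaQ.symm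

theorem iotaQ_letter {e : ℕ} (he : e < 8) : iotaQ (Lt0 e) = ((sE e : EE) : EE ⧸ Subgroup.center EE) :=
  phi_p2 ⟨(sE e, Lt0 e), rel_letter he⟩

/-! ### The automorphism of the swap of two coordinates -/

/-- The swap of two coordinates. -/
def sw : I8 → I8 := Equiv.swap (.inl 3) (.inr 3)

/-- The swap as a linear map. -/
noncomputable def Rlin : V8 →ₗ[ZMod 3] V8 where
  toFun x := fun j => x (sw j)
  map_add' _ _ := rfl
  map_smul' _ _ := rfl

theorem Rlin_apply (x : V8) (j : I8) : Rlin x j = x (sw j) := rfl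

theorem R_Q (x : V8) : Q8 (Rlin x) = Q8 x := by
  rw [Q8_apply, Q8_apply]
  simp only [Rlin_apply]
  have h0 : sw (.inl 0) = .inl 0 := by decide
  have h1 : sw (.inl 1) = .inl 1 := by decide
  have h2 : sw (.inl 2) = .inl 2 := by decide
  have h3 : sw (.inl 3) = .inr 3 := by decide
  have h4 : sw (.inr 0) = .inr 0 := by decide
  have h5 : sw (.inr 1) = .inr 1 := by decide
  have h6 : sw (.inr 2) = .inr 2 := by decide
  have h7 : sw (.inr 3) = .inl 3 := by decide
  rw [h0, h1, h2, h3, h4, h5, h6, h7]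
  ring

/-- The swap as an isometry. -/
noncomputable def RR : OG Q8 := OG.ofLinear hQ8 Rlin R_Q

/-- Conjugation by the swap. -/
noncomputable def cR : MulAut EE := MulAut.conjNormal RR

/-- Conjugation by the swap on the quotient. -/
noncomputable def cQ : MulAut (EE ⧸ Subgroup.center EE) :=
  QuotientGroup.congr (Subgroup.center EE) (Subgroup.center EE) cR (map_center_equiv cR)

theorem cQ_mk (x : EE) : cQ (x : EE ⧸ Subgroup.center EE) = ((cR x : EE) : EE ⧸ Subgroup.center EE) := rfl

theorem toL_cR {e : ℕ} (h : e < 8) (v : V8) :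
    toL (cR (sE e)) v = siegelLin Q8 (Rlin (decN (eL.getD e 0))) (Rlin (decN (yL.getD e 0))) v :=
  ((sO_siegel h).conj RR).2.2 v

/-- The images of the letters. -/
def wA : List (List ℕ) := [[0], [1], [3, 3], [2, 2], [4], [5], [7, 7], [6, 6]]

theorem R_val : (∀ j, decN 1 (sw j) = decN 1 j) ∧ (∀ j, decN 486 (sw j) = decN 486 j) ∧ (∀ j, decN 3 (sw j) = decN 3 j) ∧
    (∀ j, decN 1458 (sw j) = decN 1458 j) ∧ (∀ j, decN 9 (sw j) = decN 9 j) ∧ (∀ j, decN 81 (sw j) = decN 81 j) ∧
    (∀ j, decN 243 (sw j) = decN 243 j) ∧ (∀ j, decN 729 (sw j) = decN 729 j) ∧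
    (∀ j, decN 4374 (sw j) = (decN 27 + decN 27) j) ∧ (∀ j, decN 27 (sw j) = (decN 4374 + decN 4374) j) := by
  decide +kernel

theorem cR_one {e a b : ℕ} (h : e < 8) (h1 : eL.getD e 0 = a) (h2 : yL.getD e 0 = b) (ha : ∀ j, decN a (sw j) = decN a j)
    (hb : ∀ j, decN b (sw j) = decN b j) : cR (sE e) = sE e := by
  apply eqE
  intro v
  rw [toL_cR h, sE_apply h, h1, h2]
  congr 2
  · funext j; exact ha j
  · funext j; exact hb j

theorem cR_two {e f a b c : ℕ} (h : e < 8) (hf : f < 8) (h1 : eL.getD e 0 = a) (h2 : yL.getD e 0 = b)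
    (h3 : eL.getD f 0 = a) (h4 : yL.getD f 0 = c) (ha : ∀ j, decN a (sw j) = decN a j)
    (hb : ∀ j, decN b (sw j) = (decN c + decN c) j) : cR (sE e) = sE f * sE f := by
  apply eqE
  intro v
  rw [toL_cR h, toL_mul, sE_apply hf, sE_apply hf, h1, h2, h3, h4]
  have hQa : Q8 (decN a) = 0 := by
    rw [← h3]; exact Q_eL hf
  have hpa : QuadraticMap.polar (⇑Q8) (decN a) (decN c) = 0 := by
    rw [← h3, ← h4]; exact polar_eL hf
  rw [siegelLin_comp hQa hpa hpa]
  congr 2
  · funext j; exact ha j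
  · funext j; exact hb j

theorem cR_letter {e : ℕ} (he : e < 8) : cR (sE e) = ((wA.getD e []).map sE).prod := by
  obtain ⟨r1, r2, r3, r4, r5, r6, r7, r8, r9, r10⟩ := R_val
  interval_cases e
  · simpa [wA] using cR_one (e := 0) (by norm_num) rfl rfl r1 r2
  · simpa [wA] using cR_one (e := 1) (by norm_num) rfl rfl r3 r4
  · simpa [wA] using cR_two (e := 2) (f := 3) (by norm_num) (by norm_num) rfl rfl rfl rfl r5 r9
  · simpa [wA] using cR_two (e := 3) (f := 2) (by norm_num) (by norm_num) rfl rfl rfl rfl r5 r10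
  · simpa [wA] using cR_one (e := 4) (by norm_num) rfl rfl r6 r3
  · simpa [wA] using cR_one (e := 5) (by norm_num) rfl rfl r7 r5
  · simpa [wA] using cR_two (e := 6) (f := 7) (by norm_num) (by norm_num) rfl rfl rfl rfl r8 r10
  · simpa [wA] using cR_two (e := 7) (f := 6) (by norm_num) (by norm_num) rfl rfl rfl rfl r8 r9

/-- The automorphism of the group of permutations. -/
noncomputable def psiA : MulAut GG := iotaQ.trans (cQ.trans iotaQ.symm)

theorem mk_word (w : List ℕ) (hw : ∀ a ∈ w, a < 8) :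
    (((w.map sE).prod : EE) : EE ⧸ Subgroup.center EE) = iotaQ (evL Lt0 w) := by
  induction w with
  | nil => simp
  | cons a w ih =>
    simp only [List.map_cons, List.prod_cons, evL_cons, map_mul, QuotientGroup.mk_mul]
    rw [ih (fun b hb => hw b (List.mem_cons_of_mem _ hb)), iotaQ_letter (hw a List.mem_cons_self)]

theorem psiA_letter {e : ℕ} (he : e < 8) : psiA (Lt0 e) = evL Lt0 (wA.getD e []) := by
  show iotaQ.symm (cQ (iotaQ (Lt0 e))) = _
  rw [iotaQ_letter he, cQ_mk, cR_letter he, mk_word]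
  · exact iotaQ.symm_apply_apply _
  · interval_cases e <;> simp [wA]

end Cfsg.Agent.Lib.O8CBr2
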