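import Mathlib

/-!
# The group of order 24 induced on the 13 classes
-/

set_option autoImplicit false
set_option maxRecDepth 100000
set_option Elab.async false
set_option linter.all false

namespace Cfsg.Agent.Lib.O8CW

open Equiv

/-- the action of the swap -/
def fA : Fin 13 → Fin 13 := ![0, 4, 3, 2, 1, 5, 7, 6, 8, 9, 10, 11, 12]
/-- the inverse of the action of the swap -/
def fAi : Fin 13 → Fin 13 := ![0, 4, 3, 2, 1, 5, 7, 6, 8, 9, 10, 11, 12]
/-- the action of the shift -/
def fT : Fin 13 → Fin 13 := ![0, 8, 5, 1, 2, 4, 10, 7, 3, 6, 9, 11, 12]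
/-- the inverse of the action of the shift -/
def fTi : Fin 13 → Fin 13 := ![0, 3, 4, 8, 5, 2, 9, 7, 1, 10, 6, 11, 12]

/-- the permutation of the swap -/
def πA : Perm (Fin 13) := ⟨fA, fAi, by decide, by decide⟩
/-- the permutation of the shift -/
def πT : Perm (Fin 13) := ⟨fT, fTi, by decide, by decide⟩

/-- words for the 24 elements -/
def wordsW : List (List Bool) := [[], [false], [true], [false, true], [true, false], [true, true], [false, true, false], [false, true, true], [true, false, true], [true, true, false], [false, true, false, true], [false, true, true, false], [true, false, true, false], [true, false, true, true], [true, true, false, true], [false, true, false, true, false], [false, true, false, true, true], [false, true, true, false, true], [true, false, true, true, false], [true, true, false, true, false], [false, true, false, true, true, false], [false, true, true, false, true, false], [true, false, true, true, false, true], [false, true, false, true, true, false, true]]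

/-- the element of a word -/
def wP (w : List Bool) : Perm (Fin 13) := (w.map fun b => cond b πT πA).prod

/-- the 24 elements -/
def W (k : Fin 24) : Perm (Fin 13) := wP (wordsW.getD k.val [])

theorem wP_mem (w : List Bool) : wP w ∈ Subgroup.closure ({πA, πT} : Set (Perm (Fin 13))) := by
  induction w with
  | nil => exact Subgroup.one_mem _
  | cons b w ih =>
    have e : wP (b :: w) = cond b πT πA * wP w := by simp [wP]
    rw [e]
    refine Subgroup.mul_mem _ (Subgroup.subset_closure ?_) ih
    cases b
    · exact Or.inl rfl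
    · exact Or.inr rfl

theorem W_mem (k : Fin 24) : W k ∈ Subgroup.closure ({πA, πT} : Set (Perm (Fin 13))) := wP_mem _

theorem W_inj : Function.Injective W := by
  intro a b h
  revert a b
  decide +kernel

/-- the points permuted by the group of order 24 -/
def fam : Fin 4 → Fin 13 := ![6, 7, 9, 10]

/-- representatives of the orbits of the stabilizer of a point -/
def repR : Fin 4 → Fin 7 → Fin 13 := ![![0, 1, 2, 6, 7, 11, 12], ![0, 1, 2, 6, 7, 11, 12], ![0, 1, 2, 6, 9, 11, 12], ![0, 1, 2, 6, 10, 11, 12]]

theorem h_ord3 : ∀ k : Fin 24, W k * W k * W k = 1 → W k ≠ 1 → ∃ a : Fin 4, W k (fam a) = fam a ∧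
    ∀ b : Fin 4, W k (fam b) = fam b → b = a := by decide +kernel

theorem h_fam : ∀ (k : Fin 24) (a : Fin 4), ∃ b : Fin 4, W k (fam a) = fam b := by decide +kernel

theorem h_stab6 : ∀ a : Fin 4, (Finset.univ.filter fun k : Fin 24 => W k (fam a) = fam a).card = 6 := by decide +kernel

theorem h_cover : ∀ (a : Fin 4) (i : Fin 13), ∃ k : Fin 24, W k (fam a) = fam a ∧ ∃ l : Fin 7, W k i = repR a l := by decide +kernel

theorem h_sep : ∀ (a : Fin 4) (k : Fin 24), W k (fam a) = fam a → ∀ l m : Fin 7, W k (repR a l) = repR a m → l = m := by decide +kernel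

/-- the orbits of a subgroup of order 6 -/
theorem orbits (T : Subgroup (Perm (Fin 13))) (hT : Nat.card T = 6) (hW : ∀ τ ∈ T, ∃ k, τ = W k) :
    ∃ r : Fin 7 → Fin 13, (∀ i, ∃ τ ∈ T, ∃ k, τ i = r k) ∧ (∀ k l, ∀ τ ∈ T, τ (r k) = r l → k = l) := by
  classical
  haveI : Fact (Nat.Prime 3) := ⟨Nat.prime_three⟩
  haveI : Finite T := Subtype.finite
  have hdvd : 3 ∣ Nat.card T := by rw [hT]; norm_num
  obtain ⟨c, hc⟩ := exists_prime_orderOf_dvd_card' (G := T) 3 hdvd
  have hc3 : (c : Perm (Fin 13)) ^ 3 = 1 := by
    have := pow_orderOf_eq_one c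
    rw [hc] at this
    exact_mod_cast congrArg Subtype.val this
  have hc1 : (c : Perm (Fin 13)) ≠ 1 := by
    intro h
    have : c = 1 := Subtype.ext h
    rw [this, orderOf_one] at hc
    norm_num at hc
  obtain ⟨k0, hk0⟩ := hW c c.2
  obtain ⟨a, ha, hau⟩ := h_ord3 k0 (by
    rw [← hk0, ← pow_two, ← pow_succ]
    exact hc3) (by rw [← hk0]; exact hc1)
  rw [← hk0] at ha hau
  -- the subgroup generated by c is normal
  have hidx : (Subgroup.zpowers c).index = 2 := by
    have h1 := Subgroup.card_mul_index (Subgroup.zpowers c)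
    rw [Nat.card_zpowers, hc, hT] at h1
    omega
  haveI : (Subgroup.zpowers c).Normal := Subgroup.normal_of_index_eq_two hidx
  have hfix : ∀ τ ∈ T, τ (fam a) = fam a := by
    intro u hu
    have hm : (⟨u, hu⟩ : T) * c * (⟨u, hu⟩ : T)⁻¹ ∈ Subgroup.zpowers c :=
      Subgroup.Normal.conj_mem inferInstance c (Subgroup.mem_zpowers c) _
    have hzp : ∀ x ∈ Subgroup.zpowers c, (x : Perm (Fin 13)) (fam a) = fam a := by
      intro x hx
      obtain ⟨z, rfl⟩ := hx
      have := Perm.zpow_apply_eq_self_of_apply_eq_self ha z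
      simpa using this
    have h1 := hzp _ hm
    simp only [Subgroup.coe_mul, Subgroup.coe_inv, Perm.mul_apply] at h1
    -- the point `u⁻¹ (fam a)` is fixed by `c`
    have h2 : (c : Perm (Fin 13)) ((u⁻¹ : Perm (Fin 13)) (fam a)) = (u⁻¹ : Perm (Fin 13)) (fam a) := by
      have := congrArg (fun z => (u⁻¹ : Perm (Fin 13)) z) h1
      simpa using this
    obtain ⟨kv, hkv⟩ := hW _ (T.inv_mem hu)
    obtain ⟨b, hb⟩ := h_fam kv a
    have h3 : (u⁻¹ : Perm (Fin 13)) (fam a) = fam b := by rw [hkv]; exact hb
    rw [h3] at h2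
    have h4 := hau b h2
    rw [h4] at h3
    have h5 := congrArg u h3
    simpa using h5.symm
  -- all the elements fixing the point are in the subgroup
  let gg : T → {k : Fin 24 // W k (fam a) = fam a} := fun τ =>
    ⟨Classical.choose (hW τ.1 τ.2), by rw [← Classical.choose_spec (hW τ.1 τ.2)]; exact hfix τ.1 τ.2⟩
  have hgg : ∀ τ : T, W (gg τ).1 = τ.1 := fun τ => (Classical.choose_spec (hW τ.1 τ.2)).symm
  have hgi : Function.Injective gg := by
    intro x z h
    apply Subtype.ext
    rw [← hgg x, ← hgg z, h]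
  have hcS : Nat.card {k : Fin 24 // W k (fam a) = fam a} = 6 := by
    rw [Nat.card_eq_fintype_card, Fintype.card_subtype]
    exact h_stab6 a
  have hgb : Function.Bijective gg := by
    apply hgi.bijective_of_nat_card_le
    rw [hcS, hT]
  have hin : ∀ k, W k (fam a) = fam a → W k ∈ T := by
    intro k hk
    obtain ⟨τ, hτ⟩ := hgb.2 ⟨k, hk⟩
    have h1 := hgg τ
    rw [hτ] at h1
    show W k ∈ T
    rw [show W k = τ.1 from h1]
    exact τ.2
  refine ⟨repR a, fun i => ?_, fun l m τ hτ h => ?_⟩
  · obtain ⟨k, hk, l, hl⟩ := h_cover a i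
    exact ⟨W k, hin k hk, l, hl⟩
  · obtain ⟨k, rfl⟩ := hW τ hτ
    exact h_sep a k (hfix _ hτ) l m h

end Cfsg.Agent.Lib.O8CW
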