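import Mathlib
import Cfsg.Agent.Lib.O8CBr2
import Cfsg.Agent.Lib.O8CW

/-!
# The automorphisms of the group on 3240 points and their action on the 13 classes
-/

set_option autoImplicit false
set_option maxRecDepth 100000
set_option Elab.async false
set_option linter.all false

namespace Cfsg.Agent.Lib.O8CAut

open Cfsg Equiv
open Cfsg.Agent.Lib.OutTree36 Cfsg.Agent.Lib.PcClass36 Cfsg.Agent.Lib.O8CT Cfsg.Agent.Lib.O8CData Cfsg.Agent.Lib.O8CBr1
  Cfsg.Agent.Lib.O8CBr2 Cfsg.Agent.Lib.O8CGam Cfsg.Agent.Lib.O8CChk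
open Cfsg.Agent.Lib.O8PMain Cfsg.Agent.Lib.ProgChain Cfsg.Agent.Lib.O8CW

/-- The shift of the copies. -/
noncomputable def tP : Perm (Fin 3240) := Equiv.addRight (1080 : Fin 3240)

theorem tP_val (x : Fin 3240) : (tP x).val = (x.val + 1080) % 3240 := by
  show (x + 1080).val = _
  rw [Fin.val_add]
  rfl

theorem g_val {e : ℕ} (he : e < 8) (y : Fin 3240) : (g e y).val = ap e y.val := by
  have h := hap0 he y.2
  rw [Φ_lt _ y.2, Lt0, dif_pos he] at h
  exact h

theorem tau_lt {e : ℕ} (he : e < 8) : tau.getD e 0 < 8 := by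
  interval_cases e <;> decide

theorem tP_conj {e : ℕ} (he : e < 8) : tP * g e * tP⁻¹ = g (tau.getD e 0) := by
  ext y
  obtain ⟨z, rfl⟩ := tP.surjective y
  have e0 : (tP * g e * tP⁻¹) (tP z) = tP (g e z) := by simp
  rw [e0, tP_val, g_val he, g_val (tau_lt he), tP_val]
  have hz := z.2
  have h1 := allR_spec 12 0 (allN_spec h_tau he) z.val (Nat.zero_le _) (by norm_num; omega)
  have h2 : Nat.blt z.val 3240 = true := Nat.ble_eq_true_of_le hz
  rw [h2] at h1
  exact (beq_true (h1 : Nat.beq _ _ = true)).symm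

theorem tP_mem {x : Perm (Fin 3240)} (hx : x ∈ GG) : tP * x * tP⁻¹ ∈ GG := by
  change x ∈ Subgroup.closure _ at hx
  induction hx using Subgroup.closure_induction with
  | mem y hy =>
    obtain ⟨k, hk, rfl⟩ := hy
    have hk8 : k < 8 := by
      have := List.mem_range'_1.mp hk
      omega
    rw [tP_conj hk8]
    exact gen_mem_grp _ (by omega) (by have := tau_lt hk8; omega)
  | one => simp
  | mul a b _ _ ha hb =>
    have e : tP * (a * b) * tP⁻¹ = (tP * a * tP⁻¹) * (tP * b * tP⁻¹) := by group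
    rw [e]
    exact Subgroup.mul_mem _ ha hb
  | inv a _ ha =>
    have e : tP * a⁻¹ * tP⁻¹ = (tP * a * tP⁻¹)⁻¹ := by group
    rw [e]
    exact Subgroup.inv_mem _ ha

/-- Conjugation by the shift. -/
noncomputable def tHom : GG →* GG where
  toFun x := ⟨tP * x.1 * tP⁻¹, tP_mem x.2⟩
  map_one' := by
    apply Subtype.ext
    simp
  map_mul' x y := by
    apply Subtype.ext
    show tP * (x.1 * y.1) * tP⁻¹ = (tP * x.1 * tP⁻¹) * (tP * y.1 * tP⁻¹)
    group

theorem tHom_inj : Function.Injective tHom := by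
  intro x y h
  have h1 : tP * x.1 * tP⁻¹ = tP * y.1 * tP⁻¹ := congrArg Subtype.val h
  apply Subtype.ext
  simpa using h1

/-- The automorphism of the shift. -/
noncomputable def psiT : MulAut GG := MulEquiv.ofBijective tHom (Finite.injective_iff_bijective.1 tHom_inj)

/-- The images of the letters. -/
def wT : List (List ℕ) := [[2], [1], [3], [0], [6], [5], [7], [4]]

theorem psiT_letter {e : ℕ} (he : e < 8) : psiT (Lt0 e) = evL Lt0 (wT.getD e []) := by
  have h2 : wT.getD e [] = [tau.getD e 0] := by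
    interval_cases e <;> rfl
  rw [h2]
  apply Subtype.ext
  have h3 : (psiT (Lt0 e)).1 = tP * (Lt0 e).1 * tP⁻¹ := rfl
  rw [h3, Lt0, dif_pos he]
  simp only [evL_cons, evL_nil, mul_one]
  rw [Lt0, dif_pos (tau_lt he)]
  exact tP_conj he

theorem Lt_small {i : ℕ} (hi : i < 8) : Lt i = Lt0 i := by
  rw [Lt]
  have : defs.getD i [] = [i] := by
    interval_cases i <;> rfl
  rw [this]
  simp

theorem evL_small : ∀ (w : List ℕ), w.all (fun a => Nat.blt a 8) = true → evL Lt0 w = evL Lt w
  | [], _ => rfl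
  | a :: w, h => by
    rw [List.all_cons, Bool.and_eq_true] at h
    rw [evL_cons, evL_cons, evL_small w h.2, Lt_small (blt_true h.1)]

theorem aut_word (α : MulAut GG) {S : List (List ℕ)} (hα : ∀ e, e < 8 → α (Lt0 e) = evL Lt0 (S.getD e [])) :
    ∀ w : List ℕ, w.all (fun a => Nat.blt a 8) = true → α (evL Lt0 w) = evL Lt0 (w.flatMap fun a => S.getD a [])
  | [], _ => by simp
  | a :: w, h => by
    rw [List.all_cons, Bool.and_eq_true] at h
    rw [evL_cons, map_mul, hα a (blt_true h.1), aut_word α hα w h.2, List.flatMap_cons, evL_append]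

/-- The word of a representative in the root generators. -/
def flatY (j : ℕ) : List ℕ := (yW j).flatMap fun i => defs.getD i []

/-- The images of the representatives under the swap. -/
def piA : List ℕ := [0, 4, 3, 2, 1, 5, 7, 6, 8, 9, 10, 11, 12]
/-- The images of the representatives under the shift. -/
def piT : List ℕ := [0, 8, 5, 1, 2, 4, 10, 7, 3, 6, 9, 11, 12]
/-- The conjugating words for the swap. -/
def cwA : List (List ℕ) := [[], [20], [20], [20], [20], [20], [20], [20], [], [], [], [10, 21, 16, 20], [2, 2, 3, 18, 2, 21, 19, 3]]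
/-- The conjugating words for the shift. -/
def cwT : List (List ℕ) := [[], [], [], [20], [], [], [], [], [20], [20], [20], [16, 19, 20], [0, 2, 16, 21, 0, 18, 2, 20]]

/-- The check of the image of a representative. -/
noncomputable def chkA (S : List (List ℕ)) (pi : List ℕ) (cw : List (List ℕ)) (j : ℕ) : Bool :=
  (flatY j).all (fun a => Nat.blt a 8) && ((flatY j).flatMap fun a => S.getD a []).all (fun a => Nat.blt a 8) &&
    eqB ap bs (cw.getD j [] ++ (flatY j).flatMap fun a => S.getD a []) (yW (pi.getD j 0) ++ cw.getD j [])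

theorem chk_A : allN 13 (chkA wA piA cwA) = true := by decide +kernel

theorem chk_T : allN 13 (chkA wT piT cwT) = true := by decide +kernel

theorem yy_flat (j : Fin 13) : yy j = evL Lt0 (flatY j.val) :=
  evL_flat (Lt := Lt) (Lt0 := Lt0) (defs := defs) (fun _ => rfl) _

theorem class_img (α : MulAut GG) {S : List (List ℕ)} (hα : ∀ e, e < 8 → α (Lt0 e) = evL Lt0 (S.getD e []))
    {pi : List ℕ} {cw : List (List ℕ)} (hc : allN 13 (chkA S pi cw) = true) {π : Perm (Fin 13)}
    (hπ : ∀ j : Fin 13, (π j).val = pi.getD j.val 0) (j : Fin 13) :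
    ∃ k : GG, k * α (yy j) * k⁻¹ = yy (π j) := by
  have h := allN_spec hc j.2
  simp only [chkA, Bool.and_eq_true] at h
  obtain ⟨⟨h1, h2⟩, h3⟩ := h
  have h4 := eqB_sound hLt hbs hbn h3
  rw [evL_append, evL_append] at h4
  refine ⟨evL Lt (cw.getD j.val []), ?_⟩
  rw [yy_flat j, aut_word α hα _ h1, evL_small _ h2, h4, yy, hπ j]
  group

theorem hπA : ∀ j : Fin 13, (πA j).val = piA.getD j.val 0 := by decide
theorem hπT : ∀ j : Fin 13, (πT j).val = piT.getD j.val 0 := by decide

theorem class_A (j : Fin 13) : ∃ k : GG, k * psiA (yy j) * k⁻¹ = yy (πA j) :=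
  class_img psiA (fun _ he => psiA_letter he) chk_A hπA j

theorem class_T (j : Fin 13) : ∃ k : GG, k * psiT (yy j) * k⁻¹ = yy (πT j) :=
  class_img psiT (fun _ he => psiT_letter he) chk_T hπT j

end Cfsg.Agent.Lib.O8CAut
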