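import Mathlib
import Cfsg.Agent.Lib.BenderPair
import Cfsg.Prelude.Def_KGroupFacts

/-!
# Orbits of an almost simple group on the classes of subgroups of order 3

Given the classes of elements of order 3 of a centerless group `Γ` through representatives and an invariant, the
automorphism group of `Γ` acts on the classes through its outer automorphism group.
-/

set_option autoImplicit false
set_option linter.all false

namespace Cfsg.Agent.Lib.O8CP2

open Equiv Cfsg

section act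

variable {Γ : Type} [Group Γ] {y : Fin 13 → Γ}
  (hcov : ∀ x : Γ, x ^ 3 = 1 → x ≠ 1 → ∃ j : Fin 13, ∃ h : Γ, h * x * h⁻¹ = y j)

/-- The class of an element of order 3. -/
noncomputable def clOf (x : Γ) : Fin 13 :=
  by
    classical
    exact if h : x ^ 3 = 1 ∧ x ≠ 1 then Classical.choose (hcov x h.1 h.2) else 0

theorem clOf_spec {x : Γ} (h3 : x ^ 3 = 1) (h1 : x ≠ 1) : ∃ h : Γ, h * x * h⁻¹ = y (clOf hcov x) := by
  classical
  have : clOf hcov x = Classical.choose (hcov x h3 h1) := by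
    unfold clOf
    simp [h3, h1]
  rw [this]
  exact Classical.choose_spec (hcov x h3 h1)

variable {ι : Type*} {F : Γ → ι} (hFc : ∀ g x, F (g * x * g⁻¹) = F x) (hFi : ∀ x, F x⁻¹ = F x)
  (hF : Function.Injective (F ∘ y)) (hy3 : ∀ i, y i ^ 3 = 1) (hy1 : ∀ i, y i ≠ 1)

include hFc hF in
theorem clOf_eq {x : Γ} {j : Fin 13} (h3 : x ^ 3 = 1) (h1 : x ≠ 1) (hj : ∃ h : Γ, h * x * h⁻¹ = y j) : clOf hcov x = j := by
  obtain ⟨a, ha⟩ := clOf_spec hcov h3 h1
  obtain ⟨b, hb⟩ := hj
  apply hF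
  show F _ = F _
  rw [← ha, ← hb, hFc, hFc]

include hFc hFi hF in
theorem clOf_inv {x : Γ} (h3 : x ^ 3 = 1) (h1 : x ≠ 1) : clOf hcov x⁻¹ = clOf hcov x := by
  have h3' : x⁻¹ ^ 3 = 1 := by rw [inv_pow, h3, inv_one]
  have h1' : x⁻¹ ≠ 1 := by simpa using h1
  obtain ⟨a, ha⟩ := clOf_spec hcov h3 h1
  obtain ⟨b, hb⟩ := clOf_spec hcov h3' h1'
  apply hF
  show F _ = F _
  rw [← ha, ← hb, hFc, hFc, hFi]

theorem order3_map (α : MulAut Γ) {x : Γ} (h3 : x ^ 3 = 1) (h1 : x ≠ 1) : (α x) ^ 3 = 1 ∧ α x ≠ 1 := by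
  constructor
  · rw [← map_pow, h3, map_one]
  · intro h
    apply h1
    apply α.injective
    rw [h, map_one]

/-- The action on classes. -/
noncomputable def act (α : MulAut Γ) (j : Fin 13) : Fin 13 := clOf hcov (α (y j))

include hFc hF in
theorem clOf_map (α : MulAut Γ) {x : Γ} (h3 : x ^ 3 = 1) (h1 : x ≠ 1) (hy3 : ∀ i, y i ^ 3 = 1) (hy1 : ∀ i, y i ≠ 1) :
    clOf hcov (α x) = act hcov α (clOf hcov x) := by
  obtain ⟨a3, a1⟩ := order3_map α h3 h1
  apply clOf_eq hcov hFc hF a3 a1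
  obtain ⟨h, hh⟩ := clOf_spec hcov h3 h1
  obtain ⟨b3, b1⟩ := order3_map α (hy3 (clOf hcov x)) (hy1 _)
  obtain ⟨k, hk⟩ := clOf_spec hcov b3 b1
  refine ⟨k * α h, ?_⟩
  have e : α (y (clOf hcov x)) = α h * α x * (α h)⁻¹ := by
    rw [← hh]
    simp
  have hk' : k * (α h * α x * (α h)⁻¹) * k⁻¹ = y (act hcov α (clOf hcov x)) := by
    rw [← e]
    exact hk
  rw [← hk']
  group

include hFc hF hy3 hy1 in
theorem act_mul (α β : MulAut Γ) (j : Fin 13) : act hcov (α * β) j = act hcov α (act hcov β j) := by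
  obtain ⟨b3, b1⟩ := order3_map β (hy3 j) (hy1 j)
  exact clOf_map hcov hFc hF α b3 b1 hy3 hy1

include hFc hF hy3 hy1 in
theorem act_one (j : Fin 13) : act hcov 1 j = j := by
  apply clOf_eq hcov hFc hF (hy3 j) (hy1 j)
  exact ⟨1, by simp⟩

/-- The homomorphism to permutations of the classes. -/
noncomputable def actH : MulAut Γ →* Perm (Fin 13) where
  toFun α :=
    { toFun := act hcov α
      invFun := act hcov α⁻¹
      left_inv := fun j => by
        rw [← act_mul hcov hFc hF hy3 hy1, inv_mul_cancel, act_one hcov hFc hF hy3 hy1]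
      right_inv := fun j => by
        rw [← act_mul hcov hFc hF hy3 hy1, mul_inv_cancel, act_one hcov hFc hF hy3 hy1] }
  map_one' := by
    ext j
    simp [act_one hcov hFc hF hy3 hy1]
  map_mul' α β := by
    ext j
    simp [act_mul hcov hFc hF hy3 hy1]

theorem actH_apply (α : MulAut Γ) (j : Fin 13) : actH hcov hFc hF hy3 hy1 α j = act hcov α j := rfl

theorem actH_eq {α : MulAut Γ} {π : Perm (Fin 13)} (h : ∀ j, ∃ k : Γ, k * α (y j) * k⁻¹ = y (π j)) :
    actH hcov hFc hF hy3 hy1 α = π := by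
  ext j
  rw [actH_apply, act]
  obtain ⟨b3, b1⟩ := order3_map α (hy3 j) (hy1 j)
  rw [clOf_eq hcov hFc hF b3 b1 (h j)]

theorem inn_le : Inn Γ ≤ (actH hcov hFc hF hy3 hy1).ker := by
  rintro _ ⟨h, rfl⟩
  rw [MonoidHom.mem_ker]
  apply actH_eq
  intro j
  exact ⟨h⁻¹, by simp [MulAut.conj_apply]; group⟩

/-- The kernel and the range of the action on the classes. -/
theorem ker_range [Finite Γ] (hOut : Nat.card (Out Γ) = 24) {A B : MulAut Γ} {πA πB : Perm (Fin 13)}
    (hA : ∀ j, ∃ k : Γ, k * A (y j) * k⁻¹ = y (πA j)) (hB : ∀ j, ∃ k : Γ, k * B (y j) * k⁻¹ = y (πB j))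
    {W : Fin 24 → Perm (Fin 13)} (hWi : Function.Injective W) (hWg : ∀ k, W k ∈ Subgroup.closure ({πA, πB} : Set (Perm (Fin 13)))) :
    (actH hcov hFc hF hy3 hy1).ker = Inn Γ ∧ ∀ τ ∈ (actH hcov hFc hF hy3 hy1).range, ∃ k, τ = W k := by
  classical
  haveI : Finite (MulAut Γ) := Finite.of_injective (fun α : MulAut Γ => (α : Γ → Γ)) DFunLike.coe_injective
  set f := actH hcov hFc hF hy3 hy1 with hf
  have hle : Subgroup.closure ({πA, πB} : Set (Perm (Fin 13))) ≤ f.range := by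
    rw [Subgroup.closure_le]
    rintro _ (rfl | rfl)
    · exact ⟨A, actH_eq hcov hFc hF hy3 hy1 hA⟩
    · exact ⟨B, actH_eq hcov hFc hF hy3 hy1 hB⟩
  have hWr : ∀ k, W k ∈ f.range := fun k => hle (hWg k)
  let W' : Fin 24 → f.range := fun k => ⟨W k, hWr k⟩
  have hW'i : Function.Injective W' := fun a b h => hWi (congrArg Subtype.val h)
  have hge : 24 ≤ Nat.card f.range := by
    have := Nat.card_le_card_of_injective W' hW'i
    simpa using this
  have hidx : (Inn Γ).index = 24 := by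
    rw [← hOut]
    rfl
  have hdvd : f.ker.index ∣ (Inn Γ).index := Subgroup.index_dvd_of_le (inn_le hcov hFc hF hy3 hy1)
  have hk : f.ker.index = Nat.card f.range := Subgroup.index_ker f
  rw [hidx, hk] at hdvd
  have hle24 : Nat.card f.range ≤ 24 := Nat.le_of_dvd (by norm_num) hdvd
  have hcard : Nat.card f.range = 24 := le_antisymm hle24 hge
  constructor
  · apply le_antisymm _ (inn_le hcov hFc hF hy3 hy1)
    apply le_of_eq
    symm
    apply Subgroup.eq_of_le_of_card_ge (inn_le hcov hFc hF hy3 hy1)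
    have h1 := Subgroup.card_mul_index f.ker
    have h2 := Subgroup.card_mul_index (Inn Γ)
    rw [hk, hcard] at h1
    rw [hidx] at h2
    have h3 : Nat.card f.ker * 24 = Nat.card (Inn Γ) * 24 := by rw [h1, h2]
    exact (Nat.eq_of_mul_eq_mul_right (by norm_num) h3).le
  · intro τ hτ
    have hbij : Function.Bijective W' := by
      apply hW'i.bijective_of_nat_card_le
      rw [hcard]
      simp
    obtain ⟨k, hk2⟩ := hbij.2 ⟨τ, hτ⟩
    exact ⟨k, (congrArg Subtype.val hk2).symm⟩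

end act

section main

variable {Γ : Type} [Group Γ] [Finite Γ] {y : Fin 13 → Γ} {ι : Type*} {F : Γ → ι}

/-- The form of the second half of the statement. -/
theorem part2_abs (hy3 : ∀ i, y i ^ 3 = 1) (hy1 : ∀ i, y i ≠ 1)
    (hcov : ∀ x : Γ, x ^ 3 = 1 → x ≠ 1 → ∃ j : Fin 13, ∃ h : Γ, h * x * h⁻¹ = y j)
    (hFc : ∀ g x, F (g * x * g⁻¹) = F x) (hFi : ∀ x, F x⁻¹ = F x) (hF : Function.Injective (F ∘ y))
    (hZ : Subgroup.center Γ = ⊥) (hOut : Nat.card (Out Γ) = 24) {A B : MulAut Γ} {πA πB : Perm (Fin 13)}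
    (hA : ∀ j, ∃ k : Γ, k * A (y j) * k⁻¹ = y (πA j)) (hB : ∀ j, ∃ k : Γ, k * B (y j) * k⁻¹ = y (πB j))
    {W : Fin 24 → Perm (Fin 13)} (hWi : Function.Injective W) (hWg : ∀ k, W k ∈ Subgroup.closure ({πA, πB} : Set (Perm (Fin 13))))
    (hOrb : ∀ T : Subgroup (Perm (Fin 13)), Nat.card T = 6 → (∀ τ ∈ T, ∃ k, τ = W k) →
      ∃ r : Fin 7 → Fin 13, (∀ i, ∃ τ ∈ T, ∃ k, τ i = r k) ∧ (∀ k l, ∀ τ ∈ T, τ (r k) = r l → k = l))
    {G : Type*} [Group G] [Finite G] (L : Subgroup G) (hL : L = generalizedFittingSubgroup G) [hn : L.Normal]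
    (e : L ≃* Γ) (hq : Nonempty (G ⧸ L ≃* Perm (Fin 3))) :
    ∃ Y : Fin 7 → Subgroup G, (∀ i, Y i ≤ L ∧ Nat.card (Y i) = 3) ∧
      (∀ i j, (∃ g : G, (Y i).map (MulAut.conj g).toMonoidHom = Y j) → i = j) ∧
      ∀ X : Subgroup G, X ≤ L → Nat.card X = 3 → ∃ i, ∃ g : G, X.map (MulAut.conj g).toMonoidHom = Y i := by
  classical
  obtain ⟨q⟩ := hq
  haveI : Fact (Nat.Prime 3) := ⟨Nat.prime_three⟩
  set f := actH hcov hFc hF hy3 hy1 with hf
  obtain ⟨hker, hrange⟩ := ker_range hcov hFc hF hy3 hy1 hOut hA hB hWi hWg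
  rw [← hf] at hker hrange
  -- conjugation
  let Φ : G →* MulAut Γ := (MulAut.congr e).toMonoidHom.comp (MulAut.conjNormal (H := L))
  have hΦ : ∀ (g : G) (p : Γ), Φ g p = e ⟨g * (e.symm p : G) * g⁻¹, hn.conj_mem _ (e.symm p).2 g⟩ := by
    intro g p
    rfl
  have hΦL : ∀ l : L, Φ l = MulAut.conj (e l) := by
    intro l
    ext p
    rw [hΦ, MulAut.conj_apply]
    apply e.symm.injective
    rw [MulEquiv.symm_apply_apply, map_mul, map_mul, map_inv, MulEquiv.symm_apply_apply]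
    apply Subtype.ext
    simp
  have hker1 : ∀ g : G, Φ g = 1 → g = 1 := by
    intro g hg
    have hcen : g ∈ Subgroup.centralizer (L : Set G) := by
      rw [Subgroup.mem_centralizer_iff]
      intro l hl
      have h1 : Φ g (e ⟨l, hl⟩) = e ⟨l, hl⟩ := by rw [hg]; rfl
      rw [hΦ] at h1
      have h2 := e.injective h1
      simp only [MulEquiv.symm_apply_apply, Subtype.mk.injEq] at h2
      have h3 : g * l * g⁻¹ = l := h2
      rw [mul_inv_eq_iff_eq_mul] at h3
      exact h3.symm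
    rw [hL] at hcen
    have hfit : g ∈ fittingSubgroup G := Cfsg.Agent.Lib.BenderPair.cen_fstar_le_fitting hcen
    have hgL : g ∈ L := by
      rw [hL]
      have : fittingSubgroup G ≤ generalizedFittingSubgroup G := le_sup_right
      exact this hfit
    have h1 : MulAut.conj (e ⟨g, hgL⟩) = 1 := by
      rw [← hΦL]
      exact hg
    have h2 : e ⟨g, hgL⟩ ∈ Subgroup.center Γ := by
      rw [Subgroup.mem_center_iff]
      intro b
      have h3 := congrArg (fun φ : MulAut Γ => φ b) h1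
      simp only [MulAut.conj_apply, MulAut.one_apply] at h3
      rw [mul_inv_eq_iff_eq_mul] at h3
      exact h3.symm
    rw [hZ, Subgroup.mem_bot] at h2
    have h3 : (⟨g, hgL⟩ : L) = 1 := by
      apply e.injective
      rw [h2, map_one]
    exact congrArg Subtype.val h3
  have hinj : Function.Injective Φ := (injective_iff_map_eq_one Φ).2 hker1
  -- the action on the classes
  let κ : G →* Perm (Fin 13) := f.comp Φ
  have hkerκ : κ.ker = L := by
    ext g
    rw [MonoidHom.mem_ker]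
    constructor
    · intro h
      have h1 : Φ g ∈ f.ker := h
      rw [hker] at h1
      obtain ⟨p, hp⟩ := h1
      have h2 : g = ((e.symm p : L) : G) := by
        apply hinj
        rw [hΦL, MulEquiv.apply_symm_apply]
        exact hp.symm
      rw [h2]
      exact (e.symm p).2
    · intro h
      have h1 : Φ g = MulAut.conj (e ⟨g, h⟩) := hΦL ⟨g, h⟩
      have h2 : Φ g ∈ f.ker := by
        rw [hker, h1]
        exact ⟨_, rfl⟩
      exact h2
  have hcardT : Nat.card κ.range = 6 := by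
    have e1 : G ⧸ κ.ker ≃* κ.range := QuotientGroup.quotientKerEquivRange κ
    have e2 : G ⧸ κ.ker ≃* G ⧸ L := QuotientGroup.quotientMulEquivOfEq hkerκ
    rw [← Nat.card_congr e1.toEquiv, Nat.card_congr e2.toEquiv, Nat.card_congr q.toEquiv]
    simp [Nat.card_eq_fintype_card, Fintype.card_perm]
    rfl
  have hTW : ∀ τ ∈ κ.range, ∃ k, τ = W k := by
    rintro _ ⟨g, rfl⟩
    exact hrange _ ⟨Φ g, rfl⟩
  obtain ⟨r, hr1, hr2⟩ := hOrb κ.range hcardT hTW
  -- the embedding
  let ε : Γ →* G := L.subtype.comp e.symm.toMonoidHom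
  have hεi : Function.Injective ε := fun a b h => e.symm.injective (Subtype.ext h)
  have hεL : ∀ x, ε x ∈ L := fun x => (e.symm x).2
  have hεc : ∀ (g : G) (x : Γ), g * ε x * g⁻¹ = ε (Φ g x) := by
    intro g x
    rw [hΦ]
    show _ = ((e.symm (e _) : L) : G)
    rw [MulEquiv.symm_apply_apply]
    rfl
  have hκ : ∀ (g : G) {x : Γ}, x ^ 3 = 1 → x ≠ 1 → clOf hcov (Φ g x) = κ g (clOf hcov x) := by
    intro g x h3 h1
    exact clOf_map hcov hFc hF (Φ g) h3 h1 hy3 hy1
  have hy_cl : ∀ j, clOf hcov (y j) = j := fun j => clOf_eq hcov hFc hF (hy3 j) (hy1 j) ⟨1, by simp⟩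
  have hmapZ : ∀ (x : G) (g : G), (Subgroup.zpowers x).map (MulAut.conj g).toMonoidHom = Subgroup.zpowers (g * x * g⁻¹) := by
    intro x g
    rw [MonoidHom.map_zpowers]
    rfl
  refine ⟨fun k => Subgroup.zpowers (ε (y (r k))), fun i => ⟨?_, ?_⟩, fun i j ⟨g, hg⟩ => ?_, fun X hXL hX => ?_⟩
  · rw [Subgroup.zpowers_le]
    exact hεL _
  · rw [Nat.card_zpowers, orderOf_injective ε hεi]
    exact orderOf_eq_prime (hy3 _) (hy1 _)
  · -- separation
    rw [hmapZ, hεc] at hg
    have hg' : Subgroup.zpowers (ε (Φ g (y (r i)))) = Subgroup.zpowers (ε (y (r j))) := hg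
    have h1 : ε (Φ g (y (r i))) ∈ Subgroup.zpowers (ε (y (r j))) := by
      rw [← hg']
      exact Subgroup.mem_zpowers _
    obtain ⟨m, hm⟩ := Subgroup.mem_zpowers_iff.mp h1
    rw [← map_zpow] at hm
    have hm2 := hεi hm
    obtain ⟨a3, a1⟩ := order3_map (Φ g) (hy3 (r i)) (hy1 (r i))
    have hord : orderOf (y (r j)) = 3 := orderOf_eq_prime (hy3 _) (hy1 _)
    have h2 : y (r j) ^ m = y (r j) ^ (m % 3) := by
      have := zpow_mod_orderOf (y (r j)) m
      rw [hord] at this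
      exact this.symm
    have hm3 : m % 3 = 0 ∨ m % 3 = 1 ∨ m % 3 = 2 := by omega
    have h3 : clOf hcov (Φ g (y (r i))) = r j := by
      rw [← hm2, h2]
      rcases hm3 with e0 | e1 | e2
      · exfalso
        rw [← hm2, h2, e0, zpow_zero] at a1
        exact a1 rfl
      · rw [e1, zpow_one, hy_cl]
      · rw [e2]
        have h5 : y (r j) ^ (2 : ℤ) = (y (r j))⁻¹ := by
          have h6 : y (r j) * y (r j) * y (r j) = 1 := by
            have := hy3 (r j)
            rwa [pow_succ, pow_two] at this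
          rw [zpow_two]
          exact eq_inv_of_mul_eq_one_left h6
        rw [h5, clOf_inv hcov hFc hFi hF (hy3 _) (hy1 _), hy_cl]
    rw [hκ g (hy3 _) (hy1 _), hy_cl] at h3
    exact hr2 i j (κ g) ⟨g, rfl⟩ h3
  · -- covering
    haveI : Finite X := Nat.finite_of_card_ne_zero (by rw [hX]; norm_num)
    obtain ⟨x, hx⟩ : ∃ x : X, x ≠ 1 := by
      haveI : Nontrivial X := by
        apply Finite.one_lt_card_iff_nontrivial.mp
        rw [hX]; norm_num
      exact exists_ne 1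
    have hx1 : (x : G) ≠ 1 := fun h => hx (Subtype.ext h)
    have hx3 : (x : G) ^ 3 = 1 := by
      have h := pow_card_eq_one' (x := x)
      rw [hX] at h
      exact_mod_cast congrArg Subtype.val h
    have hXz : X = Subgroup.zpowers (x : G) := by
      symm
      apply Subgroup.eq_of_le_of_card_ge
      · rw [Subgroup.zpowers_le]
        exact x.2
      · rw [Nat.card_zpowers, orderOf_eq_prime hx3 hx1, hX]
    have hxL : (x : G) ∈ L := hXL x.2
    set u : Γ := e ⟨x, hxL⟩ with hu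
    have hεu : ε u = x := by
      show ((e.symm (e ⟨x, hxL⟩) : L) : G) = x
      rw [MulEquiv.symm_apply_apply]
    have hu3 : u ^ 3 = 1 := by
      apply hεi
      rw [map_pow, hεu, hx3, map_one]
    have hu1 : u ≠ 1 := by
      intro h
      apply hx1
      rw [← hεu, h, map_one]
    obtain ⟨τ, ⟨g, rfl⟩, k, hk⟩ := hr1 (clOf hcov u)
    rw [← hκ g hu3 hu1] at hk
    obtain ⟨a3, a1⟩ := order3_map (Φ g) hu3 hu1
    obtain ⟨h, hh⟩ := clOf_spec hcov a3 a1
    rw [hk] at hh
    refine ⟨k, ε h * g, ?_⟩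
    rw [hXz, hmapZ]
    congr 1
    rw [← hh, map_mul, map_mul, map_inv, ← hεc, hεu]
    group

end main

end Cfsg.Agent.Lib.O8CP2
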