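import Mathlib
import Cfsg.Agent.Lib.PcClass36

/-!
# Elements of order 3 in a polycyclic Sylow subgroup: a fusion tree

A tree over the digits of the normal forms of a Sylow 3-subgroup: at a node a digit is either explored further, or moved to
another digit of the same node by a conjugating word in the normalizer of the subgroups of the chain. Leaves give the
identity, an element whose cube is not trivial, or a word conjugating the element to a class representative.
-/

set_option autoImplicit false
set_option linter.unusedSectionVars false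
set_option linter.unusedVariables false

namespace Cfsg.Agent.Lib.O8CT

open Cfsg.Agent.Lib.OutTree36 Cfsg.Agent.Lib.PcClass36

/-- The certificates. -/
inductive CT
  | I
  | C
  | L (j : ℕ) (w : List ℕ)
  | N (c0 c1 c2 : CT)
  | M (gw : List ℕ) (d rest : ℕ)

/-- Whether a certificate is a move. -/
def isM : CT → Bool
  | .M _ _ _ => true
  | _ => false

/-- Whether a child is a correct move. -/
def moveOK (c0 c1 c2 : CT) : CT → Bool
  | .M _ d _ =>
    match d with
    | 0 => !(isM c0)
    | 1 => !(isM c1)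
    | 2 => !(isM c2)
    | _ => false
  | _ => true

/-- Membership of a number in a list. -/
def memB (bL : List ℕ) (a : ℕ) : Bool := bL.any (fun b => Nat.beq b a)

theorem memB_spec {bL : List ℕ} {a : ℕ} (h : memB bL a = true) : a ∈ bL := by
  unfold memB at h
  rw [List.any_eq_true] at h
  obtain ⟨b, hb, hb2⟩ := h
  rw [← beq_true hb2]
  exact hb

/-- The check of a tree. -/
noncomputable def chkT (ap : ℕ → ℕ → ℕ) (bs : List ℕ) (yW : ℕ → List ℕ) (K : ℕ) (bL : List ℕ) :
    CT → List ℕ → List ℕ → List ℕ → ℕ → Bool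
  | .I, [], w, _, _ => eqB ap bs w []
  | .C, [], w, _, _ => !(eqB ap bs (w ++ w ++ w) [])
  | .L j u, [], w, _, _ => Nat.blt j K && eqB ap bs (u ++ w) (yW j ++ u)
  | .N c0 c1 c2, i :: ts, w, _, _ =>
    moveOK c0 c1 c2 c0 && moveOK c0 c1 c2 c1 && moveOK c0 c1 c2 c2 &&
    chkT ap bs yW K bL c0 ts w w i && chkT ap bs yW K bL c1 ts (w ++ [i]) w i &&
    chkT ap bs yW K bL c2 ts (w ++ [i, i]) w i
  | .M gw d rest, ts, w, w0, i =>
    gw.all (memB bL) && eqB ap bs (gw ++ w) (w0 ++ List.replicate d i ++ nfW ts rest ++ gw)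
  | _, _, _, _, _ => false

section

variable {Γ : Type*} [Group Γ] {Φ : Γ →* Equiv.Perm ℕ} {n : ℕ} {Lt : ℕ → Γ} {ap : ℕ → ℕ → ℕ}

/-- What has to be shown for an element. -/
def Cov (Lt : ℕ → Γ) (yW : ℕ → List ℕ) (K : ℕ) (u : Γ) : Prop :=
  u ^ 3 = 1 → u ≠ 1 → ∃ j, j < K ∧ ∃ g : Γ, g * u * g⁻¹ = evL Lt (yW j)

theorem Cov.conj {yW : ℕ → List ℕ} {K : ℕ} {u : Γ} (g : Γ) (h : Cov Lt yW K (g * u * g⁻¹)) : Cov Lt yW K u := by
  intro h3 h1
  have h3' : (g * u * g⁻¹) ^ 3 = 1 := by rw [conj_pow, h3]; group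
  have h1' : g * u * g⁻¹ ≠ 1 := by
    intro he
    apply h1
    have : u = g⁻¹ * (g * u * g⁻¹) * g := by group
    rw [this, he]; group
  obtain ⟨j, hj, x, hx⟩ := h h3' h1'
  exact ⟨j, hj, x * g, by rw [← hx]; group⟩

/-- Normalization of the subgroups of the chain. -/
def Norm (Lt : ℕ → Γ) (bL ix : List ℕ) : Prop :=
  ∀ ℓ ∈ bL, ∀ k, ∀ v ∈ clL ((ix.drop k).map Lt), Lt ℓ * v * (Lt ℓ)⁻¹ ∈ clL ((ix.drop k).map Lt)

/-- The check of normalization. -/
noncomputable def chkNm (ap : ℕ → ℕ → ℕ) (bs bL : List ℕ) : List ℕ → List (List (ℕ × ℕ)) → Bool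
  | [], _ => true
  | _ :: _, [] => false
  | i :: ts, c :: cs =>
    bL.all (fun ℓ => c.any fun q => Nat.beq q.1 ℓ && eqB ap bs [ℓ, i] (nfW (i :: ts) q.2 ++ [ℓ])) && chkNm ap bs bL ts cs

theorem clL_mono_cons (t : Γ) (ts : List Γ) : clL ts ≤ clL (t :: ts) :=
  Subgroup.closure_mono (fun x (hx : x ∈ ts) => List.mem_cons_of_mem t hx)

theorem clL_mono_map_drop (ix : List ℕ) {a b : ℕ} (h : a ≤ b) :
    clL ((ix.drop b).map Lt) ≤ clL ((ix.drop a).map Lt) := by
  apply Subgroup.closure_mono
  intro x hx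
  have hx' : x ∈ (ix.drop b).map Lt := hx
  show x ∈ (ix.drop a).map Lt
  obtain ⟨y, hy, rfl⟩ := List.mem_map.mp hx'
  refine List.mem_map.mpr ⟨y, ?_, rfl⟩
  have hs : (ix.drop b) <:+ (ix.drop a) := by
    have e : ix.drop b = (ix.drop a).drop (b - a) := by
      rw [List.drop_drop]
      congr 1
      omega
    rw [e]
    exact List.drop_suffix _ _
  exact hs.subset hy

theorem chkNm_sound (H : TabRep Φ n Lt ap) {bs bL : List ℕ} (hbs : ∀ g, (∀ b ∈ bs, Φ g b = b) → g = 1)
    (hbn : ∀ b ∈ bs, b < n) :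
    ∀ {ix : List ℕ} {cs : List (List (ℕ × ℕ))}, chkNm ap bs bL ix cs = true → Norm Lt bL ix
  | [], _, _ => by
    intro ℓ _ k v hv
    have h1 : clL ((([] : List ℕ).drop k).map Lt) = ⊥ := by
      rw [clL, Subgroup.closure_eq_bot_iff]
      intro y hy
      simp at hy
    rw [h1] at hv ⊢
    rw [Subgroup.mem_bot] at hv ⊢
    rw [hv]; group
  | _ :: _, [], h => by simp [chkNm] at h
  | i :: ts, c :: cs, h => by
    simp only [chkNm, Bool.and_eq_true, List.all_eq_true, List.any_eq_true] at h
    obtain ⟨h1, h2⟩ := h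
    have IH := chkNm_sound H hbs hbn h2
    intro ℓ hℓ k
    cases k with
    | zero =>
      -- a generating element
      have hgen : ∀ (ℓ : ℕ), ℓ ∈ bL → ∀ x ∈ (i :: ts).map Lt, Lt ℓ * x * (Lt ℓ)⁻¹ ∈ clL ((i :: ts).map Lt) := by
        intro ℓ hℓ x hx
        rw [List.map_cons, List.mem_cons] at hx
        rcases hx with rfl | hx
        · obtain ⟨q, _, h5, h6⟩ := h1 ℓ hℓ
          have h7 := eqB_sound H hbs hbn h6
          simp only [evL_cons, evL_nil, mul_one, evL_append, evL_nfW] at h7
          have h8 : Lt ℓ * Lt i * (Lt ℓ)⁻¹ = nfG ((i :: ts).map Lt) q.2 := by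
            rw [h7]; group
          rw [h8]
          exact nfG_mem _ _
        · have h9 := IH ℓ hℓ 0 x (Subgroup.subset_closure hx)
          simp only [List.drop_zero] at h9
          rw [List.map_cons]
          exact clL_mono_cons _ _ h9
      intro v hv
      simp only [List.drop_zero] at hv ⊢
      induction hv using Subgroup.closure_induction with
      | mem x hx => exact hgen ℓ hℓ x hx
      | one => simp
      | mul x y _ _ hx hy =>
        have e : Lt ℓ * (x * y) * (Lt ℓ)⁻¹ = (Lt ℓ * x * (Lt ℓ)⁻¹) * (Lt ℓ * y * (Lt ℓ)⁻¹) := by group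
        rw [e]
        exact Subgroup.mul_mem _ hx hy
      | inv x _ hx =>
        have e : Lt ℓ * x⁻¹ * (Lt ℓ)⁻¹ = (Lt ℓ * x * (Lt ℓ)⁻¹)⁻¹ := by group
        rw [e]
        exact Subgroup.inv_mem _ hx
    | succ k =>
      simp only [List.drop_succ_cons]
      exact IH ℓ hℓ k

/-- A word in the letters normalizes. -/
theorem conj_word_mem {bL ix : List ℕ} (hN : Norm Lt bL ix) (k : ℕ) :
    ∀ {gw : List ℕ}, gw.all (memB bL) = true → ∀ v ∈ clL ((ix.drop k).map Lt),
      evL Lt gw * v * (evL Lt gw)⁻¹ ∈ clL ((ix.drop k).map Lt)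
  | [], _, v, hv => by simpa using hv
  | a :: gw, h, v, hv => by
    rw [List.all_cons, Bool.and_eq_true] at h
    have h1 := conj_word_mem hN k h.2 v hv
    have h2 := hN a (memB_spec h.1) k _ h1
    have e : evL Lt (a :: gw) * v * (evL Lt (a :: gw))⁻¹ = Lt a * (evL Lt gw * v * (evL Lt gw)⁻¹) * (Lt a)⁻¹ := by
      rw [evL_cons]; group
    rw [e]
    exact h2

/-- The subgroup of the empty list is trivial. -/
theorem clL_nil_one {v : Γ} (hv : v ∈ clL ((([] : List ℕ)).map Lt)) : v = 1 := by
  have h1 : clL (([] : List ℕ).map Lt) = ⊥ := by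
    rw [clL, Subgroup.closure_eq_bot_iff]
    intro y hy
    simp at hy
  rw [h1] at hv
  exact Subgroup.mem_bot.mp hv

/-- `PcOK` passes to the tails. -/
theorem pcOK_drop {ix : List ℕ} (h : PcOK (ix.map Lt)) : ∀ k, PcOK ((ix.drop k).map Lt) := by
  intro k
  induction k generalizing ix with
  | zero => simpa using h
  | succ k ih =>
    cases ix with
    | nil => simpa using PcOK.nil
    | cons i ix =>
      rw [List.map_cons] at h
      cases h with
      | cons h1 _ _ _ =>
        simp only [List.drop_succ_cons]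
        exact ih h1

section sound

variable (H : TabRep Φ n Lt ap) {bs : List ℕ} (hbs : ∀ g, (∀ b ∈ bs, Φ g b = b) → g = 1) (hbn : ∀ b ∈ bs, b < n)
  {yW : ℕ → List ℕ} {K : ℕ} {bL ix : List ℕ} (hN : Norm Lt bL ix) (hPc : PcOK (ix.map Lt))
include H hbs hbn hN hPc

theorem chkT_sound [Finite Γ] : ∀ (c : CT) (k : ℕ) (w w0 : List ℕ) (i : ℕ), chkT ap bs yW K bL c (ix.drop k) w w0 i = true → isM c = false →
    ∀ v ∈ clL ((ix.drop k).map Lt), Cov Lt yW K (evL Lt w * v) := by
  intro c
  induction c with
  | I =>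
    intro k w w0 i h _ v hv
    cases hd : ix.drop k with
    | cons a ts => rw [hd] at h; simp [chkT] at h
    | nil =>
      rw [hd] at h hv
      have hv1 := clL_nil_one hv
      have h1 : evL Lt w = evL Lt [] := eqB_sound H hbs hbn h
      intro _ h2
      exfalso
      apply h2
      rw [hv1, h1]
      simp
  | C =>
    intro k w w0 i h _ v hv
    cases hd : ix.drop k with
    | cons a ts => rw [hd] at h; simp [chkT] at h
    | nil =>
      rw [hd] at h hv
      have hv1 := clL_nil_one hv
      have h1 := eqB_false H hbs hbn h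
      intro h3 _
      exfalso
      apply h1
      rw [hv1, mul_one] at h3
      simp only [evL_append, evL_nil]
      rw [← h3, pow_succ, pow_two]
  | L j u =>
    intro k w w0 i h _ v hv
    cases hd : ix.drop k with
    | cons a ts => rw [hd] at h; simp [chkT] at h
    | nil =>
      rw [hd] at h hv
      have hv1 := clL_nil_one hv
      simp only [chkT, Bool.and_eq_true] at h
      obtain ⟨h0, h1⟩ := h
      have h2 := eqB_sound H hbs hbn h1
      simp only [evL_append] at h2
      intro _ _
      refine ⟨j, blt_true h0, evL Lt u, ?_⟩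
      rw [hv1, mul_one, h2]
      group
  | M gw d rest =>
    intro k w w0 i _ h
    simp [isM] at h
  | N c0 c1 c2 ih0 ih1 ih2 =>
    intro k w w0 i h _ v hv
    cases hd : ix.drop k with
    | nil => rw [hd] at h; simp [chkT] at h
    | cons a ts =>
      have hts : ts = ix.drop (k + 1) := by
        rw [← List.drop_drop, hd]
        simp
      rw [hd] at h hv
      simp only [chkT, Bool.and_eq_true] at h
      obtain ⟨⟨⟨⟨⟨hm0, hm1⟩, hm2⟩, hc0⟩, hc1⟩, hc2⟩ := h
      rw [hts] at hc0 hc1 hc2
      -- the digits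
      have hPcA : PcOK (((a :: ts)).map Lt) := by
        rw [← hd]
        exact pcOK_drop hPc k
      obtain ⟨q, hq, rfl⟩ := pc_form hPcA hv
      rw [List.map_cons, nfG]
      set v' := nfG (ts.map Lt) (q / 3) with hv'
      have hv'm : v' ∈ clL (ts.map Lt) := nfG_mem _ _
      rw [hts] at hv'm
      -- the general statement for a child
      have main : ∀ (w1 : List ℕ) (d : ℕ) (c : CT), (w1 = w ++ List.replicate d a) → moveOK c0 c1 c2 c = true →
          chkT ap bs yW K bL c (ix.drop (k + 1)) w1 w a = true →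
          (isM c = false → ∀ v ∈ clL ((ix.drop (k + 1)).map Lt), Cov Lt yW K (evL Lt w1 * v)) →
          ∀ v ∈ clL ((ix.drop (k + 1)).map Lt), Cov Lt yW K (evL Lt w1 * v) := by
        intro w1 d c hw1 hm hc IH v hv
        cases hcm : c with
        | I => exact IH (by rw [hcm]; rfl) v hv
        | C => exact IH (by rw [hcm]; rfl) v hv
        | L j u => exact IH (by rw [hcm]; rfl) v hv
        | N x y z => exact IH (by rw [hcm]; rfl) v hv
        | M gw d' rest =>
          rw [hcm] at hc hm
          simp only [chkT, Bool.and_eq_true] at hc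
          obtain ⟨hg, he⟩ := hc
          have h7 := eqB_sound H hbs hbn he
          simp only [evL_append] at h7
          -- the target digit
          have hconj : evL Lt gw * (evL Lt w1 * v) * (evL Lt gw)⁻¹ =
              (evL Lt w * evL Lt (List.replicate d' a)) *
                (evL Lt (nfW (ix.drop (k + 1)) rest) * (evL Lt gw * v * (evL Lt gw)⁻¹)) := by
            have e : evL Lt gw * (evL Lt w1 * v) * (evL Lt gw)⁻¹ = (evL Lt gw * evL Lt w1) * (v * (evL Lt gw)⁻¹) := by group
            rw [e, h7]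
            group
          have hmem : evL Lt (nfW (ix.drop (k + 1)) rest) * (evL Lt gw * v * (evL Lt gw)⁻¹) ∈ clL ((ix.drop (k + 1)).map Lt) := by
            apply Subgroup.mul_mem
            · rw [evL_nfW]
              exact nfG_mem _ _
            · exact conj_word_mem hN _ hg v hv
          apply Cov.conj (evL Lt gw)
          rw [hconj]
          -- the three cases of the target digit
          have hd' : d' = 0 ∨ d' = 1 ∨ d' = 2 := by
            by_contra hne
            have hne0 : d' ≠ 0 := fun h => hne (Or.inl h)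
            have hne1 : d' ≠ 1 := fun h => hne (Or.inr (Or.inl h))
            have hne2 : d' ≠ 2 := fun h => hne (Or.inr (Or.inr h))
            simp [moveOK, hne0, hne1, hne2] at hm
          rcases hd' with rfl | rfl | rfl
          · have hm' : isM c0 = false := by simpa [moveOK] using hm
            have := ih0 (k + 1) w w a hc0 hm' _ hmem
            simpa [evL_nil] using this
          · have hm' : isM c1 = false := by simpa [moveOK] using hm
            have := ih1 (k + 1) (w ++ [a]) w a hc1 hm' _ hmem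
            simpa [evL_append, evL_cons, List.replicate] using this
          · have hm' : isM c2 = false := by simpa [moveOK] using hm
            have := ih2 (k + 1) (w ++ [a, a]) w a hc2 hm' _ hmem
            simpa [evL_append, evL_cons, List.replicate] using this
      have hq3 : q % 3 = 0 ∨ q % 3 = 1 ∨ q % 3 = 2 := by omega
      rcases hq3 with e | e | e
      · rw [e, pow_zero, one_mul]
        exact main w 0 c0 (by simp) hm0 hc0 (fun h => ih0 (k + 1) w w a hc0 h) v' hv'm
      · rw [e, pow_one, ← mul_assoc]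
        have := main (w ++ [a]) 1 c1 (by simp) hm1 hc1 (fun h => ih1 (k + 1) (w ++ [a]) w a hc1 h) v' hv'm
        simpa [evL_append, evL_cons] using this
      · rw [e, pow_two, ← mul_assoc, ← mul_assoc]
        have := main (w ++ [a, a]) 2 c2 (by simp) hm2 hc2 (fun h => ih2 (k + 1) (w ++ [a, a]) w a hc2 h) v' hv'm
        simpa [evL_append, evL_cons, mul_assoc] using this

/-- The covering. -/
theorem cover_tree [Finite Γ] {q : ℕ} (hcard : Nat.card Γ = 3 ^ ix.length * q) (hq : ¬ 3 ∣ q) {c : CT} (hcM : isM c = false)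
    (hc : chkT ap bs yW K bL c ix [] [] 0 = true) {x : Γ} (hx3 : x ^ 3 = 1) (hx1 : x ≠ 1) :
    ∃ j, j < K ∧ ∃ g : Γ, g * x * g⁻¹ = evL Lt (yW j) := by
  have hlen : (ix.map Lt).length = ix.length := List.length_map _
  obtain ⟨g, a, ha, hg⟩ := exists_nf hPc (q := q) (by rw [hlen]; exact hcard) hq hx3 hx1
  have h0 := chkT_sound H hbs hbn hN hPc c 0 [] [] 0 (by simpa using hc) hcM (g * x * g⁻¹)
    (by rw [hg]; simpa using nfG_mem _ _)
  have h1 : Cov Lt yW K x := by
    apply Cov.conj g
    simpa using h0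
  exact h1 hx3 hx1

end sound

/-- Equality of booleans. -/
def boolE (a b : Bool) : Bool := cond a b (!b)

theorem boolE_spec {a b : Bool} (h : boolE a b = true) : a = b := by
  cases a <;> cases b <;> simp_all [boolE]

/-- The check of a polycyclic chain with masks telling a member from the later ones. -/
noncomputable def chkPcM (ap : ℕ → ℕ → ℕ) (bs : List ℕ) (n d : ℕ) : List ℕ → List (List (ℕ × ℕ)) → List (ℕ × ℕ) → Bool
  | [], _, _ => true
  | _ :: _, [], _ => false
  | _ :: _, _ :: _, [] => false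
  | i :: ix, c :: cs, m :: ms =>
    (ix.all fun j => c.any fun q => Nat.beq q.1 j && eqB ap bs [j, i] (i :: nfW ix q.2)) &&
    eqB ap bs [i, i, i] [] &&
    (Nat.blt m.2 n && tb m.1 m.2 && !(tb m.1 (ap i m.2))) &&
    (ix.all fun u => allR (fun q => !(Nat.blt q n) || boolE (tb m.1 (ap u q)) (tb m.1 q)) d 0) &&
    chkPcM ap bs n d ix cs ms

theorem mask_clL (H : TabRep Φ n Lt ap) {M : ℕ} {ts : List ℕ} (hm : ∀ u ∈ ts, ∀ q, q < n → tb M (ap u q) = tb M q)
    {v : Γ} (hv : v ∈ clL (ts.map Lt)) : ∀ q, q < n → tb M (Φ v q) = tb M q := by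
  induction hv using Subgroup.closure_induction with
  | mem x hx =>
    intro q hq
    obtain ⟨u, hu, rfl⟩ := List.mem_map.mp hx
    rw [H.ap_eq u q hq]
    exact hm u hu q hq
  | one => intro q _; simp
  | mul x y _ _ hx hy =>
    intro q hq
    rw [map_mul, Equiv.Perm.mul_apply, hx _ (H.bd _ _ hq), hy q hq]
  | inv x _ hx =>
    intro q hq
    have h1 := hx _ (H.bd x⁻¹ q hq)
    have e : Φ x (Φ x⁻¹ q) = q := by simp
    rw [e] at h1
    exact h1.symm

theorem pcOK_ofM (H : TabRep Φ n Lt ap) {bs : List ℕ} (hbs : ∀ g, (∀ b ∈ bs, Φ g b = b) → g = 1) (hbn : ∀ b ∈ bs, b < n)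
    {d : ℕ} (hd : n ≤ 2 ^ d) :
    ∀ {ix : List ℕ} {cs : List (List (ℕ × ℕ))} {ms : List (ℕ × ℕ)}, chkPcM ap bs n d ix cs ms = true → PcOK (ix.map Lt)
  | [], _, _, _ => PcOK.nil
  | _ :: _, [], _, h => by simp [chkPcM] at h
  | _ :: _, _ :: _, [], h => by simp [chkPcM] at h
  | i :: ix, c :: cs, m :: ms, h => by
    simp only [chkPcM, Bool.and_eq_true, List.all_eq_true, List.any_eq_true, Bool.not_eq_true'] at h
    obtain ⟨⟨⟨⟨h1, h2⟩, ⟨⟨h3a, h3b⟩, h3c⟩⟩, h3d⟩, h4⟩ := h
    rw [List.map_cons]
    refine PcOK.cons (pcOK_ofM H hbs hbn hd h4) ?_ ?_ ?_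
    · intro u hu
      obtain ⟨j, hj, rfl⟩ := List.mem_map.mp hu
      obtain ⟨q, _, h5, h6⟩ := h1 j hj
      refine ⟨q.2, ?_⟩
      have h7 := eqB_sound H hbs hbn h6
      simp only [evL_cons, evL_nil, mul_one, evL_nfW] at h7
      rw [mul_assoc, h7]
      group
    · refine ⟨0, ?_⟩
      have h7 := eqB_sound H hbs hbn h2
      simp only [evL_cons, evL_nil, mul_one] at h7
      have h8 : nfG (ix.map Lt) 0 = 1 := by
        rw [← evL_nfW]
        have : ∀ (l : List ℕ), nfW l 0 = [] := by
          intro l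
          induction l with
          | nil => rfl
          | cons a l ih =>
            rw [nfW_cons]
            simpa using ih
        rw [this]; rfl
      rw [h8, pow_succ, pow_two, mul_assoc]
      exact h7
    · intro a _ hat
      have hm : ∀ u ∈ ix, ∀ q, q < n → tb m.1 (ap u q) = tb m.1 q := by
        intro u hu q hq
        have h5 := allR_spec d 0 (h3d u hu) q (Nat.zero_le _) (by omega)
        have h6 : Nat.blt q n = true := Nat.ble_eq_true_of_le hq
        rw [h6] at h5
        exact boolE_spec (by simpa using h5)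
      have hp : m.2 < n := blt_true h3a
      have h7 := mask_clL H hm (nfG_mem (ix.map Lt) a) m.2 hp
      rw [← hat, H.ap_eq i _ hp, h3b, h3c] at h7
      exact Bool.false_ne_true h7

end

end Cfsg.Agent.Lib.O8CT
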