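import Mathlib
import Cfsg.Agent.Lib.O8Main46

/-!
# The upper bound for the multiplier of the orthogonal group in dimension eight
-/

set_option autoImplicit false
set_option maxRecDepth 100000

namespace Cfsg.Agent.Lib.O8Upper46

open Cfsg Cfsg.Agent.Lib.SchurCoset46 Cfsg.Agent.Lib.SchurPres46 Cfsg.Agent.Lib.PermCode46 Cfsg.Agent.Lib.SchurTower46
  Cfsg.Agent.Lib.SchurGolayTab46 Cfsg.Agent.Lib.O8Gen46 Cfsg.Agent.Lib.O8Level46 Cfsg.Agent.Lib.O8Main46
open Cfsg.Agent.Lib.O8p46

universe u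

/-- If a certificate with values modulo a prime holds then the powers with this exponent are everything. -/
theorem pow_surj_of_cert {Γ : Type u} {G X : Type*} [Group Γ] [Group G] [MulAction G X] {σ : Γ →* G}
    (hσ : IsStemExtension σ) {Ht : Subgroup Γ} {x0 : X} (hHt : ∀ y, y ∈ Ht ↔ σ y • x0 = x0)
    (ρ : Ht →* σ.ker) (hρ : ∀ k (hk : k ∈ σ.ker) (h : k ∈ Ht), ρ ⟨k, h⟩ = ⟨k, hk⟩)
    (C : CertE) (hC : C.check = true) {p : ℕ} (hEq : C.E = p) (hr0 : C.r0 = 1) {mask : ℕ → X} (hm0 : mask 0 = x0)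
    (hmne : ∀ c, c < C.n → mask c = x0 → c = 0)
    {s : ℕ → G} (hms : ∀ c, c < C.n → ∀ i, i < C.m → s i • mask (C.T c (2 * i)) = mask c)
    (hgen : Subgroup.closure (s '' Set.Iio C.m) = ⊤)
    {x : ℕ → Γ} (hx : ∀ i, σ (x i) = s i)
    (hrels : ∀ j, j < C.R → ∀ l ∈ C.rels j, l < 2 * C.m)
    (hrel : ∀ j, j < C.R → evW s (C.rels j) = 1)
    (hnorm : ∀ j, j < C.R → C.normal j = true → evW x (C.rels j) = 1) :
    ∀ k : σ.ker, ∃ l : σ.ker, k = l ^ p := by
  let _ : CommGroup σ.ker := { (inferInstance : Group σ.ker) with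
    mul_comm := fun a b => Subtype.ext (Subgroup.mem_center_iff.mp (hσ.2.1 b.2) a.1) }
  let L : Subgroup σ.ker := (powMonoidHom p : σ.ker →* σ.ker).range
  let ψ : σ.ker →* σ.ker ⧸ L := QuotientGroup.mk' L
  have hE : ∀ a : σ.ker ⧸ L, a ^ C.E = 1 := by
    intro a
    induction a using QuotientGroup.induction_on with
    | H k =>
      rw [← QuotientGroup.mk_pow, QuotientGroup.eq_one_iff, hEq]
      exact ⟨k, rfl⟩
  obtain ⟨u, hu, hall⟩ := ker_cyclic_of_cert hσ hHt ρ hρ ψ C hC hE hm0 hmne hms hgen hx hrels hrel hnorm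
  rw [hr0, pow_one] at hu
  intro k
  have h1 := hall k
  rw [hu, Subgroup.mem_zpowers_iff] at h1
  obtain ⟨i, hi⟩ := h1
  rw [one_zpow] at hi
  have h2 : ψ k = 1 := hi.symm
  obtain ⟨l, hl⟩ := (QuotientGroup.eq_one_iff _).mp h2
  exact ⟨l, hl.symm⟩

/-- From generators of a group of orders `7` to the first two relators. -/
theorem sG0_pow : sG 0 ^ 7 = 1 := by
  have h := evW_one_of_chk ι0 ι0_inj hLG (w := List.replicate 7 1) (by simp) ordG_a
  rw [evW_replicate] at h
  have l1 : lett sG 1 = (sG 0)⁻¹ := lett_odd sG 0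
  rwa [l1, inv_pow, inv_eq_one] at h

theorem sG1_pow : sG 1 ^ 7 = 1 := by
  have h := evW_one_of_chk ι0 ι0_inj hLG (w := List.replicate 7 3) (by simp) ordG_b
  rw [evW_replicate] at h
  have l1 : lett sG 3 = (sG 1)⁻¹ := lett_odd sG 1
  rwa [l1, inv_pow, inv_eq_one] at h

theorem sG0_ne : sG 0 ≠ 1 := by
  intro h
  have h1 := hLG 0 (by norm_num) ⟨0, by decide⟩
  have e : lett sG 0 = sG 0 := lett_even sG 0
  rw [e, h, map_one] at h1
  exact ne_a h1.symm

/-- An element of order five. -/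
noncomputable def g5 : ↥PG := (sA 0 : ↥HA)

theorem g5_pow : g5 ^ 5 = 1 := by
  have h1 := sp6RA.rel1 0 (by decide)
  have e : Cfsg.Agent.Lib.Sp6c46.relsL.getD 0 [] = List.replicate 5 1 := by decide
  rw [e, evW_replicate] at h1
  have l1 : lett sA 1 = (sA 0)⁻¹ := lett_odd sA 0
  rw [l1, inv_pow, inv_eq_one] at h1
  exact congrArg Subtype.val h1

theorem g5_ne : g5 ≠ 1 := fun h => sp6RA.ne0 (Subtype.ext h)

section Certs

variable (cr : CertE) (hl : (List.range cr.R).all (fun j => allLt (cr.rels j) && D.isIdW cL (cr.rels j)) = true)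

include hl in
theorem rels_lt_of_ok (hm : cr.m = 2) : ∀ j, j < cr.R → ∀ l ∈ cr.rels j, l < 2 * cr.m := by
  simp only [allLt, List.all_eq_true, List.mem_range, Bool.and_eq_true, Nat.blt_eq] at hl
  intro j hj l h1
  rw [hm]
  exact (hl j hj).1 l h1

include hl in
theorem rels_one_of_ok : ∀ j, j < cr.R → evW sG (cr.rels j) = 1 := by
  simp only [allLt, List.all_eq_true, List.mem_range, Bool.and_eq_true, Nat.blt_eq] at hl
  intro j hj
  obtain ⟨h1, h2⟩ := hl j hj
  exact evW_one_of_chk ι0 ι0_inj hLG h1 h2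

end Certs

section Bound

variable {Γ : Type u} [Group Γ] (σ : Γ →* ↥PG) (hσ : IsStemExtension σ)

/-- The restriction to the preimage of a subgroup. -/
noncomputable abbrev τP (H : Subgroup ↥PG) : (H.comap σ) →* ↥H := σ.subgroupComap H

theorem ker_le_center (hσ : IsStemExtension σ) (H : Subgroup ↥PG) : (τP σ H).ker ≤ Subgroup.center (H.comap σ) := by
  intro y hy
  have h1 : σ y.1 = 1 := congrArg Subtype.val (MonoidHom.mem_ker.mp hy)
  rw [Subgroup.mem_center_iff]
  intro z
  apply Subtype.ext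
  exact (Subgroup.mem_center_iff.mp (hσ.2.1 h1)) z.1

include hσ in
/-- The bound for a stem extension for which the commutator subgroup of the preimage of the subgroup meets the kernel
trivially. -/
theorem card_ker_le_two [Finite Γ] (hc : Nat.card ↥PG = 174182400)
    (hinter : ∀ y ∈ commutator ↥(HA.comap σ), y ∈ (τP σ HA).ker → y = 1) : Nat.card σ.ker ≤ 2 := by
  obtain ⟨ρ₀, hρ₀⟩ := exists_retraction_of_inter sp6RA.perf1 (τP σ HA)
    (σ.subgroupComap_surjective_of_surjective HA hσ.1) hinter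
  let φ : (τP σ HA).ker →* σ.ker :=
    { toFun := fun y => ⟨y.1.1, congrArg Subtype.val (MonoidHom.mem_ker.mp y.2)⟩
      map_one' := rfl
      map_mul' := fun _ _ => rfl }
  let ρ : (HA.comap σ) →* σ.ker := φ.comp ρ₀
  have hρ : ∀ k (hk : k ∈ σ.ker) (h : k ∈ HA.comap σ), ρ ⟨k, h⟩ = ⟨k, hk⟩ := by
    intro k h1 h2
    have h3 : (⟨k, h2⟩ : HA.comap σ) ∈ (τP σ HA).ker := by
      apply Subtype.ext
      exact h1
    show φ (ρ₀ ⟨k, h2⟩) = _
    rw [hρ₀ _ h3]
    rfl
  have hexp : ∀ k ∈ σ.ker, k ^ 4976640 = 1 := by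
    intro k hk
    have h7 : k ^ 24883200 = 1 := by
      have : Fact (Nat.Prime 7) := ⟨by norm_num⟩
      exact pow_of_element hσ (p := 7) sG0_pow sG0_ne (by rw [hc]) hk
    have h5 : k ^ 34836480 = 1 := by
      have : Fact (Nat.Prime 5) := ⟨by norm_num⟩
      exact pow_of_element hσ (p := 5) g5_pow g5_ne (by rw [hc]) hk
    have h3 := pow_gcd_eq_one.mpr ⟨h7, h5⟩
    have e : Nat.gcd 24883200 34836480 = 4976640 := by norm_num
    rwa [e] at h3
  obtain ⟨x0, hx0, hx07⟩ := exists_lift_pow hσ (n := 7) (u := 1421897) sG0_pow hexp (by norm_num)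
  obtain ⟨x1, hx1, hx17⟩ := exists_lift_pow hσ (n := 7) (u := 1421897) sG1_pow hexp (by norm_num)
  have hx : ∀ i, σ (two x0 x1 i) = sG i := two_lift σ sG_two hx0 hx1
  have hHt := mem_comap_iff_smul σ HA
  have hmne := (card_HA hc).2
  have h3 := pow_surj_of_cert hσ hHt ρ hρ cert03 cert03_ok (p := 3) rfl rfl mA_zero hmne mA_smul sG_gen hx
    (rels_lt_of_ok cert03 rels03_ok rfl) (rels_one_of_ok cert03 rels03_ok)
    (by
      intro j _ hj
      have hj2 : j < 2 := by simpa [cert03] using hj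
      exact norm_of_two (x := two x0 x1) (rels := cert03.rels) hx07 hx17 (by decide) (by decide) j hj2)
  have h5 := pow_surj_of_cert hσ hHt ρ hρ cert05 cert05_ok (p := 5) rfl rfl mA_zero hmne mA_smul sG_gen hx
    (rels_lt_of_ok cert05 rels05_ok rfl) (rels_one_of_ok cert05 rels05_ok)
    (by
      intro j _ hj
      have hj2 : j < 2 := by simpa [cert05] using hj
      exact norm_of_two (x := two x0 x1) (rels := cert05.rels) hx07 hx17 (by decide) (by decide) j hj2)
  let _ : CommGroup σ.ker := { (inferInstance : Group σ.ker) with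
    mul_comm := fun a b => Subtype.ext (Subgroup.mem_center_iff.mp (hσ.2.1 b.2) a.1) }
  have hexpK : ∀ k : σ.ker, k ^ 4976640 = 1 := by
    intro k
    apply Subtype.ext
    show (k : Γ) ^ 4976640 = 1
    exact hexp _ k.2
  have hE1 : ∀ k : σ.ker, k ^ 20480 = 1 := by
    intro k
    refine pow_eq_one_of_descent (e := 20480) (b := 3) (j := 5) ?_ ?_ k
    · intro m
      obtain ⟨l, hl⟩ := h3 m
      refine ⟨l, ?_⟩
      rw [hl, ← pow_mul, mul_comm]
    · intro m
      exact hexpK m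
  have hE2 : ∀ k : σ.ker, k ^ 4096 = 1 := by
    intro k
    refine pow_eq_one_of_descent (e := 4096) (b := 5) (j := 1) ?_ ?_ k
    · intro m
      obtain ⟨l, hl⟩ := h5 m
      refine ⟨l, ?_⟩
      rw [hl, ← pow_mul, mul_comm]
    · intro m
      exact hE1 m
  obtain ⟨v, hv, hall⟩ := bound_of_cert hσ hHt ρ hρ cert04 cert04_ok (r := 2) (b := 2) (j := 11) rfl rfl
    (by
      intro k hk
      exact congrArg Subtype.val (hE2 ⟨k, hk⟩))
    mA_zero hmne mA_smul sG_gen hx (rels_lt_of_ok cert04 rels04_ok rfl) (rels_one_of_ok cert04 rels04_ok)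
    (by
      intro j _ hj
      have hj2 : j < 2 := by simpa [cert04] using hj
      exact norm_of_two (x := two x0 x1) (rels := cert04.rels) hx07 hx17 (by decide) (by decide) j hj2)
  have h9 : (Subgroup.zpowers v : Subgroup σ.ker) = ⊤ := by
    rw [eq_top_iff]
    intro k _
    exact hall k
  have h10 : Nat.card σ.ker = Nat.card (Subgroup.zpowers v) := by
    rw [h9]
    exact (Nat.card_congr Subgroup.topEquiv.toEquiv).symm
  rw [h10, Nat.card_zpowers]
  exact orderOf_le_of_pow_eq_one (by norm_num) hv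

/-- The group is perfect. -/
theorem perfPG : commutator ↥PG = ⊤ := perf_of_ok ι0 ι0_inj sG_gen hLG perfG_ok

include hσ in
/-- The order of the kernel of a stem extension of the group is at most four. -/
theorem card_ker_le_four [Finite Γ] (hc : Nat.card ↥PG = 174182400) : Nat.card σ.ker ≤ 4 := by
  have hA := (card_HA hc).1
  have hτ : Function.Surjective (τP σ HA) := σ.subgroupComap_surjective_of_surjective HA hσ.1
  have hst := stem_of_commutator sp6RA.perf1 (τP σ HA) hτ (ker_le_center σ hσ HA)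
  obtain ⟨u₀, hu₀, hall₀⟩ := sp6RA.bound hA ((τP σ HA).comp (commutator ↥(HA.comap σ)).subtype) hst
  let uu : Γ := (((u₀ : ↥(commutator ↥(HA.comap σ))) : ↥(HA.comap σ)) : Γ)
  have huk : uu ∈ σ.ker := congrArg Subtype.val (MonoidHom.mem_ker.mp u₀.2)
  have hu2 : uu ^ 2 = 1 := by
    have h1 := congrArg (fun y : ((τP σ HA).comp (commutator ↥(HA.comap σ)).subtype).ker =>
      (((y : ↥(commutator ↥(HA.comap σ))) : ↥(HA.comap σ)) : Γ)) hu₀
    exact h1
  let U : Subgroup Γ := Subgroup.zpowers uu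
  have hU : U ≤ σ.ker := (Subgroup.zpowers_le).mpr huk
  have hUc : U ≤ Subgroup.center Γ := hU.trans hσ.2.1
  have : U.Normal := ⟨fun n hn g => by
    rw [Subgroup.mem_center_iff.mp (hUc hn) g, mul_inv_cancel_right]
    exact hn⟩
  have hσ' := quot_stem hσ U hU
  have h2 : Nat.card (qσ σ U hU).ker ≤ 2 := by
    refine card_ker_le_two (qσ σ U hU) hσ' hc ?_
    let f : ↥(HA.comap σ) →* ↥(HA.comap (qσ σ U hU)) :=
      { toFun := fun z => ⟨(z.1 : Γ ⧸ U), z.2⟩
        map_one' := rfl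
        map_mul' := fun _ _ => rfl }
    have hf : Function.Surjective f := by
      rintro ⟨y, hy⟩
      obtain ⟨z, rfl⟩ := QuotientGroup.mk_surjective y
      exact ⟨⟨z, hy⟩, rfl⟩
    have hm : (commutator ↥(HA.comap σ)).map f = commutator ↥(HA.comap (qσ σ U hU)) := by
      rw [_root_.commutator_def, _root_.commutator_def, Subgroup.map_commutator, Subgroup.map_top_of_surjective f hf]
    intro y hy hk
    rw [← hm] at hy
    obtain ⟨d, hd, rfl⟩ := hy
    have hσd : σ d.1 = 1 := congrArg Subtype.val (MonoidHom.mem_ker.mp hk)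
    have h3 : (⟨d, hd⟩ : ↥(commutator ↥(HA.comap σ))) ∈ ((τP σ HA).comp (commutator ↥(HA.comap σ)).subtype).ker :=
      Subtype.ext hσd
    obtain ⟨i, hi⟩ := Subgroup.mem_zpowers_iff.mp (hall₀ ⟨⟨d, hd⟩, h3⟩)
    have h5 : d.1 = uu ^ i := by
      have h6 := congrArg (fun y : ((τP σ HA).comp (commutator ↥(HA.comap σ)).subtype).ker =>
        (((y : ↥(commutator ↥(HA.comap σ))) : ↥(HA.comap σ)) : Γ)) hi
      exact h6.symm
    apply Subtype.ext
    show (d.1 : Γ ⧸ U) = 1
    rw [h5]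
    exact (QuotientGroup.eq_one_iff _).mpr (Subgroup.zpow_mem_zpowers uu i)
  let f2 : σ.ker →* (qσ σ U hU).ker :=
    { toFun := fun k => ⟨(k.1 : Γ ⧸ U), k.2⟩
      map_one' := rfl
      map_mul' := fun _ _ => rfl }
  have h3 : Nat.card f2.range ≤ 2 := (Subgroup.card_le_card_group _).trans h2
  have h4 : Nat.card f2.ker ≤ 2 := by
    let g : f2.ker → ↥U := fun k => ⟨k.1.1, (QuotientGroup.eq_one_iff _).mp (congrArg Subtype.val (MonoidHom.mem_ker.mp k.2))⟩
    have hg : Function.Injective g := by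
      intro a b hab
      have h6 : a.1.1 = b.1.1 := congrArg (fun y : ↥U => (y : Γ)) hab
      exact Subtype.ext (Subtype.ext h6)
    have h5 := Nat.card_le_card_of_injective g hg
    refine h5.trans ?_
    show Nat.card (Subgroup.zpowers uu) ≤ 2
    rw [Nat.card_zpowers]
    exact orderOf_le_of_pow_eq_one (by norm_num) hu2
  have h5 := Subgroup.card_mul_index f2.ker
  rw [Subgroup.index_ker] at h5
  rw [← h5]
  exact Nat.mul_le_mul h4 h3

end Bound

end Cfsg.Agent.Lib.O8Upper46
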