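import Mathlib
import Cfsg.Agent.Lib.O8Upper46

/-!
# A stem extension of the orthogonal group in dimension eight with a kernel of order four
-/

set_option autoImplicit false
set_option maxRecDepth 100000

namespace Cfsg.Agent.Lib.O8Cover46

open Cfsg Cfsg.Agent.Lib.SchurCoset46 Cfsg.Agent.Lib.SchurPres46 Cfsg.Agent.Lib.PermCode46 Cfsg.Agent.Lib.SchurTower46
  Cfsg.Agent.Lib.O8Gen46 Cfsg.Agent.Lib.O8Level46 Cfsg.Agent.Lib.O8Main46 Cfsg.Agent.Lib.O8Upper46
open Cfsg.Agent.Lib.O8p46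

/-- The points of the cover. -/
abbrev Y : Type := Fin Dd.N

/-- The central element. -/
def Zp : Equiv.Perm Y := Dd.permOf zc zc validZ

theorem Zp_val (p : Y) : ((Zp p : Y) : ℕ) = flipL p := by
  have h := zChk_ok
  rw [zChk, List.all_eq_true] at h
  exact Nat.eq_of_beq_eq_true (h _ (List.mem_range.mpr p.2))

theorem flipL_flipL (p : ℕ) : flipL (flipL p) = p := by
  unfold flipL
  split_ifs <;> omega

theorem Zp_sq : Zp * Zp = 1 := by
  ext p
  show ((Zp (Zp p) : Y) : ℕ) = p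
  rw [Zp_val, Zp_val, flipL_flipL]

theorem Zp_ne : Zp ≠ 1 := by
  intro h
  have h1 := Zp_val ⟨0, by decide⟩
  rw [h] at h1
  exact absurd h1 (by decide)

/-- Permutations with the same code are the same. -/
theorem rep_ext {D' : Pc} {g h : Equiv.Perm (Fin D'.N)} {c : ℕ} (h1 : D'.Rep g c) (h2 : D'.Rep h c) : g = h := by
  ext q
  rw [h1, h2]

/-- The invariant of an element of the covering group. -/
structure Inv {X : Type*} [MulAction ↥PG X] (mask : ℕ → X) (adj : ℕ → ℕ → ℕ) (l : ↥PG × Equiv.Perm Y) : Prop where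
  blk : ∀ p : Y, mask (((l.2 p : Y) : ℕ) / 2) = l.1 • mask ((p : ℕ) / 2)
  adj : ∀ p q : Y, adj (l.2 p) (l.2 q) = adj p q
  comm : Commute Zp l.2

section Inv

variable {X : Type*} [MulAction ↥PG X] {mask : ℕ → X} {adj : ℕ → ℕ → ℕ}

theorem Inv.one : Inv mask adj 1 :=
  ⟨fun p => (one_smul _ _).symm, fun _ _ => rfl, Commute.one_right _⟩

theorem Inv.mul {a b : ↥PG × Equiv.Perm Y} (ha : Inv mask adj a) (hb : Inv mask adj b) : Inv mask adj (a * b) := by
  refine ⟨fun p => ?_, fun p q => ?_, ha.comm.mul_right hb.comm⟩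
  · show mask (((a.2 (b.2 p) : Y) : ℕ) / 2) = (a.1 * b.1) • mask ((p : ℕ) / 2)
    rw [ha.blk, hb.blk, mul_smul]
  · show adj (a.2 (b.2 p)) (a.2 (b.2 q)) = adj p q
    rw [ha.adj, hb.adj]

theorem Inv.inv {a : ↥PG × Equiv.Perm Y} (ha : Inv mask adj a) : Inv mask adj a⁻¹ := by
  refine ⟨fun p => ?_, fun p q => ?_, ha.comm.inv_right⟩
  · show mask (((a.2⁻¹ p : Y) : ℕ) / 2) = a.1⁻¹ • mask ((p : ℕ) / 2)
    have e : a.2 (a.2⁻¹ p) = p := by simp
    rw [eq_inv_smul_iff, ← ha.blk, e]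
  · show adj (a.2⁻¹ p) (a.2⁻¹ q) = adj p q
    have h := ha.adj (a.2⁻¹ p) (a.2⁻¹ q)
    have e1 : a.2 (a.2⁻¹ p) = p := by simp
    have e2 : a.2 (a.2⁻¹ q) = q := by simp
    rwa [e1, e2, eq_comm] at h

/-- The invariant of a generator. -/
theorem inv_of_code {T : ℕ → ℕ → ℕ} {par : ℕ → ℕ × ℕ} (hT : Tab 120 2 T par)
    (hms : ∀ c, c < 120 → ∀ i, i < 2 → sG i • mask (T c (2 * i)) = mask c) {i : ℕ} (hi : i < 2) {c d : ℕ}
    (hv : Dd.validC c d = true) (hblk : blkChk T c (2 * i + 1) = true) (hadj : adjChk adj c = true)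
    (hcomm : commChk c = true) : Inv mask adj (sG i, Dd.permOf c d hv) := by
  refine ⟨fun p => ?_, fun p q => ?_, ?_⟩
  · rw [blkChk, List.all_eq_true] at hblk
    have h1 : Dd.ap c p / 2 = T ((p : ℕ) / 2) (2 * i + 1) := Nat.eq_of_beq_eq_true (hblk _ (List.mem_range.mpr p.2))
    have hp : (p : ℕ) / 2 < 120 := by
      have : (p : ℕ) < 240 := p.2
      omega
    have h2 := hms _ (hT.T_lt _ hp (2 * i + 1) (by omega)) i hi
    rw [hT.T_odd _ hp i hi] at h2
    show mask (Dd.ap c p / 2) = _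
    rw [h1, h2]
  · rw [adjChk, List.all_eq_true] at hadj
    have h1 := hadj _ (List.mem_range.mpr p.2)
    rw [List.all_eq_true] at h1
    exact Nat.eq_of_beq_eq_true (h1 _ (List.mem_range.mpr q.2))
  · rw [commChk, List.all_eq_true] at hcomm
    ext p
    exact Nat.eq_of_beq_eq_true (hcomm _ (List.mem_range.mpr p.2))

/-- The elements of the kernel of the action on the blocks that preserve the graph. -/
theorem kernel_of_inv (hinj : ∀ c, c < 120 → ∀ c', c' < 120 → mask c = mask c' → c = c') (hexc : excChk adj = true)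
    {P R : ℕ} (htree : treeChk adj P R = true) {k : Equiv.Perm Y} (h : Inv mask adj (1, k)) : k = 1 ∨ k = Zp := by
  have hlt : ∀ p : Y, (p : ℕ) < 240 := fun p => p.2
  have hb : ∀ p : Y, ((k p : Y) : ℕ) = p ∨ ((k p : Y) : ℕ) = flipL p := by
    intro p
    have h1 : mask (((k p : Y) : ℕ) / 2) = (1 : ↥PG) • mask ((p : ℕ) / 2) := h.blk p
    rw [one_smul] at h1
    have h2 := hinj _ (by have := hlt (k p); omega) _ (by have := hlt p; omega) h1
    unfold flipL
    split_ifs <;> omega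
  rw [excChk, List.all_eq_true] at hexc
  have hex : ∀ p q : Y, adj p q = 1 → adj (flipL p) q = 0 ∧ adj p (flipL q) = 0 := by
    intro p q hpq
    have h1 := hexc _ (List.mem_range.mpr p.2)
    rw [List.all_eq_true] at h1
    have h2 := h1 _ (List.mem_range.mpr q.2)
    simp only [Bool.or_eq_true, Bool.and_eq_true] at h2
    rcases h2 with h3 | ⟨h3, h4⟩
    · have h5 := Nat.eq_of_beq_eq_true h3
      omega
    · exact ⟨Nat.eq_of_beq_eq_true h3, Nat.eq_of_beq_eq_true h4⟩
  rw [treeChk, List.all_eq_true] at htree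
  have htr : ∀ p : Y, (p : ℕ) ≠ 0 → ∃ r : Y, fld R 3 7 r < fld R 3 7 p ∧ adj r p = 1 := by
    intro p hp
    have h1 := htree _ (List.mem_range.mpr p.2)
    simp only [Bool.or_eq_true, Bool.and_eq_true, Nat.blt_eq] at h1
    rcases h1 with h2 | ⟨⟨h2, h3⟩, h4⟩
    · exact absurd (Nat.eq_of_beq_eq_true h2) hp
    · exact ⟨⟨fld P 8 255 p, h4⟩, h2, Nat.eq_of_beq_eq_true h3⟩
  -- the propagation along the tree
  have hprop : ∀ (sg : Bool), (((k ⟨0, by decide⟩ : Y) : ℕ) = (if sg then flipL 0 else 0)) →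
      ∀ (n : ℕ) (p : Y), fld R 3 7 p = n → ((k p : Y) : ℕ) = (if sg then flipL p else p) := by
    intro sg h0 n
    induction n using Nat.strong_induction_on with
    | _ n ih =>
      intro p hpn
      by_cases hp0 : (p : ℕ) = 0
      · have : p = ⟨0, by decide⟩ := Fin.ext hp0
        rw [this]
        exact h0
      · obtain ⟨r, hr1, hr2⟩ := htr p hp0
        have h1 := ih _ (hpn ▸ hr1) r rfl
        have h2 := h.adj r p
        have h3 := hex r p hr2
        show _ = _
        rw [hr2] at h2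
        have e1 : (k r : ℕ) = (k r : Y) := rfl
        have h4 : adj (k r) (k p) = 1 := h2
        cases sg with
        | false =>
          simp only [Bool.false_eq_true, if_false] at h1 ⊢
          rw [h1] at h4
          rcases hb p with h5 | h5
          · exact h5
          · rw [h5] at h4
            omega
        | true =>
          simp only [if_true] at h1 ⊢
          rw [h1] at h4
          rcases hb p with h5 | h5
          · rw [h5] at h4
            omega
          · exact h5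
  rcases hb ⟨0, by decide⟩ with h0 | h0
  · left
    ext p
    have h1 := hprop false (by simpa using h0) _ p rfl
    simpa using h1
  · right
    ext p
    have h1 := hprop true (by simpa using h0) _ p rfl
    rw [Zp_val]
    simpa using h1

end Inv

/-! ### The group -/

/-- The lifts of the first side. -/
def lA (i : ℕ) : Equiv.Perm Y :=
  if i = 0 then Dd.permOf lacA laicA valid_lacA else if i = 1 then Dd.permOf lbcA lbicA valid_lbcA else 1

/-- The lifts of the second side. -/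
def lB (i : ℕ) : Equiv.Perm Y :=
  if i = 0 then Dd.permOf lacB laicB valid_lacB else if i = 1 then Dd.permOf lbcB lbicB valid_lbcB else 1

theorem lA_rep : ∀ l, l < 2 * 2 → Dd.Rep (lett lA l) (cLlA l) := by
  intro l hl
  interval_cases l
  · have e : lett lA 0 = Dd.permOf lacA laicA valid_lacA := lett_even lA 0
    rw [e]
    exact Pc.rep_permOf _ _ _
  · have e : lett lA 1 = (Dd.permOf lacA laicA valid_lacA)⁻¹ := lett_odd lA 0
    rw [e]
    exact Pc.rep_permOf_inv _ _ _
  · have e : lett lA 2 = Dd.permOf lbcA lbicA valid_lbcA := lett_even lA 1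
    rw [e]
    exact Pc.rep_permOf _ _ _
  · have e : lett lA 3 = (Dd.permOf lbcA lbicA valid_lbcA)⁻¹ := lett_odd lA 1
    rw [e]
    exact Pc.rep_permOf_inv _ _ _

theorem lB_rep : ∀ l, l < 2 * 2 → Dd.Rep (lett lB l) (cLlB l) := by
  intro l hl
  interval_cases l
  · have e : lett lB 0 = Dd.permOf lacB laicB valid_lacB := lett_even lB 0
    rw [e]
    exact Pc.rep_permOf _ _ _
  · have e : lett lB 1 = (Dd.permOf lacB laicB valid_lacB)⁻¹ := lett_odd lB 0
    rw [e]
    exact Pc.rep_permOf_inv _ _ _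
  · have e : lett lB 2 = Dd.permOf lbcB lbicB valid_lbcB := lett_even lB 1
    rw [e]
    exact Pc.rep_permOf _ _ _
  · have e : lett lB 3 = (Dd.permOf lbcB lbicB valid_lbcB)⁻¹ := lett_odd lB 1
    rw [e]
    exact Pc.rep_permOf_inv _ _ _

theorem lA_pow {i : ℕ} (hi : i < 2) : lA i ^ 7 = 1 := by
  have h0 : evW lA (List.replicate 7 (2 * i + 1)) = 1 := by
    refine Pc.evW_eq_one (m := 2) lA_rep (by simp; omega) ?_
    interval_cases i
    · exact ord_aA
    · exact ord_bA
  rw [evW_replicate, lett_odd, inv_pow, inv_eq_one] at h0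
  exact h0

theorem lB_pow {i : ℕ} (hi : i < 2) : lB i ^ 7 = 1 := by
  have h0 : evW lB (List.replicate 7 (2 * i + 1)) = 1 := by
    refine Pc.evW_eq_one (m := 2) lB_rep (by simp; omega) ?_
    interval_cases i
    · exact ord_aB
    · exact ord_bB
  rw [evW_replicate, lett_odd, inv_pow, inv_eq_one] at h0
  exact h0

theorem sG_pow {i : ℕ} (hi : i < 2) : sG i ^ 7 = 1 := by
  interval_cases i
  · exact sG0_pow
  · exact sG1_pow

/-- The generators of the covering group. -/
def XX (i : ℕ) : ↥PG × Equiv.Perm Y × Equiv.Perm Y := (sG i, lA i, lB i)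

/-- The covering group. -/
abbrev Γ0 : Subgroup (↥PG × Equiv.Perm Y × Equiv.Perm Y) := Subgroup.closure (XX '' Set.Iio 2)

theorem XX_two (i : ℕ) (hi : 2 ≤ i) : XX i = 1 := by
  have h0 : i ≠ 0 := by omega
  have h1 : i ≠ 1 := by omega
  refine Prod.ext (sG_two i hi) (Prod.ext ?_ ?_)
  · show lA i = 1
    rw [lA, if_neg h0, if_neg h1]
  · show lB i = 1
    rw [lB, if_neg h0, if_neg h1]

theorem XX_mem (i : ℕ) : XX i ∈ Γ0 := mem_closure_two XX_two i

/-- The generators as elements of the covering group. -/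
def xx (i : ℕ) : ↥Γ0 := ⟨XX i, XX_mem i⟩

/-- The projection. -/
def σ0 : ↥Γ0 →* ↥PG := (MonoidHom.fst _ _).comp Γ0.subtype

theorem σ0_surj : Function.Surjective σ0 := by
  have h : σ0.range = ⊤ := by
    rw [eq_top_iff, ← sG_gen, Subgroup.closure_le]
    rintro _ ⟨i, _, rfl⟩
    exact ⟨xx i, rfl⟩
  exact MonoidHom.range_eq_top.mp h

/-- The two projections to the sides. -/
def pA : ↥PG × Equiv.Perm Y × Equiv.Perm Y →* ↥PG × Equiv.Perm Y :=
  MonoidHom.prod (MonoidHom.fst _ _) ((MonoidHom.fst _ _).comp (MonoidHom.snd _ _))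

/-- The two projections to the sides. -/
def pB : ↥PG × Equiv.Perm Y × Equiv.Perm Y →* ↥PG × Equiv.Perm Y :=
  MonoidHom.prod (MonoidHom.fst _ _) ((MonoidHom.snd _ _).comp (MonoidHom.snd _ _))

theorem invA_gen {i : ℕ} (hi : i < 2) : Inv mA adjA (pA (XX i)) := by
  have h0 : lA 0 = Dd.permOf lacA laicA valid_lacA := rfl
  have h1 : lA 1 = Dd.permOf lbcA lbicA valid_lbcA := rfl
  show Inv mA adjA (sG i, lA i)
  interval_cases i
  · rw [h0]
    exact inv_of_code tab0 mA_smul (i := 0) (by norm_num) _ blk_aA adj_aA comm_aA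
  · rw [h1]
    exact inv_of_code tab0 mA_smul (i := 1) (by norm_num) _ blk_bA adj_bA comm_bA

theorem invB_gen {i : ℕ} (hi : i < 2) : Inv mB adjB (pB (XX i)) := by
  have h0 : lB 0 = Dd.permOf lacB laicB valid_lacB := rfl
  have h1 : lB 1 = Dd.permOf lbcB lbicB valid_lbcB := rfl
  show Inv mB adjB (sG i, lB i)
  interval_cases i
  · rw [h0]
    exact inv_of_code tab0B mB_smul (i := 0) (by norm_num) _ blk_aB adj_aB comm_aB
  · rw [h1]
    exact inv_of_code tab0B mB_smul (i := 1) (by norm_num) _ blk_bB adj_bB comm_bB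

theorem invA_all {l : ↥PG × Equiv.Perm Y × Equiv.Perm Y} (hl : l ∈ Γ0) : Inv mA adjA (pA l) := by
  induction hl using Subgroup.closure_induction with
  | mem z hz =>
    obtain ⟨i, hi, rfl⟩ := hz
    exact invA_gen hi
  | one => rw [map_one]; exact Inv.one
  | mul a b _ _ ha hb => rw [map_mul]; exact ha.mul hb
  | inv a _ ha => rw [map_inv]; exact ha.inv

theorem invB_all {l : ↥PG × Equiv.Perm Y × Equiv.Perm Y} (hl : l ∈ Γ0) : Inv mB adjB (pB l) := by
  induction hl using Subgroup.closure_induction with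
  | mem z hz =>
    obtain ⟨i, hi, rfl⟩ := hz
    exact invB_gen hi
  | one => rw [map_one]; exact Inv.one
  | mul a b _ _ ha hb => rw [map_mul]; exact ha.mul hb
  | inv a _ ha => rw [map_inv]; exact ha.inv

section Ker

variable (hc : Nat.card ↥PG = 174182400)

include hc in
theorem ker_cases (l : ↥Γ0) (hl : l ∈ σ0.ker) :
    (l : ↥PG × Equiv.Perm Y × Equiv.Perm Y).1 = 1 ∧
    ((l : ↥PG × Equiv.Perm Y × Equiv.Perm Y).2.1 = 1 ∨ (l : ↥PG × Equiv.Perm Y × Equiv.Perm Y).2.1 = Zp) ∧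
    ((l : ↥PG × Equiv.Perm Y × Equiv.Perm Y).2.2 = 1 ∨ (l : ↥PG × Equiv.Perm Y × Equiv.Perm Y).2.2 = Zp) := by
  have h1 : (l : ↥PG × Equiv.Perm Y × Equiv.Perm Y).1 = 1 := hl
  refine ⟨h1, ?_, ?_⟩
  · refine kernel_of_inv (mask := mA) (adj := adjA) (mA_inj hc) exc_A tree_A ?_
    have h2 := invA_all l.2
    have e : pA (l : ↥PG × Equiv.Perm Y × Equiv.Perm Y) = (1, (l : ↥PG × Equiv.Perm Y × Equiv.Perm Y).2.1) :=
      Prod.ext h1 rfl
    rwa [e] at h2
  · refine kernel_of_inv (mask := mB) (adj := adjB) (mB_inj hc) exc_B tree_B ?_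
    have h2 := invB_all l.2
    have e : pB (l : ↥PG × Equiv.Perm Y × Equiv.Perm Y) = (1, (l : ↥PG × Equiv.Perm Y × Equiv.Perm Y).2.2) :=
      Prod.ext h1 rfl
    rwa [e] at h2

include hc in
/-- The extension is a stem extension. -/
theorem stem0 : IsStemExtension σ0 := by
  refine ⟨σ0_surj, ?_, ?_⟩
  · intro l hl
    obtain ⟨h1, h2, h3⟩ := ker_cases hc l hl
    rw [Subgroup.mem_center_iff]
    intro g
    apply Subtype.ext
    have hA := (invA_all g.2).comm
    have hB := (invB_all g.2).comm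
    refine Prod.ext ?_ (Prod.ext ?_ ?_)
    · show (g : ↥PG × Equiv.Perm Y × Equiv.Perm Y).1 * (l : ↥PG × Equiv.Perm Y × Equiv.Perm Y).1 =
        (l : ↥PG × Equiv.Perm Y × Equiv.Perm Y).1 * (g : ↥PG × Equiv.Perm Y × Equiv.Perm Y).1
      rw [h1, one_mul, mul_one]
    · show (g : ↥PG × Equiv.Perm Y × Equiv.Perm Y).2.1 * (l : ↥PG × Equiv.Perm Y × Equiv.Perm Y).2.1 =
        (l : ↥PG × Equiv.Perm Y × Equiv.Perm Y).2.1 * (g : ↥PG × Equiv.Perm Y × Equiv.Perm Y).2.1
      rcases h2 with h | h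
      · rw [h, one_mul, mul_one]
      · rw [h]
        exact hA.eq.symm
    · show (g : ↥PG × Equiv.Perm Y × Equiv.Perm Y).2.2 * (l : ↥PG × Equiv.Perm Y × Equiv.Perm Y).2.2 =
        (l : ↥PG × Equiv.Perm Y × Equiv.Perm Y).2.2 * (g : ↥PG × Equiv.Perm Y × Equiv.Perm Y).2.2
      rcases h3 with h | h
      · rw [h, one_mul, mul_one]
      · rw [h]
        exact hB.eq.symm
  · intro l hl
    obtain ⟨h1, h2, h3⟩ := ker_cases hc l hl
    refine Cfsg.Agent.Lib.SchurCover46.mem_commutator_of_gens (XX '' Set.Iio 2) (n := 7) (t := 2) ?_ (by norm_num) l ?_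
    · rintro _ ⟨i, hi, rfl⟩
      have hi' : i < 2 := hi
      exact Prod.ext (sG_pow hi') (Prod.ext (lA_pow hi') (lB_pow hi'))
    · apply Subtype.ext
      refine Prod.ext ?_ (Prod.ext ?_ ?_)
      · show (l : ↥PG × Equiv.Perm Y × Equiv.Perm Y).1 ^ 2 = 1
        rw [h1, one_pow]
      · show (l : ↥PG × Equiv.Perm Y × Equiv.Perm Y).2.1 ^ 2 = 1
        rcases h2 with h | h
        · rw [h, one_pow]
        · rw [h, pow_two, Zp_sq]
      · show (l : ↥PG × Equiv.Perm Y × Equiv.Perm Y).2.2 ^ 2 = 1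
        rcases h3 with h | h
        · rw [h, one_pow]
        · rw [h, pow_two, Zp_sq]

end Ker

/-! ### The kernel -/

/-- The value of a word. -/
theorem coe_evW (w : List ℕ) : ((evW xx w : ↥Γ0) : ↥PG × Equiv.Perm Y × Equiv.Perm Y) = evW XX w :=
  map_evW Γ0.subtype xx w

theorem evW_fst (w : List ℕ) : (evW XX w).1 = evW sG w := map_evW (MonoidHom.fst _ _) XX w

theorem evW_snd1 (w : List ℕ) : (evW XX w).2.1 = evW lA w :=
  map_evW ((MonoidHom.fst (Equiv.Perm Y) (Equiv.Perm Y)).comp (MonoidHom.snd ↥PG (Equiv.Perm Y × Equiv.Perm Y))) XX w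

theorem evW_snd2 (w : List ℕ) : (evW XX w).2.2 = evW lB w :=
  map_evW ((MonoidHom.snd (Equiv.Perm Y) (Equiv.Perm Y)).comp (MonoidHom.snd ↥PG (Equiv.Perm Y × Equiv.Perm Y))) XX w

/-- All letters of the first word are letters. -/
theorem wz1_lt : ∀ l ∈ wz1, l < 2 * 2 := by decide

/-- All letters of the second word are letters. -/
theorem wz2_lt : ∀ l ∈ wz2, l < 2 * 2 := by decide

theorem z1_val : evW XX wz1 = (1, Zp, 1) := by
  refine Prod.ext ?_ (Prod.ext ?_ ?_)
  · rw [evW_fst]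
    exact evW_one_of_chk ι0 ι0_inj hLG wz1_lt wz1_G
  · rw [evW_snd1]
    exact rep_ext (Pc.rep_of_eqW (m := 2) lA_rep wz1_lt wz1_A) (Pc.rep_permOf _ _ validZ)
  · rw [evW_snd2]
    exact Pc.evW_eq_one (m := 2) lB_rep wz1_lt wz1_B

theorem z2_val : evW XX wz2 = (1, 1, Zp) := by
  refine Prod.ext ?_ (Prod.ext ?_ ?_)
  · rw [evW_fst]
    exact evW_one_of_chk ι0 ι0_inj hLG wz2_lt wz2_G
  · rw [evW_snd1]
    exact Pc.evW_eq_one (m := 2) lA_rep wz2_lt wz2_A
  · rw [evW_snd2]
    exact rep_ext (Pc.rep_of_eqW (m := 2) lB_rep wz2_lt wz2_B) (Pc.rep_permOf _ _ validZ)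

open Classical in
/-- The coordinate of an element of the kernel. -/
noncomputable def dc (k : Equiv.Perm Y) : ZMod 2 := if k = 1 then 0 else 1

theorem dc_mul {a b : Equiv.Perm Y} (ha : a = 1 ∨ a = Zp) (hb : b = 1 ∨ b = Zp) : dc (a * b) = dc a + dc b := by
  rcases ha with rfl | rfl <;> rcases hb with rfl | rfl
  · simp [dc]
  · simp [dc]
  · simp [dc]
  · rw [Zp_sq]
    simp only [dc, if_true, if_neg Zp_ne]
    decide

section Equiv

variable (hc : Nat.card ↥PG = 174182400)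

/-- The map of the kernel. -/
noncomputable def kerMap : σ0.ker →* Multiplicative (ZMod 2 × ZMod 2) :=
  MonoidHom.mk' (fun l => Multiplicative.ofAdd (dc (l.1.1.2.1), dc (l.1.1.2.2))) (by
    intro a b
    have h := fun (l : σ0.ker) => ker_cases hc l.1 l.2
    show Multiplicative.ofAdd (dc (a.1.1.2.1 * b.1.1.2.1), dc (a.1.1.2.2 * b.1.1.2.2)) = _
    rw [dc_mul (h a).2.1 (h b).2.1, dc_mul (h a).2.2 (h b).2.2]
    rfl)

theorem kerMap_bij : Function.Bijective (kerMap hc) := by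
  have h := fun (l : σ0.ker) => ker_cases hc l.1 l.2
  constructor
  · rw [injective_iff_map_eq_one]
    intro l hl
    have h1 : dc (l.1.1.2.1) = 0 ∧ dc (l.1.1.2.2) = 0 := by
      have h2 : ((dc (l.1.1.2.1), dc (l.1.1.2.2)) : ZMod 2 × ZMod 2) = 0 := hl
      exact ⟨congrArg Prod.fst h2, congrArg Prod.snd h2⟩
    have h3 : ∀ a : Equiv.Perm Y, dc a = 0 → a = 1 := by
      intro a ha
      by_contra hne
      rw [dc, if_neg hne] at ha
      exact one_ne_zero ha
    apply Subtype.ext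
    apply Subtype.ext
    exact Prod.ext (h l).1 (Prod.ext (h3 _ h1.1) (h3 _ h1.2))
  · have e0 : dc 1 = 0 := by simp [dc]
    have e1 : dc Zp = 1 := by simp [dc, Zp_ne]
    let z1 : σ0.ker := ⟨evW xx wz1, by
      show (evW xx wz1 : ↥Γ0).1.1 = 1
      rw [coe_evW, z1_val]⟩
    let z2 : σ0.ker := ⟨evW xx wz2, by
      show (evW xx wz2 : ↥Γ0).1.1 = 1
      rw [coe_evW, z2_val]⟩
    have v1 : kerMap hc z1 = Multiplicative.ofAdd ((1, 0) : ZMod 2 × ZMod 2) := by
      show Multiplicative.ofAdd (dc (evW xx wz1 : ↥Γ0).1.2.1, dc (evW xx wz1 : ↥Γ0).1.2.2) = _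
      rw [coe_evW, z1_val]
      show Multiplicative.ofAdd (dc Zp, dc 1) = _
      rw [e0, e1]
    have v2 : kerMap hc z2 = Multiplicative.ofAdd ((0, 1) : ZMod 2 × ZMod 2) := by
      show Multiplicative.ofAdd (dc (evW xx wz2 : ↥Γ0).1.2.1, dc (evW xx wz2 : ↥Γ0).1.2.2) = _
      rw [coe_evW, z2_val]
      show Multiplicative.ofAdd (dc 1, dc Zp) = _
      rw [e0, e1]
    have key : ∀ y : ZMod 2 × ZMod 2, ∃ l : σ0.ker, kerMap hc l = Multiplicative.ofAdd y := by
      rintro ⟨a, b⟩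
      have ha : a = 0 ∨ a = 1 := by revert a; decide
      have hb : b = 0 ∨ b = 1 := by revert b; decide
      rcases ha with rfl | rfl <;> rcases hb with rfl | rfl
      · exact ⟨1, map_one _⟩
      · exact ⟨z2, v2⟩
      · exact ⟨z1, v1⟩
      · refine ⟨z1 * z2, ?_⟩
        rw [map_mul, v1, v2]
        rfl
    intro y
    exact key (Multiplicative.toAdd y)

/-- The kernel. -/
noncomputable def kerEquiv : σ0.ker ≃* Multiplicative (ZMod 2 × ZMod 2) :=
  MulEquiv.ofBijective (kerMap hc) (kerMap_bij hc)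

end Equiv

end Cfsg.Agent.Lib.O8Cover46
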