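import Cfsg.Prelude.Def_SporCoxeter

/-! A presentation of the first Janko group on two generators. -/

set_option autoImplicit false

namespace Cfsg.Agent.Lib.OJ1Pres

/-- The generators. -/
inductive Gen
  | x
  | y
  deriving DecidableEq

/-- the first generator as a word -/ abbrev x : FreeGroup Gen := FreeGroup.of Gen.x
/-- the second generator as a word -/ abbrev y : FreeGroup Gen := FreeGroup.of Gen.y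

/-- no graph -/
def edges : List (Gen × ℕ × Gen) := []

/-- the relators -/
def extra : List (FreeGroup Gen) := [
  x ^ 2,
  y ^ 3,
  (x * y⁻¹) ^ 7,
  (x * y * x * y⁻¹ * x * y * x * y⁻¹ * x * y * x * y⁻¹ * x * y⁻¹) ^ 5,
  (x * y * x * y⁻¹) ^ 19,
  (x * y * x * y⁻¹ * x * y⁻¹ * x * y * x * y⁻¹ * x * y⁻¹ * x * y * x * y * x * y⁻¹ * x * y) ^ 11,
  (y⁻¹ * x⁻¹ * y * x⁻¹ * y⁻¹ * x⁻¹ * y⁻¹ * x⁻¹ * y * x⁻¹ * y * x⁻¹ * y⁻¹ * x⁻¹ * y * x⁻¹ * y * x⁻¹ * y⁻¹ * x⁻¹ * y) ^ 3,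
  (y⁻¹ * x⁻¹ * y * x⁻¹ * y⁻¹ * x⁻¹ * y⁻¹ * x⁻¹ * y * x⁻¹ * y * x⁻¹ * y⁻¹ * x⁻¹ * y * x⁻¹ * y * x⁻¹ * y⁻¹ * x⁻¹ * y⁻¹) ^ 5,
  ((x * y * x * y⁻¹ * x * y⁻¹ * x * y * x * y⁻¹ * x * y⁻¹ * x * y * x * y * x * y⁻¹ * x * y * y) ^ 3 * (y⁻¹ * x⁻¹ * y * x⁻¹ * y⁻¹ * x⁻¹ * y⁻¹ * x⁻¹ * y * x⁻¹ * y * x⁻¹ * y⁻¹ * x⁻¹ * y * x⁻¹ * y * x⁻¹ * y⁻¹ * x⁻¹ * y⁻¹) ^ 2) ^ 2 ]

end Cfsg.Agent.Lib.OJ1Pres
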