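import Cfsg.Agent.Lib.OM11CTab

set_option autoImplicit false
set_option maxRecDepth 100000
set_option Elab.async false

namespace Cfsg.Agent.Lib.OM11CSt3

open Cfsg.Agent.Lib.ChainCert Cfsg.Agent.Lib.ProgBits Cfsg.Agent.Lib.ProgChain Cfsg.Agent.Lib.PermChain Cfsg.Agent.Lib.TcBits
open Cfsg.Agent.Lib.OM11CTab

theorem st3_5_0 : allR (guard Pst3 (nat_lit 22)) 5 (nat_lit 0) = true := by decide +kernel
theorem st3_all : ∀ i, i < (nat_lit 22) → Pst3 i = true := of_guard (k := 5) (by norm_num) st3_5_0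

end Cfsg.Agent.Lib.OM11CSt3
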