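import Cfsg.Agent.Lib.OM11CChk
import Cfsg.Agent.Lib.OM11CSt0
import Cfsg.Agent.Lib.OM11CSt1
import Cfsg.Agent.Lib.OM11CSt2
import Cfsg.Agent.Lib.OM11CSt3

set_option autoImplicit false
set_option maxRecDepth 100000
set_option linter.unusedSectionVars false

/-! Generated file: the chain and the order of the group. -/

namespace Cfsg.Agent.Lib.OM11CMain

open Cfsg.Agent.Lib.ChainCert Cfsg.Agent.Lib.ProgBits Cfsg.Agent.Lib.ProgChain Cfsg.Agent.Lib.PermChain Cfsg.Agent.Lib.TcBits
open Cfsg.Agent.Lib.OM11CTab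
open Cfsg.Agent.Lib.OM11CChk Cfsg.Agent.Lib.OM11CSt0 Cfsg.Agent.Lib.OM11CSt1 Cfsg.Agent.Lib.OM11CSt2 Cfsg.Agent.Lib.OM11CSt3

theorem hN : nat_lit 16 = 2 ^ 4 := by norm_num
theorem hM : M = 2 ^ 11 - 1 := by decide +kernel
theorem hR : R = repU 16 4 := by decide +kernel
theorem hY : Y = yId 4 := by decide +kernel
theorem htot : ∀ e, 25 ≤ e → pr e = [] := by
  intro e he
  rw [pr, show Nat.ble ((nat_lit 25)) e = true from Nat.ble_eq_true_of_le he]
  rfl

/-- the context -/
theorem ctx : Ctx 11 4 pr R Y :=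
  ctx_mk' (N := (nat_lit 16)) (M := M) (tot := 25) (by norm_num) hN hM hR hY let_all htot

/-- the letters -/
noncomputable abbrev g : ℕ → Equiv.Perm (Fin 11) := lp pr 11

theorem hOb3 : Om3.testBit 3 = true := by decide +kernel
theorem hroot3 : tw3 3 = [] := by decide +kernel
theorem lev3 : (∀ e, 19 ≤ e → g e ∈ grp g 19 2) ∧
    Level (grp g 19 2) (grp g 25 0) ⟨3, by norm_num⟩
      (fun p => prodW g (tw3 p.val)) (orbF 11 Om3) :=
  level_bundle ctx (lo := 19) (ns := 2) (hi := 25) (ns' := 0) (b := 3) (Om := Om3) (tw := tw3) (st := stE3) (der := derT) (wA := certA) (wB := certB) (by norm_num)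
    der3_all cert3_all fix3_all img3_all hOb3 hroot3 st3_all (letters_bottom ctx htot)
theorem cOm3 : (orbF 11 Om3).card = 8 := by
  rw [card_orbF]; decide +kernel
theorem hOb2 : Om2.testBit 2 = true := by decide +kernel
theorem hroot2 : tw2 2 = [] := by decide +kernel
theorem lev2 : (∀ e, 13 ≤ e → g e ∈ grp g 13 2) ∧
    Level (grp g 13 2) (grp g 19 2) ⟨2, by norm_num⟩
      (fun p => prodW g (tw2 p.val)) (orbF 11 Om2) :=
  level_bundle ctx (lo := 13) (ns := 2) (hi := 19) (ns' := 2) (b := 2) (Om := Om2) (tw := tw2) (st := stE2) (der := derT) (wA := certA) (wB := certB) (by norm_num)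
    der2_all cert2_all fix2_all img2_all hOb2 hroot2 st2_all (lev3).1
theorem cOm2 : (orbF 11 Om2).card = 9 := by
  rw [card_orbF]; decide +kernel
theorem hOb1 : Om1.testBit 1 = true := by decide +kernel
theorem hroot1 : tw1 1 = [] := by decide +kernel
theorem lev1 : (∀ e, 7 ≤ e → g e ∈ grp g 7 2) ∧
    Level (grp g 7 2) (grp g 13 2) ⟨1, by norm_num⟩
      (fun p => prodW g (tw1 p.val)) (orbF 11 Om1) :=
  level_bundle ctx (lo := 7) (ns := 2) (hi := 13) (ns' := 2) (b := 1) (Om := Om1) (tw := tw1) (st := stE1) (der := derT) (wA := certA) (wB := certB) (by norm_num)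
    der1_all cert1_all fix1_all img1_all hOb1 hroot1 st1_all (lev2).1
theorem cOm1 : (orbF 11 Om1).card = 10 := by
  rw [card_orbF]; decide +kernel
theorem hOb0 : Om0.testBit 0 = true := by decide +kernel
theorem hroot0 : tw0 0 = [] := by decide +kernel
theorem lev0 : (∀ e, 0 ≤ e → g e ∈ grp g 0 2) ∧
    Level (grp g 0 2) (grp g 7 2) ⟨0, by norm_num⟩
      (fun p => prodW g (tw0 p.val)) (orbF 11 Om0) :=
  level_bundle ctx (lo := 0) (ns := 2) (hi := 7) (ns' := 2) (b := 0) (Om := Om0) (tw := tw0) (st := stE0) (der := derT) (wA := certA) (wB := certB) (by norm_num)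
    der0_all cert0_all fix0_all img0_all hOb0 hroot0 st0_all (lev1).1
theorem cOm0 : (orbF 11 Om0).card = 11 := by
  rw [card_orbF]; decide +kernel
theorem cardH4 : Nat.card (grp g 25 0) = 1 := by
  rw [grp_zero]; simp
theorem cardH3 : Nat.card (grp g 19 2) = 8 := by
  rw [(lev3).2.card, cOm3, cardH4]
theorem cardH2 : Nat.card (grp g 13 2) = 72 := by
  rw [(lev2).2.card, cOm2, cardH3]
theorem cardH1 : Nat.card (grp g 7 2) = 720 := by
  rw [(lev1).2.card, cOm1, cardH2]
theorem cardH0 : Nat.card (grp g 0 2) = 7920 := by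
  rw [(lev0).2.card, cOm0, cardH1]

theorem hOm : Om0 = 2 ^ 11 - 1 := by decide +kernel
theorem hsz : ∀ c, c < 2 → cntB (fun i => Nat.beq (colT i) c) 11 = szT c := by decide +kernel
theorem hsums : ∀ S ∈ (Finset.range 2).powerset, 0 ∈ S →
      (∑ c ∈ S, szT c) ∣ 11 → (∑ c ∈ S, szT c) = 1 ∨ (∑ c ∈ S, szT c) = 11 := by decide +kernel
theorem hb0 : colT 0 = 0 := by decide +kernel
/-- the conjugating word -/
def Wc : List ℕ := [1, 14, 19]
theorem hconj : ProgBits.wChk R Y pr (Wc ++ [0]) (1 :: Wc) = true := by decide +kernel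
theorem hap : ProgBits.wChk R Y pr (List.replicate 11 0) [] = true := by decide +kernel
theorem huv : ptChk pr [0] 5 0 = true := by decide +kernel

/-- the group is simple -/
theorem simple_top : IsSimpleGroup (grp g 0 2) :=
  simple_bundle ctx (lo1 := 7) (ns1 := 2) (r := 2) (p := 11) (b := 0) (by norm_num)
    (lev0).2 hOm (lev0).1 (lev1).1 tree_all colc_all hb0 hsz hsums (by norm_num)
    (by rw [cardH1]; norm_num) hconj hap (u := ⟨0, by norm_num⟩) (v := ⟨5, by norm_num⟩) huv
    (by decide)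

end Cfsg.Agent.Lib.OM11CMain
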