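import Cfsg.Prelude.Def_SporCoxeter

/-! A presentation of the Mathieu group of degree eleven on two generators. -/

set_option autoImplicit false

namespace Cfsg.Agent.Lib.OM11Pres

/-- The generators. -/
inductive Gen
  | x
  | y
  deriving DecidableEq

/-- the first generator as a word -/ abbrev x : FreeGroup Gen := FreeGroup.of Gen.x
/-- the second generator as a word -/ abbrev y : FreeGroup Gen := FreeGroup.of Gen.y

/-- no graph -/
def edges : List (Gen × ℕ × Gen) := []

/-- the relators -/
def extra : List (FreeGroup Gen) := [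
  x ^ 2,
  y ^ 4,
  (x * y) ^ 11,
  (x * y * y) ^ 6,
  x * y * x * y * x * y⁻¹ * x * y * x * y * y * x * y⁻¹ * x * y * x * y⁻¹ * x * y⁻¹ ]

end Cfsg.Agent.Lib.OM11Pres
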