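import Mathlib

/-!
# A central extension presented up to a central subgroup

If the relators of a simple group `Γ` of non-prime order take values in a cyclic central subgroup `⟨z⟩`,
then the image `H` of the free group has centre `⟨z⟩` and `H / Z(H) ≃ Γ`.
-/

set_option autoImplicit false

namespace Cfsg.Agent.Lib.ON45Abs

variable {S : Type*} [Group S] {α : Type*}

/-- The abstract statement. -/
theorem center_quot (sf : α → S) {R : Set (FreeGroup α)} (z : S) (hzc : ∀ x : S, x * z = z * x)
    (hz3 : orderOf z = 3) (hrel : ∀ r ∈ R, FreeGroup.lift sf r ∈ Subgroup.zpowers z)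
    (hzH : z ∈ (FreeGroup.lift sf).range) [hs : IsSimpleGroup (PresentedGroup R)]
    (hnp : ¬ (Nat.card (PresentedGroup R)).Prime) (x₀ : α) (hx₀ : sf x₀ ∉ Subgroup.zpowers z) :
    ∃ H : Subgroup S, Nat.card (Subgroup.center H) = 3 ∧
      Nonempty ((H ⧸ Subgroup.center H) ≃* PresentedGroup R) := by
  classical
  set K : Subgroup S := Subgroup.zpowers z with hK
  have hzcen : z ∈ Subgroup.center S := Subgroup.mem_center_iff.mpr hzc
  have hKcen : K ≤ Subgroup.center S := (Subgroup.zpowers_le).mpr hzcen
  have hKn : K.Normal := ⟨fun n hn g => by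
    have h1 : g * n = n * g := Subgroup.mem_center_iff.mp (hKcen hn) g
    rw [h1, mul_inv_cancel_right]
    exact hn⟩
  let q : S →* S ⧸ K := QuotientGroup.mk' K
  let φ : FreeGroup α →* S := FreeGroup.lift sf
  have hq : ∀ x : S, q x = 1 ↔ x ∈ K := fun x => QuotientGroup.eq_one_iff x
  have hcomp : ∀ r, FreeGroup.lift (fun x => q (sf x)) r = q (φ r) := by
    intro r
    have : FreeGroup.lift (fun x => q (sf x)) = q.comp φ := by
      ext x
      simp [φ]
    rw [this]
    rfl
  have hR : ∀ r ∈ R, FreeGroup.lift (fun x => q (sf x)) r = 1 := by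
    intro r hr
    rw [hcomp, hq]
    exact hrel r hr
  let θ : PresentedGroup R →* S ⧸ K := PresentedGroup.toGroup hR
  have hθmk : ∀ r, θ (QuotientGroup.mk r) = q (φ r) := by
    intro r
    rw [← hcomp]
    rfl
  have hmk : ∀ y : PresentedGroup R, ∃ r : FreeGroup α, (QuotientGroup.mk r : PresentedGroup R) = y :=
    fun y => QuotientGroup.mk_surjective y
  have hθ : Function.Injective θ := by
    rw [injective_iff_map_eq_one]
    have hN : θ.ker.Normal := inferInstance
    rcases hN.eq_bot_or_eq_top with h | h
    · intro a ha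
      have : a ∈ θ.ker := ha
      rw [h] at this
      simpa using this
    · exfalso
      have h1 : (QuotientGroup.mk (FreeGroup.of x₀) : PresentedGroup R) ∈ θ.ker := by rw [h]; trivial
      have h2 : θ (QuotientGroup.mk (FreeGroup.of x₀)) = 1 := h1
      rw [hθmk, hq] at h2
      apply hx₀
      simpa [φ] using h2
  let H : Subgroup S := φ.range
  have hKH : K ≤ H := (Subgroup.zpowers_le).mpr hzH
  let f : H →* S ⧸ K := q.comp H.subtype
  have hfθ : ∀ h : H, ∃ y, θ y = f h := by
    rintro ⟨_, r, rfl⟩
    exact ⟨QuotientGroup.mk r, hθmk r⟩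
  have hθf : ∀ y, ∃ h : H, f h = θ y := by
    intro y
    obtain ⟨r, rfl⟩ := hmk y
    exact ⟨⟨φ r, r, rfl⟩, (hθmk r).symm⟩
  have hrange : f.range = θ.range := by
    ext w
    constructor
    · rintro ⟨h, rfl⟩
      obtain ⟨y, hy⟩ := hfθ h
      exact ⟨y, hy⟩
    · rintro ⟨y, rfl⟩
      obtain ⟨h, hh⟩ := hθf y
      exact ⟨h, hh⟩
  have hcen : Subgroup.center H = f.ker := by
    ext h
    constructor
    · intro hh
      rw [MonoidHom.mem_ker]
      by_contra hne
      obtain ⟨y, hy⟩ := hfθ h
      have hy1 : y ≠ 1 := by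
        rintro rfl
        apply hne
        rw [← hy, map_one]
      have hyc : y ∈ Subgroup.center (PresentedGroup R) := by
        rw [Subgroup.mem_center_iff]
        intro u
        apply hθ
        obtain ⟨h', hh'⟩ := hθf u
        rw [map_mul, map_mul, hy, ← hh', ← map_mul, ← map_mul]
        congr 1
        exact Subgroup.mem_center_iff.mp hh h'
      have hN : (Subgroup.center (PresentedGroup R)).Normal := inferInstance
      rcases hN.eq_bot_or_eq_top with h0 | h0
      · rw [h0] at hyc
        exact hy1 (by simpa using hyc)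
      · have hcomm : ∀ a b : PresentedGroup R, a * b = b * a := by
          intro a b
          have : b ∈ Subgroup.center (PresentedGroup R) := by rw [h0]; trivial
          exact (Subgroup.mem_center_iff.mp this a)
        letI inst : CommGroup (PresentedGroup R) := { (inferInstance : Group (PresentedGroup R)) with mul_comm := hcomm }
        apply hnp
        exact @IsSimpleGroup.prime_card (PresentedGroup R) inst hs
    · intro hh
      rw [MonoidHom.mem_ker] at hh
      have h1 : (h : S) ∈ K := (hq _).mp hh
      rw [Subgroup.mem_center_iff]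
      intro g
      apply Subtype.ext
      exact Subgroup.mem_center_iff.mp (hKcen h1) g
  have hkerK : f.ker = K.subgroupOf H := by
    ext h
    rw [MonoidHom.mem_ker, Subgroup.mem_subgroupOf]
    exact hq _
  refine ⟨H, ?_, ?_⟩
  · rw [hcen, hkerK]
    have e1 : Nat.card (K.subgroupOf H) = Nat.card K := Nat.card_congr (Subgroup.subgroupOfEquivOfLe hKH).toEquiv
    rw [e1, hK, Nat.card_zpowers, hz3]
  · refine ⟨((QuotientGroup.quotientMulEquivOfEq hcen).trans (QuotientGroup.quotientKerEquivRange f)).trans
      ((MulEquiv.subgroupCongr hrange).trans (MonoidHom.ofInjective hθ).symm)⟩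

end Cfsg.Agent.Lib.ON45Abs
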