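import Mathlib
import Cfsg.Agent.Lib.ON45Tab

/-!
# The relators of O'Nan's group on the forty-five dimensional matrices
-/

set_option autoImplicit false
set_option maxRecDepth 1000000
set_option linter.all false

namespace Cfsg.Agent.Lib.ON45Rel

open Cfsg.Agent.Lib.MatPack36 Cfsg.Agent.Lib.ON45Tab

/-- The nodes of the graph. -/
def nodes : List Cfsg.Spor.ON.Gen := [.a, .b, .c, .d, .e, .f]

set_option Elab.async false in
theorem cox : ∀ x ∈ nodes, ∀ y ∈ nodes,
    evF 7 45 Ms (((FreeGroup.of x * FreeGroup.of y) ^ Cfsg.Spor.coxLabel Cfsg.Spor.ON.edges x y).toWord.map idx)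
      (idL 45) = idL 45 := by
  decide +kernel

set_option Elab.async false in
theorem extra : ∀ r ∈ Cfsg.Spor.ON.extra,
    evF 7 45 Ms (r.toWord.map idx) (idL 45) = idL 45 ∨ evF 7 45 Ms (r.toWord.map idx) (idL 45) = sc := by
  decide +kernel

set_option Elab.async false in
theorem zw : evF 7 45 Ms (((FreeGroup.of Cfsg.Spor.ON.Gen.b * FreeGroup.of Cfsg.Spor.ON.Gen.c *
    FreeGroup.of Cfsg.Spor.ON.Gen.d * FreeGroup.of Cfsg.Spor.ON.Gen.g) ^ 5).toWord.map idx) (idL 45) = sc := by
  decide +kernel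

set_option Elab.async false in
theorem w_ab : evF 7 45 Ms [0, 1, 0, 1, 0, 1] (idL 45) = idL 45 := by decide +kernel
set_option Elab.async false in
theorem w_bc : evF 7 45 Ms [1, 2, 1, 2, 1, 2] (idL 45) = idL 45 := by decide +kernel
set_option Elab.async false in
theorem w_de : evF 7 45 Ms [3, 4, 3, 4, 3, 4] (idL 45) = idL 45 := by decide +kernel
set_option Elab.async false in
theorem w_ef : evF 7 45 Ms [4, 5, 4, 5, 4, 5] (idL 45) = idL 45 := by decide +kernel
set_option Elab.async false in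
theorem w_afgg : evF 7 45 Ms [0, 5, 7, 7] (idL 45) = idL 45 := by decide +kernel
set_option Elab.async false in
theorem w5 : evF 7 45 Ms [1, 2, 3, 6, 1, 2, 3, 6, 1, 2, 3, 6, 1, 2, 3, 6, 1, 2, 3, 6] (idL 45) = sc := by
  decide +kernel
set_option Elab.async false in
theorem w6 : evF 7 45 Ms [6, 1, 2, 6, 2, 1, 6, 1, 2, 6, 2] (idL 45) = sc := by decide +kernel

end Cfsg.Agent.Lib.ON45Rel
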