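import Mathlib
import Cfsg.Agent.Lib.ON45Rel
import Cfsg.Agent.Lib.ON45Abs
import Cfsg.Prelude.Def_Sporadic

/-!
# The triple cover of O'Nan's group in the special linear group of degree 45 over the field with seven elements
-/

set_option autoImplicit false
set_option maxRecDepth 100000

namespace Cfsg.Agent.Lib.ON45Main

open Cfsg.Agent.Lib.MatPack36 Cfsg.Agent.Lib.ON45Tab Cfsg.Agent.Lib.ON45Rel

/-- The matrix ring. -/
abbrev M45 := Matrix (Fin 45) (Fin 45) (ZMod 7)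
/-- The special linear group. -/
abbrev SLG := Matrix.SpecialLinearGroup (Fin 45) (ZMod 7)

theorem h7 : (1 : ℕ) < 7 := by norm_num
theorem h7' : (7 : ℕ) ≤ 65536 := by norm_num
theorem hbd : 45 * (7 - 1) * (7 - 1) < 65536 := by norm_num

theorem Ms_ge {i : ℕ} (hi : 8 ≤ i) : Ms i = idL 45 := by
  unfold Ms
  rw [List.getD_eq_default _ _ (by simp; omega)]

theorem vmMs (i : ℕ) : VM 45 7 (Ms i) := by
  by_cases hi : i < 8
  · have h := hVal i hi
    exact ⟨h.1, fun R hR => vr_iff (by norm_num) h7' (h.2 R hR)⟩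
  · rw [Ms_ge (by omega)]
    exact vm_idL h7

theorem vmSc : VM 45 7 sc := ⟨hSc.1, fun R hR => vr_iff (by norm_num) h7' (hSc.2 R hR)⟩

/-- The matrix of a letter. -/
def T (i : ℕ) : M45 := toM 45 7 (Ms i)

theorem word_val {w E : List ℕ} (h : evF 7 45 Ms w (idL 45) = E) : (w.map T).prod = toM 45 7 E := by
  have := (evF_spec (by norm_num) h7' hbd vmMs w (vm_idL h7)).2
  rw [h, toM_idL, one_mul] at this
  exact this.symm

theorem toM_sc : toM 45 7 sc = (2 : ZMod 7) • (1 : M45) := by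
  ext i j
  show ((dg (sc.getD i 0) j : ℕ) : ZMod 7) = _
  rw [hScE i i.2 j j.2, Matrix.smul_apply, Matrix.one_apply]
  by_cases h : i = j
  · subst h
    simp
  · have h' : (i : ℕ) ≠ j := fun e => h (Fin.ext e)
    simp [h, h']

theorem det_sc : Matrix.det (toM 45 7 sc) = 1 := by
  rw [toM_sc, Matrix.det_smul, Matrix.det_one, Fintype.card_fin, mul_one]
  decide +kernel

theorem det_word {w E : List ℕ} (h : evF 7 45 Ms w (idL 45) = E) :
    (w.map fun i => (T i).det).prod = (toM 45 7 E).det := by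
  rw [← word_val h]
  have := map_list_prod (Matrix.detMonoidHom (n := Fin 45) (R := ZMod 7)) (w.map T)
  simp only [Matrix.coe_detMonoidHom] at this
  rw [this, List.map_map]
  rfl

theorem T_sq {i : ℕ} (hi : i < 6) : T i * T i = 1 := by
  unfold T
  rw [← toM_mmul (by norm_num) h7' hbd (vmMs i) (vmMs i), hInv i hi, toM_idL]

theorem T_67 : T 6 * T 7 = 1 := by
  unfold T
  rw [← toM_mmul (by norm_num) h7' hbd (vmMs 6) (vmMs 7), hG1, toM_idL]

theorem T_76 : T 7 * T 6 = 1 := by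
  unfold T
  rw [← toM_mmul (by norm_num) h7' hbd (vmMs 7) (vmMs 6), hG2, toM_idL]

theorem det_sq {i : ℕ} (hi : i < 6) : (T i).det * (T i).det = 1 := by
  rw [← Matrix.det_mul, T_sq hi, Matrix.det_one]

theorem det_67 : (T 6).det * (T 7).det = 1 := by
  rw [← Matrix.det_mul, T_67, Matrix.det_one]

theorem sys1 : ∀ x y : ZMod 7, x * x = 1 → y * y = 1 → x * (y * (x * (y * (x * y)))) = 1 → y = x := by
  decide +kernel

theorem sys2 : ∀ s t g G : ZMod 7, s * s = 1 → t * t = 1 → g * G = 1 → s * (t * (G * G)) = 1 →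
    s * (s * (t * (g * (s * (s * (t * (g * (s * (s * (t * (g * (s * (s * (t * (g * (s * (s * (t * g)))))))))))))))))) = 1 →
    g * (s * (s * (g * (s * (s * (g * (s * (s * (g * s))))))))) = 1 →
    s = 1 ∧ t = 1 ∧ g = 1 ∧ G = 1 := by
  decide +kernel

theorem dets_abs (δ : ℕ → ZMod 7) (hsq : ∀ i, i < 6 → δ i * δ i = 1) (h67 : δ 6 * δ 7 = 1)
    (eab : ([0, 1, 0, 1, 0, 1].map δ).prod = 1) (ebc : ([1, 2, 1, 2, 1, 2].map δ).prod = 1)
    (ede : ([3, 4, 3, 4, 3, 4].map δ).prod = 1) (eef : ([4, 5, 4, 5, 4, 5].map δ).prod = 1)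
    (eaf : ([0, 5, 7, 7].map δ).prod = 1)
    (e5 : ([1, 2, 3, 6, 1, 2, 3, 6, 1, 2, 3, 6, 1, 2, 3, 6, 1, 2, 3, 6].map δ).prod = 1)
    (e6 : ([6, 1, 2, 6, 2, 1, 6, 1, 2, 6, 2].map δ).prod = 1) :
    δ 0 = 1 ∧ δ 1 = 1 ∧ δ 2 = 1 ∧ δ 3 = 1 ∧ δ 4 = 1 ∧ δ 5 = 1 ∧ δ 6 = 1 ∧ δ 7 = 1 := by
  simp only [List.map_cons, List.map_nil, List.prod_cons, List.prod_nil, mul_one] at eab ebc ede eef eaf e5 e6
  have h10 : δ 1 = δ 0 := sys1 _ _ (hsq 0 (by norm_num)) (hsq 1 (by norm_num)) eab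
  have h21 : δ 2 = δ 1 := sys1 _ _ (hsq 1 (by norm_num)) (hsq 2 (by norm_num)) ebc
  have h43 : δ 4 = δ 3 := sys1 _ _ (hsq 3 (by norm_num)) (hsq 4 (by norm_num)) ede
  have h54 : δ 5 = δ 4 := sys1 _ _ (hsq 4 (by norm_num)) (hsq 5 (by norm_num)) eef
  rw [h21, h10] at e5 e6
  rw [h54, h43] at eaf
  have hfin := sys2 (δ 0) (δ 3) (δ 6) (δ 7) (hsq 0 (by norm_num)) (hsq 3 (by norm_num)) h67 eaf e5 e6
  obtain ⟨h0, h3, h6, h7⟩ := hfin
  refine ⟨h0, ?_, ?_, h3, ?_, ?_, h6, h7⟩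
  · rw [h10, h0]
  · rw [h21, h10, h0]
  · rw [h43, h3]
  · rw [h54, h43, h3]

theorem dets : (T 0).det = 1 ∧ (T 1).det = 1 ∧ (T 2).det = 1 ∧ (T 3).det = 1 ∧ (T 4).det = 1 ∧ (T 5).det = 1 ∧
    (T 6).det = 1 ∧ (T 7).det = 1 := by
  have h1 : (toM 45 7 (idL 45)).det = 1 := by rw [toM_idL, Matrix.det_one]
  exact dets_abs (fun i => (T i).det) (fun i hi => det_sq hi) det_67
    ((det_word w_ab).trans h1) ((det_word w_bc).trans h1) ((det_word w_de).trans h1) ((det_word w_ef).trans h1)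
    ((det_word w_afgg).trans h1) ((det_word w5).trans det_sc) ((det_word w6).trans det_sc)

theorem det_T (i : ℕ) : (T i).det = 1 := by
  obtain ⟨h0, h1, h2, h3, h4, h5, h6, h7⟩ := dets
  by_cases hi : i < 8
  · have hh : i = 0 ∨ i = 1 ∨ i = 2 ∨ i = 3 ∨ i = 4 ∨ i = 5 ∨ i = 6 ∨ i = 7 := by omega
    rcases hh with rfl | rfl | rfl | rfl | rfl | rfl | rfl | rfl
    · exact h0
    · exact h1
    · exact h2
    · exact h3
    · exact h4
    · exact h5
    · exact h6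
    · exact h7
  · unfold T
    rw [Ms_ge (by omega), toM_idL, Matrix.det_one]

/-- The letters in the special linear group. -/
def sg (i : ℕ) : SLG := ⟨T i, det_T i⟩

/-- The central scalar. -/
def zz : SLG := ⟨toM 45 7 sc, det_sc⟩

theorem sg_val (i : ℕ) : (sg i : M45) = T i := rfl

theorem sg_sq {i : ℕ} (hi : i < 6) : sg i * sg i = 1 := Subtype.ext (T_sq hi)

theorem sg_76 : sg 7 * sg 6 = 1 := Subtype.ext T_76

/-- The images of the generators. -/
def sf (x : Cfsg.Spor.ON.Gen) : SLG := sg (idx (x, true))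

theorem sg_inv (x : Cfsg.Spor.ON.Gen) : sg (idx (x, false)) = (sf x)⁻¹ := by
  unfold sf
  cases x
  · exact eq_inv_of_mul_eq_one_left sg_76
  · exact eq_inv_of_mul_eq_one_left (sg_sq (i := 0) (by norm_num))
  · exact eq_inv_of_mul_eq_one_left (sg_sq (i := 1) (by norm_num))
  · exact eq_inv_of_mul_eq_one_left (sg_sq (i := 2) (by norm_num))
  · exact eq_inv_of_mul_eq_one_left (sg_sq (i := 3) (by norm_num))
  · exact eq_inv_of_mul_eq_one_left (sg_sq (i := 4) (by norm_num))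
  · exact eq_inv_of_mul_eq_one_left (sg_sq (i := 5) (by norm_num))

theorem lift_eq (r : FreeGroup Cfsg.Spor.ON.Gen) : FreeGroup.lift sf r = ((r.toWord.map idx).map sg).prod := by
  conv_lhs => rw [← FreeGroup.mk_toWord (x := r)]
  rw [FreeGroup.lift_mk, List.map_map]
  congr 1
  apply List.map_congr_left
  rintro ⟨x, b⟩ _
  cases b
  · simp [sg_inv]
  · simp [sf]

theorem coe_prod (w : List ℕ) : (((w.map sg).prod : SLG) : M45) = (w.map T).prod := by
  induction w with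
  | nil => simp
  | cons x w ih => simp [ih, sg_val]

theorem lift_one {r : FreeGroup Cfsg.Spor.ON.Gen} (h : evF 7 45 Ms (r.toWord.map idx) (idL 45) = idL 45) :
    FreeGroup.lift sf r = 1 := by
  rw [lift_eq]
  apply Subtype.ext
  show (((r.toWord.map idx).map sg).prod : SLG).1 = (1 : M45)
  have := coe_prod (r.toWord.map idx)
  rw [word_val h, toM_idL] at this
  exact this

theorem lift_z {r : FreeGroup Cfsg.Spor.ON.Gen} (h : evF 7 45 Ms (r.toWord.map idx) (idL 45) = sc) :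
    FreeGroup.lift sf r = zz := by
  rw [lift_eq]
  apply Subtype.ext
  show (((r.toWord.map idx).map sg).prod : SLG).1 = toM 45 7 sc
  have := coe_prod (r.toWord.map idx)
  rw [word_val h] at this
  exact this

theorem zz_central (x : SLG) : x * zz = zz * x := by
  apply Subtype.ext
  show (x : M45) * toM 45 7 sc = toM 45 7 sc * (x : M45)
  rw [toM_sc]
  simp

theorem zz_cube : zz ^ 3 = 1 := by
  apply Subtype.ext
  have e : ((zz ^ 3 : SLG) : M45) = (toM 45 7 sc) ^ 3 := rfl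
  rw [e, toM_sc, smul_pow, one_pow]
  have : (2 : ZMod 7) ^ 3 = 1 := by decide +kernel
  rw [this, one_smul]
  rfl

theorem zz_ne : zz ≠ 1 := by
  intro h
  have h1 : toM 45 7 sc = (1 : M45) := congrArg Subtype.val h
  rw [toM_sc] at h1
  have h2 := congrFun (congrFun h1 0) 0
  simp at h2
  revert h2
  decide +kernel

theorem zz_order : orderOf zz = 3 := by
  have : Fact (Nat.Prime 3) := ⟨by norm_num⟩
  exact orderOf_eq_prime zz_cube zz_ne

theorem node_mem : ∀ x ∈ Cfsg.Spor.coxNodes Cfsg.Spor.ON.edges, x ∈ nodes := by decide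

theorem rel_mem : ∀ r ∈ (Cfsg.Spor.coxRelators Cfsg.Spor.ON.edges ∪ {r | r ∈ Cfsg.Spor.ON.extra}),
    FreeGroup.lift sf r ∈ Subgroup.zpowers zz := by
  intro r hr
  rcases hr with ⟨x, hx, y, hy, rfl⟩ | hr
  · rw [lift_one (cox x (node_mem x hx) y (node_mem y hy))]
    exact Subgroup.one_mem _
  · rcases extra r hr with h | h
    · rw [lift_one h]
      exact Subgroup.one_mem _
    · rw [lift_z h]
      exact Subgroup.mem_zpowers _

theorem zz_range : zz ∈ (FreeGroup.lift sf).range := ⟨_, lift_z zw⟩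

theorem not_mem : sf Cfsg.Spor.ON.Gen.a ∉ Subgroup.zpowers zz := by
  intro h
  obtain ⟨m, hm⟩ := Subgroup.mem_zpowers_iff.mp h
  have h3 : (sf Cfsg.Spor.ON.Gen.a) ^ 3 = 1 := by
    rw [← hm, ← zpow_natCast, ← zpow_mul, mul_comm, zpow_mul, zpow_natCast, zz_cube, one_zpow]
  have h2 : (sf Cfsg.Spor.ON.Gen.a) * (sf Cfsg.Spor.ON.Gen.a) = 1 := sg_sq (i := 0) (by norm_num)
  have h1 : sf Cfsg.Spor.ON.Gen.a = 1 := by
    have : (sf Cfsg.Spor.ON.Gen.a) ^ 3 = (sf Cfsg.Spor.ON.Gen.a) * ((sf Cfsg.Spor.ON.Gen.a) * (sf Cfsg.Spor.ON.Gen.a)) := by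
      rw [pow_succ', pow_two]
    rw [this, h2, mul_one] at h3
    exact h3
  have h4 : T 0 = (1 : M45) := congrArg Subtype.val h1
  have h5 := congrFun (congrFun h4 (0 : Fin 45)) (1 : Fin 45)
  have h6 : T 0 (0 : Fin 45) (1 : Fin 45) = ((dg ((Ms 0).getD 0 0) 1 : ℕ) : ZMod 7) := rfl
  rw [h6, hEnt] at h5
  have h7 : (1 : M45) (0 : Fin 45) (1 : Fin 45) = 0 := by
    rw [Matrix.one_apply, if_neg (by decide)]
  rw [h7] at h5
  revert h5
  decide +kernel

attribute [local irreducible] T sg zz sf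

/-- The main statement, from the simplicity and the order of the presented group. -/
theorem main (hON : Cfsg.IsON Cfsg.Spor.ON) :
    ∃ H : Subgroup SLG, Nat.card (Subgroup.center H) = 3 ∧ Cfsg.IsON (H ⧸ Subgroup.center H) := by
  have : IsSimpleGroup Cfsg.Spor.ON := hON.1
  have hnp : ¬ (Nat.card Cfsg.Spor.ON).Prime := by
    rw [hON.2]
    norm_num
  have hcq := @Cfsg.Agent.Lib.ON45Abs.center_quot SLG _ Cfsg.Spor.ON.Gen sf
    (Cfsg.Spor.coxRelators Cfsg.Spor.ON.edges ∪ {r | r ∈ Cfsg.Spor.ON.extra}) zz zz_central zz_order rel_mem zz_range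
  obtain ⟨H, h1, ⟨e⟩⟩ := hcq hnp Cfsg.Spor.ON.Gen.a not_mem
  refine ⟨H, h1, ?_, ?_⟩
  · exact e.isSimpleGroup
  · rw [Nat.card_congr e.toEquiv]
    exact hON.2

end Cfsg.Agent.Lib.ON45Main
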