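import Mathlib
import Cfsg.Agent.TcData.ON.Cov3.Rep
import Cfsg.Agent.TcData.ON.Fin
import Cfsg.Agent.Lib.TcLevels
import Cfsg.Prelude.Def_KGroupFacts

/-!
# A stem extension of the presented O'Nan group with kernel of order three
-/

set_option autoImplicit false
set_option maxRecDepth 100000

namespace Cfsg.Agent.Lib.ONCov11

open Cfsg Cfsg.Spor Cfsg.Spor.ON Cfsg.Agent.Lib.TcBits Cfsg.Agent.Lib.TcPres Cfsg.Agent.TcData.ON
  Cfsg.Agent.TcData.ON.Cov3 Subgroup

/-- The cover. -/
abbrev U : Type := PresentedGroup R3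

/-- The base. -/
abbrev GG : Type := PresentedGroup RR

/-- The central element. -/
noncomputable abbrev Z : U := PresentedGroup.mk R3 zz

theorem one_U {r : FreeGroup Gen} (hr : r ∈ R3) : PresentedGroup.mk R3 r = 1 :=
  PresentedGroup.one_of_mem hr

theorem one_G {r : FreeGroup Gen} (hr : r ∈ RR) : PresentedGroup.mk RR r = 1 :=
  PresentedGroup.one_of_mem hr

theorem lift_G (r : FreeGroup Gen) : FreeGroup.lift (PresentedGroup.of (rels := RR)) r = PresentedGroup.mk RR r := by
  have h : FreeGroup.lift (PresentedGroup.of (rels := RR)) = PresentedGroup.mk RR := by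
    ext x
    simp only [FreeGroup.lift_apply_of]
    rfl
  rw [h]

theorem mz_G : PresentedGroup.mk RR zz = 1 :=
  one_G (Or.inr (by simp only [Set.mem_setOf_eq, extra, zz, List.mem_cons, true_or, or_true]))

theorem hb4 : PresentedGroup.mk RR (g * b * (c⁻¹ * g * c) * (b⁻¹ * g * b) * (c⁻¹ * g * c)) = 1 :=
  one_G (Or.inr (by simp only [Set.mem_setOf_eq, extra, List.mem_cons, true_or, or_true]))

theorem hb5 : PresentedGroup.mk RR (g * e * (d⁻¹ * g * d) * (e⁻¹ * g * e) * (d⁻¹ * g * d)) = 1 :=
  one_G (Or.inr (by simp only [Set.mem_setOf_eq, extra, List.mem_cons, true_or, or_true]))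

theorem rel_sig : ∀ r ∈ R3, FreeGroup.lift (PresentedGroup.of (rels := RR)) r = 1 := by
  rintro r (hr | hr)
  · rw [lift_G]
    exact one_G (Or.inl hr)
  · rw [lift_G]
    simp only [Set.mem_setOf_eq, extra3, List.mem_cons, List.not_mem_nil, or_false] at hr
    rcases hr with rfl | rfl | rfl | rfl | rfl | rfl | rfl | rfl | rfl | rfl | rfl | rfl | rfl | rfl
    · exact one_G (Or.inr (by simp only [Set.mem_setOf_eq, extra, List.mem_cons, true_or, or_true]))
    · exact one_G (Or.inr (by simp only [Set.mem_setOf_eq, extra, List.mem_cons, true_or, or_true]))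
    · exact one_G (Or.inr (by simp only [Set.mem_setOf_eq, extra, List.mem_cons, true_or, or_true]))
    · exact one_G (Or.inr (by simp only [Set.mem_setOf_eq, extra, List.mem_cons, true_or, or_true]))
    · rw [map_mul, hb4, map_inv, mz_G]; simp
    · rw [map_mul, hb5, map_inv, mz_G]; simp
    · rw [map_pow, mz_G, one_pow]
    all_goals
      simp only [map_mul, map_inv, mz_G, one_mul, inv_one, mul_one, mul_inv_cancel]

/-- The extension. -/
noncomputable def sig : U →* GG := PresentedGroup.toGroup rel_sig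

theorem sig_mk (r : FreeGroup Gen) : sig (PresentedGroup.mk R3 r) = PresentedGroup.mk RR r := by
  have h : sig.comp (PresentedGroup.mk R3) = PresentedGroup.mk RR := by
    ext x
    simp only [MonoidHom.comp_apply]
    exact PresentedGroup.toGroup.of rel_sig
  exact congrArg (fun f : FreeGroup Gen →* GG => f r) h

theorem sig_surj : Function.Surjective sig := by
  intro y
  obtain ⟨r, rfl⟩ := QuotientGroup.mk_surjective y
  exact ⟨PresentedGroup.mk R3 r, sig_mk r⟩

theorem sig_Z : sig Z = 1 := by
  rw [sig_mk, mz_G]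

theorem mem_gen (x : Gen) : zz * FreeGroup.of x * zz⁻¹ * (FreeGroup.of x)⁻¹ ∈ R3 := by
  refine Or.inr ?_
  cases x <;> simp only [Set.mem_setOf_eq, extra3, List.mem_cons, true_or, or_true]

theorem Z_comm (x : Gen) : Z * PresentedGroup.of x = PresentedGroup.of x * Z := by
  have h := one_U (mem_gen x)
  simp only [map_mul, map_inv] at h
  have h2 : Z * (PresentedGroup.of x : U) * Z⁻¹ * (PresentedGroup.of x : U)⁻¹ = 1 := h
  rw [mul_inv_eq_one, mul_inv_eq_iff_eq_mul] at h2
  exact h2

theorem Z_center : Z ∈ center U := by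
  have h : closure (Set.range (PresentedGroup.of (rels := R3))) ≤ centralizer ({Z} : Set U) := by
    rw [closure_le]
    rintro _ ⟨x, rfl⟩
    rw [SetLike.mem_coe, mem_centralizer_singleton_iff]
    exact (Z_comm x).symm
  rw [PresentedGroup.closure_range_of] at h
  rw [mem_center_iff]
  intro u
  exact mem_centralizer_singleton_iff.mp (h (mem_top u))

theorem Z3 : Z ^ 3 = 1 := by
  have h : zz ^ 3 ∈ R3 := Or.inr (by simp only [Set.mem_setOf_eq, extra3, List.mem_cons, true_or, or_true])
  have h2 := one_U h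
  rwa [map_pow] at h2

theorem Z_ne : Z ≠ 1 := Cfsg.Agent.Lib.TcLevels.mk_ne_one_of_apply hR hv z_moves

theorem Z_order : orderOf Z = 3 := by
  haveI : Fact (Nat.Prime 3) := ⟨by norm_num⟩
  exact orderOf_eq_prime Z3 Z_ne

instance hnormal : (zpowers Z).Normal := by
  refine ⟨fun x hx y => ?_⟩
  have hc : x ∈ center U := by
    obtain ⟨i, rfl⟩ := mem_zpowers_iff.mp hx
    exact Subgroup.zpow_mem _ Z_center i
  rw [mem_center_iff.mp hc y, mul_inv_cancel_right]
  exact hx

/-- The quotient by the central element. -/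
abbrev Qu : Type := U ⧸ zpowers Z

theorem mk_Z : ((Z : U) : Qu) = 1 := by
  rw [QuotientGroup.eq_one_iff]
  exact mem_zpowers Z

theorem lift_Qu (r : FreeGroup Gen) :
    FreeGroup.lift (fun x => ((PresentedGroup.of x : U) : Qu)) r = ((PresentedGroup.mk R3 r : U) : Qu) := by
  have h : FreeGroup.lift (fun x => ((PresentedGroup.of x : U) : Qu)) =
      (QuotientGroup.mk' (zpowers Z)).comp (PresentedGroup.mk R3) := by
    ext x
    simp only [FreeGroup.lift_apply_of, MonoidHom.comp_apply]
    rfl
  rw [h]
  rfl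

theorem rel_psi : ∀ r ∈ RR, FreeGroup.lift (fun x => ((PresentedGroup.of x : U) : Qu)) r = 1 := by
  have hmem : ∀ {r : FreeGroup Gen}, r ∈ R3 → ((PresentedGroup.mk R3 r : U) : Qu) = 1 := by
    intro r hr
    rw [one_U hr]
    rfl
  have hmk : ∀ {r : FreeGroup Gen}, PresentedGroup.mk R3 r = Z → ((PresentedGroup.mk R3 r : U) : Qu) = 1 := by
    intro r hr
    rw [hr, mk_Z]
  rintro r (hr | hr)
  · rw [lift_Qu]
    exact hmem (Or.inl hr)
  · rw [lift_Qu]
    simp only [Set.mem_setOf_eq, extra, List.mem_cons, List.not_mem_nil, or_false] at hr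
    rcases hr with rfl | rfl | rfl | rfl | rfl | rfl | rfl
    · exact hmem (Or.inr (by simp only [Set.mem_setOf_eq, extra3, List.mem_cons, true_or, or_true]))
    · exact hmem (Or.inr (by simp only [Set.mem_setOf_eq, extra3, List.mem_cons, true_or, or_true]))
    · exact hmem (Or.inr (by simp only [Set.mem_setOf_eq, extra3, List.mem_cons, true_or, or_true]))
    · exact hmem (Or.inr (by simp only [Set.mem_setOf_eq, extra3, List.mem_cons, true_or, or_true]))
    · exact mk_Z
    · apply hmk
      have h := one_U (r := g * b * (c⁻¹ * g * c) * (b⁻¹ * g * b) * (c⁻¹ * g * c) * zz⁻¹)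
        (Or.inr (by simp only [Set.mem_setOf_eq, extra3, List.mem_cons, true_or, or_true]))
      rw [map_mul, map_inv, mul_inv_eq_one] at h
      exact h
    · apply hmk
      have h := one_U (r := g * e * (d⁻¹ * g * d) * (e⁻¹ * g * e) * (d⁻¹ * g * d) * zz⁻¹)
        (Or.inr (by simp only [Set.mem_setOf_eq, extra3, List.mem_cons, true_or, or_true]))
      rw [map_mul, map_inv, mul_inv_eq_one] at h
      exact h

/-- The way back. -/
noncomputable def psi : GG →* Qu := PresentedGroup.toGroup rel_psi

theorem psi_sig (u : U) : psi (sig u) = (u : Qu) := by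
  have h : psi.comp sig = QuotientGroup.mk' (zpowers Z) := by
    apply PresentedGroup.ext
    intro x
    simp only [MonoidHom.comp_apply]
    have e1 : sig (PresentedGroup.of x) = PresentedGroup.of x := PresentedGroup.toGroup.of rel_sig
    rw [e1]
    exact PresentedGroup.toGroup.of rel_psi
  exact congrArg (fun f : U →* Qu => f u) h

theorem ker_sig : sig.ker = zpowers Z := by
  apply le_antisymm
  · intro u hu
    have h1 := psi_sig u
    rw [MonoidHom.mem_ker.mp hu, map_one] at h1
    exact (QuotientGroup.eq_one_iff u).mp h1.symm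
  · rw [zpowers_le]
    exact sig_Z

/-- Nodes are involutions in the cover. -/
theorem gen_four (x : Gen) : (PresentedGroup.of x : U) ^ 4 = 1 := by
  have hcox : ∀ x y : Gen, x ∈ coxNodes edges → y ∈ coxNodes edges →
      ((PresentedGroup.of x : U) * PresentedGroup.of y) ^ coxLabel edges x y = 1 := by
    intro x y hx hy
    have h := one_U (r := (FreeGroup.of x * FreeGroup.of y) ^ coxLabel edges x y) (Or.inl ⟨x, hx, y, hy, rfl⟩)
    rw [map_pow, map_mul] at h
    exact h
  have hsq : ∀ x : Gen, x ∈ coxNodes edges → (PresentedGroup.of x : U) ^ 2 = 1 := by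
    intro x hx
    have h := hcox x x hx hx
    have e : coxLabel edges x x = 1 := by simp [coxLabel]
    rw [e, pow_one] at h
    rw [pow_two]
    exact h
  cases x
  · have h := one_U (r := (a * f) * ((g ^ 2)⁻¹))
      (Or.inr (by simp only [Set.mem_setOf_eq, extra3, List.mem_cons, true_or, or_true]))
    rw [map_mul, map_inv, mul_inv_eq_one, map_pow] at h
    have h2 := hcox .a .f (by decide) (by decide)
    have e : coxLabel edges Gen.a Gen.f = 2 := by decide
    rw [e] at h2
    have h3 : ((PresentedGroup.of Gen.g : U) ^ 2) ^ 2 = 1 := by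
      have h4 : (PresentedGroup.of Gen.g : U) = PresentedGroup.mk R3 g := rfl
      rw [h4, ← h, map_mul]
      exact h2
    rw [← pow_mul] at h3
    exact h3
  all_goals
    rw [show (4 : ℕ) = 2 * 2 by norm_num, pow_mul, hsq _ (by decide), one_pow]

theorem Z_comm_mem : Z ∈ commutator U := by
  let φ : U →* Abelianization U := Abelianization.of
  have h4 : (powMonoidHom 4 : Abelianization U →* Abelianization U).comp φ = 1 := by
    apply PresentedGroup.ext
    intro x
    simp only [MonoidHom.comp_apply, powMonoidHom_apply, MonoidHom.one_apply]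
    rw [← map_pow, gen_four, map_one]
  have h5 : φ Z ^ 4 = 1 := by
    have := congrArg (fun f : U →* Abelianization U => f Z) h4
    simpa using this
  have h6 : φ Z ^ 3 = 1 := by
    rw [← map_pow, Z3, map_one]
  have h7 : φ Z = 1 := by
    have h8 : φ Z ^ 4 = φ Z ^ 3 * φ Z := pow_succ _ 3
    rw [h5, h6, one_mul] at h8
    exact h8.symm
  have h9 : Z ∈ φ.ker := h7
  have h10 : φ.ker = commutator U := Abelianization.ker_of _
  rwa [h10] at h9

instance finU : Finite U := by
  haveI hG : Finite GG := Cfsg.Agent.TcData.ON.Fin.instFinite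
  have hZf : IsOfFinOrder Z := isOfFinOrder_iff_pow_eq_one.mpr ⟨3, by norm_num, Z3⟩
  haveI h1 : Finite (zpowers Z) := by
    have := (finite_zpowers (a := Z)).mpr hZf
    exact this.to_subtype
  haveI h2 : Finite sig.ker := by
    rw [ker_sig]
    exact h1
  haveI h3 : Finite (U ⧸ sig.ker) :=
    Finite.of_equiv _ (QuotientGroup.quotientKerEquivOfSurjective sig sig_surj).symm.toEquiv
  exact Finite.of_equiv _ (Subgroup.groupEquivQuotientProdSubgroup (s := sig.ker)).symm

theorem stem : IsStemExtension sig := by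
  refine ⟨sig_surj, ?_, ?_⟩
  · rw [ker_sig, zpowers_le]
    exact Z_center
  · rw [ker_sig, zpowers_le]
    exact Z_comm_mem

theorem hex : ∃ (Γ : Type) (_ : Group Γ) (_ : Finite Γ) (σ : Γ →* GG), IsStemExtension σ ∧
    Nonempty (σ.ker ≃* Multiplicative (ZMod 3)) := by
  refine ⟨U, inferInstance, finU, sig, stem, ?_⟩
  haveI : Fact (Nat.Prime 3) := ⟨by norm_num⟩
  have h1 : Nat.card sig.ker = 3 := by
    rw [ker_sig, Nat.card_zpowers, Z_order]
  have h2 : Nat.card (Multiplicative (ZMod 3)) = 3 := by
    show Nat.card (ZMod 3) = 3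
    rw [Nat.card_zmod]
  exact ⟨mulEquivOfPrimeCardEq h1 h2⟩

end Cfsg.Agent.Lib.ONCov11
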