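import Mathlib
import Cfsg.Agent.Lib.CharBasic
import Cfsg.Agent.Lib.CharKernel
import Cfsg.Agent.Lib.Zsig

set_option autoImplicit false
set_option linter.style.haveILetI false
set_option linter.unusedSectionVars false
set_option linter.unusedVariables false

/-!
Piece A2 of S1161: from a transitive odd-order linear group to a prime `r`, an element `x` of
order `r` with cyclic centralizer and a faithful character `W` of degree `n`, `2 n + 1 ≤ r`, whose
average over `⟨x⟩` vanishes.
-/

namespace Cfsg.Agent.Lib.OddA2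

open Cfsg

section Comm

variable {E : Type*} [AddCommGroup E]

/-- Irreducibility of a set of additive endomorphisms. -/
def IsIrr (T : Set (AddMonoid.End E)) : Prop :=
  ∀ U : AddSubgroup E, (∀ t ∈ T, ∀ u ∈ U, t u ∈ U) → U = ⊥ ∨ U = ⊤

theorem inj_of_ne_zero {T : Set (AddMonoid.End E)} (hT : IsIrr T) {φ : AddMonoid.End E}
    (hφ : φ ∈ Subring.centralizer T) (h0 : φ ≠ 0) : Function.Injective φ := by
  let K : AddSubgroup E := AddMonoidHom.ker (φ : E →+ E)
  have hinv : ∀ t ∈ T, ∀ u ∈ K, t u ∈ K := by
    intro t ht u hu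
    have h1 : t * φ = φ * t := (Subring.mem_centralizer_iff.mp hφ) t ht
    have h2 : t (φ u) = φ (t u) := DFunLike.congr_fun h1 u
    have hu' : φ u = 0 := hu
    change φ (t u) = 0
    rw [← h2, hu', map_zero]
  rcases hT K hinv with h | h
  · refine (injective_iff_map_eq_zero (φ : E →+ E)).2 fun a ha => ?_
    have : a ∈ K := ha
    rw [h] at this
    simpa using this
  · exfalso
    apply h0
    ext e
    have : e ∈ K := by rw [h]; trivial
    exact this

theorem isField_centralizer [Finite E] [Nontrivial E] {T : Set (AddMonoid.End E)} (hT : IsIrr T) :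
    IsField ↥(Subring.centralizer T) := by
  haveI : Finite (AddMonoid.End E) :=
    Finite.of_injective (fun f : AddMonoid.End E => (f : E → E)) DFunLike.coe_injective
  haveI : Nontrivial ↥(Subring.centralizer T) := by
    refine ⟨⟨0, 1, fun h => ?_⟩⟩
    obtain ⟨e, he⟩ := exists_ne (0 : E)
    have h1 : ((0 : ↥(Subring.centralizer T)) : AddMonoid.End E) = 1 := congrArg Subtype.val h
    have h2 : (0 : AddMonoid.End E) e = (1 : AddMonoid.End E) e := DFunLike.congr_fun h1 e
    exact he h2.symm
  haveI : NoZeroDivisors ↥(Subring.centralizer T) := by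
    refine ⟨fun {a b} hab => ?_⟩
    by_cases ha : a = 0
    · exact Or.inl ha
    · right
      have ha' : (a : AddMonoid.End E) ≠ 0 := fun h => ha (Subtype.ext h)
      have hi := inj_of_ne_zero hT a.2 ha'
      apply Subtype.ext
      ext e
      have h1 : ((a * b : ↥(Subring.centralizer T)) : AddMonoid.End E) = 0 := congrArg Subtype.val hab
      have h2 : (a : AddMonoid.End E) ((b : AddMonoid.End E) e) = 0 := DFunLike.congr_fun h1 e
      apply hi
      change (a : AddMonoid.End E) ((b : AddMonoid.End E) e) = (a : AddMonoid.End E) 0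
      rw [h2, map_zero]
  haveI : IsDomain ↥(Subring.centralizer T) := NoZeroDivisors.to_isDomain _
  exact Finite.isDomain_to_isField _

/-- A finite group acting faithfully and commuting with an irreducible set is cyclic. -/
theorem cyclic_of_commuting [Finite E] [Nontrivial E] {T : Set (AddMonoid.End E)} (hT : IsIrr T)
    {C : Type*} [Group C] [Finite C] (f : C →* AddMonoid.End E) (hf : Function.Injective f)
    (hc : ∀ c, ∀ t ∈ T, t * f c = f c * t) : IsCyclic C := by
  have hF := isField_centralizer hT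
  letI : CommRing ↥(Subring.centralizer T) :=
    { (inferInstance : Ring ↥(Subring.centralizer T)) with mul_comm := hF.mul_comm }
  haveI : IsDomain ↥(Subring.centralizer T) := by
    haveI : Nontrivial ↥(Subring.centralizer T) := ⟨hF.exists_pair_ne⟩
    haveI : NoZeroDivisors ↥(Subring.centralizer T) := by
      refine ⟨fun {a b} hab => ?_⟩
      by_cases ha : a = 0
      · exact Or.inl ha
      · right
        obtain ⟨a', ha'⟩ := hF.mul_inv_cancel ha
        calc b = a' * a * b := by
              rw [show a' * a = 1 from (hF.mul_comm a' a).trans ha', one_mul]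
          _ = a' * (a * b) := mul_assoc _ _ _
          _ = 0 := by rw [hab, mul_zero]
    exact NoZeroDivisors.to_isDomain _
  let g : C →* ↥(Subring.centralizer T) :=
    { toFun := fun c => ⟨f c, Subring.mem_centralizer_iff.mpr fun t ht => hc c t ht⟩
      map_one' := Subtype.ext f.map_one
      map_mul' := fun a b => Subtype.ext (f.map_mul a b) }
  exact isCyclic_of_subgroup_isDomain g fun a b h => hf (congrArg Subtype.val h)

end Comm

section Count

/-- Counting fixed points of an element of prime order on a finite set. -/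
theorem card_modEq_fixed {α : Type*} [Finite α] {r : ℕ} [Fact r.Prime] (f : Function.End α)
    (hf : f ^ r = 1) : Nat.card α ≡ Nat.card (Function.fixedPoints f) [MOD r] := by
  classical
  letI := Fintype.ofFinite α
  have h1 : f ^ r ^ 1 = 1 := by rwa [pow_one]
  have h2 := Equiv.Perm.card_fixedPoints_modEq h1
  rw [Nat.card_eq_fintype_card (α := α)]
  convert h2 using 1
  exact Nat.card_eq_fintype_card

theorem card_modEq_iter {α : Type*} [Finite α] {r : ℕ} [Fact r.Prime] (σ : α → α) (h : σ^[r] = id) :
    Nat.card α ≡ Nat.card {a // σ a = a} [MOD r] := by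
  let f : Function.End α := σ
  have hp : ∀ n : ℕ, f ^ n = σ^[n] := by
    intro n
    induction n with
    | zero => rfl
    | succ n ih =>
      rw [pow_succ, ih, Function.iterate_succ]
      rfl
  have h1 : f ^ r = 1 := by rw [hp, h]; rfl
  exact card_modEq_fixed f h1

end Count

section Core

variable {F E D : Type*} [Field F] [Finite F] [AddCommGroup E] [Module F E] [Finite E]
  [Group D] [Finite D] [DistribMulAction D E] [FaithfulSMul D E]

/-- The action of `D` by `F`-linear maps. -/
def actL (hcomm : ∀ (g : D) (c : F) (e : E), g • (c • e) = c • (g • e)) : D →* (E →ₗ[F] E) where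
  toFun g :=
    { toFun := fun e => g • e
      map_add' := smul_add g
      map_smul' := fun c e => hcomm g c e }
  map_one' := by ext; simp
  map_mul' := by intros; ext; simp [mul_smul]

@[simp] theorem actL_apply (hcomm : ∀ (g : D) (c : F) (e : E), g • (c • e) = c • (g • e)) (g : D) (e : E) :
    actL hcomm g e = g • e := rfl

/-- The matrix representation in a basis. -/
noncomputable def rhoOf (hcomm : ∀ (g : D) (c : F) (e : E), g • (c • e) = c • (g • e)) {d : ℕ}
    (b : Module.Basis (Fin d) F E) : D →* GL (Fin d) F :=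
  MonoidHom.toHomUnits ((LinearMap.toMatrixAlgEquiv b : (E →ₗ[F] E) ≃ₐ[F] Matrix (Fin d) (Fin d) F).toAlgHom.toMonoidHom.comp
    (actL hcomm))

theorem rhoOf_coe (hcomm : ∀ (g : D) (c : F) (e : E), g • (c • e) = c • (g • e)) {d : ℕ}
    (b : Module.Basis (Fin d) F E) (g : D) :
    ((rhoOf hcomm b g : GL (Fin d) F) : Matrix (Fin d) (Fin d) F) = LinearMap.toMatrix b b (actL hcomm g) := by
  ext i j
  simp [rhoOf, LinearMap.toMatrixAlgEquiv_apply, LinearMap.toMatrix_apply]

theorem rhoOf_inj (hcomm : ∀ (g : D) (c : F) (e : E), g • (c • e) = c • (g • e)) {d : ℕ}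
    (b : Module.Basis (Fin d) F E) : Function.Injective (rhoOf hcomm b) := by
  intro g h hgh
  have h1 : LinearMap.toMatrix b b (actL hcomm g) = LinearMap.toMatrix b b (actL hcomm h) := by
    rw [← rhoOf_coe, ← rhoOf_coe, hgh]
  have h2 := (LinearMap.toMatrix b b).injective h1
  apply FaithfulSMul.eq_of_smul_eq_smul (α := E)
  intro e
  exact LinearMap.congr_fun h2 e

theorem rhoOf_fix (hcomm : ∀ (g : D) (c : F) (e : E), g • (c • e) = c • (g • e)) {d : ℕ}
    (b : Module.Basis (Fin d) F E) (x : D) (hx : ∀ e : E, x • e = e → e = 0) (v : Fin d → F)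
    (hv : ((rhoOf hcomm b x : GL (Fin d) F) : Matrix (Fin d) (Fin d) F).mulVec v = v) : v = 0 := by
  rw [rhoOf_coe] at hv
  set e : E := b.equivFun.symm v with he
  have h1 := LinearMap.toMatrix_mulVec_repr b b (actL hcomm x) e
  have hv2 : (⇑(b.repr e) : Fin d → F) = v := by
    have := b.equivFun.apply_symm_apply v
    rwa [Module.Basis.equivFun_apply] at this
  rw [hv2, hv] at h1
  have h2 : x • e = e := by
    apply b.repr.injective
    apply Finsupp.ext
    intro i
    have := congrFun h1 i
    rw [← hv2] at this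
    exact this.symm
  have h3 := hx e h2
  rw [← hv2, h3]
  simp

theorem rhoOf_comm (hcomm : ∀ (g : D) (c : F) (e : E), g • (c • e) = c • (g • e)) {d : ℕ}
    (b : Module.Basis (Fin d) F E)
    (hscal : ∀ φ : E →ₗ[F] E, (∀ (g : D) (e : E), φ (g • e) = g • φ e) → ∃ c : F, ∀ e, φ e = c • e)
    (M : Matrix (Fin d) (Fin d) F)
    (hM : ∀ g : D, ((rhoOf hcomm b g : GL (Fin d) F) : Matrix (Fin d) (Fin d) F) * M =
      M * ((rhoOf hcomm b g : GL (Fin d) F) : Matrix (Fin d) (Fin d) F)) : ∃ c : F, M = c • 1 := by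
  set φ : E →ₗ[F] E := Matrix.toLin b b M with hφ
  have hMφ : LinearMap.toMatrix b b φ = M := by
    rw [hφ]; simp
  have hc : ∀ (g : D) (e : E), φ (g • e) = g • φ e := by
    intro g e
    have h1 := hM g
    rw [rhoOf_coe, ← hMφ, ← LinearMap.toMatrix_comp, ← LinearMap.toMatrix_comp] at h1
    have h2 := (LinearMap.toMatrix b b).injective h1
    exact (LinearMap.congr_fun h2 e).symm
  obtain ⟨c, hc'⟩ := hscal φ hc
  refine ⟨c, ?_⟩
  have h3 : φ = c • LinearMap.id := by
    ext e
    simpa using hc' e
  rw [← hMφ, h3]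
  rw [map_smul, LinearMap.toMatrix_id]

variable [Nontrivial E]

theorem card_sub (U : Submodule F E) : Nat.card U = Nat.card F ^ Module.finrank F U :=
  Module.natCard_eq_pow_finrank

section Prim

variable {r d : ℕ} [Fact r.Prime] {x : D}

theorem iter_smul (x : D) (hx : x ^ r = 1) : (fun e : E => x • e)^[r] = id := by
  rw [smul_iterate, hx]
  ext e
  simp

/-- `x` has only the zero fixed vector. -/
theorem fix_zero (hcomm : ∀ (g : D) (c : F) (e : E), g • (c • e) = c • (g • e))
    (hd : Module.finrank F E = d) (hrd : r ∣ Nat.card F ^ d - 1)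
    (hprim : ∀ k : ℕ, 0 < k → k < d → ¬ r ∣ Nat.card F ^ k - 1)
    (hx : orderOf x = r) (e : E) (he : x • e = e) : e = 0 := by
  haveI : Module.Finite F E := Module.Finite.of_finite
  have hr1 := (Fact.out : r.Prime).one_lt
  have hQ1 : 1 < Nat.card F := Finite.one_lt_card
  let C : Submodule F E :=
    { carrier := {e | x • e = e}
      add_mem' := fun {a b} ha hb => by
        simp only [Set.mem_setOf_eq] at ha hb ⊢
        rw [smul_add, ha, hb]
      zero_mem' := smul_zero x
      smul_mem' := fun c a ha => by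
        simp only [Set.mem_setOf_eq] at ha ⊢
        rw [hcomm, ha] }
  have h1 : Nat.card E ≡ Nat.card {a : E // x • a = a} [MOD r] :=
    card_modEq_iter (fun e : E => x • e) (iter_smul x (by rw [← hx]; exact pow_orderOf_eq_one x))
  have h2 : Nat.card {a : E // x • a = a} = Nat.card C := rfl
  have h3 : Nat.card E = Nat.card F ^ d := by
    rw [← hd]; exact Module.natCard_eq_pow_finrank
  rw [h2, card_sub C, h3] at h1
  set k := Module.finrank F C with hk
  have hkd : k ≤ d := by
    rw [← hd]; exact Submodule.finrank_le C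
  have hQd : 1 ≤ Nat.card F ^ d := Nat.one_le_pow _ _ (by omega)
  have hQk : 1 ≤ Nat.card F ^ k := Nat.one_le_pow _ _ (by omega)
  have h4 : 1 ≡ Nat.card F ^ d [MOD r] := (Nat.modEq_iff_dvd' hQd).2 hrd
  have h5 : r ∣ Nat.card F ^ k - 1 := (Nat.modEq_iff_dvd' hQk).1 (h4.trans h1)
  rcases Nat.eq_zero_or_pos k with h0 | hpos
  · have : C = ⊥ := by
      rw [hk] at h0
      exact Submodule.finrank_eq_zero.mp h0
    have hm : e ∈ C := he
    rw [this] at hm
    simpa using hm
  · rcases lt_or_eq_of_le hkd with hlt | heq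
    · exact absurd h5 (hprim k hpos hlt)
    · exfalso
      have htop : C = ⊤ := Submodule.eq_top_of_finrank_eq (by rw [← hk, heq, hd])
      have hall : ∀ a : E, x • a = a := fun a => by
        have : a ∈ C := by rw [htop]; trivial
        exact this
      have hx1 : x = 1 := by
        apply FaithfulSMul.eq_of_smul_eq_smul (α := E)
        intro a
        rw [hall a, one_smul]
      rw [hx1, orderOf_one] at hx
      omega

/-- Any nonzero `x`-invariant subspace is everything. -/
theorem inv_top (hcomm : ∀ (g : D) (c : F) (e : E), g • (c • e) = c • (g • e))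
    (hd : Module.finrank F E = d) (hrd : r ∣ Nat.card F ^ d - 1)
    (hprim : ∀ k : ℕ, 0 < k → k < d → ¬ r ∣ Nat.card F ^ k - 1)
    (hx : orderOf x = r) (U : Submodule F E) (hU : ∀ u ∈ U, x • u ∈ U) (h0 : U ≠ ⊥) : U = ⊤ := by
  haveI : Module.Finite F E := Module.Finite.of_finite
  have hQ1 : 1 < Nat.card F := Finite.one_lt_card
  let σ : U → U := fun u => ⟨x • u.1, hU _ u.2⟩
  have hit : ∀ n : ℕ, ∀ u : U, ((σ^[n] u : U) : E) = x ^ n • (u : E) := by
    intro n
    induction n with
    | zero => intro u; simp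
    | succ n ih =>
      intro u
      rw [Function.iterate_succ_apply', pow_succ', mul_smul, ← ih u]
  have hσ : σ^[r] = id := by
    funext u
    apply Subtype.ext
    rw [hit, ← hx, pow_orderOf_eq_one, one_smul]
    rfl
  have h1 := card_modEq_iter σ hσ
  have h2 : Nat.card {a : U // σ a = a} = 1 := by
    let z : {a : U // σ a = a} := ⟨0, by apply Subtype.ext; exact smul_zero x⟩
    have hu : ∀ a : {a : U // σ a = a}, a = z := by
      rintro ⟨a, ha⟩
      apply Subtype.ext
      apply Subtype.ext
      exact fix_zero hcomm hd hrd hprim hx a.1 (congrArg Subtype.val ha)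
    exact Nat.card_eq_one_iff_unique.2 ⟨⟨fun a b => (hu a).trans (hu b).symm⟩, ⟨z⟩⟩
  rw [h2, card_sub U] at h1
  set k := Module.finrank F U with hk
  have hpos : 0 < k := by
    rw [hk]
    exact Module.finrank_pos_iff.mpr (Submodule.nontrivial_iff_ne_bot.mpr h0)
  have hkd : k ≤ d := by
    rw [← hd]; exact Submodule.finrank_le U
  have hQk : 1 ≤ Nat.card F ^ k := Nat.one_le_pow _ _ (by omega)
  have h5 : r ∣ Nat.card F ^ k - 1 := (Nat.modEq_iff_dvd' hQk).1 h1.symm
  rcases lt_or_eq_of_le hkd with hlt | heq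
  · exact absurd h5 (hprim k hpos hlt)
  · exact Submodule.eq_top_of_finrank_eq (by rw [← hk, heq, hd])

/-- The centralizer of `x` is cyclic. -/
theorem cent_cyclic (hcomm : ∀ (g : D) (c : F) (e : E), g • (c • e) = c • (g • e))
    (hd : Module.finrank F E = d) (hrd : r ∣ Nat.card F ^ d - 1)
    (hprim : ∀ k : ℕ, 0 < k → k < d → ¬ r ∣ Nat.card F ^ k - 1)
    (hx : orderOf x = r) : IsCyclic ↥(Subgroup.centralizer ({x} : Set D)) := by
  let act : D →* AddMonoid.End E := DistribMulAction.toAddMonoidEnd D E
  let T : Set (AddMonoid.End E) := {t | t = act x ∨ ∃ c : F, t = (smulAddHom F E c : E →+ E)}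
  have hT : IsIrr T := by
    intro U hU
    by_cases h0 : U = ⊥
    · exact Or.inl h0
    · right
      let V : Submodule F E :=
        { carrier := U
          add_mem' := fun ha hb => U.add_mem ha hb
          zero_mem' := U.zero_mem
          smul_mem' := fun c a ha => hU _ (Or.inr ⟨c, rfl⟩) a ha }
      have hV : ∀ u ∈ V, x • u ∈ V := fun u hu => hU _ (Or.inl rfl) u hu
      have hV0 : V ≠ ⊥ := by
        intro hbot
        apply h0
        rw [eq_bot_iff]
        intro a ha
        have : a ∈ V := ha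
        rw [hbot] at this
        simpa using this
      have htop := inv_top hcomm hd hrd hprim hx V hV hV0
      rw [eq_top_iff]
      intro a _
      have : a ∈ V := by rw [htop]; trivial
      exact this
  let f : ↥(Subgroup.centralizer ({x} : Set D)) →* AddMonoid.End E :=
    act.comp (Subgroup.centralizer ({x} : Set D)).subtype
  have hf : Function.Injective f := by
    intro a b hab
    apply Subtype.ext
    apply FaithfulSMul.eq_of_smul_eq_smul (α := E)
    intro e
    exact DFunLike.congr_fun hab e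
  refine cyclic_of_commuting hT f hf ?_
  rintro ⟨c, hc⟩ t (rfl | ⟨s, rfl⟩)
  · have hcx : c * x = x * c := Subgroup.mem_centralizer_singleton_iff.mp hc
    change act x * act c = act c * act x
    rw [← map_mul, ← map_mul, hcx]
  · ext e
    exact (hcomm c s e).symm

end Prim

/-- `|E| - 1` divides `|D|`. -/
theorem card_sub_one_dvd (htrans : ∀ a b : E, a ≠ 0 → b ≠ 0 → ∃ d : D, d • a = b) :
    Nat.card E - 1 ∣ Nat.card D := by
  obtain ⟨a, ha⟩ := exists_ne (0 : E)
  have h1 : MulAction.orbit D a = ({0} : Set E)ᶜ := by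
    ext e
    simp only [MulAction.mem_orbit_iff, Set.mem_compl_iff, Set.mem_singleton_iff]
    constructor
    · rintro ⟨g, rfl⟩ h
      apply ha
      have := congrArg (fun y => g⁻¹ • y) h
      simpa using this
    · intro he
      exact htrans a e ha he
  have h2 := MulAction.index_stabilizer D a
  rw [h1] at h2
  have h3 := Set.ncard_add_ncard_compl ({0} : Set E)
  rw [Set.ncard_singleton] at h3
  have h4 : (MulAction.stabilizer D a).index ∣ Nat.card D := Subgroup.index_dvd_card _
  rw [h2] at h4
  have h5 : ({0} : Set E)ᶜ.ncard = Nat.card E - 1 := by omega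
  rwa [h5] at h4

open Cfsg.Agent.Lib.CharBasic Cfsg.Agent.Lib.CharKernel in
/-- The main abstract statement. -/
theorem core_main [Fintype D] (hcomm : ∀ (g : D) (c : F) (e : E), g • (c • e) = c • (g • e))
    (hodd : Odd (Nat.card D))
    (htrans : ∀ a b : E, a ≠ 0 → b ≠ 0 → ∃ d : D, d • a = b)
    (hscal : ∀ φ : E →ₗ[F] E, (∀ (g : D) (e : E), φ (g • e) = g • φ e) → ∃ c : F, ∀ e, φ e = c • e)
    (hA1 : ¬ ringChar F ∣ Nat.card D → ∀ (d : ℕ) (rho : D →* GL (Fin d) F), 0 < d →
      ∃ W : D → ℂ, IsCharacter D W ∧ W 1 = d ∧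
        (Function.Injective rho → ∀ g, W g = W 1 → g = 1) ∧
        (∀ x, (∀ v : Fin d → F, ((rho x : GL (Fin d) F) : Matrix (Fin d) (Fin d) F).mulVec v = v → v = 0) →
          ∑ i ∈ Finset.range (orderOf x), W (x ^ i) = 0) ∧
        ((∀ M : Matrix (Fin d) (Fin d) F, (∀ g, ((rho g : GL (Fin d) F) : Matrix (Fin d) (Fin d) F) * M =
            M * ((rho g : GL (Fin d) F) : Matrix (Fin d) (Fin d) F)) → ∃ c : F, M = c • 1) →
          classInner W W = 1)) :
    IsCyclic D ∨ ∃ (r : ℕ) (x : D) (W : D → ℂ), r.Prime ∧ orderOf x = r ∧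
      IsCyclic ↥(Subgroup.centralizer ({x} : Set D)) ∧ IsCharacter D W ∧
      (∀ g, W g = W 1 → g = 1) ∧ (∃ n : ℕ, W 1 = n ∧ 2 * n + 1 ≤ r) ∧
      ∑ i ∈ Finset.range r, W (x ^ i) = 0 := by
  classical
  haveI : Module.Finite F E := Module.Finite.of_finite
  have hQ1 : 1 < Nat.card F := Finite.one_lt_card
  set d := Module.finrank F E with hd
  have hdpos : 0 < d := Module.finrank_pos
  have hE : Nat.card E = Nat.card F ^ d := Module.natCard_eq_pow_finrank
  let b : Module.Basis (Fin d) F E := Module.finBasis F E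
  -- characteristic two
  have hE2 : 2 ≤ Nat.card E := Finite.one_lt_card
  have hdvd := card_sub_one_dvd (D := D) htrans
  have hEodd : Odd (Nat.card E - 1) := Odd.of_dvd_nat hodd hdvd
  have hEeven : 2 ∣ Nat.card E := by
    obtain ⟨m, hm⟩ := hEodd
    exact ⟨m + 1, by omega⟩
  have hQeven : 2 ∣ Nat.card F := by
    rw [hE] at hEeven
    exact Nat.prime_two.dvd_of_dvd_pow hEeven
  have hchar2 : ringChar F = 2 := by
    haveI : Fact (Nat.Prime 2) := ⟨Nat.prime_two⟩
    obtain ⟨y, hy⟩ := exists_prime_addOrderOf_dvd_card' (G := F) 2 hQeven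
    have hy0 : y ≠ 0 := by
      intro h
      rw [h, addOrderOf_zero] at hy
      omega
    have h2y : (2 : F) * y = 0 := by
      have := addOrderOf_nsmul_eq_zero y
      rw [hy, two_nsmul] at this
      rw [two_mul]; exact this
    have h20 : (2 : F) = 0 := (mul_eq_zero.mp h2y).resolve_right hy0
    exact CharP.ringChar_of_prime_eq_zero Nat.prime_two (by exact_mod_cast h20)
  have hchar : ¬ ringChar F ∣ Nat.card D := by
    rw [hchar2]
    intro h
    obtain ⟨m, hm⟩ := hodd
    omega
  rcases Nat.lt_or_ge 1 d with hd1 | hd1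
  · right
    obtain ⟨W, hW, hW1, hWf, hWs, hWn⟩ := hA1 hchar d (rhoOf hcomm b) hdpos
    have hfaith := hWf (rhoOf_inj hcomm b)
    have hnorm := hWn (rhoOf_comm hcomm b hscal)
    have hirr : IsIrrCharacter D W := isIrrCharacter_iff_norm_one.mpr ⟨hW, hnorm⟩
    have hdeg : charDegree W = d := by
      have h1 := one_eq_charDegree hW
      rw [hW1] at h1
      exact_mod_cast h1.symm
    have hdD : d ∣ Nat.card D := by
      rw [← hdeg]; exact charDegree_dvd_card hirr
    have hdodd : Odd d := Odd.of_dvd_nat hodd hdD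
    obtain ⟨r, hr, hrd, hprim⟩ := Cfsg.Agent.Lib.Zsig.zsigmondy (Nat.card F) d hQ1 hd1
      (by rintro ⟨-, h6⟩; rw [h6] at hdodd; exact absurd hdodd (by decide))
      (by rintro ⟨h2, -⟩; rw [h2] at hdodd; exact absurd hdodd (by decide))
    haveI : Fact r.Prime := ⟨hr⟩
    have hrE : r ∣ Nat.card E - 1 := by rwa [hE]
    have hrD : r ∣ Nat.card D := hrE.trans hdvd
    obtain ⟨x, hx⟩ := exists_prime_orderOf_dvd_card' (G := D) r hrD
    have hrodd : Odd r := Odd.of_dvd_nat hodd hrD
    have hfix := fix_zero (F := F) hcomm rfl hrd hprim hx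
    have hQk : ∀ k : ℕ, 1 ≤ Nat.card F ^ k := fun k => Nat.one_le_pow _ _ (by omega)
    have key : ∀ k : ℕ, r ∣ Nat.card F ^ k - 1 ↔ ((Nat.card F : ℕ) : ZMod r) ^ k = 1 := by
      intro k
      rw [← ZMod.natCast_eq_zero_iff, Nat.cast_sub (hQk k)]
      push_cast
      exact sub_eq_zero
    have hu1 : ((Nat.card F : ℕ) : ZMod r) ^ d = 1 := (key d).1 hrd
    have hu0 : ((Nat.card F : ℕ) : ZMod r) ≠ 0 := by
      intro h
      rw [h, zero_pow hdpos.ne'] at hu1
      exact zero_ne_one hu1
    have hord : orderOf ((Nat.card F : ℕ) : ZMod r) = d := by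
      have h1 := orderOf_dvd_of_pow_eq_one hu1
      have h2 : 0 < orderOf ((Nat.card F : ℕ) : ZMod r) := Nat.pos_of_dvd_of_pos h1 hdpos
      rcases lt_or_eq_of_le (Nat.le_of_dvd hdpos h1) with hlt | heq
      · exact absurd ((key _).2 (pow_orderOf_eq_one _)) (hprim _ h2 hlt)
      · exact heq
    have hdr : d ∣ r - 1 := by
      rw [← hord]
      exact orderOf_dvd_of_pow_eq_one (ZMod.pow_card_sub_one_eq_one hu0)
    have h2r : 2 ∣ r - 1 := by
      obtain ⟨m, hm⟩ := hrodd
      exact ⟨m, by omega⟩
    have hcop : Nat.Coprime 2 d := Nat.coprime_two_left.mpr hdodd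
    have h2d : 2 * d ∣ r - 1 := hcop.mul_dvd_of_dvd_of_dvd h2r hdr
    have hr1 := hr.one_lt
    have hle : 2 * d ≤ r - 1 := Nat.le_of_dvd (by omega) h2d
    refine ⟨r, x, W, hr, hx, cent_cyclic (F := F) hcomm rfl hrd hprim hx, hW, hfaith,
      ⟨d, hW1, by omega⟩, ?_⟩
    have := hWs x (fun v hv => rhoOf_fix hcomm b x hfix v hv)
    rwa [hx] at this
  · left
    have hd1' : d = 1 := by omega
    have hcard : Fintype.card (Fin d) = 1 := by simp [hd1']
    let k : Fin d := ⟨0, hdpos⟩
    let f : D →* F := (Units.coeHom F).comp ((Matrix.GeneralLinearGroup.det).comp (rhoOf hcomm b))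
    have hf : Function.Injective f := by
      intro g h hgh
      apply rhoOf_inj hcomm b
      apply Units.ext
      ext i j
      have hi : i = k := Fin.ext (by have := i.isLt; change i.val = 0; omega)
      have hj : j = k := Fin.ext (by have := j.isLt; change j.val = 0; omega)
      rw [hi, hj]
      have h1 : Matrix.det ((rhoOf hcomm b g : GL (Fin d) F) : Matrix (Fin d) (Fin d) F) =
          Matrix.det ((rhoOf hcomm b h : GL (Fin d) F) : Matrix (Fin d) (Fin d) F) := hgh
      rwa [Matrix.det_eq_elem_of_card_eq_one hcard k, Matrix.det_eq_elem_of_card_eq_one hcard k] at h1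
    exact isCyclic_of_subgroup_isDomain f hf

end Core

section Top

variable {D E : Type*} [Group D] [Finite D] [AddCommGroup E] [Finite E] [Nontrivial E]
  [DistribMulAction D E] [FaithfulSMul D E]

/-- The set of endomorphisms given by `D`. -/
def actSet (D E : Type*) [Group D] [AddCommGroup E] [DistribMulAction D E] : Set (AddMonoid.End E) :=
  Set.range (DistribMulAction.toAddMonoidEnd D E)

theorem actSet_irr (htrans : ∀ a b : E, a ≠ 0 → b ≠ 0 → ∃ d : D, d • a = b) : IsIrr (actSet D E) := by
  intro U hU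
  by_cases h0 : U = ⊥
  · exact Or.inl h0
  · right
    obtain ⟨⟨a, haU⟩, ha⟩ := AddSubgroup.ne_bot_iff_exists_ne_zero.mp h0
    have ha0 : a ≠ 0 := fun h => ha (Subtype.ext h)
    rw [eq_top_iff]
    intro b _
    by_cases hb : b = 0
    · rw [hb]; exact U.zero_mem
    · obtain ⟨g, rfl⟩ := htrans _ b ha0 hb
      exact hU _ ⟨g, rfl⟩ _ haU

universe u v

/-- Piece A2, with the lifting theorem A1 as a hypothesis (for all finite fields in the universe
of `E`). -/
theorem main {D : Type u} {E : Type v} [Group D] [Finite D] [Fintype D] [AddCommGroup E] [Finite E]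
    [Nontrivial E] [DistribMulAction D E] [FaithfulSMul D E]
    (hodd : Odd (Nat.card D))
    (htrans : ∀ a b : E, a ≠ 0 → b ≠ 0 → ∃ d : D, d • a = b)
    (hA1 : ∀ (F : Type v) [Field F] [Finite F], ¬ ringChar F ∣ Nat.card D →
      ∀ (d : ℕ) (rho : D →* GL (Fin d) F), 0 < d →
      ∃ W : D → ℂ, IsCharacter D W ∧ W 1 = d ∧
        (Function.Injective rho → ∀ g, W g = W 1 → g = 1) ∧
        (∀ x, (∀ v : Fin d → F, ((rho x : GL (Fin d) F) : Matrix (Fin d) (Fin d) F).mulVec v = v → v = 0) →
          ∑ i ∈ Finset.range (orderOf x), W (x ^ i) = 0) ∧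
        ((∀ M : Matrix (Fin d) (Fin d) F, (∀ g, ((rho g : GL (Fin d) F) : Matrix (Fin d) (Fin d) F) * M =
            M * ((rho g : GL (Fin d) F) : Matrix (Fin d) (Fin d) F)) → ∃ c : F, M = c • 1) →
          classInner W W = 1)) :
    IsCyclic D ∨ ∃ (r : ℕ) (x : D) (W : D → ℂ), r.Prime ∧ orderOf x = r ∧
      IsCyclic ↥(Subgroup.centralizer ({x} : Set D)) ∧ IsCharacter D W ∧
      (∀ g, W g = W 1 → g = 1) ∧ (∃ n : ℕ, W 1 = n ∧ 2 * n + 1 ≤ r) ∧
      ∑ i ∈ Finset.range r, W (x ^ i) = 0 := by
  have hirr : IsIrr (actSet D E) := actSet_irr htrans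
  have hF := isField_centralizer hirr
  haveI : Finite (AddMonoid.End E) :=
    Finite.of_injective (fun f : AddMonoid.End E => (f : E → E)) DFunLike.coe_injective
  letI fld : Field ↥(Subring.centralizer (actSet D E)) := hF.toField
  letI mdl : Module ↥(Subring.centralizer (actSet D E)) E :=
    { smul := fun c e => (c : AddMonoid.End E) e
      one_smul := fun e => rfl
      mul_smul := fun a b e => rfl
      smul_zero := fun c => map_zero (c : AddMonoid.End E)
      smul_add := fun c a b => map_add (c : AddMonoid.End E) a b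
      add_smul := fun a b e => rfl
      zero_smul := fun e => rfl }
  refine core_main (F := ↥(Subring.centralizer (actSet D E))) ?_ hodd htrans ?_ (hA1 _)
  · intro g c e
    have h1 := (Subring.mem_centralizer_iff.mp c.2) (DistribMulAction.toAddMonoidEnd D E g) ⟨g, rfl⟩
    exact DFunLike.congr_fun h1 e
  · intro φ hφ
    let φ' : AddMonoid.End E := φ.toAddMonoidHom
    have hmem : φ' ∈ Subring.centralizer (actSet D E) :=
      Subring.mem_centralizer_iff.mpr (by
        rintro _ ⟨g, rfl⟩
        ext e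
        exact (hφ g e).symm)
    exact ⟨⟨φ', hmem⟩, fun e => rfl⟩

end Top

end Cfsg.Agent.Lib.OddA2
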