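import Mathlib
import Cfsg.Agent.Lib.CharKernel

set_option autoImplicit false

namespace Cfsg.Agent.Lib.OddLift

open Matrix

universe u v w

section Step

variable {D : Type u} [Group D] [Finite D] {A : Type v} {B : Type w} [CommRing A] [CommRing B]
  {d : ℕ}

theorem isUnit_of_map_isUnit (φ : A →+* B) (hφ : Function.Surjective φ)
    (hker : ∀ x y, φ x = 0 → φ y = 0 → x * y = 0) {x : A} (hx : IsUnit (φ x)) : IsUnit x := by
  obtain ⟨u, hu⟩ := hx
  obtain ⟨y, hy⟩ := hφ ((u⁻¹ : Bˣ) : B)
  have h1 : φ (x * y - 1) = 0 := by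
    simp [hy, ← hu]
  have h2 := hker _ _ h1 h1
  refine IsUnit.of_mul_eq_one (y * (2 - x * y)) ?_
  linear_combination -h2

theorem exists_gl_lift (φ : A →+* B) (hφ : Function.Surjective φ)
    (hker : ∀ x y, φ x = 0 → φ y = 0 → x * y = 0) (M : GL (Fin d) B) :
    ∃ X : GL (Fin d) A, Matrix.GeneralLinearGroup.map φ X = M := by
  classical
  let X0 : Matrix (Fin d) (Fin d) A := (M : Matrix (Fin d) (Fin d) B).map (Function.surjInv hφ)
  have hX0 : X0.map φ = (M : Matrix (Fin d) (Fin d) B) := by
    ext i j
    simp [X0, Function.surjInv_eq hφ]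
  have hdet : IsUnit X0.det := by
    apply isUnit_of_map_isUnit φ hφ hker
    rw [RingHom.map_det]
    have : φ.mapMatrix X0 = (M : Matrix (Fin d) (Fin d) B) := hX0
    rw [this]
    exact (Matrix.isUnit_iff_isUnit_det _).1 M.isUnit
  refine ⟨Matrix.GeneralLinearGroup.mk'' X0 hdet, ?_⟩
  ext i j
  have := congrFun (congrFun hX0 i) j
  simpa using this

theorem exists_lift_step [Finite A] (φ : A →+* B) (hφ : Function.Surjective φ)
    (hker : ∀ x y, φ x = 0 → φ y = 0 → x * y = 0)
    {p m : ℕ} (hp : p.Prime) (hpD : ¬ p ∣ Nat.card D) (hpA : ((p ^ m : ℕ) : A) = 0)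
    (ρ : D →* GL (Fin d) B) :
    ∃ ρ' : D →* GL (Fin d) A, ∀ g, Matrix.GeneralLinearGroup.map φ (ρ' g) = ρ g := by
  classical
  have : Fact p.Prime := ⟨hp⟩
  let P : Subgroup (D × GL (Fin d) A) :=
    MonoidHom.eqLocus (ρ.comp (MonoidHom.fst _ _))
      ((Matrix.GeneralLinearGroup.map φ).comp (MonoidHom.snd _ _))
  have hP : ∀ x : D × GL (Fin d) A, x ∈ P ↔ ρ x.1 = Matrix.GeneralLinearGroup.map φ x.2 :=
    fun x => Iff.rfl
  let π : P →* D := (MonoidHom.fst _ _).comp P.subtype
  have hπ : Function.Surjective π := by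
    intro g
    obtain ⟨X, hX⟩ := exists_gl_lift φ hφ hker (ρ g)
    exact ⟨⟨(g, X), (hP _).2 hX.symm⟩, rfl⟩
  have hindex : π.ker.index = Nat.card D := by
    rw [Subgroup.index_ker, MonoidHom.range_eq_top.2 hπ]
    simp
  have hpg : IsPGroup p π.ker := by
    rintro ⟨⟨⟨g, X⟩, hmem⟩, hk⟩
    have hg : g = 1 := hk
    subst hg
    have hX : Matrix.GeneralLinearGroup.map φ X = 1 := by
      have := (hP _).1 hmem
      simpa using this.symm
    let Y : Matrix (Fin d) (Fin d) A := (X : Matrix (Fin d) (Fin d) A) - 1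
    have hY : ∀ i j, φ (Y i j) = 0 := by
      intro i j
      have h1 := congrArg (fun Z : GL (Fin d) B => (Z : Matrix (Fin d) (Fin d) B) i j) hX
      simp only [Matrix.GeneralLinearGroup.map_apply, Units.val_one] at h1
      simp only [Y, Matrix.sub_apply, map_sub, h1]
      by_cases hij : i = j
      · subst hij; simp
      · simp [hij]
    have hYY : Y * Y = 0 := by
      ext i j
      rw [Matrix.mul_apply]
      simp only [Matrix.zero_apply]
      exact Finset.sum_eq_zero fun l _ => hker _ _ (hY _ _) (hY _ _)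
    have hpow : ∀ n : ℕ, (X : Matrix (Fin d) (Fin d) A) ^ n = 1 + (n : A) • Y := by
      intro n
      have hXY : (X : Matrix (Fin d) (Fin d) A) = 1 + Y := by simp [Y]
      induction n with
      | zero => simp
      | succ n ih =>
        have h3 : (1 + (n : A) • Y) * (1 + Y) = 1 + Y + (n : A) • Y + (n : A) • (Y * Y) := by
          simp only [mul_add, add_mul, one_mul, mul_one, smul_mul_assoc]
          abel
        rw [pow_succ, ih, hXY, h3, hYY, smul_zero, add_zero]
        push_cast
        rw [add_smul, one_smul]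
        abel
    refine ⟨m, ?_⟩
    apply Subtype.ext
    apply Subtype.ext
    have h2 : (X ^ p ^ m) = 1 := by
      apply Units.ext
      rw [Units.val_pow_eq_pow_val, hpow, hpA]
      simp
    simp [h2]
  obtain ⟨n, hn⟩ := IsPGroup.iff_card.1 hpg
  have hcop : Nat.Coprime (Nat.card π.ker) π.ker.index := by
    rw [hn, hindex]
    exact Nat.Coprime.pow_left n ((Nat.Prime.coprime_iff_not_dvd hp).2 hpD)
  obtain ⟨K, hK⟩ := Subgroup.exists_right_complement'_of_coprime hcop
  have hbij : Function.Bijective (π.comp K.subtype) := by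
    constructor
    · rw [injective_iff_map_eq_one]
      intro k hk
      have h1 : (k : P) ∈ π.ker := hk
      have h2 := hK.disjoint
      have h3 : (k : P) = 1 := by
        have := Subgroup.disjoint_def.1 h2 h1 k.2
        exact this
      exact Subtype.ext h3
    · intro g
      obtain ⟨x, rfl⟩ := hπ g
      obtain ⟨⟨a, b⟩, hab, -⟩ := hK.existsUnique x
      refine ⟨b, ?_⟩
      have ha : π (a : P) = 1 := a.2
      have : π x = π (a : P) * π (b : P) := by
        rw [← map_mul]
        exact congrArg π hab.symm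
      rw [this, ha, one_mul]
      rfl
  let e : K ≃* D := MulEquiv.ofBijective (π.comp K.subtype) hbij
  let ρ' : D →* GL (Fin d) A :=
    (MonoidHom.snd _ _).comp (P.subtype.comp (K.subtype.comp e.symm.toMonoidHom))
  refine ⟨ρ', fun g => ?_⟩
  have hmem := (hP _).1 ((e.symm g : K) : P).2
  have h1 : (((e.symm g : K) : P) : D × GL (Fin d) A).1 = g := by
    have : e (e.symm g) = g := e.apply_symm_apply g
    exact this
  rw [h1] at hmem
  exact hmem.symm

end Step


section Witt

variable {p : ℕ} [hp : Fact p.Prime] {F : Type u} [Field F] [CharP F p]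

local notation "𝕎" => WittVector p

theorem natCast_pow_eq_zero (n : ℕ) : ((p ^ n : ℕ) : TruncatedWittVector p n F) = 0 := by
  have h : ((p ^ n : ℕ) : TruncatedWittVector p n F) = WittVector.truncate n ((p : 𝕎 F) ^ n) := by
    simp
  rw [h]
  ext i
  rw [WittVector.coeff_truncate, TruncatedWittVector.coeff_zero]
  exact WittVector.coeff_p_pow_eq_zero (R := F) (p := p) (ne_of_lt i.2)

theorem trunc_sq_zero (k : ℕ) (x y : TruncatedWittVector p (k + 2) F)
    (hx : TruncatedWittVector.truncate (Nat.le_succ (k + 1)) x = 0)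
    (hy : TruncatedWittVector.truncate (Nat.le_succ (k + 1)) y = 0) : x * y = 0 := by
  obtain ⟨X, rfl⟩ := WittVector.truncate_surjective (p := p) (k + 2) F x
  obtain ⟨Y, rfl⟩ := WittVector.truncate_surjective (p := p) (k + 2) F y
  rw [TruncatedWittVector.truncate_wittVector_truncate] at hx hy
  have hX : ∀ i < k + 1, X.coeff i = 0 := (WittVector.mem_ker_truncate (k + 1) X).1 hx
  have hY : ∀ i < k + 1, Y.coeff i = 0 := (WittVector.mem_ker_truncate (k + 1) Y).1 hy
  have hX' := WittVector.eq_iterate_verschiebung hX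
  have hY' := WittVector.eq_iterate_verschiebung hY
  rw [← map_mul]
  apply (WittVector.mem_ker_truncate (k + 2) _).2
  intro i hi
  rw [hX', hY', WittVector.iterate_verschiebung_mul]
  exact WittVector.iterate_verschiebung_coeff_eq_zero _ (by omega)

/-- The residue map on the ring of truncated Witt vectors of length one. -/
noncomputable def phi0 : TruncatedWittVector p 1 F →+* F :=
  RingHom.liftOfRightInverse (WittVector.truncate 1) TruncatedWittVector.out
    TruncatedWittVector.truncateFun_out
    ⟨WittVector.constantCoeff, by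
      intro x hx
      have h := (WittVector.mem_ker_truncate 1 x).1 hx 0 Nat.one_pos
      simpa [RingHom.mem_ker] using h⟩

theorem phi0_truncate (x : 𝕎 F) : phi0 (WittVector.truncate 1 x) = WittVector.constantCoeff x :=
  RingHom.liftOfRightInverse_comp_apply _ _ _ _ _

theorem phi0_surjective : Function.Surjective (phi0 (p := p) (F := F)) := by
  intro a
  refine ⟨WittVector.truncate 1 (WittVector.teichmuller p a), ?_⟩
  rw [phi0_truncate]
  simp

theorem phi0_eq_zero (x : TruncatedWittVector p 1 F) (hx : phi0 x = 0) : x = 0 := by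
  obtain ⟨X, rfl⟩ := WittVector.truncate_surjective (p := p) 1 F x
  rw [phi0_truncate] at hx
  apply (WittVector.mem_ker_truncate 1 X).2
  intro i hi
  obtain rfl : i = 0 := by omega
  simpa using hx

theorem witt_ext_of_trunc {x y : 𝕎 F}
    (h : ∀ n, WittVector.truncate (p := p) (n + 1) x = WittVector.truncate (n + 1) y) : x = y := by
  ext n
  have := congrArg (TruncatedWittVector.coeff (Fin.last n)) (h n)
  simpa using this

variable [Finite F]

instance instFiniteTrunc (n : ℕ) : Finite (TruncatedWittVector p n F) := by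
  unfold TruncatedWittVector
  infer_instance

variable {D : Type v} [Group D] [Finite D] {d : ℕ}

theorem exists_chain (hpD : ¬ p ∣ Nat.card D) (rho : D →* GL (Fin d) F) :
    ∃ ρs : ∀ k, D →* GL (Fin d) (TruncatedWittVector p (k + 1) F),
      (∀ g, Matrix.GeneralLinearGroup.map phi0 (ρs 0 g) = rho g) ∧
      ∀ k g, Matrix.GeneralLinearGroup.map (TruncatedWittVector.truncate (Nat.le_succ (k + 1)))
        (ρs (k + 1) g) = ρs k g := by
  obtain ⟨start, hstart⟩ := exists_lift_step (phi0 (p := p) (F := F)) phi0_surjective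
    (fun x y hx _ => by rw [phi0_eq_zero x hx, zero_mul]) hp.out hpD (natCast_pow_eq_zero 1) rho
  have step : ∀ k (ρ : D →* GL (Fin d) (TruncatedWittVector p (k + 1) F)),
      ∃ ρ' : D →* GL (Fin d) (TruncatedWittVector p (k + 2) F), ∀ g,
        Matrix.GeneralLinearGroup.map (TruncatedWittVector.truncate (Nat.le_succ (k + 1))) (ρ' g)
          = ρ g := fun k ρ =>
    exists_lift_step (TruncatedWittVector.truncate (Nat.le_succ (k + 1)))
      (TruncatedWittVector.truncate_surjective _) (trunc_sq_zero k) hp.out hpD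
      (natCast_pow_eq_zero (k + 2)) ρ
  exact ⟨fun k => Nat.rec start (fun k ih => Classical.choose (step k ih)) k, hstart,
    fun k g => Classical.choose_spec (step k _) g⟩

theorem trunc_self (n : ℕ) (x : TruncatedWittVector p n F) :
    TruncatedWittVector.truncate (le_refl n) x = x := by
  obtain ⟨X, rfl⟩ := WittVector.truncate_surjective (p := p) n F x
  rw [TruncatedWittVector.truncate_wittVector_truncate]

theorem exists_witt_lift (hpD : ¬ p ∣ Nat.card D) (rho : D →* GL (Fin d) F) :
    ∃ R : D →* Matrix (Fin d) (Fin d) (𝕎 F), ∀ g i j,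
      WittVector.constantCoeff (R g i j) = (rho g : Matrix (Fin d) (Fin d) F) i j := by
  classical
  obtain ⟨ρs, h0, hs⟩ := exists_chain (p := p) hpD rho
  let E : ∀ k, D → Fin d → Fin d → TruncatedWittVector p (k + 1) F :=
    fun k g i j => (ρs k g : Matrix (Fin d) (Fin d) _) i j
  have hE1 : ∀ k g i j, TruncatedWittVector.truncate (Nat.le_succ (k + 1)) (E (k + 1) g i j)
      = E k g i j := by
    intro k g i j
    have := congrArg (fun Z => (Units.val Z) i j) (hs k g)
    simpa using this
  have hE : ∀ k₁ k₂ (h : k₁ ≤ k₂) g i j,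
      TruncatedWittVector.truncate (Nat.succ_le_succ h) (E k₂ g i j) = E k₁ g i j := by
    intro k₁ k₂ h g i j
    induction k₂, h using Nat.le_induction with
    | base => exact trunc_self _ _
    | succ k₂ h ih =>
      rw [← ih, ← hE1 k₂ g i j, TruncatedWittVector.truncate_truncate]
  let R0 : D → Matrix (Fin d) (Fin d) (𝕎 F) := fun g i j =>
    WittVector.mk' (p := p) (fun n => (E n g i j).coeff (Fin.last n))
  have hT : ∀ k g i j, WittVector.truncate (k + 1) (R0 g i j) = E k g i j := by
    intro k g i j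
    ext ⟨n, hn⟩
    rw [WittVector.coeff_truncate]
    have h := hE n k (by omega) g i j
    show (E n g i j).coeff (Fin.last n) = (E k g i j).coeff ⟨n, hn⟩
    rw [← h, TruncatedWittVector.coeff_truncate]
    rfl
  have hone : R0 1 = 1 := by
    ext1 i j
    apply witt_ext_of_trunc
    intro n
    rw [hT]
    by_cases hij : i = j
    · subst hij
      simp [E]
    · simp [E, hij]
  have hmul : ∀ g h, R0 (g * h) = R0 g * R0 h := by
    intro g h
    ext1 i j
    apply witt_ext_of_trunc
    intro n
    rw [hT, Matrix.mul_apply, map_sum]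
    simp only [map_mul, hT]
    simp [E, Matrix.mul_apply]
  refine ⟨⟨⟨R0, hone⟩, hmul⟩, fun g i j => ?_⟩
  show WittVector.constantCoeff (R0 g i j) = _
  rw [← phi0_truncate, hT]
  have := congrArg (fun Z => (Units.val Z) i j) (h0 g)
  simpa using this

end Witt


section Embed

open Cardinal

variable {p : ℕ} [hp : Fact p.Prime] {F : Type u} [Field F] [CharP F p]

local notation "𝕎" => WittVector p

theorem witt_charZero : CharZero (𝕎 F) := by
  obtain ⟨c, hc⟩ := CharP.exists (𝕎 F)
  rcases CharP.char_is_prime_or_zero (𝕎 F) c with h | h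
  · exfalso
    have h1 : (c : 𝕎 F) = 0 := CharP.cast_eq_zero _ _
    have h2 : (c : F) = 0 := by
      rw [← map_natCast (WittVector.constantCoeff (p := p) (R := F)) c, h1, map_zero]
    have h3 : p ∣ c := (CharP.cast_eq_zero_iff F p c).1 h2
    have h4 : p = c := (Nat.prime_dvd_prime_iff_eq hp.out h).1 h3
    exact WittVector.p_nonzero p F ((CharP.cast_eq_zero_iff (𝕎 F) c p).2 (dvd_of_eq h4.symm))
  · subst h
    exact CharP.charP_to_charZero _

theorem witt_card [Finite F] : #(𝕎 F) = 𝔠 := by
  let e : 𝕎 F ≃ (ℕ → F) :=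
    { toFun := fun x => x.coeff
      invFun := fun f => WittVector.mk' f
      left_inv := fun _ => rfl
      right_inv := fun _ => rfl }
  rw [Cardinal.mk_congr e, Cardinal.mk_arrow]
  have h2 : 2 ≤ Nat.card F := Finite.one_lt_card
  have h3 := Cardinal.nat_power_aleph0 h2
  simp only [Cardinal.mk_nat, Cardinal.lift_aleph0, Cardinal.lift_uzero]
  rw [← h3, Nat.cast_card]

theorem exists_embed [Finite F] : ∃ ι : 𝕎 F →+* ℂ, Function.Injective ι := by
  have hcz : CharZero (𝕎 F) := witt_charZero
  let K := FractionRing (𝕎 F)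
  let L := AlgebraicClosure K
  have hK : CharZero K := charZero_of_injective_algebraMap (IsFractionRing.injective (𝕎 F) K)
  have hL : CharZero L := charZero_of_injective_algebraMap (algebraMap K L).injective
  have hcK : #K ≤ 𝔠 := by
    have := IsLocalization.cardinalMk_le (R := 𝕎 F) (L := K) (nonZeroDivisors (𝕎 F))
    rwa [witt_card] at this
  have hcL1 : #L ≤ 𝔠 := by
    have := Algebra.IsAlgebraic.cardinalMk_le_max K L
    refine this.trans (max_le hcK ?_)
    exact Cardinal.aleph0_le_continuum
  have hinj : Function.Injective ((algebraMap K L).comp (algebraMap (𝕎 F) K)) :=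
    (algebraMap K L).injective.comp (IsFractionRing.injective (𝕎 F) K)
  have hcL2 : 𝔠 ≤ #L := by
    rw [← witt_card (p := p) (F := F)]
    exact Cardinal.mk_le_of_injective hinj
  have hcL : #L = 𝔠 := le_antisymm hcL1 hcL2
  have hne : Nonempty (L ≃ ℂ) := by
    apply Cardinal.lift_mk_eq'.1
    rw [hcL, Cardinal.mk_complex]
    simp
  obtain ⟨e⟩ := IsAlgClosed.ringEquiv_of_equiv_of_charZero (K := L) (L := ℂ)
    (by rw [hcL]; exact Cardinal.aleph0_lt_continuum) hne
  refine ⟨e.toRingHom.comp ((algebraMap K L).comp (algebraMap (𝕎 F) K)), ?_⟩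
  exact e.injective.comp hinj

theorem exists_eq_p_mul [Finite F] (y : 𝕎 F) (hy : y.coeff 0 = 0) : ∃ z, y = (p : 𝕎 F) * z := by
  by_cases h0 : y = 0
  · exact ⟨0, by simp [h0]⟩
  obtain ⟨m, b, hb, hyb⟩ := WittVector.exists_eq_pow_p_mul y h0
  rcases m with - | m
  · exfalso
    apply hb
    rw [hyb] at hy
    simpa using hy
  · exact ⟨(p : 𝕎 F) ^ m * b, by rw [hyb]; ring⟩

end Embed


section Main

open Cfsg

variable {p : ℕ} [hp : Fact p.Prime] {F : Type u} [Field F] [Finite F] [CharP F p]
  {D : Type v} [Group D] {d : ℕ}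

local notation "𝕎" => WittVector p

theorem commutant_divisible (R : D →* Matrix (Fin d) (Fin d) (𝕎 F)) (rho : D →* GL (Fin d) F)
    (hR : ∀ g i j, WittVector.constantCoeff (R g i j) = (rho g).val i j)
    (hsc : ∀ M : Matrix (Fin d) (Fin d) F, (∀ g, (rho g).val * M = M * (rho g).val) →
      ∃ c : F, M = c • 1)
    (i₀ : Fin d) (k : ℕ) : ∀ Y : Matrix (Fin d) (Fin d) (𝕎 F), (∀ g, R g * Y = Y * R g) →
      Y i₀ i₀ = 0 → ∃ Y' : Matrix (Fin d) (Fin d) (𝕎 F), Y = ((p : 𝕎 F) ^ k) • Y' := by
  induction k with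
  | zero =>
    intro Y _ _
    exact ⟨Y, by simp⟩
  | succ k ih =>
    intro Y hY h0
    let cc : 𝕎 F →+* F := WittVector.constantCoeff
    have hredR : ∀ g, (R g).map cc = (rho g).val := by
      intro g
      ext i j
      exact hR g i j
    have hcomm : ∀ g, (rho g).val * Y.map cc = Y.map cc * (rho g).val := by
      intro g
      rw [← hredR g]
      have := congrArg (fun Z => cc.mapMatrix Z) (hY g)
      simpa [map_mul] using this
    obtain ⟨c, hc⟩ := hsc _ hcomm
    have hc0 : c = 0 := by
      have := congrFun (congrFun hc i₀) i₀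
      simpa [h0] using this.symm
    have hzero : ∀ i j, (Y i j).coeff 0 = 0 := by
      intro i j
      have := congrFun (congrFun hc i) j
      rw [hc0] at this
      simpa [cc] using this
    choose Z hZ using fun i j => exists_eq_p_mul (Y i j) (hzero i j)
    let Y₁ : Matrix (Fin d) (Fin d) (𝕎 F) := Matrix.of Z
    have hY₁ : Y = (p : 𝕎 F) • Y₁ := by
      ext1 i j
      simp [Y₁, ← hZ]
    have hpne : (p : 𝕎 F) ≠ 0 := WittVector.p_nonzero p F
    have h1comm : ∀ g, R g * Y₁ = Y₁ * R g := by
      intro g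
      have h2 := hY g
      rw [hY₁, Matrix.mul_smul, Matrix.smul_mul] at h2
      ext1 i j
      have h3 := congrFun (congrFun h2 i) j
      simp only [Matrix.smul_apply, smul_eq_mul] at h3
      exact mul_left_cancel₀ hpne h3
    have h10 : Y₁ i₀ i₀ = 0 := by
      have h2 := hZ i₀ i₀
      rw [h0] at h2
      exact (mul_eq_zero.1 h2.symm).resolve_left hpne
    obtain ⟨Y', hY'⟩ := ih Y₁ h1comm h10
    exact ⟨Y', by rw [hY₁, hY', smul_smul, pow_succ']⟩

theorem commutant_zero (R : D →* Matrix (Fin d) (Fin d) (𝕎 F)) (rho : D →* GL (Fin d) F)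
    (hR : ∀ g i j, WittVector.constantCoeff (R g i j) = (rho g).val i j)
    (hsc : ∀ M : Matrix (Fin d) (Fin d) F, (∀ g, (rho g).val * M = M * (rho g).val) →
      ∃ c : F, M = c • 1)
    (i₀ : Fin d) (Y : Matrix (Fin d) (Fin d) (𝕎 F)) (hY : ∀ g, R g * Y = Y * R g)
    (h0 : Y i₀ i₀ = 0) : Y = 0 := by
  ext1 i j
  by_contra hne
  have hpne : (p : 𝕎 F) ≠ 0 := WittVector.p_nonzero p F
  obtain ⟨m, b, hb, hyb⟩ := WittVector.exists_eq_pow_p_mul (Y i j) hne
  obtain ⟨Y', hY'⟩ := commutant_divisible R rho hR hsc i₀ (m + 1) Y hY h0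
  have h1 : Y i j = (p : 𝕎 F) ^ (m + 1) * Y' i j := by
    rw [hY']
    rfl
  rw [hyb, pow_succ, mul_assoc] at h1
  have h2 : b = (p : 𝕎 F) * Y' i j := mul_left_cancel₀ (pow_ne_zero m hpne) h1
  apply hb
  rw [h2, mul_comm]
  exact WittVector.mul_charP_coeff_zero _

theorem sum_conj_scalar [Fintype D] (R : D →* Matrix (Fin d) (Fin d) (𝕎 F))
    (rho : D →* GL (Fin d) F)
    (hR : ∀ g i j, WittVector.constantCoeff (R g i j) = (rho g).val i j)
    (hsc : ∀ M : Matrix (Fin d) (Fin d) F, (∀ g, (rho g).val * M = M * (rho g).val) →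
      ∃ c : F, M = c • 1)
    (i₀ : Fin d) (X : Matrix (Fin d) (Fin d) (𝕎 F)) :
    ∃ c : 𝕎 F, ∑ g : D, R g * X * R g⁻¹ = c • (1 : Matrix (Fin d) (Fin d) (𝕎 F)) := by
  let P : Matrix (Fin d) (Fin d) (𝕎 F) := ∑ g : D, R g * X * R g⁻¹
  have hP : ∀ h, R h * P = P * R h := by
    intro h
    simp only [P, Finset.mul_sum, Finset.sum_mul]
    refine Fintype.sum_equiv (Equiv.mulLeft h) _ _ (fun g => ?_)
    have hk : R (h * g)⁻¹ * R h = R g⁻¹ := by
      rw [← map_mul]
      congr 1
      group
    simp only [Equiv.coe_mulLeft, map_mul R h g, Matrix.mul_assoc, hk]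
  refine ⟨P i₀ i₀, ?_⟩
  have h1 : P - (P i₀ i₀) • (1 : Matrix (Fin d) (Fin d) (𝕎 F)) = 0 := by
    apply commutant_zero R rho hR hsc i₀
    · intro g
      rw [Matrix.mul_sub, Matrix.sub_mul, hP, Matrix.mul_smul, Matrix.smul_mul, Matrix.mul_one,
        Matrix.one_mul]
    · simp
  exact sub_eq_zero.1 h1

end Main


section Final

open Cfsg Cfsg.Agent.Lib.CharBasic Cfsg.Agent.Lib.CharKernel
open scoped ComplexConjugate

variable {p : ℕ} [hp : Fact p.Prime] {F : Type u} [Field F] [Finite F] [CharP F p]
  {D : Type v} [Group D] [Fintype D] {d : ℕ}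

local notation "𝕎" => WittVector p

/-- The representation attached to a matrix homomorphism. -/
noncomputable def repOfMatrix (A : D →* Matrix (Fin d) (Fin d) ℂ) :
    Representation ℂ D (Fin d → ℂ) where
  toFun x := Matrix.toLin' (A x)
  map_one' := by simp; rfl
  map_mul' x y := by
    rw [map_mul]
    exact Matrix.toLin'_mul _ _

theorem character_repOfMatrix (A : D →* Matrix (Fin d) (Fin d) ℂ) (g : D) :
    (repOfMatrix A).character g = (A g).trace := by
  show LinearMap.trace ℂ _ (Matrix.toLin' (A g)) = _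
  exact Matrix.trace_toLin'_eq (A g)

/-- Lifting a coprime modular representation to characteristic zero. -/
theorem exists_lift_character (hpD : ¬ p ∣ Nat.card D) (hd : 0 < d) (rho : D →* GL (Fin d) F) :
    ∃ W : D → ℂ, IsCharacter D W ∧ W 1 = d ∧
      (Function.Injective rho → ∀ g, W g = W 1 → g = 1) ∧
      (∀ x, (∀ v : Fin d → F, (rho x).val.mulVec v = v → v = 0) →
        ∑ i ∈ Finset.range (orderOf x), W (x ^ i) = 0) ∧
      ((∀ M : Matrix (Fin d) (Fin d) F, (∀ g, (rho g).val * M = M * (rho g).val) →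
          ∃ c : F, M = c • 1) →
        classInner W W = 1) := by
  classical
  obtain ⟨R, hR⟩ := exists_witt_lift (p := p) hpD rho
  obtain ⟨ι, hι⟩ := exists_embed (p := p) (F := F)
  let A : D →* Matrix (Fin d) (Fin d) ℂ := (RingHom.toMonoidHom (ι.mapMatrix (m := Fin d))).comp R
  have hA : ∀ g i j, A g i j = ι (R g i j) := fun g i j => rfl
  let W : D → ℂ := fun g => (A g).trace
  have hchar : IsCharacter D W := ⟨d, repOfMatrix A, funext (character_repOfMatrix A)⟩
  have hW1 : W 1 = d := by simp [W]
  refine ⟨W, hchar, hW1, ?_, ?_, ?_⟩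
  · intro hinj g hg
    have h1 : (repOfMatrix A).character g = (repOfMatrix A).character 1 := by
      rw [character_repOfMatrix, character_repOfMatrix]
      exact hg
    have h2 := (charKer_iff_rep (repOfMatrix A)).1 h1
    have h3 : A g = 1 := by
      have h5 : Matrix.toLin' (A g) = Matrix.toLin' (1 : Matrix (Fin d) (Fin d) ℂ) := by
        rw [Matrix.toLin'_one]
        exact h2
      exact Matrix.toLin'.injective h5
    apply hinj
    rw [map_one]
    apply Units.ext
    ext i j
    rw [← hR g i j]
    have h4 : ι (R g i j) = ι ((1 : Matrix (Fin d) (Fin d) (𝕎 F)) i j) := by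
      rw [← hA, h3]
      by_cases hij : i = j
      · subst hij
        simp
      · simp [hij]
    rw [hι h4]
    by_cases hij : i = j
    · subst hij
      simp
    · simp [hij]
  · intro x hx
    have hdet0 : ((rho x).val - 1).det ≠ 0 := by
      intro h0
      obtain ⟨v, hv, hv0⟩ := Matrix.exists_mulVec_eq_zero_iff.2 h0
      apply hv
      apply hx
      rw [Matrix.sub_mulVec, Matrix.one_mulVec, sub_eq_zero] at hv0
      exact hv0
    let cc : 𝕎 F →+* F := WittVector.constantCoeff
    have hred : cc.mapMatrix (R x - 1) = (rho x).val - 1 := by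
      rw [map_sub, map_one]
      congr 1
      ext i j
      exact hR x i j
    have hdetT : (R x - 1).det ≠ 0 := by
      intro h0
      apply hdet0
      rw [← hred, ← RingHom.map_det, h0, map_zero]
    have hdetB : (A x - 1).det ≠ 0 := by
      have h5 : ι.mapMatrix (R x - 1) = A x - 1 := by
        rw [map_sub, map_one]
        rfl
      rw [← h5, ← RingHom.map_det]
      exact fun h0 => hdetT (hι (by rw [h0, map_zero]))
    have hS : (A x - 1) * ∑ i ∈ Finset.range (orderOf x), A x ^ i = 0 := by
      rw [mul_geom_sum, ← map_pow, pow_orderOf_eq_one, map_one, sub_self]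
    have hS0 : ∑ i ∈ Finset.range (orderOf x), A x ^ i = 0 := by
      have hu : IsUnit (A x - 1) :=
        (Matrix.isUnit_iff_isUnit_det _).2 (isUnit_iff_ne_zero.2 hdetB)
      exact hu.mul_right_eq_zero.1 hS
    have h6 := congrArg Matrix.trace hS0
    rw [Matrix.trace_sum, Matrix.trace_zero] at h6
    simpa [W, map_pow] using h6
  · intro hsc
    let i₀ : Fin d := ⟨0, hd⟩
    have hC : ∀ i j, ∃ C : ℂ, ∀ k l, ∑ g : D, A g k i * A g⁻¹ j l =
        C * (1 : Matrix (Fin d) (Fin d) ℂ) k l := by
      intro i j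
      obtain ⟨c, hc⟩ := sum_conj_scalar R rho hR hsc i₀ (Matrix.single i j 1)
      refine ⟨ι c, fun k l => ?_⟩
      have h1 := congrFun (congrFun hc k) l
      have h2 : ∀ g, (R g * Matrix.single i j 1 * R g⁻¹ : Matrix (Fin d) (Fin d) (𝕎 F)) k l =
          R g k i * R g⁻¹ j l := by
        intro g
        rw [Matrix.mul_apply, Finset.sum_eq_single j]
        · rw [Matrix.mul_apply, Finset.sum_eq_single i]
          · simp
          · intro b _ hb
            simp [hb.symm]
          · simp
        · intro b _ hb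
          have h7 : (R g * Matrix.single i j 1 : Matrix (Fin d) (Fin d) (𝕎 F)) k b = 0 := by
            rw [Matrix.mul_apply]
            apply Finset.sum_eq_zero
            intro c _
            simp [hb.symm]
          rw [h7, zero_mul]
        · simp
      rw [Matrix.sum_apply] at h1
      simp only [h2, Matrix.smul_apply, smul_eq_mul] at h1
      have h3 := congrArg ι h1
      rw [map_sum, map_mul] at h3
      simp only [map_mul] at h3
      simp only [hA]
      rw [h3]
      congr 1
      by_cases hkl : k = l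
      · subst hkl
        simp
      · simp [hkl]
    choose C hC using hC
    have hcard : (Nat.card D : ℂ) ≠ 0 := natCard_ne_zero'
    have hdC : (d : ℂ) ≠ 0 := by exact_mod_cast hd.ne'
    have hCii : ∀ i, C i i * d = Nat.card D := by
      intro i
      have h1 : ∑ k : Fin d, ∑ g : D, A g k i * A g⁻¹ i k =
          ∑ k : Fin d, C i i * (1 : Matrix (Fin d) (Fin d) ℂ) k k :=
        Finset.sum_congr rfl fun k _ => hC i i k k
      have h2 : ∑ k : Fin d, C i i * (1 : Matrix (Fin d) (Fin d) ℂ) k k = C i i * d := by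
        simp [mul_comm]
      have h3 : ∑ k : Fin d, ∑ g : D, A g k i * A g⁻¹ i k = Nat.card D := by
        rw [Finset.sum_comm]
        have h5 : ∀ g : D, ∑ k : Fin d, A g k i * A g⁻¹ i k = 1 := by
          intro g
          have h4 : (A g⁻¹ * A g) i i = 1 := by
            rw [← map_mul]
            simp
          rw [Matrix.mul_apply] at h4
          rw [← h4]
          exact Finset.sum_congr rfl fun k _ => mul_comm _ _
        simp [h5, Nat.card_eq_fintype_card]
      rw [← h2, ← h1, h3]
    have hsum : ∑ g : D, W g * W g⁻¹ = Nat.card D := by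
      have h1 : ∀ g : D, W g * W g⁻¹ = ∑ i : Fin d, ∑ j : Fin d, A g i i * A g⁻¹ j j := by
        intro g
        simp only [W, Matrix.trace, Matrix.diag_apply, Finset.sum_mul_sum]
      simp only [h1]
      rw [Finset.sum_comm]
      have h2 : ∀ i : Fin d, ∑ g : D, ∑ j : Fin d, A g i i * A g⁻¹ j j = C i i := by
        intro i
        rw [Finset.sum_comm]
        simp only [hC i _ i _]
        simp [Matrix.one_apply]
      simp only [h2]
      have h3 : ∀ i, C i i = Nat.card D / d := fun i => by
        rw [eq_div_iff hdC]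
        exact hCii i
      simp only [h3, Finset.sum_const, Finset.card_univ, Fintype.card_fin, nsmul_eq_mul]
      field_simp
    unfold classInner
    have h2 : ∀ g, W g * (starRingEnd ℂ) (W g) = W g * W g⁻¹ := fun g => by
      rw [char_conj_eq_inv hchar]
    simp only [h2, hsum]
    exact inv_mul_cancel₀ hcard

end Final

end Cfsg.Agent.Lib.OddLift
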