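import Mathlib
import Cfsg.Agent.S1160
import Cfsg.Agent.Lib.OddA2
import Cfsg.Agent.Lib.OddLift
import Cfsg.Agent.Lib.PCore

/-!
# Reduction of S1161 to the normality of `⟨x⟩` (Thm X)
-/

set_option autoImplicit false
set_option linter.unusedVariables false
set_option linter.unusedSectionVars false

namespace Cfsg.Agent.Lib.OddGlue

universe u v

open Cfsg Cfsg.Agent.Lib.PCore

theorem card_stab {D : Type u} {E : Type v} [Group D] [MulAction D E] (N : Subgroup D)
    (hN : N.Normal) (d : D) (a : E) :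
    Nat.card (MulAction.stabilizer N a) = Nat.card (MulAction.stabilizer N (d • a)) := by
  refine Nat.card_congr ⟨fun x => ⟨⟨d * x.1.1 * d⁻¹, hN.conj_mem _ x.1.2 d⟩, ?_⟩,
    fun y => ⟨⟨d⁻¹ * y.1.1 * d, ?_⟩, ?_⟩, ?_, ?_⟩
  · have hx : ((x.1 : N) : D) • a = a := x.2
    rw [MulAction.mem_stabilizer_iff, Subgroup.smul_def]
    show (d * (x.1 : N) * d⁻¹) • (d • a) = d • a
    rw [mul_smul, mul_smul, inv_smul_smul, hx]
  · have h1 := hN.conj_mem _ y.1.2 d⁻¹
    rwa [inv_inv] at h1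
  · have hy : ((y.1 : N) : D) • (d • a) = d • a := y.2
    rw [MulAction.mem_stabilizer_iff, Subgroup.smul_def]
    show (d⁻¹ * (y.1 : N) * d) • a = a
    rw [mul_smul, mul_smul, hy, inv_smul_smul]
  · intro x
    apply Subtype.ext
    apply Subtype.ext
    show d⁻¹ * (d * (x.1 : N) * d⁻¹) * d = (x.1 : N)
    group
  · intro y
    apply Subtype.ext
    apply Subtype.ext
    show d * (d⁻¹ * (y.1 : N) * d) * d⁻¹ = (y.1 : N)
    group

theorem core_props {D : Type u} {E : Type v} [Group D] [Finite D]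
    [AddCommGroup E] [Finite E] [DistribMulAction D E] [FaithfulSMul D E]
    (hodd : Odd (Nat.card D)) {q : ℕ} (hq : q.Prime) (hE : ∀ e : E, q • e = 0)
    (htrans : ∀ a b : E, a ≠ 0 → b ≠ 0 → ∃ d : D, d • a = b) (p : ℕ) [Fact p.Prime] :
    IsCyclic ↥(pCore p D) ∧ ∀ g ∈ pCore p D, g ≠ 1 → ∀ a : E, g • a = a → a = 0 := by
  by_cases hp2 : p = 2
  · subst hp2
    have hb : pCore 2 D = ⊥ := pCore_eq_bot_of_coprime 2 (Nat.coprime_two_right.2 hodd)
    rw [hb]
    refine ⟨isCyclic_of_subsingleton, fun g hg h1 => absurd (Subgroup.mem_bot.1 hg) h1⟩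
  · have hN : (pCore p D).Normal := inferInstance
    have hconst : ∀ a b : E, a ≠ 0 → b ≠ 0 →
        Nat.card (MulAction.stabilizer ↥(pCore p D) a) =
          Nat.card (MulAction.stabilizer ↥(pCore p D) b) := by
      intro a b ha hb
      obtain ⟨d, rfl⟩ := htrans a b ha hb
      exact card_stab _ hN d a
    have h := Cfsg.Agent.S1160.result (P := ↥(pCore p D)) (E := E) (p := p) (q := q) hp2
      (isPGroup_pCore p) hq hE hconst
    refine ⟨h.1, fun g hg h1 a ha => h.2 ⟨g, hg⟩ ?_ a ha⟩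
    intro h2
    exact h1 (congrArg Subtype.val h2)

theorem sylow_map_le {D : Type u} [Group D] [Finite D] (p : ℕ) [Fact p.Prime]
    (Q : Sylow p ↥(fittingSubgroup D)) :
    (Q : Subgroup ↥(fittingSubgroup D)).map (fittingSubgroup D).subtype ≤ pCore p D := by
  have hn : Group.IsNilpotent ↥(fittingSubgroup D) := isNilpotent_fittingSubgroup
  have hPn : (Q : Subgroup ↥(fittingSubgroup D)).Normal :=
    ((Group.isNilpotent_of_finite_tfae (G := ↥(fittingSubgroup D))).out 0 3 rfl rfl).mp hn p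
      inferInstance Q
  have hchar : (Q : Subgroup ↥(fittingSubgroup D)).Characteristic :=
    Sylow.characteristic_of_normal Q hPn
  have hmapn : ((Q : Subgroup ↥(fittingSubgroup D)).map (fittingSubgroup D).subtype).Normal :=
    inferInstance
  have hpG : IsPGroup p ((Q : Subgroup ↥(fittingSubgroup D)).map (fittingSubgroup D).subtype) :=
    Q.isPGroup'.map _
  exact le_pCore hmapn hpG

theorem mem_core {D : Type u} [Group D] [Finite D] (p : ℕ) [Fact p.Prime] {h : D}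
    (hF : h ∈ fittingSubgroup D) (hh : h ^ p = 1) : h ∈ pCore p D := by
  have hpg : IsPGroup p (Subgroup.zpowers (⟨h, hF⟩ : ↥(fittingSubgroup D))) := by
    rintro ⟨y, k, rfl⟩
    refine ⟨1, ?_⟩
    apply Subtype.ext
    apply Subtype.ext
    show (h ^ k) ^ p ^ 1 = 1
    rw [pow_one, ← zpow_natCast, ← zpow_mul, mul_comm, zpow_mul, zpow_natCast, hh, one_zpow]
  obtain ⟨Q, hQ⟩ := hpg.exists_le_sylow
  exact sylow_map_le p Q ⟨⟨h, hF⟩, hQ (Subgroup.mem_zpowers _), rfl⟩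

theorem fitting_cyclic {D : Type u} [Group D] [Finite D]
    (hc : ∀ (p : ℕ) [Fact p.Prime], IsCyclic ↥(pCore p D)) :
    IsCyclic ↥(fittingSubgroup D) := by
  haveI hZ : IsZGroup ↥(fittingSubgroup D) := ⟨fun p hp Q => by
    haveI := Fact.mk hp
    haveI := hc p
    let f : ↥(Q : Subgroup ↥(fittingSubgroup D)) →* ↥(pCore p D) :=
      ((fittingSubgroup D).subtype.comp (Q : Subgroup ↥(fittingSubgroup D)).subtype).codRestrict
        (pCore p D) (fun y => sylow_map_le p Q ⟨y.1, y.2, rfl⟩)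
    have hf : Function.Injective f := by
      intro a b hab
      have h1 : ((a : ↥(fittingSubgroup D)) : D) = ((b : ↥(fittingSubgroup D)) : D) := by
        have h0 := congrArg (fun y : ↥(pCore p D) => (y : D)) hab
        exact h0
      exact Subtype.ext (Subtype.ext h1)
    exact isCyclic_of_injective f hf⟩
  haveI hn : Group.IsNilpotent ↥(fittingSubgroup D) := isNilpotent_fittingSubgroup
  infer_instance

theorem fitting_fpf {D : Type u} {E : Type v} [Group D] [Finite D] [AddCommGroup E]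
    [DistribMulAction D E]
    (hfp : ∀ (p : ℕ) [Fact p.Prime], ∀ g ∈ pCore p D, g ≠ 1 → ∀ a : E, g • a = a → a = 0) :
    ∀ g ∈ fittingSubgroup D, g ≠ 1 → ∀ a : E, g • a = a → a = 0 := by
  intro g hg hg1 a hga
  have ho1 : orderOf g ≠ 1 := fun h => hg1 (orderOf_eq_one_iff.1 h)
  have ho0 : orderOf g ≠ 0 := (orderOf_pos g).ne'
  obtain ⟨p, hp, hpd⟩ := Nat.exists_prime_and_dvd ho1
  haveI := Fact.mk hp
  have hord : orderOf (g ^ (orderOf g / p)) = p := orderOf_pow_orderOf_div ho0 hpd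
  have hh1 : g ^ (orderOf g / p) ≠ 1 := by
    intro h
    rw [h, orderOf_one] at hord
    exact hp.one_lt.ne hord
  have hhp : (g ^ (orderOf g / p)) ^ p = 1 := by
    have h0 := pow_orderOf_eq_one (g ^ (orderOf g / p))
    rwa [hord] at h0
  have hcore := mem_core p (pow_mem hg _) hhp
  refine hfp p _ hcore hh1 a ?_
  have h1 : g ∈ MulAction.stabilizer D a := hga
  exact pow_mem h1 _

theorem comm_le {D : Type u} [Group D] [Finite D] {x : D}
    (hC : IsCyclic ↥(Subgroup.centralizer ({x} : Set D)))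
    (hnorm : ∀ g : D, g * x * g⁻¹ ∈ Subgroup.zpowers x) :
    commutator D ≤ fittingSubgroup D := by
  -- the centralizer is normal
  have hCn : (Subgroup.centralizer ({x} : Set D)).Normal := by
    constructor
    intro c hc g
    rw [Subgroup.mem_centralizer_singleton_iff] at hc ⊢
    obtain ⟨k, hk⟩ := hnorm g⁻¹
    have hk' : x ^ k = g⁻¹ * x * g := by
      have h0 : x ^ k = g⁻¹ * x * g⁻¹⁻¹ := hk
      rwa [inv_inv] at h0
    have hc' : c * x ^ k = x ^ k * c := ((Commute.zpow_right (show Commute c x from hc) k)).eq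
    rw [hk'] at hc'
    calc g * c * g⁻¹ * x = g * (c * (g⁻¹ * x * g)) * g⁻¹ := by group
      _ = g * ((g⁻¹ * x * g) * c) * g⁻¹ := by rw [hc']
      _ = x * (g * c * g⁻¹) := by group
  have hCnil : Group.IsNilpotent ↥(Subgroup.centralizer ({x} : Set D)) :=
    @CommGroup.isNilpotent _ (IsCyclic.commGroup)
  have hle := le_fittingSubgroup hCn hCnil
  refine le_trans ?_ hle
  rw [commutator_def, Subgroup.commutator_le]
  intro g _ h _
  have hswap : ∀ a b : D, (a * b) * x * (a * b)⁻¹ = (b * a) * x * (b * a)⁻¹ := by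
    intro a b
    obtain ⟨m, hm⟩ := hnorm a
    obtain ⟨n, hn⟩ := hnorm b
    have h1 : (a * b) * x * (a * b)⁻¹ = a * (b * x * b⁻¹) * a⁻¹ := by group
    have h2 : (b * a) * x * (b * a)⁻¹ = b * (a * x * a⁻¹) * b⁻¹ := by group
    have hm' : a * x * a⁻¹ = x ^ m := hm.symm
    have hn' : b * x * b⁻¹ = x ^ n := hn.symm
    have h3 : a * x ^ n * a⁻¹ = x ^ (m * n) := by
      rw [← conj_zpow, hm', ← zpow_mul]
    have h4 : b * x ^ m * b⁻¹ = x ^ (n * m) := by
      rw [← conj_zpow, hn', ← zpow_mul]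
    rw [h1, h2, hn', hm', h3, h4, mul_comm]
  rw [Subgroup.mem_centralizer_singleton_iff]
  have h5 := hswap g⁻¹ h⁻¹
  show g * h * g⁻¹ * h⁻¹ * x = x * (g * h * g⁻¹ * h⁻¹)
  have h6 : g * h * g⁻¹ * h⁻¹ = (h⁻¹ * g⁻¹)⁻¹ * (g⁻¹ * h⁻¹) := by group
  rw [h6]
  have h7 : (g⁻¹ * h⁻¹) * x = ((h⁻¹ * g⁻¹) * x * (h⁻¹ * g⁻¹)⁻¹) * (g⁻¹ * h⁻¹) := by
    rw [← h5]
    group
  calc (h⁻¹ * g⁻¹)⁻¹ * (g⁻¹ * h⁻¹) * x = (h⁻¹ * g⁻¹)⁻¹ * ((g⁻¹ * h⁻¹) * x) := by group
    _ = (h⁻¹ * g⁻¹)⁻¹ * (((h⁻¹ * g⁻¹) * x * (h⁻¹ * g⁻¹)⁻¹) * (g⁻¹ * h⁻¹)) := by rw [h7]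
    _ = x * ((h⁻¹ * g⁻¹)⁻¹ * (g⁻¹ * h⁻¹)) := by group

/-- The form requested in msg 1185: from the structure of `D`. -/
theorem glue {D : Type u} {E : Type v} [Group D] [Finite D]
    [AddCommGroup E] [Finite E] [Nontrivial E] [DistribMulAction D E] [FaithfulSMul D E]
    (hodd : Odd (Nat.card D)) {q : ℕ} (hq : q.Prime) (hE : ∀ e : E, q • e = 0)
    (htrans : ∀ a b : E, a ≠ 0 → b ≠ 0 → ∃ d : D, d • a = b)
    (hstr : IsCyclic D ∨ ∃ (r : ℕ) (x : D), r.Prime ∧ orderOf x = r ∧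
      IsCyclic ↥(Subgroup.centralizer ({x} : Set D)) ∧ ∀ g, g * x * g⁻¹ ∈ Subgroup.zpowers x) :
    IsCyclic ↥(Cfsg.fittingSubgroup D) ∧
      (∀ g ∈ Cfsg.fittingSubgroup D, g ≠ 1 → ∀ a : E, g • a = a → a = 0) ∧
      commutator D ≤ Cfsg.fittingSubgroup D := by
  have hcore := fun (p : ℕ) [Fact p.Prime] => core_props (D := D) (E := E) hodd hq hE htrans p
  refine ⟨fitting_cyclic fun p _ => (hcore p).1, fitting_fpf fun p _ => (hcore p).2, ?_⟩
  rcases hstr with hcyc | ⟨r, x, hr, hx, hC, hnorm⟩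
  · rw [commutator_def, Subgroup.commutator_le]
    intro g _ h _
    have h1 : g * h = h * g := by
      obtain ⟨z, hz⟩ := IsCyclic.exists_generator (α := D)
      obtain ⟨a, ha⟩ := hz g
      obtain ⟨b, hb⟩ := hz h
      have ha' : z ^ a = g := ha
      have hb' : z ^ b = h := hb
      rw [← ha', ← hb']
      exact (Commute.refl z).zpow_zpow a b
    show g * h * g⁻¹ * h⁻¹ ∈ _
    have h2 : g * h * g⁻¹ * h⁻¹ = 1 := by
      rw [h1]
      group
    rw [h2]
    exact one_mem _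
  · exact comm_le hC hnorm

/-- The form of msg 1118: `OddA2.main` and `OddLift` included; Thm X is the only input. -/
theorem glue_of_thmX {D : Type u} {E : Type v} [Group D] [Finite D]
    [AddCommGroup E] [Finite E] [Nontrivial E] [DistribMulAction D E] [FaithfulSMul D E]
    (hodd : Odd (Nat.card D)) {q : ℕ} (hq : q.Prime) (hE : ∀ e : E, q • e = 0)
    (htrans : ∀ a b : E, a ≠ 0 → b ≠ 0 → ∃ d : D, d • a = b)
    (hX : ∀ (x : D) (r n : ℕ) (W : D → ℂ), r.Prime → orderOf x = r →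
      IsCyclic ↥(Subgroup.centralizer ({x} : Set D)) → Cfsg.IsCharacter D W →
      (∀ g, W g = W 1 → g = 1) → W 1 = n → 2 * n + 1 ≤ r →
      ∑ i ∈ Finset.range r, W (x ^ i) = 0 → ∀ g, g * x * g⁻¹ ∈ Subgroup.zpowers x) :
    IsCyclic ↥(Cfsg.fittingSubgroup D) ∧
      (∀ g ∈ Cfsg.fittingSubgroup D, g ≠ 1 → ∀ a : E, g • a = a → a = 0) ∧
      commutator D ≤ Cfsg.fittingSubgroup D := by
  classical
  letI : Fintype D := Fintype.ofFinite D
  refine glue hodd hq hE htrans ?_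
  have hmain := Cfsg.Agent.Lib.OddA2.main (D := D) (E := E) hodd htrans
    (fun F _ _ hpD d rho hd => by
      haveI : Fact (ringChar F).Prime := ⟨CharP.char_is_prime F (ringChar F)⟩
      exact Cfsg.Agent.Lib.OddLift.exists_lift_character (p := ringChar F) hpD hd rho)
  rcases hmain with hcyc | ⟨r, x, W, hr, hx, hC, hW, hfaith, ⟨n, hn, hnr⟩, hsum⟩
  · exact Or.inl hcyc
  · exact Or.inr ⟨r, x, hr, hx, hC, hX x r n W hr hx hC hW hfaith hn hnr hsum⟩

end Cfsg.Agent.Lib.OddGlue
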