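import Mathlib
import Cfsg.Agent.Lib.HypCountE
import Cfsg.Agent.Lib.OrthGroup

/-!
# Odd-dimensional nondegenerate subspaces and their classes
-/

set_option autoImplicit false
set_option linter.unusedSectionVars false
set_option linter.unusedSimpArgs false
set_option linter.unusedVariables false
set_option linter.style.haveILetI false

universe u v

namespace Cfsg.Agent.Lib.OddSub

open Module QuadraticMap Cfsg.Agent.Lib.QuadFF Cfsg.Agent.Lib.IsomBlock Cfsg.Agent.Lib.QuadClass2
open Cfsg.Agent.Lib.QuadClass Cfsg.Agent.Lib.HypEll Cfsg.Agent.Lib.OrthoCount Cfsg.Agent.Lib.HypCount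

variable {F : Type*} [Field F] [Fintype F] {V : Type u} [AddCommGroup V] [Module F V] [FiniteDimensional F V]
variable {Q : QuadraticForm F V}

/-- The class of a nondegenerate odd-dimensional subspace. -/
def CS (Q : QuadraticForm F V) (W : Submodule F V) (α : F) : Prop :=
  α ≠ 0 ∧ ∃ (H : Submodule F V) (v : V), Hyp Q H ∧ Q v = α ∧ (∀ u ∈ H, polar Q u v = 0) ∧ H ⊔ Submodule.span F {v} = W

theorem ne_zero_of_Q {v : V} (hv : Q v ≠ 0) : v ≠ 0 := by
  rintro rfl
  simp at hv

theorem line_nd (h2 : (2 : F) ≠ 0) {v : V} (hv : Q v ≠ 0) : NDOn (Bf Q) (Submodule.span F {v}) := by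
  intro u hu h0
  obtain ⟨a, rfl⟩ := Submodule.mem_span_singleton.1 hu
  have h3 := h0 v (Submodule.mem_span_singleton_self _)
  rw [Bf_apply, polar_sm_l, polar_self_eq] at h3
  have ha : a = 0 := (mul_eq_zero.1 h3).resolve_right (mul_ne_zero h2 hv)
  rw [ha, zero_smul]

theorem orth_line {H : Submodule F V} {v : V} (h : ∀ u ∈ H, polar Q u v = 0) : Orth Q H (Submodule.span F {v}) := by
  intro u hu w hw
  obtain ⟨a, rfl⟩ := Submodule.mem_span_singleton.1 hw
  rw [polar_sm_r, h u hu, mul_zero]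

theorem CS.nd (h2 : (2 : F) ≠ 0) {W : Submodule F V} {α : F} (h : CS Q W α) : NDOn (Bf Q) W := by
  obtain ⟨hα, H, v, hH, hv, hHv, rfl⟩ := h
  exact nd_sup (good h2 Q) hH.1 (line_nd h2 (hv ▸ hα)) (orth_line hHv)

theorem CS.ne {W : Submodule F V} {α : F} (h : CS Q W α) : α ≠ 0 := h.1

/-- A nondegenerate line has a non-singular generator. -/
theorem exists_line_gen (h2 : (2 : F) ≠ 0) {L : Submodule F V} (hL : NDOn (Bf Q) L) (hd : finrank F L = 1) :
    ∃ v ∈ L, Q v ≠ 0 ∧ Submodule.span F {v} = L := by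
  obtain ⟨⟨v, hv⟩, hv0, hspan⟩ := finrank_eq_one_iff'.1 hd
  have hv0' : v ≠ 0 := fun h => hv0 (Subtype.ext h)
  have hspan' : ∀ w ∈ L, ∃ c : F, c • v = w := by
    intro w hw
    obtain ⟨c, hc⟩ := hspan ⟨w, hw⟩
    exact ⟨c, congrArg Subtype.val hc⟩
  refine ⟨v, hv, ?_, ?_⟩
  · intro h0
    apply hv0'
    apply hL v hv
    intro w hw
    obtain ⟨c, rfl⟩ := hspan' w hw
    rw [Bf_apply, polar_sm_r, polar_self_eq, h0]
    simp
  · apply le_antisymm
    · rw [Submodule.span_singleton_le_iff_mem]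
      exact hv
    · intro w hw
      obtain ⟨c, rfl⟩ := hspan' w hw
      exact Submodule.smul_mem _ _ (Submodule.mem_span_singleton_self _)

theorem cs_exists (h2 : (2 : F) ≠ 0) {W : Submodule F V} (hW : NDOn (Bf Q) W) {t : ℕ} (hd : finrank F W = 2 * t + 1) :
    ∃ α, CS Q W α := by
  obtain ⟨H, hHW, hH, hHd⟩ := exists_hyp_sub h2 Q t W hW (by omega)
  have h1 := finrank_rel (good h2 Q) hHW hH.1
  have h3 := nd_rel (good h2 Q) hHW hH.1 hW
  have h4 := sup_rel (good h2 Q) hHW hH.1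
  obtain ⟨v, hv, hQv, hspan⟩ := exists_line_gen h2 h3 (by omega)
  refine ⟨Q v, hQv, H, v, hH, rfl, ?_, ?_⟩
  · intro u hu
    exact hv.2 u hu
  · rw [hspan, h4]

theorem cs_congr {W : Submodule F V} {α β : F} (h : CS Q W α) (hβ : β ≠ 0) (hs : IsSquare (α * β)) : CS Q W β := by
  obtain ⟨hα, H, v, hH, hv, hHv, rfl⟩ := h
  obtain ⟨t, ht⟩ := hs
  have ht0 : t ≠ 0 := by
    rintro rfl
    rw [mul_zero] at ht
    exact (mul_ne_zero hα hβ) ht
  have hs0 : t / α ≠ 0 := div_ne_zero ht0 hα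
  refine ⟨hβ, H, (t / α) • v, hH, ?_, ?_, ?_⟩
  · rw [Q_sm, hv]
    field_simp
    linear_combination -ht
  · intro u hu
    rw [polar_sm_r, hHv u hu, mul_zero]
  · rw [Submodule.span_singleton_smul_eq (IsUnit.mk0 _ hs0)]

/-- Hyperbolic subspaces of the same dimension are isometric. -/
theorem hyp_iso (h2 : (2 : F) ≠ 0) {H H' : Submodule F V} (hH : Hyp Q H) (hH' : Hyp Q H') (hd : finrank F H = finrank F H') :
    ∃ e : H ≃ₗ[F] H', ∀ x, Q (e x : V) = Q (x : V) := by
  obtain ⟨hnd, S, hSH, hS, hSd⟩ := hH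
  obtain ⟨hnd', S', hSH', hS', hSd'⟩ := hH'
  obtain ⟨b, hb⟩ := hyp_of_ts (Q := restr Q H) (m := finrank F S) (by omega) (nd_restr hnd) (S.comap H.subtype) (fun v hv => hS _ hv)
    (finrank_comap_of_le hSH)
  obtain ⟨b', hb'⟩ := hyp_of_ts (Q := restr Q H') (m := finrank F S) (by omega) (nd_restr hnd') (S'.comap H'.subtype) (fun v hv => hS' _ hv)
    (by rw [finrank_comap_of_le hSH']; omega)
  obtain ⟨E, hE⟩ := iso_qPlus_of_hyp hb
  obtain ⟨E', hE'⟩ := iso_qPlus_of_hyp hb'
  refine ⟨E.trans E'.symm, fun x => ?_⟩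
  have h1 := hE' (E'.symm (E x))
  have h3 := hE x
  rw [LinearEquiv.apply_symm_apply] at h1
  exact h1.symm.trans h3

/-- The class of an odd-dimensional subspace is unique up to squares. -/
theorem cs_unique (h2 : (2 : F) ≠ 0) {W : Submodule F V} {α β : F} (h1 : CS Q W α) (h3 : CS Q W β) : IsSquare (α * β) := by
  have hnd := h1.nd h2
  obtain ⟨hα, H, v, hH, hv, hHv, hW⟩ := h1
  obtain ⟨hβ, H', v', hH', hv', hHv', hW'⟩ := h3
  have hv0 : Q v ≠ 0 := hv ▸ hα
  have hv0' : Q v' ≠ 0 := hv' ▸ hβ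
  have hd : finrank F H = finrank F H' := by
    have e1 := finrank_sup_of_orth h2 hH.1 (orth_line hHv)
    have e2 := finrank_sup_of_orth h2 hH'.1 (orth_line hHv')
    rw [hW, finrank_span_singleton (ne_zero_of_Q hv0)] at e1
    rw [hW', finrank_span_singleton (ne_zero_of_Q hv0')] at e2
    omega
  obtain ⟨e, he⟩ := hyp_iso h2 hH hH' hd
  have hHW : H ≤ W := hW ▸ le_sup_left
  have hH'W : H' ≤ W := hW' ▸ le_sup_left
  have hvW : v ∈ W := hW ▸ Submodule.mem_sup_right (Submodule.mem_span_singleton_self _)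
  let H₁ : Submodule F W := H.comap W.subtype
  let θ : H₁ →ₗ[F] H := (W.subtype ∘ₗ H₁.subtype).codRestrict H (fun x => x.2)
  let φ : H₁ →ₗ[F] W := (H'.subtype ∘ₗ e.toLinearMap ∘ₗ θ).codRestrict W (fun x => hH'W (e (θ x)).2)
  have hφ : ∀ x : H₁, ((φ x : W) : V) = (e (θ x) : V) := fun x => rfl
  have hθ : ∀ x : H₁, ((θ x : H) : V) = ((x : W) : V) := fun x => rfl
  have hφinj : Function.Injective φ := by
    intro x y hxy
    have e1 : (e (θ x) : V) = e (θ y) := congrArg (fun z : W => (z : V)) hxy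
    have e2 : θ x = θ y := e.injective (Subtype.ext e1)
    have e3 : ((x : W) : V) = y := congrArg (fun z : H => (z : V)) e2
    exact Subtype.ext (Subtype.ext e3)
  have hφiso : ∀ x : H₁, restr Q W (φ x) = restr Q W x := by
    intro x
    show Q (φ x : V) = Q ((x : W) : V)
    rw [hφ, he, hθ]
  obtain ⟨g, hg, hgφ⟩ := Cfsg.Agent.Lib.OrthGroup.witt (Q := restr Q W) (nondegenerate_of_ND (nd_restr hnd)) H₁ φ hφinj hφiso
  have hgiso : ∀ a : W, restr Q W (g a) = restr Q W a := hg
  have hgpol : ∀ a b : W, polar (restr Q W) (g a) (g b) = polar (restr Q W) a b := by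
    intro a b
    simp only [polar, ← map_add, hgiso]
  set y : W := g ⟨v, hvW⟩ with hy
  have hyW : (y : V) ∈ H' ⊔ Submodule.span F {v'} := by
    rw [hW']
    exact y.2
  obtain ⟨h', hh', z, hz, hyz⟩ := Submodule.mem_sup.1 hyW
  obtain ⟨s, rfl⟩ := Submodule.mem_span_singleton.1 hz
  have hperp : ∀ h'' ∈ H', polar Q (y : V) h'' = 0 := by
    intro h'' hh''
    let a : H := e.symm ⟨h'', hh''⟩
    let x : H₁ := ⟨⟨(a : V), hHW a.2⟩, a.2⟩
    have e1 : ((φ x : W) : V) = h'' := by
      rw [hφ]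
      have : θ x = a := Subtype.ext rfl
      rw [this]
      simp [a]
    have e2 : g (x : W) = φ x := hgφ x
    have e3 := hgpol ⟨v, hvW⟩ (x : W)
    rw [e2, ← hy, polar_restr, polar_restr, e1] at e3
    rw [e3]
    show polar Q v (a : V) = 0
    rw [polar_comm]
    exact hHv _ a.2
  have hh'0 : h' = 0 := by
    apply hH'.1 h' hh'
    intro w hw
    have e1 := hperp w hw
    rw [← hyz, polar_add_left, polar_sm_l, polar_comm Q v' w, hHv' w hw, mul_zero, add_zero] at e1
    exact e1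
  rw [hh'0, zero_add] at hyz
  have hQy : Q (y : V) = Q v := hgiso ⟨v, hvW⟩
  rw [← hyz, Q_sm, hv, hv'] at hQy
  refine ⟨s * β, ?_⟩
  rw [← hQy]
  ring

/-- Adding a hyperbolic summand. -/
theorem hyp_sup_cs (h2 : (2 : F) ≠ 0) {H₁ W : Submodule F V} {α : F} (hH₁ : Hyp Q H₁) (hW : CS Q W α) (h : Orth Q H₁ W) :
    CS Q (H₁ ⊔ W) α := by
  obtain ⟨hα, H, v, hH, hv, hHv, rfl⟩ := hW
  refine ⟨hα, H₁ ⊔ H, v, hyp_sup h2 hH₁ hH (h.mono le_rfl le_sup_left), hv, ?_, by rw [sup_assoc]⟩
  intro u hu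
  obtain ⟨a, ha, b, hb, rfl⟩ := Submodule.mem_sup.1 hu
  rw [polar_add_left, h a ha v (Submodule.mem_sup_right (Submodule.mem_span_singleton_self _)), hHv b hb, add_zero]

/-- A hyperbolic plane from two orthogonal vectors with opposite norms. -/
theorem hyp_plane_of_values (h2 : (2 : F) ≠ 0) {x u : V} (hQx : Q x ≠ 0) (huv : Q u = - Q x) (hpol : polar Q x u = 0) :
    Hyp Q (Submodule.span F {x, u}) ∧ finrank F (Submodule.span F {x, u}) = 2 := by
  have hindep : ∀ s t : F, s • x + t • u = 0 → s = 0 ∧ t = 0 := by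
    intro s t hst
    have e1 := congrArg (polar Q x) hst
    rw [polar_add_right, polar_sm_r, polar_sm_r, hpol, polar_self_eq, polar_zero_right] at e1
    have e2 := congrArg (polar Q u) hst
    rw [polar_add_right, polar_sm_r, polar_sm_r, polar_comm Q u x, hpol, polar_self_eq, huv, polar_zero_right] at e2
    have hs : s = 0 := by
      have : s * (2 * Q x) = 0 := by linear_combination e1
      exact (mul_eq_zero.1 this).resolve_right (mul_ne_zero h2 hQx)
    have ht : t = 0 := by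
      have : t * (2 * Q x) = 0 := by linear_combination -e2
      exact (mul_eq_zero.1 this).resolve_right (mul_ne_zero h2 hQx)
    exact ⟨hs, ht⟩
  refine ⟨⟨?_, Submodule.span F {x + u}, ?_, ?_, ?_⟩, finrank_pair hindep⟩
  · intro z hz h0
    obtain ⟨s, t, rfl⟩ := Submodule.mem_span_pair.1 hz
    have e1 := h0 x (Submodule.subset_span (by simp))
    have e2 := h0 u (Submodule.subset_span (by simp))
    rw [Bf_apply, polar_add_left, polar_sm_l, polar_sm_l, polar_self_eq, polar_comm Q u x, hpol] at e1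
    rw [Bf_apply, polar_add_left, polar_sm_l, polar_sm_l, polar_self_eq, hpol, huv] at e2
    have hs : s = 0 := by
      have : s * (2 * Q x) = 0 := by linear_combination e1
      exact (mul_eq_zero.1 this).resolve_right (mul_ne_zero h2 hQx)
    have ht : t = 0 := by
      have : t * (2 * Q x) = 0 := by linear_combination -e2
      exact (mul_eq_zero.1 this).resolve_right (mul_ne_zero h2 hQx)
    rw [hs, ht]
    simp
  · rw [Submodule.span_singleton_le_iff_mem]
    exact Submodule.add_mem _ (Submodule.subset_span (by simp)) (Submodule.subset_span (by simp))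
  · intro v hv
    obtain ⟨c, rfl⟩ := Submodule.mem_span_singleton.1 hv
    rw [Q_sm, Q_ad, huv, hpol]
    ring
  · rw [finrank_pair hindep, finrank_span_singleton]
    intro h0
    have := hindep 1 1 (by simpa using h0)
    exact one_ne_zero this.1

/-- Adding an elliptic summand changes the class by a nonsquare. -/
theorem ell_sup_cs (h2 : (2 : F) ≠ 0) {E W : Submodule F V} {β : F} (hE : Ell Q E) (hW : CS Q W β) (h : Orth Q E W) :
    ∃ γ, CS Q (E ⊔ W) γ ∧ ¬ IsSquare (γ * β) := by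
  obtain ⟨A, H₀, hA, hH₀, hAH₀, rfl⟩ := hE
  obtain ⟨hβ, H, v, hH, hv, hHv, rfl⟩ := hW
  have hAnd := nd_of_ani h2 hA
  obtain ⟨⟨u, hu⟩, huv⟩ := exists_value (Q := restr Q A) (nd_restr hAnd) (by rw [hA.2]) (-β)
  have huv' : Q u = -β := huv
  have hQu : Q u ≠ 0 := by
    rw [huv']
    exact neg_ne_zero.2 hβ
  have hLA : Submodule.span F {u} ≤ A := by
    rw [Submodule.span_singleton_le_iff_mem]
    exact hu
  have hLnd := line_nd h2 hQu
  have h1 := finrank_rel (good h2 Q) hLA hLnd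
  have h3 := nd_rel (good h2 Q) hLA hLnd hAnd
  have h4 := sup_rel (good h2 Q) hLA hLnd
  rw [finrank_span_singleton (ne_zero_of_Q hQu), hA.2] at h1
  obtain ⟨u', hu', hQu', hspan⟩ := exists_line_gen h2 h3 (by omega)
  rw [← hspan] at h4
  have hAW : ∀ a ∈ A, ∀ w ∈ H ⊔ Submodule.span F {v}, polar Q a w = 0 := fun a ha w hw =>
    h.mono le_sup_left le_rfl a ha w hw
  have hH₀W : ∀ a ∈ H₀, ∀ w ∈ H ⊔ Submodule.span F {v}, polar Q a w = 0 := fun a ha w hw =>
    h.mono le_sup_right le_rfl a ha w hw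
  have hvW : v ∈ H ⊔ Submodule.span F {v} := Submodule.mem_sup_right (Submodule.mem_span_singleton_self _)
  have hHW : H ≤ H ⊔ Submodule.span F {v} := le_sup_left
  have hu'A : u' ∈ A := hu'.1
  have huu' : polar Q u u' = 0 := hu'.2 u (Submodule.mem_span_singleton_self _)
  have hQv : Q v ≠ 0 := hv ▸ hβ
  have hpuv : polar Q v u = 0 := by
    rw [polar_comm]
    exact hAW u hu v hvW
  obtain ⟨hP, hPd⟩ := hyp_plane_of_values h2 (x := v) (u := u) hQv (by rw [huv', hv]) hpuv
  have hPeq : Submodule.span F {v, u} = Submodule.span F {v} ⊔ Submodule.span F {u} := Submodule.span_insert _ _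
  refine ⟨Q u', ⟨hQu', H₀ ⊔ (H ⊔ Submodule.span F {v, u}), u', ?_, rfl, ?_, ?_⟩, ?_⟩
  · -- hyperbolic part
    have o1 : Orth Q H (Submodule.span F {v, u}) := by
      intro a ha z hz
      obtain ⟨s, t, rfl⟩ := Submodule.mem_span_pair.1 hz
      rw [polar_add_right, polar_sm_r, polar_sm_r, hHv a ha, polar_comm Q a u, hAW u hu a (hHW ha)]
      ring
    have o2 : Orth Q H₀ (H ⊔ Submodule.span F {v, u}) := by
      apply Orth.sup_right
      · exact fun a ha z hz => hH₀W a ha z (hHW hz)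
      · intro a ha z hz
        obtain ⟨s, t, rfl⟩ := Submodule.mem_span_pair.1 hz
        rw [polar_add_right, polar_sm_r, polar_sm_r, hH₀W a ha v hvW, polar_comm Q a u, hAH₀ u hu a ha]
        ring
    exact hyp_sup h2 hH₀ (hyp_sup h2 hH hP o1) o2
  · intro z hz
    obtain ⟨a, ha, b, hb, rfl⟩ := Submodule.mem_sup.1 hz
    obtain ⟨c, hc, d, hd, rfl⟩ := Submodule.mem_sup.1 hb
    obtain ⟨s, t, rfl⟩ := Submodule.mem_span_pair.1 hd
    have e1 : polar Q a u' = 0 := by
      rw [polar_comm]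
      exact hAH₀ u' hu'A a ha
    have e2 : polar Q c u' = 0 := by
      rw [polar_comm]
      exact hAW u' hu'A c (hHW hc)
    have e3 : polar Q v u' = 0 := by
      rw [polar_comm]
      exact hAW u' hu'A v hvW
    rw [polar_add_left, polar_add_left, polar_add_left, polar_sm_l, polar_sm_l, e1, e2, e3, huu']
    ring
  · -- the sum
    rw [hPeq, ← h4]
    apply le_antisymm
    · simp only [sup_le_iff]
      refine ⟨⟨?_, ⟨?_, ?_, ?_⟩⟩, ?_⟩
      all_goals
        intro x hx
      · exact Submodule.mem_sup_left (Submodule.mem_sup_right hx)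
      · exact Submodule.mem_sup_right (Submodule.mem_sup_left hx)
      · exact Submodule.mem_sup_right (Submodule.mem_sup_right hx)
      · exact Submodule.mem_sup_left (Submodule.mem_sup_left (Submodule.mem_sup_left hx))
      · exact Submodule.mem_sup_left (Submodule.mem_sup_left (Submodule.mem_sup_right hx))
    · simp only [sup_le_iff]
      refine ⟨⟨⟨?_, ?_⟩, ?_⟩, ?_, ?_⟩
      all_goals
        intro x hx
      · exact Submodule.mem_sup_left (Submodule.mem_sup_right (Submodule.mem_sup_right (Submodule.mem_sup_right hx)))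
      · exact Submodule.mem_sup_right hx
      · exact Submodule.mem_sup_left (Submodule.mem_sup_left hx)
      · exact Submodule.mem_sup_left (Submodule.mem_sup_right (Submodule.mem_sup_left hx))
      · exact Submodule.mem_sup_left (Submodule.mem_sup_right (Submodule.mem_sup_right (Submodule.mem_sup_left hx)))
  · -- nonsquare
    rintro ⟨t, ht⟩
    have hw : Q (t • u + β • u') = 0 := by
      rw [Q_ad, Q_sm, Q_sm, huv', polar_sm_l, polar_sm_r, huu']
      linear_combination (β) * ht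
    have hw0 := hA.1 _ (A.add_mem (A.smul_mem _ hu) (A.smul_mem _ hu'A)) hw
    have e1 := congrArg (polar Q u) hw0
    rw [polar_add_right, polar_sm_r, polar_sm_r, huu', polar_self_eq, huv', polar_zero_right] at e1
    have ht0 : t = 0 := by
      have : t * (2 * β) = 0 := by linear_combination -e1
      exact (mul_eq_zero.1 this).resolve_right (mul_ne_zero h2 hβ)
    rw [ht0, zero_smul, zero_add] at hw0
    have := (smul_eq_zero.1 hw0).resolve_left hβ
    exact ne_zero_of_Q hQu' this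

/-- Adding an elliptic summand, with the class prescribed. -/
theorem ell_sup_cs' (h2 : (2 : F) ≠ 0) {E W : Submodule F V} {α δ : F} (hδ : ¬ IsSquare δ) (hα : α ≠ 0) (hE : Ell Q E)
    (hW : CS Q W (δ * α)) (h : Orth Q E W) : CS Q (E ⊔ W) α := by
  obtain ⟨γ, h1, h3⟩ := ell_sup_cs h2 hE hW h
  apply cs_congr h1 hα
  have h4 := nonsq_mul h3 hδ
  have hδ0 : δ ≠ 0 := by
    rintro rfl
    exact hδ IsSquare.zero
  obtain ⟨s, hs⟩ := h4
  refine ⟨s / δ, ?_⟩
  field_simp
  linear_combination hs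

/-- Subspaces with a prescribed class. -/
theorem exists_cs_sub (h2 : (2 : F) ≠ 0) {U : Submodule F V} (hU : NDOn (Bf Q) U) (t : ℕ) (hd : 2 * t + 1 < finrank F U) {α : F}
    (hα : α ≠ 0) : ∃ W ≤ U, CS Q W α ∧ finrank F W = 2 * t + 1 := by
  obtain ⟨H, hHU, hH, hHd⟩ := exists_hyp_sub h2 Q t U hU (by omega)
  have h1 := finrank_rel (good h2 Q) hHU hH.1
  have h3 := nd_rel (good h2 Q) hHU hH.1 hU
  obtain ⟨⟨v, hv⟩, hQv⟩ := exists_value (Q := restr Q _) (nd_restr h3) (by omega) α
  have hQv' : Q v = α := hQv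
  have hv0 : Q v ≠ 0 := by rwa [hQv']
  have horth : ∀ u ∈ H, polar Q u v = 0 := fun u hu => hv.2 u hu
  refine ⟨H ⊔ Submodule.span F {v}, ?_, ⟨hα, H, v, hH, hQv', horth, rfl⟩, ?_⟩
  · apply sup_le hHU
    rw [Submodule.span_singleton_le_iff_mem]
    exact hv.1
  · rw [finrank_sup_of_orth h2 hH.1 (orth_line horth), hHd, finrank_span_singleton (ne_zero_of_Q hv0)]

/-- Images of hyperbolic subspaces under isometric embeddings. -/
theorem hyp_range {H : Submodule F V} (hH : Hyp Q H) (ψ : H →ₗ[F] V) (hψ : ∀ x, Q (ψ x) = Q (x : V)) (hinj : Function.Injective ψ) :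
    Hyp Q (LinearMap.range ψ) := by
  obtain ⟨hnd, S, hSH, hS, hSd⟩ := hH
  have hpol : ∀ a b : H, polar Q (ψ a) (ψ b) = polar Q (a : V) (b : V) := by
    intro a b
    simp only [polar, ← map_add, hψ]
    rfl
  refine ⟨?_, (S.comap H.subtype).map ψ, ?_, ?_, ?_⟩
  · rintro _ ⟨a, rfl⟩ h0
    have : (a : V) = 0 := by
      apply hnd a a.2
      intro w hw
      have := h0 (ψ ⟨w, hw⟩) ⟨_, rfl⟩
      rw [Bf_apply, hpol] at this
      exact this
    have h1 : a = 0 := Subtype.ext this
    rw [h1, map_zero]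
  · rintro _ ⟨a, _, rfl⟩
    exact ⟨a, rfl⟩
  · rintro _ ⟨a, ha, rfl⟩
    rw [hψ]
    exact hS _ ha
  · rw [LinearMap.finrank_range_of_inj hinj, ← (Submodule.equivMapOfInjective ψ hinj (S.comap H.subtype)).finrank_eq, finrank_comap_of_le hSH]
    exact hSd

/-- Transport of classes along isometries. -/
theorem cs_transport (h2 : (2 : F) ≠ 0) {W W' : Submodule F V} {α : F} (e : W ≃ₗ[F] W') (he : ∀ w, Q (e w : V) = Q (w : V))
    (h : CS Q W α) : CS Q W' α := by
  obtain ⟨hα, H, v, hH, hv, hHv, hW⟩ := h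
  have hHW : H ≤ W := hW ▸ le_sup_left
  have hvW : v ∈ W := hW ▸ Submodule.mem_sup_right (Submodule.mem_span_singleton_self _)
  have hQv : Q v ≠ 0 := hv ▸ hα
  let ψ : H →ₗ[F] V := W'.subtype ∘ₗ e.toLinearMap ∘ₗ Submodule.inclusion hHW
  have hψ : ∀ x : H, Q (ψ x) = Q (x : V) := fun x => he (Submodule.inclusion hHW x)
  have hinj : Function.Injective ψ := by
    intro a b hab
    have e1 : e (Submodule.inclusion hHW a) = e (Submodule.inclusion hHW b) := Subtype.ext hab
    have e2 := e.injective e1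
    exact Subtype.ext (congrArg (fun z : W => (z : V)) e2)
  have hH' := hyp_range hH ψ hψ hinj
  let v' : V := e ⟨v, hvW⟩
  have hQv' : Q v' = α := by
    rw [← hv]
    exact he _
  have hpol : ∀ a b : W, polar Q (e a : V) (e b : V) = polar Q (a : V) (b : V) := by
    intro a b
    have e1 : ((e (a + b) : W') : V) = (e a : V) + (e b : V) := by
      rw [map_add]
      rfl
    have e2 := he (a + b)
    rw [e1] at e2
    simp only [polar]
    rw [e2, he, he]
    rfl
  have horth : ∀ u ∈ LinearMap.range ψ, polar Q u v' = 0 := by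
    rintro _ ⟨a, rfl⟩
    have e1 := hpol (Submodule.inclusion hHW a) ⟨v, hvW⟩
    exact e1.trans (hHv _ a.2)
  have hQv'0 : Q v' ≠ 0 := by rwa [hQv']
  refine ⟨hα, LinearMap.range ψ, v', hH', hQv', horth, ?_⟩
  apply Submodule.eq_of_le_of_finrank_eq
  · apply sup_le
    · rintro _ ⟨a, rfl⟩
      exact (e (Submodule.inclusion hHW a)).2
    · rw [Submodule.span_singleton_le_iff_mem]
      exact (e ⟨v, hvW⟩).2
  · rw [finrank_sup_of_orth h2 hH'.1 (orth_line horth), LinearMap.finrank_range_of_inj hinj,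
      finrank_span_singleton (ne_zero_of_Q hQv'0), ← e.finrank_eq, ← hW,
      finrank_sup_of_orth h2 hH.1 (orth_line hHv), finrank_span_singleton (ne_zero_of_Q hQv)]

/-- Subspaces of the same class and dimension are isometric. -/
theorem cs_iso (h2 : (2 : F) ≠ 0) {W W' : Submodule F V} {α : F} (h : CS Q W α) (h' : CS Q W' α) (hd : finrank F W = finrank F W') :
    ∃ e : W ≃ₗ[F] W', ∀ w, Q (e w : V) = Q (w : V) := by
  have hWnd := h.nd h2
  obtain ⟨hα, H, v, hH, hv, hHv, hW⟩ := h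
  obtain ⟨_, H', v', hH', hv', hHv', hW'⟩ := h'
  have hQv : Q v ≠ 0 := hv ▸ hα
  have hQv' : Q v' ≠ 0 := hv' ▸ hα
  have hdH : finrank F H = finrank F H' := by
    have e1 := finrank_sup_of_orth h2 hH.1 (orth_line hHv)
    have e2 := finrank_sup_of_orth h2 hH'.1 (orth_line hHv')
    rw [hW, finrank_span_singleton (ne_zero_of_Q hQv)] at e1
    rw [hW', finrank_span_singleton (ne_zero_of_Q hQv')] at e2
    omega
  obtain ⟨e, he⟩ := hyp_iso h2 hH hH' hdH
  have hH'W : H' ≤ W' := hW' ▸ le_sup_left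
  have hv'W : v' ∈ W' := hW' ▸ Submodule.mem_sup_right (Submodule.mem_span_singleton_self _)
  -- the coordinate along `v`
  let lam : V →ₗ[F] F := (2 * α)⁻¹ • (polarBilin Q v)
  have hlam : ∀ w, lam w = (2 * α)⁻¹ * polar Q v w := fun w => rfl
  have hvv : polar Q v v = 2 * α := by rw [polar_self_eq, hv]
  have h2α : (2 * α) ≠ 0 := mul_ne_zero h2 hα
  have hlamv : lam v = 1 := by
    rw [hlam, hvv]
    field_simp
  have hlamH : ∀ u ∈ H, lam u = 0 := by
    intro u hu
    rw [hlam, polar_comm, hHv u hu, mul_zero]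
  have hproj : ∀ w : W, (w : V) - lam w • v ∈ H := by
    intro w
    have hw : (w : V) ∈ H ⊔ Submodule.span F {v} := by
      rw [hW]
      exact w.2
    obtain ⟨a, ha, b, hb, hab⟩ := Submodule.mem_sup.1 hw
    obtain ⟨c, rfl⟩ := Submodule.mem_span_singleton.1 hb
    have e1 : lam (w : V) = c := by
      rw [← hab, map_add, hlamH a ha, map_smul, hlamv]
      simp
    rw [e1, ← hab]
    simpa using ha
  let π : W →ₗ[F] H := (W.subtype - (lam ∘ₗ W.subtype).smulRight v).codRestrict H (fun w => hproj w)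
  have hπ : ∀ w : W, (π w : V) = (w : V) - lam w • v := fun w => rfl
  let ψ₀ : W →ₗ[F] V := H'.subtype ∘ₗ e.toLinearMap ∘ₗ π + (lam ∘ₗ W.subtype).smulRight v'
  have hψ₀ : ∀ w : W, ψ₀ w = (e (π w) : V) + lam w • v' := fun w => rfl
  let ψ : W →ₗ[F] W' := ψ₀.codRestrict W' (fun w => by
    rw [hψ₀]
    exact W'.add_mem (hH'W (e (π w)).2) (W'.smul_mem _ hv'W))
  have hψ : ∀ w : W, (ψ w : V) = (e (π w) : V) + lam w • v' := fun w => rfl
  have hiso : ∀ w : W, Q (ψ w : V) = Q (w : V) := by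
    intro w
    have e1 : (w : V) = (π w : V) + lam w • v := by
      rw [hπ]
      abel
    have e2 : Q (w : V) = Q (π w : V) + lam w ^ 2 * α := by
      conv_lhs => rw [e1]
      rw [Q_ad, Q_sm, hv, polar_sm_r, hHv _ (π w).2]
      ring
    rw [hψ, e2, Q_ad, Q_sm, hv', polar_sm_r, hHv' _ (e (π w)).2, he]
    ring
  have hpol : ∀ a b : W, polar Q (ψ a : V) (ψ b : V) = polar Q (a : V) (b : V) := by
    intro a b
    have e1 : ((ψ (a + b) : W') : V) = (ψ a : V) + (ψ b : V) := by
      rw [map_add]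
      rfl
    have e2 := hiso (a + b)
    rw [e1] at e2
    simp only [polar]
    rw [e2, hiso, hiso]
    rfl
  have hinj : Function.Injective ψ := by
    rw [← LinearMap.ker_eq_bot, LinearMap.ker_eq_bot']
    intro a ha
    apply Subtype.ext
    apply hWnd a a.2
    intro y hy
    have e1 := hpol a ⟨y, hy⟩
    rw [ha] at e1
    simp only [ZeroMemClass.coe_zero, polar_zero_left] at e1
    exact e1.symm
  exact ⟨LinearMap.linearEquivOfInjective ψ hinj hd, fun w => hiso w⟩

end Cfsg.Agent.Lib.OddSub
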