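import Mathlib
import Cfsg.Agent.Lib.OddSub

/-!
# Counting odd-dimensional subspaces of a given class in an even-dimensional space
-/

set_option autoImplicit false
set_option linter.unusedSectionVars false
set_option linter.unusedSimpArgs false
set_option linter.unusedVariables false
set_option linter.style.haveILetI false

universe u v

namespace Cfsg.Agent.Lib.OddSubCount

open Module QuadraticMap Cfsg.Agent.Lib.QuadFF Cfsg.Agent.Lib.IsomBlock Cfsg.Agent.Lib.QuadClass2
open Cfsg.Agent.Lib.QuadClass Cfsg.Agent.Lib.HypEll Cfsg.Agent.Lib.OrthoCount Cfsg.Agent.Lib.HypCount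
open Cfsg.Agent.Lib.HypCountE Cfsg.Agent.Lib.OddSub

variable {F : Type*} [Field F] [Fintype F] {V : Type u} [AddCommGroup V] [Module F V] [FiniteDimensional F V]

/-- Subspaces of dimension `2 t + 1` in a given class. -/
def OS (Q : QuadraticForm F V) (U : Submodule F V) (t : ℕ) (α : F) : Type u :=
  {W : Submodule F V // W ≤ U ∧ CS Q W α ∧ finrank F W = 2 * t + 1}

/-- The fibre over a hyperbolic pair. -/
theorem card_fibre_O (h2 : (2 : F) ≠ 0) [Finite V] {Q : QuadraticForm F V} {U : Submodule F V} {e f : V} (he : e ∈ U) (hf : f ∈ U)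
    (hef : IsHyp Q e f) (t : ℕ) (α : F) :
    Nat.card {W : OS Q U (t + 1) α // e ∈ W.1 ∧ f ∈ W.1} =
      Nat.card (OS Q (U ⊓ perp (Bf Q) (Submodule.span F {e, f})) t α) := by
  obtain ⟨hP, hPd⟩ := hyp_plane h2 hef
  set P := Submodule.span F {e, f} with hPdef
  have heP : e ∈ P := Submodule.subset_span (by simp)
  have hfP : f ∈ P := Submodule.subset_span (by simp)
  have hPU : P ≤ U := Submodule.span_le.2 (by
    rintro x (rfl | rfl)
    · exact he
    · exact hf)
  refine Nat.card_congr ⟨fun W => ⟨W.1.1 ⊓ perp (Bf Q) P, ?_⟩, fun W' => ⟨⟨P ⊔ W'.1, ?_⟩, ?_⟩, ?_, ?_⟩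
  · obtain ⟨⟨W, hWU, hW, hWd⟩, heW, hfW⟩ := W
    have hPW : P ≤ W := Submodule.span_le.2 (by
      rintro x (rfl | rfl)
      · exact heW
      · exact hfW)
    have hWnd := hW.nd h2
    have h1 := finrank_rel (good h2 Q) hPW hP.1
    have h3 : finrank F (W ⊓ perp (Bf Q) P : Submodule F V) = 2 * t + 1 := by omega
    refine ⟨inf_le_inf_right _ hWU, ?_, h3⟩
    obtain ⟨β, hβ⟩ := cs_exists h2 (nd_rel (good h2 Q) hPW hP.1 hWnd) h3
    have h4 : CS Q W β := by
      rw [← sup_rel (good h2 Q) hPW hP.1]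
      exact hyp_sup_cs h2 hP hβ (fun u hu v hv => hv.2 u hu)
    apply cs_congr hβ hW.ne
    have := cs_unique h2 h4 hW
    exact this
  · obtain ⟨W', hW'U, hW', hW'd⟩ := W'
    have horth : Orth Q P W' := fun u hu v hv => (hW'U hv).2 u hu
    refine ⟨sup_le hPU (hW'U.trans inf_le_left), hyp_sup_cs h2 hP hW' horth, ?_⟩
    rw [finrank_sup_of_orth h2 hP.1 horth, hPd, hW'd]
    ring
  · exact ⟨Submodule.mem_sup_left heP, Submodule.mem_sup_left hfP⟩
  · rintro ⟨⟨W, hWU, hW, hWd⟩, heW, hfW⟩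
    have hPW : P ≤ W := Submodule.span_le.2 (by
      rintro x (rfl | rfl)
      · exact heW
      · exact hfW)
    apply Subtype.ext
    apply Subtype.ext
    exact sup_rel (good h2 Q) hPW hP.1
  · rintro ⟨W', hW'U, hW', hW'd⟩
    apply Subtype.ext
    show (P ⊔ W') ⊓ perp (Bf Q) P = W'
    have h3 : W' ≤ perp (Bf Q) P := hW'U.trans inf_le_right
    rw [sup_comm, sup_inf_assoc_of_le _ h3, (isCompl_perp (good h2 Q) hP.1).inf_eq_bot, sup_bot_eq]

/-- Double counting. -/
theorem rec_count_O (h2 : (2 : F) ≠ 0) {Q : QuadraticForm F V} {U : Submodule F V} {a t c' : ℕ} {α : F}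
    (hc' : ∀ p : HP Q U, Nat.card (OS Q (U ⊓ perp (Bf Q) (Submodule.span F {p.1.1, p.1.2})) t α) = c') :
    (∀ W : OS Q U (t + 1) α, Nat.card (HP Q W.1) = a) → Nat.card (OS Q U (t + 1) α) * a = Nat.card (HP Q U) * c' := by
  classical
  intro ha
  haveI : Finite V := Module.finite_of_finite F
  haveI : Finite (OS Q U (t + 1) α) := Subtype.finite
  haveI : Fintype (OS Q U (t + 1) α) := Fintype.ofFinite _
  haveI : Finite (HP Q U) := Subtype.finite
  haveI : Fintype (HP Q U) := Fintype.ofFinite _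
  haveI : ∀ W : Submodule F V, Finite (HP Q W) := fun W => Subtype.finite
  let E : (Σ W : OS Q U (t + 1) α, HP Q W.1) ≃ Σ p : HP Q U, {W : OS Q U (t + 1) α // p.1.1 ∈ W.1 ∧ p.1.2 ∈ W.1} :=
    { toFun := fun x => ⟨⟨x.2.1, x.1.2.1 x.2.2.1, x.1.2.1 x.2.2.2.1, x.2.2.2.2⟩, ⟨x.1, x.2.2.1, x.2.2.2.1⟩⟩
      invFun := fun y => ⟨y.2.1, ⟨y.1.1, y.2.2.1, y.2.2.2, y.1.2.2.2⟩⟩
      left_inv := fun x => rfl
      right_inv := fun y => rfl }
  have h1 := Nat.card_congr E
  rw [Nat.card_sigma, Nat.card_sigma] at h1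
  simp only [ha] at h1
  have h3 : ∀ p : HP Q U, Nat.card {W : OS Q U (t + 1) α // p.1.1 ∈ W.1 ∧ p.1.2 ∈ W.1} = c' := by
    intro p
    rw [card_fibre_O h2 p.2.1 p.2.2.1 p.2.2.2 t α, hc' p]
  simp only [h3, Finset.sum_const, Finset.card_univ, smul_eq_mul] at h1
  rw [Nat.card_eq_fintype_card, Nat.card_eq_fintype_card]
  exact h1

/-- Same type. -/
def SameT (Q : QuadraticForm F V) (U U' : Submodule F V) : Prop := (Hyp Q U ∧ Hyp Q U') ∨ (Ell Q U ∧ Ell Q U')

/-- The type of a subspace and of the complement of a hyperbolic pair. -/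
theorem type_rel (h2 : (2 : F) ≠ 0) {Q : QuadraticForm F V} {U : Submodule F V} {e f : V} (he : e ∈ U) (hf : f ∈ U)
    (hef : IsHyp Q e f) {D : ℕ} (hd : finrank F U = 2 * (D + 1)) :
    (Hyp Q U → Hyp Q (U ⊓ perp (Bf Q) (Submodule.span F {e, f}))) ∧
      (Ell Q U → Ell Q (U ⊓ perp (Bf Q) (Submodule.span F {e, f}))) := by
  obtain ⟨hP, hPd⟩ := hyp_plane h2 hef
  have hPU : Submodule.span F {e, f} ≤ U := Submodule.span_le.2 (by
    rintro x (rfl | rfl)
    · exact he
    · exact hf)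
  have h1 := finrank_rel (good h2 Q) hPU hP.1
  have h3 : finrank F (U ⊓ perp (Bf Q) (Submodule.span F {e, f}) : Submodule F V) = 2 * D := by omega
  constructor
  · intro hU
    rcases hyp_or_ell h2 Q D _ h3 (nd_rel (good h2 Q) hPU hP.1 hU.1) with h4 | h4
    · exact h4
    · exfalso
      apply not_hyp_of_ell h2 (W := U)
      · rw [← sup_rel (good h2 Q) hPU hP.1, sup_comm]
        exact ell_sup_hyp h2 h4 hP (fun u hu v hv => hu.2 v hv |> fun h => by rwa [polar_comm])
      · exact hU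
  · intro hU
    rcases hyp_or_ell h2 Q D _ h3 (nd_rel (good h2 Q) hPU hP.1 (hU.nd h2)) with h4 | h4
    · exfalso
      apply not_hyp_of_ell h2 hU
      rw [← sup_rel (good h2 Q) hPU hP.1]
      exact hyp_sup h2 hP h4 (fun u hu v hv => hv.2 u hu)
    · exact h4

theorem sameT_rel (h2 : (2 : F) ≠ 0) {Q : QuadraticForm F V} {U U' : Submodule F V} (hT : SameT Q U U') {e f e' f' : V} (he : e ∈ U) (hf : f ∈ U)
    (hef : IsHyp Q e f) (he' : e' ∈ U') (hf' : f' ∈ U') (hef' : IsHyp Q e' f') {D : ℕ} (hd : finrank F U = 2 * (D + 1))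
    (hd' : finrank F U' = 2 * (D + 1)) :
    SameT Q (U ⊓ perp (Bf Q) (Submodule.span F {e, f})) (U' ⊓ perp (Bf Q) (Submodule.span F {e', f'})) := by
  rcases hT with ⟨h1, h3⟩ | ⟨h1, h3⟩
  · exact Or.inl ⟨(type_rel h2 he hf hef hd).1 h1, (type_rel h2 he' hf' hef' hd').1 h3⟩
  · exact Or.inr ⟨(type_rel h2 he hf hef hd).2 h1, (type_rel h2 he' hf' hef' hd').2 h3⟩

theorem card_HP_same (h2 : (2 : F) ≠ 0) {Q : QuadraticForm F V} {U U' : Submodule F V} (hT : SameT Q U U') {a : ℕ}
    (hd : finrank F U = 2 * (a + 1)) (hd' : finrank F U' = 2 * (a + 1)) : Nat.card (HP Q U) = Nat.card (HP Q U') := by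
  rcases hT with ⟨h1, h3⟩ | ⟨h1, h3⟩
  · rw [card_HP_hyp h2 h1 hd, card_HP_hyp h2 h3 hd']
  · rw [card_HP_ell h2 h1 hd, card_HP_ell h2 h3 hd']

theorem SameT.left {Q : QuadraticForm F V} {U U' : Submodule F V} (hT : SameT Q U U') : SameT Q U U := by
  rcases hT with ⟨h1, h3⟩ | ⟨h1, h3⟩
  · exact Or.inl ⟨h1, h1⟩
  · exact Or.inr ⟨h1, h1⟩

theorem SameT.symm {Q : QuadraticForm F V} {U U' : Submodule F V} (hT : SameT Q U U') : SameT Q U' U := by
  rcases hT with ⟨h1, h3⟩ | ⟨h1, h3⟩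
  · exact Or.inl ⟨h3, h1⟩
  · exact Or.inr ⟨h3, h1⟩

theorem SameT.nd (h2 : (2 : F) ≠ 0) {Q : QuadraticForm F V} {U U' : Submodule F V} (hT : SameT Q U U') :
    NDOn (Bf Q) U ∧ NDOn (Bf Q) U' := by
  rcases hT with ⟨h1, h3⟩ | ⟨h1, h3⟩
  · exact ⟨h1.1, h3.1⟩
  · exact ⟨h1.nd h2, h3.nd h2⟩

/-- The number of vectors of a given norm depends only on the number of hyperbolic pairs. -/
theorem card_val_same (h2 : (2 : F) ≠ 0) {Q : QuadraticForm F V} {U U' : Submodule F V} (hT : SameT Q U U') {a : ℕ}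
    (hd : finrank F U = 2 * (a + 1)) (hd' : finrank F U' = 2 * (a + 1)) {α : F} (hα : α ≠ 0) :
    Nat.card {v : U // restr Q U v = α} = Nat.card {v : U' // restr Q U' v = α} := by
  obtain ⟨hU, hU'⟩ := hT.nd h2
  have h1 := card_HP_same h2 hT hd hd'
  rw [card_HP h2 hU, card_HP h2 hU', hd, hd'] at h1
  have hq : 2 ≤ Fintype.card F := Fintype.one_lt_card
  have hpos : 0 < Fintype.card F ^ (2 * (a + 1) - 2) := pow_pos (by omega) _
  have h3 := Nat.eq_of_mul_eq_mul_right hpos h1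
  haveI : Finite U := Module.finite_of_finite F
  haveI : Finite U' := Module.finite_of_finite F
  have hz : ∀ X : Submodule F V, 1 ≤ Nat.card {v : X // restr Q X v = 0} := by
    intro X
    haveI : Finite X := Module.finite_of_finite F
    haveI : Nonempty {v : X // restr Q X v = 0} := ⟨⟨0, QuadraticMap.map_zero _⟩⟩
    exact Nat.card_pos
  have h4 : Nat.card {v : U // restr Q U v = 0} = Nat.card {v : U' // restr Q U' v = 0} := by
    have := hz U
    have := hz U'
    omega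
  have e1 := value_count h2 (restr Q U) (nd_restr hU) hd hα
  have e2 := value_count h2 (restr Q U') (nd_restr hU') hd' hα
  rw [h4, ← e2] at e1
  have h5 : 0 < Fintype.card F - 1 := by omega
  exact Nat.eq_of_mul_eq_mul_left h5 (Nat.add_right_cancel e1)

/-- Lines of a class: a class-`α` line has two vectors of norm `α`. -/
theorem card_OS_zero (h2 : (2 : F) ≠ 0) {Q : QuadraticForm F V} {U : Submodule F V} {α : F} (hα : α ≠ 0) :
    2 * Nat.card (OS Q U 0 α) = Nat.card {v : U // restr Q U v = α} := by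
  classical
  haveI : Finite V := Module.finite_of_finite F
  haveI : Finite (OS Q U 0 α) := Subtype.finite
  haveI : Fintype (OS Q U 0 α) := Fintype.ofFinite _
  -- structure of lines
  have hline : ∀ W : OS Q U 0 α, ∃ v₀ ∈ W.1, Q v₀ = α ∧ Submodule.span F {v₀} = W.1 := by
    rintro ⟨W, hWU, ⟨_, H, v, hH, hv, hHv, hW⟩, hWd⟩
    have hQv : Q v ≠ 0 := hv ▸ hα
    have e1 := finrank_sup_of_orth h2 hH.1 (orth_line hHv)
    rw [hW, finrank_span_singleton (ne_zero_of_Q hQv)] at e1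
    have hH0 : H = ⊥ := Submodule.finrank_eq_zero.1 (by omega)
    rw [hH0, bot_sup_eq] at hW
    exact ⟨v, hW ▸ Submodule.mem_span_singleton_self _, hv, hW⟩
  have hfib : ∀ W : OS Q U 0 α, Nat.card {v : V // v ∈ W.1 ∧ Q v = α} = 2 := by
    intro W
    obtain ⟨v₀, hv₀, hQ₀, hspan⟩ := hline W
    have hv₀0 : v₀ ≠ 0 := ne_zero_of_Q (hQ₀ ▸ hα)
    rw [Nat.card_eq_two_iff]
    refine ⟨⟨v₀, hv₀, hQ₀⟩, ⟨-v₀, W.1.neg_mem hv₀, by rw [QuadraticMap.map_neg, hQ₀]⟩, ?_, ?_⟩
    · intro h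
      have e1 : v₀ = -v₀ := congrArg Subtype.val h
      have e2 : (2 : F) • v₀ = 0 := by
        rw [two_smul]
        nth_rw 1 [e1]
        simp
      exact hv₀0 ((smul_eq_zero.1 e2).resolve_left h2)
    · ext ⟨x, hx, hQx⟩
      simp only [Set.mem_insert_iff, Set.mem_singleton_iff, Set.mem_univ, iff_true, Subtype.mk.injEq]
      rw [← hspan] at hx
      obtain ⟨c, rfl⟩ := Submodule.mem_span_singleton.1 hx
      rw [Q_sm, hQ₀] at hQx
      have hc : c ^ 2 = 1 := by
        field_simp at hQx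
        exact hQx
      have hc' : c * c = 1 := by linear_combination hc
      rcases mul_self_eq_one_iff.1 hc' with rfl | rfl
      · left
        simp
      · right
        simp
  let E : (Σ W : OS Q U 0 α, {v : V // v ∈ W.1 ∧ Q v = α}) ≃ {v : U // restr Q U v = α} :=
    { toFun := fun x => ⟨⟨x.2.1, x.1.2.1 x.2.2.1⟩, x.2.2.2⟩
      invFun := fun y => ⟨⟨Submodule.span F {(y.1 : V)}, by
          rw [Submodule.span_singleton_le_iff_mem]
          exact y.1.2, ⟨hα, ⊥, (y.1 : V), hyp_bot Q, y.2, fun u hu => by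
            rw [Submodule.mem_bot] at hu
            rw [hu]
            simp, by simp⟩, by
          rw [finrank_span_singleton]
          apply ne_zero_of_Q (Q := Q)
          have : Q (y.1 : V) = α := y.2
          rw [this]
          exact hα⟩, ⟨(y.1 : V), Submodule.mem_span_singleton_self _, y.2⟩⟩
      left_inv := by
        rintro ⟨W, v, hv, hQv⟩
        have hW : Submodule.span F {v} = W.1 := by
          obtain ⟨v₀, hv₀, hQ₀, hspan⟩ := hline W
          have hv0 : v ≠ 0 := ne_zero_of_Q (hQv ▸ hα)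
          apply Submodule.eq_of_le_of_finrank_eq
          · rw [Submodule.span_singleton_le_iff_mem]
            exact hv
          · rw [finrank_span_singleton hv0, W.2.2.2]
        have hW' : (⟨Submodule.span F {v}, by
            rw [Submodule.span_singleton_le_iff_mem]
            exact W.2.1 hv, ⟨hα, ⊥, v, hyp_bot Q, hQv, fun u hu => by
              rw [Submodule.mem_bot] at hu
              rw [hu]
              simp, by simp⟩, by
            rw [finrank_span_singleton]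
            exact ne_zero_of_Q (hQv ▸ hα)⟩ : OS Q U 0 α) = W := Subtype.ext hW
        apply Sigma.subtype_ext
        · exact hW'
        · rfl
      right_inv := fun y => rfl }
  rw [← Nat.card_congr E, Nat.card_sigma]
  simp only [hfib, Finset.sum_const, Finset.card_univ, smul_eq_mul]
  rw [Nat.card_eq_fintype_card]
  ring

/-- The number of hyperbolic pairs in an odd-dimensional space. -/
noncomputable def hpcO (F : Type*) [Field F] [Fintype F] (t : ℕ) : ℕ :=
  (Fintype.card F ^ (2 * (t + 1)) - 1) * Fintype.card F ^ (2 * t + 1)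

theorem hpcO_pos (t : ℕ) : 0 < hpcO F t := by
  have hq : 2 ≤ Fintype.card F := Fintype.one_lt_card
  unfold hpcO
  apply Nat.mul_pos _ (pow_pos (by omega) _)
  have h1 : 2 ≤ Fintype.card F ^ (2 * (t + 1)) := by
    calc 2 ≤ Fintype.card F := hq
      _ = Fintype.card F ^ 1 := (pow_one _).symm
      _ ≤ _ := Nat.pow_le_pow_right (by omega) (by omega)
  omega

/-- The main recursion. -/
theorem count_step_O (h2 : (2 : F) ≠ 0) {Q : QuadraticForm F V} {t : ℕ} {α : F} {U : Submodule F V}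
    {c' : ℕ} (hc' : ∀ p : HP Q U, Nat.card (OS Q (U ⊓ perp (Bf Q) (Submodule.span F {p.1.1, p.1.2})) t α) = c') :
    Nat.card (OS Q U (t + 1) α) * hpcO F t = Nat.card (HP Q U) * c' := by
  apply rec_count_O h2 hc'
  intro W
  exact card_HP_odd h2 (W.2.2.1.nd h2) W.2.2.2

theorem nd_of_type (h2 : (2 : F) ≠ 0) {Q : QuadraticForm F V} {U : Submodule F V} (hU : Hyp Q U ∨ Ell Q U) : NDOn (Bf Q) U := by
  rcases hU with h | h
  · exact h.1
  · exact h.nd h2

theorem count_uniform_O (h2 : (2 : F) ≠ 0) {Q : QuadraticForm F V} {α : F} (hα : α ≠ 0) :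
    ∀ (t D : ℕ), t < D → ∀ U U' : Submodule F V, SameT Q U U' → finrank F U = 2 * D → finrank F U' = 2 * D →
      Nat.card (OS Q U t α) = Nat.card (OS Q U' t α) := by
  intro t
  induction t with
  | zero =>
    intro D hD U U' hT hd hd'
    obtain ⟨a, rfl⟩ : ∃ a, D = a + 1 := ⟨D - 1, by omega⟩
    have h1 := card_OS_zero (Q := Q) (U := U) h2 hα
    have h3 := card_OS_zero (Q := Q) (U := U') h2 hα
    rw [card_val_same h2 hT hd hd' hα, ← h3] at h1
    omega
  | succ t ih =>
    intro D hD U U' hT hd hd'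
    obtain ⟨D, rfl⟩ : ∃ D', D = D' + 1 := ⟨D - 1, by omega⟩
    obtain ⟨hU, hU'⟩ := hT.nd h2
    obtain ⟨e, he, f, hf, hef⟩ := exists_pair hU (by omega)
    obtain ⟨e', he', f', hf', hef'⟩ := exists_pair hU' (by omega)
    obtain ⟨h1, h3⟩ := rel_data h2 hU he hf hef
    obtain ⟨h1', h3'⟩ := rel_data h2 hU' he' hf' hef'
    set c := Nat.card (OS Q (U ⊓ perp (Bf Q) (Submodule.span F {e, f})) t α) with hc
    have hcU : ∀ p : HP Q U, Nat.card (OS Q (U ⊓ perp (Bf Q) (Submodule.span F {p.1.1, p.1.2})) t α) = c := by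
      intro p
      obtain ⟨h5, h6⟩ := rel_data h2 hU p.2.1 p.2.2.1 p.2.2.2
      exact ih D (by omega) _ _ (sameT_rel h2 hT.left p.2.1 p.2.2.1 p.2.2.2 he hf hef hd hd) (by omega) (by omega)
    have hcU' : ∀ p : HP Q U', Nat.card (OS Q (U' ⊓ perp (Bf Q) (Submodule.span F {p.1.1, p.1.2})) t α) = c := by
      intro p
      obtain ⟨h5, h6⟩ := rel_data h2 hU' p.2.1 p.2.2.1 p.2.2.2
      exact ih D (by omega) _ _ (sameT_rel h2 hT.symm p.2.1 p.2.2.1 p.2.2.2 he hf hef hd' hd) (by omega) (by omega)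
    have e1 := count_step_O h2 (t := t) hcU
    have e2 := count_step_O h2 (t := t) hcU'
    rw [card_HP_same h2 hT hd hd', ← e2] at e1
    exact Nat.eq_of_mul_eq_mul_right (hpcO_pos t) e1

/-- Conversion of divisibility. -/
theorem dvd_of_pm {r q k : ℕ} {ε : ℤ} (hq : 1 ≤ q) (hε : ε = 1 ∨ ε = -1) (h : (r : ℤ) ∣ (q : ℤ) ^ k - ε) : r ∣ q ^ (2 * k) - 1 := by
  have h1 : (r : ℤ) ∣ ((q ^ (2 * k) - 1 : ℕ) : ℤ) := by
    rw [Nat.cast_sub (Nat.one_le_pow _ _ hq)]
    push_cast
    have e : (q : ℤ) ^ (2 * k) - 1 = ((q : ℤ) ^ k - ε) * ((q : ℤ) ^ k + ε) := by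
      have : ε * ε = 1 := by
        rcases hε with rfl | rfl <;> norm_num
      rw [pow_mul', pow_two]
      linear_combination this
    rw [e]
    exact Dvd.dvd.mul_right h _
  exact_mod_cast h1

/-- The divisibility conclusion. -/
theorem count_dvd_O (h2 : (2 : F) ≠ 0) {Q : QuadraticForm F V} {α : F} (hα : α ≠ 0) {r : ℕ} (hr : r.Prime) (hrq : ¬ r ∣ Fintype.card F) :
    ∀ (t D : ℕ), t < D → ∀ U : Submodule F V, (Hyp Q U ∨ Ell Q U) → finrank F U = 2 * D → r ∣ Nat.card (OS Q U t α) →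
      ∃ j ≤ t, r ∣ Fintype.card F ^ (2 * (D - j)) - 1 := by
  have hq0 : 1 ≤ Fintype.card F := Fintype.card_pos
  have hrz : (r : ℤ) ∣ (Fintype.card F : ℤ) → False := fun h => hrq (by exact_mod_cast h)
  have hrz' : Prime (r : ℤ) := Nat.prime_iff_prime_int.1 hr
  intro t
  induction t with
  | zero =>
    intro D hD U hT hd h
    obtain ⟨a, rfl⟩ : ∃ a, D = a + 1 := ⟨D - 1, by omega⟩
    have hU := nd_of_type h2 hT
    have h1 := card_OS_zero (Q := Q) (U := U) h2 hα
    have h3 : r ∣ Nat.card {v : U // restr Q U v = α} := by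
      rw [← h1]
      exact Dvd.dvd.mul_left h 2
    obtain ⟨ε, hε, hz, hv⟩ := value_types h2 (restr Q U) (nd_restr hU) hd
    have h4 : (r : ℤ) ∣ (Fintype.card F : ℤ) ^ a * ((Fintype.card F : ℤ) ^ (a + 1) - ε) := by
      rw [← hv α hα]
      exact_mod_cast h3
    rcases hrz'.dvd_or_dvd h4 with h5 | h5
    · exact absurd (hrz'.dvd_of_dvd_pow h5) hrz
    · exact ⟨0, le_rfl, dvd_of_pm hq0 hε h5⟩
  | succ t ih =>
    intro D hD U hT hd h
    obtain ⟨D, rfl⟩ : ∃ D', D = D' + 1 := ⟨D - 1, by omega⟩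
    have hU := nd_of_type h2 hT
    obtain ⟨e, he, f, hf, hef⟩ := exists_pair hU (by omega)
    obtain ⟨h1, h3⟩ := rel_data h2 hU he hf hef
    set c := Nat.card (OS Q (U ⊓ perp (Bf Q) (Submodule.span F {e, f})) t α) with hc
    have hself : SameT Q U U := by
      rcases hT with h5 | h5
      · exact Or.inl ⟨h5, h5⟩
      · exact Or.inr ⟨h5, h5⟩
    have hcU : ∀ p : HP Q U, Nat.card (OS Q (U ⊓ perp (Bf Q) (Submodule.span F {p.1.1, p.1.2})) t α) = c := by
      intro p
      obtain ⟨h5, h6⟩ := rel_data h2 hU p.2.1 p.2.2.1 p.2.2.2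
      exact count_uniform_O h2 hα t D (by omega) _ _ (sameT_rel h2 hself p.2.1 p.2.2.1 p.2.2.2 he hf hef hd hd) (by omega) (by omega)
    have e1 := count_step_O h2 (t := t) hcU
    have h5 : r ∣ Nat.card (HP Q U) * c := by
      rw [← e1]
      exact Dvd.dvd.mul_right h _
    rcases (Nat.Prime.dvd_mul hr).1 h5 with h6 | h6
    · rw [card_HP h2 hU, hd] at h6
      rcases (Nat.Prime.dvd_mul hr).1 h6 with h7 | h7
      · obtain ⟨ε, hε, hz, hv⟩ := value_types h2 (restr Q U) (nd_restr hU) hd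
        haveI : Finite U := Module.finite_of_finite F
        haveI : Nonempty {v : U // restr Q U v = 0} := ⟨⟨0, QuadraticMap.map_zero _⟩⟩
        have hZ1 : 1 ≤ Nat.card {v : U // restr Q U v = 0} := Nat.card_pos
        have h8 : (r : ℤ) ∣ ((Nat.card {v : U // restr Q U v = 0} - 1 : ℕ) : ℤ) := by exact_mod_cast h7
        rw [Nat.cast_sub hZ1, hz] at h8
        push_cast at h8
        have hεε : ε * ε = 1 := by
          rcases hε with rfl | rfl <;> norm_num
        have e2 : (Fintype.card F : ℤ) ^ (2 * D + 1) + ε * ((Fintype.card F : ℤ) ^ (D + 1) - (Fintype.card F : ℤ) ^ D) - 1 =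
            ((Fintype.card F : ℤ) ^ (D + 1) - ε) * ((Fintype.card F : ℤ) ^ D - (-ε)) := by
          have : (Fintype.card F : ℤ) ^ (2 * D + 1) = (Fintype.card F : ℤ) ^ (D + 1) * (Fintype.card F : ℤ) ^ D := by
            rw [← pow_add]
            congr 1
            omega
          rw [this]
          linear_combination hεε
        rw [e2] at h8
        rcases hrz'.dvd_or_dvd h8 with h9 | h9
        · exact ⟨0, by omega, dvd_of_pm hq0 hε h9⟩
        · refine ⟨1, by omega, ?_⟩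
          have : D + 1 - 1 = D := by omega
          rw [this]
          apply dvd_of_pm hq0 (ε := -ε) _ h9
          rcases hε with rfl | rfl
          · right; rfl
          · left; norm_num
      · exact absurd (hr.dvd_of_dvd_pow h7) hrq
    · have hT1 : Hyp Q (U ⊓ perp (Bf Q) (Submodule.span F {e, f})) ∨ Ell Q (U ⊓ perp (Bf Q) (Submodule.span F {e, f})) := by
        rcases hT with h7 | h7
        · exact Or.inl ((type_rel h2 he hf hef hd).1 h7)
        · exact Or.inr ((type_rel h2 he hf hef hd).2 h7)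
      obtain ⟨j, hj, h7⟩ := ih D (by omega) _ hT1 (by omega) h6
      refine ⟨j + 1, by omega, ?_⟩
      have : D + 1 - (j + 1) = D - j := by omega
      rw [this]
      exact h7

end Cfsg.Agent.Lib.OddSubCount
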