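import Mathlib
import Cfsg.Agent.Lib.OddSubCount
import Cfsg.Agent.Lib.HypBack

/-!
# Existence of invariant odd-dimensional subspaces of a prescribed class
-/

set_option autoImplicit false
set_option linter.unusedSectionVars false
set_option linter.unusedSimpArgs false
set_option linter.unusedVariables false
set_option linter.style.haveILetI false

universe u v

namespace Cfsg.Agent.Lib.OddSubBack

open Module QuadraticMap Polynomial Cfsg.Agent.Lib.QuadFF Cfsg.Agent.Lib.IsomBlock Cfsg.Agent.Lib.QuadClass2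
open Cfsg.Agent.Lib.QuadClass Cfsg.Agent.Lib.HypEll Cfsg.Agent.Lib.SpTI Cfsg.Agent.Lib.HypBlock Cfsg.Agent.Lib.OddSub

variable {F : Type*} [Field F] [Fintype F] {V : Type u} [AddCommGroup V] [Module F V] [FiniteDimensional F V]
variable {Q : QuadraticForm F V} {T : V →ₗ[F] V} {r q : ℕ}

theorem exists_nonsq (h2 : (2 : F) ≠ 0) : ∃ δ : F, ¬ IsSquare δ :=
  FiniteField.exists_nonsquare (F := F) (by
    intro h
    apply h2
    have := ringChar.Nat.cast_ringChar (R := F)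
    rw [h] at this
    exact_mod_cast this)

section odd

variable [hr : Fact r.Prime]

/-- Invariant subspaces of a given class, odd `r`. -/
theorem backward_odd_cs (h2 : (2 : F) ≠ 0) (hq : Fintype.card F = q) (hr2 : r ≠ 2) (hrF : (r : F) ≠ 0)
    (hT : ∀ v, Q (T v) = Q v) (hTr : T ^ r = 1) (hnd : NDOn (Bf Q) ⊤) {n m : ℕ} (hn : finrank F V = n)
    (hmn : m < n) (hmo : Odd m) (hf : m % blockDim r q < finrank F (fixS T ⊤)) {α : F} (hα : α ≠ 0) :
    ∃ W : Submodule F V, CS Q W α ∧ finrank F W = m ∧ InvOn T W := by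
  have hiso := polar_iso hT
  have hB := good h2 Q
  have hr0 := hr.out.ne_zero
  have hpos : 0 < blockDim r q := blockDim_pos hq hrF
  have hce : Even (blockDim r q) := blockDim_even r q
  have hinvtop : InvOn T ⊤ := fun u _ => trivial
  set C := fixS T (⊤ : Submodule F V) with hC
  have hCnd : NDOn (Bf Q) C := nd_fixS hB hiso hr0 hrF hTr hnd hinvtop
  have hCfix : ∀ u ∈ C, T u = u := fun u hu => (mem_fixS.1 hu).2
  obtain ⟨s, hs⟩ := finrank_fix_add hq hr2 hrF hB hiso hTr hnd hinvtop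
  rw [finrank_top, ← hC, hn] at hs
  set f := finrank F C with hfdef
  set D := (⊤ : Submodule F V) ⊓ perp (Bf Q) C with hD
  have hCtop : C ≤ ⊤ := le_top
  have hDd := finrank_rel hB hCtop hCnd
  rw [finrank_top, ← hD, hn] at hDd
  have hDnd := nd_rel hB hCtop hCnd hnd
  have hDinv : InvOn T D := inv_inf hinvtop (inv_perp hiso hr0 hTr (inv_fixS ⊤))
  have hDfree : FixFree T D := by
    intro u hu hfix
    apply hCnd u (mem_fixS.2 ⟨trivial, hfix⟩)
    intro w hw
    exact hB.refl (hu.2 w hw)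
  -- the arithmetic
  obtain ⟨a, b, has, hm, hbf, hbo⟩ : ∃ a b, a ≤ s ∧ m = blockDim r q * a + b ∧ b < f ∧ Odd b := by
    obtain ⟨x, hx⟩ := hce
    obtain ⟨y, hy⟩ := hmo
    have h1 := Nat.div_add_mod m (blockDim r q)
    by_cases hcase : m / blockDim r q ≤ s
    · refine ⟨m / blockDim r q, m % blockDim r q, hcase, h1.symm, hf, ?_⟩
      have h3 : blockDim r q * (m / blockDim r q) = 2 * (x * (m / blockDim r q)) := by rw [hx]; ring
      exact ⟨y - x * (m / blockDim r q), by omega⟩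
    · push Not at hcase
      have h3 : blockDim r q * (s + 1) ≤ blockDim r q * (m / blockDim r q) := Nat.mul_le_mul_left _ hcase
      rw [mul_add, mul_one] at h3
      have h4 : blockDim r q * s = 2 * (x * s) := by rw [hx]; ring
      refine ⟨s, m - blockDim r q * s, le_rfl, by omega, by omega, ⟨y - x * s, by omega⟩⟩
  obtain ⟨W₁, hW₁D, hW₁nd, hW₁inv, hW₁d⟩ := exists_fpf_sub h2 hq hr2 hrF hT hTr a s D has (by omega) hDnd hDinv hDfree
  have hW₁free : FixFree T W₁ := fun u hu h => hDfree u (hW₁D hu) h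
  have hinvC : ∀ W₀ : Submodule F V, W₀ ≤ C → InvOn T W₀ := by
    intro W₀ h u hu
    rw [hCfix u (h hu)]
    exact hu
  have horthg : ∀ W₀ : Submodule F V, W₀ ≤ C → Orth Q W₁ W₀ := fun W₀ h u hu v hv => hB.refl ((hW₁D hu).2 v (h hv))
  have hfinish : ∀ W₀ : Submodule F V, W₀ ≤ C → finrank F W₀ = b → CS Q (W₁ ⊔ W₀) α →
      ∃ W : Submodule F V, CS Q W α ∧ finrank F W = m ∧ InvOn T W := by
    intro W₀ h1 h3 h4
    refine ⟨W₁ ⊔ W₀, h4, ?_, inv_sup hW₁inv (hinvC W₀ h1)⟩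
    rw [finrank_sup_of_orth h2 hW₁nd (horthg W₀ h1), h3, hW₁d]
    omega
  obtain ⟨t, rfl⟩ := hbo
  have hhyp : Hyp Q W₁ → ∃ W : Submodule F V, CS Q W α ∧ finrank F W = m ∧ InvOn T W := by
    intro hty
    obtain ⟨W₀, h1, h3, h4⟩ := exists_cs_sub h2 hCnd t hbf hα
    exact hfinish W₀ h1 h4 (hyp_sup_cs h2 hty h3 (horthg W₀ h1))
  have hell : Ell Q W₁ → ∃ W : Submodule F V, CS Q W α ∧ finrank F W = m ∧ InvOn T W := by
    intro hty
    obtain ⟨δ, hδ⟩ := exists_nonsq h2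
    have hδ0 : δ ≠ 0 := by
      rintro rfl
      exact hδ IsSquare.zero
    obtain ⟨W₀, h1, h3, h4⟩ := exists_cs_sub h2 hCnd t hbf (mul_ne_zero hδ0 hα)
    exact hfinish W₀ h1 h4 (ell_sup_cs' h2 hδ hα hty h3 (horthg W₀ h1))
  by_cases hev : Even (orderOf (q : ZMod r))
  · have hci : blockDim r q = orderOf (q : ZMod r) := by
      unfold blockDim
      rw [if_pos hev]
    have hty := type_fpf_even h2 hq hr2 hrF hT hTr hev a W₁ (by rw [hW₁d, hci]) hW₁nd hW₁inv hW₁free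
    rcases Nat.even_or_odd a with hae | hao
    · exact hhyp (hty.1 hae)
    · exact hell (hty.2 hao)
  · exact hhyp (type_fpf_odd h2 hq hr2 hrF hT hTr hev _ W₁ rfl hW₁nd hW₁inv hW₁free)

end odd

section two

/-- Invariant subspaces of a given class for involutions. -/
theorem backward_two_cs (h2 : (2 : F) ≠ 0) (hT : ∀ v, Q (T v) = Q v) (hT2 : ∀ v, T (T v) = v) (hnd : NDOn (Bf Q) ⊤) {d m : ℕ}
    (hn : finrank F V = 2 * d) (hmo : Odd m) (hmd : m < d)
    (hev : Even (finrank F (LinearMap.ker (T + LinearMap.id))))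
    (hne₁ : ∃ v, T v ≠ -v) {α : F} (hα : α ≠ 0) :
    ∃ W : Submodule F V, CS Q W α ∧ finrank F W = m ∧ InvOn T W := by
  have hiso := polar_iso hT
  set X₁ : Submodule F V := LinearMap.ker (T - LinearMap.id) with hX₁
  set X₂ : Submodule F V := LinearMap.ker (T + LinearMap.id) with hX₂
  have hm₁ : ∀ v, v ∈ X₁ ↔ T v = v := by
    intro v
    simp [hX₁, sub_eq_zero]
  have hm₂ : ∀ v, v ∈ X₂ ↔ T v = -v := by
    intro v
    simp [hX₂, add_eq_zero_iff_eq_neg]
  have horth : Orth Q X₁ X₂ := by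
    intro u hu w hw
    have e := hiso u w
    rw [(hm₁ u).1 hu, (hm₂ w).1 hw, Bf_apply, Bf_apply, polar_neg_right] at e
    have : 2 * polar Q u w = 0 := by linear_combination -e
    exact (mul_eq_zero.1 this).resolve_left h2
  have hsplit : ∀ y : V, ∃ a ∈ X₁, ∃ b ∈ X₂, a + b = y := by
    intro y
    refine ⟨(2 : F)⁻¹ • (y + T y), ?_, (2 : F)⁻¹ • (y - T y), ?_, ?_⟩
    · rw [hm₁, map_smul, map_add, hT2, add_comm]
    · rw [hm₂, map_smul, map_sub, hT2, ← smul_neg, neg_sub]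
    · rw [← smul_add]
      have : y + T y + (y - T y) = (2 : F) • y := by
        rw [two_smul]
        abel
      rw [this, smul_smul, inv_mul_cancel₀ h2, one_smul]
  have hnd₁ : NDOn (Bf Q) X₁ := by
    intro u hu h0
    apply hnd u trivial
    intro y _
    obtain ⟨a, ha, b, hb, rfl⟩ := hsplit y
    rw [map_add, h0 a ha, show Bf Q u b = 0 from horth u hu b hb, add_zero]
  have hnd₂ : NDOn (Bf Q) X₂ := by
    intro u hu h0
    apply hnd u trivial
    intro y _
    obtain ⟨a, ha, b, hb, rfl⟩ := hsplit y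
    rw [map_add, h0 b hb, add_zero]
    exact horth.symm u hu a ha
  have htop : X₁ ⊔ X₂ = ⊤ := by
    rw [eq_top_iff]
    intro y _
    obtain ⟨a, ha, b, hb, rfl⟩ := hsplit y
    exact Submodule.add_mem_sup ha hb
  have hdim : finrank F X₁ + finrank F X₂ = 2 * d := by
    rw [← finrank_sup_of_orth h2 hnd₁ horth, htop, finrank_top, hn]
  have hinv₁ : ∀ W ≤ X₁, InvOn T W := by
    intro W hW u hu
    rw [(hm₁ u).1 (hW hu)]
    exact hu
  have hinv₂ : ∀ W ≤ X₂, InvOn T W := by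
    intro W hW u hu
    rw [(hm₂ u).1 (hW hu)]
    exact W.neg_mem hu
  have hpos₁ : 0 < finrank F X₁ := by
    apply Nat.pos_of_ne_zero
    intro h0
    have h3 : X₁ = ⊥ := Submodule.finrank_eq_zero.1 h0
    obtain ⟨v, hv⟩ := hne₁
    obtain ⟨a, ha, b, hb, rfl⟩ := hsplit v
    rw [h3, Submodule.mem_bot] at ha
    subst ha
    rw [zero_add] at hv
    exact hv ((hm₂ b).1 hb)
  obtain ⟨g, hg⟩ := hev
  have hev₁ : ∃ h, finrank F X₁ = 2 * (h + 1) := by
    refine ⟨d - g - 1, ?_⟩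
    omega
  obtain ⟨h, hh⟩ := hev₁
  by_cases hcase : m < finrank F X₁
  · obtain ⟨t, rfl⟩ := hmo
    obtain ⟨W, h1, h3, h4⟩ := exists_cs_sub h2 hnd₁ t hcase hα
    exact ⟨W, h3, h4, hinv₁ W h1⟩
  · push Not at hcase
    obtain ⟨Wa, h1, h3, h4⟩ := exists_cs_sub h2 hnd₁ h (by omega) hα
    obtain ⟨c, hc⟩ : ∃ c, m = 2 * h + 1 + 2 * c := by
      obtain ⟨y, hy⟩ := hmo
      exact ⟨y - h, by omega⟩
    obtain ⟨Wb, h5, h6, h7⟩ := exists_hyp_sub h2 Q c X₂ hnd₂ (by omega)
    refine ⟨Wb ⊔ Wa, ?_, ?_, inv_sup (hinv₂ _ h5) (hinv₁ _ h1)⟩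
    · exact hyp_sup_cs h2 h6 h3 (horth.mono h1 h5).symm
    · rw [finrank_sup_of_orth h2 h6.1 (horth.mono h1 h5).symm, h4, h7]
      omega

end two

end Cfsg.Agent.Lib.OddSubBack
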