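import Mathlib
import Cfsg.Agent.Lib.OddSub
import Cfsg.Agent.Lib.OrthOmega
import Cfsg.Agent.Lib.HypBlock

/-!
# Isometries with square `-1`, as products of reflections
-/

set_option autoImplicit false
set_option linter.unusedSectionVars false
set_option linter.unusedSimpArgs false
set_option linter.unusedVariables false
set_option linter.style.haveILetI false

universe u v

namespace Cfsg.Agent.Lib.OddSubJ

open Module QuadraticMap Cfsg.Agent.Lib.QuadFF Cfsg.Agent.Lib.IsomBlock Cfsg.Agent.Lib.QuadClass2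
open Cfsg.Agent.Lib.QuadClass Cfsg.Agent.Lib.HypEll Cfsg.Agent.Lib.OddSub
open Cfsg.Agent.Lib.OrthGroup Cfsg.Agent.Lib.OrthOmega

variable {F : Type*} [Field F] [Fintype F] {V : Type u} [AddCommGroup V] [Module F V] [FiniteDimensional F V]
variable {Q : QuadraticForm F V}

theorem refl_swap_one (h2 : (2 : F) ≠ 0) {u u' : V} (hu : Q u = 1) (hu' : Q u' = 1) (hp : polar Q u u' = 0) :
    refl Q (u - u') u = u' := by
  have h1 : Q (u - u') = 2 := by
    rw [Cfsg.Agent.Lib.OrthGroup.Q_sub, hu, hu']
    have : B Q u u' = 0 := hp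
    rw [this]
    ring
  have h3 : B Q u (u - u') = 2 := by
    rw [map_sub, B_self, hu]
    have : B Q u u' = 0 := hp
    rw [this]
    ring
  rw [refl_apply, h1, h3, inv_mul_cancel₀ h2, one_smul]
  abel

theorem refl_swap_two (h2 : (2 : F) ≠ 0) {u u' : V} (hu : Q u = 1) (hu' : Q u' = 1) (hp : polar Q u u' = 0) :
    refl Q (u - u') u' = u := by
  have h1 : Q (u - u') = 2 := by
    rw [Cfsg.Agent.Lib.OrthGroup.Q_sub, hu, hu']
    have : B Q u u' = 0 := hp
    rw [this]
    ring
  have h3 : B Q u' (u - u') = -2 := by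
    rw [map_sub, B_self, hu', B_comm]
    have : B Q u u' = 0 := hp
    rw [this]
    ring
  have h4 : (2 : F)⁻¹ * (-2) = -1 := by
    field_simp
  rw [refl_apply, h1, h3, h4, neg_one_smul]
  abel

theorem plane_data (h2 : (2 : F) ≠ 0) {u u' : V} (hu : Q u = 1) (hu' : Q u' = 1) (hp : polar Q u u' = 0) :
    NDOn (Bf Q) (Submodule.span F {u, u'}) ∧ finrank F (Submodule.span F {u, u'}) = 2 ∧
      (IsSquare (-1 : F) → Hyp Q (Submodule.span F {u, u'})) ∧ (¬ IsSquare (-1 : F) → Ani Q (Submodule.span F {u, u'})) := by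
  have hH : IsSquare (-1 : F) → Hyp Q (Submodule.span F {u, u'}) := by
    rintro ⟨s, hs⟩
    have hs0 : s ≠ 0 := by
      rintro rfl
      rw [mul_zero] at hs
      exact neg_ne_zero.2 one_ne_zero hs
    have h3 := (hyp_plane_of_values h2 (Q := Q) (x := u) (u := s • u') (by rw [hu]; exact one_ne_zero)
      (by rw [Q_sm, hu', hu, mul_one, pow_two, ← hs]) (by rw [polar_sm_r, hp, mul_zero])).1
    have h4 : Submodule.span F {u, s • u'} = Submodule.span F {u, u'} := by
      rw [Submodule.span_insert, Submodule.span_insert, Submodule.span_singleton_smul_eq (IsUnit.mk0 _ hs0)]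
    rwa [h4] at h3
  have hA : ¬ IsSquare (-1 : F) → Ani Q (Submodule.span F {u, u'}) := by
    intro h
    exact Cfsg.Agent.Lib.HypCountE.pair_ani (δ := -1) h hu (by rw [hu', neg_neg]) hp
  have hindep : ∀ s t : F, s • u + t • u' = 0 → s = 0 ∧ t = 0 := by
    intro s t hst
    have e1 := congrArg (polar Q u) hst
    rw [polar_add_right, polar_sm_r, polar_sm_r, hp, polar_self_eq, hu, polar_zero_right] at e1
    have e2 := congrArg (polar Q u') hst
    rw [polar_add_right, polar_sm_r, polar_sm_r, polar_comm Q u' u, hp, polar_self_eq, hu', polar_zero_right] at e2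
    constructor
    · have : s * 2 = 0 := by linear_combination e1
      exact (mul_eq_zero.1 this).resolve_right h2
    · have : t * 2 = 0 := by linear_combination e2
      exact (mul_eq_zero.1 this).resolve_right h2
  refine ⟨?_, finrank_pair hindep, hH, hA⟩
  by_cases hs : IsSquare (-1 : F)
  · exact (hH hs).1
  · exact nd_of_ani h2 (hA hs)

/-- The common step: adding a plane to a list. -/
theorem step_data (h2 : (2 : F) ≠ 0) {U : Submodule F V} {u u' : V} (huU : u ∈ U) (hu'U : u' ∈ U) (hu : Q u = 1) (hu' : Q u' = 1)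
    (hp : polar Q u u' = 0) (L₁ : List V)
    (hS : ∀ w ∈ perp (Bf Q) (U ⊓ perp (Bf Q) (Submodule.span F {u, u'})), prodR Q L₁ w = w) :
    (∀ a b : F, prodR Q (u :: (u - u') :: L₁) (a • u + b • u') = a • u' - b • u) ∧
    (∀ y, y ∈ U ⊓ perp (Bf Q) (Submodule.span F {u, u'}) → prodR Q L₁ y ∈ U ⊓ perp (Bf Q) (Submodule.span F {u, u'}) →
      prodR Q (u :: (u - u') :: L₁) y = prodR Q L₁ y) ∧
    (∀ w ∈ perp (Bf Q) U, prodR Q (u :: (u - u') :: L₁) w = w) ∧
    (∀ x ∈ U, ∃ a b : F, ∃ y ∈ U ⊓ perp (Bf Q) (Submodule.span F {u, u'}), x = a • u + b • u' + y) ∧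
    ((u :: (u - u') :: L₁).map Q).prod = 2 * (L₁.map Q).prod := by
  obtain ⟨hPnd, hPd, _, _⟩ := plane_data h2 hu hu' hp
  set P := Submodule.span F {u, u'} with hPdef
  have hPU : P ≤ U := Submodule.span_le.2 (by
    rintro x (rfl | rfl)
    · exact huU
    · exact hu'U)
  have huP : u ∈ P := Submodule.subset_span (by simp)
  have hu'P : u' ∈ P := Submodule.subset_span (by simp)
  have hQd : Q (u - u') = 2 := by
    rw [Cfsg.Agent.Lib.OrthGroup.Q_sub, hu, hu']
    have : B Q u u' = 0 := hp
    rw [this]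
    ring
  have hPfix : ∀ p ∈ P, prodR Q L₁ p = p := by
    intro p hp'
    apply hS
    intro z hz
    exact (good h2 Q).refl (hz.2 p hp')
  have hcons : ∀ x, prodR Q (u :: (u - u') :: L₁) x = refl Q u (refl Q (u - u') (prodR Q L₁ x)) := by
    intro x
    simp only [prodR_cons]
    rfl
  refine ⟨?_, ?_, ?_, ?_, ?_⟩
  · intro a b
    have e1 : prodR Q L₁ (a • u + b • u') = a • u + b • u' := by
      apply hPfix
      exact P.add_mem (P.smul_mem _ huP) (P.smul_mem _ hu'P)
    rw [hcons, e1, map_add, map_smul, map_smul, refl_swap_one h2 hu hu' hp, refl_swap_two h2 hu hu' hp, map_add, map_smul,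
      map_smul, refl_self Q (by rw [hu]; exact one_ne_zero), refl_of_perp Q (x := u') (v := u) (by
        have : B Q u' u = polar Q u' u := rfl
        rw [this, polar_comm, hp])]
    rw [smul_neg]
    abel
  · intro y hy hSy
    rw [hcons]
    have e1 : B Q (prodR Q L₁ y) (u - u') = 0 := (good h2 Q).refl (hSy.2 _ (P.sub_mem huP hu'P))
    have e2 : B Q (prodR Q L₁ y) u = 0 := (good h2 Q).refl (hSy.2 _ huP)
    rw [refl_of_perp Q e1, refl_of_perp Q e2]
  · intro w hw
    have hw1 : w ∈ perp (Bf Q) (U ⊓ perp (Bf Q) P) := fun z hz => hw z hz.1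
    rw [hcons, hS w hw1]
    have e1 : B Q w (u - u') = 0 := (good h2 Q).refl (hw _ (hPU (P.sub_mem huP hu'P)))
    have e2 : B Q w u = 0 := (good h2 Q).refl (hw _ huU)
    rw [refl_of_perp Q e1, refl_of_perp Q e2]
  · intro x hx
    rw [← sup_rel (good h2 Q) hPU hPnd] at hx
    obtain ⟨p, hp', y, hy, rfl⟩ := Submodule.mem_sup.1 hx
    obtain ⟨a, b, rfl⟩ := Submodule.mem_span_pair.1 hp'
    exact ⟨a, b, y, hy, rfl⟩
  · simp only [List.map_cons, List.prod_cons]
    rw [hu, hQd]
    ring

/-- The type condition. -/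
def TypeC (Q : QuadraticForm F V) (t : ℕ) (U : Submodule F V) : Prop :=
  (IsSquare (-1 : F) ∧ Hyp Q U) ∨ (¬ IsSquare (-1 : F) ∧ ((Even t ∧ Hyp Q U) ∨ (Odd t ∧ Ell Q U)))

/-- The type of a sum with an orthonormal plane. -/
theorem typeC_step (h2 : (2 : F) ≠ 0) {U : Submodule F V} {u u' : V} (huU : u ∈ U) (hu'U : u' ∈ U) (hu : Q u = 1) (hu' : Q u' = 1)
    (hp : polar Q u u' = 0) {t : ℕ} (hd : finrank F U = 2 * (t + 1)) :
    (TypeC Q t (U ⊓ perp (Bf Q) (Submodule.span F {u, u'})) ↔ TypeC Q (t + 1) U) ∧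
      (NDOn (Bf Q) U → finrank F (U ⊓ perp (Bf Q) (Submodule.span F {u, u'}) : Submodule F V) = 2 * t) := by
  obtain ⟨hPnd, hPd, hH, hA⟩ := plane_data h2 hu hu' hp
  set P := Submodule.span F {u, u'} with hPdef
  have hPU : P ≤ U := Submodule.span_le.2 (by
    rintro x (rfl | rfl)
    · exact huU
    · exact hu'U)
  have h1 := finrank_rel (good h2 Q) hPU hPnd
  have hd₁ : finrank F (U ⊓ perp (Bf Q) P : Submodule F V) = 2 * t := by omega
  have hsup := sup_rel (good h2 Q) hPU hPnd
  have horth : Orth Q P (U ⊓ perp (Bf Q) P) := fun a ha b hb => hb.2 a ha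
  refine ⟨?_, fun _ => hd₁⟩
  constructor
  · rintro (⟨hs, h3⟩ | ⟨hs, ⟨he, h3⟩ | ⟨ho, h3⟩⟩)
    · refine Or.inl ⟨hs, ?_⟩
      rw [← hsup]
      exact hyp_sup h2 (hH hs) h3 horth
    · refine Or.inr ⟨hs, Or.inr ⟨he.add_one, ?_⟩⟩
      rw [← hsup]
      exact ell_sup_hyp h2 (Cfsg.Agent.Lib.HypCountE.ell_of_ani (hA hs)) h3 horth
    · refine Or.inr ⟨hs, Or.inl ⟨ho.add_one, ?_⟩⟩
      rw [← hsup]
      exact ell_sup_ell h2 (Cfsg.Agent.Lib.HypCountE.ell_of_ani (hA hs)) h3 horth
  · intro hT
    have hUnd : NDOn (Bf Q) U := by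
      rcases hT with ⟨_, h3⟩ | ⟨_, ⟨_, h3⟩ | ⟨_, h3⟩⟩
      · exact h3.1
      · exact h3.1
      · exact h3.nd h2
    have hty := hyp_or_ell h2 Q t _ hd₁ (nd_rel (good h2 Q) hPU hPnd hUnd)
    rcases hT with ⟨hs, h3⟩ | ⟨hs, ⟨he, h3⟩ | ⟨ho, h3⟩⟩
    · refine Or.inl ⟨hs, ?_⟩
      rcases hty with h4 | h4
      · exact h4
      · exfalso
        apply not_hyp_of_ell h2 (W := U) _ h3
        rw [← hsup, sup_comm]
        exact ell_sup_hyp h2 h4 (hH hs) horth.symm
    · have hot : Odd t := by
        rw [Nat.even_add_one] at he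
        exact Nat.not_even_iff_odd.1 he
      refine Or.inr ⟨hs, Or.inr ⟨hot, ?_⟩⟩
      rcases hty with h4 | h4
      · exfalso
        apply not_hyp_of_ell h2 (W := U) _ h3
        rw [← hsup]
        exact ell_sup_hyp h2 (Cfsg.Agent.Lib.HypCountE.ell_of_ani (hA hs)) h4 horth
      · exact h4
    · have het : Even t := by
        rw [Nat.odd_add_one] at ho
        exact Nat.not_odd_iff_even.1 ho
      refine Or.inr ⟨hs, Or.inl ⟨het, ?_⟩⟩
      rcases hty with h4 | h4
      · exact h4
      · exfalso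
        apply not_hyp_of_ell h2 h3
        rw [← hsup]
        exact ell_sup_ell h2 (Cfsg.Agent.Lib.HypCountE.ell_of_ani (hA hs)) h4 horth

/-- From an isometry with square `-1` to a list of reflections. -/
theorem list_of_J (h2 : (2 : F) ≠ 0) {T : V →ₗ[F] V} (hT : ∀ v, Q (T v) = Q v) (hJ : ∀ v, T (T v) = -v) :
    ∀ (t : ℕ) (U : Submodule F V), NDOn (Bf Q) U → InvOn T U → finrank F U = 2 * t →
      ∃ L : List V, L.length = 2 * t ∧ (∀ v ∈ L, v ∈ U ∧ Q v ≠ 0) ∧ (L.map Q).prod = 2 ^ t ∧ (∀ u ∈ U, prodR Q L u = T u) ∧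
        (∀ w ∈ perp (Bf Q) U, prodR Q L w = w) ∧ TypeC Q t U := by
  have hpol : ∀ a b, polar Q (T a) (T b) = polar Q a b := fun a b => Cfsg.Agent.Lib.HypBlock.polar_iso hT a b
  intro t
  induction t with
  | zero =>
    intro U _ _ hd
    have hU : U = ⊥ := Submodule.finrank_eq_zero.1 (by omega)
    subst hU
    refine ⟨[], rfl, by simp, by simp, ?_, ?_, ?_⟩
    · intro u hu
      rw [Submodule.mem_bot] at hu
      subst hu
      simp
    · intro w _
      simp
    · by_cases hs : IsSquare (-1 : F)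
      · exact Or.inl ⟨hs, hyp_bot Q⟩
      · exact Or.inr ⟨hs, Or.inl ⟨Even.zero, hyp_bot Q⟩⟩
  | succ t ih =>
    intro U hU hinv hd
    obtain ⟨⟨u, huU⟩, hu⟩ := exists_value (Q := restr Q U) (nd_restr hU) (by omega) 1
    have hu1 : Q u = 1 := hu
    set u' := T u with hu'def
    have hu'U : u' ∈ U := hinv u huU
    have hu'1 : Q u' = 1 := by rw [hu'def, hT, hu1]
    have hTu' : T u' = -u := hJ u
    have hp : polar Q u u' = 0 := by
      have e := hpol u u'
      rw [hTu', ← hu'def, polar_neg_right, polar_comm Q u' u] at e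
      have : 2 * polar Q u u' = 0 := by linear_combination -e
      exact (mul_eq_zero.1 this).resolve_left h2
    obtain ⟨hPnd, hPd, hH, hA⟩ := plane_data h2 hu1 hu'1 hp
    obtain ⟨ht, hdd⟩ := typeC_step h2 huU hu'U hu1 hu'1 hp hd
    have hd₁ := hdd hU
    set P := Submodule.span F {u, u'} with hPdef
    have hPU : P ≤ U := Submodule.span_le.2 (by
      rintro x (rfl | rfl)
      · exact huU
      · exact hu'U)
    set U₁ := U ⊓ perp (Bf Q) P with hU₁
    have hU₁nd : NDOn (Bf Q) U₁ := nd_rel (good h2 Q) hPU hPnd hU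
    have hPT : ∀ p ∈ P, ∃ p' ∈ P, T p' = p := by
      intro p hp'
      obtain ⟨a, b, rfl⟩ := Submodule.mem_span_pair.1 hp'
      refine ⟨a • (-u') + b • u, ?_, ?_⟩
      · apply P.add_mem
        · exact P.smul_mem _ (P.neg_mem (Submodule.subset_span (by simp)))
        · exact P.smul_mem _ (Submodule.subset_span (by simp))
      · rw [map_add, map_smul, map_smul, map_neg, hTu', neg_neg]
    have hU₁inv : InvOn T U₁ := by
      intro x hx
      refine ⟨hinv x hx.1, ?_⟩
      intro p hp'
      obtain ⟨p', hp'P, rfl⟩ := hPT p hp'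
      have := hpol p' x
      rw [Bf_apply, this]
      exact hx.2 p' hp'P
    obtain ⟨L₁, h1, h3, h4, h5, h6, h7⟩ := ih U₁ hU₁nd hU₁inv hd₁
    obtain ⟨s1, s2, s3, s4, s5⟩ := step_data h2 huU hu'U hu1 hu'1 hp L₁ h6
    refine ⟨u :: (u - u') :: L₁, ?_, ?_, ?_, ?_, s3, ht.1 h7⟩
    · simp only [List.length_cons, h1]
      ring
    · intro v hv
      simp only [List.mem_cons] at hv
      rcases hv with rfl | rfl | hv
      · exact ⟨huU, by rw [hu1]; exact one_ne_zero⟩
      · refine ⟨U.sub_mem huU hu'U, ?_⟩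
        rw [Cfsg.Agent.Lib.OrthGroup.Q_sub, hu1, hu'1]
        have : B Q u u' = 0 := hp
        rw [this]
        simpa [one_add_one_eq_two] using h2
      · exact ⟨(h3 v hv).1.1, (h3 v hv).2⟩
    · rw [s5, h4, pow_succ]
      ring
    · intro x hx
      obtain ⟨a, b, y, hy, rfl⟩ := s4 x hx
      have e1 : prodR Q L₁ y = T y := h5 y hy
      have hTy : T y ∈ U₁ := hU₁inv y hy
      rw [map_add, s1 a b, s2 y hy (by rw [e1]; exact hTy), e1, map_add, map_add, map_smul, map_smul, hTu', ← hu'def, smul_neg]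
      abel

/-- Invariant nondegenerate subspaces of isometries with square `-1` are even-dimensional. -/
theorem even_of_J (h2 : (2 : F) ≠ 0) {T : V →ₗ[F] V} (hT : ∀ v, Q (T v) = Q v) (hJ : ∀ v, T (T v) = -v) :
    ∀ (n : ℕ) (U : Submodule F V), NDOn (Bf Q) U → InvOn T U → finrank F U = n → Even n := by
  have hpol : ∀ a b, polar Q (T a) (T b) = polar Q a b := fun a b => Cfsg.Agent.Lib.HypBlock.polar_iso hT a b
  intro n
  induction n using Nat.strong_induction_on with
  | _ n ih =>
    intro U hU hinv hd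
    rcases Nat.lt_or_ge n 2 with hn | hn
    · interval_cases n
      · exact Even.zero
      · exfalso
        obtain ⟨v, hv, hQv, hspan⟩ := exists_line_gen h2 hU hd
        have h1 : T v ∈ Submodule.span F {v} := by
          rw [hspan]
          exact hinv v hv
        obtain ⟨a, ha⟩ := Submodule.mem_span_singleton.1 h1
        have e1 : T (T v) = -v := hJ v
        rw [← ha, map_smul, ← ha, smul_smul] at e1
        have ha2 : a * a = -1 := by
          have e2 : (a * a + 1) • v = 0 := by
            rw [add_smul, e1, one_smul]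
            abel
          have := (smul_eq_zero.1 e2).resolve_right (ne_zero_of_Q hQv)
          linear_combination this
        have e3 := hT v
        rw [← ha, Q_sm, pow_two, ha2] at e3
        apply hQv
        have : 2 * Q v = 0 := by linear_combination -e3
        exact (mul_eq_zero.1 this).resolve_left h2
    · obtain ⟨⟨u, huU⟩, hu⟩ := exists_value (Q := restr Q U) (nd_restr hU) (by omega) 1
      have hu1 : Q u = 1 := hu
      set u' := T u with hu'def
      have hu'U : u' ∈ U := hinv u huU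
      have hu'1 : Q u' = 1 := by rw [hu'def, hT, hu1]
      have hTu' : T u' = -u := hJ u
      have hp : polar Q u u' = 0 := by
        have e := hpol u u'
        rw [hTu', ← hu'def, polar_neg_right, polar_comm Q u' u] at e
        have : 2 * polar Q u u' = 0 := by linear_combination -e
        exact (mul_eq_zero.1 this).resolve_left h2
      obtain ⟨hPnd, hPd, hH, hA⟩ := plane_data h2 hu1 hu'1 hp
      set P := Submodule.span F {u, u'} with hPdef
      have hPU : P ≤ U := Submodule.span_le.2 (by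
        rintro x (rfl | rfl)
        · exact huU
        · exact hu'U)
      have h1 := finrank_rel (good h2 Q) hPU hPnd
      have hPT : ∀ p ∈ P, ∃ p' ∈ P, T p' = p := by
        intro p hp'
        obtain ⟨a, b, rfl⟩ := Submodule.mem_span_pair.1 hp'
        refine ⟨a • (-u') + b • u, ?_, ?_⟩
        · apply P.add_mem
          · exact P.smul_mem _ (P.neg_mem (Submodule.subset_span (by simp)))
          · exact P.smul_mem _ (Submodule.subset_span (by simp))
        · rw [map_add, map_smul, map_smul, map_neg, hTu', neg_neg]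
      have hU₁inv : InvOn T (U ⊓ perp (Bf Q) P) := by
        intro x hx
        refine ⟨hinv x hx.1, ?_⟩
        intro p hp'
        obtain ⟨p', hp'P, rfl⟩ := hPT p hp'
        have := hpol p' x
        rw [Bf_apply, this]
        exact hx.2 p' hp'P
      have h3 := ih (n - 2) (by omega) _ (nd_rel (good h2 Q) hPU hPnd hU) hU₁inv (by omega)
      obtain ⟨c, hc⟩ := h3
      exact ⟨c + 1, by omega⟩

/-- Existence of an orthonormal pair under a type condition. -/
theorem exists_pair_type (h2 : (2 : F) ≠ 0) {U : Submodule F V} {t : ℕ} (hd : finrank F U = 2 * (t + 1)) (hT : TypeC Q (t + 1) U) :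
    ∃ u ∈ U, ∃ u' ∈ U, Q u = 1 ∧ Q u' = 1 ∧ polar Q u u' = 0 := by
  have hU : NDOn (Bf Q) U := by
    rcases hT with ⟨_, h3⟩ | ⟨_, ⟨_, h3⟩ | ⟨_, h3⟩⟩
    · exact h3.1
    · exact h3.1
    · exact h3.nd h2
  obtain ⟨⟨u, huU⟩, hu⟩ := exists_value (Q := restr Q U) (nd_restr hU) (by omega) 1
  have hu1 : Q u = 1 := hu
  have hQu : Q u ≠ 0 := by
    rw [hu1]
    exact one_ne_zero
  have hLU : Submodule.span F {u} ≤ U := by
    rw [Submodule.span_singleton_le_iff_mem]
    exact huU
  have hLnd := line_nd h2 hQu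
  have h1 := finrank_rel (good h2 Q) hLU hLnd
  have h3 := nd_rel (good h2 Q) hLU hLnd hU
  rw [finrank_span_singleton (ne_zero_of_Q hQu)] at h1
  rcases t with _ | t
  · -- a plane
    obtain ⟨w, hw, hQw, hspan⟩ := exists_line_gen h2 h3 (by omega)
    have hsup := sup_rel (good h2 Q) hLU hLnd
    rw [← hspan] at hsup
    have huw : polar Q u w = 0 := hw.2 u (Submodule.mem_span_singleton_self _)
    have hval : ∀ a b : F, Q (a • u + b • w) = a * a + b * b * Q w := by
      intro a b
      rw [Q_ad, Q_sm, Q_sm, polar_sm_l, polar_sm_r, huw, hu1]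
      ring
    have hsq : IsSquare (Q w) := by
      rcases hT with ⟨hs, h4⟩ | ⟨hs, ⟨he, h4⟩ | ⟨_, h4⟩⟩
      · obtain ⟨s, hs⟩ := hs
        obtain ⟨_, S, hSU, hS, hSd⟩ := h4
        have hSd' : finrank F S = 1 := by omega
        have hne : S ≠ ⊥ := by
          rintro rfl
          simp at hSd'
        obtain ⟨z, hz, hz0⟩ := (Submodule.ne_bot_iff S).1 hne
        have hzU := hSU hz
        rw [← hsup] at hzU
        obtain ⟨x, hx, y, hy, rfl⟩ := Submodule.mem_sup.1 hzU
        obtain ⟨a, rfl⟩ := Submodule.mem_span_singleton.1 hx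
        obtain ⟨b, rfl⟩ := Submodule.mem_span_singleton.1 hy
        have e0 := hS _ hz
        rw [hval] at e0
        have hb : b ≠ 0 := by
          rintro rfl
          have ha : a = 0 := by
            have : a * a = 0 := by simpa using e0
            exact mul_self_eq_zero.1 this
          rw [ha] at hz0
          simp at hz0
        refine ⟨s * a / b, ?_⟩
        field_simp
        linear_combination e0 + (a * a) * hs
      · exact absurd he (by decide)
      · -- anisotropic
        have hAni := Cfsg.Agent.Lib.HypCountE.ani_of_ell_two h2 h4 (by omega)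
        have hneg : ¬ IsSquare (- Q w) := by
          rintro ⟨d, hd'⟩
          have e1 : Q (d • u + (1 : F) • w) = 0 := by
            rw [hval]
            linear_combination -hd'
          have e2 := hAni.1 _ (U.add_mem (U.smul_mem _ huU) (U.smul_mem _ hw.1)) e1
          have e3 := congrArg (polar Q w) e2
          rw [polar_add_right, polar_sm_r, polar_sm_r, polar_comm Q w u, huw, polar_self_eq, polar_zero_right] at e3
          apply hQw
          have : 2 * Q w = 0 := by linear_combination e3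
          exact (mul_eq_zero.1 this).resolve_left h2
        have := nonsq_mul hs hneg
        simpa using this
    obtain ⟨κ, hκ⟩ := hsq
    have hκ0 : κ ≠ 0 := by
      rintro rfl
      rw [mul_zero] at hκ
      exact hQw hκ
    refine ⟨u, huU, κ⁻¹ • w, U.smul_mem _ hw.1, hu1, ?_, ?_⟩
    · rw [Q_sm, hκ]
      field_simp
    · rw [polar_sm_r, huw, mul_zero]
  · obtain ⟨⟨u', hu'⟩, hu'v⟩ := exists_value (Q := restr Q _) (nd_restr h3) (by omega) 1
    exact ⟨u, huU, u', hu'.1, hu1, hu'v, hu'.2 u (Submodule.mem_span_singleton_self _)⟩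

/-- Existence of isometries with square `-1`. -/
theorem exists_J (h2 : (2 : F) ≠ 0) :
    ∀ (t : ℕ) (U : Submodule F V), finrank F U = 2 * t → TypeC Q t U →
      ∃ L : List V, L.length = 2 * t ∧ (∀ v ∈ L, v ∈ U ∧ Q v ≠ 0) ∧ (L.map Q).prod = 2 ^ t ∧
        (∀ u ∈ U, prodR Q L u ∈ U ∧ prodR Q L (prodR Q L u) = -u) ∧ (∀ w ∈ perp (Bf Q) U, prodR Q L w = w) := by
  intro t
  induction t with
  | zero =>
    intro U hd _
    have hU : U = ⊥ := Submodule.finrank_eq_zero.1 (by omega)
    subst hU
    refine ⟨[], rfl, by simp, by simp, ?_, ?_⟩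
    · intro u hu
      rw [Submodule.mem_bot] at hu
      subst hu
      simp
    · intro w _
      simp
  | succ t ih =>
    intro U hd hT
    obtain ⟨u, huU, u', hu'U, hu1, hu'1, hp⟩ := exists_pair_type h2 hd hT
    have hU : NDOn (Bf Q) U := by
      rcases hT with ⟨_, h3⟩ | ⟨_, ⟨_, h3⟩ | ⟨_, h3⟩⟩
      · exact h3.1
      · exact h3.1
      · exact h3.nd h2
    obtain ⟨ht, hdd⟩ := typeC_step h2 huU hu'U hu1 hu'1 hp hd
    have hd₁ := hdd hU
    obtain ⟨hPnd, hPd, hH, hA⟩ := plane_data h2 hu1 hu'1 hp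
    set P := Submodule.span F {u, u'} with hPdef
    have hPU : P ≤ U := Submodule.span_le.2 (by
      rintro x (rfl | rfl)
      · exact huU
      · exact hu'U)
    set U₁ := U ⊓ perp (Bf Q) P with hU₁
    obtain ⟨L₁, h1, h3, h4, h5, h6⟩ := ih U₁ hd₁ (ht.2 hT)
    obtain ⟨s1, s2, s3, s4, s5⟩ := step_data h2 huU hu'U hu1 hu'1 hp L₁ h6
    set L := u :: (u - u') :: L₁ with hL
    refine ⟨L, ?_, ?_, ?_, ?_, s3⟩
    · simp only [hL, List.length_cons, h1]
      ring
    · intro v hv
      simp only [hL, List.mem_cons] at hv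
      rcases hv with rfl | rfl | hv
      · exact ⟨huU, by rw [hu1]; exact one_ne_zero⟩
      · refine ⟨U.sub_mem huU hu'U, ?_⟩
        rw [Cfsg.Agent.Lib.OrthGroup.Q_sub, hu1, hu'1]
        have : B Q u u' = 0 := hp
        rw [this]
        simpa [one_add_one_eq_two] using h2
      · exact ⟨(h3 v hv).1.1, (h3 v hv).2⟩
    · rw [s5, h4, pow_succ]
      ring
    · intro x hx
      obtain ⟨a, b, y, hy, rfl⟩ := s4 x hx
      have e0 := h5 y hy
      rw [map_add, s1 a b, s2 y hy e0.1]
      have e1 : prodR Q L (a • u' - b • u) = - (a • u) - b • u' := by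
        have := s1 (-b) a
        rw [show a • u' - b • u = (-b) • u + a • u' by rw [neg_smul]; abel, this]
        rw [neg_smul]
        abel
      have e2 : prodR Q L (prodR Q L₁ y) = prodR Q L₁ (prodR Q L₁ y) := by
        apply s2 _ e0.1
        rw [e0.2]
        exact Submodule.neg_mem _ hy
      constructor
      · apply U.add_mem
        · exact U.sub_mem (U.smul_mem _ hu'U) (U.smul_mem _ huU)
        · exact e0.1.1
      · rw [map_add, e1, e2, e0.2]
        abel

/-- Minus one on a subspace as a product of reflections. -/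
theorem exists_neg_list (h2 : (2 : F) ≠ 0) :
    ∀ (n : ℕ) (U : Submodule F V), NDOn (Bf Q) U → finrank F U = n →
      ∃ L : List V, L.length = n ∧ (∀ v ∈ L, Q v ≠ 0) ∧ (∀ u ∈ U, prodR Q L u = -u) ∧ (∀ w ∈ perp (Bf Q) U, prodR Q L w = w) := by
  intro n
  induction n with
  | zero =>
    intro U _ hd
    have hU : U = ⊥ := Submodule.finrank_eq_zero.1 hd
    subst hU
    refine ⟨[], rfl, by simp, ?_, ?_⟩
    · intro u hu
      rw [Submodule.mem_bot] at hu
      subst hu
      simp
    · intro w _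
      simp
  | succ n ih =>
    intro U hU hd
    obtain ⟨u, huU, hQu⟩ : ∃ u ∈ U, Q u ≠ 0 := by
      by_contra hno
      push Not at hno
      have hne : U ≠ ⊥ := by
        rintro rfl
        simp at hd
      obtain ⟨z, hz, hz0⟩ := (Submodule.ne_bot_iff U).1 hne
      exact hz0 (hU z hz (fun w hw => polar_of_ts hno hz hw))
    have hLU : Submodule.span F {u} ≤ U := by
      rw [Submodule.span_singleton_le_iff_mem]
      exact huU
    have hLnd := line_nd h2 hQu
    have h1 := finrank_rel (good h2 Q) hLU hLnd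
    have h3 := nd_rel (good h2 Q) hLU hLnd hU
    rw [finrank_span_singleton (ne_zero_of_Q hQu)] at h1
    have hsup := sup_rel (good h2 Q) hLU hLnd
    obtain ⟨L₁, e1, e2, e3, e4⟩ := ih _ h3 (by omega)
    have hcons : ∀ x, prodR Q (u :: L₁) x = refl Q u (prodR Q L₁ x) := by
      intro x
      simp only [prodR_cons]
      rfl
    refine ⟨u :: L₁, by simp [e1], ?_, ?_, ?_⟩
    · intro v hv
      simp only [List.mem_cons] at hv
      rcases hv with rfl | hv
      · exact hQu
      · exact e2 v hv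
    · intro x hx
      rw [← hsup] at hx
      obtain ⟨p, hp, y, hy, rfl⟩ := Submodule.mem_sup.1 hx
      obtain ⟨a, rfl⟩ := Submodule.mem_span_singleton.1 hp
      have e5 : prodR Q L₁ (a • u) = a • u := by
        apply e4
        intro z hz
        exact (good h2 Q).refl (hz.2 _ (Submodule.smul_mem _ _ (Submodule.mem_span_singleton_self _)))
      have e6 : B Q y u = 0 := (good h2 Q).refl (hy.2 _ (Submodule.mem_span_singleton_self _))
      rw [hcons, map_add, e5, e3 y hy, map_add, map_smul, refl_self Q hQu, map_neg, refl_of_perp Q e6, smul_neg]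
      abel
    · intro w hw
      have e5 : prodR Q L₁ w = w := e4 w (fun z hz => hw z hz.1)
      have e6 : B Q w u = 0 := (good h2 Q).refl (hw _ huU)
      rw [hcons, e5, refl_of_perp Q e6]

end Cfsg.Agent.Lib.OddSubJ
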