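import Mathlib
import Cfsg.Agent.Lib.HypModel
import Cfsg.Agent.Lib.OddSubBack

/-!
# Fixed-point-free isometries of odd prime order on whole spaces
-/

set_option autoImplicit false
set_option linter.unusedSectionVars false
set_option linter.unusedSimpArgs false
set_option linter.unusedVariables false

universe u v

namespace Cfsg.Agent.Lib.OddSubModel

open Module QuadraticMap Polynomial Matrix Cfsg.Agent.Lib.QuadFF Cfsg.Agent.Lib.IsomBlock Cfsg.Agent.Lib.QuadClass2
open Cfsg.Agent.Lib.QuadClass Cfsg.Agent.Lib.HypEll Cfsg.Agent.Lib.SpTI Cfsg.Agent.Lib.HypBlock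
open Cfsg.Agent.Lib.OrthoCount Cfsg.Agent.Lib.HypLevi Cfsg.Agent.Lib.HypModel

variable {F : Type*} [Field F] {V : Type u} [AddCommGroup V] [Module F V]
variable {Q : QuadraticForm F V} {r q : ℕ}

section models

variable [Fintype F]

/-- The block isometry on a given block. -/
theorem block_of_type [hr : Fact r.Prime] [FiniteDimensional F V] (p : ℕ) [Fact p.Prime] [CharP F p] (h2 : (2 : F) ≠ 0)
    (hq : Fintype.card F = q) (hr2 : r ≠ 2) (hrF : (r : F) ≠ 0) {B : Submodule F V}
    (hBd : finrank F B = blockDim r q) (hBt : (¬ Even (orderOf (q : ZMod r)) → Hyp Q B) ∧ (Even (orderOf (q : ZMod r)) → Ell Q B)) :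
    ∃ T : V →ₗ[F] V, (∀ v, Q (T v) = Q v) ∧ T ^ r = 1 ∧
      (∀ v ∈ perp (Bf Q) B, T v = v) ∧ InvOn T B ∧ FixFree T B := by
  classical
  have hpos : 0 < orderOf (q : ZMod r) := orderOf_pos' hq hrF
  by_cases hev : Even (orderOf (q : ZMod r))
  · have hci : blockDim r q = orderOf (q : ZMod r) := by
      unfold blockDim
      rw [if_pos hev]
    obtain ⟨e', he'⟩ := hev
    obtain ⟨e, rfl⟩ : ∃ e, e' = e + 1 := ⟨e' - 1, by omega⟩
    have he : orderOf (q : ZMod r) = 2 * (e + 1) := by omega
    have hev' : Even (orderOf (q : ZMod r)) := ⟨e + 1, he'⟩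
    have hB := hBt.2 hev'
    have hBd' : finrank F B = 2 * (e + 1) := by omega
    have hnd := hB.nd h2
    have hrd : r ∣ Fintype.card F ^ (e + 1) + 1 := by
      rw [hq]
      exact dvd_of_order_even he (by omega)
    obtain ⟨K, iK, fK, aK, Q₁, ζ, hK, hND, hζr, hζ1, hζ⟩ := Cfsg.Agent.Lib.MinusModel.exists_model (F := F) p (d := e + 1) (r := r) (by omega) hrd
    have hc := Cfsg.Agent.S5986.card_ne_of_fpf (F := F) 2 hr2 hrd Q₁ ζ hζr hζ1 hζ
    haveI : FiniteDimensional F K := Module.Finite.of_finite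
    obtain ⟨b', ζ', hb'⟩ := minus_of_card hK Q₁ hND hc
    obtain ⟨b, ζ₀, hb⟩ := minus_of_no_ts (Q := restr Q B) hBd' (nd_restr hnd) (by
      intro S hS hSd
      apply not_hyp_of_ell h2 hB
      refine ⟨hnd, S.map B.subtype, Submodule.map_subtype_le _ _, ?_, ?_⟩
      · rintro _ ⟨v, hv, rfl⟩
        exact hS v hv
      · rw [Submodule.finrank_map_subtype_eq, hSd, hBd'])
    obtain ⟨E, hE⟩ := isometry_of_minus (nd_restr hnd) hb hb'
    have hζ0 : ζ ≠ 0 := by
      rintro rfl
      rw [zero_pow hr.out.ne_zero] at hζr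
      exact zero_ne_one hζr
    have hk : ∀ k v, ((LinearMap.mulLeft F ζ) ^ k) v = ζ ^ k * v := by
      intro k
      induction k with
      | zero => intro v; simp
      | succ k ih =>
        intro v
        rw [pow_succ', Module.End.mul_apply, ih, LinearMap.mulLeft_apply, pow_succ']
        ring
    obtain ⟨τ, hτ, hτr, hτf⟩ := transport_block (r := r) Q₁ E hE (LinearMap.mulLeft F ζ) hζ (by
      ext v
      rw [hk, hζr, one_mul]
      rfl) (by
      intro v hv
      rw [LinearMap.mulLeft_apply] at hv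
      have h4 : (ζ - 1) * v = 0 := by rw [sub_mul, hv, one_mul, sub_self]
      exact (mul_eq_zero.1 h4).resolve_left (sub_ne_zero.2 hζ1))
    exact extend_block h2 hnd τ hτ hτr hτf
  · have hci : blockDim r q = 2 * orderOf (q : ZMod r) := by
      unfold blockDim
      rw [if_neg hev]
    set i := orderOf (q : ZMod r) with hi
    have hB := hBt.1 hev
    obtain ⟨hnd, S, hSB, hS, hSd⟩ := hB
    have hrd : r ∣ Fintype.card F ^ i - 1 := by
      rw [hq]
      have h3 : (q : ZMod r) ^ i = 1 := pow_orderOf_eq_one _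
      have hq1 : 1 ≤ q ^ i := Nat.one_le_pow _ _ (by rw [← hq]; exact Fintype.card_pos)
      apply (ZMod.natCast_eq_zero_iff _ _).1
      rw [Nat.cast_sub hq1]
      push_cast
      rw [h3, sub_self]
    obtain ⟨b, hb⟩ := hyp_of_ts (Q := restr Q B) (m := i) (by omega) (nd_restr hnd) (S.comap B.subtype) (fun v hv => hS _ hv)
      (by rw [finrank_comap_of_le hSB]; omega)
    obtain ⟨E, hE⟩ := iso_qPlus_of_hyp hb
    obtain ⟨τ₀, h1, h3, h4⟩ := exists_plus_model (F := F) (r := r) p (i := i) (by omega) hrd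
    obtain ⟨τ, hτ, hτr, hτf⟩ := transport_block (r := r) (qPlus i F) E hE τ₀ h1 h3 h4
    exact extend_block h2 hnd τ hτ hτr hτf

/-- The step of the construction. -/
theorem step_T [hr : Fact r.Prime] [FiniteDimensional F V] (h2 : (2 : F) ≠ 0) {U B : Submodule F V} (hBU : B ≤ U) (hBnd : NDOn (Bf Q) B)
    {Tb T' : V →ₗ[F] V} (hTb : ∀ v, Q (Tb v) = Q v) (hTbr : Tb ^ r = 1) (hTbp : ∀ v ∈ perp (Bf Q) B, Tb v = v) (hTbi : InvOn Tb B)
    (hTbf : FixFree Tb B) (hT' : ∀ v, Q (T' v) = Q v) (hT'r : T' ^ r = 1) (hT'p : ∀ v ∈ perp (Bf Q) (U ⊓ perp (Bf Q) B), T' v = v)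
    (hT'i : InvOn T' (U ⊓ perp (Bf Q) B)) :
    ∃ T : V →ₗ[F] V, (∀ v, Q (T v) = Q v) ∧ T ^ r = 1 ∧ (∀ v ∈ perp (Bf Q) U, T v = v) ∧ InvOn T U ∧
      fixS T U = fixS T' (U ⊓ perp (Bf Q) B) := by
  have hB := good h2 Q
  have hr0 := hr.out.ne_zero
  set U' := U ⊓ perp (Bf Q) B with hU'
  have hsup : B ⊔ U' = U := sup_rel hB hBU hBnd
  have hT'B : ∀ b ∈ B, T' b = b := by
    intro b hb
    apply hT'p
    intro w hw
    exact hB.refl (hw.2 b hb)
  have hiso' := polar_iso hT'
  have hiso := polar_iso hTb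
  have hT'pB : InvOn T' (perp (Bf Q) B) := inv_perp hiso' hr0 hT'r (fun b hb => by rw [hT'B b hb]; exact hb)
  have hc := isCompl_perp hB hBnd
  have hdecomp : ∀ v, ∃ b ∈ B, ∃ w ∈ perp (Bf Q) B, b + w = v := by
    intro v
    have : v ∈ B ⊔ perp (Bf Q) B := by
      rw [hc.sup_eq_top]
      trivial
    exact Submodule.mem_sup.1 this
  have hcomm : Commute Tb T' := by
    ext v
    obtain ⟨b, hb, w, hw, rfl⟩ := hdecomp v
    show Tb (T' (b + w)) = T' (Tb (b + w))
    have e1 : T' (b + w) = b + T' w := by rw [map_add, hT'B b hb]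
    have e2 : Tb (b + w) = Tb b + w := by rw [map_add, hTbp w hw]
    rw [e1, map_add, hTbp _ (hT'pB w hw), e2, map_add, hT'B _ (hTbi b hb)]
  refine ⟨Tb * T', ?_, ?_, ?_, ?_, ?_⟩
  · intro v
    rw [Module.End.mul_apply, hTb, hT']
  · rw [hcomm.mul_pow, hTbr, hT'r, one_mul]
  · intro v hv
    rw [Module.End.mul_apply]
    have e1 : T' v = v := hT'p v (fun w hw => hv w hw.1)
    have e2 : Tb v = v := hTbp v (fun w hw => hv w (hBU hw))
    rw [e1, e2]
  · intro u hu
    rw [← hsup] at hu
    obtain ⟨b, hb, w, hw, rfl⟩ := Submodule.mem_sup.1 hu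
    rw [Module.End.mul_apply, map_add, map_add, hT'B b hb, hTbp _ (hT'i w hw).2]
    exact U.add_mem (hBU (hTbi b hb)) (hT'i w hw).1
  · ext u
    rw [mem_fixS, mem_fixS]
    constructor
    · rintro ⟨hu, hfixu⟩
      rw [← hsup] at hu
      obtain ⟨b, hb, w, hw, rfl⟩ := Submodule.mem_sup.1 hu
      rw [Module.End.mul_apply, map_add, map_add, hT'B b hb, hTbp _ (hT'i w hw).2] at hfixu
      have e1 : Tb b - b = w - T' w := by
        rw [sub_eq_sub_iff_add_eq_add, hfixu]
        abel
      have e2 : Tb b - b ∈ B ⊓ perp (Bf Q) B := by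
        refine ⟨B.sub_mem (hTbi b hb) hb, ?_⟩
        rw [e1]
        exact Submodule.sub_mem _ hw.2 (hT'i w hw).2
      rw [hc.inf_eq_bot, Submodule.mem_bot, sub_eq_zero] at e2
      have e3 := hTbf b hb e2
      subst e3
      rw [zero_add]
      rw [e2, zero_add, zero_add] at hfixu
      refine ⟨hw, hfixu⟩
    · rintro ⟨hu, hfixu⟩
      refine ⟨hu.1, ?_⟩
      rw [Module.End.mul_apply, hfixu]
      exact hTbp u hu.2

/-- The type condition for fixed-point-free isometries. -/
def TypeF (Q : QuadraticForm F V) (r q s : ℕ) (U : Submodule F V) : Prop :=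
  (¬ Even (orderOf (q : ZMod r)) → Hyp Q U) ∧ (Even (orderOf (q : ZMod r)) → (Even s → Hyp Q U) ∧ (Odd s → Ell Q U))

/-- Fixed-point-free isometries of odd prime order. -/
theorem exists_fpf_T [hr : Fact r.Prime] [FiniteDimensional F V] (p : ℕ) [Fact p.Prime] [CharP F p] (h2 : (2 : F) ≠ 0)
    (hq : Fintype.card F = q) (hr2 : r ≠ 2) (hrF : (r : F) ≠ 0) :
    ∀ (s : ℕ) (U : Submodule F V), finrank F U = blockDim r q * s → TypeF Q r q s U →
      ∃ T : V →ₗ[F] V, (∀ v, Q (T v) = Q v) ∧ T ^ r = 1 ∧ (∀ v ∈ perp (Bf Q) U, T v = v) ∧ InvOn T U ∧ FixFree T U := by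
  classical
  have hB := good h2 Q
  have hpos : 0 < blockDim r q := blockDim_pos hq hrF
  have hiz : 0 < orderOf (q : ZMod r) := orderOf_pos' hq hrF
  intro s
  induction s with
  | zero =>
    intro U hd _
    have hU : U = ⊥ := Submodule.finrank_eq_zero.1 (by simpa using hd)
    subst hU
    refine ⟨1, fun v => rfl, one_pow _, fun v _ => rfl, fun u hu => hu, ?_⟩
    intro u hu _
    simpa using hu
  | succ s ih =>
    intro U hd hT
    have hUnd : NDOn (Bf Q) U := by
      by_cases hev : Even (orderOf (q : ZMod r))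
      · rcases Nat.even_or_odd (s + 1) with h1 | h1
        · exact ((hT.2 hev).1 h1).1
        · exact ((hT.2 hev).2 h1).nd h2
      · exact (hT.1 hev).1
    -- a block of the right type
    obtain ⟨B, hBU, hBd, hBt⟩ : ∃ B ≤ U, finrank F B = blockDim r q ∧
        (¬ Even (orderOf (q : ZMod r)) → Hyp Q B) ∧ (Even (orderOf (q : ZMod r)) → Ell Q B) := by
      by_cases hs : s = 0
      · subst hs
        refine ⟨U, le_rfl, by rw [hd]; simp, hT.1, fun hev => (hT.2 hev).2 (by simp)⟩
      · have hlt : blockDim r q < finrank F U := by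
          rw [hd]
          have : blockDim r q * 2 ≤ blockDim r q * (s + 1) := Nat.mul_le_mul_left _ (by omega)
          omega
        by_cases hev : Even (orderOf (q : ZMod r))
        · have hci : blockDim r q = orderOf (q : ZMod r) := by
            unfold blockDim
            rw [if_pos hev]
          obtain ⟨e', he'⟩ := hev
          obtain ⟨e, rfl⟩ : ∃ e, e' = e + 1 := ⟨e' - 1, by omega⟩
          have hev' : Even (orderOf (q : ZMod r)) := ⟨e + 1, he'⟩
          obtain ⟨B, h1, h3, h4⟩ := exists_ell_sub h2 Q e hUnd (by omega)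
          exact ⟨B, h1, by omega, fun h => absurd hev' h, fun _ => h3⟩
        · have hci : blockDim r q = 2 * orderOf (q : ZMod r) := by
            unfold blockDim
            rw [if_neg hev]
          obtain ⟨B, h1, h3, h4⟩ := exists_hyp_sub h2 Q (orderOf (q : ZMod r)) U hUnd (by omega)
          exact ⟨B, h1, by omega, fun _ => h3, fun h => absurd h hev⟩
    obtain ⟨Tb, hTb, hTbr, hTbp, hTbi, hTbf⟩ := block_of_type (Q := Q) p h2 hq hr2 hrF hBd hBt
    have hBnd : NDOn (Bf Q) B := by
      by_cases hev : Even (orderOf (q : ZMod r))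
      · exact (hBt.2 hev).nd h2
      · exact (hBt.1 hev).1
    have h1 := finrank_rel hB hBU hBnd
    have hsup := sup_rel hB hBU hBnd
    have hU'nd := nd_rel hB hBU hBnd hUnd
    set U' := U ⊓ perp (Bf Q) B with hU'
    have hU'd : finrank F U' = blockDim r q * s := by
      rw [hd, mul_add, mul_one, hBd] at *
      omega
    have horth : Orth Q B U' := fun a ha b hb => hb.2 a ha
    have hce : Even (blockDim r q) := blockDim_even r q
    obtain ⟨n', hn'⟩ : ∃ n', finrank F U' = 2 * n' := by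
      obtain ⟨x, hx⟩ := hce
      exact ⟨x * s, by rw [hU'd, hx]; ring⟩
    have hty := hyp_or_ell h2 Q n' U' hn' hU'nd
    have hT' : TypeF Q r q s U' := by
      refine ⟨?_, ?_⟩
      · intro hev
        rcases hty with h3 | h3
        · exact h3
        · exfalso
          apply not_hyp_of_ell h2 (W := U) _ (hT.1 hev)
          rw [← hsup, sup_comm]
          exact ell_sup_hyp h2 h3 (hBt.1 hev) horth.symm
      · intro hev
        have hBe := hBt.2 hev
        constructor
        · intro hse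
          rcases hty with h3 | h3
          · exact h3
          · exfalso
            have hU := (hT.2 hev).2 hse.add_one
            apply not_hyp_of_ell h2 hU
            rw [← hsup]
            exact ell_sup_ell h2 hBe h3 horth
        · intro hso
          rcases hty with h3 | h3
          · exfalso
            have hU := (hT.2 hev).1 hso.add_one
            apply not_hyp_of_ell h2 (W := U) _ hU
            rw [← hsup]
            exact ell_sup_hyp h2 hBe h3 horth
          · exact h3
    obtain ⟨T', h3, h4, h5, h6, h7⟩ := ih U' hU'd hT'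
    obtain ⟨T, h8, h9, h10, h11, h12⟩ := step_T h2 hBU hBnd hTb hTbr hTbp hTbi hTbf h3 h4 h5 h6
    refine ⟨T, h8, h9, h10, h11, ?_⟩
    intro u hu hfix
    have : u ∈ fixS T U := mem_fixS.2 ⟨hu, hfix⟩
    rw [h12] at this
    obtain ⟨h13, h14⟩ := mem_fixS.1 this
    exact h7 u h13 h14

end models

end Cfsg.Agent.Lib.OddSubModel
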