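import Mathlib
import Cfsg.Agent.Lib.OddSubModel
import Cfsg.Agent.Lib.OddSubJ
import Cfsg.Agent.Lib.HypBridge
import Cfsg.Agent.Lib.SpinorCrit
import Cfsg.Prelude.Def_GeometricClasses

/-!
# Fixing odd-dimensional nondegenerate subspaces: matrix statements
-/

set_option autoImplicit false
set_option linter.unusedSectionVars false
set_option linter.unusedSimpArgs false
set_option linter.unusedVariables false
set_option linter.style.haveILetI false

namespace Cfsg.Agent.Lib.OddSubMain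

open Module QuadraticMap Matrix Cfsg.Agent.Lib.QuadFF Cfsg.Agent.Lib.IsomBlock
open Cfsg.Agent.Lib.HypEll Cfsg.Agent.Lib.HypBlock Cfsg.Agent.Lib.OddSub Cfsg.Agent.Lib.OddSubCount
open Cfsg.Agent.Lib.OddSubBack Cfsg.Agent.Lib.OddSubModel Cfsg.Agent.Lib.OddSubJ Cfsg.Agent.Lib.HypBridge
open Cfsg.Agent.Lib.HypModel Cfsg.Agent.Lib.OrthGroup Cfsg.Agent.Lib.OrthOmega Cfsg.Agent.Lib.OrthMatrix
open scoped MatrixGroups

variable {F : Type*} [Field F] [Fintype F] {ι : Type} [Fintype ι] [DecidableEq ι]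
variable {Q : QuadraticForm F (ι → F)}

theorem neg_one_witness (h2 : (2 : F) ≠ 0) : ∃ a : F, a ≠ 0 ∧ a ≠ 1 := by
  refine ⟨-1, neg_ne_zero.2 one_ne_zero, ?_⟩
  intro h
  apply h2
  linear_combination -h

/-- Membership in `Ω` of a product of reflections. -/
theorem mem_omega_of_list (h2 : (2 : F) ≠ 0) (hND : ND Q) (x : GL ι F) (L : List (ι → F)) (hL : ∀ v ∈ L, Q v ≠ 0)
    (hx : ∀ v, (x : Matrix ι ι F) *ᵥ v = prodR Q L v) :
    x ∈ Cfsg.Geo.omegaGL ⇑Q ↔ Even L.length ∧ IsSquare (L.map Q).prod := by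
  have hiso : x ∈ Cfsg.isometryGroup F ⇑Q := (mem_isometryGroup _ _).2 (fun v => by
    rw [hx]
    exact prodR_mem Q L v)
  have hO : toO Q ⟨x, hiso⟩ = prodO Q L := by
    apply Subtype.ext
    ext1 v
    rw [toO_apply]
    exact hx v
  rw [Cfsg.Agent.S5985.mem_omegaGL_iff]
  constructor
  · rintro ⟨_, hc⟩
    rw [← Cfsg.Agent.Lib.SpinorCrit.mem_Omega_prodO_iff Q (nondegenerate_of_ND hND) (Or.inl (neg_one_witness h2)) L hL, ← hO]
    exact hc
  · intro h
    refine ⟨hiso, ?_⟩
    rw [hO, Cfsg.Agent.Lib.SpinorCrit.mem_Omega_prodO_iff Q (nondegenerate_of_ND hND) (Or.inl (neg_one_witness h2)) L hL]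
    exact h

theorem ndOn_iff' (W : Submodule F (ι → F)) : Cfsg.Geo.IsNondegenerateOn (polar ⇑Q) W ↔ NDOn (Bf Q) W := by
  constructor
  · intro h u hu h0
    by_contra hne
    obtain ⟨x, hx, hxu⟩ := (h u hu hne).2
    exact hxu (h0 x hx)
  · intro h w hw hw0
    have key : ∃ x ∈ W, polar Q w x ≠ 0 := by
      by_contra hno
      push Not at hno
      exact hw0 (h w hw hno)
    obtain ⟨x, hx, hxw⟩ := key
    refine ⟨⟨x, hx, ?_⟩, ⟨x, hx, hxw⟩⟩
    rwa [polar_comm]

/-- The members of the set in terms of classes. -/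
theorem omega_set_iff (h2 : (2 : F) ≠ 0) {W₀ : Submodule F (ι → F)} {α : F} (hW₀ : CS Q W₀ α) {m : ℕ} (hm : finrank F W₀ = m)
    (W : Submodule F (ι → F)) :
    (finrank F W = m ∧ Cfsg.Geo.IsNondegenerateOn (polar ⇑Q) W ∧ Cfsg.Geo.AreIsometricFor ⇑Q W W₀) ↔ (CS Q W α ∧ finrank F W = m) := by
  rw [ndOn_iff']
  constructor
  · rintro ⟨h1, _, e, he⟩
    refine ⟨cs_transport h2 e.symm ?_ hW₀, h1⟩
    intro w
    have := he (e.symm w)
    rw [LinearEquiv.apply_symm_apply] at this
    exact this.symm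
  · rintro ⟨h1, h3⟩
    refine ⟨h3, h1.nd h2, ?_⟩
    obtain ⟨e, he⟩ := cs_iso h2 h1 hW₀ (by rw [h3, hm])
    exact ⟨e, he⟩

/-- The hypothesis of the statements. -/
def HOdd (Q : QuadraticForm F (ι → F)) (W₀ : Submodule F (ι → F)) (r m : ℕ) : Prop :=
  ∀ x : GL ι F, x ∈ Cfsg.Geo.omegaGL ⇑Q →
    (∃ z : F, ((x ^ r : GL ι F) : Matrix ι ι F) = z • (1 : Matrix ι ι F)) →
    (∀ z : F, (x : Matrix ι ι F) ≠ z • (1 : Matrix ι ι F)) →
    ∃ W : Submodule F (ι → F), (finrank F W = m ∧ Cfsg.Geo.IsNondegenerateOn (polar ⇑Q) W ∧ Cfsg.Geo.AreIsometricFor ⇑Q W W₀) ∧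
      W.map (Matrix.toLin' (x : Matrix ι ι F)) ≤ W

theorem exists_nonsing_top (hND : ND Q) [Nonempty ι] [Nontrivial (ι → F)] : ∃ v, Q v ≠ 0 := by
  by_contra hno
  push Not at hno
  obtain ⟨u, hu⟩ := exists_ne (0 : ι → F)
  apply hu
  apply hND
  intro y
  simp only [polar, hno]
  simp

/-- From linear maps to elements of `Ω`. -/
theorem exists_x_gen (h2 : (2 : F) ≠ 0) (hND : ND Q) {T : (ι → F) →ₗ[F] (ι → F)} {r : ℕ} [hr : Fact r.Prime]
    (hr2 : r ≠ 2) (hT : ∀ v, Q (T v) = Q v) (hTr : T ^ r = 1) (hne : T ≠ 1) :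
    ∃ x : GL ι F, x ∈ Cfsg.Geo.omegaGL ⇑Q ∧ x ^ r = 1 ∧ (∀ z : F, (x : Matrix ι ι F) ≠ z • (1 : Matrix ι ι F)) ∧
      Matrix.toLin' (x : Matrix ι ι F) = T := by
  have hr0 := hr.out.ne_zero
  have h1 : T * T ^ (r - 1) = 1 := by
    rw [← pow_succ', Nat.sub_add_cancel hr.out.one_le, hTr]
  have h3 : T ^ (r - 1) * T = 1 := by
    rw [← pow_succ, Nat.sub_add_cancel hr.out.one_le, hTr]
  let e : (ι → F) ≃ₗ[F] (ι → F) := LinearEquiv.ofLinear T (T ^ (r - 1)) h1 h3
  let x : GL ι F := Cfsg.Agent.Lib.OrthMatrix.glEquiv.symm e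
  have hx : ∀ v, (x : Matrix ι ι F) *ᵥ v = T v := by
    intro v
    rw [mulVec_glEquiv_symm]
    rfl
  have hxT : Matrix.toLin' (x : Matrix ι ι F) = T := by
    ext1
    exact LinearMap.ext fun v => by
      simp only [LinearMap.comp_apply]
      rw [Matrix.toLin'_apply, hx]
  have hxr : x ^ r = 1 := by
    apply Units.ext
    rw [matrix_eq_iff]
    intro v
    rw [Units.val_pow_eq_pow_val, ← Matrix.toLin'_apply, ← Cfsg.Agent.Lib.HypBridge.toLin_pow, hxT, hTr]
    simp
  have hOG : O Q ≤ G Q := O_le_G (nondegenerate_of_ND hND) (Or.inl (neg_one_witness h2))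
  refine ⟨x, ?_, hxr, ?_, hxT⟩
  · refine Cfsg.Agent.S5985.mem_omega_of_odd_pow _ hOG x ?_ (hr.out.odd_of_ne_two hr2) hxr
    rw [mem_isometryGroup]
    intro v
    rw [hx]
    exact hT v
  · intro z hz
    apply hne
    have hTz : ∀ v, T v = z • v := by
      intro v
      rw [← hx, hz, Matrix.smul_mulVec, Matrix.one_mulVec]
    -- a nonzero vector exists
    haveI : Nontrivial (ι → F) := by
      by_contra hnt
      rw [not_nontrivial_iff_subsingleton] at hnt
      apply hne
      ext1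
      exact LinearMap.ext fun v => Subsingleton.elim _ _
    obtain ⟨v, hv⟩ : ∃ v, Q v ≠ 0 := by
      by_contra hno
      push Not at hno
      obtain ⟨u, hu⟩ := exists_ne (0 : ι → F)
      apply hu
      apply hND
      intro y
      simp only [polar, hno]
      simp
    have hz2 : z * z = 1 := by
      have e1 := hT v
      rw [hTz, Q_sm] at e1
      have : (z ^ 2 - 1) * Q v = 0 := by linear_combination e1
      have h5 := (mul_eq_zero.1 this).resolve_right hv
      linear_combination h5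
    have hzr : z ^ r = 1 := by
      have hk : ∀ k w, (T ^ k) w = z ^ k • w := by
        intro k
        induction k with
        | zero => intro w; simp
        | succ k ih =>
          intro w
          rw [pow_succ, Module.End.mul_apply, ih, hTz, smul_smul, pow_succ]
      have e1 := hk r v
      rw [hTr] at e1
      have e2 : (z ^ r - 1) • v = 0 := by
        rw [sub_smul, ← e1, one_smul]
        simp
      have hv0 : v ≠ 0 := ne_zero_of_Q hv
      exact sub_eq_zero.1 ((smul_eq_zero.1 e2).resolve_right hv0)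
    have hz1 : z = 1 := by
      rcases mul_self_eq_one_iff.1 hz2 with h5 | h5
      · exact h5
      · exfalso
        rw [h5, (hr.out.odd_of_ne_two hr2).neg_one_pow] at hzr
        apply h2
        linear_combination -hzr
    ext1
    refine LinearMap.ext fun w => ?_
    simp only [LinearMap.comp_apply]
    rw [hTz, hz1, one_smul]
    rfl

/-- The count in the matrix setting. -/
theorem count_matrix_O (h2 : (2 : F) ≠ 0) (hTop : Hyp Q ⊤ ∨ Ell Q ⊤) {D t r : ℕ} (hd : finrank F (ι → F) = 2 * D)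
    {W₀ : Submodule F (ι → F)} {α : F} (hW₀ : CS Q W₀ α) (hm : finrank F W₀ = 2 * t + 1) (ht : t < D) (hr : r.Prime)
    (hrq : ¬ r ∣ Fintype.card F)
    (h : r ∣ Nat.card {W : Submodule F (ι → F) // finrank F W = 2 * t + 1 ∧ Cfsg.Geo.IsNondegenerateOn (polar ⇑Q) W ∧
      Cfsg.Geo.AreIsometricFor ⇑Q W W₀}) :
    ∃ j ≤ t, r ∣ Fintype.card F ^ (2 * (D - j)) - 1 := by
  apply count_dvd_O h2 hW₀.ne hr hrq t D ht ⊤ hTop (by rw [finrank_top, hd])
  convert h using 1
  apply Nat.card_congr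
  refine Equiv.subtypeEquivRight ?_
  intro W
  rw [omega_set_iff h2 hW₀ hm]
  constructor
  · rintro ⟨_, h1, h3⟩
    exact ⟨h1, h3⟩
  · rintro ⟨h1, h3⟩
    exact ⟨le_top, h1, h3⟩

/-- The arithmetic of the class `m % c`. -/
theorem odd_mod {m c : ℕ} (hce : Even c) (hm : Odd m) : Odd (m % c) := by
  obtain ⟨x, hx⟩ := hce
  rw [Nat.odd_iff] at hm ⊢
  have h7 : c = 2 * x := by omega
  rw [h7, Nat.mod_mul]
  omega

theorem even_mod {m c : ℕ} (hce : Even c) (hm : Even m) : Even (m % c) := by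
  obtain ⟨x, hx⟩ := hce
  rw [Nat.even_iff] at hm ⊢
  have h7 : c = 2 * x := by omega
  rw [h7, Nat.mod_mul]
  omega

/-- The forward direction, odd `r`. -/
theorem forward_odd (p : ℕ) [Fact p.Prime] [CharP F p] {r q : ℕ} [hr : Fact r.Prime] (h2 : (2 : F) ≠ 0) (hND : ND Q) (hTop : Hyp Q ⊤ ∨ Ell Q ⊤)
    (hq : Fintype.card F = q) (hr2 : r ≠ 2) (hrF : (r : F) ≠ 0) {d t : ℕ} (hd : finrank F (ι → F) = 2 * d) (htd : 2 * t + 1 < d)
    {W₀ : Submodule F (ι → F)} {α : F} (hW₀ : CS Q W₀ α) (hm : finrank F W₀ = 2 * t + 1)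
    (hrΩ : r ∣ Nat.card {W : Submodule F (ι → F) // finrank F W = 2 * t + 1 ∧ Cfsg.Geo.IsNondegenerateOn (polar ⇑Q) W ∧
      Cfsg.Geo.AreIsometricFor ⇑Q W W₀}) (H : HOdd Q W₀ r (2 * t + 1)) :
    (0 < (2 * d) % blockDim r q → blockDim r q ≤ 2 * t + 1 ∧ 0 < (2 * t + 1) % blockDim r q ∧ (2 * t + 1) % blockDim r q < (2 * d) % blockDim r q) ∧
      ((2 * d) % blockDim r q = 0 → ¬ TypeF Q r q ((2 * d) / blockDim r q) ⊤) := by
  have hpos : 0 < blockDim r q := blockDim_pos hq hrF
  have hce : Even (blockDim r q) := blockDim_even r q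
  have hnd : NDOn (Bf Q) ⊤ := fun u _ h => hND u fun y => h y trivial
  have hrq : ¬ r ∣ Fintype.card F := by
    rw [hq]
    exact not_dvd_card hq hrF
  obtain ⟨j, hj, hdvd⟩ := count_matrix_O h2 hTop hd hW₀ hm (by omega) hr.out hrq hrΩ
  rw [hq] at hdvd
  have hcd := blockDim_dvd (by rw [← hq]; exact Fintype.card_pos) hdvd
  have hcle : blockDim r q ≤ 2 * (d - j) := Nat.le_of_dvd (by omega) hcd
  -- the key consequence of the hypothesis
  have key : ∀ T : (ι → F) →ₗ[F] (ι → F), (∀ v, Q (T v) = Q v) → T ^ r = 1 → T ≠ 1 →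
      ∃ W : Submodule F (ι → F), CS Q W α ∧ finrank F W = 2 * t + 1 ∧ InvOn T W := by
    intro T hT hTr hne
    obtain ⟨x, hx, hxr, hxs, hxT⟩ := exists_x_gen h2 hND hr2 hT hTr hne
    obtain ⟨W, hW, hWm⟩ := H x hx ⟨1, by rw [hxr]; simp⟩ hxs
    rw [omega_set_iff h2 hW₀ hm] at hW
    rw [map_le_iff, hxT] at hWm
    exact ⟨W, hW.1, hW.2, hWm⟩
  have hmodd : Odd ((2 * t + 1) % blockDim r q) := odd_mod hce ⟨t, rfl⟩
  have hkev : Even ((2 * d) % blockDim r q) := even_mod hce ⟨d, by ring⟩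
  have h1 := Nat.div_add_mod (2 * d) (blockDim r q)
  have hlt := Nat.mod_lt (2 * d) hpos
  constructor
  · intro hk
    obtain ⟨T, hT, hTr, _, _, hfix⟩ := exists_model_T (Q := Q) p h2 hq hr2 hrF ((2 * d) / blockDim r q) ⊤ hnd (by
      rw [finrank_top, hd]
      omega)
    rw [finrank_top, hd] at hfix
    have hne : T ≠ 1 := by
      rintro rfl
      have : fixS (1 : (ι → F) →ₗ[F] (ι → F)) ⊤ = ⊤ := by
        ext v
        rw [mem_fixS]
        simp
      rw [this, finrank_top, hd] at hfix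
      have hs0 : blockDim r q * ((2 * d) / blockDim r q) = 0 := by omega
      have h3 : (2 * d) / blockDim r q = 0 := by
        rcases Nat.mul_eq_zero.1 hs0 with h | h
        · omega
        · exact h
      have h4 : 2 * d < blockDim r q := by
        rcases Nat.div_eq_zero_iff.1 h3 with h | h
        · omega
        · exact h
      omega
    obtain ⟨W, hW, hWd, hWinv⟩ := key T hT hTr hne
    obtain ⟨h3, h4, _, _⟩ := forward_shape (n := 2 * d) h2 hq hr2 hrF hT hTr (by omega) (hW.nd h2) hWd hWinv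
    have h5 : (2 * t + 1) % blockDim r q ≤ (2 * d) % blockDim r q := by
      rw [h3]
      exact h4
    have h6 : (2 * t + 1) % blockDim r q < (2 * d) % blockDim r q := by
      apply lt_of_le_of_ne h5
      intro h7
      rw [h7] at hmodd
      exact (Nat.not_even_iff_odd.2 hmodd) hkev
    have h7 : 0 < (2 * t + 1) % blockDim r q := hmodd.pos
    refine ⟨?_, h7, h6⟩
    by_contra hcon
    push Not at hcon
    rw [Nat.mod_eq_of_lt hcon] at h6
    obtain ⟨s, hs⟩ := hcd
    have h8 : 2 * d = 2 * j + blockDim r q * s := by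
      rw [← hs]
      omega
    rw [h8, Nat.add_mul_mod_self_left, Nat.mod_eq_of_lt (by omega)] at h6
    omega
  · intro hk hty
    have hs : finrank F (⊤ : Submodule F (ι → F)) = blockDim r q * ((2 * d) / blockDim r q) := by
      rw [finrank_top, hd]
      omega
    obtain ⟨T, hT, hTr, _, _, hfree⟩ := exists_fpf_T (Q := Q) p h2 hq hr2 hrF _ ⊤ hs hty
    have hd0 : 0 < d := by omega
    have hfixb : fixS T (⊤ : Submodule F (ι → F)) = ⊥ := by
      rw [eq_bot_iff]
      intro u hu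
      rw [mem_fixS] at hu
      exact hfree u hu.1 hu.2
    have hne : T ≠ 1 := by
      rintro rfl
      have : fixS (1 : (ι → F) →ₗ[F] (ι → F)) ⊤ = ⊤ := by
        ext v
        rw [mem_fixS]
        simp
      rw [this] at hfixb
      have h3 := congrArg (fun S : Submodule F (ι → F) => finrank F S) hfixb
      simp only [finrank_top, finrank_bot] at h3
      omega
    obtain ⟨W, hW, hWd, hWinv⟩ := key T hT hTr hne
    obtain ⟨h3, h4, _, _⟩ := forward_shape (n := 2 * d) h2 hq hr2 hrF hT hTr (by rw [hfixb, hk]; simp) (hW.nd h2) hWd hWinv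
    have h5 := hmodd.pos
    rw [hk] at h4
    omega

/-- The backward direction, odd `r`. -/
theorem backward_odd_main {r q : ℕ} [hr : Fact r.Prime] (h2 : (2 : F) ≠ 0) (hND : ND Q) (hq : Fintype.card F = q) (hr2 : r ≠ 2) (hrF : (r : F) ≠ 0)
    {d m : ℕ} (hd : finrank F (ι → F) = 2 * d) (hmd : m < 2 * d) (hmo : Odd m)
    {W₀ : Submodule F (ι → F)} {α : F} (hW₀ : CS Q W₀ α) (hm : finrank F W₀ = m)
    (hcond : (m % blockDim r q < (2 * d) % blockDim r q) ∨ ((2 * d) % blockDim r q = 0 ∧ ¬ TypeF Q r q ((2 * d) / blockDim r q) ⊤)) :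
    HOdd Q W₀ r m := by
  intro x hx hxz hxs
  have hpos : 0 < blockDim r q := blockDim_pos hq hrF
  have hnd : NDOn (Bf Q) ⊤ := fun u _ h => hND u fun y => h y trivial
  obtain ⟨z, hz⟩ := hxz
  set X := Matrix.toLin' (x : Matrix ι ι F) with hX
  have hXiso : ∀ v, Q (X v) = Q v := fun v => Cfsg.Agent.S5985.isometry_of_mem_omega _ hx v
  have hXk : ∀ k v, Q ((X ^ k) v) = Q v := by
    intro k
    induction k with
    | zero => intro v; simp
    | succ k ih =>
      intro v
      rw [pow_succ', Module.End.mul_apply, hXiso, ih]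
  have hXr : ∀ v, (X ^ r) v = z • v := by
    intro v
    rw [hX, Cfsg.Agent.Lib.HypBridge.toLin_pow, Matrix.toLin'_apply, ← Units.val_pow_eq_pow_val, hz, Matrix.smul_mulVec, Matrix.one_mulVec]
  haveI : Nontrivial (ι → F) := Module.nontrivial_of_finrank_pos (R := F) (by omega)
  obtain ⟨v₀, hv₀⟩ : ∃ v, Q v ≠ 0 := by
    by_contra hno
    push Not at hno
    obtain ⟨u, hu⟩ := exists_ne (0 : ι → F)
    apply hu
    apply hND
    intro y
    simp only [polar, hno]
    simp
  have hz2 : z * z = 1 := by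
    have e1 := hXk r v₀
    rw [hXr, Q_sm] at e1
    have : (z ^ 2 - 1) * Q v₀ = 0 := by linear_combination e1
    have h5 := (mul_eq_zero.1 this).resolve_right hv₀
    linear_combination h5
  have hzr : z ^ r = z := by
    obtain ⟨k, hk⟩ := hr.out.odd_of_ne_two hr2
    rw [hk, pow_succ, pow_mul, pow_two, hz2, one_pow, one_mul]
  set T : (ι → F) →ₗ[F] (ι → F) := z • X with hT
  have hTv : ∀ v, T v = z • X v := fun v => rfl
  have hTiso : ∀ v, Q (T v) = Q v := by
    intro v
    rw [hTv, Q_sm, hXiso, pow_two, hz2, one_mul]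
  have hTr : T ^ r = 1 := by
    rw [hT, smul_pow, hzr]
    ext1
    refine LinearMap.ext fun v => ?_
    simp only [LinearMap.comp_apply]
    show z • (X ^ r) _ = _
    rw [hXr, smul_smul, hz2, one_smul]
    rfl
  have hiso := polar_iso hTiso
  have hr0 := hr.out.ne_zero
  obtain ⟨s, hs⟩ := finrank_fix_add hq hr2 hrF (good h2 Q) hiso hTr hnd (fun u _ => trivial)
  rw [finrank_top, hd] at hs
  have hmod : (2 * d) % blockDim r q = finrank F (fixS T ⊤) % blockDim r q := by
    rw [hs, Nat.add_mul_mod_self_left]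
  have hf : m % blockDim r q < finrank F (fixS T ⊤) := by
    rcases hcond with h | ⟨h0, hty⟩
    · have := Nat.mod_le (finrank F (fixS T ⊤)) (blockDim r q)
      omega
    · by_contra hcon
      push Not at hcon
      have hlt := Nat.mod_lt m hpos
      have hfl : finrank F (fixS T ⊤) < blockDim r q := by omega
      rw [hmod, Nat.mod_eq_of_lt hfl] at h0
      -- no fixed points
      have hfree : FixFree T ⊤ := by
        intro u hu hfix
        have : u ∈ fixS T ⊤ := mem_fixS.2 ⟨hu, hfix⟩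
        rw [Submodule.finrank_eq_zero.1 h0] at this
        exact this
      apply hty
      constructor
      · intro hev
        exact type_fpf_odd h2 hq hr2 hrF hTiso hTr hev _ ⊤ rfl hnd (fun u _ => trivial) hfree
      · intro hev
        have hci : blockDim r q = orderOf (q : ZMod r) := by
          unfold blockDim
          rw [if_pos hev]
        have h1 := Nat.div_add_mod (2 * d) (blockDim r q)
        have h3 : (2 * d) % blockDim r q = 0 := by
          rw [hmod, h0]
          simp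
        apply type_fpf_even h2 hq hr2 hrF hTiso hTr hev _ ⊤ _ hnd (fun u _ => trivial) hfree
        rw [finrank_top, hd, ← hci]
        omega
  obtain ⟨W, h1, h3, h4⟩ := backward_odd_cs h2 hq hr2 hrF hTiso hTr hnd hd hmd hmo hf hW₀.ne
  refine ⟨W, (omega_set_iff h2 hW₀ hm W).2 ⟨h1, h3⟩, ?_⟩
  rw [map_le_iff]
  intro u hu
  have e1 : X u = z • T u := by
    rw [hTv, smul_smul, hz2, one_smul]
  rw [e1]
  exact W.smul_mem _ (h4 u hu)

end Cfsg.Agent.Lib.OddSubMain
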