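import Mathlib
import Cfsg.Agent.Lib.OddSubMain

/-!
# Fixing odd-dimensional nondegenerate subspaces: the prime `2`
-/

set_option autoImplicit false
set_option linter.unusedSectionVars false
set_option linter.unusedSimpArgs false
set_option linter.unusedVariables false
set_option linter.style.haveILetI false

namespace Cfsg.Agent.Lib.OddSubTwo

open Module QuadraticMap Matrix Cfsg.Agent.Lib.QuadFF Cfsg.Agent.Lib.IsomBlock
open Cfsg.Agent.Lib.HypEll Cfsg.Agent.Lib.HypBlock Cfsg.Agent.Lib.OddSub Cfsg.Agent.Lib.OddSubCount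
open Cfsg.Agent.Lib.OddSubBack Cfsg.Agent.Lib.OddSubModel Cfsg.Agent.Lib.OddSubJ Cfsg.Agent.Lib.HypBridge
open Cfsg.Agent.Lib.HypModel Cfsg.Agent.Lib.OrthGroup Cfsg.Agent.Lib.OrthOmega Cfsg.Agent.Lib.OrthMatrix
open Cfsg.Agent.Lib.OddSubMain
open scoped MatrixGroups

variable {F : Type*} [Field F] [Fintype F] {ι : Type} [Fintype ι] [DecidableEq ι]
variable {Q : QuadraticForm F (ι → F)}

theorem ndOn_top (hND : ND Q) : NDOn (Bf Q) (⊤ : Submodule F (ι → F)) :=
  fun u _ h => hND u fun y => h y trivial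

/-- An element of `Ω` with square `-1` forces the type of the space. -/
theorem J_of_omega (h2 : (2 : F) ≠ 0) (hND : ND Q) {d : ℕ} (hd : finrank F (ι → F) = 2 * d) (x : GL ι F)
    (hx : x ∈ Cfsg.Geo.omegaGL ⇑Q) (hJ : ∀ v, (x : Matrix ι ι F) *ᵥ ((x : Matrix ι ι F) *ᵥ v) = -v) :
    IsSquare ((2 : F) ^ d) ∧ TypeC Q d ⊤ := by
  set T : (ι → F) →ₗ[F] (ι → F) := Matrix.toLin' (x : Matrix ι ι F) with hT
  have hTv : ∀ v, T v = (x : Matrix ι ι F) *ᵥ v := fun v => Matrix.toLin'_apply _ _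
  have hTiso : ∀ v, Q (T v) = Q v := fun v => Cfsg.Agent.S5985.isometry_of_mem_omega _ hx v
  obtain ⟨L, hlen, hL, hprod, hprodR, -, hty⟩ := list_of_J h2 hTiso (T := T) (fun v => by rw [hTv, hTv, hJ]) d ⊤ (ndOn_top hND)
    (fun _ _ => trivial) (by rw [finrank_top, hd])
  refine ⟨?_, hty⟩
  have := (mem_omega_of_list h2 hND x L (fun v hv => (hL v hv).2) (fun v => by
    rw [← hTv, hprodR v trivial])).1 hx
  rw [← hprod]
  exact this.2

/-- Type and discriminant give an element of `Ω` with square `-1`. -/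
theorem exists_bad_J (h2 : (2 : F) ≠ 0) (hND : ND Q) {d : ℕ} (hd : finrank F (ι → F) = 2 * d) (hd0 : 0 < d) (hty : TypeC Q d ⊤)
    (hs : IsSquare ((2 : F) ^ d)) :
    ∃ x : GL ι F, x ∈ Cfsg.Geo.omegaGL ⇑Q ∧ (∀ v, (x : Matrix ι ι F) *ᵥ ((x : Matrix ι ι F) *ᵥ v) = -v) := by
  obtain ⟨L, hlen, hL, hprod, hprodR, -⟩ := exists_J h2 d ⊤ (by rw [finrank_top, hd]) hty
  let x : GL ι F := glEquiv.symm (prodR Q L)
  have hx : ∀ v, (x : Matrix ι ι F) *ᵥ v = prodR Q L v := fun v => mulVec_glEquiv_symm _ v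
  refine ⟨x, ?_, ?_⟩
  · rw [mem_omega_of_list h2 hND x L (fun v hv => (hL v hv).2) hx, hprod]
    exact ⟨by rw [hlen]; exact even_two_mul d, hs⟩
  · intro v
    rw [hx, hx]
    exact (hprodR v trivial).2

/-- An element with square `-1` is not scalar. -/
theorem not_scalar_of_J (h2 : (2 : F) ≠ 0) (hND : ND Q) {d : ℕ} (hd : finrank F (ι → F) = 2 * d) (hd0 : 0 < d) (x : GL ι F)
    (hx : x ∈ Cfsg.Geo.omegaGL ⇑Q) (hJ : ∀ v, (x : Matrix ι ι F) *ᵥ ((x : Matrix ι ι F) *ᵥ v) = -v) (z : F) :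
    (x : Matrix ι ι F) ≠ z • (1 : Matrix ι ι F) := by
  intro hz
  haveI : Nontrivial (ι → F) := Module.nontrivial_of_finrank_pos (R := F) (by omega)
  obtain ⟨v₀, hv₀⟩ : ∃ v, Q v ≠ 0 := by
    by_contra hno
    push Not at hno
    obtain ⟨u, hu⟩ := exists_ne (0 : ι → F)
    apply hu
    apply hND
    intro y
    simp only [polar, hno]
    simp
  have hiso : ∀ v, Q ((x : Matrix ι ι F) *ᵥ v) = Q v := fun v => Cfsg.Agent.S5985.isometry_of_mem_omega _ hx v
  -- `x` acts by `z`, so `z^2 = -1` and `Q` scales by `z^2 = 1`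
  have h4 : z • z • v₀ = -v₀ := by
    have := hJ v₀
    rw [hz, Matrix.smul_mulVec, Matrix.one_mulVec, Matrix.smul_mulVec, Matrix.one_mulVec] at this
    exact this
  have h5 : (z * z + 1) • v₀ = 0 := by
    rw [add_smul, one_smul, mul_smul, h4]
    simp
  have h6 : z * z + 1 = 0 := (smul_eq_zero.1 h5).resolve_right (ne_zero_of_Q hv₀)
  have h7 := hiso v₀
  rw [hz, Matrix.smul_mulVec, Matrix.one_mulVec, Q_sm] at h7
  have h8 : (z * z - 1) * Q v₀ = 0 := by linear_combination h7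
  have h9 := (mul_eq_zero.1 h8).resolve_right hv₀
  apply h2
  linear_combination h6 - h9

/-- Existence of an element with square `-1` rules out the hypothesis. -/
theorem not_HOdd_of_J (h2 : (2 : F) ≠ 0) (hND : ND Q) {d m : ℕ} (hd : finrank F (ι → F) = 2 * d) (hd0 : 0 < d) (hmo : Odd m)
    {W₀ : Submodule F (ι → F)} {α : F} (hW₀ : CS Q W₀ α) (hm : finrank F W₀ = m) (x : GL ι F)
    (hx : x ∈ Cfsg.Geo.omegaGL ⇑Q) (hJ : ∀ v, (x : Matrix ι ι F) *ᵥ ((x : Matrix ι ι F) *ᵥ v) = -v) :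
    ¬ HOdd Q W₀ 2 m := by
  intro H
  obtain ⟨W, hW, hWm⟩ := H x hx ⟨-1, by
    rw [matrix_eq_iff]
    intro v
    rw [pow_two]
    have : ((x * x : GL ι F) : Matrix ι ι F) *ᵥ v = (x : Matrix ι ι F) *ᵥ ((x : Matrix ι ι F) *ᵥ v) := by
      rw [Units.val_mul, Matrix.mulVec_mulVec]
    rw [this, hJ, Matrix.smul_mulVec, Matrix.one_mulVec]
    simp⟩ (not_scalar_of_J h2 hND hd hd0 x hx hJ)
  rw [omega_set_iff h2 hW₀ hm] at hW
  rw [map_le_iff] at hWm
  set T : (ι → F) →ₗ[F] (ι → F) := Matrix.toLin' (x : Matrix ι ι F) with hT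
  have hTv : ∀ v, T v = (x : Matrix ι ι F) *ᵥ v := fun v => Matrix.toLin'_apply _ _
  have hTiso : ∀ v, Q (T v) = Q v := fun v => Cfsg.Agent.S5985.isometry_of_mem_omega _ hx v
  have := even_of_J h2 hTiso (T := T) (fun v => by rw [hTv, hTv, hJ]) m W (hW.1.nd h2) hWm hW.2
  exact (Nat.not_even_iff_odd.2 hmo) this

/-- The parity of the `-1` eigenspace. -/
theorem even_of_invol (h2 : (2 : F) ≠ 0) (hND : ND Q) (x : GL ι F) (hx : x ∈ Cfsg.Geo.omegaGL ⇑Q)
    (hJ : ∀ v, (x : Matrix ι ι F) *ᵥ ((x : Matrix ι ι F) *ᵥ v) = v) :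
    Even (finrank F (LinearMap.ker (Matrix.toLin' (x : Matrix ι ι F) + LinearMap.id))) := by
  set T : (ι → F) →ₗ[F] (ι → F) := Matrix.toLin' (x : Matrix ι ι F) with hT
  have hTv : ∀ v, T v = (x : Matrix ι ι F) *ᵥ v := fun v => Matrix.toLin'_apply _ _
  have hTiso : ∀ v, Q (T v) = Q v := fun v => Cfsg.Agent.S5985.isometry_of_mem_omega _ hx v
  have hT2 : ∀ v, T (T v) = v := fun v => by rw [hTv, hTv, hJ]
  set X₂ : Submodule F (ι → F) := LinearMap.ker (T + LinearMap.id) with hX₂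
  have hm₂ : ∀ v, v ∈ X₂ ↔ T v = -v := by
    intro v
    rw [hX₂, LinearMap.mem_ker]
    simp only [LinearMap.add_apply, LinearMap.id_coe, id_eq]
    exact add_eq_zero_iff_eq_neg
  have hiso := polar_iso hTiso
  have horth : ∀ u v, T u = u → v ∈ X₂ → polar Q u v = 0 := by
    intro u v hu hv
    have h1 := hiso u v
    rw [hu, (hm₂ v).1 hv] at h1
    rw [map_neg, Bf_apply] at h1
    have h4 : 2 * polar Q u v = 0 := by linear_combination -h1
    exact (mul_eq_zero.1 h4).resolve_left h2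
  have hsplit : ∀ v, ∃ a b, T a = a ∧ b ∈ X₂ ∧ v = a + b := by
    intro v
    refine ⟨(2 : F)⁻¹ • (v + T v), (2 : F)⁻¹ • (v - T v), ?_, ?_, ?_⟩
    · rw [map_smul, map_add, hT2, add_comm]
    · rw [hm₂, map_smul, map_sub, hT2, ← smul_neg, neg_sub]
    · rw [← smul_add]
      have : v + T v + (v - T v) = (2 : F) • v := by
        rw [two_smul]
        abel
      rw [this, smul_smul, inv_mul_cancel₀ h2, one_smul]
  have hndX : NDOn (Bf Q) X₂ := by
    intro u hu h0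
    apply hND
    intro y
    obtain ⟨a, b, ha, hb, rfl⟩ := hsplit y
    have h1 : polar Q u a = 0 := by
      rw [polar_comm]
      exact horth a u ha hu
    have h3 : polar Q u b = 0 := h0 b hb
    rw [polar_add_right, h1, h3, add_zero]
  obtain ⟨L, hlen, hL, hneg, hfix⟩ := exists_neg_list h2 _ X₂ hndX rfl
  have hxL : ∀ v, (x : Matrix ι ι F) *ᵥ v = prodR Q L v := by
    intro v
    obtain ⟨a, b, ha, hb, rfl⟩ := hsplit v
    rw [← hTv, map_add, map_add, ha, hneg b hb, (hm₂ b).1 hb]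
    congr 1
    rw [hfix a (fun w hw => by
      show polar Q w a = 0
      rw [polar_comm]
      exact horth a w ha hw)]
  have := ((mem_omega_of_list h2 hND x L hL hxL).1 hx).1
  rwa [hlen] at this

/-- Without elements with square `-1`, the hypothesis holds. -/
theorem two_main (h2 : (2 : F) ≠ 0) (hND : ND Q) {d m : ℕ} (hd : finrank F (ι → F) = 2 * d) (hmd : m < d) (hmo : Odd m)
    {W₀ : Submodule F (ι → F)} {α : F} (hW₀ : CS Q W₀ α) (hm : finrank F W₀ = m)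
    (hno : ∀ x : GL ι F, x ∈ Cfsg.Geo.omegaGL ⇑Q → ¬ ∀ v, (x : Matrix ι ι F) *ᵥ ((x : Matrix ι ι F) *ᵥ v) = -v) :
    HOdd Q W₀ 2 m := by
  intro x hx hxz hxs
  obtain ⟨z, hz⟩ := hxz
  have hsq : ∀ v, (x : Matrix ι ι F) *ᵥ ((x : Matrix ι ι F) *ᵥ v) = z • v := by
    intro v
    have : ((x * x : GL ι F) : Matrix ι ι F) *ᵥ v = (x : Matrix ι ι F) *ᵥ ((x : Matrix ι ι F) *ᵥ v) := by
      rw [Units.val_mul, Matrix.mulVec_mulVec]
    rw [← this, ← pow_two, hz, Matrix.smul_mulVec, Matrix.one_mulVec]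
  have hiso : ∀ v, Q ((x : Matrix ι ι F) *ᵥ v) = Q v := fun v => Cfsg.Agent.S5985.isometry_of_mem_omega _ hx v
  haveI : Nontrivial (ι → F) := Module.nontrivial_of_finrank_pos (R := F) (by omega)
  obtain ⟨v₀, hv₀⟩ : ∃ v, Q v ≠ 0 := by
    by_contra hno
    push Not at hno
    obtain ⟨u, hu⟩ := exists_ne (0 : ι → F)
    apply hu
    apply hND
    intro y
    simp only [polar, hno]
    simp
  have hz2 : z * z = 1 := by
    have e1 := hiso ((x : Matrix ι ι F) *ᵥ v₀)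
    rw [hsq, Q_sm, hiso] at e1
    have : (z * z - 1) * Q v₀ = 0 := by linear_combination e1
    have h5 := (mul_eq_zero.1 this).resolve_right hv₀
    linear_combination h5
  rcases mul_self_eq_one_iff.1 hz2 with rfl | rfl
  · set T : (ι → F) →ₗ[F] (ι → F) := Matrix.toLin' (x : Matrix ι ι F) with hT
    have hTv : ∀ v, T v = (x : Matrix ι ι F) *ᵥ v := fun v => Matrix.toLin'_apply _ _
    have hJ : ∀ v, (x : Matrix ι ι F) *ᵥ ((x : Matrix ι ι F) *ᵥ v) = v := fun v => by rw [hsq, one_smul]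
    obtain ⟨W, h1, h3, h4⟩ := backward_two_cs h2 (T := T) (fun v => by rw [hTv]; exact hiso v)
      (fun v => by rw [hTv, hTv]; exact hJ v) (ndOn_top hND) hd hmo hmd (even_of_invol h2 hND x hx hJ)
      (by
        by_contra hcon
        push Not at hcon
        apply hxs (-1)
        rw [matrix_eq_iff]
        intro v
        rw [← hTv, hcon, Matrix.smul_mulVec, Matrix.one_mulVec]
        simp) hW₀.ne
    refine ⟨W, (omega_set_iff h2 hW₀ hm W).2 ⟨h1, h3⟩, ?_⟩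
    rw [map_le_iff]
    exact h4
  · exfalso
    apply hno x hx
    intro v
    rw [hsq]
    simp

theorem isSquare_two_of_pow {d : ℕ} (hd : Odd d) (h : IsSquare ((2 : F) ^ d)) (h2 : (2 : F) ≠ 0) : IsSquare (2 : F) := by
  obtain ⟨k, rfl⟩ := hd
  have h3 : ((2 : F) ^ (2 * k + 1)) = ((2 : F) ^ k) ^ 2 * 2 := by ring
  rw [h3] at h
  obtain ⟨y, hy⟩ := h
  have h0 : (2 : F) ^ k ≠ 0 := pow_ne_zero _ h2
  refine ⟨y / (2 : F) ^ k, ?_⟩
  field_simp
  linear_combination hy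

theorem isSquare_pow_of_even {d : ℕ} (hd : Even d) (a : F) : IsSquare (a ^ d) := hd.isSquare_pow a

/-- The hyperbolic case of the prime `2`. -/
theorem two_plus (h2 : (2 : F) ≠ 0) (hND : ND Q) (hTop : Hyp Q ⊤) {q d m : ℕ} (hq : Fintype.card F = q) (hodd : Odd q)
    (hd : finrank F (ι → F) = 2 * d) (hmd : m < d) (hmo : Odd m)
    {W₀ : Submodule F (ι → F)} {α : F} (hW₀ : CS Q W₀ α) (hm : finrank F W₀ = m) :
    HOdd Q W₀ 2 m ↔ (Odd d ∧ q % 8 ≠ 1) := by
  have hd0 : 0 < d := by omega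
  have hsq1 : IsSquare (-1 : F) ↔ q % 4 ≠ 3 := by
    rw [FiniteField.isSquare_neg_one_iff, hq]
  have hsq2 : IsSquare (2 : F) ↔ q % 8 ≠ 3 ∧ q % 8 ≠ 5 := by
    rw [FiniteField.isSquare_two_iff, hq]
  have hqo : q % 2 = 1 := Nat.odd_iff.1 hodd
  constructor
  · intro H
    by_contra hcon
    have hcases : Even d ∨ q % 8 = 1 := by
      by_cases h3 : Even d
      · exact Or.inl h3
      · right
        by_contra h4
        exact hcon ⟨Nat.not_even_iff_odd.1 h3, h4⟩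
    have hty : TypeC Q d ⊤ := by
      by_cases h3 : IsSquare (-1 : F)
      · exact Or.inl ⟨h3, hTop⟩
      · right
        refine ⟨h3, ?_⟩
        rcases hcases with h4 | h4
        · exact Or.inl ⟨h4, hTop⟩
        · exfalso
          apply h3
          rw [hsq1]
          omega
    have hs : IsSquare ((2 : F) ^ d) := by
      rcases hcases with h4 | h4
      · exact h4.isSquare_pow _
      · have : IsSquare (2 : F) := hsq2.2 (by omega)
        exact this.pow d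
    obtain ⟨x, hx, hJ⟩ := exists_bad_J h2 hND hd hd0 hty hs
    exact not_HOdd_of_J h2 hND hd hd0 hmo hW₀ hm x hx hJ H
  · rintro ⟨h3, h4⟩
    apply two_main h2 hND hd hmd hmo hW₀ hm
    intro x hx hJ
    obtain ⟨h5, h6⟩ := J_of_omega h2 hND hd x hx hJ
    have h7 := isSquare_two_of_pow h3 h5 h2
    have h8 := hsq2.1 h7
    have h9 : ¬ IsSquare (-1 : F) := by
      rw [hsq1]
      omega
    rcases h6 with ⟨h10, _⟩ | ⟨_, ⟨h10, _⟩ | ⟨_, h10⟩⟩
    · exact h9 h10
    · exact (Nat.not_even_iff_odd.2 h3) h10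
    · exact not_hyp_of_ell h2 h10 hTop

/-- The elliptic case of the prime `2`. -/
theorem two_minus (h2 : (2 : F) ≠ 0) (hND : ND Q) (hTop : Ell Q ⊤) {q d m : ℕ} (hq : Fintype.card F = q) (hodd : Odd q)
    (hd : finrank F (ι → F) = 2 * d) (hmd : m < d) (hmo : Odd m)
    {W₀ : Submodule F (ι → F)} {α : F} (hW₀ : CS Q W₀ α) (hm : finrank F W₀ = m) :
    HOdd Q W₀ 2 m ↔ (Even d ∨ q % 8 ≠ 7) := by
  have hd0 : 0 < d := by omega
  have hsq1 : IsSquare (-1 : F) ↔ q % 4 ≠ 3 := by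
    rw [FiniteField.isSquare_neg_one_iff, hq]
  have hsq2 : IsSquare (2 : F) ↔ q % 8 ≠ 3 ∧ q % 8 ≠ 5 := by
    rw [FiniteField.isSquare_two_iff, hq]
  have hqo : q % 2 = 1 := Nat.odd_iff.1 hodd
  constructor
  · intro H
    by_contra hcon
    push Not at hcon
    obtain ⟨h3, h4⟩ := hcon
    rw [Nat.not_even_iff_odd] at h3
    have h9 : ¬ IsSquare (-1 : F) := by
      rw [hsq1]
      omega
    have hs : IsSquare ((2 : F) ^ d) := (hsq2.2 (by omega)).pow d
    obtain ⟨x, hx, hJ⟩ := exists_bad_J h2 hND hd hd0 (Or.inr ⟨h9, Or.inr ⟨h3, hTop⟩⟩) hs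
    exact not_HOdd_of_J h2 hND hd hd0 hmo hW₀ hm x hx hJ H
  · intro hcond
    apply two_main h2 hND hd hmd hmo hW₀ hm
    intro x hx hJ
    obtain ⟨h5, h6⟩ := J_of_omega h2 hND hd x hx hJ
    rcases h6 with ⟨_, h10⟩ | ⟨h9, ⟨_, h10⟩ | ⟨h3, _⟩⟩
    · exact not_hyp_of_ell h2 hTop h10
    · exact not_hyp_of_ell h2 hTop h10
    · have h7 := isSquare_two_of_pow h3 h5 h2
      have h8 := hsq2.1 h7
      have h11 : q % 4 = 3 := by
        by_contra h12
        exact h9 (hsq1.2 h12)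
      rcases hcond with h12 | h12
      · exact (Nat.not_even_iff_odd.2 h3) h12
      · omega

end Cfsg.Agent.Lib.OddSubTwo
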