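import Mathlib
import Cfsg.Agent.Lib.OddSubTwo
import Cfsg.Agent.Lib.JWall99
import Cfsg.Agent.Lib.HypUni
import Cfsg.Agent.Lib.QuadClass2

/-!
# Fixing odd-dimensional nondegenerate subspaces: unipotent elements
-/

set_option autoImplicit false
set_option linter.unusedSectionVars false
set_option linter.unusedSimpArgs false
set_option linter.unusedVariables false
set_option linter.style.haveILetI false

universe u

namespace Cfsg.Agent.Lib.OddSubUni

open Module QuadraticMap Matrix Cfsg.Agent.Lib.QuadFF Cfsg.Agent.Lib.IsomBlock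
open Cfsg.Agent.Lib.HypEll Cfsg.Agent.Lib.HypBlock Cfsg.Agent.Lib.OddSub Cfsg.Agent.Lib.HypUni

section comb

/-- Sub-multisets of `a, a, 2, …, 2`. -/
theorem mod_four_aa (a n : ℕ) (ha : Odd a) (ν : Multiset ℕ) (hν : ν ≤ a ::ₘ a ::ₘ Multiset.replicate n 2)
    (hodd : Odd ν.sum) (hev : Even (ν.count 2)) : ν.sum % 4 = a % 4 := by
  classical
  have ha2 : a ≠ 2 := by
    rintro rfl
    exact absurd ha (by decide)
  by_cases h : a ∈ ν
  · obtain ⟨ν₁, rfl⟩ := Multiset.exists_cons_of_mem h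
    have h1 : ν₁ ≤ a ::ₘ Multiset.replicate n 2 := (Multiset.cons_le_cons_iff _).1 hν
    by_cases h' : a ∈ ν₁
    · obtain ⟨ν₂, rfl⟩ := Multiset.exists_cons_of_mem h'
      have h3 : ν₂ ≤ Multiset.replicate n 2 := (Multiset.cons_le_cons_iff _).1 h1
      obtain ⟨k, _, rfl⟩ := Multiset.le_replicate_iff.1 h3
      rw [Multiset.sum_cons, Multiset.sum_cons, Multiset.sum_replicate, smul_eq_mul, Nat.odd_iff] at hodd
      omega
    · have h3 : ν₁ ≤ Multiset.replicate n 2 := (Multiset.le_cons_of_notMem h').1 h1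
      obtain ⟨k, _, rfl⟩ := Multiset.le_replicate_iff.1 h3
      rw [Multiset.count_cons_of_ne (Ne.symm ha2), Multiset.count_replicate_self] at hev
      rw [Multiset.sum_cons, Multiset.sum_replicate, smul_eq_mul]
      obtain ⟨s, hs⟩ := hev
      omega
  · have h1 : ν ≤ a ::ₘ Multiset.replicate n 2 := (Multiset.le_cons_of_notMem h).1 hν
    have h3 : ν ≤ Multiset.replicate n 2 := (Multiset.le_cons_of_notMem h).1 h1
    obtain ⟨k, _, rfl⟩ := Multiset.le_replicate_iff.1 h3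
    rw [Multiset.sum_replicate, smul_eq_mul, Nat.odd_iff] at hodd
    omega

/-- Sub-multisets of `1, 3, 2, …, 2`. -/
theorem parts13 (n : ℕ) (ν : Multiset ℕ) (hν : ν ≤ 1 ::ₘ 3 ::ₘ Multiset.replicate n 2) (hev : Even (ν.count 2))
    (hs : ν.sum % 4 = 1) : ν.count 1 = 1 ∧ ν.count 3 = 0 := by
  classical
  by_cases h1 : 1 ∈ ν
  · obtain ⟨ν₁, rfl⟩ := Multiset.exists_cons_of_mem h1
    have h3 : ν₁ ≤ 3 ::ₘ Multiset.replicate n 2 := (Multiset.cons_le_cons_iff _).1 hν
    by_cases h4 : 3 ∈ ν₁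
    · obtain ⟨ν₂, rfl⟩ := Multiset.exists_cons_of_mem h4
      have h5 : ν₂ ≤ Multiset.replicate n 2 := (Multiset.cons_le_cons_iff _).1 h3
      obtain ⟨k, _, rfl⟩ := Multiset.le_replicate_iff.1 h5
      rw [Multiset.count_cons_of_ne (by decide), Multiset.count_cons_of_ne (by decide), Multiset.count_replicate_self] at hev
      rw [Multiset.sum_cons, Multiset.sum_cons, Multiset.sum_replicate, smul_eq_mul] at hs
      obtain ⟨s, hs'⟩ := hev
      omega
    · have h5 : ν₁ ≤ Multiset.replicate n 2 := (Multiset.le_cons_of_notMem h4).1 h3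
      obtain ⟨k, _, rfl⟩ := Multiset.le_replicate_iff.1 h5
      rw [Multiset.count_cons_self, Multiset.count_cons_of_ne (by decide), Multiset.count_replicate, Multiset.count_replicate]
      simp
  · have h3 : ν ≤ 3 ::ₘ Multiset.replicate n 2 := (Multiset.le_cons_of_notMem h1).1 hν
    by_cases h4 : 3 ∈ ν
    · obtain ⟨ν₂, rfl⟩ := Multiset.exists_cons_of_mem h4
      have h5 : ν₂ ≤ Multiset.replicate n 2 := (Multiset.cons_le_cons_iff _).1 h3
      obtain ⟨k, _, rfl⟩ := Multiset.le_replicate_iff.1 h5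
      rw [Multiset.count_cons_of_ne (by decide), Multiset.count_replicate_self] at hev
      rw [Multiset.sum_cons, Multiset.sum_replicate, smul_eq_mul] at hs
      obtain ⟨s, hs'⟩ := hev
      omega
    · have h5 : ν ≤ Multiset.replicate n 2 := (Multiset.le_cons_of_notMem h4).1 h3
      obtain ⟨k, _, rfl⟩ := Multiset.le_replicate_iff.1 h5
      rw [Multiset.sum_replicate, smul_eq_mul] at hs
      omega

end comb

section abstract

variable {F : Type*} [Field F] [Fintype F] {V : Type u} [AddCommGroup V] [Module F V] [FiniteDimensional F V]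
variable {Q : QuadraticForm F V} {T : V →ₗ[F] V}

/-- Invariant nondegenerate subspaces have even dimension, for a totally singular kernel and `N² = 0`. -/
theorem even_of_ts_ker (h2 : (2 : F) ≠ 0) (hT : ∀ v, Q (T v) = Q v) (hts : ∀ v, T v = v → Q v = 0)
    (hN2 : ∀ v, (Nn T) ((Nn T) v) = 0) {W : Submodule F V} (hinv : InvOn T W) (hW : NDOn (Bf Q) W) :
    Even (finrank F W) := by
  set N := Nn T with hN
  obtain ⟨h1, h3, h4⟩ := ker_image_data h2 hT hinv hW
  set K := W ⊓ LinearMap.ker N with hK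
  set R := W.map N with hR
  have hKts : ∀ v ∈ K, Q v = 0 := fun v hv => hts v (mem_ker_sub.1 hv.2)
  have hKW : K ≤ W := inf_le_left
  have h5 := perp_dim h2 hW hKW
  have h6 : R ≤ W ⊓ perp (Bf Q) K := le_inf h1 (fun v hv u hu => h4 u hu v hv)
  have h7 : R = W ⊓ perp (Bf Q) K := Submodule.eq_of_le_of_finrank_eq h6 (by omega)
  have h8 : K ≤ R := by
    rw [h7]
    exact le_inf hKW (fun v hv u hu => polar_of_ts hKts hu hv)
  have h9 : R ≤ K := by
    refine le_inf h1 ?_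
    rintro _ ⟨v, _, rfl⟩
    exact hN2 v
  have h10 : R = K := le_antisymm h9 h8
  rw [h10] at h3
  exact ⟨finrank F K, by omega⟩

/-- The kernel of `N` for an isometry with `N` of half rank and `N²` of rank one. -/
theorem exists_beta (h2 : (2 : F) ≠ 0) (hT : ∀ v, Q (T v) = Q v) {d : ℕ} (hn : finrank F V = 2 * d)
    (hno : ∀ K : Submodule F V, (∀ v ∈ K, Q v = 0) → finrank F K ≠ d)
    (hr1 : finrank F (LinearMap.range (Nn T)) = d) (hr2 : finrank F ((LinearMap.range (Nn T)).map (Nn T)) = 1) :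
    ∃ β : F, β ≠ 0 ∧ ∀ k, T k = k → IsSquare (Q k * β) := by
  set N := Nn T with hN
  set I := LinearMap.range N with hI
  set K := LinearMap.ker N with hK
  have hKd : finrank F K = d := by
    have h : finrank F I + finrank F K = finrank F V := LinearMap.finrank_range_add_finrank_ker N
    omega
  set R := I ⊓ K with hR
  have hRd : finrank F R + 1 = d := by
    have h : finrank F (I.map N) + finrank F R = finrank F I := rank_nullity_on N I
    omega
  have hRK : R ≤ K := inf_le_right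
  obtain ⟨x₁, hx₁, hx₁R⟩ : ∃ x₁ ∈ K, x₁ ∉ R := by
    by_contra hcon
    push Not at hcon
    have := Submodule.finrank_mono (show K ≤ R from hcon)
    omega
  have hfix : ∀ k, k ∈ K → T k = k := fun k hk => mem_ker_sub.1 hk
  have horth : ∀ k ∈ K, ∀ r ∈ I, polar Q k r = 0 := by
    rintro k hk _ ⟨u, rfl⟩
    exact orth_basic (W := ⊤) hT (hfix k hk)
  have hRts : ∀ r ∈ R, Q r = 0 := by
    intro r hr
    have h3 := horth r hr.2 r hr.1
    have h4 : polar Q r r = 2 * Q r := by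
      rw [polar_self]
      simp
    rw [h4] at h3
    exact (mul_eq_zero.1 h3).resolve_left h2
  set M := R ⊔ Submodule.span F {x₁} with hM
  have hMK : M ≤ K := sup_le hRK (by
    rw [Submodule.span_singleton_le_iff_mem]
    exact hx₁)
  have hRM : R < M := by
    refine lt_of_le_of_ne le_sup_left ?_
    intro h
    apply hx₁R
    rw [h]
    exact Submodule.mem_sup_right (Submodule.mem_span_singleton_self _)
  have h5 := Submodule.finrank_lt_finrank_of_lt hRM
  have h6 := Submodule.finrank_mono hMK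
  have hMeq : M = K := Submodule.eq_of_le_of_finrank_eq hMK (by omega)
  have hform : ∀ k ∈ K, ∃ s : F, Q k = s ^ 2 * Q x₁ := by
    intro k hk
    rw [← hMeq] at hk
    obtain ⟨r, hr, y, hy, rfl⟩ := Submodule.mem_sup.1 hk
    obtain ⟨s, rfl⟩ := Submodule.mem_span_singleton.1 hy
    refine ⟨s, ?_⟩
    have h7 : polar Q r (s • x₁) = 0 := by
      rw [polar_comm]
      exact horth _ (K.smul_mem s hx₁) r hr.1
    have h8 := h7
    rw [polar, hRts r hr, Q_sm] at h8
    linear_combination h8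
  refine ⟨Q x₁, ?_, ?_⟩
  · intro h0
    apply hno K _ hKd
    intro v hv
    obtain ⟨s, hs⟩ := hform v hv
    rw [hs, h0, mul_zero]
  · intro k hk
    have hkK : k ∈ K := mem_ker_sub.2 hk
    obtain ⟨s, hs⟩ := hform k hkK
    refine ⟨s * Q x₁, ?_⟩
    rw [hs]
    ring

/-- The class of an invariant subspace on which `N² = 0`. -/
theorem cs_of_inv (h2 : (2 : F) ≠ 0) (hT : ∀ v, Q (T v) = Q v) {β : F} (hβ : β ≠ 0)
    (hbeta : ∀ k, T k = k → IsSquare (Q k * β)) {W : Submodule F V} (hinv : InvOn T W) (hW : NDOn (Bf Q) W)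
    (hW2 : ∀ w ∈ W, (Nn T) ((Nn T) w) = 0) (hdim : finrank F W = 2 * finrank F (W.map (Nn T)) + 1) :
    CS Q W β := by
  set N := Nn T with hN
  obtain ⟨h1, h3, h4⟩ := ker_image_data h2 hT hinv hW
  set K := W ⊓ LinearMap.ker N with hK
  set A := W.map N with hA
  have hAK : A ≤ K := by
    refine le_inf h1 ?_
    rintro _ ⟨v, hv, rfl⟩
    exact hW2 v hv
  have hAts : ∀ a ∈ A, Q a = 0 := by
    intro a ha
    have h5 := h4 a (hAK ha) a ha
    have h6 : polar Q a a = 2 * Q a := by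
      rw [polar_self]
      simp
    rw [h6] at h5
    exact (mul_eq_zero.1 h5).resolve_left h2
  have hKW : K ≤ W := inf_le_left
  obtain ⟨w₀, hw₀K, hQw₀⟩ : ∃ w₀ ∈ K, Q w₀ ≠ 0 := by
    by_contra hcon
    push Not at hcon
    have h5 := perp_dim h2 hW hKW
    have h6 : K ≤ W ⊓ perp (Bf Q) K := le_inf hKW (fun v hv u hu => polar_of_ts hcon hu hv)
    have h7 := Submodule.finrank_mono h6
    omega
  have hw₀W : w₀ ∈ W := hw₀K.1
  set L := Submodule.span F {w₀} with hL
  have hLW : L ≤ W := by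
    rw [hL, Submodule.span_singleton_le_iff_mem]
    exact hw₀W
  have hLnd := line_nd h2 hQw₀
  have hLd : finrank F L = 1 := finrank_span_singleton (ne_zero_of_Q hQw₀)
  have hgood := good h2 Q
  have h5 := finrank_rel hgood hLW hLnd
  have h6 := nd_rel hgood hLW hLnd hW
  have h7 := sup_rel hgood hLW hLnd
  have hcs : CS Q W (Q w₀) := by
    refine ⟨hQw₀, W ⊓ perp (Bf Q) L, w₀, ⟨h6, A, ?_, hAts, ?_⟩, rfl, ?_, ?_⟩
    · refine le_inf h1 ?_
      intro a ha z hz
      obtain ⟨c, rfl⟩ := Submodule.mem_span_singleton.1 hz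
      rw [Bf_apply, polar_comm, polar_sm_r, polar_comm, h4 w₀ hw₀K a ha, mul_zero]
    · omega
    · intro u hu
      rw [polar_comm]
      exact hu.2 w₀ (Submodule.mem_span_singleton_self _)
    · rw [sup_comm]
      exact h7
  have hfix : T w₀ = w₀ := mem_ker_sub.1 hw₀K.2
  exact cs_congr hcs hβ (hbeta w₀ hfix)

/-- Two spaces with opposite classes make a hyperbolic space. -/
theorem hyp_of_cs_cs (h2 : (2 : F) ≠ 0) {W W' : Submodule F V} {α : F} (h : CS Q W α) (h' : CS Q W' (-α)) (ho : Orth Q W W') :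
    Hyp Q (W ⊔ W') := by
  obtain ⟨hα, H, v, hH, hv, hHv, rfl⟩ := h
  obtain ⟨_, H', v', hH', hv', hHv', rfl⟩ := h'
  have ho1 : Orth Q H H' := ho.mono le_sup_left le_sup_left
  have hvv' : polar Q v v' = 0 := ho v (Submodule.mem_sup_right (Submodule.mem_span_singleton_self _)) v'
    (Submodule.mem_sup_right (Submodule.mem_span_singleton_self _))
  have hHv'2 : ∀ u ∈ H, polar Q u v' = 0 := fun u hu =>
    ho u (Submodule.mem_sup_left hu) v' (Submodule.mem_sup_right (Submodule.mem_span_singleton_self _))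
  have hH'v2 : ∀ u ∈ H', polar Q v u = 0 := fun u hu =>
    ho v (Submodule.mem_sup_right (Submodule.mem_span_singleton_self _)) u (Submodule.mem_sup_left hu)
  obtain ⟨hP, -⟩ := hyp_plane_of_values h2 (x := v) (u := v') (by rw [hv]; exact hα) (by rw [hv, hv']) hvv'
  have hspan : Submodule.span F {v, v'} = Submodule.span F {v} ⊔ Submodule.span F {v'} := by
    rw [Submodule.span_insert]
  have h1 : Hyp Q (H ⊔ H') := hyp_sup h2 hH hH' ho1
  have h3 : Hyp Q ((H ⊔ H') ⊔ Submodule.span F {v, v'}) := by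
    apply hyp_sup h2 h1 hP
    apply Orth.sup_left
    · rw [hspan]
      exact Orth.sup_right (orth_line hHv) (orth_line hHv'2)
    · rw [hspan]
      apply Orth.sup_right
      · apply Orth.symm
        intro a ha u hu
        obtain ⟨c, rfl⟩ := Submodule.mem_span_singleton.1 ha
        rw [polar_sm_l, hH'v2 u hu, mul_zero]
      · exact orth_line hHv'
  convert h3 using 1
  rw [hspan]
  simp only [sup_assoc]
  congr 1
  rw [sup_left_comm]

theorem polar_sim {G : V ≃ₗ[F] V} {δ : F} (hG : ∀ v, Q (G v) = δ * Q v) (a b : V) :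
    polar Q (G a) (G b) = δ * polar Q a b := by
  rw [polar, polar, ← map_add, hG, hG, hG]
  ring

theorem hyp_similar {G : V ≃ₗ[F] V} {δ : F} (hδ : δ ≠ 0) (hG : ∀ v, Q (G v) = δ * Q v) {H : Submodule F V} (hH : Hyp Q H) :
    Hyp Q (H.map (G : V →ₗ[F] V)) := by
  obtain ⟨hnd, S, hSH, hS, hSd⟩ := hH
  refine ⟨?_, S.map (G : V →ₗ[F] V), Submodule.map_mono hSH, ?_, ?_⟩
  · rintro _ ⟨a, ha, rfl⟩ h0
    have h1 : a = 0 := by
      apply hnd a ha
      intro b hb
      have h3 := h0 (G b) ⟨b, hb, rfl⟩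
      have h4 : polar Q (G a) (G b) = 0 := h3
      rw [polar_sim hG] at h4
      exact (mul_eq_zero.1 h4).resolve_left hδ
    simp [h1]
  · rintro _ ⟨a, ha, rfl⟩
    have : Q (G a) = δ * Q a := hG a
    show Q (G a) = 0
    rw [this, hS a ha, mul_zero]
  · rw [LinearEquiv.finrank_map_eq, LinearEquiv.finrank_map_eq]
    exact hSd

theorem cs_similar {G : V ≃ₗ[F] V} {δ : F} (hδ : δ ≠ 0) (hG : ∀ v, Q (G v) = δ * Q v) {W : Submodule F V} {α : F} (h : CS Q W α) :
    CS Q (W.map (G : V →ₗ[F] V)) (δ * α) := by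
  obtain ⟨hα, H, v, hH, hv, hHv, rfl⟩ := h
  refine ⟨mul_ne_zero hδ hα, H.map (G : V →ₗ[F] V), G v, hyp_similar hδ hG hH, by rw [hG, hv], ?_, ?_⟩
  · rintro _ ⟨a, ha, rfl⟩
    show polar Q (G a) (G v) = 0
    rw [polar_sim hG, hHv a ha, mul_zero]
  · rw [Submodule.map_sup, Submodule.map_span, Set.image_singleton]
    rfl

/-- The elliptic form is similar to its multiples. -/
theorem exists_similitude (h2 : (2 : F) ≠ 0) (hND : ND Q) (hE : Ell Q ⊤) {d : ℕ} (hd : finrank F V = 2 * d) (hd0 : 0 < d)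
    {δ : F} (hδ : δ ≠ 0) : ∃ G : V ≃ₗ[F] V, ∀ v, Q (G v) = δ * Q v := by
  obtain ⟨k, rfl⟩ : ∃ k, d = k + 1 := ⟨d - 1, by omega⟩
  have hnd : NDOn (Bf Q) (⊤ : Submodule F V) := fun u _ h => hND u fun y => h y trivial
  have hno : ∀ K : Submodule F V, (∀ v ∈ K, Q v = 0) → finrank F K ≠ k + 1 := by
    intro K hK hKd
    apply not_hyp_of_ell h2 hE
    refine ⟨hnd, K, le_top, hK, ?_⟩
    rw [finrank_top, hd, hKd]
  obtain ⟨b, ζ, hb⟩ := Cfsg.Agent.Lib.QuadClass2.minus_of_no_ts hd hND hno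
  have hND' : ND (δ • Q) := by
    intro u hu
    apply hND u
    intro y
    have h1 := hu y
    have h3 : polar (δ • Q) u y = δ * polar Q u y := by
      simp only [polar, _root_.smul_apply, smul_eq_mul]
      ring
    rw [h3] at h1
    exact (mul_eq_zero.1 h1).resolve_left hδ
  have hno' : ∀ K : Submodule F V, (∀ v ∈ K, (δ • Q) v = 0) → finrank F K ≠ k + 1 := by
    intro K hK
    apply hno K
    intro v hv
    have h1 := hK v hv
    rw [_root_.smul_apply, smul_eq_mul] at h1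
    exact (mul_eq_zero.1 h1).resolve_left hδ
  obtain ⟨b', ζ', hb'⟩ := Cfsg.Agent.Lib.QuadClass2.minus_of_no_ts hd hND' hno'
  obtain ⟨e, he⟩ := Cfsg.Agent.Lib.QuadClass.isometry_of_minus hND' hb' hb
  refine ⟨e, fun v => ?_⟩
  rw [he, _root_.smul_apply, smul_eq_mul]

end abstract

section matrix

open Cfsg.Agent.Lib.OrthGroup Cfsg.Agent.Lib.OrthMatrix Cfsg.Agent.Lib.JType Cfsg.Agent.Lib.JordanType Cfsg.Agent.Lib.JWall99
open Cfsg.Agent.Lib.OddSubMain Cfsg.Agent.Lib.OddSubTwo Cfsg.Agent.Lib.HypBridge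
open scoped MatrixGroups

variable {F : Type*} [Field F] [Fintype F] {ι : Type} [Fintype ι] [DecidableEq ι]
variable {Q : QuadraticForm F (ι → F)}

theorem NN_eq (x : GL ι F) : NN (glEquiv x) = Nn (Matrix.toLin' (x : Matrix ι ι F)) := by
  apply LinearMap.ext
  intro v
  rw [NN_apply, glEquiv_apply]
  simp [Matrix.toLin'_apply]

theorem sum_map13_one (n : ℕ) : ((1 ::ₘ 3 ::ₘ Multiset.replicate n 2).map (· - 1)).sum = n + 2 := by
  simp [Multiset.map_replicate]
  ring

theorem sum_map13_two (n : ℕ) : ((1 ::ₘ 3 ::ₘ Multiset.replicate n 2).map (· - 2)).sum = 1 := by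
  simp [Multiset.map_replicate]

theorem sum_map13_ge (n k : ℕ) (hk : 3 ≤ k) : ((1 ::ₘ 3 ::ₘ Multiset.replicate n 2).map (· - k)).sum = 0 := by
  have h1 : 1 - k = 0 := by omega
  have h3 : 3 - k = 0 := by omega
  have h4 : 2 - k = 0 := by omega
  simp [Multiset.map_replicate, h1, h3, h4]

/-- The class of an invariant subspace of dimension `1` modulo `4`. -/
theorem class_data (h2 : (2 : F) ≠ 0) (hND : ND Q) (hE : Ell Q ⊤) (x : GL ι F) (hx : x ∈ Cfsg.isometryGroup F ⇑Q) {d : ℕ}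
    (hd : finrank F (ι → F) = 2 * d) (hd2 : 2 ≤ d)
    (hμ : ∀ k, finrank F (LinearMap.range (NN (glEquiv x) ^ k)) = ((1 ::ₘ 3 ::ₘ Multiset.replicate (d - 2) 2).map (· - k)).sum) :
    ∃ β : F, β ≠ 0 ∧ ∀ W : Submodule F (ι → F), Cfsg.Geo.IsNondegenerateOn (polar ⇑Q) W →
      W.map (Matrix.toLin' (x : Matrix ι ι F)) ≤ W → finrank F W % 4 = 1 → CS Q W β := by
  set T : (ι → F) →ₗ[F] (ι → F) := Matrix.toLin' (x : Matrix ι ι F) with hTdef
  have hNN : NN (glEquiv x) = Nn T := NN_eq x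
  have hT : ∀ v, Q (T v) = Q v := fun v => by
    rw [hTdef, Matrix.toLin'_apply]
    exact (mem_isometryGroup _ _).1 hx v
  set N := Nn T with hN
  have hnd : NDOn (Bf Q) (⊤ : Submodule F (ι → F)) := ndOn_top hND
  have hno : ∀ K : Submodule F (ι → F), (∀ v ∈ K, Q v = 0) → finrank F K ≠ d := by
    intro K hK hKd
    apply not_hyp_of_ell h2 hE
    refine ⟨hnd, K, le_top, hK, ?_⟩
    rw [finrank_top, hd, hKd]
  have hr1 : finrank F (LinearMap.range N) = d := by
    have := hμ 1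
    rw [hNN, pow_one, sum_map13_one] at this
    omega
  have hr2 : finrank F ((LinearMap.range N).map N) = 1 := by
    have := hμ 2
    rw [hNN, sum_map13_two] at this
    have h5 : (LinearMap.range N).map N = LinearMap.range (N ^ 2) := by
      rw [pow_two]
      exact (LinearMap.range_comp N N).symm
    rw [h5, this]
  have hN0 : ∀ k, 3 ≤ k → N ^ k = 0 := by
    intro k hk
    have := hμ k
    rw [hNN, sum_map13_ge _ _ hk, Submodule.finrank_eq_zero, LinearMap.range_eq_bot] at this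
    exact this
  obtain ⟨β, hβ, hbeta⟩ := exists_beta h2 hT hd hno hr1 hr2
  refine ⟨β, hβ, ?_⟩
  intro W hW hWinv hW4
  obtain ⟨ν, h1, h3, h4, h5⟩ := forward_GL h2 Q hND x hx _ hμ W hW hWinv
  rw [hNN] at h5
  obtain ⟨hc1, hc3⟩ := parts13 (d - 2) ν h1 (h4 2 even_two) (by rw [h3]; exact hW4)
  have hrk0 : ∀ k, 3 ≤ k → rk N W k = 0 := by
    intro k hk
    rw [rk, hN0 k hk, Submodule.map_zero, finrank_bot]
  have h6 := h5 2
  rw [show (2 + 1 : ℕ) = 3 from rfl, hc3, show (2 + 2 : ℕ) = 4 from rfl, hrk0 4 (by norm_num), hrk0 3 (by norm_num)] at h6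
  have h7 := h5 0
  rw [show (0 + 1 : ℕ) = 1 from rfl, hc1, show (0 + 2 : ℕ) = 2 from rfl] at h7
  have hrk2 : rk N W 2 = 0 := by
    push_cast at h6
    omega
  have hW2 : ∀ w ∈ W, N (N w) = 0 := by
    intro w hw
    have h8 : W.map (N ^ 2) = ⊥ := Submodule.finrank_eq_zero.1 hrk2
    have h9 : (N ^ 2) w ∈ W.map (N ^ 2) := ⟨w, hw, rfl⟩
    rw [h8, Submodule.mem_bot] at h9
    rw [pow_two] at h9
    exact h9
  have hrk00 : rk N W 0 = finrank F W := by
    have h8 : W.map (N ^ 0) = W := by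
      rw [pow_zero]
      exact Submodule.map_id W
    rw [rk, h8]
  have hrk1 : rk N W 1 = finrank F (W.map N) := by
    rw [rk, pow_one]
  have hdim : finrank F W = 2 * finrank F (W.map N) + 1 := by
    rw [hrk2, hrk00, hrk1] at h7
    push_cast at h7
    omega
  rw [map_le_iff] at hWinv
  exact cs_of_inv h2 hT hβ hbeta hWinv ((ndOn_iff' W).1 hW) hW2 hdim

/-- The class of an invariant subspace of dimension `3` modulo `4`. -/
theorem class_three (h2 : (2 : F) ≠ 0) (hND : ND Q) (hE : Ell Q ⊤) {T : (ι → F) →ₗ[F] (ι → F)} (hT : ∀ v, Q (T v) = Q v) {p : ℕ} (hp0 : p ≠ 0) (hTp : T ^ p = 1)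
    {d : ℕ} (hd : finrank F (ι → F) = 2 * d) (hev : Even d) {β : F} (hβ : β ≠ 0)
    (hkey : ∀ W : Submodule F (ι → F), Cfsg.Geo.IsNondegenerateOn (polar ⇑Q) W → W.map T ≤ W → finrank F W % 4 = 1 → CS Q W β)
    {W : Submodule F (ι → F)} {α : F} (hW : CS Q W α) (hinv : InvOn T W) (hW4 : finrank F W % 4 = 3) :
    ¬ IsSquare (-(α * β)) := by
  intro hs
  have hgood := good h2 Q
  have hnd := ndOn_top hND
  have hWnd := hW.nd h2
  have h1 := finrank_rel hgood (le_top : W ≤ ⊤) hWnd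
  have h3 := nd_rel hgood (le_top : W ≤ ⊤) hWnd hnd
  have h4 := sup_rel hgood (le_top : W ≤ ⊤) hWnd
  rw [top_inf_eq] at h1 h3 h4
  have hinv' : InvOn T (perp (Bf Q) W) := inv_perp (polar_iso hT) hp0 hTp hinv
  obtain ⟨e, he⟩ := hev
  rw [finrank_top, hd] at h1
  have hcs := hkey (perp (Bf Q) W) ((ndOn_iff' _).2 h3) (by
    rintro _ ⟨v, hv, rfl⟩
    exact hinv' v hv) (by omega)
  have hcs' : CS Q (perp (Bf Q) W) (-α) := cs_congr hcs (neg_ne_zero.2 hW.ne) (by
    obtain ⟨t, ht⟩ := hs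
    exact ⟨t, by linear_combination ht⟩)
  have hho : Orth Q W (perp (Bf Q) W) := fun u hu v hv => hv u hu
  have := hyp_of_cs_cs h2 hW hcs' hho
  rw [h4] at this
  exact not_hyp_of_ell h2 hE this

theorem isSquare_of_ratio {a δ : F} (ha : IsSquare a) (h : IsSquare (δ⁻¹ * a)) (ha0 : a ≠ 0) (hδ : δ ≠ 0) : IsSquare δ := by
  obtain ⟨s, hs⟩ := ha
  obtain ⟨t, ht⟩ := h
  have ht0 : t ≠ 0 := by
    rintro rfl
    rw [mul_zero] at ht
    exact (mul_ne_zero (inv_ne_zero hδ) ha0) ht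
  refine ⟨s / t, ?_⟩
  field_simp
  rw [hs] at ht
  field_simp at ht
  linear_combination -ht

/-- For `d` even and elliptic forms, no class of odd-dimensional subspaces meets every element of order `p`. -/
theorem not_HOdd_minus_even {p : ℕ} [hpf : Fact p.Prime] [CharP F p] (hp : Odd p) (hND : ND Q) (hE : Ell Q ⊤) {d m : ℕ}
    (hd : finrank F (ι → F) = 2 * d) (hev : Even d) (hd2 : 2 ≤ d) {W₀ : Submodule F (ι → F)} {α : F} (hW₀ : CS Q W₀ α)
    (hm : finrank F W₀ = m) (hmo : Odd m) : ¬ HOdd Q W₀ p m := by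
  classical
  intro H
  have h2 := two_ne_zero_of_odd (F := F) hp
  have hp3 : 3 ≤ p := by
    have h1 := hpf.out.two_le
    have h3 : p ≠ 2 := by
      rintro rfl
      exact absurd hp (by decide)
    omega
  have hcard : Fintype.card ι = 2 * d := by
    rw [← hd, Module.finrank_fintype_fun_eq_card]
  have hμ1 : ∀ e ∈ (1 ::ₘ 3 ::ₘ Multiset.replicate (d - 2) 2), 0 < e ∧ e ≤ p := by
    intro e he
    rw [Multiset.mem_cons, Multiset.mem_cons] at he
    rcases he with rfl | rfl | he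
    · omega
    · omega
    · rw [Multiset.eq_of_mem_replicate he]
      omega
  have hμ2 : ∀ e, Even e → Even ((1 ::ₘ 3 ::ₘ Multiset.replicate (d - 2) 2).count e) := by
    intro e he
    have h1 : e ≠ 1 := by
      rintro rfl
      exact absurd he (by decide)
    have h3 : e ≠ 3 := by
      rintro rfl
      exact absurd he (by decide)
    rw [Multiset.count_cons_of_ne h1, Multiset.count_cons_of_ne h3, Multiset.count_replicate]
    split_ifs with h4
    · obtain ⟨s, hs⟩ := hev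
      exact ⟨s - 1, by omega⟩
    · exact Even.zero
  have hμ3 : (1 ::ₘ 3 ::ₘ Multiset.replicate (d - 2) 2).sum = Fintype.card ι := by
    rw [hcard, Multiset.sum_cons, Multiset.sum_cons, Multiset.sum_replicate, smul_eq_mul]
    omega
  obtain ⟨x₀, hx₀Ω, hx₀p, hx₀iso, hx₀rk⟩ := exists_omega_jtype hp Q hND _ hμ1 hμ2 hμ3 ⟨1, Multiset.mem_cons_self _ _, odd_one⟩
  obtain ⟨β, hβ, hkey⟩ := class_data h2 hND hE x₀ hx₀iso hd hd2 hx₀rk
  obtain ⟨δ, hδ⟩ := Cfsg.Agent.Lib.OddSubBack.exists_nonsq h2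
  have hδ0 : δ ≠ 0 := by
    rintro rfl
    exact hδ (IsSquare.zero)
  obtain ⟨G, hG⟩ := exists_similitude h2 hND hE hd (by omega) hδ0
  have hGi : ∀ v, Q (G.symm v) = δ⁻¹ * Q v := by
    intro v
    have h1 := hG (G.symm v)
    rw [LinearEquiv.apply_symm_apply] at h1
    rw [h1, inv_mul_cancel_left₀ hδ0]
  let x₁ : GL ι F := glEquiv.symm (G * glEquiv x₀ * G⁻¹)
  have hx₁v : ∀ v, (x₁ : Matrix ι ι F) *ᵥ v = G ((x₀ : Matrix ι ι F) *ᵥ G.symm v) := fun v => by
    rw [mulVec_glEquiv_symm]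
    rfl
  have hx₁p : x₁ ^ p = 1 := by
    apply glEquiv.injective
    rw [map_pow, MulEquiv.apply_symm_apply, conj_pow, ← map_pow, hx₀p, map_one, mul_one, mul_inv_cancel]
  have hx₀ne : x₀ ≠ 1 := by
    rintro rfl
    have h3 := hx₀rk 1
    have h4 : NN (glEquiv (1 : GL ι F)) = 0 := by
      apply LinearMap.ext
      intro v
      simp [NN_apply]
    rw [h4, pow_one, LinearMap.range_zero, finrank_bot, sum_map13_one] at h3
    omega
  have hx₁ne : x₁ ≠ 1 := by
    intro h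
    apply hx₀ne
    apply glEquiv.injective
    have h3 : glEquiv x₁ = 1 := by
      rw [h, map_one]
    rw [MulEquiv.apply_symm_apply] at h3
    rw [map_one]
    have h4 : glEquiv x₀ = G⁻¹ * (G * glEquiv x₀ * G⁻¹) * G := by group
    rw [h4, h3]
    group
  have hx₁iso : x₁ ∈ Cfsg.isometryGroup F ⇑Q := by
    rw [mem_isometryGroup]
    intro v
    rw [hx₁v, hG, (mem_isometryGroup _ _).1 hx₀iso, hGi, mul_inv_cancel_left₀ hδ0]
  have hx₁Ω : x₁ ∈ Cfsg.Geo.omegaGL ⇑Q :=
    Cfsg.Agent.S5985.mem_omega_of_odd_pow _ (Cfsg.Agent.Lib.OrthGroup.O_le_G (nondegenerate_of_ND hND) (Or.inl (neg_one_witness h2))) _ hx₁iso hp hx₁p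
  obtain ⟨W₁, hW₁, hW₁m⟩ := H x₀ hx₀Ω ⟨1, by rw [hx₀p]; simp⟩ (not_scalar_of_pow hx₀p hx₀ne)
  obtain ⟨W₂, hW₂, hW₂m⟩ := H x₁ hx₁Ω ⟨1, by rw [hx₁p]; simp⟩ (not_scalar_of_pow hx₁p hx₁ne)
  rw [omega_set_iff h2 hW₀ hm] at hW₁ hW₂
  set W₂' : Submodule F (ι → F) := W₂.map (G.symm : (ι → F) →ₗ[F] (ι → F)) with hW₂'
  have hcs' : CS Q W₂' (δ⁻¹ * α) := cs_similar (inv_ne_zero hδ0) hGi hW₂.1
  have hW₂'d : finrank F W₂' = m := by
    rw [hW₂', LinearEquiv.finrank_map_eq]
    exact hW₂.2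
  have hW₂'inv : W₂'.map (Matrix.toLin' (x₀ : Matrix ι ι F)) ≤ W₂' := by
    rintro _ ⟨_, ⟨w, hw, rfl⟩, rfl⟩
    refine ⟨Matrix.toLin' (x₁ : Matrix ι ι F) w, hW₂m ⟨w, hw, rfl⟩, ?_⟩
    simp only [Matrix.toLin'_apply, LinearEquiv.coe_coe]
    rw [hx₁v, LinearEquiv.symm_apply_apply]
  have hmod : m % 4 = 1 ∨ m % 4 = 3 := by
    obtain ⟨s, hs⟩ := hmo
    omega
  have hαβ : α * β ≠ 0 := mul_ne_zero hW₀.ne hβ
  rcases hmod with h4 | h4
  · have h5 := cs_unique h2 hW₁.1 (hkey W₁ ((ndOn_iff' _).2 (hW₁.1.nd h2)) hW₁m (by rw [hW₁.2]; exact h4))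
    have h6 := cs_unique h2 hcs' (hkey W₂' ((ndOn_iff' _).2 (hcs'.nd h2)) hW₂'inv (by rw [hW₂'d]; exact h4))
    rw [mul_assoc] at h6
    exact hδ (isSquare_of_ratio h5 h6 hαβ hδ0)
  · have hT0 : ∀ v, Q (Matrix.toLin' (x₀ : Matrix ι ι F) v) = Q v := fun v => by
      rw [Matrix.toLin'_apply]
      exact (mem_isometryGroup _ _).1 hx₀iso v
    have hTp : (Matrix.toLin' (x₀ : Matrix ι ι F)) ^ p = 1 := by
      rw [Cfsg.Agent.Lib.HypBridge.toLin_pow, ← Units.val_pow_eq_pow_val, hx₀p, Units.val_one, Matrix.toLin'_one]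
      rfl
    have h5 := class_three h2 hND hE hT0 hpf.out.ne_zero hTp hd hev hβ hkey hW₁.1
      ((map_le_iff _ _).1 hW₁m) (by rw [hW₁.2]; exact h4)
    have h6 := class_three h2 hND hE hT0 hpf.out.ne_zero hTp hd hev hβ hkey hcs'
      ((map_le_iff _ _).1 hW₂'inv) (by rw [hW₂'d]; exact h4)
    have h7 := nonsq_mul h5 h6
    have h8 : -(α * β) * -(δ⁻¹ * α * β) = δ⁻¹ * ((α * β) * (α * β)) := by
      ring
    rw [h8] at h7
    exact hδ (isSquare_of_ratio ⟨α * β, rfl⟩ h7 (mul_ne_zero hαβ hαβ) hδ0)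

/-- The dimension modulo `4` is forced by the partition `a, a, 2, …, 2`. -/
theorem nec_aa {p : ℕ} [hpf : Fact p.Prime] [CharP F p] (hp : Odd p) (hND : ND Q) {m a n : ℕ} (ha : Odd a) (hap : a ≤ p)
    (hcard : a + a + 2 * n = Fintype.card ι) (hn : Even n) (hmc : m ≤ Fintype.card ι) (hmo : Odd m) {W₀ : Submodule F (ι → F)}
    (H : HOdd Q W₀ p m) : m % 4 = a % 4 := by
  classical
  have ha2 : a ≠ 2 := by
    rintro rfl
    exact absurd ha (by decide)
  have ha0 : 0 < a := ha.pos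
  obtain ⟨ν, h1, h3, h4⟩ := nec_sub_odd hp Q hND m hmc (fun x hx hxp hxs => by
      obtain ⟨W, hW, hWm⟩ := H x hx ⟨1, by rw [hxp]; simp⟩ hxs
      exact ⟨W, hW.1, hW.2.1, hWm⟩) (a ::ₘ a ::ₘ Multiset.replicate n 2) (by
      intro e he
      rw [Multiset.mem_cons, Multiset.mem_cons] at he
      rcases he with rfl | rfl | he
      · omega
      · omega
      · rw [Multiset.eq_of_mem_replicate he]
        have := hpf.out.two_le
        omega) (by
      intro e he
      have h5 : e ≠ a := by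
        rintro rfl
        exact (Nat.not_even_iff_odd.2 ha) he
      rw [Multiset.count_cons_of_ne h5, Multiset.count_cons_of_ne h5, Multiset.count_replicate]
      split_ifs with h6
      · exact hn
      · exact Even.zero) (by
      rw [Multiset.sum_cons, Multiset.sum_cons, Multiset.sum_replicate, smul_eq_mul]
      omega) ⟨a, Multiset.mem_cons_self _ _, ha⟩
  rw [← h3]
  exact mod_four_aa a n ha ν h1 (h3 ▸ hmo) (h4 2 even_two)

/-- For `d` odd, no set of odd-dimensional subspaces meets every element of order `p`. -/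
theorem not_HOdd_odd {p : ℕ} [hpf : Fact p.Prime] [CharP F p] (hp : Odd p) (hND : ND Q) {d m : ℕ}
    (hd : finrank F (ι → F) = 2 * d) (hodd : Odd d) (hd3 : 3 ≤ d) (hmd : m ≤ 2 * d) (hmo : Odd m) {W₀ : Submodule F (ι → F)} :
    ¬ HOdd Q W₀ p m := by
  intro H
  have hp3 : 3 ≤ p := by
    have h1 := hpf.out.two_le
    have h3 : p ≠ 2 := by
      rintro rfl
      exact absurd hp (by decide)
    omega
  have hcard : Fintype.card ι = 2 * d := by
    rw [← hd, Module.finrank_fintype_fun_eq_card]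
  have hmod : m % 4 = 1 ∨ m % 4 = 3 := by
    obtain ⟨s, hs⟩ := hmo
    omega
  obtain ⟨k, hk⟩ := hodd
  rcases hmod with h4 | h4
  · have := nec_aa (a := 3) (n := d - 3) hp hND (by decide) hp3 (by omega) ⟨k - 1, by omega⟩ (by omega) hmo H
    omega
  · have := nec_aa (a := 1) (n := d - 1) hp hND (by decide) (by omega) (by omega) ⟨k, by omega⟩ (by omega) hmo H
    omega

end matrix

section plus

open Cfsg.Agent.Lib.OrthGroup Cfsg.Agent.Lib.OrthMatrix Cfsg.Agent.Lib.OrthoCount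
open Cfsg.Agent.Lib.OddSubMain Cfsg.Agent.Lib.OddSubTwo Cfsg.Agent.Lib.HypBridge
open scoped MatrixGroups

variable {F : Type*} [Field F] [Fintype F] {d : ℕ}

/-- The nilpotent part for the hyperbolic form. -/
noncomputable def Npl (σ : Fin d → Fin d) (s : Fin d → F) : (Fin d ⊕ Fin d → F) →ₗ[F] (Fin d ⊕ Fin d → F) where
  toFun v := Sum.elim (fun i => s i * v (Sum.inr (σ i))) (fun _ => 0)
  map_add' u v := by
    ext i
    rcases i with i | i
    · simp [mul_add]
    · simp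
  map_smul' c v := by
    ext i
    rcases i with i | i
    · simp
      ring
    · simp

theorem Npl_inl (σ : Fin d → Fin d) (s : Fin d → F) (v) (i : Fin d) : Npl σ s v (Sum.inl i) = s i * v (Sum.inr (σ i)) := rfl
theorem Npl_inr (σ : Fin d → Fin d) (s : Fin d → F) (v) (i : Fin d) : Npl σ s v (Sum.inr i) = 0 := rfl

theorem qPlus_eq_sum (v : Fin d ⊕ Fin d → F) : qPlus d F v = ∑ i, v (Sum.inl i) * v (Sum.inr i) := by
  rw [qPlus_apply]
  rfl

/-- For `d` even and hyperbolic forms, no odd-dimensional subspace is fixed by a suitable element of order `p`. -/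
theorem not_HOdd_plus_even {p : ℕ} [hpf : Fact p.Prime] [CharP F p] (hp : Odd p) {m : ℕ} (hev : Even d) (hd0 : 0 < d)
    {W₀ : Submodule F (Fin d ⊕ Fin d → F)} {α : F} (hW₀ : CS (qPlus d F) W₀ α) (hm : finrank F W₀ = m) (hmo : Odd m) :
    ¬ HOdd (qPlus d F) W₀ p m := by
  classical
  intro H
  have h2 := Cfsg.Agent.Lib.JWall99.two_ne_zero_of_odd (F := F) hp
  have hp2 : p ≠ 2 := by
    rintro rfl
    exact absurd hp (by decide)
  obtain ⟨t, ht⟩ := hev
  obtain ⟨σ, s, hσ, hs, hs0⟩ := exists_data_even (F := F) h2 ht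
  set N := Npl (σ : Fin d → Fin d) s with hN
  have hT : ∀ v, qPlus d F ((1 + N) v) = qPlus d F v := by
    intro v
    rw [qPlus_eq_sum, qPlus_eq_sum]
    have h1 : ∀ i, ((1 + N) v) (Sum.inl i) * ((1 + N) v) (Sum.inr i) =
        v (Sum.inl i) * v (Sum.inr i) + s i * (fun j => v (Sum.inr j)) (σ i) * (fun j => v (Sum.inr j)) i := by
      intro i
      have e1 : ((1 + N) v) (Sum.inl i) = v (Sum.inl i) + s i * v (Sum.inr (σ i)) := rfl
      have e2 : ((1 + N) v) (Sum.inr i) = v (Sum.inr i) := by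
        show v (Sum.inr i) + N v (Sum.inr i) = _
        rw [hN, Npl_inr, add_zero]
      rw [e1, e2]
      ring
    simp only [h1]
    have h5 := hsum_of_data h2 σ s hσ hs (fun j => v (Sum.inr j))
    rw [Finset.sum_add_distrib, h5, add_zero]
  have hNN : ∀ v, N (N v) = 0 := by
    intro v
    ext i
    rcases i with i | i
    · rw [hN, Npl_inl, Npl_inr, mul_zero]
      rfl
    · rw [hN, Npl_inr]
      rfl
  have hTp : (1 + N) ^ p = 1 := pow_eq_one_of_cube hp2 N (fun v => by rw [hNN])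
  have hNnT : ∀ v, Nn (1 + N) v = N v := by
    intro v
    show v + N v - v = N v
    abel
  have hne : (1 + N) ≠ 1 := by
    intro h
    let i₀ : Fin d := ⟨0, hd0⟩
    have h1 : N (Pi.single (Sum.inr (σ i₀)) 1) = 0 := by
      rw [← hNnT]
      show (1 + N) _ - _ = 0
      rw [h]
      simp
    have h3 := congrFun h1 (Sum.inl i₀)
    rw [hN, Npl_inl] at h3
    simp at h3
    exact hs0 i₀ h3
  obtain ⟨x, hxΩ, hxp, hxs, hxT⟩ := exists_x_gen h2 (ND_of_nondegenerate (Cfsg.Agent.Lib.HypLevi.hQ_qPlus d)) hp2 hT hTp hne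
  obtain ⟨W, hW, hWm⟩ := H x hxΩ ⟨1, by rw [hxp]; simp⟩ hxs
  rw [omega_set_iff h2 hW₀ hm] at hW
  rw [map_le_iff, hxT] at hWm
  have hts : ∀ v, (1 + N) v = v → qPlus d F v = 0 := by
    intro v hv
    have h1 : N v = 0 := by
      rw [← hNnT]
      show (1 + N) v - v = 0
      rw [hv, sub_self]
    have h3 : ∀ j, v (Sum.inr j) = 0 := by
      intro j
      have h4 := congrFun h1 (Sum.inl (σ j))
      rw [hN, Npl_inl, hσ] at h4
      exact (mul_eq_zero.1 h4).resolve_left (hs0 _)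
    rw [qPlus_eq_sum]
    simp [h3]
  have := even_of_ts_ker h2 hT hts (fun v => by rw [hNnT, hNnT, hNN]) hWm (hW.1.nd h2)
  rw [hW.2] at this
  exact (Nat.not_even_iff_odd.2 hmo) this

end plus

end Cfsg.Agent.Lib.OddSubUni
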