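import Mathlib
import Cfsg.Agent.Lib.OddSubUni

/-!
# Fixing odd-dimensional nondegenerate subspaces: the criterion for odd primes
-/

set_option autoImplicit false
set_option linter.unusedSectionVars false
set_option linter.unusedSimpArgs false
set_option linter.unusedVariables false

namespace Cfsg.Agent.Lib.OddSubFinal

open Module QuadraticMap Matrix Cfsg.Agent.Lib.QuadFF Cfsg.Agent.Lib.IsomBlock
open Cfsg.Agent.Lib.HypEll Cfsg.Agent.Lib.HypBlock Cfsg.Agent.Lib.OddSub Cfsg.Agent.Lib.OddSubMain Cfsg.Agent.Lib.OddSubModel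
open scoped MatrixGroups

variable {F : Type*} [Field F] [Fintype F] {ι : Type} [Fintype ι] [DecidableEq ι]
variable {Q : QuadraticForm F (ι → F)}

/-- The criterion for odd primes different from the characteristic. -/
theorem core_odd (p : ℕ) [Fact p.Prime] [CharP F p] {r q : ℕ} [hr : Fact r.Prime] (h2 : (2 : F) ≠ 0) (hND : ND Q) (hTop : Hyp Q ⊤ ∨ Ell Q ⊤)
    (hq : Fintype.card F = q) (hr2 : r ≠ 2) (hrF : (r : F) ≠ 0) {d t : ℕ} (hd : finrank F (ι → F) = 2 * d) (htd : 2 * t + 1 < d)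
    {W₀ : Submodule F (ι → F)} {α : F} (hW₀ : CS Q W₀ α) (hm : finrank F W₀ = 2 * t + 1)
    (hrΩ : r ∣ Nat.card {W : Submodule F (ι → F) // finrank F W = 2 * t + 1 ∧ Cfsg.Geo.IsNondegenerateOn (polar ⇑Q) W ∧
      Cfsg.Geo.AreIsometricFor ⇑Q W W₀}) :
    HOdd Q W₀ r (2 * t + 1) ↔
      ((0 < (2 * d) % blockDim r q → blockDim r q ≤ 2 * t + 1 ∧ 0 < (2 * t + 1) % blockDim r q ∧ (2 * t + 1) % blockDim r q < (2 * d) % blockDim r q) ∧
        ((2 * d) % blockDim r q = 0 → ¬ TypeF Q r q ((2 * d) / blockDim r q) ⊤)) := by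
  constructor
  · intro H
    exact forward_odd p h2 hND hTop hq hr2 hrF hd htd hW₀ hm hrΩ H
  · rintro ⟨h1, h3⟩
    apply backward_odd_main h2 hND hq hr2 hrF hd (by omega) ⟨t, rfl⟩ hW₀ hm
    by_cases h4 : (2 * d) % blockDim r q = 0
    · exact Or.inr ⟨h4, h3 h4⟩
    · exact Or.inl (h1 (Nat.pos_of_ne_zero h4)).2.2

/-- Value of the block dimension for even order. -/
theorem blockDim_of_even {r q : ℕ} (h : Even (orderOf (q : ZMod r))) : blockDim r q = orderOf (q : ZMod r) := by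
  unfold blockDim
  rw [if_pos h]

end Cfsg.Agent.Lib.OddSubFinal
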