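import Mathlib
import Cfsg.Agent.Lib.CharBasic
import Cfsg.Agent.Lib.CharInd
import Cfsg.Agent.Lib.CharKernel
import Cfsg.Agent.Lib.CharCentral
import Cfsg.Agent.Lib.CharCodegP

/-!
# Setting for the small-degree theorem: `C = C_D(x)` cyclic, a trivial-intersection property,
the averaging operator
-/

set_option autoImplicit false
set_option linter.style.haveILetI false
set_option linter.unusedVariables false
set_option linter.unusedSectionVars false

namespace Cfsg.Agent.Lib.OddX

open Cfsg Cfsg.Agent.Lib.CharBasic Cfsg.Agent.Lib.CharInd Cfsg.Agent.Lib.CharKernel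
open scoped ComplexConjugate

universe u

variable {D : Type u} [Group D] [Fintype D] {x : D} {r : ℕ}

noncomputable local instance fintypeSubL (K : Subgroup D) : Fintype K := Fintype.ofFinite K

/-- The centralizer of `x`. -/
abbrev CC (x : D) : Subgroup D := Subgroup.centralizer ({x} : Set D)

theorem mem_CC {g : D} : g ∈ CC x ↔ g * x = x * g := by
  rw [Subgroup.mem_centralizer_singleton_iff]

theorem NN_pow {g : D} (hg : g * x * g⁻¹ ∈ Subgroup.zpowers x) (m : ℕ) :
    g ^ m * x * (g ^ m)⁻¹ ∈ Subgroup.zpowers x := by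
  induction m with
  | zero => simp
  | succ m ih =>
    obtain ⟨k, hk⟩ := ih
    have h1 : g ^ (m + 1) * x * (g ^ (m + 1))⁻¹ = g * (g ^ m * x * (g ^ m)⁻¹) * g⁻¹ := by
      rw [pow_succ']; group
    rw [h1, ← hk]
    have h2 : g * x ^ k * g⁻¹ = (g * x * g⁻¹) ^ k := (conj_zpow).symm
    simp only [] at h2 ⊢
    rw [h2]
    exact Subgroup.zpow_mem _ hg k

/-- The normalizer of `⟨x⟩`. -/
def NN (x : D) : Subgroup D where
  carrier := {g | g * x * g⁻¹ ∈ Subgroup.zpowers x}
  mul_mem' := by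
    intro a b ha hb
    obtain ⟨k, hk⟩ := hb
    have h1 : a * b * x * (a * b)⁻¹ = a * (b * x * b⁻¹) * a⁻¹ := by group
    show a * b * x * (a * b)⁻¹ ∈ Subgroup.zpowers x
    simp only [] at hk
    rw [h1, ← hk, ← conj_zpow]
    exact Subgroup.zpow_mem _ ha k
  one_mem' := by simp
  inv_mem' := by
    intro a ha
    show a⁻¹ * x * a⁻¹⁻¹ ∈ Subgroup.zpowers x
    have h := NN_pow ha (orderOf a - 1)
    have h2 : a ^ (orderOf a - 1) = a⁻¹ := by
      apply eq_inv_of_mul_eq_one_left
      rw [← pow_succ, Nat.sub_add_cancel (orderOf_pos a), pow_orderOf_eq_one]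
    rwa [h2] at h

theorem mem_NN {g : D} : g ∈ NN x ↔ g * x * g⁻¹ ∈ Subgroup.zpowers x := Iff.rfl

theorem CC_le_NN : CC x ≤ NN x := by
  intro c hc
  rw [mem_NN, mem_CC.1 hc]
  simp

theorem zpowers_le_CC : Subgroup.zpowers x ≤ CC x := by
  rw [Subgroup.zpowers_le, mem_CC]

theorem conj_mem_CC {n c : D} (hn : n ∈ NN x) (hc : c ∈ CC x) : n⁻¹ * c * n ∈ CC x := by
  obtain ⟨k, hk⟩ := hn
  simp only [] at hk
  rw [mem_CC]
  have h1 : c * x ^ k = x ^ k * c := ((show Commute c x from mem_CC.1 hc).zpow_right k).eq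
  have h2 : n⁻¹ * c * n * x = n⁻¹ * c * (n * x * n⁻¹) * n := by group
  have h3 : x * (n⁻¹ * c * n) = n⁻¹ * (n * x * n⁻¹) * c * n := by group
  rw [h2, h3, ← hk]
  simp only [mul_assoc]
  rw [← mul_assoc c, h1, mul_assoc]

/-- Conjugation by an element of the normalizer, on `C`. -/
def conjC (n : NN x) : CC x →* CC x where
  toFun c := ⟨(n : D)⁻¹ * c * n, conj_mem_CC n.2 c.2⟩
  map_one' := by ext; simp
  map_mul' a b := by ext; simp; group

@[simp] theorem conjC_coe (n : NN x) (c : CC x) : ((conjC n c : CC x) : D) = (n : D)⁻¹ * c * n := rfl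

theorem conjC_surj (n : NN x) : Function.Surjective (conjC n) := by
  intro c
  refine ⟨conjC n⁻¹ c, ?_⟩
  ext
  simp
  group

/-- The action on irreducible characters of `C`. -/
def act (n : NN x) (χ : IrrCharacter (CC x)) : IrrCharacter (CC x) :=
  ⟨χ.1 ∘ conjC n, isIrrCharacter_comp_of_surjective (conjC n) (conjC_surj n) χ.2⟩

@[simp] theorem act_apply (n : NN x) (χ : IrrCharacter (CC x)) (c : CC x) :
    (act n χ).1 c = χ.1 (conjC n c) := rfl

/-- `x` as an element of `C`. -/
def xC (x : D) : CC x := ⟨x, mem_CC.2 rfl⟩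

@[simp] theorem xC_coe : ((xC x : CC x) : D) = x := rfl

/-- The standing hypotheses. -/
structure XS (x : D) (r : ℕ) : Prop where
  prime : r.Prime
  order : orderOf x = r
  odd : Odd (Nat.card D)
  comm : ∀ a b : CC x, a * b = b * a
  ti : ∀ (a : CC x) (g : D), (a : D) ∉ Subgroup.center D → g⁻¹ * a * g ∈ CC x → g ∈ NN x
  xnz : x ∉ Subgroup.center D
  ncl : ∀ χ : D → ℂ, IsIrrCharacter D χ → χ x = χ 1 → ∀ g, χ g = 1

section Lin

variable (hS : XS x r)
include hS

theorem exists_f (χ : IrrCharacter (CC x)) : ∃ f : CC x →* ℂˣ, ∀ c, χ.1 c = f c :=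
  exists_hom_of_degree_one (IsIrrCharacter.isCharacter χ.2)
    (Cfsg.Agent.Lib.CharCodegP.irr_one_of_comm hS.comm χ.2)

theorem chi_one (χ : IrrCharacter (CC x)) : χ.1 1 = 1 :=
  Cfsg.Agent.Lib.CharCodegP.irr_one_of_comm hS.comm χ.2

theorem chi_mul (χ : IrrCharacter (CC x)) (a b : CC x) : χ.1 (a * b) = χ.1 a * χ.1 b := by
  obtain ⟨f, hf⟩ := exists_f hS χ
  simp [hf]

theorem chi_pow (χ : IrrCharacter (CC x)) (a : CC x) (k : ℕ) : χ.1 (a ^ k) = χ.1 a ^ k := by
  obtain ⟨f, hf⟩ := exists_f hS χ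
  simp [hf]

theorem chi_zpow (χ : IrrCharacter (CC x)) (a : CC x) (k : ℤ) : χ.1 (a ^ k) = χ.1 a ^ k := by
  obtain ⟨f, hf⟩ := exists_f hS χ
  simp [hf]

theorem chi_conj (χ : IrrCharacter (CC x)) (a : CC x) : χ.1 a * conj (χ.1 a) = 1 := by
  rw [char_conj_eq_inv (IsIrrCharacter.isCharacter χ.2), ← chi_mul hS, mul_inv_cancel, chi_one hS]

theorem chi_ne_zero (χ : IrrCharacter (CC x)) (a : CC x) : χ.1 a ≠ 0 := by
  intro h
  have := chi_conj hS χ a
  rw [h, zero_mul] at this
  exact zero_ne_one this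

theorem class_C (f : CC x → ℂ) : IsClassFunction (CC x) f := by
  intro g h
  rw [hS.comm h g, mul_assoc, mul_inv_cancel, mul_one]

theorem xC_pow_r : (xC x) ^ r = 1 := by
  ext
  simp [← hS.order, pow_orderOf_eq_one]

theorem chi_x_pow_r (χ : IrrCharacter (CC x)) : χ.1 (xC x) ^ r = 1 := by
  rw [← chi_pow hS, xC_pow_r hS, chi_one hS]

/-- If `χ(x) ≠ 1` and `χ(x^k) = 1` then `x^k = 1`. -/
theorem eq_one_of_chi {χ : IrrCharacter (CC x)} (hχ : χ.1 (xC x) ≠ 1) {y : CC x}
    (hy : (y : D) ∈ Subgroup.zpowers x) (h1 : χ.1 y = 1) : y = 1 := by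
  obtain ⟨k, hk⟩ := hy
  have hy' : y = (xC x) ^ k := by
    ext
    simp [← hk]
  have hp := hS.prime
  haveI : Fact r.Prime := ⟨hp⟩
  obtain ⟨f, hf⟩ := exists_f hS χ
  have hf1 : f (xC x) ≠ 1 := by
    intro h
    apply hχ
    rw [hf, h]
    simp
  have hf2 : f (xC x) ^ r = 1 := by rw [← map_pow, xC_pow_r hS, map_one]
  have ho : orderOf (f (xC x)) = r := orderOf_eq_prime hf2 hf1
  have hy1 : f y = 1 := by
    have := h1
    rw [hf] at this
    exact Units.ext (by simpa using this)
  rw [hy', map_zpow] at hy1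
  have hd : (r : ℤ) ∣ k := by
    have := orderOf_dvd_iff_zpow_eq_one.2 hy1
    rwa [ho] at this
  obtain ⟨m, rfl⟩ := hd
  rw [hy', zpow_mul, zpow_natCast, xC_pow_r hS, one_zpow]

theorem act_eq_iff {χ : IrrCharacter (CC x)} (hχ : χ.1 (xC x) ≠ 1) (n m : NN x) :
    act n χ = act m χ ↔ n⁻¹ * m ∈ (CC x).subgroupOf (NN x) := by
  rw [Subgroup.mem_subgroupOf]
  constructor
  · intro h
    -- evaluate at `n x n⁻¹`
    have hmemC : (n : D) * x * (n : D)⁻¹ ∈ CC x := zpowers_le_CC n.2
    let a : CC x := ⟨(n : D) * x * (n : D)⁻¹, hmemC⟩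
    have h1 : (act n χ).1 a = (act m χ).1 a := by rw [h]
    rw [act_apply, act_apply] at h1
    have h2 : conjC n a = xC x := by
      ext
      simp [a]
      group
    rw [h2] at h1
    set u : NN x := n⁻¹ * m with hu
    have h3 : conjC m a = conjC u (xC x) := by
      ext
      simp [a, hu]
      group
    rw [h3] at h1
    -- `u⁻¹ x u · x⁻¹` lies in `⟨x⟩` and is killed by `χ`
    have hu2 : ((u : D)⁻¹) * x * ((u : D)⁻¹)⁻¹ ∈ Subgroup.zpowers x := (u⁻¹).2
    have h4 : conjC u (xC x) * (xC x)⁻¹ = 1 := by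
      apply eq_one_of_chi hS hχ
      · apply Subgroup.mul_mem
        · simpa using hu2
        · simp
      · rw [chi_mul hS, ← h1]
        have := chi_mul hS χ (xC x) (xC x)⁻¹
        rw [mul_inv_cancel, chi_one hS] at this
        exact this.symm
    have h5 : conjC u (xC x) = xC x := mul_inv_eq_one.1 h4
    have h6 : (u : D)⁻¹ * x * u = x := by
      have := congrArg (Subtype.val) h5
      simpa using this
    show ((u : NN x) : D) ∈ CC x
    rw [mem_CC]
    calc (u : D) * x = u * ((u : D)⁻¹ * x * u) := by rw [h6]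
      _ = x * u := by group
  · intro h
    apply Subtype.ext
    funext c
    rw [act_apply, act_apply]
    have h1 : conjC m c = conjC n c := by
      ext
      simp only [conjC_coe]
      have hw : ((n⁻¹ * m : NN x) : D) = (n : D)⁻¹ * m := by simp
      have hcomm := hS.comm ⟨_, h⟩ (conjC n c)
      have hcomm' := congrArg Subtype.val hcomm
      simp only [Subgroup.coe_mul, conjC_coe, hw] at hcomm'
      have h3 : (m : D) = n * ((n : D)⁻¹ * m) := by group
      calc (m : D)⁻¹ * c * m = ((n : D)⁻¹ * m)⁻¹ * (((n : D)⁻¹ * c * n) * ((n : D)⁻¹ * m)) := by group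
        _ = ((n : D)⁻¹ * m)⁻¹ * (((n : D)⁻¹ * m) * ((n : D)⁻¹ * c * n)) := by rw [hcomm']
        _ = (n : D)⁻¹ * c * n := by group
    rw [h1]

end Lin

theorem sum_of_vanish (H : Subgroup D) (F : D → ℂ) (hF : ∀ g, g ∉ H → F g = 0) :
    ∑ g : D, F g = ∑ h : H, F h := by
  have h1 : ∀ g : D, F g = extendByZero H (fun h : H => F h) g := by
    intro g
    by_cases hg : g ∈ H
    · rw [extendByZero_of_mem H _ hg]
    · rw [extendByZero_of_not_mem H _ hg, hF g hg]
  calc ∑ g : D, F g = ∑ g : D, extendByZero H (fun h : H => F h) g :=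
        Finset.sum_congr rfl fun g _ => h1 g
    _ = ∑ h : H, F h := sum_extendByZero H _

/-- The averaging operator. -/
noncomputable def avgC (x : D) (θ : CC x → ℂ) : CC x → ℂ :=
  fun a => (Nat.card (CC x) : ℂ)⁻¹ * ∑ n : NN x, θ (conjC n a)

theorem avgC_sub (θ₁ θ₂ : CC x → ℂ) : avgC x (θ₁ - θ₂) = avgC x θ₁ - avgC x θ₂ := by
  funext a
  simp only [avgC, Pi.sub_apply, Finset.sum_sub_distrib, mul_sub]

theorem avgC_eq (θ : CC x → ℂ) :
    avgC x θ = (Nat.card (CC x) : ℂ)⁻¹ • ∑ n : NN x, (θ ∘ conjC n) := by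
  funext a
  simp [avgC, Finset.sum_apply]

/-- `|N : C|`. -/
noncomputable def ee (x : D) : ℕ := Nat.card (NN x) / Nat.card (CC x)

theorem card_NN : Nat.card (NN x) = ee x * Nat.card (CC x) := by
  have h := Subgroup.card_dvd_of_le (CC_le_NN (x := x))
  rw [ee, Nat.div_mul_cancel h]

theorem ee_pos : 0 < ee x := by
  rcases Nat.eq_zero_or_pos (ee x) with h | h
  · have := card_NN (x := x)
    rw [h, zero_mul] at this
    exact absurd this Nat.card_pos.ne'
  · exact h

section Avg

variable (hS : XS x r)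
include hS

theorem center_conj {c g : D} (hc : c ∈ Subgroup.center D) : g⁻¹ * c * g = c := by
  have := (Subgroup.mem_center_iff.1 hc) g
  rw [mul_assoc, ← this]
  group

theorem ind_eq_avg (θ : CC x → ℂ) (hθ : ∀ c : CC x, (c : D) ∈ Subgroup.center D → θ c = 0)
    (a : CC x) : indFun (CC x) θ a = avgC x θ a := by
  rw [indFun_apply]
  unfold avgC
  congr 1
  by_cases ha : (a : D) ∈ Subgroup.center D
  · have h1 : ∀ g : D, extendByZero (CC x) θ (g⁻¹ * a * g) = 0 := by
      intro g
      rw [center_conj hS ha, extendByZero_coe, hθ a ha]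
    have h3 : ∀ n : NN x, θ (conjC n a) = 0 := by
      intro n
      apply hθ
      rw [conjC_coe, center_conj hS ha]
      exact ha
    simp [h1, h3]
  · have h1 : ∀ g : D, g ∉ NN x → extendByZero (CC x) θ (g⁻¹ * a * g) = 0 := by
      intro g hg
      apply extendByZero_of_not_mem
      intro hm
      exact hg (hS.ti a g ha hm)
    have h2 : ∀ n : NN x, extendByZero (CC x) θ ((n : D)⁻¹ * a * n) = θ (conjC n a) := by
      intro n
      exact extendByZero_coe (CC x) θ (conjC n a)
    rw [sum_of_vanish (NN x) _ h1]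
    exact Finset.sum_congr rfl fun n _ => h2 n

theorem inner_ind_ind (θ : CC x → ℂ) (hθ : ∀ c : CC x, (c : D) ∈ Subgroup.center D → θ c = 0)
    (φ : CC x → ℂ) :
    classInner (indFun (CC x) φ) (indFun (CC x) θ) = classInner φ (avgC x θ) := by
  rw [frobenius (CC x) φ (indFun_isClassFunction (CC x) θ)]
  congr 1
  funext a
  exact ind_eq_avg hS θ hθ a

theorem act_inv_act (n : NN x) (χ : IrrCharacter (CC x)) : act n⁻¹ (act n χ) = χ := by
  apply Subtype.ext
  funext c
  rw [act_apply, act_apply]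
  have h : conjC n (conjC n⁻¹ c) = c := by
    ext
    simp
    group
  rw [h]

theorem act_act (n m : NN x) (χ : IrrCharacter (CC x)) : act m (act n χ) = act (m * n) χ := by
  apply Subtype.ext
  funext c
  rw [act_apply, act_apply, act_apply]
  have h : conjC n (conjC m c) = conjC (m * n) c := by
    ext
    simp
    group
  rw [h]

theorem act_one' (χ : IrrCharacter (CC x)) : act 1 χ = χ := by
  apply Subtype.ext
  funext c
  rw [act_apply]
  have h : conjC 1 c = c := by
    ext
    simp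
  rw [h]

theorem or_symm {χ₁ χ₂ : IrrCharacter (CC x)} (h : ∃ n : NN x, act n χ₁ = χ₂) :
    ∃ n : NN x, act n χ₂ = χ₁ := by
  obtain ⟨n, rfl⟩ := h
  exact ⟨n⁻¹, act_inv_act hS n χ₁⟩

theorem or_trans {χ₁ χ₂ χ₃ : IrrCharacter (CC x)} (h : ∃ n : NN x, act n χ₁ = χ₂)
    (h' : ∃ n : NN x, act n χ₂ = χ₃) : ∃ n : NN x, act n χ₁ = χ₃ := by
  obtain ⟨n, rfl⟩ := h
  obtain ⟨m, rfl⟩ := h'
  exact ⟨m * n, (act_act hS n m χ₁).symm⟩

open Classical in
theorem inner_avg_irr {χ : IrrCharacter (CC x)} (hχ : χ.1 (xC x) ≠ 1) (χ' : IrrCharacter (CC x)) :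
    classInner χ'.1 (avgC x χ.1) = if (∃ n : NN x, act n χ = χ') then 1 else 0 := by
  rw [avgC_eq, classInner_smul_right, classInner_sum_right]
  have h1 : ∀ n : NN x, classInner χ'.1 (χ.1 ∘ conjC n) = if act n χ = χ' then 1 else 0 := by
    intro n
    have := classInner_irr χ'.2 (act n χ).2
    have h2 : (act n χ).1 = χ.1 ∘ conjC n := rfl
    rw [h2] at this
    rw [this]
    by_cases h : act n χ = χ'
    · rw [if_pos h, if_pos]
      exact (congrArg Subtype.val h).symm
    · rw [if_neg h, if_neg]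
      intro h3
      exact h (Subtype.ext (by rw [h2]; exact h3.symm))
  simp only [h1]
  split_ifs with h
  · obtain ⟨n₀, rfl⟩ := h
    have h2 : ∀ n : NN x, (if act n χ = act n₀ χ then (1 : ℂ) else 0) =
        if n₀⁻¹ * n ∈ (CC x).subgroupOf (NN x) then 1 else 0 := by
      intro n
      by_cases h : act n χ = act n₀ χ
      · rw [if_pos h, if_pos ((act_eq_iff hS hχ n₀ n).1 h.symm)]
      · rw [if_neg h, if_neg (fun h' => h ((act_eq_iff hS hχ n₀ n).2 h').symm)]
    simp only [h2]
    have h3 : ∑ n : NN x, (if n₀⁻¹ * n ∈ (CC x).subgroupOf (NN x) then (1 : ℂ) else 0) =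
        ∑ n : NN x, (if n ∈ (CC x).subgroupOf (NN x) then (1 : ℂ) else 0) :=
      Fintype.sum_equiv (Equiv.mulLeft n₀⁻¹) _ _ fun n => rfl
    rw [h3, Finset.sum_boole, map_inv₀, map_natCast]
    have h4 : ((Finset.univ.filter (fun n : NN x => n ∈ (CC x).subgroupOf (NN x))).card : ℂ) =
        Nat.card (CC x) := by
      have h5 : (Finset.univ.filter (fun n : NN x => n ∈ (CC x).subgroupOf (NN x))).card =
          Nat.card ((CC x).subgroupOf (NN x)) := by
        rw [Nat.card_eq_fintype_card, Fintype.card_subtype]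
      rw [h5, Nat.card_congr (Subgroup.subgroupOfEquivOfLe (CC_le_NN (x := x))).toEquiv]
    rw [h4, inv_mul_cancel₀ (natCard_subgroup_ne_zero (CC x))]
  · have h2 : ∀ n : NN x, (if act n χ = χ' then (1 : ℂ) else 0) = 0 := by
      intro n
      rw [if_neg]
      intro h'
      exact h ⟨n, h'⟩
    simp [h2]

/-- The orbit of a character. -/
noncomputable def Orb (χ : IrrCharacter (CC x)) : Finset (IrrCharacter (CC x)) :=
  by classical exact Finset.univ.filter (fun χ' => ∃ n : NN x, act n χ = χ')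

omit hS in
theorem mem_Orb {χ χ' : IrrCharacter (CC x)} : χ' ∈ Orb χ ↔ ∃ n : NN x, act n χ = χ' := by
  classical
  simp only [Orb, Finset.mem_filter, Finset.mem_univ, true_and]

theorem avg_eq_sum_orb {χ : IrrCharacter (CC x)} (hχ : χ.1 (xC x) ≠ 1) :
    avgC x χ.1 = ∑ χ' ∈ Orb χ, χ'.1 := by
  classical
  have h := classFunction_eq_sum (class_C hS (avgC x χ.1))
  rw [h]
  have h1 : ∀ χ' : IrrCharacter (CC x), classInner (avgC x χ.1) χ'.1 =
      if χ' ∈ Orb χ then 1 else 0 := by
    intro χ'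
    rw [← classInner_conj_symm, inner_avg_irr hS hχ]
    by_cases hh : ∃ n : NN x, act n χ = χ'
    · rw [if_pos hh, if_pos (mem_Orb.2 hh)]
      simp
    · rw [if_neg hh, if_neg (fun h' => hh (mem_Orb.1 h'))]
      simp
  simp only [h1]
  rw [← Finset.sum_filter_add_sum_filter_not Finset.univ (fun χ' => χ' ∈ Orb χ)]
  have h2 : Finset.univ.filter (fun χ' => χ' ∈ Orb χ) = Orb χ := by
    ext χ'
    simp
  rw [h2]
  rw [Finset.sum_congr rfl (fun χ' hχ' => by rw [if_pos hχ', one_smul])]
  rw [Finset.sum_eq_zero (s := Finset.univ.filter (fun χ' => χ' ∉ Orb χ))]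
  · simp
  · intro χ' hχ'
    rw [if_neg (Finset.mem_filter.1 hχ').2, zero_smul]

theorem avg_one (χ : IrrCharacter (CC x)) : avgC x χ.1 1 = ee x := by
  unfold avgC
  have h1 : ∀ n : NN x, χ.1 (conjC n 1) = 1 := by
    intro n
    rw [map_one, chi_one hS]
  simp only [h1, Finset.sum_const, Finset.card_univ, nsmul_eq_mul, mul_one]
  rw [Fintype.card_eq_nat_card, card_NN]
  have := natCard_subgroup_ne_zero (CC x)
  push_cast
  field_simp

theorem card_orb {χ : IrrCharacter (CC x)} (hχ : χ.1 (xC x) ≠ 1) : (Orb χ).card = ee x := by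
  have h := congrFun (avg_eq_sum_orb hS hχ) 1
  rw [avg_one hS, Finset.sum_apply] at h
  simp only [chi_one hS, Finset.sum_const, nsmul_eq_mul, mul_one] at h
  exact_mod_cast h.symm

/-- The multiplicity of `χ` in the restriction of `ζ`. -/
noncomputable def MM (χ : IrrCharacter (CC x)) (ζ : D → ℂ) : ℂ :=
  classInner χ.1 (fun c : CC x => ζ c)

omit hS in
theorem inner_ind_eq_MM (χ : IrrCharacter (CC x)) {ζ : D → ℂ} (hζ : IsClassFunction D ζ) :
    classInner (indFun (CC x) χ.1) ζ = MM χ ζ :=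
  frobenius (CC x) χ.1 hζ

omit hS in
theorem MM_nat (χ : IrrCharacter (CC x)) {ζ : D → ℂ} (hζ : IsCharacter D ζ) :
    ∃ k : ℕ, MM χ ζ = k :=
  classInner_char_char (IsIrrCharacter.isCharacter χ.2) (isCharacter_restrict (CC x) hζ)

theorem MM_act (n : NN x) (χ : IrrCharacter (CC x)) {ζ : D → ℂ} (hζ : IsClassFunction D ζ) :
    MM (act n χ) ζ = MM χ ζ := by
  unfold MM classInner
  congr 1
  have hb : Function.Bijective (conjC n) := by
    refine ⟨?_, conjC_surj n⟩
    intro a b hab
    have := congrArg Subtype.val hab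
    simp only [conjC_coe] at this
    ext
    simpa using this
  rw [← hb.sum_comp (fun c : CC x => χ.1 c * conj (ζ c))]
  refine Finset.sum_congr rfl fun c _ => ?_
  rw [act_apply]
  congr 2
  rw [conjC_coe]
  have := hζ (c : D) (n : D)⁻¹
  rw [inv_inv] at this
  exact this.symm

end Avg

/-- Decomposition of a difference of characters of norm two and degree zero. -/
theorem norm2_decomp {A B : D → ℂ} (hA : IsCharacter D A) (hB : IsCharacter D B)
    (h2 : classInner (A - B) (A - B) = 2) (h1 : A 1 = B 1) :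
    ∃ a b : IrrCharacter D, a ≠ b ∧ A - B = a.1 - b.1 := by
  classical
  obtain ⟨m, hm⟩ := exists_nat_decomp hA
  obtain ⟨m', hm'⟩ := exists_nat_decomp hB
  set c : IrrCharacter D → ℤ := fun i => (m i : ℤ) - m' i with hc
  have hexp : A - B = ∑ i, ((c i : ℂ)) • (i.1) := by
    rw [hm, hm', ← Finset.sum_sub_distrib]
    refine Finset.sum_congr rfl fun i _ => ?_
    funext g
    simp [hc, sub_mul]
  have hin : ∀ j : IrrCharacter D, classInner (A - B) j.1 = c j := by
    intro j
    rw [classInner_sub_left, hm, hm', classInner_nat_decomp _ _ j.2, classInner_nat_decomp _ _ j.2]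
    simp [hc]
  have hsum : ∑ i, c i ^ 2 = 2 := by
    have h3 : classInner (A - B) (A - B) = ∑ i, ((c i ^ 2 : ℤ) : ℂ) := by
      have h4 : classInner (A - B) (A - B) = classInner (A - B) (∑ i, ((c i : ℂ)) • (i.1)) := by
        rw [← hexp]
      rw [h4, classInner_sum_right]
      refine Finset.sum_congr rfl fun i _ => ?_
      rw [classInner_smul_right, hin]
      simp [sq]
    rw [h3] at h2
    exact_mod_cast h2
  set S := Finset.univ.filter (fun i => c i ≠ 0) with hSdef
  have hsum2 : ∑ i ∈ S, c i ^ 2 = 2 := by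
    rw [← hsum, hSdef, Finset.sum_filter]
    refine Finset.sum_congr rfl fun i _ => ?_
    split_ifs with h
    · rfl
    · push Not at h
      simp [h]
  have hge : ∀ i ∈ S, 1 ≤ c i ^ 2 := by
    intro i hi
    have : c i ≠ 0 := (Finset.mem_filter.1 hi).2
    have h4 : 0 < c i ^ 2 := by positivity
    omega
  have hcard : (S.card : ℤ) ≤ 2 := by
    have := Finset.card_nsmul_le_sum S (fun i => c i ^ 2) 1 hge
    rw [hsum2] at this
    simpa using this
  have hS2 : S.card = 2 := by
    have h0 : S.card ≠ 0 := by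
      intro h
      rw [Finset.card_eq_zero] at h
      rw [h] at hsum2
      simp at hsum2
    have h1' : S.card ≠ 1 := by
      intro h
      obtain ⟨a, ha⟩ := Finset.card_eq_one.1 h
      rw [ha, Finset.sum_singleton] at hsum2
      have h5 : c a ^ 2 = 2 := hsum2
      have h6 : -2 < c a := by nlinarith
      have h7 : c a < 2 := by nlinarith
      have h8 : c a = -1 ∨ c a = 0 ∨ c a = 1 := by omega
      rcases h8 with h8 | h8 | h8 <;> rw [h8] at h5 <;> norm_num at h5
    omega
  obtain ⟨a, b, hab, hSe⟩ := Finset.card_eq_two.1 hS2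
  have hca : c a ≠ 0 := (Finset.mem_filter.1 (by rw [hSe]; simp : a ∈ S)).2
  have hcb : c b ≠ 0 := (Finset.mem_filter.1 (by rw [hSe]; simp : b ∈ S)).2
  rw [hSe, Finset.sum_pair hab] at hsum2
  have hca2 : c a ^ 2 = 1 := by
    have h4 : 0 < c a ^ 2 := by positivity
    have h5 : 0 < c b ^ 2 := by positivity
    omega
  have hcb2 : c b ^ 2 = 1 := by
    have h4 : 0 < c a ^ 2 := by positivity
    have h5 : 0 < c b ^ 2 := by positivity
    omega
  have hab' : A - B = (c a : ℂ) • a.1 + (c b : ℂ) • b.1 := by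
    rw [hexp]
    apply Fintype.sum_eq_add a b hab
    rintro i ⟨hi1, hi2⟩
    have : c i = 0 := by
      by_contra hne
      have : i ∈ S := Finset.mem_filter.2 ⟨Finset.mem_univ _, hne⟩
      rw [hSe] at this
      simp at this
      tauto
    rw [this]
    simp
  have hdeg : (c a : ℂ) * a.1 1 + (c b : ℂ) * b.1 1 = 0 := by
    have := congrFun hab' 1
    simp only [Pi.sub_apply, Pi.add_apply, Pi.smul_apply, smul_eq_mul] at this
    rw [← this, h1, sub_self]
  rw [one_eq_charDegree (IsIrrCharacter.isCharacter a.2),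
    one_eq_charDegree (IsIrrCharacter.isCharacter b.2)] at hdeg
  have hda := charDegree_pos a.2
  have hdb := charDegree_pos b.2
  have hdeg' : c a * (charDegree a.1 : ℤ) + c b * (charDegree b.1 : ℤ) = 0 := by
    exact_mod_cast hdeg
  have hcases : ∀ z : ℤ, z ^ 2 = 1 → z = 1 ∨ z = -1 := by
    intro z hz
    have : (z - 1) * (z + 1) = 0 := by nlinarith
    rcases mul_eq_zero.1 this with h | h
    · left; omega
    · right; omega
  rcases hcases _ hca2 with h3 | h3 <;> rcases hcases _ hcb2 with h4 | h4 <;> rw [h3, h4] at hab' hdeg'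
  · exfalso
    have : (0 : ℤ) < (charDegree a.1 : ℤ) := by exact_mod_cast hda
    have : (0 : ℤ) < (charDegree b.1 : ℤ) := by exact_mod_cast hdb
    omega
  · refine ⟨a, b, hab, ?_⟩
    rw [hab']
    simp [sub_eq_add_neg]
  · refine ⟨b, a, hab.symm, ?_⟩
    rw [hab']
    simp [sub_eq_add_neg, add_comm]
  · exfalso
    have : (0 : ℤ) < (charDegree a.1 : ℤ) := by exact_mod_cast hda
    have : (0 : ℤ) < (charDegree b.1 : ℤ) := by exact_mod_cast hdb
    omega

end Cfsg.Agent.Lib.OddX
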