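import Mathlib
import Cfsg.Agent.Lib.OddXa

/-!
# Induction on the group order for the small-degree theorem

From the core statement on `XS`-groups to the normality of `⟨x⟩`.
-/

set_option autoImplicit false
set_option linter.style.haveILetI false
set_option linter.unusedVariables false
set_option linter.unusedSectionVars false

namespace Cfsg.Agent.Lib.OddX

open Cfsg Cfsg.Agent.Lib.CharBasic Cfsg.Agent.Lib.CharKernel
open scoped ComplexConjugate

universe u

section Aux

variable {D : Type u} [Group D] [Fintype D] {x : D} {r : ℕ}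

theorem top_orderOf_conj (g : D) : orderOf (g * x * g⁻¹) = orderOf x := by
  have h := orderOf_injective (MulAut.conj g).toMonoidHom (MulAut.conj g).injective x
  simpa using h

/-- In a finite group, an element of order `r` normalizing `⟨x⟩` lies in `⟨x⟩`
when the centralizer of `x` is cyclic. -/
theorem top_mem_zpowers (hr : r.Prime) (hx : orderOf x = r)
    (hC : IsCyclic (CC x)) {y : D} (hy : y ∈ NN x) (hyr : orderOf y = r) :
    y ∈ Subgroup.zpowers x := by
  classical
  haveI : Fact r.Prime := ⟨hr⟩
  have hy0 : y * x * y⁻¹ ∈ Submonoid.powers x := by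
    rw [mem_powers_iff_mem_zpowers]
    exact hy
  obtain ⟨k, hk0⟩ := hy0
  have hk : x ^ k = y * x * y⁻¹ := hk0
  have hpow : ∀ j : ℕ, y ^ j * x * (y ^ j)⁻¹ = x ^ (k ^ j) := by
    intro j
    induction j with
    | zero => simp
    | succ j ih =>
      have h1 : y ^ (j + 1) * x * (y ^ (j + 1))⁻¹ = y * (y ^ j * x * (y ^ j)⁻¹) * y⁻¹ := by
        rw [pow_succ']
        group
      rw [h1, ih, ← conj_pow, ← hk, ← pow_mul, pow_succ, mul_comm]
  have h2 := hpow r
  rw [← hyr, pow_orderOf_eq_one, hyr] at h2
  simp only [one_mul, inv_one, mul_one] at h2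
  have h3 : x ^ 1 = x ^ (k ^ r) := by rw [pow_one]; exact h2
  rw [pow_eq_pow_iff_modEq, hx] at h3
  have h4 : (k : ZMod r) = 1 := by
    have h5 : ((k ^ r : ℕ) : ZMod r) = ((1 : ℕ) : ZMod r) := ((ZMod.natCast_eq_natCast_iff _ _ _).2 h3).symm
    push_cast at h5
    rwa [ZMod.pow_card] at h5
  have h6 : x ^ k = x := by
    have h7 : k ≡ 1 [MOD orderOf x] := by
      rw [hx]
      have : ((k : ℕ) : ZMod r) = ((1 : ℕ) : ZMod r) := by simpa using h4
      exact (ZMod.natCast_eq_natCast_iff _ _ _).1 this
    have := (pow_eq_pow_iff_modEq (x := x)).2 h7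
    simpa using this
  have hyC : y ∈ CC x := by
    rw [mem_CC]
    have h8 : y * x * y⁻¹ = x := by rw [← hk, h6]
    calc y * x = y * x * y⁻¹ * y := by group
      _ = x * y := by rw [h8]
  -- uniqueness of the subgroup of order `r` in the cyclic group `C`
  letI : Fintype (CC x) := Fintype.ofFinite _
  let a : CC x := xC x
  let b : CC x := ⟨y, hyC⟩
  have ha : orderOf a = r := by
    show orderOf (⟨x, _⟩ : CC x) = r
    rw [Subgroup.orderOf_mk, hx]
  have hb : orderOf b = r := by
    show orderOf (⟨y, _⟩ : CC x) = r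
    rw [Subgroup.orderOf_mk, hyr]
  let T : Finset (CC x) := Finset.univ.filter (fun c => c ^ r = 1)
  letI : Fintype (Subgroup.zpowers a) := Fintype.ofFinite _
  let S : Finset (CC x) := Finset.univ.filter (fun c => c ∈ Subgroup.zpowers a)
  have hTc : T.card ≤ r := IsCyclic.card_pow_eq_one_le hr.pos
  have hSc : S.card = r := by
    have h1 : S.card = Fintype.card (Subgroup.zpowers a) := by
      rw [Fintype.card_subtype]
    rw [h1, ← Nat.card_eq_fintype_card, Nat.card_zpowers, ha]
  have hST : S ⊆ T := by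
    intro c hc
    simp only [S, Finset.mem_filter, Finset.mem_univ, true_and] at hc
    obtain ⟨t, rfl⟩ := hc
    simp only [T, Finset.mem_filter, Finset.mem_univ, true_and]
    show (a ^ t) ^ r = 1
    rw [← zpow_natCast, ← zpow_mul, mul_comm, zpow_mul, zpow_natCast, ← ha, pow_orderOf_eq_one,
      one_zpow]
  have hEq : S = T := Finset.eq_of_subset_of_card_le hST (by rw [hSc]; exact hTc)
  have hbT : b ∈ T := by
    simp only [T, Finset.mem_filter, Finset.mem_univ, true_and]
    rw [← hb, pow_orderOf_eq_one]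
  rw [← hEq] at hbT
  simp only [S, Finset.mem_filter, Finset.mem_univ, true_and] at hbT
  obtain ⟨t, ht⟩ := hbT
  refine ⟨t, ?_⟩
  have := congrArg Subtype.val ht
  simpa [a, b] using this

theorem top_ncl (hK : Subgroup.normalClosure ({x} : Set D) = ⊤) (χ : D → ℂ)
    (hχ : IsIrrCharacter D χ) (h1 : χ x = χ 1) (g : D) : χ g = 1 := by
  have hc := IsIrrCharacter.isCharacter hχ
  have hle : Subgroup.normalClosure ({x} : Set D) ≤ charKer hc :=
    Subgroup.normalClosure_le_normal (by
      rw [Set.singleton_subset_iff]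
      exact (mem_charKer hc).2 h1)
  have hall : ∀ g, χ g = χ 1 := fun g => (mem_charKer hc).1 (hle (by rw [hK]; trivial))
  obtain ⟨d, hd⟩ := isCharacter_one_eq hc
  have h2 := classInner_irr_self hχ
  have hcard : (Nat.card D : ℂ) ≠ 0 := natCard_ne_zero'
  have h3 : classInner χ χ = (d : ℂ) ^ 2 := by
    unfold classInner
    simp only [hall _, hd]
    simp only [Complex.conj_natCast, Finset.sum_const, Finset.card_univ, nsmul_eq_mul]
    rw [← Nat.card_eq_fintype_card, ← mul_assoc, inv_mul_cancel₀ hcard, one_mul, sq]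
  rw [h3] at h2
  have h4 : d ^ 2 = 1 := by exact_mod_cast h2
  have h5 : d = 1 := by
    rcases Nat.eq_zero_or_pos d with h | h
    · subst h
      simp at h4
    · nlinarith
  rw [hall g, hd, h5]
  simp

/-- `∑ ψ(x^i)` is a natural number for a character `ψ`. -/
theorem top_sum_pow_nat {ψ : D → ℂ} (hψ : IsCharacter D ψ) (hr : r.Prime)
    (hx : orderOf x = r) : ∃ a : ℕ, ∑ i ∈ Finset.range r, ψ (x ^ i) = a := by
  classical
  letI : Fintype (Subgroup.zpowers x) := Fintype.ofFinite _
  have hfin : IsOfFinOrder x := isOfFinOrder_of_finite x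
  obtain ⟨a, ha⟩ := classInner_char_char (isCharacter_restrict (Subgroup.zpowers x) hψ)
    (isCharacter_one (G := Subgroup.zpowers x))
  have h1 : ∑ i ∈ Finset.range r, ψ (x ^ i) = ∑ h : Subgroup.zpowers x, ψ h := by
    subst hx
    rw [Finset.sum_range]
    exact Equiv.sum_comp (finEquivZPowers hfin) (fun h : Subgroup.zpowers x => ψ h) |>.symm ▸ rfl
  unfold classInner at ha
  simp only [map_one, mul_one] at ha
  rw [Nat.card_zpowers, hx] at ha
  have hr0 : (r : ℂ) ≠ 0 := by exact_mod_cast hr.ne_zero
  refine ⟨r * a, ?_⟩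
  rw [h1]
  push_cast
  rw [← ha, mul_inv_cancel_left₀ hr0]

end Aux


section Top

/-- The induction. -/
theorem top_thmX_aux
    (core : ∀ {D : Type u} [Group D] [Fintype D] {x : D} {r : ℕ}, XS x r →
      ∀ (W₁ : IrrCharacter D), ∑ i ∈ Finset.range r, W₁.1 (x ^ i) = 0 →
        ∀ {d : ℕ}, W₁.1 1 = d → 2 * d + 1 ≤ r → d = 1)
    (N : ℕ) : ∀ {D : Type u} [Group D] [Fintype D], Nat.card D = N → Odd (Nat.card D) →
      ∀ {x : D} {r : ℕ}, r.Prime → orderOf x = r →
      IsCyclic (Subgroup.centralizer ({x} : Set D)) → ∀ (W : D → ℂ), IsCharacter D W →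
      (∀ g, W g = W 1 → g = 1) → ∀ {n : ℕ}, W 1 = n → 2 * n + 1 ≤ r →
      ∑ i ∈ Finset.range r, W (x ^ i) = 0 → ∀ g, g * x * g⁻¹ ∈ Subgroup.zpowers x := by
  induction N using Nat.strong_induction_on with
  | _ N ih =>
  intro D _ _ hN hodd x r hr hx hC W hW hfaith n hn hnr hfix
  classical
  -- the induction hypothesis on proper subgroups containing `x`
  have hsub : ∀ H : Subgroup D, x ∈ H → H ≠ ⊤ → H ≤ NN x := by
    intro H hxH hH h hh
    letI : Fintype H := Fintype.ofFinite H
    have hlt : Nat.card H < N := by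
      rw [← hN]
      exact lt_of_le_of_ne (Subgroup.card_le_card_group H)
        (fun h => hH (Subgroup.eq_top_of_card_eq H h))
    let x' : H := ⟨x, hxH⟩
    have hx' : orderOf x' = r := by
      show orderOf (⟨x, hxH⟩ : H) = r
      rw [Subgroup.orderOf_mk, hx]
    have hC' : IsCyclic (Subgroup.centralizer ({x'} : Set H)) := by
      let φ : Subgroup.centralizer ({x'} : Set H) →* Subgroup.centralizer ({x} : Set D) :=
        { toFun := fun c => ⟨(c.1 : D), by
            have h1 := Subgroup.mem_centralizer_singleton_iff.1 c.2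
            rw [Subgroup.mem_centralizer_singleton_iff]
            exact congrArg Subtype.val h1⟩
          map_one' := rfl
          map_mul' := fun _ _ => rfl }
      refine isCyclic_of_injective φ ?_
      intro a b hab
      apply Subtype.ext
      apply Subtype.ext
      exact congrArg (fun c : Subgroup.centralizer ({x} : Set D) => (c : D)) hab
    have hoddH : Odd (Nat.card H) := Odd.of_dvd_nat hodd (Subgroup.card_subgroup_dvd_card H)
    have h3 := ih (Nat.card H) hlt (D := H) rfl hoddH hr hx' hC' (fun h : H => W h)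
      (isCharacter_restrict H hW)
      (fun g hg => Subtype.ext (hfaith _ (by simpa using hg)))
      (n := n) (by simpa using hn) hnr
      (by simpa [x'] using hfix) ⟨h, hh⟩
    obtain ⟨k, hk⟩ := h3
    refine ⟨k, ?_⟩
    have h4 := congrArg Subtype.val hk
    simpa [x'] using h4
  by_cases hK : Subgroup.normalClosure ({x} : Set D) = ⊤
  swap
  · intro g
    have hxK : x ∈ Subgroup.normalClosure ({x} : Set D) := Subgroup.subset_normalClosure rfl
    have hle := hsub _ hxK hK
    have hy : g * x * g⁻¹ ∈ Subgroup.normalClosure ({x} : Set D) :=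
      (inferInstance : (Subgroup.normalClosure ({x} : Set D)).Normal).conj_mem x hxK g
    exact top_mem_zpowers hr hx hC (hle hy) (by rw [top_orderOf_conj, hx])
  by_cases hxz : x ∈ Subgroup.center D
  · intro g
    rw [Subgroup.mem_center_iff.1 hxz g]
    simp
  have hti : ∀ (a : CC x) (g : D), (a : D) ∉ Subgroup.center D → g⁻¹ * a * g ∈ CC x →
      g ∈ NN x := by
    intro a g ha hg
    have hxH : x ∈ CC (a : D) := by
      rw [mem_CC]
      exact (mem_CC.1 a.2).symm
    have hne : CC (a : D) ≠ ⊤ := by
      intro htop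
      apply ha
      rw [Subgroup.mem_center_iff]
      intro h
      have : h ∈ CC (a : D) := by rw [htop]; trivial
      exact mem_CC.1 this
    have hle := hsub _ hxH hne
    have hy : g * x * g⁻¹ ∈ CC (a : D) := by
      rw [mem_CC]
      have h1 := mem_CC.1 hg
      have h2 : g * x * g⁻¹ * a = g * (x * (g⁻¹ * a * g)) * g⁻¹ := by group
      have h3 : a * (g * x * g⁻¹) = g * ((g⁻¹ * a * g) * x) * g⁻¹ := by group
      rw [h2, h3, h1]
    exact top_mem_zpowers hr hx hC (hle hy) (by rw [top_orderOf_conj, hx])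
  have hS : XS x r :=
    { prime := hr
      order := hx
      odd := hodd
      comm := by
        intro a b
        obtain ⟨g, hg⟩ := hC
        obtain ⟨s, hs⟩ := hg a
        obtain ⟨t, ht⟩ := hg b
        simp only [] at hs ht
        rw [← hs, ← ht]
        exact zpow_mul_comm g s t
      ti := hti
      xnz := hxz
      ncl := fun χ hχ h1 g => top_ncl hK χ hχ h1 g }
  -- decomposition of `W`
  obtain ⟨m, hm⟩ := exists_nat_decomp hW
  have hWval : ∀ g, W g = ∑ i : IrrCharacter D, (m i : ℂ) * i.1 g := by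
    intro g
    rw [hm, Finset.sum_apply]
    refine Finset.sum_congr rfl fun i _ => ?_
    simp
  have hchar : ∀ i : IrrCharacter D, IsCharacter D i.1 := fun i => IsIrrCharacter.isCharacter i.2
  choose a ha using fun i : IrrCharacter D => top_sum_pow_nat (hchar i) hr hx
  choose d hd using fun i : IrrCharacter D => isCharacter_one_eq (hchar i)
  have hsum0 : ∑ i : IrrCharacter D, m i * a i = 0 := by
    have h1 : ((∑ i : IrrCharacter D, m i * a i : ℕ) : ℂ) = 0 := by
      rw [← hfix]
      push_cast
      simp only [hWval]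
      rw [Finset.sum_comm]
      refine Finset.sum_congr rfl fun i _ => ?_
      rw [← Finset.mul_sum, ha]
    exact_mod_cast h1
  have hn' : ∑ i : IrrCharacter D, m i * d i = n := by
    have h1 : ((∑ i : IrrCharacter D, m i * d i : ℕ) : ℂ) = n := by
      rw [← hn, hWval]
      push_cast
      refine Finset.sum_congr rfl fun i _ => ?_
      rw [hd]
    exact_mod_cast h1
  have hlin : ∀ i : IrrCharacter D, m i ≠ 0 → d i = 1 := by
    intro i hi
    have h1 : a i = 0 := by
      have h2 := (Finset.sum_eq_zero_iff.1 hsum0) i (Finset.mem_univ i)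
      exact (mul_eq_zero.1 h2).resolve_left hi
    have h3 : ∑ j ∈ Finset.range r, i.1 (x ^ j) = 0 := by
      rw [ha, h1]
      simp
    have h4 : d i ≤ n := by
      rw [← hn']
      calc d i ≤ m i * d i := Nat.le_mul_of_pos_left _ (Nat.pos_of_ne_zero hi)
        _ ≤ ∑ j : IrrCharacter D, m j * d j :=
          Finset.single_le_sum (f := fun j => m j * d j) (fun _ _ => Nat.zero_le _)
            (Finset.mem_univ i)
    exact core hS i h3 (hd i) (by omega)
  -- all commutators are in the kernel
  have hcomm : ∀ u v : D, u * v = v * u := by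
    intro u v
    have h1 : W (u * v * u⁻¹ * v⁻¹) = W 1 := by
      rw [hWval, hWval]
      refine Finset.sum_congr rfl fun i _ => ?_
      by_cases hi : m i = 0
      · simp [hi]
      · have h2 : i.1 1 = 1 := by
          rw [hd, hlin i hi]
          simp
        obtain ⟨f, hf⟩ := exists_hom_of_degree_one (hchar i) h2
        congr 1
        rw [hf, hf]
        simp [map_mul, map_inv]
    have h3 := hfaith _ h1
    calc u * v = u * v * u⁻¹ * v⁻¹ * (v * u) := by group
      _ = v * u := by rw [h3, one_mul]
  exfalso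
  apply hxz
  rw [Subgroup.mem_center_iff]
  exact fun g => hcomm g x

/-- The small-degree theorem from its core. -/
theorem thmX_of_core
    (core : ∀ {D : Type u} [Group D] [Fintype D] {x : D} {r : ℕ}, XS x r →
      ∀ (W₁ : IrrCharacter D), ∑ i ∈ Finset.range r, W₁.1 (x ^ i) = 0 →
        ∀ {d : ℕ}, W₁.1 1 = d → 2 * d + 1 ≤ r → d = 1)
    {D : Type u} [Group D] [Fintype D] (hodd : Odd (Nat.card D)) {x : D} {r : ℕ}
    (hr : r.Prime) (hx : orderOf x = r) (hC : IsCyclic (Subgroup.centralizer ({x} : Set D)))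
    (W : D → ℂ) (hW : IsCharacter D W) (hfaith : ∀ g, W g = W 1 → g = 1) {n : ℕ}
    (hn : W 1 = n) (hnr : 2 * n + 1 ≤ r) (hfix : ∑ i ∈ Finset.range r, W (x ^ i) = 0) :
    ∀ g, g * x * g⁻¹ ∈ Subgroup.zpowers x :=
  top_thmX_aux core (Nat.card D) rfl hodd hr hx hC W hW hfaith hn hnr hfix

end Top

end Cfsg.Agent.Lib.OddX
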