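import Mathlib
import Cfsg.Agent.Lib.OddXa

/-!
# The small-degree theorem: restriction of a small irreducible character to `C`
-/

set_option autoImplicit false
set_option linter.style.haveILetI false
set_option linter.unusedVariables false
set_option linter.unusedSectionVars false

namespace Cfsg.Agent.Lib.OddX

open Cfsg Cfsg.Agent.Lib.CharBasic Cfsg.Agent.Lib.CharInd Cfsg.Agent.Lib.CharKernel
open scoped ComplexConjugate

universe u

variable {D : Type u} [Group D] [Fintype D] {x : D} {r : ℕ}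

noncomputable local instance fintypeSubL' (K : Subgroup D) : Fintype K := Fintype.ofFinite K

/-- Same restriction to the centre. -/
def SameZ (θ₁ θ₂ : CC x → ℂ) : Prop := ∀ c : CC x, (c : D) ∈ Subgroup.center D → θ₁ c = θ₂ c

section

variable (hS : XS x r)
include hS

theorem norm_ind_diff {χ₁ χ₂ : IrrCharacter (CC x)} (h1 : χ₁.1 (xC x) ≠ 1) (h2 : χ₂.1 (xC x) ≠ 1)
    (hz : SameZ χ₁.1 χ₂.1) (hn : ¬ ∃ n : NN x, act n χ₁ = χ₂) :
    classInner (indFun (CC x) (χ₁.1 - χ₂.1)) (indFun (CC x) (χ₁.1 - χ₂.1)) = 2 := by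
  classical
  have hn' : ¬ ∃ n : NN x, act n χ₂ = χ₁ := fun h => hn (or_symm hS h)
  rw [inner_ind_ind hS _ (fun c hc => by simp [hz c hc]), avgC_sub, classInner_sub_left,
    classInner_sub_right, classInner_sub_right, inner_avg_irr hS h1, inner_avg_irr hS h2,
    inner_avg_irr hS h1, inner_avg_irr hS h2, if_neg hn, if_neg hn', if_pos ⟨1, act_one' hS χ₁⟩,
    if_pos ⟨1, act_one' hS χ₂⟩]
  norm_num

theorem ind_diff {χ₁ χ₂ : IrrCharacter (CC x)} (h1 : χ₁.1 (xC x) ≠ 1) (h2 : χ₂.1 (xC x) ≠ 1)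
    (hz : SameZ χ₁.1 χ₂.1) (hn : ¬ ∃ n : NN x, act n χ₁ = χ₂) :
    ∃ a b : IrrCharacter D, a ≠ b ∧ indFun (CC x) (χ₁.1 - χ₂.1) = a.1 - b.1 := by
  have h := norm_ind_diff hS h1 h2 hz hn
  rw [indFun_sub] at h ⊢
  refine norm2_decomp (indFun_isCharacter _ (IsIrrCharacter.isCharacter χ₁.2))
    (indFun_isCharacter _ (IsIrrCharacter.isCharacter χ₂.2)) h ?_
  rw [indFun_one, indFun_one, chi_one hS, chi_one hS]

omit hS in
theorem inner_ind_sub (χ₁ χ₂ : IrrCharacter (CC x)) {ζ : D → ℂ} (hζ : IsClassFunction D ζ) :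
    classInner (indFun (CC x) (χ₁.1 - χ₂.1)) ζ = MM χ₁ ζ - MM χ₂ ζ := by
  rw [indFun_sub, classInner_sub_left, inner_ind_eq_MM _ hζ, inner_ind_eq_MM _ hζ]

omit hS in
theorem inner_sub_irr (a b ζ : IrrCharacter D) [DecidableEq (IrrCharacter D)] :
    classInner (a.1 - b.1) ζ.1 = (if a = ζ then 1 else 0) - (if b = ζ then 1 else 0) := by
  classical
  rw [classInner_sub_left, classInner_irr a.2 ζ.2, classInner_irr b.2 ζ.2]
  simp only [Subtype.val_inj]

theorem ind_diff_W (W₁ : IrrCharacter D) {ν ν' : IrrCharacter (CC x)} (h1 : ν.1 (xC x) ≠ 1)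
    (h2 : ν'.1 (xC x) ≠ 1) (hz : SameZ ν.1 ν'.1) (hν : MM ν W₁.1 ≠ 0) (hν' : MM ν' W₁.1 = 0) :
    MM ν W₁.1 = 1 ∧ ∃ b : IrrCharacter D, b ≠ W₁ ∧ indFun (CC x) (ν.1 - ν'.1) = W₁.1 - b.1 := by
  classical
  have hW := isClassFunction_of_isCharacter (IsIrrCharacter.isCharacter W₁.2)
  have hn : ¬ ∃ n : NN x, act n ν = ν' := by
    rintro ⟨n, rfl⟩
    rw [MM_act hS n ν hW] at hν'
    exact hν hν'
  obtain ⟨a, b, hab, he⟩ := ind_diff hS h1 h2 hz hn
  have h3 := inner_ind_sub ν ν' hW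
  rw [he, inner_sub_irr, hν', sub_zero] at h3
  obtain ⟨k, hk⟩ := MM_nat ν (IsIrrCharacter.isCharacter W₁.2)
  rw [hk] at h3 hν ⊢
  have hk0 : k ≠ 0 := by
    rintro rfl
    simp at hν
  by_cases ha : a = W₁
  · subst ha
    rw [if_pos rfl, if_neg hab.symm, sub_zero] at h3
    refine ⟨h3.symm, b, hab.symm, he⟩
  · exfalso
    rw [if_neg ha] at h3
    have hr : (k : ℂ).re = ((0 : ℂ) - (if b = W₁ then 1 else 0)).re := by rw [h3]
    have h4 : (1 : ℝ) ≤ k := by exact_mod_cast Nat.one_le_iff_ne_zero.2 hk0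
    by_cases hb : b = W₁
    · rw [if_pos hb] at hr
      simp at hr
      linarith
    · rw [if_neg hb] at hr
      simp at hr
      exact hk0 hr

theorem exists_kappa : ∃ f : CC x →* ℂˣ, (∀ c : CC x, (c : D) ∈ Subgroup.center D → f c = 1) ∧
    f (xC x) ≠ 1 := by
  classical
  letI : CommGroup (CC x) := { (inferInstance : Group (CC x)) with mul_comm := hS.comm }
  let Z' : Subgroup (CC x) := (Subgroup.center D).subgroupOf (CC x)
  haveI : Z'.Normal := inferInstance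
  let A := CC x ⧸ Z'
  have hne : (QuotientGroup.mk (xC x) : A) ≠ 1 := by
    intro h
    rw [QuotientGroup.eq_one_iff] at h
    exact hS.xnz h
  obtain ⟨φ, hφ⟩ := CommGroup.exists_apply_ne_one_of_hasEnoughRootsOfUnity A ℂ hne
  refine ⟨φ.comp (QuotientGroup.mk' Z'), ?_, hφ⟩
  intro c hc
  have : (QuotientGroup.mk c : A) = 1 := (QuotientGroup.eq_one_iff c).2 hc
  show φ (QuotientGroup.mk c : A) = 1
  rw [this, map_one]

/-- The central behaviour of the constituents. -/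
theorem central_of_MM (W₁ : IrrCharacter D) {d : ℕ} (hd : W₁.1 1 = d) {χ : IrrCharacter (CC x)}
    (hχ : MM χ W₁.1 ≠ 0) (c : CC x) (hc : (c : D) ∈ Subgroup.center D) :
    (d : ℂ) * χ.1 c = W₁.1 c := by
  classical
  have hcm : ∀ g : D, (c : D) * g = g * c := fun g => (Subgroup.mem_center_iff.1 hc g).symm
  have hcm1 := Cfsg.Agent.Lib.CharCentral.central_mul W₁.2 hcm
  rw [hd] at hcm1
  set S := ∑ b : CC x, χ.1 b * conj (W₁.1 b) with hSd
  have hS0 : S ≠ 0 := by
    intro h0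
    apply hχ
    have : MM χ W₁.1 = (Nat.card (CC x) : ℂ)⁻¹ * S := rfl
    rw [this, h0, mul_zero]
  have h1 : S = ∑ b : CC x, χ.1 (c * b) * conj (W₁.1 ((c * b : CC x) : D)) :=
    (Fintype.sum_equiv (Equiv.mulLeft c) _ _ fun b => rfl).symm
  have h2 : (d : ℂ) * S = χ.1 c * conj (W₁.1 c) * S := by
    calc (d : ℂ) * S = (d : ℂ) * ∑ b : CC x, χ.1 (c * b) * conj (W₁.1 ((c * b : CC x) : D)) := by
          rw [← h1]
      _ = ∑ b : CC x, χ.1 c * conj (W₁.1 c) * (χ.1 b * conj (W₁.1 b)) := by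
          rw [Finset.mul_sum]
          refine Finset.sum_congr rfl fun b _ => ?_
          rw [chi_mul hS]
          have h3 := congrArg conj (hcm1 b)
          simp only [map_mul, map_natCast] at h3
          push_cast
          calc (d : ℂ) * (χ.1 c * χ.1 b * conj (W₁.1 ((c : D) * b)))
              = χ.1 c * χ.1 b * ((d : ℂ) * conj (W₁.1 ((c : D) * b))) := by ring
            _ = _ := by rw [h3]; ring
      _ = χ.1 c * conj (W₁.1 c) * S := by rw [hSd, Finset.mul_sum]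
  have h4 : (d : ℂ) = χ.1 c * conj (W₁.1 c) := mul_right_cancel₀ hS0 h2
  have h5 := congrArg conj h4
  simp only [map_mul, map_natCast, Complex.conj_conj] at h5
  rw [h5]
  calc conj (χ.1 c) * W₁.1 c * χ.1 c = (χ.1 c * conj (χ.1 c)) * W₁.1 c := by ring
    _ = W₁.1 c := by rw [chi_conj hS, one_mul]

theorem step4 (W₁ : IrrCharacter D) (hY : ∀ χ : IrrCharacter (CC x), MM χ W₁.1 ≠ 0 → χ.1 (xC x) ≠ 1)
    {d : ℕ} (hd : W₁.1 1 = d) (hdr : 2 * d + 1 ≤ r) {ν₀ : IrrCharacter (CC x)}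
    (hν₀ : MM ν₀ W₁.1 ≠ 0) :
    (fun c : CC x => W₁.1 c) = avgC x ν₀.1 ∧ d = ee x ∧
      ∃ ν' : IrrCharacter (CC x), ν'.1 (xC x) ≠ 1 ∧ SameZ ν'.1 ν₀.1 ∧
        (∀ n : NN x, ν'.1 (xC x) ≠ ν₀.1 (conjC n (xC x))) ∧
        ∃ χ' : IrrCharacter D, indFun (CC x) (ν₀.1 - ν'.1) = W₁.1 - χ'.1 ∧
          (fun c : CC x => χ'.1 c) = avgC x ν'.1 := by
  classical
  have hWch := IsIrrCharacter.isCharacter W₁.2
  have hWcl := isClassFunction_of_isCharacter hWch
  choose m hm using fun χ : IrrCharacter (CC x) => MM_nat χ hWch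
  have hres : (fun c : CC x => W₁.1 c) = ∑ χ : IrrCharacter (CC x), (m χ : ℂ) • χ.1 := by
    refine (classFunction_eq_sum (class_C hS (fun c : CC x => W₁.1 c))).trans
      (Finset.sum_congr rfl fun χ _ => ?_)
    congr 1
    rw [← classInner_conj_symm]
    show conj (MM χ W₁.1) = _
    rw [hm]
    simp
  have hsumd : ∑ χ, m χ = d := by
    have h := congrFun hres 1
    simp only [Finset.sum_apply, Pi.smul_apply, smul_eq_mul, chi_one hS, mul_one] at h
    rw [Subgroup.coe_one, hd] at h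
    exact_mod_cast h.symm
  have hd0 : d ≠ 0 := by
    have h1 := one_eq_charDegree hWch
    have h2 := charDegree_pos W₁.2
    rw [hd] at h1
    have : d = charDegree W₁.1 := by exact_mod_cast h1
    omega
  set Sup := Finset.univ.filter (fun χ => m χ ≠ 0) with hSup
  have memSup : ∀ χ, χ ∈ Sup ↔ MM χ W₁.1 ≠ 0 := by
    intro χ
    simp only [hSup, Finset.mem_filter, Finset.mem_univ, true_and, hm]
    exact_mod_cast Iff.rfl
  have hSupcard : Sup.card ≤ d := by
    rw [← hsumd, Finset.card_eq_sum_ones]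
    calc ∑ χ ∈ Sup, 1 ≤ ∑ χ ∈ Sup, m χ := Finset.sum_le_sum fun χ hχ =>
          Nat.one_le_iff_ne_zero.2 (Finset.mem_filter.1 hχ).2
      _ ≤ ∑ χ, m χ := Finset.sum_le_sum_of_subset (Finset.subset_univ _)
  have hsame : ∀ χ₁ χ₂, χ₁ ∈ Sup → χ₂ ∈ Sup → SameZ χ₁.1 χ₂.1 := by
    intro χ₁ χ₂ h1 h2 c hc
    have h3 := central_of_MM hS W₁ hd ((memSup _).1 h1) c hc
    have h4 := central_of_MM hS W₁ hd ((memSup _).1 h2) c hc
    have hd' : (d : ℂ) ≠ 0 := by exact_mod_cast hd0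
    exact mul_left_cancel₀ hd' (h3.trans h4.symm)
  have hν₀S : ν₀ ∈ Sup := (memSup _).2 hν₀
  have hpr := hS.prime
  haveI : Fact r.Prime := ⟨hpr⟩
  obtain ⟨f, hf1, hf2⟩ := exists_kappa hS
  obtain ⟨h₀, hh₀⟩ := exists_f hS ν₀
  let T : ℕ → IrrCharacter (CC x) := fun j =>
    ⟨fun c => ((h₀ * f ^ j) c : ℂˣ), isIrrCharacter_of_hom _⟩
  have hT_val : ∀ j c, (T j).1 c = ν₀.1 c * (f c : ℂ) ^ j := by
    intro j c
    show (((h₀ * f ^ j) c : ℂˣ) : ℂ) = _
    rw [hh₀]
    simp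
  have hT_z : ∀ j, SameZ (T j).1 ν₀.1 := by
    intro j c hc
    rw [hT_val, hf1 c hc]
    simp
  have hfr : f (xC x) ^ r = 1 := by rw [← map_pow, xC_pow_r hS, map_one]
  have hord : orderOf (f (xC x)) = r := orderOf_eq_prime hfr hf2
  have hT_inj : ∀ i j, i < r → j < r → (T i).1 (xC x) = (T j).1 (xC x) → i = j := by
    intro i j hi hj h
    rw [hT_val, hT_val] at h
    have h1 := mul_left_cancel₀ (chi_ne_zero hS ν₀ (xC x)) h
    have h2 : f (xC x) ^ i = f (xC x) ^ j := Units.ext (by simpa using h1)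
    exact pow_injOn_Iio_orderOf (by simpa [hord] using hi) (by simpa [hord] using hj) h2
  set Tset := (Finset.range r).filter (fun j => (T j).1 (xC x) ≠ 1) with hTset
  have hTcard : r - 1 ≤ Tset.card := by
    set Bad := (Finset.range r).filter (fun j => (T j).1 (xC x) = 1) with hBad
    have hB : Bad.card ≤ 1 := by
      rw [Finset.card_le_one]
      intro a ha b hb
      have ha' := Finset.mem_filter.1 ha
      have hb' := Finset.mem_filter.1 hb
      exact hT_inj a b (Finset.mem_range.1 ha'.1) (Finset.mem_range.1 hb'.1) (ha'.2.trans hb'.2.symm)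
    have hU : Finset.range r ⊆ Tset ∪ Bad := by
      intro j hj
      by_cases h : (T j).1 (xC x) = 1
      · exact Finset.mem_union_right _ (Finset.mem_filter.2 ⟨hj, h⟩)
      · exact Finset.mem_union_left _ (Finset.mem_filter.2 ⟨hj, h⟩)
    have h1 := Finset.card_le_card hU
    have h2 := Finset.card_union_le Tset Bad
    rw [Finset.card_range] at h1
    omega
  set T' := Tset.image T with hT'
  have hT'card : T'.card = Tset.card := by
    apply Finset.card_image_of_injOn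
    intro a ha b hb hab
    have ha' := Finset.mem_filter.1 ha
    have hb' := Finset.mem_filter.1 hb
    exact hT_inj a b (Finset.mem_range.1 ha'.1) (Finset.mem_range.1 hb'.1)
      (congrArg (fun ν : IrrCharacter (CC x) => ν.1 (xC x)) hab)
  have hT'x : ∀ ν ∈ T', ν.1 (xC x) ≠ 1 := by
    intro ν hν
    obtain ⟨j, hj, rfl⟩ := Finset.mem_image.1 hν
    exact (Finset.mem_filter.1 hj).2
  have hT'z : ∀ ν ∈ T', SameZ ν.1 ν₀.1 := by
    intro ν hν
    obtain ⟨j, hj, rfl⟩ := Finset.mem_image.1 hν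
    exact hT_z j
  set TmS := T' \ Sup with hTmS
  have hTmS_card : d ≤ TmS.card := by
    have h1 := Finset.le_card_sdiff Sup T'
    rw [← hTmS] at h1
    omega
  have hclaim : ∀ ν ∈ Sup, ∀ ν' ∈ TmS, MM ν W₁.1 = 1 ∧
      ∃ b : IrrCharacter D, b ≠ W₁ ∧ indFun (CC x) (ν.1 - ν'.1) = W₁.1 - b.1 := by
    intro ν hν ν' hν'
    have h1 := Finset.mem_sdiff.1 hν'
    have h2 : MM ν' W₁.1 = 0 := by
      by_contra h
      exact h1.2 ((memSup _).2 h)
    refine ind_diff_W hS W₁ (hY _ ((memSup _).1 hν)) (hT'x _ h1.1) ?_ ((memSup _).1 hν) h2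
    intro c hc
    rw [hsame ν ν₀ hν hν₀S c hc, hT'z ν' h1.1 c hc]
  have hTne : TmS.Nonempty := by
    rw [← Finset.card_pos]
    omega
  have hOrbSup : ∀ ν ∈ Sup, Orb ν ⊆ Sup := by
    intro ν hν χ hχ
    obtain ⟨n, rfl⟩ := mem_Orb.1 hχ
    rw [memSup, MM_act hS n ν hWcl]
    exact (memSup _).1 hν
  have hm1 : ∀ ν ∈ Sup, m ν = 1 := by
    intro ν hν
    obtain ⟨ν', hν'⟩ := hTne
    have h := (hclaim ν hν ν' hν').1
    rw [hm] at h
    exact_mod_cast h
  have hSupOrb : Sup = Orb ν₀ := by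
    by_contra hne
    have hex : ∃ ν₂ ∈ Sup, ν₂ ∉ Orb ν₀ := by
      by_contra hall
      push Not at hall
      exact hne (Finset.Subset.antisymm hall (hOrbSup ν₀ hν₀S))
    obtain ⟨ν₂, hν₂, hν₂n⟩ := hex
    have hdisj : Disjoint (Orb ν₀) (Orb ν₂) := by
      rw [Finset.disjoint_left]
      intro χ h1 h2
      exact hν₂n (mem_Orb.2 (or_trans hS (mem_Orb.1 h1) (or_symm hS (mem_Orb.1 h2))))
    have hc0 := card_orb hS (hY ν₀ hν₀)
    have hc2 := card_orb hS (hY ν₂ ((memSup _).1 hν₂))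
    have h2e : 2 * ee x ≤ Sup.card := by
      have h1 := Finset.card_le_card
        (Finset.union_subset (hOrbSup ν₀ hν₀S) (hOrbSup ν₂ hν₂))
      rw [Finset.card_union_of_disjoint hdisj, hc0, hc2] at h1
      omega
    have hepos := ee_pos (x := x)
    obtain ⟨ν'₁, hν'₁⟩ := hTne
    have hν'₁x := hT'x _ (Finset.mem_sdiff.1 hν'₁).1
    have hlt : (Orb ν'₁).card < TmS.card := by
      rw [card_orb hS hν'₁x]
      omega
    obtain ⟨ν'₂, hν'₂, hν'₂n⟩ := Finset.exists_mem_notMem_of_card_lt_card hlt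
    obtain ⟨-, b₁₁, -, h11⟩ := hclaim ν₀ hν₀S ν'₁ hν'₁
    obtain ⟨-, b₁₂, -, h12⟩ := hclaim ν₀ hν₀S ν'₂ hν'₂
    obtain ⟨-, b₂₁, -, h21⟩ := hclaim ν₂ hν₂ ν'₁ hν'₁
    obtain ⟨-, b₂₂, -, h22⟩ := hclaim ν₂ hν₂ ν'₂ hν'₂
    have hrel : b₁₁.1 + b₂₂.1 = b₁₂.1 + b₂₁.1 := by
      have h5 : indFun (CC x) (ν₀.1 - ν'₁.1) + indFun (CC x) (ν₂.1 - ν'₂.1) =
          indFun (CC x) (ν₀.1 - ν'₂.1) + indFun (CC x) (ν₂.1 - ν'₁.1) := by
        simp only [indFun_sub]
        abel
      rw [h11, h12, h21, h22] at h5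
      funext g
      have := congrFun h5 g
      simp only [Pi.add_apply, Pi.sub_apply] at this ⊢
      linear_combination -this
    have hne12 : b₁₁ ≠ b₁₂ := by
      intro h
      have h5 : indFun (CC x) (ν'₁.1 - ν'₂.1) = 0 := by
        have h6 : indFun (CC x) (ν₀.1 - ν'₁.1) = indFun (CC x) (ν₀.1 - ν'₂.1) := by
          rw [h11, h12, h]
        simp only [indFun_sub] at h6 ⊢
        have h7 : indFun (CC x) ν'₁.1 = indFun (CC x) ν'₂.1 := sub_right_injective h6
        rw [h7, sub_self]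
      have h6 := norm_ind_diff hS hν'₁x (hT'x _ (Finset.mem_sdiff.1 hν'₂).1)
        (fun c hc => by rw [hT'z _ (Finset.mem_sdiff.1 hν'₁).1 c hc, hT'z _ (Finset.mem_sdiff.1 hν'₂).1 c hc])
        (fun hh => hν'₂n (mem_Orb.2 hh))
      rw [h5, classInner_zero_left] at h6
      norm_num at h6
    have hne21 : b₁₁ ≠ b₂₁ := by
      intro h
      have h5 : indFun (CC x) (ν₀.1 - ν₂.1) = 0 := by
        have h6 : indFun (CC x) (ν₀.1 - ν'₁.1) = indFun (CC x) (ν₂.1 - ν'₁.1) := by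
          rw [h11, h21, h]
        simp only [indFun_sub] at h6 ⊢
        have h7 : indFun (CC x) ν₀.1 = indFun (CC x) ν₂.1 := sub_left_injective h6
        rw [h7, sub_self]
      have h6 := norm_ind_diff hS (hY ν₀ hν₀) (hY ν₂ ((memSup _).1 hν₂)) (hsame _ _ hν₀S hν₂)
        (fun hh => hν₂n (mem_Orb.2 hh))
      rw [h5, classInner_zero_left] at h6
      norm_num at h6
    have h7 := congrArg (fun φ => classInner φ b₁₁.1) hrel
    simp only [classInner_add_left] at h7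
    rw [classInner_irr_self b₁₁.2, classInner_irr_ne b₁₂.2 b₁₁.2
      (fun hh => hne12 (Subtype.ext hh).symm), classInner_irr_ne b₂₁.2 b₁₁.2
      (fun hh => hne21 (Subtype.ext hh).symm), classInner_irr b₂₂.2 b₁₁.2] at h7
    split_ifs at h7 <;> norm_num at h7
  have hresavg : (fun c : CC x => W₁.1 c) = avgC x ν₀.1 := by
    rw [hres, avg_eq_sum_orb hS (hY ν₀ hν₀), ← hSupOrb]
    rw [← Finset.sum_subset (Finset.subset_univ Sup)]
    · refine Finset.sum_congr rfl fun χ hχ => ?_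
      rw [hm1 χ hχ]
      simp
    · intro χ _ hχ
      have : m χ = 0 := by
        by_contra h
        exact hχ (Finset.mem_filter.2 ⟨Finset.mem_univ _, h⟩)
      rw [this]
      simp
  have hde : d = ee x := by
    have h := congrFun hresavg 1
    simp only [Subgroup.coe_one, hd] at h
    rw [avg_one hS] at h
    exact_mod_cast h
  have hepos := ee_pos (x := x)
  let Val := (Orb ν₀).image (fun χ => χ.1 (xC x))
  have hValcard : Val.card ≤ ee x :=
    Finset.card_image_le.trans (card_orb hS (hY ν₀ hν₀)).le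
  have hexj : ∃ j ∈ Tset, (T j).1 (xC x) ∉ Val := by
    by_contra hall
    push Not at hall
    have h1 : Tset.card ≤ Val.card := by
      apply Finset.card_le_card_of_injOn (fun j => (T j).1 (xC x)) hall
      intro a ha b hb hab
      have ha' := Finset.mem_filter.1 ha
      have hb' := Finset.mem_filter.1 hb
      exact hT_inj a b (Finset.mem_range.1 ha'.1) (Finset.mem_range.1 hb'.1) hab
    omega
  obtain ⟨j, hj, hjv⟩ := hexj
  refine ⟨hresavg, hde, T j, (Finset.mem_filter.1 hj).2, hT_z j, ?_, ?_⟩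
  · intro n h
    apply hjv
    rw [h]
    exact Finset.mem_image.2 ⟨act n ν₀, mem_Orb.2 ⟨n, rfl⟩, rfl⟩
  · have hz0 : MM (T j) W₁.1 = 0 := by
      by_contra h
      have h1 : T j ∈ Sup := (memSup _).2 h
      rw [hSupOrb] at h1
      exact hjv (Finset.mem_image.2 ⟨T j, h1, rfl⟩)
    have hzs : SameZ ν₀.1 (T j).1 := fun c hc => (hT_z j c hc).symm
    obtain ⟨-, b, -, hb⟩ := ind_diff_W hS W₁ (hY ν₀ hν₀) (Finset.mem_filter.1 hj).2 hzs hν₀ hz0
    refine ⟨b, hb, ?_⟩
    funext c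
    have h1 := ind_eq_avg hS (ν₀.1 - (T j).1) (fun c hc => by simp [hzs c hc]) c
    rw [hb, avgC_sub] at h1
    have h2' : W₁.1 c = avgC x ν₀.1 c := congrFun hresavg c
    simp only [Pi.sub_apply] at h1
    rw [h2'] at h1
    exact sub_right_inj.1 h1

end

end Cfsg.Agent.Lib.OddX
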