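import Mathlib
import Cfsg.Agent.Lib.OddXb
import Cfsg.Agent.Lib.RealChars

/-!
# The small-degree theorem: products and the family over the centre
-/

set_option autoImplicit false
set_option linter.style.haveILetI false
set_option linter.unusedVariables false
set_option linter.unusedSectionVars false

namespace Cfsg.Agent.Lib.OddX

open Cfsg Cfsg.Agent.Lib.CharBasic Cfsg.Agent.Lib.CharInd Cfsg.Agent.Lib.CharKernel
open scoped ComplexConjugate

universe u

variable {D : Type u} [Group D] [Fintype D] {x : D} {r : ℕ}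

noncomputable local instance fintypeSubL'' (K : Subgroup D) : Fintype K := Fintype.ofFinite K

/-- The trivial character of `C`. -/
noncomputable def oneC (x : D) : IrrCharacter (CC x) := ⟨fun _ => 1, isIrrCharacter_one⟩

section

variable (hS : XS x r)
include hS

theorem exists_mulbar (χ₁ χ₀ : IrrCharacter (CC x)) :
    ∃ κ : IrrCharacter (CC x), ∀ c, κ.1 c = χ₁.1 c * conj (χ₀.1 c) := by
  obtain ⟨f₁, h₁⟩ := exists_f hS χ₁
  obtain ⟨f₀, h₀⟩ := exists_f hS χ₀
  refine ⟨⟨fun c => ((f₁ * f₀⁻¹) c : ℂˣ), isIrrCharacter_of_hom _⟩, fun c => ?_⟩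
  show (((f₁ * f₀⁻¹) c : ℂˣ) : ℂ) = _
  have h := chi_conj hS χ₀ c
  have h2 : conj (χ₀.1 c) = ((f₀ c : ℂˣ) : ℂ)⁻¹ := by
    rw [h₀] at h ⊢
    exact eq_inv_of_mul_eq_one_right h
  rw [h2, h₁]
  simp [MonoidHom.mul_apply]

/-- The product `χ₁ · conj χ₀`. -/
noncomputable def mulbar (χ₁ χ₀ : IrrCharacter (CC x)) : IrrCharacter (CC x) :=
  Classical.choose (exists_mulbar hS χ₁ χ₀)

theorem mulbar_apply (χ₁ χ₀ : IrrCharacter (CC x)) (c : CC x) :
    (mulbar hS χ₁ χ₀).1 c = χ₁.1 c * conj (χ₀.1 c) :=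
  Classical.choose_spec (exists_mulbar hS χ₁ χ₀) c

/-- The characters trivial on the centre and nontrivial on `x`. -/
noncomputable def N1 (x : D) : Finset (IrrCharacter (CC x)) := by
  classical
  exact Finset.univ.filter
    (fun κ => (∀ c : CC x, (c : D) ∈ Subgroup.center D → κ.1 c = 1) ∧ κ.1 (xC x) ≠ 1)

omit hS in
theorem mem_N1 {κ : IrrCharacter (CC x)} :
    κ ∈ N1 x ↔ (∀ c : CC x, (c : D) ∈ Subgroup.center D → κ.1 c = 1) ∧ κ.1 (xC x) ≠ 1 := by
  classical
  simp only [N1, Finset.mem_filter, Finset.mem_univ, true_and]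

omit hS in
theorem oneC_not_mem : oneC x ∉ N1 x := by
  rw [mem_N1]
  rintro ⟨-, h⟩
  exact h rfl

omit hS in
theorem orb_central {μ χ : IrrCharacter (CC x)} (h : χ ∈ Orb μ) (c : CC x)
    (hc : (c : D) ∈ Subgroup.center D) : χ.1 c = μ.1 c := by
  obtain ⟨n, rfl⟩ := mem_Orb.1 h
  rw [act_apply]
  have h2 : conjC n c = c := by
    ext
    rw [conjC_coe]
    have := (Subgroup.mem_center_iff.1 hc) (n : D)
    rw [mul_assoc, ← this]
    group
  rw [h2]

theorem mulbar_z {μ₁ μ₂ χ₁ χ₀ : IrrCharacter (CC x)} (hz : SameZ μ₁.1 μ₂.1) (h1 : χ₁ ∈ Orb μ₁)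
    (h0 : χ₀ ∈ Orb μ₂) (c : CC x) (hc : (c : D) ∈ Subgroup.center D) :
    (mulbar hS χ₁ χ₀).1 c = 1 := by
  rw [mulbar_apply, orb_central h1 c hc, orb_central h0 c hc, hz c hc, chi_conj hS]

theorem mulbar_mem_N1 {μ₁ μ₂ χ₁ χ₀ : IrrCharacter (CC x)} (hz : SameZ μ₁.1 μ₂.1) (h1 : χ₁ ∈ Orb μ₁)
    (h0 : χ₀ ∈ Orb μ₂) (hne : χ₁.1 (xC x) ≠ χ₀.1 (xC x)) : mulbar hS χ₁ χ₀ ∈ N1 x := by
  rw [mem_N1]
  refine ⟨mulbar_z hS hz h1 h0, ?_⟩
  rw [mulbar_apply]
  intro h
  apply hne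
  calc χ₁.1 (xC x) = χ₁.1 (xC x) * (χ₀.1 (xC x) * conj (χ₀.1 (xC x))) := by rw [chi_conj hS, mul_one]
    _ = χ₀.1 (xC x) * (χ₁.1 (xC x) * conj (χ₀.1 (xC x))) := by ring
    _ = χ₀.1 (xC x) := by rw [h, mul_one]

theorem res_prod {A B : D → ℂ} {μ₁ μ₂ : IrrCharacter (CC x)} (h1 : μ₁.1 (xC x) ≠ 1)
    (h2 : μ₂.1 (xC x) ≠ 1) (hA : (fun c : CC x => A c) = avgC x μ₁.1)
    (hB : (fun c : CC x => B c) = avgC x μ₂.1) :
    (fun c : CC x => A c * conj (B c)) =
      ∑ χ₁ ∈ Orb μ₁, ∑ χ₀ ∈ Orb μ₂, (mulbar hS χ₁ χ₀).1 := by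
  funext c
  have hAc : A c = ∑ χ₁ ∈ Orb μ₁, χ₁.1 c := by
    have := congrFun (hA.trans (avg_eq_sum_orb hS h1)) c
    simpa [Finset.sum_apply] using this
  have hBc : B c = ∑ χ₀ ∈ Orb μ₂, χ₀.1 c := by
    have := congrFun (hB.trans (avg_eq_sum_orb hS h2)) c
    simpa [Finset.sum_apply] using this
  rw [hAc, hBc, map_sum, Finset.sum_mul_sum, Finset.sum_apply]
  refine Finset.sum_congr rfl fun χ₁ _ => ?_
  rw [Finset.sum_apply]
  refine Finset.sum_congr rfl fun χ₀ _ => ?_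
  rw [mulbar_apply]

theorem MM_prod_ne {A B : D → ℂ} {μ₁ μ₂ : IrrCharacter (CC x)} (h1 : μ₁.1 (xC x) ≠ 1)
    (h2 : μ₂.1 (xC x) ≠ 1) (hA : (fun c : CC x => A c) = avgC x μ₁.1)
    (hB : (fun c : CC x => B c) = avgC x μ₂.1) {κ : IrrCharacter (CC x)}
    (hκ : MM κ (fun g => A g * conj (B g)) ≠ 0) :
    ∃ χ₁ ∈ Orb μ₁, ∃ χ₀ ∈ Orb μ₂, κ = mulbar hS χ₁ χ₀ := by
  by_contra hcon
  push Not at hcon
  apply hκ
  show classInner κ.1 (fun c : CC x => A c * conj (B c)) = 0
  rw [res_prod hS h1 h2 hA hB, classInner_sum_right]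
  refine Finset.sum_eq_zero fun χ₁ h₁ => ?_
  rw [classInner_sum_right]
  refine Finset.sum_eq_zero fun χ₀ h₀ => ?_
  exact classInner_irr_ne κ.2 (mulbar hS χ₁ χ₀).2 (fun hh => hcon χ₁ h₁ χ₀ h₀ (Subtype.ext hh))

omit hS in
theorem MM_constituent {Q : D → ℂ} (hQ : IsCharacter D Q) (ξ : IrrCharacter D)
    (hne : classInner Q ξ.1 ≠ 0) (κ : IrrCharacter (CC x)) (h : MM κ ξ.1 ≠ 0) : MM κ Q ≠ 0 := by
  classical
  obtain ⟨m, hm⟩ := exists_nat_decomp hQ
  choose k hk using fun i : IrrCharacter D => MM_nat κ (IsIrrCharacter.isCharacter i.2)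
  have h1 : MM κ Q = ((∑ i, m i * k i : ℕ) : ℂ) := by
    have h2 : (fun c : CC x => Q c) = ∑ i, (m i : ℂ) • (fun c : CC x => i.1 c) := by
      funext c
      rw [hm]
      simp [Finset.sum_apply]
    show classInner κ.1 (fun c : CC x => Q c) = _
    rw [h2, classInner_sum_right]
    push_cast
    refine Finset.sum_congr rfl fun i _ => ?_
    rw [classInner_smul_right]
    have := hk i
    unfold MM at this
    rw [this]
    simp
  rw [h1]
  have hmξ : m ξ ≠ 0 := by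
    intro h0
    apply hne
    rw [hm, classInner_nat_decomp _ _ ξ.2, h0]
    simp
  have hkξ : k ξ ≠ 0 := by
    intro h0
    apply h
    rw [hk, h0]
    simp
  have hpos : 0 < ∑ i, m i * k i :=
    Finset.sum_pos' (fun i _ => Nat.zero_le _) ⟨ξ, Finset.mem_univ _, Nat.mul_pos
      (Nat.pos_of_ne_zero hmξ) (Nat.pos_of_ne_zero hkξ)⟩
  exact_mod_cast hpos.ne'

theorem res_decomp {ζ : D → ℂ} (hζ : IsCharacter D ζ) :
    ∃ M : IrrCharacter (CC x) → ℕ, (∀ χ, MM χ ζ = M χ) ∧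
      (fun c : CC x => ζ c) = ∑ χ : IrrCharacter (CC x), (M χ : ℂ) • χ.1 ∧
      ζ 1 = ((∑ χ, M χ : ℕ) : ℂ) := by
  classical
  choose M hM using fun χ : IrrCharacter (CC x) => MM_nat χ hζ
  have hres : (fun c : CC x => ζ c) = ∑ χ : IrrCharacter (CC x), (M χ : ℂ) • χ.1 := by
    refine (classFunction_eq_sum (class_C hS (fun c : CC x => ζ c))).trans
      (Finset.sum_congr rfl fun χ _ => ?_)
    congr 1
    rw [← classInner_conj_symm]
    show conj (MM χ ζ) = _
    rw [hM]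
    simp
  refine ⟨M, hM, hres, ?_⟩
  have h := congrFun hres 1
  simp only [Finset.sum_apply, Pi.smul_apply, smul_eq_mul, chi_one hS, mul_one] at h
  rw [Subgroup.coe_one] at h
  rw [h]
  push_cast
  rfl

theorem hY_of_fix {W : D → ℂ} (hW : IsCharacter D W)
    (hfix : ∑ i ∈ Finset.range r, W (x ^ i) = 0) (χ : IrrCharacter (CC x)) (h : MM χ W ≠ 0) :
    χ.1 (xC x) ≠ 1 := by
  classical
  obtain ⟨M, hM, hres, -⟩ := res_decomp hS hW
  intro h1
  have hsum : ∀ χ' : IrrCharacter (CC x), ∑ i ∈ Finset.range r, χ'.1 ((xC x) ^ i) =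
      if χ'.1 (xC x) = 1 then (r : ℂ) else 0 := by
    intro χ'
    simp only [chi_pow hS]
    split_ifs with hh
    · simp [hh]
    · have h2 := chi_x_pow_r hS χ'
      have h3 := mul_geom_sum (χ'.1 (xC x)) r
      rw [h2, sub_self] at h3
      exact (mul_eq_zero.1 h3).resolve_left (sub_ne_zero.2 hh)
  have h2 : ∑ i ∈ Finset.range r, W (x ^ i) =
      ∑ χ' : IrrCharacter (CC x), (M χ' : ℂ) * (if χ'.1 (xC x) = 1 then (r : ℂ) else 0) := by
    have h3 : ∀ i : ℕ, W (x ^ i) = ∑ χ' : IrrCharacter (CC x), (M χ' : ℂ) * χ'.1 ((xC x) ^ i) := by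
      intro i
      have := congrFun hres ((xC x) ^ i)
      simpa [Finset.sum_apply] using this
    simp only [h3]
    rw [Finset.sum_comm]
    refine Finset.sum_congr rfl fun χ' _ => ?_
    rw [← Finset.mul_sum, hsum]
  rw [h2] at hfix
  have hr0 : r ≠ 0 := hS.prime.ne_zero
  have h4 : ((∑ χ' : IrrCharacter (CC x), (M χ' * (if χ'.1 (xC x) = 1 then r else 0)) : ℕ) : ℂ) = 0 := by
    rw [← hfix]
    push_cast
    refine Finset.sum_congr rfl fun χ' _ => ?_
    split_ifs <;> simp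
  have h5 : ∑ χ' : IrrCharacter (CC x), (M χ' * (if χ'.1 (xC x) = 1 then r else 0)) = 0 := by
    exact_mod_cast h4
  have h6 := (Finset.sum_eq_zero_iff.1 h5) χ (Finset.mem_univ _)
  rw [if_pos h1] at h6
  have h7 : M χ = 0 := (mul_eq_zero.1 h6).resolve_right hr0
  apply h
  rw [hM, h7]
  simp

theorem r_odd : Odd r := by
  have h1 : r ∣ Nat.card D := by
    rw [← hS.order]
    exact orderOf_dvd_natCard x
  exact Odd.of_dvd_nat hS.odd h1

theorem N1_even : Even (N1 x).card := by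
  classical
  have hr3 := r_odd hS
  let ι : IrrCharacter (CC x) → IrrCharacter (CC x) := fun κ => mulbar hS (oneC x) κ
  have hι : ∀ κ c, (ι κ).1 c = conj (κ.1 c) := by
    intro κ c
    show (mulbar hS (oneC x) κ).1 c = _
    rw [mulbar_apply]
    show (1 : ℂ) * _ = _
    rw [one_mul]
  have h1 : ∑ κ ∈ N1 x, (1 : ZMod 2) = 0 := by
    apply Finset.sum_involution (fun κ _ => ι κ)
    · intro κ _
      decide
    · intro κ hκ _ h2
      obtain ⟨-, h3⟩ := mem_N1.1 hκ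
      have h4 : κ.1 (xC x) = conj (κ.1 (xC x)) := by
        rw [← hι, h2]
      have h5 : κ.1 (xC x) * κ.1 (xC x) = 1 := by
        nth_rewrite 2 [h4]
        exact chi_conj hS κ _
      have h6 := chi_x_pow_r hS κ
      obtain ⟨k, hk⟩ := hr3
      apply h3
      rw [hk, pow_succ, pow_mul, sq, h5, one_pow, one_mul] at h6
      exact h6
    · intro κ hκ
      obtain ⟨h2, h3⟩ := mem_N1.1 hκ
      rw [mem_N1]
      constructor
      · intro c hc
        rw [hι, h2 c hc, map_one]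
      · rw [hι]
        intro h4
        apply h3
        have := congrArg conj h4
        simpa using this
    · intro κ _
      apply Subtype.ext
      funext c
      rw [hι, hι, Complex.conj_conj]
  rw [Finset.sum_const, nsmul_eq_mul, mul_one] at h1
  exact (ZMod.natCast_eq_zero_iff_even).1 h1

theorem N1_card_ge : r - 1 ≤ (N1 x).card := by
  classical
  obtain ⟨f, hf1, hf2⟩ := exists_kappa hS
  haveI : Fact r.Prime := ⟨hS.prime⟩
  have hfr : f (xC x) ^ r = 1 := by rw [← map_pow, xC_pow_r hS, map_one]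
  have hord : orderOf (f (xC x)) = r := orderOf_eq_prime hfr hf2
  let T : ℕ → IrrCharacter (CC x) := fun j =>
    ⟨fun c => ((f ^ j) c : ℂˣ), isIrrCharacter_of_hom _⟩
  have hTv : ∀ j c, (T j).1 c = ((f c : ℂˣ) : ℂ) ^ j := by
    intro j c
    show (((f ^ j) c : ℂˣ) : ℂ) = _
    simp
  have h1 : (Finset.Ico 1 r).card ≤ (N1 x).card := by
    apply Finset.card_le_card_of_injOn T
    · intro j hj
      have hj' := Finset.mem_Ico.1 hj
      rw [Finset.mem_coe, mem_N1]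
      constructor
      · intro c hc
        rw [hTv, hf1 c hc]
        simp
      · rw [hTv]
        intro h2
        have h3 : f (xC x) ^ j = 1 := Units.ext (by simpa using h2)
        have h4 := orderOf_dvd_of_pow_eq_one h3
        rw [hord] at h4
        have := Nat.le_of_dvd (by omega) h4
        omega
    · intro i hi j hj hij
      have hi' := Finset.mem_Ico.1 (Finset.mem_coe.1 hi)
      have hj' := Finset.mem_Ico.1 (Finset.mem_coe.1 hj)
      have h2 := congrArg (fun ν : IrrCharacter (CC x) => ν.1 (xC x)) hij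
      simp only [hTv] at h2
      have h3 : f (xC x) ^ i = f (xC x) ^ j := Units.ext (by simpa using h2)
      exact pow_injOn_Iio_orderOf (by simpa [hord] using hi'.2) (by simpa [hord] using hj'.2) h3
  simpa using h1

end

end Cfsg.Agent.Lib.OddX
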