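import Mathlib
import Cfsg.Agent.Lib.OddXc

/-!
# The small-degree theorem: linking the nonconstant constituents, and the main count
-/

set_option autoImplicit false
set_option linter.style.haveILetI false
set_option linter.unusedVariables false
set_option linter.unusedSectionVars false

namespace Cfsg.Agent.Lib.OddX

open Cfsg Cfsg.Agent.Lib.CharBasic Cfsg.Agent.Lib.CharInd Cfsg.Agent.Lib.CharKernel
open scoped ComplexConjugate

universe u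

variable {D : Type u} [Group D] [Fintype D] {x : D} {r : ℕ}

noncomputable local instance fintypeSubL3 (K : Subgroup D) : Fintype K := Fintype.ofFinite K

section

variable (hS : XS x r)
include hS

theorem act_ne_oneC {κ : IrrCharacter (CC x)} (h : κ.1 (xC x) ≠ 1) (n : NN x) : act n κ ≠ oneC x := by
  intro h1
  have h2 := congrArg (fun ν : IrrCharacter (CC x) => ν.1 (conjC n⁻¹ (xC x))) h1
  simp only [act_apply] at h2
  have h3 : conjC n (conjC n⁻¹ (xC x)) = xC x := by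
    ext
    simp
    group
  rw [h3] at h2
  exact h h2

theorem sameZ_of_N1 {κ κ' : IrrCharacter (CC x)} (h1 : κ ∈ N1 x) (h2 : κ' ∈ N1 x) :
    SameZ κ.1 κ'.1 := fun c hc => by
  rw [(mem_N1.1 h1).1 c hc, (mem_N1.1 h2).1 c hc]

theorem pair_B {κ κ' : IrrCharacter (CC x)} (h1 : κ ∈ N1 x) (h2 : κ' ∈ N1 x)
    (hn : ¬ ∃ n : NN x, act n κ = κ') :
    ∃ a b : IrrCharacter D, a ≠ b ∧ indFun (CC x) (κ.1 - κ'.1) = a.1 - b.1 ∧
      MM (oneC x) a.1 = MM (oneC x) b.1 := by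
  classical
  obtain ⟨a, b, hab, he⟩ := ind_diff hS (mem_N1.1 h1).2 (mem_N1.1 h2).2 (sameZ_of_N1 hS h1 h2) hn
  refine ⟨a, b, hab, he, ?_⟩
  have h3 := inner_ind_ind hS (κ.1 - κ'.1)
    (fun c hc => by simp [sameZ_of_N1 hS h1 h2 c hc]) (oneC x).1
  rw [he, classInner_sub_right, inner_ind_eq_MM _
    (isClassFunction_of_isCharacter (IsIrrCharacter.isCharacter a.2)), inner_ind_eq_MM _
    (isClassFunction_of_isCharacter (IsIrrCharacter.isCharacter b.2)), avgC_sub,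
    classInner_sub_right, inner_avg_irr hS (mem_N1.1 h1).2, inner_avg_irr hS (mem_N1.1 h2).2,
    if_neg (fun ⟨n, h⟩ => act_ne_oneC hS (mem_N1.1 h1).2 n h),
    if_neg (fun ⟨n, h⟩ => act_ne_oneC hS (mem_N1.1 h2).2 n h), sub_self] at h3
  exact sub_eq_zero.1 h3

theorem chain_B {κ₁ κ₂ κ₃ : IrrCharacter (CC x)} (h₁ : κ₁ ∈ N1 x) (h₂ : κ₂ ∈ N1 x) (h₃ : κ₃ ∈ N1 x)
    (hn12 : ¬ ∃ n : NN x, act n κ₁ = κ₂) (hn23 : ¬ ∃ n : NN x, act n κ₂ = κ₃)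
    {a b a' b' : IrrCharacter D} (he : indFun (CC x) (κ₁.1 - κ₂.1) = a.1 - b.1)
    (he' : indFun (CC x) (κ₂.1 - κ₃.1) = a'.1 - b'.1)
    (hB : MM (oneC x) a.1 = MM (oneC x) b.1) (hB' : MM (oneC x) a'.1 = MM (oneC x) b'.1) :
    MM (oneC x) a.1 = MM (oneC x) a'.1 := by
  classical
  have h1 : classInner (indFun (CC x) (κ₁.1 - κ₂.1)) (indFun (CC x) (κ₂.1 - κ₃.1)) ≠ 0 := by
    rw [inner_ind_ind hS (κ₂.1 - κ₃.1) (fun c hc => by simp [sameZ_of_N1 hS h₂ h₃ c hc]), avgC_sub,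
      classInner_sub_left, classInner_sub_right, classInner_sub_right,
      inner_avg_irr hS (mem_N1.1 h₂).2, inner_avg_irr hS (mem_N1.1 h₃).2,
      inner_avg_irr hS (mem_N1.1 h₂).2, inner_avg_irr hS (mem_N1.1 h₃).2]
    have h21 : ¬ ∃ n : NN x, act n κ₂ = κ₁ := fun hh => hn12 (or_symm hS hh)
    have h22 : ∃ n : NN x, act n κ₂ = κ₂ := ⟨1, act_one' hS κ₂⟩
    have h32 : ¬ ∃ n : NN x, act n κ₃ = κ₂ := fun hh => hn23 (or_symm hS hh)
    rw [if_neg h21, if_pos h22, if_neg h32]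
    by_cases h : ∃ n : NN x, act n κ₃ = κ₁
    · rw [if_pos h]
      norm_num
    · rw [if_neg h]
      norm_num
  rw [he, he'] at h1
  by_cases h2 : a = a'
  · rw [h2]
  by_cases h3 : a = b'
  · rw [h3, hB']
  by_cases h4 : b = a'
  · rw [hB, h4]
  by_cases h5 : b = b'
  · rw [hB, h5, hB']
  exfalso
  apply h1
  have hh : ∀ u v : IrrCharacter D, u ≠ v → classInner u.1 v.1 = 0 := fun u v huv =>
    classInner_irr_ne u.2 v.2 (fun h => huv (Subtype.ext h))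
  rw [classInner_sub_left, classInner_sub_right, classInner_sub_right, hh _ _ h2, hh _ _ h3,
    hh _ _ h4, hh _ _ h5]
  simp

theorem exc_link {κ₁ κ₂ κ₃ κ₄ : IrrCharacter (CC x)} (h₁ : κ₁ ∈ N1 x) (h₂ : κ₂ ∈ N1 x)
    (h₃ : κ₃ ∈ N1 x) (h₄ : κ₄ ∈ N1 x) {ζ ξ : IrrCharacter D} (h12 : MM κ₁ ζ.1 ≠ MM κ₂ ζ.1)
    (h34 : MM κ₃ ξ.1 ≠ MM κ₄ ξ.1) : MM (oneC x) ζ.1 = MM (oneC x) ξ.1 := by
  classical
  have hcl : ∀ i : IrrCharacter D, IsClassFunction D i.1 := fun i =>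
    isClassFunction_of_isCharacter (IsIrrCharacter.isCharacter i.2)
  have hn12 : ¬ ∃ n : NN x, act n κ₁ = κ₂ := by
    rintro ⟨n, rfl⟩
    exact h12 (MM_act hS n κ₁ (hcl ζ)).symm
  have hn34 : ¬ ∃ n : NN x, act n κ₃ = κ₄ := by
    rintro ⟨n, rfl⟩
    exact h34 (MM_act hS n κ₃ (hcl ξ)).symm
  obtain ⟨a₁, b₁, hab₁, he₁, hB₁⟩ := pair_B hS h₁ h₂ hn12
  obtain ⟨a₃, b₃, hab₃, he₃, hB₃⟩ := pair_B hS h₃ h₄ hn34
  have hmem : ∀ {κ κ' : IrrCharacter (CC x)} {a b ζ : IrrCharacter D},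
      indFun (CC x) (κ.1 - κ'.1) = a.1 - b.1 → MM κ ζ.1 ≠ MM κ' ζ.1 → a = ζ ∨ b = ζ := by
    intro κ κ' a b ζ he hne
    have h3 := inner_ind_sub κ κ' (hcl ζ)
    rw [he, inner_sub_irr] at h3
    by_contra hcon
    push Not at hcon
    rw [if_neg hcon.1, if_neg hcon.2, sub_zero] at h3
    exact hne (sub_eq_zero.1 h3.symm)
  have hζ : MM (oneC x) ζ.1 = MM (oneC x) a₁.1 := by
    rcases hmem he₁ h12 with h | h
    · rw [h]
    · rw [← h, hB₁]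
  have hξ : MM (oneC x) ξ.1 = MM (oneC x) a₃.1 := by
    rcases hmem he₃ h34 with h | h
    · rw [h]
    · rw [← h, hB₃]
  rw [hζ, hξ]
  by_cases h23 : ∃ n : NN x, act n κ₂ = κ₃
  · have hn24 : ¬ ∃ n : NN x, act n κ₂ = κ₄ := fun h =>
      hn34 (or_trans hS (or_symm hS h23) h)
    obtain ⟨a₂, b₂, hab₂, he₂, hB₂⟩ := pair_B hS h₂ h₄ hn24
    have h5 := chain_B hS h₁ h₂ h₄ hn12 hn24 he₁ he₂ hB₁ hB₂
    have he₃' : indFun (CC x) (κ₄.1 - κ₃.1) = b₃.1 - a₃.1 := by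
      have h6 : indFun (CC x) (κ₄.1 - κ₃.1) = - indFun (CC x) (κ₃.1 - κ₄.1) := by
        simp only [indFun_sub]
        abel
      rw [h6, he₃]
      abel
    have h7 := chain_B hS h₂ h₄ h₃ hn24 (fun hh => hn34 (or_symm hS hh)) he₂ he₃' hB₂ hB₃.symm
    rw [h5, h7, hB₃]
  · obtain ⟨a₂, b₂, hab₂, he₂, hB₂⟩ := pair_B hS h₂ h₃ h23
    have h5 := chain_B hS h₁ h₂ h₃ hn12 h23 he₁ he₂ hB₁ hB₂
    have h7 := chain_B hS h₂ h₃ h₄ h23 hn34 he₂ he₃ hB₂ hB₃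
    rw [h5, h7]

theorem diff_conj {ν₀ ν' : IrrCharacter (CC x)}
    (hdiff : ∀ n : NN x, ν'.1 (xC x) ≠ ν₀.1 (conjC n (xC x))) (n m : NN x) :
    ν'.1 (conjC n (xC x)) ≠ ν₀.1 (conjC m (xC x)) := by
  intro h
  obtain ⟨j, hj⟩ := (show (n : D) * x * (n : D)⁻¹ ∈ Subgroup.zpowers x from n.2)
  simp only [] at hj
  have hy : ∀ q : NN x, conjC q ((xC x) ^ j) = (conjC q (xC x)) ^ j := fun q => map_zpow _ _ _
  have h1 : conjC n ((xC x) ^ j) = xC x := by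
    ext
    rw [conjC_coe]
    push_cast
    rw [xC_coe, hj]
    group
  have h2 : conjC m ((xC x) ^ j) = conjC (n⁻¹ * m) (xC x) := by
    ext
    rw [conjC_coe, conjC_coe]
    push_cast
    rw [xC_coe, hj]
    group
  apply hdiff (n⁻¹ * m)
  rw [← h2, hy m, chi_zpow hS, ← h, ← chi_zpow hS, ← hy n, h1]

theorem val_ne_of_ne {ν₀ χ₀ : IrrCharacter (CC x)} (hν : ν₀.1 (xC x) ≠ 1) (h : χ₀ ∈ Orb ν₀)
    (hne : χ₀ ≠ ν₀) : ν₀.1 (xC x) ≠ χ₀.1 (xC x) := by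
  obtain ⟨n, rfl⟩ := mem_Orb.1 h
  intro h1
  apply hne
  rw [act_apply] at h1
  -- `conjC n x * x⁻¹` is killed
  have h2 : conjC n (xC x) * (xC x)⁻¹ = 1 := by
    apply eq_one_of_chi hS hν
    · apply Subgroup.mul_mem
      · have h9 := (NN x).inv_mem n.2
        rw [mem_NN, inv_inv] at h9
        exact h9
      · simp
    · rw [chi_mul hS, ← h1, ← chi_mul hS, mul_inv_cancel, chi_one hS]
  have h3 : conjC n (xC x) = xC x := mul_inv_eq_one.1 h2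
  have h4 : (n : D)⁻¹ * x * n = x := by
    have := congrArg Subtype.val h3
    simpa using this
  have h5 : ((1 : NN x)⁻¹ * n : NN x) ∈ (CC x).subgroupOf (NN x) := by
    rw [Subgroup.mem_subgroupOf]
    simp only [inv_one, one_mul]
    rw [mem_CC]
    calc (n : D) * x = n * ((n : D)⁻¹ * x * n) := by rw [h4]
      _ = x * n := by group
  have h6 := (act_eq_iff hS hν 1 n).2 h5
  rw [← h6, act_one' hS]

theorem comm_NN {n m : D} (hn : n ∈ NN x) (hm : m ∈ NN x) : n * m * n⁻¹ * m⁻¹ ∈ CC x := by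
  obtain ⟨k, hk⟩ := (show n⁻¹ * x * n⁻¹⁻¹ ∈ Subgroup.zpowers x from (NN x).inv_mem hn)
  obtain ⟨l, hl⟩ := (show m⁻¹ * x * m⁻¹⁻¹ ∈ Subgroup.zpowers x from (NN x).inv_mem hm)
  simp only [inv_inv] at hk hl
  have h1 : n⁻¹ * x ^ l * n = x ^ (k * l) := by
    have : n⁻¹ * x ^ l * n = (n⁻¹ * x * n) ^ l := by
      have h := conj_zpow (a := n⁻¹) (b := x) (i := l)
      simpa using h.symm
    rw [this, ← hk, zpow_mul]
  have h2 : m * x ^ l * m⁻¹ = x := by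
    rw [hl]
    group
  have h3 : m * x ^ (k * l) * m⁻¹ = x ^ k := by
    rw [mul_comm k l, zpow_mul, ← conj_zpow, h2]
  have h4 : n * x ^ k * n⁻¹ = x := by
    rw [hk]
    group
  rw [mem_CC]
  have h5 : n * m * n⁻¹ * m⁻¹ * x * (n * m * n⁻¹ * m⁻¹)⁻¹ = x := by
    calc n * m * n⁻¹ * m⁻¹ * x * (n * m * n⁻¹ * m⁻¹)⁻¹
        = n * (m * (n⁻¹ * (m⁻¹ * x * m) * n) * m⁻¹) * n⁻¹ := by group
      _ = x := by rw [← hl, h1, h3, h4]
  calc n * m * n⁻¹ * m⁻¹ * x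
      = n * m * n⁻¹ * m⁻¹ * x * (n * m * n⁻¹ * m⁻¹)⁻¹ * (n * m * n⁻¹ * m⁻¹) := by group
    _ = x * (n * m * n⁻¹ * m⁻¹) := by rw [h5]

end

end Cfsg.Agent.Lib.OddX
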