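import Mathlib
import Cfsg.Agent.Lib.OddXd

/-!
# The small-degree theorem: the main count
-/

set_option autoImplicit false
set_option linter.style.haveILetI false
set_option linter.unusedVariables false
set_option linter.unusedSectionVars false

namespace Cfsg.Agent.Lib.OddX

open Cfsg Cfsg.Agent.Lib.CharBasic Cfsg.Agent.Lib.CharInd Cfsg.Agent.Lib.CharKernel
open scoped ComplexConjugate

universe u

variable {D : Type u} [Group D] [Fintype D] {x : D} {r : ℕ}

noncomputable local instance fintypeSubL4 (K : Subgroup D) : Fintype K := Fintype.ofFinite K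

theorem sum_NN_of_vanish (F : D → ℂ) (hF : ∀ n : D, n ∈ NN x → n ∉ CC x → F n = 0) :
    ∑ n : NN x, F n = ∑ c : CC x, F c := by
  classical
  let F' : D → ℂ := fun g => if g ∈ NN x then F g else 0
  have h1 : ∑ g : D, F' g = ∑ n : NN x, F' n := sum_of_vanish (NN x) F' (fun g hg => by simp [F', hg])
  have h2 : ∑ g : D, F' g = ∑ c : CC x, F' c := by
    apply sum_of_vanish (CC x) F'
    intro g hg
    by_cases h3 : g ∈ NN x
    · simp only [F', if_pos h3]
      exact hF g h3 hg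
    · simp [F', h3]
  have h3 : ∑ n : NN x, F' n = ∑ n : NN x, F n :=
    Finset.sum_congr rfl fun n _ => by simp [F']
  have h4 : ∑ c : CC x, F' c = ∑ c : CC x, F c :=
    Finset.sum_congr rfl fun c _ => by simp [F', CC_le_NN c.2]
  rw [← h3, ← h1, h2, h4]

section

variable (hS : XS x r)
include hS

theorem core_aux (W₁ : IrrCharacter D) (hfix : ∑ i ∈ Finset.range r, W₁.1 (x ^ i) = 0)
    {d : ℕ} (hd : W₁.1 1 = d) (hdr : 2 * d + 1 ≤ r)
    (hvan : ∀ n : D, n ∈ NN x → n ∉ CC x → W₁.1 n = 0)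
    (hml : ∀ P : D → ℂ, IsCharacter D P → (∀ n ∈ NN x, n ∉ CC x → P n = 0) →
      (Nat.card (NN x) : ℂ)⁻¹ * ∑ c : CC x, P c = 1 → ∀ ζ : D → ℂ, IsIrrCharacter D ζ →
      classInner (fun c : CC x => ζ c) (fun _ => (1 : ℂ)) ≠ 0 → ∃ a : ℕ, classInner P ζ = a ∧ a ≤ 1) :
    d = 1 := by
  classical
  have hWch := IsIrrCharacter.isCharacter W₁.2
  have hWcl := isClassFunction_of_isCharacter hWch
  have hY := hY_of_fix hS hWch hfix
  have hd0 : d ≠ 0 := by
    have h1 := one_eq_charDegree hWch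
    have h2 := charDegree_pos W₁.2
    rw [hd] at h1
    have : d = charDegree W₁.1 := by exact_mod_cast h1
    omega
  -- a constituent
  obtain ⟨ν₀, hν₀⟩ : ∃ ν₀ : IrrCharacter (CC x), MM ν₀ W₁.1 ≠ 0 := by
    by_contra h
    push Not at h
    obtain ⟨M, hM, -, hdeg⟩ := res_decomp hS hWch
    have h0 : ∀ χ, M χ = 0 := by
      intro χ
      have := (hM χ).symm.trans (h χ)
      exact_mod_cast this
    simp only [h0, Finset.sum_const_zero] at hdeg
    rw [hd] at hdeg
    exact hd0 (by exact_mod_cast hdeg)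
  obtain ⟨hres, hde, ν', hν'x, hν'z, hν'diff, χ', hind, hχ'res⟩ := step4 hS W₁ hY hd hdr hν₀
  have hν₀x := hY ν₀ hν₀
  have hWb : IsCharacter D (fun g => conj (W₁.1 g)) := Cfsg.Agent.Lib.RealChars.isCharacter_conj hWch
  have hP : IsCharacter D (fun g => W₁.1 g * conj (W₁.1 g)) := isCharacter_mul hWch hWb
  have hχ'ch := IsIrrCharacter.isCharacter χ'.2
  have hP₂ : IsCharacter D (fun g => χ'.1 g * conj (W₁.1 g)) := isCharacter_mul hχ'ch hWb
  have hN1ev := N1_even hS
  have hN1ge := N1_card_ge hS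
  have hν₀O : ν₀ ∈ Orb ν₀ := mem_Orb.2 ⟨1, act_one' hS ν₀⟩
  have hν'O : ν' ∈ Orb ν' := mem_Orb.2 ⟨1, act_one' hS ν'⟩
  have hcl : ∀ i : IrrCharacter D, IsClassFunction D i.1 := fun i =>
    isClassFunction_of_isCharacter (IsIrrCharacter.isCharacter i.2)
  have hch : ∀ i : IrrCharacter D, IsCharacter D i.1 := fun i => IsIrrCharacter.isCharacter i.2
  -- odd degrees
  have hodd : ∀ ζ : IrrCharacter D, Odd (charDegree ζ.1) := fun ζ =>
    Odd.of_dvd_nat hS.odd (charDegree_dvd_card ζ.2)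
  -- the support of a constituent of `P₂`
  have hsupp₂ : ∀ ξ : IrrCharacter D, classInner (fun g => χ'.1 g * conj (W₁.1 g)) ξ.1 ≠ 0 →
      ∀ κ, MM κ ξ.1 ≠ 0 → κ ∈ N1 x := by
    intro ξ hξ κ hκ
    have h1 := MM_constituent hP₂ ξ hξ κ hκ
    obtain ⟨χ₁, h₁, χ₀, h₀, rfl⟩ := MM_prod_ne hS hν'x hν₀x hχ'res hres h1
    apply mulbar_mem_N1 hS hν'z h₁ h₀
    obtain ⟨n, rfl⟩ := mem_Orb.1 h₁
    obtain ⟨m, rfl⟩ := mem_Orb.1 h₀
    exact diff_conj hS hν'diff n m
  -- constituents of `P₂` are not constant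
  have hpar : ∀ ξ : IrrCharacter D, classInner (fun g => χ'.1 g * conj (W₁.1 g)) ξ.1 ≠ 0 →
      ¬ ∃ t : ℕ, ∀ κ ∈ N1 x, MM κ ξ.1 = t := by
    rintro ξ hξ ⟨t, ht⟩
    obtain ⟨M, hM, -, hdeg⟩ := res_decomp hS (hch ξ)
    have h1 := one_eq_charDegree (hch ξ)
    have h2 : charDegree ξ.1 = ∑ χ, M χ := by
      rw [hdeg] at h1
      exact_mod_cast h1.symm
    have h3 : ∑ χ, M χ = ∑ χ ∈ N1 x, M χ := by
      symm
      apply Finset.sum_subset (Finset.subset_univ _)
      intro χ _ hχ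
      by_contra h0
      apply hχ
      apply hsupp₂ ξ hξ χ
      rw [hM]
      exact_mod_cast h0
    have h4 : ∑ χ ∈ N1 x, M χ = t * (N1 x).card := by
      rw [Finset.sum_congr rfl (fun χ hχ => (by
        have := (hM χ).symm.trans (ht χ hχ)
        exact_mod_cast this : M χ = t)), Finset.sum_const, smul_eq_mul, mul_comm]
    have h5 := hodd ξ
    rw [h2, h3, h4] at h5
    exact (Nat.not_even_iff_odd.2 h5) (hN1ev.mul_left t)
  have hb₂ : ∀ ξ : IrrCharacter D, classInner (fun g => χ'.1 g * conj (W₁.1 g)) ξ.1 ≠ 0 →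
      MM (oneC x) ξ.1 = 0 := by
    intro ξ hξ
    by_contra h
    exact oneC_not_mem (hsupp₂ ξ hξ _ h)
  -- some constituent of `P₂`
  have he1 : (ee x : ℂ) ≠ 0 := by exact_mod_cast (ee_pos (x := x)).ne'
  have hχ'1 : χ'.1 1 = ee x := by
    have := congrFun hχ'res 1
    simp only [Subgroup.coe_one] at this
    rw [this, avg_one hS]
  have hW1 : W₁.1 1 = ee x := by rw [hd, hde]
  obtain ⟨ξ₀, hξ₀⟩ : ∃ ξ₀ : IrrCharacter D, classInner (fun g => χ'.1 g * conj (W₁.1 g)) ξ₀.1 ≠ 0 := by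
    by_contra h
    push Not at h
    have h1 := eq_zero_of_orthogonal (isClassFunction_of_isCharacter hP₂) (fun χ => h χ)
    have h2 := congrFun h1 1
    simp only [hχ'1, hW1, Pi.zero_apply, map_natCast, mul_self_eq_zero] at h2
    exact he1 h2
  -- nonconstant constituents have no `C`-fixed vector
  have hN1ne : (N1 x).Nonempty := by
    rw [← Finset.card_pos]
    have := hS.prime.two_le
    omega
  have hnonconst : ∀ ζ : IrrCharacter D, (¬ ∃ t : ℕ, ∀ κ ∈ N1 x, MM κ ζ.1 = t) →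
      ∃ κ₁ ∈ N1 x, ∃ κ₂ ∈ N1 x, MM κ₁ ζ.1 ≠ MM κ₂ ζ.1 := by
    intro ζ hζ
    obtain ⟨κ₀, hκ₀⟩ := hN1ne
    obtain ⟨t, ht⟩ := MM_nat κ₀ (hch ζ)
    by_contra hcon
    push Not at hcon
    exact hζ ⟨t, fun κ hκ => (hcon κ hκ κ₀ hκ₀).trans ht⟩
  have hExc : ∀ ζ : IrrCharacter D, (¬ ∃ t : ℕ, ∀ κ ∈ N1 x, MM κ ζ.1 = t) →
      MM (oneC x) ζ.1 = 0 := by
    intro ζ hζ
    obtain ⟨κ₁, h₁, κ₂, h₂, h12⟩ := hnonconst ζ hζ
    obtain ⟨κ₃, h₃, κ₄, h₄, h34⟩ := hnonconst ξ₀ (hpar ξ₀ hξ₀)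
    rw [exc_link hS h₁ h₂ h₃ h₄ h12 h34, hb₂ ξ₀ hξ₀]
  -- the values on the orbit of `ν₀`
  have hWc : ∀ c : CC x, W₁.1 c = ∑ χ₀ ∈ Orb ν₀, χ₀.1 c := by
    intro c
    have := congrFun (hres.trans (avg_eq_sum_orb hS hν₀x)) c
    simpa [Finset.sum_apply] using this
  have hWbcl : IsClassFunction D (fun g => conj (W₁.1 g)) := isClassFunction_of_isCharacter hWb
  have hcard := card_orb hS hν₀x
  have hmb1 : mulbar hS ν₀ ν₀ = oneC x := by
    apply Subtype.ext
    funext c
    rw [mulbar_apply, chi_conj hS]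
    rfl
  have hL9 : ∀ (ζ : IrrCharacter D) (t : ℕ), (∀ κ ∈ N1 x, MM κ ζ.1 = t) →
      classInner (fun g => W₁.1 g * conj (W₁.1 g)) ζ.1 = MM (oneC x) ζ.1 - t := by
    intro ζ t ht
    have h0 : classInner (fun g => χ'.1 g * conj (W₁.1 g)) ζ.1 = 0 := by
      by_contra h
      exact hpar ζ h ⟨t, ht⟩
    have hdiff : (fun g => W₁.1 g * conj (W₁.1 g)) - (fun g => χ'.1 g * conj (W₁.1 g)) =
        indFun (CC x) ((ν₀.1 - ν'.1) * fun c : CC x => conj (W₁.1 c)) := by
      rw [indFun_mul_restrict (CC x) _ hWbcl, hind]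
      funext g
      simp only [Pi.sub_apply, Pi.mul_apply]
      ring
    have h1 : classInner (fun g => W₁.1 g * conj (W₁.1 g)) ζ.1 =
        classInner ((ν₀.1 - ν'.1) * fun c : CC x => conj (W₁.1 c)) (fun c : CC x => ζ.1 c) := by
      rw [← frobenius (CC x) _ (hcl ζ), ← hdiff, classInner_sub_left, h0, sub_zero]
    rw [h1]
    have hexp : (ν₀.1 - ν'.1) * (fun c : CC x => conj (W₁.1 c)) =
        ∑ χ₀ ∈ Orb ν₀, ((mulbar hS ν₀ χ₀).1 - (mulbar hS ν' χ₀).1) := by
      funext c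
      simp only [Pi.mul_apply, Pi.sub_apply]
      rw [hWc, map_sum, Finset.mul_sum, Finset.sum_apply]
      refine Finset.sum_congr rfl fun χ₀ _ => ?_
      rw [Pi.sub_apply, mulbar_apply, mulbar_apply]
      ring
    rw [hexp, classInner_sum_left]
    have h2 : ∀ χ₀ ∈ Orb ν₀, classInner ((mulbar hS ν₀ χ₀).1 - (mulbar hS ν' χ₀).1)
        (fun c : CC x => ζ.1 c) = MM (mulbar hS ν₀ χ₀) ζ.1 - t := by
      intro χ₀ h₀
      rw [classInner_sub_left]
      have h3 : mulbar hS ν' χ₀ ∈ N1 x := by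
        apply mulbar_mem_N1 hS hν'z hν'O h₀
        obtain ⟨m, rfl⟩ := mem_Orb.1 h₀
        exact hν'diff m
      have h4 := ht _ h3
      unfold MM at h4 ⊢
      rw [h4]
    rw [Finset.sum_congr rfl h2, Finset.sum_sub_distrib, Finset.sum_const, hcard]
    rw [← Finset.add_sum_erase (Orb ν₀) _ hν₀O, hmb1]
    have h3 : ∀ χ₀ ∈ (Orb ν₀).erase ν₀, MM (mulbar hS ν₀ χ₀) ζ.1 = t := by
      intro χ₀ h₀
      have h₀' := Finset.mem_erase.1 h₀
      exact ht _ (mulbar_mem_N1 hS (fun c hc => rfl) hν₀O h₀'.2 (val_ne_of_ne hS hν₀x h₀'.2 h₀'.1))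
    rw [Finset.sum_congr rfl h3, Finset.sum_const, Finset.card_erase_of_mem hν₀O, hcard]
    have hepos := ee_pos (x := x)
    simp only [nsmul_eq_mul]
    rw [Nat.cast_sub hepos]
    push_cast
    ring
  -- the decomposition of `P`
  obtain ⟨a, ha⟩ := exists_nat_decomp hP
  have ha' : ∀ ζ : IrrCharacter D, classInner (fun g => W₁.1 g * conj (W₁.1 g)) ζ.1 = a ζ := by
    intro ζ
    rw [ha]
    exact classInner_nat_decomp a ζ.1 ζ.2
  set e := ee x with he
  let ζ₁ : IrrCharacter D := ⟨fun _ => 1, isIrrCharacter_one⟩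
  choose b hb using fun ζ : IrrCharacter D => MM_nat (oneC x) (hch ζ)
  have hnorm : classInner (avgC x ν₀.1) (avgC x ν₀.1) = e := by
    nth_rewrite 2 [avg_eq_sum_orb hS hν₀x]
    rw [classInner_sum_right]
    have h1 : ∀ χ ∈ Orb ν₀, classInner (avgC x ν₀.1) χ.1 = 1 := by
      intro χ hχ
      rw [← classInner_conj_symm, inner_avg_irr hS hν₀x, if_pos (mem_Orb.1 hχ)]
      simp
    rw [Finset.sum_congr rfl h1, Finset.sum_const, hcard]
    simp
  have hnormC : classInner (fun c : CC x => W₁.1 c) (fun c : CC x => W₁.1 c) = e := by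
    rw [hres, hnorm]
  have hC0 := natCard_subgroup_ne_zero (CC x)
  have hSg : ∑ c : CC x, (W₁.1 c * conj (W₁.1 c)) = (Nat.card (CC x) : ℂ) * e := by
    unfold classInner at hnormC
    exact (inv_mul_eq_iff_eq_mul₀ hC0).1 hnormC
  have hsum1 : ∑ ζ, a ζ * charDegree ζ.1 = e * e := by
    have h1 := congrFun ha 1
    rw [Finset.sum_apply] at h1
    simp only [Pi.smul_apply] at h1
    simp only [nsmul_eq_mul, hW1, map_natCast] at h1
    have h2 : ∑ i : IrrCharacter D, (a i : ℂ) * i.1 1 = ((∑ ζ, a ζ * charDegree ζ.1 : ℕ) : ℂ) := by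
      push_cast
      refine Finset.sum_congr rfl fun i _ => ?_
      rw [one_eq_charDegree (hch i)]
    rw [h2] at h1
    exact_mod_cast h1.symm
  have hsum2 : ∑ ζ, a ζ * b ζ = e := by
    have h2 : (fun c : CC x => W₁.1 c * conj (W₁.1 c)) =
        ∑ ζ : IrrCharacter D, (a ζ : ℂ) • (fun c : CC x => ζ.1 c) := by
      funext c
      have := congrFun ha (c : D)
      simpa [Finset.sum_apply] using this
    have h3 : classInner (oneC x).1 (fun c : CC x => W₁.1 c * conj (W₁.1 c)) =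
        ((∑ ζ, a ζ * b ζ : ℕ) : ℂ) := by
      rw [h2, classInner_sum_right]
      push_cast
      refine Finset.sum_congr rfl fun ζ _ => ?_
      rw [classInner_smul_right]
      have := hb ζ
      unfold MM at this
      rw [this]
      simp
    have h4 : classInner (oneC x).1 (fun c : CC x => W₁.1 c * conj (W₁.1 c)) = e := by
      unfold classInner
      have h5 : ∑ c : CC x, (oneC x).1 c * conj (W₁.1 c * conj (W₁.1 c)) =
          conj (∑ c : CC x, (W₁.1 c * conj (W₁.1 c))) := by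
        rw [map_sum]
        refine Finset.sum_congr rfl fun c _ => ?_
        show (1 : ℂ) * _ = _
        rw [one_mul]
      rw [h5, hSg]
      simp only [map_mul, map_natCast]
      field_simp
    rw [h4] at h3
    exact_mod_cast h3.symm
  have ha1 : a ζ₁ = 1 := by
    have h1 := ha' ζ₁
    have h2 : classInner (fun g => W₁.1 g * conj (W₁.1 g)) ζ₁.1 = classInner W₁.1 W₁.1 := by
      unfold classInner
      congr 1
      refine Finset.sum_congr rfl fun g _ => ?_
      show _ * conj (1 : ℂ) = _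
      rw [map_one, mul_one]
    rw [h2, classInner_irr_self W₁.2] at h1
    exact_mod_cast h1.symm
  have hb1 : b ζ₁ = 1 := by
    have h1 := hb ζ₁
    have h2 : MM (oneC x) ζ₁.1 = 1 := classInner_irr_self (oneC x).2
    rw [h2] at h1
    exact_mod_cast h1.symm
  have hδ1 : charDegree ζ₁.1 = 1 := by
    have h1 := one_eq_charDegree (hch ζ₁)
    have h2 : ζ₁.1 1 = 1 := rfl
    rw [h2] at h1
    exact_mod_cast h1.symm
  have hePos : 0 < e := ee_pos
  have hKe : 2 * e ≤ (N1 x).card := by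
    have : d = e := hde
    omega
  have key : ∀ ζ, ζ ≠ ζ₁ → a ζ ≠ 0 → (e + 1) * b ζ < charDegree ζ.1 := by
    intro ζ hζ1 haζ
    by_cases hb0 : b ζ = 0
    · rw [hb0, mul_zero]
      exact charDegree_pos ζ.2
    have hconst : ∃ t : ℕ, ∀ κ ∈ N1 x, MM κ ζ.1 = t := by
      by_contra h
      have := hExc ζ h
      rw [hb] at this
      exact hb0 (by exact_mod_cast this)
    obtain ⟨t, ht⟩ := hconst
    have hL := hL9 ζ t ht
    rw [ha', hb] at hL
    have hPvan : ∀ n ∈ NN x, n ∉ CC x → W₁.1 n * conj (W₁.1 n) = 0 := by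
      intro n h1 h2
      rw [hvan n h1 h2, zero_mul]
    have hPsum : (Nat.card (NN x) : ℂ)⁻¹ * ∑ c : CC x, (W₁.1 c * conj (W₁.1 c)) = 1 := by
      rw [hSg, card_NN, ← he]
      push_cast
      field_simp
    have hbne : classInner (fun c : CC x => ζ.1 c) (fun _ => (1 : ℂ)) ≠ 0 := by
      rw [← classInner_conj_symm]
      intro h0
      have h1 : MM (oneC x) ζ.1 = 0 := (map_eq_zero _).1 h0
      rw [hb] at h1
      exact hb0 (by exact_mod_cast h1)
    obtain ⟨a₀, ha₀, ha₀1⟩ := hml _ hP hPvan hPsum ζ.1 ζ.2 hbne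
    have haa : a ζ = a₀ := by
      rw [ha'] at ha₀
      exact_mod_cast ha₀
    have ha1' : a ζ = 1 := by omega
    rw [ha1'] at hL
    have hbt : b ζ = t + 1 := by
      have : (b ζ : ℂ) = t + 1 := by
        push_cast at hL
        linear_combination -hL
      exact_mod_cast this
    have ht1 : 1 ≤ t := by
      by_contra h
      have t0 : t = 0 := by omega
      subst t0
      obtain ⟨M, hM, hres', hdeg'⟩ := res_decomp hS (hch ζ)
      have hx1 : ∀ χ, M χ ≠ 0 → χ.1 (xC x) = 1 := by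
        intro χ hχ
        by_contra hne
        have hMM : MM χ ζ.1 ≠ 0 := by
          rw [hM]
          exact_mod_cast hχ
        have h1 := MM_constituent hP ζ (by rw [ha']; exact_mod_cast haζ) χ hMM
        obtain ⟨χ₁, h₁, χ₀, h₀, rfl⟩ := MM_prod_ne hS hν₀x hν₀x hres hres h1
        have h3 : mulbar hS χ₁ χ₀ ∈ N1 x :=
          mem_N1.2 ⟨mulbar_z hS (fun c hc => rfl) h₁ h₀, hne⟩
        exact hMM ((ht _ h3).trans (by simp))
      have hval : ζ.1 x = ζ.1 1 := by
        have e1 := congrFun hres' (xC x)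
        simp only [xC_coe, Finset.sum_apply, Pi.smul_apply, smul_eq_mul] at e1
        rw [hdeg', e1]
        push_cast
        refine Finset.sum_congr rfl fun χ _ => ?_
        by_cases h0 : M χ = 0
        · simp [h0]
        · rw [hx1 χ h0, mul_one]
      have h2 := hS.ncl ζ.1 ζ.2 hval
      apply hζ1
      apply Subtype.ext
      funext g
      exact h2 g
    obtain ⟨M, hM, -, hdeg'⟩ := res_decomp hS (hch ζ)
    have hδ : charDegree ζ.1 = ∑ χ, M χ := by
      have h1 := one_eq_charDegree (hch ζ)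
      rw [hdeg'] at h1
      exact_mod_cast h1.symm
    have hMt : ∀ χ ∈ N1 x, M χ = t := by
      intro χ hχ
      have := (hM χ).symm.trans (ht χ hχ)
      exact_mod_cast this
    have hM1 : M (oneC x) = b ζ := by
      have := (hM (oneC x)).symm.trans (hb ζ)
      exact_mod_cast this
    have h5 : t * (N1 x).card + b ζ ≤ ∑ χ, M χ := by
      calc t * (N1 x).card + b ζ = ∑ χ ∈ insert (oneC x) (N1 x), M χ := by
            rw [Finset.sum_insert oneC_not_mem, hM1, Finset.sum_congr rfl hMt, Finset.sum_const,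
              smul_eq_mul, add_comm, mul_comm]
        _ ≤ ∑ χ, M χ := Finset.sum_le_sum_of_subset (Finset.subset_univ _)
    rw [← hδ] at h5
    have hoddδ := hodd ζ
    rw [hbt] at h5 ⊢
    set K := (N1 x).card with hK
    set δ := charDegree ζ.1 with hδd
    rcases Nat.lt_or_ge t 2 with h2 | h2
    · have t1 : t = 1 := by omega
      subst t1
      have h6 : (e + 1) * (1 + 1) ≤ δ := by nlinarith
      have h7 : (e + 1) * (1 + 1) ≠ δ := by
        intro h8
        rw [← h8] at hoddδ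
        exact (Nat.not_even_iff_odd.2 hoddδ) ⟨e + 1, by ring⟩
      omega
    · have h6 : t * (2 * e) ≤ t * K := Nat.mul_le_mul_left _ hKe
      nlinarith
  have hall : ∀ ζ, ζ ≠ ζ₁ → a ζ = 0 := by
    by_contra hcon
    push Not at hcon
    obtain ⟨ζ₂, h₂1, h₂2⟩ := hcon
    have h1 := Finset.add_sum_erase Finset.univ (fun ζ => a ζ * charDegree ζ.1) (Finset.mem_univ ζ₁)
    have h2 := Finset.add_sum_erase Finset.univ (fun ζ => a ζ * b ζ) (Finset.mem_univ ζ₁)
    simp only [ha1, hδ1, hb1, hsum1, hsum2, mul_one] at h1 h2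
    have h3 : ∑ ζ ∈ Finset.univ.erase ζ₁, (e + 1) * (a ζ * b ζ) <
        ∑ ζ ∈ Finset.univ.erase ζ₁, a ζ * charDegree ζ.1 := by
      apply Finset.sum_lt_sum
      · intro ζ hζ
        by_cases h0 : a ζ = 0
        · simp [h0]
        · have := (key ζ (Finset.mem_erase.1 hζ).1 h0).le
          calc (e + 1) * (a ζ * b ζ) = a ζ * ((e + 1) * b ζ) := by ring
            _ ≤ a ζ * charDegree ζ.1 := Nat.mul_le_mul_left _ this
      · refine ⟨ζ₂, Finset.mem_erase.2 ⟨h₂1, Finset.mem_univ _⟩, ?_⟩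
        have := key ζ₂ h₂1 h₂2
        calc (e + 1) * (a ζ₂ * b ζ₂) = a ζ₂ * ((e + 1) * b ζ₂) := by ring
          _ < a ζ₂ * charDegree ζ₂.1 := Nat.mul_lt_mul_of_pos_left this (Nat.pos_of_ne_zero h₂2)
    rw [← Finset.mul_sum] at h3
    set A := ∑ ζ ∈ Finset.univ.erase ζ₁, a ζ * b ζ
    set B := ∑ ζ ∈ Finset.univ.erase ζ₁, a ζ * charDegree ζ.1
    have h4 : e = A + 1 := by omega
    rw [h4] at h1 h3
    nlinarith
  have h1 := Finset.add_sum_erase Finset.univ (fun ζ => a ζ * charDegree ζ.1) (Finset.mem_univ ζ₁)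
  simp only [ha1, hδ1, hsum1, mul_one] at h1
  rw [Finset.sum_eq_zero (fun ζ hζ => by rw [hall ζ (Finset.mem_erase.1 hζ).1, zero_mul])] at h1
  have h2 : e = 1 := by
    have : e * e = 1 := by omega
    exact Nat.eq_one_of_mul_eq_one_left this
  rw [hde]
  exact h2

end

end Cfsg.Agent.Lib.OddX
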