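import Mathlib
import Cfsg.Agent.Lib.CharBasic

/-!
# A character without `⟨x⟩`-fixed vectors vanishes on non-centralizing normalizing elements
-/

set_option autoImplicit false
set_option linter.unusedVariables false
set_option linter.unusedSectionVars false

namespace Cfsg.Agent.Lib.OddXv

universe u

open Cfsg

theorem vanish_off {D : Type u} [Group D] [Fintype D] {x : D} {r : ℕ} (hr : r.Prime)
    (hx : orderOf x = r) {W : D → ℂ} (hW : Cfsg.IsCharacter D W)
    (hfix : ∑ i ∈ Finset.range r, W (x ^ i) = 0) {n : D}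
    (hn : n⁻¹ * x * n ∈ Subgroup.zpowers x) (hnc : n * x ≠ x * n) : W n = 0 := by
  classical
  have hclass := Cfsg.Agent.Lib.CharBasic.char_apply_conj hW
  obtain ⟨m, ρ, hρ⟩ := id hW
  have hr0 : (r : ℂ) ≠ 0 := Nat.cast_ne_zero.2 hr.ne_zero
  have hxr : x ^ r = 1 := by rw [← hx]; exact pow_orderOf_eq_one x
  -- the averaging operator
  obtain ⟨T, hT⟩ : ∃ T : Module.End ℂ (Fin m → ℂ), T = ∑ i ∈ Finset.range r, ρ (x ^ i) := ⟨_, rfl⟩
  have hxT : ρ x * T = T := by
    rw [hT, Finset.mul_sum]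
    have h1 : ∀ i ∈ Finset.range r, ρ x * ρ (x ^ i) = ρ (x ^ (i + 1)) := by
      intro i _
      rw [← map_mul, pow_succ']
    rw [Finset.sum_congr rfl h1]
    have h2 := Finset.sum_range_succ (fun i => ρ (x ^ i)) r
    have h3 := Finset.sum_range_succ' (fun i => ρ (x ^ i)) r
    rw [h2] at h3
    simp only [pow_zero, hxr] at h3
    exact (add_right_cancel h3).symm
  have hpowT : ∀ j : ℕ, ρ (x ^ j) * T = T := by
    intro j
    induction j with
    | zero => simp
    | succ j ih =>
      rw [pow_succ', map_mul, mul_assoc, ih, hxT]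
  have hTT : T * T = (r : ℂ) • T := by
    have h1 : (∑ i ∈ Finset.range r, ρ (x ^ i)) * T = ∑ _i ∈ Finset.range r, T := by
      rw [Finset.sum_mul]
      exact Finset.sum_congr rfl (fun i _ => hpowT i)
    rw [← hT] at h1
    rw [h1, Finset.sum_const, Finset.card_range, Nat.cast_smul_eq_nsmul]
  have htr : LinearMap.trace ℂ (Fin m → ℂ) T = 0 := by
    rw [hT, map_sum]
    rw [← hfix, ← hρ]
    rfl
  have hT0 : T = 0 := by
    have hid : IsIdempotentElem ((r : ℂ)⁻¹ • T) := by
      rw [IsIdempotentElem, smul_mul_smul_comm, hTT, smul_smul]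
      congr 1
      field_simp
    have h0 := LinearMap.IsIdempotentElem.eq_zero_of_trace_eq_zero hid (by
      rw [map_smul, htr, smul_zero])
    have h3 := congrArg (fun f => (r : ℂ) • f) h0
    simpa [smul_smul, hr0] using h3
  -- the commutator element
  obtain ⟨z, hz⟩ : ∃ z, z = (n⁻¹ * x * n) * x⁻¹ := ⟨_, rfl⟩
  have hzx : z ∈ Subgroup.zpowers x := by
    rw [hz]
    exact mul_mem hn (inv_mem (Subgroup.mem_zpowers x))
  have hz1 : z ≠ 1 := by
    intro h
    rw [hz, mul_inv_eq_one] at h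
    apply hnc
    calc n * x = n * (n⁻¹ * x * n) := by rw [h]
      _ = x * n := by group
  have hcomm : Commute x z := by
    obtain ⟨k, hk⟩ := hzx
    rw [← hk]
    exact (Commute.refl x).zpow_right k
  have hxn : x * n * x⁻¹ = n * z := by rw [hz]; group
  have hconj : ∀ j : ℕ, x ^ j * n * (x ^ j)⁻¹ = n * z ^ j := by
    intro j
    induction j with
    | zero => simp
    | succ j ih =>
      have h1 : x * z ^ j * x⁻¹ = z ^ j := by
        rw [(hcomm.pow_right j).eq]
        group
      calc x ^ (j + 1) * n * (x ^ (j + 1))⁻¹ = x * (x ^ j * n * (x ^ j)⁻¹) * x⁻¹ := by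
            rw [pow_succ']; group
        _ = x * (n * z ^ j) * x⁻¹ := by rw [ih]
        _ = (x * n * x⁻¹) * (x * z ^ j * x⁻¹) := by group
        _ = n * z ^ (j + 1) := by rw [hxn, h1, pow_succ', mul_assoc]
  have hWz : ∀ j : ℕ, W (n * z ^ j) = W n := by
    intro j
    rw [← hconj j]
    exact hclass n (x ^ j)
  -- `z` generates `⟨x⟩`
  haveI : Fact r.Prime := ⟨hr⟩
  have hoz : orderOf z = r := by
    apply orderOf_eq_prime _ hz1
    obtain ⟨k, hk⟩ := hzx
    rw [← hk, ← zpow_natCast, ← zpow_mul, mul_comm, zpow_mul, zpow_natCast, hxr, one_zpow]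
  have hzeq : Subgroup.zpowers z = Subgroup.zpowers x := by
    apply Subgroup.eq_of_le_of_card_ge
    · rw [Subgroup.zpowers_le]
      exact hzx
    · rw [Nat.card_zpowers, Nat.card_zpowers, hoz, hx]
  have hWx : ∀ i : ℕ, W (n * x ^ i) = W n := by
    intro i
    have h1 : x ^ i ∈ Subgroup.zpowers z := by
      rw [hzeq]
      exact pow_mem (Subgroup.mem_zpowers x) i
    rw [← mem_powers_iff_mem_zpowers] at h1
    obtain ⟨j, hj⟩ := h1
    have h2 : z ^ j = x ^ i := hj
    rw [← h2]
    exact hWz j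
  -- the sum
  have hsum : ∑ i ∈ Finset.range r, W (n * x ^ i) = 0 := by
    have h1 : LinearMap.trace ℂ (Fin m → ℂ) (ρ n * T) = 0 := by
      rw [hT0, mul_zero, map_zero]
    rw [hT, Finset.mul_sum, map_sum] at h1
    rw [← h1, ← hρ]
    refine Finset.sum_congr rfl fun i _ => ?_
    have h2 : ρ (n * x ^ i) = ρ n * ρ (x ^ i) := map_mul ρ _ _
    show LinearMap.trace ℂ (Fin m → ℂ) (ρ (n * x ^ i)) = _
    rw [h2]
  rw [Finset.sum_congr rfl (fun i _ => hWx i), Finset.sum_const, Finset.card_range,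
    nsmul_eq_mul] at hsum
  exact (mul_eq_zero.1 hsum).resolve_left hr0

end Cfsg.Agent.Lib.OddXv
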