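import Mathlib
import Cfsg.Agent.Lib.CharBasic
import Cfsg.Agent.Lib.CharKernel
import Cfsg.Agent.Lib.CharCodegP

/-!
# Multiplicity at most one over an abelian section

If `C ≤ N` with `N/C` abelian, `P` is a character vanishing on `N \ C` with
`|N|⁻¹ ∑_{c ∈ C} P c = 1`, and an irreducible `ζ` contains the trivial character of `C`,
then `ζ` has multiplicity at most one in `P`.
-/

set_option autoImplicit false
set_option linter.style.haveILetI false
set_option linter.unusedVariables false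
set_option linter.unusedSectionVars false

namespace Cfsg.Agent.Lib.OddXw

open Cfsg Cfsg.Agent.Lib.CharBasic Cfsg.Agent.Lib.CharKernel
open scoped ComplexConjugate

universe u

variable {D : Type u} [Group D]

theorem sum_ind (C N : Subgroup D) [Fintype C] [Fintype N] (hCN : C ≤ N) (f : D → ℂ)
    [DecidablePred (fun n : N => (n : D) ∈ C)] :
    ∑ n : N, (if (n : D) ∈ C then f n else 0) = ∑ c : C, f c := by
  classical
  rw [← Finset.sum_filter]
  refine Finset.sum_bij' (fun n hn => ⟨n.1, (Finset.mem_filter.1 hn).2⟩)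
    (fun c _ => ⟨c.1, hCN c.2⟩) ?_ ?_ ?_ ?_ ?_ <;> simp

theorem mult_le_one [Fintype D] (C N : Subgroup D) [Fintype C] [Fintype N] (hCN : C ≤ N)
    (hab : ∀ n ∈ N, ∀ m ∈ N, n * m * n⁻¹ * m⁻¹ ∈ C) (P : D → ℂ) (hP : IsCharacter D P)
    (h0 : ∀ n ∈ N, n ∉ C → P n = 0) (h1 : (Nat.card N : ℂ)⁻¹ * ∑ c : C, P c = 1)
    (ζ : D → ℂ) (hζ : IsIrrCharacter D ζ)
    (hb : classInner (fun c : C => ζ c) (fun _ => (1:ℂ)) ≠ 0) :
    ∃ a : ℕ, classInner P ζ = a ∧ a ≤ 1 := by
  classical
  -- the quotient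
  let C' : Subgroup N := C.subgroupOf N
  haveI hC'n : C'.Normal := by
    refine ⟨fun c hc n => ?_⟩
    have hc' : (c : D) ∈ C := Subgroup.mem_subgroupOf.1 hc
    have h2 := hab n.1 n.2 c.1 (hCN hc')
    rw [Subgroup.mem_subgroupOf]
    have h3 : ((n * c * n⁻¹ : N) : D) = (n.1 * c.1 * n.1⁻¹ * c.1⁻¹) * c.1 := by
      push_cast
      group
    rw [h3]
    exact C.mul_mem h2 hc'
  let A := N ⧸ C'
  haveI : Finite A := inferInstance
  letI : Fintype A := Fintype.ofFinite A
  let π : N →* A := QuotientGroup.mk' C'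
  have hπs : Function.Surjective π := QuotientGroup.mk'_surjective C'
  have hπk : ∀ n : N, π n = 1 ↔ (n : D) ∈ C := by
    intro n
    have : π n = 1 ↔ n ∈ C' := QuotientGroup.eq_one_iff n
    rw [this]
    exact Subgroup.mem_subgroupOf
  have hcomm : ∀ a b : A, a * b = b * a := by
    intro a b
    obtain ⟨n, rfl⟩ := hπs a
    obtain ⟨m, rfl⟩ := hπs b
    have h2 : π (n * m * n⁻¹ * m⁻¹) = 1 := (hπk _).2 (by
      have := hab n.1 n.2 m.1 m.2
      simpa using this)
    have h3 : π n * π m * (π n)⁻¹ * (π m)⁻¹ = 1 := by simpa using h2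
    calc π n * π m = (π n * π m * (π n)⁻¹ * (π m)⁻¹) * (π m * π n) := by group
      _ = π m * π n := by rw [h3, one_mul]
  have hdeg : ∀ χ : IrrCharacter A, (χ : A → ℂ) 1 = 1 := fun χ =>
    Cfsg.Agent.Lib.CharCodegP.irr_one_of_comm hcomm χ.2
  -- the linear characters of `N`
  let ε : IrrCharacter A → (N → ℂ) := fun χ n => (χ : A → ℂ) (π n)
  have hε : ∀ χ, IsIrrCharacter N (ε χ) := fun χ =>
    isIrrCharacter_comp_of_surjective π hπs χ.2
  have hεC : ∀ χ (n : N), (n : D) ∈ C → ε χ n = 1 := by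
    intro χ n hn
    show (χ : A → ℂ) (π n) = 1
    rw [(hπk n).2 hn, hdeg]
  -- column orthogonality
  have hcol : ∀ n : N, ∑ χ : IrrCharacter A, conj (ε χ n) =
      if (n : D) ∈ C then (Nat.card A : ℂ) else 0 := by
    intro n
    have h2 := sum_irr_deg_mul (G := A) (π n)⁻¹
    have h3 : ∀ χ : IrrCharacter A, conj (ε χ n) = (χ : A → ℂ) 1 * (χ : A → ℂ) (π n)⁻¹ := by
      intro χ
      rw [hdeg, one_mul]
      exact char_conj_eq_inv (IsIrrCharacter.isCharacter χ.2) (π n)
    rw [Finset.sum_congr rfl fun χ _ => h3 χ, h2]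
    have h4 : (π n)⁻¹ = 1 ↔ (n : D) ∈ C := by
      rw [inv_eq_one, hπk]
    by_cases h5 : (n : D) ∈ C
    · rw [if_pos (h4.2 h5), if_pos h5]
    · rw [if_neg (fun h => h5 (h4.1 h)), if_neg h5]
  -- cardinalities
  have hcard : Nat.card N = Nat.card A * Nat.card C := by
    have h2 : Nat.card C' = Nat.card C :=
      Nat.card_congr (Subgroup.subgroupOfEquivOfLe hCN).toEquiv
    rw [Subgroup.card_eq_card_quotient_mul_card_subgroup C', h2]
  have hCne : (Nat.card C : ℂ) ≠ 0 := natCard_ne_zero'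
  have hAne : (Nat.card A : ℂ) ≠ 0 := natCard_ne_zero'
  have hNne : (Nat.card N : ℂ) ≠ 0 := natCard_ne_zero'
  -- some linear character lies below `ζ`
  have hsum : ∑ χ : IrrCharacter A, classInner (fun n : N => ζ n) (ε χ) =
      classInner (fun c : C => ζ c) (fun _ => (1:ℂ)) := by
    unfold classInner
    rw [← Finset.mul_sum, Finset.sum_comm]
    have h2 : ∀ n : N, ∑ χ : IrrCharacter A, ζ n * conj (ε χ n) =
        (if (n : D) ∈ C then ζ n else 0) * (Nat.card A : ℂ) := by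
      intro n
      rw [← Finset.mul_sum, hcol n]
      by_cases h5 : (n : D) ∈ C
      · rw [if_pos h5, if_pos h5]
      · rw [if_neg h5, if_neg h5]; simp
    rw [Finset.sum_congr rfl fun n _ => h2 n, ← Finset.sum_mul, sum_ind C N hCN ζ]
    simp only [map_one, mul_one]
    rw [hcard]
    push_cast
    field_simp
  obtain ⟨χ, hχ⟩ : ∃ χ : IrrCharacter A, classInner (fun n : N => ζ n) (ε χ) ≠ 0 := by
    by_contra hno
    push_neg at hno
    apply hb
    rw [← hsum]
    exact Finset.sum_eq_zero fun χ _ => hno χ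
  -- the multiplicity of `ε χ` in `P` is one
  have hone : classInner (fun n : N => P n) (ε χ) = 1 := by
    unfold classInner
    have h2 : ∀ n : N, P n * conj (ε χ n) = if (n : D) ∈ C then P n else 0 := by
      intro n
      by_cases h5 : (n : D) ∈ C
      · rw [if_pos h5, hεC χ n h5]; simp
      · rw [if_neg h5, h0 n.1 n.2 h5, zero_mul]
    rw [Finset.sum_congr rfl fun n _ => h2 n, sum_ind C N hCN P]
    exact h1
  -- decomposition of `P`
  obtain ⟨m, hm⟩ := exists_nat_decomp hP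
  refine ⟨m ⟨ζ, hζ⟩, ?_, ?_⟩
  · rw [hm]
    exact classInner_nat_decomp m ζ hζ
  have hk : ∀ i : IrrCharacter D, ∃ k : ℕ,
      classInner (fun n : N => (i : D → ℂ) n) (ε χ) = k := fun i =>
    classInner_char_irr (isCharacter_restrict N (IsIrrCharacter.isCharacter i.2)) (hε χ)
  choose k hk using hk
  have hPsum : (fun n : N => P n) = ∑ i : IrrCharacter D, m i • (fun n : N => (i : D → ℂ) n) := by
    funext n
    rw [hm]
    simp [Finset.sum_apply, Pi.smul_apply]
  have htot : ∑ i : IrrCharacter D, m i * k i = 1 := by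
    have h2 : ((∑ i : IrrCharacter D, m i * k i : ℕ) : ℂ) = 1 := by
      rw [← hone, hPsum, classInner_sum_left]
      push_cast
      refine Finset.sum_congr rfl fun i _ => ?_
      rw [← Nat.cast_smul_eq_nsmul ℂ, classInner_smul_left, hk i]
    exact_mod_cast h2
  have hkζ : k ⟨ζ, hζ⟩ ≠ 0 := by
    intro h2
    apply hχ
    have := hk ⟨ζ, hζ⟩
    rw [h2] at this
    simpa using this
  have hle : m ⟨ζ, hζ⟩ * k ⟨ζ, hζ⟩ ≤ 1 := by
    rw [← htot]
    exact Finset.single_le_sum (f := fun i => m i * k i) (fun i _ => Nat.zero_le _)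
      (Finset.mem_univ _)
  have hkpos : 1 ≤ k ⟨ζ, hζ⟩ := Nat.one_le_iff_ne_zero.2 hkζ
  calc m ⟨ζ, hζ⟩ = m ⟨ζ, hζ⟩ * 1 := (mul_one _).symm
    _ ≤ m ⟨ζ, hζ⟩ * k ⟨ζ, hζ⟩ := Nat.mul_le_mul_left _ hkpos
    _ ≤ 1 := hle

end Cfsg.Agent.Lib.OddXw
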