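import Mathlib
import Cfsg.Agent.Lib.OddXe
import Cfsg.Agent.Lib.OddXv
import Cfsg.Agent.Lib.OddXw
import Cfsg.Agent.Lib.OddXTop

/-!
# The small-degree theorem
-/

set_option autoImplicit false

namespace Cfsg.Agent.Lib.OddX

open Cfsg Cfsg.Agent.Lib.CharBasic

universe u

theorem core_final {D : Type u} [Group D] [Fintype D] {x : D} {r : ℕ} (hS : XS x r)
    (W₁ : IrrCharacter D) (hfix : ∑ i ∈ Finset.range r, W₁.1 (x ^ i) = 0) {d : ℕ}
    (hd : W₁.1 1 = d) (hdr : 2 * d + 1 ≤ r) : d = 1 := by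
  classical
  refine core_aux hS W₁ hfix hd hdr ?_ ?_
  · intro n h1 h2
    have h3 := (NN x).inv_mem h1
    rw [mem_NN, inv_inv] at h3
    exact Cfsg.Agent.Lib.OddXv.vanish_off hS.prime hS.order (IsIrrCharacter.isCharacter W₁.2) hfix h3
      (fun h => h2 (mem_CC.2 h))
  · intro P hP h0 h1 ζ hζ hb
    exact @Cfsg.Agent.Lib.OddXw.mult_le_one D _ _ (CC x) (NN x) (fintypeSubL4 _) (fintypeSubL4 _) CC_le_NN
      (fun n hn m hm => comm_NN hS hn hm) P hP h0 h1 ζ hζ hb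

/-- **The small-degree theorem**. -/
theorem thmX {D : Type u} [Group D] [Fintype D] (hodd : Odd (Nat.card D)) {x : D} {r : ℕ}
    (hr : r.Prime) (hx : orderOf x = r) (hC : IsCyclic (Subgroup.centralizer ({x} : Set D)))
    (W : D → ℂ) (hW : IsCharacter D W) (hfaith : ∀ g, W g = W 1 → g = 1) {n : ℕ}
    (hn : W 1 = n) (hnr : 2 * n + 1 ≤ r) (hfix : ∑ i ∈ Finset.range r, W (x ^ i) = 0) :
    ∀ g, g * x * g⁻¹ ∈ Subgroup.zpowers x :=
  thmX_of_core (fun hS W₁ hf _ hd hdr => core_final hS W₁ hf hd hdr) hodd hr hx hC W hW hfaith hn hnr hfix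

end Cfsg.Agent.Lib.OddX
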