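import Mathlib
import Cfsg.Agent.Lib.OmCalc

/-!
# Two generators of `Ω`: the abstract core

`M ≤ GL(ι, F)` containing `a` and `sE(u, w₀) * j`, where `a` fixes the singular vector `u` and `j a j⁻¹` commutes with
`a` and fixes `u`, contains `sE(u, (a - 1)(1 - j a j⁻¹) w₀)`.
-/

set_option autoImplicit false
set_option linter.unusedSectionVars false
set_option linter.unusedVariables false

namespace Cfsg.Agent.Lib.OmTwoCore

open Matrix QuadraticMap Cfsg Cfsg.Geo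
open Cfsg.Agent.Lib.OrthoBasic Cfsg.Agent.Lib.OrthoSiegel Cfsg.Agent.Lib.OrthoGen
  Cfsg.Agent.Lib.OrthoCount Cfsg.Agent.Lib.OrthoFinal Cfsg.Agent.Lib.OmCalc
open Cfsg.Agent.Lib.SympT (GL_ext mulVec_mul_GL mulVec_inv_GL inv_mulVec_GL)

local notation:70 g:71 " ⋆ " x:70 => Matrix.mulVec (Units.val g) x

variable {ι : Type} [Fintype ι] [DecidableEq ι] {F : Type*} [Field F] [Fintype F]
variable {Q : QuadraticForm F (ι → F)}

/-! ### Siegel transformations and `Ω` with a frame -/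

theorem sE_mem_omega (hQ : Nondeg Q) (h4 : Fintype.card ι ≠ 4) (fr : Frame Q) {e y : ι → F} (he : Q e = 0)
    (hy : polar Q e y = 0) : sE hQ he hy ∈ omegaGL ⇑Q := by
  have h1 : commutator (OG Q) = siegelE Q := omega_eq_E hQ (genR_top hQ h4) fr
  have h2 : siegel hQ he hy ∈ commutator (OG Q) := by
    rw [h1]
    exact siegel_mem hQ he hy
  rw [← map_commutator_equiv (isoOG ⇑Q Q (fun _ => rfl))] at h2
  obtain ⟨h₀, hh₀, h3⟩ := h2
  refine ⟨h₀, hh₀, ?_⟩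
  have h4 : glEquiv (h₀ : GL ι F) = ((siegel hQ he hy : OG Q) : (ι → F) ≃ₗ[F] (ι → F)) := by
    rw [← isoOG_coe]
    exact congrArg Subtype.val h3
  show (h₀ : GL ι F) = _
  rw [sE, ← h4, MulEquiv.symm_apply_apply]

theorem omega_le_of_sE (hQ : Nondeg Q) (h4 : Fintype.card ι ≠ 4) (fr : Frame Q) {M : Subgroup (GL ι F)}
    (h : ∀ e y (he : Q e = 0) (hy : polar Q e y = 0), sE hQ he hy ∈ M) : omegaGL ⇑Q ≤ M := by
  have h1 : commutator (OG Q) = siegelE Q := omega_eq_E hQ (genR_top hQ h4) fr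
  rintro _ ⟨g', hg', rfl⟩
  have h2 : isoOG ⇑Q Q (fun _ => rfl) g' ∈ commutator (OG Q) := by
    rw [← map_commutator_equiv (isoOG ⇑Q Q (fun _ => rfl))]
    exact ⟨g', hg', rfl⟩
  rw [h1] at h2
  have key : ∀ x ∈ siegelE Q, glEquiv.symm ((x : OG Q) : (ι → F) ≃ₗ[F] (ι → F)) ∈ M := by
    intro x hx
    induction hx using Subgroup.closure_induction with
    | mem x hx =>
      obtain ⟨e, y, he, hy, hs⟩ := hx
      convert h e y he hy using 1
      apply GL_ext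
      intro z
      rw [sE_apply]
      have h3 := glEquiv_apply (glEquiv.symm ((x : OG Q) : (ι → F) ≃ₗ[F] (ι → F))) z
      rw [MulEquiv.apply_symm_apply] at h3
      rw [← h3, hs]
    | one => simp [M.one_mem]
    | mul x y _ _ hx hy =>
      rw [Subgroup.coe_mul, map_mul]
      exact M.mul_mem hx hy
    | inv x _ hx =>
      rw [Subgroup.coe_inv, map_inv]
      exact M.inv_mem hx
  have h3 := key _ h2
  rw [isoOG_coe, MulEquiv.symm_apply_apply] at h3
  exact h3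

/-- From two opposite good centres: `Ω ≤ M`. -/
theorem omega_le_of_opp' (hQ : Nondeg Q) (h7 : 7 ≤ Fintype.card ι) (fr : Frame Q) {M : Subgroup (GL ι F)}
    {e e' : ι → F} (he : T hQ M e) (he' : T hQ M e') (h : polar Q e' e ≠ 0) : omegaGL ⇑Q ≤ M :=
  omega_le_of_sE hQ (by omega) fr (fun z y hz hy => by
    obtain ⟨_, _, h1⟩ := (T_opp h7 he he' h hz).2 y hy
    exact h1)

/-- A pair of generators of `Ω` generates it, as soon as the subgroup of `GL` contains `Ω`. -/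
theorem closure_eq_top_of_le {q : (ι → F) → F} (a b : Omega F q)
    (h : omegaGL q ≤ ((Subgroup.closure ({a, b} : Set (Omega F q))).map (Omega F q).subtype).map
      (isometryGroup F q).subtype) :
    Subgroup.closure ({a, b} : Set (Omega F q)) = ⊤ := by
  rw [eq_top_iff]
  rintro x -
  have h1 : ((x : isometryGroup F q) : GL ι F) ∈ omegaGL q := ⟨x, x.2, rfl⟩
  obtain ⟨y, hy, hyx⟩ := h h1
  obtain ⟨z, hz, rfl⟩ := hy
  have : z = x := by
    apply Subtype.ext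
    apply Subtype.ext
    exact hyx
  rwa [← this]

/-- Images of two generators of `Ω` generate `PΩ`. -/
theorem exists_gen_pomega {q : (ι → F) → F} (a b : Omega F q)
    (h : Subgroup.closure ({a, b} : Set (Omega F q)) = ⊤) :
    ∃ a' b' : POmega F q, Subgroup.closure ({a', b'} : Set (POmega F q)) = ⊤ := by
  refine ⟨QuotientGroup.mk a, QuotientGroup.mk b, ?_⟩
  have h2 := congrArg (Subgroup.map (QuotientGroup.mk' (Subgroup.center (Omega F q)))) h
  rw [MonoidHom.map_closure, Set.image_pair, Subgroup.map_top_of_surjective _ (QuotientGroup.mk'_surjective _)] at h2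
  exact h2

/-! ### Conjugation of Siegel transformations -/

variable (hQ : Nondeg Q)

theorem sE_congr {e e' y y' : ι → F} (he : Q e = 0) (hy : polar Q e y = 0) (he' : Q e' = 0)
    (hy' : polar Q e' y' = 0) (h1 : e = e') (h2 : y = y') : sE hQ he hy = sE hQ he' hy' := by
  subst h1
  subst h2
  rfl

theorem sE_mul {e y y' : ι → F} (he : Q e = 0) (hy : polar Q e y = 0) (hy' : polar Q e y' = 0)
    (hyy : polar Q e (y + y') = 0) : sE hQ he hy * sE hQ he hy' = sE hQ he hyy := by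
  apply GL_ext
  intro x
  rw [mulVec_mul_GL, sE_apply, sE_apply, sE_apply, siegelLin_comp he hy hy']

theorem sE_inv {e y y' : ι → F} (he : Q e = 0) (hy : polar Q e y = 0) (hy' : polar Q e y' = 0)
    (h : y' = -y) : (sE hQ he hy)⁻¹ = sE hQ he hy' := by
  rw [inv_eq_iff_mul_eq_one]
  have h0 : polar Q e (y + y') = 0 := by rw [polar_add_right, hy, hy', add_zero]
  rw [sE_mul hQ he hy hy' h0]
  apply GL_ext
  intro x
  rw [sE_apply, h, add_neg_cancel, siegelLin_zero]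
  simp

theorem sE_conj {t : GL ι F} (ht : ∀ v, Q (t ⋆ v) = Q v) {e y : ι → F} (he : Q e = 0) (hy : polar Q e y = 0)
    (he' : Q (t ⋆ e) = 0) (hy' : polar Q (t ⋆ e) (t ⋆ y) = 0) :
    t * sE hQ he hy * t⁻¹ = sE hQ he' hy' := by
  apply GL_ext
  intro x
  rw [mulVec_mul_GL, mulVec_mul_GL, sE_apply, sE_apply, siegelLin_apply, siegelLin_apply, Matrix.mulVec_sub,
    Matrix.mulVec_add, Matrix.mulVec_smul, Matrix.mulVec_smul, mulVec_inv_GL, ht]
  have h3 : ∀ w, polar Q x (t ⋆ w) = polar Q (t⁻¹ ⋆ x) w := by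
    intro w
    rw [← polar_iso ht (t⁻¹ ⋆ x) w, mulVec_inv_GL]
  rw [h3, h3]

/-- The basic extraction. -/
theorem R_core {M : Subgroup (GL ι F)} {a a' j : GL ι F} {u w₀ : ι → F} (hu : Q u = 0) (hw : polar Q u w₀ = 0)
    (ha : ∀ v, Q (a ⋆ v) = Q v) (ha' : ∀ v, Q (a' ⋆ v) = Q v)
    (hau : a ⋆ u = u) (ha'u : a' ⋆ u = u) (hjj : j * a * j⁻¹ = a') (hcomm : a * a' = a' * a)
    (haM : a ∈ M) (hbM : sE hQ hu hw * j ∈ M) :
    R hQ M u (a ⋆ (w₀ - a' ⋆ w₀) - (w₀ - a' ⋆ w₀)) := by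
  have hpol : ∀ {t : GL ι F}, (∀ v, Q (t ⋆ v) = Q v) → t ⋆ u = u → ∀ {y}, polar Q u y = 0 → polar Q u (t ⋆ y) = 0 := by
    intro t ht htu y hy
    have := polar_iso ht u y
    rw [htu] at this
    rw [this, hy]
  set t := sE hQ hu hw with ht
  have hw1 : polar Q u (a' ⋆ w₀) = 0 := hpol ha' ha'u hw
  have hw2 : polar Q u (w₀ - a' ⋆ w₀) = 0 := by rw [polar_sub_right, hw, hw1, sub_zero]
  have hw3 : polar Q u (a ⋆ (w₀ - a' ⋆ w₀)) = 0 := hpol ha hau hw2
  have hw4 : polar Q u (a ⋆ (w₀ - a' ⋆ w₀) - (w₀ - a' ⋆ w₀)) = 0 := by rw [polar_sub_right, hw3, hw2, sub_zero]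
  -- `b a b⁻¹ = s₁ a'`
  set s₁ := sE hQ hu hw2 with hs₁
  have h1 : (t * j) * a * (t * j)⁻¹ = s₁ * a' := by
    have h2 : a' * t⁻¹ * a'⁻¹ = sE hQ hu (y := -(a' ⋆ w₀)) (by rw [polar_neg_right, hw1, neg_zero]) := by
      have h3 : t⁻¹ = sE hQ hu (y := -w₀) (by rw [polar_neg_right, hw, neg_zero]) := sE_inv hQ hu hw _ rfl
      rw [h3, sE_conj hQ ha' hu _ (by rw [ha'u]; exact hu)
        (by rw [ha'u, Matrix.mulVec_neg, polar_neg_right, hw1, neg_zero])]
      exact sE_congr hQ _ _ _ _ ha'u (Matrix.mulVec_neg _ _)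
    have h4 : s₁ = t * (a' * t⁻¹ * a'⁻¹) := by
      rw [h2, ht, sE_mul hQ hu hw _ (by rw [polar_add_right, hw, polar_neg_right, hw1, neg_zero, add_zero])]
      exact sE_congr hQ _ _ _ _ rfl (sub_eq_add_neg _ _)
    rw [h4, ← hjj]
    group
  have h5 : a * s₁ * a⁻¹ = sE hQ hu hw3 := by
    rw [hs₁, sE_conj hQ ha hu hw2 (by rw [hau]; exact hu) (by rw [hau]; exact hw3)]
    exact sE_congr hQ _ _ _ _ hau rfl
  have h6 : a * (s₁ * a') * a⁻¹ * (s₁ * a')⁻¹ = sE hQ hu hw4 := by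
    have h7 : a * (s₁ * a') * a⁻¹ * (s₁ * a')⁻¹ = (a * s₁ * a⁻¹) * s₁⁻¹ := by
      have : a * (s₁ * a') * a⁻¹ * (s₁ * a')⁻¹ = a * s₁ * (a' * a⁻¹ * a'⁻¹) * s₁⁻¹ := by group
      rw [this]
      have h8 : a' * a⁻¹ * a'⁻¹ = a⁻¹ := by
        rw [mul_inv_eq_iff_eq_mul]
        exact ((show Commute a a' from hcomm).inv_left).eq.symm
      rw [h8]
    rw [h7, h5, sE_inv hQ hu hw2 (y' := -(w₀ - a' ⋆ w₀)) (by rw [polar_neg_right, hw2, neg_zero]) rfl,
      sE_mul hQ hu hw3 _ (by rw [polar_add_right, hw3, polar_neg_right, hw2, neg_zero, add_zero])]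
    exact sE_congr hQ _ _ _ _ rfl (sub_eq_add_neg _ _).symm
  have hmem : a * (s₁ * a') * a⁻¹ * (s₁ * a')⁻¹ ∈ M := by
    have h9 : s₁ * a' ∈ M := by
      rw [← h1]
      exact M.mul_mem (M.mul_mem hbM haM) (M.inv_mem hbM)
    exact M.mul_mem (M.mul_mem (M.mul_mem haM h9) (M.inv_mem haM)) (M.inv_mem h9)
  rw [h6] at hmem
  exact ⟨hu, hw4, hmem⟩

/-- The set of second arguments of `R`, as an additive subgroup. -/
def Rset (hQ : Nondeg Q) (M : Subgroup (GL ι F)) (u : ι → F) (hu : Q u = 0) : AddSubgroup (ι → F) where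
  carrier := {y | R hQ M u y}
  add_mem' := fun h h' => R_add h h'
  zero_mem' := R_zero hu
  neg_mem' := fun h => R_neg h

theorem mem_Rset {M : Subgroup (GL ι F)} {u : ι → F} {hu : Q u = 0} {y : ι → F} :
    y ∈ Rset hQ M u hu ↔ R hQ M u y := Iff.rfl

/-- The conclusion from a module argument. -/
theorem omega_le_core (h7 : 7 ≤ Fintype.card ι) (fr : Frame Q) {M : Subgroup (GL ι F)} {a a' j : GL ι F}
    {u w₀ : ι → F} (hu : Q u = 0) (hw : polar Q u w₀ = 0)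
    (ha : ∀ v, Q (a ⋆ v) = Q v) (ha' : ∀ v, Q (a' ⋆ v) = Q v) (hj : ∀ v, Q (j ⋆ v) = Q v)
    (hau : a ⋆ u = u) (ha'u : a' ⋆ u = u) (hjj : j * a * j⁻¹ = a') (hcomm : a * a' = a' * a)
    (hopp : polar Q (j ⋆ u) u ≠ 0)
    (hP : ∀ P : AddSubgroup (ι → F), (∀ c : F, c • u ∈ P) → (∀ x ∈ P, a ⋆ x ∈ P) →
      (a ⋆ (w₀ - a' ⋆ w₀) - (w₀ - a' ⋆ w₀)) ∈ P → ∀ y, polar Q u y = 0 → y ∈ P)
    (haM : a ∈ M) (hbM : sE hQ hu hw * j ∈ M) : omegaGL ⇑Q ≤ M := by
  have h1 := R_core hQ hu hw ha ha' hau ha'u hjj hcomm haM hbM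
  have hT : T hQ M u := by
    refine ⟨hu, fun y hy => ?_⟩
    refine hP (Rset hQ M u hu) (fun c => R_self hu c) (fun x hx => ?_) h1 y hy
    have := R_conj ha haM hx
    rwa [hau] at this
  have htM : sE hQ hu hw ∈ M := by
    obtain ⟨_, _, h2⟩ := hT.2 w₀ hw
    exact h2
  have hjM : j ∈ M := by
    have := M.mul_mem (M.inv_mem htM) hbM
    rwa [inv_mul_cancel_left] at this
  have hT' : T hQ M (j ⋆ u) := T_conj hj hjM hT
  exact omega_le_of_opp' hQ h7 fr hT hT' hopp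

end Cfsg.Agent.Lib.OmTwoCore
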