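import Mathlib
import Cfsg.Agent.Lib.OmTS
import Cfsg.Agent.Lib.OmTwoCore
import Cfsg.Agent.Lib.OmPair

/-!
# Quadratic spaces of odd dimension at least seven: elements of `Ω` from reflections, and totally singular stabilisers
-/

set_option autoImplicit false
set_option linter.unusedSectionVars false
set_option linter.unusedVariables false
set_option linter.unusedSimpArgs false
set_option linter.style.longLine false

namespace Cfsg.Agent.Lib.Om7Aux

open Matrix QuadraticMap Cfsg Cfsg.Geo Module
open Cfsg.Agent.Lib.OrthoBasic Cfsg.Agent.Lib.OrthoSiegel Cfsg.Agent.Lib.OmCalc Cfsg.Agent.Lib.TvGL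
  Cfsg.Agent.Lib.OmPerp Cfsg.Agent.Lib.OmTwoCore
open Cfsg.Agent.Lib.SympT (GL_ext mulVec_mul_GL mulVec_inv_GL inv_mulVec_GL linOf linOf_apply finrank_le_of_maps)
open Cfsg.Agent.Lib.QuadFF (nondegenerate_of_ND polar_sm_r polar_sm_l Q_ad Q_sm IsHyp)
open Cfsg.Agent.Lib.OrthGroup Cfsg.Agent.Lib.OrthOmega Cfsg.Agent.Lib.OrthMatrix Cfsg.Agent.Lib.SpinorCrit

local notation:70 g:71 " ⋆ " x:70 => Matrix.mulVec (Units.val g) x

variable {ι : Type} [Fintype ι] [DecidableEq ι] {F : Type*} [Field F] [Fintype F]
  {Q : QuadraticForm F (ι → F)}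

/-- A product of reflections with the spinor condition lies in `omegaGL`. -/
theorem mem_list (hQ' : Nondeg Q) (h7 : 7 ≤ Fintype.card ι) (L : List (ι → F)) (hL : ∀ v ∈ L, Q v ≠ 0)
    (he : Even L.length) (hs : IsSquare (L.map Q).prod) {g : GL ι F} (hg : ∀ x, g ⋆ x = prodR Q L x) :
    g ∈ omegaGL ⇑Q := by
  have hB : (B Q).Nondegenerate := nondegenerate_of_ND (nd_of hQ')
  have hiso : g ∈ isometryGroup F ⇑Q := by
    rw [mem_isometryGroup]
    intro v
    rw [hg]
    exact (prodO Q L).2 v
  refine ⟨⟨g, hiso⟩, ?_, rfl⟩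
  rw [SetLike.mem_coe]
  show (⟨g, hiso⟩ : ↥(isometryGroup F ⇑Q)) ∈ Omega F ⇑Q
  rw [mem_Omega_iff]
  have h1 : toO Q ⟨g, hiso⟩ = prodO Q L := by
    apply Subtype.ext
    ext1 x
    rw [toO_apply]
    exact hg x
  rw [h1, mem_Omega_prodO_iff Q hB (Or.inr (by simp; omega)) L hL]
  exact ⟨he, hs⟩

/-- Action of a product of reflections in an orthogonal family. -/
lemma prodR_family {K : Type} [DecidableEq K] (e : K → ι → F) (ho : ∀ i j, i ≠ j → polar Q (e i) (e j) = 0)
    (hn : ∀ i, Q (e i) ≠ 0) (l : List K) (hl : l.Nodup) (j : K) :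
    prodR Q (l.map e) (e j) = if j ∈ l then - e j else e j := by
  induction l with
  | nil => simp
  | cons a l ih =>
    rw [List.map_cons, prodR_cons, LinearEquiv.mul_apply, ih (List.nodup_cons.1 hl).2]
    have hnot := (List.nodup_cons.1 hl).1
    by_cases hja : j = a
    · subst hja
      rw [if_neg hnot, if_pos List.mem_cons_self, refl_self Q (hn j)]
    · have hmem : j ∈ a :: l ↔ j ∈ l := by simp [hja]
      have hperp : refl Q (e a) (e j) = e j := refl_of_perp Q (ho j a hja)
      by_cases hjl : j ∈ l
      · rw [if_pos hjl, if_pos (hmem.2 hjl), map_neg, hperp]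
      · rw [if_neg hjl, if_neg (fun h => hjl (hmem.1 h)), hperp]

/-- The element `-r_w` lies in `Ω` when the norm of `w` is the product of the norms of an orthogonal basis, in odd dimension. -/
theorem exists_tau (hQ' : Nondeg Q) (h7 : 7 ≤ Fintype.card ι) {K : Type} [Fintype K] [DecidableEq K] (hK : Odd (Fintype.card K))
    (e : K → ι → F) (ho : ∀ i j, i ≠ j → polar Q (e i) (e j) = 0) (hn : ∀ i, Q (e i) ≠ 0)
    (hs : ∀ x, ∃ c : K → F, x = ∑ j, c j • e j) {w : ι → F} (hw : Q w = ∏ j, Q (e j)) :
    ∃ t ∈ omegaGL ⇑Q, ∀ x, t ⋆ x = (((∏ j, Q (e j))⁻¹) * polar Q x w) • w - x := by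
  classical
  set δ := ∏ j, Q (e j) with hδ
  have hδ0 : δ ≠ 0 := Finset.prod_ne_zero_iff.2 (fun j _ => hn j)
  obtain ⟨l, hl⟩ : ∃ l : List K, l = Finset.univ.toList := ⟨_, rfl⟩
  have hnd : l.Nodup := by rw [hl]; exact Finset.nodup_toList _
  have hmem : ∀ j, j ∈ l := fun j => by rw [hl]; simp
  have hlen : l.length = Fintype.card K := by rw [hl, Finset.length_toList, Finset.card_univ]
  have hall : ∀ x, prodR Q (l.map e) x = - x := by
    intro x
    obtain ⟨c, rfl⟩ := hs x
    rw [map_sum, ← Finset.sum_neg_distrib]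
    refine Finset.sum_congr rfl (fun j _ => ?_)
    rw [map_smul, prodR_family e ho hn l hnd j, if_pos (hmem j), smul_neg]
  have hprod : ((l.map e).map Q).prod = δ := by
    rw [List.map_map, hδ, hl]
    exact Finset.prod_map_toList _ _
  obtain ⟨t, ht⟩ := Cfsg.Agent.Lib.OmPair.exists_gl_prodR (Q := Q) (w :: l.map e)
  refine ⟨t, mem_list hQ' h7 (w :: l.map e) ?_ ?_ ?_ ht, fun x => ?_⟩
  · intro v hv
    rcases List.mem_cons.1 hv with rfl | hv
    · rw [hw]
      exact hδ0
    · obtain ⟨j, -, rfl⟩ := List.mem_map.1 hv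
      exact hn j
  · rw [List.length_cons, List.length_map, hlen]
    exact hK.add_one
  · rw [List.map_cons, List.prod_cons, hprod, hw]
    exact ⟨δ, rfl⟩
  · rw [ht, prodR_cons, LinearEquiv.mul_apply, hall, map_neg, refl_apply, hw]
    have hB' : B Q x w = polar Q x w := rfl
    rw [hB']
    abel

/-- An orthogonal basis of a non-degenerate quadratic form. -/
theorem exists_orth {V : Type*} {E : Type*} [Field E] [AddCommGroup V] [Module E V] [FiniteDimensional E V]
    {q : QuadraticForm E V} (hq : Nondeg q) (h2 : (2 : E) ≠ 0) :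
    ∃ e : Fin (finrank E V) → V, (∀ i j, i ≠ j → polar q (e i) (e j) = 0) ∧ (∀ i, q (e i) ≠ 0) ∧
      ∀ x, ∃ c : Fin (finrank E V) → E, x = ∑ j, c j • e j := by
  classical
  haveI : Invertible (2 : E) := invertibleOfNonzero h2
  have hsym : (polarBilin q : LinearMap.BilinForm E V).IsSymm := ⟨fun x y => by
    show polar q x y = polar q y x
    exact polar_comm q x y⟩
  obtain ⟨v, hv⟩ := LinearMap.BilinForm.exists_orthogonal_basis hsym
  have hpol : ∀ i j, i ≠ j → polar q (v i) (v j) = 0 := fun i j hij => hv hij
  refine ⟨v, hpol, fun i h0 => ?_, fun x => ⟨fun j => v.repr x j, by rw [v.sum_repr]⟩⟩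
  obtain ⟨y, hy⟩ := hq (v i) (v.ne_zero i)
  apply hy
  have h3 : ∀ z, polar q (v i) z = polarBilin q (v i) z := fun z => rfl
  rw [h3 y, ← v.sum_repr y, map_sum]
  refine Finset.sum_eq_zero (fun j _ => ?_)
  rw [map_smul, ← h3, smul_eq_mul]
  by_cases hij : i = j
  · subst hij
    have : polar q (v i) (v i) = 2 * q (v i) := by
      have := QuadraticMap.polar_self q (v i)
      rw [this, h0]
      simp [h0]
    rw [this, h0]
    simp
  · rw [hpol i j hij, mul_zero]

theorem polar_of_ts {W : Submodule F (ι → F)} (hW : ∀ w ∈ W, Q w = 0) {u v : ι → F} (hu : u ∈ W) (hv : v ∈ W) :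
    polar Q u v = 0 := Cfsg.Agent.Lib.OmTS.polar_of_ts hW hu hv

/-- The stabiliser of a totally singular subspace is maximal in `Ω` (when the orthogonal modulo the subspace is not
a plus-type plane). -/
theorem ts_maximal7 (hQ : Nondeg Q) (h7 : 7 ≤ Fintype.card ι) (fr : Frame Q) {W : Submodule F (ι → F)} (hW0 : W ≠ ⊥)
    (hW : ∀ w ∈ W, Q w = 0)
    (hgood : ∀ u, u ∉ W → (∀ w ∈ W, polar Q w u = 0) → Q u = 0 → 2 * (finrank F W + 1) ≠ Fintype.card ι) :
    IsMaximalIn (omegaGL ⇑Q) (subspaceStabilizer W ⊓ omegaGL ⇑Q) := by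
  classical
  have hND := nd_of hQ
  have hd : finrank F (ι → F) = Fintype.card ι := by simp
  have hB : (polarBilin Q : LinearMap.BilinForm F (ι → F)).Nondegenerate := nondegenerate_of_ND hND
  have hrefl : (polarBilin Q : LinearMap.BilinForm F (ι → F)).IsRefl := by
    intro x y hxy
    have : polar Q x y = 0 := hxy
    show polar Q y x = 0
    rwa [polar_comm]
  have hmemO : ∀ {e y : ι → F} (he : Q e = 0) (hy : polar Q e y = 0), sE hQ he hy ∈ omegaGL ⇑Q :=
    fun he hy => sE_mem_omega hQ (by omega) fr he hy
  refine ⟨lt_of_le_of_ne inf_le_right ?_, ?_⟩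
  · -- properness
    intro he
    obtain ⟨w, hw, hw0⟩ := Submodule.exists_mem_ne_zero_of_ne_bot hW0
    obtain ⟨e, he0, hwe⟩ := Cfsg.Agent.Lib.OmGeo.exists_sing_opp hND (by omega) hw0
    obtain ⟨a, b, hab, h1⟩ := Cfsg.Agent.Lib.OmGeo.exists_hyp_perp hND {e} (by simp; omega)
    obtain ⟨h1a, h1b⟩ := h1 e (by simp)
    set y := a + b with hy
    have hQy : Q y = 1 := by
      rw [hy, Q_ad, hab.Qv, hab.Qw, hab.vw]
      ring
    have hey : polar Q e y = 0 := by rw [hy, polar_add_right, h1a, h1b, add_zero]
    have ht : sE hQ he0 hey ∈ subspaceStabilizer W ⊓ omegaGL ⇑Q := by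
      rw [he]
      exact hmemO he0 hey
    have h2 := ((mem_stab_iff W _).1 ht.1 w).1 hw
    have h3 := polar_of_ts hW hw h2
    rw [sE_apply', polar_sub_right, polar_add_right, polar_sm_r, polar_sm_r, polar_of_ts hW hw hw, hQy] at h3
    apply hwe
    have h4 : polar Q w e * polar Q w e = 0 := by
      linear_combination -h3
    exact mul_self_eq_zero.1 h4
  · intro M hHM hMK
    by_cases hne : M = subspaceStabilizer W ⊓ omegaGL ⇑Q
    · exact Or.inl hne
    right
    obtain ⟨g, hgM, hgH⟩ : ∃ g ∈ M, g ∉ subspaceStabilizer W ⊓ omegaGL ⇑Q := by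
      by_contra hcon
      push Not at hcon
      exact hne (le_antisymm hcon hHM)
    have hgS : g ∉ subspaceStabilizer W := fun h => hgH ⟨h, hMK hgM⟩
    have hMi : ∀ t ∈ M, ∀ v, Q (t ⋆ v) = Q v := fun t ht => iso_omega (hMK ht)
    -- the subspace consists of good centres
    have hTW : ∀ w ∈ W, T hQ M w := by
      intro w hw
      refine ⟨hW w hw, fun y hy => ?_⟩
      refine ⟨hW w hw, hy, hHM ⟨mem_stab_of_map_le W _ ?_, hmemO _ _⟩⟩
      intro x hx
      rw [sE_apply', polar_of_ts hW hx hw]
      simp only [zero_smul, add_zero, mul_zero]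
      exact W.sub_mem hx (W.smul_mem _ hw)
    obtain ⟨w, hw, hgw⟩ : ∃ w ∈ W, g ⋆ w ∉ W := by
      by_contra h1
      push Not at h1
      exact hgS (mem_stab_of_map_le W g h1)
    set u := g ⋆ w with hu
    have huT : T hQ M u := T_conj (hMi g hgM) hgM (hTW w hw)
    have hQu : Q u = 0 := huT.1
    refine le_antisymm hMK ?_
    by_cases huperp : ∀ w' ∈ W, polar Q w' u = 0
    · -- `u` lies in the orthogonal
      have hgd := hgood u hgw huperp hQu
      -- a partner in the orthogonal
      set B : LinearMap.BilinForm F (ι → F) := polarBilin Q with hBdef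
      have hperp : ∀ z, z ∈ B.orthogonal W ↔ ∀ s ∈ W, polar Q s z = 0 := fun z =>
        LinearMap.BilinForm.mem_orthogonal_iff
      have hperpW : B.orthogonal (B.orthogonal W) = W := LinearMap.BilinForm.orthogonal_orthogonal hB hrefl W
      obtain ⟨a, haW, hua⟩ : ∃ a ∈ B.orthogonal W, polar Q a u ≠ 0 := by
        by_contra hcon
        push Not at hcon
        apply hgw
        rw [← hperpW, LinearMap.BilinForm.mem_orthogonal_iff]
        exact hcon
      set a' : ι → F := (polar Q a u)⁻¹ • a with ha'
      have ha'u : polar Q a' u = 1 := by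
        rw [ha', polar_sm_l, inv_mul_cancel₀ hua]
      have ha'W : a' ∈ B.orthogonal W := Submodule.smul_mem _ _ haW
      have huW : u ∈ B.orthogonal W := (hperp u).2 huperp
      set c : ι → F := a' - Q a' • u with hc
      have hcW : c ∈ B.orthogonal W := Submodule.sub_mem _ ha'W (Submodule.smul_mem _ _ huW)
      have hcu : polar Q c u = 1 := by
        rw [hc, polar_sub_left, polar_sm_l Q (Q a') u u, ha'u, polar_self_zero hQu]
        ring
      have hQc : Q c = 0 := by
        rw [hc, sub_eq_add_neg, Q_ad, QuadraticMap.map_neg, Q_sm (c := Q a') (x := u), hQu, polar_neg_right,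
          polar_sm_r, ha'u]
        ring
      -- a non-singular vector orthogonal to everything
      obtain ⟨y, hyW, hQy⟩ : ∃ y ∈ B.orthogonal (W ⊔ Submodule.span F {u, c}), Q y ≠ 0 := by
        by_contra hcon
        push Not at hcon
        set Y := B.orthogonal (W ⊔ Submodule.span F {u, c}) with hY
        have hfY : finrank F Y = finrank F (ι → F) - finrank F ↥(W ⊔ Submodule.span F {u, c}) :=
          LinearMap.BilinForm.finrank_orthogonal hB _
        have h1 : finrank F ↥(W ⊔ Submodule.span F {u, c}) ≤ finrank F W + 2 := by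
          have h2 := Submodule.finrank_add_le_finrank_add_finrank W (Submodule.span F {u, c})
          have h3 := Cfsg.Agent.Lib.SympTIPair.finrank_span_two (F := F) u c
          omega
        have hleY : ∀ z ∈ Y, polar Q u z = 0 := by
          intro z hz
          exact LinearMap.BilinForm.mem_orthogonal_iff.1 hz u
            (Submodule.mem_sup_right (Submodule.subset_span (by simp)))
        -- `Y + ⟨u⟩` is totally singular
        have hts : ∀ z ∈ Y ⊔ Submodule.span F {u}, Q z = 0 := by
          intro z hz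
          obtain ⟨y', hy', z', hz', rfl⟩ := Submodule.mem_sup.1 hz
          obtain ⟨r, rfl⟩ := Submodule.mem_span_singleton.1 hz'
          rw [Q_ad, hcon y' hy', Q_sm, hQu, polar_sm_r, polar_comm, hleY y' hy']
          ring
        have h2 := Cfsg.Agent.Lib.OmGeo.finrank_le_of_ts hND _ hts
        have huY : u ∉ Y := by
          intro hmem
          have := LinearMap.BilinForm.mem_orthogonal_iff.1 hmem c
            (Submodule.mem_sup_right (Submodule.subset_span (by simp)))
          have h3 : polar Q c u = 0 := this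
          rw [hcu] at h3
          exact one_ne_zero h3
        have h3 : finrank F ↥(Y ⊔ Submodule.span F {u}) = finrank F Y + 1 := by
          have hdisj : Disjoint Y (Submodule.span F {u}) := by
            rw [Submodule.disjoint_def]
            intro x hx hx'
            obtain ⟨r, rfl⟩ := Submodule.mem_span_singleton.1 hx'
            by_contra hne0
            have hr : r ≠ 0 := by
              rintro rfl
              simp at hne0
            apply huY
            have := Y.smul_mem r⁻¹ hx
            rwa [smul_smul, inv_mul_cancel₀ hr, one_smul] at this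
          have h4 := Submodule.finrank_sup_add_finrank_inf_eq Y (Submodule.span F {u})
          rw [hdisj.eq_bot, finrank_bot, add_zero] at h4
          have hu0 : u ≠ 0 := by
            intro h0
            rw [h0, polar_zero_right] at hcu
            exact zero_ne_one hcu
          rw [finrank_span_singleton hu0] at h4
          exact h4
        -- `W + ⟨u⟩` is totally singular
        have hts' : ∀ z ∈ W ⊔ Submodule.span F {u}, Q z = 0 := by
          intro z hz
          obtain ⟨y', hy', z', hz', rfl⟩ := Submodule.mem_sup.1 hz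
          obtain ⟨r, rfl⟩ := Submodule.mem_span_singleton.1 hz'
          rw [Q_ad, hW y' hy', Q_sm, hQu, polar_sm_r, huperp y' hy']
          ring
        have h4 := Cfsg.Agent.Lib.OmGeo.finrank_le_of_ts hND _ hts'
        have h5 : finrank F ↥(W ⊔ Submodule.span F {u}) = finrank F W + 1 := by
          have hdisj : Disjoint W (Submodule.span F {u}) := by
            rw [Submodule.disjoint_def]
            intro x hx hx'
            obtain ⟨r, rfl⟩ := Submodule.mem_span_singleton.1 hx'
            by_contra hne0
            have hr : r ≠ 0 := by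
              rintro rfl
              simp at hne0
            apply hgw
            have := W.smul_mem r⁻¹ hx
            rwa [smul_smul, inv_mul_cancel₀ hr, one_smul] at this
          have h6 := Submodule.finrank_sup_add_finrank_inf_eq W (Submodule.span F {u})
          rw [hdisj.eq_bot, finrank_bot, add_zero] at h6
          have hu0 : u ≠ 0 := by
            intro h0
            rw [h0, polar_zero_right] at hcu
            exact zero_ne_one hcu
          rw [finrank_span_singleton hu0] at h6
          exact h6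
        have hne' := Submodule.finrank_le (W ⊔ Submodule.span F {u, c})
        rw [hd] at h2 h4 hne' hfY
        omega
      have hyperp : ∀ s ∈ W ⊔ Submodule.span F {u, c}, polar Q s y = 0 := fun s hs =>
        LinearMap.BilinForm.mem_orthogonal_iff.1 hyW s hs
      have hyc : polar Q c y = 0 := hyperp c (Submodule.mem_sup_right (Submodule.subset_span (by simp)))
      have hyu : polar Q u y = 0 := hyperp u (Submodule.mem_sup_right (Submodule.subset_span (by simp)))
      have hywW : ∀ x ∈ W, polar Q x y = 0 := fun x hx => hyperp x (Submodule.mem_sup_left hx)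
      have hcwW : ∀ x ∈ W, polar Q x c = 0 := (hperp c).1 hcW
      have htH : sE hQ hQc hyc ∈ M := by
        refine hHM ⟨mem_stab_of_map_le W _ ?_, hmemO _ _⟩
        intro x hx
        rw [sE_apply', hywW x hx, hcwW x hx]
        simpa using hx
      have h6 := T_conj (sE_iso hQ hQc hyc) htH huT
      have huc : polar Q u c = 1 := by rw [polar_comm]; exact hcu
      have h7' : polar Q (sE hQ hQc hyc ⋆ u) u ≠ 0 := by
        rw [sE_apply', huc, hyu, polar_sub_left, polar_add_left, polar_sm_l, polar_sm_l, polar_self_zero hQu,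
          hcu, polar_comm Q y u, hyu]
        simpa using hQy
      exact omega_le_of_opp' hQ h7 fr huT h6 h7'
    · push Not at huperp
      obtain ⟨w', hw', hne'⟩ := huperp
      exact omega_le_of_opp' hQ h7 fr huT (hTW w' hw') hne'

end Cfsg.Agent.Lib.Om7Aux
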