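import Mathlib
import Cfsg.Agent.Lib.OmCalc
import Cfsg.Agent.Lib.TvGL
import Cfsg.Agent.Lib.SympTIPair
import Cfsg.Agent.H28.Sf

/-!
# Orthogonal groups in dimension at least seven: Siegel generation and totally singular stabilisers

Versions of `OmCalc.exists_frame`, `OmCalc.sE_mem_omegaGL`, `OmCalc.omegaGL_le`, `OmCalc.omega_le_of_opp` and
`OmTS.ts_maximal` under `7 ≤ Fintype.card ι`.
-/

set_option autoImplicit false
set_option linter.unusedSectionVars false
set_option linter.unusedVariables false

namespace Cfsg.Agent.Lib.Om7Base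

open Matrix QuadraticMap Cfsg Cfsg.Geo Module
open Cfsg.Agent.Lib.OrthoBasic Cfsg.Agent.Lib.OrthoSiegel Cfsg.Agent.Lib.OrthoGen Cfsg.Agent.Lib.OrthoCount Cfsg.Agent.Lib.OrthoFinal
open Cfsg.Agent.Lib.OmCalc Cfsg.Agent.Lib.TvGL
open Cfsg.Agent.Lib.SympT (GL_ext mulVec_mul_GL mulVec_inv_GL inv_mulVec_GL)
open Cfsg.Agent.Lib.QuadFF (nondegenerate_of_ND polar_sm_r polar_sm_l Q_ad Q_sm)

local notation:70 g:71 " ⋆ " x:70 => Matrix.mulVec (Units.val g) x

variable {ι : Type} [Fintype ι] [DecidableEq ι] {F : Type*} [Field F] [Fintype F]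
  {Q : QuadraticForm F (ι → F)}

theorem exists_frame7 (hQ : Nondeg Q) (h7 : 7 ≤ Fintype.card ι) : Nonempty (Frame Q) := by
  classical
  have hd : Module.finrank F (ι → F) = Fintype.card ι := by simp
  have hND := nd_of hQ
  obtain ⟨a, b, hab, -⟩ := Cfsg.Agent.Lib.OmGeo.exists_hyp_perp hND ∅ (by simp; omega)
  obtain ⟨a', b', hab', h1⟩ := Cfsg.Agent.Lib.OmGeo.exists_hyp_perp hND {a, b} (by
    have : ({a, b} : Finset (ι → F)).card ≤ 2 := Finset.card_le_two
    omega)
  have e1 := h1 a (by simp)
  have e2 := h1 b (by simp)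
  have hba : polar Q b a = 1 := by rw [polar_comm]; exact hab.vw
  have hba' : polar Q b' a' = 1 := by rw [polar_comm]; exact hab'.vw
  have haa : polar Q a a = 0 := by rw [polar_self', hab.Qv, mul_zero]
  have hbb : polar Q b b = 0 := by rw [polar_self', hab.Qw, mul_zero]
  have haa' : polar Q a' a' = 0 := by rw [polar_self', hab'.Qv, mul_zero]
  have hbb' : polar Q b' b' = 0 := by rw [polar_self', hab'.Qw, mul_zero]
  have e3 : polar Q a' a = 0 := by rw [polar_comm]; exact e1.1
  have e4 : polar Q b' a = 0 := by rw [polar_comm]; exact e1.2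
  have e5 : polar Q a' b = 0 := by rw [polar_comm]; exact e2.1
  have e6 : polar Q b' b = 0 := by rw [polar_comm]; exact e2.2
  have hC : ∀ s ∈ Submodule.span F ((({a, b, a', b'} : Finset (ι → F))) : Set (ι → F)),
      (∀ c ∈ ({a, b, a', b'} : Finset (ι → F)), polar Q c s = 0) → s = 0 := by
    intro s hs hp
    simp only [Finset.coe_insert, Finset.coe_singleton] at hs
    obtain ⟨r1, s1, hs1, rfl⟩ := Submodule.mem_span_insert.1 hs
    obtain ⟨r2, s2, hs2, rfl⟩ := Submodule.mem_span_insert.1 hs1
    obtain ⟨r3, s3, hs3, rfl⟩ := Submodule.mem_span_insert.1 hs2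
    obtain ⟨r4, rfl⟩ := Submodule.mem_span_singleton.1 hs3
    have p1 := hp a (by simp)
    have p2 := hp b (by simp)
    have p3 := hp a' (by simp)
    have p4 := hp b' (by simp)
    simp only [polar_add_right, polar_smul_r, haa, hab.vw, e1.1, e1.2, hba, hbb, e2.1, e2.2, e3, e4, e5, e6, haa', hbb',
      hab'.vw, hba', mul_zero, mul_one, add_zero, zero_add] at p1 p2 p3 p4
    simp [p1, p2, p3, p4]
  obtain ⟨u, z, huz, h2⟩ := Cfsg.Agent.H28.Sf.exists_hyp_perp_nd hND {a, b, a', b'} hC (by
    have : ({a, b, a', b'} : Finset (ι → F)).card ≤ 4 := Finset.card_le_four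
    omega)
  have e3 := h2 a (by simp)
  have e4 := h2 b (by simp)
  have e5 := h2 a' (by simp)
  have e6 := h2 b' (by simp)
  exact ⟨{ e₁ := a, f₁ := b, e₂ := a', f₂ := b', u₀ := u, z₀ := z,
           h₁ := ⟨hab.Qv, hab.Qw, hab.vw⟩, h₂ := ⟨hab'.Qv, hab'.Qw, hab'.vw⟩,
           e₁e₂ := e1.1, e₁f₂ := e1.2, f₁e₂ := e2.1, f₁f₂ := e2.2,
           u₀e₁ := by rw [polar_comm]; exact e3.1,
           u₀f₁ := by rw [polar_comm]; exact e4.1,
           u₀e₂ := by rw [polar_comm]; exact e5.1,
           u₀f₂ := by rw [polar_comm]; exact e6.1,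
           z₀e₁ := by rw [polar_comm]; exact e3.2,
           z₀f₁ := by rw [polar_comm]; exact e4.2,
           z₀e₂ := by rw [polar_comm]; exact e5.2,
           z₀f₂ := by rw [polar_comm]; exact e6.2,
           uz := by rw [huz.vw]; exact one_ne_zero }⟩

theorem sE_mem_omegaGL7 (hQ : Nondeg Q) (h11 : 7 ≤ Fintype.card ι) {e y : ι → F} (he : Q e = 0)
    (hy : polar Q e y = 0) : sE hQ he hy ∈ omegaGL ⇑Q := by
  obtain ⟨fr⟩ := exists_frame7 hQ h11
  have h1 : commutator (OG Q) = siegelE Q := omega_eq_E hQ (genR_top hQ (by omega)) fr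
  have h2 : siegel hQ he hy ∈ commutator (OG Q) := by
    rw [h1]
    exact siegel_mem hQ he hy
  rw [← map_commutator_equiv (isoOG ⇑Q Q (fun _ => rfl))] at h2
  obtain ⟨h₀, hh₀, h3⟩ := h2
  refine ⟨h₀, hh₀, ?_⟩
  have h4 : glEquiv (h₀ : GL ι F) = ((siegel hQ he hy : OG Q) : (ι → F) ≃ₗ[F] (ι → F)) := by
    rw [← isoOG_coe]
    exact congrArg Subtype.val h3
  show (h₀ : GL ι F) = _
  rw [sE, ← h4, MulEquiv.symm_apply_apply]

theorem omegaGL_le7 (hQ : Nondeg Q) (h11 : 7 ≤ Fintype.card ι) {M : Subgroup (GL ι F)}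
    (h : ∀ e y (he : Q e = 0) (hy : polar Q e y = 0), sE hQ he hy ∈ M) : omegaGL ⇑Q ≤ M := by
  obtain ⟨fr⟩ := exists_frame7 hQ h11
  have h1 : commutator (OG Q) = siegelE Q := omega_eq_E hQ (genR_top hQ (by omega)) fr
  rintro _ ⟨g', hg', rfl⟩
  have h2 : isoOG ⇑Q Q (fun _ => rfl) g' ∈ commutator (OG Q) := by
    rw [← map_commutator_equiv (isoOG ⇑Q Q (fun _ => rfl))]
    exact ⟨g', hg', rfl⟩
  rw [h1] at h2
  have key : ∀ x ∈ siegelE Q, glEquiv.symm ((x : OG Q) : (ι → F) ≃ₗ[F] (ι → F)) ∈ M := by
    intro x hx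
    induction hx using Subgroup.closure_induction with
    | mem x hx =>
      obtain ⟨e, y, he, hy, hs⟩ := hx
      convert h e y he hy using 1
      apply GL_ext
      intro z
      rw [sE_apply]
      have h3 := glEquiv_apply (glEquiv.symm ((x : OG Q) : (ι → F) ≃ₗ[F] (ι → F))) z
      rw [MulEquiv.apply_symm_apply] at h3
      rw [← h3, hs]
    | one => simp [M.one_mem]
    | mul x y _ _ hx hy =>
      rw [Subgroup.coe_mul, map_mul]
      exact M.mul_mem hx hy
    | inv x _ hx =>
      rw [Subgroup.coe_inv, map_inv]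
      exact M.inv_mem hx
  have h3 := key _ h2
  rw [isoOG_coe, MulEquiv.symm_apply_apply] at h3
  exact h3


theorem omega_le_of_T7 (hQ : Nondeg Q) {M : Subgroup (GL ι F)} (h11 : 7 ≤ Fintype.card ι) (h : ∀ z, Q z = 0 → T hQ M z) : omegaGL ⇑Q ≤ M :=
  omegaGL_le7 hQ h11 (fun e y he hy => by
    obtain ⟨_, _, h1⟩ := (h e he).2 y hy
    exact h1)

theorem omega_le_of_opp7 (hQ : Nondeg Q) {M : Subgroup (GL ι F)} (h11 : 7 ≤ Fintype.card ι) {e e' : ι → F} (he : T hQ M e) (he' : T hQ M e')
    (h : polar Q e' e ≠ 0) : omegaGL ⇑Q ≤ M :=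
  omega_le_of_T7 hQ h11 (fun _ hz => T_opp (by omega) he he' h hz)

theorem polar_of_ts7 {W : Submodule F (ι → F)} (hW : ∀ w ∈ W, Q w = 0) {u v : ι → F} (hu : u ∈ W) (hv : v ∈ W) :
    polar Q u v = 0 := by
  rw [polar, hW _ (W.add_mem hu hv), hW _ hu, hW _ hv]
  ring

/-- The stabiliser of a totally singular subspace is maximal in `Ω` (when the orthogonal modulo the subspace is not
a plus-type plane). -/
theorem ts_maximal7 (hQ : Nondeg Q) (h11 : 7 ≤ Fintype.card ι) {W : Submodule F (ι → F)} (hW0 : W ≠ ⊥)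
    (hW : ∀ w ∈ W, Q w = 0)
    (hgood : ∀ u, u ∉ W → (∀ w ∈ W, polar Q w u = 0) → Q u = 0 → 2 * (finrank F W + 1) ≠ Fintype.card ι) :
    IsMaximalIn (omegaGL ⇑Q) (subspaceStabilizer W ⊓ omegaGL ⇑Q) := by
  classical
  have hND := nd_of hQ
  have hd : finrank F (ι → F) = Fintype.card ι := by simp
  have hB : (polarBilin Q : LinearMap.BilinForm F (ι → F)).Nondegenerate := nondegenerate_of_ND hND
  have hrefl : (polarBilin Q : LinearMap.BilinForm F (ι → F)).IsRefl := by
    intro x y hxy
    have : polar Q x y = 0 := hxy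
    show polar Q y x = 0
    rwa [polar_comm]
  refine ⟨lt_of_le_of_ne inf_le_right ?_, ?_⟩
  · -- properness
    intro he
    obtain ⟨w, hw, hw0⟩ := Submodule.exists_mem_ne_zero_of_ne_bot hW0
    obtain ⟨e, he0, hwe⟩ := Cfsg.Agent.Lib.OmGeo.exists_sing_opp hND (by omega) hw0
    obtain ⟨a, b, hab, h1⟩ := Cfsg.Agent.Lib.OmGeo.exists_hyp_perp hND {e} (by simp; omega)
    obtain ⟨h1a, h1b⟩ := h1 e (by simp)
    set y := a + b with hy
    have hQy : Q y = 1 := by
      rw [hy, Q_ad, hab.Qv, hab.Qw, hab.vw]
      ring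
    have hey : polar Q e y = 0 := by rw [hy, polar_add_right, h1a, h1b, add_zero]
    have ht : sE hQ he0 hey ∈ subspaceStabilizer W ⊓ omegaGL ⇑Q := by
      rw [he]
      exact sE_mem_omegaGL7 hQ h11 he0 hey
    have h2 := ((mem_stab_iff W _).1 ht.1 w).1 hw
    have h3 := polar_of_ts7 hW hw h2
    rw [sE_apply', polar_sub_right, polar_add_right, polar_sm_r, polar_sm_r, polar_of_ts7 hW hw hw, hQy] at h3
    apply hwe
    have h4 : polar Q w e * polar Q w e = 0 := by
      linear_combination -h3
    exact mul_self_eq_zero.1 h4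
  · intro M hHM hMK
    by_cases hne : M = subspaceStabilizer W ⊓ omegaGL ⇑Q
    · exact Or.inl hne
    right
    obtain ⟨g, hgM, hgH⟩ : ∃ g ∈ M, g ∉ subspaceStabilizer W ⊓ omegaGL ⇑Q := by
      by_contra hcon
      push Not at hcon
      exact hne (le_antisymm hcon hHM)
    have hgS : g ∉ subspaceStabilizer W := fun h => hgH ⟨h, hMK hgM⟩
    have hMi : ∀ t ∈ M, ∀ v, Q (t ⋆ v) = Q v := fun t ht => iso_omega (hMK ht)
    -- the subspace consists of good centres
    have hTW : ∀ w ∈ W, T hQ M w := by
      intro w hw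
      refine ⟨hW w hw, fun y hy => ?_⟩
      refine ⟨hW w hw, hy, hHM ⟨mem_stab_of_map_le W _ ?_, sE_mem_omegaGL7 hQ h11 _ _⟩⟩
      intro x hx
      rw [sE_apply', polar_of_ts7 hW hx hw]
      simp only [zero_smul, add_zero, mul_zero]
      exact W.sub_mem hx (W.smul_mem _ hw)
    obtain ⟨w, hw, hgw⟩ : ∃ w ∈ W, g ⋆ w ∉ W := by
      by_contra h1
      push Not at h1
      exact hgS (mem_stab_of_map_le W g h1)
    set u := g ⋆ w with hu
    have huT : T hQ M u := T_conj (hMi g hgM) hgM (hTW w hw)
    have hQu : Q u = 0 := huT.1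
    refine le_antisymm hMK ?_
    by_cases huperp : ∀ w' ∈ W, polar Q w' u = 0
    · -- `u` lies in the orthogonal
      have hgd := hgood u hgw huperp hQu
      -- a partner in the orthogonal
      set B : LinearMap.BilinForm F (ι → F) := polarBilin Q with hBdef
      have hperp : ∀ z, z ∈ B.orthogonal W ↔ ∀ s ∈ W, polar Q s z = 0 := fun z =>
        LinearMap.BilinForm.mem_orthogonal_iff
      have hperpW : B.orthogonal (B.orthogonal W) = W := LinearMap.BilinForm.orthogonal_orthogonal hB hrefl W
      obtain ⟨a, haW, hua⟩ : ∃ a ∈ B.orthogonal W, polar Q a u ≠ 0 := by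
        by_contra hcon
        push Not at hcon
        apply hgw
        rw [← hperpW, LinearMap.BilinForm.mem_orthogonal_iff]
        exact hcon
      set a' : ι → F := (polar Q a u)⁻¹ • a with ha'
      have ha'u : polar Q a' u = 1 := by
        rw [ha', polar_sm_l, inv_mul_cancel₀ hua]
      have ha'W : a' ∈ B.orthogonal W := Submodule.smul_mem _ _ haW
      have huW : u ∈ B.orthogonal W := (hperp u).2 huperp
      set c : ι → F := a' - Q a' • u with hc
      have hcW : c ∈ B.orthogonal W := Submodule.sub_mem _ ha'W (Submodule.smul_mem _ _ huW)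
      have hcu : polar Q c u = 1 := by
        rw [hc, polar_sub_left, polar_sm_l Q (Q a') u u, ha'u, polar_self_zero hQu]
        ring
      have hQc : Q c = 0 := by
        rw [hc, sub_eq_add_neg, Q_ad, QuadraticMap.map_neg, Q_sm (c := Q a') (x := u), hQu, polar_neg_right,
          polar_sm_r, ha'u]
        ring
      -- a non-singular vector orthogonal to everything
      obtain ⟨y, hyW, hQy⟩ : ∃ y ∈ B.orthogonal (W ⊔ Submodule.span F {u, c}), Q y ≠ 0 := by
        by_contra hcon
        push Not at hcon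
        set Y := B.orthogonal (W ⊔ Submodule.span F {u, c}) with hY
        have hfY : finrank F Y = finrank F (ι → F) - finrank F ↥(W ⊔ Submodule.span F {u, c}) :=
          LinearMap.BilinForm.finrank_orthogonal hB _
        have h1 : finrank F ↥(W ⊔ Submodule.span F {u, c}) ≤ finrank F W + 2 := by
          have h2 := Submodule.finrank_add_le_finrank_add_finrank W (Submodule.span F {u, c})
          have h3 := Cfsg.Agent.Lib.SympTIPair.finrank_span_two (F := F) u c
          omega
        have hleY : ∀ z ∈ Y, polar Q u z = 0 := by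
          intro z hz
          exact LinearMap.BilinForm.mem_orthogonal_iff.1 hz u
            (Submodule.mem_sup_right (Submodule.subset_span (by simp)))
        -- `Y + ⟨u⟩` is totally singular
        have hts : ∀ z ∈ Y ⊔ Submodule.span F {u}, Q z = 0 := by
          intro z hz
          obtain ⟨y', hy', z', hz', rfl⟩ := Submodule.mem_sup.1 hz
          obtain ⟨r, rfl⟩ := Submodule.mem_span_singleton.1 hz'
          rw [Q_ad, hcon y' hy', Q_sm, hQu, polar_sm_r, polar_comm, hleY y' hy']
          ring
        have h2 := Cfsg.Agent.Lib.OmGeo.finrank_le_of_ts hND _ hts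
        have huY : u ∉ Y := by
          intro hmem
          have := LinearMap.BilinForm.mem_orthogonal_iff.1 hmem c
            (Submodule.mem_sup_right (Submodule.subset_span (by simp)))
          have h3 : polar Q c u = 0 := this
          rw [hcu] at h3
          exact one_ne_zero h3
        have h3 : finrank F ↥(Y ⊔ Submodule.span F {u}) = finrank F Y + 1 := by
          have hdisj : Disjoint Y (Submodule.span F {u}) := by
            rw [Submodule.disjoint_def]
            intro x hx hx'
            obtain ⟨r, rfl⟩ := Submodule.mem_span_singleton.1 hx'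
            by_contra hne0
            have hr : r ≠ 0 := by
              rintro rfl
              simp at hne0
            apply huY
            have := Y.smul_mem r⁻¹ hx
            rwa [smul_smul, inv_mul_cancel₀ hr, one_smul] at this
          have h4 := Submodule.finrank_sup_add_finrank_inf_eq Y (Submodule.span F {u})
          rw [hdisj.eq_bot, finrank_bot, add_zero] at h4
          have hu0 : u ≠ 0 := by
            intro h0
            rw [h0, polar_zero_right] at hcu
            exact zero_ne_one hcu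
          rw [finrank_span_singleton hu0] at h4
          exact h4
        -- `W + ⟨u⟩` is totally singular
        have hts' : ∀ z ∈ W ⊔ Submodule.span F {u}, Q z = 0 := by
          intro z hz
          obtain ⟨y', hy', z', hz', rfl⟩ := Submodule.mem_sup.1 hz
          obtain ⟨r, rfl⟩ := Submodule.mem_span_singleton.1 hz'
          rw [Q_ad, hW y' hy', Q_sm, hQu, polar_sm_r, huperp y' hy']
          ring
        have h4 := Cfsg.Agent.Lib.OmGeo.finrank_le_of_ts hND _ hts'
        have h5 : finrank F ↥(W ⊔ Submodule.span F {u}) = finrank F W + 1 := by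
          have hdisj : Disjoint W (Submodule.span F {u}) := by
            rw [Submodule.disjoint_def]
            intro x hx hx'
            obtain ⟨r, rfl⟩ := Submodule.mem_span_singleton.1 hx'
            by_contra hne0
            have hr : r ≠ 0 := by
              rintro rfl
              simp at hne0
            apply hgw
            have := W.smul_mem r⁻¹ hx
            rwa [smul_smul, inv_mul_cancel₀ hr, one_smul] at this
          have h6 := Submodule.finrank_sup_add_finrank_inf_eq W (Submodule.span F {u})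
          rw [hdisj.eq_bot, finrank_bot, add_zero] at h6
          have hu0 : u ≠ 0 := by
            intro h0
            rw [h0, polar_zero_right] at hcu
            exact zero_ne_one hcu
          rw [finrank_span_singleton hu0] at h6
          exact h6
        have hne' := Submodule.finrank_le (W ⊔ Submodule.span F {u, c})
        rw [hd] at h2 h4 hne' hfY
        omega
      have hyperp : ∀ s ∈ W ⊔ Submodule.span F {u, c}, polar Q s y = 0 := fun s hs =>
        LinearMap.BilinForm.mem_orthogonal_iff.1 hyW s hs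
      have hyc : polar Q c y = 0 := hyperp c (Submodule.mem_sup_right (Submodule.subset_span (by simp)))
      have hyu : polar Q u y = 0 := hyperp u (Submodule.mem_sup_right (Submodule.subset_span (by simp)))
      have hywW : ∀ x ∈ W, polar Q x y = 0 := fun x hx => hyperp x (Submodule.mem_sup_left hx)
      have hcwW : ∀ x ∈ W, polar Q x c = 0 := (hperp c).1 hcW
      have htH : sE hQ hQc hyc ∈ M := by
        refine hHM ⟨mem_stab_of_map_le W _ ?_, sE_mem_omegaGL7 hQ h11 _ _⟩
        intro x hx
        rw [sE_apply', hywW x hx, hcwW x hx]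
        simpa using hx
      have h6 := T_conj (sE_iso hQ hQc hyc) htH huT
      have huc : polar Q u c = 1 := by rw [polar_comm]; exact hcu
      have h7 : polar Q (sE hQ hQc hyc ⋆ u) u ≠ 0 := by
        rw [sE_apply', huc, hyu, polar_sub_left, polar_add_left, polar_sm_l, polar_sm_l, polar_self_zero hQu,
          hcu, polar_comm Q y u, hyu]
        simpa using hQy
      exact omega_le_of_opp7 hQ h11 huT h6 h7
    · push Not at huperp
      obtain ⟨w', hw', hne'⟩ := huperp
      exact omega_le_of_opp7 hQ h11 huT (hTW w' hw') hne'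

end Cfsg.Agent.Lib.Om7Base
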