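import Mathlib
import Cfsg.Agent.Lib.Om7Aux
import Cfsg.Agent.H28.St
import Cfsg.Agent.H28.KlD

/-!
# Non-degenerate subspace stabilisers in `Ω` in small odd dimension
-/

set_option autoImplicit false
set_option linter.unusedSectionVars false
set_option linter.unusedVariables false
set_option linter.unusedSimpArgs false
set_option linter.style.longLine false

namespace Cfsg.Agent.Lib.Om7Nd

open Matrix QuadraticMap Cfsg Cfsg.Geo Module
open Cfsg.Agent.Lib.OrthoBasic Cfsg.Agent.Lib.OrthoSiegel Cfsg.Agent.Lib.OmCalc Cfsg.Agent.Lib.TvGL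
  Cfsg.Agent.Lib.OmPerp Cfsg.Agent.Lib.OmTwoCore
open Cfsg.Agent.H28.Nd Cfsg.Agent.H28.Kk Cfsg.Agent.H28.Sm Cfsg.Agent.H28.St Cfsg.Agent.H28.KlD
open Cfsg.Agent.Lib.OrthGroup Cfsg.Agent.Lib.Om7Aux Cfsg.Agent.Lib.OrthOmega Cfsg.Agent.Lib.OrthMatrix Cfsg.Agent.Lib.SpinorCrit
open Cfsg.Agent.Lib.SympT (GL_ext mulVec_mul_GL mulVec_inv_GL inv_mulVec_GL linOf linOf_apply finrank_le_of_maps)
open Cfsg.Agent.Lib.QuadFF (polar_sm_r polar_sm_l Q_ad Q_sm IsHyp ND restr polar_restr restr_apply exists_value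
  exists_hyp_partner mem_perp2)
open Cfsg.Agent.Lib.SympTIPair (finrank_span_two)

local notation:70 g:71 " ⋆ " x:70 => Matrix.mulVec (Units.val g) x

variable {ι : Type} [Fintype ι] [DecidableEq ι] {F : Type*} [Field F] [Fintype F]
  {Q : QuadraticForm F (ι → F)} {P P' : Submodule F (ι → F)} {M : Subgroup (GL ι F)}

/-- A hyperbolic partner in a summand. -/
theorem partner (hQ' : Nondeg Q) (hp : OPair Q P P') {b : ι → F} (hb : b ∈ P) (hb0 : b ≠ 0) (hQb : Q b = 0) :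
    ∃ f ∈ P, IsHyp Q b f := by
  have hnd := hp.ND hQ'
  obtain ⟨w, hw⟩ := exists_hyp_partner hnd (v := ⟨b, hb⟩) (fun h => hb0 (congrArg Subtype.val h)) hQb
  refine ⟨w, w.2, hQb, hw.Qw, ?_⟩
  have := hw.vw
  rwa [polar_restr] at this

/-- Prescribed values orthogonally to a hyperbolic pair in a summand of dimension at least four. -/
theorem val_perp (hQ' : Nondeg Q) (hp : OPair Q P P') (h4 : 4 ≤ finrank F P) {b f : ι → F} (hb : b ∈ P) (hf : f ∈ P)
    (hbf : IsHyp Q b f) (δ : F) : ∃ c ∈ P, polar Q b c = 0 ∧ polar Q f c = 0 ∧ Q c = δ := by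
  have hnd := hp.ND hQ'
  have hH : IsHyp (restr Q P) (⟨b, hb⟩ : ↥P) ⟨f, hf⟩ := by
    refine ⟨hbf.Qv, hbf.Qw, ?_⟩
    rw [polar_restr]
    exact hbf.vw
  have hdim := hH.finrank_perp2
  have hnd' := hH.ND_perp2 hnd
  obtain ⟨c, hc⟩ := exists_value hnd' (by omega) δ
  have h1 := mem_perp2.1 c.2
  rw [polar_restr, polar_restr] at h1
  exact ⟨_, (c : ↥P).2, h1.1, h1.2, hc⟩

lemma prodR_mem {L : List (ι → F)} (hL : ∀ v ∈ L, v ∈ P) {x : ι → F} (hx : x ∈ P) : prodR Q L x ∈ P := by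
  induction L with
  | nil => simpa using hx
  | cons a L ih =>
    rw [prodR_cons, LinearEquiv.mul_apply, refl_apply]
    exact P.sub_mem (ih (fun v hv => hL v (List.mem_cons_of_mem _ hv))) (P.smul_mem _ (hL a List.mem_cons_self))

lemma prodR_fix {L : List (ι → F)} {x : ι → F} (hL : ∀ v ∈ L, polar Q x v = 0) : prodR Q L x = x := by
  induction L with
  | nil => simp
  | cons a L ih =>
    rw [prodR_cons, LinearEquiv.mul_apply, ih (fun v hv => hL v (List.mem_cons_of_mem _ hv))]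
    exact refl_of_perp Q (hL a List.mem_cons_self)

/-- Elements of the stabiliser from lists of reflections in a summand. -/
theorem exists_of_list (hQ' : Nondeg Q) (h7 : 7 ≤ Fintype.card ι) (hH : ∀ t ∈ omegaGL ⇑Q, (∀ x ∈ P, t ⋆ x ∈ P) → t ∈ M)
    (L : List (ι → F)) (hLP : ∀ v ∈ L, v ∈ P) (hL : ∀ v ∈ L, Q v ≠ 0) (he : Even L.length) (hs : IsSquare (L.map Q).prod) :
    ∃ t ∈ M, ∀ x, t ⋆ x = prodR Q L x := by
  obtain ⟨t, ht⟩ := Cfsg.Agent.Lib.OmPair.exists_gl_prodR (Q := Q) L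
  refine ⟨t, hH t (mem_list hQ' h7 L hL he hs ht) (fun x hx => ?_), ht⟩
  rw [ht]
  exact prodR_mem hLP hx

/-- Scaling the axis in the other summand. -/
theorem R_scale4 (hQ' : Nondeg Q) (h7 : 7 ≤ Fintype.card ι) (hp : OPair Q P P') (h4 : 4 ≤ finrank F P)
    (hH : ∀ t ∈ omegaGL ⇑Q, (∀ x ∈ P, t ⋆ x ∈ P) → t ∈ M) (hMK : M ≤ omegaGL ⇑Q)
    {b w : ι → F} (hb : b ∈ P) (hb0 : b ≠ 0) (hw : w ∈ P') (hR : R hQ' M b w) (μ : F) : R hQ' M b (μ • w) := by
  classical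
  have hQb : Q b = 0 := hR.sing
  by_cases hμ : μ = 0
  · rw [hμ, zero_smul]
    exact R_zero hQb
  obtain ⟨f, hf, hbf⟩ := partner hQ' hp hb hb0 hQb
  have hfb : polar Q f b = 1 := by rw [polar_comm]; exact hbf.vw
  obtain ⟨x₁, hx₁, h1a, h1b, h1c⟩ := val_perp hQ' hp h4 hb hf hbf 1
  obtain ⟨x₂, hx₂, h2a, h2b, h2c⟩ := val_perp hQ' hp h4 hb hf hbf μ⁻¹
  obtain ⟨u₁, hu₁⟩ : ∃ u₁, u₁ = b - f := ⟨_, rfl⟩
  obtain ⟨u₂, hu₂⟩ : ∃ u₂, u₂ = μ⁻¹ • b - f := ⟨_, rfl⟩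
  have hQ1 : Q u₁ = -1 := by
    rw [hu₁, Cfsg.Agent.Lib.OrthoBasic.Q_sub, hQb, hbf.Qw, hbf.vw]
    ring
  have hQ2 : Q u₂ = -μ⁻¹ := by
    rw [hu₂, Cfsg.Agent.Lib.OrthoBasic.Q_sub, Q_sm, hQb, hbf.Qw, polar_sm_l, hbf.vw]
    ring
  have hμi : μ⁻¹ ≠ 0 := inv_ne_zero hμ
  obtain ⟨t, ht, htx⟩ := exists_of_list hQ' h7 hH [u₁, u₂, x₁, x₂]
    (by
      intro v hv
      simp only [List.mem_cons, List.not_mem_nil, or_false] at hv
      rcases hv with rfl | rfl | rfl | rfl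
      · rw [hu₁]; exact P.sub_mem hb hf
      · rw [hu₂]; exact P.sub_mem (P.smul_mem _ hb) hf
      · exact hx₁
      · exact hx₂)
    (by
      intro v hv
      simp only [List.mem_cons, List.not_mem_nil, or_false] at hv
      rcases hv with rfl | rfl | rfl | rfl
      · rw [hQ1]; exact neg_ne_zero.2 one_ne_zero
      · rw [hQ2]; exact neg_ne_zero.2 hμi
      · rw [h1c]; exact one_ne_zero
      · rw [h2c]; exact hμi)
    ⟨2, rfl⟩
    (by
      simp only [List.map_cons, List.map_nil, List.prod_cons, List.prod_nil, hQ1, hQ2, h1c, h2c, mul_one]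
      exact ⟨μ⁻¹, by ring⟩)
  have e1 : t ⋆ w = w := by
    rw [htx]
    refine prodR_fix (fun v hv => ?_)
    rw [polar_comm]
    simp only [List.mem_cons, List.not_mem_nil, or_false] at hv
    rcases hv with rfl | rfl | rfl | rfl
    · exact hp.orth _ (by rw [hu₁]; exact P.sub_mem hb hf) w hw
    · exact hp.orth _ (by rw [hu₂]; exact P.sub_mem (P.smul_mem _ hb) hf) w hw
    · exact hp.orth _ hx₁ w hw
    · exact hp.orth _ hx₂ w hw
  have e2 : t ⋆ b = μ • b := by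
    rw [htx]
    simp only [prodR_cons, prodR_nil, mul_one, LinearEquiv.mul_apply]
    have r1 : refl Q x₂ b = b := refl_of_perp Q (by show polar Q b x₂ = 0; exact h2a)
    have r2 : refl Q x₁ b = b := refl_of_perp Q (by show polar Q b x₁ = 0; exact h1a)
    have hB : ∀ x y, B Q x y = polar Q x y := fun _ _ => rfl
    have r3 : refl Q u₂ b = μ • f := by
      rw [refl_apply, hB, hQ2, hu₂, polar_sub_right, polar_sm_r, polar_self', hQb, hbf.vw]
      have e : (-μ⁻¹)⁻¹ * (μ⁻¹ * (2 * 0) - 1) = μ := by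
        field_simp
        ring
      rw [e, smul_sub, smul_smul, mul_inv_cancel₀ hμ, one_smul]
      abel
    have r4 : refl Q u₁ f = b := by
      rw [refl_apply, hB, hQ1, hu₁, polar_sub_right, polar_self', hbf.Qw, hfb]
      have e : (-1 : F)⁻¹ * (1 - 2 * 0) = -1 := by
        norm_num
      rw [e]
      simp
    rw [r1, r2, r3, map_smul, r4]
  have h1 := R_conj (fun v => iso_omega (hMK ht) v) ht hR
  rw [e1, e2] at h1
  exact R_smul_right hQb μ h1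

/-- The product of two reflections in vectors of the same norm. -/
theorem exists_refl_pair7 (hQ' : Nondeg Q) (h7 : 7 ≤ Fintype.card ι) (hp : OPair Q P P') {a c : ι → F} (ha : a ∈ P')
    (hQa : Q a ≠ 0) (hc : c ∈ P) (hca : Q c = Q a) :
    ∃ t ∈ omegaGL ⇑Q, (∀ z, t ⋆ z = z - ((Q a)⁻¹ * polar Q z c) • c - ((Q a)⁻¹ * polar Q z a) • a) := by
  classical
  obtain ⟨t, ht⟩ := Cfsg.Agent.Lib.OmPair.exists_gl_prodR (Q := Q) [a, c]
  have hO : t ∈ omegaGL ⇑Q := by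
    refine mem_list hQ' h7 [a, c] ?_ ?_ ?_ ht
    · intro v hv
      simp only [List.mem_cons, List.not_mem_nil, or_false] at hv
      rcases hv with rfl | rfl
      · exact hQa
      · rw [hca]
        exact hQa
    · simp
    · simp only [List.map_cons, List.map_nil, List.prod_cons, List.prod_nil, mul_one]
      rw [hca]
      exact ⟨Q a, rfl⟩
  refine ⟨t, hO, fun z => ?_⟩
  rw [ht]
  have hB : ∀ x y, B Q x y = polar Q x y := fun _ _ => rfl
  have hca' : polar Q c a = 0 := hp.orth c hc a ha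
  simp only [prodR_cons, prodR_nil, mul_one, LinearEquiv.mul_apply, refl_apply, hB, hca, polar_sub_left, polar_sm_l,
    hca']
  simp

/-- All axes in `P'`. -/
theorem all_axes4 (hQ' : Nondeg Q) (h7 : 7 ≤ Fintype.card ι) (hp : OPair Q P P') (h4 : 4 ≤ finrank F P)
    (hH : ∀ t ∈ omegaGL ⇑Q, (∀ x ∈ P, t ⋆ x ∈ P) → t ∈ M) (hMK : M ≤ omegaGL ⇑Q)
    (hH' : ∀ a ∈ P', Q a = 0 → ∀ y ∈ P', polar Q a y = 0 → R hQ' M a y)
    (hex : ¬ (finrank F P' = 2 ∧ Fintype.card F ≤ 3 ∧ ∃ s ∈ P', s ≠ 0 ∧ Q s = 0))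
    {b x : ι → F} (hb : b ∈ P) (hb0 : b ≠ 0) (hx : x ∈ P') (hx0 : x ≠ 0) (hR : R hQ' M b x) :
    ∀ w ∈ P', R hQ' M b w := by
  classical
  have hQb : Q b = 0 := hR.sing
  obtain ⟨f, hf, hbf⟩ := partner hQ' hp hb hb0 hQb
  let U : Submodule F (ι → F) :=
    { carrier := {w | w ∈ P' ∧ R hQ' M b w}
      add_mem' := fun h1 h2 => ⟨P'.add_mem h1.1 h2.1, R_add h1.2 h2.2⟩
      zero_mem' := ⟨P'.zero_mem, R_zero hQb⟩
      smul_mem' := fun c _ h => ⟨P'.smul_mem c h.1, R_scale4 hQ' h7 hp h4 hH hMK hb hb0 h.1 h.2 c⟩ }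
  have hU : ∀ {w}, w ∈ U ↔ w ∈ P' ∧ R hQ' M b w := Iff.rfl
  have hUP : U ≤ P' := fun w hw => hw.1
  have hU0 : U ≠ ⊥ := by
    intro h
    have : x ∈ U := ⟨hx, hR⟩
    rw [h, Submodule.mem_bot] at this
    exact hx0 this
  have hUeq : U = P' := by
    refine irr_abs hQ' hp U hUP hU0 ?_ ?_ hex
    · intro a ha hQa w hw hwa
      obtain ⟨c, hc, h1, -, h2⟩ := val_perp hQ' hp h4 hb hf hbf (Q a)
      have hbc : polar Q b c = 0 := h1
      obtain ⟨t, htO, ht⟩ := exists_refl_pair7 hQ' h7 hp ha hQa hc h2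
      have htM : t ∈ M := hH t htO (fun y hy => by
        rw [ht, hp.orth y hy a ha]
        simp only [mul_zero, zero_smul, sub_zero]
        exact P.sub_mem hy (P.smul_mem _ hc))
      have hti : ∀ v, Q (t ⋆ v) = Q v := fun v => iso_omega htO v
      have hR1 := R_conj hti htM hw.2
      have hbt : t ⋆ b = b := by
        rw [ht, hbc, hp.orth b hb a ha]
        simp
      have hwc : polar Q w c = 0 := by rw [polar_comm]; exact hp.orth c hc w hw.1
      have hwt : t ⋆ w = w - ((Q a)⁻¹ * polar Q w a) • a := by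
        rw [ht, hwc]
        simp
      rw [hbt, hwt] at hR1
      have hR2 := R_sub hw.2 hR1
      have e1 : w - (w - ((Q a)⁻¹ * polar Q w a) • a) = ((Q a)⁻¹ * polar Q w a) • a := by abel
      rw [e1] at hR2
      have hκ : (Q a)⁻¹ * polar Q w a ≠ 0 := mul_ne_zero (inv_ne_zero hQa) hwa
      have hR3 := R_scale4 hQ' h7 hp h4 hH hMK hb hb0 (P'.smul_mem _ ha) hR2 ((Q a)⁻¹ * polar Q w a)⁻¹
      rw [smul_smul, inv_mul_cancel₀ hκ, one_smul] at hR3
      exact ⟨ha, hR3⟩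
    · intro e he y hy hQe hey w hw
      obtain ⟨a1, a2, a3⟩ := hH' e he hQe y hy hey
      have hR1 := R_conj (sE_iso hQ' a1 a2) a3 hw.2
      have e1 : sE hQ' a1 a2 ⋆ b = b := by
        rw [sE_apply', hp.orth b hb e he, hp.orth b hb y hy]
        simp
      rw [e1, sE_apply'] at hR1
      refine ⟨?_, hR1⟩
      exact P'.sub_mem (P'.add_mem hw.1 (P'.smul_mem _ hy)) (P'.smul_mem _ he)
  intro w hw
  have : w ∈ U := by
    rw [hUeq]
    exact hw
  exact this.2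

/-- A mixed element gives all of `Ω`. -/
theorem omega_of_axes4 (hQ' : Nondeg Q) (h7 : 7 ≤ Fintype.card ι) (fr : Frame Q) (hp : OPair Q P P') (h4 : 4 ≤ finrank F P)
    (hHin : ∀ a ∈ P, Q a = 0 → ∀ y ∈ P, polar Q a y = 0 → R hQ' M a y)
    {b : ι → F} (hb : b ∈ P) (hb0 : b ≠ 0) (hQb : Q b = 0) (hall : ∀ w ∈ P', R hQ' M b w) :
    omegaGL ⇑Q ≤ M := by
  classical
  have hT : T hQ' M b := by
    refine ⟨hQb, fun y hy => ?_⟩
    obtain ⟨y₀, hy₀, y₁, hy₁, rfl⟩ := hp.decomp y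
    have h1 : polar Q b y₀ = 0 := by
      rw [polar_add_right, hp.orth b hb y₁ hy₁, add_zero] at hy
      exact hy
    exact R_add (hHin b hb hQb y₀ hy₀ h1) (hall y₁ hy₁)
  obtain ⟨c, hc, hbf⟩ := partner hQ' hp hb hb0 hQb
  obtain ⟨y, hyP, hby, hcy, hQy⟩ := val_perp hQ' hp h4 hb hc hbf 1
  have hQc := hbf.Qw
  have hbc : polar Q b c = 1 := hbf.vw
  obtain ⟨h4', h5, h6⟩ := hHin c hc hQc y hyP hcy
  have h8 := T_conj (sE_iso hQ' h4' h5) h6 hT
  refine omega_le_of_opp' hQ' h7 fr hT h8 ?_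
  rw [sE_apply', hby, hQy, polar_sub_left, polar_add_left, polar_sm_l, polar_sm_l,
    polar_self_zero hQb, polar_comm Q y b, hby, polar_comm Q c b]
  simp only [mul_zero, add_zero, zero_add, one_mul, zero_sub]
  rw [hbc]
  simp

/-- Two vectors `y ± z` give a Siegel element. -/
theorem R_of_unit0 (h2 : (2 : F) ≠ 0) (hQ' : Nondeg Q) {c : F} (hc : c ≠ 0) {y z : ι → F} (hz : Q z = 0)
    (hyz : polar Q y z = 0) (hy : Q y = c) (u₁ : UU Q M c (y + z)) (u₂ : UU Q M c (y - z)) : R hQ' M z ((-2 * c⁻¹) • y) := by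
  obtain ⟨-, g₁, hg₁, h₁⟩ := u₁
  obtain ⟨-, g₂, hg₂, h₂⟩ := u₂
  have hzy : polar Q z y = 0 := by rw [polar_comm]; exact hyz
  refine R_of_mem hQ' hz (by rw [polar_smul_r, hzy, mul_zero]) (M.mul_mem hg₁ hg₂) (fun x => ?_)
  rw [mulVec_mul_GL, h₂, h₁, siegelLin_apply, Cfsg.Agent.Lib.OrthoBasic.Q_smul, hy]
  simp only [polar_add_right, polar_sub_right, polar_sub_left, polar_smul_l, polar_smul_r, polar_self', hy, hz, hyz, hzy]
  have e1 : c⁻¹ * (c⁻¹ * (polar (⇑Q) x y - polar (⇑Q) x z) * (2 * c - 0) - polar (⇑Q) x y +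
          (c⁻¹ * (polar (⇑Q) x y - polar (⇑Q) x z) * (0 - 2 * 0) - polar (⇑Q) x z)) =
      c⁻¹ * (polar (⇑Q) x y - 3 * polar (⇑Q) x z) := by
    field_simp
    ring
  have e2 : (-2 * c⁻¹) ^ 2 * c = 4 * c⁻¹ := by
    field_simp
    ring
  rw [e2]
  rw [e1]
  module

/-- The sphere spans a summand. -/
theorem sphere_span (hQ' : Nondeg Q) (hp : OPair Q P P') (h4 : 4 ≤ finrank F P) (h2 : (2 : F) ≠ 0) (δ : F)
    (A : Submodule F (ι → F)) (hA : ∀ v ∈ P, Q v = δ → v ∈ A) : P ≤ A := by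
  classical
  obtain ⟨b, hb, f, hf, hbf, -⟩ := hp.hyp_in hQ' (C := ∅) (by simp) (by simp; omega)
  have hfb : polar Q f b = 1 := by rw [polar_comm]; exact hbf.vw
  obtain ⟨l₀, hl₀, h1, h3, hQl₀⟩ := val_perp hQ' hp h4 hb hf hbf 1
  have hs₀ : δ • b + f ∈ A := hA _ (P.add_mem (P.smul_mem _ hb) hf) (by
    rw [Q_ad, Q_sm, hbf.Qv, hbf.Qw, polar_sm_l, hbf.vw]
    ring)
  have hs : ∀ l ∈ P, polar Q b l = 0 → polar Q f l = 0 → (δ - Q l) • b + f + l ∈ A := by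
    intro l hl hbl hfl
    refine hA _ (P.add_mem (P.add_mem (P.smul_mem _ hb) hf) hl) ?_
    rw [Q_ad, Q_ad, Q_sm, hbf.Qv, hbf.Qw, polar_add_left, polar_sm_l, polar_sm_l, hbf.vw, hbl, hfl]
    ring
  have hb' : b ∈ A := by
    have e1 := hs l₀ hl₀ h1 h3
    have e2 := hs (-l₀) (P.neg_mem hl₀) (by rw [polar_neg_right, h1, neg_zero]) (by rw [polar_neg_right, h3, neg_zero])
    rw [QuadraticMap.map_neg, hQl₀] at e2
    rw [hQl₀] at e1
    have e3 := A.sub_mem (A.add_mem e1 e2) (A.smul_mem 2 hs₀)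
    have e4 : (δ - 1) • b + f + l₀ + ((δ - 1) • b + f + -l₀) - (2 : F) • (δ • b + f) = (-2 : F) • b := by
      module
    rw [e4] at e3
    have e5 := A.smul_mem (-2 : F)⁻¹ e3
    rwa [smul_smul, inv_mul_cancel₀ (neg_ne_zero.2 h2), one_smul] at e5
  have hf' : f ∈ A := by
    have := A.sub_mem hs₀ (A.smul_mem δ hb')
    rwa [add_sub_cancel_left] at this
  have hl : ∀ l ∈ P, polar Q b l = 0 → polar Q f l = 0 → l ∈ A := by
    intro l h5 h6 h8
    have := A.sub_mem (hs l h5 h6 h8) (A.add_mem (A.smul_mem (δ - Q l) hb') hf')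
    rwa [add_sub_cancel_left] at this
  intro x hx
  have hx' : x - polar Q x f • b - polar Q x b • f ∈ A := by
    refine hl _ (P.sub_mem (P.sub_mem hx (P.smul_mem _ hb)) (P.smul_mem _ hf)) ?_ ?_
    · rw [polar_sub_right, polar_sub_right, polar_sm_r, polar_sm_r, polar_self', hbf.Qv, hbf.vw, polar_comm Q b x]
      ring
    · rw [polar_sub_right, polar_sub_right, polar_sm_r, polar_sm_r, polar_self', hbf.Qw, hfb, polar_comm Q f x]
      ring
  have := A.add_mem (A.add_mem hx' (A.smul_mem (polar Q x f) hb')) (A.smul_mem (polar Q x b) hf')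
  have e : x - polar Q x f • b - polar Q x b • f + polar Q x f • b + polar Q x b • f = x := by abel
  rwa [e] at this

/-- A vector of given norm in a summand with mixed image. -/
theorem exists_mixed (hQ' : Nondeg Q) (hp : OPair Q P P') (h4 : 4 ≤ finrank F P) (hlt : finrank F P' < finrank F P)
    (h2 : (2 : F) ≠ 0) {δ : F} (hδ : δ ≠ 0) {g : GL ι F} (hgi : ∀ v, Q (g ⋆ v) = Q v) (hg : ¬ ∀ x ∈ P, g ⋆ x ∈ P) :
    ∃ v ∈ P, Q v = δ ∧ g ⋆ v ∉ P ∧ g ⋆ v ∉ P' := by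
  classical
  by_contra hno
  push Not at hno
  obtain ⟨w₀, hw₀, hQ₀, hg₀⟩ : ∃ w₀ ∈ P, Q w₀ = δ ∧ g ⋆ w₀ ∉ P := by
    by_contra hcon
    push Not at hcon
    exact hg (sphere_span hQ' hp h4 h2 δ (P.comap (linOf g).toLinearMap) (fun v hv hv' => hcon v hv hv'))
  have hg₀' : g ⋆ w₀ ∈ P' := hno w₀ hw₀ hQ₀ hg₀
  obtain ⟨w₁, hw₁, hQ₁, hg₁⟩ : ∃ w₁ ∈ P, Q w₁ = δ ∧ g ⋆ w₁ ∉ P' := by
    by_contra hcon
    push Not at hcon
    have h1 := sphere_span hQ' hp h4 h2 δ (P'.comap (linOf g).toLinearMap) (fun v hv hv' => hcon v hv hv')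
    have h3 : P.map (linOf g).toLinearMap ≤ P' := by
      rintro _ ⟨y, hy, rfl⟩
      exact h1 hy
    have h5 := Submodule.finrank_mono h3
    rw [LinearEquiv.finrank_map_eq] at h5
    omega
  have hg₁' : g ⋆ w₁ ∈ P := by
    by_contra h1
    exact hg₁ (hno w₁ hw₁ hQ₁ h1)
  have h01 : polar Q w₀ w₁ = 0 := by
    rw [← polar_iso hgi, polar_comm]
    exact hp.orth _ hg₁' _ hg₀'
  have h00 : polar Q w₀ w₀ = 2 * δ := by rw [polar_self', hQ₀]
  have h11 : polar Q w₁ w₁ = 2 * δ := by rw [polar_self', hQ₁]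
  have h2δ : 2 * δ ≠ 0 := mul_ne_zero h2 hδ
  -- the orthogonal of the plane in `P`
  obtain ⟨S, hS⟩ : ∃ S : Submodule F (ι → F), S = Submodule.span F {w₀, w₁} := ⟨_, rfl⟩
  obtain ⟨L, hL⟩ : ∃ L : Submodule F (ι → F), L = P ⊓ perpQ Q S := ⟨_, rfl⟩
  have hLmem : ∀ z, z ∈ L ↔ z ∈ P ∧ polar Q w₀ z = 0 ∧ polar Q w₁ z = 0 := by
    intro z
    rw [hL, Submodule.mem_inf, mem_perpQ, hS]
    constructor
    · rintro ⟨h1, h3⟩
      exact ⟨h1, h3 _ (Submodule.subset_span (by simp)), h3 _ (Submodule.subset_span (by simp))⟩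
    · rintro ⟨h1, h3, h5⟩
      refine ⟨h1, fun s hs => ?_⟩
      obtain ⟨α, β, rfl⟩ := Submodule.mem_span_pair.1 hs
      rw [polar_add_left, polar_sm_l, polar_sm_l, h3, h5]
      ring
  have hND : ND (restr Q L) := by
    rintro ⟨x, hx⟩ hall
    apply Subtype.ext
    show x = 0
    by_contra hx0
    obtain ⟨hxP, hx₀, hx₁⟩ := (hLmem x).1 hx
    obtain ⟨z, hz, hz'⟩ := hp.nondeg hQ' hxP hx0
    obtain ⟨z₁, hz₁⟩ : ∃ z₁, z₁ = z - ((2 * δ)⁻¹ * polar Q w₀ z) • w₀ - ((2 * δ)⁻¹ * polar Q w₁ z) • w₁ := ⟨_, rfl⟩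
    have hz₁L : z₁ ∈ L := by
      rw [hLmem, hz₁]
      refine ⟨P.sub_mem (P.sub_mem hz (P.smul_mem _ hw₀)) (P.smul_mem _ hw₁), ?_, ?_⟩
      · rw [polar_sub_right, polar_sub_right, polar_sm_r, polar_sm_r, h00, h01]
        field_simp
        ring
      · rw [polar_sub_right, polar_sub_right, polar_sm_r, polar_sm_r, h11, polar_comm Q w₁ w₀, h01]
        field_simp
        ring
    have h1 := hall ⟨z₁, hz₁L⟩
    rw [polar_restr] at h1
    apply hz'
    have h3 : polar Q x z₁ = polar Q x z := by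
      rw [hz₁, polar_sub_right, polar_sub_right, polar_sm_r, polar_sm_r, polar_comm Q x w₀, polar_comm Q x w₁, hx₀, hx₁]
      ring
    rw [← h3]
    exact h1
  have hdim : 2 ≤ finrank F L := by
    have h1 : finrank F P ≤ finrank F L + finrank F S := by
      rw [hL]
      exact finrank_inf_perp hQ' P S
    have h3 : finrank F S ≤ 2 := by
      rw [hS]
      exact finrank_span_two w₀ w₁
    omega
  obtain ⟨y, hy⟩ := exists_value hND hdim (-δ)
  obtain ⟨hyP, hy₀, hy₁⟩ := (hLmem y).1 y.2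
  rw [restr_apply] at hy
  obtain ⟨v, hv⟩ : ∃ v, v = w₀ + w₁ + (y : ι → F) := ⟨_, rfl⟩
  have hvP : v ∈ P := by
    rw [hv]
    exact P.add_mem (P.add_mem hw₀ hw₁) hyP
  have hQv : Q v = δ := by
    rw [hv, Q_ad, Q_ad, hQ₀, hQ₁, hy, h01, polar_add_left, hy₀, hy₁]
    ring
  have hv₀ : polar Q v w₀ = 2 * δ := by
    rw [hv, polar_add_left, polar_add_left, h00, polar_comm Q w₁ w₀, h01, polar_comm Q (y : ι → F) w₀, hy₀]
    ring
  have hv₁ : polar Q v w₁ = 2 * δ := by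
    rw [hv, polar_add_left, polar_add_left, h11, h01, polar_comm Q (y : ι → F) w₁, hy₁]
    ring
  by_cases hvg : g ⋆ v ∈ P
  · apply h2δ
    rw [← hv₀, ← polar_iso hgi]
    exact hp.orth _ hvg _ hg₀'
  · have hvg' := hno v hvP hQv hvg
    apply h2δ
    rw [← hv₁, ← polar_iso hgi, polar_comm]
    exact hp.orth _ hg₁' _ hvg'

/-- Conjugates of `τ`-elements. -/
theorem UU_conj7 {c : F} {w : ι → F} {g : GL ι F} (hgi : ∀ v, Q (g ⋆ v) = Q v) (hgM : g ∈ M) (hU : UU Q M c w) :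
    UU Q M c (g ⋆ w) := by
  obtain ⟨hQw, t, ht, hx⟩ := hU
  refine ⟨by rw [hgi, hQw], g * t * g⁻¹, M.mul_mem (M.mul_mem hgM ht) (M.inv_mem hgM), fun x => ?_⟩
  rw [mulVec_mul_GL, mulVec_mul_GL, hx, Matrix.mulVec_sub, Matrix.mulVec_smul, mulVec_inv_GL]
  congr 3
  rw [← polar_iso hgi (g⁻¹ ⋆ x) w, mulVec_inv_GL]

/-- The main theorem: a mixed element generates `Ω` together with the stabiliser. -/
theorem omega_le7 (hQ' : Nondeg Q) (h7 : 7 ≤ Fintype.card ι) (fr : Frame Q) (h2 : (2 : F) ≠ 0)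
    (hn : Odd (Fintype.card ι)) (hp : OPair Q P P') (h4 : 4 ≤ finrank F P) (hlt : finrank F P' < finrank F P)
    (hH : ∀ t ∈ omegaGL ⇑Q, (∀ x ∈ P, t ⋆ x ∈ P) → t ∈ M) (hMK : M ≤ omegaGL ⇑Q)
    (hex : ¬ (finrank F P' = 2 ∧ Fintype.card F ≤ 3 ∧ ∃ s ∈ P', s ≠ 0 ∧ Q s = 0))
    {g : GL ι F} (hgM : g ∈ M) (hg : ¬ ∀ x ∈ P, g ⋆ x ∈ P) : omegaGL ⇑Q ≤ M := by
  classical
  have hMi : ∀ t ∈ M, ∀ v, Q (t ⋆ v) = Q v := fun t ht => iso_omega (hMK ht)
  have hgi := hMi g hgM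
  have hHin : ∀ a ∈ P, Q a = 0 → ∀ y ∈ P, polar Q a y = 0 → R hQ' M a y := by
    intro a ha hQa y hy hay
    exact ⟨hQa, hay, hH _ (sE_mem_omega hQ' (by omega) fr hQa hay) (sE_pres hQ' hp ha hy hQa hay)⟩
  have hHin' : ∀ a ∈ P', Q a = 0 → ∀ y ∈ P', polar Q a y = 0 → R hQ' M a y := by
    intro a ha hQa y hy hay
    refine ⟨hQa, hay, hH _ (sE_mem_omega hQ' (by omega) fr hQa hay) (fun x hx => ?_)⟩
    rw [sE_apply', hp.orth x hx a ha, hp.orth x hx y hy]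
    simpa using hx
  -- the elements `-r_v`
  obtain ⟨e, ho, hne, hsp⟩ := exists_orth hQ' h2
  have hKodd : Odd (Fintype.card (Fin (finrank F (ι → F)))) := by
    rw [Fintype.card_fin, Module.finrank_fintype_fun_eq_card]
    exact hn
  obtain ⟨δ, hδd⟩ : ∃ δ, δ = ∏ j, Q (e j) := ⟨_, rfl⟩
  have hδ : δ ≠ 0 := by
    rw [hδd]
    exact Finset.prod_ne_zero_iff.2 (fun j _ => hne j)
  have hτ : ∀ w, Q w = δ → ∃ t ∈ omegaGL ⇑Q, ∀ x, t ⋆ x = (δ⁻¹ * polar Q x w) • w - x := by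
    intro w hw
    obtain ⟨t, ht, hx⟩ := exists_tau hQ' h7 hKodd e ho hne hsp (w := w) (by rw [hw, hδd])
    rw [← hδd] at hx
    exact ⟨t, ht, hx⟩
  have hτP : ∀ v ∈ P, Q v = δ → UU Q M δ v := by
    intro v hv hQv
    obtain ⟨t, ht, hx⟩ := hτ v hQv
    refine ⟨hQv, t, hH t ht (fun y hy => ?_), hx⟩
    rw [hx]
    exact P.sub_mem (P.smul_mem _ hv) hy
  have hτP' : ∀ v ∈ P', Q v = δ → UU Q M δ v := by
    intro v hv hQv
    obtain ⟨t, ht, hx⟩ := hτ v hQv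
    refine ⟨hQv, t, hH t ht (fun y hy => ?_), hx⟩
    rw [hx, hp.orth y hy v hv]
    simpa using hy
  -- the mixed vector
  obtain ⟨v, hvP, hQv, hv1, hv2⟩ := exists_mixed hQ' hp h4 hlt h2 hδ hgi hg
  have hU : UU Q M δ (g ⋆ v) := UU_conj7 hgi hgM (hτP v hvP hQv)
  obtain ⟨p, hpP, p', hp'P, hdec⟩ := hp.decomp (g ⋆ v)
  have hp0 : p ≠ 0 := by
    rintro rfl
    apply hv2
    rw [hdec, zero_add]
    exact hp'P
  have hp'0 : p' ≠ 0 := by
    rintro rfl
    apply hv1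
    rw [hdec, add_zero]
    exact hpP
  rw [hdec] at hU
  have hpp' : polar Q p p' = 0 := hp.orth p hpP p' hp'P
  have hδ2 : δ⁻¹ * δ = 1 := inv_mul_cancel₀ hδ
  -- it suffices to find a mixed Siegel element
  suffices hmix : ∃ b ∈ P, ∃ x ∈ P', b ≠ 0 ∧ x ≠ 0 ∧ R hQ' M b x by
    obtain ⟨b, hb, x, hx, hb0, hx0, hR⟩ := hmix
    exact omega_of_axes4 hQ' h7 fr hp h4 hHin hb hb0 hR.sing
      (all_axes4 hQ' h7 hp h4 hH hMK hHin' hex hb hb0 hx hx0 hR)
  by_cases hQp : Q p = 0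
  · -- the singular case
    have hQp' : Q p' = δ := by
      have := hU.1
      rw [Q_ad, hQp, hpp'] at this
      linear_combination this
    have hU' : UU Q M δ (p' + p) := by
      rw [add_comm]
      exact hU
    obtain ⟨-, t, ht, hx⟩ := hτP' p' hp'P hQp'
    have ht1 : t ⋆ (p' + p) = p' - p := by
      rw [hx, polar_add_left, polar_self', hQp', polar_comm Q p p', ]
      rw [polar_comm Q p' p] at *
      rw [hpp']
      have e : δ⁻¹ * (2 * δ + 0) = 2 := by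
        field_simp
        ring
      rw [e]
      module
    have hU2 : UU Q M δ (p' - p) := by
      rw [← ht1]
      exact UU_conj7 (hMi t ht) ht hU'
    have hp'p : polar Q p' p = 0 := by
      rw [polar_comm]
      exact hpp'
    have hR := R_of_unit0 h2 hQ' hδ hQp hp'p hQp' hU' hU2
    refine ⟨p, hpP, _, P'.smul_mem _ hp'P, hp0, smul_ne_zero ?_ hp'0, hR⟩
    exact mul_ne_zero (neg_ne_zero.2 h2) (inv_ne_zero hδ)
  · -- the general case
    obtain ⟨n, hnP, hn0, hQn, hnp⟩ := hp.singular_in hQ' (Submodule.span F {p}) (by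
      have := finrank_span_singleton (K := F) hp0
      omega)
    have hpn : polar Q p n = 0 := hnp p (Submodule.subset_span (by simp))
    have hnp' : polar Q n p = 0 := by
      rw [polar_comm]
      exact hpn
    have hnp2 : polar Q n p' = 0 := hp.orth n hnP p' hp'P
    have hR1 := hHin n hnP hQn p hpP hnp'
    obtain ⟨-, t, ht, hx⟩ := hU
    have hti := hMi t ht
    have hR2 := R_conj hti ht hR1
    have e1 : t ⋆ n = (-1 : F) • n := by
      rw [hx, polar_add_right, hnp', hnp2]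
      simp
    obtain ⟨κ, hκ⟩ : ∃ κ, κ = δ⁻¹ * (2 * Q p) := ⟨_, rfl⟩
    have e2 : t ⋆ p = κ • (p + p') - p := by
      rw [hx, polar_add_right, hpp', polar_self', hκ, add_zero]
    rw [e1, e2] at hR2
    have hR3 := R_smul_right hQn (-1) hR2
    have hR4 := hHin n hnP hQn ((κ - 1) • p) (P.smul_mem _ hpP) (by rw [polar_sm_r, hnp', mul_zero])
    have hR5 := R_add hR3 hR4
    have e3 : (-1 : F) • (κ • (p + p') - p) + (κ - 1) • p = (-κ) • p' := by
      module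
    rw [e3] at hR5
    refine ⟨n, hnP, _, P'.smul_mem _ hp'P, hn0, smul_ne_zero ?_ hp'0, hR5⟩
    rw [hκ]
    exact neg_ne_zero.2 (mul_ne_zero (inv_ne_zero hδ) (mul_ne_zero h2 hQp))

/-- Properness of the stabiliser of a non-degenerate subspace. -/
theorem stab_ne7 (hQ' : Nondeg Q) (h7 : 7 ≤ Fintype.card ι) (fr : Frame Q) (hp : OPair Q P P') {W : Submodule F (ι → F)}
    (hW : W = P ∨ W = P') (h3 : 3 ≤ finrank F P) (hP0 : ∃ y ∈ P', y ≠ 0) :
    subspaceStabilizer W ⊓ omegaGL ⇑Q ≠ omegaGL ⇑Q := by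
  classical
  intro heq
  obtain ⟨e, he, z₀, hz₀, hez, -⟩ := hp.hyp_in hQ' (C := ∅) (by simp) (by simpa using h3)
  obtain ⟨y, hy, hy0⟩ := hP0
  have hey : polar Q e y = 0 := hp.orth e he y hy
  have hO := sE_mem_omega hQ' (by omega) fr hez.Qv hey
  have hmem : sE hQ' hez.Qv hey ∈ subspaceStabilizer W ⊓ omegaGL ⇑Q := by
    rw [heq]
    exact hO
  have h1 := pres_of_mem_stab hQ' hp hW (iso_omega hO) hmem.1 z₀ hz₀
  rw [sE_apply', polar_comm Q z₀ e, hez.vw, hp.orth z₀ hz₀ y hy] at h1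
  simp only [one_smul, zero_add, mul_one] at h1
  have h2 : y ∈ P := by
    have := P.add_mem (P.sub_mem h1 hz₀) (P.smul_mem (Q y) he)
    have e : z₀ + y - Q y • e - z₀ + Q y • e = y := by abel
    rwa [e] at this
  exact hy0 (hp.eq_zero h2 hy)

/-- Maximality, different dimensions. -/
theorem stab_maximal7 (hQ' : Nondeg Q) (h7 : 7 ≤ Fintype.card ι) (fr : Frame Q) (h2 : (2 : F) ≠ 0)
    (hn : Odd (Fintype.card ι)) (hp : OPair Q P P') {W : Submodule F (ι → F)}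
    (hW : W = P ∨ W = P') (h4 : 4 ≤ finrank F P) (hlt : finrank F P' < finrank F P) (hP0 : ∃ y ∈ P', y ≠ 0)
    (hex : ¬ (finrank F P' = 2 ∧ Fintype.card F ≤ 3 ∧ ∃ s ∈ P', s ≠ 0 ∧ Q s = 0)) :
    IsMaximalIn (omegaGL ⇑Q) (subspaceStabilizer W ⊓ omegaGL ⇑Q) := by
  classical
  refine ⟨lt_of_le_of_ne inf_le_right (stab_ne7 hQ' h7 fr hp hW (by omega) hP0), ?_⟩
  intro M hHM hMK
  by_cases hne : M = subspaceStabilizer W ⊓ omegaGL ⇑Q
  · exact Or.inl hne
  right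
  obtain ⟨g, hgM, hgH⟩ : ∃ g ∈ M, g ∉ subspaceStabilizer W ⊓ omegaGL ⇑Q := by
    by_contra hcon
    push Not at hcon
    exact hne (le_antisymm hcon hHM)
  have hMi : ∀ t ∈ M, ∀ v, Q (t ⋆ v) = Q v := fun t ht => iso_omega (hMK ht)
  refine le_antisymm hMK (omega_le7 hQ' h7 fr h2 hn hp h4 hlt ?_ hMK hex hgM ?_)
  · intro t ht hpres
    exact hHM ⟨mem_stab_of_pres hQ' hp hW (iso_omega ht) hpres, ht⟩
  · intro hg
    exact hgH ⟨mem_stab_of_pres hQ' hp hW (hMi g hgM) hg, hMK hgM⟩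

/-- Maximality of stabilisers of non-degenerate subspaces in dimension at least seven, odd. -/
theorem maximal_of_nd7 (hQ' : Nondeg Q) (h7 : 7 ≤ Fintype.card ι) (fr : Frame Q) (h2 : (2 : F) ≠ 0)
    (hn : Odd (Fintype.card ι)) {W : Submodule F (ι → F)} (hW0 : W ≠ ⊥) (hW1 : W ≠ ⊤)
    (hN : IsNondegenerateOn (polar Q) W)
    (hex : ∀ P' : Submodule F (ι → F), (P' = W ∨ P' = perpQ Q W) → finrank F P' = 2 → Fintype.card F ≤ 3 →
      (∃ s ∈ P', s ≠ 0 ∧ Q s = 0) → False) :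
    IsMaximalIn (omegaGL ⇑Q) (subspaceStabilizer W ⊓ omegaGL ⇑Q) := by
  classical
  have hN' : ∀ x ∈ W, (∀ y ∈ W, polar Q x y = 0) → x = 0 := by
    intro x hx h
    by_contra hx0
    obtain ⟨y, hy, hy'⟩ := (hN x hx hx0).2
    exact hy' (h y hy)
  have hp0 := opair_of_nondeg hQ' hN'
  have hf := finrank_perpQ hQ' W
  have hft : finrank F W < Fintype.card ι := by
    have := Submodule.finrank_lt hW1
    rwa [Module.finrank_fintype_fun_eq_card] at this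
  have hf0 : 0 < finrank F W := by
    rw [Module.finrank_pos_iff]
    exact Submodule.nontrivial_iff_ne_bot.2 hW0
  have hfp : finrank F ↥(perpQ Q W) + finrank F W = Fintype.card ι := by omega
  have hne : finrank F W ≠ finrank F ↥(perpQ Q W) := by
    intro h
    obtain ⟨k, hk⟩ := hn
    omega
  by_cases hlt : finrank F W < finrank F ↥(perpQ Q W)
  · refine stab_maximal7 hQ' h7 fr h2 hn hp0 (Or.inr rfl) (by omega) hlt ?_ ?_
    · exact Cfsg.Agent.Lib.QForm.exists_ne_zero_mem hf0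
    · rintro ⟨h1, h3, h4⟩
      exact hex W (Or.inl rfl) h1 h3 h4
  · have hlt' : finrank F ↥(perpQ Q W) < finrank F W := by omega
    refine stab_maximal7 hQ' h7 fr h2 hn hp0.symm (Or.inl rfl) (by omega) hlt' ?_ ?_
    · exact Cfsg.Agent.Lib.QForm.exists_ne_zero_mem (by omega)
    · rintro ⟨h1, h3, h4⟩
      exact hex _ (Or.inr rfl) h1 h3 h4

end Cfsg.Agent.Lib.Om7Nd
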