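import Mathlib
import Cfsg.Agent.H28.Sf3
import Cfsg.Agent.Lib.Om7Nd
import Cfsg.Agent.Lib.Om7Base
import Cfsg.Agent.Lib.SpSubfield

/-!
# Subfield subgroups of `Ω` in odd dimension at least seven
-/

set_option autoImplicit false
set_option linter.unusedSectionVars false
set_option linter.unusedVariables false
set_option linter.unusedSimpArgs false
set_option linter.style.longLine false

namespace Cfsg.Agent.Lib.Om7Sf

open Matrix QuadraticMap Cfsg Cfsg.Geo Module
open Cfsg.Agent.Lib.OrthoBasic Cfsg.Agent.Lib.OmCalc Cfsg.Agent.H28.Sf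
open Cfsg.Agent.Lib.USubfield (emb emb_add emb_sub emb_neg emb_zero emb_smul emb_single emb_inj mem_iff exists_notMem_of_card)
open Cfsg.Agent.Lib.SympT (GL_ext mulVec_mul_GL mulVec_inv_GL inv_mulVec_GL)
open Cfsg.Agent.H28.KlD (UU)
open Cfsg.Agent.Lib.Om7Nd (R_of_unit0 UU_conj7 sphere_span)
open Cfsg.Agent.Lib.Om7Aux (exists_tau exists_orth)

local notation:70 g:71 " ⋆ " x:70 => Matrix.mulVec (Units.val g) x

section Abstract

/-- The subfield argument for an abstract family of elementary elements, with three indices. -/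
theorem all_X3 {G : Type*} [Group G] {ι : Type} [Fintype ι] [DecidableEq ι] {F : Type*} [Field F] [Fintype F]
    {F₀ : Subfield F} {M : Subgroup G} (X : ι → ι → F → G)
    (hXmul : ∀ i j, i ≠ j → ∀ a b, X i j a * X i j b = X i j (a + b))
    (hXcomm : ∀ i j k, i ≠ j → j ≠ k → i ≠ k → ∀ a b, X i j a * X j k b * (X i j a)⁻¹ * (X j k b)⁻¹ = X i k (a * b))
    {r : ℕ} (hr : r.Prime) (hcard : Fintype.card F = Nat.card F₀ ^ r) (hn : 3 ≤ Fintype.card ι)
    (hT : ∀ i j, i ≠ j → ∀ a ∈ F₀, X i j a ∈ M)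
    {p s : ι} (hps : p ≠ s) {a : F} (ha : a ∉ F₀) (haM : X p s a ∈ M) {i j : ι} (hij : i ≠ j) (b : F) :
    X i j b ∈ M := by
  classical
  have move_right : ∀ {i j k : ι} {a : F}, i ≠ j → j ≠ k → i ≠ k → X i j a ∈ M → X i k a ∈ M := by
    intro i j k a hij hjk hik h
    have h1 := hXcomm i j k hij hjk hik a 1
    rw [mul_one] at h1
    rw [← h1]
    have h2 := hT j k hjk 1 F₀.one_mem
    exact M.mul_mem (M.mul_mem (M.mul_mem h h2) (M.inv_mem h)) (M.inv_mem h2)
  have move_left : ∀ {i j k : ι} {a : F}, i ≠ j → k ≠ i → k ≠ j → X i j a ∈ M → X k j a ∈ M := by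
    intro i j k a hij hki hkj h
    have h1 := hXcomm k i j hki hij hkj 1 a
    rw [one_mul] at h1
    rw [← h1]
    have h2 := hT k i hki 1 F₀.one_mem
    exact M.mul_mem (M.mul_mem (M.mul_mem h2 h) (M.inv_mem h2)) (M.inv_mem h)
  have move_any : ∀ {i j : ι} {a : F}, i ≠ j → X p s a ∈ M → X i j a ∈ M := by
    intro i j a hij h
    by_cases hip : i = p
    · rw [hip] at hij ⊢
      by_cases hjs : j = s
      · rw [hjs]
        exact h
      · exact move_right hps (Ne.symm hjs) hij h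
    by_cases his : i = s
    · rw [his] at hij hip ⊢
      by_cases hjp : j = p
      · rw [hjp] at hij ⊢
        obtain ⟨z, hz⟩ := Cfsg.Agent.Lib.SubfieldMax.exists_fresh (ι := ι) {p, s} (lt_of_le_of_lt Finset.card_le_two (by omega))
        simp only [Finset.mem_insert, Finset.mem_singleton, not_or] at hz
        have h1 : X p z a ∈ M := move_right hps (Ne.symm hz.2) (Ne.symm hz.1) h
        have h2 : X s z a ∈ M := move_left (Ne.symm hz.1) (Ne.symm hps) (Ne.symm hz.2) h1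
        exact move_right (Ne.symm hz.2) hz.1 hij h2
      · have h1 : X p j a ∈ M := move_right hps hij (Ne.symm hjp) h
        exact move_left (Ne.symm hjp) (Ne.symm hps) hij h1
    · have h1 : X i s a ∈ M := move_left hps hip his h
      by_cases hjs : j = s
      · rw [hjs]
        exact h1
      · exact move_right his (Ne.symm hjs) hij h1
  have hmul : ∀ x y : F, X p s x ∈ M → X p s y ∈ M → X p s (x * y) ∈ M := by
    intro x y hx hy
    obtain ⟨z, hz⟩ := Cfsg.Agent.Lib.SubfieldMax.exists_fresh (ι := ι) {p, s} (lt_of_le_of_lt Finset.card_le_two (by omega))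
    simp only [Finset.mem_insert, Finset.mem_singleton, not_or] at hz
    have h1 : X p z x ∈ M := move_right hps (Ne.symm hz.2) (Ne.symm hz.1) hx
    have h2 : X z s y ∈ M := move_left hps hz.1 hz.2 hy
    rw [← hXcomm p z s (Ne.symm hz.1) hz.2 hps x y]
    exact M.mul_mem (M.mul_mem (M.mul_mem h1 h2) (M.inv_mem h1)) (M.inv_mem h2)
  have hadd : ∀ x y : F, X p s x ∈ M → X p s y ∈ M → X p s (x + y) ∈ M := by
    intro x y hx hy
    rw [← hXmul p s hps]
    exact M.mul_mem hx hy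
  have hneg : ∀ x : F, X p s x ∈ M → X p s (-x) ∈ M := by
    intro x hx
    have h1 := hmul _ _ (hT p s hps (-1) (F₀.neg_mem F₀.one_mem)) hx
    simpa using h1
  let R : Subring F :=
    { carrier := {x | X p s x ∈ M}
      mul_mem' := fun {x y} hx hy => hmul x y hx hy
      one_mem' := hT p s hps 1 F₀.one_mem
      add_mem' := fun {x y} hx hy => hadd x y hx hy
      zero_mem' := hT p s hps 0 F₀.zero_mem
      neg_mem' := fun {x} hx => hneg x hx }
  let S : Subfield F :=
    { R with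
      inv_mem' := by
        intro x hx
        by_cases hx0 : x = 0
        · subst hx0
          rw [_root_.inv_zero]
          exact R.zero_mem
        · have h1 : x ^ (Fintype.card F - 1) = 1 := FiniteField.pow_card_sub_one_eq_one x hx0
          have hq : 2 ≤ Fintype.card F := Fintype.one_lt_card
          have h2 : x⁻¹ = x ^ (Fintype.card F - 2) := by
            have : Fintype.card F - 1 = (Fintype.card F - 2) + 1 := by omega
            rw [this, pow_succ] at h1
            exact (eq_inv_of_mul_eq_one_left h1).symm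
          rw [h2]
          exact R.pow_mem hx _ }
  have hSmem : ∀ x, x ∈ S ↔ X p s x ∈ M := fun x => Iff.rfl
  let E₁ : IntermediateField F₀ F := S.toIntermediateField (fun x => (hSmem _).2 (hT p s hps _ x.2))
  have hE₁ : ∀ x, x ∈ E₁ ↔ X p s x ∈ M := fun x => Iff.rfl
  have hfr : Module.finrank F₀ F = r := by
    have h1 : Nat.card F = Nat.card F₀ ^ Module.finrank F₀ F := Module.natCard_eq_pow_finrank
    rw [Nat.card_eq_fintype_card, hcard] at h1
    exact (Nat.pow_right_injective (Finite.one_lt_card (α := F₀))) h1.symm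
  have htower := Module.finrank_mul_finrank F₀ E₁ F
  rw [hfr] at htower
  have hbig : E₁ = ⊤ := by
    have hd : Module.finrank F₀ E₁ ∣ r := ⟨_, htower.symm⟩
    rcases (Nat.dvd_prime hr).mp hd with h1 | h1
    · exfalso
      have := IntermediateField.finrank_eq_one_iff.mp h1
      have haE : a ∈ E₁ := (hE₁ a).2 haM
      rw [this, IntermediateField.mem_bot] at haE
      obtain ⟨y, rfl⟩ := haE
      exact ha y.2
    · rw [h1] at htower
      have hr0 := hr.pos
      have : Module.finrank E₁ F = 1 := by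
        have h2 : r * Module.finrank E₁ F = r * 1 := by rw [htower, mul_one]
        exact Nat.eq_of_mul_eq_mul_left hr0 h2
      exact IntermediateField.finrank_eq_one_iff_eq_top.mp this
  have hb : b ∈ E₁ := by rw [hbig]; trivial
  exact move_any hij ((hE₁ b).1 hb)

end Abstract

section Rational

variable {ι : Type} [Fintype ι] [DecidableEq ι] {F : Type*} [Field F] [Fintype F]
  {Q : QuadraticForm F (ι → F)} {F₀ : Subfield F}

/-- A hyperbolic pair of the rational form. -/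
theorem exists_rat_pair7 (hQ : Nondeg Q) (h : RatQ Q F₀) (C : Finset (ι → F₀))
    (hC : 2 * C.card + 3 ≤ Fintype.card ι) :
    ∃ a b : ι → F₀, Q0 h a = 0 ∧ Q0 h b = 0 ∧ polar (Q0 h) a b = 1 ∧ ∀ c ∈ C, polar (Q0 h) c a = 0 ∧ polar (Q0 h) c b = 0 := by
  obtain ⟨a, b, hab, hc⟩ := Cfsg.Agent.Lib.OmGeo.exists_hyp_perp (Q0_ND hQ h) C (by
    rw [finrank_emb]
    exact hC)
  exact ⟨a, b, hab.Qv, hab.Qw, hab.vw, hc⟩

/-- Rational singular vectors detect non-zero vectors. -/
theorem exists_rat_sing_ne7 (hQ : Nondeg Q) (h : RatQ Q F₀) (hn : 7 ≤ Fintype.card ι) {z : ι → F} (hz : z ≠ 0) :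
    ∃ s : ι → F₀, Q0 h s = 0 ∧ polar Q (emb s) z ≠ 0 := by
  by_contra hcon
  push Not at hcon
  obtain ⟨a, b, h1, h2, h3, -⟩ := exists_rat_pair7 hQ h ∅ (by simp; omega)
  have hH : HF (Q0 h) 1 (fun _ => a) (fun _ => b) := by
    intro i hi j hj
    have hi0 : i = 0 := by omega
    have hj0 : j = 0 := by omega
    subst hi0
    subst hj0
    simp only [if_true]
    refine ⟨h1, h2, ?_, ?_, h3⟩
    · rw [polar_self', h1, mul_zero]
    · rw [polar_self', h2, mul_zero]
  have := span_test hQ h (k := 0) hH (z := z) (fun s hs _ => hcon s hs)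
  simp only [Finset.range_zero, Finset.sum_empty] at this
  exact hz this

/-- A partner of a rational singular vector, with another pair. -/
theorem exists_rat_two7 (hQ : Nondeg Q) (h : RatQ Q F₀) (hn : 7 ≤ Fintype.card ι) {a : ι → F₀} (ha : Q0 h a = 0)
    (ha0 : a ≠ 0) : ∃ x y : ℕ → ι → F₀, x 0 = a ∧ HF (Q0 h) 2 x y := by
  classical
  have hnd := Q0_ND hQ h
  have hr : finrank F₀ (ι → F₀) = Fintype.card ι := finrank_emb
  obtain ⟨a', p1, p2, -⟩ := exists_partner hnd (∅ : Finset (ι → F₀)) (a := a) (by simpa using ha0) (by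
    rw [hr]
    simp
    omega)
  have hH : HF (Q0 h) 1 (fun _ => a) (fun _ => a') := by
    intro i hi j hj
    have hi0 : i = 0 := by omega
    have hj0 : j = 0 := by omega
    subst hi0
    subst hj0
    simp only [if_true]
    refine ⟨ha, p1, ?_, ?_, p2⟩
    · rw [polar_self', ha, mul_zero]
    · rw [polar_self', p1, mul_zero]
  obtain ⟨u, v, huv, hr'⟩ := hH.extend hnd (by rw [hr]; omega)
  exact ⟨Function.update (fun _ => a) 1 u, Function.update (fun _ => a') 1 v, by simp, hH.snoc huv hr'⟩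

/-- Rational singular vectors in the orthogonal of a rational singular vector detect vectors outside its line. -/
theorem exists_rat_sing_perp7 (hQ : Nondeg Q) (h : RatQ Q F₀) (hn : 7 ≤ Fintype.card ι) {a : ι → F₀} (ha : Q0 h a = 0)
    (ha0 : a ≠ 0) {z : ι → F} (hz : ∀ c : F, z ≠ c • emb a) :
    ∃ s : ι → F₀, Q0 h s = 0 ∧ polar (Q0 h) s a = 0 ∧ polar Q (emb s) z ≠ 0 := by
  by_contra hcon
  push Not at hcon
  obtain ⟨x, y, rfl, hH⟩ := exists_rat_two7 hQ h hn ha ha0
  have h1 := span_test hQ h (k := 1) hH (z := z) (fun s hs hp => hcon s hs (hp 0 (by omega)).1)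
  have h2 : polar Q z (emb (x 0)) = 0 := by
    rw [polar_comm]
    refine hcon _ ha ?_
    rw [polar_self', ha, mul_zero]
  simp only [Finset.sum_range_one, h2, zero_smul, add_zero] at h1
  exact hz _ h1

/-- A rational totally singular pair on which a bivector does not vanish. -/
theorem exists_pair7 (hQ : Nondeg Q) (h : RatQ Q F₀) (hn : 7 ≤ Fintype.card ι) {w W : ι → F}
    (hind : ∀ a b : F, a • w + b • W = 0 → a = 0 ∧ b = 0) :
    ∃ n s : ι → F₀, Q0 h n = 0 ∧ n ≠ 0 ∧ Q0 h s = 0 ∧ polar (Q0 h) s n = 0 ∧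
      polar Q (emb s) (polar Q (emb n) w • W - polar Q (emb n) W • w) ≠ 0 := by
  classical
  have hw0 : w ≠ 0 := by
    rintro rfl
    have := hind 0 1 (by
      have h0 := hind
      simp only [smul_zero, zero_add, one_smul]
      by_contra hW
      exact absurd (hind 1 0 (by simp)).1 one_ne_zero)
    exact one_ne_zero this.2
  suffices hex : ∃ n : ι → F₀, Q0 h n = 0 ∧ n ≠ 0 ∧ ∀ c : F, polar Q (emb n) w • W - polar Q (emb n) W • w ≠ c • emb n by
    obtain ⟨n, h1, h2, h3⟩ := hex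
    obtain ⟨s, h4, h5, h6⟩ := exists_rat_sing_perp7 hQ h hn h1 h2 h3
    exact ⟨n, s, h1, h2, h4, h5, h6⟩
  by_contra hcon
  push Not at hcon
  -- the dichotomy
  have hdich : ∀ n : ι → F₀, Q0 h n = 0 → n ≠ 0 →
      (polar Q (emb n) w = 0 ∧ polar Q (emb n) W = 0) ∨ ∃ A B : F, (emb n : ι → F) = A • w + B • W := by
    intro n h1 h2
    obtain ⟨c, hc⟩ := hcon n h1 h2
    by_cases hc0 : c = 0
    · left
      rw [hc0, zero_smul] at hc
      have := hind (- polar Q (emb n) W) (polar Q (emb n) w) (by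
        rw [← hc]
        module)
      exact ⟨this.2, neg_eq_zero.1 this.1⟩
    · right
      refine ⟨- (c⁻¹ * polar Q (emb n) W), c⁻¹ * polar Q (emb n) w, ?_⟩
      have e : (emb n : ι → F) = c⁻¹ • (polar Q (emb n) w • W - polar Q (emb n) W • w) := by
        rw [hc, smul_smul, inv_mul_cancel₀ hc0, one_smul]
      refine Eq.trans e ?_
      module
  obtain ⟨n₁, hn₁, hn₁w⟩ := exists_rat_sing_ne7 hQ h hn hw0
  have hn₁0 : n₁ ≠ 0 := by
    rintro rfl
    rw [emb_zero, polar_zero_left] at hn₁w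
    exact hn₁w rfl
  obtain ⟨A₁, B₁, e₁⟩ : ∃ A₁ B₁ : F, (emb n₁ : ι → F) = A₁ • w + B₁ • W := by
    rcases hdich n₁ hn₁ hn₁0 with h1 | h1
    · exact absurd h1.1 hn₁w
    · exact h1
  -- every singular vector orthogonal to `n₁` lies in the plane
  have hP : ∀ t : ι → F₀, Q0 h t = 0 → t ≠ 0 → polar (Q0 h) n₁ t = 0 → ∃ A B : F, (emb t : ι → F) = A • w + B • W := by
    intro t ht ht0 htn
    rcases hdich t ht ht0 with h1 | h1
    · have hs : Q0 h (t + n₁) = 0 := by
        rw [Q_add, ht, hn₁, polar_comm, htn]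
        ring
      have hs' : polar Q (emb (t + n₁)) w ≠ 0 := by
        rw [emb_add, polar_add_left, h1.1, zero_add]
        exact hn₁w
      have hs0 : t + n₁ ≠ 0 := by
        intro h0
        rw [h0, emb_zero, polar_zero_left] at hs'
        exact hs' rfl
      rcases hdich _ hs hs0 with h2 | ⟨A, B, h2⟩
      · exact absurd h2.1 hs'
      · refine ⟨A - A₁, B - B₁, ?_⟩
        rw [emb_add, e₁] at h2
        have : (emb t : ι → F) = (A • w + B • W) - (A₁ • w + B₁ • W) := by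
          rw [← h2]
          abel
        rw [this]
        module
    · exact h1
  obtain ⟨a, b, ha, hb, hab, hC⟩ := exists_rat_pair7 hQ h {n₁} (by simp; omega)
  obtain ⟨p1, p2⟩ := hC n₁ (by simp)
  have ha0 : a ≠ 0 := by
    rintro rfl
    rw [polar_zero_left] at hab
    exact zero_ne_one hab
  have hb0 : b ≠ 0 := by
    rintro rfl
    rw [polar_zero_right] at hab
    exact zero_ne_one hab
  obtain ⟨A, B, e₂⟩ := hP a ha ha0 p1
  obtain ⟨C, D, e₃⟩ := hP b hb hb0 p2
  have hab' : polar Q (emb a) (emb b) = 1 := by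
    have := congrArg Subtype.val hab
    rw [polar_Q0] at this
    simpa using this
  have hba' : polar Q (emb b) (emb a) = 1 := by rw [polar_comm]; exact hab'
  have haa : polar Q (emb a) (emb a) = 0 := by rw [polar_self', (Q0_eq_zero h).1 ha, mul_zero]
  have hbb : polar Q (emb b) (emb b) = 0 := by rw [polar_self', (Q0_eq_zero h).1 hb, mul_zero]
  have hna : polar Q (emb n₁) (emb a) = 0 := (polar_Q0_eq_zero h).1 p1
  have hnb : polar Q (emb n₁) (emb b) = 0 := (polar_Q0_eq_zero h).1 p2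
  -- Cramer
  have hΔ1 : (A * D - B * C) • (emb n₁ : ι → F) = (A₁ * D - B₁ * C) • emb a + (A * B₁ - A₁ * B) • emb b := by
    rw [e₁, e₂, e₃]
    module
  have hq1 : A₁ * D - B₁ * C = 0 := by
    have := congrArg (fun u => polar Q u (emb b)) hΔ1
    simp only [polar_add_left, polar_smul_l, hnb, hab', hbb] at this
    linear_combination -this
  have hq2 : A * B₁ - A₁ * B = 0 := by
    have := congrArg (fun u => polar Q u (emb a)) hΔ1
    simp only [polar_add_left, polar_smul_l, hna, haa, hba'] at this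
    linear_combination -this
  have hΔ0 : A * D - B * C = 0 := by
    rw [hq1, hq2, zero_smul, zero_smul, add_zero] at hΔ1
    exact (smul_eq_zero.1 hΔ1).resolve_right (by
      intro h0
      rw [h0, polar_zero_left] at hn₁w
      exact hn₁w rfl)
  have h5 : D • (emb a : ι → F) - B • emb b = (A * D - B * C) • w := by
    rw [e₂, e₃]
    module
  have h6 : (-C) • (emb a : ι → F) + A • emb b = (A * D - B * C) • W := by
    rw [e₂, e₃]
    module
  rw [hΔ0, zero_smul] at h5 h6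
  have hD : D = 0 := by
    have := congrArg (fun u => polar Q u (emb b)) h5
    simp only [polar_sub_left, polar_smul_l, polar_zero_left, hab', hbb] at this
    linear_combination this
  have hB : B = 0 := by
    have := congrArg (fun u => polar Q u (emb a)) h5
    simp only [polar_sub_left, polar_smul_l, polar_zero_left, haa, hba'] at this
    linear_combination -this
  have hC' : C = 0 := by
    have := congrArg (fun u => polar Q u (emb b)) h6
    simp only [polar_add_left, polar_smul_l, polar_zero_left, hab', hbb] at this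
    linear_combination -this
  have hA : A = 0 := by
    have := congrArg (fun u => polar Q u (emb a)) h6
    simp only [polar_add_left, polar_smul_l, polar_zero_left, haa, hba'] at this
    linear_combination this
  rw [hA, hB, zero_smul, zero_smul, add_zero] at e₂
  rw [e₂, polar_zero_left] at hab'
  exact zero_ne_one hab'

/-- A rational totally singular pair extends to a hyperbolic family of three pairs. -/
theorem exists_frame_pair (hQ : Nondeg Q) (h : RatQ Q F₀) (hn : 7 ≤ Fintype.card ι) {n s : ι → F₀} (hn0 : Q0 h n = 0)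
    (hs0 : Q0 h s = 0) (hsn : polar (Q0 h) s n = 0) (hne : n ≠ 0) (hind : ∀ c : F₀, s ≠ c • n) :
    ∃ x y : ℕ → ι → F₀, x 0 = n ∧ y 1 = s ∧ HF (Q0 h) 3 x y := by
  classical
  have hnd := Q0_ND hQ h
  have hr : finrank F₀ (ι → F₀) = Fintype.card ι := finrank_emb
  have hs00 : s ≠ 0 := by
    intro h0
    apply hind 0
    rw [h0, zero_smul]
  have hns : polar (Q0 h) n s = 0 := by rw [polar_comm]; exact hsn
  obtain ⟨m, q1, q2, q3⟩ := exists_partner' hnd {s} (a := n) (by
    intro hm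
    rw [Finset.coe_singleton] at hm
    obtain ⟨c, hc⟩ := Submodule.mem_span_singleton.1 hm
    have hc0 : c ≠ 0 := by
      rintro rfl
      rw [zero_smul] at hc
      exact hne hc.symm
    apply hind c⁻¹
    rw [← hc, smul_smul, inv_mul_cancel₀ hc0, one_smul]) hn0 (by
      intro c hc
      rw [Finset.mem_singleton] at hc
      rw [hc]
      exact hsn)
  have hsm : polar (Q0 h) s m = 0 := q3 s (by simp)
  obtain ⟨m', r1, r2, r3⟩ := exists_partner' hnd {n, m} (a := s) (by
    intro hm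
    rw [Finset.coe_insert, Finset.coe_singleton] at hm
    obtain ⟨c, d, hcd⟩ := Submodule.mem_span_pair.1 hm
    have e1 := congrArg (fun u => polar (Q0 h) u n) hcd
    simp only [polar_add_left, polar_smul_l, hsn] at e1
    rw [polar_self', hn0, polar_comm, q2] at e1
    have hd : d = 0 := by
      linear_combination e1
    rw [hd, zero_smul, add_zero] at hcd
    exact hind c hcd.symm) hs0 (by
      intro c hc
      rw [Finset.mem_insert, Finset.mem_singleton] at hc
      rcases hc with rfl | rfl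
      · exact hns
      · rw [polar_comm]
        exact hsm)
  have hnm' : polar (Q0 h) n m' = 0 := r3 n (by simp)
  have hmm' : polar (Q0 h) m m' = 0 := r3 m (by simp)
  have hH : HF (Q0 h) 2 (fun i => if i = 0 then n else m') (fun i => if i = 0 then m else s) := by
    intro i hi j hj
    have hi2 : i = 0 ∨ i = 1 := by omega
    have hj2 : j = 0 ∨ j = 1 := by omega
    have e1 : polar (Q0 h) n n = 0 := by rw [polar_self', hn0, mul_zero]
    have e2 : polar (Q0 h) m' m' = 0 := by rw [polar_self', r1, mul_zero]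
    have e3 : polar (Q0 h) m m = 0 := by rw [polar_self', q1, mul_zero]
    have e4 : polar (Q0 h) s s = 0 := by rw [polar_self', hs0, mul_zero]
    have e5 : polar (Q0 h) m' n = 0 := by rw [polar_comm]; exact hnm'
    have e6 : polar (Q0 h) m' m = 0 := by rw [polar_comm]; exact hmm'
    have e7 : polar (Q0 h) m' s = 1 := by rw [polar_comm]; exact r2
    have e8 : polar (Q0 h) m s = 0 := by rw [polar_comm]; exact hsm
    rcases hi2 with rfl | rfl <;> rcases hj2 with rfl | rfl <;>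
      simp [hn0, q1, r1, hs0, hnm', hmm', hsm, e1, e2, e3, e4, e5, e6, e7, e8, hns, q2]
  obtain ⟨u, v, huv, hr'⟩ := hH.extend hnd (by rw [hr]; omega)
  refine ⟨_, _, ?_, ?_, hH.snoc huv hr'⟩
  · simp
  · simp

end Rational


section Stage

variable {ι : Type} [Fintype ι] [DecidableEq ι] {F : Type*} [Field F] [Fintype F]
  {Q : QuadraticForm F (ι → F)} {F₀ : Subfield F} {M : Subgroup (GL ι F)}

/-- If Frobenius acts on the image of the rational vectors by a fixed scalar, the element is rational up to scalars. -/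
theorem mem_of_fro (hn : 7 ≤ Fintype.card ι) {g : GL ι F} {l₀ : F}
    (hall : ∀ z : ι → F₀, tv F₀ (g ⋆ emb z) = l₀ • (g ⋆ emb z)) :
    g ∈ (Matrix.GeneralLinearGroup.map (F₀.subtype : F₀ →+* F)).range ⊔ scalars ι F := by
  classical
  have hginj : ∀ {x : ι → F}, g ⋆ x = 0 → x = 0 := by
    intro x hx
    have h1 := inv_mulVec_GL g x
    rw [hx, Matrix.mulVec_zero] at h1
    exact h1.symm
  have hent : ∀ k l, fro F₀ ((g : Matrix ι ι F) k l) = l₀ * (g : Matrix ι ι F) k l := by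
    intro k l
    have h1 := hall (Pi.single l 1)
    have h2 := congrFun h1 k
    rw [← emb_single] at h2
    simpa [tv] using h2
  obtain ⟨k₀, l₀', hk⟩ : ∃ k l, (g : Matrix ι ι F) k l ≠ 0 := by
    by_contra hno
    push Not at hno
    have hne : Nonempty ι := by
      by_contra hne
      rw [not_nonempty_iff] at hne
      have := Fintype.card_eq_zero (α := ι)
      omega
    obtain ⟨i⟩ := hne
    have h1 : g ⋆ (Pi.single i 1) = 0 := by
      ext k
      simp [hno]
    have h2 := hginj h1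
    have h3 := congrFun h2 i
    simp at h3
  have hl₀0 : l₀ ≠ 0 := by
    intro h0
    have h1 := hent k₀ l₀'
    rw [h0, zero_mul, map_eq_zero] at h1
    exact hk h1
  refine Cfsg.Agent.Lib.SubfieldMax.mem_sup_scalars_of_entries (inv_ne_zero hk) fun k l => ?_
  rw [← fro_eq_iff, map_mul, map_inv₀, hent, hent]
  field_simp

/-- An element outside the rational group moves a vector of a rational sphere to a vector that Frobenius does not preserve up to scalars. -/
theorem exists_good7 (hQ : Nondeg Q) (h : RatQ Q F₀) (hn : 7 ≤ Fintype.card ι) (h2 : (2 : F) ≠ 0) {δ : F₀} (hδ : δ ≠ 0)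
    {g : GL ι F} (hg : g ∉ (Matrix.GeneralLinearGroup.map (F₀.subtype : F₀ →+* F)).range ⊔ scalars ι F) :
    ∃ x : ι → F₀, Q0 h x = δ ∧ ¬ ∃ l : F, tv F₀ (g ⋆ emb x) = l • (g ⋆ emb x) := by
  classical
  let _ : Fintype F₀ := Fintype.ofFinite _
  by_contra hcon
  push Not at hcon
  apply hg
  have hnd := Q0_ND hQ h
  have hr : finrank F₀ (ι → F₀) = Fintype.card ι := finrank_emb
  have h20 : (2 : F₀) ≠ 0 := by
    intro h0
    apply h2
    have h5 : ((2 : F₀) : F) = 0 := by
      rw [h0]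
      rfl
    have h6 : ((2 : F₀) : F) = 2 := map_ofNat F₀.subtype 2
    rw [← h6]
    exact h5
  have hginj : ∀ {x : ι → F}, g ⋆ x = 0 → x = 0 := by
    intro x hx
    have h1 := inv_mulVec_GL g x
    rw [hx, Matrix.mulVec_zero] at h1
    exact h1.symm
  obtain ⟨x₀, hx₀⟩ := Cfsg.Agent.Lib.QuadFF.exists_value hnd (by rw [hr]; omega) δ
  obtain ⟨l₀, hl₀⟩ := hcon x₀ hx₀
  set R₀ : (ι → F₀) → Prop := fun z => tv F₀ (g ⋆ emb z) = l₀ • (g ⋆ emb z) with hR₀
  have hA : ∀ u v : ι → F₀, Q0 h u = δ → Q0 h v = δ → polar (Q0 h) u v = -δ →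
      (∀ α β : F, α • emb u + β • emb v = 0 → α = 0 ∧ β = 0) → R₀ u → R₀ v := by
    intro u v hu hv huv hind hRu
    have hQuv : Q0 h (u + v) = δ := by
      rw [Q_add, hu, hv, huv]
      ring
    obtain ⟨l₁, hl₁⟩ := hcon v hv
    obtain ⟨l₂, hl₂⟩ := hcon (u + v) hQuv
    have e1 : tv F₀ (g ⋆ emb (u + v)) = tv F₀ (g ⋆ emb u) + tv F₀ (g ⋆ emb v) := by
      rw [emb_add, Matrix.mulVec_add, tv_add]
    rw [hl₂, hRu, hl₁, emb_add, Matrix.mulVec_add] at e1
    have e2 : g ⋆ ((l₂ - l₀) • emb u + (l₂ - l₁) • emb v) = 0 := by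
      rw [Matrix.mulVec_add, Matrix.mulVec_smul, Matrix.mulVec_smul, sub_smul, sub_smul]
      rw [smul_add] at e1
      rw [sub_add_sub_comm, e1]
      abel
    obtain ⟨c1, c2⟩ := hind _ _ (hginj e2)
    have hl : l₁ = l₀ := by linear_combination c1 - c2
    show tv F₀ (g ⋆ emb v) = l₀ • (g ⋆ emb v)
    rw [hl₁, hl]
  have hind2 : ∀ u v t : ι → F₀, polar (Q0 h) u t = 0 → polar (Q0 h) v t = 1 → Q0 h u = δ →
      ∀ α β : F, α • emb u + β • emb v = 0 → α = 0 ∧ β = 0 := by
    intro u v t h1 h3 hu α β hαβ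
    have t1 : polar Q (emb u) (emb t) = 0 := (polar_Q0_eq_zero h).1 h1
    have t2 : polar Q (emb v) (emb t) = 1 := by
      have := congrArg Subtype.val h3
      rw [polar_Q0] at this
      simpa using this
    have e := congrArg (fun w => polar Q w (emb t)) hαβ
    simp only [polar_add_left, polar_smul_l, polar_zero_left, t1, t2, mul_zero, mul_one, zero_add] at e
    rw [e, zero_smul, add_zero] at hαβ
    refine ⟨(smul_eq_zero.1 hαβ).resolve_right ?_, e⟩
    intro h0
    have h3 : Q (emb u) = 0 := by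
      rw [h0]
      simp
    apply hδ
    rw [← hu]
    exact (Q0_eq_zero h).2 h3
  have hstep : ∀ x x' : ι → F₀, Q0 h x = δ → Q0 h x' = δ → 2 * δ + polar (Q0 h) x x' ≠ 0 → R₀ x → R₀ x' := by
    intro x x' hx hx' hc hRx
    obtain ⟨a, b, ha, hb, hab, hC⟩ := exists_rat_pair7 hQ h {x, x'} (by
      have : ({x, x'} : Finset (ι → F₀)).card ≤ 2 := Finset.card_le_two
      omega)
    obtain ⟨p1, p2⟩ := hC x (by simp)
    obtain ⟨p3, p4⟩ := hC x' (by simp)
    obtain ⟨c, hcd⟩ : ∃ c, c = polar (Q0 h) x x' := ⟨_, rfl⟩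
    rw [← hcd] at hc
    obtain ⟨p, hp⟩ : ∃ p : F₀, p = -δ / (2 * δ + c) := ⟨_, rfl⟩
    obtain ⟨z₁, hz₁⟩ : ∃ z₁ : ι → F₀, z₁ = p • (x + x') := ⟨_, rfl⟩
    have hz₁x : polar (Q0 h) x z₁ = -δ := by
      rw [hz₁, polar_smul_r, polar_add_right, polar_self', hx, ← hcd, hp]
      exact div_mul_cancel₀ _ hc
    have hz₁x' : polar (Q0 h) x' z₁ = -δ := by
      rw [hz₁, polar_smul_r, polar_add_right, polar_self', hx', polar_comm (Q0 h) x' x, ← hcd, hp, add_comm c]
      exact div_mul_cancel₀ _ hc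
    have hz₁a : polar (Q0 h) z₁ a = 0 := by
      rw [hz₁, polar_smul_l, polar_add_left, p1, p3]
      ring
    have hz₁b : polar (Q0 h) z₁ b = 0 := by
      rw [hz₁, polar_smul_l, polar_add_left, p2, p4]
      ring
    obtain ⟨z, hz⟩ : ∃ z : ι → F₀, z = z₁ + ((δ - Q0 h z₁) • a + b) := ⟨_, rfl⟩
    have hzQ : Q0 h z = δ := by
      rw [hz, Q_add, Q_add, Q_smul, ha, hb, polar_add_right, polar_smul_r, polar_smul_l, hab, hz₁a, hz₁b]
      ring
    have hxz : polar (Q0 h) x z = -δ := by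
      rw [hz, polar_add_right, polar_add_right, polar_smul_r, p1, p2, hz₁x]
      ring
    have hx'z : polar (Q0 h) x' z = -δ := by
      rw [hz, polar_add_right, polar_add_right, polar_smul_r, p3, p4, hz₁x']
      ring
    have hza : polar (Q0 h) z a = 1 := by
      rw [hz, polar_add_left, polar_add_left, polar_smul_l, polar_self', ha, hz₁a, polar_comm (Q0 h) b a, hab]
      ring
    have h1 := hA x z hx hzQ hxz (hind2 x z a p1 hza hx) hRx
    refine hA z x' hzQ hx' (by rw [polar_comm]; exact hx'z) ?_ h1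
    intro α β hαβ
    have := hind2 x' z a p3 hza hx' β α (by rw [add_comm]; exact hαβ)
    exact ⟨this.2, this.1⟩
  let S₁ : Submodule F₀ (ι → F₀) :=
    { carrier := {z | R₀ z}
      add_mem' := by
        intro a b ha hb
        show tv F₀ (g ⋆ emb (a + b)) = l₀ • (g ⋆ emb (a + b))
        rw [emb_add, Matrix.mulVec_add, tv_add, smul_add]
        exact congrArg₂ _ ha hb
      zero_mem' := by
        show tv F₀ (g ⋆ emb 0) = l₀ • (g ⋆ emb 0)
        rw [emb_zero, Matrix.mulVec_zero, tv_zero, smul_zero]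
      smul_mem' := by
        intro c a ha
        show tv F₀ (g ⋆ emb (c • a)) = l₀ • (g ⋆ emb (c • a))
        have ha' : tv F₀ (g ⋆ emb a) = l₀ • (g ⋆ emb a) := ha
        rw [emb_smul, Matrix.mulVec_smul, tv_smul, ha', (fro_eq_iff _).2 c.2, smul_smul, smul_smul, mul_comm] }
  have hS₁ : ∀ z, z ∈ S₁ ↔ R₀ z := fun z => Iff.rfl
  have hall : ∀ z, Q0 h z = δ → z ∈ S₁ := by
    intro z hz
    by_cases hc : 2 * δ + polar (Q0 h) x₀ z = 0
    · have hc' : 2 * δ + polar (Q0 h) x₀ (-z) ≠ 0 := by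
        rw [polar_neg_right]
        intro h0
        have h1 : (2 * 2) * δ = 0 := by linear_combination hc + h0
        exact (mul_ne_zero (mul_ne_zero h20 h20) hδ) h1
      have h1 : -z ∈ S₁ := hstep x₀ (-z) hx₀ (by rw [QuadraticMap.map_neg]; exact hz) hc' hl₀
      have h3 := S₁.neg_mem h1
      rwa [neg_neg] at h3
    · exact hstep x₀ z hx₀ hz hc hl₀
  have hN0 : Nondeg (Q0 h) := by
    intro x hx
    by_contra hne
    push Not at hne
    exact hx (hnd x hne)
  have hsp := sphere_span (Q := Q0 h) hN0 (P := ⊤) (P' := ⊥)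
    ⟨fun u _ v hv => by rw [(Submodule.mem_bot _).1 hv, polar_zero_right], isCompl_top_bot⟩
    (by rw [finrank_top, hr]; omega) h20 δ S₁ (fun v _ hv => hall v hv)
  exact mem_of_fro hn (fun z => hsp (Submodule.mem_top (x := z)))

/-- Rational elements `-r_w`. -/
theorem exists_rat_tau (hQ : Nondeg Q) (h : RatQ Q F₀) (hn : 7 ≤ Fintype.card ι) (hodd : Odd (Fintype.card ι)) (h2 : (2 : F) ≠ 0) :
    ∃ δ : F₀, δ ≠ 0 ∧ ∀ w₀ : ι → F₀, Q0 h w₀ = δ → ∃ t ∈ omegaGL ⇑Q,
      t ∈ (Matrix.GeneralLinearGroup.map (F₀.subtype : F₀ →+* F)).range ⊔ scalars ι F ∧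
      ∀ x, t ⋆ x = (((δ : F)⁻¹) * polar Q x (emb w₀)) • emb w₀ - x := by
  classical
  let _ : Fintype F₀ := Fintype.ofFinite _
  have hnd := Q0_ND hQ h
  have hN0 : Nondeg (Q0 h) := by
    intro x hx
    by_contra hne
    push Not at hne
    exact hx (hnd x hne)
  have h20 : (2 : F₀) ≠ 0 := by
    intro h0
    apply h2
    have h5 : ((2 : F₀) : F) = 0 := by
      rw [h0]
      rfl
    have h6 : ((2 : F₀) : F) = 2 := map_ofNat F₀.subtype 2
    rw [← h6]
    exact h5
  obtain ⟨e, ho, hne, hsp⟩ := exists_orth hN0 h20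
  refine ⟨∏ j, Q0 h (e j), Finset.prod_ne_zero_iff.2 (fun j _ => hne j), fun w₀ hw₀ => ?_⟩
  have hcoe : ((∏ j, Q0 h (e j) : F₀) : F) = ∏ j, Q (emb (e j)) := map_prod F₀.subtype _ _
  have hK : Odd (Fintype.card (Fin (finrank F₀ (ι → F₀)))) := by
    rw [Fintype.card_fin, finrank_emb]
    exact hodd
  have hemb : ∀ (c : Fin (finrank F₀ (ι → F₀)) → F₀), (emb (∑ j, c j • e j) : ι → F) = ∑ j, (c j : F) • emb (e j) := by
    intro c
    ext i
    simp [emb, Finset.sum_apply]
  choose c hc using fun i : ι => hsp (Pi.single i 1)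
  have hs' : ∀ x : ι → F, ∃ d : Fin (finrank F₀ (ι → F₀)) → F, x = ∑ j, d j • emb (e j) := by
    intro x
    refine ⟨fun j => ∑ i, x i * (c i j : F), ?_⟩
    calc x = ∑ i, x i • emb (Pi.single i (1 : F₀)) := vec_expand x
      _ = ∑ i, x i • ∑ j, (c i j : F) • emb (e j) := by
        refine Finset.sum_congr rfl fun i _ => ?_
        rw [hc i, hemb]
      _ = ∑ j, (∑ i, x i * (c i j : F)) • emb (e j) := by
        simp only [Finset.smul_sum, Finset.sum_smul, smul_smul]
        rw [Finset.sum_comm]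
  have hQw : Q (emb w₀) = ∏ j, Q (emb (e j)) := by
    rw [← hcoe, ← hw₀]
    rfl
  obtain ⟨t, ht, hx⟩ := exists_tau hQ hn hK (fun j => emb (e j))
    (fun i j hij => (polar_Q0_eq_zero h).1 (ho i j hij))
    (fun i h0 => hne i ((Q0_eq_zero h).2 h0)) hs' hQw
  rw [← hcoe] at hx
  refine ⟨t, ht, ?_, hx⟩
  refine Cfsg.Agent.Lib.SubfieldMax.mem_sup_scalars_of_entries one_ne_zero fun k l => ?_
  rw [one_mul]
  have h1 : ((t : GL ι F) : Matrix ι ι F) k l = (t ⋆ (Pi.single l 1)) k := by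
    simp
  rw [h1, emb_single (F₀ := F₀), hx]
  simp only [Pi.sub_apply, Pi.smul_apply, smul_eq_mul]
  refine F₀.sub_mem (F₀.mul_mem (F₀.mul_mem (F₀.inv_mem (Subtype.coe_prop _)) (polar_emb_mem h _ _)) (w₀ k).2) ?_
  exact ((Pi.single l (1 : F₀) : ι → F₀) k).2

/-- The Siegel element obtained from a reflection-like element and a rational root element. -/
theorem siegel_step (h2 : (2 : F) ≠ 0) (hQ : Nondeg Q) (hiso : ∀ t ∈ M, ∀ v, Q (t ⋆ v) = Q v) {δ : F} (hδ : δ ≠ 0)
    {w x₀ y₁ x₂ y₂ : ι → F} (hU : UU Q M δ w) (q0 : Q x₀ = 0) (q1 : Q y₁ = 0) (q2 : Q x₂ = 0) (q3 : Q y₂ = 0)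
    (p01 : polar Q x₀ y₁ = 0) (p02 : polar Q x₀ x₂ = 0) (p03 : polar Q x₀ y₂ = 0) (p12 : polar Q y₁ x₂ = 0)
    (p13 : polar Q y₁ y₂ = 0) (p23 : polar Q x₂ y₂ = 1)
    (hR1 : R hQ M x₀ y₁) (hR2 : R hQ M x₂ y₁) (hR3 : R hQ M y₂ x₀) (hR4 : R hQ M y₂ y₁) :
    R hQ M x₀ (((-2 * δ⁻¹) * polar Q y₁ w * polar Q x₀ w) • y₁) ∧
      R hQ M x₀ ((-(-2 * δ⁻¹) * polar Q y₁ w * polar Q y₁ w) • y₁) := by
  obtain ⟨hQw, τ, hτM, hτ⟩ := id hU
  obtain ⟨a1, a2, hM1⟩ := id hR1
  obtain ⟨α, hα⟩ : ∃ α, α = polar Q x₀ w := ⟨_, rfl⟩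
  obtain ⟨β, hβ⟩ : ∃ β, β = polar Q y₁ w := ⟨_, rfl⟩
  obtain ⟨α', hα'⟩ : ∃ α', α' = polar Q w x₂ := ⟨_, rfl⟩
  rw [← hα, ← hβ]
  have hwx₀ : polar Q w x₀ = α := by rw [polar_comm, hα]
  have hwy₁ : polar Q w y₁ = β := by rw [polar_comm, hβ]
  obtain ⟨z, hz⟩ : ∃ z, z = β • x₀ - α • y₁ := ⟨_, rfl⟩
  have hQz : Q z = 0 := by
    rw [hz, Cfsg.Agent.Lib.OrthoBasic.Q_sub, Q_smul, Q_smul, q0, q1, polar_smul_l, polar_smul_r, p01]
    ring
  have hwz : polar Q w z = 0 := by
    rw [hz, polar_sub_right, polar_smul_r, polar_smul_r, hwx₀, hwy₁]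
    ring
  have hzw : polar Q z w = 0 := by rw [polar_comm]; exact hwz
  have h1 : sE hQ a1 a2 ⋆ w = w - z := by
    rw [sE_apply', hwx₀, hwy₁, q1, hz]
    module
  have U1 : UU Q M δ (w - z) := by
    rw [← h1]
    exact UU_conj7 (sE_iso hQ a1 a2) hM1 hU
  have h3 : τ ⋆ (w - z) = w + z := by
    rw [hτ, polar_sub_left, polar_self', hQw, hzw]
    have e : δ⁻¹ * (2 * δ - 0) = 2 := by
      field_simp
      ring
    rw [e]
    module
  have U2 : UU Q M δ (w + z) := by
    rw [← h3]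
    exact UU_conj7 (hiso τ hτM) hτM U1
  have R1 := R_of_unit0 h2 hQ hδ hQz hwz hQw U2 U1
  obtain ⟨κ, hκ⟩ : ∃ κ, κ = -2 * δ⁻¹ := ⟨_, rfl⟩
  rw [← hκ] at R1 ⊢
  obtain ⟨b1, b2, hM2⟩ := id hR2
  have t1 : sE hQ b1 b2 ⋆ z = z := by
    have e1 : polar Q z x₂ = 0 := by
      rw [hz, polar_sub_left, polar_smul_l, polar_smul_l, p02, p12]
      ring
    have e2 : polar Q z y₁ = 0 := by
      rw [hz, polar_sub_left, polar_smul_l, polar_smul_l, p01, polar_self', q1]
      ring
    rw [sE_apply', e1, e2]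
    simp
  have t2 : sE hQ b1 b2 ⋆ (κ • w) = κ • w + κ • (α' • y₁ - β • x₂) := by
    rw [Matrix.mulVec_smul, sE_apply', hwy₁, q1, ← hα']
    module
  have R2 := R_conj (sE_iso hQ b1 b2) hM2 R1
  rw [t1, t2] at R2
  have R3 := R_sub R2 R1
  rw [add_sub_cancel_left] at R3
  obtain ⟨v, hv⟩ : ∃ v, v = κ • (α' • y₁ - β • x₂) := ⟨_, rfl⟩
  rw [← hv] at R3
  have hy₂x₀ : polar Q y₂ x₀ = 0 := by rw [polar_comm]; exact p03
  have hy₂y₁ : polar Q y₂ y₁ = 0 := by rw [polar_comm]; exact p13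
  have hy₂x₂ : polar Q y₂ x₂ = 1 := by rw [polar_comm]; exact p23
  have hy₂z : polar Q y₂ z = 0 := by
    rw [hz, polar_sub_right, polar_smul_r, polar_smul_r, hy₂x₀, hy₂y₁]
    ring
  have hx₀z : polar Q x₀ z = 0 := by
    rw [hz, polar_sub_right, polar_smul_r, polar_smul_r, polar_self', q0, p01]
    ring
  have hy₁x₀ : polar Q y₁ x₀ = 0 := by rw [polar_comm]; exact p01
  have hy₁z : polar Q y₁ z = 0 := by
    rw [hz, polar_sub_right, polar_smul_r, polar_smul_r, polar_self', q1, hy₁x₀]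
    ring
  have hx₀v : polar Q x₀ v = 0 := by
    rw [hv, polar_smul_r, polar_sub_right, polar_smul_r, polar_smul_r, p01, p02]
    ring
  have hy₁v : polar Q y₁ v = 0 := by
    rw [hv, polar_smul_r, polar_sub_right, polar_smul_r, polar_smul_r, polar_self', q1, p12]
    ring
  have e3 : polar Q y₂ v = -κ * β := by
    rw [hv, polar_smul_r, polar_sub_right, polar_smul_r, polar_smul_r, hy₂y₁, hy₂x₂]
    ring
  have R4 := R_comm R3 hR3 q0 hy₂z hx₀z hx₀v
  have R5 := R_comm R3 hR4 q1 hy₂z hy₁z hy₁v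
  rw [e3] at R4 R5
  constructor
  · have R6 := R_sub R4 (R_self q0 ((-κ * β) * β))
    convert R6 using 1
    rw [hz]
    module
  · have R6 := R_sub R5 (R_self q1 (κ * β * α))
    have e4 : (-κ * β) • z - (κ * β * α) • y₁ = (-κ * β * β) • x₀ := by
      rw [hz]
      module
    rw [e4] at R6
    have R7 := R_swap' R6 (by rw [Q_smul, q0, mul_zero])
    exact R_smul_right q0 _ R7

/-- All the root elements of the Levi part of a frame. -/
theorem all_frame3 (hQ : Nondeg Q) (h : RatQ Q F₀)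
    (hM : ∀ e y : ι → F₀, Q0 h e = 0 → polar (Q0 h) e y = 0 → R hQ M (emb e) (emb y))
    {r : ℕ} (hr : r.Prime) (hcard : Fintype.card F = Nat.card F₀ ^ r) {x y : ℕ → ι → F₀}
    (hH : HF (Q0 h) 3 x y) {α : F} (hα : α ∉ F₀) (hαM : R hQ M (emb (x 0)) (α • emb (y 1))) :
    ∀ i j, i < 3 → j < 3 → i ≠ j → ∀ b : F, R hQ M (emb (x i)) (b • emb (y j)) := by
  classical
  have hEm := HF_emb h hH
  set E : Fin 3 → ι → F := fun i => emb (x i) with hEd
  set G : Fin 3 → ι → F := fun i => emb (y i) with hGd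
  have qE : ∀ i, Q (E i) = 0 := fun i => (hEm i i.2 i i.2).1
  have qG : ∀ i, Q (G i) = 0 := fun i => (hEm i i.2 i i.2).2.1
  have hEE : ∀ i j, polar Q (E i) (E j) = 0 := fun i j => (hEm i i.2 j j.2).2.2.1
  have hGG : ∀ i j, polar Q (G i) (G j) = 0 := fun i j => (hEm i i.2 j j.2).2.2.2.1
  have hEG : ∀ i j, i ≠ j → polar Q (E i) (G j) = 0 := fun i j hij => by
    have := (hEm i i.2 j j.2).2.2.2.2
    have hne : (i : ℕ) ≠ j := fun h => hij (Fin.ext h)
    rwa [if_neg hne] at this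
  have hGE : ∀ i j, i ≠ j → polar Q (G j) (E i) = 0 := fun i j hij => by
    rw [polar_comm]
    exact hEG i j hij
  have hEG1 : ∀ i, polar Q (E i) (G i) = 1 := fun i => by
    have := (hEm i i.2 i i.2).2.2.2.2
    rwa [if_pos rfl] at this
  have hGE1 : ∀ i, polar Q (G i) (E i) = 1 := fun i => by
    rw [polar_comm]
    exact hEG1 i
  have hperp : ∀ i j, i ≠ j → ∀ a : F, polar Q (E i) ((-a) • G j) = 0 := fun i j hij a => by
    rw [polar_smul_r, hEG i j hij, mul_zero]
  let X : Fin 3 → Fin 3 → F → GL ι F := fun i j a =>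
    if h' : i ≠ j then sE hQ (qE i) (hperp i j h' a) else 1
  have hXv : ∀ i j (h' : i ≠ j) a, X i j a = sE hQ (qE i) (hperp i j h' a) := fun i j h' a => dif_pos h'
  have hXa : ∀ i j (h' : i ≠ j) a z, X i j a ⋆ z = z - (a * polar Q z (E i)) • G j + (a * polar Q z (G j)) • E i := by
    intro i j h' a z
    rw [hXv i j h', sE_apply', Q_smul, qG, mul_zero, zero_mul, add_zero, polar_smul_r, neg_smul, neg_mul, neg_smul]
    module
  have hmul : ∀ i j, i ≠ j → ∀ a b, X i j a * X i j b = X i j (a + b) := by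
    intro i j hij a b
    apply GL_ext
    intro z
    rw [mulVec_mul_GL, hXa i j hij, hXa i j hij, hXa i j hij]
    simp only [polar_add_left, polar_sub_left, polar_smul_l, hEE, hEG i j hij, hGE1, hGG, hEG1, hGE i j hij]
    module
  have hcomm : ∀ i j k, i ≠ j → j ≠ k → i ≠ k → ∀ a b, X i j a * X j k b * (X i j a)⁻¹ * (X j k b)⁻¹ = X i k (a * b) := by
    intro i j k hij hjk hik a b
    have e : X i j a * X j k b = X i k (a * b) * (X j k b * X i j a) := by
      apply GL_ext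
      intro z
      rw [mulVec_mul_GL, mulVec_mul_GL, mulVec_mul_GL, hXa i j hij, hXa j k hjk, hXa i j hij, hXa j k hjk, hXa i k hik]
      simp only [polar_add_left, polar_sub_left, polar_smul_l, hEE, hGG, hEG1, hGE1, hEG i j hij, hEG j k hjk,
        hEG i k hik, hGE i j hij, hGE j k hjk, hGE i k hik]
      module
    rw [e]
    group
  have hT : ∀ i j, i ≠ j → ∀ a ∈ F₀, X i j a ∈ M := by
    intro i j hij a ha
    rw [hXv i j hij]
    have e1 : Q0 h (x i) = 0 := (hH i i.2 i i.2).1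
    have e2 : polar (Q0 h) (x i) ((-(⟨a, ha⟩ : F₀)) • y j) = 0 := by
      have := (hH i i.2 j j.2).2.2.2.2
      have hne : (i : ℕ) ≠ j := fun h => hij (Fin.ext h)
      rw [if_neg hne] at this
      rw [polar_smul_r, this, mul_zero]
    obtain ⟨p1, p2, p3⟩ := hM _ _ e1 e2
    have e3 : emb ((-(⟨a, ha⟩ : F₀)) • y j) = (-a) • G j := by
      rw [emb_smul]
      rfl
    have e4 : sE hQ p1 p2 = sE hQ (qE i) (hperp i j hij a) := by
      apply GL_ext
      intro z
      rw [sE_apply, sE_apply, e3]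
    rw [← e4]
    exact p3
  have h34 : (0 : Fin 3) ≠ 1 := by decide
  have hstart : X 0 1 (-α) ∈ M := by
    rw [hXv 0 1 h34]
    obtain ⟨p1, p2, p3⟩ := hαM
    convert p3 using 1
    apply GL_ext
    intro z
    rw [sE_apply, sE_apply, neg_neg]
    rfl
  have hα' : -α ∉ F₀ := fun h0 => hα (by simpa using F₀.neg_mem h0)
  intro i j hi hj hij b
  have hij' : (⟨i, hi⟩ : Fin 3) ≠ ⟨j, hj⟩ := fun h => hij (congrArg Fin.val h)
  have hfin := all_X3 X hmul hcomm hr hcard (by simp) hT h34 hα' hstart hij' (-b)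
  rw [hXv _ _ hij'] at hfin
  refine ⟨(hEm i hi i hi).1, ?_, ?_⟩
  · rw [polar_smul_r]
    have := (hEm i hi j hj).2.2.2.2
    rw [if_neg hij] at this
    rw [show polar Q (emb (x i)) (emb (y j)) = 0 from this, mul_zero]
  · convert hfin using 1
    apply GL_ext
    intro z
    rw [sE_apply, sE_apply, neg_neg]

/-- All Siegel transformations with a given rational centre. -/
theorem T_frame3 (hQ : Nondeg Q) (h : RatQ Q F₀)
    (hM : ∀ e y : ι → F₀, Q0 h e = 0 → polar (Q0 h) e y = 0 → R hQ M (emb e) (emb y))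
    {x y : ℕ → ι → F₀} (hH : HF (Q0 h) 3 x y)
    (hall : ∀ i j, i < 3 → j < 3 → i ≠ j → ∀ b : F, R hQ M (emb (x i)) (b • emb (y j)))
    {i k l : ℕ} (hi : i < 3) (hk : k < 3) (hl : l < 3) (hik : i ≠ k) (hil : i ≠ l) (hkl : k ≠ l) :
    T hQ M (emb (x i)) := by
  classical
  have hEm := HF_emb h hH
  have qEi : Q (emb (x i)) = 0 := (hEm i hi i hi).1
  -- the submodule of good directions
  let A : Submodule F (ι → F) :=
    { carrier := {z | ∀ c : F, R hQ M (emb (x i)) (c • z)}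
      add_mem' := by
        intro a b ha hb c
        rw [smul_add]
        exact R_add (ha c) (hb c)
      zero_mem' := by
        intro c
        rw [smul_zero]
        exact R_zero qEi
      smul_mem' := by
        intro d a ha c
        rw [smul_smul]
        exact ha _ }
  have hA : ∀ z, z ∈ A ↔ ∀ c : F, R hQ M (emb (x i)) (c • z) := fun z => Iff.rfl
  -- singular rational vectors orthogonal to a pair
  have step1 : ∀ m, m < 3 → i ≠ m → ∀ z : ι → F₀, Q0 h z = 0 → polar (Q0 h) z (x i) = 0 → polar (Q0 h) z (x m) = 0 →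
      polar (Q0 h) z (y m) = 0 → emb z ∈ A := by
    intro m hm him z hz1 hz2 hz3 hz4 c
    have e1 : R hQ M (emb (x m)) (emb z) := by
      refine hM _ _ (hH m hm m hm).1 ?_
      rw [polar_comm]
      exact hz3
    have e2 := R_comm (hall i m hi hm him c) e1 ((Q0_eq_zero h).1 hz1) (hEm m hm i hi).2.2.1 ((polar_Q0_eq_zero h).1 hz2)
      (by rw [polar_smul_r, (polar_Q0_eq_zero h).1 hz4, mul_zero])
    have e3 : polar Q (emb (x m)) (c • emb (y m)) = c := by
      rw [polar_smul_r]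
      have := (hEm m hm m hm).2.2.2.2
      rw [if_pos rfl] at this
      rw [show polar Q (emb (x m)) (emb (y m)) = 1 from this, mul_one]
    rw [e3] at e2
    have e4 := R_swap' e2 (by rw [Q_smul, qEi, mul_zero])
    exact R_smul_right qEi c e4
  have hXX : ∀ a b, a < 3 → b < 3 → polar (Q0 h) (x a) (x b) = 0 := fun a b ha hb => (hH a ha b hb).2.2.1
  have hYY : ∀ a b, a < 3 → b < 3 → polar (Q0 h) (y a) (y b) = 0 := fun a b ha hb => (hH a ha b hb).2.2.2.1
  have hXY : ∀ a b, a < 3 → b < 3 → a ≠ b → polar (Q0 h) (x a) (y b) = 0 := fun a b ha hb hab => by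
    have := (hH a ha b hb).2.2.2.2
    rwa [if_neg hab] at this
  have hYX : ∀ a b, a < 3 → b < 3 → a ≠ b → polar (Q0 h) (y a) (x b) = 0 := fun a b ha hb hab => by
    rw [polar_comm]
    exact hXY b a hb ha (Ne.symm hab)
  have hXY1 : ∀ a, a < 3 → polar (Q0 h) (x a) (y a) = 1 := fun a ha => by
    have := (hH a ha a ha).2.2.2.2
    rwa [if_pos rfl] at this
  have hGk : emb (y k) ∈ A := fun c => hall i k hi hk hik c
  have hGl : emb (y l) ∈ A := fun c => hall i l hi hl hil c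
  have hEk : emb (x k) ∈ A := step1 l hl hil _ (hH k hk k hk).1 (hXX k i hk hi) (hXX k l hk hl) (hXY k l hk hl hkl)
  have hEl : emb (x l) ∈ A := step1 k hk hik _ (hH l hl l hl).1 (hXX l i hl hi) (hXX l k hl hk) (hXY l k hl hk (Ne.symm hkl))
  -- rational vectors orthogonal to the centre
  have step3 : ∀ d : ι → F₀, polar (Q0 h) d (x i) = 0 → emb d ∈ A := by
    intro d hd
    set d₂ : ι → F₀ := d - polar (Q0 h) d (y k) • x k - polar (Q0 h) d (x k) • y k with hd₂
    have hk1 := hXY1 k hk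
    have hk2 : polar (Q0 h) (y k) (x k) = 1 := by rw [polar_comm]; exact hk1
    have hkk : polar (Q0 h) (x k) (x k) = 0 := hXX k k hk hk
    have hkk' : polar (Q0 h) (y k) (y k) = 0 := hYY k k hk hk
    have d2i : polar (Q0 h) d₂ (x i) = 0 := by
      rw [hd₂]
      simp only [polar_sub_left, polar_smul_l, hd, hXX k i hk hi, hYX k i hk hi (Ne.symm hik)]
      ring
    have d2k : polar (Q0 h) d₂ (x k) = 0 := by
      rw [hd₂]
      simp only [polar_sub_left, polar_smul_l, hkk, hk2]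
      ring
    have d2k' : polar (Q0 h) d₂ (y k) = 0 := by
      rw [hd₂]
      simp only [polar_sub_left, polar_smul_l, hk1, hkk']
      ring
    obtain ⟨t, a, b, ht, hst, htw⟩ := exists_sing_split (hH l hl l hl).1 (hH l hl l hl).2.1 (hXY1 l hl) d₂
    have ht1 := htw (x i) (hXX l i hl hi) (hYX l i hl hi (Ne.symm hil)) d2i
    have ht2 := htw (x k) (hXX l k hl hk) (hYX l k hl hk (Ne.symm hkl)) d2k
    have ht3 := htw (y k) (hXY l k hl hk (Ne.symm hkl)) (hYY l k hl hk) d2k'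
    have htA := step1 k hk hik t ht ht1 ht2 ht3
    have e : (emb d : ι → F) = emb t + (a : F) • emb (x l) + (b : F) • emb (y l) +
        ((polar (Q0 h) d (y k) : F₀) : F) • emb (x k) + ((polar (Q0 h) d (x k) : F₀) : F) • emb (y k) := by
      rw [← emb_smul, ← emb_smul, ← emb_smul, ← emb_smul, ← emb_add, ← emb_add, ← emb_add, ← emb_add, ← hst, hd₂]
      congr 1
      abel
    rw [e]
    exact A.add_mem (A.add_mem (A.add_mem (A.add_mem htA (A.smul_mem _ hEl)) (A.smul_mem _ hGl)) (A.smul_mem _ hEk))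
      (A.smul_mem _ hGk)
  refine ⟨qEi, fun w hw => ?_⟩
  -- expand
  have hwA : w ∈ A := by
    have hsum : w = ∑ j, w j • emb ((Pi.single j (1 : F₀)) - polar (Q0 h) (Pi.single j 1) (x i) • y i) := by
      simp only [emb_sub, emb_smul, smul_sub, Finset.sum_sub_distrib, smul_smul]
      rw [← vec_expand (F₀ := F₀) w]
      have e1 : ∑ j, (w j * ((polar (Q0 h) (Pi.single j 1) (x i) : F₀) : F)) • emb (y i) =
          (∑ j, w j * ((polar (Q0 h) (Pi.single j 1) (x i) : F₀) : F)) • (emb (y i) : ι → F) := by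
        rw [Finset.sum_smul]
      rw [e1]
      have e2 : ∑ j, w j * ((polar (Q0 h) (Pi.single j 1) (x i) : F₀) : F) = polar Q w (emb (x i)) := by
        rw [polar_expand (F₀ := F₀) w]
        exact Finset.sum_congr rfl fun j _ => by rw [polar_Q0]
      rw [e2, polar_comm, hw, zero_smul, sub_zero]
    rw [hsum]
    refine A.sum_mem fun j _ => A.smul_mem _ (step3 _ ?_)
    rw [polar_sub_left, polar_smul_l, polar_comm (Q0 h) (y i) (x i), hXY1 i hi]
    ring
  have := hwA 1
  rwa [one_smul] at this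



/-- The main theorem in the abstract setting. -/
theorem main_abstract7 (hQ : Nondeg Q) (h : RatQ Q F₀) (hn : 7 ≤ Fintype.card ι) (fr : Cfsg.Agent.Lib.OrthoSiegel.Frame Q) (h2 : (2 : F) ≠ 0)
    {r : ℕ} (hr : r.Prime) (hcard : Fintype.card F = Nat.card F₀ ^ r) (hiso : ∀ t ∈ M, ∀ v, Q (t ⋆ v) = Q v)
    (hM : ∀ e y : ι → F₀, Q0 h e = 0 → polar (Q0 h) e y = 0 → R hQ M (emb e) (emb y))
    {δ : F₀} (hδ : δ ≠ 0) (hτ : ∀ w₀ : ι → F₀, Q0 h w₀ = δ → UU Q M (δ : F) (emb w₀))
    {g : GL ι F} (hgM : g ∈ M)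
    (hg : g ∉ (Matrix.GeneralLinearGroup.map (F₀.subtype : F₀ →+* F)).range ⊔ scalars ι F) :
    omegaGL ⇑Q ≤ M := by
  classical
  obtain ⟨x₀', hx₀', hnp⟩ := exists_good7 hQ h hn h2 hδ hg
  have hδ' : (δ : F) ≠ 0 := fun h0 => hδ (Subtype.ext h0)
  have hU := UU_conj7 (hiso g hgM) hgM (hτ x₀' hx₀')
  obtain ⟨w, hw⟩ : ∃ w, w = g ⋆ emb x₀' := ⟨_, rfl⟩
  rw [← hw] at hU hnp
  have hQw : Q w = δ := hU.1
  have hw0 : w ≠ 0 := by
    rintro rfl
    rw [map_zero] at hQw
    exact hδ' hQw.symm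
  have hind : ∀ a b : F, a • w + b • tv F₀ w = 0 → a = 0 ∧ b = 0 := by
    intro a b hab
    by_cases hb : b = 0
    · rw [hb, zero_smul, add_zero] at hab
      exact ⟨(smul_eq_zero.1 hab).resolve_right hw0, hb⟩
    · exfalso
      apply hnp
      refine ⟨-(b⁻¹ * a), ?_⟩
      have e : tv F₀ w = b⁻¹ • (b • tv F₀ w) := by rw [smul_smul, inv_mul_cancel₀ hb, one_smul]
      have e2 : b • tv F₀ w = -(a • w) := eq_neg_of_add_eq_zero_right hab
      rw [e, e2]
      module
  obtain ⟨n, s, hn0, hne, hs0, hsn, hdet⟩ := exists_pair7 hQ h hn hind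
  obtain ⟨α, hα⟩ : ∃ α, α = polar Q (emb n) w := ⟨_, rfl⟩
  obtain ⟨β, hβ⟩ : ∃ β, β = polar Q (emb s) w := ⟨_, rfl⟩
  have hfro : ∀ t : ι → F₀, polar Q (emb t) (tv F₀ w) = fro F₀ (polar Q (emb t) w) := by
    intro t
    rw [polar_comm, polar_tv h, polar_comm]
  have hdet' : α * fro F₀ β - fro F₀ α * β ≠ 0 := by
    rw [polar_sub_right, polar_smul_r, polar_smul_r, hfro, hfro, ← hα, ← hβ] at hdet
    exact hdet
  have hβ0 : β ≠ 0 := by
    intro h0
    apply hdet'
    rw [h0]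
    simp
  have hratio : α / β ∉ F₀ := by
    intro hm
    apply hdet'
    have e1 := (fro_eq_iff _).2 hm
    rw [map_div₀] at e1
    have hfx : fro F₀ β ≠ 0 := by
      rw [Ne, map_eq_zero]
      exact hβ0
    field_simp at e1
    linear_combination -e1
  have hind' : ∀ c : F₀, s ≠ c • n := by
    rintro c rfl
    apply hdet'
    have e1 : β = (c : F) * α := by
      rw [hβ, hα, emb_smul, polar_smul_l]
    rw [e1, map_mul, (fro_eq_iff _).2 c.2]
    ring
  obtain ⟨x, y, hx0, hy1, hH⟩ := exists_frame_pair hQ h hn hn0 hs0 hsn hne hind'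
  have hEm := HF_emb h hH
  have n0 : (0 : ℕ) < 3 := by norm_num
  have n1 : (1 : ℕ) < 3 := by norm_num
  have n2 : (2 : ℕ) < 3 := by norm_num
  have hYX : ∀ a b, a < 3 → b < 3 → a ≠ b → polar Q (emb (y a)) (emb (x b)) = 0 := by
    intro a b ha hb hab
    rw [polar_comm]
    have := (hEm b hb a ha).2.2.2.2
    rwa [if_neg (Ne.symm hab)] at this
  have hXY : ∀ a b, a < 3 → b < 3 → a ≠ b → polar Q (emb (x a)) (emb (y b)) = 0 := by
    intro a b ha hb hab
    have := (hEm a ha b hb).2.2.2.2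
    rwa [if_neg hab] at this
  have hXX : ∀ a b, a < 3 → b < 3 → polar Q (emb (x a)) (emb (x b)) = 0 := fun a b ha hb => (hEm a ha b hb).2.2.1
  have hYY : ∀ a b, a < 3 → b < 3 → polar Q (emb (y a)) (emb (y b)) = 0 := fun a b ha hb => (hEm a ha b hb).2.2.2.1
  have hXY1 : ∀ a, a < 3 → polar Q (emb (x a)) (emb (y a)) = 1 := fun a ha => by
    have := (hEm a ha a ha).2.2.2.2
    rwa [if_pos rfl] at this
  have rXX : ∀ a b, a < 3 → b < 3 → R hQ M (emb (x a)) (emb (x b)) := fun a b ha hb =>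
    hM _ _ (hH a ha a ha).1 (hH a ha b hb).2.2.1
  have rXY : ∀ a b, a < 3 → b < 3 → a ≠ b → R hQ M (emb (x a)) (emb (y b)) := fun a b ha hb hab =>
    hM _ _ (hH a ha a ha).1 (by
      have := (hH a ha b hb).2.2.2.2
      rwa [if_neg hab] at this)
  have rYX : ∀ a b, a < 3 → b < 3 → a ≠ b → R hQ M (emb (y a)) (emb (x b)) := fun a b ha hb hab =>
    hM _ _ (hH a ha a ha).2.1 (by
      rw [polar_comm]
      have := (hH b hb a ha).2.2.2.2
      rwa [if_neg (Ne.symm hab)] at this)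
  have rYY : ∀ a b, a < 3 → b < 3 → R hQ M (emb (y a)) (emb (y b)) := fun a b ha hb =>
    hM _ _ (hH a ha a ha).2.1 (hH a ha b hb).2.2.2.1
  obtain ⟨s1, s2⟩ := siegel_step (x₀ := emb (x 0)) (y₁ := emb (y 1)) (x₂ := emb (x 2)) (y₂ := emb (y 2)) h2 hQ hiso hδ' hU (hEm 0 n0 0 n0).1 (hEm 1 n1 1 n1).2.1 (hEm 2 n2 2 n2).1 (hEm 2 n2 2 n2).2.1
    (hXY 0 1 n0 n1 (by norm_num)) (hXX 0 2 n0 n2) (hXY 0 2 n0 n2 (by norm_num)) (hYX 1 2 n1 n2 (by norm_num)) (hYY 1 2 n1 n2)
    (hXY1 2 n2) (rXY 0 1 n0 n1 (by norm_num)) (rXY 2 1 n2 n1 (by norm_num)) (rYX 2 0 n2 n0 (by norm_num))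
    (rYY 2 1 n2 n1)
  rw [hx0, hy1, ← hα, ← hβ] at s1
  rw [hx0, hy1, ← hβ] at s2
  obtain ⟨κ, hκ⟩ : ∃ κ : F, κ = -2 * (δ : F)⁻¹ := ⟨_, rfl⟩
  have hκ0 : κ ≠ 0 := by
    rw [hκ]
    exact mul_ne_zero (neg_ne_zero.2 h2) (inv_ne_zero hδ')
  rw [← hκ] at s1 s2
  obtain ⟨μ, hμ, hμM⟩ : ∃ μ, μ ∉ F₀ ∧ R hQ M (emb (x 0)) (μ • emb (y 1)) := by
    by_cases hk : κ * β * α ∈ F₀
    · refine ⟨-κ * β * β, ?_, by rw [hx0, hy1]; exact s2⟩
      intro hk2
      apply hratio
      have e : α / β = - ((κ * β * α) / (-κ * β * β)) := by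
        field_simp
      rw [e]
      exact F₀.neg_mem (F₀.div_mem hk hk2)
    · exact ⟨_, hk, by rw [hx0, hy1]; exact s1⟩
  have hall := all_frame3 hQ h hM hr hcard hH hμ hμM
  have T0 := T_frame3 hQ h hM hH hall (i := 0) (k := 1) (l := 2) (by norm_num) (by norm_num) (by norm_num) (by norm_num)
    (by norm_num) (by norm_num)
  have T1 := T_frame3 hQ h hM hH hall (i := 1) (k := 0) (l := 2) (by norm_num) (by norm_num) (by norm_num) (by norm_num)
    (by norm_num) (by norm_num)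
  have hY01 : polar (Q0 h) (y 0) (y 1) = 0 := (hH 0 (by norm_num) 1 (by norm_num)).2.2.2.1
  obtain ⟨p1, p2, p3⟩ := hM _ _ (hH 0 (by norm_num) 0 (by norm_num)).2.1 hY01
  have T2 := T_conj (sE_iso hQ p1 p2) p3 T1
  have e1 : sE hQ p1 p2 ⋆ emb (x 1) = emb (x 1) - emb (y 0) := by
    have a1 : polar Q (emb (x 1)) (emb (y 0)) = 0 := by
      have := (hEm 1 (by norm_num) 0 (by norm_num)).2.2.2.2
      rwa [if_neg (by norm_num)] at this
    have a2 : polar Q (emb (x 1)) (emb (y 1)) = 1 := by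
      have := (hEm 1 (by norm_num) 1 (by norm_num)).2.2.2.2
      rwa [if_pos rfl] at this
    have a3 : Q (emb (y 1)) = 0 := (hEm 1 (by norm_num) 1 (by norm_num)).2.1
    rw [sE_apply', a1, a2, a3]
    simp
  rw [e1] at T2
  refine Cfsg.Agent.Lib.OmTwoCore.omega_le_of_opp' hQ hn fr T0 T2 ?_
  have a1 : polar Q (emb (x 1)) (emb (x 0)) = 0 := (hEm 1 (by norm_num) 0 (by norm_num)).2.2.1
  have a2 : polar Q (emb (y 0)) (emb (x 0)) = 1 := by
    rw [polar_comm]
    have := (hEm 0 (by norm_num) 0 (by norm_num)).2.2.2.2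
    rwa [if_pos rfl] at this
  rw [polar_sub_left, a1, a2]
  simp

/-- A Siegel transformation outside the rational group. -/
theorem exists_nonrational7 (hQ : Nondeg Q) (h : RatQ Q F₀) (hn : 7 ≤ Fintype.card ι) (fr : Cfsg.Agent.Lib.OrthoSiegel.Frame Q) {l : F} (hl : l ∉ F₀) :
    ∃ g : GL ι F, g ∈ omegaGL ⇑Q ∧ g ∉ (Matrix.GeneralLinearGroup.map (F₀.subtype : F₀ →+* F)).range ⊔ scalars ι F := by
  classical
  obtain ⟨a, b, h1, h2, h3, -⟩ := exists_rat_pair7 hQ h ∅ (by simp; omega)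
  obtain ⟨a₂, b₂, h4, h5, h6, h7⟩ := exists_rat_pair7 hQ h {a, b} (by
    have : ({a, b} : Finset (ι → F₀)).card ≤ 2 := Finset.card_le_two
    omega)
  obtain ⟨p1, p2⟩ := h7 a (by simp)
  obtain ⟨p3, p4⟩ := h7 b (by simp)
  have q1 := (Q0_eq_zero h).1 h1
  have q4 := (Q0_eq_zero h).1 h4
  have e1 := (polar_Q0_eq_zero h).1 p1
  have e2 := (polar_Q0_eq_zero h).1 p2
  have e3 := (polar_Q0_eq_zero h).1 p3
  have e4 := (polar_Q0_eq_zero h).1 p4
  have e5 : polar Q (emb a) (emb b) = 1 := by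
    have := congrArg Subtype.val h3
    rw [polar_Q0] at this
    simpa using this
  have e6 : polar Q (emb a₂) (emb b₂) = 1 := by
    have := congrArg Subtype.val h6
    rw [polar_Q0] at this
    simpa using this
  have hy : polar Q (emb a) (l • emb a₂) = 0 := by rw [polar_smul_r, e1, mul_zero]
  refine ⟨sE hQ q1 hy, Cfsg.Agent.Lib.OmTwoCore.sE_mem_omega hQ (by omega) fr q1 hy, fun hmem => hl ?_⟩
  obtain ⟨d, hd, hent⟩ := Cfsg.Agent.Lib.SubfieldMax.exists_entries_of_mem_sup hmem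
  have himg : ∀ s : ι → F₀, ∃ ρ : ι → F₀, d • (sE hQ q1 hy ⋆ emb s) = emb ρ := by
    intro s
    refine ⟨fun k => ⟨d * ∑ l', ((sE hQ q1 hy : GL ι F) : Matrix ι ι F) k l' * (s l' : F), ?_⟩, ?_⟩
    · rw [Finset.mul_sum]
      refine F₀.sum_mem fun l' _ => ?_
      rw [← mul_assoc]
      exact F₀.mul_mem (hent k l') (s l').2
    · ext k
      simp [Matrix.mulVec, dotProduct, emb]
  obtain ⟨ρ, hρ⟩ := himg b
  have hv : sE hQ q1 hy ⋆ emb b = emb b + l • emb a₂ := by
    rw [sE_apply', polar_comm Q (emb b) (emb a), e5, polar_smul_r, e3, Q_smul, q4]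
    simp
  rw [hv] at hρ
  have hd1 : d ∈ F₀ := by
    have h8 := polar_emb_mem h ρ a
    rw [← hρ, polar_smul_l, polar_add_left, polar_smul_l, polar_comm Q (emb b) (emb a), e5, polar_comm Q (emb a₂) (emb a),
      e1] at h8
    simpa using h8
  have hd2 : d * l ∈ F₀ := by
    have h8 := polar_emb_mem h ρ b₂
    rw [← hρ, polar_smul_l, polar_add_left, polar_smul_l, e6, e4] at h8
    simpa using h8
  have e : l = (d * l) / d := by
    field_simp
  rw [e]
  exact F₀.div_mem hd2 hd1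

end Stage

/-- The maximality of the subfield subgroups of `Ω`. -/
theorem maximal_abstract7 {ι : Type} [Fintype ι] [DecidableEq ι] {F : Type*} [Field F] [Fintype F] {Q : (ι → F) → F}
    (hQ : IsNondegenerateQuadraticForm Q) (hn : 7 ≤ Fintype.card ι) (hodd : Odd (Fintype.card ι)) (h2 : (2 : F) ≠ 0) (F₀ : Subfield F)
    {r : ℕ} (hr : r.Prime)
    (hcard : Fintype.card F = Nat.card F₀ ^ r) (P : GL ι F) {ζ : F} (hζ : ζ ≠ 0)
    (hP : IsQuadFormRationalStructure (fun v => ζ * Q v) F₀ P) :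
    IsMaximalIn (omegaGL Q) (subfieldSubgroup F₀ P ⊓ omegaGL Q) := by
  classical
  have hQ' := transport_nd hQ hζ P
  have hΩ := omegaGL_conj (Q := Q) hζ P
  obtain ⟨Qf, hQf⟩ := exists_toQF _ hQ'
  have hQfa : ∀ v, Qf v = ζ * Q (P ⋆ v) := fun v => congrFun hQf v
  rw [← hQf] at hΩ hQ'
  have hN : Nondeg Qf := nondeg_of hQ'
  obtain ⟨fr⟩ := Cfsg.Agent.Lib.Om7Base.exists_frame7 hN hn
  have hR : RatQ Qf F₀ := by
    intro x
    rw [hQfa]
    exact hP (emb x) (fun i => (x i).2)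
  set K₀ := (Matrix.GeneralLinearGroup.map (F₀.subtype : F₀ →+* F)).range ⊔ scalars ι F with hK₀
  set φ := (MulAut.conj P).toMonoidHom with hφ
  have hφa : ∀ x, φ x = P * x * P⁻¹ := fun x => rfl
  have hmemS : ∀ x, x ∈ K₀ → φ x ∈ subfieldSubgroup F₀ P := fun x hx => ⟨x, hx, rfl⟩
  have hmemS' : ∀ x, φ x ∈ subfieldSubgroup F₀ P → x ∈ K₀ := by
    rintro x ⟨y, hy, hyx⟩
    have : y = x := (MulAut.conj P).injective hyx
    rwa [← this]
  have hΩmem : ∀ x, x ∈ omegaGL ⇑Qf → φ x ∈ omegaGL Q := by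
    intro x hx
    rw [← hΩ]
    exact ⟨x, hx, rfl⟩
  refine ⟨lt_of_le_of_ne inf_le_right ?_, ?_⟩
  · intro heq
    obtain ⟨l, hl⟩ := exists_notMem_of_card (F₀ := F₀) hr hcard
    obtain ⟨g, hg1, hg2⟩ := exists_nonrational7 hN hR hn fr hl
    have h1 : φ g ∈ omegaGL Q := hΩmem g hg1
    rw [← heq] at h1
    exact hg2 (hmemS' g h1.1)
  · intro M hHM hMG
    by_cases hMH : M ≤ subfieldSubgroup F₀ P ⊓ omegaGL Q
    · exact Or.inl (le_antisymm hMH hHM)
    right
    refine le_antisymm hMG ?_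
    obtain ⟨g, hgM, hgH⟩ := SetLike.not_le_iff_exists.mp hMH
    set M' : Subgroup (GL ι F) := M.comap φ with hM'
    have hM'mem : ∀ x, x ∈ M' ↔ φ x ∈ M := fun x => Iff.rfl
    set g' := P⁻¹ * g * P with hg'
    have hφg' : φ g' = g := by
      rw [hφa, hg']
      group
    have hg'M : g' ∈ M' := by
      rw [hM'mem, hφg']
      exact hgM
    have hg'K : g' ∉ K₀ := by
      intro hmem
      apply hgH
      have h1 := hmemS _ hmem
      rw [hφg'] at h1
      exact ⟨h1, hMG hgM⟩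
    have hiso : ∀ t ∈ M', ∀ v, Qf (t ⋆ v) = Qf v := by
      intro t ht v
      have h1 := hMG ((hM'mem t).1 ht)
      have h2 := Cfsg.Agent.Lib.OmCalc.iso_omega (Q := Cfsg.Agent.Lib.OmCalc.toQF Q hQ) (g := φ t) (by
        rw [Cfsg.Agent.Lib.OmCalc.coe_toQF]
        exact h1) (P ⋆ v)
      rw [Cfsg.Agent.Lib.OmCalc.coe_toQF] at h2
      rw [hQfa, hQfa]
      have h3 : (φ t) ⋆ (P ⋆ v) = P ⋆ (t ⋆ v) := by
        rw [hφa, mulVec_mul_GL, mulVec_mul_GL, inv_mulVec_GL]
      rw [h3] at h2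
      rw [h2]
    have hrat : ∀ e y : ι → F₀, Q0 hR e = 0 → polar (Q0 hR) e y = 0 → R hN M' (emb e) (emb y) := by
      intro e y he hy
      have he' := (Q0_eq_zero hR).1 he
      have hy' := (polar_Q0_eq_zero hR).1 hy
      refine ⟨he', hy', ?_⟩
      rw [hM'mem]
      apply hHM
      exact ⟨hmemS _ (sE_rat hN hR he' hy'), hΩmem _ (Cfsg.Agent.Lib.OmTwoCore.sE_mem_omega hN (by omega) fr he' hy')⟩
    obtain ⟨δ, hδ, htau⟩ := exists_rat_tau hN hR hn hodd h2
    have hτ : ∀ w₀ : ι → F₀, Q0 hR w₀ = δ → UU Qf M' (δ : F) (emb w₀) := by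
      intro w₀ hw₀
      obtain ⟨t, ht, htK, hx⟩ := htau w₀ hw₀
      refine ⟨?_, t, ?_, hx⟩
      · rw [← hw₀]
        rfl
      · rw [hM'mem]
        apply hHM
        exact ⟨hmemS _ htK, hΩmem _ ht⟩
    have hall := main_abstract7 hN hR hn fr h2 hr hcard hiso hrat hδ hτ hg'M hg'K
    intro x hx
    rw [← hΩ] at hx
    obtain ⟨y, hy, rfl⟩ := hx
    exact (hM'mem y).1 (hall hy)

end Cfsg.Agent.Lib.Om7Sf
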