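import Mathlib
import Cfsg.Agent.Lib.OrthoFinal
import Cfsg.Agent.Lib.OmGeo

/-!
# Minimal index in orthogonal groups: calculus of Siegel elements

`rr hQ e u` is the Siegel transformation as a total function of `e` and `u`.
-/

set_option autoImplicit false
set_option linter.unusedSectionVars false
set_option linter.unusedVariables false

namespace Cfsg.Agent.Lib.OmIdx

open Module QuadraticMap Cfsg.Agent.Lib.OrthoBasic Cfsg.Agent.Lib.OrthoSiegel Cfsg.Agent.Lib.QuadFF
  Cfsg.Agent.Lib.OmGeo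

variable {F : Type*} [Field F] {V : Type*} [AddCommGroup V] [Module F V] {Q : QuadraticForm F V}

/-- Application of an isometry. -/
abbrev ap (g : OG Q) (z : V) : V := (g : V ≃ₗ[F] V) z

lemma ap_mul (g h : OG Q) (z : V) : ap (g * h) z = ap g (ap h z) := rfl

lemma ap_one (z : V) : ap (1 : OG Q) z = z := rfl

lemma ap_inv_self (g : OG Q) (z : V) : ap g⁻¹ (ap g z) = z := by
  rw [← ap_mul, inv_mul_cancel, ap_one]

lemma ap_self_inv (g : OG Q) (z : V) : ap g (ap g⁻¹ z) = z := by
  rw [← ap_mul, mul_inv_cancel, ap_one]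

lemma ap_polar (g : OG Q) (x y : V) : polar Q (ap g x) (ap g y) = polar Q x y := OG_polar Q g x y

lemma ap_Q (g : OG Q) (x : V) : Q (ap g x) = Q x := OG_apply Q g x

lemma og_ext {a b : OG Q} (h : ∀ x, ap a x = ap b x) : a = b :=
  Subtype.ext (LinearEquiv.ext h)

lemma nd_of_nondeg (hQ : Nondeg Q) : ND Q := by
  intro x hx
  by_contra h
  obtain ⟨y, hy⟩ := hQ x h
  exact hy (hx y)

lemma nondeg_of_nd (hQ : ND Q) : Nondeg Q := by
  intro x hx
  by_contra h
  push Not at h
  exact hx (hQ x h)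

section rr

variable [FiniteDimensional F V] (hQ : Nondeg Q)

open Classical in
/-- The Siegel transformation, as a total function. -/
noncomputable def rr (e u : V) : OG Q :=
  if h : Q e = 0 ∧ polar Q e u = 0 then siegel hQ h.1 h.2 else 1

lemma rr_isSiegel {e u : V} (he : Q e = 0) (hu : polar Q e u = 0) : IsSiegel (rr hQ e u) e u := by
  rw [rr, dif_pos ⟨he, hu⟩]
  exact siegel_isSiegel hQ he hu

lemma rr_apply {e u : V} (he : Q e = 0) (hu : polar Q e u = 0) (z : V) :
    ap (rr hQ e u) z = z + polar Q z e • u - (polar Q z u + Q u * polar Q z e) • e :=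
  ((rr_isSiegel hQ he hu).2.2 z).trans (siegelLin_apply Q e u z)

lemma rr_mem {e u : V} (he : Q e = 0) (hu : polar Q e u = 0) : rr hQ e u ∈ siegelE Q :=
  (rr_isSiegel hQ he hu).mem

lemma rr_mem' (e u : V) : rr hQ e u ∈ siegelE Q := by
  by_cases h : Q e = 0 ∧ polar Q e u = 0
  · exact rr_mem hQ h.1 h.2
  · rw [rr, dif_neg h]
    exact one_mem _

lemma eq_rr_of_isSiegel {s : OG Q} {e u : V} (h : IsSiegel s e u) : s = rr hQ e u :=
  og_ext fun z => by
    rw [rr_apply hQ h.1 h.2.1, ← siegelLin_apply, ← h.2.2]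

lemma rr_add {e u u' : V} (he : Q e = 0) (hu : polar Q e u = 0) (hu' : polar Q e u' = 0) :
    rr hQ e (u + u') = rr hQ e u * rr hQ e u' :=
  (eq_rr_of_isSiegel hQ ((rr_isSiegel hQ he hu).mul (rr_isSiegel hQ he hu'))).symm

lemma rr_zero (e : V) : rr hQ e 0 = 1 := by
  by_cases he : Q e = 0
  · refine og_ext fun z => ?_
    rw [rr_apply hQ he (polar_zero_right _ _), ap_one]
    simp
  · rw [rr, dif_neg (fun h => he h.1)]

lemma rr_neg {e u : V} (he : Q e = 0) (hu : polar Q e u = 0) : rr hQ e (-u) = (rr hQ e u)⁻¹ := by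
  have hu' : polar Q e (-u) = 0 := by rw [polar_neg_right, hu, neg_zero]
  apply eq_inv_of_mul_eq_one_left
  rw [← rr_add hQ he hu' hu, neg_add_cancel, rr_zero]

lemma rr_sub {e u u' : V} (he : Q e = 0) (hu : polar Q e u = 0) (hu' : polar Q e u' = 0) :
    rr hQ e (u - u') = rr hQ e u * (rr hQ e u')⁻¹ := by
  have hu'' : polar Q e (-u') = 0 := by rw [polar_neg_right, hu', neg_zero]
  rw [sub_eq_add_neg, rr_add hQ he hu hu'', rr_neg hQ he hu']

lemma rr_comm {e u u' : V} (he : Q e = 0) (hu : polar Q e u = 0) (hu' : polar Q e u' = 0) :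
    rr hQ e u * rr hQ e u' = rr hQ e u' * rr hQ e u := by
  rw [← rr_add hQ he hu hu', ← rr_add hQ he hu' hu, add_comm]

lemma rr_conj (g : OG Q) {e u : V} (he : Q e = 0) (hu : polar Q e u = 0) :
    g * rr hQ e u * g⁻¹ = rr hQ (ap g e) (ap g u) :=
  eq_rr_of_isSiegel hQ ((rr_isSiegel hQ he hu).conj g)

lemma rr_mul_of_fix (g : OG Q) {e u : V} (he : Q e = 0) (hu : polar Q e u = 0) :
    g * rr hQ e u = rr hQ (ap g e) (ap g u) * g := by
  rw [← rr_conj hQ g he hu]
  group

lemma rr_add_smul {e u : V} (he : Q e = 0) (hu : polar Q e u = 0) (c : F) :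
    rr hQ e (u + c • e) = rr hQ e u := by
  have hu' : polar Q e (u + c • e) = 0 := by
    rw [polar_add_right, hu, polar_smul_r, polar_self_of_singular he]; simp
  refine og_ext fun z => ?_
  rw [rr_apply hQ he hu', rr_apply hQ he hu, ← siegelLin_apply, ← siegelLin_apply,
    siegelLin_add_smul he hu]

lemma rr_smul_self {e : V} (he : Q e = 0) (c : F) : rr hQ e (c • e) = 1 := by
  have := rr_add_smul hQ he (polar_zero_right Q e) c
  rwa [zero_add, rr_zero] at this

lemma rr_smul_left {e u : V} (he : Q e = 0) (hu : polar Q e u = 0) (c : F) :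
    rr hQ (c • e) u = rr hQ e (c • u) := by
  have he' : Q (c • e) = 0 := by rw [Q_smul, he, mul_zero]
  have hu' : polar Q (c • e) u = 0 := by rw [polar_smul_l, hu, mul_zero]
  have hu'' : polar Q e (c • u) = 0 := by rw [polar_smul_r, hu, mul_zero]
  refine og_ext fun z => ?_
  rw [rr_apply hQ he' hu', rr_apply hQ he hu'', ← siegelLin_apply, ← siegelLin_apply, siegelLin_smul_left]

lemma rr_eq_one {e u : V} (he : Q e = 0) (hu : polar Q e u = 0) (he0 : e ≠ 0) (h : rr hQ e u = 1) :
    ∃ c : F, u = c • e := by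
  obtain ⟨z₀, hz₀⟩ := hQ e he0
  set z : V := (polar Q e z₀)⁻¹ • z₀ with hz
  have hze : polar Q z e = 1 := by
    rw [hz, polar_smul_l, polar_comm Q z₀ e, inv_mul_cancel₀ hz₀]
  have h1 := rr_apply hQ he hu z
  rw [h, ap_one, hze] at h1
  refine ⟨polar Q z u + Q u * 1, ?_⟩
  have h2 : (1 : F) • u = (polar Q z u + Q u * 1) • e := by
    have := h1
    rw [eq_comm, sub_eq_iff_eq_add] at this
    exact add_left_cancel this
  rwa [one_smul] at h2

lemma rr_swap {x y : V} (hx : Q x = 0) (hy : Q y = 0) (hxy : polar Q x y = 0) :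
    rr hQ y x = rr hQ x (-y) := by
  have hyx : polar Q y x = 0 := by rw [polar_comm]; exact hxy
  have hny : polar Q x (-y) = 0 := by rw [polar_neg_right, hxy, neg_zero]
  refine og_ext fun z => ?_
  rw [rr_apply hQ hy hyx, rr_apply hQ hx hny]
  simp only [hx, hy, polar_neg_right, QuadraticMap.map_neg, zero_mul, add_zero, neg_smul, smul_neg]
  abel

/-- Additivity in the first argument. -/
lemma rr_add_left {e₁ e₂ u : V} (h₁ : Q e₁ = 0) (h₂ : Q e₂ = 0) (h₁₂ : polar Q e₁ e₂ = 0)
    (hu₁ : polar Q e₁ u = 0) (hu₂ : polar Q e₂ u = 0) :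
    rr hQ (e₁ + e₂) u = rr hQ e₁ (u - Q u • e₂) * rr hQ e₂ u := by
  have h₃ : Q (e₁ + e₂) = 0 := by rw [Q_add, h₁, h₂, h₁₂]; simp
  have h₄ : polar Q (e₁ + e₂) u = 0 := by rw [polar_add_left, hu₁, hu₂, add_zero]
  have h₅ : polar Q e₁ (u - Q u • e₂) = 0 := by
    rw [polar_sub_right, polar_smul_r, hu₁, h₁₂]; simp
  refine og_ext fun z => ?_
  rw [ap_mul, rr_apply hQ h₃ h₄, rr_apply hQ h₂ hu₂, rr_apply hQ h₁ h₅]
  have hu₁' : polar Q u e₁ = 0 := by rw [polar_comm]; exact hu₁
  have h₂₁ : polar Q e₂ e₁ = 0 := by rw [polar_comm]; exact h₁₂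
  simp only [polar_add_right, polar_add_left, polar_sub_left, polar_sub_right, polar_smul_l, polar_smul_r, hu₁',
    h₂₁, polar_self_of_singular h₂, Q_sub, Q_smul, h₂, polar_comm Q u e₂, hu₂, polar_self' Q u]
  module

end rr

/-! ### Independence -/

/-- Two vectors are linearly independent. -/
def Ind (x y : V) : Prop := y ≠ 0 ∧ ∀ c : F, x ≠ c • y

lemma Ind.left_ne {x y : V} (h : Ind (F := F) x y) : x ≠ 0 := by
  intro h0
  exact h.2 0 (by simp [h0])

lemma Ind.symm {x y : V} (h : Ind (F := F) x y) : Ind (F := F) y x := by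
  refine ⟨h.left_ne, fun c hc => ?_⟩
  have hc0 : c ≠ 0 := by
    rintro rfl
    exact h.1 (by simpa using hc)
  apply h.2 c⁻¹
  rw [hc, smul_smul, inv_mul_cancel₀ hc0, one_smul]

lemma Ind.smul_add {x y : V} (h : Ind (F := F) x y) {a b : F} (hab : a • x + b • y = 0) : a = 0 ∧ b = 0 := by
  have ha : a = 0 := by
    by_contra ha
    apply h.2 (-(a⁻¹ * b))
    have : x = a⁻¹ • (a • x) := by rw [smul_smul, inv_mul_cancel₀ ha, one_smul]
    rw [this, eq_neg_of_add_eq_zero_left hab, smul_neg, neg_smul, smul_smul]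
  subst ha
  have hb : b • y = 0 := by simpa using hab
  exact ⟨rfl, (smul_eq_zero.1 hb).resolve_right h.1⟩

/-- Prescribed values of the polar form on two independent vectors. -/
lemma exists_two_values (hQ : ND Q) {x y : V} (h : Ind (F := F) x y) (a b : F) :
    ∃ z, polar Q x z = a ∧ polar Q y z = b := by
  have key : ∀ {x y : V}, Ind (F := F) x y → ∃ z, polar Q x z = 1 ∧ polar Q y z = 0 := by
    intro x y h
    obtain ⟨z₀, hz₀⟩ : ∃ z, polar Q y z ≠ 0 := by
      by_contra hno
      push Not at hno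
      exact h.1 (hQ y hno)
    set z₁ : V := (polar Q y z₀)⁻¹ • z₀ with hz₁
    have hy1 : polar Q y z₁ = 1 := by rw [hz₁, polar_smul_r, inv_mul_cancel₀ hz₀]
    by_contra hno
    push Not at hno
    apply h.2 (polar Q x z₁)
    rw [← sub_eq_zero]
    apply hQ
    intro z
    have hzz : polar Q y (z - polar Q y z • z₁) = 0 := by
      rw [polar_sub_right, polar_smul_r, hy1]; ring
    have hxz : polar Q x (z - polar Q y z • z₁) = 0 := by
      by_contra hne
      apply hno ((polar Q x (z - polar Q y z • z₁))⁻¹ • (z - polar Q y z • z₁))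
      · rw [polar_smul_r, inv_mul_cancel₀ hne]
      · rw [polar_smul_r, hzz, mul_zero]
    rw [polar_sub_right, polar_smul_r] at hxz
    rw [polar_sub_left, polar_smul_l]
    linear_combination hxz
  obtain ⟨z₁, h1, h2⟩ := key h
  obtain ⟨z₂, h3, h4⟩ := key h.symm
  refine ⟨a • z₁ + b • z₂, ?_, ?_⟩
  · rw [polar_add_right, polar_smul_r, polar_smul_r, h1, h4]; ring
  · rw [polar_add_right, polar_smul_r, polar_smul_r, h2, h3]; ring

/-! ### Line frames -/

/-- A frame for a totally singular line. -/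
structure LF (Q : QuadraticForm F V) where
  x : V
  y : V
  xs : V
  ys : V
  Qx : Q x = 0
  Qy : Q y = 0
  Qxs : Q xs = 0
  Qys : Q ys = 0
  xy : polar Q x y = 0
  xxs : polar Q x xs = 1
  xys : polar Q x ys = 0
  yxs : polar Q y xs = 0
  yys : polar Q y ys = 1
  xsys : polar Q xs ys = 0

lemma exists_frame (hQ : ND Q) {x y : V} (hx : Q x = 0) (hy : Q y = 0) (hxy : polar Q x y = 0)
    (h : Ind (F := F) x y) : ∃ fr : LF Q, fr.x = x ∧ fr.y = y := by
  obtain ⟨s₀, h1, h2⟩ := exists_two_values hQ h 1 0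
  obtain ⟨t₀, h3, h4⟩ := exists_two_values hQ h 0 1
  have hxx := polar_self_of_singular hx
  have hyy := polar_self_of_singular hy
  have hyx : polar Q y x = 0 := by rw [polar_comm]; exact hxy
  set xs : V := s₀ - Q s₀ • x with hxs
  set t₁ : V := t₀ - polar Q xs t₀ • x with ht₁
  set ys : V := t₁ - Q t₁ • y with hys
  have hxxs : polar Q x xs = 1 := by rw [hxs, polar_sub_right, polar_smul_r, hxx, h1]; ring
  have hyxs : polar Q y xs = 0 := by rw [hxs, polar_sub_right, polar_smul_r, hyx, h2]; ring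
  have hxt₁ : polar Q x t₁ = 0 := by rw [ht₁, polar_sub_right, polar_smul_r, hxx, h3]; ring
  have hyt₁ : polar Q y t₁ = 1 := by rw [ht₁, polar_sub_right, polar_smul_r, hyx, h4]; ring
  have hst₁ : polar Q xs t₁ = 0 := by
    rw [ht₁, polar_sub_right, polar_smul_r, polar_comm Q xs x, hxxs]; ring
  refine ⟨⟨x, y, xs, ys, hx, hy, ?_, ?_, hxy, hxxs, ?_, hyxs, ?_, ?_⟩, rfl, rfl⟩
  · rw [hxs, Q_sub, Q_smul, hx, polar_smul_r, polar_comm Q s₀ x, h1]; ring
  · rw [hys, Q_sub, Q_smul, hy, polar_smul_r, polar_comm Q t₁ y, hyt₁]; ring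
  · rw [hys, polar_sub_right, polar_smul_r, hxy, hxt₁]; ring
  · rw [hys, polar_sub_right, polar_smul_r, hyy, hyt₁]; ring
  · rw [hys, polar_sub_right, polar_smul_r, polar_comm Q xs y, hyxs, hst₁]; ring

namespace LF

variable (fr : LF Q)

/-- Swapping the two points. -/
def swap : LF Q where
  x := fr.y
  y := fr.x
  xs := fr.ys
  ys := fr.xs
  Qx := fr.Qy
  Qy := fr.Qx
  Qxs := fr.Qys
  Qys := fr.Qxs
  xy := by rw [polar_comm]; exact fr.xy
  xxs := fr.yys
  xys := fr.yxs
  yxs := fr.xys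
  yys := fr.xxs
  xsys := by rw [polar_comm]; exact fr.xsys

lemma sx : polar Q fr.xs fr.x = 1 := by rw [polar_comm]; exact fr.xxs
lemma sy : polar Q fr.ys fr.y = 1 := by rw [polar_comm]; exact fr.yys
lemma yx : polar Q fr.y fr.x = 0 := by rw [polar_comm]; exact fr.xy
lemma ysx : polar Q fr.ys fr.x = 0 := by rw [polar_comm]; exact fr.xys
lemma xsy : polar Q fr.xs fr.y = 0 := by rw [polar_comm]; exact fr.yxs
lemma yss : polar Q fr.ys fr.xs = 0 := by rw [polar_comm]; exact fr.xsys
lemma xx : polar Q fr.x fr.x = 0 := polar_self_of_singular fr.Qx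
lemma yy : polar Q fr.y fr.y = 0 := polar_self_of_singular fr.Qy
lemma xsxs : polar Q fr.xs fr.xs = 0 := polar_self_of_singular fr.Qxs
lemma ysys : polar Q fr.ys fr.ys = 0 := polar_self_of_singular fr.Qys

/-- The coordinate map. -/
noncomputable def coord : V →ₗ[F] F × F × F × F :=
  (polarBilin Q fr.x).prod ((polarBilin Q fr.y).prod ((polarBilin Q fr.xs).prod (polarBilin Q fr.ys)))

/-- The complement of the frame. -/
noncomputable def W : Submodule F V := LinearMap.ker fr.coord

lemma mem_W {v : V} :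
    v ∈ fr.W ↔ polar Q fr.x v = 0 ∧ polar Q fr.y v = 0 ∧ polar Q fr.xs v = 0 ∧ polar Q fr.ys v = 0 := by
  simp [W, coord, LinearMap.mem_ker]

lemma coord_surj : Function.Surjective fr.coord := by
  rintro ⟨a, b, c, d⟩
  refine ⟨a • fr.xs + b • fr.ys + c • fr.x + d • fr.y, ?_⟩
  refine Prod.ext ?_ (Prod.ext ?_ (Prod.ext ?_ ?_))
  · change polar Q fr.x _ = a
    simp only [polar_add_right, polar_smul_r, fr.xxs, fr.xys, fr.xx, fr.xy]; ring
  · change polar Q fr.y _ = b
    simp only [polar_add_right, polar_smul_r, fr.yxs, fr.yys, fr.yx, fr.yy]; ring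
  · change polar Q fr.xs _ = c
    simp only [polar_add_right, polar_smul_r, fr.xsxs, fr.xsys, fr.sx, fr.xsy]; ring
  · change polar Q fr.ys _ = d
    simp only [polar_add_right, polar_smul_r, fr.yss, fr.ysys, fr.ysx, fr.sy]; ring

lemma finrank_W [FiniteDimensional F V] : finrank F V = 4 + finrank F fr.W := by
  have h := LinearMap.finrank_range_add_finrank_ker fr.coord
  rw [LinearMap.range_eq_top.2 fr.coord_surj, finrank_top] at h
  have h4 : finrank F (F × F × F × F) = 4 := by simp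
  rw [h4] at h
  exact h.symm

/-- Projection onto the complement. -/
noncomputable def pr (v : V) : V :=
  v - polar Q fr.xs v • fr.x - polar Q fr.ys v • fr.y - polar Q fr.x v • fr.xs - polar Q fr.y v • fr.ys

lemma pr_mem (v : V) : fr.pr v ∈ fr.W := by
  rw [mem_W]
  refine ⟨?_, ?_, ?_, ?_⟩ <;>
  · simp only [pr, polar_sub_right, polar_smul_r, fr.xx, fr.xy, fr.xxs, fr.xys, fr.yx, fr.yy, fr.yxs, fr.yys,
      fr.sx, fr.xsy, fr.xsxs, fr.xsys, fr.ysx, fr.sy, fr.yss, fr.ysys]
    ring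

lemma decomp (v : V) :
    v = polar Q fr.xs v • fr.x + polar Q fr.ys v • fr.y + polar Q fr.x v • fr.xs + polar Q fr.y v • fr.ys
      + fr.pr v := by
  rw [pr]; abel

lemma nd_W (hQ : ND Q) : ND (restr Q fr.W) := by
  rintro ⟨w, hw⟩ h
  apply Subtype.ext
  apply hQ
  intro z
  have h1 := h ⟨_, fr.pr_mem z⟩
  rw [polar_restr] at h1
  change polar Q w (fr.pr z) = 0 at h1
  obtain ⟨h2, h3, h4, h5⟩ := fr.mem_W.1 hw
  simp only [pr, polar_sub_right, polar_smul_r] at h1
  rw [polar_comm Q w fr.x, polar_comm Q w fr.y, polar_comm Q w fr.xs, polar_comm Q w fr.ys, h2, h3, h4, h5] at h1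
  simpa using h1

end LF

/-! ### Sums of singular vectors -/

/-- Every vector is a sum of singular vectors, as soon as there is a hyperbolic pair. -/
lemma sing_induct {a b : V} (h : IsHyp Q a b) {P : V → Prop} (hs : ∀ v, Q v = 0 → P v)
    (hadd : ∀ u v, P u → P v → P (u + v)) (v : V) : P v := by
  have hba : polar Q b a = 1 := by rw [polar_comm]; exact h.vw
  set t : V := v - polar Q b v • a - polar Q a v • b with ht
  have hta : polar Q t a = 0 := by
    have := (mem_perp2.1 (h.decomp v)).1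
    rw [polar_comm]; exact this
  have htb : polar Q t b = 0 := by
    have := (mem_perp2.1 (h.decomp v)).2
    rw [polar_comm]; exact this
  have h1 : Q (a + t - Q t • b) = 0 := by
    rw [Q_sub, Q_add, Q_smul, h.Qv, h.Qw, polar_smul_r, polar_add_left, polar_comm Q a t, hta, h.vw, htb]
    ring
  have h2 : P (a + t - Q t • b) := hs _ h1
  have h3 : P (-a) := hs _ (by rw [QuadraticMap.map_neg]; exact h.Qv)
  have h4 : P (Q t • b) := hs _ (by rw [Q_smul, h.Qw, mul_zero])
  have h5 : P (polar Q b v • a) := hs _ (by rw [Q_smul, h.Qv, mul_zero])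
  have h6 : P (polar Q a v • b) := hs _ (by rw [Q_smul, h.Qw, mul_zero])
  have h7 := hadd _ _ (hadd _ _ (hadd _ _ (hadd _ _ h2 h3) h4) h5) h6
  have : v = a + t - Q t • b + -a + Q t • b + polar Q b v • a + polar Q a v • b := by
    rw [ht]; abel
  rw [this]
  exact h7

end Cfsg.Agent.Lib.OmIdx
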