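import Mathlib

/-!
# Minimal index in orthogonal groups: characters and Heisenberg groups
-/

set_option autoImplicit false
set_option linter.unusedSectionVars false
set_option linter.unusedVariables false

namespace Cfsg.Agent.Lib.OmIdx

open Subgroup

/-! ### A duality estimate -/

section duality

variable {A : Type*} [AddCommGroup A] [Finite A]

/-- If two subgroups pair trivially under a non-degenerate pairing, the product of their orders is at most
the order of the group. -/
theorem card_mul_le_of_pairing (χ : A → AddChar A ℂ) (hadd : ∀ a a' b, χ (a + a') b = χ a b * χ a' b)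
    (hnd : ∀ a, a ≠ 0 → χ a ≠ 0) (S S' : AddSubgroup A) (hSS : ∀ a ∈ S, ∀ b ∈ S', χ a b = 1) :
    Nat.card S * Nat.card S' ≤ Nat.card A := by
  classical
  cases nonempty_fintype A
  have h0 : ∀ b, χ 0 b = 1 := by
    intro b
    have h1 := hadd 0 0 b
    rw [add_zero] at h1
    have h2 : χ 0 b ≠ 0 := ((χ 0).val_isUnit b).ne_zero
    have h3 : χ 0 b * (χ 0 b - 1) = 0 := by linear_combination -h1
    rcases mul_eq_zero.1 h3 with h | h
    · exact absurd h h2
    · linear_combination h
  have h0' : χ 0 = 0 := by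
    ext b
    rw [h0 b]
    rfl
  -- the character of `S` attached to `b`
  let c : A → AddChar S ℂ := fun b =>
    { toFun := fun a => χ a b
      map_zero_eq_one' := h0 b
      map_add_eq_mul' := fun a a' => hadd a a' b }
  have hsumL : ∑ a : S, ∑ b : A, χ a b = (Nat.card A : ℂ) := by
    have h1 : ∀ a : S, ∑ b : A, χ a b = if (a : A) = 0 then (Nat.card A : ℂ) else 0 := by
      intro a
      have := AddChar.sum_eq_ite (χ a)
      rw [this]
      by_cases ha : (a : A) = 0
      · rw [if_pos ha, ha, if_pos h0', Nat.card_eq_fintype_card]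
      · rw [if_neg ha, if_neg (hnd _ ha)]
    simp only [h1]
    rw [Finset.sum_ite]
    simp only [Finset.sum_const_zero, add_zero, Finset.sum_const, nsmul_eq_mul]
    have : (Finset.univ.filter fun a : S => (a : A) = 0) = {0} := by
      ext a
      simp only [Finset.mem_filter, Finset.mem_univ, true_and, Finset.mem_singleton]
      exact ⟨fun h => Subtype.ext h, fun h => by rw [h]; rfl⟩
    rw [this]
    simp
  have hsumR : ∑ a : S, ∑ b : A, χ a b = ∑ b : A, if c b = 0 then (Nat.card S : ℂ) else 0 := by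
    rw [Finset.sum_comm]
    refine Finset.sum_congr rfl fun b _ => ?_
    have := AddChar.sum_eq_ite (c b)
    rw [Nat.card_eq_fintype_card]
    exact this
  rw [hsumL] at hsumR
  rw [Finset.sum_ite] at hsumR
  simp only [Finset.sum_const_zero, add_zero, Finset.sum_const, nsmul_eq_mul] at hsumR
  have hN : Nat.card A = (Finset.univ.filter fun b => c b = 0).card * Nat.card S := by
    exact_mod_cast hsumR
  have hle : Nat.card S' ≤ (Finset.univ.filter fun b => c b = 0).card := by
    rw [Nat.card_eq_fintype_card, ← Finset.card_univ]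
    refine Finset.card_le_card_of_injOn (fun b => (b : A)) ?_ ?_
    · intro b _
      simp only [Finset.coe_filter, Finset.mem_univ, true_and, Set.mem_ofPred_eq]
      ext a
      exact hSS a a.2 b b.2
    · intro a _ b _ h
      exact Subtype.ext h
  rw [hN, mul_comm (Nat.card S)]
  exact Nat.mul_le_mul_right _ hle

/-- A proper subgroup of a finite abelian group lies in the kernel of a non-trivial character. -/
theorem exists_char_of_ne_top (Z : AddSubgroup A) (hZ : Z ≠ ⊤) :
    ∃ ψ : AddChar A ℂ, ψ ≠ 0 ∧ ∀ z ∈ Z, ψ z = 1 := by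
  classical
  obtain ⟨a, ha⟩ : ∃ a, a ∉ Z := by
    by_contra h
    push Not at h
    exact hZ (eq_top_iff.2 fun x _ => h x)
  cases nonempty_fintype A
  have ha' : (QuotientAddGroup.mk a : A ⧸ Z) ≠ 0 := by
    rwa [Ne, QuotientAddGroup.eq_zero_iff]
  obtain ⟨ψ, hψ⟩ := AddChar.exists_apply_ne_zero.2 ha'
  refine ⟨ψ.compAddMonoidHom (QuotientAddGroup.mk' Z), ?_, ?_⟩
  · intro h
    apply hψ
    have := congrArg (fun f : AddChar A ℂ => f a) h
    simpa using this
  · intro z hz
    have : (QuotientAddGroup.mk' Z) z = 0 := (QuotientAddGroup.eq_zero_iff z).2 hz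
    change ψ ((QuotientAddGroup.mk' Z) z) = 1
    rw [this, AddChar.map_zero_eq_one]

end duality

/-! ### The Heisenberg group -/

section heis

variable {W F : Type*} [AddCommGroup W] [AddCommGroup F]

/-- The Heisenberg group of a bi-additive map. -/
@[ext] structure Heis (B : W →+ W →+ F) where
  a : W
  b : W
  t : F

namespace Heis

variable {B : W →+ W →+ F}

instance : Mul (Heis B) := ⟨fun p p' => ⟨p.a + p'.a, p.b + p'.b, p.t + p'.t - B p'.a p.b⟩⟩
instance : One (Heis B) := ⟨⟨0, 0, 0⟩⟩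
instance : Inv (Heis B) := ⟨fun p => ⟨-p.a, -p.b, -p.t - B p.a p.b⟩⟩

@[simp] lemma mul_a (p p' : Heis B) : (p * p').a = p.a + p'.a := rfl
@[simp] lemma mul_b (p p' : Heis B) : (p * p').b = p.b + p'.b := rfl
@[simp] lemma mul_t (p p' : Heis B) : (p * p').t = p.t + p'.t - B p'.a p.b := rfl
@[simp] lemma one_a : (1 : Heis B).a = 0 := rfl
@[simp] lemma one_b : (1 : Heis B).b = 0 := rfl
@[simp] lemma one_t : (1 : Heis B).t = 0 := rfl
@[simp] lemma inv_a (p : Heis B) : (p⁻¹).a = -p.a := rfl
@[simp] lemma inv_b (p : Heis B) : (p⁻¹).b = -p.b := rfl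
@[simp] lemma inv_t (p : Heis B) : (p⁻¹).t = -p.t - B p.a p.b := rfl

instance : Group (Heis B) :=
  Group.ofLeftAxioms
    (by
      intro p q r
      ext
      · simp [add_assoc]
      · simp [add_assoc]
      · simp only [mul_t, mul_a, mul_b, map_add, AddMonoidHom.add_apply]
        abel)
    (by
      intro p
      ext <;> simp)
    (by
      intro p
      ext
      · simp
      · simp
      · simp only [mul_t, inv_t, inv_a, inv_b, map_neg, AddMonoidHom.neg_apply, one_t]
        abel)

/-- The equivalence with the product. -/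
def equivProd : Heis B ≃ W × W × F where
  toFun p := (p.a, p.b, p.t)
  invFun p := ⟨p.1, p.2.1, p.2.2⟩
  left_inv _ := rfl
  right_inv _ := rfl

instance [Finite W] [Finite F] : Finite (Heis B) := Finite.of_equiv _ equivProd.symm

lemma card_eq [Finite W] [Finite F] : Nat.card (Heis B) = Nat.card W * (Nat.card W * Nat.card F) := by
  rw [Nat.card_congr equivProd, Nat.card_prod, Nat.card_prod]

/-- The central part of a subgroup. -/
def Zs (L : Subgroup (Heis B)) : AddSubgroup F where
  carrier := {t | (⟨0, 0, t⟩ : Heis B) ∈ L}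
  add_mem' := by
    intro s t hs ht
    have := L.mul_mem hs ht
    have h2 : ((⟨0, 0, s⟩ : Heis B) * ⟨0, 0, t⟩) = ⟨0, 0, s + t⟩ := by
      ext <;> simp
    rwa [h2] at this
  zero_mem' := L.one_mem
  neg_mem' := by
    intro t ht
    have := L.inv_mem ht
    have h2 : ((⟨0, 0, t⟩ : Heis B)⁻¹) = ⟨0, 0, -t⟩ := by
      ext <;> simp
    rwa [h2] at this

/-- The image of a subgroup in the quotient by the centre. -/
def Ss (L : Subgroup (Heis B)) : AddSubgroup (W × W) where
  carrier := {p | ∃ t, (⟨p.1, p.2, t⟩ : Heis B) ∈ L}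
  add_mem' := by
    rintro p p' ⟨t, ht⟩ ⟨t', ht'⟩
    exact ⟨_, L.mul_mem ht ht'⟩
  zero_mem' := ⟨0, L.one_mem⟩
  neg_mem' := by
    rintro p ⟨t, ht⟩
    exact ⟨_, L.inv_mem ht⟩

lemma mem_Zs {L : Subgroup (Heis B)} {t : F} : t ∈ Zs L ↔ (⟨0, 0, t⟩ : Heis B) ∈ L := Iff.rfl

lemma mem_Ss {L : Subgroup (Heis B)} {p : W × W} : p ∈ Ss L ↔ ∃ t, (⟨p.1, p.2, t⟩ : Heis B) ∈ L := Iff.rfl

/-- Commutators lie in the central part. -/
lemma comm_mem {L : Subgroup (Heis B)} {p p' : W × W} (hp : p ∈ Ss L) (hp' : p' ∈ Ss L) :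
    B p.1 p'.2 - B p'.1 p.2 ∈ Zs L := by
  obtain ⟨t, ht⟩ := hp
  obtain ⟨t', ht'⟩ := hp'
  have h1 := L.mul_mem (L.mul_mem ht ht') (L.inv_mem (L.mul_mem ht' ht))
  have h2 : ((⟨p.1, p.2, t⟩ : Heis B) * ⟨p'.1, p'.2, t'⟩ * (⟨p'.1, p'.2, t'⟩ * ⟨p.1, p.2, t⟩)⁻¹)
      = ⟨0, 0, B p.1 p'.2 - B p'.1 p.2⟩ := by
    ext
    · simp only [mul_a, inv_a]
      abel
    · simp only [mul_b, inv_b]
      abel
    · simp only [mul_t, mul_a, mul_b, inv_t, inv_a, inv_b, map_add, map_neg, AddMonoidHom.add_apply,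
        AddMonoidHom.neg_apply]
      abel
  rw [h2] at h1
  exact h1

/-- The order of a subgroup. -/
lemma card_le [Finite W] [Finite F] (L : Subgroup (Heis B)) :
    Nat.card L ≤ Nat.card (Zs L) * Nat.card (Ss L) := by
  classical
  cases nonempty_fintype W
  cases nonempty_fintype F
  -- choose a section
  have hsec : ∀ p : Ss L, ∃ t, (⟨p.1.1, p.1.2, t⟩ : Heis B) ∈ L := fun p => p.2
  choose sec hsec using hsec
  let f : L → Zs L × Ss L := fun l =>
    (⟨(l : Heis B).t - sec ⟨((l : Heis B).a, (l : Heis B).b), ⟨_, l.2⟩⟩ , by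
        have h1 := L.mul_mem l.2 (L.inv_mem (hsec ⟨((l : Heis B).a, (l : Heis B).b), ⟨_, l.2⟩⟩))
        have h2 : ((l : Heis B) * (⟨(l : Heis B).a, (l : Heis B).b, sec ⟨((l : Heis B).a, (l : Heis B).b), ⟨_, l.2⟩⟩⟩ : Heis B)⁻¹)
            = ⟨0, 0, (l : Heis B).t - sec ⟨((l : Heis B).a, (l : Heis B).b), ⟨_, l.2⟩⟩⟩ := by
          ext
          · simp
          · simp
          · simp only [mul_t, inv_t, inv_a, inv_b, mul_a]
            simp only [map_neg, AddMonoidHom.neg_apply]
            abel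
        rw [h2] at h1
        exact h1⟩,
      ⟨((l : Heis B).a, (l : Heis B).b), ⟨_, l.2⟩⟩)
  have hf : Function.Injective f := by
    intro l l' h
    have h1 := congrArg (fun x => (x.2 : Ss L)) h
    simp only [f] at h1
    have h2 : ((l : Heis B).a, (l : Heis B).b) = ((l' : Heis B).a, (l' : Heis B).b) :=
      congrArg Subtype.val h1
    have h3 := congrArg (fun x => ((x.1 : Zs L) : F)) h
    simp only [f] at h3
    have h4 : (⟨((l : Heis B).a, (l : Heis B).b), ⟨_, l.2⟩⟩ : Ss L) = ⟨((l' : Heis B).a, (l' : Heis B).b), ⟨_, l'.2⟩⟩ := h1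
    rw [h4] at h3
    apply Subtype.ext
    ext
    · exact (Prod.ext_iff.1 h2).1
    · exact (Prod.ext_iff.1 h2).2
    · exact sub_left_inj.1 h3
  have := Nat.card_le_card_of_injective f hf
  rwa [Nat.card_prod] at this

end Heis

end heis

section form

variable {W F : Type*} [AddCommGroup W] [Field F] [Finite W] [Finite F]

/-- The pairing attached to a character of `F`. -/
theorem card_mul_le_form (B : W →+ W →+ F) (hnd : ∀ a, a ≠ 0 → ∀ f : F, ∃ b, B a b = f)
    (ψ : AddChar F ℂ) (hψ : ψ ≠ 0) (S S' : AddSubgroup W) (h : ∀ a ∈ S, ∀ b ∈ S', ψ (B a b) = 1) :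
    Nat.card S * Nat.card S' ≤ Nat.card W := by
  let χ : W → AddChar W ℂ := fun a =>
    { toFun := fun b => ψ (B a b)
      map_zero_eq_one' := by rw [map_zero, AddChar.map_zero_eq_one]
      map_add_eq_mul' := fun b b' => by rw [map_add, AddChar.map_add_eq_mul] }
  refine card_mul_le_of_pairing χ ?_ ?_ S S' h
  · intro a a' b
    change ψ (B (a + a') b) = ψ (B a b) * ψ (B a' b)
    rw [map_add, AddMonoidHom.add_apply, AddChar.map_add_eq_mul]
  · intro a ha h0
    apply hψ
    ext f
    obtain ⟨b, hb⟩ := hnd a ha f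
    have := congrArg (fun g : AddChar W ℂ => g b) h0
    change ψ (B a b) = _ at this
    rw [hb] at this
    exact this

/-- If two additive subgroups are orthogonal for a non-degenerate form their orders multiply to at most the
order of the space. -/
theorem card_mul_le_orth (B : W →+ W →+ F) (hnd : ∀ a, a ≠ 0 → ∀ f : F, ∃ b, B a b = f)
    (S S' : AddSubgroup W) (h : ∀ a ∈ S, ∀ b ∈ S', B a b = 0) :
    Nat.card S * Nat.card S' ≤ Nat.card W := by
  obtain ⟨ψ, hψ, -⟩ := exists_char_of_ne_top (⊥ : AddSubgroup F) (by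
    intro h
    have : (1 : F) ∈ (⊥ : AddSubgroup F) := by rw [h]; trivial
    exact one_ne_zero (AddSubgroup.mem_bot.1 this))
  exact card_mul_le_form B hnd ψ hψ S S' fun a ha b hb => by
    rw [h a ha b hb, AddChar.map_zero_eq_one]

/-- The symplectic form on `W × W`. -/
def sympl (B : W →+ W →+ F) : (W × W) →+ (W × W) →+ F where
  toFun p :=
    { toFun := fun p' => B p.1 p'.2 - B p'.1 p.2
      map_zero' := by simp
      map_add' := fun p' p'' => by
        simp only [Prod.fst_add, Prod.snd_add, map_add, AddMonoidHom.add_apply]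
        abel }
  map_zero' := by
    ext <;> simp
  map_add' := fun p p' => by
    ext p'' <;> simp <;> abel

lemma sympl_apply (B : W →+ W →+ F) (p p' : W × W) : sympl B p p' = B p.1 p'.2 - B p'.1 p.2 := rfl

/-- An additive subgroup on which the symplectic form takes values in a proper subgroup is at most
half-dimensional. -/
theorem card_Ss_le (B : W →+ W →+ F) (hnd : ∀ a, a ≠ 0 → ∀ f : F, ∃ b, B a b = f) (hsym : ∀ a b, B a b = B b a)
    {L : Subgroup (Heis B)} (hZ : Heis.Zs L ≠ ⊤) : Nat.card (Heis.Ss L) ≤ Nat.card W := by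
  obtain ⟨ψ, hψ, hψZ⟩ := exists_char_of_ne_top (Heis.Zs L) hZ
  have hnd' : ∀ p : W × W, p ≠ 0 → ∀ f : F, ∃ p', sympl B p p' = f := by
    rintro ⟨a, b⟩ hp f
    by_cases ha : a = 0
    · subst ha
      have hb : b ≠ 0 := fun h => hp (by simp [h])
      obtain ⟨c, hc⟩ := hnd b hb (-f)
      refine ⟨(c, 0), ?_⟩
      rw [sympl_apply]
      simp only [map_zero, AddMonoidHom.zero_apply]
      rw [hsym c b, hc]
      simp
    · obtain ⟨c, hc⟩ := hnd a ha f
      refine ⟨(0, c), ?_⟩
      rw [sympl_apply]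
      simp [hc]
  have h1 := card_mul_le_form (sympl B) hnd' ψ hψ (Heis.Ss L) (Heis.Ss L) (fun p hp p' hp' => by
    rw [sympl_apply]
    exact hψZ _ (Heis.comm_mem hp hp'))
  rw [Nat.card_prod] at h1
  by_contra hcon
  push Not at hcon
  have := Nat.mul_lt_mul'' hcon hcon
  omega

/-- A subgroup of the Heisenberg group meeting the centre trivially has index at least `|W| |F|`. -/
theorem card_index_ge (B : W →+ W →+ F) (hnd : ∀ a, a ≠ 0 → ∀ f : F, ∃ b, B a b = f) (hsym : ∀ a b, B a b = B b a)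
    {L : Subgroup (Heis B)} (hZ : ∀ t : F, (⟨0, 0, t⟩ : Heis B) ∈ L → t = 0) :
    Nat.card W * Nat.card F ≤ L.index := by
  have hZ1 : Heis.Zs L = ⊥ := by
    rw [eq_bot_iff]
    intro t ht
    exact AddSubgroup.mem_bot.2 (hZ t ht)
  have hZ2 : Heis.Zs L ≠ ⊤ := by
    intro h
    have h1 : (1 : F) ∈ Heis.Zs L := by rw [h]; trivial
    exact one_ne_zero (hZ _ h1)
  have h1 := card_Ss_le B hnd hsym hZ2
  have h2 := Heis.card_le L
  rw [hZ1] at h2
  simp only [AddSubgroup.card_bot, one_mul] at h2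
  have h3 : Nat.card L * L.index = Nat.card (Heis B) := Subgroup.card_mul_index L
  rw [Heis.card_eq] at h3
  have hW : 0 < Nat.card W := Nat.card_pos
  have hL : Nat.card L ≤ Nat.card W := h2.trans h1
  have hFpos : 0 < Nat.card F := Nat.card_pos
  by_contra hcon
  push Not at hcon
  have h4 : Nat.card L * L.index < Nat.card W * (Nat.card W * Nat.card F) :=
    Nat.mul_lt_mul_of_le_of_lt hL hcon hW
  omega

end form

end Cfsg.Agent.Lib.OmIdx
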