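import Mathlib
import Cfsg.Agent.Lib.OmIdxA
import Cfsg.Agent.Lib.OmIdxB

/-!
# Minimal index in orthogonal groups: the Heisenberg group of a line, good lines

For a line frame the root groups of the two points generate a Heisenberg group.  A subgroup `H` not
containing the Siegel group has a *good line*: a totally singular line whose long root group meets `H`
trivially.
-/

set_option autoImplicit false
set_option linter.unusedSectionVars false
set_option linter.unusedVariables false

namespace Cfsg.Agent.Lib.OmIdx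

open Module QuadraticMap Cfsg.Agent.Lib.OrthoBasic Cfsg.Agent.Lib.OrthoSiegel Cfsg.Agent.Lib.QuadFF
  Cfsg.Agent.Lib.OmGeo

variable {F : Type*} [Field F] {V : Type*} [AddCommGroup V] [Module F V] {Q : QuadraticForm F V}

lemma finite_OG [Finite F] [FiniteDimensional F V] : Finite (OG Q) := by
  have : Finite V := Module.finite_of_finite F
  have : Finite (V ≃ₗ[F] V) := Finite.of_injective (fun g : V ≃ₗ[F] V => (g : V → V)) DFunLike.coe_injective
  infer_instance

lemma relIndex_ne_zero' [Finite F] [FiniteDimensional F V] (H K : Subgroup (OG Q)) : H.relIndex K ≠ 0 := by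
  have := finite_OG (F := F) (V := V) (Q := Q)
  exact Subgroup.index_ne_zero_of_finite

namespace LF

variable (fr : LF Q)

lemma x_W (a : fr.W) : polar Q fr.x a = 0 := (fr.mem_W.1 a.2).1
lemma y_W (a : fr.W) : polar Q fr.y a = 0 := (fr.mem_W.1 a.2).2.1
lemma xs_W (a : fr.W) : polar Q fr.xs a = 0 := (fr.mem_W.1 a.2).2.2.1
lemma ys_W (a : fr.W) : polar Q fr.ys a = 0 := (fr.mem_W.1 a.2).2.2.2
lemma W_x (a : fr.W) : polar Q a fr.x = 0 := by rw [polar_comm]; exact fr.x_W a
lemma W_y (a : fr.W) : polar Q a fr.y = 0 := by rw [polar_comm]; exact fr.y_W a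
lemma W_xs (a : fr.W) : polar Q a fr.xs = 0 := by rw [polar_comm]; exact fr.xs_W a
lemma W_ys (a : fr.W) : polar Q a fr.ys = 0 := by rw [polar_comm]; exact fr.ys_W a

/-- The polar form on the complement. -/
noncomputable def B : fr.W →+ fr.W →+ F where
  toFun a :=
    { toFun := fun b => polar Q a b
      map_zero' := by simp
      map_add' := fun b b' => by simp [polar_add_right] }
  map_zero' := by
    ext b
    simp
  map_add' a a' := by
    ext b
    simp [polar_add_left]

lemma B_apply (a b : fr.W) : fr.B a b = polar Q a b := rfl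

lemma B_symm (a b : fr.W) : fr.B a b = fr.B b a := by
  rw [B_apply, B_apply, polar_comm]

lemma B_nd (hQ : Nondeg Q) (a : fr.W) (ha : a ≠ 0) (f : F) : ∃ b, fr.B a b = f := by
  have h := fr.nd_W (nd_of_nondeg hQ)
  obtain ⟨b₀, hb₀⟩ : ∃ b₀, polar (restr Q fr.W) a b₀ ≠ 0 := by
    by_contra hno
    push Not at hno
    exact ha (h a hno)
  rw [polar_restr] at hb₀
  refine ⟨(f * (polar Q (a : V) b₀)⁻¹) • b₀, ?_⟩
  rw [B_apply, Submodule.coe_smul, polar_smul_r, mul_assoc, inv_mul_cancel₀ hb₀, mul_one]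

lemma Ind_xy : Ind (F := F) fr.x fr.y := by
  refine ⟨?_, fun c hc => ?_⟩
  · intro h
    have := fr.yys
    rw [h, polar_zero_left] at this
    exact zero_ne_one this
  · have h1 := fr.xys
    rw [hc, polar_smul_l, fr.yys, mul_one] at h1
    have h2 := fr.xxs
    rw [hc, h1, zero_smul, polar_zero_left] at h2
    exact zero_ne_one h2

lemma x_ne : fr.x ≠ 0 := fr.Ind_xy.left_ne
lemma y_ne : fr.y ≠ 0 := fr.Ind_xy.1

section hom

variable (hQ : Nondeg Q) [FiniteDimensional F V]

/-- Commutation of the two root groups. -/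
lemma rr_comm_xy (a b : fr.W) (t : F) :
    rr hQ fr.y b * rr hQ fr.x ((a : V) + t • fr.y)
      = rr hQ fr.x ((a : V) + (t - polar Q (a : V) b) • fr.y) * rr hQ fr.y b := by
  have hu : polar Q fr.x ((a : V) + t • fr.y) = 0 := by
    rw [polar_add_right, polar_smul_r, fr.x_W, fr.xy]; ring
  rw [rr_mul_of_fix hQ _ fr.Qx hu]
  congr 2
  · rw [rr_apply hQ fr.Qy (fr.y_W b), fr.xy, fr.x_W]
    simp
  · rw [rr_apply hQ fr.Qy (fr.y_W b)]
    simp only [polar_add_left, polar_smul_l, fr.W_y, fr.yy, fr.y_W b]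
    module

lemma perp_xy (a : fr.W) (t : F) : polar Q fr.x ((a : V) + t • fr.y) = 0 := by
  rw [polar_add_right, polar_smul_r, fr.x_W, fr.xy]; ring

/-- The Heisenberg group inside the orthogonal group. -/
noncomputable def r : Heis fr.B →* OG Q where
  toFun p := rr hQ fr.x ((p.a : V) + p.t • fr.y) * rr hQ fr.y p.b
  map_one' := by
    simp [rr_zero]
  map_mul' p p' := by
    have h1 : rr hQ fr.x ((p.a : V) + p.t • fr.y) * rr hQ fr.y p.b *
        (rr hQ fr.x ((p'.a : V) + p'.t • fr.y) * rr hQ fr.y p'.b)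
        = rr hQ fr.x ((p.a : V) + p.t • fr.y) * (rr hQ fr.y p.b * rr hQ fr.x ((p'.a : V) + p'.t • fr.y))
          * rr hQ fr.y p'.b := by group
    rw [h1, rr_comm_xy]
    have h2 : rr hQ fr.x ((p.a : V) + p.t • fr.y) * (rr hQ fr.x ((p'.a : V) + (p'.t - polar Q (p'.a : V) p.b) • fr.y) * rr hQ fr.y p.b) * rr hQ fr.y p'.b
        = (rr hQ fr.x ((p.a : V) + p.t • fr.y) * rr hQ fr.x ((p'.a : V) + (p'.t - polar Q (p'.a : V) p.b) • fr.y)) * (rr hQ fr.y p.b * rr hQ fr.y p'.b) := by group
    rw [h2, ← rr_add hQ fr.Qx (fr.perp_xy _ _) (fr.perp_xy _ _), ← rr_add hQ fr.Qy (fr.y_W _) (fr.y_W _)]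
    congr 2
    · rw [Heis.mul_a, Heis.mul_t, B_apply, Submodule.coe_add]
      module

lemma r_apply (p : Heis fr.B) : fr.r hQ p = rr hQ fr.x ((p.a : V) + p.t • fr.y) * rr hQ fr.y p.b := rfl

lemma r_central (t : F) : fr.r hQ ⟨0, 0, t⟩ = rr hQ fr.x (t • fr.y) := by
  rw [r_apply]
  simp [rr_zero]

lemma r_mem (p : Heis fr.B) : fr.r hQ p ∈ siegelE Q :=
  mul_mem (rr_mem' hQ _ _) (rr_mem' hQ _ _)

lemma range_r_le : (fr.r hQ).range ≤ siegelE Q := by
  rintro _ ⟨p, rfl⟩
  exact fr.r_mem hQ p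

/-- The pull-back of a subgroup to the Heisenberg group. -/
noncomputable abbrev L (H : Subgroup (OG Q)) : Subgroup (Heis fr.B) := H.comap (fr.r hQ)

lemma mem_L {H : Subgroup (OG Q)} {p : Heis fr.B} : p ∈ fr.L hQ H ↔ fr.r hQ p ∈ H := Iff.rfl

lemma index_L_le [Finite F] (H : Subgroup (OG Q)) : (fr.L hQ H).index ≤ H.relIndex (siegelE Q) := by
  rw [L, Subgroup.index_comap]
  exact Subgroup.relIndex_le_of_le_right (fr.range_r_le hQ) (relIndex_ne_zero' _ _)

/-- The group element attached to a point of the line other than `x`. -/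
lemma rr_tau (τ : F) (a : fr.W) (t : F) :
    rr hQ (τ • fr.x + fr.y) ((a : V) + t • fr.x) = fr.r hQ ⟨τ • a, a, -(τ * Q a) - t⟩ := by
  have h1 : Q (τ • fr.x) = 0 := by rw [Q_smul, fr.Qx, mul_zero]
  have h12 : polar Q (τ • fr.x) fr.y = 0 := by rw [polar_smul_l, fr.xy, mul_zero]
  have hu1 : polar Q (τ • fr.x) ((a : V) + t • fr.x) = 0 := by
    rw [polar_smul_l, polar_add_right, polar_smul_r, fr.x_W, fr.xx]; ring
  have hu2 : polar Q fr.y ((a : V) + t • fr.x) = 0 := by
    rw [polar_add_right, polar_smul_r, fr.y_W, fr.yx]; ring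
  rw [rr_add_left hQ h1 fr.Qy h12 hu1 hu2, r_apply]
  have hQu : Q ((a : V) + t • fr.x) = Q a := by
    rw [Q_add, Q_smul, fr.Qx, polar_smul_r, fr.W_x]; ring
  rw [hQu]
  have e1 : polar Q fr.x ((a : V) + t • fr.x - Q a • fr.y) = 0 := by
    rw [polar_sub_right, polar_add_right, polar_smul_r, polar_smul_r, fr.x_W, fr.xx, fr.xy]; ring
  rw [rr_smul_left hQ fr.Qx e1]
  have e2 : τ • ((a : V) + t • fr.x - Q a • fr.y) = ((τ • a : fr.W) : V) + (-(τ * Q a)) • fr.y + (τ * t) • fr.x := by
    rw [Submodule.coe_smul]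
    module
  have e3 : polar Q fr.x (((τ • a : fr.W) : V) + (-(τ * Q a)) • fr.y) = 0 := fr.perp_xy _ _
  rw [e2, rr_add_smul hQ fr.Qx e3]
  -- the second factor
  have e4 : rr hQ fr.y ((a : V) + t • fr.x) = rr hQ fr.x ((-t) • fr.y) * rr hQ fr.y a := by
    have hxy : polar Q fr.y (t • fr.x) = 0 := by rw [polar_smul_r, fr.yx, mul_zero]
    rw [add_comm, rr_add hQ fr.Qy hxy (fr.y_W a)]
    congr 1
    have h2 : Q (t • fr.x) = 0 := by rw [Q_smul, fr.Qx, mul_zero]
    have h3 : polar Q (t • fr.x) fr.y = 0 := by rw [polar_smul_l, fr.xy, mul_zero]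
    rw [rr_swap hQ h2 fr.Qy h3]
    have h4 : polar Q fr.x (-fr.y) = 0 := by rw [polar_neg_right, fr.xy, neg_zero]
    rw [rr_smul_left hQ fr.Qx h4]
    congr 1
    module
  rw [e4, ← mul_assoc, ← rr_add hQ fr.Qx e3 (by rw [polar_smul_r, fr.xy, mul_zero])]
  congr 2
  rw [add_assoc, ← add_smul]
  congr 2
  ring

end hom

end LF

/-! ### Pigeonhole -/

section pig

variable [FiniteDimensional F V] (hQ : Nondeg Q) (H : Subgroup (OG Q))

/-- There is no good line. -/
def NG : Prop :=
  ∀ x y, Q x = 0 → Q y = 0 → polar Q x y = 0 → Ind (F := F) x y → ∃ c : F, c ≠ 0 ∧ rr hQ x (c • y) ∈ H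

/-- A good line. -/
def Good (x y : V) : Prop := ∀ c : F, c ≠ 0 → rr hQ x (c • y) ∉ H

/-- The data of the pigeonhole. -/
structure PD (Q : QuadraticForm F V) (e z s : V) (U : Submodule F V) : Prop where
  Qe : Q e = 0
  Qz : Q z = 0
  Qs : Q s = 0
  ez : polar Q e z = 0
  es : polar Q e s = 0
  zs : polar Q z s = 1
  Ue : ∀ a ∈ U, polar Q e a = 0
  Uz : ∀ a ∈ U, polar Q z a = 0
  Us : ∀ a ∈ U, polar Q s a = 0
  ne : e ≠ 0

variable {e z s : V} {U : Submodule F V}

/-- The additive group of those `a ∈ U` with `rr e (a + t z) ∈ H` for some `t`. -/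
def XG (D : PD Q e z s U) : AddSubgroup U where
  carrier := {a | ∃ t : F, rr hQ e ((a : V) + t • z) ∈ H}
  add_mem' := by
    rintro a b ⟨t, ht⟩ ⟨t', ht'⟩
    refine ⟨t + t', ?_⟩
    have h1 : polar Q e ((a : V) + t • z) = 0 := by
      rw [polar_add_right, polar_smul_r, D.Ue _ a.2, D.ez]; ring
    have h2 : polar Q e ((b : V) + t' • z) = 0 := by
      rw [polar_add_right, polar_smul_r, D.Ue _ b.2, D.ez]; ring
    have := H.mul_mem ht ht'
    rw [← rr_add hQ D.Qe h1 h2] at this
    convert this using 2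
    rw [Submodule.coe_add]
    module
  zero_mem' := ⟨0, by simp [rr_zero, H.one_mem]⟩
  neg_mem' := by
    rintro a ⟨t, ht⟩
    refine ⟨-t, ?_⟩
    have h1 : polar Q e ((a : V) + t • z) = 0 := by
      rw [polar_add_right, polar_smul_r, D.Ue _ a.2, D.ez]; ring
    have := H.inv_mem ht
    rw [← rr_neg hQ D.Qe h1] at this
    convert this using 2
    rw [Submodule.coe_neg]
    module

lemma mem_XG {D : PD Q e z s U} {a : U} : a ∈ XG hQ H D ↔ ∃ t : F, rr hQ e ((a : V) + t • z) ∈ H := Iff.rfl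

variable {H}

theorem pig [Finite F] (D : PD Q e z s U) (hng : NG hQ H) :
    Nat.card U ≤ Nat.card (XG hQ H D) * (Nat.card F - 1) := by
  classical
  have : Finite V := Module.finite_of_finite F
  cases nonempty_fintype F
  cases nonempty_fintype U
  cases nonempty_fintype (XG hQ H D)
  set u : U → V := fun a => s + (a : V) - Q a • z with hu
  have zs' : polar Q s z = 1 := by rw [polar_comm]; exact D.zs
  have hQu : ∀ a, Q (u a) = 0 := by
    intro a
    have h1 : polar Q (s + (a : V)) z = 1 := by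
      rw [polar_add_left, zs', polar_comm, D.Uz _ a.2]; ring
    rw [hu]
    simp only
    rw [Q_sub, Q_add, Q_smul, D.Qs, D.Qz, D.Us _ a.2, polar_smul_r, h1]
    ring
  have hpu : ∀ a, polar Q e (u a) = 0 := by
    intro a
    rw [hu]
    simp only
    rw [polar_sub_right, polar_add_right, polar_smul_r, D.es, D.Ue _ a.2, D.ez]
    ring
  have hzu : ∀ a, polar Q z (u a) = 1 := by
    intro a
    rw [hu]
    simp only
    rw [polar_sub_right, polar_add_right, polar_smul_r, D.zs, D.Uz _ a.2, polar_self_of_singular D.Qz]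
    ring
  have hind : ∀ a, Ind (F := F) e (u a) := by
    intro a
    refine ⟨?_, fun c hc => ?_⟩
    · intro h0
      have := hzu a
      rw [h0, polar_zero_right] at this
      exact zero_ne_one this
    · have h1 : polar Q z e = 0 := by rw [polar_comm]; exact D.ez
      rw [hc, polar_smul_r, hzu, mul_one] at h1
      apply D.ne
      rw [hc, h1, zero_smul]
  choose c hc0 hc using fun a => hng e (u a) D.Qe (hQu a) (hpu a) (hind a)
  have key := Finset.card_le_mul_card_image_of_maps_to (s := (Finset.univ : Finset U))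
    (t := Finset.univ.filter (fun b : F => b ≠ 0)) (f := c) (fun a _ => by simp [hc0 a])
    (Nat.card (XG hQ H D)) ?_
  · have h2 : (Finset.univ.filter (fun b : F => b ≠ 0)).card = Nat.card F - 1 := by
      rw [Finset.filter_ne', Finset.card_erase_of_mem (Finset.mem_univ _), Finset.card_univ, Nat.card_eq_fintype_card]
    rw [h2, Finset.card_univ] at key
    rwa [Nat.card_eq_fintype_card]
  · intro b _
    by_cases hne : ∃ a₀, c a₀ = b
    · obtain ⟨a₀, rfl⟩ := hne
      rw [Nat.card_eq_fintype_card, ← Finset.card_univ]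
      refine Finset.card_le_card_of_injOn
        (fun a => if ha : c a = c a₀ then ⟨c a₀ • (a - a₀), ?_⟩ else 0) (fun _ _ => Finset.mem_univ _) ?_
      · have h1 := H.mul_mem (hc a) (H.inv_mem (hc a₀))
        have h3 : polar Q e (c a • u a) = 0 := by rw [polar_smul_r, hpu, mul_zero]
        have h4 : polar Q e (c a₀ • u a₀) = 0 := by rw [polar_smul_r, hpu, mul_zero]
        rw [← rr_sub hQ D.Qe h3 h4, ha] at h1
        refine ⟨c a₀ * (Q a₀ - Q a), ?_⟩
        convert h1 using 2
        rw [hu]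
        simp only [Submodule.coe_smul, Submodule.coe_sub]
        module
      · intro a ha a' ha' heq
        simp only [Finset.coe_filter, Finset.mem_univ, true_and, Set.mem_ofPred_eq] at ha ha'
        simp only [dif_pos ha, dif_pos ha'] at heq
        have h1 := congrArg (fun x : XG hQ H D => ((x : U) : V)) heq
        simp only [Submodule.coe_smul, Submodule.coe_sub] at h1
        have h2 := smul_right_injective V (hc0 a₀) h1
        exact Subtype.ext (sub_left_injective h2)
    · have : (Finset.univ.filter fun a => c a = b) = ∅ := by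
        rw [Finset.filter_eq_empty_iff]
        intro a _ h
        exact hne ⟨a, h⟩
      rw [this]
      simp

end pig

/-! ### Existence of good lines -/

section lines

variable [FiniteDimensional F V] [Finite F] (hQ : Nondeg Q) {H : Subgroup (OG Q)}

lemma LF.pd_x (fr : LF Q) : PD Q fr.x fr.y fr.ys fr.W where
  Qe := fr.Qx
  Qz := fr.Qy
  Qs := fr.Qys
  ez := fr.xy
  es := fr.xys
  zs := fr.yys
  Ue a ha := fr.x_W ⟨a, ha⟩
  Uz a ha := fr.y_W ⟨a, ha⟩
  Us a ha := fr.ys_W ⟨a, ha⟩
  ne := fr.x_ne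

lemma LF.pd_tau (fr : LF Q) (τ : F) : PD Q (τ • fr.x + fr.y) fr.x (fr.xs - τ • fr.ys) fr.W where
  Qe := by rw [Q_add, Q_smul, fr.Qx, fr.Qy, polar_smul_l, fr.xy]; ring
  Qz := fr.Qx
  Qs := by rw [Q_sub, Q_smul, fr.Qxs, fr.Qys, polar_smul_r, fr.xsys]; ring
  ez := by rw [polar_add_left, polar_smul_l, fr.xx, fr.yx]; ring
  es := by
    simp only [polar_add_left, polar_smul_l, polar_sub_right, polar_smul_r, fr.xxs, fr.xys, fr.yxs, fr.yys]
    ring
  zs := by
    simp only [polar_sub_right, polar_smul_r, fr.xxs, fr.xys]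
    ring
  Ue a ha := by rw [polar_add_left, polar_smul_l, fr.x_W ⟨a, ha⟩, fr.y_W ⟨a, ha⟩]; ring
  Uz a ha := fr.x_W ⟨a, ha⟩
  Us a ha := by rw [polar_sub_left, polar_smul_l, fr.xs_W ⟨a, ha⟩, fr.ys_W ⟨a, ha⟩]; ring
  ne := by
    intro h
    have h1 := fr.yys
    have h2 : polar Q (τ • fr.x + fr.y) fr.ys = 1 := by
      rw [polar_add_left, polar_smul_l, fr.xys, fr.yys]; ring
    rw [h, polar_zero_left] at h2
    exact zero_ne_one h2

lemma LF.Ss_of_X (fr : LF Q) {a : fr.W} (ha : a ∈ XG hQ H fr.pd_x) : (a, (0 : fr.W)) ∈ Heis.Ss (fr.L hQ H) := by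
  obtain ⟨t, ht⟩ := ha
  refine ⟨t, ?_⟩
  rw [LF.mem_L, LF.r_apply]
  simpa [rr_zero] using ht

lemma LF.Ss_of_tau (fr : LF Q) (τ : F) {a : fr.W} (ha : a ∈ XG hQ H (fr.pd_tau τ)) :
    (τ • a, a) ∈ Heis.Ss (fr.L hQ H) := by
  obtain ⟨t, ht⟩ := ha
  refine ⟨-(τ * Q a) - t, ?_⟩
  rw [LF.mem_L, ← LF.rr_tau]
  exact ht

/-- If the complement is large then each pigeonhole group contains a non-zero element. -/
lemma exists_XG_ne {e z s : V} {U : Submodule F V} (D : PD Q e z s U) (hng : NG hQ H)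
    (hU : Nat.card F ≤ Nat.card U) : ∃ a ∈ XG hQ H D, a ≠ 0 := by
  have : Finite V := Module.finite_of_finite F
  by_contra hno
  push Not at hno
  have h1 := pig hQ D hng
  have h2 : Nat.card (XG hQ H D) = 1 := by
    rw [Nat.card_eq_one_iff_unique]
    refine ⟨⟨fun a b => Subtype.ext ((hno a a.2).trans (hno b b.2).symm)⟩, ⟨0⟩⟩
  rw [h2, one_mul] at h1
  have h3 : 0 < Nat.card F := Nat.card_pos
  omega

theorem zs_top (fr : LF Q) (hng : NG hQ H) (hW : 1 ≤ finrank F fr.W) : Heis.Zs (fr.L hQ H) = ⊤ := by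
  classical
  have : Finite V := Module.finite_of_finite F
  by_contra hZ
  have h1 := card_Ss_le fr.B (fr.B_nd hQ) fr.B_symm hZ
  have hcard : Nat.card fr.W = Nat.card F ^ finrank F fr.W := Module.natCard_eq_pow_finrank
  have hq2 : 2 ≤ Nat.card F := Finite.one_lt_card
  by_cases hd : finrank F fr.W = 1
  · -- one-dimensional complement
    have hw : Nat.card fr.W = Nat.card F := by rw [hcard, hd, pow_one]
    have hne : ∀ τ : F, ∃ a ∈ XG hQ H (fr.pd_tau τ), a ≠ 0 := fun τ => exists_XG_ne hQ _ hng hw.ge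
    choose a ha ha0 using hne
    obtain ⟨a₀, ha₀, ha₀0⟩ := exists_XG_ne hQ fr.pd_x hng hw.ge
    let g : Option (Option F) → Heis.Ss (fr.L hQ H) := fun o =>
      match o with
      | none => 0
      | some none => ⟨(a₀, 0), fr.Ss_of_X hQ ha₀⟩
      | some (some τ) => ⟨(τ • a τ, a τ), fr.Ss_of_tau hQ τ (ha τ)⟩
    have hg : Function.Injective g := by
      rintro (_ | _ | τ) (_ | _ | τ') h
      · rfl
      · exfalso
        have := congrArg (fun p : Heis.Ss (fr.L hQ H) => (p : fr.W × fr.W).1) h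
        exact ha₀0 this.symm
      · exfalso
        have := congrArg (fun p : Heis.Ss (fr.L hQ H) => (p : fr.W × fr.W).2) h
        exact ha0 τ' this.symm
      · exfalso
        have := congrArg (fun p : Heis.Ss (fr.L hQ H) => (p : fr.W × fr.W).1) h
        exact ha₀0 this
      · rfl
      · exfalso
        have := congrArg (fun p : Heis.Ss (fr.L hQ H) => (p : fr.W × fr.W).2) h
        exact ha0 τ' this.symm
      · exfalso
        have := congrArg (fun p : Heis.Ss (fr.L hQ H) => (p : fr.W × fr.W).2) h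
        exact ha0 τ this
      · exfalso
        have := congrArg (fun p : Heis.Ss (fr.L hQ H) => (p : fr.W × fr.W).2) h
        exact ha0 τ this
      · have h2 := congrArg (fun p : Heis.Ss (fr.L hQ H) => (p : fr.W × fr.W)) h
        simp only [g] at h2
        have h3 := (Prod.ext_iff.1 h2).2
        simp only at h3
        have h4 := (Prod.ext_iff.1 h2).1
        simp only at h4
        have h5 : (τ - τ') • a τ' = 0 := by
          rw [sub_smul, sub_eq_zero, ← h4, h3]
        have h6 : τ - τ' = 0 := (smul_eq_zero.1 h5).resolve_right (ha0 τ')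
        rw [sub_eq_zero.1 h6]
    have h2 := Nat.card_le_card_of_injective g hg
    rw [Finite.card_option, Finite.card_option] at h2
    omega
  · -- the general case
    have hd2 : 2 ≤ finrank F fr.W := by omega
    have hw : Nat.card F ^ 2 ≤ Nat.card fr.W := by
      rw [hcard]
      exact Nat.pow_le_pow_right (by omega) hd2
    have h2 := pig hQ fr.pd_x hng
    have h3 := pig hQ (fr.pd_tau 0) hng
    -- the product injects
    let g : XG hQ H fr.pd_x × XG hQ H (fr.pd_tau 0) → Heis.Ss (fr.L hQ H) := fun p =>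
      ⟨((p.1 : fr.W), (p.2 : fr.W)), by
        have := (Heis.Ss (fr.L hQ H)).add_mem (fr.Ss_of_X hQ p.1.2) (fr.Ss_of_tau hQ 0 p.2.2)
        simpa using this⟩
    have hg : Function.Injective g := by
      rintro ⟨a, b⟩ ⟨a', b'⟩ h
      have h2 := congrArg (fun p : Heis.Ss (fr.L hQ H) => (p : fr.W × fr.W)) h
      simp only [g] at h2
      have h3 := (Prod.ext_iff.1 h2).1
      have h4 := (Prod.ext_iff.1 h2).2
      exact Prod.ext (Subtype.ext h3) (Subtype.ext h4)
    have h4 := Nat.card_le_card_of_injective g hg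
    rw [Nat.card_prod] at h4
    set A := Nat.card (XG hQ H fr.pd_x)
    set A' := Nat.card (XG hQ H (fr.pd_tau 0))
    set w := Nat.card fr.W
    set q := Nat.card F
    have h5 : A * A' ≤ w := h4.trans h1
    have hw0 : 0 < w := Nat.card_pos
    have h6 : w * w ≤ (A * (q - 1)) * (A' * (q - 1)) := Nat.mul_le_mul h2 h3
    have h7 : (A * (q - 1)) * (A' * (q - 1)) = (A * A') * ((q - 1) * (q - 1)) := by ring
    rw [h7] at h6
    have h8 : w * w ≤ w * ((q - 1) * (q - 1)) := h6.trans (Nat.mul_le_mul_right _ h5)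
    have h9 : w ≤ (q - 1) * (q - 1) := Nat.le_of_mul_le_mul_left h8 hw0
    have h10 : (q - 1) * (q - 1) < q ^ 2 := by
      rw [_root_.sq]
      exact Nat.mul_lt_mul'' (by omega) (by omega)
    omega

/-- All long root elements of a line lie in `H`. -/
lemma line_mem (h5 : 5 ≤ finrank F V) (hng : NG hQ H) {x y : V} (hx : Q x = 0) (hy : Q y = 0)
    (hxy : polar Q x y = 0) (hi : Ind (F := F) x y) (t : F) : rr hQ x (t • y) ∈ H := by
  obtain ⟨fr, rfl, rfl⟩ := exists_frame (nd_of_nondeg hQ) hx hy hxy hi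
  have hW : 1 ≤ finrank F fr.W := by
    have := fr.finrank_W
    omega
  have h1 : t ∈ Heis.Zs (fr.L hQ H) := by
    rw [zs_top hQ fr hng hW]
    trivial
  have h2 := Heis.mem_Zs.1 h1
  rw [LF.mem_L, LF.r_central] at h2
  exact h2

/-- A hyperbolic pair in the perpendicular of a hyperbolic pair. -/
lemma exists_hyp_in_perp2 (hQ' : ND Q) (h5 : 5 ≤ finrank F V) {e f : V} (h : IsHyp Q e f) :
    ∃ a b : perp2 Q e f, IsHyp (restr Q (perp2 Q e f)) a b := by
  have hnd := h.ND_perp2 hQ'
  have hdim := h.finrank_perp2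
  have h3 : 3 ≤ finrank F (perp2 Q e f) := by omega
  obtain ⟨a, ha0, ha⟩ := exists_singular (restr Q (perp2 Q e f)) h3
  obtain ⟨b, hb⟩ := exists_hyp_partner hnd ha0 ha
  exact ⟨a, b, hb⟩

theorem E_le_of_NG (h5 : 5 ≤ finrank F V) (hng : NG hQ H) : siegelE Q ≤ H := by
  have hQ' := nd_of_nondeg hQ
  have key : ∀ e u : V, Q e = 0 → polar Q e u = 0 → rr hQ e u ∈ H := by
    intro e u he hu
    by_cases he0 : e = 0
    · subst he0
      have : rr hQ (0 : V) u = 1 := by
        refine og_ext fun z => ?_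
        rw [rr_apply hQ he hu, ap_one]
        simp
      rw [this]
      exact H.one_mem
    obtain ⟨f, hf⟩ := exists_hyp_partner hQ' he0 he
    obtain ⟨a, b, hab⟩ := exists_hyp_in_perp2 hQ' h5 hf
    have hT : ∀ v : perp2 Q e f, rr hQ e (v : V) ∈ H := by
      intro v
      refine sing_induct (Q := restr Q (perp2 Q e f)) hab (P := fun v => rr hQ e (v : V) ∈ H) ?_ ?_ v
      · intro v hv
        by_cases hv0 : v = 0
        · subst hv0
          simpa [rr_zero] using H.one_mem
        have hv1 := mem_perp2.1 v.2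
        have hv2 : (v : V) ≠ 0 := fun h => hv0 (Subtype.ext h)
        have hi : Ind (F := F) e (v : V) := by
          refine ⟨hv2, fun c hc => ?_⟩
          have h3 : polar Q f e = 1 := by rw [polar_comm]; exact hf.vw
          rw [hc, polar_smul_r, hv1.2, mul_zero] at h3
          exact zero_ne_one h3
        have := line_mem hQ h5 hng he hv hv1.1 hi 1
        rwa [one_smul] at this
      · intro u v hu hv
        have := H.mul_mem hu hv
        rwa [← rr_add hQ he (mem_perp2.1 u.2).1 (mem_perp2.1 v.2).1] at this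
    have hu' : u - polar Q f u • e ∈ perp2 Q e f := by
      rw [mem_perp2]
      constructor
      · rw [polar_sub_right, polar_smul_r, hu, polar_self_of_singular he]; ring
      · have h3 : polar Q f e = 1 := by rw [polar_comm]; exact hf.vw
        rw [polar_sub_right, polar_smul_r, h3]; ring
    have h1 := hT ⟨_, hu'⟩
    have hp : polar Q e (u - polar Q f u • e) = 0 := (mem_perp2.1 hu').1
    rw [← rr_add_smul hQ he hp (polar Q f u)] at h1
    simpa using h1
  refine (Subgroup.closure_le _).2 ?_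
  rintro g ⟨e, u, hg⟩
  rw [eq_rr_of_isSiegel hQ hg]
  exact key e u hg.1 hg.2.1

/-- Good lines exist. -/
theorem exists_good (h5 : 5 ≤ finrank F V) (hE : ¬ siegelE Q ≤ H) :
    ∃ x y, Q x = 0 ∧ Q y = 0 ∧ polar Q x y = 0 ∧ Ind (F := F) x y ∧ Good hQ H x y := by
  by_contra hno
  apply hE
  apply E_le_of_NG hQ h5
  intro x y hx hy hxy hi
  by_contra hc
  apply hno
  refine ⟨x, y, hx, hy, hxy, hi, fun c hc0 hmem => hc ⟨c, hc0, hmem⟩⟩

/-- The estimate at a good line. -/
theorem card_le_of_good (fr : LF Q) (hg : Good hQ H fr.x fr.y) :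
    Nat.card fr.W * Nat.card F ≤ H.relIndex (siegelE Q) := by
  have : Finite V := Module.finite_of_finite F
  refine le_trans ?_ (LF.index_L_le fr hQ H)
  refine card_index_ge fr.B (fr.B_nd hQ) fr.B_symm fun t ht => ?_
  rw [LF.mem_L, LF.r_central] at ht
  by_contra ht0
  exact hg t ht0 ht

include hQ in
/-- The basic lower bound. -/
theorem lemmaI (h5 : 5 ≤ finrank F V) (hE : ¬ siegelE Q ≤ H) :
    Nat.card F ^ (finrank F V - 3) ≤ H.relIndex (siegelE Q) := by
  have : Finite V := Module.finite_of_finite F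
  obtain ⟨x, y, hx, hy, hxy, hi, hg⟩ := exists_good hQ h5 hE
  obtain ⟨fr, rfl, rfl⟩ := exists_frame (nd_of_nondeg hQ) hx hy hxy hi
  have h1 := card_le_of_good hQ fr hg
  have h2 := fr.finrank_W
  have hcard : Nat.card fr.W = Nat.card F ^ finrank F fr.W := Module.natCard_eq_pow_finrank
  rw [hcard, ← pow_succ] at h1
  have : finrank F V - 3 = finrank F fr.W + 1 := by omega
  rwa [this]

end lines

end Cfsg.Agent.Lib.OmIdx
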