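import Mathlib
import Cfsg.Agent.Lib.OmIdxC

/-!
# Minimal index in orthogonal groups: the parabolic of a point

The stabiliser of a hyperbolic pair acts on the root group of a point, and a subgroup of the Siegel group
of the perpendicular is recovered from a subgroup of the orthogonal group.
-/

set_option autoImplicit false
set_option linter.unusedSectionVars false
set_option linter.unusedVariables false

namespace Cfsg.Agent.Lib.OmIdx

open Module QuadraticMap Cfsg.Agent.Lib.OrthoBasic Cfsg.Agent.Lib.OrthoSiegel Cfsg.Agent.Lib.OrthoGen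
  Cfsg.Agent.Lib.QuadFF Cfsg.Agent.Lib.OmGeo

section generic

theorem relIndex_sup_normal {G : Type*} [Group G] [Finite G] (A N : Subgroup G) [N.Normal] :
    A.relIndex (A ⊔ N) = A.relIndex N := by
  have h1 := Subgroup.relIndex_mul_relIndex (A ⊓ N) A (A ⊔ N) inf_le_left le_sup_left
  have h2 := Subgroup.relIndex_mul_relIndex (A ⊓ N) N (A ⊔ N) inf_le_right le_sup_right
  rw [Subgroup.relIndex_sup_right] at h2
  rw [Subgroup.inf_relIndex_left] at h1
  rw [Subgroup.inf_relIndex_right] at h2
  have h3 : N.relIndex A ≠ 0 := Subgroup.index_ne_zero_of_finite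
  apply Nat.eq_of_mul_eq_mul_left (Nat.pos_of_ne_zero h3)
  rw [h1, ← h2, mul_comm]

theorem semidirect_index {N G : Type*} [Group N] [Group G] [Finite N] [Finite G] (φ : G →* MulAut N)
    (A : Subgroup (N ⋊[φ] G)) :
    A.index = (A.comap SemidirectProduct.inl).index * (A.map SemidirectProduct.rightHom).index := by
  have : Finite (N ⋊[φ] G) := Finite.of_equiv _ SemidirectProduct.equivProd.symm
  have h1 := Subgroup.relIndex_mul_index (H := A) (K := A ⊔ SemidirectProduct.rightHom.ker) le_sup_left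
  have h2 := Subgroup.index_map A (SemidirectProduct.rightHom (φ := φ))
  rw [MonoidHom.range_eq_top.2 SemidirectProduct.rightHom_surjective, Subgroup.index_top, mul_one] at h2
  rw [h2, Subgroup.index_comap, SemidirectProduct.range_inl_eq_ker_rightHom, ← relIndex_sup_normal, h1]

lemma relIndex_map_subtype {G : Type*} [Group G] {A : Subgroup G} (K : Subgroup A) :
    (K.map A.subtype).relIndex A = K.index := by
  rw [Subgroup.relIndex, Subgroup.subgroupOf, Subgroup.comap_map_eq_self_of_injective A.subtype_injective]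

end generic

variable {F : Type*} [Field F] {V : Type*} [AddCommGroup V] [Module F V] {Q : QuadraticForm F V}

section levi

variable {e f : V} (h : IsHyp Q e f)

lemma hyp_fe (h : IsHyp Q e f) : polar Q f e = 1 := by rw [polar_comm]; exact h.vw
lemma hyp_ee (h : IsHyp Q e f) : polar Q e e = 0 := polar_self_of_singular h.Qv
lemma hyp_ff (h : IsHyp Q e f) : polar Q f f = 0 := polar_self_of_singular h.Qw

/-- The splitting of the space attached to a hyperbolic pair. -/
noncomputable def hypIso : (F × F × perp2 Q e f) ≃ₗ[F] V where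
  toFun p := p.1 • e + p.2.1 • f + (p.2.2 : V)
  map_add' p p' := by
    simp only [Prod.fst_add, Prod.snd_add, add_smul, Submodule.coe_add]
    abel
  map_smul' c p := by
    simp only [Prod.smul_fst, Prod.smul_snd, Submodule.coe_smul, RingHom.id_apply, smul_add, smul_smul,
      smul_eq_mul]
  invFun v := (polar Q f v, polar Q e v, ⟨_, h.decomp v⟩)
  left_inv := by
    rintro ⟨a, b, t⟩
    have ht := mem_perp2.1 t.2
    have h1 : polar Q f (a • e + b • f + (t : V)) = a := by
      simp only [polar_add_right, polar_smul_r, hyp_fe h, hyp_ff h, ht.2]; ring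
    have h2 : polar Q e (a • e + b • f + (t : V)) = b := by
      simp only [polar_add_right, polar_smul_r, hyp_ee h, h.vw, ht.1]; ring
    simp only [h1, h2]
    refine Prod.ext rfl (Prod.ext rfl (Subtype.ext ?_))
    simp only
    abel
  right_inv := by
    intro v
    simp only
    abel

lemma hypIso_apply (a b : F) (t : perp2 Q e f) : hypIso h (a, b, t) = a • e + b • f + (t : V) := rfl

lemma hypIso_Q (p : F × F × perp2 Q e f) : Q (hypIso h p) = hypQ (restr Q (perp2 Q e f)) p := by
  obtain ⟨a, b, t⟩ := p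
  have ht := mem_perp2.1 t.2
  rw [hypIso_apply, hypQ_apply, Q_add, Q_add, Q_smul, Q_smul, h.Qv, h.Qw, polar_smul_l, polar_smul_r, h.vw,
    polar_add_left, polar_smul_l, polar_smul_l, ht.1, ht.2, restr_apply]
  ring

/-- The embedding of the isometry group of the perpendicular. -/
noncomputable def emb : OG (restr Q (perp2 Q e f)) →* OG Q :=
  (OG.congr (hypIso h) (hypIso_Q h)).toMonoidHom.comp (hypEmbedHom (restr Q (perp2 Q e f)))

lemma emb_apply (g : OG (restr Q (perp2 Q e f))) (a b : F) (t : perp2 Q e f) :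
    ap (emb h g) (hypIso h (a, b, t)) = hypIso h (a, b, ap g t) :=
  OG.congr_apply (hypIso h) (hypIso_Q h) (hypEmbedHom _ g) (a, b, t)

lemma hypIso_e : hypIso h (1, 0, 0) = e := by
  rw [hypIso_apply]; simp

lemma hypIso_f : hypIso h (0, 1, 0) = f := by
  rw [hypIso_apply]; simp

lemma hypIso_t (t : perp2 Q e f) : hypIso h (0, 0, t) = (t : V) := by
  rw [hypIso_apply]; simp

lemma emb_e (g : OG (restr Q (perp2 Q e f))) : ap (emb h g) e = e := by
  have := emb_apply h g 1 0 0
  rw [hypIso_e] at this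
  rw [this, hypIso_apply]
  simp

lemma emb_f (g : OG (restr Q (perp2 Q e f))) : ap (emb h g) f = f := by
  have := emb_apply h g 0 1 0
  rw [hypIso_f] at this
  rw [this, hypIso_apply]
  simp

lemma emb_t (g : OG (restr Q (perp2 Q e f))) (t : perp2 Q e f) : ap (emb h g) t = ((ap g t : perp2 Q e f) : V) := by
  have := emb_apply h g 0 0 t
  rw [hypIso_t, hypIso_t] at this
  exact this

lemma emb_isSiegel {s : OG (restr Q (perp2 Q e f))} {b c : perp2 Q e f} (hs : IsSiegel s b c) :
    IsSiegel (emb h s) (b : V) (c : V) := by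
  refine ⟨?_, ?_, ?_⟩
  · exact hs.1
  · have := hs.2.1
    rwa [polar_restr] at this
  · intro z
    obtain ⟨⟨a, a', t⟩, rfl⟩ := (hypIso h).surjective z
    have h1 := hs.2.2 t
    have hb := mem_perp2.1 b.2
    have hc := mem_perp2.1 c.2
    change ap (emb h s) (hypIso h (a, a', t)) = _
    rw [emb_apply, hypIso_apply]
    rw [show ap s t = siegelLin (restr Q (perp2 Q e f)) b c t from h1]
    simp only [siegelLin_apply, hypIso_apply, polar_add_left, polar_smul_l, polar_restr, Submodule.coe_sub,
      Submodule.coe_add, Submodule.coe_smul, restr_apply, hb.1, hb.2, hc.1, hc.2]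
    module

lemma emb_mem {g : OG (restr Q (perp2 Q e f))} (hg : g ∈ siegelE (restr Q (perp2 Q e f))) :
    emb h g ∈ siegelE Q := by
  have : siegelE (restr Q (perp2 Q e f)) ≤ (siegelE Q).comap (emb h) := by
    refine (Subgroup.closure_le _).2 ?_
    rintro s ⟨b, c, hs⟩
    exact (emb_isSiegel h hs).mem
  exact this hg

end levi

section semi

variable [FiniteDimensional F V] (hQ : Nondeg Q) {e f : V} (h : IsHyp Q e f)

/-- The root group of the point `e`. -/
noncomputable def rootHom : Multiplicative (perp2 Q e f) →* OG Q where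
  toFun t := rr hQ e (Multiplicative.toAdd t : perp2 Q e f)
  map_one' := by
    simp [rr_zero]
  map_mul' a b := by
    rw [toAdd_mul, Submodule.coe_add,
      rr_add hQ h.Qv (mem_perp2.1 (Multiplicative.toAdd a).2).1 (mem_perp2.1 (Multiplicative.toAdd b).2).1]

/-- The action of the Siegel group of the perpendicular. -/
noncomputable def act : siegelE (restr Q (perp2 Q e f)) →* MulAut (Multiplicative (perp2 Q e f)) where
  toFun g := AddEquiv.toMultiplicative (g.1.1 : perp2 Q e f ≃ₗ[F] perp2 Q e f).toAddEquiv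
  map_one' := by ext; rfl
  map_mul' a b := by ext; rfl

lemma rootHom_compat (g : siegelE (restr Q (perp2 Q e f))) :
    (rootHom hQ h).comp (act g).toMonoidHom
      = (MulAut.conj ((emb h).comp (siegelE (restr Q (perp2 Q e f))).subtype g)).toMonoidHom.comp (rootHom hQ h) := by
  refine MonoidHom.ext fun t => ?_
  have ht := mem_perp2.1 (Multiplicative.toAdd t).2
  change rr hQ e ((ap g.1 (Multiplicative.toAdd t) : perp2 Q e f) : V) =
    emb h g * rr hQ e (Multiplicative.toAdd t : perp2 Q e f) * (emb h g)⁻¹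
  rw [rr_conj hQ _ h.Qv ht.1, emb_e, emb_t]

/-- The parabolic homomorphism. -/
noncomputable def liftP : Multiplicative (perp2 Q e f) ⋊[act] siegelE (restr Q (perp2 Q e f)) →* OG Q :=
  SemidirectProduct.lift (rootHom hQ h) ((emb h).comp (siegelE (restr Q (perp2 Q e f))).subtype)
    (rootHom_compat hQ h)

lemma liftP_apply (p : Multiplicative (perp2 Q e f) ⋊[act] siegelE (restr Q (perp2 Q e f))) :
    liftP hQ h p = rr hQ e (Multiplicative.toAdd p.left : perp2 Q e f) * emb h p.right := rfl

lemma range_liftP_le : (liftP hQ h).range ≤ siegelE Q := by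
  rintro _ ⟨p, rfl⟩
  rw [liftP_apply]
  exact mul_mem (rr_mem' hQ _ _) (emb_mem h p.right.2)

variable (H : Subgroup (OG Q))

/-- The image of `H` in the Siegel group of the perpendicular. -/
noncomputable def KK : Subgroup (siegelE (restr Q (perp2 Q e f))) :=
  (H.comap (liftP hQ h)).map SemidirectProduct.rightHom

lemma mem_KK {g : siegelE (restr Q (perp2 Q e f))} :
    g ∈ KK hQ h H ↔ ∃ t : perp2 Q e f, rr hQ e t * emb h g ∈ H := by
  constructor
  · rintro ⟨p, hp, rfl⟩
    exact ⟨Multiplicative.toAdd p.left, hp⟩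
  · rintro ⟨t, ht⟩
    exact ⟨⟨Multiplicative.ofAdd t, g⟩, ht, rfl⟩

/-- The root elements of the point lying in `H`. -/
def YY : AddSubgroup (perp2 Q e f) where
  carrier := {t | rr hQ e t ∈ H}
  add_mem' := by
    intro a b ha hb
    have := H.mul_mem ha hb
    rwa [← rr_add hQ h.Qv (mem_perp2.1 a.2).1 (mem_perp2.1 b.2).1] at this
  zero_mem' := by
    simp [rr_zero, H.one_mem]
  neg_mem' := by
    intro a ha
    have := H.inv_mem ha
    rwa [← rr_neg hQ h.Qv (mem_perp2.1 a.2).1] at this

lemma mem_YY {t : perp2 Q e f} : t ∈ YY hQ h H ↔ rr hQ e t ∈ H := Iff.rfl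

/-- The basic inequality for a point. -/
theorem lemmaF [Finite F] :
    Nat.card (perp2 Q e f) * (KK hQ h H).index ≤ H.relIndex (siegelE Q) * Nat.card (YY hQ h H) := by
  have : Finite V := Module.finite_of_finite F
  have : Finite (OG (restr Q (perp2 Q e f))) := finite_OG
  have h1 := semidirect_index (act (Q := Q) (e := e) (f := f)) (H.comap (liftP hQ h))
  have h2 : (H.comap (liftP hQ h)).index ≤ H.relIndex (siegelE Q) := by
    rw [Subgroup.index_comap]
    exact Subgroup.relIndex_le_of_le_right (range_liftP_le hQ h) (relIndex_ne_zero' _ _)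
  set N₁ := (H.comap (liftP hQ h)).comap SemidirectProduct.inl with hN₁
  have h3 : Nat.card N₁ = Nat.card (YY hQ h H) := by
    refine Nat.card_congr ⟨fun n => ⟨Multiplicative.toAdd (n : Multiplicative (perp2 Q e f)), ?_⟩,
      fun t => ⟨Multiplicative.ofAdd (t : perp2 Q e f), ?_⟩, fun _ => rfl, fun _ => rfl⟩
    · have h' : liftP hQ h (SemidirectProduct.inl (n : Multiplicative (perp2 Q e f))) ∈ H := n.2
      rw [liftP_apply] at h'
      rw [mem_YY]
      simpa using h'
    · have h' := t.2
      rw [mem_YY] at h'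
      change liftP hQ h (SemidirectProduct.inl (Multiplicative.ofAdd (t : perp2 Q e f))) ∈ H
      rw [liftP_apply]
      simpa using h'
  have h4 : Nat.card N₁ * N₁.index = Nat.card (perp2 Q e f) := by
    rw [Subgroup.card_mul_index]
    rfl
  rw [← h4, h3, mul_assoc, mul_comm (H.relIndex _)]
  apply Nat.mul_le_mul_left
  change N₁.index * (KK hQ h H).index ≤ _
  rw [show N₁.index * (KK hQ h H).index = (H.comap (liftP hQ h)).index from h1.symm]
  exact h2

variable {H}

/-- Invariance of the root elements in `H` under the image of `H`. -/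
lemma YY_inv {g : siegelE (restr Q (perp2 Q e f))} (hg : g ∈ KK hQ h H) {t : perp2 Q e f}
    (ht : t ∈ YY hQ h H) : ap g.1 t ∈ YY hQ h H := by
  obtain ⟨u, hu⟩ := (mem_KK hQ h H).1 hg
  have h1 := H.mul_mem (H.mul_mem hu ht) (H.inv_mem hu)
  have ht1 := (mem_perp2.1 t.2).1
  rw [rr_conj hQ _ h.Qv ht1] at h1
  have hu1 := (mem_perp2.1 u.2).1
  have hu1' : polar Q (u : V) e = 0 := by rw [polar_comm]; exact hu1
  have e1 : ap (rr hQ e u * emb h g) e = e := by
    rw [ap_mul, emb_e, rr_apply hQ h.Qv hu1, hyp_ee h, hu1]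
    simp
  have h3 := mem_perp2.1 ((ap g.1 t : perp2 Q e f)).2
  have e2 : ap (rr hQ e u * emb h g) t
      = ((ap g.1 t : perp2 Q e f) : V) - polar Q ((ap g.1 t : perp2 Q e f) : V) u • e := by
    rw [ap_mul, emb_t, rr_apply hQ h.Qv hu1]
    have h4 : polar Q ((ap g.1 t : perp2 Q e f) : V) e = 0 := by rw [polar_comm]; exact h3.1
    rw [h4]
    simp
  rw [e1, e2] at h1
  have h5 := rr_add_smul hQ h.Qv h3.1 (-polar Q ((ap g.1 t : perp2 Q e f) : V) u)
  rw [mem_YY, ← h5]
  convert h1 using 2
  module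

end semi

/-! ### Irreducibility -/

section irr

variable [FiniteDimensional F V] [Finite F] (hQ : Nondeg Q)

include hQ in
lemma huniv_of (h5 : 5 ≤ finrank F V) {e f : V} (h : IsHyp Q e f) (c : F) :
    ∃ u, polar Q u e = 0 ∧ polar Q u f = 0 ∧ Q u = c := by
  obtain ⟨a, b, hab⟩ := exists_hyp_in_perp2 (nd_of_nondeg hQ) h5 h
  have ha := mem_perp2.1 a.2
  have hb := mem_perp2.1 b.2
  refine ⟨(a : V) + c • (b : V), ?_, ?_, ?_⟩
  · rw [polar_add_left, polar_smul_l, polar_comm, ha.1, polar_comm, hb.1]; ring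
  · rw [polar_add_left, polar_smul_l, polar_comm, ha.2, polar_comm, hb.2]; ring
  · have h1 : Q (a : V) = 0 := hab.Qv
    have h2 : Q (b : V) = 0 := hab.Qw
    have h3 : polar Q (a : V) b = 1 := by
      have := hab.vw
      rwa [polar_restr] at this
    rw [Q_add, Q_smul, h1, h2, polar_smul_r, h3]
    ring

include hQ in
lemma exists_hyp_of (h5 : 5 ≤ finrank F V) : ∃ e f : V, IsHyp Q e f := by
  obtain ⟨a, ha0, ha⟩ := exists_singular Q (by omega)
  obtain ⟨b, hb⟩ := exists_hyp_partner (nd_of_nondeg hQ) ha0 ha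
  exact ⟨a, b, hb⟩

include hQ in
/-- Transitivity of the Siegel group on vectors of a given norm. -/
lemma E_trans (h5 : 5 ≤ finrank F V) {v v' : V} (hvv : Q v = Q v') (hv : v ≠ 0) (hv' : v' ≠ 0) :
    ∃ g ∈ siegelE Q, ap g v = v' := by
  obtain ⟨e, f, hef⟩ := exists_hyp_of hQ h5
  have hp : IsHypPair Q e f := ⟨hef.Qv, hef.Qw, hef.vw⟩
  exact E_transitive hQ hp (fun c _ => huniv_of hQ h5 hef c) hvv hv hv'

include hQ in
/-- An additive subgroup invariant under the Siegel group which is non-zero contains all singular vectors. -/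
theorem sing_mem_of_inv (h5 : 5 ≤ finrank F V) (Y : AddSubgroup V)
    (hY : ∀ g ∈ siegelE Q, ∀ t ∈ Y, ap g t ∈ Y) {t₀ : V} (ht₀ : t₀ ∈ Y) (h0 : t₀ ≠ 0) {v : V}
    (hv : Q v = 0) : v ∈ Y := by
  have hQ' := nd_of_nondeg hQ
  by_cases hv0 : v = 0
  · rw [hv0]; exact Y.zero_mem
  obtain ⟨z, hz, hα⟩ := exists_sing_opp hQ' h5 h0
  set α := polar Q t₀ z with hαdef
  have hz0 : z ≠ 0 := by
    rintro rfl
    exact hα (polar_zero_right _ _)
  obtain ⟨zs, hzs⟩ := exists_hyp_partner hQ' hz0 hz
  obtain ⟨a, b, hab⟩ := exists_hyp_in_perp2 hQ' h5 hzs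
  have ha := mem_perp2.1 a.2
  have hb := mem_perp2.1 b.2
  have hab1 : polar Q (a : V) b = 1 := by
    have := hab.vw
    rwa [polar_restr] at this
  -- the displacement
  have hZ : ∀ u, polar Q z u = 0 → α • u - (polar Q t₀ u + Q u * α) • z ∈ Y := by
    intro u hu
    have h1 := Y.sub_mem (hY _ (rr_mem hQ hz hu) t₀ ht₀) ht₀
    rw [rr_apply hQ hz hu] at h1
    convert h1 using 1
    rw [← hαdef]
    abel
  have hall : ∀ γ : F, γ • z ∈ Y := by
    intro γ
    set c : F := γ * α⁻¹ with hc
    have h1 : polar Q z (c • (a : V)) = 0 := by rw [polar_smul_r, ha.1, mul_zero]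
    have h2 := hZ _ h1
    have h3 := hZ _ hb.1
    have h4 : polar Q z (c • (a : V) + (b : V)) = 0 := by rw [polar_add_right, h1, hb.1, add_zero]
    have h5' := hZ _ h4
    have h6 := Y.sub_mem (Y.add_mem h2 h3) h5'
    convert h6 using 1
    have h7 : Q (c • (a : V) + (b : V)) = Q (c • (a : V)) + Q (b : V) + c := by
      rw [Q_add, polar_smul_l, hab1, mul_one]
    rw [h7, polar_add_right]
    have h8 : γ = c * α := by rw [hc, mul_assoc, inv_mul_cancel₀ hα, mul_one]
    rw [h8]
    module
  obtain ⟨g, hg, hgz⟩ := E_trans hQ h5 (hz.trans hv.symm) hz0 hv0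
  have := hY g hg _ (hall 1)
  rwa [one_smul, hgz] at this

end irr

/-! ### Consequences for a point -/

section point

variable [FiniteDimensional F V] [Finite F] (hQ : Nondeg Q) {e f : V} (h : IsHyp Q e f) {H : Subgroup (OG Q)}

include h in
lemma nondeg_T (hQ : Nondeg Q) : Nondeg (restr Q (perp2 Q e f)) :=
  nondeg_of_nd (h.ND_perp2 (nd_of_nondeg hQ))

/-- If `H` contains a root element of the point but not all, then the image of `H` is proper. -/
theorem KK_ne_top (h7 : 7 ≤ finrank F V) {y : perp2 Q e f} (hy : Q y = 0) (hgy : y ∉ YY hQ h H)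
    {t₀ : perp2 Q e f} (ht₀ : t₀ ∈ YY hQ h H) (h0 : t₀ ≠ 0) : KK hQ h H ≠ ⊤ := by
  intro htop
  have hdim := h.finrank_perp2
  apply hgy
  refine sing_mem_of_inv (nondeg_T h hQ) (by omega) (YY hQ h H) (fun g hg t ht => ?_) ht₀ h0 hy
  exact YY_inv hQ h (g := ⟨g, hg⟩) (by rw [htop]; trivial) ht

/-- The image of `H`, viewed in the isometry group of the perpendicular. -/
noncomputable def KK' (hQ : Nondeg Q) (h : IsHyp Q e f) (H : Subgroup (OG Q)) :
    Subgroup (OG (restr Q (perp2 Q e f))) :=
  (KK hQ h H).map (siegelE (restr Q (perp2 Q e f))).subtype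

lemma relIndex_KK' : (KK' hQ h H).relIndex (siegelE (restr Q (perp2 Q e f))) = (KK hQ h H).index :=
  relIndex_map_subtype _

lemma not_le_KK' (hK : KK hQ h H ≠ ⊤) : ¬ siegelE (restr Q (perp2 Q e f)) ≤ KK' hQ h H := by
  intro hle
  apply hK
  rw [eq_top_iff]
  rintro g -
  obtain ⟨g', hg', hgg⟩ := hle g.2
  have : g' = g := Subtype.ext hgg
  rwa [← this]

end point

end Cfsg.Agent.Lib.OmIdx
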