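import Mathlib
import Cfsg.Agent.Lib.OmIdxD

/-!
# Minimal index in orthogonal groups: forms of Witt index two

When all complements of line frames are anisotropic, the basic lower bound can be doubled.
-/

set_option autoImplicit false
set_option linter.unusedSectionVars false
set_option linter.unusedVariables false

namespace Cfsg.Agent.Lib.OmIdx

open Module QuadraticMap Cfsg.Agent.Lib.OrthoBasic Cfsg.Agent.Lib.OrthoSiegel Cfsg.Agent.Lib.OrthoGen
  Cfsg.Agent.Lib.QuadFF Cfsg.Agent.Lib.OmGeo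

section generic

lemma mem_normalizer_of_conj_le {G : Type*} [Group G] [Finite G] (R : Subgroup G) {g : G}
    (hg : ∀ r ∈ R, g * r * g⁻¹ ∈ R) : g ∈ Subgroup.normalizer (R : Set G) := by
  rw [Subgroup.mem_normalizer_iff]
  intro h
  refine ⟨hg h, fun hh => ?_⟩
  let φ : R → R := fun r => ⟨g * r * g⁻¹, hg r r.2⟩
  have hφ : Function.Injective φ := by
    intro a b hab
    have := congrArg Subtype.val hab
    simp only [φ] at this
    exact Subtype.ext (by simpa using this)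
  obtain ⟨r, hr⟩ := (Finite.injective_iff_surjective.1 hφ) ⟨_, hh⟩
  have := congrArg Subtype.val hr
  simp only [φ] at this
  have h2 : (r : G) = h := by simpa using this
  rw [← h2]
  exact r.2

theorem normalizer_lemma {G : Type*} [Group G] [Finite G] (H R P : Subgroup G) (hRP : R ≤ P)
    (hnorm : P ≤ Subgroup.normalizer (R : Set G)) (hlt : H.relIndex P < 2 * H.relIndex R) :
    ∀ g ∈ P, ∃ r ∈ R, ∃ h ∈ H, g = r * h := by
  intro g hg
  set A := H.subgroupOf P with hA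
  set R' := R.subgroupOf P with hR'
  have hnormal : R'.Normal := (Subgroup.normal_subgroupOf_iff_le_normalizer hRP).2 hnorm
  have h1 := relIndex_sup_normal A R'
  have h2 := Subgroup.relIndex_mul_index (H := A) (K := A ⊔ R') le_sup_left
  have h3 : A.index = H.relIndex P := rfl
  have h4 : A.relIndex R' = H.relIndex R := Subgroup.relIndex_subgroupOf hRP
  have htop : A ⊔ R' = ⊤ := by
    by_contra hne
    have h5 : (A ⊔ R').index ≠ 1 := fun h => hne (Subgroup.index_eq_one.1 h)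
    have h6 : (A ⊔ R').index ≠ 0 := Subgroup.index_ne_zero_of_finite
    have h7 : 2 ≤ (A ⊔ R').index := by omega
    rw [h1, h4, h3] at h2
    have h8 := Nat.mul_le_mul_left (H.relIndex R) h7
    rw [h2] at h8
    omega
  have hmem : (⟨g, hg⟩ : P) ∈ ((R' ⊔ A : Subgroup P) : Set P) := by
    rw [sup_comm, htop]
    trivial
  rw [Subgroup.normal_mul R' A] at hmem
  obtain ⟨r, hr, h, hh, hrh⟩ := hmem
  refine ⟨r, hr, h, hh, ?_⟩
  have := congrArg Subtype.val hrh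
  exact this.symm

end generic

variable {F : Type*} [Field F] {V : Type*} [AddCommGroup V] [Module F V] {Q : QuadraticForm F V}

section main

variable [FiniteDimensional F V] [Finite F] (hQ : Nondeg Q) (fr : LF Q) {H : Subgroup (OG Q)}

namespace LF

lemma Ss_inv (hlt : H.relIndex (siegelE Q) < 2 * (fr.L hQ H).index) {g : OG Q} (hg : g ∈ siegelE Q)
    (hA : ∀ p, ∃ p', g * fr.r hQ p * g⁻¹ = fr.r hQ p') {p₀ p₁ : Heis fr.B} (hp₀ : p₀ ∈ fr.L hQ H)
    (h01 : g * fr.r hQ p₀ * g⁻¹ = fr.r hQ p₁) : (p₁.a, p₁.b) ∈ Heis.Ss (fr.L hQ H) := by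
  have : Finite (OG Q) := finite_OG
  set R := (fr.r hQ).range with hR
  set P := Subgroup.normalizer (R : Set (OG Q)) ⊓ siegelE Q with hP
  have hRP : R ≤ P := le_inf Subgroup.le_normalizer (fr.range_r_le hQ)
  have hgP : g ∈ P := by
    refine ⟨mem_normalizer_of_conj_le R ?_, hg⟩
    rintro _ ⟨p, rfl⟩
    obtain ⟨p', hp'⟩ := hA p
    exact ⟨p', hp'.symm⟩
  have hlt' : H.relIndex P < 2 * H.relIndex R := by
    rw [hR, ← Subgroup.index_comap]
    exact lt_of_le_of_lt (Subgroup.relIndex_le_of_le_right inf_le_right (relIndex_ne_zero' _ _)) hlt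
  obtain ⟨_, ⟨p, rfl⟩, h', hh', hgeq⟩ := normalizer_lemma H R P hRP inf_le_left hlt' g hgP
  have h1 : h' * fr.r hQ p₀ * h'⁻¹ = fr.r hQ (p⁻¹ * p₁ * p) := by
    have h2 : h' = (fr.r hQ p)⁻¹ * g := by rw [hgeq]; group
    rw [h2, map_mul, map_mul, map_inv, ← h01]
    group
  have h2 := H.mul_mem (H.mul_mem hh' hp₀) (H.inv_mem hh')
  rw [h1] at h2
  refine ⟨(p⁻¹ * p₁ * p).t, ?_⟩
  have h3 : (⟨p₁.a, p₁.b, (p⁻¹ * p₁ * p).t⟩ : Heis fr.B) = p⁻¹ * p₁ * p := by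
    ext
    · simp only [Heis.mul_a, Heis.inv_a]
      congr 1
      abel
    · simp only [Heis.mul_b, Heis.inv_b]
      congr 1
      abel
    · rfl
  simp only
  rw [h3]
  exact h2

/-- Conjugation by a root element at `x`. -/
lemma conj₁ (c : F) (p : Heis fr.B) :
    rr hQ fr.x (c • fr.ys) * fr.r hQ p * (rr hQ fr.x (c • fr.ys))⁻¹
      = fr.r hQ ⟨p.a - c • p.b, p.b, p.t + c * Q p.b⟩ := by
  have hu : polar Q fr.x (c • fr.ys) = 0 := by rw [polar_smul_r, fr.xys, mul_zero]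
  have h1 : fr.r hQ p = rr hQ fr.x ((p.a : V) + p.t • fr.y) * rr hQ fr.y p.b := rfl
  have h2 : rr hQ fr.x (c • fr.ys) * fr.r hQ p * (rr hQ fr.x (c • fr.ys))⁻¹
      = rr hQ fr.x ((p.a : V) + p.t • fr.y) *
        (rr hQ fr.x (c • fr.ys) * rr hQ fr.y p.b * (rr hQ fr.x (c • fr.ys))⁻¹) := by
    rw [h1, ← mul_assoc, rr_comm hQ fr.Qx hu (fr.perp_xy _ _)]
    group
  rw [h2, rr_conj hQ _ fr.Qy (fr.y_W _), rr_apply hQ fr.Qx hu, rr_apply hQ fr.Qx hu]
  have e1 : polar Q fr.y fr.x = 0 := fr.yx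
  have e2 : fr.y + polar Q fr.y fr.x • c • fr.ys -
      (polar Q fr.y (c • fr.ys) + Q (c • fr.ys) * polar Q fr.y fr.x) • fr.x = (-c) • fr.x + fr.y := by
    rw [polar_smul_r, fr.yys, fr.yx]
    module
  have e3 : (p.b : V) + polar Q (p.b : V) fr.x • c • fr.ys -
      (polar Q (p.b : V) (c • fr.ys) + Q (c • fr.ys) * polar Q (p.b : V) fr.x) • fr.x = p.b := by
    rw [polar_smul_r, fr.W_x, fr.W_ys]
    module
  rw [e2, e3]
  have e4 := fr.rr_tau hQ (-c) p.b 0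
  rw [zero_smul, add_zero] at e4
  rw [e4]
  have e5 : rr hQ fr.x ((p.a : V) + p.t • fr.y) = fr.r hQ ⟨p.a, 0, p.t⟩ := by
    rw [r_apply]
    simp [rr_zero]
  rw [e5, ← map_mul]
  congr 1
  ext
  · simp only [Heis.mul_a, neg_smul]
    abel
  · simp
  · simp only [Heis.mul_t]
    simp

/-- Conjugation by a root element at `y`. -/
lemma conj₂ (c : F) (p : Heis fr.B) :
    rr hQ fr.y (c • fr.xs) * fr.r hQ p * (rr hQ fr.y (c • fr.xs))⁻¹
      = fr.r hQ ⟨p.a, p.b - c • p.a, p.t + c * Q p.a⟩ := by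
  have hu : polar Q fr.y (c • fr.xs) = 0 := by rw [polar_smul_r, fr.yxs, mul_zero]
  have h1 : fr.r hQ p = rr hQ fr.x ((p.a : V) + p.t • fr.y) * rr hQ fr.y p.b := rfl
  have h2 : rr hQ fr.y (c • fr.xs) * fr.r hQ p * (rr hQ fr.y (c • fr.xs))⁻¹
      = (rr hQ fr.y (c • fr.xs) * rr hQ fr.x ((p.a : V) + p.t • fr.y) * (rr hQ fr.y (c • fr.xs))⁻¹) *
        rr hQ fr.y p.b := by
    have hc : Commute (rr hQ fr.y (c • fr.xs)) (rr hQ fr.y p.b) := rr_comm hQ fr.Qy hu (fr.y_W p.b)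
    rw [h1, ← mul_assoc, mul_assoc (_ * _), mul_assoc (_ * _) _ (_ : OG Q), hc.inv_left.eq]
  have hp := fr.perp_xy p.a p.t
  rw [h2, rr_conj hQ _ fr.Qx hp, rr_apply hQ fr.Qy hu, rr_apply hQ fr.Qy hu]
  have e2 : fr.x + polar Q fr.x fr.y • c • fr.xs -
      (polar Q fr.x (c • fr.xs) + Q (c • fr.xs) * polar Q fr.x fr.y) • fr.y = fr.x + (-c) • fr.y := by
    rw [polar_smul_r, fr.xxs, fr.xy]
    module
  have e3a : polar Q ((p.a : V) + p.t • fr.y) fr.y = 0 := by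
    rw [polar_add_left, polar_smul_l, fr.W_y, fr.yy]; ring
  have e3b : polar Q ((p.a : V) + p.t • fr.y) (c • fr.xs) = 0 := by
    rw [polar_smul_r, polar_add_left, polar_smul_l, fr.W_xs, fr.yxs]; ring
  rw [e2, e3a, e3b]
  simp only [zero_smul, add_zero, mul_zero, sub_zero]
  have hQa : Q ((p.a : V) + p.t • fr.y) = Q p.a := by
    rw [Q_add, Q_smul, fr.Qy, polar_smul_r, fr.W_y]; ring
  have h1' : Q ((-c) • fr.y) = 0 := by rw [Q_smul, fr.Qy, mul_zero]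
  have h12 : polar Q fr.x ((-c) • fr.y) = 0 := by rw [polar_smul_r, fr.xy, mul_zero]
  have hu2 : polar Q ((-c) • fr.y) ((p.a : V) + p.t • fr.y) = 0 := by
    rw [polar_smul_l, polar_add_right, polar_smul_r, fr.y_W, fr.yy]; ring
  rw [rr_add_left hQ fr.Qx h1' h12 hp hu2, hQa, rr_smul_left hQ fr.Qy (by
    rw [polar_add_right, polar_smul_r, fr.y_W, fr.yy]; ring)]
  have e4 : (-c) • ((p.a : V) + p.t • fr.y) = (((-c) • p.a : fr.W) : V) + ((-c) * p.t) • fr.y := by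
    rw [Submodule.coe_smul]
    module
  rw [e4, rr_add_smul hQ fr.Qy (fr.y_W _), mul_assoc, ← rr_add hQ fr.Qy (fr.y_W _) (fr.y_W _), r_apply]
  congr 2
  · simp only []
    module
  · simp only [Submodule.coe_smul, Submodule.coe_sub]
    module

/-- Conjugation by an element fixing the frame. -/
lemma conj₃ (h : OG Q) (hx : ap h fr.x = fr.x) (hy : ap h fr.y = fr.y) (hW : ∀ a : fr.W, ap h a ∈ fr.W)
    (p : Heis fr.B) :
    h * fr.r hQ p * h⁻¹ = fr.r hQ ⟨⟨_, hW p.a⟩, ⟨_, hW p.b⟩, p.t⟩ := by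
  have h1 : fr.r hQ p = rr hQ fr.x ((p.a : V) + p.t • fr.y) * rr hQ fr.y p.b := rfl
  have h2 : h * fr.r hQ p * h⁻¹ = (h * rr hQ fr.x ((p.a : V) + p.t • fr.y) * h⁻¹) * (h * rr hQ fr.y p.b * h⁻¹) := by
    rw [h1]
    group
  rw [h2, rr_conj hQ _ fr.Qx (fr.perp_xy _ _), rr_conj hQ _ fr.Qy (fr.y_W _), hx, hy, r_apply]
  congr 2
  change (h : V ≃ₗ[F] V) ((p.a : V) + p.t • fr.y) = _
  rw [map_add, map_smul]
  congr 2

end LF

/-- The doubling of the basic bound when complements of line frames are anisotropic. -/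
theorem lemmaI' (hQ : Nondeg Q) (h5 : 5 ≤ finrank F V) (haniso : ∀ fr : LF Q, ∀ w ∈ fr.W, Q w = 0 → w = 0)
    (hE : ¬ siegelE Q ≤ H) : 2 * Nat.card F ^ (finrank F V - 3) ≤ H.relIndex (siegelE Q) := by
  classical
  have : Finite V := Module.finite_of_finite F
  by_contra hlt
  push Not at hlt
  obtain ⟨x, y, hx, hy, hxy, hi, hg⟩ := exists_good hQ h5 hE
  obtain ⟨fr, rfl, rfl⟩ := exists_frame (nd_of_nondeg hQ) hx hy hxy hi
  have hdim := fr.finrank_W
  have hcard : Nat.card fr.W = Nat.card F ^ finrank F fr.W := Module.natCard_eq_pow_finrank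
  have hpow : Nat.card F ^ (finrank F V - 3) = Nat.card fr.W * Nat.card F := by
    rw [hcard, ← pow_succ]
    congr 1
    omega
  rw [hpow] at hlt
  have hL : Nat.card fr.W * Nat.card F ≤ (fr.L hQ H).index := by
    refine card_index_ge fr.B (fr.B_nd hQ) fr.B_symm fun t ht => ?_
    rw [LF.mem_L, LF.r_central] at ht
    by_contra ht0
    exact hg t ht0 ht
  have hlt2 : H.relIndex (siegelE Q) < 2 * (fr.L hQ H).index := by omega
  have hZ : ∀ t, t ∈ Heis.Zs (fr.L hQ H) → t = 0 := by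
    intro t ht
    have ht' := Heis.mem_Zs.1 ht
    rw [LF.mem_L, LF.r_central] at ht'
    by_contra ht0
    exact hg t ht0 ht'
  -- invariance properties
  have hS1 : ∀ a b, (a, b) ∈ Heis.Ss (fr.L hQ H) → ∀ c : F, (a - c • b, b) ∈ Heis.Ss (fr.L hQ H) := by
    rintro a b ⟨t, ht⟩ c
    have hu : polar Q fr.x (c • fr.ys) = 0 := by rw [polar_smul_r, fr.xys, mul_zero]
    have h1 := LF.Ss_inv hQ fr hlt2 (rr_mem hQ fr.Qx hu) (fun p => ⟨_, fr.conj₁ hQ c p⟩) (p₀ := ⟨a, b, t⟩) ht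
      (fr.conj₁ hQ c ⟨a, b, t⟩)
    exact h1
  have hS2 : ∀ a b, (a, b) ∈ Heis.Ss (fr.L hQ H) → ∀ c : F, (a, b - c • a) ∈ Heis.Ss (fr.L hQ H) := by
    rintro a b ⟨t, ht⟩ c
    have hu : polar Q fr.y (c • fr.xs) = 0 := by rw [polar_smul_r, fr.yxs, mul_zero]
    have h1 := LF.Ss_inv hQ fr hlt2 (rr_mem hQ fr.Qy hu) (fun p => ⟨_, fr.conj₂ hQ c p⟩) (p₀ := ⟨a, b, t⟩) ht
      (fr.conj₂ hQ c ⟨a, b, t⟩)
    exact h1
  -- isotropy
  have hiso : ∀ a b, (a, (0 : fr.W)) ∈ Heis.Ss (fr.L hQ H) → ((0 : fr.W), b) ∈ Heis.Ss (fr.L hQ H) →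
      polar Q (a : V) (b : V) = 0 := by
    intro a b ha hb
    have := hZ _ (Heis.comm_mem ha hb)
    simpa [LF.B_apply] using this
  -- a non-zero element
  have hW1 : 1 ≤ finrank F fr.W := by omega
  have hw2 : 2 ≤ Nat.card fr.W := by
    have hq2 : 2 ≤ Nat.card F := Finite.one_lt_card
    rw [hcard]
    calc 2 ≤ Nat.card F := hq2
      _ = Nat.card F ^ 1 := (pow_one _).symm
      _ ≤ _ := Nat.pow_le_pow_right (by omega) hW1
  have hne : ∃ p ∈ Heis.Ss (fr.L hQ H), p ≠ 0 := by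
    by_contra hno
    push Not at hno
    have h1 := Heis.card_le (fr.L hQ H)
    have h2 : Nat.card (Heis.Zs (fr.L hQ H)) = 1 := by
      rw [Nat.card_eq_one_iff_unique]
      exact ⟨⟨fun a b => Subtype.ext ((hZ a a.2).trans (hZ b b.2).symm)⟩, ⟨0⟩⟩
    have h3 : Nat.card (Heis.Ss (fr.L hQ H)) = 1 := by
      rw [Nat.card_eq_one_iff_unique]
      exact ⟨⟨fun a b => Subtype.ext ((hno a a.2).trans (hno b b.2).symm)⟩, ⟨0⟩⟩
    rw [h2, h3, one_mul] at h1
    have h4 := Subgroup.card_mul_index (fr.L hQ H)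
    rw [Heis.card_eq] at h4
    have h5' : (fr.L hQ H).index ≤ H.relIndex (siegelE Q) := LF.index_L_le fr hQ H
    have h6 : Nat.card (fr.L hQ H) = 1 := le_antisymm h1 Nat.card_pos
    rw [h6, one_mul] at h4
    rw [h4] at h5'
    have h7 : 0 < Nat.card fr.W * Nat.card F := Nat.mul_pos Nat.card_pos Nat.card_pos
    have h8 : Nat.card fr.W * (Nat.card fr.W * Nat.card F) < 2 * (Nat.card fr.W * Nat.card F) := by omega
    have h9 := Nat.lt_of_mul_lt_mul_right h8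
    omega
  -- a vector occurring on both sides
  obtain ⟨b', hb'0, hb1, hb2⟩ : ∃ b' : fr.W, b' ≠ 0 ∧ (b', (0 : fr.W)) ∈ Heis.Ss (fr.L hQ H) ∧
      ((0 : fr.W), b') ∈ Heis.Ss (fr.L hQ H) := by
    obtain ⟨⟨a, b⟩, hp, hp0⟩ := hne
    have step : ∀ a' : fr.W, a' ≠ 0 → (a', (0 : fr.W)) ∈ Heis.Ss (fr.L hQ H) →
        ∃ b' : fr.W, b' ≠ 0 ∧ (b', (0 : fr.W)) ∈ Heis.Ss (fr.L hQ H) ∧ ((0 : fr.W), b') ∈ Heis.Ss (fr.L hQ H) := by
      intro a' ha' h1
      refine ⟨a', ha', h1, ?_⟩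
      have h2 := hS2 _ _ h1 (-1)
      have h3 := (Heis.Ss (fr.L hQ H)).sub_mem h2 h1
      simpa using h3
    by_cases hb : b = 0
    · subst hb
      refine step a (fun h => hp0 ?_) hp
      rw [h]
      rfl
    · have h1 := hS1 _ _ hp 1
      have h2 := (Heis.Ss (fr.L hQ H)).sub_mem hp h1
      simp only [Prod.mk_sub_mk, sub_self, one_smul, sub_sub_cancel] at h2
      exact step b hb h2
  have hisob := hiso _ _ hb1 hb2
  -- anisotropy
  have hb'V : (b' : V) ≠ 0 := fun h => hb'0 (Subtype.ext h)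
  have hQb : Q (b' : V) ≠ 0 := fun h => hb'V (haniso fr _ b'.2 h)
  obtain ⟨w, hw⟩ := fr.B_nd hQ b' hb'0 1
  rw [LF.B_apply] at hw
  have hw0 : (w : V) ≠ 0 := by
    intro h
    rw [h, polar_zero_right] at hw
    exact zero_ne_one hw
  have hQw : Q (w : V) ≠ 0 := fun h => hw0 (haniso fr _ w.2 h)
  set v : V := reflLin Q w b' with hv
  have hQv : Q v = Q (b' : V) := reflLin_Q Q _ hQw _
  have hQv0 : Q v ≠ 0 := by rw [hQv]; exact hQb
  have hvW : v ∈ fr.W := by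
    rw [hv, reflLin_apply]
    exact fr.W.sub_mem b'.2 (fr.W.smul_mem _ w.2)
  have hbv : polar Q (b' : V) v = -(Q (w : V))⁻¹ := by
    rw [hv, reflLin_apply, polar_sub_right, polar_smul_r, hisob, hw]
    field_simp
    simp
  have hv0 : v ≠ 0 := by
    intro h
    rw [h, QuadraticMap.map_zero] at hQv0
    exact hQv0 rfl
  obtain ⟨g, hg', hgb⟩ := E_trans hQ h5 hQv.symm hb'V hv0
  set r₀ := refl hQ hQb with hr₀
  set r₁ := refl hQ hQv0 with hr₁
  have hr₁eq : r₁ = g * r₀ * g⁻¹ := by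
    refine og_ext fun z => ?_
    have h1 : ap (g * r₀ * g⁻¹) z = reflLin Q (ap g (b' : V)) z := (IsRefl.conj (refl_isRefl hQ hQb) g).2 z
    rw [hgb] at h1
    exact ((refl_isRefl hQ hQv0).2 z).trans h1.symm
  have hr₀2 : r₀ * r₀ = 1 := by
    refine og_ext fun z => ?_
    rw [ap_mul, ap_one]
    change (r₀ : V ≃ₗ[F] V) ((r₀ : V ≃ₗ[F] V) z) = z
    rw [(refl_isRefl hQ hQb).2, (refl_isRefl hQ hQb).2]
    exact reflLin_invol hQb z
  set h := r₁ * r₀ with hh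
  have hhE : h ∈ siegelE Q := by
    have e1 : h = g * (r₀ * g⁻¹ * r₀⁻¹) * (r₀ * r₀) := by
      rw [hh, hr₁eq]
      group
    rw [e1, hr₀2, mul_one]
    exact mul_mem hg' ((siegelE_normal (Q := Q)).conj_mem _ (inv_mem hg') r₀)
  have hfix : ∀ z : V, polar Q z (b' : V) = 0 → polar Q z v = 0 → ap h z = z := by
    intro z h1 h2
    rw [hh, ap_mul]
    change (r₁ : V ≃ₗ[F] V) ((r₀ : V ≃ₗ[F] V) z) = z
    rw [(refl_isRefl hQ hQb).2, reflLin_of_orth h1, (refl_isRefl hQ hQv0).2, reflLin_of_orth h2]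
  have hvW' := fr.mem_W.1 hvW
  have hbW := fr.mem_W.1 b'.2
  have hhx : ap h fr.x = fr.x := hfix _ hbW.1 hvW'.1
  have hhy : ap h fr.y = fr.y := hfix _ hbW.2.1 hvW'.2.1
  have hhxs : ap h fr.xs = fr.xs := hfix _ hbW.2.2.1 hvW'.2.2.1
  have hhys : ap h fr.ys = fr.ys := hfix _ hbW.2.2.2 hvW'.2.2.2
  have hhW : ∀ a : fr.W, ap h a ∈ fr.W := by
    intro a
    have ha := fr.mem_W.1 a.2
    rw [fr.mem_W]
    refine ⟨?_, ?_, ?_, ?_⟩
    · rw [← hhx, ap_polar]; exact ha.1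
    · rw [← hhy, ap_polar]; exact ha.2.1
    · rw [← hhxs, ap_polar]; exact ha.2.2.1
    · rw [← hhys, ap_polar]; exact ha.2.2.2
  -- the element `h b'`
  have hb3 : (⟨_, hhW b'⟩, (⟨_, hhW 0⟩ : fr.W)) ∈ Heis.Ss (fr.L hQ H) := by
    obtain ⟨t, ht⟩ := hb1
    have h1 := LF.Ss_inv hQ fr hlt2 hhE (fun p => ⟨_, fr.conj₃ hQ h hhx hhy hhW p⟩) (p₀ := ⟨b', 0, t⟩) ht
      (fr.conj₃ hQ h hhx hhy hhW ⟨b', 0, t⟩)
    exact h1
  have hzero : (⟨_, hhW 0⟩ : fr.W) = 0 := by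
    apply Subtype.ext
    simp
  rw [hzero] at hb3
  have hfin := hiso _ _ hb3 hb2
  simp only at hfin
  -- computing
  have e1 : ap h (b' : V) = (b' : V) - (polar Q (b' : V) v / Q v) • v := by
    rw [hh, ap_mul]
    change (r₁ : V ≃ₗ[F] V) ((r₀ : V ≃ₗ[F] V) (b' : V)) = _
    rw [(refl_isRefl hQ hQb).2, (refl_isRefl hQ hQv0).2, reflLin_of_orth hisob, reflLin_apply]
  rw [e1, polar_sub_left, polar_smul_l, hisob, polar_comm Q v, hbv] at hfin
  have hne' : (Q (w : V))⁻¹ ≠ 0 := inv_ne_zero hQw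
  have : (-(Q (w : V))⁻¹ / Q v) * (-(Q (w : V))⁻¹) ≠ 0 :=
    mul_ne_zero (div_ne_zero (neg_ne_zero.2 hne') hQv0) (neg_ne_zero.2 hne')
  apply this
  linear_combination -hfin

end main

end Cfsg.Agent.Lib.OmIdx
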