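import Mathlib
import Cfsg.Agent.Lib.OmIdxE

/-!
# Minimal index in orthogonal groups: on a good line at most one point is special
-/

set_option autoImplicit false
set_option linter.unusedSectionVars false
set_option linter.unusedVariables false

namespace Cfsg.Agent.Lib.OmIdx

open Module QuadraticMap Cfsg.Agent.Lib.OrthoBasic Cfsg.Agent.Lib.OrthoSiegel Cfsg.Agent.Lib.OrthoGen
  Cfsg.Agent.Lib.QuadFF Cfsg.Agent.Lib.OmGeo

variable {F : Type*} [Field F] {V : Type*} [AddCommGroup V] [Module F V] {Q : QuadraticForm F V}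

section defs

variable [FiniteDimensional F V] (hQ : Nondeg Q) (H : Subgroup (OG Q))

/-- The special points: those whose root group meets `H` outside the trivial part. -/
def InA (x : V) : Prop :=
  Q x = 0 ∧ x ≠ 0 ∧ ∃ u, polar Q x u = 0 ∧ (∀ c : F, u ≠ c • x) ∧ rr hQ x u ∈ H

variable {hQ H}

lemma InA.smul {x : V} (h : InA hQ H x) {c : F} (hc : c ≠ 0) : InA hQ H (c • x) := by
  obtain ⟨h1, h2, u, hu, hu', hr⟩ := h
  refine ⟨by rw [Q_smul, h1, mul_zero], smul_ne_zero hc h2, c⁻¹ • u, ?_, ?_, ?_⟩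
  · rw [polar_smul_l, polar_smul_r, hu]; simp
  · intro d hd
    apply hu' (c * (d * c))
    rw [mul_smul, mul_smul, ← hd, smul_smul, mul_inv_cancel₀ hc, one_smul]
  · rw [rr_smul_left hQ h1 (by rw [polar_smul_r, hu, mul_zero]), smul_smul, mul_inv_cancel₀ hc, one_smul]
    exact hr

lemma InA.conj {x : V} (h : InA hQ H x) {g : OG Q} (hg : g ∈ H) : InA hQ H (ap g x) := by
  obtain ⟨h1, h2, u, hu, hu', hr⟩ := h
  refine ⟨by rw [ap_Q]; exact h1, ?_, ap g u, by rw [ap_polar]; exact hu, ?_, ?_⟩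
  · intro h0
    apply h2
    have := ap_inv_self g x
    rw [h0] at this
    rw [← this]
    simp
  · intro c hc
    apply hu' c
    have := ap_inv_self g u
    rw [← this, hc]
    change (g⁻¹ : OG Q).1 (c • ap g x) = c • x
    rw [map_smul]
    congr 1
    exact ap_inv_self g x
  · rw [← rr_conj hQ g h1 hu]
    exact H.mul_mem (H.mul_mem hg hr) (H.inv_mem hg)

/-- The symmetry of good lines. -/
lemma Good.symm {x y : V} (hx : Q x = 0) (hy : Q y = 0) (hxy : polar Q x y = 0) (h : Good hQ H x y) :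
    Good hQ H y x := by
  intro c hc hmem
  apply h (-c) (neg_ne_zero.2 hc)
  have h2 : Q (c • x) = 0 := by rw [Q_smul, hx, mul_zero]
  have h3 : polar Q (c • x) y = 0 := by rw [polar_smul_l, hxy, mul_zero]
  rw [rr_swap hQ h2 hy h3] at hmem
  have h4 : polar Q x (-y) = 0 := by rw [polar_neg_right, hxy, neg_zero]
  rw [rr_smul_left hQ hx h4] at hmem
  convert hmem using 2
  module

end defs

section counts

variable [FiniteDimensional F V] [Finite F] (hQ : Nondeg Q) {H : Subgroup (OG Q)}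

/-- The estimate for the number of root elements at a point. -/
theorem card_YY_le {e z s f : V} {U : Submodule F V} (D : PD Q e z s U) (h : IsHyp Q e f)
    (hzf : polar Q z f = 0) (hsf : polar Q s f = 0)
    (hU : ∀ u, polar Q e u = 0 → polar Q f u = 0 → polar Q z u = 0 → polar Q s u = 0 → u ∈ U)
    (hgood : ∀ c : F, c ≠ 0 → rr hQ e (c • z) ∉ H) :
    Nat.card (YY hQ h H) ≤ Nat.card (XG hQ H D) * Nat.card F := by
  classical
  have : Finite V := Module.finite_of_finite F
  let ρ : YY hQ h H →+ F :=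
    { toFun := fun u => polar Q z ((u : perp2 Q e f) : V)
      map_zero' := by simp
      map_add' := fun u v => by simp [polar_add_right] }
  have h1 := AddSubgroup.card_mul_index ρ.ker
  rw [AddSubgroup.index_ker] at h1
  have hsz : polar Q s z = 1 := by rw [polar_comm]; exact D.zs
  have hzz := polar_self_of_singular D.Qz
  -- the kernel injects
  have h2 : Nat.card ρ.ker ≤ Nat.card (XG hQ H D) := by
    have hmem : ∀ u : ρ.ker, ((u : YY hQ h H) : V) - polar Q s ((u : YY hQ h H) : V) • z ∈ U := by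
      intro u
      have hu := mem_perp2.1 (u : YY hQ h H).1.2
      have hu0 : polar Q z ((u : YY hQ h H) : V) = 0 := u.2
      have hez := D.ez
      have hfz : polar Q f z = 0 := by rw [polar_comm]; exact hzf
      apply hU
      · rw [polar_sub_right, polar_smul_r, hu.1, hez]; ring
      · rw [polar_sub_right, polar_smul_r, hu.2, hfz]; ring
      · rw [polar_sub_right, polar_smul_r, hu0, hzz]; ring
      · rw [polar_sub_right, polar_smul_r, hsz]; ring
    refine Nat.card_le_card_of_injective (fun u => ⟨⟨_, hmem u⟩, polar Q s ((u : YY hQ h H) : V), ?_⟩) ?_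
    · have h3 : rr hQ e ((u : YY hQ h H) : V) ∈ H := (u : YY hQ h H).2
      convert h3 using 2
      simp only
      abel
    · intro u v huv
      have h3 := congrArg (fun a : XG hQ H D => ((a : U) : V)) huv
      simp only at h3
      set c := polar Q s ((u : YY hQ h H) : V) - polar Q s ((v : YY hQ h H) : V) with hc
      have h4 : ((u : YY hQ h H) : V) - ((v : YY hQ h H) : V) = c • z := by
        rw [hc, sub_smul]
        linear_combination (norm := module) h3
      have h6 : c = 0 := by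
        by_contra hc0
        apply hgood c hc0
        rw [← h4]
        have := (YY hQ h H).sub_mem (u : YY hQ h H).2 (v : YY hQ h H).2
        exact this
      rw [h6, zero_smul, sub_eq_zero] at h4
      exact Subtype.ext (Subtype.ext (Subtype.ext h4))
  have h3 : Nat.card ρ.range ≤ Nat.card F := Nat.card_le_card_of_injective _ Subtype.val_injective
  rw [← h1]
  exact Nat.mul_le_mul h2 h3

/-- The point inequality. -/
theorem point_ineq {e z s f : V} {U : Submodule F V} (D : PD Q e z s U) (h : IsHyp Q e f)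
    (hzf : polar Q z f = 0) (hsf : polar Q s f = 0)
    (hU : ∀ u, polar Q e u = 0 → polar Q f u = 0 → polar Q z u = 0 → polar Q s u = 0 → u ∈ U)
    (hgood : ∀ c : F, c ≠ 0 → rr hQ e (c • z) ∉ H)
    (hT : Nat.card (perp2 Q e f) = Nat.card F ^ 2 * Nat.card U) {i₀ : ℕ} (hi : i₀ ≤ (KK hQ h H).index) :
    Nat.card F * Nat.card U * i₀ ≤ H.relIndex (siegelE Q) * Nat.card (XG hQ H D) := by
  have h1 := lemmaF hQ h H
  have h2 := card_YY_le hQ D h hzf hsf hU hgood
  have hq : 0 < Nat.card F := Nat.card_pos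
  apply Nat.le_of_mul_le_mul_left _ hq
  calc Nat.card F * (Nat.card F * Nat.card U * i₀) = Nat.card (perp2 Q e f) * i₀ := by rw [hT]; ring
    _ ≤ Nat.card (perp2 Q e f) * (KK hQ h H).index := Nat.mul_le_mul_left _ hi
    _ ≤ H.relIndex (siegelE Q) * Nat.card (YY hQ h H) := h1
    _ ≤ H.relIndex (siegelE Q) * (Nat.card (XG hQ H D) * Nat.card F) := Nat.mul_le_mul_left _ h2
    _ = _ := by ring

/-- A special point gives a non-zero element. -/
lemma InA.exists_YY {e f : V} (h : IsHyp Q e f) (hA : InA hQ H e) :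
    ∃ t : perp2 Q e f, t ∈ YY hQ h H ∧ t ≠ 0 := by
  obtain ⟨h1, h2, u, hu, hu', hr⟩ := hA
  have hmem : u - polar Q f u • e ∈ perp2 Q e f := by
    rw [mem_perp2]
    constructor
    · rw [polar_sub_right, polar_smul_r, hu, hyp_ee h]; ring
    · rw [polar_sub_right, polar_smul_r, hyp_fe h]; ring
  refine ⟨⟨_, hmem⟩, ?_, ?_⟩
  · rw [mem_YY]
    have := rr_add_smul hQ h1 (mem_perp2.1 hmem).1 (polar Q f u)
    simp only [sub_add_cancel] at this
    rw [this] at hr
    exact hr
  · intro h0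
    have := congrArg Subtype.val h0
    simp only [ZeroMemClass.coe_zero] at this
    exact hu' _ (sub_eq_zero.1 this)

namespace LF

variable (fr : LF Q)

lemma pd_y : PD Q fr.y fr.x fr.xs fr.W where
  Qe := fr.Qy
  Qz := fr.Qx
  Qs := fr.Qxs
  ez := fr.yx
  es := fr.yxs
  zs := fr.xxs
  Ue a ha := fr.y_W ⟨a, ha⟩
  Uz a ha := fr.x_W ⟨a, ha⟩
  Us a ha := fr.xs_W ⟨a, ha⟩
  ne := fr.y_ne

lemma Ss_of_y {b : fr.W} (hb : b ∈ XG hQ H fr.pd_y) : ((0 : fr.W), b) ∈ Heis.Ss (fr.L hQ H) := by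
  obtain ⟨t, ht⟩ := hb
  refine ⟨-t, ?_⟩
  have h1 := fr.rr_tau hQ 0 b t
  have e : (⟨(0 : F) • b, b, -(0 * Q b) - t⟩ : Heis fr.B) = ⟨0, b, -t⟩ := by
    ext <;> simp
  rw [e, zero_smul, zero_add] at h1
  rw [LF.mem_L, ← h1]
  exact ht

lemma hyp_x : IsHyp Q fr.x fr.xs := ⟨fr.Qx, fr.Qxs, fr.xxs⟩
lemma hyp_y : IsHyp Q fr.y fr.ys := ⟨fr.Qy, fr.Qys, fr.yys⟩

lemma y_mem : fr.y ∈ perp2 Q fr.x fr.xs := mem_perp2.2 ⟨fr.xy, fr.xsy⟩
lemma x_mem : fr.x ∈ perp2 Q fr.y fr.ys := mem_perp2.2 ⟨fr.yx, fr.ysx⟩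

lemma finrank_T_x : finrank F (perp2 Q fr.x fr.xs) = 2 + finrank F fr.W := by
  have h1 := fr.hyp_x.finrank_perp2
  have h2 := fr.finrank_W
  omega

lemma finrank_T_y : finrank F (perp2 Q fr.y fr.ys) = 2 + finrank F fr.W := by
  have h1 := fr.hyp_y.finrank_perp2
  have h2 := fr.finrank_W
  omega

lemma card_T_x : Nat.card (perp2 Q fr.x fr.xs) = Nat.card F ^ 2 * Nat.card fr.W := by
  rw [Module.natCard_eq_pow_finrank (K := F), Module.natCard_eq_pow_finrank (K := F) (V := fr.W), fr.finrank_T_x,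
    pow_add]

lemma card_T_y : Nat.card (perp2 Q fr.y fr.ys) = Nat.card F ^ 2 * Nat.card fr.W := by
  rw [Module.natCard_eq_pow_finrank (K := F), Module.natCard_eq_pow_finrank (K := F) (V := fr.W), fr.finrank_T_y,
    pow_add]

lemma hU_x (u : V) (h1 : polar Q fr.x u = 0) (h2 : polar Q fr.xs u = 0) (h3 : polar Q fr.y u = 0)
    (h4 : polar Q fr.ys u = 0) : u ∈ fr.W := fr.mem_W.2 ⟨h1, h3, h2, h4⟩

lemma hU_y (u : V) (h1 : polar Q fr.y u = 0) (h2 : polar Q fr.ys u = 0) (h3 : polar Q fr.x u = 0)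
    (h4 : polar Q fr.xs u = 0) : u ∈ fr.W := fr.mem_W.2 ⟨h3, h1, h4, h2⟩

end LF

/-- On a good line at most one point is special. -/
theorem lemmaM (h7 : 7 ≤ finrank F V) (fr : LF Q) {i₀ : ℕ}
    (hi₀ : (Nat.card F + 2) * Nat.card F ^ (finrank F fr.W / 2) ≤ i₀)
    (hK : ∀ (e f : V) (h : IsHyp Q e f), KK hQ h H ≠ ⊤ → i₀ ≤ (KK hQ h H).index)
    (hm : H.relIndex (siegelE Q) < (Nat.card F + 2) * (Nat.card F * Nat.card fr.W))
    (hg : Good hQ H fr.x fr.y) (hAx : InA hQ H fr.x) (hAy : InA hQ H fr.y) : False := by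
  classical
  have : Finite V := Module.finite_of_finite F
  have hg' := Good.symm fr.Qx fr.Qy fr.xy hg
  -- the two point inequalities
  have hP₁ : Nat.card F * Nat.card fr.W * i₀ ≤ H.relIndex (siegelE Q) * Nat.card (XG hQ H fr.pd_x) := by
    obtain ⟨t₀, ht₀, h0⟩ := hAx.exists_YY hQ fr.hyp_x
    refine point_ineq hQ fr.pd_x fr.hyp_x fr.yxs fr.yss fr.hU_x hg fr.card_T_x (hK _ _ _ (KK_ne_top hQ fr.hyp_x h7
      (y := ⟨fr.y, fr.y_mem⟩) fr.Qy ?_ ht₀ h0))
    intro hmem
    apply hg 1 one_ne_zero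
    rw [one_smul]
    exact hmem
  have hP₂ : Nat.card F * Nat.card fr.W * i₀ ≤ H.relIndex (siegelE Q) * Nat.card (XG hQ H fr.pd_y) := by
    obtain ⟨t₀, ht₀, h0⟩ := hAy.exists_YY hQ fr.hyp_y
    refine point_ineq hQ fr.pd_y fr.hyp_y fr.xys fr.xsys fr.hU_y hg' fr.card_T_y (hK _ _ _ (KK_ne_top hQ fr.hyp_y h7
      (y := ⟨fr.x, fr.x_mem⟩) fr.Qx ?_ ht₀ h0))
    intro hmem
    apply hg' 1 one_ne_zero
    rw [one_smul]
    exact hmem
  -- orthogonality
  have hZ : ∀ t, t ∈ Heis.Zs (fr.L hQ H) → t = 0 := by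
    intro t ht
    have ht' := Heis.mem_Zs.1 ht
    rw [LF.mem_L, LF.r_central] at ht'
    by_contra ht0
    exact hg t ht0 ht'
  have horth : ∀ a ∈ XG hQ H fr.pd_x, ∀ b ∈ XG hQ H fr.pd_y, polar Q (a : V) (b : V) = 0 := by
    intro a ha b hb
    have := hZ _ (Heis.comm_mem (fr.Ss_of_X hQ ha) (fr.Ss_of_y hQ hb))
    simpa [LF.B_apply] using this
  set X₁ := XG hQ H fr.pd_x with hX₁
  set X₂ := XG hQ H fr.pd_y with hX₂
  set Sp₁ : Submodule F fr.W := Submodule.span F (X₁ : Set fr.W) with hSp₁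
  set Sp₂ : Submodule F fr.W := Submodule.span F (X₂ : Set fr.W) with hSp₂
  have horth2 : ∀ a ∈ Sp₁, ∀ b ∈ Sp₂, polar Q (a : V) (b : V) = 0 := by
    intro a ha b hb
    have step1 : ∀ b ∈ X₂, polar Q (a : V) (b : V) = 0 := by
      intro b hb
      induction ha using Submodule.span_induction with
      | mem x hx => exact horth x hx b hb
      | zero => simp
      | add x y _ _ hx hy => rw [Submodule.coe_add, polar_add_left, hx, hy, add_zero]
      | smul c x _ hx => rw [Submodule.coe_smul, polar_smul_l, hx, mul_zero]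
    induction hb using Submodule.span_induction with
    | mem x hx => exact step1 x hx
    | zero => simp
    | add x y _ _ hx hy => rw [Submodule.coe_add, polar_add_right, hx, hy, add_zero]
    | smul c x _ hx => rw [Submodule.coe_smul, polar_smul_r, hx, mul_zero]
  have hcardS := card_mul_le_orth fr.B (fr.B_nd hQ) Sp₁.toAddSubgroup Sp₂.toAddSubgroup
    (fun a ha b hb => horth2 a ha b hb)
  have hc₁ : Nat.card Sp₁.toAddSubgroup = Nat.card F ^ finrank F Sp₁ := by
    change Nat.card Sp₁ = _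
    exact Module.natCard_eq_pow_finrank
  have hc₂ : Nat.card Sp₂.toAddSubgroup = Nat.card F ^ finrank F Sp₂ := by
    change Nat.card Sp₂ = _
    exact Module.natCard_eq_pow_finrank
  have hcW : Nat.card fr.W = Nat.card F ^ finrank F fr.W := Module.natCard_eq_pow_finrank
  rw [hc₁, hc₂, hcW, ← pow_add] at hcardS
  have hq2 : 1 < Nat.card F := Finite.one_lt_card
  have hadd := (Nat.pow_le_pow_iff_right hq2).1 hcardS
  have hX₁le : Nat.card X₁ ≤ Nat.card F ^ finrank F Sp₁ := by
    rw [← hc₁]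
    exact Nat.card_le_card_of_injective (fun a : X₁ => (⟨a, Submodule.subset_span a.2⟩ : Sp₁.toAddSubgroup))
      (fun a b h => Subtype.ext (congrArg (fun x : Sp₁.toAddSubgroup => (x : fr.W)) h))
  have hX₂le : Nat.card X₂ ≤ Nat.card F ^ finrank F Sp₂ := by
    rw [← hc₂]
    exact Nat.card_le_card_of_injective (fun a : X₂ => (⟨a, Submodule.subset_span a.2⟩ : Sp₂.toAddSubgroup))
      (fun a b h => Subtype.ext (congrArg (fun x : Sp₂.toAddSubgroup => (x : fr.W)) h))
  -- one of the two is small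
  have hsmall : ∃ X : ℕ, X ≤ Nat.card F ^ (finrank F fr.W / 2) ∧
      Nat.card F * Nat.card fr.W * i₀ ≤ H.relIndex (siegelE Q) * X := by
    by_cases hc : finrank F Sp₁ ≤ finrank F fr.W / 2
    · exact ⟨_, hX₁le.trans (Nat.pow_le_pow_right (by omega) hc), hP₁⟩
    · have hc' : finrank F Sp₂ ≤ finrank F fr.W / 2 := by omega
      exact ⟨_, hX₂le.trans (Nat.pow_le_pow_right (by omega) hc'), hP₂⟩
  obtain ⟨X, hX, hP⟩ := hsmall
  set P := Nat.card F ^ (finrank F fr.W / 2) with hPdef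
  have hPpos : 0 < P := Nat.pow_pos (by omega)
  have h1 : Nat.card F * Nat.card fr.W * ((Nat.card F + 2) * P) ≤ H.relIndex (siegelE Q) * P :=
    (Nat.mul_le_mul_left _ hi₀).trans (hP.trans (Nat.mul_le_mul_left _ hX))
  have h2 : ((Nat.card F + 2) * (Nat.card F * Nat.card fr.W)) * P ≤ H.relIndex (siegelE Q) * P := by
    calc _ = Nat.card F * Nat.card fr.W * ((Nat.card F + 2) * P) := by ring
      _ ≤ _ := h1
  have h3 := Nat.le_of_mul_le_mul_right h2 hPpos
  omega

end counts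

end Cfsg.Agent.Lib.OmIdx
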