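import Mathlib
import Cfsg.Agent.Lib.OmIdxF

/-!
# Minimal index in orthogonal groups: regular points force a special point on each line

If the root group of a point `x` meets `H` trivially then on every totally singular line through `x`
there is a special point.
-/

set_option autoImplicit false
set_option linter.unusedSectionVars false
set_option linter.unusedVariables false

namespace Cfsg.Agent.Lib.OmIdx

open Module QuadraticMap Cfsg.Agent.Lib.OrthoBasic Cfsg.Agent.Lib.OrthoSiegel Cfsg.Agent.Lib.OrthoGen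
  Cfsg.Agent.Lib.QuadFF Cfsg.Agent.Lib.OmGeo

variable {F : Type*} [Field F] {V : Type*} [AddCommGroup V] [Module F V] {Q : QuadraticForm F V}

section refl

variable [FiniteDimensional F V] [Finite F] (hQ : Nondeg Q)

/-- The product of two reflections in vectors of the same norm lies in the Siegel group. -/
lemma refl_prod_mem (h5 : 5 ≤ finrank F V) {u v : V} (hu : Q u ≠ 0) (hv : Q v ≠ 0) (huv : Q u = Q v) :
    refl hQ hv * refl hQ hu ∈ siegelE Q := by
  have hu0 : u ≠ 0 := by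
    rintro rfl
    exact hu (QuadraticMap.map_zero Q)
  have hv0 : v ≠ 0 := by
    rintro rfl
    exact hv (QuadraticMap.map_zero Q)
  obtain ⟨g, hg, hgu⟩ := E_trans hQ h5 huv hu0 hv0
  set r₀ := refl hQ hu with hr₀
  set r₁ := refl hQ hv with hr₁
  have hr₁eq : r₁ = g * r₀ * g⁻¹ := by
    refine og_ext fun z => ?_
    have h1 : ap (g * r₀ * g⁻¹) z = reflLin Q (ap g u) z := (IsRefl.conj (refl_isRefl hQ hu) g).2 z
    rw [hgu] at h1
    exact ((refl_isRefl hQ hv).2 z).trans h1.symm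
  have hr₀2 : r₀ * r₀ = 1 := by
    refine og_ext fun z => ?_
    rw [ap_mul, ap_one]
    change (r₀ : V ≃ₗ[F] V) ((r₀ : V ≃ₗ[F] V) z) = z
    rw [(refl_isRefl hQ hu).2, (refl_isRefl hQ hu).2]
    exact reflLin_invol hu z
  have e1 : r₁ * r₀ = g * (r₀ * g⁻¹ * r₀⁻¹) * (r₀ * r₀) := by
    rw [hr₁eq]
    group
  rw [e1, hr₀2, mul_one]
  exact mul_mem hg ((siegelE_normal (Q := Q)).conj_mem _ (inv_mem hg) r₀)

lemma ap_refl {u : V} (hu : Q u ≠ 0) (z : V) : ap (refl hQ hu) z = z - (polar Q z u / Q u) • u :=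
  ((refl_isRefl hQ hu).2 z).trans (reflLin_apply u z)

end refl

section gamma

variable {e f : V} (h : IsHyp Q e f)

lemma emb_isRefl {s : OG (restr Q (perp2 Q e f))} {u : perp2 Q e f} (hs : IsRefl s u) :
    IsRefl (emb h s) (u : V) := by
  refine ⟨hs.1, ?_⟩
  intro z
  obtain ⟨⟨a, a', t⟩, rfl⟩ := (hypIso h).surjective z
  have h1 := hs.2 t
  have hu := mem_perp2.1 u.2
  change ap (emb h s) (hypIso h (a, a', t)) = _
  rw [emb_apply, hypIso_apply]
  rw [show ap s t = reflLin (restr Q (perp2 Q e f)) u t from h1]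
  simp only [reflLin_apply, hypIso_apply, polar_add_left, polar_smul_l, polar_restr, Submodule.coe_sub,
    Submodule.coe_smul, restr_apply, hu.1, hu.2]
  simp only [mul_zero, zero_add, add_zero]
  module

/-- The image of the Siegel group of the perpendicular. -/
noncomputable def Gam : Subgroup (OG Q) := (siegelE (restr Q (perp2 Q e f))).map (emb h)

variable {h}

lemma Gam_e {γ : OG Q} (hγ : γ ∈ Gam h) : ap γ e = e := by
  obtain ⟨g, -, rfl⟩ := hγ
  exact emb_e h g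

lemma Gam_f {γ : OG Q} (hγ : γ ∈ Gam h) : ap γ f = f := by
  obtain ⟨g, -, rfl⟩ := hγ
  exact emb_f h g

lemma Gam_T {γ : OG Q} (hγ : γ ∈ Gam h) {t : V} (ht : t ∈ perp2 Q e f) : ap γ t ∈ perp2 Q e f := by
  have ht' := mem_perp2.1 ht
  rw [mem_perp2]
  constructor
  · rw [← Gam_e hγ, ap_polar]
    exact ht'.1
  · rw [← Gam_f hγ, ap_polar]
    exact ht'.2

lemma Gam_le [FiniteDimensional F V] : Gam h ≤ siegelE Q := by
  rintro _ ⟨g, hg, rfl⟩
  exact emb_mem h hg

variable [FiniteDimensional F V] (hQ : Nondeg Q)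

lemma rr_mem_Gam (h : IsHyp Q e f) {a b : V} (ha : a ∈ perp2 Q e f) (hb : b ∈ perp2 Q e f) (hQa : Q a = 0)
    (hab : polar Q a b = 0) : rr hQ a b ∈ Gam h := by
  have hT := nondeg_of_nd (h.ND_perp2 (nd_of_nondeg hQ))
  have h1 : polar (restr Q (perp2 Q e f)) (⟨a, ha⟩ : perp2 Q e f) ⟨b, hb⟩ = 0 := by
    rw [polar_restr]
    exact hab
  have h2 := rr_isSiegel hT (e := ⟨a, ha⟩) (u := ⟨b, hb⟩) hQa h1
  refine ⟨_, rr_mem hT hQa h1, ?_⟩
  exact eq_rr_of_isSiegel hQ (emb_isSiegel h h2)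

lemma refl_prod_mem_Gam [Finite F] (h : IsHyp Q e f) (h5 : 5 ≤ finrank F (perp2 Q e f)) {u v : V}
    (hu : u ∈ perp2 Q e f) (hv : v ∈ perp2 Q e f) (hQu : Q u ≠ 0) (hQv : Q v ≠ 0) (huv : Q u = Q v) :
    refl hQ hQv * refl hQ hQu ∈ Gam h := by
  have hT := nondeg_of_nd (h.ND_perp2 (nd_of_nondeg hQ))
  have h1 := refl_prod_mem hT h5 (u := ⟨u, hu⟩) (v := ⟨v, hv⟩) hQu hQv huv
  refine ⟨_, h1, ?_⟩
  rw [map_mul]
  congr 1
  · refine og_ext fun z => ?_
    exact ((emb_isRefl h (refl_isRefl hT hQv)).2 z).trans ((refl_isRefl hQ hQv).2 z).symm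
  · refine og_ext fun z => ?_
    exact ((emb_isRefl h (refl_isRefl hT hQu)).2 z).trans ((refl_isRefl hQ hQu).2 z).symm

end gamma

/-! ### Lifting data -/

lemma Heis.Ss_of_mem {W F : Type*} [AddCommGroup W] [AddCommGroup F] {B : W →+ W →+ F} {L : Subgroup (Heis B)}
    {P : Heis B} (h : P ∈ L) : (P.a, P.b) ∈ Heis.Ss L := ⟨P.t, h⟩

section lift

variable [FiniteDimensional F V] [Finite F] (hQ : Nondeg Q) (fr : LF Q) (H : Subgroup (OG Q))

/-- The lifting data at a regular point. -/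
structure LD where
  uu : OG Q → perp2 Q fr.x fr.xs
  spec : ∀ γ ∈ Gam fr.hyp_x, rr hQ fr.x (uu γ) * γ ∈ H
  uniq : ∀ t : perp2 Q fr.x fr.xs, rr hQ fr.x t ∈ H → t = 0

namespace LD

variable {hQ fr H} (D : LD hQ fr H)

lemma perp_x (t : perp2 Q fr.x fr.xs) : polar Q fr.x t = 0 := (mem_perp2.1 t.2).1
lemma perp_xs (t : perp2 Q fr.x fr.xs) : polar Q fr.xs t = 0 := (mem_perp2.1 t.2).2

include D in
/-- Uniqueness of lifts. -/
lemma lift_eq {γ : OG Q} {u u' : perp2 Q fr.x fr.xs} (h1 : rr hQ fr.x u * γ ∈ H) (h2 : rr hQ fr.x u' * γ ∈ H) :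
    u = u' := by
  have h3 := H.mul_mem h1 (H.inv_mem h2)
  have h4 : rr hQ fr.x u * γ * (rr hQ fr.x u' * γ)⁻¹ = rr hQ fr.x ((u - u' : perp2 Q fr.x fr.xs) : V) := by
    rw [Submodule.coe_sub, rr_sub hQ fr.Qx (perp_x u) (perp_x u')]
    group
  rw [h4] at h3
  exact sub_eq_zero.1 (D.uniq _ h3)

lemma uu_eq {γ : OG Q} (hγ : γ ∈ Gam fr.hyp_x) {u : perp2 Q fr.x fr.xs} (h : rr hQ fr.x u * γ ∈ H) :
    D.uu γ = u := D.lift_eq (D.spec γ hγ) h

/-- The cocycle identity. -/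
lemma uu_mul {γ γ' : OG Q} (hγ : γ ∈ Gam fr.hyp_x) (hγ' : γ' ∈ Gam fr.hyp_x) :
    (D.uu (γ * γ') : V) = D.uu γ + ap γ (D.uu γ') := by
  have h1 := H.mul_mem (D.spec γ hγ) (D.spec γ' hγ')
  have hu := perp_x (D.uu γ')
  have hm := Gam_T hγ (D.uu γ').2
  have hu1 := perp_x (D.uu γ)
  have e1 : rr hQ fr.x (D.uu γ) * γ * (rr hQ fr.x (D.uu γ') * γ')
      = rr hQ fr.x ((D.uu γ + ⟨_, hm⟩ : perp2 Q fr.x fr.xs) : V) * (γ * γ') := by
    have e2 : γ * rr hQ fr.x (D.uu γ') = rr hQ fr.x (ap γ (D.uu γ')) * γ := by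
      rw [rr_mul_of_fix hQ γ fr.Qx hu, Gam_e hγ]
    rw [Submodule.coe_add, rr_add hQ fr.Qx hu1 (mem_perp2.1 hm).1, mul_assoc, ← mul_assoc γ, e2]
    group
  rw [e1] at h1
  have := D.uu_eq (mul_mem hγ hγ') h1
  rw [this]
  rfl

/-- The linear functional part of the cocycle. -/
noncomputable def cc (γ : OG Q) : F := polar Q fr.y (D.uu γ)

lemma cc_mul {γ γ' : OG Q} (hγ : γ ∈ Gam fr.hyp_x) (hγ' : γ' ∈ Gam fr.hyp_x) (hy : ap γ fr.y = fr.y) :
    D.cc (γ * γ') = D.cc γ + D.cc γ' := by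
  rw [cc, D.uu_mul hγ hγ', polar_add_right]
  congr 1
  conv_lhs => rw [← hy]
  rw [ap_polar]
  rfl

lemma cc_one : D.cc 1 = 0 := by
  have h1 := D.cc_mul (γ := 1) (γ' := 1) (one_mem _) (one_mem _) rfl
  rw [mul_one] at h1
  simpa using h1

lemma cc_inv {γ : OG Q} (hγ : γ ∈ Gam fr.hyp_x) (hy : ap γ fr.y = fr.y) : D.cc γ⁻¹ = -D.cc γ := by
  have h1 := D.cc_mul hγ (inv_mem hγ) hy
  rw [mul_inv_cancel, cc_one] at h1
  linear_combination -h1

lemma cc_conj {γ γ' : OG Q} (hγ : γ ∈ Gam fr.hyp_x) (hγ' : γ' ∈ Gam fr.hyp_x) (hy : ap γ fr.y = fr.y)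
    (hy' : ap γ' fr.y = fr.y) : D.cc (γ * γ' * γ⁻¹) = D.cc γ' := by
  have h1 : ap (γ * γ') fr.y = fr.y := by rw [ap_mul, hy', hy]
  rw [D.cc_mul (mul_mem hγ hγ') (inv_mem hγ) h1, D.cc_mul hγ hγ' hy, D.cc_inv hγ hy]
  ring

lemma y_T : fr.y ∈ perp2 Q fr.x fr.xs := fr.y_mem
lemma W_T (a : fr.W) : (a : V) ∈ perp2 Q fr.x fr.xs := mem_perp2.2 ⟨fr.x_W a, fr.xs_W a⟩

/-- Root elements at `y`. -/
lemma rry_mem (v : fr.W) : rr hQ fr.y v ∈ Gam fr.hyp_x :=
  rr_mem_Gam hQ fr.hyp_x fr.y_mem (W_T v) fr.Qy (fr.y_W v)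

lemma rry_fix (v : fr.W) : ap (rr hQ fr.y v) fr.y = fr.y := by
  rw [rr_apply hQ fr.Qy (fr.y_W v), fr.yy, fr.y_W]
  simp

/-- The component along `ys`. -/
noncomputable def CC (v : fr.W) : F := D.cc (rr hQ fr.y v)

lemma CC_add (v v' : fr.W) : D.CC (v + v') = D.CC v + D.CC v' := by
  rw [CC, Submodule.coe_add, rr_add hQ fr.Qy (fr.y_W v) (fr.y_W v'), D.cc_mul (rry_mem (hQ := hQ) v) (rry_mem (hQ := hQ) v') (rry_fix (hQ := hQ) v)]
  rfl

lemma CC_inv {γ : OG Q} (hγ : γ ∈ Gam fr.hyp_x) (hy : ap γ fr.y = fr.y) {v v' : fr.W}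
    (hv : ap γ v = v') : D.CC v' = D.CC v := by
  have h1 := D.cc_conj hγ (rry_mem (hQ := hQ) v) hy (rry_fix (hQ := hQ) v)
  rw [rr_conj hQ γ fr.Qy (fr.y_W v), hy, hv] at h1
  exact h1

include hQ in
/-- A vector of the complement, non-zero, orthogonal to a hyperbolic pair of the complement. -/
lemma exists_perp_pair (hd : 3 ≤ finrank F fr.W) {e : fr.W} (he0 : e ≠ 0) (he : Q e = 0) :
    ∃ es b : fr.W, Q es = 0 ∧ polar Q (e : V) es = 1 ∧ polar Q (e : V) b = 0 ∧ polar Q (es : V) b = 0 ∧ b ≠ 0 := by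
  have hnd := fr.nd_W (nd_of_nondeg hQ)
  obtain ⟨es, hes⟩ := exists_hyp_partner hnd he0 he
  have h1 := hes.finrank_perp2
  have h2 : 0 < finrank F (perp2 (restr Q fr.W) e es) := by omega
  have : Nontrivial (perp2 (restr Q fr.W) e es) := Module.nontrivial_of_finrank_pos h2
  obtain ⟨b, hb⟩ := exists_ne (0 : perp2 (restr Q fr.W) e es)
  have hb' := mem_perp2.1 b.2
  rw [polar_restr, polar_restr] at hb'
  refine ⟨es, b, hes.Qw, ?_, hb'.1, hb'.2, fun h0 => hb (Subtype.ext h0)⟩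
  have := hes.vw
  rwa [polar_restr] at this

include hQ in
lemma nd_W' (a : fr.W) (ha : ∀ z : fr.W, polar Q (a : V) z = 0) : a = 0 := by
  refine fr.nd_W (nd_of_nondeg hQ) a fun z => ?_
  rw [polar_restr]
  exact ha z

/-- The component along `ys` vanishes on singular vectors. -/
lemma CC_sing (hd : 3 ≤ finrank F fr.W) {e : fr.W} (he : Q e = 0) : D.CC e = 0 := by
  by_cases he0 : e = 0
  · subst he0
    have := D.CC_add 0 0
    rw [add_zero] at this
    simpa using this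
  obtain ⟨es, b, hes, h1, h2, h3, hb0⟩ := exists_perp_pair (hQ := hQ) hd he0 he
  have hind : Ind (F := F) (e : V) (b : V) := by
    refine ⟨fun h => hb0 (Subtype.ext h), fun c hc => ?_⟩
    have h4 : polar Q (es : V) e = 1 := by rw [polar_comm]; exact h1
    rw [hc, polar_smul_r, h3, mul_zero] at h4
    exact zero_ne_one h4
  -- find `v₁`
  obtain ⟨v₁, hv1, hv2⟩ : ∃ v₁ : fr.W, polar Q (e : V) v₁ = 0 ∧ polar Q (b : V) v₁ = -1 := by
    have hnd := fr.nd_W (nd_of_nondeg hQ)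
    have hind' : Ind (F := F) (e : fr.W) b := by
      refine ⟨hb0, fun c hc => ?_⟩
      apply hind.2 c
      rw [hc]
      rfl
    obtain ⟨z, hz1, hz2⟩ := exists_two_values hnd hind' 0 (-1)
    exact ⟨z, by rwa [polar_restr] at hz1, by rwa [polar_restr] at hz2⟩
  have hγ : rr hQ (e : V) b ∈ Gam fr.hyp_x := rr_mem_Gam hQ fr.hyp_x (W_T e) (W_T b) he h2
  have hy : ap (rr hQ (e : V) b) fr.y = fr.y := by
    rw [rr_apply hQ he h2, fr.y_W, fr.y_W]
    simp
  have hv : ap (rr hQ (e : V) b) v₁ = ((v₁ + e : fr.W) : V) := by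
    rw [rr_apply hQ he h2, polar_comm Q (v₁ : V) e, hv1, polar_comm Q (v₁ : V) b, hv2, Submodule.coe_add]
    simp
  have h4 := D.CC_inv hγ hy hv
  rw [D.CC_add] at h4
  simpa using h4

lemma CC_zero (hd : 3 ≤ finrank F fr.W) (v : fr.W) : D.CC v = 0 := by
  have hnd := fr.nd_W (nd_of_nondeg hQ)
  obtain ⟨a, ha0, ha⟩ := exists_singular (restr Q fr.W) hd
  obtain ⟨b, hb⟩ := exists_hyp_partner hnd ha0 ha
  refine sing_induct hb (P := fun v => D.CC v = 0) (fun v hv => D.CC_sing hd hv) (fun u v hu hv => ?_) v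
  rw [D.CC_add, hu, hv, add_zero]

include D in
/-- The graph: existence. -/
lemma exists_S (hd : 3 ≤ finrank F fr.W) (v : fr.W) : ∃ a : fr.W, (a, v) ∈ Heis.Ss (fr.L hQ H) := by
  set u := D.uu (rr hQ fr.y v) with hu
  have h0 : polar Q fr.y u = 0 := D.CC_zero hd v
  have hmem : (u : V) - polar Q fr.ys u • fr.y ∈ fr.W := by
    rw [fr.mem_W]
    refine ⟨?_, ?_, ?_, ?_⟩
    · rw [polar_sub_right, polar_smul_r, perp_x, fr.xy]; ring
    · rw [polar_sub_right, polar_smul_r, h0, fr.yy]; ring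
    · rw [polar_sub_right, polar_smul_r, perp_xs, fr.xsy]; ring
    · rw [polar_sub_right, polar_smul_r, fr.sy]; ring
  refine ⟨⟨_, hmem⟩, polar Q fr.ys u, ?_⟩
  rw [LF.mem_L, LF.r_apply]
  simp only [sub_add_cancel]
  exact D.spec _ (rry_mem (hQ := hQ) v)

include D in
/-- The graph: uniqueness. -/
lemma S_zero {a : fr.W} (h : (a, (0 : fr.W)) ∈ Heis.Ss (fr.L hQ H)) : a = 0 := by
  obtain ⟨t, ht⟩ := h
  rw [LF.mem_L, LF.r_apply] at ht
  simp only [ZeroMemClass.coe_zero, rr_zero, mul_one] at ht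
  have hmem : (a : V) + t • fr.y ∈ perp2 Q fr.x fr.xs := (perp2 Q fr.x fr.xs).add_mem (W_T a)
    ((perp2 Q fr.x fr.xs).smul_mem _ fr.y_mem)
  have h1 := D.uniq ⟨_, hmem⟩ ht
  have h2 : (a : V) + t • fr.y = 0 := congrArg Subtype.val h1
  have h3 : polar Q fr.ys ((a : V) + t • fr.y) = t := by
    rw [polar_add_right, polar_smul_r, fr.ys_W, fr.sy]; ring
  rw [h2, polar_zero_right] at h3
  rw [← h3, zero_smul, add_zero] at h2
  exact Subtype.ext h2

include D in
lemma S_unique {a a' b : fr.W} (h : (a, b) ∈ Heis.Ss (fr.L hQ H)) (h' : (a', b) ∈ Heis.Ss (fr.L hQ H)) : a = a' := by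
  have h1 := (Heis.Ss (fr.L hQ H)).sub_mem h h'
  simp only [Prod.mk_sub_mk, sub_self] at h1
  exact sub_eq_zero.1 (D.S_zero h1)

/-- Conjugation of the graph. -/
lemma S_conj {γ : OG Q} (hγ : γ ∈ Gam fr.hyp_x) (hy : ap γ fr.y = fr.y) (hW : ∀ a : fr.W, ap γ a ∈ fr.W)
    {a b : fr.W} (h : (a, b) ∈ Heis.Ss (fr.L hQ H)) :
    ((⟨_, hW a⟩ : fr.W) - D.cc γ • (⟨_, hW b⟩ : fr.W), (⟨_, hW b⟩ : fr.W)) ∈ Heis.Ss (fr.L hQ H) := by
  obtain ⟨t, ht⟩ := h
  set u := D.uu γ with hu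
  set c := D.cc γ with hc
  have hcu : polar Q fr.y u = c := rfl
  have hmem : (u : V) - c • fr.ys - polar Q fr.ys u • fr.y ∈ fr.W := by
    rw [fr.mem_W]
    refine ⟨?_, ?_, ?_, ?_⟩
    · simp only [polar_sub_right, polar_smul_r, perp_x, fr.xy, fr.xys]; ring
    · simp only [polar_sub_right, polar_smul_r, hcu, fr.yy, fr.yys]; ring
    · simp only [polar_sub_right, polar_smul_r, perp_xs, fr.xsy, fr.xsys]; ring
    · simp only [polar_sub_right, polar_smul_r, fr.ysys, fr.sy]; ring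
  set a₀ : fr.W := ⟨_, hmem⟩ with ha₀
  have hsplit : rr hQ fr.x u = fr.r hQ ⟨a₀, 0, polar Q fr.ys u⟩ * rr hQ fr.x (c • fr.ys) := by
    rw [LF.r_apply]
    simp only [ZeroMemClass.coe_zero, rr_zero, mul_one]
    rw [← rr_add hQ fr.Qx (fr.perp_xy _ _) (by rw [polar_smul_r, fr.xys, mul_zero])]
    congr 1
    simp only [ha₀]
    abel
  have h1 := D.spec γ hγ
  have h2 := H.mul_mem (H.mul_mem h1 ht) (H.inv_mem h1)
  have e1 : rr hQ fr.x u * γ * fr.r hQ ⟨a, b, t⟩ * (rr hQ fr.x u * γ)⁻¹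
      = fr.r hQ ⟨a₀, 0, polar Q fr.ys u⟩ * (rr hQ fr.x (c • fr.ys) * (γ * fr.r hQ ⟨a, b, t⟩ * γ⁻¹) * (rr hQ fr.x (c • fr.ys))⁻¹)
        * (fr.r hQ ⟨a₀, 0, polar Q fr.ys u⟩)⁻¹ := by
    rw [hsplit]
    group
  rw [e1, fr.conj₃ hQ γ (Gam_e hγ) hy hW, fr.conj₁, ← map_inv, ← map_mul, ← map_mul] at h2
  have h3 := Heis.Ss_of_mem (L := fr.L hQ H) h2
  convert h3 using 2
  · simp only [Heis.mul_a, Heis.inv_a]
    abel
  · simp only [Heis.mul_b, Heis.inv_b]
    abel

/-- From an eigenvector to a special point. -/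
theorem inA_of_eigen {v : fr.W} (hv : v ≠ 0) {τ : F} (h : (τ • v, v) ∈ Heis.Ss (fr.L hQ H)) :
    InA hQ H (τ • fr.x + fr.y) := by
  obtain ⟨t, ht⟩ := h
  rw [LF.mem_L] at ht
  set s := -(τ * Q v) - t with hs
  have e1 := fr.rr_tau hQ τ v s
  have e2 : (⟨τ • v, v, -(τ * Q v) - s⟩ : Heis fr.B) = ⟨τ • v, v, t⟩ := by
    ext
    · rfl
    · rfl
    · simp only [hs]
      ring
  rw [e2] at e1
  have ht' : rr hQ (τ • fr.x + fr.y) ((v : V) + s • fr.x) ∈ H := by
    rw [e1]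
    exact ht
  have hv0 : (v : V) ≠ 0 := fun h => hv (Subtype.ext h)
  refine ⟨?_, ?_, (v : V) + s • fr.x, ?_, ?_, ht'⟩
  · rw [Q_add, Q_smul, fr.Qx, fr.Qy, polar_smul_l, fr.xy]; ring
  · intro h0
    have h1 : polar Q (τ • fr.x + fr.y) fr.ys = 1 := by
      rw [polar_add_left, polar_smul_l, fr.xys, fr.yys]; ring
    rw [h0, polar_zero_left] at h1
    exact zero_ne_one h1
  · rw [polar_add_left, polar_smul_l, polar_add_right, polar_smul_r, polar_add_right, polar_smul_r, fr.x_W, fr.y_W,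
      fr.xx, fr.yx]
    ring
  · intro c hc
    have h1 : polar Q fr.ys ((v : V) + s • fr.x) = c * polar Q fr.ys (τ • fr.x + fr.y) := by
      rw [hc, polar_smul_r]
    rw [polar_add_right, polar_smul_r, fr.ys_W, fr.ysx, polar_add_right, polar_smul_r, fr.ysx, fr.sy] at h1
    have hc0 : c = 0 := by linear_combination -h1
    rw [hc0, zero_smul] at hc
    have h2 : polar Q fr.xs ((v : V) + s • fr.x) = 0 := by rw [hc, polar_zero_right]
    rw [polar_add_right, polar_smul_r, fr.xs_W, fr.sx] at h2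
    have hs0 : s = 0 := by linear_combination h2
    rw [hs0, zero_smul, add_zero] at hc
    exact hv0 hc

/-- Elements fixing the frame preserve the complement. -/
lemma fixW {γ : OG Q} (hγ : γ ∈ Gam fr.hyp_x) (hy : ap γ fr.y = fr.y) (hys : ap γ fr.ys = fr.ys) (a : fr.W) :
    ap γ a ∈ fr.W := by
  have ha := fr.mem_W.1 a.2
  rw [fr.mem_W]
  refine ⟨?_, ?_, ?_, ?_⟩
  · rw [← Gam_e hγ, ap_polar]; exact ha.1
  · rw [← hy, ap_polar]; exact ha.2.1
  · rw [← Gam_f hγ, ap_polar]; exact ha.2.2.1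
  · rw [← hys, ap_polar]; exact ha.2.2.2

/-- Root elements of the complement. -/
lemma rrW_mem {e b : fr.W} (he : Q e = 0) (h : polar Q (e : V) b = 0) : rr hQ (e : V) b ∈ Gam fr.hyp_x :=
  rr_mem_Gam hQ fr.hyp_x (W_T e) (W_T b) he h

lemma rrW_fix {e b : fr.W} (he : Q e = 0) (h : polar Q (e : V) b = 0) {z : V} (h1 : polar Q z e = 0)
    (h2 : polar Q z b = 0) : ap (rr hQ (e : V) b) z = z := by
  rw [rr_apply hQ he h, h1, h2]
  simp

/-- An eigenvector from the vanishing of the functional. -/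
lemma eigen_of_cc_zero (hd : 3 ≤ finrank F fr.W) {e : fr.W} (he0 : e ≠ 0) (he : Q e = 0)
    (hc : ∀ b : fr.W, polar Q (e : V) b = 0 → D.cc (rr hQ (e : V) b) = 0) :
    ∃ τ : F, (τ • e, e) ∈ Heis.Ss (fr.L hQ H) := by
  obtain ⟨a, ha⟩ := D.exists_S hd e
  obtain ⟨es, b₀, hes, h1, h2, h3, hb0⟩ := exists_perp_pair (hQ := hQ) hd he0 he
  have hee : polar Q (e : V) e = 0 := polar_self_of_singular he
  have hes1 : polar Q (es : V) e = 1 := by rw [polar_comm]; exact h1
  have key : ∀ b : fr.W, polar Q (e : V) b = 0 →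
      polar Q (a : V) e • (b : V) = (polar Q (a : V) b + Q b * polar Q (a : V) e) • (e : V) := by
    intro b hb
    have hγ := rrW_mem (hQ := hQ) he hb
    have hy : ap (rr hQ (e : V) b) fr.y = fr.y := rrW_fix he hb (fr.y_W e) (fr.y_W b)
    have hys : ap (rr hQ (e : V) b) fr.ys = fr.ys := rrW_fix he hb (fr.ys_W e) (fr.ys_W b)
    have hW := fixW hγ hy hys
    have h4 := D.S_conj hγ hy hW ha
    rw [hc b hb, zero_smul, sub_zero] at h4
    have h5 : (⟨_, hW e⟩ : fr.W) = e := Subtype.ext (rrW_fix he hb hee hb)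
    rw [h5] at h4
    have h6 := D.S_unique h4 ha
    have h7 := congrArg Subtype.val h6
    simp only at h7
    rw [rr_apply hQ he hb] at h7
    linear_combination (norm := module) h7
  have hae : polar Q (a : V) e = 0 := by
    have h4 := key b₀ h2
    have h5 := congrArg (polar Q (es : V)) h4
    rw [polar_smul_r, polar_smul_r, h3, hes1, mul_zero, mul_one] at h5
    have h6 := h5.symm
    rw [h6, zero_smul] at h4
    exact (smul_eq_zero.1 h4).resolve_right (fun h => hb0 (Subtype.ext h))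
  have hab : ∀ b : fr.W, polar Q (e : V) b = 0 → polar Q (a : V) b = 0 := by
    intro b hb
    have h4 := key b hb
    rw [hae, zero_smul, mul_zero, add_zero] at h4
    exact (smul_eq_zero.1 h4.symm).resolve_right (fun h => he0 (Subtype.ext h))
  refine ⟨polar Q (es : V) a, ?_⟩
  have hfinal : a = polar Q (es : V) a • e := by
    rw [← sub_eq_zero]
    apply nd_W' (hQ := hQ)
    intro z
    have hz1 : polar Q (e : V) ((z : V) - polar Q (e : V) z • es) = 0 := by
      rw [polar_sub_right, polar_smul_r, h1]; ring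
    have hmem : (z : V) - polar Q (e : V) z • es ∈ fr.W :=
      fr.W.sub_mem z.2 (fr.W.smul_mem _ es.2)
    have hz2 := hab ⟨_, hmem⟩ hz1
    simp only at hz2
    rw [polar_sub_right, polar_smul_r] at hz2
    rw [Submodule.coe_sub, Submodule.coe_smul, polar_sub_left, polar_smul_l, polar_comm Q (es : V) a]
    linear_combination hz2
  rw [← hfinal]
  exact ha

/-- A vector orthogonal to two vectors and not in their span. -/
lemma exists_perp_not_span (hd : 5 ≤ finrank F fr.W) (e b : fr.W) :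
    ∃ v : fr.W, polar Q (e : V) v = 0 ∧ polar Q (b : V) v = 0 ∧ v ∉ Submodule.span F ({e, b} : Set fr.W) := by
  classical
  let f : fr.W →ₗ[F] F × F := (polarBilin (restr Q fr.W) e).prod (polarBilin (restr Q fr.W) b)
  have h1 := LinearMap.finrank_range_add_finrank_ker f
  have h2 : finrank F (LinearMap.range f) ≤ finrank F (F × F) := Submodule.finrank_le _
  have h3 : finrank F (F × F) = 2 := by simp
  have h4 : finrank F (Submodule.span F (({e, b} : Finset fr.W) : Set fr.W)) ≤ 2 :=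
    (finrank_span_finset_le_card _).trans Finset.card_le_two
  rw [Finset.coe_pair] at h4
  by_contra hno
  push Not at hno
  have h5 : LinearMap.ker f ≤ Submodule.span F ({e, b} : Set fr.W) := by
    intro v hv
    have hv' := LinearMap.mem_ker.1 hv
    have h6 : polar (restr Q fr.W) e v = 0 := congrArg Prod.fst hv'
    have h7 : polar (restr Q fr.W) b v = 0 := congrArg Prod.snd hv'
    rw [polar_restr] at h6 h7
    exact hno v h6 h7
  have h6 := Submodule.finrank_mono h5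
  omega

/-- The functional vanishes on root elements of the complement, in large dimension. -/
lemma cc_zero_large (hd : 5 ≤ finrank F fr.W) {e b : fr.W} (he : Q e = 0) (hb : polar Q (e : V) b = 0) :
    D.cc (rr hQ (e : V) b) = 0 := by
  obtain ⟨v, hv1, hv2, hv3⟩ := exists_perp_not_span hd e b
  by_contra hc
  obtain ⟨a, ha⟩ := D.exists_S (by omega) v
  have hγ := rrW_mem (hQ := hQ) he hb
  have hy : ap (rr hQ (e : V) b) fr.y = fr.y := rrW_fix he hb (fr.y_W e) (fr.y_W b)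
  have hys : ap (rr hQ (e : V) b) fr.ys = fr.ys := rrW_fix he hb (fr.ys_W e) (fr.ys_W b)
  have hW := fixW hγ hy hys
  have h4 := D.S_conj hγ hy hW ha
  have h5 : (⟨_, hW v⟩ : fr.W) = v := Subtype.ext (rrW_fix he hb (by rw [polar_comm]; exact hv1)
    (by rw [polar_comm]; exact hv2))
  rw [h5] at h4
  have h6 := D.S_unique h4 ha
  apply hv3
  have h7 := congrArg Subtype.val h6
  simp only [Submodule.coe_sub, Submodule.coe_smul] at h7
  rw [rr_apply hQ he hb] at h7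
  set c := D.cc (rr hQ (e : V) b) with hcc
  have h8 : v = c⁻¹ • (polar Q (a : V) e • b - (polar Q (a : V) b + Q b * polar Q (a : V) e) • e) := by
    apply Subtype.ext
    have h9 : c • (v : V) = polar Q (a : V) e • (b : V) - (polar Q (a : V) b + Q b * polar Q (a : V) e) • (e : V) := by
      linear_combination (norm := module) -h7
    simp only [Submodule.coe_smul, Submodule.coe_sub]
    rw [← h9, smul_smul, inv_mul_cancel₀ hc, one_smul]
  rw [h8]
  apply Submodule.smul_mem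
  apply Submodule.sub_mem
  · exact Submodule.smul_mem _ _ (Submodule.subset_span (by simp))
  · exact Submodule.smul_mem _ _ (Submodule.subset_span (by simp))

end LD

end lift

end Cfsg.Agent.Lib.OmIdx
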