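import Mathlib
import Cfsg.Agent.Lib.OmIdxG

/-!
# Minimal index in orthogonal groups: eigenvectors in small dimension, and the special point of a line
-/

set_option autoImplicit false
set_option linter.unusedSectionVars false
set_option linter.unusedVariables false

namespace Cfsg.Agent.Lib.OmIdx

open Module QuadraticMap Cfsg.Agent.Lib.OrthoBasic Cfsg.Agent.Lib.OrthoSiegel Cfsg.Agent.Lib.OrthoGen
  Cfsg.Agent.Lib.QuadFF Cfsg.Agent.Lib.OmGeo

variable {F : Type*} [Field F] {V : Type*} [AddCommGroup V] [Module F V] {Q : QuadraticForm F V}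

section rot

variable {U : Type*} [AddCommGroup U] [Module F U] [FiniteDimensional F U] {Q' : QuadraticForm F U}

lemma Ind_of {x y : U} (h : ∀ a b : F, a • x + b • y = 0 → a = 0 ∧ b = 0) : Ind (F := F) x y := by
  refine ⟨fun h0 => ?_, fun c hc => ?_⟩
  · have := h 0 1 (by simp [h0])
    exact one_ne_zero this.2
  · have := h 1 (-c) (by rw [hc]; module)
    exact one_ne_zero this.1

lemma perp_pair_zero (hnd : ND Q') (h2 : finrank F U = 2) {p p' : U} (hi : Ind (F := F) p p') {z : U}
    (h1 : polar Q' p z = 0) (h2' : polar Q' p' z = 0) : z = 0 := by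
  let f : U →ₗ[F] F × F := (polarBilin Q' p).prod (polarBilin Q' p')
  have hs : Function.Surjective f := by
    rintro ⟨a, b⟩
    obtain ⟨z, hz1, hz2⟩ := exists_two_values hnd hi a b
    exact ⟨z, Prod.ext hz1 hz2⟩
  have hfr : finrank F U = finrank F (F × F) := by simp [h2]
  have hinj := (LinearMap.injective_iff_surjective_of_finrank_eq_finrank hfr).2 hs
  exact hinj (by rw [map_zero]; exact Prod.ext h1 h2')

lemma exists_rot_pair (hnd : ND Q') (h2 : finrank F U = 2) (han : ∀ z, Q' z = 0 → z = 0) :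
    ∃ u v : U, Q' u ≠ 0 ∧ Q' u = Q' v ∧ Ind (F := F) u v := by
  have : Nontrivial U := Module.nontrivial_of_finrank_pos (R := F) (by omega)
  obtain ⟨u, hu⟩ := exists_ne (0 : U)
  obtain ⟨z', hz'⟩ : ∃ z' : U, ∀ c : F, z' ≠ c • u := by
    by_contra hno
    push Not at hno
    have h3 : (⊤ : Submodule F U) ≤ Submodule.span F {u} := by
      intro z _
      obtain ⟨c, hc⟩ := hno z
      rw [hc]
      exact Submodule.smul_mem _ _ (Submodule.subset_span rfl)
    have h4 := Submodule.finrank_mono h3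
    rw [finrank_top, finrank_span_singleton hu] at h4
    omega
  have hQu : Q' u ≠ 0 := fun h => hu (han _ h)
  have hind' : Ind (F := F) u z' := by
    refine Ind_of fun a b hab => ?_
    by_cases hb : b = 0
    · subst hb
      refine ⟨(smul_eq_zero.1 (by simpa using hab)).resolve_right hu, rfl⟩
    · exfalso
      apply hz' (-(b⁻¹ * a))
      have h3 : z' = b⁻¹ • (b • z') := by rw [smul_smul, inv_mul_cancel₀ hb, one_smul]
      rw [h3, eq_neg_of_add_eq_zero_right hab, smul_neg, neg_smul, smul_smul]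
  -- a vector not orthogonal to `u` and independent of it
  obtain ⟨z, hzp, hzi⟩ : ∃ z : U, polar Q' u z ≠ 0 ∧ Ind (F := F) u z := by
    by_cases hc : polar Q' u z' = 0
    · refine ⟨z' + u, ?_, ?_⟩
      · rw [polar_add_right, hc, zero_add]
        intro h3
        exact hu (perp_pair_zero hnd h2 hind' h3 (by rw [polar_comm]; exact hc))
      · refine Ind_of fun a b hab => ?_
        have h3 : (a + b) • u + b • z' = 0 := by rw [← hab]; module
        obtain ⟨h4, h5⟩ := hind'.smul_add h3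
        subst h5
        exact ⟨by simpa using h4, rfl⟩
    · exact ⟨z', hc, hind'⟩
  have hz0 : z ≠ 0 := hzi.1
  have hQz : Q' z ≠ 0 := fun h => hz0 (han _ h)
  refine ⟨u, reflLin Q' z u, hQu, (reflLin_Q Q' z hQz u).symm, ?_⟩
  rw [reflLin_apply]
  refine Ind_of fun a b hab => ?_
  have h3 : (a + b) • u + (-(b * (polar Q' u z / Q' z))) • z = 0 := by rw [← hab]; module
  obtain ⟨h4, h5⟩ := hzi.smul_add h3
  have h6 : polar Q' u z / Q' z ≠ 0 := div_ne_zero hzp hQz
  have hb : b = 0 := by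
    rw [neg_eq_zero] at h5
    exact (mul_eq_zero.1 h5).resolve_right h6
  subst hb
  exact ⟨by simpa using h4, rfl⟩

end rot

section lift

variable [FiniteDimensional F V] [Finite F] {hQ : Nondeg Q} {fr : LF Q} {H : Subgroup (OG Q)} (D : LD hQ fr H)

namespace LD

/-- The functional vanishes on root elements of a complement of dimension four with anisotropic kernel. -/
lemma cc_zero_four (hd : finrank F fr.W = 4)
    (hA : ∀ e es z : fr.W, Q e = 0 → Q es = 0 → polar Q (e : V) es = 1 → polar Q (e : V) z = 0 →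
      polar Q (es : V) z = 0 → Q z = 0 → z = 0)
    {e b : fr.W} (he0 : e ≠ 0) (he : Q e = 0) (hb : polar Q (e : V) b = 0) : D.cc (rr hQ (e : V) b) = 0 := by
  classical
  have hfin : Finite V := Module.finite_of_finite F
  obtain ⟨es, b₀, hes, h1, h2, h3, hb0⟩ := exists_perp_pair (hQ := hQ) (by omega) he0 he
  have hnd := fr.nd_W (nd_of_nondeg hQ)
  have hE : IsHyp (restr Q fr.W) e es := ⟨he, hes, by rw [polar_restr]; exact h1⟩
  set U := perp2 (restr Q fr.W) e es with hU
  have hfrU : finrank F U = 2 := by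
    have h0 : finrank F fr.W = 2 + finrank F U := hE.finrank_perp2
    omega
  have hnd' := hE.ND_perp2 hnd
  have han : ∀ z : U, restr (restr Q fr.W) U z = 0 → z = 0 := by
    intro z hz
    have hz' := mem_perp2.1 z.2
    rw [polar_restr, polar_restr] at hz'
    have h4 := hA e es z he hes h1 hz'.1 hz'.2 hz
    exact Subtype.ext h4
  obtain ⟨u, v, hu, huv, hi⟩ := exists_rot_pair hnd' hfrU han
  have hQu : Q ((u : fr.W) : V) ≠ 0 := hu
  have hQv : Q ((v : fr.W) : V) ≠ 0 := by
    intro h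
    apply hu
    rw [huv]
    exact h
  have huv' : Q ((u : fr.W) : V) = Q ((v : fr.W) : V) := huv
  set γ := refl hQ hQv * refl hQ hQu with hγdef
  have hγ : γ ∈ Gam fr.hyp_x := by
    refine refl_prod_mem_Gam hQ fr.hyp_x ?_ (W_T _) (W_T _) hQu hQv huv'
    rw [fr.finrank_T_x]
    omega
  have hap : ∀ z : V, ap γ z = ap (refl hQ hQv) (ap (refl hQ hQu) z) := fun z => rfl
  have hfix : ∀ z : V, polar Q z ((u : fr.W) : V) = 0 → polar Q z ((v : fr.W) : V) = 0 → ap γ z = z := by
    intro z h4 h5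
    rw [hap, ap_refl, ap_refl, h4]
    simp [h5]
  have hUm : ∀ z : U, polar Q (e : V) ((z : fr.W) : V) = 0 ∧ polar Q (es : V) ((z : fr.W) : V) = 0 := by
    intro z
    have hz' := mem_perp2.1 z.2
    rwa [polar_restr, polar_restr] at hz'
  have hy : ap γ fr.y = fr.y := hfix _ (fr.y_W _) (fr.y_W _)
  have hys : ap γ fr.ys = fr.ys := hfix _ (fr.ys_W _) (fr.ys_W _)
  have hγe : ap γ (e : V) = e := hfix _ (hUm u).1 (hUm v).1
  have hγes : ap γ (es : V) = es := hfix _ (hUm u).2 (hUm v).2
  have hW := fixW hγ hy hys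
  have hUU : ∀ z : U, (⟨_, hW z⟩ : fr.W) ∈ U := by
    intro z
    refine mem_perp2.2 ⟨?_, ?_⟩
    · rw [polar_restr]
      change polar Q (e : V) (ap γ _) = 0
      rw [← hγe, ap_polar]
      exact (hUm z).1
    · rw [polar_restr]
      change polar Q (es : V) (ap γ _) = 0
      rw [← hγes, ap_polar]
      exact (hUm z).2
  let f : U → U := fun z => ⟨⟨_, hW z⟩, hUU z⟩ - z
  have hfix0 : ∀ z : U, ap γ ((z : fr.W) : V) = ((z : fr.W) : V) → z = 0 := by
    intro z hz
    rw [hap] at hz
    have h4 : ap (refl hQ hQu) ((z : fr.W) : V) = ap (refl hQ hQv) ((z : fr.W) : V) := by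
      conv_rhs => rw [← hz]
      change _ = (refl hQ hQv : V ≃ₗ[F] V) ((refl hQ hQv : V ≃ₗ[F] V) _)
      rw [(refl_isRefl hQ hQv).2, (refl_isRefl hQ hQv).2, reflLin_invol hQv]
    rw [ap_refl, ap_refl] at h4
    have h5 : (polar Q ((z : fr.W) : V) ((u : fr.W) : V) / Q ((u : fr.W) : V)) • u
        + (-(polar Q ((z : fr.W) : V) ((v : fr.W) : V) / Q ((v : fr.W) : V))) • v = 0 := by
      apply Subtype.ext
      apply Subtype.ext
      simp only [Submodule.coe_add, Submodule.coe_smul, ZeroMemClass.coe_zero]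
      linear_combination (norm := module) -h4
    obtain ⟨h6, h7⟩ := hi.smul_add h5
    have h8 : polar Q ((z : fr.W) : V) ((u : fr.W) : V) = 0 := by
      rcases (div_eq_zero_iff.1 h6) with h | h
      · exact h
      · exact absurd h hQu
    have h9 : polar Q ((z : fr.W) : V) ((v : fr.W) : V) = 0 := by
      rw [neg_eq_zero] at h7
      rcases (div_eq_zero_iff.1 h7) with h | h
      · exact h
      · exact absurd h hQv
    refine perp_pair_zero hnd' hfrU hi ?_ ?_
    · rw [polar_restr, polar_restr, polar_comm]; exact h8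
    · rw [polar_restr, polar_restr, polar_comm]; exact h9
  have hf : Function.Injective f := by
    intro z z' hzz
    have h4 : z - z' = 0 := by
      apply hfix0
      have h5 := congrArg (fun a : U => ((a : fr.W) : V)) hzz
      simp only [f, Submodule.coe_sub] at h5
      simp only [Submodule.coe_sub]
      rw [show ap γ (((z : fr.W) : V) - ((z' : fr.W) : V)) = ap γ ((z : fr.W) : V) - ap γ ((z' : fr.W) : V) from
        map_sub _ _ _]
      linear_combination (norm := module) h5
    exact sub_eq_zero.1 h4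
  have hfs := Finite.injective_iff_surjective.1 hf
  -- reduction to `U`
  have hb₁ : (b : V) - polar Q (es : V) b • (e : V) ∈ fr.W := fr.W.sub_mem b.2 (fr.W.smul_mem _ e.2)
  have hb₂ : (⟨_, hb₁⟩ : fr.W) ∈ U := by
    refine mem_perp2.2 ⟨?_, ?_⟩
    · rw [polar_restr]
      change polar Q (e : V) ((b : V) - _) = 0
      rw [polar_sub_right, polar_smul_r, hb, polar_self_of_singular he]; ring
    · rw [polar_restr]
      change polar Q (es : V) ((b : V) - _) = 0
      have h4 : polar Q (es : V) e = 1 := by rw [polar_comm]; exact h1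
      rw [polar_sub_right, polar_smul_r, h4]; ring
  obtain ⟨z, hz⟩ := hfs ⟨_, hb₂⟩
  have hzb : ap γ ((z : fr.W) : V) - ((z : fr.W) : V) = (b : V) - polar Q (es : V) b • (e : V) := by
    have h5 := congrArg (fun a : U => ((a : fr.W) : V)) hz
    simpa [f] using h5
  have hez := (hUm z).1
  have hez' : polar Q (e : V) (ap γ ((z : fr.W) : V)) = 0 := by
    rw [← hγe, ap_polar]
    exact hez
  have hp : polar Q (e : V) ((b : V) - polar Q (es : V) b • (e : V)) = 0 := by
    rw [polar_sub_right, polar_smul_r, hb, polar_self_of_singular he]; ring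
  have e1 : rr hQ (e : V) b = rr hQ (e : V) (ap γ ((z : fr.W) : V)) * (rr hQ (e : V) ((z : fr.W) : V))⁻¹ := by
    rw [← rr_sub hQ he hez' hez, hzb]
    have := rr_add_smul hQ he hp (polar Q (es : V) b)
    simp only [sub_add_cancel] at this
    exact this
  have e2 : rr hQ (e : V) (ap γ ((z : fr.W) : V)) = γ * rr hQ (e : V) ((z : fr.W) : V) * γ⁻¹ := by
    rw [rr_conj hQ γ he hez, hγe]
  have hr := rrW_mem (hQ := hQ) (fr := fr) (e := e) (b := (z : fr.W)) he hez
  have hrfix : ap (rr hQ (e : V) ((z : fr.W) : V)) fr.y = fr.y := rrW_fix he hez (fr.y_W _) (fr.y_W _)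
  have hconj_mem : γ * rr hQ (e : V) ((z : fr.W) : V) * γ⁻¹ ∈ Gam fr.hyp_x :=
    mul_mem (mul_mem hγ hr) (inv_mem hγ)
  have hconj_fix : ap (γ * rr hQ (e : V) ((z : fr.W) : V) * γ⁻¹) fr.y = fr.y := by
    have h5 : ap γ⁻¹ fr.y = fr.y := by
      conv_lhs => rw [← hy]
      exact ap_inv_self γ fr.y
    rw [ap_mul, ap_mul, h5, hrfix, hy]
  rw [e1, e2, D.cc_mul hconj_mem (inv_mem hr) hconj_fix, D.cc_conj hγ hr hy hrfix, D.cc_inv hr hrfix]
  ring

include D in
/-- The eigenvector for a three-dimensional complement. -/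
lemma eigen_three (hd : finrank F fr.W = 3) :
    ∃ v : fr.W, v ≠ 0 ∧ ∃ τ : F, (τ • v, v) ∈ Heis.Ss (fr.L hQ H) := by
  classical
  have hnd := fr.nd_W (nd_of_nondeg hQ)
  obtain ⟨e, he0, he⟩ := exists_singular (restr Q fr.W) hd.ge
  have he' : Q (e : V) = 0 := he
  obtain ⟨es, w, hes, h1, h2, h3, hw0⟩ := exists_perp_pair (hQ := hQ) hd.ge he0 he'
  have hes1 : polar Q (es : V) e = 1 := by rw [polar_comm]; exact h1
  have hee := polar_self_of_singular he'
  have heses := polar_self_of_singular hes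
  have hE : IsHyp (restr Q fr.W) e es := ⟨he, hes, by rw [polar_restr]; exact h1⟩
  have hfrU : finrank F (perp2 (restr Q fr.W) e es) = 1 := by
    have h0 : finrank F fr.W = 2 + finrank F (perp2 (restr Q fr.W) e es) := hE.finrank_perp2
    omega
  have hwU : w ∈ perp2 (restr Q fr.W) e es := by
    refine mem_perp2.2 ⟨?_, ?_⟩
    · rw [polar_restr]; exact h2
    · rw [polar_restr]; exact h3
  have hw0' : (⟨w, hwU⟩ : perp2 (restr Q fr.W) e es) ≠ 0 := fun h => hw0 (congrArg Subtype.val h)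
  have hspan := (finrank_eq_one_iff_of_nonzero' (⟨w, hwU⟩ : perp2 (restr Q fr.W) e es) hw0').1 hfrU
  have hnd' := hE.ND_perp2 hnd
  -- the norm of `w`
  have hww : polar Q (w : V) w ≠ 0 := by
    intro h0
    apply hw0'
    apply hnd'
    intro z
    obtain ⟨c, hc⟩ := hspan z
    rw [← hc, polar_smul_r, polar_restr, polar_restr]
    change c * polar Q (w : V) w = 0
    rw [h0, mul_zero]
  have hQw : Q (w : V) ≠ 0 := by
    intro h0
    apply hww
    exact polar_self_of_singular h0
  have h2ne : (2 : F) ≠ 0 := by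
    intro h0
    apply hww
    rw [polar_self_eq, h0, zero_mul]
  set δ := Q (w : V) with hδ
  set u₀ : V := (e : V) + δ • (es : V) with hu₀
  set z₀ : V := (e : V) - δ • (es : V) with hz₀
  have hu₀W : u₀ ∈ fr.W := fr.W.add_mem e.2 (fr.W.smul_mem _ es.2)
  have hz₀W : z₀ ∈ fr.W := fr.W.sub_mem e.2 (fr.W.smul_mem _ es.2)
  have hQu₀ : Q u₀ = δ := by
    rw [hu₀, Q_add, Q_smul, he', hes, polar_smul_r, h1]; ring
  have hQu₀0 : Q u₀ ≠ 0 := by rw [hQu₀]; exact hQw
  have hT5 : 5 ≤ finrank F (perp2 Q fr.x fr.xs) := by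
    rw [fr.finrank_T_x]
    omega
  have hTu₀ : u₀ ∈ perp2 Q fr.x fr.xs := LD.W_T ⟨u₀, hu₀W⟩
  have hγ : refl hQ hQw * refl hQ hQu₀0 ∈ Gam fr.hyp_x :=
    refl_prod_mem_Gam hQ fr.hyp_x hT5 hTu₀ (LD.W_T w) hQu₀0 hQw hQu₀
  set γ := refl hQ hQw * refl hQ hQu₀0 with hγdef
  have hap : ∀ z : V, ap γ z = ap (refl hQ hQw) (ap (refl hQ hQu₀0) z) := fun z => rfl
  have hfix : ∀ z : V, polar Q z u₀ = 0 → polar Q z (w : V) = 0 → ap γ z = z := by
    intro z h4 h5
    rw [hap, ap_refl, ap_refl, h4]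
    simp [h5]
  have hWu : ∀ {z : V}, (∀ a : fr.W, polar Q z a = 0) → polar Q z u₀ = 0 := fun h => h ⟨u₀, hu₀W⟩
  have hy : ap γ fr.y = fr.y := hfix _ (hWu (fun a => fr.y_W a)) (fr.y_W _)
  have hys : ap γ fr.ys = fr.ys := hfix _ (hWu (fun a => fr.ys_W a)) (fr.ys_W _)
  have hW := fixW hγ hy hys
  have huw : polar Q u₀ (w : V) = 0 := by
    rw [hu₀, polar_add_left, polar_smul_l, h2, h3]; ring
  have hwu : polar Q (w : V) u₀ = 0 := by rw [polar_comm]; exact huw
  -- `γ` is an involution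
  have hinv : γ * γ = 1 := by
    refine og_ext fun z => ?_
    rw [ap_mul, ap_one, hap, hap]
    have hr : ∀ {x : V} (hx : Q x ≠ 0) (z : V), ap (refl hQ hx) z = reflLin Q x z :=
      fun hx z => (refl_isRefl hQ hx).2 z
    rw [hr, hr, hr, hr, reflLin_comm huw, reflLin_invol hQu₀0, reflLin_invol hQw]
  have hcc : D.cc γ = 0 := by
    have h4 := D.cc_mul hγ hγ hy
    rw [hinv, cc_one] at h4
    have h5 : (2 : F) * D.cc γ = 0 := by linear_combination -h4
    exact (mul_eq_zero.1 h5).resolve_left h2ne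
  obtain ⟨a, ha⟩ := D.exists_S hd.ge ⟨z₀, hz₀W⟩
  have hz₀u : polar Q z₀ u₀ = 0 := by
    rw [hz₀, hu₀]
    simp only [polar_sub_left, polar_add_right, polar_smul_l, polar_smul_r, hee, heses, h1, hes1]
    ring
  have hz₀w : polar Q z₀ (w : V) = 0 := by
    rw [hz₀, polar_sub_left, polar_smul_l, h2, h3]; ring
  have hγz : ap γ z₀ = z₀ := hfix _ hz₀u hz₀w
  have h4 := D.S_conj hγ hy hW ha
  have h5 : (⟨_, hW ⟨z₀, hz₀W⟩⟩ : fr.W) = ⟨z₀, hz₀W⟩ := Subtype.ext hγz
  rw [h5, hcc, zero_smul, sub_zero] at h4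
  have h6 := D.S_unique h4 ha
  have h7 : ap γ (a : V) = a := congrArg Subtype.val h6
  rw [hap] at h7
  have h8 : ap (refl hQ hQu₀0) (a : V) = ap (refl hQ hQw) (a : V) := by
    conv_rhs => rw [← h7]
    change _ = (refl hQ hQw : V ≃ₗ[F] V) ((refl hQ hQw : V ≃ₗ[F] V) _)
    rw [(refl_isRefl hQ hQw).2, (refl_isRefl hQ hQw).2, reflLin_invol hQw]
  rw [ap_refl, ap_refl] at h8
  have h9 : (polar Q (a : V) u₀ / Q u₀) • u₀ = (polar Q (a : V) w / Q (w : V)) • (w : V) := by
    linear_combination (norm := module) -h8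
  have hesu : polar Q (es : V) u₀ = 1 := by
    rw [hu₀, polar_add_right, polar_smul_r, hes1, heses]; ring
  have h10 := congrArg (polar Q (es : V)) h9
  rw [polar_smul_r, polar_smul_r, hesu, h3, mul_one, mul_zero] at h10
  have hau : polar Q (a : V) u₀ = 0 := by
    rcases (div_eq_zero_iff.1 h10) with h | h
    · exact h
    · exact absurd h hQu₀0
  rw [hau, zero_div, zero_smul] at h9
  have haw : polar Q (a : V) (w : V) = 0 := by
    have h11 := (smul_eq_zero.1 h9.symm).resolve_right (fun h => hw0 (Subtype.ext h))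
    rcases (div_eq_zero_iff.1 h11) with h | h
    · exact h
    · exact absurd h hQw
  -- the decomposition of `a`
  have hdec := hE.decomp a
  obtain ⟨c, hc⟩ := hspan ⟨_, hdec⟩
  have hc' : c • (w : V) = (a : V) - polar Q (es : V) a • (e : V) - polar Q (e : V) a • (es : V) := by
    have h11 := congrArg (fun z : perp2 (restr Q fr.W) e es => ((z : fr.W) : V)) hc
    simp only [Submodule.coe_smul, Submodule.coe_sub, polar_restr] at h11
    exact h11
  have hc0 : c = 0 := by
    have h11 := congrArg (fun z => polar Q z (w : V)) hc'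
    simp only [polar_smul_l, polar_sub_left, haw, h2, h3] at h11
    have h12 : c * polar Q (w : V) w = 0 := by linear_combination h11
    exact (mul_eq_zero.1 h12).resolve_right hww
  rw [hc0, zero_smul] at hc'
  have hdec' : (a : V) = polar Q (es : V) a • (e : V) + polar Q (e : V) a • (es : V) := by
    linear_combination (norm := module) -hc'
  have hb : polar Q (e : V) a = -(polar Q (es : V) a * δ) := by
    have h11 := hau
    rw [hu₀, polar_add_right, polar_smul_r, polar_comm Q (a : V) e, polar_comm Q (a : V) es] at h11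
    linear_combination h11
  have hz₀ne : (⟨z₀, hz₀W⟩ : fr.W) ≠ 0 := by
    intro h0
    have h11 : z₀ = 0 := congrArg Subtype.val h0
    have h12 : polar Q (es : V) z₀ = 1 := by
      rw [hz₀, polar_sub_right, polar_smul_r, hes1, heses]; ring
    rw [h11, polar_zero_right] at h12
    exact zero_ne_one h12
  refine ⟨⟨z₀, hz₀W⟩, hz₀ne, polar Q (es : V) a, ?_⟩
  have hfinal : polar Q (es : V) a • (⟨z₀, hz₀W⟩ : fr.W) = a := by
    apply Subtype.ext
    simp only [Submodule.coe_smul]
    have h12 : (a : V) = polar Q (es : V) a • (e : V) + (-(polar Q (es : V) a * δ)) • (es : V) := by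
      rw [← hb]
      exact hdec'
    calc polar Q (es : V) a • z₀ = polar Q (es : V) a • (e : V) + (-(polar Q (es : V) a * δ)) • (es : V) := by
          rw [hz₀]
          module
      _ = a := h12.symm
  rw [hfinal]
  exact ha

include D in
/-- The eigenvector. -/
theorem exists_eigen (hd : 3 ≤ finrank F fr.W)
    (hA : finrank F fr.W = 4 → ∀ e es z : fr.W, Q e = 0 → Q es = 0 → polar Q (e : V) es = 1 →
      polar Q (e : V) z = 0 → polar Q (es : V) z = 0 → Q z = 0 → z = 0) :
    ∃ v : fr.W, v ≠ 0 ∧ ∃ τ : F, (τ • v, v) ∈ Heis.Ss (fr.L hQ H) := by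
  by_cases h3 : finrank F fr.W = 3
  · exact D.eigen_three h3
  obtain ⟨e, he0, he⟩ := exists_singular (restr Q fr.W) hd
  have he' : Q (e : V) = 0 := he
  refine ⟨e, he0, D.eigen_of_cc_zero hd he0 he' fun b hb => ?_⟩
  by_cases h4 : finrank F fr.W = 4
  · exact D.cc_zero_four h4 (hA h4) he0 he' hb
  · exact D.cc_zero_large (by omega) he' hb

end LD

end lift

section main

variable [FiniteDimensional F V] [Finite F] (hQ : Nondeg Q) {H : Subgroup (OG Q)}

/-- The construction of the lifting data at a regular point. -/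
theorem exists_LD (fr : LF Q) (hm : H.relIndex (siegelE Q) < (Nat.card F + 2) * (Nat.card F * Nat.card fr.W))
    (hx : ¬ InA hQ H fr.x) : Nonempty (LD hQ fr H) := by
  classical
  have hfin : Finite V := Module.finite_of_finite F
  have : Finite (OG (restr Q (perp2 Q fr.x fr.xs))) := finite_OG
  have huniq : ∀ t : perp2 Q fr.x fr.xs, rr hQ fr.x t ∈ H → t = 0 := by
    intro t ht
    by_contra ht0
    apply hx
    refine ⟨fr.Qx, fr.x_ne, t, (mem_perp2.1 t.2).1, fun c hc => ?_, ht⟩
    have h1 := (mem_perp2.1 t.2).2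
    rw [hc, polar_smul_r, fr.sx, mul_one] at h1
    rw [h1, zero_smul] at hc
    exact ht0 (Subtype.ext hc)
  have hY : Nat.card (YY hQ fr.hyp_x H) = 1 := by
    rw [Nat.card_eq_one_iff_unique]
    exact ⟨⟨fun a b => Subtype.ext ((huniq _ a.2).trans (huniq _ b.2).symm)⟩, ⟨0⟩⟩
  have h1 := lemmaF hQ fr.hyp_x H
  rw [hY, mul_one, fr.card_T_x] at h1
  have hq2 : 2 ≤ Nat.card F := Finite.one_lt_card
  have hw : 0 < Nat.card fr.W := Nat.card_pos
  have hi : (KK hQ fr.hyp_x H).index = 1 := by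
    by_contra hne
    have h0 : (KK hQ fr.hyp_x H).index ≠ 0 := Subgroup.index_ne_zero_of_finite
    have h2 : 2 ≤ (KK hQ fr.hyp_x H).index := by omega
    have h3 : Nat.card F ^ 2 * Nat.card fr.W * 2 ≤ Nat.card F ^ 2 * Nat.card fr.W * (KK hQ fr.hyp_x H).index :=
      Nat.mul_le_mul_left _ h2
    have h4 : (Nat.card F + 2) * (Nat.card F * Nat.card fr.W) ≤ Nat.card F ^ 2 * Nat.card fr.W * 2 := by
      have h5 : (Nat.card F + 2) * (Nat.card F * Nat.card fr.W) = (Nat.card F + 2) * Nat.card F * Nat.card fr.W := by ring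
      have h6 : Nat.card F ^ 2 * Nat.card fr.W * 2 = (2 * Nat.card F * Nat.card F) * Nat.card fr.W := by ring
      rw [h5, h6]
      apply Nat.mul_le_mul_right
      apply Nat.mul_le_mul_right
      omega
    omega
  have htop : KK hQ fr.hyp_x H = ⊤ := Subgroup.index_eq_one.1 hi
  have hex : ∀ γ : OG Q, ∃ u : perp2 Q fr.x fr.xs, γ ∈ Gam fr.hyp_x → rr hQ fr.x u * γ ∈ H := by
    intro γ
    by_cases hγ : γ ∈ Gam fr.hyp_x
    · obtain ⟨g, hg, rfl⟩ := hγ
      have h2 : (⟨g, hg⟩ : siegelE (restr Q (perp2 Q fr.x fr.xs))) ∈ KK hQ fr.hyp_x H := by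
        rw [htop]
        trivial
      obtain ⟨u, hu⟩ := (mem_KK hQ fr.hyp_x H).1 h2
      exact ⟨u, fun _ => hu⟩
    · exact ⟨0, fun h => absurd h hγ⟩
  choose uu huu using hex
  exact ⟨⟨uu, huu, huniq⟩⟩

/-- **Lemma E**: on a line through a regular point there is a special point. -/
theorem lemmaE (fr : LF Q) (hd : 3 ≤ finrank F fr.W)
    (hA : finrank F fr.W = 4 → ∀ e es z : fr.W, Q e = 0 → Q es = 0 → polar Q (e : V) es = 1 →
      polar Q (e : V) z = 0 → polar Q (es : V) z = 0 → Q z = 0 → z = 0)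
    (hm : H.relIndex (siegelE Q) < (Nat.card F + 2) * (Nat.card F * Nat.card fr.W))
    (hx : ¬ InA hQ H fr.x) : ∃ τ : F, InA hQ H (τ • fr.x + fr.y) := by
  obtain ⟨D⟩ := exists_LD hQ fr hm hx
  obtain ⟨v, hv, τ, hτ⟩ := D.exists_eigen hd hA
  exact ⟨τ, LD.inA_of_eigen hv hτ⟩

end main

end Cfsg.Agent.Lib.OmIdx
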