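import Mathlib
import Cfsg.Agent.Lib.OmIdxC

/-!
# Minimal index in orthogonal groups: sets of singular points meeting lines in one point are hyperplane sections

A set of singular vectors, closed under scaling, such that every totally singular line through a point outside
the set meets the set in exactly one point, is the set of singular vectors in a hyperplane.
-/

set_option autoImplicit false
set_option linter.unusedSectionVars false
set_option linter.unusedVariables false

namespace Cfsg.Agent.Lib.OmIdx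

open Module QuadraticMap Cfsg.Agent.Lib.OrthoBasic Cfsg.Agent.Lib.OrthoSiegel Cfsg.Agent.Lib.QuadFF
  Cfsg.Agent.Lib.OmGeo

variable {F : Type*} [Field F] {V : Type*} [AddCommGroup V] [Module F V] {Q : QuadraticForm F V}

lemma Ind_of_polar {a b g : V} (h1 : polar Q g a ≠ 0) (h2 : polar Q g b = 0) (hb : b ≠ 0) : Ind (F := F) a b := by
  refine ⟨hb, fun c hc => ?_⟩
  rw [hc, polar_smul_r, h2, mul_zero] at h1
  exact h1 rfl

/-- The axioms of a set of special points. -/
structure Star (Q : QuadraticForm F V) (A : V → Prop) : Prop where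
  ne : ∀ x, A x → x ≠ 0
  sing : ∀ x, A x → Q x = 0
  smul : ∀ x (c : F), A x → c ≠ 0 → A (c • x)
  ex : ∀ x y, Q x = 0 → Q y = 0 → polar Q x y = 0 → Ind (F := F) x y → ¬ A y → ∃ τ : F, A (x + τ • y)
  uq : ∀ x y (τ τ' : F), Q x = 0 → Q y = 0 → polar Q x y = 0 → Ind (F := F) x y → ¬ A y →
    A (x + τ • y) → A (x + τ' • y) → τ = τ'

namespace Star

variable {A : V → Prop} (S : Star Q A)

include S in
/-- Two special points on a line: their sum is special. -/
lemma add {a b : V} (ha : A a) (hb : A b) (hab : polar Q a b = 0) (hi : Ind (F := F) a b) : A (a + b) := by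
  by_contra hc
  have hQa := S.sing _ ha
  have hQb := S.sing _ hb
  have hQ1 : Q (a + b) = 0 := by rw [Q_add, hQa, hQb, hab]; ring
  have hp : polar Q a (a + b) = 0 := by
    rw [polar_add_right, polar_self_of_singular hQa, hab, add_zero]
  have hi' : Ind (F := F) a (a + b) := by
    refine ⟨fun h0 => ?_, fun c hc' => ?_⟩
    · apply hi.2 (-1)
      rw [neg_smul, one_smul]
      exact eq_neg_of_add_eq_zero_left h0
    · have h2 : (1 - c) • a + (-c) • b = 0 := by
        rw [sub_smul, one_smul, neg_smul]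
        nth_rewrite 1 [hc']
        module
      obtain ⟨h3, h4⟩ := hi.smul_add h2
      have hc0 : c = 0 := by simpa using h4
      rw [hc0] at h3
      simp at h3
  have h1 : A (a + (0 : F) • (a + b)) := by simpa using ha
  have h2 : A (a + (-1 : F) • (a + b)) := by
    have h3 := S.smul b (-1) hb (by simp)
    convert h3 using 1
    module
  have := S.uq a (a + b) 0 (-1) hQa hQ1 hp hi' hc h1 h2
  simp at this

end Star

/-- The data of the functional at a regular point. -/
structure LL (Q : QuadraticForm F V) (A : V → Prop) (fr : LF Q) (lam : V → F) : Prop where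
  S : Star Q A
  hx : ¬ A fr.x
  hxs : A fr.xs
  spec : ∀ u, Q u = 0 → polar Q fr.x u = 0 → Ind (F := F) u fr.x → A (u + lam u • fr.x)
  uq : ∀ u (τ : F), Q u = 0 → polar Q fr.x u = 0 → Ind (F := F) u fr.x → A (u + τ • fr.x) → τ = lam u

namespace LF

variable (fr : LF Q)

/-- The parametrisation of the singular vectors. -/
noncomputable def vv (w : fr.W) : V := fr.y + (w : V) - Q w • fr.ys

lemma vv_x (w : fr.W) : polar Q fr.x (fr.vv w) = 0 := by
  have h1 : polar Q fr.x (w : V) = 0 := (fr.mem_W.1 w.2).1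
  rw [vv, polar_sub_right, polar_add_right, polar_smul_r, fr.xy, fr.xys, h1]
  ring

lemma vv_ys (w : fr.W) : polar Q fr.ys (fr.vv w) = 1 := by
  have h1 : polar Q fr.ys (w : V) = 0 := (fr.mem_W.1 w.2).2.2.2
  rw [vv, polar_sub_right, polar_add_right, polar_smul_r, fr.sy, fr.ysys, h1]
  ring

lemma vv_Q (w : fr.W) : Q (fr.vv w) = 0 := by
  have h1 : polar Q fr.y (w : V) = 0 := (fr.mem_W.1 w.2).2.1
  have h2 : polar Q fr.ys (w : V) = 0 := (fr.mem_W.1 w.2).2.2.2
  rw [vv, Q_sub, Q_add, Q_smul, fr.Qy, fr.Qys, polar_smul_r, polar_add_left, fr.yys, polar_comm Q (w : V) fr.ys, h2,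
    h1]
  ring

lemma vv_zero : fr.vv 0 = fr.y := by
  simp [vv]

/-- The linear projection to the complement. -/
noncomputable def prL : V →ₗ[F] fr.W where
  toFun v := ⟨fr.pr v, fr.pr_mem v⟩
  map_add' a b := by
    apply Subtype.ext
    simp only [pr, polar_add_right, Submodule.coe_add, add_smul]
    abel
  map_smul' c a := by
    apply Subtype.ext
    simp only [pr, polar_smul_r, Submodule.coe_smul, RingHom.id_apply, smul_sub, smul_smul]

lemma prL_coe (v : V) : ((fr.prL v : fr.W) : V) = fr.pr v := rfl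

end LF

namespace LL

variable {A : V → Prop} {fr : LF Q} {lam : V → F} (D : LL Q A fr lam)

include D in
lemma lam_smul {u : V} (hu : Q u = 0) (hp : polar Q fr.x u = 0) (hi : Ind (F := F) u fr.x) {c : F} (hc : c ≠ 0) :
    lam (c • u) = c * lam u := by
  have h1 := D.S.smul _ c (D.spec u hu hp hi) hc
  have h2 : c • (u + lam u • fr.x) = c • u + (c * lam u) • fr.x := by module
  rw [h2] at h1
  have hi' : Ind (F := F) (c • u) fr.x := by
    refine ⟨hi.1, fun d hd => ?_⟩
    apply hi.2 (c⁻¹ * d)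
    rw [mul_smul, ← hd, smul_smul, inv_mul_cancel₀ hc, one_smul]
  refine (D.uq _ _ ?_ ?_ hi' h1).symm
  · rw [Q_smul, hu, mul_zero]
  · rw [polar_smul_r, hp, mul_zero]

include D in
lemma lam_add {u₁ u₂ g : V} (h1 : Q u₁ = 0) (h2 : Q u₂ = 0) (h3 : polar Q fr.x u₁ = 0) (h4 : polar Q fr.x u₂ = 0)
    (h5 : polar Q u₁ u₂ = 0) (h6 : polar Q g fr.x = 0) (h7 : polar Q g u₁ ≠ 0) (h8 : polar Q g u₂ = 0)
    (h9 : Ind (F := F) u₂ fr.x) : lam (u₁ + u₂) = lam u₁ + lam u₂ := by
  have hi₁ : Ind (F := F) u₁ fr.x := Ind_of_polar h7 h6 fr.x_ne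
  have hi₂ : Ind (F := F) (u₁ + u₂) fr.x :=
    Ind_of_polar (g := g) (by rw [polar_add_right, h8, add_zero]; exact h7) h6 fr.x_ne
  have hQ₁ : Q (u₁ + u₂) = 0 := by rw [Q_add, h1, h2, h5]; ring
  have a1 := D.spec u₁ h1 h3 hi₁
  have a2 := D.spec u₂ h2 h4 h9
  have hxx := fr.xx
  have hu1x : polar Q u₁ fr.x = 0 := by rw [polar_comm]; exact h3
  have hu2x : polar Q u₂ fr.x = 0 := by rw [polar_comm]; exact h4
  have hp : polar Q (u₁ + lam u₁ • fr.x) (u₂ + lam u₂ • fr.x) = 0 := by
    simp only [polar_add_left, polar_add_right, polar_smul_l, polar_smul_r, h5, hu1x, h4, hxx]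
    ring
  have hne : u₂ + lam u₂ • fr.x ≠ 0 := by
    intro h0
    apply h9.2 (-lam u₂)
    rw [neg_smul]
    exact eq_neg_of_add_eq_zero_left h0
  have hi : Ind (F := F) (u₁ + lam u₁ • fr.x) (u₂ + lam u₂ • fr.x) := by
    refine Ind_of_polar (Q := Q) (g := g) ?_ ?_ hne
    · rw [polar_add_right, polar_smul_r, h6, mul_zero, add_zero]; exact h7
    · rw [polar_add_right, polar_smul_r, h6, h8]; ring
  have h10 := D.S.add a1 a2 hp hi
  have e : u₁ + lam u₁ • fr.x + (u₂ + lam u₂ • fr.x) = (u₁ + u₂) + (lam u₁ + lam u₂) • fr.x := by module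
  rw [e] at h10
  exact (D.uq _ _ hQ₁ (by rw [polar_add_right, h3, h4, add_zero]) hi₂ h10).symm

/-- The functional on the complement. -/
noncomputable def nu (D : LL Q A fr lam) (w : fr.W) : F := lam (fr.vv w) - lam fr.y + Q w * lam fr.ys

lemma nu_zero : D.nu 0 = 0 := by
  simp [nu, LF.vv_zero]

lemma exists_g (hQ : ND Q) (s : fr.W) (hs : s ≠ 0) : ∃ g : fr.W, polar Q (g : V) s ≠ 0 := by
  by_contra hno
  push Not at hno
  apply hs
  apply fr.nd_W hQ
  intro z
  rw [polar_restr, polar_comm]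
  exact hno z

lemma nu_add_sing (hQ : ND Q) {s : fr.W} (hs : Q s = 0) (hs0 : s ≠ 0) (w : fr.W) : D.nu (w + s) = D.nu w + lam s := by
  obtain ⟨g, hg⟩ := exists_g hQ s hs0
  have hgW := fr.mem_W.1 g.2
  have hsW := fr.mem_W.1 s.2
  have hwW := fr.mem_W.1 w.2
  set c := polar Q (w : V) s with hc
  set s' : V := (s : V) - c • fr.ys with hs'
  have e1 : fr.vv (w + s) = fr.vv w + s' := by
    simp only [LF.vv, Submodule.coe_add, hs', Q_add, hs, ← hc]
    module
  have hgx : polar Q (g : V) fr.x = 0 := by rw [polar_comm]; exact hgW.1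
  have hgys : polar Q (g : V) fr.ys = 0 := by rw [polar_comm]; exact hgW.2.2.2
  have hxys : polar Q fr.x (c • fr.ys) = 0 := by rw [polar_smul_r, fr.xys, mul_zero]
  have hQ1 : Q (c • fr.ys) = 0 := by rw [Q_smul, fr.Qys, mul_zero]
  have hsys : polar Q (s : V) fr.ys = 0 := by rw [polar_comm]; exact hsW.2.2.2
  -- the value on `s'`
  have e2 : lam s' = lam s + (-c) * lam fr.ys := by
    by_cases hc0 : c = 0
    · rw [hs', hc0]
      simp
    · have h1 : Ind (F := F) fr.ys fr.x := Ind_of_polar (g := fr.y) (by rw [fr.yys]; exact one_ne_zero) fr.yx fr.x_ne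
      have h2 := D.lam_smul fr.Qys fr.xys h1 (neg_ne_zero.2 hc0)
      have h3 : Ind (F := F) ((-c) • fr.ys) fr.x := Ind_of_polar (g := fr.y) (by
        rw [polar_smul_r, fr.yys, mul_one]; exact neg_ne_zero.2 hc0) fr.yx fr.x_ne
      have h4 := D.lam_add (u₁ := s) (u₂ := (-c) • fr.ys) (g := g) hs (by rw [Q_smul, fr.Qys, mul_zero]) hsW.1
        (by rw [polar_smul_r, fr.xys, mul_zero]) (by rw [polar_smul_r, hsys, mul_zero]) hgx hg
        (by rw [polar_smul_r, hgys, mul_zero]) h3
      rw [← h2, ← h4, hs']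
      congr 1
      module
  have hs'Q : Q s' = 0 := by
    rw [hs', Q_sub, hs, hQ1, polar_smul_r, hsys]; ring
  have hs'x : polar Q fr.x s' = 0 := by
    rw [hs', polar_sub_right, hsW.1, hxys]; ring
  have hs'ys : polar Q fr.ys s' = 0 := by
    rw [hs', polar_sub_right, polar_smul_r, hsW.2.2.2, fr.ysys]; ring
  have hvs : polar Q (fr.vv w) s' = 0 := by
    have h1 : polar Q (w : V) fr.ys = 0 := by rw [polar_comm]; exact hwW.2.2.2
    simp only [LF.vv, hs', polar_sub_left, polar_add_left, polar_sub_right, polar_smul_l, polar_smul_r, hsW.2.1,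
      fr.yys, hsW.2.2.2, fr.ysys, h1, ← hc]
    ring
  have hi' : Ind (F := F) s' fr.x := Ind_of_polar (g := (g : V)) (by
    rw [hs', polar_sub_right, polar_smul_r, hgys]
    simpa using hg) hgx fr.x_ne
  have e3 := D.lam_add (u₁ := fr.vv w) (u₂ := s') (g := fr.ys) (fr.vv_Q w) hs'Q (fr.vv_x w) hs'x hvs fr.ysx
    (by rw [fr.vv_ys]; exact one_ne_zero) hs'ys hi'
  have e4 : Q ((w + s : fr.W) : V) = Q (w : V) + c := by
    rw [Submodule.coe_add, Q_add, hs, ← hc]
    ring
  rw [nu, nu, e1, e3, e2, e4]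
  ring

lemma nu_sing (hQ : ND Q) {s : fr.W} (hs : Q s = 0) (hs0 : s ≠ 0) : D.nu s = lam s := by
  have := D.nu_add_sing hQ hs hs0 0
  rwa [zero_add, nu_zero, zero_add] at this

/-- The functional is additive. -/
lemma nu_add [FiniteDimensional F V] [Finite F] (hQ : ND Q) (hd : 3 ≤ finrank F fr.W) (w w' : fr.W) :
    D.nu (w + w') = D.nu w + D.nu w' := by
  have hnd := fr.nd_W hQ
  obtain ⟨a, ha0, ha⟩ := exists_singular (restr Q fr.W) hd
  obtain ⟨b, hb⟩ := exists_hyp_partner hnd ha0 ha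
  revert w
  refine sing_induct hb (P := fun s => ∀ w, D.nu (w + s) = D.nu w + D.nu s) ?_ ?_ w'
  · intro s hs w
    by_cases hs0 : s = 0
    · subst hs0
      simp [nu_zero]
    · rw [D.nu_add_sing hQ hs hs0, D.nu_sing hQ hs hs0]
  · intro u v hu hv w
    rw [← add_assoc, hv, hu, hv u]
    ring

lemma nu_smul [FiniteDimensional F V] [Finite F] (hQ : ND Q) (hd : 3 ≤ finrank F fr.W) (c : F) (w : fr.W) :
    D.nu (c • w) = c * D.nu w := by
  have hnd := fr.nd_W hQ
  obtain ⟨a, ha0, ha⟩ := exists_singular (restr Q fr.W) hd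
  obtain ⟨b, hb⟩ := exists_hyp_partner hnd ha0 ha
  refine sing_induct hb (P := fun s => D.nu (c • s) = c * D.nu s) ?_ ?_ w
  · intro s hs
    by_cases hs0 : s = 0
    · subst hs0
      simp [nu_zero]
    by_cases hc : c = 0
    · subst hc
      simp [nu_zero]
    have hs' : Q (s : V) = 0 := hs
    have hsW := fr.mem_W.1 s.2
    obtain ⟨g, hg⟩ := exists_g hQ s hs0
    have hgx : polar Q (g : V) fr.x = 0 := by
      have := (fr.mem_W.1 g.2).1
      rw [polar_comm]; exact this
    have h1 : Ind (F := F) (s : V) fr.x := Ind_of_polar hg hgx fr.x_ne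
    have h2 : Q ((c • s : fr.W) : V) = 0 := by
      rw [Submodule.coe_smul, Q_smul, hs', mul_zero]
    have h3 : c • s ≠ 0 := smul_ne_zero hc hs0
    rw [D.nu_sing hQ h2 h3, D.nu_sing hQ hs' hs0, Submodule.coe_smul, D.lam_smul hs' hsW.1 h1 hc]
  · intro u v hu hv
    rw [smul_add, D.nu_add hQ hd, D.nu_add hQ hd, hu, hv]
    ring

/-- The functional as a linear map. -/
noncomputable def nuL [FiniteDimensional F V] [Finite F] (D : LL Q A fr lam) (hQ : ND Q) (hd : 3 ≤ finrank F fr.W) :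
    fr.W →ₗ[F] F where
  toFun := D.nu
  map_add' := D.nu_add hQ hd
  map_smul' c w := by
    rw [D.nu_smul hQ hd]
    rfl

section formula

variable [FiniteDimensional F V] [Finite F] (hQ : ND Q) (hd : 3 ≤ finrank F fr.W)

lemma Ind_ys_of {δ : F} (hδ : δ ≠ 0) : Ind (F := F) (δ • fr.ys) fr.x :=
  Ind_of_polar (Q := Q) (g := fr.y) (by rw [polar_smul_r, fr.yys, mul_one]; exact hδ) fr.yx fr.x_ne

include hQ hd in
/-- The values of the special function. -/
lemma lam_formula {γ δ : F} {w : fr.W} (h0 : γ * δ + Q w = 0) (hne : γ • fr.y + δ • fr.ys + (w : V) ≠ 0) :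
    lam (γ • fr.y + δ • fr.ys + (w : V)) = γ * lam fr.y + δ * lam fr.ys + D.nu w := by
  have hwW := fr.mem_W.1 w.2
  by_cases hγ : γ = 0
  · subst hγ
    have hw0 : Q (w : V) = 0 := by simpa using h0
    by_cases hδ : δ = 0
    · subst hδ
      have hw1 : w ≠ 0 := by
        rintro rfl
        simp at hne
      simp only [zero_smul, zero_add, zero_mul]
      rw [D.nu_sing hQ hw0 hw1]
    · have h1 : Ind (F := F) fr.ys fr.x := by simpa using Ind_ys_of (fr := fr) (δ := 1) one_ne_zero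
      have h2 := D.lam_smul fr.Qys fr.xys h1 hδ
      by_cases hw1 : w = 0
      · subst hw1
        simp only [zero_smul, zero_add, zero_mul, ZeroMemClass.coe_zero, add_zero]
        rw [h2, nu_zero, add_zero]
      · obtain ⟨g, hg⟩ := exists_g hQ w hw1
        have hgW := fr.mem_W.1 g.2
        have hgx : polar Q (g : V) fr.x = 0 := by rw [polar_comm]; exact hgW.1
        have hgys : polar Q (g : V) fr.ys = 0 := by rw [polar_comm]; exact hgW.2.2.2
        have hwys : polar Q (w : V) fr.ys = 0 := by rw [polar_comm]; exact hwW.2.2.2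
        have h3 := D.lam_add (u₁ := w) (u₂ := δ • fr.ys) (g := g) hw0 (by rw [Q_smul, fr.Qys, mul_zero]) hwW.1
          (by rw [polar_smul_r, fr.xys, mul_zero]) (by rw [polar_smul_r, hwys, mul_zero]) hgx hg
          (by rw [polar_smul_r, hgys, mul_zero]) (Ind_ys_of hδ)
        rw [D.nu_sing hQ hw0 hw1]
        simp only [zero_smul, zero_add, zero_mul]
        rw [add_comm, h3, h2]
        ring
  · set w₁ : fr.W := γ⁻¹ • w with hw₁
    have h1 : Ind (F := F) (fr.vv w₁) fr.x :=
      Ind_of_polar (Q := Q) (g := fr.ys) (by rw [fr.vv_ys]; exact one_ne_zero) fr.ysx fr.x_ne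
    have h2 := D.lam_smul (fr.vv_Q w₁) (fr.vv_x w₁) h1 hγ
    have hδ : δ = -(γ⁻¹ * Q w) := by
      field_simp
      linear_combination h0
    have e1 : γ • fr.y + δ • fr.ys + (w : V) = γ • fr.vv w₁ := by
      have hQw : Q (γ⁻¹ • (w : V)) = (γ⁻¹) ^ 2 * Q w := Q_smul Q _ _
      simp only [LF.vv, hw₁, Submodule.coe_smul]
      rw [hδ, hQw]
      have e2 : γ • (γ⁻¹ • (w : V)) = (w : V) := by rw [smul_smul, mul_inv_cancel₀ hγ, one_smul]
      have e3 : γ • (((γ⁻¹) ^ 2 * Q w) • fr.ys) = (γ⁻¹ * Q w) • fr.ys := by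
        rw [smul_smul]
        congr 1
        field_simp
      rw [smul_sub, smul_add, e2, e3, neg_smul]
      abel
    rw [e1, h2]
    have e4 : lam (fr.vv w₁) = D.nu w₁ + lam fr.y - Q (w₁ : V) * lam fr.ys := by
      rw [nu]
      ring
    have e5 : D.nu w₁ = γ⁻¹ * D.nu w := D.nu_smul hQ hd _ _
    have hQw : Q (w₁ : V) = (γ⁻¹) ^ 2 * Q w := by
      rw [hw₁, Submodule.coe_smul, Q_smul]
    rw [e4, e5, hQw, hδ]
    field_simp
    ring

/-- The linear functional on the whole space. -/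
noncomputable def Lam (D : LL Q A fr lam) (hQ : ND Q) (hd : 3 ≤ finrank F fr.W) : V →ₗ[F] F :=
  lam fr.y • polarBilin Q fr.ys + lam fr.ys • polarBilin Q fr.y + (D.nuL hQ hd).comp fr.prL - polarBilin Q fr.xs

lemma Lam_apply (v : V) :
    D.Lam hQ hd v = lam fr.y * polar Q fr.ys v + lam fr.ys * polar Q fr.y v + D.nu (fr.prL v) - polar Q fr.xs v := rfl

lemma prL_x : fr.prL fr.x = 0 := by
  apply Subtype.ext
  rw [LF.prL_coe, LF.pr, fr.sx, fr.ysx, fr.xx, fr.yx]
  simp

lemma prL_xs : fr.prL fr.xs = 0 := by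
  apply Subtype.ext
  rw [LF.prL_coe, LF.pr, fr.xsxs, fr.yss, fr.xxs, fr.yxs]
  simp

lemma Lam_x : D.Lam hQ hd fr.x = -1 := by
  rw [Lam_apply, prL_x, nu_zero, fr.ysx, fr.yx, fr.sx]
  ring

lemma Lam_xs : D.Lam hQ hd fr.xs = 0 := by
  rw [Lam_apply, prL_xs, nu_zero, fr.yss, fr.yxs, fr.xsxs]
  ring

/-- The special function is given by the linear functional. -/
lemma lam_eq_Lam {t : V} (ht : Q t = 0) (hp : polar Q fr.x t = 0) (hi : Ind (F := F) t fr.x) :
    lam t = D.Lam hQ hd t := by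
  set κ := polar Q fr.xs t with hκ
  set γ := polar Q fr.ys t with hγ
  set δ := polar Q fr.y t with hδ
  set w : fr.W := fr.prL t with hw
  have hdec : t = (γ • fr.y + δ • fr.ys + (w : V)) + κ • fr.x := by
    have := fr.decomp t
    rw [hp, zero_smul, add_zero] at this
    rw [hw, LF.prL_coe]
    conv_lhs => rw [this]
    abel
  set t₀ := γ • fr.y + δ • fr.ys + (w : V) with ht₀
  have hwW := fr.mem_W.1 w.2
  have hx0 : polar Q fr.x t₀ = 0 := by
    rw [ht₀]
    simp only [polar_add_right, polar_smul_r, fr.xy, fr.xys, hwW.1]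
    ring
  have hQ0 : Q t₀ = γ * δ + Q w := by
    have hwy : polar Q (w : V) fr.y = 0 := by rw [polar_comm]; exact hwW.2.1
    have hwys : polar Q (w : V) fr.ys = 0 := by rw [polar_comm]; exact hwW.2.2.2
    rw [ht₀, Q_add, Q_add, Q_smul, Q_smul, fr.Qy, fr.Qys, polar_smul_l, polar_smul_r, fr.yys, polar_add_left,
      polar_smul_l, polar_smul_l, hwW.2.1, hwW.2.2.2]
    ring
  have hQt : Q t₀ = 0 := by
    have h1 := ht
    rw [hdec, Q_add, Q_smul, fr.Qx, polar_smul_r, polar_comm, hx0] at h1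
    simpa using h1
  have h0 : γ * δ + Q w = 0 := by rw [← hQ0]; exact hQt
  have hi₀ : Ind (F := F) t₀ fr.x := by
    refine ⟨fr.x_ne, fun c hc => ?_⟩
    apply hi.2 (c + κ)
    rw [hdec, hc, add_smul]
  have hne : t₀ ≠ 0 := by
    intro h
    apply hi₀.2 0
    rw [h, zero_smul]
  have e1 := D.lam_formula hQ hd h0 hne
  have a1 := D.spec t₀ hQt hx0 hi₀
  have e2 : t₀ + lam t₀ • fr.x = t + (lam t₀ - κ) • fr.x := by
    rw [hdec]
    module
  rw [e2] at a1
  have e3 := D.uq t _ ht hp hi a1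
  rw [← e3, ← ht₀] at *
  rw [Lam_apply, e1]
  ring

/-- The special points orthogonal to the regular point. -/
lemma A_iff {t : V} (ht : Q t = 0) (hp : polar Q fr.x t = 0) (ht0 : t ≠ 0) : A t ↔ D.Lam hQ hd t = 0 := by
  by_cases hi : Ind (F := F) t fr.x
  · rw [← D.lam_eq_Lam hQ hd ht hp hi]
    constructor
    · intro h
      have h1 : A (t + (0 : F) • fr.x) := by simpa using h
      exact (D.uq t 0 ht hp hi h1).symm
    · intro h
      have h1 := D.spec t ht hp hi
      rw [h] at h1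
      simpa using h1
  · have hc : ∃ c : F, t = c • fr.x := by
      by_contra hno
      push Not at hno
      exact hi ⟨fr.x_ne, hno⟩
    obtain ⟨c, rfl⟩ := hc
    have hc0 : c ≠ 0 := by
      rintro rfl
      simp at ht0
    constructor
    · intro h
      exfalso
      apply D.hx
      have := D.S.smul _ c⁻¹ h (inv_ne_zero hc0)
      rwa [smul_smul, inv_mul_cancel₀ hc0, one_smul] at this
    · intro h
      exfalso
      rw [map_smul, D.Lam_x hQ hd, smul_eq_mul] at h
      apply hc0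
      simpa using h

end formula

end LL

section final

variable [FiniteDimensional F V] [Finite F] {A : V → Prop}

/-- Representation of linear functionals. -/
lemma exists_rep (hQ : ND Q) (Λ : V →ₗ[F] F) : ∃ p, ∀ v, polar Q p v = Λ v := by
  let φ : V →ₗ[F] Module.Dual F V := polarBilin Q
  have hinj : Function.Injective φ := by
    rw [injective_iff_map_eq_zero]
    intro x hx
    apply hQ x
    intro y
    exact LinearMap.congr_fun hx y
  have hs := (LinearMap.injective_iff_surjective_of_finrank_eq_finrank (Subspace.dual_finrank_eq).symm).1 hinj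
  obtain ⟨p, hp⟩ := hs Λ
  exact ⟨p, fun v => LinearMap.congr_fun hp v⟩

/-- The key step of the hyperplane property. -/
lemma K_main (S : Star Q A) {x p₀ : V}
    (hA : ∀ t, Q t = 0 → polar Q x t = 0 → t ≠ 0 → (A t ↔ polar Q p₀ t = 0)) {z₁ z₂ : V} (h1 : A z₁) (h2 : A z₂)
    (hx1 : polar Q x z₁ = 1) (hx2 : polar Q x z₂ = 1) (hne : polar Q p₀ z₁ ≠ polar Q p₀ z₂) {g : V} (hg : Q g = 0)
    (hxg : polar Q x g = 0) (hpg : polar Q p₀ g = 0) (hzg : polar Q z₁ g = 0) : polar Q z₂ g = 0 := by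
  by_contra hc
  have hg0 : g ≠ 0 := by
    rintro rfl
    exact hc (polar_zero_right _ _)
  have hAg := (hA g hg hxg hg0).2 hpg
  set c : F := -(polar Q z₁ z₂ / polar Q z₂ g) with hcdef
  have hz₃ : A (z₁ + c • g) := by
    by_cases hc0 : c = 0
    · rw [hc0]
      simpa using h1
    · refine S.add h1 (S.smul _ c hAg hc0) (by rw [polar_smul_r, hzg, mul_zero]) ?_
      exact Ind_of_polar (Q := Q) (g := x) (by rw [hx1]; exact one_ne_zero) (by rw [polar_smul_r, hxg, mul_zero])
        (smul_ne_zero hc0 hg0)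
  set z₃ := z₁ + c • g with hz₃def
  have hx3 : polar Q x z₃ = 1 := by
    rw [hz₃def, polar_add_right, polar_smul_r, hx1, hxg]; ring
  have hp3 : polar Q p₀ z₃ = polar Q p₀ z₁ := by
    rw [hz₃def, polar_add_right, polar_smul_r, hpg]; ring
  have h32 : polar Q z₃ z₂ = 0 := by
    rw [hz₃def, polar_add_left, polar_smul_l, polar_comm Q g z₂, hcdef]
    field_simp
    ring
  by_cases heq : z₃ = z₂
  · apply hne
    rw [← hp3, heq]
  · apply hne
    have hi : Ind (F := F) z₃ (-z₂) := by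
      refine ⟨neg_ne_zero.2 (S.ne _ h2), fun d hd => ?_⟩
      have h4 := hx3
      rw [hd, polar_smul_r, polar_neg_right, hx2] at h4
      have hd' : d = -1 := by linear_combination -h4
      rw [hd'] at hd
      apply heq
      rw [hd]
      simp
    have h5 := S.add hz₃ (by simpa using S.smul z₂ (-1) h2 (by simp)) (by rw [polar_neg_right, h32, neg_zero]) hi
    have h6 := (hA _ (S.sing _ h5) (by rw [polar_add_right, polar_neg_right, hx3, hx2]; ring) (S.ne _ h5)).1 h5
    rw [polar_add_right, polar_neg_right] at h6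
    rw [← hp3]
    linear_combination h6

/-- The hyperplane property for normalised special points. -/
lemma K_eq (hQ : ND Q) (h7 : 7 ≤ finrank F V) (S : Star Q A) {x p₀ : V} (hx : Q x = 0)
    (hA : ∀ t, Q t = 0 → polar Q x t = 0 → t ≠ 0 → (A t ↔ polar Q p₀ t = 0)) {z₁ z₂ : V} (h1 : A z₁) (h2 : A z₂)
    (hx1 : polar Q x z₁ = 1) (hx2 : polar Q x z₂ = 1) : polar Q p₀ z₁ = polar Q p₀ z₂ := by
  classical
  by_contra hne
  have hH : IsHyp Q x z₁ := ⟨hx, S.sing _ h1, hx1⟩
  have hnd := hH.ND_perp2 hQ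
  have hdim := hH.finrank_perp2
  set b₀ : perp2 Q x z₁ := ⟨_, hH.decomp p₀⟩ with hb₀
  obtain ⟨a, b, hab, hC⟩ := exists_hyp_perp hnd {b₀} (by simp; omega)
  obtain ⟨h3, h4⟩ := hC b₀ (by simp)
  rw [polar_restr] at h3 h4
  have hz₁x : polar Q z₁ x = 1 := by rw [polar_comm]; exact hx1
  have hpe : ∀ c : perp2 Q x z₁, polar Q b₀ c = 0 → polar Q p₀ c = 0 := by
    intro c hc
    have hcm := mem_perp2.1 c.2
    rw [hb₀] at hc
    simp only at hc
    rw [polar_sub_left, polar_sub_left, polar_smul_l, polar_smul_l, hcm.1, hcm.2] at hc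
    simpa using hc
  have hQa : Q (a : V) = 0 := hab.Qv
  have hQb : Q (b : V) = 0 := hab.Qw
  have hpa := hpe a h3
  have hpb := hpe b h4
  have ham := mem_perp2.1 a.2
  have hbm := mem_perp2.1 b.2
  have habV : polar Q (a : V) b = 1 := by
    have := hab.vw
    rwa [polar_restr] at this
  have hz2a := K_main S hA h1 h2 hx1 hx2 hne hQa ham.1 hpa ham.2
  have hz2b := K_main S hA h1 h2 hx1 hx2 hne hQb hbm.1 hpb hbm.2
  have ha0 : (a : V) ≠ 0 := by
    intro h0
    rw [h0, polar_zero_left] at habV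
    exact zero_ne_one habV
  have hAa := (hA _ hQa ham.1 ha0).2 hpa
  have hz₃ : A (z₁ + (a : V)) := S.add h1 hAa ham.2
    (Ind_of_polar (Q := Q) (g := x) (by rw [hx1]; exact one_ne_zero) ham.1 ha0)
  have hx3 : polar Q x (z₁ + (a : V)) = 1 := by rw [polar_add_right, hx1, ham.1, add_zero]
  have hp3 : polar Q p₀ (z₁ + (a : V)) = polar Q p₀ z₁ := by rw [polar_add_right, hpa, add_zero]
  have hne' : polar Q p₀ z₂ ≠ polar Q p₀ (z₁ + (a : V)) := by
    rw [hp3]
    exact fun h => hne h.symm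
  have hfin := K_main S hA h2 hz₃ hx2 hx3 hne' hQb hbm.1 hpb hz2b
  rw [polar_add_left, hbm.2, habV] at hfin
  simp at hfin

/-- **The hyperplane theorem.** -/
theorem hyperplane_of_star (hQ : ND Q) (h7 : 7 ≤ finrank F V) (S : Star Q A) {y₀ : V} (hy : Q y₀ = 0) (hy0 : y₀ ≠ 0)
    (hn : ¬ A y₀) :
    ∃ p₀ : V, p₀ ≠ 0 ∧ (∀ a, A a → polar Q p₀ a = 0) ∧
      ∀ p' : V, (∀ a, A a → polar Q p' a = 0) → ∃ c : F, p' = c • p₀ := by
  classical
  have h5 : 5 ≤ finrank F V := by omega
  obtain ⟨s, hs⟩ := exists_hyp_partner hQ hy0 hy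
  obtain ⟨a, b, hab⟩ := exists_hyp_in_perp2 hQ h5 hs
  have ham := mem_perp2.1 a.2
  have hbm := mem_perp2.1 b.2
  have hQa : Q (a : V) = 0 := hab.Qv
  have hQb : Q (b : V) = 0 := hab.Qw
  have habV : polar Q (a : V) b = 1 := by
    have := hab.vw
    rwa [polar_restr] at this
  have ha0 : (a : V) ≠ 0 := by
    intro h0
    rw [h0, polar_zero_left] at habV
    exact zero_ne_one habV
  have hsy : polar Q s y₀ = 1 := by rw [polar_comm]; exact hs.vw
  have hyy := polar_self_of_singular hy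
  have hsa : polar Q (a : V) y₀ = 0 := by rw [polar_comm]; exact ham.1
  have hia : Ind (F := F) (a : V) y₀ := Ind_of_polar (Q := Q) (g := (b : V)) (by
    rw [polar_comm]; rw [habV]; exact one_ne_zero) (by rw [polar_comm]; exact hbm.1) hy0
  obtain ⟨τ, hτ⟩ := S.ex _ _ hQa hy hsa hia hn
  set c : F := τ + 1 with hc
  set x' : V := (a : V) + c • y₀ with hx'
  have hQx' : Q x' = 0 := by
    rw [hx', Q_add, Q_smul, hQa, hy, polar_smul_r, hsa]; ring
  have hnx' : ¬ A x' := by
    intro h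
    have := S.uq _ _ τ c hQa hy hsa hia hn hτ h
    rw [hc] at this
    simp at this
  have hyx' : polar Q y₀ x' = 0 := by
    rw [hx', polar_add_right, polar_smul_r, ham.1, hyy]; ring
  have hx'0 : x' ≠ 0 := by
    intro h0
    apply hia.2 (-c)
    rw [neg_smul]
    exact eq_neg_of_add_eq_zero_left h0
  set z : V := s - c • (b : V) with hz
  have hQz : Q z = 0 := by
    have h1 : polar Q s (b : V) = 0 := hbm.2
    rw [hz, Q_sub, Q_smul, hs.Qw, hQb, polar_smul_r, h1]; ring
  have hyz : polar Q y₀ z = 1 := by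
    rw [hz, polar_sub_right, polar_smul_r, hs.vw, hbm.1]; ring
  have hzx' : polar Q z x' = 0 := by
    have h1 : polar Q s (a : V) = 0 := ham.2
    have h2 : polar Q (b : V) a = 1 := by rw [polar_comm]; exact habV
    have h3 : polar Q (b : V) y₀ = 0 := by rw [polar_comm]; exact hbm.1
    rw [hz, hx']
    simp only [polar_sub_left, polar_add_right, polar_smul_l, polar_smul_r, h1, hsy, h2, h3]
    ring
  have hiz : Ind (F := F) z x' := Ind_of_polar (Q := Q) (g := y₀) (by rw [hyz]; exact one_ne_zero) hyx' hx'0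
  obtain ⟨τ₂, hτ₂⟩ := S.ex _ _ hQz hQx' hzx' hiz hnx'
  set z₀ : V := z + τ₂ • x' with hz₀
  have hyz₀ : polar Q y₀ z₀ = 1 := by
    rw [hz₀, polar_add_right, polar_smul_r, hyz, hyx']; ring
  have hQz₀ := S.sing _ hτ₂
  have hH : IsHyp Q y₀ z₀ := ⟨hy, hQz₀, hyz₀⟩
  obtain ⟨e, f, hef⟩ := exists_hyp_in_perp2 hQ h5 hH
  have hem := mem_perp2.1 e.2
  have hfm := mem_perp2.1 f.2
  let fr : LF Q :=
    { x := y₀, y := e, xs := z₀, ys := f, Qx := hy, Qy := hef.Qv, Qxs := hQz₀, Qys := hef.Qw, xy := hem.1,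
      xxs := hyz₀, xys := hfm.1, yxs := by rw [polar_comm]; exact hem.2,
      yys := by
        have := hef.vw
        rwa [polar_restr] at this,
      xsys := hfm.2 }
  have hdW : 3 ≤ finrank F fr.W := by
    have := fr.finrank_W
    omega
  have hex : ∀ u : V, ∃ τ : F, Q u = 0 → polar Q y₀ u = 0 → Ind (F := F) u y₀ → A (u + τ • y₀) := by
    intro u
    by_cases hcond : Q u = 0 ∧ polar Q y₀ u = 0 ∧ Ind (F := F) u y₀
    · obtain ⟨τ, hτ⟩ := S.ex u y₀ hcond.1 hy (by rw [polar_comm]; exact hcond.2.1) hcond.2.2 hn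
      exact ⟨τ, fun _ _ _ => hτ⟩
    · exact ⟨0, fun h1 h2 h3 => absurd ⟨h1, h2, h3⟩ hcond⟩
  choose lam hlam using hex
  have D : LL Q A fr lam :=
    { S := S
      hx := hn
      hxs := hτ₂
      spec := hlam
      uq := fun u τ h1 h2 h3 h4 =>
        S.uq u y₀ τ (lam u) h1 hy (by rw [polar_comm]; exact h2) h3 hn h4 (hlam u h1 h2 h3) }
  obtain ⟨p₀, hp₀⟩ := exists_rep hQ (D.Lam hQ hdW)
  have hA' : ∀ t, Q t = 0 → polar Q y₀ t = 0 → t ≠ 0 → (A t ↔ polar Q p₀ t = 0) := by
    intro t h1 h2 h3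
    rw [hp₀]
    exact D.A_iff hQ hdW h1 h2 h3
  have hpy : polar Q p₀ y₀ = -1 := by
    rw [hp₀]
    exact D.Lam_x hQ hdW
  have hpz : polar Q p₀ z₀ = 0 := by
    rw [hp₀]
    exact D.Lam_xs hQ hdW
  have hp0 : p₀ ≠ 0 := by
    rintro rfl
    rw [polar_zero_left] at hpy
    have h2 : (1 : F) = 0 := by linear_combination hpy
    exact one_ne_zero h2
  have hall : ∀ a, A a → polar Q p₀ a = 0 := by
    intro a ha
    by_cases hd : polar Q y₀ a = 0
    · exact (hA' a (S.sing _ ha) hd (S.ne _ ha)).1 ha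
    · have h1 := S.smul _ (polar Q y₀ a)⁻¹ ha (inv_ne_zero hd)
      have h2 : polar Q y₀ ((polar Q y₀ a)⁻¹ • a) = 1 := by
        rw [polar_smul_r, inv_mul_cancel₀ hd]
      have h3 := K_eq hQ h7 S hy hA' h1 hτ₂ h2 hyz₀
      rw [hpz, polar_smul_r] at h3
      exact (mul_eq_zero.1 h3).resolve_left (inv_ne_zero hd)
  refine ⟨p₀, hp0, hall, fun p' hp' => ?_⟩
  set c' := polar Q p' y₀ with hc'
  have hkey : ∀ v, polar Q (p' + c' • p₀) v = 0 := by
    have hA1 : ∀ a, A a → polar Q (p' + c' • p₀) a = 0 := by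
      intro a ha
      rw [polar_add_left, polar_smul_l, hp' a ha, hall a ha]
      ring
    have hy1 : polar Q (p' + c' • p₀) y₀ = 0 := by
      rw [polar_add_left, polar_smul_l, hpy, ← hc']
      ring
    have hz1 := hA1 z₀ hτ₂
    have hT : ∀ t : perp2 Q y₀ z₀, polar Q (p' + c' • p₀) t = 0 := by
      intro t
      have hnd := hH.ND_perp2 hQ
      have hdT : 3 ≤ finrank F (perp2 Q y₀ z₀) := by
        have := hH.finrank_perp2
        omega
      obtain ⟨a₁, ha₁0, ha₁⟩ := exists_singular (restr Q (perp2 Q y₀ z₀)) hdT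
      obtain ⟨b₁, hb₁⟩ := exists_hyp_partner hnd ha₁0 ha₁
      refine sing_induct hb₁ (P := fun t => polar Q (p' + c' • p₀) (t : V) = 0) ?_ ?_ t
      · intro v hv
        by_cases hv0 : v = 0
        · subst hv0
          simp
        have hvm := mem_perp2.1 v.2
        have hv1 : Q (v : V) = 0 := hv
        have hi : Ind (F := F) (v : V) y₀ := by
          refine ⟨hy0, fun d hd => ?_⟩
          have h4 := hvm.2
          rw [hd, polar_smul_r, polar_comm, hyz₀, mul_one] at h4
          rw [h4, zero_smul] at hd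
          exact hv0 (Subtype.ext hd)
        have h6 := hlam v hv1 hvm.1 hi
        have h7' := hA1 _ h6
        rw [polar_add_right, polar_smul_r, hy1, mul_zero, add_zero] at h7'
        exact h7'
      · intro u v hu hv
        rw [Submodule.coe_add, polar_add_right, hu, hv, add_zero]
    intro v
    have h8 := hT ⟨_, hH.decomp v⟩
    simp only at h8
    rw [polar_sub_right, polar_sub_right, polar_smul_r, polar_smul_r, hy1, hz1] at h8
    simpa using h8
  have h9 := hQ _ hkey
  refine ⟨-c', ?_⟩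
  rw [neg_smul]
  exact eq_neg_of_add_eq_zero_left h9

end final

end Cfsg.Agent.Lib.OmIdx
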