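import Mathlib
import Cfsg.Agent.Lib.OmIdxH
import Cfsg.Agent.Lib.OmIdxI

/-!
# Minimal index in orthogonal groups: subgroups of small index stabilise a point
-/

set_option autoImplicit false
set_option linter.unusedSectionVars false
set_option linter.unusedVariables false

namespace Cfsg.Agent.Lib.OmIdx

open Module QuadraticMap Cfsg.Agent.Lib.OrthoBasic Cfsg.Agent.Lib.OrthoSiegel Cfsg.Agent.Lib.OrthoGen
  Cfsg.Agent.Lib.QuadFF Cfsg.Agent.Lib.OmGeo

variable {F : Type*} [Field F] {V : Type*} [AddCommGroup V] [Module F V] {Q : QuadraticForm F V}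

/-- Witt index at most three. -/
def Aniso3 (Q : QuadraticForm F V) : Prop :=
  ∀ (fr : LF Q) (e es z : fr.W), Q e = 0 → Q es = 0 → polar Q (e : V) es = 1 → polar Q (e : V) z = 0 →
    polar Q (es : V) z = 0 → Q z = 0 → z = 0

section main

variable [FiniteDimensional F V] [Finite F] (hQ : Nondeg Q) {H : Subgroup (OG Q)}

/-- The long root element of a line does not depend on the basis, up to a determinant. -/
lemma rr_wedge {x y : V} (hx : Q x = 0) (hy : Q y = 0) (hxy : polar Q x y = 0) (τ τ' c : F) :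
    rr hQ (x + τ • y) (c • (x + τ' • y)) = rr hQ x ((c * (τ' - τ)) • y) := by
  have hxx := polar_self_of_singular hx
  have hyy := polar_self_of_singular hy
  have hyx : polar Q y x = 0 := by rw [polar_comm]; exact hxy
  have h1 : Q (x + τ • y) = 0 := by rw [Q_add, Q_smul, hx, hy, polar_smul_r, hxy]; ring
  have h2 : polar Q (x + τ • y) (c • (x + τ' • y)) = 0 := by
    simp only [polar_add_left, polar_add_right, polar_smul_l, polar_smul_r, hxx, hyy, hxy, hyx]
    ring
  have h3 : polar Q x ((c * (τ' - τ)) • y) = 0 := by rw [polar_smul_r, hxy, mul_zero]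
  have h4 : Q (c • (x + τ' • y)) = 0 := by
    rw [Q_smul, Q_add, Q_smul, hx, hy, polar_smul_r, hxy]; ring
  have h5 : Q ((c * (τ' - τ)) • y) = 0 := by rw [Q_smul, hy, mul_zero]
  refine og_ext fun z => ?_
  rw [rr_apply hQ h1 h2, rr_apply hQ hx h3, h4, h5]
  simp only [polar_add_right, polar_smul_r]
  generalize polar Q z x = X
  generalize polar Q z y = Y
  module

lemma good_of_not_inA {x y : V} (hx : Q x = 0) (hy : Q y = 0) (hxy : polar Q x y = 0) (hi : Ind (F := F) x y)
    (hn : ¬ InA hQ H y) (d : F) (hd : d ≠ 0) : rr hQ x (d • y) ∉ H := by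
  intro hmem
  apply hn
  have h2 : Q ((-d) • x) = 0 := by rw [Q_smul, hx, mul_zero]
  have h3 : polar Q ((-d) • x) y = 0 := by rw [polar_smul_l, hxy, mul_zero]
  have h4 := rr_swap hQ h2 hy h3
  have h5 : polar Q x (-y) = 0 := by rw [polar_neg_right, hxy, neg_zero]
  rw [rr_smul_left hQ hx h5] at h4
  have hyx : polar Q y x = 0 := by rw [polar_comm]; exact hxy
  have hd' : -d ≠ 0 := neg_ne_zero.2 hd
  refine ⟨hy, hi.1, (-d) • x, by rw [polar_smul_r, hyx, mul_zero], fun c hc => ?_, ?_⟩
  · apply hi.2 ((-d)⁻¹ * c)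
    rw [mul_smul, ← hc, smul_smul, inv_mul_cancel₀ hd', one_smul]
  · rw [h4]
    convert hmem using 2
    module

lemma aniso_of_one {Q' : QuadraticForm F V} (hQ' : Nondeg Q') (fr : LF Q') (h1 : finrank F fr.W = 1) {w : V}
    (hw : w ∈ fr.W) (hQw : Q' w = 0) : w = 0 := by
  by_contra h0
  have hw0 : (⟨w, hw⟩ : fr.W) ≠ 0 := fun h => h0 (congrArg Subtype.val h)
  have hspan := (finrank_eq_one_iff_of_nonzero' (⟨w, hw⟩ : fr.W) hw0).1 h1
  have hww := polar_self_of_singular hQw
  apply hw0
  apply fr.nd_W (nd_of_nondeg hQ')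
  intro z
  obtain ⟨c, hc⟩ := hspan z
  rw [← hc, polar_restr]
  change polar Q' w ((c • (⟨w, hw⟩ : fr.W) : fr.W) : V) = 0
  rw [Submodule.coe_smul, polar_smul_r]
  change c * polar Q' w w = 0
  rw [hww, mul_zero]

/-- From an anisotropic kernel in the whole space to the perpendicular. -/
lemma aniso_of_three (h3 : Aniso3 Q) {e f : V} (h : IsHyp Q e f) (fr : LF (restr Q (perp2 Q e f)))
    {w : perp2 Q e f} (hw : w ∈ fr.W) (hQw : restr Q (perp2 Q e f) w = 0) : w = 0 := by
  have hm : ∀ t : perp2 Q e f, polar Q e t = 0 ∧ polar Q f t = 0 := fun t => mem_perp2.1 t.2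
  have hp : ∀ a b : perp2 Q e f, polar (restr Q (perp2 Q e f)) a b = polar Q (a : V) (b : V) := fun a b => polar_restr _ _ _ _
  let fr₂ : LF Q :=
    { x := e, y := fr.x, xs := f, ys := fr.xs, Qx := h.Qv, Qy := fr.Qx, Qxs := h.Qw, Qys := fr.Qxs,
      xy := (hm _).1, xxs := h.vw, xys := (hm _).1, yxs := by rw [polar_comm]; exact (hm _).2,
      yys := by
        have := fr.xxs
        rwa [hp] at this,
      xsys := (hm _).2 }
  have hmem : ∀ t : perp2 Q e f, (∀ s : perp2 Q e f, s = fr.x ∨ s = fr.xs → polar Q (s : V) t = 0) →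
      (t : V) ∈ fr₂.W := by
    intro t ht
    rw [fr₂.mem_W]
    refine ⟨(hm t).1, ht _ (Or.inl rfl), (hm t).2, ht _ (Or.inr rfl)⟩
  have hwW := fr.mem_W.1 hw
  have e₁ : (fr.y : V) ∈ fr₂.W := hmem _ (by
    rintro s (rfl | rfl)
    · have := fr.xy
      rwa [hp] at this
    · have := fr.yxs
      rwa [hp, polar_comm] at this)
  have e₂ : (fr.ys : V) ∈ fr₂.W := hmem _ (by
    rintro s (rfl | rfl)
    · have := fr.xys
      rwa [hp] at this
    · have := fr.xsys
      rwa [hp] at this)
  have e₃ : (w : V) ∈ fr₂.W := hmem _ (by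
    rintro s (rfl | rfl)
    · have := hwW.1
      rwa [hp] at this
    · have := hwW.2.2.1
      rwa [hp] at this)
  have h5 := h3 fr₂ ⟨_, e₁⟩ ⟨_, e₂⟩ ⟨_, e₃⟩ fr.Qy fr.Qys (by
    have := fr.yys
    rwa [hp] at this) (by
    have := hwW.2.1
    rwa [hp] at this) (by
    have := hwW.2.2.2
    rwa [hp] at this) hQw
  have h6 : (w : V) = ((0 : fr₂.W) : V) := congrArg Subtype.val h5
  exact Subtype.ext h6

/-- The lower bound for the image in the Siegel group of the perpendicular. -/
lemma exists_i0 (fr : LF Q) (h7 : 7 ≤ finrank F V) (h8 : finrank F V = 8 → Aniso3 Q) :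
    ∃ i₀ : ℕ, (Nat.card F + 2) * Nat.card F ^ (finrank F fr.W / 2) ≤ i₀ ∧
      ∀ (e f : V) (h : IsHyp Q e f), KK hQ h H ≠ ⊤ → i₀ ≤ (KK hQ h H).index := by
  have hdW := fr.finrank_W
  have hq2 : 2 ≤ Nat.card F := Finite.one_lt_card
  set q := Nat.card F with hq
  by_cases h3 : finrank F fr.W = 3
  · refine ⟨2 * q ^ 2, ?_, fun e f h hK => ?_⟩
    · rw [h3]
      norm_num
      nlinarith
    · have hdT : finrank F (perp2 Q e f) = 5 := by
        have := h.finrank_perp2
        omega
      have hT := nondeg_T h hQ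
      have h4 := lemmaI' hT (by omega) (fun fr' w hw hQw => by
        refine aniso_of_one hT fr' ?_ hw hQw
        have := fr'.finrank_W
        omega) (not_le_KK' hQ h hK)
      rw [hdT, relIndex_KK'] at h4
      exact h4
  by_cases h4 : finrank F fr.W = 4
  · refine ⟨2 * q ^ 3, ?_, fun e f h hK => ?_⟩
    · rw [h4]
      norm_num
      nlinarith [Nat.pos_of_ne_zero (pow_ne_zero 2 (by omega : q ≠ 0))]
    · have hdT : finrank F (perp2 Q e f) = 6 := by
        have := h.finrank_perp2
        omega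
      have hT := nondeg_T h hQ
      have h5 := lemmaI' hT (by omega) (fun fr' w hw hQw => aniso_of_three (h8 (by omega)) h fr' hw hQw)
        (not_le_KK' hQ h hK)
      rw [hdT, relIndex_KK'] at h5
      exact h5
  · refine ⟨q ^ (finrank F fr.W - 1), ?_, fun e f h hK => ?_⟩
    · have h5 : 5 ≤ finrank F fr.W := by omega
      have h6 : q + 2 ≤ q ^ 2 := by nlinarith
      calc (q + 2) * q ^ (finrank F fr.W / 2) ≤ q ^ 2 * q ^ (finrank F fr.W / 2) := Nat.mul_le_mul_right _ h6
        _ = q ^ (2 + finrank F fr.W / 2) := by rw [pow_add]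
        _ ≤ _ := Nat.pow_le_pow_right (by omega) (by omega)
    · have hdT : finrank F (perp2 Q e f) = finrank F fr.W + 2 := by
        have := h.finrank_perp2
        omega
      have hT := nondeg_T h hQ
      have h6 := lemmaI hT (by omega) (not_le_KK' hQ h hK)
      rw [hdT, relIndex_KK'] at h6
      have e1 : finrank F fr.W + 2 - 3 = finrank F fr.W - 1 := by omega
      rw [e1] at h6
      exact h6

/-- The special points of a subgroup of small index form a hyperplane section. -/
theorem star_inA (h7 : 7 ≤ finrank F V) (h8 : finrank F V = 8 → Aniso3 Q)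
    (hm : H.relIndex (siegelE Q) < (Nat.card F + 2) * Nat.card F ^ (finrank F V - 3)) :
    Star Q (InA hQ H) := by
  have hbound : ∀ fr : LF Q, H.relIndex (siegelE Q) < (Nat.card F + 2) * (Nat.card F * Nat.card fr.W) := by
    intro fr
    have h1 := fr.finrank_W
    have hc : Nat.card fr.W = Nat.card F ^ finrank F fr.W := Module.natCard_eq_pow_finrank
    have e1 : Nat.card F ^ (finrank F V - 3) = Nat.card F * Nat.card fr.W := by
      rw [hc, ← pow_succ']
      congr 1
      omega
    rwa [e1] at hm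
  refine ⟨fun x h => h.2.1, fun x h => h.1, fun x c h hc => h.smul hc, ?_, ?_⟩
  · intro x y hx hy hxy hi hn
    obtain ⟨fr, h1, h2⟩ := exists_frame (nd_of_nondeg hQ) hy hx (by rw [polar_comm]; exact hxy) hi.symm
    have hd : 3 ≤ finrank F fr.W := by
      have := fr.finrank_W
      omega
    obtain ⟨τ, hτ⟩ := lemmaE hQ fr hd (fun h4 => by
      have := fr.finrank_W
      exact h8 (by omega) fr) (hbound fr) (by rw [h1]; exact hn)
    refine ⟨τ, ?_⟩
    rw [h1, h2, add_comm] at hτ
    exact hτ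
  · intro x y τ τ' hx hy hxy hi hn ha hb
    by_contra hne
    have hQa : Q (x + τ • y) = 0 := ha.1
    have hQb : Q (x + τ' • y) = 0 := hb.1
    have hyy := polar_self_of_singular hy
    have hxx := polar_self_of_singular hx
    have hyx : polar Q y x = 0 := by rw [polar_comm]; exact hxy
    have hab : polar Q (x + τ • y) (x + τ' • y) = 0 := by
      simp only [polar_add_left, polar_add_right, polar_smul_l, polar_smul_r, hxx, hyy, hxy, hyx]
      ring
    have hind : Ind (F := F) (x + τ • y) (x + τ' • y) := by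
      refine Ind_of fun α β h => ?_
      have h1 : (α + β) • x + (α * τ + β * τ') • y = 0 := by rw [← h]; module
      obtain ⟨h2, h3⟩ := hi.smul_add h1
      have h4 : α * (τ - τ') = 0 := by linear_combination h3 - τ' * h2
      have hsub : τ - τ' ≠ 0 := sub_ne_zero.2 hne
      have hα := (mul_eq_zero.1 h4).resolve_right hsub
      subst hα
      exact ⟨rfl, by simpa using h2⟩
    obtain ⟨fr, h1, h2⟩ := exists_frame (nd_of_nondeg hQ) hQa hQb hab hind
    obtain ⟨i₀, hi₀, hK⟩ := exists_i0 hQ (H := H) fr h7 h8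
    refine lemmaM hQ h7 fr hi₀ hK (hbound fr) ?_ (by rw [h1]; exact ha) (by rw [h2]; exact hb)
    intro c hc
    rw [h1, h2, rr_wedge hQ hx hy hxy]
    exact good_of_not_inA hQ hx hy hxy hi hn _ (mul_ne_zero hc (sub_ne_zero.2 (Ne.symm hne)))

include hQ in
/-- **A subgroup of small index stabilises a point.** -/
theorem exists_stable_point (h7 : 7 ≤ finrank F V) (h8 : finrank F V = 8 → Aniso3 Q) (hE : ¬ siegelE Q ≤ H)
    (hm : H.relIndex (siegelE Q) < (Nat.card F + 2) * Nat.card F ^ (finrank F V - 3)) :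
    ∃ p₀ : V, p₀ ≠ 0 ∧ ∀ g ∈ H, ∃ c : F, ap g p₀ = c • p₀ := by
  have S := star_inA hQ h7 h8 hm
  -- a regular point
  obtain ⟨y₀, hy, hy0, hn⟩ : ∃ y₀ : V, Q y₀ = 0 ∧ y₀ ≠ 0 ∧ ¬ InA hQ H y₀ := by
    obtain ⟨x, y, hx, hy, hxy, hi, hg⟩ := exists_good hQ (by omega) hE
    by_cases hAx : InA hQ H x
    · by_cases hAy : InA hQ H y
      · exfalso
        obtain ⟨fr, rfl, rfl⟩ := exists_frame (nd_of_nondeg hQ) hx hy hxy hi
        obtain ⟨i₀, hi₀, hK⟩ := exists_i0 hQ (H := H) fr h7 h8
        refine lemmaM hQ h7 fr hi₀ hK ?_ hg hAx hAy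
        have h1 := fr.finrank_W
        have hc : Nat.card fr.W = Nat.card F ^ finrank F fr.W := Module.natCard_eq_pow_finrank
        have e1 : Nat.card F ^ (finrank F V - 3) = Nat.card F * Nat.card fr.W := by
          rw [hc, ← pow_succ']
          congr 1
          omega
        rwa [e1] at hm
      · exact ⟨y, hy, hi.1, hAy⟩
    · exact ⟨x, hx, hi.left_ne, hAx⟩
  obtain ⟨p₀, hp0, hp, huniq⟩ := hyperplane_of_star (nd_of_nondeg hQ) h7 S hy hy0 hn
  refine ⟨p₀, hp0, fun g hg => huniq _ fun a ha => ?_⟩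
  have h1 := ha.conj (inv_mem hg)
  have h2 := hp _ h1
  rw [← ap_polar g, ap_self_inv] at h2
  exact h2

end main

end Cfsg.Agent.Lib.OmIdx
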