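import Mathlib
import Cfsg.Agent.Lib.OmIdxJ
import Cfsg.Agent.Lib.OrthoFinal
import Cfsg.Agent.Lib.OrthoSimple

/-!
# Minimal index in orthogonal groups: stabilisers of points and the passage to `PΩ`
-/

set_option autoImplicit false
set_option linter.unusedSectionVars false
set_option linter.unusedVariables false

namespace Cfsg.Agent.Lib.OmIdx

open Module QuadraticMap Cfsg.Agent.Lib.OrthoBasic Cfsg.Agent.Lib.OrthoSiegel Cfsg.Agent.Lib.OrthoGen
  Cfsg.Agent.Lib.QuadFF Cfsg.Agent.Lib.OmGeo Cfsg.Agent.Lib.OrthoFinal Cfsg.Agent.Lib.OrthoSimple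

variable {F : Type*} [Field F] {V : Type*} [AddCommGroup V] [Module F V] {Q : QuadraticForm F V}

section stab

/-- The stabiliser of a point. -/
def lineStab {p : V} (hp : p ≠ 0) : Subgroup (OG Q) where
  carrier := {g | ∃ c : F, ap g p = c • p}
  mul_mem' := by
    rintro g h ⟨c, hc⟩ ⟨d, hd⟩
    refine ⟨d * c, ?_⟩
    rw [ap_mul, hd]
    change (g : V ≃ₗ[F] V) (d • p) = _
    rw [map_smul]
    change d • ap g p = _
    rw [hc, smul_smul]
  one_mem' := ⟨1, by rw [ap_one, one_smul]⟩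
  inv_mem' := by
    rintro g ⟨c, hc⟩
    have hc0 : c ≠ 0 := by
      rintro rfl
      rw [zero_smul] at hc
      apply hp
      have := ap_inv_self g p
      rw [hc] at this
      rw [← this]
      simp
    refine ⟨c⁻¹, ?_⟩
    have h1 := ap_inv_self g p
    rw [hc] at h1
    change (g⁻¹ : OG Q).1 (c • p) = p at h1
    rw [map_smul] at h1
    change c • ap g⁻¹ p = p at h1
    rw [← h1, smul_smul, inv_mul_cancel₀ hc0, one_smul, h1]

lemma mem_lineStab {p : V} {hp : p ≠ 0} {g : OG Q} : g ∈ lineStab hp ↔ ∃ c : F, ap g p = c • p := Iff.rfl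

variable [FiniteDimensional F V] [Finite F] (hQ : Nondeg Q)

include hQ in
/-- The orbit formula for a point. -/
theorem card_eq_lineStab (h5 : 5 ≤ finrank F V) {p : V} (hp : p ≠ 0) :
    Nat.card {v : V // v ≠ 0 ∧ Q v = Q p}
      = (lineStab (Q := Q) hp).relIndex (siegelE Q) * Nat.card {d : F // d ≠ 0 ∧ d ^ 2 * Q p = Q p} := by
  classical
  have : Finite V := Module.finite_of_finite F
  have := finite_OG (F := F) (V := V) (Q := Q)
  set A := (lineStab (Q := Q) hp).subgroupOf (siegelE Q) with hA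
  have hrel : (lineStab (Q := Q) hp).relIndex (siegelE Q) = Nat.card (siegelE Q ⧸ A) := rfl
  rw [hrel, ← Nat.card_prod]
  symm
  let Θ : (siegelE Q ⧸ A) × {d : F // d ≠ 0 ∧ d ^ 2 * Q p = Q p} → {v : V // v ≠ 0 ∧ Q v = Q p} := fun b =>
    ⟨b.2.1 • ap (Quotient.out b.1 : siegelE Q).1 p, by
      refine ⟨smul_ne_zero b.2.2.1 ?_, ?_⟩
      · intro h0
        apply hp
        have h1 := ap_inv_self (Quotient.out b.1 : siegelE Q).1 p
        rw [h0] at h1
        rw [← h1]
        simp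
      · rw [Q_smul, ap_Q]
        exact b.2.2.2⟩
  refine Nat.card_congr (Equiv.ofBijective Θ ⟨?_, ?_⟩)
  · rintro ⟨b, c⟩ ⟨b', c'⟩ h
    have h1 : c.1 • ap (Quotient.out b : siegelE Q).1 p = c'.1 • ap (Quotient.out b' : siegelE Q).1 p :=
      congrArg Subtype.val h
    set g := (Quotient.out b : siegelE Q) with hg
    set g' := (Quotient.out b' : siegelE Q) with hg'
    have hb : b = QuotientGroup.mk g := (QuotientGroup.out_eq' b).symm
    have hb' : b' = QuotientGroup.mk g' := (QuotientGroup.out_eq' b').symm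
    have hgp : ap g.1 p ≠ 0 := by
      intro h0
      apply hp
      have h1 := ap_inv_self g.1 p
      rw [h0] at h1
      rw [← h1]
      simp
    have h2 : ap (g⁻¹ * g' : siegelE Q).1 p = ((c'.1)⁻¹ * c.1) • p := by
      change ap (g.1⁻¹ * g'.1) p = _
      rw [ap_mul]
      have h3 : ap g'.1 p = (c'.1)⁻¹ • (c.1 • ap g.1 p) := by
        rw [h1, smul_smul, inv_mul_cancel₀ c'.2.1, one_smul]
      have h5 : ap g'.1 p = ((c'.1)⁻¹ * c.1) • ap g.1 p := by rw [mul_smul]; exact h3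
      rw [h5]
      change (g.1⁻¹ : OG Q).1 (((c'.1)⁻¹ * c.1) • ap g.1 p) = _
      rw [map_smul]
      change ((c'.1)⁻¹ * c.1) • ap g.1⁻¹ (ap g.1 p) = _
      rw [ap_inv_self]
    have hbb : b = b' := by
      rw [hb, hb']
      apply QuotientGroup.eq.2
      change (g⁻¹ * g' : siegelE Q).1 ∈ lineStab hp
      exact ⟨_, h2⟩
    subst hbb
    have hg'g : g' = g := rfl
    rw [hg'g] at h1
    have h3 : (c.1 - c'.1) • ap g.1 p = 0 := by
      rw [sub_smul, h1, sub_self]
    have h4 := (smul_eq_zero.1 h3).resolve_right hgp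
    exact Prod.ext rfl (Subtype.ext (sub_eq_zero.1 h4))
  · rintro ⟨v, hv0, hv⟩
    obtain ⟨g, hg, hgp⟩ := E_trans hQ h5 hv.symm hp hv0
    obtain ⟨a, ha⟩ := QuotientGroup.mk_out_eq_mul A (⟨g, hg⟩ : siegelE Q)
    obtain ⟨c₀, hc₀⟩ : ∃ c : F, ap (a : siegelE Q).1 p = c • p := a.2
    have hc₀0 : c₀ ≠ 0 := by
      rintro rfl
      rw [zero_smul] at hc₀
      apply hp
      have h1 := ap_inv_self (a : siegelE Q).1 p
      rw [hc₀] at h1
      rw [← h1]
      simp
    have hQc : c₀ ^ 2 * Q p = Q p := by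
      have h1 := ap_Q (a : siegelE Q).1 p
      rw [hc₀, Q_smul] at h1
      exact h1
    have hQc' : (c₀⁻¹) ^ 2 * Q p = Q p := by
      have h1 : (c₀⁻¹) ^ 2 * (c₀ ^ 2 * Q p) = Q p := by
        field_simp
      rw [hQc] at h1
      exact h1
    refine ⟨(QuotientGroup.mk (⟨g, hg⟩ : siegelE Q), ⟨c₀⁻¹, inv_ne_zero hc₀0, hQc'⟩), ?_⟩
    apply Subtype.ext
    change c₀⁻¹ • ap (Quotient.out (QuotientGroup.mk (⟨g, hg⟩ : siegelE Q) : siegelE Q ⧸ A) : siegelE Q).1 p = v
    have h2 : (Quotient.out (QuotientGroup.mk (⟨g, hg⟩ : siegelE Q) : siegelE Q ⧸ A) : siegelE Q).1 = g * (a : siegelE Q).1 := by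
      have := congrArg Subtype.val ha
      exact this
    rw [h2, ap_mul, hc₀]
    change c₀⁻¹ • (g : V ≃ₗ[F] V) (c₀ • p) = v
    rw [map_smul, smul_smul, inv_mul_cancel₀ hc₀0, one_smul]
    exact hgp

/-- Elements of the parametrising group of scalars. -/
lemma card_R_pos (c : F) : 0 < Nat.card {d : F // d ≠ 0 ∧ d ^ 2 * c = c} := by
  have : Nonempty {d : F // d ≠ 0 ∧ d ^ 2 * c = c} := ⟨⟨1, one_ne_zero, by ring⟩⟩
  exact Nat.card_pos

lemma card_R_zero : Nat.card {d : F // d ≠ 0 ∧ d ^ 2 * (0 : F) = 0} = Nat.card F - 1 := by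
  classical
  cases nonempty_fintype F
  have h1 : Nat.card {d : F // d ≠ 0 ∧ d ^ 2 * (0 : F) = 0} = Nat.card {d : F // d ≠ 0} := by
    apply Nat.card_congr
    apply Equiv.subtypeEquivRight
    intro d
    simp
  rw [h1, Nat.card_eq_fintype_card, Nat.card_eq_fintype_card, Fintype.card_subtype_compl, Fintype.card_subtype_eq]

lemma card_R_le_two {c : F} (hc : c ≠ 0) : Nat.card {d : F // d ≠ 0 ∧ d ^ 2 * c = c} ≤ 2 := by
  classical
  have hsq : ∀ {e : F}, e ^ 2 * c = c → e = 1 ∨ e = -1 := by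
    intro e he
    have h1 : e ^ 2 = 1 := mul_right_cancel₀ hc (by rw [he, one_mul])
    exact sq_eq_one_iff.1 h1
  have h2 : Nat.card {d : F // d ≠ 0 ∧ d ^ 2 * c = c} ≤ Nat.card Bool := by
    refine Nat.card_le_card_of_injective (fun d => decide (d.1 = 1)) ?_
    rintro ⟨d, hd0, hd⟩ ⟨d', hd'0, hd'⟩ h
    apply Subtype.ext
    change d = d'
    have h3 : d = 1 ↔ d' = 1 := by simpa using h
    rcases hsq hd with h4 | h4 <;> rcases hsq hd' with h5 | h5
    · rw [h4, h5]
    · have h6 := h3.1 h4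
      rw [h6, h4]
    · have h6 := h3.2 h5
      rw [h6, h5]
    · rw [h4, h5]
  simpa using h2

lemma card_R_le_one (hq : Even (Nat.card F)) {c : F} (hc : c ≠ 0) :
    Nat.card {d : F // d ≠ 0 ∧ d ^ 2 * c = c} ≤ 1 := by
  classical
  cases nonempty_fintype F
  have h2 : (2 : F) = 0 := by
    rw [Nat.card_eq_fintype_card] at hq
    have h3 : ringChar F = 2 := FiniteField.even_card_iff_char_two.2 (Nat.even_iff.1 hq)
    have h4 : CharP F 2 := by
      rw [← h3]
      exact ringChar.charP F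
    exact_mod_cast CharP.cast_eq_zero F 2
  have : Subsingleton {d : F // d ≠ 0 ∧ d ^ 2 * c = c} := by
    constructor
    have key : ∀ d : {d : F // d ≠ 0 ∧ d ^ 2 * c = c}, d.1 = 1 := by
      rintro ⟨d, hd0, hd⟩
      have h1 : d ^ 2 = 1 := mul_right_cancel₀ hc (by rw [hd, one_mul])
      have h5 : (d - 1) ^ 2 = 0 := by
        have : (d - 1) ^ 2 = d ^ 2 + 1 - 2 * d := by ring
        rw [this, h1, h2]
        linear_combination h2
      have h6 := pow_eq_zero_iff (two_ne_zero) |>.1 h5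
      exact sub_eq_zero.1 h6
    intro a b
    exact Subtype.ext ((key a).trans (key b).symm)
  exact Finite.card_le_one_iff_subsingleton.2 this

include hQ in
/-- The lower bound for subgroups from the counts of points. -/
theorem lower_of_counts (h7 : 7 ≤ finrank F V) (h8 : finrank F V = 8 → Aniso3 Q) {T : ℕ}
    (hT : T ≤ (Nat.card F + 2) * Nat.card F ^ (finrank F V - 3))
    (hZ : T * (Nat.card F - 1) ≤ Nat.card {v : V // v ≠ 0 ∧ Q v = 0})
    (hc : ∀ c : F, c ≠ 0 → T * Nat.card {d : F // d ≠ 0 ∧ d ^ 2 * c = c} ≤ Nat.card {v : V // v ≠ 0 ∧ Q v = c})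
    (H : Subgroup (OG Q)) (hE : ¬ siegelE Q ≤ H) : T ≤ H.relIndex (siegelE Q) := by
  by_contra hlt
  push Not at hlt
  obtain ⟨p, hp, hstab⟩ := exists_stable_point hQ h7 h8 hE (lt_of_lt_of_le hlt hT)
  have hle : H ≤ lineStab hp := fun g hg => hstab g hg
  have h1 := Subgroup.relIndex_le_of_le_left (L := siegelE Q) hle (relIndex_ne_zero' H (siegelE Q))
  have h2 := card_eq_lineStab hQ (by omega) hp
  set L := (lineStab (Q := Q) hp).relIndex (siegelE Q) with hL
  have hq2 : 2 ≤ Nat.card F := Finite.one_lt_card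
  have h3 : L < T := lt_of_le_of_lt h1 hlt
  by_cases hQp : Q p = 0
  · rw [hQp, card_R_zero] at h2
    have h4 := hZ.trans (le_of_eq h2)
    have h5 := Nat.le_of_mul_le_mul_right h4 (by omega)
    omega
  · have h4 := hc _ hQp
    rw [h2] at h4
    have h5 := Nat.le_of_mul_le_mul_right h4 (card_R_pos _)
    omega

end stab

section pomega

variable {F : Type*} [Field F] [Fintype F] {ι : Type} [Fintype ι] [DecidableEq ι] (f : (ι → F) → F)
  (Q' : QuadraticForm F (ι → F)) (hf : ∀ v, f v = Q' v) (hQ' : Nondeg Q') (hgen : genR Q' = ⊤) (fr : Frame Q')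

include hf hQ' hgen fr

/-- The lower bound transferred to `PΩ`. -/
theorem pomega_lower (h7 : 7 ≤ finrank F (ι → F)) (h8 : finrank F (ι → F) = 8 → Aniso3 Q') {T : ℕ}
    (hT : T ≤ (Nat.card F + 2) * Nat.card F ^ (finrank F (ι → F) - 3))
    (hZ : T * (Nat.card F - 1) ≤ Nat.card {v : ι → F // v ≠ 0 ∧ Q' v = 0})
    (hc : ∀ c : F, c ≠ 0 → T * Nat.card {d : F // d ≠ 0 ∧ d ^ 2 * c = c} ≤ Nat.card {v : ι → F // v ≠ 0 ∧ Q' v = c})
    (H : Subgroup (Cfsg.POmega F f)) (hH : H ≠ ⊤) : T ≤ H.index := by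
  classical
  have hE : commutator (OG Q') = siegelE Q' := omega_eq_E hQ' hgen fr
  let e := pomegaEquiv (V := Unit) f Q' hf hE
  let φ : siegelE Q' →* Cfsg.POmega F f := e.symm.toMonoidHom.comp (QuotientGroup.mk' _)
  have hφ : Function.Surjective φ := e.symm.surjective.comp (QuotientGroup.mk'_surjective _)
  have h1 : (H.comap φ).index = H.index := Subgroup.index_comap_of_surjective H hφ
  have h2 : H.comap φ ≠ ⊤ := by
    intro h0
    apply hH
    rw [eq_top_iff]
    intro x _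
    obtain ⟨y, rfl⟩ := hφ x
    have : y ∈ H.comap φ := by rw [h0]; exact Subgroup.mem_top y
    exact this
  rw [← h1, ← relIndex_map_subtype (H.comap φ)]
  apply lower_of_counts hQ' h7 h8 hT hZ hc
  intro hle
  apply h2
  rw [eq_top_iff]
  intro x _
  have h3 : (x : OG Q') ∈ (H.comap φ).map (siegelE Q').subtype := hle x.2
  obtain ⟨y, hy, hyx⟩ := h3
  have : y = x := Subtype.ext hyx
  rwa [← this]

/-- A point stabiliser gives a subgroup of `PΩ` of the same index. -/
theorem pomega_exists {p : ι → F} (hp : p ≠ 0) :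
    ∃ H : Subgroup (Cfsg.POmega F f), H.index = (lineStab (Q := Q') hp).relIndex (siegelE Q') := by
  classical
  have hE : commutator (OG Q') = siegelE Q' := omega_eq_E hQ' hgen fr
  let e := pomegaEquiv (V := Unit) f Q' hf hE
  let φ : siegelE Q' →* Cfsg.POmega F f := e.symm.toMonoidHom.comp (QuotientGroup.mk' _)
  have hφ : Function.Surjective φ := e.symm.surjective.comp (QuotientGroup.mk'_surjective _)
  have hcen : φ.ker ≤ (lineStab (Q := Q') hp).subgroupOf (siegelE Q') := by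
    intro z hz'
    have h1 : z ∈ Subgroup.center (siegelE Q') := by
      have h2 : (QuotientGroup.mk' (Subgroup.center (siegelE Q')) z) = 1 := by
        have h3 : e.symm (QuotientGroup.mk' (Subgroup.center (siegelE Q')) z) = 1 := hz'
        simpa using h3
      rwa [← MonoidHom.mem_ker, QuotientGroup.ker_mk'] at h2
    obtain ⟨l, hl, hzl⟩ := center_scalar hQ' fr z h1
    rw [Subgroup.mem_subgroupOf]
    exact ⟨l, hzl p⟩
  refine ⟨((lineStab (Q := Q') hp).subgroupOf (siegelE Q')).map φ, ?_⟩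
  rw [← Subgroup.index_comap_of_surjective _ hφ, Subgroup.comap_map_eq, sup_eq_left.2 hcen]
  rfl

end pomega

end Cfsg.Agent.Lib.OmIdx
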