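import Mathlib
import Cfsg.Agent.Lib.OmIdxK
import Cfsg.Agent.Lib.OrthoCardFinal

/-!
# Minimal index in orthogonal groups: counts of vectors
-/

set_option autoImplicit false
set_option linter.unusedSectionVars false
set_option linter.unusedVariables false

namespace Cfsg.Agent.Lib.OmIdx

open Module QuadraticMap Cfsg.Agent.Lib.OrthoBasic Cfsg.Agent.Lib.OrthoSiegel Cfsg.Agent.Lib.OrthoGen
  Cfsg.Agent.Lib.QuadFF Cfsg.Agent.Lib.OmGeo Cfsg.Agent.Lib.OrthoFinal Cfsg.Agent.Lib.OrthoSimple
  Cfsg.Agent.Lib.OrthoCount Cfsg.Agent.Lib.OrthoOrder Cfsg.Agent.Lib.OrthoCardFinal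

section cards

variable {F : Type*} [Field F] {V : Type*} [AddCommGroup V] [Module F V]

lemma card_ne_zero_zero [Finite V] (Q : QuadraticForm F V) :
    Nat.card {v : V // v ≠ 0 ∧ Q v = 0} + 1 = Nat.card {v : V // Q v = 0} := by
  classical
  cases nonempty_fintype V
  have h1 : Nat.card {v : V // Q v = 0} = Nat.card ({v : V // v ≠ 0 ∧ Q v = 0} ⊕ Unit) := by
    apply Nat.card_congr
    refine ⟨fun v => if h : v.1 = 0 then Sum.inr () else Sum.inl ⟨v.1, h, v.2⟩,
      fun s => Sum.elim (fun w => ⟨w.1, w.2.2⟩) (fun _ => ⟨0, by simp⟩) s, ?_, ?_⟩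
    · rintro ⟨v, hv⟩
      by_cases h : v = 0
      · subst h
        simp
      · simp [h]
    · rintro (⟨w, hw0, hw⟩ | ⟨⟩)
      · simp [hw0]
      · simp
  rw [h1, Nat.card_sum]
  simp

lemma card_ne_zero_ne (Q : QuadraticForm F V) {c : F} (hc : c ≠ 0) :
    Nat.card {v : V // v ≠ 0 ∧ Q v = c} = Nat.card {v : V // Q v = c} := by
  apply Nat.card_congr
  apply Equiv.subtypeEquivRight
  intro v
  constructor
  · exact fun h => h.2
  · intro h
    refine ⟨?_, h⟩
    rintro rfl
    rw [QuadraticMap.map_zero] at h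
    exact hc h.symm

/-- Every element of `R_c` is a unit. -/
lemma card_R_le_sub_one [Finite F] (c : F) : Nat.card {d : F // d ≠ 0 ∧ d ^ 2 * c = c} ≤ Nat.card F - 1 := by
  classical
  cases nonempty_fintype F
  have h1 : Nat.card {d : F // d ≠ 0} = Nat.card F - 1 := by
    rw [Nat.card_eq_fintype_card, Nat.card_eq_fintype_card, Fintype.card_subtype_compl, Fintype.card_subtype_eq]
  rw [← h1]
  exact Nat.card_le_card_of_injective (fun d => (⟨d.1, d.2.1⟩ : {d : F // d ≠ 0}))
    (fun a b h => Subtype.ext (congrArg (fun x : {d : F // d ≠ 0} => x.1) h))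

end cards

section families

variable {F : Type*} [Field F] [Fintype F]

lemma fib_odd (m : ℕ) (c : F) :
    Nat.card {v // qOdd (m + 1) F v = c}
      = (Fintype.card F - 1) * Fintype.card F ^ (2 * m + 1) + Fintype.card F * Nat.card {v // qOdd m F v = c} := by
  rw [natCard_fibre_congr (splitOdd m).symm (Q := hypQ (qOdd m F)) (fun v => by
    rw [← qOdd_split, LinearEquiv.apply_symm_apply]) c |>.symm, natCard_level_hyp, card_fun_odd]

lemma fib_plus (m : ℕ) (c : F) :
    Nat.card {v // qPlus (m + 1) F v = c}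
      = (Fintype.card F - 1) * Fintype.card F ^ (2 * m) + Fintype.card F * Nat.card {v // qPlus m F v = c} := by
  rw [natCard_fibre_congr (splitFin m).symm (Q := hypQ (qPlus m F)) (fun v => by
    rw [← qPlus_split, LinearEquiv.apply_symm_apply]) c |>.symm, natCard_level_hyp, card_fun_plus]

lemma fib_minus (a b : F) (m : ℕ) (c : F) :
    Nat.card {v // qMinus (m + 1) a b v = c}
      = (Fintype.card F - 1) * Fintype.card F ^ (2 * m + 2) + Fintype.card F * Nat.card {v // qMinus m a b v = c} := by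
  rw [natCard_fibre_congr (splitMinus m).symm (Q := hypQ (qMinus m a b)) (fun v => by
    rw [← qMinus_split, LinearEquiv.apply_symm_apply]) c |>.symm, natCard_level_hyp, card_fun_minus]

lemma sub_one_mul_pow_add (q k : ℕ) (hq : 1 ≤ q) : (q - 1) * q ^ k + q ^ k = q ^ (k + 1) := by
  obtain ⟨r, rfl⟩ : ∃ r, q = r + 1 := ⟨q - 1, by omega⟩
  simp only [Nat.add_sub_cancel, pow_succ]
  ring

/-- Lower bound for the odd family. -/
lemma odd_lower (m : ℕ) (c : F) :
    Fintype.card F ^ (2 * m) ≤ Nat.card {v // qOdd m F v = c} + Fintype.card F ^ m := by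
  induction m with
  | zero => simp
  | succ m ih =>
    rw [fib_odd]
    have hq : 1 ≤ Fintype.card F := Fintype.card_pos
    have h1 := sub_one_mul_pow_add (Fintype.card F) (2 * m + 1) hq
    have h2 := Nat.mul_le_mul_left (Fintype.card F) ih
    have e1 : Fintype.card F ^ (2 * (m + 1)) = Fintype.card F ^ (2 * m + 1 + 1) := by ring_nf
    have e2 : Fintype.card F * Fintype.card F ^ (2 * m) = Fintype.card F ^ (2 * m + 1) := by ring
    have e3 : Fintype.card F ^ (m + 1) = Fintype.card F * Fintype.card F ^ m := by ring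
    rw [e1, ← h1, e3]
    rw [e2, mul_add] at h2
    omega

/-- The number of solutions of `Q v = -1` over the field with three elements. -/
lemma odd_three (hF : Fintype.card F = 3) (m : ℕ) :
    Nat.card {v // qOdd m F v = -1} + 3 ^ m = 3 ^ (2 * m) := by
  induction m with
  | zero =>
    have : IsEmpty {v // qOdd 0 F v = -1} := by
      refine ⟨fun ⟨v, hv⟩ => ?_⟩
      rw [qOdd_apply] at hv
      simp only [Cfsg.quadFormOdd, Finset.univ_eq_empty, Finset.sum_empty, add_zero] at hv
      set x := v (.inl ()) with hx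
      have h3 : (3 : F) = 0 := by
        have := FiniteField.cast_card_eq_zero F
        rw [hF] at this
        exact_mod_cast this
      have h4 : x ^ 3 = x := by
        have := FiniteField.pow_card x
        rwa [hF] at this
      have h5 : (2 : F) = 0 := by
        have e : x ^ 4 = 1 := by
          have : x ^ 4 = (x ^ 2) ^ 2 := by ring
          rw [this, hv]
          ring
        have e' : x ^ 4 = x ^ 2 := by
          have : x ^ 4 = x ^ 3 * x := by ring
          rw [this, h4]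
          ring
        rw [e', hv] at e
        linear_combination -e
      have h6 : (1 : F) = 0 := by linear_combination h3 - h5
      exact one_ne_zero h6
    rw [Nat.card_of_isEmpty]
    simp
  | succ m ih =>
    rw [fib_odd, hF]
    have e1 : (3 : ℕ) ^ (2 * (m + 1)) = 9 * 3 ^ (2 * m) := by ring
    have e2 : (3 : ℕ) ^ (2 * m + 1) = 3 * 3 ^ (2 * m) := by ring
    have e3 : (3 : ℕ) ^ (m + 1) = 3 * 3 ^ m := by ring
    rw [e1, e2, e3]
    simp only [Nat.add_one_sub_one]
    omega

/-- The fibre of the plus family at a non-zero value. -/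
lemma plus_ne {c : F} (hc : c ≠ 0) (m : ℕ) :
    Nat.card {v // qPlus (m + 1) F v = c} + Fintype.card F ^ m = Fintype.card F ^ (2 * m + 1) := by
  have hq : 1 ≤ Fintype.card F := Fintype.card_pos
  induction m with
  | zero =>
    rw [fib_plus]
    have : IsEmpty {w // qPlus 0 F w = c} := by
      refine ⟨fun ⟨w, hw⟩ => ?_⟩
      rw [qPlus_apply] at hw
      simp only [Cfsg.quadFormPlus, Finset.univ_eq_empty, Finset.sum_empty] at hw
      exact hc hw.symm
    rw [Nat.card_of_isEmpty]
    simp only [mul_zero, add_zero, pow_zero, mul_one, zero_add, pow_one]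
    omega
  | succ m ih =>
    rw [fib_plus]
    have h1 := sub_one_mul_pow_add (Fintype.card F) (2 * (m + 1)) hq
    have h2 := congrArg (fun t => Fintype.card F * t) ih
    simp only [mul_add] at h2
    have e1 : Fintype.card F ^ (2 * (m + 1) + 1) = Fintype.card F ^ (2 * (m + 1)) * Fintype.card F := by ring
    have e2 : Fintype.card F * Fintype.card F ^ (2 * m + 1) = Fintype.card F ^ (2 * (m + 1)) := by ring
    have e3 : Fintype.card F ^ (m + 1) = Fintype.card F * Fintype.card F ^ m := by ring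
    rw [e2] at h2
    rw [e3]
    have e4 : Fintype.card F ^ (2 * (m + 1) + 1) = (Fintype.card F - 1) * Fintype.card F ^ (2 * (m + 1)) + Fintype.card F ^ (2 * (m + 1)) := h1.symm
    rw [e4]
    omega

/-- An anisotropic binary form takes all values. -/
lemma minus_base (a b : F) (hab : ∀ z₁ z₂ : F, z₁ ^ 2 + a * z₁ * z₂ + b * z₂ ^ 2 = 0 → z₁ = 0 ∧ z₂ = 0)
    {c : F} (hc : c ≠ 0) : ∃ z₁ z₂ : F, z₁ ^ 2 + a * z₁ * z₂ + b * z₂ ^ 2 = c := by
  obtain ⟨x, y, z, hne, h⟩ := cw3 (1 : F) b (-c) a 0 0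
  have hz : z ≠ 0 := by
    rintro rfl
    have h1 : x ^ 2 + a * x * y + b * y ^ 2 = 0 := by linear_combination h
    obtain ⟨h2, h3⟩ := hab _ _ h1
    rcases hne with h4 | h4 | h4
    · exact h4 h2
    · exact h4 h3
    · exact h4 rfl
  refine ⟨x / z, y / z, ?_⟩
  field_simp
  linear_combination h

lemma minus_lower (a b : F) (hab : ∀ z₁ z₂ : F, z₁ ^ 2 + a * z₁ * z₂ + b * z₂ ^ 2 = 0 → z₁ = 0 ∧ z₂ = 0)
    {c : F} (hc : c ≠ 0) (m : ℕ) :
    Fintype.card F ^ (2 * m + 1) ≤ Nat.card {v // qMinus m a b v = c} + (Fintype.card F - 1) * Fintype.card F ^ m := by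
  have hq : 1 ≤ Fintype.card F := Fintype.card_pos
  induction m with
  | zero =>
    obtain ⟨z₁, z₂, hz⟩ := minus_base a b hab hc
    have : Nonempty {v // qMinus 0 a b v = c} := by
      refine ⟨⟨Sum.elim (fun i => ?_) ![z₁, z₂], ?_⟩⟩
      · exact 0
      · rw [qMinus_apply]
        simp [Cfsg.quadFormMinus, hz]
    have h1 : 0 < Nat.card {v // qMinus 0 a b v = c} := Nat.card_pos
    simp only [mul_zero, zero_add, pow_one, pow_zero, mul_one]
    omega
  | succ m ih =>
    rw [fib_minus]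
    have h1 := sub_one_mul_pow_add (Fintype.card F) (2 * m + 2) hq
    have h2 := Nat.mul_le_mul_left (Fintype.card F) ih
    have e1 : Fintype.card F ^ (2 * (m + 1) + 1) = Fintype.card F ^ (2 * m + 2 + 1) := by ring_nf
    have e2 : Fintype.card F * Fintype.card F ^ (2 * m + 1) = Fintype.card F ^ (2 * m + 2) := by ring
    have e3 : (Fintype.card F - 1) * Fintype.card F ^ (m + 1) = Fintype.card F * ((Fintype.card F - 1) * Fintype.card F ^ m) := by ring
    rw [e1, ← h1, e3]
    rw [e2, mul_add] at h2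
    omega

end families

section aniso

variable {F : Type*} [Field F] [Fintype F] {V : Type*} [AddCommGroup V] [Module F V]
  {Q : QuadraticForm F V}

/-- Splitting a hyperbolic pair off a subspace. -/
noncomputable def subHyp (S : Submodule F V) {e f : V} (he : e ∈ S) (hf : f ∈ S) (h : IsHyp Q e f) :
    (F × F × (S ⊓ perp2 Q e f : Submodule F V)) ≃ S :=
  Equiv.ofBijective
    (fun p => ⟨p.1 • e + p.2.1 • f + (p.2.2 : V),
      S.add_mem (S.add_mem (S.smul_mem _ he) (S.smul_mem _ hf)) p.2.2.2.1⟩)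
    (by
      have key : ∀ (a b : F) (t : V), t ∈ perp2 Q e f → polar Q e (a • e + b • f + t) = b ∧ polar Q f (a • e + b • f + t) = a := by
        intro a b t ht
        have ht' := mem_perp2.1 ht
        have h1 := polar_self_of_singular h.Qv
        have h2 := polar_self_of_singular h.Qw
        have h3 : polar Q e f = 1 := h.vw
        have h4 : polar Q f e = 1 := by rw [polar_comm]; exact h3
        constructor
        · rw [polar_add_right, polar_add_right, polar_smul_r, polar_smul_r, h1, h3, ht'.1]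
          ring
        · rw [polar_add_right, polar_add_right, polar_smul_r, polar_smul_r, h2, h4, ht'.2]
          ring
      constructor
      · rintro ⟨a, b, t⟩ ⟨a', b', t'⟩ hh
        have hh' : a • e + b • f + (t : V) = a' • e + b' • f + (t' : V) := congrArg Subtype.val hh
        obtain ⟨k1, k2⟩ := key a b t t.2.2
        obtain ⟨k3, k4⟩ := key a' b' t' t'.2.2
        rw [hh'] at k1 k2
        have e1 : b = b' := k1.symm.trans k3
        have e2 : a = a' := k2.symm.trans k4
        subst e1 e2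
        have e3 : (t : V) = t' := add_left_cancel hh'
        exact Prod.ext rfl (Prod.ext rfl (Subtype.ext e3))
      · rintro ⟨v, hv⟩
        have hmem : v - polar Q f v • e - polar Q e v • f ∈ (S ⊓ perp2 Q e f : Submodule F V) := by
          refine ⟨S.sub_mem (S.sub_mem hv (S.smul_mem _ he)) (S.smul_mem _ hf), mem_perp2.2 ?_⟩
          have h1 := polar_self_of_singular h.Qv
          have h2 := polar_self_of_singular h.Qw
          have h3 : polar Q e f = 1 := h.vw
          have h4 : polar Q f e = 1 := by rw [polar_comm]; exact h3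
          constructor
          · rw [polar_sub_right, polar_sub_right, polar_smul_r, polar_smul_r, h1, h3]
            ring
          · rw [polar_sub_right, polar_sub_right, polar_smul_r, polar_smul_r, h2, h4]
            ring
        refine ⟨(polar Q f v, polar Q e v, ⟨_, hmem⟩), Subtype.ext ?_⟩
        change polar Q f v • e + polar Q e v • f + (v - polar Q f v • e - polar Q e v • f) = v
        abel)

lemma subHyp_apply (S : Submodule F V) {e f : V} (he : e ∈ S) (hf : f ∈ S) (h : IsHyp Q e f)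
    (p : F × F × (S ⊓ perp2 Q e f : Submodule F V)) :
    ((subHyp S he hf h p : S) : V) = p.1 • e + p.2.1 • f + (p.2.2 : V) := rfl

lemma subHyp_Q (S : Submodule F V) {e f : V} (he : e ∈ S) (hf : f ∈ S) (h : IsHyp Q e f)
    (p : F × F × (S ⊓ perp2 Q e f : Submodule F V)) :
    Q (subHyp S he hf h p : S) = p.1 * p.2.1 + Q (p.2.2 : V) := by
  obtain ⟨a, b, t⟩ := p
  have ht := mem_perp2.1 t.2.2
  rw [subHyp_apply]
  simp only
  rw [Q_add, Q_add, Q_smul, Q_smul, h.Qv, h.Qw, polar_smul_l, polar_smul_r, h.vw, polar_add_left, polar_smul_l,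
    polar_smul_l, ht.1, ht.2]
  ring

lemma card_sub_hyp [Finite V] (S : Submodule F V) {e f : V} (he : e ∈ S) (hf : f ∈ S) (h : IsHyp Q e f) :
    Nat.card S = Fintype.card F * (Fintype.card F * Nat.card (S ⊓ perp2 Q e f : Submodule F V)) := by
  rw [← Nat.card_congr (subHyp S he hf h), Nat.card_prod, Nat.card_prod, Nat.card_eq_fintype_card]

lemma zeros_sub_hyp [Finite V] (S : Submodule F V) {e f : V} (he : e ∈ S) (hf : f ∈ S) (h : IsHyp Q e f) :
    Nat.card {v : S // Q v = 0} = (Fintype.card F - 1) * Nat.card (S ⊓ perp2 Q e f : Submodule F V)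
      + Fintype.card F * Nat.card {t : (S ⊓ perp2 Q e f : Submodule F V) // Q t = 0} := by
  rw [← natCard_hyp_fibre (fun t : (S ⊓ perp2 Q e f : Submodule F V) => Q t) 0]
  apply Nat.card_congr
  refine ((subHyp S he hf h).subtypeEquiv ?_).symm
  intro p
  rw [subHyp_Q]

/-- A totally singular vector in the triple perpendicular forces too many zeros. -/
theorem aniso3_of_zeros [Finite V] (hcard : Nat.card V = Fintype.card F ^ 8)
    (hZ : Nat.card {v : V // Q v = 0} < Fintype.card F ^ 7 + 2 * Fintype.card F ^ 3 - Fintype.card F ^ 4) :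
    Aniso3 Q := by
  intro fr e es z he hes hees hez hesz hz
  by_contra hz0
  set q := Fintype.card F with hq
  have hq2 : 2 ≤ q := Fintype.one_lt_card
  have hq0 : 0 < q := by omega
  set S₀ : Submodule F V := ⊤ with hS₀
  have h₁ : IsHyp Q fr.x fr.xs := ⟨fr.Qx, fr.Qxs, fr.xxs⟩
  have h₂ : IsHyp Q fr.y fr.ys := ⟨fr.Qy, fr.Qys, fr.yys⟩
  have h₃ : IsHyp Q (e : V) (es : V) := ⟨he, hes, hees⟩
  set S₁ : Submodule F V := S₀ ⊓ perp2 Q fr.x fr.xs with hS₁
  have hy₁ : fr.y ∈ S₁ := ⟨trivial, mem_perp2.2 ⟨fr.xy, by rw [polar_comm]; exact fr.yxs⟩⟩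
  have hys₁ : fr.ys ∈ S₁ := ⟨trivial, mem_perp2.2 ⟨fr.xys, fr.xsys⟩⟩
  set S₂ : Submodule F V := S₁ ⊓ perp2 Q fr.y fr.ys with hS₂
  have hW : ∀ w : fr.W, (w : V) ∈ S₂ := by
    intro w
    obtain ⟨w1, w2, w3, w4⟩ := fr.mem_W.1 w.2
    exact ⟨⟨trivial, mem_perp2.2 ⟨w1, w3⟩⟩, mem_perp2.2 ⟨w2, w4⟩⟩
  set S₃ : Submodule F V := S₂ ⊓ perp2 Q (e : V) (es : V) with hS₃
  have hz₃ : (z : V) ∈ S₃ := ⟨hW z, mem_perp2.2 ⟨hez, hesz⟩⟩
  have c₀ : Nat.card S₀ = q ^ 8 := by
    rw [← hcard]
    exact Nat.card_congr Submodule.topEquiv.toEquiv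
  have c₁ := card_sub_hyp S₀ (Submodule.mem_top) (Submodule.mem_top) h₁
  have c₂ := card_sub_hyp S₁ hy₁ hys₁ h₂
  have c₃ := card_sub_hyp S₂ (hW e) (hW es) h₃
  have z₁ := zeros_sub_hyp S₀ (Submodule.mem_top) (Submodule.mem_top) h₁
  have z₂ := zeros_sub_hyp S₁ hy₁ hys₁ h₂
  have z₃ := zeros_sub_hyp S₂ (hW e) (hW es) h₃
  rw [← hS₁] at c₁ z₁
  rw [← hS₂] at c₂ z₂
  rw [← hS₃] at c₃ z₃
  rw [← hq] at c₁ c₂ c₃ z₁ z₂ z₃
  have n₁ : Nat.card S₁ = q ^ 6 := by
    have : q ^ 2 * Nat.card S₁ = q ^ 2 * q ^ 6 := by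
      calc q ^ 2 * Nat.card S₁ = q * (q * Nat.card S₁) := by ring
        _ = Nat.card S₀ := c₁.symm
        _ = q ^ 2 * q ^ 6 := by rw [c₀]; ring
    exact Nat.eq_of_mul_eq_mul_left (by positivity) this
  have n₂ : Nat.card S₂ = q ^ 4 := by
    have : q ^ 2 * Nat.card S₂ = q ^ 2 * q ^ 4 := by
      calc q ^ 2 * Nat.card S₂ = q * (q * Nat.card S₂) := by ring
        _ = Nat.card S₁ := c₂.symm
        _ = q ^ 2 * q ^ 4 := by rw [n₁]; ring
    exact Nat.eq_of_mul_eq_mul_left (by positivity) this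
  have n₃ : Nat.card S₃ = q ^ 2 := by
    have : q ^ 2 * Nat.card S₃ = q ^ 2 * q ^ 2 := by
      calc q ^ 2 * Nat.card S₃ = q * (q * Nat.card S₃) := by ring
        _ = Nat.card S₂ := c₃.symm
        _ = q ^ 2 * q ^ 2 := by rw [n₂]; ring
    exact Nat.eq_of_mul_eq_mul_left (by positivity) this
  have hfinV : Finite S₃ := inferInstance
  have two : 2 ≤ Nat.card {t : S₃ // Q t = 0} := by
    have : Finite {t : S₃ // Q t = 0} := inferInstance
    have hne : (⟨⟨z, hz₃⟩, hz⟩ : {t : S₃ // Q t = 0}) ≠ ⟨0, by simp⟩ := by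
      intro h
      apply hz0
      have h1 := congrArg (fun t : {t : S₃ // Q t = 0} => ((t : S₃) : V)) h
      exact Subtype.ext h1
    have : Nontrivial {t : S₃ // Q t = 0} := ⟨⟨_, _, hne⟩⟩
    exact Finite.one_lt_card
  have z₀ : Nat.card {v : S₀ // Q v = 0} = Nat.card {v : V // Q v = 0} := by
    apply Nat.card_congr
    refine ⟨fun v => ⟨v.1.1, v.2⟩, fun v => ⟨⟨v.1, trivial⟩, v.2⟩, fun _ => rfl, fun _ => rfl⟩
  rw [n₁] at z₁
  rw [n₂] at z₂
  rw [n₃] at z₃
  rw [z₀] at z₁
  rw [z₁, z₂, z₃] at hZ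
  obtain ⟨r, hr⟩ : ∃ r, q = r + 1 := ⟨q - 1, by omega⟩
  have hr' : q - 1 = r := by omega
  rw [hr'] at hZ
  have key : q ^ 7 + 2 * q ^ 3 ≤ r * q ^ 6 + q * (r * q ^ 4 + q * (r * q ^ 2 + q * 2)) + q ^ 4 := by
    rw [hr]
    ring_nf
    omega
  have mono : q * (r * q ^ 4 + q * (r * q ^ 2 + q * 2)) ≤ q * (r * q ^ 4 + q * (r * q ^ 2 + q * Nat.card {t : S₃ // Q t = 0})) := by
    gcongr
  omega

end aniso

section main

variable {F : Type*} [Field F] [Fintype F] {ι : Type} [Fintype ι] [DecidableEq ι] (f : (ι → F) → F)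
  (Q' : QuadraticForm F (ι → F)) (hf : ∀ v, f v = Q' v) (hQ' : Nondeg Q') (hgen : genR Q' = ⊤) (fr : Frame Q')

include hf hQ' hgen fr

/-- The singular points as the subgroups of smallest index. -/
theorem pomega_main (h7 : 7 ≤ finrank F (ι → F)) (h8 : finrank F (ι → F) = 8 → Aniso3 Q') {T : ℕ}
    (hT : T ≤ (Fintype.card F + 2) * Fintype.card F ^ (finrank F (ι → F) - 3))
    (hZ : T * (Fintype.card F - 1) + 1 = Nat.card {v : ι → F // Q' v = 0})
    (hc : ∀ c : F, c ≠ 0 → T * Nat.card {d : F // d ≠ 0 ∧ d ^ 2 * c = c} ≤ Nat.card {v : ι → F // Q' v = c}) :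
    (∀ H : Subgroup (Cfsg.POmega F f), H ≠ ⊤ → T ≤ H.index) ∧ (∃ H : Subgroup (Cfsg.POmega F f), H.index = T) := by
  have hq : Nat.card F = Fintype.card F := Nat.card_eq_fintype_card
  have hq2 : 2 ≤ Fintype.card F := Fintype.one_lt_card
  have hZ' := card_ne_zero_zero Q'
  constructor
  · intro H hH
    refine pomega_lower f Q' hf hQ' hgen fr h7 h8 (by rw [hq]; exact hT) ?_ ?_ H hH
    · rw [hq]
      omega
    · intro c hc0
      rw [card_ne_zero_ne Q' hc0]
      exact hc c hc0
  · obtain ⟨p, hp, hQp⟩ := exists_singular Q' (by omega)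
    obtain ⟨H, hH⟩ := pomega_exists f Q' hf hQ' hgen fr hp
    refine ⟨H, ?_⟩
    have h1 := card_eq_lineStab hQ' (by omega) hp
    rw [hQp, card_R_zero, hq, ← hH] at h1
    have h2 : H.index * (Fintype.card F - 1) = T * (Fintype.card F - 1) := by
      rw [← h1]
      omega
    exact Nat.eq_of_mul_eq_mul_right (by omega) h2

end main

end Cfsg.Agent.Lib.OmIdx
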