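import Mathlib
import Cfsg.Agent.Lib.OmIdxL

/-!
# Minimal index in orthogonal groups: dimension eight, plus type, regular points

Over a field with at least four elements, the arguments for special points go through in dimension eight
as soon as there is one regular point.
-/

set_option autoImplicit false
set_option linter.unusedSectionVars false
set_option linter.unusedVariables false

namespace Cfsg.Agent.Lib.OmIdx

open Module QuadraticMap Cfsg.Agent.Lib.OrthoBasic Cfsg.Agent.Lib.OrthoSiegel Cfsg.Agent.Lib.OrthoGen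
  Cfsg.Agent.Lib.QuadFF Cfsg.Agent.Lib.OmGeo

variable {F : Type*} [Field F] {V : Type*} [AddCommGroup V] [Module F V] {Q : QuadraticForm F V}

section rot

variable {U : Type*} [AddCommGroup U] [Module F U] [FiniteDimensional F U] {Q' : QuadraticForm F U}

lemma exists_unit_sq_ne_one [Finite F] (hq : 4 ≤ Nat.card F) : ∃ c : F, c ≠ 0 ∧ c ^ 2 ≠ 1 := by
  classical
  cases nonempty_fintype F
  by_contra hno
  push Not at hno
  have h1 := card_R_le_two (F := F) (c := 1) one_ne_zero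
  have h2 : Nat.card {d : F // d ≠ 0 ∧ d ^ 2 * (1 : F) = 1} = Nat.card {d : F // d ≠ 0} := by
    apply Nat.card_congr
    apply Equiv.subtypeEquivRight
    intro d
    constructor
    · exact fun h => h.1
    · intro h
      refine ⟨h, ?_⟩
      rw [mul_one]
      exact hno d h
  have h3 : Nat.card {d : F // d ≠ 0} = Nat.card F - 1 := by
    rw [Nat.card_eq_fintype_card, Nat.card_eq_fintype_card, Fintype.card_subtype_compl, Fintype.card_subtype_eq]
  omega

/-- A pair of independent vectors of equal norm, in a plane, over a field with at least four elements. -/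
lemma exists_rot_pair' [Finite F] (hnd : ND Q') (h2 : finrank F U = 2) (hq : 4 ≤ Nat.card F) :
    ∃ u v : U, Q' u ≠ 0 ∧ Q' u = Q' v ∧ Ind (F := F) u v := by
  by_cases han : ∀ z, Q' z = 0 → z = 0
  · exact exists_rot_pair hnd h2 han
  push Not at han
  obtain ⟨z, hz, hz0⟩ := han
  obtain ⟨zs, hzs⟩ := exists_hyp_partner hnd hz0 hz
  obtain ⟨c, hc0, hc⟩ := exists_unit_sq_ne_one (F := F) hq
  have hQz := hzs.Qv
  have hQzs := hzs.Qw
  have hp : polar Q' z zs = 1 := hzs.vw
  have hp' : polar Q' zs z = 1 := by rw [polar_comm]; exact hp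
  have hzz := polar_self_of_singular hQz
  have hss := polar_self_of_singular hQzs
  have hind : ∀ a b : F, a • z + b • zs = 0 → a = 0 ∧ b = 0 := by
    intro a b h
    have h1 := congrArg (polar Q' zs) h
    rw [polar_add_right, polar_smul_r, polar_smul_r, hp', hss, polar_zero_right] at h1
    have h3 := congrArg (polar Q' z) h
    rw [polar_add_right, polar_smul_r, polar_smul_r, hp, hzz, polar_zero_right] at h3
    constructor
    · linear_combination h1
    · linear_combination h3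
  have hcinv : c * c⁻¹ = 1 := mul_inv_cancel₀ hc0
  refine ⟨z + zs, c • z + c⁻¹ • zs, ?_, ?_, ?_⟩
  · rw [Q_add, hQz, hQzs, hp]
    simp
  · rw [Q_add, Q_add, Q_smul, Q_smul, hQz, hQzs, hp, polar_smul_l, polar_smul_r, hp, mul_one, mul_zero, mul_zero, hcinv]
  · refine Ind_of fun a b hab => ?_
    have h1 : (a + b * c) • z + (a + b * c⁻¹) • zs = 0 := by rw [← hab]; module
    obtain ⟨h3, h4⟩ := hind _ _ h1
    have h5 : b * (c - c⁻¹) = 0 := by linear_combination h3 - h4
    have h6 : c - c⁻¹ ≠ 0 := by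
      intro h7
      apply hc
      have h8 : c = c⁻¹ := sub_eq_zero.1 h7
      rw [_root_.sq]
      nth_rewrite 2 [h8]
      exact hcinv
    have hb : b = 0 := (mul_eq_zero.1 h5).resolve_right h6
    subst hb
    exact ⟨by simpa using h3, rfl⟩

end rot

section lift

variable [FiniteDimensional F V] [Finite F] {hQ : Nondeg Q} {fr : LF Q} {H : Subgroup (OG Q)} (D : LD hQ fr H)

namespace LD

/-- The functional vanishes on root elements of a complement of dimension four for a field with at least four elements. -/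
lemma cc_zero_four' (hd : finrank F fr.W = 4) (hq : 4 ≤ Nat.card F)
    {e b : fr.W} (he0 : e ≠ 0) (he : Q e = 0) (hb : polar Q (e : V) b = 0) : D.cc (rr hQ (e : V) b) = 0 := by
  classical
  have hfin : Finite V := Module.finite_of_finite F
  obtain ⟨es, b₀, hes, h1, h2, h3, hb0⟩ := exists_perp_pair (hQ := hQ) (by omega) he0 he
  have hnd := fr.nd_W (nd_of_nondeg hQ)
  have hE : IsHyp (restr Q fr.W) e es := ⟨he, hes, by rw [polar_restr]; exact h1⟩
  set U := perp2 (restr Q fr.W) e es with hU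
  have hfrU : finrank F U = 2 := by
    have h0 : finrank F fr.W = 2 + finrank F U := hE.finrank_perp2
    omega
  have hnd' := hE.ND_perp2 hnd
  obtain ⟨u, v, hu, huv, hi⟩ := exists_rot_pair' hnd' hfrU hq
  have hQu : Q ((u : fr.W) : V) ≠ 0 := hu
  have hQv : Q ((v : fr.W) : V) ≠ 0 := by
    intro h
    apply hu
    rw [huv]
    exact h
  have huv' : Q ((u : fr.W) : V) = Q ((v : fr.W) : V) := huv
  set γ := refl hQ hQv * refl hQ hQu with hγdef
  have hγ : γ ∈ Gam fr.hyp_x := by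
    refine refl_prod_mem_Gam hQ fr.hyp_x ?_ (W_T _) (W_T _) hQu hQv huv'
    rw [fr.finrank_T_x]
    omega
  have hap : ∀ z : V, ap γ z = ap (refl hQ hQv) (ap (refl hQ hQu) z) := fun z => rfl
  have hfix : ∀ z : V, polar Q z ((u : fr.W) : V) = 0 → polar Q z ((v : fr.W) : V) = 0 → ap γ z = z := by
    intro z h4 h5
    rw [hap, ap_refl, ap_refl, h4]
    simp [h5]
  have hUm : ∀ z : U, polar Q (e : V) ((z : fr.W) : V) = 0 ∧ polar Q (es : V) ((z : fr.W) : V) = 0 := by
    intro z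
    have hz' := mem_perp2.1 z.2
    rwa [polar_restr, polar_restr] at hz'
  have hy : ap γ fr.y = fr.y := hfix _ (fr.y_W _) (fr.y_W _)
  have hys : ap γ fr.ys = fr.ys := hfix _ (fr.ys_W _) (fr.ys_W _)
  have hγe : ap γ (e : V) = e := hfix _ (hUm u).1 (hUm v).1
  have hγes : ap γ (es : V) = es := hfix _ (hUm u).2 (hUm v).2
  have hW := fixW hγ hy hys
  have hUU : ∀ z : U, (⟨_, hW z⟩ : fr.W) ∈ U := by
    intro z
    refine mem_perp2.2 ⟨?_, ?_⟩
    · rw [polar_restr]
      change polar Q (e : V) (ap γ _) = 0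
      rw [← hγe, ap_polar]
      exact (hUm z).1
    · rw [polar_restr]
      change polar Q (es : V) (ap γ _) = 0
      rw [← hγes, ap_polar]
      exact (hUm z).2
  let f : U → U := fun z => ⟨⟨_, hW z⟩, hUU z⟩ - z
  have hfix0 : ∀ z : U, ap γ ((z : fr.W) : V) = ((z : fr.W) : V) → z = 0 := by
    intro z hz
    rw [hap] at hz
    have h4 : ap (refl hQ hQu) ((z : fr.W) : V) = ap (refl hQ hQv) ((z : fr.W) : V) := by
      conv_rhs => rw [← hz]
      change _ = (refl hQ hQv : V ≃ₗ[F] V) ((refl hQ hQv : V ≃ₗ[F] V) _)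
      rw [(refl_isRefl hQ hQv).2, (refl_isRefl hQ hQv).2, reflLin_invol hQv]
    rw [ap_refl, ap_refl] at h4
    have h5 : (polar Q ((z : fr.W) : V) ((u : fr.W) : V) / Q ((u : fr.W) : V)) • u
        + (-(polar Q ((z : fr.W) : V) ((v : fr.W) : V) / Q ((v : fr.W) : V))) • v = 0 := by
      apply Subtype.ext
      apply Subtype.ext
      simp only [Submodule.coe_add, Submodule.coe_smul, ZeroMemClass.coe_zero]
      linear_combination (norm := module) -h4
    obtain ⟨h6, h7⟩ := hi.smul_add h5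
    have h8 : polar Q ((z : fr.W) : V) ((u : fr.W) : V) = 0 := by
      rcases (div_eq_zero_iff.1 h6) with h | h
      · exact h
      · exact absurd h hQu
    have h9 : polar Q ((z : fr.W) : V) ((v : fr.W) : V) = 0 := by
      rw [neg_eq_zero] at h7
      rcases (div_eq_zero_iff.1 h7) with h | h
      · exact h
      · exact absurd h hQv
    refine perp_pair_zero hnd' hfrU hi ?_ ?_
    · rw [polar_restr, polar_restr, polar_comm]; exact h8
    · rw [polar_restr, polar_restr, polar_comm]; exact h9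
  have hf : Function.Injective f := by
    intro z z' hzz
    have h4 : z - z' = 0 := by
      apply hfix0
      have h5 := congrArg (fun a : U => ((a : fr.W) : V)) hzz
      simp only [f, Submodule.coe_sub] at h5
      simp only [Submodule.coe_sub]
      rw [show ap γ (((z : fr.W) : V) - ((z' : fr.W) : V)) = ap γ ((z : fr.W) : V) - ap γ ((z' : fr.W) : V) from
        map_sub _ _ _]
      linear_combination (norm := module) h5
    exact sub_eq_zero.1 h4
  have hfs := Finite.injective_iff_surjective.1 hf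
  -- reduction to `U`
  have hb₁ : (b : V) - polar Q (es : V) b • (e : V) ∈ fr.W := fr.W.sub_mem b.2 (fr.W.smul_mem _ e.2)
  have hb₂ : (⟨_, hb₁⟩ : fr.W) ∈ U := by
    refine mem_perp2.2 ⟨?_, ?_⟩
    · rw [polar_restr]
      change polar Q (e : V) ((b : V) - _) = 0
      rw [polar_sub_right, polar_smul_r, hb, polar_self_of_singular he]; ring
    · rw [polar_restr]
      change polar Q (es : V) ((b : V) - _) = 0
      have h4 : polar Q (es : V) e = 1 := by rw [polar_comm]; exact h1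
      rw [polar_sub_right, polar_smul_r, h4]; ring
  obtain ⟨z, hz⟩ := hfs ⟨_, hb₂⟩
  have hzb : ap γ ((z : fr.W) : V) - ((z : fr.W) : V) = (b : V) - polar Q (es : V) b • (e : V) := by
    have h5 := congrArg (fun a : U => ((a : fr.W) : V)) hz
    simpa [f] using h5
  have hez := (hUm z).1
  have hez' : polar Q (e : V) (ap γ ((z : fr.W) : V)) = 0 := by
    rw [← hγe, ap_polar]
    exact hez
  have hp : polar Q (e : V) ((b : V) - polar Q (es : V) b • (e : V)) = 0 := by
    rw [polar_sub_right, polar_smul_r, hb, polar_self_of_singular he]; ring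
  have e1 : rr hQ (e : V) b = rr hQ (e : V) (ap γ ((z : fr.W) : V)) * (rr hQ (e : V) ((z : fr.W) : V))⁻¹ := by
    rw [← rr_sub hQ he hez' hez, hzb]
    have := rr_add_smul hQ he hp (polar Q (es : V) b)
    simp only [sub_add_cancel] at this
    exact this
  have e2 : rr hQ (e : V) (ap γ ((z : fr.W) : V)) = γ * rr hQ (e : V) ((z : fr.W) : V) * γ⁻¹ := by
    rw [rr_conj hQ γ he hez, hγe]
  have hr := rrW_mem (hQ := hQ) (fr := fr) (e := e) (b := (z : fr.W)) he hez
  have hrfix : ap (rr hQ (e : V) ((z : fr.W) : V)) fr.y = fr.y := rrW_fix he hez (fr.y_W _) (fr.y_W _)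
  have hconj_mem : γ * rr hQ (e : V) ((z : fr.W) : V) * γ⁻¹ ∈ Gam fr.hyp_x :=
    mul_mem (mul_mem hγ hr) (inv_mem hγ)
  have hconj_fix : ap (γ * rr hQ (e : V) ((z : fr.W) : V) * γ⁻¹) fr.y = fr.y := by
    have h5 : ap γ⁻¹ fr.y = fr.y := by
      conv_lhs => rw [← hy]
      exact ap_inv_self γ fr.y
    rw [ap_mul, ap_mul, h5, hrfix, hy]
  rw [e1, e2, D.cc_mul hconj_mem (inv_mem hr) hconj_fix, D.cc_conj hγ hr hy hrfix, D.cc_inv hr hrfix]
  ring

include D in
/-- In a complement of dimension four every singular vector is an eigenvector. -/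
lemma eigen_sing (hd : finrank F fr.W = 4) (hq : 4 ≤ Nat.card F) {e : fr.W} (he0 : e ≠ 0) (he : Q (e : V) = 0) :
    ∃ τ : F, (τ • e, e) ∈ Heis.Ss (fr.L hQ H) :=
  D.eigen_of_cc_zero (by omega) he0 he fun b hb => D.cc_zero_four' hd hq he0 he hb

include D in
/-- Orthogonal singular vectors have the same eigenvalue. -/
lemma eigen_same (hd : finrank F fr.W = 4) (hq : 4 ≤ Nat.card F) {e e' : fr.W} (he : Q (e : V) = 0)
    (he' : Q (e' : V) = 0) (hp : polar Q (e : V) e' = 0) (hi : Ind (F := F) e e') {τ τ' : F}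
    (h : (τ • e, e) ∈ Heis.Ss (fr.L hQ H)) (h' : (τ' • e', e') ∈ Heis.Ss (fr.L hQ H)) : τ = τ' := by
  have hs : Q ((e + e' : fr.W) : V) = 0 := by rw [Submodule.coe_add, Q_add, he, he', hp]; ring
  have h0 : e + e' ≠ 0 := by
    intro h1
    have := hi.smul_add (a := 1) (b := 1) (by simpa using h1)
    exact one_ne_zero this.1
  obtain ⟨τ'', h''⟩ := D.eigen_sing hd hq h0 hs
  have h1 := (Heis.Ss (fr.L hQ H)).add_mem h h'
  have h2 := D.S_unique h'' h1
  have h3 : (τ'' - τ) • e + (τ'' - τ') • e' = 0 := by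
    simp only at h2
    rw [sub_smul, sub_smul, smul_add] at *
    rw [sub_add_sub_comm, h2]
    exact sub_self _
  obtain ⟨h4, h5⟩ := hi.smul_add h3
  linear_combination h5 - h4

include D in
/-- In a complement of dimension four and plus type, the graph is a scalar. -/
theorem exists_tau (hd : finrank F fr.W = 4) (hq : 4 ≤ Nat.card F)
    (hp4 : ∀ e es : fr.W, Q e = 0 → Q es = 0 → polar Q (e : V) es = 1 →
      ∃ z : fr.W, z ≠ 0 ∧ polar Q (e : V) z = 0 ∧ polar Q (es : V) z = 0 ∧ Q (z : V) = 0) :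
    ∃ τ : F, ∀ v : fr.W, (τ • v, v) ∈ Heis.Ss (fr.L hQ H) := by
  have hnd := fr.nd_W (nd_of_nondeg hQ)
  obtain ⟨e₀, he₀0, he₀⟩ := exists_singular (restr Q fr.W) (by omega)
  have he₀' : Q (e₀ : V) = 0 := he₀
  obtain ⟨es₀, hes₀⟩ := exists_hyp_partner hnd he₀0 he₀
  have hpe₀ : polar Q (e₀ : V) es₀ = 1 := by
    have := hes₀.vw
    rwa [polar_restr] at this
  obtain ⟨τ₀, hτ₀⟩ := D.eigen_sing hd hq he₀0 he₀'
  have connect : ∀ {e z : fr.W} {τ τz : F}, Q (e : V) = 0 → Q (z : V) = 0 → polar Q (e₀ : V) z = 0 →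
      polar Q (e : V) z = 0 → Ind (F := F) e₀ z → Ind (F := F) e z → (τ • e, e) ∈ Heis.Ss (fr.L hQ H) →
      τ = τ₀ := by
    intro e z τ τz he hz h1 h2 h3 h4 h5
    obtain ⟨τz, hτz⟩ := D.eigen_sing hd hq h3.1 hz
    have e1 := D.eigen_same hd hq he₀' hz h1 h3 hτ₀ hτz
    have e2 := D.eigen_same hd hq he hz h2 h4 h5 hτz
    rw [e2, e1]
  have claim : ∀ e : fr.W, e ≠ 0 → Q (e : V) = 0 → (τ₀ • e, e) ∈ Heis.Ss (fr.L hQ H) := by
    intro e he0 he
    obtain ⟨τ, hτ⟩ := D.eigen_sing hd hq he0 he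
    suffices h : τ = τ₀ by rwa [h] at hτ
    by_cases hpe : polar Q (e₀ : V) e = 0
    · by_cases hi : Ind (F := F) e₀ e
      · exact (D.eigen_same hd hq he₀' he hpe hi hτ₀ hτ).symm
      · have hc : ∃ c : F, e₀ = c • e := by
          by_contra hno
          push Not at hno
          exact hi ⟨he0, hno⟩
        obtain ⟨c, hc⟩ := hc
        have hc0 : c ≠ 0 := by
          rintro rfl
          rw [zero_smul] at hc
          exact he₀0 hc
        obtain ⟨z, hz0, hz1, hz2, hz3⟩ := hp4 e₀ es₀ he₀' hes₀.Qw hpe₀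
        have h1 : polar Q (e : V) z = 0 := by
          have : polar Q (e₀ : V) z = c * polar Q (e : V) z := by
            rw [hc, Submodule.coe_smul, polar_smul_l]
          rw [this] at hz1
          exact (mul_eq_zero.1 hz1).resolve_left hc0
        have hes1 : polar Q (es₀ : V) e₀ = 1 := by rw [polar_comm]; exact hpe₀
        refine connect (z := z) (τz := 0) he hz3 hz1 h1 ⟨hz0, fun d hd => ?_⟩ ⟨hz0, fun d hd => ?_⟩ hτ
        · rw [hd, Submodule.coe_smul, polar_smul_r, hz2, mul_zero] at hes1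
          exact zero_ne_one hes1
        · have : polar Q (es₀ : V) e₀ = c * polar Q (es₀ : V) e := by
            rw [hc, Submodule.coe_smul, polar_smul_r]
          rw [this, hd, Submodule.coe_smul, polar_smul_r, hz2, mul_zero, mul_zero] at hes1
          exact zero_ne_one hes1
    · set p := polar Q (e₀ : V) e with hpdef
      obtain ⟨z, hz0, hz1, hz2, hz3⟩ := hp4 e₀ (p⁻¹ • e) he₀' (by
        rw [Submodule.coe_smul, Q_smul, he, mul_zero]) (by
        rw [Submodule.coe_smul, polar_smul_r, ← hpdef]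
        exact inv_mul_cancel₀ hpe)
      have h1 : polar Q (e : V) z = 0 := by
        rw [Submodule.coe_smul, polar_smul_l] at hz2
        exact (mul_eq_zero.1 hz2).resolve_left (inv_ne_zero hpe)
      refine connect (z := z) (τz := 0) he hz3 hz1 h1 ⟨hz0, fun d hd => ?_⟩ ⟨hz0, fun d hd => ?_⟩ hτ
      · apply hpe
        rw [hpdef, hd, Submodule.coe_smul, polar_smul_l, polar_comm, h1, mul_zero]
      · apply hpe
        rw [hpdef, hd, Submodule.coe_smul, polar_smul_r, hz1, mul_zero]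
  refine ⟨τ₀, fun v => ?_⟩
  refine sing_induct hes₀ (P := fun v => (τ₀ • v, v) ∈ Heis.Ss (fr.L hQ H)) (fun v hv => ?_) (fun u v hu hv => ?_) v
  · by_cases hv0 : v = 0
    · subst hv0
      have h0 : (τ₀ • (0 : fr.W), (0 : fr.W)) = 0 := by simp
      rw [h0]
      exact (Heis.Ss (fr.L hQ H)).zero_mem
    · exact claim v hv0 hv
  · have := (Heis.Ss (fr.L hQ H)).add_mem hu hv
    simpa [smul_add] using this

end LD

end lift

section star

variable [FiniteDimensional F V] [Finite F] (hQ : Nondeg Q) {H : Subgroup (OG Q)}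

/-- A special point of a line through a regular point is the special one. -/
theorem tau_unique (h7 : 7 ≤ finrank F V) (fr : LF Q) (hd : finrank F fr.W = 4)
    (hm : H.relIndex (siegelE Q) < (Nat.card F + 2) * (Nat.card F * Nat.card fr.W))
    (D : LD hQ fr H) (hx : ¬ InA hQ H fr.x) {τ₀ : F} (h₀ : ∀ v : fr.W, (τ₀ • v, v) ∈ Heis.Ss (fr.L hQ H)) {τ : F}
    (hτ : InA hQ H (τ • fr.x + fr.y)) : τ = τ₀ := by
  classical
  by_contra hne
  have : Finite V := Module.finite_of_finite F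
  have D' := fr.pd_tau τ
  set e : V := τ • fr.x + fr.y with he
  have hQe : Q e = 0 := D'.Qe
  have hexs : polar Q e fr.ys = 1 := by
    rw [he, polar_add_left, polar_smul_l, fr.xys, fr.yys]; ring
  have hyp : IsHyp Q e fr.ys := ⟨hQe, fr.Qys, hexs⟩
  have hXG : ∀ a ∈ XG hQ H (fr.pd_tau τ), a = 0 := by
    intro a ha
    have h1 := D.S_unique (fr.Ss_of_tau hQ τ ha) (h₀ a)
    have h2 : (τ - τ₀) • a = 0 := by rw [sub_smul, h1, sub_self]
    exact (smul_eq_zero.1 h2).resolve_left (sub_ne_zero.2 hne)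
  have hcard : Nat.card (XG hQ H (fr.pd_tau τ)) = 1 := by
    rw [Nat.card_eq_one_iff_unique]
    exact ⟨⟨fun a b => Subtype.ext ((hXG a a.2).trans (hXG b b.2).symm)⟩, ⟨0⟩⟩
  have hpx : polar Q e fr.x = 0 := D'.ez
  have hind : Ind (F := F) e fr.x := by
    refine ⟨fr.x_ne, fun c hc => ?_⟩
    rw [hc, polar_smul_l, fr.xys, mul_zero] at hexs
    exact zero_ne_one hexs
  have hgood : ∀ c : F, c ≠ 0 → rr hQ e (c • fr.x) ∉ H := good_of_not_inA hQ hQe fr.Qx hpx hind hx
  have hfT : finrank F (perp2 Q e fr.ys) = 2 + finrank F fr.W := by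
    have h1 := hyp.finrank_perp2
    have h2 := fr.finrank_W
    omega
  have hT : Nat.card (perp2 Q e fr.ys) = Nat.card F ^ 2 * Nat.card fr.W := by
    rw [Module.natCard_eq_pow_finrank (K := F), Module.natCard_eq_pow_finrank (K := F) (V := fr.W), hfT, pow_add]
  have hxmem : fr.x ∈ perp2 Q e fr.ys := mem_perp2.2 ⟨hpx, fr.ysx⟩
  obtain ⟨t₀, ht₀, h0⟩ := hτ.exists_YY hQ hyp
  have hK := KK_ne_top hQ hyp h7 (y := ⟨fr.x, hxmem⟩) fr.Qx (fun hmem => by
    apply hgood 1 one_ne_zero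
    rw [one_smul]
    exact hmem) ht₀ h0
  have hnT := nondeg_T hyp hQ
  have hi := lemmaI hnT (by omega) (not_le_KK' hQ hyp hK)
  rw [relIndex_KK', hfT, hd] at hi
  have hP := point_ineq hQ (fr.pd_tau τ) hyp fr.xys (by
      rw [polar_sub_left, polar_smul_l, fr.xsys, fr.ysys]; ring)
    (fun u h1 h2 h3 h4 => fr.mem_W.2 ⟨h3, ?_, ?_, h2⟩) hgood hT (i₀ := Nat.card F ^ (2 + 4 - 3)) hi
  · rw [hcard, mul_one] at hP
    set q := Nat.card F with hq
    have hq2 : 2 ≤ q := Finite.one_lt_card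
    have hw : 0 < q * Nat.card fr.W := Nat.mul_pos (by omega) Nat.card_pos
    have h3 : q * Nat.card fr.W * q ^ 3 < (q + 2) * (q * Nat.card fr.W) := lt_of_le_of_lt hP hm
    rw [mul_comm (q + 2)] at h3
    have h4 := Nat.lt_of_mul_lt_mul_left h3
    have h5 : q + 2 ≤ q ^ 3 := by nlinarith [Nat.pos_of_ne_zero (pow_ne_zero 2 (by omega : q ≠ 0))]
    omega
  · have h5 := h1
    rw [polar_add_left, polar_smul_l, h3, mul_zero, zero_add] at h5
    exact h5
  · have h5 := h4
    rw [polar_sub_left, polar_smul_l, h2, mul_zero, sub_zero] at h5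
    exact h5

/-- The geometric hyperplane of special points, in dimension eight, plus type. -/
theorem star_D4 (hd8 : finrank F V = 8) (hq : 4 ≤ Nat.card F)
    (hp4 : ∀ (fr : LF Q) (e es : fr.W), Q e = 0 → Q es = 0 → polar Q (e : V) es = 1 →
      ∃ z : fr.W, z ≠ 0 ∧ polar Q (e : V) z = 0 ∧ polar Q (es : V) z = 0 ∧ Q (z : V) = 0)
    (hm : H.relIndex (siegelE Q) < (Nat.card F + 2) * Nat.card F ^ 5) : Star Q (InA hQ H) := by
  have hW : ∀ fr : LF Q, finrank F fr.W = 4 := fun fr => by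
    have := fr.finrank_W
    omega
  have hbound : ∀ fr : LF Q, H.relIndex (siegelE Q) < (Nat.card F + 2) * (Nat.card F * Nat.card fr.W) := by
    intro fr
    have hc : Nat.card fr.W = Nat.card F ^ finrank F fr.W := Module.natCard_eq_pow_finrank
    have e1 : Nat.card F ^ 5 = Nat.card F * Nat.card fr.W := by
      rw [hc, hW fr, pow_succ']
    rwa [e1] at hm
  refine ⟨fun x h => h.2.1, fun x h => h.1, fun x c h hc => h.smul hc, ?_, ?_⟩
  · intro x y hx hy hxy hi hn
    obtain ⟨fr, h1, h2⟩ := exists_frame (nd_of_nondeg hQ) hy hx (by rw [polar_comm]; exact hxy) hi.symm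
    obtain ⟨D⟩ := exists_LD hQ fr (hbound fr) (by rw [h1]; exact hn)
    obtain ⟨e, he0, he⟩ := exists_singular (restr Q fr.W) (by have := hW fr; omega)
    obtain ⟨τ, hτ⟩ := D.eigen_sing (hW fr) hq he0 he
    have h3 := LD.inA_of_eigen he0 hτ
    refine ⟨τ, ?_⟩
    rw [h1, h2, add_comm] at h3
    exact h3
  · intro x y τ τ' hx hy hxy hi hn ha hb
    obtain ⟨fr, h1, h2⟩ := exists_frame (nd_of_nondeg hQ) hy hx (by rw [polar_comm]; exact hxy) hi.symm
    obtain ⟨D⟩ := exists_LD hQ fr (hbound fr) (by rw [h1]; exact hn)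
    obtain ⟨τ₀, hτ₀⟩ := D.exists_tau (hW fr) hq (hp4 fr)
    have h7 : 7 ≤ finrank F V := by omega
    have e1 := tau_unique hQ h7 fr (hW fr) (hbound fr) D (by rw [h1]; exact hn) hτ₀ (τ := τ) (by
      rw [h1, h2, add_comm]
      exact ha)
    have e2 := tau_unique hQ h7 fr (hW fr) (hbound fr) D (by rw [h1]; exact hn) hτ₀ (τ := τ') (by
      rw [h1, h2, add_comm]
      exact hb)
    rw [e1, e2]

include hQ in
/-- A regular point forces a stable point. -/
theorem exists_stable_of_regular (hd8 : finrank F V = 8) (hq : 4 ≤ Nat.card F)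
    (hp4 : ∀ (fr : LF Q) (e es : fr.W), Q e = 0 → Q es = 0 → polar Q (e : V) es = 1 →
      ∃ z : fr.W, z ≠ 0 ∧ polar Q (e : V) z = 0 ∧ polar Q (es : V) z = 0 ∧ Q (z : V) = 0)
    (hm : H.relIndex (siegelE Q) < (Nat.card F + 2) * Nat.card F ^ 5)
    {y₀ : V} (hy : Q y₀ = 0) (hy0 : y₀ ≠ 0) (hn : ¬ InA hQ H y₀) :
    ∃ p₀ : V, p₀ ≠ 0 ∧ ∀ g ∈ H, ∃ c : F, ap g p₀ = c • p₀ := by
  have S := star_D4 hQ hd8 hq hp4 hm
  obtain ⟨p₀, hp0, hp, huniq⟩ := hyperplane_of_star (nd_of_nondeg hQ) (by omega) S hy hy0 hn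
  refine ⟨p₀, hp0, fun g hg => huniq _ fun a ha => ?_⟩
  have h1 := ha.conj (inv_mem hg)
  have h2 := hp _ h1
  rw [← ap_polar g, ap_self_inv] at h2
  exact h2

include hQ in
/-- The lower bound for subgroups with a regular point. -/
theorem lower_of_regular (hd8 : finrank F V = 8) (hq : 4 ≤ Nat.card F)
    (hp4 : ∀ (fr : LF Q) (e es : fr.W), Q e = 0 → Q es = 0 → polar Q (e : V) es = 1 →
      ∃ z : fr.W, z ≠ 0 ∧ polar Q (e : V) z = 0 ∧ polar Q (es : V) z = 0 ∧ Q (z : V) = 0)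
    {T : ℕ} (hT : T ≤ (Nat.card F + 2) * Nat.card F ^ 5)
    (hZ : T * (Nat.card F - 1) ≤ Nat.card {v : V // v ≠ 0 ∧ Q v = 0})
    (hc : ∀ c : F, c ≠ 0 → T * Nat.card {d : F // d ≠ 0 ∧ d ^ 2 * c = c} ≤ Nat.card {v : V // v ≠ 0 ∧ Q v = c})
    {y₀ : V} (hy : Q y₀ = 0) (hy0 : y₀ ≠ 0) (hn : ¬ InA hQ H y₀) : T ≤ H.relIndex (siegelE Q) := by
  by_contra hlt
  push Not at hlt
  obtain ⟨p, hp, hstab⟩ := exists_stable_of_regular hQ hd8 hq hp4 (lt_of_lt_of_le hlt hT) hy hy0 hn
  have hle : H ≤ lineStab hp := fun g hg => hstab g hg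
  have h1 := Subgroup.relIndex_le_of_le_left (L := siegelE Q) hle (relIndex_ne_zero' H (siegelE Q))
  have h2 := card_eq_lineStab hQ (by omega) hp
  set L := (lineStab (Q := Q) hp).relIndex (siegelE Q) with hL
  have hq2 : 2 ≤ Nat.card F := Finite.one_lt_card
  have h3 : L < T := lt_of_le_of_lt h1 hlt
  by_cases hQp : Q p = 0
  · rw [hQp, card_R_zero] at h2
    have h4 := hZ.trans (le_of_eq h2)
    have h5 := Nat.le_of_mul_le_mul_right h4 (by omega)
    omega
  · have h4 := hc _ hQp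
    rw [h2] at h4
    have h5 := Nat.le_of_mul_le_mul_right h4 (card_R_pos _)
    omega

end star

section count

variable {F : Type*} [Field F] [Fintype F] {V : Type*} [AddCommGroup V] [Module F V]
  {Q : QuadraticForm F V}

/-- The chain of hyperbolic planes in dimension eight. -/
noncomputable def S3 (fr : LF Q) (e es : fr.W) : Submodule F V :=
  ((⊤ ⊓ perp2 Q fr.x fr.xs) ⊓ perp2 Q fr.y fr.ys) ⊓ perp2 Q (e : V) (es : V)

/-- The number of zeros in terms of the last plane. -/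
theorem zeros_chain [Finite V] (hcard : Nat.card V = Fintype.card F ^ 8) (fr : LF Q) (e es : fr.W) (he : Q (e : V) = 0)
    (hes : Q (es : V) = 0) (hees : polar Q (e : V) es = 1) :
    Nat.card {v : V // Q v = 0} + Fintype.card F ^ 4
      = Fintype.card F ^ 7 + Fintype.card F ^ 3 * Nat.card {t : S3 fr e es // Q t = 0} := by
  set q := Fintype.card F with hq
  have hq2 : 2 ≤ q := Fintype.one_lt_card
  have hq0 : 0 < q := by omega
  set S₀ : Submodule F V := ⊤ with hS₀
  have h₁ : IsHyp Q fr.x fr.xs := ⟨fr.Qx, fr.Qxs, fr.xxs⟩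
  have h₂ : IsHyp Q fr.y fr.ys := ⟨fr.Qy, fr.Qys, fr.yys⟩
  have h₃ : IsHyp Q (e : V) (es : V) := ⟨he, hes, hees⟩
  set S₁ : Submodule F V := S₀ ⊓ perp2 Q fr.x fr.xs with hS₁
  have hy₁ : fr.y ∈ S₁ := ⟨trivial, mem_perp2.2 ⟨fr.xy, by rw [polar_comm]; exact fr.yxs⟩⟩
  have hys₁ : fr.ys ∈ S₁ := ⟨trivial, mem_perp2.2 ⟨fr.xys, fr.xsys⟩⟩
  set S₂ : Submodule F V := S₁ ⊓ perp2 Q fr.y fr.ys with hS₂
  have hW : ∀ w : fr.W, (w : V) ∈ S₂ := by
    intro w
    obtain ⟨w1, w2, w3, w4⟩ := fr.mem_W.1 w.2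
    exact ⟨⟨trivial, mem_perp2.2 ⟨w1, w3⟩⟩, mem_perp2.2 ⟨w2, w4⟩⟩
  have hS₃ : S3 fr e es = S₂ ⊓ perp2 Q (e : V) (es : V) := rfl
  rw [hS₃]
  set S₃ : Submodule F V := S₂ ⊓ perp2 Q (e : V) (es : V) with hS₃'
  have c₀ : Nat.card S₀ = q ^ 8 := by
    rw [← hcard]
    exact Nat.card_congr Submodule.topEquiv.toEquiv
  have c₁ := card_sub_hyp S₀ (Submodule.mem_top) (Submodule.mem_top) h₁
  have c₂ := card_sub_hyp S₁ hy₁ hys₁ h₂
  have c₃ := card_sub_hyp S₂ (hW e) (hW es) h₃
  have z₁ := zeros_sub_hyp S₀ (Submodule.mem_top) (Submodule.mem_top) h₁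
  have z₂ := zeros_sub_hyp S₁ hy₁ hys₁ h₂
  have z₃ := zeros_sub_hyp S₂ (hW e) (hW es) h₃
  rw [← hS₁] at c₁ z₁
  rw [← hS₂] at c₂ z₂
  rw [← hS₃'] at c₃ z₃
  rw [← hq] at c₁ c₂ c₃ z₁ z₂ z₃
  have n₁ : Nat.card S₁ = q ^ 6 := by
    have : q ^ 2 * Nat.card S₁ = q ^ 2 * q ^ 6 := by
      calc q ^ 2 * Nat.card S₁ = q * (q * Nat.card S₁) := by ring
        _ = Nat.card S₀ := c₁.symm
        _ = q ^ 2 * q ^ 6 := by rw [c₀]; ring
    exact Nat.eq_of_mul_eq_mul_left (by positivity) this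
  have n₂ : Nat.card S₂ = q ^ 4 := by
    have : q ^ 2 * Nat.card S₂ = q ^ 2 * q ^ 4 := by
      calc q ^ 2 * Nat.card S₂ = q * (q * Nat.card S₂) := by ring
        _ = Nat.card S₁ := c₂.symm
        _ = q ^ 2 * q ^ 4 := by rw [n₁]; ring
    exact Nat.eq_of_mul_eq_mul_left (by positivity) this
  have n₃ : Nat.card S₃ = q ^ 2 := by
    have : q ^ 2 * Nat.card S₃ = q ^ 2 * q ^ 2 := by
      calc q ^ 2 * Nat.card S₃ = q * (q * Nat.card S₃) := by ring
        _ = Nat.card S₂ := c₃.symm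
        _ = q ^ 2 * q ^ 2 := by rw [n₂]; ring
    exact Nat.eq_of_mul_eq_mul_left (by positivity) this
  have z₀ : Nat.card {v : S₀ // Q v = 0} = Nat.card {v : V // Q v = 0} := by
    apply Nat.card_congr
    refine ⟨fun v => ⟨v.1.1, v.2⟩, fun v => ⟨⟨v.1, trivial⟩, v.2⟩, fun _ => rfl, fun _ => rfl⟩
  rw [n₁] at z₁
  rw [n₂] at z₂
  rw [n₃] at z₃
  rw [z₀] at z₁
  rw [z₁, z₂, z₃]
  obtain ⟨r, hr⟩ : ∃ r, q = r + 1 := ⟨q - 1, by omega⟩
  have hr' : q - 1 = r := by omega
  rw [hr']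
  rw [hr]
  ring

/-- Plus type: in the last plane there is a non-zero singular vector. -/
theorem plus3_of_zeros [Finite V] (hcard : Nat.card V = Fintype.card F ^ 8)
    (hZ : Nat.card {v : V // Q v = 0} + Fintype.card F ^ 3 = Fintype.card F ^ 7 + Fintype.card F ^ 4)
    (fr : LF Q) (e es : fr.W) (he : Q (e : V) = 0) (hes : Q (es : V) = 0) (hees : polar Q (e : V) es = 1) :
    ∃ z : fr.W, z ≠ 0 ∧ polar Q (e : V) z = 0 ∧ polar Q (es : V) z = 0 ∧ Q (z : V) = 0 := by
  by_contra hno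
  push Not at hno
  have h1 := zeros_chain hcard fr e es he hes hees
  have hone : Nat.card {t : S3 fr e es // Q t = 0} = 1 := by
    rw [Nat.card_eq_one_iff_unique]
    refine ⟨⟨?_⟩, ⟨⟨0, by simp⟩⟩⟩
    have key : ∀ t : {t : S3 fr e es // Q t = 0}, ((t : S3 fr e es) : V) = 0 := by
      rintro ⟨⟨t, ht⟩, hQt⟩
      have ht' : t ∈ fr.W := by
        obtain ⟨⟨⟨-, a⟩, b⟩, -⟩ := ht
        obtain ⟨a1, a2⟩ := mem_perp2.1 a
        obtain ⟨b1, b2⟩ := mem_perp2.1 b
        exact fr.mem_W.2 ⟨a1, b1, a2, b2⟩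
      obtain ⟨c1, c2⟩ := mem_perp2.1 ht.2
      by_contra h0
      exact hno ⟨t, ht'⟩ (fun h => h0 (congrArg Subtype.val h)) c1 c2 hQt
    intro a b
    exact Subtype.ext (Subtype.ext ((key a).trans (key b).symm))
  rw [hone, mul_one] at h1
  set q := Fintype.card F with hq
  have hq2 : 2 ≤ q := Fintype.one_lt_card
  have h3 : q ^ 3 < q ^ 4 := Nat.pow_lt_pow_right (by omega) (by omega)
  omega

end count

end Cfsg.Agent.Lib.OmIdx
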