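import Mathlib
import Cfsg.Agent.Lib.OmIdxM

/-!
# Minimal index in orthogonal groups: a good line with three special points

In dimension eight, if a good line has three special points, then the intersection of the subgroup with the
Heisenberg group of the line spans `S × S` for a totally isotropic plane `S` of the complement.
-/

set_option autoImplicit false
set_option linter.unusedSectionVars false
set_option linter.unusedVariables false

namespace Cfsg.Agent.Lib.OmIdx

open Module QuadraticMap Cfsg.Agent.Lib.OrthoBasic Cfsg.Agent.Lib.OrthoSiegel Cfsg.Agent.Lib.OrthoGen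
  Cfsg.Agent.Lib.QuadFF Cfsg.Agent.Lib.OmGeo

variable {F : Type*} [Field F] {V : Type*} [AddCommGroup V] [Module F V] {Q : QuadraticForm F V}

section

variable [FiniteDimensional F V] [Finite F] (hQ : Nondeg Q) {H : Subgroup (OG Q)}

/-- The estimate for the additive group at a special point of a good line. -/
theorem XG_large (h7 : 7 ≤ finrank F V) {e z s f : V} {U : Submodule F V} (D : PD Q e z s U) (h : IsHyp Q e f)
    (hzf : polar Q z f = 0) (hsf : polar Q s f = 0)
    (hU : ∀ u, polar Q e u = 0 → polar Q f u = 0 → polar Q z u = 0 → polar Q s u = 0 → u ∈ U)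
    (hgood : ∀ c : F, c ≠ 0 → rr hQ e (c • z) ∉ H)
    (hT : Nat.card (perp2 Q e f) = Nat.card F ^ 2 * Nat.card U) (hfT : finrank F (perp2 Q e f) = 6)
    (hA : InA hQ H e) (hm : H.relIndex (siegelE Q) < (Nat.card F + 2) * (Nat.card F * Nat.card U)) :
    Nat.card F < Nat.card (XG hQ H D) := by
  have : Finite V := Module.finite_of_finite F
  have hzmem : z ∈ perp2 Q e f := mem_perp2.2 ⟨D.ez, by rw [polar_comm]; exact hzf⟩
  obtain ⟨t₀, ht₀, h0⟩ := hA.exists_YY hQ h
  have hK := KK_ne_top hQ h h7 (y := ⟨z, hzmem⟩) D.Qz (fun hmem => by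
    apply hgood 1 one_ne_zero
    rw [one_smul]
    exact hmem) ht₀ h0
  have hi := lemmaI (nondeg_T h hQ) (by omega) (not_le_KK' hQ h hK)
  rw [relIndex_KK', hfT] at hi
  have hP := point_ineq hQ D h hzf hsf hU hgood hT hi
  by_contra hle
  push Not at hle
  set q := Nat.card F with hq
  have hq2 : 2 ≤ q := Finite.one_lt_card
  have hw : 0 < q * Nat.card U := Nat.mul_pos (by omega) Nat.card_pos
  have h1 : q * Nat.card U * q ^ 3 ≤ H.relIndex (siegelE Q) * q := hP.trans (Nat.mul_le_mul_left _ hle)
  have h2 : H.relIndex (siegelE Q) * q < (q + 2) * (q * Nat.card U) * q := Nat.mul_lt_mul_of_pos_right hm (by omega)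
  have h3 : q * Nat.card U * q ^ 3 < q * Nat.card U * ((q + 2) * q) := by
    calc _ ≤ H.relIndex (siegelE Q) * q := h1
      _ < (q + 2) * (q * Nat.card U) * q := h2
      _ = _ := by ring
  have h4 := Nat.lt_of_mul_lt_mul_left h3
  have h5 : (q + 2) * q ≤ q ^ 3 := by
    have : q + 2 ≤ q ^ 2 := by nlinarith
    calc (q + 2) * q ≤ q ^ 2 * q := Nat.mul_le_mul_right _ this
      _ = q ^ 3 := by ring
  omega

end

section linear

variable [FiniteDimensional F V] [Finite F]

/-- The dimension bound for orthogonal subspaces of a complement. -/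
lemma finrank_add_le_of_orth {Q : QuadraticForm F V} (hQ : Nondeg Q) (fr : LF Q) {A C : Submodule F fr.W}
    (h : ∀ a ∈ A, ∀ c ∈ C, polar Q (a : V) (c : V) = 0) : finrank F A + finrank F C ≤ finrank F fr.W := by
  have : Finite V := Module.finite_of_finite F
  have hcardS := card_mul_le_orth fr.B (fr.B_nd hQ) A.toAddSubgroup C.toAddSubgroup (fun a ha b hb => h a ha b hb)
  have hc₁ : Nat.card A.toAddSubgroup = Nat.card F ^ finrank F A := by
    change Nat.card A = _
    exact Module.natCard_eq_pow_finrank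
  have hc₂ : Nat.card C.toAddSubgroup = Nat.card F ^ finrank F C := by
    change Nat.card C = _
    exact Module.natCard_eq_pow_finrank
  have hcW : Nat.card fr.W = Nat.card F ^ finrank F fr.W := Module.natCard_eq_pow_finrank
  rw [hc₁, hc₂, hcW, ← pow_add] at hcardS
  have hq2 : 1 < Nat.card F := Finite.one_lt_card
  exact (Nat.pow_le_pow_iff_right hq2).1 hcardS

/-- Orthogonality passes to spans. -/
lemma orth_span {Q : QuadraticForm F V} {W : Submodule F V} {X X' : Set W}
    (h : ∀ a ∈ X, ∀ b ∈ X', polar Q (a : V) (b : V) = 0) :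
    ∀ a ∈ Submodule.span F X, ∀ b ∈ Submodule.span F X', polar Q (a : V) (b : V) = 0 := by
  intro a ha b hb
  have step1 : ∀ b ∈ X', polar Q (a : V) (b : V) = 0 := by
    intro b hb
    induction ha using Submodule.span_induction with
    | mem x hx => exact h x hx b hb
    | zero => simp
    | add x y _ _ hx hy => rw [Submodule.coe_add, polar_add_left, hx, hy, add_zero]
    | smul c x _ hx => rw [Submodule.coe_smul, polar_smul_l, hx, mul_zero]
  induction hb using Submodule.span_induction with
  | mem x hx => exact step1 x hx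
  | zero => simp
  | add x y _ _ hx hy => rw [Submodule.coe_add, polar_add_right, hx, hy, add_zero]
  | smul c x _ hx => rw [Submodule.coe_smul, polar_smul_r, hx, mul_zero]

/-- Two of the dimension when the additive group is larger than the field. -/
lemma two_le_finrank_span {W : Type*} [AddCommGroup W] [Module F W] [FiniteDimensional F W] (X : AddSubgroup W)
    (h : Nat.card F < Nat.card X) : 2 ≤ finrank F (Submodule.span F (X : Set W)) := by
  by_contra hlt
  push Not at hlt
  have : Finite W := Module.finite_of_finite F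
  have h1 : Nat.card X ≤ Nat.card (Submodule.span F (X : Set W)) :=
    Nat.card_le_card_of_injective (fun a : X => (⟨a, Submodule.subset_span a.2⟩ : Submodule.span F (X : Set W)))
      (fun a b hab => Subtype.ext (congrArg (fun x : Submodule.span F (X : Set W) => (x : W)) hab))
  rw [Module.natCard_eq_pow_finrank (K := F) (V := Submodule.span F (X : Set W))] at h1
  have hq2 : 1 < Nat.card F := Finite.one_lt_card
  have h2 : Nat.card F ^ finrank F (Submodule.span F (X : Set W)) ≤ Nat.card F ^ 1 :=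
    Nat.pow_le_pow_right (by omega) (by omega)
  rw [pow_one] at h2
  omega

end linear

section main

variable [FiniteDimensional F V] [Finite F] (hQ : Nondeg Q) {H : Subgroup (OG Q)}

lemma LF.pd_tau_hyp (fr : LF Q) (τ : F) : IsHyp Q (τ • fr.x + fr.y) fr.ys :=
  ⟨(fr.pd_tau τ).Qe, fr.Qys, by rw [polar_add_left, polar_smul_l, fr.xys, fr.yys]; ring⟩

lemma LF.card_pd_tau (fr : LF Q) (τ : F) :
    Nat.card (perp2 Q (τ • fr.x + fr.y) fr.ys) = Nat.card F ^ 2 * Nat.card fr.W := by
  have h1 := (LF.pd_tau_hyp fr τ).finrank_perp2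
  have h2 := fr.finrank_W
  rw [Module.natCard_eq_pow_finrank (K := F), Module.natCard_eq_pow_finrank (K := F) (V := fr.W),
    show finrank F (perp2 Q (τ • fr.x + fr.y) fr.ys) = 2 + finrank F fr.W by omega, pow_add]

/-- **The structure at a good line with three special points.** -/
theorem three_special (fr : LF Q) (hd : finrank F fr.W = 4)
    (hm : H.relIndex (siegelE Q) < (Nat.card F + 2) * (Nat.card F * Nat.card fr.W))
    (hg : Good hQ H fr.x fr.y) (hAx : InA hQ H fr.x) (hAy : InA hQ H fr.y) (hAt : InA hQ H ((1 : F) • fr.x + fr.y)) :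
    ∃ S : Submodule F fr.W, finrank F S = 2 ∧
      Submodule.span F (Heis.Ss (fr.L hQ H) : Set (fr.W × fr.W)) = S.prod S := by
  classical
  have hdV : finrank F V = 8 := by
    have := fr.finrank_W
    omega
  have h7 : 7 ≤ finrank F V := by omega
  have hg' := Good.symm fr.Qx fr.Qy fr.xy hg
  have hf6x : finrank F (perp2 Q fr.x fr.xs) = 6 := by
    rw [fr.finrank_T_x, hd]
  have hf6y : finrank F (perp2 Q fr.y fr.ys) = 6 := by
    rw [fr.finrank_T_y, hd]
  have hf6t : finrank F (perp2 Q ((1 : F) • fr.x + fr.y) fr.ys) = 6 := by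
    have h1 := (LF.pd_tau_hyp fr (1 : F)).finrank_perp2
    omega
  have hgt : ∀ c : F, c ≠ 0 → rr hQ ((1 : F) • fr.x + fr.y) (c • fr.x) ∉ H := by
    intro c hc hmem
    apply hg (c * (0 - 1)) (mul_ne_zero hc (by simp))
    have := rr_wedge hQ fr.Qx fr.Qy fr.xy (1 : F) 0 c
    rw [← this]
    simp only [zero_smul, add_zero]
    rw [show fr.x + (1 : F) • fr.y = (1 : F) • fr.x + fr.y by simp]
    exact hmem
  have hL₀ := XG_large hQ h7 fr.pd_x fr.hyp_x fr.yxs fr.yss fr.hU_x hg fr.card_T_x hf6x hAx hm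
  have hLω := XG_large hQ h7 fr.pd_y fr.hyp_y fr.xys fr.xsys fr.hU_y hg' fr.card_T_y hf6y hAy hm
  have hL₁ := XG_large hQ h7 (fr.pd_tau (1 : F)) (LF.pd_tau_hyp fr 1) fr.xys (by
      rw [polar_sub_left, polar_smul_l, fr.xsys, fr.ysys]; ring)
    (fun u h1 h2 h3 h4 => fr.mem_W.2 ⟨h3, by
      have h5 := h1
      rw [polar_add_left, polar_smul_l, h3, mul_zero, zero_add] at h5
      exact h5, by
      have h5 := h4
      rw [polar_sub_left, polar_smul_l, h2, mul_zero, sub_zero] at h5
      exact h5, h2⟩) hgt (LF.card_pd_tau fr 1) hf6t hAt hm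
  set X₀ := XG hQ H fr.pd_x with hX₀
  set Xω := XG hQ H fr.pd_y with hXω
  set X₁ := XG hQ H (fr.pd_tau (1 : F)) with hX₁
  set Ss := Heis.Ss (fr.L hQ H) with hSs
  have hZ : ∀ t, t ∈ Heis.Zs (fr.L hQ H) → t = 0 := by
    intro t ht
    have ht' := Heis.mem_Zs.1 ht
    rw [LF.mem_L, LF.r_central] at ht'
    by_contra ht0
    exact hg t ht0 ht'
  have hom : ∀ p ∈ Ss, ∀ p' ∈ Ss, polar Q (p.1 : V) (p'.2 : V) = polar Q (p'.1 : V) (p.2 : V) := by
    intro p hp p' hp'
    have := hZ _ (Heis.comm_mem hp hp')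
    simp only [LF.B_apply] at this
    exact sub_eq_zero.1 this
  have hin₀ : ∀ a ∈ X₀, (a, (0 : fr.W)) ∈ Ss := fun a ha => fr.Ss_of_X hQ ha
  have hinω : ∀ b ∈ Xω, ((0 : fr.W), b) ∈ Ss := fun b hb => fr.Ss_of_y hQ hb
  have hin₁ : ∀ c ∈ X₁, (c, c) ∈ Ss := fun c hc => by
    have := fr.Ss_of_tau hQ (1 : F) hc
    rwa [one_smul] at this
  set S₀ := Submodule.span F (X₀ : Set fr.W) with hS₀
  set Sω := Submodule.span F (Xω : Set fr.W) with hSω
  set S₁ := Submodule.span F (X₁ : Set fr.W) with hS₁
  have d₀ : 2 ≤ finrank F S₀ := two_le_finrank_span X₀ hL₀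
  have dω : 2 ≤ finrank F Sω := two_le_finrank_span Xω hLω
  have d₁ : 2 ≤ finrank F S₁ := two_le_finrank_span X₁ hL₁
  have o₀ω : ∀ a ∈ S₀, ∀ b ∈ Sω, polar Q (a : V) (b : V) = 0 := by
    refine orth_span fun a ha b hb => ?_
    have := hom _ (hin₀ a ha) _ (hinω b hb)
    simpa using this
  have o₀₁ : ∀ a ∈ S₀, ∀ b ∈ S₁, polar Q (a : V) (b : V) = 0 := by
    refine orth_span fun a ha b hb => ?_
    have := hom _ (hin₀ a ha) _ (hin₁ b hb)
    simpa using this
  have oω₁ : ∀ a ∈ Sω, ∀ b ∈ S₁, polar Q (a : V) (b : V) = 0 := by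
    refine orth_span fun b hb c hc => ?_
    have := hom _ (hin₁ c hc) _ (hinω b hb)
    simp only [ZeroMemClass.coe_zero, polar_zero_left] at this
    rw [polar_comm]
    exact this
  have f₀ω := finrank_add_le_of_orth hQ fr o₀ω
  have f₀₁ := finrank_add_le_of_orth hQ fr o₀₁
  have fω₁ := finrank_add_le_of_orth hQ fr oω₁
  have e₀ : finrank F S₀ = 2 := by omega
  have eω : finrank F Sω = 2 := by omega
  have e₁ : finrank F S₁ = 2 := by omega
  have hsup : ∀ {A B C : Submodule F fr.W}, finrank F A = 2 → finrank F C = 2 → A ≤ B →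
      (∀ a ∈ B, ∀ c ∈ C, polar Q (a : V) (c : V) = 0) → B = A := by
    intro A B C hA hC hle hor
    have h1 := finrank_add_le_of_orth hQ fr hor
    exact (Submodule.eq_of_le_of_finrank_le hle (by omega)).symm
  have sup_orth : ∀ {A A' C : Submodule F fr.W}, (∀ a ∈ A, ∀ c ∈ C, polar Q (a : V) (c : V) = 0) →
      (∀ a ∈ A', ∀ c ∈ C, polar Q (a : V) (c : V) = 0) →
      ∀ a ∈ A ⊔ A', ∀ c ∈ C, polar Q (a : V) (c : V) = 0 := by
    intro A A' C h1 h2 a ha c hc
    obtain ⟨y, hy, z, hz, rfl⟩ := Submodule.mem_sup.1 ha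
    rw [Submodule.coe_add, polar_add_left, h1 y hy c hc, h2 z hz c hc, add_zero]
  have o₁ω : ∀ a ∈ S₁, ∀ b ∈ Sω, polar Q (a : V) (b : V) = 0 := fun a ha b hb => by
    rw [polar_comm]
    exact oω₁ b hb a ha
  have oω₀ : ∀ a ∈ Sω, ∀ b ∈ S₀, polar Q (a : V) (b : V) = 0 := fun a ha b hb => by
    rw [polar_comm]
    exact o₀ω b hb a ha
  have eq₀₁ : S₀ = S₁ := by
    have h1 := hsup (A := S₀) (B := S₀ ⊔ S₁) e₀ eω le_sup_left (sup_orth o₀ω o₁ω)
    have h2 := hsup (A := S₁) (B := S₀ ⊔ S₁) e₁ eω le_sup_right (sup_orth o₀ω o₁ω)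
    rw [← h1, h2]
  have eq₀ω : S₀ = Sω := by
    have h1 := hsup (A := S₀) (B := S₀ ⊔ Sω) e₀ e₁ le_sup_left (sup_orth o₀₁ oω₁)
    have h2 := hsup (A := Sω) (B := S₀ ⊔ Sω) eω e₁ le_sup_right (sup_orth o₀₁ oω₁)
    rw [← h1, h2]
  refine ⟨S₀, e₀, le_antisymm ?_ ?_⟩
  · rw [Submodule.span_le]
    rintro ⟨u, v⟩ hp
    have hp' : (u, v) ∈ Ss := hp
    have hv : v ∈ S₀ := by
      have horth : ∀ a ∈ S₀, polar Q (a : V) (v : V) = 0 := by
        have h1 : ∀ a ∈ (X₀ : Set fr.W), ∀ b ∈ ({v} : Set fr.W), polar Q (a : V) (b : V) = 0 := by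
          rintro a ha b rfl
          have := hom _ (hin₀ a ha) _ hp'
          simpa using this
        intro a ha
        exact orth_span h1 a ha v (Submodule.subset_span rfl)
      have h2 : S₀ ⊔ Submodule.span F {v} = S₀ := by
        refine hsup e₀ eω le_sup_left (sup_orth ?_ ?_)
        · rw [← eq₀ω]
          intro a ha c hc
          rw [← eq₀ω] at o₀ω
          exact o₀ω a ha c hc
        · intro a ha c hc
          obtain ⟨k, rfl⟩ := Submodule.mem_span_singleton.1 ha
          rw [Submodule.coe_smul, polar_smul_l, polar_comm, ← eq₀ω ] at *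
          rw [horth c hc, mul_zero]
      rw [← h2]
      exact Submodule.mem_sup_right (Submodule.mem_span_singleton_self v)
    have hu : u ∈ S₀ := by
      have horth : ∀ b ∈ S₀, polar Q (u : V) (b : V) = 0 := by
        rw [eq₀ω]
        have h1 : ∀ a ∈ ({u} : Set fr.W), ∀ b ∈ (Xω : Set fr.W), polar Q (a : V) (b : V) = 0 := by
          rintro a rfl b hb
          have := hom _ hp' _ (hinω b hb)
          simpa using this
        intro b hb
        exact orth_span h1 u (Submodule.subset_span rfl) b hb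
      have h2 : S₀ ⊔ Submodule.span F {u} = S₀ := by
        refine hsup e₀ e₀ le_sup_left (sup_orth ?_ ?_)
        · intro a ha c hc
          have := o₀ω a ha c (by rw [← eq₀ω]; exact hc)
          exact this
        · intro a ha c hc
          obtain ⟨k, rfl⟩ := Submodule.mem_span_singleton.1 ha
          rw [Submodule.coe_smul, polar_smul_l, horth c hc, mul_zero]
      rw [← h2]
      exact Submodule.mem_sup_right (Submodule.mem_span_singleton_self u)
    exact ⟨hu, hv⟩
  · rintro ⟨a, b⟩ ⟨ha, hb⟩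
    have hA : ∀ a ∈ S₀, (a, (0 : fr.W)) ∈ Submodule.span F (Ss : Set (fr.W × fr.W)) := by
      intro a ha
      induction ha using Submodule.span_induction with
      | mem x hx => exact Submodule.subset_span (hin₀ x hx)
      | zero => exact Submodule.zero_mem _
      | add x y _ _ hx hy =>
        have := Submodule.add_mem _ hx hy
        simpa using this
      | smul c x _ hx =>
        have := Submodule.smul_mem _ c hx
        simpa using this
    have hB : ∀ b ∈ Sω, ((0 : fr.W), b) ∈ Submodule.span F (Ss : Set (fr.W × fr.W)) := by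
      intro a ha
      induction ha using Submodule.span_induction with
      | mem x hx => exact Submodule.subset_span (hinω x hx)
      | zero => exact Submodule.zero_mem _
      | add x y _ _ hx hy =>
        have := Submodule.add_mem _ hx hy
        simpa using this
      | smul c x _ hx =>
        have := Submodule.smul_mem _ c hx
        simpa using this
    have := Submodule.add_mem _ (hA a ha) (hB b (by rw [← eq₀ω]; exact hb))
    simpa using this

end main

end Cfsg.Agent.Lib.OmIdx
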