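import Mathlib
import Cfsg.Agent.Lib.OmIdxN
import Cfsg.Agent.Lib.Tri.Spin

/-!
# Minimal index in orthogonal groups: explicit triples for triality
-/

set_option autoImplicit false
set_option linter.unusedSectionVars false
set_option linter.unusedVariables false
set_option linter.unusedSimpArgs false

noncomputable section

namespace Cfsg.Agent.Lib.OmIdx

open Module QuadraticMap Cfsg.Agent.Lib.OrthoBasic Cfsg.Agent.Lib.OrthoSiegel Cfsg.Agent.Lib.OrthoGen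
  Cfsg.Agent.Lib.QuadFF Cfsg.Agent.Lib.OmGeo Cfsg.Agent.Lib.Tri Cfsg.Agent.Lib.OrthoCount Cfsg.Agent.Lib.OrthoOrder

variable {F : Type*} [Field F]

/-- The standard basis vectors. -/
def bv (i : Fin 4 ⊕ Fin 4) : Oc F := Pi.single i 1

lemma polar_bv (z : Oc F) (i : Fin 4 ⊕ Fin 4) : polar (qPlus 4 F) z (bv i) = z i.swap := by
  rw [polar_eq, opol]
  rcases i with i | i <;> fin_cases i <;> simp [bv]

lemma polar_bv' (z : Oc F) (i : Fin 4 ⊕ Fin 4) : polar (qPlus 4 F) (bv i) z = z i.swap := by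
  rw [polar_comm, polar_bv]

lemma Q_bv (i : Fin 4 ⊕ Fin 4) : qPlus 4 F (bv i) = 0 := by
  rw [← onrm_eq, onrm]
  rcases i with i | i <;> fin_cases i <;> simp [bv]

lemma bv_apply_swap (i : Fin 4 ⊕ Fin 4) : bv (F := F) i i.swap = 0 := by
  rcases i with i | i <;> simp [bv]

variable [Fintype F]

lemma ap_rr_bv {i j : Fin 4 ⊕ Fin 4} (hij : i ≠ j.swap) (c : F) (z : Oc F) :
    ap (rr (q8_nondeg (F := F)) (bv i) (c • bv j)) z = z + (z i.swap * c) • bv j - (c * z j.swap) • bv i := by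
  have h1 : polar (qPlus 4 F) (bv i) (c • bv j) = 0 := by
    rw [polar_smul_r, polar_bv, bv, Pi.single_apply]
    rw [if_neg (fun h => hij (by subst h; simp)), mul_zero]
  rw [rr_apply _ (Q_bv i) h1, polar_bv, polar_smul_r, polar_bv, Q_smul, Q_bv, mul_zero, zero_mul, add_zero, smul_smul]

lemma triA011 (c : F) : (rr q8_nondeg (bv (.inr 2)) ((-c) • bv (.inl 0)), rr q8_nondeg (bv (.inr 0)) ((-c) • bv (.inr 2)),
    rr q8_nondeg (bv (.inl 1)) (c • bv (.inl 3))) ∈ Tp F := by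
  intro X Y Z
  change tt (ap _ X) (ap _ Y) (ap _ Z) = tt X Y Z
  rw [ap_rr_bv (by decide), ap_rr_bv (by decide), ap_rr_bv (by decide)]
  simp only [tt, otr, omul, mkO_a, mkO_b, mkO_u₁, mkO_u₂, mkO_u₃, mkO_w₁, mkO_w₂, mkO_w₃, Pi.add_apply, Pi.sub_apply,
    Pi.smul_apply, smul_eq_mul, bv, Sum.swap_inl, Sum.swap_inr]
  simp
  ring

lemma triA001 (c : F) : (rr q8_nondeg (bv (.inr 2)) ((-c) • bv (.inr 3)), rr q8_nondeg (bv (.inl 1)) ((-c) • bv (.inr 0)),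
    rr q8_nondeg (bv (.inl 1)) (c • bv (.inl 0))) ∈ Tp F := by
  intro X Y Z
  change tt (ap _ X) (ap _ Y) (ap _ Z) = tt X Y Z
  rw [ap_rr_bv (by decide), ap_rr_bv (by decide), ap_rr_bv (by decide)]
  simp only [tt, otr, omul, mkO_a, mkO_b, mkO_u₁, mkO_u₂, mkO_u₃, mkO_w₁, mkO_w₂, mkO_w₃, Pi.add_apply, Pi.sub_apply,
    Pi.smul_apply, smul_eq_mul, bv, Sum.swap_inl, Sum.swap_inr]
  simp
  ring

lemma triA000 (c : F) : (rr q8_nondeg (bv (.inl 1)) (c • bv (.inr 3)), rr q8_nondeg (bv (.inl 1)) (c • bv (.inr 3)),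
    rr q8_nondeg (bv (.inl 1)) (c • bv (.inr 3))) ∈ Tp F := by
  intro X Y Z
  change tt (ap _ X) (ap _ Y) (ap _ Z) = tt X Y Z
  rw [ap_rr_bv (by decide), ap_rr_bv (by decide), ap_rr_bv (by decide)]
  simp only [tt, otr, omul, mkO_a, mkO_b, mkO_u₁, mkO_u₂, mkO_u₃, mkO_w₁, mkO_w₂, mkO_w₃, Pi.add_apply, Pi.sub_apply,
    Pi.smul_apply, smul_eq_mul, bv, Sum.swap_inl, Sum.swap_inr]
  simp
  ring

lemma triA010 (c : F) : (rr q8_nondeg (bv (.inl 1)) (c • bv (.inl 0)), rr q8_nondeg (bv (.inr 2)) ((-c) • bv (.inr 3)),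
    rr q8_nondeg (bv (.inl 1)) ((-c) • bv (.inr 0))) ∈ Tp F := by
  intro X Y Z
  change tt (ap _ X) (ap _ Y) (ap _ Z) = tt X Y Z
  rw [ap_rr_bv (by decide), ap_rr_bv (by decide), ap_rr_bv (by decide)]
  simp only [tt, otr, omul, mkO_a, mkO_b, mkO_u₁, mkO_u₂, mkO_u₃, mkO_w₁, mkO_w₂, mkO_w₃, Pi.add_apply, Pi.sub_apply,
    Pi.smul_apply, smul_eq_mul, bv, Sum.swap_inl, Sum.swap_inr]
  simp
  ring

lemma triB00 (c : F) : (rr q8_nondeg (bv (.inl 1)) ((-c) • bv (.inr 0)), rr q8_nondeg (bv (.inl 0)) ((-c) • bv (.inl 1)),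
    rr q8_nondeg (bv (.inr 2)) ((-c) • bv (.inr 3))) ∈ Tp F := by
  intro X Y Z
  change tt (ap _ X) (ap _ Y) (ap _ Z) = tt X Y Z
  rw [ap_rr_bv (by decide), ap_rr_bv (by decide), ap_rr_bv (by decide)]
  simp only [tt, otr, omul, mkO_a, mkO_b, mkO_u₁, mkO_u₂, mkO_u₃, mkO_w₁, mkO_w₂, mkO_w₃, Pi.add_apply, Pi.sub_apply,
    Pi.smul_apply, smul_eq_mul, bv, Sum.swap_inl, Sum.swap_inr]
  simp
  ring

lemma triB01 (c : F) : (rr q8_nondeg (bv (.inr 2)) (c • bv (.inr 0)), rr q8_nondeg (bv (.inl 1)) (c • bv (.inl 3)),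
    rr q8_nondeg (bv (.inr 2)) ((-c) • bv (.inl 0))) ∈ Tp F := by
  intro X Y Z
  change tt (ap _ X) (ap _ Y) (ap _ Z) = tt X Y Z
  rw [ap_rr_bv (by decide), ap_rr_bv (by decide), ap_rr_bv (by decide)]
  simp only [tt, otr, omul, mkO_a, mkO_b, mkO_u₁, mkO_u₂, mkO_u₃, mkO_w₁, mkO_w₂, mkO_w₃, Pi.add_apply, Pi.sub_apply,
    Pi.smul_apply, smul_eq_mul, bv, Sum.swap_inl, Sum.swap_inr]
  simp
  ring

lemma triB10 (c : F) : (rr q8_nondeg (bv (.inl 1)) (c • bv (.inl 3)), rr q8_nondeg (bv (.inl 0)) (c • bv (.inr 2)),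
    rr q8_nondeg (bv (.inr 2)) (c • bv (.inr 0))) ∈ Tp F := by
  intro X Y Z
  change tt (ap _ X) (ap _ Y) (ap _ Z) = tt X Y Z
  rw [ap_rr_bv (by decide), ap_rr_bv (by decide), ap_rr_bv (by decide)]
  simp only [tt, otr, omul, mkO_a, mkO_b, mkO_u₁, mkO_u₂, mkO_u₃, mkO_w₁, mkO_w₂, mkO_w₃, Pi.add_apply, Pi.sub_apply,
    Pi.smul_apply, smul_eq_mul, bv, Sum.swap_inl, Sum.swap_inr]
  simp
  ring

lemma triB11 (c : F) : (rr q8_nondeg (bv (.inr 2)) ((-c) • bv (.inl 3)), rr q8_nondeg (bv (.inl 3)) (c • bv (.inr 2)),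
    rr q8_nondeg (bv (.inr 2)) ((-c) • bv (.inl 3))) ∈ Tp F := by
  intro X Y Z
  change tt (ap _ X) (ap _ Y) (ap _ Z) = tt X Y Z
  rw [ap_rr_bv (by decide), ap_rr_bv (by decide), ap_rr_bv (by decide)]
  simp only [tt, otr, omul, mkO_a, mkO_b, mkO_u₁, mkO_u₂, mkO_u₃, mkO_w₁, mkO_w₂, mkO_w₃, Pi.add_apply, Pi.sub_apply,
    Pi.smul_apply, smul_eq_mul, bv, Sum.swap_inl, Sum.swap_inr]
  simp
  ring

lemma triZ (c : F) : (rr q8_nondeg (bv (.inl 1)) (c • bv (.inr 2)), rr q8_nondeg (bv (.inl 1)) (c • bv (.inr 2)),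
    rr q8_nondeg (bv (.inl 1)) (c • bv (.inr 2))) ∈ Tp F := by
  intro X Y Z
  change tt (ap _ X) (ap _ Y) (ap _ Z) = tt X Y Z
  rw [ap_rr_bv (by decide), ap_rr_bv (by decide), ap_rr_bv (by decide)]
  simp only [tt, otr, omul, mkO_a, mkO_b, mkO_u₁, mkO_u₂, mkO_u₃, mkO_w₁, mkO_w₂, mkO_w₃, Pi.add_apply, Pi.sub_apply,
    Pi.smul_apply, smul_eq_mul, bv, Sum.swap_inl, Sum.swap_inr]
  simp
  ring

/-! ### The reference line -/

omit [Fintype F] in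
lemma bv_ne_zero (i : Fin 4 ⊕ Fin 4) : bv (F := F) i ≠ 0 := by
  intro h
  have := congrFun h i
  simp [bv] at this

/-- The reference line frame. -/
def lf0 : LF (qPlus 4 F) where
  x := bv (.inl 1)
  y := bv (.inr 2)
  xs := bv (.inr 1)
  ys := bv (.inl 2)
  Qx := Q_bv _
  Qy := Q_bv _
  Qxs := Q_bv _
  Qys := Q_bv _
  xy := by rw [polar_bv]; simp [bv]
  xxs := by rw [polar_bv]; simp [bv]
  xys := by rw [polar_bv]; simp [bv]
  yxs := by rw [polar_bv]; simp [bv]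
  yys := by rw [polar_bv]; simp [bv]
  xsys := by rw [polar_bv]; simp [bv]

lemma mem_lf0W {v : Oc F} : v ∈ (lf0 (F := F)).W ↔
    v (.inr 1) = 0 ∧ v (.inl 2) = 0 ∧ v (.inl 1) = 0 ∧ v (.inr 2) = 0 := by
  rw [LF.mem_W]
  change polar (qPlus 4 F) (bv (.inl 1)) v = 0 ∧ polar (qPlus 4 F) (bv (.inr 2)) v = 0 ∧
    polar (qPlus 4 F) (bv (.inr 1)) v = 0 ∧ polar (qPlus 4 F) (bv (.inl 2)) v = 0 ↔ _
  rw [polar_bv', polar_bv', polar_bv', polar_bv']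
  rfl

/-- The basis of the complement. -/
def we0 : (lf0 (F := F)).W := ⟨bv (.inl 0), mem_lf0W.2 (by simp [bv])⟩
def we3 : (lf0 (F := F)).W := ⟨bv (.inl 3), mem_lf0W.2 (by simp [bv])⟩
def wf0 : (lf0 (F := F)).W := ⟨bv (.inr 0), mem_lf0W.2 (by simp [bv])⟩
def wf3 : (lf0 (F := F)).W := ⟨bv (.inr 3), mem_lf0W.2 (by simp [bv])⟩

/-- The decomposition in the complement. -/
lemma lf0W_decomp (a : (lf0 (F := F)).W) :
    a = (a : Oc F) (.inr 3) • wf3 + (a : Oc F) (.inl 0) • we0 + (a : Oc F) (.inr 0) • wf0 + (a : Oc F) (.inl 3) • we3 := by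
  obtain ⟨h1, h2, h3, h4⟩ := mem_lf0W.1 a.2
  apply Subtype.ext
  funext i
  rcases i with i | i <;> fin_cases i <;>
    simp [we0, we3, wf0, wf3, bv, h1, h2, h3, h4]

/-- The semilinear-free cyclic map on the complement squared. -/
def sg : (lf0 (F := F)).W × (lf0 (F := F)).W →ₗ[F] (lf0 (F := F)).W × (lf0 (F := F)).W where
  toFun p :=
    ((p.1 : Oc F) (.inr 3) • wf3 - (p.1 : Oc F) (.inr 0) • we0 + (p.2 : Oc F) (.inr 3) • wf0 + (p.2 : Oc F) (.inr 0) • we3,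
     -((p.1 : Oc F) (.inl 0) • wf3) - (p.1 : Oc F) (.inl 3) • we0 - (p.2 : Oc F) (.inl 0) • wf0 + (p.2 : Oc F) (.inl 3) • we3)
  map_add' p p' := by
    apply Prod.ext <;> simp only [Prod.fst_add, Prod.snd_add, Submodule.coe_add, Pi.add_apply, add_smul] <;> abel
  map_smul' c p := by
    apply Prod.ext <;>
      simp only [Prod.smul_fst, Prod.smul_snd, Submodule.coe_smul, Pi.smul_apply, smul_eq_mul, mul_smul, RingHom.id_apply, smul_add,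
        smul_sub, smul_neg]

lemma sg_apply (a b : (lf0 (F := F)).W) : sg (a, b) =
    ((a : Oc F) (.inr 3) • wf3 - (a : Oc F) (.inr 0) • we0 + (b : Oc F) (.inr 3) • wf0 + (b : Oc F) (.inr 0) • we3,
     -((a : Oc F) (.inl 0) • wf3) - (a : Oc F) (.inl 3) • we0 - (b : Oc F) (.inl 0) • wf0 + (b : Oc F) (.inl 3) • we3) := rfl

/-- The subgroup of the Heisenberg group on which triality is visible. -/
def Th : Subgroup (Heis (lf0 (F := F)).B) where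
  carrier := {p | ∃ p' : Heis (lf0 (F := F)).B, (p'.a, p'.b) = sg (p.a, p.b) ∧
    ∃ g₂, ((lf0 (F := F)).r q8_nondeg p', g₂, (lf0 (F := F)).r q8_nondeg p) ∈ Tp F}
  mul_mem' := by
    rintro p₁ p₂ ⟨p₁', h₁, g₁, hg₁⟩ ⟨p₂', h₂, g₂, hg₂⟩
    refine ⟨p₁' * p₂', ?_, g₁ * g₂, ?_⟩
    · have : sg ((p₁ * p₂).a, (p₁ * p₂).b) = sg (p₁.a, p₁.b) + sg (p₂.a, p₂.b) := by
        rw [← map_add]
        rfl
      rw [this, ← h₁, ← h₂]
      rfl
    · have := (Tp F).mul_mem hg₁ hg₂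
      simpa [map_mul] using this
  one_mem' := by
    refine ⟨1, ?_, 1, ?_⟩
    · have : sg ((1 : Heis (lf0 (F := F)).B).a, (1 : Heis (lf0 (F := F)).B).b) = 0 := map_zero sg
      rw [this]
      rfl
    · rw [map_one]
      exact (Tp F).one_mem
  inv_mem' := by
    rintro p ⟨p', h, g, hg⟩
    refine ⟨p'⁻¹, ?_, g⁻¹, ?_⟩
    · have : sg ((p⁻¹).a, (p⁻¹).b) = - sg (p.a, p.b) := by
        rw [← map_neg]
        rfl
      rw [this, ← h]
      rfl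
    · have := (Tp F).inv_mem hg
      simpa [map_inv] using this

lemma r_a (a : (lf0 (F := F)).W) : (lf0 (F := F)).r q8_nondeg ⟨a, 0, 0⟩ = rr q8_nondeg (lf0 (F := F)).x a := by
  rw [LF.r_apply]
  simp [rr_zero]

lemma r_b (b : (lf0 (F := F)).W) : (lf0 (F := F)).r q8_nondeg ⟨0, b, 0⟩ = rr q8_nondeg (lf0 (F := F)).y b := by
  rw [LF.r_apply]
  simp [rr_zero]

lemma coord_we0 (i : Fin 4 ⊕ Fin 4) : ((we0 : (lf0 (F := F)).W) : Oc F) i = (bv (.inl 0) : Oc F) i := rfl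

/-- Coordinates of the basis. -/
lemma th_ext {a a' : (lf0 (F := F)).W} (h0 : (a : Oc F) (.inl 0) = (a' : Oc F) (.inl 0))
    (h1 : (a : Oc F) (.inl 3) = (a' : Oc F) (.inl 3)) (h2 : (a : Oc F) (.inr 0) = (a' : Oc F) (.inr 0))
    (h3 : (a : Oc F) (.inr 3) = (a' : Oc F) (.inr 3)) : a = a' := by
  rw [lf0W_decomp a, lf0W_decomp a', h0, h1, h2, h3]

lemma Th_a_e3 (c : F) : (⟨c • we3, 0, 0⟩ : Heis (lf0 (F := F)).B) ∈ Th := by
  refine ⟨⟨0, (-c) • we0, 0⟩, ?_, rr q8_nondeg (bv (.inr 0)) ((-c) • bv (.inr 2)), ?_⟩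
  · simp only [sg_apply]
    apply Prod.ext <;> apply th_ext <;> simp [we0, we3, wf0, wf3, bv]
  · rw [r_a, r_b]
    exact triA011 c

lemma Th_a_e0 (c : F) : (⟨c • we0, 0, 0⟩ : Heis (lf0 (F := F)).B) ∈ Th := by
  refine ⟨⟨0, (-c) • wf3, 0⟩, ?_, rr q8_nondeg (bv (.inl 1)) ((-c) • bv (.inr 0)), ?_⟩
  · simp only [sg_apply]
    apply Prod.ext <;> apply th_ext <;> simp [we0, we3, wf0, wf3, bv]
  · rw [r_a, r_b]
    exact triA001 c

lemma Th_a_f3 (c : F) : (⟨c • wf3, 0, 0⟩ : Heis (lf0 (F := F)).B) ∈ Th := by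
  refine ⟨⟨c • wf3, 0, 0⟩, ?_, rr q8_nondeg (bv (.inl 1)) (c • bv (.inr 3)), ?_⟩
  · simp only [sg_apply]
    apply Prod.ext <;> apply th_ext <;> simp [we0, we3, wf0, wf3, bv]
  · rw [r_a]
    exact triA000 c

lemma Th_a_f0 (c : F) : (⟨(-c) • wf0, 0, 0⟩ : Heis (lf0 (F := F)).B) ∈ Th := by
  refine ⟨⟨c • we0, 0, 0⟩, ?_, rr q8_nondeg (bv (.inr 2)) ((-c) • bv (.inr 3)), ?_⟩
  · simp only [sg_apply]
    apply Prod.ext <;> apply th_ext <;> simp [we0, we3, wf0, wf3, bv]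
  · rw [r_a, r_a]
    exact triA010 c

lemma Th_b_f3 (c : F) : (⟨0, (-c) • wf3, 0⟩ : Heis (lf0 (F := F)).B) ∈ Th := by
  refine ⟨⟨(-c) • wf0, 0, 0⟩, ?_, rr q8_nondeg (bv (.inl 0)) ((-c) • bv (.inl 1)), ?_⟩
  · simp only [sg_apply]
    apply Prod.ext <;> apply th_ext <;> simp [we0, we3, wf0, wf3, bv]
  · rw [r_a, r_b]
    exact triB00 c

lemma Th_b_e0 (c : F) : (⟨0, (-c) • we0, 0⟩ : Heis (lf0 (F := F)).B) ∈ Th := by
  refine ⟨⟨0, c • wf0, 0⟩, ?_, rr q8_nondeg (bv (.inl 1)) (c • bv (.inl 3)), ?_⟩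
  · simp only [sg_apply]
    apply Prod.ext <;> apply th_ext <;> simp [we0, we3, wf0, wf3, bv]
  · rw [r_b, r_b]
    exact triB01 c

lemma Th_b_f0 (c : F) : (⟨0, c • wf0, 0⟩ : Heis (lf0 (F := F)).B) ∈ Th := by
  refine ⟨⟨c • we3, 0, 0⟩, ?_, rr q8_nondeg (bv (.inl 0)) (c • bv (.inr 2)), ?_⟩
  · simp only [sg_apply]
    apply Prod.ext <;> apply th_ext <;> simp [we0, we3, wf0, wf3, bv]
  · rw [r_a, r_b]
    exact triB10 c

lemma Th_b_e3 (c : F) : (⟨0, (-c) • we3, 0⟩ : Heis (lf0 (F := F)).B) ∈ Th := by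
  refine ⟨⟨0, (-c) • we3, 0⟩, ?_, rr q8_nondeg (bv (.inl 3)) (c • bv (.inr 2)), ?_⟩
  · simp only [sg_apply]
    apply Prod.ext <;> apply th_ext <;> simp [we0, we3, wf0, wf3, bv]
  · rw [r_b]
    exact triB11 c

lemma Th_z (c : F) : (⟨0, 0, c⟩ : Heis (lf0 (F := F)).B) ∈ Th := by
  refine ⟨⟨0, 0, c⟩, ?_, rr q8_nondeg (bv (.inl 1)) (c • bv (.inr 2)), ?_⟩
  · have h : sg ((0 : (lf0 (F := F)).W), (0 : (lf0 (F := F)).W)) = 0 := map_zero sg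
    simp only
    rw [h]
    rfl
  · rw [LF.r_central]
    exact triZ c

lemma Th_add_a {a a' : (lf0 (F := F)).W} (h : (⟨a, 0, 0⟩ : Heis (lf0 (F := F)).B) ∈ Th)
    (h' : (⟨a', 0, 0⟩ : Heis (lf0 (F := F)).B) ∈ Th) : (⟨a + a', 0, 0⟩ : Heis (lf0 (F := F)).B) ∈ Th := by
  have := Th.mul_mem h h'
  convert this using 1
  ext
  · rfl
  · simp
  · simp

lemma Th_add_b {a a' : (lf0 (F := F)).W} (h : (⟨0, a, 0⟩ : Heis (lf0 (F := F)).B) ∈ Th)
    (h' : (⟨0, a', 0⟩ : Heis (lf0 (F := F)).B) ∈ Th) : (⟨0, a + a', 0⟩ : Heis (lf0 (F := F)).B) ∈ Th := by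
  have := Th.mul_mem h h'
  convert this using 1
  ext
  · simp
  · rfl
  · simp

/-- Triality is visible on the whole Heisenberg group. -/
theorem Th_eq (p : Heis (lf0 (F := F)).B) : p ∈ Th := by
  obtain ⟨a, b, t⟩ := p
  have ha : (⟨a, 0, 0⟩ : Heis (lf0 (F := F)).B) ∈ Th := by
    rw [lf0W_decomp a]
    refine Th_add_a (Th_add_a (Th_add_a (Th_a_f3 _) (Th_a_e0 _)) ?_) (Th_a_e3 _)
    have := Th_a_f0 (-(a : Oc F) (.inr 0))
    rwa [neg_neg] at this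
  have hb : (⟨0, b, 0⟩ : Heis (lf0 (F := F)).B) ∈ Th := by
    rw [lf0W_decomp b]
    refine Th_add_b (Th_add_b (Th_add_b ?_ ?_) (Th_b_f0 _)) ?_
    · have := Th_b_f3 (-(b : Oc F) (.inr 3))
      rwa [neg_neg] at this
    · have := Th_b_e0 (-(b : Oc F) (.inl 0))
      rwa [neg_neg] at this
    · have := Th_b_e3 (-(b : Oc F) (.inl 3))
      rwa [neg_neg] at this
  have := Th.mul_mem (Th.mul_mem ha hb) (Th_z t)
  convert this using 1
  ext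
  · simp
  · simp
  · simp

end Cfsg.Agent.Lib.OmIdx

end
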