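import Mathlib
import Cfsg.Agent.Lib.OmIdxP

/-!
# Minimal index in orthogonal groups: the tensor algebra of the Heisenberg group, transfer of subgroups
-/

set_option autoImplicit false
set_option linter.unusedSectionVars false
set_option linter.unusedVariables false
set_option linter.unusedSimpArgs false

noncomputable section

namespace Cfsg.Agent.Lib.OmIdx

open Module QuadraticMap Cfsg.Agent.Lib.OrthoBasic Cfsg.Agent.Lib.OrthoSiegel Cfsg.Agent.Lib.OrthoGen
  Cfsg.Agent.Lib.QuadFF Cfsg.Agent.Lib.OmGeo Cfsg.Agent.Lib.Tri Cfsg.Agent.Lib.OrthoCount Cfsg.Agent.Lib.OrthoOrder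

section tensor

variable {F : Type*} [Field F]

/-- Three-fold tensors, in coordinates. -/
abbrev T3 (F : Type*) := Fin 2 → Fin 2 → Fin 2 → F

def E1 (i j : Fin 2) (v : T3 F) : T3 F := fun a b c => if a = i then v j b c else 0
def E2 (i j : Fin 2) (v : T3 F) : T3 F := fun a b c => if b = i then v a j c else 0
def E3 (i j : Fin 2) (v : T3 F) : T3 F := fun a b c => if c = i then v a b j else 0

/-- The cyclic shift. -/
def sh (v : T3 F) : T3 F := fun a b c => v b c a

lemma sh_injective : Function.Injective (sh (F := F)) := by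
  intro v w h
  funext a b c
  exact congrFun (congrFun (congrFun h c) a) b

lemma sh_E3 (i j : Fin 2) (v : T3 F) : sh (E3 i j v) = E1 i j (sh v) := rfl

lemma sh_sh_E2 (i j : Fin 2) (v : T3 F) : sh (sh (E2 i j v)) = E1 i j (sh (sh v)) := rfl

/-- A subspace closed under the matrix units on each factor is trivial. -/
theorem tensor_alg (M : Submodule F (T3 F)) (h1 : ∀ i j, ∀ v ∈ M, E1 i j v ∈ M) (h2 : ∀ i j, ∀ v ∈ M, E2 i j v ∈ M)
    (h3 : ∀ i j, ∀ v ∈ M, E3 i j v ∈ M) : M = ⊥ ∨ M = ⊤ := by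
  by_cases h : M = ⊥
  · exact Or.inl h
  right
  obtain ⟨v, hv, hv0⟩ := Submodule.exists_mem_ne_zero_of_ne_bot h
  obtain ⟨a, b, c, hc⟩ : ∃ a b c, v a b c ≠ 0 := by
    by_contra hno
    push Not at hno
    apply hv0
    funext a b c
    exact hno a b c
  set δ : Fin 2 → Fin 2 → Fin 2 → T3 F := fun a b c => fun x y z => if x = a ∧ y = b ∧ z = c then 1 else 0 with hδ
  have h4 : (v a b c)⁻¹ • E1 a a (E2 b b (E3 c c v)) = δ a b c := by
    funext x y z
    by_cases hx : x = a <;> by_cases hy : y = b <;> by_cases hz : z = c <;>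
      simp [E1, E2, E3, hδ, hx, hy, hz, hc]
  have h5 : δ a b c ∈ M := by
    rw [← h4]
    exact M.smul_mem _ (h1 _ _ _ (h2 _ _ _ (h3 _ _ _ hv)))
  have h6 : ∀ a' b' c', δ a' b' c' ∈ M := by
    intro a' b' c'
    have e : E1 a' a (E2 b' b (E3 c' c (δ a b c))) = δ a' b' c' := by
      funext x y z
      by_cases hx : x = a' <;> by_cases hy : y = b' <;> by_cases hz : z = c' <;>
        simp [E1, E2, E3, hδ, hx, hy, hz]
    rw [← e]
    exact h1 _ _ _ (h2 _ _ _ (h3 _ _ _ h5))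
  rw [eq_top_iff]
  intro t _
  have e : t = ∑ a', ∑ b', ∑ c', t a' b' c' • δ a' b' c' := by
    funext x y z
    simp only [Finset.sum_apply, Pi.smul_apply, smul_eq_mul, hδ, Fin.sum_univ_two]
    fin_cases x <;> fin_cases y <;> fin_cases z <;> simp
  rw [e]
  exact Submodule.sum_mem _ fun a' _ => Submodule.sum_mem _ fun b' _ => Submodule.sum_mem _ fun c' _ =>
    M.smul_mem _ (h6 a' b' c')

end tensor

section coords

variable {F : Type*} [Field F] [Fintype F]

/-- The coordinates of the complement. -/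
def uu (a : (lf0 (F := F)).W) : Fin 2 → Fin 2 → F :=
  ![![(a : Oc F) (.inr 3), (a : Oc F) (.inl 0)], ![-(a : Oc F) (.inr 0), (a : Oc F) (.inl 3)]]

/-- The coordinates of the square of the complement. -/
def ka : (lf0 (F := F)).W × (lf0 (F := F)).W →ₗ[F] T3 F where
  toFun p := ![uu p.1, -uu p.2]
  map_add' p p' := by
    funext i j k
    fin_cases i <;> fin_cases j <;> fin_cases k <;> simp [uu] <;> ring
  map_smul' c p := by
    funext i j k
    fin_cases i <;> fin_cases j <;> fin_cases k <;> simp [uu]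

lemma ka_apply (a b : (lf0 (F := F)).W) : ka (a, b) = ![uu a, -uu b] := rfl

lemma ka_injective : Function.Injective (ka (F := F)) := by
  rw [← LinearMap.ker_eq_bot, LinearMap.ker_eq_bot']
  rintro ⟨a, b⟩ h
  have h1 : uu a = 0 := congrFun h 0
  have h2 : -uu b = 0 := congrFun h 1
  have h3 : uu b = 0 := neg_eq_zero.1 h2
  have c1 := congrFun (congrFun h1 0) 0
  have c2 := congrFun (congrFun h1 0) 1
  have c3 := congrFun (congrFun h1 1) 0
  have c4 := congrFun (congrFun h1 1) 1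
  have d1 := congrFun (congrFun h3 0) 0
  have d2 := congrFun (congrFun h3 0) 1
  have d3 := congrFun (congrFun h3 1) 0
  have d4 := congrFun (congrFun h3 1) 1
  simp [uu] at c1 c2 c3 c4 d1 d2 d3 d4
  apply Prod.ext
  · apply th_ext <;> simp [c1, c2, c3, c4]
  · apply th_ext <;> simp [d1, d2, d3, d4]

lemma ka_sg (p : (lf0 (F := F)).W × (lf0 (F := F)).W) : ka (sg p) = sh (ka p) := by
  obtain ⟨a, b⟩ := p
  rw [sg_apply, ka_apply, ka_apply]
  funext i j k
  fin_cases i <;> fin_cases j <;> fin_cases k <;> simp [uu, sh, we0, we3, wf0, wf3, bv]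

/-- A subspace of the form `S × S` gives a subspace closed under the first factor. -/
lemma prod_closed (S : Submodule F (lf0 (F := F)).W) (i j : Fin 2) {v : T3 F} (hv : v ∈ (S.prod S).map (ka (F := F))) :
    E1 i j v ∈ (S.prod S).map (ka (F := F)) := by
  obtain ⟨⟨a, b⟩, ⟨ha, hb⟩, rfl⟩ := hv
  have ha' : a ∈ S := ha
  have hb' : b ∈ S := hb
  fin_cases i <;> fin_cases j
  · refine ⟨(a, 0), ⟨ha', S.zero_mem⟩, ?_⟩
    funext x y z
    fin_cases x <;> fin_cases y <;> fin_cases z <;> simp [E1, ka_apply, uu]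
  · refine ⟨(-b, 0), ⟨S.neg_mem hb', S.zero_mem⟩, ?_⟩
    funext x y z
    fin_cases x <;> fin_cases y <;> fin_cases z <;> simp [E1, ka_apply, uu]
  · refine ⟨(0, -a), ⟨S.zero_mem, S.neg_mem ha'⟩, ?_⟩
    funext x y z
    fin_cases x <;> fin_cases y <;> fin_cases z <;> simp [E1, ka_apply, uu]
  · refine ⟨(0, b), ⟨S.zero_mem, hb'⟩, ?_⟩
    funext x y z
    fin_cases x <;> fin_cases y <;> fin_cases z <;> simp [E1, ka_apply, uu]

/-- **The algebraic contradiction.** -/
theorem no_three_prod (S₀ S₁ S₂ : Submodule F (lf0 (F := F)).W) (h0 : finrank F S₀ = 2)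
    (h1 : (S₀.prod S₀).map (sg (F := F)) = S₁.prod S₁) (h2 : (S₁.prod S₁).map (sg (F := F)) = S₂.prod S₂) : False := by
  set M := (S₀.prod S₀).map (ka (F := F)) with hM
  have hs1 : ∀ v ∈ M, sh v ∈ (S₁.prod S₁).map (ka (F := F)) := by
    rintro _ ⟨p, hp, rfl⟩
    refine ⟨sg p, ?_, ka_sg p⟩
    rw [← h1]
    exact ⟨p, hp, rfl⟩
  have hs1' : ∀ w ∈ (S₁.prod S₁).map (ka (F := F)), ∃ v ∈ M, sh v = w := by
    rintro _ ⟨p, hp, rfl⟩
    have hp' : p ∈ (S₀.prod S₀).map (sg (F := F)) := by rw [h1]; exact hp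
    obtain ⟨r, hr, rfl⟩ := hp'
    exact ⟨ka r, ⟨r, hr, rfl⟩, (ka_sg r).symm⟩
  have hs2 : ∀ v ∈ (S₁.prod S₁).map (ka (F := F)), sh v ∈ (S₂.prod S₂).map (ka (F := F)) := by
    rintro _ ⟨p, hp, rfl⟩
    refine ⟨sg p, ?_, ka_sg p⟩
    rw [← h2]
    exact ⟨p, hp, rfl⟩
  have hs2' : ∀ w ∈ (S₂.prod S₂).map (ka (F := F)), ∃ v ∈ (S₁.prod S₁).map (ka (F := F)), sh v = w := by
    rintro _ ⟨p, hp, rfl⟩
    have hp' : p ∈ (S₁.prod S₁).map (sg (F := F)) := by rw [h2]; exact hp
    obtain ⟨r, hr, rfl⟩ := hp'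
    exact ⟨ka r, ⟨r, hr, rfl⟩, (ka_sg r).symm⟩
  have cl1 : ∀ i j, ∀ v ∈ M, E1 i j v ∈ M := fun i j v hv => prod_closed S₀ i j hv
  have cl3 : ∀ i j, ∀ v ∈ M, E3 i j v ∈ M := by
    intro i j v hv
    obtain ⟨v', hv', e⟩ := hs1' _ (prod_closed S₁ i j (hs1 v hv))
    rw [← sh_E3] at e
    rwa [← sh_injective e]
  have cl2 : ∀ i j, ∀ v ∈ M, E2 i j v ∈ M := by
    intro i j v hv
    obtain ⟨v₁, hv₁, e₁⟩ := hs2' _ (prod_closed S₂ i j (hs2 _ (hs1 v hv)))
    obtain ⟨v₂, hv₂, e₂⟩ := hs1' _ hv₁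
    rw [← sh_sh_E2] at e₁
    have e₃ := sh_injective e₁
    rw [← e₂] at e₃
    rwa [← sh_injective e₃]
  rcases tensor_alg M cl1 cl2 cl3 with h | h
  · -- the plane is not zero
    have hne : S₀ ≠ ⊥ := by
      rintro rfl
      simp at h0
    obtain ⟨a, ha, ha0⟩ := Submodule.exists_mem_ne_zero_of_ne_bot hne
    have h3 : ka (a, (0 : (lf0 (F := F)).W)) ∈ M := ⟨(a, 0), ⟨ha, S₀.zero_mem⟩, rfl⟩
    rw [h, Submodule.mem_bot] at h3
    have h4 := ka_injective (F := F) (h3.trans (map_zero _).symm)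
    exact ha0 (congrArg Prod.fst h4)
  · -- the plane is not everything
    have hdW : finrank F (lf0 (F := F)).W = 4 := by
      have h3 := (lf0 (F := F)).finrank_W
      rw [Module.finrank_fintype_fun_eq_card] at h3
      simp at h3
      omega
    have hne : S₀ ≠ ⊤ := by
      rintro rfl
      rw [finrank_top, hdW] at h0
      omega
    obtain ⟨c, hc⟩ : ∃ c, c ∉ S₀ := by
      by_contra hno
      push Not at hno
      exact hne (eq_top_iff.2 fun x _ => hno x)
    have h3 : ka (c, (0 : (lf0 (F := F)).W)) ∈ M := by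
      rw [h]
      trivial
    obtain ⟨⟨a, b⟩, ⟨ha, hb⟩, e⟩ := h3
    have h4 := ka_injective (F := F) e
    apply hc
    have : a = c := congrArg Prod.fst h4
    rw [← this]
    exact ha

end coords

end Cfsg.Agent.Lib.OmIdx

end
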