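import Mathlib
import Cfsg.Agent.Lib.OmIdxQ

/-!
# Minimal index in orthogonal groups: dimension eight, plus type, via triality
-/

set_option autoImplicit false
set_option linter.unusedSectionVars false
set_option linter.unusedVariables false
set_option linter.unusedSimpArgs false

noncomputable section

namespace Cfsg.Agent.Lib.OmIdx

open Module QuadraticMap Cfsg.Agent.Lib.OrthoBasic Cfsg.Agent.Lib.OrthoSiegel Cfsg.Agent.Lib.OrthoGen
  Cfsg.Agent.Lib.QuadFF Cfsg.Agent.Lib.OmGeo Cfsg.Agent.Lib.Tri Cfsg.Agent.Lib.OrthoCount Cfsg.Agent.Lib.OrthoOrder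

variable {F : Type*} [Field F] [Fintype F]

/-- The Siegel group in dimension eight. -/
abbrev Ex (F : Type*) [Field F] : Subgroup (O8 F) := siegelE (qPlus 4 F)

/-- The central quotient. -/
abbrev Gx (F : Type*) [Field F] := Ex F ⧸ Subgroup.center (Ex F)

/-- The inverse image of a subgroup of the central quotient, in the isometry group. -/
def pre (K : Subgroup (Gx F)) : Subgroup (O8 F) :=
  (K.comap (QuotientGroup.mk' (Subgroup.center (Ex F)))).map (Ex F).subtype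

lemma mem_pre {K : Subgroup (Gx F)} {g : O8 F} :
    g ∈ pre K ↔ ∃ hg : g ∈ Ex F, (QuotientGroup.mk (⟨g, hg⟩ : Ex F) : Gx F) ∈ K := by
  constructor
  · rintro ⟨h, hh, rfl⟩
    exact ⟨h.2, hh⟩
  · rintro ⟨hg, h⟩
    exact ⟨⟨g, hg⟩, h, rfl⟩

lemma relIndex_pre (K : Subgroup (Gx F)) : (pre K).relIndex (Ex F) = K.index := by
  rw [pre, relIndex_map_subtype, Subgroup.index_comap_of_surjective _ (QuotientGroup.mk'_surjective _)]

lemma not_le_pre {K : Subgroup (Gx F)} (hK : K ≠ ⊤) : ¬ Ex F ≤ pre K := by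
  intro hle
  apply hK
  rw [eq_top_iff]
  intro x _
  obtain ⟨g, rfl⟩ := QuotientGroup.mk'_surjective _ x
  obtain ⟨hg, h⟩ := mem_pre.1 (hle g.2)
  exact h

/-- The effect of triality on a class. -/
lemma tau_class {g₁ g₂ g₃ : O8 F} (ht : (g₁, g₂, g₃) ∈ Tp F) (h₃ : g₃ ∈ Ex F) (h₁ : g₁ ∈ Ex F) :
    tauE F (QuotientGroup.mk (⟨g₃, h₃⟩ : Ex F)) = QuotientGroup.mk (⟨g₁, h₁⟩ : Ex F) := by
  obtain ⟨a, m, hm, ha, hτ⟩ := tauE_triple (F := F) ⟨(g₁, g₂, g₃), ht⟩ h₃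
  change tauE F (QuotientGroup.mk (⟨g₃, h₃⟩ : Ex F)) = _ at hτ
  rw [hτ]
  apply QuotientGroup.eq.2
  have ha' : ∀ v : Oc F, ap (a : O8 F) v = m • ap g₁ v := ha
  have hm0 : m ≠ 0 := by
    rintro rfl
    simp at hm
  have hz : ∀ v : Oc F, ap (((a⁻¹ * ⟨g₁, h₁⟩ : Ex F)) : O8 F) v = m • v := by
    intro v
    change ap ((a : O8 F)⁻¹ * g₁) v = m • v
    rw [ap_mul]
    have h2 : ap (a : O8 F) (m • v) = ap g₁ v := by
      rw [ha']
      change m • ap g₁ (m • v) = _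
      change m • (g₁ : Oc F ≃ₗ[F] Oc F) (m • v) = _
      rw [map_smul, smul_smul, hm, one_smul]
    rw [← h2]
    exact ap_inv_self _ _
  rw [Subgroup.mem_center_iff]
  intro s
  apply Subtype.ext
  refine og_ext fun v => ?_
  change ap ((s : O8 F) * ((a⁻¹ * ⟨g₁, h₁⟩ : Ex F) : O8 F)) v = ap (((a⁻¹ * ⟨g₁, h₁⟩ : Ex F) : O8 F) * (s : O8 F)) v
  rw [ap_mul, ap_mul, hz, hz]
  change ((s : O8 F) : Oc F ≃ₗ[F] Oc F) (m • v) = _
  rw [map_smul]

/-- The action of triality on subgroups. -/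
def tauS (K : Subgroup (Gx F)) : Subgroup (Gx F) := K.map (tauE F).toMonoidHom

lemma index_tauS (K : Subgroup (Gx F)) : (tauS K).index = K.index :=
  Subgroup.index_map_equiv _ (tauE F)

lemma mem_pre_tauS_iff {K : Subgroup (Gx F)} {g₁ g₂ g₃ : O8 F} (ht : (g₁, g₂, g₃) ∈ Tp F) (h₃ : g₃ ∈ Ex F) (h₁ : g₁ ∈ Ex F) :
    g₁ ∈ pre (tauS K) ↔ g₃ ∈ pre K := by
  rw [mem_pre, mem_pre]
  constructor
  · rintro ⟨_, y, hy, e⟩
    refine ⟨h₃, ?_⟩
    have e' : tauE F y = tauE F (QuotientGroup.mk (⟨g₃, h₃⟩ : Ex F)) := by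
      rw [tau_class ht h₃ h₁]
      exact e
    rwa [← (tauE F).injective e']
  · rintro ⟨_, h⟩
    refine ⟨h₁, _, h, ?_⟩
    exact tau_class ht h₃ h₁

/-- The image of the Heisenberg data under triality. -/
lemma Ss_sg {K : Subgroup (Gx F)} {p : (lf0 (F := F)).W × (lf0 (F := F)).W}
    (hp : p ∈ Heis.Ss ((lf0 (F := F)).L q8_nondeg (pre K))) :
    sg p ∈ Heis.Ss ((lf0 (F := F)).L q8_nondeg (pre (tauS K))) := by
  obtain ⟨a, b⟩ := p
  obtain ⟨t, ht⟩ := hp
  obtain ⟨p', hp', g₂, htr⟩ := Th_eq (⟨a, b, t⟩ : Heis (lf0 (F := F)).B)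
  have h1 := (mem_pre_tauS_iff (K := K) htr (LF.r_mem _ _ _) (LF.r_mem _ _ _)).2 ht
  have h2 : (p'.a, p'.b) ∈ Heis.Ss ((lf0 (F := F)).L q8_nondeg (pre (tauS K))) := ⟨p'.t, h1⟩
  rw [hp'] at h2
  exact h2

lemma good_tauS {K : Subgroup (Gx F)} (hg : Good q8_nondeg (pre K) (lf0 (F := F)).x (lf0 (F := F)).y) :
    Good q8_nondeg (pre (tauS K)) (lf0 (F := F)).x (lf0 (F := F)).y := by
  intro c hc hmem
  apply hg c hc
  exact (mem_pre_tauS_iff (K := K) (triZ c) (rr_mem' _ _ _) (rr_mem' _ _ _)).1 hmem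

/-- All singular points are special. -/
def AS (K : Subgroup (Gx F)) : Prop := ∀ y : Oc F, qPlus 4 F y = 0 → y ≠ 0 → InA q8_nondeg (pre K) y

omit [Fintype F] in
lemma finrank_prod_self {W : Type*} [AddCommGroup W] [Module F W] [FiniteDimensional F W] (S : Submodule F W) :
    finrank F (S.prod S) = 2 * finrank F S := by
  let e : (S.prod S) ≃ₗ[F] S × S :=
    { toFun := fun p => (⟨p.1.1, p.2.1⟩, ⟨p.1.2, p.2.2⟩)
      invFun := fun p => ⟨(p.1.1, p.2.1), ⟨p.1.2, p.2.2⟩⟩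
      map_add' := fun _ _ => rfl
      map_smul' := fun _ _ => rfl
      left_inv := fun _ => rfl
      right_inv := fun _ => rfl }
  rw [e.finrank_eq, Module.finrank_prod]
  ring

lemma sg_injective : Function.Injective (sg (F := F)) := by
  intro p p' h
  apply ka_injective (F := F)
  apply sh_injective
  rw [← ka_sg, ← ka_sg, h]

lemma hm_of_index {K : Subgroup (Gx F)} (hm : K.index < (Nat.card F + 2) * Nat.card F ^ 5) :
    (pre K).relIndex (Ex F) < (Nat.card F + 2) * (Nat.card F * Nat.card (lf0 (F := F)).W) := by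
  rw [relIndex_pre]
  have h3 := (lf0 (F := F)).finrank_W
  rw [Module.finrank_fintype_fun_eq_card] at h3
  simp at h3
  have hc : Nat.card (lf0 (F := F)).W = Nat.card F ^ 4 := by
    rw [Module.natCard_eq_pow_finrank (K := F)]
    congr 1
    omega
  rw [hc, ← pow_succ']
  exact hm

lemma exists_S_of {K : Subgroup (Gx F)} (hm : K.index < (Nat.card F + 2) * Nat.card F ^ 5)
    (hg : Good q8_nondeg (pre K) (lf0 (F := F)).x (lf0 (F := F)).y) (h : AS K) :
    ∃ S : Submodule F (lf0 (F := F)).W, finrank F S = 2 ∧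
      Submodule.span F (Heis.Ss ((lf0 (F := F)).L q8_nondeg (pre K)) : Set ((lf0 (F := F)).W × (lf0 (F := F)).W)) = S.prod S := by
  have h3 := (lf0 (F := F)).finrank_W
  rw [Module.finrank_fintype_fun_eq_card] at h3
  simp at h3
  refine three_special q8_nondeg (lf0 (F := F)) (by omega) (hm_of_index hm) hg
    (h _ (lf0 (F := F)).Qx (lf0 (F := F)).x_ne) (h _ (lf0 (F := F)).Qy (lf0 (F := F)).y_ne)
    (h _ ((lf0 (F := F)).pd_tau 1).Qe ((lf0 (F := F)).pd_tau 1).ne)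

lemma map_prod_eq {K : Subgroup (Gx F)} {S S' : Submodule F (lf0 (F := F)).W}
    (h : Submodule.span F (Heis.Ss ((lf0 (F := F)).L q8_nondeg (pre K)) : Set ((lf0 (F := F)).W × (lf0 (F := F)).W)) = S.prod S)
    (h' : Submodule.span F (Heis.Ss ((lf0 (F := F)).L q8_nondeg (pre (tauS K))) : Set ((lf0 (F := F)).W × (lf0 (F := F)).W)) = S'.prod S')
    (hd : finrank F S = 2) (hd' : finrank F S' = 2) : (S.prod S).map (sg (F := F)) = S'.prod S' := by
  apply Submodule.eq_of_le_of_finrank_le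
  · rw [← h, ← h', Submodule.map_span_le]
    intro p hp
    exact Submodule.subset_span (Ss_sg hp)
  · rw [← (Submodule.equivMapOfInjective (sg (F := F)) sg_injective (S.prod S)).finrank_eq, finrank_prod_self,
      finrank_prod_self, hd, hd']

/-- There is no subgroup of small index, good at the reference line, with all points special for all its images. -/
theorem no_all_special {K : Subgroup (Gx F)} (hm : K.index < (Nat.card F + 2) * Nat.card F ^ 5)
    (hg : Good q8_nondeg (pre K) (lf0 (F := F)).x (lf0 (F := F)).y) (h₀ : AS K) (h₁ : AS (tauS K)) (h₂ : AS (tauS (tauS K))) :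
    False := by
  obtain ⟨S₀, d₀, e₀⟩ := exists_S_of hm hg h₀
  obtain ⟨S₁, d₁, e₁⟩ := exists_S_of (by rwa [index_tauS]) (good_tauS hg) h₁
  obtain ⟨S₂, d₂, e₂⟩ := exists_S_of (by rwa [index_tauS, index_tauS]) (good_tauS (good_tauS hg)) h₂
  exact no_three_prod S₀ S₁ S₂ d₀ (map_prod_eq e₀ e₁ d₀ d₁) (map_prod_eq e₁ e₂ d₁ d₂)

/-! ### Conjugation -/

/-- Conjugates of a subgroup of the central quotient. -/
def cjS (w : Gx F) (K : Subgroup (Gx F)) : Subgroup (Gx F) := K.map (MulAut.conj w).toMonoidHom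

lemma index_cjS (w : Gx F) (K : Subgroup (Gx F)) : (cjS w K).index = K.index :=
  Subgroup.index_map_equiv _ (MulAut.conj w)

lemma tauS_cjS (w : Gx F) (K : Subgroup (Gx F)) : tauS (cjS w K) = cjS (tauE F w) (tauS K) := by
  ext x
  simp only [tauS, cjS, Subgroup.mem_map]
  constructor
  · rintro ⟨_, ⟨y, hy, rfl⟩, rfl⟩
    refine ⟨_, ⟨y, hy, rfl⟩, ?_⟩
    simp [MulAut.conj_apply, map_mul, map_inv]
  · rintro ⟨_, ⟨y, hy, rfl⟩, rfl⟩
    refine ⟨_, ⟨y, hy, rfl⟩, ?_⟩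
    simp [MulAut.conj_apply, map_mul, map_inv]

lemma mem_pre_cjS {u : Ex F} {K : Subgroup (Gx F)} {g : O8 F} :
    g ∈ pre (cjS (QuotientGroup.mk u) K) ↔ (u : O8 F)⁻¹ * g * u ∈ pre K := by
  rw [mem_pre, mem_pre]
  constructor
  · rintro ⟨hg, y, hy, e⟩
    have hmem : (u : O8 F)⁻¹ * g * u ∈ Ex F := mul_mem (mul_mem (inv_mem u.2) hg) u.2
    refine ⟨hmem, ?_⟩
    have e' : (QuotientGroup.mk (⟨(u : O8 F)⁻¹ * g * u, hmem⟩ : Ex F) : Gx F) = y := by
      have e2 : (⟨(u : O8 F)⁻¹ * g * u, hmem⟩ : Ex F) = u⁻¹ * ⟨g, hg⟩ * u := rfl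
      rw [e2, QuotientGroup.mk_mul, QuotientGroup.mk_mul, QuotientGroup.mk_inv]
      rw [← e]
      simp [MulAut.conj_apply]
      group
    rwa [e']
  · rintro ⟨h, hmem⟩
    have hg : g ∈ Ex F := by
      have := mul_mem (mul_mem u.2 h) (inv_mem u.2)
      convert this using 1
      group
    refine ⟨hg, _, hmem, ?_⟩
    have e2 : (⟨(u : O8 F)⁻¹ * g * u, h⟩ : Ex F) = u⁻¹ * ⟨g, hg⟩ * u := rfl
    rw [e2, QuotientGroup.mk_mul, QuotientGroup.mk_mul, QuotientGroup.mk_inv]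
    simp [MulAut.conj_apply]
    group

/-- Conjugation of special points. -/
lemma InA_conj_of {V : Type*} [AddCommGroup V] [Module F V] [FiniteDimensional F V] {Q : QuadraticForm F V} {hQ : Nondeg Q}
    {H K : Subgroup (OG Q)} {g : OG Q} (hK : ∀ h ∈ H, g * h * g⁻¹ ∈ K) {x : V} (h : InA hQ H x) : InA hQ K (ap g x) := by
  obtain ⟨h1, h2, u, hu, hu', hr⟩ := h
  refine ⟨by rw [ap_Q]; exact h1, ?_, ap g u, by rw [ap_polar]; exact hu, ?_, ?_⟩
  · intro h0
    apply h2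
    have := ap_inv_self g x
    rw [h0] at this
    rw [← this]
    simp
  · intro c hc
    apply hu' c
    have := ap_inv_self g u
    rw [← this, hc]
    change (g⁻¹ : OG Q).1 (c • ap g x) = c • x
    rw [map_smul]
    congr 1
    exact ap_inv_self g x
  · rw [← rr_conj hQ g h1 hu]
    exact hK _ hr

lemma AS_cjS {K : Subgroup (Gx F)} (h : AS K) (u : Ex F) : AS (cjS (QuotientGroup.mk u) K) := by
  intro y hy hy0
  have h1 : qPlus 4 F (ap ((u : O8 F)⁻¹) y) = 0 := by rw [ap_Q]; exact hy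
  have h2 : ap ((u : O8 F)⁻¹) y ≠ 0 := by
    intro h0
    apply hy0
    have := ap_self_inv (u : O8 F) y
    rw [h0] at this
    rw [← this]
    simp
  have h3 := InA_conj_of (K := pre (cjS (QuotientGroup.mk u) K)) (g := (u : O8 F)) (fun r hr => by
    rw [mem_pre_cjS]
    convert hr using 1
    group) (h _ h1 h2)
  rwa [ap_self_inv] at h3

/-- Moving a line to the reference line. -/
lemma exists_move {x y : Oc F} (hx : qPlus 4 F x = 0) (hy : qPlus 4 F y = 0) (hxy : polar (qPlus 4 F) x y = 0)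
    (hi : Ind (F := F) x y) : ∃ u : Ex F, ∀ c : F,
      (u : O8 F) * rr q8_nondeg x (c • y) * (u : O8 F)⁻¹ = rr q8_nondeg (lf0 (F := F)).x (c • (lf0 (F := F)).y) := by
  have hd8 : finrank F (Oc F) = 8 := by
    rw [Module.finrank_fintype_fun_eq_card]
    simp
  have hQ := q8_nondeg (F := F)
  obtain ⟨g₁, hg₁, e₁⟩ := E_trans hQ (V := Oc F) (by omega) (hx.trans (lf0 (F := F)).Qx.symm) hi.left_ne (lf0 (F := F)).x_ne
  set x₀ := (lf0 (F := F)).x with hx₀
  set xs₀ := (lf0 (F := F)).xs with hxs₀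
  set y₀ := (lf0 (F := F)).y with hy₀
  set y₁ := ap g₁ y with hy₁
  have hQ1 : qPlus 4 F y₁ = 0 := by rw [hy₁, ap_Q]; exact hy
  have hp1 : polar (qPlus 4 F) x₀ y₁ = 0 := by rw [← e₁, hy₁, ap_polar]; exact hxy
  have hyp : IsHyp (qPlus 4 F) x₀ xs₀ := (lf0 (F := F)).hyp_x
  set p := polar (qPlus 4 F) xs₀ y₁ with hp
  set y₂ := y₁ - p • x₀ with hy₂
  have hsx : polar (qPlus 4 F) xs₀ x₀ = 1 := by rw [polar_comm]; exact hyp.vw
  have hmem : y₂ ∈ perp2 (qPlus 4 F) x₀ xs₀ := by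
    rw [mem_perp2]
    constructor
    · rw [hy₂, polar_sub_right, polar_smul_r, hp1, polar_self_of_singular hyp.Qv]; ring
    · rw [hy₂, polar_sub_right, polar_smul_r, hsx, ← hp]; ring
  have hQ2 : qPlus 4 F y₂ = 0 := by
    rw [hy₂, Q_sub, Q_smul, hyp.Qv, hQ1, polar_smul_r, polar_comm, hp1]; ring
  have hne2 : y₂ ≠ 0 := by
    intro h0
    have h1 : y₁ = p • x₀ := sub_eq_zero.1 h0
    have h2 : y = p • x := by
      have h3 := ap_inv_self g₁ y
      rw [← hy₁, h1, ← e₁] at h3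
      have h4 : ap g₁⁻¹ (p • ap g₁ x) = p • x := by
        change (g₁⁻¹ : O8 F).1 (p • ap g₁ x) = _
        rw [map_smul]
        congr 1
        exact ap_inv_self g₁ x
      rw [h4] at h3
      exact h3.symm
    by_cases hp0 : p = 0
    · rw [hp0, zero_smul] at h2
      exact hi.1 h2
    · apply hi.2 p⁻¹
      rw [h2, smul_smul, inv_mul_cancel₀ hp0, one_smul]
  have hT := nondeg_T hyp hQ
  have hfT : finrank F (perp2 (qPlus 4 F) x₀ xs₀) = 6 := by
    have h0 : finrank F (Oc F) = 2 + finrank F (perp2 (qPlus 4 F) x₀ xs₀) := hyp.finrank_perp2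
    omega
  have hy₀mem : y₀ ∈ perp2 (qPlus 4 F) x₀ xs₀ := (lf0 (F := F)).y_mem
  obtain ⟨γ, hγ, e₂⟩ := E_trans hT (v := ⟨y₂, hmem⟩) (v' := ⟨y₀, hy₀mem⟩) (by omega)
    (hQ2.trans (lf0 (F := F)).Qy.symm) (fun h => hne2 (congrArg Subtype.val h))
    (fun h => (lf0 (F := F)).y_ne (congrArg Subtype.val h))
  set Γ := emb hyp γ with hΓ
  have hΓE : Γ ∈ Ex F := emb_mem hyp hγ
  have hΓx : ap Γ x₀ = x₀ := emb_e hyp γ
  have hΓy : ap Γ y₂ = y₀ := by
    have := emb_t hyp γ ⟨y₂, hmem⟩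
    rw [e₂] at this
    exact this
  refine ⟨⟨Γ * g₁, mul_mem hΓE hg₁⟩, fun c => ?_⟩
  change Γ * g₁ * rr q8_nondeg x (c • y) * (Γ * g₁)⁻¹ = _
  have e3 : Γ * g₁ * rr q8_nondeg x (c • y) * (Γ * g₁)⁻¹ = Γ * (g₁ * rr q8_nondeg x (c • y) * g₁⁻¹) * Γ⁻¹ := by
    group
  have hcy : polar (qPlus 4 F) x (c • y) = 0 := by rw [polar_smul_r, hxy, mul_zero]
  have e4 : ap g₁ (c • y) = c • y₁ := by
    change (g₁ : Oc F ≃ₗ[F] Oc F) (c • y) = _
    rw [map_smul]
  rw [e3, rr_conj hQ g₁ hx hcy, e₁, e4]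
  have hcy₂ : polar (qPlus 4 F) x₀ (c • y₂) = 0 := by rw [polar_smul_r, (mem_perp2.1 hmem).1, mul_zero]
  have e5 : c • y₁ = c • y₂ + (c * p) • x₀ := by
    rw [hy₂]
    module
  rw [e5, rr_add_smul hQ hyp.Qv hcy₂, rr_conj hQ Γ hyp.Qv hcy₂, hΓx]
  congr 1
  change (Γ : Oc F ≃ₗ[F] Oc F) (c • y₂) = _
  rw [map_smul]
  change c • ap Γ y₂ = _
  rw [hΓy]

/-- **The lower bound in dimension eight, plus type.** -/
theorem index_D4 (hq : 4 ≤ Nat.card F) {T : ℕ} (hT : T ≤ (Nat.card F + 2) * Nat.card F ^ 5)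
    (hZ : T * (Nat.card F - 1) ≤ Nat.card {v : Oc F // v ≠ 0 ∧ qPlus 4 F v = 0})
    (hc : ∀ c : F, c ≠ 0 → T * Nat.card {d : F // d ≠ 0 ∧ d ^ 2 * c = c} ≤ Nat.card {v : Oc F // v ≠ 0 ∧ qPlus 4 F v = c})
    (K : Subgroup (Gx F)) (hK : K ≠ ⊤) : T ≤ K.index := by
  by_contra hlt
  push Not at hlt
  have hm := lt_of_lt_of_le hlt hT
  have hd8 : finrank F (Oc F) = 8 := by
    rw [Module.finrank_fintype_fun_eq_card]
    simp
  have hcard : Nat.card (Oc F) = Fintype.card F ^ 8 := by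
    rw [Module.natCard_eq_pow_finrank (K := F), hd8, Nat.card_eq_fintype_card]
  have hzeros : Nat.card {v : Oc F // qPlus 4 F v = 0} + Fintype.card F ^ 3 = Fintype.card F ^ 7 + Fintype.card F ^ 4 := by
    have h1 := zeros_plus_succ (F := F) 3
    have h2 : ((Nat.card {v : Oc F // qPlus 4 F v = 0} + Fintype.card F ^ 3 : ℕ) : ℤ) = ((Fintype.card F ^ 7 + Fintype.card F ^ 4 : ℕ) : ℤ) := by
      push_cast
      rw [h1]
      ring
    exact_mod_cast h2
  have hp4 := fun (fr : LF (qPlus 4 F)) (e es : fr.W) (h1 : qPlus 4 F (e : Oc F) = 0) (h2 : qPlus 4 F (es : Oc F) = 0)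
    (h3 : polar (qPlus 4 F) (e : Oc F) es = 1) => plus3_of_zeros hcard hzeros fr e es h1 h2 h3
  have hreg : ∀ K' : Subgroup (Gx F), K'.index = K.index → AS K' := by
    intro K' e y h1 h2
    by_contra h3
    have h4 := lower_of_regular q8_nondeg hd8 hq hp4 hT hZ hc h1 h2 h3
    rw [relIndex_pre, e] at h4
    omega
  obtain ⟨x, y, hx, hy, hxy, hi, hg⟩ := exists_good q8_nondeg (V := Oc F) (by omega) (not_le_pre hK)
  obtain ⟨u, hu⟩ := exists_move hx hy hxy hi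
  obtain ⟨u₁, hu₁⟩ := QuotientGroup.mk_surjective (tauE F (QuotientGroup.mk u))
  obtain ⟨u₂, hu₂⟩ := QuotientGroup.mk_surjective (tauE F (tauE F (QuotientGroup.mk u)))
  have hgood : Good q8_nondeg (pre (cjS (QuotientGroup.mk u) K)) (lf0 (F := F)).x (lf0 (F := F)).y := by
    intro c hc0 hmem
    rw [mem_pre_cjS, ← hu c] at hmem
    apply hg c hc0
    convert hmem using 1
    group
  refine no_all_special (K := cjS (QuotientGroup.mk u) K) (by rwa [index_cjS]) hgood (AS_cjS (hreg K rfl) u) ?_ ?_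
  · rw [tauS_cjS, ← hu₁]
    exact AS_cjS (hreg _ (index_tauS K)) u₁
  · rw [tauS_cjS, tauS_cjS, ← hu₂]
    exact AS_cjS (hreg _ ((index_tauS _).trans (index_tauS K))) u₂

end Cfsg.Agent.Lib.OmIdx

end
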