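import Mathlib
import Cfsg.Agent.Lib.OmIdxR

/-!
# Minimal index in orthogonal groups: plus type
-/

set_option autoImplicit false
set_option linter.unusedSectionVars false
set_option linter.unusedVariables false
set_option linter.unusedSimpArgs false

noncomputable section

namespace Cfsg.Agent.Lib.OmIdx

open Module QuadraticMap Cfsg.Agent.Lib.OrthoBasic Cfsg.Agent.Lib.OrthoSiegel Cfsg.Agent.Lib.OrthoGen
  Cfsg.Agent.Lib.QuadFF Cfsg.Agent.Lib.OmGeo Cfsg.Agent.Lib.Tri Cfsg.Agent.Lib.OrthoCount Cfsg.Agent.Lib.OrthoOrder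
  Cfsg.Agent.Lib.OrthoFinal Cfsg.Agent.Lib.OrthoSimple

variable {F : Type*} [Field F] [Fintype F]

/-- Dimension eight, plus type. -/
theorem pomega_D4 (hq : 4 ≤ Fintype.card F) {T : ℕ}
    (hT : T ≤ (Fintype.card F + 2) * Fintype.card F ^ 5)
    (hZ : T * (Fintype.card F - 1) + 1 = Nat.card {v : Oc F // qPlus 4 F v = 0})
    (hc : ∀ c : F, c ≠ 0 → T * Nat.card {d : F // d ≠ 0 ∧ d ^ 2 * c = c} ≤ Nat.card {v : Oc F // qPlus 4 F v = c}) :
    (∀ H : Subgroup (Cfsg.POmega F (Cfsg.quadFormPlus 4 F)), H ≠ ⊤ → T ≤ H.index) ∧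
      (∃ H : Subgroup (Cfsg.POmega F (Cfsg.quadFormPlus 4 F)), H.index = T) := by
  have hqc : Nat.card F = Fintype.card F := Nat.card_eq_fintype_card
  have hq2 : 2 ≤ Fintype.card F := Fintype.one_lt_card
  have hZ' : Nat.card {v : Oc F // v ≠ 0 ∧ qPlus 4 F v = 0} + 1 = Nat.card {v : Oc F // qPlus 4 F v = 0} :=
    card_ne_zero_zero (qPlus 4 F)
  have hd8 : finrank F (Oc F) = 8 := by
    show finrank F (Fin 4 ⊕ Fin 4 → F) = 8
    rw [Module.finrank_fintype_fun_eq_card]
    simp
  have hf : ∀ v, Cfsg.quadFormPlus 4 F v = qPlus 4 F v := fun v => (qPlus_apply _ v).symm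
  have hQ := q8_nondeg (F := F)
  have hE : commutator (OG (F := F) (V := Oc F) (qPlus 4 F)) = siegelE (qPlus 4 F) := omega_eq_E hQ gen8 (fr8 F)
  constructor
  · intro H hH
    let e := pomegaEquiv (V := Unit) (Cfsg.quadFormPlus 4 F) (qPlus 4 F) hf hE
    have h1 : (H.map (e : _ →* Gx F)).index = H.index := Subgroup.index_map_equiv _ e
    rw [← h1]
    refine index_D4 (by rw [hqc]; exact hq) (by rw [hqc]; exact hT) (by rw [hqc]; omega) (fun c hc0 => ?_) _ ?_
    · rw [card_ne_zero_ne _ hc0]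
      exact hc c hc0
    · intro h0
      apply hH
      rw [eq_top_iff]
      intro x _
      have h2 : e x ∈ H.map (e : _ →* Gx F) := by
        rw [h0]
        trivial
      obtain ⟨y, hy, hye⟩ := h2
      have : y = x := e.injective hye
      rwa [← this]
  · obtain ⟨p, hp, hQp⟩ := exists_singular (qPlus 4 F) (V := Oc F) (by omega)
    obtain ⟨H, hH⟩ := pomega_exists (Cfsg.quadFormPlus 4 F) (qPlus 4 F) hf hQ gen8 (fr8 F) hp
    refine ⟨H, ?_⟩
    have h5 : 5 ≤ finrank F (Oc F) := by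
      rw [hd8]
      norm_num
    have h1 := card_eq_lineStab (V := Oc F) hQ h5 hp
    rw [hQp, card_R_zero, hqc, ← hH] at h1
    have h2 : H.index * (Fintype.card F - 1) = T * (Fintype.card F - 1) := by
      rw [← h1]
      omega
    exact Nat.eq_of_mul_eq_mul_right (by omega) h2

/-- The numbers for the plus type. -/
theorem plus_nums (hq : 4 ≤ Fintype.card F) (m : ℕ) (hm : 4 ≤ m) :
    (Fintype.card F ^ m - 1) * (Fintype.card F ^ (m - 1) + 1) / (Fintype.card F - 1)
        ≤ (Fintype.card F + 2) * Fintype.card F ^ (2 * m - 3) ∧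
    (Fintype.card F ^ m - 1) * (Fintype.card F ^ (m - 1) + 1) / (Fintype.card F - 1) * (Fintype.card F - 1) + 1
        = Nat.card {v // qPlus m F v = 0} ∧
    ∀ c : F, c ≠ 0 → (Fintype.card F ^ m - 1) * (Fintype.card F ^ (m - 1) + 1) / (Fintype.card F - 1) *
        Nat.card {d : F // d ≠ 0 ∧ d ^ 2 * c = c} ≤ Nat.card {v // qPlus m F v = c} := by
  obtain ⟨n, rfl⟩ : ∃ n, m = n + 1 := ⟨m - 1, by omega⟩
  have hn : 3 ≤ n := by omega
  simp only [Nat.add_sub_cancel]
  set q := Fintype.card F with hqdef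
  set A := q ^ n with hA
  have hq1 : q ^ (n + 1) = q * A := by rw [hA]; ring
  rw [hq1]
  have hA3 : q ^ 3 ≤ A := Nat.pow_le_pow_right (by omega) hn
  have hqq : q * q ≤ q ^ 3 := by
    have : q ^ 3 = q * q * q := by ring
    rw [this]
    exact Nat.le_mul_of_pos_right _ (by omega)
  have hq16 : 16 ≤ q * q := Nat.mul_le_mul hq hq
  have hAq : q * q ≤ A := hqq.trans hA3
  have hA1 : 1 ≤ A := by omega
  have hdvd : q - 1 ∣ q * A - 1 := by
    rw [← hq1]
    simpa using Nat.sub_dvd_pow_sub_pow q 1 (n + 1)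
  obtain ⟨U, hU⟩ := hdvd
  have hT0 : (q * A - 1) * (A + 1) / (q - 1) = U * (A + 1) := by
    rw [hU, show (q - 1) * U * (A + 1) = (q - 1) * (U * (A + 1)) by ring]
    exact Nat.mul_div_cancel_left _ (by omega)
  rw [hT0]
  set T := U * (A + 1) with hT
  obtain ⟨r, hr⟩ : ∃ r, q = r + 4 := ⟨q - 4, by omega⟩
  have hr' : q - 1 = r + 3 := by omega
  have hq11 : 1 ≤ q * A := Nat.mul_pos (by omega) hA1
  have hTq : T * (r + 3) + A + 1 = q * A * A + q * A := by
    have h1 : U * (r + 3) + 1 = q * A := by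
      rw [hr'] at hU
      rw [mul_comm]
      omega
    calc T * (r + 3) + A + 1 = (U * (r + 3) + 1) * (A + 1) := by
          rw [hT]
          ring
      _ = q * A * (A + 1) := by rw [h1]
      _ = q * A * A + q * A := by ring
  refine ⟨?_, ?_, ?_⟩
  · -- the upper bound
    set B := q ^ (2 * (n + 1) - 3) with hB
    have hAB : A * A = q * B := by
      rw [hA, hB]
      have : 2 * (n + 1) - 3 = 2 * n - 1 := by omega
      rw [this, ← pow_add, ← pow_succ']
      congr 1
      omega
    have hqA : q * A ≤ B := by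
      rw [← hq1, hB]
      exact Nat.pow_le_pow_right (by omega) (by omega)
    refine Nat.le_of_mul_le_mul_right (c := r + 3) ?_ (by omega)
    have h2 : T * (r + 3) ≤ q * (A * A) + q * A := by
      have : q * A * A = q * (A * A) := by ring
      omega
    rw [hAB] at h2
    calc T * (r + 3) ≤ q * (q * B) + q * A := h2
      _ ≤ q * (q * B) + B := by omega
      _ ≤ (q + 2) * B * (r + 3) := by
        rw [hr]
        nlinarith [Nat.zero_le B, Nat.zero_le r, Nat.zero_le (r * B), Nat.zero_le (r * r * B)]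
  · -- the zeros
    have h1 := zeros_plus_succ (F := F) n
    rw [← hqdef] at h1
    have e2 : (q : ℤ) ^ (2 * n + 1) = (q : ℤ) * A * A := by
      rw [hA]
      push_cast
      ring
    have e3 : (q : ℤ) ^ (n + 1) = (q : ℤ) * A := by
      rw [hA]
      push_cast
      ring
    have e4 : (q : ℤ) ^ n = A := by
      rw [hA]
      push_cast
      rfl
    rw [e2, e3, e4] at h1
    have h2 : ((T * (q - 1) + 1 : ℕ) : ℤ) = ((Nat.card {v // qPlus (n + 1) F v = 0} : ℕ) : ℤ) := by
      rw [h1, hr']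
      have h3 : ((T * (r + 3) + A + 1 : ℕ) : ℤ) = ((q * A * A + q * A : ℕ) : ℤ) := by rw [hTq]
      push_cast at h3 ⊢
      linarith
    exact_mod_cast h2
  · intro c hc
    have h1 := plus_ne hc n
    rw [← hqdef, ← hA] at h1
    have e2 : q ^ (2 * n + 1) = q * A * A := by
      rw [hA]
      ring
    rw [e2] at h1
    have h2 := card_R_le_two hc
    calc T * Nat.card {d : F // d ≠ 0 ∧ d ^ 2 * c = c} ≤ T * 2 := Nat.mul_le_mul_left _ h2
      _ ≤ _ := by
        have h3 : T * 3 ≤ T * (r + 3) := Nat.mul_le_mul_left _ (by omega)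
        have h4 : 4 * A ≤ q * A := Nat.mul_le_mul_right _ hq
        have h5 : 16 * A ≤ A * A := Nat.mul_le_mul_right _ (hq16.trans hAq)
        have h6 : q * (16 * A) ≤ q * A * A := by
          have : q * A * A = q * (A * A) := by ring
          rw [this]
          exact Nat.mul_le_mul_left _ h5
        have h7 : q * (16 * A) = 16 * (q * A) := by ring
        omega

end Cfsg.Agent.Lib.OmIdx

end
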