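import Mathlib
import Cfsg.Agent.Lib.OrthoSiegel
import Cfsg.Agent.Lib.OrthoGen
import Cfsg.Agent.Lib.WittForms

/-!
# The group `Ω⁺_{2m}(2)`: Siegel elements

We work with the group `siegelE Q` acting on `V`, over the field with two elements.
-/

set_option autoImplicit false
set_option linter.unusedSectionVars false
set_option linter.unusedVariables false

namespace Cfsg.Agent.Lib.OmPlusIdx

open QuadraticMap Cfsg.Agent.Lib.OrthoBasic Cfsg.Agent.Lib.OrthoSiegel

variable {F : Type*} [Field F] [Fintype F] {V : Type*} [AddCommGroup V] [Module F V]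
  [FiniteDimensional F V] {Q : QuadraticForm F V}

section F2

variable (hF : Fintype.card F = 2)
include hF

lemma two0 : (2 : F) = 0 := by
  have h := FiniteField.cast_card_eq_zero F
  rw [hF] at h
  exact_mod_cast h

lemma add_self' (a : F) : a + a = 0 := by
  rw [← two_mul, two0 hF, zero_mul]

lemma neg_eq' (a : F) : -a = a := by
  have := add_self' hF a
  linear_combination -this

lemma sub_eq' (a b : F) : a - b = a + b := by
  rw [sub_eq_add_neg, neg_eq' hF]

lemma zero_or_one (a : F) : a = 0 ∨ a = 1 := by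
  classical
  by_contra h
  push Not at h
  have h1 : ({0, 1, a} : Finset F).card ≤ Fintype.card F := Finset.card_le_univ _
  have h2 : ({0, 1, a} : Finset F).card = 3 :=
    Finset.card_eq_three.2 ⟨0, 1, a, zero_ne_one, fun h3 => h.1 h3.symm, fun h3 => h.2 h3.symm, rfl⟩
  omega

lemma eq_one_of_ne {a : F} (h : a ≠ 0) : a = 1 := (zero_or_one hF a).resolve_left h

lemma vadd_self (x : V) : x + x = 0 := by
  rw [← two_smul F x, two0 hF, zero_smul]

lemma vneg (x : V) : -x = x := by
  have := vadd_self hF x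
  exact neg_eq_of_add_eq_zero_left this

lemma vsub (x y : V) : x - y = x + y := by
  rw [sub_eq_add_neg, vneg hF]

lemma pol_self (x : V) : polar Q x x = 0 := by
  rw [polar_self', two0 hF, zero_mul]

lemma Q_adds (x y : V) : Q (x + y) = Q x + Q y + polar Q x y := Q_add Q x y

end F2

/-- The group. -/
abbrev GG (Q : QuadraticForm F V) := ↥(siegelE Q)

lemma GG_ext {g h : GG Q} (H : ∀ x : V, g • x = h • x) : g = h :=
  Subtype.ext (Subtype.ext (LinearEquiv.ext H))

lemma Q_smul' (g : GG Q) (x : V) : Q (g • x) = Q x := (g : OG Q).2 x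

lemma pol_smul (g : GG Q) (x y : V) : polar Q (g • x) (g • y) = polar Q x y :=
  OG_polar Q (g : OG Q) x y

section Siegel

variable (hQ : Nondeg Q)

/-- The Siegel element with centre `v` and parameter `u`. -/
noncomputable def Es (v u : V) : GG Q := by
  classical
  exact if h : Q v = 0 ∧ polar Q v u = 0 then ⟨siegel hQ h.1 h.2, siegel_mem hQ h.1 h.2⟩ else 1

variable (hF : Fintype.card F = 2)
include hF

lemma Es_smul {v u : V} (hv : Q v = 0) (hu : polar Q v u = 0) (x : V) :
    Es hQ v u • x = x + polar Q x v • u + (polar Q x u + Q u * polar Q x v) • v := by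
  classical
  rw [Es, dif_pos ⟨hv, hu⟩]
  show siegelLin Q v u x = _
  rw [siegelLin_apply, vsub hF]

lemma Es_mul {v u u' : V} (hv : Q v = 0) (hu : polar Q v u = 0) (hu' : polar Q v u' = 0) :
    Es hQ v u * Es hQ v u' = Es hQ v (u + u') := by
  classical
  apply GG_ext
  intro x
  have hs : polar Q v (u + u') = 0 := by rw [polar_add_right, hu, hu', add_zero]
  rw [mul_smul, Es, Es, Es, dif_pos ⟨hv, hu⟩, dif_pos ⟨hv, hu'⟩, dif_pos ⟨hv, hs⟩]
  exact siegelLin_comp hv hu hu' x

lemma Es_zero {v : V} (hv : Q v = 0) : Es hQ v (0 : V) = 1 := by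
  apply GG_ext
  intro x
  rw [Es_smul hQ hF hv (polar_zero_right _ _), one_smul]
  simp

lemma Es_self {v : V} (hv : Q v = 0) : Es hQ v v = 1 := by
  apply GG_ext
  intro x
  rw [Es_smul hQ hF hv (pol_self hF v), one_smul, hv, zero_mul, add_zero, add_assoc, ← add_smul,
    add_self' hF, zero_smul, add_zero]

lemma Es_add_self {v u : V} (hv : Q v = 0) (hu : polar Q v u = 0) :
    Es hQ v (u + v) = Es hQ v u := by
  rw [← Es_mul hQ hF hv hu (pol_self hF v), Es_self hQ hF hv, mul_one]

lemma Es_mul_self {v u : V} (hv : Q v = 0) (hu : polar Q v u = 0) :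
    Es hQ v u * Es hQ v u = 1 := by
  rw [Es_mul hQ hF hv hu hu, vadd_self hF, Es_zero hQ hF hv]

lemma Es_inv {v u : V} (hv : Q v = 0) (hu : polar Q v u = 0) : (Es hQ v u)⁻¹ = Es hQ v u :=
  inv_eq_of_mul_eq_one_right (Es_mul_self hQ hF hv hu)

lemma Es_conj (g : GG Q) {v u : V} (hv : Q v = 0) (hu : polar Q v u = 0) :
    g * Es hQ v u * g⁻¹ = Es hQ (g • v) (g • u) := by
  apply GG_ext
  intro x
  have hv' : Q (g • v) = 0 := by rw [Q_smul', hv]
  have hu' : polar Q (g • v) (g • u) = 0 := by rw [pol_smul, hu]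
  rw [mul_smul, mul_smul, Es_smul hQ hF hv hu, Es_smul hQ hF hv' hu']
  have h1 : polar Q (g⁻¹ • x) v = polar Q x (g • v) := by
    rw [← pol_smul g, smul_inv_smul]
  have h2 : polar Q (g⁻¹ • x) u = polar Q x (g • u) := by
    rw [← pol_smul g, smul_inv_smul]
  rw [h1, h2, smul_add, smul_add, smul_inv_smul, smul_comm g, smul_comm g, Q_smul']

lemma Es_smul_center {v u : V} (hv : Q v = 0) (hu : polar Q v u = 0) : Es hQ v u • v = v := by
  rw [Es_smul hQ hF hv hu, pol_self hF, hu, mul_zero, add_zero, zero_smul, zero_smul, add_zero, add_zero]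

lemma Es_smul_perp {v u x : V} (hv : Q v = 0) (hu : polar Q v u = 0) (hx : polar Q x v = 0) :
    Es hQ v u • x = x + polar Q x u • v := by
  rw [Es_smul hQ hF hv hu, hx, mul_zero, add_zero, zero_smul, add_zero]

lemma Es_symm {v u : V} (hv : Q v = 0) (hu : polar Q v u = 0) (hQu : Q u = 0) :
    Es hQ v u = Es hQ u v := by
  apply GG_ext
  intro x
  rw [Es_smul hQ hF hv hu, Es_smul hQ hF hQu (by rw [polar_comm, hu]), hQu, hv, zero_mul, zero_mul,
    add_zero, add_zero]
  abel

lemma exists_pol_one {v : V} (hQ' : Nondeg Q) (h0 : v ≠ 0) : ∃ x, polar Q x v = 1 := by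
  obtain ⟨y, hy⟩ := hQ' v h0
  exact ⟨y, by rw [polar_comm]; exact eq_one_of_ne hF hy⟩

lemma Es_eq_one_iff {v u : V} (hv : Q v = 0) (hu : polar Q v u = 0) (h0 : v ≠ 0) :
    Es hQ v u = 1 ↔ u = 0 ∨ u = v := by
  constructor
  · intro h
    obtain ⟨x, hx⟩ := exists_pol_one hF hQ h0
    have h1 : Es hQ v u • x = x := by rw [h, one_smul]
    rw [Es_smul hQ hF hv hu, hx, one_smul, mul_one] at h1
    have h2 : u + (polar Q x u + Q u) • v = 0 := by
      have h3 : x + (u + (polar Q x u + Q u) • v) = x + 0 := by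
        rw [add_zero, ← add_assoc]
        exact h1
      exact add_left_cancel h3
    rcases zero_or_one hF (polar Q x u + Q u) with h3 | h3
    · rw [h3, zero_smul, add_zero] at h2
      exact Or.inl h2
    · rw [h3, one_smul] at h2
      right
      have := congrArg (· + v) h2
      simpa [add_assoc, vadd_self hF] using this
  · rintro (rfl | rfl)
    · exact Es_zero hQ hF hv
    · exact Es_self hQ hF hv

/-- A sum of centres. -/
lemma Es_add_center {a v u : V} (ha : Q a = 0) (hv : Q v = 0) (hav : polar Q a v = 0)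
    (hau : polar Q a u = 0) (hvu : polar Q v u = 0) :
    Es hQ a u * Es hQ v u = Es hQ (a + v) (u + Q u • a) := by
  have h1 : Q (a + v) = 0 := by rw [Q_adds hF, ha, hv, hav, add_zero, add_zero]
  have h2 : polar Q (a + v) (u + Q u • a) = 0 := by
    rw [polar_add_left, polar_add_right, polar_add_right, polar_smul_r, polar_smul_r, hau, hvu, pol_self hF,
      polar_comm Q v a, hav]
    ring
  apply GG_ext
  intro x
  rw [mul_smul, Es_smul hQ hF hv hvu, Es_smul hQ hF ha hau, Es_smul hQ hF h1 h2]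
  have hua : polar Q u a = 0 := by rw [polar_comm, hau]
  have hva : polar Q v a = 0 := by rw [polar_comm, hav]
  have huv : polar Q u v = 0 := by rw [polar_comm, hvu]
  simp only [polar_add_left, polar_add_right, polar_smul_l, polar_smul_r, hua, hva, huv, hav, hau, hvu,
    pol_self hF, mul_zero, add_zero, zero_add, Q_adds hF (F := F), polar_smul_r, ha, QuadraticMap.map_smul,
    Q_smul]
  have h4 : ∀ c : F, c ^ 2 = c := fun c => by
    rcases zero_or_one hF c with rfl | rfl <;> simp
  simp only [h4, ha, mul_zero, add_zero, smul_add, add_smul, smul_smul]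
  rcases zero_or_one hF (Q u) with h5 | h5
  · simp only [h5, mul_zero, zero_mul, zero_smul, add_zero, zero_add]
    abel
  · simp only [h5, one_mul, mul_one, one_smul]
    have h6 : ∀ (c : F) (y : V), c • y + c • y = 0 := fun c y => vadd_self hF _
    linear_combination (norm := module) -(h6 (polar Q x a + polar Q x v) a) - (h6 (polar Q x a) v)

end Siegel

section Perp

open Module

variable (hF : Fintype.card F = 2) (hQ : Nondeg Q)

/-- The polar form is non-degenerate. -/
lemma polar_nondeg (hQ : Nondeg Q) : (polarBilin Q).Nondegenerate := by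
  constructor
  · intro x hx
    by_contra h
    obtain ⟨y, hy⟩ := hQ x h
    exact hy (hx y)
  · intro x hx
    by_contra h
    obtain ⟨y, hy⟩ := hQ x h
    apply hy
    rw [polar_comm]
    exact hx y

/-- The orthogonal complement. -/
def Pq (Q : QuadraticForm F V) (Y : Submodule F V) : Submodule F V :=
  LinearMap.BilinForm.orthogonal (polarBilin Q) Y

lemma mem_Pq {Y : Submodule F V} {z : V} : z ∈ Pq Q Y ↔ ∀ y ∈ Y, polar Q y z = 0 := by
  rw [Pq, LinearMap.BilinForm.mem_orthogonal_iff]
  rfl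

include hQ in
lemma finrank_Pq (Y : Submodule F V) : finrank F Y + finrank F (Pq Q Y) = finrank F V := by
  have h1 := LinearMap.BilinForm.finrank_orthogonal (polar_nondeg hQ) Y
  have h2 := Submodule.finrank_le Y
  rw [Pq, h1]
  omega

include hF hQ in
lemma card_mul_Pq (Y : Submodule F V) : Nat.card Y * Nat.card (Pq Q Y) = Nat.card V := by
  rw [Module.natCard_eq_pow_finrank (K := F) (V := Y), Module.natCard_eq_pow_finrank (K := F) (V := Pq Q Y),
    Module.natCard_eq_pow_finrank (K := F) (V := V), ← pow_add, finrank_Pq hQ]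

include hQ in
lemma Pq_Pq (Y : Submodule F V) : Pq Q (Pq Q Y) = Y := by
  symm
  apply Submodule.eq_of_le_of_finrank_eq
  · intro y hy
    rw [mem_Pq]
    intro z hz
    rw [polar_comm]
    exact mem_Pq.1 hz y hy
  · have h1 := finrank_Pq hQ Y
    have h2 := finrank_Pq hQ (Pq Q Y)
    omega

variable {m : ℕ}

include hF hQ in
/-- Vectors with prescribed inner products and prescribed value of the form. -/
lemma presc (hdim : finrank F V = 2 * m) (C : Finset V) (hC : C.card < m) (z₀ : V) (δ : F) :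
    ∃ z, (∀ c ∈ C, polar Q c z = polar Q c z₀) ∧ Q z = δ := by
  classical
  by_cases h0 : Q z₀ = δ
  · exact ⟨z₀, fun _ _ => rfl, h0⟩
  set S : Submodule F V := Submodule.span F (C : Set V) with hS
  have hSdim : finrank F S ≤ C.card := by
    have := finrank_span_finset_le_card (R := F) C
    exact this
  have hP := finrank_Pq hQ S
  have key : ∃ r ∈ Pq Q S, Q r + polar Q z₀ r ≠ 0 := by
    by_contra hc
    push Not at hc
    have hle : Pq Q S ≤ Pq Q (Pq Q S) := by
      intro a ha
      rw [mem_Pq]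
      intro b hb
      have h1 := hc a ha
      have h2 := hc b hb
      have h3 := hc (b + a) (Submodule.add_mem _ hb ha)
      rw [Q_adds hF, polar_add_right] at h3
      linear_combination h3 - h1 - h2
    have h4 := Submodule.finrank_mono hle
    have h5 := finrank_Pq hQ (Pq Q S)
    omega
  obtain ⟨r, hr, hr1⟩ := key
  refine ⟨z₀ + r, fun c hc => ?_, ?_⟩
  · rw [polar_add_right, mem_Pq.1 hr c (Submodule.subset_span hc), add_zero]
  · rw [Q_adds hF]
    have h1 := eq_one_of_ne hF hr1
    have h2 : Q z₀ + 1 = δ := by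
      rcases zero_or_one hF (Q z₀) with h3 | h3 <;> rcases zero_or_one hF δ with h4 | h4
      · exact absurd (h3.trans h4.symm) h0
      · rw [h3, h4, zero_add]
      · rw [h3, h4, add_self' hF]
      · exact absurd (h3.trans h4.symm) h0
    rw [← h2]
    linear_combination h1

include hF hQ in
/-- A non-singular vector orthogonal to a small set. -/
lemma exists_nonsing_perp (hdim : finrank F V = 2 * m) (C : Finset V) (hC : C.card < m) :
    ∃ r, Q r = 1 ∧ ∀ c ∈ C, polar Q c r = 0 := by
  obtain ⟨z, h1, h2⟩ := presc hF hQ hdim C hC 0 1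
  exact ⟨z, h2, fun c hc => by rw [h1 c hc, polar_zero_right]⟩

end Perp

section Refl

open Module

variable (hF : Fintype.card F = 2) (hQ : Nondeg Q)

include hF

/-- The reflection formula. -/
lemma refl_smul {x : V} (hx : Q x ≠ 0) (c : V) :
    ((Cfsg.Agent.Lib.OrthoGen.refl hQ hx : OG Q) : V ≃ₗ[F] V) c = c + polar Q c x • x := by
  rw [Cfsg.Agent.Lib.OrthoGen.refl_apply, Cfsg.Agent.Lib.OrthoGen.reflLin_apply, eq_one_of_ne hF hx, div_one, vsub hF]

/-- Product of two orthogonal reflections is Siegel. -/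
lemma refl_mul_refl_orth {x y : V} (hx : Q x = 1) (hy : Q y = 1) (hxy : polar Q x y = 0) :
    (Cfsg.Agent.Lib.OrthoGen.refl hQ (by rw [hx]; exact one_ne_zero) *
      Cfsg.Agent.Lib.OrthoGen.refl hQ (by rw [hy]; exact one_ne_zero) : OG Q) ∈ siegelE Q := by
  have hx0 : Q x ≠ 0 := by rw [hx]; exact one_ne_zero
  have hy0 : Q y ≠ 0 := by rw [hy]; exact one_ne_zero
  have h1 : Q (x + y) = 0 := by
    rw [Q_adds hF, hx, hy, hxy, add_self' hF, add_zero]
  have h2 : polar Q (x + y) x = 0 := by
    rw [polar_add_left, pol_self hF, polar_comm Q y x, hxy, add_zero]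
  refine IsSiegel.mem (e := x + y) (y := x) ⟨h1, h2, fun c => ?_⟩
  have h3 : ∀ z : OG Q, ∀ w : V, (z : V ≃ₗ[F] V) w = z • w := fun _ _ => rfl
  rw [Subgroup.coe_mul, LinearEquiv.mul_apply, refl_smul hF hQ hx0, refl_smul hF hQ hy0, siegelLin_apply, vsub hF, hx]
  simp only [polar_add_left, polar_add_right, polar_smul_l, polar_comm Q y x, hxy, mul_zero, add_zero, one_mul,
    smul_add, add_smul]
  have h6 : ∀ (c : F) (y : V), c • y + c • y = 0 := fun c y => vadd_self hF _
  linear_combination (norm := module) -(h6 (polar Q c y) x) - (h6 (polar Q c x) x) - (h6 (polar Q c x) y)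

/-- Product of two reflections is in `E`. -/
lemma refl_mul_refl_mem {m : ℕ} (hm : 3 ≤ m) (hdim : finrank F V = 2 * m) {x y : V} (hx : Q x = 1) (hy : Q y = 1) :
    (Cfsg.Agent.Lib.OrthoGen.refl hQ (by rw [hx]; exact one_ne_zero) *
      Cfsg.Agent.Lib.OrthoGen.refl hQ (by rw [hy]; exact one_ne_zero) : OG Q) ∈ siegelE Q := by
  classical
  obtain ⟨z, hz, hz1⟩ := exists_nonsing_perp hF hQ hdim {x, y} (lt_of_le_of_lt Finset.card_le_two (by omega))
  have hzx : polar Q x z = 0 := hz1 x (by simp)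
  have hzy : polar Q y z = 0 := hz1 y (by simp)
  have hz0 : Q z ≠ 0 := by rw [hz]; exact one_ne_zero
  have hz2 : (Cfsg.Agent.Lib.OrthoGen.refl hQ hz0 : OG Q) * Cfsg.Agent.Lib.OrthoGen.refl hQ hz0 = 1 := by
    apply Cfsg.Agent.Lib.OrthoGen.OG_ext
    intro c
    rw [Subgroup.coe_mul, LinearEquiv.mul_apply, Cfsg.Agent.Lib.OrthoGen.refl_apply, Cfsg.Agent.Lib.OrthoGen.refl_apply]
    exact Cfsg.Agent.Lib.OrthoGen.reflLin_invol hz0 c
  have h1 := refl_mul_refl_orth hF hQ hx hz hzx
  have h2 := refl_mul_refl_orth hF hQ hz hy (by rw [polar_comm]; exact hzy)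
  have h3 := mul_mem h1 h2
  convert h3 using 1
  rw [mul_assoc, ← mul_assoc _ (Cfsg.Agent.Lib.OrthoGen.refl hQ _) (Cfsg.Agent.Lib.OrthoGen.refl hQ _), hz2, one_mul]

/-- Parity of an element of the orthogonal group. -/
lemma parity {m : ℕ} (hm : 3 ≤ m) (hdim : finrank F V = 2 * m) (hgen : Cfsg.Agent.Lib.OrthoGen.genR Q = ⊤)
    {r : V} (hr : Q r = 1) (g : OG Q) :
    g ∈ siegelE Q ∨ (Cfsg.Agent.Lib.OrthoGen.refl hQ (by rw [hr]; exact one_ne_zero) * g : OG Q) ∈ siegelE Q := by
  have hr0 : Q r ≠ 0 := by rw [hr]; exact one_ne_zero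
  set R : OG Q := Cfsg.Agent.Lib.OrthoGen.refl hQ hr0 with hR
  have hRR : R * R = 1 := by
    apply Cfsg.Agent.Lib.OrthoGen.OG_ext
    intro c
    rw [Subgroup.coe_mul, LinearEquiv.mul_apply, hR, Cfsg.Agent.Lib.OrthoGen.refl_apply]
    exact Cfsg.Agent.Lib.OrthoGen.reflLin_invol hr0 c
  have hRi : R⁻¹ = R := inv_eq_of_mul_eq_one_right hRR
  have hg : g ∈ Cfsg.Agent.Lib.OrthoGen.genR Q := by rw [hgen]; trivial
  have hnorm : ∀ a, a ∈ siegelE Q → R * a * R ∈ siegelE Q := by
    intro a ha
    have := (siegelE_normal (Q := Q)).conj_mem a ha R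
    rwa [hRi] at this
  induction hg using Subgroup.closure_induction with
  | mem a ha =>
    rcases ha with ha | ⟨x, hx0, hx⟩
    · obtain ⟨e, y, h⟩ := ha
      exact Or.inl h.mem
    · right
      have hx1 : Q x = 1 := eq_one_of_ne hF hx0
      have h1 := refl_mul_refl_mem hF hQ hm hdim hr hx1
      have h2 : a = Cfsg.Agent.Lib.OrthoGen.refl hQ (by rw [hx1]; exact one_ne_zero) := by
        apply Cfsg.Agent.Lib.OrthoGen.OG_ext
        intro c
        rw [hx c, Cfsg.Agent.Lib.OrthoGen.refl_apply]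
      rw [h2]
      exact h1
  | one => exact Or.inl (one_mem _)
  | mul a b _ _ ha hb =>
    rcases ha with ha | ha <;> rcases hb with hb | hb
    · exact Or.inl (mul_mem ha hb)
    · right
      have h1 : R * (a * b) = (R * a * R) * (R * b) := by
        rw [mul_assoc (R * a), ← mul_assoc R R, hRR, one_mul, mul_assoc]
      rw [h1]
      exact mul_mem (hnorm a ha) hb
    · right
      rw [← mul_assoc]
      exact mul_mem ha hb
    · left
      have h1 : a * b = (R * (R * a) * R) * (R * b) := by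
        rw [← mul_assoc R R a, hRR, one_mul, mul_assoc a, ← mul_assoc R R, hRR, one_mul]
      rw [h1]
      exact mul_mem (hnorm _ ha) hb
  | inv a _ ha =>
    rcases ha with ha | ha
    · exact Or.inl (inv_mem ha)
    · right
      have h1 : R * a⁻¹ = R * (R * a)⁻¹ * R := by
        rw [_root_.mul_inv_rev, hRi, mul_assoc, mul_assoc, hRR, mul_one]
      rw [h1]
      exact hnorm _ (inv_mem ha)

include hQ in
/-- Witt's theorem for tuples in the group `E`. -/
theorem exists_G_tuple {m : ℕ} (hm : 3 ≤ m) (hdim : finrank F V = 2 * m) (hgen : Cfsg.Agent.Lib.OrthoGen.genR Q = ⊤)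
    {n : ℕ} (e f : Fin n → V) (he : LinearIndependent F e) (hf : LinearIndependent F f)
    (hP : ∀ i j, polar Q (e i) (e j) = polar Q (f i) (f j)) (hD : ∀ i, Q (e i) = Q (f i))
    {r : V} (hr : Q r = 1) (hrf : ∀ i, polar Q (f i) r = 0) :
    ∃ g : GG Q, ∀ i, g • e i = f i := by
  have hnd := polar_nondeg hQ
  obtain ⟨g, hg1, hg2⟩ := Cfsg.Agent.Lib.WittForms.witt_tuple (P := fun a b => polar Q a b) (D := fun a => Q a)
    (Iso := fun g => ∀ v : V, Q (g v) = Q v) (fun _ => rfl) (by
      intro g h hg hh a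
      simp only [LinearEquiv.trans_apply, hh, hg]) (by
      intro g hg a b
      exact Cfsg.Agent.Lib.WittForms.quad_polar_of_pres (G := g.toLinearMap) hg a b) (fun g hg a => hg a) (by
      intro n t x y hx hy hxy _ _ hD
      obtain ⟨g, hg1, hg2, hg3⟩ := Cfsg.Agent.Lib.WittForms.quad_step hnd (Submodule.span F (Set.range t)) x y hx hy (by
        intro u hu
        induction hu using Submodule.span_induction with
        | mem u hu =>
          obtain ⟨i, rfl⟩ := hu
          exact hxy i
        | zero => simp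
        | add a b _ _ ha hb => simp [QuadraticMap.polar_add_left, ha, hb]
        | smul c a _ ha => simp [QuadraticMap.polar_smul_left, ha]) hD
      exact ⟨g, hg1, fun i => hg2 _ (Submodule.subset_span ⟨i, rfl⟩), hg3⟩) n e f he hf hP hD
  have hr0 : Q r ≠ 0 := by rw [hr]; exact one_ne_zero
  rcases parity hF hQ hm hdim hgen hr ⟨g, hg1⟩ with h | h
  · exact ⟨⟨⟨g, hg1⟩, h⟩, hg2⟩
  · refine ⟨⟨_, h⟩, fun i => ?_⟩
    show ((Cfsg.Agent.Lib.OrthoGen.refl hQ hr0 * ⟨g, hg1⟩ : OG Q) : V ≃ₗ[F] V) (e i) = f i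
    rw [Subgroup.coe_mul, LinearEquiv.mul_apply]
    show ((Cfsg.Agent.Lib.OrthoGen.refl hQ hr0 : OG Q) : V ≃ₗ[F] V) (g (e i)) = f i
    rw [hg2, refl_smul hF hQ hr0, hrf, zero_smul, add_zero]

end Refl

end Cfsg.Agent.Lib.OmPlusIdx
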