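import Mathlib
import Cfsg.Agent.Lib.OmPlusIdxA

/-!
# The group `Ω⁺_{2m}(2)`: the orbit bound
-/

set_option autoImplicit false
set_option linter.unusedSectionVars false
set_option linter.unusedVariables false

namespace Cfsg.Agent.Lib.OmPlusIdx

open QuadraticMap Cfsg.Agent.Lib.OrthoBasic Cfsg.Agent.Lib.OrthoSiegel Module Pointwise

variable {F : Type*} [Field F] [Fintype F] {V : Type*} [AddCommGroup V] [Module F V]
  [FiniteDimensional F V] {Q : QuadraticForm F V}

lemma finite_GG : Finite (GG Q) := by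
  haveI : Finite V := Module.finite_of_finite F
  haveI : Finite (V ≃ₗ[F] V) := Finite.of_injective (fun g => (g : V → V)) DFunLike.coe_injective
  infer_instance

variable (hF : Fintype.card F = 2) (hQ : Nondeg Q)

lemma Es_of_not {v : V} (u : V) (hv : Q v ≠ 0) : Es hQ v u = 1 := by
  classical
  rw [Es, dif_neg]
  exact fun h => hv h.1

variable (K : Subgroup (GG Q))

/-- The subspace of `v^⊥` of the elements with Siegel element in `K`. -/
def YY (v : V) : Submodule F V where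
  carrier := {u | polar Q v u = 0 ∧ Es hQ v u ∈ K}
  add_mem' := by
    rintro a b ⟨ha, ha'⟩ ⟨hb, hb'⟩
    refine ⟨by rw [polar_add_right, ha, hb, add_zero], ?_⟩
    by_cases hv : Q v = 0
    · rw [← Es_mul hQ hF hv ha hb]
      exact K.mul_mem ha' hb'
    · rw [Es_of_not hQ _ hv]
      exact K.one_mem
  zero_mem' := by
    refine ⟨polar_zero_right _ _, ?_⟩
    by_cases hv : Q v = 0
    · rw [Es_zero hQ hF hv]
      exact K.one_mem
    · rw [Es_of_not hQ _ hv]
      exact K.one_mem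
  smul_mem' := by
    rintro c a ⟨ha, ha'⟩
    rcases zero_or_one hF c with rfl | rfl
    · rw [zero_smul]
      refine ⟨polar_zero_right _ _, ?_⟩
      by_cases hv : Q v = 0
      · rw [Es_zero hQ hF hv]
        exact K.one_mem
      · rw [Es_of_not hQ _ hv]
        exact K.one_mem
    · rw [one_smul]
      exact ⟨ha, ha'⟩

lemma mem_YY {v u : V} : u ∈ YY hF hQ K v ↔ polar Q v u = 0 ∧ Es hQ v u ∈ K := Iff.rfl

variable {K}
variable {v : V}

lemma v_mem_YY (hv : Q v = 0) : v ∈ YY hF hQ K v :=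
  ⟨pol_self hF v, by rw [Es_self hQ hF hv]; exact K.one_mem⟩

lemma v_mem_ZZ : v ∈ Pq Q (YY hF hQ K v) := by
  rw [mem_Pq]
  intro y hy
  rw [polar_comm]
  exact hy.1

lemma ZZ_perp (hv : Q v = 0) {z : V} (hz : z ∈ Pq Q (YY hF hQ K v)) : polar Q v z = 0 :=
  (mem_Pq.1 hz) v (v_mem_YY hF hQ hv)

/-- The orthogonal of `v`. -/
def Wv (Q : QuadraticForm F V) (v : V) : Submodule F V := Pq Q (F ∙ v)

lemma mem_Wv {z : V} : z ∈ Wv Q v ↔ polar Q v z = 0 := by
  rw [Wv, mem_Pq]
  constructor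
  · intro h
    exact h v (Submodule.mem_span_singleton_self v)
  · intro h y hy
    obtain ⟨c, rfl⟩ := Submodule.mem_span_singleton.1 hy
    rw [polar_smul_l, h, mul_zero]

include hF hQ in
lemma card_Wv (h0 : v ≠ 0) : Nat.card (Wv Q v) * 2 = Nat.card V := by
  have h := card_mul_Pq hF hQ (F ∙ v)
  have h1 : Nat.card (F ∙ v) = 2 := by
    rw [Module.natCard_eq_pow_finrank (K := F), finrank_span_singleton h0, Nat.card_eq_fintype_card, hF]
    norm_num
  rw [h1] at h
  rw [Wv]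
  omega

/-- `K`-invariance of `Y`. -/
lemma YY_smul (hv : Q v = 0) {k : GG Q} (hk : k ∈ K) (hkv : k • v = v) {y : V} (hy : y ∈ YY hF hQ K v) :
    k • y ∈ YY hF hQ K v := by
  obtain ⟨h, hs⟩ := hy
  refine ⟨?_, ?_⟩
  · have h1 := pol_smul k v y
    rw [hkv] at h1
    rw [h1, h]
  · have h1 := Es_conj hQ hF k hv h
    rw [hkv] at h1
    rw [← h1]
    exact K.mul_mem (K.mul_mem hk hs) (K.inv_mem hk)

lemma ZZ_smul (hv : Q v = 0) {k : GG Q} (hk : k ∈ K) (hkv : k • v = v) {z : V} (hz : z ∈ Pq Q (YY hF hQ K v)) :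
    k • z ∈ Pq Q (YY hF hQ K v) := by
  rw [mem_Pq] at hz ⊢
  intro y hy
  have h1 := pol_smul k (k⁻¹ • y) z
  rw [smul_inv_smul] at h1
  rw [h1]
  apply hz
  apply YY_smul hF hQ hv (K.inv_mem hk) _ hy
  rw [inv_smul_eq_iff, hkv]

lemma YY_Es (hv : Q v = 0) {u : V} (hu : polar Q v u = 0) {y : V} (hy : y ∈ YY hF hQ K v) :
    Es hQ v u • y ∈ YY hF hQ K v := by
  have h1 : polar Q y v = 0 := by rw [polar_comm]; exact hy.1
  rw [Es_smul_perp hQ hF hv hu h1]
  exact Submodule.add_mem _ hy (Submodule.smul_mem _ _ (v_mem_YY hF hQ hv))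

lemma ZZ_Es (hv : Q v = 0) {u : V} (hu : polar Q v u = 0) {z : V} (hz : z ∈ Pq Q (YY hF hQ K v)) :
    Es hQ v u • z ∈ Pq Q (YY hF hQ K v) := by
  have h1 : polar Q z v = 0 := by rw [polar_comm]; exact ZZ_perp hF hQ hv hz
  rw [Es_smul_perp hQ hF hv hu h1]
  exact Submodule.add_mem _ hz (Submodule.smul_mem _ _ (v_mem_ZZ hF hQ))

/-! ### Orbits on cosets -/

variable (K v) in
/-- The orbit of the coset `K` under the stabiliser of `v`. -/
def OrbS : Set (GG Q ⧸ K) := {x | ∃ g : GG Q, g • v = v ∧ (g : GG Q ⧸ K) = x}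

variable (K v) in
/-- Its size. -/
noncomputable def oo : ℕ := (OrbS K v).ncard

lemma le_oo {s : Finset (GG Q ⧸ K)} (hs : ∀ x ∈ s, x ∈ OrbS K v) : s.card ≤ oo K v := by
  haveI := finite_GG (F := F) (Q := Q)
  rw [oo, ← Set.ncard_coe_finset]
  exact Set.ncard_le_ncard hs (Set.toFinite _)

lemma le_index (s : Set (GG Q ⧸ K)) : s.ncard ≤ K.index := by
  haveI := finite_GG (F := F) (Q := Q)
  rw [Subgroup.index, ← Set.ncard_univ]
  exact Set.ncard_le_ncard (Set.subset_univ _) (Set.toFinite _)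

/-- Two orbits. -/
lemma two_orbits {v' : V} {g : GG Q} (hg : g • v' = v) (hn : ∀ k ∈ K, k • v' ≠ v) :
    oo K v + oo K v' ≤ K.index := by
  classical
  haveI := finite_GG (F := F) (Q := Q)
  let φ : GG Q ⧸ K → GG Q ⧸ K := fun x => g • x
  have hφ : Function.Injective φ := MulAction.injective g
  have hdis : Disjoint (OrbS K v) (φ '' (OrbS K v')) := by
    rw [Set.disjoint_left]
    rintro x ⟨p, hp, rfl⟩ ⟨y, ⟨p', hp', rfl⟩, hxy⟩
    have h1 : ((g * p' : GG Q) : GG Q ⧸ K) = (p : GG Q ⧸ K) := hxy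
    rw [QuotientGroup.eq] at h1
    have h2 := K.inv_mem h1
    apply hn _ h2
    rw [_root_.mul_inv_rev, inv_inv, mul_smul, mul_smul, hp', hg, inv_smul_eq_iff, hp]
  have h1 : (OrbS K v').ncard = (φ '' OrbS K v').ncard := (Set.ncard_image_of_injective _ hφ).symm
  rw [oo, oo, h1, ← Set.ncard_union_eq hdis (Set.toFinite _) (Set.toFinite _)]
  exact le_index _

/-! ### Counting -/

section Count

variable [Fintype V] [DecidableEq V]

/-- The elements of a submodule as a finset. -/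
noncomputable def toF (S : Submodule F V) : Finset V := by
  classical
  exact Finset.univ.filter (· ∈ S)

omit [DecidableEq V] in
lemma mem_toF {S : Submodule F V} {z : V} : z ∈ toF S ↔ z ∈ S := by
  classical
  simp [toF]

omit [DecidableEq V] in
lemma card_toF (S : Submodule F V) : (toF S).card = Nat.card S := by
  classical
  rw [Nat.card_eq_fintype_card, Fintype.card_subtype, toF]

/-- A finite set invariant under `Q_v` and `K ∩ P_v`. -/
structure Inv (K : Subgroup (GG Q)) (v : V) (E : Finset V) : Prop where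
  onK : ∀ k ∈ K, k • v = v → ∀ z ∈ E, k • z ∈ E
  onQ : ∀ u, polar Q v u = 0 → ∀ z ∈ E, Es hQ v u • z ∈ E

variable {hQ}

lemma stab_of_maps {g : GG Q} {E : Finset V} (h : ∀ z ∈ E, g • z ∈ E) : g • E = E := by
  apply Finset.eq_of_subset_of_card_le
  · intro x hx
    obtain ⟨z, hz, rfl⟩ := Finset.mem_smul_finset.1 hx
    exact h z hz
  · rw [Finset.card_smul_finset]

include hF in
lemma coset_core {E : Finset V} (hE : Inv hQ K v E) (hv : Q v = 0) {g g' : GG Q} (hg : g • v = v) (hg' : g' • v = v)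
    {u u' : V} (hu : polar Q v u = 0) (hu' : polar Q v u' = 0)
    (h : (g * Es hQ v u)⁻¹ * (g' * Es hQ v u') ∈ K) : g • E = g' • E := by
  obtain ⟨k, hk⟩ : ∃ k, k = (g * Es hQ v u)⁻¹ * (g' * Es hQ v u') := ⟨_, rfl⟩
  rw [← hk] at h
  have hg1 : (g * Es hQ v u) • v = v := by rw [mul_smul, Es_smul_center hQ hF hv hu, hg]
  have hg2 : (g' * Es hQ v u') • v = v := by rw [mul_smul, Es_smul_center hQ hF hv hu', hg']
  have hkv : k • v = v := by
    rw [hk, mul_smul, hg2, inv_smul_eq_iff, hg1]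
  have h1 : k • E = E := stab_of_maps (fun z hz => hE.onK k h hkv z hz)
  have h2 : Es hQ v u • E = E := stab_of_maps (fun z hz => hE.onQ u hu z hz)
  have h3 : Es hQ v u' • E = E := stab_of_maps (fun z hz => hE.onQ u' hu' z hz)
  have h4 : g' * Es hQ v u' = g * Es hQ v u * k := by
    rw [hk]
    group
  calc g • E = g • (Es hQ v u • (k • E)) := by rw [h1, h2]
    _ = (g * Es hQ v u * k) • E := by rw [mul_smul, mul_smul]
    _ = (g' * Es hQ v u') • E := by rw [h4]
    _ = g' • E := by rw [mul_smul, h3]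

/-- The family of images of `E` under the stabiliser of `v`. -/
noncomputable def JE (Q : QuadraticForm F V) (v : V) (E : Finset V) : Finset (Finset V) := by
  classical
  haveI := finite_GG (F := F) (Q := Q)
  haveI : Fintype (GG Q) := Fintype.ofFinite _
  exact (Finset.univ.filter (fun g : GG Q => g • v = v)).image (fun g => g • E)

lemma mem_JE {E j : Finset V} : j ∈ JE Q v E ↔ ∃ g : GG Q, g • v = v ∧ g • E = j := by
  classical
  haveI := finite_GG (F := F) (Q := Q)
  haveI : Fintype (GG Q) := Fintype.ofFinite _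
  rw [JE]
  simp only [Finset.mem_image, Finset.mem_filter, Finset.mem_univ, true_and]

lemma JE_pos {E : Finset V} : 0 < (JE Q v E).card :=
  Finset.card_pos.2 ⟨_, mem_JE.2 ⟨1, one_smul _ _, rfl⟩⟩

/-- The orbit bound. -/
theorem orbit_bound {E : Finset V} (hE : Inv hQ K v E) (hv : Q v = 0) :
    (JE Q v E).card * Nat.card (Wv Q v) ≤ Nat.card (YY hF hQ K v) * oo K v := by
  classical
  haveI := finite_GG (F := F) (Q := Q)
  haveI : Fintype (Wv Q v) := Fintype.ofFinite _
  have hJ' : ∀ j : Finset V, ∃ g : GG Q, j ∈ JE Q v E → g • v = v ∧ g • E = j := by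
    intro j
    by_cases hj : j ∈ JE Q v E
    · obtain ⟨g, hg, hg'⟩ := mem_JE.1 hj
      exact ⟨g, fun _ => ⟨hg, hg'⟩⟩
    · exact ⟨1, fun h => absurd h hj⟩
  choose x hx using hJ'
  let S : Finset (Finset V × Wv Q v) := (JE Q v E) ×ˢ Finset.univ
  let f : Finset V × Wv Q v → GG Q ⧸ K := fun p => QuotientGroup.mk (x p.1 * Es hQ v p.2.1)
  have hS : S.card = (JE Q v E).card * Nat.card (Wv Q v) := by
    simp only [S, Finset.card_product, Finset.card_univ, Nat.card_eq_fintype_card]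
  have hperp : ∀ u : Wv Q v, polar Q v u.1 = 0 := fun u => mem_Wv.1 u.2
  have hfib : ∀ a ∈ S.image f, (S.filter (fun p => f p = a)).card ≤ Nat.card (YY hF hQ K v) := by
    intro a ha
    obtain ⟨p₁, hp₁, rfl⟩ := Finset.mem_image.1 ha
    rw [← card_toF (YY hF hQ K v)]
    apply Finset.card_le_card_of_injOn (fun p => p.2.1 + p₁.2.1)
    · intro p hp
      obtain ⟨hpS, hp⟩ := Finset.mem_filter.1 (Finset.mem_coe.1 hp)
      simp only [f] at hp
      rw [QuotientGroup.eq] at hp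
      have hJ := (Finset.mem_product.1 hpS).1
      have hJ₁ := (Finset.mem_product.1 hp₁).1
      have h1 := coset_core hF hE hv (hx _ hJ).1 (hx _ hJ₁).1 (hperp _) (hperp _) hp
      rw [(hx _ hJ).2, (hx _ hJ₁).2] at h1
      rw [h1] at hp
      have h2 : (x p₁.1 * Es hQ v p.2.1)⁻¹ * (x p₁.1 * Es hQ v p₁.2.1) =
          Es hQ v p.2.1 * Es hQ v p₁.2.1 := by
        rw [_root_.mul_inv_rev, Es_inv hQ hF hv (hperp _)]
        group
      rw [h2, Es_mul hQ hF hv (hperp _) (hperp _)] at hp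
      exact Finset.mem_coe.2 (mem_toF.2 ⟨by rw [polar_add_right, hperp, hperp, add_zero], hp⟩)
    · intro p hp p' hp' hpp
      obtain ⟨hpS, hp⟩ := Finset.mem_filter.1 (Finset.mem_coe.1 hp)
      obtain ⟨hpS', hp'⟩ := Finset.mem_filter.1 (Finset.mem_coe.1 hp')
      have h0 : p.2.1 = p'.2.1 := add_right_cancel hpp
      have h0' : p.2 = p'.2 := Subtype.ext h0
      have hcos : f p = f p' := hp.trans hp'.symm
      simp only [f] at hcos
      rw [QuotientGroup.eq] at hcos
      have hJ := (Finset.mem_product.1 hpS).1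
      have hJ' := (Finset.mem_product.1 hpS').1
      have h1 := coset_core hF hE hv (hx _ hJ).1 (hx _ hJ').1 (hperp _) (hperp _) hcos
      rw [(hx _ hJ).2, (hx _ hJ').2] at h1
      exact Prod.ext h1 h0'
  have h1 := Finset.card_le_mul_card_image S (Nat.card (YY hF hQ K v)) hfib
  have h2 : (S.image f).card ≤ oo K v := by
    apply le_oo
    intro y hy
    obtain ⟨p, hp, rfl⟩ := Finset.mem_image.1 hy
    have hJ := (Finset.mem_product.1 hp).1
    exact ⟨_, by rw [mul_smul, Es_smul_center hQ hF hv (hperp _), (hx _ hJ).1], rfl⟩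
  rw [← hS]
  exact h1.trans (Nat.mul_le_mul_left _ h2)

/-- Covering by images. -/
lemma cover_gen {T : Type*} [DecidableEq T] [MulAction (GG Q) T] {E : Finset V} (Φ : Finset V → Finset T)
    (hΦ : ∀ g : GG Q, Φ (g • E) = g • Φ E) (𝒮 : Finset T) (hinv : ∀ g : GG Q, g • v = v → g • 𝒮 = 𝒮)
    (htr : ∀ a ∈ 𝒮, ∃ g : GG Q, g • v = v ∧ a ∈ g • Φ E) :
    𝒮.card ≤ (JE Q v E).card * (𝒮 ∩ Φ E).card := by
  classical
  have h1 : 𝒮 ⊆ (JE Q v E).biUnion (fun j => 𝒮 ∩ Φ j) := by
    intro a ha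
    obtain ⟨g, hg, hg'⟩ := htr a ha
    refine Finset.mem_biUnion.2 ⟨g • E, mem_JE.2 ⟨g, hg, rfl⟩, Finset.mem_inter.2 ⟨ha, ?_⟩⟩
    rw [hΦ]
    exact hg'
  refine (Finset.card_le_card h1).trans (Finset.card_biUnion_le_card_mul _ _ _ ?_)
  intro j hj
  obtain ⟨g, hg, rfl⟩ := mem_JE.1 hj
  rw [hΦ]
  have h2 : 𝒮 ∩ g • Φ E = g • (𝒮 ∩ Φ E) := by
    rw [Finset.smul_finset_inter, hinv g hg]
  rw [h2, Finset.card_smul_finset]

/-- `Y` as an invariant set. -/
lemma Inv_Y (hv : Q v = 0) : Inv hQ K v (toF (YY hF hQ K v)) where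
  onK := fun k hk hkv z hz => mem_toF.2 (YY_smul hF hQ hv hk hkv (mem_toF.1 hz))
  onQ := fun u hu z hz => mem_toF.2 (YY_Es hF hQ hv hu (mem_toF.1 hz))

/-- `Z` as an invariant set. -/
lemma Inv_Z (hv : Q v = 0) : Inv hQ K v (toF (Pq Q (YY hF hQ K v))) where
  onK := fun k hk hkv z hz => mem_toF.2 (ZZ_smul hF hQ hv hk hkv (mem_toF.1 hz))
  onQ := fun u hu z hz => mem_toF.2 (ZZ_Es hF hQ hv hu (mem_toF.1 hz))

end Count

end Cfsg.Agent.Lib.OmPlusIdx
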