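import Mathlib
import Cfsg.Agent.Lib.OmPlusIdxB

/-!
# The group `Ω⁺_{2m}(2)`: transitivity and counting
-/

set_option autoImplicit false
set_option linter.unusedSectionVars false
set_option linter.unusedVariables false

namespace Cfsg.Agent.Lib.OmPlusIdx

open QuadraticMap Cfsg.Agent.Lib.OrthoBasic Cfsg.Agent.Lib.OrthoSiegel Module Pointwise

variable {F : Type*} [Field F] [Fintype F] {V : Type*} [AddCommGroup V] [Module F V]
  [FiniteDimensional F V] {Q : QuadraticForm F V}

section Indep

variable (hF : Fintype.card F = 2)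
include hF

lemma eq_of_add_zero {a b : V} (h : a + b = 0) : a = b := by
  have h1 : a + b = b + b := by rw [h, vadd_self hF]
  exact add_right_cancel h1

lemma li1 {v : V} (h0 : v ≠ 0) : LinearIndependent F ![v] := by
  rw [Fintype.linearIndependent_iff]
  intro g hg i
  have h1 : g 0 • v = 0 := by simpa using hg
  fin_cases i
  exact (smul_eq_zero.1 h1).resolve_right h0

lemma li2 {v x : V} (h0 : v ≠ 0) (h1 : x ≠ 0) (h2 : x ≠ v) : LinearIndependent F ![v, x] := by
  rw [LinearIndependent.pair_iff]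
  intro s t hst
  rcases zero_or_one hF s with rfl | rfl <;> rcases zero_or_one hF t with rfl | rfl
  · exact ⟨rfl, rfl⟩
  · simp only [zero_smul, one_smul, zero_add] at hst
    exact absurd hst h1
  · simp only [zero_smul, one_smul, add_zero] at hst
    exact absurd hst h0
  · simp only [one_smul] at hst
    exact absurd (eq_of_add_zero hF hst).symm h2

lemma li3 {v x x' : V} (h0 : v ≠ 0) (h1 : x ≠ 0) (h2 : x ≠ v) (h3 : x' ≠ 0) (h4 : x' ≠ v) (h5 : x' ≠ x)
    (h6 : x' ≠ x + v) : LinearIndependent F ![v, x, x'] := by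
  rw [Fintype.linearIndependent_iff]
  intro g hg
  have hg' : g 0 • v + g 1 • x + g 2 • x' = 0 := by
    simpa [Fin.sum_univ_three] using hg
  have key : g 0 = 0 ∧ g 1 = 0 ∧ g 2 = 0 := by
    rcases zero_or_one hF (g 0) with h7 | h7 <;> rcases zero_or_one hF (g 1) with h8 | h8 <;>
      rcases zero_or_one hF (g 2) with h9 | h9 <;> rw [h7, h8, h9] at hg' <;>
      simp only [zero_smul, one_smul, add_zero, zero_add] at hg'
    · exact ⟨h7, h8, h9⟩
    · exact absurd hg' h3
    · exact absurd hg' h1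
    · exact absurd (eq_of_add_zero hF hg').symm h5
    · exact absurd hg' h0
    · exact absurd (eq_of_add_zero hF hg').symm h4
    · exact absurd (eq_of_add_zero hF hg').symm h2
    · refine absurd ?_ h6
      rw [add_comm x v]
      exact (eq_of_add_zero hF hg').symm
  intro i
  fin_cases i
  · exact key.1
  · exact key.2.1
  · exact key.2.2

end Indep

section Trans

variable (hF : Fintype.card F = 2) (hQ : Nondeg Q) {m : ℕ} (hm : 4 ≤ m) (hdim : finrank F V = 2 * m)
  (hgen : Cfsg.Agent.Lib.OrthoGen.genR Q = ⊤)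
include hF hQ hm hdim hgen

/-- Transitivity on non-zero singular vectors. -/
lemma exists_map_sing {v v' : V} (hv : Q v = 0) (hv' : Q v' = 0) (h0 : v ≠ 0) (h0' : v' ≠ 0) :
    ∃ g : GG Q, g • v = v' := by
  classical
  obtain ⟨r, hr, hr'⟩ := exists_nonsing_perp hF hQ hdim {v'} (by simp; omega)
  obtain ⟨g, hg⟩ := exists_G_tuple hF hQ (by omega) hdim hgen ![v] ![v'] (li1 hF h0) (li1 hF h0')
    (by
      intro i j
      fin_cases i
      fin_cases j
      simp [pol_self hF])
    (by
      intro i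
      fin_cases i
      simp [hv, hv']) hr (by
      intro i
      fin_cases i
      exact hr' v' (by simp))
  exact ⟨g, hg 0⟩

/-- Transitivity on vectors of `v^⊥`. -/
lemma exists_fix_one {v x a : V} (h0 : v ≠ 0) (hx : polar Q v x = 0) (ha : polar Q v a = 0)
    (hQ1 : Q x = Q a) (h1 : x ≠ 0) (h2 : x ≠ v) (h3 : a ≠ 0) (h4 : a ≠ v) :
    ∃ g : GG Q, g • v = v ∧ g • x = a := by
  classical
  obtain ⟨r, hr, hr'⟩ := exists_nonsing_perp hF hQ hdim {v, a}
    (lt_of_le_of_lt Finset.card_le_two (by omega))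
  obtain ⟨g, hg⟩ := exists_G_tuple hF hQ (by omega) hdim hgen ![v, x] ![v, a] (li2 hF h0 h1 h2) (li2 hF h0 h3 h4)
    (by
      intro i j
      fin_cases i <;> fin_cases j <;> simp [pol_self hF, hx, ha, polar_comm Q x v, polar_comm Q a v])
    (by
      intro i
      fin_cases i <;> simp [hQ1]) hr (by
      intro i
      fin_cases i
      · exact hr' v (by simp)
      · exact hr' a (by simp))
  exact ⟨g, hg 0, hg 1⟩

/-- Transitivity on pairs of vectors of `v^⊥`. -/
lemma exists_fix_pair {v x x' a a' : V} (h0 : v ≠ 0) (hx : polar Q v x = 0) (hx' : polar Q v x' = 0)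
    (ha : polar Q v a = 0) (ha' : polar Q v a' = 0) (hQ1 : Q x = Q a) (hQ2 : Q x' = Q a')
    (hB : polar Q x x' = polar Q a a') (h1 : x ≠ 0) (h2 : x ≠ v) (h3 : x' ≠ 0) (h4 : x' ≠ v) (h5 : x' ≠ x)
    (h6 : x' ≠ x + v) (h1' : a ≠ 0) (h2' : a ≠ v) (h3' : a' ≠ 0) (h4' : a' ≠ v) (h5' : a' ≠ a)
    (h6' : a' ≠ a + v) :
    ∃ g : GG Q, g • v = v ∧ g • x = a ∧ g • x' = a' := by
  classical
  obtain ⟨r, hr, hr'⟩ := exists_nonsing_perp hF hQ hdim {v, a, a'}
    (lt_of_le_of_lt Finset.card_le_three (by omega))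
  obtain ⟨g, hg⟩ := exists_G_tuple hF hQ (by omega) hdim hgen ![v, x, x'] ![v, a, a']
    (li3 hF h0 h1 h2 h3 h4 h5 h6) (li3 hF h0 h1' h2' h3' h4' h5' h6')
    (by
      intro i j
      fin_cases i <;> fin_cases j <;>
        simp [pol_self hF, hx, hx', ha, ha', hB, polar_comm Q x v, polar_comm Q a v, polar_comm Q x' v,
          polar_comm Q a' v, polar_comm Q x' x, polar_comm Q a' a])
    (by
      intro i
      fin_cases i <;> simp [hQ1, hQ2]) hr (by
      intro i
      fin_cases i
      · exact hr' v (by simp)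
      · exact hr' a (by simp)
      · exact hr' a' (by simp))
  exact ⟨g, hg 0, hg 1, hg 2⟩

end Trans

section Sep

variable (hF : Fintype.card F = 2) (hQ : Nondeg Q)
include hF hQ

/-- Separation of two independent vectors. -/
lemma sep {v a : V} (h1 : a ≠ 0) (h2 : a ≠ v) : ∃ z, polar Q v z = 0 ∧ polar Q a z = 1 := by
  by_contra hc
  push Not at hc
  have h3 : a ∈ Pq Q (Wv Q v) := by
    rw [mem_Pq]
    intro y hy
    have h4 := hc y (mem_Wv.1 hy)
    rw [polar_comm]
    exact (zero_or_one hF _).resolve_right h4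
  rw [Wv, Pq_Pq hQ] at h3
  obtain ⟨c, rfl⟩ := Submodule.mem_span_singleton.1 h3
  rcases zero_or_one hF c with rfl | rfl
  · exact h1 (zero_smul _ _)
  · exact h2 (one_smul _ _)

end Sep

section Count

variable [Fintype V] [DecidableEq V] [DecidableEq F]

lemma pow_rel8 {m : ℕ} (hm : 4 ≤ m) : 2 ^ (2 * m) = 8 * 2 ^ (2 * m - 3) := by
  have h : 2 * m = (2 * m - 3) + 3 := by omega
  conv_lhs => rw [h, pow_add]
  ring

lemma pow_rel4 {m : ℕ} (hm : 4 ≤ m) : 2 ^ (2 * m - 1) = 4 * 2 ^ (2 * m - 3) := by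
  have h : 2 * m - 1 = (2 * m - 3) + 2 := by omega
  rw [h, pow_add]
  ring

lemma pow_rel2 {m : ℕ} (hm : 4 ≤ m) : 2 ^ (2 * m - 2) = 2 * 2 ^ (2 * m - 3) := by
  have h : 2 * m - 2 = (2 * m - 3) + 1 := by omega
  rw [h, pow_add]
  ring

/-- A translation swaps two parts. -/
lemma card_swap (hF : Fintype.card F = 2) {A : Finset V} (z : V) {P R : V → Prop} [DecidablePred P]
    [DecidablePred R] (hA : ∀ y ∈ A, y + z ∈ A) (h1 : ∀ y ∈ A, P y → R (y + z)) (h2 : ∀ y ∈ A, R y → P (y + z)) :
    (A.filter P).card = (A.filter R).card := by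
  have h3 : ∀ y : V, y + z + z = y := fun y => by rw [add_assoc, vadd_self hF, add_zero]
  apply Finset.card_nbij' (· + z) (· + z)
  · intro y hy
    obtain ⟨hy1, hy2⟩ := Finset.mem_filter.1 hy
    exact Finset.mem_filter.2 ⟨hA y hy1, h1 y hy1 hy2⟩
  · intro y hy
    obtain ⟨hy1, hy2⟩ := Finset.mem_filter.1 hy
    exact Finset.mem_filter.2 ⟨hA y hy1, h2 y hy1 hy2⟩
  · intro y _
    exact h3 y
  · intro y _
    exact h3 y

variable (hF : Fintype.card F = 2) (hQ : Nondeg Q) {m : ℕ} (hm : 4 ≤ m) (hdim : finrank F V = 2 * m)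
  (hz : (Finset.univ.filter (fun x : V => Q x = 0)).card = 2 ^ (2 * m - 1) + 2 ^ (m - 1))
include hF hQ hm hdim hz

/-- `v^⊥` as a finite set. -/
noncomputable abbrev Wf (Q : QuadraticForm F V) (v : V) : Finset V := toF (Wv Q v)

omit hz hm hF hQ hdim in
lemma mem_Wf {v z : V} : z ∈ Wf Q v ↔ polar Q v z = 0 := by
  rw [Wf, mem_toF, mem_Wv]

omit hz in
lemma card_Wf {v : V} (h0 : v ≠ 0) : (Wf Q v).card = 4 * 2 ^ (2 * m - 3) := by
  have h1 := card_Wv hF hQ h0
  rw [← card_toF (Wv Q v)] at h1
  rw [Module.natCard_eq_pow_finrank (K := F) (V := V), Nat.card_eq_fintype_card, hF, hdim, pow_rel8 hm] at h1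
  rw [Wf]
  omega

omit hz in
/-- Half of the complement. -/
lemma card_Ocomp {v : V} (hv : Q v = 0) (h0 : v ≠ 0) :
    (Finset.univ.filter (fun x : V => polar Q v x = 1)).card = 4 * 2 ^ (2 * m - 3) := by
  have h1 := card_Wf hF hQ hm hdim h0
  have h2 : Fintype.card V = 8 * 2 ^ (2 * m - 3) := by
    rw [← Nat.card_eq_fintype_card, Module.natCard_eq_pow_finrank (K := F) (V := V),
      Nat.card_eq_fintype_card, hF, hdim, pow_rel8 hm]
  have h3 : (Finset.univ.filter (fun x : V => polar Q v x = 1)).card + (Wf Q v).card = Fintype.card V := by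
    rw [← Finset.card_univ, ← Finset.card_filter_add_card_filter_not (s := Finset.univ)
        (fun x : V => polar Q v x = 1)]
    congr 2
    ext x
    simp only [Finset.mem_filter, Finset.mem_univ, true_and, mem_Wf]
    constructor
    · intro h4 h5
      rw [h5] at h4
      exact one_ne_zero h4
    · exact (zero_or_one hF _).resolve_right
  omega

/-- The number of singular vectors in `v^⊥`. -/
lemma cnt_zero {v : V} (hv : Q v = 0) (h0 : v ≠ 0) :
    ((Wf Q v).filter (fun x => Q x = 0)).card = 2 * 2 ^ (2 * m - 3) + 2 ^ (m - 1) := by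
  have h1 := card_Ocomp hF hQ hm hdim hv h0
  set O := Finset.univ.filter (fun x : V => polar Q v x = 1) with hO
  have h2 : (O.filter (fun x => Q x = 0)).card = (O.filter (fun x => Q x = 1)).card := by
    apply card_swap hF v
    · intro y hy
      rw [hO, Finset.mem_filter] at hy ⊢
      refine ⟨Finset.mem_univ _, ?_⟩
      rw [polar_add_right, pol_self hF, add_zero]
      exact hy.2
    · intro y hy h
      rw [hO, Finset.mem_filter] at hy
      rw [Q_adds hF, h, hv, polar_comm, hy.2, add_zero, zero_add]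
    · intro y hy h
      rw [hO, Finset.mem_filter] at hy
      rw [Q_adds hF, h, hv, polar_comm, hy.2, add_zero, add_self' hF]
  have h3 : (O.filter (fun x => Q x = 0)).card + (O.filter (fun x => Q x = 1)).card = O.card := by
    rw [← Finset.card_filter_add_card_filter_not (s := O) (fun x : V => Q x = 0)]
    congr 2
    ext x
    simp only [Finset.mem_filter, and_congr_right_iff]
    intro _
    constructor
    · intro h4 h5
      rw [h5] at h4
      exact zero_ne_one h4
    · exact (zero_or_one hF _).resolve_left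
  have h4 : (Finset.univ.filter (fun x : V => Q x = 0)).card =
      ((Wf Q v).filter (fun x => Q x = 0)).card + (O.filter (fun x => Q x = 0)).card := by
    rw [← Finset.card_union_of_disjoint]
    · congr 1
      ext x
      simp only [Finset.mem_filter, Finset.mem_univ, true_and, Finset.mem_union, mem_Wf, hO]
      constructor
      · intro h5
        rcases zero_or_one hF (polar Q v x) with h6 | h6
        · exact Or.inl ⟨h6, h5⟩
        · exact Or.inr ⟨h6, h5⟩
      · rintro (h5 | h5) <;> exact h5.2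
    · rw [Finset.disjoint_left]
      intro x hx hx'
      have h5 := (Finset.mem_filter.1 hx).1
      have h6 := (Finset.mem_filter.1 (Finset.mem_filter.1 hx').1).2
      rw [mem_Wf] at h5
      rw [h5] at h6
      exact zero_ne_one h6
  rw [hz, pow_rel4 hm] at h4
  omega

/-- Inner-product parts of `v^⊥`. -/
noncomputable abbrev cc (Q : QuadraticForm F V) (v a : V) (q b : F) : ℕ :=
  ((Wf Q v).filter (fun y => Q y = q ∧ polar Q a y = b)).card

/-- Counting inner products and values. -/
lemma cc_facts {v a : V} (hv : Q v = 0) (h0 : v ≠ 0) (ha : polar Q v a = 0) (h1 : a ≠ 0) (h2 : a ≠ v) :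
    (Q a = 0 → cc Q v a 0 1 = 2 ^ (2 * m - 3) ∧ cc Q v a 1 1 = 2 ^ (2 * m - 3) ∧
      cc Q v a 0 0 = 2 ^ (2 * m - 3) + 2 ^ (m - 1) ∧ cc Q v a 1 0 + 2 ^ (m - 1) = 2 ^ (2 * m - 3)) ∧
    (Q a = 1 → cc Q v a 0 0 = 2 ^ (2 * m - 3) ∧ cc Q v a 1 0 = 2 ^ (2 * m - 3) ∧
      cc Q v a 0 1 = 2 ^ (2 * m - 3) + 2 ^ (m - 1) ∧ cc Q v a 1 1 + 2 ^ (m - 1) = 2 ^ (2 * m - 3)) := by
  obtain ⟨z, hz1, hz2⟩ := sep hF hQ h1 h2
  have hW := card_Wf hF hQ hm hdim h0
  have h3 := cnt_zero hF hQ hm hdim hz hv h0
  -- the two halves for the inner product with `a`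
  have hD : ((Wf Q v).filter (fun y => polar Q a y = 0)).card = ((Wf Q v).filter (fun y => polar Q a y = 1)).card := by
    apply card_swap hF z
    · intro y hy
      rw [mem_Wf] at hy ⊢
      rw [polar_add_right, hy, hz1, add_zero]
    · intro y _ hy
      rw [polar_add_right, hy, hz2, zero_add]
    · intro y _ hy
      rw [polar_add_right, hy, hz2, add_self' hF]
  have hD2 : ((Wf Q v).filter (fun y => polar Q a y = 0)).card + ((Wf Q v).filter (fun y => polar Q a y = 1)).card =
      (Wf Q v).card := by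
    rw [← Finset.card_filter_add_card_filter_not (s := Wf Q v) (fun y : V => polar Q a y = 0)]
    congr 2
    ext x
    simp only [Finset.mem_filter, and_congr_right_iff]
    intro _
    constructor
    · intro h4 h5
      rw [h5] at h4
      exact zero_ne_one h4
    · exact (zero_or_one hF _).resolve_left
  have hsplit : ∀ b : F, cc Q v a 0 b + cc Q v a 1 b = ((Wf Q v).filter (fun y => polar Q a y = b)).card := by
    intro b
    have e1 : (Wf Q v).filter (fun y => Q y = 0 ∧ polar Q a y = b) =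
        ((Wf Q v).filter (fun y => polar Q a y = b)).filter (fun y => Q y = 0) := by
      ext x
      simp only [Finset.mem_filter]
      tauto
    have e2 : (Wf Q v).filter (fun y => Q y = 1 ∧ polar Q a y = b) =
        ((Wf Q v).filter (fun y => polar Q a y = b)).filter (fun y => ¬ Q y = 0) := by
      ext x
      simp only [Finset.mem_filter, and_assoc, and_congr_right_iff]
      intro _
      constructor
      · rintro ⟨h4, h5⟩
        exact ⟨h5, fun h6 => by rw [h6] at h4; exact zero_ne_one h4⟩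
      · rintro ⟨h4, h5⟩
        exact ⟨(zero_or_one hF _).resolve_left h5, h4⟩
    unfold cc
    rw [e1, e2]
    exact Finset.card_filter_add_card_filter_not _
  have hsing : cc Q v a 0 0 + cc Q v a 0 1 = ((Wf Q v).filter (fun x => Q x = 0)).card := by
    have e1 : (Wf Q v).filter (fun y => Q y = 0 ∧ polar Q a y = 0) =
        ((Wf Q v).filter (fun y => Q y = 0)).filter (fun y => polar Q a y = 0) := by
      ext x
      simp only [Finset.mem_filter]
      tauto
    have e2 : (Wf Q v).filter (fun y => Q y = 0 ∧ polar Q a y = 1) =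
        ((Wf Q v).filter (fun y => Q y = 0)).filter (fun y => ¬ polar Q a y = 0) := by
      ext x
      simp only [Finset.mem_filter, and_assoc, and_congr_right_iff]
      intro _ _
      constructor
      · intro h4 h5
        rw [h5] at h4
        exact zero_ne_one h4
      · exact (zero_or_one hF _).resolve_left
    unfold cc
    rw [e1, e2]
    exact Finset.card_filter_add_card_filter_not _
  have hshift : ∀ b : F, b + Q a = 1 → cc Q v a 0 b = cc Q v a 1 b := by
    intro b hb
    apply card_swap hF a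
    · intro y hy
      rw [mem_Wf] at hy ⊢
      rw [polar_add_right, hy, ha, add_zero]
    · rintro y _ ⟨h4, h5⟩
      refine ⟨?_, ?_⟩
      · rw [Q_adds hF, h4, polar_comm, h5, zero_add, add_comm]
        exact hb
      · rw [polar_add_right, pol_self hF, add_zero]
        exact h5
    · rintro y _ ⟨h4, h5⟩
      refine ⟨?_, ?_⟩
      · rw [Q_adds hF, h4, polar_comm, h5]
        have := add_self' hF (1 : F)
        linear_combination hb + this
      · rw [polar_add_right, pol_self hF, add_zero]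
        exact h5
  have h5 := hsplit 0
  have h6 := hsplit 1
  constructor
  · intro hQa
    have h7 := hshift 1 (by rw [hQa, add_zero])
    omega
  · intro hQa
    have h7 := hshift 0 (by rw [hQa, zero_add])
    omega

/-- The non-trivial singles. -/
noncomputable abbrev Ss (Q : QuadraticForm F V) (v : V) (ε : F) : Finset V :=
  (Wf Q v).filter (fun x => x ≠ 0 ∧ x ≠ v ∧ Q x = ε)

omit hz hm hF hQ hdim in
lemma mem_Ss {v x : V} {ε : F} : x ∈ Ss Q v ε ↔ polar Q v x = 0 ∧ x ≠ 0 ∧ x ≠ v ∧ Q x = ε := by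
  rw [Finset.mem_filter, mem_Wf]

/-- Their number. -/
lemma card_Ss {v : V} (hv : Q v = 0) (h0 : v ≠ 0) :
    (Ss Q v 1).card + 2 ^ (m - 1) = 2 * 2 ^ (2 * m - 3) ∧
      (Ss Q v 0).card + 2 = 2 * 2 ^ (2 * m - 3) + 2 ^ (m - 1) := by
  have h1 := cnt_zero hF hQ hm hdim hz hv h0
  have hW := card_Wf hF hQ hm hdim h0
  have h2 : ((Wf Q v).filter (fun x => Q x = 0)).card + (Ss Q v 1).card = (Wf Q v).card := by
    rw [← Finset.card_filter_add_card_filter_not (s := Wf Q v) (fun y : V => Q y = 0)]
    congr 2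
    ext x
    simp only [Finset.mem_filter, and_congr_right_iff]
    intro _
    constructor
    · rintro ⟨h3, h4, h5⟩ h6
      rw [h6] at h5
      exact zero_ne_one h5
    · intro h3
      refine ⟨?_, ?_, (zero_or_one hF _).resolve_left h3⟩
      · rintro rfl
        exact h3 (QuadraticMap.map_zero Q)
      · rintro rfl
        exact h3 hv
  have h3 : ((Wf Q v).filter (fun x => Q x = 0)) = insert 0 (insert v (Ss Q v 0)) := by
    ext x
    simp only [Finset.mem_filter, Finset.mem_insert, mem_Wf]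
    constructor
    · rintro ⟨h4, h5⟩
      by_cases h6 : x = 0
      · exact Or.inl h6
      by_cases h7 : x = v
      · exact Or.inr (Or.inl h7)
      exact Or.inr (Or.inr ⟨h4, h6, h7, h5⟩)
    · rintro (rfl | rfl | ⟨h4, h5, h6, h7⟩)
      · exact ⟨polar_zero_right _ _, QuadraticMap.map_zero Q⟩
      · exact ⟨pol_self hF _, hv⟩
      · exact ⟨h4, h7⟩
  have h4 : ((Wf Q v).filter (fun x => Q x = 0)).card = (Ss Q v 0).card + 2 := by
    rw [h3, Finset.card_insert_of_notMem, Finset.card_insert_of_notMem]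
    · intro h5
      exact (Finset.mem_filter.1 h5).2.2.1 rfl
    · intro h5
      rcases Finset.mem_insert.1 h5 with h6 | h6
      · exact h0 h6.symm
      · exact (Finset.mem_filter.1 h6).2.1 rfl
  constructor <;> omega

/-- The pairs of a given type. -/
noncomputable abbrev Tt (Q : QuadraticForm F V) (v : V) (ε q b : F) : Finset (V × V) :=
  (Ss Q v ε ×ˢ Wf Q v).filter (fun p => p.2 ≠ 0 ∧ p.2 ≠ v ∧ p.2 ≠ p.1 ∧ p.2 ≠ p.1 + v ∧ Q p.2 = q ∧ polar Q p.1 p.2 = b)

omit hz hm hF hQ hdim in
lemma mem_Tt {v : V} {ε q b : F} {p : V × V} : p ∈ Tt Q v ε q b ↔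
    p.1 ∈ Ss Q v ε ∧ polar Q v p.2 = 0 ∧ p.2 ≠ 0 ∧ p.2 ≠ v ∧ p.2 ≠ p.1 ∧ p.2 ≠ p.1 + v ∧ Q p.2 = q ∧
      polar Q p.1 p.2 = b := by
  rw [Finset.mem_filter, Finset.mem_product, mem_Wf]
  tauto

/-- The second coordinate. -/
noncomputable abbrev n2 (Q : QuadraticForm F V) (v a : V) (q b : F) : ℕ :=
  ((Wf Q v).filter (fun y => y ≠ 0 ∧ y ≠ v ∧ y ≠ a ∧ y ≠ a + v ∧ Q y = q ∧ polar Q a y = b)).card

/-- Lower bound of the pairs of a type. -/
lemma card_Tt_ge {v : V} {ε q b : F} {L : ℕ} (h : ∀ a ∈ Ss Q v ε, L ≤ n2 Q v a q b) :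
    (Ss Q v ε).card * L ≤ (Tt Q v ε q b).card := by
  have h1 : Set.MapsTo Prod.fst (Tt Q v ε q b : Set (V × V)) (Ss Q v ε : Set V) := by
    intro p hp
    exact (mem_Tt.1 (Finset.mem_coe.1 hp)).1
  rw [Finset.card_eq_sum_card_fiberwise h1]
  have h2 := Finset.card_nsmul_le_sum (Ss Q v ε) (fun a => ((Tt Q v ε q b).filter (fun p => p.1 = a)).card) L (by
    intro a ha
    refine (h a ha).trans ?_
    apply Finset.card_le_card_of_injOn (fun y => (a, y))
    · intro y hy
      obtain ⟨h3, h4⟩ := Finset.mem_filter.1 (Finset.mem_coe.1 hy)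
      refine Finset.mem_coe.2 (Finset.mem_filter.2 ⟨mem_Tt.2 ⟨ha, mem_Wf.1 h3, h4.1, h4.2.1, h4.2.2.1, h4.2.2.2.1, h4.2.2.2.2.1,
        h4.2.2.2.2.2⟩, rfl⟩)
    · intro y _ y' _ hyy
      exact (Prod.ext_iff.1 hyy).2)
  simpa [smul_eq_mul] using h2

/-- The bounds for the second coordinate. -/
lemma n2_facts {v a : V} (hv : Q v = 0) (h0 : v ≠ 0) (ha : polar Q v a = 0) (h1 : a ≠ 0) (h2 : a ≠ v) :
    (∀ q b : F, 2 ^ (2 * m - 3) ≤ n2 Q v a q b + 2 ^ (m - 1)) ∧
      (Q a = 0 → 2 ^ (2 * m - 3) + 2 ^ (m - 1) ≤ n2 Q v a 0 0 + 4) := by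
  obtain ⟨h3, h4⟩ := cc_facts hF hQ hm hdim hz hv h0 ha h1 h2
  have hR : 8 ≤ 2 ^ (m - 1) := by
    calc 8 = 2 ^ 3 := by norm_num
      _ ≤ 2 ^ (m - 1) := Nat.pow_le_pow_right (by norm_num) (by omega)
  have hcov : ∀ q b : F, cc Q v a q b ≤ n2 Q v a q b + 4 := by
    intro q b
    have h5 : (Wf Q v).filter (fun y => Q y = q ∧ polar Q a y = b) ⊆
        ((Wf Q v).filter (fun y => y ≠ 0 ∧ y ≠ v ∧ y ≠ a ∧ y ≠ a + v ∧ Q y = q ∧ polar Q a y = b)) ∪ {0, v, a, a + v} := by
      intro y hy
      obtain ⟨h6, h7⟩ := Finset.mem_filter.1 hy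
      by_cases h8 : y = 0
      · simp [h8]
      by_cases h9 : y = v
      · simp [h9]
      by_cases h10 : y = a
      · simp [h10]
      by_cases h11 : y = a + v
      · simp [h11]
      exact Finset.mem_union_left _ (Finset.mem_filter.2 ⟨h6, h8, h9, h10, h11, h7.1, h7.2⟩)
    have h6 := (Finset.card_le_card h5).trans (Finset.card_union_le _ _)
    have h7 : ({0, v, a, a + v} : Finset V).card ≤ 4 := Finset.card_le_four
    exact h6.trans (Nat.add_le_add_left h7 _)
  have hone : ∀ q : F, cc Q v a q 1 = n2 Q v a q 1 := by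
    intro q
    unfold cc n2
    apply congrArg Finset.card
    ext y
    simp only [Finset.mem_filter]
    constructor
    · rintro ⟨h6, h7, h8⟩
      refine ⟨h6, ?_, ?_, ?_, ?_, h7, h8⟩
      · rintro rfl
        rw [polar_zero_right] at h8
        exact zero_ne_one h8
      · rintro rfl
        rw [polar_comm, ha] at h8
        exact zero_ne_one h8
      · rintro rfl
        rw [pol_self hF] at h8
        exact zero_ne_one h8
      · rintro rfl
        rw [polar_add_right, pol_self hF, polar_comm, ha, add_zero] at h8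
        exact zero_ne_one h8
    · rintro ⟨h6, _, _, _, _, h7, h8⟩
      exact ⟨h6, h7, h8⟩
  have hnone : Q a = 0 → cc Q v a 1 0 = n2 Q v a 1 0 := by
    intro hQa
    unfold cc n2
    apply congrArg Finset.card
    ext y
    simp only [Finset.mem_filter]
    constructor
    · rintro ⟨h6, h7, h8⟩
      refine ⟨h6, ?_, ?_, ?_, ?_, h7, h8⟩
      · rintro rfl
        rw [QuadraticMap.map_zero] at h7
        exact zero_ne_one h7
      · rintro rfl
        rw [hv] at h7
        exact zero_ne_one h7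
      · rintro rfl
        rw [hQa] at h7
        exact zero_ne_one h7
      · rintro rfl
        rw [Q_adds hF, hQa, hv, polar_comm, ha, add_zero, add_zero] at h7
        exact zero_ne_one h7
    · rintro ⟨h6, _, _, _, _, h7, h8⟩
      exact ⟨h6, h7, h8⟩
  constructor
  · intro q b
    rcases zero_or_one hF (Q a) with hQa | hQa
    · obtain ⟨h5, h6, h7, h8⟩ := h3 hQa
      rcases zero_or_one hF q with rfl | rfl <;> rcases zero_or_one hF b with rfl | rfl
      · have := hcov 0 0
        omega
      · have := hone 0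
        omega
      · have := hnone hQa
        omega
      · have := hone 1
        omega
    · obtain ⟨h5, h6, h7, h8⟩ := h4 hQa
      rcases zero_or_one hF q with rfl | rfl <;> rcases zero_or_one hF b with rfl | rfl
      · have := hcov 0 0
        omega
      · have := hone 0
        omega
      · have := hcov 1 0
        omega
      · have := hone 1
        omega
  · intro hQa
    obtain ⟨h5, h6, h7, h8⟩ := h3 hQa
    have := hcov 0 0
    omega

end Count

end Cfsg.Agent.Lib.OmPlusIdx
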