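import Mathlib
import Cfsg.Agent.Lib.OmPlusIdxC

/-!
# The group `Ω⁺_{2m}(2)`: covering and the bound for intermediate `Y`
-/

set_option autoImplicit false
set_option linter.unusedSectionVars false
set_option linter.unusedVariables false

namespace Cfsg.Agent.Lib.OmPlusIdx

open QuadraticMap Cfsg.Agent.Lib.OrthoBasic Cfsg.Agent.Lib.OrthoSiegel Module Pointwise

variable {F : Type*} [Field F] [Fintype F] {V : Type*} [AddCommGroup V] [Module F V]
  [FiniteDimensional F V] {Q : QuadraticForm F V}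

section Covers

variable [Fintype V] [DecidableEq V] [DecidableEq F]
  (hF : Fintype.card F = 2) (hQ : Nondeg Q) {m : ℕ} (hm : 4 ≤ m) (hdim : finrank F V = 2 * m)
  (hgen : Cfsg.Agent.Lib.OrthoGen.genR Q = ⊤)
  {v : V}

lemma smul_finset_eq_of_maps {G T : Type*} [Group G] [DecidableEq T] [MulAction G T] {g : G} {S : Finset T}
    (h : ∀ z ∈ S, g • z ∈ S) : g • S = S := by
  apply Finset.eq_of_subset_of_card_le
  · intro x hx
    obtain ⟨z, hz, rfl⟩ := Finset.mem_smul_finset.1 hx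
    exact h z hz
  · rw [Finset.card_smul_finset]

lemma Ss_smul {g : GG Q} (hg : g • v = v) {ε : F} {x : V} (hx : x ∈ Ss Q v ε) : g • x ∈ Ss Q v ε := by
  obtain ⟨h1, h2, h3, h4⟩ := mem_Ss.1 hx
  refine mem_Ss.2 ⟨?_, ?_, ?_, ?_⟩
  · have := pol_smul g v x
    rw [hg] at this
    rw [this, h1]
  · intro h5
    exact h2 ((smul_eq_zero_iff_eq g).1 h5)
  · intro h5
    apply h3
    rw [← hg] at h5
    exact MulAction.injective g h5
  · rw [Q_smul', h4]

lemma Tt_smul {g : GG Q} (hg : g • v = v) {ε q b : F} {p : V × V} (hp : p ∈ Tt Q v ε q b) :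
    g • p ∈ Tt Q v ε q b := by
  obtain ⟨h1, h2, h3, h4, h5, h6, h7, h8⟩ := mem_Tt.1 hp
  refine mem_Tt.2 ⟨Ss_smul hg h1, ?_, ?_, ?_, ?_, ?_, ?_, ?_⟩
  · have := pol_smul g v p.2
    rw [hg] at this
    show polar Q v (g • p.2) = 0
    rw [this, h2]
  · intro h9
    exact h3 ((smul_eq_zero_iff_eq g).1 h9)
  · intro h9
    apply h4
    have h9' : g • p.2 = v := h9
    rw [← hg] at h9'
    exact MulAction.injective g h9'
  · intro h9
    exact h5 (MulAction.injective g h9)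
  · intro h9
    apply h6
    have h9' : g • p.2 = g • p.1 + v := h9
    rw [← hg, ← smul_add] at h9'
    exact MulAction.injective g h9'
  · show Q (g • p.2) = q
    rw [Q_smul', h7]
  · show polar Q (g • p.1) (g • p.2) = b
    rw [pol_smul, h8]

include hF hQ hm hdim hgen

/-- Covering by the images of `E`, for one vector. -/
theorem cover_single {E : Finset V} {ε : F} {x₀ : V} (h1 : x₀ ∈ E) (h2 : x₀ ∈ Ss Q v ε) (h0 : v ≠ 0) :
    (Ss Q v ε).card ≤ (JE Q v E).card * (Ss Q v ε ∩ E).card := by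
  apply cover_gen (Φ := fun j => j) (fun g => rfl)
  · intro g hg
    exact smul_finset_eq_of_maps (fun z hz => Ss_smul hg hz)
  · intro a ha
    obtain ⟨h3, h4, h5, h6⟩ := mem_Ss.1 h2
    obtain ⟨h7, h8, h9, h10⟩ := mem_Ss.1 ha
    obtain ⟨g, hg, hg'⟩ := exists_fix_one hF hQ hm hdim hgen h0 h3 h7 (h6.trans h10.symm) h4 h5 h8 h9
    exact ⟨g, hg, Finset.mem_smul_finset.2 ⟨x₀, h1, hg'⟩⟩

/-- Covering by the images of `E`, for pairs. -/
theorem cover_pair {E : Finset V} {ε q b : F} {p₀ : V × V} (h1 : p₀.1 ∈ E) (h1' : p₀.2 ∈ E)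
    (h2 : p₀ ∈ Tt Q v ε q b) (h0 : v ≠ 0) :
    (Tt Q v ε q b).card ≤ (JE Q v E).card * (Tt Q v ε q b ∩ (E ×ˢ E)).card := by
  apply cover_gen (Φ := fun j => j ×ˢ j)
  · intro g
    ext ⟨a, c⟩
    simp only [Finset.mem_product]
    constructor
    · rintro ⟨h3, h4⟩
      obtain ⟨a', ha', rfl⟩ := Finset.mem_smul_finset.1 h3
      obtain ⟨c', hc', rfl⟩ := Finset.mem_smul_finset.1 h4
      exact Finset.mem_smul_finset.2 ⟨(a', c'), Finset.mem_product.2 ⟨ha', hc'⟩, rfl⟩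
    · intro h3
      obtain ⟨⟨a', c'⟩, h4, h5⟩ := Finset.mem_smul_finset.1 h3
      obtain ⟨h6, h7⟩ := Finset.mem_product.1 h4
      have h8 : g • a' = a := (Prod.ext_iff.1 h5).1
      have h9 : g • c' = c := (Prod.ext_iff.1 h5).2
      exact ⟨Finset.mem_smul_finset.2 ⟨a', h6, h8⟩, Finset.mem_smul_finset.2 ⟨c', h7, h9⟩⟩
  · intro g hg
    exact smul_finset_eq_of_maps (fun z hz => Tt_smul hg hz)
  · intro a ha
    obtain ⟨h3, h4, h5, h6, h7, h8, h9, h10⟩ := mem_Tt.1 h2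
    obtain ⟨h11, h12, h13, h14⟩ := mem_Ss.1 h3
    obtain ⟨h3', h4', h5', h6', h7', h8', h9', h10'⟩ := mem_Tt.1 ha
    obtain ⟨h11', h12', h13', h14'⟩ := mem_Ss.1 h3'
    obtain ⟨g, hg, hg1, hg2⟩ := exists_fix_pair hF hQ hm hdim hgen h0 h11 h4 h11' h4' (h14.trans h14'.symm)
      (h9.trans h9'.symm) (h10.trans h10'.symm) h12 h13 h5 h6 h7 h8 h12' h13' h5' h6' h7' h8'
    refine ⟨g, hg, Finset.mem_smul_finset.2 ⟨p₀, Finset.mem_product.2 ⟨h1, h1'⟩, ?_⟩⟩
    exact Prod.ext hg1 hg2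

omit hm hdim hgen hQ in
/-- Upper bound for pairs inside a subspace. -/
lemma pair_upper {S : Submodule F V} (hv : v ∈ S) (h0 : v ≠ 0) {ε q b : F} :
    (Tt Q v ε q b ∩ (toF S ×ˢ toF S)).card ≤ ((toF S).card - 4) * ((toF S).card - 2) := by
  have hA2 : ({0, v} : Finset V) ⊆ toF S := by
    intro a ha
    simp only [Finset.mem_insert, Finset.mem_singleton] at ha
    rcases ha with rfl | rfl
    · exact mem_toF.2 (Submodule.zero_mem _)
    · exact mem_toF.2 hv
  have hc2 : ((toF S) \ {0, v}).card = (toF S).card - 2 := by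
    rw [Finset.card_sdiff_of_subset hA2, Finset.card_pair h0.symm]
  rw [← hc2]
  apply Finset.card_le_mul_card_image_of_maps_to (f := Prod.fst)
  · intro p hp
    obtain ⟨h1, h2⟩ := Finset.mem_inter.1 hp
    obtain ⟨h3, h4, h5, h6, h7, h8, h9, h10⟩ := mem_Tt.1 h1
    obtain ⟨h11, h12, h13, h14⟩ := mem_Ss.1 h3
    refine Finset.mem_sdiff.2 ⟨(Finset.mem_product.1 h2).1, ?_⟩
    simp only [Finset.mem_insert, Finset.mem_singleton, not_or]
    exact ⟨h12, h13⟩
  · intro a ha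
    obtain ⟨ha1, ha2⟩ := Finset.mem_sdiff.1 ha
    simp only [Finset.mem_insert, Finset.mem_singleton, not_or] at ha2
    have hA4 : ({0, v, a, a + v} : Finset V) ⊆ toF S := by
      intro c hc
      simp only [Finset.mem_insert, Finset.mem_singleton] at hc
      rcases hc with rfl | rfl | rfl | rfl
      · exact mem_toF.2 (Submodule.zero_mem _)
      · exact mem_toF.2 hv
      · exact ha1
      · exact mem_toF.2 (Submodule.add_mem _ (mem_toF.1 ha1) hv)
    have hne1 : a + v ≠ 0 := by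
      intro h
      exact ha2.2 (eq_of_add_zero hF h)
    have hne2 : a + v ≠ v := by
      intro h
      exact ha2.1 (by simpa using h)
    have hne3 : a + v ≠ a := by
      intro h
      exact h0 (by simpa using h)
    have hc4 : ({0, v, a, a + v} : Finset V).card = 4 := by
      rw [Finset.card_eq_succ]
      refine ⟨0, {v, a, a + v}, ?_, rfl, ?_⟩
      · simp only [Finset.mem_insert, Finset.mem_singleton, not_or]
        exact ⟨h0.symm, Ne.symm ha2.1, hne1.symm⟩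
      · rw [Finset.card_eq_three]
        exact ⟨v, a, a + v, Ne.symm ha2.2, hne2.symm, hne3.symm, rfl⟩
    have hc5 : ((toF S) \ {0, v, a, a + v}).card = (toF S).card - 4 := by
      rw [Finset.card_sdiff_of_subset hA4, hc4]
    rw [← hc5]
    apply Finset.card_le_card_of_injOn Prod.snd
    · intro p hp
      obtain ⟨h1, h2⟩ := Finset.mem_filter.1 (Finset.mem_coe.1 hp)
      obtain ⟨h3, h4⟩ := Finset.mem_inter.1 h1
      obtain ⟨h5, h6, h7, h8, h9, h10, h11, h12⟩ := mem_Tt.1 h3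
      refine Finset.mem_coe.2 (Finset.mem_sdiff.2 ⟨(Finset.mem_product.1 h4).2, ?_⟩)
      rw [h2] at h9 h10
      simp only [Finset.mem_insert, Finset.mem_singleton, not_or]
      exact ⟨h7, h8, h9, h10⟩
    · intro p hp p' hp' h
      obtain ⟨_, h2⟩ := Finset.mem_filter.1 (Finset.mem_coe.1 hp)
      obtain ⟨_, h2'⟩ := Finset.mem_filter.1 (Finset.mem_coe.1 hp')
      exact Prod.ext (h2.trans h2'.symm) h

omit hm hdim hgen hQ in
/-- Upper bound for pairs of the same value. -/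
lemma pair_upper2 {E : Finset V} (hE : ∀ a ∈ E, a + v ∈ E) (hv : Q v = 0) (h0 : v ≠ 0) {ε b : F} :
    (Tt Q v ε ε b ∩ (E ×ˢ E)).card ≤ ((Ss Q v ε ∩ E).card - 2) * (Ss Q v ε ∩ E).card := by
  apply Finset.card_le_mul_card_image_of_maps_to (f := Prod.fst)
  · intro p hp
    obtain ⟨h1, h2⟩ := Finset.mem_inter.1 hp
    exact Finset.mem_inter.2 ⟨(mem_Tt.1 h1).1, (Finset.mem_product.1 h2).1⟩
  · intro a ha
    obtain ⟨ha1, ha2⟩ := Finset.mem_inter.1 ha
    obtain ⟨h1, h2, h3, h4⟩ := mem_Ss.1 ha1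
    have hne3 : a + v ≠ a := by
      intro h
      exact h0 (by simpa using h)
    have hmem : a + v ∈ Ss Q v ε ∩ E := by
      refine Finset.mem_inter.2 ⟨mem_Ss.2 ⟨?_, ?_, ?_, ?_⟩, hE a ha2⟩
      · rw [polar_add_right, h1, pol_self hF, add_zero]
      · intro h
        exact h3 (eq_of_add_zero hF h)
      · intro h
        exact h2 (by simpa using h)
      · rw [Q_adds hF, h4, hv, polar_comm, h1, add_zero, add_zero]
    have hsub : ({a, a + v} : Finset V) ⊆ Ss Q v ε ∩ E := by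
      intro c hc
      simp only [Finset.mem_insert, Finset.mem_singleton] at hc
      rcases hc with rfl | rfl
      · exact ha
      · exact hmem
    have hc : ((Ss Q v ε ∩ E) \ {a, a + v}).card = (Ss Q v ε ∩ E).card - 2 := by
      rw [Finset.card_sdiff_of_subset hsub, Finset.card_pair hne3.symm]
    rw [← hc]
    apply Finset.card_le_card_of_injOn Prod.snd
    · intro p hp
      obtain ⟨h5, h6⟩ := Finset.mem_filter.1 (Finset.mem_coe.1 hp)
      obtain ⟨h7, h8⟩ := Finset.mem_inter.1 h5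
      obtain ⟨h9, h10, h11, h12, h13, h14, h15, h16⟩ := mem_Tt.1 h7
      refine Finset.mem_coe.2 (Finset.mem_sdiff.2 ⟨Finset.mem_inter.2 ⟨mem_Ss.2 ⟨h10, h11, h12, h15⟩,
        (Finset.mem_product.1 h8).2⟩, ?_⟩)
      rw [h6] at h13 h14
      simp only [Finset.mem_insert, Finset.mem_singleton, not_or]
      exact ⟨h13, h14⟩
    · intro p hp p' hp' h
      obtain ⟨_, h2⟩ := Finset.mem_filter.1 (Finset.mem_coe.1 hp)
      obtain ⟨_, h2'⟩ := Finset.mem_filter.1 (Finset.mem_coe.1 hp')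
      exact Prod.ext (h2.trans h2'.symm) h

end Covers

section Numeric

/-- The target. -/
def tt (m : ℕ) : ℕ := 2 ^ (m - 1) * (2 ^ m - 1)

lemma tt_add {m : ℕ} (hm : 4 ≤ m) : tt m + 2 ^ (m - 1) = 4 * 2 ^ (2 * m - 3) := by
  have h1 : 1 ≤ 2 ^ m := Nat.one_le_two_pow
  have h2 : 2 ^ (m - 1) * 2 ^ m = 4 * 2 ^ (2 * m - 3) := by
    rw [← pow_add, show m - 1 + m = (2 * m - 3) + 2 by omega, pow_add]
    ring
  obtain ⟨c, hc⟩ : ∃ c, 2 ^ m = c + 1 := ⟨2 ^ m - 1, by omega⟩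
  rw [tt, hc, Nat.add_sub_cancel]
  rw [hc] at h2
  rw [← h2]
  ring

lemma numeric_main {s M J o : ℕ} (hs : 8 ≤ s) (hM8 : 8 ≤ M) (hM : M ≤ 4 * s)
    (h1 : (4 * s ^ 2 - 2 * s) * (2 * s ^ 2 - 2 * s) ≤ J * ((M - 4) * (M - 2))) (h2 : J * M ≤ 2 * o) :
    2 * s * (4 * s - 1) ≤ o := by
  obtain ⟨a, rfl⟩ : ∃ a, s = a + 8 := ⟨s - 8, by omega⟩
  obtain ⟨u, rfl⟩ : ∃ u, M = u + 8 := ⟨M - 8, by omega⟩
  obtain ⟨w, hw⟩ : ∃ w, 4 * (a + 8) = u + 8 + w := ⟨4 * (a + 8) - (u + 8), by omega⟩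
  have e1 : 4 * (a + 8) ^ 2 - 2 * (a + 8) = 2 * (a + 8) * (2 * a + 15) := by
    have : 4 * (a + 8) ^ 2 = 2 * (a + 8) * (2 * a + 15) + 2 * (a + 8) := by ring
    omega
  have e2 : 2 * (a + 8) ^ 2 - 2 * (a + 8) = 2 * (a + 8) * (a + 7) := by
    have : 2 * (a + 8) ^ 2 = 2 * (a + 8) * (a + 7) + 2 * (a + 8) := by ring
    omega
  have e3 : u + 8 - 4 = u + 4 := by omega
  have e4 : u + 8 - 2 = u + 6 := by omega
  rw [e1, e2, e3, e4] at h1
  have e5 : 4 * (a + 8) - 1 = 4 * a + 31 := by omega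
  rw [e5]
  -- monotonicity
  have hmono : (a + 8) * ((u + 4) * (u + 6)) ≤ 2 * (u + 8) * ((a + 7) * (2 * a + 15)) := by
    have h3 : 4 * ((a + 8) * ((u + 4) * (u + 6))) ≤ 4 * (2 * (u + 8) * ((a + 7) * (2 * a + 15))) := by
      have h4 : 4 * (a + 8) * ((u + 4) * (u + 6)) ≤ (u + 8) * ((4 * (a + 8) - 4) * (4 * (a + 8) - 2)) := by
        rw [hw]
        have e6 : u + 8 + w - 4 = u + 4 + w := by omega
        have e7 : u + 8 + w - 2 = u + 6 + w := by omega
        rw [e6, e7]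
        nlinarith [Nat.zero_le (u * w), Nat.zero_le (u * u * w), Nat.zero_le (u * w * w), Nat.zero_le (w * w)]
      have e8 : 4 * (a + 8) - 4 = 4 * (a + 7) := by omega
      have e9 : 4 * (a + 8) - 2 = 2 * (2 * a + 15) := by omega
      rw [e8, e9] at h4
      nlinarith [h4]
    exact Nat.le_of_mul_le_mul_left h3 (by norm_num)
  -- main inequality
  set C := (u + 8) * ((a + 7) * (2 * a + 15)) with hC
  have hCpos : 0 < C := by positivity
  have h5 : (a + 8) ^ 3 * C ≤ o * C := by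
    have h6 : (u + 8) * (4 * (a + 8) ^ 2 * ((2 * a + 15) * (a + 7))) ≤ 2 * o * ((u + 4) * (u + 6)) := by
      calc (u + 8) * (4 * (a + 8) ^ 2 * ((2 * a + 15) * (a + 7)))
          = (u + 8) * (2 * (a + 8) * (2 * a + 15) * (2 * (a + 8) * (a + 7))) := by ring
        _ ≤ (u + 8) * (J * ((u + 4) * (u + 6))) := Nat.mul_le_mul_left _ h1
        _ = (J * (u + 8)) * ((u + 4) * (u + 6)) := by ring
        _ ≤ 2 * o * ((u + 4) * (u + 6)) := Nat.mul_le_mul_right _ h2
    have h7 : (a + 8) * (2 * o * ((u + 4) * (u + 6))) ≤ 2 * o * (2 * C) := by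
      calc (a + 8) * (2 * o * ((u + 4) * (u + 6))) = 2 * o * ((a + 8) * ((u + 4) * (u + 6))) := by ring
        _ ≤ 2 * o * (2 * (u + 8) * ((a + 7) * (2 * a + 15))) := Nat.mul_le_mul_left _ hmono
        _ = 2 * o * (2 * C) := by rw [hC]; ring
    have h8 := (Nat.mul_le_mul_left (a + 8) h6).trans h7
    have h9 : 4 * ((a + 8) ^ 3 * C) ≤ 4 * (o * C) := by
      calc 4 * ((a + 8) ^ 3 * C) = (a + 8) * ((u + 8) * (4 * (a + 8) ^ 2 * ((2 * a + 15) * (a + 7)))) := by
            rw [hC]; ring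
        _ ≤ 2 * o * (2 * C) := h8
        _ = 4 * (o * C) := by ring
    exact Nat.le_of_mul_le_mul_left h9 (by norm_num)
  have h10 := Nat.le_of_mul_le_mul_right h5 hCpos
  refine le_trans ?_ h10
  nlinarith [Nat.zero_le (a * a * a), Nat.zero_le (a * a)]

end Numeric

end Cfsg.Agent.Lib.OmPlusIdx
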