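import Mathlib
import Cfsg.Agent.Lib.OmPlusIdxD

/-!
# The group `Ω⁺_{2m}(2)`: the orbit sizes
-/

set_option autoImplicit false
set_option linter.unusedSectionVars false
set_option linter.unusedVariables false

namespace Cfsg.Agent.Lib.OmPlusIdx

open QuadraticMap Cfsg.Agent.Lib.OrthoBasic Cfsg.Agent.Lib.OrthoSiegel Module Pointwise

variable {F : Type*} [Field F] [Fintype F] {V : Type*} [AddCommGroup V] [Module F V]
  [FiniteDimensional F V] {Q : QuadraticForm F V}

variable [Fintype V] [DecidableEq V] [DecidableEq F]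
  (hF : Fintype.card F = 2) (hQ : Nondeg Q) {m : ℕ} (hm : 4 ≤ m) (hdim : finrank F V = 2 * m)
  (hgen : Cfsg.Agent.Lib.OrthoGen.genR Q = ⊤)
  (hz : (Finset.univ.filter (fun x : V => Q x = 0)).card = 2 ^ (2 * m - 1) + 2 ^ (m - 1))
  {v : V}

omit hQ in
include hF in
lemma card_toF_pow (S : Submodule F V) : (toF S).card = 2 ^ finrank F S := by
  rw [card_toF, Module.natCard_eq_pow_finrank (K := F), Nat.card_eq_fintype_card, hF]

/-- Relations between the numbers. -/
lemma pow_facts (hm : 4 ≤ m) : 32 ≤ 2 ^ (2 * m - 3) ∧ 8 ≤ 2 ^ (m - 1) ∧ 4 * 2 ^ (m - 1) ≤ 2 ^ (2 * m - 3) := by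
  refine ⟨?_, ?_, ?_⟩
  · calc 32 = 2 ^ 5 := by norm_num
      _ ≤ 2 ^ (2 * m - 3) := Nat.pow_le_pow_right (by norm_num) (by omega)
  · calc 8 = 2 ^ 3 := by norm_num
      _ ≤ 2 ^ (m - 1) := Nat.pow_le_pow_right (by norm_num) (by omega)
  · have : 2 ^ (m + 1) ≤ 2 ^ (2 * m - 3) := Nat.pow_le_pow_right (by norm_num) (by omega)
    have h2 : 2 ^ (m + 1) = 4 * 2 ^ (m - 1) := by
      rw [show m + 1 = (m - 1) + 2 by omega, pow_add]
      ring
    omega

include hF hQ hm hdim in
/-- The orbit bound in numbers. -/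
lemma J_bound {K : Subgroup (GG Q)} {E : Finset V} (hE : Inv hQ K v E) (hv : Q v = 0) (h0 : v ≠ 0) :
    (JE Q v E).card * 2 ^ finrank F (Pq Q (YY hF hQ K v)) ≤ 2 * oo K v := by
  have h1 := orbit_bound hF hE hv
  rw [← card_toF (Wv Q v), card_Wf hF hQ hm hdim h0, ← card_toF (YY hF hQ K v), card_toF_pow hF] at h1
  have h2 := finrank_Pq hQ (YY hF hQ K v)
  rw [hdim] at h2
  have h3 : 2 ^ finrank F (YY hF hQ K v) * 2 ^ finrank F (Pq Q (YY hF hQ K v)) = 8 * 2 ^ (2 * m - 3) := by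
    rw [← pow_add, h2, pow_rel8 hm]
  have h4 : 0 < 2 ^ finrank F (YY hF hQ K v) := by positivity
  apply Nat.le_of_mul_le_mul_left _ h4
  have h5 : 2 ^ finrank F (YY hF hQ K v) * ((JE Q v E).card * 2 ^ finrank F (Pq Q (YY hF hQ K v))) =
      2 * ((JE Q v E).card * (4 * 2 ^ (2 * m - 3))) := by
    rw [mul_left_comm, h3]
    ring
  rw [h5]
  calc 2 * ((JE Q v E).card * (4 * 2 ^ (2 * m - 3))) ≤ 2 * (2 ^ finrank F (YY hF hQ K v) * oo K v) :=
        Nat.mul_le_mul_left _ h1
    _ = 2 ^ finrank F (YY hF hQ K v) * (2 * oo K v) := by ring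

omit hm hz hgen hdim hQ in
/-- A vector outside `{0, v}`. -/
lemma exists_elem {S : Submodule F V} (h : 2 < (toF S).card) : ∃ x ∈ toF S, x ≠ 0 ∧ x ≠ v := by
  have h1 : ({0, v} : Finset V).card < (toF S).card := lt_of_le_of_lt Finset.card_le_two h
  obtain ⟨x, hx, hx'⟩ := Finset.exists_mem_notMem_of_card_lt_card h1
  simp only [Finset.mem_insert, Finset.mem_singleton, not_or] at hx'
  exact ⟨x, hx, hx'⟩

include hF hQ hm hdim hz in
lemma Ss_lower {ε : F} {v : V} (hv : Q v = 0) (h0 : v ≠ 0) : 2 * 2 ^ (2 * m - 3) ≤ (Ss Q v ε).card + 2 ^ (m - 1) := by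
  obtain ⟨h1, h2⟩ := card_Ss hF hQ hm hdim hz hv h0
  obtain ⟨h3, h4, h5⟩ := pow_facts hm
  rcases zero_or_one hF ε with rfl | rfl <;> omega

include hF hQ hm hdim hgen hz in
/-- A one-vector cover for a subspace. -/
lemma single_case {S : Submodule F V} (hvS : v ∈ S) (hv : Q v = 0) (h0 : v ≠ 0) (hS : ∀ x ∈ S, polar Q v x = 0)
    (h4 : (toF S).card = 4) : 2 * 2 ^ (2 * m - 3) ≤ (JE Q v (toF S)).card * 2 + 2 ^ (m - 1) := by
  obtain ⟨x, hx, hx0, hxv⟩ := exists_elem (v := v) (S := S) (by omega)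
  have hxS : x ∈ Ss Q v (Q x) := mem_Ss.2 ⟨hS x (mem_toF.1 hx), hx0, hxv, rfl⟩
  have h1 := cover_single hF hQ hm hdim hgen hx hxS h0
  have h2 : (Ss Q v (Q x) ∩ toF S).card ≤ 2 := by
    have h3 : Ss Q v (Q x) ∩ toF S ⊆ toF S \ {0, v} := by
      intro a ha
      obtain ⟨ha1, ha2⟩ := Finset.mem_inter.1 ha
      obtain ⟨_, h5, h6, _⟩ := mem_Ss.1 ha1
      refine Finset.mem_sdiff.2 ⟨ha2, ?_⟩
      simp only [Finset.mem_insert, Finset.mem_singleton, not_or]
      exact ⟨h5, h6⟩
    have h5 : ({0, v} : Finset V) ⊆ toF S := by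
      intro a ha
      simp only [Finset.mem_insert, Finset.mem_singleton] at ha
      rcases ha with rfl | rfl
      · exact mem_toF.2 (Submodule.zero_mem _)
      · exact mem_toF.2 hvS
    have h6 := Finset.card_le_card h3
    rw [Finset.card_sdiff_of_subset h5, Finset.card_pair h0.symm, h4] at h6
    exact h6
  have h3 := Ss_lower hF hQ hm hdim hz (ε := Q x) hv h0
  have h5 := h1.trans (Nat.mul_le_mul_left _ h2)
  omega

include hF hQ hm hdim hgen hz in
/-- A pair cover for a subspace. -/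
lemma pair_case {S : Submodule F V} (hvS : v ∈ S) (hv : Q v = 0) (h0 : v ≠ 0) (hS : ∀ x ∈ S, polar Q v x = 0)
    (h8 : 8 ≤ (toF S).card) :
    (2 * 2 ^ (2 * m - 3) - 2 ^ (m - 1)) * (2 ^ (2 * m - 3) - 2 ^ (m - 1)) ≤
      (JE Q v (toF S)).card * (((toF S).card - 4) * ((toF S).card - 2)) := by
  obtain ⟨x, hx, hx0, hxv⟩ := exists_elem (v := v) (S := S) (by omega)
  have hxS : x ∈ Ss Q v (Q x) := mem_Ss.2 ⟨hS x (mem_toF.1 hx), hx0, hxv, rfl⟩
  have h1 : ({0, v, x, x + v} : Finset V).card < (toF S).card := lt_of_le_of_lt Finset.card_le_four (by omega)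
  obtain ⟨x', hx', hx''⟩ := Finset.exists_mem_notMem_of_card_lt_card h1
  simp only [Finset.mem_insert, Finset.mem_singleton, not_or] at hx''
  obtain ⟨h2, h3, h4, h5⟩ := hx''
  have hp : (x, x') ∈ Tt Q v (Q x) (Q x') (polar Q x x') :=
    mem_Tt.2 ⟨hxS, hS x' (mem_toF.1 hx'), h2, h3, h4, h5, rfl, rfl⟩
  have h6 := cover_pair hF hQ hm hdim hgen hx hx' hp h0
  have h7 := h6.trans (Nat.mul_le_mul_left _ (pair_upper hF hvS h0))
  have h9 := card_Tt_ge hF hQ hm hdim hz (v := v) (ε := Q x) (q := Q x') (b := polar Q x x')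
    (L := 2 ^ (2 * m - 3) - 2 ^ (m - 1)) (fun a ha => by
      obtain ⟨h10, h11, h12, _⟩ := mem_Ss.1 ha
      have := (n2_facts hF hQ hm hdim hz hv h0 h10 h11 h12).1 (Q x') (polar Q x x')
      omega)
  refine le_trans (Nat.mul_le_mul_right _ ?_) (h9.trans h7)
  have := Ss_lower hF hQ hm hdim hz (ε := Q x) hv h0
  omega

/-! ### The bounds -/

variable {K : Subgroup (GG Q)}

include hF hQ hm hdim in
/-- When `Y = ⟨v⟩`, the orbit is large. -/
theorem R_bound (hv : Q v = 0) (h0 : v ≠ 0) (hY : finrank F (YY hF hQ K v) = 1) :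
    2 * 2 ^ (2 * m - 3) ≤ oo K v := by
  have h1 := J_bound hF hQ hm hdim (Inv_Y hF (K := K) hv) hv h0
  have h2 := finrank_Pq hQ (YY hF hQ K v)
  rw [hdim, hY] at h2
  have h3 : finrank F (Pq Q (YY hF hQ K v)) = 2 * m - 1 := by omega
  rw [h3, pow_rel4 hm] at h1
  have h4 : 0 < (JE Q v (toF (YY hF hQ K v))).card := JE_pos
  have h5 : 1 * (4 * 2 ^ (2 * m - 3)) ≤ (JE Q v (toF (YY hF hQ K v))).card * (4 * 2 ^ (2 * m - 3)) :=
    Nat.mul_le_mul_right _ h4
  omega

include hF hQ hm hdim hgen hz in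
/-- When `Y` has codimension one in `v^⊥`, the orbit is large. -/
theorem H_bound (hv : Q v = 0) (h0 : v ≠ 0) (hZ : finrank F (Pq Q (YY hF hQ K v)) = 2) :
    2 * 2 ^ (2 * m - 3) ≤ oo K v + 2 ^ (m - 1) := by
  have h1 := J_bound hF hQ hm hdim (Inv_Z hF (K := K) hv) hv h0
  rw [hZ] at h1
  have h2 := single_case hF hQ hm hdim hgen hz (S := Pq Q (YY hF hQ K v)) (v_mem_ZZ hF hQ) hv h0
    (fun x hx => ZZ_perp hF hQ hv hx) (by rw [card_toF_pow hF, hZ]; norm_num)
  omega

include hF hQ in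
/-- The special case `m = 4`, with `Z` of size 16 (eight modulo `v`): at least fifteen images. -/
lemma special_case (hdim : finrank F V = 2 * 4)
    (hgen : Cfsg.Agent.Lib.OrthoGen.genR Q = ⊤)
    (hz : (Finset.univ.filter (fun x : V => Q x = 0)).card = 2 ^ (2 * 4 - 1) + 2 ^ (4 - 1))
    {S : Submodule F V} (hvS : v ∈ S) (hv : Q v = 0) (h0 : v ≠ 0) (hS : ∀ x ∈ S, polar Q v x = 0)
    (h16 : (toF S).card = 16) : 15 ≤ (JE Q v (toF S)).card := by
  have hm : 4 ≤ 4 := le_refl 4
  obtain ⟨c1, c0⟩ := card_Ss hF hQ hm hdim hz hv h0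
  norm_num at c1 c0
  -- the part of `(toF S)`
  have hmemS : ∀ z ∈ (toF S), z ≠ 0 → z ≠ v → z ∈ Ss Q v (Q z) := fun z hz h1 h2 =>
    mem_Ss.2 ⟨hS z (mem_toF.1 hz), h1, h2, rfl⟩
  have hEadd : ∀ a ∈ (toF S), ∀ b ∈ (toF S), a + b ∈ (toF S) := fun a ha b hb =>
    mem_toF.2 (Submodule.add_mem _ (mem_toF.1 ha) (mem_toF.1 hb))
  have hvE : v ∈ (toF S) := mem_toF.2 hvS
  have hzE : (0 : V) ∈ (toF S) := mem_toF.2 (Submodule.zero_mem _)
  have hNA : (Ss Q v 1 ∩ toF S).card + (Ss Q v 0 ∩ toF S).card = 14 := by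
    have h1 : Ss Q v 1 ∩ (toF S) ∪ Ss Q v 0 ∩ (toF S) = (toF S) \ {0, v} := by
      ext a
      simp only [Finset.mem_union, Finset.mem_inter, Finset.mem_sdiff, Finset.mem_insert, Finset.mem_singleton, not_or,
        mem_Ss]
      constructor
      · rintro (⟨⟨_, h2, h3, _⟩, h5⟩ | ⟨⟨_, h2, h3, _⟩, h5⟩) <;> exact ⟨h5, h2, h3⟩
      · rintro ⟨h2, h3, h4⟩
        rcases zero_or_one hF (Q a) with h5 | h5
        · exact Or.inr ⟨⟨hS a (mem_toF.1 h2), h3, h4, h5⟩, h2⟩
        · exact Or.inl ⟨⟨hS a (mem_toF.1 h2), h3, h4, h5⟩, h2⟩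
    have h2 : Disjoint (Ss Q v 1 ∩ (toF S)) (Ss Q v 0 ∩ (toF S)) := by
      rw [Finset.disjoint_left]
      intro a ha ha'
      have h3 := (mem_Ss.1 (Finset.mem_inter.1 ha).1).2.2.2
      have h4 := (mem_Ss.1 (Finset.mem_inter.1 ha').1).2.2.2
      rw [h3] at h4
      exact one_ne_zero h4
    have h3 : ({0, v} : Finset V) ⊆ toF S := by
      intro a ha
      simp only [Finset.mem_insert, Finset.mem_singleton] at ha
      rcases ha with rfl | rfl
      · exact hzE
      · exact hvE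
    have h4 := congrArg Finset.card h1
    rw [Finset.card_union_of_disjoint h2, Finset.card_sdiff_of_subset h3, Finset.card_pair h0.symm, h16] at h4
    omega
  -- a general element
  obtain ⟨x, hx, hx0, hxv⟩ := exists_elem (v := v) (S := S) (by rw [h16]; norm_num)
  by_cases hN0 : (Ss Q v 1 ∩ toF S).card = 0
  · -- totally singular case
    have hall : ∀ z ∈ (toF S), z ≠ 0 → z ≠ v → Q z = 0 := by
      intro z hz h1 h2
      rcases zero_or_one hF (Q z) with h3 | h3
      · exact h3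
      · have : z ∈ Ss Q v 1 ∩ toF S := Finset.mem_inter.2 ⟨by
          have := hmemS z hz h1 h2
          rwa [h3] at this, hz⟩
        rw [Finset.card_eq_zero] at hN0
        rw [hN0] at this
        simp at this
    have h1 : ({0, v, x, x + v} : Finset V).card < (toF S).card := lt_of_le_of_lt Finset.card_le_four (by omega)
    obtain ⟨x', hx', hx''⟩ := Finset.exists_mem_notMem_of_card_lt_card h1
    simp only [Finset.mem_insert, Finset.mem_singleton, not_or] at hx''
    obtain ⟨h2, h3, h4, h5⟩ := hx''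
    have hQx := hall x hx hx0 hxv
    have hQx' := hall x' hx' h2 h3
    have hs : Q (x + x') = 0 := hall (x + x') (hEadd _ hx _ hx') (by
        intro h
        exact h4 (eq_of_add_zero hF h).symm) (by
        intro h
        apply h5
        have : x + x' + x = v + x := by rw [h]
        rw [add_comm x x', add_assoc, vadd_self hF, add_zero] at this
        rw [this, add_comm])
    have hB : polar Q x x' = 0 := by
      rw [Q_adds hF, hQx, hQx', zero_add, zero_add] at hs
      exact hs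
    have hp : (x, x') ∈ Tt Q v 0 0 0 :=
      mem_Tt.2 ⟨mem_Ss.2 ⟨hS x (mem_toF.1 hx), hx0, hxv, hQx⟩, hS x' (mem_toF.1 hx'), h2, h3, h4, h5, hQx', hB⟩
    have h6 := cover_pair hF hQ hm hdim hgen hx hx' hp h0
    have h7 := pair_upper hF (Q := Q) (ε := 0) (q := 0) (b := 0) hvS h0
    rw [h16] at h7
    have h8 := h6.trans (Nat.mul_le_mul_left _ h7)
    have h9 := card_Tt_ge hF hQ hm hdim hz (v := v) (ε := 0) (q := 0) (b := 0) (L := 36) (fun a ha => by
      obtain ⟨h10, h11, h12, h13⟩ := mem_Ss.1 ha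
      have := (n2_facts hF hQ hm hdim hz hv h0 h10 h11 h12).2 h13
      norm_num at this
      omega)
    rw [show (Ss Q v 0).card = 70 by omega] at h9
    norm_num at h8 h9
    omega
  by_cases hN2 : (Ss Q v 1 ∩ toF S).card ≤ 2
  · -- at most two non-singular vectors
    obtain ⟨y, hy⟩ := Finset.card_pos.1 (Nat.pos_of_ne_zero hN0)
    obtain ⟨hy1, hy2⟩ := Finset.mem_inter.1 hy
    have h1 := cover_single hF hQ hm hdim hgen hy2 hy1 h0
    have h2 : (JE Q v (toF S)).card * (Ss Q v 1 ∩ toF S).card ≤ (JE Q v (toF S)).card * 2 := Nat.mul_le_mul_left _ hN2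
    omega
  by_cases hN10 : (Ss Q v 1 ∩ toF S).card ≤ 10
  · -- pairs of non-singular vectors
    obtain ⟨y, hy⟩ := Finset.card_pos.1 (Nat.pos_of_ne_zero hN0)
    obtain ⟨hy1, hy2⟩ := Finset.mem_inter.1 hy
    have h1 : ({y, y + v} : Finset V).card < (Ss Q v 1 ∩ (toF S)).card := lt_of_le_of_lt Finset.card_le_two (by omega)
    obtain ⟨y', hy', hy''⟩ := Finset.exists_mem_notMem_of_card_lt_card h1
    simp only [Finset.mem_insert, Finset.mem_singleton, not_or] at hy''
    obtain ⟨hy1', hy2'⟩ := Finset.mem_inter.1 hy'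
    obtain ⟨h3, h4, h5, h6⟩ := mem_Ss.1 hy1'
    have hp : (y, y') ∈ Tt Q v 1 1 (polar Q y y') :=
      mem_Tt.2 ⟨hy1, h3, h4, h5, hy''.1, hy''.2, h6, rfl⟩
    have h7 := cover_pair hF hQ hm hdim hgen hy2 hy2' hp h0
    have h8 := pair_upper2 hF (Q := Q) (E := toF S) (ε := 1) (b := polar Q y y')
      (fun a ha => hEadd a ha v hvE) hv h0
    have h9 := card_Tt_ge hF hQ hm hdim hz (v := v) (ε := 1) (q := 1) (b := polar Q y y') (L := 24) (fun a ha => by
      obtain ⟨h10, h11, h12, h13⟩ := mem_Ss.1 ha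
      have := (n2_facts hF hQ hm hdim hz hv h0 h10 h11 h12).1 1 (polar Q y y')
      norm_num at this
      omega)
    rw [show (Ss Q v 1).card = 56 by omega] at h9
    have h10 : ((Ss Q v 1 ∩ toF S).card - 2) * (Ss Q v 1 ∩ toF S).card ≤ 8 * 10 := Nat.mul_le_mul (by omega) hN10
    have h11 := h7.trans (Nat.mul_le_mul_left _ (h8.trans h10))
    norm_num at h9 h11
    omega
  -- few singular vectors
  have hA3 : (Ss Q v 0 ∩ toF S).card ≤ 3 := by omega
  by_cases hA0 : (Ss Q v 0 ∩ toF S).card = 0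
  · -- impossible: a three-dimensional anisotropic space
    exfalso
    have hall : ∀ z ∈ (toF S), z ≠ 0 → z ≠ v → Q z = 1 := by
      intro z hz h1 h2
      rcases zero_or_one hF (Q z) with h3 | h3
      · have : z ∈ Ss Q v 0 ∩ toF S := Finset.mem_inter.2 ⟨by
          have := hmemS z hz h1 h2
          rwa [h3] at this, hz⟩
        rw [Finset.card_eq_zero] at hA0
        rw [hA0] at this
        simp at this
      · exact h3
    have h1 : ({0, v, x, x + v} : Finset V).card < (toF S).card := lt_of_le_of_lt Finset.card_le_four (by omega)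
    obtain ⟨x', hx', hx''⟩ := Finset.exists_mem_notMem_of_card_lt_card h1
    simp only [Finset.mem_insert, Finset.mem_singleton, not_or] at hx''
    obtain ⟨h2, h3, h4, h5⟩ := hx''
    have h1' : ({0, v, x, x + v, x', x' + v, x + x', x + x' + v} : Finset V).card < (toF S).card := by
      have h40 : ({0, v, x, x + v} : Finset V).card ≤ 4 := Finset.card_le_four
      have h41 : ({x', x' + v, x + x', x + x' + v} : Finset V).card ≤ 4 := Finset.card_le_four
      have h42 : ({0, v, x, x + v, x', x' + v, x + x', x + x' + v} : Finset V) =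
          ({0, v, x, x + v} : Finset V) ∪ ({x', x' + v, x + x', x + x' + v} : Finset V) := by
        ext t
        simp only [Finset.mem_insert, Finset.mem_singleton, Finset.mem_union]
        tauto
      have h43 := Finset.card_union_le ({0, v, x, x + v} : Finset V) ({x', x' + v, x + x', x + x' + v} : Finset V)
      rw [h42]
      omega
    obtain ⟨y, hy, hy'⟩ := Finset.exists_mem_notMem_of_card_lt_card h1'
    simp only [Finset.mem_insert, Finset.mem_singleton, not_or] at hy'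
    obtain ⟨h6, h7, h8, h9, h10, h11, h12, h13⟩ := hy'
    -- any two independent vectors are not orthogonal
    have key : ∀ a ∈ (toF S), ∀ b ∈ (toF S), a ≠ 0 → a ≠ v → b ≠ 0 → b ≠ v → b ≠ a → b ≠ a + v → polar Q a b = 1 := by
      intro a ha b hb h14 h15 h16 h17 h18 h19
      have h20 := hall a ha h14 h15
      have h21 := hall b hb h16 h17
      have h22 := hall (a + b) (hEadd _ ha _ hb) (by
        intro h
        exact h18 (eq_of_add_zero hF h).symm) (by
        intro h
        apply h19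
        have : a + b + a = v + a := by rw [h]
        rw [add_comm a b, add_assoc, vadd_self hF, add_zero] at this
        rw [this, add_comm])
      rw [Q_adds hF, h20, h21, add_self' hF, zero_add] at h22
      exact h22
    have hxx' := key x hx x' hx' hx0 hxv h2 h3 h4 h5
    have hxy := key x hx y hy hx0 hxv h6 h7 h8 h9
    have hx'y := key x' hx' y hy h2 h3 h6 h7 h10 h11
    have hxx'0 : x + x' ≠ 0 := by
      intro h
      exact h4 (eq_of_add_zero hF h).symm
    have hxx'v : x + x' ≠ v := by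
      intro h
      apply h5
      have : x + x' + x = v + x := by rw [h]
      rw [add_comm x x', add_assoc, vadd_self hF, add_zero] at this
      rw [this, add_comm]
    have h14 := hall (x + x') (hEadd _ hx _ hx') hxx'0 hxx'v
    have h15 := hall (x + x' + y) (hEadd _ (hEadd _ hx _ hx') _ hy) (by
        intro h
        exact h12 (eq_of_add_zero hF h).symm) (by
        intro h
        apply h13
        have : x + x' + y + (x + x') = v + (x + x') := by rw [h]
        rw [add_comm (x + x') y, add_assoc, vadd_self hF, add_zero] at this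
        rw [this, add_comm])
    rw [Q_adds hF, h14, hall y hy h6 h7, polar_add_left, hxy, hx'y, add_self' hF] at h15
    exact zero_ne_one h15
  · obtain ⟨y, hy⟩ := Finset.card_pos.1 (Nat.pos_of_ne_zero hA0)
    obtain ⟨hy1, hy2⟩ := Finset.mem_inter.1 hy
    have h1 := cover_single hF hQ hm hdim hgen hy2 hy1 h0
    have h2 : (JE Q v (toF S)).card * (Ss Q v 0 ∩ toF S).card ≤ (JE Q v (toF S)).card * 3 := Nat.mul_le_mul_left _ hA3
    omega

include hF hQ hm hdim hgen hz in
/-- The general subspace case. -/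
lemma mid_key (h5 : 5 ≤ m) (hv : Q v = 0) (h0 : v ≠ 0) {S : Submodule F V} (hvS : v ∈ S)
    (hSp : ∀ x ∈ S, polar Q v x = 0) (hI : Inv hQ K v (toF S)) (h3 : 3 ≤ finrank F S)
    (hb : finrank F S ≤ finrank F (Pq Q (YY hF hQ K v))) (hm' : finrank F S ≤ m) :
    tt m ≤ oo K v := by
  obtain ⟨s, hs⟩ : ∃ s, s = 2 ^ (m - 2) := ⟨_, rfl⟩
  have hs8 : 8 ≤ s := by
    rw [hs]
    calc 8 = 2 ^ 3 := by norm_num
      _ ≤ 2 ^ (m - 2) := Nat.pow_le_pow_right (by norm_num) (by omega)
  have hP : 2 ^ (2 * m - 3) = 2 * s ^ 2 := by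
    rw [hs, ← pow_mul, show 2 * m - 3 = 1 + (m - 2) * 2 by omega, pow_add, pow_one]
  have hR : 2 ^ (m - 1) = 2 * s := by
    rw [hs, show m - 1 = 1 + (m - 2) by omega, pow_add, pow_one]
  have hM : 2 ^ m = 4 * s := by
    rw [hs, show m = 2 + (m - 2) by omega, pow_add]
    simp
  have h8 : 8 ≤ (toF S).card := by
    rw [card_toF_pow hF]
    calc 8 = 2 ^ 3 := by norm_num
      _ ≤ _ := Nat.pow_le_pow_right (by norm_num) h3
  have h1 := pair_case hF hQ hm hdim hgen hz hvS hv h0 hSp h8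
  rw [hP, hR] at h1
  have h2 := J_bound hF hQ hm hdim hI hv h0
  have h4 : (toF S).card ≤ 2 ^ finrank F (Pq Q (YY hF hQ K v)) := by
    rw [card_toF_pow hF]
    exact Nat.pow_le_pow_right (by norm_num) hb
  have h6 : (toF S).card ≤ 4 * s := by
    rw [card_toF_pow hF, ← hM]
    exact Nat.pow_le_pow_right (by norm_num) hm'
  have h7 := numeric_main (o := oo K v) hs8 h8 h6 (by
    convert h1 using 2
    ring_nf) ((Nat.mul_le_mul_left _ h4).trans h2)
  rw [tt, hR, hM]
  exact h7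

include hF hQ hm hdim hgen hz in
/-- Intermediate sizes of `Y`: the orbit of `v` has at least `tt m` points. -/
theorem mid_bound (hv : Q v = 0) (h0 : v ≠ 0) (ha : 2 ≤ finrank F (YY hF hQ K v))
    (hb : 3 ≤ finrank F (Pq Q (YY hF hQ K v))) : tt m ≤ oo K v := by
  have hab := finrank_Pq hQ (YY hF hQ K v)
  rw [hdim] at hab
  obtain ⟨hP, hR, hRP⟩ := pow_facts (m := m) hm
  have htt := tt_add hm
  have hvY := v_mem_YY hF hQ (K := K) hv
  have hYp : ∀ x ∈ YY hF hQ K v, polar Q v x = 0 := fun x hx => ((mem_YY hF hQ K).1 hx).1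
  have hvZ := v_mem_ZZ hF hQ (K := K) (v := v)
  have hZp : ∀ x ∈ Pq Q (YY hF hQ K v), polar Q v x = 0 := fun x hx => ZZ_perp hF hQ hv hx
  have jY := J_bound hF hQ hm hdim (Inv_Y hF (K := K) hv) hv h0
  have jZ := J_bound hF hQ hm hdim (Inv_Z hF (K := K) hv) hv h0
  by_cases ha2 : finrank F (YY hF hQ K v) = 2
  · have h1 := single_case hF hQ hm hdim hgen hz hvY hv h0 hYp (by rw [card_toF_pow hF, ha2]; norm_num)
    have hb' : finrank F (Pq Q (YY hF hQ K v)) = (2 * m - 3) + 1 := by omega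
    rw [hb', pow_succ] at jY
    have h2 : 4 ≤ (JE Q v (toF (YY hF hQ K v))).card := by omega
    have h3 : 4 * 2 ^ (2 * m - 3) ≤ (JE Q v (toF (YY hF hQ K v))).card * 2 ^ (2 * m - 3) :=
      Nat.mul_le_mul_right _ h2
    have h4 : (JE Q v (toF (YY hF hQ K v))).card * (2 ^ (2 * m - 3) * 2) =
        2 * ((JE Q v (toF (YY hF hQ K v))).card * 2 ^ (2 * m - 3)) := by ring
    omega
  by_cases h5 : 5 ≤ m
  · by_cases hle : finrank F (YY hF hQ K v) ≤ finrank F (Pq Q (YY hF hQ K v))
    · exact mid_key hF hQ hm hdim hgen hz h5 hv h0 hvY hYp (Inv_Y hF hv) (by omega) hle (by omega)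
    · exact mid_key hF hQ hm hdim hgen hz h5 hv h0 hvZ hZp (Inv_Z hF hv) hb (le_refl _) (by omega)
  obtain rfl : m = 4 := by omega
  norm_num at hP hR hRP htt
  have ht : tt 4 = 120 := by norm_num [tt]
  rw [ht]
  by_cases h44 : finrank F (YY hF hQ K v) = 4
  · have hb4 : finrank F (Pq Q (YY hF hQ K v)) = 4 := by omega
    have h1 := special_case hF hQ hdim hgen hz hvZ hv h0 hZp (by rw [card_toF_pow hF, hb4]; norm_num)
    rw [hb4] at jZ
    omega
  by_cases h35 : finrank F (YY hF hQ K v) = 3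
  · have hb5 : finrank F (Pq Q (YY hF hQ K v)) = 5 := by omega
    have h1 := pair_case hF hQ hm hdim hgen hz hvY hv h0 hYp (by rw [card_toF_pow hF, h35]; norm_num)
    rw [card_toF_pow hF, h35] at h1
    norm_num at h1
    rw [hb5] at jY
    norm_num at jY
    omega
  · have hb3 : finrank F (Pq Q (YY hF hQ K v)) = 3 := by omega
    have h1 := pair_case hF hQ hm hdim hgen hz hvZ hv h0 hZp (by rw [card_toF_pow hF, hb3]; norm_num)
    rw [card_toF_pow hF, hb3] at h1
    norm_num at h1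
    rw [hb3] at jZ
    norm_num at jZ
    omega

end Cfsg.Agent.Lib.OmPlusIdx
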