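import Mathlib
import Cfsg.Agent.Lib.OmPlusIdxE

/-!
# The group `Ω⁺_{2m}(2)`: subgroups containing half of every Siegel group
-/

set_option autoImplicit false
set_option linter.unusedSectionVars false
set_option linter.unusedVariables false

namespace Cfsg.Agent.Lib.OmPlusIdx

open QuadraticMap Cfsg.Agent.Lib.OrthoBasic Cfsg.Agent.Lib.OrthoSiegel Module Pointwise

variable {F : Type*} [Field F] [Fintype F] {V : Type*} [AddCommGroup V] [Module F V]
  [FiniteDimensional F V] {Q : QuadraticForm F V}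

section Vectors

variable (hF : Fintype.card F = 2) (hQ : Nondeg Q)

include hQ in
/-- A vector outside a subspace is separated from it. -/
lemma sepS {S : Submodule F V} {x : V} (hx : x ∉ S) : ∃ z ∈ Pq Q S, polar Q x z ≠ 0 := by
  by_contra hc
  push Not at hc
  apply hx
  have h1 : x ∈ Pq Q (Pq Q S) := by
    rw [mem_Pq]
    intro y hy
    rw [polar_comm]
    exact hc y hy
  rwa [Pq_Pq hQ] at h1

include hF hQ in
/-- What is perpendicular to everything perpendicular to two vectors lies in their span. -/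
lemma perp_span2 {a α γ : V} (h : ∀ u, polar Q a u = 0 → polar Q α u = 0 → polar Q γ u = 0) :
    γ = 0 ∨ γ = a ∨ γ = α ∨ γ = a + α := by
  have h1 : γ ∈ Submodule.span F ({a, α} : Set V) := by
    by_contra hc
    obtain ⟨z, hz, hz'⟩ := sepS hQ hc
    rw [mem_Pq] at hz
    exact hz' (h z (hz a (Submodule.subset_span (by simp))) (hz α (Submodule.subset_span (by simp))))
  obtain ⟨c, d, hcd⟩ := Submodule.mem_span_pair.1 h1
  rcases zero_or_one hF c with rfl | rfl <;> rcases zero_or_one hF d with rfl | rfl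
  · left
    rw [← hcd]
    simp
  · right; right; left
    rw [← hcd]
    simp
  · right; left
    rw [← hcd]
    simp
  · right; right; right
    rw [← hcd]
    simp

include hF in
/-- A pair with non-zero inner product lets one prescribe the value of `Q`. -/
lemma presc_hyp {C : Finset V} {s s' : V} (hs : ∀ c ∈ C, polar Q c s = 0) (hs' : ∀ c ∈ C, polar Q c s' = 0)
    (hss : polar Q s s' = 1) (z₀ : V) (δ : F) : ∃ z, (∀ c ∈ C, polar Q c z = polar Q c z₀) ∧ Q z = δ := by
  by_cases h0 : Q z₀ = δ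
  · exact ⟨z₀, fun _ _ => rfl, h0⟩
  have hδ : δ = Q z₀ + 1 := by
    rcases zero_or_one hF (Q z₀) with h | h <;> rcases zero_or_one hF δ with h' | h' <;> simp_all [add_self' hF]
  have key : ∀ u, (∀ c ∈ C, polar Q c u = 0) → Q u + polar Q z₀ u = 1 →
      ∃ z, (∀ c ∈ C, polar Q c z = polar Q c z₀) ∧ Q z = δ := by
    intro u hu h1
    refine ⟨z₀ + u, fun c hc => by rw [polar_add_right, hu c hc, add_zero], ?_⟩
    rw [Q_adds hF, hδ, add_assoc, h1]
  by_cases h1 : Q s + polar Q z₀ s = 1
  · exact key s hs h1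
  by_cases h2 : Q s' + polar Q z₀ s' = 1
  · exact key s' hs' h2
  have h1' := (zero_or_one hF _).resolve_right h1
  have h2' := (zero_or_one hF _).resolve_right h2
  refine key (s + s') (fun c hc => by rw [polar_add_right, hs c hc, hs' c hc, add_zero]) ?_
  rw [Q_adds hF, polar_add_right, hss]
  have : Q s + Q s' + 1 + (polar Q z₀ s + polar Q z₀ s') =
      (Q s + polar Q z₀ s) + (Q s' + polar Q z₀ s') + 1 := by ring
  rw [this, h1', h2']
  simp

include hF hQ in
/-- Perpendicular to a small set containing a non-orthogonal pair, the form is not alternating-trivial. -/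
lemma exists_hyp_perp {m : ℕ} (hdim : finrank F V = 2 * m) {C : Finset V} (hC : C.card ≤ m) {v w : V}
    (hv : v ∈ C) (hw : w ∈ C) (hvw : polar Q v w = 1) :
    ∃ s s', (∀ c ∈ C, polar Q c s = 0) ∧ (∀ c ∈ C, polar Q c s' = 0) ∧ polar Q s s' = 1 := by
  classical
  by_contra hc
  push Not at hc
  set Y := Submodule.span F (C : Set V) with hY
  have hYf : finrank F Y ≤ m := (finrank_span_finset_le_card C).trans hC
  have hsum := finrank_Pq hQ Y
  rw [hdim] at hsum
  have hmemY : ∀ z ∈ Pq Q Y, ∀ c ∈ C, polar Q c z = 0 := fun z hz c hc' =>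
    (mem_Pq.1 hz) c (Submodule.subset_span hc')
  have hle : Pq Q Y ≤ Y := by
    have h1 : Pq Q Y ≤ Pq Q (Pq Q Y) := by
      intro z hz
      rw [mem_Pq]
      intro y hy
      by_contra hne
      have h2 := eq_one_of_ne hF hne
      exact hc y z (hmemY y hy) (hmemY z hz) h2
    rwa [Pq_Pq hQ] at h1
  have hv' : v ∈ Y := Submodule.subset_span hv
  have hvn : v ∉ Pq Q Y := by
    intro h
    have := hmemY v h w hw
    rw [polar_comm, hvw] at this
    exact one_ne_zero this
  have hlt : Pq Q Y < Y := lt_of_le_of_ne hle (fun h => hvn (by rw [h]; exact hv'))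
  have := Submodule.finrank_lt_finrank_of_lt hlt
  omega

variable [Fintype V] [DecidableEq V]

include hF in
/-- In a subspace of dimension at least four, a given vector can be avoided by a singular one. -/
lemma exists_sing_avoid {S : Submodule F V} (hS : 4 ≤ finrank F S) (c : V) :
    ∃ a ∈ S, Q a = 0 ∧ a ≠ 0 ∧ a ≠ c := by
  classical
  have h16 : 16 ≤ (toF S).card := by
    rw [card_toF_pow hF]
    calc 16 = 2 ^ 4 := by norm_num
      _ ≤ _ := Nat.pow_le_pow_right (by norm_num) hS
  have hadd : ∀ t : V, t + t = 0 := vadd_self hF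
  have can : ∀ {p q : V}, p + q = 0 → p = q := fun h => eq_of_add_zero hF h
  have h1 : ({0, c} : Finset V).card < (toF S).card := lt_of_le_of_lt Finset.card_le_two (by omega)
  obtain ⟨x, hx, hx'⟩ := Finset.exists_mem_notMem_of_card_lt_card h1
  simp only [Finset.mem_insert, Finset.mem_singleton, not_or] at hx'
  obtain ⟨x0, xc⟩ := hx'
  have h2 : ({0, c, x, x + c} : Finset V).card < (toF S).card := lt_of_le_of_lt Finset.card_le_four (by omega)
  obtain ⟨y, hy, hy'⟩ := Finset.exists_mem_notMem_of_card_lt_card h2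
  simp only [Finset.mem_insert, Finset.mem_singleton, not_or] at hy'
  obtain ⟨y0, yc, yx, yxc⟩ := hy'
  have h3 : ({0, c, x, x + c, y, y + c, x + y, x + y + c} : Finset V).card < (toF S).card := by
    have h40 : ({0, c, x, x + c} : Finset V).card ≤ 4 := Finset.card_le_four
    have h41 : ({y, y + c, x + y, x + y + c} : Finset V).card ≤ 4 := Finset.card_le_four
    have h42 : ({0, c, x, x + c, y, y + c, x + y, x + y + c} : Finset V) =
        ({0, c, x, x + c} : Finset V) ∪ ({y, y + c, x + y, x + y + c} : Finset V) := by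
      ext t
      simp only [Finset.mem_insert, Finset.mem_singleton, Finset.mem_union]
      tauto
    have h43 := Finset.card_union_le ({0, c, x, x + c} : Finset V) ({y, y + c, x + y, x + y + c} : Finset V)
    rw [h42]
    omega
  obtain ⟨z, hz, hz'⟩ := Finset.exists_mem_notMem_of_card_lt_card h3
  simp only [Finset.mem_insert, Finset.mem_singleton, not_or] at hz'
  obtain ⟨z0, zc, zx, zxc, zy, zyc, zxy, zxyc⟩ := hz'
  have mS : ∀ {t : V}, t ∈ toF S → t ∈ S := fun h => mem_toF.1 h
  have hxS := mS hx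
  have hyS := mS hy
  have hzS := mS hz
  have ne_of_swap : ∀ {p q : V}, p ≠ q → p + q ≠ 0 := fun h h' => h (can h')
  have ne_c : ∀ {p q : V}, q ≠ p + c → p + q ≠ c := by
    intro p q h h'
    apply h
    rw [← h', ← add_assoc, add_comm p p, hadd, zero_add]
  -- the seven vectors
  have nxy0 : x + y ≠ 0 := ne_of_swap (Ne.symm yx)
  have nxyc : x + y ≠ c := ne_c yxc
  have nxz0 : x + z ≠ 0 := ne_of_swap (Ne.symm zx)
  have nxzc : x + z ≠ c := ne_c zxc
  have nyz0 : y + z ≠ 0 := ne_of_swap (Ne.symm zy)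
  have nyzc : y + z ≠ c := ne_c zyc
  have nxyz0 : x + y + z ≠ 0 := ne_of_swap (Ne.symm zxy)
  have nxyzc : x + y + z ≠ c := ne_c zxyc
  by_cases q1 : Q x = 0
  · exact ⟨x, hxS, q1, x0, xc⟩
  by_cases q2 : Q y = 0
  · exact ⟨y, hyS, q2, y0, yc⟩
  by_cases q3 : Q z = 0
  · exact ⟨z, hzS, q3, z0, zc⟩
  by_cases q4 : Q (x + y) = 0
  · exact ⟨x + y, S.add_mem hxS hyS, q4, nxy0, nxyc⟩
  by_cases q5 : Q (x + z) = 0
  · exact ⟨x + z, S.add_mem hxS hzS, q5, nxz0, nxzc⟩
  by_cases q6 : Q (y + z) = 0
  · exact ⟨y + z, S.add_mem hyS hzS, q6, nyz0, nyzc⟩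
  refine ⟨x + y + z, S.add_mem (S.add_mem hxS hyS) hzS, ?_, nxyz0, nxyzc⟩
  have e1 := eq_one_of_ne hF q1
  have e2 := eq_one_of_ne hF q2
  have e3 := eq_one_of_ne hF q3
  have e4 := eq_one_of_ne hF q4
  have e5 := eq_one_of_ne hF q5
  have e6 := eq_one_of_ne hF q6
  have hself : (1 : F) + 1 = 0 := add_self' hF 1
  have bxz : polar Q x z = 1 := by
    rw [Q_adds hF, e1, e3, hself, zero_add] at e5
    exact e5
  have byz : polar Q y z = 1 := by
    rw [Q_adds hF, e2, e3, hself, zero_add] at e6
    exact e6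
  rw [Q_adds hF, e4, e3, polar_add_left, bxz, byz, hself, add_zero]

end Vectors

variable (hF : Fintype.card F = 2) (hQ : Nondeg Q) (K : Subgroup (GG Q))

/-- The local shape of `K` at `v`: it contains exactly the Siegel elements with parameter
perpendicular to `α`. -/
def TT (v α : V) : Prop :=
  polar Q v α = 0 ∧ ∀ u, polar Q v u = 0 → (Es hQ v u ∈ K ↔ polar Q α u = 0)

/-- All Siegel elements with centre `v` are in `K`. -/
def FF (v : V) : Prop := ∀ u, polar Q v u = 0 → Es hQ v u ∈ K

variable {K}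

include hF in
lemma TT_add_self {v α : V} (h : TT hQ K v α) (hv : Q v = 0) : TT hQ K v (α + v) := by
  refine ⟨by rw [polar_add_right, h.1, pol_self hF, add_zero], fun u hu => ?_⟩
  rw [h.2 u hu, polar_add_left, hu, add_zero]

include hF in
lemma FF_of_TT_zero {v : V} (h : TT hQ K v 0) : FF hQ K v := fun u hu => by
  rw [h.2 u hu]
  simp

include hF in
lemma FF_of_TT_self {v : V} (h : TT hQ K v v) : FF hQ K v := fun u hu => by
  rw [h.2 u hu]
  exact hu

include hF in
lemma TT_unique {v p p' : V} (h : TT hQ K v p) (h' : TT hQ K v p') (h0 : v ≠ 0) : p' = p ∨ p' = p + v := by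
  by_contra hc
  push Not at hc
  have h1 : p + p' ≠ 0 := fun h2 => hc.1 (eq_of_add_zero hF h2).symm
  have h2 : p + p' ≠ v := by
    intro h2
    apply hc.2
    rw [← h2, ← add_assoc, vadd_self hF, zero_add]
  obtain ⟨z, hz1, hz2⟩ := sep hF hQ h1 h2
  have h3 : polar Q p z = 0 ↔ polar Q p' z = 0 := by
    rw [← h.2 z hz1, ← h'.2 z hz1]
  rw [polar_add_left] at hz2
  rcases zero_or_one hF (polar Q p z) with h4 | h4
  · rw [h3.1 h4, h4, add_zero] at hz2
    exact zero_ne_one hz2
  · rcases zero_or_one hF (polar Q p' z) with h5 | h5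
    · rw [h3.2 h5] at h4
      exact zero_ne_one h4
    · rw [h4, h5, add_self' hF] at hz2
      exact zero_ne_one hz2

include hF in
/-- The main computation with Siegel elements. -/
lemma L_half {v w α a u : V} (hv : Q v = 0) (hw : Q w = 0) (hvw : polar Q v w = 1) (ha : Q a = 0)
    (hav : polar Q a v = 0) (haw : polar Q a w = 0) (hαv : polar Q α v = 0) (hαw : polar Q α w = 0)
    (hαa : polar Q α a = 0)
    (Hv : ∀ u, polar Q v u = 0 → polar Q α u = 0 → Es hQ v u ∈ K) (Hwa : Es hQ w a ∈ K)
    (hu : polar Q a u = 0) (huα : polar Q α u = 0) : Es hQ a u ∈ K := by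
  have hva : polar Q v a = 0 := by rw [polar_comm]; exact hav
  have hwa : polar Q w a = 0 := by rw [polar_comm]; exact haw
  have hwv : polar Q w v = 1 := by rw [polar_comm]; exact hvw
  set r := polar Q u w with hr
  set s := polar Q u v with hs
  set u₀ := u + r • v + s • w with hu₀
  have hself : ∀ t : F, t + t = 0 := add_self' hF
  have e1 : polar Q v u₀ = 0 := by
    rw [hu₀, polar_add_right, polar_add_right, polar_smul_right, polar_smul_right, pol_self hF, hvw,
      polar_comm Q v u, ← hs]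
    simp [hself]
  have e2 : polar Q w u₀ = 0 := by
    rw [hu₀, polar_add_right, polar_add_right, polar_smul_right, polar_smul_right, pol_self hF, hwv,
      polar_comm Q w u, ← hr]
    simp [hself]
  have e3 : polar Q a u₀ = 0 := by
    rw [hu₀, polar_add_right, polar_add_right, polar_smul_right, polar_smul_right, hav, haw, hu]
    simp
  have e4 : polar Q α u₀ = 0 := by
    rw [hu₀, polar_add_right, polar_add_right, polar_smul_right, polar_smul_right, hαv, hαw, huα]
    simp
  have e5 : u = u₀ + (r • v + s • w) := by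
    rw [hu₀, add_assoc, add_assoc]
    rw [show r • v + (s • w + (r • v + s • w)) = (r • v + r • v) + (s • w + s • w) by abel,
      vadd_self hF, vadd_self hF, add_zero, add_zero]
  -- the element with `u₀`
  set b := u₀ + Q u₀ • a with hb
  have b1 : polar Q v b = 0 := by
    rw [hb, polar_add_right, polar_smul_right, e1, hva]
    simp
  have b2 : polar Q α b = 0 := by
    rw [hb, polar_add_right, polar_smul_right, e4, hαa]
    simp
  have b3 : polar Q b w = 0 := by
    rw [polar_comm, hb, polar_add_right, polar_smul_right, e2, hwa]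
    simp
  have b4 : polar Q b a = 0 := by
    rw [polar_comm, hb, polar_add_right, polar_smul_right, e3, pol_self hF]
    simp
  have h1 : Es hQ v b ∈ K := Hv b b1 b2
  have h2 := mul_mem (mul_mem Hwa h1) (inv_mem Hwa)
  rw [Es_conj hQ hF _ hv b1] at h2
  have s1 : Es hQ w a • v = a + v := by
    rw [Es_smul hQ hF hw hwa, hvw, hva, ha, zero_mul, add_zero, zero_smul, add_zero, one_smul, add_comm]
  have s2 : Es hQ w a • b = b := by
    rw [Es_smul_perp hQ hF hw hwa b3, b4, zero_smul, add_zero]
  rw [s1, s2, hb, ← Es_add_center hQ hF ha hv hav e3 e1] at h2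
  have h3 : Es hQ v u₀ ∈ K := Hv u₀ e1 e4
  have h4 : Es hQ a u₀ ∈ K := (Subgroup.mul_mem_cancel_right K h3).1 h2
  have h5 : Es hQ a (r • v) ∈ K := by
    rcases zero_or_one hF r with h | h
    · rw [h, zero_smul, Es_zero hQ hF ha]
      exact one_mem _
    · rw [h, one_smul, Es_symm hQ hF ha hav hv]
      exact Hv a hva hαa
  have h6 : Es hQ a (s • w) ∈ K := by
    rcases zero_or_one hF s with h | h
    · rw [h, zero_smul, Es_zero hQ hF ha]
      exact one_mem _
    · rw [h, one_smul, Es_symm hQ hF ha haw hw]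
      exact Hwa
  have p1 : polar Q a (r • v) = 0 := by rw [polar_smul_right, hav, smul_zero]
  have p2 : polar Q a (s • w) = 0 := by rw [polar_smul_right, haw, smul_zero]
  rw [e5, ← Es_mul hQ hF ha e3 (by rw [polar_add_right, p1, p2, add_zero]), ← Es_mul hQ hF ha p1 p2]
  exact mul_mem h4 (mul_mem h5 h6)

/-- `FF` is invariant under `K`. -/
lemma FF_smul (hF : Fintype.card F = 2) {k : GG Q} (hk : k ∈ K) {z : V} (hz : Q z = 0) (h : FF hQ K z) :
    FF hQ K (k • z) := by
  intro u hu
  have h1 : polar Q z (k⁻¹ • u) = 0 := by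
    have := pol_smul k z (k⁻¹ • u)
    rw [smul_inv_smul] at this
    rw [← this]
    exact hu
  have h2 := Es_conj hQ hF k hz h1
  rw [smul_inv_smul] at h2
  rw [← h2]
  exact mul_mem (mul_mem hk (h _ h1)) (inv_mem hk)

include hF in
/-- A full pair of orthogonal-free centres gives everything. -/
lemma all_FF {m : ℕ} (hm : 4 ≤ m) (hdim : finrank F V = 2 * m) {a a' : V} (ha : Q a = 0) (ha' : Q a' = 0)
    (haa : polar Q a a' = 1) (h1 : FF hQ K a) (h2 : FF hQ K a') {z : V} (hz : Q z = 0) (h0 : z ≠ 0) :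
    FF hQ K z := by
  classical
  have hself : ∀ t : F, t + t = 0 := add_self' hF
  have step : ∀ {b b' y : V}, Q b = 0 → Q y = 0 → FF hQ K b → FF hQ K b' → polar Q b b' = 1 → polar Q b y = 1 →
      Q b' = 0 → FF hQ K y := by
    intro b b' y hb hy hF1 hF2 h3 h4 hb'
    have hu : polar Q b (b' + y) = 0 := by rw [polar_add_right, h3, h4, hself]
    have h5 := FF_smul hQ hF (hF1 _ hu) hb' hF2
    have h6 : Es hQ b (b' + y) • b' = y := by
      rw [Es_smul hQ hF hb hu, polar_comm Q b' b, h3, one_smul, polar_add_right, pol_self hF, zero_add,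
        Q_adds hF, hb', hy, zero_add, zero_add, mul_one, hself, zero_smul, add_zero,
        ← add_assoc, vadd_self hF, zero_add]
    rwa [h6] at h5
  by_cases hza : z = a
  · rw [hza]
    exact h1
  have ha0 : a ≠ 0 := by
    rintro rfl
    rw [polar_zero_left] at haa
    exact zero_ne_one haa
  -- a singular vector non-perpendicular to both
  obtain ⟨z₁, h3, h4⟩ := sep hF hQ h0 hza
  obtain ⟨z₂, h5, h6⟩ := sep hF hQ ha0 (Ne.symm hza)
  have hC : ({a, z} : Finset V).card < m := lt_of_le_of_lt Finset.card_le_two (by omega)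
  obtain ⟨y, hy1, hy2⟩ := presc hF hQ hdim {a, z} hC (z₁ + z₂) 0
  have hya : polar Q a y = 1 := by
    rw [hy1 a (by simp), polar_add_right, h3, h6, zero_add]
  have hyz : polar Q y a = 1 := by rw [polar_comm]; exact hya
  have hzy : polar Q z y = 1 := by
    rw [hy1 z (by simp), polar_add_right, h4, h5, add_zero]
  have hFy : FF hQ K y := step ha hy2 h1 h2 haa hya ha'
  have hyz' : polar Q y z = 1 := by rw [polar_comm]; exact hzy
  exact step hy2 hz hFy h1 hyz hyz' ha

/-- All Siegel elements in `K`: then `K` is everything. -/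
lemma top_of_allFF (h : ∀ z, Q z = 0 → z ≠ 0 → FF hQ K z) : K = ⊤ := by
  rw [eq_top_iff]
  rintro ⟨g, hg⟩ -
  have h1 : siegelE Q ≤ K.map (siegelE Q).subtype := by
    show Subgroup.closure (siegelSet Q) ≤ _
    rw [Subgroup.closure_le]
    rintro s ⟨e, y, hs⟩
    obtain ⟨he, hy, hx⟩ := hs
    have h2 : ((Es hQ e y : GG Q) : OG Q) = s := by
      classical
      rw [Es, dif_pos ⟨he, hy⟩]
      apply Cfsg.Agent.Lib.OrthoGen.OG_ext
      intro c
      exact (hx c).symm
    by_cases h0 : e = 0
    · subst h0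
      have h3 : s = 1 := by
        apply Cfsg.Agent.Lib.OrthoGen.OG_ext
        intro c
        rw [hx c, siegelLin_apply]
        simp
      rw [h3]
      exact one_mem _
    · exact ⟨Es hQ e y, h e he h0 y hy, h2⟩
  obtain ⟨k, hk, hk'⟩ := h1 hg
  have : k = ⟨g, hg⟩ := Subtype.ext hk'
  rwa [this] at hk

include hF in
/-- Propagation of fullness. -/
lemma FF_of_hyp {v w β a : V} (hv : Q v = 0) (hw : Q w = 0) (hvw : polar Q v w = 1) (ha : Q a = 0)
    (hav : polar Q a v = 0) (haw : polar Q a w = 0) (hβa : polar Q β a = 0) (h1 : FF hQ K v)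
    (h2 : TT hQ K w β) : FF hQ K a := by
  intro u hu
  have hwa : polar Q w a = 0 := by rw [polar_comm]; exact haw
  exact L_half hF hQ hv hw hvw ha hav haw (polar_zero_left _ _) (polar_zero_left _ _) (polar_zero_left _ _)
    (fun u h _ => h1 u h) ((h2.2 a hwa).2 hβa) hu (polar_zero_left _ _)

variable [Fintype V] [DecidableEq V]

variable {m : ℕ}

include hF in
/-- Two hyperbolic centres have the same parameter. -/
lemma eq_of_hyp (hm : 4 ≤ m) (hdim : finrank F V = 2 * m) (hnoF : ∀ z, Q z = 0 → z ≠ 0 → ¬ FF hQ K z)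
    (hT : ∀ z, Q z = 0 → z ≠ 0 → ∃ γ, TT hQ K z γ) {v w α β : V} (hv : Q v = 0) (hw : Q w = 0)
    (hvw : polar Q v w = 1) (hα : TT hQ K v α) (hβ : TT hQ K w β) (hαw : polar Q α w = 0)
    (hβv : polar Q β v = 0) : α = β := by
  classical
  by_contra hne
  obtain ⟨C, hC⟩ : ∃ C : Finset V, C = {v, w, α, β} := ⟨_, rfl⟩
  have hCc : C.card ≤ 4 := by
    rw [hC]
    exact Finset.card_le_four
  have hYf : finrank F (Submodule.span F (C : Set V)) ≤ 4 := (finrank_span_finset_le_card C).trans hCc
  have hsum := finrank_Pq hQ (Submodule.span F (C : Set V))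
  rw [hdim] at hsum
  obtain ⟨a, haS, haQ, ha0, hac⟩ := exists_sing_avoid hF (Q := Q) (S := Pq Q (Submodule.span F (C : Set V)))
    (by omega) (α + β)
  have hmem : ∀ c ∈ C, polar Q c a = 0 := fun c hc => (mem_Pq.1 haS) c (Submodule.subset_span hc)
  have hva : polar Q v a = 0 := hmem v (by simp [hC])
  have hwa : polar Q w a = 0 := hmem w (by simp [hC])
  have hαa : polar Q α a = 0 := hmem α (by simp [hC])
  have hβa : polar Q β a = 0 := hmem β (by simp [hC])
  have hav : polar Q a v = 0 := by rw [polar_comm]; exact hva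
  have haw : polar Q a w = 0 := by rw [polar_comm]; exact hwa
  have hαv : polar Q α v = 0 := by rw [polar_comm]; exact hα.1
  have hβw : polar Q β w = 0 := by rw [polar_comm]; exact hβ.1
  have hwv : polar Q w v = 1 := by rw [polar_comm]; exact hvw
  obtain ⟨γ, hγ⟩ := hT a haQ ha0
  have hγ0 : γ ≠ 0 := fun h => hnoF a haQ ha0 (FF_of_TT_zero hF hQ (h ▸ hγ))
  have hγa : γ ≠ a := fun h => hnoF a haQ ha0 (FF_of_TT_self hF hQ (h ▸ hγ))
  have hL1 : ∀ u, polar Q a u = 0 → polar Q α u = 0 → polar Q γ u = 0 := fun u hu hu' =>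
    (hγ.2 u hu).1 (L_half hF hQ hv hw hvw haQ hav haw hαv hαw hαa (fun u h h' => (hα.2 u h).2 h')
      ((hβ.2 a hwa).2 hβa) hu hu')
  have hL2 : ∀ u, polar Q a u = 0 → polar Q β u = 0 → polar Q γ u = 0 := fun u hu hu' =>
    (hγ.2 u hu).1 (L_half hF hQ hw hv hwv haQ haw hav hβw hβv hβa (fun u h h' => (hβ.2 u h).2 h')
      ((hα.2 a hva).2 hαa) hu hu')
  have h1 := perp_span2 hF hQ hL1
  have h2 := perp_span2 hF hQ hL2
  have hadd : ∀ t : V, t + t = 0 := vadd_self hF
  rcases h1 with h1 | h1 | h1 | h1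
  · exact hγ0 h1
  · exact hγa h1
  · rcases h2 with h2 | h2 | h2 | h2
    · exact hγ0 h2
    · exact hγa h2
    · exact hne (h1.symm.trans h2)
    · apply hac
      have : α = a + β := h1.symm.trans h2
      rw [this, add_assoc, hadd, add_zero]
  · rcases h2 with h2 | h2 | h2 | h2
    · exact hγ0 h2
    · exact hγa h2
    · apply hac
      have : β = a + α := h2.symm.trans h1
      rw [this, add_comm a α, ← add_assoc, hadd, zero_add]
    · exact hne (add_left_cancel (h1.symm.trans h2))

include hF in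
/-- The parameter passes to a hyperbolic centre. -/
lemma TT_transfer (hm : 4 ≤ m) (hdim : finrank F V = 2 * m) (hnoF : ∀ z, Q z = 0 → z ≠ 0 → ¬ FF hQ K z)
    (hT : ∀ z, Q z = 0 → z ≠ 0 → ∃ γ, TT hQ K z γ) {v w α : V} (hv : Q v = 0) (hw : Q w = 0)
    (hvw : polar Q v w = 1) (hα : TT hQ K v α) (hαw : polar Q α w = 0) (hw0 : w ≠ 0) : TT hQ K w α := by
  obtain ⟨β', hβ'⟩ := hT w hw hw0
  by_cases h : polar Q β' v = 0
  · rw [eq_of_hyp hF hQ hm hdim hnoF hT hv hw hvw hα hβ' hαw h]
    exact hβ'
  · have h1 := eq_one_of_ne hF h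
    have h2 : polar Q (β' + w) v = 0 := by
      rw [polar_add_left, h1, polar_comm, hvw, add_self' hF]
    have h3 := TT_add_self hF hQ hβ' hw
    rw [eq_of_hyp hF hQ hm hdim hnoF hT hv hw hvw hα h3 hαw h2]
    exact h3

include hF in
/-- Without full centres there is a contradiction. -/
lemma noF_false (hm : 4 ≤ m) (hdim : finrank F V = 2 * m) (hnoF : ∀ z, Q z = 0 → z ≠ 0 → ¬ FF hQ K z)
    (hT : ∀ z, Q z = 0 → z ≠ 0 → ∃ γ, TT hQ K z γ) {v : V} (hv : Q v = 0) (h0 : v ≠ 0) : False := by
  classical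
  obtain ⟨y, hy⟩ := hT v hv h0
  have hy0 : y ≠ 0 := fun h => hnoF v hv h0 (FF_of_TT_zero hF hQ (h ▸ hy))
  have hyv : y ≠ v := fun h => hnoF v hv h0 (FF_of_TT_self hF hQ (h ▸ hy))
  have hself : (1 : F) + 1 = 0 := add_self' hF 1
  obtain ⟨z₁, h1, h2⟩ := sep hF hQ h0 (Ne.symm hyv)
  obtain ⟨z₂, h3, h4⟩ := sep hF hQ hy0 hyv
  have hC : ({v, y} : Finset V).card < m := lt_of_le_of_lt Finset.card_le_two (by omega)
  obtain ⟨w, hw1, hw2⟩ := presc hF hQ hdim {v, y} hC z₁ 0
  have hvw : polar Q v w = 1 := by rw [hw1 v (by simp), h2]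
  have hyw : polar Q y w = 0 := by rw [hw1 y (by simp), h1]
  have hw0 : w ≠ 0 := by
    rintro rfl
    rw [polar_zero_right] at hvw
    exact zero_ne_one hvw
  have hwS : w ∉ Submodule.span F ({v, y} : Set V) := by
    intro h
    obtain ⟨c, d, hcd⟩ := Submodule.mem_span_pair.1 h
    rw [← hcd, polar_add_right, polar_smul_right, polar_smul_right, pol_self hF, hy.1] at hvw
    simp at hvw
  obtain ⟨z₃, hz₃, hz₃'⟩ := sepS hQ hwS
  have hz₃1 := eq_one_of_ne hF hz₃'
  rw [mem_Pq] at hz₃
  have hvz₃ : polar Q v z₃ = 0 := hz₃ v (Submodule.subset_span (by simp))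
  have hyz₃ : polar Q y z₃ = 0 := hz₃ y (Submodule.subset_span (by simp))
  set z₀ := z₁ + z₂ + (1 + polar Q w (z₁ + z₂)) • z₃ with hz₀
  have hC' : ({v, y, w} : Finset V).card < m := lt_of_le_of_lt Finset.card_le_three (by omega)
  obtain ⟨w', hw'1, hw'2⟩ := presc hF hQ hdim {v, y, w} hC' z₀ 0
  have e1 : polar Q v w' = 1 := by
    rw [hw'1 v (by simp), hz₀, polar_add_right, polar_add_right, polar_smul_right, h2, h3, hvz₃]
    simp
  have e2 : polar Q y w' = 1 := by
    rw [hw'1 y (by simp), hz₀, polar_add_right, polar_add_right, polar_smul_right, h1, h4, hyz₃]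
    simp
  have e3 : polar Q w w' = 1 := by
    rw [hw'1 w (by simp), hz₀, polar_add_right, polar_smul_right, hz₃1, smul_eq_mul, mul_one,
      add_left_comm, add_self' hF, add_zero]
  have hw'0 : w' ≠ 0 := by
    rintro rfl
    rw [polar_zero_right] at e1
    exact zero_ne_one e1
  have t1 : TT hQ K w y := TT_transfer hF hQ hm hdim hnoF hT hv hw2 hvw hy hyw hw0
  have t2 : TT hQ K w' (y + v) := TT_transfer hF hQ hm hdim hnoF hT hv hw'2 e1 (TT_add_self hF hQ hy hv)
    (by rw [polar_add_left, e2, e1, hself]) hw'0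
  have t3 : TT hQ K w' (y + w) := TT_transfer hF hQ hm hdim hnoF hT hw2 hw'2 e3 (TT_add_self hF hQ t1 hw2)
    (by rw [polar_add_left, e2, e3, hself]) hw'0
  rcases TT_unique hF hQ t2 t3 hw'0 with h | h
  · have h5 : w = v := add_left_cancel h
    rw [h5, pol_self hF] at hvw
    exact zero_ne_one hvw
  · have h5 : w = v + w' := by
      have : y + w = y + (v + w') := by rw [h, add_assoc]
      exact add_left_cancel this
    have h6 : Q w = Q v + Q w' + polar Q v w' := by rw [h5, Q_adds hF]
    rw [hw2, hv, hw'2, e1, zero_add, zero_add] at h6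
    exact zero_ne_one h6

include hF in
/-- If `K` has the shape `TT` everywhere, it is everything. -/
theorem top_of_T (hm : 4 ≤ m) (hdim : finrank F V = 2 * m)
    (hT : ∀ z, Q z = 0 → z ≠ 0 → ∃ γ, TT hQ K z γ) {v₀ : V} (hv₀ : Q v₀ = 0) (h0 : v₀ ≠ 0) : K = ⊤ := by
  classical
  by_cases hex : ∃ v, Q v = 0 ∧ v ≠ 0 ∧ FF hQ K v
  · obtain ⟨v, hv, hv0, hFv⟩ := hex
    obtain ⟨x, hx⟩ := exists_pol_one hF hQ hv0
    have hC : ({v} : Finset V).card < m := by
      rw [Finset.card_singleton]
      omega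
    obtain ⟨w, hw1, hw2⟩ := presc hF hQ hdim {v} hC x 0
    have hvw : polar Q v w = 1 := by rw [hw1 v (by simp), polar_comm, hx]
    have hwv : polar Q w v = 1 := by rw [polar_comm]; exact hvw
    have hw0 : w ≠ 0 := by
      rintro rfl
      rw [polar_zero_right] at hvw
      exact zero_ne_one hvw
    obtain ⟨β', hβ'⟩ := hT w hw2 hw0
    obtain ⟨β, hβ, hβv⟩ : ∃ β, TT hQ K w β ∧ polar Q β v = 0 := by
      by_cases h : polar Q β' v = 0
      · exact ⟨β', hβ', h⟩
      · have h1 := eq_one_of_ne hF h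
        exact ⟨β' + w, TT_add_self hF hQ hβ' hw2, by rw [polar_add_left, h1, hwv, add_self' hF]⟩
    have hβw : polar Q β w = 0 := by rw [polar_comm]; exact hβ.1
    have hYf : finrank F (Submodule.span F (({v, w, β} : Finset V) : Set V)) ≤ 3 :=
      (finrank_span_finset_le_card _).trans Finset.card_le_three
    have hsum := finrank_Pq hQ (Submodule.span F (({v, w, β} : Finset V) : Set V))
    rw [hdim] at hsum
    obtain ⟨a, haS, haQ, ha0, hac⟩ := exists_sing_avoid hF (Q := Q)
      (S := Pq Q (Submodule.span F (({v, w, β} : Finset V) : Set V))) (by omega) β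
    rw [mem_Pq] at haS
    have hva : polar Q v a = 0 := haS v (Submodule.subset_span (by simp))
    have hwa : polar Q w a = 0 := haS w (Submodule.subset_span (by simp))
    have hβa : polar Q β a = 0 := haS β (Submodule.subset_span (by simp))
    have hav : polar Q a v = 0 := by rw [polar_comm]; exact hva
    have haw : polar Q a w = 0 := by rw [polar_comm]; exact hwa
    have haY : a ∉ Submodule.span F (({v, w, β} : Finset V) : Set V) := by
      intro h
      have h1 : (({v, w, β} : Finset V) : Set V) = {v, w, β} := by simp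
      rw [h1, Submodule.mem_span_triple] at h
      obtain ⟨c, d, e, hcde⟩ := h
      have h2 : polar Q a v = d := by
        rw [← hcde, polar_add_left, polar_add_left, polar_smul_left, polar_smul_left, polar_smul_left,
          pol_self hF, hwv, hβv]
        simp
      have h3 : polar Q a w = c := by
        rw [← hcde, polar_add_left, polar_add_left, polar_smul_left, polar_smul_left, polar_smul_left,
          pol_self hF, hvw, hβw]
        simp
      rw [hav] at h2
      rw [haw] at h3
      rw [← h2, ← h3, zero_smul, zero_smul, zero_add, zero_add] at hcde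
      rcases zero_or_one hF e with h4 | h4
      · rw [h4, zero_smul] at hcde
        exact ha0 hcde.symm
      · rw [h4, one_smul] at hcde
        exact hac hcde.symm
    obtain ⟨z₀, hz₀, hz₀'⟩ := sepS hQ haY
    have hz₀1 := eq_one_of_ne hF hz₀'
    rw [mem_Pq] at hz₀
    have hC4 : ({v, w, β, a} : Finset V).card ≤ m := Finset.card_le_four.trans hm
    obtain ⟨s, s', hs, hs', hss⟩ := exists_hyp_perp hF hQ hdim hC4 (v := v) (w := w) (by simp) (by simp) hvw
    obtain ⟨a', ha'1, ha'2⟩ := presc_hyp hF hs hs' hss z₀ 0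
    have hva' : polar Q v a' = 0 := by
      rw [ha'1 v (by simp)]
      exact hz₀ v (Submodule.subset_span (by simp))
    have hwa' : polar Q w a' = 0 := by
      rw [ha'1 w (by simp)]
      exact hz₀ w (Submodule.subset_span (by simp))
    have hβa' : polar Q β a' = 0 := by
      rw [ha'1 β (by simp)]
      exact hz₀ β (Submodule.subset_span (by simp))
    have haa' : polar Q a a' = 1 := by
      rw [ha'1 a (by simp)]
      exact hz₀1
    have hFa := FF_of_hyp hF hQ hv hw2 hvw haQ hav haw hβa hFv hβ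
    have hFa' := FF_of_hyp hF hQ hv hw2 hvw ha'2 (by rw [polar_comm]; exact hva')
      (by rw [polar_comm]; exact hwa') hβa' hFv hβ
    exact top_of_allFF hQ (fun z hz hz0 => all_FF hF hQ hm hdim haQ ha'2 haa' hFa hFa' hz hz0)
  · push Not at hex
    exact (noF_false hF hQ hm hdim (fun z hz hz0 => hex z hz hz0) hT hv₀ h0).elim

end Cfsg.Agent.Lib.OmPlusIdx
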