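import Mathlib
import Cfsg.Agent.Lib.OmPlusIdxF

/-!
# The group `Ω⁺_{2m}(2)`: no subgroup meets all Siegel groups trivially with small index
-/

set_option autoImplicit false
set_option linter.unusedSectionVars false
set_option linter.unusedVariables false

namespace Cfsg.Agent.Lib.OmPlusIdx

open QuadraticMap Cfsg.Agent.Lib.OrthoBasic Cfsg.Agent.Lib.OrthoSiegel Module Pointwise

variable {F : Type*} [Field F] [Fintype F] {V : Type*} [AddCommGroup V] [Module F V]
  [FiniteDimensional F V] {Q : QuadraticForm F V}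

variable (hF : Fintype.card F = 2) (hQ : Nondeg Q)

section Tau

variable {x y : V}

include hF hQ in
/-- The element of order three. -/
lemma exists_tau {m : ℕ} (hm : 3 ≤ m) (hdim : finrank F V = 2 * m) (hx : Q x = 1) (hy : Q y = 1)
    (hxy : polar Q x y = 1) :
    ∃ τ : GG Q, ∀ c, τ • c = c + polar Q c y • y + (polar Q c x + polar Q c y) • x := by
  refine ⟨⟨_, refl_mul_refl_mem hF hQ hm hdim hx hy⟩, fun c => ?_⟩
  show ((Cfsg.Agent.Lib.OrthoGen.refl hQ (by rw [hx]; exact one_ne_zero) *
      Cfsg.Agent.Lib.OrthoGen.refl hQ (by rw [hy]; exact one_ne_zero) : OG Q) : V ≃ₗ[F] V) c = _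
  rw [Subgroup.coe_mul, LinearEquiv.mul_apply, refl_smul hF hQ, refl_smul hF hQ, polar_add_left, polar_smul_left,
    polar_comm Q y x, hxy, smul_eq_mul, mul_one]

variable {τ : GG Q} (hτ : ∀ c, τ • c = c + polar Q c y • y + (polar Q c x + polar Q c y) • x)

include hF hτ in
lemma tau_pol_y (hxy : polar Q x y = 1) (c : V) : polar Q (τ • c) y = polar Q c x := by
  rw [hτ, polar_add_left, polar_add_left, polar_smul_left, polar_smul_left, pol_self hF, hxy]
  simp only [smul_eq_mul, mul_zero, add_zero, mul_one]
  have := add_self' hF (polar Q c y)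
  linear_combination this

include hF hτ in
lemma tau_pol_x (hxy : polar Q x y = 1) (c : V) : polar Q (τ • c) x = polar Q c x + polar Q c y := by
  rw [hτ, polar_add_left, polar_add_left, polar_smul_left, polar_smul_left, pol_self hF, polar_comm Q y x, hxy]
  simp only [smul_eq_mul, mul_zero, add_zero, mul_one]

include hF hτ in
lemma tau_two (hxy : polar Q x y = 1) (c : V) : τ • τ • c = τ • c + polar Q c x • y + polar Q c y • x := by
  rw [hτ (τ • c), tau_pol_y hF hτ hxy, tau_pol_x hF hτ hxy]
  have h6 : ∀ (t : F) (z : V), t • z + t • z = 0 := fun t z => vadd_self hF _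
  generalize τ • c = t
  linear_combination (norm := module) h6 (polar Q c x) x

include hF hτ in
lemma tau_sum (hxy : polar Q x y = 1) (c : V) :
    τ • c + τ • τ • c + c = c + polar Q c x • y + polar Q c y • x := by
  rw [tau_two hF hτ hxy]
  have h6 : ∀ z : V, z + z = 0 := fun z => vadd_self hF _
  have h7 := h6 (τ • c)
  generalize τ • c = t at h7 ⊢
  linear_combination (norm := module) h7

include hF hτ in
lemma tau_three (hxy : polar Q x y = 1) (c : V) : τ • τ • τ • c = c := by
  rw [tau_two hF hτ hxy (τ • c), tau_pol_y hF hτ hxy, tau_pol_x hF hτ hxy, tau_two hF hτ hxy, hτ c]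
  have h6 : ∀ (t : F) (z : V), t • z + t • z = 0 := fun t z => vadd_self hF _
  linear_combination (norm := module) h6 (polar Q c x) y + h6 (polar Q c y) y + h6 (polar Q c x) x +
    h6 (polar Q c y) x

end Tau

section Comm

include hF in
/-- Two commuting-type Siegel elements. -/
lemma Es_comm_Es {v a u w : V} (hv : Q v = 0) (ha : Q a = 0) (hva : polar Q v a = 0) (hvu : polar Q v u = 0)
    (hau : polar Q a u = 0) (hw : polar Q v w = 0) :
    Es hQ a u * Es hQ v w = Es hQ v (Es hQ a u • w) * Es hQ a u := by
  have h1 := Es_conj hQ hF (Es hQ a u) hv hw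
  rw [Es_smul_perp hQ hF ha hau hva, hvu, zero_smul, add_zero] at h1
  exact mul_inv_eq_iff_eq_mul.1 h1

include hF in
lemma Es_pol_smul {v a u w : V} (ha : Q a = 0) (hva : polar Q v a = 0) (hvu : polar Q v u = 0)
    (hau : polar Q a u = 0) (hw : polar Q v w = 0) : polar Q v (Es hQ a u • w) = 0 := by
  have h1 := pol_smul (Es hQ a u) v w
  rw [Es_smul_perp hQ hF ha hau hva, hvu, zero_smul, add_zero] at h1
  rw [h1, hw]

include hF in
/-- The product rule. -/
lemma hh_mul {v a u u' w w' : V} (hv : Q v = 0) (ha : Q a = 0) (hva : polar Q v a = 0) (hau : polar Q a u = 0)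
    (hvu' : polar Q v u' = 0) (hau' : polar Q a u' = 0) (hw : polar Q v w = 0) (hw' : polar Q v w' = 0) :
    Es hQ a u * Es hQ v w * (Es hQ a u' * Es hQ v w') = Es hQ a (u + u') * Es hQ v (Es hQ a u' • w + w') := by
  have h1 : Es hQ v w * Es hQ a u' = Es hQ a u' * Es hQ v (Es hQ a u' • w) := by
    have h2 := Es_comm_Es hF hQ hv ha hva hvu' hau' (Es_pol_smul hF hQ ha hva hvu' hau' hw)
    rw [← mul_smul, Es_mul_self hQ hF ha hau', one_smul] at h2
    exact h2.symm
  rw [← Es_mul hQ hF ha hau hau', ← Es_mul hQ hF hv (Es_pol_smul hF hQ ha hva hvu' hau' hw) hw']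
  calc Es hQ a u * Es hQ v w * (Es hQ a u' * Es hQ v w') = Es hQ a u * (Es hQ v w * Es hQ a u') * Es hQ v w' := by
        group
    _ = _ := by
        rw [h1]
        group

include hF in
/-- Siegel elements in a totally singular plane. -/
lemma Es_swap_smul {v a : V} (hv : Q v = 0) (ha : Q a = 0) (hva : polar Q v a = 0) (ε : F) :
    Es hQ v (ε • a) = Es hQ a (ε • v) := by
  rcases zero_or_one hF ε with rfl | rfl
  · rw [zero_smul, zero_smul, Es_zero hQ hF hv, Es_zero hQ hF ha]
  · rw [one_smul, one_smul]
    exact Es_symm hQ hF hv hva ha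

include hF in
lemma Es_add_self' {v w : V} (hv : Q v = 0) (hw : polar Q v w = 0) (ε : F) :
    Es hQ v (w + ε • v) = Es hQ v w := by
  rcases zero_or_one hF ε with rfl | rfl
  · rw [zero_smul, add_zero]
  · rw [one_smul, Es_add_self hQ hF hv hw]

include hF in
lemma Es_swap_self {a : V} (ha : Q a = 0) : Es hQ a a = 1 := Es_self hQ hF ha

end Comm

section Main

variable (K : Subgroup (GG Q))

/-- `K` meets the Siegel group with centre `v` trivially. -/
def RR (v : V) : Prop := ∀ u, polar Q v u = 0 → Es hQ v u ∈ K → u = 0 ∨ u = v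

variable {K}

include hF in
/-- No subgroup with the factorization property meets all Siegel groups trivially. -/
theorem all_R_false (hR : ∀ w, Q w = 0 → w ≠ 0 → RR hQ K w) {v a x y : V} (hv : Q v = 0) (ha : Q a = 0)
    (hva : polar Q v a = 0) (hv0 : v ≠ 0) (ha0 : a ≠ 0) (hav : a ≠ v) (hx : Q x = 1) (hxy : polar Q x y = 1)
    (vx : polar Q v x = 0) (vy : polar Q v y = 0) (ax : polar Q a x = 0) (ay : polar Q a y = 0)
    {τ : GG Q} (hτ : ∀ c, τ • c = c + polar Q c y • y + (polar Q c x + polar Q c y) • x)
    (hfac : ∀ g : GG Q, ∃ u, polar Q v u = 0 ∧ g * Es hQ v u ∈ K) : False := by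
  have h2 : (2 : F) = 0 := two0 hF
  have hself : ∀ t : F, t + t = 0 := add_self' hF
  have vself : ∀ t : V, t + t = 0 := vadd_self hF
  have av : polar Q a v = 0 := by rw [polar_comm]; exact hva
  have xv : polar Q x v = 0 := by rw [polar_comm]; exact vx
  have yv : polar Q y v = 0 := by rw [polar_comm]; exact vy
  have xa : polar Q x a = 0 := by rw [polar_comm]; exact ax
  have ya : polar Q y a = 0 := by rw [polar_comm]; exact ay
  -- `x` is not in the plane
  have hcomb : ∀ r s : F, Q (r • a + s • v) = 0 := by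
    intro r s
    rw [Q_adds hF, polar_smul_left, polar_smul_right, av, QuadraticMap.map_smul, QuadraticMap.map_smul, ha, hv]
    simp
  have xne : ∀ r s : F, x ≠ r • a + s • v := by
    intro r s h
    rw [h, hcomb] at hx
    exact zero_ne_one hx
  -- the fixed points of `τ`
  have τv : τ • v = v := by rw [hτ, vy, vx, zero_smul, add_zero, add_zero, zero_smul, add_zero]
  have τa : τ • a = a := by rw [hτ, ay, ax, zero_smul, add_zero, add_zero, zero_smul, add_zero]
  have τcomm : ∀ w, polar Q v w = 0 → τ * Es hQ v w = Es hQ v (τ • w) * τ := by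
    intro w hw
    have h3 := Es_conj hQ hF τ hv hw
    rw [τv] at h3
    exact mul_inv_eq_iff_eq_mul.1 h3
  have τpol : ∀ w, polar Q v w = 0 → polar Q v (τ • w) = 0 := by
    intro w hw
    have h3 := pol_smul τ v w
    rw [τv] at h3
    rw [h3, hw]
  have τpola : ∀ w, polar Q a w = 0 → polar Q a (τ • w) = 0 := by
    intro w hw
    have h3 := pol_smul τ a w
    rw [τa] at h3
    rw [h3, hw]
  -- the lift of `τ`
  obtain ⟨d, hd, hk⟩ := hfac τ
  have hd1 := τpol d hd
  have hd2 := τpol _ hd1
  have hk3 : Es hQ v (τ • d + τ • τ • d + d) ∈ K := by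
    have h3 := mul_mem (mul_mem hk hk) hk
    have h4 : τ * Es hQ v d * (τ * Es hQ v d) * (τ * Es hQ v d) =
        Es hQ v (τ • d) * Es hQ v (τ • τ • d) * Es hQ v d := by
      have e1 := τcomm d hd
      have e2 := τcomm _ hd1
      have e3 := τcomm _ hd2
      rw [tau_three hF hτ hxy] at e3
      have e4 : τ * τ * τ = 1 := by
        apply GG_ext
        intro c
        rw [mul_smul, mul_smul, one_smul, tau_three hF hτ hxy]
      calc τ * Es hQ v d * (τ * Es hQ v d) * (τ * Es hQ v d)
          = Es hQ v (τ • d) * τ * (Es hQ v (τ • d) * τ) * (Es hQ v (τ • d) * τ) := by rw [e1]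
        _ = Es hQ v (τ • d) * (τ * Es hQ v (τ • d)) * τ * (Es hQ v (τ • d) * τ) := by simp only [mul_assoc]
        _ = Es hQ v (τ • d) * (Es hQ v (τ • τ • d) * τ) * τ * (Es hQ v (τ • d) * τ) := by rw [e2]
        _ = Es hQ v (τ • d) * Es hQ v (τ • τ • d) * τ * (τ * Es hQ v (τ • d)) * τ := by simp only [mul_assoc]
        _ = Es hQ v (τ • d) * Es hQ v (τ • τ • d) * τ * (Es hQ v (τ • τ • d) * τ) * τ := by rw [e2]
        _ = Es hQ v (τ • d) * Es hQ v (τ • τ • d) * (τ * Es hQ v (τ • τ • d)) * τ * τ := by simp only [mul_assoc]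
        _ = Es hQ v (τ • d) * Es hQ v (τ • τ • d) * (Es hQ v d * τ) * τ * τ := by rw [e3]
        _ = Es hQ v (τ • d) * Es hQ v (τ • τ • d) * Es hQ v d * (τ * τ * τ) := by simp only [mul_assoc]
        _ = _ := by rw [e4, mul_one]
    rw [h4, Es_mul hQ hF hv hd1 hd2, Es_mul hQ hF hv (by rw [polar_add_right, hd1, hd2, add_zero]) hd] at h3
    exact h3
  have hd3 : τ • d + τ • τ • d + d = 0 ∨ τ • d + τ • τ • d + d = v :=
    hR v hv hv0 _ (by rw [polar_add_right, polar_add_right, hd1, hd2, hd, add_zero, add_zero]) hk3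
  rw [tau_sum hF hτ hxy] at hd3
  have hpold : polar Q a d = 0 := by
    have hh : polar Q a (d + polar Q d x • y + polar Q d y • x) = 0 := by
      rcases hd3 with h3 | h3
      · rw [h3, polar_zero_right]
      · rw [h3]
        exact av
    rw [polar_add_right, polar_add_right, polar_smul_right, polar_smul_right, ay, ax] at hh
    simpa using hh
  -- the action of `k`
  obtain ⟨k, hkk⟩ : ∃ k, k = τ * Es hQ v d := ⟨_, rfl⟩
  rw [← hkk] at hk
  have kact : ∀ u, polar Q u v = 0 → k • u = τ • u + polar Q u d • v := by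
    intro u hu
    rw [hkk, mul_smul, Es_smul_perp hQ hF hv hd hu, smul_add, smul_comm, τv]
  have kv : k • v = v := by
    rw [kact v (pol_self hF v), τv, hd, zero_smul, add_zero]
  have ka : k • a = a := by
    rw [kact a av, τa, hpold, zero_smul, add_zero]
  -- conjugation by `k`
  have kconj : ∀ u w, polar Q v u = 0 → polar Q a u = 0 → polar Q v w = 0 →
      k * (Es hQ a u * Es hQ v w) * k⁻¹ = Es hQ a (τ • u) * Es hQ v (τ • w + polar Q u d • a) := by
    intro u w hvu hau hw
    have h3 : k * (Es hQ a u * Es hQ v w) * k⁻¹ = (k * Es hQ a u * k⁻¹) * (k * Es hQ v w * k⁻¹) := by group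
    have huv : polar Q u v = 0 := by rw [polar_comm]; exact hvu
    have hwv : polar Q w v = 0 := by rw [polar_comm]; exact hw
    have h4 : polar Q a (polar Q u d • v) = 0 := by rw [polar_smul_right, av, smul_zero]
    have h5 : polar Q a (τ • u) = 0 := τpola u hau
    rw [h3, Es_conj hQ hF k ha hau, Es_conj hQ hF k hv hw, ka, kv, kact u huv, kact w hwv,
      ← Es_mul hQ hF ha h5 h4, Es_add_self' hF hQ hv (τpol w hw) (polar Q w d), ← Es_swap_smul hF hQ hv ha hva,
      mul_assoc, Es_mul hQ hF hv (by rw [polar_smul_right, hva, smul_zero]) (τpol w hw), add_comm]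
  -- the lift of `Es a x`
  obtain ⟨c, hc, hg⟩ := hfac (Es hQ a x)
  have hEx : Es hQ a x • c = c + polar Q c a • x + (polar Q c x + polar Q c a) • a := by
    rw [Es_smul hQ hF ha ax, hx, one_mul]
  have hg2 : Es hQ v (Es hQ a x • c + c) ∈ K := by
    have h3 := mul_mem hg hg
    rw [hh_mul hF hQ hv ha hva ax vx ax hc hc, vself, Es_zero hQ hF ha, one_mul] at h3
    exact h3
  have hg3 := hR v hv hv0 _ (by
    rw [polar_add_right, Es_pol_smul hF hQ ha hva vx ax hc, hc, add_zero]) hg2
  have hg4 : Es hQ a x • c + c = polar Q c a • x + (polar Q c x + polar Q c a) • a := by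
    rw [hEx]
    linear_combination (norm := module) vself c
  rw [hg4] at hg3
  have hca : polar Q c a = 0 := by
    by_contra hne
    have h1 := eq_one_of_ne hF hne
    rw [h1, one_smul] at hg3
    rcases hg3 with h3 | h3
    · exact xne (polar Q c x + 1) 0 (by
        rw [zero_smul, add_zero]
        exact eq_of_add_zero hF h3)
    · refine xne (polar Q c x + 1) 1 ?_
      rw [one_smul, ← h3, add_left_comm, vself, add_zero]
  rw [hca, zero_smul, zero_add, add_zero] at hg3
  have hcx : polar Q c x = 0 := by
    by_contra hne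
    have h1 := eq_one_of_ne hF hne
    rw [h1, one_smul] at hg3
    rcases hg3 with h3 | h3
    · exact ha0 h3
    · exact hav h3
  have cperp : polar Q a c = 0 := by rw [polar_comm]; exact hca
  -- the three conjugates
  have hτc := τpol c hc
  have hτx := τpol x vx
  have hτax := τpola x ax
  have hττx := τpol _ hτx
  have hττax := τpola _ hτax
  have hg1 := kconj x c vx ax hc
  have hm1 : Es hQ a (τ • x) * Es hQ v (τ • c + polar Q x d • a) ∈ K := by
    rw [← hg1]
    exact mul_mem (mul_mem hk hg) (inv_mem hk)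
  have hw1 : polar Q v (τ • c + polar Q x d • a) = 0 := by
    rw [polar_add_right, polar_smul_right, hτc, hva, smul_zero, add_zero]
  have hg5 := kconj (τ • x) (τ • c + polar Q x d • a) hτx hτax hw1
  have hm2 : Es hQ a (τ • τ • x) * Es hQ v (τ • (τ • c + polar Q x d • a) + polar Q (τ • x) d • a) ∈ K := by
    rw [← hg5]
    exact mul_mem (mul_mem hk hm1) (inv_mem hk)
  have hw2 : polar Q v (τ • (τ • c + polar Q x d • a) + polar Q (τ • x) d • a) = 0 := by
    rw [polar_add_right, polar_smul_right, τpol _ hw1, hva, smul_zero, add_zero]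
  -- the product
  have hprod := mul_mem (mul_mem hg hm1) hm2
  rw [hh_mul hF hQ hv ha hva ax hτx hτax hc hw1, hh_mul hF hQ hv ha hva (by
    rw [polar_add_right, ax, hτax, add_zero]) hττx hττax (by
    rw [polar_add_right, Es_pol_smul hF hQ ha hva hτx hτax hc, hw1, add_zero]) hw2] at hprod
  have hsum0 : x + τ • x + τ • τ • x = 0 := by
    have h3 := tau_sum hF hτ hxy x
    rw [pol_self hF, hxy, zero_smul, one_smul, add_zero, vself] at h3
    rw [← h3]
    abel
  rw [hsum0, Es_zero hQ hF ha, one_mul] at hprod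
  -- the element of `Q_v` so obtained
  have hform : ∃ β : F, Es hQ a (τ • τ • x) • (Es hQ a (τ • x) • c + (τ • c + polar Q x d • a)) +
      (τ • (τ • c + polar Q x d • a) + polar Q (τ • x) d • a) = τ • c + τ • τ • c + c + β • a := by
    have e1 : Es hQ a (τ • x) • c = c + polar Q c (τ • x) • a := by
      rw [Es_smul hQ hF ha hτax, hca, Q_smul', hx]
      simp
    have e2 : τ • (τ • c + polar Q x d • a) = τ • τ • c + polar Q x d • a := by
      rw [smul_add, smul_comm τ (polar Q x d) a, τa]
    have e3 : polar Q a (c + polar Q c (τ • x) • a + (τ • c + polar Q x d • a)) = 0 := by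
      rw [polar_add_right, polar_add_right, polar_add_right, polar_smul_right, polar_smul_right, pol_self hF, cperp,
        τpola c cperp]
      simp
    rw [e1, e2, Es_smul hQ hF ha hττax]
    have e4 : polar Q (c + polar Q c (τ • x) • a + (τ • c + polar Q x d • a)) a = 0 := by
      rw [polar_comm]
      exact e3
    rw [e4]
    refine ⟨polar Q c (τ • x) + polar Q x d + polar Q (c + polar Q c (τ • x) • a + (τ • c + polar Q x d • a)) (τ • τ • x) +
      polar Q x d + polar Q (τ • x) d, ?_⟩
    simp only [zero_smul, mul_zero, add_zero]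
    generalize τ • τ • c = t₂
    generalize τ • c = t₁
    module
  obtain ⟨β, hβ⟩ := hform
  rw [hβ] at hprod
  have hfin := hR v hv hv0 _ (by
    rw [← hβ, polar_add_right, Es_pol_smul hF hQ ha hva hττx hττax (by
      rw [polar_add_right, Es_pol_smul hF hQ ha hva hτx hτax hc, hw1, add_zero]), hw2, add_zero]) hprod
  rw [tau_sum hF hτ hxy, hcx, zero_smul, add_zero] at hfin
  -- so `c` is in the plane spanned by `x, a, v`
  have hcform : ∃ ε : F, c = polar Q c y • x + β • a + ε • v := by
    rcases hfin with h3 | h3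
    · refine ⟨0, ?_⟩
      rw [zero_smul, add_zero]
      have h4 : c + (polar Q c y • x + β • a) = 0 := by rw [← h3]; abel
      exact eq_of_add_zero hF h4
    · refine ⟨1, ?_⟩
      rw [one_smul, ← h3]
      linear_combination (norm := module) - vself (polar Q c y • x) - vself (β • a)
  obtain ⟨ε, hε⟩ := hcform
  have hq : polar Q c y = 0 ∨ polar Q c y = 1 := zero_or_one hF _
  have hpv1 : ∀ z, polar Q v z = 0 → Es hQ v (z + ε • v) = Es hQ v z := fun z hz => Es_add_self' hF hQ hv hz ε
  have hβa : polar Q v (β • a) = 0 := by rw [polar_smul_right, hva, smul_zero]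
  rcases hq with hq | hq
  · -- first case
    rw [hq, zero_smul, zero_add] at hε
    rw [hε, hpv1 _ hβa, Es_swap_smul hF hQ hv ha hva, Es_mul hQ hF ha ax (by
      rw [polar_smul_right, av, smul_zero])] at hg
    rcases hR a ha ha0 _ (by rw [polar_add_right, polar_smul_right, av, smul_zero, ax, add_zero]) hg with h3 | h3
    · refine xne 0 β ?_
      rw [zero_smul, zero_add]
      exact eq_of_add_zero hF h3
    · refine xne 1 β ?_
      rw [one_smul, ← h3, add_assoc, vself, add_zero]
  · -- second case
    rw [hq, one_smul] at hε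
    have hp1 : polar Q v (x + β • a) = 0 := by rw [polar_add_right, vx, hβa, add_zero]
    have hav0 : a + v ≠ 0 := fun h => hav (eq_of_add_zero hF h)
    have hQav : Q (a + v) = 0 := by rw [Q_adds hF, ha, hv, av, add_zero, add_zero]
    have hEv : Es hQ v (β • a) = Es hQ (a + v) (β • a) := by
      have h3 := Es_add_center hQ hF (u := β • a) ha hv av (by rw [polar_smul_right, pol_self hF, smul_zero]) hβa
      have h4 : Es hQ a (β • a) = 1 := by
        rcases zero_or_one hF β with h5 | h5
        · rw [h5, zero_smul, Es_zero hQ hF ha]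
        · rw [h5, one_smul, Es_self hQ hF ha]
      rw [h4, one_mul, QuadraticMap.map_smul, ha] at h3
      simpa using h3
    have hpx : polar Q (a + v) (x + a) = 0 := by
      rw [polar_add_left, polar_add_right, polar_add_right, ax, pol_self hF, vx, hva, add_zero, add_zero]
    have hpb : polar Q (a + v) (β • a) = 0 := by
      rw [polar_add_left, polar_smul_right, polar_smul_right, pol_self hF, hva]
      simp
    rw [hε, hpv1 _ hp1, ← Es_mul hQ hF hv vx hβa, ← mul_assoc, Es_add_center hQ hF ha hv av ax vx, hx, one_smul, hEv,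
      Es_mul hQ hF hQav hpx hpb] at hg
    rcases hR (a + v) hQav hav0 _ (by rw [polar_add_right, hpx, hpb, add_zero]) hg with h3 | h3
    · refine xne (1 + β) 0 ?_
      rw [zero_smul, add_zero]
      have h4 : x + ((1 + β) • a) = 0 := by
        rw [← h3]
        module
      exact eq_of_add_zero hF h4
    · refine xne β 1 ?_
      rw [one_smul]
      have h4 : x + a + β • a + (a + β • a) = a + v + (a + β • a) := by rw [h3]
      have h5 : x + a + β • a + (a + β • a) = x := by
        linear_combination (norm := module) vself a + vself (β • a)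
      rw [h5] at h4
      rw [h4]
      linear_combination (norm := module) vself a
      
end Main

end Cfsg.Agent.Lib.OmPlusIdx
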