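import Mathlib
import Cfsg.Agent.Lib.OmPlusIdxG

/-!
# The group `Ω⁺_{2m}(2)`: the minimal index
-/

set_option autoImplicit false
set_option linter.unusedSectionVars false
set_option linter.unusedVariables false

namespace Cfsg.Agent.Lib.OmPlusIdx

open QuadraticMap Cfsg.Agent.Lib.OrthoBasic Cfsg.Agent.Lib.OrthoSiegel Module Pointwise

variable {F : Type*} [Field F] [Fintype F] {V : Type*} [AddCommGroup V] [Module F V]
  [FiniteDimensional F V] {Q : QuadraticForm F V}

variable (hF : Fintype.card F = 2) (hQ : Nondeg Q) {K : Subgroup (GG Q)}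

lemma finrank_pos_mem {S : Submodule F V} {v : V} (hv : v ∈ S) (h0 : v ≠ 0) : 1 ≤ finrank F S := by
  rw [Submodule.one_le_finrank_iff]
  rintro rfl
  exact h0 (by simpa using hv)

include hF in
/-- A one-dimensional subspace containing `v`. -/
lemma mem_of_finrank_one {S : Submodule F V} {v : V} (hv : v ∈ S) (h0 : v ≠ 0) (h1 : finrank F S = 1) {u : V}
    (hu : u ∈ S) : u = 0 ∨ u = v := by
  have hne : (⟨v, hv⟩ : S) ≠ 0 := fun h => h0 (congrArg Subtype.val h)
  obtain ⟨c, hc⟩ := (finrank_eq_one_iff_of_nonzero' (⟨v, hv⟩ : S) hne).1 h1 ⟨u, hu⟩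
  have h2 : c • v = u := congrArg Subtype.val hc
  rcases zero_or_one hF c with rfl | rfl
  · left
    rw [← h2, zero_smul]
  · right
    rw [← h2, one_smul]

include hF in
lemma RR_of_finrank {v : V} (hv : Q v = 0) (h0 : v ≠ 0) (h1 : finrank F (YY hF hQ K v) = 1) : RR hQ K v :=
  fun u hu h => mem_of_finrank_one hF (v_mem_YY hF hQ hv) h0 h1 ((mem_YY hF hQ K).2 ⟨hu, h⟩)

include hF in
lemma FF_of_finrank {v : V} (hv : Q v = 0) (h0 : v ≠ 0) (h1 : finrank F (Pq Q (YY hF hQ K v)) = 1) :
    FF hQ K v := by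
  intro u hu
  have h2 : u ∈ Pq Q (Pq Q (YY hF hQ K v)) := by
    rw [mem_Pq]
    intro z hz
    rcases mem_of_finrank_one hF (v_mem_ZZ hF hQ) h0 h1 hz with rfl | rfl
    · exact polar_zero_left _ _
    · exact hu
  rw [Pq_Pq hQ] at h2
  exact ((mem_YY hF hQ K).1 h2).2

lemma TT_zero_of_FF {v : V} (h : FF hQ K v) : TT hQ K v 0 :=
  ⟨polar_zero_right _ _, fun u hu => ⟨fun _ => polar_zero_left _ _, fun _ => h u hu⟩⟩

variable [Fintype V] [DecidableEq V]

include hF in
/-- In the case of a plane `Z`, the form of `K` at `v` is given by a vector. -/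
lemma TT_of_finrank2 {v : V} (hv : Q v = 0) (h0 : v ≠ 0) (h1 : finrank F (Pq Q (YY hF hQ K v)) = 2) :
    ∃ α, TT hQ K v α := by
  classical
  have h4 : (toF (Pq Q (YY hF hQ K v))).card = 4 := by
    rw [card_toF_pow hF, h1]
    norm_num
  obtain ⟨α, hα, hα0, hαv⟩ := exists_elem (v := v) (S := Pq Q (YY hF hQ K v)) (by omega)
  have hαZ := mem_toF.1 hα
  refine ⟨α, ZZ_perp hF hQ hv hαZ, fun u hu => ⟨fun h => ?_, fun h => ?_⟩⟩
  · have h2 : u ∈ YY hF hQ K v := (mem_YY hF hQ K).2 ⟨hu, h⟩
    have h3 := (mem_Pq.1 hαZ) u h2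
    rw [polar_comm]
    exact h3
  · have hvZ := v_mem_ZZ hF hQ (K := K) (v := v)
    have hsub : ({0, v, α, α + v} : Finset V) ⊆ toF (Pq Q (YY hF hQ K v)) := by
      intro t ht
      simp only [Finset.mem_insert, Finset.mem_singleton] at ht
      rcases ht with rfl | rfl | rfl | rfl
      · exact mem_toF.2 (Submodule.zero_mem _)
      · exact mem_toF.2 hvZ
      · exact hα
      · exact mem_toF.2 (Submodule.add_mem _ hαZ hvZ)
    have hc : ({0, v, α, α + v} : Finset V).card = 4 := by
      rw [Finset.card_insert_of_notMem, Finset.card_insert_of_notMem, Finset.card_insert_of_notMem,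
        Finset.card_singleton]
      · simp only [Finset.mem_singleton]
        intro h5
        exact h0 (left_eq_add.1 h5)
      · simp only [Finset.mem_insert, Finset.mem_singleton, not_or]
        refine ⟨Ne.symm hαv, fun h5 => hα0 ?_⟩
        exact right_eq_add.1 h5
      · simp only [Finset.mem_insert, Finset.mem_singleton, not_or]
        refine ⟨Ne.symm h0, Ne.symm hα0, fun h5 => hαv (eq_of_add_zero hF h5.symm)⟩
    have heq := Finset.eq_of_subset_of_card_le hsub (by rw [hc, h4])
    have h5 : u ∈ Pq Q (Pq Q (YY hF hQ K v)) := by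
      rw [mem_Pq]
      intro z hz
      have h6 : z ∈ ({0, v, α, α + v} : Finset V) := by
        rw [heq]
        exact mem_toF.2 hz
      simp only [Finset.mem_insert, Finset.mem_singleton] at h6
      rcases h6 with rfl | rfl | rfl | rfl
      · exact polar_zero_left _ _
      · exact hu
      · exact h
      · rw [polar_add_left, h, hu, add_zero]
    rw [Pq_Pq hQ] at h5
    exact ((mem_YY hF hQ K).1 h5).2

include hF in
/-- `RR` is invariant under `K`. -/
lemma RR_of_smul {k : GG Q} (hk : k ∈ K) {v : V} (hv : Q v = 0) (h : RR hQ K (k • v)) : RR hQ K v := by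
  intro u hu h1
  have h2 := Es_conj hQ hF k hv hu
  have h3 : Es hQ (k • v) (k • u) ∈ K := by
    rw [← h2]
    exact mul_mem (mul_mem hk h1) (inv_mem hk)
  have h4 : polar Q (k • v) (k • u) = 0 := by rw [pol_smul, hu]
  rcases h _ h4 h3 with h5 | h5
  · left
    exact (smul_eq_zero_iff_eq k).1 h5
  · right
    exact smul_left_cancel k h5

variable {m : ℕ}

include hF in
/-- When `K` meets all Siegel groups trivially and has small index, it complements them. -/
lemma fact_of_R (hm : 4 ≤ m) (hdim : finrank F V = 2 * m) (hR : ∀ w, Q w = 0 → w ≠ 0 → RR hQ K w) {v : V}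
    (hv : Q v = 0) (h0 : v ≠ 0) (hidx : K.index < 4 * 2 ^ (2 * m - 3)) (g : GG Q) :
    ∃ u, polar Q v u = 0 ∧ g * Es hQ v u ∈ K := by
  classical
  have hW := card_Wf hF hQ hm hdim h0
  let φ : GG Q → V → GG Q ⧸ K := fun h u => ((Es hQ v u * h : GG Q) : GG Q ⧸ K)
  have himg : ∀ h : GG Q, 2 * 2 ^ (2 * m - 3) ≤ ((Wf Q v).image (φ h)).card := by
    intro h
    have h1 : (Wf Q v).card ≤ 2 * ((Wf Q v).image (φ h)).card := by
      apply Finset.card_le_mul_card_image
      intro b hb
      obtain ⟨u₀, hu₀, rfl⟩ := Finset.mem_image.1 hb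
      have hu₀' := mem_Wf.1 hu₀
      have hsub : (Wf Q v).filter (fun u => φ h u = φ h u₀) ⊆ {u₀, u₀ + v} := by
        intro u hu
        obtain ⟨hu1, hu2⟩ := Finset.mem_filter.1 hu
        have hu1' := mem_Wf.1 hu1
        have h3 : (Es hQ v u * h)⁻¹ * (Es hQ v u₀ * h) ∈ K := QuotientGroup.eq.1 hu2
        have hsum : polar Q v (u + u₀) = 0 := by rw [polar_add_right, hu1', hu₀', add_zero]
        have h4 : (Es hQ v u * h)⁻¹ * (Es hQ v u₀ * h) = h⁻¹ * Es hQ v (u + u₀) * h := by
          rw [_root_.mul_inv_rev, Es_inv hQ hF hv hu1', ← Es_mul hQ hF hv hu1' hu₀']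
          group
        rw [h4] at h3
        have h5 := Es_conj hQ hF h⁻¹ hv hsum
        rw [inv_inv] at h5
        rw [h5] at h3
        have h6 : polar Q (h⁻¹ • v) (h⁻¹ • (u + u₀)) = 0 := by rw [pol_smul, hsum]
        have h7 : h⁻¹ • v ≠ 0 := fun h8 => h0 ((smul_eq_zero_iff_eq _).1 h8)
        rcases hR _ (by rw [Q_smul', hv]) h7 _ h6 h3 with h8 | h8
        · have h9 := (smul_eq_zero_iff_eq _).1 h8
          simp only [Finset.mem_insert, Finset.mem_singleton]
          left
          exact eq_of_add_zero hF h9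
        · have h9 := smul_left_cancel _ h8
          simp only [Finset.mem_insert, Finset.mem_singleton]
          right
          rw [← h9, add_left_comm, vadd_self hF, add_zero]
      exact (Finset.card_le_card hsub).trans Finset.card_le_two
    omega
  by_contra hc
  push Not at hc
  have hdisj : Disjoint ((Wf Q v).image (φ 1)) ((Wf Q v).image (φ g⁻¹)) := by
    rw [Finset.disjoint_left]
    intro b hb hb'
    obtain ⟨u, hu, rfl⟩ := Finset.mem_image.1 hb
    obtain ⟨u', hu', hu''⟩ := Finset.mem_image.1 hb'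
    have h3 : (Es hQ v u' * g⁻¹)⁻¹ * (Es hQ v u * 1) ∈ K := QuotientGroup.eq.1 hu''
    have h4 : (Es hQ v u' * g⁻¹)⁻¹ * (Es hQ v u * 1) = g * Es hQ v (u' + u) := by
      rw [_root_.mul_inv_rev, Es_inv hQ hF hv (mem_Wf.1 hu'), ← Es_mul hQ hF hv (mem_Wf.1 hu') (mem_Wf.1 hu)]
      group
    rw [h4] at h3
    exact hc _ (by rw [polar_add_right, mem_Wf.1 hu', mem_Wf.1 hu, add_zero]) h3
  have h5 := le_index (K := K) (((Wf Q v).image (φ 1) ∪ (Wf Q v).image (φ g⁻¹) : Finset _) : Set (GG Q ⧸ K))
  rw [Set.ncard_coe_finset, Finset.card_union_of_disjoint hdisj] at h5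
  have h6 := himg 1
  have h7 := himg g⁻¹
  omega

variable [DecidableEq F]

include hF hQ in
/-- The main bound: the index of a proper subgroup of `GG Q`. -/
theorem index_bound (hm : 4 ≤ m) (hdim : finrank F V = 2 * m) (hgen : Cfsg.Agent.Lib.OrthoGen.genR Q = ⊤)
    (hz : (Finset.univ.filter (fun x : V => Q x = 0)).card = 2 ^ (2 * m - 1) + 2 ^ (m - 1))
    (hK : K ≠ ⊤) : tt m ≤ K.index := by
  classical
  by_contra hidx
  push Not at hidx
  obtain ⟨hP, hR8, hRP⟩ := pow_facts (m := m) hm
  have htt := tt_add hm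
  have horb : ∀ v, oo K v < tt m := fun v => lt_of_le_of_lt (le_index _) hidx
  -- the shape of `K` at singular vectors
  have hsh : ∀ v, Q v = 0 → v ≠ 0 → finrank F (YY hF hQ K v) ≠ 1 →
      finrank F (Pq Q (YY hF hQ K v)) ≤ 2 := by
    intro v hv h0 h1
    by_contra h2
    have h3 := finrank_pos_mem (v_mem_YY hF hQ (K := K) hv) h0
    exact absurd (mid_bound hF hQ hm hdim hgen hz (K := K) hv h0 (by omega) (by omega)) (by
      have := horb v
      omega)
  -- a singular vector
  obtain ⟨v₁, hv₁Q, hv₁⟩ : ∃ v, Q v = 0 ∧ v ≠ 0 := by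
    have h1 : 1 < (Finset.univ.filter (fun x : V => Q x = 0)).card := by
      rw [hz]
      have : 8 ≤ 2 ^ (2 * m - 1) := by
        calc 8 = 2 ^ 3 := by norm_num
          _ ≤ _ := Nat.pow_le_pow_right (by norm_num) (by omega)
      omega
    obtain ⟨b, hb, hb'⟩ := Finset.exists_mem_ne h1 (0 : V)
    exact ⟨b, (Finset.mem_filter.1 hb).2, hb'⟩
  by_cases hRex : ∃ v, Q v = 0 ∧ v ≠ 0 ∧ finrank F (YY hF hQ K v) = 1
  · obtain ⟨v₀, hv₀, hv₀0, hv₀1⟩ := hRex
    have hR₀ : RR hQ K v₀ := RR_of_finrank hF hQ hv₀ hv₀0 hv₀1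
    have hoo₀ := R_bound hF hQ hm hdim hv₀ hv₀0 hv₀1
    -- every singular vector is of type `R` or of type `F`
    have hRF : ∀ v, Q v = 0 → v ≠ 0 → RR hQ K v ∨ FF hQ K v := by
      intro v hv h0
      by_cases hconj : ∃ k ∈ K, k • v = v₀
      · obtain ⟨k, hk, rfl⟩ := hconj
        exact Or.inl (RR_of_smul hF hQ hk hv hR₀)
      · push Not at hconj
        right
        obtain ⟨g, hg⟩ := exists_map_sing hF hQ hm hdim hgen hv hv₀ h0 hv₀0
        have h1 := two_orbits (K := K) hg hconj
        have h2 : oo K v + 2 * 2 ^ (2 * m - 3) < tt m := by omega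
        have hY : finrank F (YY hF hQ K v) ≠ 1 := by
          intro h3
          have := R_bound hF hQ hm hdim hv h0 h3
          omega
        have hZ := hsh v hv h0 hY
        have hZ' : finrank F (Pq Q (YY hF hQ K v)) ≠ 2 := by
          intro h3
          have := H_bound hF hQ hm hdim hgen hz hv h0 h3
          omega
        have hZ1 := finrank_pos_mem (v_mem_ZZ hF hQ (K := K) (v := v)) h0
        exact FF_of_finrank hF hQ hv h0 (by omega)
    have hFR : ∀ {v w : V}, FF hQ K v → RR hQ K w → Q v = 0 → Q w = 0 → polar Q v w = 0 → v = 0 ∨ v = w := by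
      intro v w h1 h2 hv hw hp
      have h3 := h1 w hp
      rw [Es_symm hQ hF hv hp hw] at h3
      exact h2 v (by rw [polar_comm]; exact hp) h3
    -- no vector of type `F`
    have hall : ∀ w, Q w = 0 → w ≠ 0 → RR hQ K w := by
      intro w hw hw0
      rcases hRF w hw hw0 with h | h
      · exact h
      exfalso
      have h1 : polar Q w v₀ ≠ 0 := by
        intro hp
        have h2 := (hFR h hR₀ hw hv₀ hp).resolve_left hw0
        subst h2
        -- both full and trivial
        obtain ⟨a, haS, _, ha0, hac⟩ := exists_sing_avoid hF (Q := Q) (S := Wv Q w) (by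
          have := finrank_Pq hQ (F ∙ w)
          rw [hdim, finrank_span_singleton hw0] at this
          rw [Wv]
          omega) w
        rcases hR₀ a (mem_Wv.1 haS) (h a (mem_Wv.1 haS)) with h3 | h3
        · exact ha0 h3
        · exact hac h3
      have hYf : finrank F (Submodule.span F (({w, v₀} : Finset V) : Set V)) ≤ 2 :=
        (finrank_span_finset_le_card _).trans Finset.card_le_two
      have hsum := finrank_Pq hQ (Submodule.span F (({w, v₀} : Finset V) : Set V))
      rw [hdim] at hsum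
      obtain ⟨x, hxS, hxQ, hx0, _⟩ := exists_sing_avoid hF (Q := Q)
        (S := Pq Q (Submodule.span F (({w, v₀} : Finset V) : Set V))) (by omega) 0
      rw [mem_Pq] at hxS
      have hwx : polar Q w x = 0 := hxS w (Submodule.subset_span (by simp))
      have hv₀x : polar Q v₀ x = 0 := hxS v₀ (Submodule.subset_span (by simp))
      rcases hRF x hxQ hx0 with h3 | h3
      · have h4 := (hFR h h3 hw hxQ hwx).resolve_left hw0
        rw [h4] at h1
        exact h1 (by rw [polar_comm]; exact hv₀x)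
      · have h4 := (hFR h3 hR₀ hxQ hv₀ (by rw [polar_comm]; exact hv₀x)).resolve_left hx0
        rw [h4] at hwx
        exact h1 hwx
    -- the factorization
    have hfac := fact_of_R hF hQ hm hdim hall hv₀ hv₀0 (by omega)
    -- the configuration
    have hYf1 : finrank F (Wv Q v₀) + 1 = 2 * m := by
      have := finrank_Pq hQ (F ∙ v₀)
      rw [hdim, finrank_span_singleton hv₀0] at this
      rw [Wv]
      omega
    obtain ⟨a, haS, haQ, ha0, hac⟩ := exists_sing_avoid hF (Q := Q) (S := Wv Q v₀) (by omega) v₀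
    have hva := mem_Wv.1 haS
    have hav : polar Q a v₀ = 0 := by rw [polar_comm]; exact hva
    obtain ⟨x, hx, hx1⟩ := exists_nonsing_perp hF hQ hdim {v₀, a} (lt_of_le_of_lt Finset.card_le_two (by omega))
    have hvx := hx1 v₀ (by simp)
    have hax := hx1 a (by simp)
    have hxS : x ∉ Submodule.span F ({v₀, a} : Set V) := by
      intro h
      obtain ⟨c, d, hcd⟩ := Submodule.mem_span_pair.1 h
      have h1 : Q x = 0 := by
        rw [← hcd, Q_adds hF, polar_smul_left, polar_smul_right, hva, QuadraticMap.map_smul, QuadraticMap.map_smul, hv₀, haQ]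
        simp
      rw [hx] at h1
      exact one_ne_zero h1
    obtain ⟨z₀, hz₀, hz₀'⟩ := sepS hQ hxS
    have hz₀1 := eq_one_of_ne hF hz₀'
    rw [mem_Pq] at hz₀
    obtain ⟨y, hy1, hy2⟩ := presc hF hQ hdim {v₀, a, x} (lt_of_le_of_lt Finset.card_le_three (by omega)) z₀ 1
    have hvy : polar Q v₀ y = 0 := by
      rw [hy1 v₀ (by simp)]
      exact hz₀ v₀ (Submodule.subset_span (by simp))
    have hay : polar Q a y = 0 := by
      rw [hy1 a (by simp)]
      exact hz₀ a (Submodule.subset_span (by simp))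
    have hxy : polar Q x y = 1 := by
      rw [hy1 x (by simp)]
      exact hz₀1
    obtain ⟨τ, hτ⟩ := exists_tau hF hQ (by omega) hdim hx hy2 hxy
    exact all_R_false hF hQ hall hv₀ haQ hva hv₀0 ha0 hac hx hxy hvx hvy hax hay hτ hfac
  · push Not at hRex
    apply hK
    refine top_of_T hF hQ hm hdim (fun z hz' hz0 => ?_) hv₁Q hv₁
    have h1 := hsh z hz' hz0 (hRex z hz' hz0)
    have h2 := finrank_pos_mem (v_mem_ZZ hF hQ (K := K) (v := z)) hz0
    by_cases h3 : finrank F (Pq Q (YY hF hQ K z)) = 1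
    · exact ⟨0, TT_zero_of_FF hQ (FF_of_finrank hF hQ hz' hz0 h3)⟩
    · exact TT_of_finrank2 hF hQ hz' hz0 (by omega)

end Cfsg.Agent.Lib.OmPlusIdx
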