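import Mathlib
import Cfsg.Agent.Lib.OmK

/-!
# Stabilisers of non-degenerate subspaces: the general case

`V = P ⟂ P'` with `P` large and `dim P' < dim P`. A subgroup of `Ω` containing the Siegel transformations of `P` and `P'`
and the products of two reflections in vectors of equal norm in `P` and `P'`, and one element not stabilising `P`,
contains `Ω`.
-/

set_option autoImplicit false
set_option linter.unusedSectionVars false
set_option linter.unusedVariables false

namespace Cfsg.Agent.Lib.OmSmall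

open Matrix QuadraticMap Cfsg Cfsg.Geo Module
open Cfsg.Agent.Lib.OrthoBasic Cfsg.Agent.Lib.OrthoSiegel Cfsg.Agent.Lib.OmCalc Cfsg.Agent.Lib.TvGL
  Cfsg.Agent.Lib.OmPerp Cfsg.Agent.Lib.OmNd Cfsg.Agent.Lib.OmK
open Cfsg.Agent.Lib.SympT (GL_ext mulVec_mul_GL mulVec_inv_GL inv_mulVec_GL linOf linOf_apply finrank_le_of_maps)
open Cfsg.Agent.Lib.QuadFF (polar_sm_r polar_sm_l Q_ad Q_sm IsHyp)
open Cfsg.Agent.Lib.SympTIPair (finrank_span_one)

local notation:70 g:71 " ⋆ " x:70 => Matrix.mulVec (Units.val g) x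

variable {ι : Type} [Fintype ι] [DecidableEq ι] {F : Type*} [Field F] [Fintype F]
  {Q : QuadraticForm F (ι → F)} {P P' : Submodule F (ι → F)}

/-- A quadric containing the complement of a hyperplane. -/
theorem off_lemma (hQ' : Nondeg Q) (hp : OPair Q P P') {r : ι → F} (hr : r ∈ P') (hr0 : r ≠ 0)
    (h : ∀ a ∈ P', polar Q r a ≠ 0 → Q a = 0) :
    finrank F P' = 2 ∧ Fintype.card F ≤ 3 ∧ ∃ s ∈ P', s ≠ 0 ∧ Q s = 0 := by
  classical
  have hp' := hp.symm
  obtain ⟨z, hz, hrz⟩ := hp'.nondeg hQ' hr hr0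
  have hQz := h z hz hrz
  have hz0 : z ≠ 0 := by
    rintro rfl
    exact hrz (polar_zero_right _ _)
  by_cases hq : Fintype.card F = 2
  · refine ⟨?_, by omega, z, hz, hz0, hQz⟩
    have h2 : (2 : F) = 0 := by
      have h3 : ((Fintype.card F : ℕ) : F) = 0 := FiniteField.cast_card_eq_zero F
      rw [hq] at h3
      exact_mod_cast h3
    have hrr : polar Q r r = 0 := by
      rw [QuadraticMap.polar_self, two_smul, ← two_mul, h2, zero_mul]
    have key : ∀ y ∈ P', ∀ y' ∈ P', polar Q r y = 0 → polar Q r y' = 0 → polar Q y' y = 0 := by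
      intro y hy y' hy' h1 h1'
      have e1 : Q (z + y) = 0 := h _ (P'.add_mem hz hy) (by rw [polar_add_right, h1, add_zero]; exact hrz)
      have e2 : Q (z + y') = 0 := h _ (P'.add_mem hz hy') (by rw [polar_add_right, h1', add_zero]; exact hrz)
      have e3 : Q (z + y' + y) = 0 := h _ (P'.add_mem (P'.add_mem hz hy') hy)
        (by rw [polar_add_right, polar_add_right, h1, h1', add_zero, add_zero]; exact hrz)
      rw [Q_ad, hQz, zero_add] at e1
      rw [Q_ad, e2, zero_add, polar_add_left] at e3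
      linear_combination e3 - e1
    have hsp : Submodule.span F {r} ≤ P' := by
      rw [Submodule.span_singleton_le_iff_mem]
      exact hr
    have hf1 : finrank F ↥(Submodule.span F {r}) = 1 := finrank_span_singleton hr0
    have hle : finrank F P' ≤ 2 := by
      by_contra hcon
      have h3 := finrank_inf_perp hQ' P' (Submodule.span F {r})
      set W : Submodule F (ι → F) := P' ⊓ perpQ Q (Submodule.span F {r}) with hW
      have h4 : finrank F P' ≤ finrank F W + finrank F ↥(Submodule.span F {r}) := h3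
      have hW1 : ¬ W ≤ Submodule.span F {r} := by
        intro hle'
        have := Submodule.finrank_mono hle'
        omega
      obtain ⟨y, hy, hyr⟩ := SetLike.not_le_iff_exists.1 hW1
      obtain ⟨s, hs, h5, h6⟩ := hp'.sep_in hQ' hsp hy.1 hyr
      apply h6
      have e1 : polar Q r y = 0 := mem_perpQ.1 hy.2 r (Submodule.mem_span_singleton_self r)
      have e2 : polar Q r s = 0 := h5 r (Submodule.mem_span_singleton_self r)
      have := key s hs y hy.1 e2 e1
      exact this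
    have hge : 2 ≤ finrank F P' := by
      by_contra hcon
      have h3 := Submodule.eq_of_le_of_finrank_le hsp (by omega)
      have h4 : z ∈ Submodule.span F {r} := by
        rw [h3]
        exact hz
      obtain ⟨γ, rfl⟩ := Submodule.mem_span_singleton.1 h4
      apply hrz
      rw [polar_sm_r, hrr, mul_zero]
    omega
  · exfalso
    have hlam : ∃ l : F, l ≠ 0 ∧ l ≠ 1 := by
      by_contra hcon
      push Not at hcon
      apply hq
      have h3 : (Finset.univ : Finset F) ⊆ {0, 1} := by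
        intro x _
        by_cases hx : x = 0
        · simp [hx]
        · simp [hcon x hx]
      have h4 := Finset.card_le_card h3
      have h5 : ({0, 1} : Finset F).card ≤ 2 := Finset.card_le_two
      have h6 : 1 < Fintype.card F := Fintype.one_lt_card
      rw [Finset.card_univ] at h4
      omega
    obtain ⟨l, hl0, hl1⟩ := hlam
    have key : ∀ y ∈ P', polar Q r y = 0 → Q y = 0 ∧ polar Q z y = 0 := by
      intro y hy h1
      have e1 : Q (z + y) = 0 := h _ (P'.add_mem hz hy) (by rw [polar_add_right, h1, add_zero]; exact hrz)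
      have e2 : Q (z + l • y) = 0 := h _ (P'.add_mem hz (P'.smul_mem _ hy))
        (by rw [polar_add_right, polar_sm_r, h1, mul_zero, add_zero]; exact hrz)
      rw [Q_ad, hQz, zero_add] at e1
      rw [Q_ad, hQz, zero_add, Q_sm, polar_sm_r] at e2
      have e3 : l * Q y + polar Q z y = 0 := by
        have : l * (l * Q y + polar Q z y) = 0 := by linear_combination e2
        exact (mul_eq_zero.1 this).resolve_left hl0
      have e4 : (l - 1) * Q y = 0 := by linear_combination e3 - e1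
      have e5 : Q y = 0 := (mul_eq_zero.1 e4).resolve_left (sub_ne_zero.2 hl1)
      refine ⟨e5, ?_⟩
      rw [e5] at e1
      linear_combination e1
    have hrr : polar Q r r = 0 := by
      by_contra hcon
      exact hcon (polar_self_zero (h r hr hcon))
    have := (key r hr hrr).2
    rw [polar_comm] at this
    exact hrz this

/-- Irreducibility of the group generated by reflections and Siegel transformations on a non-degenerate space. -/
theorem irr_abs (hQ' : Nondeg Q) (hp : OPair Q P P') (U : Submodule F (ι → F)) (hUP : U ≤ P') (hU0 : U ≠ ⊥)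
    (h1 : ∀ a ∈ P', Q a ≠ 0 → ∀ x ∈ U, polar Q x a ≠ 0 → a ∈ U)
    (h2 : ∀ e ∈ P', ∀ y ∈ P', Q e = 0 → polar Q e y = 0 → ∀ x ∈ U,
      x + polar Q x e • y - (polar Q x y + Q y * polar Q x e) • e ∈ U)
    (hex : ¬ (finrank F P' = 2 ∧ Fintype.card F ≤ 3 ∧ ∃ s ∈ P', s ≠ 0 ∧ Q s = 0)) : U = P' := by
  classical
  by_contra hne
  have hp' := hp.symm
  -- the radical of `U` vanishes
  have hrad : ∀ r ∈ U, (∀ u ∈ U, polar Q r u = 0) → r = 0 := by
    intro r hr hr'
    by_contra hr0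
    apply hex
    refine off_lemma hQ' hp (hUP hr) hr0 (fun a ha hra => ?_)
    by_contra hQa
    exact hra (hr' a (h1 a ha hQa r hr hra))
  have hop := opair_of_nondeg hQ' hrad
  obtain ⟨u₀, hu₀, hu₀0⟩ := Submodule.exists_mem_ne_zero_of_ne_bot hU0
  -- the orthogonal complement of `U` in `P'`
  have hex1 : ∃ y₀ ∈ P', y₀ ≠ 0 ∧ y₀ ∈ perpQ Q U := by
    have h3 : ¬ P' ≤ U := fun h => hne (le_antisymm hUP h)
    obtain ⟨x, hx, hxU⟩ := SetLike.not_le_iff_exists.1 h3
    obtain ⟨y, hy, u, hu, rfl⟩ := hop.decomp x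
    refine ⟨y, ?_, ?_, hy⟩
    · have := P'.sub_mem hx (hUP hu)
      simpa using this
    · rintro rfl
      apply hxU
      simpa using hu
  obtain ⟨y₀, hy₀, hy₀0, hy₀U⟩ := hex1
  have hperp : ∀ {y : ι → F}, y ∈ perpQ Q U → ∀ u ∈ U, polar Q u y = 0 := fun hy u hu => mem_perpQ.1 hy u hu
  have hperp0 : ∀ {y : ι → F}, y ∈ perpQ Q U → y ∈ U → y = 0 := by
    intro y hy hyU
    refine hrad y hyU (fun u hu => ?_)
    rw [polar_comm]
    exact hperp hy u hu
  have hsum : ∀ u ∈ U, u ≠ 0 → ∀ y ∈ P', y ∈ perpQ Q U → y ≠ 0 → Q u + Q y = 0 := by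
    intro u hu hu0 y hy hyU hy0
    by_contra hcon
    have hQa : Q (u + y) ≠ 0 := by
      rw [Q_ad, hperp hyU u hu, add_zero]
      exact hcon
    obtain ⟨u', hu', hu'u⟩ : ∃ u' ∈ U, polar Q u' u ≠ 0 := by
      by_contra hcon'
      push Not at hcon'
      apply hu0
      refine hrad u hu (fun v hv => ?_)
      rw [polar_comm]
      exact hcon' v hv
    have h3 : u + y ∈ U := h1 _ (P'.add_mem (hUP hu) hy) hQa u' hu' (by
      rw [polar_add_right, hperp hyU u' hu', add_zero]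
      exact hu'u)
    have h4 : y ∈ U := by
      have := U.sub_mem h3 hu
      simpa using this
    exact hy0 (hperp0 hyU h4)
  set c := Q u₀ with hc
  have hQU : ∀ u ∈ U, u ≠ 0 → Q u = c := by
    intro u hu hu0
    have e1 := hsum u hu hu0 y₀ hy₀ hy₀U hy₀0
    have e2 := hsum u₀ hu₀ hu₀0 y₀ hy₀ hy₀U hy₀0
    rw [hc]
    linear_combination e1 - e2
  have hQY : ∀ y ∈ P', y ∈ perpQ Q U → y ≠ 0 → Q y = -c := by
    intro y hy hyU hy0
    have e1 := hsum u₀ hu₀ hu₀0 y hy hyU hy0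
    rw [hc]
    linear_combination e1
  have hQU' : ∀ u ∈ U, Q u = c ∨ u = 0 := fun u hu => by
    by_cases hu0 : u = 0
    · exact Or.inr hu0
    · exact Or.inl (hQU u hu hu0)
  have hc0 : c ≠ 0 := by
    intro hc0
    apply hu₀0
    refine hrad u₀ hu₀ (fun v hv => ?_)
    have e0 : ∀ u ∈ U, Q u = 0 := by
      intro u hu
      rcases hQU' u hu with h3 | h3
      · rw [h3, hc0]
      · rw [h3, map_zero]
    have := Q_ad Q u₀ v
    rw [e0 _ (U.add_mem hu₀ hv), e0 _ hu₀, e0 _ hv] at this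
    linear_combination -this
  have hsq : ∀ l : F, l ≠ 0 → l ^ 2 = 1 := by
    intro l hl
    have e1 := hQU _ (U.smul_mem l hu₀) (smul_ne_zero hl hu₀0)
    rw [Q_sm, ← hc] at e1
    have : (l ^ 2 - 1) * c = 0 := by linear_combination e1
    have := (mul_eq_zero.1 this).resolve_right hc0
    linear_combination this
  have hcard : Fintype.card F ≤ 3 := by
    have h3 : (Finset.univ : Finset F) ⊆ {0, 1, -1} := by
      intro x _
      by_cases hx : x = 0
      · simp [hx]
      have e1 := hsq x hx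
      have e2 : (x - 1) * (x + 1) = 0 := by linear_combination e1
      rcases mul_eq_zero.1 e2 with e3 | e3
      · have : x = 1 := sub_eq_zero.1 e3
        simp [this]
      · have : x = -1 := eq_neg_of_add_eq_zero_left e3
        simp [this]
    have h4 := Finset.card_le_card h3
    have h5 : ({0, 1, -1} : Finset F).card ≤ 3 := Finset.card_le_three
    rw [Finset.card_univ] at h4
    omega
  -- a non-orthogonal partner in each summand
  obtain ⟨u₂, hu₂, hu₀u₂⟩ : ∃ u₂ ∈ U, polar Q u₀ u₂ ≠ 0 := by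
    by_contra hcon
    push Not at hcon
    exact hu₀0 (hrad u₀ hu₀ hcon)
  obtain ⟨y₂, hy₂, hy₂U, hy₀y₂⟩ : ∃ y₂ ∈ P', y₂ ∈ perpQ Q U ∧ polar Q y₀ y₂ ≠ 0 := by
    obtain ⟨z, hz, hz'⟩ := hp'.nondeg hQ' hy₀ hy₀0
    obtain ⟨y, hy, u, hu, rfl⟩ := hop.decomp z
    refine ⟨y, ?_, hy, ?_⟩
    · have := P'.sub_mem hz (hUP hu)
      simpa using this
    · rw [polar_add_right, polar_comm Q y₀ u, hperp hy₀U u hu, add_zero] at hz'
      exact hz'
  by_cases hq : Fintype.card F = 2
  · -- characteristic two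
    have h20 : (2 : F) = 0 := by
      have h3 : ((Fintype.card F : ℕ) : F) = 0 := FiniteField.cast_card_eq_zero F
      rw [hq] at h3
      exact_mod_cast h3
    have hone : ∀ x : F, x ≠ 0 → x = 1 := by
      intro x hx
      have e1 := hsq x hx
      have e2 : (x - 1) ^ 2 = 0 := by linear_combination e1 + (1 - x) * h20
      have := pow_eq_zero_iff (two_ne_zero) |>.1 e2
      exact sub_eq_zero.1 this
    have hu₂0 : u₂ ≠ 0 := by
      rintro rfl
      exact hu₀u₂ (polar_zero_right _ _)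
    have hy₂0 : y₂ ≠ 0 := by
      rintro rfl
      exact hy₀y₂ (polar_zero_right _ _)
    have e1 : polar Q u₀ u₂ = 1 := hone _ hu₀u₂
    have e2 : polar Q y₀ y₂ = 1 := hone _ hy₀y₂
    have hQe : Q (u₀ + y₀) = 0 := by
      rw [Q_ad, hperp hy₀U u₀ hu₀, hQU u₀ hu₀ hu₀0, hQY y₀ hy₀ hy₀U hy₀0]
      ring
    have hQf : Q (u₂ + y₂) = 0 := by
      rw [Q_ad, hperp hy₂U u₂ hu₂, hQU u₂ hu₂ hu₂0, hQY y₂ hy₂ hy₂U hy₂0]
      ring
    have e3 : polar Q u₀ y₂ = 0 := hperp hy₂U u₀ hu₀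
    have e4 : polar Q y₀ u₂ = 0 := by
      rw [polar_comm]
      exact hperp hy₀U u₂ hu₂
    have hef : polar Q (u₀ + y₀) (u₂ + y₂) = 0 := by
      rw [polar_add_left, polar_add_right, polar_add_right, e1, e2, e3, e4]
      linear_combination h20
    have h3 := h2 (u₀ + y₀) (P'.add_mem (hUP hu₀) hy₀) (u₂ + y₂) (P'.add_mem (hUP hu₂) hy₂) hQe hef u₂ hu₂
    have e5 : polar Q u₂ (u₀ + y₀) = 1 := by
      rw [polar_add_right, polar_comm, e1, hperp hy₀U u₂ hu₂, add_zero]
    have e6 : polar Q u₂ (u₂ + y₂) = 0 := by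
      rw [polar_add_right, hperp hy₂U u₂ hu₂, add_zero, QuadraticMap.polar_self, two_smul, ← two_mul, h20, zero_mul]
    rw [e5, e6, hQf, mul_one, add_zero, zero_smul, sub_zero, one_smul] at h3
    have h4 : y₂ ∈ U := by
      have h5 : u₂ + (u₂ + y₂) = (2 : F) • u₂ + y₂ := by rw [two_smul]; abel
      rw [h5, h20, zero_smul, zero_add] at h3
      exact h3
    exact hy₂0 (hperp0 hy₂U h4)
  · -- odd characteristic: each summand is a line
    have h20 : (2 : F) ≠ 0 := by
      intro h20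
      apply hq
      have hone : ∀ x : F, x ≠ 0 → x = 1 := by
        intro x hx
        have e1 := hsq x hx
        have e2 : (x - 1) ^ 2 = 0 := by linear_combination e1 + (1 - x) * h20
        have := pow_eq_zero_iff (two_ne_zero) |>.1 e2
        exact sub_eq_zero.1 this
      have h3 : (Finset.univ : Finset F) ⊆ {0, 1} := by
        intro x _
        by_cases hx : x = 0
        · simp [hx]
        · simp [hone x hx]
      have h4 := Finset.card_le_card h3
      have h5 : ({0, 1} : Finset F).card ≤ 2 := Finset.card_le_two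
      have h6 : 1 < Fintype.card F := Fintype.one_lt_card
      rw [Finset.card_univ] at h4
      omega
    have hline : ∀ (A : Submodule F (ι → F)) (d : F), d ≠ 0 → (∀ u ∈ A, u ≠ 0 → Q u = d) → ∀ a ∈ A, a ≠ 0 →
        A ≤ Submodule.span F {a} := by
      intro A d hd hA a ha ha0 v hv
      by_contra hcon
      have hv0 : v ≠ 0 := by
        rintro rfl
        exact hcon (Submodule.zero_mem _)
      have e1 : v + a ≠ 0 := by
        intro h
        apply hcon
        rw [eq_neg_of_add_eq_zero_left h]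
        exact Submodule.neg_mem _ (Submodule.mem_span_singleton_self a)
      have e2 : v - a ≠ 0 := by
        intro h
        apply hcon
        rw [sub_eq_zero.1 h]
        exact Submodule.mem_span_singleton_self a
      have e3 := hA _ (A.add_mem hv ha) e1
      have e4 := hA _ (A.sub_mem hv ha) e2
      rw [Q_ad, hA v hv hv0, hA a ha ha0] at e3
      rw [sub_eq_add_neg, Q_ad, QuadraticMap.map_neg, polar_neg_right, hA v hv hv0, hA a ha ha0] at e4
      have e5 : 2 * d = 0 := by linear_combination e3 + e4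
      exact hd ((mul_eq_zero.1 e5).resolve_left h20)
    have hU1 : U ≤ Submodule.span F {u₀} := hline U c hc0 hQU u₀ hu₀ hu₀0
    have hY1 : P' ⊓ perpQ Q U ≤ Submodule.span F {y₀} :=
      hline (P' ⊓ perpQ Q U) (-c) (neg_ne_zero.2 hc0) (fun u hu hu0 => hQY u hu.1 hu.2 hu0) y₀ ⟨hy₀, hy₀U⟩ hy₀0
    have hsup : P' ≤ Submodule.span F {u₀} ⊔ Submodule.span F {y₀} := by
      intro x hx
      obtain ⟨y, hy, u, hu, rfl⟩ := hop.decomp x
      have hy' : y ∈ P' := by
        have := P'.sub_mem hx (hUP hu)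
        simpa using this
      rw [add_comm]
      exact Submodule.add_mem_sup (hU1 hu) (hY1 ⟨hy', hy⟩)
    have hf : finrank F P' ≤ 2 := by
      have e1 := Submodule.finrank_mono hsup
      have e2 := Submodule.finrank_add_le_finrank_add_finrank (Submodule.span F {u₀}) (Submodule.span F {y₀})
      have e3 : finrank F ↥(Submodule.span F {u₀}) = 1 := finrank_span_singleton hu₀0
      have e4 : finrank F ↥(Submodule.span F {y₀}) = 1 := finrank_span_singleton hy₀0
      omega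
    have hf2 : 2 ≤ finrank F P' := by
      have e1 : Submodule.span F {u₀} ≤ P' := by
        rw [Submodule.span_singleton_le_iff_mem]
        exact hUP hu₀
      by_contra hcon
      have e2 := Submodule.eq_of_le_of_finrank_le e1 (by
        rw [finrank_span_singleton hu₀0]
        omega)
      have e3 : y₀ ∈ Submodule.span F {u₀} := by
        rw [e2]
        exact hy₀
      obtain ⟨γ, hγ⟩ := Submodule.mem_span_singleton.1 e3
      have e4 : y₀ ∈ U := by
        rw [← hγ]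
        exact U.smul_mem _ hu₀
      exact hy₀0 (hperp0 hy₀U e4)
    apply hex
    refine ⟨by omega, hcard, u₀ + y₀, P'.add_mem (hUP hu₀) hy₀, ?_, ?_⟩
    · intro h
      have e1 : y₀ = -u₀ := eq_neg_of_add_eq_zero_right h
      have e2 : y₀ ∈ U := by
        rw [e1]
        exact U.neg_mem hu₀
      exact hy₀0 (hperp0 hy₀U e2)
    · rw [Q_ad, hperp hy₀U u₀ hu₀, hQU u₀ hu₀ hu₀0, hQY y₀ hy₀ hy₀U hy₀0]
      ring

variable {hQ : Nondeg Q} {M : Subgroup (GL ι F)}

/-- Closure under scalars of the set of axes in `P'` with centre in `P`. -/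
theorem R_scale (hQ' : Nondeg Q) (hp : OPair Q P P') (h7 : 7 ≤ finrank F P)
    (hH : ∀ a ∈ P, Q a = 0 → ∀ y ∈ P, polar Q a y = 0 → R hQ M a y)
    {b w : ι → F} (hb : b ∈ P) (hb0 : b ≠ 0) (hw : w ∈ P') (hR : R hQ M b w) (μ : F) : R hQ M b (μ • w) := by
  classical
  have hQb : Q b = 0 := hR.sing
  by_cases hμ : μ = 0
  · rw [hμ, zero_smul]
    exact R_zero hQb
  obtain ⟨z₀, hz₀, hbz₀⟩ := hp.nondeg hQ' hb hb0
  obtain ⟨f₀, hf₀, h1, hQf₀⟩ := hp.prescribed_in hQ' (C := {b}) (by simpa using hb) hz₀ 0 (by simp; omega)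
  have hbf₀ : polar Q b f₀ ≠ 0 := by
    rw [h1 b (by simp)]
    exact hbz₀
  obtain ⟨f, hfP, hQf, hbf⟩ : ∃ f ∈ P, Q f = 0 ∧ polar Q b f = 1 :=
    ⟨(polar Q b f₀)⁻¹ • f₀, P.smul_mem _ hf₀, by rw [Q_sm, hQf₀, mul_zero], by
      rw [polar_sm_r]
      exact inv_mul_cancel₀ hbf₀⟩
  obtain ⟨p, hp₁, q, hq₁, hpq, h2⟩ := hp.hyp_in hQ' (C := {b, f}) (by
    intro d hd
    simp only [Finset.mem_insert, Finset.mem_singleton] at hd
    rcases hd with rfl | rfl
    · exact hb
    · exact hfP) (by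
    have : ({b, f} : Finset (ι → F)).card ≤ 2 := Finset.card_le_two
    omega)
  have hbp : polar Q b p = 0 := (h2 b (by simp)).1
  have hbq : polar Q b q = 0 := (h2 b (by simp)).2
  have hfp : polar Q f p = 0 := (h2 f (by simp)).1
  have hfq : polar Q f q = 0 := (h2 f (by simp)).2
  have hwf : polar Q w f = 0 := by rw [polar_comm]; exact hp.orth f hfP w hw
  have hwp : polar Q w p = 0 := by rw [polar_comm]; exact hp.orth p hp₁ w hw
  -- the first transformation
  obtain ⟨a1, a2, a3⟩ := hH f hfP hQf p hp₁ hfp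
  have hR1 := R_conj (sE_iso hQ a1 a2) a3 hR
  have e1 : sE hQ a1 a2 ⋆ b = b + p := by
    rw [sE_apply', hbf, hbp, hpq.Qv]
    simp
  have e2 : sE hQ a1 a2 ⋆ w = w := by
    rw [sE_apply', hwf, hwp]
    simp
  rw [e1, e2] at hR1
  -- the second transformation
  obtain ⟨e₂, he₂⟩ : ∃ e₂, e₂ = f + (μ - 1) • q := ⟨_, rfl⟩
  have he₂P : e₂ ∈ P := by
    rw [he₂]
    exact P.add_mem hfP (P.smul_mem _ hq₁)
  have hQe₂ : Q e₂ = 0 := by
    rw [he₂, Q_ad, hQf, Q_sm, hpq.Qw, polar_sm_r, hfq]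
    ring
  have hfb : polar Q f b = 1 := by rw [polar_comm]; exact hbf
  have hqp : polar Q q p = 1 := by rw [polar_comm]; exact hpq.vw
  have e3 : polar Q (b + p) e₂ = μ := by
    rw [he₂, polar_add_left, polar_add_right, polar_add_right, polar_sm_r, polar_sm_r, hbf, hbq,
      polar_comm Q p f, hfp, hpq.vw]
    ring
  have e4 : polar Q (μ • b) e₂ = μ := by
    rw [he₂, polar_sm_l, polar_add_right, polar_sm_r, hbf, hbq]
    ring
  have hQx : Q (b + p) = Q (μ • b) := by
    rw [Q_ad, Q_sm, hQb, hpq.Qv, hbp]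
    ring
  have hy := polar_link (Q := Q) (x := b + p) (x' := μ • b) hQe₂ (by rw [e3, e4])
  set y₂ : ι → F := (polar Q (b + p) e₂)⁻¹ • (μ • b - (b + p)) with hy₂
  have hy₂P : y₂ ∈ P := P.smul_mem _ (P.sub_mem (P.smul_mem _ hb) (P.add_mem hb hp₁))
  obtain ⟨a4, a5, a6⟩ := hH e₂ he₂P hQe₂ y₂ hy₂P hy
  have hR2 := R_conj (sE_iso hQ a4 a5) a6 hR1
  have e5 : sE hQ a4 a5 ⋆ (b + p) = μ • b := by
    rw [sE_apply]
    exact siegelLin_link hQe₂ hQx (by rw [e3, e4]) (by rw [e3]; exact hμ)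
  have hwe₂ : polar Q w e₂ = 0 := by rw [polar_comm]; exact hp.orth e₂ he₂P w hw
  have hwy₂ : polar Q w y₂ = 0 := by rw [polar_comm]; exact hp.orth y₂ hy₂P w hw
  have e6 : sE hQ a4 a5 ⋆ w = w := by
    rw [sE_apply', hwe₂, hwy₂]
    simp
  rw [e5, e6] at hR2
  exact R_smul_right hQb μ hR2

/-- All axes in `P'`. -/
theorem all_axes (hQ' : Nondeg Q) (hp : OPair Q P P') (h7 : 7 ≤ finrank F P)
    (hH : ∀ a ∈ P, Q a = 0 → ∀ y ∈ P, polar Q a y = 0 → R hQ M a y)
    (hH' : ∀ a ∈ P', Q a = 0 → ∀ y ∈ P', polar Q a y = 0 → R hQ M a y)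
    (hrefl : ∀ a ∈ P', Q a ≠ 0 → ∀ c ∈ P, Q c = Q a →
      ∃ t ∈ M, (∀ v, Q (t ⋆ v) = Q v) ∧ ∀ z, t ⋆ z = z - ((Q a)⁻¹ * polar Q z c) • c - ((Q a)⁻¹ * polar Q z a) • a)
    (hex : ¬ (finrank F P' = 2 ∧ Fintype.card F ≤ 3 ∧ ∃ s ∈ P', s ≠ 0 ∧ Q s = 0))
    {b x : ι → F} (hb : b ∈ P) (hb0 : b ≠ 0) (hx : x ∈ P') (hx0 : x ≠ 0) (hR : R hQ M b x) :
    ∀ w ∈ P', R hQ M b w := by
  classical
  have hQb : Q b = 0 := hR.sing
  let U : Submodule F (ι → F) :=
    { carrier := {w | w ∈ P' ∧ R hQ M b w}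
      add_mem' := fun h1 h2 => ⟨P'.add_mem h1.1 h2.1, R_add h1.2 h2.2⟩
      zero_mem' := ⟨P'.zero_mem, R_zero hQb⟩
      smul_mem' := fun c _ h => ⟨P'.smul_mem c h.1, R_scale hQ' hp h7 hH hb hb0 h.1 h.2 c⟩ }
  have hU : ∀ {w}, w ∈ U ↔ w ∈ P' ∧ R hQ M b w := Iff.rfl
  have hUP : U ≤ P' := fun w hw => hw.1
  have hU0 : U ≠ ⊥ := by
    intro h
    have : x ∈ U := ⟨hx, hR⟩
    rw [h, Submodule.mem_bot] at this
    exact hx0 this
  have hUeq : U = P' := by
    refine irr_abs hQ' hp U hUP hU0 ?_ ?_ hex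
    · intro a ha hQa w hw hwa
      obtain ⟨c, hc, h1, h2⟩ := hp.prescribed_in hQ' (C := {b}) (z₀ := 0) (by simpa using hb) P.zero_mem (Q a) (by simp; omega)
      have hbc : polar Q b c = 0 := by
        rw [h1 b (by simp), polar_zero_right]
      obtain ⟨t, htM, hti, ht⟩ := hrefl a ha hQa c hc h2
      have hR1 := R_conj hti htM hw.2
      have hbt : t ⋆ b = b := by
        rw [ht, hbc, hp.orth b hb a ha]
        simp
      have hwc : polar Q w c = 0 := by rw [polar_comm]; exact hp.orth c hc w hw.1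
      have hwt : t ⋆ w = w - ((Q a)⁻¹ * polar Q w a) • a := by
        rw [ht, hwc]
        simp
      rw [hbt, hwt] at hR1
      have hR2 := R_sub hw.2 hR1
      have e1 : w - (w - ((Q a)⁻¹ * polar Q w a) • a) = ((Q a)⁻¹ * polar Q w a) • a := by abel
      rw [e1] at hR2
      have hκ : (Q a)⁻¹ * polar Q w a ≠ 0 := mul_ne_zero (inv_ne_zero hQa) hwa
      have hR3 := R_scale hQ' hp h7 hH hb hb0 (P'.smul_mem _ ha) hR2 ((Q a)⁻¹ * polar Q w a)⁻¹
      rw [smul_smul, inv_mul_cancel₀ hκ, one_smul] at hR3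
      exact ⟨ha, hR3⟩
    · intro e he y hy hQe hey w hw
      obtain ⟨a1, a2, a3⟩ := hH' e he hQe y hy hey
      have hR1 := R_conj (sE_iso hQ a1 a2) a3 hw.2
      have e1 : sE hQ a1 a2 ⋆ b = b := by
        rw [sE_apply', hp.orth b hb e he, hp.orth b hb y hy]
        simp
      rw [e1, sE_apply'] at hR1
      refine ⟨?_, hR1⟩
      exact P'.sub_mem (P'.add_mem hw.1 (P'.smul_mem _ hy)) (P'.smul_mem _ he)
  intro w hw
  have : w ∈ U := by
    rw [hUeq]
    exact hw
  exact this.2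

/-- A mixed element gives all of `Ω`. -/
theorem omega_of_axes (hQ' : Nondeg Q) (h11 : 11 ≤ Fintype.card ι) (hp : OPair Q P P') (h7 : 7 ≤ finrank F P)
    (hH : ∀ a ∈ P, Q a = 0 → ∀ y ∈ P, polar Q a y = 0 → R hQ M a y)
    {b : ι → F} (hb : b ∈ P) (hb0 : b ≠ 0) (hQb : Q b = 0) (hall : ∀ w ∈ P', R hQ M b w) :
    omegaGL ⇑Q ≤ M := by
  classical
  have hT : T hQ M b := by
    refine ⟨hQb, fun y hy => ?_⟩
    obtain ⟨y₀, hy₀, y₁, hy₁, rfl⟩ := hp.decomp y
    have h1 : polar Q b y₀ = 0 := by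
      rw [polar_add_right, hp.orth b hb y₁ hy₁, add_zero] at hy
      exact hy
    exact R_add (hH b hb hQb y₀ hy₀ h1) (hall y₁ hy₁)
  -- an opposite good centre
  obtain ⟨z₀, hz₀, hbz₀⟩ := hp.nondeg hQ' hb hb0
  obtain ⟨c, hc, h1, hQc⟩ := hp.prescribed_in hQ' (C := {b}) (by simpa using hb) hz₀ 0 (by simp; omega)
  have hbc : polar Q b c ≠ 0 := by
    rw [h1 b (by simp)]
    exact hbz₀
  obtain ⟨p, hp₁, q, hq₁, hpq, h2⟩ := hp.hyp_in hQ' (C := {b, c}) (by
    intro d hd
    simp only [Finset.mem_insert, Finset.mem_singleton] at hd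
    rcases hd with rfl | rfl
    · exact hb
    · exact hc) (by
    have : ({b, c} : Finset (ι → F)).card ≤ 2 := Finset.card_le_two
    omega)
  set y := p + q with hy
  have hQy : Q y = 1 := by
    rw [hy, Q_ad, hpq.Qv, hpq.Qw, hpq.vw]
    ring
  have hby : polar Q b y = 0 := by
    rw [hy, polar_add_right, (h2 b (by simp)).1, (h2 b (by simp)).2, add_zero]
  have hcy : polar Q c y = 0 := by
    rw [hy, polar_add_right, (h2 c (by simp)).1, (h2 c (by simp)).2, add_zero]
  obtain ⟨h4, h5, h6⟩ := hH c hc hQc y (P.add_mem hp₁ hq₁) hcy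
  have h8 := T_conj (sE_iso hQ h4 h5) h6 hT
  refine omega_le_of_opp h11 hT h8 ?_
  rw [sE_apply', hby, hQy, polar_sub_left, polar_add_left, polar_sm_l, polar_sm_l,
    polar_self_zero hQb, polar_comm Q y b, hby, polar_comm Q c b]
  simp only [mul_zero, add_zero, zero_add, one_mul, zero_sub]
  exact neg_ne_zero.2 (mul_ne_zero hbc hbc)

/-- The main theorem. -/
theorem omega_le_small (hQ' : Nondeg Q) (h11 : 11 ≤ Fintype.card ι) (hp : OPair Q P P') (h7 : 7 ≤ finrank F P)
    (hlt : finrank F P' < finrank F P) (hMi : ∀ t ∈ M, ∀ v, Q (t ⋆ v) = Q v)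
    (hH : ∀ a ∈ P, Q a = 0 → ∀ y ∈ P, polar Q a y = 0 → R hQ M a y)
    (hH' : ∀ a ∈ P', Q a = 0 → ∀ y ∈ P', polar Q a y = 0 → R hQ M a y)
    (hrefl : ∀ a ∈ P', Q a ≠ 0 → ∀ c ∈ P, Q c = Q a →
      ∃ t ∈ M, ∀ z, t ⋆ z = z - ((Q a)⁻¹ * polar Q z c) • c - ((Q a)⁻¹ * polar Q z a) • a)
    (hex : ¬ (finrank F P' = 2 ∧ Fintype.card F ≤ 3 ∧ ∃ s ∈ P', s ≠ 0 ∧ Q s = 0))
    {g : GL ι F} (hgM : g ∈ M) (hg : ¬ ∀ x ∈ P, g ⋆ x ∈ P) : omegaGL ⇑Q ≤ M := by
  classical
  have hgi := hMi g hgM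
  have hrefl' : ∀ a ∈ P', Q a ≠ 0 → ∀ c ∈ P, Q c = Q a →
      ∃ t ∈ M, (∀ v, Q (t ⋆ v) = Q v) ∧ ∀ z, t ⋆ z = z - ((Q a)⁻¹ * polar Q z c) • c - ((Q a)⁻¹ * polar Q z a) • a := by
    intro a ha hQa c hc h
    obtain ⟨t, htM, ht⟩ := hrefl a ha hQa c hc h
    exact ⟨t, htM, hMi t htM, ht⟩
  have hinj : ∀ {u : ι → F}, g ⋆ u = 0 → u = 0 := by
    intro u hu
    have := inv_mulVec_GL g u
    rw [hu, Matrix.mulVec_zero] at this
    exact this.symm
  -- it suffices to find a mixed element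
  suffices hmix : ∃ b ∈ P, ∃ x ∈ P', b ≠ 0 ∧ x ≠ 0 ∧ R hQ M b x by
    obtain ⟨b, hb, x, hx, hb0, hx0, hR⟩ := hmix
    exact omega_of_axes hQ' h11 hp h7 hH hb hb0 hR.sing (all_axes hQ' hp h7 hH hH' hrefl' hex hb hb0 hx hx0 hR)
  by_cases hcase : ∃ u ∈ P, u ≠ 0 ∧ Q u = 0 ∧ g ⋆ u ∈ P'
  · obtain ⟨u, hu, hu0, hQu, hgu⟩ := hcase
    -- a singular vector orthogonal to `u` not going to `P'`
    have hy : ∃ y ∈ P, Q y = 0 ∧ polar Q u y = 0 ∧ g ⋆ y ∉ P' := by
      by_contra hcon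
      push Not at hcon
      have hW : ∀ y ∈ P ⊓ perpQ Q (Submodule.span F {u}), g ⋆ y ∈ P' := by
        intro y hy
        have huy : polar Q u y = 0 := mem_perpQ.1 hy.2 u (Submodule.mem_span_singleton_self u)
        have hQu' : Q (⟨u, hu⟩ : P) = 0 := hQu
        have hP := hp.ND hQ'
        obtain ⟨y₁, y₂, h1, h2, h3, h4, h5⟩ := Cfsg.Agent.Lib.OmGeo.exists_split hP h7 (e := (⟨u, hu⟩ : P))
          (y := (⟨y, hy.1⟩ : P)) (by simpa using huy) hQu'
        have h5' : y = (y₁ : ι → F) + y₂ := congrArg Subtype.val h5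
        rw [h5', Matrix.mulVec_add]
        exact P'.add_mem (hcon _ y₁.2 h1 (by simpa using h3)) (hcon _ y₂.2 h2 (by simpa using h4))
      set W : Submodule F (ι → F) := P ⊓ perpQ Q (Submodule.span F {u}) with hWd
      have hf1 : finrank F P ≤ finrank F W + finrank F ↥(Submodule.span F {u}) := finrank_inf_perp hQ' P _
      have hf2 : finrank F ↥(Submodule.span F {u}) = 1 := finrank_span_singleton hu0
      have hf3 : W.map (linOf g).toLinearMap ≤ P' := by
        rintro _ ⟨y, hy, rfl⟩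
        exact hW y hy
      have hf4 : finrank F ↥(W.map (linOf g).toLinearMap) = finrank F W := LinearEquiv.finrank_map_eq _ _
      have hf5 : W.map (linOf g).toLinearMap = P' := Submodule.eq_of_le_of_finrank_le hf3 (by omega)
      apply hu0
      apply hinj
      by_contra hgu0
      obtain ⟨z, hz, hz'⟩ := hp.symm.nondeg hQ' hgu hgu0
      rw [← hf5] at hz
      obtain ⟨w, hw, rfl⟩ := hz
      apply hz'
      show polar Q (g ⋆ u) (g ⋆ w) = 0
      rw [polar_iso hgi]
      exact mem_perpQ.1 hw.2 u (Submodule.mem_span_singleton_self u)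
    obtain ⟨y, hyP, hQy, huy, hgy⟩ := hy
    have hR := R_conj hgi hgM (hH u hu hQu y hyP huy)
    obtain ⟨Y₀, hY₀, Y₁, hY₁, hdec⟩ := hp.decomp (g ⋆ y)
    have hY₀0 : Y₀ ≠ 0 := by
      rintro rfl
      apply hgy
      rw [hdec, zero_add]
      exact hY₁
    have hQX : Q (g ⋆ u) = 0 := hR.sing
    have hX0 : g ⋆ u ≠ 0 := fun h => hu0 (hinj h)
    have h1 : polar Q (g ⋆ u) Y₁ = 0 := by
      have h2 : polar Q (g ⋆ u) (g ⋆ y) = 0 := hR.perp
      rw [hdec, polar_add_right, polar_comm Q (g ⋆ u) Y₀, hp.orth Y₀ hY₀ _ hgu, zero_add] at h2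
      exact h2
    have hR2 : R hQ M (g ⋆ u) Y₀ := by
      have h2 := R_sub hR (hH' _ hgu hQX Y₁ hY₁ h1)
      rwa [hdec, add_sub_cancel_right] at h2
    have hall : ∀ w ∈ P, R hQ M (g ⋆ u) w := fun w hw => right_all hQ' hp.symm h7 hH hgu hY₀ hY₀0 hR2 hw
    obtain ⟨w, hw, w', hw', hww', -⟩ := hp.hyp_in hQ' (C := ∅) (by simp) (by simp; omega)
    have hw0 : w ≠ 0 := by
      rintro rfl
      have := hww'.vw
      rw [polar_zero_left] at this
      exact zero_ne_one this
    exact ⟨w, hw, g ⋆ u, hgu, hw0, hX0, R_swap' (hall w hw) hww'.Qv⟩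
  · push Not at hcase
    -- a singular vector not going to `P`
    have hu₀ : ∃ u₀ ∈ P, Q u₀ = 0 ∧ g ⋆ u₀ ∉ P := by
      by_contra hcon
      push Not at hcon
      apply hg
      intro x hx
      obtain ⟨y₁, hy₁, y₂, hy₂, h1, h2, rfl⟩ := hp.split_in hQ' h7 hx
      rw [Matrix.mulVec_add]
      exact P.add_mem (hcon y₁ hy₁ h1) (hcon y₂ hy₂ h2)
    obtain ⟨u₀, hu₀P, hQu₀, hgu₀⟩ := hu₀
    have hu₀0 : u₀ ≠ 0 := by
      rintro rfl
      apply hgu₀
      rw [Matrix.mulVec_zero]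
      exact P.zero_mem
    obtain ⟨a, ha, b, hb, hab, h2⟩ := hp.hyp_in hQ' (C := {u₀}) (by simpa using hu₀P) (by simp; omega)
    have hu₀a : polar Q u₀ a = 0 := (h2 u₀ (by simp)).1
    have hu₀b : polar Q u₀ b = 0 := (h2 u₀ (by simp)).2
    refine mixA1 hQ' hp h7 hH (R_conj hgi hgM (hH u₀ hu₀P hQu₀ a ha hu₀a)) (fun α β hαβ => ?_) hgu₀
    have e1 : α • (g ⋆ u₀) + β • (g ⋆ a) = g ⋆ (α • u₀ + β • a) := by
      rw [Matrix.mulVec_add, Matrix.mulVec_smul, Matrix.mulVec_smul]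
    rw [e1] at hαβ
    have e2 : Q (α • u₀ + β • a) = 0 := by
      rw [Q_ad, Q_sm, Q_sm, hQu₀, hab.Qv, polar_sm_l, polar_sm_r, hu₀a]
      ring
    have e3 : α • u₀ + β • a = 0 := by
      by_contra hne
      exact hcase _ (P.add_mem (P.smul_mem _ hu₀P) (P.smul_mem _ ha)) hne e2 hαβ
    have e4 : β = 0 := by
      have h3 : polar Q (α • u₀ + β • a) b = 0 := by rw [e3, polar_zero_left]
      rw [polar_add_left, polar_sm_l, polar_sm_l, hu₀b, hab.vw] at h3
      linear_combination h3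
    refine ⟨?_, e4⟩
    rw [e4, zero_smul, add_zero] at e3
    exact (smul_eq_zero.1 e3).resolve_right hu₀0

end Cfsg.Agent.Lib.OmSmall
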