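import Mathlib
import Cfsg.Agent.Lib.OmSubfield

/-!
# Subfield subgroups of the orthogonal groups, second part

The rank reduction for long root elements.
-/

set_option autoImplicit false
set_option linter.unusedSectionVars false
set_option linter.unusedVariables false

namespace Cfsg.Agent.Lib.OmSubfield

open Matrix QuadraticMap Cfsg Cfsg.Geo Module
open Cfsg.Agent.Lib.OrthoBasic Cfsg.Agent.Lib.OmCalc
open Cfsg.Agent.Lib.USubfield (emb emb_add emb_sub emb_neg emb_zero emb_smul emb_single emb_inj mem_iff)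
open Cfsg.Agent.Lib.SympT (GL_ext mulVec_mul_GL mulVec_inv_GL inv_mulVec_GL)
open Cfsg.Agent.Lib.SubfieldMax (pow_mulVec_of_quad pow_mulVec_of_step)

local notation:70 g:71 " ⋆ " x:70 => Matrix.mulVec (Units.val g) x

section Core

variable {ι : Type} [Fintype ι] [DecidableEq ι] {F : Type*} [Field F] [Fintype F]
  {Q : QuadraticForm F (ι → F)} {hQ : Nondeg Q} {M : Subgroup (GL ι F)} {F₀ : Subfield F}

theorem alg_id {F : Type*} [Field F] (a₁ a₂ a₃ a₄ b₁ b₂ b₃ b₄ X₁ X₂ X₃ X₄ E₁ E₂ E₃ E₄ x c p : F)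
    (hc : c = a₁ * b₂ - b₁ * a₂ + (a₃ * b₄ - b₃ * a₄)) (hp : p = a₁ * b₂ - b₁ * a₂) (hc0 : c ≠ 0) (hp0 : p ≠ 0) :
    x - ((X₁ * E₂ - X₂ * E₁ + X₃ * E₄ - X₄ * E₃)
        - (-(b₁ * X₂ - b₂ * X₁ + b₃ * X₄ - b₄ * X₃) / c) * (a₁ * E₂ - a₂ * E₁ + a₃ * E₄ - a₄ * E₃)
        - ((a₁ * X₂ - a₂ * X₁ + a₃ * X₄ - a₄ * X₃) / c) * (b₁ * E₂ - b₂ * E₁ + b₃ * E₄ - b₄ * E₃)) =
      x + ((a₂ * b₃ - b₂ * a₃) * X₁ - (a₁ * b₃ - b₁ * a₃) * X₂ + p * X₃) *
          ((-(p * c)⁻¹) * ((a₂ * b₄ - b₂ * a₄) * E₁ - (a₁ * b₄ - b₁ * a₄) * E₂ + p * E₄))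
        - ((-(p * c)⁻¹) * ((a₂ * b₄ - b₂ * a₄) * X₁ - (a₁ * b₄ - b₁ * a₄) * X₂ + p * X₄)) *
          ((a₂ * b₃ - b₂ * a₃) * E₁ - (a₁ * b₃ - b₁ * a₃) * E₂ + p * E₃) := by
  field_simp
  rw [hc, hp]
  ring

/-- The rank reduction. -/
theorem core (hQ : Nondeg Q) {u v e₁ e₂ e₃ e₄ : ι → F} (hu : Q u = 0) (hv : Q v = 0) (huv : polar Q u v = 0)
    (h1 : Q e₁ = 0) (h2 : Q e₂ = 0) (h3 : Q e₃ = 0) (h4 : Q e₄ = 0) (h12 : polar Q e₁ e₂ = 0)
    (h13 : polar Q e₁ e₃ = 0) (h14 : polar Q e₁ e₄ = 0) (h23 : polar Q e₂ e₃ = 0) (h24 : polar Q e₂ e₄ = 0)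
    (h34 : polar Q e₃ e₄ = 0) (hs : R hQ M u v) (hA : R hQ M e₁ e₂) (hB : R hQ M e₃ e₄)
    (hπ : pp Q u v e₁ e₂ ≠ 0) (hc : pp Q u v e₁ e₂ + pp Q u v e₃ e₄ ≠ 0) (hc4 : pp Q u v e₁ e₂ + pp Q u v e₃ e₄ ≠ 4) :
    R hQ M (pp Q u v e₂ e₃ • e₁ - pp Q u v e₁ e₃ • e₂ + pp Q u v e₁ e₂ • e₃)
      ((-(pp Q u v e₁ e₂ * (pp Q u v e₁ e₂ + pp Q u v e₃ e₄))⁻¹) •
        (pp Q u v e₂ e₄ • e₁ - pp Q u v e₁ e₄ • e₂ + pp Q u v e₁ e₂ • e₄)) := by
  classical
  obtain ⟨_, _, m0⟩ := id hs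
  obtain ⟨_, _, m1⟩ := id hA
  obtain ⟨_, _, m2⟩ := id hB
  have h21 : polar Q e₂ e₁ = 0 := by rw [polar_comm]; exact h12
  have h31 : polar Q e₃ e₁ = 0 := by rw [polar_comm]; exact h13
  have h41 : polar Q e₄ e₁ = 0 := by rw [polar_comm]; exact h14
  have h32 : polar Q e₃ e₂ = 0 := by rw [polar_comm]; exact h23
  have h42 : polar Q e₄ e₂ = 0 := by rw [polar_comm]; exact h24
  have h43 : polar Q e₄ e₃ = 0 := by rw [polar_comm]; exact h34
  have h11 : polar Q e₁ e₁ = 0 := by rw [polar_self', h1, mul_zero]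
  have h22 : polar Q e₂ e₂ = 0 := by rw [polar_self', h2, mul_zero]
  have h33 : polar Q e₃ e₃ = 0 := by rw [polar_self', h3, mul_zero]
  have h44 : polar Q e₄ e₄ = 0 := by rw [polar_self', h4, mul_zero]
  have huu : polar Q u u = 0 := by rw [polar_self', hu, mul_zero]
  have hvv : polar Q v v = 0 := by rw [polar_self', hv, mul_zero]
  have hvu : polar Q v u = 0 := by rw [polar_comm]; exact huv
  set bb : (ι → F) → ι → F := fun x => polar Q x e₁ • e₂ - polar Q x e₂ • e₁ + polar Q x e₃ • e₄ - polar Q x e₄ • e₃ with hbb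
  have hbbt : ∀ x t, polar Q (bb x) t = polar Q x e₁ * polar Q e₂ t - polar Q x e₂ * polar Q e₁ t +
      polar Q x e₃ * polar Q e₄ t - polar Q x e₄ * polar Q e₃ t := by
    intro x t
    simp only [hbb, polar_add_left, polar_sub_left, polar_smul_l]
  have hbb1 : ∀ x, polar Q (bb x) e₁ = 0 := fun x => by rw [hbbt, h21, h11, h41, h31]; ring
  have hbb2 : ∀ x, polar Q (bb x) e₂ = 0 := fun x => by rw [hbbt, h22, h12, h42, h32]; ring
  have hbb3 : ∀ x, polar Q (bb x) e₃ = 0 := fun x => by rw [hbbt, h23, h13, h43, h33]; ring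
  have hbb4 : ∀ x, polar Q (bb x) e₄ = 0 := fun x => by rw [hbbt, h24, h14, h44, h34]; ring
  have hbbbb : ∀ x, bb (bb x) = 0 := fun x => by
    show polar Q (bb x) e₁ • e₂ - polar Q (bb x) e₂ • e₁ + polar Q (bb x) e₃ • e₄ - polar Q (bb x) e₄ • e₃ = 0
    rw [hbb1, hbb2, hbb3, hbb4]
    simp
  have hskew : ∀ x t, polar Q (bb x) t = - polar Q x (bb t) := by
    intro x t
    rw [hbbt]
    simp only [hbb, polar_add_right, polar_sub_right, polar_smul_r]
    rw [polar_comm Q t e₁, polar_comm Q t e₂, polar_comm Q t e₃, polar_comm Q t e₄]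
    ring
  have hbbadd : ∀ x y, bb (x + y) = bb x + bb y := by
    intro x y
    simp only [hbb, polar_add_left, add_smul]
    abel
  have hbbsub : ∀ x y, bb (x - y) = bb x - bb y := by
    intro x y
    simp only [hbb, polar_sub_left, sub_smul]
    abel
  have hbbsmul : ∀ (l : F) x, bb (l • x) = l • bb x := by
    intro l x
    simp only [hbb, polar_smul_l]
    module
  -- the element
  set s0 := sE hQ ‹Q u = 0› ‹polar Q u v = 0› with hs0d
  set s1 := sE hQ ‹Q e₁ = 0› ‹polar Q e₁ e₂ = 0› with hs1d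
  set s2 := sE hQ ‹Q e₃ = 0› ‹polar Q e₃ e₄ = 0› with hs2d
  have hs0 : ∀ x, s0 ⋆ x = x + polar Q x u • v - polar Q x v • u := by
    intro x
    rw [hs0d, sE_apply', hv]
    simp
  have hs1 : ∀ x, s1 ⋆ x = x + polar Q x e₁ • e₂ - polar Q x e₂ • e₁ := by
    intro x
    rw [hs1d, sE_apply', h2]
    simp
  have hs2 : ∀ x, s2 ⋆ x = x + polar Q x e₃ • e₄ - polar Q x e₄ • e₃ := by
    intro x
    rw [hs2d, sE_apply', h4]
    simp
  set T : GL ι F := s0 * (s1 * s2) with hTd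
  have hTM : T ∈ M := M.mul_mem m0 (M.mul_mem m1 m2)
  have hb : ∀ x, (s1 * s2) ⋆ x = x + bb x := by
    intro x
    rw [mulVec_mul_GL, hs2, hs1]
    simp only [polar_add_left, polar_sub_left, polar_smul_l, h41, h31, h42, h32, mul_zero, add_zero, sub_zero, hbb]
    abel
  have hT : ∀ x, T ⋆ x = x + bb x + polar Q (x + bb x) u • v - polar Q (x + bb x) v • u := by
    intro x
    rw [hTd, mulVec_mul_GL, hb, hs0]
  set c : F := pp Q u v e₁ e₂ + pp Q u v e₃ e₄ with hcd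
  set bu := bb u with hbu
  set bv := bb v with hbv
  have hbuu : polar Q bu u = 0 := by
    rw [hbu, hbbt, polar_comm Q u e₁, polar_comm Q u e₂, polar_comm Q u e₃, polar_comm Q u e₄]
    ring
  have hbvv : polar Q bv v = 0 := by
    rw [hbv, hbbt, polar_comm Q v e₁, polar_comm Q v e₂, polar_comm Q v e₃, polar_comm Q v e₄]
    ring
  have hbuv : polar Q bu v = c := by
    rw [hbu, hbbt, polar_comm Q u e₁, polar_comm Q u e₂, polar_comm Q u e₃, polar_comm Q u e₄, hcd, pp, pp]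
    ring
  have hbvu : polar Q bv u = -c := by
    rw [hbv, hbbt, polar_comm Q v e₁, polar_comm Q v e₂, polar_comm Q v e₃, polar_comm Q v e₄, hcd, pp, pp]
    ring
  have hbbu : bb bu = 0 := hbbbb u
  have hbbv : bb bv = 0 := hbbbb v
  have hTu : T ⋆ u = (1 - c) • u + bu := by
    rw [hT, polar_add_left, polar_add_left, huu, hbuu, huv, hbuv]
    module
  have hTbu : T ⋆ bu = bu - c • u := by
    rw [hT, hbbu, add_zero, hbuu, hbuv]
    module
  have hTv : T ⋆ v = (1 - c) • v + bv := by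
    rw [hT, polar_add_left, polar_add_left, hvu, hbvu, hvv, hbvv]
    module
  have hTbv : T ⋆ bv = bv - c • v := by
    rw [hT, hbbv, add_zero, hbvu, hbvv]
    module
  have hτ : (2 - c) ^ 2 ≠ 4 := by
    intro h0
    have h5 : c * (c - 4) = 0 := by linear_combination h0
    rcases mul_eq_zero.1 h5 with h6 | h6
    · exact hc h6
    · exact hc4 (by linear_combination h6)
  set m := Fintype.card F ^ 2 - 1 with hm
  have hmc : (m : F) = -1 := by
    have hq : 1 ≤ Fintype.card F ^ 2 := Nat.one_le_pow _ _ Fintype.card_pos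
    rw [hm, Nat.cast_sub hq, Nat.cast_pow, FiniteField.cast_card_eq_zero]
    simp
  have hval : ((T ^ m : GL ι F) : Matrix ι ι F) = (T : Matrix ι ι F) ^ m := Units.val_pow_eq_pow_val _ _
  have hmu : (T ^ m) ⋆ u = u := by
    rw [hval]
    apply pow_mulVec_of_quad _ (2 - c) hτ
    rw [hTu, Matrix.mulVec_add, Matrix.mulVec_smul, hTu, hTbu]
    module
  have hmbu : (T ^ m) ⋆ bu = bu := by
    rw [hval]
    apply pow_mulVec_of_quad _ (2 - c) hτ
    rw [hTbu, Matrix.mulVec_sub, Matrix.mulVec_smul, hTu, hTbu]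
    module
  have hmv : (T ^ m) ⋆ v = v := by
    rw [hval]
    apply pow_mulVec_of_quad _ (2 - c) hτ
    rw [hTv, Matrix.mulVec_add, Matrix.mulVec_smul, hTv, hTbv]
    module
  have hmbv : (T ^ m) ⋆ bv = bv := by
    rw [hval]
    apply pow_mulVec_of_quad _ (2 - c) hτ
    rw [hTbv, Matrix.mulVec_sub, Matrix.mulVec_smul, hTv, hTbv]
    module
  have hmy : ∀ y, polar Q y u = 0 → polar Q y v = 0 → polar Q y bu = 0 → polar Q y bv = 0 →
      (T ^ m) ⋆ y = y - bb y := by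
    intro y y1 y2 y3 y4
    have e1 : polar Q (bb y) u = 0 := by rw [hskew, y3, neg_zero]
    have e2 : polar Q (bb y) v = 0 := by rw [hskew, y4, neg_zero]
    have t1 : T ⋆ y = y + bb y := by
      rw [hT, polar_add_left, polar_add_left, y1, y2, e1, e2]
      simp
    have t2 : T ⋆ bb y = bb y := by
      rw [hT, hbbbb, add_zero, e1, e2]
      simp
    rw [hval, pow_mulVec_of_step _ y (bb y) t1 t2 m, hmc]
    module
  -- the vectors
  have hpu : pp Q u v e₁ e₂ = polar Q e₁ u * polar Q e₂ v - polar Q e₁ v * polar Q e₂ u := rfl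
  set π₁₂ := pp Q u v e₁ e₂ with hπ₁₂
  set κ : F := -(π₁₂ * c)⁻¹ with hκ
  set p₁ : ι → F := pp Q u v e₂ e₃ • e₁ - pp Q u v e₁ e₃ • e₂ + π₁₂ • e₃ with hp₁
  set p₂ : ι → F := pp Q u v e₂ e₄ • e₁ - pp Q u v e₁ e₄ • e₂ + π₁₂ • e₄ with hp₂
  have hp₁Q : Q p₁ = 0 := by
    rw [hp₁, Q_add, Q_sub, Q_smul, Q_smul, Q_smul, h1, h2, h3]
    simp only [polar_smul_l, polar_smul_r, polar_add_left, polar_sub_left, h12, h13, h23]
    ring
  have hp₂Q : Q p₂ = 0 := by
    rw [hp₂, Q_add, Q_sub, Q_smul, Q_smul, Q_smul, h1, h2, h4]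
    simp only [polar_smul_l, polar_smul_r, polar_add_left, polar_sub_left, h12, h14, h24]
    ring
  have hp₁₂ : polar Q p₁ (κ • p₂) = 0 := by
    rw [polar_smul_r, hp₁, hp₂]
    simp only [polar_smul_l, polar_smul_r, polar_add_left, polar_sub_left, polar_add_right, polar_sub_right,
      h11, h12, h14, h21, h22, h24, h31, h32, h34]
    ring
  refine R_of_mem hQ hp₁Q hp₁₂ (M.pow_mem hTM m) ?_
  intro x
  -- decomposition
  have huv0 : polar Q u bv = -c := by rw [polar_comm]; exact hbvu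
  have hvbu : polar Q v bu = c := by rw [polar_comm]; exact hbuv
  have huu' : polar Q u bu = 0 := by rw [polar_comm]; exact hbuu
  have hvv' : polar Q v bv = 0 := by rw [polar_comm]; exact hbvv
  have hbubu : polar Q bu bu = 0 := by rw [hskew, hbbu, polar_zero_right, neg_zero]
  have hbvbv : polar Q bv bv = 0 := by rw [hskew, hbbv, polar_zero_right, neg_zero]
  have hbubv : polar Q bu bv = 0 := by rw [hskew, hbbv, polar_zero_right, neg_zero]
  have hbvbu : polar Q bv bu = 0 := by rw [hskew, hbbu, polar_zero_right, neg_zero]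
  set α : F := - polar Q x bv / c with hα
  set α' : F := polar Q x bu / c with hα'
  set β : F := polar Q x v / c with hβ
  set β' : F := - polar Q x u / c with hβ'
  set y : ι → F := x - α • u - α' • v - β • bu - β' • bv with hy
  have y1 : polar Q y u = 0 := by
    rw [hy]
    simp only [polar_sub_left, polar_smul_l, huu, hvu, hbuu, hbvu]
    rw [hβ']
    field_simp
    ring
  have y2 : polar Q y v = 0 := by
    rw [hy]
    simp only [polar_sub_left, polar_smul_l, huv, hvv, hbuv, hbvv]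
    rw [hβ]
    field_simp
    ring
  have y3 : polar Q y bu = 0 := by
    rw [hy]
    simp only [polar_sub_left, polar_smul_l, huu', hvbu, hbubu, hbvbu]
    rw [hα']
    field_simp
    ring
  have y4 : polar Q y bv = 0 := by
    rw [hy]
    simp only [polar_sub_left, polar_smul_l, huv0, hvv', hbubv, hbvbv]
    rw [hα]
    field_simp
    ring
  have hx : x = α • u + α' • v + β • bu + β' • bv + y := by
    rw [hy]
    abel
  have hby : bb y = bb x - α • bu - α' • bv := by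
    rw [hy, hbbsub, hbbsub, hbbsub, hbbsub, hbbsmul, hbbsmul, hbbsmul, hbbsmul, hbbu, hbbv]
    simp only [smul_zero, sub_zero]
    rfl
  have hfin : (T ^ m) ⋆ x = x - (bb x - α • bu - α' • bv) := by
    have e1 : (T ^ m) ⋆ x = α • u + α' • v + β • bu + β' • bv + (y - bb y) := by
      conv_lhs => rw [hx]
      rw [Matrix.mulVec_add, Matrix.mulVec_add, Matrix.mulVec_add, Matrix.mulVec_add, Matrix.mulVec_smul,
        Matrix.mulVec_smul, Matrix.mulVec_smul, Matrix.mulVec_smul, hmu, hmv, hmbu, hmbv, hmy y y1 y2 y3 y4]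
    rw [e1, hby, hy]
    abel
  rw [hfin, siegelLin_apply, Q_smul, hp₂Q, mul_zero, zero_mul, add_zero, polar_smul_r]
  -- coordinates
  have e1 : polar Q x p₁ = pp Q u v e₂ e₃ * polar Q x e₁ - pp Q u v e₁ e₃ * polar Q x e₂ + π₁₂ * polar Q x e₃ := by
    rw [hp₁]
    simp only [polar_add_right, polar_sub_right, polar_smul_r]
  have e2 : polar Q x p₂ = pp Q u v e₂ e₄ * polar Q x e₁ - pp Q u v e₁ e₄ * polar Q x e₂ + π₁₂ * polar Q x e₄ := by
    rw [hp₂]
    simp only [polar_add_right, polar_sub_right, polar_smul_r]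
  have e3 : polar Q x bu = polar Q e₁ u * polar Q x e₂ - polar Q e₂ u * polar Q x e₁ + polar Q e₃ u * polar Q x e₄ -
      polar Q e₄ u * polar Q x e₃ := by
    rw [hbu]
    simp only [hbb, polar_add_right, polar_sub_right, polar_smul_r]
    rw [polar_comm Q u e₁, polar_comm Q u e₂, polar_comm Q u e₃, polar_comm Q u e₄]
  have e4 : polar Q x bv = polar Q e₁ v * polar Q x e₂ - polar Q e₂ v * polar Q x e₁ + polar Q e₃ v * polar Q x e₄ -
      polar Q e₄ v * polar Q x e₃ := by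
    rw [hbv]
    simp only [hbb, polar_add_right, polar_sub_right, polar_smul_r]
    rw [polar_comm Q v e₁, polar_comm Q v e₂, polar_comm Q v e₃, polar_comm Q v e₄]
  have e5 : bu = polar Q e₁ u • e₂ - polar Q e₂ u • e₁ + polar Q e₃ u • e₄ - polar Q e₄ u • e₃ := by
    rw [hbu]
    simp only [hbb]
    rw [polar_comm Q u e₁, polar_comm Q u e₂, polar_comm Q u e₃, polar_comm Q u e₄]
  have e6 : bv = polar Q e₁ v • e₂ - polar Q e₂ v • e₁ + polar Q e₃ v • e₄ - polar Q e₄ v • e₃ := by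
    rw [hbv]
    simp only [hbb]
    rw [polar_comm Q v e₁, polar_comm Q v e₂, polar_comm Q v e₃, polar_comm Q v e₄]
  rw [hα, hα', e1, e2, e3, e4, e5, e6, hp₁, hp₂, hκ]
  ext i
  simp only [Pi.sub_apply, Pi.add_apply, Pi.smul_apply, smul_eq_mul, hbb]
  have := alg_id (polar Q e₁ u) (polar Q e₂ u) (polar Q e₃ u) (polar Q e₄ u) (polar Q e₁ v) (polar Q e₂ v)
    (polar Q e₃ v) (polar Q e₄ v) (polar Q x e₁) (polar Q x e₂) (polar Q x e₃) (polar Q x e₄) (e₁ i) (e₂ i) (e₃ i) (e₄ i)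
    (x i) c π₁₂ (by rw [hcd, hπ₁₂, pp, pp]) (by rw [hπ₁₂, pp]) hc hπ
  simp only [pp]
  exact this

/-- The rank reduction, with root elements with rational parts. -/
theorem core2 (hQ : Nondeg Q) {u v e₁ e₂ e₃ e₄ e₅ f₂ f₃ f₄ : ι → F} (hu : Q u = 0) (hv : Q v = 0) (huv : polar Q u v = 0)
    (h1 : Q e₁ = 0) (h2 : Q e₂ = 0) (h3 : Q e₃ = 0) (h4 : Q e₄ = 0) (h5 : Q e₅ = 0) (h12 : polar Q e₁ e₂ = 0)
    (h13 : polar Q e₁ e₃ = 0) (h14 : polar Q e₁ e₄ = 0) (h23 : polar Q e₂ e₃ = 0) (h24 : polar Q e₂ e₄ = 0)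
    (h34 : polar Q e₃ e₄ = 0) (h15 : polar Q e₁ e₅ = 0) (h25 : polar Q e₂ e₅ = 0) (h35 : polar Q e₃ e₅ = 0)
    (h45 : polar Q e₄ e₅ = 0) (hs : R hQ M u v) (hA : R hQ M e₁ e₂) (hB : R hQ M e₃ e₄)
    (hf4 : R hQ M f₄ e₅) (hf3 : R hQ M f₃ e₄) (hf2 : R hQ M f₂ e₄)
    (f41 : polar Q f₄ e₁ = 0) (f42 : polar Q f₄ e₂ = 0) (f43 : polar Q f₄ e₃ = 0) (f44 : polar Q f₄ e₄ = 1)
    (f31 : polar Q f₃ e₁ = 0) (f32 : polar Q f₃ e₂ = 0) (f33 : polar Q f₃ e₃ = 1) (f35 : polar Q f₃ e₅ = 0)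
    (f21 : polar Q f₂ e₁ = 0) (f22 : polar Q f₂ e₂ = 1) (f23 : polar Q f₂ e₃ = 0) (f25 : polar Q f₂ e₅ = 0)
    (hπ : pp Q u v e₁ e₂ ≠ 0) (hc : pp Q u v e₁ e₂ + pp Q u v e₃ e₄ ≠ 0) (hc4 : pp Q u v e₁ e₂ + pp Q u v e₃ e₄ ≠ 4) :
    R hQ M e₄ ((- pp Q u v e₁ e₂ / (pp Q u v e₁ e₂ + pp Q u v e₃ e₄)) • e₅) ∧
      R hQ M e₄ ((pp Q u v e₁ e₃ / (pp Q u v e₁ e₂ + pp Q u v e₃ e₄)) • e₅) := by
  have h0 := core hQ hu hv huv h1 h2 h3 h4 h12 h13 h14 h23 h24 h34 hs hA hB hπ hc hc4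
  set π₁₂ := pp Q u v e₁ e₂ with hπ₁₂
  set c := π₁₂ + pp Q u v e₃ e₄ with hcd
  set κ : F := -(π₁₂ * c)⁻¹ with hκ
  set p₁ : ι → F := pp Q u v e₂ e₃ • e₁ - pp Q u v e₁ e₃ • e₂ + π₁₂ • e₃ with hp₁
  set p₂ : ι → F := pp Q u v e₂ e₄ • e₁ - pp Q u v e₁ e₄ • e₂ + π₁₂ • e₄ with hp₂
  have hf₄p₁ : polar Q f₄ p₁ = 0 := by
    rw [hp₁]
    simp only [polar_add_right, polar_sub_right, polar_smul_r, f41, f42, f43]
    ring
  have he₅p₁ : polar Q e₅ p₁ = 0 := by
    rw [hp₁]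
    simp only [polar_add_right, polar_sub_right, polar_smul_r, polar_comm Q e₅ e₁, polar_comm Q e₅ e₂,
      polar_comm Q e₅ e₃, h15, h25, h35]
    ring
  have he₅p₂ : polar Q e₅ (κ • p₂) = 0 := by
    rw [hp₂]
    simp only [polar_add_right, polar_sub_right, polar_smul_r, polar_comm Q e₅ e₁, polar_comm Q e₅ e₂,
      polar_comm Q e₅ e₄, h15, h25, h45]
    ring
  have s1 := R_comm h0 hf4 h5 hf₄p₁ he₅p₁ he₅p₂
  have e1 : polar Q f₄ (κ • p₂) = κ * π₁₂ := by
    rw [hp₂]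
    simp only [polar_add_right, polar_sub_right, polar_smul_r, f41, f42, f44]
    ring
  rw [e1] at s1
  have he₄p₁ : polar Q e₄ ((κ * π₁₂) • p₁) = 0 := by
    rw [hp₁]
    simp only [polar_add_right, polar_sub_right, polar_smul_r, polar_comm Q e₄ e₁, polar_comm Q e₄ e₂,
      polar_comm Q e₄ e₃, h14, h24, h34]
    ring
  have s2 := R_comm s1 hf3 h4 f35 h45 he₄p₁
  have s3 := R_comm s1 hf2 h4 f25 h45 he₄p₁
  have e2 : polar Q f₃ ((κ * π₁₂) • p₁) = - π₁₂ / c := by
    rw [hp₁]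
    simp only [polar_add_right, polar_sub_right, polar_smul_r, f31, f32, f33]
    rw [hκ]
    field_simp
    ring
  have e3 : polar Q f₂ ((κ * π₁₂) • p₁) = pp Q u v e₁ e₃ / c := by
    rw [hp₁]
    simp only [polar_add_right, polar_sub_right, polar_smul_r, f21, f22, f23]
    rw [hκ]
    field_simp
    ring
  rw [e2] at s2
  rw [e3] at s3
  exact ⟨s2, s3⟩

theorem pp_add_right (u v s t t' : ι → F) : pp Q u v s (t + t') = pp Q u v s t + pp Q u v s t' := by
  simp only [pp, polar_add_left]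
  ring

theorem pp_smul_right (u v s t : ι → F) (l : F) : pp Q u v s (l • t) = l * pp Q u v s t := by
  simp only [pp, polar_smul_l]
  ring

theorem pp_smul_left (u v s t : ι → F) (l : F) : pp Q u v (l • s) t = l * pp Q u v s t := by
  simp only [pp, polar_smul_l]
  ring

theorem pp_self (u v s : ι → F) : pp Q u v s s = 0 := by
  simp only [pp]
  ring

/-- The choice of the parameters. -/
theorem choose_params {A B D : F} (hA : A ≠ 0) (hr : B / A ∉ F₀) :
    ∃ δ ε : F₀, (ε = 1 ∨ ε = -1) ∧ A + δ * B ≠ 0 ∧ A + δ * B + D ≠ 0 ∧ (ε : F) * (A + δ * B + D) ≠ 4 := by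
  have hB : B ≠ 0 := by
    intro h0
    apply hr
    rw [h0, zero_div]
    exact F₀.zero_mem
  have hAB : A + B ≠ 0 := by
    intro h0
    apply hr
    have : B / A = -1 := by
      rw [div_eq_iff hA]
      linear_combination h0
    rw [this]
    exact F₀.neg_mem F₀.one_mem
  obtain ⟨δ, h1, h2⟩ : ∃ δ : F₀, A + δ * B ≠ 0 ∧ A + δ * B + D ≠ 0 := by
    by_cases h3 : A + D = 0
    · refine ⟨1, ?_, ?_⟩
      · simpa using hAB
      · intro h4
        apply hB
        simp only [OneMemClass.coe_one, one_mul] at h4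
        linear_combination h4 - h3
    · refine ⟨0, ?_, ?_⟩
      · simpa using hA
      · simpa using h3
  by_cases h4 : A + δ * B + D = 4
  · refine ⟨δ, -1, Or.inr rfl, h1, h2, ?_⟩
    intro h5
    simp only [Subfield.coe_neg, OneMemClass.coe_one] at h5
    rw [h4] at h5 h2
    have h6 : (8 : F) = 0 := by linear_combination -h5
    have h7 : (2 : F) = 0 := by
      have : (2 : F) ^ 3 = 0 := by linear_combination h6
      exact pow_eq_zero_iff (by norm_num) |>.1 this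
    apply h2
    linear_combination 2 * h7
  · exact ⟨δ, 1, Or.inl rfl, h1, h2, by simpa using h4⟩

theorem alg_ratio {ε S C B : F} (hεε : ε * ε = 1) (hεm : ε ∈ F₀) (hS : S ≠ 0) (hC : C ≠ 0)
    (hk : ε * (B / (ε * C)) ∈ F₀) (hk2 : ε * (-(ε * S) / (ε * C)) ∈ F₀) : B / S ∈ F₀ := by
  have hε : ε ≠ 0 := by
    intro h0
    rw [h0, zero_mul] at hεε
    exact zero_ne_one hεε
  have e1 : ε * (B / (ε * C)) = B / C := by
    field_simp
  have e3 : ε * (-(ε * S) / (ε * C)) = -(ε * S) / C := by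
    field_simp
  have e2 : S / C = (-ε) * (ε * (-(ε * S) / (ε * C))) := by
    rw [e3, show (-ε) * (-(ε * S) / C) = (ε * ε) * S / C by ring, hεε, one_mul]
  rw [e1] at hk
  have hk2' : S / C ∈ F₀ := by
    rw [e2]
    exact F₀.mul_mem (F₀.neg_mem hεm) hk2
  have e : B / S = (B / C) / (S / C) := by
    field_simp
  rw [e]
  exact F₀.div_mem hk hk2'

/-- A root element with a non-rational coefficient in a frame. -/
theorem exists_nonrat (hQ : Nondeg Q) (h : RatQ Q F₀) (hn : 13 ≤ Fintype.card ι)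
    (hM : ∀ e y : ι → F₀, Q0 h e = 0 → polar (Q0 h) e y = 0 → R hQ M (emb e) (emb y))
    {u v : ι → F} (hu : Q u = 0) (hv : Q v = 0) (huv : polar Q u v = 0) (hs : R hQ M u v)
    (hind : ∀ a b : F, a • u + b • v = 0 → a = 0 ∧ b = 0)
    (htv : ¬ ∃ p q : F, tv F₀ u = p • u + q • v) :
    ∃ x y : ℕ → ι → F₀, HF (Q0 h) 5 x y ∧ ∃ α : F, α ∉ F₀ ∧ R hQ M (emb (x 3)) (α • emb (y 4)) := by
  classical
  obtain ⟨a, b, c, ha, hb, hc, hab, hac, hbc, hπ, hr⟩ := exists_triple hQ h hn hu hv huv hind htv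
  have ha0 : a ≠ 0 := by
    rintro rfl
    apply hπ
    rw [pp, emb_zero, polar_zero_left, polar_zero_left]
    ring
  have hi : ∀ l m n : F₀, l • a + m • b + n • c = 0 → l = 0 ∧ m = 0 ∧ n = 0 := by
    intro l m n hlmn
    have e0 : (l : F) • emb a + (m : F) • emb b + (n : F) • emb c = 0 := by
      rw [← emb_smul, ← emb_smul, ← emb_smul, ← emb_add, ← emb_add, hlmn, emb_zero]
    have e1 := congrArg (fun t => pp Q u v (emb a) t) e0
    simp only [pp_add_right, pp_smul_right, pp_self] at e1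
    have e2 : pp Q u v (emb a) 0 = 0 := by simp [pp]
    rw [e2, mul_zero, zero_add] at e1
    have hn0 : n = 0 := by
      by_contra hn0
      have hn' : (n : F) ≠ 0 := fun h0 => hn0 (Subtype.ext h0)
      apply hr
      have : pp Q u v (emb a) (emb c) / pp Q u v (emb a) (emb b) = - (m : F) / n := by
        rw [div_eq_div_iff hπ hn']
        linear_combination e1
      rw [this]
      exact F₀.div_mem (F₀.neg_mem m.2) n.2
    rw [hn0] at e1 hlmn
    simp only [ZeroMemClass.coe_zero, zero_mul, add_zero] at e1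
    have hm0 : m = 0 := Subtype.ext ((mul_eq_zero.1 e1).resolve_right hπ)
    rw [hm0] at hlmn
    simp only [zero_smul, add_zero] at hlmn
    exact ⟨(smul_eq_zero.1 hlmn).resolve_right ha0, hm0, hn0⟩
  obtain ⟨x, y, rfl, rfl, rfl, hH⟩ := exists_frame (Q0_ND hQ h) (by rw [finrank_emb]; exact hn) ha hb hc hab hac hbc hi
  refine ⟨x, y, hH, ?_⟩
  have hE := HF_emb h hH
  -- scalars
  obtain ⟨δ, ε, hε, h1, h2, h3⟩ := choose_params (D := pp Q u v (emb (x 2)) (emb (x 3))) hπ hr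
  have hε2 : ε * ε = 1 := by
    rcases hε with rfl | rfl <;> simp
  have hε0 : ε ≠ 0 := by
    intro h0
    rw [h0, zero_mul] at hε2
    exact zero_ne_one hε2
  have hε0' : (ε : F) ≠ 0 := fun h0 => hε0 (Subtype.ext h0)
  -- facts of the rational frame
  have X : ∀ i j, i < 5 → j < 5 → polar (Q0 h) (x i) (x j) = 0 := fun i j hi hj => (hH i hi j hj).2.2.1
  have Y : ∀ i j, i < 5 → j < 5 → polar (Q0 h) (y i) (y j) = 0 := fun i j hi hj => (hH i hi j hj).2.2.2.1
  have Z : ∀ i j, i < 5 → j < 5 → i ≠ j → polar (Q0 h) (x i) (y j) = 0 := fun i j hi hj hij => by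
    have := (hH i hi j hj).2.2.2.2
    rwa [if_neg hij] at this
  have Z1 : ∀ i, i < 5 → polar (Q0 h) (x i) (y i) = 1 := fun i hi => by
    have := (hH i hi i hi).2.2.2.2
    rwa [if_pos rfl] at this
  have Z' : ∀ i j, i < 5 → j < 5 → i ≠ j → polar (Q0 h) (y j) (x i) = 0 := fun i j hi hj hij => by
    rw [polar_comm]
    exact Z i j hi hj hij
  have Z1' : ∀ i, i < 5 → polar (Q0 h) (y i) (x i) = 1 := fun i hi => by
    rw [polar_comm]
    exact Z1 i hi
  have QX : ∀ i, i < 5 → Q0 h (x i) = 0 := fun i hi => (hH i hi i hi).1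
  have QY : ∀ i, i < 5 → Q0 h (y i) = 0 := fun i hi => (hH i hi i hi).2.1
  -- the vectors
  set E₂ : ι → F₀ := ε • (x 1 + δ • x 2) with hE₂
  set E₄ : ι → F₀ := ε • x 3 with hE₄
  set G₂ : ι → F₀ := ε • y 1 with hG₂
  set G₃ : ι → F₀ := y 2 - δ • y 1 with hG₃
  set G₄ : ι → F₀ := ε • y 3 with hG₄
  have q1 : Q0 h (x 0) = 0 := QX 0 (by norm_num)
  have q2 : Q0 h E₂ = 0 := by
    rw [hE₂, Q_smul, Q_add, Q_smul, QX 1 (by norm_num), QX 2 (by norm_num), polar_smul_r, X 1 2 (by norm_num) (by norm_num)]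
    ring
  have q3 : Q0 h (x 2) = 0 := QX 2 (by norm_num)
  have q4 : Q0 h E₄ = 0 := by rw [hE₄, Q_smul, QX 3 (by norm_num), mul_zero]
  have q5 : Q0 h (y 4) = 0 := QY 4 (by norm_num)
  have g2 : Q0 h G₂ = 0 := by rw [hG₂, Q_smul, QY 1 (by norm_num), mul_zero]
  have g3 : Q0 h G₃ = 0 := by
    rw [hG₃, Q_sub, Q_smul, QY 1 (by norm_num), QY 2 (by norm_num), polar_smul_r, Y 2 1 (by norm_num) (by norm_num)]
    ring
  have g4 : Q0 h G₄ = 0 := by rw [hG₄, Q_smul, QY 3 (by norm_num), mul_zero]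
  have p12 : polar (Q0 h) (x 0) E₂ = 0 := by
    rw [hE₂]
    simp only [polar_smul_r, polar_add_right, X 0 1 (by norm_num) (by norm_num), X 0 2 (by norm_num) (by norm_num)]
    ring
  have p13 : polar (Q0 h) (x 0) (x 2) = 0 := X 0 2 (by norm_num) (by norm_num)
  have p14 : polar (Q0 h) (x 0) E₄ = 0 := by
    rw [hE₄, polar_smul_r, X 0 3 (by norm_num) (by norm_num), mul_zero]
  have p15 : polar (Q0 h) (x 0) (y 4) = 0 := Z 0 4 (by norm_num) (by norm_num) (by norm_num)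
  have p23 : polar (Q0 h) E₂ (x 2) = 0 := by
    rw [hE₂]
    simp only [polar_smul_l, polar_add_left, X 1 2 (by norm_num) (by norm_num), X 2 2 (by norm_num) (by norm_num)]
    ring
  have p24 : polar (Q0 h) E₂ E₄ = 0 := by
    rw [hE₂, hE₄]
    simp only [polar_smul_l, polar_smul_r, polar_add_left, X 1 3 (by norm_num) (by norm_num), X 2 3 (by norm_num) (by norm_num)]
    ring
  have p25 : polar (Q0 h) E₂ (y 4) = 0 := by
    rw [hE₂]
    simp only [polar_smul_l, polar_add_left, Z 1 4 (by norm_num) (by norm_num) (by norm_num),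
      Z 2 4 (by norm_num) (by norm_num) (by norm_num)]
    ring
  have p34 : polar (Q0 h) (x 2) E₄ = 0 := by
    rw [hE₄, polar_smul_r, X 2 3 (by norm_num) (by norm_num), mul_zero]
  have p35 : polar (Q0 h) (x 2) (y 4) = 0 := Z 2 4 (by norm_num) (by norm_num) (by norm_num)
  have p45 : polar (Q0 h) E₄ (y 4) = 0 := by
    rw [hE₄, polar_smul_l, Z 3 4 (by norm_num) (by norm_num) (by norm_num), mul_zero]
  have f45 : polar (Q0 h) G₄ (y 4) = 0 := by
    rw [hG₄, polar_smul_l, Y 3 4 (by norm_num) (by norm_num), mul_zero]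
  have f34 : polar (Q0 h) G₃ E₄ = 0 := by
    rw [hG₃, hE₄]
    simp only [polar_smul_l, polar_smul_r, polar_sub_left, Z' 3 2 (by norm_num) (by norm_num) (by norm_num),
      Z' 3 1 (by norm_num) (by norm_num) (by norm_num)]
    ring
  have f24 : polar (Q0 h) G₂ E₄ = 0 := by
    rw [hG₂, hE₄]
    simp only [polar_smul_l, polar_smul_r, Z' 3 1 (by norm_num) (by norm_num) (by norm_num)]
    ring
  have f41 : polar (Q0 h) G₄ (x 0) = 0 := by
    rw [hG₄, polar_smul_l, Z' 0 3 (by norm_num) (by norm_num) (by norm_num), mul_zero]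
  have f42 : polar (Q0 h) G₄ E₂ = 0 := by
    rw [hG₄, hE₂]
    simp only [polar_smul_l, polar_smul_r, polar_add_right, Z' 1 3 (by norm_num) (by norm_num) (by norm_num),
      Z' 2 3 (by norm_num) (by norm_num) (by norm_num)]
    ring
  have f43 : polar (Q0 h) G₄ (x 2) = 0 := by
    rw [hG₄, polar_smul_l, Z' 2 3 (by norm_num) (by norm_num) (by norm_num), mul_zero]
  have f44 : polar (Q0 h) G₄ E₄ = 1 := by
    rw [hG₄, hE₄, polar_smul_l, polar_smul_r, Z1' 3 (by norm_num), mul_one, hε2]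
  have f31 : polar (Q0 h) G₃ (x 0) = 0 := by
    rw [hG₃, polar_sub_left, polar_smul_l, Z' 0 2 (by norm_num) (by norm_num) (by norm_num),
      Z' 0 1 (by norm_num) (by norm_num) (by norm_num)]
    ring
  have f32 : polar (Q0 h) G₃ E₂ = 0 := by
    rw [hG₃, hE₂]
    simp only [polar_smul_l, polar_smul_r, polar_add_right, polar_sub_left, Z' 1 2 (by norm_num) (by norm_num) (by norm_num),
      Z' 2 1 (by norm_num) (by norm_num) (by norm_num), Z1' 1 (by norm_num), Z1' 2 (by norm_num)]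
    ring
  have f33 : polar (Q0 h) G₃ (x 2) = 1 := by
    rw [hG₃, polar_sub_left, polar_smul_l, Z1' 2 (by norm_num), Z' 2 1 (by norm_num) (by norm_num) (by norm_num)]
    ring
  have f35 : polar (Q0 h) G₃ (y 4) = 0 := by
    rw [hG₃, polar_sub_left, polar_smul_l, Y 2 4 (by norm_num) (by norm_num), Y 1 4 (by norm_num) (by norm_num)]
    ring
  have f21 : polar (Q0 h) G₂ (x 0) = 0 := by
    rw [hG₂, polar_smul_l, Z' 0 1 (by norm_num) (by norm_num) (by norm_num), mul_zero]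
  have f22 : polar (Q0 h) G₂ E₂ = 1 := by
    rw [hG₂, hE₂]
    simp only [polar_smul_l, polar_smul_r, polar_add_right, Z1' 1 (by norm_num), Z' 2 1 (by norm_num) (by norm_num) (by norm_num)]
    linear_combination hε2
  have f23 : polar (Q0 h) G₂ (x 2) = 0 := by
    rw [hG₂, polar_smul_l, Z' 2 1 (by norm_num) (by norm_num) (by norm_num), mul_zero]
  have f25 : polar (Q0 h) G₂ (y 4) = 0 := by
    rw [hG₂, polar_smul_l, Y 1 4 (by norm_num) (by norm_num), mul_zero]
  have C := fun {s t : ι → F₀} (e : polar (Q0 h) s t = 0) => (polar_Q0_eq_zero h).1 e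
  have C1 : ∀ {s t : ι → F₀}, polar (Q0 h) s t = 1 → polar Q (emb s) (emb t) = 1 := by
    intro s t e
    have := congrArg Subtype.val e
    rw [polar_Q0] at this
    simpa using this
  have D := fun {s : ι → F₀} (e : Q0 h s = 0) => (Q0_eq_zero h).1 e
  -- the pairings
  have ppe₂ : pp Q u v (emb (x 0)) (emb E₂) = (ε : F) * (pp Q u v (emb (x 0)) (emb (x 1)) + δ * pp Q u v (emb (x 0)) (emb (x 2))) := by
    rw [hE₂, emb_smul, emb_add, emb_smul, pp_smul_right, pp_add_right, pp_smul_right]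
  have ppe₃ : pp Q u v (emb (x 2)) (emb E₄) = (ε : F) * pp Q u v (emb (x 2)) (emb (x 3)) := by
    rw [hE₄, emb_smul, pp_smul_right]
  have hπ' : pp Q u v (emb (x 0)) (emb E₂) ≠ 0 := by
    rw [ppe₂]
    exact mul_ne_zero hε0' h1
  have hcsum : pp Q u v (emb (x 0)) (emb E₂) + pp Q u v (emb (x 2)) (emb E₄) =
      (ε : F) * (pp Q u v (emb (x 0)) (emb (x 1)) + δ * pp Q u v (emb (x 0)) (emb (x 2)) + pp Q u v (emb (x 2)) (emb (x 3))) := by
    rw [ppe₂, ppe₃]
    ring
  have hc0 : pp Q u v (emb (x 0)) (emb E₂) + pp Q u v (emb (x 2)) (emb E₄) ≠ 0 := by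
    rw [hcsum]
    exact mul_ne_zero hε0' h2
  have hc4 : pp Q u v (emb (x 0)) (emb E₂) + pp Q u v (emb (x 2)) (emb E₄) ≠ 4 := by
    rw [hcsum]
    exact h3
  obtain ⟨s1, s2⟩ := core2 (M := M) hQ hu hv huv (D q1) (D q2) (D q3) (D q4) (D q5) (C p12) (C p13) (C p14) (C p23) (C p24) (C p34)
    (C p15) (C p25) (C p35) (C p45) hs (hM _ _ q1 p12) (hM _ _ q3 p34) (hM _ _ g4 f45) (hM _ _ g3 f34) (hM _ _ g2 f24)
    (C f41) (C f42) (C f43) (C1 f44) (C f31) (C f32) (C1 f33) (C f35) (C f21) (C1 f22) (C f23) (C f25) hπ' hc0 hc4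
  have hE₄e : (emb E₄ : ι → F) = (ε : F) • emb (x 3) := by rw [hE₄, emb_smul]
  obtain ⟨α₁, hα₁⟩ : ∃ α₁, α₁ = - pp Q u v (emb (x 0)) (emb E₂) / (pp Q u v (emb (x 0)) (emb E₂) + pp Q u v (emb (x 2)) (emb E₄)) :=
    ⟨_, rfl⟩
  obtain ⟨α₂, hα₂⟩ : ∃ α₂, α₂ = pp Q u v (emb (x 0)) (emb (x 2)) / (pp Q u v (emb (x 0)) (emb E₂) + pp Q u v (emb (x 2)) (emb E₄)) :=
    ⟨_, rfl⟩
  rw [← hα₁] at s1
  rw [← hα₂] at s2
  rw [hE₄e] at s1 s2
  have s1' := R_smul_right (D (QX 3 (by norm_num))) _ s1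
  have s2' := R_smul_right (D (QX 3 (by norm_num))) _ s2
  rw [smul_smul] at s1' s2'
  by_cases hk : (ε : F) * α₂ ∈ F₀
  · refine ⟨_, ?_, s1'⟩
    intro hk2
    apply hr
    rw [hα₂, hcsum] at hk
    rw [hα₁, hcsum, ppe₂] at hk2
    set A := pp Q u v (emb (x 0)) (emb (x 1)) with hA
    set B := pp Q u v (emb (x 0)) (emb (x 2)) with hB
    set Dd := pp Q u v (emb (x 2)) (emb (x 3)) with hDd
    have hεε : (ε : F) * ε = 1 := by
      have := congrArg Subtype.val hε2
      simpa using this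
    have hq : B / (A + δ * B) ∈ F₀ := alg_ratio hεε ε.2 h1 h2 hk hk2
    set r := B / (A + δ * B) with hrdef
    have hr0 : r ≠ 0 := by
      rw [hrdef]
      refine div_ne_zero ?_ h1
      intro h0
      apply hr
      rw [h0, zero_div]
      exact F₀.zero_mem
    have e3 : B = r * (A + δ * B) := by
      rw [hrdef, div_mul_cancel₀ _ h1]
    have e4 : 1 - r * δ ≠ 0 := by
      intro h0
      have : r * A = 0 := by linear_combination -e3 + B * h0
      exact (mul_ne_zero hr0 hπ) this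
    have e5 : B / A = r / (1 - r * δ) := by
      rw [div_eq_div_iff hπ e4]
      linear_combination e3
    rw [e5]
    exact F₀.div_mem hq (F₀.sub_mem F₀.one_mem (F₀.mul_mem hq δ.2))
  · exact ⟨_, hk, s2'⟩

end Core

section Frame

variable {ι : Type} [Fintype ι] [DecidableEq ι] {F : Type*} [Field F] [Fintype F]
  {Q : QuadraticForm F (ι → F)} {hQ : Nondeg Q} {M : Subgroup (GL ι F)} {F₀ : Subfield F}

/-- All the root elements of the Levi part of a frame. -/
theorem all_frame (hQ : Nondeg Q) (h : RatQ Q F₀)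
    (hM : ∀ e y : ι → F₀, Q0 h e = 0 → polar (Q0 h) e y = 0 → R hQ M (emb e) (emb y))
    {r : ℕ} (hr : r.Prime) (hcard : Fintype.card F = Nat.card F₀ ^ r) {x y : ℕ → ι → F₀}
    (hH : HF (Q0 h) 5 x y) {α : F} (hα : α ∉ F₀) (hαM : R hQ M (emb (x 3)) (α • emb (y 4))) :
    ∀ i j, i < 5 → j < 5 → i ≠ j → ∀ b : F, R hQ M (emb (x i)) (b • emb (y j)) := by
  classical
  have hEm := HF_emb h hH
  set E : Fin 5 → ι → F := fun i => emb (x i) with hEd
  set G : Fin 5 → ι → F := fun i => emb (y i) with hGd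
  have qE : ∀ i, Q (E i) = 0 := fun i => (hEm i i.2 i i.2).1
  have qG : ∀ i, Q (G i) = 0 := fun i => (hEm i i.2 i i.2).2.1
  have hEE : ∀ i j, polar Q (E i) (E j) = 0 := fun i j => (hEm i i.2 j j.2).2.2.1
  have hGG : ∀ i j, polar Q (G i) (G j) = 0 := fun i j => (hEm i i.2 j j.2).2.2.2.1
  have hEG : ∀ i j, i ≠ j → polar Q (E i) (G j) = 0 := fun i j hij => by
    have := (hEm i i.2 j j.2).2.2.2.2
    have hne : (i : ℕ) ≠ j := fun h => hij (Fin.ext h)
    rwa [if_neg hne] at this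
  have hGE : ∀ i j, i ≠ j → polar Q (G j) (E i) = 0 := fun i j hij => by
    rw [polar_comm]
    exact hEG i j hij
  have hEG1 : ∀ i, polar Q (E i) (G i) = 1 := fun i => by
    have := (hEm i i.2 i i.2).2.2.2.2
    rwa [if_pos rfl] at this
  have hGE1 : ∀ i, polar Q (G i) (E i) = 1 := fun i => by
    rw [polar_comm]
    exact hEG1 i
  have hperp : ∀ i j, i ≠ j → ∀ a : F, polar Q (E i) ((-a) • G j) = 0 := fun i j hij a => by
    rw [polar_smul_r, hEG i j hij, mul_zero]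
  let X : Fin 5 → Fin 5 → F → GL ι F := fun i j a =>
    if h' : i ≠ j then sE hQ (qE i) (hperp i j h' a) else 1
  have hXv : ∀ i j (h' : i ≠ j) a, X i j a = sE hQ (qE i) (hperp i j h' a) := fun i j h' a => dif_pos h'
  have hXa : ∀ i j (h' : i ≠ j) a z, X i j a ⋆ z = z - (a * polar Q z (E i)) • G j + (a * polar Q z (G j)) • E i := by
    intro i j h' a z
    rw [hXv i j h', sE_apply', Q_smul, qG, mul_zero, zero_mul, add_zero, polar_smul_r, neg_smul, neg_mul, neg_smul]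
    module
  have hmul : ∀ i j, i ≠ j → ∀ a b, X i j a * X i j b = X i j (a + b) := by
    intro i j hij a b
    apply GL_ext
    intro z
    rw [mulVec_mul_GL, hXa i j hij, hXa i j hij, hXa i j hij]
    simp only [polar_add_left, polar_sub_left, polar_smul_l, hEE, hEG i j hij, hGE1, hGG, hEG1, hGE i j hij]
    module
  have hcomm : ∀ i j k, i ≠ j → j ≠ k → i ≠ k → ∀ a b, X i j a * X j k b * (X i j a)⁻¹ * (X j k b)⁻¹ = X i k (a * b) := by
    intro i j k hij hjk hik a b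
    have e : X i j a * X j k b = X i k (a * b) * (X j k b * X i j a) := by
      apply GL_ext
      intro z
      rw [mulVec_mul_GL, mulVec_mul_GL, mulVec_mul_GL, hXa i j hij, hXa j k hjk, hXa i j hij, hXa j k hjk, hXa i k hik]
      simp only [polar_add_left, polar_sub_left, polar_smul_l, hEE, hGG, hEG1, hGE1, hEG i j hij, hEG j k hjk,
        hEG i k hik, hGE i j hij, hGE j k hjk, hGE i k hik]
      module
    rw [e]
    group
  have hT : ∀ i j, i ≠ j → ∀ a ∈ F₀, X i j a ∈ M := by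
    intro i j hij a ha
    rw [hXv i j hij]
    have e1 : Q0 h (x i) = 0 := (hH i i.2 i i.2).1
    have e2 : polar (Q0 h) (x i) ((-(⟨a, ha⟩ : F₀)) • y j) = 0 := by
      have := (hH i i.2 j j.2).2.2.2.2
      have hne : (i : ℕ) ≠ j := fun h => hij (Fin.ext h)
      rw [if_neg hne] at this
      rw [polar_smul_r, this, mul_zero]
    obtain ⟨p1, p2, p3⟩ := hM _ _ e1 e2
    have e3 : emb ((-(⟨a, ha⟩ : F₀)) • y j) = (-a) • G j := by
      rw [emb_smul]
      rfl
    have e4 : sE hQ p1 p2 = sE hQ (qE i) (hperp i j hij a) := by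
      apply GL_ext
      intro z
      rw [sE_apply, sE_apply, e3]
    rw [← e4]
    exact p3
  have h34 : (3 : Fin 5) ≠ 4 := by decide
  have hstart : X 3 4 (-α) ∈ M := by
    rw [hXv 3 4 h34]
    obtain ⟨p1, p2, p3⟩ := hαM
    convert p3 using 1
    apply GL_ext
    intro z
    rw [sE_apply, sE_apply, neg_neg]
    rfl
  have hα' : -α ∉ F₀ := fun h0 => hα (by simpa using F₀.neg_mem h0)
  intro i j hi hj hij b
  have hij' : (⟨i, hi⟩ : Fin 5) ≠ ⟨j, hj⟩ := fun h => hij (congrArg Fin.val h)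
  have hfin := Cfsg.Agent.Lib.SpSubfield.all_X X hmul hcomm hr hcard (by simp) hT h34 hα' hstart hij' (-b)
  rw [hXv _ _ hij'] at hfin
  refine ⟨(hEm i hi i hi).1, ?_, ?_⟩
  · rw [polar_smul_r]
    have := (hEm i hi j hj).2.2.2.2
    rw [if_neg hij] at this
    rw [show polar Q (emb (x i)) (emb (y j)) = 0 from this, mul_zero]
  · convert hfin using 1
    apply GL_ext
    intro z
    rw [sE_apply, sE_apply, neg_neg]

/-- All Siegel transformations with a given rational centre. -/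
theorem T_frame (hQ : Nondeg Q) (h : RatQ Q F₀) (hn : 13 ≤ Fintype.card ι)
    (hM : ∀ e y : ι → F₀, Q0 h e = 0 → polar (Q0 h) e y = 0 → R hQ M (emb e) (emb y))
    {x y : ℕ → ι → F₀} (hH : HF (Q0 h) 5 x y)
    (hall : ∀ i j, i < 5 → j < 5 → i ≠ j → ∀ b : F, R hQ M (emb (x i)) (b • emb (y j)))
    {i k l : ℕ} (hi : i < 5) (hk : k < 5) (hl : l < 5) (hik : i ≠ k) (hil : i ≠ l) (hkl : k ≠ l) :
    T hQ M (emb (x i)) := by
  classical
  have hEm := HF_emb h hH
  have qEi : Q (emb (x i)) = 0 := (hEm i hi i hi).1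
  -- the submodule of good directions
  let A : Submodule F (ι → F) :=
    { carrier := {z | ∀ c : F, R hQ M (emb (x i)) (c • z)}
      add_mem' := by
        intro a b ha hb c
        rw [smul_add]
        exact R_add (ha c) (hb c)
      zero_mem' := by
        intro c
        rw [smul_zero]
        exact R_zero qEi
      smul_mem' := by
        intro d a ha c
        rw [smul_smul]
        exact ha _ }
  have hA : ∀ z, z ∈ A ↔ ∀ c : F, R hQ M (emb (x i)) (c • z) := fun z => Iff.rfl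
  -- singular rational vectors orthogonal to a pair
  have step1 : ∀ m, m < 5 → i ≠ m → ∀ z : ι → F₀, Q0 h z = 0 → polar (Q0 h) z (x i) = 0 → polar (Q0 h) z (x m) = 0 →
      polar (Q0 h) z (y m) = 0 → emb z ∈ A := by
    intro m hm him z hz1 hz2 hz3 hz4 c
    have e1 : R hQ M (emb (x m)) (emb z) := by
      refine hM _ _ (hH m hm m hm).1 ?_
      rw [polar_comm]
      exact hz3
    have e2 := R_comm (hall i m hi hm him c) e1 ((Q0_eq_zero h).1 hz1) (hEm m hm i hi).2.2.1 ((polar_Q0_eq_zero h).1 hz2)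
      (by rw [polar_smul_r, (polar_Q0_eq_zero h).1 hz4, mul_zero])
    have e3 : polar Q (emb (x m)) (c • emb (y m)) = c := by
      rw [polar_smul_r]
      have := (hEm m hm m hm).2.2.2.2
      rw [if_pos rfl] at this
      rw [show polar Q (emb (x m)) (emb (y m)) = 1 from this, mul_one]
    rw [e3] at e2
    have e4 := R_swap' e2 (by rw [Q_smul, qEi, mul_zero])
    exact R_smul_right qEi c e4
  have hXX : ∀ a b, a < 5 → b < 5 → polar (Q0 h) (x a) (x b) = 0 := fun a b ha hb => (hH a ha b hb).2.2.1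
  have hYY : ∀ a b, a < 5 → b < 5 → polar (Q0 h) (y a) (y b) = 0 := fun a b ha hb => (hH a ha b hb).2.2.2.1
  have hXY : ∀ a b, a < 5 → b < 5 → a ≠ b → polar (Q0 h) (x a) (y b) = 0 := fun a b ha hb hab => by
    have := (hH a ha b hb).2.2.2.2
    rwa [if_neg hab] at this
  have hYX : ∀ a b, a < 5 → b < 5 → a ≠ b → polar (Q0 h) (y a) (x b) = 0 := fun a b ha hb hab => by
    rw [polar_comm]
    exact hXY b a hb ha (Ne.symm hab)
  have hXY1 : ∀ a, a < 5 → polar (Q0 h) (x a) (y a) = 1 := fun a ha => by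
    have := (hH a ha a ha).2.2.2.2
    rwa [if_pos rfl] at this
  have hGk : emb (y k) ∈ A := fun c => hall i k hi hk hik c
  have hGl : emb (y l) ∈ A := fun c => hall i l hi hl hil c
  have hEk : emb (x k) ∈ A := step1 l hl hil _ (hH k hk k hk).1 (hXX k i hk hi) (hXX k l hk hl) (hXY k l hk hl hkl)
  have hEl : emb (x l) ∈ A := step1 k hk hik _ (hH l hl l hl).1 (hXX l i hl hi) (hXX l k hl hk) (hXY l k hl hk (Ne.symm hkl))
  -- rational vectors orthogonal to the centre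
  have step3 : ∀ d : ι → F₀, polar (Q0 h) d (x i) = 0 → emb d ∈ A := by
    intro d hd
    set d₂ : ι → F₀ := d - polar (Q0 h) d (y k) • x k - polar (Q0 h) d (x k) • y k with hd₂
    have hk1 := hXY1 k hk
    have hk2 : polar (Q0 h) (y k) (x k) = 1 := by rw [polar_comm]; exact hk1
    have hkk : polar (Q0 h) (x k) (x k) = 0 := hXX k k hk hk
    have hkk' : polar (Q0 h) (y k) (y k) = 0 := hYY k k hk hk
    have d2i : polar (Q0 h) d₂ (x i) = 0 := by
      rw [hd₂]
      simp only [polar_sub_left, polar_smul_l, hd, hXX k i hk hi, hYX k i hk hi (Ne.symm hik)]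
      ring
    have d2k : polar (Q0 h) d₂ (x k) = 0 := by
      rw [hd₂]
      simp only [polar_sub_left, polar_smul_l, hkk, hk2]
      ring
    have d2k' : polar (Q0 h) d₂ (y k) = 0 := by
      rw [hd₂]
      simp only [polar_sub_left, polar_smul_l, hk1, hkk']
      ring
    obtain ⟨t, a, b, ht, hst, htw⟩ := exists_sing_split (hH l hl l hl).1 (hH l hl l hl).2.1 (hXY1 l hl) d₂
    have ht1 := htw (x i) (hXX l i hl hi) (hYX l i hl hi (Ne.symm hil)) d2i
    have ht2 := htw (x k) (hXX l k hl hk) (hYX l k hl hk (Ne.symm hkl)) d2k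
    have ht3 := htw (y k) (hXY l k hl hk (Ne.symm hkl)) (hYY l k hl hk) d2k'
    have htA := step1 k hk hik t ht ht1 ht2 ht3
    have e : (emb d : ι → F) = emb t + (a : F) • emb (x l) + (b : F) • emb (y l) +
        ((polar (Q0 h) d (y k) : F₀) : F) • emb (x k) + ((polar (Q0 h) d (x k) : F₀) : F) • emb (y k) := by
      rw [← emb_smul, ← emb_smul, ← emb_smul, ← emb_smul, ← emb_add, ← emb_add, ← emb_add, ← emb_add, ← hst, hd₂]
      congr 1
      abel
    rw [e]
    exact A.add_mem (A.add_mem (A.add_mem (A.add_mem htA (A.smul_mem _ hEl)) (A.smul_mem _ hGl)) (A.smul_mem _ hEk))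
      (A.smul_mem _ hGk)
  refine ⟨qEi, fun w hw => ?_⟩
  -- expand
  have hwA : w ∈ A := by
    have hsum : w = ∑ j, w j • emb ((Pi.single j (1 : F₀)) - polar (Q0 h) (Pi.single j 1) (x i) • y i) := by
      simp only [emb_sub, emb_smul, smul_sub, Finset.sum_sub_distrib, smul_smul]
      rw [← vec_expand (F₀ := F₀) w]
      have e1 : ∑ j, (w j * ((polar (Q0 h) (Pi.single j 1) (x i) : F₀) : F)) • emb (y i) =
          (∑ j, w j * ((polar (Q0 h) (Pi.single j 1) (x i) : F₀) : F)) • (emb (y i) : ι → F) := by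
        rw [Finset.sum_smul]
      rw [e1]
      have e2 : ∑ j, w j * ((polar (Q0 h) (Pi.single j 1) (x i) : F₀) : F) = polar Q w (emb (x i)) := by
        rw [polar_expand (F₀ := F₀) w]
        exact Finset.sum_congr rfl fun j _ => by rw [polar_Q0]
      rw [e2, polar_comm, hw, zero_smul, sub_zero]
    rw [hsum]
    refine A.sum_mem fun j _ => A.smul_mem _ (step3 _ ?_)
    rw [polar_sub_left, polar_smul_l, polar_comm (Q0 h) (y i) (x i), hXY1 i hi]
    ring
  have := hwA 1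
  rwa [one_smul] at this

/-- The main theorem in the abstract setting. -/
theorem main_abstract (hQ : Nondeg Q) (h : RatQ Q F₀) (hn : 13 ≤ Fintype.card ι) {r : ℕ} (hr : r.Prime)
    (hcard : Fintype.card F = Nat.card F₀ ^ r) (hiso : ∀ t ∈ M, ∀ v, Q (t ⋆ v) = Q v)
    (hM : ∀ e y : ι → F₀, Q0 h e = 0 → polar (Q0 h) e y = 0 → R hQ M (emb e) (emb y))
    {g : GL ι F} (hgM : g ∈ M)
    (hg : g ∉ (Matrix.GeneralLinearGroup.map (F₀.subtype : F₀ →+* F)).range ⊔ scalars ι F) :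
    omegaGL ⇑Q ≤ M := by
  classical
  obtain ⟨x₀, y₀, hx₀, hy₀, hxy₀, hi₀, htv⟩ := exists_line hQ h hn hg
  have hgi := hiso g hgM
  have hginj : ∀ {x : ι → F}, g ⋆ x = 0 → x = 0 := by
    intro x hx
    have h1 := inv_mulVec_GL g x
    rw [hx, Matrix.mulVec_zero] at h1
    exact h1.symm
  have hs := R_conj hgi hgM (hM x₀ y₀ hx₀ hxy₀)
  obtain ⟨x, y, hH, α, hα, hαM⟩ := exists_nonrat hQ h hn hM
    (by rw [hgi]; exact (Q0_eq_zero h).1 hx₀) (by rw [hgi]; exact (Q0_eq_zero h).1 hy₀)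
    (by rw [polar_iso hgi]; exact (polar_Q0_eq_zero h).1 hxy₀) hs
    (by
      intro a b hab
      apply hi₀
      apply hginj
      rw [Matrix.mulVec_add, Matrix.mulVec_smul, Matrix.mulVec_smul]
      exact hab) htv
  have hall := all_frame hQ h hM hr hcard hH hα hαM
  have T0 := T_frame hQ h hn hM hH hall (i := 0) (k := 1) (l := 2) (by norm_num) (by norm_num) (by norm_num) (by norm_num)
    (by norm_num) (by norm_num)
  have T1 := T_frame hQ h hn hM hH hall (i := 1) (k := 0) (l := 2) (by norm_num) (by norm_num) (by norm_num) (by norm_num)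
    (by norm_num) (by norm_num)
  have hEm := HF_emb h hH
  have hY01 : polar (Q0 h) (y 0) (y 1) = 0 := (hH 0 (by norm_num) 1 (by norm_num)).2.2.2.1
  obtain ⟨p1, p2, p3⟩ := hM _ _ (hH 0 (by norm_num) 0 (by norm_num)).2.1 hY01
  have T2 := T_conj (sE_iso hQ p1 p2) p3 T1
  have e1 : sE hQ p1 p2 ⋆ emb (x 1) = emb (x 1) - emb (y 0) := by
    have a1 : polar Q (emb (x 1)) (emb (y 0)) = 0 := by
      have := (hEm 1 (by norm_num) 0 (by norm_num)).2.2.2.2
      rwa [if_neg (by norm_num)] at this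
    have a2 : polar Q (emb (x 1)) (emb (y 1)) = 1 := by
      have := (hEm 1 (by norm_num) 1 (by norm_num)).2.2.2.2
      rwa [if_pos rfl] at this
    have a3 : Q (emb (y 1)) = 0 := (hEm 1 (by norm_num) 1 (by norm_num)).2.1
    rw [sE_apply', a1, a2, a3]
    simp
  rw [e1] at T2
  refine omega_le_of_opp (by omega) T0 T2 ?_
  have a1 : polar Q (emb (x 1)) (emb (x 0)) = 0 := (hEm 1 (by norm_num) 0 (by norm_num)).2.2.1
  have a2 : polar Q (emb (y 0)) (emb (x 0)) = 1 := by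
    rw [polar_comm]
    have := (hEm 0 (by norm_num) 0 (by norm_num)).2.2.2.2
    rwa [if_pos rfl] at this
  rw [polar_sub_left, a1, a2]
  simp

end Frame

end Cfsg.Agent.Lib.OmSubfield
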