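import Mathlib

/-!
# Field data for two generators of orthogonal groups

The regular representation of a commutative algebra, its trace form as a Gram matrix, and a lemma on additive subgroups of
`K × K` stable under `(s, s⁻¹)`.
-/

set_option autoImplicit false
set_option linter.unusedSectionVars false
set_option linter.unusedVariables false

namespace Cfsg.Agent.Lib.OmTwoField

open Matrix Module

section Alg

variable {F : Type*} [Field F] {A : Type*} [CommRing A] [Algebra F A] {n : ℕ} (b : Basis (Fin n) F A)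

/-- The regular representation. -/
noncomputable abbrev rho : A →ₐ[F] Matrix (Fin n) (Fin n) F := Algebra.leftMulMatrix b

/-- The Gram matrix of the trace form. -/
noncomputable abbrev gram : Matrix (Fin n) (Fin n) F := Algebra.traceMatrix F b

theorem gram_transpose : (gram b)ᵀ = gram b := by
  ext i j
  simp only [Matrix.transpose_apply, Algebra.traceMatrix_apply, Algebra.traceForm_apply]
  rw [mul_comm]

theorem rho_mulVec (y z : A) : rho b y *ᵥ (b.repr z : Fin n → F) = b.repr (y * z) :=
  Algebra.leftMulMatrix_mulVec_repr b y z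

theorem repr_dot (x y : A) : (b.repr x : Fin n → F) ⬝ᵥ (gram b *ᵥ (b.repr y : Fin n → F)) = Algebra.trace F A (x * y) := by
  have hT : ∀ i j, gram b i j = Algebra.trace F A (b i * b j) := by
    intro i j
    simp [Algebra.traceMatrix_apply, Algebra.traceForm_apply]
  have hx : x * y = (∑ i, b.repr x i • b i) * (∑ j, b.repr y j • b j) := by rw [b.sum_repr, b.sum_repr]
  rw [hx, Finset.sum_mul_sum, map_sum]
  simp only [dotProduct, Matrix.mulVec, Finset.mul_sum, map_sum, hT]
  refine Finset.sum_congr rfl fun i _ => Finset.sum_congr rfl fun j _ => ?_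
  have : (b.repr x i • b i) * (b.repr y j • b j) = (b.repr x i * b.repr y j) • (b i * b j) := by
    rw [smul_mul_smul_comm]
  rw [this, map_smul, smul_eq_mul]
  ring

theorem gram_mul_rho (y : A) : gram b * rho b y = (rho b y)ᵀ * gram b := by
  ext i j
  simp only [Matrix.mul_apply, Matrix.transpose_apply]
  have hT : ∀ i j, gram b i j = Algebra.trace F A (b i * b j) := by
    intro i j
    simp [Algebra.traceMatrix_apply, Algebra.traceForm_apply]
  have h1 : ∀ j, y * b j = ∑ k, rho b y k j • b k := by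
    intro j
    conv_lhs => rw [← b.sum_repr (y * b j)]
    refine Finset.sum_congr rfl fun k _ => ?_
    rw [Algebra.leftMulMatrix_eq_repr_mul]
  have e1 : Algebra.trace F A (b i * (y * b j)) = ∑ k, Algebra.trace F A (b i * b k) * rho b y k j := by
    rw [h1 j, Finset.mul_sum, map_sum]
    refine Finset.sum_congr rfl fun k _ => ?_
    rw [mul_smul_comm, map_smul, smul_eq_mul, mul_comm]
  have e2 : Algebra.trace F A ((y * b i) * b j) = ∑ k, rho b y k i * Algebra.trace F A (b k * b j) := by
    rw [h1 i, Finset.sum_mul, map_sum]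
    refine Finset.sum_congr rfl fun k _ => ?_
    rw [smul_mul_assoc, map_smul, smul_eq_mul]
  simp only [hT]
  rw [← e1, ← e2]
  congr 1
  ring

/-- Non-degeneracy of the trace form gives invertibility of the Gram matrix. -/
theorem gram_isUnit (hnd : ∀ x : A, (∀ y, Algebra.trace F A (x * y) = 0) → x = 0) : IsUnit (gram b) := by
  classical
  rw [← Matrix.mulVec_injective_iff_isUnit]
  have hker : ∀ v : Fin n → F, gram b *ᵥ v = 0 → v = 0 := by
    intro v hv
    have h1 : b.equivFun.symm v = 0 := by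
      apply hnd
      intro y
      have h2 := repr_dot b y (b.equivFun.symm v)
      have h3 : (b.repr (b.equivFun.symm v) : Fin n → F) = v := b.equivFun.apply_symm_apply v
      rw [h3, hv, dotProduct_zero, mul_comm] at h2
      exact h2.symm
    have h4 := b.equivFun.apply_symm_apply v
    rw [h1, map_zero] at h4
    exact h4.symm
  intro v w hvw
  have := hker (v - w) (by rw [Matrix.mulVec_sub, hvw, sub_self])
  exact sub_eq_zero.mp this

end Alg

section KK

variable {K : Type*} [Field K]

/-- A subgroup of `K × K` stable under `(s, s⁻¹)` for `s` in a set `S` closed under inverses and additively spanning `K`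
is everything, as soon as `s, s + 1 ∈ S` with `s² + s + 1 ≠ 0` and it contains a pair with both components non-zero. -/
theorem kk_lemma {S : Set K} (hS0 : ∀ s ∈ S, s ≠ 0) (hSinv : ∀ s ∈ S, s⁻¹ ∈ S) (hS1 : (1 : K) ∈ S)
    (hSpan : AddSubgroup.closure S = ⊤) {s : K} (hs : s ∈ S) (hs1 : s + 1 ∈ S) (hs2 : s ^ 2 + s + 1 ≠ 0)
    (P : AddSubgroup (K × K)) (hP : ∀ p ∈ P, ∀ t ∈ S, ((t * p.1, t⁻¹ * p.2) : K × K) ∈ P)
    {α β : K} (hα : (α, β) ∈ P) (hα0 : α ≠ 0) (hβ0 : β ≠ 0) : P = ⊤ := by
  have hs0 : s ≠ 0 := hS0 s hs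
  have hs10 : s + 1 ≠ 0 := hS0 _ hs1
  -- the second factor
  have h2 : ∀ y : K, y ≠ 0 → (0, y) ∈ P → ∀ c : K, (0, c * y) ∈ P := by
    intro y hy hyP c
    have hc : c ∈ AddSubgroup.closure S := by rw [hSpan]; trivial
    induction hc using AddSubgroup.closure_induction with
    | mem t ht =>
      have := hP _ hyP t⁻¹ (hSinv t ht)
      simpa using this
    | zero =>
      have h00 : ((0 : K), (0 : K)) ∈ P := P.zero_mem
      simpa using h00
    | add c d _ _ hc hd =>
      have := P.add_mem hc hd
      simpa [add_mul] using this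
    | neg c _ hc =>
      have := P.neg_mem hc
      simpa [neg_mul] using this
  have h1 : ∀ y : K, y ≠ 0 → (y, 0) ∈ P → ∀ c : K, (c * y, 0) ∈ P := by
    intro y hy hyP c
    have hc : c ∈ AddSubgroup.closure S := by rw [hSpan]; trivial
    induction hc using AddSubgroup.closure_induction with
    | mem t ht =>
      have := hP _ hyP t ht
      simpa using this
    | zero =>
      have h00 : ((0 : K), (0 : K)) ∈ P := P.zero_mem
      simpa using h00
    | add c d _ _ hc hd =>
      have := P.add_mem hc hd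
      simpa [add_mul] using this
    | neg c _ hc =>
      have := P.neg_mem hc
      simpa [neg_mul] using this
  -- the relation
  have h3 : (0, (s⁻¹ + 1 - (s + 1)⁻¹) * β) ∈ P := by
    have e1 := hP _ hα s hs
    have e2 := hP _ hα (s + 1) hs1
    have e3 := P.sub_mem (P.add_mem e1 hα) e2
    convert e3 using 1
    ext
    · simp; ring
    · simp; ring
  have h4 : s⁻¹ + 1 - (s + 1)⁻¹ ≠ 0 := by
    have : s⁻¹ + 1 - (s + 1)⁻¹ = (s ^ 2 + s + 1) / (s * (s + 1)) := by
      field_simp
      ring
    rw [this]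
    exact div_ne_zero hs2 (mul_ne_zero hs0 hs10)
  have hy0 : (s⁻¹ + 1 - (s + 1)⁻¹) * β ≠ 0 := mul_ne_zero h4 hβ0
  have h5 : ∀ c : K, (0, c) ∈ P := by
    intro c
    have := h2 _ hy0 h3 (c * ((s⁻¹ + 1 - (s + 1)⁻¹) * β)⁻¹)
    rwa [mul_assoc, inv_mul_cancel₀ hy0, mul_one] at this
  have h6 : (α, 0) ∈ P := by
    have := P.sub_mem hα (h5 β)
    simpa using this
  have h7 : ∀ c : K, (c, 0) ∈ P := by
    intro c
    have := h1 _ hα0 h6 (c * α⁻¹)
    rwa [mul_assoc, inv_mul_cancel₀ hα0, mul_one] at this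
  rw [eq_top_iff]
  rintro ⟨c, d⟩ -
  have := P.add_mem (h7 c) (h5 d)
  simpa using this

end KK

section Squares

variable {K : Type*} [Field K] [Fintype K]

theorem sum_two_squares (t : K) : ∃ a b : K, t = a ^ 2 + b ^ 2 := by
  classical
  by_cases h2 : Fintype.card K % 2 = 0
  · have hc : ringChar K = 2 := FiniteField.even_card_iff_char_two.mpr h2
    obtain ⟨c, hc'⟩ := FiniteField.isSquare_of_char_two hc t
    exact ⟨c, 0, by rw [hc']; ring⟩
  · have h2' : Fintype.card K % 2 = 1 := by omega
    obtain ⟨a, b, hab⟩ := FiniteField.exists_root_sum_quadratic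
      (f := Polynomial.X ^ 2) (g := Polynomial.X ^ 2 - Polynomial.C t)
      (Polynomial.degree_X_pow 2) (Polynomial.degree_X_pow_sub_C (by decide) t) h2'
    simp only [Polynomial.eval_pow, Polynomial.eval_X, Polynomial.eval_sub, Polynomial.eval_C] at hab
    exact ⟨a, b, by linear_combination -hab⟩

/-- The non-zero squares. -/
def sqSet (K : Type*) [Field K] : Set K := {s | ∃ c : K, c ≠ 0 ∧ s = c ^ 2}

theorem sqSet_ne {s : K} (h : s ∈ sqSet K) : s ≠ 0 := by
  obtain ⟨c, hc, rfl⟩ := h
  exact pow_ne_zero 2 hc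

theorem sqSet_inv {s : K} (h : s ∈ sqSet K) : s⁻¹ ∈ sqSet K := by
  obtain ⟨c, hc, rfl⟩ := h
  exact ⟨c⁻¹, inv_ne_zero hc, by rw [inv_pow]⟩

theorem sqSet_one : (1 : K) ∈ sqSet K := ⟨1, one_ne_zero, by ring⟩

theorem sqSet_span : AddSubgroup.closure (sqSet K) = ⊤ := by
  rw [eq_top_iff]
  rintro t -
  obtain ⟨a, b, rfl⟩ := sum_two_squares t
  have h : ∀ c : K, c ^ 2 ∈ AddSubgroup.closure (sqSet K) := by
    intro c
    by_cases hc : c = 0
    · rw [hc, zero_pow two_ne_zero]
      exact AddSubgroup.zero_mem _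
    · exact AddSubgroup.subset_closure ⟨c, hc, rfl⟩
  exact AddSubgroup.add_mem _ (h a) (h b)

/-- Two consecutive non-zero squares `s, s + 1` with `s² + s + 1 ≠ 0`. -/
theorem exists_consec (h8 : 8 ≤ Fintype.card K) (h14 : ringChar K ≠ 2 → 14 ≤ Fintype.card K) :
    ∃ s ∈ sqSet K, s + 1 ∈ sqSet K ∧ s ^ 2 + s + 1 ≠ 0 := by
  classical
  by_cases h2 : ringChar K = 2
  · -- characteristic two
    have hsq : ∀ t : K, t ≠ 0 → t ∈ sqSet K := by
      intro t ht
      obtain ⟨c, hc⟩ := FiniteField.isSquare_of_char_two h2 t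
      refine ⟨c, ?_, by rw [hc]; ring⟩
      rintro rfl
      apply ht
      rw [hc, mul_zero]
    haveI : CharP K 2 := by
      rw [← h2]
      exact ringChar.charP K
    let p : Polynomial K := Polynomial.X * (Polynomial.X + 1) * (Polynomial.X ^ 2 + Polynomial.X + 1)
    have hp : p.Monic := by
      simp only [p]
      monicity!
    have hdeg : p.natDegree < Fintype.card K := by
      have : p.natDegree ≤ 4 := by
        simp only [p]
        compute_degree
      omega
    obtain ⟨s, hs⟩ := Polynomial.exists_eval_ne_zero_of_natDegree_lt_card p hp.ne_zero (by rw [Cardinal.mk_fintype]; exact_mod_cast hdeg)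
    simp only [p, Polynomial.eval_mul, Polynomial.eval_add, Polynomial.eval_X, Polynomial.eval_one, Polynomial.eval_pow] at hs
    have h1 : s ≠ 0 := fun h => hs (by rw [h]; ring)
    have h3 : s + 1 ≠ 0 := fun h => hs (by rw [h]; ring)
    have h4 : s ^ 2 + s + 1 ≠ 0 := fun h => hs (by rw [h]; ring)
    exact ⟨s, hsq s h1, hsq _ h3, h4⟩
  · have h14' := h14 h2
    have h2' : (2 : K) ≠ 0 := by
      intro h
      apply h2
      have : ringChar K ∣ 2 := (ringChar.spec K 2).1 (by exact_mod_cast h)
      have hp := CharP.char_is_prime_or_zero K (ringChar K)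
      rcases hp with hp | hp
      · exact (Nat.prime_dvd_prime_iff_eq hp Nat.prime_two).1 this
      · rw [hp] at this
        simp at this
    let p : Polynomial K := Polynomial.X * (Polynomial.X ^ 2 - 1) * (Polynomial.X ^ 2 + 1) *
      (Polynomial.X ^ 8 + Polynomial.C 14 * Polynomial.X ^ 4 + 1)
    have hp : p.Monic := by
      simp only [p]
      monicity!
    have hdeg : p.natDegree < Fintype.card K := by
      have : p.natDegree ≤ 13 := by
        simp only [p]
        compute_degree
      omega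
    obtain ⟨w, hw⟩ := Polynomial.exists_eval_ne_zero_of_natDegree_lt_card p hp.ne_zero (by rw [Cardinal.mk_fintype]; exact_mod_cast hdeg)
    simp only [p, Polynomial.eval_mul, Polynomial.eval_add, Polynomial.eval_sub, Polynomial.eval_X, Polynomial.eval_one,
      Polynomial.eval_pow, Polynomial.eval_C] at hw
    have h1 : w ≠ 0 := fun h => hw (by rw [h]; ring)
    have h3 : w ^ 2 - 1 ≠ 0 := fun h => hw (by rw [h]; ring)
    have h4 : w ^ 2 + 1 ≠ 0 := fun h => hw (by rw [h]; ring)
    have h5 : w ^ 8 + 14 * w ^ 4 + 1 ≠ 0 := fun h => hw (by rw [h]; ring)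
    have h2w : 2 * w ≠ 0 := mul_ne_zero h2' h1
    refine ⟨((w ^ 2 - 1) / (2 * w)) ^ 2, ⟨_, div_ne_zero h3 h2w, rfl⟩, ⟨(w ^ 2 + 1) / (2 * w), div_ne_zero h4 h2w, ?_⟩, ?_⟩
    · field_simp
      ring
    · have : (((w ^ 2 - 1) / (2 * w)) ^ 2) ^ 2 + ((w ^ 2 - 1) / (2 * w)) ^ 2 + 1 = (w ^ 8 + 14 * w ^ 4 + 1) / (2 * w) ^ 4 := by
        field_simp
        ring
      rw [this]
      exact div_ne_zero h5 (pow_ne_zero 4 h2w)

end Squares

end Cfsg.Agent.Lib.OmTwoField
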