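import Mathlib
import Cfsg.Agent.Lib.OmTwoCore
import Cfsg.Agent.Lib.OmTwoField
import Cfsg.Agent.Lib.LawEmbed
import Cfsg.Agent.Lib.HypLevi

/-!
# Coordinates on a quadratic space with a hyperbolic summand

`vec e x y c`, the Levi elements `lev e (A, B)`, and the elements of `Ω` used for two generators.
-/

set_option autoImplicit false
set_option linter.unusedSectionVars false
set_option linter.unusedVariables false

namespace Cfsg.Agent.Lib.OmTwoHyp

open Matrix QuadraticMap Cfsg Module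
open scoped MatrixGroups
open Cfsg.Agent.Lib.LawEmbed (IsHyp leviOmega reindexHom reindex_mulVec)
open Cfsg.Agent.Lib.OrthGroup (refl refl_apply B O G O_le_G)
open Cfsg.Agent.Lib.OrthOmega (prodR prodO prodR_cons prodO_mem_commutator sq_mem_commutator)
open Cfsg.Agent.Lib.OrthMatrix (glEquiv toO mem_Omega_iff toO_apply mulVec_glEquiv_symm)
open Cfsg.Agent.Lib.HypNeg (IsHypCoord)
open Cfsg.Agent.Lib.OmCalc (nd_of)
open Cfsg.Agent.Lib.OrthoBasic Cfsg.Agent.Lib.OrthoSiegel Cfsg.Agent.Lib.OrthoGen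
  Cfsg.Agent.Lib.OrthoFinal
open Cfsg.Agent.Lib.SympT (GL_ext mulVec_mul_GL mulVec_inv_GL inv_mulVec_GL)

local notation:70 g:71 " ⋆ " x:70 => Matrix.mulVec (Units.val g) x

variable {F : Type*} [Field F] {ι κ : Type} [Fintype ι] [DecidableEq ι] [Fintype κ] [DecidableEq κ] {n : ℕ}

/-! ### Coordinates -/

section coords

variable (e : (Fin n ⊕ Fin n) ⊕ κ ≃ ι)

/-- The vector with coordinates `x, y, c`. -/
def vec (x y : Fin n → F) (c : κ → F) : ι → F := fun i => Sum.elim (Sum.elim x y) c (e.symm i)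

@[simp] theorem vec_ll (x y : Fin n → F) (c : κ → F) (i : Fin n) : vec e x y c (e (.inl (.inl i))) = x i := by
  simp [vec]

@[simp] theorem vec_lr (x y : Fin n → F) (c : κ → F) (i : Fin n) : vec e x y c (e (.inl (.inr i))) = y i := by
  simp [vec]

@[simp] theorem vec_r (x y : Fin n → F) (c : κ → F) (i : κ) : vec e x y c (e (.inr i)) = c i := by
  simp [vec]

theorem vec_ext {v w : ι → F} (h1 : ∀ i, v (e (.inl (.inl i))) = w (e (.inl (.inl i))))
    (h2 : ∀ i, v (e (.inl (.inr i))) = w (e (.inl (.inr i)))) (h3 : ∀ i, v (e (.inr i)) = w (e (.inr i))) : v = w := by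
  funext i
  obtain ⟨s, rfl⟩ := e.surjective i
  rcases s with (j | j) | j
  · exact h1 j
  · exact h2 j
  · exact h3 j

theorem vec_eta (v : ι → F) :
    vec e (fun i => v (e (.inl (.inl i)))) (fun i => v (e (.inl (.inr i)))) (fun i => v (e (.inr i))) = v :=
  vec_ext e (by simp) (by simp) (by simp)

theorem exists_vec (v : ι → F) : ∃ x y c, v = vec e x y c := ⟨_, _, _, (vec_eta e v).symm⟩

theorem vec_add (x y x' y' : Fin n → F) (c c' : κ → F) :
    vec e x y c + vec e x' y' c' = vec e (x + x') (y + y') (c + c') :=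
  vec_ext e (by simp) (by simp) (by simp)

theorem vec_sub (x y x' y' : Fin n → F) (c c' : κ → F) :
    vec e x y c - vec e x' y' c' = vec e (x - x') (y - y') (c - c') :=
  vec_ext e (by simp) (by simp) (by simp)

theorem vec_neg (x y : Fin n → F) (c : κ → F) : - vec e x y c = vec e (-x) (-y) (-c) :=
  vec_ext e (by simp) (by simp) (by simp)

theorem vec_smul (t : F) (x y : Fin n → F) (c : κ → F) : t • vec e x y c = vec e (t • x) (t • y) (t • c) :=
  vec_ext e (by simp) (by simp) (by simp)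

theorem vec_zero : vec e (0 : Fin n → F) 0 (0 : κ → F) = 0 :=
  vec_ext e (by simp) (by simp) (by simp)

end coords

section form

variable {e : (Fin n ⊕ Fin n) ⊕ κ ≃ ι} {Q : QuadraticForm F (ι → F)} {R : (κ → F) → F}

theorem Q_vec (h : IsHyp e (⇑Q) R) (x y : Fin n → F) (c : κ → F) : Q (vec e x y c) = x ⬝ᵥ y + R c := by
  rw [h]
  simp only [vec_ll, vec_lr, vec_r]
  rfl

theorem polar_vec (h : IsHyp e (⇑Q) R) (x y x' y' : Fin n → F) (c c' : κ → F) :
    polar Q (vec e x y c) (vec e x' y' c') = x ⬝ᵥ y' + x' ⬝ᵥ y + polar R c c' := by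
  simp only [polar, vec_add, Q_vec h, add_dotProduct, dotProduct_add]
  ring

/-! ### Levi elements -/

/-- `A, B ↦ diag(A, A⁻ᵀ, B)` as matrices. -/
noncomputable def levMat (e : (Fin n ⊕ Fin n) ⊕ κ ≃ ι) : GL (Fin n) F × GL κ F →* Matrix ι ι F where
  toFun p := reindexHom F e (fromBlocks (fromBlocks (p.1 : Matrix (Fin n) (Fin n) F) 0 0 ((p.1⁻¹ : GL (Fin n) F) : Matrix (Fin n) (Fin n) F)ᵀ) 0 0 (p.2 : Matrix κ κ F))
  map_one' := by
    rw [← map_one (reindexHom F e)]
    congr 1
    simp [Matrix.fromBlocks_one]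
  map_mul' p r := by
    rw [← map_mul]
    congr 1
    simp [Matrix.fromBlocks_multiply]

/-- `A, B ↦ diag(A, A⁻ᵀ, B)`. -/
noncomputable def lev (e : (Fin n ⊕ Fin n) ⊕ κ ≃ ι) : GL (Fin n) F × GL κ F →* GL ι F := (levMat e).toHomUnits

theorem lev_val (p : GL (Fin n) F × GL κ F) :
    ((lev e p : GL ι F) : Matrix ι ι F) = reindexHom F e (fromBlocks (fromBlocks (p.1 : Matrix (Fin n) (Fin n) F) 0 0
      ((p.1⁻¹ : GL (Fin n) F) : Matrix (Fin n) (Fin n) F)ᵀ) 0 0 (p.2 : Matrix κ κ F)) := rfl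

theorem lev_vec (p : GL (Fin n) F × GL κ F) (x y : Fin n → F) (c : κ → F) :
    lev e p ⋆ vec e x y c =
      vec e ((p.1 : Matrix (Fin n) (Fin n) F) *ᵥ x) (((p.1⁻¹ : GL (Fin n) F) : Matrix (Fin n) (Fin n) F)ᵀ *ᵥ y)
        ((p.2 : Matrix κ κ F) *ᵥ c) := by
  rw [lev_val]
  have hv : vec e x y c ∘ e = Sum.elim (Sum.elim x y) c := by
    funext s
    simp [vec]
  apply vec_ext e
  · intro i
    rw [reindex_mulVec, Matrix.fromBlocks_mulVec, hv, vec_ll]
    simp [Matrix.fromBlocks_mulVec]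
  · intro i
    rw [reindex_mulVec, Matrix.fromBlocks_mulVec, hv, vec_lr]
    simp [Matrix.fromBlocks_mulVec]
  · intro i
    rw [reindex_mulVec, Matrix.fromBlocks_mulVec, hv, vec_r]
    simp

theorem dot_gl (A : GL (Fin n) F) (x y : Fin n → F) :
    ((A : Matrix (Fin n) (Fin n) F) *ᵥ x) ⬝ᵥ (((A⁻¹ : GL (Fin n) F) : Matrix (Fin n) (Fin n) F)ᵀ *ᵥ y) = x ⬝ᵥ y := by
  rw [Matrix.dotProduct_mulVec, Matrix.vecMul_transpose, Matrix.mulVec_mulVec, ← Units.val_mul, inv_mul_cancel,
    Units.val_one, Matrix.one_mulVec]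

theorem lev_iso (h : IsHyp e (⇑Q) R) (p : GL (Fin n) F × GL κ F) (hp : ∀ c, R ((p.2 : Matrix κ κ F) *ᵥ c) = R c) (v : ι → F) :
    Q (lev e p ⋆ v) = Q v := by
  obtain ⟨x, y, c, rfl⟩ := exists_vec e v
  rw [lev_vec, Q_vec h, Q_vec h, dot_gl, hp]

/-- An element of `GL` preserving `Q`, as an element of the isometry group. -/
def isoOf (g : GL ι F) (hg : ∀ v, Q (g ⋆ v) = Q v) : ↥(isometryGroup F ⇑Q) := ⟨g, fun u _ => hg u⟩

variable [Fintype F]

/-- Squares of isometries lie in `Ω`. -/
theorem sq_mem_omega (hQ : Nondeg Q) (h4 : Fintype.card ι ≠ 4) (g : ↥(isometryGroup F ⇑Q)) : g * g ∈ Omega F ⇑Q := by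
  have hB : (B Q).Nondegenerate := Cfsg.Agent.Lib.QuadFF.nondegenerate_of_ND (nd_of hQ)
  have hOG := O_le_G hB (Or.inr (by simpa using h4))
  rw [mem_Omega_iff, map_mul]
  exact sq_mem_commutator hOG _

theorem single_ll (j : Fin n) :
    (Pi.single (e (.inl (.inl j))) 1 : ι → F) = vec e (Pi.single j 1) 0 0 := by
  apply vec_ext e
  · intro i
    simp [Pi.single_apply]
  · intro i
    simp [Pi.single_apply]
  · intro i
    simp [Pi.single_apply]

theorem single_lr (j : Fin n) :
    (Pi.single (e (.inl (.inr j))) 1 : ι → F) = vec e 0 (Pi.single j 1) 0 := by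
  apply vec_ext e
  · intro i
    simp [Pi.single_apply]
  · intro i
    simp [Pi.single_apply]
  · intro i
    simp [Pi.single_apply]

theorem hypCoord_of (h : IsHyp e (⇑Q) R) (hR0 : R 0 = 0) (j : Fin n) :
    IsHypCoord Q (e (.inl (.inl j))) (e (.inl (.inr j))) where
  ne := by
    intro h'
    simpa using e.injective h'
  Qa := by
    rw [single_ll, Q_vec h, hR0]
    simp
  Qb := by
    rw [single_lr, Q_vec h, hR0]
    simp
  Ba := by
    intro x
    obtain ⟨x₁, y₁, c₁, rfl⟩ := exists_vec e x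
    rw [single_ll]
    change polar Q _ _ = _
    rw [polar_vec h]
    simp [polar, hR0]
  Bb := by
    intro x
    obtain ⟨x₁, y₁, c₁, rfl⟩ := exists_vec e x
    rw [single_lr]
    change polar Q _ _ = _
    rw [polar_vec h]
    simp [polar, hR0]

/-- A product of reflections performing the swap on the coordinates in a list. -/
theorem prodR_swap_vec (h : IsHyp e (⇑Q) R) (hR0 : R 0 = 0) (l : List (Fin n)) (hl : l.Nodup) (x : ι → F) :
    (∀ j, prodR Q (l.map fun j => Pi.single (e (.inl (.inl j))) 1 - Pi.single (e (.inl (.inr j))) 1) x (e (.inl (.inl j))) =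
      if j ∈ l then x (e (.inl (.inr j))) else x (e (.inl (.inl j)))) ∧
    (∀ j, prodR Q (l.map fun j => Pi.single (e (.inl (.inl j))) 1 - Pi.single (e (.inl (.inr j))) 1) x (e (.inl (.inr j))) =
      if j ∈ l then x (e (.inl (.inl j))) else x (e (.inl (.inr j)))) ∧
    (∀ c, prodR Q (l.map fun j => Pi.single (e (.inl (.inl j))) 1 - Pi.single (e (.inl (.inr j))) 1) x (e (.inr c)) =
      x (e (.inr c))) := by
  induction l with
  | nil => simp
  | cons i l ih =>
    obtain ⟨hi, hl'⟩ := List.nodup_cons.mp hl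
    obtain ⟨ih1, ih2, ih3⟩ := ih hl'
    rw [List.map_cons, prodR_cons]
    refine ⟨?_, ?_, ?_⟩
    · intro j
      change refl Q _ (prodR Q _ x) _ = _
      rw [Cfsg.Agent.Lib.HypLevi.hyp_refl_sub_apply (hypCoord_of h hR0 i)]
      by_cases hji : j = i
      · subst hji
        simp only [if_true, List.mem_cons, true_or]
        rw [ih2, if_neg hi]
      · have h1 : ¬ (e (Sum.inl (Sum.inl j)) = e (Sum.inl (Sum.inl i))) := by
          intro h'
          apply hji
          simpa using e.injective h'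
        have h2 : ¬ (e (Sum.inl (Sum.inl j)) = e (Sum.inl (Sum.inr i))) := by
          intro h'
          simpa using e.injective h'
        simp [h1, h2, hji, ih1]
    · intro j
      change refl Q _ (prodR Q _ x) _ = _
      rw [Cfsg.Agent.Lib.HypLevi.hyp_refl_sub_apply (hypCoord_of h hR0 i)]
      by_cases hji : j = i
      · subst hji
        have h1 : ¬ (e (Sum.inl (Sum.inr j)) = e (Sum.inl (Sum.inl j))) := by
          intro h'
          simpa using e.injective h'
        simp only [h1, if_false, if_true, List.mem_cons, true_or]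
        rw [ih1, if_neg hi]
      · have h1 : ¬ (e (Sum.inl (Sum.inr j)) = e (Sum.inl (Sum.inr i))) := by
          intro h'
          apply hji
          simpa using e.injective h'
        have h2 : ¬ (e (Sum.inl (Sum.inr j)) = e (Sum.inl (Sum.inl i))) := by
          intro h'
          simpa using e.injective h'
        simp [h1, h2, hji, ih2]
    · intro c
      change refl Q _ (prodR Q _ x) _ = _
      rw [Cfsg.Agent.Lib.HypLevi.hyp_refl_sub_apply (hypCoord_of h hR0 i)]
      have h1 : ¬ (e (Sum.inr c) = e (Sum.inl (Sum.inl i))) := by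
        intro h'
        simpa using e.injective h'
      have h2 : ¬ (e (Sum.inr c) = e (Sum.inl (Sum.inr i))) := by
        intro h'
        simpa using e.injective h'
      simp [h1, h2, ih3]

/-- The swap of the two hyperbolic coordinates, for `n` even. -/
theorem exists_swap (h : IsHyp e (⇑Q) R) (hR0 : R 0 = 0) (hQ : Nondeg Q) (hn : Even n) :
    ∃ g : ↥(isometryGroup F ⇑Q), g ∈ Omega F ⇑Q ∧ ∀ x y c, (g : GL ι F) ⋆ vec e x y c = vec e y x c := by
  classical
  have hB : (B Q).Nondegenerate := Cfsg.Agent.Lib.QuadFF.nondegenerate_of_ND (nd_of hQ)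
  let L : List (ι → F) := (List.finRange n).map fun j => Pi.single (e (.inl (.inl j))) 1 - Pi.single (e (.inl (.inr j))) 1
  have hL : ∀ v ∈ L, Q v ≠ 0 := by
    intro v hv
    obtain ⟨j, -, rfl⟩ := List.mem_map.mp hv
    rw [(hypCoord_of h hR0 j).Q_sub]
    simp
  have hprod : (L.map Q).prod = (-1) ^ n := by
    have : L.map Q = List.replicate n (-1) := by
      rw [List.eq_replicate_iff]
      refine ⟨by simp [L], ?_⟩
      intro b hb
      obtain ⟨v, hv, rfl⟩ := List.mem_map.mp hb
      obtain ⟨j, -, rfl⟩ := List.mem_map.mp hv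
      exact (hypCoord_of h hR0 j).Q_sub
    rw [this, List.prod_replicate]
  let g : ↥(isometryGroup F ⇑Q) := (toO Q).symm (prodO Q L)
  have hg : ∀ x, ((g : GL ι F) : Matrix ι ι F) *ᵥ x = prodR Q L x := by
    intro x
    have h1 := toO_apply Q g x
    rw [← h1, MulEquiv.apply_symm_apply]
    rfl
  refine ⟨g, ?_, ?_⟩
  · rw [mem_Omega_iff, MulEquiv.apply_symm_apply]
    apply prodO_mem_commutator hB L hL (by simpa [L] using hn)
    rw [hprod, hn.neg_one_pow]
    exact IsSquare.one
  · intro x y c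
    obtain ⟨h1, h2, h3⟩ := prodR_swap_vec h hR0 (List.finRange n) (List.nodup_finRange n) (vec e x y c)
    rw [hg]
    apply vec_ext e
    · intro j
      have := h1 j
      simpa [L] using this
    · intro j
      have := h2 j
      simpa [L] using this
    · intro j
      have := h3 j
      simpa [L] using this

/-- The Levi elements of determinant one lie in `Ω`. -/
theorem exists_levi (h : IsHyp e (⇑Q) R) (hn : 3 ≤ n) (P : SL(n, F)) :
    ∃ g : ↥(isometryGroup F ⇑Q), g ∈ Omega F ⇑Q ∧ ∀ x y c, (g : GL ι F) ⋆ vec e x y c =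
      vec e (P.1 *ᵥ x) (((P⁻¹ : SL(n, F)).1)ᵀ *ᵥ y) c := by
  refine ⟨(leviOmega hn h P).1, (leviOmega hn h P).2, fun x y c => ?_⟩
  change Cfsg.Agent.Lib.LawEmbed.leviHom F e P *ᵥ _ = _
  apply vec_ext e
  · intro j
    rw [Cfsg.Agent.Lib.LawEmbed.leviHom_apply_ll]
    simp
  · intro j
    rw [Cfsg.Agent.Lib.LawEmbed.leviHom_apply_lr]
    simp
  · intro j
    rw [Cfsg.Agent.Lib.LawEmbed.leviHom_apply_r]
    simp

end form

end Cfsg.Agent.Lib.OmTwoHyp
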