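import Mathlib
import Cfsg.Agent.Lib.OmTwoHyp

/-!
# The algebra model of a hyperbolic summand
-/

set_option autoImplicit false
set_option linter.unusedSectionVars false
set_option linter.unusedVariables false

namespace Cfsg.Agent.Lib.OmTwoAlg

open Matrix QuadraticMap Cfsg Cfsg.Geo Module
open scoped MatrixGroups
open Cfsg.Agent.Lib.LawEmbed (IsHyp sl_inv_mul)
open Cfsg.Agent.Lib.OrthoBasic Cfsg.Agent.Lib.OrthoSiegel Cfsg.Agent.Lib.OrthoGen
  Cfsg.Agent.Lib.OrthoFinal Cfsg.Agent.Lib.OmCalc Cfsg.Agent.Lib.OmTwoCore Cfsg.Agent.Lib.OmTwoField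
  Cfsg.Agent.Lib.OmTwoHyp
open Cfsg.Agent.Lib.SympT (GL_ext mulVec_mul_GL mulVec_inv_GL inv_mulVec_GL)

local notation:70 g:71 " ⋆ " x:70 => Matrix.mulVec (Units.val g) x

variable {F : Type*} [Field F] {ι κ : Type} [Fintype ι] [DecidableEq ι] [Fintype κ] [DecidableEq κ] {n : ℕ}

section alg

variable {A : Type*} [CommRing A] [Algebra F A] (e : (Fin n ⊕ Fin n) ⊕ κ ≃ ι) (b : Basis (Fin n) F A)

/-- The vector with coordinates `(x, y, c)` of the model `A ⊕ A ⊕ F^κ` with form `Tr(xy) + R(c)`. -/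
noncomputable def em (x y : A) (c : κ → F) : ι → F := vec e (b.repr x) (gram b *ᵥ (b.repr y : Fin n → F)) c

theorem em_add (x y x' y' : A) (c c' : κ → F) :
    em e b x y c + em e b x' y' c' = em e b (x + x') (y + y') (c + c') := by
  simp [em, OmTwoHyp.vec_add, Matrix.mulVec_add]

theorem em_sub (x y x' y' : A) (c c' : κ → F) :
    em e b x y c - em e b x' y' c' = em e b (x - x') (y - y') (c - c') := by
  simp [em, OmTwoHyp.vec_sub, Matrix.mulVec_sub]

theorem em_neg (x y : A) (c : κ → F) : - em e b x y c = em e b (-x) (-y) (-c) := by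
  simp [em, OmTwoHyp.vec_neg, Matrix.mulVec_neg]

theorem em_smul (t : F) (x y : A) (c : κ → F) : t • em e b x y c = em e b (t • x) (t • y) (t • c) := by
  simp [em, OmTwoHyp.vec_smul, Matrix.mulVec_smul]

theorem em_zero : em e b (0 : A) 0 (0 : κ → F) = 0 := by
  simp [em, OmTwoHyp.vec_zero]

variable {Q : QuadraticForm F (ι → F)} {Rk : (κ → F) → F} {e}

theorem Q_em (h : IsHyp e (⇑Q) Rk) (x y : A) (c : κ → F) : Q (em e b x y c) = Algebra.trace F A (x * y) + Rk c := by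
  rw [em, Q_vec h, repr_dot]

theorem polar_em (h : IsHyp e (⇑Q) Rk) (x y x' y' : A) (c c' : κ → F) :
    polar Q (em e b x y c) (em e b x' y' c') =
      Algebra.trace F A (x * y') + Algebra.trace F A (x' * y) + polar Rk c c' := by
  rw [em, em, polar_vec h, repr_dot, repr_dot]

variable (e) in
theorem exists_em (hG : IsUnit (gram b)) (v : ι → F) : ∃ x y c, v = em e b x y c := by
  obtain ⟨x, y, c, rfl⟩ := exists_vec e v
  refine ⟨b.equivFun.symm x, b.equivFun.symm ((gram b)⁻¹ *ᵥ y), c, ?_⟩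
  have h1 : (b.repr (b.equivFun.symm x) : Fin n → F) = x := b.equivFun.apply_symm_apply x
  have h2 : (b.repr (b.equivFun.symm ((gram b)⁻¹ *ᵥ y)) : Fin n → F) = (gram b)⁻¹ *ᵥ y := b.equivFun.apply_symm_apply _
  have h3 : gram b * (gram b)⁻¹ = 1 := Matrix.mul_nonsing_inv _ ((Matrix.isUnit_iff_isUnit_det _).1 hG)
  rw [em, h1, h2, Matrix.mulVec_mulVec, h3, Matrix.one_mulVec]

/-- The regular representation of the units. -/
noncomputable def rhoU : Aˣ →* GL (Fin n) F := Units.map ((rho b : A →ₐ[F] Matrix (Fin n) (Fin n) F) : A →* Matrix (Fin n) (Fin n) F)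

theorem rhoU_val (t : Aˣ) : ((rhoU b t : GL (Fin n) F) : Matrix (Fin n) (Fin n) F) = rho b (t : A) := rfl

theorem lev_em (t : Aˣ) (B : GL κ F) (x y : A) (c : κ → F) :
    lev e (rhoU b t, B) ⋆ em e b x y c = em e b ((t : A) * x) (((t⁻¹ : Aˣ) : A) * y) ((B : Matrix κ κ F) *ᵥ c) := by
  rw [em, lev_vec, em]
  simp only
  rw [rhoU_val, ← map_inv, rhoU_val, rho_mulVec, Matrix.mulVec_mulVec, ← gram_mul_rho, ← Matrix.mulVec_mulVec, rho_mulVec]

/-- The element of `Ω` swapping the two copies of `A`. -/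
theorem exists_j [Fintype F] (h : IsHyp e (⇑Q) Rk) (hR0 : Rk 0 = 0) (hQ : Nondeg Q) (hn : 3 ≤ n) (hev : Even n) (hG : IsUnit (gram b))
    (c : Aˣ) (hdet : (rho b (c : A)).det * (gram b).det = 1) :
    ∃ g : ↥(isometryGroup F ⇑Q), g ∈ Omega F ⇑Q ∧ ∀ x y w, (g : GL ι F) ⋆ em e b x y w =
      em e b (((c⁻¹ : Aˣ) : A) * y) ((c : A) * x) w := by
  have hG' : gram b * (gram b)⁻¹ = 1 := Matrix.mul_nonsing_inv _ ((Matrix.isUnit_iff_isUnit_det _).1 hG)
  have hG'' : (gram b)⁻¹ * gram b = 1 := Matrix.nonsing_inv_mul _ ((Matrix.isUnit_iff_isUnit_det _).1 hG)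
  have hc1 : rho b ((c⁻¹ : Aˣ) : A) * rho b (c : A) = 1 := by
    rw [← map_mul, Units.inv_mul, map_one]
  have hc2 : rho b (c : A) * rho b ((c⁻¹ : Aˣ) : A) = 1 := by
    rw [← map_mul, Units.mul_inv, map_one]
  have hinv : rho b ((c⁻¹ : Aˣ) : A) * (gram b)⁻¹ * (gram b * rho b (c : A)) = 1 := by
    rw [Matrix.mul_assoc, ← Matrix.mul_assoc (gram b)⁻¹, hG'', Matrix.one_mul, hc1]
  have hdet1 : (rho b ((c⁻¹ : Aˣ) : A) * (gram b)⁻¹).det = 1 := by
    have h1 := congrArg Matrix.det hinv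
    rw [Matrix.det_mul, Matrix.det_one, Matrix.det_mul (gram b), mul_comm (gram b).det, hdet, mul_one] at h1
    exact h1
  let P : SL(n, F) := ⟨rho b ((c⁻¹ : Aˣ) : A) * (gram b)⁻¹, hdet1⟩
  have hP1 : ((P⁻¹ : SL(n, F)).1) = gram b * rho b (c : A) := by
    have h1 := sl_inv_mul P
    have h2 : P.1 * (gram b * rho b (c : A)) = 1 := hinv
    calc ((P⁻¹ : SL(n, F)).1) = ((P⁻¹ : SL(n, F)).1) * (P.1 * (gram b * rho b (c : A))) := by rw [h2, Matrix.mul_one]
      _ = gram b * rho b (c : A) := by rw [← Matrix.mul_assoc, h1, Matrix.one_mul]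
  have hP2 : ((P⁻¹ : SL(n, F)).1)ᵀ = gram b * rho b (c : A) := by
    rw [hP1, Matrix.transpose_mul, gram_transpose, ← gram_mul_rho]
  obtain ⟨g₁, hg₁, hg₁'⟩ := exists_swap h hR0 hQ hev
  obtain ⟨g₂, hg₂, hg₂'⟩ := exists_levi h hn P
  refine ⟨g₂ * g₁, Subgroup.mul_mem _ hg₂ hg₁, fun x y w => ?_⟩
  have h1 : ((g₂ * g₁ : ↥(isometryGroup F ⇑Q)) : GL ι F) = (g₂ : GL ι F) * (g₁ : GL ι F) := rfl
  rw [h1, mulVec_mul_GL, em, hg₁', hg₂', hP2, em]
  congr 1
  · show (rho b ((c⁻¹ : Aˣ) : A) * (gram b)⁻¹) *ᵥ (gram b *ᵥ (b.repr y : Fin n → F)) = _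
    rw [Matrix.mulVec_mulVec, Matrix.mul_assoc, hG'', Matrix.mul_one, rho_mulVec]
  · rw [← Matrix.mulVec_mulVec, rho_mulVec]

end alg

section prodK

variable {K : Type*} [Field K] [Fintype K] [Algebra F K] [Fintype F]

theorem trace_FK (x : F × K) : Algebra.trace F (F × K) x = x.1 + Algebra.trace F K x.2 := by
  rw [Algebra.trace_prod_apply]
  simp

theorem hnd_FK : ∀ x : F × K, (∀ y, Algebra.trace F (F × K) (x * y) = 0) → x = 0 := by
  rintro ⟨x₁, x₂⟩ hx
  have h1 := hx (1, 0)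
  rw [trace_FK] at h1
  simp only [Prod.mk_mul_mk, mul_one, mul_zero, map_zero, add_zero] at h1
  have h2 : ∀ z : K, Algebra.trace F K (x₂ * z) = 0 := by
    intro z
    have h3 := hx (0, z)
    rw [trace_FK] at h3
    simpa using h3
  have h4 : x₂ = 0 := by
    have hnd := traceForm_nondegenerate F K
    apply hnd.1
    intro z
    rw [Algebra.traceForm_apply]
    exact h2 z
  rw [h1, h4]
  rfl

theorem det_rho_FK (b : Basis (Fin n) F (F × K)) (d : F) : (rho b ((d, 1) : F × K)).det = d := by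
  rw [← Algebra.norm_eq_matrix_det, Algebra.norm_apply]
  have h1 : (Algebra.lmul F (F × K)) ((d, 1) : F × K) = (LinearMap.mulLeft F d).prodMap (LinearMap.id : K →ₗ[F] K) := by
    ext x
    · simp
    · simp
    · simp
    · simp
  rw [h1, LinearMap.det_prodMap, LinearMap.det_id, mul_one]
  have h2 : LinearMap.mulLeft F d = d • (LinearMap.id : F →ₗ[F] F) := by
    ext
    simp
  rw [h2, LinearMap.det_smul, LinearMap.det_id]
  simp

/-- `τ ↦ (1, τ)`. -/
noncomputable def inrU : Kˣ →* (F × K)ˣ := MulEquiv.prodUnits.symm.toMonoidHom.comp (MonoidHom.inr Fˣ Kˣ)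

theorem inrU_val (τ : Kˣ) : ((inrU τ : (F × K)ˣ) : F × K) = (1, (τ : K)) := rfl

variable (e : (Fin n ⊕ Fin n) ⊕ κ ≃ ι) (b : Basis (Fin n) F (F × K))

/-- The Levi elements of the units of `K`. -/
noncomputable def levK : Kˣ →* GL ι F := (lev e).comp (((rhoU b).comp inrU).prod 1)

theorem levK_em (τ : Kˣ) (x y : F × K) (c : κ → F) :
    levK e b τ ⋆ em e b x y c = em e b (x.1, (τ : K) * x.2) (y.1, ((τ⁻¹ : Kˣ) : K) * y.2) c := by
  have h1 : levK e b τ = lev e (rhoU b (inrU τ), 1) := rfl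
  rw [h1, lev_em, ← map_inv, inrU_val, inrU_val]
  simp only [Units.val_one, Matrix.one_mulVec]
  congr 1
  · exact Prod.ext (one_mul _) rfl
  · exact Prod.ext (one_mul _) rfl

variable {e} {Q : QuadraticForm F (ι → F)} {Rk : (κ → F) → F}

theorem levK_iso (h : IsHyp e (⇑Q) Rk) (τ : Kˣ) (v : ι → F) : Q (levK e b τ ⋆ v) = Q v :=
  lev_iso h _ (fun c => by simp) v

/-- The squares are in `Ω`. -/
theorem levK_sq_mem (hQ : Nondeg Q) (h4 : Fintype.card ι ≠ 4) (h : IsHyp e (⇑Q) Rk) (τ : Kˣ) :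
    ∃ g ∈ Omega F ⇑Q, ((g : ↥(isometryGroup F ⇑Q)) : GL ι F) = levK e b (τ * τ) := by
  refine ⟨isoOf (levK e b τ) (levK_iso b h τ) * isoOf (levK e b τ) (levK_iso b h τ), sq_mem_omega hQ h4 _, ?_⟩
  rw [map_mul]
  rfl

/-- The additive map `(s, t) ↦ (0, s) + (0, t)^*`. -/
noncomputable def fW (e : (Fin n ⊕ Fin n) ⊕ κ ≃ ι) (b : Basis (Fin n) F (F × K)) : K × K →+ (ι → F) :=
  AddMonoidHom.mk' (fun p => em e b (0, p.1) (0, p.2) 0) (fun p r => by
    rw [em_add]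
    congr 1
    · simp
    · simp
    · simp)

theorem fW_apply (p : K × K) : fW e b p = em e b (0, p.1) (0, p.2) 0 := rfl

theorem levK_fW (τ : Kˣ) (p : K × K) : levK e b τ ⋆ fW e b p = fW e b ((τ : K) * p.1, ((τ⁻¹ : Kˣ) : K) * p.2) := by
  rw [fW_apply, levK_em, fW_apply]

/-- The main extraction: all `(u, w)` for `w` in the `K × K` part. -/
theorem core_W (hQ : Nondeg Q) (h : IsHyp e (⇑Q) Rk) (hG : IsUnit (gram b)) (d : F) {j : GL ι F}
    (hj : ∀ x y w, j ⋆ em e b x y w = em e b (d⁻¹ * y.1, y.2) (d * x.1, x.2) w)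
    {θ : Kˣ} (hθ : ∀ x, x ∈ Subgroup.zpowers θ) (hθ2 : θ * θ ≠ 1)
    (h8 : 8 ≤ Fintype.card K) (h14 : ringChar K ≠ 2 → 14 ≤ Fintype.card K)
    {M : Subgroup (GL ι F)} {u w₀ : ι → F} {y₀ : κ → F} (hudef : u = em e b ((1 : F), (0 : K)) 0 0)
    (hw₀def : w₀ = em e b ((0 : F), (1 : K)) (0, 1) y₀) (hu : Q u = 0)
    (hw : polar Q u w₀ = 0)
    (haM : levK e b (θ * θ) ∈ M) (hbM : sE hQ hu hw * j ∈ M) (p : K × K) :
    R hQ M u (fW e b p) := by
  classical
  set a := levK e b (θ * θ) with hadef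
  have hainv : a⁻¹ = levK e b (θ * θ)⁻¹ := by rw [hadef, map_inv]
  have hjj : j * a * j⁻¹ = a⁻¹ := by
    rw [mul_inv_eq_iff_eq_mul]
    apply GL_ext
    intro v
    obtain ⟨x, y, w, rfl⟩ := exists_em e b hG v
    rw [mulVec_mul_GL, mulVec_mul_GL, hainv, hj, levK_em, hj, levK_em]
    simp
  have hau : a ⋆ u = u := by
    rw [hudef, hadef, levK_em]
    simp [Prod.mk_zero_zero]
  have ha'u : a⁻¹ ⋆ u = u := by
    rw [hainv, hudef, levK_em]
    simp [Prod.mk_zero_zero]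
  have hcomm : a * a⁻¹ = a⁻¹ * a := by group
  have key := R_core hQ hu hw (levK_iso b h _) (fun v => by rw [hainv]; exact levK_iso b h _ v) hau ha'u hjj hcomm haM hbM
  set ξ : K := ((θ * θ : Kˣ) : K) with hξ
  have hξ0 : ξ ≠ 0 := (θ * θ).ne_zero
  have hξ1 : ξ ≠ 1 := by
    intro h1
    apply hθ2
    exact Units.ext h1
  set α : K := ξ + ξ⁻¹ - 2 with hα
  have hα0 : α ≠ 0 := by
    have : α = ξ⁻¹ * (ξ - 1) ^ 2 := by
      rw [hα]
      field_simp
      ring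
    rw [this]
    exact mul_ne_zero (inv_ne_zero hξ0) (pow_ne_zero 2 (sub_ne_zero.mpr hξ1))
  have hY : a ⋆ (w₀ - a⁻¹ ⋆ w₀) - (w₀ - a⁻¹ ⋆ w₀) = fW e b (α, α) := by
    rw [hw₀def, hainv, levK_em, em_sub, hadef, levK_em, em_sub, fW_apply]
    congr 1
    · apply Prod.ext
      · simp
      · simp only [Prod.snd_sub, mul_one, Units.val_inv_eq_inv_val, ← hξ, mul_sub, sub_zero]
        rw [mul_inv_cancel₀ hξ0, hα]
        ring
    · apply Prod.ext
      · simp
      · simp only [Prod.snd_sub, mul_one, Units.val_inv_eq_inv_val, ← hξ, mul_sub, sub_zero, inv_inv]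
        rw [inv_mul_cancel₀ hξ0, hα]
        ring
    · simp
  rw [hY] at key
  obtain ⟨s, hs, hs1, hs2⟩ := exists_consec (K := K) h8 h14
  have hP := kk_lemma (S := sqSet K) (fun _ hx => sqSet_ne hx) (fun _ hx => sqSet_inv hx) sqSet_one sqSet_span hs hs1 hs2 ((Rset hQ M u hu).comap (fW e b)) (by
    rintro p hp τ ⟨c', hc', rfl⟩
    obtain ⟨i, hi⟩ := hθ (Units.mk0 c' hc')
    have hi' : (θ ^ i : Kˣ) = Units.mk0 c' hc' := hi
    have h1 : ((θ * θ) ^ i : Kˣ) = Units.mk0 c' hc' * Units.mk0 c' hc' := by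
      rw [← hi', mul_zpow]
    have h2 : levK e b ((θ * θ) ^ i) ∈ M := by
      rw [map_zpow]
      exact M.zpow_mem haM i
    have h3 := R_conj (levK_iso b h ((θ * θ) ^ i)) h2 hp
    have h4 : levK e b ((θ * θ) ^ i) ⋆ u = u := by
      rw [hudef, levK_em]
      simp [Prod.mk_zero_zero]
    rw [h4, levK_fW, h1] at h3
    have h5 : ((Units.mk0 c' hc' * Units.mk0 c' hc' : Kˣ) : K) = c' ^ 2 := by
      simp [_root_.sq]
    rw [h5] at h3
    have h6 : (((Units.mk0 c' hc' * Units.mk0 c' hc')⁻¹ : Kˣ) : K) = (c' ^ 2)⁻¹ := by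
      rw [Units.val_inv_eq_inv_val, h5]
    rw [h6] at h3
    exact h3)
    (α := α) (β := α) key hα0 hα0
  have h7 : p ∈ (Rset hQ M u hu).comap (fW e b) := by
    rw [hP]
    exact AddSubgroup.mem_top _
  exact h7

theorem Q_u (h : IsHyp e (⇑Q) Rk) (hR0 : Rk 0 = 0) : Q (em e b ((1 : F), (0 : K)) 0 0) = 0 := by
  rw [Q_em b h, mul_zero, map_zero, hR0, add_zero]

theorem polar_zero_left (hR0 : Rk 0 = 0) (c : κ → F) : polar Rk 0 c = 0 := by
  simp [polar, hR0]

theorem polar_zero_right (hR0 : Rk 0 = 0) (c : κ → F) : polar Rk c 0 = 0 := by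
  simp [polar, hR0]

theorem polar_u (h : IsHyp e (⇑Q) Rk) (hR0 : Rk 0 = 0) (x y : F × K) (c : κ → F) :
    polar Q (em e b ((1 : F), (0 : K)) 0 0) (em e b x y c) = y.1 := by
  rw [polar_em b h, polar_zero_left hR0, mul_zero, map_zero, trace_FK]
  simp

theorem polar_u' (h : IsHyp e (⇑Q) Rk) (hR0 : Rk 0 = 0) (x y : F × K) (c : κ → F) :
    polar Q (em e b x y c) (em e b ((1 : F), (0 : K)) 0 0) = y.1 := by
  rw [QuadraticMap.polar_comm, polar_u b h hR0]

/-- The element `j` for the algebra `F × K`. -/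
theorem exists_j_FK (h : IsHyp e (⇑Q) Rk) (hR0 : Rk 0 = 0) (hQ : Nondeg Q) (hn : 3 ≤ n) (hev : Even n) :
    ∃ (d : F) (g : ↥(isometryGroup F ⇑Q)), d ≠ 0 ∧ g ∈ Omega F ⇑Q ∧ ∀ x y w, (g : GL ι F) ⋆ em e b x y w =
      em e b (d⁻¹ * y.1, y.2) (d * x.1, x.2) w := by
  have hG : IsUnit (gram b) := gram_isUnit b hnd_FK
  have hdet : (gram b).det ≠ 0 := ((Matrix.isUnit_iff_isUnit_det _).1 hG).ne_zero
  set d : F := ((gram b).det)⁻¹ with hd
  have hd0 : d ≠ 0 := inv_ne_zero hdet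
  let c : (F × K)ˣ := MulEquiv.prodUnits.symm (Units.mk0 d hd0, 1)
  have hc : (c : F × K) = (d, 1) := rfl
  have hc' : ((c⁻¹ : (F × K)ˣ) : F × K) = (d⁻¹, 1) := by
    apply Units.inv_eq_of_mul_eq_one_right
    rw [hc]
    apply Prod.ext
    · simp [hd0]
    · simp
  obtain ⟨g, hg, hg'⟩ := exists_j b h hR0 hQ hn hev hG c (by
    rw [hc, det_rho_FK, hd, inv_mul_cancel₀ hdet])
  refine ⟨d, g, hd0, hg, fun x y w => ?_⟩
  rw [hg', hc, hc']
  congr 1
  · apply Prod.ext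
    · simp
    · simp
  · apply Prod.ext
    · simp
    · simp

/-- `x` is good if it pairs with all singular vectors of the `K × K` part. -/
def Good (hQ : Nondeg Q) (M : Subgroup (GL ι F)) (e : (Fin n ⊕ Fin n) ⊕ κ ≃ ι) (b : Basis (Fin n) F (F × K)) (x : ι → F) : Prop :=
  ∀ p : K × K, Q (fW e b p) = 0 → R hQ M (fW e b p) x

variable {b} {hQ : Nondeg Q} {M : Subgroup (GL ι F)}

theorem Good.add {x x' : ι → F} (h : Good hQ M e b x) (h' : Good hQ M e b x') : Good hQ M e b (x + x') :=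
  fun p hp => R_add (h p hp) (h' p hp)

theorem Good.sub {x x' : ι → F} (h : Good hQ M e b x) (h' : Good hQ M e b x') : Good hQ M e b (x - x') :=
  fun p hp => R_sub (h p hp) (h' p hp)

theorem fW_smul (t : F) (p : K × K) : t • fW e b p = fW e b (t • p.1, t • p.2) := by
  rw [fW_apply, fW_apply, em_smul]
  congr 1
  · apply Prod.ext <;> simp
  · apply Prod.ext <;> simp
  · simp

theorem Good.smul {x : ι → F} (h : Good hQ M e b x) (t : F) : Good hQ M e b (t • x) := by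
  intro p hp
  apply R_smul_right hp
  rw [fW_smul]
  apply h
  rw [← fW_smul, QuadraticMap.map_smul, hp, smul_zero]

theorem Good.conj {x : ι → F} (h : Good hQ M e b x) {t : GL ι F} (ht : ∀ v, Q (t ⋆ v) = Q v) (htM : t ∈ M)
    (σ : K × K → K × K) (hσ : ∀ p, t ⋆ fW e b (σ p) = fW e b p) : Good hQ M e b (t ⋆ x) := by
  intro p hp
  have h1 : Q (fW e b (σ p)) = 0 := by
    rw [← ht, hσ, hp]
  have h2 := R_conj ht htM (h (σ p) h1)
  rwa [hσ] at h2

theorem good_u (hu : Q (em e b ((1 : F), (0 : K)) 0 0) = 0) (key : ∀ p, R hQ M (em e b ((1 : F), (0 : K)) 0 0) (fW e b p)) :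
    Good hQ M e b (em e b ((1 : F), (0 : K)) 0 0) :=
  fun p hp => R_swap' (key p) hp

theorem polar_fW_fW (h : IsHyp e (⇑Q) Rk) (hR0 : Rk 0 = 0) (p r : K × K) :
    polar Q (fW e b p) (fW e b r) = Algebra.trace F K (p.1 * r.2) + Algebra.trace F K (r.1 * p.2) := by
  rw [fW_apply, fW_apply, polar_em b h, polar_zero_left hR0, trace_FK, trace_FK]
  simp

theorem Q_fW (h : IsHyp e (⇑Q) Rk) (hR0 : Rk 0 = 0) (p : K × K) :
    Q (fW e b p) = Algebra.trace F K (p.1 * p.2) := by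
  rw [fW_apply, Q_em b h, hR0, trace_FK]
  simp

end prodK

section wrap

variable [Fintype F]

/-- A pair in `omegaGL` such that any subgroup containing it contains `omegaGL` gives two generators. -/
theorem gen_of_GL {q : (ι → F) → F} {ga gb : GL ι F} (ha : ga ∈ omegaGL q) (hb : gb ∈ omegaGL q)
    (h : ∀ M : Subgroup (GL ι F), ga ∈ M → gb ∈ M → omegaGL q ≤ M) :
    ∃ a' b' : POmega F q, Subgroup.closure ({a', b'} : Set (POmega F q)) = ⊤ := by
  obtain ⟨a₀, ha₀, rfl⟩ := ha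
  obtain ⟨b₀, hb₀, rfl⟩ := hb
  refine exists_gen_pomega ⟨a₀, ha₀⟩ ⟨b₀, hb₀⟩ (closure_eq_top_of_le _ _ ?_)
  apply h
  · refine ⟨a₀, ⟨⟨a₀, ha₀⟩, Subgroup.subset_closure (by simp), rfl⟩, rfl⟩
  · refine ⟨b₀, ⟨⟨b₀, hb₀⟩, Subgroup.subset_closure (by simp), rfl⟩, rfl⟩

end wrap

section data

universe u

variable (F₀ : Type u) [Field F₀] [Fintype F₀]

/-- The field data. -/
theorem exists_field_data (n k : ℕ) (hn : n = k + 1) (hk : 3 ≤ k) :
    ∃ (K : Type) (_ : Field K) (_ : Fintype K) (_ : Algebra F₀ K) (b : Basis (Fin n) F₀ (F₀ × K)) (θ : Kˣ),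
      (∀ x, x ∈ Subgroup.zpowers θ) ∧ θ * θ ≠ 1 ∧ 8 ≤ Fintype.card K ∧ (ringChar K ≠ 2 → 14 ≤ Fintype.card K) := by
  classical
  obtain ⟨p, hp⟩ := CharP.exists F₀
  haveI := hp
  haveI : Fact p.Prime := ⟨CharP.char_is_prime F₀ p⟩
  haveI : NeZero k := ⟨by omega⟩
  let K := FiniteField.Extension F₀ p k
  letI : Fintype K := Fintype.ofFinite K
  have hfr : Module.finrank F₀ K = k := FiniteField.finrank_extension F₀ p k
  have hfr2 : Module.finrank F₀ (F₀ × K) = n := by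
    rw [Module.finrank_prod, Module.finrank_self, hfr, hn, add_comm]
  let b : Basis (Fin n) F₀ (F₀ × K) := Module.finBasisOfFinrankEq F₀ (F₀ × K) hfr2
  obtain ⟨θ, hθ⟩ := IsCyclic.exists_generator (α := Kˣ)
  have hcard : Fintype.card K = Fintype.card F₀ ^ k := by
    rw [Module.card_eq_pow_finrank (K := F₀) (V := K), hfr]
  have h2 : 2 ≤ Fintype.card F₀ := Fintype.one_lt_card
  have h8 : 8 ≤ Fintype.card K := by
    rw [hcard]
    calc 8 = 2 ^ 3 := by norm_num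
      _ ≤ 2 ^ k := Nat.pow_le_pow_right (by norm_num) hk
      _ ≤ _ := Nat.pow_le_pow_left h2 k
  refine ⟨K, inferInstance, inferInstance, inferInstance, b, θ, hθ, ?_, h8, ?_⟩
  · intro h
    have h1 : orderOf θ = Fintype.card Kˣ := orderOf_eq_card_of_forall_mem_zpowers hθ |>.trans Nat.card_eq_fintype_card
    have h3 : Fintype.card Kˣ = Fintype.card K - 1 := Fintype.card_units K
    have h4 : orderOf θ ∣ 2 := orderOf_dvd_of_pow_eq_one (by rw [_root_.sq]; exact h)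
    have h5 := Nat.le_of_dvd (by norm_num) h4
    omega
  · intro hchar
    have h3 : Fintype.card F₀ ≠ 2 := by
      intro h3
      apply hchar
      have h4 : ringChar F₀ = 2 := by
        apply FiniteField.even_card_iff_char_two.mpr
        omega
      have h5 : CharP F₀ 2 := by
        rw [← h4]
        exact ringChar.charP F₀
      have h6 : CharP K 2 := charP_of_injective_algebraMap (algebraMap F₀ K).injective 2
      exact ringChar.eq K 2
    rw [hcard]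
    calc 14 ≤ 3 ^ 3 := by norm_num
      _ ≤ 3 ^ k := Nat.pow_le_pow_right (by norm_num) hk
      _ ≤ _ := Nat.pow_le_pow_left (by omega) k

end data

end Cfsg.Agent.Lib.OmTwoAlg
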