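import Mathlib
import Cfsg.Agent.Lib.OmTwoAlg

/-!
# Two generators of `Ω⁻`: reflections in the binary part, elements of `Ω`, and the main reduction
-/

set_option autoImplicit false
set_option linter.unusedSectionVars false
set_option linter.unusedVariables false

namespace Cfsg.Agent.Lib.OmTwoMinus

open Matrix QuadraticMap Cfsg Cfsg.Geo Module
open scoped MatrixGroups
open Cfsg.Agent.Lib.LawEmbed (IsHyp sl_inv_mul)
open Cfsg.Agent.Lib.OrthGroup (refl B O G O_le_G)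
open Cfsg.Agent.Lib.OrthOmega (prodR prodO prodR_cons prodO_mem_commutator sq_mem_commutator)
open Cfsg.Agent.Lib.OrthMatrix (glEquiv toO mem_Omega_iff toO_apply mulVec_glEquiv_symm mem_isometryGroup)
open Cfsg.Agent.Lib.HypNeg (IsHypCoord)
open Cfsg.Agent.Lib.OrthoBasic Cfsg.Agent.Lib.OrthoSiegel Cfsg.Agent.Lib.OrthoGen Cfsg.Agent.Lib.OrthoCount
  Cfsg.Agent.Lib.OrthoFinal Cfsg.Agent.Lib.OmCalc Cfsg.Agent.Lib.OmTwoCore Cfsg.Agent.Lib.OmTwoField
  Cfsg.Agent.Lib.OmTwoHyp Cfsg.Agent.Lib.OmTwoAlg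
open Cfsg.Agent.Lib.SympT (GL_ext mulVec_mul_GL mulVec_inv_GL inv_mulVec_GL)

local notation:70 g:71 " ⋆ " x:70 => Matrix.mulVec (Units.val g) x

variable {F : Type*} [Field F] [Fintype F] {ι κ : Type} [Fintype ι] [DecidableEq ι] [Fintype κ] [DecidableEq κ] {n : ℕ}
  {e : (Fin n ⊕ Fin n) ⊕ κ ≃ ι} {Q : QuadraticForm F (ι → F)} {Rk : (κ → F) → F}

/-- The reflection in `ε` on the part `κ → F`. -/
noncomputable def rκ (Rk : (κ → F) → F) (ε c : κ → F) : κ → F := c - ((Rk ε)⁻¹ * polar Rk c ε) • ε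

theorem refl_vec_kappa (h : IsHyp e (⇑Q) Rk) (hR0 : Rk 0 = 0) (ε : κ → F) (x y : Fin n → F) (c : κ → F) :
    refl Q (vec e 0 0 ε) (vec e x y c) = vec e x y (rκ Rk ε c) := by
  have h1 : Q (vec e 0 0 ε) = Rk ε := by
    rw [Q_vec h]
    simp
  have h2 : B Q (vec e x y c) (vec e 0 0 ε) = polar Rk c ε := by
    change polar Q _ _ = _
    rw [polar_vec h]
    simp
  rw [Cfsg.Agent.Lib.OrthGroup.refl_apply, h1, h2, Cfsg.Agent.Lib.OmTwoHyp.vec_smul, Cfsg.Agent.Lib.OmTwoHyp.vec_sub, rκ]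
  simp

/-- Products of reflections with even length and square product of values lie in `Ω`. -/
theorem exists_of_list (hQ : Nondeg Q) (L : List (ι → F)) (hL : ∀ v ∈ L, Q v ≠ 0) (hev : Even L.length)
    (hs : IsSquare (L.map Q).prod) :
    ∃ g : ↥(isometryGroup F ⇑Q), g ∈ Omega F ⇑Q ∧ ∀ x, ((g : GL ι F) : Matrix ι ι F) *ᵥ x = prodR Q L x := by
  have hB : (B Q).Nondegenerate := Cfsg.Agent.Lib.QuadFF.nondegenerate_of_ND (nd_of hQ)
  let g : ↥(isometryGroup F ⇑Q) := (toO Q).symm (prodO Q L)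
  refine ⟨g, ?_, ?_⟩
  · rw [mem_Omega_iff, MulEquiv.apply_symm_apply]
    exact prodO_mem_commutator hB L hL hev hs
  · intro x
    have h1 := toO_apply Q g x
    rw [← h1, MulEquiv.apply_symm_apply]
    rfl

/-- The Levi elements of determinant one. -/
theorem lev_SL_mem (h : IsHyp e (⇑Q) Rk) (hn : 3 ≤ n) (A : GL (Fin n) F) (hA : (A : Matrix (Fin n) (Fin n) F).det = 1) :
    lev e (A, 1) ∈ omegaGL ⇑Q := by
  let P : SL(n, F) := ⟨A, hA⟩
  obtain ⟨g, hg, hg'⟩ := exists_levi h hn P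
  refine ⟨g, hg, ?_⟩
  apply GL_ext
  intro v
  obtain ⟨x, y, c, rfl⟩ := exists_vec e v
  have hinv : ((P⁻¹ : SL(n, F)).1) = ((A⁻¹ : GL (Fin n) F) : Matrix (Fin n) (Fin n) F) := by
    have h1 := sl_inv_mul P
    have h2 : (P.1 * ((A⁻¹ : GL (Fin n) F) : Matrix (Fin n) (Fin n) F)) = 1 := by
      show (A : Matrix (Fin n) (Fin n) F) * _ = 1
      rw [← Units.val_mul, mul_inv_cancel, Units.val_one]
    calc ((P⁻¹ : SL(n, F)).1) = ((P⁻¹ : SL(n, F)).1) * (P.1 * ((A⁻¹ : GL (Fin n) F) : Matrix (Fin n) (Fin n) F)) := by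
          rw [h2, Matrix.mul_one]
      _ = _ := by rw [← Matrix.mul_assoc, h1, Matrix.one_mul]
  show ((g : GL ι F) : Matrix ι ι F) *ᵥ _ = _
  rw [hg', lev_vec, hinv]
  simp [P]

/-- The product of two reflections giving a diagonal Levi element. -/
theorem refl_pair_vec (h : IsHyp e (⇑Q) Rk) (hR0 : Rk 0 = 0) (i0 : Fin n) {d : F} (hd : d ≠ 0) (x y : Fin n → F) (c : κ → F) :
    refl Q (Pi.single (e (.inl (.inl i0))) 1 - d⁻¹ • Pi.single (e (.inl (.inr i0))) 1)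
      (refl Q (Pi.single (e (.inl (.inl i0))) 1 - Pi.single (e (.inl (.inr i0))) 1) (vec e x y c)) =
    vec e (fun i => if i = i0 then d * x i else x i) (fun i => if i = i0 then d⁻¹ * y i else y i) c := by
  classical
  have hH := hypCoord_of h hR0 i0
  apply vec_ext e
  · intro i
    rw [Cfsg.Agent.Lib.HypLevi.hyp_refl_sub_smul_apply hH (inv_ne_zero hd),
      Cfsg.Agent.Lib.HypLevi.hyp_refl_sub_apply hH, Cfsg.Agent.Lib.HypLevi.hyp_refl_sub_apply hH]
    by_cases hi : i = i0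
    · subst hi
      simp
    · have h1 : ¬ (e (Sum.inl (Sum.inl i)) = e (Sum.inl (Sum.inl i0))) := by
        intro h'
        apply hi
        simpa using e.injective h'
      have h2 : ¬ (e (Sum.inl (Sum.inl i)) = e (Sum.inl (Sum.inr i0))) := by
        intro h'
        simpa using e.injective h'
      simp [h1, h2, hi, Cfsg.Agent.Lib.HypLevi.hyp_refl_sub_apply hH]
  · intro i
    rw [Cfsg.Agent.Lib.HypLevi.hyp_refl_sub_smul_apply hH (inv_ne_zero hd),
      Cfsg.Agent.Lib.HypLevi.hyp_refl_sub_apply hH]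
    by_cases hi : i = i0
    · subst hi
      have h1 : ¬ (e (Sum.inl (Sum.inr i)) = e (Sum.inl (Sum.inl i))) := by
        intro h'
        simpa using e.injective h'
      simp [h1, Cfsg.Agent.Lib.HypLevi.hyp_refl_sub_apply hH]
    · have h1 : ¬ (e (Sum.inl (Sum.inr i)) = e (Sum.inl (Sum.inr i0))) := by
        intro h'
        apply hi
        simpa using e.injective h'
      have h2 : ¬ (e (Sum.inl (Sum.inr i)) = e (Sum.inl (Sum.inl i0))) := by
        intro h'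
        simpa using e.injective h'
      simp [h1, h2, hi, Cfsg.Agent.Lib.HypLevi.hyp_refl_sub_apply hH]
  · intro i
    rw [Cfsg.Agent.Lib.HypLevi.hyp_refl_sub_smul_apply hH (inv_ne_zero hd),
      Cfsg.Agent.Lib.HypLevi.hyp_refl_sub_apply hH]
    have h1 : ¬ (e (Sum.inr i) = e (Sum.inl (Sum.inl i0))) := by
      intro h'
      simpa using e.injective h'
    have h2 : ¬ (e (Sum.inr i) = e (Sum.inl (Sum.inr i0))) := by
      intro h'
      simpa using e.injective h'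
    simp [h1, h2, Cfsg.Agent.Lib.HypLevi.hyp_refl_sub_apply hH]

/-- The Levi elements `lev (A, B)` where `B` is a product of two reflections and the values give a square. -/
theorem lev_mem_of_refl (h : IsHyp e (⇑Q) Rk) (hR0 : Rk 0 = 0) (hQ : Nondeg Q) (hn : 3 ≤ n) (A : GL (Fin n) F)
    (B' : GL κ F) (ε₁ ε₂ : κ → F) (hB : ∀ c, (B' : Matrix κ κ F) *ᵥ c = rκ Rk ε₂ (rκ Rk ε₁ c))
    (hε₁ : Rk ε₁ ≠ 0) (hε₂ : Rk ε₂ ≠ 0)
    (hsq : IsSquare (((A : Matrix (Fin n) (Fin n) F).det)⁻¹ * (Rk ε₂ * Rk ε₁))) :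
    lev e (A, B') ∈ omegaGL ⇑Q := by
  classical
  have hdet : (A : Matrix (Fin n) (Fin n) F).det ≠ 0 := ((Matrix.isUnit_iff_isUnit_det _).1 A.isUnit).ne_zero
  set d := (A : Matrix (Fin n) (Fin n) F).det with hd
  let i0 : Fin n := ⟨0, by omega⟩
  let D : GL (Fin n) F := Cfsg.Agent.Lib.ClassicalSL.diagGL i0 d hdet
  have hD : (D : Matrix (Fin n) (Fin n) F).det = d := by
    change Matrix.det (diagonal fun k => if k = i0 then d else 1) = d
    rw [Matrix.det_diagonal, Finset.prod_ite_eq' Finset.univ i0 (fun _ => d)]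
    simp
  have hDinv : ((D⁻¹ : GL (Fin n) F) : Matrix (Fin n) (Fin n) F) = diagonal fun k => if k = i0 then d⁻¹ else 1 := rfl
  have hAD : ((A * D⁻¹ : GL (Fin n) F) : Matrix (Fin n) (Fin n) F).det = 1 := by
    rw [Units.val_mul, Matrix.det_mul, hDinv, Matrix.det_diagonal, Finset.prod_ite_eq' Finset.univ i0 (fun _ => d⁻¹), ← hd]
    simp [hdet]
  have h1 : lev e (A, B') = lev e (A * D⁻¹, 1) * lev e (D, B') := by
    rw [← map_mul]
    congr 1
    apply Prod.ext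
    · simp
    · simp
  rw [h1]
  refine Subgroup.mul_mem _ (lev_SL_mem h hn _ hAD) ?_
  let a₁ := e (.inl (.inl i0))
  let b₁ := e (.inl (.inr i0))
  have hH := hypCoord_of h hR0 i0
  let L : List (ι → F) := [Pi.single a₁ 1 - d⁻¹ • Pi.single b₁ 1, Pi.single a₁ 1 - Pi.single b₁ 1, vec e 0 0 ε₂, vec e 0 0 ε₁]
  have hv : ∀ ε : κ → F, Q (vec e 0 0 ε) = Rk ε := by
    intro ε
    rw [Q_vec h]
    simp
  have hQ1 : Q (Pi.single a₁ 1 - d⁻¹ • Pi.single b₁ 1) = -d⁻¹ := Cfsg.Agent.Lib.HypLevi.hyp_Q_sub_smul hH _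
  have hQ2 : Q (Pi.single a₁ 1 - Pi.single b₁ 1) = -1 := hH.Q_sub
  obtain ⟨g, hg, hg'⟩ := exists_of_list hQ L (by
    intro v hv'
    simp only [L, List.mem_cons, List.not_mem_nil, or_false] at hv'
    rcases hv' with rfl | rfl | rfl | rfl
    · rw [hQ1]
      simpa using hdet
    · rw [hQ2]
      simp
    · rw [hv]
      exact hε₂
    · rw [hv]
      exact hε₁) (by exact ⟨2, rfl⟩) (by
    have : (L.map Q).prod = d⁻¹ * (Rk ε₂ * Rk ε₁) := by
      simp only [L, List.map_cons, List.map_nil, List.prod_cons, List.prod_nil, mul_one]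
      rw [hQ1, hQ2, hv, hv]
      ring
    rw [this]
    exact hsq)
  refine ⟨g, hg, ?_⟩
  apply GL_ext
  intro v
  obtain ⟨x, y, c, rfl⟩ := exists_vec e v
  show ((g : GL ι F) : Matrix ι ι F) *ᵥ _ = _
  rw [hg', lev_vec]
  change refl Q _ (refl Q _ (refl Q (vec e 0 0 ε₂) (refl Q (vec e 0 0 ε₁) (vec e x y c)))) = _
  rw [refl_vec_kappa h hR0, refl_vec_kappa h hR0, ← hB, refl_pair_vec h hR0 i0 hdet]
  simp only
  congr 1
  · funext i
    show _ = ((diagonal fun k => if k = i0 then d else 1) *ᵥ x) i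
    rw [Matrix.mulVec_diagonal]
    by_cases hi : i = i0
    · simp [hi]
    · simp [hi]
  · funext i
    rw [hDinv, Matrix.diagonal_transpose, Matrix.mulVec_diagonal]
    by_cases hi : i = i0
    · simp [hi]
    · simp [hi]

/-- The swap for `n` odd, composed with a reflection of value `-1`. -/
theorem exists_swap_odd (h : IsHyp e (⇑Q) Rk) (hR0 : Rk 0 = 0) (hQ : Nondeg Q) (hn : Odd n) (ε : κ → F) (hε : Rk ε = -1) :
    ∃ g : ↥(isometryGroup F ⇑Q), g ∈ Omega F ⇑Q ∧ ∀ x y c, (g : GL ι F) ⋆ vec e x y c = vec e y x (rκ Rk ε c) := by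
  classical
  let L₁ : List (ι → F) := (List.finRange n).map fun j => Pi.single (e (.inl (.inl j))) 1 - Pi.single (e (.inl (.inr j))) 1
  have hL₁ : ∀ v ∈ L₁, Q v = -1 := by
    intro v hv
    obtain ⟨j, -, rfl⟩ := List.mem_map.mp hv
    exact (hypCoord_of h hR0 j).Q_sub
  have hd : Q (vec e 0 0 ε) = -1 := by
    rw [Q_vec h, hε]
    simp
  have hprod : ((L₁ ++ [vec e 0 0 ε]).map Q).prod = 1 := by
    have : L₁.map Q = List.replicate n (-1) := by
      rw [List.eq_replicate_iff]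
      refine ⟨by simp [L₁], ?_⟩
      intro b hb
      obtain ⟨v, hv, rfl⟩ := List.mem_map.mp hb
      exact hL₁ v hv
    rw [List.map_append, List.prod_append, this, List.prod_replicate, hn.neg_one_pow]
    simp [hd]
  obtain ⟨g, hg, hg'⟩ := exists_of_list hQ (L₁ ++ [vec e 0 0 ε]) (by
    intro v hv
    rcases List.mem_append.mp hv with hv | hv
    · rw [hL₁ v hv]
      simp
    · rw [List.mem_singleton.mp hv, hd]
      simp) (by
    simp only [List.length_append, List.length_cons, List.length_nil, zero_add, L₁, List.length_map,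
      List.length_finRange]
    exact hn.add_one) (by rw [hprod]; exact IsSquare.one)
  refine ⟨g, hg, fun x y c => ?_⟩
  rw [hg', Cfsg.Agent.Lib.OrthOmega.prodR_append]
  change prodR Q L₁ (prodR Q [vec e 0 0 ε] (vec e x y c)) = _
  have h1 : prodR Q [vec e 0 0 ε] (vec e x y c) = refl Q (vec e 0 0 ε) (vec e x y c) := by
    rw [prodR_cons]
    rfl
  rw [h1, refl_vec_kappa h hR0]
  obtain ⟨h1, h2, h3⟩ := prodR_swap_vec h hR0 (List.finRange n) (List.nodup_finRange n) (vec e x y (rκ Rk ε c))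
  apply vec_ext e
  · intro j
    have := h1 j
    simpa [L₁] using this
  · intro j
    have := h2 j
    simpa [L₁] using this
  · intro j
    have := h3 j
    simpa [L₁] using this

section prodK

variable {K : Type*} [Field K] [Fintype K] [Algebra F K] (b : Basis (Fin n) F (F × K))

/-- The element `j` from a swap in `Ω`, for the algebra `F × K`. -/
theorem exists_j_gen (h : IsHyp e (⇑Q) Rk) (hn : 3 ≤ n) {Bj : (κ → F) → (κ → F)} {g₁ : ↥(isometryGroup F ⇑Q)}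
    (hg₁ : g₁ ∈ Omega F ⇑Q) (hg₁' : ∀ x y c, (g₁ : GL ι F) ⋆ vec e x y c = vec e y x (Bj c)) :
    ∃ (d : F) (g : ↥(isometryGroup F ⇑Q)), d ≠ 0 ∧ g ∈ Omega F ⇑Q ∧ ∀ x y w, (g : GL ι F) ⋆ em e b x y w =
      em e b (d⁻¹ * y.1, y.2) (d * x.1, x.2) (Bj w) := by
  have hG : IsUnit (gram b) := gram_isUnit b hnd_FK
  have hG' : gram b * (gram b)⁻¹ = 1 := Matrix.mul_nonsing_inv _ ((Matrix.isUnit_iff_isUnit_det _).1 hG)
  have hG'' : (gram b)⁻¹ * gram b = 1 := Matrix.nonsing_inv_mul _ ((Matrix.isUnit_iff_isUnit_det _).1 hG)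
  have hdet0 : (gram b).det ≠ 0 := ((Matrix.isUnit_iff_isUnit_det _).1 hG).ne_zero
  set d : F := ((gram b).det)⁻¹ with hd
  have hd0 : d ≠ 0 := inv_ne_zero hdet0
  let c : (F × K)ˣ := MulEquiv.prodUnits.symm (Units.mk0 d hd0, 1)
  have hc : (c : F × K) = (d, 1) := rfl
  have hc' : ((c⁻¹ : (F × K)ˣ) : F × K) = (d⁻¹, 1) := by
    apply Units.inv_eq_of_mul_eq_one_right
    rw [hc]
    apply Prod.ext
    · simp [hd0]
    · simp
  have hc1 : rho b ((c⁻¹ : (F × K)ˣ) : F × K) * rho b (c : F × K) = 1 := by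
    rw [← map_mul, Units.inv_mul, map_one]
  have hdet : (rho b (c : F × K)).det * (gram b).det = 1 := by
    rw [hc, det_rho_FK, hd, inv_mul_cancel₀ hdet0]
  have hinv : rho b ((c⁻¹ : (F × K)ˣ) : F × K) * (gram b)⁻¹ * (gram b * rho b (c : F × K)) = 1 := by
    rw [Matrix.mul_assoc, ← Matrix.mul_assoc (gram b)⁻¹, hG'', Matrix.one_mul, hc1]
  have hdet1 : (rho b ((c⁻¹ : (F × K)ˣ) : F × K) * (gram b)⁻¹).det = 1 := by
    have h1 := congrArg Matrix.det hinv
    rw [Matrix.det_mul, Matrix.det_one, Matrix.det_mul (gram b), mul_comm (gram b).det, hdet, mul_one] at h1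
    exact h1
  let P : SL(n, F) := ⟨rho b ((c⁻¹ : (F × K)ˣ) : F × K) * (gram b)⁻¹, hdet1⟩
  have hP1 : ((P⁻¹ : SL(n, F)).1) = gram b * rho b (c : F × K) := by
    have h1 := sl_inv_mul P
    have h2 : P.1 * (gram b * rho b (c : F × K)) = 1 := hinv
    calc ((P⁻¹ : SL(n, F)).1) = ((P⁻¹ : SL(n, F)).1) * (P.1 * (gram b * rho b (c : F × K))) := by rw [h2, Matrix.mul_one]
      _ = gram b * rho b (c : F × K) := by rw [← Matrix.mul_assoc, h1, Matrix.one_mul]
  have hP2 : ((P⁻¹ : SL(n, F)).1)ᵀ = gram b * rho b (c : F × K) := by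
    rw [hP1, Matrix.transpose_mul, gram_transpose, ← gram_mul_rho]
  obtain ⟨g₂, hg₂, hg₂'⟩ := exists_levi h hn P
  refine ⟨d, g₂ * g₁, hd0, Subgroup.mul_mem _ hg₂ hg₁, fun x y w => ?_⟩
  have h1 : ((g₂ * g₁ : ↥(isometryGroup F ⇑Q)) : GL ι F) = (g₂ : GL ι F) * (g₁ : GL ι F) := rfl
  rw [h1, mulVec_mul_GL, Cfsg.Agent.Lib.OmTwoAlg.em, hg₁', hg₂', hP2, Cfsg.Agent.Lib.OmTwoAlg.em]
  congr 1
  · show (rho b ((c⁻¹ : (F × K)ˣ) : F × K) * (gram b)⁻¹) *ᵥ (gram b *ᵥ (b.repr y : Fin n → F)) = _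
    rw [Matrix.mulVec_mulVec, Matrix.mul_assoc, hG'', Matrix.mul_one, rho_mulVec, hc']
    congr 2
    apply Prod.ext
    · simp
    · simp
  · rw [← Matrix.mulVec_mulVec, rho_mulVec, hc]
    congr 3
    apply Prod.ext
    · simp
    · simp

variable (e)

/-- The Levi elements for `(1, τ)` and `B`. -/
noncomputable def levKB : Kˣ × GL κ F →* GL ι F :=
  (lev e).comp (((rhoU b).comp inrU).prodMap (MonoidHom.id _))

theorem levKB_em (τ : Kˣ) (B' : GL κ F) (x y : F × K) (c : κ → F) :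
    levKB e b (τ, B') ⋆ em e b x y c = em e b (x.1, (τ : K) * x.2) (y.1, ((τ⁻¹ : Kˣ) : K) * y.2) ((B' : Matrix κ κ F) *ᵥ c) := by
  have h1 : levKB e b (τ, B') = lev e (rhoU b (inrU τ), B') := rfl
  rw [h1, lev_em, ← map_inv, inrU_val, inrU_val]
  congr 1
  · exact Prod.ext (one_mul _) rfl
  · exact Prod.ext (one_mul _) rfl

theorem levKB_iso {τ : Kˣ} {B' : GL κ F} (h : IsHyp e (⇑Q) Rk) (hp : ∀ c, Rk ((B' : Matrix κ κ F) *ᵥ c) = Rk c) (v : ι → F) :
    Q (levKB e b (τ, B') ⋆ v) = Q v :=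
  lev_iso h _ hp v

variable {e}

theorem exists_s_gen (h5 : 5 ≤ Fintype.card K) : ∃ s : K, s ≠ 0 ∧ s + 1 ≠ 0 ∧ s ^ 2 + s + 1 ≠ 0 := by
  classical
  let p : Polynomial K := Polynomial.X * (Polynomial.X + 1) * (Polynomial.X ^ 2 + Polynomial.X + 1)
  have hp : p.Monic := by
    simp only [p]
    monicity!
  have hdeg : p.natDegree < Fintype.card K := by
    have : p.natDegree ≤ 4 := by
      simp only [p]
      compute_degree
    omega
  obtain ⟨s, hs⟩ := Polynomial.exists_eval_ne_zero_of_natDegree_lt_card p hp.ne_zero (by rw [Cardinal.mk_fintype]; exact_mod_cast hdeg)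
  simp only [p, Polynomial.eval_mul, Polynomial.eval_add, Polynomial.eval_X, Polynomial.eval_one, Polynomial.eval_pow] at hs
  exact ⟨s, fun h => hs (by rw [h]; ring), fun h => hs (by rw [h]; ring), fun h => hs (by rw [h]; ring)⟩

/-- The additive map `c ↦ (0, 0, c)`. -/
noncomputable def gC (e : (Fin n ⊕ Fin n) ⊕ κ ≃ ι) (b : Basis (Fin n) F (F × K)) : (κ → F) →+ (ι → F) :=
  AddMonoidHom.mk' (fun c => em e b 0 0 c) (fun c c' => by
    rw [em_add]
    simp)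

/-- The main reduction for `Ω⁻`. -/
theorem core_minus (hQ : Nondeg Q) (h : IsHyp e (⇑Q) Rk) (hR0 : Rk 0 = 0) (h7 : 7 ≤ Fintype.card ι) (fr : Frame Q)
    {d : F} (hd0 : d ≠ 0) {Bj : (κ → F) → (κ → F)} {j : GL ι F}
    (hj : ∀ x y w, j ⋆ em e b x y w = em e b (d⁻¹ * y.1, y.2) (d * x.1, x.2) (Bj w))
    (hjQ : ∀ v, Q (j ⋆ v) = Q v) {θ : Kˣ} (hθ : ∀ x, x ∈ Subgroup.zpowers θ) (hθ1 : θ ≠ 1)
    {B₁ B₂ : GL κ F} (hB₁ : ∀ c, Rk ((B₁ : Matrix κ κ F) *ᵥ c) = Rk c) (hB₂ : ∀ c, Rk ((B₂ : Matrix κ κ F) *ᵥ c) = Rk c)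
    (hBj : ∀ c, Bj ((B₁ : Matrix κ κ F) *ᵥ c) = (B₂ : Matrix κ κ F) *ᵥ Bj c) (hcomm : B₁ * B₂ = B₂ * B₁)
    {c₀ : κ → F} {N : ℕ} (hBN : B₁ ^ N = 1) (hθN : θ ^ N ≠ 1)
    (hspan : ∀ P : AddSubgroup (κ → F),
      (B₁ : Matrix κ κ F) *ᵥ (c₀ - (B₂ : Matrix κ κ F) *ᵥ c₀) - (c₀ - (B₂ : Matrix κ κ F) *ᵥ c₀) ∈ P →
      (∀ c ∈ P, (B₁ : Matrix κ κ F) *ᵥ c ∈ P) → P = ⊤)
    (h5 : 5 ≤ Fintype.card K) {M : Subgroup (GL ι F)} {u w₀ : ι → F} (hudef : u = em e b ((1 : F), (0 : K)) 0 0)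
    (hw₀def : w₀ = em e b ((0 : F), (1 : K)) (0, 1) c₀) (hu : Q u = 0) (hw : polar Q u w₀ = 0)
    (haM : levKB e b (θ, B₁) ∈ M) (hbM : sE hQ hu hw * j ∈ M) : omegaGL ⇑Q ≤ M := by
  classical
  have hG : IsUnit (gram b) := gram_isUnit b hnd_FK
  set a := levKB e b (θ, B₁) with hadef
  set a' := levKB e b (θ⁻¹, B₂) with ha'def
  have haQ : ∀ v, Q (a ⋆ v) = Q v := levKB_iso e b h hB₁
  have ha'Q : ∀ v, Q (a' ⋆ v) = Q v := levKB_iso e b h hB₂
  have hjj : j * a * j⁻¹ = a' := by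
    rw [mul_inv_eq_iff_eq_mul]
    apply GL_ext
    intro v
    obtain ⟨x, y, w, rfl⟩ := exists_em e b hG v
    rw [mulVec_mul_GL, mulVec_mul_GL, hj, hadef, levKB_em, hj, ha'def, levKB_em, hBj]
    simp
  have hcomm' : a * a' = a' * a := by
    rw [hadef, ha'def, ← map_mul, ← map_mul]
    congr 1
    apply Prod.ext
    · simp
    · exact hcomm
  have hau : a ⋆ u = u := by
    rw [hudef, hadef, levKB_em]
    simp [Prod.mk_zero_zero]
  have ha'u : a' ⋆ u = u := by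
    rw [hudef, ha'def, levKB_em]
    simp [Prod.mk_zero_zero]
  have key := R_core hQ hu hw haQ ha'Q hau ha'u hjj hcomm' haM hbM
  set α : K := (θ : K) + ((θ⁻¹ : Kˣ) : K) - 2 with hα
  have hθ0 : (θ : K) ≠ 0 := θ.ne_zero
  have hθ1' : (θ : K) - 1 ≠ 0 := by
    intro h1
    apply hθ1
    exact Units.ext (by simpa using sub_eq_zero.mp h1)
  have hα0 : α ≠ 0 := by
    have : α = ((θ⁻¹ : Kˣ) : K) * ((θ : K) - 1) ^ 2 := by
      rw [hα, Units.val_inv_eq_inv_val]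
      field_simp
      ring
    rw [this]
    exact mul_ne_zero (Units.ne_zero _) (pow_ne_zero 2 hθ1')
  set c₁ : κ → F := (B₁ : Matrix κ κ F) *ᵥ (c₀ - (B₂ : Matrix κ κ F) *ᵥ c₀) - (c₀ - (B₂ : Matrix κ κ F) *ᵥ c₀) with hc₁
  have hY : a ⋆ (w₀ - a' ⋆ w₀) - (w₀ - a' ⋆ w₀) = fW e b (α, α) + em e b 0 0 c₁ := by
    rw [hw₀def, ha'def, levKB_em, em_sub, hadef, levKB_em, em_sub, fW_apply, em_add]
    congr 1
    · apply Prod.ext
      · simp
      · simp only [Prod.snd_sub, mul_one, Prod.snd_add, Prod.snd_zero, add_zero, mul_sub]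
        rw [Units.mul_inv, hα]
        ring
    · apply Prod.ext
      · simp
      · simp only [Prod.snd_sub, mul_one, Prod.snd_add, Prod.snd_zero, add_zero, mul_sub, inv_inv]
        rw [Units.inv_mul, hα]
        ring
    · simp [hc₁]
  rw [hY] at key
  -- the `K × K` part
  have hpow : ∀ i : ℤ, a ^ i = levKB e b (θ ^ i, B₁ ^ i) := by
    intro i
    rw [hadef, ← map_zpow]
    rfl
  have hfix : ∀ i : ℤ, a ^ i ⋆ u = u := by
    intro i
    rw [hpow, hudef, levKB_em]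
    simp [Prod.mk_zero_zero]
  have hiso : ∀ i : ℤ, ∀ v, Q (a ^ i ⋆ v) = Q v := by
    intro i
    induction i using Int.induction_on with
    | zero => simp
    | succ i ih =>
      intro v
      rw [_root_.zpow_add_one, mulVec_mul_GL, ih, haQ]
    | pred i ih =>
      intro v
      rw [_root_.zpow_sub_one, mulVec_mul_GL, ih]
      exact iso_inv haQ v
  have hfW : ∀ i : ℤ, ∀ p : K × K, a ^ i ⋆ fW e b p = fW e b (((θ ^ i : Kˣ) : K) * p.1, (((θ ^ i)⁻¹ : Kˣ) : K) * p.2) := by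
    intro i p
    rw [hpow, fW_apply, levKB_em, fW_apply]
    simp
  have hgC : ∀ i : ℤ, ∀ c, a ^ i ⋆ em e b 0 0 c = em e b 0 0 (((B₁ ^ i : GL κ F) : Matrix κ κ F) *ᵥ c) := by
    intro i c
    rw [hpow, levKB_em]
    simp [Prod.mk_zero_zero]
  have hcN : ((B₁ ^ (N : ℤ) : GL κ F) : Matrix κ κ F) = 1 := by
    rw [zpow_natCast, hBN]
    rfl
  have hsep : R hQ M u (fW e b (((θ ^ N : Kˣ) : K) * α - α, (((θ ^ N)⁻¹ : Kˣ) : K) * α - α)) := by
    have h1 := R_conj (hiso N) (M.zpow_mem haM N) key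
    rw [hfix, Matrix.mulVec_add, hfW, hgC, hcN, Matrix.one_mulVec, zpow_natCast] at h1
    have h2 := R_sub h1 key
    have h3 : fW e b (((θ ^ N : Kˣ) : K) * (α, α).1, (((θ ^ N)⁻¹ : Kˣ) : K) * (α, α).2) + em e b 0 0 c₁ - (fW e b (α, α) + em e b 0 0 c₁)
        = fW e b (((θ ^ N : Kˣ) : K) * α - α, (((θ ^ N)⁻¹ : Kˣ) : K) * α - α) := by
      rw [add_sub_add_right_eq_sub, ← map_sub]
      rfl
    rwa [h3] at h2
  have hθN1 : ((θ ^ N : Kˣ) : K) - 1 ≠ 0 := by
    intro h1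
    apply hθN
    exact Units.ext (by simpa using sub_eq_zero.mp h1)
  have hθN2 : (((θ ^ N)⁻¹ : Kˣ) : K) - 1 ≠ 0 := by
    intro h1
    apply hθN
    have : (θ ^ N)⁻¹ = 1 := Units.ext (by simpa using sub_eq_zero.mp h1)
    simpa using this
  obtain ⟨s, hs0, hs1, hs2⟩ := exists_s_gen h5
  have hP := kk_lemma (S := {x : K | x ≠ 0}) (fun _ hx => hx) (fun _ hx => inv_ne_zero hx) one_ne_zero
    (by
      rw [eq_top_iff]
      intro x _
      by_cases hx : x = 0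
      · rw [hx]
        exact AddSubgroup.zero_mem _
      · exact AddSubgroup.subset_closure hx)
    hs0 hs1 hs2 ((Rset hQ M u hu).comap (fW e b)) (by
    intro p hp τ hτ
    obtain ⟨i, hi⟩ := hθ (Units.mk0 τ hτ)
    have hi' : (θ ^ i : Kˣ) = Units.mk0 τ hτ := hi
    have h1 := R_conj (hiso i) (M.zpow_mem haM i) hp
    rw [hfix, hfW, hi'] at h1
    have h2 : (((Units.mk0 τ hτ)⁻¹ : Kˣ) : K) = τ⁻¹ := by simp
    rw [h2] at h1
    exact h1) (α := ((θ ^ N : Kˣ) : K) * α - α) (β := (((θ ^ N)⁻¹ : Kˣ) : K) * α - α) hsep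
    (by
      rw [← sub_one_mul]
      exact mul_ne_zero hθN1 hα0)
    (by
      rw [← sub_one_mul]
      exact mul_ne_zero hθN2 hα0)
  have hfWall : ∀ p, R hQ M u (fW e b p) := by
    intro p
    have h1 : p ∈ (Rset hQ M u hu).comap (fW e b) := by
      rw [hP]
      exact AddSubgroup.mem_top _
    exact h1
  -- the binary part
  have hc₁R : R hQ M u (em e b 0 0 c₁) := by
    have h1 := R_sub key (hfWall (α, α))
    rwa [add_sub_cancel_left] at h1
  have hP2 := hspan ((Rset hQ M u hu).comap (gC e b)) hc₁R (by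
    intro c hc
    have h1 := R_conj haQ haM hc
    have h2 : a ⋆ (gC e b c) = gC e b ((B₁ : Matrix κ κ F) *ᵥ c) := by
      show a ⋆ em e b 0 0 c = em e b 0 0 _
      rw [hadef, levKB_em]
      simp [Prod.mk_zero_zero]
    rw [hau, h2] at h1
    exact h1)
  have hCall : ∀ c, R hQ M u (em e b 0 0 c) := by
    intro c
    have h1 : c ∈ (Rset hQ M u hu).comap (gC e b) := by
      rw [hP2]
      exact AddSubgroup.mem_top _
    exact h1
  have hT : T hQ M u := by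
    refine ⟨hu, fun y hy => ?_⟩
    obtain ⟨x, y', c, rfl⟩ := exists_em e b hG y
    rw [hudef, polar_u b h hR0] at hy
    have h1 : em e b x y' c = x.1 • u + fW e b (x.2, y'.2) + em e b 0 0 c := by
      rw [hudef, em_smul, fW_apply, em_add, em_add]
      congr 1
      · apply Prod.ext <;> simp
      · apply Prod.ext
        · simp [hy]
        · simp
      · simp
    rw [h1]
    exact R_add (R_add (R_self hu _) (hfWall _)) (hCall _)
  have htM : sE hQ hu hw ∈ M := by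
    obtain ⟨_, _, h2⟩ := hT.2 _ hw
    exact h2
  have hjM : j ∈ M := by
    have := M.mul_mem (M.inv_mem htM) hbM
    rwa [inv_mul_cancel_left] at this
  have hT' := T_conj hjQ hjM hT
  refine omega_le_of_opp' hQ h7 fr hT hT' ?_
  rw [hudef, hj, polar_u' b h hR0]
  simpa using hd0

end prodK

end Cfsg.Agent.Lib.OmTwoMinus
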