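import Mathlib
import Cfsg.Agent.Lib.OmTwoMinus
import Cfsg.Agent.Lib.QuadExt

/-!
# The binary anisotropic form as a norm form
-/

set_option autoImplicit false
set_option linter.unusedSectionVars false
set_option linter.unusedVariables false

namespace Cfsg.Agent.Lib.OmTwoBin

open Matrix QuadraticMap Cfsg Module
open scoped MatrixGroups
open Cfsg.Agent.Lib.HermCount Cfsg.Agent.Lib.QuadExt Cfsg.Agent.Lib.OmTwoMinus
open Cfsg.Agent.Lib.OrthMatrix (glEquiv mulVec_glEquiv_symm)
open Cfsg.Agent.Lib.SympT (GL_ext mulVec_mul_GL mulVec_inv_GL inv_mulVec_GL)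

variable {F E : Type*} [Field F] [Fintype F] [Field E] [Fintype E] [Algebra F E] {q : ℕ} {a b : F} {ω : E}

/-- The binary form. -/
def Rb (a b : F) (c : Fin 2 → F) : F := c 0 ^ 2 + a * c 0 * c 1 + b * c 1 ^ 2

/-- The coordinates. -/
noncomputable def piL (ω : E) : (Fin 2 → F) →ₗ[F] E where
  toFun c := algebraMap F E (c 0) - algebraMap F E (c 1) * ω
  map_add' c c' := by
    simp only [Pi.add_apply, map_add]
    ring
  map_smul' t c := by
    simp only [Pi.smul_apply, smul_eq_mul, map_mul, RingHom.id_apply, Algebra.smul_def]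
    ring

theorem piL_nrm (H : Data F E a b ω) (hF : Fintype.card F = q) (hE : Fintype.card E = q ^ 2) (c : Fin 2 → F) :
    nrm q (piL ω c) = algebraMap F E (Rb a b c) :=
  H.nrm_eq hF hE (c 0) (c 1)

theorem piL_inj (H : Data F E a b ω) (hF : Fintype.card F = q) (hE : Fintype.card E = q ^ 2) :
    Function.Injective (piL (F := F) ω) := by
  rw [injective_iff_map_eq_zero]
  intro c hc
  have h1 := piL_nrm H hF hE c
  rw [hc, nrm, zero_mul] at h1
  have h2 : Rb a b c = 0 := by
    apply (algebraMap F E).injective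
    rw [← h1, map_zero]
  obtain ⟨h3, h4⟩ := H.aniso _ _ h2
  funext i
  fin_cases i
  · exact h3
  · exact h4

theorem finrank_E (hF : Fintype.card F = q) (hE : Fintype.card E = q ^ 2) : Module.finrank F E = 2 := by
  have h1 := Module.card_eq_pow_finrank (K := F) (V := E)
  rw [hE, hF] at h1
  have hq : 1 < q := hF ▸ Fintype.one_lt_card
  exact (Nat.pow_right_injective hq h1).symm

/-- The coordinates, as an equivalence. -/
noncomputable def piE (H : Data F E a b ω) (hF : Fintype.card F = q) (hE : Fintype.card E = q ^ 2) : (Fin 2 → F) ≃ₗ[F] E :=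
  LinearEquiv.ofInjectiveOfFinrankEq (piL ω) (piL_inj H hF hE) (by rw [finrank_E hF hE]; simp)

variable (H : Data F E a b ω) (hF : Fintype.card F = q) (hE : Fintype.card E = q ^ 2)

theorem piE_apply (c : Fin 2 → F) : piE H hF hE c = piL ω c := rfl

theorem piE_nrm (c : Fin 2 → F) : nrm q (piE H hF hE c) = algebraMap F E (Rb a b c) := piL_nrm H hF hE c

include hE in
theorem neg_pow_q' (x : E) : (-x) ^ q = - x ^ q := Cfsg.Agent.Lib.UnitaryBasic.neg_pow_q hE x

/-- Multiplication by a unit of `E`. -/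
noncomputable def mulE (τ : Eˣ) : E ≃ₗ[F] E :=
  LinearEquiv.ofLinear (LinearMap.mulLeft F (τ : E)) (LinearMap.mulLeft F ((τ⁻¹ : Eˣ) : E))
    (by
      ext x
      simp)
    (by
      ext x
      simp)

/-- Multiplication by a unit of `E`, on the coordinates. -/
noncomputable def Bmul : Eˣ →* GL (Fin 2) F where
  toFun τ := glEquiv.symm ((piE H hF hE).trans ((mulE τ).trans (piE H hF hE).symm))
  map_one' := by
    apply GL_ext
    intro c
    rw [mulVec_glEquiv_symm]
    simp [mulE]
  map_mul' τ σ := by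
    apply GL_ext
    intro c
    rw [mulVec_mul_GL, mulVec_glEquiv_symm, mulVec_glEquiv_symm, mulVec_glEquiv_symm]
    simp [mulE, mul_assoc]

theorem piE_Bmul (τ : Eˣ) (c : Fin 2 → F) :
    piE H hF hE (((Bmul H hF hE τ : GL (Fin 2) F) : Matrix (Fin 2) (Fin 2) F) *ᵥ c) = (τ : E) * piE H hF hE c := by
  show piE H hF hE ((glEquiv.symm _ : GL (Fin 2) F).val *ᵥ c) = _
  rw [mulVec_glEquiv_symm]
  simp [mulE]

theorem Rb_Bmul (τ : Eˣ) (hτ : nrm q (τ : E) = 1) (c : Fin 2 → F) :
    Rb a b (((Bmul H hF hE τ : GL (Fin 2) F) : Matrix (Fin 2) (Fin 2) F) *ᵥ c) = Rb a b c := by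
  apply (algebraMap F E).injective
  rw [← piE_nrm H hF hE, piE_Bmul, Cfsg.Agent.Lib.UnitaryBasic.nrm_mul', hτ, one_mul, piE_nrm]

theorem polar_Rb (c ε : Fin 2 → F) :
    algebraMap F E (polar (Rb a b) c ε) =
      piE H hF hE c * (piE H hF hE ε) ^ q + (piE H hF hE c) ^ q * piE H hF hE ε := by
  simp only [polar, map_sub]
  rw [← piE_nrm H hF hE, ← piE_nrm H hF hE, ← piE_nrm H hF hE, map_add, nrm, nrm, nrm, add_pow_q hE]
  ring

theorem piE_rκ (ε c : Fin 2 → F) (hε : Rb a b ε ≠ 0) :
    piE H hF hE (rκ (Rb a b) ε c) = - ((piE H hF hE c) ^ q * piE H hF hE ε * ((piE H hF hE ε) ^ q)⁻¹) := by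
  have h1 : algebraMap F E (Rb a b ε) ≠ 0 := by
    intro h
    exact hε ((map_eq_zero_iff _ (algebraMap F E).injective).1 h)
  rw [← piE_nrm H hF hE, nrm] at h1
  have h2 : piE H hF hE ε ≠ 0 := left_ne_zero_of_mul h1
  have h3 : (piE H hF hE ε) ^ q ≠ 0 := right_ne_zero_of_mul h1
  rw [rκ, map_sub, map_smul, Algebra.smul_def, map_mul, map_inv₀, polar_Rb H hF hE, ← piE_nrm H hF hE, nrm]
  field_simp
  ring

/-- The rotation as a product of two reflections. -/
theorem Bmul_refl (β : Eˣ) (ε₁ ε₂ : Fin 2 → F) (h1 : piE H hF hE ε₁ = 1) (h2 : piE H hF hE ε₂ = (β : E))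
    (h1' : Rb a b ε₁ ≠ 0) (h2' : Rb a b ε₂ ≠ 0) (ν : Eˣ) (hν : (ν : E) = (β : E) * ((β : E) ^ q)⁻¹) (c : Fin 2 → F) :
    ((Bmul H hF hE ν : GL (Fin 2) F) : Matrix (Fin 2) (Fin 2) F) *ᵥ c = rκ (Rb a b) ε₂ (rκ (Rb a b) ε₁ c) := by
  apply (piE H hF hE).injective
  rw [piE_Bmul, piE_rκ H hF hE _ _ h2', piE_rκ H hF hE _ _ h1', h1, h2, hν]
  rw [mul_one, one_pow, inv_one, mul_one, neg_pow_q' hE, pow_q_pow_q hE]
  ring

/-- A reflection inverts a rotation. -/
theorem rκ_Bmul (ε : Fin 2 → F) (hε : Rb a b ε ≠ 0) (ν : Eˣ) (hν : nrm q (ν : E) = 1) (c : Fin 2 → F) :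
    rκ (Rb a b) ε (((Bmul H hF hE ν : GL (Fin 2) F) : Matrix (Fin 2) (Fin 2) F) *ᵥ c) =
      ((Bmul H hF hE ν⁻¹ : GL (Fin 2) F) : Matrix (Fin 2) (Fin 2) F) *ᵥ rκ (Rb a b) ε c := by
  apply (piE H hF hE).injective
  rw [piE_Bmul, piE_rκ H hF hE _ _ hε, piE_rκ H hF hE _ _ hε, piE_Bmul, mul_pow]
  have h1 : (ν : E) ^ q = ((ν⁻¹ : Eˣ) : E) := by
    rw [Units.val_inv_eq_inv_val]
    rw [nrm] at hν
    exact eq_inv_of_mul_eq_one_right hν
  rw [h1]
  ring

include H hF in
theorem norm_eq_nrm (hE : Fintype.card E = q ^ 2) (x : E) : algebraMap F E (Algebra.norm F x) = nrm q x := by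
  have hq : 1 < q := hF ▸ Fintype.one_lt_card
  rw [FiniteField.algebraMap_norm_eq_pow, nrm_eq_pow, Nat.card_eq_fintype_card, Nat.card_eq_fintype_card, hE, hF]
  congr 1
  obtain ⟨r, rfl⟩ : ∃ r, q = r + 1 := ⟨q - 1, by omega⟩
  have : (r + 1) ^ 2 - 1 = r * (r + 1 + 1) := by
    have : (r + 1) ^ 2 = r * (r + 1 + 1) + 1 := by ring
    omega
  rw [this]
  simp only [Nat.add_sub_cancel]
  apply Nat.mul_div_cancel_left
  omega

include H hF hE in
/-- Elements of given value. -/
theorem exists_value (t : F) : ∃ ε : Fin 2 → F, Rb a b ε = t := by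
  obtain ⟨x, hx⟩ := FiniteField.norm_surjective F E t
  refine ⟨(piE H hF hE).symm x, ?_⟩
  apply (algebraMap F E).injective
  rw [← piE_nrm H hF hE, LinearEquiv.apply_symm_apply, ← hx, norm_eq_nrm H hF hE]

/-- An additive subgroup of `E` stable under an element of large order, containing a non-zero vector, is everything. -/
theorem span_E (hE : Fintype.card E = q ^ 2) {ν : E} (hν0 : ν ≠ 0) (hord : ∀ s : ℕ, 0 < s → ν ^ s = 1 → q + 1 ≤ s)
    (P : AddSubgroup E) {x₁ : E} (hx₁ : x₁ ≠ 0) (hx₁P : x₁ ∈ P) (hst : ∀ x ∈ P, ν * x ∈ P) : P = ⊤ := by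
  classical
  have hq : 1 < q := by
    have := two_le_q hE
    omega
  -- the stabiliser field
  let S : Subfield E :=
    { carrier := {r | ∀ x ∈ P, r * x ∈ P}
      mul_mem' := fun {r r'} hr hr' x hx => by
        rw [mul_assoc]
        exact hr _ (hr' _ hx)
      one_mem' := fun x hx => by rwa [one_mul]
      add_mem' := fun {r r'} hr hr' x hx => by
        rw [add_mul]
        exact P.add_mem (hr _ hx) (hr' _ hx)
      zero_mem' := fun x hx => by
        rw [zero_mul]
        exact P.zero_mem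
      neg_mem' := fun {r} hr x hx => by
        rw [neg_mul]
        exact P.neg_mem (hr _ hx)
      inv_mem' := fun r hr x hx => by
        by_cases hr0 : r = 0
        · rw [hr0, _root_.inv_zero, zero_mul]
          exact P.zero_mem
        · have h1 : r ^ (Fintype.card E - 1) = 1 := FiniteField.pow_card_sub_one_eq_one r hr0
          have h2 : r⁻¹ = r ^ (Fintype.card E - 2) := by
            have h3 : Fintype.card E - 1 = (Fintype.card E - 2) + 1 := by
              have : 2 ≤ Fintype.card E := Fintype.one_lt_card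
              omega
            rw [h3, pow_succ] at h1
            exact (eq_inv_of_mul_eq_one_left h1).symm
          rw [h2]
          have hpow : ∀ n : ℕ, ∀ y ∈ P, r ^ n * y ∈ P := by
            intro n
            induction n with
            | zero =>
              intro y hy
              rwa [pow_zero, one_mul]
            | succ n ih =>
              intro y hy
              rw [pow_succ, mul_assoc]
              exact ih _ (hr _ hy)
          exact hpow _ _ hx }
  have hνS : ν ∈ S := hst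
  have hStop : S = ⊤ := by
    by_contra hne
    letI : Fintype S := Fintype.ofFinite S
    have hcard : Fintype.card E = Fintype.card S ^ Module.finrank S E := Module.card_eq_pow_finrank
    set r := Module.finrank S E with hr
    have hs1 : 1 < Fintype.card S := Fintype.one_lt_card
    have hr2 : 2 ≤ r := by
      by_contra hlt
      have h3 : r = 0 ∨ r = 1 := by omega
      rcases h3 with h3 | h3
      · rw [h3, pow_zero] at hcard
        have := Fintype.one_lt_card (α := E)
        omega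
      · rw [h3, pow_one] at hcard
        apply hne
        rw [eq_top_iff]
        intro x _
        have hsurj : Function.Surjective (Subtype.val : S → E) := by
          apply (Fintype.bijective_iff_injective_and_card _).2 ⟨Subtype.val_injective, hcard.symm⟩ |>.2
        obtain ⟨y, rfl⟩ := hsurj x
        exact y.2
    have hs2 : Fintype.card S ≤ q := by
      have h3 : Fintype.card S ^ 2 ≤ q ^ 2 := by
        rw [← hE, hcard]
        exact Nat.pow_le_pow_right (by omega) hr2
      exact (Nat.pow_le_pow_iff_left (by norm_num)).1 h3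
    have h4 : ν ^ (Fintype.card S - 1) = 1 := by
      have h5 := FiniteField.pow_card_sub_one_eq_one (⟨ν, hνS⟩ : S) (by
        intro h
        apply hν0
        exact congrArg Subtype.val h)
      exact congrArg Subtype.val h5
    have := hord _ (by omega) h4
    omega
  rw [eq_top_iff]
  intro z _
  have h1 : z / x₁ ∈ S := by
    rw [hStop]
    exact Subfield.mem_top _
  have h2 := h1 x₁ hx₁P
  rwa [div_mul_cancel₀ _ hx₁] at h2

/-- The version on coordinates. -/
theorem span_coord {ν : Eˣ} (hord : ∀ s : ℕ, 0 < s → (ν : E) ^ s = 1 → q + 1 ≤ s) (P : AddSubgroup (Fin 2 → F))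
    {c₁ : Fin 2 → F} (hc₁ : c₁ ≠ 0) (hc₁P : c₁ ∈ P)
    (hst : ∀ c ∈ P, ((Bmul H hF hE ν : GL (Fin 2) F) : Matrix (Fin 2) (Fin 2) F) *ᵥ c ∈ P) : P = ⊤ := by
  have h1 := span_E hE ν.ne_zero hord (P.map (piE H hF hE).toLinearMap.toAddMonoidHom) (x₁ := piE H hF hE c₁)
    (by
      intro h
      apply hc₁
      exact (piE H hF hE).map_eq_zero_iff.mp h)
    ⟨c₁, hc₁P, rfl⟩ (by
    rintro _ ⟨c, hc, rfl⟩
    refine ⟨_, hst c hc, ?_⟩
    exact piE_Bmul H hF hE ν c)
  rw [eq_top_iff]
  intro c _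
  have h2 : piE H hF hE c ∈ P.map (piE H hF hE).toLinearMap.toAddMonoidHom := by
    rw [h1]
    exact AddSubgroup.mem_top _
  obtain ⟨c', hc', h3⟩ := h2
  have h4 : c' = c := (piE H hF hE).injective h3
  rwa [← h4]

end Cfsg.Agent.Lib.OmTwoBin
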