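import Mathlib
import Cfsg.Agent.Lib.OmTwoMinus

/-!
# Two generators of `Ω⁻₈(2)`: an explicit pair of generators
-/

set_option autoImplicit false
set_option linter.unusedSectionVars false
set_option linter.unusedVariables false

namespace Cfsg.Agent.Lib.OmTwoEight

open Matrix QuadraticMap Cfsg Cfsg.Geo Module
open Cfsg.Agent.Lib.OrthMatrix (mulVec_glEquiv_symm mem_isometryGroup)
open Cfsg.Agent.Lib.OrthOmega (prodR prodR_cons prodR_nil)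
open Cfsg.Agent.Lib.OrthoBasic Cfsg.Agent.Lib.OrthoSiegel Cfsg.Agent.Lib.OrthoGen Cfsg.Agent.Lib.OrthoCount
  Cfsg.Agent.Lib.OrthoOrder Cfsg.Agent.Lib.OrthoFinal Cfsg.Agent.Lib.OmCalc Cfsg.Agent.Lib.OmTwoCore Cfsg.Agent.Lib.OmTwoHyp
  Cfsg.Agent.Lib.OmTwoAlg Cfsg.Agent.Lib.OmTwoMinus
open Cfsg.Agent.Lib.SympT (GL_ext mulVec_mul_GL mulVec_inv_GL inv_mulVec_GL)

local notation:70 g:71 " ⋆ " x:70 => Matrix.mulVec (Units.val g) x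

abbrev I8 : Type := (Fin 3 ⊕ Fin 3) ⊕ Fin 2

variable {F : Type*} [Field F]

/-- A vector in coordinates. -/
def mkV (x0 x1 x2 y0 y1 y2 z0 z1 : F) : I8 → F :=
  Sum.elim (Sum.elim ![x0, x1, x2] ![y0, y1, y2]) ![z0, z1]

abbrev c0 : I8 := .inl (.inl 0)
abbrev c1 : I8 := .inl (.inl 1)
abbrev c2 : I8 := .inl (.inl 2)
abbrev c3 : I8 := .inl (.inr 0)
abbrev c4 : I8 := .inl (.inr 1)
abbrev c5 : I8 := .inl (.inr 2)
abbrev c6 : I8 := .inr 0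
abbrev c7 : I8 := .inr 1

theorem mkV_eta (v : I8 → F) : mkV (v c0) (v c1) (v c2) (v c3) (v c4) (v c5) (v c6) (v c7) = v := by
  ext i
  rcases i with (i | i) | i <;> fin_cases i <;> rfl

theorem mkV_add (a0 a1 a2 a3 a4 a5 a6 a7 b0 b1 b2 b3 b4 b5 b6 b7 : F) :
    mkV a0 a1 a2 a3 a4 a5 a6 a7 + mkV b0 b1 b2 b3 b4 b5 b6 b7 =
      mkV (a0 + b0) (a1 + b1) (a2 + b2) (a3 + b3) (a4 + b4) (a5 + b5) (a6 + b6) (a7 + b7) := by
  ext i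
  rcases i with (i | i) | i <;> fin_cases i <;> rfl

theorem mkV_sub (a0 a1 a2 a3 a4 a5 a6 a7 b0 b1 b2 b3 b4 b5 b6 b7 : F) :
    mkV a0 a1 a2 a3 a4 a5 a6 a7 - mkV b0 b1 b2 b3 b4 b5 b6 b7 =
      mkV (a0 - b0) (a1 - b1) (a2 - b2) (a3 - b3) (a4 - b4) (a5 - b5) (a6 - b6) (a7 - b7) := by
  ext i
  rcases i with (i | i) | i <;> fin_cases i <;> rfl

theorem mkV_smul (c a0 a1 a2 a3 a4 a5 a6 a7 : F) :
    c • mkV a0 a1 a2 a3 a4 a5 a6 a7 =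
      mkV (c * a0) (c * a1) (c * a2) (c * a3) (c * a4) (c * a5) (c * a6) (c * a7) := by
  ext i
  rcases i with (i | i) | i <;> fin_cases i <;> rfl

theorem exists_mkV (v : I8 → F) : ∃ x0 x1 x2 y0 y1 y2 z0 z1 : F, v = mkV x0 x1 x2 y0 y1 y2 z0 z1 :=
  ⟨_, _, _, _, _, _, _, _, (mkV_eta v).symm⟩

/-- The form. -/
noncomputable abbrev Q8 : QuadraticForm F (I8 → F) := qMinus 3 1 1

theorem Q8_mk (x0 x1 x2 y0 y1 y2 z0 z1 : F) :
    (Q8 : QuadraticForm F (I8 → F)) (mkV x0 x1 x2 y0 y1 y2 z0 z1) =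
      x0 * y0 + x1 * y1 + x2 * y2 + z0 ^ 2 + z0 * z1 + z1 ^ 2 := by
  rw [Q8, qMinus_apply]
  simp [Cfsg.quadFormMinus, mkV, Fin.sum_univ_three]
  ring

theorem polar8 (a0 a1 a2 a3 a4 a5 a6 a7 b0 b1 b2 b3 b4 b5 b6 b7 : F) :
    polar (Q8 : QuadraticForm F (I8 → F)) (mkV a0 a1 a2 a3 a4 a5 a6 a7) (mkV b0 b1 b2 b3 b4 b5 b6 b7) =
      a0 * b3 + b0 * a3 + a1 * b4 + b1 * a4 + a2 * b5 + b2 * a5 + 2 * a6 * b6 + a6 * b7 + b6 * a7 + 2 * a7 * b7 := by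
  rw [polar, mkV_add, Q8_mk, Q8_mk, Q8_mk]
  ring

/-- Linear maps from coordinates. -/
def mkGLf (f g : (I8 → F) →ₗ[F] (I8 → F)) (hfg : ∀ v, f (g v) = v) (hgf : ∀ v, g (f v) = v) : GL I8 F :=
  Cfsg.Agent.Lib.OrthMatrix.glEquiv.symm (LinearEquiv.ofLinear f g (LinearMap.ext hfg) (LinearMap.ext hgf))

theorem mkGLf_apply (f g : (I8 → F) →ₗ[F] (I8 → F)) (hfg : ∀ v, f (g v) = v) (hgf : ∀ v, g (f v) = v) (v : I8 → F) :
    (mkGLf f g hfg hgf) ⋆ v = f v := by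
  rw [mkGLf, mulVec_glEquiv_symm]
  rfl

/-- The forward map `s`. -/
def sL : (I8 → F) →ₗ[F] (I8 → F) where
  toFun v := mkV (v c0) (v c2) (v c4) (v c3) (v c5) (v c1 + v c4 + v c7) (v c7) (v c4 + v c6)
  map_add' u v := by
    simp only [Pi.add_apply]
    rw [mkV_add]
    congr 1 <;> ring
  map_smul' c v := by
    simp only [Pi.smul_apply, smul_eq_mul, RingHom.id_apply]
    rw [mkV_smul]
    congr 1 <;> ring

/-- The backward map `s⁻¹`. -/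
def sIL : (I8 → F) →ₗ[F] (I8 → F) where
  toFun v := mkV (v c0) (v c5 - v c2 - v c6) (v c1) (v c3) (v c2) (v c4) (v c7 - v c2) (v c6)
  map_add' u v := by
    simp only [Pi.add_apply]
    rw [mkV_add]
    congr 1 <;> ring
  map_smul' c v := by
    simp only [Pi.smul_apply, smul_eq_mul, RingHom.id_apply]
    rw [mkV_smul]
    congr 1 <;> ring

@[simp] theorem sL_mk (x0 x1 x2 y0 y1 y2 z0 z1 : F) :
    sL (mkV x0 x1 x2 y0 y1 y2 z0 z1) = mkV x0 x2 y1 y0 y2 (x1 + y1 + z1) z1 (y1 + z0) := rfl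

@[simp] theorem sIL_mk (x0 x1 x2 y0 y1 y2 z0 z1 : F) :
    sIL (mkV x0 x1 x2 y0 y1 y2 z0 z1) = mkV x0 (y2 - x2 - z0) x1 y0 x2 y1 (z1 - x2) z0 := rfl

theorem mkV_congr {a0 a1 a2 a3 a4 a5 a6 a7 b0 b1 b2 b3 b4 b5 b6 b7 : F} (h0 : a0 = b0) (h1 : a1 = b1) (h2 : a2 = b2)
    (h3 : a3 = b3) (h4 : a4 = b4) (h5 : a5 = b5) (h6 : a6 = b6) (h7 : a7 = b7) :
    mkV a0 a1 a2 a3 a4 a5 a6 a7 = mkV b0 b1 b2 b3 b4 b5 b6 b7 := by
  subst_vars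
  rfl

theorem sL_sIL (v : I8 → F) : sL (sIL v) = v := by
  obtain ⟨x0, x1, x2, y0, y1, y2, z0, z1, rfl⟩ := exists_mkV v
  rw [sIL_mk, sL_mk]
  refine mkV_congr ?_ ?_ ?_ ?_ ?_ ?_ ?_ ?_ <;> ring

theorem sIL_sL (v : I8 → F) : sIL (sL v) = v := by
  obtain ⟨x0, x1, x2, y0, y1, y2, z0, z1, rfl⟩ := exists_mkV v
  rw [sL_mk, sIL_mk]
  refine mkV_congr ?_ ?_ ?_ ?_ ?_ ?_ ?_ ?_ <;> ring

/-- `s` in `GL`. -/
noncomputable def S8 : GL I8 F := mkGLf sL sIL sL_sIL sIL_sL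

/-- `s⁻¹` in `GL`. -/
noncomputable def S8' : GL I8 F := mkGLf sIL sL sIL_sL sL_sIL

theorem S8_mk (v : I8 → F) : (S8 : GL I8 F) ⋆ v = sL v := mkGLf_apply _ _ _ _ _

theorem S8'_mk (v : I8 → F) : (S8' : GL I8 F) ⋆ v = sIL v := mkGLf_apply _ _ _ _ _

theorem Q_sL (h2 : (2 : F) = 0) (v : I8 → F) : (Q8 : QuadraticForm F (I8 → F)) (sL v) = Q8 v := by
  obtain ⟨x0, x1, x2, y0, y1, y2, z0, z1, rfl⟩ := exists_mkV v
  rw [sL_mk, Q8_mk, Q8_mk]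
  linear_combination (y1 ^ 2 + y1 * z1 + y1 * z0) * h2

theorem Q_sIL (h2 : (2 : F) = 0) (v : I8 → F) : (Q8 : QuadraticForm F (I8 → F)) (sIL v) = Q8 v := by
  conv_rhs => rw [← sL_sIL v]
  rw [Q_sL h2]

/-- the reflections -/
theorem refl_mk {b0 b1 b2 b3 b4 b5 b6 b7 : F} (hv : (Q8 : QuadraticForm F (I8 → F)) (mkV b0 b1 b2 b3 b4 b5 b6 b7) = 1)
    (x : I8 → F) :
    Cfsg.Agent.Lib.OrthGroup.refl Q8 (mkV b0 b1 b2 b3 b4 b5 b6 b7) x =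
      x - (polar (Q8 : QuadraticForm F (I8 → F)) x (mkV b0 b1 b2 b3 b4 b5 b6 b7)) • mkV b0 b1 b2 b3 b4 b5 b6 b7 := by
  rw [Cfsg.Agent.Lib.OrthGroup.refl_apply, hv, inv_one, one_mul]
  rfl

section charTwo

variable (h2 : (2 : F) = 0)
include h2

theorem r0_mk (x0 x1 x2 y0 y1 y2 z0 z1 : F) :
    Cfsg.Agent.Lib.OrthGroup.refl Q8 (mkV 1 0 0 1 0 0 0 0) (mkV x0 x1 x2 y0 y1 y2 z0 z1) = mkV y0 x1 x2 x0 y1 y2 z0 z1 := by
  rw [refl_mk (by rw [Q8_mk]; ring), polar8, mkV_smul, mkV_sub]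
  refine mkV_congr ?_ ?_ ?_ ?_ ?_ ?_ ?_ ?_ <;> grind

theorem r1_mk (x0 x1 x2 y0 y1 y2 z0 z1 : F) :
    Cfsg.Agent.Lib.OrthGroup.refl Q8 (mkV 0 0 1 0 1 0 1 1) (mkV x0 x1 x2 y0 y1 y2 z0 z1) =
      mkV x0 x1 (x2 + (x1 + y2 + z0 + z1)) y0 (y1 + (x1 + y2 + z0 + z1)) y2 (z0 + (x1 + y2 + z0 + z1)) (z1 + (x1 + y2 + z0 + z1)) := by
  rw [refl_mk (by rw [Q8_mk]; linear_combination h2), polar8, mkV_smul, mkV_sub]
  refine mkV_congr ?_ ?_ ?_ ?_ ?_ ?_ ?_ ?_ <;> grind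

theorem r2_mk (x0 x1 x2 y0 y1 y2 z0 z1 : F) :
    Cfsg.Agent.Lib.OrthGroup.refl Q8 (mkV 0 1 0 0 0 1 1 1) (mkV x0 x1 x2 y0 y1 y2 z0 z1) =
      mkV x0 (x1 + (y1 + x2 + z0 + z1)) x2 y0 y1 (y2 + (y1 + x2 + z0 + z1)) (z0 + (y1 + x2 + z0 + z1)) (z1 + (y1 + x2 + z0 + z1)) := by
  rw [refl_mk (by rw [Q8_mk]; linear_combination h2), polar8, mkV_smul, mkV_sub]
  refine mkV_congr ?_ ?_ ?_ ?_ ?_ ?_ ?_ ?_ <;> grind

theorem r3_mk (x0 x1 x2 y0 y1 y2 z0 z1 : F) :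
    Cfsg.Agent.Lib.OrthGroup.refl Q8 (mkV 0 1 1 0 1 1 1 1) (mkV x0 x1 x2 y0 y1 y2 z0 z1) =
      mkV x0 (x1 + (x1 + y1 + x2 + y2 + z0 + z1)) (x2 + (x1 + y1 + x2 + y2 + z0 + z1)) y0 (y1 + (x1 + y1 + x2 + y2 + z0 + z1))
        (y2 + (x1 + y1 + x2 + y2 + z0 + z1)) (z0 + (x1 + y1 + x2 + y2 + z0 + z1)) (z1 + (x1 + y1 + x2 + y2 + z0 + z1)) := by
  rw [refl_mk (by rw [Q8_mk]; linear_combination 2 * h2), polar8, mkV_smul, mkV_sub]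
  refine mkV_congr ?_ ?_ ?_ ?_ ?_ ?_ ?_ ?_ <;> grind

theorem prodL_mk (x0 x1 x2 y0 y1 y2 z0 z1 : F) :
    prodR Q8 [mkV 1 0 0 1 0 0 0 0, mkV 0 0 1 0 1 0 1 1, mkV 0 1 0 0 0 1 1 1, mkV 0 1 1 0 1 1 1 1] (mkV x0 x1 x2 y0 y1 y2 z0 z1) =
      mkV y0 y2 y1 x0 x2 x1 z1 z0 := by
  simp only [prodR_cons, prodR_nil, mul_one, LinearEquiv.mul_apply]
  rw [r3_mk h2, r2_mk h2, r1_mk h2, r0_mk h2]
  refine mkV_congr ?_ ?_ ?_ ?_ ?_ ?_ ?_ ?_ <;> grind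

end charTwo

section main

variable [Fintype F]

theorem two_zero (hF : Fintype.card F = 2) : (2 : F) = 0 := by
  classical
  by_contra h
  have h1 : (2 : F) ≠ 1 := by
    intro h3
    have : (1 : F) = 0 := by linear_combination h3
    exact one_ne_zero this
  have h3 : ({0, 1, 2} : Finset F).card = 3 := by
    rw [Finset.card_eq_three]
    exact ⟨0, 1, 2, zero_ne_one, Ne.symm h, Ne.symm h1, rfl⟩
  have h4 := Finset.card_le_univ ({0, 1, 2} : Finset F)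
  omega

theorem zero_or_one (hF : Fintype.card F = 2) (t : F) : t = 0 ∨ t = 1 := by
  classical
  by_contra h
  push_neg at h
  have h3 : ({0, 1, t} : Finset F).card = 3 := by
    rw [Finset.card_eq_three]
    exact ⟨0, 1, t, zero_ne_one, Ne.symm h.1, Ne.symm h.2, rfl⟩
  have h4 := Finset.card_le_univ ({0, 1, t} : Finset F)
  omega

set_option maxHeartbeats 4000000 in
/-- Everything orthogonal to `u` lies in `P`. -/
theorem hP_aux (hF : Fintype.card F = 2) (P : AddSubgroup (I8 → F)) (hu : (1 : F) • (mkV 1 0 0 0 0 0 0 0 : I8 → F) ∈ P)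
    (hA : ∀ x, x ∈ P → sL (sL x) ∈ P) (hY : (mkV 0 1 0 0 0 0 1 0 : I8 → F) ∈ P) (y : I8 → F)
    (hy : polar (Q8 : QuadraticForm F (I8 → F)) (mkV 1 0 0 0 0 0 0 0) y = 0) : y ∈ P := by
  have h2 := two_zero hF
  have h1 : (mkV 0 0 0 0 1 1 1 0 : I8 → F) ∈ P := by
    have := hA _ hY
    rw [sL_mk, sL_mk] at this
    convert this using 1
    refine mkV_congr ?_ ?_ ?_ ?_ ?_ ?_ ?_ ?_ <;> grind
  have h3 : (mkV 0 1 1 0 1 1 0 1 : I8 → F) ∈ P := by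
    have := hA _ h1
    rw [sL_mk, sL_mk] at this
    convert this using 1
    refine mkV_congr ?_ ?_ ?_ ?_ ?_ ?_ ?_ ?_ <;> grind
  have h4 : (mkV 0 1 1 0 1 1 1 0 : I8 → F) ∈ P := by
    have := hA _ h3
    rw [sL_mk, sL_mk] at this
    convert this using 1
    refine mkV_congr ?_ ?_ ?_ ?_ ?_ ?_ ?_ ?_ <;> grind
  have h5 : (mkV 0 1 1 0 0 0 0 1 : I8 → F) ∈ P := by
    have := hA _ h4
    rw [sL_mk, sL_mk] at this
    convert this using 1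
    refine mkV_congr ?_ ?_ ?_ ?_ ?_ ?_ ?_ ?_ <;> grind
  have h6 : (mkV 0 0 0 0 0 1 0 1 : I8 → F) ∈ P := by
    have := hA _ h5
    rw [sL_mk, sL_mk] at this
    convert this using 1
    refine mkV_congr ?_ ?_ ?_ ?_ ?_ ?_ ?_ ?_ <;> grind
  have e1 : (mkV 0 1 0 0 0 0 0 0 : I8 → F) ∈ P := by
    have := P.add_mem (P.add_mem (P.add_mem hY h1) h3) h5
    rw [mkV_add, mkV_add, mkV_add] at this
    convert this using 1
    refine mkV_congr ?_ ?_ ?_ ?_ ?_ ?_ ?_ ?_ <;> grind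
  have e2 : (mkV 0 0 1 0 0 0 0 0 : I8 → F) ∈ P := by
    have := P.add_mem (P.add_mem (P.add_mem hY h3) h4) h5
    rw [mkV_add, mkV_add, mkV_add] at this
    convert this using 1
    refine mkV_congr ?_ ?_ ?_ ?_ ?_ ?_ ?_ ?_ <;> grind
  have e4 : (mkV 0 0 0 0 1 0 0 0 : I8 → F) ∈ P := by
    have := P.add_mem (P.add_mem (P.add_mem h1 h3) h4) h6
    rw [mkV_add, mkV_add, mkV_add] at this
    convert this using 1
    refine mkV_congr ?_ ?_ ?_ ?_ ?_ ?_ ?_ ?_ <;> grind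
  have e5 : (mkV 0 0 0 0 0 1 0 0 : I8 → F) ∈ P := by
    have := P.add_mem (P.add_mem (P.add_mem h1 h4) h5) h6
    rw [mkV_add, mkV_add, mkV_add] at this
    convert this using 1
    refine mkV_congr ?_ ?_ ?_ ?_ ?_ ?_ ?_ ?_ <;> grind
  have e6 : (mkV 0 0 0 0 0 0 1 0 : I8 → F) ∈ P := by
    have := P.add_mem (P.add_mem h1 h3) h5
    rw [mkV_add, mkV_add] at this
    convert this using 1
    refine mkV_congr ?_ ?_ ?_ ?_ ?_ ?_ ?_ ?_ <;> grind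
  have e7 : (mkV 0 0 0 0 0 0 0 1 : I8 → F) ∈ P := by
    have := P.add_mem (P.add_mem h1 h4) h5
    rw [mkV_add, mkV_add] at this
    convert this using 1
    refine mkV_congr ?_ ?_ ?_ ?_ ?_ ?_ ?_ ?_ <;> grind
  have hu' : (mkV 1 0 0 0 0 0 0 0 : I8 → F) ∈ P := by simpa using hu
  have hsm : ∀ (c : F) (e : I8 → F), e ∈ P → c • e ∈ P := by
    intro c e he
    rcases zero_or_one hF c with rfl | rfl
    · simpa using P.zero_mem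
    · simpa using he
  obtain ⟨x0, x1, x2, y0, y1, y2, z0, z1, rfl⟩ := exists_mkV y
  rw [polar8] at hy
  have hy0 : y0 = 0 := by linear_combination hy
  subst hy0
  have := P.add_mem (P.add_mem (P.add_mem (P.add_mem (P.add_mem (P.add_mem (hsm x0 _ hu') (hsm x1 _ e1)) (hsm x2 _ e2))
    (hsm y1 _ e4)) (hsm y2 _ e5)) (hsm z0 _ e6)) (hsm z1 _ e7)
  simp only [mkV_smul, mkV_add] at this
  convert this using 1
  refine mkV_congr ?_ ?_ ?_ ?_ ?_ ?_ ?_ ?_ <;> ring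

/-- `Ω⁻₈(2)` is generated by two elements. -/
theorem main8 (hF : Fintype.card F = 2) :
    ∃ g h : Cfsg.POmega F ⇑(Q8 : QuadraticForm F (I8 → F)),
      Subgroup.closure ({g, h} : Set (Cfsg.POmega F ⇑(Q8 : QuadraticForm F (I8 → F)))) = ⊤ := by
  classical
  have h2 := two_zero hF
  have hab : ∀ z₁ z₂ : F, z₁ ^ 2 + 1 * z₁ * z₂ + 1 * z₂ ^ 2 = 0 → z₁ = 0 ∧ z₂ = 0 := by
    intro z₁ z₂ h
    rcases zero_or_one hF z₁ with rfl | rfl <;> rcases zero_or_one hF z₂ with rfl | rfl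
    · exact ⟨rfl, rfl⟩
    · exfalso
      apply one_ne_zero (α := F)
      linear_combination h
    · exfalso
      apply one_ne_zero (α := F)
      linear_combination h
    · exfalso
      apply one_ne_zero (α := F)
      linear_combination h - h2
  obtain ⟨fr⟩ := frameMinus (1 : F) 1 hab 1
  have hQ : Nondeg (Q8 : QuadraticForm F (I8 → F)) := nondeg_qMinus 1 1 hab 3
  set Q : QuadraticForm F (I8 → F) := Q8 with hQdef
  have hcard : Fintype.card I8 = 8 := by simp [I8]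
  have h4 : Fintype.card I8 ≠ 4 := by omega
  have h7 : 7 ≤ Fintype.card I8 := by omega
  have hS : ∀ v, Q (S8 ⋆ v) = Q v := fun v => by rw [S8_mk, hQdef, Q_sL h2]
  have hS' : ∀ v, Q (S8' ⋆ v) = Q v := fun v => by rw [S8'_mk, hQdef, Q_sIL h2]
  obtain ⟨a, hadef⟩ : ∃ a : GL I8 F, a = S8 * S8 := ⟨_, rfl⟩
  obtain ⟨a', ha'def⟩ : ∃ a' : GL I8 F, a' = S8' * S8' := ⟨_, rfl⟩
  have ha_apply : ∀ v, a ⋆ v = sL (sL v) := fun v => by rw [hadef, mulVec_mul_GL, S8_mk, S8_mk]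
  have ha'_apply : ∀ v, a' ⋆ v = sIL (sIL v) := fun v => by rw [ha'def, mulVec_mul_GL, S8'_mk, S8'_mk]
  have ha : ∀ v, Q (a ⋆ v) = Q v := fun v => by rw [hadef, mulVec_mul_GL, hS, hS]
  have ha' : ∀ v, Q (a' ⋆ v) = Q v := fun v => by rw [ha'def, mulVec_mul_GL, hS', hS']
  have haΩ : a ∈ omegaGL ⇑Q :=
    ⟨isoOf S8 hS * isoOf S8 hS, sq_mem_omega hQ h4 _, hadef.symm⟩
  -- the element `j`
  have hq0 : Q (mkV 1 0 0 1 0 0 0 0) = 1 := by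
    rw [hQdef, Q8_mk]
    ring
  have hq1 : Q (mkV 0 0 1 0 1 0 1 1) = 1 := by
    rw [hQdef, Q8_mk]
    linear_combination h2
  have hq2 : Q (mkV 0 1 0 0 0 1 1 1) = 1 := by
    rw [hQdef, Q8_mk]
    linear_combination h2
  have hq3 : Q (mkV 0 1 1 0 1 1 1 1) = 1 := by
    rw [hQdef, Q8_mk]
    linear_combination 2 * h2
  obtain ⟨g, hg, hg'⟩ := exists_of_list hQ [mkV 1 0 0 1 0 0 0 0, mkV 0 0 1 0 1 0 1 1, mkV 0 1 0 0 0 1 1 1, mkV 0 1 1 0 1 1 1 1]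
    (by
      intro v hv
      simp only [List.mem_cons, List.not_mem_nil, or_false] at hv
      rcases hv with rfl | rfl | rfl | rfl
      · rw [hq0]
        exact one_ne_zero
      · rw [hq1]
        exact one_ne_zero
      · rw [hq2]
        exact one_ne_zero
      · rw [hq3]
        exact one_ne_zero)
    ⟨2, rfl⟩
    (by
      refine ⟨1, ?_⟩
      simp only [List.map_cons, List.map_nil, List.prod_cons, List.prod_nil, hq0, hq1, hq2, hq3, mul_one])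
  obtain ⟨j, hjdef⟩ : ∃ j : GL I8 F, j = (g : GL I8 F) := ⟨_, rfl⟩
  have hj_apply : ∀ x0 x1 x2 y0 y1 y2 z0 z1 : F, j ⋆ mkV x0 x1 x2 y0 y1 y2 z0 z1 = mkV y0 y2 y1 x0 x2 x1 z1 z0 := by
    intro x0 x1 x2 y0 y1 y2 z0 z1
    rw [hjdef, hg', hQdef, prodL_mk h2]
  have hj : ∀ v, Q (j ⋆ v) = Q v := by
    rw [hjdef]
    exact (mem_isometryGroup _ _).1 g.2
  have hu : Q (mkV 1 0 0 0 0 0 0 0) = 0 := by
    rw [hQdef, Q8_mk]
    ring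
  have hw : polar Q (mkV 1 0 0 0 0 0 0 0) (mkV 0 1 0 0 0 0 0 0) = 0 := by
    rw [hQdef, polar8]
    ring
  refine gen_of_GL (ga := a) (gb := sE hQ hu hw * j) haΩ ?_ ?_
  · exact Subgroup.mul_mem _ (sE_mem_omega hQ h4 fr hu hw) ⟨g, hg, hjdef.symm⟩
  intro M haM hbM
  refine omega_le_core hQ h7 fr (a' := a') hu hw ha ha' hj ?_ ?_ ?_ ?_ ?_ ?_ haM hbM
  · rw [ha_apply, sL_mk, sL_mk]
    refine mkV_congr ?_ ?_ ?_ ?_ ?_ ?_ ?_ ?_ <;> ring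
  · rw [ha'_apply, sIL_mk, sIL_mk]
    refine mkV_congr ?_ ?_ ?_ ?_ ?_ ?_ ?_ ?_ <;> ring
  · rw [mul_inv_eq_iff_eq_mul]
    apply GL_ext
    intro v
    obtain ⟨x0, x1, x2, y0, y1, y2, z0, z1, rfl⟩ := exists_mkV v
    rw [mulVec_mul_GL, mulVec_mul_GL, ha_apply, ha'_apply, hj_apply, sL_mk, sL_mk, hj_apply, sIL_mk, sIL_mk]
    refine mkV_congr ?_ ?_ ?_ ?_ ?_ ?_ ?_ ?_ <;> grind
  · apply GL_ext
    intro v
    rw [mulVec_mul_GL, mulVec_mul_GL, ha_apply, ha'_apply, ha_apply, ha'_apply, sL_sIL, sL_sIL, sIL_sL, sIL_sL]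
  · rw [hj_apply, hQdef, polar8]
    intro h
    apply one_ne_zero (α := F)
    linear_combination h
  · intro P hP1 hP2 hP3 y hy
    refine hP_aux hF P (hP1 1) (fun x hx => ?_) ?_ y hy
    · rw [← ha_apply]
      exact hP2 x hx
    · convert hP3 using 1
      rw [ha'_apply, sIL_mk, sIL_mk, mkV_sub, ha_apply, sL_mk, sL_mk, mkV_sub]
      refine mkV_congr ?_ ?_ ?_ ?_ ?_ ?_ ?_ ?_ <;> grind

end main

end Cfsg.Agent.Lib.OmTwoEight
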