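import Cfsg.Agent.Lib.ChevRep
import Cfsg.Prelude.Def_ChevB2

namespace Cfsg.Agent.Lib.RepB2
open Cfsg.Agent.Lib.Chev Cfsg.Agent.Lib.ChevRep Cfsg.Lie

noncomputable def ex0 : Trie (List (ℕ × ℤ × ℕ)) := (.node [] (.node [] .nil (.node [(3,(.negSucc 0),1)] .nil .nil)) (.node [(4,(.ofNat 1),1)] .nil .nil))
noncomputable def ex1 : Trie (List (ℕ × ℤ × ℕ)) := (.node [(3,(.ofNat 2),1)] .nil (.node [(0,(.negSucc 0),1),(3,(.negSucc 0),2)] .nil .nil))
noncomputable def ex2 : Trie (List (ℕ × ℤ × ℕ)) := (.node [(4,(.ofNat 2),1)] (.node [] .nil (.node [(0,(.negSucc 0),1),(4,(.negSucc 0),2)] .nil .nil)) .nil)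
noncomputable def ex3 : Trie (List (ℕ × ℤ × ℕ)) := (.node [] (.node [] (.node [] .nil (.node [(3,(.negSucc 0),1)] .nil .nil)) .nil) (.node [(2,(.ofNat 1),1)] .nil .nil))
noncomputable def ex4 : Trie (List (ℕ × ℤ × ℕ)) := (.node [] (.node [] .nil (.node [(1,(.ofNat 1),1)] .nil .nil)) (.node [] .nil (.node [(4,(.negSucc 0),1)] .nil .nil)))
noncomputable def ex5 : Trie (List (ℕ × ℤ × ℕ)) := (.node [(2,(.negSucc 1),1)] (.node [] (.node [] .nil (.node [(0,(.ofNat 1),1),(2,(.negSucc 0),2)] .nil .nil)) .nil) .nil)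
noncomputable def ex6 : Trie (List (ℕ × ℤ × ℕ)) := (.node [(1,(.negSucc 1),1)] .nil (.node [] .nil (.node [(0,(.ofNat 1),1),(1,(.negSucc 0),2)] .nil .nil)))
noncomputable def ex7 : Trie (List (ℕ × ℤ × ℕ)) := (.node [] (.node [] (.node [] .nil (.node [(1,(.ofNat 1),1)] .nil .nil)) .nil) (.node [] .nil (.node [(2,(.negSucc 0),1)] .nil .nil)))
noncomputable def ex : Trie (Trie (List (ℕ × ℤ × ℕ))) := (.node ex0 (.node .nil (.node .nil .nil (.node ex4 .nil .nil)) (.node ex2 .nil (.node ex6 .nil .nil))) (.node ex1 (.node .nil .nil (.node ex5 .nil .nil)) (.node ex3 .nil (.node ex7 .nil .nil))))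
noncomputable def T : Tabs := ⟨0, 8, 5, ex, .nil⟩

theorem nroots_ok : T.nroots = chevB2.nroots := by decide +kernel
theorem add_ok : checkAdd T = true := by decide +kernel
theorem pos_ok : checkPos T = true := by decide +kernel
theorem comm_ok : allBelow (checkCommRep T chevB2) T.nroots = true := by decide +kernel
theorem h_ok : allBelow (checkHRep T chevB2) T.nroots = true := by decide +kernel

theorem rep_ok : RepChecks T chevB2 := ⟨nroots_ok, add_ok, pos_ok, comm_ok, h_ok⟩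


/-- The partner of a basis vector. -/
def barB (c : ℕ) : ℕ := ([0, 3, 4, 1, 2] : List ℕ).getD c c

/-- Root index to Siegel data. -/
def famB (r : ℕ) : ℕ × ℕ × ℤ := ([(3,4,1),(3,0,-1),(4,0,-1),(2,3,-1),(1,4,-1),(2,0,1),(1,0,1),(1,2,-1)] : List (ℕ × ℕ × ℤ)).getD r (0, 0, 0)

end Cfsg.Agent.Lib.RepB2
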