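import Mathlib
import Cfsg.Agent.Lib.RepB2
import Cfsg.Agent.Lib.ChevOmega
import Cfsg.Agent.Lib.Chev.RelB2
import Cfsg.Agent.Lib.Chev.RootB2
import Cfsg.Agent.Lib.ChevPresTabB2
import Cfsg.Agent.Lib.ChevPresNegB2
import Cfsg.Agent.Lib.Chev.PerfectTab
import Cfsg.Agent.Lib.Chev.Simple

/-!
# `Ω₅(F)` is the image of the Steinberg group of type `B₂`, for every field `F` with more than two elements

The form `x₀² + x₁y₁ + x₂y₂` may have a degenerate polar form (characteristic two); nothing below needs it to be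
non-degenerate.
-/

set_option autoImplicit false
set_option linter.unusedSectionVars false

namespace Cfsg.Agent.Lib.OmegaB2

open QuadraticMap Matrix Cfsg.Lie Cfsg.Agent.Lib.OrthoBasic Cfsg.Agent.Lib.OrthoSiegel
  Cfsg.Agent.Lib.OrthElim Cfsg.Agent.Lib.ChevRep Cfsg.Agent.Lib.Chev Cfsg.Agent.Lib.OrthoCount
  Cfsg.Agent.Lib.ChevOmega Cfsg.Agent.Lib.RepB2

variable (F : Type*) [Field F]

/-- The form `x₀² + x₁y₁ + x₂y₂` on `F⁵`. -/
noncomputable def qB : QuadraticForm F (Fin 5 → F) :=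
  linMulLin (LinearMap.proj 0) (LinearMap.proj 0) + linMulLin (LinearMap.proj 1) (LinearMap.proj 3)
    + linMulLin (LinearMap.proj 2) (LinearMap.proj 4)

variable {F}

theorem qB_apply (x : Fin 5 → F) : qB F x = x 0 * x 0 + x 1 * x 3 + x 2 * x 4 := by
  simp [qB]

theorem polar_qB (x y : Fin 5 → F) :
    polar (qB F) x y = 2 * (x 0 * y 0) + x 1 * y 3 + x 3 * y 1 + x 2 * y 4 + x 4 * y 2 := by
  simp only [polar, qB_apply, Pi.add_apply]
  ring

theorem barB_lt : ∀ c : Fin 5, barB c < 5 := by decide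
theorem barB_barB : ∀ c : Fin 5, barB (barB c) = c := by decide

variable (F)

/-- The coordinates of the form. -/
noncomputable def cB : CoordForm 5 F barB 0 where
  Q := qB F
  bar_lt := fun c hc => barB_lt ⟨c, hc⟩
  bar_bar := fun c hc => barB_barB ⟨c, hc⟩
  bar_an := by decide
  pol := by
    intro c x
    rw [polar_qB]
    fin_cases c <;> simp [bb, barB]
  Qb := by
    intro c
    rw [qB_apply]
    fin_cases c <;> simp [bb]

variable {F}

theorem famB_ok : ∀ r, r < 8 → (famB r).1 < 5 ∧ (famB r).2.1 < 5 ∧ (famB r).1 ≠ 0 ∧ (famB r).2.1 ≠ (famB r).1 ∧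
    (famB r).2.1 ≠ barB (famB r).1 ∧ (famB r).2.2 * (famB r).2.2 = 1 ∧
    ∀ c, c < 5 → T.exOf r c = famCol barB 0 (famB r) c := by
  decide +kernel

theorem hfamB : ∀ r, r < chevB2.nroots → FamAt T barB 0 (famB r) r := by
  intro r hr
  obtain ⟨h1, h2, h3, h4, h5, h6, h7⟩ := famB_ok r hr
  exact ⟨h1, h2, h3, h4, h5, h6, h7⟩

theorem coverB : ∀ p q : Fin 5, (p : ℕ) ≠ 0 → (q : ℕ) ≠ p → (q : ℕ) ≠ barB p → ∃ r : Fin 8,
    (((famB r).1 = p ∧ (famB r).2.1 = q) ∨ ((famB r).1 = q ∧ (famB r).2.1 = p)) := by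
  decide +kernel

theorem hExp4 : ∀ c, c < 5 → hExp T chevB2 4 c = ([0, 1, -1, -1, 1] : List ℤ).getD c 0 := by decide +kernel

variable (F)

/-- `ψ`. -/
noncomputable def psiB : chevB2.SteinbergGroup F →* OG (cB F).Q :=
  psi (T := T) rep_ok (cB F) famB hfamB

variable {F}

theorem hcoverB : ∀ p q : Fin T.dim, (p : ℕ) ≠ 0 → q ≠ p → (q : ℕ) ≠ barB p → ∃ r, r < chevB2.nroots ∧
      (((famB r).1 = p ∧ (famB r).2.1 = q) ∨ ((famB r).1 = q ∧ (famB r).2.1 = p)) := by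
  intro p q h1 h2 h3
  obtain ⟨r, hr⟩ := coverB p q h1 (fun e => h2 (Fin.ext e)) h3
  exact ⟨r, r.2, hr⟩

theorem hS (p : Fin 5) (hp : (p : ℕ) ≠ 0) : HS (psiB F).range (bb p) :=
  hs_range (T := T) rep_ok (cB F) hfamB hcoverB p hp

theorem fin5_cases (j : Fin 5) : j = 0 ∨ j = 1 ∨ j = 2 ∨ j = 3 ∨ j = 4 := by
  revert j; decide

theorem hsing (w : Fin 5 → F) (hQ : (cB F).Q w = 0) (hw : w ≠ 0) : ∃ c : Fin 5, (c : ℕ) ≠ 0 ∧ w c ≠ 0 := by
  by_contra hcon
  push_neg at hcon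
  have h1 := hcon 1 (by decide)
  have h2 := hcon 2 (by decide)
  have h3 := hcon 3 (by decide)
  have h4 := hcon 4 (by decide)
  have h5 : (qB F) w = 0 := hQ
  rw [qB_apply, h1, h2] at h5
  simp only [zero_mul, add_zero, mul_self_eq_zero] at h5
  apply hw
  funext i
  rcases fin5_cases i with rfl | rfl | rfl | rfl | rfl <;> simp [*]

/-- Action of the torus elements. -/
theorem tor_apply {r : ℕ} (hr : r < 8) (a : F) (ha : a ≠ 0) (c : Fin 5) :
    ((psiB F (ChevPres.hb chevB2 F r a) : OG (cB F).Q) : (Fin 5 → F) ≃ₗ[F] (Fin 5 → F)) (bb c) =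
      (a ^ hExp T chevB2 r c) • bb c :=
  psi_hb (T := T) rep_ok (cB F) famB hfamB hr a ha c

theorem tor_mem (r : ℕ) (a : F) : psiB F (ChevPres.hb chevB2 F r a) ∈ (psiB F).range := ⟨_, rfl⟩

/-- The partner as a map of `Fin 5`. -/
def barN (c : Fin 5) : Fin 5 := ⟨barB c, barB_lt c⟩

theorem barF_eq (d : Fin 5) : barF (cB F) d = barN d := rfl

/-! ### Diagonal elements -/

/-- The diagonal isometry on the last plane. -/
noncomputable def dB (c : F) (hc : c ≠ 0) : OG (cB F).Q :=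
  diagOG (cB F) ![1, 1, c, 1, c⁻¹]
    (by intro i; fin_cases i <;> simp [hc])
    (by
      intro x
      show qB F _ = qB F _
      rw [qB_apply, qB_apply]
      simp
      field_simp)

theorem dB_bb (c : F) (hc : c ≠ 0) (j : Fin 5) :
    ((dB c hc : OG (cB F).Q) : (Fin 5 → F) ≃ₗ[F] (Fin 5 → F)) (bb j) = (![1, 1, c, 1, c⁻¹] : Fin 5 → F) j • bb j :=
  diagOG_bb (cB F) _ _ _ j

/-- The diagonal isometry on the first plane. -/
noncomputable def d0 (c : F) (hc : c ≠ 0) : OG (cB F).Q :=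
  diagOG (cB F) ![1, c, 1, c⁻¹, 1]
    (by intro i; fin_cases i <;> simp [hc])
    (by
      intro x
      show qB F _ = qB F _
      rw [qB_apply, qB_apply]
      simp
      field_simp)

theorem d0_bb (c : F) (hc : c ≠ 0) (j : Fin 5) :
    ((d0 c hc : OG (cB F).Q) : (Fin 5 → F) ≃ₗ[F] (Fin 5 → F)) (bb j) = (![1, c, 1, c⁻¹, 1] : Fin 5 → F) j • bb j :=
  diagOG_bb (cB F) _ _ _ j

/-- The reflection in the anisotropic vector (the identity in characteristic two). -/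
noncomputable def sg : OG (cB F).Q :=
  diagOG (cB F) ![-1, 1, 1, 1, 1]
    (by intro i; fin_cases i <;> simp)
    (by
      intro x
      show qB F _ = qB F _
      rw [qB_apply, qB_apply]
      simp)

theorem sg_bb (j : Fin 5) :
    ((sg : OG (cB F).Q) : (Fin 5 → F) ≃ₗ[F] (Fin 5 → F)) (bb j) = (![-1, 1, 1, 1, 1] : Fin 5 → F) j • bb j :=
  diagOG_bb (cB F) _ _ _ j

/-! ### The elimination -/

/-- The first level. -/
theorem elim₀ (g : OG (cB F).Q) : ∃ h ∈ (psiB F).range,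
    ((h * g : OG (cB F).Q) : (Fin 5 → F) ≃ₗ[F] (Fin 5 → F)) (bb 1) = bb 1 ∧
    ((h * g : OG (cB F).Q) : (Fin 5 → F) ≃ₗ[F] (Fin 5 → F)) (bb 3) = bb 3 := by
  obtain ⟨h₀, hE₀, -, h₀a, h₀b⟩ := level_full (cB F) hS hsing (E₀ := (psiB F).range) ∅ (by simp) 1 (by decide) (by simp)
    (hu_an (cB F) ∅ 1 0 (by decide) rfl (by simp))
    (fun a ha => ⟨_, tor_mem 4 a, by simp, by
      rw [tor_apply (by norm_num) a ha, hExp4 _ (by decide)]
      simp⟩) g (by simp)
  exact ⟨h₀, hE₀, h₀a, h₀b⟩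

/-- The second level: what is left after the first one. -/
theorem elim₁ (g : OG (cB F).Q)
    (h1 : (g : (Fin 5 → F) ≃ₗ[F] (Fin 5 → F)) (bb 1) = bb 1)
    (h3 : (g : (Fin 5 → F) ≃ₗ[F] (Fin 5 → F)) (bb 3) = bb 3) :
    ∃ h ∈ (psiB F).range, ∃ (a : F) (ha : a ≠ 0), ∃ h' ∈ (psiB F).range,
      let g' := h' * (dB a ha * (h * g))
      (g' : (Fin 5 → F) ≃ₗ[F] (Fin 5 → F)) (bb 1) = bb 1 ∧ (g' : (Fin 5 → F) ≃ₗ[F] (Fin 5 → F)) (bb 2) = bb 2 ∧
      (g' : (Fin 5 → F) ≃ₗ[F] (Fin 5 → F)) (bb 3) = bb 3 ∧ (g' : (Fin 5 → F) ≃ₗ[F] (Fin 5 → F)) (bb 4) = bb 4 := by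
  have hSb : ∀ d ∈ ({1, 3} : Set (Fin 5)), barF (cB F) d ∈ ({1, 3} : Set (Fin 5)) := by
    intro d hd
    simp only [Set.mem_insert_iff, Set.mem_singleton_iff, barF_eq] at hd ⊢
    rcases hd with rfl | rfl <;> decide
  have hg : ∀ d ∈ ({1, 3} : Set (Fin 5)), (g : (Fin 5 → F) ≃ₗ[F] (Fin 5 → F)) (bb d) = bb d := by
    intro d hd
    simp only [Set.mem_insert_iff, Set.mem_singleton_iff] at hd
    rcases hd with rfl | rfl
    · exact h1
    · exact h3
  have hp12 : ∀ d ∈ ({1, 3} : Set (Fin 5)), polar (cB F).Q (bb d) (bb 2) = 0 := by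
    intro d hd
    simp only [Set.mem_insert_iff, Set.mem_singleton_iff] at hd
    rcases hd with rfl | rfl <;> exact polar_bb_ne (cB F) (by rw [barF_eq]; decide)
  have hp14 : ∀ d ∈ ({1, 3} : Set (Fin 5)), polar (cB F).Q (bb d) (bb 4) = 0 := by
    intro d hd
    simp only [Set.mem_insert_iff, Set.mem_singleton_iff] at hd
    rcases hd with rfl | rfl <;> exact polar_bb_ne (cB F) (by rw [barF_eq]; decide)
  have hv : ∀ d ∈ ({1, 3} : Set (Fin 5)), polar (cB F).Q (bb d) ((g : (Fin 5 → F) ≃ₗ[F] (Fin 5 → F)) (bb 2)) = 0 := by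
    intro d hd
    rw [← hg d hd, OG_polar]
    exact hp12 d hd
  have hQv : (cB F).Q ((g : (Fin 5 → F) ≃ₗ[F] (Fin 5 → F)) (bb 2)) = 0 := by
    rw [OG_apply, (cB F).Qb]
    simp
  have hv0 : (g : (Fin 5 → F) ≃ₗ[F] (Fin 5 → F)) (bb 2) ≠ 0 := by
    intro h0
    have h4 := (g : (Fin 5 → F) ≃ₗ[F] (Fin 5 → F)).map_eq_zero_iff.1 h0
    have h5 := congrFun h4 2
    simp [bb] at h5
  obtain ⟨h, hE, hfix, a, ha, hmove⟩ := level_coord (cB F) hS hsing (E₀ := (psiB F).range) ({1, 3} : Set (Fin 5)) hSb 2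
    (by decide) (by simp) (hu_an (cB F) _ 2 0 (by decide) rfl (by simp)) hv hQv hv0
  -- scale
  set g₁ : OG (cB F).Q := dB a⁻¹ (inv_ne_zero ha) * (h * g) with hg₁
  have he₁ : (g₁ : (Fin 5 → F) ≃ₗ[F] (Fin 5 → F)) (bb 2) = bb 2 := by
    rw [hg₁, OG_mul_apply, OG_mul_apply, hmove, map_smul, dB_bb]
    simp [smul_smul, ha]
  have hs₁ : ∀ d ∈ ({1, 3} : Set (Fin 5)), (g₁ : (Fin 5 → F) ≃ₗ[F] (Fin 5 → F)) (bb d) = bb d := by
    intro d hd
    rw [hg₁, OG_mul_apply, OG_mul_apply, hg d hd, hfix d hd, dB_bb]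
    simp only [Set.mem_insert_iff, Set.mem_singleton_iff] at hd
    rcases hd with rfl | rfl <;> simp
  have hv' : ∀ d ∈ ({1, 3} : Set (Fin 5)), polar (cB F).Q (bb d) ((g₁ : (Fin 5 → F) ≃ₗ[F] (Fin 5 → F)) (bb 4)) = 0 := by
    intro d hd
    rw [← hs₁ d hd, OG_polar]
    exact hp14 d hd
  have hQv' : (cB F).Q ((g₁ : (Fin 5 → F) ≃ₗ[F] (Fin 5 → F)) (bb 4)) = 0 := by
    rw [OG_apply, (cB F).Qb]
    simp
  have hve : polar (cB F).Q ((g₁ : (Fin 5 → F) ≃ₗ[F] (Fin 5 → F)) (bb 4)) (bb 2) = 1 := by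
    conv_lhs => rw [← he₁]
    rw [OG_polar]
    have := polar_bar (cB F) (c := 4) (by decide) (bb 4)
    rw [show barF (cB F) 4 = 2 from rfl] at this
    rw [this]
    simp
  obtain ⟨h', hE', hfix', he', hf'⟩ := finish_coord (cB F) hS (E₀ := (psiB F).range) ({1, 3} : Set (Fin 5)) hSb 2 (by decide)
    (by simp) hv' hQv' hve
  refine ⟨h, hE, a⁻¹, inv_ne_zero ha, h', hE', ?_, ?_, ?_, ?_⟩
  · show ((h' * g₁ : OG (cB F).Q) : (Fin 5 → F) ≃ₗ[F] (Fin 5 → F)) _ = _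
    rw [OG_mul_apply, hs₁ 1 (by simp), hfix' 1 (by simp)]
  · show ((h' * g₁ : OG (cB F).Q) : (Fin 5 → F) ≃ₗ[F] (Fin 5 → F)) _ = _
    rw [OG_mul_apply, he₁, he']
  · show ((h' * g₁ : OG (cB F).Q) : (Fin 5 → F) ≃ₗ[F] (Fin 5 → F)) _ = _
    rw [OG_mul_apply, hs₁ 3 (by simp), hfix' 3 (by simp)]
  · show ((h' * g₁ : OG (cB F).Q) : (Fin 5 → F) ≃ₗ[F] (Fin 5 → F)) _ = _
    rw [OG_mul_apply, hf']
    rfl

/-- An isometry fixing the four hyperbolic basis vectors is the identity or `sg`. -/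
theorem last_step (g : OG (cB F).Q)
    (h1 : (g : (Fin 5 → F) ≃ₗ[F] (Fin 5 → F)) (bb 1) = bb 1)
    (h2 : (g : (Fin 5 → F) ≃ₗ[F] (Fin 5 → F)) (bb 2) = bb 2)
    (h3 : (g : (Fin 5 → F) ≃ₗ[F] (Fin 5 → F)) (bb 3) = bb 3)
    (h4 : (g : (Fin 5 → F) ≃ₗ[F] (Fin 5 → F)) (bb 4) = bb 4) :
    g = 1 ∨ g = sg := by
  set u := (g : (Fin 5 → F) ≃ₗ[F] (Fin 5 → F)) (bb 0) with hu
  have key : ∀ d : Fin 5, (g : (Fin 5 → F) ≃ₗ[F] (Fin 5 → F)) (bb d) = bb d → d ≠ 0 → u (barN d) = 0 := by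
    intro d hd hd0
    have h5 := OG_polar (cB F).Q g (bb d) (bb 0)
    rw [hd, ← hu] at h5
    have h6 := polar_hyp (cB F) (c := d) (fun e => hd0 (Fin.ext e)) u
    rw [polar_comm (cB F).Q] at h6
    rw [h6, polar_bb_ne (cB F) (by rw [barF_eq]; exact hd0)] at h5
    exact h5
  have u3 : u 3 = 0 := key 1 h1 (by decide)
  have u4 : u 4 = 0 := key 2 h2 (by decide)
  have u1 : u 1 = 0 := key 3 h3 (by decide)
  have u2 : u 2 = 0 := key 4 h4 (by decide)
  have hQ : u 0 * u 0 = 1 := by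
    have h5 := OG_apply (cB F).Q g (bb 0)
    change qB F u = qB F (bb 0) at h5
    rw [qB_apply, qB_apply, u1, u2] at h5
    simpa [bb] using h5
  have hue : u = u 0 • bb 0 := by
    funext i
    rcases fin5_cases i with rfl | rfl | rfl | rfl | rfl
    · simp [bb]
    · rw [u1]; simp [bb]
    · rw [u2]; simp [bb]
    · rw [u3]; simp [bb]
    · rw [u4]; simp [bb]
  have h0 : (u 0 - 1) * (u 0 + 1) = 0 := by linear_combination hQ
  rcases mul_eq_zero.1 h0 with h | h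
  · left
    have e : u 0 = 1 := sub_eq_zero.1 h
    apply OG_ext_bb (cB F)
    intro j
    rcases fin5_cases j with rfl | rfl | rfl | rfl | rfl
    · show u = _
      rw [hue, e, one_smul]
      rfl
    · exact h1
    · exact h2
    · exact h3
    · exact h4
  · right
    have e : u 0 = -1 := eq_neg_of_add_eq_zero_left h
    apply OG_ext_bb (cB F)
    intro j
    rw [sg_bb]
    rcases fin5_cases j with rfl | rfl | rfl | rfl | rfl
    · show u = _
      rw [hue, e]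
      simp
    · simpa using h1
    · simpa using h2
    · simpa using h3
    · simpa using h4

/-! ### Normality and the commutator subgroup -/

theorem conjB (m : OG (cB F).Q)
    (hm : ∀ p : Fin 5, (p : ℕ) ≠ 0 → ∃ (c : F), c ≠ 0 ∧ (m : (Fin 5 → F) ≃ₗ[F] (Fin 5 → F)) (bb p) = c • bb p)
    {x : OG (cB F).Q} (hx : x ∈ (psiB F).range) : m * x * m⁻¹ ∈ (psiB F).range := by
  apply conj_range_mem (T := T) rep_ok (cB F) hfamB hcoverB m _ hx
  intro p hp
  obtain ⟨c, hc, h⟩ := hm p hp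
  exact ⟨p, c, hp, hc, h⟩

theorem dB_mono (c : F) (hc : c ≠ 0) (p : Fin 5) (_ : (p : ℕ) ≠ 0) :
    ∃ (c' : F), c' ≠ 0 ∧ ((dB c hc : OG (cB F).Q) : (Fin 5 → F) ≃ₗ[F] (Fin 5 → F)) (bb p) = c' • bb p := by
  refine ⟨_, ?_, dB_bb c hc p⟩
  fin_cases p <;> simp [hc]

theorem sg_mono (p : Fin 5) (_ : (p : ℕ) ≠ 0) :
    ∃ (c' : F), c' ≠ 0 ∧ ((sg : OG (cB F).Q) : (Fin 5 → F) ≃ₗ[F] (Fin 5 → F)) (bb p) = c' • bb p := by
  refine ⟨_, ?_, sg_bb p⟩
  fin_cases p <;> simp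

theorem dB_inv (c : F) (hc : c ≠ 0) : (dB c hc)⁻¹ = dB c⁻¹ (inv_ne_zero hc) := by
  apply inv_eq_of_mul_eq_one_right
  apply OG_ext_bb (cB F)
  intro j
  rw [OG_mul_apply, dB_bb, map_smul, dB_bb]
  show _ = bb j
  fin_cases j <;> simp [hc]

theorem sg_sq : (sg : OG (cB F).Q) * sg = 1 := by
  apply OG_ext_bb (cB F)
  intro j
  rw [OG_mul_apply, sg_bb, map_smul, sg_bb]
  show _ = bb j
  fin_cases j <;> simp

theorem sg_inv : (sg : OG (cB F).Q)⁻¹ = sg := inv_eq_of_mul_eq_one_right sg_sq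

theorem dB_comm (c c' : F) (hc : c ≠ 0) (hc' : c' ≠ 0) : dB c hc * dB c' hc' = dB c' hc' * dB c hc := by
  apply OG_ext_bb (cB F)
  intro j
  simp only [OG_mul_apply, dB_bb, map_smul, smul_smul, mul_comm]

theorem dB_sg_comm (c : F) (hc : c ≠ 0) : dB c hc * sg = sg * dB c hc := by
  apply OG_ext_bb (cB F)
  intro j
  simp only [OG_mul_apply, dB_bb, sg_bb, map_smul, smul_smul, mul_comm]

/-- The set `D` of the commutator argument. -/
def setD : Set (OG (cB F).Q) := {x | ∃ (c : F) (hc : c ≠ 0), x = dB c hc} ∪ {sg}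

theorem normal_comm : ((psiB F).range).Normal ∧ commutator (OG (cB F).Q) ≤ (psiB F).range := by
  apply normal_and_commutator_le _ setD
  · rw [eq_top_iff]
    rintro g -
    obtain ⟨h₀, hE₀, h1, h3⟩ := elim₀ g
    obtain ⟨h, hE, a, ha, h', hE', e1, e2, e3, e4⟩ := elim₁ (h₀ * g) h1 h3
    have hfin := last_step _ e1 e2 e3 e4
    have hA : ∀ x ∈ (psiB F).range, x ∈ Subgroup.closure (((psiB F).range : Set (OG (cB F).Q)) ∪ setD) :=
      fun x hx => Subgroup.subset_closure (Or.inl hx)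
    have hd : dB a ha ∈ Subgroup.closure (((psiB F).range : Set (OG (cB F).Q)) ∪ setD) :=
      Subgroup.subset_closure (Or.inr (Or.inl ⟨a, ha, rfl⟩))
    have hs : sg ∈ Subgroup.closure (((psiB F).range : Set (OG (cB F).Q)) ∪ setD) :=
      Subgroup.subset_closure (Or.inr (Or.inr rfl))
    have hg' : h' * (dB a ha * (h * (h₀ * g))) ∈ Subgroup.closure (((psiB F).range : Set (OG (cB F).Q)) ∪ setD) := by
      rcases hfin with e | e
      · rw [e]; exact one_mem _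
      · rw [e]; exact hs
    have e : g = h₀⁻¹ * (h⁻¹ * ((dB a ha)⁻¹ * (h'⁻¹ * (h' * (dB a ha * (h * (h₀ * g))))))) := by group
    rw [e]
    exact mul_mem (hA _ (inv_mem hE₀)) (mul_mem (hA _ (inv_mem hE)) (mul_mem (inv_mem hd)
      (mul_mem (hA _ (inv_mem hE')) hg')))
  · rintro d (⟨c, hc, rfl⟩ | rfl) x hx
    · refine ⟨conjB _ (dB_mono c hc) hx, ?_⟩
      have := conjB _ (dB_mono c⁻¹ (inv_ne_zero hc)) hx
      rw [← dB_inv, inv_inv] at this
      exact this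
    · rw [show (sg : OG (cB F).Q)⁻¹ = sg from sg_inv]
      have := conjB _ sg_mono hx
      rw [sg_inv] at this
      exact ⟨this, this⟩
  · rintro a (⟨c, hc, rfl⟩ | rfl) b (⟨c', hc', rfl⟩ | rfl)
    · rw [dB_comm c c' hc hc']
      simp
    · rw [dB_sg_comm c hc]
      simp
    · rw [← dB_sg_comm c' hc']
      simp
    · simp

/-- A Siegel map scaled by an element of the orthogonal group is a commutator. -/
theorem siegel_mem_comm {V : Type*} [AddCommGroup V] [Module F V] {Q : QuadraticForm F V}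
    (m : OG Q) {c : F} (hc0 : c ≠ 0) (hc1 : c ≠ 1) {e y : V} (he : Q e = 0)
    (hme : (m : V ≃ₗ[F] V) e = c • e) (hmy : (m : V ≃ₗ[F] V) y = y) {z : OG Q} (hz : IsSiegel z e y) :
    z ∈ commutator (OG Q) := by
  have hc' : c - 1 ≠ 0 := sub_ne_zero.2 hc1
  have hpy : polar Q e y = 0 := hz.2.1
  set y' := (c - 1)⁻¹ • y with hy'
  have hp' : polar Q e y' = 0 := by rw [hy', polar_smul_r, hpy, mul_zero]
  have hpn : polar Q e (-y') = 0 := by rw [polar_neg_right, hp', neg_zero]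
  let s : OG Q := siegelG he hp'
  have hs : IsSiegel s e y' := siegelG_isSiegel he hp'
  have hsi : IsSiegel s⁻¹ e (-y') := by
    refine ⟨he, hpn, ?_⟩
    intro x
    have h1 : (s : V ≃ₗ[F] V) (siegelLin Q e (-y') x) = x := by
      rw [hs.2.2, siegelLin_comp he hp' hpn]
      simp [siegelLin_zero]
    conv_lhs => rw [← h1]
    exact OG_inv_apply s _
  have hconj := hs.conj m
  have e1 : m * s * m⁻¹ * s⁻¹ = z := by
    apply OG_ext
    intro x
    rw [OG_mul_apply, hsi.2.2, hconj.2.2, hme, siegelLin_smul_left, hz.2.2]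
    have hmy' : (m : V ≃ₗ[F] V) y' = y' := by rw [hy', map_smul, hmy]
    rw [hmy', siegelLin_comp he (by rw [polar_smul_r, hp', mul_zero]) hpn]
    have h2 : c • y' + -y' = y := by
      rw [hy', smul_smul, ← neg_smul, ← add_smul]
      have : c * (c - 1)⁻¹ + -(c - 1)⁻¹ = 1 := by
        field_simp
        ring
      rw [this, one_smul]
    rw [h2]
  rw [← e1, commutator_def]
  have := Subgroup.commutator_mem_commutator (Subgroup.mem_top m) (Subgroup.mem_top s)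
  exact this

theorem p_cases (p : Fin 5) (hp : (p : ℕ) ≠ 0) : p = 1 ∨ p = 2 ∨ p = 3 ∨ p = 4 := by
  rcases fin5_cases p with rfl | h
  · exact absurd rfl hp
  · exact h

/-- Each Siegel map with basis data lies in the commutator subgroup. -/
theorem siegel_basis_mem {a : F} (ha0 : a ≠ 0) (ha1 : a ≠ 1) (p q : Fin 5) (hp : (p : ℕ) ≠ 0) (hq1 : q ≠ p)
    (hq2 : (q : ℕ) ≠ barB p) (s : F) {z : OG (cB F).Q} (hz : IsSiegel z (bb p) (s • bb q)) :
    z ∈ commutator (OG (cB F).Q) := by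
  have hai0 : a⁻¹ ≠ 0 := inv_ne_zero ha0
  have hai1 : a⁻¹ ≠ 1 := by
    intro h
    exact ha1 (by rw [← _root_.inv_inj, h, inv_one])
  have he : (cB F).Q (bb p) = 0 := hz.1
  rcases p_cases p hp with rfl | rfl | rfl | rfl
  · -- p = 1
    refine siegel_mem_comm (d0 a ha0) ha0 ha1 he (by rw [d0_bb]; simp) ?_ hz
    rw [map_smul, d0_bb]
    rcases fin5_cases q with rfl | rfl | rfl | rfl | rfl
    · simp
    · exact absurd rfl hq1
    · simp
    · exact absurd rfl hq2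
    · simp
  · -- p = 2
    refine siegel_mem_comm (dB a ha0) ha0 ha1 he (by rw [dB_bb]; simp) ?_ hz
    rw [map_smul, dB_bb]
    rcases fin5_cases q with rfl | rfl | rfl | rfl | rfl
    · simp
    · simp
    · exact absurd rfl hq1
    · simp
    · exact absurd rfl hq2
  · -- p = 3
    refine siegel_mem_comm (d0 a ha0) hai0 hai1 he (by rw [d0_bb]; simp) ?_ hz
    rw [map_smul, d0_bb]
    rcases fin5_cases q with rfl | rfl | rfl | rfl | rfl
    · simp
    · exact absurd rfl hq2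
    · simp
    · exact absurd rfl hq1
    · simp
  · -- p = 4
    refine siegel_mem_comm (dB a ha0) hai0 hai1 he (by rw [dB_bb]; simp) ?_ hz
    rw [map_smul, dB_bb]
    rcases fin5_cases q with rfl | rfl | rfl | rfl | rfl
    · simp
    · simp
    · exact absurd rfl hq2
    · simp
    · exact absurd rfl hq1

theorem range_le {a : F} (ha0 : a ≠ 0) (ha1 : a ≠ 1) : (psiB F).range ≤ commutator (OG (cB F).Q) := by
  rintro _ ⟨g, rfl⟩
  induction g using st_induction with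
  | hy r t hr =>
    have h := hfamB r hr
    have hs := psi_y (T := T) rep_ok (cB F) famB hfamB hr t
    exact siegel_basis_mem ha0 ha1 ⟨_, h.p_lt⟩ ⟨_, h.q_lt⟩ h.p_an (fun e => h.q_ne (congrArg Fin.val e)) h.q_bar _ hs
  | h1 => simp
  | hmul a b ha hb =>
    rw [map_mul]
    exact mul_mem ha hb
  | hinv a ha =>
    rw [map_inv]
    exact inv_mem ha

theorem range_eq {a : F} (ha0 : a ≠ 0) (ha1 : a ≠ 1) : (psiB F).range = commutator (OG (cB F).Q) :=
  le_antisymm (range_le ha0 ha1) normal_comm.2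

theorem psiB_not_comm :
    psiB F (chevB2.stGen F 4 1) * psiB F (chevB2.stGen F 5 1) ≠ psiB F (chevB2.stGen F 5 1) * psiB F (chevB2.stGen F 4 1) :=
  psi_not_comm (T := T) rep_ok (cB F) famB hfamB (c := 4) (b := 1) (a := 1) (by decide) (by decide) rfl (by decide)

/-- The coordinates: `F⁵` against the index type of `quadFormOdd 2`. -/
def eB : Unit ⊕ (Fin 2 ⊕ Fin 2) ≃ Fin 5 where
  toFun x := match x with
    | .inl _ => 0
    | .inr (.inl i) => ⟨1 + i, by omega⟩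
    | .inr (.inr i) => ⟨3 + i, by omega⟩
  invFun c := if c = 0 then .inl () else if c = 1 then .inr (.inl 0) else if c = 2 then .inr (.inl 1)
    else if c = 3 then .inr (.inr 0) else .inr (.inr 1)
  left_inv := by decide
  right_inv := by decide

/-- The main theorem of this file. -/
theorem main (hFa : ∃ a : F, a ≠ 0 ∧ a ≠ 1) :
    Nonempty (↥(chevB2.group F) ≃* Cfsg.POmega F (Cfsg.quadFormOdd 2 F)) := by
  obtain ⟨a, ha0, ha1⟩ := hFa
  have hF : Full _ _ _ chevB2 := ⟨RelB2.checks, RootB2.checks⟩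
  have hP : ChevPres.PresOK _ chevB2 :=
    ⟨ChevPres.negOK_of_check hF ChevPresNegB2.neg_ok, ChevPresTabB2.w_ok⟩
  have hs : IsSimpleGroup ↥(chevB2.group F) :=
    (hF.isSimple_main connB2 (by decide +kernel) (hF.perfect_B2 ha0 ha1)).1
  obtain ⟨e₁⟩ := nonempty_group_equiv hF hP hs (psiB F) (range_eq ha0 ha1) psiB_not_comm
  let φ : (Fin 5 → F) ≃ₗ[F] (Unit ⊕ (Fin 2 ⊕ Fin 2) → F) := LinearEquiv.funCongrLeft F F eB
  obtain ⟨e₂⟩ := pomega_equiv_of (Cfsg.quadFormOdd 2 F) (Cfsg.Agent.Lib.OrthoCount.qOdd 2 F)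
    (fun v => (qOdd_apply 2 v).symm) (cB F).Q φ (by
      intro v
      rw [qOdd_apply]
      show _ = qB F v
      rw [qB_apply]
      simp only [Cfsg.quadFormOdd, Fin.sum_univ_two, φ]
      show v 0 ^ 2 + (v 1 * v 3 + v 2 * v 4) = _
      ring)
  exact ⟨e₁.trans e₂.symm⟩

end Cfsg.Agent.Lib.OmegaB2
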