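import Mathlib
import Cfsg.Prelude.Def_Sporadic
import Cfsg.Agent.TcData.OM11Q.I720.Up
import Cfsg.Agent.Lib.OM11CMain

/-!
# A presentation of the Mathieu group of degree eleven
-/

set_option autoImplicit false
set_option maxRecDepth 100000
set_option Elab.async false

namespace Cfsg.Agent.Lib.OnM11

open Cfsg Cfsg.Spor Cfsg.Agent.Lib.TcFacts Cfsg.Agent.Lib.TcBits Cfsg.Agent.Lib.TcPres
open Cfsg.Agent.Lib.ProgBits Cfsg.Agent.Lib.ProgChain Cfsg.Agent.Lib.PermChain
open Cfsg.Agent.Lib.OM11CMain (g ctx)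
open Cfsg.Agent.Lib.OM11Pres (Gen)

/-- the presented group -/
abbrev PM : Type := PresentedGroup Cfsg.Agent.TcData.OM11Q.RR

/-! ### The order -/

theorem card_HH : Nat.card Cfsg.Agent.TcData.OM11Q.I720.HH ≠ 0 ∧ Nat.card Cfsg.Agent.TcData.OM11Q.I720.HH ≤ 11 := by
  have hrel : (PresentedGroup.mk Cfsg.Agent.TcData.OM11Q.RR (Cfsg.Agent.Lib.OM11Pres.x * Cfsg.Agent.Lib.OM11Pres.y)) ^ 11 = 1 := by
    rw [← map_pow]
    exact PresentedGroup.one_of_mem (Or.inr (by simp [Cfsg.Agent.Lib.OM11Pres.extra]))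
  have hle : Cfsg.Agent.TcData.OM11Q.I720.HH ≤ Subgroup.zpowers (PresentedGroup.mk Cfsg.Agent.TcData.OM11Q.RR (Cfsg.Agent.Lib.OM11Pres.x * Cfsg.Agent.Lib.OM11Pres.y)) := by
    rw [Subgroup.map_le_iff_le_comap, Subgroup.closure_le]
    intro s hs
    rw [Set.mem_singleton_iff] at hs
    subst hs
    exact Subgroup.mem_zpowers _
  have hfin : IsOfFinOrder (PresentedGroup.mk Cfsg.Agent.TcData.OM11Q.RR (Cfsg.Agent.Lib.OM11Pres.x * Cfsg.Agent.Lib.OM11Pres.y)) :=
    isOfFinOrder_iff_pow_eq_one.mpr ⟨11, by norm_num, hrel⟩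
  have h1 : Nat.card (Subgroup.zpowers (PresentedGroup.mk Cfsg.Agent.TcData.OM11Q.RR (Cfsg.Agent.Lib.OM11Pres.x * Cfsg.Agent.Lib.OM11Pres.y))) ≤ 11 := by
    rw [Nat.card_zpowers]
    exact orderOf_le_of_pow_eq_one (by norm_num) hrel
  have h0 : Nat.card (Subgroup.zpowers (PresentedGroup.mk Cfsg.Agent.TcData.OM11Q.RR (Cfsg.Agent.Lib.OM11Pres.x * Cfsg.Agent.Lib.OM11Pres.y))) ≠ 0 := by
    rw [Nat.card_zpowers]
    exact hfin.orderOf_pos.ne'
  haveI := Nat.finite_of_card_ne_zero h0
  haveI : Finite Cfsg.Agent.TcData.OM11Q.I720.HH := Finite.of_injective (Subgroup.inclusion hle) (Subgroup.inclusion_injective _)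
  exact ⟨Nat.card_pos.ne', (Subgroup.card_le_of_le hle).trans h1⟩

theorem card_PM : Nat.card PM ≠ 0 ∧ Nat.card PM ≤ 7920 := by
  have h := Subgroup.card_mul_index Cfsg.Agent.TcData.OM11Q.I720.HH
  have h1 := Cfsg.Agent.TcData.OM11Q.I720.index_le'
  have h2 := card_HH
  rw [← h]
  exact ⟨mul_ne_zero h2.1 h1.1, (Nat.mul_le_mul h2.2 h1.2).trans (by norm_num)⟩

instance : Finite PM := Nat.finite_of_card_ne_zero card_PM.1

/-! ### The map to the permutation group -/

/-- words of the generators -/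
def W : Gen → List ℕ
  | .x => [14, 19]
  | .y => [1, 14, 19]

/-- words of the inverses of the generators -/
def Wi : Gen → List ℕ
  | .x => W .x
  | .y => W .y ++ W .y ++ W .y

/-- the images of the generators -/
noncomputable def f (x : Gen) : Equiv.Perm (Fin 11) := prodW g (W x)

/-- substitution of the words -/
def subst : List (Gen × Bool) → List ℕ
  | [] => []
  | (a, true) :: l => W a ++ subst l
  | (a, false) :: l => Wi a ++ subst l

open Cfsg.Agent.Lib.OM11CTab in
theorem hinvC : ∀ a : Gen, wChk R Y pr (W a ++ Wi a) [] = true := by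
  intro a; cases a <;> decide +kernel

theorem f_inv (a : Gen) : (f a)⁻¹ = prodW g (Wi a) := by
  have h := ctx.prodW_eq (hinvC a)
  rw [prodW_append, prodW_nil] at h
  exact inv_eq_of_mul_eq_one_right h

theorem lift_eq (r : FreeGroup Gen) : FreeGroup.lift f r = prodW g (subst r.toWord) := by
  conv_lhs => rw [← FreeGroup.mk_toWord (x := r)]
  rw [FreeGroup.lift_mk]
  generalize r.toWord = l
  induction l with
  | nil => simp [subst, prodW_nil]
  | cons p l ih =>
    rcases p with ⟨x, b⟩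
    rw [List.map_cons, List.prod_cons, ih]
    cases b
    · simp only [subst, prodW_append, cond_false, f_inv]
    · simp only [subst, prodW_append, cond_true]; rfl

open Cfsg.Agent.Lib.OM11CTab in
theorem heC : ∀ r ∈ Cfsg.Agent.Lib.OM11Pres.extra, wChk R Y pr (subst r.toWord) [] = true := by decide +kernel

theorem hR : ∀ r ∈ Cfsg.Agent.TcData.OM11Q.RR, FreeGroup.lift f r = 1 := by
  rintro r (⟨x, hx, y, hy, rfl⟩ | hr)
  · exact absurd hx (by simp [coxNodes, Cfsg.Agent.Lib.OM11Pres.edges])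
  · rw [lift_eq]
    have := ctx.prodW_eq (heC r hr)
    simpa [prodW_nil] using this

/-- the homomorphism to the permutation group -/
noncomputable def psi0 : PM →* Equiv.Perm (Fin 11) := PresentedGroup.toGroup hR

theorem psi0_mk (r : FreeGroup Gen) : psi0 (PresentedGroup.mk _ r) = prodW g (subst r.toWord) := by
  rw [← lift_eq]
  rfl

theorem psi0_mem (h : PM) : psi0 h ∈ grp g 0 2 := by
  obtain ⟨r, rfl⟩ := QuotientGroup.mk'_surjective _ h
  show psi0 (PresentedGroup.mk _ r) ∈ grp g 0 2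
  rw [psi0_mk]
  refine prodW_mem (lo := 0) (Cfsg.Agent.Lib.OM11CMain.lev0).1 ?_
  simp

/-- the map onto the group -/
noncomputable def psi : PM →* grp g 0 2 := psi0.codRestrict _ psi0_mem

open Cfsg.Agent.Lib.OM11CTab in
theorem g0_chk : wChk R Y pr [0] (W .x ++ W .y) = true := by decide +kernel
open Cfsg.Agent.Lib.OM11CTab in
theorem g1_chk : wChk R Y pr [1] (W .y ++ W .x ++ W .y ++ Wi .y) = true := by decide +kernel

theorem psi0_of (a : Gen) : psi0 (PresentedGroup.of a) = f a := by
  simp [psi0]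

theorem psi0_range : grp g 0 2 ≤ psi0.range := by
  apply Subgroup.closure_le _ |>.mpr
  rintro _ ⟨e, he, rfl⟩
  have he' : e = 0 ∨ e = 1 := by
    simp only [List.mem_range'_1] at he
    omega
  rcases he' with rfl | rfl
  · refine ⟨PresentedGroup.of .x * PresentedGroup.of .y, ?_⟩
    have h1 := ctx.prodW_eq g0_chk
    rw [map_mul, psi0_of, psi0_of]
    simp only [prodW_cons, prodW_nil, mul_one, prodW_append] at h1
    exact h1.symm
  · refine ⟨PresentedGroup.of .y * PresentedGroup.of .x * PresentedGroup.of .y * (PresentedGroup.of .y)⁻¹, ?_⟩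
    have h1 := ctx.prodW_eq g1_chk
    simp only [prodW_cons, prodW_nil, mul_one, prodW_append] at h1
    rw [map_mul, map_mul, map_mul, map_inv, psi0_of, psi0_of, f_inv]
    exact h1.symm

theorem psi_surj : Function.Surjective psi := by
  rintro ⟨y, hy⟩
  obtain ⟨h, rfl⟩ := psi0_range hy
  exact ⟨h, rfl⟩

theorem psi_bij : Function.Bijective psi := by
  refine (Nat.bijective_iff_surjective_and_card _).mpr ⟨psi_surj, ?_⟩
  rw [Cfsg.Agent.Lib.OM11CMain.cardH0]
  apply le_antisymm card_PM.2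
  have := Nat.card_le_card_of_surjective _ psi_surj
  rwa [Cfsg.Agent.Lib.OM11CMain.cardH0] at this

/-- the presented group is the permutation group -/
noncomputable def PM_equiv : PM ≃* grp g 0 2 := MulEquiv.ofBijective psi psi_bij

theorem card_PM_eq : Nat.card PM = 7920 := by
  rw [Nat.card_congr PM_equiv.toEquiv, Cfsg.Agent.Lib.OM11CMain.cardH0]

theorem simple_PM : IsSimpleGroup PM := by
  haveI := Cfsg.Agent.Lib.OM11CMain.simple_top
  exact PM_equiv.isSimpleGroup

/-- any nontrivial homomorphic image of the presented group is a simple group of the right order -/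
theorem isM11_range {Γ : Type} [Group Γ] (F : PM →* Γ) (hF : F ≠ 1) : Cfsg.IsM11 F.range := by
  haveI := simple_PM
  have hk : F.ker = ⊥ ∨ F.ker = ⊤ := IsSimpleGroup.eq_bot_or_eq_top_of_normal _ inferInstance
  have hinj : Function.Injective F := by
    rcases hk with hk | hk
    · exact (MonoidHom.ker_eq_bot_iff _).mp hk
    · exfalso
      exact hF (MonoidHom.ker_eq_top_iff.mp hk)
  let e : PM ≃* F.range := MonoidHom.ofInjective hinj
  exact ⟨e.symm.isSimpleGroup, by rw [← Nat.card_congr e.toEquiv, card_PM_eq]⟩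

end Cfsg.Agent.Lib.OnM11
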