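import Mathlib

/-!
Level lemmas for the theorem on solvable groups with one class of involutions.

`Q` is a normal 2-subgroup, every involution lies in the subgroup `Z` (central in `Q`),
`N ≤ U` are normal subgroups with `U/N` elementary abelian and central in `Q/N`.
For `w` of odd order centralizing `N` we look at the subgroup `XX U w` generated by the
`a⁻¹ * (w a w⁻¹)`, `a ∈ U`.
-/

set_option autoImplicit false

namespace Cfsg.Agent.Lib.OneClassX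

variable {H : Type*} [Group H]

/-- The subgroup generated by the `a⁻¹ * (w a w⁻¹)`. -/
def XX (U : Subgroup H) (w : H) : Subgroup H :=
  Subgroup.closure {c | ∃ a ∈ U, c = a⁻¹ * (w * a * w⁻¹)}

theorem gen_mem {U : Subgroup H} {w a : H} (ha : a ∈ U) : a⁻¹ * (w * a * w⁻¹) ∈ XX U w :=
  Subgroup.subset_closure ⟨a, ha, rfl⟩

/-- partial products of conjugates -/
def telProd (w x : H) : ℕ → H
  | 0 => 1
  | k + 1 => telProd w x k * (w ^ k * x * (w ^ k)⁻¹)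

@[simp] theorem telProd_zero (w x : H) : telProd w x 0 = 1 := rfl

theorem telProd_succ (w x : H) (k : ℕ) :
    telProd w x (k + 1) = telProd w x k * (w ^ k * x * (w ^ k)⁻¹) := rfl

theorem telProd_gen (w a : H) (k : ℕ) :
    telProd w (a⁻¹ * (w * a * w⁻¹)) k = a⁻¹ * (w ^ k * a * (w ^ k)⁻¹) := by
  induction k with
  | zero => simp
  | succ k ih =>
    rw [telProd_succ, ih, pow_succ]
    group

theorem telProd_fixed {w x : H} (hx : w * x * w⁻¹ = x) (k : ℕ) : telProd w x k = x ^ k := by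
  have h1 : ∀ j : ℕ, w ^ j * x * (w ^ j)⁻¹ = x := by
    intro j
    induction j with
    | zero => simp
    | succ j ih =>
      calc w ^ (j + 1) * x * (w ^ (j + 1))⁻¹ = w ^ j * (w * x * w⁻¹) * (w ^ j)⁻¹ := by
            rw [pow_succ]; group
        _ = x := by rw [hx, ih]
  induction k with
  | zero => simp
  | succ k ih => rw [telProd_succ, ih, h1, pow_succ]

theorem eq_one_of_two_odd {x : H} {m k : ℕ} (h1 : x ^ m = 1) (hm : Odd m) (h2 : x ^ (2 ^ k) = 1) :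
    x = 1 := by
  have h3 : orderOf x ∣ m := orderOf_dvd_of_pow_eq_one h1
  have h4 : orderOf x ∣ 2 ^ k := orderOf_dvd_of_pow_eq_one h2
  have h5 : Nat.Coprime m (2 ^ k) := Nat.Coprime.pow_right k (Nat.coprime_two_right.mpr hm)
  have h6 : orderOf x ∣ 1 := by
    have := Nat.dvd_gcd h3 h4
    rwa [h5] at this
  exact orderOf_eq_one_iff.mp (Nat.dvd_one.mp h6)

/-- a "homomorphism" trivial on the generators. -/
theorem xx_hom_trivial {U : Subgroup H} {w : H} {m : ℕ} (hm : w ^ m = 1) (hodd : Odd m)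
    (f : H → H)
    (hmul : ∀ a ∈ XX U w, ∀ b ∈ XX U w, f (a * b) = f a * f b)
    (hinv : ∀ x ∈ XX U w, f (w * x * w⁻¹) = f x)
    (hconj : ∀ x ∈ XX U w, w * x * w⁻¹ ∈ XX U w)
    (h2 : ∀ x ∈ XX U w, ∃ k : ℕ, (f x) ^ (2 ^ k) = 1) :
    ∀ x ∈ XX U w, f x = 1 := by
  have hf1 : f 1 = 1 := by
    have := hmul 1 (Subgroup.one_mem _) 1 (Subgroup.one_mem _)
    rw [mul_one] at this
    exact left_eq_mul.mp this
  have hpowc : ∀ x ∈ XX U w, ∀ j : ℕ, w ^ j * x * (w ^ j)⁻¹ ∈ XX U w ∧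
      f (w ^ j * x * (w ^ j)⁻¹) = f x := by
    intro x hx j
    induction j with
    | zero => simpa using hx
    | succ j ih =>
      have e : w ^ (j + 1) * x * (w ^ (j + 1))⁻¹ = w * (w ^ j * x * (w ^ j)⁻¹) * w⁻¹ := by
        rw [pow_succ']; group
      rw [e]
      exact ⟨hconj _ ih.1, by rw [hinv _ ih.1, ih.2]⟩
  have hprod : ∀ x ∈ XX U w, ∀ k : ℕ, telProd w x k ∈ XX U w ∧ f (telProd w x k) = (f x) ^ k := by
    intro x hx k
    induction k with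
    | zero => exact ⟨Subgroup.one_mem _, by simpa using hf1⟩
    | succ k ih =>
      rw [telProd_succ]
      refine ⟨Subgroup.mul_mem _ ih.1 (hpowc x hx k).1, ?_⟩
      rw [hmul _ ih.1 _ (hpowc x hx k).1, ih.2, (hpowc x hx k).2, pow_succ]
  intro x hx
  induction hx using Subgroup.closure_induction with
  | mem c hc =>
    obtain ⟨a, ha, rfl⟩ := hc
    have hc : a⁻¹ * (w * a * w⁻¹) ∈ XX U w := gen_mem ha
    have h3 := (hprod _ hc m).2
    rw [telProd_gen, hm] at h3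
    simp only [one_mul, inv_one, mul_one, inv_mul_cancel] at h3
    rw [hf1] at h3
    obtain ⟨k, hk⟩ := h2 _ hc
    exact eq_one_of_two_odd h3.symm hodd hk
  | one => exact hf1
  | mul a b ha hb iha ihb => rw [hmul a ha b hb, iha, ihb, one_mul]
  | inv a ha iha =>
    have h4 := hmul a ha a⁻¹ (Subgroup.inv_mem _ ha)
    rw [mul_inv_cancel, hf1, iha, one_mul] at h4
    exact h4.symm

/-- the abelian telescoping lemma. -/
theorem tel_abelian {G' : Type*} [Group G'] {w : G'} {m : ℕ} (hm : w ^ m = 1) {C : Set G'}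
    (hC : ∀ c ∈ C, ∃ a, c = a⁻¹ * (w * a * w⁻¹))
    (hcomm : ∀ a ∈ Subgroup.closure C, ∀ b ∈ Subgroup.closure C, a * b = b * a)
    (hconj : ∀ x ∈ Subgroup.closure C, w * x * w⁻¹ ∈ Subgroup.closure C) :
    ∀ v ∈ Subgroup.closure C, telProd w v m = 1 := by
  have hpowc : ∀ x ∈ Subgroup.closure C, ∀ j : ℕ, w ^ j * x * (w ^ j)⁻¹ ∈ Subgroup.closure C := by
    intro x hx j
    induction j with
    | zero => simpa using hx
    | succ j ih =>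
      have e : w ^ (j + 1) * x * (w ^ (j + 1))⁻¹ = w * (w ^ j * x * (w ^ j)⁻¹) * w⁻¹ := by
        rw [pow_succ']; group
      rw [e]
      exact hconj _ ih
  have hmemT : ∀ x ∈ Subgroup.closure C, ∀ k : ℕ, telProd w x k ∈ Subgroup.closure C := by
    intro x hx k
    induction k with
    | zero => exact Subgroup.one_mem _
    | succ k ih =>
      rw [telProd_succ]
      exact Subgroup.mul_mem _ ih (hpowc x hx k)
  have hmulT : ∀ a ∈ Subgroup.closure C, ∀ b ∈ Subgroup.closure C, ∀ k : ℕ,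
      telProd w (a * b) k = telProd w a k * telProd w b k := by
    intro a ha b hb k
    induction k with
    | zero => simp
    | succ k ih =>
      rw [telProd_succ, telProd_succ, telProd_succ, ih]
      have h1 := hcomm _ (hmemT b hb k) _ (hpowc a ha k)
      have e : w ^ k * (a * b) * (w ^ k)⁻¹ = (w ^ k * a * (w ^ k)⁻¹) * (w ^ k * b * (w ^ k)⁻¹) := by
        group
      rw [e]
      calc telProd w a k * telProd w b k * ((w ^ k * a * (w ^ k)⁻¹) * (w ^ k * b * (w ^ k)⁻¹))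
          = telProd w a k * (telProd w b k * (w ^ k * a * (w ^ k)⁻¹)) * (w ^ k * b * (w ^ k)⁻¹) := by
            group
        _ = telProd w a k * ((w ^ k * a * (w ^ k)⁻¹) * telProd w b k) * (w ^ k * b * (w ^ k)⁻¹) := by
            rw [h1]
        _ = _ := by group
  intro v hv
  induction hv using Subgroup.closure_induction with
  | mem c hc =>
    obtain ⟨a, rfl⟩ := hC c hc
    rw [telProd_gen, hm]
    simp
  | one =>
    have h1 : ∀ k, telProd w (1 : G') k = 1 := by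
      intro k
      induction k with
      | zero => rfl
      | succ k ih => rw [telProd_succ, ih]; simp
    exact h1 m
  | mul a b ha hb iha ihb => rw [hmulT a ha b hb, iha, ihb, one_mul]
  | inv a ha iha =>
    have h4 := hmulT a ha a⁻¹ (Subgroup.inv_mem _ ha) m
    rw [mul_inv_cancel, iha, one_mul] at h4
    have h1 : ∀ k, telProd w (1 : G') k = 1 := by
      intro k
      induction k with
      | zero => rfl
      | succ k ih => rw [telProd_succ, ih]; simp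
    rw [h1] at h4
    exact h4.symm

/-- The data of a level. -/
structure Lvl (Q Z N U : Subgroup H) : Prop where
  Nn : N.Normal
  Un : U.Normal
  Zn : Z.Normal
  ZN : Z ≤ N
  UQ : U ≤ Q
  NQ : N ≤ Q
  sq : ∀ u ∈ U, u * u ∈ N
  cm : ∀ u ∈ U, ∀ q ∈ Q, u⁻¹ * q * u * q⁻¹ ∈ N
  two : ∀ q ∈ Q, ∃ k : ℕ, q ^ (2 ^ k) = 1
  invol : ∀ x : H, x * x = 1 → x ∈ Z
  Zc : ∀ z ∈ Z, ∀ q ∈ Q, z * q = q * z
  Zsq : ∀ z ∈ Z, z * z = 1

section
variable {Q Z N U : Subgroup H} (L : Lvl Q Z N U)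
include L

theorem xx_le_U (w : H) : XX U w ≤ U := by
  rw [XX, Subgroup.closure_le]
  rintro _ ⟨a, ha, rfl⟩
  exact U.mul_mem (U.inv_mem ha) (L.Un.conj_mem a ha w)

theorem xx_le_Q (w : H) : XX U w ≤ Q := (xx_le_U L w).trans L.UQ

theorem xx_conj {w h : H} (hh : h * w = w * h) {x : H} (hx : x ∈ XX U w) :
    h * x * h⁻¹ ∈ XX U w := by
  have hle : XX U w ≤ (XX U w).comap (MulAut.conj h).toMonoidHom := by
    rw [XX, Subgroup.closure_le]
    rintro _ ⟨a, ha, rfl⟩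
    show (MulAut.conj h) (a⁻¹ * (w * a * w⁻¹)) ∈ XX U w
    have hb : h * a * h⁻¹ ∈ U := L.Un.conj_mem a ha h
    have e : (MulAut.conj h) (a⁻¹ * (w * a * w⁻¹)) =
        (h * a * h⁻¹)⁻¹ * (w * (h * a * h⁻¹) * w⁻¹) := by
      have hh'' : h⁻¹ * w⁻¹ = w⁻¹ * h⁻¹ := by
        rw [← mul_inv_rev, ← mul_inv_rev, hh]
      calc (MulAut.conj h) (a⁻¹ * (w * a * w⁻¹)) = h * (a⁻¹ * (w * a * w⁻¹)) * h⁻¹ := rfl
        _ = h * a⁻¹ * h⁻¹ * (h * w) * a * (w⁻¹ * h⁻¹) := by group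
        _ = h * a⁻¹ * h⁻¹ * (w * h) * a * (h⁻¹ * w⁻¹) := by rw [hh, hh'']
        _ = _ := by group
    rw [e]
    exact gen_mem hb
  exact hle hx

theorem xx_conj_map {w : H} (g : H) {x : H} (hx : x ∈ XX U w) :
    g * x * g⁻¹ ∈ XX U (g * w * g⁻¹) := by
  have hle : XX U w ≤ (XX U (g * w * g⁻¹)).comap (MulAut.conj g).toMonoidHom := by
    rw [XX, Subgroup.closure_le]
    rintro _ ⟨a, ha, rfl⟩
    show (MulAut.conj g) (a⁻¹ * (w * a * w⁻¹)) ∈ XX U (g * w * g⁻¹)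
    have hb : g * a * g⁻¹ ∈ U := L.Un.conj_mem a ha g
    have e : (MulAut.conj g) (a⁻¹ * (w * a * w⁻¹)) =
        (g * a * g⁻¹)⁻¹ * ((g * w * g⁻¹) * (g * a * g⁻¹) * (g * w * g⁻¹)⁻¹) := by
      show g * (a⁻¹ * (w * a * w⁻¹)) * g⁻¹ = _
      group
    rw [e]
    exact gen_mem hb
  exact hle hx

theorem xx_comm_N {w : H} (hwN : ∀ n ∈ N, w * n = n * w) {x : H} (hx : x ∈ XX U w)
    {n : H} (hn : n ∈ N) : x * n = n * x := by
  have hle : XX U w ≤ Subgroup.centralizer (N : Set H) := by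
    rw [XX, Subgroup.closure_le]
    rintro _ ⟨a, ha, rfl⟩
    show _ ∈ Subgroup.centralizer (N : Set H)
    rw [Subgroup.mem_centralizer_iff]
    intro n hn
    have hn : n ∈ N := hn
    have he : a * n * a⁻¹ ∈ N := L.Nn.conj_mem n hn a
    have h1 : w * (a * n * a⁻¹) = (a * n * a⁻¹) * w := hwN _ he
    have h2 : w * n = n * w := hwN _ hn
    have h3 : (w * a * w⁻¹) * n = (a * n * a⁻¹) * (w * a * w⁻¹) := by
      have h4 : w⁻¹ * n = n * w⁻¹ := Commute.inv_left h2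
      calc (w * a * w⁻¹) * n = w * a * (w⁻¹ * n) := by group
        _ = w * a * (n * w⁻¹) := by rw [h4]
        _ = w * (a * n * a⁻¹) * a * w⁻¹ := by group
        _ = (a * n * a⁻¹) * w * a * w⁻¹ := by rw [h1]
        _ = _ := by group
    calc n * (a⁻¹ * (w * a * w⁻¹)) = a⁻¹ * (a * n * a⁻¹) * (w * a * w⁻¹) := by group
      _ = a⁻¹ * ((a * n * a⁻¹) * (w * a * w⁻¹)) := by group
      _ = a⁻¹ * ((w * a * w⁻¹) * n) := by rw [h3]
      _ = _ := by group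
  exact (Subgroup.mem_centralizer_iff.mp (hle hx) n hn).symm

end

section
variable {Q Z N U : Subgroup H} (L : Lvl Q Z N U) {w : H} (hwN : ∀ n ∈ N, w * n = n * w)
include L hwN

theorem xx_sq_comm {a b : H} (ha : a ∈ XX U w) (hb : b ∈ XX U w) : b * (a * a) = (a * a) * b :=
  xx_comm_N L hwN hb (L.sq a (xx_le_U L w ha))

theorem xx_c_mem_N {a b : H} (ha : a ∈ XX U w) (hb : b ∈ XX U w) : a⁻¹ * b * a * b⁻¹ ∈ N :=
  L.cm a (xx_le_U L w ha) b (xx_le_Q L w hb)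

theorem xx_c_mem {a b : H} (ha : a ∈ XX U w) (hb : b ∈ XX U w) : a⁻¹ * b * a * b⁻¹ ∈ XX U w :=
  (XX U w).mul_mem ((XX U w).mul_mem ((XX U w).mul_mem ((XX U w).inv_mem ha) hb) ha)
    ((XX U w).inv_mem hb)

theorem xx_c_comm {a b c : H} (ha : a ∈ XX U w) (hb : b ∈ XX U w) (hc : c ∈ XX U w) :
    c * (a⁻¹ * b * a * b⁻¹) = (a⁻¹ * b * a * b⁻¹) * c :=
  xx_comm_N L hwN hc (xx_c_mem_N L hwN ha hb)

/-- commutators have square one. -/
theorem xx_c_sq {a b : H} (ha : a ∈ XX U w) (hb : b ∈ XX U w) :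
    (a⁻¹ * b * a * b⁻¹) * (a⁻¹ * b * a * b⁻¹) = 1 := by
  set e := a⁻¹ * b * a * b⁻¹ with he
  have h1 : a⁻¹ * b * a = e * b := by rw [he]; group
  have h2 : a * e = e * a := xx_c_comm L hwN ha hb ha
  have h2' : e * a⁻¹ = a⁻¹ * e := by
    rw [eq_inv_mul_iff_mul_eq, ← mul_assoc, h2, mul_assoc, mul_inv_cancel, mul_one]
  have h3 : b * (a * a) = (a * a) * b := xx_sq_comm L hwN ha hb
  have h4 : e * e * b = b := by
    calc e * e * b = e * (e * b) := by group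
      _ = e * (a⁻¹ * b * a) := by rw [h1]
      _ = (e * a⁻¹) * b * a := by group
      _ = a⁻¹ * e * b * a := by rw [h2']
      _ = a⁻¹ * (e * b) * a := by group
      _ = a⁻¹ * (a⁻¹ * b * a) * a := by rw [h1]
      _ = (a * a)⁻¹ * (b * (a * a)) := by group
      _ = (a * a)⁻¹ * ((a * a) * b) := by rw [h3]
      _ = b := by group
  exact mul_eq_right.mp h4

theorem xx_sq_mul {a b : H} (ha : a ∈ XX U w) (hb : b ∈ XX U w) :
    (a * b) * (a * b) = (a * a) * (a⁻¹ * b * a * b⁻¹) * (b * b) := by group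

theorem xx_pow4_mul {a b : H} (ha : a ∈ XX U w) (hb : b ∈ XX U w) :
    (a * b) * (a * b) * ((a * b) * (a * b)) = (a * a) * (a * a) * ((b * b) * (b * b)) := by
  rw [xx_sq_mul L hwN ha hb]
  set e := a⁻¹ * b * a * b⁻¹ with he
  have hee : e * e = 1 := xx_c_sq L hwN ha hb
  have hA : a * a ∈ XX U w := (XX U w).mul_mem ha ha
  have hB : b * b ∈ XX U w := (XX U w).mul_mem hb hb
  have hEB : e * (b * b) = (b * b) * e := by
    have := xx_c_comm L hwN ha hb hB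
    exact this.symm
  have hEA : e * (a * a) = (a * a) * e := by
    have := xx_c_comm L hwN ha hb hA
    exact this.symm
  have hBA : (b * b) * (a * a) = (a * a) * (b * b) := xx_sq_comm L hwN ha hB
  calc (a * a) * e * (b * b) * ((a * a) * e * (b * b))
      = (a * a) * e * ((b * b) * (a * a)) * e * (b * b) := by group
    _ = (a * a) * e * ((a * a) * (b * b)) * e * (b * b) := by rw [hBA]
    _ = (a * a) * (e * (a * a)) * (b * b) * e * (b * b) := by group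
    _ = (a * a) * ((a * a) * e) * (b * b) * e * (b * b) := by rw [hEA]
    _ = (a * a) * (a * a) * e * ((b * b) * e) * (b * b) := by group
    _ = (a * a) * (a * a) * e * (e * (b * b)) * (b * b) := by rw [hEB]
    _ = (a * a) * (a * a) * (e * e) * ((b * b) * (b * b)) := by group
    _ = _ := by rw [hee]; group

variable {m : ℕ} (hm : w ^ m = 1) (hodd : Odd m)
include hm hodd

theorem xx_pow4 {x : H} (hx : x ∈ XX U w) : x * x * (x * x) = 1 := by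
  refine xx_hom_trivial hm hodd (fun x => x * x * (x * x)) ?_ ?_ ?_ ?_ x hx
  · intro a ha b hb
    exact xx_pow4_mul L hwN ha hb
  · intro x hx
    have h1 : x * x ∈ N := L.sq x (xx_le_U L w hx)
    have h2 : x * x * (x * x) ∈ N := N.mul_mem h1 h1
    have h3 := hwN _ h2
    show w * x * w⁻¹ * (w * x * w⁻¹) * (w * x * w⁻¹ * (w * x * w⁻¹)) = x * x * (x * x)
    calc w * x * w⁻¹ * (w * x * w⁻¹) * (w * x * w⁻¹ * (w * x * w⁻¹))
        = w * (x * x * (x * x)) * w⁻¹ := by group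
      _ = (x * x * (x * x)) * w * w⁻¹ := by rw [h3]
      _ = _ := by group
  · intro x hx
    exact xx_conj L rfl hx
  · intro x hx
    have h1 : x ∈ Q := xx_le_Q L w hx
    exact L.two _ (Q.mul_mem (Q.mul_mem h1 h1) (Q.mul_mem h1 h1))

theorem xx_sq_Z {x : H} (hx : x ∈ XX U w) : x * x ∈ Z :=
  L.invol _ (xx_pow4 L hwN hm hodd hx)

theorem xx_c_Z {a b : H} (ha : a ∈ XX U w) (hb : b ∈ XX U w) : a⁻¹ * b * a * b⁻¹ ∈ Z :=
  L.invol _ (xx_c_sq L hwN ha hb)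

/-- If `w` centralizes `XX U w` then it centralizes `U`. -/
theorem xx_not_central (hc : ∀ x ∈ XX U w, w * x * w⁻¹ = x) {a : H} (ha : a ∈ U) :
    w * a * w⁻¹ = a := by
  have h1 : ∀ x ∈ XX U w, x = 1 := by
    refine xx_hom_trivial hm hodd (fun x => x) ?_ ?_ ?_ ?_
    · intro a _ b _
      rfl
    · intro x hx
      exact hc x hx
    · intro x hx
      rw [hc x hx]
      exact hx
    · intro x hx
      exact L.two x (xx_le_Q L w hx)
  have h2 := h1 _ (gen_mem (w := w) ha)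
  rw [inv_mul_eq_one] at h2
  exact h2.symm

/-- `C_X(w) ≤ Z`, modulo `Z`. -/
theorem xx_fix_mod {x : H} (hx : x ∈ XX U w) (hfix : x⁻¹ * (w * x * w⁻¹) ∈ Z) : x ∈ Z := by
  haveI hZn : Z.Normal := L.Zn
  let π := QuotientGroup.mk' Z
  let C : Set (H ⧸ Z) := π '' {c | ∃ a ∈ U, c = a⁻¹ * (w * a * w⁻¹)}
  have hcl : Subgroup.closure C = (XX U w).map π := by
    rw [XX, MonoidHom.map_closure]
  have hπ : ∀ a b : H, a⁻¹ * b ∈ Z → π a = π b := by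
    intro a b h
    exact QuotientGroup.eq.mpr h
  have hone : ∀ a : H, a ∈ Z → π a = 1 := fun a h => (QuotientGroup.eq_one_iff a).mpr h
  have hT : ∀ v ∈ Subgroup.closure C, telProd (π w) v m = 1 := by
    refine tel_abelian (by rw [← map_pow, hm, map_one]) ?_ ?_ ?_
    · rintro _ ⟨_, ⟨a, _, rfl⟩, rfl⟩
      refine ⟨π a, ?_⟩
      simp only [map_mul, map_inv]
    · rw [hcl]
      rintro _ ⟨a, ha, rfl⟩ _ ⟨b, hb, rfl⟩
      have h1 := hone _ (xx_c_Z L hwN hm hodd ha hb)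
      simp only [map_mul, map_inv] at h1
      have h2 : (π a)⁻¹ * π b * π a = π b := mul_inv_eq_one.mp h1
      calc π a * π b = π a * ((π a)⁻¹ * π b * π a) := by rw [h2]
        _ = π b * π a := by group
    · rw [hcl]
      rintro _ ⟨a, ha, rfl⟩
      exact ⟨w * a * w⁻¹, xx_conj L rfl ha, by simp only [map_mul, map_inv]⟩
  have hv : π x ∈ Subgroup.closure C := by
    rw [hcl]
    exact ⟨x, hx, rfl⟩
  have h1 := hT _ hv
  have hfixed : π w * π x * (π w)⁻¹ = π x := by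
    have := hone _ hfix
    simp only [map_mul, map_inv] at this
    rw [inv_mul_eq_one] at this
    exact this.symm
  rw [telProd_fixed hfixed] at h1
  have h2 : (π x) ^ (2 ^ 1) = 1 := by
    have := hone _ (xx_sq_Z L hwN hm hodd hx)
    rw [map_mul] at this
    rw [pow_one, pow_two]
    exact this
  have h3 := eq_one_of_two_odd h1 hodd h2
  exact (QuotientGroup.eq_one_iff x).mp h3

end

section
variable {Q Z N U : Subgroup H} (L : Lvl Q Z N U) {w : H} (hwN : ∀ n ∈ N, w * n = n * w)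
include L hwN

theorem c_mul_left {a₁ a₂ b : H} (h₁ : a₁ ∈ XX U w) (h₂ : a₂ ∈ XX U w) (hb : b ∈ XX U w) :
    (a₁ * a₂)⁻¹ * b * (a₁ * a₂) * b⁻¹ = (a₁⁻¹ * b * a₁ * b⁻¹) * (a₂⁻¹ * b * a₂ * b⁻¹) := by
  have h1 : a₂ * (a₁⁻¹ * b * a₁ * b⁻¹) = (a₁⁻¹ * b * a₁ * b⁻¹) * a₂ := xx_c_comm L hwN h₁ hb h₂
  have h2 : a₂⁻¹ * (a₁⁻¹ * b * a₁ * b⁻¹) = (a₁⁻¹ * b * a₁ * b⁻¹) * a₂⁻¹ := Commute.inv_left h1
  calc (a₁ * a₂)⁻¹ * b * (a₁ * a₂) * b⁻¹ = a₂⁻¹ * (a₁⁻¹ * b * a₁ * b⁻¹) * b * a₂ * b⁻¹ := by group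
    _ = (a₁⁻¹ * b * a₁ * b⁻¹) * a₂⁻¹ * b * a₂ * b⁻¹ := by rw [h2]
    _ = _ := by group

theorem c_mul_right {a b₁ b₂ : H} (ha : a ∈ XX U w) (h₁ : b₁ ∈ XX U w) (h₂ : b₂ ∈ XX U w) :
    a⁻¹ * (b₁ * b₂) * a * (b₁ * b₂)⁻¹ = (a⁻¹ * b₁ * a * b₁⁻¹) * (a⁻¹ * b₂ * a * b₂⁻¹) := by
  have h1 : b₁ * (a⁻¹ * b₂ * a * b₂⁻¹) = (a⁻¹ * b₂ * a * b₂⁻¹) * b₁ := xx_c_comm L hwN ha h₂ h₁
  have h2 : b₁⁻¹ * (a⁻¹ * b₂ * a * b₂⁻¹) = (a⁻¹ * b₂ * a * b₂⁻¹) * b₁⁻¹ := Commute.inv_left h1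
  calc a⁻¹ * (b₁ * b₂) * a * (b₁ * b₂)⁻¹ = a⁻¹ * b₁ * a * ((a⁻¹ * b₂ * a * b₂⁻¹) * b₁⁻¹) := by group
    _ = a⁻¹ * b₁ * a * (b₁⁻¹ * (a⁻¹ * b₂ * a * b₂⁻¹)) := by rw [h2]
    _ = _ := by group

variable {m : ℕ} (hm : w ^ m = 1) (hodd : Odd m)
include hm hodd

/-- one descent step for `τ`. -/
theorem tau_step {τ : H} (hτw : τ * w = w * τ) (hτZ : ∀ z ∈ Z, τ * z = z * τ)
    (hτ2 : ∀ x ∈ XX U w, (τ * τ) * x * (τ * τ)⁻¹ = x) :
    ∀ x ∈ XX U w, τ * x * τ⁻¹ = x := by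
  have hsm : ∀ {x : H}, x ∈ XX U w → τ * x * τ⁻¹ ∈ XX U w := fun hx => xx_conj L hτw hx
  have hcZ : ∀ {a b : H}, a ∈ XX U w → b ∈ XX U w → a⁻¹ * b * a * b⁻¹ ∈ Z :=
    fun ha hb => xx_c_Z L hwN hm hodd ha hb
  have hfixZ : ∀ z ∈ Z, τ * z * τ⁻¹ = z := by
    intro z hz
    rw [hτZ z hz]
    group
  have hZQ : Z ≤ Q := L.ZN.trans L.NQ
  have hZcomm : ∀ z ∈ Z, ∀ z' ∈ Z, z * z' = z' * z := by
    intro z hz z' hz'
    exact L.Zc z hz z' (hZQ hz')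
  -- the commutator form is invariant
  have hc_s : ∀ {a b : H}, a ∈ XX U w → b ∈ XX U w →
      (τ * a * τ⁻¹)⁻¹ * (τ * b * τ⁻¹) * (τ * a * τ⁻¹) * (τ * b * τ⁻¹)⁻¹ = a⁻¹ * b * a * b⁻¹ := by
    intro a b ha hb
    have h1 := hfixZ _ (hcZ ha hb)
    rw [← h1]
    group
  have hc_s2 : ∀ {a b : H}, a ∈ XX U w → b ∈ XX U w →
      (τ * a * τ⁻¹)⁻¹ * b * (τ * a * τ⁻¹) * b⁻¹ = a⁻¹ * (τ * b * τ⁻¹) * a * (τ * b * τ⁻¹)⁻¹ := by
    intro a b ha hb
    have h1 := hc_s (hsm ha) hb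
    have h2 : τ * (τ * a * τ⁻¹) * τ⁻¹ = a := by
      have := hτ2 a ha
      calc τ * (τ * a * τ⁻¹) * τ⁻¹ = (τ * τ) * a * (τ * τ)⁻¹ := by group
        _ = a := this
    rw [h2] at h1
    exact h1.symm
  -- `ρ x = x * x^τ` commute
  have hρc : ∀ {x₁ x₂ : H}, x₁ ∈ XX U w → x₂ ∈ XX U w →
      (x₁ * (τ * x₁ * τ⁻¹)) * (x₂ * (τ * x₂ * τ⁻¹)) = (x₂ * (τ * x₂ * τ⁻¹)) * (x₁ * (τ * x₁ * τ⁻¹)) := by
    intro x₁ x₂ h₁ h₂
    have s₁ := hsm h₁
    have s₂ := hsm h₂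
    have hv₂ : x₂ * (τ * x₂ * τ⁻¹) ∈ XX U w := (XX U w).mul_mem h₂ s₂
    have e : (x₁ * (τ * x₁ * τ⁻¹))⁻¹ * (x₂ * (τ * x₂ * τ⁻¹)) * (x₁ * (τ * x₁ * τ⁻¹)) *
        (x₂ * (τ * x₂ * τ⁻¹))⁻¹ = 1 := by
      rw [c_mul_left L hwN h₁ s₁ hv₂, c_mul_right L hwN h₁ h₂ s₂, c_mul_right L hwN s₁ h₂ s₂,
        hc_s2 h₁ h₂, hc_s h₁ h₂]
      set c₁ := x₁⁻¹ * x₂ * x₁ * x₂⁻¹ with hc₁
      set c₂ := x₁⁻¹ * (τ * x₂ * τ⁻¹) * x₁ * (τ * x₂ * τ⁻¹)⁻¹ with hc₂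
      have hc₁Z : c₁ ∈ Z := hcZ h₁ h₂
      have hc₂Z : c₂ ∈ Z := hcZ h₁ s₂
      have h1 : c₁ * c₁ = 1 := L.Zsq _ hc₁Z
      have h2 : c₂ * c₂ = 1 := L.Zsq _ hc₂Z
      calc c₁ * c₂ * (c₂ * c₁) = c₁ * (c₂ * c₂) * c₁ := by group
        _ = 1 := by rw [h2, mul_one, h1]
    have e2 := mul_inv_eq_one.mp e
    -- `v₁⁻¹ v₂ v₁ = v₂`
    calc (x₁ * (τ * x₁ * τ⁻¹)) * (x₂ * (τ * x₂ * τ⁻¹))
        = (x₁ * (τ * x₁ * τ⁻¹)) * ((x₁ * (τ * x₁ * τ⁻¹))⁻¹ * (x₂ * (τ * x₂ * τ⁻¹)) *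
            (x₁ * (τ * x₁ * τ⁻¹))) := by rw [e2]
      _ = _ := by group
  -- `ρ x ∈ Z`
  have hρZ : ∀ {x : H}, x ∈ XX U w → x * (τ * x * τ⁻¹) ∈ Z := by
    intro x hx
    set v := x * (τ * x * τ⁻¹) with hv
    have hvX : v ∈ XX U w := (XX U w).mul_mem hx (hsm hx)
    have hwx : w * x * w⁻¹ ∈ XX U w := xx_conj L rfl hx
    have hv' : w * v * w⁻¹ = (w * x * w⁻¹) * (τ * (w * x * w⁻¹) * τ⁻¹) := by
      have hτw' : τ⁻¹ * w = w * τ⁻¹ := by
        have : Commute τ w := hτw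
        exact this.inv_left
      have hτw'' : w⁻¹ * τ = τ * w⁻¹ := by
        have : Commute τ w := hτw
        exact (this.symm.inv_left)
      calc w * v * w⁻¹ = (w * x * w⁻¹) * (w * τ) * x * (τ⁻¹ * w⁻¹) := by rw [hv]; group
        _ = (w * x * w⁻¹) * (τ * w) * x * (w⁻¹ * τ⁻¹) := by
            rw [hτw, ← mul_inv_rev, ← mul_inv_rev, hτw]
        _ = _ := by group
    have hcomm : v * (w * v * w⁻¹) = (w * v * w⁻¹) * v := by
      rw [hv']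
      exact hρc hx hwx
    have hvv : v * v ∈ Z := xx_sq_Z L hwN hm hodd hvX
    have hfix : w * (v * v) * w⁻¹ = v * v := by
      rw [hwN _ (L.ZN hvv)]
      group
    have hsq : (v⁻¹ * (w * v * w⁻¹)) * (v⁻¹ * (w * v * w⁻¹)) = 1 := by
      have h1 : (w * v * w⁻¹) * (w * v * w⁻¹) = v * v := by
        rw [← hfix]
        group
      have h2 : (w * v * w⁻¹) * v⁻¹ = v⁻¹ * (w * v * w⁻¹) := by
        have : Commute v (w * v * w⁻¹) := hcomm
        exact (this.inv_left).eq.symm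
      calc (v⁻¹ * (w * v * w⁻¹)) * (v⁻¹ * (w * v * w⁻¹))
          = v⁻¹ * ((w * v * w⁻¹) * v⁻¹) * (w * v * w⁻¹) := by group
        _ = v⁻¹ * (v⁻¹ * (w * v * w⁻¹)) * (w * v * w⁻¹) := by rw [h2]
        _ = v⁻¹ * v⁻¹ * ((w * v * w⁻¹) * (w * v * w⁻¹)) := by group
        _ = 1 := by rw [h1]; group
    exact xx_fix_mod L hwN hm hodd hvX (L.invol _ hsq)
  have hφZ : ∀ {x : H}, x ∈ XX U w → x⁻¹ * (τ * x * τ⁻¹) ∈ Z := by
    intro x hx
    have h1 := Z.mul_mem (Z.inv_mem (xx_sq_Z L hwN hm hodd hx)) (hρZ hx)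
    have e : (x * x)⁻¹ * (x * (τ * x * τ⁻¹)) = x⁻¹ * (τ * x * τ⁻¹) := by group
    rwa [e] at h1
  have hφ : ∀ x ∈ XX U w, x⁻¹ * (τ * x * τ⁻¹) = 1 := by
    refine xx_hom_trivial hm hodd (fun x => x⁻¹ * (τ * x * τ⁻¹)) ?_ ?_ ?_ ?_
    · intro a ha b hb
      show (a * b)⁻¹ * (τ * (a * b) * τ⁻¹) = a⁻¹ * (τ * a * τ⁻¹) * (b⁻¹ * (τ * b * τ⁻¹))
      have h1 : a⁻¹ * (τ * a * τ⁻¹) ∈ Z := hφZ ha
      have h2 : (a⁻¹ * (τ * a * τ⁻¹)) * b⁻¹ = b⁻¹ * (a⁻¹ * (τ * a * τ⁻¹)) :=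
        L.Zc _ h1 _ (Q.inv_mem (xx_le_Q L w hb))
      calc (a * b)⁻¹ * (τ * (a * b) * τ⁻¹) = b⁻¹ * (a⁻¹ * (τ * a * τ⁻¹)) * (τ * b * τ⁻¹) := by group
        _ = (a⁻¹ * (τ * a * τ⁻¹)) * b⁻¹ * (τ * b * τ⁻¹) := by rw [h2]
        _ = _ := by group
    · intro x hx
      show (w * x * w⁻¹)⁻¹ * (τ * (w * x * w⁻¹) * τ⁻¹) = x⁻¹ * (τ * x * τ⁻¹)
      have h1 : x⁻¹ * (τ * x * τ⁻¹) ∈ Z := hφZ hx
      have h2 := hwN _ (L.ZN h1)
      have hτw'' : w⁻¹ * τ = τ * w⁻¹ := by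
        have : Commute τ w := hτw
        exact (this.symm.inv_left)
      have h3 : τ * (w * x * w⁻¹) * τ⁻¹ = w * (τ * x * τ⁻¹) * w⁻¹ := by
        calc τ * (w * x * w⁻¹) * τ⁻¹ = (τ * w) * x * (τ * w)⁻¹ := by group
          _ = (w * τ) * x * (w * τ)⁻¹ := by rw [hτw]
          _ = _ := by group
      rw [h3]
      calc (w * x * w⁻¹)⁻¹ * (w * (τ * x * τ⁻¹) * w⁻¹) = w * (x⁻¹ * (τ * x * τ⁻¹)) * w⁻¹ := by group
        _ = _ := by rw [h2]; group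
    · intro x hx
      exact xx_conj L rfl hx
    · intro x hx
      exact L.two _ (hZQ (hφZ hx))
  intro x hx
  have := hφ x hx
  rw [inv_mul_eq_one] at this
  exact this.symm

/-- `L4`: a 2-element trivial on `Z` commuting with `w` centralizes `XX U w`. -/
theorem two_central (n : ℕ) : ∀ {t : H}, t ^ (2 ^ n) = 1 → t * w = w * t →
    (∀ z ∈ Z, t * z = z * t) → ∀ x ∈ XX U w, t * x * t⁻¹ = x := by
  induction n with
  | zero =>
    intro t ht _ _ x _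
    have : t = 1 := by simpa using ht
    rw [this]; group
  | succ n ih =>
    intro t ht htw htZ
    have h1 : (t * t) ^ (2 ^ n) = 1 := by
      rw [← pow_two, ← pow_mul, ← pow_succ']
      exact ht
    have h2 : (t * t) * w = w * (t * t) := by
      rw [mul_assoc, htw, ← mul_assoc, htw, mul_assoc]
    have h3 : ∀ z ∈ Z, (t * t) * z = z * (t * t) := by
      intro z hz
      rw [mul_assoc, htZ z hz, ← mul_assoc, htZ z hz, mul_assoc]
    exact tau_step L hwN hm hodd htw htZ (ih h1 h2 h3)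

/-- `L5`: an odd element inverted by such a `t` centralizes `XX U w`. -/
theorem inv_central {y t : H} {k n : ℕ} (hk : y ^ k = 1) (hko : Odd k) (hyw : y * w = w * y)
    (ht2 : t ^ (2 ^ n) = 1) (htw : t * w = w * t) (htZ : ∀ z ∈ Z, t * z = z * t)
    (hinv : t * y * t⁻¹ = y⁻¹) : ∀ x ∈ XX U w, y * x * y⁻¹ = x := by
  intro x hx
  have h1 : y * x * y⁻¹ ∈ XX U w := xx_conj L hyw hx
  have h2 := two_central L hwN hm hodd n ht2 htw htZ _ h1
  have h3 := two_central L hwN hm hodd n ht2 htw htZ _ hx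
  have h4 : t * (y * x * y⁻¹) * t⁻¹ = y⁻¹ * x * y := by
    calc t * (y * x * y⁻¹) * t⁻¹ = (t * y * t⁻¹) * (t * x * t⁻¹) * (t * y * t⁻¹)⁻¹ := by group
      _ = _ := by rw [hinv, h3]; group
  rw [h4] at h2
  have h5 : (y * y) * x = x * (y * y) := by
    calc (y * y) * x = y * (y * x * y⁻¹) * y := by group
      _ = y * (y⁻¹ * x * y) * y := by rw [h2]
      _ = _ := by group
  obtain ⟨j, hj⟩ := hko
  have h6 : (y * y) ^ (j + 1) = y := by
    rw [← pow_two, ← pow_mul]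
    have e : 2 * (j + 1) = k + 1 := by omega
    rw [e, pow_succ, hk, one_mul]
  have h7 : Commute y x := by
    rw [← h6]
    exact Commute.pow_left h5 _
  rw [h7.eq]
  group

end

section
variable {Q Z N U : Subgroup H} (L : Lvl Q Z N U) {w : H} (hwN : ∀ n ∈ N, w * n = n * w)
include L hwN

/-- `L6`. -/
theorem comm_xx {x : H} (hxQ : x ∈ Q) (hx : w * x * w⁻¹ = x) {c : H} (hc : c ∈ XX U w) :
    c * x = x * c := by
  have hle : XX U w ≤ Subgroup.centralizer ({x} : Set H) := by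
    rw [XX, Subgroup.closure_le]
    rintro _ ⟨a, ha, rfl⟩
    show _ ∈ Subgroup.centralizer ({x} : Set H)
    rw [Subgroup.mem_centralizer_iff]
    intro x' hx'
    rw [Set.mem_singleton_iff] at hx'
    rw [hx']
    have hcm : a⁻¹ * (w * a * w⁻¹) ∈ XX U w := gen_mem ha
    set n₁ := a⁻¹ * x * a * x⁻¹ with hn₁
    have hn₁N : n₁ ∈ N := L.cm a ha x hxQ
    have h1 : x * a⁻¹ * x⁻¹ = n₁⁻¹ * a⁻¹ := by rw [hn₁]; group
    have h2 : x * (w * a * w⁻¹) * x⁻¹ = (w * a * w⁻¹) * n₁ := by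
      have h3 : w * n₁ * w⁻¹ = n₁ := by rw [hwN _ hn₁N]; group
      have h4 : x * a * x⁻¹ = a * n₁ := by rw [hn₁]; group
      calc x * (w * a * w⁻¹) * x⁻¹ = (w * x * w⁻¹) * (w * a * w⁻¹) * (w * x * w⁻¹)⁻¹ := by rw [hx]
        _ = w * (x * a * x⁻¹) * w⁻¹ := by group
        _ = w * (a * n₁) * w⁻¹ := by rw [h4]
        _ = (w * a * w⁻¹) * (w * n₁ * w⁻¹) := by group
        _ = _ := by rw [h3]
    have h5 := xx_comm_N L hwN hcm hn₁N
    have h6 : x * (a⁻¹ * (w * a * w⁻¹)) * x⁻¹ = a⁻¹ * (w * a * w⁻¹) := by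
      calc x * (a⁻¹ * (w * a * w⁻¹)) * x⁻¹ = (x * a⁻¹ * x⁻¹) * (x * (w * a * w⁻¹) * x⁻¹) := by group
        _ = n₁⁻¹ * a⁻¹ * ((w * a * w⁻¹) * n₁) := by rw [h1, h2]
        _ = n₁⁻¹ * ((a⁻¹ * (w * a * w⁻¹)) * n₁) := by group
        _ = n₁⁻¹ * (n₁ * (a⁻¹ * (w * a * w⁻¹))) := by rw [h5]
        _ = _ := by group
    calc x * (a⁻¹ * (w * a * w⁻¹)) = (x * (a⁻¹ * (w * a * w⁻¹)) * x⁻¹) * x := by group
      _ = _ := by rw [h6]
  exact (Subgroup.mem_centralizer_iff.mp (hle hc) x rfl).symm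

end

/-- The final contradiction. -/
theorem final_contra {Q Z N U : Subgroup H} (L : Lvl Q Z N U) {y₀ g : H} {m r : ℕ}
    (hN : ∀ n ∈ N, y₀ * n = n * y₀) (hm : y₀ ^ m = 1) (hodd : Odd m)
    (hmove : ∃ a ∈ U, y₀ * a * y₀⁻¹ ≠ a) (hr : Odd r) (hZg : ∀ z ∈ Z, telProd g z r = 1)
    (hcentral : ∀ i j : ℕ, i < r → j < r → i ≠ j → ∀ x ∈ XX U (g ^ i * y₀ * (g ^ i)⁻¹),
      (g ^ j * y₀ * (g ^ j)⁻¹) * x * (g ^ j * y₀ * (g ^ j)⁻¹)⁻¹ = x) : False := by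
  obtain ⟨a₀, ha₀, hmv⟩ := hmove
  have hyN : ∀ (i : ℕ), ∀ n ∈ N, (g ^ i * y₀ * (g ^ i)⁻¹) * n = n * (g ^ i * y₀ * (g ^ i)⁻¹) := by
    intro i n hn
    have h1 : (g ^ i)⁻¹ * n * ((g ^ i)⁻¹)⁻¹ ∈ N := L.Nn.conj_mem n hn _
    have h2 := hN _ h1
    calc (g ^ i * y₀ * (g ^ i)⁻¹) * n
        = g ^ i * (y₀ * ((g ^ i)⁻¹ * n * ((g ^ i)⁻¹)⁻¹)) * (g ^ i)⁻¹ := by group
      _ = g ^ i * (((g ^ i)⁻¹ * n * ((g ^ i)⁻¹)⁻¹) * y₀) * (g ^ i)⁻¹ := by rw [h2]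
      _ = _ := by group
  obtain ⟨x₀, hx₀, hx₀m⟩ : ∃ x₀ ∈ XX U y₀, y₀ * x₀ * y₀⁻¹ ≠ x₀ := by
    by_contra hcon
    push Not at hcon
    exact hmv (xx_not_central L hN hm hodd hcon ha₀)
  have hxi : ∀ i : ℕ, g ^ i * x₀ * (g ^ i)⁻¹ ∈ XX U (g ^ i * y₀ * (g ^ i)⁻¹) :=
    fun i => xx_conj_map L (g ^ i) hx₀
  have hcomm : ∀ i j : ℕ, i < r → j < r → i ≠ j →
      (g ^ j * x₀ * (g ^ j)⁻¹) * (g ^ i * x₀ * (g ^ i)⁻¹) =
        (g ^ i * x₀ * (g ^ i)⁻¹) * (g ^ j * x₀ * (g ^ j)⁻¹) := by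
    intro i j hi hj hij
    exact comm_xx L (hyN j) (xx_le_Q L _ (hxi i)) (hcentral i j hi hj hij _ (hxi i)) (hxi j)
  set T := telProd g x₀ with hT
  have hTcomm : ∀ k j : ℕ, k ≤ j → j < r →
      (g ^ j * x₀ * (g ^ j)⁻¹) * T k = T k * (g ^ j * x₀ * (g ^ j)⁻¹) := by
    intro k
    induction k with
    | zero =>
      intro j _ _
      simp [hT]
    | succ k ih =>
      intro j hkj hj
      rw [hT, telProd_succ, ← hT]
      have h1 := ih j (by omega) hj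
      have h2 := hcomm k j (by omega) hj (by omega)
      calc (g ^ j * x₀ * (g ^ j)⁻¹) * (T k * (g ^ k * x₀ * (g ^ k)⁻¹))
          = ((g ^ j * x₀ * (g ^ j)⁻¹) * T k) * (g ^ k * x₀ * (g ^ k)⁻¹) := by group
        _ = T k * ((g ^ j * x₀ * (g ^ j)⁻¹) * (g ^ k * x₀ * (g ^ k)⁻¹)) := by rw [h1]; group
        _ = T k * ((g ^ k * x₀ * (g ^ k)⁻¹) * (g ^ j * x₀ * (g ^ j)⁻¹)) := by rw [h2]
        _ = _ := by group
  have hTsq : ∀ k : ℕ, k ≤ r → T k * T k = telProd g (x₀ * x₀) k := by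
    intro k
    induction k with
    | zero =>
      intro _
      simp [hT]
    | succ k ih =>
      intro hk
      rw [telProd_succ, ← ih (by omega), hT, telProd_succ, ← hT]
      have h1 := hTcomm k k le_rfl (by omega)
      calc T k * (g ^ k * x₀ * (g ^ k)⁻¹) * (T k * (g ^ k * x₀ * (g ^ k)⁻¹))
          = T k * ((g ^ k * x₀ * (g ^ k)⁻¹) * T k) * (g ^ k * x₀ * (g ^ k)⁻¹) := by group
        _ = T k * (T k * (g ^ k * x₀ * (g ^ k)⁻¹)) * (g ^ k * x₀ * (g ^ k)⁻¹) := by rw [h1]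
        _ = _ := by group
  have hsqZ : x₀ * x₀ ∈ Z := xx_sq_Z L hN hm hodd hx₀
  have hT1 : T r * T r = 1 := by
    rw [hTsq r le_rfl]
    exact hZg _ hsqZ
  have hTZ : T r ∈ Z := L.invol _ hT1
  have hfix : y₀ * T r * y₀⁻¹ = T r := by
    rw [hN _ (L.ZN hTZ)]
    group
  have hrpos : 1 ≤ r := hr.pos
  have hstep : ∀ k : ℕ, 1 ≤ k → k ≤ r → y₀ * T k * y₀⁻¹ = (y₀ * x₀ * y₀⁻¹) * x₀⁻¹ * T k := by
    intro k hk
    induction k, hk using Nat.le_induction with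
    | base =>
      intro _
      simp [hT, telProd_succ]
    | succ k hk ih =>
      intro hk'
      have h1 := ih (by omega)
      rw [hT, telProd_succ, ← hT]
      have h2 := hcentral k 0 (by omega) (by omega) (by omega) _ (hxi k)
      simp only [pow_zero, one_mul, mul_one, inv_one] at h2
      calc y₀ * (T k * (g ^ k * x₀ * (g ^ k)⁻¹)) * y₀⁻¹
          = (y₀ * T k * y₀⁻¹) * (y₀ * (g ^ k * x₀ * (g ^ k)⁻¹) * y₀⁻¹) := by group
        _ = _ := by rw [h1, h2]; group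
  have h3 := hstep r hrpos le_rfl
  rw [hfix] at h3
  have h4 : (y₀ * x₀ * y₀⁻¹) * x₀⁻¹ = 1 := by
    exact right_eq_mul.mp h3
  exact hx₀m (mul_inv_eq_one.mp h4)

end Cfsg.Agent.Lib.OneClassX
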