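import Mathlib
import Cfsg.Agent.Lib.OneClassX
import Cfsg.Agent.Lib.BrolineGT

/-!
Configuration lemmas for the theorem on solvable groups with one class of involutions.
-/

set_option autoImplicit false

namespace Cfsg.Agent.Lib.OneClassY

open Cfsg.Agent.Lib.OneClassX

variable {H : Type*} [Group H]

/-- The base data: `Q` a normal 2-subgroup, all involutions in `Z`, central in `Q`. -/
structure Base (Q Z : Subgroup H) : Prop where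
  Qn : Q.Normal
  Zn : Z.Normal
  ZQ : Z ≤ Q
  Q2 : IsPGroup 2 Q
  invol : ∀ x : H, x * x = 1 → x ∈ Z
  Zc : ∀ z ∈ Z, ∀ q ∈ Q, z * q = q * z
  Zsq : ∀ z ∈ Z, z * z = 1

theorem exists_invol_pow {x : H} {k : ℕ} (hx : x ^ (2 ^ k) = 1) (hne : x ≠ 1) :
    ∃ j : ℕ, (x ^ j) * (x ^ j) = 1 ∧ x ^ j ≠ 1 := by
  classical
  have hex : ∃ n, x ^ (2 ^ n) = 1 := ⟨k, hx⟩
  have hs := Nat.find_spec hex
  have hm := fun j (hj : j < Nat.find hex) => Nat.find_min hex hj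
  rcases hn : Nat.find hex with _ | n
  · rw [hn] at hs
    simp at hs
    exact absurd hs hne
  · rw [hn] at hs hm
    refine ⟨2 ^ n, ?_, hm n (Nat.lt_succ_self n)⟩
    rw [← pow_add, ← two_mul, ← pow_succ']
    exact hs

/-- Lifting `Ω₁(Z(Q/N))`. -/
def UU (Q N : Subgroup H) (hNn : ∀ q ∈ Q, ∀ n ∈ N, q * n * q⁻¹ ∈ N) : Subgroup H where
  carrier := {u | u ∈ Q ∧ u * u ∈ N ∧ ∀ q ∈ Q, u⁻¹ * q * u * q⁻¹ ∈ N}
  one_mem' := by
    refine ⟨Q.one_mem, by simpa using N.one_mem, fun q _ => by simpa using N.one_mem⟩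
  mul_mem' := by
    rintro u v ⟨hu, huu, huc⟩ ⟨hv, hvv, hvc⟩
    refine ⟨Q.mul_mem hu hv, ?_, ?_⟩
    · have e : (u * v) * (u * v) = (u * u) * (u⁻¹ * v * u * v⁻¹) * (v * v) := by group
      rw [e]
      exact N.mul_mem (N.mul_mem huu (huc v hv)) hvv
    · intro q hq
      have e : (u * v)⁻¹ * q * (u * v) * q⁻¹ =
          (v⁻¹ * (u⁻¹ * q * u * q⁻¹) * v⁻¹⁻¹) * (v⁻¹ * q * v * q⁻¹) := by group
      rw [e]
      exact N.mul_mem (hNn _ (Q.inv_mem hv) _ (huc q hq)) (hvc q hq)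
  inv_mem' := by
    rintro u ⟨hu, huu, huc⟩
    refine ⟨Q.inv_mem hu, ?_, ?_⟩
    · have e : u⁻¹ * u⁻¹ = (u * u)⁻¹ := by group
      rw [e]
      exact N.inv_mem huu
    · intro q hq
      have h1 := huc q⁻¹ (Q.inv_mem hq)
      have h2 := hNn q hq _ h1
      have h3 := hNn u hu _ h2
      have e : u⁻¹⁻¹ * q * u⁻¹ * q⁻¹ =
          u * (q * (u⁻¹ * q⁻¹ * u * q⁻¹⁻¹) * q⁻¹) * u⁻¹ := by group
      rw [e]
      exact h3

theorem mem_UU {Q N : Subgroup H} {hNn : ∀ q ∈ Q, ∀ n ∈ N, q * n * q⁻¹ ∈ N} {u : H} :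
    u ∈ UU Q N hNn ↔ u ∈ Q ∧ u * u ∈ N ∧ ∀ q ∈ Q, u⁻¹ * q * u * q⁻¹ ∈ N := Iff.rfl

theorem le_UU {Q N : Subgroup H} (hNn : ∀ q ∈ Q, ∀ n ∈ N, q * n * q⁻¹ ∈ N) (hNQ : N ≤ Q) :
    N ≤ UU Q N hNn := by
  intro n hn
  refine ⟨hNQ hn, N.mul_mem hn hn, fun q hq => ?_⟩
  have e : n⁻¹ * q * n * q⁻¹ = n⁻¹ * (q * n * q⁻¹) := by group
  rw [e]
  exact N.mul_mem (N.inv_mem hn) (hNn q hq n hn)

theorem exists_mem_UU [Finite H] {Q N : Subgroup H} (hNn : ∀ q ∈ Q, ∀ n ∈ N, q * n * q⁻¹ ∈ N)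
    (hNQ : N ≤ Q) (hne : N ≠ Q) (hQ2 : IsPGroup 2 Q) :
    ∃ u ∈ UU Q N hNn, u ∉ N := by
  classical
  let N' : Subgroup Q := N.subgroupOf Q
  haveI hN' : N'.Normal := ⟨by
    intro n hn g
    show ((g * n * g⁻¹ : Q) : H) ∈ N
    exact hNn g g.2 n hn⟩
  have hp : IsPGroup 2 (Q ⧸ N') := hQ2.to_quotient N'
  haveI : Fact (Nat.Prime 2) := ⟨Nat.prime_two⟩
  have hneT : N' ≠ ⊤ := by
    intro h
    apply hne
    apply le_antisymm hNQ
    intro q hq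
    have : (⟨q, hq⟩ : Q) ∈ N' := by rw [h]; trivial
    exact this
  haveI : Nontrivial (Q ⧸ N') := QuotientGroup.nontrivial_iff.mpr hneT
  have hz := hp.center_nontrivial
  obtain ⟨x, hx⟩ := exists_ne (1 : Subgroup.center (Q ⧸ N'))
  obtain ⟨k, hk⟩ := hp.to_subgroup (Subgroup.center (Q ⧸ N')) x
  obtain ⟨j, hj1, hj2⟩ := exists_invol_pow hk hx
  obtain ⟨u, hu⟩ := QuotientGroup.mk'_surjective N' ((x ^ j : Subgroup.center (Q ⧸ N')) : Q ⧸ N')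
  have hune : ((x ^ j : Subgroup.center (Q ⧸ N')) : Q ⧸ N') ≠ 1 := by
    intro h
    exact hj2 (Subtype.ext h)
  have hmul : ((u * u : Q) : Q ⧸ N') = 1 := by
    have h1 : (((x ^ j) * (x ^ j) : Subgroup.center (Q ⧸ N')) : Q ⧸ N') = 1 := by rw [hj1]; rfl
    have h2 : ((u * u : Q) : Q ⧸ N') = QuotientGroup.mk' N' u * QuotientGroup.mk' N' u := rfl
    rw [h2, hu]
    exact h1
  have hcen : ∀ q : Q, (((u⁻¹ * q * u * q⁻¹ : Q)) : Q ⧸ N') = 1 := by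
    intro q
    have h2 : (((u⁻¹ * q * u * q⁻¹ : Q)) : Q ⧸ N') =
        (QuotientGroup.mk' N' u)⁻¹ * QuotientGroup.mk' N' q * QuotientGroup.mk' N' u *
          (QuotientGroup.mk' N' q)⁻¹ := rfl
    rw [h2, hu]
    have h3 := Subgroup.mem_center_iff.mp (x ^ j : Subgroup.center (Q ⧸ N')).2 (QuotientGroup.mk' N' q)
    calc (((x ^ j : Subgroup.center (Q ⧸ N')) : Q ⧸ N'))⁻¹ * QuotientGroup.mk' N' q *
          ((x ^ j : Subgroup.center (Q ⧸ N')) : Q ⧸ N') * (QuotientGroup.mk' N' q)⁻¹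
        = (((x ^ j : Subgroup.center (Q ⧸ N')) : Q ⧸ N'))⁻¹ * (QuotientGroup.mk' N' q *
          ((x ^ j : Subgroup.center (Q ⧸ N')) : Q ⧸ N')) * (QuotientGroup.mk' N' q)⁻¹ := by group
      _ = (((x ^ j : Subgroup.center (Q ⧸ N')) : Q ⧸ N'))⁻¹ * (((x ^ j : Subgroup.center (Q ⧸ N')) : Q ⧸ N') *
          QuotientGroup.mk' N' q) * (QuotientGroup.mk' N' q)⁻¹ := by rw [h3]
      _ = 1 := by group
  refine ⟨u.1, ⟨u.2, ?_, ?_⟩, ?_⟩
  · have h5 : u * u ∈ N' := (QuotientGroup.eq_one_iff (u * u)).mp hmul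
    exact h5
  · intro q hq
    have h5 : u⁻¹ * ⟨q, hq⟩ * u * ⟨q, hq⟩⁻¹ ∈ N' := (QuotientGroup.eq_one_iff _).mp (hcen ⟨q, hq⟩)
    exact h5
  · intro hu'
    apply hune
    rw [← hu]
    exact (QuotientGroup.eq_one_iff u).mpr hu'

/-- Existence of a level on which `y` acts non-trivially. -/
theorem exists_level [Finite H] {Q Z : Subgroup H} (B : Base Q Z) {y : H}
    (hyZ : ∀ z ∈ Z, y * z = z * y) (hmv : ∃ q ∈ Q, y * q * y⁻¹ ≠ q) :
    ∃ N U : Subgroup H, Lvl Q Z N U ∧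
      (∀ h : H, ∀ n ∈ N, (h * y * h⁻¹) * n = n * (h * y * h⁻¹)) ∧
      ∃ a ∈ U, y * a * y⁻¹ ≠ a := by
  haveI := B.Qn
  haveI := B.Zn
  let N : Subgroup H := Q ⊓ Subgroup.centralizer (Set.range fun h : H => h * y * h⁻¹)
  have hNmem : ∀ {n : H}, n ∈ N ↔ n ∈ Q ∧ ∀ h : H, (h * y * h⁻¹) * n = n * (h * y * h⁻¹) := by
    intro n
    constructor
    · rintro ⟨h1, h2⟩
      refine ⟨h1, fun h => ?_⟩
      exact Subgroup.mem_centralizer_iff.mp h2 _ ⟨h, rfl⟩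
    · rintro ⟨h1, h2⟩
      refine ⟨h1, Subgroup.mem_centralizer_iff.mpr ?_⟩
      rintro _ ⟨h, rfl⟩
      exact h2 h
  have hNn : N.Normal := ⟨by
    intro n hn g
    obtain ⟨h1, h2⟩ := hNmem.mp hn
    refine hNmem.mpr ⟨B.Qn.conj_mem n h1 g, fun h => ?_⟩
    have h3 := h2 (g⁻¹ * h)
    have e1 : (g⁻¹ * h) * y * (g⁻¹ * h)⁻¹ = g⁻¹ * (h * y * h⁻¹) * g := by group
    rw [e1] at h3
    calc (h * y * h⁻¹) * (g * n * g⁻¹) = g * ((g⁻¹ * (h * y * h⁻¹) * g) * n) * g⁻¹ := by group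
      _ = g * (n * (g⁻¹ * (h * y * h⁻¹) * g)) * g⁻¹ := by rw [h3]
      _ = _ := by group⟩
  have hNQ : N ≤ Q := inf_le_left
  have hZN : Z ≤ N := by
    intro z hz
    refine hNmem.mpr ⟨B.ZQ hz, fun h => ?_⟩
    have h1 : h⁻¹ * z * h⁻¹⁻¹ ∈ Z := B.Zn.conj_mem z hz h⁻¹
    have h2 := hyZ _ h1
    calc (h * y * h⁻¹) * z = h * (y * (h⁻¹ * z * h⁻¹⁻¹)) * h⁻¹ := by group
      _ = h * ((h⁻¹ * z * h⁻¹⁻¹) * y) * h⁻¹ := by rw [h2]
      _ = _ := by group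
  obtain ⟨q, hq, hqm⟩ := hmv
  have hqN : q ∉ N := by
    intro h
    have := (hNmem.mp h).2 1
    apply hqm
    simp only [one_mul, inv_one, mul_one] at this
    rw [this]
    group
  have hNne : N ≠ Q := by
    intro h
    apply hqN
    rw [h]
    exact hq
  have hNn' : ∀ q ∈ Q, ∀ n ∈ N, q * n * q⁻¹ ∈ N := fun q _ n hn => hNn.conj_mem n hn q
  let U := UU Q N hNn'
  have hUn : U.Normal := ⟨by
    rintro u ⟨h1, h2, h3⟩ g
    refine ⟨B.Qn.conj_mem u h1 g, ?_, ?_⟩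
    · have e : (g * u * g⁻¹) * (g * u * g⁻¹) = g * (u * u) * g⁻¹ := by group
      rw [e]
      exact hNn.conj_mem _ h2 g
    · intro q hq
      have h4 : g⁻¹ * q * g⁻¹⁻¹ ∈ Q := B.Qn.conj_mem q hq g⁻¹
      have h5 := hNn.conj_mem _ (h3 _ h4) g
      have e : (g * u * g⁻¹)⁻¹ * q * (g * u * g⁻¹) * q⁻¹ =
          g * (u⁻¹ * (g⁻¹ * q * g⁻¹⁻¹) * u * (g⁻¹ * q * g⁻¹⁻¹)⁻¹) * g⁻¹ := by group
      rw [e]
      exact h5⟩
  obtain ⟨u, huU, huN⟩ := exists_mem_UU hNn' hNQ hNne B.Q2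
  refine ⟨N, U, ?_, fun h n hn => (hNmem.mp hn).2 h, ?_⟩
  · refine ⟨hNn, hUn, B.Zn, hZN, fun u hu => hu.1, hNQ, fun u hu => hu.2.1, fun u hu => hu.2.2, ?_,
      B.invol, B.Zc, B.Zsq⟩
    intro q hq
    obtain ⟨k, hk⟩ := B.Q2 ⟨q, hq⟩
    exact ⟨k, congrArg Subtype.val hk⟩
  · by_contra hcon
    push Not at hcon
    apply huN
    refine hNmem.mpr ⟨huU.1, fun h => ?_⟩
    have h1 : h⁻¹ * u * h⁻¹⁻¹ ∈ U := hUn.conj_mem u huU h⁻¹
    have h2 := hcon _ h1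
    have h3 : y * (h⁻¹ * u * h⁻¹⁻¹) = (h⁻¹ * u * h⁻¹⁻¹) * y := mul_inv_eq_iff_eq_mul.mp h2
    calc (h * y * h⁻¹) * u = h * (y * (h⁻¹ * u * h⁻¹⁻¹)) * h⁻¹ := by group
      _ = h * ((h⁻¹ * u * h⁻¹⁻¹) * y) * h⁻¹ := by rw [h3]
      _ = _ := by group

theorem telProd_Z {Q Z : Subgroup H} (B : Base Q Z) {g : H} {r : ℕ}
    (hr : ∀ z ∈ Z, g ^ r * z = z * g ^ r) (hfree : ∀ z ∈ Z, g * z = z * g → z = 1) :
    ∀ z ∈ Z, telProd g z r = 1 := by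
  intro z hz
  have hZcomm : ∀ a ∈ Z, ∀ b ∈ Z, a * b = b * a := fun a ha b hb => B.Zc a ha b (B.ZQ hb)
  have hconj : ∀ j : ℕ, g ^ j * z * (g ^ j)⁻¹ ∈ Z := fun j => B.Zn.conj_mem z hz _
  have hT : ∀ k : ℕ, telProd g z k ∈ Z := by
    intro k
    induction k with
    | zero => exact Z.one_mem
    | succ k ih =>
      rw [telProd_succ]
      exact Z.mul_mem ih (hconj k)
  have hstep : ∀ k : ℕ, g * telProd g z k * g⁻¹ * z = telProd g z k * (g ^ k * z * (g ^ k)⁻¹) := by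
    intro k
    induction k with
    | zero => simp
    | succ k ih =>
      have e1 : g * telProd g z (k + 1) * g⁻¹ =
          (g * telProd g z k * g⁻¹) * (g ^ (k + 1) * z * (g ^ (k + 1))⁻¹) := by
        rw [telProd_succ, pow_succ']
        group
      rw [e1, telProd_succ]
      have h1 := hZcomm _ (hconj (k + 1)) _ hz
      calc g * telProd g z k * g⁻¹ * (g ^ (k + 1) * z * (g ^ (k + 1))⁻¹) * z
          = g * telProd g z k * g⁻¹ * ((g ^ (k + 1) * z * (g ^ (k + 1))⁻¹) * z) := by group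
        _ = g * telProd g z k * g⁻¹ * (z * (g ^ (k + 1) * z * (g ^ (k + 1))⁻¹)) := by rw [h1]
        _ = (g * telProd g z k * g⁻¹ * z) * (g ^ (k + 1) * z * (g ^ (k + 1))⁻¹) := by group
        _ = _ := by rw [ih]
  have h1 := hstep r
  have h2 : g ^ r * z * (g ^ r)⁻¹ = z := by
    rw [hr z hz]
    group
  rw [h2] at h1
  have h3 : g * telProd g z r * g⁻¹ = telProd g z r := mul_right_cancel h1
  apply hfree _ (hT r)
  calc g * telProd g z r = (g * telProd g z r * g⁻¹) * g := by group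
    _ = _ := by rw [h3]

/-- A fixed point in a coset of a 2-group under an element of odd prime power order. -/
theorem coset_fixed [Finite H] {r n a : ℕ} [hrp : Fact r.Prime] (hr : r ≠ 2) {K : Subgroup H}
    (hK : Nat.card K = 2 ^ a) {t₀ g : H} (hg : g ^ (r ^ n) = 1)
    (hinv : ∀ k ∈ K, t₀⁻¹ * (g * (t₀ * k) * g⁻¹) ∈ K) :
    ∃ k ∈ K, g * (t₀ * k) * g⁻¹ = t₀ * k := by
  classical
  haveI : Fintype K := Fintype.ofFinite K
  let f : Function.End K := fun k => ⟨t₀⁻¹ * (g * (t₀ * k) * g⁻¹), hinv k k.2⟩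
  have hpow : ∀ (j : ℕ) (k : K), (((f ^ j) k : K) : H) = t₀⁻¹ * (g ^ j * (t₀ * k) * (g ^ j)⁻¹) := by
    intro j
    induction j with
    | zero =>
      intro k
      show ((k : K) : H) = _
      simp
    | succ j ih =>
      intro k
      rw [pow_succ']
      show ((f ((f ^ j) k) : K) : H) = _
      show t₀⁻¹ * (g * (t₀ * (((f ^ j) k : K) : H)) * g⁻¹) = _
      rw [ih, pow_succ']
      group
  have hfp : f ^ (r ^ n) = 1 := by
    funext k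
    apply Subtype.ext
    rw [hpow, hg]
    have h1 : ((1 : Function.End K) k) = k := rfl
    rw [h1]
    simp
  have hmod := Equiv.Perm.card_fixedPoints_modEq (α := K) hfp
  by_contra hcon
  push Not at hcon
  have hemp : IsEmpty (Function.fixedPoints f) := by
    constructor
    rintro ⟨k, hk⟩
    apply hcon k.1 k.2
    have h1 : f k = k := hk
    have h2 : t₀⁻¹ * (g * (t₀ * k) * g⁻¹) = k := congrArg Subtype.val h1
    exact inv_mul_eq_iff_eq_mul.mp h2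
  have h0 : Fintype.card (Function.fixedPoints f) = 0 := Fintype.card_eq_zero
  rw [h0] at hmod
  have h1 : r ∣ Fintype.card K := (Nat.modEq_zero_iff_dvd).mp hmod
  rw [← Nat.card_eq_fintype_card, hK] at h1
  have h2 := hrp.out.dvd_of_dvd_pow h1
  exact hr ((Nat.prime_dvd_prime_iff_eq hrp.out Nat.prime_two).mp h2)

/-- An eigenvector for a commuting action of exponent 2 on an abelian group. -/
theorem exists_eigen [Finite H] {Y D : Subgroup H} (hYc : ∀ a ∈ Y, ∀ b ∈ Y, a * b = b * a)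
    (hDY : ∀ t ∈ D, ∀ y ∈ Y, t * y * t⁻¹ ∈ Y)
    (hcomm : ∀ s ∈ D, ∀ t ∈ D, ∀ y ∈ Y, (s * t) * y * (s * t)⁻¹ = (t * s) * y * (t * s)⁻¹)
    (hsq : ∀ t ∈ D, ∀ y ∈ Y, (t * t) * y * (t * t)⁻¹ = y)
    (hne : ∃ t ∈ D, ∃ y ∈ Y, t * y * t⁻¹ ≠ y) :
    ∃ y ∈ Y, y ≠ 1 ∧ (∀ t ∈ D, t * y * t⁻¹ = y ∨ t * y * t⁻¹ = y⁻¹) ∧
      ∃ t₀ ∈ D, t₀ * y * t₀⁻¹ = y⁻¹ := by
  classical
  let C : Set H := {y | y ∈ Y ∧ y ≠ 1 ∧ ∃ t₀ ∈ D, t₀ * y * t₀⁻¹ = y⁻¹}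
  let St : H → Set H := fun y => {t | t ∈ D ∧ (t * y * t⁻¹ = y ∨ t * y * t⁻¹ = y⁻¹)}
  have hCne : C.Nonempty := by
    obtain ⟨t, ht, y, hy, hty⟩ := hne
    have h1 : t * y * t⁻¹ ∈ Y := hDY t ht y hy
    refine ⟨y⁻¹ * (t * y * t⁻¹), Y.mul_mem (Y.inv_mem hy) h1, ?_, t, ht, ?_⟩
    · intro h
      apply hty
      rw [inv_mul_eq_one] at h
      exact h.symm
    · have h2 := hsq t ht y hy
      have h3 : t * (y⁻¹ * (t * y * t⁻¹)) * t⁻¹ = (t * y * t⁻¹)⁻¹ * y := by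
        calc t * (y⁻¹ * (t * y * t⁻¹)) * t⁻¹ = (t * y * t⁻¹)⁻¹ * ((t * t) * y * (t * t)⁻¹) := by group
          _ = _ := by rw [h2]
      rw [h3]
      group
  obtain ⟨y, hy, hmax⟩ := Set.exists_max_image C (fun y => (St y).ncard) (Set.toFinite C) hCne
  obtain ⟨hyY, hy1, t₀, ht₀, ht₀y⟩ := hy
  refine ⟨y, hyY, hy1, ?_, t₀, ht₀, ht₀y⟩
  by_contra hcon
  push Not at hcon
  obtain ⟨e, he, he1, he2⟩ := hcon
  have hy' : e * y * e⁻¹ ∈ Y := hDY e he y hyY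
  set y' := e * y * e⁻¹ with hy'def
  set yp := y * y' with hyp
  have hypY : yp ∈ Y := Y.mul_mem hyY hy'
  have hyp1 : yp ≠ 1 := by
    intro h
    apply he2
    exact eq_inv_of_mul_eq_one_right h
  have hconj_t : ∀ t ∈ D, t * y' * t⁻¹ = e * (t * y * t⁻¹) * e⁻¹ := by
    intro t ht
    have h1 := hcomm t ht e he y hyY
    calc t * y' * t⁻¹ = (t * e) * y * (t * e)⁻¹ := by rw [hy'def]; group
      _ = (e * t) * y * (e * t)⁻¹ := h1
      _ = _ := by group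
  have hfixs : ∀ t ∈ D, t * y * t⁻¹ = y → t * yp * t⁻¹ = yp := by
    intro t ht h
    have h1 := hconj_t t ht
    rw [h] at h1
    calc t * yp * t⁻¹ = (t * y * t⁻¹) * (t * y' * t⁻¹) := by rw [hyp]; group
      _ = _ := by rw [h, h1]
  have hinvs : ∀ t ∈ D, t * y * t⁻¹ = y⁻¹ → t * yp * t⁻¹ = yp⁻¹ := by
    intro t ht h
    have h1 := hconj_t t ht
    rw [h] at h1
    have h2 : e * y⁻¹ * e⁻¹ = y'⁻¹ := by rw [hy'def]; group
    rw [h2] at h1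
    calc t * yp * t⁻¹ = (t * y * t⁻¹) * (t * y' * t⁻¹) := by rw [hyp]; group
      _ = y⁻¹ * y'⁻¹ := by rw [h, h1]
      _ = (y' * y)⁻¹ := by group
      _ = yp⁻¹ := by rw [hyp, hYc _ hy' _ hyY]
  have hypC : yp ∈ C := ⟨hypY, hyp1, t₀, ht₀, hinvs t₀ ht₀ ht₀y⟩
  have hsub : St y ⊂ St yp := by
    constructor
    · rintro t ⟨ht, h | h⟩
      · exact ⟨ht, Or.inl (hfixs t ht h)⟩
      · exact ⟨ht, Or.inr (hinvs t ht h)⟩
    · intro hsub2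
      have hee : e ∈ St yp := by
        refine ⟨he, Or.inl ?_⟩
        have h2 := hsq e he y hyY
        calc e * yp * e⁻¹ = (e * y * e⁻¹) * (e * y' * e⁻¹) := by rw [hyp]; group
          _ = y' * y := by
            congr 1
            rw [hy'def]
            calc e * (e * y * e⁻¹) * e⁻¹ = (e * e) * y * (e * e)⁻¹ := by group
              _ = y := h2
          _ = yp := by rw [hyp, hYc _ hy' _ hyY]
      obtain ⟨_, h | h⟩ := hsub2 hee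
      · exact he1 h
      · exact he2 h
  have h3 := Set.ncard_lt_ncard hsub (Set.toFinite _)
  have h4 := hmax yp hypC
  exact absurd h3 (not_lt.mpr h4)

theorem mem_normalizer_of_conj' [Finite H] {E : Subgroup H} {g : H}
    (h : ∀ a ∈ E, g * a * g⁻¹ ∈ E) : g ∈ Subgroup.normalizer (E : Set H) := by
  have hinj : Function.Injective (fun a : E => (⟨g * a.1 * g⁻¹, h a.1 a.2⟩ : E)) := by
    intro a b hab
    have h1 : g * a.1 * g⁻¹ = g * b.1 * g⁻¹ := congrArg Subtype.val hab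
    apply Subtype.ext
    exact mul_left_cancel (mul_right_cancel h1)
  have hsurj := Finite.injective_iff_surjective.mp hinj
  rw [Subgroup.mem_normalizer_iff]
  intro x
  refine ⟨h x, fun hx => ?_⟩
  obtain ⟨a, ha⟩ := hsurj ⟨g * x * g⁻¹, hx⟩
  have h1 : g * a.1 * g⁻¹ = g * x * g⁻¹ := congrArg Subtype.val ha
  have h2 : a.1 = x := mul_left_cancel (mul_right_cancel h1)
  rw [← h2]
  exact a.2

/-- A 2-element acting trivially on the centre of an `s`-group acts trivially on it. -/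
theorem central_action [Finite H] {Q Z : Subgroup H} (B : Base Q Z) {s : ℕ} [hsp : Fact s.Prime]
    (hs : s ≠ 2) {S : Subgroup H} (hSp : IsPGroup s S)
    (hSZ : ∀ c ∈ S, ∀ z ∈ Z, c * z = z * c)
    (hSm : ∀ c ∈ S, c ≠ 1 → ∃ q ∈ Q, c * q * c⁻¹ ≠ q)
    {d : H} {n : ℕ} (hd2 : d ^ (2 ^ n) = 1) (hdZ : ∀ z ∈ Z, d * z = z * d)
    (hdS : ∀ c ∈ S, d * c * d⁻¹ ∈ S)
    (hcen : ∀ z ∈ S, (∀ c ∈ S, z * c = c * z) → d * z * d⁻¹ = z) :
    ∀ c ∈ S, d * c * d⁻¹ = c := by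
  classical
  by_contra hcon
  push Not at hcon
  obtain ⟨c₀, hc₀, hmv⟩ := hcon
  let G₀ : Set S := {c' | ∃ c : S, (c' : H) = (c : H)⁻¹ * (d * c * d⁻¹)}
  let K : Subgroup S := Subgroup.normalClosure G₀
  haveI hKn : K.Normal := inferInstance
  have hgen : ∀ c : S, (⟨(c : H)⁻¹ * (d * c * d⁻¹), S.mul_mem (S.inv_mem c.2) (hdS c c.2)⟩ : S) ∈ K := by
    intro c
    exact Subgroup.subset_normalClosure ⟨c, rfl⟩
  have hKne : K ≠ ⊥ := by
    intro h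
    have h1 := hgen ⟨c₀, hc₀⟩
    rw [h, Subgroup.mem_bot] at h1
    have h2 : c₀⁻¹ * (d * c₀ * d⁻¹) = 1 := congrArg Subtype.val h1
    rw [inv_mul_eq_one] at h2
    exact hmv h2.symm
  haveI : Group.IsNilpotent S := hSp.isNilpotent
  have h1 := Cfsg.Agent.Lib.BrolineGT.inf_center_ne_bot K hKne
  obtain ⟨z, hzmem, hz1⟩ := Cfsg.Agent.Lib.BrolineGT.exists_mem_ne_one h1
  have hzK : z ∈ K := hzmem.1
  have hzc : ∀ c ∈ S, (z : H) * c = c * z := by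
    intro c hc
    have := Subgroup.mem_center_iff.mp hzmem.2 ⟨c, hc⟩
    exact (congrArg Subtype.val this).symm
  have hdz : d * (z : H) * d⁻¹ = z := hcen z z.2 hzc
  have hz1' : (z : H) ≠ 1 := fun h => hz1 (Subtype.ext h)
  obtain ⟨q, hq, hqm⟩ := hSm z z.2 hz1'
  obtain ⟨N, U, L, hN, a, ha, ham⟩ := exists_level B (hSZ z z.2) ⟨q, hq, hqm⟩
  obtain ⟨k, hk⟩ := hSp z
  have hzm : (z : H) ^ (s ^ k) = 1 := congrArg Subtype.val hk
  have hoddm : Odd (s ^ k) := (hsp.out.odd_of_ne_two hs).pow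
  have hzN : ∀ n ∈ N, (z : H) * n = n * z := by
    intro n hn
    have := hN 1 n hn
    simpa using this
  have hdzc : d * (z : H) = z * d := mul_inv_eq_iff_eq_mul.mp hdz
  have hdc : ∀ x ∈ XX U (z : H), d * x * d⁻¹ = x := two_central L hzN hzm hoddm n hd2 hdzc hdZ
  have hconjX : ∀ c : S, ∀ x ∈ XX U (z : H), (c : H) * x * (c : H)⁻¹ ∈ XX U (z : H) := by
    intro c x hx
    exact xx_conj L (hzc c c.2).symm hx
  let K' : Subgroup S := (Subgroup.centralizer ((XX U (z : H)) : Set H)).subgroupOf S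
  have hK'mem : ∀ c : S, c ∈ K' ↔ ∀ x ∈ XX U (z : H), x * (c : H) = c * x := by
    intro c
    show (c : H) ∈ Subgroup.centralizer ((XX U (z : H)) : Set H) ↔ _
    rw [Subgroup.mem_centralizer_iff]
    rfl
  haveI hK'n : K'.Normal := ⟨by
    intro c' hc' c
    rw [hK'mem] at hc' ⊢
    intro x hx
    have h2 := hconjX c⁻¹ x hx
    have h3 := hc' _ h2
    simp only [Subgroup.coe_inv, inv_inv] at h3
    push_cast
    calc x * ((c : H) * (c' : H) * (c : H)⁻¹)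
        = (c : H) * ((c : H)⁻¹ * x * (c : H) * (c' : H)) * (c : H)⁻¹ := by group
      _ = (c : H) * ((c' : H) * ((c : H)⁻¹ * x * (c : H))) * (c : H)⁻¹ := by rw [h3]
      _ = _ := by group⟩
  have hKle : K ≤ K' := by
    apply Subgroup.normalClosure_le_normal
    rintro c' ⟨c, hc⟩
    show c' ∈ K'
    rw [hK'mem, hc]
    intro x hx
    have h2 := hconjX c x hx
    have h3 := hdc _ h2
    have h4 := hdc x hx
    have h5 : (d * (c : H) * d⁻¹) * x * (d * (c : H) * d⁻¹)⁻¹ = (c : H) * x * (c : H)⁻¹ := by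
      calc (d * (c : H) * d⁻¹) * x * (d * (c : H) * d⁻¹)⁻¹
          = (d * (c : H) * d⁻¹) * (d * x * d⁻¹) * (d * (c : H) * d⁻¹)⁻¹ := by rw [h4]
        _ = d * ((c : H) * x * (c : H)⁻¹) * d⁻¹ := by group
        _ = _ := h3
    have h6 : (d * (c : H) * d⁻¹) * x = ((c : H) * x * (c : H)⁻¹) * (d * (c : H) * d⁻¹) :=
      mul_inv_eq_iff_eq_mul.mp h5
    calc x * ((c : H)⁻¹ * (d * c * d⁻¹)) = (c : H)⁻¹ * ((c : H) * x * (c : H)⁻¹) * (d * c * d⁻¹) := by group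
      _ = (c : H)⁻¹ * (((c : H) * x * (c : H)⁻¹) * (d * c * d⁻¹)) := by group
      _ = (c : H)⁻¹ * ((d * (c : H) * d⁻¹) * x) := by rw [h6]
      _ = _ := by group
  have hzK' := (hK'mem z).mp (hKle hzK)
  apply ham
  refine xx_not_central L hzN hzm hoddm ?_ ha
  intro x hx
  rw [← hzK' x hx]
  group

/-- The central configuration is impossible. -/
theorem no_config [Finite H] {Q Z : Subgroup H} (B : Base Q Z) {s r : ℕ} [hsp : Fact s.Prime]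
    [hrp : Fact r.Prime] (hs : s ≠ 2) (hr : r ≠ 2)
    {S D : Subgroup H} (hSp : IsPGroup s S) (hD2 : IsPGroup 2 D)
    (hSZ : ∀ c ∈ S, ∀ z ∈ Z, c * z = z * c)
    (hSm : ∀ c ∈ S, c ≠ 1 → ∃ q ∈ Q, c * q * c⁻¹ ≠ q)
    (hDZ : ∀ d ∈ D, ∀ z ∈ Z, d * z = z * d)
    (hDS : ∀ d ∈ D, d ∈ Subgroup.normalizer (S : Set H))
    (hne : ∃ d ∈ D, ∃ c ∈ S, d * c * d⁻¹ ≠ c)
    {g : H} {a : ℕ} (hg : g ^ (r ^ a) = 1)
    (hgS : g ∈ Subgroup.normalizer (S : Set H)) (hgD : g ∈ Subgroup.normalizer (D : Set H))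
    (hgr : ∀ z ∈ Z, g ^ r * z = z * g ^ r)
    (hfree : ∀ z ∈ Z, g * z = z * g → z = 1) : False := by
  classical
  haveI : Fact (Nat.Prime 2) := ⟨Nat.prime_two⟩
  have hrodd : Odd r := hrp.out.odd_of_ne_two hr
  have hsodd : Odd s := hsp.out.odd_of_ne_two hs
  -- no fixed points on `D`
  have hDfree : ∀ t ∈ D, g * t * g⁻¹ = t → t = 1 := by
    intro t ht hgt
    by_contra ht1
    obtain ⟨k, hk⟩ := hD2 ⟨t, ht⟩
    have hk' : t ^ (2 ^ k) = 1 := congrArg Subtype.val hk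
    obtain ⟨j, hj1, hj2⟩ := exists_invol_pow hk' ht1
    have hcomm : Commute g t := mul_inv_eq_iff_eq_mul.mp hgt
    exact hj2 (hfree _ (B.invol _ hj1) (hcomm.pow_right j))
  -- the centre of `S`
  let Y : Subgroup H := S ⊓ Subgroup.centralizer (S : Set H)
  have hYmem : ∀ {y : H}, y ∈ Y ↔ y ∈ S ∧ ∀ c ∈ S, c * y = y * c := by
    intro y
    constructor
    · rintro ⟨h1, h2⟩
      exact ⟨h1, fun c hc => Subgroup.mem_centralizer_iff.mp h2 c hc⟩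
    · rintro ⟨h1, h2⟩
      exact ⟨h1, Subgroup.mem_centralizer_iff.mpr h2⟩
  have hYc : ∀ a ∈ Y, ∀ b ∈ Y, a * b = b * a := by
    intro a ha b hb
    exact ((hYmem.mp hb).2 a (hYmem.mp ha).1)
  have hYconj : ∀ h ∈ Subgroup.normalizer (S : Set H), ∀ y ∈ Y, h * y * h⁻¹ ∈ Y := by
    intro h hh y hy
    obtain ⟨h1, h2⟩ := hYmem.mp hy
    refine hYmem.mpr ⟨(Subgroup.mem_normalizer_iff.mp hh y).mp h1, fun c hc => ?_⟩
    have h3 : h⁻¹ * c * h⁻¹⁻¹ ∈ S :=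
      (Subgroup.mem_normalizer_iff.mp (Subgroup.inv_mem _ hh) c).mp hc
    have h4 := h2 _ h3
    calc c * (h * y * h⁻¹) = h * ((h⁻¹ * c * h⁻¹⁻¹) * y) * h⁻¹ := by group
      _ = h * (y * (h⁻¹ * c * h⁻¹⁻¹)) * h⁻¹ := by rw [h4]
      _ = _ := by group
  -- `D₀` and `D₁`
  let D₀ : Subgroup H := D ⊓ Subgroup.centralizer (Y : Set H)
  have hD₀mem : ∀ {d : H}, d ∈ D₀ ↔ d ∈ D ∧ ∀ y ∈ Y, d * y * d⁻¹ = y := by
    intro d
    constructor
    · rintro ⟨h1, h2⟩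
      refine ⟨h1, fun y hy => ?_⟩
      have := Subgroup.mem_centralizer_iff.mp h2 y hy
      rw [← this]
      group
    · rintro ⟨h1, h2⟩
      refine ⟨h1, Subgroup.mem_centralizer_iff.mpr fun y hy => ?_⟩
      exact (mul_inv_eq_iff_eq_mul.mp (h2 y hy)).symm
  let NN : Subgroup H := Subgroup.normalizer (D : Set H) ⊓ Subgroup.normalizer (S : Set H)
  have hgNN : g ∈ NN := ⟨hgD, hgS⟩
  have hDNN : D ≤ NN := by
    intro d hd
    refine ⟨?_, hDS d hd⟩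
    show d ∈ Subgroup.normalizer (D : Set H)
    rw [Subgroup.mem_normalizer_iff]
    intro x
    constructor
    · intro hx
      exact D.mul_mem (D.mul_mem hd hx) (D.inv_mem hd)
    · intro hx
      have e : x = d⁻¹ * (d * x * d⁻¹) * d := by group
      rw [e]
      exact D.mul_mem (D.mul_mem (D.inv_mem hd) hx) hd
  have hD₀conj : ∀ h ∈ NN, ∀ n ∈ D₀, h * n * h⁻¹ ∈ D₀ := by
    intro h hh n hn
    obtain ⟨h1, h2⟩ := hD₀mem.mp hn
    refine hD₀mem.mpr ⟨(Subgroup.mem_normalizer_iff.mp hh.1 n).mp h1, fun y hy => ?_⟩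
    have h3 : h⁻¹ * y * h⁻¹⁻¹ ∈ Y := hYconj _ (Subgroup.inv_mem _ hh.2) y hy
    have h4 := h2 _ h3
    calc (h * n * h⁻¹) * y * (h * n * h⁻¹)⁻¹ = h * (n * (h⁻¹ * y * h⁻¹⁻¹) * n⁻¹) * h⁻¹ := by group
      _ = _ := by rw [h4]; group
  have hNn : ∀ q ∈ D, ∀ n ∈ D₀, q * n * q⁻¹ ∈ D₀ := fun q hq n hn => hD₀conj q (hDNN hq) n hn
  let D₁ : Subgroup H := UU D D₀ hNn
  have hD₁D : D₁ ≤ D := fun u hu => hu.1
  have hD₁conj : ∀ h ∈ NN, ∀ u ∈ D₁, h * u * h⁻¹ ∈ D₁ := by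
    rintro h hh u ⟨h1, h2, h3⟩
    refine ⟨(Subgroup.mem_normalizer_iff.mp hh.1 u).mp h1, ?_, ?_⟩
    · have e : (h * u * h⁻¹) * (h * u * h⁻¹) = h * (u * u) * h⁻¹ := by group
      rw [e]
      exact hD₀conj h hh _ h2
    · intro q hq
      have h4 : h⁻¹ * q * h⁻¹⁻¹ ∈ D :=
        (Subgroup.mem_normalizer_iff.mp (Subgroup.inv_mem _ hh.1) q).mp hq
      have h5 := hD₀conj h hh _ (h3 _ h4)
      have e : (h * u * h⁻¹)⁻¹ * q * (h * u * h⁻¹) * q⁻¹ =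
          h * (u⁻¹ * (h⁻¹ * q * h⁻¹⁻¹) * u * (h⁻¹ * q * h⁻¹⁻¹)⁻¹) * h⁻¹ := by group
      rw [e]
      exact h5
  -- `D` moves `Y`
  have hmove : ∃ d ∈ D, ∃ y ∈ Y, d * y * d⁻¹ ≠ y := by
    obtain ⟨d, hd, c, hc, hdc⟩ := hne
    by_contra hcon
    push Not at hcon
    obtain ⟨k, hk⟩ := hD2 ⟨d, hd⟩
    have hk' : d ^ (2 ^ k) = 1 := congrArg Subtype.val hk
    refine hdc (central_action B hs hSp hSZ hSm hk' (hDZ d hd)
      (fun c hc => (Subgroup.mem_normalizer_iff.mp (hDS d hd) c).mp hc) ?_ c hc)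
    intro z hz hzc
    exact hcon d hd z (hYmem.mpr ⟨hz, fun c hc => (hzc c hc).symm⟩)
  have hD₀ne : D₀ ≠ D := by
    intro h
    obtain ⟨d, hd, y, hy, hdy⟩ := hmove
    rw [← h] at hd
    exact hdy ((hD₀mem.mp hd).2 y hy)
  obtain ⟨u, huD₁, huD₀⟩ := exists_mem_UU hNn inf_le_left hD₀ne hD2
  have hD₁DY : ∀ t ∈ D₁, ∀ y ∈ Y, t * y * t⁻¹ ∈ Y := fun t ht y hy => hYconj t (hDS t (hD₁D ht)) y hy
  obtain ⟨y, hyY, hy1, heig, t₀, ht₀, ht₀y⟩ : ∃ y ∈ Y, y ≠ 1 ∧ (∀ t ∈ D₁, t * y * t⁻¹ = y ∨ t * y * t⁻¹ = y⁻¹) ∧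
      ∃ t₀ ∈ D₁, t₀ * y * t₀⁻¹ = y⁻¹ := by
    apply exists_eigen hYc hD₁DY
    · rintro s₁ ⟨hs₁, -, hs₃⟩ t ht y hy
      have hn := hs₃ t (hD₁D ht)
      have h2 := (hD₀mem.mp hn).2 _ (hD₁DY t ht y hy)
      calc (s₁ * t) * y * (s₁ * t)⁻¹ = s₁ * (t * y * t⁻¹) * s₁⁻¹ := by group
        _ = s₁ * ((s₁⁻¹ * t * s₁ * t⁻¹) * (t * y * t⁻¹) * (s₁⁻¹ * t * s₁ * t⁻¹)⁻¹) * s₁⁻¹ := by rw [h2]
        _ = _ := by group
    · rintro t ⟨-, ht2, -⟩ y hy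
      exact (hD₀mem.mp ht2).2 y hy
    · by_contra hcon
      push Not at hcon
      exact huD₀ (hD₀mem.mpr ⟨hD₁D huD₁, fun y hy => hcon u huD₁ y hy⟩)
  obtain ⟨hyS, -⟩ := hYmem.mp hyY
  obtain ⟨k, hk⟩ := hSp ⟨y, hyS⟩
  have hyk : y ^ (s ^ k) = 1 := congrArg Subtype.val hk
  have hoddk : Odd (s ^ k) := hsodd.pow
  have hyinv : y⁻¹ ≠ y := by
    intro h
    have h1 : y ^ (2 ^ 1) = 1 := by
      rw [pow_one, pow_two]
      nth_rewrite 1 [← h]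
      group
    exact hy1 (eq_one_of_two_odd hyk hoddk h1)
  obtain ⟨q, hq, hqm⟩ := hSm y hyS hy1
  obtain ⟨N, U, L, hN, a₀, ha₀, ham⟩ := exists_level B (hSZ y hyS) ⟨q, hq, hqm⟩
  have hyN : ∀ n ∈ N, y * n = n * y := by
    intro n hn
    have := hN 1 n hn
    simpa using this
  -- the conjugates
  have hgpow : ∀ i : ℕ, g ^ i ∈ NN := fun i => Subgroup.pow_mem _ hgNN i
  have hyiY : ∀ i : ℕ, g ^ i * y * (g ^ i)⁻¹ ∈ Y := fun i => hYconj _ (hgpow i).2 y hyY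
  have hyipow : ∀ i : ℕ, (g ^ i * y * (g ^ i)⁻¹) ^ (s ^ k) = 1 := by
    intro i
    rw [conj_pow, hyk]
    group
  have hyieig : ∀ i : ℕ, ∀ t ∈ D₁, t * (g ^ i * y * (g ^ i)⁻¹) * t⁻¹ = g ^ i * y * (g ^ i)⁻¹ ∨
      t * (g ^ i * y * (g ^ i)⁻¹) * t⁻¹ = (g ^ i * y * (g ^ i)⁻¹)⁻¹ := by
    intro i t ht
    have h1 : (g ^ i)⁻¹ * t * (g ^ i)⁻¹⁻¹ ∈ D₁ := hD₁conj _ (NN.inv_mem (hgpow i)) t ht
    have e : t * (g ^ i * y * (g ^ i)⁻¹) * t⁻¹ =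
        g ^ i * (((g ^ i)⁻¹ * t * (g ^ i)⁻¹⁻¹) * y * ((g ^ i)⁻¹ * t * (g ^ i)⁻¹⁻¹)⁻¹) * (g ^ i)⁻¹ := by
      group
    rcases heig _ h1 with h2 | h2
    · left
      rw [e, h2]
    · right
      rw [e, h2]
      group
  -- the subgroup fixing `y`
  let K : Subgroup H := D₁ ⊓ Subgroup.centralizer ({y} : Set H)
  have hKmem : ∀ {t : H}, t ∈ K ↔ t ∈ D₁ ∧ t * y * t⁻¹ = y := by
    intro t
    constructor
    · rintro ⟨h1, h2⟩
      refine ⟨h1, ?_⟩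
      have := Subgroup.mem_centralizer_iff.mp h2 y rfl
      rw [← this]
      group
    · rintro ⟨h1, h2⟩
      refine ⟨h1, Subgroup.mem_centralizer_iff.mpr ?_⟩
      intro y' hy'
      rw [Set.mem_singleton_iff] at hy'
      rw [hy']
      exact (mul_inv_eq_iff_eq_mul.mp h2).symm
  have hKcard : ∃ b : ℕ, Nat.card K = 2 ^ b := by
    have hle : K ≤ D := fun t ht => hD₁D (hKmem.mp ht).1
    exact IsPGroup.iff_card.mp (hD2.to_le hle)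
  obtain ⟨b, hb⟩ := hKcard
  have ht₀K : t₀ ∉ K := by
    intro h
    have := (hKmem.mp h).2
    rw [ht₀y] at this
    exact hyinv this
  -- `g` does not normalize `K`
  have hgK : g ∉ Subgroup.normalizer (K : Set H) := by
    intro hgK
    have hgK' := Subgroup.mem_normalizer_iff.mp hgK
    have hinv : ∀ k ∈ K, t₀⁻¹ * (g * (t₀ * k) * g⁻¹) ∈ K := by
      intro k' hk'
      have h1 : g * k' * g⁻¹ ∈ K := (hgK' k').mp hk'
      have ht₁ : g * t₀ * g⁻¹ ∈ D₁ := hD₁conj g hgNN t₀ ht₀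
      have ht₁K : g * t₀ * g⁻¹ ∉ K := fun h => ht₀K ((hgK' t₀).mpr h)
      have ht₁y : (g * t₀ * g⁻¹) * y * (g * t₀ * g⁻¹)⁻¹ = y⁻¹ := by
        rcases heig _ ht₁ with h2 | h2
        · exact absurd (hKmem.mpr ⟨ht₁, h2⟩) ht₁K
        · exact h2
      have e : t₀⁻¹ * (g * (t₀ * k') * g⁻¹) = (t₀⁻¹ * (g * t₀ * g⁻¹)) * (g * k' * g⁻¹) := by group
      rw [e]
      refine K.mul_mem (hKmem.mpr ⟨D₁.mul_mem (D₁.inv_mem ht₀) ht₁, ?_⟩) h1
      have h3 : t₀⁻¹ * y⁻¹ * t₀ = y := by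
        rw [← ht₀y]
        group
      calc (t₀⁻¹ * (g * t₀ * g⁻¹)) * y * (t₀⁻¹ * (g * t₀ * g⁻¹))⁻¹
          = t₀⁻¹ * ((g * t₀ * g⁻¹) * y * (g * t₀ * g⁻¹)⁻¹) * t₀ := by group
        _ = _ := by rw [ht₁y, h3]
    obtain ⟨k', hk', hfix⟩ := coset_fixed hr hb hg hinv
    have hmem : t₀ * k' ∈ D := hD₁D (D₁.mul_mem ht₀ (hKmem.mp hk').1)
    have h1 := hDfree _ hmem hfix
    apply ht₀K
    have e : t₀ = k'⁻¹ := eq_inv_of_mul_eq_one_left h1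
    rw [e]
    exact K.inv_mem hk'
  have hgpowK : ∀ n : ℕ, 0 < n → n < r → g ^ n ∉ Subgroup.normalizer (K : Set H) := by
    intro n hn0 hnr hmem
    have hcop : Nat.Coprime n (orderOf g) := by
      have h1 : orderOf g ∣ r ^ a := orderOf_dvd_of_pow_eq_one hg
      have h2 : Nat.Coprime n r := by
        rw [Nat.coprime_comm]
        exact (Nat.Prime.coprime_iff_not_dvd hrp.out).mpr (Nat.not_dvd_of_pos_of_lt hn0 hnr)
      exact Nat.Coprime.coprime_dvd_right h1 (Nat.Coprime.pow_right a h2)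
    obtain ⟨c, hc⟩ := exists_pow_eq_self_of_coprime hcop
    apply hgK
    rw [← hc]
    exact Subgroup.pow_mem _ hmem c
  -- distinctness
  have hdist : ∀ i j : ℕ, i < r → j < r → i ≠ j → ∃ t ∈ D₁,
      t * (g ^ i * y * (g ^ i)⁻¹) * t⁻¹ = g ^ i * y * (g ^ i)⁻¹ ∧
      t * (g ^ j * y * (g ^ j)⁻¹) * t⁻¹ = (g ^ j * y * (g ^ j)⁻¹)⁻¹ := by
    intro i j hi hj hij
    by_contra hcon
    push Not at hcon
    have hu : (g ^ j)⁻¹ * g ^ i ∈ Subgroup.normalizer (K : Set H) := by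
      apply mem_normalizer_of_conj'
      intro t ht
      obtain ⟨ht1, ht2⟩ := hKmem.mp ht
      have h1 : g ^ i * t * (g ^ i)⁻¹ ∈ D₁ := hD₁conj _ (hgpow i) t ht1
      have h2 : (g ^ i * t * (g ^ i)⁻¹) * (g ^ i * y * (g ^ i)⁻¹) * (g ^ i * t * (g ^ i)⁻¹)⁻¹ =
          g ^ i * y * (g ^ i)⁻¹ := by
        calc (g ^ i * t * (g ^ i)⁻¹) * (g ^ i * y * (g ^ i)⁻¹) * (g ^ i * t * (g ^ i)⁻¹)⁻¹
            = g ^ i * (t * y * t⁻¹) * (g ^ i)⁻¹ := by group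
          _ = _ := by rw [ht2]
      have h3 := hcon _ h1 h2
      have h4 : (g ^ i * t * (g ^ i)⁻¹) * (g ^ j * y * (g ^ j)⁻¹) * (g ^ i * t * (g ^ i)⁻¹)⁻¹ =
          g ^ j * y * (g ^ j)⁻¹ := by
        rcases hyieig j _ h1 with h5 | h5
        · exact h5
        · exact absurd h5 h3
      refine hKmem.mpr ⟨?_, ?_⟩
      · have h6 : (g ^ j)⁻¹ * (g ^ i * t * (g ^ i)⁻¹) * (g ^ j)⁻¹⁻¹ ∈ D₁ :=
          hD₁conj _ (NN.inv_mem (hgpow j)) _ h1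
        have e : (g ^ j)⁻¹ * g ^ i * t * ((g ^ j)⁻¹ * g ^ i)⁻¹ =
            (g ^ j)⁻¹ * (g ^ i * t * (g ^ i)⁻¹) * (g ^ j)⁻¹⁻¹ := by group
        rw [e]
        exact h6
      · calc ((g ^ j)⁻¹ * g ^ i * t * ((g ^ j)⁻¹ * g ^ i)⁻¹) * y *
              ((g ^ j)⁻¹ * g ^ i * t * ((g ^ j)⁻¹ * g ^ i)⁻¹)⁻¹
            = (g ^ j)⁻¹ * ((g ^ i * t * (g ^ i)⁻¹) * (g ^ j * y * (g ^ j)⁻¹) *
                (g ^ i * t * (g ^ i)⁻¹)⁻¹) * g ^ j := by group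
          _ = _ := by rw [h4]; group
    rcases lt_or_gt_of_ne hij with hlt | hgt
    · -- `i < j`
      have e : (g ^ j)⁻¹ * g ^ i = (g ^ (j - i))⁻¹ := by
        have e1 : g ^ j = g ^ (j - i) * g ^ i := by
          rw [← pow_add]
          congr 1
          omega
        rw [e1]
        group
      rw [e] at hu
      have h1 := Subgroup.inv_mem _ hu
      rw [inv_inv] at h1
      exact hgpowK (j - i) (by omega) (by omega) h1
    · -- `j < i`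
      have e : (g ^ j)⁻¹ * g ^ i = g ^ (i - j) := by
        have e1 : g ^ i = g ^ j * g ^ (i - j) := by
          rw [← pow_add]
          congr 1
          omega
        rw [e1]
        group
      rw [e] at hu
      exact hgpowK (i - j) (by omega) (by omega) hu
  -- conclusion
  refine final_contra L hyN hyk hoddk ⟨a₀, ha₀, ham⟩ hrodd (telProd_Z B hgr hfree) ?_
  intro i j hi hj hij x hx
  obtain ⟨t, ht, ht1, ht2⟩ := hdist i j hi hj hij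
  obtain ⟨n, hn⟩ := hD2 ⟨t, hD₁D ht⟩
  have hn' : t ^ (2 ^ n) = 1 := congrArg Subtype.val hn
  exact inv_central L (hN _) (hyipow i) hoddk (hyipow j) hoddk
    (hYc _ (hyiY j) _ (hyiY i)) hn' (mul_inv_eq_iff_eq_mul.mp ht1) (hDZ t (hD₁D ht)) ht2 x hx

end Cfsg.Agent.Lib.OneClassY
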