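import Mathlib
import Cfsg.Agent.Lib.OrbitCheck
import Cfsg.Agent.Lib.DodecadFacts

set_option autoImplicit false
set_option linter.unusedVariables false

/-!
# Orbits of the stabiliser of a dodecad on dodecads: sizes 1, 1, 495, 495, 1584
-/

namespace Cfsg.Agent.Lib.OrbDod
open Cfsg Cfsg.Agent.Lib.Golay Cfsg.Agent.Lib.OrbitTree Cfsg.Agent.Lib.OrbitCheck
open Cfsg.Agent.Lib.DodecadFacts
open scoped Pointwise

/-- generators of `M24` -/
def genM : List ℕ := [183637701251919819251266769097525416, 473049272503898951895999984420542576]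
/-- generators of the stabiliser of the base dodecad -/
def dodGens : List ℕ := [526423787097878575312022977130880193, 379910494328837716980618511193816087]
/-- representatives -/
def rs : Fin 4 → ℕ := ![8334384, 28637, 470393, 114548]
/-- values of the invariant -/
def vs : Fin 4 → ℕ := ![0, 8, 4, 6]
/-- sizes -/
def ss : Fin 4 → ℕ := ![1, 495, 495, 1584]

theorem check_M : genM.all isM24 = true ∧ orbitL ltN img genM d0Mask = sortU ltN dodL := by decide +kernel
theorem check_S : dodGens.all (fun c => isM24 c && Nat.beq (img c d0Mask) d0Mask) = true := by decide +kernel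
theorem check_cl : ∀ i, rs i ∈ dodL ∧ pop (Nat.land d0Mask (rs i)) = vs i ∧
    orbitL ltN img dodGens (rs i) = sortU ltN (dodL.filter fun y => Nat.beq (pop (Nat.land d0Mask y)) (vs i)) ∧
    (dodL.filter fun y => Nat.beq (pop (Nat.land d0Mask y)) (vs i)).length = ss i := by decide +kernel
theorem check_0 : dodL.filter (fun y => Nat.beq (pop (Nat.land d0Mask y)) 12) = [d0Mask] := by decide +kernel
theorem check_all : ∀ y ∈ dodL, pop (Nat.land d0Mask y) = 12 ∨ ∃ i, pop (Nat.land d0Mask y) = vs i := by decide +kernel
theorem check_ne : ∀ i, vs i ≠ 12 := by decide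
theorem check_inj : Function.Injective vs := by decide

/-- the data -/
theorem data : ClassData ltN img ofMask dodL dodecads d0Mask (fun z => (ofMask d0Mask ∩ z).card)
    (fun y => pop (Nat.land d0Mask y)) 12 rs vs ss where
  htot := total_ltN
  hdec := total_act_mask
  hY := dodecads_eq_image
  hnd := strictAsc_nodup dodL_asc
  hinj := ofMask_injOn_dodL
  hYinv := fun g hg z hz => smul_mem_dodecads hg hz
  htrans := ⟨genM, check_M⟩
  hf := fun g hg x => card_inter_stab (mem_stabP.1 hg).2 x
  hf' := fun y _ => by rw [← ofMask_land, card_ofMask]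
  hv0 := check_0
  hclass := ⟨dodGens, gens_stab_mask check_S, check_cl⟩
  hall := check_all
  hne := check_ne
  hinjv := check_inj

end Cfsg.Agent.Lib.OrbDod
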