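import Mathlib
import Cfsg.Agent.Lib.OrbitCheck

set_option autoImplicit false
set_option linter.unusedVariables false

/-!
# Orbits of the stabiliser of an octad on octads: sizes 1, 30, 280, 448
-/

namespace Cfsg.Agent.Lib.OrbOct
open Cfsg Cfsg.Agent.Lib.Golay Cfsg.Agent.Lib.OrbitTree Cfsg.Agent.Lib.OrbitCheck
open scoped Pointwise

/-- the base octad -/
def O0M : ℕ := 8536111
/-- generators of `M24` -/
def genM : List ℕ := [183637701251919819251266769097525416, 473049272503898951895999984420542576]
/-- generators of the stabiliser of the base octad -/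
def octGens : List ℕ := [58665943466432712718635570163136675, 725794867843573365225001692585560814]
/-- representatives -/
def rs : Fin 3 → ℕ := ![337856, 5279, 15777]
/-- values of the invariant -/
def vs : Fin 3 → ℕ := ![0, 4, 2]
/-- sizes -/
def ss : Fin 3 → ℕ := ![30, 280, 448]

theorem check_M : genM.all isM24 = true ∧ orbitL ltN img genM O0M = sortU ltN octL := by decide +kernel
theorem check_S : octGens.all (fun c => isM24 c && Nat.beq (img c O0M) O0M) = true := by decide +kernel
theorem check_cl : ∀ i, rs i ∈ octL ∧ pop (Nat.land O0M (rs i)) = vs i ∧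
    orbitL ltN img octGens (rs i) = sortU ltN (octL.filter fun y => Nat.beq (pop (Nat.land O0M y)) (vs i)) ∧
    (octL.filter fun y => Nat.beq (pop (Nat.land O0M y)) (vs i)).length = ss i := by decide +kernel
theorem check_0 : octL.filter (fun y => Nat.beq (pop (Nat.land O0M y)) 8) = [O0M] := by decide +kernel
theorem check_all : ∀ y ∈ octL, pop (Nat.land O0M y) = 8 ∨ ∃ i, pop (Nat.land O0M y) = vs i := by decide +kernel
theorem check_ne : ∀ i, vs i ≠ 8 := by decide
theorem check_inj : Function.Injective vs := by decide

/-- the data -/
theorem data : ClassData ltN img ofMask octL octads O0M (fun z => (ofMask O0M ∩ z).card)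
    (fun y => pop (Nat.land O0M y)) 8 rs vs ss where
  htot := total_ltN
  hdec := total_act_mask
  hY := octads_eq_image
  hnd := strictAsc_nodup octL_asc
  hinj := ofMask_injOn_octL
  hYinv := fun g hg z hz => smul_mem_octads hg hz
  htrans := ⟨genM, check_M⟩
  hf := fun g hg x => card_inter_stab (mem_stabP.1 hg).2 x
  hf' := fun y _ => by rw [← ofMask_land, card_ofMask]
  hv0 := check_0
  hclass := ⟨octGens, gens_stab_mask check_S, check_cl⟩
  hall := check_all
  hne := check_ne
  hinjv := check_inj

theorem base_mem : ofMask O0M ∈ octads := ofMask_mem_octads O0_mem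

theorem decomp : Decomp ↥M24 octads (ofMask O0M) (fun i => ofMask (rs i)) ss := data.decomp

theorem transport_octad {o : Finset GolayPt} (ho : o ∈ octads) : ∃ y', Decomp ↥M24 octads o y' ss :=
  decomp.transport ho

theorem isCoatom_octad {o : Finset GolayPt} (ho : o ∈ octads) : IsCoatom (MulAction.stabilizer M24 o) := by
  obtain ⟨y', hy'⟩ := transport_octad ho
  apply hy'.isCoatom (by norm_num)
  decide

end Cfsg.Agent.Lib.OrbOct
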