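import Mathlib
import Cfsg.Agent.Lib.OrbitCheck
import Cfsg.Agent.Lib.DodecadFacts

set_option autoImplicit false
set_option linter.unusedVariables false
set_option maxRecDepth 100000

/-!
# Orbits of the stabiliser of a complementary pair of dodecads on such pairs: sizes 1, 495, 792
-/

namespace Cfsg.Agent.Lib.OrbPair
open Cfsg Cfsg.Agent.Lib.Golay Cfsg.Agent.Lib.OrbitTree Cfsg.Agent.Lib.OrbitCheck
open scoped Pointwise

/-- generators of `M24` -/
def genM : List ℕ := [183637701251919819251266769097525416, 473049272503898951895999984420542576]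

/-- the complement of a mask -/
def cmp (m : ℕ) : ℕ := Nat.xor fullMask m

/-- the key of a pair -/
def key (m : ℕ) : List ℕ := [m, cmp m]

/-- the masks which are less than their complement -/
def lowL : List ℕ := dodL.filter fun m => Nat.blt m (cmp m)

/-- all pairs -/
def pairL : List (List ℕ) := lowL.map key

theorem testBit_cmp (m i : ℕ) : (cmp m).testBit i = xor (decide (i < 24)) (m.testBit i) := by
  unfold cmp
  rw [testBit_xor', testBit_fullMask]

theorem ofMask_cmp (m : ℕ) : ofMask (cmp m) = (ofMask m)ᶜ := by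
  ext p
  rw [mem_ofMask, Finset.mem_compl, mem_ofMask, testBit_cmp]
  simp [idx_lt]

theorem cmp_lt {m : ℕ} (hm : m < 2 ^ 24) : cmp m < 2 ^ 24 :=
  lt_of_xor (by norm_num [fullMask]) hm

theorem famOf_key (m : ℕ) : famOf (key m) = {ofMask m, (ofMask m)ᶜ} := by
  ext S
  simp [famOf, key, ofMask_cmp]

/-- the complementary pairs of dodecads -/
def Pairs : Set (Finset (Finset GolayPt)) := {x | ∃ d ∈ dodecads, x = {d, dᶜ}}

theorem smul_compl_pt (g : Equiv.Perm GolayPt) (d : Finset GolayPt) : g • dᶜ = (g • d)ᶜ := by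
  ext p
  rw [Finset.mem_smul_finset, Finset.mem_compl, Finset.mem_smul_finset]
  constructor
  · rintro ⟨y, hy, rfl⟩ ⟨z, hz, hzy⟩
    rw [Finset.mem_compl] at hy
    have : z = y := MulAction.injective g hzy
    exact hy (this ▸ hz)
  · intro h
    refine ⟨g⁻¹ • p, ?_, smul_inv_smul g p⟩
    rw [Finset.mem_compl]
    intro h2
    exact h ⟨_, h2, smul_inv_smul g p⟩

theorem smul_pair (g : Equiv.Perm GolayPt) (d : Finset GolayPt) :
    g • ({d, dᶜ} : Finset (Finset GolayPt)) = {g • d, (g • d)ᶜ} := by
  rw [Finset.smul_finset_insert, Finset.smul_finset_singleton, smul_compl_pt]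

theorem compl_mem_dodecads {d : Finset GolayPt} (hd : d ∈ dodecads) : dᶜ ∈ dodecads := by
  have hm := (mem_dodecads_iff_list d).1 hd
  have hall : sortU ltN (dodL.map cmp) = dodL := by decide +kernel
  have h1 : cmp (toMask d) ∈ dodL := by
    rw [← hall, mem_sortU total_ltN]
    exact List.mem_map.2 ⟨_, hm, rfl⟩
  have h2 := ofMask_mem_dodecads h1
  rwa [ofMask_cmp, ofMask_toMask] at h2

theorem pairs_eq_image : Pairs = famOf '' {l | l ∈ pairL} := by
  ext x
  simp only [Pairs, Set.mem_ofPred_eq, Set.mem_image]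
  constructor
  · rintro ⟨d, hd, rfl⟩
    have hm := (mem_dodecads_iff_list d).1 hd
    have hc := (mem_dodecads_iff_list _).1 (compl_mem_dodecads hd)
    have hall : ∀ m ∈ dodL, Nat.blt m (cmp m) = true ∨ Nat.blt (cmp m) (cmp (cmp m)) = true := by decide +kernel
    have hcc : ∀ m ∈ dodL, cmp (cmp m) = m := by decide +kernel
    have hcomp : toMask dᶜ = cmp (toMask d) := by
      apply ofMask_injOn (toMask_lt _) (cmp_lt (toMask_lt d))
      rw [ofMask_cmp, ofMask_toMask, ofMask_toMask]
    rcases hall _ hm with h | h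
    · refine ⟨key (toMask d), List.mem_map.2 ⟨_, List.mem_filter.2 ⟨hm, h⟩, rfl⟩, ?_⟩
      rw [famOf_key, ofMask_toMask]
    · refine ⟨key (cmp (toMask d)), List.mem_map.2 ⟨_, List.mem_filter.2 ⟨by rw [← hcomp]; exact hc, h⟩, rfl⟩, ?_⟩
      rw [famOf_key, ← hcomp, ofMask_toMask, compl_compl, Finset.pair_comm]
  · rintro ⟨l, hl, rfl⟩
    obtain ⟨m, hm, rfl⟩ := List.mem_map.1 hl
    exact ⟨ofMask m, ofMask_mem_dodecads (List.mem_filter.1 hm).1, famOf_key m⟩

theorem pair_facts : ∀ l ∈ pairL, strictAsc l = true ∧ allLt l = true := by decide +kernel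

theorem pairL_nodup : pairL.Nodup := by
  apply List.Nodup.map
  · intro a b h
    exact (List.cons.inj h).1
  · exact (strictAsc_nodup dodL_asc).filter _

theorem famOf_injOn_pairL : Set.InjOn famOf {l | l ∈ pairL} := by
  intro a ha b hb h
  have h1 := pair_facts a ha
  have h2 := pair_facts b hb
  exact famOf_inj h1.1 h2.1 h1.2 h2.2 h

/-- generators of the stabiliser of the base pair -/
def gensS : List ℕ := [918071203569169105371104699563446442, 423263757084510874074898013020075377]
/-- the base pair -/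
def b0 : List ℕ := [8334384, 8442831]
/-- representatives -/
def rs : Fin 2 → List ℕ := ![[28637, 16748578], [114548, 16662667]]
/-- values of the invariant -/
def vs : Fin 2 → ℕ := ![562949986975744, 274877906944]
/-- sizes -/
def ss : Fin 2 → ℕ := ![495, 792]
/-- value at the base -/
def v0 : ℕ := 9444732965739290427394

theorem check_M : genM.all isM24 = true ∧ orbitL ltL actFam genM b0 = sortU ltL pairL := by decide +kernel
theorem check_S : gensS.all (fun c => isM24 c && decide (actFam c b0 = b0)) = true := by decide +kernel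
theorem check_cl : (∀ i, rs i ∈ pairL ∧ invL b0 (rs i) = vs i ∧
    orbitL ltL actFam gensS (rs i) = sortU ltL (pairL.filter fun y => Nat.beq (invL b0 y) (vs i)) ∧
    (pairL.filter fun y => Nat.beq (invL b0 y) (vs i)).length = ss i) ∧
    pairL.filter (fun y => Nat.beq (invL b0 y) v0) = [b0] ∧
    (∀ y ∈ pairL, invL b0 y = v0 ∨ ∃ i, invL b0 y = vs i) := by decide +kernel
theorem check_ne : ∀ i, vs i ≠ v0 := by decide
theorem check_inj : Function.Injective vs := by decide
theorem b0_mem : b0 ∈ pairL := by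
  have h : b0 ∈ pairL.filter (fun y => Nat.beq (invL b0 y) v0) := by rw [check_cl.2.1]; simp
  exact (List.mem_filter.1 h).1

/-- the data -/
theorem data : ClassData ltL actFam famOf pairL Pairs b0 (fun z => Inv (famOf b0) z)
    (fun y => invL b0 y) v0 rs vs ss where
  htot := total_ltL
  hdec := decode_smul_famOf'
  hY := pairs_eq_image
  hnd := pairL_nodup
  hinj := famOf_injOn_pairL
  hYinv := by
    rintro g hg _ ⟨d, hd, rfl⟩
    exact ⟨g • d, smul_mem_dodecads hg hd, smul_pair g d⟩
  htrans := ⟨genM, check_M⟩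
  hf := fun g hg x => Inv_stab (mem_stabP.1 hg).2 x
  hf' := fun y hy => by
    have h1 := pair_facts y hy
    have h2 := pair_facts b0 b0_mem
    exact (Inv_famOf h2.1 h2.2 h1.1 h1.2).symm
  hv0 := check_cl.2.1
  hclass := ⟨gensS, gens_stab_fam check_S, check_cl.1⟩
  hall := check_cl.2.2
  hne := check_ne
  hinjv := check_inj

theorem isCoatom_pair {d : Finset GolayPt} (hd : d ∈ dodecads) :
    IsCoatom (MulAction.stabilizer M24 ({d, dᶜ} : Finset (Finset GolayPt))) := by
  obtain ⟨y', hy'⟩ := data.decomp.transport (x' := ({d, dᶜ} : Finset (Finset GolayPt))) ⟨d, hd, rfl⟩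
  apply hy'.isCoatom (by norm_num)
  decide

end Cfsg.Agent.Lib.OrbPair
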