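import Mathlib
import Cfsg.Agent.Lib.OrbitCheck
import Cfsg.Agent.Lib.M24Fam

set_option autoImplicit false
set_option linter.unusedVariables false
set_option maxRecDepth 100000

/-!
# Orbits of the stabiliser of a trio on trios: sizes 1, 42, 56, 1008, 2688
-/

namespace Cfsg.Agent.Lib.OrbTri
open Cfsg Cfsg.Agent.Lib.Golay Cfsg.Agent.Lib.OrbitTree Cfsg.Agent.Lib.OrbitCheck
open Cfsg.Agent.Lib.M24Fam
open scoped Pointwise

/-- generators of `M24` -/
def genM : List ℕ := [183637701251919819251266769097525416, 473049272503898951895999984420542576]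
/-- generators of the stabiliser of the base family -/
def gensS : List ℕ := [838129434682915470752787082957098124, 46812028515613316975169272403106382, 688772538430238377320020718569001186]
/-- the base family -/
def b0 : List ℕ := [5279, 1009728, 15762208]
/-- representatives -/
def rs : Fin 4 → List ℕ := ![[5279, 1256224, 15515712], [90318, 2135601, 14551296], [10558, 1250945, 15515712], [10558, 902657, 15864000]]
/-- values of the invariant -/
def vs : Fin 4 → ℕ := ![281475043819524, 100663299, 67125249, 50356224]
/-- sizes -/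
def ss : Fin 4 → ℕ := ![42, 56, 1008, 2688]
/-- value at the base -/
def v0 : ℕ := 844424930131974

theorem check_M : genM.all isM24 = true ∧ orbitL ltL actFam genM b0 = sortU ltL triL := by decide +kernel
theorem check_S : gensS.all (fun c => isM24 c && decide (actFam c b0 = b0)) = true := by decide +kernel
theorem check_cl : (∀ i, rs i ∈ triL ∧ invL b0 (rs i) = vs i ∧
    orbitL ltL actFam gensS (rs i) = sortU ltL (triL.filter fun y => Nat.beq (invL b0 y) (vs i)) ∧
    (triL.filter fun y => Nat.beq (invL b0 y) (vs i)).length = ss i) ∧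
    triL.filter (fun y => Nat.beq (invL b0 y) v0) = [b0] ∧
    (∀ y ∈ triL, invL b0 y = v0 ∨ ∃ i, invL b0 y = vs i) := by decide +kernel
theorem check_ne : ∀ i, vs i ≠ v0 := by decide
theorem check_inj : Function.Injective vs := by decide
theorem b0_mem : b0 ∈ triL := by
  have h : b0 ∈ triL.filter (fun y => Nat.beq (invL b0 y) v0) := by rw [check_cl.2.1]; simp
  exact (List.mem_filter.1 h).1

/-- the data -/
theorem data : ClassData ltL actFam famOf triL trios b0 (fun z => Inv (famOf b0) z)
    (fun y => invL b0 y) v0 rs vs ss where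
  htot := total_ltL
  hdec := decode_smul_famOf'
  hY := trios_eq_image
  hnd := triL_nodup
  hinj := famOf_injOn_triL
  hYinv := fun g hg z hz => smul_mem_trios hg hz
  htrans := ⟨genM, check_M⟩
  hf := fun g hg x => Inv_stab (mem_stabP.1 hg).2 x
  hf' := fun y hy => by
    have h1 := triOK_asc (List.all_eq_true.1 triL_ok y hy)
    have h2 := triOK_asc (List.all_eq_true.1 triL_ok b0 b0_mem)
    exact (Inv_famOf h2.1 h2.2 h1.1 h1.2).symm
  hv0 := check_cl.2.1
  hclass := ⟨gensS, gens_stab_fam check_S, check_cl.1⟩
  hall := check_cl.2.2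
  hne := check_ne
  hinjv := check_inj

theorem decomp : Decomp ↥M24 trios (famOf b0) (fun i => famOf (rs i)) ss := data.decomp

theorem transport {S : Finset (Finset GolayPt)} (hS : S ∈ trios) : ∃ y', Decomp ↥M24 trios S y' ss :=
  decomp.transport hS

theorem isCoatom_stab {S : Finset (Finset GolayPt)} (hS : S ∈ trios) : IsCoatom (MulAction.stabilizer M24 S) := by
  obtain ⟨y', hy'⟩ := transport hS
  apply hy'.isCoatom (by norm_num)
  decide

end Cfsg.Agent.Lib.OrbTri
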