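import Mathlib
import Cfsg.Prelude.Def_SolvableStructure

/-!
Groups with the same order type; Sylow towers of supersolvable groups.
-/

set_option autoImplicit false

namespace Cfsg.Agent.Lib.OrderType72

section sametype

lemma card_pred_sum {K : Type*} [Group K] [Fintype K] (Q : ℕ → Prop) (N : ℕ)
    (hN : ∀ x : K, orderOf x < N) :
    Nat.card {g : K // Q (orderOf g)} =
      ∑ m ∈ @Finset.filter ℕ Q (Classical.decPred Q) (Finset.range N), Nat.card {g : K // orderOf g = m} := by
  classical
  simp only [Nat.card_eq_fintype_card, Fintype.card_subtype]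
  rw [Finset.card_eq_sum_card_fiberwise (f := fun g : K => orderOf g)
    (t := @Finset.filter ℕ Q (Classical.decPred Q) (Finset.range N))]
  · apply Finset.sum_congr rfl
    intro m hm
    congr 1
    ext g
    simp only [Finset.mem_filter, Finset.mem_univ, true_and]
    constructor
    · rintro ⟨_, h⟩; exact h
    · intro h
      refine ⟨?_, h⟩
      rw [h]
      exact (Finset.mem_filter.mp hm).2
  · intro g hg
    have hg' : Q (orderOf g) := by simpa using hg
    simp only [Finset.coe_filter, Finset.mem_range, Set.mem_ofPred_eq]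
    exact ⟨hN g, hg'⟩

variable {G H : Type*} [Group G] [Finite G] [Group H] [Finite H]

/-- Same order type: counts of elements with a property of the order agree. -/
lemma card_pred_eq
    (hT : ∀ m : ℕ, Nat.card {g : G // orderOf g = m} = Nat.card {h : H // orderOf h = m})
    (Q : ℕ → Prop) :
    Nat.card {g : G // Q (orderOf g)} = Nat.card {h : H // Q (orderOf h)} := by
  classical
  cases nonempty_fintype G
  cases nonempty_fintype H
  let N := Nat.card G + Nat.card H + 1
  have h1 : ∀ x : G, orderOf x < N := fun x => by
    have := orderOf_le_card (G := G) (x := x)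
    omega
  have h2 : ∀ x : H, orderOf x < N := fun x => by
    have := orderOf_le_card (G := H) (x := x)
    omega
  rw [card_pred_sum Q N h1, card_pred_sum Q N h2]
  exact Finset.sum_congr rfl (fun m _ => hT m)

lemma card_eq_of_same_type
    (hT : ∀ m : ℕ, Nat.card {g : G // orderOf g = m} = Nat.card {h : H // orderOf h = m}) :
    Nat.card G = Nat.card H := by
  have := card_pred_eq hT (fun _ => True)
  simpa using this

lemma card_pow_eq_one_eq
    (hT : ∀ m : ℕ, Nat.card {g : G // orderOf g = m} = Nat.card {h : H // orderOf h = m}) (n : ℕ) :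
    Nat.card {g : G // g ^ n = 1} = Nat.card {h : H // h ^ n = 1} := by
  have := card_pred_eq hT (fun m => m ∣ n)
  simpa [orderOf_dvd_iff_pow_eq_one] using this

end sametype

section hall

variable {G : Type*} [Group G] [Finite G]

lemma pow_card_subgroup (K : Subgroup G) {y : G} (hy : y ∈ K) : y ^ Nat.card K = 1 := by
  have h : (⟨y, hy⟩ : K) ^ Nat.card K = 1 := pow_card_eq_one'
  exact congrArg Subtype.val h

/-- A subgroup of order `m` when there are exactly `m` solutions of `x ^ m = 1` is normal and is the solution set. -/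
lemma mem_of_card_eq (K : Subgroup G)
    (h : Nat.card {x : G // x ^ Nat.card K = 1} = Nat.card K) (x : G) :
    x ^ Nat.card K = 1 ↔ x ∈ K := by
  classical
  cases nonempty_fintype G
  have hsub : (K : Set G) ⊆ {x : G | x ^ Nat.card K = 1} := by
    intro y hy
    exact pow_card_subgroup K hy
  have hfin : ({x : G | x ^ Nat.card K = 1} : Set G).Finite := Set.toFinite _
  have heq : (K : Set G) = {x : G | x ^ Nat.card K = 1} := by
    apply Set.eq_of_subset_of_ncard_le hsub _ hfin
    rw [← Nat.card_coe_set_eq, ← Nat.card_coe_set_eq]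
    exact h.le
  constructor
  · intro hx
    have : x ∈ (K : Set G) := by rw [heq]; exact hx
    exact this
  · intro hx
    exact hsub hx

lemma normal_of_card_eq (K : Subgroup G)
    (h : Nat.card {x : G // x ^ Nat.card K = 1} = Nat.card K) : K.Normal := by
  constructor
  intro x hx g
  rw [← mem_of_card_eq K h] at hx ⊢
  have : g * x * g⁻¹ = (MulAut.conj g) x := by simp
  rw [this, ← map_pow, hx, map_one]

/-- Conversely a normal Hall subgroup is the solution set. -/
lemma card_pow_eq_one_of_normal_hall (K : Subgroup G) [K.Normal]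
    (hcop : Nat.Coprime (Nat.card K) K.index) :
    Nat.card {x : G // x ^ Nat.card K = 1} = Nat.card K := by
  apply Nat.card_congr
  apply Equiv.subtypeEquivRight
  intro x
  constructor
  · intro h
    have h1 : (x : G ⧸ K) ^ Nat.card K = 1 := by
      rw [← QuotientGroup.mk_pow, h, QuotientGroup.mk_one]
    have h2 := orderOf_dvd_of_pow_eq_one h1
    have h3 : orderOf (x : G ⧸ K) ∣ K.index := by
      rw [Subgroup.index_eq_card]
      exact orderOf_dvd_natCard _
    have h4 : orderOf (x : G ⧸ K) = 1 := Nat.eq_one_of_dvd_coprimes hcop h2 h3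
    rw [orderOf_eq_one_iff] at h4
    exact (QuotientGroup.eq_one_iff x).mp h4
  · intro hx
    exact pow_card_subgroup K hx

end hall

section tower

open Cfsg

/-- Chain of prime-power steps, counted from `c`. -/
def Chain (G : Type*) [Group G] : ℕ → List ℕ → Prop
  | _, [] => True
  | c, d :: l => (∃ q a : ℕ, q.Prime ∧ d = q ^ a) ∧ Nat.card {x : G // x ^ (c * d) = 1} = c * d ∧
      Chain G (c * d) l

lemma chain_transfer {G H : Type*} [Group G] [Finite G] [Group H] [Finite H]
    (hT : ∀ m : ℕ, Nat.card {g : G // orderOf g = m} = Nat.card {h : H // orderOf h = m})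
    (l : List ℕ) (c : ℕ) (h : Chain G c l) : Chain H c l := by
  induction l generalizing c with
  | nil => trivial
  | cons d l ih =>
    obtain ⟨h1, h2, h3⟩ := h
    exact ⟨h1, by rw [← card_pow_eq_one_eq hT, h2], ih _ h3⟩

lemma solvable_of_chain {H : Type*} [Group H] [Finite H] (l : List ℕ) (c : ℕ) (N : Subgroup H)
    [N.Normal] (hN : Group.IsSolvable N) (hc : Nat.card N = c) (hl : Chain H c l)
    (hprod : c * l.prod = Nat.card H) : Group.IsSolvable H := by
  induction l generalizing c N with
  | nil =>
    have : Nat.card N = Nat.card H := by simpa [hc] using hprod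
    have hN' : N = ⊤ := Subgroup.eq_top_of_card_eq N this
    rw [hN'] at hN
    exact Group.isSolvable_of_surjective (f := (⊤ : Subgroup H).subtype) (by
      intro x; exact ⟨⟨x, trivial⟩, rfl⟩)
  | cons d l ih =>
    obtain ⟨⟨q, a, hq, rfl⟩, h2, h3⟩ := hl
    have : Fact q.Prime := ⟨hq⟩
    have hdvd : q ^ a ∣ Nat.card (H ⧸ N) := by
      have h1 : Nat.card N * Nat.card (H ⧸ N) = Nat.card H := by
        rw [mul_comm, ← Subgroup.card_eq_card_quotient_mul_card_subgroup N]
      have h4 : c * q ^ a * l.prod = Nat.card H := by
        rw [← hprod, List.prod_cons]; ring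
      have hcpos : 0 < c := by rw [← hc]; exact Nat.card_pos
      have : c * Nat.card (H ⧸ N) = c * (q ^ a * l.prod) := by
        rw [← hc, h1, hc, ← h4]; ring
      have := Nat.eq_of_mul_eq_mul_left hcpos this
      rw [this]
      exact dvd_mul_right _ _
    obtain ⟨Kbar, hKbar⟩ := Sylow.exists_subgroup_card_pow_prime q hdvd
    let K : Subgroup H := Kbar.comap (QuotientGroup.mk' N)
    have hKcard : Nat.card K = c * q ^ a := by
      have h1 : K.index = Kbar.index :=
        Subgroup.index_comap_of_surjective Kbar (QuotientGroup.mk'_surjective N)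
      have h2' := Subgroup.card_mul_index K
      have h3' := Subgroup.card_mul_index Kbar
      have h4 := Subgroup.card_eq_card_quotient_mul_card_subgroup N
      rw [h1] at h2'
      rw [← h3', hKbar, hc] at h4
      have hpos : 0 < Kbar.index := Nat.pos_of_ne_zero Subgroup.index_ne_zero_of_finite
      have h5 : Nat.card K * Kbar.index = (c * q ^ a) * Kbar.index := by
        rw [h2', h4]; ring
      exact Nat.eq_of_mul_eq_mul_right hpos h5
    have hKnormal : K.Normal := normal_of_card_eq K (by rw [hKcard]; exact h2)
    have hKsolv : Group.IsSolvable K := by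
      have hNK : N ≤ K := by
        intro x hx
        show (QuotientGroup.mk' N) x ∈ Kbar
        have h0 : (QuotientGroup.mk' N) x = 1 := (QuotientGroup.eq_one_iff x).mpr hx
        rw [h0]
        exact Kbar.one_mem
      have hKbarP : IsPGroup q Kbar := IsPGroup.of_card hKbar
      have : Group.IsNilpotent Kbar := hKbarP.isNilpotent
      have : Group.IsSolvable Kbar := IsNilpotent.to_isSolvable
      refine Group.isSolvable_of_ker_le_range (Subgroup.inclusion hNK)
        ((QuotientGroup.mk' N).subgroupComap Kbar) ?_
      rintro ⟨x, hx⟩ hker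
      have h1 : (QuotientGroup.mk' N) x = 1 := congrArg Subtype.val hker
      have h2 : x ∈ N := (QuotientGroup.eq_one_iff x).mp h1
      exact ⟨⟨x, h2⟩, rfl⟩
    apply ih (c * q ^ a) K hKsolv hKcard h3
    rw [← hprod, List.prod_cons]; ring

lemma supersolvable_of_surjective {G Q : Type*} [Group G] [Group Q] (f : G →* Q)
    (hf : Function.Surjective f) (h : IsSupersolvable G) : IsSupersolvable Q := by
  obtain ⟨n, H, h0, hlast, hnormal, hstep⟩ := h
  refine ⟨n, fun i => (H i).map f, ?_, ?_, ?_, ?_⟩
  · simp [h0]
  · simp only [hlast]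
    rw [Subgroup.map_top_of_surjective f hf]
  · intro i
    have := hnormal i
    exact Subgroup.Normal.map this f hf
  · intro i
    obtain ⟨g, hg⟩ := hstep i
    refine ⟨f g, ?_⟩
    simp only [hg, Subgroup.map_sup, MonoidHom.map_zpowers]

lemma exists_normal_prime_of_supersolvable {G : Type*} [Group G] [Finite G] [Nontrivial G]
    (h : IsSupersolvable G) : ∃ N : Subgroup G, N.Normal ∧ (Nat.card N).Prime := by
  classical
  cases nonempty_fintype G
  obtain ⟨n, H, h0, hlast, hnormal, hstep⟩ := h
  have hex : ∃ i : Fin n, H i.castSucc = ⊥ ∧ H i.succ ≠ ⊥ := by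
    by_contra hne
    push Not at hne
    have hall : ∀ i : Fin (n + 1), H i = ⊥ := by
      intro i
      induction i using Fin.induction with
      | zero => exact h0
      | succ i ih => exact hne i ih
    have : (⊤ : Subgroup G) = ⊥ := by rw [← hlast]; exact hall _
    exact top_ne_bot this
  obtain ⟨i, hi0, hi1⟩ := hex
  obtain ⟨g, hg⟩ := hstep i
  rw [hi0, bot_sup_eq] at hg
  have hCnormal : (Subgroup.zpowers g).Normal := by
    rw [← hg]; exact hnormal _
  have hC1 : Nat.card (Subgroup.zpowers g) ≠ 1 := by
    intro h1
    apply hi1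
    rw [hg]
    exact Subgroup.card_eq_one.mp h1 
  obtain ⟨q, hq, hqdvd⟩ := Nat.exists_prime_and_dvd hC1
  have : Fact q.Prime := ⟨hq⟩
  have hcomm : ∀ x ∈ Subgroup.zpowers g, ∀ y ∈ Subgroup.zpowers g, Commute x y := by
    rintro _ ⟨a, rfl⟩ _ ⟨b, rfl⟩
    exact (Commute.refl g).zpow_zpow a b
  let N : Subgroup G :=
    { carrier := {x | x ∈ Subgroup.zpowers g ∧ x ^ q = 1}
      one_mem' := ⟨Subgroup.one_mem _, one_pow q⟩
      mul_mem' := by
        rintro a b ⟨ha, ha'⟩ ⟨hb, hb'⟩
        refine ⟨Subgroup.mul_mem _ ha hb, ?_⟩
        rw [(hcomm a ha b hb).mul_pow, ha', hb', one_mul]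
      inv_mem' := by
        rintro a ⟨ha, ha'⟩
        exact ⟨Subgroup.inv_mem _ ha, by rw [inv_pow, ha', inv_one]⟩ }
  refine ⟨N, ?_, ?_⟩
  · constructor
    rintro x ⟨hx, hx'⟩ y
    refine ⟨hCnormal.conj_mem x hx y, ?_⟩
    have : y * x * y⁻¹ = (MulAut.conj y) x := by simp
    rw [this, ← map_pow, hx', map_one]
  · have hle : Nat.card N ≤ q := by
      have h1 := IsCyclic.card_pow_eq_one_le (α := Subgroup.zpowers g) hq.pos
      have h2 : Nat.card N = (Finset.univ.filter (fun a : Subgroup.zpowers g => a ^ q = 1)).card := by
        rw [← Fintype.card_subtype, ← Nat.card_eq_fintype_card]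
        apply Nat.card_congr
        exact
          { toFun := fun x => ⟨⟨x.1, x.2.1⟩, Subtype.ext x.2.2⟩
            invFun := fun a => ⟨a.1.1, a.1.2, congrArg Subtype.val a.2⟩
            left_inv := fun x => rfl
            right_inv := fun a => rfl }
      rw [h2]; exact h1
    have hdvd : q ∣ Nat.card N := by
      obtain ⟨x, hx⟩ := exists_prime_orderOf_dvd_card' q hqdvd
      have hxN : (x : G) ∈ N := ⟨x.2, by
        have : (x : Subgroup.zpowers g) ^ q = 1 := by rw [← hx]; exact pow_orderOf_eq_one x
        exact congrArg Subtype.val this⟩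
      have h3 : orderOf (⟨x, hxN⟩ : N) = q := by
        rw [← Subgroup.orderOf_coe]
        simpa [Subgroup.orderOf_coe] using hx
      rw [← h3]
      exact orderOf_dvd_natCard _
    have hpos : 0 < Nat.card N := Nat.card_pos
    have : Nat.card N = q := Nat.le_antisymm hle (Nat.le_of_dvd hpos hdvd)
    rw [this]; exact hq

/-- A supersolvable group has a normal Sylow subgroup for the largest prime. -/
theorem exists_normal_sylow_of_supersolvable (p : ℕ) [Fact p.Prime] (G : Type*) [Group G] [Finite G]
    (h : IsSupersolvable G) (hp : p ∣ Nat.card G)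
    (hmax : ∀ q : ℕ, q.Prime → q ∣ Nat.card G → q ≤ p) :
    ∃ P : Sylow p G, (P : Subgroup G).Normal := by
  classical
  induction hn : Nat.card G using Nat.strong_induction_on generalizing G with
  | _ n ih =>
  have hp' : p.Prime := Fact.out
  have hnt : Nontrivial G := by
    rw [← Finite.one_lt_card_iff_nontrivial]
    have : 1 < p := hp'.one_lt
    have h2 := Nat.le_of_dvd Nat.card_pos hp
    omega
  obtain ⟨N, hNnormal, hNprime⟩ := exists_normal_prime_of_supersolvable h
  set q := Nat.card N with hqdef
  have hcard : Nat.card G = Nat.card (G ⧸ N) * q := Subgroup.card_eq_card_quotient_mul_card_subgroup N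
  have hqG : q ∣ Nat.card G := ⟨Nat.card (G ⧸ N), by rw [hcard]; ring⟩
  have hQlt : Nat.card (G ⧸ N) < n := by
    rw [← hn, hcard]
    have : 1 < q := hNprime.one_lt
    have h2 : 0 < Nat.card (G ⧸ N) := Nat.card_pos
    nlinarith
  have hfact_ne : Nat.card (G ⧸ N) ≠ 0 := Nat.card_pos.ne'
  by_cases hpQ : p ∣ Nat.card (G ⧸ N)
  · -- p divides the quotient
    obtain ⟨Pbar, hPbar⟩ := ih _ hQlt (G ⧸ N)
      (supersolvable_of_surjective (QuotientGroup.mk' N) (QuotientGroup.mk'_surjective N) h) hpQ
      (fun r hr hrdvd => hmax r hr (hrdvd.trans ⟨q, hcard⟩)) rfl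
    let K : Subgroup G := (Pbar : Subgroup (G ⧸ N)).comap (QuotientGroup.mk' N)
    have hKnormal : K.Normal := Subgroup.Normal.comap hPbar _
    have hKcard : Nat.card K = Nat.card Pbar * q := by
      have h1 : K.index = (Pbar : Subgroup (G ⧸ N)).index :=
        Subgroup.index_comap_of_surjective _ (QuotientGroup.mk'_surjective N)
      have h2' := Subgroup.card_mul_index K
      have h3' := Subgroup.card_mul_index (Pbar : Subgroup (G ⧸ N))
      rw [h1] at h2'
      have hpos : 0 < (Pbar : Subgroup (G ⧸ N)).index :=
        Nat.pos_of_ne_zero Subgroup.index_ne_zero_of_finite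
      have h5 : Nat.card K * (Pbar : Subgroup (G ⧸ N)).index =
          (Nat.card Pbar * q) * (Pbar : Subgroup (G ⧸ N)).index := by
        rw [h2', hcard, ← h3']; ring
      exact Nat.eq_of_mul_eq_mul_right hpos h5
    by_cases hqp : q = p
    · -- K is Sylow
      have hcardK : Nat.card K = p ^ (Nat.card G).factorization p := by
        rw [hKcard, Sylow.card_eq_multiplicity, hcard, hqp, Nat.factorization_mul hfact_ne hp'.ne_zero]
        simp [hp'.factorization, pow_succ]
      refine ⟨Sylow.ofCard K hcardK, ?_⟩
      rw [Sylow.coe_ofCard]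
      exact hKnormal
    · -- q < p: K is nilpotent
      have hqlt : q < p := lt_of_le_of_ne (hmax q hNprime hqG) hqp
      have hNK : N ≤ K := by
        intro x hx
        show (QuotientGroup.mk' N) x ∈ (Pbar : Subgroup (G ⧸ N))
        have h0 : (QuotientGroup.mk' N) x = 1 := (QuotientGroup.eq_one_iff x).mpr hx
        rw [h0]
        exact Subgroup.one_mem _
      have hpow : ∀ x ∈ K, ∃ e : ℕ, x ^ p ^ e ∈ N := by
        intro x hx
        obtain ⟨e, he⟩ := Pbar.isPGroup' ⟨_, hx⟩
        refine ⟨e, ?_⟩
        have h1 : (QuotientGroup.mk' N) x ^ p ^ e = 1 := congrArg Subtype.val he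
        rw [← map_pow] at h1
        exact (QuotientGroup.eq_one_iff _).mp h1
      have : Fact q.Prime := ⟨hNprime⟩
      have hNcyc : IsCyclic N := isCyclic_of_prime_card (p := q) rfl
      have hNcomm : ∀ a b : N, a * b = b * a := by
        intro a b
        obtain ⟨g, hg⟩ := hNcyc.exists_generator
        obtain ⟨k, rfl⟩ := hg a
        obtain ⟨l, rfl⟩ := hg b
        exact (Commute.refl g).zpow_zpow k l
      have hcentral : ∀ x ∈ K, ∀ z ∈ N, x * z = z * x := by
        intro x hx z hz
        obtain ⟨e, he⟩ := hpow x hx
        let σ : MulAut N := MulAut.conjNormal x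
        have hσ : σ ^ p ^ e = 1 := by
          have h1 : σ ^ p ^ e = MulAut.conjNormal (x ^ p ^ e) := by
            simp [σ, map_pow]
          rw [h1]
          ext w
          rw [MulAut.conjNormal_apply]
          have := hNcomm ⟨_, he⟩ w
          have h2 : x ^ p ^ e * (w : G) = (w : G) * x ^ p ^ e := congrArg Subtype.val this
          rw [h2]
          simp
        have h1 : orderOf σ ∣ p ^ e := orderOf_dvd_of_pow_eq_one hσ
        have h2 : orderOf σ ∣ q - 1 := by
          have h3 := orderOf_dvd_natCard σ
          rw [IsCyclic.card_mulAut, ← hqdef, Nat.totient_prime hNprime] at h3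
          exact h3
        have hcop : Nat.Coprime (p ^ e) (q - 1) := by
          apply Nat.Coprime.pow_left
          rw [Nat.Prime.coprime_iff_not_dvd hp']
          apply Nat.not_dvd_of_pos_of_lt
          · have := hNprime.one_lt; omega
          · omega
        have h3 : orderOf σ = 1 := Nat.eq_one_of_dvd_coprimes hcop h1 h2
        rw [orderOf_eq_one_iff] at h3
        have h4 : σ ⟨z, hz⟩ = ⟨z, hz⟩ := by rw [h3]; rfl
        have h5 : x * z * x⁻¹ = z := by
          have := congrArg Subtype.val h4
          rwa [MulAut.conjNormal_apply] at this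
        calc x * z = (x * z * x⁻¹) * x := by group
          _ = z * x := by rw [h5]
      have hKp : IsPGroup p (K ⧸ Subgroup.center K) := by
        intro y
        obtain ⟨x, rfl⟩ := QuotientGroup.mk_surjective y
        obtain ⟨e, he⟩ := hpow x.1 x.2
        refine ⟨e, ?_⟩
        rw [← QuotientGroup.mk_pow]
        rw [QuotientGroup.eq_one_iff]
        rw [Subgroup.mem_center_iff]
        intro w
        apply Subtype.ext
        exact hcentral w.1 w.2 _ he
      have hKnil : Group.IsNilpotent K := by
        have : Group.IsNilpotent (K ⧸ Subgroup.center K) := hKp.isNilpotent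
        exact Group.of_quotient_center_nilpotent this
      obtain P0 : Sylow p K := Inhabited.default
      have hP0normal : (P0 : Subgroup K).Normal := inferInstance
      have hP0char : (P0 : Subgroup K).Characteristic := P0.characteristic_of_normal hP0normal
      let P : Subgroup G := (P0 : Subgroup K).map K.subtype
      have hPnormal : P.Normal := ConjAct.normal_of_characteristic_of_normal
      have hPcard : Nat.card P = p ^ (Nat.card G).factorization p := by
        have h1 : Nat.card P = Nat.card P0 :=
          (Nat.card_congr (Subgroup.equivMapOfInjective _ _ K.subtype_injective).toEquiv).symm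
        have hqfac : q.factorization p = 0 :=
          Nat.factorization_eq_zero_of_not_dvd (fun hd =>
            hqp ((Nat.prime_dvd_prime_iff_eq hp' hNprime).mp hd).symm)
        rw [h1, Sylow.card_eq_multiplicity, hKcard, Sylow.card_eq_multiplicity, hcard]
        rw [Nat.factorization_mul (pow_ne_zero _ hp'.ne_zero) hNprime.ne_zero,
          Nat.factorization_mul hfact_ne hNprime.ne_zero]
        simp [hqfac, hp'.factorization]
      refine ⟨Sylow.ofCard P hPcard, ?_⟩
      rw [Sylow.coe_ofCard]
      exact hPnormal
  · -- p does not divide the quotient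
    have hpq : p = q := by
      have h1 : p ∣ Nat.card (G ⧸ N) * q := by rw [← hcard]; exact hp
      rcases (Nat.Prime.dvd_mul hp').mp h1 with h2 | h2
      · exact absurd h2 hpQ
      · exact (Nat.prime_dvd_prime_iff_eq hp' hNprime).mp h2
    have hcardN : Nat.card N = p ^ (Nat.card G).factorization p := by
      rw [hcard, ← hqdef, ← hpq, Nat.factorization_mul hfact_ne hp'.ne_zero]
      simp [hp'.factorization, Nat.factorization_eq_zero_of_not_dvd hpQ]
    refine ⟨Sylow.ofCard N hcardN, ?_⟩
    rw [Sylow.coe_ofCard]
    exact hNnormal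

/-- Lifting a chain through a normal Hall subgroup. -/
lemma chain_lift {G : Type*} [Group G] [Finite G] (P : Subgroup G) [P.Normal]
    (hcop : Nat.Coprime (Nat.card P) (Nat.card (G ⧸ P))) (l : List ℕ) (c : ℕ)
    (h : Chain (G ⧸ P) c l) : Chain G (Nat.card P * c) l := by
  induction l generalizing c with
  | nil => trivial
  | cons d l ih =>
    obtain ⟨h1, h2, h3⟩ := h
    refine ⟨h1, ?_, ?_⟩
    · -- count
      have key : ∀ x : G, x ^ (Nat.card P * c * d) = 1 ↔ ((x : G ⧸ P) ^ (c * d) = 1) := by
        intro x
        constructor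
        · intro hx
          have h4 : (x : G ⧸ P) ^ (Nat.card P * c * d) = 1 := by
            rw [← QuotientGroup.mk_pow, hx, QuotientGroup.mk_one]
          have h5 := orderOf_dvd_of_pow_eq_one h4
          rw [mul_assoc] at h5
          have h6 : Nat.Coprime (orderOf (x : G ⧸ P)) (Nat.card P) :=
            Nat.Coprime.coprime_dvd_left (orderOf_dvd_natCard _) hcop.symm
          rw [← orderOf_dvd_iff_pow_eq_one]
          exact h6.dvd_of_dvd_mul_left h5
        · intro hx
          rw [← QuotientGroup.mk_pow, QuotientGroup.eq_one_iff] at hx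
          have := pow_card_subgroup P hx
          rw [← pow_mul] at this
          rw [show Nat.card P * c * d = c * d * Nat.card P by ring]
          exact this
      have e1 : {x : G // x ^ (Nat.card P * c * d) = 1} ≃ P × {y : G ⧸ P // y ^ (c * d) = 1} := by
        refine (Equiv.subtypeEquivRight key).trans ?_
        exact QuotientGroup.preimageMkEquivSubgroupProdSet P {y : G ⧸ P | y ^ (c * d) = 1}
      rw [Nat.card_congr e1, Nat.card_prod, h2]
      ring
    · have := ih (c * d) h3
      rwa [← mul_assoc] at this

/-- Supersolvable groups have a chain. -/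
theorem exists_chain_of_supersolvable (G : Type*) [Group G] [Finite G] (h : IsSupersolvable G) :
    ∃ l : List ℕ, Chain G 1 l ∧ l.prod = Nat.card G := by
  classical
  induction hn : Nat.card G using Nat.strong_induction_on generalizing G with
  | _ n ih =>
  by_cases h1 : Nat.card G = 1
  · exact ⟨[], trivial, by rw [← hn, h1]; rfl⟩
  · -- take the largest prime
    have hne : (Nat.card G).primeFactors.Nonempty := by
      rw [Nat.nonempty_primeFactors]
      have : 0 < Nat.card G := Nat.card_pos
      omega
    let p := (Nat.card G).primeFactors.max' hne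
    have hpmem : p ∈ (Nat.card G).primeFactors := Finset.max'_mem _ _
    have hp : p.Prime := Nat.prime_of_mem_primeFactors hpmem
    have hpdvd : p ∣ Nat.card G := Nat.dvd_of_mem_primeFactors hpmem
    have : Fact p.Prime := ⟨hp⟩
    obtain ⟨P, hP⟩ := exists_normal_sylow_of_supersolvable p G h hpdvd (fun q hq hqd =>
      Finset.le_max' _ _ (Nat.mem_primeFactors.mpr ⟨hq, hqd, Nat.card_pos.ne'⟩))
    have hcard : Nat.card G = Nat.card (G ⧸ (P : Subgroup G)) * Nat.card P :=
      Subgroup.card_eq_card_quotient_mul_card_subgroup (P : Subgroup G)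
    have hPcard : Nat.card P = p ^ (Nat.card G).factorization p := Sylow.card_eq_multiplicity P
    have hPbig : 1 < Nat.card P := by
      rw [hPcard]
      exact Nat.one_lt_pow (by
        have := hp.factorization_pos_of_dvd Nat.card_pos.ne' hpdvd
        omega) hp.one_lt
    have hlt : Nat.card (G ⧸ (P : Subgroup G)) < n := by
      rw [← hn, hcard]
      have : 0 < Nat.card (G ⧸ (P : Subgroup G)) := Nat.card_pos
      nlinarith
    obtain ⟨l, hl, hprod⟩ := ih _ hlt (G ⧸ (P : Subgroup G))
      (supersolvable_of_surjective (QuotientGroup.mk' _) (QuotientGroup.mk'_surjective _) h) rfl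
    have hcop : Nat.Coprime (Nat.card P) (Nat.card (G ⧸ (P : Subgroup G))) := by
      rw [hPcard]
      apply Nat.Coprime.pow_left
      rw [Nat.Prime.coprime_iff_not_dvd hp]
      intro hd
      exact P.not_dvd_index hd
    refine ⟨Nat.card P :: l, ⟨⟨p, _, hp, hPcard⟩, ?_, ?_⟩, ?_⟩
    · rw [one_mul]
      exact card_pow_eq_one_of_normal_hall _ hcop
    · have := chain_lift (P : Subgroup G) hcop l 1 hl
      rwa [mul_one, ← one_mul (Nat.card P)] at this
    · rw [List.prod_cons, hprod, ← hn, hcard]
      ring

end tower

end Cfsg.Agent.Lib.OrderType72
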