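import Mathlib
import Cfsg.Agent.Lib.OrthPsi2
import Cfsg.Prelude.Def_ClassicalGeometry

/-!
# The unique subgroup of index two of the special orthogonal group
-/

set_option autoImplicit false
set_option linter.unusedSectionVars false
set_option linter.unusedSimpArgs false

namespace Cfsg.Agent.Lib.OrthSO

open Module Matrix
open scoped MatrixGroups
open Cfsg.Agent.Lib.OrthGroup Cfsg.Agent.Lib.OrthOmega Cfsg.Agent.Lib.OrthMatrix
open Cfsg.Agent.Lib.OrthPsi Cfsg.Agent.Lib.OrthRefl
open Cfsg.Agent.Lib.OrthPsi2 Cfsg.Agent.Lib.OrthForm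

theorem commutator_le_of_index_two {K : Type*} [Group K] {D : Subgroup K} (h : D.index = 2) :
    commutator K ≤ D := by
  rw [commutator_def, Subgroup.commutator_le]
  intro g _ k _
  rw [commutatorElement_def, Subgroup.mul_mem_iff_of_index_two h, Subgroup.mul_mem_iff_of_index_two h,
    Subgroup.mul_mem_iff_of_index_two h, inv_mem_iff, inv_mem_iff]
  tauto

section squares
variable {F : Type*} [Field F] [Fintype F]

theorem isSquare_mul_iff {a b : F} (ha : a ≠ 0) (hb : b ≠ 0) :
    IsSquare (a * b) ↔ (IsSquare a ↔ IsSquare b) := by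
  have h1 := sg_mul ha hb
  by_cases h3 : IsSquare a <;> by_cases h4 : IsSquare b
  · have : IsSquare (a * b) := by
      rw [sg_of_isSquare h3, sg_of_isSquare h4] at h1
      exact isSquare_of_sg (by rw [h1]; rfl)
    tauto
  · have : ¬ IsSquare (a * b) := by
      intro h
      rw [sg_of_isSquare h, sg_of_isSquare h3, sg_of_not_isSquare h4] at h1
      exact absurd h1 (by decide)
    tauto
  · have : ¬ IsSquare (a * b) := by
      intro h
      rw [sg_of_isSquare h, sg_of_isSquare h4, sg_of_not_isSquare h3] at h1
      exact absurd h1 (by decide)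
    tauto
  · have : IsSquare (a * b) := by
      rw [sg_of_not_isSquare h3, sg_of_not_isSquare h4] at h1
      exact isSquare_of_sg (by rw [h1]; rfl)
    tauto

end squares

section gen

variable {F V : Type*} [Field F] [Fintype F] [AddCommGroup V] [Module F V] [FiniteDimensional F V]
variable {Q : QuadraticForm F V}

theorem reflO_map (g : ↥(O Q)) (v : V) :
    reflO Q ((g : V ≃ₗ[F] V) v) = g * reflO Q v * g⁻¹ := by
  apply Subtype.ext
  exact (conj_refl g.2 v).symm

theorem Q_reflO (u v : V) : Q ((reflO Q u : V ≃ₗ[F] V) v) = Q v := (reflO Q u).2 v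

theorem reflO_inv (u : V) : (reflO Q u)⁻¹ = reflO Q u :=
  inv_eq_of_mul_eq_one_left (reflO_mul_self Q u)

/-- Subgroups containing the products `r_u r_v` for `u`, `v` in one square class contain the
commutator group's generating lists. -/
theorem prodO_mem_of_pairs (D : Subgroup ↥(O Q))
    (hD : ∀ u v, Q u ≠ 0 → Q v ≠ 0 → IsSquare (Q u * Q v) → reflO Q u * reflO Q v ∈ D) :
    ∀ (n : ℕ) (L : List V), L.length = n → (∀ v ∈ L, Q v ≠ 0) → Even L.length →
      IsSquare (L.map Q).prod → prodO Q L ∈ D := by
  intro n
  induction n using Nat.strong_induction_on with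
  | _ n ih =>
    intro L hn hL he hs
    match L, hn, hL, he, hs with
    | [], _, _, _, _ => exact D.one_mem
    | [u], _, _, he, _ =>
      exfalso
      simp at he
    | u :: v :: L', hn, hL, he, hs =>
      have hu : Q u ≠ 0 := hL u (by simp)
      have hv : Q v ≠ 0 := hL v (by simp)
      have hL' : ∀ z ∈ L', Q z ≠ 0 := fun z hz => hL z (by simp [hz])
      have hP := prod_map_ne_zero hL'
      simp only [List.map_cons, List.prod_cons] at hs
      have he' : Even L'.length := by
        simp only [List.length_cons] at he
        rcases he with ⟨k, hk⟩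
        exact ⟨k - 1, by omega⟩
      simp only [List.length_cons] at hn
      rw [isSquare_mul_iff hu (mul_ne_zero hv hP), isSquare_mul_iff hv hP] at hs
      by_cases huv : IsSquare (Q u * Q v)
      · rw [isSquare_mul_iff hu hv] at huv
        rw [prodO_cons, prodO_cons, ← mul_assoc]
        refine D.mul_mem (hD u v hu hv (by rw [isSquare_mul_iff hu hv]; exact huv)) ?_
        exact ih _ (by omega) L' rfl hL' he' (by tauto)
      · rw [isSquare_mul_iff hu hv] at huv
        match L', hn, hL, he, hs, hL', hP, he' with
        | [], _, _, _, hs, _, _, _ =>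
          exfalso
          simp only [List.map_nil, List.prod_nil, IsSquare.one, iff_true] at hs
          tauto
        | w :: L'', hn, hL, he, hs, hL', hP, he' =>
          have hw : Q w ≠ 0 := hL' w (by simp)
          have hL'' : ∀ z ∈ L'', Q z ≠ 0 := fun z hz => hL' z (by simp [hz])
          have hP' := prod_map_ne_zero hL''
          simp only [List.map_cons, List.prod_cons] at hs
          rw [isSquare_mul_iff hw hP'] at hs
          simp only [List.length_cons] at hn he'
          by_cases hvw : (IsSquare (Q v) ↔ IsSquare (Q w))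
          · -- move `r_u` to the right
            have hx : Q ((reflO Q u : V ≃ₗ[F] V) v) = Q v := Q_reflO u v
            have hy : Q ((reflO Q u : V ≃ₗ[F] V) w) = Q w := Q_reflO u w
            have hprod : prodO Q (u :: v :: w :: L'') =
                (reflO Q ((reflO Q u : V ≃ₗ[F] V) v) * reflO Q ((reflO Q u : V ≃ₗ[F] V) w)) *
                  prodO Q (u :: L'') := by
              rw [reflO_map, reflO_map, reflO_inv]
              simp only [prodO_cons]
              have h5 := reflO_mul_self Q u
              calc reflO Q u * (reflO Q v * (reflO Q w * prodO Q L'')) =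
                  reflO Q u * reflO Q v * (reflO Q u * reflO Q u) * reflO Q w * (reflO Q u * reflO Q u) * prodO Q L'' := by
                    rw [h5]; simp only [mul_one, mul_assoc]
                _ = _ := by simp only [mul_assoc]
            rw [hprod]
            refine D.mul_mem (hD _ _ (by rw [hx]; exact hv) (by rw [hy]; exact hw) ?_) ?_
            · rw [hx, hy, isSquare_mul_iff hv hw]
              exact hvw
            · refine ih (L''.length + 1) (by omega) (u :: L'') rfl ?_ ?_ ?_
              · intro z hz
                rcases List.mem_cons.1 hz with rfl | hz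
                · exact hu
                · exact hL'' z hz
              · rcases he' with ⟨k, hk⟩
                exact ⟨k, by simp only [List.length_cons]; omega⟩
              · simp only [List.map_cons, List.prod_cons]
                rw [isSquare_mul_iff hu hP']
                tauto
          · have huw : IsSquare (Q u) ↔ IsSquare (Q w) := by tauto
            have hy : Q ((reflO Q v : V ≃ₗ[F] V) w) = Q w := Q_reflO v w
            have hprod : prodO Q (u :: v :: w :: L'') =
                (reflO Q u * reflO Q ((reflO Q v : V ≃ₗ[F] V) w)) *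
                  prodO Q (v :: L'') := by
              rw [reflO_map, reflO_inv]
              simp only [prodO_cons]
              have h5 := reflO_mul_self Q v
              calc reflO Q u * (reflO Q v * (reflO Q w * prodO Q L'')) =
                  reflO Q u * reflO Q v * reflO Q w * (reflO Q v * reflO Q v) * prodO Q L'' := by
                    rw [h5]; simp only [mul_one, mul_assoc]
                _ = _ := by simp only [mul_assoc]
            rw [hprod]
            refine D.mul_mem (hD _ _ hu (by rw [hy]; exact hw) ?_) ?_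
            · rw [hy, isSquare_mul_iff hu hw]
              exact huw
            · refine ih (L''.length + 1) (by omega) (v :: L'') rfl ?_ ?_ ?_
              · intro z hz
                rcases List.mem_cons.1 hz with rfl | hz
                · exact hv
                · exact hL'' z hz
              · rcases he' with ⟨k, hk⟩
                exact ⟨k, by simp only [List.length_cons]; omega⟩
              · simp only [List.map_cons, List.prod_cons]
                rw [isSquare_mul_iff hv hP']
                tauto

/-- two reflections in vectors of the same value are conjugate, with the product a square. -/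
theorem refl_pair_mem (h2 : (2 : F) ≠ 0) (D : Subgroup ↥(O Q))
    (hsq : ∀ u x, Q u ≠ 0 → Q x ≠ 0 → (reflO Q u * reflO Q x) * (reflO Q u * reflO Q x) ∈ D)
    {u v : V} (hu : Q u ≠ 0) (hv : Q v ≠ 0) (huv : IsSquare (Q u * Q v)) :
    reflO Q u * reflO Q v ∈ D := by
  obtain ⟨s, hs⟩ := huv
  have hs0 : s ≠ 0 := by
    rintro rfl
    rw [mul_zero] at hs
    exact mul_ne_zero hu hv hs
  set lam := s / Q u with hlam
  have hlam0 : lam ≠ 0 := div_ne_zero hs0 hu
  have hQu' : Q (lam • u) = Q v := by
    rw [Q_smul, hlam]
    field_simp
    linear_combination -hs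
  have hr : reflO Q (lam • u) = reflO Q u := by
    apply Subtype.ext
    exact refl_smul Q hlam0
  have hu' : Q (lam • u) ≠ 0 := by rw [hQu']; exact hv
  rw [← hr]
  set w := lam • u with hw
  have hr2 : reflO Q (-v) = reflO Q v := by
    apply Subtype.ext
    have := refl_smul Q (v := v) (c := -1) (by simp)
    rw [neg_smul, one_smul] at this
    exact this
  -- one of `w ± v` is nonsingular
  have hsum : Q (w - v) + Q (w + v) = 2 * 2 * Q v := by
    rw [Q_sub, Q_add, hQu']
    ring
  have hmain : ∀ x : V, Q x ≠ 0 → (reflO Q x : V ≃ₗ[F] V) w = v ∨ (reflO Q x : V ≃ₗ[F] V) w = -v →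
      reflO Q w * reflO Q v ∈ D := by
    intro x hx h
    have h1 : reflO Q v = reflO Q x * reflO Q w * reflO Q x := by
      have h3 := reflO_map (Q := Q) (reflO Q x) w
      rw [reflO_inv] at h3
      rcases h with h | h
      · rw [h] at h3
        exact h3
      · rw [h, hr2] at h3
        exact h3
    have h4 := hsq w x hu' hx
    have h5 : reflO Q w * reflO Q v = (reflO Q w * reflO Q x) * (reflO Q w * reflO Q x) := by
      rw [h1]
      simp only [mul_assoc]
    rw [h5]
    exact h4
  by_cases hx : Q (w - v) = 0
  · have hx' : Q (w + v) ≠ 0 := by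
      rw [hx, zero_add] at hsum
      rw [hsum]
      exact mul_ne_zero (mul_ne_zero h2 h2) hv
    refine hmain (w + v) hx' (Or.inr ?_)
    change refl Q (w + v) w = -v
    rw [refl_apply]
    have h6 : B Q w (w + v) = Q (w + v) := by
      rw [map_add, B_self, Q_add, hQu']
      ring
    rw [h6, inv_mul_cancel₀ hx', one_smul]
    abel
  · refine hmain (w - v) hx (Or.inl ?_)
    change refl Q (w - v) w = v
    rw [refl_apply]
    have h6 : B Q w (w - v) = Q (w - v) := by
      rw [map_sub, B_self, Q_sub, hQu']
      ring
    rw [h6, inv_mul_cancel₀ hx, one_smul]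
    abel

/-- A subgroup containing the squares of the products of two reflections contains the commutator
subgroup. -/
theorem commutator_le_of_sq (h2 : (2 : F) ≠ 0) (hQ : (B Q).Nondegenerate) (D : Subgroup ↥(O Q))
    (hsq : ∀ u x, Q u ≠ 0 → Q x ≠ 0 → (reflO Q u * reflO Q x) * (reflO Q u * reflO Q x) ∈ D) :
    commutator ↥(O Q) ≤ D := by
  intro g hg
  obtain ⟨L, hL, rfl, he, hs⟩ := (mem_commutator_iff hQ (hOG_of_two h2 hQ) g).1 hg
  exact prodO_mem_of_pairs D (fun u v hu hv huv => refl_pair_mem h2 D hsq hu hv huv) _ L rfl hL he hs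

end gen

section main

variable {F : Type*} [Field F] [Fintype F] {ι : Type} [Fintype ι] [DecidableEq ι]
variable {Q : QuadraticForm F (ι → F)}

theorem mem_SO_iff (g : ↥(Cfsg.isometryGroup F ⇑Q)) :
    g ∈ Cfsg.specialIsometryGroup F ⇑Q ↔ ((g : GL ι F) : Matrix ι ι F).det = 1 := by
  rw [Cfsg.specialIsometryGroup, MonoidHom.mem_ker, Units.ext_iff]
  rfl

/-- The embedding of the special group. -/
noncomputable def iSO (Q : QuadraticForm F (ι → F)) : ↥(Cfsg.specialIsometryGroup F ⇑Q) →* ↥(O Q) :=
  (toO Q).toMonoidHom.comp (Cfsg.specialIsometryGroup F ⇑Q).subtype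

theorem iSO_injective : Function.Injective (iSO Q) := by
  intro a b h
  exact Subtype.ext ((toO Q).injective h)

/-- uniqueness given a candidate: generic. -/
theorem existsUnique_of {K : Type*} [Group K] (C : Subgroup K) (hC : C.index = 2)
    (h : ∀ H : Subgroup K, H.index = 2 → C ≤ H) : ∃! H : Subgroup K, H.index = 2 := by
  refine ⟨C, hC, fun H hH => ?_⟩
  have h1 := h H hH
  have h3 := Subgroup.relIndex_mul_index h1
  rw [hC, hH] at h3
  have h4 : C.relIndex H = 1 := by omega
  exact le_antisymm (Subgroup.relIndex_eq_one.1 h4) h1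

theorem main_odd (h2 : (2 : F) ≠ 0) (hQ : (B Q).Nondegenerate) (hn : 2 ≤ Fintype.card ι) :
    ∃! H : Subgroup ↥(Cfsg.specialIsometryGroup F ⇑Q), H.index = 2 := by
  have hOG := hOG_of_two h2 hQ
  have hfin : 2 ≤ finrank F (ι → F) := by rwa [Module.finrank_fintype_fun_eq_card]
  have hne : (-1 : F) ≠ 1 := neg_one_ne_one' h2
  -- even lists give elements of the special group
  have hdet : ∀ L : List (ι → F), (∀ v ∈ L, Q v ≠ 0) → Even L.length →
      elt Q L ∈ Cfsg.specialIsometryGroup F ⇑Q := by
    intro L hL he
    rw [mem_SO_iff, det_elt Q L hL, he.neg_one_pow]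
  refine existsUnique_of ((commutator ↥(O Q)).comap (iSO Q)) ?_ ?_
  · -- the index
    let φ : ↥(Cfsg.specialIsometryGroup F ⇑Q) →* ℤˣ :=
      (MonoidHom.snd ℤˣ ℤˣ).comp ((psi hQ hOG).comp (iSO Q))
    have hker : (commutator ↥(O Q)).comap (iSO Q) = φ.ker := by
      ext g
      rw [Subgroup.mem_comap, ← ker_psi hQ hOG, MonoidHom.mem_ker, MonoidHom.mem_ker]
      simp only [φ, MonoidHom.comp_apply, MonoidHom.coe_snd]
      obtain ⟨L, hL, hg⟩ := exists_list hOG (iSO Q g)
      have hdetg : ((g.1 : GL ι F) : Matrix ι ι F).det = (-1) ^ L.length := by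
        have : g.1 = elt Q L := by
          apply (toO Q).injective
          rw [toO_elt, ← hg]
          rfl
        rw [this]
        exact det_elt Q L hL
      have he : Even L.length := by
        by_contra hodd
        rw [Nat.not_even_iff_odd] at hodd
        rw [hodd.neg_one_pow, (mem_SO_iff g.1).1 g.2] at hdetg
        exact hne hdetg.symm
      rw [hg, psi_prodO hQ hOG hL]
      constructor
      · intro h
        rw [h]
        rfl
      · intro h
        exact Prod.ext he.neg_one_pow h
    rw [hker, Subgroup.index_ker]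
    have hsurj : Function.Surjective φ := by
      obtain ⟨α, hα⟩ := exists_nonsq h2
      obtain ⟨a, ha⟩ := exists_value_top h2 hQ hfin 1
      obtain ⟨b, hb⟩ := exists_value_top h2 hQ hfin α
      have hb0 : Q b ≠ 0 := by
        rw [hb]
        exact fun h => hα (by rw [h]; exact IsSquare.zero)
      have ha0 : Q a ≠ 0 := by rw [ha]; exact one_ne_zero
      intro y
      rcases Int.units_eq_one_or y with rfl | rfl
      · exact ⟨1, map_one _⟩
      · have hL : ∀ v ∈ [a, b], Q v ≠ 0 := by
          intro v hv
          simp only [List.mem_cons, List.not_mem_nil, or_false] at hv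
          rcases hv with rfl | rfl
          · exact ha0
          · exact hb0
        refine ⟨⟨elt Q [a, b], hdet _ hL (by simp)⟩, ?_⟩
        simp only [φ, MonoidHom.comp_apply, MonoidHom.coe_snd]
        have : iSO Q ⟨elt Q [a, b], hdet _ hL (by simp)⟩ = prodO Q [a, b] := toO_elt Q _
        rw [this, psi_prodO hQ hOG hL]
        simp only [OrthPsi.inv, List.map_cons, List.map_nil, List.prod_cons, List.prod_nil, mul_one]
        apply sg_of_not_isSquare
        rw [ha, hb, one_mul]
        exact hα
    rw [MonoidHom.range_eq_top_of_surjective _ hsurj]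
    simp
  · intro H hH
    intro g hg
    rw [Subgroup.mem_comap] at hg
    rw [← Subgroup.mem_map_iff_mem iSO_injective]
    refine commutator_le_of_sq h2 hQ (H.map (iSO Q)) ?_ hg
    intro u x hu hx
    have hL : ∀ v ∈ [u, x], Q v ≠ 0 := by
      intro v hv
      simp only [List.mem_cons, List.not_mem_nil, or_false] at hv
      rcases hv with rfl | rfl
      · exact hu
      · exact hx
    have h3 : iSO Q ⟨elt Q [u, x], hdet _ hL (by simp)⟩ = reflO Q u * reflO Q x := by
      have h4 : iSO Q ⟨elt Q [u, x], hdet _ hL (by simp)⟩ = prodO Q [u, x] := toO_elt Q _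
      rw [h4, prodO_cons, prodO_cons, prodO_nil, mul_one]
    rw [← h3, ← map_mul]
    refine ⟨_, ?_, rfl⟩
    have := Subgroup.sq_mem_of_index_two hH ⟨elt Q [u, x], hdet _ hL (by simp)⟩
    rwa [pow_two] at this

theorem main_char_two [CharP F 2] (hQ : (B Q).Nondegenerate) (hn : 1 ≤ Fintype.card ι)
    (h : Fintype.card F ≠ 2 ∨ Fintype.card ι ≠ 4) :
    ∃! H : Subgroup ↥(Cfsg.specialIsometryGroup F ⇑Q), H.index = 2 := by
  have hdet : ∀ g : ↥(Cfsg.isometryGroup F ⇑Q), g ∈ Cfsg.specialIsometryGroup F ⇑Q := by
    intro g
    rw [mem_SO_iff]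
    have h3 := det_isometry_sq hQ g.2
    have h4 : (((g : GL ι F) : Matrix ι ι F).det - 1) * (((g : GL ι F) : Matrix ι ι F).det - 1) = 0 := by
      have h5 : (2 : F) = 0 := by exact_mod_cast CharP.cast_eq_zero F 2
      linear_combination h3 + (1 - ((g : GL ι F) : Matrix ι ι F).det) * h5
    have h6 := mul_self_eq_zero.1 h4
    exact sub_eq_zero.1 h6
  have hsurj : Function.Surjective (iSO Q) := by
    intro x
    exact ⟨⟨(toO Q).symm x, hdet _⟩, (toO Q).apply_symm_apply x⟩
  refine existsUnique_of ((commutator ↥(O Q)).comap (iSO Q)) ?_ ?_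
  · rw [Subgroup.index_comap_of_surjective _ hsurj]
    exact index_commutator_char_two hQ (by rwa [Module.finrank_fintype_fun_eq_card])
      (by rwa [Module.finrank_fintype_fun_eq_card])
  · intro H hH g hg
    rw [Subgroup.mem_comap] at hg
    have h7 := commutator_le_of_index_two hH
    have h8 := (mem_commutator_equiv (MulEquiv.ofBijective (iSO Q) ⟨iSO_injective, hsurj⟩) g).2 hg
    exact h7 h8

end main

end Cfsg.Agent.Lib.OrthSO
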