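import Mathlib
import Cfsg.Agent.Lib.OrthMatrix
import Cfsg.Agent.Lib.OrthBlock

/-!
# Orthogonal sums of quadratic forms, and their commutator subgroups
-/

set_option autoImplicit false
set_option linter.unusedSectionVars false
set_option linter.unusedSimpArgs false

namespace Cfsg.Agent.Lib.OrthSum

open Module Matrix
open scoped MatrixGroups
open Cfsg.Agent.Lib.OrthGroup Cfsg.Agent.Lib.OrthOmega Cfsg.Agent.Lib.OrthMatrix
open Cfsg.Agent.Lib.OrthBlock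

variable {F : Type*} [Field F] {ι₁ ι₂ : Type} [Fintype ι₁] [Fintype ι₂] [DecidableEq ι₁] [DecidableEq ι₂]

/-- The orthogonal sum as a quadratic form. -/
noncomputable def sumQ (Q₁ : QuadraticForm F (ι₁ → F)) (Q₂ : QuadraticForm F (ι₂ → F)) :
    QuadraticForm F (ι₁ ⊕ ι₂ → F) :=
  Q₁.comp (LinearMap.funLeft F F Sum.inl) + Q₂.comp (LinearMap.funLeft F F Sum.inr)

variable (Q₁ : QuadraticForm F (ι₁ → F)) (Q₂ : QuadraticForm F (ι₂ → F))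

theorem sumQ_apply (v : ι₁ ⊕ ι₂ → F) : sumQ Q₁ Q₂ v = Q₁ (v ∘ Sum.inl) + Q₂ (v ∘ Sum.inr) := rfl

theorem coe_sumQ : ⇑(sumQ Q₁ Q₂) = sumForm ⇑Q₁ ⇑Q₂ := rfl

theorem B_sumQ (x y : ι₁ ⊕ ι₂ → F) :
    B (sumQ Q₁ Q₂) x y = B Q₁ (x ∘ Sum.inl) (y ∘ Sum.inl) + B Q₂ (x ∘ Sum.inr) (y ∘ Sum.inr) := by
  simp only [B_apply, sumQ_apply]
  have e1 : (x + y) ∘ Sum.inl = x ∘ Sum.inl + y ∘ Sum.inl := rfl
  have e2 : (x + y) ∘ Sum.inr = x ∘ Sum.inr + y ∘ Sum.inr := rfl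
  rw [e1, e2]
  ring

theorem sumQ_nondeg (h₁ : (B Q₁).Nondegenerate) (h₂ : (B Q₂).Nondegenerate) :
    (B (sumQ Q₁ Q₂)).Nondegenerate := by
  have key : ∀ x : ι₁ ⊕ ι₂ → F, (∀ y, B (sumQ Q₁ Q₂) x y = 0) → x = 0 := by
    intro x hx
    have hl : x ∘ Sum.inl = 0 := by
      apply h₁.1
      intro y
      have := hx (Sum.elim y 0)
      rw [B_sumQ] at this
      have e1 : (Sum.elim y 0 : ι₁ ⊕ ι₂ → F) ∘ Sum.inl = y := rfl
      have e2 : (Sum.elim y 0 : ι₁ ⊕ ι₂ → F) ∘ Sum.inr = 0 := rfl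
      rw [e1, e2] at this
      simpa using this
    have hr : x ∘ Sum.inr = 0 := by
      apply h₂.1
      intro y
      have := hx (Sum.elim 0 y)
      rw [B_sumQ] at this
      have e1 : (Sum.elim 0 y : ι₁ ⊕ ι₂ → F) ∘ Sum.inl = 0 := rfl
      have e2 : (Sum.elim 0 y : ι₁ ⊕ ι₂ → F) ∘ Sum.inr = y := rfl
      rw [e1, e2] at this
      simpa using this
    funext i
    rcases i with i | i
    · exact congrFun hl i
    · exact congrFun hr i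
  refine ⟨key, ?_⟩
  intro x hx
  apply key
  intro y
  rw [B_comm]
  exact hx y

theorem refl_sum_inl (v : ι₁ → F) (x : ι₁ ⊕ ι₂ → F) :
    refl (sumQ Q₁ Q₂) (Sum.elim v 0) x = Sum.elim (refl Q₁ v (x ∘ Sum.inl)) (x ∘ Sum.inr) := by
  have hQ : sumQ Q₁ Q₂ (Sum.elim v 0) = Q₁ v := by
    rw [sumQ_apply]
    have e1 : (Sum.elim v 0 : ι₁ ⊕ ι₂ → F) ∘ Sum.inl = v := rfl
    have e2 : (Sum.elim v 0 : ι₁ ⊕ ι₂ → F) ∘ Sum.inr = 0 := rfl
    rw [e1, e2]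
    simp
  have hB : B (sumQ Q₁ Q₂) x (Sum.elim v 0) = B Q₁ (x ∘ Sum.inl) v := by
    rw [B_sumQ]
    have e1 : (Sum.elim v 0 : ι₁ ⊕ ι₂ → F) ∘ Sum.inl = v := rfl
    have e2 : (Sum.elim v 0 : ι₁ ⊕ ι₂ → F) ∘ Sum.inr = 0 := rfl
    rw [e1, e2]
    simp
  rw [refl_apply, refl_apply, hQ, hB]
  funext i
  rcases i with i | i <;> simp

/-- Acting by `prodR` of lifted vectors. -/
theorem prodR_sum_inl (L : List (ι₁ → F)) (x : ι₁ ⊕ ι₂ → F) :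
    prodR (sumQ Q₁ Q₂) (L.map fun v => Sum.elim v 0) x =
      Sum.elim (prodR Q₁ L (x ∘ Sum.inl)) (x ∘ Sum.inr) := by
  induction L generalizing x with
  | nil =>
    funext i
    rcases i with i | i <;> simp
  | cons v L ih =>
    simp only [List.map_cons, prodR_cons]
    show refl _ _ (prodR _ _ x) = Sum.elim (refl _ _ (prodR _ _ _)) _
    rw [ih, refl_sum_inl]
    rfl

theorem fromBlocks_one_mulVec (A : Matrix ι₁ ι₁ F) (x : ι₁ ⊕ ι₂ → F) :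
    fromBlocks A 0 0 (1 : Matrix ι₂ ι₂ F) *ᵥ x = Sum.elim (A *ᵥ (x ∘ Sum.inl)) (x ∘ Sum.inr) := by
  rw [fromBlocks_mulVec]
  funext i
  rcases i with i | i <;> simp

theorem hF_of_card {ι : Type} [Fintype ι] [DecidableEq ι] [Fintype F] (h : Fintype.card F ≠ 2 ∨ Fintype.card ι ≠ 4) :
    (∃ a : F, a ≠ 0 ∧ a ≠ 1) ∨ finrank F (ι → F) ≠ 4 := by
  rcases h with h | h
  · exact Or.inl (exists_ne_zero_one_of_card_ne_two h)
  · right; rwa [Module.finrank_fintype_fun_eq_card]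

/-- The sum in S2627. -/
theorem omega_block_iff [Fintype F] (hQ₁ : (B Q₁).Nondegenerate) (hQ₂ : (B Q₂).Nondegenerate)
    (hG₁ : O Q₁ ≤ G Q₁) (hG : O (sumQ Q₁ Q₂) ≤ G (sumQ Q₁ Q₂)) (g₁ : ↥(Cfsg.isometryGroup F ⇑Q₁)) :
    (∃ g : ↥(Cfsg.isometryGroup F ⇑(sumQ Q₁ Q₂)), g ∈ Cfsg.Omega F ⇑(sumQ Q₁ Q₂) ∧
      ((g : GL (ι₁ ⊕ ι₂) F) : Matrix (ι₁ ⊕ ι₂) (ι₁ ⊕ ι₂) F) =
        fromBlocks ((g₁ : GL ι₁ F) : Matrix ι₁ ι₁ F) 0 0 1) ↔ g₁ ∈ Cfsg.Omega F ⇑Q₁ := by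
  constructor
  · rintro ⟨g, hg, hmat⟩
    rw [mem_Omega_iff] at hg ⊢
    obtain ⟨M, hM, hgM, heM, hsM⟩ := exists_list_of_mem_commutator hG hg
    obtain ⟨L, hL, hx⟩ := exists_list_of_mem_G (hG₁ (toO Q₁ g₁).2)
    have hg₁ : toO Q₁ g₁ = prodO Q₁ L := Subtype.ext hx
    rw [hg₁]
    -- the lifted list
    set L' : List (ι₁ ⊕ ι₂ → F) := L.map fun v => Sum.elim v 0 with hL'def
    have hQL : ∀ v : ι₁ → F, sumQ Q₁ Q₂ (Sum.elim v 0) = Q₁ v := by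
      intro v
      rw [sumQ_apply]
      have e1 : (Sum.elim v 0 : ι₁ ⊕ ι₂ → F) ∘ Sum.inl = v := rfl
      have e2 : (Sum.elim v 0 : ι₁ ⊕ ι₂ → F) ∘ Sum.inr = 0 := rfl
      rw [e1, e2]
      simp
    have hL'ne : ∀ v ∈ L', sumQ Q₁ Q₂ v ≠ 0 := by
      intro v hv
      obtain ⟨w, hw, rfl⟩ := List.mem_map.1 hv
      rw [hQL]
      exact hL w hw
    have hprod : prodR (sumQ Q₁ Q₂) L' = prodR (sumQ Q₁ Q₂) M := by
      have h2 : (toO (sumQ Q₁ Q₂) g : _ ≃ₗ[F] _) = prodR (sumQ Q₁ Q₂) M := by rw [hgM]; rfl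
      rw [← h2]
      ext1 x
      rw [toO_apply, hmat, fromBlocks_one_mulVec, prodR_sum_inl, ← toO_apply, hg₁]
      rfl
    obtain ⟨he, hs⟩ := invariant_of_prodR_eq (sumQ_nondeg Q₁ Q₂ hQ₁ hQ₂) hL'ne hM hprod
    have hlen : L'.length = L.length := List.length_map _
    have hmap : L'.map (sumQ Q₁ Q₂) = L.map Q₁ := by
      rw [hL'def, List.map_map]
      apply List.map_congr_left
      intro v _
      exact hQL v
    rw [hlen] at he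
    rw [hmap] at hs
    apply prodO_mem_commutator hQ₁ L hL
    · exact (Nat.even_add.1 he).2 heM
    · obtain ⟨c, hc⟩ := hs
      obtain ⟨d, hd⟩ := hsM
      have hd0 : d ≠ 0 := by
        rintro rfl
        rw [mul_zero, List.prod_eq_zero_iff] at hd
        obtain ⟨v, hv, hv0⟩ := List.mem_map.1 hd
        exact hM v hv hv0
      refine ⟨c / d, ?_⟩
      rw [hd] at hc
      field_simp
      rw [sq, sq, ← hc]
  · intro hg
    refine ⟨blockHom ⇑Q₁ ⇑Q₂ (g₁, 1), ?_, rfl⟩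
    exact block_mem_omega _ _ _ _ hg (Subgroup.one_mem _)

/-- Action of a block sum. -/
theorem blockHom_mulVec (q₁ : (ι₁ → F) → F) (q₂ : (ι₂ → F) → F)
    (p : ↥(Cfsg.isometryGroup F q₁) × ↥(Cfsg.isometryGroup F q₂)) (x : ι₁ ⊕ ι₂ → F) :
    (((blockHom q₁ q₂ p : ↥(Cfsg.isometryGroup F (sumForm q₁ q₂))) : GL (ι₁ ⊕ ι₂) F) :
      Matrix (ι₁ ⊕ ι₂) (ι₁ ⊕ ι₂) F) *ᵥ x =
      Sum.elim (((p.1 : GL ι₁ F) : Matrix ι₁ ι₁ F) *ᵥ (x ∘ Sum.inl))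
        (((p.2 : GL ι₂ F) : Matrix ι₂ ι₂ F) *ᵥ (x ∘ Sum.inr)) := by
  rw [blockHom_val, fromBlocks_mulVec]
  funext i
  rcases i with i | i <;> simp

/-- The swap isometry on `Q ⊕ Q`. -/
noncomputable def swapO (Q : QuadraticForm F (ι₁ → F)) : ↥(O (sumQ Q Q)) :=
  ⟨LinearEquiv.funCongrLeft F F (Equiv.sumComm ι₁ ι₁), fun x => by
    rw [sumQ_apply, sumQ_apply, add_comm]
    rfl⟩

theorem swapO_apply (Q : QuadraticForm F (ι₁ → F)) (x : ι₁ ⊕ ι₁ → F) :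
    (swapO Q).1 x = x ∘ Sum.swap := rfl

/-- The diagonal action on `Q ⊕ Q` is in the commutator subgroup. -/
theorem diag_mem_omega (Q : QuadraticForm F (ι₁ → F)) (hG : O (sumQ Q Q) ≤ G (sumQ Q Q))
    (g : ↥(Cfsg.isometryGroup F ⇑Q)) :
    (blockHom ⇑Q ⇑Q (g, g) : ↥(Cfsg.isometryGroup F ⇑(sumQ Q Q))) ∈ Cfsg.Omega F ⇑(sumQ Q Q) := by
  refine (mem_Omega_iff (sumQ Q Q) _).2 ?_
  let a : ↥(Cfsg.isometryGroup F ⇑(sumQ Q Q)) := blockHom ⇑Q ⇑Q (g, 1)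
  let b : ↥(Cfsg.isometryGroup F ⇑(sumQ Q Q)) := blockHom ⇑Q ⇑Q (1, g)
  have hab : (blockHom ⇑Q ⇑Q (g, g) : ↥(Cfsg.isometryGroup F ⇑(sumQ Q Q))) = a * b := by
    show _ = blockHom ⇑Q ⇑Q (g, 1) * blockHom ⇑Q ⇑Q (1, g)
    rw [← map_mul]
    simp
  have hconj : swapO Q * toO (sumQ Q Q) a = toO (sumQ Q Q) b * swapO Q := by
    apply Subtype.ext
    ext1 x
    show (swapO Q).1 ((toO (sumQ Q Q) a).1 x) = (toO (sumQ Q Q) b).1 ((swapO Q).1 x)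
    rw [toO_apply, toO_apply]
    show (swapO Q).1 ((((blockHom ⇑Q ⇑Q (g, 1) : ↥(Cfsg.isometryGroup F (sumForm ⇑Q ⇑Q))) : GL (ι₁ ⊕ ι₁) F) : Matrix _ _ F) *ᵥ x) =
      ((((blockHom ⇑Q ⇑Q (1, g) : ↥(Cfsg.isometryGroup F (sumForm ⇑Q ⇑Q))) : GL (ι₁ ⊕ ι₁) F) : Matrix _ _ F) *ᵥ ((swapO Q).1 x))
    rw [blockHom_mulVec, blockHom_mulVec, swapO_apply, swapO_apply]
    funext i
    rcases i with i | i
    · simp only [Sum.swap, Sum.elim_inl, Sum.elim_inr, Function.comp, OneMemClass.coe_one,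
        Units.val_one, Matrix.one_mulVec]
    · simp only [Sum.swap, Sum.elim_inl, Sum.elim_inr, Function.comp, OneMemClass.coe_one,
        Units.val_one, Matrix.one_mulVec]
      rfl
  rw [hab, map_mul, mem_commutator_iff_of, map_mul]
  have h1 : Abelianization.of (toO (sumQ Q Q) a) = Abelianization.of (toO (sumQ Q Q) b) := by
    have := congrArg Abelianization.of hconj
    rw [map_mul, map_mul, mul_comm] at this
    exact mul_right_cancel this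
  rw [← h1, ← map_mul, ← mem_commutator_iff_of]
  exact sq_mem_commutator hG _

end Cfsg.Agent.Lib.OrthSum
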