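import Mathlib
import Cfsg.Prelude.Def_Classical
import Cfsg.Prelude.Def_SporadicB
import Cfsg.Agent.Lib.OrthMatrix

/-!
# Orthogonal transvections over the field with two elements

For a quadratic form with nondegenerate polar form over `ZMod 2`, in dimension other than 4, the
isometries `g` with `rank (g - 1) = 1` are exactly the transvections `refl Q v` with `Q v = 1`,
and they form a generating conjugacy class of 3-transpositions.
-/

set_option autoImplicit false
set_option linter.unusedSectionVars false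
set_option linter.unusedSimpArgs false

namespace Cfsg.Agent.Lib.OrthTransF2

open Module Matrix
open scoped MatrixGroups
open Cfsg.Agent.Lib.OrthGroup Cfsg.Agent.Lib.OrthMatrix

section abstract

variable {V : Type*} [AddCommGroup V] [Module (ZMod 2) V]

theorem z2 (a : ZMod 2) : a = 0 ∨ a = 1 := by revert a; decide

theorem add_self' (v : V) : v + v = 0 := by
  have h := two_smul (ZMod 2) v
  rw [← h]
  have : (2 : ZMod 2) = 0 := by decide
  rw [this, zero_smul]

theorem sub_eq_add' (x y : V) : x - y = x + y := by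
  rw [sub_eq_iff_eq_add, add_assoc, add_self', add_zero]

theorem refl_apply2 (Q : QuadraticForm (ZMod 2) V) {v : V} (hv : Q v = 1) (x : V) :
    refl Q v x = x + B Q x v • v := by
  rw [refl_apply, hv, inv_one, one_mul, sub_eq_add']

theorem eq_refl_of_forall {Q : QuadraticForm (ZMod 2) V} (hQ : (B Q).Nondegenerate)
    {g : V ≃ₗ[ZMod 2] V} (hg : g ∈ O Q) {v : V} (hv : v ≠ 0) (hne : g ≠ 1)
    (h : ∀ x, g x = x ∨ g x = x + v) : Q v = 1 ∧ g = refl Q v := by
  obtain ⟨x0, hx0⟩ : ∃ x0, g x0 = x0 + v := by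
    by_contra hcon
    push Not at hcon
    apply hne
    ext x
    exact (h x).resolve_right (hcon x)
  have h1 : ∀ x, g x = x → B Q x v = 0 := by
    intro x hx
    have := B_of_mem_O hg x x0
    rw [hx, hx0, map_add] at this
    simpa using this
  have h2 : ∀ x, g x = x + v → B Q x v = Q v := by
    intro x hx
    have := hg x
    rw [hx, Q_add] at this
    have h3 : Q v + B Q x v = 0 := by
      have : Q x + (Q v + B Q x v) = Q x + 0 := by rw [add_zero, ← add_assoc]; exact this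
      exact add_left_cancel this
    rcases z2 (Q v) with h0 | h0 <;> rcases z2 (B Q x v) with h0' | h0' <;> simp_all
  have hQv : Q v = 1 := by
    rcases z2 (Q v) with h0 | h0
    · exfalso
      apply hv
      refine hQ.1 v fun y => ?_
      rw [B_comm]
      rcases h y with hy | hy
      · exact h1 y hy
      · rw [h2 y hy, h0]
    · exact h0
  refine ⟨hQv, ?_⟩
  ext x
  rw [refl_apply2 Q hQv]
  rcases h x with hx | hx
  · rw [h1 x hx, zero_smul, add_zero, hx]
  · rw [h2 x hx, hQv, one_smul, hx]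

theorem ne_zero_of_Q {Q : QuadraticForm (ZMod 2) V} {v : V} (hv : Q v = 1) : v ≠ 0 := by
  rintro rfl
  simp at hv

theorem exists_B_eq_one {Q : QuadraticForm (ZMod 2) V} (hQ : (B Q).Nondegenerate) {v : V}
    (hv : v ≠ 0) : ∃ y, B Q y v = 1 := by
  by_contra hcon
  push Not at hcon
  apply hv
  refine hQ.1 v fun y => ?_
  rw [B_comm]
  exact (z2 _).resolve_right (hcon y)

theorem refl_pow_two (Q : QuadraticForm (ZMod 2) V) (v : V) : refl Q v ^ 2 = 1 := by
  rw [pow_two, refl_mul_self]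

theorem refl_prod_sq {Q : QuadraticForm (ZMod 2) V} {u v : V} (h : B Q u v = 0) :
    (refl Q u * refl Q v) ^ 2 = 1 := by
  have h1 : refl Q u v = v := refl_of_perp Q (by rw [B_comm]; exact h)
  have h2 := conj_refl (refl_mem Q u) v
  rw [h1, refl_inv] at h2
  have h3 : refl Q u * refl Q v = refl Q v * refl Q u := by
    calc refl Q u * refl Q v = refl Q u * refl Q v * (refl Q u * refl Q u) := by
          rw [refl_mul_self, mul_one]
      _ = (refl Q u * refl Q v * refl Q u) * refl Q u := by simp only [mul_assoc]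
      _ = refl Q v * refl Q u := by rw [h2]
  rw [pow_two]
  calc refl Q u * refl Q v * (refl Q u * refl Q v)
      = refl Q u * refl Q v * (refl Q v * refl Q u) := by rw [h3]
    _ = refl Q u * (refl Q v * refl Q v) * refl Q u := by simp only [mul_assoc]
    _ = 1 := by rw [refl_mul_self, mul_one, refl_mul_self]

theorem refl_prod_cube {Q : QuadraticForm (ZMod 2) V} {u v : V} (hu : Q u = 1) (hv : Q v = 1)
    (h : B Q u v = 1) : (refl Q u * refl Q v) ^ 3 = 1 := by
  have h1 : refl Q u v = v + u := by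
    rw [refl_apply2 Q hu, B_comm, h, one_smul]
  have h1' : refl Q v u = u + v := by
    rw [refl_apply2 Q hv, h, one_smul]
  have h2 := conj_refl (refl_mem Q u) v
  rw [h1, refl_inv] at h2
  have h3 := conj_refl (refl_mem Q v) u
  rw [h1', refl_inv, add_comm] at h3
  have h4 : refl Q u * refl Q v * refl Q u = refl Q v * refl Q u * refl Q v := by rw [h2, h3]
  calc (refl Q u * refl Q v) ^ 3
      = (refl Q u * refl Q v * refl Q u) * (refl Q v * refl Q u * refl Q v) := by
        simp only [pow_succ, pow_zero, one_mul, mul_assoc]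
    _ = (refl Q v * refl Q u * refl Q v) * (refl Q v * refl Q u * refl Q v) := by rw [h4]
    _ = refl Q v * refl Q u * (refl Q v * refl Q v) * refl Q u * refl Q v := by
        simp only [mul_assoc]
    _ = refl Q v * (refl Q u * refl Q u) * refl Q v := by
        rw [refl_mul_self, mul_one]; simp only [mul_assoc]
    _ = 1 := by rw [refl_mul_self, mul_one, refl_mul_self]

end abstract

section matrix

variable {ι : Type} [Fintype ι] [DecidableEq ι]

theorem ext_toO (Q : QuadraticForm (ZMod 2) (ι → ZMod 2))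
    {a b : ↥(Cfsg.isometryGroup (ZMod 2) ⇑Q)}
    (h : (toO Q a : (ι → ZMod 2) ≃ₗ[ZMod 2] (ι → ZMod 2)) = toO Q b) : a = b :=
  (toO Q).injective (Subtype.ext h)

theorem sub_one_mulVec (A : Matrix ι ι (ZMod 2)) (x : ι → ZMod 2) :
    (A - 1) *ᵥ x = A *ᵥ x + x := by
  rw [Matrix.sub_mulVec, Matrix.one_mulVec, sub_eq_add']

/-- rank-one elements of the isometry group are the transvections. -/
theorem rank_eq_one_iff (Q : QuadraticForm (ZMod 2) (ι → ZMod 2)) (hQ : (B Q).Nondegenerate)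
    (g : ↥(Cfsg.isometryGroup (ZMod 2) ⇑Q)) :
    (((g : GL ι (ZMod 2)) : Matrix ι ι (ZMod 2)) - 1).rank = 1 ↔
      ∃ v, Q v = 1 ∧ (toO Q g : (ι → ZMod 2) ≃ₗ[ZMod 2] (ι → ZMod 2)) = refl Q v := by
  set M : Matrix ι ι (ZMod 2) := ((g : GL ι (ZMod 2)) : Matrix ι ι (ZMod 2)) with hM
  have hgx : ∀ x, (toO Q g : (ι → ZMod 2) ≃ₗ[ZMod 2] (ι → ZMod 2)) x = M *ᵥ x := fun x => toO_apply Q g x
  constructor
  · intro h
    rw [Matrix.rank, finrank_eq_one_iff'] at h
    obtain ⟨⟨v, hvr⟩, hv0, hv⟩ := h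
    have hv0' : v ≠ 0 := fun e => hv0 (Subtype.ext e)
    have hall : ∀ x, (toO Q g : (ι → ZMod 2) ≃ₗ[ZMod 2] (ι → ZMod 2)) x = x ∨
        (toO Q g : (ι → ZMod 2) ≃ₗ[ZMod 2] (ι → ZMod 2)) x = x + v := by
      intro x
      obtain ⟨c, hc⟩ := hv ⟨(M - 1).mulVecLin x, LinearMap.mem_range_self _ x⟩
      have hc' : c • v = M *ᵥ x + x := by
        have h2 : c • v = (M - 1) *ᵥ x := congrArg Subtype.val hc
        rwa [sub_one_mulVec] at h2
      rcases z2 c with rfl | rfl
      · left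
        rw [zero_smul] at hc'
        rw [hgx]
        have : M *ᵥ x + x + x = x := by rw [← hc', zero_add]
        rwa [add_assoc, add_self', add_zero] at this
      · right
        rw [one_smul] at hc'
        rw [hgx, hc']
        rw [add_comm (M *ᵥ x) x, ← add_assoc, add_self', zero_add]
    have hne : (toO Q g : (ι → ZMod 2) ≃ₗ[ZMod 2] (ι → ZMod 2)) ≠ 1 := by
      intro h1
      obtain ⟨w, hw⟩ := hvr
      apply hv0'
      rw [← hw]
      simp only [Matrix.mulVecLin_apply]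
      rw [sub_one_mulVec, ← hgx, h1]
      exact add_self' w
    obtain ⟨h1, h2⟩ := eq_refl_of_forall hQ (toO Q g).2 hv0' hne hall
    exact ⟨v, h1, h2⟩
  · rintro ⟨v, hv, hgv⟩
    rw [Matrix.rank, finrank_eq_one_iff']
    have hv0 := ne_zero_of_Q hv
    have key : ∀ x, (M - 1) *ᵥ x = B Q x v • v := by
      intro x
      rw [sub_one_mulVec, ← hgx, hgv, refl_apply2 Q hv, add_comm x, add_assoc, add_self', add_zero]
    obtain ⟨y, hy⟩ := exists_B_eq_one hQ hv0
    refine ⟨⟨v, ⟨y, ?_⟩⟩, ?_, ?_⟩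
    · show (M - 1) *ᵥ y = v
      rw [key, hy, one_smul]
    · intro e
      exact hv0 (congrArg Subtype.val e)
    · rintro ⟨w, ⟨x, rfl⟩⟩
      refine ⟨B Q x v, ?_⟩
      apply Subtype.ext
      show B Q x v • v = (M - 1) *ᵥ x
      rw [key]

/-- Main theorem: transvections form a generating class of 3-transpositions. -/
theorem isThreeTranspositionClass (Q : QuadraticForm (ZMod 2) (ι → ZMod 2))
    (hQ : (B Q).Nondegenerate) (hdim : finrank (ZMod 2) (ι → ZMod 2) ≠ 4)
    (h0 : ∃ v, Q v ≠ 0) :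
    Cfsg.IsThreeTranspositionClass {g : ↥(Cfsg.isometryGroup (ZMod 2) ⇑Q) |
      (((g : GL ι (ZMod 2)) : Matrix ι ι (ZMod 2)) - 1).rank = 1} := by
  have hD : ∀ g : ↥(Cfsg.isometryGroup (ZMod 2) ⇑Q),
      (((g : GL ι (ZMod 2)) : Matrix ι ι (ZMod 2)) - 1).rank = 1 ↔
      ∃ v, Q v = 1 ∧ (toO Q g : (ι → ZMod 2) ≃ₗ[ZMod 2] (ι → ZMod 2)) = refl Q v :=
    rank_eq_one_iff Q hQ
  -- every transvection comes from the matrix group
  have hsurj : ∀ v, Q v = 1 → ∃ g : ↥(Cfsg.isometryGroup (ZMod 2) ⇑Q),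
      (toO Q g : (ι → ZMod 2) ≃ₗ[ZMod 2] (ι → ZMod 2)) = refl Q v := by
    intro v _
    refine ⟨(toO Q).symm ⟨refl Q v, refl_mem Q v⟩, ?_⟩
    rw [MulEquiv.apply_symm_apply]
  obtain ⟨v0, hv0⟩ : ∃ v, Q v = 1 := by
    obtain ⟨v, hv⟩ := h0
    exact ⟨v, (z2 _).resolve_left hv⟩
  refine ⟨⟨?_, ?_⟩, ?_, ?_⟩
  · -- order two
    intro d hd
    have hne : d ≠ 1 := by
      rintro rfl
      have : (((1 : ↥(Cfsg.isometryGroup (ZMod 2) ⇑Q)) : GL ι (ZMod 2)) : Matrix ι ι (ZMod 2)) - 1 = 0 := by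
        simp
      have h2 : (((1 : ↥(Cfsg.isometryGroup (ZMod 2) ⇑Q)) : GL ι (ZMod 2)) : Matrix ι ι (ZMod 2) ) - 1 = 0 := this
      have h3 := hd
      simp only [Set.mem_ofPred_eq] at h3
      rw [h2, Matrix.rank_zero] at h3
      exact zero_ne_one h3
    have : Fact (Nat.Prime 2) := ⟨Nat.prime_two⟩
    refine orderOf_eq_prime ?_ hne
    obtain ⟨v, _, hv⟩ := (hD d).1 hd
    apply ext_toO Q
    rw [map_pow, map_one]
    show ((toO Q d : _) : (ι → ZMod 2) ≃ₗ[ZMod 2] (ι → ZMod 2)) ^ 2 = 1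
    rw [hv, refl_pow_two]
  · -- the product condition
    intro d hd e he
    obtain ⟨u, hu, hdu⟩ := (hD d).1 hd
    obtain ⟨v, hv, hev⟩ := (hD e).1 he
    rcases z2 (B Q u v) with h | h
    · left
      apply ext_toO Q
      rw [map_pow, map_mul, map_one]
      show (((toO Q d : _) : (ι → ZMod 2) ≃ₗ[ZMod 2] (ι → ZMod 2)) * (toO Q e : _)) ^ 2 = 1
      rw [hdu, hev]
      exact refl_prod_sq h
    · right
      apply ext_toO Q
      rw [map_pow, map_mul, map_one]
      show (((toO Q d : _) : (ι → ZMod 2) ≃ₗ[ZMod 2] (ι → ZMod 2)) * (toO Q e : _)) ^ 3 = 1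
      rw [hdu, hev]
      exact refl_prod_cube hu hv h
  · -- single class
    obtain ⟨d, hd⟩ := hsurj v0 hv0
    refine ⟨d, (hD d).2 ⟨v0, hv0, hd⟩, ?_⟩
    ext g
    simp only [Set.mem_ofPred_eq, conjugatesOf]
    constructor
    · intro hg
      obtain ⟨v, hv, hgv⟩ := (hD g).1 hg
      obtain ⟨c, hc, hcv⟩ := witt_vector hQ (ne_zero_of_Q hv0) (ne_zero_of_Q hv) (hv0.trans hv.symm)
      obtain ⟨c', hc'⟩ : ∃ c' : ↥(Cfsg.isometryGroup (ZMod 2) ⇑Q), (toO Q c' : (ι → ZMod 2) ≃ₗ[ZMod 2] (ι → ZMod 2)) = c :=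
        ⟨(toO Q).symm ⟨c, hc⟩, by rw [MulEquiv.apply_symm_apply]⟩
      rw [isConj_iff]
      refine ⟨c', ext_toO Q ?_⟩
      rw [map_mul, map_mul, map_inv]
      show (toO Q c' : (ι → ZMod 2) ≃ₗ[ZMod 2] (ι → ZMod 2)) * (toO Q d : _) * ((toO Q c' : (ι → ZMod 2) ≃ₗ[ZMod 2] (ι → ZMod 2)))⁻¹ = _
      rw [hd, hgv, hc', conj_refl hc, hcv]
    · intro hg
      rw [isConj_iff] at hg
      obtain ⟨c, rfl⟩ := hg
      refine (hD _).2 ⟨(toO Q c : (ι → ZMod 2) ≃ₗ[ZMod 2] (ι → ZMod 2)) v0, ?_, ?_⟩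
      · rw [(toO Q c).2 v0]; exact hv0
      · rw [map_mul, map_mul, map_inv]
        show (toO Q c : (ι → ZMod 2) ≃ₗ[ZMod 2] (ι → ZMod 2)) * (toO Q d : _) * ((toO Q c : (ι → ZMod 2) ≃ₗ[ZMod 2] (ι → ZMod 2)))⁻¹ = _
        rw [hd, conj_refl (toO Q c).2]
  · -- generation
    rw [eq_top_iff]
    rintro g -
    set H := Subgroup.closure {g : ↥(Cfsg.isometryGroup (ZMod 2) ⇑Q) |
      (((g : GL ι (ZMod 2)) : Matrix ι ι (ZMod 2)) - 1).rank = 1} with hH
    let K : Subgroup ((ι → ZMod 2) ≃ₗ[ZMod 2] (ι → ZMod 2)) :=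
      (H.map (toO Q).toMonoidHom).map (O Q).subtype
    have hGK : G Q ≤ K := by
      refine (Subgroup.closure_le _).2 ?_
      rintro _ ⟨v, hv, rfl⟩
      obtain ⟨d, hd⟩ := hsurj v ((z2 _).resolve_left hv)
      refine ⟨toO Q d, ⟨d, Subgroup.subset_closure ((hD d).2 ⟨v, (z2 _).resolve_left hv, hd⟩), rfl⟩, hd⟩
    have h1 := hGK (O_le_G hQ (Or.inr hdim) (toO Q g).2)
    obtain ⟨_, ⟨g', hg', rfl⟩, hg''⟩ := h1
    have : g' = g := ext_toO Q hg''
    rw [← this]
    exact hg'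

end matrix

end Cfsg.Agent.Lib.OrthTransF2
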