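import Mathlib
import Cfsg.Prelude.Def_Classical
import Cfsg.Agent.Lib.OrthoThree
import Cfsg.Agent.S0245
import Cfsg.Agent.S0269

/-!
# `PΩ₅(q) ≅ PSp₄(q)` for `q` odd: the hyperplane `J^⊥` in the exterior square
-/

set_option autoImplicit false
set_option linter.unusedSectionVars false

namespace Cfsg.Agent.Lib.OrthoFive

open QuadraticMap Matrix Cfsg.Agent.Lib.OrthoBasic Cfsg.Agent.Lib.OrthoSiegel Cfsg.Agent.Lib.OrthoGen
  Cfsg.Agent.Lib.OrthoIndex Cfsg.Agent.Lib.OrthoSimple Cfsg.Agent.Lib.OrthoCount Cfsg.Agent.Lib.OrthoOrder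
  Cfsg.Agent.Lib.OrthoFinal Cfsg.Agent.Lib.OrthoChar Cfsg.Agent.Lib.OrthoDickson Cfsg.Agent.Lib.OrthoIso
  Cfsg.Agent.Lib.OrthoCardFinal Cfsg.Agent.Lib.OrthoAlt
open scoped commutatorElement

variable {F : Type*} [Field F]

/-- The numbering of the indices. -/
def eIdx : Fin 4 ≃ Fin 2 ⊕ Fin 2 where
  toFun := ![.inl 0, .inl 1, .inr 0, .inr 1]
  invFun := Sum.elim ![0, 1] ![2, 3]
  left_inv := by
    intro i
    fin_cases i <;> rfl
  right_inv := by
    rintro (i | i) <;> fin_cases i <;> rfl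

lemma eIdx_0 : eIdx 0 = .inl 0 := rfl
lemma eIdx_1 : eIdx 1 = .inl 1 := rfl
lemma eIdx_2 : eIdx 2 = .inr 0 := rfl
lemma eIdx_3 : eIdx 3 = .inr 1 := rfl

/-- The form `J` in the numbering. -/
def J4 (F : Type*) [Field F] : Matrix (Fin 4) (Fin 4) F :=
  !![0, 0, -1, 0; 0, 0, 0, -1; 1, 0, 0, 0; 0, 1, 0, 0]

lemma J_submatrix : (Matrix.J (Fin 2) F).submatrix eIdx eIdx = J4 F := by
  ext i j
  fin_cases i <;> fin_cases j <;> simp [J4, Matrix.J, eIdx_0, eIdx_1, eIdx_2, eIdx_3]

/-- From `Sp₄` to `SL₄`. -/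
noncomputable def toSL : Matrix.symplecticGroup (Fin 2) F →* Matrix.SpecialLinearGroup (Fin 4) F where
  toFun A := ⟨A.1.submatrix eIdx eIdx, by
    rw [Matrix.det_submatrix_equiv_self]
    exact SymplecticGroup.det_eq_one A.2⟩
  map_one' := by
    apply Subtype.ext
    exact Matrix.submatrix_one_equiv _
  map_mul' A B := by
    apply Subtype.ext
    exact (Matrix.submatrix_mul_equiv _ _ _ _ _).symm

lemma toSL_coe (A : Matrix.symplecticGroup (Fin 2) F) : (toSL A).1 = A.1.submatrix eIdx eIdx := rfl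

lemma toSL_sympl (A : Matrix.symplecticGroup (Fin 2) F) : (toSL A).1ᵀ * J4 F * (toSL A).1 = J4 F := by
  have h := SymplecticGroup.mem_iff'.1 A.2
  rw [toSL_coe, ← J_submatrix, Matrix.transpose_submatrix, Matrix.submatrix_mul_equiv, Matrix.submatrix_mul_equiv, h]

/-- The five-dimensional space inside the exterior square. -/
def iotaL : (Unit ⊕ (Fin 2 ⊕ Fin 2) → F) →ₗ[F] (Fin 3 ⊕ Fin 3 → F) where
  toFun v := Sum.elim ![v (.inr (.inl 0)), v (.inl ()), v (.inr (.inl 1))]
    ![v (.inr (.inr 0)), v (.inl ()), v (.inr (.inr 1))]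
  map_add' v w := by
    ext (i | i) <;> fin_cases i <;> simp
  map_smul' c v := by
    ext (i | i) <;> fin_cases i <;> simp

/-- The projection. -/
def rhoL : (Fin 3 ⊕ Fin 3 → F) →ₗ[F] (Unit ⊕ (Fin 2 ⊕ Fin 2) → F) where
  toFun w := Sum.elim (fun _ => w (.inl 1)) (Sum.elim ![w (.inl 0), w (.inl 2)] ![w (.inr 0), w (.inr 2)])
  map_add' v w := by
    ext (i | i | i)
    · simp
    · fin_cases i <;> simp
    · fin_cases i <;> simp
  map_smul' c v := by
    ext (i | i | i)
    · simp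
    · fin_cases i <;> simp
    · fin_cases i <;> simp

lemma rho_iota (v : Unit ⊕ (Fin 2 ⊕ Fin 2) → F) : rhoL (iotaL v) = v := by
  ext (i | i | i)
  · simp [rhoL, iotaL]
  · fin_cases i <;> simp [rhoL, iotaL]
  · fin_cases i <;> simp [rhoL, iotaL]

lemma iota_rho {w : Fin 3 ⊕ Fin 3 → F} (h : w (.inl 1) = w (.inr 1)) : iotaL (rhoL w) = w := by
  ext (i | i)
  · fin_cases i <;> simp [rhoL, iotaL]
  · fin_cases i <;> simp [rhoL, iotaL, h]

lemma iota_inl (v : Unit ⊕ (Fin 2 ⊕ Fin 2) → F) : iotaL v (.inl 1) = iotaL v (.inr 1) := by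
  simp [iotaL]

lemma iota_injective : Function.Injective (iotaL (F := F)) := by
  intro v w h
  rw [← rho_iota v, ← rho_iota w, h]

lemma qOdd_two (v : Unit ⊕ (Fin 2 ⊕ Fin 2) → F) :
    qOdd 2 F v = v (.inl ()) ^ 2 + v (.inr (.inl 0)) * v (.inr (.inr 0)) + v (.inr (.inl 1)) * v (.inr (.inr 1)) := by
  rw [qOdd_apply]
  simp [Cfsg.quadFormOdd, Fin.sum_univ_two]
  ring

lemma qPlus_iota (v : Unit ⊕ (Fin 2 ⊕ Fin 2) → F) : qPlus 3 F (iotaL v) = qOdd 2 F v := by
  rw [qPlus_three, qOdd_two]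
  simp [iotaL]
  ring

/-- The linear functional cutting out the hyperplane. -/
lemma trace_alt (X : Matrix (Fin 4) (Fin 4) F) (h : ∀ i j, X j i = - X i j) :
    (X * J4 F).trace = 2 * (X 0 2 + X 1 3) := by
  simp only [Matrix.trace, Matrix.diag, Matrix.mul_apply, Fin.sum_univ_four, J4]
  simp [h 0 2, h 1 3]
  ring

lemma alt_altOf (v : Fin 3 ⊕ Fin 3 → F) : ∀ i j, altOf v j i = - altOf v i j := by
  intro i j
  fin_cases i <;> fin_cases j <;> simp [altOf]

lemma conj_alt (A : Matrix (Fin 4) (Fin 4) F) (v : Fin 3 ⊕ Fin 3 → F) :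
    ∀ i j, (A * altOf v * Aᵀ) j i = - (A * altOf v * Aᵀ) i j := by
  rw [← alt_conj]
  exact alt_altOf _

/-- The action preserves the hyperplane. -/
lemma act_hyperplane [Fintype F] (hodd : Odd (Fintype.card F)) (A : Matrix.symplecticGroup (Fin 2) F)
    {w : Fin 3 ⊕ Fin 3 → F} (h : w (.inl 1) = w (.inr 1)) :
    actLin (toSL A).1 w (.inl 1) = actLin (toSL A).1 w (.inr 1) := by
  have h2F := char_ne_two_of_odd hodd
  set B := (toSL A).1 with hB
  have h1 : (B * altOf w * Bᵀ * J4 F).trace = (altOf w * J4 F).trace := by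
    have hs := toSL_sympl A
    rw [← hB] at hs
    calc (B * altOf w * Bᵀ * J4 F).trace = (altOf w * (Bᵀ * J4 F * B)).trace := by
          rw [Matrix.mul_assoc, Matrix.mul_assoc, Matrix.trace_mul_comm]
          simp only [Matrix.mul_assoc]
      _ = _ := by rw [hs]
  rw [trace_alt _ (conj_alt B w), trace_alt _ (alt_altOf w)] at h1
  have h3 : (B * altOf w * Bᵀ) 0 2 + (B * altOf w * Bᵀ) 1 3 = altOf w 0 2 + altOf w 1 3 :=
    mul_left_cancel₀ h2F h1
  have h4 : altOf w 0 2 + altOf w 1 3 = 0 := by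
    simp [altOf, h]
  rw [h4] at h3
  simp only [actLin_apply, vecOf, Sum.elim_inl, Sum.elim_inr]
  simp
  linear_combination h3

/-- The action on the five-dimensional space. -/
noncomputable def act5 (A : Matrix.symplecticGroup (Fin 2) F) :
    (Unit ⊕ (Fin 2 ⊕ Fin 2) → F) →ₗ[F] (Unit ⊕ (Fin 2 ⊕ Fin 2) → F) :=
  rhoL ∘ₗ actLin (toSL A).1 ∘ₗ iotaL

variable [Fintype F]

lemma iota_act5 (hodd : Odd (Fintype.card F)) (A : Matrix.symplecticGroup (Fin 2) F)
    (v : Unit ⊕ (Fin 2 ⊕ Fin 2) → F) : iotaL (act5 A v) = actLin (toSL A).1 (iotaL v) :=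
  iota_rho (act_hyperplane hodd A (iota_inl v))

lemma act5_Q (hodd : Odd (Fintype.card F)) (A : Matrix.symplecticGroup (Fin 2) F)
    (v : Unit ⊕ (Fin 2 ⊕ Fin 2) → F) : qOdd 2 F (act5 A v) = qOdd 2 F v := by
  rw [← qPlus_iota, iota_act5 hodd, actLin_Q, (toSL A).2, one_mul, qPlus_iota]

/-- `Sp₄ → O₅`. -/
noncomputable def phi (hodd : Odd (Fintype.card F)) : Matrix.symplecticGroup (Fin 2) F →* OG (qOdd 2 F) where
  toFun A := OG.ofLinear (nondeg_qOdd hodd 2) (act5 A) (act5_Q hodd A)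
  map_one' := by
    apply OG_ext
    intro v
    apply iota_injective
    change iotaL (act5 1 v) = iotaL v
    rw [iota_act5 hodd, map_one]
    exact actLin_one _
  map_mul' A B := by
    apply OG_ext
    intro v
    apply iota_injective
    change iotaL (act5 (A * B) v) = iotaL (act5 A (act5 B v))
    rw [iota_act5 hodd, iota_act5 hodd, iota_act5 hodd, map_mul]
    exact actLin_mul _ _ _

lemma phi_apply (hodd : Odd (Fintype.card F)) (A : Matrix.symplecticGroup (Fin 2) F)
    (v : Unit ⊕ (Fin 2 ⊕ Fin 2) → F) :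
    ((phi hodd A : OG (qOdd 2 F)) : _ ≃ₗ[F] _) v = act5 A v := rfl

/-- The vector of `J`. -/
def jv (F : Type*) [Field F] : Fin 3 ⊕ Fin 3 → F := vecOf (J4 F)

lemma altOf_jv : altOf (jv F) = J4 F := by
  apply altOf_vecOf
  · intro i
    fin_cases i <;> simp [J4]
  · intro i j
    fin_cases i <;> fin_cases j <;> simp [J4]

lemma toSL_J (A : Matrix.symplecticGroup (Fin 2) F) : (toSL A).1 * J4 F * (toSL A).1ᵀ = J4 F := by
  have h := SymplecticGroup.mem_iff.1 A.2
  rw [toSL_coe, ← J_submatrix, Matrix.transpose_submatrix, Matrix.submatrix_mul_equiv, Matrix.submatrix_mul_equiv, h]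

lemma act_jv (A : Matrix.symplecticGroup (Fin 2) F) : actLin (toSL A).1 (jv F) = jv F := by
  rw [actLin_apply, altOf_jv, toSL_J]
  rfl

/-- Kernel of `phi`. -/
lemma phi_eq_one_iff (hodd : Odd (Fintype.card F)) (A : Matrix.symplecticGroup (Fin 2) F) :
    phi hodd A = 1 ↔ ∃ l : F, l ^ 2 = 1 ∧ A.1 = l • 1 := by
  have h2F := char_ne_two_of_odd hodd
  constructor
  · intro h
    have h1 : ∀ v, actLin (toSL A).1 (iotaL v) = iotaL v := by
      intro v
      rw [← iota_act5 hodd, ← phi_apply hodd, h]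
      rfl
    have h2 : ∀ w, actLin (toSL A).1 w = w := by
      intro w
      set c : F := (w (.inr 1) - w (.inl 1)) / 2 with hc
      have hc2 : 2 * c = w (.inr 1) - w (.inl 1) := by
        rw [hc]
        field_simp
      have hj1 : jv F (.inl 1) = -1 := by simp [jv, vecOf, J4]
      have hj2 : jv F (.inr 1) = 1 := by simp [jv, vecOf, J4]
      have h3 : (w - c • jv F) (.inl 1) = (w - c • jv F) (.inr 1) := by
        simp [hj1, hj2]
        linear_combination hc2
      have h4 : w = iotaL (rhoL (w - c • jv F)) + c • jv F := by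
        rw [iota_rho h3]
        simp
      rw [h4, map_add, map_smul, h1, act_jv]
    obtain ⟨l, hl, hB⟩ := scalar_of_act_trivial h2
    refine ⟨l, hl, ?_⟩
    have h5 : A.1 = (toSL A).1.submatrix eIdx.symm eIdx.symm := by
      rw [toSL_coe]
      ext i j
      simp
    rw [h5, hB]
    ext i j
    simp [Matrix.one_apply]
  · rintro ⟨l, hl, hA⟩
    apply OG_ext
    intro v
    apply iota_injective
    change iotaL (act5 A v) = iotaL v
    rw [iota_act5 hodd]
    have h1 : (toSL A).1 = l • 1 := by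
      rw [toSL_coe, hA]
      ext i j
      simp [Matrix.one_apply]
    rw [h1, act_scalar hl]

lemma hypPair : IsHypPair (qOdd 2 F) (Sum.elim (fun _ => 0) (Sum.elim ![1, 0] ![0, 0]))
    (Sum.elim (fun _ => 0) (Sum.elim ![0, 0] ![1, 0])) where
  Qe := by
    rw [qOdd_two]
    simp
  Qf := by
    rw [qOdd_two]
    simp
  B := by
    rw [QuadraticMap.polar, qOdd_two, qOdd_two, qOdd_two]
    simp

/-- S0301 -/
theorem pomega_five (hodd : Odd (Fintype.card F)) :
    Nonempty (Cfsg.POmega F (Cfsg.quadFormOdd 2 F) ≃* Cfsg.PSp 2 F) := by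
  classical
  have h2F := char_ne_two_of_odd hodd
  have hq := one_lt_q (F := F)
  have hq3 : 3 ≤ Fintype.card F := by
    obtain ⟨k, hk⟩ := hodd
    omega
  have hperf : commutator (Matrix.symplecticGroup (Fin 2) F) = ⊤ :=
    Cfsg.Agent.S0269.result 2 (Or.inr (Or.inl ⟨rfl, hq3⟩))
  have hle := range_le_commutator hperf (phi hodd)
  have hkercentral : (phi hodd).ker ≤ Subgroup.center _ := by
    intro A hA
    obtain ⟨l, _, hl⟩ := (phi_eq_one_iff hodd A).1 hA
    rw [Subgroup.mem_center_iff]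
    intro B
    apply Subtype.ext
    change B.1 * A.1 = A.1 * B.1
    rw [hl]
    simp
  have hGk := card_range (phi hodd)
  have hSp := Cfsg.Agent.S0245.result (F := F) rfl 2
  have hO := card_OG_odd hodd 2
  have hrange : commutator (OG (qOdd 2 F)) = (phi hodd).range := by
    obtain ⟨K, hK, hKc⟩ := exists_K_odd hodd (nondeg_qOdd hodd 2) (hypPair (F := F))
    refine commutator_eq_range (phi hodd) K hK (k := 4) (by norm_num) hKc hle ?_
    have hk2 : Nat.card (phi hodd).ker = 2 := by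
      let m : Matrix.symplecticGroup (Fin 2) F := ⟨-1, SymplecticGroup.neg_mem (one_mem _)⟩
      have hm : m ∈ (phi hodd).ker := by
        rw [MonoidHom.mem_ker, phi_eq_one_iff]
        exact ⟨-1, by ring, by simp [m]⟩
      rw [Nat.card_eq_two_iff]
      refine ⟨⟨1, one_mem _⟩, ⟨m, hm⟩, ?_, ?_⟩
      · intro h
        have h3 := congrArg (fun x : (phi hodd).ker => (x.1 : Matrix.symplecticGroup (Fin 2) F).1 (.inl 0) (.inl 0)) h
        simp [m] at h3
        apply h2F
        linear_combination h3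
      · ext ⟨A, hA⟩
        simp only [Set.mem_insert_iff, Set.mem_singleton_iff, Set.mem_univ, iff_true]
        obtain ⟨l, hl, hAl⟩ := (phi_eq_one_iff hodd A).1 hA
        rw [_root_.sq, mul_self_eq_one_iff] at hl
        rcases hl with rfl | rfl
        · left
          apply Subtype.ext
          apply Subtype.ext
          rw [hAl, one_smul]
          rfl
        · right
          apply Subtype.ext
          apply Subtype.ext
          rw [hAl]
          simp [m]
    rw [hk2] at hGk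
    rw [hO, show (2 : ℕ) * Fintype.card F ^ (2 ^ 2) * ∏ i ∈ Finset.range 2, (Fintype.card F ^ (2 * (i + 1)) - 1)
      = 2 * (Fintype.card F ^ (2 ^ 2) * ∏ i ∈ Finset.range 2, (Fintype.card F ^ (2 * (i + 1)) - 1)) by ring,
      ← hSp, hGk]
    ring
  refine pomega_equiv (Cfsg.quadFormOdd 2 F) (fun v => (qOdd_apply 2 v).symm) (phi hodd) hrange
    (QuotientGroup.mk' _) (QuotientGroup.mk'_surjective _) ?_
  intro x
  rw [QuotientGroup.mk'_apply, QuotientGroup.eq_one_iff]
  constructor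
  · intro hx y
    rw [← map_mul, ← map_mul, (Subgroup.mem_center_iff.1 hx y).symm]
  · intro h
    apply central_of_perfect hperf (phi hodd).ker hkercentral
    intro y
    rw [MonoidHom.mem_ker, map_commutatorElement, commutatorElement_eq_one_iff_mul_comm]
    exact h y

end Cfsg.Agent.Lib.OrthoFive
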