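import Mathlib
import Cfsg.Agent.Lib.AutPSp.Graph
import Cfsg.Agent.Lib.AutOrthFrob

/-!
# `Out(PSp_4(2^f))`: the square of the exceptional automorphism is the Frobenius
-/

set_option autoImplicit false

namespace Cfsg.Agent.Lib.OutPSp42

open Matrix Cfsg.Agent.Lib.SpBasic Cfsg.Agent.Lib.AutPSp
open scoped MatrixGroups

variable {F : Type*} [Field F]

set_option maxHeartbeats 4000000 in
/-- The square of the exceptional map on a transvection. -/
theorem psiM_sq_T (h2 : (2 : F) = 0) (u : Ix → F) (c : F) :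
    psiM (psiM (tMat u c)) = (tMat u c).map (fun x => x ^ 2) := by
  ext X Y
  revert X Y
  simp only [Sum.forall, Fin.forall_fin_two, Matrix.map_apply, psiM, mn, PP, Sum.elim_inl, Sum.elim_inr, Matrix.cons_val_zero,
    Matrix.cons_val_one, Matrix.cons_val_fin_one, tMat_apply, ω_eL_right, ω_eR_right,
    if_true, zero_ne_one, one_ne_zero, if_false, Fin.isValue, Sum.inl.injEq, Sum.inr.injEq, reduceCtorEq]
  refine ⟨⟨⟨⟨?_, ?_⟩, ?_, ?_⟩, ⟨?_, ?_⟩, ?_, ?_⟩, ⟨⟨?_, ?_⟩, ?_, ?_⟩, ⟨?_, ?_⟩, ?_, ?_⟩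
  · linear_combination (0) * h2
  · linear_combination ((-1)*(u (Sum.inl 0))^2*(u (Sum.inr 1))^2*c^2) * h2
  · linear_combination (0) * h2
  · linear_combination (0) * h2
  · linear_combination ((-1)*(u (Sum.inl 1))^2*(u (Sum.inr 0))^2*c^2) * h2
  · linear_combination (0) * h2
  · linear_combination ((-1)*(u (Sum.inl 0))^2*(u (Sum.inl 1))^2*c^2) * h2
  · linear_combination ((-1)*(u (Sum.inl 1))^4*c^2) * h2
  · linear_combination (0) * h2
  · linear_combination ((-1)*(u (Sum.inr 0))^2*(u (Sum.inr 1))^2*c^2) * h2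
  · linear_combination (0) * h2
  · linear_combination (0) * h2
  · linear_combination (0) * h2
  · linear_combination ((-1)*(u (Sum.inr 1))^4*c^2) * h2
  · linear_combination (0) * h2
  · linear_combination (0) * h2

variable [Fintype F]

/-- The square of the exceptional map is the Frobenius map. -/
theorem psiM_sq (h2 : (2 : F) = 0) (g : Sp (Fin 2) F) : psiM (psiM g.1) = g.1.map (fun x => x ^ 2) := by
  haveI : Fact (Nat.Prime 2) := ⟨Nat.prime_two⟩
  haveI : CharP F 2 := CharTwo.of_one_ne_zero_of_two_eq_zero one_ne_zero h2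
  have hfr : (fun x : F => x ^ 2) = (frobenius F 2 : F → F) := rfl
  induction g using T_induction with
  | h1 =>
    change psiM (psiM (1 : Matrix Ix Ix F)) = (1 : Matrix Ix Ix F).map _
    rw [psiM_one, psiM_one]
    ext i j
    simp [Matrix.one_apply]
  | ht u c => exact psiM_sq_T h2 u c
  | hmul a b ha hb =>
    change psiM (psiM (a.1 * b.1)) = (a.1 * b.1).map _
    rw [psiM_mul h2 a.2 b.2, psiM_mul h2 (psiM_mem h2 a) (psiM_mem h2 b), ha, hb, hfr, Matrix.map_mul]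

/-- The Frobenius automorphism in characteristic two. -/
noncomputable abbrev fr2 (F : Type*) [Field F] [Fintype F] [Fact (Nat.Prime 2)] [CharP F 2] : F ≃+* F := frobeniusEquiv F 2

lemma psiBar_sq [Fact (Nat.Prime 2)] [CharP F 2] (h2 : (2 : F) = 0) (x : Cfsg.PSp 2 F) :
    psiBar h2 (psiBar h2 x) = (faS (fr2 F) : MulAut (Cfsg.PSp 2 F)) x := by
  obtain ⟨g, rfl⟩ := QuotientGroup.mk_surjective x
  have h1 : (faS (fr2 F) : MulAut (Cfsg.PSp 2 F)) (QuotientGroup.mk g) = QuotientGroup.mk (spMap 1 (fr2 F) g) := gsAut_mk _ _ _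
  rw [h1, psiBar_mk, psiBar_mk]
  congr 1
  apply Subtype.ext
  rw [psiHom_coe, psiHom_coe, psiM_sq h2, spMap_coe]
  have h3 : ((1 : GS 2 F)⁻¹).1.1 = 1 := by
    rw [inv_one]
    rfl
  rw [h3]
  change _ = (1 : Matrix Ix Ix F) * _ * 1
  rw [Matrix.one_mul, Matrix.mul_one]
  rfl

/-- The exceptional automorphism. -/
noncomputable def alpha [Fact (Nat.Prime 2)] [CharP F 2] (h2 : (2 : F) = 0) : MulAut (Cfsg.PSp 2 F) :=
  MulEquiv.ofBijective (psiBar h2) (by
    have hinj : Function.Injective (psiBar h2) := by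
      intro x y hxy
      apply (faS (fr2 F) : MulAut (Cfsg.PSp 2 F)).injective
      rw [← psiBar_sq h2, ← psiBar_sq h2, hxy]
    exact ⟨hinj, fun y => by
      obtain ⟨x, rfl⟩ := (faS (fr2 F) : MulAut (Cfsg.PSp 2 F)).surjective y
      exact ⟨psiBar h2 x, psiBar_sq h2 x⟩⟩)

lemma alpha_apply [Fact (Nat.Prime 2)] [CharP F 2] (h2 : (2 : F) = 0) (x : Cfsg.PSp 2 F) : alpha h2 x = psiBar h2 x := rfl

lemma alpha_sq [Fact (Nat.Prime 2)] [CharP F 2] (h2 : (2 : F) = 0) : alpha h2 * alpha h2 = faS (fr2 F) := by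
  apply MulEquiv.ext
  intro x
  exact psiBar_sq h2 x

lemma alpha_not_root [Fact (Nat.Prime 2)] [CharP F 2] (h2 : (2 : F) = 0) (w : Ix → F) (a : F) :
    alpha h2 (tb (eL 0) 1) ≠ tb w a := by
  intro h
  have h3 : (QuotientGroup.mk (psiHom h2 (T (eL 0) 1)) : Cfsg.PSp 2 F) = QuotientGroup.mk (T w a) := h
  exact psi_not_root h2 w a (mk_injective_two h2 h3)

lemma alpha_ne_std [Fact (Nat.Prime 2)] [CharP F 2] (h2 : (2 : F) = 0) (G : GS 2 F) (σ : F ≃+* F) : alpha h2 ≠ gsAut G σ := by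
  rintro h
  apply alpha_not_root h2 (G.1.1 *ᵥ fm σ (eL 0)) (σ 1 * ((mu G : Fˣ) : F)⁻¹)
  rw [h]
  exact gsAut_tb G σ (eL 0) 1

/-- Every automorphism is standard or the exceptional one times a standard one. -/
lemma aut_cases [Fact (Nat.Prime 2)] [CharP F 2] {f : ℕ} (hf : 1 ≤ f) (hF : Fintype.card F = 2 ^ f) (h2 : (2 : F) = 0) (β : MulAut (Cfsg.PSp 2 F)) :
    (∃ (G : GS 2 F) (σ : F ≃+* F), β = gsAut G σ) ∨ (∃ (G : GS 2 F) (σ : F ≃+* F), (alpha h2)⁻¹ * β = gsAut G σ) := by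
  have hB : ∀ v : Fin 2 ⊕ Fin 2 → F, v ≠ 0 → ∃ g : Sp (Fin 2) F, ∀ c : F, ∃ b : F, alpha h2 (tb v c) =
      (QuotientGroup.mk g : Cfsg.PSp 2 F) * sb (eL ⟨0, by omega⟩) (eL ⟨1, by omega⟩) b * (QuotientGroup.mk g)⁻¹ := by
    rcases dich hf hF h2 le_rfl (alpha h2) with hr | hb
    · exfalso
      have hv₁ : (eL 0 : Ix → F) ≠ 0 := eL_ne
      obtain ⟨w, -, hw⟩ := hr _ hv₁
      obtain ⟨a, ha⟩ := hw 1
      exact alpha_not_root h2 w a ha
    · exact hb
  rcases dich hf hF h2 le_rfl β with hr | hb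
  · left
    obtain ⟨G, σ, hG, hGi⟩ := exists_induced_of_root le_rfl β hr
    exact ⟨⟨G, hG⟩, σ, (isInduced_iff ⟨G, hG⟩ σ β).mp hGi⟩
  · right
    obtain ⟨G, σ, hG, hGi⟩ := exists_induced_of_root le_rfl ((alpha h2)⁻¹ * β : MulAut (Cfsg.PSp 2 F))
      (root_of_two_B le_rfl (alpha h2) β hB hb)
    exact ⟨⟨G, hG⟩, σ, (isInduced_iff ⟨G, hG⟩ σ _).mp hGi⟩

/-- The centre of `PSp_4(2^f)` is trivial. -/
lemma center_PSp (h2 : (2 : F) = 0) : Subgroup.center (Cfsg.PSp 2 F) = ⊥ := by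
  rw [eq_bot_iff]
  intro x hx
  obtain ⟨g, rfl⟩ := QuotientGroup.mk_surjective x
  have h3 : g ∈ Subgroup.center (Sp (Fin 2) F) := by
    rw [Subgroup.mem_center_iff]
    intro t
    have h4 := (Subgroup.mem_center_iff.1 hx) (QuotientGroup.mk t)
    have h5 : (QuotientGroup.mk (t * g) : Cfsg.PSp 2 F) = QuotientGroup.mk (g * t) := h4
    exact mk_injective_two h2 h5
  rw [eq_one_of_center h2 (by norm_num) h3]
  exact one_mem _

lemma card_PSp_eq (h2 : (2 : F) = 0) : Nat.card (Cfsg.PSp 2 F) = Nat.card (Sp (Fin 2) F) := by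
  refine (Nat.card_congr (Equiv.ofBijective (fun g : Sp (Fin 2) F => (QuotientGroup.mk g : Cfsg.PSp 2 F)) ⟨?_, ?_⟩)).symm
  · intro a b hab
    exact mk_injective_two h2 hab
  · exact QuotientGroup.mk_surjective

lemma card_Inn_PSp (h2 : (2 : F) = 0) : Nat.card (Cfsg.Inn (Cfsg.PSp 2 F)) = Nat.card (Cfsg.PSp 2 F) := by
  have hinj : Function.Injective (MulAut.conj : Cfsg.PSp 2 F →* MulAut (Cfsg.PSp 2 F)) := by
    rw [injective_iff_map_eq_one]
    intro a ha
    have h1 : a ∈ Subgroup.center (Cfsg.PSp 2 F) := by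
      rw [Subgroup.mem_center_iff]
      intro b
      have h2 := congrArg (fun φ : MulAut (Cfsg.PSp 2 F) => φ b) ha
      simp only [MulAut.conj_apply, MulAut.one_apply] at h2
      rw [mul_inv_eq_iff_eq_mul] at h2
      exact h2.symm
    rw [center_PSp h2] at h1
    simpa using h1
  exact (Nat.card_congr (MonoidHom.ofInjective hinj).toEquiv).symm

/-- `Out(PSp_4(2^f))` is cyclic of order `2f`. -/
theorem s2600 {f : ℕ} (hf : 1 ≤ f) (hF : Fintype.card F = 2 ^ f) :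
    IsCyclic (Cfsg.Out (Cfsg.PSp 2 F)) ∧ Nat.card (Cfsg.Out (Cfsg.PSp 2 F)) = 2 * f := by
  haveI : Fact (Nat.Prime 2) := ⟨Nat.prime_two⟩
  have hq : Even (Fintype.card F) := by
    rw [hF]
    exact (even_two).pow_of_ne_zero (by omega)
  haveI : CharP F 2 := Cfsg.Agent.Lib.OrthoCardFinal.charP_two_of_even hq
  have h2 : (2 : F) = 0 := CharTwo.two_eq_zero
  have hcard : Nat.card (MulAut (Cfsg.PSp 2 F)) = 2 * (Nat.card (Sp (Fin 2) F) * f) :=
    card_of_index_two hf hF le_rfl (alpha h2) (alpha_ne_std h2) (aut_cases hf hF h2)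
  have hOutCard : Nat.card (Cfsg.Out (Cfsg.PSp 2 F)) = 2 * f := by
    have h3 := Subgroup.card_eq_card_quotient_mul_card_subgroup (Cfsg.Inn (Cfsg.PSp 2 F))
    rw [hcard, card_Inn_PSp h2, card_PSp_eq h2] at h3
    have h4 : 0 < Nat.card (Sp (Fin 2) F) := Nat.card_pos
    have h5 : (2 * f) * Nat.card (Sp (Fin 2) F) = Nat.card (Cfsg.Out (Cfsg.PSp 2 F)) * Nat.card (Sp (Fin 2) F) := by
      rw [← h3]
      ring
    exact (Nat.eq_of_mul_eq_mul_right h4 h5).symm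
  refine ⟨?_, hOutCard⟩
  set θ : Cfsg.Out (Cfsg.PSp 2 F) := QuotientGroup.mk (alpha h2) with hθ
  have hfinite : Finite (Cfsg.Out (Cfsg.PSp 2 F)) := Nat.finite_of_card_ne_zero (by omega)
  -- even powers
  have hev : ∀ k : ℕ, θ ^ (2 * k) = ((faS (fr2 F ^ k) : MulAut (Cfsg.PSp 2 F)) : Cfsg.Out (Cfsg.PSp 2 F)) := by
    intro k
    rw [← faS_pow, ← alpha_sq h2, QuotientGroup.mk_pow, QuotientGroup.mk_mul, pow_mul, pow_two]
  have hordσ : orderOf (fr2 F) = f := by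
    rw [← Cfsg.Agent.Lib.AutPSL.card_ringAut hF hf]
    exact orderOf_eq_card_of_forall_mem_zpowers (Cfsg.Agent.Lib.AutOrthOut.frob_gen hF hf)
  -- the inner elements
  have hinn : ∀ β ∈ Cfsg.Inn (Cfsg.PSp 2 F), ∃ s : Sp (Fin 2) F, β = dlS (spG s) := by
    rintro _ ⟨x, rfl⟩
    obtain ⟨s, rfl⟩ := QuotientGroup.mk_surjective x
    exact ⟨s, conj_eq_dlS s⟩
  have hC : ∀ k : ℕ, θ ^ (2 * k) = 1 → f ∣ k := by
    intro k hk
    rw [hev, QuotientGroup.eq_one_iff] at hk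
    obtain ⟨s, hs⟩ := hinn _ hk
    have h6 := (gsAut_eq_gsAut_iff (m := 2) le_rfl).1 hs
    rw [← hordσ]
    apply orderOf_dvd_of_pow_eq_one
    exact h6.1
  have hD : ∀ k : ℕ, θ ^ (2 * k) ≠ θ := by
    intro k hk
    rw [hev] at hk
    have h6 : (faS (fr2 F ^ k) : MulAut (Cfsg.PSp 2 F))⁻¹ * alpha h2 ∈ Cfsg.Inn (Cfsg.PSp 2 F) := QuotientGroup.eq.1 hk
    obtain ⟨s, hs⟩ := hinn _ h6
    apply alpha_ne_std h2 (glS (fr2 F ^ k) (spG s)) (fr2 F ^ k)
    rw [← faS_mul_dlS, ← hs]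
    group
  have hdvd : orderOf θ ∣ 2 * f := by
    rw [← hOutCard]
    exact orderOf_dvd_natCard θ
  have hdvd' : f ∣ orderOf θ := by
    apply hC
    rw [mul_comm, pow_mul, pow_orderOf_eq_one, one_pow]
  have hord : orderOf θ = 2 * f := by
    obtain ⟨t, ht⟩ := hdvd'
    have ht2 : t ∣ 2 := by
      rw [ht, mul_comm 2 f] at hdvd
      exact Nat.dvd_of_mul_dvd_mul_left (by omega) hdvd
    rcases (Nat.dvd_prime Nat.prime_two).1 ht2 with rfl | rfl
    · exfalso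
      rw [mul_one] at ht
      have hpow : θ ^ f = 1 := by
        rw [← ht]
        exact pow_orderOf_eq_one θ
      rcases Nat.even_or_odd' f with ⟨c, hc | hc⟩
      · have h7 := hC c (by rw [← hc]; exact hpow)
        have h8 := Nat.le_of_dvd (by omega) h7
        omega
      · apply hD (c + 1)
        have h7 : 2 * (c + 1) = f + 1 := by omega
        rw [h7, pow_succ, hpow, one_mul]
    · rw [ht, mul_comm]
  exact isCyclic_of_orderOf_eq_card θ (by rw [hord, hOutCard])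

end Cfsg.Agent.Lib.OutPSp42
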