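import Mathlib
import Cfsg.Agent.Lib.AutOrthGrp3
import Cfsg.Agent.Lib.AutOrthOutMinus
import Cfsg.Agent.Lib.AutOrthOutOdd

/-!
# The outer automorphism group of `PΩ⁺_{2m}(q)` for `m ≥ 5`
-/

set_option autoImplicit false
set_option linter.unusedSectionVars false
set_option linter.unusedVariables false
set_option linter.unusedSimpArgs false

namespace Cfsg.Agent.Lib.AutOrthOut

open Module QuadraticMap Cfsg.Agent.Lib.OrthoBasic Cfsg.Agent.Lib.OrthoSiegel Cfsg.Agent.Lib.OrthoSimple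
open Cfsg.Agent.Lib.QuadFF Cfsg.Agent.Lib.OmGeo Cfsg.Agent.Lib.PgoGroup Cfsg.Agent.Lib.OrthoGen
  Cfsg.Agent.Lib.OrthoCount Cfsg.Agent.Lib.OrthoFinal Cfsg.Agent.Lib.OrthoOrder Cfsg.Agent.Lib.GammaCount
  Cfsg.Agent.Lib.PgoPsi Cfsg.Agent.Lib.GammaFinal Cfsg.Agent.Lib.AutOrthGrp Cfsg.Agent.Lib.OrthoIndex Cfsg.Agent.Lib.OrthoChar
  Cfsg.Agent.Lib.OrthoDickson Cfsg.Agent.Lib.PgoSim Cfsg.Agent.Lib.PgoSim.Data Cfsg.Agent.Lib.PgoFamilies
open Cfsg Matrix

variable {F : Type*} [Field F] [Fintype F]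

/-- `Out(PΩ⁺_{2m}(2^f)) = C₂ × C_f` for `m ≥ 5`. -/
theorem out_plus_even {f m : ℕ} (hf : 1 ≤ f) (hF : Fintype.card F = 2 ^ f) (hm : 5 ≤ m) :
    Nonempty (Out (POmega F (quadFormPlus m F)) ≃* Multiplicative (ZMod 2 × ZMod f)) := by
  haveI : Fact (Nat.Prime 2) := ⟨Nat.prime_two⟩
  have htop := Cfsg.Agent.Lib.AutOrth.plus_top (F := F) hm
  obtain ⟨n, rfl⟩ : ∃ n, m = n + 3 := ⟨m - 3, by omega⟩
  obtain ⟨fr⟩ := framePlus (F := F) n
  refine nonempty_out_of_two _ (q := qPlus (n + 3) F) (fun v => (qPlus_apply _ v).symm) (nondeg_qPlus _) (genR_qPlus _) fr htop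
    (fun σ v => sv_qPlus σ _ v) hf hF ?_
  have h := card_aut_plus_of_index (p := 2) hf hF (n + 3) (by omega)
  rw [htop, if_pos rfl, Subgroup.card_top] at h
  exact h

section data

variable {ι : Type} [Fintype ι] [DecidableEq ι] {f : (ι → F) → F} {Q : QuadraticForm F (ι → F)} {n : ℕ}

/-- The map `δ` is well defined modulo inner automorphisms. -/
lemma delta_of_Inn (D : Data f Q n) {A : CO f} (h : psiO f A ∈ Inn (POmega F f)) : D.delta A = 1 := by
  obtain ⟨x, hx, he⟩ := Cfsg.Agent.Lib.PgoInndiag.Data.Inn_le D h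
  obtain ⟨k, hk⟩ := (D.psiO_eq_iff _ _).1 he.symm
  rw [hk, map_mul, delta_scalC, mul_one]
  exact hx

/-- `sv` commutes with a reflection in a vector defined over the prime field. -/
lemma coConj_rA (D : Data f Q n) (hsv : ∀ (σ : F ≃+* F) v, f (sv σ v) = σ (f v)) {x : ι → F} (hx : Q x ≠ 0)
    (hxσ : ∀ σ : F ≃+* F, sv σ x = x) (σ : F ≃+* F) :
    coConj (semisim_sv hsv σ) (isoC (D.rA hx)) = isoC (D.rA hx) := by
  apply Subtype.ext
  apply Units.ext
  apply Matrix.mulVec_injective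
  funext w
  obtain ⟨v, rfl⟩ := phi_surjective (1 : GL ι F) σ w
  have h1 := act_mulVec_phi (1 : GL ι F) σ ((D.rA hx : isometryGroup F f) : GL ι F) v
  change (act 1 σ ((D.rA hx : isometryGroup F f) : GL ι F)).1 *ᵥ _ = ((D.rA hx : isometryGroup F f) : GL ι F).1 *ᵥ _
  rw [h1, D.rA_apply]
  have hphi : ∀ u : ι → F, phi (1 : GL ι F) σ u = sv σ u := by
    intro u
    simp [phi]
  have hQσ : ∀ u, Q (sv σ u) = σ (Q u) := by
    intro u
    rw [← D.hf, ← D.hf, hsv]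
  have hpol : ∀ u u', polar Q (sv σ u) (sv σ u') = σ (polar Q u u') := by
    intro u u'
    have e : sv σ u + sv σ u' = sv σ (u + u') := by
      funext i
      simp [sv]
    simp only [polar, e, hQσ, map_sub]
  rw [hphi, hphi, D.rA_apply, reflLin_apply, reflLin_apply]
  have e1 : polar Q (sv σ v) x = σ (polar Q v x) := by
    conv_lhs => rw [← hxσ σ]
    exact hpol v x
  have e2 : Q x = σ (Q x) := by
    conv_lhs => rw [← hxσ σ]
    exact hQσ x
  funext i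
  have e3 : x i = σ (x i) := congrFun (hxσ σ).symm i
  simp only [sv, Pi.sub_apply, Pi.smul_apply, smul_eq_mul, map_sub, map_mul, map_div₀, e1]
  rw [← e2, ← e3]

lemma comm_rA (D : Data f Q n) (hsv : ∀ (σ : F ≃+* F) v, f (sv σ v) = σ (f v)) {x : ι → F} (hx : Q x ≠ 0)
    (hxσ : ∀ σ : F ≃+* F, sv σ x = x) (σ : F ≃+* F) :
    tauHom f hsv σ * psiO f (isoC (D.rA hx)) = psiO f (isoC (D.rA hx)) * tauHom f hsv σ := by
  have h2 := psiG_conj_psiO (semisim_sv hsv σ) (isoC (D.rA hx))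
  rw [coConj_rA D hsv hx hxσ] at h2
  rw [mul_inv_eq_iff_eq_mul] at h2
  exact h2

lemma rA_sq (D : Data f Q n) {x : ι → F} (hx : Q x ≠ 0) : (psiO f (isoC (D.rA hx))) ^ 2 = 1 := by
  have h : (D.rA hx * D.rA hx : isometryGroup F f) = 1 := by
    apply D.toOG.injective
    rw [map_mul, toOG_rA, refl_mul_self, map_one]
  have h1 : isoC (D.rA hx) * isoC (D.rA hx) = 1 := by
    apply Subtype.ext
    change ((D.rA hx * D.rA hx : isometryGroup F f) : GL ι F) = 1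
    rw [h]
    rfl
  rw [pow_two, ← map_mul, h1, map_one]

/-- The structure of the outer automorphism group in the dihedral case, from a reflection over the prime field. -/
theorem out_dihedral_plus (D : Data f Q n) (hneg : negEl Q ∈ siegelE Q) (htop : gammaPOmega F f = ⊤)
    (hsv : ∀ (σ : F ≃+* F) v, f (sv σ v) = σ (f v)) {x : ι → F} (hx : Q x ≠ 0) (hxσ : ∀ σ : F ≃+* F, sv σ x = x)
    {k : ℕ} (hk : 1 ≤ k) (hGal : Nat.card (F ≃+* F) = k) (c₀ : F ≃+* F) (hc₀ : ∀ c : F ≃+* F, c ∈ Subgroup.zpowers c₀) :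
    Nonempty (Out (POmega F f) ≃* DihedralGroup 4 × (F ≃+* F)) := by
  obtain ⟨φ, hφs, hφk⟩ := D.exists_phi_dihedral hneg
  obtain ⟨Θ, hΘ⟩ := exists_Theta f D.hf D.hQ D.hgen D.fr htop
  set π := piOut f Θ hΘ with hπ
  let s : (F ≃+* F) →* Out (POmega F f) := (QuotientGroup.mk' (Inn (POmega F f))).comp (tauHom f hsv)
  have hs : ∀ σ, π (s σ) = σ := fun σ => hΘ (semisim_sv hsv σ)
  have hker : Θ.ker = pgoAut F f := le_antisymm (ker_le_pgo f Θ hΘ htop) (pgo_le_ker f Θ hΘ)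
  obtain ⟨e⟩ := nonempty_ker_equiv (Inn (POmega F f)) (pgoAut F f) (Inn_le_pgo' f) Θ hker π (fun _ => rfl) φ hφs hφk
  let r : Out (POmega F f) := ((psiO f (isoC (D.rA hx)) : MulAut (POmega F f)) : Out (POmega F f))
  have hr : r ∈ π.ker := Theta_psiO f Θ hΘ _
  have hr2 : r ^ 2 = 1 := by
    have h1 := rA_sq D hx
    change ((psiO f (isoC (D.rA hx)) : MulAut (POmega F f)) : Out (POmega F f)) ^ 2 = 1
    rw [← QuotientGroup.mk_pow, h1]
    rfl
  have hsr : ∀ c, s c * r = r * s c := by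
    intro c
    change (QuotientGroup.mk' (Inn (POmega F f))) (tauHom f hsv c) * (QuotientGroup.mk' (Inn (POmega F f))) (psiO f (isoC (D.rA hx)))
      = (QuotientGroup.mk' (Inn (POmega F f))) (psiO f (isoC (D.rA hx))) * (QuotientGroup.mk' (Inn (POmega F f))) (tauHom f hsv c)
    rw [← map_mul, ← map_mul, comm_rA D hsv hx hxσ]
  have hnc : ¬ ∀ n ∈ π.ker, n * r = r * n := by
    intro hc
    have h1 : ∀ y, y * e ⟨r, hr⟩ = e ⟨r, hr⟩ * y := by
      intro y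
      obtain ⟨n, rfl⟩ := e.surjective y
      rw [← map_mul, ← map_mul]
      congr 1
      apply Subtype.ext
      exact hc n n.2
    have hdec : ∀ x : DihedralGroup 4, (∀ y, y * x = x * y) → ∃ w, x = w * w := by decide
    obtain ⟨w, hw⟩ := hdec _ h1
    obtain ⟨y, rfl⟩ := e.surjective w
    rw [← map_mul] at hw
    have h2 := e.injective hw
    have h3 : r = (y : Out (POmega F f)) * y := congrArg Subtype.val h2
    obtain ⟨⟨β⟩, hy⟩ := y
    have hβ : β ∈ pgoAut F f := by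
      rw [← hker]
      exact hy
    rw [pgoAut_eq] at hβ
    obtain ⟨A, -, rfl⟩ := hβ
    have h4 : ((psiO f (isoC (D.rA hx)) : MulAut (POmega F f)) : Out (POmega F f)) = ((psiO f (A * A) : MulAut (POmega F f)) : Out (POmega F f)) := by
      rw [map_mul]
      exact h3
    have h5 := QuotientGroup.eq.1 h4
    rw [← map_inv, ← map_mul] at h5
    have h6 := delta_of_Inn D h5
    rw [map_mul, map_inv, map_mul, delta_rA] at h6
    rcases D.delta_values A with h7 | h7 <;> rw [h7] at h6 <;> simp at h6 <;> exact D.neg_ne_one h6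
  exact nonempty_prod_dihedral hk π s hs hGal c₀ hc₀ e hr hr2 hnc hsr

/-- The structure of the outer automorphism group in the Klein case. -/
theorem out_klein_plus (D : Data f Q n) (hneg : negEl Q ∉ siegelE Q) (htop : gammaPOmega F f = ⊤)
    (hsv : ∀ (σ : F ≃+* F) v, f (sv σ v) = σ (f v)) :
    Nonempty (Out (POmega F f) ≃* Multiplicative (ZMod 2 × ZMod 2) × (F ≃+* F)) := by
  obtain ⟨φ, hφs, hφk⟩ := D.exists_phi_klein hneg
  obtain ⟨Θ, hΘ⟩ := exists_Theta f D.hf D.hQ D.hgen D.fr htop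
  set π := piOut f Θ hΘ with hπ
  let s : (F ≃+* F) →* Out (POmega F f) := (QuotientGroup.mk' (Inn (POmega F f))).comp (tauHom f hsv)
  have hs : ∀ σ, π (s σ) = σ := fun σ => hΘ (semisim_sv hsv σ)
  have hker : Θ.ker = pgoAut F f := le_antisymm (ker_le_pgo f Θ hΘ htop) (pgo_le_ker f Θ hΘ)
  obtain ⟨e⟩ := nonempty_ker_equiv (Inn (POmega F f)) (pgoAut F f) (Inn_le_pgo' f) Θ hker π (fun _ => rfl) φ hφs hφk
  have hcentral : ∀ x ∈ π.ker, ∀ z, x * z = z * x := by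
    intro x hx z
    obtain ⟨b, rfl⟩ := QuotientGroup.mk_surjective x
    obtain ⟨c, rfl⟩ := QuotientGroup.mk_surjective z
    have hb : b ∈ Θ.ker := hx
    rw [hker, pgoAut_eq] at hb
    obtain ⟨y, -, rfl⟩ := hb
    have hc : c ∈ gammaPOmega F f := by
      rw [htop]
      exact Subgroup.mem_top _
    rw [gamma_eq_range] at hc
    obtain ⟨⟨_, g', σ', hg', rfl⟩, rfl⟩ := hc
    have h1 := conj_mem_Inn D hneg hg' y
    rw [← psiG_conj_psiO hg' y] at h1
    have h2 : ((psiG f (mkG f hg') * psiO f y * (psiG f (mkG f hg'))⁻¹ * (psiO f y)⁻¹ : MulAut (POmega F f)) : Out (POmega F f)) = 1 :=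
      (QuotientGroup.eq_one_iff _).2 h1
    have h3 : ((psiG f (mkG f hg') : MulAut (POmega F f)) : Out (POmega F f)) * (psiO f y : MulAut (POmega F f)) * ((psiG f (mkG f hg') : MulAut (POmega F f)) : Out (POmega F f))⁻¹ * ((psiO f y : MulAut (POmega F f)) : Out (POmega F f))⁻¹ = 1 := h2
    rw [mul_inv_eq_one, mul_inv_eq_iff_eq_mul] at h3
    exact h3.symm
  obtain ⟨e₁⟩ := nonempty_equiv_prod π s hs (fun n hn c => hcentral n hn (s c))
  exact ⟨e₁.trans (MulEquiv.prodCongr e (MulEquiv.refl _))⟩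

end data

/-- The vector `e₀ + f₀`. -/
def x₁ (m : ℕ) : Fin (m + 1) ⊕ Fin (m + 1) → F := Pi.single (.inl 0) 1 + Pi.single (.inr 0) 1

lemma Q_x₁ (m : ℕ) : qPlus (m + 1) F (x₁ m) = 1 := by
  rw [qPlus_apply, quadFormPlus, Fin.sum_univ_succ]
  have h : ∀ i : Fin m, x₁ (F := F) m (.inl i.succ) * x₁ m (.inr i.succ) = 0 := by
    intro i
    simp [x₁, Pi.single_apply, Fin.succ_ne_zero]
  simp only [h, Finset.sum_const_zero, add_zero]
  simp [x₁, Pi.single_apply]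

lemma sv_x₁ (m : ℕ) (σ : F ≃+* F) : sv σ (x₁ (F := F) m) = x₁ m := by
  funext i
  simp only [sv, x₁, Pi.add_apply, Pi.single_apply]
  rcases i with i | i <;> by_cases hi : i = 0 <;> simp [hi]

/-- `Out(PΩ⁺_{2m}(q)) = D₈ × C_f` for `m ≥ 5` if `-1 ∈ Ω`. -/
theorem out_plus_dihedral {p f m : ℕ} [Fact p.Prime] (hf : 1 ≤ f) (hF : Fintype.card F = p ^ f) (hodd : Odd (Fintype.card F)) (hm : 5 ≤ m)
    (hc : ¬ (Odd m ∧ Fintype.card F % 4 = 3)) :
    Nonempty (Out (POmega F (quadFormPlus m F)) ≃* DihedralGroup 4 × Multiplicative (ZMod f)) := by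
  have htop := Cfsg.Agent.Lib.AutOrth.plus_top (F := F) hm
  obtain ⟨n, rfl⟩ : ∃ n, m = n + 3 := ⟨m - 3, by omega⟩
  obtain ⟨D⟩ := nonempty_dataPlus (F := F) hodd n
  have hneg := (neg_plus (F := F) hodd n).2 hc
  have hGal := Cfsg.Agent.Lib.AutPSL.card_ringAut hF hf
  have hx : qPlus (n + 2 + 1) F (x₁ (n + 2)) ≠ 0 := by
    rw [Q_x₁]
    exact one_ne_zero
  haveI : CharP F p := charP_of_card hF hf
  obtain ⟨e⟩ := out_dihedral_plus D hneg htop (fun σ v => sv_qPlus σ _ v) hx (sv_x₁ (n + 2)) hf hGal (frobeniusEquiv F p) (frob_gen hF hf)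
  obtain ⟨e₂⟩ := Cfsg.Agent.Lib.OutPSL.nonempty_ringAut_equiv hF hf
  exact ⟨e.trans (MulEquiv.prodCongr (MulEquiv.refl _) e₂.symm)⟩

/-- `Out(PΩ⁺_{2m}(q)) = C₂ × C₂ × C_f` for `m ≥ 5` if `-1 ∉ Ω`. -/
theorem out_plus_klein {p f m : ℕ} [Fact p.Prime] (hf : 1 ≤ f) (hF : Fintype.card F = p ^ f) (hodd : Odd (Fintype.card F)) (hm : 5 ≤ m)
    (hc : Odd m ∧ Fintype.card F % 4 = 3) :
    Nonempty (Out (POmega F (quadFormPlus m F)) ≃* Multiplicative (ZMod 2 × ZMod 2 × ZMod f)) := by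
  have htop := Cfsg.Agent.Lib.AutOrth.plus_top (F := F) hm
  obtain ⟨n, rfl⟩ : ∃ n, m = n + 3 := ⟨m - 3, by omega⟩
  obtain ⟨D⟩ := nonempty_dataPlus (F := F) hodd n
  have hneg : negEl (qPlus (n + 3) F) ∉ siegelE (qPlus (n + 3) F) := fun h => (neg_plus (F := F) hodd n).1 h hc
  obtain ⟨e⟩ := out_klein_plus D hneg htop (fun σ v => sv_qPlus σ _ v)
  obtain ⟨e₂⟩ := Cfsg.Agent.Lib.OutPSL.nonempty_ringAut_equiv hF hf
  exact ⟨e.trans ((MulEquiv.prodCongr (MulEquiv.refl _) e₂.symm).trans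
    ((MulEquiv.prodMultiplicative _ _).symm.trans (AddEquiv.prodAssoc.toMultiplicative)))⟩

end Cfsg.Agent.Lib.AutOrthOut
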