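import Mathlib
import Cfsg.Agent.Lib.OutPlusFive
import Cfsg.Agent.Lib.TriOutOdd

/-!
# The outer automorphism groups of `PΩ⁺_{2m}(q)`
-/

set_option autoImplicit false
set_option linter.unusedSectionVars false
set_option linter.unusedVariables false

namespace Cfsg.Agent.Lib.AutOrthOut

open Cfsg

variable {F : Type*} [Field F] [Fintype F]

/-- `Out(PΩ⁺_{2m}(2^f))`. -/
theorem s2607 {f m : ℕ} (hf : 1 ≤ f) (hF : Fintype.card F = 2 ^ f) (hm : 4 ≤ m) :
    if m = 4 then Nonempty (Out (POmega F (quadFormPlus m F)) ≃* Equiv.Perm (Fin 3) × Multiplicative (ZMod f))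
    else Nonempty (Out (POmega F (quadFormPlus m F)) ≃* Multiplicative (ZMod 2 × ZMod f)) := by
  haveI : Fact (Nat.Prime 2) := ⟨Nat.prime_two⟩
  split_ifs with h
  · subst h
    have hq : Even (Fintype.card F) := by
      rw [hF]
      exact (even_two).pow_of_ne_zero (by omega)
    obtain ⟨e⟩ := Cfsg.Agent.Lib.TriAct.out_even₈ hq
    obtain ⟨e₂⟩ := Cfsg.Agent.Lib.OutPSL.nonempty_ringAut_equiv hF hf
    exact ⟨e.trans (MulEquiv.prodCongr (MulEquiv.refl _) e₂.symm)⟩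
  · exact out_plus_even hf hF (by omega)

/-- `Out(PΩ⁺_{2m}(q))`, `q` odd. -/
theorem s2608 {p f m : ℕ} [Fact p.Prime] (hf : 1 ≤ f) (hF : Fintype.card F = p ^ f) (hp : p ≠ 2) (hm : 4 ≤ m) :
    if m = 4 then Nonempty (Out (POmega F (quadFormPlus m F)) ≃* Equiv.Perm (Fin 4) × Multiplicative (ZMod f))
    else if p ^ f % 4 = 3 ∧ Odd m then Nonempty (Out (POmega F (quadFormPlus m F)) ≃* Multiplicative (ZMod 2 × ZMod 2 × ZMod f))
    else Nonempty (Out (POmega F (quadFormPlus m F)) ≃* DihedralGroup 4 × Multiplicative (ZMod f)) := by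
  have hp' : p.Prime := Fact.out
  have hodd : Odd (Fintype.card F) := by
    rw [hF]
    exact (hp'.odd_of_ne_two hp).pow
  split_ifs with h h2
  · subst h
    obtain ⟨D⟩ := Cfsg.Agent.Lib.PgoFamilies.nonempty_dataPlus (F := F) hodd 1
    obtain ⟨e⟩ := Cfsg.Agent.Lib.TriAct.out_odd₈ D
    obtain ⟨e₂⟩ := Cfsg.Agent.Lib.OutPSL.nonempty_ringAut_equiv hF hf
    exact ⟨e.trans (MulEquiv.prodCongr (MulEquiv.refl _) e₂.symm)⟩
  · exact out_plus_klein hf hF hodd (by omega) ⟨h2.2, by rw [hF]; exact h2.1⟩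
  · refine out_plus_dihedral hf hF hodd (by omega) ?_
    rintro ⟨h3, h4⟩
    exact h2 ⟨by rw [← hF]; exact h4, h3⟩

end Cfsg.Agent.Lib.AutOrthOut
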