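import Mathlib
import Cfsg.Agent.Lib.EigenSq
import Cfsg.Agent.Lib.MatConj
import Cfsg.Agent.Lib.PolyBasis
import Cfsg.Agent.Lib.InvolConj

/-!
# Involutions in `PGL_n(q)`, `q` odd
-/

set_option autoImplicit false
set_option linter.unusedSectionVars false
set_option linter.unusedSimpArgs false
set_option linter.unusedVariables false

namespace Cfsg.Agent.Lib.PGLInvol

open Matrix Module Polynomial
open scoped MatrixGroups

variable {F : Type*} [Field F] {n : ℕ}

/-- The diagonal involution with `k` entries `-1`. -/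
def R (n k : ℕ) (F : Type*) [Field F] : Matrix (Fin n) (Fin n) F :=
  diagonal (fun i => if (i : ℕ) < k then -1 else 1)

theorem R_sq (k : ℕ) : R n k F * R n k F = 1 := by
  rw [R, diagonal_mul_diagonal, ← diagonal_one]
  congr 1
  funext i
  by_cases h : (i : ℕ) < k <;> simp [h]

/-- `R` as an element of `GL`. -/
def Rg (n k : ℕ) (F : Type*) [Field F] : GL (Fin n) F := ⟨R n k F, R n k F, R_sq k, R_sq k⟩

theorem card_lt {k : ℕ} (hk : k ≤ n) : Fintype.card {i : Fin n // (i : ℕ) < k} = k := by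
  have e : {i : Fin n // (i : ℕ) < k} ≃ Fin k :=
    { toFun := fun i => ⟨i.1, i.2⟩
      invFun := fun j => ⟨⟨j, lt_of_lt_of_le j.2 hk⟩, j.2⟩
      left_inv := fun i => rfl
      right_inv := fun j => rfl }
  rw [Fintype.card_congr e, Fintype.card_fin]

theorem card_not_lt {k : ℕ} (hk : k ≤ n) : Fintype.card {i : Fin n // ¬ (i : ℕ) < k} = n - k := by
  have e : {i : Fin n // ¬ (i : ℕ) < k} ≃ Fin (n - k) :=
    { toFun := fun i => ⟨i.1 - k, by
        have := i.1.2
        have := i.2
        omega⟩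
      invFun := fun j => ⟨⟨j + k, by
        have := j.2
        omega⟩, by
        simp⟩
      left_inv := fun i => by
        apply Subtype.ext
        apply Fin.ext
        have := i.2
        simp
        omega
      right_inv := fun j => by
        apply Fin.ext
        simp }
  rw [Fintype.card_congr e, Fintype.card_fin]

theorem rank_R_sub (h2 : (2 : F) ≠ 0) {k : ℕ} (hk : k ≤ n) : (R n k F - 1).rank = k := by
  classical
  have e : R n k F - 1 = diagonal (fun i : Fin n => if (i : ℕ) < k then (-2 : F) else 0) := by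
    rw [R, ← diagonal_one, diagonal_sub]
    congr 1
    funext i
    by_cases h : (i : ℕ) < k
    · simp [h]
      norm_num
    · simp [h]
  rw [e, Matrix.rank_diagonal]
  have : Fintype.card {i : Fin n // (if (i : ℕ) < k then (-2 : F) else 0) ≠ 0} = Fintype.card {i : Fin n // (i : ℕ) < k} := by
    apply Fintype.card_congr
    apply Equiv.subtypeEquivRight
    intro i
    by_cases h : (i : ℕ) < k
    · simp [h, h2]
    · simp [h]
  rw [this, card_lt hk]

theorem rank_R_add (h2 : (2 : F) ≠ 0) {k : ℕ} (hk : k ≤ n) : (R n k F + 1).rank = n - k := by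
  classical
  have e : R n k F + 1 = diagonal (fun i : Fin n => if (i : ℕ) < k then (0 : F) else 2) := by
    rw [R, ← diagonal_one, diagonal_add]
    congr 1
    funext i
    by_cases h : (i : ℕ) < k
    · simp [h]
    · simp [h]
      norm_num
  rw [e, Matrix.rank_diagonal]
  have : Fintype.card {i : Fin n // (if (i : ℕ) < k then (0 : F) else 2) ≠ 0} = Fintype.card {i : Fin n // ¬ (i : ℕ) < k} := by
    apply Fintype.card_congr
    apply Equiv.subtypeEquivRight
    intro i
    by_cases h : (i : ℕ) < k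
    · simp [h]
    · simp [h, h2]
  rw [this, card_not_lt hk]

/-- A matrix with a `±1`-eigenbasis is similar to `R`. -/
theorem conj_R_of_basis (T : Matrix (Fin n) (Fin n) F) {a b : ℕ} (hab : b + a = n)
    (e : Basis (Fin a ⊕ Fin b) F (Fin n → F)) (h1 : ∀ i, T *ᵥ e (Sum.inl i) = e (Sum.inl i))
    (h2 : ∀ i, T *ᵥ e (Sum.inr i) = - e (Sum.inr i)) :
    ∃ g g' : Matrix (Fin n) (Fin n) F, g * g' = 1 ∧ g' * g = 1 ∧ g * T = R n b F * g := by
  classical
  let σ : Fin a ⊕ Fin b ≃ Fin n := (Equiv.sumComm _ _).trans (finSumFinEquiv.trans (finCongr hab))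
  have hσl : ∀ i : Fin a, ((σ (Sum.inl i) : Fin n) : ℕ) = b + i := by
    intro i
    simp [σ]
  have hσr : ∀ i : Fin b, ((σ (Sum.inr i) : Fin n) : ℕ) = i := by
    intro i
    simp [σ]
  let std := Pi.basisFun F (Fin n)
  let E : (Fin n → F) ≃ₗ[F] (Fin n → F) := e.equiv std σ
  have hE : ∀ x, E (e x) = Pi.single (σ x) 1 := by
    intro x
    simp [E, std, Basis.equiv_apply, Pi.basisFun_apply]
  obtain ⟨g, hg⟩ : ∃ g : Matrix (Fin n) (Fin n) F, ∀ w, g *ᵥ w = E w :=
    ⟨LinearMap.toMatrix' E.toLinearMap, fun w => by rw [LinearMap.toMatrix'_mulVec]; rfl⟩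
  obtain ⟨g', hg'⟩ : ∃ g' : Matrix (Fin n) (Fin n) F, ∀ w, g' *ᵥ w = E.symm w :=
    ⟨LinearMap.toMatrix' E.symm.toLinearMap, fun w => by rw [LinearMap.toMatrix'_mulVec]; rfl⟩
  have hgg' : g * g' = 1 := by
    apply Matrix.mulVec_injective
    funext w
    rw [← Matrix.mulVec_mulVec, hg', hg, Matrix.one_mulVec, LinearEquiv.apply_symm_apply]
  refine ⟨g, g', hgg', mul_eq_one_comm.mp hgg', ?_⟩
  have hR : ∀ j : Fin n, R n b F *ᵥ (Pi.single j 1) = (if (j : ℕ) < b then (-1 : F) else 1) • (Pi.single j 1 : Fin n → F) := by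
    intro j
    funext i
    rw [R, Matrix.mulVec_diagonal]
    by_cases hij : i = j
    · subst hij
      simp
    · simp [hij]
  apply Matrix.mulVec_injective
  have : (g * T).mulVecLin = (R n b F * g).mulVecLin := by
    apply e.ext
    rintro (i | i)
    · show (g * T) *ᵥ e (Sum.inl i) = (R n b F * g) *ᵥ e (Sum.inl i)
      rw [← Matrix.mulVec_mulVec, ← Matrix.mulVec_mulVec, h1, hg, hE, hR, hσl, if_neg (by omega), one_smul]
    · show (g * T) *ᵥ e (Sum.inr i) = (R n b F * g) *ᵥ e (Sum.inr i)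
      rw [← Matrix.mulVec_mulVec, ← Matrix.mulVec_mulVec, h2, hg, hg, hE, map_neg, hE, hR, hσr, if_pos i.2]
      simp
  funext w
  exact LinearMap.congr_fun this w

/-- Involutions of `GL`: similar to `R`, with complementary ranks for `A` and `-A`. -/
theorem invol_conj (h2 : (2 : F) ≠ 0) {A : Matrix (Fin n) (Fin n) F} (hA : A * A = 1) :
    ∃ a b : ℕ, b + a = n ∧
      (∃ g g' : Matrix (Fin n) (Fin n) F, g * g' = 1 ∧ g' * g = 1 ∧ g * A = R n b F * g) ∧
      (∃ g g' : Matrix (Fin n) (Fin n) F, g * g' = 1 ∧ g' * g = 1 ∧ g * (-A) = R n a F * g) := by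
  obtain ⟨a, b, e, h3, h4⟩ := Cfsg.Agent.Lib.EigenSq.exists_eigen_basis A.mulVecLin (1 : F)
    (by simpa using h2) (by
      intro v
      simp only [Matrix.mulVecLin_apply, Matrix.mulVec_mulVec, hA, Matrix.one_mulVec, mul_one, one_smul])
  have hcard : b + a = n := by
    have := Module.finrank_eq_card_basis e
    simp only [Fintype.card_sum, Fintype.card_fin] at this
    rw [Module.finrank_fin_fun] at this
    omega
  refine ⟨a, b, hcard, ?_, ?_⟩
  · exact conj_R_of_basis A hcard e (fun i => by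
      have := h3 i
      rwa [one_smul] at this) (fun i => by
      have := h4 i
      rwa [neg_smul, one_smul] at this)
  · refine conj_R_of_basis (-A) (by omega) (e.reindex (Equiv.sumComm _ _)) ?_ ?_
    · intro i
      have h5 := h4 i
      rw [neg_smul, one_smul] at h5
      simp only [Basis.reindex_apply, Equiv.sumComm_symm, Equiv.sumComm_apply, Sum.swap_inl]
      rw [Matrix.neg_mulVec]
      show -(A.mulVecLin (e (Sum.inr i))) = _
      rw [h5, neg_neg]
    · intro i
      have h5 := h3 i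
      rw [one_smul] at h5
      simp only [Basis.reindex_apply, Equiv.sumComm_symm, Equiv.sumComm_apply, Sum.swap_inr]
      rw [Matrix.neg_mulVec]
      show -(A.mulVecLin (e (Sum.inl i))) = _
      rw [h5]

section pgl

/-- The scalar description of the centre. -/
theorem mem_center_iff' {A : GL (Fin n) F} :
    A ∈ Subgroup.center (GL (Fin n) F) ↔ ∃ z : F, (A : Matrix (Fin n) (Fin n) F) = z • 1 := by
  rw [Matrix.GeneralLinearGroup.mem_center_iff_val_mem_range_scalar]
  constructor
  · rintro ⟨z, hz⟩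
    refine ⟨z, ?_⟩
    rw [← hz]
    ext i j
    simp [Matrix.scalar_apply, Matrix.diagonal_apply, Matrix.one_apply]
  · rintro ⟨z, hz⟩
    refine ⟨z, ?_⟩
    rw [hz]
    ext i j
    simp [Matrix.scalar_apply, Matrix.diagonal_apply, Matrix.one_apply]

local notation "PG" => (GL (Fin n) F ⧸ Subgroup.center (GL (Fin n) F))

/-- Scalars in `GL`. -/
def scalarGL {z : F} (hz : z ≠ 0) : GL (Fin n) F :=
  ⟨z • 1, z⁻¹ • 1, by rw [smul_mul_smul_comm, mul_inv_cancel₀ hz, one_mul, one_smul],
    by rw [smul_mul_smul_comm, inv_mul_cancel₀ hz, one_mul, one_smul]⟩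

theorem scalarGL_mem {z : F} (hz : z ≠ 0) : (scalarGL hz : GL (Fin n) F) ∈ Subgroup.center (GL (Fin n) F) :=
  mem_center_iff'.mpr ⟨z, rfl⟩

/-- Conjugacy in the projective group. -/
theorem conj_iff (hn : 1 ≤ n) {A B : GL (Fin n) F} :
    IsConj (QuotientGroup.mk A : PG) (QuotientGroup.mk B : PG) ↔
      ∃ (g : GL (Fin n) F) (z : F), z ≠ 0 ∧ (g : Matrix (Fin n) (Fin n) F) * A = (z • (B : Matrix (Fin n) (Fin n) F)) * g := by
  haveI : Nonempty (Fin n) := ⟨⟨0, by omega⟩⟩
  rw [isConj_iff]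
  constructor
  · rintro ⟨c, hc⟩
    obtain ⟨g, rfl⟩ := QuotientGroup.mk_surjective c
    have h1 : (QuotientGroup.mk (g * A * g⁻¹) : PG) = QuotientGroup.mk B := hc
    rw [QuotientGroup.eq] at h1
    obtain ⟨z, hz⟩ := mem_center_iff'.mp (Subgroup.inv_mem _ h1)
    have hz0 : z ≠ 0 := by
      rintro rfl
      rw [zero_smul] at hz
      have hu : IsUnit ((((g * A * g⁻¹)⁻¹ * B)⁻¹ : GL (Fin n) F) : Matrix (Fin n) (Fin n) F) := Units.isUnit _
      rw [hz] at hu
      exact not_isUnit_zero hu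
    refine ⟨g, z, hz0, ?_⟩
    have h3 : g * A * g⁻¹ = B * (((g * A * g⁻¹)⁻¹ * B)⁻¹) := by group
    have h4 : g * A = B * (((g * A * g⁻¹)⁻¹ * B)⁻¹) * g := by
      rw [← h3]
      group
    have h5 := congrArg (fun x : GL (Fin n) F => (x : Matrix (Fin n) (Fin n) F)) h4
    simp only [Units.val_mul] at h5
    rw [h5, hz, mul_smul_comm, mul_one, smul_mul_assoc]
  · rintro ⟨g, z, hz, h⟩
    refine ⟨QuotientGroup.mk g, ?_⟩
    show (QuotientGroup.mk (g * A * g⁻¹) : PG) = QuotientGroup.mk B
    have h3 : g * A * g⁻¹ = scalarGL hz * B := by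
      apply Units.ext
      rw [Units.val_mul, Units.val_mul, Units.val_mul, h]
      have : (((z • (B : Matrix (Fin n) (Fin n) F)) * g) * ((g⁻¹ : GL (Fin n) F) : Matrix (Fin n) (Fin n) F)) = z • (B : Matrix (Fin n) (Fin n) F) := by
        rw [mul_assoc, Units.mul_inv, mul_one]
      rw [this]
      show _ = (z • (1 : Matrix (Fin n) (Fin n) F)) * B
      rw [smul_mul_assoc, one_mul]
    rw [h3, QuotientGroup.eq]
    have hmem := Subgroup.inv_mem _ (scalarGL_mem (n := n) hz)
    have h4 : (scalarGL hz * B)⁻¹ * B = (scalarGL hz : GL (Fin n) F)⁻¹ := by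
      rw [_root_.mul_inv_rev, mul_assoc, ← Subgroup.mem_center_iff.mp hmem B, inv_mul_cancel_left]
    rw [h4]
    exact hmem

/-- `π A` has order two. -/
theorem orderOf_iff {A : GL (Fin n) F} :
    orderOf (QuotientGroup.mk A : PG) = 2 ↔
      (∀ z : F, (A : Matrix (Fin n) (Fin n) F) ≠ z • 1) ∧ ∃ z : F, (A : Matrix (Fin n) (Fin n) F) * A = z • 1 := by
  have h1 : (QuotientGroup.mk A : PG) = 1 ↔ A ∈ Subgroup.center (GL (Fin n) F) := QuotientGroup.eq_one_iff A
  have h3 : (QuotientGroup.mk A : PG) ^ 2 = 1 ↔ A * A ∈ Subgroup.center (GL (Fin n) F) := by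
    rw [← QuotientGroup.eq_one_iff (A * A), pow_two]
    rfl
  constructor
  · intro h
    constructor
    · intro z hz
      have : (QuotientGroup.mk A : PG) = 1 := h1.mpr (mem_center_iff'.mpr ⟨z, hz⟩)
      rw [this, orderOf_one] at h
      omega
    · have h5 : (QuotientGroup.mk A : PG) ^ 2 = 1 := by
        rw [← h]
        exact pow_orderOf_eq_one _
      obtain ⟨z, hz⟩ := mem_center_iff'.mp (h3.mp h5)
      exact ⟨z, hz⟩
  · rintro ⟨h4, z, hz⟩
    apply orderOf_eq_prime
    · exact h3.mpr (mem_center_iff'.mpr ⟨z, hz⟩)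
    · intro h5
      obtain ⟨y, hy⟩ := mem_center_iff'.mp (h1.mp h5)
      exact h4 y hy

/-- `R k` gives an element of order two for `1 ≤ k < n`. -/
theorem orderOf_R (h2 : (2 : F) ≠ 0) {k : ℕ} (h1 : 1 ≤ k) (hk : k < n) :
    orderOf (QuotientGroup.mk (Rg n k F) : PG) = 2 := by
  rw [orderOf_iff]
  refine ⟨fun z hz => ?_, 1, by
    rw [one_smul]
    exact R_sq k⟩
  have hz' : R n k F = z • 1 := hz
  have e1 := congrFun (congrFun hz' ⟨0, by omega⟩) ⟨0, by omega⟩
  have e2 := congrFun (congrFun hz' ⟨k, hk⟩) ⟨k, hk⟩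
  simp only [R, Matrix.diagonal_apply_eq, Matrix.smul_apply, Matrix.one_apply_eq, smul_eq_mul, mul_one] at e1 e2
  rw [if_pos (by show 0 < k; omega)] at e1
  rw [if_neg (by simp)] at e2
  apply h2
  linear_combination e2 - e1

/-- Rank invariance under conjugation. -/
theorem rank_conj {g g' T S : Matrix (Fin n) (Fin n) F} (h1 : g * g' = 1) (h3 : g * T = S * g) :
    T.rank = S.rank := by
  have hgU : IsUnit g.det := by
    have := Matrix.det_mul g g'
    rw [h1, Matrix.det_one] at this
    exact IsUnit.of_mul_eq_one _ this.symm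
  have hgU' : IsUnit g'.det := by
    have := Matrix.det_mul g g'
    rw [h1, Matrix.det_one] at this
    exact IsUnit.of_mul_eq_one (g.det) (by rw [mul_comm]; exact this.symm)
  have e : S = g * T * g' := by
    rw [h3, mul_assoc, h1, mul_one]
  rw [e, Matrix.rank_mul_eq_left_of_isUnit_det _ _ hgU', Matrix.rank_mul_eq_right_of_isUnit_det _ _ hgU]

/-- Distinctness of the diagonal classes. -/
theorem R_distinct (h2 : (2 : F) ≠ 0) (hn : 1 ≤ n) {k l : ℕ} (hk : k ≤ n / 2) (hl : l ≤ n / 2)
    (h : IsConj (QuotientGroup.mk (Rg n k F) : PG) (QuotientGroup.mk (Rg n l F) : PG)) : k = l := by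
  obtain ⟨g, z, hz, hg⟩ := (conj_iff hn).mp h
  have hg' : (g : Matrix (Fin n) (Fin n) F) * R n k F = (z • R n l F) * g := hg
  have h3 : (g : Matrix (Fin n) (Fin n) F) = (z * z) • (g : Matrix (Fin n) (Fin n) F) := by
    calc (g : Matrix (Fin n) (Fin n) F) = g * (R n k F * R n k F) := by rw [R_sq, mul_one]
      _ = (g * R n k F) * R n k F := by rw [mul_assoc]
      _ = (z • R n l F) * (g * R n k F) := by conv_lhs => rw [hg', mul_assoc]
      _ = (z • R n l F) * ((z • R n l F) * g) := by rw [hg']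
      _ = (z * z) • ((R n l F * R n l F) * g) := by
          simp only [smul_mul_assoc, mul_smul_comm, smul_smul, mul_assoc]
      _ = _ := by rw [R_sq, one_mul]
  have hzz : z * z = 1 := by
    by_contra hne
    have h4 : (1 - z * z) • (g : Matrix (Fin n) (Fin n) F) = 0 := by
      rw [sub_smul, one_smul, ← h3, sub_self]
    have h5 := (smul_eq_zero.mp h4).resolve_left (sub_ne_zero.mpr (Ne.symm hne))
    haveI : Nonempty (Fin n) := ⟨⟨0, by omega⟩⟩
    exact Units.ne_zero g h5
  have hg1 : (g : Matrix (Fin n) (Fin n) F) * ((g⁻¹ : GL (Fin n) F) : Matrix (Fin n) (Fin n) F) = 1 := Units.mul_inv g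
  have hz2 : (z - 1) * (z + 1) = 0 := by linear_combination hzz
  rcases mul_eq_zero.mp hz2 with h5 | h5
  · have hz1 : z = 1 := sub_eq_zero.mp h5
    rw [hz1, one_smul] at hg'
    have h6 : (g : Matrix (Fin n) (Fin n) F) * (R n k F - 1) = (R n l F - 1) * g := by
      rw [mul_sub, sub_mul, hg', mul_one, one_mul]
    have h7 := rank_conj hg1 h6
    rwa [rank_R_sub h2 (by omega), rank_R_sub h2 (by omega)] at h7
  · have hz1 : z = -1 := by linear_combination h5
    rw [hz1, neg_smul, one_smul, neg_mul] at hg'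
    have h6 : (g : Matrix (Fin n) (Fin n) F) * (R n k F - 1) = (-(R n l F + 1)) * g := by
      rw [mul_sub, neg_mul, add_mul, hg', mul_one, one_mul]
      abel
    have h7 := rank_conj hg1 h6
    have h8 : (-(R n l F + 1)).rank = (R n l F + 1).rank := by
      have e1 : -(R n l F + 1) = (-1 : Matrix (Fin n) (Fin n) F) * (R n l F + 1) := by rw [neg_one_mul]
      rw [e1]
      exact Matrix.rank_mul_eq_right_of_isUnit_det _ _ ((Matrix.isUnit_iff_isUnit_det _).mp isUnit_one.neg)
    rw [h8, rank_R_sub h2 (by omega), rank_R_add h2 (by omega)] at h7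
    omega

/-- The non-split class is different from the split ones. -/
theorem R_ne_block (hn : 1 ≤ n) {k : ℕ} {B : GL (Fin n) F} {μ : F} (hμ : ¬ IsSquare μ)
    (hB : (B : Matrix (Fin n) (Fin n) F) * B = μ • 1)
    (h : IsConj (QuotientGroup.mk (Rg n k F) : PG) (QuotientGroup.mk B : PG)) : False := by
  obtain ⟨g, z, hz, hg⟩ := (conj_iff hn).mp h
  have hg' : (g : Matrix (Fin n) (Fin n) F) * R n k F = (z • (B : Matrix (Fin n) (Fin n) F)) * g := hg
  have h3 : (g : Matrix (Fin n) (Fin n) F) = (z * z * μ) • (g : Matrix (Fin n) (Fin n) F) := by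
    calc (g : Matrix (Fin n) (Fin n) F) = g * (R n k F * R n k F) := by rw [R_sq, mul_one]
      _ = (g * R n k F) * R n k F := by rw [mul_assoc]
      _ = (z • (B : Matrix (Fin n) (Fin n) F)) * (g * R n k F) := by conv_lhs => rw [hg', mul_assoc]
      _ = (z • (B : Matrix (Fin n) (Fin n) F)) * ((z • (B : Matrix (Fin n) (Fin n) F)) * g) := by rw [hg']
      _ = (z * z) • (((B : Matrix (Fin n) (Fin n) F) * B) * g) := by
          simp only [smul_mul_assoc, mul_smul_comm, smul_smul, mul_assoc]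
      _ = _ := by rw [hB, smul_mul_assoc, one_mul, smul_smul]
  have hzz : z * z * μ = 1 := by
    by_contra hne
    have h4 : (1 - z * z * μ) • (g : Matrix (Fin n) (Fin n) F) = 0 := by
      rw [sub_smul, one_smul, ← h3, sub_self]
    have h5 := (smul_eq_zero.mp h4).resolve_left (sub_ne_zero.mpr (Ne.symm hne))
    haveI : Nonempty (Fin n) := ⟨⟨0, by omega⟩⟩
    exact Units.ne_zero g h5
  apply hμ
  refine ⟨z⁻¹, ?_⟩
  field_simp
  linear_combination hzz

/-- The polynomial `X² - μ` for a non-square `μ`. -/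
theorem irred_of_nonsquare {μ : F} (hμ : ¬ IsSquare μ) : Irreducible (X ^ 2 - C μ : F[X]) := by
  have hm : (X ^ 2 - C μ : F[X]).Monic := by monicity!
  have hd : (X ^ 2 - C μ : F[X]).natDegree = 2 := by compute_degree!
  rw [hm.irreducible_iff_roots_eq_zero_of_degree_le_three (by omega) (by omega)]
  rw [Multiset.eq_zero_iff_forall_notMem]
  intro a ha
  have := (Polynomial.mem_roots'.mp ha).2
  simp only [IsRoot.def, eval_sub, eval_pow, eval_X, eval_C] at this
  apply hμ
  exact ⟨a, by linear_combination -this⟩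

theorem nonsquare_mul [Fintype F] (h2 : (2 : F) ≠ 0) {a b : F} (ha : ¬ IsSquare a) (hb : ¬ IsSquare b) : IsSquare (a * b) := by
  classical
  have hchar : ringChar F ≠ 2 := by
    intro h
    apply h2
    have : CharP F 2 := by
      rw [← h]
      exact ringChar.charP F
    exact CharTwo.two_eq_zero
  have ha0 : a ≠ 0 := by
    rintro rfl
    exact ha IsSquare.zero
  have hb0 : b ≠ 0 := by
    rintro rfl
    exact hb IsSquare.zero
  have e1 := (quadraticChar_neg_one_iff_not_isSquare).mpr ha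
  have e2 := (quadraticChar_neg_one_iff_not_isSquare).mpr hb
  rw [← quadraticChar_one_iff_isSquare (mul_ne_zero ha0 hb0), map_mul, e1, e2]
  norm_num

/-- The classification of elements of order two. -/
theorem classify [Fintype F] (h2 : (2 : F) ≠ 0) (hn : 1 ≤ n) {μ : F} (hμ : ¬ IsSquare μ) {A : GL (Fin n) F}
    (hA : ∀ z : F, (A : Matrix (Fin n) (Fin n) F) ≠ z • 1) {lam : F}
    (hlam : (A : Matrix (Fin n) (Fin n) F) * A = lam • 1) :
    (∃ k, 1 ≤ k ∧ k ≤ n / 2 ∧ IsConj (QuotientGroup.mk A : PG) (QuotientGroup.mk (Rg n k F) : PG)) ∨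
      (Even n ∧ ∀ B : GL (Fin n) F, (B : Matrix (Fin n) (Fin n) F) * B = μ • 1 →
        IsConj (QuotientGroup.mk A : PG) (QuotientGroup.mk B : PG)) := by
  classical
  haveI : Nonempty (Fin n) := ⟨⟨0, by omega⟩⟩
  have hlam0 : lam ≠ 0 := by
    rintro rfl
    rw [zero_smul] at hlam
    have hu : IsUnit ((A : Matrix (Fin n) (Fin n) F) * A) := A.isUnit.mul A.isUnit
    rw [hlam] at hu
    exact not_isUnit_zero hu
  by_cases hs : IsSquare lam
  · left
    obtain ⟨c, rfl⟩ := hs
    have hc : c ≠ 0 := by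
      rintro rfl
      simp at hlam0
    obtain ⟨A', hA'⟩ : ∃ A', A' = c⁻¹ • (A : Matrix (Fin n) (Fin n) F) := ⟨_, rfl⟩
    have hAA' : (A : Matrix (Fin n) (Fin n) F) = c • A' := by
      rw [hA', smul_smul, mul_inv_cancel₀ hc, one_smul]
    have hsq : A' * A' = 1 := by
      rw [hA', smul_mul_smul_comm, hlam, smul_smul]
      have : c⁻¹ * c⁻¹ * (c * c) = 1 := by field_simp
      rw [this, one_smul]
    obtain ⟨a, b, hab, ⟨g, g', h1, h3, h4⟩, ⟨r, r', h5, h6, h7⟩⟩ := invol_conj h2 hsq
    have hR0 : R n 0 F = 1 := by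
      rw [R, ← diagonal_one]
      congr 1
    have hb : b ≠ 0 := by
      rintro rfl
      rw [hR0, one_mul] at h4
      have h8 : A' = 1 := by
        calc A' = (g' * g) * A' := by rw [h3, one_mul]
          _ = g' * (g * A') := by rw [mul_assoc]
          _ = g' * g := by rw [h4]
          _ = 1 := h3
      apply hA c
      rw [hAA', h8]
    have ha : a ≠ 0 := by
      rintro rfl
      rw [hR0, one_mul] at h7
      have h8 : -A' = 1 := by
        calc -A' = (r' * r) * (-A') := by rw [h6, one_mul]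
          _ = r' * (r * (-A')) := by rw [mul_assoc]
          _ = r' * r := by rw [h7]
          _ = 1 := h6
      apply hA (-c)
      rw [hAA', neg_smul, ← smul_neg, ← neg_eq_iff_eq_neg.mpr (Eq.symm h8)]
    by_cases hbn : b ≤ n / 2
    · refine ⟨b, by omega, hbn, (conj_iff hn).mpr ⟨⟨g, g', h1, h3⟩, c, hc, ?_⟩⟩
      show g * (A : Matrix (Fin n) (Fin n) F) = (c • R n b F) * g
      rw [hAA', mul_smul_comm, h4, smul_mul_assoc]
    · refine ⟨a, by omega, by omega, (conj_iff hn).mpr ⟨⟨r, r', h5, h6⟩, -c, neg_ne_zero.mpr hc, ?_⟩⟩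
      show r * (A : Matrix (Fin n) (Fin n) F) = ((-c) • R n a F) * r
      have h8 : r * A' = - (R n a F * r) := by
        rw [← h7, mul_neg, neg_neg]
      rw [hAA', mul_smul_comm, h8, smul_neg, neg_smul, neg_mul, smul_mul_assoc]
  · right
    have hirr := irred_of_nonsquare hs
    have hm : (X ^ 2 - C lam : F[X]).Monic := by monicity!
    have hd : (X ^ 2 - C lam : F[X]).natDegree = 2 := by compute_degree!
    have haev : aeval (A : Matrix (Fin n) (Fin n) F) (X ^ 2 - C lam : F[X]) = 0 := by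
      rw [map_sub, map_pow, aeval_X, aeval_C, pow_two, hlam, Algebra.algebraMap_eq_smul_one, sub_self]
    refine ⟨?_, ?_⟩
    · have haev' : aeval (Matrix.toLinAlgEquiv' (A : Matrix (Fin n) (Fin n) F)) (X ^ 2 - C lam : F[X]) = 0 := by
        rw [Polynomial.aeval_algEquiv]
        show Matrix.toLinAlgEquiv' (aeval (A : Matrix (Fin n) (Fin n) F) (X ^ 2 - C lam : F[X])) = 0
        rw [haev, map_zero]
      have h5 := Cfsg.Agent.Lib.PolyBasis.natDegree_dvd_finrank _ _ hirr haev'
      rw [hd, Module.finrank_fin_fun] at h5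
      exact even_iff_two_dvd.mpr h5
    · intro B hB
      obtain ⟨k, hk⟩ := nonsquare_mul h2 hs hμ
      have hμ0 : μ ≠ 0 := by
        rintro rfl
        exact hμ IsSquare.zero
      have hk0 : k ≠ 0 := by
        rintro rfl
        rw [zero_mul] at hk
        exact (mul_ne_zero hlam0 hμ0) hk
      -- `lam = μ c²` with `c = k / μ`
      obtain ⟨c, hc⟩ : ∃ c, c = k * μ⁻¹ := ⟨_, rfl⟩
      have hc0 : c ≠ 0 := by
        rw [hc]
        exact mul_ne_zero hk0 (inv_ne_zero hμ0)
      have hcc : μ * (c * c) = lam := by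
        rw [hc]
        field_simp
        linear_combination -hk
      let x : GL (Fin n) F := scalarGL (inv_ne_zero hc0) * A
      have hx : (x : Matrix (Fin n) (Fin n) F) = c⁻¹ • (A : Matrix (Fin n) (Fin n) F) := by
        show (c⁻¹ • (1 : Matrix (Fin n) (Fin n) F)) * A = _
        rw [smul_mul_assoc, one_mul]
      have hxx : (x : Matrix (Fin n) (Fin n) F) * x = μ • 1 := by
        rw [hx, smul_mul_smul_comm, hlam, smul_smul, ← hcc]
        have : c⁻¹ * c⁻¹ * (μ * (c * c)) = μ := by field_simp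
        rw [this]
      have hμirr := irred_of_nonsquare hμ
      have hμm : (X ^ 2 - C μ : F[X]).Monic := by monicity!
      have hax : aeval (x : Matrix (Fin n) (Fin n) F) (X ^ 2 - C μ : F[X]) = 0 := by
        rw [map_sub, map_pow, aeval_X, aeval_C, pow_two, hxx, Algebra.algebraMap_eq_smul_one, sub_self]
      have haB : aeval (B : Matrix (Fin n) (Fin n) F) (X ^ 2 - C μ : F[X]) = 0 := by
        rw [map_sub, map_pow, aeval_X, aeval_C, pow_two, hB, Algebra.algebraMap_eq_smul_one, sub_self]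
      obtain ⟨P, hP⟩ := Cfsg.Agent.Lib.MatConj.exists_conj_of_poly x (B : Matrix (Fin n) (Fin n) F) _ hμirr hμm hax haB
      have hP' : P⁻¹ * x * P = B := Units.ext hP
      refine (conj_iff hn).mpr ⟨P⁻¹, c, hc0, ?_⟩
      have h6 : ((P⁻¹ : GL (Fin n) F) : Matrix (Fin n) (Fin n) F) * (x : Matrix (Fin n) (Fin n) F) =
          (B : Matrix (Fin n) (Fin n) F) * ((P⁻¹ : GL (Fin n) F) : Matrix (Fin n) (Fin n) F) := by
        rw [← Units.val_mul, ← Units.val_mul, ← hP']
        congr 1
        group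
      have h7 : (A : Matrix (Fin n) (Fin n) F) = c • (x : Matrix (Fin n) (Fin n) F) := by
        rw [hx, smul_smul, mul_inv_cancel₀ hc0, one_smul]
      rw [h7, mul_smul_comm, h6, smul_mul_assoc]

/-- The count. -/
theorem card_involutions [Fintype F] {q : ℕ} (hF : Fintype.card F = q) (hq : Odd q) (hn : 2 ≤ n) :
    Nat.card {C : ConjClasses PG // ∃ g : PG, ConjClasses.mk g = C ∧ orderOf g = 2} =
      n / 2 + (if Even n then 1 else 0) := by
  classical
  have h2 := Cfsg.Agent.Lib.InvolConj.two_ne_zero_of_odd hF hq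
  have hn1 : 1 ≤ n := by omega
  obtain ⟨μ, hμ⟩ := FiniteField.exists_nonsquare (Cfsg.Agent.Lib.InvolConj.ringChar_ne_two_of_odd hF hq)
  have hμ0 : μ ≠ 0 := by
    rintro rfl
    exact hμ IsSquare.zero
  -- the non-split representative
  have hB : Even n → ∃ B : GL (Fin n) F, (B : Matrix (Fin n) (Fin n) F) * B = μ • 1 := by
    rintro ⟨m, hm⟩
    obtain ⟨X, hX, -⟩ := Cfsg.Agent.Lib.InvolConj.exists_block (F := F) (n := n) m (by omega) μ
    refine ⟨⟨X, μ⁻¹ • X, ?_, ?_⟩, hX⟩
    · rw [mul_smul_comm, hX, smul_smul, inv_mul_cancel₀ hμ0, one_smul]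
    · rw [smul_mul_assoc, hX, smul_smul, inv_mul_cancel₀ hμ0, one_smul]
  let B₀ : GL (Fin n) F := if h : Even n then (hB h).choose else 1
  have hB₀ : Even n → (B₀ : Matrix (Fin n) (Fin n) F) * B₀ = μ • 1 := by
    intro h
    simp only [B₀, dif_pos h]
    exact (hB h).choose_spec
  have hB₀ord : Even n → orderOf (QuotientGroup.mk B₀ : PG) = 2 := by
    intro h
    rw [orderOf_iff]
    refine ⟨fun z hz => ?_, μ, hB₀ h⟩
    apply hμ
    refine ⟨z, ?_⟩
    have h5 := hB₀ h
    rw [hz, smul_mul_smul_comm, one_mul] at h5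
    haveI : Nonempty (Fin n) := ⟨⟨0, by omega⟩⟩
    have h6 := congrFun (congrFun h5 ⟨0, by omega⟩) ⟨0, by omega⟩
    simpa using h6.symm
  let T := {k : ℕ // (1 ≤ k ∧ k ≤ n / 2) ∨ (k = 0 ∧ Even n)}
  let rep : T → GL (Fin n) F := fun k => if k.1 = 0 then B₀ else Rg n k.1 F
  have hrep : ∀ k : T, orderOf (QuotientGroup.mk (rep k) : PG) = 2 := by
    rintro ⟨k, hk⟩
    by_cases h0 : k = 0
    · simp only [rep, if_pos h0]
      rcases hk with hk | hk
      · omega
      · exact hB₀ord hk.2
    · simp only [rep, if_neg h0]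
      rcases hk with hk | hk
      · exact orderOf_R h2 hk.1 (by omega)
      · omega
  let Ψ : T → {C : ConjClasses PG // ∃ g : PG, ConjClasses.mk g = C ∧ orderOf g = 2} := fun k =>
    ⟨ConjClasses.mk (QuotientGroup.mk (rep k) : PG), _, rfl, hrep k⟩
  have hΨ : Function.Bijective Ψ := by
    constructor
    · rintro ⟨k, hk⟩ ⟨l, hl⟩ hkl
      have h3 : ConjClasses.mk (QuotientGroup.mk (rep ⟨k, hk⟩) : PG) = ConjClasses.mk (QuotientGroup.mk (rep ⟨l, hl⟩) : PG) :=
        congrArg Subtype.val hkl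
      rw [ConjClasses.mk_eq_mk_iff_isConj] at h3
      apply Subtype.ext
      show k = l
      by_cases h0 : k = 0
      · by_cases h1 : l = 0
        · rw [h0, h1]
        · simp only [rep, if_pos h0, if_neg h1] at h3
          rcases hk with hk | hk
          · omega
          · exact (R_ne_block hn1 hμ (hB₀ hk.2) h3.symm).elim
      · by_cases h1 : l = 0
        · simp only [rep, if_neg h0, if_pos h1] at h3
          rcases hl with hl | hl
          · omega
          · exact (R_ne_block hn1 hμ (hB₀ hl.2) h3).elim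
        · simp only [rep, if_neg h0, if_neg h1] at h3
          rcases hk with hk | hk
          · rcases hl with hl | hl
            · exact R_distinct h2 hn1 hk.2 hl.2 h3
            · omega
          · omega
    · rintro ⟨C, g, rfl, hg⟩
      obtain ⟨A, rfl⟩ := QuotientGroup.mk_surjective g
      obtain ⟨hA1, lam, hlam⟩ := orderOf_iff.mp hg
      rcases classify h2 hn1 hμ hA1 hlam with ⟨k, h3, h4, h5⟩ | ⟨h3, h4⟩
      · refine ⟨⟨k, Or.inl ⟨h3, h4⟩⟩, Subtype.ext ?_⟩
        show ConjClasses.mk (QuotientGroup.mk (rep ⟨k, _⟩) : PG) = ConjClasses.mk (QuotientGroup.mk A : PG)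
        rw [ConjClasses.mk_eq_mk_iff_isConj]
        simp only [rep, if_neg (by omega : ¬ k = 0)]
        exact h5.symm
      · refine ⟨⟨0, Or.inr ⟨rfl, h3⟩⟩, Subtype.ext ?_⟩
        show ConjClasses.mk (QuotientGroup.mk (rep ⟨0, _⟩) : PG) = ConjClasses.mk (QuotientGroup.mk A : PG)
        rw [ConjClasses.mk_eq_mk_iff_isConj]
        simp only [rep, if_pos]
        exact (h4 B₀ (hB₀ h3)).symm
  rw [← Nat.card_eq_of_bijective Ψ hΨ]
  have hcard : Nat.card T = n / 2 + (if Even n then 1 else 0) := by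
    have h3 := Nat.subtype_card (p := fun k : ℕ => (1 ≤ k ∧ k ≤ n / 2) ∨ (k = 0 ∧ Even n))
      (Finset.Icc 1 (n / 2) ∪ (if Even n then {0} else ∅)) (by
        intro k
        by_cases he : Even n
        · simp [he, or_comm]
        · simp [he])
    show Nat.card {k : ℕ // (1 ≤ k ∧ k ≤ n / 2) ∨ (k = 0 ∧ Even n)} = _
    rw [h3]
    by_cases he : Even n
    · simp only [he, if_true]
      rw [Finset.card_union_of_disjoint]
      · simp
      · simp
    · simp [he]
  exact hcard

end pgl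

end Cfsg.Agent.Lib.PGLInvol
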