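import Mathlib

/-!
# Determinant identity and the derivation lemma behind the principal ideal theorem.

`det_eq_prod`: if `N i * d i = 0` and `A = diag N - Z`, where the rows of `Z` are given by
antisymmetric forms evaluated at `d`, then `det A = ∏ N i`.

`pit_core`: for a derivation `D : G → B` into a module over a commutative ring,
with `c : G →* R`, a generating family `γ` of `G` and relations `N i • D (γ i) = D (h i)`
with `h i ∈ G'` and `N i * (c (γ i) - 1) = 0`, one has `(∏ N i) • D (γ j) = 0`.
-/

set_option autoImplicit false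

namespace Cfsg.Agent.Lib.PITCore

open Matrix
open scoped commutatorElement

section det

variable {ι : Type*} [Fintype ι] [DecidableEq ι] {C : Type*} [CommRing C]

theorem adj_symm (A : Matrix ι ι C) (d : ι → C) (hd : A *ᵥ d = 0) (i j k : ι) :
    A.adjugate k i * d j = d k * A.adjugate j i := by
  set A' := A.updateRow i (Pi.single k 1) with hA'
  have h1 : A' *ᵥ d = d k • (Pi.single i 1 : ι → C) := by
    ext r
    by_cases hr : r = i
    · subst hr
      rw [hA', mulVec, dotProduct, Pi.smul_apply]
      simp [Matrix.updateRow_self, Pi.single_apply]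
    · have h2 : (A *ᵥ d) r = 0 := by rw [hd]; rfl
      rw [hA', mulVec, dotProduct, Pi.smul_apply]
      simp only [Matrix.updateRow_ne hr]
      simpa [mulVec, dotProduct, Pi.single_eq_of_ne hr] using h2
  have h2 : A'.adjugate *ᵥ (A' *ᵥ d) = A'.det • d := by
    rw [Matrix.mulVec_mulVec, adjugate_mul, smul_mulVec, one_mulVec]
  rw [h1, mulVec_smul] at h2
  have h3 : A'.det = A.adjugate k i := (adjugate_apply A k i).symm
  have h4 : A'.adjugate j i = A.adjugate j i := by
    rw [adjugate_apply, adjugate_apply, hA', updateRow_idem]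
  have h5 := congrFun h2 j
  simp only [Pi.smul_apply, smul_eq_mul, mulVec_single, MulOpposite.op_one, one_smul, col_apply] at h5
  rw [h3, h4] at h5
  exact h5.symm

theorem det_updateRow_eq_sum (M : Matrix ι ι C) (i : ι) (z : ι → C) :
    (M.updateRow i z).det = ∑ j, M.adjugate j i * z j := by
  rw [← cramer_transpose_apply, cramer_eq_adjugate_mulVec, ← adjugate_transpose]
  rfl

/-- **The determinant identity.** -/
theorem det_eq_prod (N d : ι → C) (hN : ∀ i, N i * d i = 0) (Q : ι → ι → ι → C)
    (A : Matrix ι ι C)
    (hA : ∀ i j, A i j = (if i = j then N i else 0) - ∑ k, (Q i k j - Q i j k) * d k) :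
    A.det = ∏ i, N i := by
  classical
  let row : ι → ι → C := fun i j => if i = j then N i else 0
  let M : Finset ι → Matrix ι ι C := fun S => Matrix.of fun i j => if i ∈ S then row i j else A i j
  have hrow : ∀ i, ∑ j, row i j * d j = 0 := by
    intro i
    simp only [row, ite_mul, zero_mul, Finset.sum_ite_eq, Finset.mem_univ, if_true]
    exact hN i
  have hz : ∀ i, ∑ j, (∑ k, (Q i k j - Q i j k) * d k) * d j = 0 := by
    intro i
    have h1 : ∑ j, (∑ k, (Q i k j - Q i j k) * d k) * d j
        = ∑ j, ∑ k, Q i k j * (d k * d j) - ∑ j, ∑ k, Q i j k * (d k * d j) := by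
      rw [← Finset.sum_sub_distrib]
      apply Finset.sum_congr rfl
      intro j _
      rw [Finset.sum_mul, ← Finset.sum_sub_distrib]
      apply Finset.sum_congr rfl
      intro k _
      ring
    rw [h1, sub_eq_zero, Finset.sum_comm]
    apply Finset.sum_congr rfl
    intro j _
    apply Finset.sum_congr rfl
    intro k _
    rw [mul_comm (d j)]
  have hMd : ∀ S, M S *ᵥ d = 0 := by
    intro S
    ext i
    show ∑ j, (if i ∈ S then row i j else A i j) * d j = 0
    by_cases hi : i ∈ S
    · simp only [hi, if_true]
      exact hrow i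
    · simp only [hi, if_false]
      have h1 : ∀ j, A i j * d j = row i j * d j - (∑ k, (Q i k j - Q i j k) * d k) * d j := by
        intro j
        rw [hA]
        ring
      simp only [h1]
      rw [Finset.sum_sub_distrib, hrow, hz, sub_zero]
  have key : ∀ S : Finset ι, (M S).det = A.det := by
    intro S
    induction S using Finset.induction_on with
    | empty =>
      congr 1
    | insert i S hi ih =>
      rw [← ih]
      have h1 : M (insert i S) = (M S).updateRow i (row i) := by
        ext r j
        by_cases hr : r = i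
        · subst hr
          simp [M, Matrix.updateRow_self]
        · simp [M, hr]
      let z : ι → C := fun j => ∑ k, (Q i k j - Q i j k) * d k
      have h2 : row i = M S i + z := by
        ext j
        show row i j = (if i ∈ S then row i j else A i j) + z j
        simp only [hi, if_false]
        rw [hA]
        simp [z, row]
      rw [h1, h2, det_updateRow_add, updateRow_eq_self, det_updateRow_eq_sum]
      have h3 : ∑ j, (M S).adjugate j i * z j = 0 := by
        have hs : ∀ j k, (M S).adjugate k i * d j = d k * (M S).adjugate j i :=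
          fun j k => adj_symm (M S) d (hMd S) i j k
        let c : ι → C := fun j => (M S).adjugate j i
        have hs' : ∀ j k, d k * c j = d j * c k := by
          intro j k
          have := hs j k
          simp only [c]
          rw [← this]
          ring
        have h4 : ∑ j, c j * z j
            = ∑ j, ∑ k, Q i k j * (d k * c j) - ∑ j, ∑ k, Q i j k * (d k * c j) := by
          rw [← Finset.sum_sub_distrib]
          apply Finset.sum_congr rfl
          intro j _
          simp only [z]
          rw [Finset.mul_sum, ← Finset.sum_sub_distrib]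
          apply Finset.sum_congr rfl
          intro k _
          ring
        show ∑ j, c j * z j = 0
        rw [h4, sub_eq_zero, Finset.sum_comm]
        apply Finset.sum_congr rfl
        intro j _
        apply Finset.sum_congr rfl
        intro k _
        rw [hs' j k]
      rw [h3, add_zero]
  have hfinal : M Finset.univ = Matrix.diagonal N := by
    ext r j
    simp only [M, of_apply, Finset.mem_univ, if_true, row]
    by_cases h : r = j
    · subst h
      simp
    · simp [h]
  rw [← key Finset.univ, hfinal, det_diagonal]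

/-- A module consequence of the adjugate identity. -/
theorem det_smul_eq_zero {B : Type*} [AddCommGroup B] [Module C B] (A : Matrix ι ι C) (b : ι → B)
    (h : ∀ i, ∑ j, A i j • b j = 0) (j : ι) : A.det • b j = 0 := by
  have h1 : ∑ k, (A.adjugate * A) j k • b k = A.det • b j := by
    rw [adjugate_mul]
    simp only [Matrix.smul_apply, one_apply, smul_eq_mul, mul_ite, mul_one, mul_zero, ite_smul, zero_smul,
      Finset.sum_ite_eq, Finset.mem_univ, if_true]
  rw [← h1]
  have h2 : ∑ k, (A.adjugate * A) j k • b k = ∑ i, A.adjugate j i • ∑ k, A i k • b k := by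
    simp only [mul_apply, Finset.sum_smul, Finset.smul_sum, smul_smul]
    rw [Finset.sum_comm]
  rw [h2]
  simp [h]

end det

section derivation

variable {G : Type*} [Group G] {R : Type*} [CommRing R] {B : Type*} [AddCommGroup B] [Module R B]

theorem D_one (c : G →* R) (D : G → B) (hD : ∀ x y, D (x * y) = D x + c x • D y) : D 1 = 0 := by
  have := hD 1 1
  simpa using this

theorem D_inv (c : G →* R) (D : G → B) (hD : ∀ x y, D (x * y) = D x + c x • D y) (x : G) :
    D x⁻¹ = - (c x⁻¹ • D x) := by
  have h1 := hD x⁻¹ x
  rw [inv_mul_cancel, D_one c D hD] at h1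
  exact (eq_neg_of_add_eq_zero_left h1.symm)

theorem D_pow (c : G →* R) (D : G → B) (hD : ∀ x y, D (x * y) = D x + c x • D y) (x : G) (n : ℕ) :
    D (x ^ n) = (∑ k ∈ Finset.range n, c x ^ k) • D x := by
  induction n with
  | zero => simpa using D_one c D hD
  | succ n ih =>
    rw [pow_succ', hD, ih, Finset.sum_range_succ', add_smul, smul_smul, Finset.mul_sum]
    simp only [pow_succ', pow_zero, one_smul]
    rw [add_comm]

theorem c_commutator (c : G →* R) (h : G) (hh : h ∈ commutator G) : c h = 1 := by
  rw [commutator_eq_closure] at hh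
  induction hh using Subgroup.closure_induction with
  | mem x hx =>
    obtain ⟨a, b, rfl⟩ := mem_commutatorSet_iff.1 hx
    have h1 : c a * c a⁻¹ = 1 := by rw [← map_mul, mul_inv_cancel, map_one]
    have h2 : c b * c b⁻¹ = 1 := by rw [← map_mul, mul_inv_cancel, map_one]
    rw [commutatorElement_def, map_mul, map_mul, map_mul]
    calc c a * c b * c a⁻¹ * c b⁻¹ = (c a * c a⁻¹) * (c b * c b⁻¹) := by ring
      _ = 1 := by rw [h1, h2, one_mul]
  | one => exact map_one c
  | mul x y _ _ hx hy => rw [map_mul, hx, hy, one_mul]
  | inv x _ hx =>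
    have h1 : c x⁻¹ * c x = 1 := by rw [← map_mul, inv_mul_cancel, map_one]
    rw [hx, mul_one] at h1
    exact h1

variable {I : Type*} [Fintype I] [DecidableEq I]

theorem exists_vector (c : G →* R) (D : G → B) (hD : ∀ x y, D (x * y) = D x + c x • D y)
    (γ : I → G) (hγ : Subgroup.closure (Set.range γ) = ⊤) (x : G) :
    ∃ w : I → R, ∑ i, w i • D (γ i) = D x ∧ ∑ i, w i * (c (γ i) - 1) = c x - 1 := by
  have hx : x ∈ Subgroup.closure (Set.range γ) := by rw [hγ]; exact Subgroup.mem_top x
  induction hx using Subgroup.closure_induction with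
  | mem x hx =>
    obtain ⟨i, rfl⟩ := hx
    refine ⟨Pi.single i 1, ?_, ?_⟩
    · simp [Pi.single_apply, ite_smul]
    · simp [Pi.single_apply, ite_mul]
  | one =>
    exact ⟨0, by simp [D_one c D hD], by simp⟩
  | mul x y _ _ hx hy =>
    obtain ⟨w₁, h1, h2⟩ := hx
    obtain ⟨w₂, h3, h4⟩ := hy
    refine ⟨w₁ + c x • w₂, ?_, ?_⟩
    · simp only [Pi.add_apply, Pi.smul_apply, add_smul, smul_eq_mul, Finset.sum_add_distrib, hD, h1]
      rw [← h3, Finset.smul_sum]
      simp only [smul_smul]
    · simp only [Pi.add_apply, Pi.smul_apply, add_mul, smul_eq_mul, Finset.sum_add_distrib, h2,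
        mul_assoc]
      rw [← Finset.mul_sum, h4, map_mul]
      ring
  | inv x _ hx =>
    obtain ⟨w, h1, h2⟩ := hx
    refine ⟨- (c x⁻¹ • w), ?_, ?_⟩
    · rw [D_inv c D hD, ← h1, Finset.smul_sum]
      simp only [Pi.neg_apply, Pi.smul_apply, neg_smul, smul_eq_mul, smul_smul, Finset.sum_neg_distrib]
    · have h3 : c x⁻¹ * c x = 1 := by rw [← map_mul, inv_mul_cancel, map_one]
      simp only [Pi.neg_apply, Pi.smul_apply, neg_mul, smul_eq_mul, Finset.sum_neg_distrib, mul_assoc]
      rw [← Finset.mul_sum, h2, mul_sub, h3]
      ring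

theorem exists_form (c : G →* R) (D : G → B) (hD : ∀ x y, D (x * y) = D x + c x • D y)
    (γ : I → G) (hγ : Subgroup.closure (Set.range γ) = ⊤) (h : G) (hh : h ∈ commutator G) :
    ∃ Q : I → I → R, D h = ∑ l, (∑ k, (Q k l - Q l k) * (c (γ k) - 1)) • D (γ l) := by
  have hh' := hh
  rw [commutator_eq_closure] at hh'
  induction hh' using Subgroup.closure_induction with
  | mem z hz =>
    obtain ⟨x, y, rfl⟩ := mem_commutatorSet_iff.1 hz
    obtain ⟨u, hu1, hu2⟩ := exists_vector c D hD γ hγ x
    obtain ⟨v, hv1, hv2⟩ := exists_vector c D hD γ hγ y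
    refine ⟨fun k l => u k * v l, ?_⟩
    have h1 : ∀ l, (∑ k, (u k * v l - u l * v k) * (c (γ k) - 1))
        = (c x - 1) * v l - (c y - 1) * u l := by
      intro l
      rw [← hu2, ← hv2, Finset.sum_mul, Finset.sum_mul, ← Finset.sum_sub_distrib]
      apply Finset.sum_congr rfl
      intro k _
      ring
    have h9 : ∑ l, ((c x - 1) * v l - (c y - 1) * u l) • D (γ l)
        = (c x - 1) • D y - (c y - 1) • D x := by
      rw [← hu1, ← hv1, Finset.smul_sum, Finset.smul_sum, ← Finset.sum_sub_distrib]
      apply Finset.sum_congr rfl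
      intro l _
      rw [sub_smul, mul_smul, mul_smul]
    simp only [h1]
    rw [h9]
    -- compute the commutator
    have hcomm := c_commutator c ⁅x, y⁆ hh
    have h2 : x * y = ⁅x, y⁆ * (y * x) := by
      rw [commutatorElement_def]
      group
    have h3 := hD (⁅x, y⁆) (y * x)
    rw [← h2, hcomm, one_smul, hD, hD] at h3
    rw [eq_sub_of_add_eq h3.symm, sub_smul, sub_smul, one_smul, one_smul]
    abel
  | one =>
    exact ⟨0, by simp [D_one c D hD]⟩
  | mul x y hx' hy' hx hy =>
    have hxc : x ∈ commutator G := by rw [commutator_eq_closure]; exact hx'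
    have hyc : y ∈ commutator G := by rw [commutator_eq_closure]; exact hy'
    obtain ⟨Q₁, h1⟩ := hx hxc
    obtain ⟨Q₂, h2⟩ := hy hyc
    refine ⟨Q₁ + Q₂, ?_⟩
    rw [hD, c_commutator c x hxc, one_smul, h1, h2, ← Finset.sum_add_distrib]
    apply Finset.sum_congr rfl
    intro l _
    rw [← add_smul, ← Finset.sum_add_distrib]
    congr 1
    apply Finset.sum_congr rfl
    intro k _
    simp only [Pi.add_apply]
    ring
  | inv x hx' hx =>
    have hxc : x ∈ commutator G := by rw [commutator_eq_closure]; exact hx'
    obtain ⟨Q₁, h1⟩ := hx hxc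
    refine ⟨- Q₁, ?_⟩
    have h5 : c x⁻¹ = 1 := by
      have : c x⁻¹ * c x = 1 := by rw [← map_mul, inv_mul_cancel, map_one]
      rwa [c_commutator c x hxc, mul_one] at this
    rw [D_inv c D hD, h5, one_smul, h1, ← Finset.sum_neg_distrib]
    apply Finset.sum_congr rfl
    intro l _
    rw [← neg_smul, ← Finset.sum_neg_distrib]
    congr 1
    apply Finset.sum_congr rfl
    intro k _
    simp only [Pi.neg_apply]
    ring

/-- **The core of the principal ideal theorem.** -/
theorem pit_core (c : G →* R) (D : G → B) (hD : ∀ x y, D (x * y) = D x + c x • D y)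
    (γ : I → G) (hγ : Subgroup.closure (Set.range γ) = ⊤) (N : I → R)
    (hN : ∀ i, N i * (c (γ i) - 1) = 0)
    (hrel : ∀ i, ∃ h ∈ commutator G, N i • D (γ i) = D h) (j : I) :
    (∏ i, N i) • D (γ j) = 0 := by
  classical
  choose h hh hh2 using hrel
  choose Q hQ using fun i => exists_form c D hD γ hγ (h i) (hh i)
  let A : Matrix I I R := Matrix.of fun i j =>
    (if i = j then N i else 0) - ∑ k, (Q i k j - Q i j k) * (c (γ k) - 1)
  have hdet : A.det = ∏ i, N i :=
    det_eq_prod N (fun i => c (γ i) - 1) hN Q A (fun _ _ => rfl)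
  rw [← hdet]
  refine det_smul_eq_zero A (fun i => D (γ i)) (fun i => ?_) j
  have h1 : ∑ j, A i j • D (γ j) = N i • D (γ i) - D (h i) := by
    rw [hQ i]
    simp only [A, of_apply, sub_smul, ite_smul, zero_smul, Finset.sum_sub_distrib,
      Finset.sum_ite_eq, Finset.mem_univ, if_true]
  rw [h1, hh2 i, sub_self]

end derivation

end Cfsg.Agent.Lib.PITCore
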