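import Mathlib
import Cfsg.Agent.Lib.CharCentral
import Cfsg.Agent.Lib.CharWeight
import Cfsg.Agent.Lib.PCore
import Cfsg.Agent.Lib.PGrp
import Cfsg.Agent.Lib.Blichfeldt

/-!
# Eigenspaces of central commutators in `p`-groups, weights of abelian normal subgroups

If `z` lies in the commutator subgroup of a `p`-group and acts as a scalar `μ ≠ 1` on a
representation, then the dimension is divisible by `p`.  Also: a nontrivial element of an
abelian normal subgroup in a faithful irreducible representation acts nontrivially on some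
weight space; `p`-elements of the Fitting subgroup lie in `O_p`.
-/

set_option autoImplicit false
set_option linter.style.haveILetI false
set_option linter.unusedSectionVars false

namespace Cfsg.Agent.Lib.PNonlinearRep

open Cfsg Cfsg.Agent.Lib.CharBasic Cfsg.Agent.Lib.CharKernel Cfsg.Agent.Lib.CharCentral
open Cfsg.Agent.Lib.CharWeight
open Module
open scoped ComplexConjugate commutatorElement

universe u v

/-- A linear character is trivial on the commutator subgroup. -/
theorem hom_eq_one_of_mem_commutator {H : Type u} [Group H] (f : H →* ℂˣ) {z : H}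
    (hz : z ∈ commutator H) : f z = 1 := by
  have h : commutator H ≤ f.ker := by
    rw [commutator_eq_closure, Subgroup.closure_le]
    rintro _ ⟨a, b, rfl⟩
    simp only [SetLike.mem_coe, MonoidHom.mem_ker, commutatorElement_def, map_mul, map_inv]
    rw [mul_comm (f a), mul_assoc, mul_assoc, mul_inv_cancel_left, mul_inv_cancel]
  exact h hz

/-- If `z` is in the commutator subgroup of a `p`-group and acts as a scalar `μ ≠ 1`, then `p`
divides the dimension. -/
theorem dvd_finrank_of_scalar {H : Type u} [Group H] [Finite H] {p : ℕ} [Fact p.Prime]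
    (hH : IsPGroup p H) {U : Type v} [AddCommGroup U] [Module ℂ U] [FiniteDimensional ℂ U]
    (σ : Representation ℂ H U) {z : H} (hz : z ∈ commutator H) {μ : ℂ} (hμ : μ ≠ 1)
    (hzU : ∀ u, σ z u = μ • u) : p ∣ finrank ℂ U := by
  classical
  letI := Fintype.ofFinite H
  obtain ⟨m, hm⟩ := exists_nat_decomp_rep U σ
  -- values
  have hmul : ∀ g, σ.character (z * g) = μ * σ.character g := by
    intro g
    have h1 : σ (z * g) = μ • σ g := by
      rw [map_mul]
      apply LinearMap.ext
      intro u
      rw [Module.End.mul_apply, hzU, LinearMap.smul_apply]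
    show LinearMap.trace ℂ U (σ (z * g)) = μ * LinearMap.trace ℂ U (σ g)
    rw [h1, map_smul, smul_eq_mul]
  have hone : σ.character 1 = (finrank ℂ U : ℂ) := by
    show LinearMap.trace ℂ U (σ 1) = _
    rw [map_one]
    exact LinearMap.trace_one ℂ U
  have hc : IsCharacter H σ.character := isCharacter_of_rep σ
  have hm0 : ∀ i : IrrCharacter H, ¬ p ∣ charDegree (i : H → ℂ) → m i = 0 := by
    intro i hi
    have hdeg : charDegree (i : H → ℂ) = 1 := by
      rcases pGroup_degree_one_or_dvd hH i.2 with h | h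
      · exact h
      · exact absurd h hi
    have hone' : (i : H → ℂ) 1 = 1 := by
      rw [one_eq_charDegree (IsIrrCharacter.isCharacter i.2), hdeg]
      simp
    obtain ⟨f, hf⟩ := exists_hom_of_degree_one (IsIrrCharacter.isCharacter i.2) hone'
    have hin := classInner_nat_decomp m (i : H → ℂ) i.2
    rw [← hm] at hin
    have hsum' : ∑ g, σ.character g * conj ((i : H → ℂ) g) =
        μ * ∑ g, σ.character g * conj ((i : H → ℂ) g) := by
      rw [Finset.mul_sum]
      refine (Fintype.sum_equiv (Equiv.mulLeft z)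
        (fun x => μ * (σ.character x * conj ((i : H → ℂ) x)))
        (fun x => σ.character x * conj ((i : H → ℂ) x)) ?_).symm
      intro g
      simp only [Equiv.coe_mulLeft]
      rw [hmul, hf, hf, map_mul, hom_eq_one_of_mem_commutator f hz, one_mul]
      ring
    have hself : classInner σ.character (i : H → ℂ) = μ * classInner σ.character (i : H → ℂ) := by
      unfold classInner
      rw [mul_left_comm, ← hsum']
    have h0 : classInner σ.character (i : H → ℂ) = 0 := by
      have : (1 - μ) * classInner σ.character (i : H → ℂ) = 0 := by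
        rw [sub_mul, one_mul, ← hself, sub_self]
      rcases mul_eq_zero.mp this with h | h
      · exact absurd (sub_eq_zero.mp h).symm hμ
      · exact h
    rw [h0] at hin
    have : ((m ⟨(i : H → ℂ), i.2⟩ : ℕ) : ℂ) = 0 := hin.symm
    have h2 : m ⟨(i : H → ℂ), i.2⟩ = 0 := by exact_mod_cast this
    exact h2
  have hsum : finrank ℂ U = ∑ i, m i * charDegree (i : H → ℂ) := by
    have h1 := congrFun hm 1
    rw [hone, Finset.sum_apply] at h1
    have h2 : ∀ i : IrrCharacter H, (m i • (i : H → ℂ)) 1 = ((m i * charDegree (i : H → ℂ) : ℕ) : ℂ) := by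
      intro i
      rw [Pi.smul_apply, one_eq_charDegree (IsIrrCharacter.isCharacter i.2), nsmul_eq_mul]
      push_cast
      ring
    simp_rw [h2] at h1
    exact_mod_cast h1
  rw [hsum]
  refine Finset.dvd_sum fun i _ => ?_
  by_cases hi : p ∣ charDegree (i : H → ℂ)
  · exact Dvd.dvd.mul_left hi _
  · rw [hm0 i hi, zero_mul]
    exact dvd_zero _

variable {G : Type u} [Group G] {V : Type v} [AddCommGroup V] [Module ℂ V]

/-- The restriction of a representation to a subgroup and an invariant subspace. -/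
noncomputable def subRep (ρ : Representation ℂ G V) (H : Subgroup G) (U : Submodule ℂ V)
    (hU : ∀ h ∈ H, ∀ u ∈ U, ρ h u ∈ U) : Representation ℂ H U :=
  Cfsg.Agent.Lib.Blichfeldt.restrictRep (ρ.comp H.subtype) U (fun a w hw => hU a a.2 w hw)

@[simp] theorem subRep_apply (ρ : Representation ℂ G V) (H : Subgroup G) (U : Submodule ℂ V)
    (hU : ∀ h ∈ H, ∀ u ∈ U, ρ h u ∈ U) (a : H) (w : U) :
    ((subRep ρ H U hU a w : U) : V) = ρ a w := rfl

/-- Dimension of an invariant subspace of a `p`-subgroup on which a commutator acts as a scalar. -/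
theorem dvd_finrank_of_invariant [Finite G] [FiniteDimensional ℂ V] {p : ℕ} [Fact p.Prime]
    (ρ : Representation ℂ G V) (H : Subgroup G) (hH : IsPGroup p H) (U : Submodule ℂ V)
    (hU : ∀ h ∈ H, ∀ u ∈ U, ρ h u ∈ U) {z : H} (hz : z ∈ commutator H) {μ : ℂ} (hμ : μ ≠ 1)
    (hzU : ∀ u ∈ U, ρ z u = μ • u) : p ∣ finrank ℂ U := by
  refine dvd_finrank_of_scalar hH (subRep ρ H U hU) hz hμ ?_
  intro u
  apply Subtype.ext
  exact hzU u u.2

/-- An element with `T ^ p = 1`, `T ≠ 1` has an eigenvalue different from `1`. -/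
theorem exists_eigenvalue_ne_one [FiniteDimensional ℂ V] {T : Module.End ℂ V} {p : ℕ} (hp : p ≠ 0)
    (hT : T ^ p = 1) (hT1 : T ≠ 1) : ∃ μ : ℂ, μ ≠ 1 ∧ ∃ v : V, v ≠ 0 ∧ T v = μ • v := by
  let M : Module.End ℂ V := T - 1
  let U : Submodule ℂ V := LinearMap.range M
  have hU : U ≠ ⊥ := by
    intro h
    apply hT1
    have : M = 0 := LinearMap.range_eq_bot.mp h
    exact sub_eq_zero.mp this
  haveI : Nontrivial U := Submodule.nontrivial_iff_ne_bot.mpr hU
  have hinv : ∀ u ∈ U, T u ∈ U := by
    rintro _ ⟨w, rfl⟩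
    refine ⟨T w, ?_⟩
    simp [M, map_sub]
  let T' : Module.End ℂ U := T.restrict hinv
  obtain ⟨μ, hμ⟩ := Module.End.exists_eigenvalue T'
  obtain ⟨u, hu⟩ := hμ.exists_hasEigenvector
  have hu0 : (u : V) ≠ 0 := fun h => hu.2 (Subtype.ext h)
  have hTu : T (u : V) = μ • (u : V) := by
    have h1 := congrArg (Subtype.val) (Module.End.HasEigenvector.apply_eq_smul hu)
    simpa [T'] using h1
  refine ⟨μ, ?_, u, hu0, hTu⟩
  rintro rfl
  rw [one_smul] at hTu
  obtain ⟨w, hw⟩ := u.2
  have hw' : T w = w + u := by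
    have : T w - w = u := by simpa [M] using hw
    rw [← this]
    abel
  have hk : ∀ k : ℕ, (T ^ k) w = w + (k : ℂ) • (u : V) := by
    intro k
    induction k with
    | zero => simp
    | succ k ih =>
      rw [pow_succ', Module.End.mul_apply, ih, map_add, hw', map_smul, hTu]
      push_cast
      rw [add_smul, one_smul]
      abel
  have h2 := hk p
  rw [hT, Module.End.one_apply] at h2
  have h3 : (p : ℂ) • (u : V) = 0 := by
    have := add_eq_left.mp h2.symm
    exact this
  rcases smul_eq_zero.mp h3 with h | h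
  · exact hp (by exact_mod_cast h)
  · exact hu0 h

/-- A central element of prime order in the commutator subgroup of a nonabelian `p`-group. -/
theorem exists_central_commutator {H : Type u} [Group H] [Finite H] {p : ℕ} [hp : Fact p.Prime]
    (hH : IsPGroup p H) (hne : ∃ x y : H, x * y ≠ y * x) :
    ∃ z : H, z ∈ commutator H ∧ z ∈ Subgroup.center H ∧ z ≠ 1 ∧ z ^ p = 1 := by
  have hD : commutator H ≠ ⊥ := by
    intro h
    obtain ⟨x, y, hxy⟩ := hne
    apply hxy
    have h1 : ⁅x, y⁆ ∈ commutator H := Subgroup.commutator_mem_commutator (Subgroup.mem_top _) (Subgroup.mem_top _)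
    rw [h, Subgroup.mem_bot, commutatorElement_eq_one_iff_mul_comm] at h1
    exact h1
  obtain ⟨y, hy, hy1, hyc⟩ := Cfsg.Agent.Lib.PGrp.exists_central_mem_normal hH (commutator H) hD
  obtain ⟨k, hk⟩ := (IsPGroup.iff_orderOf.mp hH) y
  have hk0 : k ≠ 0 := by
    rintro rfl
    rw [pow_zero, orderOf_eq_one_iff] at hk
    exact hy1 hk
  obtain ⟨j, rfl⟩ := Nat.exists_eq_succ_of_ne_zero hk0
  refine ⟨y ^ p ^ j, pow_mem hy _, pow_mem hyc _, ?_, ?_⟩
  · apply pow_ne_one_of_lt_orderOf (pow_ne_zero _ hp.out.ne_zero)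
    rw [hk, pow_succ]
    exact lt_mul_of_one_lt_right (pow_pos hp.out.pos _) hp.out.one_lt
  · rw [← pow_mul, ← pow_succ, ← hk, pow_orderOf_eq_one]

/-- `p`-elements of the Fitting subgroup lie in `O_p`. -/
theorem mem_pCore_of_mem_fitting [Finite G] {p : ℕ} [hp : Fact p.Prime] {x : G}
    (hx : x ∈ fittingSubgroup G) (hxp : ∃ k : ℕ, x ^ p ^ k = 1) : x ∈ pCore p G := by
  have h1 := Cfsg.Agent.Lib.PCore.fittingSubgroup_le_sup p hx
  haveI : (pCore p G).Characteristic := Cfsg.Agent.Lib.PCore.pCore_characteristic p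
  haveI : (pCore p G).Normal := Subgroup.normal_of_characteristic _
  haveI : (pPrimeCore p G).Normal := Subgroup.sSup_normal _ (fun _ h => h.1)
  obtain ⟨a, ha, b, hb, rfl⟩ := Cfsg.Agent.Lib.PGrp.exists_mul_of_mem_sup h1
  have hdisj : Disjoint (pCore p G) (pPrimeCore p G) := by
    rw [Subgroup.disjoint_def]
    intro g hg1 hg2
    have h2 : IsPGroup p (pCore p G) := Cfsg.Agent.Lib.PCore.isPGroup_pCore p
    obtain ⟨k, hk⟩ := h2 ⟨g, hg1⟩
    have h3 : g ^ p ^ k = 1 := by
      have := congrArg Subtype.val hk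
      simpa using this
    have h4 : (Nat.card (pPrimeCore p G)).Coprime p := Cfsg.Agent.Lib.PCore.card_pPrimeCore_coprime p
    have h5 : orderOf (⟨g, hg2⟩ : pPrimeCore p G) ∣ Nat.card (pPrimeCore p G) := orderOf_dvd_natCard _
    have h6 : orderOf (⟨g, hg2⟩ : pPrimeCore p G) = orderOf g := Subgroup.orderOf_mk g hg2
    rw [h6] at h5
    have h7 : orderOf g ∣ p ^ k := orderOf_dvd_of_pow_eq_one h3
    have h8 : (orderOf g).Coprime (p ^ k) := Nat.Coprime.pow_right _ (Nat.Coprime.coprime_dvd_left h5 h4)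
    have h9 : orderOf g = 1 := Nat.Coprime.eq_one_of_dvd h8 h7
    exact orderOf_eq_one_iff.mp h9
  have hcomm : Commute a b := Subgroup.commute_of_normal_of_disjoint _ _ inferInstance inferInstance hdisj a b ha hb
  have h2 : IsPGroup p (pCore p G) := Cfsg.Agent.Lib.PCore.isPGroup_pCore p
  obtain ⟨k, hk⟩ := h2 ⟨a, ha⟩
  have hak : a ^ p ^ k = 1 := by
    have := congrArg Subtype.val hk
    simpa using this
  obtain ⟨l, hl⟩ := hxp
  have hb1 : b ^ p ^ (k + l) = 1 := by
    have h3 : (a * b) ^ p ^ (k + l) = 1 := by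
      rw [pow_add, mul_comm, pow_mul, hl, one_pow]
    rw [hcomm.mul_pow] at h3
    have h4 : a ^ p ^ (k + l) = 1 := by
      rw [pow_add, pow_mul, hak, one_pow]
    rwa [h4, one_mul] at h3
  have h4 : (Nat.card (pPrimeCore p G)).Coprime p := Cfsg.Agent.Lib.PCore.card_pPrimeCore_coprime p
  have h5 : orderOf (⟨b, hb⟩ : pPrimeCore p G) ∣ Nat.card (pPrimeCore p G) := orderOf_dvd_natCard _
  have h6 : orderOf (⟨b, hb⟩ : pPrimeCore p G) = orderOf b := Subgroup.orderOf_mk b hb
  rw [h6] at h5
  have h7 : orderOf b ∣ p ^ (k + l) := orderOf_dvd_of_pow_eq_one hb1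
  have h8 : (orderOf b).Coprime (p ^ (k + l)) := Nat.Coprime.pow_right _ (Nat.Coprime.coprime_dvd_left h5 h4)
  have h9 : orderOf b = 1 := Nat.Coprime.eq_one_of_dvd h8 h7
  rw [orderOf_eq_one_iff.mp h9, mul_one]
  exact ha

/-- In a faithful irreducible representation, a nontrivial element of an abelian normal subgroup
acts nontrivially on some weight space. -/
theorem exists_weight_ne_one [Finite G] [FiniteDimensional ℂ V] (ρ : Representation ℂ G V)
    (hρ : ρ.IsIrreducible) (hinj : Function.Injective ρ) {A : Subgroup G} (hA : A.Normal)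
    (hcomm : ∀ a ∈ A, ∀ b ∈ A, a * b = b * a) (a : A) (ha : a ≠ 1) :
    ∃ ν : A →* ℂ, weightSpace ρ A ν ≠ ⊥ ∧ ν a ≠ 1 := by
  classical
  haveI : Nontrivial V := ((isIrreducible_iff ρ).mp hρ).1
  haveI : Fintype A := Fintype.ofFinite _
  haveI : Fintype (G ⧸ A) := Fintype.ofFinite _
  by_contra hcon
  push Not at hcon
  apply ha
  obtain ⟨ν₀, hν₀⟩ := exists_weight ρ hcomm
  haveI : Fintype (G ⧸ inertia hA ν₀) := Fintype.ofFinite _
  have hinv : ∀ t ∈ inertia hA ν₀, ∀ x ∈ weightSpace ρ A ν₀, ρ t x ∈ weightSpace ρ A ν₀ := by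
    intro t ht x hx
    have h := map_mem_weightSpace ρ hA t hx
    rwa [show twist hA t ν₀ = ν₀ from ht] at h
  have hspan := spreadSpace_eq_top ρ hρ (inertia hA ν₀) _ hinv hν₀
  have hfix : ρ (a : G) = 1 := by
    apply LinearMap.ext
    intro v
    have hv : v ∈ spreadSpace ρ (inertia hA ν₀) (weightSpace ρ A ν₀) := by
      rw [hspan]
      trivial
    obtain ⟨f, hf, rfl⟩ := hv
    rw [map_sum, Module.End.one_apply]
    refine Finset.sum_congr rfl fun q _ => ?_
    by_cases hq : f q = 0
    · simp [hq]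
    · have hm := map_mem_weightSpace ρ hA (Quotient.out q) (hf q)
      have hne : weightSpace ρ A (twist hA (Quotient.out q) ν₀) ≠ ⊥ := by
        intro h
        rw [h, Submodule.mem_bot] at hm
        apply hq
        have h3 : ρ (Quotient.out q)⁻¹ (ρ (Quotient.out q) (f q)) = f q := by
          rw [← Module.End.mul_apply, ← map_mul]
          simp
        rw [hm, map_zero] at h3
        exact h3.symm
      rw [hm a, hcon _ hne, one_smul]
  apply Subtype.ext
  apply hinj
  rw [hfix, Subgroup.coe_one, map_one]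

end Cfsg.Agent.Lib.PNonlinearRep
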