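import Mathlib

/-!
# The structure of a nonabelian group of order `P Q`.
-/

set_option autoImplicit false

namespace Cfsg.Agent.Lib.PQA

/-- The data of a nonabelian group of order `P Q` with normal Sylow `P`-subgroup. -/
structure PQStr (A : Type*) [Group A] (P Q : ℕ) (a : A) : Prop where
  hP : P.Prime
  hQ : Q.Prime
  hne : P ≠ Q
  hcard : Nat.card A = P * Q
  ha : orderOf a = P
  hnorm : ∀ g, g * a * g⁻¹ ∈ Subgroup.zpowers a
  hdvd : Q ∣ P - 1
  hna : ∀ c, orderOf c = Q → c * a ≠ a * c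

section generic

variable {A : Type*} [Group A]

theorem mem_of_pow_coprime (H : Subgroup A) {g : A} {m n : ℕ} (hm : g ^ m ∈ H) (hn : g ^ n ∈ H)
    (hcop : Nat.Coprime m n) : g ∈ H := by
  have h1 : ((m : ℤ) * Nat.gcdA m n + (n : ℤ) * Nat.gcdB m n) = 1 := by
    have := Nat.gcd_eq_gcd_ab m n
    rw [hcop] at this
    exact_mod_cast this.symm
  have h2 : g = (g ^ m) ^ (Nat.gcdA m n) * (g ^ n) ^ (Nat.gcdB m n) := by
    rw [← zpow_natCast, ← zpow_natCast, ← zpow_mul, ← zpow_mul, ← zpow_add, h1, zpow_one]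
  rw [h2]
  exact H.mul_mem (H.zpow_mem hm _) (H.zpow_mem hn _)

end generic

section

variable {A : Type*} [Group A] [Finite A] {P Q : ℕ} {a : A} (hA : PQStr A P Q a)

include hA

theorem normal_zpowers : (Subgroup.zpowers a).Normal := by
  refine ⟨fun n hn g => ?_⟩
  obtain ⟨i, rfl⟩ := Subgroup.mem_zpowers_iff.1 hn
  have h1 : g * a ^ i * g⁻¹ = (g * a * g⁻¹) ^ i := by rw [conj_zpow]
  rw [h1]
  exact Subgroup.zpow_mem _ (hA.hnorm g) i

theorem card_zpowers_a : Nat.card (Subgroup.zpowers a) = P := by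
  rw [Nat.card_zpowers, hA.ha]

theorem index_zpowers : (Subgroup.zpowers a).index = Q := by
  have h1 := Subgroup.card_mul_index (Subgroup.zpowers a)
  rw [card_zpowers_a hA, hA.hcard] at h1
  exact Nat.eq_of_mul_eq_mul_left hA.hP.pos h1

theorem mem_zpowers_of_order {g : A} (hg : orderOf g = P) : g ∈ Subgroup.zpowers a := by
  haveI := normal_zpowers hA
  have h1 : (g : A ⧸ Subgroup.zpowers a) ^ Nat.card (A ⧸ Subgroup.zpowers a) = 1 :=
    pow_card_eq_one'
  have h2 : Nat.card (A ⧸ Subgroup.zpowers a) = Q := index_zpowers hA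
  rw [h2] at h1
  have h3 : g ^ Q ∈ Subgroup.zpowers a := (QuotientGroup.eq_one_iff _).1 h1
  have h4 : g ^ P ∈ Subgroup.zpowers a := by
    rw [← hg, pow_orderOf_eq_one]
    exact Subgroup.one_mem _
  exact mem_of_pow_coprime _ h3 h4 ((Nat.coprime_primes hA.hQ hA.hP).2 (Ne.symm hA.hne))

/-- The generator of a subgroup of prime order lies in the subgroup generated by any other
nontrivial element. -/
theorem mem_zpowers_of_ne {ℓ : ℕ} (hℓ : ℓ.Prime) {g g' : A} (hg : orderOf g = ℓ)
    (hg' : g' ∈ Subgroup.zpowers g) (hg1 : g' ≠ 1) : g ∈ Subgroup.zpowers g' := by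
  haveI : Fact ℓ.Prime := ⟨hℓ⟩
  have h1 : Subgroup.zpowers g' ≤ Subgroup.zpowers g :=
    (Subgroup.zpowers_le).2 hg'
  have hc : Nat.card (Subgroup.zpowers g) = ℓ := by rw [Nat.card_zpowers, hg]
  have h2 : Nat.card (Subgroup.zpowers g') ∣ ℓ := by
    rw [← hc]
    exact Subgroup.card_dvd_of_le h1
  have h3 : Nat.card (Subgroup.zpowers g') ≠ 1 := by
    intro h
    have := Subgroup.eq_bot_of_card_eq _ h
    rw [Subgroup.zpowers_eq_bot] at this
    exact hg1 this
  have h4 : Nat.card (Subgroup.zpowers g') = ℓ := (Nat.dvd_prime hℓ).1 h2 |>.resolve_left h3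
  have h5 : Subgroup.zpowers g' = Subgroup.zpowers g :=
    Subgroup.eq_of_le_of_card_ge h1 (by rw [h4, hc])
  rw [h5]
  exact Subgroup.mem_zpowers g

theorem a_mem_of_order {g : A} (hg : orderOf g = P) : a ∈ Subgroup.zpowers g := by
  refine mem_zpowers_of_ne hA hA.hP hA.ha (mem_zpowers_of_order hA hg) ?_
  rintro rfl
  rw [orderOf_one] at hg
  exact hA.hP.one_lt.ne hg

/-- A subgroup containing `a` and an element of order `Q` is everything. -/
theorem gen_two (S : Subgroup A) (haS : a ∈ S) {c : A} (hc : orderOf c = Q) (hcS : c ∈ S) : S = ⊤ := by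
  have h1 : P ∣ Nat.card S := by
    rw [← hA.ha]
    have := Subgroup.card_dvd_of_le ((Subgroup.zpowers_le).2 haS)
    rwa [Nat.card_zpowers] at this
  have h2 : Q ∣ Nat.card S := by
    rw [← hc]
    have := Subgroup.card_dvd_of_le ((Subgroup.zpowers_le).2 hcS)
    rwa [Nat.card_zpowers] at this
  have h3 : P * Q ∣ Nat.card S := Nat.Coprime.mul_dvd_of_dvd_of_dvd
    ((Nat.coprime_primes hA.hP hA.hQ).2 hA.hne) h1 h2
  have h4 : Nat.card S ∣ P * Q := by
    rw [← hA.hcard]
    exact Subgroup.card_subgroup_dvd_card S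
  have h5 : Nat.card S = Nat.card A := by
    rw [hA.hcard]
    exact Nat.dvd_antisymm h4 h3
  exact (Subgroup.card_eq_iff_eq_top S).1 h5

/-- An element of order `P Q` cannot exist. -/
theorem orderOf_cases {g : A} (hg : g ≠ 1) : orderOf g = P ∨ orderOf g = Q := by
  have h1 : orderOf g ∣ P * Q := by
    rw [← hA.hcard]
    exact orderOf_dvd_natCard g
  have h2 : orderOf g ≠ 1 := fun h => hg (orderOf_eq_one_iff.1 h)
  have hQpos := hA.hQ.pos
  have hPpos := hA.hP.pos
  have hcases : orderOf g = 1 ∨ orderOf g = P ∨ orderOf g = Q ∨ orderOf g = P * Q := by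
    rcases (Nat.dvd_mul.1 h1) with ⟨x, y, hx, hy, hxy⟩
    rcases (Nat.dvd_prime hA.hP).1 hx with hx1 | hx1 <;>
      rcases (Nat.dvd_prime hA.hQ).1 hy with hy1 | hy1 <;> subst hx1 <;> subst hy1 <;> simp_all
  rcases hcases with h | h | h | h
  · exact absurd h h2
  · exact Or.inl h
  · exact Or.inr h
  · exfalso
    have hordQ : orderOf (g ^ P) = Q := by
      rw [orderOf_pow_of_dvd hA.hP.ne_zero (by rw [h]; exact Dvd.intro _ rfl), h]
      exact Nat.mul_div_cancel_left _ hPpos
    have hordP : orderOf (g ^ Q) = P := by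
      rw [orderOf_pow_of_dvd hA.hQ.ne_zero (by rw [h]; exact Dvd.intro_left _ rfl), h]
      exact Nat.mul_div_cancel _ hQpos
    have hmem := a_mem_of_order hA hordP
    obtain ⟨i, hi⟩ := Subgroup.mem_zpowers_iff.1 hmem
    apply hA.hna _ hordQ
    rw [← hi, ← zpow_natCast, ← zpow_natCast, ← zpow_mul, ← zpow_add, ← zpow_add, add_comm]

/-- In a proper subgroup every nontrivial element generates. -/
theorem proper_cyclic {S : Subgroup A} (hS : S ≠ ⊤) {g g' : A} (hg : g ∈ S) (hg1 : g ≠ 1)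
    (hg' : g' ∈ S) : g' ∈ Subgroup.zpowers g := by
  have hcardS : Nat.card S ∣ P * Q := by
    rw [← hA.hcard]
    exact Subgroup.card_subgroup_dvd_card S
  have hne : Nat.card S ≠ P * Q := by
    intro h
    apply hS
    exact (Subgroup.card_eq_iff_eq_top S).1 (by rw [h, hA.hcard])
  have hle : Subgroup.zpowers g ≤ S := (Subgroup.zpowers_le).2 hg
  have hd : orderOf g ∣ Nat.card S := by
    have := Subgroup.card_dvd_of_le hle
    rwa [Nat.card_zpowers] at this
  have heq : Nat.card S = orderOf g := by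
    rcases orderOf_cases hA hg1 with h | h
    · rw [h] at hd ⊢
      obtain ⟨m, hm⟩ := hd
      rw [hm] at hcardS hne
      have h3 : m ∣ Q := Nat.dvd_of_mul_dvd_mul_left hA.hP.pos hcardS
      rcases (Nat.dvd_prime hA.hQ).1 h3 with rfl | rfl
      · rw [hm, mul_one]
      · exact absurd rfl hne
    · rw [h] at hd ⊢
      obtain ⟨m, hm⟩ := hd
      rw [hm, mul_comm] at hcardS hne
      have h3 : m ∣ P := Nat.dvd_of_mul_dvd_mul_right hA.hQ.pos hcardS
      rcases (Nat.dvd_prime hA.hP).1 h3 with rfl | rfl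
      · rw [hm, mul_one]
      · exact absurd rfl hne
  have h5 : Subgroup.zpowers g = S :=
    Subgroup.eq_of_le_of_card_ge hle (by rw [heq, Nat.card_zpowers])
  rw [h5]
  exact hg'

/-- An element of order `Q` and a nontrivial conjugate generate. -/
theorem gen_conj (S : Subgroup A) {c h : A} (hc : orderOf c = Q) (hh : h ∈ Subgroup.zpowers a)
    (hh1 : h ≠ 1) (hcS : c ∈ S) (hhS : h * c * h⁻¹ ∈ S) : S = ⊤ := by
  by_contra hS
  haveI := normal_zpowers hA
  have hc1 : c ≠ 1 := by
    rintro rfl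
    rw [orderOf_one] at hc
    exact hA.hQ.one_lt.ne hc
  have h1 := proper_cyclic hA hS hcS hc1 hhS
  have hx1 : c⁻¹ * (h * c * h⁻¹) ∈ Subgroup.zpowers c :=
    Subgroup.mul_mem _ (Subgroup.inv_mem _ (Subgroup.mem_zpowers c)) h1
  have hx2 : c⁻¹ * (h * c * h⁻¹) ∈ Subgroup.zpowers a := by
    have h2 : c⁻¹ * (h * c * h⁻¹) = (c⁻¹ * h * c⁻¹⁻¹) * h⁻¹ := by group
    rw [h2]
    exact Subgroup.mul_mem _ (Subgroup.Normal.conj_mem inferInstance h hh c⁻¹) (Subgroup.inv_mem _ hh)
  set x := c⁻¹ * (h * c * h⁻¹) with hx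
  have hxQ : x ^ Q = 1 := by
    obtain ⟨i, hi⟩ := Subgroup.mem_zpowers_iff.1 hx1
    rw [← hi, ← zpow_natCast, ← zpow_mul, mul_comm, zpow_mul, zpow_natCast, ← hc, pow_orderOf_eq_one,
      one_zpow]
  have hxP : x ^ P = 1 := by
    obtain ⟨i, hi⟩ := Subgroup.mem_zpowers_iff.1 hx2
    rw [← hi, ← zpow_natCast, ← zpow_mul, mul_comm, zpow_mul, zpow_natCast, ← hA.ha,
      pow_orderOf_eq_one, one_zpow]
  have hx1' : x = 1 := by
    have h3 : x ^ Nat.gcd Q P = 1 := pow_gcd_eq_one.2 ⟨hxQ, hxP⟩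
    rw [Nat.Coprime.gcd_eq_one ((Nat.coprime_primes hA.hQ hA.hP).2 (Ne.symm hA.hne)), pow_one] at h3
    exact h3
  have h4 : h * c * h⁻¹ = c := by
    have h5 : c * x = h * c * h⁻¹ := by rw [hx]; group
    rw [← h5, hx1', mul_one]
  have h6 : c * h = h * c := by
    calc c * h = (h * c * h⁻¹) * h := by rw [h4]
      _ = h * c := by group
  have ha1 : a ∈ Subgroup.zpowers h := mem_zpowers_of_ne hA hA.hP hA.ha hh hh1
  obtain ⟨i, hi⟩ := Subgroup.mem_zpowers_iff.1 ha1
  apply hA.hna c hc
  rw [← hi]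
  exact (show Commute c h from h6).zpow_right i

/-- The subgroup attached to a multiplicatively closed predicate. -/
def predSub (R : A → Prop) (h1 : R 1) (hm : ∀ g h, R g → R h → R (g * h)) : Subgroup A where
  carrier := {g | R g}
  mul_mem' := fun {x y} hx hy => hm x y hx hy
  one_mem' := h1
  inv_mem' := fun {x} hx => by
    have hpow : ∀ n : ℕ, R (x ^ n) := by
      intro n
      induction n with
      | zero => simpa using h1
      | succ n ih => rw [pow_succ]; exact hm _ _ ih hx
    have hinv : x⁻¹ = x ^ (orderOf x - 1) := by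
      have h0 : 0 < orderOf x := orderOf_pos x
      rw [eq_comm, ← mul_left_inj x, inv_mul_cancel, ← pow_succ, Nat.sub_add_cancel h0,
        pow_orderOf_eq_one]
    show R x⁻¹
    rw [hinv]
    exact hpow _

theorem forall_of_a_c (R : A → Prop) (h1 : R 1) (hm : ∀ g h, R g → R h → R (g * h)) (ha : R a)
    {c : A} (hc : orderOf c = Q) (hRc : R c) (g : A) : R g := by
  have := gen_two hA (predSub R h1 hm) ha hc hRc
  have h2 : g ∈ predSub R h1 hm := by rw [this]; trivial
  exact h2

theorem forall_of_conj (R : A → Prop) (h1 : R 1) (hm : ∀ g h, R g → R h → R (g * h))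
    {c h : A} (hc : orderOf c = Q) (hh : h ∈ Subgroup.zpowers a)
    (hh1 : h ≠ 1) (hRc : R c) (hRh : R (h * c * h⁻¹)) (g : A) : R g := by
  have := gen_conj hA (predSub R h1 hm) hc hh hh1 hRc hRh
  have h2 : g ∈ predSub R h1 hm := by rw [this]; trivial
  exact h2

theorem exists_order_Q : ∃ c : A, orderOf c = Q := by
  haveI : Fact Q.Prime := ⟨hA.hQ⟩
  exact exists_prime_orderOf_dvd_card' Q (by rw [hA.hcard]; exact Dvd.intro_left _ rfl)

end

section existence

variable {A : Type*} [Group A] [Finite A]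

theorem gen_two₀ {P Q : ℕ} (hP : P.Prime) (hQ : Q.Prime) (hne : P ≠ Q) (hcard : Nat.card A = P * Q)
    {a c : A} (ha : orderOf a = P) (hc : orderOf c = Q) (S : Subgroup A) (haS : a ∈ S)
    (hcS : c ∈ S) : S = ⊤ := by
  have h1 : P ∣ Nat.card S := by
    rw [← ha]
    have := Subgroup.card_dvd_of_le ((Subgroup.zpowers_le).2 haS)
    rwa [Nat.card_zpowers] at this
  have h2 : Q ∣ Nat.card S := by
    rw [← hc]
    have := Subgroup.card_dvd_of_le ((Subgroup.zpowers_le).2 hcS)
    rwa [Nat.card_zpowers] at this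
  have h3 : P * Q ∣ Nat.card S := Nat.Coprime.mul_dvd_of_dvd_of_dvd
    ((Nat.coprime_primes hP hQ).2 hne) h1 h2
  have h4 : Nat.card S ∣ P * Q := by
    rw [← hcard]
    exact Subgroup.card_subgroup_dvd_card S
  have h5 : Nat.card S = Nat.card A := by
    rw [hcard]
    exact Nat.dvd_antisymm h4 h3
  exact (Subgroup.card_eq_iff_eq_top S).1 h5

theorem exists_str_aux {P Q : ℕ} (hP : P.Prime) (hQ : Q.Prime) (hlt : Q < P)
    (hcard : Nat.card A = P * Q) (hna : ¬ IsMulCommutative A) : ∃ a : A, PQStr A P Q a := by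
  classical
  haveI : Fact P.Prime := ⟨hP⟩
  haveI : Fact Q.Prime := ⟨hQ⟩
  have hne : P ≠ Q := (Nat.ne_of_lt hlt).symm
  obtain ⟨a, ha⟩ := exists_prime_orderOf_dvd_card' P (by rw [hcard]; exact Dvd.intro _ rfl : P ∣ Nat.card A)
  have hindex : (Subgroup.zpowers a).index = Q := by
    have h1 := Subgroup.card_mul_index (Subgroup.zpowers a)
    rw [Nat.card_zpowers, ha, hcard] at h1
    exact Nat.eq_of_mul_eq_mul_left hP.pos h1
  have hminFac : (Nat.card A).minFac = Q := by
    rw [hcard]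
    have h1 : (P * Q).minFac ∣ P * Q := Nat.minFac_dvd _
    have hpr : (P * Q).minFac.Prime := Nat.minFac_prime (fun h => by nlinarith [hP.two_le, hQ.two_le])
    have h2 : (P * Q).minFac ≤ Q := Nat.minFac_le_of_dvd hQ.two_le (Dvd.intro_left _ rfl)
    rcases (Nat.Prime.dvd_mul hpr).1 h1 with h | h
    · have := (Nat.prime_dvd_prime_iff_eq hpr hP).1 h
      omega
    · exact (Nat.prime_dvd_prime_iff_eq hpr hQ).1 h
  have hnormal : (Subgroup.zpowers a).Normal :=
    Subgroup.normal_of_index_eq_minFac_card (by rw [hindex, hminFac])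
  have hnormg : ∀ g, g * a * g⁻¹ ∈ Subgroup.zpowers a := fun g =>
    hnormal.conj_mem a (Subgroup.mem_zpowers a) g
  have hnac : ∀ c, orderOf c = Q → c * a ≠ a * c := by
    intro c hc hcomm
    apply hna
    have hC : Subgroup.centralizer ({a, c} : Set A) = ⊤ := by
      refine gen_two₀ hP hQ hne hcard ha hc _ ?_ ?_
      · rw [Subgroup.mem_centralizer_iff]
        rintro g (rfl | rfl)
        · rfl
        · exact hcomm
      · rw [Subgroup.mem_centralizer_iff]
        rintro g (rfl | rfl)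
        · exact hcomm.symm
        · rfl
    have hZ : Subgroup.center A = ⊤ := by
      refine gen_two₀ hP hQ hne hcard ha hc _ ?_ ?_
      · rw [Subgroup.mem_center_iff]
        intro g
        have : g ∈ Subgroup.centralizer ({a, c} : Set A) := by rw [hC]; trivial
        exact ((Subgroup.mem_centralizer_iff.1 this) a (Or.inl rfl)).symm
      · rw [Subgroup.mem_center_iff]
        intro g
        have : g ∈ Subgroup.centralizer ({a, c} : Set A) := by rw [hC]; trivial
        exact ((Subgroup.mem_centralizer_iff.1 this) c (Or.inr rfl)).symm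
    refine ⟨⟨fun x y => ?_⟩⟩
    have : y ∈ Subgroup.center A := by rw [hZ]; trivial
    exact (Subgroup.mem_center_iff.1 this x)
  refine ⟨a, hP, hQ, hne, hcard, ha, hnormg, ?_, hnac⟩
  obtain ⟨c, hc⟩ := exists_prime_orderOf_dvd_card' Q (by rw [hcard]; exact Dvd.intro_left _ rfl : Q ∣ Nat.card A)
  -- conjugation by `c` on the subgroup generated by `a`
  let f : Function.End (Subgroup.zpowers a) := fun x =>
    ⟨c * x.1 * c⁻¹, hnormal.conj_mem x.1 x.2 c⟩
  have hfpow : ∀ (k : ℕ) (x : Subgroup.zpowers a), ((f ^ k) x).1 = c ^ k * x.1 * (c ^ k)⁻¹ := by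
    intro k
    induction k with
    | zero =>
      intro x
      rw [pow_zero, pow_zero]
      show x.1 = 1 * x.1 * 1⁻¹
      simp
    | succ k ih =>
      intro x
      rw [pow_succ, Function.End.mul_def]
      show ((f ^ k) (f x)).1 = _
      rw [ih]
      show c ^ k * (c * x.1 * c⁻¹) * (c ^ k)⁻¹ = _
      rw [pow_succ]
      group
  have hf1 : f ^ Q ^ 1 = 1 := by
    funext x
    apply Subtype.ext
    rw [pow_one, hfpow, ← hc, pow_orderOf_eq_one]
    show 1 * x.1 * 1⁻¹ = x.1
    simp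
  letI : Fintype (Subgroup.zpowers a) := Fintype.ofFinite _
  have hmod := Equiv.Perm.card_fixedPoints_modEq hf1
  have hfix : Fintype.card (Function.fixedPoints f) = 1 := by
    rw [Fintype.card_eq_one_iff]
    refine ⟨⟨1, ?_⟩, ?_⟩
    · apply Subtype.ext
      show c * 1 * c⁻¹ = 1
      group
    · rintro ⟨x, hx⟩
      apply Subtype.ext
      apply Subtype.ext
      by_contra hx1
      have hx2 : c * x.1 * c⁻¹ = x.1 := congrArg Subtype.val hx
      have hmem : a ∈ Subgroup.zpowers x.1 := by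
        have hord : orderOf a = P := ha
        haveI : Fact P.Prime := ⟨hP⟩
        have h1 : Subgroup.zpowers x.1 ≤ Subgroup.zpowers a := (Subgroup.zpowers_le).2 x.2
        have hc' : Nat.card (Subgroup.zpowers a) = P := by rw [Nat.card_zpowers, hord]
        have h2 : Nat.card (Subgroup.zpowers x.1) ∣ P := by
          rw [← hc']
          exact Subgroup.card_dvd_of_le h1
        have h3 : Nat.card (Subgroup.zpowers x.1) ≠ 1 := by
          intro h
          have := Subgroup.eq_bot_of_card_eq _ h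
          rw [Subgroup.zpowers_eq_bot] at this
          exact hx1 this
        have h4 := (Nat.dvd_prime hP).1 h2 |>.resolve_left h3
        have h5 : Subgroup.zpowers x.1 = Subgroup.zpowers a :=
          Subgroup.eq_of_le_of_card_ge h1 (by rw [h4, hc'])
        rw [h5]
        exact Subgroup.mem_zpowers a
      obtain ⟨i, hi⟩ := Subgroup.mem_zpowers_iff.1 hmem
      apply hnac c hc
      rw [← hi]
      have hcomm : Commute c x.1 := by
        show c * x.1 = x.1 * c
        calc c * x.1 = (c * x.1 * c⁻¹) * c := by group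
          _ = x.1 * c := by rw [hx2]
      exact hcomm.zpow_right i
  rw [hfix] at hmod
  have hcardP : Fintype.card (Subgroup.zpowers a) = P := by
    rw [← Nat.card_eq_fintype_card, Nat.card_zpowers, ha]
  rw [hcardP] at hmod
  exact (Nat.modEq_iff_dvd' hP.one_lt.le).1 hmod.symm

theorem exists_str {p q : ℕ} (hp : p.Prime) (hq : q.Prime) (hpq : p ≠ q)
    (hcard : Nat.card A = p * q) (hna : ¬ IsMulCommutative A) :
    ∃ (P Q : ℕ) (a : A), PQStr A P Q a ∧ P * Q = p * q := by
  rcases lt_or_gt_of_ne hpq with h | h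
  · obtain ⟨a, ha⟩ := exists_str_aux hq hp h (by rw [hcard, mul_comm]) hna
    exact ⟨q, p, a, ha, mul_comm _ _⟩
  · obtain ⟨a, ha⟩ := exists_str_aux hp hq h hcard hna
    exact ⟨p, q, a, ha, rfl⟩

end existence

end Cfsg.Agent.Lib.PQA
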