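import Mathlib

/-!
# The symmetric group of degree 3 acting coprimely: fixed points in cosets and an orbit lemma.
-/

set_option autoImplicit false
set_option maxRecDepth 4000

namespace Cfsg.Agent.Lib.S3Fpf

open Equiv

/-- The symmetric group of degree 3. -/
abbrev S3 := Perm (Fin 3)

/-- A 3-cycle. -/
def sa : S3 := swap 0 1 * swap 1 2
/-- A transposition. -/
def sb : S3 := swap 0 1

/-- The three involutions of `S3`. -/
def Inv3 (b : S3) : Prop := b = sb ∨ b = sa * sb ∨ b = sa ^ 2 * sb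

instance : DecidablePred Inv3 := fun b => by unfold Inv3; infer_instance

theorem sa_cube : sa ^ 3 = 1 := by decide
theorem sb_sq : sb ^ 2 = 1 := by decide
theorem sa_mul_self_self : sa * sa * sa = 1 := by decide
theorem sb_mul_self : sb * sb = 1 := by decide

theorem s3_cases : ∀ g : S3, g = 1 ∨ g = sa ∨ g = sa ^ 2 ∨ Inv3 g := by decide

theorem inv3_mul_sa : ∀ b : S3, Inv3 b → b * sa * b = sa ^ 2 := by decide
theorem inv3_sq : ∀ b : S3, Inv3 b → b * b = 1 := by decide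

theorem univ_eq : ∀ b : S3, Inv3 b →
    (Finset.univ : Finset S3) = {1, sa, sa ^ 2, b, sa * b, sa ^ 2 * b} := by decide

theorem s3_words : ∀ g h t : S3, g ≠ 1 → h ≠ 1 → h ≠ g → h ≠ g⁻¹ →
    t ∈ ([1, g, h, g*g, h*h, g*h, h*g, g*h*g, h*g*h, g*g*h, h*h*g, g*h*h, h*g*g] : List S3) := by
  decide

/-- A multiplicatively closed predicate true on two independent elements is true everywhere. -/
theorem forall_of_two (P : S3 → Prop) (h1 : P 1) (hm : ∀ g h, P g → P h → P (g * h)) {g h : S3}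
    (hg : P g) (hh : P h) (hg1 : g ≠ 1) (hh1 : h ≠ 1) (hgh : h ≠ g) (hgh' : h ≠ g⁻¹) (t : S3) :
    P t := by
  have := s3_words g h t hg1 hh1 hgh hgh'
  simp only [List.mem_cons, List.not_mem_nil, or_false] at this
  rcases this with rfl | rfl | rfl | rfl | rfl | rfl | rfl | rfl | rfl | rfl | rfl | rfl | rfl
  · exact h1
  · exact hg
  · exact hh
  · exact hm _ _ hg hg
  · exact hm _ _ hh hh
  · exact hm _ _ hg hh
  · exact hm _ _ hh hg
  · exact hm _ _ (hm _ _ hg hh) hg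
  · exact hm _ _ (hm _ _ hh hg) hh
  · exact hm _ _ (hm _ _ hg hg) hh
  · exact hm _ _ (hm _ _ hh hh) hg
  · exact hm _ _ (hm _ _ hg hh) hh
  · exact hm _ _ (hm _ _ hh hg) hg

theorem inv3_ne : ∀ b : S3, Inv3 b → b ≠ 1 ∧ b ≠ sa ∧ b ≠ sa⁻¹ := by decide

theorem forall_of_sa_inv (P : S3 → Prop) (h1 : P 1) (hm : ∀ g h, P g → P h → P (g * h))
    {b : S3} (hb : Inv3 b) (ha : P sa) (hP : P b) (t : S3) : P t :=
  forall_of_two P h1 hm ha hP (by decide) (inv3_ne b hb).1 (inv3_ne b hb).2.1 (inv3_ne b hb).2.2 t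

theorem univ_facts : ∀ b : S3, Inv3 b →
    (1 : S3) ∉ ({sa, sa ^ 2, b, sa * b, sa ^ 2 * b} : Finset S3) ∧
    sa ∉ ({sa ^ 2, b, sa * b, sa ^ 2 * b} : Finset S3) ∧
    sa ^ 2 ∉ ({b, sa * b, sa ^ 2 * b} : Finset S3) ∧
    b ∉ ({sa * b, sa ^ 2 * b} : Finset S3) ∧
    sa * b ∉ ({sa ^ 2 * b} : Finset S3) := by decide

theorem inv3_conj_facts : ∀ g : S3, Inv3 g → sa * g * sa⁻¹ ≠ 1 ∧ sa ^ 2 * g * (sa ^ 2)⁻¹ ≠ 1 ∧
    sa ^ 2 * g * (sa ^ 2)⁻¹ ≠ sa * g * sa⁻¹ ∧ sa ^ 2 * g * (sa ^ 2)⁻¹ ≠ (sa * g * sa⁻¹)⁻¹ := by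
  decide

theorem sb_of_inv3 : ∀ g : S3, Inv3 g → sb = g ∨ sb = sa * g ∨ sb = sa ^ 2 * g := by decide

theorem exists_fixed_of_pow {α : Type*} [Finite α] (p : ℕ) [hp : Fact p.Prime]
    (f : Function.End α) (hf : f ^ p = 1) (h : ¬ p ∣ Nat.card α) : ∃ x, f x = x := by
  classical
  letI := Fintype.ofFinite α
  have hm : Fintype.card α ≡ Fintype.card (Function.fixedPoints f) [MOD p] :=
    Equiv.Perm.card_fixedPoints_modEq (p := p) (n := 1) (f := f) (by simpa using hf)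
  by_contra hne
  push Not at hne
  have h0 : Fintype.card (Function.fixedPoints f) = 0 := by
    rw [Fintype.card_eq_zero_iff]
    exact ⟨fun x => hne x.1 x.2⟩
  rw [h0] at hm
  apply h
  rw [Nat.card_eq_fintype_card]
  exact (Nat.modEq_zero_iff_dvd).1 hm

section lift

variable {X : Type*} [Group X] [Finite X] [MulDistribMulAction S3 X]

theorem fixed_of_sa_inv {Y : Type*} [MulAction S3 Y] {y : Y} {b : S3} (hb : Inv3 b)
    (ha : sa • y = y) (hby : b • y = y) (g : S3) : g • y = y := by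
  refine forall_of_sa_inv (fun g => g • y = y) (one_smul _ _) (fun g h hg hh => ?_) hb ha hby g
  rw [mul_smul, hh, hg]

theorem inv3_sb : Inv3 sb := Or.inl rfl

omit [MulDistribMulAction S3 X] [Finite X] in
theorem not_dvd_of_le (hX : (Nat.card X).Coprime 6) (p : ℕ) (hp : p = 2 ∨ p = 3) (N : Subgroup X) :
    ¬ p ∣ Nat.card N := by
  intro h
  have h1 : p ∣ Nat.card X := h.trans (Subgroup.card_subgroup_dvd_card N)
  have h2 : p ∣ 6 := by rcases hp with rfl | rfl <;> decide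
  have h3 := Nat.dvd_gcd h1 h2
  rw [hX] at h3
  have := Nat.le_of_dvd one_pos h3
  rcases hp with rfl | rfl <;> omega

/-- **Coprime lifting**: a coset fixed by `S3` contains an `S3`-fixed element. -/
theorem lift_fixed (hX : (Nat.card X).Coprime 6) (N : Subgroup X)
    (hNa : ∀ n ∈ N, sa • n ∈ N) (hNb : ∀ n ∈ N, sb • n ∈ N) (y : X)
    (hya : y⁻¹ * (sa • y) ∈ N) (hyb : y⁻¹ * (sb • y) ∈ N) :
    ∃ z, y⁻¹ * z ∈ N ∧ sa • z = z ∧ sb • z = z := by
  classical
  have : Fact (Nat.Prime 3) := ⟨by decide⟩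
  have : Fact (Nat.Prime 2) := ⟨by decide⟩
  -- step 1 : a fixed point of `sa` in the coset
  have hf : ∀ n : N, y⁻¹ * (sa • (y * (n : X))) ∈ N := fun n => by
    have : y⁻¹ * (sa • (y * (n : X))) = (y⁻¹ * (sa • y)) * (sa • (n : X)) := by
      rw [smul_mul', mul_assoc]
    rw [this]
    exact N.mul_mem hya (hNa _ n.2)
  let f : Function.End N := fun n => ⟨_, hf n⟩
  have hf2 : ∀ n : N, ((f n : N) : X) = y⁻¹ * (sa • (y * (n : X))) := fun _ => rfl
  have hf3 : f ^ 3 = 1 := by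
    funext n
    apply Subtype.ext
    have h3 : (f (f (f n)) : X) = (n : X) := by
      rw [hf2, hf2, hf2]
      simp only [mul_inv_cancel_left]
      have : sa • sa • sa • (y * (n : X)) = (sa * sa * sa) • (y * (n : X)) := by
        rw [mul_smul, mul_smul]
      rw [this, sa_mul_self_self, one_smul, inv_mul_cancel_left]
    exact h3
  obtain ⟨n₀, hn₀⟩ := exists_fixed_of_pow 3 f hf3 (not_dvd_of_le hX 3 (Or.inr rfl) N)
  have hn₀' : y⁻¹ * (sa • (y * (n₀ : X))) = n₀ := congrArg Subtype.val hn₀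
  set z₀ := y * (n₀ : X) with hz₀
  have hz₀a : sa • z₀ = z₀ := by
    have : sa • z₀ = y * (y⁻¹ * (sa • z₀)) := by group
    rw [this, hn₀']
  have hz₀b : z₀⁻¹ * (sb • z₀) ∈ N := by
    have : z₀⁻¹ * (sb • z₀) = (n₀ : X)⁻¹ * ((y⁻¹ * (sb • y)) * (sb • (n₀ : X))) := by
      rw [hz₀, smul_mul']; group
    rw [this]
    exact N.mul_mem (N.inv_mem n₀.2) (N.mul_mem hyb (hNb _ n₀.2))
  -- step 2 : `sb` acts on the fixed points of `sa` in the coset
  let C : Subgroup X :=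
    { carrier := {c | c ∈ N ∧ sa • c = c}
      mul_mem' := fun {p q} hp hq => ⟨N.mul_mem hp.1 hq.1, by rw [smul_mul', hp.2, hq.2]⟩
      one_mem' := ⟨N.one_mem, smul_one _⟩
      inv_mem' := fun {p} hp => ⟨N.inv_mem hp.1, by rw [smul_inv', hp.2]⟩ }
  have hab : ∀ x : X, sa • sb • x = sb • (sa • sa • x) := by
    intro x
    have : (sa : S3) * sb = sb * (sa * sa) := by decide
    rw [← mul_smul, this, mul_smul, mul_smul]
  have hg : ∀ c : C, z₀⁻¹ * (sb • (z₀ * (c : X))) ∈ C := by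
    rintro ⟨c, hc1, hc2⟩
    constructor
    · have : z₀⁻¹ * (sb • (z₀ * c)) = (z₀⁻¹ * (sb • z₀)) * (sb • c) := by
        rw [smul_mul', mul_assoc]
      show z₀⁻¹ * (sb • (z₀ * c)) ∈ N
      rw [this]
      exact N.mul_mem hz₀b (hNb _ hc1)
    · show sa • (z₀⁻¹ * (sb • (z₀ * c))) = z₀⁻¹ * (sb • (z₀ * c))
      rw [smul_mul', smul_inv', hz₀a, hab, smul_mul', smul_mul', hz₀a, hz₀a, hc2, hc2]
  let g : Function.End C := fun c => ⟨_, hg c⟩
  have hg2 : g ^ 2 = 1 := by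
    funext c
    apply Subtype.ext
    show z₀⁻¹ * (sb • (z₀ * (z₀⁻¹ * (sb • (z₀ * (c : X)))))) = c
    simp only [mul_inv_cancel_left]
    have : sb • sb • (z₀ * (c : X)) = (sb * sb) • (z₀ * (c : X)) := by rw [mul_smul]
    rw [this, sb_mul_self, one_smul, inv_mul_cancel_left]
  obtain ⟨c₀, hc₀⟩ := exists_fixed_of_pow 2 g hg2 (not_dvd_of_le hX 2 (Or.inl rfl) C)
  have hc₀' : z₀⁻¹ * (sb • (z₀ * (c₀ : X))) = c₀ := congrArg Subtype.val hc₀
  refine ⟨z₀ * c₀, ?_, ?_, ?_⟩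
  · have : y⁻¹ * (z₀ * (c₀ : X)) = n₀ * c₀ := by rw [hz₀]; group
    rw [this]
    exact N.mul_mem n₀.2 c₀.2.1
  · rw [smul_mul', hz₀a, c₀.2.2]
  · have : sb • (z₀ * (c₀ : X)) = z₀ * (z₀⁻¹ * (sb • (z₀ * (c₀ : X)))) := by group
    rw [this, hc₀']

/-- If `S3` acts trivially on the coset space of an invariant subgroup, it is everything. -/
theorem eq_top_of_trivial (hX : (Nat.card X).Coprime 6)
    (hfix : ∀ x : X, (∀ g : S3, g • x = x) → x = 1) (N : Subgroup X)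
    (ha : ∀ y : X, y⁻¹ * (sa • y) ∈ N) (hb : ∀ y : X, y⁻¹ * (sb • y) ∈ N) (y : X) : y ∈ N := by
  have hNa : ∀ n ∈ N, sa • n ∈ N := fun n hn => by
    have := N.mul_mem hn (ha n)
    simpa using this
  have hNb : ∀ n ∈ N, sb • n ∈ N := fun n hn => by
    have := N.mul_mem hn (hb n)
    simpa using this
  obtain ⟨z, hz, hza, hzb⟩ := lift_fixed hX N hNa hNb y (ha y) (hb y)
  have hz1 : z = 1 := hfix z (fixed_of_sa_inv inv3_sb hza hzb)
  rw [hz1, mul_one] at hz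
  simpa using N.inv_mem hz

end lift

section orbit

variable {X Y : Type*} [Group X] [Finite X] [CommGroup Y]
  [MulDistribMulAction S3 X] [MulDistribMulAction S3 Y] [MulDistribMulAction X Y]

theorem prod_eq_of_inv3 (μ : Y) {b : S3} (hb : Inv3 b) :
    ∏ g : S3, g • μ = (μ * (sa • μ) * ((sa ^ 2) • μ)) *
      ((b • μ) * (sa • (b • μ)) * ((sa ^ 2) • (b • μ))) := by
  obtain ⟨h1, h2, h3, h4, h5⟩ := univ_facts b hb
  rw [univ_eq b hb, Finset.prod_insert h1, Finset.prod_insert h2, Finset.prod_insert h3,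
    Finset.prod_insert h4, Finset.prod_insert h5, Finset.prod_singleton, one_smul, mul_smul,
    mul_smul]
  simp only [mul_assoc]


theorem eq_one_of_fixed (hnorm : ∀ μ : Y, ∏ g : S3, g • μ = 1)
    (h2 : ∀ μ : Y, μ ^ 2 = 1 → μ = 1) (h3 : ∀ μ : Y, μ ^ 3 = 1 → μ = 1)
    {μ : Y} (h : ∀ g : S3, g • μ = μ) : μ = 1 := by
  have := hnorm μ
  rw [prod_eq_of_inv3 μ inv3_sb] at this
  simp only [h] at this
  apply h3
  apply h2
  rw [← this]
  simp only [pow_succ, pow_zero, one_mul, mul_assoc]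

theorem sb_eq_inv_of_sa (hnorm : ∀ μ : Y, ∏ g : S3, g • μ = 1)
    (h3 : ∀ μ : Y, μ ^ 3 = 1 → μ = 1) {μ : Y} (h : sa • μ = μ) : sb • μ = μ⁻¹ := by
  have hs : (sa ^ 2) • μ = μ := by rw [pow_two, mul_smul, h, h]
  have hb : sa • (sb • μ) = sb • μ := by
    have : (sa : S3) * sb = sb * (sa ^ 2) := by decide
    rw [← mul_smul, this, mul_smul, hs]
  have hb2 : (sa ^ 2) • (sb • μ) = sb • μ := by rw [pow_two, mul_smul, hb, hb]
  have := hnorm μ
  rw [prod_eq_of_inv3 μ inv3_sb, h, hs, hb, hb2] at this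
  have h4 : μ * sb • μ = 1 := by
    apply h3
    rw [← this, mul_pow, pow_succ, pow_two, pow_succ (sb • μ), pow_two]
  exact eq_inv_of_mul_eq_one_right h4

theorem cube_one_of_inv3 (hnorm : ∀ μ : Y, ∏ g : S3, g • μ = 1)
    (h2 : ∀ μ : Y, μ ^ 2 = 1 → μ = 1) {μ : Y} {b : S3} (hb : Inv3 b) (h : b • μ = μ) :
    μ * (sa • μ) * ((sa ^ 2) • μ) = 1 := by
  have := hnorm μ
  rw [prod_eq_of_inv3 μ hb, h] at this
  apply h2
  rw [← this, pow_two]

omit [MulDistribMulAction S3 X] [MulDistribMulAction S3 Y] in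
theorem odd_fix (hX : (Nat.card X).Coprime 6) {y : X} {ν : Y} (h : (y * y) • ν = ν) : y • ν = ν := by
  have hodd : Odd (orderOf y) := by
    have h1 : orderOf y ∣ Nat.card X := orderOf_dvd_natCard y
    rw [← Nat.not_even_iff_odd]
    intro he
    have h2 : 2 ∣ Nat.card X := he.two_dvd.trans h1
    have h3 : 2 ∣ Nat.gcd (Nat.card X) 6 := Nat.dvd_gcd h2 (by decide)
    rw [hX] at h3
    omega
  obtain ⟨k, hk⟩ := hodd
  have hy : (y * y) ^ (k + 1) = y := by
    rw [← pow_two, ← pow_mul]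
    have : 2 * (k + 1) = orderOf y + 1 := by omega
    rw [this, pow_succ, pow_orderOf_eq_one, one_mul]
  have hst : y * y ∈ MulAction.stabilizer X ν := h
  have := (MulAction.stabilizer X ν).pow_mem hst (k + 1)
  rw [hy] at this
  exact this

/-- **The orbit lemma.**  Suppose every non-trivial element of an `X`-invariant set `Λ` of an
abelian group `Y` with norm-trivial `S3`-action has a non-trivial `S3`-stabilizer. Then `X` fixes
every element of `Λ`. -/
theorem orbit_fixed (hcompat : ∀ (g : S3) (x : X) (μ : Y), g • (x • μ) = (g • x) • (g • μ))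
    (hX : (Nat.card X).Coprime 6) (hfix : ∀ x : X, (∀ g : S3, g • x = x) → x = 1)
    (hnorm : ∀ μ : Y, ∏ g : S3, g • μ = 1)
    (h2 : ∀ μ : Y, μ ^ 2 = 1 → μ = 1) (h3 : ∀ μ : Y, μ ^ 3 = 1 → μ = 1)
    (Λ : Set Y) (hΛX : ∀ (x : X), ∀ μ ∈ Λ, x • μ ∈ Λ)
    (hΛ : ∀ μ ∈ Λ, μ ≠ 1 → ∃ g : S3, g ≠ 1 ∧ g • μ = μ) (μ₀ : Y) (hμ₀ : μ₀ ∈ Λ) (y : X) :
    y • μ₀ = μ₀ := by
  classical
  have : Fact (Nat.Prime 3) := ⟨by decide⟩
  by_cases hμ1 : μ₀ = 1
  · rw [hμ1, smul_one]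
  set O : Set Y := MulAction.orbit X μ₀ with hO
  have hOX : ∀ (x : X), ∀ ν ∈ O, x • ν ∈ O := fun x ν hν => by
    obtain ⟨x', rfl⟩ := hν
    exact ⟨x * x', by simp [mul_smul]⟩
  have hμO : μ₀ ∈ O := MulAction.mem_orbit_self μ₀
  have hOΛ : ∀ ν ∈ O, ν ∈ Λ := fun ν hν => by
    obtain ⟨x, rfl⟩ := hν
    exact hΛX x μ₀ hμ₀
  have hOne : ∀ ν ∈ O, ν ≠ 1 := fun ν hν h1 => by
    obtain ⟨x, hx⟩ := hν
    apply hμ1
    have : x • μ₀ = 1 := hx.trans h1
    simpa using congrArg (fun t => x⁻¹ • t) this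
  have hg : ∀ ν ∈ O, ∃ g : S3, g ≠ 1 ∧ g • ν = ν := fun ν hν => hΛ ν (hOΛ ν hν) (hOne ν hν)
  -- preservation of the orbit
  let Pres : S3 → Prop := fun g => ∀ ν ∈ O, g • ν ∈ O
  have hP1 : Pres 1 := fun ν hν => by simpa using hν
  have hPm : ∀ g h, Pres g → Pres h → Pres (g * h) := fun g h hg hh ν hν => by
    rw [mul_smul]
    exact hg _ (hh _ hν)
  have hPfix : ∀ ν ∈ O, ∀ g : S3, g • ν = ν → Pres g := by
    intro ν hν g hgν ν' hν'
    obtain ⟨x, hx⟩ : ∃ x : X, x • ν = ν' := by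
      obtain ⟨x₁, rfl⟩ := hν
      obtain ⟨x₂, rfl⟩ := hν'
      exact ⟨x₂ * x₁⁻¹, by simp [mul_smul]⟩
    rw [← hx, hcompat, hgν]
    exact hOX _ _ hν
  -- `S3` cannot preserve the orbit
  have hF : ¬ (Pres sa ∧ Pres sb) := by
    rintro ⟨hPa, hPb⟩
    haveI : Finite O := Set.finite_range _ |>.to_subtype
    have hcard : ¬ 3 ∣ Nat.card O := by
      intro h3d
      have h1 : Nat.card O ∣ Nat.card X := by
        have := MulAction.index_stabilizer X μ₀
        rw [show Nat.card O = (MulAction.stabilizer X μ₀).index from this.symm]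
        exact Subgroup.index_dvd_card _
      have h3 : 3 ∣ Nat.gcd (Nat.card X) 6 := Nat.dvd_gcd (h3d.trans h1) (by decide)
      rw [hX] at h3
      omega
    let f : Function.End O := fun ν => ⟨sa • ν.1, hPa _ ν.2⟩
    have hf : f ^ 3 = 1 := by
      funext ν
      apply Subtype.ext
      show sa • sa • sa • ν.1 = ν.1
      rw [← mul_smul, ← mul_smul, sa_mul_self_self, one_smul]
    obtain ⟨ν₁, hν₁⟩ := exists_fixed_of_pow 3 f hf hcard
    have hν₁' : sa • ν₁.1 = ν₁.1 := congrArg Subtype.val hν₁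
    have hinv := sb_eq_inv_of_sa hnorm h3 hν₁'
    have hinvO : (ν₁.1)⁻¹ ∈ O := hinv ▸ hPb _ ν₁.2
    obtain ⟨y', hy'⟩ : ∃ x : X, x • ν₁.1 = (ν₁.1)⁻¹ := by
      obtain ⟨x₁, hx₁⟩ := ν₁.2
      obtain ⟨x₂, hx₂⟩ := hinvO
      have hx₁' : x₁ • μ₀ = ν₁.1 := hx₁
      have hx₂' : x₂ • μ₀ = (ν₁.1)⁻¹ := hx₂
      refine ⟨x₂ * x₁⁻¹, ?_⟩
      rw [mul_smul, ← hx₁', inv_smul_smul, hx₂', hx₁']
    have hyy : (y' * y') • ν₁.1 = ν₁.1 := by
      rw [mul_smul, hy', smul_inv', hy', inv_inv]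
    have hy1 := odd_fix hX hyy
    rw [hy1] at hy'
    apply hOne _ ν₁.2
    apply h2
    rw [pow_two]
    nth_rewrite 1 [hy']
    simp
  -- hence a uniform stabilizing element
  obtain ⟨g₀, hg₀1, hg₀⟩ := hg μ₀ hμO
  have hP₀ : Pres g₀ := hPfix μ₀ hμO g₀ hg₀
  have hunif : ∀ ν ∈ O, g₀ • ν = ν := by
    intro ν hν
    obtain ⟨g, hg1, hgν⟩ := hg ν hν
    by_cases h1 : g = g₀
    · rw [← h1]; exact hgν
    by_cases h2' : g = g₀⁻¹
    · rw [h2'] at hgν
      have := congrArg (fun t => g₀ • t) hgν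
      simpa using this.symm
    · exfalso
      have hall : ∀ t, Pres t := forall_of_two Pres hP1 hPm hP₀ (hPfix ν hν g hgν) hg₀1 hg1 h1 h2'
      exact hF ⟨hall _, hall _⟩
  -- the two cases
  have hconclude : (∀ (y : X), ∀ ν ∈ O, (sa • y) • ν = y • ν) →
      (∀ (y : X), ∀ ν ∈ O, (sb • y) • ν = y • ν) → y • μ₀ = μ₀ := by
    intro hA hB
    let N : Subgroup X :=
      { carrier := {x | ∀ ν ∈ O, x • ν = ν}
        mul_mem' := fun {p q} hp hq ν hν => by rw [mul_smul, hq ν hν, hp ν hν]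
        one_mem' := fun ν _ => one_smul _ _
        inv_mem' := fun {p} hp ν hν => by
          have := hp ν hν
          exact inv_smul_eq_iff.2 this.symm }
    have hmemA : ∀ y : X, y⁻¹ * (sa • y) ∈ N := fun y ν hν => by
      rw [mul_smul, hA y ν hν, inv_smul_smul]
    have hmemB : ∀ y : X, y⁻¹ * (sb • y) ∈ N := fun y ν hν => by
      rw [mul_smul, hB y ν hν, inv_smul_smul]
    exact eq_top_of_trivial hX hfix N hmemA hmemB y μ₀ hμO
  rcases s3_cases g₀ with h | h | h | h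
  · exact absurd h hg₀1
  · -- the 3-cycle fixes the orbit
    subst h
    refine hconclude ?_ ?_
    · intro y ν hν
      have h1 := hunif _ (hOX y ν hν)
      rw [hcompat, hunif ν hν] at h1
      exact h1
    · intro y ν hν
      have hνi : sb • ν = ν⁻¹ := sb_eq_inv_of_sa hnorm h3 (hunif ν hν)
      have hw : sb • (y • ν) = (y • ν)⁻¹ := sb_eq_inv_of_sa hnorm h3 (hunif _ (hOX y ν hν))
      rw [hcompat, hνi, smul_inv'] at hw
      exact inv_injective hw
  · -- its square fixes the orbit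
    subst h
    have hunif' : ∀ ν ∈ O, sa • ν = ν := fun ν hν => by
      have h4 : (sa : S3) = sa ^ 2 * sa ^ 2 := by decide
      rw [h4, mul_smul, hunif ν hν, hunif ν hν]
    refine hconclude ?_ ?_
    · intro y ν hν
      have h1 := hunif' _ (hOX y ν hν)
      rw [hcompat, hunif' ν hν] at h1
      exact h1
    · intro y ν hν
      have hνi : sb • ν = ν⁻¹ := sb_eq_inv_of_sa hnorm h3 (hunif' ν hν)
      have hw : sb • (y • ν) = (y • ν)⁻¹ := sb_eq_inv_of_sa hnorm h3 (hunif' _ (hOX y ν hν))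
      rw [hcompat, hνi, smul_inv'] at hw
      exact inv_injective hw
  · -- an involution fixes the orbit
    have hB' : ∀ (y : X), ∀ ν ∈ O, (g₀ • y) • ν = y • ν := by
      intro y ν hν
      have h1 := hunif _ (hOX y ν hν)
      rw [hcompat, hunif ν hν] at h1
      exact h1
    have hkey : ∀ (y : X), ∀ ν ∈ O, y • (sa • ν) = sa • (y • ν) := by
      intro y ν hν
      set w := y • ν with hw
      have hwO : w ∈ O := hOX y ν hν
      have n1 := cube_one_of_inv3 hnorm h2 h (hunif ν hν)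
      have n2 := cube_one_of_inv3 hnorm h2 h (hunif w hwO)
      have n3 : w * (y • (sa • ν)) * (y • ((sa ^ 2) • ν)) = 1 := by
        have := congrArg (fun t => y • t) n1
        simpa only [smul_mul', smul_one] using this
      have hy1 : y • (sa • ν) = sa • ((sa⁻¹ • y) • ν) := by
        rw [hcompat, smul_inv_smul]
      have hy2 : y • ((sa ^ 2) • ν) = (sa ^ 2) • (((sa ^ 2)⁻¹ • y) • ν) := by
        rw [hcompat, smul_inv_smul]
      -- the two expressions for `d`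
      set d := (y • (sa • ν)) * (sa • w)⁻¹ with hd
      have hd2 : d = ((sa ^ 2) • w) * (y • ((sa ^ 2) • ν))⁻¹ := by
        have h5 : (y • (sa • ν)) * (y • ((sa ^ 2) • ν)) = (sa • w) * ((sa ^ 2) • w) := by
          have h6 := n3.trans n2.symm
          rw [mul_assoc, mul_assoc] at h6
          exact mul_left_cancel h6
        rw [hd, mul_inv_eq_iff_eq_mul, mul_assoc, mul_comm (y • (sa ^ 2) • ν)⁻¹,
          ← mul_assoc, eq_mul_inv_iff_mul_eq, h5, mul_comm]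
      -- `d` is fixed by two involutions
      set b₁ : S3 := sa * g₀ * sa⁻¹ with hb₁
      set b₂ : S3 := sa ^ 2 * g₀ * (sa ^ 2)⁻¹ with hb₂
      have hb₁fix : ∀ ν' ∈ O, b₁ • (sa • ν') = sa • ν' := fun ν' hν' => by
        rw [hb₁, mul_smul, mul_smul, inv_smul_smul, hunif ν' hν']
      have hb₂fix : ∀ ν' ∈ O, b₂ • ((sa ^ 2) • ν') = (sa ^ 2) • ν' := fun ν' hν' => by
        rw [hb₂, mul_smul, mul_smul, inv_smul_smul, hunif ν' hν']
      have hd1fix : b₁ • d = d := by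
        rw [hd, smul_mul', smul_inv', hb₁fix w hwO, hy1, hb₁fix _ (hOX _ ν hν)]
      have hd2fix : b₂ • d = d := by
        rw [hd2, smul_mul', smul_inv', hb₂fix w hwO, hy2, hb₂fix _ (hOX _ ν hν)]
      have hgen : b₁ ≠ 1 ∧ b₂ ≠ 1 ∧ b₂ ≠ b₁ ∧ b₂ ≠ b₁⁻¹ := inv3_conj_facts g₀ h
      have hdall : ∀ g : S3, g • d = d :=
        forall_of_two (fun g => g • d = d) (one_smul _ _)
          (fun g h hg hh => by rw [mul_smul]; show g • (h • d) = d; rw [hh, hg])
          hd1fix hd2fix hgen.1 hgen.2.1 hgen.2.2.1 hgen.2.2.2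
      have hd1 : d = 1 := eq_one_of_fixed hnorm h2 h3 hdall
      exact mul_inv_eq_one.1 (hd.symm.trans hd1)
    have hA : ∀ (y : X), ∀ ν ∈ O, (sa • y) • ν = y • ν := by
      intro y ν hν
      have h1 := hkey (sa • y) ν hν
      rw [← hcompat] at h1
      exact (MulAction.injective sa h1).symm
    have hsb : sb = g₀ ∨ sb = sa * g₀ ∨ sb = sa ^ 2 * g₀ := sb_of_inv3 g₀ h
    refine hconclude hA ?_
    intro y ν hν
    rcases hsb with hs | hs | hs
    · rw [hs]; exact hB' y ν hν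
    · rw [hs, mul_smul, hA _ ν hν, hB' y ν hν]
    · rw [hs, pow_two, mul_smul, mul_smul, hA _ ν hν, hA _ ν hν, hB' y ν hν]

end orbit

end Cfsg.Agent.Lib.S3Fpf
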