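import Mathlib
import Cfsg.Agent.Lib.S3Fpf

/-!
# Eigenspaces of a finite abelian group with invertible order on a module over an algebraically
closed field, and the orbit argument for `S3`.
-/

set_option autoImplicit false
set_option maxRecDepth 4000

namespace Cfsg.Agent.Lib.S3Rep

open Cfsg.Agent.Lib.S3Fpf

section Eigen

variable {S K M : Type*} [CommGroup S] [Fintype S] [Field K] [AddCommGroup M] [Module K M]

/-- `u` is an eigenvector of `τ` with character `χ`. -/
def IsEig (τ : S →* Module.End K M) (χ : S →* Kˣ) (u : M) : Prop :=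
  ∀ s, τ s u = ((χ s : Kˣ) : K) • u

/-- The eigen-idempotent attached to a character. -/
noncomputable def proj (τ : S →* Module.End K M) (χ : S →* Kˣ) : Module.End K M :=
  (Fintype.card S : K)⁻¹ • ∑ s : S, (((χ s)⁻¹ : Kˣ) : K) • τ s

theorem proj_apply (τ : S →* Module.End K M) (χ : S →* Kˣ) (u : M) :
    proj τ χ u = (Fintype.card S : K)⁻¹ • ∑ s : S, (((χ s)⁻¹ : Kˣ) : K) • τ s u := by
  simp [proj, LinearMap.sum_apply]

theorem proj_of_eig (τ : S →* Module.End K M) {χ : S →* Kˣ} {u : M} (hS : (Fintype.card S : K) ≠ 0)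
    (h : IsEig τ χ u) : proj τ χ u = u := by
  rw [proj_apply]
  have : ∀ s : S, (((χ s)⁻¹ : Kˣ) : K) • τ s u = u := fun s => by
    rw [h s, smul_smul, ← Units.val_mul, inv_mul_cancel, Units.val_one, one_smul]
  simp only [this, Finset.sum_const, Finset.card_univ]
  rw [← Nat.cast_smul_eq_nsmul K, smul_smul, inv_mul_cancel₀ hS, one_smul]

theorem proj_of_eig_ne (τ : S →* Module.End K M) {χ ν : S →* Kˣ} {u : M} (h : IsEig τ ν u)
    (hne : ν ≠ χ) : proj τ χ u = 0 := by
  classical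
  rw [proj_apply]
  have : ∀ s : S, (((χ s)⁻¹ : Kˣ) : K) • τ s u =
      ((Units.coeHom K).comp (ν / χ) s) • u := fun s => by
    rw [h s, smul_smul]
    congr 1
    simp only [MonoidHom.comp_apply, MonoidHom.div_apply, Units.coeHom_apply, div_eq_mul_inv,
      Units.val_mul, mul_comm]
  simp only [this]
  rw [← Finset.sum_smul, sum_hom_units_eq_zero, zero_smul, smul_zero]
  intro h1
  apply hne
  ext s
  have h2 := congrArg (fun f : S →* K => f s) h1
  simp only [MonoidHom.comp_apply, MonoidHom.div_apply, Units.coeHom_apply, MonoidHom.one_apply]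
    at h2
  have h3 : (ν / χ) s = 1 := Units.ext h2
  rw [MonoidHom.div_apply, div_eq_one] at h3
  rw [h3]

theorem eig_proj (τ : S →* Module.End K M) (χ : S →* Kˣ) (u : M) : IsEig τ χ (proj τ χ u) := by
  intro t
  rw [proj_apply, map_smul, map_sum, smul_comm]
  congr 1
  rw [Finset.smul_sum]
  refine Fintype.sum_equiv (Equiv.mulLeft t) _ _ (fun s => ?_)
  simp only [Equiv.coe_mulLeft, map_mul, mul_inv, Units.val_mul, map_smul, Module.End.mul_apply]
  rw [smul_smul, ← mul_assoc, ← Units.val_mul, mul_inv_cancel, Units.val_one, one_mul]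

theorem proj_add_eig (τ : S →* Module.End K M) (χ ν₁ ν₂ : S →* Kˣ) {u v w : M}
    (hS : (Fintype.card S : K) ≠ 0) (hu : IsEig τ χ u) (hv : IsEig τ ν₁ v) (hw : IsEig τ ν₂ w)
    (h1 : ν₁ ≠ χ) (h2 : ν₂ ≠ χ) (h0 : u + v + w = 0) : u = 0 := by
  have := congrArg (proj τ χ) h0
  rw [map_add, map_add, proj_of_eig τ hS hu, proj_of_eig_ne τ hv h1, proj_of_eig_ne τ hw h2,
    map_zero, add_zero, add_zero] at this
  exact this

/-- Only the summands with the same character survive in a vanishing sum of eigenvectors. -/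
theorem sum_filter_eq_zero (τ : S →* Module.End K M) {ι : Type*} (I : Finset ι) (T : ι → M)
    (f : ι → S →* Kˣ) (hS : (Fintype.card S : K) ≠ 0) (hT : ∀ i ∈ I, IsEig τ (f i) (T i))
    (h0 : ∑ i ∈ I, T i = 0) (χ : S →* Kˣ) [DecidablePred fun i => f i = χ] :
    ∑ i ∈ I.filter (fun i => f i = χ), T i = 0 := by
  have := congrArg (proj τ χ) h0
  rw [map_sum, map_zero] at this
  rw [← this, Finset.sum_filter]
  refine Finset.sum_congr rfl (fun i hi => ?_)
  split_ifs with h
  · rw [proj_of_eig τ hS (h ▸ hT i hi)]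
  · rw [proj_of_eig_ne τ (hT i hi) h]

theorem isEig_map (τ : S →* Module.End K M) {χ : S →* Kˣ} {u : M} (h : IsEig τ χ u)
    (T : Module.End K M) (ψ : S →* S) (hT : ∀ s, T * τ (ψ s) = τ s * T) :
    IsEig τ (χ.comp ψ) (T u) := by
  intro s
  have h1 := congrArg (fun f : Module.End K M => f u) (hT s)
  simp only [Module.End.mul_apply] at h1
  rw [← h1, h (ψ s), map_smul]
  rfl

section span

variable [IsAlgClosed K]

theorem exp_ne_zero (hS : (Fintype.card S : K) ≠ 0) : NeZero ((Monoid.exponent S : ℕ) : K) := by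
  refine ⟨fun h => hS ?_⟩
  have hd : Monoid.exponent S ∣ Fintype.card S := by
    rw [← Nat.card_eq_fintype_card]
    exact Group.exponent_dvd_nat_card
  obtain ⟨d, hd⟩ := hd
  rw [hd, Nat.cast_mul, h, zero_mul]

theorem finite_chars (hS : (Fintype.card S : K) ≠ 0) : Finite (S →* Kˣ) := by
  haveI := exp_ne_zero hS
  refine Nat.finite_of_card_ne_zero ?_
  rw [CommGroup.card_monoidHom_of_hasEnoughRootsOfUnity S K, Nat.card_eq_fintype_card]
  exact Fintype.card_ne_zero

theorem sum_chars [Fintype (S →* Kˣ)] (hS : (Fintype.card S : K) ≠ 0) (s : S) (hs : s ≠ 1) :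
    ∑ χ : S →* Kˣ, (((χ s)⁻¹ : Kˣ) : K) = 0 := by
  haveI := exp_ne_zero hS
  obtain ⟨χ₀, hχ₀⟩ := CommGroup.exists_apply_ne_one_of_hasEnoughRootsOfUnity S K hs
  have h1 : ∑ χ : S →* Kˣ, (((χ s)⁻¹ : Kˣ) : K) =
      (((χ₀ s)⁻¹ : Kˣ) : K) * ∑ χ : S →* Kˣ, (((χ s)⁻¹ : Kˣ) : K) := by
    rw [Finset.mul_sum]
    refine Fintype.sum_equiv (Equiv.mulLeft χ₀) _ _ (fun χ => ?_) |>.symm
    simp [mul_comm]
  have h2 : (1 - (((χ₀ s)⁻¹ : Kˣ) : K)) * ∑ χ : S →* Kˣ, (((χ s)⁻¹ : Kˣ) : K) = 0 := by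
    rw [sub_mul, one_mul, ← h1, sub_self]
  rcases mul_eq_zero.1 h2 with h3 | h3
  · exfalso
    apply hχ₀
    have : (((χ₀ s)⁻¹ : Kˣ) : K) = 1 := (sub_eq_zero.1 h3).symm
    have h4 : (χ₀ s)⁻¹ = 1 := Units.ext this
    exact inv_eq_one.1 h4
  · exact h3

theorem sum_proj [Fintype (S →* Kˣ)] (τ : S →* Module.End K M) (hS : (Fintype.card S : K) ≠ 0)
    (u : M) : ∑ χ : S →* Kˣ, proj τ χ u = u := by
  classical
  haveI := exp_ne_zero hS
  simp only [proj_apply]
  rw [← Finset.smul_sum]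
  rw [Finset.sum_comm]
  have h1 : ∀ s : S, ∑ χ : S →* Kˣ, (((χ s)⁻¹ : Kˣ) : K) • τ s u =
      (∑ χ : S →* Kˣ, (((χ s)⁻¹ : Kˣ) : K)) • τ s u := fun s => by
    rw [Finset.sum_smul]
  simp only [h1]
  rw [Finset.sum_eq_single (1 : S)]
  · simp only [map_one, inv_one, Units.val_one, Finset.sum_const, Finset.card_univ, nsmul_eq_mul,
      mul_one, one_smul, Module.End.one_apply]
    rw [← Nat.card_eq_fintype_card (α := S →* Kˣ),
      CommGroup.card_monoidHom_of_hasEnoughRootsOfUnity S K, Nat.card_eq_fintype_card, smul_smul,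
      inv_mul_cancel₀ hS, one_smul]
  · intro s _ hs
    rw [sum_chars hS s hs, zero_smul]
  · simp

/-- The eigenvectors span the module. -/
theorem mem_of_eig (τ : S →* Module.End K M) (hS : (Fintype.card S : K) ≠ 0) (N : Submodule K M)
    (h : ∀ χ u, IsEig τ χ u → u ∈ N) (u : M) : u ∈ N := by
  haveI := finite_chars hS
  letI := Fintype.ofFinite (S →* Kˣ)
  rw [← sum_proj τ hS u]
  exact N.sum_mem (fun χ _ => h χ _ (eig_proj τ χ u))

theorem eq_of_eig (τ : S →* Module.End K M) (hS : (Fintype.card S : K) ≠ 0)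
    (T T' : Module.End K M) (h : ∀ χ u, IsEig τ χ u → u ≠ 0 → T u = T' u) : T = T' := by
  ext u
  refine (mem_of_eig τ hS (LinearMap.eqLocus T T') (fun χ v hv => ?_) u)
  by_cases hv0 : v = 0
  · simp [hv0]
  · exact h χ v hv hv0

end span

end Eigen

section dual

/-- The dual action of a group on the characters of a group it acts on. -/
@[reducible] def dualAct (A S T : Type*) [Group A] [Monoid S] [CommMonoid T]
    [MulDistribMulAction A S] : MulDistribMulAction A (S →* T) where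
  smul a χ := χ.comp (MulDistribMulAction.toMonoidHom S a⁻¹)
  one_smul χ := by
    ext s
    show χ ((1 : A)⁻¹ • s) = χ s
    rw [inv_one, one_smul]
  mul_smul a b χ := by
    ext s
    show χ ((a * b)⁻¹ • s) = χ (b⁻¹ • a⁻¹ • s)
    rw [mul_inv_rev, mul_smul]
  smul_mul a χ ν := by
    ext s
    rfl
  smul_one a := by
    ext s
    rfl

theorem dual_apply {A S T : Type*} [Group A] [Monoid S] [CommMonoid T]
    [MulDistribMulAction A S] (a : A) (χ : S →* T) (s : S) :
    (letI := dualAct A S T; a • χ) s = χ (a⁻¹ • s) := rfl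

theorem dual_def {A S T : Type*} [Group A] [Monoid S] [CommMonoid T]
    [MulDistribMulAction A S] (a : A) (χ : S →* T) :
    (letI := dualAct A S T; a • χ) = χ.comp (MulDistribMulAction.toMonoidHom S a⁻¹) := rfl

/-- A group acting on `X` acts on every invariant subgroup of `X`. -/
@[reducible] def subAct {A X : Type*} [Group A] [Group X] [MulDistribMulAction A X]
    (D : Subgroup X) (h : ∀ a : A, ∀ d ∈ D, a • d ∈ D) : MulDistribMulAction A D where
  smul a d := ⟨a • d.1, h a d.1 d.2⟩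
  one_smul d := Subtype.ext (one_smul _ _)
  mul_smul a b d := Subtype.ext (mul_smul a b d.1)
  smul_mul a d e := Subtype.ext (smul_mul' a d.1 e.1)
  smul_one a := Subtype.ext (smul_one a)

theorem subAct_coe {A X : Type*} [Group A] [Group X] [MulDistribMulAction A X]
    (D : Subgroup X) (h : ∀ a : A, ∀ d ∈ D, a • d ∈ D) (a : A) (d : D) :
    ((letI := subAct D h; a • d) : D).1 = a • d.1 := rfl

end dual

section S3eig

variable {S K U : Type*} [CommGroup S] [Fintype S] [Field K] [AddCommGroup U] [Module K U]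
  [MulDistribMulAction S3 S]

attribute [local instance] dualAct

theorem isEig_smul (τ : S →* Module.End K U) (σ : S3 →* Module.End K U)
    (hστ : ∀ g s, σ g * τ s = τ (g • s) * σ g) {χ : S →* Kˣ} {u : U} (h : IsEig τ χ u) (g : S3) :
    IsEig τ (g • χ) (σ g u) := by
  refine isEig_map τ h (σ g) (MulDistribMulAction.toMonoidHom S g⁻¹) (fun s => ?_)
  rw [hστ]
  simp

/-- Only the stabilizer of a character survives in the vanishing norm. -/
theorem stab_sum (τ : S →* Module.End K U) (σ : S3 →* Module.End K U)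
    (hS : (Fintype.card S : K) ≠ 0) (hστ : ∀ g s, σ g * τ s = τ (g • s) * σ g)
    (hσ0 : ∀ u, ∑ g : S3, σ g u = 0) {χ : S →* Kˣ} {u : U} (h : IsEig τ χ u)
    [DecidablePred fun g : S3 => g • χ = χ] :
    ∑ g ∈ Finset.univ.filter (fun g : S3 => g • χ = χ), σ g u = 0 :=
  sum_filter_eq_zero τ Finset.univ (fun g => σ g u) (fun g => g • χ) hS
    (fun g _ => isEig_smul τ σ hστ h g) (hσ0 u) χ

theorem exists_stab (τ : S →* Module.End K U) (σ : S3 →* Module.End K U)
    (hS : (Fintype.card S : K) ≠ 0) (hστ : ∀ g s, σ g * τ s = τ (g • s) * σ g)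
    (hσ0 : ∀ u, ∑ g : S3, σ g u = 0) {χ : S →* Kˣ} {u : U} (h : IsEig τ χ u) (hu : u ≠ 0) :
    ∃ g : S3, g ≠ 1 ∧ g • χ = χ := by
  classical
  by_contra hne
  push Not at hne
  have h1 := stab_sum τ σ hS hστ hσ0 h
  have h2 : Finset.univ.filter (fun g : S3 => g • χ = χ) = {1} := by
    ext g
    simp only [Finset.mem_filter, Finset.mem_univ, true_and, Finset.mem_singleton]
    constructor
    · intro hg
      by_contra hg1
      exact hne g hg1 hg
    · rintro rfl
      exact one_smul _ _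
  rw [h2, Finset.sum_singleton, map_one, Module.End.one_apply] at h1
  exact hu h1

theorem prod_smul_chars (hfixS : ∀ s : S, (∀ g : S3, g • s = s) → s = 1) (μ : S →* Kˣ) :
    ∏ g : S3, g • μ = 1 := by
  ext s
  have h1 : (∏ g : S3, g • μ) s = μ (∏ g : S3, g⁻¹ • s) := by
    rw [map_prod, MonoidHom.finset_prod_apply]
    rfl
  have h2 : ∏ g : S3, g⁻¹ • s = ∏ g : S3, g • s :=
    Fintype.prod_equiv (Equiv.inv S3) _ _ (fun g => rfl)
  have h3 : ∏ g : S3, g • s = 1 := by
    apply hfixS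
    intro h
    rw [Finset.smul_prod']
    exact Fintype.prod_equiv (Equiv.mulLeft h) _ _ (fun g => (mul_smul h g s).symm)
  rw [h1, h2, h3, map_one]
  simp

theorem chars_pow_eq_one {m : ℕ} (hm : (Fintype.card S).Coprime m) (μ : S →* Kˣ) (h : μ ^ m = 1) :
    μ = 1 := by
  ext s
  have h1 : (μ s) ^ m = 1 := by
    have := congrArg (fun f : S →* Kˣ => f s) h
    simpa using this
  have h2 : (μ s) ^ Fintype.card S = 1 := by
    rw [← map_pow, pow_card_eq_one, map_one]
  have h3 := pow_gcd_eq_one.2 ⟨h2, h1⟩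
  rw [hm, pow_one] at h3
  simp [h3]

end S3eig

/-- **Lemma II**: a commutative group `S` on which `S3` acts with no fixed points,
   normalized by `X`, is acted upon trivially by `X`. -/
theorem lemII {X S K U : Type*} [Group X] [Finite X] [CommGroup S] [Fintype S] [Field K]
    [IsAlgClosed K] [AddCommGroup U] [Module K U]
    [MulDistribMulAction S3 X] [MulDistribMulAction S3 S] [MulDistribMulAction X S]
    (hact : ∀ (g : S3) (x : X) (s : S), g • (x • s) = (g • x) • (g • s))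
    (hX : (Nat.card X).Coprime 6) (hfixX : ∀ x : X, (∀ g : S3, g • x = x) → x = 1)
    (hS6 : (Fintype.card S).Coprime 6) (hfixS : ∀ s : S, (∀ g : S3, g • s = s) → s = 1)
    (hS : (Fintype.card S : K) ≠ 0)
    (τ : S →* Module.End K U) (ρ : X →* Module.End K U) (σ : S3 →* Module.End K U)
    (hρτ : ∀ x s, ρ x * τ s = τ (x • s) * ρ x)
    (hστ : ∀ g s, σ g * τ s = τ (g • s) * σ g)
    (hσ0 : ∀ u, ∑ g : S3, σ g u = 0) (x : X) (s : S) : τ (x • s) = τ s := by
  classical
  letI i1 : MulDistribMulAction S3 (S →* Kˣ) := dualAct S3 S Kˣ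
  letI i2 : MulDistribMulAction X (S →* Kˣ) := dualAct X S Kˣ
  have hcompat : ∀ (g : S3) (y : X) (μ : S →* Kˣ), g • (y • μ) = (g • y) • (g • μ) := by
    intro g y μ
    ext t
    show ((μ (y⁻¹ • g⁻¹ • t) : Kˣ) : K) = μ (g⁻¹ • ((g • y)⁻¹ • t))
    congr 2
    rw [hact, smul_inv', inv_smul_smul]
  have hnorm : ∀ μ : S →* Kˣ, ∏ g : S3, g • μ = 1 := fun μ => prod_smul_chars hfixS μ
  have h2 : ∀ μ : S →* Kˣ, μ ^ 2 = 1 → μ = 1 :=
    chars_pow_eq_one (Nat.Coprime.coprime_dvd_right (by decide) hS6)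
  have h3 : ∀ μ : S →* Kˣ, μ ^ 3 = 1 → μ = 1 :=
    chars_pow_eq_one (Nat.Coprime.coprime_dvd_right (by decide) hS6)
  let Λ : Set (S →* Kˣ) := {χ | ∃ u : U, u ≠ 0 ∧ IsEig τ χ u}
  have hρinv : ∀ (y : X) (u : U), ρ y u = 0 → u = 0 := fun y u hu => by
    have : (ρ y⁻¹ * ρ y) u = u := by rw [← map_mul, inv_mul_cancel, map_one]; rfl
    rw [Module.End.mul_apply, hu, map_zero] at this
    exact this.symm
  have hΛX : ∀ (y : X), ∀ μ ∈ Λ, y • μ ∈ Λ := by
    rintro y μ ⟨u, hu, hμ⟩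
    refine ⟨ρ y u, fun h => hu (hρinv y u h), ?_⟩
    refine isEig_map τ hμ (ρ y) (MulDistribMulAction.toMonoidHom S y⁻¹) (fun t => ?_)
    rw [hρτ]
    simp
  have hΛ : ∀ μ ∈ Λ, μ ≠ 1 → ∃ g : S3, g ≠ 1 ∧ g • μ = μ := by
    rintro μ ⟨u, hu, hμ⟩ _
    exact exists_stab τ σ hS hστ hσ0 hμ hu
  refine eq_of_eig τ hS _ _ (fun χ u hu hu0 => ?_)
  have hfix := orbit_fixed hcompat hX hfixX hnorm h2 h3 Λ hΛX hΛ χ ⟨u, hu0, hu⟩ x⁻¹
  rw [hu (x • s), hu s]
  congr 2
  have : (x⁻¹ • χ) s = χ s := by rw [hfix]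
  rw [← this]
  show χ _ = χ _
  rw [inv_inv]
  rfl

end Cfsg.Agent.Lib.S3Rep
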