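import Mathlib
import Cfsg.Agent.Lib.S3Rep

/-!
# Eigenvectors for a finite group acting through commuting operators (no commutativity of the
group needed).
-/

set_option autoImplicit false

namespace Cfsg.Agent.Lib.PQRep

open Module

section

variable {S K M : Type*} [Group S] [Fintype S] [Field K] [AddCommGroup M] [Module K M]

/-- `u` is an eigenvector with character `χ`. -/
def Eig (τ : S →* End K M) (χ : S →* Kˣ) (u : M) : Prop :=
  ∀ s, τ s u = ((χ s : Kˣ) : K) • u

/-- The eigen-idempotent attached to a character. -/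
noncomputable def prj (τ : S →* End K M) (χ : S →* Kˣ) : End K M :=
  (Fintype.card S : K)⁻¹ • ∑ s : S, (((χ s)⁻¹ : Kˣ) : K) • τ s

theorem prj_apply (τ : S →* End K M) (χ : S →* Kˣ) (u : M) :
    prj τ χ u = (Fintype.card S : K)⁻¹ • ∑ s : S, (((χ s)⁻¹ : Kˣ) : K) • τ s u := by
  simp [prj, LinearMap.sum_apply]

theorem prj_of_eig (τ : S →* End K M) {χ : S →* Kˣ} {u : M} (hS : (Fintype.card S : K) ≠ 0)
    (h : Eig τ χ u) : prj τ χ u = u := by
  rw [prj_apply]
  have : ∀ s : S, (((χ s)⁻¹ : Kˣ) : K) • τ s u = u := fun s => by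
    rw [h s, smul_smul, ← Units.val_mul, inv_mul_cancel, Units.val_one, one_smul]
  simp only [this, Finset.sum_const, Finset.card_univ]
  rw [← Nat.cast_smul_eq_nsmul K, smul_smul, inv_mul_cancel₀ hS, one_smul]

theorem prj_of_eig_ne (τ : S →* End K M) {χ ν : S →* Kˣ} {u : M} (h : Eig τ ν u)
    (hne : ν ≠ χ) : prj τ χ u = 0 := by
  classical
  rw [prj_apply]
  have : ∀ s : S, (((χ s)⁻¹ : Kˣ) : K) • τ s u =
      ((Units.coeHom K).comp (ν * χ⁻¹) s) • u := fun s => by
    rw [h s, smul_smul]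
    congr 1
    simp [mul_comm]
  simp only [this]
  rw [← Finset.sum_smul]
  have h0 : ∑ s : S, ((Units.coeHom K).comp (ν * χ⁻¹) s) = 0 := by
    refine sum_hom_units_eq_zero _ ?_
    intro h1
    apply hne
    ext s
    have h2 := congrArg (fun f : S →* K => f s) h1
    simp only [MonoidHom.comp_apply, MonoidHom.mul_apply, MonoidHom.one_apply, Units.coeHom_apply,
      MonoidHom.inv_apply, Units.val_mul] at h2
    have h3 : ((ν s : Kˣ) : K) * (((χ s)⁻¹ : Kˣ) : K) = 1 := h2
    rw [Units.val_inv_eq_inv_val] at h3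
    have h4 : ((χ s : Kˣ) : K) ≠ 0 := Units.ne_zero _
    field_simp at h3
    exact h3
  rw [h0, zero_smul, smul_zero]

theorem eig_prj (τ : S →* End K M) (χ : S →* Kˣ) (u : M) : Eig τ χ (prj τ χ u) := by
  intro t
  rw [prj_apply, map_smul, map_sum, smul_comm]
  congr 1
  rw [Finset.smul_sum]
  refine Fintype.sum_equiv (Equiv.mulLeft t) _ _ (fun s => ?_)
  simp only [Equiv.coe_mulLeft, map_mul, mul_inv, Units.val_mul, map_smul, Module.End.mul_apply]
  rw [smul_smul]
  congr 1
  have h1 : ((χ t : Kˣ) : K) * (((χ t)⁻¹ : Kˣ) : K) = 1 := by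
    rw [← Units.val_mul, mul_inv_cancel, Units.val_one]
  calc (((χ s)⁻¹ : Kˣ) : K) = (((χ s)⁻¹ : Kˣ) : K) * 1 := by rw [mul_one]
    _ = _ := by rw [← h1]; ring

end

section comm

variable {S K M : Type*} [Group S] [Finite S] [Field K] [IsAlgClosed K] [AddCommGroup M]
  [Module K M] [Nontrivial M]

/-- A finite group of invertible order acting through commuting operators has an eigenvector. -/
theorem exists_eig (τ : S →* End K M) (hS : (Nat.card S : K) ≠ 0)
    (hcomm : ∀ s s', τ s * τ s' = τ s' * τ s) : ∃ (θ : S →* Kˣ) (u : M), u ≠ 0 ∧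
      (letI := Fintype.ofFinite S; Eig τ θ u) := by
  classical
  letI := Fintype.ofFinite S
  have hle : commutator S ≤ τ.ker := by
    rw [commutator_def, Subgroup.commutator_le]
    intro a _ b _
    show τ (a * b * a⁻¹ * b⁻¹) = 1
    have hab : ∀ x : S, τ x * τ x⁻¹ = 1 := fun x => by
      rw [← map_mul, mul_inv_cancel, map_one]
    rw [map_mul, map_mul, map_mul, hcomm a b, mul_assoc (τ b), hab, mul_one, hab]
  let τ' : Abelianization S →* End K M := QuotientGroup.lift (commutator S) τ hle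
  have hτ' : ∀ s : S, τ' (Abelianization.of s) = τ s := fun s => rfl
  letI : Fintype (Abelianization S) := Fintype.ofFinite _
  have hS' : (Fintype.card (Abelianization S) : K) ≠ 0 := by
    intro h0
    apply hS
    have hd : Nat.card (Abelianization S) ∣ Nat.card S := Subgroup.card_quotient_dvd_card _
    rw [Nat.card_eq_fintype_card (α := Abelianization S)] at hd
    obtain ⟨d, hd⟩ := hd
    rw [hd, Nat.cast_mul, h0, zero_mul]
  haveI := S3Rep.finite_chars (K := K) hS'
  letI := Fintype.ofFinite (Abelianization S →* Kˣ)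
  obtain ⟨u₀, hu₀⟩ := exists_ne (0 : M)
  have hsum := S3Rep.sum_proj τ' hS' u₀
  obtain ⟨χ, hχ⟩ : ∃ χ : Abelianization S →* Kˣ, S3Rep.proj τ' χ u₀ ≠ 0 := by
    by_contra! h0
    rw [Finset.sum_eq_zero (fun χ _ => h0 χ)] at hsum
    exact hu₀ hsum.symm
  refine ⟨χ.comp Abelianization.of, _, hχ, fun s => ?_⟩
  have := S3Rep.eig_proj τ' χ u₀ (Abelianization.of s)
  rw [hτ'] at this
  exact this

end comm

section orbit

variable {S K M : Type*} [Group S] [Fintype S] [Field K] [AddCommGroup M] [Module K M]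

/-- If an operator normalizing a group sends an eigenvector to a vector of another eigenspace, then
a zero norm forces the eigenvector to vanish: the character is fixed. -/
theorem fixed_of_sum (τ : S →* End K M) (hS : (Fintype.card S : K) ≠ 0) {ℓ : ℕ} (hℓ : ℓ.Prime)
    (c : End K M) (φ : S ≃* S) (hφ : ∀ x, (⇑φ)^[ℓ] x = x) (hcτ : ∀ s, c * τ s = τ (φ s) * c)
    {θ : S →* Kˣ} {u : M} (hu : u ≠ 0) (hθ : Eig τ θ u)
    (hsum : ∑ i ∈ Finset.range ℓ, (c ^ i) u = 0) (s : S) : θ (φ s) = θ s := by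
  classical
  by_contra hne
  -- the action on characters
  let T : (S →* Kˣ) → (S →* Kˣ) := fun χ => χ.comp (φ.symm : S →* S)
  have hT : ∀ (k : ℕ) (χ : S →* Kˣ) (x : S), (T^[k] χ) x = χ ((⇑φ.symm)^[k] x) := by
    intro k
    induction k with
    | zero => intro χ x; rfl
    | succ k ih =>
      intro χ x
      rw [Function.iterate_succ_apply', Function.iterate_succ_apply]
      show (T^[k] χ) (φ.symm x) = _
      rw [ih]
  have hψ : ∀ x, (⇑φ.symm)^[ℓ] x = x := by
    intro x
    have h1 : (⇑φ)^[ℓ] ((⇑φ.symm)^[ℓ] x) = x :=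
      Function.LeftInverse.iterate (g := ⇑φ) (f := ⇑φ.symm) (fun y => φ.apply_symm_apply y) ℓ x
    have h2 := hφ ((⇑φ.symm)^[ℓ] x)
    rw [← h2, h1]
  have hTℓ : T^[ℓ] θ = θ := by
    ext x
    rw [hT, hψ]
  have hTθ : T θ ≠ θ := by
    intro h
    apply hne
    have h1 := congrArg (fun f : S →* Kˣ => f (φ s)) h
    have h2 : (T θ) (φ s) = θ s := by
      show θ (φ.symm (φ s)) = θ s
      rw [φ.symm_apply_apply]
    rw [h2] at h1
    exact h1.symm
  have hTinv : ∀ (k : ℕ), k < ℓ → 0 < k → T^[k] θ ≠ θ := by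
    intro k hk hk0 h
    have h1 : Function.IsPeriodicPt T k θ := h
    have h2 : Function.IsPeriodicPt T ℓ θ := hTℓ
    have h3 := h1.gcd h2
    have h4 : Nat.gcd k ℓ = 1 := by
      have h5 : ¬ ℓ ∣ k := fun hd => absurd (Nat.le_of_dvd hk0 hd) (by omega)
      exact Nat.Coprime.symm ((Nat.Prime.coprime_iff_not_dvd hℓ).2 h5)
    rw [h4] at h3
    exact hTθ h3
  have heig : ∀ i, Eig τ (T^[i] θ) ((c ^ i) u) := by
    intro i
    induction i with
    | zero =>
      simpa using hθ
    | succ i ih =>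
      intro x
      have h1 : τ x * c = c * τ (φ.symm x) := by
        have h2 := hcτ (φ.symm x)
        rw [φ.apply_symm_apply] at h2
        exact h2.symm
      rw [pow_succ', Module.End.mul_apply]
      have h5 := congrArg (fun f : End K M => f ((c ^ i) u)) h1
      simp only [Module.End.mul_apply] at h5
      rw [h5, ih, map_smul, Function.iterate_succ_apply']
      rfl
  have h0 := congrArg (prj τ θ) hsum
  rw [map_sum, map_zero, Finset.sum_eq_single 0] at h0
  · apply hu
    rw [← h0]
    simp only [pow_zero, Module.End.one_apply]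
    exact (prj_of_eig τ hS hθ).symm
  · intro i hi hi0
    exact prj_of_eig_ne τ (heig i) (hTinv i (Finset.mem_range.1 hi) (Nat.pos_of_ne_zero hi0))
  · intro h
    exact absurd (Finset.mem_range.2 hℓ.pos) h

end orbit

end Cfsg.Agent.Lib.PQRep
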