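import Mathlib
import Cfsg.Agent.Lib.S3Rep

/-!
# A linear-algebra lemma on an automorphism of order three without fixed points on a module.
-/

set_option autoImplicit false
set_option maxRecDepth 4000

namespace Cfsg.Agent.Lib.S3Alg

open Cfsg.Agent.Lib.S3Fpf Cfsg.Agent.Lib.S3Rep

section ring

variable {R : Type*} [Ring R]

theorem cube_of {a : R} (ha : 1 + a + a * a = 0) : a * a * a = 1 := by
  linear_combination (norm := noncomm_ring) (a - 1) * ha

theorem key_rel {X Y W a : R} (haX : a * X = Y * a) (haY : a * Y = W * a)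
    (ha : 1 + a + a * a = 0) : X * a = a * X + Y - W := by
  have hcube : a * a * a = 1 := by
    linear_combination (norm := noncomm_ring) (a - 1) * ha
  have haa : a * a = -1 - a := by
    linear_combination (norm := noncomm_ring) ha
  have hY : Y = a * X * (a * a) := by
    calc Y = Y * (a * a * a) := by rw [hcube, mul_one]
      _ = (Y * a) * (a * a) := by noncomm_ring
      _ = a * X * (a * a) := by rw [haX]
  have hW : W = a * a * X * a := by
    calc W = W * (a * a * a) := by rw [hcube, mul_one]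
      _ = (W * a) * (a * a) := by noncomm_ring
      _ = a * (Y * a * a) := by rw [← haY]; noncomm_ring
      _ = a * (a * X * (a * a * a) * a) := by rw [hY]; noncomm_ring
      _ = a * a * X * a := by rw [hcube]; noncomm_ring
  rw [hY, hW, haa]
  noncomm_ring

/-- **Lemma A**. -/
theorem lemmaA {X Y W C a Xi Zi Ci : R} (hCX : C * X = X * C) (hCY : C * Y = Y * C)
    (hXY : X * Y = C * Y * X) (hWX : W * X = C * X * W)
    (haX : a * X = Y * a) (haY : a * Y = W * a) (ha : 1 + a + a * a = 0)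
    (hXi : X * Xi = 1) (hZi : Y * Y * X * Zi = 1) (hCi : Ci * C = 1) :
    (C * C * C - 1) * (C * C - 1) = 0 := by
  have hkey := key_rel haX haY ha
  -- the monomials
  have m1 : X * Y * X = C * (Y * X * X) := by
    linear_combination (norm := noncomm_ring) hXY * X
  have m2 : X * W * X = C * (X * X * W) := by
    linear_combination (norm := noncomm_ring) X * hWX - hCX * X * W
  have m3 : X * Y * Y = C * C * (Y * Y * X) := by
    linear_combination (norm := noncomm_ring) hXY * Y + C * Y * hXY - C * hCY * Y * X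
  have m4 : X * Y * W = C * (Y * X * W) := by
    linear_combination (norm := noncomm_ring) hXY * W
  have m5 : W * X * X = C * C * (X * X * W) := by
    linear_combination (norm := noncomm_ring) hWX * X + C * X * hWX - C * hCX * X * W
  have m6 : Y * W * X = C * (Y * X * W) := by
    linear_combination (norm := noncomm_ring) Y * hWX - hCY * X * W
  -- first consequence
  have E1 : (C - 1) * (a * X * X) = Y * X - W * X - C * Y * Y + C * Y * W := by
    linear_combination (norm := noncomm_ring)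
      C * haX * X - C * Y * hkey - hXY * a - X * haX + hkey * X
  -- second consequence
  have E2 : X * (Y * X - W * X - C * Y * Y + C * Y * W) =
      (Y * X - W * X - C * Y * Y + C * Y * W) * X + (C - 1) * (Y - W) * X * X := by
    linear_combination (norm := noncomm_ring)
      (C - 1) * hkey * X * X - hCX * a * X * X - X * E1 + E1 * X
  have E3 : (C * C * C - C) * (X * X * W) = (C * C * C - C) * (Y * Y * X) := by
    have l1 : X * (Y * X - W * X - C * Y * Y + C * Y * W) =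
        C * (Y * X * X) - C * (X * X * W) - C * C * C * (Y * Y * X) + C * C * (Y * X * W) := by
      linear_combination (norm := noncomm_ring) m1 - m2 - hCX.symm * Y * Y - C * m3
        + hCX.symm * Y * W + C * m4
    have l2 : (Y * X - W * X - C * Y * Y + C * Y * W) * X =
        (Y * X * X) - C * C * (X * X * W) - C * (Y * Y * X) + C * C * (Y * X * W) := by
      linear_combination (norm := noncomm_ring) -m5 + C * m6
    have l3 : (C - 1) * (Y - W) * X * X =
        (C - 1) * (Y * X * X) - (C - 1) * (C * C) * (X * X * W) := by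
      linear_combination (norm := noncomm_ring) -(C - 1) * m5
    rw [l1, l2, l3] at E2
    linear_combination (norm := noncomm_ring) E2
  set D := C * C * C - C with hD
  have hDX : D * X = X * D := by
    rw [hD]
    linear_combination (norm := noncomm_ring) C * C * hCX + C * hCX * C + hCX * C * C - hCX
  have hDC : D * C = C * D := by
    rw [hD]
    noncomm_ring
  -- cancelling `X`
  have h1 : D * (X * W) * X = (C * D * (Y * Y)) * X := by
    calc D * (X * W) * X = D * (X * W * X) := by noncomm_ring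
      _ = D * (C * (X * X * W)) := by rw [m2]
      _ = C * (D * (X * X * W)) := by rw [← mul_assoc, hDC, mul_assoc]
      _ = C * (D * (Y * Y * X)) := by rw [E3]
      _ = (C * D * (Y * Y)) * X := by noncomm_ring
  have h2 : D * (X * W) = C * D * (Y * Y) := by
    calc D * (X * W) = D * (X * W) * (X * Xi) := by rw [hXi, mul_one]
      _ = (D * (X * W) * X) * Xi := by noncomm_ring
      _ = (C * D * (Y * Y) * X) * Xi := by rw [h1]
      _ = C * D * (Y * Y) * (X * Xi) := by noncomm_ring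
      _ = C * D * (Y * Y) := by rw [hXi, mul_one]
  have h3 : D * (Y * Y * X) = C * C * C * D * (Y * Y * X) := by
    calc D * (Y * Y * X) = D * (X * X * W) := by rw [E3]
      _ = (D * X) * (X * W) := by noncomm_ring
      _ = X * (D * (X * W)) := by rw [hDX]; noncomm_ring
      _ = X * (C * D * (Y * Y)) := by rw [h2]
      _ = (X * C) * D * (Y * Y) := by noncomm_ring
      _ = C * (X * D) * (Y * Y) := by rw [← hCX, mul_assoc C X D]
      _ = C * (D * X) * (Y * Y) := by rw [hDX]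
      _ = C * D * (X * Y * Y) := by noncomm_ring
      _ = C * D * (C * C * (Y * Y * X)) := by rw [m3]
      _ = C * (D * (C * C)) * (Y * Y * X) := by noncomm_ring
      _ = C * (C * C * D) * (Y * Y * X) := by
        rw [← mul_assoc D C C, hDC, mul_assoc C D C, hDC, ← mul_assoc C C D]
      _ = C * C * C * D * (Y * Y * X) := by noncomm_ring
  have h4 : (C * C * C - 1) * D = 0 := by
    have h5 : (C * C * C - 1) * D * (Y * Y * X) = 0 := by
      linear_combination (norm := noncomm_ring) -h3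
    calc (C * C * C - 1) * D = (C * C * C - 1) * D * (Y * Y * X * Zi) := by rw [hZi, mul_one]
      _ = ((C * C * C - 1) * D * (Y * Y * X)) * Zi := by noncomm_ring
      _ = 0 := by rw [h5, zero_mul]
  have h6 : D = C * (C * C - 1) := by
    rw [hD]; noncomm_ring
  have h7 : (C * C * C - 1) * C = C * (C * C * C - 1) := by noncomm_ring
  rw [h6, ← mul_assoc, h7, mul_assoc] at h4
  calc (C * C * C - 1) * (C * C - 1) = (Ci * C) * ((C * C * C - 1) * (C * C - 1)) := by
        rw [hCi, one_mul]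
    _ = Ci * (C * ((C * C * C - 1) * (C * C - 1))) := by noncomm_ring
    _ = 0 := by rw [h4, mul_zero]

/-- A power-one element with `(C³-1)(C²-1)=0` and `n` invertible is trivial. -/
theorem eq_one_of_quad {K : Type*} [Field K] [Algebra K R] {C : R} {n : ℕ} (hn : C ^ n = 1)
    (hn6 : n.Coprime 6) (hnK : (n : K) ≠ 0)
    (h : (C * C * C - 1) * (C * C - 1) = 0) : C = 1 := by
  have hpow : ∀ m a : ℕ, (a * m) % n = 1 % n → C ^ (a * m) = C ^ (1 % n) := by
    intro m a ha
    rw [pow_eq_pow_mod _ hn, ha]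
  by_cases hn1 : n = 1
  · rw [hn1, pow_one] at hn
    exact hn
  have hn0 : n ≠ 0 := by
    rintro rfl
    simp at hnK
  have hn2 : 1 < n := by omega
  have hc2 : n.Coprime 2 := Nat.Coprime.coprime_dvd_right (by decide) hn6
  have hc3 : n.Coprime 3 := Nat.Coprime.coprime_dvd_right (by decide) hn6
  obtain ⟨k, hk⟩ := Nat.exists_mul_mod_eq_one_of_coprime hc2.symm hn2
  obtain ⟨j, hj⟩ := Nat.exists_mul_mod_eq_one_of_coprime hc3.symm hn2
  have hC2 : (C * C) ^ k = C := by
    rw [← pow_two, ← pow_mul, pow_eq_pow_mod _ hn, hk.2, pow_one]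
  have hC3 : (C * C * C) ^ j = C := by
    rw [show C * C * C = C ^ 3 by noncomm_ring, ← pow_mul, pow_eq_pow_mod _ hn, hj.2, pow_one]
  have hN : (C - 1) * (C - 1) = 0 := by
    have e1 : C - 1 = (C * C * C - 1) * ∑ i ∈ Finset.range j, (C * C * C) ^ i := by
      rw [mul_geom_sum, hC3]
    have e2 : C - 1 = (∑ i ∈ Finset.range k, (C * C) ^ i) * (C * C - 1) := by
      rw [geom_sum_mul, hC2]
    have e3 : (C * C - 1) * (C * C * C - 1) = 0 := by
      rw [← h]
      noncomm_ring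
    calc (C - 1) * (C - 1) = ((∑ i ∈ Finset.range k, (C * C) ^ i) * (C * C - 1)) *
          ((C * C * C - 1) * ∑ i ∈ Finset.range j, (C * C * C) ^ i) := by rw [← e1, ← e2]
      _ = (∑ i ∈ Finset.range k, (C * C) ^ i) * ((C * C - 1) * (C * C * C - 1)) *
          ∑ i ∈ Finset.range j, (C * C * C) ^ i := by simp only [mul_assoc]
      _ = 0 := by rw [e3, mul_zero, zero_mul]
  have hpow2 : ∀ m : ℕ, C ^ m = 1 + (m : K) • (C - 1) := by
    intro m
    induction m with
    | zero => simp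
    | succ m ih =>
      rw [pow_succ, ih, add_mul, one_mul, smul_mul_assoc]
      have : (C - 1) * C = C - 1 := by
        linear_combination (norm := noncomm_ring) hN
      rw [this, Nat.cast_succ, add_smul, one_smul]
      abel
  have h1 := hpow2 n
  rw [hn] at h1
  have h2 : (n : K) • (C - 1) = 0 := by
    have := add_eq_left.1 h1.symm
    exact this
  have h3 := (smul_eq_zero.1 h2).resolve_left hnK
  exact sub_eq_zero.1 h3

end ring

section lift3

theorem lift_phi {P : Type*} [Group P] [Finite P] (φ : P →* P) (hφ : ∀ x, φ (φ (φ x)) = x)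
    (N : Subgroup P) (hN : ∀ n ∈ N, φ n ∈ N) (h3 : ¬ 3 ∣ Nat.card N) (y : P)
    (hy : y⁻¹ * φ y ∈ N) : ∃ z, y⁻¹ * z ∈ N ∧ φ z = z := by
  have : Fact (Nat.Prime 3) := ⟨by decide⟩
  have hf : ∀ n : N, y⁻¹ * φ (y * (n : P)) ∈ N := fun n => by
    have : y⁻¹ * φ (y * (n : P)) = (y⁻¹ * φ y) * φ (n : P) := by
      rw [map_mul, mul_assoc]
    rw [this]
    exact N.mul_mem hy (hN _ n.2)
  let f : Function.End N := fun n => ⟨_, hf n⟩
  have hf2 : ∀ n : N, ((f n : N) : P) = y⁻¹ * φ (y * (n : P)) := fun _ => rfl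
  have hf3 : f ^ 3 = 1 := by
    funext n
    apply Subtype.ext
    have h3 : (f (f (f n)) : P) = (n : P) := by
      rw [hf2, hf2, hf2]
      simp only [mul_inv_cancel_left]
      rw [hφ, inv_mul_cancel_left]
    exact h3
  obtain ⟨n₀, hn₀⟩ := exists_fixed_of_pow 3 f hf3 h3
  have hn₀' : y⁻¹ * φ (y * (n₀ : P)) = n₀ := congrArg Subtype.val hn₀
  refine ⟨y * n₀, by simpa using n₀.2, ?_⟩
  calc φ (y * (n₀ : P)) = y * (y⁻¹ * φ (y * (n₀ : P))) := by group
    _ = y * n₀ := by rw [hn₀']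

end lift3

section acase

variable {P K M : Type*} [Group P] [Finite P] [Field K] [IsAlgClosed K] [AddCommGroup M]
  [Module K M]

/-- An abelian invariant subgroup is centralized. -/
theorem fixed_of_comm (φ : P →* P) (hφ : ∀ x, φ (φ (φ x)) = x) (ρ : P →* Module.End K M)
    (hρ : Function.Injective ρ) (α : Module.End K M) (hαρ : ∀ x, α * ρ x = ρ (φ x) * α)
    (hα : 1 + α + α * α = 0) (T : Subgroup P) (hT : ∀ u ∈ T, φ u ∈ T)
    (hcomm : ∀ a ∈ T, ∀ b ∈ T, a * b = b * a) (hTK : (Nat.card T : K) ≠ 0) (u : P) (hu : u ∈ T) :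
    φ u = u := by
  classical
  letI cg : CommGroup T :=
    { (inferInstance : Group T) with mul_comm := fun a b => Subtype.ext (hcomm a a.2 b b.2) }
  letI ft : Fintype T := Fintype.ofFinite T
  have hTK' : (Fintype.card T : K) ≠ 0 := by rwa [← Nat.card_eq_fintype_card]
  let τ : T →* Module.End K M := ρ.comp T.subtype
  let ψ : T →* T := (φ.comp T.subtype).codRestrict T (fun x => hT x x.2)
  have hψ : ∀ s : T, ((ψ s : T) : P) = φ s := fun _ => rfl
  let ψ2 : T →* T := ψ.comp ψ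
  have hψ2 : ∀ s : T, ((ψ2 s : T) : P) = φ (φ s) := fun _ => rfl
  have hαψ : ∀ s : T, α * τ (ψ2 s) = τ s * α := by
    intro s
    show α * ρ (φ (φ s)) = ρ s * α
    rw [hαρ, hφ]
  have hψ4 : ψ2.comp ψ2 = ψ := by
    ext s
    show φ (φ (φ (φ s))) = φ s
    rw [hφ]
  have heig : ∀ (χ : T →* Kˣ) (v : M), IsEig τ χ v → v ≠ 0 → χ.comp ψ = χ := by
    intro χ v hv hv0
    by_contra hne
    have h1 := isEig_map τ hv α ψ2 hαψ
    have h2 := isEig_map τ h1 α ψ2 hαψ
    have e2 : (χ.comp ψ2).comp ψ2 = χ.comp ψ := by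
      rw [MonoidHom.comp_assoc, hψ4]
    rw [e2] at h2
    have hne2 : χ.comp ψ2 ≠ χ := by
      intro h
      apply hne
      rw [← e2, h, h]
    have h0 : v + α v + α (α v) = 0 := by
      have := congrArg (fun f : Module.End K M => f v) hα
      simpa using this
    exact hv0 (proj_add_eig τ χ _ _ hTK' hv h1 h2 hne2 hne h0)
  have hall : ∀ s : T, τ (ψ s) = τ s := by
    intro s
    refine eq_of_eig τ hTK' _ _ (fun χ v hv hv0 => ?_)
    rw [hv (ψ s), hv s]
    have := heig χ v hv hv0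
    have h2 : χ (ψ s) = χ s := by
      conv_rhs => rw [← this]
      rfl
    rw [h2]
  have h3 := hall ⟨u, hu⟩
  exact hρ h3

open scoped commutatorElement in
theorem comm_mul_left {G : Type*} [Group G] {x y z : G} (h : ⁅y, z⁆ ∈ Subgroup.center G) :
    ⁅x * y, z⁆ = ⁅x, z⁆ * ⁅y, z⁆ := by
  have hd := Subgroup.mem_center_iff.1 h
  calc ⁅x * y, z⁆ = (x * ⁅y, z⁆) * (z * x⁻¹ * z⁻¹) := by
        simp only [commutatorElement_def]; group
    _ = (⁅y, z⁆ * x) * (z * x⁻¹ * z⁻¹) := by rw [hd]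
    _ = ⁅y, z⁆ * ⁅x, z⁆ := by simp only [commutatorElement_def]; group
    _ = ⁅x, z⁆ * ⁅y, z⁆ := by rw [hd]

open scoped commutatorElement in
theorem comm_mul_right {G : Type*} [Group G] {x y z : G} (h : ⁅x, z⁆ ∈ Subgroup.center G) :
    ⁅x, y * z⁆ = ⁅x, y⁆ * ⁅x, z⁆ := by
  have hd := Subgroup.mem_center_iff.1 h
  calc ⁅x, y * z⁆ = (x * y * x⁻¹) * ⁅x, z⁆ * y⁻¹ := by
        simp only [commutatorElement_def]; group
    _ = ⁅x, z⁆ * (x * y * x⁻¹) * y⁻¹ := by rw [hd]
    _ = ⁅x, z⁆ * ⁅x, y⁆ := by simp only [commutatorElement_def]; group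
    _ = ⁅x, y⁆ * ⁅x, z⁆ := by rw [hd]

open scoped commutatorElement in
/-- **The faithful case.** -/
theorem acase_faithful [Group.IsNilpotent P] (hP6 : (Nat.card P).Coprime 6)
    (hPK : (Nat.card P : K) ≠ 0) (φ : P →* P) (hφ : ∀ x, φ (φ (φ x)) = x)
    (hC : ∀ x y, φ x = x → φ y = y → x * y = y * x) (ρ : P →* Module.End K M)
    (hρ : Function.Injective ρ) (α : Module.End K M) (hαρ : ∀ x, α * ρ x = ρ (φ x) * α)
    (hα : 1 + α + α * α = 0) (x y : P) : x * y = y * x := by
  classical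
  have hcard : ∀ T : Subgroup P, (Nat.card T : K) ≠ 0 := by
    intro T h
    apply hPK
    obtain ⟨d, hd⟩ := Subgroup.card_subgroup_dvd_card T
    rw [hd, Nat.cast_mul, h, zero_mul]
  have h3 : ∀ T : Subgroup P, ¬ 3 ∣ Nat.card T := fun T => not_dvd_of_le hP6 3 (Or.inr rfl) T
  let Z := Subgroup.center P
  have hZφ : ∀ z ∈ Z, φ z ∈ Z := by
    intro z hz
    rw [Subgroup.mem_center_iff] at hz ⊢
    intro g
    have := hz (φ (φ g))
    have h2 := congrArg φ this
    rw [map_mul, map_mul, hφ] at h2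
    exact h2
  have hZfix : ∀ z ∈ Z, φ z = z := fun z hz =>
    fixed_of_comm φ hφ ρ hρ α hαρ hα Z hZφ
      (fun a _ b hb => Subgroup.mem_center_iff.1 hb a) (hcard Z) z hz
  let Y := Subgroup.upperCentralSeries P 2
  have memY : ∀ y, y ∈ Y ↔ ∀ x, ⁅y, x⁆ ∈ Z := by
    intro y
    have := Subgroup.mem_upperCentralSeries_succ_iff (G := P) (n := 1) (x := y)
    rw [Subgroup.upperCentralSeries_one] at this
    exact this
  have hYφ : ∀ y ∈ Y, φ y ∈ Y := by
    intro y hy
    rw [memY] at hy ⊢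
    intro x
    have h1 := hZφ _ (hy (φ (φ x)))
    rw [map_commutatorElement, hφ] at h1
    exact h1
  -- Claim A
  have hA : ∀ y ∈ Y, y * φ y = φ y * y := by
    intro y hy
    set c := ⁅y, φ y⁆ with hc
    have hcZ : c ∈ Z := (memY y).1 hy (φ y)
    have hc1 : φ c = c := hZfix c hcZ
    have e1 : y * φ y = c * φ y * y := by rw [hc, commutatorElement_def]; group
    have e2 : φ y * φ (φ y) = c * φ (φ y) * φ y := by
      have := congrArg φ e1
      rw [map_mul, map_mul, map_mul, hc1] at this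
      exact this
    have e3 : φ (φ y) * y = c * y * φ (φ y) := by
      have := congrArg φ e2
      rw [map_mul, map_mul, map_mul, hφ, hc1] at this
      exact this
    have hcen := Subgroup.mem_center_iff.1 hcZ
    have key : (ρ c * ρ c * ρ c - 1) * (ρ c * ρ c - 1) = 0 := by
      refine lemmaA (X := ρ y) (Y := ρ (φ y)) (W := ρ (φ (φ y))) (C := ρ c) (a := α)
        (Xi := ρ y⁻¹) (Zi := ρ (φ y * φ y * y)⁻¹) (Ci := ρ c⁻¹) ?_ ?_ ?_ ?_ ?_ ?_ hα ?_ ?_ ?_
      · rw [← map_mul, ← map_mul, hcen]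
      · rw [← map_mul, ← map_mul, hcen]
      · rw [← map_mul, ← map_mul, ← map_mul, e1]
      · rw [← map_mul, ← map_mul, ← map_mul, e3]
      · exact hαρ y
      · exact hαρ (φ y)
      · rw [← map_mul, mul_inv_cancel, map_one]
      · rw [← map_mul, ← map_mul, ← map_mul, mul_inv_cancel, map_one]
      · rw [← map_mul, inv_mul_cancel, map_one]
    have hCn : (ρ c) ^ (Nat.card P) = 1 := by
      rw [← map_pow, pow_card_eq_one', map_one]
    have hC1 : ρ c = 1 := eq_one_of_quad (K := K) hCn hP6 hPK key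
    have hc2 : c = 1 := hρ (by rw [hC1, map_one])
    rw [e1, hc2, one_mul]
  have hYcomm : ∀ a ∈ Y, ∀ b, ⁅a, b⁆ ∈ Subgroup.center P := fun a ha b => (memY a).1 ha b
  -- Claim B
  have hB1 : ∀ a ∈ Y, ∀ b ∈ Y, ⁅a, φ b⁆ * ⁅b, φ a⁆ = 1 := by
    intro a ha b hb
    have h1 := hA (a * b) (Y.mul_mem ha hb)
    have h2 : ⁅a * b, φ (a * b)⁆ = 1 := by
      rw [commutatorElement_eq_one_iff_mul_comm]
      exact h1
    rw [comm_mul_left (hYcomm b hb _), map_mul, comm_mul_right (hYcomm a ha _),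
      comm_mul_right (hYcomm b hb _)] at h2
    have h3 : ⁅a, φ a⁆ = 1 := by
      rw [commutatorElement_eq_one_iff_mul_comm]
      exact hA a ha
    have h4 : ⁅b, φ b⁆ = 1 := by
      rw [commutatorElement_eq_one_iff_mul_comm]
      exact hA b hb
    rw [h3, h4, one_mul, mul_one] at h2
    exact h2
  have hB2 : ∀ a ∈ Y, ∀ b, ⁅φ a, φ b⁆ = ⁅a, b⁆ := by
    intro a ha b
    rw [← map_commutatorElement]
    exact hZfix _ (hYcomm a ha b)
  have hB3 : ∀ a ∈ Y, ∀ b ∈ Y, ⁅a, φ b⁆ = ⁅φ a, b⁆ := by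
    intro a ha b hb
    have := hB1 a ha b hb
    rw [mul_eq_one_iff_eq_inv, commutatorElement_inv] at this
    exact this
  have hB4 : ∀ a ∈ Y, ∀ b ∈ Y, ⁅a, φ b⁆ = ⁅a, b⁆ := by
    intro a ha b hb
    have h1 := hB3 a ha (φ (φ b)) (hYφ _ (hYφ _ hb))
    rw [hφ] at h1
    rw [h1, hB2 a ha (φ b)]
  have hB5 : ∀ a ∈ Y, ∀ b ∈ Y, a * (b⁻¹ * φ b) = (b⁻¹ * φ b) * a := by
    intro a ha b hb
    have h := hB4 a ha b hb
    rw [commutatorElement_def, commutatorElement_def] at h
    have h1 : a * φ b * a⁻¹ = a * b * a⁻¹ * b⁻¹ * φ b := by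
      rw [← h]; group
    have h2 : a * (b⁻¹ * φ b) * a⁻¹ = (a * b * a⁻¹)⁻¹ * (a * φ b * a⁻¹) := by group
    have h3 : a * (b⁻¹ * φ b) * a⁻¹ = b⁻¹ * φ b := by
      rw [h2, h1]; group
    calc a * (b⁻¹ * φ b) = (a * (b⁻¹ * φ b) * a⁻¹) * a := by group
      _ = (b⁻¹ * φ b) * a := by rw [h3]
  -- Claim C
  let N : Subgroup P := Y ⊓ Subgroup.centralizer (Y : Set P)
  have hNφ : ∀ n ∈ N, φ n ∈ N := by
    rintro n ⟨hn1, hn2⟩
    refine ⟨hYφ n hn1, ?_⟩
    have hn2' : n ∈ Subgroup.centralizer (Y : Set P) := hn2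
    show φ n ∈ Subgroup.centralizer (Y : Set P)
    rw [Subgroup.mem_centralizer_iff] at hn2' ⊢
    intro h hh
    have := hn2' (φ (φ h)) (hYφ _ (hYφ _ hh))
    have h2 := congrArg φ this
    rw [map_mul, map_mul, hφ] at h2
    exact h2
  have hfixrep : ∀ b ∈ Y, ∃ z n, b = z * n⁻¹ ∧ z ∈ Y ∧ φ z = z ∧ n ∈ N := by
    intro b hb
    have hbN : b⁻¹ * φ b ∈ N := by
      refine ⟨Y.mul_mem (Y.inv_mem hb) (hYφ b hb), ?_⟩
      show _ ∈ Subgroup.centralizer (Y : Set P)
      rw [Subgroup.mem_centralizer_iff]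
      intro h hh
      exact hB5 h hh b hb
    obtain ⟨z, hz1, hz2⟩ := lift_phi φ hφ N hNφ (h3 N) b hbN
    refine ⟨z, b⁻¹ * z, by group, ?_, hz2, hz1⟩
    have := Y.mul_mem hb hz1.1
    simpa using this
  have hcen : ∀ n ∈ N, ∀ y ∈ Y, n * y = y * n := by
    rintro n ⟨_, hn2⟩ y hy
    have hn2' : n ∈ Subgroup.centralizer (Y : Set P) := hn2
    rw [Subgroup.mem_centralizer_iff] at hn2'
    exact (hn2' y hy).symm
  have hYab : ∀ a ∈ Y, ∀ b ∈ Y, a * b = b * a := by
    intro a ha b hb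
    obtain ⟨z₁, n₁, rfl, hz₁, hφ₁, hn₁⟩ := hfixrep a ha
    obtain ⟨z₂, n₂, rfl, hz₂, hφ₂, hn₂⟩ := hfixrep b hb
    have c1 : Commute z₁ z₂ := hC z₁ z₂ hφ₁ hφ₂
    have c2 : Commute z₁ n₂ := (hcen n₂ hn₂ z₁ hz₁).symm
    have c3 : Commute n₁ z₂ := hcen n₁ hn₁ z₂ hz₂
    have c4 : Commute n₁ n₂ := hcen n₁ hn₁ n₂ hn₂.1
    have : Commute (z₁ * n₁⁻¹) (z₂ * n₂⁻¹) :=
      Commute.mul_left (Commute.mul_right c1 c2.inv_right)
        (Commute.mul_right c3.inv_left c4.inv_left.inv_right)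
    exact this
  -- Claim D
  have hYfix : ∀ y ∈ Y, φ y = y := fun y hy =>
    fixed_of_comm φ hφ ρ hρ α hαρ hα Y hYφ hYab (hcard Y) y hy
  -- Claim E
  have hYZ : ∀ y ∈ Y, y ∈ Z := by
    intro y hy
    rw [Subgroup.mem_center_iff]
    intro x
    let H : Subgroup P := Subgroup.centralizer {y}
    have hH : ∀ h, h ∈ H ↔ y * h = h * y := by
      intro h
      simp only [H, Subgroup.mem_centralizer_iff, Set.mem_singleton_iff, forall_eq]
    have hHφ : ∀ n ∈ H, φ n ∈ H := by
      intro n hn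
      rw [hH] at hn ⊢
      have := congrArg φ hn
      rw [map_mul, map_mul, hYfix y hy] at this
      exact this
    have hxH : x⁻¹ * φ x ∈ H := by
      rw [hH]
      have h1 : ⁅y, φ x⁆ = ⁅y, x⁆ := by
        have := hB2 y hy x
        rw [hYfix y hy] at this
        exact this
      rw [commutatorElement_def, commutatorElement_def] at h1
      have h2 : y * φ x * y⁻¹ = y * x * y⁻¹ * x⁻¹ * φ x := by
        rw [← h1]; group
      have h4 : y * (x⁻¹ * φ x) * y⁻¹ = (y * x * y⁻¹)⁻¹ * (y * φ x * y⁻¹) := by group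
      have h5 : y * (x⁻¹ * φ x) * y⁻¹ = x⁻¹ * φ x := by
        rw [h4, h2]; group
      calc y * (x⁻¹ * φ x) = (y * (x⁻¹ * φ x) * y⁻¹) * y := by group
        _ = (x⁻¹ * φ x) * y := by rw [h5]
    obtain ⟨z, hz1, hz2⟩ := lift_phi φ hφ H hHφ (h3 H) x hxH
    have hzH : z ∈ H := by
      rw [hH]
      exact hC y z (hYfix y hy) hz2
    have hxz : x ∈ H := by
      have := H.mul_mem hzH (H.inv_mem hz1)
      simpa using this
    exact ((hH x).1 hxz).symm
  -- conclusion
  have hup : ∀ n, Subgroup.upperCentralSeries P n ≤ Z := by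
    intro n
    induction n with
    | zero =>
      rw [Subgroup.upperCentralSeries_zero]
      exact bot_le
    | succ n ih =>
      intro w hw
      apply hYZ
      rw [memY]
      intro v
      exact ih (Subgroup.mem_upperCentralSeries_succ_iff.1 hw v)
  obtain ⟨n, hn⟩ := (inferInstance : Group.IsNilpotent P).nilpotent'
  have hy : y ∈ Z := hup n (by rw [hn]; trivial)
  exact (Subgroup.mem_center_iff.1 hy x)

/-- **The general case.** -/
theorem acase {X : Type*} [Group X] [Finite X] [Group.IsNilpotent X] (hX6 : (Nat.card X).Coprime 6)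
    (hXK : (Nat.card X : K) ≠ 0) (φ : X →* X) (hφ : ∀ x, φ (φ (φ x)) = x)
    (hC : ∀ x y, φ x = x → φ y = y → x * y = y * x) (ρ : X →* Module.End K M)
    (α : Module.End K M) (hαρ : ∀ x, α * ρ x = ρ (φ x) * α)
    (hα : 1 + α + α * α = 0) (x y : X) : ρ x * ρ y = ρ y * ρ x := by
  classical
  have hcube : α * α * α = 1 := cube_of hα
  have hKφ : ∀ x ∈ ρ.ker, φ x ∈ ρ.ker := by
    intro x hx
    have h1 : ρ x = 1 := hx
    have h2 := hαρ x
    rw [h1, mul_one] at h2
    have h3 : ρ (φ x) = 1 := by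
      calc ρ (φ x) = ρ (φ x) * (α * α * α) := by rw [hcube, mul_one]
        _ = (ρ (φ x) * α) * (α * α) := by simp only [mul_assoc]
        _ = α * (α * α) := by rw [← h2]
        _ = 1 := by rw [← mul_assoc, hcube]
    exact h3
  have hle : ρ.ker ≤ (ρ.ker).comap φ := hKφ
  let φ' : (X ⧸ ρ.ker) →* (X ⧸ ρ.ker) := QuotientGroup.map ρ.ker ρ.ker φ hle
  have hφ'mk : ∀ x : X, φ' (x : X ⧸ ρ.ker) = ((φ x : X) : X ⧸ ρ.ker) := fun x =>
    QuotientGroup.map_mk _ _ _ _ _
  have hφ' : ∀ p, φ' (φ' (φ' p)) = p := by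
    intro p
    obtain ⟨x, rfl⟩ := QuotientGroup.mk_surjective p
    rw [hφ'mk, hφ'mk, hφ'mk, hφ]
  let ρ' : (X ⧸ ρ.ker) →* Module.End K M := QuotientGroup.lift ρ.ker ρ (fun x hx => hx)
  have hρ'mk : ∀ x : X, ρ' (x : X ⧸ ρ.ker) = ρ x := fun x => rfl
  have hρ' : Function.Injective ρ' := by
    intro p q hpq
    obtain ⟨a, rfl⟩ := QuotientGroup.mk_surjective p
    obtain ⟨b, rfl⟩ := QuotientGroup.mk_surjective q
    rw [hρ'mk, hρ'mk] at hpq
    refine QuotientGroup.eq.2 ?_
    show ρ (a⁻¹ * b) = 1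
    have h1 : ρ a⁻¹ * ρ a = 1 := by rw [← map_mul, inv_mul_cancel, map_one]
    rw [map_mul, ← hpq, h1]
  have hαρ' : ∀ p, α * ρ' p = ρ' (φ' p) * α := by
    intro p
    obtain ⟨x, rfl⟩ := QuotientGroup.mk_surjective p
    rw [hφ'mk, hρ'mk, hρ'mk]
    exact hαρ x
  have hdvd : Nat.card (X ⧸ ρ.ker) ∣ Nat.card X := Subgroup.card_quotient_dvd_card ρ.ker
  have hP6 : (Nat.card (X ⧸ ρ.ker)).Coprime 6 := Nat.Coprime.coprime_dvd_left hdvd hX6
  have hPK : (Nat.card (X ⧸ ρ.ker) : K) ≠ 0 := by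
    intro h
    apply hXK
    obtain ⟨d, hd⟩ := hdvd
    rw [hd, Nat.cast_mul, h, zero_mul]
  have h30 : ¬ 3 ∣ Nat.card ρ.ker := not_dvd_of_le hX6 3 (Or.inr rfl) ρ.ker
  have hlift : ∀ p : X ⧸ ρ.ker, φ' p = p → ∃ z : X, (z : X ⧸ ρ.ker) = p ∧ φ z = z := by
    intro p hp
    obtain ⟨x, rfl⟩ := QuotientGroup.mk_surjective p
    have hx : x⁻¹ * φ x ∈ ρ.ker := by
      rw [hφ'mk] at hp
      exact QuotientGroup.eq.1 hp.symm
    obtain ⟨z, hz1, hz2⟩ := lift_phi φ hφ ρ.ker hKφ h30 x hx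
    exact ⟨z, (QuotientGroup.eq.2 hz1).symm, hz2⟩
  have hC' : ∀ p q : X ⧸ ρ.ker, φ' p = p → φ' q = q → p * q = q * p := by
    intro p q hp hq
    obtain ⟨z, rfl, hz⟩ := hlift p hp
    obtain ⟨w, rfl, hw⟩ := hlift q hq
    rw [← QuotientGroup.mk_mul, ← QuotientGroup.mk_mul, hC z w hz hw]
  have := acase_faithful hP6 hPK φ' hφ' hC' ρ' hρ' α hαρ' hα (x : X ⧸ ρ.ker) (y : X ⧸ ρ.ker)
  have h2 := congrArg ρ' this
  rw [map_mul, map_mul] at h2
  exact h2

end acase

end Cfsg.Agent.Lib.S3Alg
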