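import Mathlib
import Cfsg.Agent.Lib.S3Alg
import Cfsg.Agent.Lib.CoprimeAct

/-!
# A group-theoretic lemma: an involution of `S3` acting trivially modulo a normal subgroup.
-/

set_option autoImplicit false
set_option maxRecDepth 4000

namespace Cfsg.Agent.Lib.S3Elem

open Cfsg.Agent.Lib.S3Fpf Cfsg.Agent.Lib.S3Rep Cfsg.Agent.Lib.S3Alg Cfsg.Agent.Lib.CoprimeAct
open scoped commutatorElement

theorem inv3_facts : ∀ b : S3, Inv3 b → sa * b = b * (sa * sa) ∧ (sa * sa) * b = b * sa ∧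
    (sa * sa) * (sa * b * sa⁻¹) = b * (sa * sa) ∧ sa * b * sa⁻¹ ≠ 1 ∧ sa * b * sa⁻¹ ≠ b ∧
    sa * b * sa⁻¹ ≠ b⁻¹ := by decide

section

variable {X : Type*} [Group X]

theorem comm_mem_left (H : Subgroup X) [H.Normal] {x : X} (y : X) (hx : x ∈ H) : ⁅x, y⁆ ∈ H := by
  have : ⁅x, y⁆ = x * (y * x⁻¹ * y⁻¹) := by rw [commutatorElement_def]; group
  rw [this]
  exact H.mul_mem hx (Subgroup.Normal.conj_mem inferInstance _ (H.inv_mem hx) y)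

theorem comm_mem_right (H : Subgroup X) [H.Normal] (x : X) {y : X} (hy : y ∈ H) : ⁅x, y⁆ ∈ H := by
  rw [commutatorElement_def]
  exact H.mul_mem (Subgroup.Normal.conj_mem inferInstance _ hy x) (H.inv_mem hy)

variable [MulDistribMulAction S3 X]

/-- The image of a subgroup under the 3-cycle. -/
def K1 (K₀ : Subgroup X) : Subgroup X := K₀.comap (MulDistribMulAction.toMonoidHom X (sa * sa))

/-- The image of a subgroup under the square of the 3-cycle. -/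
def K2 (K₀ : Subgroup X) : Subgroup X := K₀.comap (MulDistribMulAction.toMonoidHom X sa)

instance (K₀ : Subgroup X) [K₀.Normal] : (K1 K₀).Normal := by
  unfold K1
  infer_instance

instance (K₀ : Subgroup X) [K₀.Normal] : (K2 K₀).Normal := by
  unfold K2
  infer_instance

theorem mem_K1 {K₀ : Subgroup X} {x : X} : x ∈ K1 K₀ ↔ (sa * sa) • x ∈ K₀ := Iff.rfl
theorem mem_K2 {K₀ : Subgroup X} {x : X} : x ∈ K2 K₀ ↔ sa • x ∈ K₀ := Iff.rfl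

theorem sa_K0 {K₀ : Subgroup X} {x : X} (h : x ∈ K₀) : sa • x ∈ K1 K₀ := by
  rw [mem_K1, ← mul_smul, sa_mul_self_self, one_smul]
  exact h

theorem sa_K1 {K₀ : Subgroup X} {x : X} (h : x ∈ K1 K₀) : sa • x ∈ K2 K₀ := by
  rw [mem_K2, ← mul_smul]
  exact h

theorem sa_K2 {K₀ : Subgroup X} {x : X} (h : x ∈ K2 K₀) : sa • x ∈ K₀ := h

theorem b_K0 {K₀ : Subgroup X} {b : S3} (hK : ∀ x : X, x⁻¹ * (b • x) ∈ K₀) {x : X} (h : x ∈ K₀) :
    b • x ∈ K₀ := by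
  have := K₀.mul_mem h (hK x)
  simpa using this

theorem b_K1 {K₀ : Subgroup X} {b : S3} (hb : Inv3 b) (hK : ∀ x : X, x⁻¹ * (b • x) ∈ K₀) {x : X}
    (h : x ∈ K1 K₀) : b • x ∈ K2 K₀ := by
  rw [mem_K2, ← mul_smul, (inv3_facts b hb).1, mul_smul]
  exact b_K0 hK h

theorem b_K2 {K₀ : Subgroup X} {b : S3} (hb : Inv3 b) (hK : ∀ x : X, x⁻¹ * (b • x) ∈ K₀) {x : X}
    (h : x ∈ K2 K₀) : b • x ∈ K1 K₀ := by
  rw [mem_K1, ← mul_smul, (inv3_facts b hb).2.1, mul_smul]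
  exact b_K0 hK h

variable [Finite X]

theorem core (hX : (Nat.card X).Coprime 6) (hfix : ∀ x : X, (∀ g : S3, g • x = x) → x = 1)
    (K₀ : Subgroup X) [K₀.Normal] {b : S3} (hb : Inv3 b) (hK : ∀ x : X, x⁻¹ * (b • x) ∈ K₀)
    {c : X} (hc1 : c ∈ K1 K₀) (hc2 : c ∈ K2 K₀) : c ∈ K₀ := by
  classical
  let D : Subgroup X := K₀ ⊓ (K1 K₀ ⊓ K2 K₀)
  haveI hDn : D.Normal := by
    show (K₀ ⊓ (K1 K₀ ⊓ K2 K₀)).Normal
    infer_instance
  have hDsa : ∀ x ∈ D, sa • x ∈ D := by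
    rintro x ⟨h0, h1, h2⟩
    exact ⟨sa_K2 h2, sa_K0 h0, sa_K1 h1⟩
  have hDb : ∀ x ∈ D, b • x ∈ D := by
    rintro x ⟨h0, h1, h2⟩
    exact ⟨b_K0 hK h0, b_K2 hb hK h2, b_K1 hb hK h1⟩
  have hDall : ∀ a : S3, ∀ x ∈ D, a • x ∈ D :=
    forall_of_sa_inv (fun a => ∀ x ∈ D, a • x ∈ D) (fun x hx => by simpa using hx)
      (fun g h hg hh x hx => by
        rw [mul_smul]
        exact hg _ (hh x hx)) hb hDsa hDb
  letI qa : MulDistribMulAction S3 (X ⧸ D) := quotAct D hDall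
  have hqa : ∀ (a : S3) (x : X), a • (x : X ⧸ D) = ((a • x : X) : X ⧸ D) := fun _ _ => rfl
  set A := c with hAdef
  set B := sa • c with hBdef
  set C := sa • B with hCdef
  have hA1 : A ∈ K1 K₀ := hc1
  have hA2 : A ∈ K2 K₀ := hc2
  have hB2 : B ∈ K2 K₀ := sa_K1 hc1
  have hB0 : B ∈ K₀ := sa_K2 hc2
  have hC0 : C ∈ K₀ := sa_K2 hB2
  have hC1 : C ∈ K1 K₀ := sa_K0 hB0
  have hsaC : sa • C = A := by
    rw [hCdef, hBdef, ← mul_smul, ← mul_smul, sa_mul_self_self, one_smul]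
  have hcommD : ∀ x y : X, ⁅x, y⁆ ∈ D → (x : X ⧸ D) * (y : X ⧸ D) = (y : X ⧸ D) * (x : X ⧸ D) := by
    intro x y hxy
    have h1 : ((⁅x, y⁆ : X) : X ⧸ D) = 1 := (QuotientGroup.eq_one_iff _).2 hxy
    have h2 : ⁅(x : X ⧸ D), (y : X ⧸ D)⁆ = 1 := by
      rw [← h1]
      exact (map_commutatorElement (QuotientGroup.mk' D) x y).symm
    exact commutatorElement_eq_one_iff_mul_comm.1 h2
  have hAB : (A : X ⧸ D) * B = B * A := hcommD A B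
    ⟨comm_mem_right _ A hB0, comm_mem_left _ B hA1, comm_mem_left _ B hA2⟩
  have hAC : (A : X ⧸ D) * C = C * A := hcommD A C
    ⟨comm_mem_right _ A hC0, comm_mem_left _ C hA1, comm_mem_left _ C hA2⟩
  set g := A * B * C with hg
  have hgsa : sa • (g : X ⧸ D) = g := by
    rw [hqa, hg, smul_mul', smul_mul', ← hBdef, ← hCdef, hsaC]
    rw [QuotientGroup.mk_mul, QuotientGroup.mk_mul, QuotientGroup.mk_mul, QuotientGroup.mk_mul]
    rw [mul_assoc (B : X ⧸ D), ← hAC, ← mul_assoc, ← hAB]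
  have hh0 : g⁻¹ * (b • g) ∈ K₀ := hK g
  set h := g⁻¹ * (b • g) with hh
  have hhq : (h : X ⧸ D) = (g : X ⧸ D)⁻¹ * (b • (g : X ⧸ D)) := by
    rw [hh, QuotientGroup.mk_mul, QuotientGroup.mk_inv, hqa]
  have hsah : sa • (h : X ⧸ D) = h := by
    rw [hhq, smul_mul', smul_inv', hgsa, ← mul_smul, (inv3_facts b hb).1, mul_smul, mul_smul, hgsa,
      hgsa]
  have hmem_of : ∀ (H : Subgroup X) (x : X), D ≤ H → x ∈ H → (x : X ⧸ D) = h → h ∈ H := by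
    intro H x hDH hx hxh
    have := hDH (QuotientGroup.eq.1 hxh)
    have h2 := H.mul_mem hx this
    simpa using h2
  have hh1 : h ∈ K1 K₀ := by
    refine hmem_of _ (sa • h) (fun x hx => hx.2.1) (sa_K0 hh0) ?_
    rw [← hqa, hsah]
  have hh2 : h ∈ K2 K₀ := by
    refine hmem_of _ (sa • sa • h) (fun x hx => hx.2.2) (sa_K1 (sa_K0 hh0)) ?_
    rw [← hqa, ← hqa, hsah, hsah]
  have hhD : h ∈ D := ⟨hh0, hh1, hh2⟩
  have hgb : b • (g : X ⧸ D) = g := by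
    rw [hqa]
    exact (QuotientGroup.eq.2 hhD).symm
  have hgall : ∀ a : S3, a • (g : X ⧸ D) = g := fixed_of_sa_inv hb hgsa hgb
  have hmem : ∀ a : S3, g⁻¹ * (a • g) ∈ D := fun a =>
    QuotientGroup.eq.1 (by
      have := hgall a
      rw [hqa] at this
      exact this.symm)
  obtain ⟨z, hz1, hz2, hz3⟩ := lift_fixed hX D (hDall sa) (hDall sb) g (hmem sa) (hmem sb)
  have hz : z = 1 := hfix z (fixed_of_sa_inv inv3_sb hz2 hz3)
  rw [hz, mul_one] at hz1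
  have hgD : g ∈ D := by simpa using D.inv_mem hz1
  have hg0 : g ∈ K₀ := hgD.1
  have : A = g * C⁻¹ * B⁻¹ := by rw [hg]; group
  rw [this]
  exact K₀.mul_mem (K₀.mul_mem hg0 (K₀.inv_mem hC0)) (K₀.inv_mem hB0)

/-- **The E-lemma.** -/
theorem elemma (hX : (Nat.card X).Coprime 6) (hfix : ∀ x : X, (∀ g : S3, g • x = x) → x = 1)
    (K₀ : Subgroup X) [K₀.Normal] {b : S3} (hb : Inv3 b) (hK : ∀ x : X, x⁻¹ * (b • x) ∈ K₀)
    (u v : X) : ⁅u, v⁆ ∈ K₀ := by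
  classical
  obtain ⟨hf1, hf2, hf3, hf4, hf5, hf6⟩ := inv3_facts b hb
  let N : Subgroup X := (K₀ ⊔ K1 K₀) ⊔ K2 K₀
  have hPb : ∀ y : X, y⁻¹ * (b • y) ∈ N := fun y =>
    Subgroup.mem_sup_left (Subgroup.mem_sup_left (hK y))
  have hPb₁ : ∀ y : X, y⁻¹ * ((sa * b * sa⁻¹) • y) ∈ N := by
    intro y
    refine Subgroup.mem_sup_left (Subgroup.mem_sup_right ?_)
    rw [mem_K1, smul_mul', smul_inv', ← mul_smul, hf3, mul_smul b]
    exact hK _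
  have hP : ∀ t : S3, ∀ y : X, y⁻¹ * (t • y) ∈ N :=
    forall_of_two (fun t => ∀ y : X, y⁻¹ * (t • y) ∈ N) (fun y => by simp [N.one_mem])
      (fun g h hg hh y => by
        have := N.mul_mem (hh y) (hg (h • y))
        rw [mul_smul]
        simpa [mul_assoc] using this) hPb hPb₁ (inv3_ne b hb).1 hf4 hf5 hf6
  have htop : ∀ y, y ∈ N := eq_top_of_trivial hX hfix N (hP sa) (hP sb)
  have hπ : ∀ x : X, ((b • x : X) : X ⧸ K₀) = x := fun x =>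
    (QuotientGroup.eq.2 (hK x)).symm
  have hrep : ∀ y : X, (∃ y₁ ∈ K1 K₀, (y₁ : X ⧸ K₀) = y) ∧ (∃ y₂ ∈ K2 K₀, (y₂ : X ⧸ K₀) = y) := by
    intro y
    obtain ⟨n, hn, k₂, hk₂, rfl⟩ := Subgroup.mem_sup_of_normal_right.1 (htop y)
    obtain ⟨k₀, hk₀, k₁, hk₁, rfl⟩ := Subgroup.mem_sup_of_normal_right.1 hn
    have h0 : (k₀ : X ⧸ K₀) = 1 := (QuotientGroup.eq_one_iff _).2 hk₀
    constructor
    · refine ⟨k₁ * (b • k₂), (K1 K₀).mul_mem hk₁ (b_K2 hb hK hk₂), ?_⟩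
      rw [QuotientGroup.mk_mul, QuotientGroup.mk_mul, QuotientGroup.mk_mul, hπ, h0, one_mul]
    · refine ⟨(b • k₁) * k₂, (K2 K₀).mul_mem (b_K1 hb hK hk₁) hk₂, ?_⟩
      rw [QuotientGroup.mk_mul, QuotientGroup.mk_mul, QuotientGroup.mk_mul, hπ, h0, one_mul]
  obtain ⟨⟨u₁, hu₁, hu⟩, -⟩ := hrep u
  obtain ⟨-, ⟨v₂, hv₂, hv⟩⟩ := hrep v
  have hc : ⁅u₁, v₂⁆ ∈ K₀ := core hX hfix K₀ hb hK (comm_mem_left _ v₂ hu₁) (comm_mem_right _ u₁ hv₂)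
  have h1 : ((⁅u₁, v₂⁆ : X) : X ⧸ K₀) = 1 := (QuotientGroup.eq_one_iff _).2 hc
  have h2 : ((⁅u₁, v₂⁆ : X) : X ⧸ K₀) = ⁅(u₁ : X ⧸ K₀), (v₂ : X ⧸ K₀)⁆ :=
    map_commutatorElement (QuotientGroup.mk' K₀) u₁ v₂
  have h3 : ((⁅u, v⁆ : X) : X ⧸ K₀) = ⁅(u : X ⧸ K₀), (v : X ⧸ K₀)⁆ :=
    map_commutatorElement (QuotientGroup.mk' K₀) u v
  rw [← QuotientGroup.eq_one_iff, h3, ← hu, ← hv, ← h2, h1]

end

end Cfsg.Agent.Lib.S3Elem
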