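import Mathlib
import Cfsg.Agent.Lib.S3Elem

/-!
# A nilpotent group with an action of `S3` and a compatible module with vanishing norm is abelian.
-/

set_option autoImplicit false
set_option maxRecDepth 4000

namespace Cfsg.Agent.Lib.S3LemI

open Cfsg.Agent.Lib.S3Fpf Cfsg.Agent.Lib.S3Rep Cfsg.Agent.Lib.S3Alg Cfsg.Agent.Lib.S3Elem
open scoped commutatorElement

section fixedcomm

variable {X : Type*} [Group X] [Finite X] [MulDistribMulAction S3 X]

/-- The fixed points of the 3-cycle form an abelian group. -/
theorem comm_of_sa_fixed (hfix : ∀ x : X, (∀ g : S3, g • x = x) → x = 1) {x y : X}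
    (hx : sa • x = x) (hy : sa • y = y) : x * y = y * x := by
  let C : Subgroup X :=
    { carrier := {c | sa • c = c}
      mul_mem' := fun {p q} hp hq => by
        show sa • (p * q) = p * q
        rw [smul_mul', hp, hq]
      one_mem' := smul_one _
      inv_mem' := fun {p} hp => by
        show sa • p⁻¹ = p⁻¹
        rw [smul_inv', hp] }
  have hab : ∀ c : X, sa • c = c → sa • sb • c = sb • c := by
    intro c hc
    have : (sa : S3) * sb = sb * (sa * sa) := by decide
    rw [← mul_smul, this, mul_smul, mul_smul, hc, hc]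
  have hmem : ∀ c : C, (c : X)⁻¹ * (sb • (c : X)) ∈ C := fun c =>
    C.mul_mem (C.inv_mem c.2) (hab c c.2)
  let f : C → C := fun c => ⟨_, hmem c⟩
  have hf : Function.Injective f := by
    intro c d hcd
    have h1 : (c : X)⁻¹ * (sb • (c : X)) = (d : X)⁻¹ * (sb • (d : X)) := congrArg Subtype.val hcd
    have h2 : sb • ((d : X) * (c : X)⁻¹) = (d : X) * (c : X)⁻¹ := by
      rw [smul_mul', smul_inv']
      have : (sb • (d : X)) = (d : X) * ((c : X)⁻¹ * (sb • (c : X))) := by
        rw [h1, mul_inv_cancel_left]
      rw [this]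
      group
    have h3 : sa • ((d : X) * (c : X)⁻¹) = (d : X) * (c : X)⁻¹ := C.mul_mem d.2 (C.inv_mem c.2)
    have h4 := hfix _ (fixed_of_sa_inv inv3_sb h3 h2)
    exact Subtype.ext (mul_inv_eq_one.1 h4).symm
  have hs : Function.Surjective f := Finite.surjective_of_injective hf
  have hinv : ∀ c : X, sa • c = c → sb • c = c⁻¹ := by
    intro c hc
    obtain ⟨w, hw⟩ := hs ⟨c, hc⟩
    have hw' : (w : X)⁻¹ * (sb • (w : X)) = c := congrArg Subtype.val hw
    rw [← hw', smul_mul', smul_inv', ← mul_smul, sb_mul_self, one_smul]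
    group
  have h1 := hinv (x * y) (by rw [smul_mul', hx, hy])
  rw [smul_mul', hinv x hx, hinv y hy, mul_inv_rev] at h1
  have h2 : (x * y)⁻¹ = (y * x)⁻¹ := by rw [mul_inv_rev, mul_inv_rev, h1]
  exact inv_injective h2

end fixedcomm

section normal

theorem bot_lt_inf_center {X : Type*} [Group X] [Group.IsNilpotent X] (H : Subgroup X) [H.Normal]
    (hH : H ≠ ⊥) : Subgroup.center X ⊓ H ≠ ⊥ := by
  intro h0
  apply hH
  have hall : ∀ n, ∀ x ∈ H, x ∈ Subgroup.upperCentralSeries X n → x = 1 := by
    intro n
    induction n with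
    | zero =>
      intro x _ hx
      exact hx
    | succ n ih =>
      intro x hxH hx
      have hc : x ∈ Subgroup.center X := by
        rw [Subgroup.mem_center_iff]
        intro y
        have h1 := Subgroup.mem_upperCentralSeries_succ_iff.1 hx y
        have h2 : ⁅x, y⁆ ∈ H := comm_mem_left H y hxH
        have h3 := ih _ h2 h1
        exact (commutatorElement_eq_one_iff_mul_comm.1 h3).symm
      have : x ∈ Subgroup.center X ⊓ H := ⟨hc, hxH⟩
      rw [h0] at this
      exact this
  obtain ⟨n, hn⟩ := (inferInstance : Group.IsNilpotent X).nilpotent'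
  rw [eq_bot_iff]
  intro x hx
  exact hall n x hx (by rw [hn]; trivial)

end normal

section eig

variable {S K U : Type*} [CommGroup S] [Field K] [AddCommGroup U] [Module K U]

/-- The eigenspace of a character. -/
def eigSub (τ : S →* Module.End K U) (χ : S →* Kˣ) : Submodule K U where
  carrier := {u | IsEig τ χ u}
  add_mem' := fun {a b} ha hb s => by
    rw [map_add, ha s, hb s, smul_add]
  zero_mem' := fun s => by simp
  smul_mem' := fun c x hx s => by
    rw [map_smul, hx s, smul_comm]

theorem mem_eigSub {τ : S →* Module.End K U} {χ : S →* Kˣ} {u : U} :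
    u ∈ eigSub τ χ ↔ IsEig τ χ u := Iff.rfl

end eig

/-- **Lemma I.** -/
theorem lemI {X K U : Type*} [Group X] [Finite X] [Group.IsNilpotent X] [MulDistribMulAction S3 X]
    [Field K] [IsAlgClosed K] [AddCommGroup U] [Module K U]
    (hX : (Nat.card X).Coprime 6) (hfix : ∀ x : X, (∀ g : S3, g • x = x) → x = 1)
    (hXK : (Nat.card X : K) ≠ 0)
    (ρ : X →* Module.End K U) (hρ : Function.Injective ρ) (σ : S3 →* Module.End K U)
    (hcompat : ∀ g x, σ g * ρ x = ρ (g • x) * σ g) (hσ0 : ∀ u, ∑ g : S3, σ g u = 0)
    (x y : X) : x * y = y * x := by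
  classical
  by_contra hne
  -- the central subgroup
  let D : Subgroup X := Subgroup.center X ⊓ commutator X
  have hcomm_ne : commutator X ≠ ⊥ := by
    intro h
    apply hne
    have : ⁅x, y⁆ ∈ commutator X := Subgroup.commutator_mem_commutator (Subgroup.mem_top x)
      (Subgroup.mem_top y)
    rw [h] at this
    exact commutatorElement_eq_one_iff_mul_comm.1 this
  have hD : D ≠ ⊥ := bot_lt_inf_center _ hcomm_ne
  have hDinv : ∀ a : S3, ∀ d ∈ D, a • d ∈ D := by
    rintro a d ⟨h1, h2⟩
    exact ⟨Subgroup.characteristic_iff_le_comap.1 (inferInstance : (Subgroup.center X).Characteristic)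
        (MulDistribMulAction.toMulEquiv X a) h1,
      Subgroup.characteristic_iff_le_comap.1 (inferInstance : (commutator X).Characteristic)
        (MulDistribMulAction.toMulEquiv X a) h2⟩
  letI dact : MulDistribMulAction S3 D := subAct D hDinv
  have hdact : ∀ (g : S3) (d : D), ((g • d : D) : X) = g • (d : X) := fun _ _ => rfl
  letI dcg : CommGroup D :=
    { (inferInstance : Group D) with
      mul_comm := fun a b => Subtype.ext ((Subgroup.mem_center_iff.1 b.2.1) a.1) }
  letI dft : Fintype D := Fintype.ofFinite D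
  have hDdvd : Fintype.card D ∣ Nat.card X := by
    rw [← Nat.card_eq_fintype_card]
    exact Subgroup.card_subgroup_dvd_card D
  have hD6 : (Fintype.card D).Coprime 6 := Nat.Coprime.coprime_dvd_left hDdvd hX
  have hDK : (Fintype.card D : K) ≠ 0 := by
    intro h
    apply hXK
    obtain ⟨d, hd⟩ := hDdvd
    rw [hd, Nat.cast_mul, h, zero_mul]
  have hfixD : ∀ s : D, (∀ g : S3, g • s = s) → s = 1 := fun s hs =>
    Subtype.ext (hfix s.1 (fun g => congrArg Subtype.val (hs g)))
  let τ : D →* Module.End K U := ρ.comp D.subtype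
  have hτ : ∀ s : D, τ s = ρ s.1 := fun _ => rfl
  have hστ : ∀ g s, σ g * τ s = τ (g • s) * σ g := fun g s => hcompat g s.1
  letI i1 : MulDistribMulAction S3 (D →* Kˣ) := dualAct S3 D Kˣ
  have hnorm : ∀ μ : D →* Kˣ, ∏ g : S3, g • μ = 1 := fun μ => prod_smul_chars hfixD μ
  have h2 : ∀ μ : D →* Kˣ, μ ^ 2 = 1 → μ = 1 :=
    chars_pow_eq_one (Nat.Coprime.coprime_dvd_right (by decide) hD6)
  have h3 : ∀ μ : D →* Kˣ, μ ^ 3 = 1 → μ = 1 :=
    chars_pow_eq_one (Nat.Coprime.coprime_dvd_right (by decide) hD6)
  -- a non-trivial character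
  obtain ⟨χ, u₀, hu₀, hu₀0, hχ⟩ : ∃ (χ : D →* Kˣ) (u : U), IsEig τ χ u ∧ u ≠ 0 ∧ χ ≠ 1 := by
    by_contra hall
    push Not at hall
    apply hD
    rw [eq_bot_iff]
    intro d hd
    have h4 : τ ⟨d, hd⟩ = 1 := by
      refine eq_of_eig τ hDK _ _ (fun χ u hu hu0 => ?_)
      rw [hu ⟨d, hd⟩, hall χ u hu hu0]
      simp
    have h5 : ρ d = ρ 1 := by
      rw [map_one]
      exact h4
    exact hρ h5
  -- the eigenspace is invariant
  let M : Submodule K U := eigSub τ χ
  have hMρ : ∀ (x : X), ∀ u ∈ M, ρ x u ∈ M := by
    intro x u hu s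
    have h1 : τ s * ρ x = ρ x * τ s := by
      rw [hτ, ← map_mul, ← map_mul, (Subgroup.mem_center_iff.1 s.2.1) x]
    have h2 := congrArg (fun f : Module.End K U => f u) h1
    simp only [Module.End.mul_apply] at h2
    rw [h2, hu s, map_smul]
  -- if the derived group acts trivially on `M` we have a contradiction
  have hfinal : (∀ a b : X, ∀ u ∈ M, ρ ⁅a, b⁆ u = u) → False := by
    intro hcm
    apply hχ
    ext s
    have hs : (s : X) ∈ commutator X := s.2.2
    have hK : commutator X ≤ (
      { carrier := {x | ∀ u ∈ M, ρ x u = u}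
        mul_mem' := fun {a b} ha hb u hu => by
          rw [map_mul, Module.End.mul_apply, hb u hu, ha u hu]
        one_mem' := fun u _ => by simp
        inv_mem' := fun {a} ha u hu => by
          have h1 : ρ a⁻¹ (ρ a u) = u := by
            rw [← Module.End.mul_apply, ← map_mul, inv_mul_cancel, map_one]; rfl
          rw [ha u hu] at h1
          exact h1 } : Subgroup X) := by
      rw [commutator_def, Subgroup.commutator_le]
      intro a _ b _
      exact hcm a b
    have h5 : ∀ u ∈ M, τ s u = u := hK hs
    have h6 := h5 u₀ hu₀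
    rw [hu₀ s] at h6
    have h7 : (((χ s : Kˣ) : K) - 1) • u₀ = 0 := by
      rw [sub_smul, one_smul, h6, sub_self]
    have h8 := (smul_eq_zero.1 h7).resolve_right hu₀0
    simpa using sub_eq_zero.1 h8
  -- the stabilizer
  have hnotall : ¬ (∀ g : S3, g • χ = χ) := fun h =>
    hχ (eq_one_of_fixed hnorm h2 h3 h)
  have hσM : ∀ (g : S3), g • χ = χ → ∀ u ∈ M, σ g u ∈ M := by
    intro g hg u hu
    have := isEig_smul τ σ hστ hu g
    rw [hg] at this
    exact this
  have hsum := fun u (hu : u ∈ M) => stab_sum τ σ hDK hστ hσ0 (χ := χ) (u := u) hu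
  obtain ⟨g₀, hg₀1, hg₀⟩ := exists_stab τ σ hDK hστ hσ0 hu₀ hu₀0
  have hcases : (sa • χ = χ) ∨ ∃ b : S3, Inv3 b ∧ b • χ = χ := by
    rcases s3_cases g₀ with h | h | h | h
    · exact absurd h hg₀1
    · exact Or.inl (h ▸ hg₀)
    · left
      have h4 : (sa : S3) = sa ^ 2 * sa ^ 2 := by decide
      rw [h] at hg₀
      rw [h4, mul_smul, hg₀, hg₀]
    · exact Or.inr ⟨g₀, h, hg₀⟩
  rcases hcases with hsa | ⟨b, hb, hbχ⟩
  · -- the 3-cycle stabilizes
    have hbne : ∀ b : S3, Inv3 b → b • χ ≠ χ := fun b hb h =>
      hnotall (fixed_of_sa_inv hb hsa h)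
    have hsa2 : (sa ^ 2) • χ = χ := by rw [pow_two, mul_smul, hsa, hsa]
    have hfilter : Finset.univ.filter (fun g : S3 => g • χ = χ) = {1, sa, sa ^ 2} := by
      ext g
      simp only [Finset.mem_filter, Finset.mem_univ, true_and, Finset.mem_insert,
        Finset.mem_singleton]
      constructor
      · intro hg
        rcases s3_cases g with h | h | h | h
        · exact Or.inl h
        · exact Or.inr (Or.inl h)
        · exact Or.inr (Or.inr h)
        · exact absurd hg (hbne g h)
      · rintro (rfl | rfl | rfl)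
        · exact one_smul _ _
        · exact hsa
        · exact hsa2
    have hM0 : ∀ u ∈ M, u + σ sa u + σ sa (σ sa u) = 0 := by
      intro u hu
      have := hsum u hu
      rw [hfilter, Finset.sum_insert (by decide), Finset.sum_insert (by decide),
        Finset.sum_singleton, map_one, pow_two, map_mul, Module.End.one_apply,
        Module.End.mul_apply, ← add_assoc] at this
      exact this
    -- restriction to `M`
    let ρM : X →* Module.End K M :=
      { toFun := fun x => (ρ x).restrict (hMρ x)
        map_one' := by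
          ext u
          simp
        map_mul' := fun a b => by
          ext u
          simp [LinearMap.restrict_apply] }
    have hρM : ∀ (x : X) (u : M), ((ρM x u : M) : U) = ρ x u := fun _ _ => rfl
    let αM : Module.End K M := (σ sa).restrict (hσM sa hsa)
    have hαM : ∀ u : M, ((αM u : M) : U) = σ sa u := fun _ => rfl
    let φ : X →* X := MulDistribMulAction.toMonoidHom X sa
    have hφdef : ∀ x, φ x = sa • x := fun _ => rfl
    have hφ : ∀ x, φ (φ (φ x)) = x := by
      intro x
      simp only [hφdef]
      rw [← mul_smul, ← mul_smul, sa_mul_self_self, one_smul]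
    have hαρ : ∀ x, αM * ρM x = ρM (φ x) * αM := by
      intro x
      ext u
      have := congrArg (fun f : Module.End K U => f u) (hcompat sa x)
      exact this
    have hα : 1 + αM + αM * αM = 0 := by
      ext u
      exact hM0 u u.2
    have hcommrep := acase (K := K) (M := M) hX hXK φ hφ
      (fun a b ha hb => comm_of_sa_fixed hfix ha hb) ρM αM hαρ hα
    apply hfinal
    intro a b u hu
    have h1 : ρM ⁅a, b⁆ = 1 := by
      have h3 : ρM (a * b) = ρM (b * a) := by rw [map_mul, map_mul, hcommrep]
      have h4 : ρM ⁅a, b⁆ * ρM (b * a) = ρM (a * b) := by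
        rw [← map_mul, commutatorElement_def]
        congr 1
        group
      rw [h3] at h4
      have h5 : ρM (b * a) * ρM (b * a)⁻¹ = 1 := by
        rw [← map_mul, mul_inv_cancel, map_one]
      calc ρM ⁅a, b⁆ = ρM ⁅a, b⁆ * (ρM (b * a) * ρM (b * a)⁻¹) := by rw [h5, mul_one]
        _ = (ρM ⁅a, b⁆ * ρM (b * a)) * ρM (b * a)⁻¹ := by rw [mul_assoc]
        _ = 1 := by rw [h4, h5]
    have h6 := congrArg (fun f : Module.End K M => ((f ⟨u, hu⟩ : M) : U)) h1
    exact h6
  · -- an involution stabilizes
    have hsane : sa • χ ≠ χ := fun h => hnotall (fixed_of_sa_inv hb h hbχ)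
    have hsa2ne : (sa ^ 2) • χ ≠ χ := by
      intro h
      apply hsane
      have h4 : (sa : S3) = sa ^ 2 * sa ^ 2 := by decide
      rw [h4, mul_smul, h, h]
    have hfilter : Finset.univ.filter (fun g : S3 => g • χ = χ) = {1, b} := by
      ext g
      simp only [Finset.mem_filter, Finset.mem_univ, true_and, Finset.mem_insert,
        Finset.mem_singleton]
      constructor
      · intro hg
        have hu := univ_eq b hb
        have hgu : g ∈ (Finset.univ : Finset S3) := Finset.mem_univ g
        rw [hu] at hgu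
        simp only [Finset.mem_insert, Finset.mem_singleton] at hgu
        rcases hgu with h | h | h | h | h | h
        · exact Or.inl h
        · exact absurd (h ▸ hg) hsane
        · exact absurd (h ▸ hg) hsa2ne
        · exact Or.inr h
        · exfalso
          rw [h, mul_smul, hbχ] at hg
          exact hsane hg
        · exfalso
          rw [h, mul_smul, hbχ] at hg
          exact hsa2ne hg
      · rintro (rfl | rfl)
        · exact one_smul _ _
        · exact hbχ
    have hb1 : (1 : S3) ∉ ({b} : Finset S3) := by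
      simp only [Finset.mem_singleton]
      exact fun h => (inv3_ne b hb).1 h.symm
    have hM0 : ∀ u ∈ M, σ b u = -u := by
      intro u hu
      have := hsum u hu
      rw [hfilter, Finset.sum_insert hb1, Finset.sum_singleton, map_one, Module.End.one_apply] at this
      exact eq_neg_of_add_eq_zero_right this
    have hbx : ∀ (x : X), ∀ u ∈ M, ρ (b • x) u = ρ x u := by
      intro x u hu
      have h1 := congrArg (fun f : Module.End K U => f u) (hcompat b x)
      simp only [Module.End.mul_apply] at h1
      rw [hM0 u hu, hM0 _ (hMρ x u hu), map_neg] at h1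
      exact (neg_injective h1).symm
    let K₀ : Subgroup X :=
      { carrier := {x | ∀ u ∈ M, ρ x u = u}
        mul_mem' := fun {a b} ha hb u hu => by
          rw [map_mul, Module.End.mul_apply, hb u hu, ha u hu]
        one_mem' := fun u _ => by simp
        inv_mem' := fun {a} ha u hu => by
          have h1 : ρ a⁻¹ (ρ a u) = u := by
            rw [← Module.End.mul_apply, ← map_mul, inv_mul_cancel, map_one]; rfl
          rw [ha u hu] at h1
          exact h1 }
    haveI hK₀n : K₀.Normal := by
      refine ⟨fun n hn g u hu => ?_⟩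
      have h1 : ρ (g * n * g⁻¹) u = ρ g (ρ n (ρ g⁻¹ u)) := by
        rw [map_mul, map_mul]
        rfl
      rw [h1, hn _ (hMρ _ u hu), ← Module.End.mul_apply, ← map_mul, mul_inv_cancel, map_one]
      rfl
    have hK : ∀ x : X, x⁻¹ * (b • x) ∈ K₀ := by
      intro x u hu
      rw [map_mul, Module.End.mul_apply, hbx x u hu, ← Module.End.mul_apply, ← map_mul,
        inv_mul_cancel, map_one]
      rfl
    apply hfinal
    intro a c u hu
    exact elemma hX hfix K₀ hb hK a c u hu

end Cfsg.Agent.Lib.S3LemI
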