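import Mathlib
import Cfsg.Agent.Lib.S3LemI

/-!
# A solvable group with a faithful module and vanishing norm of `S3`, without normal `p`-subgroups,
is abelian.
-/

set_option autoImplicit false
set_option maxRecDepth 4000

namespace Cfsg.Agent.Lib.S3ML

open Cfsg.Agent.Lib.S3Fpf Cfsg.Agent.Lib.S3Rep Cfsg.Agent.Lib.S3Alg Cfsg.Agent.Lib.S3Elem
  Cfsg.Agent.Lib.S3LemI
open scoped commutatorElement

theorem eq_top_of_sylow_le {G : Type*} [Group G] [Finite G] (H : Subgroup G)
    (h : ∀ (r : ℕ) [Fact r.Prime] (Q : Sylow r G), (Q : Subgroup G) ≤ H) : H = ⊤ := by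
  by_contra hne
  have hi : H.index ≠ 1 := fun h1 => hne (Subgroup.index_eq_one.1 h1)
  obtain ⟨r, hr, hrd⟩ := Nat.exists_prime_and_dvd hi
  haveI : Fact r.Prime := ⟨hr⟩
  obtain ⟨Q⟩ := (inferInstance : Nonempty (Sylow r G))
  have := Subgroup.index_dvd_of_le (h r Q)
  exact Q.not_dvd_index (hrd.trans this)

section

variable {X K U : Type*} [Group X] [Finite X] [MulDistribMulAction S3 X]
    [Field K] [IsAlgClosed K] [AddCommGroup U] [Module K U]

theorem rsub_central (hX : (Nat.card X).Coprime 6) (hfix : ∀ x : X, (∀ g : S3, g • x = x) → x = 1)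
    (ρ : X →* Module.End K U) (hρ : Function.Injective ρ) (σ : S3 →* Module.End K U)
    (hcompat : ∀ g x, σ g * ρ x = ρ (g • x) * σ g) (hσ0 : ∀ u, ∑ g : S3, σ g u = 0)
    (R : Subgroup X) [hRn : R.Normal] (hRinv : ∀ a : S3, ∀ x ∈ R, a • x ∈ R)
    (r : ℕ) [hr : Fact r.Prime] (hRp : IsPGroup r R) (hrK : (r : K) ≠ 0) : R ≤ Subgroup.center X := by
  classical
  letI ract : MulDistribMulAction S3 R := subAct R hRinv
  haveI hRnil : Group.IsNilpotent R := hRp.isNilpotent
  have hRdvd : Nat.card R ∣ Nat.card X := Subgroup.card_subgroup_dvd_card R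
  have hR6 : (Nat.card R).Coprime 6 := Nat.Coprime.coprime_dvd_left hRdvd hX
  have hRK : (Nat.card R : K) ≠ 0 := by
    obtain ⟨n, hn⟩ := IsPGroup.iff_card.1 hRp
    rw [hn, Nat.cast_pow]
    exact pow_ne_zero _ hrK
  have hfixR : ∀ s : R, (∀ g : S3, g • s = s) → s = 1 := fun s hs =>
    Subtype.ext (hfix s.1 (fun g => congrArg Subtype.val (hs g)))
  let ρR : R →* Module.End K U := ρ.comp R.subtype
  have hρR : Function.Injective ρR := fun a b h => Subtype.ext (hρ h)
  have hcompatR : ∀ g s, σ g * ρR s = ρR (g • s) * σ g := fun g s => hcompat g s.1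
  have hcomm : ∀ a b : R, a * b = b * a := lemI hR6 hfixR hRK ρR hρR σ hcompatR hσ0
  letI rcg : CommGroup R := { (inferInstance : Group R) with mul_comm := hcomm }
  letI rft : Fintype R := Fintype.ofFinite R
  letI xact : MulDistribMulAction X R :=
    { smul := fun x s => ⟨x * s.1 * x⁻¹, hRn.conj_mem s.1 s.2 x⟩
      one_smul := fun s => Subtype.ext (by
        show 1 * s.1 * 1⁻¹ = s.1
        simp)
      mul_smul := fun a b s => Subtype.ext (by
        show (a * b) * s.1 * (a * b)⁻¹ = a * (b * s.1 * b⁻¹) * a⁻¹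
        group)
      smul_mul := fun a s t => Subtype.ext (by
        show a * (s.1 * t.1) * a⁻¹ = (a * s.1 * a⁻¹) * (a * t.1 * a⁻¹)
        group)
      smul_one := fun a => Subtype.ext (by
        show a * 1 * a⁻¹ = 1
        simp) }
  have hxact : ∀ (x : X) (s : R), ((x • s : R) : X) = x * s.1 * x⁻¹ := fun _ _ => rfl
  have hcard : Fintype.card R = Nat.card R := (Nat.card_eq_fintype_card).symm
  have hact : ∀ (g : S3) (x : X) (s : R), g • (x • s) = (g • x) • (g • s) := by
    intro g x s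
    apply Subtype.ext
    show g • (x * s.1 * x⁻¹) = (g • x) * (g • s.1) * (g • x)⁻¹
    rw [smul_mul', smul_mul', smul_inv']
  have hρτ : ∀ (x : X) (s : R), ρ x * ρR s = ρR (x • s) * ρ x := by
    intro x s
    show ρ x * ρ s.1 = ρ (x * s.1 * x⁻¹) * ρ x
    rw [← map_mul, ← map_mul]
    congr 1
    group
  intro s hs
  rw [Subgroup.mem_center_iff]
  intro x
  have h1 := lemII hact hX hfix (by rwa [hcard]) hfixR (by rwa [hcard]) ρR ρ σ hρτ hcompatR hσ0 x
    ⟨s, hs⟩
  have h2 : x * s * x⁻¹ = s := hρ h1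
  calc x * s = (x * s * x⁻¹) * x := by group
    _ = s * x := by rw [h2]

theorem sub_central (hX : (Nat.card X).Coprime 6) (hfix : ∀ x : X, (∀ g : S3, g • x = x) → x = 1)
    (ρ : X →* Module.End K U) (hρ : Function.Injective ρ) (σ : S3 →* Module.End K U)
    (hcompat : ∀ g x, σ g * ρ x = ρ (g • x) * σ g) (hσ0 : ∀ u, ∑ g : S3, σ g u = 0)
    (p : ℕ) (hpK : ∀ r : ℕ, r.Prime → r ≠ p → (r : K) ≠ 0)
    (hOp : ∀ R : Subgroup X, R.Normal → (∀ a : S3, ∀ x ∈ R, a • x ∈ R) → IsPGroup p R → R = ⊥)
    (L : Subgroup X) [hLn : L.Normal] (hLinv : ∀ a : S3, ∀ x ∈ L, a • x ∈ L)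
    [hLnil : Group.IsNilpotent L] : L ≤ Subgroup.center X := by
  classical
  let H : Subgroup L := (Subgroup.center X).subgroupOf L
  have hH : H = ⊤ := by
    refine eq_top_of_sylow_le H (fun r _ Q => ?_)
    have hQn : (Q : Subgroup L).Normal := inferInstance
    have hQc := Q.characteristic_of_normal hQn
    let R : Subgroup X := (Q : Subgroup L).map L.subtype
    have hauto : ∀ (f : L ≃* L), ∀ y ∈ (Q : Subgroup L), f y ∈ (Q : Subgroup L) := fun f y hy =>
      Subgroup.characteristic_iff_le_comap.1 hQc f hy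
    have hRn : R.Normal := by
      refine ⟨?_⟩
      rintro _ ⟨y, hy, rfl⟩ g
      refine ⟨MulAut.conjNormal g y, hauto _ y hy, ?_⟩
      simp
    have hRinv : ∀ a : S3, ∀ x ∈ R, a • x ∈ R := by
      rintro a _ ⟨y, hy, rfl⟩
      letI lact : MulDistribMulAction S3 L := subAct L hLinv
      exact ⟨a • y, hauto (MulDistribMulAction.toMulEquiv L a) y hy, rfl⟩
    have hRp : IsPGroup r R := Q.isPGroup'.map L.subtype
    have hRc : R ≤ Subgroup.center X := by
      by_cases hrp : r = p
      · subst hrp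
        rw [hOp R hRn hRinv hRp]
        exact bot_le
      · exact rsub_central hX hfix ρ hρ σ hcompat hσ0 R hRinv r hRp
          (hpK r (Fact.out) hrp)
    intro y hy
    exact hRc ⟨y, hy, rfl⟩
  intro x hx
  have : (⟨x, hx⟩ : L) ∈ H := by rw [hH]; trivial
  exact this

/-- **The main lemma.** -/
theorem ML [Group.IsSolvable X] (hX : (Nat.card X).Coprime 6)
    (hfix : ∀ x : X, (∀ g : S3, g • x = x) → x = 1)
    (ρ : X →* Module.End K U) (hρ : Function.Injective ρ) (σ : S3 →* Module.End K U)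
    (hcompat : ∀ g x, σ g * ρ x = ρ (g • x) * σ g) (hσ0 : ∀ u, ∑ g : S3, σ g u = 0)
    (p : ℕ) (hpK : ∀ r : ℕ, r.Prime → r ≠ p → (r : K) ≠ 0)
    (hOp : ∀ R : Subgroup X, R.Normal → (∀ a : S3, ∀ x ∈ R, a • x ∈ R) → IsPGroup p R → R = ⊥)
    (x y : X) : x * y = y * x := by
  have hstep : ∀ m, derivedSeries X (m + 1) ≤ Subgroup.center X →
      derivedSeries X m ≤ Subgroup.center X := by
    intro m hm
    have hinv : ∀ a : S3, ∀ x ∈ derivedSeries X m, a • x ∈ derivedSeries X m := fun a x hx =>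
      Subgroup.characteristic_iff_le_comap.1
        (inferInstance : (derivedSeries X m).Characteristic)
        (MulDistribMulAction.toMulEquiv X a) hx
    haveI : Group.IsNilpotent (derivedSeries X m) := by
      refine ⟨⟨2, ?_⟩⟩
      rw [eq_top_iff]
      intro a _
      rw [Subgroup.mem_upperCentralSeries_succ_iff]
      intro b
      rw [Subgroup.upperCentralSeries_one]
      rw [Subgroup.mem_center_iff]
      intro c
      apply Subtype.ext
      have h1 : ⁅a.1, b.1⁆ ∈ derivedSeries X (m + 1) := by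
        rw [derivedSeries_succ]
        exact Subgroup.commutator_mem_commutator a.2 b.2
      have h2 := Subgroup.mem_center_iff.1 (hm h1) c.1
      exact h2
    exact sub_central hX hfix ρ hρ σ hcompat hσ0 p hpK hOp (derivedSeries X m) hinv
  obtain ⟨n, hn⟩ := (inferInstance : Group.IsSolvable X).solvable
  have hall : ∀ k m, m + k = n → derivedSeries X m ≤ Subgroup.center X := by
    intro k
    induction k with
    | zero =>
      intro m hm
      rw [add_zero] at hm
      rw [hm, hn]
      exact bot_le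
    | succ k ih =>
      intro m hm
      exact hstep m (ih (m + 1) (by omega))
  have h := hall n 0 (by omega)
  rw [derivedSeries_zero] at h
  exact (Subgroup.mem_center_iff.1 (h (Subgroup.mem_top y)) x)

end

end Cfsg.Agent.Lib.S3ML
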