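import Mathlib
import Cfsg.Agent.Lib.S3ML

/-!
# The dual of an elementary abelian group as a representation, and the induction step for `S3`.
-/

set_option autoImplicit false
set_option maxRecDepth 4000

namespace Cfsg.Agent.Lib.S3Top

open Cfsg.Agent.Lib.S3Fpf Cfsg.Agent.Lib.S3Rep Cfsg.Agent.Lib.S3Alg Cfsg.Agent.Lib.S3Elem
  Cfsg.Agent.Lib.S3LemI Cfsg.Agent.Lib.S3ML Cfsg.Agent.Lib.CoprimeAct
open scoped commutatorElement

section dualrep

variable {A K : Type*} [CommGroup A] [Field K]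

/-- One operator of the dual representation. -/
noncomputable def dualEnd (Γ : Type*) [Group Γ] [MulDistribMulAction Γ A] (g : Γ) :
    Module.End K (Additive A →+ K) where
  toFun f := f.comp (MonoidHom.toAdditive (MulDistribMulAction.toMonoidHom A g⁻¹))
  map_add' f f' := rfl
  map_smul' c f := rfl

theorem dualEnd_apply (Γ : Type*) [Group Γ] [MulDistribMulAction Γ A] (g : Γ)
    (f : Additive A →+ K) (v : A) :
    dualEnd Γ g f (Additive.ofMul v) = f (Additive.ofMul (g⁻¹ • v)) := rfl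

/-- The dual representation. -/
noncomputable def dualRep (Γ : Type*) [Group Γ] [MulDistribMulAction Γ A] :
    Γ →* Module.End K (Additive A →+ K) where
  toFun := dualEnd Γ
  map_one' := by
    ext f v
    show f (Additive.ofMul ((1 : Γ)⁻¹ • v)) = f (Additive.ofMul v)
    rw [inv_one, one_smul]
  map_mul' a b := by
    ext f v
    show f (Additive.ofMul ((a * b)⁻¹ • v)) = f (Additive.ofMul (b⁻¹ • a⁻¹ • v))
    rw [mul_inv_rev, mul_smul]

theorem dualRep_apply (Γ : Type*) [Group Γ] [MulDistribMulAction Γ A] (g : Γ)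
    (f : Additive A →+ K) (v : A) :
    dualRep Γ g f (Additive.ofMul v) = f (Additive.ofMul (g⁻¹ • v)) := rfl

theorem dualRep_compat {G S : Type*} [Group G] [MulDistribMulAction G A] [Group S]
    [MulDistribMulAction S A] [MulDistribMulAction S G]
    (hact : ∀ (g : S) (x : G) (v : A), g • (x • v) = (g • x) • (g • v)) (g : S) (x : G) :
    (dualRep S g * dualRep G x : Module.End K (Additive A →+ K)) =
      dualRep G (g • x) * dualRep S g := by
  ext f v
  show f (Additive.ofMul (x⁻¹ • g⁻¹ • v)) = f (Additive.ofMul (g⁻¹ • (g • x)⁻¹ • v))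
  rw [hact g⁻¹, smul_inv', inv_smul_smul]

theorem dualRep_norm [MulDistribMulAction S3 A] (hA : ∀ v : A, ∏ g : S3, g • v = 1)
    (f : Additive A →+ K) : ∑ g : S3, dualRep S3 g f = 0 := by
  refine AddMonoidHom.ext (fun w => ?_)
  obtain ⟨v, rfl⟩ := Additive.ofMul.surjective w
  rw [AddMonoidHom.finsetSum_apply]
  show ∑ g : S3, f (Additive.ofMul (g⁻¹ • v)) = 0
  rw [← map_sum, ← ofMul_prod]
  have h2 : ∏ g : S3, g⁻¹ • v = ∏ g : S3, g • v :=
    Fintype.prod_equiv (Equiv.inv S3) _ _ (fun g => rfl)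
  rw [h2, hA, ofMul_one, map_zero]

theorem exists_sep_add {K V : Type*} [Field K] (p : ℕ) [Fact p.Prime] [CharP K p]
    [AddCommGroup V] [Module (ZMod p) V] (v : V) (hv : v ≠ 0) : ∃ f : V →+ K, f v ≠ 0 := by
  classical
  by_contra hne
  push Not at hne
  letI : Algebra (ZMod p) K := ZMod.algebra K p
  apply hv
  refine (Module.forall_dual_apply_eq_zero_iff (ZMod p) v).1 ?_
  intro φ
  have h1 := hne ((algebraMap (ZMod p) K).toAddMonoidHom.comp φ.toAddMonoidHom)
  have h2 : algebraMap (ZMod p) K (φ v) = 0 := h1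
  exact (map_eq_zero (algebraMap (ZMod p) K)).1 h2

/-- Separation of points. -/
theorem exists_sep (p : ℕ) [Fact p.Prime] [CharP K p] (hA : ∀ v : A, v ^ p = 1) (v : A)
    (hv : v ≠ 1) : ∃ f : Additive A →+ K, f (Additive.ofMul v) ≠ 0 := by
  have hmod : ∀ x : Additive A, p • x = 0 := fun x => by
    show Additive.ofMul (x.toMul ^ p) = 0
    rw [hA]
    rfl
  letI : Module (ZMod p) (Additive A) := AddCommGroup.zmodModule hmod
  exact exists_sep_add p (Additive.ofMul v) hv

end dualrep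

section step

/-- **The centralizing step.** -/
theorem centralizes_abs {G A K : Type*} [Group G] [Finite G] [Group.IsSolvable G]
    [MulDistribMulAction S3 G] [CommGroup A] [Finite A] [MulDistribMulAction G A]
    [MulDistribMulAction S3 A]
    (hact : ∀ (g : S3) (x : G) (v : A), g • (x • v) = (g • x) • (g • v))
    (hG6 : (Nat.card G).Coprime 6) (hfix : ∀ x : G, (∀ g : S3, g • x = x) → x = 1)
    (hfixA : ∀ v : A, (∀ g : S3, g • v = v) → v = 1)
    (p : ℕ) [hp : Fact p.Prime] (hAp : ∀ v : A, v ^ p = 1) (hAne : Nontrivial A)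
    (hAmin : ∀ B : Subgroup A, (∀ x : G, ∀ v ∈ B, x • v ∈ B) → (∀ a : S3, ∀ v ∈ B, a • v ∈ B) →
      B ≠ ⊥ → B = ⊤)
    [Field K] [IsAlgClosed K] [CharP K p] (x y : G) (v : A) : ⁅x, y⁆ • v = v := by
  classical
  let ρ : G →* Module.End K (Additive A →+ K) := dualRep G
  let σ : S3 →* Module.End K (Additive A →+ K) := dualRep S3
  have hmemC : ∀ x : G, x ∈ ρ.ker ↔ ∀ v : A, x • v = v := by
    intro x
    constructor
    · intro hx v
      have hx1 : ρ x = 1 := hx
      have h0 : x⁻¹ • v = v := by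
        by_contra hne
        have hne' : (x⁻¹ • v) * v⁻¹ ≠ 1 := fun h => hne (mul_inv_eq_one.1 h)
        obtain ⟨f, hf⟩ := exists_sep (K := K) p hAp _ hne'
        apply hf
        have h1 : ρ x f (Additive.ofMul v) = f (Additive.ofMul v) := by
          rw [hx1]; rfl
        have h2 : f (Additive.ofMul (x⁻¹ • v)) = f (Additive.ofMul v) := h1
        rw [ofMul_mul, map_add, h2, ofMul_inv, map_neg, add_neg_cancel]
      conv_lhs => rw [← h0]
      rw [smul_inv_smul]
    · intro hx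
      show ρ x = 1
      ext f v
      show f (Additive.ofMul (x⁻¹ • v)) = f (Additive.ofMul v)
      rw [inv_smul_eq_iff.2 (hx _).symm]
  have hCinv : ∀ a : S3, ∀ x ∈ ρ.ker, a • x ∈ ρ.ker := by
    intro a x hx
    rw [hmemC] at hx ⊢
    intro v
    have h1 := hact a x (a⁻¹ • v)
    rw [smul_inv_smul, hx] at h1
    rw [← h1, smul_inv_smul]
  have hAnorm : ∀ v : A, ∏ g : S3, g • v = 1 := by
    intro v
    apply hfixA
    intro h
    rw [Finset.smul_prod']
    exact Fintype.prod_equiv (Equiv.mulLeft h) _ _ (fun g => (mul_smul h g v).symm)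
  have hσ0 : ∀ u, ∑ g : S3, σ g u = 0 := fun u => dualRep_norm hAnorm u
  have hcompat : ∀ (g : S3) (x : G), σ g * ρ x = ρ (g • x) * σ g := dualRep_compat hact
  letI qa : MulDistribMulAction S3 (G ⧸ ρ.ker) := quotAct ρ.ker hCinv
  have hqa : ∀ (a : S3) (x : G), a • (x : G ⧸ ρ.ker) = ((a • x : G) : G ⧸ ρ.ker) := fun _ _ => rfl
  let ρ' : (G ⧸ ρ.ker) →* Module.End K (Additive A →+ K) :=
    QuotientGroup.lift ρ.ker ρ (fun x hx => hx)
  have hρ'mk : ∀ x : G, ρ' (x : G ⧸ ρ.ker) = ρ x := fun x => rfl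
  have hρ' : Function.Injective ρ' := by
    intro p q hpq
    obtain ⟨a, rfl⟩ := QuotientGroup.mk_surjective p
    obtain ⟨b, rfl⟩ := QuotientGroup.mk_surjective q
    rw [hρ'mk, hρ'mk] at hpq
    refine QuotientGroup.eq.2 ?_
    show ρ (a⁻¹ * b) = 1
    have h1 : ρ a⁻¹ * ρ a = 1 := by rw [← map_mul, inv_mul_cancel, map_one]
    rw [map_mul, ← hpq, h1]
  have hcompat' : ∀ (g : S3) q, σ g * ρ' q = ρ' (g • q) * σ g := by
    intro g q
    obtain ⟨a, rfl⟩ := QuotientGroup.mk_surjective q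
    rw [hqa, hρ'mk, hρ'mk]
    exact hcompat g a
  have hX6 : (Nat.card (G ⧸ ρ.ker)).Coprime 6 :=
    Nat.Coprime.coprime_dvd_left (Subgroup.card_quotient_dvd_card _) hG6
  have hfix' : ∀ q : G ⧸ ρ.ker, (∀ g : S3, g • q = q) → q = 1 := by
    intro q hq
    obtain ⟨a, rfl⟩ := QuotientGroup.mk_surjective q
    have hmem : ∀ g : S3, a⁻¹ * (g • a) ∈ ρ.ker := fun g => by
      have := hq g
      rw [hqa] at this
      exact QuotientGroup.eq.1 this.symm
    obtain ⟨z, hz1, hz2, hz3⟩ := lift_fixed hG6 ρ.ker (hCinv sa) (hCinv sb) a (hmem sa) (hmem sb)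
    have hz : z = 1 := hfix z (fixed_of_sa_inv inv3_sb hz2 hz3)
    rw [hz, mul_one] at hz1
    refine (QuotientGroup.eq_one_iff _).2 ?_
    simpa using (ρ.ker).inv_mem hz1
  have hpK : ∀ r : ℕ, r.Prime → r ≠ p → (r : K) ≠ 0 := by
    intro r hr hrp h0
    have h1 := (CharP.cast_eq_zero_iff K p r).1 h0
    exact hrp ((Nat.prime_dvd_prime_iff_eq hp.out hr).1 h1).symm
  have hOp : ∀ R : Subgroup (G ⧸ ρ.ker), R.Normal → (∀ a : S3, ∀ x ∈ R, a • x ∈ R) →
      IsPGroup p R → R = ⊥ := by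
    intro R hRn hRinv hRp
    let θG : G →* Equiv.Perm A := MulAction.toPermHom G A
    have hθG : ∀ x : G, ∀ v, θG x v = x • v := fun _ _ => rfl
    have hle : ρ.ker ≤ θG.ker := by
      intro x hx
      ext v
      exact (hmemC x).1 hx v
    let θ : (G ⧸ ρ.ker) →* Equiv.Perm A := QuotientGroup.lift ρ.ker θG hle
    have hθ : ∀ (x : G) (v : A), θ (x : G ⧸ ρ.ker) v = x • v := fun _ _ => rfl
    letI Ract : MulAction R A := MulAction.compHom A (θ.comp R.subtype)
    have hRact : ∀ (q : R) (v : A), q • v = θ q.1 v := fun _ _ => rfl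
    have hmod := hRp.card_modEq_card_fixedPoints A
    have hpA : p ∣ Nat.card A := by
      obtain ⟨w, hw⟩ := exists_ne (1 : A)
      have h1 : orderOf w = p := orderOf_eq_prime (hAp w) hw
      rw [← h1]
      exact orderOf_dvd_natCard w
    have hpF : p ∣ Nat.card (MulAction.fixedPoints R A) :=
      (Nat.modEq_zero_iff_dvd.1 (hmod.symm.trans (Nat.modEq_zero_iff_dvd.2 hpA)))
    have h1fix : (1 : A) ∈ MulAction.fixedPoints R A := by
      intro q
      rw [hRact]
      obtain ⟨a, ha⟩ := QuotientGroup.mk_surjective q.1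
      rw [← ha, hθ, smul_one]
    have hv₀ : ∃ v₀ : A, v₀ ∈ MulAction.fixedPoints R A ∧ v₀ ≠ 1 := by
      by_contra hne
      push Not at hne
      have hsub : Subsingleton (MulAction.fixedPoints R A) :=
        ⟨fun a b => Subtype.ext ((hne a.1 a.2).trans (hne b.1 b.2).symm)⟩
      have h2 : Nat.card (MulAction.fixedPoints R A) = 1 := by
        haveI : Nonempty (MulAction.fixedPoints R A) := ⟨⟨1, h1fix⟩⟩
        exact Nat.card_unique
      rw [h2] at hpF
      exact hp.out.one_lt.ne' (Nat.dvd_one.1 hpF)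
    obtain ⟨v₀, hv₀1, hv₀2⟩ := hv₀
    let Rt : Subgroup G := R.comap (QuotientGroup.mk' ρ.ker)
    have hRtmem : ∀ x : G, x ∈ Rt ↔ (x : G ⧸ ρ.ker) ∈ R := fun _ => Iff.rfl
    let B : Subgroup A :=
      { carrier := {v | ∀ r ∈ Rt, r • v = v}
        mul_mem' := fun {a b} ha hb r hr => by rw [smul_mul', ha r hr, hb r hr]
        one_mem' := fun r _ => smul_one r
        inv_mem' := fun {a} ha r hr => by rw [smul_inv', ha r hr] }
    have hBG : ∀ x : G, ∀ v ∈ B, x • v ∈ B := by
      intro x v hv r hr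
      have h1 : x⁻¹ * r * x ∈ Rt := by
        rw [hRtmem] at hr ⊢
        have := hRn.conj_mem _ hr (x⁻¹ : G ⧸ ρ.ker)
        simpa using this
      have h2 := hv _ h1
      rw [mul_smul, mul_smul, inv_smul_eq_iff] at h2
      exact h2
    have hBS : ∀ a : S3, ∀ v ∈ B, a • v ∈ B := by
      intro a v hv r hr
      have h1 : a⁻¹ • r ∈ Rt := by
        rw [hRtmem] at hr ⊢
        exact hRinv _ _ hr
      have h2 := hv _ h1
      have h3 := hact a (a⁻¹ • r) v
      rw [h2, smul_inv_smul] at h3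
      exact h3.symm
    have hBne : B ≠ ⊥ := by
      intro h
      have hv₀B : v₀ ∈ B := by
        intro r hr
        have := hv₀1 ⟨(r : G ⧸ ρ.ker), hr⟩
        rw [hRact] at this
        exact this
      rw [h] at hv₀B
      exact hv₀2 hv₀B
    have hBtop := hAmin B hBG hBS hBne
    rw [eq_bot_iff]
    intro q hq
    obtain ⟨r, rfl⟩ := QuotientGroup.mk_surjective q
    have hr : r ∈ Rt := hq
    have hrC : r ∈ ρ.ker := by
      rw [hmemC]
      intro v
      have : v ∈ B := by rw [hBtop]; trivial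
      exact this r hr
    exact (QuotientGroup.eq_one_iff _).2 hrC
  have hcomm := ML hX6 hfix' ρ' hρ' σ hcompat' hσ0 p hpK hOp (x : G ⧸ ρ.ker) (y : G ⧸ ρ.ker)
  have h1 : ((⁅x, y⁆ : G) : G ⧸ ρ.ker) = 1 := by
    have h2 : ((⁅x, y⁆ : G) : G ⧸ ρ.ker) = ⁅(x : G ⧸ ρ.ker), (y : G ⧸ ρ.ker)⁆ :=
      map_commutatorElement (QuotientGroup.mk' ρ.ker) x y
    rw [h2]
    exact commutatorElement_eq_one_iff_mul_comm.2 hcomm
  exact (hmemC _).1 ((QuotientGroup.eq_one_iff _).1 h1) v

end step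

end Cfsg.Agent.Lib.S3Top
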