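import Mathlib
import Cfsg.Agent.Lib.PQRep
import Cfsg.Agent.Lib.S3Top

/-!
# Duality for a symmetric form on an elementary abelian 2-group, and counting eigenvectors.
-/

set_option autoImplicit false

namespace Cfsg.Agent.Lib.PQRed1

open Module Cfsg.Agent.Lib.PQRep Cfsg.Agent.Lib.S3Top

/-- A nondegenerate symmetric biadditive form with values in `ZMod 2`. -/
structure SF (V : Type*) [CommGroup V] where
  b : V → V → ZMod 2
  hl : ∀ x x' y, b (x * x') y = b x y + b x' y
  hs : ∀ x y, b x y = b y x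
  hnd : ∀ x, (∀ y, b x y = 0) → x = 1

section form

variable {V K : Type*} [CommGroup V] [Field K] [CharP K 2] (B : SF V)

theorem SF.one_left (y : V) : B.b 1 y = 0 := by
  have h := B.hl 1 1 y
  rw [mul_one] at h
  have h2 : B.b 1 y + B.b 1 y = B.b 1 y + 0 := by rw [← h, add_zero]
  exact add_left_cancel h2

theorem SF.mul_right (x y y' : V) : B.b x (y * y') = B.b x y + B.b x y' := by
  rw [B.hs, B.hl, B.hs y, B.hs y']

theorem SF.one_right (x : V) : B.b x 1 = 0 := by
  rw [B.hs, B.one_left]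

/-- The embedding of `ZMod 2`. -/
noncomputable def iota : ZMod 2 →+* K := ZMod.castHom (dvd_refl 2) K

theorem iota_injective : Function.Injective (iota : ZMod 2 →+* K) := (iota : ZMod 2 →+* K).injective

/-- The functional attached to a vector. -/
noncomputable def bF (v : V) : Additive V →+ K where
  toFun w := iota (B.b v w.toMul)
  map_zero' := by
    show iota (B.b v 1) = 0
    rw [B.one_right, map_zero]
  map_add' x y := by
    show iota (B.b v (x.toMul * y.toMul)) = _
    rw [B.mul_right, map_add]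

theorem bF_apply (v w : V) : bF (K := K) B v (Additive.ofMul w) = iota (B.b v w) := rfl

theorem bF_inj {v v' : V} (h : bF (K := K) B v = bF (K := K) B v') : v = v' := by
  have h1 : v * v'⁻¹ = 1 := by
    apply B.hnd
    intro y
    have h2 : iota (K := K) (B.b v y) = iota (B.b v' y) := congrArg (fun f => f (Additive.ofMul y)) h
    have h3 := iota_injective h2
    have h4 : B.b v' y + B.b v'⁻¹ y = 0 := by
      rw [← B.hl, mul_inv_cancel, B.one_left]
    rw [B.hl, h3, h4]
  exact mul_inv_eq_one.1 h1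

theorem dual_bF (g : MulAut V) (hg : ∀ x y, B.b (g x) (g y) = B.b x y) (v : V) :
    dualRep (K := K) (MulAut V) g (bF B v) = bF B (g v) := by
  refine AddMonoidHom.ext (fun w => ?_)
  obtain ⟨w, rfl⟩ := Additive.ofMul.surjective w
  rw [dualRep_apply, bF_apply, bF_apply]
  congr 1
  have h1 := hg v (g⁻¹ • w)
  rw [← h1]
  congr 1
  exact g.apply_symm_apply w

end form

section pair

variable {V K S : Type*} [CommGroup V] [Field K] [IsAlgClosed K] [CharP K 2] (B : SF V)
  [CommGroup S] [Fintype S]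

theorem sum_prj (τ : S →* End K (Additive V →+ K)) (hS : (Fintype.card S : K) ≠ 0)
    [Fintype (S →* Kˣ)] (u : Additive V →+ K) : ∑ χ : S →* Kˣ, prj τ χ u = u :=
  S3Rep.sum_proj τ hS u

/-- A nontrivially acting element gives a character occurring together with its inverse. -/
theorem dual_pair (τ₀ : S →* MulAut V) (hτ₀ : ∀ s x y, B.b (τ₀ s x) (τ₀ s y) = B.b x y)
    (hS : (Fintype.card S : K) ≠ 0) (d₀ : S) (hd : τ₀ d₀ ≠ 1) :
    ∃ (μ : S →* Kˣ) (v₀ v₁ : V), μ d₀ ≠ 1 ∧
      prj ((dualRep (K := K) (MulAut V)).comp τ₀) μ (bF B v₀) ≠ 0 ∧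
      prj ((dualRep (K := K) (MulAut V)).comp τ₀) μ⁻¹ (bF B v₁) ≠ 0 := by
  classical
  haveI := S3Rep.finite_chars (K := K) hS
  letI := Fintype.ofFinite (S →* Kˣ)
  set τ : S →* End K (Additive V →+ K) := (dualRep (K := K) (MulAut V)).comp τ₀ with hτ
  obtain ⟨v₀, hv₀⟩ : ∃ v₀, τ₀ d₀ v₀ ≠ v₀ := by
    by_contra! h
    exact hd (MulEquiv.ext h)
  have hτbF : ∀ s v, τ s (bF B v) = bF B (τ₀ s v) := fun s v => dual_bF B (τ₀ s) (hτ₀ s) v
  obtain ⟨μ, hμ1, hμ2⟩ : ∃ μ : S →* Kˣ, μ d₀ ≠ 1 ∧ prj τ μ (bF B v₀) ≠ 0 := by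
    by_contra! h
    apply hv₀
    apply bF_inj (K := K) B
    have h1 := sum_prj τ hS (bF (K := K) B v₀)
    rw [← hτbF]
    conv_lhs => rw [← h1]
    conv_rhs => rw [← h1]
    rw [map_sum]
    refine Finset.sum_congr rfl (fun χ _ => ?_)
    rw [eig_prj τ χ (bF B v₀) d₀]
    by_cases hχ : χ d₀ = 1
    · rw [hχ, Units.val_one, one_smul]
    · rw [h χ hχ, smul_zero]
  -- a witness
  obtain ⟨v₁, hv₁⟩ : ∃ v₁ : V, prj τ μ (bF B v₀) (Additive.ofMul v₁) ≠ 0 := by
    by_contra! h
    apply hμ2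
    refine AddMonoidHom.ext (fun w => ?_)
    obtain ⟨w, rfl⟩ := Additive.ofMul.surjective w
    exact h w
  refine ⟨μ, v₀, v₁, hμ1, hμ2, fun h0 => hv₁ ?_⟩
  -- the duality formula
  have hform : ∀ (χ : S →* Kˣ) (v w : V), prj τ χ (bF B v) (Additive.ofMul w) =
      (Fintype.card S : K)⁻¹ • ∑ s : S, (((χ s)⁻¹ : Kˣ) : K) • iota (K := K) (B.b (τ₀ s v) w) := by
    intro χ v w
    rw [prj_apply]
    simp only [hτbF]
    rw [AddMonoidHom.smul_apply, AddMonoidHom.finsetSum_apply]
    rfl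
  have h1 := congrArg (fun f : Additive V →+ K => f (Additive.ofMul v₀)) h0
  simp only [hform] at h1
  rw [hform]
  convert h1 using 2
  refine Fintype.sum_equiv (Equiv.inv S) _ _ (fun s => ?_)
  simp only [Equiv.inv_apply, MonoidHom.inv_apply, inv_inv, map_inv]
  congr 2
  have h3 : τ₀ s ((τ₀ s)⁻¹ v₁) = v₁ := (τ₀ s).apply_symm_apply v₁
  rw [B.hs ((τ₀ s)⁻¹ v₁) v₀, ← hτ₀ s v₀ ((τ₀ s)⁻¹ v₁), h3]
  rfl

end pair

section count

theorem count2 {K F ι : Type*} [Field K] [AddCommGroup F] [Module K F] (c : End K F) [Fintype ι]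
    (ξ : ι → K) (hξ : Function.Injective ξ) (W₁ W₂ F₀ : Submodule K F) [Module.Finite K F₀]
    (hdis : W₁ ⊓ W₂ = ⊥)
    (h₁ : ∀ i, ∃ w ∈ W₁, w ≠ 0 ∧ c w = ξ i • w ∧ w ∈ F₀)
    (h₂ : ∀ i, ∃ w ∈ W₂, w ≠ 0 ∧ c w = ξ i • w ∧ w ∈ F₀) :
    2 * Fintype.card ι ≤ finrank K F₀ := by
  classical
  choose v₁ hv₁W hv₁0 hv₁c hv₁F using h₁
  choose v₂ hv₂W hv₂0 hv₂c hv₂F using h₂
  have hl₁ : LinearIndependent K v₁ :=
    Module.End.eigenvectors_linearIndependent' c ξ hξ v₁
      (fun i => ⟨Module.End.mem_eigenspace_iff.2 (hv₁c i), hv₁0 i⟩)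
  have hl₂ : LinearIndependent K v₂ :=
    Module.End.eigenvectors_linearIndependent' c ξ hξ v₂
      (fun i => ⟨Module.End.mem_eigenspace_iff.2 (hv₂c i), hv₂0 i⟩)
  have hs₁ : Submodule.span K (Set.range v₁) ≤ W₁ := Submodule.span_le.2 (by
    rintro _ ⟨i, rfl⟩
    exact hv₁W i)
  have hs₂ : Submodule.span K (Set.range v₂) ≤ W₂ := Submodule.span_le.2 (by
    rintro _ ⟨i, rfl⟩
    exact hv₂W i)
  have hdisj : Disjoint (Submodule.span K (Set.range v₁)) (Submodule.span K (Set.range v₂)) := by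
    rw [disjoint_iff, eq_bot_iff, ← hdis]
    exact inf_le_inf hs₁ hs₂
  have hl := hl₁.sum_type hl₂ hdisj
  have hcard := finrank_span_eq_card hl
  have hle : Submodule.span K (Set.range (Sum.elim v₁ v₂)) ≤ F₀ := Submodule.span_le.2 (by
    rintro _ ⟨i | i, rfl⟩
    · exact hv₁F i
    · exact hv₂F i)
  have h3 := Submodule.finrank_mono hle
  rw [hcard, Fintype.card_sum, ← two_mul] at h3
  exact h3

end count

section bound

variable {V K : Type*} [CommGroup V] [Finite V] [Field K] [CharP K 2]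

/-- The kernel of the norm of an automorphism. -/
def normKer (c : MulAut V) (ℓ : ℕ) : Subgroup V where
  carrier := {v | ∏ i ∈ Finset.range ℓ, (c ^ i) v = 1}
  mul_mem' := fun {a b} ha hb => by
    show ∏ i ∈ Finset.range ℓ, (c ^ i) (a * b) = 1
    simp only [map_mul]
    rw [Finset.prod_mul_distrib, show ∏ i ∈ Finset.range ℓ, (c ^ i) a = 1 from ha,
      show ∏ i ∈ Finset.range ℓ, (c ^ i) b = 1 from hb, one_mul]
  one_mem' := by
    show ∏ i ∈ Finset.range ℓ, (c ^ i) (1 : V) = 1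
    simp
  inv_mem' := fun {a} ha => by
    show ∏ i ∈ Finset.range ℓ, (c ^ i) a⁻¹ = 1
    simp only [map_inv]
    rw [Finset.prod_inv_distrib, show ∏ i ∈ Finset.range ℓ, (c ^ i) a = 1 from ha, inv_one]

theorem mem_normKer {c : MulAut V} {ℓ : ℕ} {v : V} :
    v ∈ normKer c ℓ ↔ ∏ i ∈ Finset.range ℓ, (c ^ i) v = 1 := Iff.rfl

theorem comm_mem_normKer (c : MulAut V) {ℓ : ℕ} (hc : c ^ ℓ = 1) (v : V) :
    v⁻¹ * c v ∈ normKer c ℓ := by
  rw [mem_normKer]
  simp only [map_mul, map_inv]
  rw [Finset.prod_mul_distrib, Finset.prod_inv_distrib]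
  have h1 : ∏ i ∈ Finset.range ℓ, (c ^ i) (c v) = ∏ i ∈ Finset.range ℓ, (c ^ i) v := by
    set g : ℕ → V := fun i => (c ^ i) v with hg
    have h2 : ∀ i, (c ^ i) (c v) = g (i + 1) := fun i => by
      simp only [hg]
      rw [pow_succ]
      rfl
    simp only [h2]
    have h3 := Finset.prod_range_succ g ℓ
    have h4 := Finset.prod_range_succ' g ℓ
    have h5 : g ℓ = g 0 := by
      simp only [hg]
      rw [hc, pow_zero]
    rw [h5] at h3
    exact mul_right_cancel (h4.symm.trans h3)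
  rw [h1, inv_mul_cancel]

/-- The norm kernel on the dual injects in the dual of the norm kernel. -/
theorem finrank_ker_le (hV2 : ∀ v : V, v ^ 2 = 1) (c : MulAut V) {ℓ : ℕ} (hc : c ^ ℓ = 1)
    (hℓ : (ℓ : K) ≠ 0) {k : ℕ} (hJ : Nat.card (normKer c ℓ) = 2 ^ k)
    (F₀ : Submodule K (Additive V →+ K))
    (hF₀ : ∀ u ∈ F₀, ∑ i ∈ Finset.range ℓ, ((dualRep (K := K) (MulAut V) c) ^ i) u = 0) :
    Module.Finite K F₀ ∧ finrank K F₀ ≤ k := by
  classical
  set J := normKer c ℓ with hJdef
  have hmod : ∀ x : Additive J, 2 • x = 0 := fun x => by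
    show Additive.ofMul (x.toMul ^ 2) = 0
    have : x.toMul ^ 2 = 1 := Subtype.ext (hV2 _)
    rw [this]
    rfl
  letI : Module (ZMod 2) (Additive J) := AddCommGroup.zmodModule hmod
  haveI : Module.Finite (ZMod 2) (Additive J) := Module.Finite.of_finite
  have hcard : Nat.card (Additive J) = 2 ^ finrank (ZMod 2) (Additive J) := by
    have := Module.natCard_eq_pow_finrank (K := ZMod 2) (V := Additive J)
    simpa using this
  have hfin : finrank (ZMod 2) (Additive J) = k := by
    have h1 : Nat.card (Additive J) = Nat.card J := rfl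
    rw [h1, hJ] at hcard
    exact (Nat.pow_right_injective (le_refl 2) hcard).symm
  let e := Module.finBasis (ZMod 2) (Additive J)
  let L : F₀ →ₗ[K] (Fin (finrank (ZMod 2) (Additive J)) → K) :=
    { toFun := fun u i => u.1 (Additive.ofMul ((e i).toMul : V))
      map_add' := fun _ _ => rfl
      map_smul' := fun _ _ => rfl }
  have hinj : Function.Injective L := by
    suffices hz : ∀ u : F₀, (∀ i, u.1 (Additive.ofMul ((e i).toMul : V)) = 0) → u = 0 by
      intro u u' h
      refine sub_eq_zero.1 (hz _ (fun i => ?_))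
      have h1 := congrFun h i
      show u.1 _ - u'.1 _ = 0
      exact sub_eq_zero.2 h1
    intro u hzero
    -- vanishing on the kernel
    let ux : Additive J →+ K := u.1.comp (AddMonoidHom.mk' (fun x : Additive J =>
      Additive.ofMul (x.toMul : V)) (fun _ _ => rfl))
    have hux : ∀ x, ux x = 0 := by
      intro x
      rw [← e.sum_repr x, map_sum]
      refine Finset.sum_eq_zero (fun i _ => ?_)
      have h1 : ∀ (a : ZMod 2) (y : Additive J), a • y = (a.val) • y := by
        intro a y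
        conv_lhs => rw [← ZMod.natCast_zmod_val a]
        exact Nat.cast_smul_eq_nsmul (ZMod 2) _ _
      rw [h1, map_nsmul]
      have h2 : ux (e i) = 0 := hzero i
      rw [h2, nsmul_zero]
    have hfix : ∀ v : V, u.1 (Additive.ofMul (c v)) = u.1 (Additive.ofMul v) := by
      intro v
      have h1 := hux ⟨_, comm_mem_normKer c hc v⟩
      have h2 : ux ⟨_, comm_mem_normKer c hc v⟩ =
          u.1 (Additive.ofMul (v⁻¹ * c v)) := rfl
      rw [h2, ofMul_mul, map_add, ofMul_inv, map_neg] at h1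
      exact (neg_add_eq_zero.1 h1).symm
    -- `u` is fixed by the dual action
    have hfixu : dualRep (K := K) (MulAut V) c u.1 = u.1 := by
      refine AddMonoidHom.ext (fun w => ?_)
      obtain ⟨w, rfl⟩ := Additive.ofMul.surjective w
      rw [dualRep_apply]
      have h1 := hfix (c⁻¹ • w)
      have h2 : c (c⁻¹ • w) = w := c.apply_symm_apply w
      rw [h2] at h1
      exact h1.symm
    have hfixpow : ∀ i, ((dualRep (K := K) (MulAut V) c) ^ i) u.1 = u.1 := by
      intro i
      induction i with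
      | zero => rfl
      | succ i ih =>
        rw [pow_succ, Module.End.mul_apply, hfixu, ih]
    have h3 := hF₀ u.1 u.2
    simp only [hfixpow, Finset.sum_const, Finset.card_range] at h3
    rw [← Nat.cast_smul_eq_nsmul K] at h3
    exact Subtype.ext ((smul_eq_zero.1 h3).resolve_left hℓ)
  haveI : Module.Finite K F₀ := Module.Finite.of_injective L hinj
  refine ⟨inferInstance, ?_⟩
  have h1 := LinearMap.finrank_le_finrank_of_injective hinj
  rw [Module.finrank_fin_fun, hfin] at h1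
  exact h1

end bound

end Cfsg.Agent.Lib.PQRed1
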