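import Mathlib
import Cfsg.Agent.Lib.PQA
import Cfsg.Agent.Lib.S3Fpf

/-!
# Coprime action of a nonabelian group of order `P Q`: fixed points in cosets and in orbits.
-/

set_option autoImplicit false

namespace Cfsg.Agent.Lib.PQFix

open Cfsg.Agent.Lib.PQA Cfsg.Agent.Lib.S3Fpf

section

variable {A Y : Type*} [Group A] [Group Y] [Finite Y] [MulDistribMulAction A Y]

/-- A fixed point in a coset. -/
theorem lift_one {g : A} {ℓ : ℕ} [Fact ℓ.Prime] (hg : g ^ ℓ = 1) (N : Subgroup Y)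
    (hN : ∀ n ∈ N, g • n ∈ N) (hℓ : ¬ ℓ ∣ Nat.card N) (y : Y) (hy : y⁻¹ * (g • y) ∈ N) :
    ∃ z, y⁻¹ * z ∈ N ∧ g • z = z := by
  have hf : ∀ n : N, y⁻¹ * (g • (y * (n : Y))) ∈ N := fun n => by
    have : y⁻¹ * (g • (y * (n : Y))) = (y⁻¹ * (g • y)) * (g • (n : Y)) := by
      rw [smul_mul', mul_assoc]
    rw [this]
    exact N.mul_mem hy (hN _ n.2)
  let f : Function.End N := fun n => ⟨_, hf n⟩
  have hf2 : ∀ n : N, ((f n : N) : Y) = y⁻¹ * (g • (y * (n : Y))) := fun _ => rfl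
  have hfpow : ∀ (k : ℕ) (n : N), (((f ^ k) n : N) : Y) = y⁻¹ * ((g ^ k) • (y * (n : Y))) := by
    intro k
    induction k with
    | zero =>
      intro n
      rw [pow_zero, pow_zero, one_smul]
      show (n : Y) = _
      group
    | succ k ih =>
      intro n
      rw [pow_succ, Function.End.mul_def]
      show ((f ^ k) (f n) : Y) = _
      rw [ih, hf2, pow_succ, mul_smul, mul_inv_cancel_left]
  have hfℓ : f ^ ℓ = 1 := by
    funext n
    apply Subtype.ext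
    rw [hfpow, hg, one_smul, inv_mul_cancel_left]
    rfl
  obtain ⟨n₀, hn₀⟩ := exists_fixed_of_pow ℓ f hfℓ hℓ
  have hn₀' : y⁻¹ * (g • (y * (n₀ : Y))) = n₀ := congrArg Subtype.val hn₀
  refine ⟨y * n₀, by simpa using n₀.2, ?_⟩
  calc g • (y * (n₀ : Y)) = y * (y⁻¹ * (g • (y * (n₀ : Y)))) := by group
    _ = y * n₀ := by rw [hn₀']

theorem not_dvd_of_coprime {n P Q : ℕ} (h : n.Coprime (P * Q)) {ℓ : ℕ} (hℓ : ℓ.Prime)
    (hd : ℓ = P ∨ ℓ = Q) : ¬ ℓ ∣ n := by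
  intro hdvd
  have h1 : ℓ ∣ P * Q := by
    rcases hd with rfl | rfl
    · exact Dvd.intro _ rfl
    · exact Dvd.intro_left _ rfl
  have h2 := Nat.dvd_gcd hdvd h1
  rw [h] at h2
  exact hℓ.one_lt.ne' (Nat.dvd_one.1 h2)

variable [Finite A] {P Q : ℕ} {a : A}

theorem smul_comm_of_zpow {X : Type*} [MulAction A X] {g : A} {x : X} (hx : a • x = x)
    (hg : g ∈ Subgroup.zpowers a) : g • x = x := by
  obtain ⟨i, rfl⟩ := Subgroup.mem_zpowers_iff.1 hg
  exact (MulAction.mem_stabilizer_iff.1 (Subgroup.zpow_mem _ (MulAction.mem_stabilizer_iff.2 hx) i))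

variable (hA : PQStr A P Q a)

include hA

theorem conj_mem (c h : A) (hh : h ∈ Subgroup.zpowers a) : c * h * c⁻¹ ∈ Subgroup.zpowers a := by
  haveI := normal_zpowers hA
  exact Subgroup.Normal.conj_mem inferInstance h hh c

/-- **Fixed points in cosets.** -/
theorem lift_fixed (N : Subgroup Y) (hN : ∀ g : A, ∀ n ∈ N, g • n ∈ N)
    (hcop : (Nat.card N).Coprime (P * Q)) (y : Y) (hy : ∀ g : A, y⁻¹ * (g • y) ∈ N) :
    ∃ z, y⁻¹ * z ∈ N ∧ ∀ g : A, g • z = z := by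
  haveI hfP : Fact P.Prime := ⟨hA.hP⟩
  haveI hfQ : Fact Q.Prime := ⟨hA.hQ⟩
  have haP : a ^ P = 1 := by rw [← hA.ha, pow_orderOf_eq_one]
  obtain ⟨z₀, hz₀N, hz₀a⟩ := lift_one haP N (hN a) (not_dvd_of_coprime hcop hA.hP (Or.inl rfl)) y (hy a)
  obtain ⟨c, hc⟩ := exists_order_Q hA
  have hcQ : c ^ Q = 1 := by rw [← hc, pow_orderOf_eq_one]
  let C : Subgroup Y :=
    { carrier := {x | x ∈ N ∧ a • x = x}
      mul_mem' := fun {p q} hp hq => ⟨N.mul_mem hp.1 hq.1, by rw [smul_mul', hp.2, hq.2]⟩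
      one_mem' := ⟨N.one_mem, smul_one _⟩
      inv_mem' := fun {p} hp => ⟨N.inv_mem hp.1, by rw [smul_inv', hp.2]⟩ }
  have hCle : C ≤ N := fun x hx => hx.1
  have hcopC : (Nat.card C).Coprime (P * Q) :=
    Nat.Coprime.coprime_dvd_left (Subgroup.card_dvd_of_le hCle) hcop
  -- `c` maps fixed points of `a` to fixed points of `a`
  have hac : ∀ x : Y, a • x = x → a • (c • x) = c • x := by
    intro x hx
    have h1 : a * c = c * (c⁻¹ * a * c⁻¹⁻¹) := by group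
    have h2 : (c⁻¹ * a * c⁻¹⁻¹) • x = x :=
      smul_comm_of_zpow hx (conj_mem hA c⁻¹ a (Subgroup.mem_zpowers a))
    rw [← mul_smul, h1, mul_smul, h2]
  have hCc : ∀ n ∈ C, c • n ∈ C := fun n hn => ⟨hN c n hn.1, hac n hn.2⟩
  have hz₀c : z₀⁻¹ * (c • z₀) ∈ C := by
    constructor
    · have h1 : z₀⁻¹ * (c • z₀) =
          (y⁻¹ * z₀)⁻¹ * ((y⁻¹ * (c • y)) * (c • (y⁻¹ * z₀))) := by
        rw [smul_mul', smul_inv']
        group
      rw [h1]
      exact N.mul_mem (N.inv_mem hz₀N) (N.mul_mem (hy c) (hN c _ hz₀N))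
    · rw [smul_mul', smul_inv', hz₀a, hac z₀ hz₀a]
  obtain ⟨z₁, hz₁C, hz₁c⟩ := lift_one hcQ C hCc (not_dvd_of_coprime hcopC hA.hQ (Or.inr rfl)) z₀ hz₀c
  have hz₁a : a • z₁ = z₁ := by
    have h1 : z₁ = z₀ * (z₀⁻¹ * z₁) := by group
    rw [h1, smul_mul', hz₀a, hz₁C.2]
  refine ⟨z₁, ?_, ?_⟩
  · have h1 : y⁻¹ * z₁ = (y⁻¹ * z₀) * (z₀⁻¹ * z₁) := by group
    rw [h1]
    exact N.mul_mem hz₀N hz₁C.1
  · refine forall_of_a_c hA (fun g => g • z₁ = z₁) (one_smul _ _) (fun g h hg hh => ?_) hz₁a hc hz₁c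
    rw [mul_smul, hh, hg]

theorem mem_of_trivial (hfix : ∀ x : Y, (∀ g : A, g • x = x) → x = 1) (N : Subgroup Y)
    (hN : ∀ g : A, ∀ n ∈ N, g • n ∈ N) (hcop : (Nat.card N).Coprime (P * Q)) (y : Y)
    (hy : ∀ g : A, y⁻¹ * (g • y) ∈ N) : y ∈ N := by
  obtain ⟨z, hz1, hz2⟩ := lift_fixed hA N hN hcop y hy
  have hz : z = 1 := hfix z hz2
  rw [hz, mul_one] at hz1
  simpa using N.inv_mem hz1

/-- **Factorization**: two conjugate order `Q` elements acting trivially on the coset spaces. -/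
theorem factor (hfix : ∀ x : Y, (∀ g : A, g • x = x) → x = 1) (hcop : (Nat.card Y).Coprime (P * Q))
    {c h : A} (hc : orderOf c = Q) (hh : h ∈ Subgroup.zpowers a) (hh1 : h ≠ 1)
    (N₀ N₁ : Subgroup Y) (h0 : ∀ y : Y, y⁻¹ * (c • y) ∈ N₀)
    (h1 : ∀ y : Y, y⁻¹ * ((h * c * h⁻¹) • y) ∈ N₁) (y : Y) : y ∈ N₀ ⊔ N₁ := by
  set N : Subgroup Y := N₀ ⊔ N₁ with hNdef
  have hle0 : N₀ ≤ N := le_sup_left
  have hle1 : N₁ ≤ N := le_sup_right
  let R : A → Prop := fun g => (∀ n ∈ N, g • n ∈ N) ∧ ∀ y : Y, y⁻¹ * (g • y) ∈ N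
  have hR1 : R 1 := by
    refine ⟨fun n hn => by rwa [one_smul], fun y => ?_⟩
    rw [one_smul, inv_mul_cancel]
    exact N.one_mem
  have hRm : ∀ g g', R g → R g' → R (g * g') := by
    intro g g' hg hg'
    refine ⟨fun n hn => ?_, fun y => ?_⟩
    · rw [mul_smul]
      exact hg.1 _ (hg'.1 _ hn)
    · rw [mul_smul]
      have h2 : y⁻¹ * (g • (g' • y)) =
          (y⁻¹ * (g • y)) * (g • (y⁻¹ * (g' • y))) := by
        rw [smul_mul' g y⁻¹, smul_inv']
        group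
      rw [h2]
      exact N.mul_mem (hg.2 y) (hg.1 _ (hg'.2 y))
  have hRof : ∀ (g : A) (M : Subgroup Y), M ≤ N → (∀ y : Y, y⁻¹ * (g • y) ∈ M) → R g := by
    intro g M hM hg
    refine ⟨fun n hn => ?_, fun y => hM (hg y)⟩
    have h2 : g • n = n * (n⁻¹ * (g • n)) := by group
    rw [h2]
    exact N.mul_mem hn (hM (hg n))
  have hall : ∀ g, R g := forall_of_conj hA R hR1 hRm hc hh hh1 (hRof c N₀ hle0 h0)
    (hRof _ N₁ hle1 h1)
  exact mem_of_trivial hA hfix N (fun g => (hall g).1)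
    (Nat.Coprime.coprime_dvd_left (Subgroup.card_subgroup_dvd_card N) hcop) y (fun g => (hall g).2 y)

/-- **Glauberman's lemma for orbits.** -/
theorem orbit_fixed_point {X : Type*} [MulAction A X] [MulAction Y X]
    (hcompat : ∀ (g : A) (y : Y) (x : X), g • (y • x) = (g • y) • (g • x))
    (hcop : (Nat.card Y).Coprime (P * Q)) (x₀ : X) (hpres : ∀ g : A, ∃ y : Y, g • x₀ = y • x₀) :
    ∃ y : Y, ∀ g : A, g • (y • x₀) = y • x₀ := by
  classical
  haveI hfP : Fact P.Prime := ⟨hA.hP⟩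
  haveI hfQ : Fact Q.Prime := ⟨hA.hQ⟩
  have haP : a ^ P = 1 := by rw [← hA.ha, pow_orderOf_eq_one]
  obtain ⟨c, hc⟩ := exists_order_Q hA
  have hcQ : c ^ Q = 1 := by rw [← hc, pow_orderOf_eq_one]
  -- `A` preserves the orbit
  have hO : ∀ (g : A) (y : Y), ∃ y' : Y, g • (y • x₀) = y' • x₀ := by
    intro g y
    obtain ⟨y₁, hy₁⟩ := hpres g
    exact ⟨(g • y) * y₁, by rw [hcompat, hy₁, mul_smul]⟩
  -- first step : a fixed point of `a`
  let O := MulAction.orbit Y x₀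
  haveI : Finite O := by
    have : Set.Finite (O : Set X) := Set.finite_range _
    exact this
  have hcardO : Nat.card O ∣ Nat.card Y := by
    have h1 := MulAction.index_stabilizer Y x₀
    have h2 : Nat.card O = (MulAction.orbit Y x₀).ncard := Nat.card_coe_set_eq _
    rw [h2, ← h1]
    exact Subgroup.index_dvd_card _
  have hfa : ∀ ω : O, a • ω.1 ∈ O := by
    rintro ⟨_, y, rfl⟩
    obtain ⟨y', hy'⟩ := hO a y
    exact ⟨y', hy'.symm⟩
  let fa : Function.End O := fun ω => ⟨a • ω.1, hfa ω⟩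
  have hfapow : ∀ (k : ℕ) (ω : O), ((fa ^ k) ω).1 = (a ^ k) • ω.1 := by
    intro k
    induction k with
    | zero => intro ω; rw [pow_zero, pow_zero, one_smul]; rfl
    | succ k ih =>
      intro ω
      rw [pow_succ, Function.End.mul_def]
      show ((fa ^ k) (fa ω)).1 = _
      rw [ih, pow_succ, mul_smul]
  have hfaP : fa ^ P = 1 := by
    funext ω
    apply Subtype.ext
    rw [hfapow, haP, one_smul]
    rfl
  obtain ⟨ω₁, hω₁⟩ := exists_fixed_of_pow P fa hfaP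
    (not_dvd_of_coprime (Nat.Coprime.coprime_dvd_left hcardO hcop) hA.hP (Or.inl rfl))
  have hω₁a : a • ω₁.1 = ω₁.1 := congrArg Subtype.val hω₁
  -- the centralizer of `a` acts
  let C : Subgroup Y :=
    { carrier := {x | a • x = x}
      mul_mem' := fun {p q} hp hq => by
        show a • (p * q) = p * q
        rw [smul_mul', show a • p = p from hp, show a • q = q from hq]
      one_mem' := smul_one _
      inv_mem' := fun {p} hp => by
        show a • p⁻¹ = p⁻¹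
        rw [smul_inv', show a • p = p from hp] }
  -- the fixed points of `a` in the orbit form one orbit of the centralizer
  have htrans : ∀ y : Y, a • (y • ω₁.1) = y • ω₁.1 → ∃ z ∈ C, z • ω₁.1 = y • ω₁.1 := by
    intro y hy
    let N : Subgroup Y := MulAction.stabilizer Y ω₁.1
    have hNa : ∀ n ∈ N, a • n ∈ N := by
      intro n hn
      have hn' : n • ω₁.1 = ω₁.1 := hn
      show (a • n) • ω₁.1 = ω₁.1
      have h1 := hcompat a n ω₁.1
      rw [hn', hω₁a] at h1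
      exact h1.symm
    have hy' : y⁻¹ * (a • y) ∈ N := by
      show (y⁻¹ * (a • y)) • ω₁.1 = ω₁.1
      rw [mul_smul, inv_smul_eq_iff]
      have h1 := hcompat a y ω₁.1
      rw [hω₁a, hy] at h1
      exact h1.symm
    obtain ⟨z, hz1, hz2⟩ := lift_one haP N hNa
      (not_dvd_of_coprime (Nat.Coprime.coprime_dvd_left (Subgroup.card_subgroup_dvd_card N) hcop)
        hA.hP (Or.inl rfl)) y hy'
    refine ⟨z, hz2, ?_⟩
    have h2 : (y⁻¹ * z) • ω₁.1 = ω₁.1 := hz1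
    rw [mul_smul, inv_smul_eq_iff] at h2
    exact h2
  let F := MulAction.orbit C ω₁.1
  haveI : Finite F := by
    have : Set.Finite (F : Set X) := Set.finite_range _
    exact this
  have hcardF : Nat.card F ∣ Nat.card C := by
    have h1 := MulAction.index_stabilizer C ω₁.1
    have h2 : Nat.card F = (MulAction.orbit C ω₁.1).ncard := Nat.card_coe_set_eq _
    rw [h2, ← h1]
    exact Subgroup.index_dvd_card _
  have hcopC : (Nat.card C).Coprime (P * Q) :=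
    Nat.Coprime.coprime_dvd_left (Subgroup.card_subgroup_dvd_card C) hcop
  obtain ⟨yω, hyω⟩ : ∃ y : Y, ω₁.1 = y • x₀ := by
    obtain ⟨y, hy⟩ := ω₁.2
    exact ⟨y, hy.symm⟩
  have hFa : ∀ ω : F, a • ω.1 = ω.1 := by
    rintro ⟨_, z, rfl⟩
    show a • (z.1 • ω₁.1) = z.1 • ω₁.1
    rw [hcompat, hω₁a, show a • z.1 = z.1 from z.2]
  have hac : ∀ x : X, a • x = x → a • (c • x) = c • x := by
    intro x hx
    have h1 : a * c = c * (c⁻¹ * a * c⁻¹⁻¹) := by group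
    have h2 : (c⁻¹ * a * c⁻¹⁻¹) • x = x :=
      smul_comm_of_zpow hx (conj_mem hA c⁻¹ a (Subgroup.mem_zpowers a))
    rw [← mul_smul, h1, mul_smul, h2]
  have hFc : ∀ ω : F, c • ω.1 ∈ F := by
    rintro ⟨_, z, rfl⟩
    have h1 : a • (c • (z.1 • ω₁.1)) = c • (z.1 • ω₁.1) := hac _ (hFa ⟨_, z, rfl⟩)
    -- write `c • (z • ω₁)` as `y • ω₁`
    obtain ⟨y₂, hy₂⟩ := hO c (z.1 * yω)
    have h2 : c • (z.1 • ω₁.1) = (y₂ * yω⁻¹) • ω₁.1 := by
      rw [hyω, ← mul_smul z.1, hy₂, mul_smul, inv_smul_smul]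
    show c • (z.1 • ω₁.1) ∈ F
    rw [h2] at h1 ⊢
    obtain ⟨z', hz'C, hz'⟩ := htrans _ h1
    exact ⟨⟨z', hz'C⟩, hz'⟩
  let fc : Function.End F := fun ω => ⟨c • ω.1, hFc ω⟩
  have hfcpow : ∀ (k : ℕ) (ω : F), ((fc ^ k) ω).1 = (c ^ k) • ω.1 := by
    intro k
    induction k with
    | zero => intro ω; rw [pow_zero, pow_zero, one_smul]; rfl
    | succ k ih =>
      intro ω
      rw [pow_succ, Function.End.mul_def]
      show ((fc ^ k) (fc ω)).1 = _
      rw [ih, pow_succ, mul_smul]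
  have hfcQ : fc ^ Q = 1 := by
    funext ω
    apply Subtype.ext
    rw [hfcpow, hcQ, one_smul]
    rfl
  obtain ⟨ω, hω⟩ := exists_fixed_of_pow Q fc hfcQ
    (not_dvd_of_coprime (Nat.Coprime.coprime_dvd_left hcardF hcopC) hA.hQ (Or.inr rfl))
  have hωc : c • ω.1 = ω.1 := congrArg Subtype.val hω
  have hωall : ∀ g : A, g • ω.1 = ω.1 :=
    forall_of_a_c hA (fun g => g • ω.1 = ω.1) (one_smul _ _)
      (fun g h hg hh => by rw [mul_smul, hh, hg]) (hFa ω) hc hωc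
  obtain ⟨z, hz⟩ := ω.2
  refine ⟨z.1 * yω, fun g => ?_⟩
  have h3 : (z.1 * yω) • x₀ = ω.1 := by
    rw [mul_smul, ← hyω]
    exact hz
  rw [h3]
  exact hωall g

end

end Cfsg.Agent.Lib.PQFix
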