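import Mathlib
import Cfsg.Agent.Lib.PQRep
import Cfsg.Agent.Lib.S3Alg

/-!
# The commutator form of a class two group attached to a central character, and its radical.
-/

set_option autoImplicit false

namespace Cfsg.Agent.Lib.PQForm1

open Module Cfsg.Agent.Lib.PQRep
open scoped commutatorElement

section form

variable {E T : Type*} [Group E] [CommGroup T] {Z : Subgroup E}

/-- The commutator form. -/
def ff (hcomm : ∀ x y : E, ⁅x, y⁆ ∈ Z) (ν : Z →* T) (x y : E) : T := ν ⟨⁅x, y⁆, hcomm x y⟩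

variable (hZcen : Z ≤ Subgroup.center E) (hcomm : ∀ x y : E, ⁅x, y⁆ ∈ Z) (ν : Z →* T)

include hZcen in
theorem ff_mul_left (x x' y : E) : ff hcomm ν (x * x') y = ff hcomm ν x y * ff hcomm ν x' y := by
  unfold ff
  rw [← map_mul]
  congr 1
  apply Subtype.ext
  show ⁅x * x', y⁆ = ⁅x, y⁆ * ⁅x', y⁆
  exact Cfsg.Agent.Lib.S3Alg.comm_mul_left (hZcen (hcomm x' y))

include hZcen in
theorem ff_mul_right (x y y' : E) : ff hcomm ν x (y * y') = ff hcomm ν x y * ff hcomm ν x y' := by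
  unfold ff
  rw [← map_mul]
  congr 1
  apply Subtype.ext
  show ⁅x, y * y'⁆ = ⁅x, y⁆ * ⁅x, y'⁆
  exact Cfsg.Agent.Lib.S3Alg.comm_mul_right (hZcen (hcomm x y'))

theorem ff_one_left (y : E) : ff hcomm ν 1 y = 1 := by
  unfold ff
  have : (⟨⁅(1 : E), y⁆, hcomm 1 y⟩ : Z) = 1 := Subtype.ext (by simp)
  rw [this, map_one]

theorem ff_one_right (y : E) : ff hcomm ν y 1 = 1 := by
  unfold ff
  have : (⟨⁅y, (1 : E)⁆, hcomm y 1⟩ : Z) = 1 := Subtype.ext (by simp)
  rw [this, map_one]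

include hZcen in
theorem ff_inv_left (x y : E) : ff hcomm ν x⁻¹ y = (ff hcomm ν x y)⁻¹ := by
  have h := ff_mul_left hZcen hcomm ν x⁻¹ x y
  rw [inv_mul_cancel, ff_one_left] at h
  exact eq_inv_of_mul_eq_one_left h.symm

include hZcen in
theorem ff_inv_right (x y : E) : ff hcomm ν x y⁻¹ = (ff hcomm ν x y)⁻¹ := by
  have h := ff_mul_right hZcen hcomm ν x y⁻¹ y
  rw [inv_mul_cancel, ff_one_right] at h
  exact eq_inv_of_mul_eq_one_left h.symm

theorem ff_swap (x y : E) : ff hcomm ν y x = (ff hcomm ν x y)⁻¹ := by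
  unfold ff
  rw [← map_inv]
  congr 1
  apply Subtype.ext
  show ⁅y, x⁆ = ⁅x, y⁆⁻¹
  rw [commutatorElement_inv]

theorem ff_eq_one_of_center {x : E} (hx : x ∈ Z) (hZcen : Z ≤ Subgroup.center E) (y : E) :
    ff hcomm ν x y = 1 := by
  unfold ff
  have : (⟨⁅x, y⁆, hcomm x y⟩ : Z) = 1 := Subtype.ext (by
    show ⁅x, y⁆ = 1
    rw [commutatorElement_eq_one_iff_mul_comm]
    exact (Subgroup.mem_center_iff.1 (hZcen hx) y).symm)
  rw [this, map_one]

/-- The radical of the form. -/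
def rad : Subgroup E where
  carrier := {x | ∀ y, ff hcomm ν x y = 1}
  mul_mem' := fun {a b} ha hb y => by
    rw [ff_mul_left hZcen hcomm ν, ha y, hb y, one_mul]
  one_mem' := fun y => ff_one_left hcomm ν y
  inv_mem' := fun {a} ha y => by
    rw [ff_inv_left hZcen hcomm ν, ha y, inv_one]

theorem mem_rad {x : E} : x ∈ rad hZcen hcomm ν ↔ ∀ y, ff hcomm ν x y = 1 := Iff.rfl

theorem le_rad : Z ≤ rad hZcen hcomm ν := fun _ hx y => ff_eq_one_of_center hcomm ν hx hZcen y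

theorem comm_mem_rad (x y : E) : ⁅x, y⁆ ∈ rad hZcen hcomm ν := le_rad hZcen hcomm ν (hcomm x y)

instance rad_normal : (rad hZcen hcomm ν).Normal := by
  refine ⟨fun x hx g y => ?_⟩
  have hx' : ∀ y, ff hcomm ν x y = 1 := hx
  rw [ff_mul_left hZcen hcomm ν, ff_mul_left hZcen hcomm ν, hx', mul_one, ff_inv_left hZcen hcomm ν,
    mul_inv_cancel]

theorem ff_rad_right {x : E} (hx : x ∈ rad hZcen hcomm ν) (y : E) : ff hcomm ν y x = 1 := by
  rw [ff_swap, hx y, inv_one]

/-- `E / R` is commutative. -/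
@[reducible] def qComm (R : Subgroup E) [R.Normal] (hR : ∀ x y : E, ⁅x, y⁆ ∈ R) : CommGroup (E ⧸ R) :=
  { (inferInstance : Group (E ⧸ R)) with
    mul_comm := fun a b => by
      obtain ⟨x, rfl⟩ := QuotientGroup.mk_surjective a
      obtain ⟨y, rfl⟩ := QuotientGroup.mk_surjective b
      refine QuotientGroup.eq.2 ?_
      have h := hR y⁻¹ x⁻¹
      have : ((x : E) * y)⁻¹ * (y * x) = ⁅y⁻¹, x⁻¹⁆ := by
        rw [commutatorElement_def]
        group
      rw [this]
      exact h }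

end form

section rep

variable {E K U : Type*} [Group E] [Field K] [AddCommGroup U] [Module K U] {Z : Subgroup E}

/-- The eigenspace of a central character. -/
def eigZ (ρ : E →* End K U) (ν : Z →* Kˣ) : Submodule K U where
  carrier := {u | ∀ z : Z, ρ z u = ((ν z : Kˣ) : K) • u}
  add_mem' := fun {a b} ha hb z => by
    rw [map_add, ha z, hb z, smul_add]
  zero_mem' := fun z => by simp
  smul_mem' := fun κ x hx z => by
    rw [map_smul, hx z, smul_comm]

theorem mem_eigZ {ρ : E →* End K U} {ν : Z →* Kˣ} {u : U} :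
    u ∈ eigZ ρ ν ↔ ∀ z : Z, ρ z u = ((ν z : Kˣ) : K) • u := Iff.rfl

variable (hZcen : Z ≤ Subgroup.center E) (hcomm : ∀ x y : E, ⁅x, y⁆ ∈ Z) (ρ : E →* End K U)
  (ν : Z →* Kˣ)

include hZcen in
theorem rho_mem_eigZ {u : U} (hu : u ∈ eigZ ρ ν) (x : E) : ρ x u ∈ eigZ ρ ν := by
  intro z
  have h1 : ((z : E)) * x = x * z := (Subgroup.mem_center_iff.1 (hZcen z.2) x).symm
  have h2 := congrArg (fun f : End K U => f u) (congrArg ρ h1)
  simp only [map_mul, Module.End.mul_apply] at h2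
  rw [h2, hu z, map_smul]

include hZcen in
theorem rho_comm {u : U} (hu : u ∈ eigZ ρ ν) (x y : E) :
    ρ x (ρ y u) = ((ff hcomm ν x y : Kˣ) : K) • ρ y (ρ x u) := by
  have h1 : x * y = y * x * ⁅x, y⁆ := by
    have h2 : ⁅x, y⁆ * (y * x) = y * x * ⁅x, y⁆ :=
      (Subgroup.mem_center_iff.1 (hZcen (hcomm x y)) (y * x)).symm
    rw [← h2, commutatorElement_def]
    group
  have h3 := congrArg (fun f : End K U => f u) (congrArg ρ h1)
  simp only [map_mul, Module.End.mul_apply] at h3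
  rw [h3]
  have h4 := hu ⟨⁅x, y⁆, hcomm x y⟩
  simp only at h4
  rw [h4, map_smul, map_smul]
  rfl

end rep

end Cfsg.Agent.Lib.PQForm1
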