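import Mathlib
import Cfsg.Agent.Lib.PQForm1
import Cfsg.Agent.Lib.HHCount

/-!
# An automorphism of prime order of a class two group acting with vanishing norm on a central
eigenspace acts trivially on the quotient by the radical, apart from the exceptional case.
-/

set_option autoImplicit false

namespace Cfsg.Agent.Lib.PQForm2

open Module Cfsg.Agent.Lib.PQRep Cfsg.Agent.Lib.PQForm1 Cfsg.Agent.Lib.HHCount
open scoped commutatorElement

section general

variable {E : Type*} [Group E]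

/-- The restriction of an automorphism to an invariant subgroup. -/
def resEquiv (φ : E ≃* E) (R : Subgroup E) (h : ∀ x, φ x ∈ R ↔ x ∈ R) : R ≃* R where
  toFun x := ⟨φ x.1, (h x.1).2 x.2⟩
  invFun x := ⟨φ.symm x.1, (h _).1 (by rw [φ.apply_symm_apply]; exact x.2)⟩
  left_inv x := Subtype.ext (φ.symm_apply_apply x.1)
  right_inv x := Subtype.ext (φ.apply_symm_apply x.1)
  map_mul' x y := Subtype.ext (map_mul φ x.1 y.1)

@[simp] theorem resEquiv_coe (φ : E ≃* E) (R : Subgroup E) (h : ∀ x, φ x ∈ R ↔ x ∈ R) (x : R) :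
    (resEquiv φ R h x : E) = φ x := rfl

theorem resEquiv_iter (φ : E ≃* E) (R : Subgroup E) (h : ∀ x, φ x ∈ R ↔ x ∈ R) (k : ℕ) (x : R) :
    (((⇑(resEquiv φ R h))^[k] x : R) : E) = (⇑φ)^[k] x := by
  induction k with
  | zero => rfl
  | succ k ih =>
    rw [Function.iterate_succ_apply', Function.iterate_succ_apply', resEquiv_coe, ih]

/-- The kernel of the norm of `φ` modulo `R`. -/
def normSub (φ : E ≃* E) (ℓ : ℕ) (R : Subgroup E) [R.Normal] (hR : ∀ x y : E, ⁅x, y⁆ ∈ R) :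
    Subgroup E :=
  letI := qComm R hR
  { carrier := {x | ∏ i ∈ Finset.range ℓ, (((⇑φ)^[i] x : E) : E ⧸ R) = 1}
    mul_mem' := fun {a b} ha hb => by
      show ∏ i ∈ Finset.range ℓ, (((⇑φ)^[i] (a * b) : E) : E ⧸ R) = 1
      have h1 : ∀ i, (((⇑φ)^[i] (a * b) : E) : E ⧸ R) =
          (((⇑φ)^[i] a : E) : E ⧸ R) * (((⇑φ)^[i] b : E) : E ⧸ R) := fun i => by
        rw [iterate_map_mul φ i a b]
        rfl
      simp only [h1]
      rw [Finset.prod_mul_distrib, show ∏ i ∈ Finset.range ℓ, (((⇑φ)^[i] a : E) : E ⧸ R) = 1 from ha,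
        show ∏ i ∈ Finset.range ℓ, (((⇑φ)^[i] b : E) : E ⧸ R) = 1 from hb, one_mul]
    one_mem' := by
      show ∏ i ∈ Finset.range ℓ, (((⇑φ)^[i] (1 : E) : E) : E ⧸ R) = 1
      have h1 : ∀ i, (((⇑φ)^[i] (1 : E) : E) : E ⧸ R) = 1 := fun i => by
        rw [iterate_map_one φ i]
        rfl
      simp only [h1]
      simp
    inv_mem' := fun {a} ha => by
      show ∏ i ∈ Finset.range ℓ, (((⇑φ)^[i] a⁻¹ : E) : E ⧸ R) = 1
      have h1 : ∀ i, (((⇑φ)^[i] a⁻¹ : E) : E ⧸ R) = (((⇑φ)^[i] a : E) : E ⧸ R)⁻¹ := fun i => by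
        rw [iterate_map_inv φ i a]
        rfl
      simp only [h1]
      rw [Finset.prod_inv_distrib, show ∏ i ∈ Finset.range ℓ, (((⇑φ)^[i] a : E) : E ⧸ R) = 1 from ha,
        inv_one] }

theorem mem_normSub (φ : E ≃* E) (ℓ : ℕ) (R : Subgroup E) [R.Normal] (hR : ∀ x y : E, ⁅x, y⁆ ∈ R)
    (x : E) : x ∈ normSub φ ℓ R hR ↔
      (letI := qComm R hR; ∏ i ∈ Finset.range ℓ, (((⇑φ)^[i] x : E) : E ⧸ R) = 1) := Iff.rfl

/-- Homomorphisms to a commutative group killing `R` see the norm. -/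
theorem norm_hom {T : Type*} [CommGroup T] (φ : E ≃* E) (ℓ : ℕ) (R : Subgroup E) [R.Normal]
    (hR : ∀ x y : E, ⁅x, y⁆ ∈ R) {x : E} (hx : x ∈ normSub φ ℓ R hR) (ψ : E →* T)
    (hψ : ∀ r ∈ R, ψ r = 1) : ∏ i ∈ Finset.range ℓ, ψ ((⇑φ)^[i] x) = 1 := by
  letI := qComm R hR
  let ψ' : (E ⧸ R) →* T := QuotientGroup.lift R ψ hψ
  have h1 := congrArg ψ' hx
  rw [map_prod, map_one] at h1
  exact h1

theorem norm_shift (φ : E ≃* E) {ℓ : ℕ} (hφℓ : ∀ x, (⇑φ)^[ℓ] x = x) (R : Subgroup E) [R.Normal]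
    (hR : ∀ x y : E, ⁅x, y⁆ ∈ R) (x : E) :
    (letI := qComm R hR; ∏ i ∈ Finset.range ℓ, (((⇑φ)^[i] (φ x) : E) : E ⧸ R) =
      ∏ i ∈ Finset.range ℓ, (((⇑φ)^[i] x : E) : E ⧸ R)) := by
  letI := qComm R hR
  set g : ℕ → E ⧸ R := fun i => (((⇑φ)^[i] x : E) : E ⧸ R) with hg
  have h1 : ∀ i, (((⇑φ)^[i] (φ x) : E) : E ⧸ R) = g (i + 1) := fun i => by
    simp only [hg]
    rw [Function.iterate_succ_apply]
  simp only [h1]
  have h2 := Finset.prod_range_succ g ℓ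
  have h3 := Finset.prod_range_succ' g ℓ
  have h4 : g ℓ = g 0 := by
    simp only [hg]
    rw [hφℓ]
    rfl
  rw [h4] at h2
  exact mul_right_cancel (h3.symm.trans h2)

end general

section main

variable {E K U : Type*} [Group E] [Finite E] [Field K] [IsAlgClosed K] [AddCommGroup U] [Module K U]
  {Z : Subgroup E}

theorem LLForm {t ℓ : ℕ} (ht : t.Prime) (hℓ : ℓ.Prime) (htℓ : t ≠ ℓ) (hE : IsPGroup t E)
    (htK : (t : K) ≠ 0) (hℓK : (ℓ : K) ≠ 0) (hZcen : Z ≤ Subgroup.center E)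
    (hcomm : ∀ x y : E, ⁅x, y⁆ ∈ Z) (hpow : ∀ x : E, x ^ t ∈ Z)
    (φ : E ≃* E) (hφℓ : ∀ x, (⇑φ)^[ℓ] x = x) (hφZ : ∀ x, φ x ∈ Z ↔ x ∈ Z)
    (ρ : E →* End K U) (c : End K U) (hc : c ^ ℓ = 1) (hcρ : ∀ x, c * ρ x = ρ (φ x) * c)
    (ν : Z →* Kˣ) (hνφ : ∀ z : Z, ν ⟨φ z, (hφZ z).2 z.2⟩ = ν z)
    (u₀ : U) (hu₀ : u₀ ≠ 0) (hu₀ν : u₀ ∈ eigZ ρ ν)
    (hsum : ∀ u ∈ eigZ ρ ν, ∑ i ∈ Finset.range ℓ, (c ^ i) u = 0) :
    (∀ x, x⁻¹ * φ x ∈ rad hZcen hcomm ν) ∨
      (t = 2 ∧ ∃ k, 1 ≤ k ∧ ℓ = 2 ^ k + 1 ∧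
        (rad hZcen hcomm ν).relIndex
          (normSub φ ℓ (rad hZcen hcomm ν) (comm_mem_rad hZcen hcomm ν)) = 2 ^ (2 * k)) := by
  classical
  haveI : Fact t.Prime := ⟨ht⟩
  letI := Fintype.ofFinite E
  set R : Subgroup E := rad hZcen hcomm ν with hRdef
  have hRc : ∀ x y : E, ⁅x, y⁆ ∈ R := comm_mem_rad hZcen hcomm ν
  set f : E → E → Kˣ := ff hcomm ν with hf
  have hfl : ∀ x x' y, f (x * x') y = f x y * f x' y := ff_mul_left hZcen hcomm ν
  have hfr : ∀ x y y', f x (y * y') = f x y * f x y' := ff_mul_right hZcen hcomm ν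
  have hRmem : ∀ x, x ∈ R ↔ ∀ y, f x y = 1 := fun x => Iff.rfl
  -- invariance of the form
  have hfφ : ∀ x y, f (φ x) (φ y) = f x y := by
    intro x y
    have h1 := hνφ ⟨⁅x, y⁆, hcomm x y⟩
    have h2 : (⟨φ (⟨⁅x, y⁆, hcomm x y⟩ : Z), (hφZ _).2 (hcomm x y)⟩ : Z) =
        ⟨⁅φ x, φ y⁆, hcomm _ _⟩ := Subtype.ext (map_commutatorElement (φ : E →* E) x y)
    rw [h2] at h1
    exact h1
  have hRφ : ∀ x, φ x ∈ R ↔ x ∈ R := by
    intro x
    constructor
    · intro h y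
      show f x y = 1
      rw [← hfφ x y]
      exact h (φ y)
    · intro h y
      show f (φ x) y = 1
      have h1 := hfφ x (φ.symm y)
      rw [φ.apply_symm_apply] at h1
      rw [h1]
      exact h _
  have hfφi : ∀ (k : ℕ) x y, f ((⇑φ)^[k] x) ((⇑φ)^[k] y) = f x y := by
    intro k
    induction k with
    | zero => intro x y; rfl
    | succ k ih =>
      intro x y
      rw [Function.iterate_succ_apply', Function.iterate_succ_apply', hfφ, ih]
  have hZR : Z ≤ R := le_rad hZcen hcomm ν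
  have hpowR : ∀ x : E, x ^ t ∈ R := fun x => hZR (hpow x)
  have hfpow : ∀ (n : ℕ) x y, f (x ^ n) y = f x y ^ n := by
    intro n
    induction n with
    | zero => intro x y; rw [pow_zero, pow_zero]; exact ff_one_left hcomm ν y
    | succ n ih => intro x y; rw [pow_succ, pow_succ, hfl, ih]
  have hft : ∀ x y, f x y ^ t = 1 := fun x y => by
    rw [← hfpow]
    exact hpowR x y
  have hcopℓt : Nat.Coprime ℓ t := (Nat.coprime_primes hℓ ht).2 (Ne.symm htℓ)
  -- the norm subgroup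
  letI qc : CommGroup (E ⧸ R) := qComm R hRc
  set J : Subgroup E := normSub φ ℓ R hRc with hJdef
  have hJmem : ∀ x, x ∈ J ↔ ∏ i ∈ Finset.range ℓ, (((⇑φ)^[i] x : E) : E ⧸ R) = 1 := fun x => Iff.rfl
  have hshift := norm_shift φ hφℓ R hRc
  have hJφ : ∀ x, φ x ∈ J ↔ x ∈ J := by
    intro x
    rw [hJmem, hJmem, hshift]
  have hRiter : ∀ (k : ℕ) x, x ∈ R → (⇑φ)^[k] x ∈ R := by
    intro k
    induction k with
    | zero => intro x hx; exact hx
    | succ k ih =>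
      intro x hx
      rw [Function.iterate_succ_apply']
      exact (hRφ _).2 (ih x hx)
  have hRJ : R ≤ J := by
    intro x hx
    rw [hJmem]
    refine Finset.prod_eq_one (fun i _ => ?_)
    exact (QuotientGroup.eq_one_iff _).2 (hRiter i x hx)
  -- the element `x⁻¹ φ x` lies in `J`
  have hmk : ∀ x y : E, (((x * y : E)) : E ⧸ R) = (x : E ⧸ R) * (y : E ⧸ R) := fun _ _ => rfl
  have hcommJ : ∀ x, x⁻¹ * φ x ∈ J := by
    intro x
    have hx1 : ∀ i, (((⇑φ)^[i] (x⁻¹ * φ x) : E) : E ⧸ R) =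
        (((⇑φ)^[i] x : E) : E ⧸ R)⁻¹ * (((⇑φ)^[i] (φ x) : E) : E ⧸ R) := fun i => by
      rw [iterate_map_mul φ i, iterate_map_inv φ i]
      rfl
    rw [hJmem]
    simp only [hx1]
    rw [Finset.prod_mul_distrib, Finset.prod_inv_distrib, hshift, inv_mul_cancel]
  -- the radical acts through commuting operators on the eigenspace
  let M₁ := eigZ ρ ν
  haveI hM₁nt : Nontrivial M₁ := ⟨⟨⟨u₀, hu₀ν⟩, 0, fun h => hu₀ (congrArg Subtype.val h)⟩⟩
  let τ₁ : R →* End K M₁ :=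
    { toFun := fun r => (ρ r.1).restrict (fun u hu => rho_mem_eigZ hZcen ρ ν hu r.1)
      map_one' := by
        ext u
        show ρ ((1 : R) : E) u.1 = u.1
        simp
      map_mul' := fun a b => by
        ext u
        show ρ ((a * b : R) : E) u.1 = ρ a.1 (ρ b.1 u.1)
        simp }
  have hτ₁ : ∀ (r : R) (u : M₁), ((τ₁ r u : M₁) : U) = ρ r.1 u.1 := fun _ _ => rfl
  have hcardE : ∀ H : Subgroup E, (Nat.card H : K) ≠ 0 := by
    intro H
    obtain ⟨n, hn⟩ := IsPGroup.iff_card.1 (hE.to_subgroup H)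
    rw [hn, Nat.cast_pow]
    exact pow_ne_zero _ htK
  obtain ⟨θ, u₁', hu₁'0, hu₁'⟩ := exists_eig τ₁ (hcardE R) (by
    intro s s'
    ext u
    show ρ s.1 (ρ s'.1 u.1) = ρ s'.1 (ρ s.1 u.1)
    rw [rho_comm hZcen hcomm ρ ν u.2 s.1 s'.1]
    have : f s.1 s'.1 = 1 := s.2 s'.1
    show ((f s.1 s'.1 : Kˣ) : K) • _ = _
    rw [this, Units.val_one, one_smul])
  letI ftR : Fintype R := Fintype.ofFinite R
  have hu₁ : (u₁' : U) ≠ 0 := fun h => hu₁'0 (Subtype.ext h)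
  have hu₁eig : ∀ r : R, ρ r.1 (u₁' : U) = ((θ r : Kˣ) : K) • (u₁' : U) := by
    intro r
    have h1 := hu₁' r
    have h2 := congrArg Subtype.val h1
    exact h2
  -- `θ` is `φ`-invariant
  let τR : R →* End K U := ρ.comp R.subtype
  have hcardR : (Fintype.card R : K) ≠ 0 := by
    rw [← Nat.card_eq_fintype_card]
    exact hcardE R
  have hφRiter : ∀ x : R, (⇑(resEquiv φ R hRφ))^[ℓ] x = x := by
    intro x
    apply Subtype.ext
    rw [resEquiv_iter, hφℓ]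
  have hθφ : ∀ r : R, θ (resEquiv φ R hRφ r) = θ r := by
    intro r
    refine fixed_of_sum τR hcardR hℓ c (resEquiv φ R hRφ) hφRiter (fun s => hcρ s.1) hu₁ ?_
      (hsum _ u₁'.2) r
    intro s
    exact hu₁eig s
  -- the space `M`
  let M := eigZ (Z := R) ρ θ
  have hMmem : ∀ u, u ∈ M ↔ ∀ r : R, ρ r.1 u = ((θ r : Kˣ) : K) • u := fun u => Iff.rfl
  have hu₁M : (u₁' : U) ∈ M := (hMmem _).2 hu₁eig
  have hθν : ∀ z : Z, ((θ ⟨z.1, hZR z.2⟩ : Kˣ) : K) = ((ν z : Kˣ) : K) := by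
    intro z
    have h1 := hu₁eig ⟨z.1, hZR z.2⟩
    have h2 : ρ z.1 (u₁' : U) = ((ν z : Kˣ) : K) • (u₁' : U) := u₁'.2 z
    simp only at h1
    rw [h2] at h1
    have h3 : (((ν z : Kˣ) : K) - ((θ ⟨z.1, hZR z.2⟩ : Kˣ) : K)) • (u₁' : U) = 0 := by
      rw [sub_smul, h1, sub_self]
    exact (sub_eq_zero.1 ((smul_eq_zero.1 h3).resolve_right hu₁)).symm
  have hMν : ∀ u ∈ M, u ∈ eigZ ρ ν := by
    intro u hu z
    have h1 := (hMmem u).1 hu ⟨z.1, hZR z.2⟩
    simp only at h1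
    rw [h1, hθν]
  have hME : ∀ x : E, ∀ u ∈ M, ρ x u ∈ M := by
    intro x u hu
    rw [hMmem]
    intro r
    rw [rho_comm hZcen hcomm ρ ν (hMν u hu) r.1 x]
    have h1 : f r.1 x = 1 := r.2 x
    show ((f r.1 x : Kˣ) : K) • _ = _
    rw [h1, Units.val_one, one_smul, (hMmem u).1 hu r, map_smul]
  have hMc : ∀ u ∈ M, c u ∈ M := by
    intro u hu
    rw [hMmem]
    intro r
    set r' : R := (resEquiv φ R hRφ).symm r with hr'
    have hr1 : φ r'.1 = r.1 := congrArg Subtype.val ((resEquiv φ R hRφ).apply_symm_apply r)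
    have h1 := congrArg (fun g : End K U => g u) (hcρ r'.1)
    simp only [Module.End.mul_apply] at h1
    rw [hr1] at h1
    rw [← h1, (hMmem u).1 hu r', map_smul]
    have h2 := hθφ r'
    rw [show resEquiv φ R hRφ r' = r from (resEquiv φ R hRφ).apply_symm_apply r] at h2
    rw [h2]
  haveI hMnt : Nontrivial M := ⟨⟨⟨_, hu₁M⟩, 0, fun h => hu₁ (congrArg Subtype.val h)⟩⟩
  -- the representation of `J` on `M`
  let ρJ : J →* End K M :=
    { toFun := fun x => (ρ x.1).restrict (hME x.1)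
      map_one' := by
        ext u
        show ρ ((1 : J) : E) u.1 = u.1
        simp
      map_mul' := fun a b => by
        ext u
        show ρ ((a * b : J) : E) u.1 = ρ a.1 (ρ b.1 u.1)
        simp }
  have hρJ : ∀ (x : J) (u : M), ((ρJ x u : M) : U) = ρ x.1 u.1 := fun _ _ => rfl
  let cM : End K M := c.restrict hMc
  have hcM : ∀ u : M, ((cM u : M) : U) = c u.1 := fun _ => rfl
  have hcMpow : ∀ (i : ℕ) (u : M), (((cM ^ i) u : M) : U) = (c ^ i) u.1 := by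
    intro i
    induction i with
    | zero => intro u; rfl
    | succ i ih =>
      intro u
      rw [pow_succ', pow_succ', Module.End.mul_apply, Module.End.mul_apply, hcM, ih]
  let Q : Subgroup J := R.subgroupOf J
  let θQ : Q →* Kˣ :=
    { toFun := fun q => θ ⟨q.1.1, q.2⟩
      map_one' := by
        have : (⟨((1 : Q) : J).1, (1 : Q).2⟩ : R) = 1 := rfl
        rw [this, map_one]
      map_mul' := fun a b => by
        have : (⟨((a * b : Q) : J).1, (a * b : Q).2⟩ : R) =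
            ⟨(a : J).1, a.2⟩ * ⟨(b : J).1, b.2⟩ := rfl
        rw [this, map_mul] }
  letI ftJ : Fintype J := Fintype.ofFinite J
  have hJK : (Fintype.card J : K) ≠ 0 := by
    rw [← Nat.card_eq_fintype_card]
    exact hcardE J
  have hρQ : ∀ q : Q, ρJ q = ((θQ q : Kˣ) : K) • 1 := by
    intro q
    ext u
    show ρ q.1.1 u.1 = ((θ ⟨q.1.1, q.2⟩ : Kˣ) : K) • u.1
    exact (hMmem _).1 u.2 ⟨q.1.1, q.2⟩
  have hJQ : ∀ x y : J, ⁅x, y⁆ ∈ Q := by
    intro x y
    show ((⁅x, y⁆ : J) : E) ∈ R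
    have : ((⁅x, y⁆ : J) : E) = ⁅x.1, y.1⁆ := rfl
    rw [this]
    exact hRc _ _
  -- the form remains nondegenerate on `J`
  have hnd₀ : ∀ x ∈ J, x ∉ R → ∃ y ∈ J, f x y ≠ 1 := by
    intro x hxJ hxR
    obtain ⟨y, hy⟩ : ∃ y, f x y ≠ 1 := by
      by_contra! h
      exact hxR h
    -- the homomorphisms attached to `x` and `y`
    let ωx : E →* Kˣ :=
      { toFun := fun w => f x w
        map_one' := ff_one_right hcomm ν x
        map_mul' := hfr x }
    have hωx : ∀ r ∈ R, ωx r = 1 := fun r hr => ff_rad_right hZcen hcomm ν hr x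
    let ψy : E →* Kˣ :=
      { toFun := fun w => f w y
        map_one' := ff_one_left hcomm ν y
        map_mul' := fun a b => hfl a b y }
    have hψy : ∀ r ∈ R, ψy r = 1 := fun r hr => hr y
    -- the product over the orbit vanishes
    have hprod : ∏ i ∈ Finset.range ℓ, f x ((⇑φ)^[i] y) = 1 := by
      have h1 := norm_hom φ ℓ R hRc ((hJφ x).2 hxJ) ψy hψy
      have h2 : ∀ i ∈ Finset.range ℓ, f x ((⇑φ)^[ℓ - 1 - i] y) = ψy ((⇑φ)^[i] (φ x)) := by
        intro i hi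
        have hi' : i < ℓ := Finset.mem_range.1 hi
        show _ = f ((⇑φ)^[i] (φ x)) y
        have h3 := hfφi (i + 1) x ((⇑φ)^[ℓ - 1 - i] y)
        rw [Function.iterate_succ_apply] at h3
        rw [← h3, ← Function.iterate_add_apply]
        have h4 : i + 1 + (ℓ - 1 - i) = ℓ := by omega
        rw [h4, hφℓ]
      rw [← Finset.prod_range_reflect]
      rw [Finset.prod_congr rfl h2]
      exact h1
    -- the new element
    let w : E ⧸ R := (y : E ⧸ R) ^ ℓ * (∏ i ∈ Finset.range ℓ, (((⇑φ)^[i] y : E) : E ⧸ R))⁻¹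
    obtain ⟨y₁, hy₁⟩ := QuotientGroup.mk_surjective w
    let ωx' : (E ⧸ R) →* Kˣ := QuotientGroup.lift R ωx hωx
    have hfy₁ : f x y₁ = f x y ^ ℓ := by
      have h1 : f x y₁ = ωx' (y₁ : E ⧸ R) := rfl
      rw [h1, hy₁]
      show ωx' ((y : E ⧸ R) ^ ℓ * (∏ i ∈ Finset.range ℓ, (((⇑φ)^[i] y : E) : E ⧸ R))⁻¹) = _
      rw [map_mul, map_inv, map_pow, map_prod]
      have h2 : ∏ i ∈ Finset.range ℓ, ωx' (((⇑φ)^[i] y : E) : E ⧸ R) = 1 := hprod
      rw [h2, inv_one, mul_one]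
      rfl
    refine ⟨y₁, ?_, ?_⟩
    · -- `y₁` lies in the kernel of the norm
      let φ' : (E ⧸ R) →* (E ⧸ R) := QuotientGroup.map R R (φ : E →* E)
        (fun r hr => (hRφ r).2 hr)
      have hφ' : ∀ x : E, φ' (x : E ⧸ R) = ((φ x : E) : E ⧸ R) := fun _ => rfl
      have hφ'i : ∀ (k : ℕ) (x : E), (⇑φ')^[k] (x : E ⧸ R) = (((⇑φ)^[k] x : E) : E ⧸ R) := by
        intro k
        induction k with
        | zero => intro x; rfl
        | succ k ih =>
          intro x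
          rw [Function.iterate_succ_apply, hφ', ih, Function.iterate_succ_apply]
      have hN : ∀ x : E, φ' (∏ i ∈ Finset.range ℓ, (((⇑φ)^[i] x : E) : E ⧸ R)) =
          ∏ i ∈ Finset.range ℓ, (((⇑φ)^[i] x : E) : E ⧸ R) := by
        intro x
        rw [map_prod]
        have h1 : ∀ i, φ' (((⇑φ)^[i] x : E) : E ⧸ R) = (((⇑φ)^[i] (φ x) : E) : E ⧸ R) := by
          intro i
          rw [hφ', ← Function.iterate_succ_apply' (⇑φ) i x, Function.iterate_succ_apply]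
        simp only [h1]
        exact hshift x
      have hNi : ∀ (k : ℕ) (x : E), (⇑φ')^[k] (∏ i ∈ Finset.range ℓ, (((⇑φ)^[i] x : E) : E ⧸ R)) =
          ∏ i ∈ Finset.range ℓ, (((⇑φ)^[i] x : E) : E ⧸ R) := by
        intro k x
        induction k with
        | zero => rfl
        | succ k ih =>
          rw [Function.iterate_succ_apply', ih, hN]
      rw [hJmem]
      have hk : ∀ k, (((⇑φ)^[k] y₁ : E) : E ⧸ R) = (((⇑φ)^[k] y : E) : E ⧸ R) ^ ℓ *
          (∏ i ∈ Finset.range ℓ, (((⇑φ)^[i] y : E) : E ⧸ R))⁻¹ := by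
        intro k
        rw [← hφ'i, hy₁]
        show (⇑φ')^[k] ((y : E ⧸ R) ^ ℓ *
          (∏ i ∈ Finset.range ℓ, (((⇑φ)^[i] y : E) : E ⧸ R))⁻¹) = _
        rw [iterate_map_mul φ' k, iterate_map_pow φ' k, iterate_map_inv φ' k, hNi, hφ'i]
      simp only [hk]
      rw [Finset.prod_mul_distrib, Finset.prod_pow, Finset.prod_const, Finset.card_range,
        inv_pow, mul_inv_cancel]
    · rw [hfy₁]
      intro h1
      apply hy
      have h2 := hft x y
      have hg := Nat.Coprime.gcd_eq_one hcopℓt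
      have h3 : f x y ^ Nat.gcd ℓ t = 1 := pow_gcd_eq_one.2 ⟨h1, h2⟩
      rw [hg, pow_one] at h3
      exact h3
  have hnd : ∀ x : J, x ∉ Q → ∃ y : J, ρJ y * ρJ x ≠ ρJ x * ρJ y := by
    intro x hx
    obtain ⟨y, hyJ, hy⟩ := hnd₀ x.1 x.2 hx
    refine ⟨⟨y, hyJ⟩, fun h => hy ?_⟩
    obtain ⟨um, humne⟩ := exists_ne (0 : M)
    have h1 := congrArg (fun g : End K M => ((g um : M) : U)) h
    simp only [Module.End.mul_apply, hρJ] at h1
    have h2 : ρ x.1 (ρ y um.1) = ((f x.1 y : Kˣ) : K) • ρ y (ρ x.1 um.1) :=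
      rho_comm hZcen hcomm ρ ν (hMν _ um.2) x.1 y
    rw [← h1] at h2
    have hinj : ρ y (ρ x.1 um.1) ≠ 0 := by
      intro h0
      have h3 : ∀ z : E, ∀ v : U, ρ z v = 0 → v = 0 := by
        intro z v hv
        have : (ρ z⁻¹ * ρ z) v = v := by rw [← map_mul, inv_mul_cancel, map_one]; rfl
        rw [Module.End.mul_apply, hv, map_zero] at this
        exact this.symm
      exact humne (Subtype.ext (h3 _ _ (h3 _ _ h0)))
    have h4 : (1 - ((f x.1 y : Kˣ) : K)) • ρ y (ρ x.1 um.1) = 0 := by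
      rw [sub_smul, one_smul, ← h2, sub_self]
    have h5 := (smul_eq_zero.1 h4).resolve_right hinj
    exact Units.ext (sub_eq_zero.1 h5).symm
  -- the automorphism on `J`
  let φJ : J ≃* J := resEquiv φ J hJφ
  have hφJℓ : ∀ x, (⇑φJ)^[ℓ] x = x := by
    intro x
    apply Subtype.ext
    rw [resEquiv_iter, hφℓ]
  have hcMρ : ∀ x, cM * ρJ x = ρJ (φJ x) * cM := by
    intro x
    ext u
    show c (ρ x.1 u.1) = ρ (φ x.1) (c u.1)
    have h1 := congrArg (fun g : End K U => g u.1) (hcρ x.1)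
    exact h1
  have hφQ : ∀ x, φJ x ∈ Q ↔ x ∈ Q := fun x => hRφ x.1
  have hfpf : ∀ x, x⁻¹ * φJ x ∈ Q → x ∈ Q := by
    intro x hx
    have hx0 : x.1⁻¹ * φ x.1 ∈ R := hx
    -- `x` is fixed modulo `R`
    have h1 : ((φ x.1 : E) : E ⧸ R) = (x.1 : E ⧸ R) := (QuotientGroup.eq.2 hx0).symm
    have h2 : ∀ k, (((⇑φ)^[k] x.1 : E) : E ⧸ R) = (x.1 : E ⧸ R) := by
      intro k
      induction k with
      | zero => rfl
      | succ k ih =>
        rw [Function.iterate_succ_apply']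
        have h3 : ((φ ((⇑φ)^[k] x.1) : E) : E ⧸ R) = ((⇑φ)^[k] x.1 : E) := by
          have h4 : ((⇑φ)^[k] x.1 : E)⁻¹ * φ ((⇑φ)^[k] x.1) = (⇑φ)^[k] (x.1⁻¹ * φ x.1) := by
            rw [iterate_map_mul φ k, iterate_map_inv φ k, ← Function.iterate_succ_apply' (⇑φ) k x.1,
              Function.iterate_succ_apply]
          exact (QuotientGroup.eq.2 (by rw [h4]; exact hRiter k _ hx0)).symm
        rw [h3, ih]
    have h3 := (hJmem x.1).1 x.2
    simp only [h2] at h3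
    rw [Finset.prod_const, Finset.card_range] at h3
    have h4 : (x.1 : E ⧸ R) ^ t = 1 := (QuotientGroup.eq_one_iff _).2 (hpowR x.1)
    have h5 : (x.1 : E ⧸ R) ^ Nat.gcd ℓ t = 1 := pow_gcd_eq_one.2 ⟨h3, h4⟩
    rw [Nat.Coprime.gcd_eq_one hcopℓt, pow_one] at h5
    show x.1 ∈ R
    exact (QuotientGroup.eq_one_iff x.1).1 h5
  have hcMℓ : cM ^ ℓ = 1 := by
    ext u
    rw [hcMpow, hc]
    rfl
  have hsumM : ∑ i ∈ Finset.range ℓ, cM ^ i = 0 := by
    ext u
    have h1 := hsum u.1 (hMν _ u.2)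
    rw [LinearMap.sum_apply, AddSubmonoidClass.coe_finsetSum]
    simp only [hcMpow]
    exact h1
  have hLL := LL ρJ Q θQ hρQ hJQ hnd hJK hℓ hℓK cM hcMℓ φJ hφJℓ hcMρ hφQ hfpf hsumM
  by_cases hi : Q.index = 1
  · left
    intro x
    have h1 : Q = ⊤ := Subgroup.index_eq_one.1 hi
    have h2 : (⟨_, hcommJ x⟩ : J) ∈ Q := by rw [h1]; trivial
    exact h2
  right
  obtain ⟨n, hn, hℓn⟩ := hLL.resolve_left hi
  -- `n` is a power of `t`
  have hJp : IsPGroup t J := hE.to_subgroup J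
  obtain ⟨m, hm⟩ := IsPGroup.iff_card.1 hJp
  have hdvd : n ∣ t ^ m := by
    rw [← hm]
    have h1 : Q.index ∣ Nat.card J := Subgroup.index_dvd_card Q
    rw [← hn] at h1
    exact (Dvd.intro _ rfl).trans h1
  obtain ⟨j, _, hj⟩ := (Nat.dvd_prime_pow ht).1 hdvd
  have hj0 : j ≠ 0 := by
    rintro rfl
    rw [pow_zero] at hj
    apply hi
    rw [← hn, hj, one_mul]
  have hn2 : 2 ≤ n := by
    rw [hj]
    calc 2 ≤ t := ht.two_le
      _ = t ^ 1 := (pow_one t).symm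
      _ ≤ t ^ j := Nat.pow_le_pow_right ht.pos (Nat.pos_of_ne_zero hj0)
  have hℓodd : Odd ℓ := hℓ.odd_of_ne_two (by omega)
  have hneven : Even n := by
    rcases Nat.even_or_odd n with h | h
    · exact h
    · exfalso
      rw [hℓn] at hℓodd
      exact (Nat.not_even_iff_odd.2 hℓodd) (h.add_one)
  have ht2 : t = 2 := by
    rw [hj] at hneven
    have h1 : Even t := (Nat.even_pow.1 hneven).1
    exact (ht.even_iff.1 h1)
  refine ⟨ht2, j, Nat.pos_of_ne_zero hj0, ?_, ?_⟩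
  · rw [hℓn, hj, ht2]
  · show Q.index = _
    rw [← hn, hj, ht2, two_mul, pow_add]

end main

end Cfsg.Agent.Lib.PQForm2
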