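import Mathlib
import Cfsg.Agent.Lib.PQFix
import Cfsg.Agent.Lib.PQRep
import Cfsg.Agent.Lib.S3Top
import Cfsg.Agent.Lib.PQForm2

/-!
# Stabilizers of eigencharacters, the averaging lemma and the Frobenius lemma.
-/

set_option autoImplicit false

namespace Cfsg.Agent.Lib.PQTools

open Module Cfsg.Agent.Lib.PQA Cfsg.Agent.Lib.PQFix Cfsg.Agent.Lib.PQRep
  Cfsg.Agent.Lib.S3Top Cfsg.Agent.Lib.PQForm2
open scoped commutatorElement

section avg

variable {Y 𝒱 ι : Type*} [Group Y] [Finite Y] [CommGroup 𝒱] [MulDistribMulAction Y 𝒱] [Fintype ι]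

/-- **The averaging lemma.** -/
theorem avg_lemma (hfix : ∀ v : 𝒱, (∀ y : Y, y • v = v) → v = 1) (ω : ι → 𝒱)
    (hprod : ∏ i, ω i = 1) (N : ι → Subgroup Y) (hNω : ∀ i, ∀ n ∈ N i, n • ω i = ω i) (i₀ : ι)
    (hN₀ : (N i₀).Normal) (hfac : ∀ i, i ≠ i₀ → ∀ y : Y, ∃ n₀ ∈ N i₀, ∃ n ∈ N i, y = n₀ * n) :
    ω i₀ ^ Nat.card (N i₀) = 1 := by
  classical
  letI ftN : Fintype (N i₀) := Fintype.ofFinite _
  let T : 𝒱 →* 𝒱 :=
    { toFun := fun v => ∏ n : N i₀, n.1 • v
      map_one' := by simp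
      map_mul' := fun v w => by
        rw [← Finset.prod_mul_distrib]
        exact Finset.prod_congr rfl (fun n _ => smul_mul' _ _ _) }
  have hT : ∀ v, T v = ∏ n : N i₀, n.1 • v := fun _ => rfl
  have hT0 : T (ω i₀) = ω i₀ ^ Nat.card (N i₀) := by
    rw [hT, Finset.prod_congr rfl (fun n _ => hNω i₀ n.1 n.2), Finset.prod_const, Finset.card_univ,
      Nat.card_eq_fintype_card]
  have hTi : ∀ i, i ≠ i₀ → T (ω i) = 1 := by
    intro i hi
    apply hfix
    intro y
    obtain ⟨n₀, hn₀, n, hn, rfl⟩ := hfac i hi y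
    have h1 : n • T (ω i) = T (ω i) := by
      rw [hT, Finset.smul_prod']
      let e : N i₀ ≃ N i₀ :=
        { toFun := fun m => ⟨n * m.1 * n⁻¹, hN₀.conj_mem m.1 m.2 n⟩
          invFun := fun m => ⟨n⁻¹ * m.1 * n, by
            have := hN₀.conj_mem m.1 m.2 n⁻¹
            simpa using this⟩
          left_inv := fun m => Subtype.ext (by
            show n⁻¹ * (n * m.1 * n⁻¹) * n = m.1
            group)
          right_inv := fun m => Subtype.ext (by
            show n * (n⁻¹ * m.1 * n) * n⁻¹ = m.1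
            group) }
      refine Fintype.prod_equiv e _ _ (fun m => ?_)
      show n • (m.1 • ω i) = (n * m.1 * n⁻¹) • ω i
      rw [mul_smul, mul_smul, inv_smul_eq_iff.2 (hNω i n hn).symm]
    have h2 : n₀ • T (ω i) = T (ω i) := by
      rw [hT, Finset.smul_prod']
      refine Fintype.prod_equiv (Equiv.mulLeft (⟨n₀, hn₀⟩ : N i₀)) _ _ (fun m => ?_)
      rw [← mul_smul]
      rfl
    rw [mul_smul, h1, h2]
  have h3 := congrArg T hprod
  rw [map_prod, map_one, Finset.prod_eq_single i₀] at h3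
  · rw [← hT0, h3]
  · intro i _ hi
    exact hTi i hi
  · simp

end avg

section stab

variable {A S K U : Type*} [Group A] [Group S] [MulDistribMulAction A S] [Field K]
  [AddCommGroup U] [Module K U]

/-- `g` fixes the character `χ`. -/
def Fx (g : A) (χ : S →* Kˣ) : Prop := ∀ s, χ (g • s) = χ s

theorem Fx_one (χ : S →* Kˣ) : Fx (1 : A) χ := fun s => by rw [one_smul]

theorem Fx_mul {g h : A} {χ : S →* Kˣ} (hg : Fx g χ) (hh : Fx h χ) : Fx (g * h) χ := fun s => by
  rw [mul_smul, hg, hh]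

theorem Fx_inv {g : A} {χ : S →* Kˣ} (hg : Fx g χ) : Fx g⁻¹ χ := fun s => by
  have := hg (g⁻¹ • s)
  rw [smul_inv_smul] at this
  exact this.symm

theorem Fx_pow {g : A} {χ : S →* Kˣ} (hg : Fx g χ) (n : ℕ) : Fx (g ^ n) χ := by
  induction n with
  | zero => rw [pow_zero]; exact Fx_one χ
  | succ n ih => rw [pow_succ]; exact Fx_mul ih hg

theorem Fx_zpow {g : A} {χ : S →* Kˣ} (hg : Fx g χ) (n : ℤ) : Fx (g ^ n) χ := by
  cases n with
  | ofNat n => simpa using Fx_pow hg n
  | negSucc n =>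
    rw [zpow_negSucc]
    exact Fx_inv (Fx_pow hg _)

theorem Fx_zpowers {g g' : A} {χ : S →* Kˣ} (hg : Fx g χ) (h : g' ∈ Subgroup.zpowers g) :
    Fx g' χ := by
  obtain ⟨i, rfl⟩ := Subgroup.mem_zpowers_iff.1 h
  exact Fx_zpow hg i

variable (τ : S →* End K U) (σ : A →* End K U)

/-- The action on eigenvectors. -/
theorem eig_smul [Fintype S] (hστ : ∀ g s, σ g * τ s = τ (g • s) * σ g) {χ : S →* Kˣ} {u : U}
    (h : Eig τ χ u) (g : A) : Eig τ (χ.comp (MulDistribMulAction.toMonoidHom S g⁻¹)) (σ g u) := by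
  intro s
  have h1 := congrArg (fun f : End K U => f u) (hστ g (g⁻¹ • s))
  simp only [Module.End.mul_apply] at h1
  rw [smul_inv_smul] at h1
  rw [← h1, h, map_smul]
  rfl

theorem stab_sum [Fintype S] [Fintype A] {χ : S →* Kˣ} [DecidablePred fun g : A => Fx g χ]
    (hS : (Fintype.card S : K) ≠ 0)
    (hστ : ∀ g s, σ g * τ s = τ (g • s) * σ g)
    (hσ0 : ∀ u, ∑ g : A, σ g u = 0) {u : U} (h : Eig τ χ u) :
    ∑ g ∈ Finset.univ.filter (fun g : A => Fx g χ), σ g u = 0 := by
  have h1 := congrArg (prj τ χ) (hσ0 u)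
  rw [map_sum, map_zero] at h1
  rw [← h1, Finset.sum_filter]
  refine Finset.sum_congr rfl (fun g _ => ?_)
  split_ifs with hg
  · have h2 : χ.comp (MulDistribMulAction.toMonoidHom S g⁻¹) = χ := by
      ext s
      show ((χ (g⁻¹ • s) : Kˣ) : K) = _
      rw [Fx_inv hg s]
    have h3 := eig_smul τ σ hστ h g
    rw [h2] at h3
    exact (prj_of_eig τ hS h3).symm
  · refine (prj_of_eig_ne τ (eig_smul τ σ hστ h g) (fun h2 => hg ?_)).symm
    refine Fx_inv (g := g⁻¹) (χ := χ) (fun s => ?_) |> fun h3 => by simpa using h3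
    exact congrArg (fun f : S →* Kˣ => f s) h2

theorem exists_stab [Fintype S] [Fintype A] (hS : (Fintype.card S : K) ≠ 0)
    (hστ : ∀ g s, σ g * τ s = τ (g • s) * σ g)
    (hσ0 : ∀ u, ∑ g : A, σ g u = 0) {χ : S →* Kˣ} {u : U} (h : Eig τ χ u) (hu : u ≠ 0) :
    ∃ g : A, g ≠ 1 ∧ Fx g χ := by
  classical
  by_contra hne
  push Not at hne
  have h1 := stab_sum τ σ hS hστ hσ0 h
  have h2 : Finset.univ.filter (fun g : A => Fx g χ) = {1} := by
    ext g
    simp only [Finset.mem_filter, Finset.mem_univ, true_and, Finset.mem_singleton]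
    constructor
    · intro hg
      by_contra hg1
      exact hne g hg1 hg
    · rintro rfl
      exact Fx_one χ
  rw [h2, Finset.sum_singleton, map_one] at h1
  exact hu h1

/-- The norm over a cyclic stabilizer vanishes. -/
theorem sum_stab [Fintype S] [Finite A] {P Q : ℕ} {a : A} (hA : PQStr A P Q a)
    (hS : (Fintype.card S : K) ≠ 0) (hστ : ∀ g s, σ g * τ s = τ (g • s) * σ g)
    (hσ0 : ∀ u, (letI := Fintype.ofFinite A; ∑ g : A, σ g u) = 0) {χ : S →* Kˣ} {u : U}
    (h : Eig τ χ u) (hnot : ¬ ∀ g : A, Fx g χ) {g₀ : A} (hg₀ : g₀ ≠ 1) (hfx : Fx g₀ χ) :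
    ∑ i ∈ Finset.range (orderOf g₀), (σ g₀ ^ i) u = 0 := by
  classical
  letI := Fintype.ofFinite A
  have h1 := stab_sum τ σ hS hστ hσ0 h
  have hstab : ∀ g, Fx g χ ↔ g ∈ Subgroup.zpowers g₀ := by
    intro g
    constructor
    · intro hg
      let St : Subgroup A := predSub (fun g => Fx g χ) (Fx_one χ) (fun _ _ h1 h2 => Fx_mul h1 h2)
      have hSt : St ≠ ⊤ := by
        intro h2
        apply hnot
        intro g
        have : g ∈ St := by rw [h2]; trivial
        exact this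
      exact proper_cyclic hA hSt hfx hg₀ hg
    · exact Fx_zpowers hfx
  have h2 : Finset.univ.filter (fun g : A => Fx g χ) =
      (Finset.range (orderOf g₀)).image (fun i => g₀ ^ i) := by
    ext g
    simp only [Finset.mem_filter, Finset.mem_univ, true_and, Finset.mem_image, Finset.mem_range]
    rw [hstab]
    constructor
    · intro hg
      obtain ⟨i, hi⟩ := (mem_powers_iff_mem_zpowers.2 hg : g ∈ Submonoid.powers g₀)
      refine ⟨i % orderOf g₀, Nat.mod_lt _ (orderOf_pos g₀), ?_⟩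
      rw [pow_mod_orderOf]
      exact hi
    · rintro ⟨i, _, rfl⟩
      exact Subgroup.pow_mem _ (Subgroup.mem_zpowers g₀) i
  rw [h2, Finset.sum_image] at h1
  · simp only [map_pow] at h1
    exact h1
  · intro i hi j hj hij
    exact pow_injOn_Iio_orderOf (by simpa using hi) (by simpa using hj) hij

/-- A character fixed by all of `A` is trivial. -/
theorem chars_fixed {S' : Type*} [CommGroup S'] [Finite S'] [MulDistribMulAction A S'] [Finite A]
    (hfixS : ∀ s : S', (∀ g : A, g • s = s) → s = 1) (hcop : (Nat.card S').Coprime (Nat.card A))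
    (χ : S' →* Kˣ) (h : ∀ g : A, Fx g χ) : χ = 1 := by
  classical
  letI := Fintype.ofFinite A
  ext s
  have h1 : ∏ g : A, g • s = 1 := by
    apply hfixS
    intro k
    rw [Finset.smul_prod']
    exact Fintype.prod_equiv (Equiv.mulLeft k) _ _ (fun g => (mul_smul k g s).symm)
  have h2 := congrArg χ h1
  rw [map_prod, map_one, Finset.prod_congr rfl (fun g _ => h g s), Finset.prod_const,
    Finset.card_univ, ← Nat.card_eq_fintype_card] at h2
  have h3 : χ s ^ Nat.card S' = 1 := by rw [← map_pow, pow_card_eq_one', map_one]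
  have h4 : χ s ^ Nat.gcd (Nat.card S') (Nat.card A) = 1 := pow_gcd_eq_one.2 ⟨h3, h2⟩
  rw [hcop, pow_one] at h4
  rw [h4]
  rfl

/-- The product over the normal subgroup of a character fixed by an element of order `Q` is
trivial. -/
theorem prod_conj_trivial {S' : Type*} [CommGroup S'] [Finite S'] [MulDistribMulAction A S']
    [Finite A] {P Q : ℕ} {a : A} (hA : PQStr A P Q a)
    (hfixS : ∀ s : S', (∀ g : A, g • s = s) → s = 1) (hcop : (Nat.card S').Coprime (Nat.card A))
    [Fintype (Subgroup.zpowers a)] {c : A} (hc : orderOf c = Q) (χ : S' →* Kˣ) (hχ : Fx c χ)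
    (s : S') : ∏ h : Subgroup.zpowers a, χ (h.1⁻¹ • s) = 1 := by
  classical
  haveI hn := normal_zpowers hA
  let μ : S' →* Kˣ :=
    { toFun := fun s => ∏ h : Subgroup.zpowers a, χ (h.1⁻¹ • s)
      map_one' := by simp
      map_mul' := fun x y => by
        rw [← Finset.prod_mul_distrib]
        refine Finset.prod_congr rfl (fun h _ => ?_)
        rw [smul_mul', map_mul] }
  have hμ : ∀ s, μ s = ∏ h : Subgroup.zpowers a, χ (h.1⁻¹ • s) := fun _ => rfl
  have hFa : Fx a μ := by
    intro s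
    rw [hμ, hμ]
    let e : Subgroup.zpowers a ≃ Subgroup.zpowers a :=
      Equiv.mulLeft (⟨a, Subgroup.mem_zpowers a⟩ : Subgroup.zpowers a)
    refine Fintype.prod_equiv e.symm _ _ (fun h => ?_)
    have h1 : (e.symm h).1 = a⁻¹ * h.1 := rfl
    rw [h1, ← mul_smul]
    congr 2
    group
  have hFc : Fx c μ := by
    intro s
    rw [hμ, hμ]
    let e : Subgroup.zpowers a ≃ Subgroup.zpowers a :=
      { toFun := fun h => ⟨c⁻¹ * h.1 * c, by
          have := hn.conj_mem h.1 h.2 c⁻¹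
          simpa using this⟩
        invFun := fun h => ⟨c * h.1 * c⁻¹, hn.conj_mem h.1 h.2 c⟩
        left_inv := fun h => Subtype.ext (by
          show c * (c⁻¹ * h.1 * c) * c⁻¹ = h.1
          group)
        right_inv := fun h => Subtype.ext (by
          show c⁻¹ * (c * h.1 * c⁻¹) * c = h.1
          group) }
    refine Fintype.prod_equiv e _ _ (fun h => ?_)
    have h1 : (e h).1 = c⁻¹ * h.1 * c := rfl
    rw [h1, ← mul_smul]
    have h2 := Fx_inv hχ ((h.1⁻¹ * c) • s)
    rw [← h2, ← mul_smul]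
    congr 2
    group
  have hall : ∀ g : A, Fx g μ := forall_of_a_c hA (fun g => Fx g μ) (Fx_one μ)
    (fun _ _ h1 h2 => Fx_mul h1 h2) hFa hc hFc
  have h1 := chars_fixed hfixS hcop μ hall
  have h2 := congrArg (fun f : S' →* Kˣ => f s) h1
  exact h2

end stab

end Cfsg.Agent.Lib.PQTools
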