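import Mathlib
import Cfsg.Agent.Lib.PQTools
import Cfsg.Agent.Lib.PQRed1

/-!
# The Frobenius lemma: if `a` acts trivially on an elementary abelian group with no `A`-fixed
points, then an `r`-group acting compatibly acts trivially.
-/

set_option autoImplicit false

namespace Cfsg.Agent.Lib.PQFrob

open Module Cfsg.Agent.Lib.PQA Cfsg.Agent.Lib.PQFix Cfsg.Agent.Lib.PQRep Cfsg.Agent.Lib.S3Top
  Cfsg.Agent.Lib.PQForm2 Cfsg.Agent.Lib.PQTools

theorem frob {A W Y : Type*} [Group A] [Finite A] [CommGroup W] [Finite W] [Group Y] [Finite Y]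
    [MulDistribMulAction A W] [MulDistribMulAction A Y] [MulDistribMulAction Y W]
    {P Q : ℕ} {a : A} (hA : PQStr A P Q a)
    (hact : ∀ (g : A) (y : Y) (w : W), g • (y • w) = (g • y) • (g • w))
    {t r : ℕ} (ht : t.Prime) (hr : r.Prime) (htr : t ≠ r) (hWt : ∀ w : W, w ^ t = 1)
    (hYr : IsPGroup r Y) (hYcop : (Nat.card Y).Coprime (P * Q)) (hrQ : r ≠ Q)
    (hfixW : ∀ w : W, (∀ g : A, g • w = w) → w = 1) (hfixY : ∀ y : Y, (∀ g : A, g • y = y) → y = 1)
    (ha : ∀ w : W, a • w = w) (y : Y) (w : W) : y • w = w := by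
  classical
  by_contra hne
  haveI : Fact t.Prime := ⟨ht⟩
  haveI : Fact r.Prime := ⟨hr⟩
  let K := AlgebraicClosure (ZMod t)
  let θ : Y →* MulAut W := MulDistribMulAction.toMulAut Y W
  have hθ : ∀ y w, θ y w = y • w := fun _ _ => rfl
  let Γ : A →* MulAut W := MulDistribMulAction.toMulAut A W
  have hΓ : ∀ (g : A) w, Γ g w = g • w := fun _ _ => rfl
  have hΓθ : ∀ (g : A) (y : Y), Γ g * θ y * (Γ g)⁻¹ = θ (g • y) := by
    intro g y
    ext w
    show g • (y • (Γ g)⁻¹ w) = (g • y) • w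
    rw [hact]
    have h1 : g • (Γ g)⁻¹ w = w := (Γ g).apply_symm_apply w
    rw [h1]
  obtain ⟨c, hc⟩ := exists_order_Q hA
  have hcQ : c ^ Q = 1 := by rw [← hc, pow_orderOf_eq_one]
  set γ : MulAut W := Γ c with hγ
  have hγQ : γ ^ Q = 1 := by rw [hγ, ← map_pow, hcQ, map_one]
  let D : Subgroup (MulAut W) := θ.range
  haveI hfinD : Finite D := inferInstance
  have hDr : IsPGroup r D := by
    rintro ⟨_, y, rfl⟩
    obtain ⟨k, hk⟩ := hYr y
    refine ⟨k, Subtype.ext ?_⟩
    show (θ y) ^ r ^ k = 1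
    rw [← map_pow, hk, map_one]
  have hθne : θ y ≠ 1 := fun h => hne (by
    have := congrArg (fun f : MulAut W => f w) h
    exact this)
  haveI hDnt : Nontrivial D := ⟨⟨⟨θ y, y, rfl⟩, 1, fun h => hθne (congrArg Subtype.val h)⟩⟩
  let S : Subgroup D := Subgroup.center D
  haveI hSnt : Nontrivial S := hDr.center_nontrivial
  obtain ⟨d₀, hd₀⟩ := exists_ne (1 : S)
  letI cgS : CommGroup S :=
    { (inferInstance : Group S) with
      mul_comm := fun p q => Subtype.ext ((Subgroup.mem_center_iff.1 q.2) p.1) }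
  letI ftS : Fintype S := Fintype.ofFinite S
  let τ₀ : S →* MulAut W := D.subtype.comp S.subtype
  let ρ : MulAut W →* End K (Additive W →+ K) := dualRep (A := W) (K := K) (MulAut W)
  let τ : S →* End K (Additive W →+ K) := ρ.comp τ₀
  have hDiff : ∀ x, MulAut.conj γ x ∈ D ↔ x ∈ D := by
    intro x
    constructor
    · rintro ⟨y', hy'⟩
      refine ⟨c⁻¹ • y', ?_⟩
      rw [← hΓθ, hy']
      ext w
      have h1 : Γ c⁻¹ = γ⁻¹ := by rw [map_inv]
      rw [h1]
      simp
    · rintro ⟨y', rfl⟩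
      exact ⟨c • y', (hΓθ c y').symm⟩
  let φD : D ≃* D := resEquiv (MulAut.conj γ) D hDiff
  have hSiff : ∀ x, φD x ∈ S ↔ x ∈ S := by
    intro x
    constructor
    · intro h
      rw [Subgroup.mem_center_iff] at h ⊢
      intro z
      have h1 := h (φD z)
      rw [← map_mul, ← map_mul] at h1
      exact φD.injective h1
    · intro h
      rw [Subgroup.mem_center_iff] at h ⊢
      intro z
      have h1 := h (φD.symm z)
      have h2 := congrArg φD h1
      rw [map_mul, map_mul, φD.apply_symm_apply] at h2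
      exact h2
  let φS : S ≃* S := resEquiv φD S hSiff
  have hφS : ∀ s : S, ((φS s : S) : D).1 = γ * s.1.1 * γ⁻¹ := fun _ => rfl
  let cF : End K (Additive W →+ K) := ρ γ
  have hcFτ : ∀ s, cF * τ s = τ (φS s) * cF := by
    intro s
    show ρ γ * ρ s.1.1 = ρ (γ * s.1.1 * γ⁻¹) * ρ γ
    rw [← map_mul, ← map_mul]
    congr 1
    group
  have hγi : ∀ (k : ℕ) (s : S), (((⇑φS)^[k] s : S) : D).1 = γ ^ k * s.1.1 * (γ ^ k)⁻¹ := by
    intro k s
    induction k with
    | zero => simp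
    | succ k ih =>
      rw [Function.iterate_succ_apply', hφS, ih, pow_succ']
      group
  have hφℓ : ∀ x, (⇑φS)^[Q] x = x := by
    intro x
    apply Subtype.ext
    apply Subtype.ext
    rw [hγi, hγQ]
    simp
  -- no fixed points
  let N : Subgroup Y := θ.ker
  have hNA : ∀ (g : A), ∀ n ∈ N, g • n ∈ N := by
    intro g n hn
    show θ (g • n) = 1
    rw [← hΓθ, show θ n = 1 from hn]
    simp
  have hcopN : (Nat.card N).Coprime (P * Q) :=
    Nat.Coprime.coprime_dvd_left (Subgroup.card_subgroup_dvd_card N) hYcop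
  have hNmem : ∀ y y' : Y, θ y = θ y' → y⁻¹ * y' ∈ N := by
    intro y y' h
    show θ (y⁻¹ * y') = 1
    rw [map_mul, map_inv, h, inv_mul_cancel]
  have hfpf : ∀ s : S, φS s = s → s = 1 := by
    intro s hs
    obtain ⟨y', hy'⟩ := s.1.2
    have hs1 : γ * s.1.1 * γ⁻¹ = s.1.1 := by
      have := congrArg (fun z : S => z.1.1) hs
      exact this
    have hRa : y'⁻¹ * (a • y') ∈ N := by
      apply hNmem
      ext w
      show y' • w = (a • y') • w
      have h1 := hact a y' w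
      rw [ha, ha] at h1
      exact h1
    have hRc : y'⁻¹ * (c • y') ∈ N := by
      apply hNmem
      rw [← hΓθ, hy']
      exact hs1.symm
    have hall : ∀ g : A, y'⁻¹ * (g • y') ∈ N := by
      refine forall_of_a_c hA (fun g => y'⁻¹ * (g • y') ∈ N) (by
        simp only [one_smul, inv_mul_cancel]
        exact N.one_mem) (fun g g' h1 h2 => ?_) hRa hc hRc
      have h3 : y'⁻¹ * ((g * g') • y') = (y'⁻¹ * (g • y')) * (g • (y'⁻¹ * (g' • y'))) := by
        rw [mul_smul, smul_mul' g y'⁻¹, smul_inv']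
        group
      rw [h3]
      exact N.mul_mem h1 (hNA g _ h2)
    have hy'N := mem_of_trivial hA hfixY N hNA hcopN y' hall
    apply Subtype.ext
    apply Subtype.ext
    show s.1.1 = 1
    rw [← hy']
    exact hy'N
  -- a function moved by `d₀`
  have hd₀τ : τ₀ d₀ ≠ 1 := by
    intro h
    apply hd₀
    apply Subtype.ext
    apply Subtype.ext
    exact h
  obtain ⟨w₀, hw₀⟩ : ∃ w₀, (τ₀ d₀)⁻¹ w₀ ≠ w₀ := by
    by_contra! h
    apply hd₀τ
    have h1 : (τ₀ d₀)⁻¹ = 1 := MulEquiv.ext h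
    exact inv_eq_one.1 h1
  have hne' : (τ₀ d₀)⁻¹ w₀ * w₀⁻¹ ≠ 1 := fun h => hw₀ (mul_inv_eq_one.1 h)
  obtain ⟨f, hf⟩ := exists_sep (K := K) t hWt _ hne'
  have hfmoved : τ d₀ f ≠ f := by
    intro h
    apply hf
    have h1 : τ d₀ f (Additive.ofMul w₀) = f (Additive.ofMul w₀) := by rw [h]
    have h2 : f (Additive.ofMul ((τ₀ d₀)⁻¹ w₀)) = f (Additive.ofMul w₀) := h1
    rw [ofMul_mul, map_add, h2, ofMul_inv, map_neg, add_neg_cancel]
  have hScard : (Fintype.card S : K) ≠ 0 := by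
    have hrK : (r : K) ≠ 0 := by
      intro h0
      have h1 := (CharP.cast_eq_zero_iff K t r).1 h0
      exact htr ((Nat.prime_dvd_prime_iff_eq ht hr).1 h1)
    have hSr : IsPGroup r S := hDr.to_subgroup S
    obtain ⟨n, hn⟩ := IsPGroup.iff_card.1 hSr
    rw [← Nat.card_eq_fintype_card, hn, Nat.cast_pow]
    exact pow_ne_zero _ hrK
  haveI := S3Rep.finite_chars (K := K) hScard
  letI := Fintype.ofFinite (S →* Kˣ)
  obtain ⟨lam, hlam1, hlam2⟩ : ∃ lam : S →* Kˣ, lam d₀ ≠ 1 ∧ prj τ lam f ≠ 0 := by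
    by_contra! h
    apply hfmoved
    have h1 : ∑ χ : S →* Kˣ, prj τ χ f = f := S3Rep.sum_proj τ hScard f
    conv_lhs => rw [← h1]
    conv_rhs => rw [← h1]
    rw [map_sum]
    refine Finset.sum_congr rfl (fun χ _ => ?_)
    rw [eig_prj τ χ f d₀]
    by_cases hχ : χ d₀ = 1
    · rw [hχ, Units.val_one, one_smul]
    · rw [h χ hχ, smul_zero]
  -- the norm of `c` vanishes on the dual
  have hnormW : ∀ w : W, ∏ i ∈ Finset.range Q, (γ ^ i)⁻¹ w = 1 := by
    intro w
    apply hfixW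
    intro g
    refine forall_of_a_c hA (fun g => g • (∏ i ∈ Finset.range Q, (γ ^ i)⁻¹ w) =
      ∏ i ∈ Finset.range Q, (γ ^ i)⁻¹ w) (one_smul _ _)
      (fun g h h1 h2 => by rw [mul_smul, h2, h1]) (ha _) hc ?_ g
    show γ _ = _
    rw [map_prod]
    set gg : ℕ → W := fun i => (γ ^ i)⁻¹ w with hgg
    have hgg1 : ∀ i, γ (gg (i + 1)) = gg i := by
      intro i
      simp only [hgg]
      rw [pow_succ, mul_inv_rev]
      exact γ.apply_symm_apply _
    obtain ⟨m, hm⟩ : ∃ m, Q = m + 1 := ⟨Q - 1, by have := hA.hQ.pos; omega⟩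
    have hgg0 : gg (m + 1) = gg 0 := by
      simp only [hgg]
      rw [← hm, hγQ]
      simp
    show ∏ i ∈ Finset.range Q, γ (gg i) = ∏ i ∈ Finset.range Q, gg i
    rw [hm, Finset.prod_range_succ', Finset.prod_range_succ]
    simp only [hgg1]
    rw [← hgg0, hgg1]
  have hcFpow : ∀ (i : ℕ) (u : Additive W →+ K) (w : W),
      (cF ^ i) u (Additive.ofMul w) = u (Additive.ofMul ((γ ^ i)⁻¹ w)) := by
    intro i u w
    have h1 : cF ^ i = ρ (γ ^ i) := (map_pow ρ γ i).symm
    rw [h1]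
    rfl
  have hsumF : ∀ u : Additive W →+ K, ∑ i ∈ Finset.range Q, (cF ^ i) u = 0 := by
    intro u
    refine AddMonoidHom.ext (fun x => ?_)
    obtain ⟨w, rfl⟩ := Additive.ofMul.surjective x
    rw [AddMonoidHom.finsetSum_apply]
    simp only [hcFpow]
    rw [← map_sum, ← ofMul_prod, hnormW, ofMul_one, map_zero]
    rfl
  have hEig : Eig τ lam (prj τ lam f) := eig_prj τ lam f
  have hfixlam := fixed_of_sum τ hScard hA.hQ cF φS hφℓ hcFτ hlam2 hEig (hsumF _)
  have hnorm : ∀ s : S, ∏ i ∈ Finset.range Q, (⇑φS)^[i] s = 1 := by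
    intro s
    apply hfpf
    rw [map_prod]
    have h1 : ∀ i, φS ((⇑φS)^[i] s) = (⇑φS)^[i + 1] s :=
      fun i => (Function.iterate_succ_apply' _ _ _).symm
    simp only [h1]
    set g : ℕ → S := fun i => (⇑φS)^[i] s with hg
    have h3 := Finset.prod_range_succ g Q
    have h4 := Finset.prod_range_succ' g Q
    have h5 : g Q = g 0 := by
      simp only [hg]
      rw [hφℓ]
      rfl
    rw [h5] at h3
    exact mul_right_cancel (h4.symm.trans h3)
  have hfixi : ∀ (i : ℕ) (s : S), lam ((⇑φS)^[i] s) = lam s := by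
    intro i s
    induction i with
    | zero => rfl
    | succ i ih => rw [Function.iterate_succ_apply', hfixlam, ih]
  have h1 := congrArg lam (hnorm d₀)
  rw [map_prod, map_one] at h1
  simp only [hfixi] at h1
  rw [Finset.prod_const, Finset.card_range] at h1
  obtain ⟨m, hm⟩ := (hDr.to_subgroup S) d₀
  have h2 : lam d₀ ^ r ^ m = 1 := by
    rw [← map_pow, hm, map_one]
  have hco : Nat.Coprime Q (r ^ m) := Nat.Coprime.pow_right _ ((Nat.coprime_primes hA.hQ hr).2 hrQ.symm)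
  apply hlam1
  have h3 := orderOf_dvd_of_pow_eq_one h1
  have h4 := orderOf_dvd_of_pow_eq_one h2
  exact orderOf_eq_one_iff.1 (Nat.eq_one_of_dvd_coprimes hco h3 h4)

end Cfsg.Agent.Lib.PQFrob
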