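import Mathlib
import Cfsg.Agent.Lib.PQFrob
import Cfsg.Agent.Lib.CoprimeAct

/-!
# The dual action on characters; existence of eigencharacters moving an element.
-/

set_option autoImplicit false

namespace Cfsg.Agent.Lib.PQDual

open Module Cfsg.Agent.Lib.PQA Cfsg.Agent.Lib.PQFix Cfsg.Agent.Lib.PQRep
  Cfsg.Agent.Lib.PQTools
open scoped commutatorElement

/-- The dual action on characters. -/
@[reducible] def dualAct (Γ E T : Type*) [Group Γ] [Group E] [CommGroup T]
    [MulDistribMulAction Γ E] : MulDistribMulAction Γ (E →* T) where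
  smul g χ := χ.comp (MulDistribMulAction.toMonoidHom E g⁻¹)
  one_smul χ := by
    ext x
    show ((χ ((1 : Γ)⁻¹ • x) : T)) = χ x
    rw [inv_one, one_smul]
  mul_smul a b χ := by
    ext x
    show χ ((a * b)⁻¹ • x) = χ (b⁻¹ • a⁻¹ • x)
    rw [mul_inv_rev, mul_smul]
  smul_mul g χ χ' := rfl
  smul_one g := by
    ext x
    rfl

theorem dual_apply {Γ E T : Type*} [Group Γ] [Group E] [CommGroup T] [MulDistribMulAction Γ E]
    (g : Γ) (χ : E →* T) (x : E) :
    (letI := dualAct Γ E T; g • χ) x = χ (g⁻¹ • x) := rfl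

/-- An eigencharacter not killing a given element on which the representation is nontrivial. -/
theorem exists_char_ne {S K M : Type*} [CommGroup S] [Finite S] [Field K] [IsAlgClosed K]
    [AddCommGroup M] [Module K M] (τ : S →* End K M) (hS : (Nat.card S : K) ≠ 0) (d : S)
    (hd : τ d ≠ 1) : ∃ lam : S →* Kˣ, lam d ≠ 1 ∧ ∃ u, u ≠ 0 ∧ Eig τ lam u := by
  classical
  letI ftS : Fintype S := Fintype.ofFinite S
  have hScard : (Fintype.card S : K) ≠ 0 := by rwa [← Nat.card_eq_fintype_card]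
  haveI := S3Rep.finite_chars (K := K) hScard
  letI := Fintype.ofFinite (S →* Kˣ)
  obtain ⟨f, hf⟩ : ∃ f, τ d f ≠ f := by
    by_contra! h
    apply hd
    ext f
    simpa using h f
  obtain ⟨lam, hlam1, hlam2⟩ : ∃ lam : S →* Kˣ, lam d ≠ 1 ∧ prj τ lam f ≠ 0 := by
    by_contra! h
    apply hf
    have h1 : ∑ χ : S →* Kˣ, prj τ χ f = f := S3Rep.sum_proj τ hScard f
    conv_lhs => rw [← h1]
    conv_rhs => rw [← h1]
    rw [map_sum]
    refine Finset.sum_congr rfl (fun χ _ => ?_)
    rw [eig_prj τ χ f d]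
    by_cases hχ : χ d = 1
    · rw [hχ, Units.val_one, one_smul]
    · rw [h χ hχ, smul_zero]
  exact ⟨lam, hlam1, _, hlam2, eig_prj τ lam f⟩

/-- Characters fixed by all of `Y` are trivial, when `Y` generates. -/
theorem dual_fix {E Y T : Type*} [Group E] [CommGroup T] [Group Y] [MulDistribMulAction Y E]
    (hgen : Subgroup.closure {w : E | ∃ (x : E) (y : Y), w = x⁻¹ * (y • x)} = ⊤)
    (χ : E →* T) (h : ∀ (y : Y) (x : E), χ (y • x) = χ x) : χ = 1 := by
  have hle : Subgroup.closure {w : E | ∃ (x : E) (y : Y), w = x⁻¹ * (y • x)} ≤ χ.ker := by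
    rw [Subgroup.closure_le]
    rintro _ ⟨x, y, rfl⟩
    show χ _ = 1
    rw [map_mul, map_inv, h, inv_mul_cancel]
  rw [hgen] at hle
  ext x
  have : χ x = 1 := hle (Subgroup.mem_top x)
  rw [this]
  rfl

end Cfsg.Agent.Lib.PQDual
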