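import Mathlib
import Cfsg.Agent.Lib.Frat

/-!
# A minimal invariant subgroup on which a coprime group of automorphisms acts nontrivially is special.
-/

set_option autoImplicit false

namespace Cfsg.Agent.Lib.PQMin

open scoped commutatorElement

variable {T : Type*} [Group T] [Finite T]

/-- If `w x = x d` with `d` fixed by `w`, then `d` has order dividing that of `w`. -/
theorem pow_eq_one_of_fix (w : MulAut T) {x d : T} (hd : w x = x * d) (hdw : w d = d) {k : ℕ}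
    (hk : w ^ k = 1) : d ^ k = 1 := by
  have h1 : ∀ n : ℕ, (w ^ n) x = x * d ^ n := by
    intro n
    induction n with
    | zero => simp
    | succ n ih =>
      rw [pow_succ', MulAut.mul_apply, ih, map_mul, hd, map_pow, hdw, pow_succ']
      simp [mul_assoc]
  have h2 := h1 k
  rw [hk] at h2
  have h3 : x = x * d ^ k := h2
  exact (mul_eq_left.1 h3.symm)

theorem eq_one_of_coprime {t : ℕ} {x : T} {k m : ℕ} (hk : x ^ k = 1) (hm : x ^ (t ^ m) = 1)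
    (hcop : Nat.Coprime k t) : x = 1 := by
  have h1 : x ^ Nat.gcd k (t ^ m) = 1 := pow_gcd_eq_one.2 ⟨hk, hm⟩
  rw [Nat.Coprime.gcd_eq_one (Nat.Coprime.pow_right m hcop), pow_one] at h1
  exact h1

/-- **The structure of a minimal counterexample.** -/
theorem minStruct {t : ℕ} (ht : t.Prime) (S : Subgroup T) (hS : IsPGroup t S)
    (W : Subgroup (MulAut T)) (hWt : (Nat.card W).Coprime t) (Γ : Set (MulAut T))
    (hWΓ : ∀ w ∈ W, w ∈ Γ) (hΓinv : ∀ f ∈ Γ, f⁻¹ ∈ Γ) (hΓW : ∀ f ∈ Γ, ∀ w ∈ W, f * w * f⁻¹ ∈ W)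
    (hSΓ : ∀ f ∈ Γ, ∀ x ∈ S, f x ∈ S) (hne : ∃ w ∈ W, ∃ x ∈ S, w x ≠ x) :
    ∃ E : Subgroup T, E ≤ S ∧ (∀ f ∈ Γ, ∀ x ∈ E, f x ∈ E) ∧ (∃ w ∈ W, ∃ x ∈ E, w x ≠ x) ∧
      (∀ z ∈ E, (∀ w ∈ W, w z = z) → ∀ y ∈ E, z * y = y * z) ∧
      (∀ x ∈ E, ∀ y ∈ E, ∀ w ∈ W, w ⁅x, y⁆ = ⁅x, y⁆) ∧
      (∀ x ∈ E, ∀ w ∈ W, w (x ^ t) = x ^ t) ∧
      (∀ x ∈ E, (∀ w ∈ W, ∀ w' ∈ W, w' (x⁻¹ * w x) = x⁻¹ * w x) → ∀ w ∈ W, w x = x) ∧
      (Subgroup.closure {g | ∃ x ∈ E, ∃ w ∈ W, g = x⁻¹ * w x} = E) ∧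
      ((∀ x ∈ E, ∀ y ∈ E, x * y = y * x) → ∀ z ∈ E, (∀ w ∈ W, w z = z) → z = 1) := by
  classical
  haveI hF : Fact t.Prime := ⟨ht⟩
  let P : Set (Subgroup T) := {E | E ≤ S ∧ (∀ f ∈ Γ, ∀ x ∈ E, f x ∈ E) ∧ ∃ w ∈ W, ∃ x ∈ E, w x ≠ x}
  have hPS : S ∈ P := ⟨le_rfl, hSΓ, hne⟩
  obtain ⟨E, hE⟩ := (Set.toFinite P).exists_minimal ⟨S, hPS⟩
  obtain ⟨hES, hEΓ, hEne⟩ := hE.prop
  have hMin : ∀ E₁ : Subgroup T, E₁ ≤ E → (∀ f ∈ Γ, ∀ x ∈ E₁, f x ∈ E₁) → E₁ ≠ E →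
      ∀ w ∈ W, ∀ x ∈ E₁, w x = x := by
    intro E₁ hle hE₁ hne' w hw x hx
    by_contra hc
    exact hne' (hE.eq_of_le ⟨hle.trans hES, hE₁, w, hw, x, hx, hc⟩ hle)
  have hEW : ∀ w ∈ W, ∀ x ∈ E, w x ∈ E := fun w hw => hEΓ w (hWΓ w hw)
  have hpow : ∀ x ∈ S, ∃ m, x ^ (t ^ m) = 1 := fun x hx => by
    obtain ⟨m, hm⟩ := hS ⟨x, hx⟩
    exact ⟨m, congrArg Subtype.val hm⟩
  have hwk : ∀ w ∈ W, w ^ Nat.card W = 1 := by
    intro w hw
    have := pow_card_eq_one' (x := (⟨w, hw⟩ : W))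
    exact congrArg Subtype.val this
  -- the core computation
  have hcore : ∀ x ∈ E, ∀ w ∈ W, w (x⁻¹ * w x) = x⁻¹ * w x → w x = x := by
    intro x hx w hw h
    have hd := pow_eq_one_of_fix (x := x) (d := x⁻¹ * w x) w (by group) h (hwk w hw)
    have hdS : x⁻¹ * w x ∈ S := hES (E.mul_mem (E.inv_mem hx) (hEW w hw x hx))
    obtain ⟨m, hm⟩ := hpow _ hdS
    have h1 := eq_one_of_coprime hd hm hWt
    exact (inv_mul_eq_one.1 h1).symm
  -- commutators with `W` generate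
  set Com : Subgroup T := Subgroup.closure {g | ∃ x ∈ E, ∃ w ∈ W, g = x⁻¹ * w x} with hCom
  have hComE : Com ≤ E := by
    refine (Subgroup.closure_le _).2 ?_
    rintro _ ⟨x, hx, w, hw, rfl⟩
    exact E.mul_mem (E.inv_mem hx) (hEW w hw x hx)
  have hComΓ : ∀ f ∈ Γ, ∀ x ∈ Com, f x ∈ Com := by
    intro f hf x hx
    have hle : Com ≤ Com.comap (f : T →* T) := by
      refine (Subgroup.closure_le _).2 ?_
      rintro _ ⟨y, hy, w, hw, rfl⟩
      refine Subgroup.subset_closure ⟨f y, hEΓ f hf y hy, f * w * f⁻¹, hΓW f hf w hw, ?_⟩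
      show f (y⁻¹ * w y) = (f y)⁻¹ * (f * w * f⁻¹) (f y)
      rw [map_mul, map_inv]
      congr 1
      show f (w y) = f (w (f⁻¹ (f y)))
      have h5 : f⁻¹ (f y) = y := f.symm_apply_apply y
      rw [h5]
    exact hle hx
  have hComEq : Com = E := by
    by_contra hne'
    have h1 := hMin Com hComE hComΓ hne'
    obtain ⟨w, hw, x, hx, hxne⟩ := hEne
    exact hxne (hcore x hx w hw (h1 w hw _ (Subgroup.subset_closure ⟨x, hx, w, hw, rfl⟩)))
  -- the Frattini subgroup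
  have hEp : IsPGroup t E := hS.to_le hES
  haveI hEnt : Nontrivial E := by
    obtain ⟨w, _, x, hx, hxne⟩ := hEne
    refine ⟨⟨⟨x, hx⟩, 1, fun h => hxne ?_⟩⟩
    have h1 : x = 1 := congrArg Subtype.val h
    rw [h1, map_one]
  let Φ : Subgroup T := (frattini E).map E.subtype
  have hΦE : Φ ≤ E := by
    rintro _ ⟨y, _, rfl⟩
    exact y.2
  have hΦΓ : ∀ f ∈ Γ, ∀ x ∈ Φ, f x ∈ Φ := by
    rintro f hf _ ⟨y, hy, rfl⟩
    have hfE : ∀ x, f x ∈ E ↔ x ∈ E := fun x => ⟨fun h => by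
      have := hEΓ f⁻¹ (hΓinv f hf) _ h
      have h5 : f⁻¹ (f x) = x := f.symm_apply_apply x
      rwa [h5] at this, hEΓ f hf x⟩
    let fE : E ≃* E :=
      { toFun := fun x => ⟨f x.1, (hfE x.1).2 x.2⟩
        invFun := fun x => ⟨f.symm x.1, (hfE _).1 (by rw [f.apply_symm_apply]; exact x.2)⟩
        left_inv := fun x => Subtype.ext (f.symm_apply_apply x.1)
        right_inv := fun x => Subtype.ext (f.apply_symm_apply x.1)
        map_mul' := fun x y => Subtype.ext (map_mul f x.1 y.1) }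
    have h1 : fE y ∈ frattini E :=
      Subgroup.characteristic_iff_le_comap.1 (inferInstance : (frattini E).Characteristic) fE hy
    exact ⟨fE y, h1, rfl⟩
  have hΦne : Φ ≠ E := by
    intro h
    have h1 : frattini E = ⊤ := by
      rw [eq_top_iff]
      intro y _
      have : (y : T) ∈ Φ := by rw [h]; exact y.2
      obtain ⟨z, hz, hzy⟩ := this
      have : z = y := Subtype.ext hzy
      rwa [← this]
    obtain ⟨M, hM⟩ := (inferInstance : IsCoatomic (Subgroup E)).eq_top_or_exists_le_coatom ⊥ |>.resolve_left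
      bot_ne_top
    exact hM.1.1 (eq_top_iff.2 (h1 ▸ frattini_le_coatom hM.1))
  have hΦfix := hMin Φ hΦE hΦΓ hΦne
  have hcommΦ : ∀ x ∈ E, ∀ y ∈ E, ⁅x, y⁆ ∈ Φ := by
    intro x hx y hy
    refine ⟨⁅(⟨x, hx⟩ : E), ⟨y, hy⟩⁆, ?_, rfl⟩
    exact Cfsg.Agent.Lib.Frat.commutator_le_frattini hEp
      (Subgroup.commutator_mem_commutator (Subgroup.mem_top _) (Subgroup.mem_top _))
  have hpowΦ : ∀ x ∈ E, x ^ t ∈ Φ := by
    intro x hx
    exact ⟨(⟨x, hx⟩ : E) ^ t, Cfsg.Agent.Lib.Frat.pow_mem_frattini hEp _, rfl⟩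
  have hcen : ∀ z ∈ E, (∀ w ∈ W, w z = z) → ∀ y ∈ E, z * y = y * z := by
    intro z hz hzf y hy
    have hC : E ≤ Subgroup.centralizer {z} := by
      rw [← hComEq]
      refine (Subgroup.closure_le _).2 ?_
      rintro _ ⟨x, hx, w, hw, rfl⟩
      rw [SetLike.mem_coe, Subgroup.mem_centralizer_iff]
      intro h' hh'
      have hh'z : h' = z := hh'
      rw [hh'z]
      have hu := hΦfix w hw _ (hcommΦ z hz x hx)
      have hu2 : w ⁅z, x⁆ = ⁅w z, w x⁆ := map_commutatorElement w.toMonoidHom z x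
      rw [hu2, hzf w hw] at hu
      simp only [commutatorElement_def] at hu
      -- `hu : z * w x * z⁻¹ * (w x)⁻¹ = z * x * z⁻¹ * x⁻¹`
      have h2 : z * (x⁻¹ * w x) = (x⁻¹ * w x) * z := by
        have h3 : w x * z⁻¹ * (w x)⁻¹ = x * z⁻¹ * x⁻¹ := by
          have := congrArg (fun a => z⁻¹ * a) hu
          simpa [mul_assoc] using this
        have h4 : (x⁻¹ * w x) * z⁻¹ = z⁻¹ * (x⁻¹ * w x) := by
          calc (x⁻¹ * w x) * z⁻¹ = x⁻¹ * (w x * z⁻¹ * (w x)⁻¹) * w x := by group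
            _ = x⁻¹ * (x * z⁻¹ * x⁻¹) * w x := by rw [h3]
            _ = _ := by group
        calc z * (x⁻¹ * w x) = z * ((x⁻¹ * w x) * z⁻¹) * z := by group
          _ = z * (z⁻¹ * (x⁻¹ * w x)) * z := by rw [h4]
          _ = _ := by group
      exact h2
    exact (Subgroup.mem_centralizer_iff.1 (hC hy)) z rfl
  refine ⟨E, hES, hEΓ, hEne, hcen, ?_, ?_, ?_, hComEq, ?_⟩
  · intro x hx y hy w hw
    exact hΦfix w hw _ (hcommΦ x hx y hy)
  · intro x hx w hw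
    exact hΦfix w hw _ (hpowΦ x hx)
  · intro x hx h w hw
    exact hcore x hx w hw (h w hw w hw)
  · intro habel z hz hzf
    letI cg : CommGroup E :=
      { (inferInstance : Group E) with
        mul_comm := fun a b => Subtype.ext (habel a.1 a.2 b.1 b.2) }
    letI ftW : Fintype W := Fintype.ofFinite W
    let N : E →* E :=
      { toFun := fun x => ∏ w : W, ⟨w.1 x.1, hEW w.1 w.2 x.1 x.2⟩
        map_one' := by
          refine Finset.prod_eq_one (fun w _ => Subtype.ext ?_)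
          exact map_one w.1
        map_mul' := fun a b => by
          rw [← Finset.prod_mul_distrib]
          refine Finset.prod_congr rfl (fun w _ => Subtype.ext ?_)
          exact map_mul w.1 a.1 b.1 }
    have hN : ∀ x, (N x : E) = ∏ w : W, ⟨w.1 x.1, hEW w.1 w.2 x.1 x.2⟩ := fun _ => rfl
    have hNinv : ∀ (v : W) (x : E), N ⟨v.1 x.1, hEW v.1 v.2 x.1 x.2⟩ = N x := by
      intro v x
      rw [hN, hN]
      refine Fintype.prod_equiv (Equiv.mulRight v) _ _ (fun w => Subtype.ext ?_)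
      rfl
    have hker : Com ≤ (N.ker).map E.subtype := by
      refine (Subgroup.closure_le _).2 ?_
      rintro _ ⟨x, hx, w, hw, rfl⟩
      refine ⟨(⟨x, hx⟩ : E)⁻¹ * ⟨w x, hEW w hw x hx⟩, ?_, rfl⟩
      show N _ = 1
      rw [map_mul, map_inv, hNinv ⟨w, hw⟩ ⟨x, hx⟩, inv_mul_cancel]
    obtain ⟨z', hz'N, hz'z⟩ := hker (by rw [hComEq]; exact hz)
    have hz'' : z' = ⟨z, hz⟩ := Subtype.ext hz'z
    rw [hz''] at hz'N
    have h1 : N ⟨z, hz⟩ = 1 := hz'N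
    rw [hN] at h1
    have h2 : ∀ w : W, (⟨w.1 z, hEW w.1 w.2 z hz⟩ : E) = ⟨z, hz⟩ := fun w =>
      Subtype.ext (hzf w.1 w.2)
    simp only [h2] at h1
    rw [Finset.prod_const, Finset.card_univ, ← Nat.card_eq_fintype_card] at h1
    have h3 : z ^ Nat.card W = 1 := congrArg Subtype.val h1
    obtain ⟨m, hm⟩ := hpow z (hES hz)
    exact eq_one_of_coprime h3 hm hWt

end Cfsg.Agent.Lib.PQMin
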