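import Mathlib
import Cfsg.Agent.Lib.PQRed1
import Cfsg.Agent.Lib.HHMat

/-!
# The final count and the case of an abelian subgroup with a fixed-point-free automorphism.
-/

set_option autoImplicit false

namespace Cfsg.Agent.Lib.PQRed2

open Module Cfsg.Agent.Lib.PQRep Cfsg.Agent.Lib.S3Top Cfsg.Agent.Lib.PQRed1 Cfsg.Agent.Lib.HHMat

section final

variable {V K : Type*} [CommGroup V] [Finite V] [Field K] [IsAlgClosed K] [CharP K 2]

theorem two_ne_zero_of_odd {ℓ : ℕ} (hℓ : ℓ.Prime) (h2 : ℓ ≠ 2) : (ℓ : K) ≠ 0 := by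
  intro h0
  have h1 := (CharP.cast_eq_zero_iff K 2 ℓ).1 h0
  exact h2 ((Nat.prime_dvd_prime_iff_eq Nat.prime_two hℓ).1 h1).symm

/-- **The final count**: too many eigenvectors. -/
theorem contra_of_vectors (hV2 : ∀ v : V, v ^ 2 = 1) (c : MulAut V) {ℓ k : ℕ} (hℓ : ℓ.Prime)
    (hℓk : ℓ = 2 ^ k + 1) (hk : 1 ≤ k) (hc : c ^ ℓ = 1) (hJ : Nat.card (normKer c ℓ) = 2 ^ (2 * k))
    (W₁ W₂ : Submodule K (Additive V →+ K)) (hdis : W₁ ⊓ W₂ = ⊥)
    (h₁ : ∀ ξ : K, ξ ^ ℓ = 1 → ξ ≠ 1 → ∃ w ∈ W₁, w ≠ 0 ∧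
      dualRep (K := K) (MulAut V) c w = ξ • w)
    (h₂ : ∀ ξ : K, ξ ^ ℓ = 1 → ξ ≠ 1 → ∃ w ∈ W₂, w ≠ 0 ∧
      dualRep (K := K) (MulAut V) c w = ξ • w) : False := by
  classical
  have hℓ2 : ℓ ≠ 2 := by
    rw [hℓk]
    have : 2 ≤ 2 ^ k := by
      calc 2 = 2 ^ 1 := rfl
        _ ≤ 2 ^ k := Nat.pow_le_pow_right (by norm_num) hk
    omega
  have hℓK : (ℓ : K) ≠ 0 := two_ne_zero_of_odd hℓ hℓ2
  haveI : NeZero ((ℓ : ℕ) : K) := ⟨hℓK⟩
  haveI : NeZero ℓ := ⟨hℓ.ne_zero⟩
  obtain ⟨ζ, hζ⟩ := HasEnoughRootsOfUnity.exists_primitiveRoot K ℓ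
  set cF : End K (Additive V →+ K) := dualRep (K := K) (MulAut V) c with hcF
  let F₀ : Submodule K (Additive V →+ K) := LinearMap.ker (∑ i ∈ Finset.range ℓ, cF ^ i)
  have hF₀ : ∀ u ∈ F₀, ∑ i ∈ Finset.range ℓ, (cF ^ i) u = 0 := by
    intro u hu
    have h1 : (∑ i ∈ Finset.range ℓ, cF ^ i) u = 0 := hu
    rwa [LinearMap.sum_apply] at h1
  obtain ⟨hfin, hbound⟩ := finrank_ker_le hV2 c hc hℓK hJ F₀ hF₀
  haveI := hfin
  let ξ : Fin (ℓ - 1) → K := fun i => ζ ^ ((i : ℕ) + 1)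
  have hξinj : Function.Injective ξ := by
    intro i j h
    have h1 := hζ.pow_inj (by have := i.2; omega) (by have := j.2; omega) h
    exact Fin.ext (by omega)
  have hξℓ : ∀ i, ξ i ^ ℓ = 1 := fun i => by
    simp only [ξ]
    rw [← pow_mul, mul_comm, pow_mul, hζ.pow_eq_one, one_pow]
  have hξ1 : ∀ i, ξ i ≠ 1 := fun i h => by
    have h1 := (hζ.pow_eq_one_iff_dvd _).1 h
    have h2 := Nat.le_of_dvd (by omega) h1
    have := i.2
    omega
  have hmemF : ∀ (i : Fin (ℓ - 1)) (w : Additive V →+ K), cF w = ξ i • w → w ∈ F₀ := by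
    intro i w hw
    show (∑ j ∈ Finset.range ℓ, cF ^ j) w = 0
    rw [LinearMap.sum_apply]
    have h1 : ∀ j : ℕ, (cF ^ j) w = ξ i ^ j • w := by
      intro j
      induction j with
      | zero => simp
      | succ j ih =>
        rw [pow_succ', Module.End.mul_apply, ih, map_smul, hw, smul_smul, pow_succ]
    simp only [h1]
    rw [← Finset.sum_smul, geom_eq_zero (hξℓ i) (hξ1 i), zero_smul]
  have hcount := count2 cF ξ hξinj W₁ W₂ F₀ hdis
    (fun i => by
      obtain ⟨w, hw1, hw2, hw3⟩ := h₁ (ξ i) (hξℓ i) (hξ1 i)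
      exact ⟨w, hw1, hw2, hw3, hmemF i w hw3⟩)
    (fun i => by
      obtain ⟨w, hw1, hw2, hw3⟩ := h₂ (ξ i) (hξℓ i) (hξ1 i)
      exact ⟨w, hw1, hw2, hw3, hmemF i w hw3⟩)
  rw [Fintype.card_fin] at hcount
  have h1 : ℓ - 1 = 2 ^ k := Nat.sub_eq_of_eq_add hℓk
  rw [h1] at hcount
  have h2 : k < 2 ^ k := Nat.lt_two_pow_self
  have h3 : 2 * 2 ^ k ≤ 2 * k := hcount.trans hbound
  linarith

end final

section abelian

variable {V K S : Type*} [CommGroup V] [Finite V] [Field K] [IsAlgClosed K] [CharP K 2] (B : SF V)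
  [CommGroup S] [Fintype S]

/-- The set of characters whose isotypic part may not vanish. -/
def WO (τ : S →* End K (Additive V →+ K)) (O : Set (S →* Kˣ)) :
    Submodule K (Additive V →+ K) where
  carrier := {u | ∀ χ, χ ∉ O → prj τ χ u = 0}
  add_mem' := fun {a b} ha hb χ hχ => by rw [map_add, ha χ hχ, hb χ hχ, add_zero]
  zero_mem' := fun χ _ => map_zero _
  smul_mem' := fun κ x hx χ hχ => by rw [map_smul, hx χ hχ, smul_zero]

variable (τ₀ : S →* MulAut V) (φ : S ≃* S)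

/-- The chars move around under the automorphism. -/
theorem eig_pow_c (τ : S →* End K (Additive V →+ K)) (cF : End K (Additive V →+ K))
    (hcτ : ∀ s, cF * τ s = τ (φ s) * cF) {μ : S →* Kˣ} {u : Additive V →+ K} (hμ : Eig τ μ u)
    (T : (S →* Kˣ) → (S →* Kˣ)) (hT : ∀ χ, T χ = χ.comp (φ.symm : S →* S)) (i : ℕ) :
    Eig τ (T^[i] μ) ((cF ^ i) u) := by
  induction i with
  | zero =>
    simpa using hμ
  | succ i ih =>
    intro x
    have h1 : τ x * cF = cF * τ (φ.symm x) := by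
      have h2 := hcτ (φ.symm x)
      rw [φ.apply_symm_apply] at h2
      exact h2.symm
    rw [pow_succ', Module.End.mul_apply]
    have h5 := congrArg (fun f : End K (Additive V →+ K) => f ((cF ^ i) u)) h1
    simp only [Module.End.mul_apply] at h5
    rw [h5, ih, map_smul, Function.iterate_succ_apply', hT]
    rfl

/-- An eigenvector with a regular orbit gives all eigenvalues. -/
theorem orbit_vec (τ : S →* End K (Additive V →+ K)) (cF : End K (Additive V →+ K))
    (hS : (Fintype.card S : K) ≠ 0) {ℓ : ℕ} (hℓ : 0 < ℓ) (hℓK : (ℓ : K) ≠ 0) (hcF : cF ^ ℓ = 1)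
    (hcτ : ∀ s, cF * τ s = τ (φ s) * cF) {μ : S →* Kˣ} {u : Additive V →+ K} (hu : u ≠ 0)
    (hμ : Eig τ μ u)
    (T : (S →* Kˣ) → (S →* Kˣ)) (hT : ∀ χ, T χ = χ.comp (φ.symm : S →* S))
    (hreg : ∀ k, 0 < k → k < ℓ → T^[k] μ ≠ μ) (ξ : K) (hξ : ξ ^ ℓ = 1) :
    ∃ w ∈ WO τ (Set.range (fun i : ℕ => T^[i] μ)), w ≠ 0 ∧ cF w = ξ • w := by
  classical
  have heig := eig_pow_c φ τ cF hcτ hμ T hT
  have hξ0 : ξ ≠ 0 := by
    rintro rfl
    rw [zero_pow hℓ.ne'] at hξ
    exact zero_ne_one hξ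
  have hspec : ∀ χ : S →* Kˣ, prj τ χ (spec ℓ cF ξ u) =
      (ℓ : K)⁻¹ • ∑ i ∈ Finset.range ℓ, (ξ⁻¹) ^ i • prj τ χ ((cF ^ i) u) := by
    intro χ
    unfold spec
    rw [LinearMap.smul_apply, map_smul, LinearMap.sum_apply, map_sum]
    congr 1
    refine Finset.sum_congr rfl (fun i _ => ?_)
    rw [LinearMap.smul_apply, map_smul]
  refine ⟨spec ℓ cF ξ u, ?_, ?_, ?_⟩
  · intro χ hχ
    rw [hspec]
    have h1 : ∀ i ∈ Finset.range ℓ, (ξ⁻¹) ^ i • prj τ χ ((cF ^ i) u) = 0 := by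
      intro i _
      rw [prj_of_eig_ne τ (heig i) (fun h => hχ ⟨i, h⟩), smul_zero]
    rw [Finset.sum_eq_zero h1, smul_zero]
  · intro h0
    have h1 := hspec μ
    rw [h0, map_zero, Finset.sum_eq_single 0] at h1
    · simp only [pow_zero, one_smul, Module.End.one_apply] at h1
      rw [prj_of_eig τ hS hμ] at h1
      exact hu ((smul_eq_zero.1 h1.symm).resolve_left (inv_ne_zero hℓK))
    · intro i hi hi0
      rw [prj_of_eig_ne τ (heig i) (hreg i (Nat.pos_of_ne_zero hi0) (Finset.mem_range.1 hi)),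
        smul_zero]
    · intro h
      exact absurd (Finset.mem_range.2 hℓ) h
  · have h1 := mul_spec hℓ hcF hξ
    have h2 := congrArg (fun f : End K (Additive V →+ K) => f u) h1
    exact h2

end abelian

section abelian2

variable {V S : Type*} [CommGroup V] [Finite V] (B : SF V)
  [CommGroup S] [Fintype S] (τ₀ : S →* MulAut V) (φ : S ≃* S)

/-- **The abelian case.** -/
theorem caseA (K : Type*) [Field K] [IsAlgClosed K] [CharP K 2] (hV2 : ∀ v : V, v ^ 2 = 1) (c : MulAut V) {ℓ k r : ℕ} (hℓ : ℓ.Prime)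
    (hr : r.Prime) (hr2 : r ≠ 2) (hSr : IsPGroup r S)
    (hℓr : ℓ ≠ r)
    (hℓk : ℓ = 2 ^ k + 1) (hk : 1 ≤ k) (hc : c ^ ℓ = 1) (hJ : Nat.card (normKer c ℓ) = 2 ^ (2 * k))
    (hτ₀ : ∀ s x y, B.b (τ₀ s x) (τ₀ s y) = B.b x y)
    (hcτ₀ : ∀ s, c * τ₀ s = τ₀ (φ s) * c) (hφℓ : ∀ x, (⇑φ)^[ℓ] x = x)
    (hfpf : ∀ z, φ z = z → z = 1) (d₀ : S) (hd : τ₀ d₀ ≠ 1) : False := by
  classical
  haveI : Fact r.Prime := ⟨hr⟩
  have hℓ2 : ℓ ≠ 2 := by
    rw [hℓk]
    have : 2 ≤ 2 ^ k := by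
      calc 2 = 2 ^ 1 := rfl
        _ ≤ 2 ^ k := Nat.pow_le_pow_right (by norm_num) hk
    omega
  have hℓK : (ℓ : K) ≠ 0 := two_ne_zero_of_odd hℓ hℓ2
  have hrK : (r : K) ≠ 0 := two_ne_zero_of_odd hr hr2
  have hS : (Fintype.card S : K) ≠ 0 := by
    obtain ⟨n, hn⟩ := IsPGroup.iff_card.1 hSr
    rw [← Nat.card_eq_fintype_card, hn, Nat.cast_pow]
    exact pow_ne_zero _ hrK
  obtain ⟨μ, v₀, v₁, hμ1, hup, hum⟩ := dual_pair (K := K) B τ₀ hτ₀ hS d₀ hd
  set τ : S →* End K (Additive V →+ K) := (dualRep (K := K) (MulAut V)).comp τ₀ with hτ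
  set cF : End K (Additive V →+ K) := dualRep (K := K) (MulAut V) c with hcF
  have hcFτ : ∀ s, cF * τ s = τ (φ s) * cF := by
    intro s
    rw [hcF, hτ, MonoidHom.comp_apply, MonoidHom.comp_apply, ← map_mul, ← map_mul, hcτ₀]
  have hcFℓ : cF ^ ℓ = 1 := by
    rw [hcF, ← map_pow, hc, map_one]
  -- the action on characters
  let T : (S →* Kˣ) → (S →* Kˣ) := fun χ => χ.comp (φ.symm : S →* S)
  have hTdef : ∀ χ, T χ = χ.comp (φ.symm : S →* S) := fun _ => rfl
  have hTinv : ∀ (i : ℕ) (χ : S →* Kˣ), T^[i] χ⁻¹ = (T^[i] χ)⁻¹ := by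
    intro i
    induction i with
    | zero => intro χ; rfl
    | succ i ih =>
      intro χ
      rw [Function.iterate_succ_apply', Function.iterate_succ_apply', ih]
      rfl
  have hTinj : Function.Injective T := by
    intro χ χ' h
    ext s
    have h1 := congrArg (fun f : S →* Kˣ => f (φ s)) h
    have h2 : ∀ ω : S →* Kˣ, (T ω) (φ s) = ω s := fun ω => by
      show ω (φ.symm (φ s)) = ω s
      rw [φ.symm_apply_apply]
    simp only [h2] at h1
    rw [h1]
  have hψ : ∀ x, (⇑φ.symm)^[ℓ] x = x := by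
    intro x
    have h1 : (⇑φ)^[ℓ] ((⇑φ.symm)^[ℓ] x) = x :=
      Function.LeftInverse.iterate (g := ⇑φ) (f := ⇑φ.symm) (fun y => φ.apply_symm_apply y) ℓ x
    have h2 := hφℓ ((⇑φ.symm)^[ℓ] x)
    rw [← h2, h1]
  have hTapp : ∀ (k : ℕ) (χ : S →* Kˣ) (x : S), (T^[k] χ) x = χ ((⇑φ.symm)^[k] x) := by
    intro k
    induction k with
    | zero => intro χ x; rfl
    | succ k ih =>
      intro χ x
      rw [Function.iterate_succ_apply', Function.iterate_succ_apply]
      show (T^[k] χ) (φ.symm x) = _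
      rw [ih]
  have hTℓ : ∀ χ : S →* Kˣ, T^[ℓ] χ = χ := by
    intro χ
    ext x
    rw [hTapp, hψ]
  -- characters are trivial once of order dividing `n` coprime to `r`
  have htriv : ∀ (n : ℕ), Nat.Coprime n r → ∀ (χ : S →* Kˣ) (s : S), χ s ^ n = 1 → χ s = 1 := by
    intro n hn χ s h
    obtain ⟨m, hm⟩ := hSr s
    have h1 : χ s ^ (r ^ m) = 1 := by rw [← map_pow, hm, map_one]
    have h2 : χ s ^ Nat.gcd n (r ^ m) = 1 := pow_gcd_eq_one.2 ⟨h, h1⟩
    rw [Nat.Coprime.gcd_eq_one (Nat.Coprime.pow_right m hn), pow_one] at h2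
    exact h2
  -- the norm of an element is trivial
  have hnorm : ∀ s : S, ∏ i ∈ Finset.range ℓ, (⇑φ)^[i] s = 1 := by
    intro s
    apply hfpf
    rw [map_prod]
    have h1 : ∀ i, φ ((⇑φ)^[i] s) = (⇑φ)^[i + 1] s := fun i => (Function.iterate_succ_apply' _ _ _).symm
    simp only [h1]
    set g : ℕ → S := fun i => (⇑φ)^[i] s with hg
    have h3 := Finset.prod_range_succ g ℓ
    have h4 := Finset.prod_range_succ' g ℓ
    have h5 : g ℓ = g 0 := by
      simp only [hg]
      rw [hφℓ]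
      rfl
    rw [h5] at h3
    exact mul_right_cancel (h4.symm.trans h3)
  have hregT : T μ ≠ μ := by
    intro h
    apply hμ1
    have hinv : ∀ x, μ (φ.symm x) = μ x := fun x => congrArg (fun f : S →* Kˣ => f x) h
    have hfix : ∀ x, μ (φ x) = μ x := fun x => by
      have := hinv (φ x)
      rw [φ.symm_apply_apply] at this
      exact this.symm
    have hfixi : ∀ (i : ℕ) x, μ ((⇑φ)^[i] x) = μ x := by
      intro i
      induction i with
      | zero => intro x; rfl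
      | succ i ih =>
        intro x
        rw [Function.iterate_succ_apply', hfix, ih]
    have h1 := congrArg μ (hnorm d₀)
    rw [map_prod, map_one] at h1
    simp only [hfixi] at h1
    rw [Finset.prod_const, Finset.card_range] at h1
    exact htriv ℓ ((Nat.coprime_primes hℓ hr).2 hℓr) μ d₀ h1
  have hper : ∀ k, 0 < k → Nat.Coprime k ℓ → T^[k] μ ≠ μ := by
    intro k _ hcop h
    have h1 : Function.IsPeriodicPt T k μ := h
    have h2 : Function.IsPeriodicPt T ℓ μ := hTℓ μ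
    have h3 := h1.gcd h2
    rw [hcop] at h3
    exact hregT h3
  have hper' : ∀ k, 0 < k → k < ℓ → T^[k] μ ≠ μ := by
    intro k hk0 hkℓ
    refine hper k hk0 ?_
    have h5 : ¬ ℓ ∣ k := fun hd => absurd (Nat.le_of_dvd hk0 hd) (by omega)
    exact Nat.Coprime.symm ((Nat.Prime.coprime_iff_not_dvd hℓ).2 h5)
  have hper'' : ∀ k, 0 < k → k < ℓ → T^[k] μ⁻¹ ≠ μ⁻¹ := by
    intro k hk0 hkℓ h
    rw [hTinv] at h
    exact hper' k hk0 hkℓ (inv_injective h)
  -- disjointness of the two orbits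
  have hdis : ∀ (i j : ℕ), T^[i] μ ≠ T^[j] μ⁻¹ := by
    have key : ∀ (i j : ℕ), i ≤ j → T^[i] μ * T^[j] μ ≠ 1 := by
      intro i j hij h
      have hT_mul : ∀ (n : ℕ) (χ χ' : S →* Kˣ), T^[n] (χ * χ') = T^[n] χ * T^[n] χ' := by
        intro n
        induction n with
        | zero => intro _ _; rfl
        | succ n ih =>
          intro χ χ'
          rw [Function.iterate_succ_apply', Function.iterate_succ_apply',
            Function.iterate_succ_apply', ih]
          rfl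
      have hT_one : ∀ n : ℕ, T^[n] (1 : S →* Kˣ) = 1 := by
        intro n
        induction n with
        | zero => rfl
        | succ n ih =>
          rw [Function.iterate_succ_apply', ih]
          rfl
      have h1 : T^[i] (T^[i] μ * T^[j] μ) = 1 := by rw [h, hT_one]
      have h2 : T^[j] (T^[i] μ * T^[j] μ) = 1 := by rw [h, hT_one]
      rw [hT_mul, ← Function.iterate_add_apply, ← Function.iterate_add_apply] at h1 h2
      have h3 : T^[i + i] μ = T^[j + j] μ := by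
        have h4 : T^[i + j] μ = T^[j + i] μ := by rw [add_comm]
        rw [h4] at h1
        have h2' : T^[j + j] μ * T^[j + i] μ = 1 := by
          have h13 : T^[j + j] μ * T^[j + i] μ = T^[j + i] μ * T^[j + j] μ := by
            ext s
            simp [mul_comm]
          rw [h13]
          exact h2
        exact mul_right_cancel (h1.trans h2'.symm)
      by_cases hijeq : i = j
      · subst hijeq
        -- `μ ^ 2 = 1`
        have h5 : T^[i] (μ * μ) = T^[i] 1 := by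
          rw [hT_mul, h, hT_one]
        have h6 : μ * μ = 1 := (hTinj.iterate i) h5
        apply hμ1
        refine htriv 2 ((Nat.coprime_primes Nat.prime_two hr).2 (Ne.symm hr2)) μ d₀ ?_
        have h7 := congrArg (fun f : S →* Kˣ => f d₀) h6
        simpa [pow_two] using h7
      · have hlt : i < j := lt_of_le_of_ne hij hijeq
        have h8 : T^[i + i] μ = T^[i + i] (T^[2 * (j - i)] μ) := by
          rw [← Function.iterate_add_apply, h3]
          have h12 : j + j = i + i + 2 * (j - i) := by omega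
          rw [h12]
        have h9 := (hTinj.iterate (i + i)) h8
        by_cases hdvd : ℓ ∣ (j - i)
        · -- then `T^[j] μ = T^[i] μ`
          obtain ⟨m, hm⟩ := hdvd
          have h10 : T^[j] μ = T^[i] μ := by
            have h11 : j = i + ℓ * m := by omega
            rw [h11, Function.iterate_add_apply, Function.iterate_mul]
            congr 1
            exact Function.iterate_fixed (hTℓ μ) m
          rw [h10] at h
          have h5 : T^[i] (μ * μ) = T^[i] 1 := by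
            rw [hT_mul, h, hT_one]
          have h6 : μ * μ = 1 := (hTinj.iterate i) h5
          apply hμ1
          refine htriv 2 ((Nat.coprime_primes Nat.prime_two hr).2 (Ne.symm hr2)) μ d₀ ?_
          have h7 := congrArg (fun f : S →* Kˣ => f d₀) h6
          simpa [pow_two] using h7
        · have hcop : Nat.Coprime (2 * (j - i)) ℓ := by
            refine Nat.Coprime.mul_left ?_ ?_
            · exact (Nat.coprime_primes Nat.prime_two hℓ).2 (Ne.symm hℓ2)
            · exact Nat.Coprime.symm ((Nat.Prime.coprime_iff_not_dvd hℓ).2 hdvd)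
          exact hper _ (by omega) hcop h9.symm
    intro i j h
    rw [hTinv] at h
    rcases le_total i j with hij | hij
    · exact key i j hij (by rw [h]; ext s; simp)
    · refine key j i hij ?_
      rw [h]
      ext s
      simp
  -- the eigenvectors
  have hupe := eig_prj τ μ (bF B v₀)
  have hume := eig_prj τ μ⁻¹ (bF B v₁)
  have hvecp := orbit_vec φ τ cF hS hℓ.pos hℓK hcFℓ hcFτ hup hupe T hTdef hper'
  have hvecm := orbit_vec φ τ cF hS hℓ.pos hℓK hcFℓ hcFτ hum hume T hTdef hper''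
  refine contra_of_vectors hV2 c hℓ hℓk hk hc hJ _ _ ?_ (fun ξ h _ => hvecp ξ h) (fun ξ h _ => hvecm ξ h)
  rw [eq_bot_iff]
  rintro u ⟨hu1, hu2⟩
  rw [Submodule.mem_bot]
  haveI := S3Rep.finite_chars (K := K) hS
  letI := Fintype.ofFinite (S →* Kˣ)
  rw [← sum_prj τ hS u]
  refine Finset.sum_eq_zero (fun χ _ => ?_)
  by_cases hχ : χ ∈ Set.range (fun i : ℕ => T^[i] μ)
  · refine hu2 χ ?_
    rintro ⟨j, hj⟩
    obtain ⟨i, hi⟩ := hχ
    exact hdis i j (hi.trans hj.symm)
  · exact hu1 χ hχ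

end abelian2

end Cfsg.Agent.Lib.PQRed2
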