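import Mathlib
import Cfsg.Agent.Lib.PQRed2
import Cfsg.Agent.Lib.PQForm2
import Cfsg.Agent.Lib.PQMin

/-!
# An element of prime order `2 ^ k + 1` of a symplectic group over `F_2` with small commutator
normalizing an odd order group centralizes it.
-/

set_option autoImplicit false

namespace Cfsg.Agent.Lib.PQRed3

open Module Cfsg.Agent.Lib.PQRep Cfsg.Agent.Lib.S3Top Cfsg.Agent.Lib.PQRed1 Cfsg.Agent.Lib.PQRed2
  Cfsg.Agent.Lib.PQForm1 Cfsg.Agent.Lib.PQForm2 Cfsg.Agent.Lib.PQMin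
open scoped commutatorElement

variable {V : Type*} [CommGroup V] [Finite V]

theorem mulAut_iter {T : Type*} [Group T] (f : MulAut T) (n : ℕ) (x : T) :
    (⇑f)^[n] x = (f ^ n) x := by
  induction n with
  | zero => rfl
  | succ n ih =>
    rw [Function.iterate_succ_apply', ih, pow_succ']
    rfl

theorem HHRed (hV2 : ∀ v : V, v ^ 2 = 1) (B : SF V) (c : MulAut V)
    {ℓ r k : ℕ} (hℓ : ℓ.Prime) (hr : r.Prime) (hr2 : r ≠ 2) (hℓr : ℓ ≠ r)
    (hℓk : ℓ = 2 ^ k + 1) (hk : 1 ≤ k) (hc : c ^ ℓ = 1) (hJ : Nat.card (normKer c ℓ) = 2 ^ (2 * k))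
    (D : Subgroup (MulAut V)) (hDr : IsPGroup r D) (hDc : ∀ d ∈ D, c * d * c⁻¹ ∈ D)
    (hDb : ∀ d ∈ D, ∀ x y, B.b (d x) (d y) = B.b x y) : ∀ d ∈ D, c * d * c⁻¹ = d := by
  classical
  by_contra hne
  push Not at hne
  obtain ⟨d, hd, hdne⟩ := hne
  haveI : Fact r.Prime := ⟨hr⟩
  let K := AlgebraicClosure (ZMod 2)
  let conjc : MulAut (MulAut V) := MulAut.conj c
  have hconj : ∀ x, conjc x = c * x * c⁻¹ := fun x => rfl
  let W : Subgroup (MulAut (MulAut V)) := Subgroup.zpowers conjc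
  have hconjℓ : conjc ^ ℓ = 1 := by
    have : conjc ^ ℓ = MulAut.conj (c ^ ℓ) := (map_pow MulAut.conj c ℓ).symm
    rw [this, hc, map_one]
  have hWpow : ∀ w ∈ W, ∃ n : ℕ, w = conjc ^ n := by
    intro w hw
    have h1 : w ∈ Submonoid.powers conjc := mem_powers_iff_mem_zpowers.2 hw
    obtain ⟨n, hn⟩ := Submonoid.mem_powers_iff _ _ |>.1 h1
    exact ⟨n, hn.symm⟩
  have hWcard : (Nat.card W).Coprime r := by
    have h1 : Nat.card W = orderOf conjc := Nat.card_zpowers conjc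
    rw [h1]
    exact Nat.Coprime.coprime_dvd_left (orderOf_dvd_of_pow_eq_one hconjℓ)
      ((Nat.coprime_primes hℓ hr).2 hℓr)
  have hcW : conjc ∈ W := Subgroup.mem_zpowers conjc
  have hDW : ∀ f ∈ W, ∀ x ∈ D, f x ∈ D := by
    intro f hf x hx
    obtain ⟨n, rfl⟩ := hWpow f hf
    clear hf
    rw [← mulAut_iter]
    induction n with
    | zero => exact hx
    | succ n ih =>
      rw [Function.iterate_succ_apply']
      exact hDc _ ih
  obtain ⟨E, hED, hEΓ, hEne, hcen, hcWf, hpW, -, hgen, habel⟩ :=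
    minStruct hr D hDr W hWcard (W : Set (MulAut (MulAut V))) (fun _ hw => hw)
      (fun f hf => W.inv_mem hf) (fun f hf w hw => W.mul_mem (W.mul_mem hf hw) (W.inv_mem hf)) hDW
      ⟨conjc, hcW, d, hd, hdne⟩
  have hEc : ∀ x, conjc x ∈ E ↔ x ∈ E := by
    intro x
    constructor
    · intro h
      have h1 := hEΓ conjc⁻¹ (W.inv_mem hcW) _ h
      have h2 : conjc⁻¹ (conjc x) = x := conjc.symm_apply_apply x
      rwa [h2] at h1
    · exact hEΓ conjc hcW x
  have hfixc : ∀ x, conjc x = x → ∀ w ∈ W, w x = x := by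
    intro x hx w hw
    obtain ⟨n, rfl⟩ := hWpow w hw
    rw [← mulAut_iter]
    exact Function.iterate_fixed hx n
  let φ : E ≃* E := resEquiv conjc E hEc
  have hφ : ∀ x : E, (φ x : MulAut V) = conjc x.1 := fun _ => rfl
  have hφℓ : ∀ x, (⇑φ)^[ℓ] x = x := by
    intro x
    apply Subtype.ext
    rw [resEquiv_iter, mulAut_iter, hconjℓ]
    rfl
  letI ftE : Fintype E := Fintype.ofFinite E
  have hErp : IsPGroup r E := hDr.to_le hED
  have hcF : ∀ x : MulAut V, dualRep (A := V) (K := K) (MulAut V) c * dualRep (A := V) (K := K) (MulAut V) x =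
      dualRep (A := V) (K := K) (MulAut V) (conjc x) * dualRep (A := V) (K := K) (MulAut V) c := by
    intro x
    rw [← map_mul, ← map_mul, hconj]
    congr 1
    group
  set cF : End K (Additive V →+ K) := dualRep (A := V) (K := K) (MulAut V) c with hcFdef
  have hcFℓ : cF ^ ℓ = 1 := by
    rw [hcFdef, ← map_pow, hc, map_one]
  have hℓ2 : ℓ ≠ 2 := by
    rw [hℓk]
    have : 2 ≤ 2 ^ k := by
      calc 2 = 2 ^ 1 := rfl
        _ ≤ 2 ^ k := Nat.pow_le_pow_right (by norm_num) hk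
    omega
  have hℓK : (ℓ : K) ≠ 0 := two_ne_zero_of_odd hℓ hℓ2
  have hrK : (r : K) ≠ 0 := two_ne_zero_of_odd hr hr2
  by_cases hab : ∀ x ∈ E, ∀ y ∈ E, x * y = y * x
  · -- the abelian case
    letI cg : CommGroup E :=
      { (inferInstance : Group E) with
        mul_comm := fun a b => Subtype.ext (hab a.1 a.2 b.1 b.2) }
    obtain ⟨w, _, x, hx, hxne⟩ := hEne
    refine caseA B E.subtype φ K hV2 c hℓ hr hr2 hErp hℓr hℓk hk hc hJ
      (fun s x y => hDb s.1 (hED s.2) x y) ?_ hφℓ ?_ ⟨x, hx⟩ ?_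
    · intro s
      show c * s.1 = (c * s.1 * c⁻¹) * c
      group
    · intro z hz
      apply Subtype.ext
      refine habel hab z.1 z.2 (fun w hw => hfixc z.1 ?_ w hw)
      exact congrArg Subtype.val hz
    · intro h
      apply hxne
      have h1 : x = 1 := h
      rw [h1, map_one]
  -- the nonabelian case
  push Not at hab
  obtain ⟨x₀, hx₀, y₀, hy₀, hxy⟩ := hab
  let Z : Subgroup E :=
    { carrier := {x | conjc x.1 = x.1}
      mul_mem' := fun {a b} ha hb => by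
        show conjc (a.1 * b.1) = a.1 * b.1
        rw [map_mul, show conjc a.1 = a.1 from ha, show conjc b.1 = b.1 from hb]
      one_mem' := map_one conjc
      inv_mem' := fun {a} ha => by
        show conjc (a.1⁻¹) = a.1⁻¹
        rw [map_inv, show conjc a.1 = a.1 from ha] }
  have hZmem : ∀ x : E, x ∈ Z ↔ conjc x.1 = x.1 := fun _ => Iff.rfl
  have hZcen : Z ≤ Subgroup.center E := by
    intro z hz
    rw [Subgroup.mem_center_iff]
    intro y
    exact Subtype.ext (hcen z.1 z.2 (fun w hw => hfixc z.1 hz w hw) y.1 y.2).symm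
  have hcomm : ∀ x y : E, ⁅x, y⁆ ∈ Z := fun x y => hcWf x.1 x.2 y.1 y.2 conjc hcW
  have hpow : ∀ x : E, x ^ r ∈ Z := fun x => hpW x.1 x.2 conjc hcW
  have hφZ : ∀ x, φ x ∈ Z ↔ x ∈ Z := by
    intro x
    constructor
    · intro h
      have h1 : conjc (conjc x.1) = conjc x.1 := h
      exact conjc.injective h1
    · intro h
      have h1 : conjc x.1 = x.1 := h
      show conjc (φ x).1 = (φ x).1
      rw [hφ, h1, h1]
  letI zc : CommGroup Z :=
    { (inferInstance : Group Z) with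
      mul_comm := fun a b => Subtype.ext ((Subgroup.mem_center_iff.1 (hZcen a.2)) b.1).symm }
  letI ftZ : Fintype Z := Fintype.ofFinite Z
  let ρE : E →* End K (Additive V →+ K) := (dualRep (A := V) (K := K) (MulAut V)).comp E.subtype
  let τ₀ : Z →* MulAut V := E.subtype.comp Z.subtype
  have hcard : ∀ H : Subgroup (MulAut V), H ≤ D → (Nat.card H : K) ≠ 0 := by
    intro H hH
    obtain ⟨n, hn⟩ := IsPGroup.iff_card.1 (hDr.to_le hH)
    rw [hn, Nat.cast_pow]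
    exact pow_ne_zero _ hrK
  have hcardZ : (Fintype.card Z : K) ≠ 0 := by
    rw [← Nat.card_eq_fintype_card]
    obtain ⟨n, hn⟩ := IsPGroup.iff_card.1 (hErp.to_subgroup Z)
    rw [hn, Nat.cast_pow]
    exact pow_ne_zero _ hrK
  let d₀ : Z := ⟨⁅(⟨x₀, hx₀⟩ : E), ⟨y₀, hy₀⟩⁆, hcomm _ _⟩
  have hd₀ : τ₀ d₀ ≠ 1 := by
    intro h
    apply hxy
    have h1 : ⁅x₀, y₀⁆ = 1 := h
    exact commutatorElement_eq_one_iff_mul_comm.1 h1
  obtain ⟨μ, v₀, v₁, hμ1, hup, hum⟩ := dual_pair (K := K) B τ₀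
    (fun s x y => hDb s.1.1 (hED s.1.2) x y) hcardZ d₀ hd₀
  -- eigenvectors for `cF`
  have hτ₀ρ : ∀ (χ : Z →* Kˣ) (u : Additive V →+ K),
      Eig ((dualRep (A := V) (K := K) (MulAut V)).comp τ₀) χ u → u ∈ eigZ ρE χ := fun χ u h => h
  have hE_K : (Nat.card E : K) ≠ 0 := hcard E hED
  have hvec : ∀ (χ : Z →* Kˣ), χ d₀ ≠ 1 → ∀ u₀ ∈ eigZ ρE χ, u₀ ≠ 0 → ∀ ξ : K, ξ ^ ℓ = 1 →
      ∃ w ∈ eigZ ρE χ, w ≠ 0 ∧ cF w = ξ • w := by
    intro χ hχ u₀ hu₀ hu₀ne ξ hξ
    by_contra hcon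
    push Not at hcon
    have hξ0 : ξ ≠ 0 := by
      rintro rfl
      rw [zero_pow hℓ.pos.ne'] at hξ
      exact zero_ne_one hξ
    let c' : End K (Additive V →+ K) := ξ⁻¹ • cF
    have hc'ℓ : c' ^ ℓ = 1 := by
      show (ξ⁻¹ • cF) ^ ℓ = 1
      rw [smul_pow, hcFℓ, inv_pow, hξ, inv_one, one_smul]
    have hc'ρ : ∀ x, c' * ρE x = ρE (φ x) * c' := by
      intro x
      show (ξ⁻¹ • cF) * _ = _ * (ξ⁻¹ • cF)
      rw [smul_mul_assoc, mul_smul_comm]
      congr 1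
      exact hcF x.1
    have hχφ : ∀ z : Z, χ ⟨φ z, (hφZ z).2 z.2⟩ = χ z := by
      intro z
      congr 1
      apply Subtype.ext
      apply Subtype.ext
      exact z.2
    have hcFeig : ∀ u ∈ eigZ ρE χ, cF u ∈ eigZ ρE χ := by
      intro u hu z
      have h1 := congrArg (fun g : End K (Additive V →+ K) => g u) (hcF z.1.1)
      simp only [Module.End.mul_apply] at h1
      have h2 : conjc z.1.1 = z.1.1 := z.2
      rw [h2] at h1
      show dualRep (A := V) (K := K) (MulAut V) z.1.1 (cF u) = _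
      rw [← h1]
      have h3 : dualRep (A := V) (K := K) (MulAut V) z.1.1 u = ((χ z : Kˣ) : K) • u := hu z
      rw [h3, map_smul]
    have hc'pow : ∀ i u, u ∈ eigZ ρE χ → (c' ^ i) u ∈ eigZ ρE χ := by
      intro i
      induction i with
      | zero => intro u hu; simpa using hu
      | succ i ih =>
        intro u hu
        rw [pow_succ', Module.End.mul_apply]
        show ξ⁻¹ • cF ((c' ^ i) u) ∈ _
        exact Submodule.smul_mem _ _ (hcFeig _ (ih u hu))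
    have hsum : ∀ u ∈ eigZ ρE χ, ∑ i ∈ Finset.range ℓ, (c' ^ i) u = 0 := by
      intro u hu
      by_contra hne0
      refine hcon _ (Submodule.sum_mem _ (fun i _ => hc'pow i u hu)) hne0 ?_
      -- the sum is an eigenvector
      have hfix : c' (∑ i ∈ Finset.range ℓ, (c' ^ i) u) = ∑ i ∈ Finset.range ℓ, (c' ^ i) u := by
        rw [map_sum]
        set g : ℕ → Additive V →+ K := fun i => (c' ^ i) u with hg
        have h1 : ∀ i, c' ((c' ^ i) u) = g (i + 1) := fun i => by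
          simp only [hg]
          rw [pow_succ', Module.End.mul_apply]
        simp only [h1]
        have h3 := Finset.sum_range_succ g ℓ
        have h4 := Finset.sum_range_succ' g ℓ
        have h5 : g ℓ = g 0 := by
          simp only [hg]
          rw [hc'ℓ, pow_zero]
        rw [h5] at h3
        exact add_right_cancel (h4.symm.trans h3)
      have h6 : ξ⁻¹ • cF (∑ i ∈ Finset.range ℓ, (c' ^ i) u) =
          ∑ i ∈ Finset.range ℓ, (c' ^ i) u := hfix
      have h7 : cF (∑ i ∈ Finset.range ℓ, (c' ^ i) u) =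
          ξ • (ξ⁻¹ • cF (∑ i ∈ Finset.range ℓ, (c' ^ i) u)) := by
        rw [smul_smul, mul_inv_cancel₀ hξ0, one_smul]
      rw [h7, h6]
    haveI : Fact r.Prime := ⟨hr⟩
    rcases LLForm (K := K) hr hℓ (Ne.symm hℓr) hErp hrK hℓK hZcen hcomm hpow φ hφℓ hφZ ρE c' hc'ℓ
      hc'ρ χ hχφ u₀ hu₀ne hu₀ hsum with h1 | h1
    · -- the radical is everything
      have hradpow : ∀ (n : ℕ) (x : E), x⁻¹ * (⇑φ)^[n] x ∈ rad hZcen hcomm χ := by
        intro n x
        induction n with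
        | zero => simp [Subgroup.one_mem]
        | succ n ih =>
          have h2 : x⁻¹ * (⇑φ)^[n + 1] x = (x⁻¹ * (⇑φ)^[n] x) *
              (((⇑φ)^[n] x)⁻¹ * φ ((⇑φ)^[n] x)) := by
            rw [Function.iterate_succ_apply']
            group
          rw [h2]
          exact Subgroup.mul_mem _ ih (h1 _)
      have hall : ∀ x : E, x ∈ rad hZcen hcomm χ := by
        have hle : E ≤ (rad hZcen hcomm χ).map E.subtype := by
          conv_lhs => rw [← hgen]
          refine (Subgroup.closure_le _).2 ?_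
          rintro _ ⟨x, hx, w, hw, rfl⟩
          obtain ⟨n, rfl⟩ := hWpow w hw
          refine ⟨(⟨x, hx⟩ : E)⁻¹ * (⇑φ)^[n] ⟨x, hx⟩, hradpow n _, ?_⟩
          show x⁻¹ * ((⇑φ)^[n] ⟨x, hx⟩ : E).1 = _
          rw [resEquiv_iter, mulAut_iter]
        intro x
        obtain ⟨x', hx', hxx⟩ := hle x.2
        have : x' = x := Subtype.ext hxx
        rwa [← this]
      apply hχ
      exact hall ⟨x₀, hx₀⟩ ⟨y₀, hy₀⟩
    · exact hr2 h1.1
  -- the count
  have hu1 : prj ((dualRep (A := V) (K := K) (MulAut V)).comp τ₀) μ (bF B v₀) ∈ eigZ ρE μ :=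
    hτ₀ρ _ _ (eig_prj _ _ _)
  have hu2 : prj ((dualRep (A := V) (K := K) (MulAut V)).comp τ₀) μ⁻¹ (bF B v₁) ∈ eigZ ρE μ⁻¹ :=
    hτ₀ρ _ _ (eig_prj _ _ _)
  have hμinv : (μ⁻¹ : Z →* Kˣ) d₀ ≠ 1 := by
    intro h
    apply hμ1
    have h1 : (μ d₀)⁻¹ = 1 := h
    exact inv_eq_one.1 h1
  refine contra_of_vectors (K := K) hV2 c hℓ hℓk hk hc hJ (eigZ ρE μ) (eigZ ρE μ⁻¹) ?_
    (fun ξ h _ => hvec μ hμ1 _ hu1 hup ξ h) (fun ξ h _ => hvec μ⁻¹ hμinv _ hu2 hum ξ h)
  rw [eq_bot_iff]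
  rintro u ⟨h1, h2⟩
  rw [Submodule.mem_bot]
  by_contra hu
  have h3 : ρE d₀.1 u = ((μ d₀ : Kˣ) : K) • u := h1 d₀
  have h4 : ρE d₀.1 u = (((μ⁻¹ : Z →* Kˣ) d₀ : Kˣ) : K) • u := h2 d₀
  rw [h3] at h4
  have h5 : (((μ d₀ : Kˣ) : K) - (((μ⁻¹ : Z →* Kˣ) d₀ : Kˣ) : K)) • u = 0 := by
    rw [sub_smul, h4, sub_self]
  have h6 := (smul_eq_zero.1 h5).resolve_right hu
  have h7 : μ d₀ = (μ⁻¹ : Z →* Kˣ) d₀ := Units.ext (sub_eq_zero.1 h6)
  have h8 : μ d₀ ^ 2 = 1 := by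
    have h9 : (μ⁻¹ : Z →* Kˣ) d₀ = (μ d₀)⁻¹ := rfl
    rw [h9] at h7
    rw [pow_two]
    nth_rewrite 1 [h7]
    exact inv_mul_cancel _
  obtain ⟨m, hm⟩ := (hErp.to_subgroup Z) d₀
  have h10 : μ d₀ ^ (r ^ m) = 1 := by rw [← map_pow, hm, map_one]
  have h11 : μ d₀ ^ Nat.gcd 2 (r ^ m) = 1 := pow_gcd_eq_one.2 ⟨h8, h10⟩
  rw [Nat.Coprime.gcd_eq_one (Nat.Coprime.pow_right m
    ((Nat.coprime_primes Nat.prime_two hr).2 (Ne.symm hr2))), pow_one] at h11
  exact hμ1 h11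

end Cfsg.Agent.Lib.PQRed3
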