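import Mathlib
import Cfsg.Agent.Lib.PQRed3
import Cfsg.Agent.Lib.PQDual

/-!
# The exceptional case: an automorphism with small commutator normalizing an odd order group of
isometries of the commutator form.
-/

set_option autoImplicit false

namespace Cfsg.Agent.Lib.PQExc

open Module Cfsg.Agent.Lib.PQRed1 Cfsg.Agent.Lib.PQRed3 Cfsg.Agent.Lib.PQForm1
  Cfsg.Agent.Lib.PQForm2
open scoped commutatorElement

section desc

variable {E V : Type*} [Group E] [Group V]

/-- Descent of an automorphism along a surjection. -/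
noncomputable def descAut (π : E →* V) (hπ : Function.Surjective π) (φ : E ≃* E)
    (h : ∀ x, π (φ x) = 1 ↔ π x = 1) : V ≃* V :=
  have key : ∀ x x', π x = π x' → π (φ x) = π (φ x') := by
    intro x x' hx
    have h1 : π (x⁻¹ * x') = 1 := by rw [map_mul, map_inv, hx, inv_mul_cancel]
    have h2 := (h _).2 h1
    rw [map_mul, map_mul, map_inv, map_inv, inv_mul_eq_one] at h2
    exact h2
  have key' : ∀ x x', π x = π x' → π (φ.symm x) = π (φ.symm x') := by
    intro x x' hx
    have h1 : π (x⁻¹ * x') = 1 := by rw [map_mul, map_inv, hx, inv_mul_cancel]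
    have h2 : π (φ.symm (x⁻¹ * x')) = 1 := (h _).1 (by rw [φ.apply_symm_apply]; exact h1)
    rw [map_mul, map_mul, map_inv, map_inv, inv_mul_eq_one] at h2
    exact h2
  { toFun := fun v => π (φ (Function.surjInv hπ v))
    invFun := fun v => π (φ.symm (Function.surjInv hπ v))
    left_inv := fun v => by
      show π (φ.symm (Function.surjInv hπ (π (φ (Function.surjInv hπ v))))) = v
      have h1 := key' (Function.surjInv hπ (π (φ (Function.surjInv hπ v)))) (φ (Function.surjInv hπ v))
        (Function.surjInv_eq hπ _)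
      rw [h1, φ.symm_apply_apply, Function.surjInv_eq hπ]
    right_inv := fun v => by
      show π (φ (Function.surjInv hπ (π (φ.symm (Function.surjInv hπ v))))) = v
      have h1 := key (Function.surjInv hπ (π (φ.symm (Function.surjInv hπ v)))) (φ.symm (Function.surjInv hπ v))
        (Function.surjInv_eq hπ _)
      rw [h1, φ.apply_symm_apply, Function.surjInv_eq hπ]
    map_mul' := fun v w => by
      show π (φ (Function.surjInv hπ (v * w))) = π (φ (Function.surjInv hπ v)) * π (φ (Function.surjInv hπ w))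
      rw [← map_mul, ← map_mul]
      have h4 : π (Function.surjInv hπ (v * w)) = π (Function.surjInv hπ v * Function.surjInv hπ w) := by
        rw [Function.surjInv_eq hπ, map_mul, Function.surjInv_eq hπ, Function.surjInv_eq hπ]
      exact key _ _ h4 }

theorem descAut_mk (π : E →* V) (hπ : Function.Surjective π) (φ : E ≃* E)
    (h : ∀ x, π (φ x) = 1 ↔ π x = 1) (x : E) : descAut π hπ φ h (π x) = π (φ x) := by
  show π (φ (Function.surjInv hπ (π x))) = π (φ x)
  have h1 : π ((Function.surjInv hπ (π x))⁻¹ * x) = 1 := by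
    rw [map_mul, map_inv, Function.surjInv_eq hπ, inv_mul_cancel]
  have h2 := (h _).2 h1
  rw [map_mul, map_mul, map_inv, map_inv, inv_mul_eq_one] at h2
  exact h2

theorem descAut_symm_mk (π : E →* V) (hπ : Function.Surjective π) (φ : E ≃* E)
    (h : ∀ x, π (φ x) = 1 ↔ π x = 1) (x : E) : (descAut π hπ φ h).symm (π x) = π (φ.symm x) := by
  rw [MulEquiv.symm_apply_eq, descAut_mk, φ.apply_symm_apply]

end desc

section exc

variable {E Y V K : Type*} [Group E] [Finite E] [Group Y] [Finite Y] [MulDistribMulAction Y E]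
  [CommGroup V] [Finite V] [Field K]

/-- **The exceptional step.** -/
theorem exc_step (π : E →* V) (hπ : Function.Surjective π) (f : E → E → Kˣ)
    (hfl : ∀ x x' y, f (x * x') y = f x y * f x' y) (hfr : ∀ x y y', f x (y * y') = f x y * f x y')
    (hfs : ∀ x y, f y x = (f x y)⁻¹) (hker : ∀ x, π x = 1 ↔ ∀ y, f x y = 1)
    (h2 : ∀ x, π x ^ 2 = 1) (h2K : (2 : K) ≠ 0)
    (hfY : ∀ (y : Y) (x x' : E), f (y • x) (y • x') = f x x')
    (φ : E ≃* E) (hφf : ∀ x x', f (φ x) (φ x') = f x x')
    {ℓ r k : ℕ} (hℓ : ℓ.Prime) (hr : r.Prime) (hr2 : r ≠ 2) (hℓr : ℓ ≠ r) (hℓk : ℓ = 2 ^ k + 1)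
    (hk : 1 ≤ k) (hφℓ : ∀ x, (⇑φ)^[ℓ] x = x) (hY : IsPGroup r Y)
    (R : Subgroup E) [R.Normal] (hRc : ∀ x y : E, ⁅x, y⁆ ∈ R) (hR : ∀ x, x ∈ R ↔ π x = 1)
    (hJ : R.relIndex (normSub φ ℓ R hRc) = 2 ^ (2 * k))
    (g : Y → Y) (hg : ∀ (y : Y) (x : E), φ (y • x) = (g y) • φ x) (y : Y) (x : E) :
    π ((g y) • x) = π (y • x) := by
  classical
  have hV2 : ∀ v : V, v ^ 2 = 1 := fun v => by
    obtain ⟨x, rfl⟩ := hπ v
    exact h2 x
  -- the form on `V`
  have hf1 : ∀ x y, π x = 1 → f x y = 1 := fun x y hx => (hker x).1 hx y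
  have hf1' : ∀ x y, π y = 1 → f x y = 1 := fun x y hy => by
    rw [hfs y x, hf1 y x hy, inv_one]
  have hfeq : ∀ x x' y y', π x = π x' → π y = π y' → f x y = f x' y' := by
    intro x x' y y' hx hy
    have h5 : π (x⁻¹ * x') = 1 := by rw [map_mul, map_inv, hx, inv_mul_cancel]
    have h6 : π (y⁻¹ * y') = 1 := by rw [map_mul, map_inv, hy, inv_mul_cancel]
    have e1 : f x' y' = f x y' := by
      have := hfl x (x⁻¹ * x') y'
      rw [mul_inv_cancel_left, hf1 _ _ h5, mul_one] at this
      exact this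
    have e2 : f x y' = f x y := by
      have := hfr x y (y⁻¹ * y')
      rw [mul_inv_cancel_left, hf1' _ _ h6, mul_one] at this
      exact this
    rw [e1, e2]
  let fV : V → V → Kˣ := fun v w => f (Function.surjInv hπ v) (Function.surjInv hπ w)
  have hfV : ∀ x y, fV (π x) (π y) = f x y := fun x y =>
    hfeq _ _ _ _ (Function.surjInv_eq hπ _) (Function.surjInv_eq hπ _)
  have hm : (-1 : Kˣ) ≠ 1 := by
    intro h
    have h3 : (-1 : K) = 1 := by
      have := congrArg (fun u : Kˣ => (u : K)) h
      simpa using this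
    apply h2K
    have h4 : (2 : K) = 1 - (-1) := by ring
    rw [h4, h3, sub_self]
  have hf2 : ∀ x y, f x y = 1 ∨ f x y = -1 := by
    intro x y
    have h3 : f (x ^ 2) y = 1 := hf1 _ _ (by rw [map_pow]; exact h2 x)
    rw [pow_two, hfl] at h3
    have h4 : ((f x y : Kˣ) : K) * ((f x y : Kˣ) : K) = 1 := by
      have := congrArg (fun u : Kˣ => (u : K)) h3
      simpa using this
    rcases mul_self_eq_one_iff.1 h4 with h5 | h5
    · exact Or.inl (Units.ext h5)
    · exact Or.inr (Units.ext h5)
  let B : SF V :=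
    { b := fun v w => if fV v w = 1 then 0 else 1
      hl := by
        intro v v' w
        obtain ⟨x, rfl⟩ := hπ v
        obtain ⟨x', rfl⟩ := hπ v'
        obtain ⟨y, rfl⟩ := hπ w
        rw [← map_mul]
        simp only [hfV, hfl]
        rcases hf2 x y with h3 | h3 <;> rcases hf2 x' y with h4 | h4 <;> rw [h3, h4]
        · simp
        · simp [hm]
        · simp [hm]
        · simp [hm]
          rfl
      hs := by
        intro v w
        obtain ⟨x, rfl⟩ := hπ v
        obtain ⟨y, rfl⟩ := hπ w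
        simp only [hfV, hfs x y, inv_eq_one]
      hnd := by
        intro v hv
        obtain ⟨x, rfl⟩ := hπ v
        refine (hker x).2 (fun y => ?_)
        have h3 := hv (π y)
        simp only [hfV] at h3
        by_contra h4
        rw [if_neg h4] at h3
        exact one_ne_zero h3 }
  have hBb : ∀ x y, B.b (π x) (π y) = if f x y = 1 then 0 else 1 := fun x y => by
    show (if fV (π x) (π y) = 1 then (0 : ZMod 2) else 1) = _
    rw [hfV]
  -- invariance of the kernel
  have hkerY : ∀ (y : Y) (x : E), π (y • x) = 1 ↔ π x = 1 := by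
    intro y x
    rw [hker, hker]
    constructor
    · intro h x'
      have := h (y • x')
      rwa [hfY] at this
    · intro h x'
      have := h (y⁻¹ • x')
      rw [← hfY y, smul_inv_smul] at this
      exact this
  have hkerφ : ∀ x : E, π (φ x) = 1 ↔ π x = 1 := by
    intro x
    rw [hker, hker]
    constructor
    · intro h x'
      have := h (φ x')
      rwa [hφf] at this
    · intro h x'
      have := h (φ.symm x')
      rw [← hφf, φ.apply_symm_apply] at this
      exact this
  let cV : MulAut V := descAut π hπ φ hkerφ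
  have hcV : ∀ x, cV (π x) = π (φ x) := descAut_mk π hπ φ hkerφ
  have hcVsymm : ∀ x, cV⁻¹ (π x) = π (φ.symm x) := descAut_symm_mk π hπ φ hkerφ
  have hcVpow : ∀ (n : ℕ) (x : E), (cV ^ n) (π x) = π ((⇑φ)^[n] x) := by
    intro n x
    induction n with
    | zero => rfl
    | succ n ih =>
      rw [pow_succ', MulAut.mul_apply, ih, hcV, Function.iterate_succ_apply']
  have hcVℓ : cV ^ ℓ = 1 := by
    ext v
    obtain ⟨x, rfl⟩ := hπ v
    rw [hcVpow, hφℓ]
    rfl
  -- the norm kernel
  have hJcard : Nat.card (normKer cV ℓ) = 2 ^ (2 * k) := by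
    rw [← hJ]
    set J := normSub φ ℓ R hRc with hJdef
    have hπR : ∀ r ∈ R, π r = 1 := fun r hr => (hR r).1 hr
    have hJV : ∀ x ∈ J, π x ∈ normKer cV ℓ := by
      intro x hx
      rw [mem_normKer]
      simp only [hcVpow]
      exact norm_hom φ ℓ R hRc hx π hπR
    let f₀ : J →* normKer cV ℓ :=
      { toFun := fun x => ⟨π x.1, hJV x.1 x.2⟩
        map_one' := Subtype.ext (map_one π)
        map_mul' := fun x y => Subtype.ext (map_mul π x.1 y.1) }
    have hsurj : Function.Surjective f₀ := by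
      rintro ⟨v, hv⟩
      obtain ⟨x, rfl⟩ := hπ v
      rw [mem_normKer] at hv
      simp only [hcVpow] at hv
      have hxJ : x ∈ J := by
        rw [hJdef, mem_normSub]
        letI := qComm R hRc
        let ψ : (E ⧸ R) →* V := QuotientGroup.lift R π hπR
        have hψ : Function.Injective ψ := by
          rw [injective_iff_map_eq_one]
          intro q hq
          obtain ⟨z, rfl⟩ := QuotientGroup.mk_surjective q
          have h3 : π z = 1 := hq
          exact (QuotientGroup.eq_one_iff z).2 ((hR z).2 h3)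
        apply hψ
        rw [map_prod, map_one]
        exact hv
      exact ⟨⟨x, hxJ⟩, Subtype.ext rfl⟩
    have hkerf : f₀.ker = R.subgroupOf J := by
      ext x
      rw [MonoidHom.mem_ker, Subgroup.mem_subgroupOf, hR]
      constructor
      · intro h
        exact congrArg Subtype.val h
      · intro h
        exact Subtype.ext h
    have h3 := Subgroup.index_ker f₀
    rw [hkerf, MonoidHom.range_eq_top.2 hsurj, Subgroup.card_top] at h3
    exact h3.symm
  -- the action of `Y`
  let θ₁ : Y → MulAut V := fun y =>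
    descAut π hπ (MulDistribMulAction.toMulAut Y E y) (fun x => hkerY y x)
  have hθ₁ : ∀ y x, θ₁ y (π x) = π (y • x) := fun y x =>
    descAut_mk π hπ (MulDistribMulAction.toMulAut Y E y) (fun x => hkerY y x) x
  let θ : Y →* MulAut V :=
    { toFun := θ₁
      map_one' := by
        ext v
        obtain ⟨x, rfl⟩ := hπ v
        rw [hθ₁, one_smul]
        rfl
      map_mul' := fun y y' => by
        ext v
        obtain ⟨x, rfl⟩ := hπ v
        rw [MulAut.mul_apply, hθ₁, hθ₁, hθ₁, mul_smul] }
  have hθ : ∀ y x, θ y (π x) = π (y • x) := hθ₁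
  have hcθ : ∀ y, cV * θ y * cV⁻¹ = θ (g y) := by
    intro y
    ext v
    obtain ⟨x, rfl⟩ := hπ v
    rw [MulAut.mul_apply, MulAut.mul_apply, hcVsymm, hθ, hcV, hθ, hg, φ.apply_symm_apply]
  let D : Subgroup (MulAut V) := θ.range
  have hDr : IsPGroup r D := by
    rintro ⟨_, y, rfl⟩
    obtain ⟨n, hn⟩ := hY y
    refine ⟨n, Subtype.ext ?_⟩
    show (θ y) ^ r ^ n = 1
    rw [← map_pow, hn, map_one]
  have hDc : ∀ d ∈ D, cV * d * cV⁻¹ ∈ D := by
    rintro _ ⟨y, rfl⟩
    exact ⟨g y, (hcθ y).symm⟩
  have hDb : ∀ d ∈ D, ∀ v w, B.b (d v) (d w) = B.b v w := by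
    rintro _ ⟨y, rfl⟩ v w
    obtain ⟨x, rfl⟩ := hπ v
    obtain ⟨x', rfl⟩ := hπ w
    rw [hθ, hθ, hBb, hBb, hfY]
  have hmain := HHRed hV2 B cV hℓ hr hr2 hℓr hℓk hk hcVℓ hJcard D hDr hDc hDb (θ y) ⟨y, rfl⟩
  rw [hcθ] at hmain
  have h3 := hθ (g y) x
  rw [hmain, hθ] at h3
  exact h3.symm

end exc

end Cfsg.Agent.Lib.PQExc
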