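import Mathlib
import Cfsg.Agent.Lib.PQExc

/-!
# The setting of the minimal configuration, and first consequences.
-/

set_option autoImplicit false

namespace Cfsg.Agent.Lib.PQCx

open Module Cfsg.Agent.Lib.PQA Cfsg.Agent.Lib.PQFix Cfsg.Agent.Lib.PQRep Cfsg.Agent.Lib.PQTools
  Cfsg.Agent.Lib.PQDual Cfsg.Agent.Lib.PQForm1 Cfsg.Agent.Lib.PQForm2 Cfsg.Agent.Lib.PQExc
open scoped commutatorElement

/-- The setting for the core arguments. -/
structure Cx {A E K U : Type*} [Group A] [Finite A] [Group E] [Finite E]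
    [MulDistribMulAction A E] [Field K] [AddCommGroup U] [Module K U]
    (Y : Type*) [Group Y] [MulDistribMulAction A Y] [MulDistribMulAction Y E]
    (P Q : ℕ) (a : A) (t r : ℕ) (Z : Subgroup E) (ρ : E →* End K U) (σ : A →* End K U) : Prop where
  hA : PQStr A P Q a
  hact : ∀ (g : A) (y : Y) (x : E), g • (y • x) = (g • y) • (g • x)
  ht : t.Prime
  hr : r.Prime
  htr : t ≠ r
  htK : (t : K) ≠ 0
  hPK : (P : K) ≠ 0
  hQK : (Q : K) ≠ 0
  hE : IsPGroup t E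
  hY : IsPGroup r Y
  hEcop : (Nat.card E).Coprime (P * Q)
  hYcop : (Nat.card Y).Coprime (P * Q)
  hrP : r ≠ P
  hrQ : r ≠ Q
  htP : t ≠ P
  htQ : t ≠ Q
  hZmem : ∀ x, x ∈ Z ↔ ∀ y : Y, y • x = x
  hZcen : Z ≤ Subgroup.center E
  hcomm : ∀ x y : E, ⁅x, y⁆ ∈ Z
  hpow : ∀ x : E, x ^ t ∈ Z
  hgen : Subgroup.closure {w : E | ∃ (x : E) (y : Y), w = x⁻¹ * (y • x)} = ⊤
  hfixE : ∀ x : E, (∀ g : A, g • x = x) → x = 1
  hfixY : ∀ y : Y, (∀ g : A, g • y = y) → y = 1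
  hρ : Function.Injective ρ
  hσ : ∀ g x, σ g * ρ x = ρ (g • x) * σ g
  hσ0 : ∀ u, (letI := Fintype.ofFinite A; ∑ g : A, σ g u) = 0

/-- A central subgroup is commutative. -/
@[reducible] def zComm {E : Type*} [Group E] {Z : Subgroup E} (h : Z ≤ Subgroup.center E) :
    CommGroup Z :=
  { (inferInstance : Group Z) with
    mul_comm := fun p q => Subtype.ext ((Subgroup.mem_center_iff.1 (h q.2)) p.1) }

/-- The kernel of an action on a quotient. -/
def Ngp {E Y : Type*} [Group E] [Group Y] [MulDistribMulAction Y E] (R : Subgroup E)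
    (hRY : ∀ (y : Y), ∀ x ∈ R, y • x ∈ R) : Subgroup Y where
  carrier := {y | ∀ x : E, x⁻¹ * (y • x) ∈ R}
  mul_mem' := fun {y y'} hy hy' x => by
    have h1 : x⁻¹ * ((y * y') • x) = (x⁻¹ * (y • x)) * (y • (x⁻¹ * (y' • x))) := by
      rw [mul_smul, smul_mul', smul_inv']
      group
    rw [h1]
    exact R.mul_mem (hy x) (hRY y _ (hy' x))
  one_mem' := fun x => by
    rw [one_smul, inv_mul_cancel]
    exact R.one_mem
  inv_mem' := fun {y} hy x => by
    have h1 : x⁻¹ * (y⁻¹ • x) = ((y⁻¹ • x)⁻¹ * (y • (y⁻¹ • x)))⁻¹ := by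
      rw [smul_inv_smul]
      group
    rw [h1]
    exact R.inv_mem (hy _)

theorem Ngp_normal {E Y : Type*} [Group E] [Group Y] [MulDistribMulAction Y E] (R : Subgroup E)
    (hRY : ∀ (y : Y), ∀ x ∈ R, y • x ∈ R) : (Ngp R hRY).Normal := by
  refine ⟨fun y hy z x => ?_⟩
  have h1 : x⁻¹ * ((z * y * z⁻¹) • x) = z • ((z⁻¹ • x)⁻¹ * (y • (z⁻¹ • x))) := by
    rw [smul_mul', smul_inv', smul_inv_smul, mul_smul, mul_smul, smul_smul z y, ]
  rw [h1]
  exact hRY z _ (hy _)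

/-- **Case `Q`, the averaging step.** -/
theorem caseQ_avg {A E Y T : Type*} [Group A] [Finite A] [Group E] [Group Y] [Finite Y] [CommGroup T]
    [MulDistribMulAction A E] [MulDistribMulAction A Y] [MulDistribMulAction Y E]
    {P Q : ℕ} {a : A} (hA : PQStr A P Q a)
    (hfixY : ∀ y : Y, (∀ g : A, g • y = y) → y = 1) (hYcop : (Nat.card Y).Coprime (P * Q))
    (hgen : Subgroup.closure {w : E | ∃ (x : E) (y : Y), w = x⁻¹ * (y • x)} = ⊤)
    {c : A} (hc : orderOf c = Q) (N₀ : Subgroup Y) (hN₀ : N₀.Normal)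
    (hNc : ∀ y : Y, y⁻¹ * (c • y) ∈ N₀) [Fintype (Subgroup.zpowers a)]
    (ω : Subgroup.zpowers a → (E →* T)) (hprod : ∀ x, ∏ h, ω h x = 1)
    (hNω : ∀ (h : Subgroup.zpowers a) (y : Y), h.1⁻¹ • y ∈ N₀ → ∀ x, ω h (y⁻¹ • x) = ω h x) (x : E) :
    ω 1 x ^ Nat.card N₀ = 1 := by
  classical
  letI dY : MulDistribMulAction Y (E →* T) := dualAct Y E T
  let N : Subgroup.zpowers a → Subgroup Y := fun h =>
    N₀.comap (MulDistribMulAction.toMonoidHom Y h.1⁻¹)
  have hNmem : ∀ h y, y ∈ N h ↔ h.1⁻¹ • y ∈ N₀ := fun _ _ => Iff.rfl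
  have hN1 : N 1 = N₀ := by
    ext y
    rw [hNmem]
    show ((1 : A)⁻¹ • y) ∈ N₀ ↔ _
    rw [inv_one, one_smul]
  have hmain : ω 1 ^ Nat.card (N 1) = 1 := by
    refine avg_lemma (Y := Y) (fun v hv => ?_) ω ?_ N ?_ 1 ?_ ?_
    · refine dual_fix hgen v (fun y x => ?_)
      have h1 := congrArg (fun f : E →* T => f x) (hv y⁻¹)
      have h2 : v ((y⁻¹)⁻¹ • x) = v x := h1
      rwa [inv_inv] at h2
    · ext x
      rw [MonoidHom.finsetProd_apply]
      exact hprod x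
    · intro h n hn
      ext x
      exact hNω h n hn x
    · rw [hN1]
      exact hN₀
    · intro h hh y
      rw [hN1]
      have hh1 : h.1 ≠ 1 := fun h1 => hh (Subtype.ext h1)
      have h1 := factor hA hfixY hYcop hc h.2 hh1 N₀ (N h) hNc (fun y => ?_) y
      · have h2 : (y : Y) ∈ ((N₀ ⊔ N h : Subgroup Y) : Set Y) := h1
        rw [Subgroup.normal_mul] at h2
        obtain ⟨n₀, hn₀, n, hn, hy⟩ := Set.mem_mul.1 h2
        exact ⟨n₀, hn₀, n, hn, hy.symm⟩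
      · rw [hNmem]
        have h2 : h.1⁻¹ • (y⁻¹ * ((h.1 * c * h.1⁻¹) • y)) =
            (h.1⁻¹ • y)⁻¹ * (c • (h.1⁻¹ • y)) := by
          rw [smul_mul', smul_inv', ← mul_smul, ← mul_smul]
          congr 2
          group
        rw [h2]
        exact hNc _
  rw [hN1] at hmain
  have h3 := congrArg (fun f : E →* T => f x) hmain
  simpa using h3

end Cfsg.Agent.Lib.PQCx
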