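import Mathlib
import Cfsg.Agent.Lib.PQCx

/-!
# The nonabelian core: in the minimal configuration `E` is abelian.
-/

set_option autoImplicit false

namespace Cfsg.Agent.Lib.PQCx

open Module Cfsg.Agent.Lib.PQA Cfsg.Agent.Lib.PQFix Cfsg.Agent.Lib.PQRep Cfsg.Agent.Lib.PQTools
  Cfsg.Agent.Lib.PQDual Cfsg.Agent.Lib.PQForm1 Cfsg.Agent.Lib.PQForm2 Cfsg.Agent.Lib.PQExc
  Cfsg.Agent.Lib.PQFrob
open scoped commutatorElement

variable {A E Y K U : Type*} [Group A] [Finite A] [Group E] [Finite E] [Group Y] [Finite Y]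
  [MulDistribMulAction A E] [MulDistribMulAction A Y] [MulDistribMulAction Y E]
  [Field K] [AddCommGroup U] [Module K U]
  {P Q : ℕ} {a : A} {t r : ℕ} {Z : Subgroup E} {ρ : E →* End K U} {σ : A →* End K U}

theorem Cx.zA (C : Cx Y P Q a t r Z ρ σ) (g : A) (z : E) (hz : z ∈ Z) : g • z ∈ Z := by
  refine (C.hZmem _).2 (fun y => ?_)
  have h1 := C.hact g (g⁻¹ • y) z
  rw [(C.hZmem z).1 hz, smul_inv_smul] at h1
  exact h1.symm

theorem Cx.zCard (C : Cx Y P Q a t r Z ρ σ) : (Nat.card Z : K) ≠ 0 := by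
  haveI : Fact t.Prime := ⟨C.ht⟩
  have hZt : IsPGroup t Z := C.hE.to_subgroup Z
  obtain ⟨n, hn⟩ := IsPGroup.iff_card.1 hZt
  rw [hn, Nat.cast_pow]
  exact pow_ne_zero _ C.htK

theorem Cx.zCop (C : Cx Y P Q a t r Z ρ σ) : (Nat.card Z).Coprime (Nat.card A) := by
  rw [C.hA.hcard]
  exact Nat.Coprime.coprime_dvd_left (Subgroup.card_subgroup_dvd_card Z) C.hEcop

theorem Cx.hfY (C : Cx Y P Q a t r Z ρ σ) (ν : Z →* Kˣ) (y : Y) (x x' : E) :
    ff C.hcomm ν (y • x) (y • x') = ff C.hcomm ν x x' := by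
  unfold ff
  congr 1
  apply Subtype.ext
  show ⁅y • x, y • x'⁆ = ⁅x, x'⁆
  have h1 : y • ⁅x, x'⁆ = ⁅y • x, y • x'⁆ :=
    map_commutatorElement (MulDistribMulAction.toMonoidHom E y) x x'
  rw [← h1]
  exact (C.hZmem _).1 (C.hcomm x x') y

theorem Cx.radY (C : Cx Y P Q a t r Z ρ σ) (ν : Z →* Kˣ) (y : Y) (x : E)
    (hx : x ∈ rad C.hZcen C.hcomm ν) : y • x ∈ rad C.hZcen C.hcomm ν := by
  intro x'
  have h1 := C.hfY ν y x (y⁻¹ • x')
  rw [smul_inv_smul] at h1
  rw [h1]
  exact hx _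

/-- The basic application of the Hall-Higman form lemma. -/
theorem Cx.ll [IsAlgClosed K] (C : Cx Y P Q a t r Z ρ σ) (ν : Z →* Kˣ) {u₀ : U} (hu₀ : u₀ ≠ 0)
    (hu₀ν : u₀ ∈ eigZ ρ ν) (hν : ν ≠ 1) {c : A} (hc1 : c ≠ 1)
    (hfx : ∀ z : Z, ν ⟨c • z.1, C.zA c z.1 z.2⟩ = ν z) :
    (∀ x, x⁻¹ * (c • x) ∈ rad C.hZcen C.hcomm ν) ∨
      (t = 2 ∧ ∃ k, 1 ≤ k ∧ orderOf c = 2 ^ k + 1 ∧
        (rad C.hZcen C.hcomm ν).relIndex
          (normSub (MulDistribMulAction.toMulAut A E c) (orderOf c) (rad C.hZcen C.hcomm ν)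
            (comm_mem_rad C.hZcen C.hcomm ν)) = 2 ^ (2 * k)) := by
  classical
  letI zc : CommGroup Z := zComm C.hZcen
  letI za : MulDistribMulAction A Z := S3Rep.subAct Z (fun g z hz => C.zA g z hz)
  letI ftZ : Fintype Z := Fintype.ofFinite Z
  have hS : (Fintype.card Z : K) ≠ 0 := by
    rw [← Nat.card_eq_fintype_card]
    exact C.zCard
  let τ : Z →* End K U := ρ.comp Z.subtype
  have hστ : ∀ (g : A) (s : Z), σ g * τ s = τ (g • s) * σ g := fun g s => C.hσ g s.1
  have hnot : ¬ ∀ g : A, Fx g ν := fun h => hν (chars_fixed (fun s hs => Subtype.ext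
    (C.hfixE s.1 (fun g => congrArg Subtype.val (hs g)))) C.zCop ν h)
  have hsum : ∀ u ∈ eigZ ρ ν, ∑ i ∈ Finset.range (orderOf c), (σ c ^ i) u = 0 := fun u hu =>
    sum_stab τ σ C.hA hS hστ C.hσ0 hu hnot hc1 hfx
  have hcases := orderOf_cases C.hA hc1
  have hℓ : (orderOf c).Prime := by
    rcases hcases with h | h <;> rw [h]
    · exact C.hA.hP
    · exact C.hA.hQ
  have htℓ : t ≠ orderOf c := by
    rcases hcases with h | h <;> rw [h]
    · exact C.htP
    · exact C.htQ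
  have hℓK : (orderOf c : K) ≠ 0 := by
    rcases hcases with h | h <;> rw [h]
    · exact C.hPK
    · exact C.hQK
  let φ : E ≃* E := MulDistribMulAction.toMulAut A E c
  have hφi : ∀ (n : ℕ) (x : E), (⇑φ)^[n] x = (c ^ n) • x := by
    intro n x
    induction n with
    | zero => simp
    | succ n ih =>
      rw [Function.iterate_succ_apply', ih, pow_succ', mul_smul]
      rfl
  have hφℓ : ∀ x, (⇑φ)^[orderOf c] x = x := fun x => by
    rw [hφi, pow_orderOf_eq_one, one_smul]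
  have hφZ : ∀ x, φ x ∈ Z ↔ x ∈ Z := by
    intro x
    constructor
    · intro h
      have := C.zA c⁻¹ _ h
      rwa [show φ x = c • x from rfl, inv_smul_smul] at this
    · exact C.zA c x
  have hcσ : (σ c) ^ orderOf c = 1 := by rw [← map_pow, pow_orderOf_eq_one, map_one]
  exact LLForm (K := K) C.ht hℓ htℓ C.hE C.htK hℓK C.hZcen C.hcomm C.hpow φ hφℓ hφZ ρ (σ c) hcσ
    (fun x => C.hσ c x) ν (fun z => hfx z) u₀ hu₀ hu₀ν hsum

/-- **Case `P`**. If `a` fixes the form, we are done. -/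
theorem Cx.caseP (C : Cx Y P Q a t r Z ρ σ) (ν : Z →* Kˣ)
    (h1 : ∀ x, x⁻¹ * (a • x) ∈ rad C.hZcen C.hcomm ν) (x y : E) : ff C.hcomm ν x y = 1 := by
  classical
  set R := rad C.hZcen C.hcomm ν with hRdef
  have hZR : Z ≤ R := le_rad C.hZcen C.hcomm ν
  have hRY : ∀ (y : Y) (x : E), x ∈ R → y • x ∈ R := C.radY ν
  -- powers of `a`
  let T : Subgroup A :=
    { carrier := {g | ∀ x, x⁻¹ * (g • x) ∈ R}
      mul_mem' := fun {g g'} hg hg' x => by
        have h2 : x⁻¹ * ((g * g') • x) = (x⁻¹ * (g' • x)) * ((g' • x)⁻¹ * (g • (g' • x))) := by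
          rw [mul_smul]
          group
        rw [h2]
        exact R.mul_mem (hg' x) (hg _)
      one_mem' := fun x => by
        rw [one_smul, inv_mul_cancel]
        exact R.one_mem
      inv_mem' := fun {g} hg x => by
        have h2 : x⁻¹ * (g⁻¹ • x) = ((g⁻¹ • x)⁻¹ * (g • (g⁻¹ • x)))⁻¹ := by
          rw [smul_inv_smul]
          group
        rw [h2]
        exact R.inv_mem (hg _) }
  have hTa : Subgroup.zpowers a ≤ T := by
    rw [Subgroup.zpowers_le]
    exact h1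
  -- the intersection of the conjugates
  let I : Subgroup E :=
    { carrier := {x | ∀ g : A, g • x ∈ R}
      mul_mem' := fun {u v} hu hv g => by
        rw [smul_mul']
        exact R.mul_mem (hu g) (hv g)
      one_mem' := fun g => by
        rw [smul_one]
        exact R.one_mem
      inv_mem' := fun {u} hu g => by
        rw [smul_inv']
        exact R.inv_mem (hu g) }
  have hIn : I.Normal := by
    refine ⟨fun n hn z g => ?_⟩
    rw [smul_mul', smul_mul', smul_inv']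
    exact (rad_normal C.hZcen C.hcomm ν).conj_mem _ (hn g) _
  have hIA : ∀ g : A, ∀ x ∈ I, g • x ∈ I := fun g x hx g' => by
    rw [← mul_smul]
    exact hx _
  have hIY : ∀ y : Y, ∀ x ∈ I, y • x ∈ I := fun y x hx g => by
    rw [C.hact]
    exact hRY _ _ (hx g)
  have hZI : Z ≤ I := fun z hz g => hZR (C.zA g z hz)
  have hIc : ∀ x y : E, ⁅x, y⁆ ∈ I := fun x y => hZI (C.hcomm x y)
  haveI := hIn
  letI cW : CommGroup (E ⧸ I) := qComm I hIc
  letI aW : MulDistribMulAction A (E ⧸ I) := CoprimeAct.quotAct I hIA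
  letI yW : MulDistribMulAction Y (E ⧸ I) := CoprimeAct.quotAct I hIY
  have haW : ∀ (g : A) (x : E), g • (x : E ⧸ I) = ((g • x : E) : E ⧸ I) := fun _ _ => rfl
  have hyW : ∀ (g : Y) (x : E), g • (x : E ⧸ I) = ((g • x : E) : E ⧸ I) := fun _ _ => rfl
  have hcopI : (Nat.card I).Coprime (P * Q) :=
    Nat.Coprime.coprime_dvd_left (Subgroup.card_subgroup_dvd_card I) C.hEcop
  have hfrob := frob C.hA (W := E ⧸ I) (Y := Y)
    (by
      intro g y w
      obtain ⟨x, rfl⟩ := QuotientGroup.mk_surjective w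
      rw [hyW, haW, haW, hyW, C.hact])
    C.ht C.hr C.htr
    (by
      intro w
      obtain ⟨x, rfl⟩ := QuotientGroup.mk_surjective w
      rw [← QuotientGroup.mk_pow]
      exact (QuotientGroup.eq_one_iff _).2 (hZI (C.hpow x)))
    C.hY C.hYcop C.hrQ
    (by
      intro w hw
      obtain ⟨x, rfl⟩ := QuotientGroup.mk_surjective w
      refine (QuotientGroup.eq_one_iff _).2 (mem_of_trivial C.hA C.hfixE I hIA hcopI x (fun g => ?_))
      have := hw g
      rw [haW] at this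
      exact QuotientGroup.eq.1 this.symm)
    C.hfixY
    (by
      intro w
      obtain ⟨x, rfl⟩ := QuotientGroup.mk_surjective w
      rw [haW]
      refine (QuotientGroup.eq.2 (fun g => ?_)).symm
      have h2 : g • (x⁻¹ * (a • x)) = (g • x)⁻¹ * ((g * a * g⁻¹) • (g • x)) := by
        rw [smul_mul', smul_inv', ← mul_smul, ← mul_smul]
        congr 2
        group
      rw [h2]
      exact hTa (conj_mem C.hA g a (Subgroup.mem_zpowers a)) _)
  have hall : I = ⊤ := by
    rw [eq_top_iff, ← C.hgen, Subgroup.closure_le]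
    rintro _ ⟨x, y, rfl⟩
    have := hfrob y (x : E ⧸ I)
    rw [hyW] at this
    exact QuotientGroup.eq.1 this.symm
  have hx : x ∈ I := by
    rw [hall]
    exact Subgroup.mem_top x
  have h2 := hx 1
  rw [one_smul] at h2
  exact h2 y

/-- An element fixing the central character acts trivially on `Y` modulo the kernel of its action
on the quotient by the radical. -/
theorem Cx.claimN [IsAlgClosed K] (C : Cx Y P Q a t r Z ρ σ) (ν : Z →* Kˣ) {u₀ : U} (hu₀ : u₀ ≠ 0)
    (hu₀ν : u₀ ∈ eigZ ρ ν) (hν : ν ≠ 1) {c : A} (hc1 : c ≠ 1)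
    (hfx : ∀ z : Z, ν ⟨c • z.1, C.zA c z.1 z.2⟩ = ν z) (y : Y) :
    y⁻¹ * (c • y) ∈ Ngp (rad C.hZcen C.hcomm ν) (C.radY ν) := by
  classical
  set R := rad C.hZcen C.hcomm ν with hRdef
  have hRY : ∀ (y : Y) (x : E), x ∈ R → y • x ∈ R := C.radY ν
  have hsame : ∀ (y : Y) (x : E), ((c • y) • x)⁻¹ * (y • x) ∈ R := by
    rcases C.ll ν hu₀ hu₀ν hν hc1 hfx with h1 | ⟨ht2, k, hk, hka, hJ⟩
    · intro y x
      have h2 : (c • y) • x = c • (y • (c⁻¹ • x)) := by
        rw [C.hact, smul_inv_smul]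
      rw [h2]
      have h3 : (c • (y • (c⁻¹ • x)))⁻¹ * (y • x) =
          ((y • (c⁻¹ • x))⁻¹ * (c • (y • (c⁻¹ • x))))⁻¹ *
            (y • ((c⁻¹ • x)⁻¹ * (c • (c⁻¹ • x)))) := by
        rw [smul_inv_smul, smul_mul', smul_inv']
        group
      rw [h3]
      exact R.mul_mem (R.inv_mem (h1 _)) (hRY _ _ (h1 _))
    · intro y x
      have hRc : ∀ x y : E, ⁅x, y⁆ ∈ R := comm_mem_rad C.hZcen C.hcomm ν
      letI cV : CommGroup (E ⧸ R) := qComm R hRc
      let π : E →* E ⧸ R := QuotientGroup.mk' R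
      have hZR : Z ≤ R := le_rad C.hZcen C.hcomm ν
      let φ : E ≃* E := MulDistribMulAction.toMulAut A E c
      have hφi : ∀ (n : ℕ) (x : E), (⇑φ)^[n] x = (c ^ n) • x := by
        intro n x
        induction n with
        | zero => simp
        | succ n ih =>
          rw [Function.iterate_succ_apply', ih, pow_succ', mul_smul]
          rfl
      have hφℓ : ∀ x, (⇑φ)^[orderOf c] x = x := fun x => by
        rw [hφi, pow_orderOf_eq_one, one_smul]
      have hcases := orderOf_cases C.hA hc1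
      have hℓ : (orderOf c).Prime := by
        rcases hcases with h | h <;> rw [h]
        · exact C.hA.hP
        · exact C.hA.hQ
      have hℓr : orderOf c ≠ r := by
        rcases hcases with h | h <;> rw [h]
        · exact C.hrP.symm
        · exact C.hrQ.symm
      have h2K : (2 : K) ≠ 0 := by
        have := C.htK
        rw [ht2] at this
        exact_mod_cast this
      have hmain := exc_step (Y := Y) (K := K) π (QuotientGroup.mk'_surjective R) (ff C.hcomm ν)
        (ff_mul_left C.hZcen C.hcomm ν) (ff_mul_right C.hZcen C.hcomm ν)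
        (fun x y => ff_swap C.hcomm ν x y)
        (fun x => by
          show ((x : E ⧸ R) = 1) ↔ _
          rw [QuotientGroup.eq_one_iff]
          rfl)
        (fun x => by
          show ((x : E ⧸ R)) ^ 2 = 1
          rw [← QuotientGroup.mk_pow]
          have h3 := hZR (C.hpow x)
          rw [ht2] at h3
          exact (QuotientGroup.eq_one_iff _).2 h3)
        h2K (C.hfY ν) φ
        (fun x x' => by
          have h3 := hfx ⟨⁅x, x'⁆, C.hcomm x x'⟩
          unfold ff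
          rw [← h3]
          congr 1
          apply Subtype.ext
          exact (map_commutatorElement (MulDistribMulAction.toMonoidHom E c) x x').symm)
        hℓ C.hr (by rw [← ht2]; exact C.htr.symm) hℓr hka hk hφℓ C.hY R hRc (fun x => by
          show _ ↔ ((x : E ⧸ R) = 1)
          rw [QuotientGroup.eq_one_iff]) hJ (fun y => c • y) (fun y x => C.hact c y x) y x
      exact QuotientGroup.eq.1 hmain
  intro x
  have h1 := R.inv_mem (hsame y x)
  have h2 : x⁻¹ * ((y⁻¹ * (c • y)) • x) = y⁻¹ • (((c • y) • x)⁻¹ * (y • x))⁻¹ := by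
    rw [mul_smul, mul_inv_rev, inv_inv, smul_mul', smul_inv', inv_smul_smul]
  rw [h2]
  exact hRY _ _ h1

/-- **Case `Q`**. -/
theorem Cx.caseQ (C : Cx Y P Q a t r Z ρ σ) (ν : Z →* Kˣ) {c : A} (hc : orderOf c = Q)
    (hfx : ∀ z : Z, ν ⟨c • z.1, C.zA c z.1 z.2⟩ = ν z)
    (hN : ∀ y : Y, y⁻¹ * (c • y) ∈ Ngp (rad C.hZcen C.hcomm ν) (C.radY ν)) (x x₁ : E) :
    ff C.hcomm ν x x₁ = 1 := by
  classical
  haveI : Fact t.Prime := ⟨C.ht⟩
  haveI : Fact r.Prime := ⟨C.hr⟩
  letI zc : CommGroup Z := zComm C.hZcen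
  letI za : MulDistribMulAction A Z := S3Rep.subAct Z (fun g z hz => C.zA g z hz)
  letI ftH : Fintype (Subgroup.zpowers a) := Fintype.ofFinite _
  set R := rad C.hZcen C.hcomm ν with hRdef
  have hZR : Z ≤ R := le_rad C.hZcen C.hcomm ν
  let N₀ : Subgroup Y := Ngp R (C.radY ν)
  have hfmk : ∀ (u u' v : E), u⁻¹ * u' ∈ R → ff C.hcomm ν u' v = ff C.hcomm ν u v := by
    intro u u' v h
    have h1 := ff_mul_left C.hZcen C.hcomm ν u (u⁻¹ * u') v
    rw [mul_inv_cancel_left, h v, mul_one] at h1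
    exact h1
  let ω : Subgroup.zpowers a → (E →* Kˣ) := fun h =>
    { toFun := fun x => ff C.hcomm ν (h.1⁻¹ • x) (h.1⁻¹ • x₁)
      map_one' := by rw [smul_one, ff_one_left]
      map_mul' := fun u v => by rw [smul_mul', ff_mul_left C.hZcen C.hcomm ν] }
  have hω : ∀ h x, ω h x = ff C.hcomm ν (h.1⁻¹ • x) (h.1⁻¹ • x₁) := fun _ _ => rfl
  have havg := caseQ_avg C.hA C.hfixY C.hYcop C.hgen hc N₀ (Ngp_normal R (C.radY ν)) hN ω
    (fun x => by
      have h1 := prod_conj_trivial (K := K) C.hA (S' := Z) (fun s hs => Subtype.ext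
        (C.hfixE s.1 (fun g => congrArg Subtype.val (hs g)))) C.zCop hc ν hfx ⟨⁅x, x₁⁆, C.hcomm x x₁⟩
      rw [← h1]
      refine Finset.prod_congr rfl (fun h _ => ?_)
      rw [hω]
      unfold ff
      congr 1
      apply Subtype.ext
      exact (map_commutatorElement (MulDistribMulAction.toMonoidHom E h.1⁻¹) x x₁).symm)
    (fun h y hy x => by
      rw [hω, hω]
      refine hfmk _ _ _ ?_
      have h1 : h.1⁻¹ • y⁻¹ ∈ N₀ := by
        rw [smul_inv']
        exact N₀.inv_mem hy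
      have h2 := h1 (h.1⁻¹ • x)
      rw [C.hact]
      exact h2) x
  have h1 : ω 1 x = ff C.hcomm ν x x₁ := by
    rw [hω]
    show ff C.hcomm ν ((1 : A)⁻¹ • x) ((1 : A)⁻¹ • x₁) = _
    rw [inv_one, one_smul, one_smul]
  rw [h1] at havg
  have ht1 : ff C.hcomm ν x x₁ ^ t = 1 := by
    let ψ : E →* Kˣ :=
      { toFun := fun x => ff C.hcomm ν x x₁
        map_one' := ff_one_left C.hcomm ν x₁
        map_mul' := fun u v => ff_mul_left C.hZcen C.hcomm ν u v x₁ }
    have h2 : ψ (x ^ t) = 1 := hZR (C.hpow x) x₁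
    rw [map_pow] at h2
    exact h2
  obtain ⟨n, hn⟩ := IsPGroup.iff_card.1 (C.hY.to_subgroup N₀)
  rw [hn] at havg
  have hco : Nat.Coprime t (r ^ n) :=
    Nat.Coprime.pow_right _ ((Nat.coprime_primes C.ht C.hr).2 C.htr)
  exact orderOf_eq_one_iff.1 (Nat.eq_one_of_dvd_coprimes hco (orderOf_dvd_of_pow_eq_one ht1)
    (orderOf_dvd_of_pow_eq_one havg))

/-- **The nonabelian core.** -/
theorem Cx.nonab [IsAlgClosed K] (C : Cx Y P Q a t r Z ρ σ) (x y : E) : x * y = y * x := by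
  classical
  by_contra hne
  letI zc : CommGroup Z := zComm C.hZcen
  letI za : MulDistribMulAction A Z := S3Rep.subAct Z (fun g z hz => C.zA g z hz)
  letI ftZ : Fintype Z := Fintype.ofFinite Z
  letI ftA : Fintype A := Fintype.ofFinite A
  let τ : Z →* End K U := ρ.comp Z.subtype
  let z₀ : Z := ⟨⁅x, y⁆, C.hcomm x y⟩
  have hz₀ : z₀ ≠ 1 := by
    intro h
    apply hne
    have h1 : ⁅x, y⁆ = 1 := congrArg Subtype.val h
    exact commutatorElement_eq_one_iff_mul_comm.1 h1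
  have hd : τ z₀ ≠ 1 := by
    intro h
    apply hz₀
    apply Subtype.ext
    exact C.hρ (h.trans (map_one ρ).symm)
  obtain ⟨ν, hν1, u₀, hu₀, hEig⟩ := exists_char_ne τ C.zCard z₀ hd
  have hν : ν ≠ 1 := by
    rintro rfl
    exact hν1 rfl
  have hu₀ν : u₀ ∈ eigZ ρ ν := hEig
  have hS : (Fintype.card Z : K) ≠ 0 := by
    rw [← Nat.card_eq_fintype_card]
    exact C.zCard
  obtain ⟨g₀, hg₀1, hfx⟩ := exists_stab τ σ hS (fun g s => C.hσ g s.1)
    (fun u => by
      have := C.hσ0 u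
      convert this) hEig hu₀
  have hff : ff C.hcomm ν x y ≠ 1 := hν1
  rcases orderOf_cases C.hA hg₀1 with h | h
  · have hfa : Fx a ν := Fx_zpowers hfx (a_mem_of_order C.hA h)
    have ha1 : a ≠ 1 := by
      rintro rfl
      have := C.hA.ha
      rw [orderOf_one] at this
      exact C.hA.hP.one_lt.ne this
    rcases C.ll ν hu₀ hu₀ν hν ha1 hfa with h1 | ⟨ht2, k, hk, hka, _⟩
    · exact hff (C.caseP ν h1 x y)
    · rw [C.hA.ha] at hka
      have hd := C.hA.hdvd
      have h2 : P - 1 = 2 ^ k := by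
        rw [hka, Nat.add_sub_cancel]
      rw [h2] at hd
      have h3 : Q = 2 := (Nat.prime_dvd_prime_iff_eq C.hA.hQ Nat.prime_two).1
        (C.hA.hQ.dvd_of_dvd_pow hd)
      exact C.htQ (by rw [ht2, h3])
  · exact hff (C.caseQ ν h hfx (C.claimN ν hu₀ hu₀ν hν hg₀1 hfx) x y)

end Cfsg.Agent.Lib.PQCx
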