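import Mathlib
import Cfsg.Agent.Lib.PQNonab

/-!
# The abelian core: in the minimal configuration with `E` abelian, `E` is trivial.
-/

set_option autoImplicit false

namespace Cfsg.Agent.Lib.PQCx

open Module Cfsg.Agent.Lib.PQA Cfsg.Agent.Lib.PQFix Cfsg.Agent.Lib.PQRep Cfsg.Agent.Lib.PQTools
  Cfsg.Agent.Lib.PQDual Cfsg.Agent.Lib.PQForm1 Cfsg.Agent.Lib.PQForm2 Cfsg.Agent.Lib.PQExc
  Cfsg.Agent.Lib.PQFrob
open scoped commutatorElement

variable {A E Y K U : Type*} [Group A] [Finite A] [Group E] [Finite E] [Group Y] [Finite Y]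
  [MulDistribMulAction A E] [MulDistribMulAction A Y] [MulDistribMulAction Y E]
  [Field K] [AddCommGroup U] [Module K U]
  {P Q : ℕ} {a : A} {t r : ℕ} {Z : Subgroup E} {ρ : E →* End K U} {σ : A →* End K U}

/-- **The abelian core.** -/
theorem Cx.abel [IsAlgClosed K] (C : Cx Y P Q a t r Z ρ σ) (hab : ∀ x y : E, x * y = y * x)
    (hZ1 : ∀ z ∈ Z, z = 1) (τY : Y →* End K U) (hτ : ∀ y x, τY y * ρ x = ρ (y • x) * τY y) (x₀ : E) :
    x₀ = 1 := by
  classical
  by_contra hx₀
  haveI : Fact t.Prime := ⟨C.ht⟩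
  haveI : Fact r.Prime := ⟨C.hr⟩
  letI ce : CommGroup E := { (inferInstance : Group E) with mul_comm := hab }
  letI ftA : Fintype A := Fintype.ofFinite A
  letI ftE : Fintype E := Fintype.ofFinite E
  letI ftH : Fintype (Subgroup.zpowers a) := Fintype.ofFinite _
  letI dA : MulDistribMulAction A (E →* Kˣ) := dualAct A E Kˣ
  letI dY : MulDistribMulAction Y (E →* Kˣ) := dualAct Y E Kˣ
  have hdA : ∀ (g : A) (χ : E →* Kˣ) (x : E), (g • χ) x = χ (g⁻¹ • x) := fun _ _ _ => rfl
  have hdY : ∀ (g : Y) (χ : E →* Kˣ) (x : E), (g • χ) x = χ (g⁻¹ • x) := fun _ _ _ => rfl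
  have hactD : ∀ (g : A) (y : Y) (ω : E →* Kˣ), g • (y • ω) = (g • y) • (g • ω) := by
    intro g y ω
    ext x
    rw [hdA, hdY, hdY, hdA, C.hact, smul_inv', inv_smul_smul]
  have hEt : ∀ x : E, x ^ t = 1 := fun x => hZ1 _ (C.hpow x)
  have hEK : (Nat.card E : K) ≠ 0 := by
    obtain ⟨n, hn⟩ := IsPGroup.iff_card.1 C.hE
    rw [hn, Nat.cast_pow]
    exact pow_ne_zero _ C.htK
  have hEK' : (Fintype.card E : K) ≠ 0 := by rwa [← Nat.card_eq_fintype_card]
  have hEcopA : (Nat.card E).Coprime (Nat.card A) := by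
    rw [C.hA.hcard]
    exact C.hEcop
  have hfixAll : ∀ ω : E →* Kˣ, (∀ g : A, g • ω = ω) → ω = 1 := by
    intro ω hω
    refine chars_fixed C.hfixE hEcopA ω (fun g s => ?_)
    have h1 := hdA g⁻¹ ω s
    rw [hω, inv_inv] at h1
    exact h1.symm
  have hFx_smul : ∀ (g : A) (ω : E →* Kˣ), Fx g ω → g • ω = ω := by
    intro g ω h
    ext x
    rw [hdA, Fx_inv h x]
  have hd : ρ x₀ ≠ 1 := by
    intro h
    apply hx₀
    apply C.hρ
    rw [map_one]
    exact h
  obtain ⟨χ, hχx₀, u₀, hu₀, hEig⟩ := exists_char_ne ρ hEK x₀ hd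
  have hχ1 : χ ≠ 1 := by
    rintro rfl
    exact hχx₀ rfl
  -- translates are eigencharacters
  have hec : ∀ y : Y, ∃ u, u ≠ 0 ∧ Eig ρ (y • χ) u := by
    intro y
    refine ⟨τY y u₀, ?_, eig_smul ρ τY hτ hEig y⟩
    intro h
    apply hu₀
    have h1 : (τY y⁻¹ * τY y) u₀ = 0 := by
      rw [Module.End.mul_apply, h, map_zero]
    rwa [← map_mul, inv_mul_cancel, map_one, Module.End.one_apply] at h1
  have hstab : ∀ y : Y, ∃ g : A, g ≠ 1 ∧ Fx g (y • χ) := by
    intro y
    obtain ⟨u, hu, hE⟩ := hec y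
    exact exists_stab ρ σ hEK' C.hσ (fun v => by
      have := C.hσ0 v
      convert this) hE hu
  -- the setwise stabilizer of the orbit
  let H : Subgroup A := predSub (fun g => ∃ y : Y, g • χ = y • χ) ⟨1, by rw [one_smul, one_smul]⟩
    (fun g g' ⟨y, hy⟩ ⟨y', hy'⟩ => ⟨(g • y') * y, by
      rw [mul_smul, hy', hactD, hy, mul_smul]⟩)
  have hHmem : ∀ g, g ∈ H ↔ ∃ y : Y, g • χ = y • χ := fun _ => Iff.rfl
  have hHne : H ≠ ⊤ := by
    intro hH
    obtain ⟨y, hy⟩ := orbit_fixed_point C.hA (X := E →* Kˣ) hactD C.hYcop χ (fun g => by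
      have : g ∈ H := by rw [hH]; trivial
      exact this)
    have h1 := hfixAll _ hy
    apply hχ1
    have h2 : y⁻¹ • (y • χ) = χ := inv_smul_smul _ _
    rw [← h2, h1]
    ext x
    rw [hdY]
    rfl
  obtain ⟨g₀, hg₀1, hg₀⟩ := hstab 1
  rw [one_smul] at hg₀
  have hg₀H : g₀ ∈ H := ⟨1, by rw [hFx_smul _ _ hg₀, one_smul]⟩
  have hg₀all : ∀ y : Y, Fx g₀ (y • χ) := by
    intro y
    obtain ⟨g, hg1, hg⟩ := hstab y
    have hgH : g ∈ H := by
      refine ⟨(g • y)⁻¹ * y, ?_⟩
      have h1 := hFx_smul _ _ hg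
      rw [hactD] at h1
      rw [mul_smul, ← h1, inv_smul_smul]
    exact Fx_zpowers hg (proper_cyclic C.hA hHne hgH hg1 hg₀H)
  have hχt : ∀ (ω : E →* Kˣ), ω ^ t = 1 := by
    intro ω
    ext x
    show ((ω x ^ t : Kˣ) : K) = 1
    rw [← map_pow, hEt, map_one, Units.val_one]
  rcases orderOf_cases C.hA hg₀1 with hord | hord
  · -- the normal subgroup fixes the orbit
    have haall : ∀ y : Y, a • (y • χ) = y • χ := fun y =>
      hFx_smul _ _ (Fx_zpowers (hg₀all y) (a_mem_of_order C.hA hord))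
    let W : Subgroup (E →* Kˣ) :=
      { carrier := {ω | ∀ y : Y, a • (y • ω) = y • ω}
        mul_mem' := fun {u v} hu hv y => by
          rw [smul_mul', smul_mul', hu y, hv y]
        one_mem' := fun y => by
          rw [smul_one, smul_one]
        inv_mem' := fun {u} hu y => by
          rw [smul_inv', smul_inv', hu y] }
    have hWY : ∀ y₁ : Y, ∀ ω ∈ W, y₁ • ω ∈ W := fun y₁ ω hω y => by
      rw [← mul_smul]
      exact hω _
    have hWA : ∀ g : A, ∀ ω ∈ W, g • ω ∈ W := by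
      intro g ω hω y
      have h1 : y • (g • ω) = g • ((g⁻¹ • y) • ω) := by
        rw [hactD, smul_inv_smul]
      rw [h1, ← mul_smul]
      have h2 : a * g = g * (g⁻¹ * a * g) := by group
      rw [h2, mul_smul]
      congr 1
      have h3 : g⁻¹ * a * g ∈ Subgroup.zpowers a := by
        have := conj_mem C.hA g⁻¹ a (Subgroup.mem_zpowers a)
        simpa using this
      exact smul_comm_of_zpow (hω _) h3
    letI aW : MulDistribMulAction A W := S3Rep.subAct W hWA
    letI yW : MulDistribMulAction Y W := S3Rep.subAct W hWY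
    haveI hfinH : Finite (E →* Kˣ) := by
      have := S3Rep.finite_chars (S := E) (K := K) hEK'
      exact this
    have hfrob := frob C.hA (W := W) (Y := Y)
      (fun g y w => Subtype.ext (hactD g y w.1)) C.ht C.hr C.htr
      (fun w => Subtype.ext (hχt w.1)) C.hY C.hYcop C.hrQ
      (fun w hw => Subtype.ext (hfixAll w.1 (fun g => congrArg Subtype.val (hw g)))) C.hfixY
      (fun w => Subtype.ext (by
        have := w.2 1
        rwa [one_smul] at this))
    have hχW : χ ∈ W := haall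
    apply hχ1
    refine dual_fix (Y := Y) C.hgen χ (fun y x => ?_)
    have h1 := congrArg (fun w : W => w.1) (hfrob y⁻¹ ⟨χ, hχW⟩)
    have h2 : (y⁻¹ • χ) x = χ x := congrArg (fun ω : E →* Kˣ => ω x) h1
    rw [hdY, inv_inv] at h2
    exact h2
  · -- the complement fixes the orbit
    set c := g₀ with hc
    let N₀ : Subgroup Y :=
      { carrier := {y | ∀ y' : Y, y • (y' • χ) = y' • χ}
        mul_mem' := fun {u v} hu hv y' => by
          rw [mul_smul, hv, hu]
        one_mem' := fun y' => one_smul _ _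
        inv_mem' := fun {u} hu y' => by
          rw [inv_smul_eq_iff, hu] }
    have hN₀n : N₀.Normal := by
      refine ⟨fun n hn z y' => ?_⟩
      have h1 := hn (z⁻¹ * y')
      rw [mul_smul, mul_smul]
      rw [mul_smul] at h1
      rw [h1, smul_inv_smul]
    have hNc : ∀ y : Y, y⁻¹ * (c • y) ∈ N₀ := by
      intro y y'
      have hfy' := hFx_smul _ _ (hg₀all y')
      have hfyy' := hFx_smul _ _ (hg₀all (y * y'))
      rw [mul_smul]
      have h1 : (c • y) • (y' • χ) = y • (y' • χ) := by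
        conv_lhs => rw [← hfy', ← hactD]
        rw [← mul_smul, hfyy']
      rw [h1, inv_smul_smul]
    let ω : Subgroup.zpowers a → (E →* Kˣ) := fun h => h.1 • χ
    have hω : ∀ h x, ω h x = χ (h.1⁻¹ • x) := fun _ _ => rfl
    have hcχ : Fx c χ := by
      have := hg₀all 1
      rwa [one_smul] at this
    have havg := caseQ_avg C.hA C.hfixY C.hYcop C.hgen hord N₀ hN₀n hNc ω
      (fun x => prod_conj_trivial (K := K) C.hA C.hfixE hEcopA hord χ hcχ x)
      (fun h y hy x => by
        have h1 : y • (h.1 • χ) = h.1 • ((h.1⁻¹ • y) • χ) := by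
          rw [hactD, smul_inv_smul]
        have h2 : (h.1⁻¹ • y) • χ = χ := by
          have := hy 1
          rwa [one_smul] at this
        rw [h2] at h1
        have h3 := congrArg (fun f : E →* Kˣ => f x) h1
        exact h3) x₀
    have h1 : ω 1 x₀ = χ x₀ := by
      show (((1 : A) • χ : E →* Kˣ)) x₀ = _
      rw [one_smul]
    rw [h1] at havg
    have ht1 : χ x₀ ^ t = 1 := by
      rw [← map_pow, hEt, map_one]
    obtain ⟨n, hn⟩ := IsPGroup.iff_card.1 (C.hY.to_subgroup N₀)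
    rw [hn] at havg
    have hco : Nat.Coprime t (r ^ n) :=
      Nat.Coprime.pow_right _ ((Nat.coprime_primes C.ht C.hr).2 C.htr)
    exact hχx₀ (orderOf_eq_one_iff.1 (Nat.eq_one_of_dvd_coprimes hco (orderOf_dvd_of_pow_eq_one ht1)
      (orderOf_dvd_of_pow_eq_one havg)))

end Cfsg.Agent.Lib.PQCx
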