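import Mathlib
import Cfsg.Agent.Lib.PQAbel
import Cfsg.Agent.Lib.PQMin

/-!
# Lemma LC: a normal invariant `t`-subgroup (with `t` invertible on the module) centralizes all
invariant `r`-subgroups.
-/

set_option autoImplicit false

namespace Cfsg.Agent.Lib.PQLC

open Module Cfsg.Agent.Lib.PQA Cfsg.Agent.Lib.PQCx Cfsg.Agent.Lib.PQMin
open scoped commutatorElement

/-- **Lemma LC.** -/
theorem LC {X A K U : Type*} [Group X] [Finite X] [Group A] [Finite A] [MulDistribMulAction A X]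
    {P Q : ℕ} {a : A} (hA : PQStr A P Q a) (hcop : (Nat.card X).Coprime (P * Q))
    (hfix : ∀ x : X, (∀ g : A, g • x = x) → x = 1) [Field K] [IsAlgClosed K] [AddCommGroup U]
    [Module K U] (hPQK : ((P * Q : ℕ) : K) ≠ 0) (ρ : X →* End K U) (hρ : Function.Injective ρ)
    (σ : A →* End K U) (hσ : ∀ g x, σ g * ρ x = ρ (g • x) * σ g) [Fintype A]
    (hsum : ∑ g : A, σ g = 0) {t r : ℕ} (ht : t.Prime) (hr : r.Prime) (htr : t ≠ r)
    (htK : (t : K) ≠ 0) (S : Subgroup X) (hSn : S.Normal) (hSt : IsPGroup t S)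
    (hSA : ∀ g : A, ∀ s ∈ S, g • s ∈ S) (Y : Subgroup X) (hYr : IsPGroup r Y)
    (hYA : ∀ g : A, ∀ y ∈ Y, g • y ∈ Y) : ∀ s ∈ S, ∀ y ∈ Y, s * y = y * s := by
  classical
  by_contra hne
  push Not at hne
  obtain ⟨s₀, hs₀, y₀, hy₀, hs₀y₀⟩ := hne
  haveI : Fact t.Prime := ⟨ht⟩
  haveI : Fact r.Prime := ⟨hr⟩
  have hσ0 : ∀ u, (letI := Fintype.ofFinite A; ∑ g : A, σ g u) = 0 := by
    intro u
    have h1 : ∑ g : A, σ g u = 0 := by
      rw [← LinearMap.sum_apply, hsum]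
      rfl
    convert h1
  let conjX : X →* MulAut X := MulAut.conj
  have hconjX : ∀ y x, conjX y x = y * x * y⁻¹ := fun _ _ => rfl
  let actX : A →* MulAut X := MulDistribMulAction.toMulAut A X
  have hactX : ∀ g x, actX g x = g • x := fun _ _ => rfl
  let W : Subgroup (MulAut X) := Y.map conjX
  have hWcop : (Nat.card W).Coprime t := by
    have hWr : IsPGroup r W := by
      rintro ⟨_, y, hy, rfl⟩
      obtain ⟨n, hn⟩ := hYr ⟨y, hy⟩
      refine ⟨n, Subtype.ext ?_⟩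
      show conjX y ^ r ^ n = 1
      have h1 : y ^ r ^ n = 1 := congrArg Subtype.val hn
      rw [← map_pow, h1, map_one]
    obtain ⟨n, hn⟩ := IsPGroup.iff_card.1 hWr
    rw [hn]
    exact Nat.Coprime.pow_left _ ((Nat.coprime_primes hr ht).2 htr.symm)
  let Γ : Set (MulAut X) := {f | f ∈ W ∨ ∃ g : A, f = actX g}
  have hWΓ : ∀ w ∈ W, w ∈ Γ := fun w hw => Or.inl hw
  have hΓinv : ∀ f ∈ Γ, f⁻¹ ∈ Γ := by
    rintro f (hf | ⟨g, rfl⟩)
    · exact Or.inl (W.inv_mem hf)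
    · exact Or.inr ⟨g⁻¹, (map_inv actX g).symm⟩
  have hΓW : ∀ f ∈ Γ, ∀ w ∈ W, f * w * f⁻¹ ∈ W := by
    rintro f (hf | ⟨g, rfl⟩) w hw
    · exact W.mul_mem (W.mul_mem hf hw) (W.inv_mem hf)
    · obtain ⟨y, hy, rfl⟩ := hw
      refine ⟨g • y, hYA g y hy, ?_⟩
      ext x
      show g • y * x * (g • y)⁻¹ = g • (y * (g⁻¹ • x) * y⁻¹)
      rw [smul_mul', smul_mul', smul_inv_smul, smul_inv']
  have hSΓ : ∀ f ∈ Γ, ∀ x ∈ S, f x ∈ S := by
    rintro f (hf | ⟨g, rfl⟩) x hx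
    · obtain ⟨y, _, rfl⟩ := hf
      exact hSn.conj_mem x hx y
    · exact hSA g x hx
  have hne' : ∃ w ∈ W, ∃ x ∈ S, w x ≠ x := by
    refine ⟨conjX y₀, ⟨y₀, hy₀, rfl⟩, s₀, hs₀, ?_⟩
    intro h
    apply hs₀y₀
    have h1 : y₀ * s₀ * y₀⁻¹ = s₀ := h
    exact (mul_inv_eq_iff_eq_mul.1 h1).symm
  obtain ⟨E, hES, hEΓ, ⟨w₀, hw₀, x₀, hx₀, hmove⟩, hcen, hcomm, hpow, -, hgen, habelfix⟩ :=
    minStruct ht S hSt W hWcop Γ hWΓ hΓinv hΓW hSΓ hne'
  have hEA : ∀ g : A, ∀ x ∈ E, g • x ∈ E := fun g x hx => hEΓ (actX g) (Or.inr ⟨g, rfl⟩) x hx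
  have hEY : ∀ y ∈ Y, ∀ x ∈ E, y * x * y⁻¹ ∈ E := fun y hy x hx =>
    hEΓ (conjX y) (Or.inl ⟨y, hy, rfl⟩) x hx
  letI aE : MulDistribMulAction A E := S3Rep.subAct E hEA
  letI aY : MulDistribMulAction A Y := S3Rep.subAct Y hYA
  letI yE : MulDistribMulAction Y E :=
    { smul := fun y x => ⟨y.1 * x.1 * y.1⁻¹, hEY y.1 y.2 x.1 x.2⟩
      one_smul := fun x => Subtype.ext (by
        show (1 : X) * x.1 * 1⁻¹ = x.1
        simp)
      mul_smul := fun a b x => Subtype.ext (by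
        show (a.1 * b.1) * x.1 * (a.1 * b.1)⁻¹ = a.1 * (b.1 * x.1 * b.1⁻¹) * a.1⁻¹
        group)
      smul_mul := fun y u v => Subtype.ext (by
        show y.1 * (u.1 * v.1) * y.1⁻¹ = (y.1 * u.1 * y.1⁻¹) * (y.1 * v.1 * y.1⁻¹)
        group)
      smul_one := fun y => Subtype.ext (by
        show y.1 * 1 * y.1⁻¹ = 1
        simp) }
  have hyE : ∀ (y : Y) (x : E), ((y • x : E) : X) = y.1 * x.1 * y.1⁻¹ := fun _ _ => rfl
  have haE : ∀ (g : A) (x : E), ((g • x : E) : X) = g • x.1 := fun _ _ => rfl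
  have haY : ∀ (g : A) (x : Y), ((g • x : Y) : X) = g • x.1 := fun _ _ => rfl
  let Z : Subgroup E :=
    { carrier := {x | ∀ y : Y, y • x = x}
      mul_mem' := fun {u v} hu hv y => by
        rw [smul_mul', hu y, hv y]
      one_mem' := fun y => smul_one y
      inv_mem' := fun {u} hu y => by
        rw [smul_inv', hu y] }
  have hZW : ∀ z : E, z ∈ Z → ∀ w ∈ W, w z.1 = z.1 := by
    rintro z hz _ ⟨y, hy, rfl⟩
    exact congrArg Subtype.val (hz ⟨y, hy⟩)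
  have hWZ : ∀ z : E, (∀ w ∈ W, w z.1 = z.1) → z ∈ Z := by
    intro z hz y
    exact Subtype.ext (hz _ ⟨y.1, y.2, rfl⟩)
  have hZcen : Z ≤ Subgroup.center E := by
    intro z hz
    rw [Subgroup.mem_center_iff]
    intro x
    exact Subtype.ext (hcen z.1 z.2 (hZW z hz) x.1 x.2).symm
  have hPK : (P : K) ≠ 0 := by
    rw [Nat.cast_mul] at hPQK
    exact left_ne_zero_of_mul hPQK
  have hQK : (Q : K) ≠ 0 := by
    rw [Nat.cast_mul] at hPQK
    exact right_ne_zero_of_mul hPQK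
  have hEcop : (Nat.card E).Coprime (P * Q) :=
    Nat.Coprime.coprime_dvd_left (Subgroup.card_subgroup_dvd_card E) hcop
  have hYcop : (Nat.card Y).Coprime (P * Q) :=
    Nat.Coprime.coprime_dvd_left (Subgroup.card_subgroup_dvd_card Y) hcop
  have hE : IsPGroup t E := hSt.to_le hES
  have hrd : r ∣ Nat.card Y := by
    obtain ⟨n, hn⟩ := IsPGroup.iff_card.1 hYr
    rw [hn]
    have hn0 : n ≠ 0 := by
      rintro rfl
      rw [pow_zero] at hn
      have h1 := Subgroup.eq_bot_of_card_eq Y hn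
      rw [h1] at hy₀
      have h2 : y₀ = 1 := hy₀
      apply hs₀y₀
      rw [h2, mul_one, one_mul]
    exact dvd_pow_self r hn0
  have htd : t ∣ Nat.card E := by
    obtain ⟨n, hn⟩ := IsPGroup.iff_card.1 hE
    rw [hn]
    have hn0 : n ≠ 0 := by
      rintro rfl
      rw [pow_zero] at hn
      have h1 := Subgroup.eq_bot_of_card_eq E hn
      rw [h1] at hx₀
      have h2 : x₀ = 1 := hx₀
      apply hmove
      rw [h2, map_one]
    exact dvd_pow_self t hn0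
  have hndvd : ∀ n ℓ : ℕ, n.Coprime (P * Q) → ℓ.Prime → ℓ ∣ n → ℓ ≠ P ∧ ℓ ≠ Q := by
    intro n ℓ hn hℓ hd
    constructor
    · rintro rfl
      have h1 := Nat.dvd_gcd hd (Dvd.intro _ rfl : ℓ ∣ ℓ * Q)
      rw [hn] at h1
      exact hℓ.one_lt.ne' (Nat.dvd_one.1 h1)
    · rintro rfl
      have h1 := Nat.dvd_gcd hd (Dvd.intro_left _ rfl : ℓ ∣ P * ℓ)
      rw [hn] at h1
      exact hℓ.one_lt.ne' (Nat.dvd_one.1 h1)
  let ρE : E →* End K U := ρ.comp E.subtype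
  have C : Cx Y P Q a t r Z ρE σ :=
    { hA := hA
      hact := fun g y x => Subtype.ext (by
        show g • (y.1 * x.1 * y.1⁻¹) = (g • y.1) * (g • x.1) * (g • y.1)⁻¹
        rw [smul_mul', smul_mul', smul_inv'])
      ht := ht
      hr := hr
      htr := htr
      htK := htK
      hPK := hPK
      hQK := hQK
      hE := hE
      hY := hYr
      hEcop := hEcop
      hYcop := hYcop
      hrP := (hndvd _ r hYcop hr hrd).1
      hrQ := (hndvd _ r hYcop hr hrd).2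
      htP := (hndvd _ t hEcop ht htd).1
      htQ := (hndvd _ t hEcop ht htd).2
      hZmem := fun x => Iff.rfl
      hZcen := hZcen
      hcomm := fun x y => hWZ _ (fun w hw => hcomm x.1 x.2 y.1 y.2 w hw)
      hpow := fun x => hWZ _ (fun w hw => hpow x.1 x.2 w hw)
      hgen := by
        rw [eq_top_iff]
        rintro x -
        set T : Subgroup E := Subgroup.closure {w : E | ∃ (x : E) (y : Y), w = x⁻¹ * (y • x)} with hT
        have h1 : Subgroup.closure {g | ∃ x ∈ E, ∃ w ∈ W, g = x⁻¹ * w x} ≤ T.map E.subtype := by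
          rw [Subgroup.closure_le]
          rintro _ ⟨v, hv, _, ⟨y, hy, rfl⟩, rfl⟩
          refine ⟨(⟨v, hv⟩ : E)⁻¹ * ((⟨y, hy⟩ : Y) • (⟨v, hv⟩ : E)), Subgroup.subset_closure ⟨_, _, rfl⟩, rfl⟩
        rw [hgen] at h1
        obtain ⟨x', hx', hxx'⟩ := h1 x.2
        have : x' = x := Subtype.ext hxx'
        rw [← this]
        exact hx'
      hfixE := fun x hx => Subtype.ext (hfix x.1 (fun g => congrArg Subtype.val (hx g)))
      hfixY := fun x hx => Subtype.ext (hfix x.1 (fun g => congrArg Subtype.val (hx g)))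
      hρ := fun u v h => Subtype.ext (hρ h)
      hσ := fun g x => hσ g x.1
      hσ0 := hσ0 }
  have hab : ∀ x y : E, x * y = y * x := C.nonab
  have hZ1 : ∀ z ∈ Z, z = 1 := fun z hz => Subtype.ext
    (habelfix (fun u hu v hv => congrArg Subtype.val (hab ⟨u, hu⟩ ⟨v, hv⟩)) z.1 z.2 (hZW z hz))
  have hx₁ := C.abel hab hZ1 (ρ.comp Y.subtype) (fun y x => by
    show ρ y.1 * ρ x.1 = ρ (y.1 * x.1 * y.1⁻¹) * ρ y.1
    rw [← map_mul, ← map_mul]
    congr 1
    group) ⟨x₀, hx₀⟩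
  have h2 : x₀ = 1 := congrArg Subtype.val hx₁
  apply hmove
  rw [h2, map_one]

end Cfsg.Agent.Lib.PQLC
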