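import Mathlib
import Cfsg.Agent.Lib.PQFix
import Cfsg.Agent.Lib.S3Top

/-!
# Reduction of the Fitting height bound for nonabelian operator groups of order `P Q` to the
commuting lemma for normal `t`-subgroups and invariant `r`-subgroups.

* `Zinf`: the hypercenter, `normal_p_le`, `ML'`: a solvable group whose invariant normal
  `t`-subgroups lie in the hypercenter is nilpotent.
* `LCHyp`: the commuting lemma as a hypothesis.
* `main`: the top level induction.
-/

set_option autoImplicit false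
set_option maxRecDepth 4000

namespace Cfsg.Agent.Lib.PQTop

open Cfsg.Agent.Lib.PQA Cfsg.Agent.Lib.PQFix Cfsg.Agent.Lib.S3Top Cfsg.Agent.Lib.S3Rep
  Cfsg.Agent.Lib.CoprimeAct
open scoped commutatorElement

universe u v

section hyper

variable {X : Type*} [Group X]

/-- The hypercenter. -/
def Zinf (X : Type*) [Group X] : Subgroup X where
  carrier := {x | ∃ n, x ∈ Subgroup.upperCentralSeries X n}
  mul_mem' := by
    rintro a b ⟨n, hn⟩ ⟨m, hm⟩
    refine ⟨max n m, Subgroup.mul_mem _ ?_ ?_⟩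
    · exact Subgroup.upperCentralSeries_mono _ (le_max_left n m) hn
    · exact Subgroup.upperCentralSeries_mono _ (le_max_right n m) hm
  one_mem' := ⟨0, Subgroup.one_mem _⟩
  inv_mem' := by
    rintro a ⟨n, hn⟩
    exact ⟨n, Subgroup.inv_mem _ hn⟩

theorem mem_Zinf {x : X} : x ∈ Zinf X ↔ ∃ n, x ∈ Subgroup.upperCentralSeries X n := Iff.rfl

theorem exists_le_upper [Finite X] : ∃ N, Zinf X ≤ Subgroup.upperCentralSeries X N := by
  classical
  let f : Zinf X → ℕ := fun x => Nat.find x.2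
  obtain ⟨x₀, hx₀⟩ := Finite.exists_max f
  refine ⟨f x₀, fun x hx => ?_⟩
  have h1 : x ∈ Subgroup.upperCentralSeries X (f ⟨x, hx⟩) := Nat.find_spec hx
  exact Subgroup.upperCentralSeries_mono _ (hx₀ ⟨x, hx⟩) h1

theorem nilpotent_of_Zinf_top [Finite X] (h : Zinf X = ⊤) : Group.IsNilpotent X := by
  obtain ⟨N, hN⟩ := exists_le_upper (X := X)
  refine ⟨⟨N, ?_⟩⟩
  rw [h] at hN
  exact eq_top_iff.2 hN

theorem mem_upper_sub (D : Subgroup X) : ∀ (k : ℕ) (x : D), (x : X) ∈ Subgroup.upperCentralSeries X k →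
    x ∈ Subgroup.upperCentralSeries D k := by
  intro k
  induction k with
  | zero =>
    intro x hx
    have h1 : (x : X) = 1 := by
      rw [Subgroup.upperCentralSeries_zero, Subgroup.mem_bot] at hx
      exact hx
    have h2 : x = 1 := Subtype.ext h1
    rw [h2]
    exact Subgroup.one_mem _
  | succ k ih =>
    intro x hx
    rw [Subgroup.mem_upperCentralSeries_succ_iff] at hx ⊢
    intro y
    apply ih
    exact hx y

theorem isNilpotent_of_comm_le [Finite X] (D : Subgroup X) (h : ⁅D, D⁆ ≤ Zinf X) :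
    Group.IsNilpotent D := by
  obtain ⟨N, hN⟩ := exists_le_upper (X := X)
  refine ⟨⟨N + 1, ?_⟩⟩
  rw [eq_top_iff]
  intro a _
  rw [Subgroup.mem_upperCentralSeries_succ_iff]
  intro b
  apply mem_upper_sub
  apply hN
  apply h
  exact Subgroup.commutator_mem_commutator a.2 b.2

theorem eq_top_of_exists_sylow_le [Finite X] (H : Subgroup X)
    (h : ∀ (r : ℕ) [Fact r.Prime], ∃ Q : Sylow r X, (Q : Subgroup X) ≤ H) : H = ⊤ := by
  by_contra hne
  have hi : H.index ≠ 1 := fun h1 => hne (Subgroup.index_eq_one.1 h1)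
  obtain ⟨r, hr, hrd⟩ := Nat.exists_prime_and_dvd hi
  haveI : Fact r.Prime := ⟨hr⟩
  obtain ⟨Q, hQ⟩ := h r
  have := Subgroup.index_dvd_of_le hQ
  exact Q.not_dvd_index (hrd.trans this)

/-- A normal subgroup acted on through a nilpotent subgroup lies in the upper central series. -/
theorem le_upper (S P C : Subgroup X) [hS : S.Normal] (hC : ∀ c ∈ C, ∀ s ∈ S, c * s = s * c)
    (hX : ∀ x, ∃ p ∈ P, ∃ c ∈ C, p * c = x) {n : ℕ} (hn : P.lowerCentralSeries n = ⊥)
    (hSP : S ≤ P) : S ≤ Subgroup.upperCentralSeries X n := by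
  have key : ∀ (d k : ℕ), k + d = n → ∀ s ∈ P.lowerCentralSeries k, s ∈ S →
      s ∈ Subgroup.upperCentralSeries X d := by
    intro d
    induction d with
    | zero =>
      intro k hk s hs _
      rw [add_zero] at hk
      rw [hk, hn, Subgroup.mem_bot] at hs
      rw [hs]
      exact Subgroup.one_mem _
    | succ d ih =>
      intro k hk s hs hsS
      rw [Subgroup.mem_upperCentralSeries_succ_iff]
      intro y
      obtain ⟨p, hp, c, hc, rfl⟩ := hX y
      have h1 : ⁅s, p * c⁆ = ⁅s, p⁆ := by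
        have h2 : c * s⁻¹ = s⁻¹ * c := by
          have h3 := hC c hc s hsS
          calc c * s⁻¹ = s⁻¹ * (s * c) * s⁻¹ := by group
            _ = s⁻¹ * (c * s) * s⁻¹ := by rw [h3]
            _ = s⁻¹ * c := by group
        rw [commutatorElement_def, commutatorElement_def]
        calc s * (p * c) * s⁻¹ * (p * c)⁻¹ = s * p * (c * s⁻¹) * c⁻¹ * p⁻¹ := by group
          _ = s * p * (s⁻¹ * c) * c⁻¹ * p⁻¹ := by rw [h2]
          _ = s * p * s⁻¹ * p⁻¹ := by group
      rw [h1]
      refine ih (k + 1) (by omega) _ ?_ ?_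
      · rw [Subgroup.lowerCentralSeries_succ]
        exact Subgroup.commutator_mem_commutator hs hp
      · rw [commutatorElement_def]
        have h4 : p * s⁻¹ * p⁻¹ ∈ S := hS.conj_mem _ (S.inv_mem hsS) p
        have h5 : s * p * s⁻¹ * p⁻¹ = s * (p * s⁻¹ * p⁻¹) := by group
        rw [h5]
        exact S.mul_mem hsS h4
  intro s hs
  exact key n 0 (by omega) s (hSP hs) hs

/-- A normal `t`-subgroup centralized by a Sylow subgroup for each other prime is hypercentral. -/
theorem normal_p_le [Finite X] {t : ℕ} [Fact t.Prime] (S : Subgroup X) [hSn : S.Normal]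
    (hSt : IsPGroup t S)
    (hsyl : ∀ (r : ℕ) [Fact r.Prime], r ≠ t →
      ∃ Y : Sylow r X, ∀ y ∈ (Y : Subgroup X), ∀ s ∈ S, s * y = y * s) : S ≤ Zinf X := by
  obtain ⟨P, hSP⟩ := hSt.exists_le_sylow
  let C : Subgroup X := Subgroup.centralizer (S : Set X)
  haveI hCn : C.Normal := by
    refine ⟨fun c hc g => ?_⟩
    rw [Subgroup.mem_centralizer_iff] at hc ⊢
    intro s hs
    have h1 : g⁻¹ * s * g ∈ (S : Set X) := by
      have := hSn.conj_mem s hs g⁻¹
      simpa using this
    have h2 := hc _ h1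
    calc s * (g * c * g⁻¹) = g * ((g⁻¹ * s * g) * c) * g⁻¹ := by group
      _ = g * (c * (g⁻¹ * s * g)) * g⁻¹ := by rw [h2]
      _ = g * c * g⁻¹ * s := by group
  have htop : (P : Subgroup X) ⊔ C = ⊤ := by
    refine eq_top_of_exists_sylow_le _ (fun r _ => ?_)
    by_cases hr : r = t
    · subst hr
      exact ⟨P, le_sup_left⟩
    · obtain ⟨Y, hY⟩ := hsyl r hr
      refine ⟨Y, le_trans ?_ le_sup_right⟩
      intro y hy
      rw [Subgroup.mem_centralizer_iff]
      intro s hs
      exact hY y hy s hs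
  have hX : ∀ x, ∃ p ∈ (P : Subgroup X), ∃ c ∈ C, p * c = x := by
    intro x
    have : x ∈ (P : Subgroup X) ⊔ C := by rw [htop]; trivial
    exact Subgroup.mem_sup_of_normal_right.1 this
  haveI : Group.IsNilpotent (P : Subgroup X) := P.isPGroup'.isNilpotent
  obtain ⟨n, hn⟩ := (Subgroup.isNilpotent_iff_lowerCentralSeries (P : Subgroup X)).1 inferInstance
  have hC : ∀ c ∈ C, ∀ s ∈ S, c * s = s * c := fun c hc s hs =>
    (Subgroup.mem_centralizer_iff.1 hc s hs).symm
  intro s hs
  exact ⟨n, le_upper S P C hC hX hn hSP hs⟩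

end hyper

section ml

variable {X : Type*} [Group X] [Finite X] {A : Type*} [Group A] [MulDistribMulAction A X]

theorem sub_le_Zinf
    (hp : ∀ (t : ℕ) [Fact t.Prime] (R : Subgroup X), R.Normal → (∀ a : A, ∀ x ∈ R, a • x ∈ R) →
      IsPGroup t R → R ≤ Zinf X)
    (L : Subgroup X) [hLn : L.Normal] (hLinv : ∀ a : A, ∀ x ∈ L, a • x ∈ L)
    [hLnil : Group.IsNilpotent L] : L ≤ Zinf X := by
  classical
  let H : Subgroup L := (Zinf X).subgroupOf L
  have hH : H = ⊤ := by
    refine Cfsg.Agent.Lib.S3ML.eq_top_of_sylow_le H (fun r _ Q => ?_)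
    have hQn : (Q : Subgroup L).Normal := inferInstance
    have hQc := Q.characteristic_of_normal hQn
    let R : Subgroup X := (Q : Subgroup L).map L.subtype
    have hauto : ∀ (f : L ≃* L), ∀ y ∈ (Q : Subgroup L), f y ∈ (Q : Subgroup L) := fun f y hy =>
      Subgroup.characteristic_iff_le_comap.1 hQc f hy
    have hRn : R.Normal := by
      refine ⟨?_⟩
      rintro _ ⟨y, hy, rfl⟩ g
      refine ⟨MulAut.conjNormal g y, hauto _ y hy, ?_⟩
      simp
    have hRinv : ∀ a : A, ∀ x ∈ R, a • x ∈ R := by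
      rintro a _ ⟨y, hy, rfl⟩
      letI lact : MulDistribMulAction A L := subAct L hLinv
      exact ⟨a • y, hauto (MulDistribMulAction.toMulEquiv L a) y hy, rfl⟩
    have hRp : IsPGroup r R := Q.isPGroup'.map L.subtype
    have hRc : R ≤ Zinf X := hp r R hRn hRinv hRp
    intro y hy
    exact hRc ⟨y, hy, rfl⟩
  intro x hx
  have : (⟨x, hx⟩ : L) ∈ H := by rw [hH]; trivial
  exact this

/-- **The nilpotency criterion.** -/
theorem ML' [Group.IsSolvable X]
    (hp : ∀ (t : ℕ) [Fact t.Prime] (R : Subgroup X), R.Normal → (∀ a : A, ∀ x ∈ R, a • x ∈ R) →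
      IsPGroup t R → R ≤ Zinf X) : Group.IsNilpotent X := by
  have hstep : ∀ m, derivedSeries X (m + 1) ≤ Zinf X → derivedSeries X m ≤ Zinf X := by
    intro m hm
    have hinv : ∀ a : A, ∀ x ∈ derivedSeries X m, a • x ∈ derivedSeries X m := fun a x hx =>
      Subgroup.characteristic_iff_le_comap.1
        (inferInstance : (derivedSeries X m).Characteristic)
        (MulDistribMulAction.toMulEquiv X a) hx
    haveI : Group.IsNilpotent (derivedSeries X m) := by
      apply isNilpotent_of_comm_le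
      rw [← derivedSeries_succ]
      exact hm
    exact sub_le_Zinf hp (derivedSeries X m) hinv
  obtain ⟨n, hn⟩ := (inferInstance : Group.IsSolvable X).solvable
  have hall : ∀ k m, m + k = n → derivedSeries X m ≤ Zinf X := by
    intro k
    induction k with
    | zero =>
      intro m hm
      rw [add_zero] at hm
      rw [hm, hn]
      exact bot_le
    | succ k ih =>
      intro m hm
      exact hstep m (ih (m + 1) (by omega))
  have h := hall n 0 (by omega)
  rw [derivedSeries_zero] at h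
  exact nilpotent_of_Zinf_top (eq_top_iff.2 h)

end ml


section lc

/-- The commuting lemma, as a hypothesis. -/
def LCHyp (A : Type v) [Group A] [Finite A] [Fintype A] (P Q : ℕ) : Prop :=
  ∀ (X : Type u) [Group X] [Finite X] [MulDistribMulAction A X], (Nat.card X).Coprime (P * Q) →
    (∀ x : X, (∀ g : A, g • x = x) → x = 1) →
    ∀ (K : Type) [Field K] [IsAlgClosed K] (U : Type u) [AddCommGroup U] [Module K U],
      ((P * Q : ℕ) : K) ≠ 0 → ∀ (ρ : X →* Module.End K U), Function.Injective ρ →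
      ∀ (σ : A →* Module.End K U), (∀ g x, σ g * ρ x = ρ (g • x) * σ g) → ∑ g : A, σ g = 0 →
      ∀ {t r : ℕ}, t.Prime → r.Prime → t ≠ r → (t : K) ≠ 0 →
      ∀ S : Subgroup X, S.Normal → IsPGroup t S → (∀ g : A, ∀ s ∈ S, g • s ∈ S) →
      ∀ Y : Subgroup X, IsPGroup r Y → (∀ g : A, ∀ y ∈ Y, g • y ∈ Y) →
      ∀ s ∈ S, ∀ y ∈ Y, s * y = y * s

end lc

section dual

theorem dualRep_norm' {A V K : Type*} [Group A] [Fintype A] [CommGroup V] [Field K]
    [MulDistribMulAction A V] (hV : ∀ v : V, ∏ g : A, g • v = 1) (f : Additive V →+ K) :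
    ∑ g : A, dualRep (K := K) A g f = 0 := by
  refine AddMonoidHom.ext (fun w => ?_)
  obtain ⟨v, rfl⟩ := Additive.ofMul.surjective w
  rw [AddMonoidHom.finsetSum_apply]
  show ∑ g : A, f (Additive.ofMul (g⁻¹ • v)) = 0
  rw [← map_sum, ← ofMul_prod]
  have h2 : ∏ g : A, g⁻¹ • v = ∏ g : A, g • v :=
    Fintype.prod_equiv (Equiv.inv A) _ _ (fun g => rfl)
  rw [h2, hV, ofMul_one, map_zero]

end dual

section step

/-- **The centralizing step.** -/
theorem quot_nilpotent {G V : Type u} {A : Type v} {K : Type} [Group G] [Finite G]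
    [Group.IsSolvable G] [Group A] [Finite A] [Fintype A] [MulDistribMulAction A G] [CommGroup V]
    [Finite V] [MulDistribMulAction G V] [MulDistribMulAction A V]
    {P Q : ℕ} {a : A} (hA : PQStr A P Q a) (hLC : LCHyp.{u, v} A P Q)
    (hact : ∀ (g : A) (x : G) (v : V), g • (x • v) = (g • x) • (g • v))
    (hG : (Nat.card G).Coprime (P * Q)) (hfix : ∀ x : G, (∀ g : A, g • x = x) → x = 1)
    (hfixV : ∀ v : V, (∀ g : A, g • v = v) → v = 1)
    (p : ℕ) [hp : Fact p.Prime] (hpPQ : ¬ p ∣ P * Q) (hVp : ∀ v : V, v ^ p = 1) (hVne : Nontrivial V)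
    (hVmin : ∀ B : Subgroup V, (∀ x : G, ∀ v ∈ B, x • v ∈ B) → (∀ a : A, ∀ v ∈ B, a • v ∈ B) →
      B ≠ ⊥ → B = ⊤)
    [Field K] [IsAlgClosed K] [CharP K p] :
    ∃ C : Subgroup G, ∃ _ : C.Normal, (∀ x ∈ C, ∀ v : V, x • v = v) ∧ Group.IsNilpotent (G ⧸ C) := by
  classical
  have hPQK : ((P * Q : ℕ) : K) ≠ 0 := fun h0 => hpPQ ((CharP.cast_eq_zero_iff K p (P * Q)).1 h0)
  let ρ : G →* Module.End K (Additive V →+ K) := dualRep G
  let σ : A →* Module.End K (Additive V →+ K) := dualRep A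
  have hmemC : ∀ x : G, x ∈ ρ.ker ↔ ∀ v : V, x • v = v := by
    intro x
    constructor
    · intro hx v
      have hx1 : ρ x = 1 := hx
      have h0 : x⁻¹ • v = v := by
        by_contra hne
        have hne' : (x⁻¹ • v) * v⁻¹ ≠ 1 := fun h => hne (mul_inv_eq_one.1 h)
        obtain ⟨f, hf⟩ := exists_sep (K := K) p hVp _ hne'
        apply hf
        have h1 : ρ x f (Additive.ofMul v) = f (Additive.ofMul v) := by
          rw [hx1]; rfl
        have h2 : f (Additive.ofMul (x⁻¹ • v)) = f (Additive.ofMul v) := h1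
        rw [ofMul_mul, map_add, h2, ofMul_inv, map_neg, add_neg_cancel]
      conv_lhs => rw [← h0]
      rw [smul_inv_smul]
    · intro hx
      show ρ x = 1
      ext f v
      show f (Additive.ofMul (x⁻¹ • v)) = f (Additive.ofMul v)
      rw [inv_smul_eq_iff.2 (hx _).symm]
  have hCinv : ∀ a : A, ∀ x ∈ ρ.ker, a • x ∈ ρ.ker := by
    intro a x hx
    rw [hmemC] at hx ⊢
    intro v
    have h1 := hact a x (a⁻¹ • v)
    rw [smul_inv_smul, hx] at h1
    rw [← h1, smul_inv_smul]
  have hVnorm : ∀ v : V, ∏ g : A, g • v = 1 := by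
    intro v
    apply hfixV
    intro h
    rw [Finset.smul_prod']
    exact Fintype.prod_equiv (Equiv.mulLeft h) _ _ (fun g => (mul_smul h g v).symm)
  have hσ0 : ∑ g : A, σ g = 0 := by
    ext f
    rw [LinearMap.sum_apply]
    have := dualRep_norm' (K := K) hVnorm f
    rw [this]
    rfl
  have hcompat : ∀ (g : A) (x : G), σ g * ρ x = ρ (g • x) * σ g := dualRep_compat hact
  letI qa : MulDistribMulAction A (G ⧸ ρ.ker) := quotAct ρ.ker hCinv
  have hqa : ∀ (a : A) (x : G), a • (x : G ⧸ ρ.ker) = ((a • x : G) : G ⧸ ρ.ker) := fun _ _ => rfl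
  let ρ' : (G ⧸ ρ.ker) →* Module.End K (Additive V →+ K) :=
    QuotientGroup.lift ρ.ker ρ (fun x hx => hx)
  have hρ'mk : ∀ x : G, ρ' (x : G ⧸ ρ.ker) = ρ x := fun x => rfl
  have hρ' : Function.Injective ρ' := by
    intro p q hpq
    obtain ⟨a, rfl⟩ := QuotientGroup.mk_surjective p
    obtain ⟨b, rfl⟩ := QuotientGroup.mk_surjective q
    rw [hρ'mk, hρ'mk] at hpq
    refine QuotientGroup.eq.2 ?_
    show ρ (a⁻¹ * b) = 1
    have h1 : ρ a⁻¹ * ρ a = 1 := by rw [← map_mul, inv_mul_cancel, map_one]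
    rw [map_mul, ← hpq, h1]
  have hcompat' : ∀ (g : A) q, σ g * ρ' q = ρ' (g • q) * σ g := by
    intro g q
    obtain ⟨a, rfl⟩ := QuotientGroup.mk_surjective q
    rw [hqa, hρ'mk, hρ'mk]
    exact hcompat g a
  have hX : (Nat.card (G ⧸ ρ.ker)).Coprime (P * Q) :=
    Nat.Coprime.coprime_dvd_left (Subgroup.card_quotient_dvd_card _) hG
  have hfix' : ∀ q : G ⧸ ρ.ker, (∀ g : A, g • q = q) → q = 1 := by
    intro q hq
    obtain ⟨a', rfl⟩ := QuotientGroup.mk_surjective q
    have hmem : ∀ g : A, a'⁻¹ * (g • a') ∈ ρ.ker := fun g => by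
      have := hq g
      rw [hqa] at this
      exact QuotientGroup.eq.1 this.symm
    have h1 := mem_of_trivial hA hfix ρ.ker hCinv
      (Nat.Coprime.coprime_dvd_left (Subgroup.card_subgroup_dvd_card _) hG) a' hmem
    exact (QuotientGroup.eq_one_iff _).2 h1
  have hpK : ∀ r : ℕ, r.Prime → r ≠ p → (r : K) ≠ 0 := by
    intro r hr hrp h0
    have h1 := (CharP.cast_eq_zero_iff K p r).1 h0
    exact hrp ((Nat.prime_dvd_prime_iff_eq hp.out hr).1 h1).symm
  have hOp : ∀ R : Subgroup (G ⧸ ρ.ker), R.Normal → (∀ a : A, ∀ x ∈ R, a • x ∈ R) →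
      IsPGroup p R → R = ⊥ := by
    intro R hRn hRinv hRp
    let θG : G →* Equiv.Perm V := MulAction.toPermHom G V
    have hθG : ∀ x : G, ∀ v, θG x v = x • v := fun _ _ => rfl
    have hle : ρ.ker ≤ θG.ker := by
      intro x hx
      ext v
      exact (hmemC x).1 hx v
    let θ : (G ⧸ ρ.ker) →* Equiv.Perm V := QuotientGroup.lift ρ.ker θG hle
    have hθ : ∀ (x : G) (v : V), θ (x : G ⧸ ρ.ker) v = x • v := fun _ _ => rfl
    letI Ract : MulAction R V := MulAction.compHom V (θ.comp R.subtype)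
    have hRact : ∀ (q : R) (v : V), q • v = θ q.1 v := fun _ _ => rfl
    have hmod := hRp.card_modEq_card_fixedPoints V
    have hpV : p ∣ Nat.card V := by
      obtain ⟨w, hw⟩ := exists_ne (1 : V)
      have h1 : orderOf w = p := orderOf_eq_prime (hVp w) hw
      rw [← h1]
      exact orderOf_dvd_natCard w
    have hpF : p ∣ Nat.card (MulAction.fixedPoints R V) :=
      (Nat.modEq_zero_iff_dvd.1 (hmod.symm.trans (Nat.modEq_zero_iff_dvd.2 hpV)))
    have h1fix : (1 : V) ∈ MulAction.fixedPoints R V := by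
      intro q
      rw [hRact]
      obtain ⟨a, ha⟩ := QuotientGroup.mk_surjective q.1
      rw [← ha, hθ, smul_one]
    have hv₀ : ∃ v₀ : V, v₀ ∈ MulAction.fixedPoints R V ∧ v₀ ≠ 1 := by
      by_contra hne
      push Not at hne
      have hsub : Subsingleton (MulAction.fixedPoints R V) :=
        ⟨fun a b => Subtype.ext ((hne a.1 a.2).trans (hne b.1 b.2).symm)⟩
      have h2 : Nat.card (MulAction.fixedPoints R V) = 1 := by
        haveI : Nonempty (MulAction.fixedPoints R V) := ⟨⟨1, h1fix⟩⟩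
        exact Nat.card_unique
      rw [h2] at hpF
      exact hp.out.one_lt.ne' (Nat.dvd_one.1 hpF)
    obtain ⟨v₀, hv₀1, hv₀2⟩ := hv₀
    let Rt : Subgroup G := R.comap (QuotientGroup.mk' ρ.ker)
    have hRtmem : ∀ x : G, x ∈ Rt ↔ (x : G ⧸ ρ.ker) ∈ R := fun _ => Iff.rfl
    let B : Subgroup V :=
      { carrier := {v | ∀ r ∈ Rt, r • v = v}
        mul_mem' := fun {a b} ha hb r hr => by rw [smul_mul', ha r hr, hb r hr]
        one_mem' := fun r _ => smul_one r
        inv_mem' := fun {a} ha r hr => by rw [smul_inv', ha r hr] }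
    have hBG : ∀ x : G, ∀ v ∈ B, x • v ∈ B := by
      intro x v hv r hr
      have h1 : x⁻¹ * r * x ∈ Rt := by
        rw [hRtmem] at hr ⊢
        have := hRn.conj_mem _ hr (x⁻¹ : G ⧸ ρ.ker)
        simpa using this
      have h2 := hv _ h1
      rw [mul_smul, mul_smul, inv_smul_eq_iff] at h2
      exact h2
    have hBS : ∀ a : A, ∀ v ∈ B, a • v ∈ B := by
      intro a v hv r hr
      have h1 : a⁻¹ • r ∈ Rt := by
        rw [hRtmem] at hr ⊢
        exact hRinv _ _ hr
      have h2 := hv _ h1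
      have h3 := hact a (a⁻¹ • r) v
      rw [h2, smul_inv_smul] at h3
      exact h3.symm
    have hBne : B ≠ ⊥ := by
      intro h
      have hv₀B : v₀ ∈ B := by
        intro r hr
        have := hv₀1 ⟨(r : G ⧸ ρ.ker), hr⟩
        rw [hRact] at this
        exact this
      rw [h] at hv₀B
      exact hv₀2 hv₀B
    have hBtop := hVmin B hBG hBS hBne
    rw [eq_bot_iff]
    intro q hq
    obtain ⟨r, rfl⟩ := QuotientGroup.mk_surjective q
    have hr : r ∈ Rt := hq
    have hrC : r ∈ ρ.ker := by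
      rw [hmemC]
      intro v
      have : v ∈ B := by rw [hBtop]; trivial
      exact this r hr
    exact (QuotientGroup.eq_one_iff _).2 hrC
  refine ⟨ρ.ker, inferInstance, fun x hx => (hmemC x).1 hx, ?_⟩
  have hcopA : (Nat.card A).Coprime (Nat.card (G ⧸ ρ.ker)) := by
    rw [hA.hcard]
    exact hX.symm
  haveI hXsol : Group.IsSolvable (G ⧸ ρ.ker) := inferInstance
  refine ML' (A := A) (fun t _ R hRn hRinv hRp => ?_)
  by_cases htp : t = p
  · subst htp
    rw [hOp R hRn hRinv hRp]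
    exact bot_le
  · haveI := hRn
    refine normal_p_le R hRp (fun r _ hrt => ?_)
    obtain ⟨Y, hY⟩ := exists_invariant_sylow (A := A) (G := G ⧸ ρ.ker) hcopA (Or.inr hXsol) r
    refine ⟨Y, fun y hy s hs => ?_⟩
    exact (hLC (G ⧸ ρ.ker) hX hfix' K (Additive V →+ K) hPQK ρ' hρ' σ hcompat' hσ0 (Fact.out : t.Prime)
      (Fact.out : r.Prime) (Ne.symm hrt) (hpK t Fact.out htp) R hRn hRp hRinv
      (Y : Subgroup (G ⧸ ρ.ker)) Y.isPGroup' hY s hs y hy)

end step

section main

/-- The step for a minimal invariant normal subgroup. -/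
theorem step {G : Type u} {A : Type v} [Group G] [Finite G] [Group.IsSolvable G] [Group A]
    [Finite A] [Fintype A] [MulDistribMulAction A G] {P Q : ℕ} {a : A} (hA : PQStr A P Q a)
    (hLC : LCHyp.{u, v} A P Q)
    (hG : (Nat.card G).Coprime (P * Q)) (hfix : ∀ x : G, (∀ g : A, g • x = x) → x = 1)
    (V : Subgroup G) [hVn : V.Normal] (hVinv : ∀ a : A, ∀ v ∈ V, a • v ∈ V) (hVne : V ≠ ⊥)
    (hVmin : ∀ W : Subgroup G, W.Normal → (∀ a : A, ∀ v ∈ W, a • v ∈ W) → W ≠ ⊥ → W ≤ V → W = V) :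
    ∃ C : Subgroup G, ∃ _ : C.Normal, (∀ x ∈ C, ∀ v ∈ V, x * v * x⁻¹ = v) ∧ Group.IsNilpotent (G ⧸ C) := by
  classical
  -- `V` is abelian
  have hVcomm : ∀ a ∈ V, ∀ b ∈ V, a * b = b * a := by
    let W : Subgroup G := ⁅V, V⁆
    have hWn : W.Normal := inferInstance
    have hWinv : ∀ a : A, ∀ v ∈ W, a • v ∈ W := by
      intro a v hv
      have hle : W ≤ W.comap (MulDistribMulAction.toMonoidHom G a) := by
        show ⁅V, V⁆ ≤ _
        rw [Subgroup.commutator_le]
        intro y hy z hz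
        show a • ⁅y, z⁆ ∈ W
        have : a • ⁅y, z⁆ = ⁅a • y, a • z⁆ :=
          map_commutatorElement (MulDistribMulAction.toMonoidHom G a) y z
        rw [this]
        exact Subgroup.commutator_mem_commutator (hVinv a y hy) (hVinv a z hz)
      exact hle hv
    have hWle : W ≤ V := Subgroup.commutator_le_left V V
    by_cases hW : W = ⊥
    · intro a ha b hb
      have : ⁅a, b⁆ ∈ W := Subgroup.commutator_mem_commutator ha hb
      rw [hW] at this
      exact commutatorElement_eq_one_iff_mul_comm.1 this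
    · exfalso
      have hEq : W = V := hVmin W hWn hWinv hW hWle
      have hder : ∀ n, V ≤ derivedSeries G n := by
        intro n
        induction n with
        | zero => exact le_top
        | succ n ih =>
          rw [derivedSeries_succ]
          calc V = ⁅V, V⁆ := hEq.symm
            _ ≤ _ := Subgroup.commutator_mono ih ih
      obtain ⟨n, hn⟩ := (inferInstance : Group.IsSolvable G).solvable
      apply hVne
      rw [eq_bot_iff, ← hn]
      exact hder n
  -- a prime
  have hcardne : Nat.card V ≠ 1 := fun h => hVne (Subgroup.eq_bot_of_card_eq V h)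
  obtain ⟨p, hp, hpd⟩ := Nat.exists_prime_and_dvd hcardne
  haveI hpF : Fact p.Prime := ⟨hp⟩
  have hVp : ∀ v ∈ V, v ^ p = 1 := by
    let Ω : Subgroup G :=
      { carrier := {v | v ∈ V ∧ v ^ p = 1}
        mul_mem' := fun {a b} ha hb => ⟨V.mul_mem ha.1 hb.1, by
          rw [(show Commute a b from hVcomm a ha.1 b hb.1).mul_pow, ha.2, hb.2, one_mul]⟩
        one_mem' := ⟨V.one_mem, one_pow _⟩
        inv_mem' := fun {a} ha => ⟨V.inv_mem ha.1, by rw [inv_pow, ha.2, inv_one]⟩ }
    have hΩn : Ω.Normal := by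
      refine ⟨fun n hn g => ⟨hVn.conj_mem n hn.1 g, ?_⟩⟩
      rw [conj_pow, hn.2]
      group
    have hΩinv : ∀ a : A, ∀ v ∈ Ω, a • v ∈ Ω := by
      intro a v hv
      refine ⟨hVinv a v hv.1, ?_⟩
      rw [← smul_pow', hv.2, smul_one]
    have hΩle : Ω ≤ V := fun v hv => hv.1
    have hΩne : Ω ≠ ⊥ := by
      intro h
      obtain ⟨w, hw⟩ := exists_prime_orderOf_dvd_card' p hpd
      have hw1 : (w : G) ^ p = 1 := by
        have := pow_orderOf_eq_one w
        rw [hw] at this
        exact congrArg Subtype.val this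
      have hwΩ : (w : G) ∈ Ω := ⟨w.2, hw1⟩
      rw [h] at hwΩ
      have hw2 : w = 1 := Subtype.ext hwΩ
      rw [hw2, orderOf_one] at hw
      exact hp.one_lt.ne hw
    have hEq := hVmin Ω hΩn hΩinv hΩne hΩle
    intro v hv
    rw [← hEq] at hv
    exact hv.2
  -- the instances on `V`
  letI vcg : CommGroup V :=
    { (inferInstance : Group V) with mul_comm := fun a b => Subtype.ext (hVcomm a a.2 b b.2) }
  letI sact : MulDistribMulAction A V := subAct V hVinv
  letI gact : MulDistribMulAction G V :=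
    { smul := fun x s => ⟨x * s.1 * x⁻¹, hVn.conj_mem s.1 s.2 x⟩
      one_smul := fun s => Subtype.ext (by
        show 1 * s.1 * 1⁻¹ = s.1
        simp)
      mul_smul := fun a b s => Subtype.ext (by
        show (a * b) * s.1 * (a * b)⁻¹ = a * (b * s.1 * b⁻¹) * a⁻¹
        group)
      smul_mul := fun a s t => Subtype.ext (by
        show a * (s.1 * t.1) * a⁻¹ = (a * s.1 * a⁻¹) * (a * t.1 * a⁻¹)
        group)
      smul_one := fun a => Subtype.ext (by
        show a * 1 * a⁻¹ = 1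
        simp) }
  have hgact : ∀ (x : G) (s : V), ((x • s : V) : G) = x * s.1 * x⁻¹ := fun _ _ => rfl
  have hsact : ∀ (a : A) (s : V), ((a • s : V) : G) = a • s.1 := fun _ _ => rfl
  have hact : ∀ (g : A) (x : G) (v : V), g • (x • v) = (g • x) • (g • v) := by
    intro g x v
    apply Subtype.ext
    show g • (x * v.1 * x⁻¹) = (g • x) * (g • v.1) * (g • x)⁻¹
    rw [smul_mul', smul_mul', smul_inv']
  have hfixA : ∀ v : V, (∀ g : A, g • v = v) → v = 1 := fun s hs =>
    Subtype.ext (hfix s.1 (fun g => congrArg Subtype.val (hs g)))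
  have hAp : ∀ v : V, v ^ p = 1 := fun v => Subtype.ext (hVp v.1 v.2)
  have hAne : Nontrivial V := (Subgroup.bot_or_nontrivial V).resolve_left hVne
  have hAmin : ∀ B : Subgroup V, (∀ x : G, ∀ v ∈ B, x • v ∈ B) → (∀ a : A, ∀ v ∈ B, a • v ∈ B) →
      B ≠ ⊥ → B = ⊤ := by
    intro B hBG hBS hBne
    let W : Subgroup G := B.map V.subtype
    have hWn : W.Normal := by
      refine ⟨?_⟩
      rintro _ ⟨y, hy, rfl⟩ g
      exact ⟨g • y, hBG g y hy, rfl⟩
    have hWinv : ∀ a : A, ∀ v ∈ W, a • v ∈ W := by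
      rintro a _ ⟨y, hy, rfl⟩
      exact ⟨a • y, hBS a y hy, rfl⟩
    have hWle : W ≤ V := by
      rintro _ ⟨y, _, rfl⟩
      exact y.2
    have hWne : W ≠ ⊥ := by
      intro h
      apply hBne
      rw [eq_bot_iff]
      intro y hy
      have : (y : G) ∈ W := ⟨y, hy, rfl⟩
      rw [h] at this
      exact Subtype.ext this
    have hEq := hVmin W hWn hWinv hWne hWle
    rw [eq_top_iff]
    intro y _
    have : (y : G) ∈ W := by rw [hEq]; exact y.2
    obtain ⟨z, hz, hzy⟩ := this
    have : z = y := Subtype.ext hzy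
    rw [← this]
    exact hz
  have hpPQ : ¬ p ∣ P * Q := by
    intro h
    have h1 : p ∣ Nat.card G := hpd.trans (Subgroup.card_subgroup_dvd_card V)
    have h2 := Nat.dvd_gcd h1 h
    rw [hG] at h2
    exact hp.one_lt.ne' (Nat.dvd_one.1 h2)
  obtain ⟨C, hC1, hC2, hC3⟩ := quot_nilpotent (K := AlgebraicClosure (ZMod p)) hA hLC hact hG hfix
    hfixA p hpPQ hAp hAne hAmin
  exact ⟨C, hC1, fun x hx v hv => congrArg Subtype.val (hC2 x hx ⟨v, hv⟩), hC3⟩

/-- **The top level induction.** -/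
theorem main {A : Type v} [Group A] [Finite A] [Fintype A] {P Q : ℕ} {a : A} (hA : PQStr A P Q a)
    (hLC : LCHyp.{u, v} A P Q) :
    ∀ (n : ℕ) (G : Type u) [Group G] [Finite G] [Group.IsSolvable G]
    [MulDistribMulAction A G], Nat.card G = n → (Nat.card G).Coprime (P * Q) →
    (∀ g : G, (∀ a : A, a • g = g) → g = 1) →
    ∃ F : Subgroup G, ∃ _ : F.Normal, Group.IsNilpotent ↥F ∧ Group.IsNilpotent (G ⧸ F) := by
  intro n
  induction n using Nat.strong_induction_on with
  | _ n ih =>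
    intro G _ _ _ _ hn hG hfix
    classical
    by_cases htriv : Subsingleton G
    · exact ⟨⊥, inferInstance, inferInstance, inferInstance⟩
    rw [not_subsingleton_iff_nontrivial] at htriv
    -- a minimal invariant normal subgroup
    let T : Set (Subgroup G) := {W | W.Normal ∧ (∀ a : A, ∀ v ∈ W, a • v ∈ W) ∧ W ≠ ⊥}
    have hTop : (⊤ : Subgroup G) ∈ T :=
      ⟨inferInstance, fun _ _ _ => Subgroup.mem_top _, top_ne_bot⟩
    obtain ⟨V, hV⟩ := (Set.toFinite T).exists_minimal ⟨⊤, hTop⟩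
    obtain ⟨hVn, hVinv, hVne⟩ := hV.prop
    haveI := hVn
    have hVmin : ∀ W : Subgroup G, W.Normal → (∀ a : A, ∀ v ∈ W, a • v ∈ W) → W ≠ ⊥ → W ≤ V →
        W = V := fun W h1 h2 h3 hle => hV.eq_of_le ⟨h1, h2, h3⟩ hle
    letI qa : MulDistribMulAction A (G ⧸ V) := quotAct V hVinv
    have hqa : ∀ (a : A) (x : G), a • (x : G ⧸ V) = ((a • x : G) : G ⧸ V) := fun _ _ => rfl
    have hlt : Nat.card (G ⧸ V) < n := by
      have h1 := Subgroup.card_eq_card_quotient_mul_card_subgroup V
      have h2 : Nat.card V ≠ 1 := fun h => hVne (Subgroup.eq_bot_of_card_eq V h)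
      have h3 : 0 < Nat.card V := Nat.card_pos
      have h4 : 0 < Nat.card (G ⧸ V) := Nat.card_pos
      rw [← hn, h1]
      nlinarith [show 2 ≤ Nat.card V by omega]
    have hX : (Nat.card (G ⧸ V)).Coprime (P * Q) :=
      Nat.Coprime.coprime_dvd_left (Subgroup.card_quotient_dvd_card _) hG
    have hfix' : ∀ q : G ⧸ V, (∀ g : A, g • q = q) → q = 1 := by
      intro q hq
      obtain ⟨a', rfl⟩ := QuotientGroup.mk_surjective q
      have hmem : ∀ g : A, a'⁻¹ * (g • a') ∈ V := fun g => by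
        have := hq g
        rw [hqa] at this
        exact QuotientGroup.eq.1 this.symm
      have h1 := mem_of_trivial hA hfix V hVinv
        (Nat.Coprime.coprime_dvd_left (Subgroup.card_subgroup_dvd_card _) hG) a' hmem
      exact (QuotientGroup.eq_one_iff _).2 h1
    obtain ⟨Fb, hFbn, hFb1, hFb2⟩ := ih _ hlt (G ⧸ V) rfl hX hfix'
    obtain ⟨C, hCn, hC1, hC2⟩ := step hA hLC hG hfix V hVinv hVne hVmin
    haveI := hFb1
    haveI := hFb2
    haveI := hC2
    let φ : G →* ((G ⧸ V) ⧸ Fb) × (G ⧸ C) :=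
      ((QuotientGroup.mk' Fb).comp (QuotientGroup.mk' V)).prod (QuotientGroup.mk' C)
    have hφ1 : ∀ x, x ∈ φ.ker → (x : G ⧸ V) ∈ Fb := by
      intro x hx
      have h1 : φ x = 1 := hx
      have h2 := congrArg Prod.fst h1
      exact (QuotientGroup.eq_one_iff _).1 h2
    have hφ2 : ∀ x, x ∈ φ.ker → x ∈ C := by
      intro x hx
      have h1 : φ x = 1 := hx
      have h2 := congrArg Prod.snd h1
      exact (QuotientGroup.eq_one_iff _).1 h2
    refine ⟨φ.ker, inferInstance, ?_, ?_⟩
    · let f : φ.ker →* Fb :=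
        ((QuotientGroup.mk' V).comp φ.ker.subtype).codRestrict Fb (fun x => hφ1 x.1 x.2)
      refine Subgroup.isNilpotent_of_ker_le_center f ?_
      intro x hx
      rw [Subgroup.mem_center_iff]
      intro k
      have h1 : ((x.1 : G) : G ⧸ V) = 1 := congrArg Subtype.val hx
      have h2 : x.1 ∈ V := (QuotientGroup.eq_one_iff _).1 h1
      have h3 := hC1 k.1 (hφ2 k.1 k.2) x.1 h2
      apply Subtype.ext
      show k.1 * x.1 = x.1 * k.1
      calc k.1 * x.1 = (k.1 * x.1 * k.1⁻¹) * k.1 := by group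
        _ = x.1 * k.1 := by rw [h3]
    · refine Subgroup.isNilpotent_of_ker_le_center (QuotientGroup.kerLift φ) ?_
      have h1 : (QuotientGroup.kerLift φ).ker = ⊥ :=
        (MonoidHom.ker_eq_bot_iff _).2 (QuotientGroup.kerLift_injective φ)
      rw [h1]
      exact bot_le

end main

end Cfsg.Agent.Lib.PQTop
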