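import Mathlib
import Cfsg.Agent.Lib.PSL211Tab

/-!
# `PSL_2(11)`: the two actions on eleven points and the subgroups isomorphic to `A_5`.
-/

set_option autoImplicit false
set_option linter.unusedSectionVars false

namespace Cfsg.Agent.Lib.PSL211

open Matrix Cfsg.Agent.Lib.SL2Table Cfsg.Agent.Lib.TableAction Cfsg.Agent.Lib.ClassicalSmall
open Cfsg.Agent.Lib.PSL211Tab

/-- Quadruples. -/
abbrev Q11 := ZMod 11 × ZMod 11 × ZMod 11 × ZMod 11

/-- Product of quadruples. -/
def qmul (x y : Q11) : Q11 :=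
  (x.1 * y.1 + x.2.1 * y.2.2.1, x.1 * y.2.1 + x.2.1 * y.2.2.2,
    x.2.2.1 * y.1 + x.2.2.2 * y.2.2.1, x.2.2.1 * y.2.1 + x.2.2.2 * y.2.2.2)

/-- Determinant of a quadruple. -/
def qdet (x : Q11) : ZMod 11 := x.1 * x.2.2.2 - x.2.1 * x.2.2.1

/-- The quadruple of a matrix. -/
def qof (g : SpecialLinearGroup (Fin 2) (ZMod 11)) : Q11 :=
  (g.1 0 0, g.1 0 1, g.1 1 0, g.1 1 1)

theorem qof_mul (g h : SpecialLinearGroup (Fin 2) (ZMod 11)) :
    qof (g * h) = qmul (qof g) (qof h) := by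
  simp [qof, qmul, Matrix.mul_apply, Fin.sum_univ_two, SpecialLinearGroup.coe_mul]

theorem qdet_qof (g : SpecialLinearGroup (Fin 2) (ZMod 11)) : qdet (qof g) = 1 := by
  have := g.2
  rw [Matrix.det_fin_two] at this
  exact this

theorem qof_inj {g h : SpecialLinearGroup (Fin 2) (ZMod 11)} (e : qof g = qof h) : g = h := by
  simp only [qof, Prod.mk.injEq] at e
  obtain ⟨e1, e2, e3, e4⟩ := e
  apply Subtype.ext
  ext i j
  fin_cases i <;> fin_cases j
  · exact e1
  · exact e2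
  · exact e3
  · exact e4

/-- A quadruple of determinant one as a matrix. -/
def mkSL (x : Q11) (h : qdet x = 1) : SpecialLinearGroup (Fin 2) (ZMod 11) :=
  ⟨!![x.1, x.2.1; x.2.2.1, x.2.2.2], by
    rw [Matrix.det_fin_two_of]
    exact h⟩

theorem qof_mkSL (x : Q11) (h : qdet x = 1) : qof (mkSL x h) = x := by
  rcases x with ⟨a, b, c, d⟩
  simp [qof, mkSL]

/-- The twisted table. -/
def T' (a b c d : ZMod 11) : ℕ := T a (2 * b) (6 * c) d

/-- Twisting generators. -/
def twist : Option (Bool × ZMod 11) → Option (Bool × ZMod 11)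
  | none => none
  | some (false, t) => some (false, 2 * t)
  | some (true, t) => some (true, 6 * t)

/-- The twisted action on the cosets. -/
def Pi' (i : Option (Bool × ZMod 11)) (x : ℕ) : ℕ := Pi (twist i) x

theorem check01' : ∀ t a b c d : ZMod 11,
    T' (a + t * c) (b + t * d) c d = Pi' (some (false, t)) (T' a b c d) := by
  intro t a b c d
  have h := check01 (2 * t) a (2 * b) (6 * c) d
  have h12 : (12 : ZMod 11) = 1 := by decide
  have e1 : a + 2 * t * (6 * c) = a + t * c := by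
    linear_combination (t * c) * h12
  have e2 : 2 * b + 2 * t * d = 2 * (b + t * d) := by ring
  rw [e1, e2] at h
  exact h

theorem check10' : ∀ t a b c d : ZMod 11,
    T' a b (c + t * a) (d + t * b) = Pi' (some (true, t)) (T' a b c d) := by
  intro t a b c d
  have h := check10 (6 * t) a (2 * b) (6 * c) d
  have h12 : (12 : ZMod 11) = 1 := by decide
  have e1 : 6 * c + 6 * t * a = 6 * (c + t * a) := by ring
  have e2 : d + 6 * t * (2 * b) = d + t * b := by
    linear_combination (t * b) * h12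
  rw [e1, e2] at h
  exact h

theorem checkneg' : ∀ a b c d : ZMod 11, T' (-a) (-b) (-c) (-d) = Pi' none (T' a b c d) := by
  intro a b c d
  have h := checkneg a (2 * b) (6 * c) d
  have e1 : -(2 * b) = 2 * -b := by ring
  have e2 : -(6 * c) = 6 * -c := by ring
  rw [e1, e2] at h
  exact h

theorem checkPi' : ∀ (i : Option (Bool × ZMod 11)) (x : Fin 11), Pi' i x < 11 := fun i x =>
  checkPi (twist i) x

theorem checkOne : T 1 0 0 1 = 0 := by decide +kernel
theorem checkOne' : T' 1 0 0 1 = 0 := by decide +kernel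

theorem checkConn : ∀ x : Fin 11, x.val ≠ 0 →
    ∃ (i : Option (Bool × ZMod 11)) (y : Fin 11), y.val < x.val ∧ Pi i y = x := by decide +kernel

theorem checkConn' : ∀ x : Fin 11, x.val ≠ 0 →
    ∃ (i : Option (Bool × ZMod 11)) (y : Fin 11), y.val < x.val ∧ Pi' i y = x := by decide +kernel

theorem checkNone : ∀ x : Fin 11, Pi none x = x := by decide +kernel

theorem checkMove : Pi (some (false, 1)) 0 ≠ 0 := by decide +kernel
theorem checkMove' : Pi' (some (false, 1)) 0 ≠ 0 := by decide +kernel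

theorem card_ge : 4 ≤ Nat.card (ZMod 11) := by
  rw [Nat.card_eq_fintype_card, ZMod.card]; norm_num

/-- The group. -/
abbrev G11 := ProjectiveSpecialLinearGroup (Fin 2) (ZMod 11)

instance simpleG11 : IsSimpleGroup G11 := Matrix.ProjectiveSpecialLinearGroup.rank_two_simple card_ge

/-- Building an action from a table. -/
theorem exists_phi (A : ZMod 11 → ZMod 11 → ZMod 11 → ZMod 11 → ℕ)
    (P : Option (Bool × ZMod 11) → ℕ → ℕ)
    (h01 : ∀ t a b c d, A (a + t * c) (b + t * d) c d = P (some (false, t)) (A a b c d))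
    (h10 : ∀ t a b c d, A a b (c + t * a) (d + t * b) = P (some (true, t)) (A a b c d))
    (hneg : ∀ a b c d, A (-a) (-b) (-c) (-d) = P none (A a b c d))
    (hP : ∀ i x, x < 11 → P i x < 11)
    (h1 : A 1 0 0 1 = 0)
    (hconn : ∀ x, x < 11 → x ≠ 0 → ∃ i y, y < 11 ∧ y < x ∧ P i y = x)
    (hnone : ∀ x, x < 11 → P none x = x)
    (hne : ∃ i x, x < 11 ∧ P i x ≠ x) :
    ∃ φ : G11 →* Equiv.Perm (Fin 11), Function.Injective φ ∧
      ∀ (a g : SpecialLinearGroup (Fin 2) (ZMod 11)) (x : Fin 11), tab A g = x →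
        ((φ (QuotientGroup.mk a) x : Fin 11) : ℕ) = tab A (a * g) := by
  have h1' : tab A (1 : SpecialLinearGroup (Fin 2) (ZMod 11)) = 0 := by
    unfold tab
    simpa using h1
  obtain ⟨Φ, hΦ, -, hΦ2⟩ := exists_hom_of_table 11 (by norm_num) gen2 closure_gen2 (tab A) P
    (tab_mul A P h01 h10 hneg) hP h1' id hconn
  have hZ : ∀ z ∈ Subgroup.center (SpecialLinearGroup (Fin 2) (ZMod 11)), Φ z = 1 := by
    intro z hz
    rcases center_cases hz with rfl | rfl
    · exact map_one Φ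
    · ext x
      rw [hΦ, hnone _ x.2]
      rfl
  have hne' : ∃ g, Φ g ≠ 1 := by
    obtain ⟨i, x, hx, hix⟩ := hne
    refine ⟨gen2 i, fun h => hix ?_⟩
    have := hΦ i ⟨x, hx⟩
    rw [h] at this
    exact this.symm
  obtain ⟨φ, hφ, hφ2⟩ := exists_injective_of_hom Φ hZ hne'
  refine ⟨φ, hφ, fun a g x hx => ?_⟩
  rw [hφ2, hΦ2 a g]
  congr 2
  exact Fin.ext hx.symm

/-- The two actions. -/
theorem exists_phi12 : ∃ φ₁ φ₂ : G11 →* Equiv.Perm (Fin 11),
    Function.Injective φ₁ ∧ Function.Injective φ₂ ∧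
    (∀ (a g : SpecialLinearGroup (Fin 2) (ZMod 11)) (x : Fin 11), tab T g = x →
        ((φ₁ (QuotientGroup.mk a) x : Fin 11) : ℕ) = tab T (a * g)) ∧
    (∀ (a g : SpecialLinearGroup (Fin 2) (ZMod 11)) (x : Fin 11), tab T' g = x →
        ((φ₂ (QuotientGroup.mk a) x : Fin 11) : ℕ) = tab T' (a * g)) := by
  obtain ⟨φ₁, h1, h1'⟩ := exists_phi T Pi check01 check10 checkneg
    (fun i x hx => checkPi i ⟨x, hx⟩) checkOne
    (fun x hx hx0 => by
      obtain ⟨i, y, hy, hi⟩ := checkConn ⟨x, hx⟩ hx0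
      exact ⟨i, y, y.2, hy, hi⟩)
    (fun x hx => checkNone ⟨x, hx⟩) ⟨some (false, 1), 0, by norm_num, checkMove⟩
  obtain ⟨φ₂, h2, h2'⟩ := exists_phi T' Pi' check01' check10' checkneg'
    (fun i x hx => checkPi' i ⟨x, hx⟩) checkOne'
    (fun x hx hx0 => by
      obtain ⟨i, y, hy, hi⟩ := checkConn' ⟨x, hx⟩ hx0
      exact ⟨i, y, y.2, hy, hi⟩)
    (fun x hx => checkNone ⟨x, hx⟩) ⟨some (false, 1), 0, by norm_num, checkMove'⟩
  exact ⟨φ₁, φ₂, h1, h2, h1', h2'⟩

/-! ### Evaluating the actions -/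

/-- A table as a function on quadruples. -/
def unc (A : ZMod 11 → ZMod 11 → ZMod 11 → ZMod 11 → ℕ) (q : Q11) : ℕ :=
  A q.1 q.2.1 q.2.2.1 q.2.2.2

theorem tab_eq (A : ZMod 11 → ZMod 11 → ZMod 11 → ZMod 11 → ℕ)
    (g : SpecialLinearGroup (Fin 2) (ZMod 11)) : tab A g = unc A (qof g) := rfl

/-- Representatives for the points, first action. -/
def r1 : Fin 11 → ZMod 11 := ![1, 7, 9, 8, 10, 2, 5, 3, 4, 6, 0]
/-- Representatives for the points, second action. -/
def r2 : Fin 11 → ZMod 11 := ![1, 2, 6, 4, 8, 3, 9, 5, 7, 0, 10]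

/-- The representative matrices. -/
def uu (d : ZMod 11) : Q11 := (0, 1, 10, d)

theorem qdet_uu (d : ZMod 11) : qdet (uu d) = 1 := by
  have : (-10 : ZMod 11) = 1 := by decide
  simp [qdet, uu, this]

/-- The first action, evaluated. -/
def E1 (q : Q11) (x : Fin 11) : ℕ := unc T (qmul q (uu (r1 x)))
/-- The second action, evaluated. -/
def E2 (q : Q11) (x : Fin 11) : ℕ := unc T' (qmul q (uu (r2 x)))

theorem checkRep1 : ∀ x : Fin 11, unc T (uu (r1 x)) = x := by decide +kernel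
theorem checkRep2 : ∀ x : Fin 11, unc T' (uu (r2 x)) = x := by decide +kernel

/-- The two actions, with evaluation. -/
theorem exists_phi_eval : ∃ φ₁ φ₂ : G11 →* Equiv.Perm (Fin 11),
    (∀ (a : SpecialLinearGroup (Fin 2) (ZMod 11)) (x : Fin 11),
        ((φ₁ (QuotientGroup.mk a) x : Fin 11) : ℕ) = E1 (qof a) x) ∧
    (∀ (a : SpecialLinearGroup (Fin 2) (ZMod 11)) (x : Fin 11),
        ((φ₂ (QuotientGroup.mk a) x : Fin 11) : ℕ) = E2 (qof a) x) := by
  obtain ⟨φ₁, φ₂, -, -, h1, h2⟩ := exists_phi12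
  refine ⟨φ₁, φ₂, fun a x => ?_, fun a x => ?_⟩
  · have hg : tab T (mkSL (uu (r1 x)) (qdet_uu _)) = x := by
      rw [tab_eq, qof_mkSL]
      exact checkRep1 x
    rw [h1 a _ x hg, tab_eq, qof_mul, qof_mkSL]
    rfl
  · have hg : tab T' (mkSL (uu (r2 x)) (qdet_uu _)) = x := by
      rw [tab_eq, qof_mkSL]
      exact checkRep2 x
    rw [h2 a _ x hg, tab_eq, qof_mul, qof_mkSL]
    rfl

/-! ### The checks -/

/-- The quadruple of the identity. -/
def qone : Q11 := (1, 0, 0, 1)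
/-- The quadruple of minus the identity. -/
def qneg : Q11 := (-1, 0, 0, -1)

theorem checkTrans1 : ∀ x : Fin 11, E1 (uu (r1 x)) 0 = x := by decide +kernel
theorem checkTrans2 : ∀ x : Fin 11, E2 (uu (r2 x)) 0 = x := by decide +kernel

theorem checkStab1 : ∀ y : Fin 11, y ≠ 0 → ∃ a b c d : ZMod 11,
    qdet (a, b, c, d) = 1 ∧ E1 (a, b, c, d) 0 = 0 ∧ E1 (a, b, c, d) 1 = y := by decide +kernel

theorem checkStab2 : ∀ y : Fin 11, y ≠ 0 → ∃ a b c d : ZMod 11,
    qdet (a, b, c, d) = 1 ∧ E2 (a, b, c, d) 0 = 0 ∧ E2 (a, b, c, d) 1 = y := by decide +kernel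

theorem checkSep : ∀ i : Fin 11, ∃ a b c d : ZMod 11,
    qdet (a, b, c, d) = 1 ∧ E1 (a, b, c, d) i = i ∧ E2 (a, b, c, d) 0 ≠ 0 := by decide +kernel

/-- The orbit of length five of a stabilizer of the first action on the second. -/
def Om2 : Finset (Fin 11) := {0, 1, 2, 6, 9}
/-- The orbit of length five of a stabilizer of the second action on the first. -/
def Om1 : Finset (Fin 11) := {0, 1, 5, 8, 10}

theorem checkOm2 : ∀ a b c d : ZMod 11, qdet (a, b, c, d) = 1 → E1 (a, b, c, d) 0 = 0 →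
    (∀ j ∈ Om2, ∀ j' : Fin 11, (j' : ℕ) = E2 (a, b, c, d) j → j' ∈ Om2) ∧
    ((∀ j ∈ Om2, E2 (a, b, c, d) j = j) → (a, b, c, d) = qone ∨ (a, b, c, d) = qneg) := by
  decide +kernel

theorem checkOm1 : ∀ a b c d : ZMod 11, qdet (a, b, c, d) = 1 → E2 (a, b, c, d) 0 = 0 →
    (∀ j ∈ Om1, ∀ j' : Fin 11, (j' : ℕ) = E1 (a, b, c, d) j → j' ∈ Om1) ∧
    ((∀ j ∈ Om1, E1 (a, b, c, d) j = j) → (a, b, c, d) = qone ∨ (a, b, c, d) = qneg) := by
  decide +kernel

/-- Plus or minus the identity. -/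
def isPM (q : Q11) : Prop := q = qone ∨ q = qneg

instance : DecidablePred isPM := fun q => by unfold isPM; infer_instance

/-- A quadruple at least involutive modulo the centre. -/
def isT2 (q : Q11) : Prop := isPM (qmul q q) ∧ ¬ isPM q

instance : DecidablePred isT2 := fun q => by unfold isT2; infer_instance

/-- A quadruple of order three modulo the centre. -/
def isT3 (q : Q11) : Prop := isPM (qmul (qmul q q) q) ∧ ¬ isPM q

instance : DecidablePred isT3 := fun q => by unfold isT3; infer_instance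

/-- A quadruple of order dividing five modulo the centre. -/
def isT5 (q : Q11) : Prop :=
  isPM (qmul (qmul (qmul (qmul q q) q) q) q)

instance : DecidablePred isT5 := fun q => by unfold isT5; infer_instance

/-- The standard element of order four. -/
def qA0 : Q11 := (0, 1, -1, 0)

theorem checkConj : ∀ a b c d : ZMod 11, qdet (a, b, c, d) = 1 → isT2 (a, b, c, d) →
    ∃ x y z w : ZMod 11, qdet (x, y, z, w) = 1 ∧
      qmul (x, y, z, w) (a, b, c, d) = qmul qA0 (x, y, z, w) := by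
  decide +kernel

theorem checkPairs : ∀ a b c d : ZMod 11, qdet (a, b, c, d) = 1 → isT3 (a, b, c, d) →
      isT5 (qmul qA0 (a, b, c, d)) →
      ∃ i : Fin 11, (E1 qA0 i = i ∧ E1 (a, b, c, d) i = i) ∨
        (E2 qA0 i = i ∧ E2 (a, b, c, d) i = i) := by
  decide +kernel

end Cfsg.Agent.Lib.PSL211
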