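import Mathlib
import Cfsg.Agent.Lib.PSL211

/-!
# `PSL_2(11)`: the subgroups isomorphic to `A_5`, from the kernel checks of `Lib.PSL211`.
-/

set_option autoImplicit false
set_option linter.unusedSectionVars false

namespace Cfsg.Agent.Lib.PSL211

open Matrix Cfsg.Agent.Lib.SL2Table Cfsg.Agent.Lib.TableAction Cfsg.Agent.Lib.ClassicalSmall
open scoped Pointwise

theorem inv_app {α : Type*} (f : Equiv.Perm α) (x : α) : f⁻¹ (f x) = x := by simp
theorem app_inv {α : Type*} (f : Equiv.Perm α) (x : α) : f (f⁻¹ x) = x := by simp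

section General

variable {G X : Type*} [Group G] (φ : G →* Equiv.Perm X)

/-- The stabilizer of a point in a permutation representation. -/
def stabS (x : X) : Subgroup G := (MulAction.stabilizer (Equiv.Perm X) x).comap φ

theorem mem_stabS {g : G} {x : X} : g ∈ stabS φ x ↔ φ g x = x := Iff.rfl

/-- The map from cosets of a stabilizer to the points. -/
def cosetMap (x : X) : G ⧸ stabS φ x → X :=
  fun q => Quotient.liftOn' q (fun g => φ g x) (by
    intro a b hab
    have h : a⁻¹ * b ∈ stabS φ x := QuotientGroup.leftRel_apply.mp hab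
    rw [mem_stabS, map_mul, map_inv, Equiv.Perm.mul_apply, Equiv.Perm.inv_eq_iff_eq] at h
    exact h.symm)

theorem cosetMap_mk (x : X) (g : G) : cosetMap φ x (g : G ⧸ stabS φ x) = φ g x := rfl

theorem cosetMap_smul (x : X) (h : G) (q : G ⧸ stabS φ x) :
    cosetMap φ x (h • q) = φ h (cosetMap φ x q) := by
  induction q using QuotientGroup.induction_on with
  | H g =>
    rw [MulAction.Quotient.smul_coe, cosetMap_mk, cosetMap_mk, smul_eq_mul, map_mul,
      Equiv.Perm.mul_apply]

theorem cosetMap_injective (x : X) : Function.Injective (cosetMap φ x) := by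
  intro p q
  induction p using QuotientGroup.induction_on with
  | H a =>
    induction q using QuotientGroup.induction_on with
    | H b =>
      intro h
      rw [cosetMap_mk, cosetMap_mk] at h
      rw [QuotientGroup.eq, mem_stabS, map_mul, map_inv, Equiv.Perm.mul_apply,
        Equiv.Perm.inv_eq_iff_eq]
      exact h.symm

theorem cosetMap_surjective (x : X) (htr : ∀ y, ∃ g, φ g x = y) :
    Function.Surjective (cosetMap φ x) := by
  intro y
  obtain ⟨g, hg⟩ := htr y
  exact ⟨(g : G ⧸ stabS φ x), hg⟩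

theorem index_stabS [Finite X] (x : X) (htr : ∀ y, ∃ g, φ g x = y) :
    (stabS φ x).index = Nat.card X :=
  Nat.card_congr (Equiv.ofBijective _ ⟨cosetMap_injective φ x, cosetMap_surjective φ x htr⟩)

theorem conj_stabS (g : G) (x : X) : MulAut.conj g • stabS φ x = stabS φ (φ g x) := by
  ext h
  rw [Subgroup.mem_pointwise_smul_iff_inv_smul_mem, mem_stabS, mem_stabS, MulAut.smul_def,
    ← map_inv, MulAut.conj_apply, inv_inv, map_mul, map_mul, map_inv]
  simp only [Equiv.Perm.mul_apply]
  exact Equiv.Perm.inv_eq_iff_eq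

theorem two_pretransitive_quot (x : X) (htr : ∀ y, ∃ g, φ g x = y)
    (h2 : ∀ a b c d : X, a ≠ b → c ≠ d → ∃ g, φ g a = c ∧ φ g b = d) :
    MulAction.IsMultiplyPretransitive G (G ⧸ stabS φ x) 2 := by
  rw [MulAction.is_two_pretransitive_iff]
  intro a b c d hab hcd
  have hinj := cosetMap_injective φ x
  obtain ⟨g, h1, h2⟩ := h2 _ _ _ _ (hinj.ne hab) (hinj.ne hcd)
  refine ⟨g, hinj ?_, hinj ?_⟩
  · rw [cosetMap_smul, h1]
  · rw [cosetMap_smul, h2]

end General

/-! ### `A_5` is two-generated -/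

/-- An involution of `A_5`. -/
def al5 : alternatingGroup (Fin 5) :=
  ⟨Equiv.swap 0 1 * Equiv.swap 2 3, Equiv.Perm.mem_alternatingGroup.mpr (by decide)⟩

/-- An element of order three of `A_5`. -/
def be5 : alternatingGroup (Fin 5) :=
  ⟨Equiv.swap 0 2 * Equiv.swap 2 4, Equiv.Perm.mem_alternatingGroup.mpr (by decide)⟩

theorem al5_sq : al5 ^ 2 = 1 := by decide
theorem be5_cu : be5 ^ 3 = 1 := by decide
theorem ab5_qu : (al5 * be5) ^ 5 = 1 := by decide
theorem al5_ne : al5 ≠ 1 := by decide
theorem be5_ne : be5 ≠ 1 := by decide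
theorem ab5_ne : al5 * be5 ≠ 1 := by decide

theorem closure_al5_be5 : Subgroup.closure {al5, be5} = ⊤ := by
  set C := Subgroup.closure ({al5, be5} : Set (alternatingGroup (Fin 5))) with hC
  have ha : al5 ∈ C := Subgroup.subset_closure (by simp)
  have hb : be5 ∈ C := Subgroup.subset_closure (by simp)
  have hab : al5 * be5 ∈ C := C.mul_mem ha hb
  have h2 : 2 ∣ Nat.card C := by
    have : orderOf al5 = 2 := orderOf_eq_prime al5_sq al5_ne
    rw [← this]
    exact Subgroup.orderOf_dvd_natCard C ha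
  have h3 : 3 ∣ Nat.card C := by
    have : orderOf be5 = 3 := orderOf_eq_prime be5_cu be5_ne
    rw [← this]
    exact Subgroup.orderOf_dvd_natCard C hb
  have h5 : 5 ∣ Nat.card C := by
    haveI : Fact (Nat.Prime 5) := ⟨by norm_num⟩
    have h : orderOf (al5 * be5) = 5 := orderOf_eq_prime ab5_qu ab5_ne
    have := Subgroup.orderOf_dvd_natCard C hab
    rwa [h] at this
  have h30 : 30 ∣ Nat.card C := by
    have h6 : 6 ∣ Nat.card C := Nat.Coprime.mul_dvd_of_dvd_of_dvd (by norm_num) h2 h3
    exact Nat.Coprime.mul_dvd_of_dvd_of_dvd (m := 6) (n := 5) (by norm_num) h6 h5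
  have hcard : Nat.card C * C.index = 60 := by
    rw [Subgroup.card_mul_index, nat_card_alternatingGroup]
    simp [Nat.factorial]
  obtain ⟨k, hk⟩ := h30
  have hk0 : k ≠ 0 := by
    rintro rfl
    simp [hk] at hcard
  have hidx : C.index = 1 ∨ C.index = 2 := by
    rw [hk] at hcard
    have hk1 : k * C.index = 2 := by nlinarith
    have hd : C.index ∣ 2 := ⟨k, by rw [mul_comm]; exact hk1.symm⟩
    exact (Nat.dvd_prime Nat.prime_two).mp hd
  rcases hidx with h1 | h2
  · exact Subgroup.index_eq_one.mp h1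
  · have hn : C.Normal := Subgroup.normal_of_index_eq_two h2
    have : IsSimpleGroup (alternatingGroup (Fin 5)) :=
      alternatingGroup.isSimpleGroup (by simp)
    rcases hn.eq_bot_or_eq_top with h | h
    · exfalso
      rw [h, Subgroup.mem_bot] at ha
      exact al5_ne ha
    · exact h

/-! ### The uniform shape of the checks -/

/-- Both evaluated actions. -/
def EE : Bool → Q11 → Fin 11 → ℕ
  | false => E1
  | true => E2

/-- Both orbits. -/
def Om : Bool → Finset (Fin 11)
  | false => Om2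
  | true => Om1

theorem checkTrans (j : Bool) (x : Fin 11) : ∃ q : Q11, qdet q = 1 ∧ EE j q 0 = x := by
  cases j
  · exact ⟨_, qdet_uu _, checkTrans1 x⟩
  · exact ⟨_, qdet_uu _, checkTrans2 x⟩

theorem checkStab (j : Bool) (y : Fin 11) (hy : y ≠ 0) :
    ∃ q : Q11, qdet q = 1 ∧ EE j q 0 = 0 ∧ EE j q 1 = y := by
  cases j
  · obtain ⟨a, b, c, d, h⟩ := checkStab1 y hy
    exact ⟨(a, b, c, d), h⟩
  · obtain ⟨a, b, c, d, h⟩ := checkStab2 y hy
    exact ⟨(a, b, c, d), h⟩

theorem checkOm (j : Bool) (q : Q11) (h1 : qdet q = 1) (h2 : EE j q 0 = 0) :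
    (∀ k ∈ Om j, ∀ k' : Fin 11, (k' : ℕ) = EE (!j) q k → k' ∈ Om j) ∧
    ((∀ k ∈ Om j, EE (!j) q k = k) → isPM q) := by
  obtain ⟨a, b, c, d⟩ := q
  cases j
  · exact checkOm2 a b c d h1 h2
  · exact checkOm1 a b c d h1 h2

theorem checkPairs' (q : Q11) (h1 : qdet q = 1) (h3 : isT3 q) (h5 : isT5 (qmul qA0 q)) :
    ∃ (j : Bool) (i : Fin 11), EE j qA0 i = i ∧ EE j q i = i := by
  obtain ⟨a, b, c, d⟩ := q
  obtain ⟨i, h | h⟩ := checkPairs a b c d h1 h3 h5
  · exact ⟨false, i, h⟩
  · exact ⟨true, i, h⟩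

theorem card_Om (j : Bool) : (Om j).card = 5 := by
  cases j <;> decide

/-! ### The abstract setting -/

/-- A group presented as `SL_2(11)` modulo `±1`, with the two actions on eleven points. -/
structure Pres (G : Type*) [Group G] where
  /-- The projection. -/
  π : SpecialLinearGroup (Fin 2) (ZMod 11) →* G
  surj : Function.Surjective π
  ker : ∀ a, π a = 1 ↔ isPM (qof a)
  /-- The two actions. -/
  act : Bool → G →* Equiv.Perm (Fin 11)
  ev : ∀ j a x, ((act j (π a) x : Fin 11) : ℕ) = EE j (qof a) x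
  card : Nat.card G = 660

theorem exists_third : ∀ x y : Fin 11, ∃ z, z ≠ x ∧ z ≠ y := by decide

namespace Pres

variable {G : Type*} [Group G] (P : Pres G)

/-- Stabilizers in either action. -/
abbrev S (j : Bool) (x : Fin 11) : Subgroup G := stabS (P.act j) x

theorem exists_act (j : Bool) (q : Q11) (hq : qdet q = 1) :
    ∃ g : G, ∀ x, ((P.act j g x : Fin 11) : ℕ) = EE j q x :=
  ⟨P.π (mkSL q hq), fun x => by rw [P.ev, qof_mkSL]⟩

theorem act_trans0 (j : Bool) (x : Fin 11) : ∃ g, P.act j g 0 = x := by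
  obtain ⟨q, h1, h2⟩ := checkTrans j x
  obtain ⟨g, hg⟩ := P.exists_act j q h1
  exact ⟨g, Fin.ext ((hg 0).trans h2)⟩

theorem act_trans (j : Bool) (x y : Fin 11) : ∃ g, P.act j g x = y := by
  obtain ⟨g, hg⟩ := P.act_trans0 j x
  obtain ⟨h, hh⟩ := P.act_trans0 j y
  refine ⟨h * g⁻¹, ?_⟩
  rw [map_mul, map_inv, Equiv.Perm.mul_apply, ← hg, inv_app, hh]

theorem act_stab (j : Bool) (y : Fin 11) (hy : y ≠ 0) :
    ∃ g, P.act j g 0 = 0 ∧ P.act j g 1 = y := by
  obtain ⟨q, h1, h2, h3⟩ := checkStab j y hy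
  obtain ⟨g, hg⟩ := P.exists_act j q h1
  exact ⟨g, Fin.ext ((hg 0).trans h2), Fin.ext ((hg 1).trans h3)⟩

theorem act_two (j : Bool) (x y : Fin 11) (hxy : x ≠ y) :
    ∃ g, P.act j g 0 = x ∧ P.act j g 1 = y := by
  obtain ⟨g, hg⟩ := P.act_trans0 j x
  have hy : (P.act j g)⁻¹ y ≠ 0 := by
    intro h
    rw [Equiv.Perm.inv_eq_iff_eq] at h
    exact hxy (hg.symm.trans h.symm)
  obtain ⟨k, hk0, hk1⟩ := P.act_stab j _ hy
  refine ⟨g * k, ?_, ?_⟩
  · rw [map_mul, Equiv.Perm.mul_apply, hk0, hg]
  · rw [map_mul, Equiv.Perm.mul_apply, hk1, app_inv]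

theorem act_2trans (j : Bool) (a b c d : Fin 11) (hab : a ≠ b) (hcd : c ≠ d) :
    ∃ g, P.act j g a = c ∧ P.act j g b = d := by
  obtain ⟨g, hg0, hg1⟩ := P.act_two j a b hab
  obtain ⟨h, hh0, hh1⟩ := P.act_two j c d hcd
  refine ⟨h * g⁻¹, ?_, ?_⟩
  · rw [map_mul, map_inv, Equiv.Perm.mul_apply, ← hg0, inv_app, hh0]
  · rw [map_mul, map_inv, Equiv.Perm.mul_apply, ← hg1, inv_app, hh1]

theorem index_S (j : Bool) (x : Fin 11) : (P.S j x).index = 11 := by
  rw [index_stabS (P.act j) x (P.act_trans j x)]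
  simp

theorem card_S (j : Bool) (x : Fin 11) : Nat.card (P.S j x) = 60 := by
  have h := Subgroup.card_mul_index (P.S j x)
  rw [P.index_S, P.card] at h
  omega

theorem two_pre (j : Bool) (x : Fin 11) :
    MulAction.IsMultiplyPretransitive G (G ⧸ P.S j x) 2 :=
  two_pretransitive_quot (P.act j) x (P.act_trans j x) (P.act_2trans j)

/-- The stabilizer of `0` preserves the orbit in the other action. -/
theorem preserve (j : Bool) (g : G) (hg : g ∈ P.S j 0) (k : Fin 11) (hk : k ∈ Om j) :
    P.act (!j) g k ∈ Om j := by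
  obtain ⟨a, rfl⟩ := P.surj g
  have h0 : EE j (qof a) 0 = 0 := by
    have hg' : P.act j (P.π a) 0 = 0 := hg
    rw [← P.ev, hg']
    rfl
  exact (checkOm j (qof a) (qdet_qof a) h0).1 k hk _ (P.ev _ a k)

theorem faithful (j : Bool) (g : G) (hg : g ∈ P.S j 0)
    (hk : ∀ k ∈ Om j, P.act (!j) g k = k) : g = 1 := by
  obtain ⟨a, rfl⟩ := P.surj g
  have h0 : EE j (qof a) 0 = 0 := by
    have hg' : P.act j (P.π a) 0 = 0 := hg
    rw [← P.ev, hg']
    rfl
  rw [P.ker]
  refine (checkOm j (qof a) (qdet_qof a) h0).2 fun k hk' => ?_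
  rw [← P.ev, hk k hk']

theorem preserve_iff (j : Bool) (g : G) (hg : g ∈ P.S j 0) (k : Fin 11) :
    P.act (!j) g k ∈ Om j ↔ k ∈ Om j := by
  refine ⟨fun h => ?_, P.preserve j g hg k⟩
  have := P.preserve j g⁻¹ ((P.S j 0).inv_mem hg) _ h
  rwa [map_inv, inv_app] at this

/-- The restriction of the stabilizer to the orbit. -/
def res (j : Bool) : P.S j 0 →* Equiv.Perm {k : Fin 11 // k ∈ Om j} where
  toFun g := (P.act (!j) g).subtypePerm (P.preserve_iff j g g.2)
  map_one' := by
    ext k
    simp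
  map_mul' g h := by
    ext k
    simp
    rfl

theorem res_injective (j : Bool) : Function.Injective (P.res j) := by
  rw [injective_iff_map_eq_one]
  intro g hg
  apply Subtype.ext
  refine P.faithful j g g.2 fun k hk => ?_
  have := congrArg (fun σ : Equiv.Perm {k : Fin 11 // k ∈ Om j} => ((σ ⟨k, hk⟩ : {k // k ∈ Om j}) : Fin 11)) hg
  exact this

theorem S_zero_equiv (j : Bool) : Nonempty (P.S j 0 ≃* alternatingGroup (Fin 5)) := by
  refine nonempty_equiv_alternating 5 (P.res j) (P.res_injective j) ?_ ?_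
  · rw [Nat.card_eq_fintype_card, Fintype.card_coe, card_Om]
  · rw [P.card_S]
    rfl

theorem S_equiv (j : Bool) (x : Fin 11) : Nonempty (P.S j x ≃* alternatingGroup (Fin 5)) := by
  obtain ⟨g, hg⟩ := P.act_trans0 j x
  obtain ⟨e⟩ := P.S_zero_equiv j
  have h : MulAut.conj g • P.S j 0 = P.S j x := by
    rw [conj_stabS, hg]
  rw [← h]
  exact ⟨(Subgroup.equivSMul (MulAut.conj g) (P.S j 0)).symm.trans e⟩

/-- Stabilizers of distinct points are distinct. -/
theorem S_inj (j : Bool) {x y : Fin 11} (h : P.S j x = P.S j y) : x = y := by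
  by_contra hxy
  obtain ⟨z, hz1, hz2⟩ := exists_third x y
  obtain ⟨g, hg1, hg2⟩ := P.act_2trans j x y x z hxy hz1.symm
  have : g ∈ P.S j y := by
    rw [← h]
    exact hg1
  rw [mem_stabS, hg2] at this
  exact hz2 this

/-- Stabilizers in the first action are not conjugate to stabilizers of `0` in the second. -/
theorem S_sep0 (i : Fin 11) : P.S false i ≠ P.S true 0 := by
  intro h
  obtain ⟨a, b, c, d, h1, h2, h3⟩ := checkSep i
  have hg : P.π (mkSL (a, b, c, d) h1) ∈ P.S false i := by
    have : P.act false (P.π (mkSL (a, b, c, d) h1)) i = i := Fin.ext (by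
      rw [P.ev, qof_mkSL]
      exact h2)
    exact this
  rw [h] at hg
  apply h3
  have := P.ev true (mkSL (a, b, c, d) h1) 0
  rw [qof_mkSL] at this
  change ((P.act true (P.π (mkSL (a, b, c, d) h1)) 0 : Fin 11) : ℕ) = _ at this
  rw [mem_stabS] at hg
  rw [hg] at this
  exact this.symm

theorem S_sep (i i' : Fin 11) : P.S false i ≠ P.S true i' := by
  intro h
  obtain ⟨g, hg⟩ := P.act_trans true i' 0
  have h1 : MulAut.conj g • P.S false i = P.S false _ := conj_stabS (P.act false) g i
  have h2 : MulAut.conj g • P.S true i' = P.S true _ := conj_stabS (P.act true) g i'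
  rw [h, h2, hg] at h1
  exact P.S_sep0 _ h1.symm

/-- The classification of the subgroups isomorphic to `A_5`. -/
theorem classify (L : Subgroup G) (e : L ≃* alternatingGroup (Fin 5)) :
    ∃ j i, L = P.S j i := by
  set a : G := ((e.symm al5 : L) : G) with ha
  set b : G := ((e.symm be5 : L) : G) with hb
  have ha2 : a * a = 1 := by
    have : e.symm al5 * e.symm al5 = 1 := by rw [← map_mul, ← pow_two, al5_sq, map_one]
    exact congrArg Subtype.val this
  have ha1 : a ≠ 1 := fun h => al5_ne (e.symm.injective (by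
    rw [map_one]
    exact Subtype.ext h))
  have hb3 : b * b * b = 1 := by
    have : e.symm be5 * e.symm be5 * e.symm be5 = 1 := by
      rw [← map_mul, ← map_mul, ← pow_two, ← pow_succ, be5_cu, map_one]
    exact congrArg Subtype.val this
  have hb1 : b ≠ 1 := fun h => be5_ne (e.symm.injective (by
    rw [map_one]
    exact Subtype.ext h))
  have hab5 : (a * b) * (a * b) * (a * b) * (a * b) * (a * b) = 1 := by
    have : (e.symm al5 * e.symm be5) * (e.symm al5 * e.symm be5) * (e.symm al5 * e.symm be5) *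
        (e.symm al5 * e.symm be5) * (e.symm al5 * e.symm be5) = 1 := by
      rw [← map_mul]
      simp only [← pow_two, ← pow_succ]
      rw [← map_pow, ab5_qu, map_one]
    exact congrArg Subtype.val this
  obtain ⟨A, hA⟩ := P.surj a
  obtain ⟨B, hB⟩ := P.surj b
  have hT2 : isT2 (qof A) := by
    refine ⟨?_, fun h => ha1 ?_⟩
    · rw [← qof_mul]
      exact (P.ker _).1 (by rw [map_mul, hA, ha2])
    · rw [← hA]
      exact (P.ker A).2 h
  obtain ⟨x, y, z, w, hdet, hcomm⟩ := checkConj _ _ _ _ (qdet_qof A) hT2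
  set X := mkSL (x, y, z, w) hdet with hX
  have hq0 : qdet qA0 = 1 := by decide
  set A0 := mkSL qA0 hq0 with hA0
  have hXA : X * A = A0 * X := by
    apply qof_inj
    rw [qof_mul, qof_mul, hX, hA0, qof_mkSL, qof_mkSL]
    exact hcomm
  set xx := P.π X with hxx
  have hpiA0 : P.π A0 = xx * a * xx⁻¹ := by
    have := congrArg P.π hXA
    rw [map_mul, map_mul, hA, ← hxx] at this
    rw [this]
    group
  set B' := X * B * X⁻¹ with hB'
  have hpiB' : P.π B' = xx * b * xx⁻¹ := by
    rw [hB', map_mul, map_mul, map_inv, hB]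
  have hT3 : isT3 (qof B') := by
    refine ⟨?_, fun h => hb1 ?_⟩
    · rw [← qof_mul, ← qof_mul]
      refine (P.ker _).1 ?_
      rw [map_mul, map_mul, hpiB']
      have : xx * b * xx⁻¹ * (xx * b * xx⁻¹) * (xx * b * xx⁻¹) = xx * (b * b * b) * xx⁻¹ := by
        group
      rw [this, hb3]
      group
    · have := (P.ker B').2 h
      rw [hpiB'] at this
      have h2 : b = xx⁻¹ * (xx * b * xx⁻¹) * xx := by group
      rw [h2, this]
      group
  have hT5 : isT5 (qmul qA0 (qof B')) := by
    have hq : qof (A0 * B') = qmul qA0 (qof B') := by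
      rw [qof_mul A0 B']
      congr 1
    rw [← hq]
    unfold isT5
    rw [← qof_mul, ← qof_mul, ← qof_mul, ← qof_mul]
    refine (P.ker _).1 ?_
    have hC : P.π (A0 * B') = xx * (a * b) * xx⁻¹ := by
      rw [map_mul, hpiA0, hpiB']
      group
    have : xx * (a * b) * xx⁻¹ * (xx * (a * b) * xx⁻¹) * (xx * (a * b) * xx⁻¹) *
        (xx * (a * b) * xx⁻¹) * (xx * (a * b) * xx⁻¹) =
        xx * ((a * b) * (a * b) * (a * b) * (a * b) * (a * b)) * xx⁻¹ := by
      group
    rw [map_mul, map_mul, map_mul, map_mul, hC, this, hab5]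
    group
  obtain ⟨j, i, h1, h2⟩ := checkPairs' (qof B') (qdet_qof B') hT3 hT5
  have hfix0 : P.act j (P.π A0) i = i := Fin.ext (by
    rw [P.ev, hA0, qof_mkSL]
    exact h1)
  have hfixB : P.act j (P.π B') i = i := Fin.ext (by
    rw [P.ev]
    exact h2)
  set i' := P.act j xx⁻¹ i with hi'
  have hai' : P.act j a i' = i' := by
    have : a * xx⁻¹ = xx⁻¹ * P.π A0 := by
      rw [hpiA0]
      group
    rw [hi', ← Equiv.Perm.mul_apply, ← map_mul, this, map_mul, Equiv.Perm.mul_apply, hfix0]
  have hbi' : P.act j b i' = i' := by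
    have : b * xx⁻¹ = xx⁻¹ * P.π B' := by
      rw [hpiB']
      group
    rw [hi', ← Equiv.Perm.mul_apply, ← map_mul, this, map_mul, Equiv.Perm.mul_apply, hfixB]
  refine ⟨j, i', ?_⟩
  have hall : ∀ y : alternatingGroup (Fin 5), ((e.symm y : L) : G) ∈ P.S j i' := by
    let f : alternatingGroup (Fin 5) →* G := L.subtype.comp e.symm.toMonoidHom
    have htop : (P.S j i').comap f = ⊤ := by
      rw [eq_top_iff, ← closure_al5_be5, Subgroup.closure_le]
      rintro y (rfl | rfl)
      · exact hai'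
      · exact hbi'
    intro y
    have : y ∈ (P.S j i').comap f := by
      rw [htop]
      trivial
    exact this
  have hle : L ≤ P.S j i' := by
    intro l hl
    have := hall (e ⟨l, hl⟩)
    simpa using this
  haveI : Finite (P.S j i') := Nat.finite_of_card_ne_zero (by rw [P.card_S]; norm_num)
  apply Subgroup.eq_of_le_of_card_ge hle
  rw [P.card_S, Nat.card_congr e.toEquiv, nat_card_alternatingGroup]
  simp [Nat.factorial]

/-- Every subgroup isomorphic to `A_5` is conjugate to a point stabilizer of `0`. -/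
theorem conj_rep (L : Subgroup G) (hL : Nonempty (L ≃* alternatingGroup (Fin 5))) :
    ∃ g : G, MulAut.conj g • L = P.S false 0 ∨ MulAut.conj g • L = P.S true 0 := by
  obtain ⟨e⟩ := hL
  obtain ⟨j, i, rfl⟩ := P.classify L e
  obtain ⟨g, hg⟩ := P.act_trans j i 0
  refine ⟨g, ?_⟩
  rw [conj_stabS, hg]
  cases j
  · exact Or.inl rfl
  · exact Or.inr rfl

theorem not_conj (g : G) : MulAut.conj g • P.S false 0 ≠ P.S true 0 := by
  rw [conj_stabS]
  exact P.S_sep0 _

include P in
theorem card_A5_subgroups :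
    Nat.card {H : Subgroup G // Nonempty (H ≃* alternatingGroup (Fin 5))} = 22 := by
  let f : Bool × Fin 11 → {H : Subgroup G // Nonempty (H ≃* alternatingGroup (Fin 5))} :=
    fun p => ⟨P.S p.1 p.2, P.S_equiv p.1 p.2⟩
  have hf : Function.Bijective f := by
    constructor
    · rintro ⟨j, i⟩ ⟨j', i'⟩ h
      have h' : P.S j i = P.S j' i' := congrArg Subtype.val h
      cases j <;> cases j'
      · rw [P.S_inj false h']
      · exact absurd h' (P.S_sep i i')
      · exact absurd h'.symm (P.S_sep i' i)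
      · rw [P.S_inj true h']
    · rintro ⟨L, ⟨e⟩⟩
      obtain ⟨j, i, rfl⟩ := P.classify L e
      exact ⟨(j, i), rfl⟩
  rw [← Nat.card_congr (Equiv.ofBijective f hf)]
  simp

end Pres

/-! ### The instance -/

theorem mk_eq_one_iff (a : SpecialLinearGroup (Fin 2) (ZMod 11)) :
    ((a : G11) = 1) ↔ isPM (qof a) := by
  rw [QuotientGroup.eq_one_iff]
  constructor
  · intro h
    rcases center_cases h with rfl | rfl
    · left
      decide
    · right
      decide
  · rintro (h | h)
    · have : a = 1 := qof_inj (h.trans (by decide))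
      rw [this]
      exact Subgroup.one_mem _
    · have : a = gen2 none := qof_inj (h.trans (by decide))
      rw [this, Matrix.SpecialLinearGroup.mem_center_iff]
      refine ⟨-1, by decide, ?_⟩
      decide

/-- The presentation of `PSL_2(F)`, `F` of order eleven. -/
theorem exists_pres {F : Type*} [Field F] [Fintype F] (hF : Fintype.card F = 11) :
    Nonempty (Pres (ProjectiveSpecialLinearGroup (Fin 2) F)) := by
  have hp : Nat.Prime 11 := by norm_num
  let e : G11 ≃* ProjectiveSpecialLinearGroup (Fin 2) F :=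
    Cfsg.Agent.Lib.SLTransfer.pslEquiv (ZMod.ringEquivOfPrime F hp hF)
  obtain ⟨φ₁, φ₂, h1, h2⟩ := exists_phi_eval
  refine ⟨{ π := e.toMonoidHom.comp (QuotientGroup.mk' _)
            surj := ?_
            ker := ?_
            act := fun j => (match j with | false => φ₁ | true => φ₂).comp e.symm.toMonoidHom
            ev := ?_
            card := ?_ }⟩
  · exact e.surjective.comp (QuotientGroup.mk'_surjective _)
  · intro a
    rw [← mk_eq_one_iff]
    simp
  · intro j a x
    cases j
    · simpa [EE] using h1 a x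
    · simpa [EE] using h2 a x
  · have := card_PSL2 (F := F)
    rw [hF] at this
    norm_num at this
    omega

end Cfsg.Agent.Lib.PSL211
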