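import Mathlib
import Cfsg.Agent.Lib.PSL2Rec3

/-!
# The finite checks for the recognition of `PSL(2,p)`, `p = 7, 11, 13`.
-/

set_option autoImplicit false
set_option linter.style.haveILetI false

namespace Cfsg.Agent.Lib.PSL2RecData

open Cfsg.Agent.Lib.PSL2Rec Cfsg.Agent.Lib.SmallGroups2

/-- Logarithm table. -/
def dl11 : ZMod 11 → Bool × ℕ := fun i =>
  [(false, 0), (false, 0), (true, 0), (false, 4), (false, 1), (false, 2), (true, 4), (true, 3), (true, 1), (false, 3), (true, 2)].getD i.val (false, 0)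

theorem chk11 : Chk 11 dl11 0 := by
  unfold Chk tbl
  decide +kernel

theorem hdl11 : ∀ i : ZMod 11, i ≠ 0 → i = (if (dl11 i).1 then 2 else 1) * 4 ^ (dl11 i).2 := by
  decide +kernel

/-- Logarithm table. -/
def dl13 : ZMod 13 → Bool × ℕ := fun i =>
  [(false, 0), (false, 0), (true, 0), (false, 2), (false, 1), (true, 4), (true, 2), (true, 5), (true, 1), (false, 4), (false, 5), (true, 3), (false, 3)].getD i.val (false, 0)

theorem chk13 : Chk 13 dl13 0 := by
  unfold Chk tbl
  decide +kernel

theorem hdl13 : ∀ i : ZMod 13, i ≠ 0 → i = (if (dl13 i).1 then 2 else 1) * 4 ^ (dl13 i).2 := by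
  decide +kernel

theorem two11 : (2 : ZMod 11) ≠ 0 := by decide
theorem two13 : (2 : ZMod 13) ≠ 0 := by decide
theorem sq11 : (2 : ZMod 11) ^ 2 = 4 := by decide
theorem sq13 : (2 : ZMod 13) ^ 2 = 4 := by decide

/-- A unit square root. -/
def u2 (p : ℕ) [Fact p.Prime] (h : (2 : ZMod p) ≠ 0) : (ZMod p)ˣ := Units.mk0 2 h

theorem psl11 {G : Type*} [Group G] [Finite G] [IsSimpleGroup G] (hG : Nat.card G = 660)
    {F : Type*} [Field F] [Fintype F] (hF : Fintype.card F = 11) :
    Nonempty (G ≃* Matrix.ProjectiveSpecialLinearGroup (Fin 2) F) := by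
  haveI : Fact (Nat.Prime 11) := ⟨by norm_num⟩
  have hna : ¬ IsMulCommutative G := by
    apply not_isMulCommutative_of_not_prime
    rw [hG]
    norm_num
  have hc : Nat.card (Sylow 11 G) = 11 + 1 := by
    have h1 := card_sylow_mem_filter (G := G) (p := 11) (a := 1) (m := 60) (by rw [hG]; norm_num) (by norm_num) (by norm_num)
    have h2 : Nat.card (Sylow 11 G) ≠ 1 := card_sylow_ne_one hna (by rw [hG]; norm_num)
    have e : (Nat.divisors 60).filter (fun n => n % 11 = 1 % 11) = {1, 12} := by decide +kernel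
    rw [e] at h1
    simp only [Finset.mem_insert, Finset.mem_singleton] at h1
    omega
  have h20 : (2 : ZMod 11) ≠ 0 := two11
  refine recognize (p := 11) hna (by norm_num) (by rw [hG]; norm_num) hc 2 0 (u2 11 h20) h20 dl11 ?_ chk11 ?_ hF
  · have e : (((u2 11 h20) ^ 2 : (ZMod 11)ˣ) : ZMod 11) = 4 := by
      simp [u2]
      exact sq11
    rw [e]
    exact hdl11
  · intro L t _ _ k' hk'
    exact absurd hk' (Units.ne_zero _)

theorem psl13 {G : Type*} [Group G] [Finite G] [IsSimpleGroup G] (hG : Nat.card G = 1092)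
    {F : Type*} [Field F] [Fintype F] (hF : Fintype.card F = 13) :
    Nonempty (G ≃* Matrix.ProjectiveSpecialLinearGroup (Fin 2) F) := by
  haveI : Fact (Nat.Prime 13) := ⟨by norm_num⟩
  have hna : ¬ IsMulCommutative G := by
    apply not_isMulCommutative_of_not_prime
    rw [hG]
    norm_num
  have hc : Nat.card (Sylow 13 G) = 13 + 1 := by
    have h1 := card_sylow_mem_filter (G := G) (p := 13) (a := 1) (m := 84) (by rw [hG]; norm_num) (by norm_num) (by norm_num)
    have h2 : Nat.card (Sylow 13 G) ≠ 1 := card_sylow_ne_one hna (by rw [hG]; norm_num)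
    have e : (Nat.divisors 84).filter (fun n => n % 13 = 1 % 13) = {1, 14} := by decide +kernel
    rw [e] at h1
    simp only [Finset.mem_insert, Finset.mem_singleton] at h1
    omega
  have h20 : (2 : ZMod 13) ≠ 0 := two13
  refine recognize (p := 13) hna (by norm_num) (by rw [hG]; norm_num) hc 2 0 (u2 13 h20) h20 dl13 ?_ chk13 ?_ hF
  · have e : (((u2 13 h20) ^ 2 : (ZMod 13)ˣ) : ZMod 13) = 4 := by
      simp [u2]
      exact sq13
    rw [e]
    exact hdl13
  · intro L t _ _ k' hk'
    exact absurd hk' (Units.ne_zero _)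

end Cfsg.Agent.Lib.PSL2RecData
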