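import Mathlib
import Cfsg.Agent.Lib.PSUIdxQ

/-!
# Dimension five: the closure over the field of four elements, and the bound
-/

set_option autoImplicit false
set_option linter.unusedSectionVars false
set_option linter.unusedVariables false

namespace Cfsg.Agent.Lib.PSUIdx

open Matrix Cfsg Cfsg.Agent.Lib.HermForm Cfsg.Agent.Lib.FFNorm Cfsg.Agent.Lib.UnitaryE
  Cfsg.Agent.Lib.UnitarySU Cfsg.Agent.Lib.SUMinDeg
open Cfsg.Agent.Lib.PSU35A (cj mem_cj)

variable {F : Type*} [Field F] [Fintype F] {q n e : ℕ}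

section LiftFamily

variable (hF : Fintype.card F = q ^ 2) {α b : F} (hα : α ^ q * α = -1) (hb : b + b ^ q = -1)
include hF hα hb

/-- Moving a centre by a central lift. -/
lemma lift_family (he : 3 ≤ e) {K : Subgroup (SU (e + 2) F q)} (hS : Sg hF hα K = ⊤) {x y : F}
    {u : Fin e → F} (hz : mk3 α b x y u ∈ Cen hF K) (hu : u ≠ 0) {u' : Fin e → F} (hu' : u' ≠ 0)
    (hN : hermForm e F q u' u' = hermForm e F q u u) :
    ∃ t : F, mk3 α b (x + t * y) y u' ∈ Cen hF K := by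
  obtain ⟨l, hl⟩ := lev_trans hF he hu hu' hN.symm
  have hls : l ∈ Sg hF hα K := by rw [hS]; trivial
  obtain ⟨t, ht, hm⟩ := hls
  have h1 := Cen_act hF hm hz
  rw [act_mul, act_iota_mk3 hF hα, hl, EE_zero_eq_tau hF hα, act_tau hF (vE_iso hF hα) ht,
    mk3_v hF hα hb] at h1
  refine ⟨t, ?_⟩
  have h2 : mk3 α b (x + t * y) y u' = mk3 α b x y u' + (t * y) • vE α := by
    unfold mk3
    rw [add_smul]
    abel
  rw [h2]
  exact h1

/-- Isotropic vectors of the Levi factor are centres. -/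
lemma inc_mem_Cen_of_Sg (he : 3 ≤ e) {K : Subgroup (SU (e + 2) F q)} (hS : Sg hF hα K = ⊤)
    {x : Fin e → F} (hx : hermForm e F q x x = 0) (hx0 : x ≠ 0) : inc x ∈ Cen hF K := by
  refine ⟨?_, by rw [herm_inc hF]; exact hx, fun c hc => ?_⟩
  · intro h0
    apply hx0
    apply inc_injective
    rw [h0, inc_zero]
  · rw [← iota_tau hF hα hx hc]
    exact iota_tau_mem hF hα he hS hx hc

/-- A family of centres attached to a centre with non-zero plane and Levi parts. -/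
lemma exists_family (he : 3 ≤ e) {K : Subgroup (SU (e + 2) F q)} (hS : Sg hF hα K = ⊤) {x y : F}
    {u : Fin e → F} (hz : mk3 α b x y u ∈ Cen hF K) (hu : u ≠ 0) (hne : x ≠ 0 ∨ y ≠ 0) :
    ∃ f : Fˣ × Lev e F q (hermForm e F q u u) → Cen hF K, Function.Injective f ∧
      ∀ p, ∃ (x' y' : F) (u' : Fin e → F), (f p).1 = mk3 α b x' y' u' ∧ (x' ≠ 0 ∨ y' ≠ 0) ∧
        (y = 0 → y' = 0) ∧ (y ≠ 0 → y' ≠ 0) := by
  have hch : ∀ u' : Lev e F q (hermForm e F q u u), ∃ t : F, mk3 α b (x + t * y) y u'.1 ∈ Cen hF K :=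
    fun u' => lift_family hF hα hb he hS hz hu u'.2.1 u'.2.2
  choose t ht using hch
  refine ⟨fun p => ⟨mk3 α b (p.1 * (x + t p.2 * y)) (p.1 * y) ((p.1 : F) • p.2.1), ?_⟩, ?_, ?_⟩
  · rw [← smul_mk3]
    exact Cen_smul hF p.1.ne_zero (ht p.2)
  · intro p p' h
    obtain ⟨h1, h2, h3⟩ := mk3_inj hF hα hb (congrArg Subtype.val h)
    have hc : (p.1 : F) = p'.1 := by
      by_cases hy : y = 0
      · subst hy
        have hx : x ≠ 0 := hne.resolve_right (not_not.2 rfl)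
        simp only [mul_zero, add_zero] at h1
        exact mul_right_cancel₀ hx h1
      · exact mul_right_cancel₀ hy h2
    have hc' : p.1 = p'.1 := Units.ext hc
    rw [hc] at h3
    have h4 : p.2.1 = p'.2.1 := smul_right_injective _ p'.1.ne_zero h3
    exact Prod.ext hc' (Subtype.ext h4)
  · intro p
    refine ⟨_, _, _, rfl, ?_, ?_, ?_⟩
    · by_cases hy : y = 0
      · subst hy
        left
        have hx : x ≠ 0 := hne.resolve_right (not_not.2 rfl)
        simp only [mul_zero, add_zero]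
        exact mul_ne_zero p.1.ne_zero hx
      · right
        exact mul_ne_zero p.1.ne_zero hy
    · rintro rfl
      exact mul_zero _
    · intro hy
      exact mul_ne_zero p.1.ne_zero hy

/-- The count for one family. -/
theorem count_one (he : 3 ≤ e) {K : Subgroup (SU (e + 2) F q)} (hS : Sg hF hα K = ⊤) {x y : F}
    {u : Fin e → F} (hz : mk3 α b x y u ∈ Cen hF K) (hu : u ≠ 0) (hne : x ≠ 0 ∨ y ≠ 0) :
    Nat.card (IsoV e F q) + (q ^ 2 - 1) * Nat.card (Lev e F q (hermForm e F q u u)) ≤ Nat.card (Cen hF K) := by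
  classical
  have hcU : Nat.card Fˣ = q ^ 2 - 1 := by
    rw [Nat.card_eq_fintype_card, Fintype.card_units, hF]
  obtain ⟨f, hf, hf'⟩ := exists_family hF hα hb he hS hz hu hne
  let f₃ : IsoV e F q → Cen hF K := fun x => ⟨inc x.1, inc_mem_Cen_of_Sg hF hα hb he hS x.2.1 x.2.2⟩
  have hf₃ : Function.Injective f₃ := fun x x' h =>
    Subtype.ext (inc_injective (congrArg Subtype.val h))
  have hinc : ∀ w : Fin e → F, inc w = mk3 α b 0 0 w := by
    intro w
    unfold mk3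
    simp
  have hdisj : ∀ p p', f₃ p ≠ f p' := by
    intro p p' h
    obtain ⟨x', y', u', h1, h2, -⟩ := hf' p'
    have h3 : inc p.1 = (f p').1 := congrArg Subtype.val h
    rw [h1, hinc] at h3
    obtain ⟨h4, h5, -⟩ := mk3_inj hF hα hb h3
    rcases h2 with h2 | h2
    · exact h2 h4.symm
    · exact h2 h5.symm
  have hinj := Function.Injective.sumElim hf₃ hf hdisj
  have hle := Nat.card_le_card_of_injective _ hinj
  rw [Nat.card_sum, Nat.card_prod, hcU] at hle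
  exact hle

/-- The count for two families, one of them in the line of `v`. -/
theorem count_two (he : 3 ≤ e) {K : Subgroup (SU (e + 2) F q)} (hS : Sg hF hα K = ⊤) {x₁ x₂ y₂ : F}
    {u₁ u₂ : Fin e → F} (h₁ : mk3 α b x₁ 0 u₁ ∈ Cen hF K) (h₂ : mk3 α b x₂ y₂ u₂ ∈ Cen hF K)
    (hu₁ : u₁ ≠ 0) (hu₂ : u₂ ≠ 0) (hx₁ : x₁ ≠ 0) (hy₂ : y₂ ≠ 0) :
    Nat.card (IsoV e F q) + (q ^ 2 - 1) * Nat.card (Lev e F q (hermForm e F q u₁ u₁)) +
      (q ^ 2 - 1) * Nat.card (Lev e F q (hermForm e F q u₂ u₂)) ≤ Nat.card (Cen hF K) := by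
  classical
  have hcU : Nat.card Fˣ = q ^ 2 - 1 := by
    rw [Nat.card_eq_fintype_card, Fintype.card_units, hF]
  obtain ⟨f₁, hf₁, hf₁'⟩ := exists_family hF hα hb he hS h₁ hu₁ (Or.inl hx₁)
  obtain ⟨f₂, hf₂, hf₂'⟩ := exists_family hF hα hb he hS h₂ hu₂ (Or.inr hy₂)
  let f₃ : IsoV e F q → Cen hF K := fun x => ⟨inc x.1, inc_mem_Cen_of_Sg hF hα hb he hS x.2.1 x.2.2⟩
  have hf₃ : Function.Injective f₃ := fun x x' h =>
    Subtype.ext (inc_injective (congrArg Subtype.val h))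
  have hinc : ∀ w : Fin e → F, inc w = mk3 α b 0 0 w := by
    intro w
    unfold mk3
    simp
  have hdisj : ∀ p p', f₃ p ≠ f₁ p' := by
    intro p p' h
    obtain ⟨x', y', u', h1, h2, -⟩ := hf₁' p'
    have h3 : inc p.1 = (f₁ p').1 := congrArg Subtype.val h
    rw [h1, hinc] at h3
    obtain ⟨h4, h5, -⟩ := mk3_inj hF hα hb h3
    rcases h2 with h2 | h2
    · exact h2 h4.symm
    · exact h2 h5.symm
  have hinj := Function.Injective.sumElim hf₃ hf₁ hdisj
  have hdisj2 : ∀ p p', Sum.elim f₃ f₁ p ≠ f₂ p' := by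
    intro p p' h
    obtain ⟨x', y', u', h1, h2, -, h2'⟩ := hf₂' p'
    have hy' := h2' hy₂
    rcases p with p | p
    · have h3 : inc p.1 = (f₂ p').1 := congrArg Subtype.val h
      rw [h1, hinc] at h3
      obtain ⟨h4, h5, -⟩ := mk3_inj hF hα hb h3
      exact hy' h5.symm
    · obtain ⟨x'', y'', u'', h6, -, h7, -⟩ := hf₁' p
      have h3 : (f₁ p).1 = (f₂ p').1 := congrArg Subtype.val h
      rw [h1, h6] at h3
      obtain ⟨-, h5, -⟩ := mk3_inj hF hα hb h3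
      rw [h7 rfl] at h5
      exact hy' h5.symm
  have hinj2 := Function.Injective.sumElim hinj hf₂ hdisj2
  have hle := Nat.card_le_card_of_injective _ hinj2
  rw [Nat.card_sum, Nat.card_sum, Nat.card_prod, Nat.card_prod, hcU] at hle
  exact hle

end LiftFamily

section Closure32

variable (hF : Fintype.card F = 2 ^ 2) {α : F} (hα : α ^ 2 * α = -1)
include hF hα

/-- The closure theorem for `SU₅(2)`. -/
theorem closure_32 {K : Subgroup (SU (3 + 2) F 2)} (hS : Sg hF hα K = ⊤)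
    (hQK : ∀ y ∈ QQ hF hα 3, y ∈ K → y = 1)
    (hn : K.index * (2 ^ 2 - 1) < Nat.card (IsoV (3 + 2) F 2)) : False := by
  classical
  obtain ⟨b, hb⟩ : ∃ b : F, b + b ^ 2 = -1 :=
    exists_trace_eq hF (t := -1) (by rw [neg_pow_q hF, one_pow])
  have h2 : (2 : F) = 0 := two_eq_zero_of_two hF rfl
  have hodd : Odd (3 + 2) := by decide
  have he : 3 ≤ 3 := le_refl 3
  have hC := card_Cen_lt hF hα (by norm_num) hQK hn
  have hvC := vE_not_Cen hF hα hQK
  rw [card_IsoV_odd hF _ hodd] at hC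
  have hC1 : (2 ^ 2) ^ 3 * 2 * (2 ^ 2 - 1) = 384 := by norm_num
  have hC2 : (2 ^ (3 + 2) + 1) * (2 ^ (3 + 2 - 1) - 1) = 495 := by norm_num
  rw [hC1, hC2] at hC
  have hIso3 : Nat.card (IsoV 3 F 2) = 27 := by
    rw [card_IsoV_odd hF 3 (by decide)]
    norm_num
  have hLev : ∀ u : Fin 3 → F, 27 ≤ Nat.card (Lev 3 F 2 (hermForm 3 F 2 u u)) := by
    intro u
    have h1 := card_Lev_ge_odd hF (n := 3) (by decide) (hermForm 3 F 2 u u) (hermForm_conj hF u u)
    have h3 : (2 ^ 3 + 1) * (2 ^ (3 - 1) - 1) = 27 := by norm_num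
    rw [h3] at h1
    exact h1
  have hLev' : ∀ u : Fin 3 → F, hermForm 3 F 2 u u ≠ 0 → Nat.card (Lev 3 F 2 (hermForm 3 F 2 u u)) = 36 := by
    intro u hu
    rw [card_Lev_odd_ne hF (n := 3) (by decide) (hermForm_conj hF u u) hu]
    norm_num
  -- a Levi part of non-zero norm is impossible
  have hP2 : ∀ {x y : F} {u : Fin 3 → F}, mk3 α b x y u ∈ Cen hF K → hermForm 3 F 2 u u ≠ 0 → False := by
    intro x y u hz hN
    have hiso := iso_of_mem hF hα hb hz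
    have hne : x ≠ 0 ∨ y ≠ 0 := by
      by_contra hcon
      push Not at hcon
      rw [hcon.1, hcon.2] at hiso
      apply hN
      simpa using hiso
    have hu : u ≠ 0 := by
      rintro rfl
      exact hN (hermForm_zero_left _)
    have h1 := count_one hF hα hb he hS hz hu hne
    rw [hIso3, hLev' u hN] at h1
    have h3 : (2 ^ 2 - 1) = 3 := by norm_num
    rw [h3] at h1
    omega
  have hP3 : ∀ {x₁ x₂ y₂ : F} {u₁ u₂ : Fin 3 → F}, mk3 α b x₁ 0 u₁ ∈ Cen hF K → mk3 α b x₂ y₂ u₂ ∈ Cen hF K →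
      u₁ ≠ 0 → u₂ ≠ 0 → x₁ ≠ 0 → y₂ ≠ 0 → False := by
    intro x₁ x₂ y₂ u₁ u₂ h₁ h₂ hu₁ hu₂ hx₁ hy₂
    have h1 := count_two hF hα hb he hS h₁ h₂ hu₁ hu₂ hx₁ hy₂
    rw [hIso3] at h1
    have h3 := hLev u₁
    have h4 := hLev u₂
    have h5 : (2 ^ 2 - 1) = 3 := by norm_num
    rw [h5] at h1
    omega
  have hθ : (1 : F) + 1 ^ 2 = 0 := by
    rw [one_pow]
    linear_combination h2
  have hone : (1 : F) + 1 = 0 := by linear_combination h2
  -- the two basic configurations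
  have hcase0 : ∀ {v₁ v₂ : Fin 3 → F}, mk3 α b 0 1 v₁ ∈ Cen hF K → mk3 α b 1 1 v₂ ∈ Cen hF K → v₁ ≠ 0 →
      hermForm 3 F 2 v₂ v₁ = 0 → False := by
    intro v₁ v₂ h₁ h₂ hv₁ hγ
    have h3 := Cen_act hF (h₁.2.2 1 hθ) h₂
    rw [act_tau_mk3 hF hα hb h₁ hθ, hγ] at h3
    have e1 : (1 : F) + 1 * (1 * 1 ^ 2 + 1 * 0 ^ 2 + 0) * 0 = 1 := by ring
    have e2 : (1 : F) + 1 * (1 * 1 ^ 2 + 1 * 0 ^ 2 + 0) * 1 = 0 := by linear_combination h2
    have e3 : (1 : F) * (1 * 1 ^ 2 + 1 * 0 ^ 2 + 0) = 1 := by ring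
    rw [e1, e2, e3, one_smul] at h3
    by_cases hw : v₂ + v₁ = 0
    · rw [hw, mk3_vE hF hα hb] at h3
      exact hvC h3
    · exact hP3 h3 h₁ hw hv₁ one_ne_zero one_ne_zero
  have hpair : ∀ {v₁ v₂ : Fin 3 → F}, mk3 α b 0 1 v₁ ∈ Cen hF K → mk3 α b 1 1 v₂ ∈ Cen hF K → v₁ ≠ 0 → v₂ ≠ 0 →
      hermForm 3 F 2 v₁ v₁ = 0 → hermForm 3 F 2 v₂ v₂ = 0 → False := by
    intro v₁ v₂ h₁ h₂ hv₁ hv₂ hN₁ hN₂
    set γ := hermForm 3 F 2 v₂ v₁ with hγ
    have hγq : hermForm 3 F 2 v₁ v₂ = γ ^ 2 := (hermForm_conj hF v₂ v₁).symm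
    have h3 := Cen_act hF (h₁.2.2 1 hθ) h₂
    rw [act_tau_mk3 hF hα hb h₁ hθ, ← hγ] at h3
    have e1 : (1 : F) + 1 * (1 * 1 ^ 2 + 1 * 0 ^ 2 + γ) * 0 = 1 := by ring
    have e2 : (1 : F) + 1 * (1 * 1 ^ 2 + 1 * 0 ^ 2 + γ) * 1 = γ := by linear_combination h2
    rw [e1, e2] at h3
    have h4 := iso_of_mem hF hα hb h3
    by_cases hw : hermForm 3 F 2 (v₂ + (1 * (1 * 1 ^ 2 + 1 * 0 ^ 2 + γ)) • v₁)
        (v₂ + (1 * (1 * 1 ^ 2 + 1 * 0 ^ 2 + γ)) • v₁) = 0
    · rw [hw] at h4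
      have h5 : γ * (γ + 1) = 0 := by linear_combination h4
      rcases mul_eq_zero.1 h5 with h6 | h6
      · exact hcase0 h₁ h₂ hv₁ h6
      · -- `γ = 1`
        have hγ1 : γ = 1 := by linear_combination h6 - h2
        have hγq' : hermForm 3 F 2 v₁ v₂ = 1 := by rw [hγq, hγ1, one_pow]
        set x := v₁ + v₂ with hx
        have hxx : hermForm 3 F 2 x x = 0 := by
          rw [hx, hermForm_add_left, hermForm_add_right hF, hermForm_add_right hF, hN₁, hN₂, hγq', ← hγ, hγ1]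
          linear_combination h2
        have hx0 : x ≠ 0 := by
          intro h0
          have h7 : v₂ = -v₁ := by
            rw [hx] at h0
            rw [eq_neg_iff_add_eq_zero, add_comm]
            exact h0
          have h8 : hermForm 3 F 2 v₂ v₁ = 0 := by
            rw [h7]
            have : (-v₁ : Fin 3 → F) = (-1 : F) • v₁ := by simp
            rw [this, hermForm_smul_left, hN₁, mul_zero]
          rw [← hγ, hγ1] at h8
          exact one_ne_zero h8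
        have hi := inc_mem_Cen_of_Sg hF hα hb he hS hxx hx0
        have h9 := Cen_act hF (hi.2.2 1 hθ) h₁
        rw [act_tau hF hi.2.1 hθ, mk3_inc hF hα hb, hx, hermForm_add_right hF, hN₁, hγq'] at h9
        have h10 : mk3 α b 0 1 v₁ + (1 * (0 + 1) : F) • inc (v₁ + v₂) = mk3 α b 0 1 v₂ := by
          unfold mk3
          rw [inc_add]
          have h11 : inc v₁ + inc v₁ = 0 := by
            rw [← inc_add]
            have : v₁ + v₁ = (2 : F) • v₁ := by rw [two_smul]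
            rw [this, h2, zero_smul, inc_zero]
          have h12 : (1 * (0 + 1) : F) = 1 := by ring
          rw [h12]
          simp only [one_smul]
          calc _ = (0 : F) • vE α + wE α b + inc v₂ + (inc v₁ + inc v₁) := by abel
            _ = _ := by rw [h11, add_zero]
        rw [h10] at h9
        exact hcase0 h9 h₂ hv₂ hN₂
    · exact hP2 h3 hw
  -- the core
  have hcore : ∀ {x₁ y₁ x₂ y₂ : F} {u₁ u₂ : Fin 3 → F}, mk3 α b x₁ y₁ u₁ ∈ Cen hF K → mk3 α b x₂ y₂ u₂ ∈ Cen hF K →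
      u₁ ≠ 0 → u₂ ≠ 0 → x₁ * y₂ ≠ x₂ * y₁ → False := by
    intro x₁ y₁ x₂ y₂ u₁ u₂ h₁ h₂ hu₁ hu₂ hnp
    have hN₁ : hermForm 3 F 2 u₁ u₁ = 0 := by
      by_contra h
      exact hP2 h₁ h
    have hN₂ : hermForm 3 F 2 u₂ u₂ = 0 := by
      by_contra h
      exact hP2 h₂ h
    by_cases hy₁ : y₁ = 0
    · subst hy₁
      have hx₁ : x₁ ≠ 0 := by
        rintro rfl
        apply hnp
        ring
      have hy₂ : y₂ ≠ 0 := by
        rintro rfl
        apply hnp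
        ring
      exact hP3 h₁ h₂ hu₁ hu₂ hx₁ hy₂
    by_cases hy₂ : y₂ = 0
    · subst hy₂
      have hx₂ : x₂ ≠ 0 := by
        rintro rfl
        apply hnp
        ring
      exact hP3 h₂ h₁ hu₂ hu₁ hx₂ hy₁
    -- normalising
    have hnorm : ∀ {x y : F} {u : Fin 3 → F}, mk3 α b x y u ∈ Cen hF K → u ≠ 0 → hermForm 3 F 2 u u = 0 → y ≠ 0 →
        ((x / y = 0 ∨ x / y = 1) ∧ mk3 α b (x / y) 1 (y⁻¹ • u) ∈ Cen hF K ∧ y⁻¹ • u ≠ 0 ∧
          hermForm 3 F 2 (y⁻¹ • u) (y⁻¹ • u) = 0) := by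
      intro x y u hz hu hN hy
      have h3 := Cen_smul hF (inv_ne_zero hy) hz
      rw [smul_mk3, inv_mul_cancel₀ hy] at h3
      have h4 : y⁻¹ * x = x / y := by field_simp
      rw [h4] at h3
      have hN' : hermForm 3 F 2 (y⁻¹ • u) (y⁻¹ • u) = 0 := by
        rw [hermForm_smul_left, hermForm_smul_right, hN]
        ring
      have h5 := iso_of_mem hF hα hb h3
      rw [hN'] at h5
      have h6 : (x / y) * (x / y + 1) = 0 := by linear_combination h5
      refine ⟨?_, h3, smul_ne_zero (inv_ne_zero hy) hu, hN'⟩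
      rcases mul_eq_zero.1 h6 with h7 | h7
      · left
        exact h7
      · right
        linear_combination h7 - h2
    obtain ⟨hs₁, hz₁, hv₁, hNv₁⟩ := hnorm h₁ hu₁ hN₁ hy₁
    obtain ⟨hs₂, hz₂, hv₂, hNv₂⟩ := hnorm h₂ hu₂ hN₂ hy₂
    have hne : x₁ / y₁ ≠ x₂ / y₂ := by
      intro h
      apply hnp
      field_simp at h
      linear_combination h
    rcases hs₁ with hs₁ | hs₁ <;> rcases hs₂ with hs₂ | hs₂
    · exact hne (hs₁.trans hs₂.symm)
    · rw [hs₁] at hz₁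
      rw [hs₂] at hz₂
      exact hpair hz₁ hz₂ hv₁ hv₂ hNv₁ hNv₂
    · rw [hs₁] at hz₁
      rw [hs₂] at hz₂
      exact hpair hz₂ hz₁ hv₂ hv₁ hNv₂ hNv₁
    · exact hne (hs₁.trans hs₂.symm)
  refine closure_prop hF hα (by norm_num) hodd hb
    (fun x hx hx0 => inc_mem_Cen_of_Sg hF hα hb he hS hx hx0) hQK hn ?_
  intro x₁ y₁ x₂ y₂ u₁ u₂ h₁ h₂
  by_contra hnp
  by_cases hu₁ : u₁ = 0
  · subst hu₁
    by_cases hu₂ : u₂ = 0
    · subst hu₂
      exact hvC (pure_pair hF hα hb h₁ h₂ hnp)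
    · obtain ⟨x₃, y₃, h₃, hnp'⟩ := mixed_partner hF hα hb h₁ h₂ hnp
      exact hcore h₂ h₃ hu₂ hu₂ hnp'
  · by_cases hu₂ : u₂ = 0
    · subst hu₂
      obtain ⟨x₃, y₃, h₃, hnp'⟩ := mixed_partner hF hα hb h₂ h₁ (Ne.symm hnp)
      exact hcore h₁ h₃ hu₁ hu₁ hnp'
    · exact hcore h₁ h₂ hu₁ hu₂ hnp

end Closure32

end Cfsg.Agent.Lib.PSUIdx
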