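import Mathlib
import Cfsg.Agent.Lib.PSUIdxR

/-!
# Dimension five: the bound
-/

set_option autoImplicit false
set_option linter.unusedSectionVars false
set_option linter.unusedVariables false

namespace Cfsg.Agent.Lib.PSUIdx

open Matrix Cfsg Cfsg.Agent.Lib.HermForm Cfsg.Agent.Lib.FFNorm Cfsg.Agent.Lib.UnitaryE
  Cfsg.Agent.Lib.UnitarySU Cfsg.Agent.Lib.SUMinDeg
open Cfsg.Agent.Lib.PSU35A (cj mem_cj)

variable {F : Type*} [Field F] [Fintype F] {q n e : ℕ}

section Arith5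

lemma N5_le_A {q : ℕ} (hq : 2 ≤ q) : (q ^ 5 + 1) * (q ^ 2 + 1) ≤ q ^ 5 * (q ^ 3 + 1) := by
  obtain ⟨p, rfl⟩ : ∃ p, q = p + 2 := ⟨q - 2, by omega⟩
  ring_nf
  linarith [Nat.zero_le p, Nat.zero_le (p ^ 2), Nat.zero_le (p ^ 3), Nat.zero_le (p ^ 4), Nat.zero_le (p ^ 5),
    Nat.zero_le (p ^ 6), Nat.zero_le (p ^ 7), Nat.zero_le (p ^ 8)]

lemma N5_le_B {q : ℕ} (hq : 2 ≤ q) : (q ^ 5 + 1) * (q ^ 2 + 1) ≤ 2 * (q ^ 4 * (q ^ 3 + 1)) := by
  obtain ⟨p, rfl⟩ : ∃ p, q = p + 2 := ⟨q - 2, by omega⟩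
  ring_nf
  linarith [Nat.zero_le p, Nat.zero_le (p ^ 2), Nat.zero_le (p ^ 3), Nat.zero_le (p ^ 4), Nat.zero_le (p ^ 5),
    Nat.zero_le (p ^ 6), Nat.zero_le (p ^ 7)]

lemma N5_le_C {q : ℕ} (hq : 2 ≤ q) : (q ^ 5 + 1) * (q ^ 2 + 1) ≤ q ^ 3 * (q ^ 3 + 1) * (q + 2) := by
  obtain ⟨p, rfl⟩ : ∃ p, q = p + 2 := ⟨q - 2, by omega⟩
  ring_nf
  linarith [Nat.zero_le p, Nat.zero_le (p ^ 2), Nat.zero_le (p ^ 3), Nat.zero_le (p ^ 4), Nat.zero_le (p ^ 5),
    Nat.zero_le (p ^ 6), Nat.zero_le (p ^ 7)]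

lemma N5_le_E {q : ℕ} (hq : 2 ≤ q) :
    (q ^ 5 + 1) * (q ^ 2 + 1) ≤ 4 * (q * (q * ((q ^ 2 - 1) * (q ^ 3 + 1)))) := by
  obtain ⟨p, rfl⟩ : ∃ p, q = p + 2 := ⟨q - 2, by omega⟩
  have e : (p + 2) ^ 2 - 1 = p ^ 2 + 4 * p + 3 := Nat.sub_eq_of_eq_add (by ring)
  rw [e]
  ring_nf
  linarith [Nat.zero_le p, Nat.zero_le (p ^ 2), Nat.zero_le (p ^ 3), Nat.zero_le (p ^ 4), Nat.zero_le (p ^ 5),
    Nat.zero_le (p ^ 6), Nat.zero_le (p ^ 7)]

lemma N5_le_F {q : ℕ} (hq : 2 ≤ q) :
    (q ^ 5 + 1) * (q ^ 2 + 1) * (q ^ 3 - 1) ≤ q ^ 3 * (q + 2) * (q * ((q ^ 2 - 1) * (q ^ 3 + 1))) := by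
  obtain ⟨p, rfl⟩ : ∃ p, q = p + 2 := ⟨q - 2, by omega⟩
  have e : (p + 2) ^ 2 - 1 = p ^ 2 + 4 * p + 3 := Nat.sub_eq_of_eq_add (by ring)
  have e' : (p + 2) ^ 3 - 1 = p ^ 3 + 6 * p ^ 2 + 12 * p + 7 := Nat.sub_eq_of_eq_add (by ring)
  rw [e, e']
  ring_nf
  linarith [Nat.zero_le p, Nat.zero_le (p ^ 2), Nat.zero_le (p ^ 3), Nat.zero_le (p ^ 4), Nat.zero_le (p ^ 5),
    Nat.zero_le (p ^ 6), Nat.zero_le (p ^ 7), Nat.zero_le (p ^ 8), Nat.zero_le (p ^ 9), Nat.zero_le (p ^ 10)]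

lemma N5_le_G {q : ℕ} (hq : 2 ≤ q) :
    (q ^ 5 + 1) * (q ^ 2 + 1) ≤ q ^ 3 * ((q ^ 2 - 1) * (q ^ 3 + 1)) := by
  obtain ⟨p, rfl⟩ : ∃ p, q = p + 2 := ⟨q - 2, by omega⟩
  have e : (p + 2) ^ 2 - 1 = p ^ 2 + 4 * p + 3 := Nat.sub_eq_of_eq_add (by ring)
  rw [e]
  ring_nf
  linarith [Nat.zero_le p, Nat.zero_le (p ^ 2), Nat.zero_le (p ^ 3), Nat.zero_le (p ^ 4), Nat.zero_le (p ^ 5),
    Nat.zero_le (p ^ 6), Nat.zero_le (p ^ 7), Nat.zero_le (p ^ 8)]

lemma N5_le_H {q : ℕ} (hq : 3 ≤ q) :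
    2 * ((q ^ 5 + 1) * (q ^ 2 + 1)) ≤ q ^ 3 * ((q ^ 2 - 1) * (q ^ 3 + 1)) := by
  obtain ⟨p, rfl⟩ : ∃ p, q = p + 3 := ⟨q - 3, by omega⟩
  have e : (p + 3) ^ 2 - 1 = p ^ 2 + 6 * p + 8 := Nat.sub_eq_of_eq_add (by ring)
  rw [e]
  ring_nf
  linarith [Nat.zero_le p, Nat.zero_le (p ^ 2), Nat.zero_le (p ^ 3), Nat.zero_le (p ^ 4), Nat.zero_le (p ^ 5),
    Nat.zero_le (p ^ 6), Nat.zero_le (p ^ 7), Nat.zero_le (p ^ 8)]

lemma N5_le_I {q : ℕ} (hq : 2 ≤ q) : (q ^ 5 + 1) * (q ^ 2 + 1) ≤ 2 * q ^ 7 := by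
  obtain ⟨p, rfl⟩ : ∃ p, q = p + 2 := ⟨q - 2, by omega⟩
  ring_nf
  linarith [Nat.zero_le p, Nat.zero_le (p ^ 2), Nat.zero_le (p ^ 3), Nat.zero_le (p ^ 4), Nat.zero_le (p ^ 5),
    Nat.zero_le (p ^ 6), Nat.zero_le (p ^ 7)]

lemma N5_le_J {q : ℕ} (hq : 2 ≤ q) : (q ^ 5 + 1) * (q ^ 2 + 1) ≤ q ^ 6 * (q + 2) := by
  obtain ⟨p, rfl⟩ : ∃ p, q = p + 2 := ⟨q - 2, by omega⟩
  ring_nf
  linarith [Nat.zero_le p, Nat.zero_le (p ^ 2), Nat.zero_le (p ^ 3), Nat.zero_le (p ^ 4), Nat.zero_le (p ^ 5),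
    Nat.zero_le (p ^ 6), Nat.zero_le (p ^ 7)]

lemma X5_fac {q : ℕ} (hq : 2 ≤ q) : q ^ 4 - 1 = (q ^ 2 + 1) * (q ^ 2 - 1) := by
  have h1 : 1 ≤ q ^ 2 := Nat.one_le_pow _ _ (by omega)
  obtain ⟨r, hr⟩ : ∃ r, q ^ 2 = r + 1 := ⟨q ^ 2 - 1, by omega⟩
  have h4 : q ^ 4 = (q ^ 2) ^ 2 := by ring
  rw [h4, hr]
  have : (r + 1) ^ 2 - 1 = (r + 1 + 1) * r := Nat.sub_eq_of_eq_add (by ring)
  rw [this]
  simp

end Arith5

section Base

variable (hF : Fintype.card F = q ^ 2) {α : F} (hα : α ^ q * α = -1)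
include hF hα

/-- The bound in `SU₅(q)` when a transvection at `v` is missing. -/
theorem base5 (K : Subgroup (SU (3 + 2) F q)) {c : F} (hc : c + c ^ q = 0)
    (hcK : EE (e := 3) hF α 0 c ∉ K) : (q ^ 5 + 1) * (q ^ 4 - 1) ≤ K.index * (q ^ 2 - 1) := by
  classical
  by_contra hn
  push Not at hn
  have hq := two_le hF
  have hq0 : 0 < q := by omega
  have hq21 : 1 < q ^ 2 := Nat.one_lt_pow (by norm_num) (by omega)
  obtain ⟨k, hk1, hk, H⟩ := mi_param hF hα K (by norm_num) hc hcK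
  have hr2 := card_sq_le_top hF hc (Z := ZZ hF hα K) (fun h => hcK h.2)
    (fun y hy y' hy' => comm_mem_ZZ hF hα hy' hy)
  have hLY : ∀ l ∈ KK hF hα K, ∀ y ∈ YY hF hα K, act l y ∈ YY hF hα K :=
    fun l hl y hy => YY_inv hF hα hl hy
  have hB : ∀ y ∈ YY hF hα K, ∀ y' ∈ YY hF hα K, hermForm 3 F q y' y - hermForm 3 F q y y' ∈ ZZ hF hα K :=
    fun y hy y' hy' => comm_mem_ZZ hF hα hy' hy
  have hc₁ : c ∉ ZZ hF hα K := fun h => hcK h.2
  have hX : (q ^ 5 + 1) * (q ^ 4 - 1) = ((q ^ 5 + 1) * (q ^ 2 + 1)) * (q ^ 2 - 1) := by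
    rw [X5_fac hq]
    ring
  have hodd : Odd (3 + 2) := by decide
  have hIso : Nat.card (IsoV (3 + 2) F q) = (q ^ 5 + 1) * (q ^ 4 - 1) := card_IsoV_odd hF _ hodd
  set N := (q ^ 5 + 1) * (q ^ 2 + 1) with hN
  set r := Nat.card (YY hF hα K) with hr
  set z := Nat.card (ZZ hF hα K) with hz
  set m := K.index with hm
  set i := (KK hF hα K).index with hi
  have hmN : m < N := by
    rw [hX] at hn
    exact Nat.lt_of_mul_lt_mul_right hn
  have hz1 : 1 ≤ z := Nat.card_pos
  have hr1 : 1 ≤ r := Nat.card_pos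
  have hi1 : 1 ≤ i := Nat.pos_of_ne_zero Subgroup.index_ne_zero_of_finite
  have hQ : (q ^ 2) ^ 3 * q = q ^ 7 := by ring
  have hG1 : (q ^ 2) ^ 3 * q * i ≤ m * r := G1_of (q := q) hq0 hk1 hz1 H hk
  rw [hQ] at hG1
  have hrq : r ≤ q ^ 3 := by
    by_contra hcon
    push Not at hcon
    have h5 : (q ^ 3) ^ 2 < r ^ 2 := Nat.pow_lt_pow_left hcon (by norm_num)
    have h6 : (q ^ 3) ^ 2 = (q ^ 2) ^ 3 := by ring
    omega
  by_cases hY : ∃ y ∈ YY hF hα K, y ≠ 0
  · -- `Y ≠ 0`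
    obtain ⟨y₀, hy₀, hy₀0⟩ := hY
    have hone := one_step hF hLY hy₀ hy₀0
    rw [← hr, ← hi] at hone
    have hone' : (q ^ 3 + 1) * (q ^ 2 - 1) ≤ (r - 1) * i := by omega
    have hdi := card_dichotomy hF (Y := YY hF hα K) hrq
    rw [← hr] at hdi
    have hκ : ZZ hF hα K = ⊥ → ∀ y ∈ YY hF hα K, ∀ y' ∈ YY hF hα K, hermForm 3 F q y y' = hermForm 3 F q y' y := by
      intro hZ y hy y' hy'
      have h3 := comm_mem_ZZ hF hα hy hy'
      rw [hZ, AddSubgroup.mem_bot] at h3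
      exact sub_eq_zero.1 h3
    have hZb : z = 1 → ZZ hF hα K = ⊥ := fun h => AddSubgroup.eq_bot_of_card_eq _ h
    rcases trichotomy hF ⟨y₀, hy₀, hy₀0⟩ with ⟨a, ha, b, hb, hNa, hd⟩ | ⟨x, hx, hx0, hxx, hperp⟩ | hT3
    · -- a non-degenerate pair
      have hT1 := T1_bound hF hLY hc hc₁ hB ha hb hNa hd
      rw [← hi] at hT1
      set Cl := Nat.card {y : YY hF hα K // hermForm 3 F q y.1 y.1 = hermForm 3 F q a a} with hCl
      have hCl1 : Cl + 1 ≤ r := by
        rw [hCl, ← Finite.card_option (α := {y : YY hF hα K // hermForm 3 F q y.1 y.1 = hermForm 3 F q a a})]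
        refine Nat.card_le_card_of_injective (fun o => match o with
          | none => (0 : YY hF hα K)
          | some z => z.1) ?_
        rintro (_ | ⟨z, hz⟩) (_ | ⟨z', hz'⟩) h
        · rfl
        · exfalso
          have h4 : (0 : YY hF hα K) = z' := h
          rw [← h4] at hz'
          apply hNa
          rw [← hz']
          exact hermForm_zero_left _
        · exfalso
          have h4 : z = (0 : YY hF hα K) := h
          rw [h4] at hz
          apply hNa
          rw [← hz]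
          exact hermForm_zero_left _
        · have h4 : z = z' := h
          subst h4
          rfl
      rcases hdi with hr3 | hr3
      · by_cases hz' : z = 1
        · -- the real case
          have hκ' := hκ (hZb hz')
          have hcl : ∀ t : F, t ^ q = t → ∀ y ∈ YY hF hα K, t • y ∈ YY hF hα K :=
            fun t ht y hy => Fq_closed hF hκ' (by rw [← hr, hr3]) ht hy
          have hm4 : q ^ 4 * i ≤ m := by
            rw [hr3] at hG1
            have h5 : (q ^ 4 * i) * q ^ 3 ≤ m * q ^ 3 := by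
              calc _ = q ^ 7 * i := by ring
                _ ≤ _ := hG1
            exact Nat.le_of_mul_le_mul_right h5 (by positivity)
          by_cases h2 : (2 : F) = 0
          · have hl := level_fibre hF hκ' hcl ha (hermForm 3 F q a a) (n₀ := 1) (fun w =>
              roots_one_aux h2 hNa (by rw [h2]; ring))
            rw [← hCl, ← hr, hr3, one_mul] at hl
            have hl' : Cl ≤ q ^ 2 := by
              have h5 : Cl * q ≤ q ^ 2 * q := by
                calc _ ≤ _ := hl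
                  _ = _ := by ring
              exact Nat.le_of_mul_le_mul_right h5 hq0
            have h6 : q * ((q ^ 2 - 1) * (q ^ 3 + 1)) ≤ q ^ 2 * i := hT1.trans (Nat.mul_le_mul_right _ hl')
            have h7 : (q ^ 2 - 1) * (q ^ 3 + 1) ≤ q * i := by
              have h8 : q * ((q ^ 2 - 1) * (q ^ 3 + 1)) ≤ q * (q * i) := by
                calc _ ≤ _ := h6
                  _ = _ := by ring
              exact Nat.le_of_mul_le_mul_left h8 hq0
            have h8 : q ^ 3 * ((q ^ 2 - 1) * (q ^ 3 + 1)) ≤ m := by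
              calc _ ≤ q ^ 3 * (q * i) := Nat.mul_le_mul_left _ h7
                _ = q ^ 4 * i := by ring
                _ ≤ m := hm4
            have h9 := N5_le_G hq
            omega
          · have hq3 : 3 ≤ q := by
              by_contra hcon
              have : q = 2 := by omega
              exact h2 (two_eq_zero_of_two hF this)
            have hl := level_fibre hF hκ' hcl ha (hermForm 3 F q a a) (n₀ := 2) (fun w => roots_two_aux hNa)
            rw [← hCl, ← hr, hr3] at hl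
            have hl' : Cl ≤ 2 * q ^ 2 := by
              have h5 : Cl * q ≤ (2 * q ^ 2) * q := by
                calc _ ≤ _ := hl
                  _ = _ := by ring
              exact Nat.le_of_mul_le_mul_right h5 hq0
            have h6 : q * ((q ^ 2 - 1) * (q ^ 3 + 1)) ≤ (2 * q ^ 2) * i := hT1.trans (Nat.mul_le_mul_right _ hl')
            have h7 : (q ^ 2 - 1) * (q ^ 3 + 1) ≤ 2 * q * i := by
              have h8 : q * ((q ^ 2 - 1) * (q ^ 3 + 1)) ≤ q * (2 * q * i) := by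
                calc _ ≤ _ := h6
                  _ = _ := by ring
              exact Nat.le_of_mul_le_mul_left h8 hq0
            have h8 : q ^ 3 * ((q ^ 2 - 1) * (q ^ 3 + 1)) ≤ 2 * m := by
              calc _ ≤ q ^ 3 * (2 * q * i) := Nat.mul_le_mul_left _ h7
                _ = 2 * (q ^ 4 * i) := by ring
                _ ≤ 2 * m := Nat.mul_le_mul_left _ hm4
            have h9 := N5_le_H hq3
            omega
        · -- `Z ≠ 0`
          have hk' := hk.resolve_left hz'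
          have hG := G2_of hz1 H hk'
          rw [hQ, hr3] at hG
          have h5 : q ^ 3 * i * (q + 2) ≤ m := by
            have h6 : (q ^ 3 * i * (q + 2)) * q ^ 4 ≤ m * q ^ 4 := by
              calc _ = q ^ 7 * i * (q + 2) := by ring
                _ ≤ _ := hG
                _ = _ := by ring
            exact Nat.le_of_mul_le_mul_right h6 (by positivity)
          have hCl2 : Cl ≤ q ^ 3 - 1 := by omega
          have h6 : q * ((q ^ 2 - 1) * (q ^ 3 + 1)) ≤ (q ^ 3 - 1) * i := hT1.trans (Nat.mul_le_mul_right _ hCl2)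
          have h7 := N5_le_F hq
          have h8 : N * (q ^ 3 - 1) ≤ m * (q ^ 3 - 1) := by
            calc N * (q ^ 3 - 1) ≤ q ^ 3 * (q + 2) * (q * ((q ^ 2 - 1) * (q ^ 3 + 1))) := h7
              _ ≤ q ^ 3 * (q + 2) * ((q ^ 3 - 1) * i) := Nat.mul_le_mul_left _ h6
              _ = (q ^ 3 * i * (q + 2)) * (q ^ 3 - 1) := by ring
              _ ≤ _ := Nat.mul_le_mul_right _ h5
          have h9 : 0 < q ^ 3 - 1 := by
            have : 1 < q ^ 3 := Nat.one_lt_pow (by norm_num) (by omega)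
            omega
          have h10 := Nat.le_of_mul_le_mul_right h8 h9
          omega
      · -- `Y` is small
        have hCl2 : Cl ≤ r - 1 := by omega
        have h6 : q * ((q ^ 2 - 1) * (q ^ 3 + 1)) ≤ (r - 1) * i := hT1.trans (Nat.mul_le_mul_right _ hCl2)
        set A := q * ((q ^ 2 - 1) * (q ^ 3 + 1)) with hA
        have h7 : q ^ 7 * A ≤ m * r ^ 2 := by
          calc q ^ 7 * A ≤ q ^ 7 * ((r - 1) * i) := Nat.mul_le_mul_left _ h6
            _ = (q ^ 7 * i) * (r - 1) := by ring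
            _ ≤ (m * r) * (r - 1) := Nat.mul_le_mul_right _ hG1
            _ ≤ (m * r) * r := Nat.mul_le_mul_left _ (by omega)
            _ = _ := by ring
        have h8 : 4 * r ^ 2 ≤ q ^ 6 := by
          have : (2 * r) ^ 2 ≤ (q ^ 3) ^ 2 := Nat.pow_le_pow_left hr3 2
          calc 4 * r ^ 2 = (2 * r) ^ 2 := by ring
            _ ≤ (q ^ 3) ^ 2 := this
            _ = _ := by ring
        have h9 : (4 * (q * A)) * q ^ 6 ≤ m * q ^ 6 := by
          calc _ = 4 * (q ^ 7 * A) := by ring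
            _ ≤ 4 * (m * r ^ 2) := Nat.mul_le_mul_left _ h7
            _ = m * (4 * r ^ 2) := by ring
            _ ≤ _ := Nat.mul_le_mul_left _ h8
        have h10 := Nat.le_of_mul_le_mul_right h9 (by positivity)
        have h11 : N ≤ 4 * (q * A) := N5_le_E hq
        omega
    · -- a radical vector
      have hle := L_le_Bor hF hLY hx hx0 hxx hperp
      have hi2 := index_ge_of_le_Bor hF hx0 hxx hle
      rw [← hi] at hi2
      rcases hdi with hr3 | hr3
      · by_cases hz' : z = 1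
        · have hne := L_ne_Bor hF (hκ (hZb hz')) hLY hx0 hxx hperp (by
            rw [← hr, hr3]
            exact Nat.pow_lt_pow_right (by omega) (by norm_num))
          have hi3 := index_ge_two_of_lt_Bor hF hx0 hxx hle hne
          rw [← hi] at hi3
          rw [hr3] at hG1
          have hm4 : q ^ 4 * i ≤ m := by
            have h5 : (q ^ 4 * i) * q ^ 3 ≤ m * q ^ 3 := by
              calc _ = q ^ 7 * i := by ring
                _ ≤ _ := hG1
            exact Nat.le_of_mul_le_mul_right h5 (by positivity)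
          have h6 : 2 * (q ^ 4 * (q ^ 3 + 1)) ≤ m := by
            calc _ = q ^ 4 * (2 * (q ^ 3 + 1)) := by ring
              _ ≤ q ^ 4 * i := Nat.mul_le_mul_left _ hi3
              _ ≤ m := hm4
          have h7 := N5_le_B hq
          omega
        · have hk' := hk.resolve_left hz'
          have hG := G2_of hz1 H hk'
          rw [hQ, hr3] at hG
          have h5 : q ^ 3 * i * (q + 2) ≤ m := by
            have h6 : (q ^ 3 * i * (q + 2)) * q ^ 4 ≤ m * q ^ 4 := by
              calc _ = q ^ 7 * i * (q + 2) := by ring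
                _ ≤ _ := hG
                _ = _ := by ring
            exact Nat.le_of_mul_le_mul_right h6 (by positivity)
          have h6 : q ^ 3 * (q ^ 3 + 1) * (q + 2) ≤ q ^ 3 * i * (q + 2) :=
            Nat.mul_le_mul_right _ (Nat.mul_le_mul_left _ hi2)
          have h7 := N5_le_C hq
          omega
      · have h5 : (2 * (q ^ 4 * i)) * q ^ 3 ≤ m * q ^ 3 := by
          calc _ = 2 * (q ^ 7 * i) := by ring
            _ ≤ 2 * (m * r) := Nat.mul_le_mul_left _ hG1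
            _ = m * (2 * r) := by ring
            _ ≤ _ := Nat.mul_le_mul_left _ hr3
        have h6 := Nat.le_of_mul_le_mul_right h5 (by positivity)
        have h7 : 2 * (q ^ 4 * (q ^ 3 + 1)) ≤ 2 * (q ^ 4 * i) :=
          Nat.mul_le_mul_left _ (Nat.mul_le_mul_left _ hi2)
        have h8 := N5_le_B hq
        omega
    · -- `Y` is small
      rw [← hr] at hT3
      have h5 : (q ^ 2 - 1) * (q ^ 3 + 1) ≤ (q ^ 2 - 1) * i := by
        calc _ = (q ^ 3 + 1) * (q ^ 2 - 1) := by ring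
          _ ≤ (r - 1) * i := hone'
          _ ≤ _ := Nat.mul_le_mul_right _ (by omega)
      have hi2 := Nat.le_of_mul_le_mul_left h5 (by omega)
      have h6 : (q ^ 5 * i) * q ^ 2 ≤ m * q ^ 2 := by
        calc _ = q ^ 7 * i := by ring
          _ ≤ _ := hG1
          _ ≤ _ := Nat.mul_le_mul_left _ hT3
      have h7 := Nat.le_of_mul_le_mul_right h6 (by positivity)
      have h8 : q ^ 5 * (q ^ 3 + 1) ≤ q ^ 5 * i := Nat.mul_le_mul_left _ hi2
      have h9 := N5_le_A hq
      omega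
  · -- `Y = 0`
    push Not at hY
    have hY' : YY hF hα K = ⊥ := by
      rw [eq_bot_iff]
      intro y hy
      exact hY y hy
    have hr1' : r = 1 := by
      rw [hr, hY']
      simp
    rw [hr1', mul_one] at hG1
    by_cases hKK : KK hF hα K = ⊤
    · by_cases hZ : ZZ hF hα K = ⊥
      · have hQK : ∀ y ∈ QQ hF hα 3, y ∈ K → y = 1 := by
          rintro _ ⟨u, s, h, rfl⟩ hmem
          have hu := hY u ⟨s, h, hmem⟩
          subst hu
          have hs : s ∈ ZZ hF hα K := by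
            refine ⟨?_, hmem⟩
            have := h
            unfold Gd at this
            rw [hermForm_zero_left, add_zero] at this
            exact this
          rw [hZ] at hs
          have hs0 : s = 0 := hs
          rw [hs0]
          exact EE_zero hF hα
        have hm2 : m < 2 * ((q ^ 2) ^ 3 * q) := by
          rw [hQ]
          have := N5_le_I hq
          omega
        have hn' : ∀ y₀ : SU (3 + 2) F q, (cj y₀ K).index * (q ^ 2 - 1) < Nat.card (IsoV (3 + 2) F q) := by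
          intro y₀
          rw [index_cj, hIso]
          exact hn
        by_cases hq3 : 3 ≤ q
        · obtain ⟨y₀, hy₀, hfix⟩ := regular_L0 hF hα hq3 (by norm_num) hQK hKK hm2
          exact closure_odd hF hα (by norm_num) hodd hfix (QK_cj hF hα hQK hy₀) (hn' y₀)
        · have hq2 : q = 2 := by omega
          subst hq2
          obtain ⟨y₀, hy₀, hfix⟩ := regular_q2 hF hα rfl (by norm_num) (by norm_num) hQK hKK hm2
          exact closure_32 hF hα hfix (QK_cj hF hα hQK hy₀) (hn' y₀)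
      · have hz' : z ≠ 1 := fun h => hZ (AddSubgroup.eq_bot_of_card_eq _ h)
        have hk' := hk.resolve_left hz'
        have hG := G2_of hz1 H hk'
        rw [hQ, hr1'] at hG
        have h5 : q ^ 6 * (q + 2) ≤ m := by
          have h6 : (q ^ 6 * (q + 2)) * q ≤ m * q := by
            calc _ = q ^ 7 * 1 * (q + 2) := by ring
              _ ≤ q ^ 7 * i * (q + 2) := by gcongr
              _ ≤ _ := hG
              _ = _ := by ring
          exact Nat.le_of_mul_le_mul_right h6 hq0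
        have h7 := N5_le_J hq
        omega
    · have hi2 : 2 ≤ i := by
        have : i ≠ 1 := fun h => hKK (Subgroup.index_eq_one.1 h)
        omega
      have h5 : q ^ 7 * 2 ≤ m := le_trans (Nat.mul_le_mul_left _ hi2) hG1
      have h6 := N5_le_I hq
      omega

end Base

end Cfsg.Agent.Lib.PSUIdx
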