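import Mathlib
import Cfsg.Agent.Lib.PSUIdxS

/-!
# The induction in odd dimension
-/

set_option autoImplicit false
set_option linter.unusedSectionVars false
set_option linter.unusedVariables false

namespace Cfsg.Agent.Lib.PSUIdx

open Matrix Cfsg Cfsg.Agent.Lib.HermForm Cfsg.Agent.Lib.FFNorm Cfsg.Agent.Lib.UnitaryE
  Cfsg.Agent.Lib.UnitarySU Cfsg.Agent.Lib.SUMinDeg
open Cfsg.Agent.Lib.PSU35A (cj mem_cj)

variable {F : Type*} [Field F] [Fintype F] {q n e : ℕ}

section Arith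

/-- First arithmetic bound. -/
lemma stepO_arith1 {q T : ℕ} (hq : 2 ≤ q) (hT : q ^ 4 ≤ T) :
    (q ^ 3 * T + 1) * (q ^ 2 * T - 1) ≤ q ^ 2 * T * ((q * T + 1) * (T - 1)) := by
  have h1 : 1 ≤ q ^ 4 := Nat.one_le_pow _ _ (by omega)
  have hT1 : 1 ≤ T := le_trans h1 hT
  have h3 : 1 ≤ q ^ 2 * T := Nat.mul_pos (by positivity) hT1
  zify [hT1, h3]
  have hq' : (2 : ℤ) ≤ q := by exact_mod_cast hq
  have hT' : (q : ℤ) ^ 4 ≤ T := by exact_mod_cast hT
  set Q : ℤ := (q : ℤ)
  set S : ℤ := (T : ℤ)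
  have hQ0 : 0 < Q := by linarith
  have hS0 : 0 < S := by nlinarith [pow_pos hQ0 4]
  have e1 : 0 ≤ Q ^ 3 - 2 * Q ^ 2 := by
    have h6 : 0 ≤ Q - 2 := by linarith
    have h7 : 0 ≤ Q ^ 2 * (Q - 2) := by positivity
    nlinarith
  have e2 : 0 ≤ Q ^ 3 * S - Q ^ 3 + Q ^ 2 - Q ^ 5 := by
    have h4 : Q ^ 3 * Q ^ 4 ≤ Q ^ 3 * S := mul_le_mul_of_nonneg_left hT' (by positivity)
    have h5 : Q ^ 5 + Q ^ 3 ≤ Q ^ 3 * Q ^ 4 := by nlinarith [pow_pos hQ0 2, pow_pos hQ0 3, pow_pos hQ0 4, pow_pos hQ0 5]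
    nlinarith [pow_pos hQ0 2]
  have e3 : 0 ≤ S ^ 2 * (Q ^ 3 * S - Q ^ 3 + Q ^ 2 - Q ^ 5) := by positivity
  have e4 : 0 ≤ S * (Q ^ 3 - 2 * Q ^ 2) := by positivity
  nlinarith

/-- Second arithmetic bound. -/
lemma stepO_arith2 {q T : ℕ} (hq : 2 ≤ q) (hT : 1 ≤ T) :
    (q ^ 3 * T + 1) * (q ^ 2 * T - 1) ≤ (q ^ 2 * T ^ 2 * (q + 2)) * (q ^ 2 - 1) := by
  have h1 : 1 ≤ q ^ 2 := Nat.one_le_pow _ _ (by omega)
  have h3 : 1 ≤ q ^ 2 * T := Nat.mul_pos (by positivity) hT
  zify [h1, h3]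
  have hq' : (2 : ℤ) ≤ q := by exact_mod_cast hq
  have hT' : (1 : ℤ) ≤ T := by exact_mod_cast hT
  set Q : ℤ := (q : ℤ)
  set S : ℤ := (T : ℤ)
  have hQ0 : 0 < Q := by linarith
  have hS0 : 0 < S := by linarith
  -- the difference is `T²(2Q⁴−Q³−2Q²)+T(Q³−Q²)+1`
  have e1 : 0 ≤ 2 * Q ^ 4 - Q ^ 3 - 2 * Q ^ 2 := by
    have : 0 ≤ Q ^ 2 * (2 * Q ^ 2 - Q - 2) := by
      have : 0 ≤ 2 * Q ^ 2 - Q - 2 := by nlinarith
      positivity
    nlinarith
  have e2 : 0 ≤ Q ^ 3 - Q ^ 2 := by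
    have : 0 ≤ Q ^ 2 * (Q - 1) := by
      have : 0 ≤ Q - 1 := by linarith
      positivity
    nlinarith
  have e3 : 0 ≤ S ^ 2 * (2 * Q ^ 4 - Q ^ 3 - 2 * Q ^ 2) := by positivity
  have e4 : 0 ≤ S * (Q ^ 3 - Q ^ 2) := by positivity
  nlinarith

/-- Third arithmetic bound. -/
lemma stepO_arith3 {q T : ℕ} (hq : 2 ≤ q) (hT : 1 ≤ T) :
    (q ^ 3 * T + 1) * (q ^ 2 * T - 1) ≤ (2 * (q ^ 2 * T ^ 2 * q)) * (q ^ 2 - 1) := by
  have h1 : 1 ≤ q ^ 2 := Nat.one_le_pow _ _ (by omega)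
  have h3 : 1 ≤ q ^ 2 * T := Nat.mul_pos (by positivity) hT
  zify [h1, h3]
  have hq' : (2 : ℤ) ≤ q := by exact_mod_cast hq
  have hT' : (1 : ℤ) ≤ T := by exact_mod_cast hT
  set Q : ℤ := (q : ℤ)
  set S : ℤ := (T : ℤ)
  have hQ0 : 0 < Q := by linarith
  have hS0 : 0 < S := by linarith
  -- the difference is `T²(Q⁵−2Q³)+T(Q³−Q²)+1`
  have e1 : 0 ≤ Q ^ 5 - 2 * Q ^ 3 := by
    have : 0 ≤ Q ^ 3 * (Q ^ 2 - 2) := by
      have : 0 ≤ Q ^ 2 - 2 := by nlinarith
      positivity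
    nlinarith
  have e2 : 0 ≤ Q ^ 3 - Q ^ 2 := by
    have : 0 ≤ Q ^ 2 * (Q - 1) := by
      have : 0 ≤ Q - 1 := by linarith
      positivity
    nlinarith
  have e3 : 0 ≤ S ^ 2 * (Q ^ 5 - 2 * Q ^ 3) := by positivity
  have e4 : 0 ≤ S * (Q ^ 3 - Q ^ 2) := by positivity
  nlinarith

end Arith

section Step

variable (hF : Fintype.card F = q ^ 2) {α : F} (hα : α ^ q * α = -1)
include hF hα

/-- The regular case for all `q` when `e ≥ 5`. -/
theorem regular_all (he : 5 ≤ e) {K : Subgroup (SU (e + 2) F q)}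
    (hQK : ∀ y ∈ QQ hF hα e, y ∈ K → y = 1) (hKK : KK hF hα K = ⊤)
    (hm : K.index < 2 * ((q ^ 2) ^ e * q)) :
    ∃ y ∈ QQ hF hα e, ∀ l : SU e F q, iota l ∈ cj y K := by
  have hq := two_le hF
  by_cases hq3 : 3 ≤ q
  · exact regular_L0 hF hα hq3 (by omega) hQK hKK hm
  · have hq2 : q = 2 := by omega
    obtain ⟨y₀, hy₀, hfix⟩ := regular_q2 hF hα hq2 (by omega) (by omega) hQK hKK hm
    exact ⟨y₀, hy₀, iota_all_mem hF hα (by omega) (by omega) hfix⟩

/-- The inductive step when a transvection at `v` is missing. -/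
theorem stepO_core (he : 5 ≤ e) (hev : Odd e)
    (IH : ∀ K : Subgroup (SU e F q), K ≠ ⊤ → (q ^ e + 1) * (q ^ (e - 1) - 1) ≤ K.index * (q ^ 2 - 1))
    (K : Subgroup (SU (e + 2) F q)) {c : F} (hc : c + c ^ q = 0)
    (hcK : EE (e := e) hF α 0 c ∉ K) :
    (q ^ (e + 2) + 1) * (q ^ (e + 1) - 1) ≤ K.index * (q ^ 2 - 1) := by
  classical
  by_contra hn
  push Not at hn
  have hq := two_le hF
  obtain ⟨k, hk1, hk, H⟩ := mi_param hF hα K (by omega) hc hcK
  have hr2 := card_sq_le_top hF hc (Z := ZZ hF hα K) (fun h => hcK h.2)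
    (fun y hy y' hy' => comm_mem_ZZ hF hα hy' hy)
  have hodd : Odd (e + 2) := hev.add_even (by decide)
  have hIso : Nat.card (IsoV (e + 2) F q) = (q ^ (e + 2) + 1) * (q ^ (e + 1) - 1) := card_IsoV_odd hF _ hodd
  set r := Nat.card (YY hF hα K) with hr
  set z := Nat.card (ZZ hF hα K) with hz
  set m := K.index with hm
  set i := (KK hF hα K).index with hi
  have hz1 : 1 ≤ z := Nat.card_pos
  have hq0 : 0 < q := by omega
  set T := q ^ (e - 1) with hT
  have hT1 : 1 ≤ T := Nat.one_le_pow _ _ hq0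
  have hT3 : q ^ 4 ≤ T := Nat.pow_le_pow_right hq0 (by omega)
  have h1 : q ^ e = q * T := by
    rw [hT, ← pow_succ']
    congr 1
    omega
  have h2 : q ^ (e + 1) = q ^ 2 * T := by
    rw [pow_succ, h1]
    ring
  have h3 : q ^ (e + 2) = q ^ 3 * T := by
    rw [pow_add, h1]
    ring
  have h4 : (q ^ 2) ^ e = q ^ 2 * T ^ 2 := by
    rw [← pow_mul, mul_comm, pow_mul, h1]
    ring
  rw [h2, h3] at hn
  rw [h2, h3] at hIso
  have hrq : r ≤ q * T := by
    by_contra hcon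
    push Not at hcon
    have h5 : (q * T) ^ 2 < r ^ 2 := Nat.pow_lt_pow_left hcon (by norm_num)
    have h6 : (q * T) ^ 2 = (q ^ 2) ^ e := by
      rw [h4]
      ring
    omega
  by_cases hKK : KK hF hα K = ⊤
  · have hi1 : i = 1 := by
      rw [hi, hKK]
      exact Subgroup.index_top
    by_cases hY : ∃ y ∈ YY hF hα K, y ≠ 0
    · obtain ⟨y, hyY, hy0⟩ := hY
      have hx : ∃ x : Fin e → F, hermForm e F q x x = 0 ∧ x ≠ 0 ∧ hermForm e F q y x ≠ 0 := by
        by_contra hcon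
        push Not at hcon
        exact hy0 (eq_zero_of_perp_iso hF (by omega) (fun x hx hx0 => hcon x hx hx0))
      obtain ⟨x, hxx, hx0, hyx⟩ := hx
      obtain ⟨θ, hθ0, hθ⟩ := SUGen.exists_trace_zero hF
      have hl : ∀ (l : SU e F q) {u : Fin e → F}, u ∈ YY hF hα K → act l u ∈ YY hF hα K :=
        fun l u hu => YY_inv hF hα (by rw [hKK]; trivial) hu
      set a := θ * hermForm e F q y x with ha
      have ha0 : a ≠ 0 := mul_ne_zero hθ0 hyx
      have h5 : a • x ∈ YY hF hα K := by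
        have h6 := (YY hF hα K).sub_mem (hl (tau hF x θ) hyY) hyY
        rw [act_tau hF hxx hθ y, add_sub_cancel_left] at h6
        exact h6
      have h6 : ∀ x' ∈ IsoV e F q, x' ∈ YY hF hα K := by
        intro x' hx'
        obtain ⟨l, hl'⟩ := exists_act_eq hF (n := e) (by omega) (x := a • x) (y := x')
          (by rw [hermForm_smul_left, hermForm_smul_right, hxx]; ring) (smul_ne_zero ha0 hx0)
          hx'.1 hx'.2
        rw [← hl']
        exact hl l h5
      have h7 : Nat.card (IsoV e F q) ≤ r :=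
        Nat.card_le_card_of_injective (fun x : IsoV e F q => (⟨x.1, h6 x.1 x.2⟩ : YY hF hα K))
          (fun x x' h => Subtype.ext (congrArg (fun t : YY hF hα K => t.1) h))
      rw [card_IsoV_odd hF e hev, ← hT, h1] at h7
      have h9 : 2 ≤ T := le_trans (by
        calc 2 ≤ 2 ^ 4 := by norm_num
          _ ≤ q ^ 4 := Nat.pow_le_pow_left hq 4) hT3
      have h10 : 1 ≤ T - 1 := by omega
      have h11 : q * T + 1 ≤ (q * T + 1) * (T - 1) := Nat.le_mul_of_pos_right _ (by omega)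
      omega
    · push Not at hY
      have hY' : YY hF hα K = ⊥ := by
        rw [eq_bot_iff]
        intro y hy
        exact hY y hy
      have hr1 : r = 1 := by
        rw [hr, hY']
        simp
      by_cases hZ : ZZ hF hα K = ⊥
      · have hQK : ∀ y ∈ QQ hF hα e, y ∈ K → y = 1 := by
          rintro _ ⟨u, s, h, rfl⟩ hmem
          have hu := hY u ⟨s, h, hmem⟩
          subst hu
          have hs : s ∈ ZZ hF hα K := by
            refine ⟨?_, hmem⟩
            have := h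
            unfold Gd at this
            rw [hermForm_zero_left, add_zero] at this
            exact this
          rw [hZ] at hs
          have hs0 : s = 0 := hs
          rw [hs0]
          exact EE_zero hF hα
        have hm2 : m < 2 * ((q ^ 2) ^ e * q) := by
          have h5 := stepO_arith3 hq hT1
          by_contra hcon
          push Not at hcon
          rw [h4] at hcon
          have h6 := Nat.mul_le_mul_right (q ^ 2 - 1) hcon
          omega
        obtain ⟨y₀, hy₀, hfix⟩ := regular_all hF hα he hQK hKK hm2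
        refine closure_odd hF hα (by omega) hodd (K := cj y₀ K) hfix (QK_cj hF hα hQK hy₀) ?_
        rw [index_cj, hIso]
        exact hn
      · have hz' : z ≠ 1 := fun h => hZ (AddSubgroup.eq_bot_of_card_eq _ h)
        have hk' := hk.resolve_left hz'
        have hG := G2_of hz1 H hk'
        rw [hi1, hr1] at hG
        have h5 : (q ^ 2) ^ e * (q + 2) ≤ m := by
          have h6 : (q ^ 2) ^ e * (q + 2) * q ≤ m * q := by
            calc _ = (q ^ 2) ^ e * q * 1 * (q + 2) := by ring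
              _ ≤ m * 1 * q := hG
              _ = m * q := by ring
          exact Nat.le_of_mul_le_mul_right h6 hq0
        rw [h4] at h5
        have h6 := stepO_arith2 hq hT1
        have h7 := Nat.mul_le_mul_right (q ^ 2 - 1) h5
        omega
  · have hi2 := IH _ hKK
    rw [h1, ← hi] at hi2
    have hG := G1_of (q := q) hq0 hk1 hz1 H hk
    have hqT : 0 < q * T := Nat.mul_pos hq0 hT1
    have h5 : q ^ 2 * T * i ≤ m := by
      have h6 : (q ^ 2 * T * i) * (q * T) ≤ m * (q * T) := by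
        calc _ = (q ^ 2) ^ e * q * i := by rw [h4]; ring
          _ ≤ m * r := hG
          _ ≤ _ := Nat.mul_le_mul_left _ hrq
      exact Nat.le_of_mul_le_mul_right h6 hqT
    have h7 := stepO_arith1 hq hT3
    have h8 : q ^ 2 * T * ((q * T + 1) * (T - 1)) ≤ m * (q ^ 2 - 1) := by
      calc _ ≤ q ^ 2 * T * (i * (q ^ 2 - 1)) := Nat.mul_le_mul_left _ hi2
        _ = (q ^ 2 * T * i) * (q ^ 2 - 1) := by ring
        _ ≤ _ := Nat.mul_le_mul_right _ h5
    omega

end Step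

section Main

variable (hF : Fintype.card F = q ^ 2)
include hF

/-- The line bound in all odd dimensions at least five. -/
theorem bound_odd : ∀ (e : ℕ), Odd e → 3 ≤ e → ∀ K : Subgroup (SU (e + 2) F q), K ≠ ⊤ →
    (q ^ (e + 2) + 1) * (q ^ (e + 1) - 1) ≤ K.index * (q ^ 2 - 1) := by
  obtain ⟨α, hα0, hα⟩ := SUGen.exists_norm hF (-1 : F) (neg_ne_zero.2 one_ne_zero) (by
    rw [neg_pow_q hF, one_pow])
  have hα' : α ^ q * α = -1 := by rw [mul_comm]; exact hα
  intro e
  induction e using Nat.strong_induction_on with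
  | _ e ih =>
    intro hev he K hK
    obtain ⟨g, c, hc, hm⟩ := exists_conj_missing hF hα' (e := e) (by omega) (by omega) hK
    by_cases h3 : e = 3
    · subst h3
      have h := base5 hF hα' (cj g K) hc hm
      rw [index_cj] at h
      exact h
    · have he5 : 5 ≤ e := by
        rcases hev with ⟨a, ha⟩
        omega
      obtain ⟨e₀, rfl⟩ : ∃ e₀, e = e₀ + 2 := ⟨e - 2, by omega⟩
      have hev₀ : Odd e₀ := by
        rcases hev with ⟨a, ha⟩
        exact ⟨a - 1, by omega⟩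
      have he₀ : 3 ≤ e₀ := by omega
      have h1 := stepO_core hF hα' he5 hev (by
        intro K' hK'
        have := ih e₀ (by omega) hev₀ he₀ K' hK'
        have e1 : e₀ + 2 - 1 = e₀ + 1 := by omega
        rw [e1]
        exact this) (cj g K) hc hm
      rw [index_cj] at h1
      exact h1

end Main

end Cfsg.Agent.Lib.PSUIdx
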