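import Mathlib
import Cfsg.Agent.Lib.PSUIdxT

/-!
# Even dimension over the field of four elements: closure and line stabilisers
-/

set_option autoImplicit false
set_option linter.unusedSectionVars false
set_option linter.unusedVariables false

namespace Cfsg.Agent.Lib.PSUIdx

open Matrix Cfsg Cfsg.Agent.Lib.HermForm Cfsg.Agent.Lib.FFNorm Cfsg.Agent.Lib.UnitaryE
  Cfsg.Agent.Lib.UnitarySU Cfsg.Agent.Lib.SUMinDeg
open Cfsg.Agent.Lib.PSU35A (cj mem_cj)

variable {F : Type*} [Field F] [Fintype F] {q n e : ℕ}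

section Counts

variable (hF : Fintype.card F = q ^ 2)
include hF

lemma card_Lev_even_ne {n : ℕ} (hn : Even n) {N : F} (hN : N ^ q = N) (h0 : N ≠ 0) :
    Nat.card (Lev n F q N) = q ^ (n - 1) * (q ^ n - 1) := by
  classical
  have h1 := Cfsg.Agent.Lib.HermCount.natCard_herm hF n N hN
  have h2 := Cfsg.Agent.Lib.HermCount.natCard_herm hF n (1 : F) (one_pow q)
  rw [if_neg h0] at h1
  rw [if_neg (one_ne_zero)] at h2
  have h3 : Nat.card {v : Fin n → F // Cfsg.hermForm n F q v v = N} =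
      Nat.card {v : Fin n → F // Cfsg.hermForm n F q v v = 1} := by
    have : (Nat.card {v : Fin n → F // Cfsg.hermForm n F q v v = N} : ℤ) =
      Nat.card {v : Fin n → F // Cfsg.hermForm n F q v v = 1} := by rw [h1, h2]
    exact_mod_cast this
  have h4 := Cfsg.Agent.Lib.HermCount.card_norm_one hF n
  rw [if_pos hn] at h4
  rw [← h4, ← h3]
  apply Nat.card_congr
  refine ⟨fun x => ⟨x.1, x.2.2⟩, fun x => ⟨x.1, ?_, x.2⟩, fun _ => rfl, fun _ => rfl⟩
  rintro h
  apply h0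
  rw [← x.2, h]
  exact hermForm_zero_left _

/-- The index of the stabiliser of a non-isotropic line. -/
theorem index_BorN_aniso (hn : 3 ≤ n) {x : Fin n → F} (hx : hermForm n F q x x ≠ 0) :
    (q + 1) * (BorN x : Subgroup (SU n F q)).index = Nat.card (Lev n F q (hermForm n F q x x)) := by
  classical
  have hx0 : x ≠ 0 := by
    rintro rfl
    exact hx (hermForm_zero_left _)
  have hle : (stabV x : Subgroup (SU n F q)) ≤ BorN x := by
    intro g hg
    exact ⟨1, one_ne_zero, by rw [one_smul]; exact hg⟩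
  have h1 := Subgroup.relIndex_mul_index hle
  rw [index_stabV_lev hF hn hx0, ← card_orbV] at h1
  rw [← h1]
  congr 1
  rw [← Cfsg.Agent.Lib.UnitarySU.card_units_nrm_one hF]
  apply Nat.card_congr
  refine (Equiv.ofBijective (fun t : {u : Fˣ // Cfsg.Agent.Lib.HermCount.nrm q (u : F) = 1} =>
    (⟨((t.1 : Fˣ) : F) • x, ?_⟩ : orbV (BorN x) x)) ⟨?_, ?_⟩)
  · have hnr : ((t.1 : Fˣ) : F) * ((t.1 : Fˣ) : F) ^ q = 1 := t.2
    have hy : hermForm n F q (((t.1 : Fˣ) : F) • x) (((t.1 : Fˣ) : F) • x) = hermForm n F q x x := by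
      rw [hermForm_smul_left, hermForm_smul_right, ← mul_assoc, hnr, one_mul]
    obtain ⟨g, hg⟩ := lev_trans hF hn hx0 (smul_ne_zero t.1.ne_zero hx0) hy.symm
    exact ⟨g, ⟨(t.1 : Fˣ), t.1.ne_zero, hg⟩, hg⟩
  · intro t t' h
    have h2 := congrArg Subtype.val h
    exact Subtype.ext (Units.ext (smul_left_injective F hx0 h2))
  · rintro ⟨_, g, ⟨c, hc, hg⟩, rfl⟩
    have h1 := herm_act g x x
    rw [hg, hermForm_smul_left, hermForm_smul_right] at h1
    have h2 : (c * c ^ q - 1) * hermForm n F q x x = 0 := by linear_combination h1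
    have h3 := (mul_eq_zero.1 h2).resolve_right hx
    exact ⟨⟨Units.mk0 c hc, by
      show c * c ^ q = 1
      linear_combination h3⟩, Subtype.ext hg.symm⟩

end Counts

section Arith

lemma ar_X {S : ℕ} (hS : 1 ≤ S) : (8 * S - 1) * (4 * S + 1) + 1 = 32 * (S * S) + 4 * S := by
  obtain ⟨s, rfl⟩ : ∃ s, S = s + 1 := ⟨S - 1, by omega⟩
  have : 8 * (s + 1) - 1 = 8 * s + 7 := by omega
  rw [this]
  ring

lemma ar_I {S : ℕ} (hS : 1 ≤ S) : (2 * S - 1) * (S + 1) + 1 = 2 * (S * S) + S := by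
  obtain ⟨s, rfl⟩ : ∃ s, S = s + 1 := ⟨S - 1, by omega⟩
  have : 2 * (s + 1) - 1 = 2 * s + 1 := by omega
  rw [this]
  ring

lemma ar_L {S : ℕ} (hS : 1 ≤ S) : S * (2 * S - 1) + S = 2 * (S * S) := by
  obtain ⟨s, rfl⟩ : ∃ s, S = s + 1 := ⟨S - 1, by omega⟩
  have : 2 * (s + 1) - 1 = 2 * s + 1 := by omega
  rw [this]
  ring

lemma ar_B {S : ℕ} (hS : 1 ≤ S) : 4 * S * (8 * S - 1) + 4 * S = 32 * (S * S) := by
  obtain ⟨s, rfl⟩ : ∃ s, S = s + 1 := ⟨S - 1, by omega⟩
  have : 8 * (s + 1) - 1 = 8 * s + 7 := by omega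
  rw [this]
  ring

lemma ar_orb {S O m i X : ℕ} (hS : 1 ≤ S) (hX : X = (8 * S - 1) * (4 * S + 1))
    (h1 : O * m = i * X) (hi : 8 * (S * S) ≤ i) (hn : 3 * m < 4 * S * (8 * S - 1)) :
    24 * (S * S) + 6 * S + 1 ≤ O := by
  by_contra hcon
  push Not at hcon
  have hO : O ≤ 6 * S * (4 * S + 1) := by
    have : 6 * S * (4 * S + 1) = 24 * (S * S) + 6 * S := by ring
    omega
  have hpos : 0 < 6 * S * (4 * S + 1) := by positivity
  have h2 : 3 * (8 * (S * S) * X) ≤ 3 * (O * m) := by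
    rw [h1]
    exact Nat.mul_le_mul_left _ (Nat.mul_le_mul_right _ hi)
  have h3 : 3 * (O * m) = O * (3 * m) := by ring
  have h4 : O * (3 * m) ≤ (6 * S * (4 * S + 1)) * (3 * m) := Nat.mul_le_mul_right _ hO
  have h5 : (6 * S * (4 * S + 1)) * (3 * m) < (6 * S * (4 * S + 1)) * (4 * S * (8 * S - 1)) :=
    Nat.mul_lt_mul_of_pos_left hn hpos
  have h6 : (6 * S * (4 * S + 1)) * (4 * S * (8 * S - 1)) = 3 * (8 * (S * S) * X) := by
    rw [hX]
    ring
  omega

end Arith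

section Closure

variable (hF : Fintype.card F = 2 ^ 2) {α : F} (hα : α ^ 2 * α = -1)
include hF hα

/-- The stabiliser index in the regular case. -/
lemma stab_index_ge_reg {K : Subgroup (SU (e + 2) F 2)} (hQK : ∀ y ∈ QQ hF hα e, y ∈ K → y = 1) :
    (2 ^ 2) ^ e * 2 ≤ (K.subgroupOf (stabV (vE (e := e) α))).index := by
  have h2 := mi_stab hF hα K
  have hbot : K.subgroupOf (QQ hF hα e) = ⊥ := by
    rw [eq_bot_iff]
    intro y hy
    rw [Subgroup.mem_subgroupOf] at hy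
    rw [Subgroup.mem_bot]
    exact Subtype.ext (hQK _ y.2 hy)
  rw [hbot, Subgroup.index_bot, card_QQ hF hα] at h2
  refine le_trans ?_ h2
  exact Nat.le_mul_of_pos_left _ (Nat.pos_of_ne_zero Subgroup.index_ne_zero_of_finite)

/-- The closure theorem over the field of four elements in even dimension. -/
theorem closure_even_two (he : 3 ≤ e) (hev : Even e) {K : Subgroup (SU (e + 2) F 2)}
    (hS : Sg hF hα K = ⊤) (hQK : ∀ y ∈ QQ hF hα e, y ∈ K → y = 1)
    (hn : 3 * K.index < 2 ^ (e + 1) * (2 ^ (e + 2) - 1)) : False := by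
  classical
  obtain ⟨b, hb⟩ : ∃ b : F, b + b ^ 2 = -1 :=
    exists_trace_eq hF (t := -1) (by rw [neg_pow_q hF, one_pow])
  have hevd : Even (e + 2) := hev.add (by decide)
  obtain ⟨e', rfl⟩ : ∃ e', e = e' + 1 := ⟨e - 1, by omega⟩
  set S := 2 ^ e' with hSdef
  have hS4 : 4 ≤ S := by
    calc 4 = 2 ^ 2 := by norm_num
      _ ≤ 2 ^ e' := Nat.pow_le_pow_right (by norm_num) (by omega)
  have hS1 : 1 ≤ S := by omega
  have e1 : 2 ^ (e' + 1) = 2 * S := by rw [hSdef]; ring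
  have e2 : 2 ^ (e' + 1 + 1) = 4 * S := by rw [hSdef]; ring
  have e3 : 2 ^ (e' + 1 + 2) = 8 * S := by rw [hSdef]; ring
  have e4 : ((2 : ℕ) ^ 2) ^ (e' + 1) * 2 = 8 * (S * S) := by rw [hSdef, ← pow_mul]; ring
  have hX : Nat.card (IsoV (e' + 1 + 2) F 2) = (8 * S - 1) * (4 * S + 1) := by
    rw [card_IsoV hF _ hevd, e3]
    simp only [show e' + 1 + 2 - 1 = e' + 1 + 1 by omega, e2]
  have hI : Nat.card (IsoV (e' + 1) F 2) = (2 * S - 1) * (S + 1) := by
    rw [card_IsoV hF _ hev, e1]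
    simp only [Nat.add_sub_cancel]
    rfl
  have hL : ∀ N : F, N ^ 2 = N → S * (2 * S - 1) ≤ Nat.card (Lev (e' + 1) F 2 N) := by
    intro N hN
    have h1 := card_Lev_ge hF hev N hN
    rw [e1] at h1
    simpa using h1
  have hB : ∀ N : F, N ^ 2 = N → N ≠ 0 → Nat.card (Lev (e' + 1 + 2) F 2 N) = 4 * S * (8 * S - 1) := by
    intro N hN h0
    rw [card_Lev_even_ne hF hevd hN h0, e3]
    simp only [show e' + 1 + 2 - 1 = e' + 1 + 1 by omega, e2]
  rw [e2, e3] at hn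
  set m := K.index with hm
  set X := Nat.card (IsoV (e' + 1 + 2) F 2) with hXdef
  have hv := vE_mem (e := e' + 1) hF hα
  have hi := stab_index_ge_reg hF hα hQK
  rw [e4] at hi
  have hOm := orb_index hF (n := e' + 1 + 2) (by omega) hv K
  rw [← hm, ← hXdef] at hOm
  have hO := ar_orb hS1 hX hOm hi hn
  have hvC := vE_not_Cen hF hα hQK
  have hOC := orb_add_Cen hF hα hvC
  rw [← hXdef] at hOC
  have hX' := ar_X hS1
  rw [← hX] at hX'
  set C := Nat.card (Cen hF K) with hC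
  have hC' : C + 2 * S + 2 ≤ 8 * (S * S) := by omega
  -- a centre with both parts is impossible
  have hmix : ∀ {x y : F} {u : Fin (e' + 1) → F}, mk3 α b x y u ∈ Cen hF K → u ≠ 0 → (x ≠ 0 ∨ y ≠ 0) → False := by
    intro x y u hz hu hne
    have h1 := count_one hF hα hb (by omega) hS hz hu hne
    rw [hI, ← hC] at h1
    have h2 := hL _ (hermForm_conj hF u u)
    have h3 := ar_I hS1
    have h4 := ar_L hS1
    have h5 : (2 ^ 2 - 1 : ℕ) = 3 := by norm_num
    rw [h5] at h1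
    omega
  have hinc : ∀ x : Fin (e' + 1) → F, hermForm (e' + 1) F 2 x x = 0 → x ≠ 0 → inc x ∈ Cen hF K :=
    fun x hx hx0 => inc_mem_Cen_of_Sg hF hα hb (by omega) hS hx hx0
  -- all plane parts are proportional
  have hT : ∀ (x₁ y₁ x₂ y₂ : F) (u₁ u₂ : Fin (e' + 1) → F), mk3 α b x₁ y₁ u₁ ∈ Cen hF K →
      mk3 α b x₂ y₂ u₂ ∈ Cen hF K → x₁ * y₂ = x₂ * y₁ := by
    intro x₁ y₁ x₂ y₂ u₁ u₂ h₁ h₂
    by_contra hnp
    have hne₁ : x₁ ≠ 0 ∨ y₁ ≠ 0 := by
      by_contra hcon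
      push Not at hcon
      apply hnp
      rw [hcon.1, hcon.2]
      ring
    have hne₂ : x₂ ≠ 0 ∨ y₂ ≠ 0 := by
      by_contra hcon
      push Not at hcon
      apply hnp
      rw [hcon.1, hcon.2]
      ring
    have hu₁ : u₁ = 0 := by
      by_contra h
      exact hmix h₁ h hne₁
    have hu₂ : u₂ = 0 := by
      by_contra h
      exact hmix h₂ h hne₂
    subst hu₁
    subst hu₂
    exact hvC (pure_pair hF hα hb h₁ h₂ hnp)
  by_cases h0 : ∃ (x₀ y₀ : F) (u₀ : Fin (e' + 1) → F), mk3 α b x₀ y₀ u₀ ∈ Cen hF K ∧ (x₀ ≠ 0 ∨ y₀ ≠ 0)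
  · obtain ⟨x₀, y₀, u₀, h₀, hne⟩ := h0
    have hpar : ∀ z ∈ Cen hF K,
        x₀ * hermForm (e' + 1 + 2) F 2 z (vE α) = hermForm (e' + 1 + 2) F 2 z (wE α b) * y₀ := by
      intro z hz
      have hz' := hz
      rw [mk3_eq hF hα hb z] at hz'
      exact hT _ _ _ _ _ _ h₀ hz'
    obtain ⟨b₁, hb₁, hline⟩ := line_case' hF hα hb (by omega) hinc h₀ hne hpar
    have hpos : 1 ≤ (K.subgroupOf (stabV b₁)).index :=
      Nat.pos_of_ne_zero Subgroup.index_ne_zero_of_finite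
    have hBX := ar_B hS1
    by_cases hN : hermForm (e' + 1 + 2) F 2 b₁ b₁ = 0
    · have h1 := orb_index hF (n := e' + 1 + 2) (by omega) (u := b₁) ⟨hN, hb₁⟩ K
      have h2 := card_orb_line_iso hF hb₁ hline
      have h5 : (2 ^ 2 - 1 : ℕ) = 3 := by norm_num
      rw [h5] at h2
      have h3 : X ≤ 3 * m := by
        calc X ≤ (K.subgroupOf (stabV b₁)).index * X := Nat.le_mul_of_pos_left _ hpos
          _ = Nat.card (orbV K b₁) * m := h1.symm
          _ ≤ _ := Nat.mul_le_mul_right _ h2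
      omega
    · have h1 := orb_index_lev hF (n := e' + 1 + 2) (by omega) hb₁ K
      have h2 := card_orb_line_aniso hF hN hline
      have h3 := hB _ (hermForm_conj hF b₁ b₁) hN
      have h4 : 4 * S * (8 * S - 1) ≤ 3 * m := by
        calc 4 * S * (8 * S - 1) = Nat.card (Lev (e' + 1 + 2) F 2 (hermForm (e' + 1 + 2) F 2 b₁ b₁)) := h3.symm
          _ ≤ (K.subgroupOf (stabV b₁)).index * Nat.card (Lev (e' + 1 + 2) F 2 (hermForm (e' + 1 + 2) F 2 b₁ b₁)) :=
              Nat.le_mul_of_pos_left _ hpos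
          _ = Nat.card (orbV K b₁) * m := h1.symm
          _ ≤ _ := Nat.mul_le_mul_right _ h2
      omega
  · push Not at h0
    have hzero : ∀ z ∈ Cen hF K, hermForm (e' + 1 + 2) F 2 z (vE α) = 0 := by
      intro z hz
      have hz' := hz
      rw [mk3_eq hF hα hb z] at hz'
      exact (h0 _ _ _ hz').2
    have h1 := card_orb_of_zero' hF hα hb (by omega) hinc hzero
    have h2 : (2 : ℕ) ^ 4 = 16 := by norm_num
    rw [h2] at h1
    have h3 : 16 ≤ S * S := Nat.mul_le_mul hS4 hS4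
    omega

end Closure

end Cfsg.Agent.Lib.PSUIdx
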