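import Mathlib
import Cfsg.Agent.Lib.PSUIdxU

/-!
# Dimension six over the field of four elements: the regular case
-/

set_option autoImplicit false
set_option linter.unusedSectionVars false
set_option linter.unusedVariables false

namespace Cfsg.Agent.Lib.PSUIdx

open Matrix Cfsg Cfsg.Agent.Lib.HermForm Cfsg.Agent.Lib.FFNorm Cfsg.Agent.Lib.UnitaryE
  Cfsg.Agent.Lib.UnitarySU Cfsg.Agent.Lib.SUMinDeg
open Cfsg.Agent.Lib.PSU35A (cj mem_cj)

variable {F : Type*} [Field F] [Fintype F] {q n e : ℕ}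

section QAp

/-- The root group at `a`, described intrinsically. -/
def QAp (a : Fin n → F) (h : SU n F q) : Prop :=
  act h a = a ∧ ∀ x, hermForm n F q x a = 0 → ∃ c : F, act h x = x + c • a

variable (hF : Fintype.card F = q ^ 2)
include hF

lemma QAp_conj {a : Fin n → F} {h : SU n F q} (g : SU n F q) (H : QAp a h) :
    QAp (act g a) (g * h * g⁻¹) := by
  constructor
  · rw [act_mul, act_mul, act_inv_act hF, H.1]
  · intro x hx
    have h1 : hermForm n F q (act g⁻¹ x) a = 0 := by
      have := herm_act g (act g⁻¹ x) a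
      rw [act_act_inv' hF] at this
      rw [← this]
      exact hx
    obtain ⟨c, hc⟩ := H.2 _ h1
    refine ⟨c, ?_⟩
    rw [act_mul, act_mul, hc, act_add, act_smul, act_act_inv' hF]

variable {α : F} (hα : α ^ q * α = -1)
include hα

/-- An element of the intrinsic root group at `v` lies in `Q`. -/
lemma mem_QQ_of_QAp {h : SU (e + 2) F q} (H : QAp (vE α) h) : h ∈ QQ hF hα e := by
  obtain ⟨b, hb⟩ : ∃ b : F, b + b ^ q = -1 :=
    exists_trace_eq hF (t := -1) (by rw [neg_pow_q hF, one_pow])
  have hq := two_le hF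
  set w := act h (wE α b) with hw
  have hy : hermForm (e + 2) F q w (vE α) = 1 := by
    have h1 := herm_act h (wE (e := e) α b) (vE α)
    rw [H.1, wE_vE hF hα] at h1
    exact h1
  set x := hermForm (e + 2) F q w (wE α b) with hx
  set u := rest α b q w with hu
  have hwm : w = mk3 α b x 1 u := by
    have h1 := mk3_eq hF hα hb w
    rw [hy] at h1
    exact h1
  have hiso : hermForm (e + 2) F q w w = 0 := by
    rw [hw, herm_act]
    exact wE_iso hF hα hb
  have hgd : Gd q u x := by
    unfold Gd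
    rw [hwm, herm3 hF hα hb, one_pow] at hiso
    linear_combination hiso
  refine ⟨u, x, hgd, ?_⟩
  apply ext_frame hF hα hb
  · rw [act_EE_vE hF hα hgd, H.1]
  · rw [act_EE_wE hF hα hgd, ← hw, hwm]
    unfold mk3
    module
  · intro t
    obtain ⟨c, hc⟩ := H.2 (inc t) (inc_vE hF t)
    have h1 := herm_act h (inc t) (wE (e := e) α b)
    rw [inc_wE hF, hc, ← hw, hwm, hermForm_add_left, hermForm_smul_left] at h1
    have h2 : hermForm (e + 2) F q (inc t) (mk3 α b x 1 u) = hermForm e F q t u := by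
      have : inc t = mk3 α b 0 0 t := by
        unfold mk3
        simp
      rw [this, herm3 hF hα hb]
      simp
    have h3 : hermForm (e + 2) F q (vE α) (mk3 α b x 1 u) = 1 := by
      rw [← mk3_vE hF hα hb, herm3 hF hα hb, hermForm_zero_left, one_pow]
      ring
    rw [h2, h3] at h1
    rw [act_EE hF hα hgd, inc_vE hF, herm_inc hF, hc, zero_smul, add_zero]
    have h4 : c = - hermForm e F q t u := by linear_combination h1
    rw [h4]
    module

/-- Freeness at the points of an orbit, in the regular case. -/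
lemma reg_free {K : Subgroup (SU (e + 2) F q)} (hQK : ∀ y ∈ QQ hF hα e, y ∈ K → y = 1)
    {k h : SU (e + 2) F q} (hk : k ∈ K) (hh : h ∈ K) (H : QAp (act k (vE α)) h) : h = 1 := by
  have h1 := QAp_conj hF k⁻¹ H
  rw [act_inv_act hF, inv_inv] at h1
  have h2 := hQK _ (mem_QQ_of_QAp hF hα h1) (K.mul_mem (K.mul_mem (K.inv_mem hk) hh) hk)
  have h3 : h = k * (k⁻¹ * h * k) * k⁻¹ := by group
  rw [h3, h2]
  group

end QAp

section Four

variable (hF : Fintype.card F = 2 ^ 2) {α b : F} (hα : α ^ 2 * α = -1) (hb : b + b ^ 2 = -1)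
include hF hα hb

lemma pow4 (a : F) : a ^ 4 = a := by
  have h := FiniteField.pow_card a
  rw [hF] at h
  exact h

/-- The condition for the special elements. -/
lemma Gd_hh {x c : F} {u : Fin 4 → F} (hNu : hermForm 4 F 2 u u = 0) :
    Gd 2 (c • u) (c * x + (c * x) ^ 2) := by
  unfold Gd
  have h2 : (2 : F) = 0 := two_eq_zero_of_two hF rfl
  rw [hermForm_smul_left, hermForm_smul_right, hNu]
  have h4 := pow4 hF hα hb (c * x)
  linear_combination (c * x + (c * x) ^ 2 + (c * x) ^ 3) * h2 + h4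

/-- The special elements lie in the root group at `z`. -/
lemma QAp_hh {x c : F} {u : Fin 4 → F} (hNu : hermForm 4 F 2 u u = 0) :
    QAp (mk3 α b x 0 u) (EE hF α (c • u) (c * x + (c * x) ^ 2)) := by
  have h2 : (2 : F) = 0 := two_eq_zero_of_two hF rfl
  have hg := Gd_hh hF hα hb (x := x) (c := c) hNu
  constructor
  · rw [act_EE hF hα hg, mk3_v hF hα hb, zero_smul, add_zero, mk3_inc hF hα hb, hermForm_smul_right, hNu,
      mul_zero, zero_smul, sub_zero]
  · intro a ha
    set p := hermForm (4 + 2) F 2 a (vE α) with hp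
    set r := hermForm (4 + 2) F 2 a (inc u) with hr
    have h3 : x ^ 2 * p + r = 0 := by
      have h4 : mk3 α b x 0 u = x • vE α + inc u := by
        unfold mk3
        simp
      rw [h4, hermForm_add_right hF, hermForm_smul_right] at ha
      exact ha
    refine ⟨p * c, ?_⟩
    rw [act_EE hF hα hg, inc_smul, hermForm_smul_right, ← hp, ← hr]
    have h5 : mk3 α b x 0 u = x • vE α + inc u := by
      unfold mk3
      simp
    rw [h5]
    have h6 : p * (c * x + (c * x) ^ 2) - c ^ 2 * r = p * c * x := by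
      linear_combination (c ^ 2) * (- h3) + (c ^ 2 * x ^ 2 * p) * h2
    have e1 : a + p • (c • inc u + (c * x + (c * x) ^ 2) • vE α) - (c ^ 2 * r) • vE α =
        a + (p * c) • inc u + (p * (c * x + (c * x) ^ 2) - c ^ 2 * r) • vE α := by
      module
    rw [e1, h6]
    module

/-- The product of two special elements. -/
lemma hh_mul {x c c' : F} {u : Fin 4 → F} (hNu : hermForm 4 F 2 u u = 0) :
    EE hF α (c • u) (c * x + (c * x) ^ 2) * EE hF α (c' • u) (c' * x + (c' * x) ^ 2) =
      EE hF α ((c + c') • u) ((c + c') * x + ((c + c') * x) ^ 2) := by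
  have h2 : (2 : F) = 0 := two_eq_zero_of_two hF rfl
  rw [EE_mul hF hα (Gd_hh hF hα hb hNu) (Gd_hh hF hα hb hNu), add_smul, hermForm_smul_left, hermForm_smul_right, hNu]
  congr 1
  linear_combination (- c * c' * x ^ 2) * h2

/-- The count of the projection `Y` against the intersection with `Q`. -/
lemma card_YY_le (K : Subgroup (SU (e + 2) F 2)) {α : F} (hα : α ^ 2 * α = -1) :
    Nat.card (YY hF hα K) ≤ Nat.card (K.subgroupOf (QQ hF hα e)) := by
  have hch : ∀ u : YY hF hα K, ∃ s, Gd 2 u.1 s ∧ EE hF α u.1 s ∈ K := fun u => u.2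
  choose s hs hm using hch
  refine Nat.card_le_card_of_injective
    (fun u => ⟨⟨EE hF α u.1 (s u), ⟨u.1, s u, hs u, rfl⟩⟩, hm u⟩) ?_
  intro u u' h
  have h1 : EE hF α u.1 (s u) = EE hF α u'.1 (s u') :=
    congrArg (fun t : K.subgroupOf (QQ hF hα e) => (t.1 : SU (e + 2) F 2)) h
  exact Subtype.ext (EE_inj hF hα (hs u) (hs u') h1).1

/-- The stabiliser index at a point where the root group of an orthogonal regular point meets `K`
trivially. -/
theorem index_ge_108 {K : Subgroup (SU (4 + 2) F 2)} {x : F} {u : Fin 4 → F} (hu0 : u ≠ 0)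
    (hNu : hermForm 4 F 2 u u = 0) (hfree : ∀ h ∈ K, QAp (mk3 α b x 0 u) h → h = 1) :
    108 ≤ (K.subgroupOf (stabV (vE (e := 4) α))).index := by
  classical
  have h2F : (2 : F) = 0 := two_eq_zero_of_two hF rfl
  set t := (K.subgroupOf (QQ hF hα 4)).index with ht
  have hcard : Nat.card (QQ hF hα 4) = 512 := by
    rw [card_QQ hF hα]
    norm_num
  have hdvd : t ∣ 512 := by
    rw [← hcard]
    exact Subgroup.index_dvd_card _
  have ht0 : 1 ≤ t := Nat.pos_of_ne_zero (fun h => by
    rw [h] at hdvd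
    norm_num at hdvd)
  let hh : F → QQ hF hα 4 := fun c =>
    ⟨EE hF α (c • u) (c * x + (c * x) ^ 2), ⟨c • u, _, Gd_hh hF hα hb hNu, rfl⟩⟩
  have hnot : ∀ c : F, c ≠ 0 → hh c ∉ K.subgroupOf (QQ hF hα 4) := by
    intro c hc hmem
    rw [Subgroup.mem_subgroupOf] at hmem
    have h1 := hfree _ hmem (QAp_hh hF hα hb hNu)
    have h2 : EE hF α (c • u) (c * x + (c * x) ^ 2) = EE hF α 0 0 := by
      rw [EE_zero hF hα]
      exact h1
    have h3 := (EE_inj hF hα (Gd_hh hF hα hb hNu) (Gd_zero (e := 4) hF (c := 0) (by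
      rw [zero_pow (by norm_num), add_zero])) h2).1
    rcases smul_eq_zero.1 h3 with h4 | h4
    · exact hc h4
    · exact hu0 h4
  obtain ⟨ω, hω0, hω1, -, -, -⟩ := exists_omega_two hF (rfl : (2 : ℕ) = 2)
  have ht1 : t ≠ 1 := by
    intro h
    have h1 : K.subgroupOf (QQ hF hα 4) = ⊤ := Subgroup.index_eq_one.1 h
    apply hnot 1 one_ne_zero
    rw [h1]
    trivial
  have ht2 : t ≠ 2 := by
    intro h
    have h1 := (Subgroup.mul_mem_iff_of_index_two h (a := hh 1) (b := hh ω)).2
      (iff_of_false (hnot 1 one_ne_zero) (hnot ω hω0))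
    have h3 : (1 : F) + ω ≠ 0 := by
      intro h4
      apply hω1
      linear_combination h4 - h2F
    apply hnot _ h3
    have h5 : hh 1 * hh ω = hh (1 + ω) := Subtype.ext (hh_mul hF hα hb hNu)
    rw [← h5]
    exact h1
  have ht3 : t ≠ 3 := by
    intro h
    rw [h] at hdvd
    norm_num at hdvd
  have ht4 : 4 ≤ t := by omega
  have hmi := mi_stab hF hα K
  rw [← ht] at hmi
  by_cases hKK : KK hF hα K = ⊤
  · have hi1 : (KK hF hα K).index = 1 := by
      rw [hKK]
      exact Subgroup.index_top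
    rw [hi1, one_mul] at hmi
    by_cases hY : ∃ y ∈ YY hF hα K, y ≠ 0
    · exfalso
      obtain ⟨y, hyY, hy0⟩ := hY
      have hxx : ∃ x : Fin 4 → F, hermForm 4 F 2 x x = 0 ∧ x ≠ 0 ∧ hermForm 4 F 2 y x ≠ 0 := by
        by_contra hcon
        push Not at hcon
        exact hy0 (eq_zero_of_perp_iso hF (by norm_num) (fun x hx hx0 => hcon x hx hx0))
      obtain ⟨x', hxx', hx0, hyx⟩ := hxx
      obtain ⟨θ, hθ0, hθ⟩ := SUGen.exists_trace_zero hF
      have hl : ∀ (l : SU 4 F 2) {u : Fin 4 → F}, u ∈ YY hF hα K → act l u ∈ YY hF hα K :=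
        fun l u hu => YY_inv hF hα (by rw [hKK]; trivial) hu
      set a := θ * hermForm 4 F 2 y x' with ha
      have ha0 : a ≠ 0 := mul_ne_zero hθ0 hyx
      have h5 : a • x' ∈ YY hF hα K := by
        have h6 := (YY hF hα K).sub_mem (hl (tau hF x' θ) hyY) hyY
        rw [act_tau hF hxx' hθ y, add_sub_cancel_left] at h6
        exact h6
      have h6 : ∀ x'' ∈ IsoV 4 F 2, x'' ∈ YY hF hα K := by
        intro x'' hx''
        obtain ⟨l, hl'⟩ := exists_act_eq hF (n := 4) (by norm_num) (x := a • x') (y := x'')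
          (by rw [hermForm_smul_left, hermForm_smul_right, hxx']; ring) (smul_ne_zero ha0 hx0)
          hx''.1 hx''.2
        rw [← hl']
        exact hl l h5
      have h7 : Nat.card (IsoV 4 F 2) ≤ Nat.card (YY hF hα K) :=
        Nat.card_le_card_of_injective (fun x : IsoV 4 F 2 => (⟨x.1, h6 x.1 x.2⟩ : YY hF hα K))
          (fun x x' h => Subtype.ext (congrArg (fun t : YY hF hα K => t.1) h))
      have h8 : Nat.card (IsoV 4 F 2) = 135 := card_Iso_two hF
      have h9 := card_YY_le hF hα hb K hα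
      have h10 := Subgroup.index_mul_card (K.subgroupOf (QQ hF hα 4))
      rw [hcard, ← ht] at h10
      have h11 : 4 * 135 ≤ t * Nat.card (K.subgroupOf (QQ hF hα 4)) := Nat.mul_le_mul ht4 (by omega)
      omega
    · push Not at hY
      have hY' : YY hF hα K = ⊥ := by
        rw [eq_bot_iff]
        intro y hy
        exact hY y hy
      have hr1 : Nat.card (YY hF hα K) = 1 := by
        rw [hY']
        simp
      have h1 := index_ineq hF hα (K := K) (e := 4)
      rw [hr1, one_mul, ← ht] at h1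
      have h3 : Nat.card (ZZ hF hα K) ∣ Nat.card (Tz hF) := AddSubgroup.card_dvd_of_le (ZZ_le_Tz hF hα K)
      have h4 : Nat.card (Tz hF) = 2 := by
        rw [Nat.card_eq_fintype_card]
        exact card_Tz hF
      rw [h4] at h3
      have h5 := Nat.le_of_dvd (by norm_num) h3
      have h6 : (2 ^ 2) ^ 4 * 2 = 512 := by norm_num
      rw [h6] at h1
      have h7 : t * Nat.card (ZZ hF hα K) ≤ t * 2 := Nat.mul_le_mul_left _ h5
      omega
  · have h1 := main4 hF (K := KK hF hα K) hKK
    have h3 : (2 + 1) * (2 ^ 3 + 1) = 27 := by norm_num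
    rw [h3] at h1
    calc 108 = 27 * 4 := by norm_num
      _ ≤ (KK hF hα K).index * t := Nat.mul_le_mul h1 ht4
      _ ≤ _ := hmi

end Four

section Core

variable (hF : Fintype.card F = 2 ^ 2) {α : F} (hα : α ^ 2 * α = -1)
include hF hα

lemma card_SU6_two : Nat.card (SU (4 + 2) F 2) = 27590492160 := by
  have h := card_SU hF (4 + 2) (by norm_num)
  have h2 : (2 : ℕ) ^ ((4 + 2) * (4 + 2 - 1) / 2) * ∏ i ∈ Finset.range (4 + 2),
      (if Even i then 2 ^ (i + 1) + 1 else 2 ^ (i + 1) - 1) = 82771476480 := by decide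
  rw [h2] at h
  omega

lemma card_Iso_six : Nat.card (IsoV (4 + 2) F 2) = 2079 := by
  rw [card_IsoV hF (4 + 2) (by decide)]
  norm_num

lemma card_stab_six : Nat.card (stabV (vE (e := 4) α) : Subgroup (SU (4 + 2) F 2)) = 13271040 := by
  have h1 := index_stabV hF (n := 4 + 2) (by norm_num) (vE_mem hF hα (e := 4))
  have h2 := Subgroup.card_mul_index (stabV (vE (e := 4) α) : Subgroup (SU (4 + 2) F 2))
  rw [h1, card_Iso_six hF hα, card_SU6_two hF hα] at h2
  omega

/-- The stabiliser index in the regular case with a surjection on the Levi factor. -/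
lemma stab_index_eq {K : Subgroup (SU (4 + 2) F 2)} (hQK : ∀ y ∈ QQ hF hα 4, y ∈ K → y = 1)
    (hKK : KK hF hα K = ⊤) : (K.subgroupOf (stabV (vE (e := 4) α))).index = 512 := by
  classical
  obtain ⟨b, hb⟩ : ∃ b : F, b + b ^ 2 = -1 :=
    exists_trace_eq hF (t := -1) (by rw [neg_pow_q hF, one_pow])
  apply le_antisymm
  · have hch : ∀ l : SU 4 F 2, ∃ w ∈ QQ hF hα 4, w * iota l ∈ K := by
      intro l
      have hl : l ∈ KK hF hα K := by rw [hKK]; trivial
      obtain ⟨w, hw, hm⟩ := hl
      exact ⟨w, hw, hm⟩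
    choose w hw hm using hch
    have hinj : Function.Injective (fun l : SU 4 F 2 =>
        (⟨⟨w l * iota l, by
          show act (w l * iota l) (vE α) = vE α
          rw [act_mul, act_iota_vE, QQ_le_stab hF hα (hw l)]⟩, hm l⟩ :
          K.subgroupOf (stabV (vE (e := 4) α)))) := by
      intro l l' h
      have h1 : w l * iota l = w l' * iota l' :=
        congrArg (fun t : K.subgroupOf (stabV (vE (e := 4) α)) => (t.1 : SU (4 + 2) F 2)) h
      have h2 : (w l')⁻¹ * w l = iota l' * (iota l)⁻¹ := by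
        calc (w l')⁻¹ * w l = (w l')⁻¹ * (w l * iota l) * (iota l)⁻¹ := by group
          _ = (w l')⁻¹ * (w l' * iota l') * (iota l)⁻¹ := by rw [h1]
          _ = _ := by group
      have h3 : (w l')⁻¹ * w l ∈ QQ hF hα 4 := (QQ hF hα 4).mul_mem ((QQ hF hα 4).inv_mem (hw l')) (hw l)
      have h4 : act ((w l')⁻¹ * w l) (wE α b) = wE α b := by
        rw [h2, act_mul]
        have h5 : act (iota l)⁻¹ (wE (e := 4) α b) = wE α b := by
          rw [← map_inv, act_iota_wE]
        rw [h5, act_iota_wE]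
      have h6 := QQ_free hF hα (z := wE α b) (by rw [wE_vE hF hα]; exact one_ne_zero) h3 h4
      rw [h6] at h2
      have h7 : iota l' = iota l := by
        have := congrArg (fun t => t * iota l) h2
        simpa using this.symm
      exact (iota_injective h7).symm
    have h1 := Nat.card_le_card_of_injective _ hinj
    rw [show Nat.card (SU 4 F 2) = 25920 from card_SU4_two hF] at h1
    have h2 := Subgroup.index_mul_card (K.subgroupOf (stabV (vE (e := 4) α)))
    rw [card_stab_six hF hα] at h2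
    by_contra hcon
    push Not at hcon
    have h3 : 513 * 25920 ≤ (K.subgroupOf (stabV (vE (e := 4) α))).index *
        Nat.card (K.subgroupOf (stabV (vE (e := 4) α))) := Nat.mul_le_mul hcon h1
    omega
  · have h1 := stab_index_ge_reg hF hα hQK
    have h2 : ((2 : ℕ) ^ 2) ^ 4 * 2 = 512 := by norm_num
    rwa [h2] at h1

/-- The arithmetic core. -/
theorem regular4_core2 {K : Subgroup (SU (4 + 2) F 2)} {z₀ : Fin (4 + 2) → F} (hz₀ : z₀ ∈ IsoV (4 + 2) F 2)
    (hfree : ∀ z ∈ orbV K z₀, ∀ h ∈ K, QAp z h → h = 1)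
    (hcount : Nat.card (orbV K z₀) * K.index = 1064448)
    (hmiss : vE α ∉ orbV K z₀) (hm : K.index < 672) : False := by
  classical
  obtain ⟨b, hb⟩ : ∃ b : F, b + b ^ 2 = -1 :=
    exists_trace_eq hF (t := -1) (by rw [neg_pow_q hF, one_pow])
  have hX := card_Iso_six hF hα
  have hv := vE_mem (e := 4) hF hα
  set m := K.index with hmdef
  set O := Nat.card (orbV K z₀) with hO
  have horbsub : ∀ {y : Fin (4 + 2) → F}, y ∈ IsoV (4 + 2) F 2 → orbV K y ⊆ IsoV (4 + 2) F 2 := by
    rintro y hy _ ⟨g, -, rfl⟩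
    exact ⟨by rw [herm_act]; exact hy.1, act_ne_zero hF g hy.2⟩
  -- a point of the orbit orthogonal to `v`
  have hex : ∃ (x : F) (u : Fin 4 → F), u ∈ IsoV 4 F 2 ∧ mk3 α b x 0 u ∈ orbV K z₀ := by
    by_contra hcon
    push Not at hcon
    let f₁ : F × IsoV 4 F 2 → IsoV (4 + 2) F 2 := fun p => ⟨mk3 α b p.1 0 p.2.1, by
      constructor
      · rw [herm3 hF hα hb]
        have := p.2.2.1
        rw [this]
        simp
      · intro h0
        have h2 : mk3 (e := 4) α b 0 0 0 = 0 := by
          unfold mk3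
          simp
        have h1 := mk3_inj hF hα hb (h0.trans h2.symm)
        exact p.2.2.2 h1.2.2⟩
    let f₂ : orbV K z₀ → IsoV (4 + 2) F 2 := fun z => ⟨z.1, horbsub hz₀ z.2⟩
    have hf₁ : Function.Injective f₁ := by
      intro p p' h
      obtain ⟨h1, -, h2⟩ := mk3_inj hF hα hb (congrArg Subtype.val h)
      exact Prod.ext h1 (Subtype.ext h2)
    have hf₂ : Function.Injective f₂ := fun z z' h => Subtype.ext (congrArg (fun t : IsoV (4 + 2) F 2 => t.1) h)
    have hdisj : ∀ p z, f₁ p ≠ f₂ z := by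
      intro p z h
      have h1 : mk3 α b p.1 0 p.2.1 = z.1 := congrArg Subtype.val h
      apply hcon p.1 p.2.1 p.2.2
      rw [h1]
      exact z.2
    have hle := Nat.card_le_card_of_injective _ (Function.Injective.sumElim hf₁ hf₂ hdisj)
    rw [Nat.card_sum, Nat.card_prod, Nat.card_eq_fintype_card (α := F), hF, hX,
      show Nat.card (IsoV 4 F 2) = 135 from card_Iso_two hF] at hle
    have h1 : O ≤ 1539 := by omega
    have h2 : O * m ≤ 1539 * 671 := Nat.mul_le_mul h1 (by omega)
    omega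
  obtain ⟨x, u, hu, hz⟩ := hex
  have h108 := index_ge_108 hF hα hb hu.2 hu.1 (hfree _ hz)
  have hA := orb_index hF (n := 4 + 2) (by norm_num) hv K
  rw [hX, ← hmdef] at hA
  set A := Nat.card (orbV K (vE (e := 4) α)) with hAdef
  have hdj : Disjoint (orbV K (vE (e := 4) α)) (orbV K z₀) := by
    rw [Set.disjoint_left]
    rintro _ ⟨g, hg, rfl⟩ ⟨g', hg', h⟩
    apply hmiss
    refine ⟨g⁻¹ * g', K.mul_mem (K.inv_mem hg) hg', ?_⟩
    show act (g⁻¹ * g') z₀ = vE α
    rw [act_mul]
    have h' : act g' z₀ = act g (vE α) := h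
    rw [h', act_inv_act hF]
  have hsum : A + O ≤ 2079 := by
    have hsub : orbV K (vE (e := 4) α) ∪ orbV K z₀ ⊆ IsoV (4 + 2) F 2 :=
      Set.union_subset (horbsub hv) (horbsub hz₀)
    have h2 := Nat.card_mono (Set.toFinite _) hsub
    rw [hX] at h2
    refine le_trans (le_of_eq ?_) h2
    simp only [Nat.card_coe_set_eq]
    rw [Set.ncard_union_eq hdj (Set.toFinite _) (Set.toFinite _)]
    simp only [hAdef, hO, Nat.card_coe_set_eq]
  have h1 : (A + O) * m ≤ 2079 * m := Nat.mul_le_mul_right _ hsum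
  have h2 : (A + O) * m = A * m + O * m := by ring
  have h3 : 108 * 2079 ≤ A * m := by
    rw [hA]
    exact Nat.mul_le_mul_right _ h108
  have hm620 : 620 ≤ m := by omega
  clear_value m O A
  interval_cases m <;> omega

/-- The regular case when a point is missed by the orbit. -/
theorem regular4_miss {K : Subgroup (SU (4 + 2) F 2)} (hQK : ∀ y ∈ QQ hF hα 4, y ∈ K → y = 1)
    (hKK : KK hF hα K = ⊤) (hm : K.index < 672) {y : Fin (4 + 2) → F} (hy : y ∈ IsoV (4 + 2) F 2)
    (hmiss : y ∉ orbV K (vE (e := 4) α)) : False := by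
  obtain ⟨g, hg⟩ := exists_act_eq hF (n := 4 + 2) (by norm_num) hy.1 hy.2 (vE_iso hF hα) (vE_ne hF hα)
  have hi := stab_index_eq hF hα hQK hKK
  have hO := orb_index hF (n := 4 + 2) (by norm_num) (vE_mem hF hα (e := 4)) K
  rw [hi, card_Iso_six hF hα] at hO
  have hsets : orbV (cj g K) (act g (vE (e := 4) α)) = act g '' orbV K (vE (e := 4) α) := by
    ext z
    constructor
    · rintro ⟨a, ha, rfl⟩
      refine ⟨act (g⁻¹ * a * g) (vE α), ⟨_, mem_cj.1 ha, rfl⟩, ?_⟩
      show act g (act (g⁻¹ * a * g) (vE α)) = act a (act g (vE α))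
      rw [← act_mul, ← act_mul]
      congr 1
      group
    · rintro ⟨_, ⟨k, hk, rfl⟩, rfl⟩
      refine ⟨g * k * g⁻¹, mem_cj.2 (by
        have : g⁻¹ * (g * k * g⁻¹) * g = k := by group
        rw [this]
        exact hk), ?_⟩
      show act (g * k * g⁻¹) (act g (vE α)) = act g (act k (vE α))
      rw [← act_mul, ← act_mul]
      congr 1
      group
  have hinj : Function.Injective (act g : (Fin (4 + 2) → F) → (Fin (4 + 2) → F)) := by
    intro a a' h
    have h1 := congrArg (act g⁻¹) h
    rwa [act_inv_act hF, act_inv_act hF] at h1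
  refine regular4_core2 hF hα (K := cj g K) (z₀ := act g (vE α))
    ⟨by rw [herm_act]; exact vE_iso hF hα, act_ne_zero hF g (vE_ne hF hα)⟩ ?_ ?_ ?_ ?_
  · intro z hz h hh H
    rw [hsets] at hz
    obtain ⟨_, ⟨k, hk, rfl⟩, rfl⟩ := hz
    have h1 := QAp_conj hF g⁻¹ H
    rw [act_inv_act hF, inv_inv] at h1
    have h2 := reg_free hF hα hQK hk (mem_cj.1 hh) h1
    have h3 : h = g * (g⁻¹ * h * g) * g⁻¹ := by group
    rw [h3, h2]
    group
  · rw [hsets, Nat.card_image_of_injective hinj, index_cj, hO]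
  · rw [hsets]
    rintro ⟨_, ⟨k, hk, rfl⟩, h⟩
    apply hmiss
    refine ⟨k, hk, ?_⟩
    have h1 : act g (act k (vE α)) = act g y := by rw [hg]; exact h
    exact hinj h1
  · rw [index_cj]
    exact hm

/-- The regular case in dimension six. -/
theorem regular4 {K : Subgroup (SU (4 + 2) F 2)} (hQK : ∀ y ∈ QQ hF hα 4, y ∈ K → y = 1)
    (hKK : KK hF hα K = ⊤) (hm : K.index < 672) : False := by
  classical
  have h2F : (2 : F) = 0 := two_eq_zero_of_two hF rfl
  obtain ⟨ω, hω0, hω1, hω, hω3, hω2⟩ := exists_omega_two hF (rfl : (2 : ℕ) = 2)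
  haveI : Fact (Nat.Prime 3) := ⟨by norm_num⟩
  have h3 : 3 ∣ 4 + 2 := by norm_num
  have hS₁ : ({0, 1} : Finset (Fin 4)).card = 2 := Finset.card_pair (by simp)
  obtain ⟨g₁, hg₁⟩ := exists_gS hF hω0 hω hω3 (e := 4) h3 {0, 1} hS₁
  have hg3 : g₁ ^ 3 = 1 := by
    apply ext_act
    intro x
    funext k
    rw [pow_three, act_mul, act_mul, hg₁, hg₁, hg₁, act_one]
    have h5 : dgS ω {0, 1} k * (dgS ω {0, 1} k * dgS ω {0, 1} k) = 1 := by
      unfold dgS
      split_ifs
      · have : ω ^ 2 * (ω ^ 2 * ω ^ 2) = (ω ^ 3) ^ 2 := by ring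
        rw [this, hω3, one_pow]
      · have : ω * (ω * ω) = ω ^ 3 := by ring
        rw [this, hω3]
    linear_combination (x k) * h5
  have hs3 : (iota g₁) ^ 3 = 1 := by rw [← map_pow, hg3, map_one]
  have hN := hN_QQ hF hα g₁
  have hN' : ∀ y ∈ QQ hF hα 4, (iota g₁)⁻¹ * y * iota g₁ ∈ QQ hF hα 4 := by
    intro y hy
    have := hN_QQ hF hα g₁⁻¹ y hy
    rwa [map_inv, inv_inv] at this
  have hm' : K.index < 2 * Nat.card (QQ hF hα 4) := by
    rw [card_QQ hF hα]
    norm_num
    omega
  obtain ⟨y₀, hy₀, hfix⟩ := exists_conj_fixed hs3 hN hN' hQK hm' (three_not_dvd hF hα rfl)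
  have hQK' := QK_cj hF hα hQK hy₀
  have hKK' := KK_cj_top hF hα hKK hy₀
  have hmem : iota g₁ ∈ cj y₀ K := by
    rw [mem_cj]
    exact hfix
  have hm'' : (cj y₀ K).index < 672 := by
    rw [index_cj]
    exact hm
  set K' := cj y₀ K with hK'
  have hq0 : (2 : ℕ) ≠ 0 := by norm_num
  have hg₁S : g₁ ∈ Sg hF hα K' := by
    refine ⟨0, by rw [zero_pow hq0, add_zero], ?_⟩
    rw [EE_zero hF hα, one_mul]
    exact hmem
  have hfixg : ∀ u : Fin 4 → F, act g₁ u = u → u = 0 := by
    intro u hu
    funext k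
    have h1 := congrFun hu k
    rw [hg₁] at h1
    have h2 : (dgS ω {0, 1} k - 1) * u k = 0 := by linear_combination h1
    exact (mul_eq_zero.1 h2).resolve_left (sub_ne_zero.2 (dgS_ne_one hω1 hω2 _ k))
  -- the transvection
  have hij : (0 : Fin 4) ≠ 1 := by simp
  set w : Fin 4 → F := vv α 0 1 with hw
  have hwiso : hermForm 4 F 2 w w = 0 := vv_iso hF hα hij
  have hw0 : w 0 = 1 := vv_left hij
  have hw00 : w ≠ 0 := by
    intro h
    rw [h] at hw0
    exact zero_ne_one hw0
  have h11 : (1 : F) + 1 ^ 2 = 0 := by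
    rw [one_pow]
    linear_combination h2F
  have hact : act g₁ w = ω ^ 2 • w := by
    funext k
    rw [hg₁]
    show _ = ω ^ 2 * w k
    by_cases hk : k ∈ ({0, 1} : Finset (Fin 4))
    · unfold dgS
      rw [if_pos hk]
    · have h5 : w k = 0 := by
        apply vv_other
        · rintro rfl
          simp at hk
        · rintro rfl
          simp at hk
      rw [h5]
      ring
  have hcomm : tau hF w 1 * g₁ = g₁ * tau hF w 1 := by
    have h1 := conj_tau hF g₁ hwiso h11
    rw [hact, tau_smul hF hwiso h11] at h1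
    have h2 : ω ^ 2 * (ω ^ 2) ^ 2 * 1 = 1 := by
      have : ω ^ 2 * (ω ^ 2) ^ 2 * 1 = (ω ^ 3) ^ 2 := by ring
      rw [this, hω3, one_pow]
    rw [h2] at h1
    exact h1.symm
  obtain ⟨t, ht, hmt⟩ := Sg_of_comm hF hα hQK' hKK' hg₁S hfixg hcomm
  rw [iota_tau hF hα hwiso h11] at hmt
  set W : Fin (4 + 2) → F := inc w with hW
  have hWiso : hermForm (4 + 2) F 2 W W = 0 := by
    rw [hW, herm_inc hF]
    exact hwiso
  have hW0 : W ≠ 0 := by
    intro h
    apply hw00
    apply inc_injective
    rw [inc_zero]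
    exact h
  -- a test vector
  set s : Fin 4 → F := Pi.single 0 1 with hs
  have hsw : hermForm 4 F 2 s w ≠ 0 := by
    intro h
    have h1 := hermForm_conj hF s w
    rw [h, zero_pow hq0, hs, hermForm_single_right hF, hw0] at h1
    exact zero_ne_one h1
  have hsW : hermForm (4 + 2) F 2 (inc s) W ≠ 0 := by
    rw [hW, herm_inc hF]
    exact hsw
  have hsv : hermForm (4 + 2) F 2 (inc s) (vE α) = 0 := inc_vE hF s
  have hWv : hermForm (4 + 2) F 2 W (vE α) = 0 := inc_vE hF w
  have hvW : hermForm (4 + 2) F 2 (vE α) W = 0 := vE_inc hF w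
  have hviso := vE_iso (e := 4) hF hα
  by_cases ht0 : t = 0
  · rw [ht0, EE_zero hF hα, one_mul] at hmt
    refine regular4_miss hF hα hQK' hKK' hm'' (y := W) ⟨hWiso, hW0⟩ ?_
    rintro ⟨k, hk, hk'⟩
    have hk'' : act k (vE α) = W := hk'
    have hQ : QAp (act k (vE (e := 4) α)) (tau hF W 1) := by
      rw [hk'']
      constructor
      · rw [act_tau hF hWiso h11, hWiso]
        simp
      · intro x hx
        refine ⟨0, ?_⟩
        rw [act_tau hF hWiso h11, hx]
        simp
    have h1 := reg_free hF hα hQK' hk hmt hQ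
    have h4 := congrArg (fun g : SU (4 + 2) F 2 => act g (inc s)) h1
    simp only [act_one] at h4
    rw [act_tau hF hWiso h11, one_mul] at h4
    have h5 : hermForm (4 + 2) F 2 (inc s) W • W = 0 := by
      have := congrArg (fun z => z - inc s) h4
      simpa using this
    rcases smul_eq_zero.1 h5 with h6 | h6
    · exact hsW h6
    · exact hW0 h6
  · have ht1 : t = 1 := by
      have h1 : t * (t + 1) = 0 := by linear_combination ht
      have h4 := (mul_eq_zero.1 h1).resolve_left ht0
      linear_combination h4 - h2F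
    rw [ht1, EE_zero_eq_tau hF hα] at hmt
    set B : Fin (4 + 2) → F := vE α + W with hB
    have hBv : hermForm (4 + 2) F 2 B (vE α) = 0 := by
      rw [hB, hermForm_add_left, hviso, hWv, add_zero]
    have hBW : hermForm (4 + 2) F 2 B W = 0 := by
      rw [hB, hermForm_add_left, hvW, hWiso, add_zero]
    have hBiso : hermForm (4 + 2) F 2 B B = 0 := by
      conv_lhs => rw [show B = vE α + W from hB]
      rw [hermForm_add_right hF, hBv, hBW, add_zero]
    have hB0 : B ≠ 0 := by
      intro h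
      have h1 : hermForm (4 + 2) F 2 (inc s) B = hermForm (4 + 2) F 2 (inc s) W := by
        rw [hB, hermForm_add_right hF, hsv, zero_add]
      rw [h, hermForm_zero_right hF] at h1
      exact hsW h1.symm
    have hactE : ∀ x, act (tau hF (vE (e := 4) α) 1 * tau hF W 1) x =
        x + hermForm (4 + 2) F 2 x W • W + hermForm (4 + 2) F 2 x (vE α) • vE α := by
      intro x
      rw [act_mul, act_tau hF hWiso h11, act_tau hF hviso h11, hermForm_add_left, hermForm_smul_left, hWv]
      simp
    refine regular4_miss hF hα hQK' hKK' hm'' (y := B) ⟨hBiso, hB0⟩ ?_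
    rintro ⟨k, hk, hk'⟩
    have hk'' : act k (vE α) = B := hk'
    have hQ : QAp (act k (vE (e := 4) α)) (tau hF (vE (e := 4) α) 1 * tau hF W 1) := by
      rw [hk'']
      constructor
      · rw [hactE, hBv, hBW]
        simp
      · intro x hx
        refine ⟨hermForm (4 + 2) F 2 x W, ?_⟩
        have h4 : hermForm (4 + 2) F 2 x (vE α) = hermForm (4 + 2) F 2 x W := by
          rw [hB, hermForm_add_right hF] at hx
          linear_combination hx - (hermForm (4 + 2) F 2 x W) * h2F
        rw [hactE, h4, hB]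
        module
    have h1 := reg_free hF hα hQK' hk hmt hQ
    have h4 := hactE (inc s)
    rw [h1, act_one, hsv, zero_smul, add_zero] at h4
    have h5 : hermForm (4 + 2) F 2 (inc s) W • W = 0 := by
      have := congrArg (fun z => z - inc s) h4
      simpa using this.symm
    rcases smul_eq_zero.1 h5 with h6 | h6
    · exact hsW h6
    · exact hW0 h6

end Core

end Cfsg.Agent.Lib.PSUIdx
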