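import Mathlib
import Cfsg.Agent.Lib.PSUIdxV

/-!
# Even dimension over the field of four elements: the induction
-/

set_option autoImplicit false
set_option linter.unusedSectionVars false
set_option linter.unusedVariables false

namespace Cfsg.Agent.Lib.PSUIdx

open Matrix Cfsg Cfsg.Agent.Lib.HermForm Cfsg.Agent.Lib.FFNorm Cfsg.Agent.Lib.UnitaryE
  Cfsg.Agent.Lib.UnitarySU Cfsg.Agent.Lib.SUMinDeg
open Cfsg.Agent.Lib.PSU35A (cj mem_cj)

variable {F : Type*} [Field F] [Fintype F] {e : ℕ}

section Step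

variable (hF : Fintype.card F = 2 ^ 2) {α : F} (hα : α ^ 2 * α = -1)
include hF hα

/-- The inductive step when a transvection at `v` is missing. -/
theorem step2_core {J : ℕ} (he : 4 ≤ e) (hev : Even e)
    (IH : ∀ K : Subgroup (SU e F 2), K ≠ ⊤ → J ≤ 3 * K.index)
    (hJ : 2 ^ (e + 2) - 1 ≤ J)
    (K : Subgroup (SU (e + 2) F 2)) {c : F} (hc : c + c ^ 2 = 0)
    (hcK : EE (e := e) hF α 0 c ∉ K) :
    2 ^ (e + 1) * (2 ^ (e + 2) - 1) ≤ 3 * K.index := by
  classical
  by_contra hn
  push Not at hn
  obtain ⟨k, hk1, hk, H⟩ := mi_param hF hα K (by omega) hc hcK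
  have hr2 := card_sq_le_top hF hc (Z := ZZ hF hα K) (fun h => hcK h.2)
    (fun y hy y' hy' => comm_mem_ZZ hF hα hy' hy)
  have hz2 := two_mul_card_ZZ_le hF hα hc hcK
  set r := Nat.card (YY hF hα K) with hr
  set z := Nat.card (ZZ hF hα K) with hz
  set m := K.index with hm
  set i := (KK hF hα K).index with hi
  have hz1 : 1 ≤ z := Nat.card_pos
  have hz' : z = 1 := by omega
  rw [hz', mul_one] at H
  set T := 2 ^ e with hT
  have hT16 : 16 ≤ T := by
    calc 16 = 2 ^ 4 := by norm_num
      _ ≤ 2 ^ e := Nat.pow_le_pow_right (by norm_num) he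
  have h1 : ((2 : ℕ) ^ 2) ^ e = T * T := by
    rw [hT, ← pow_mul, ← pow_add]
    congr 1
    omega
  have e1 : 2 ^ (e + 1) = 2 * T := by rw [hT]; ring
  have e2 : 2 ^ (e + 2) = 4 * T := by rw [hT]; ring
  rw [e1, e2] at hn
  rw [e2] at hJ
  rw [h1] at H hr2
  have hrT : r ≤ T := by
    by_contra hcon
    push Not at hcon
    have h5 : T * T < r * r := Nat.mul_lt_mul'' hcon hcon
    have h6 : r ^ 2 = r * r := by ring
    omega
  have hG : 2 * T * i ≤ m := by
    have h5 : T * T * 2 * i ≤ m * T := by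
      calc T * T * 2 * i = T * T * 2 * 1 * i := by ring
        _ ≤ T * T * 2 * k * i := by gcongr
        _ ≤ m * r := H
        _ ≤ m * T := Nat.mul_le_mul_left _ hrT
    have h6 : (2 * T * i) * T ≤ m * T := by
      calc _ = T * T * 2 * i := by ring
        _ ≤ _ := h5
    exact Nat.le_of_mul_le_mul_right h6 (by omega)
  by_cases hKK : KK hF hα K = ⊤
  · by_cases hY : ∃ y ∈ YY hF hα K, y ≠ 0
    · obtain ⟨y, hyY, hy0⟩ := hY
      have hx : ∃ x : Fin e → F, hermForm e F 2 x x = 0 ∧ x ≠ 0 ∧ hermForm e F 2 y x ≠ 0 := by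
        by_contra hcon
        push Not at hcon
        exact hy0 (eq_zero_of_perp_iso hF (by omega) (fun x hx hx0 => hcon x hx hx0))
      obtain ⟨x, hxx, hx0, hyx⟩ := hx
      obtain ⟨θ, hθ0, hθ⟩ := SUGen.exists_trace_zero hF
      have hl : ∀ (l : SU e F 2) {u : Fin e → F}, u ∈ YY hF hα K → act l u ∈ YY hF hα K :=
        fun l u hu => YY_inv hF hα (by rw [hKK]; trivial) hu
      set a := θ * hermForm e F 2 y x with ha
      have ha0 : a ≠ 0 := mul_ne_zero hθ0 hyx
      have h5 : a • x ∈ YY hF hα K := by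
        have h6 := (YY hF hα K).sub_mem (hl (tau hF x θ) hyY) hyY
        rw [act_tau hF hxx hθ y, add_sub_cancel_left] at h6
        exact h6
      have h6 : ∀ x' ∈ IsoV e F 2, x' ∈ YY hF hα K := by
        intro x' hx'
        obtain ⟨l, hl'⟩ := exists_act_eq hF (n := e) (by omega) (x := a • x) (y := x')
          (by rw [hermForm_smul_left, hermForm_smul_right, hxx]; ring) (smul_ne_zero ha0 hx0)
          hx'.1 hx'.2
        rw [← hl']
        exact hl l h5
      have h7 : Nat.card (IsoV e F 2) ≤ r :=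
        Nat.card_le_card_of_injective (fun x : IsoV e F 2 => (⟨x.1, h6 x.1 x.2⟩ : YY hF hα K))
          (fun x x' h => Subtype.ext (congrArg (fun t : YY hF hα K => t.1) h))
      rw [card_IsoV hF e hev, ← hT] at h7
      have h8 : 2 ≤ 2 ^ (e - 1) + 1 := by
        have : 1 ≤ 2 ^ (e - 1) := Nat.one_le_pow _ _ (by norm_num)
        omega
      have h9 : (T - 1) * 2 ≤ (T - 1) * (2 ^ (e - 1) + 1) := Nat.mul_le_mul_left _ h8
      omega
    · push Not at hY
      have hY' : YY hF hα K = ⊥ := by
        rw [eq_bot_iff]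
        intro y hy
        exact hY y hy
      have hZ : ZZ hF hα K = ⊥ := AddSubgroup.eq_bot_of_card_eq _ hz'
      have hQK : ∀ y ∈ QQ hF hα e, y ∈ K → y = 1 := by
        rintro _ ⟨u, s, h, rfl⟩ hmem
        have hu := hY u ⟨s, h, hmem⟩
        subst hu
        have hs : s ∈ ZZ hF hα K := by
          refine ⟨?_, hmem⟩
          have := h
          unfold Gd at this
          rw [hermForm_zero_left, add_zero] at this
          exact this
        rw [hZ] at hs
        have hs0 : s = 0 := hs
        rw [hs0]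
        exact EE_zero hF hα
      by_cases h4 : e = 4
      · subst h4
        refine regular4 hF hα hQK hKK ?_
        have hT4 : T = 16 := by rw [hT]; norm_num
        rw [hT4] at hn
        omega
      · have he6 : 5 ≤ e := by omega
        have hm2 : m < 2 * (((2 : ℕ) ^ 2) ^ e * 2) := by
          rw [h1]
          have h5 : 2 * T * (4 * T - 1) ≤ 2 * T * (4 * T) := Nat.mul_le_mul_left _ (by omega)
          have h6 : 2 * T * (4 * T) = 8 * (T * T) := by ring
          have h7 : 2 * (T * T * 2) = 4 * (T * T) := by ring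
          omega
        obtain ⟨y₀, hy₀, hfix⟩ := regular_all hF hα he6 hQK hKK hm2
        have hS : Sg hF hα (cj y₀ K) = ⊤ := by
          rw [eq_top_iff]
          intro l _
          refine ⟨0, by rw [zero_pow (by norm_num), add_zero], ?_⟩
          rw [EE_zero hF hα, one_mul]
          exact hfix l
        refine closure_even_two hF hα (by omega) hev hS (QK_cj hF hα hQK hy₀) ?_
        rw [index_cj, e1, e2]
        exact hn
  · have hi2 := IH _ hKK
    have h5 : 2 * T * (3 * i) ≤ 3 * m := by
      calc 2 * T * (3 * i) = 3 * (2 * T * i) := by ring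
        _ ≤ _ := Nat.mul_le_mul_left _ hG
    have h6 : 2 * T * (4 * T - 1) ≤ 2 * T * (3 * i) := Nat.mul_le_mul_left _ (hJ.trans hi2)
    omega

end Step

section Main

variable (hF : Fintype.card F = 2 ^ 2)
include hF

/-- The bound in all even dimensions at least six. -/
theorem bound_even_two : ∀ (e : ℕ), Even e → 4 ≤ e → ∀ K : Subgroup (SU (e + 2) F 2), K ≠ ⊤ →
    2 ^ (e + 1) * (2 ^ (e + 2) - 1) ≤ 3 * K.index := by
  obtain ⟨α, hα0, hα⟩ := SUGen.exists_norm hF (-1 : F) (neg_ne_zero.2 one_ne_zero) (by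
    rw [neg_pow_q hF, one_pow])
  have hα' : α ^ 2 * α = -1 := by rw [mul_comm]; exact hα
  intro e
  induction e using Nat.strong_induction_on with
  | _ e ih =>
    intro hev he K hK
    obtain ⟨g, c, hc, hm⟩ := exists_conj_missing hF hα' (e := e) (by omega) (by omega) hK
    by_cases h4 : e = 4
    · subst h4
      have h := step2_core hF hα' (J := 81) (le_refl 4) hev (fun K' hK' => by
        have h1 := main4 hF (K := K') hK'
        norm_num at h1
        omega) (by norm_num) (cj g K) hc hm
      rwa [index_cj] at h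
    · have he6 : 6 ≤ e := by
        rcases hev with ⟨a, ha⟩
        omega
      obtain ⟨e₀, rfl⟩ : ∃ e₀, e = e₀ + 2 := ⟨e - 2, by omega⟩
      have hev₀ : Even e₀ := by
        rcases hev with ⟨a, ha⟩
        exact ⟨a - 1, by omega⟩
      have h := step2_core hF hα' (J := 2 ^ (e₀ + 1) * (2 ^ (e₀ + 2) - 1)) he hev
        (fun K' hK' => ih e₀ (by omega) hev₀ (by omega) K' hK') (by
          set T := 2 ^ e₀ with hT
          have hT16 : 16 ≤ T := by
            calc 16 = 2 ^ 4 := by norm_num
              _ ≤ 2 ^ e₀ := Nat.pow_le_pow_right (by norm_num) (by omega)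
          have e1 : 2 ^ (e₀ + 2 + 2) = 16 * T := by rw [hT]; ring
          have e2 : 2 ^ (e₀ + 1) = 2 * T := by rw [hT]; ring
          have e3 : 2 ^ (e₀ + 2) = 4 * T := by rw [hT]; ring
          rw [e1, e2, e3]
          have h1 : 2 * T * 8 ≤ 2 * T * (4 * T - 1) := Nat.mul_le_mul_left _ (by omega)
          have h2 : 2 * T * 8 = 16 * T := by ring
          omega) (cj g K) hc hm
      rwa [index_cj] at h

end Main

end Cfsg.Agent.Lib.PSUIdx
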