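import Mathlib
import Cfsg.Agent.Lib.PSolv
import Cfsg.Agent.Lib.PCore
import Cfsg.Agent.Lib.Carter

/-!
# The dual of the Hall-Higman lemma and the reduction to a `p'`-group acted on by a `p`-group
-/

set_option autoImplicit false
set_option linter.style.haveILetI false
set_option linter.unusedVariables false
set_option linter.unusedSectionVars false

namespace Cfsg.Agent.Lib.PSolvFaith2

open Cfsg Cfsg.Agent.Lib.PCore Cfsg.Agent.Lib.PSolv
open scoped Pointwise

universe u

variable {G : Type u} [Group G] {p : ℕ}

/-- The dual Hall-Higman lemma: in a `p`-solvable group with trivial `O_p`, `O_{p'}` contains its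
centralizer. -/
theorem centralizer_pPrimeCore_le_of_pSolvable [Finite G] [Fact p.Prime] (hsol : IsPSolvable p G)
    (h : pCore p G = ⊥) :
    Subgroup.centralizer (pPrimeCore p G : Set G) ≤ pPrimeCore p G := by
  obtain ⟨n, K, h0, hlast, hmono, hnorm, hidx⟩ := hsol
  set C := Subgroup.centralizer (pPrimeCore p G : Set G) with hC
  have key : ∀ i : Fin (n + 1), K i ⊓ C ≤ pPrimeCore p G := by
    intro i
    induction i using Fin.induction with
    | zero =>
      rw [h0, bot_inf_eq]
      exact bot_le
    | succ i ih =>
      have hKi := hnorm i.castSucc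
      have hKs := hnorm i.succ
      set E := K i.castSucc ⊓ C with hEdef
      set D := K i.succ ⊓ C with hDdef
      have hEN : E.Normal := by rw [hEdef]; infer_instance
      have hDN : D.Normal := by rw [hDdef]; infer_instance
      have hED : E ≤ D := inf_le_inf_right _ (hmono (Fin.castSucc_le_succ i))
      have hr : E.relIndex D ∣ (K i.castSucc).relIndex (K i.succ) :=
        relIndex_inf_dvd C (hmono (Fin.castSucc_le_succ i))
      have hEc : (Nat.card E).Coprime p := by
        have h1 : Nat.card E ∣ Nat.card (pPrimeCore p G) := Subgroup.card_dvd_of_le ih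
        exact Nat.Coprime.coprime_dvd_left h1 (card_pPrimeCore_coprime p)
      have hcard : Nat.card D = Nat.card E * E.relIndex D := by
        have := Subgroup.relIndex_mul_relIndex ⊥ E D bot_le hED
        rw [Subgroup.relIndex_bot_left, Subgroup.relIndex_bot_left] at this
        exact this.symm
      have hDC : D ≤ C := inf_le_right
      rcases coprime_or_pow_of_dvd hr (hidx i) with ⟨m, hm⟩ | hcop
      · -- the `p`-power case
        let E' : Subgroup D := E.subgroupOf D
        have hE'c : E' ≤ Subgroup.center D := by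
          intro x hx
          rw [Subgroup.mem_center_iff]
          rintro ⟨y, hy⟩
          apply Subtype.ext
          have hx' : (x : G) ∈ pPrimeCore p G := ih (Subgroup.mem_subgroupOf.mp hx)
          have := Subgroup.mem_centralizer_iff.mp (hDC hy) x hx'
          exact this.symm
        have hcardE' : Nat.card E' = Nat.card E :=
          Nat.card_congr (Subgroup.subgroupOfEquivOfLe hED).toEquiv
        have hidxE' : E'.index = E.relIndex D := rfl
        have hcop2 : (Nat.card E').Coprime E'.index := by
          rw [hcardE', hidxE', hm]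
          exact Nat.Coprime.pow_right _ hEc
        obtain ⟨L, hL, hLmem⟩ := exists_complement_of_central E' hE'c hcop2
        have hLN : (L.map D.subtype).Normal := by
          constructor
          rintro x ⟨⟨y, hy⟩, hyL, rfl⟩ g
          have hy2 : g * y * g⁻¹ ∈ D := hDN.conj_mem y hy g
          refine ⟨⟨g * y * g⁻¹, hy2⟩, ?_, rfl⟩
          show (⟨g * y * g⁻¹, hy2⟩ : D) ∈ L
          rw [hLmem]
          apply Subtype.ext
          have h3 := congrArg Subtype.val ((hLmem _).mp hyL)
          simp only [Subgroup.coe_pow, Subgroup.coe_one] at h3 ⊢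
          rw [conj_pow, h3]
          group
        have hcardL : Nat.card (L.map D.subtype) = E'.index := by
          rw [Subgroup.card_map_of_injective D.subtype_injective]
          exact (Subgroup.IsComplement'.index_eq_card hL.symm).symm
        have hLp : IsPGroup p (L.map D.subtype) := by
          apply IsPGroup.of_card (n := m)
          rw [hcardL, hidxE', hm]
        have hLle : L.map D.subtype ≤ pCore p G := le_pCore hLN hLp
        rw [h, le_bot_iff, ← Subgroup.card_eq_one, hcardL, Subgroup.index_eq_one] at hLle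
        intro x hx
        apply ih
        have : (⟨x, hx⟩ : D) ∈ E' := by rw [hLle]; exact Subgroup.mem_top _
        exact Subgroup.mem_subgroupOf.mp this
      · -- the coprime case
        apply le_pPrimeCore hDN
        rw [hcard]
        exact Nat.Coprime.mul_left hEc hcop
  have := key (Fin.last n)
  rw [hlast, top_inf_eq] at this
  exact this

/-- Being in the normalizer, by conjugation. -/
theorem mem_normalizer_of_conj {H : Subgroup G} {n : G} (hc : MulAut.conj n • H = H) :
    n ∈ Subgroup.normalizer (H : Set G) := by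
  rw [Subgroup.mem_normalizer_iff]
  intro x
  have h1 := Subgroup.smul_mem_pointwise_smul_iff (a := MulAut.conj n) (S := H) (x := x)
  rw [hc] at h1
  exact h1.symm

variable [Finite G] [Fact p.Prime]

/-- **The reduction.**  A `p'`-subgroup `H` and a `p`-subgroup `P` normalizing it, such that the
elements of `P` centralizing `H` lie in `O_p(G)` and `P` carries the `p`-part of `|G : O_p(G)|`. -/
theorem exists_complement_data (hsol : IsPSolvable p G) :
    ∃ H P : Subgroup G, ¬ p ∣ Nat.card H ∧ P ≤ Subgroup.normalizer (H : Set G) ∧ IsPGroup p P ∧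
      (∀ y ∈ P, (∀ h ∈ H, y * h = h * y) → y ∈ pCore p G) ∧
      ((pCore p G).index).factorization p = (((pCore p G).subgroupOf P).index).factorization p := by
  classical
  have hpp : p.Prime := Fact.out
  set U := pCore p G with hU
  have hUp : IsPGroup p U := isPGroup_pCore p
  let π := QuotientGroup.mk' U
  have hπ : Function.Surjective π := QuotientGroup.mk'_surjective U
  let R : Subgroup (G ⧸ U) := pPrimeCore p (G ⧸ U)
  have hRc : (Nat.card R).Coprime p := card_pPrimeCore_coprime p
  let L : Subgroup G := R.comap π
  have hLn : L.Normal := Subgroup.Normal.comap inferInstance π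
  have hker : π.ker = U := QuotientGroup.ker_mk' U
  have hUL : U ≤ L := by
    intro u hu
    show π u ∈ R
    have : π u = 1 := by
      rw [← MonoidHom.mem_ker, hker]
      exact hu
    rw [this]
    exact R.one_mem
  let U' : Subgroup L := U.subgroupOf L
  haveI : U'.Normal := Subgroup.normal_subgroupOf
  have hU'c : Nat.card U' = Nat.card U := Nat.card_congr (Subgroup.subgroupOfEquivOfLe hUL).toEquiv
  have hLc : Nat.card L = Nat.card R * Nat.card U := by
    have := card_comap_of_surjective π hπ R
    rw [hker] at this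
    exact this
  have hU'i : U'.index = Nat.card R := by
    have h1 := U'.card_mul_index
    rw [hU'c, hLc, mul_comm] at h1
    exact Nat.eq_of_mul_eq_mul_right Nat.card_pos h1
  obtain ⟨e, he⟩ := IsPGroup.iff_card.mp hUp
  have hcop : (Nat.card U').Coprime U'.index := by
    rw [hU'c, hU'i, he]
    exact Nat.Coprime.pow_left _ hRc.symm
  obtain ⟨K, hK⟩ := Subgroup.exists_right_complement'_of_coprime hcop
  let H : Subgroup G := K.map L.subtype
  have hHc : Nat.card H = Nat.card R := by
    rw [Subgroup.card_map_of_injective L.subtype_injective, ← hU'i]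
    exact (Subgroup.IsComplement'.index_eq_card hK.symm).symm
  have hHcp : (Nat.card H).Coprime p := by rw [hHc]; exact hRc
  have hHL : H ≤ L := Subgroup.map_subtype_le K
  have hdec : ∀ x ∈ L, ∃ u ∈ U, ∃ h ∈ H, x = u * h := by
    intro x hx
    obtain ⟨⟨⟨u, hu⟩, ⟨k, hk⟩⟩, hx', -⟩ := hK.existsUnique ⟨x, hx⟩
    refine ⟨u, Subgroup.mem_subgroupOf.mp hu, k, ⟨k, hk, rfl⟩, ?_⟩
    exact (congrArg Subtype.val hx').symm
  -- the Frattini argument
  let N : Subgroup G := Subgroup.normalizer (H : Set G)
  have hsup : U ⊔ N = ⊤ := by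
    rw [eq_top_iff]
    intro g _
    have hle : MulAut.conj g • H ≤ U ⊔ H := by
      intro z hz
      obtain ⟨y, hy, rfl⟩ := (Subgroup.mem_smul_pointwise_iff_exists _ _ _).mp hz
      have h1 : MulAut.conj g • y ∈ L := by
        rw [MulAut.smul_def, MulAut.conj_apply]
        exact hLn.conj_mem y (hHL hy) g
      obtain ⟨u, hu, h', hh', e1⟩ := hdec _ h1
      rw [e1]
      exact Subgroup.mul_mem _ (Subgroup.mem_sup_left hu) (Subgroup.mem_sup_right hh')
    obtain ⟨t, ht, hte⟩ := Cfsg.Agent.Lib.Carter.exists_conj_complement (p := p) U hUp H _ hHcp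
      (Cfsg.Agent.Lib.Carter.card_conj' H g) hle
    have ht' : t ∈ ((U ⊔ H : Subgroup G) : Set G) := ht
    rw [Subgroup.normal_mul] at ht'
    obtain ⟨u, hu, h', hh', rfl⟩ := Set.mem_mul.mp ht'
    have hh'' : MulAut.conj h' • H = H := by
      ext z
      constructor
      · intro hz
        obtain ⟨y, hy, rfl⟩ := (Subgroup.mem_smul_pointwise_iff_exists _ _ _).mp hz
        rw [MulAut.smul_def, MulAut.conj_apply]
        exact H.mul_mem (H.mul_mem hh' hy) (H.inv_mem hh')
      · intro hz
        refine (Subgroup.mem_smul_pointwise_iff_exists _ _ _).mpr ⟨h'⁻¹ * z * h', ?_, ?_⟩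
        · exact H.mul_mem (H.mul_mem (H.inv_mem hh') hz) hh'
        · rw [MulAut.smul_def, MulAut.conj_apply]
          group
    have h3 : MulAut.conj u • H = MulAut.conj g • H := by
      rw [← hte, map_mul, mul_smul, hh'']
    have h4 : MulAut.conj (u⁻¹ * g) • H = H := by
      rw [map_mul, mul_smul, ← h3, ← mul_smul, ← map_mul, inv_mul_cancel, map_one, one_smul]
    have h5 : u⁻¹ * g ∈ N := mem_normalizer_of_conj h4
    have h6 : g = u * (u⁻¹ * g) := by group
    rw [h6]
    exact Subgroup.mul_mem _ (Subgroup.mem_sup_left hu) (Subgroup.mem_sup_right h5)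
  have hidx1 : U.index = U.relIndex N := by
    rw [← Subgroup.relIndex_top_right U, ← hsup, Subgroup.relIndex_sup_left]
  -- the Sylow subgroup
  obtain ⟨Q⟩ : Nonempty (Sylow p N) := Sylow.nonempty
  let P : Subgroup G := (Q : Subgroup N).map N.subtype
  let V : Subgroup N := U.subgroupOf N
  haveI hVn : V.Normal := Subgroup.normal_subgroupOf
  have hVp : IsPGroup p V := by
    rintro ⟨⟨x, hxN⟩, hx⟩
    obtain ⟨k, hk⟩ := hUp ⟨x, Subgroup.mem_subgroupOf.mp hx⟩
    refine ⟨k, Subtype.ext (Subtype.ext ?_)⟩
    simpa using congrArg Subtype.val hk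
  have hVQ : V ≤ Q := (le_pCore hVn hVp).trans (pCore_le_sylow p Q)
  refine ⟨H, P, ?_, ?_, ?_, ?_, ?_⟩
  · intro hd
    have h1 : p ∣ Nat.gcd (Nat.card H) p := Nat.dvd_gcd hd dvd_rfl
    rw [hHcp] at h1
    exact hpp.one_lt.ne' (Nat.dvd_one.mp h1)
  · exact Subgroup.map_subtype_le _
  · exact Q.isPGroup'.map _
  · intro y hy hc
    have h1 : π y ∈ Subgroup.centralizer (R : Set (G ⧸ U)) := by
      rw [Subgroup.mem_centralizer_iff]
      intro r hr
      obtain ⟨x, rfl⟩ := hπ r
      obtain ⟨u, hu, h', hh', rfl⟩ := hdec x hr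
      have h2 : π u = 1 := by
        rw [← MonoidHom.mem_ker, hker]
        exact hu
      rw [map_mul, h2, one_mul, ← map_mul, ← map_mul, hc h' hh']
    have h2 := centralizer_pPrimeCore_le_of_pSolvable (PSolv.isPSolvable_quotient hsol U)
      (pCore_quotient_pCore p) h1
    have hyP : IsPGroup p P := Q.isPGroup'.map _
    obtain ⟨k, hk⟩ := hyP ⟨y, hy⟩
    have h3 : y ^ p ^ k = 1 := congrArg Subtype.val hk
    have h4 : (π y) ^ p ^ k = 1 := by rw [← map_pow, h3, map_one]
    have h5 : orderOf (π y) ∣ p ^ k := orderOf_dvd_of_pow_eq_one h4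
    have h6 : orderOf (π y) ∣ Nat.card R := Subgroup.orderOf_dvd_natCard R h2
    have h7 : orderOf (π y) = 1 := Nat.eq_one_of_dvd_coprimes (Nat.Coprime.pow_right k hRc) h6 h5
    rw [orderOf_eq_one_iff] at h7
    rw [← hker, MonoidHom.mem_ker]
    exact h7
  · have h1 : ((U.subgroupOf P).index) = V.relIndex Q := by
      show U.relIndex P = (U.comap N.subtype).relIndex Q
      rw [Subgroup.relIndex_comap]
    have h2 : V.relIndex Q * (Q : Subgroup N).index = V.index := Subgroup.relIndex_mul_index hVQ
    have h3 : ¬ p ∣ (Q : Subgroup N).index := Q.not_dvd_index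
    have h4 : U.index = V.index := hidx1
    rw [h1, h4, ← h2, Nat.factorization_mul (by
      intro h0
      have := Subgroup.index_ne_zero_of_finite (H := V)
      rw [← h2, h0, zero_mul] at this
      exact this rfl) (Subgroup.index_ne_zero_of_finite)]
    simp [Nat.factorization_eq_zero_of_not_dvd h3]

end Cfsg.Agent.Lib.PSolvFaith2
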