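import Mathlib
import Cfsg.Prelude.Def_Classical
import Cfsg.Agent.Lib.SpBasic
import Cfsg.Agent.Lib.SpCenter
import Cfsg.Agent.Lib.OrthSiegel2

/-!
# Conjugacy classes of involutions in `PSp`

Over a finite field of odd order, the group `PSp_{2m}(F)` has at most `m / 2 + 1` classes of involutions.
-/

set_option autoImplicit false
set_option linter.unusedSectionVars false
set_option linter.unusedSimpArgs false
set_option linter.unusedVariables false

namespace Cfsg.Agent.Lib.PSpClasses

open Matrix Cfsg.Agent.Lib.SpBasic Cfsg.Agent.Lib.SpCenter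

variable {F : Type*} [Field F] {m : ℕ}

/-- A symplectic family. -/
structure IsFam {k : ℕ} (e f : Fin k → Fin m ⊕ Fin m → F) : Prop where
  ee : ∀ i j, ω (e i) (e j) = 0
  ff : ∀ i j, ω (f i) (f j) = 0
  fe : ∀ i j, ω (f i) (e j) = if i = j then 1 else 0

/-- Orthogonality to a family. -/
def Perp {k : ℕ} (e f : Fin k → Fin m ⊕ Fin m → F) (x : Fin m ⊕ Fin m → F) : Prop :=
  ∀ i, ω (e i) x = 0 ∧ ω (f i) x = 0

theorem ω_sum_right {κ : Type*} (s : Finset κ) (x : Fin m ⊕ Fin m → F) (g : κ → Fin m ⊕ Fin m → F) :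
    ω x (∑ i ∈ s, g i) = ∑ i ∈ s, ω x (g i) := by
  classical
  induction s using Finset.induction_on with
  | empty => simp [ω_zero_right]
  | insert a s ha ih => rw [Finset.sum_insert ha, Finset.sum_insert ha, ω_add_right, ih]

theorem exists_perp {k : ℕ} (hk : k < m) (e f : Fin k → Fin m ⊕ Fin m → F) :
    ∃ w : Fin m ⊕ Fin m → F, w ≠ 0 ∧ Perp e f w := by
  let Φ : (Fin m ⊕ Fin m → F) →ₗ[F] (Fin k ⊕ Fin k → F) :=
    { toFun := fun x => Sum.elim (fun i => ω (e i) x) (fun i => ω (f i) x)
      map_add' := by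
        intro x y
        ext (i | i) <;> simp [ω_add_right]
      map_smul' := by
        intro c x
        ext (i | i) <;> simp [ω_smul_right] }
  have hker : LinearMap.ker Φ ≠ ⊥ := LinearMap.ker_ne_bot_of_finrank_lt (by
    simp only [Module.finrank_fintype_fun_eq_card, Fintype.card_sum, Fintype.card_fin]
    omega)
  obtain ⟨w, hw, hw0⟩ := Submodule.exists_mem_ne_zero_of_ne_bot hker
  refine ⟨w, hw0, fun i => ⟨?_, ?_⟩⟩
  · exact congrFun (LinearMap.mem_ker.1 hw) (Sum.inl i)
  · exact congrFun (LinearMap.mem_ker.1 hw) (Sum.inr i)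

theorem exists_perp_pair {k : ℕ} {e f : Fin k → Fin m ⊕ Fin m → F} (h : IsFam e f)
    {w : Fin m ⊕ Fin m → F} (hw : Perp e f w) (h0 : w ≠ 0) :
    ∃ y, Perp e f y ∧ ω w y ≠ 0 := by
  obtain ⟨y, hy⟩ := exists_ω_ne_zero h0
  refine ⟨y - ∑ i, ω (f i) y • e i + ∑ i, ω (e i) y • f i, fun j => ⟨?_, ?_⟩, ?_⟩
  · rw [ω_add_right, ω_sub_right, ω_sum_right, ω_sum_right]
    have h1 : ∑ i, ω (e j) (ω (f i) y • e i) = 0 :=
      Finset.sum_eq_zero fun i _ => by rw [ω_smul_right, h.ee, mul_zero]
    have h2 : ∑ i, ω (e j) (ω (e i) y • f i) = - ω (e j) y := by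
      rw [Finset.sum_eq_single j]
      · rw [ω_smul_right, ω_comm (e j) (f j), h.fe, if_pos rfl]
        ring
      · intro i _ hi
        rw [ω_smul_right, ω_comm (e j) (f i), h.fe, if_neg hi]
        ring
      · simp
    rw [h1, h2]
    ring
  · rw [ω_add_right, ω_sub_right, ω_sum_right, ω_sum_right]
    have h1 : ∑ i, ω (f j) (ω (f i) y • e i) = ω (f j) y := by
      rw [Finset.sum_eq_single j]
      · rw [ω_smul_right, h.fe, if_pos rfl]
        ring
      · intro i _ hi
        rw [ω_smul_right, h.fe, if_neg (Ne.symm hi)]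
        ring
      · simp
    have h2 : ∑ i, ω (f j) (ω (e i) y • f i) = 0 :=
      Finset.sum_eq_zero fun i _ => by rw [ω_smul_right, h.ff, mul_zero]
    rw [h1, h2]
    ring
  · rw [ω_add_right, ω_sub_right, ω_sum_right, ω_sum_right]
    have h1 : ∑ i, ω w (ω (f i) y • e i) = 0 :=
      Finset.sum_eq_zero fun i _ => by rw [ω_smul_right, ω_comm w (e i), (hw i).1]; ring
    have h2 : ∑ i, ω w (ω (e i) y • f i) = 0 :=
      Finset.sum_eq_zero fun i _ => by rw [ω_smul_right, ω_comm w (f i), (hw i).2]; ring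
    rw [h1, h2]
    simpa using hy

theorem IsFam.snoc {k : ℕ} {e f : Fin k → Fin m ⊕ Fin m → F} (h : IsFam e f)
    {e₀ f₀ : Fin m ⊕ Fin m → F} (he : Perp e f e₀) (hf : Perp e f f₀) (h1 : ω f₀ e₀ = 1) :
    IsFam (Fin.snoc (α := fun _ => Fin m ⊕ Fin m → F) e e₀)
      (Fin.snoc (α := fun _ => Fin m ⊕ Fin m → F) f f₀) := by
  refine ⟨?_, ?_, ?_⟩
  · intro i j
    induction i using Fin.lastCases with
    | last =>
      induction j using Fin.lastCases with
      | last => simp only [Fin.snoc_last, ω_self]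
      | cast j =>
        simp only [Fin.snoc_last, Fin.snoc_castSucc]
        rw [ω_comm, (he j).1, neg_zero]
    | cast i =>
      induction j using Fin.lastCases with
      | last =>
        simp only [Fin.snoc_last, Fin.snoc_castSucc]
        exact (he i).1
      | cast j =>
        simp only [Fin.snoc_castSucc]
        exact h.ee i j
  · intro i j
    induction i using Fin.lastCases with
    | last =>
      induction j using Fin.lastCases with
      | last => simp only [Fin.snoc_last, ω_self]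
      | cast j =>
        simp only [Fin.snoc_last, Fin.snoc_castSucc]
        rw [ω_comm, (hf j).2, neg_zero]
    | cast i =>
      induction j using Fin.lastCases with
      | last =>
        simp only [Fin.snoc_last, Fin.snoc_castSucc]
        exact (hf i).2
      | cast j =>
        simp only [Fin.snoc_castSucc]
        exact h.ff i j
  · intro i j
    induction i using Fin.lastCases with
    | last =>
      induction j using Fin.lastCases with
      | last => simp only [Fin.snoc_last, h1, if_true]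
      | cast j =>
        simp only [Fin.snoc_last, Fin.snoc_castSucc]
        rw [ω_comm, (hf j).1, neg_zero, if_neg (Fin.castSucc_lt_last j).ne']
    | cast i =>
      induction j using Fin.lastCases with
      | last =>
        simp only [Fin.snoc_last, Fin.snoc_castSucc]
        rw [(he i).2, if_neg (Fin.castSucc_lt_last i).ne]
      | cast j =>
        simp only [Fin.snoc_castSucc]
        rw [h.fe i j]
        simp only [Fin.castSucc_inj]

theorem IsFam.comp {k : ℕ} {e f : Fin k → Fin m ⊕ Fin m → F} (h : IsFam e f) (π : Equiv.Perm (Fin k)) :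
    IsFam (e ∘ π) (f ∘ π) := by
  refine ⟨fun i j => h.ee _ _, fun i j => h.ff _ _, fun i j => ?_⟩
  simp only [Function.comp_apply, h.fe, π.injective.eq_iff]

theorem mem_sp_of_basis {A : Matrix (Fin m ⊕ Fin m) (Fin m ⊕ Fin m) F}
    (h : ∀ a b, ω (A *ᵥ Pi.single a 1) (A *ᵥ Pi.single b 1) =
      ω (Pi.single a 1 : Fin m ⊕ Fin m → F) (Pi.single b 1)) : A ∈ symplecticGroup (Fin m) F := by
  rw [SymplecticGroup.mem_iff']
  ext a b
  have := h a b
  rw [ω_eq_transpose, ω] at this
  simpa using this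

theorem exists_frame {e f : Fin m → Fin m ⊕ Fin m → F} (h : IsFam e f) :
    ∃ g : Sp (Fin m) F, (∀ i, g • (eL i : Fin m ⊕ Fin m → F) = e i) ∧
      ∀ i, g • (eR i : Fin m ⊕ Fin m → F) = f i := by
  let M : Matrix (Fin m ⊕ Fin m) (Fin m ⊕ Fin m) F := Matrix.of fun a b => Sum.elim e f b a
  have h1 : ∀ i, M *ᵥ (eL i : Fin m ⊕ Fin m → F) = e i := by
    intro i
    rw [mulVec_single_one]
    rfl
  have h2 : ∀ i, M *ᵥ (eR i : Fin m ⊕ Fin m → F) = f i := by
    intro i
    rw [mulVec_single_one]
    rfl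
  refine ⟨⟨M, mem_sp_of_basis ?_⟩, h1, h2⟩
  rintro (i | i) (j | j)
  · rw [h1, h1, ω_eL_right, h.ee]
    simp
  · rw [h1, h2]
    show ω (e i) (f j) = ω (eL i) (eR j)
    rw [ω_eR_right, ω_comm, h.fe]
    simp [Pi.single_apply, eq_comm]
  · rw [h2, h1]
    show ω (f i) (e j) = ω (eR i) (eL j)
    rw [ω_eL_right, h.fe]
    simp [Pi.single_apply, eq_comm]
  · rw [h2, h2, ω_eR_right, h.ff]
    simp

theorem Sp_ext_basis {a b : Sp (Fin m) F} (h1 : ∀ i, a • (eL i : Fin m ⊕ Fin m → F) = b • eL i)
    (h2 : ∀ i, a • (eR i : Fin m ⊕ Fin m → F) = b • eR i) : a = b := by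
  apply Subtype.ext
  ext p q
  rcases q with i | i
  · have := congrFun (h1 i) p
    rw [Sp_smul_def, Sp_smul_def, mulVec_single_one, mulVec_single_one] at this
    exact this
  · have := congrFun (h2 i) p
    rw [Sp_smul_def, Sp_smul_def, mulVec_single_one, mulVec_single_one] at this
    exact this

theorem isConj_of_eq {G : Type*} [Group G] {g g' t t' : G} (h : g⁻¹ * t * g = g'⁻¹ * t' * g') :
    IsConj t t' := by
  refine isConj_iff.2 ⟨g' * g⁻¹, ?_⟩
  have : t' = g' * (g'⁻¹ * t' * g') * g'⁻¹ := by group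
  rw [this, ← h]
  group

/-! ### `t² = -1` -/

section neg

variable (t : Sp (Fin m) F) (ht : ∀ x : Fin m ⊕ Fin m → F, t • t • x = -x)

include ht

theorem perp_neg {k : ℕ} {v : Fin k → Fin m ⊕ Fin m → F} {x : Fin m ⊕ Fin m → F}
    (hx : Perp (fun i => t • v i) v x) : Perp (fun i => t • v i) v (t • x) := by
  intro i
  constructor
  · show ω (t • v i) (t • x) = 0
    rw [ω_smul_smul]
    exact (hx i).2
  · have h1 : ω (t • v i) (t • t • x) = ω (v i) (t • x) := ω_smul_smul _ _ _
    rw [← h1, ht, ω_neg_right, (hx i).1, neg_zero]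

theorem S_symm (a b : Fin m ⊕ Fin m → F) : ω a (t • b) = ω b (t • a) := by
  have h1 : ω (t • b) (t • t • a) = ω b (t • a) := ω_smul_smul _ _ _
  rw [← h1, ht, ω_neg_right, ω_comm a]

theorem exists_fam_neg [Fintype F] (h2 : (2 : F) ≠ 0) (k : ℕ) (hk : k ≤ m) :
    ∃ v : Fin k → Fin m ⊕ Fin m → F, IsFam (fun i => t • v i) v := by
  induction k with
  | zero => exact ⟨Fin.elim0, ⟨fun i => i.elim0, fun i => i.elim0, fun i => i.elim0⟩⟩
  | succ k ih =>
    obtain ⟨v, hv⟩ := ih (by omega)
    obtain ⟨w, hw0, hw⟩ := exists_perp (show k < m by omega) (fun i => t • v i) v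
    obtain ⟨y, hy, hwy⟩ := exists_perp_pair hv hw hw0
    -- a vector with `S u u ≠ 0`
    obtain ⟨u, hu, hSu⟩ : ∃ u, Perp (fun i => t • v i) v u ∧ ω u (t • u) ≠ 0 := by
      set y' : Fin m ⊕ Fin m → F := -(t • y) with hy'
      have hy'P : Perp (fun i => t • v i) v y' := by
        intro i
        have := perp_neg t ht hy i
        rw [hy', ω_neg_right, ω_neg_right, this.1, this.2]
        simp
      have hwy' : ω w (t • y') = ω w y := by
        rw [hy', smul_neg, ht, neg_neg]
      by_cases h3 : ω w (t • w) = 0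
      · by_cases h4 : ω y' (t • y') = 0
        · refine ⟨w + y', fun i => ?_, ?_⟩
          · rw [ω_add_right, ω_add_right, (hw i).1, (hw i).2, (hy'P i).1, (hy'P i).2]
            simp
          · rw [smul_add, ω_add_left, ω_add_right, ω_add_right, h3, h4, hwy',
              S_symm t ht y' w, hwy', zero_add, add_zero]
            rw [← two_mul]
            exact mul_ne_zero h2 hwy
        · refine ⟨y', hy'P, h4⟩
      · exact ⟨w, hw, h3⟩
    obtain ⟨α, β, hαβ⟩ := Cfsg.Agent.Lib.OrthSiegel2.exists_sum_eq h2 (a := 1) (b := 1) one_ne_zero one_ne_zero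
      (ω u (t • u))⁻¹
    set u' : Fin m ⊕ Fin m → F := α • u + β • (t • u) with hu'
    have hPtu := perp_neg t ht hu
    have hu'P : Perp (fun i => t • v i) v u' := by
      intro i
      rw [hu', ω_add_right, ω_add_right, ω_smul_right, ω_smul_right, ω_smul_right, ω_smul_right,
        (hu i).1, (hu i).2, (hPtu i).1, (hPtu i).2]
      simp
    have hPtu' := perp_neg t ht hu'P
    have hS : ω u' (t • u') = 1 := by
      have h5 : t • u' = α • (t • u) - β • u := by
        rw [hu', smul_add, smul_comm, smul_comm t β, ht, smul_neg, sub_eq_add_neg]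
      have h6 : ω (t • u) (t • u) = 0 := ω_self _
      have h7 : ω (t • u) u = - ω u (t • u) := ω_comm _ _
      rw [h5, hu']
      simp only [ω_add_left, ω_sub_right, ω_smul_left, ω_smul_right, h6, h7, ω_self]
      have h8 : (α * α + β * β) * ω u (t • u) = 1 := by
        have : α * α * 1 + β * β * 1 = α * α + β * β := by ring
        rw [← this, hαβ, inv_mul_cancel₀ hSu]
      linear_combination h8
    refine ⟨Fin.snoc (α := fun _ => Fin m ⊕ Fin m → F) v u', ?_⟩
    have hfun : (fun i => t • (Fin.snoc (α := fun _ => Fin m ⊕ Fin m → F) v u' : Fin (k + 1) → _) i)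
        = Fin.snoc (α := fun _ => Fin m ⊕ Fin m → F) (fun i => t • v i) (t • u') := by
      funext i
      induction i using Fin.lastCases with
      | last => simp only [Fin.snoc_last]
      | cast i => simp only [Fin.snoc_castSucc]
    rw [hfun]
    exact hv.snoc hPtu' hu'P hS

end neg

theorem isConj_neg [Fintype F] (h2 : (2 : F) ≠ 0) (t t' : Sp (Fin m) F)
    (ht : ∀ x : Fin m ⊕ Fin m → F, t • t • x = -x) (ht' : ∀ x : Fin m ⊕ Fin m → F, t' • t' • x = -x) :
    IsConj t t' := by
  obtain ⟨v, hv⟩ := exists_fam_neg t ht h2 m le_rfl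
  obtain ⟨v', hv'⟩ := exists_fam_neg t' ht' h2 m le_rfl
  obtain ⟨g, hg1, hg2⟩ := exists_frame hv
  obtain ⟨g', hg1', hg2'⟩ := exists_frame hv'
  apply isConj_of_eq (g := g) (g' := g')
  have key : ∀ (g t : Sp (Fin m) F) (v : Fin m → Fin m ⊕ Fin m → F), (∀ x : Fin m ⊕ Fin m → F, t • t • x = -x) →
      (∀ i, g • (eL i : Fin m ⊕ Fin m → F) = t • v i) → (∀ i, g • (eR i : Fin m ⊕ Fin m → F) = v i) →
      (∀ i, (g⁻¹ * t * g) • (eL i : Fin m ⊕ Fin m → F) = -eR i) ∧
        (∀ i, (g⁻¹ * t * g) • (eR i : Fin m ⊕ Fin m → F) = eL i) := by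
    intro g t v ht h1 h2
    constructor
    · intro i
      rw [mul_smul, mul_smul, h1, ht, inv_smul_eq_iff, smul_neg, h2]
    · intro i
      rw [mul_smul, mul_smul, h2, inv_smul_eq_iff, h1]
  obtain ⟨k1, k2⟩ := key g t v ht hg1 hg2
  obtain ⟨k1', k2'⟩ := key g' t' v' ht' hg1' hg2'
  apply Sp_ext_basis
  · intro i
    rw [k1, k1']
  · intro i
    rw [k2, k2']

/-! ### `t² = 1` -/

section pos

variable (t : Sp (Fin m) F) (ht : ∀ x : Fin m ⊕ Fin m → F, t • t • x = x)

/-- A symplectic family of eigenvectors. -/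
structure IsEigenFam {k : ℕ} (e f : Fin k → Fin m ⊕ Fin m → F) (σ : Fin k → F) : Prop where
  fam : IsFam e f
  sign : ∀ i, σ i = 1 ∨ σ i = -1
  he : ∀ i, t • e i = σ i • e i
  hf : ∀ i, t • f i = σ i • f i

include ht

theorem perp_pos {k : ℕ} {e f : Fin k → Fin m ⊕ Fin m → F} {σ : Fin k → F}
    (h : IsEigenFam t e f σ) {x : Fin m ⊕ Fin m → F}
    (hx : Perp e f x) : Perp e f (t • x) := by
  have hs : ∀ i, σ i ≠ 0 ∨ (1 : F) = 0 := by
    intro i
    rcases h.sign i with h1 | h1 <;> rw [h1] <;> simp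
  intro i
  constructor
  · have h1 : ω (t • e i) (t • t • x) = ω (e i) (t • x) := ω_smul_smul _ _ _
    rw [← h1, ht, h.he, ω_smul_left, (hx i).1, mul_zero]
  · have h1 : ω (t • f i) (t • t • x) = ω (f i) (t • x) := ω_smul_smul _ _ _
    rw [← h1, ht, h.hf, ω_smul_left, (hx i).2, mul_zero]

theorem exists_fam_pos (h2 : (2 : F) ≠ 0) (k : ℕ) (hk : k ≤ m) :
    ∃ (e f : Fin k → Fin m ⊕ Fin m → F) (σ : Fin k → F), IsEigenFam t e f σ := by
  induction k with
  | zero => exact ⟨Fin.elim0, Fin.elim0, Fin.elim0, ⟨⟨fun i => i.elim0, fun i => i.elim0, fun i => i.elim0⟩,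
      fun i => i.elim0, fun i => i.elim0, fun i => i.elim0⟩⟩
  | succ k ih =>
    obtain ⟨e, f, σ, H⟩ := ih (by omega)
    obtain ⟨w, hw0, hw⟩ := exists_perp (show k < m by omega) e f
    have hPtw := perp_pos t ht H hw
    -- an eigenvector
    obtain ⟨e₀, s, hs, he₀0, he₀, hte₀⟩ : ∃ (e₀ : Fin m ⊕ Fin m → F) (s : F), (s = 1 ∨ s = -1) ∧ e₀ ≠ 0 ∧
        Perp e f e₀ ∧ t • e₀ = s • e₀ := by
      by_cases h3 : t • w + w = 0
      · refine ⟨w, -1, Or.inr rfl, hw0, hw, ?_⟩
        rw [neg_smul, one_smul]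
        exact eq_neg_of_add_eq_zero_left h3
      · refine ⟨t • w + w, 1, Or.inl rfl, h3, ?_, ?_⟩
        · intro i
          rw [ω_add_right, ω_add_right, (hw i).1, (hw i).2, (hPtw i).1, (hPtw i).2]
          simp
        · rw [smul_add, ht, one_smul, add_comm]
    obtain ⟨y, hy, hey⟩ := exists_perp_pair H.fam he₀ he₀0
    have hPty := perp_pos t ht H hy
    have hss : s * s = 1 := by
      rcases hs with rfl | rfl <;> ring
    set y' : Fin m ⊕ Fin m → F := y + s • (t • y) with hy'
    have hty' : t • y' = s • y' := by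
      rw [hy', smul_add, smul_comm t s, ht, smul_add, smul_smul, hss, one_smul, add_comm]
    have hy'P : Perp e f y' := by
      intro i
      rw [hy', ω_add_right, ω_add_right, ω_smul_right, ω_smul_right, (hy i).1, (hy i).2, (hPty i).1, (hPty i).2]
      simp
    have he₀y' : ω e₀ y' = 2 * ω e₀ y := by
      have h1 : ω (t • e₀) (t • t • y) = ω e₀ (t • y) := ω_smul_smul _ _ _
      rw [ht, hte₀, ω_smul_left] at h1
      rw [hy', ω_add_right, ω_smul_right, ← h1, ← mul_assoc, hss]
      ring
    have hc : ω e₀ y' ≠ 0 := by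
      rw [he₀y']
      exact mul_ne_zero h2 hey
    set f₀ : Fin m ⊕ Fin m → F := (-(ω e₀ y')⁻¹) • y' with hf₀
    refine ⟨Fin.snoc (α := fun _ => Fin m ⊕ Fin m → F) e e₀, Fin.snoc (α := fun _ => Fin m ⊕ Fin m → F) f f₀,
      Fin.snoc (α := fun _ => F) σ s, ⟨H.fam.snoc he₀ ?_ ?_, ?_, ?_, ?_⟩⟩
    · intro i
      rw [hf₀, ω_smul_right, ω_smul_right, (hy'P i).1, (hy'P i).2]
      simp
    · rw [hf₀, ω_smul_left, ω_comm y']
      field_simp
    · intro i
      induction i using Fin.lastCases with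
      | last => simpa only [Fin.snoc_last] using hs
      | cast i => simpa only [Fin.snoc_castSucc] using H.sign i
    · intro i
      induction i using Fin.lastCases with
      | last => simpa only [Fin.snoc_last] using hte₀
      | cast i => simpa only [Fin.snoc_castSucc] using H.he i
    · intro i
      induction i using Fin.lastCases with
      | last =>
        simp only [Fin.snoc_last]
        rw [hf₀, smul_comm t, hty', smul_comm]
      | cast i => simpa only [Fin.snoc_castSucc] using H.hf i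

end pos

/-- The number of `+1`'s. -/
noncomputable def plusCount {k : ℕ} (σ : Fin k → F) : ℕ := by
  classical
  exact (Finset.univ.filter fun i => σ i = 1).card

theorem IsEigenFam.conj_eq {t : Sp (Fin m) F} {e f : Fin m → Fin m ⊕ Fin m → F} {σ : Fin m → F}
    (h : IsEigenFam t e f σ) {g : Sp (Fin m) F} (h1 : ∀ i, g • (eL i : Fin m ⊕ Fin m → F) = e i)
    (h2 : ∀ i, g • (eR i : Fin m ⊕ Fin m → F) = f i) :
    (∀ i, (g⁻¹ * t * g) • (eL i : Fin m ⊕ Fin m → F) = σ i • eL i) ∧
      (∀ i, (g⁻¹ * t * g) • (eR i : Fin m ⊕ Fin m → F) = σ i • eR i) := by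
  constructor
  · intro i
    rw [mul_smul, mul_smul, h1, h.he, inv_smul_eq_iff, smul_comm, h1]
  · intro i
    rw [mul_smul, mul_smul, h2, h.hf, inv_smul_eq_iff, smul_comm, h2]

theorem exists_perm_of_plusCount {k : ℕ} {σ σ' : Fin k → F} (hs : ∀ i, σ i = 1 ∨ σ i = -1)
    (hs' : ∀ i, σ' i = 1 ∨ σ' i = -1) (hc : plusCount σ = plusCount σ') (h2 : (2 : F) ≠ 0) :
    ∃ π : Equiv.Perm (Fin k), σ' ∘ π = σ := by
  classical
  have h3 : (1 : F) ≠ -1 := by
    intro h
    apply h2
    linear_combination h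
  have hcard : Fintype.card {i // σ i = 1} = Fintype.card {i // σ' i = 1} := by
    rw [Fintype.card_subtype, Fintype.card_subtype]
    unfold plusCount at hc
    convert hc
  let e₀ : {i // σ i = 1} ≃ {i // σ' i = 1} := Fintype.equivOfCardEq hcard
  refine ⟨e₀.extendSubtype, ?_⟩
  funext i
  simp only [Function.comp_apply]
  by_cases hi : σ i = 1
  · rw [hi]
    exact Equiv.extendSubtype_mem e₀ i hi
  · have h5 := Equiv.extendSubtype_not_mem e₀ i hi
    rcases hs i with h6 | h6
    · exact absurd h6 hi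
    rcases hs' (e₀.extendSubtype i) with h7 | h7
    · exact absurd h7 h5
    rw [h6, h7]

theorem isConj_pos [Fintype F] (h2 : (2 : F) ≠ 0) {t t' : Sp (Fin m) F} {e f e' f' : Fin m → Fin m ⊕ Fin m → F}
    {σ σ' : Fin m → F} (h : IsEigenFam t e f σ) (h' : IsEigenFam t' e' f' σ')
    (hc : plusCount σ = plusCount σ') : IsConj t t' := by
  obtain ⟨π, hπ⟩ := exists_perm_of_plusCount h.sign h'.sign hc h2
  have H' : IsEigenFam t' (e' ∘ π) (f' ∘ π) σ :=
    ⟨h'.fam.comp π, h.sign, fun i => by rw [← hπ]; exact h'.he _, fun i => by rw [← hπ]; exact h'.hf _⟩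
  obtain ⟨g, hg1, hg2⟩ := exists_frame h.fam
  obtain ⟨g', hg1', hg2'⟩ := exists_frame H'.fam
  apply isConj_of_eq (g := g) (g' := g')
  obtain ⟨k1, k2⟩ := h.conj_eq hg1 hg2
  obtain ⟨k1', k2'⟩ := H'.conj_eq hg1' hg2'
  apply Sp_ext_basis
  · intro i
    rw [k1, k1']
  · intro i
    rw [k2, k2']

theorem plusCount_neg {k : ℕ} {σ : Fin k → F} (hs : ∀ i, σ i = 1 ∨ σ i = -1) (h2 : (2 : F) ≠ 0) :
    plusCount (fun i => - σ i) = k - plusCount σ := by
  classical
  have h3 : (1 : F) ≠ -1 := by
    intro h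
    apply h2
    linear_combination h
  unfold plusCount
  have h4 : (Finset.univ.filter fun i => - σ i = 1) = (Finset.univ.filter fun i => σ i = 1)ᶜ := by
    ext i
    simp only [Finset.mem_filter, Finset.mem_univ, true_and, Finset.mem_compl]
    constructor
    · intro h5 h6
      rw [h6] at h5
      exact h3 (by linear_combination -h5)
    · intro h5
      rcases hs i with h6 | h6
      · exact absurd h6 h5
      · rw [h6]
        ring
  simp only [h4, Finset.card_compl, Fintype.card_fin]

theorem IsEigenFam.neg {k : ℕ} {t : Sp (Fin m) F} {e f : Fin k → Fin m ⊕ Fin m → F} {σ : Fin k → F}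
    (h : IsEigenFam t e f σ) : IsEigenFam (negOne * t) e f (fun i => - σ i) := by
  refine ⟨h.fam, fun i => ?_, fun i => ?_, fun i => ?_⟩
  · rcases h.sign i with h1 | h1
    · right
      rw [h1]
    · left
      rw [h1, neg_neg]
  · rw [mul_smul, negOne_smul, h.he, neg_smul]
  · rw [mul_smul, negOne_smul, h.hf, neg_smul]

/-- The labelling relation of an involution of `PSp`. -/
def Label [Fintype F] (x : Cfsg.PSp m F) (n : ℕ) : Prop :=
  (n = 0 ∧ ∃ t : Sp (Fin m) F, (t : Cfsg.PSp m F) = x ∧ ∀ v : Fin m ⊕ Fin m → F, t • t • v = -v) ∨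
  (∃ (t : Sp (Fin m) F) (e f : Fin m → Fin m ⊕ Fin m → F) (σ : Fin m → F), (t : Cfsg.PSp m F) = x ∧
    IsEigenFam t e f σ ∧ 1 ≤ plusCount σ ∧ plusCount σ < m ∧ n = min (plusCount σ) (m - plusCount σ))

theorem Label.le [Fintype F] {x : Cfsg.PSp m F} {n : ℕ} (h : Label x n) : n ≤ m / 2 := by
  rcases h with ⟨rfl, -⟩ | ⟨t, e, f, σ, -, -, h1, h2, rfl⟩
  · omega
  · omega

theorem Label.isConj [Fintype F] (h2 : (2 : F) ≠ 0) {x y : Cfsg.PSp m F} {n : ℕ} (hx : Label x n)
    (hy : Label y n) : IsConj x y := by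
  have hmap : ∀ {a b : Sp (Fin m) F}, IsConj a b → IsConj (a : Cfsg.PSp m F) (b : Cfsg.PSp m F) := by
    intro a b h
    exact MonoidHom.map_isConj (QuotientGroup.mk' (Subgroup.center (Sp (Fin m) F))) h
  rcases hx with ⟨rfl, t, rfl, ht⟩ | ⟨t, e, f, σ, rfl, H, h3, h4, h5⟩
  · rcases hy with ⟨-, t', rfl, ht'⟩ | ⟨t', e', f', σ', rfl, H', h3', h4', h5'⟩
    · exact hmap (isConj_neg h2 t t' ht ht')
    · omega
  · rcases hy with ⟨h6, t', rfl, ht'⟩ | ⟨t', e', f', σ', rfl, H', h3', h4', h5'⟩
    · omega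
    · have hcases : plusCount σ = plusCount σ' ∨ plusCount σ = m - plusCount σ' := by omega
      rcases hcases with h7 | h7
      · exact hmap (isConj_pos h2 H H' h7)
      · have h8 : IsConj t (negOne * t') := by
          refine isConj_pos h2 H H'.neg ?_
          rw [plusCount_neg H'.sign h2, h7]
        have h9 := hmap h8
        have h10 : ((negOne * t' : Sp (Fin m) F) : Cfsg.PSp m F) = (t' : Cfsg.PSp m F) := by
          rw [QuotientGroup.eq]
          have : (negOne * t')⁻¹ * t' = t'⁻¹ * (negOne : Sp (Fin m) F)⁻¹ * t' := by group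
          rw [this]
          exact Subgroup.Normal.conj_mem' inferInstance _ (inv_mem negOne_mem_center) t'
        rwa [h10] at h9

theorem exists_label [Fintype F] (h2 : (2 : F) ≠ 0) (hm : 0 < m) {x : Cfsg.PSp m F} (hx : orderOf x = 2) :
    ∃ n, Label x n := by
  have : Nonempty (Fin m) := ⟨⟨0, hm⟩⟩
  obtain ⟨t, rfl⟩ := QuotientGroup.mk_surjective x
  have h1 : ((t : Sp (Fin m) F) : Cfsg.PSp m F) ≠ 1 := by
    intro h
    rw [h, orderOf_one] at hx
    omega
  have h3 : t ∉ Subgroup.center (Sp (Fin m) F) := by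
    intro h
    exact h1 ((QuotientGroup.eq_one_iff t).2 h)
  have h4 : t * t ∈ Subgroup.center (Sp (Fin m) F) := by
    rw [← QuotientGroup.eq_one_iff]
    have := pow_orderOf_eq_one ((t : Sp (Fin m) F) : Cfsg.PSp m F)
    rw [hx, pow_two] at this
    exact this
  rcases mem_center_iff.1 h4 with h5 | h5
  · have ht : ∀ v : Fin m ⊕ Fin m → F, t • t • v = v := by
      intro v
      rw [← mul_smul, h5, one_smul]
    obtain ⟨e, f, σ, H⟩ := exists_fam_pos t ht h2 m le_rfl
    obtain ⟨g, hg1, hg2⟩ := exists_frame H.fam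
    obtain ⟨k1, k2⟩ := H.conj_eq hg1 hg2
    have hc1 : 1 ≤ plusCount σ := by
      by_contra hc
      apply h3
      have hall : ∀ i, σ i = -1 := by
        intro i
        rcases H.sign i with h6 | h6
        · exfalso
          apply hc
          classical
          unfold plusCount
          apply Finset.card_pos.2
          refine ⟨i, ?_⟩
          simp only [Finset.mem_filter, Finset.mem_univ, true_and]
          convert h6
        · exact h6
      have h7 : g⁻¹ * t * g = negOne := by
        apply Sp_ext_basis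
        · intro i
          rw [k1, hall, negOne_smul, neg_smul, one_smul]
        · intro i
          rw [k2, hall, negOne_smul, neg_smul, one_smul]
      have h8 : t = g * negOne * g⁻¹ := by
        rw [← h7]
        group
      rw [h8]
      exact Subgroup.Normal.conj_mem inferInstance _ negOne_mem_center g
    have hc2 : plusCount σ < m := by
      by_contra hc
      apply h3
      have hall : ∀ i, σ i = 1 := by
        classical
        have h9 : (Finset.univ.filter fun i => σ i = 1) = Finset.univ := by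
          apply Finset.eq_univ_of_card
          have h10 : plusCount σ ≤ (Finset.univ.filter fun i => σ i = 1).card := by
            unfold plusCount
            apply le_of_eq
            congr!
          have h11 := Finset.card_le_univ (Finset.univ.filter fun i => σ i = 1)
          rw [Fintype.card_fin] at h11 ⊢
          omega
        intro i
        have : i ∈ (Finset.univ.filter fun i => σ i = 1) := by rw [h9]; exact Finset.mem_univ i
        simpa using this
      have h7 : g⁻¹ * t * g = 1 := by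
        apply Sp_ext_basis
        · intro i
          rw [k1, hall, one_smul, one_smul]
        · intro i
          rw [k2, hall, one_smul, one_smul]
      have h8 : t = 1 := by
        have h9 : t = g * (g⁻¹ * t * g) * g⁻¹ := by group
        rw [h9, h7]
        group
      rw [h8]
      exact one_mem _
    exact ⟨_, Or.inr ⟨t, e, f, σ, rfl, H, hc1, hc2, rfl⟩⟩
  · refine ⟨0, Or.inl ⟨rfl, t, rfl, fun v => ?_⟩⟩
    rw [← mul_smul, h5, negOne_smul]

/-- The count of classes of involutions of `PSp`. -/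
theorem exists_class_fn [Fintype F] (h2 : (2 : F) ≠ 0) (hm : 0 < m) :
    ∃ c : Cfsg.PSp m F → ℕ, (∀ x, orderOf x = 2 → c x ≤ m / 2) ∧
      ∀ x y, orderOf x = 2 → orderOf y = 2 → c x = c y → IsConj x y := by
  classical
  have h : ∀ x : Cfsg.PSp m F, ∃ n, orderOf x = 2 → Label x n := by
    intro x
    by_cases hx : orderOf x = 2
    · obtain ⟨n, hn⟩ := exists_label h2 hm hx
      exact ⟨n, fun _ => hn⟩
    · exact ⟨0, fun h => absurd h hx⟩
  choose c hc using h
  refine ⟨c, fun x hx => (hc x hx).le, fun x y hx hy hxy => ?_⟩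
  have h3 := hc x hx
  have h4 := hc y hy
  rw [hxy] at h3
  exact h3.isConj h2 h4

end Cfsg.Agent.Lib.PSpClasses
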