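import Mathlib

/-!
Basic facts on permutation groups (shared library).
-/

set_option autoImplicit false

namespace Cfsg.Agent.Lib.PermCore

variable {α : Type*}

/-- A permutation commuting with a transitive set of permutations and with a fixed point is `1`. -/
lemma eq_one_of_commute_of_transitive (T : Set (Equiv.Perm α))
    (htrans : ∀ x y : α, ∃ t ∈ T, t x = y) {c : Equiv.Perm α}
    (hc : ∀ t ∈ T, Commute t c) {a : α} (ha : c a = a) : c = 1 := by
  ext x
  obtain ⟨t, ht, rfl⟩ := htrans a x
  have h2 : (t * c) a = (c * t) a := by rw [hc t ht]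
  simp only [Equiv.Perm.coe_mul, Function.comp_apply, ha] at h2
  simpa using h2.symm

/-- The image in `Perm α` of a subgroup of a subgroup of `Perm α` that is transitive on `α`. -/
lemma map_subtype_transitive {G : Subgroup (Equiv.Perm α)} (M : Subgroup G)
    [MulAction.IsPretransitive M α] (x y : α) :
    ∃ t ∈ ((M.map G.subtype : Subgroup (Equiv.Perm α)) : Set (Equiv.Perm α)), t x = y := by
  obtain ⟨m, hm⟩ := MulAction.exists_smul_eq M x y
  exact ⟨((m : G) : Equiv.Perm α), ⟨m, m.2, rfl⟩, hm⟩

/-- If `T` is a transitive subgroup of `Perm α` that is regular (point stabilisers trivial) then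
an element of the centraliser of `T` ... is determined by the image of a point; here: a transitive
subgroup whose centraliser contains it is self-centralising. -/
lemma centralizer_le_of_comm_transitive (T : Subgroup (Equiv.Perm α))
    (htrans : ∀ x y : α, ∃ t ∈ (T : Set (Equiv.Perm α)), t x = y)
    (hab : ∀ s ∈ T, ∀ t ∈ T, Commute s t) [Nonempty α] :
    Subgroup.centralizer (T : Set (Equiv.Perm α)) = T := by
  obtain ⟨a⟩ := ‹Nonempty α›
  apply le_antisymm
  · intro c hc
    have hc' : ∀ t ∈ (T : Set (Equiv.Perm α)), Commute t c := fun t ht =>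
      (Subgroup.mem_centralizer_iff.mp hc t ht)
    obtain ⟨m, hm, hma⟩ := htrans a (c a)
    have h1 : m⁻¹ * c = 1 := by
      apply eq_one_of_commute_of_transitive (T : Set (Equiv.Perm α)) htrans (a := a)
      · intro t ht
        exact (hab t ht _ hm).inv_right.mul_right (hc' t ht)
      · simp [← hma]
    rw [inv_mul_eq_one] at h1
    rw [← h1]
    exact hm
  · intro t ht
    rw [Subgroup.mem_centralizer_iff]
    intro s hs
    exact hab s hs t ht

/-- `T` transitive, `T'` centralising it and transitive: the centraliser of `T` is `T'`. -/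
lemma centralizer_eq_of_commuting_transitive (T T' : Subgroup (Equiv.Perm α))
    (htrans : ∀ x y : α, ∃ t ∈ (T : Set (Equiv.Perm α)), t x = y)
    (htrans' : ∀ x y : α, ∃ t ∈ (T' : Set (Equiv.Perm α)), t x = y)
    (hc : ∀ s ∈ T, ∀ t ∈ T', Commute s t) (a : α) :
    Subgroup.centralizer (T : Set (Equiv.Perm α)) = T' := by
  apply le_antisymm
  · intro c hc'
    have hc'' : ∀ t ∈ (T : Set (Equiv.Perm α)), Commute t c := fun t ht =>
      (Subgroup.mem_centralizer_iff.mp hc' t ht)
    obtain ⟨m, hm, hma⟩ := htrans' a (c a)
    have h1 : m⁻¹ * c = 1 := by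
      apply eq_one_of_commute_of_transitive (T : Set (Equiv.Perm α)) htrans (a := a)
      · intro t ht
        exact (hc t ht _ hm).inv_right.mul_right (hc'' t ht)
      · simp [← hma]
    rw [inv_mul_eq_one] at h1
    rw [← h1]
    exact hm
  · intro t ht
    rw [Subgroup.mem_centralizer_iff]
    intro s hs
    exact hc s hs t ht

end Cfsg.Agent.Lib.PermCore
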