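-- Library: lines of 3-transpositions when each member commutes with exactly a line; reflection lemmas.
import Mathlib
import Cfsg.Prelude.Def_FischerSpaces
import Cfsg.Agent.Lib.ThreeTransCore
import Cfsg.Agent.Lib.FischerW

set_option autoImplicit false
set_option linter.unusedSectionVars false
set_option linter.unusedSimpArgs false
set_option linter.unusedVariables false

open Cfsg
open Cfsg.Agent.Lib.ThreeTransCore Cfsg.Agent.Lib.FischerRel
open Cfsg.Agent.Lib.FischerW (RSet)

namespace Cfsg.Agent.Lib.PetLine

variable {G : Type*} [Group G]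

/-- Three involutions forming a line (the involutions of a copy of the symmetric group of degree 3). -/
structure IsLine (u v w : G) : Prop where
  uu : u * u = 1
  vv : v * v = 1
  ww : w * w = 1
  uvu : u * v * u = w
  vuv : v * u * v = w
  uwu : u * w * u = v
  wuw : w * u * w = v
  vwv : v * w * v = u
  wvw : w * v * w = u
  nc : ¬ Commute u v

namespace IsLine
variable {u v w : G}

theorem of_braid (huu : u * u = 1) (hvv : v * v = 1) (hb : u * v * u = v * u * v) (hnc : ¬ Commute u v) :
    IsLine u v (u * v * u) := by
  have h1 : u * (u * v * u) * u = v := by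
    calc u * (u * v * u) * u = (u * u) * v * (u * u) := by group
      _ = v := by rw [huu]; simp
  have h2 : v * (u * v * u) * v = u := by
    rw [hb]
    calc v * (v * u * v) * v = (v * v) * u * (v * v) := by group
      _ = u := by rw [hvv]; simp
  have hcc : (u * v * u) * (u * v * u) = 1 := by
    calc (u * v * u) * (u * v * u) = u * v * (u * u) * v * u := by group
      _ = u * (v * v) * u := by rw [huu]; group
      _ = 1 := by rw [hvv, mul_one, huu]
  have h3 : (u * v * u) * u * (u * v * u) = v := by
    calc (u * v * u) * u * (u * v * u) = u * v * (u * u) * (u * v * u) := by group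
      _ = u * v * u * v * u := by rw [huu]; group
      _ = (v * u * v) * v * u := by rw [hb]
      _ = v * u * (v * v) * u := by group
      _ = v * (u * u) := by rw [hvv]; group
      _ = v := by rw [huu, mul_one]
  have h4 : (u * v * u) * v * (u * v * u) = u := by
    calc (u * v * u) * v * (u * v * u) = (v * u * v) * v * (v * u * v) := by rw [hb]
      _ = v * u * (v * v) * (v * u * v) := by group
      _ = v * u * v * u * v := by rw [hvv]; group
      _ = (u * v * u) * u * v := by rw [hb]
      _ = u * v * (u * u) * v := by group
      _ = u * (v * v) := by rw [huu]; group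
      _ = u := by rw [hvv, mul_one]
  exact ⟨huu, hvv, hcc, rfl, hb.symm, h1, h3, h2, h4, hnc⟩

theorem swap12 (h : IsLine u v w) : IsLine v u w :=
  ⟨h.vv, h.uu, h.ww, h.vuv, h.uvu, h.vwv, h.wvw, h.uwu, h.wuw, fun hc => h.nc hc.symm⟩

theorem nc_vw (h : IsLine u v w) : ¬ Commute v w := by
  intro hc
  apply h.nc
  have h1 : w = u := by
    have := h.vwv
    have e : v * w * v = w := by
      calc v * w * v = (w * v) * v := by rw [hc.eq]
        _ = w * (v * v) := by group
        _ = w := by rw [h.vv, mul_one]
    rw [e] at this
    exact this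
  have h2 : u = v := by
    have := h.wuw
    rw [h1] at this
    have e : u * u * u = u := by rw [h.uu, one_mul]
    rw [e] at this
    exact this
  rw [h2]

theorem rot (h : IsLine u v w) : IsLine v w u :=
  ⟨h.vv, h.ww, h.uu, h.vwv, h.wvw, h.vuv, h.uvu, h.wuw, h.uwu, h.nc_vw⟩


theorem u_ne_v (h : IsLine u v w) : u ≠ v := by
  rintro rfl
  exact h.nc (Commute.refl _)

theorem v_ne_w (h : IsLine u v w) : v ≠ w := h.rot.u_ne_v

theorem u_ne_w (h : IsLine u v w) : u ≠ w := h.rot.rot.u_ne_v.symm

theorem nc_uw (h : IsLine u v w) : ¬ Commute u w := fun hc => h.rot.rot.nc hc.symm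

theorem swap23 (h : IsLine u v w) : IsLine u w v :=
  ⟨h.uu, h.ww, h.vv, h.uwu, h.wuw, h.uvu, h.vuv, h.wvw, h.vwv, h.nc_uw⟩

/-- Rotation identities. -/
theorem mul_eq₁ (h : IsLine u v w) : u * v = v * w := by
  calc u * v = (v * w * v) * v := by rw [h.vwv]
    _ = v * w * (v * v) := by group
    _ = v * w := by rw [h.vv, mul_one]

theorem mul_eq₂ (h : IsLine u v w) : v * w = w * u := h.rot.mul_eq₁

theorem mul_eq₃ (h : IsLine u v w) : w * u = u * v := (h.mul_eq₁.trans h.mul_eq₂).symm

end IsLine

section basics

variable {D : Set G}

theorem commute_mul_self_conj {a b : G} (haa : a * a = 1) (h : Commute a (a * b * a)) : Commute a b := by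
  have h1 : a * (a * b * a) = (a * b * a) * a := h
  have h2 : (a * a) * b * a = a * b * (a * a) := by
    calc (a * a) * b * a = a * (a * b * a) := by group
      _ = (a * b * a) * a := h1
      _ = a * b * (a * a) := by group
  rw [haa] at h2
  simp only [one_mul, mul_one] at h2
  have h3 : b * a = a * b := h2
  exact h3.symm

variable (h3 : IsThreeTranspositionSet D)
include h3

theorem isLine_of_not_commute {a b : G} (ha : a ∈ D) (hb : b ∈ D) (h : ¬ Commute a b) :
    IsLine a b (a * b * a) :=
  IsLine.of_braid (mul_self_of_mem h3 ha) (mul_self_of_mem h3 hb) (braid_of_not_commute h3 ha hb h) h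

/-- Line uniqueness: a point and its image determine the reflection. -/
theorem eq_of_conj_eq {f r r' : G} (hf : f ∈ D) (hr : r ∈ D) (hr' : r' ∈ D)
    (h1 : ¬ Commute f r) (h2 : ¬ Commute f r') (h : r * f * r = r' * f * r') : r = r' := by
  have l1 := (isLine_of_not_commute h3 hf hr h1).swap12
  have l2 := (isLine_of_not_commute h3 hf hr' h2).swap12
  -- `r f r` equals the third point of both lines
  have e1 : r * f * r = f * r * f := l1.uvu.trans l1.vuv.symm |>.trans (by rfl)
  have e2 : r' * f * r' = f * r' * f := l2.uvu.trans l2.vuv.symm |>.trans (by rfl)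
  have hff := mul_self_of_mem h3 hf
  have a1 : f * (f * r * f) * f = r := by
    calc f * (f * r * f) * f = (f * f) * r * (f * f) := by group
      _ = r := by rw [hff]; simp
  have a2 : f * (f * r' * f) * f = r' := by
    calc f * (f * r' * f) * f = (f * f) * r' * (f * f) := by group
      _ = r' := by rw [hff]; simp
  rw [← a1, ← a2, ← e1, ← e2, h]

/-- An element of `D` commuting with the product of two different members of `D` commutes with both. -/
theorem commute_of_commute_mul {y u v : G} (hy : y ∈ D) (hu : u ∈ D) (hv : v ∈ D) (hne : u ≠ v)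
    (h : Commute y (u * v)) : Commute y u ∧ Commute y v := by
  have huu := mul_self_of_mem h3 hu
  have hvv := mul_self_of_mem h3 hv
  have hconj : u * y * u = v * y * v := by
    have h1 : y * (u * v) = (u * v) * y := h
    have h2 : (u * y * u) * v = v * y := by
      calc (u * y * u) * v = u * (y * (u * v)) := by group
        _ = u * ((u * v) * y) := by rw [h1]
        _ = (u * u) * v * y := by group
        _ = v * y := by rw [huu, one_mul]
    calc u * y * u = (u * y * u) * (v * v) := by rw [hvv, mul_one]
      _ = ((u * y * u) * v) * v := by group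
      _ = v * y * v := by rw [h2]
  by_cases hyu : Commute y u
  · refine ⟨hyu, ?_⟩
    have : Commute y (u * (u * v)) := hyu.mul_right h
    rwa [← mul_assoc, huu, one_mul] at this
  · exfalso
    by_cases hyv : Commute y v
    · apply hyu
      have e : v * y * v = y := by
        calc v * y * v = y * v * v := by rw [hyv.eq]
          _ = y * (v * v) := by group
          _ = y := by rw [hvv, mul_one]
      rw [e] at hconj
      have : u * y = y * u := by
        calc u * y = (u * y * u) * u := by
              calc u * y = u * y * (u * u) := by rw [huu, mul_one]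
                _ = _ := by group
          _ = y * u := by rw [hconj]
      exact this.symm
    · exact hne (eq_of_conj_eq h3 hy hu hv hyu hyv hconj)

/-- The `A₃` computation. -/
theorem conj_string {y a c : G} (hy : y ∈ D) (ha : a ∈ D) (hc : c ∈ D) (hyc : y ≠ c) (hcomm : Commute y c)
    (hya : ¬ Commute y a) (hac : ¬ Commute a c) :
    Commute a (c * y * a * y * c) ∧ c * y * a * y * c ≠ a := by
  obtain ⟨φ, hinj, h1, h2, h3'⟩ := exists_sym4 h3 hy ha hc hyc hcomm hya hac
  have e1 : s12 * (s23 * s01 * s12 * s01 * s23) = (s23 * s01 * s12 * s01 * s23) * s12 := by decide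
  have e2 : (s23 * s01 * s12 * s01 * s23) ≠ s12 := by decide
  constructor
  · have := congrArg φ e1
    simpa only [map_mul, h1, h2, h3', Commute, SemiconjBy] using this
  · intro hh
    apply e2
    apply hinj
    simpa only [map_mul, h1, h2, h3'] using hh

end basics

end Cfsg.Agent.Lib.PetLine
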