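-- Library: sets of 3-transpositions in which each member commutes with exactly one line.
import Mathlib
import Cfsg.Prelude.Def_FischerSpaces
import Cfsg.Agent.Lib.PetLine

set_option autoImplicit false
set_option linter.unusedSectionVars false
set_option linter.unusedSimpArgs false
set_option linter.unusedVariables false

open Cfsg
open Cfsg.Agent.Lib.ThreeTransCore Cfsg.Agent.Lib.FischerRel Cfsg.Agent.Lib.PetLine
open Cfsg.Agent.Lib.FischerW (RSet)

namespace Cfsg.Agent.Lib.PetCtx

variable {G : Type*} [Group G] {D : Set G}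

/-- Standing hypotheses. -/
structure Ctx (D : Set G) : Prop where
  h3 : IsThreeTranspositionSet D
  conj : ∀ g : G, ∀ d ∈ D, g * d * g⁻¹ ∈ D
  line : ∀ d ∈ D, ∃ u v w : G, IsLine u v w ∧ RSet D d = {u, v, w}

namespace Ctx

variable (C : Ctx D)
include C

theorem conj' {u v : G} (hu : u ∈ D) (hv : v ∈ D) : u * v * u ∈ D := by
  have := C.conj u v hv
  rwa [inv_of_mem C.h3 hu] at this

theorem mem_symm {d y : G} (hd : d ∈ D) (h : y ∈ RSet D d) : d ∈ RSet D y :=
  ⟨hd, h.2.1.symm, h.2.2.symm⟩

theorem mem_RSet_conj' (g a y : G) :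
    y ∈ RSet D (g * a * g⁻¹) ↔ g⁻¹ * y * g ∈ RSet D a := by
  constructor
  · rintro ⟨h1, h2, h3⟩
    refine ⟨?_, ?_, ?_⟩
    · have := C.conj g⁻¹ _ h1
      rwa [inv_inv] at this
    · intro h
      apply h2
      rw [← h]
      group
    · exact (commute_conj_iff g a y).mp h3
  · rintro ⟨h1, h2, h3⟩
    refine ⟨?_, ?_, ?_⟩
    · have := C.conj g _ h1
      have e : g * (g⁻¹ * y * g) * g⁻¹ = y := by group
      rwa [e] at this
    · rintro rfl
      apply h2
      group
    · exact (commute_conj_iff g a y).mpr h3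

/-- The line through two neighbours. -/
theorem line_of_two {d p q : G} (hd : d ∈ D) (hp : p ∈ RSet D d) (hq : q ∈ RSet D d) (hne : p ≠ q) :
    ∃ w, IsLine p q w ∧ RSet D d = {p, q, w} := by
  obtain ⟨u, v, w, hl, hs⟩ := C.line d hd
  have hp' := hp
  have hq' := hq
  rw [hs] at hp' hq'
  have perm : ∀ a b c : G, ({a, b, c} : Set G) = {b, a, c} := fun a b c => Set.insert_comm a b _
  have perm2 : ∀ a b c : G, ({a, b, c} : Set G) = {a, c, b} := fun a b c => by
    rw [Set.pair_comm b c]
  rcases hp' with rfl | rfl | hp' <;> rcases hq' with rfl | rfl | hq'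
  · exact absurd rfl hne
  · exact ⟨w, hl, hs⟩
  · rw [Set.mem_singleton_iff] at hq'; subst hq'
    exact ⟨v, hl.swap23, by rw [hs, perm2]⟩
  · exact ⟨w, hl.swap12, by rw [hs, perm]⟩
  · exact absurd rfl hne
  · rw [Set.mem_singleton_iff] at hq'; subst hq'
    exact ⟨u, hl.rot, by rw [hs, perm, perm2]⟩
  · rw [Set.mem_singleton_iff] at hp'; subst hp'
    exact ⟨v, hl.rot.rot, by rw [hs, perm2, perm]⟩
  · rw [Set.mem_singleton_iff] at hp'; subst hp'
    exact ⟨u, hl.rot.swap12, by rw [hs, perm2, perm, perm2]⟩
  · rw [Set.mem_singleton_iff] at hp' hq'; subst hp'; subst hq'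
    exact absurd rfl hne

/-- The line through one neighbour. -/
theorem line_through {d p : G} (hd : d ∈ D) (hp : p ∈ RSet D d) :
    ∃ q w, IsLine p q w ∧ RSet D d = {p, q, w} := by
  obtain ⟨u, v, w, hl, hs⟩ := C.line d hd
  have hp' := hp
  rw [hs] at hp'
  have hu : u ∈ RSet D d := by rw [hs]; simp
  have hv : v ∈ RSet D d := by rw [hs]; simp
  rcases hp' with rfl | rfl | hp'
  · exact ⟨v, C.line_of_two hd hu hv hl.u_ne_v⟩
  · exact ⟨u, C.line_of_two hd hv hu hl.u_ne_v.symm⟩
  · rw [Set.mem_singleton_iff] at hp'; subst hp'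
    have hw : p ∈ RSet D d := by rw [hs]; simp
    exact ⟨u, C.line_of_two hd hw hu hl.u_ne_w.symm⟩

/-- The third point is determined. -/
theorem isLine_third {p q w : G} (h : IsLine p q w) : w = p * q * p := h.uvu.symm

/-- Two common neighbours determine the neighbourhood. -/
theorem rset_eq_of_two {r s p q : G} (hr : r ∈ D) (hs : s ∈ D) (hpr : p ∈ RSet D r) (hqr : q ∈ RSet D r)
    (hps : p ∈ RSet D s) (hqs : q ∈ RSet D s) (hne : p ≠ q) : RSet D r = RSet D s := by
  obtain ⟨w, hl, h1⟩ := C.line_of_two hr hpr hqr hne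
  obtain ⟨w', hl', h2⟩ := C.line_of_two hs hps hqs hne
  rw [h1, h2, hl.uvu.symm, hl'.uvu]

/-- Commutation with a conjugate by a commuting element. -/
theorem commute_conj_of_commute {z e r : G} (hzz : z * z = 1) (hzr : Commute z r)
    (h : Commute (z * e * z) r) : Commute e r := by
  have h1 : z * e * z * r = r * (z * e * z) := h
  have hzr' : z * r = r * z := hzr
  have h2 : e * r = r * e := by
    have : z * (e * r) * z = z * (r * e) * z := by
      calc z * (e * r) * z = z * e * (r * z) := by group
        _ = z * e * (z * r) := by rw [hzr']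
        _ = z * e * z * r := by group
        _ = r * (z * e * z) := h1
        _ = (r * z) * e * z := by group
        _ = (z * r) * e * z := by rw [hzr']
        _ = z * (r * e) * z := by group
    have h3 := mul_left_cancel (mul_right_cancel this)
    exact h3
  exact h2

/-- The neighbours of `e` obtained from a neighbour of `z`. -/
theorem t_mem {z e r : G} (hz : z ∈ D) (he : e ∈ D) (hr : r ∈ RSet D z) (hze : ¬ Commute z e)
    (her : ¬ Commute e r) : r * (z * e * z) * r ∈ RSet D e := by
  have h3 := C.h3
  have hr' : r ∈ D := hr.1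
  obtain ⟨h1, h2⟩ := conj_string h3 hz he hr' hr.2.1.symm hr.2.2 hze her
  have e1 : r * (z * e * z) * r = r * z * e * z * r := by group
  rw [e1]
  refine ⟨?_, h2, h1⟩
  have := C.conj (r * z) e he
  have e2 : (r * z) * e * (r * z)⁻¹ = r * z * e * z * r := by
    rw [mul_inv_rev, inv_of_mem h3 hr', inv_of_mem h3 hz]
    group
  rwa [e2] at this

theorem t_ne {z e r r' : G} (hz : z ∈ D) (he : e ∈ D) (hr : r ∈ RSet D z) (hr' : r' ∈ RSet D z)
    (hne : r ≠ r') (her : ¬ Commute e r) (her' : ¬ Commute e r') :
    r * (z * e * z) * r ≠ r' * (z * e * z) * r' := by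
  intro h
  apply hne
  have h3 := C.h3
  have hzz := mul_self_of_mem h3 hz
  refine eq_of_conj_eq h3 (C.conj' hz he) hr.1 hr'.1 ?_ ?_ h
  · exact fun hc => her (commute_conj_of_commute C hzz hr.2.2 hc)
  · exact fun hc => her' (commute_conj_of_commute C hzz hr'.2.2 hc)

/-- The rotation data. -/
theorem rot {z e u v w : G} (hz : z ∈ D) (he : e ∈ D) (hl : IsLine u v w) (hs : RSet D z = {u, v, w})
    (hze : ¬ Commute z e) (hu : ¬ Commute e u) (hv : ¬ Commute e v) (hw : ¬ Commute e w) :
    RSet D e = {u * (z * e * z) * u, v * (z * e * z) * v, w * (z * e * z) * w} ∧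
    IsLine (u * (z * e * z) * u) (v * (z * e * z) * v) (w * (z * e * z) * w) ∧
    (v * u) * (u * (z * e * z) * u) * (v * u)⁻¹ = v * (z * e * z) * v ∧
    (v * u) * (v * (z * e * z) * v) * (v * u)⁻¹ = w * (z * e * z) * w ∧
    (v * u) * (w * (z * e * z) * w) * (v * u)⁻¹ = u * (z * e * z) * u := by
  have hu' : u ∈ RSet D z := by rw [hs]; simp
  have hv' : v ∈ RSet D z := by rw [hs]; simp
  have hw' : w ∈ RSet D z := by rw [hs]; simp
  set f := z * e * z with hf
  have tu := C.t_mem hz he hu' hze hu
  have tv := C.t_mem hz he hv' hze hv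
  have tw := C.t_mem hz he hw' hze hw
  have nuv := C.t_ne hz he hu' hv' hl.u_ne_v hu hv
  have nuw := C.t_ne hz he hu' hw' hl.u_ne_w hu hw
  have nvw := C.t_ne hz he hv' hw' hl.v_ne_w hv hw
  rw [← hf] at tu tv tw nuv nuw nvw
  obtain ⟨w', hl', hs'⟩ := C.line_of_two he tu tv nuv
  have tw' := tw
  rw [hs'] at tw'
  have hw'eq : w * f * w = w' := by
    rcases tw' with h | h | h
    · exact absurd h.symm nuw
    · exact absurd h.symm nvw
    · exact h
  subst hw'eq
  have huu := hl.uu
  have hvv := hl.vv
  have hww := hl.ww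
  have hinv : (v * u)⁻¹ = u * v := by
    rw [mul_inv_rev, inv_eq_of_mul_eq_one_left huu, inv_eq_of_mul_eq_one_left hvv]
  refine ⟨hs', hl', ?_, ?_, ?_⟩
  · rw [hinv]
    calc (v * u) * (u * f * u) * (u * v) = v * (u * u) * f * (u * u) * v := by group
      _ = v * f * v := by rw [huu]; group
  · rw [hinv]
    calc (v * u) * (v * f * v) * (u * v) = (v * u * v) * f * (v * u * v) := by group
      _ = w * f * w := by rw [hl.vuv]
  · rw [hinv]
    have e1 : v * u * w = u := by
      have : u * w = v * u := by
        calc u * w = (u * w * u) * u := by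
              calc u * w = u * w * (u * u) := by rw [huu, mul_one]
                _ = _ := by group
          _ = v * u := by rw [hl.uwu]
      calc v * u * w = v * (u * w) := by group
        _ = v * (v * u) := by rw [this]
        _ = (v * v) * u := by group
        _ = u := by rw [hvv, one_mul]
    have e2 : w * u * v = u := by
      have : w * u = v * w := by
        calc w * u = w * u * (w * w) := by rw [hww, mul_one]
          _ = (w * u * w) * w := by group
          _ = v * w := by rw [hl.wuw]
      rw [this]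
      exact hl.vwv
    calc (v * u) * (w * f * w) * (u * v) = (v * u * w) * f * (w * u * v) := by group
      _ = u * f * u := by rw [e1, e2]

/-- The key lemma: a member far from `a` has a partner with the same neighbours. -/
theorem far {a e : G} (ha : a ∈ D) (he : e ∈ D) (hae : ¬ Commute a e)
    (hN : ∀ r ∈ RSet D a, ¬ Commute e r) : ∃ e' ∈ D, e' ≠ e ∧ RSet D e' = RSet D e := by
  obtain ⟨u, v, w, hl, hs⟩ := C.line a ha
  have hu' : u ∈ RSet D a := by rw [hs]; simp
  have hv' : v ∈ RSet D a := by rw [hs]; simp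
  have hw' : w ∈ RSet D a := by rw [hs]; simp
  obtain ⟨h1, h2, h3, h4, h5⟩ := C.rot ha he hl hs hae (hN u hu') (hN v hv') (hN w hw')
  refine ⟨(v * u) * e * (v * u)⁻¹, C.conj _ _ he, ?_, ?_⟩
  · intro h
    have hc : Commute e (v * u) := by
      have : (v * u) * e = e * (v * u) := by
        calc (v * u) * e = ((v * u) * e * (v * u)⁻¹) * (v * u) := by group
          _ = e * (v * u) := by rw [h]
      exact this.symm
    exact hN v hv' (commute_of_commute_mul C.h3 he hv'.1 hu'.1 hl.u_ne_v.symm hc).1
  · ext y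
    rw [C.mem_RSet_conj', h1]
    set t1 := u * (a * e * a) * u
    set t2 := v * (a * e * a) * v
    set t3 := w * (a * e * a) * w
    set g := v * u
    have b1 : g⁻¹ * t2 * g = t1 := by rw [← h3]; group
    have b2 : g⁻¹ * t3 * g = t2 := by rw [← h4]; group
    have b3 : g⁻¹ * t1 * g = t3 := by rw [← h5]; group
    constructor
    · rintro (hy | hy | hy)
      · right; left
        show y = t2
        rw [← h3, ← hy]
        group
      · right; right
        show y = t3
        rw [← h4, ← hy]
        group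
      · left
        have hy' : g⁻¹ * y * g = t3 := hy
        show y = t1
        rw [← h5, ← hy']
        group
    · rintro (hy | hy | hy)
      · right; right
        rw [hy]; exact b3
      · left
        rw [hy]; exact b1
      · right; left
        have hy' : y = t3 := hy
        rw [hy']; exact b2

end Ctx

end Cfsg.Agent.Lib.PetCtx
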