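-- Library: the local hypotheses give the symmetric group of degree 5 or a product of two of degree 3.
import Mathlib
import Cfsg.Prelude.Def_FischerSpaces
import Cfsg.Prelude.Def_Solvable
import Cfsg.Agent.Lib.PetCtx
import Cfsg.Agent.Lib.S5Cox
import Cfsg.Agent.Lib.PCore

set_option autoImplicit false
set_option linter.unusedSectionVars false
set_option linter.unusedSimpArgs false
set_option linter.unusedVariables false

open Cfsg Equiv Equiv.Perm
open Cfsg.Agent.Lib.ThreeTransCore Cfsg.Agent.Lib.FischerRel Cfsg.Agent.Lib.PetLine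
open Cfsg.Agent.Lib.FischerW (RSet)

namespace Cfsg.Agent.Lib.PetMain

open Cfsg.Agent.Lib.PetCtx

variable {G : Type*} [Group G] {D : Set G}

theorem sym3_third' : ∀ A B X : Perm (Fin 3), (A * A = 1 ∧ B * B = 1 ∧ X * X = 1 ∧ A ≠ 1 ∧ B ≠ 1 ∧ X ≠ 1 ∧
    A ≠ B) → (X = A ∨ X = B ∨ X = A * B * A) := by
  decide +kernel

theorem sym3_third (A B X : Perm (Fin 3)) (h1 : A * A = 1) (h2 : B * B = 1) (h3 : X * X = 1) (h4 : A ≠ 1)
    (h5 : B ≠ 1) (h6 : X ≠ 1) (h7 : A ≠ B) : X = A ∨ X = B ∨ X = A * B * A :=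
  sym3_third' A B X ⟨h1, h2, h3, h4, h5, h6, h7⟩

theorem ctx_of_loc (h3 : IsThreeTranspositionSet D) (hconj : ∀ g : G, ∀ d ∈ D, g * d * g⁻¹ ∈ D)
    (hloc : ∀ d ∈ D, Nonempty (↥(Subgroup.closure (RSet D d)) ≃* Perm (Fin 3))) : Ctx D := by
  refine ⟨h3, hconj, ?_⟩
  intro d hd
  obtain ⟨e⟩ := hloc d hd
  have hnc : ∃ u ∈ RSet D d, ∃ v ∈ RSet D d, ¬ Commute u v := by
    by_contra hall
    push Not at hall
    have hcg := Subgroup.isMulCommutative_closure (k := RSet D d) (fun x hx y hy => (hall x hx y hy))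
    have h2 : (e.symm (swap 0 1)) * (e.symm (swap 1 2)) = (e.symm (swap 1 2)) * (e.symm (swap 0 1)) :=
      hcg.is_comm.comm _ _
    have h4 := congrArg e h2
    simp only [map_mul, MulEquiv.apply_symm_apply] at h4
    revert h4
    decide
  obtain ⟨u, hu, v, hv, huv⟩ := hnc
  have hl := isLine_of_not_commute h3 hu.1 hv.1 huv
  refine ⟨u, v, u * v * u, hl, ?_⟩
  have hw : u * v * u ∈ RSet D d := by
    refine ⟨?_, ?_, ?_⟩
    · have := hconj u v hv.1
      rwa [inv_of_mem h3 hu.1] at this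
    · intro h
      have hc : Commute d u := hu.2.2
      rw [← h] at hc
      exact huv (commute_mul_self_conj hl.uu hc.symm)
    · exact (hu.2.2.mul_right hv.2.2).mul_right hu.2.2
  ext y
  constructor
  · intro hy
    have key : ∀ z (hz : z ∈ RSet D d), e ⟨z, Subgroup.subset_closure hz⟩ * e ⟨z, Subgroup.subset_closure hz⟩ = 1 ∧
        e ⟨z, Subgroup.subset_closure hz⟩ ≠ 1 := by
      intro z hz
      constructor
      · rw [← map_mul, ← map_one e]
        congr 1
        exact Subtype.ext (mul_self_of_mem h3 hz.1)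
      · intro h
        rw [← map_one e] at h
        have := congrArg Subtype.val (e.injective h)
        exact ne_one_of_mem h3 hz.1 this
    have hne : e ⟨u, Subgroup.subset_closure hu⟩ ≠ e ⟨v, Subgroup.subset_closure hv⟩ := by
      intro h
      exact hl.u_ne_v (congrArg Subtype.val (e.injective h))
    rcases sym3_third _ _ _ (key u hu).1 (key v hv).1 (key y hy).1 (key u hu).2 (key v hv).2 (key y hy).2 hne with
      h | h | h
    · left; exact congrArg Subtype.val (e.injective h)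
    · right; left; exact congrArg Subtype.val (e.injective h)
    · right; right
      rw [← map_mul, ← map_mul] at h
      exact congrArg Subtype.val (e.injective h)
  · rintro (rfl | rfl | hy)
    · exact hu
    · exact hv
    · rw [Set.mem_singleton_iff] at hy; subst hy; exact hw

/-! ### The Petersen case -/

/-- The transpositions. -/
def Tr : Finset (Perm (Fin 5)) := Finset.univ.image (fun g : Perm (Fin 5) => g * swap 0 1 * g⁻¹)

theorem Tr_card : Tr.card = 10 := by decide +kernel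

theorem Tr_conj (σ τ : Perm (Fin 5)) (h : τ ∈ Tr) : σ * τ * σ⁻¹ ∈ Tr := by
  obtain ⟨g, -, rfl⟩ := Finset.mem_image.mp h
  refine Finset.mem_image.mpr ⟨σ * g, Finset.mem_univ _, ?_⟩
  group

theorem Tr_pair : ∀ τ ∈ Tr, ∀ τ' ∈ Tr, τ ≠ τ' → ∃ g : Perm (Fin 5),
    (g * τ * g⁻¹ = swap 0 1 ∧ g * τ' * g⁻¹ = swap 1 2) ∨ (g * τ * g⁻¹ = swap 0 1 ∧ g * τ' * g⁻¹ = swap 2 3) := by
  decide +kernel

theorem Tr_cent : ∀ σ : Perm (Fin 5), σ ≠ 1 → ∃ τ ∈ Tr, σ * τ * σ⁻¹ ≠ τ := by
  decide +kernel

theorem swap01_mem : (swap 0 1 : Perm (Fin 5)) ∈ Tr := Finset.mem_image.mpr ⟨1, Finset.mem_univ _, by simp⟩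

theorem iso_of_hom [Finite G] (C : Ctx D) (hcard : D.ncard ≤ 10) (φ : Perm (Fin 5) →* G) {a b c e : G}
    (h0 : φ (swap 0 1) = a) (h1 : φ (swap 1 2) = b) (h2 : φ (swap 2 3) = c) (h3 : φ (swap 3 4) = e)
    (ha : a ∈ D) (hb : b ∈ D) (hc : c ∈ D) (he : e ∈ D) (hab : a ≠ b) (hac : a ≠ c) :
    Nonempty (↥(Subgroup.closure D) ≃* Perm (Fin 5)) := by
  classical
  have hTrinj : ∀ τ ∈ Tr, ∀ τ' ∈ Tr, φ τ = φ τ' → τ = τ' := by
    intro τ hτ τ' hτ' h
    by_contra hne
    obtain ⟨g, hg | hg⟩ := Tr_pair τ hτ τ' hτ' hne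
    · apply hab
      rw [← h0, ← h1, ← hg.1, ← hg.2]
      simp only [map_mul, map_inv, h]
    · apply hac
      rw [← h0, ← h2, ← hg.1, ← hg.2]
      simp only [map_mul, map_inv, h]
  have hinj : Function.Injective φ := by
    rw [injective_iff_map_eq_one]
    intro σ hσ
    by_contra hne
    obtain ⟨τ, hτ, hτ'⟩ := Tr_cent σ hne
    apply hτ'
    apply hTrinj _ (Tr_conj σ τ hτ) _ hτ
    simp only [map_mul, map_inv, hσ, one_mul, inv_one, mul_one]
  have hTrD : ∀ τ ∈ Tr, φ τ ∈ D := by
    intro τ hτ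
    obtain ⟨g, -, rfl⟩ := Finset.mem_image.mp hτ
    simp only [map_mul, map_inv, h0]
    exact C.conj _ _ ha
  have hsub : ((Tr.image φ : Finset G) : Set G) ⊆ D := by
    intro x hx
    obtain ⟨τ, hτ, rfl⟩ := Finset.mem_image.mp (Finset.mem_coe.mp hx)
    exact hTrD τ hτ
  have hcardS : (Tr.image φ).card = 10 := by
    rw [Finset.card_image_of_injOn, Tr_card]
    intro x hx y hy hxy
    exact hTrinj x hx y hy hxy
  have hDfin : D.Finite := Set.toFinite D
  have hDeq : ((Tr.image φ : Finset G) : Set G) = D := by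
    apply Set.eq_of_subset_of_ncard_le hsub _ hDfin
    rw [Set.ncard_coe_finset, hcardS]
    exact hcard
  have hrange : φ.range = Subgroup.closure D := by
    apply le_antisymm
    · rintro _ ⟨σ, rfl⟩
      have hσ : σ ∈ Submonoid.closure (Set.range fun i : Fin 4 => swap i.castSucc i.succ) := by
        rw [Perm.mclosure_swap_castSucc_succ 4]
        trivial
      induction hσ using Submonoid.closure_induction with
      | mem x hx =>
        obtain ⟨i, rfl⟩ := hx
        fin_cases i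
        · exact Subgroup.subset_closure (by simpa [h0] using ha)
        · exact Subgroup.subset_closure (by simpa [h1] using hb)
        · exact Subgroup.subset_closure (by simpa [h2] using hc)
        · exact Subgroup.subset_closure (by simpa [h3] using he)
      | one => simp [Subgroup.one_mem]
      | mul x y _ _ hx hy =>
        rw [map_mul]
        exact Subgroup.mul_mem _ hx hy
    · rw [Subgroup.closure_le]
      intro x hx
      rw [← hDeq] at hx
      obtain ⟨τ, hτ, rfl⟩ := Finset.mem_image.mp (Finset.mem_coe.mp hx)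
      exact ⟨τ, rfl⟩
  exact ⟨(MulEquiv.subgroupCongr hrange.symm).trans (MonoidHom.ofInjective hinj).symm⟩

end Cfsg.Agent.Lib.PetMain
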