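-- Library: the Petersen case and the product case for the local hypotheses.
import Mathlib
import Cfsg.Agent.Lib.PetMain

set_option autoImplicit false
set_option linter.unusedSectionVars false
set_option linter.unusedSimpArgs false
set_option linter.unusedVariables false

open Cfsg Equiv Equiv.Perm
open Cfsg.Agent.Lib.ThreeTransCore Cfsg.Agent.Lib.FischerRel Cfsg.Agent.Lib.PetLine
open Cfsg.Agent.Lib.FischerW (RSet)
open Cfsg.Agent.Lib.PetCtx Cfsg.Agent.Lib.PetMain

namespace Cfsg.Agent.Lib.PetMain2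

variable {G : Type*} [Group G] {D : Set G}

theorem petersen [Finite G] (C : Ctx D) {e : G} (he : e ∈ D)
    (hI : ∀ e' ∈ D, e' ≠ e → RSet D e' ≠ RSet D e) :
    Nonempty (↥(Subgroup.closure D) ≃* Perm (Fin 5)) := by
  classical
  have h3 := C.h3
  obtain ⟨a₁, a₂, a₃, hl, hs⟩ := C.line e he
  have ha₁ : a₁ ∈ RSet D e := by rw [hs]; simp
  have ha₂ : a₂ ∈ RSet D e := by rw [hs]; simp
  have ha₃ : a₃ ∈ RSet D e := by rw [hs]; simp
  obtain ⟨b₁, c₁, hl₁, hs₁⟩ := C.line_through ha₁.1 (C.mem_symm he ha₁)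
  obtain ⟨b₂, c₂, hl₂, hs₂⟩ := C.line_through ha₂.1 (C.mem_symm he ha₂)
  obtain ⟨b₃, c₃, hl₃, hs₃⟩ := C.line_through ha₃.1 (C.mem_symm he ha₃)
  have hb₁ : b₁ ∈ RSet D a₁ := by rw [hs₁]; simp
  have hcov : ∀ y ∈ D, y ∈ [e, a₁, a₂, a₃, b₁, c₁, b₂, c₂, b₃, c₃] := by
    intro y hy
    by_cases hye : y = e
    · simp [hye]
    by_cases hc : Commute e y
    · have : y ∈ RSet D e := ⟨hy, hye, hc⟩
      rw [hs] at this
      rcases this with rfl | rfl | h
      · simp
      · simp
      · rw [Set.mem_singleton_iff] at h; subst h; simp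
    · have hex : ∃ r ∈ RSet D y, Commute e r := by
        by_contra hall
        push Not at hall
        obtain ⟨e', he', hne, heq⟩ := C.far hy he (fun h => hc h.symm) hall
        exact hI e' he' hne heq
      obtain ⟨r, hr, her⟩ := hex
      have hre : r ≠ e := by
        rintro rfl
        exact hc hr.2.2.symm
      have hr' : r ∈ RSet D e := ⟨hr.1, hre, her⟩
      have hyr : y ∈ RSet D r := C.mem_symm hy hr
      rw [hs] at hr'
      rcases hr' with rfl | rfl | h
      · rw [hs₁] at hyr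
        rcases hyr with rfl | rfl | h'
        · simp
        · simp
        · rw [Set.mem_singleton_iff] at h'; subst h'; simp
      · rw [hs₂] at hyr
        rcases hyr with rfl | rfl | h'
        · simp
        · simp
        · rw [Set.mem_singleton_iff] at h'; subst h'; simp
      · rw [Set.mem_singleton_iff] at h; subst h
        rw [hs₃] at hyr
        rcases hyr with rfl | rfl | h'
        · simp
        · simp
        · rw [Set.mem_singleton_iff] at h'; subst h'; simp
  have hcard : D.ncard ≤ 10 := by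
    have hsub : D ⊆ (([e, a₁, a₂, a₃, b₁, c₁, b₂, c₂, b₃, c₃].toFinset : Finset G) : Set G) := by
      intro y hy
      simpa using hcov y hy
    have h1 := Set.ncard_le_ncard hsub (Finset.finite_toSet _)
    rw [Set.ncard_coe_finset] at h1
    exact h1.trans (List.toFinset_card_le _)
  have hnc : ¬ Commute a₂ b₁ := by
    intro hc
    have hne1 : a₂ ≠ b₁ := by
      rintro rfl
      exact hl.nc hb₁.2.2
    have m1 : a₁ ∈ RSet D b₁ := C.mem_symm ha₁.1 hb₁
    have m2 : a₂ ∈ RSet D b₁ := ⟨ha₂.1, hne1, hc.symm⟩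
    have := C.rset_eq_of_two hb₁.1 he m1 m2 ha₁ ha₂ hl.u_ne_v
    exact hI b₁ hb₁.1 hl₁.u_ne_v.symm this
  have hb₁e : ¬ Commute b₁ e := fun h => hl₁.nc h.symm
  obtain ⟨φ, h0, h1, h2, h3'⟩ := Cfsg.Agent.Lib.S5Cox.exists_hom (a := a₁) (b := a₂) (c := b₁) (d := e)
    (mul_self_of_mem h3 ha₁.1) (mul_self_of_mem h3 ha₂.1) (mul_self_of_mem h3 hb₁.1) (mul_self_of_mem h3 he)
    (braid_of_not_commute h3 ha₁.1 ha₂.1 hl.nc) (braid_of_not_commute h3 ha₂.1 hb₁.1 hnc)
    (braid_of_not_commute h3 hb₁.1 he hb₁e) hb₁.2.2 ha₁.2.2.symm ha₂.2.2.symm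
  exact iso_of_hom C hcard φ h0 h1 h2 h3' ha₁.1 ha₂.1 hb₁.1 he hl.u_ne_v (fun h => hb₁.2.1 h.symm)

theorem commute_closure {S T : Set G} (h : ∀ x ∈ S, ∀ y ∈ T, Commute x y) :
    ∀ x ∈ Subgroup.closure S, ∀ y ∈ Subgroup.closure T, Commute x y := by
  intro x hx y hy
  induction hx using Subgroup.closure_induction with
  | mem x hx =>
    induction hy using Subgroup.closure_induction with
    | mem y hy => exact h x hx y hy
    | one => exact Commute.one_right x
    | mul u v _ _ hu hv => exact hu.mul_right hv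
    | inv u _ hu => exact hu.inv_right
  | one => exact Commute.one_left y
  | mul u v _ _ hu hv => exact hu.mul_left hv
  | inv u _ hu => exact hu.inv_left

theorem center_sym3 : ∀ σ : Perm (Fin 3), (∀ τ : Perm (Fin 3), σ * τ = τ * σ) → σ = 1 := by
  decide +kernel

theorem eq_one_of_central {A : Subgroup G} (e : ↥A ≃* Perm (Fin 3)) {x : G} (hx : x ∈ A)
    (h : ∀ y ∈ A, Commute x y) : x = 1 := by
  have h1 : e ⟨x, hx⟩ = 1 := by
    apply center_sym3
    intro τ
    obtain ⟨y, rfl⟩ := e.surjective τ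
    rw [← map_mul, ← map_mul]
    congr 1
    exact Subtype.ext (h y.1 y.2)
  rw [← map_one e] at h1
  exact congrArg Subtype.val (e.injective h1)

/-- The product case. -/
theorem product {S T : Set G} (hSD : S ⊆ D) (hTD : T ⊆ D) (hcov : D ⊆ S ∪ T)
    (hcomm : ∀ x ∈ S, ∀ y ∈ T, Commute x y)
    (e₁ : ↥(Subgroup.closure S) ≃* Perm (Fin 3)) (e₂ : ↥(Subgroup.closure T) ≃* Perm (Fin 3)) :
    Nonempty (↥(Subgroup.closure D) ≃* Perm (Fin 3) × Perm (Fin 3)) := by
  set A := Subgroup.closure S with hA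
  set B := Subgroup.closure T with hB
  have hc : ∀ x ∈ A, ∀ y ∈ B, Commute x y := commute_closure hcomm
  let f : ↥A × ↥B →* G := MonoidHom.noncommCoprod A.subtype B.subtype (fun x y => hc x.1 x.2 y.1 y.2)
  have hf : ∀ p : ↥A × ↥B, f p = p.1.1 * p.2.1 := fun p => rfl
  have hinj : Function.Injective f := by
    rw [injective_iff_map_eq_one]
    rintro ⟨x, y⟩ h
    rw [hf] at h
    have h1 : (x : G) = (y : G)⁻¹ := eq_inv_of_mul_eq_one_left h
    have hxB : (x : G) ∈ B := by rw [h1]; exact B.inv_mem y.2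
    have hx1 : (x : G) = 1 := eq_one_of_central e₁ x.2 (fun z hz => (hc z hz x hxB).symm)
    have hy1 : (y : G) = 1 := by
      rw [hx1, one_mul] at h
      exact h
    ext <;> simp [hx1, hy1]
  have hrange : f.range = Subgroup.closure D := by
    apply le_antisymm
    · rintro _ ⟨⟨x, y⟩, rfl⟩
      rw [hf]
      exact Subgroup.mul_mem _ (Subgroup.closure_mono hSD x.2) (Subgroup.closure_mono hTD y.2)
    · rw [Subgroup.closure_le]
      intro y hy
      rcases hcov hy with h | h
      · exact ⟨(⟨y, Subgroup.subset_closure h⟩, 1), by simp [hf]⟩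
      · exact ⟨(1, ⟨y, Subgroup.subset_closure h⟩), by simp [hf]⟩
  exact ⟨(MulEquiv.subgroupCongr hrange.symm).trans ((MonoidHom.ofInjective hinj).symm.trans (MulEquiv.prodCongr e₁ e₂))⟩

end Cfsg.Agent.Lib.PetMain2
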