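-- Library: excluding extra members in the product case.
import Mathlib
import Cfsg.Agent.Lib.PetMain2

set_option autoImplicit false
set_option linter.unusedSectionVars false
set_option linter.unusedSimpArgs false
set_option linter.unusedVariables false

open Cfsg Equiv Equiv.Perm
open Cfsg.Agent.Lib.ThreeTransCore Cfsg.Agent.Lib.FischerRel Cfsg.Agent.Lib.PetLine
open Cfsg.Agent.Lib.FischerW (RSet WProd wprod_mem_pCore)
open Cfsg.Agent.Lib.PetCtx Cfsg.Agent.Lib.PetMain Cfsg.Agent.Lib.PetMain2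

namespace Cfsg.Agent.Lib.PetMain3

variable {G : Type*} [Group G] {D : Set G}

theorem exists_core [Finite G] (C : Ctx D) (hne : D.Nonempty)
    (hcl : ∀ p ∈ D, ∀ q ∈ D, ∃ g ∈ Subgroup.closure D, g * p * g⁻¹ = q) :
    ∃ P : Subgroup G, P.Normal ∧ IsPGroup 3 P ∧ ∀ x ∈ D, ∀ y ∈ D, RSet D x = RSet D y → x * y ∈ P := by
  have : Fact (Nat.Prime 3) := ⟨Nat.prime_three⟩
  set K := Subgroup.closure D with hK
  have hKn : K.Normal := by
    refine ⟨fun n hn g => ?_⟩
    induction hn using Subgroup.closure_induction with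
    | mem x hx => exact Subgroup.subset_closure (C.conj g x hx)
    | one => simp [Subgroup.one_mem]
    | mul u v _ _ hu hv =>
      have e : g * (u * v) * g⁻¹ = (g * u * g⁻¹) * (g * v * g⁻¹) := by group
      rw [e]
      exact K.mul_mem hu hv
    | inv u _ hu =>
      have e : g * u⁻¹ * g⁻¹ = (g * u * g⁻¹)⁻¹ := by group
      rw [e]
      exact K.inv_mem hu
  obtain ⟨d, hd⟩ := hne
  let D' : Set K := {x | (x : G) ∈ D}
  have hmemK : ∀ x ∈ D, x ∈ K := fun x hx => Subgroup.subset_closure hx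
  have hcl' : IsThreeTranspositionClass D' := by
    refine ⟨⟨?_, ?_⟩, ⟨⟨d, hmemK d hd⟩, hd, ?_⟩, ?_⟩
    · intro x hx
      rw [← Subgroup.orderOf_coe]
      exact C.h3.1 _ hx
    · intro x hx y hy
      rcases C.h3.2 _ hx _ hy with h | h
      · left; exact Subtype.ext (by simpa using h)
      · right; exact Subtype.ext (by simpa using h)
    · ext x
      constructor
      · intro hx
        obtain ⟨g, hg, hgx⟩ := hcl d hd x hx
        show IsConj _ _
        rw [isConj_iff]
        exact ⟨⟨g, hg⟩, Subtype.ext hgx⟩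
      · intro hx
        have hx' : IsConj (⟨d, hmemK d hd⟩ : K) x := hx
        obtain ⟨c, hc⟩ := isConj_iff.mp hx'
        have := C.conj c.1 d hd
        have e : (x : G) = c.1 * d * c.1⁻¹ := by
          rw [← hc]
          simp
        show (x : G) ∈ D
        rw [e]
        exact this
    · exact Subgroup.closure_closure_coe_preimage
  have : (pCore 3 K).Characteristic := Cfsg.Agent.Lib.PCore.pCore_characteristic 3
  refine ⟨(pCore 3 K).map K.subtype, ConjAct.normal_of_characteristic_of_normal, ?_, ?_⟩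
  · exact (Cfsg.Agent.Lib.PCore.isPGroup_pCore 3).map _
  · intro x hx y hy h
    refine ⟨⟨x, hmemK x hx⟩ * ⟨y, hmemK y hy⟩, ?_, rfl⟩
    refine wprod_mem_pCore hcl' ⟨⟨x, hmemK x hx⟩, hx, ⟨y, hmemK y hy⟩, hy, ?_, rfl⟩
    have key : ∀ (a : K) (z : K), z ∈ RSet D' a ↔ (z : G) ∈ RSet D (a : G) := by
      intro a z
      constructor
      · rintro ⟨h1, h2, h3⟩
        refine ⟨h1, fun h' => h2 (Subtype.ext h'), ?_⟩
        exact congrArg Subtype.val h3
      · rintro ⟨h1, h2, h3⟩
        refine ⟨h1, fun h' => h2 (congrArg Subtype.val h'), ?_⟩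
        exact Subtype.ext h3
    ext z
    rw [key, key]
    simp only [h]

theorem isPGroup_zpowers {x : G} (h : x ^ 3 = 1) : IsPGroup 3 (Subgroup.zpowers x) := by
  rintro ⟨y, hy⟩
  refine ⟨1, ?_⟩
  obtain ⟨k, rfl⟩ := Subgroup.mem_zpowers_iff.mp hy
  ext
  simp only [Subgroup.coe_pow, Subgroup.coe_one, pow_one]
  rw [← zpow_natCast, ← zpow_mul, mul_comm, zpow_mul, zpow_natCast, h, one_zpow]

/-- Conjugation permutes the neighbours. -/
theorem conj_mem_rset (C : Ctx D) {e t g : G} (he : e ∈ D) (hg : Commute e g) (ht : t ∈ RSet D e) :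
    g * t * g⁻¹ ∈ RSet D e := by
  have h1 : g * e * g⁻¹ = e := by
    rw [← hg.eq]; group
  have := (C.mem_RSet_conj' g e (g * t * g⁻¹)).mpr (by
    have e2 : g⁻¹ * (g * t * g⁻¹) * g = t := by group
    rw [e2]; exact ht)
  rwa [h1] at this

/-- The `3`-element from two neighbours is in the core of the centraliser. -/
theorem y_mem_core [Finite G] (C : Ctx D) {e t₁ t₂ t₃ : G} (he : e ∈ D) (hl : IsLine t₁ t₂ t₃)
    (hs : RSet D e = {t₁, t₂, t₃}) (hy : t₁ * t₂ ∈ Subgroup.centralizer ({e} : Set G)) :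
    (⟨t₁ * t₂, hy⟩ : ↥(Subgroup.centralizer ({e} : Set G))) ∈ pCore 3 ↥(Subgroup.centralizer ({e} : Set G)) := by
  have : Fact (Nat.Prime 3) := ⟨Nat.prime_three⟩
  set CC := Subgroup.centralizer ({e} : Set G) with hCC
  set y : ↥CC := ⟨t₁ * t₂, hy⟩ with hydef
  have hcube : y ^ 3 = 1 := by
    apply Subtype.ext
    show (t₁ * t₂) ^ 3 = 1
    exact cube_of_braid hl.uu hl.vv (hl.uvu.trans hl.vuv.symm)
  have hp := isPGroup_zpowers hcube
  have hinv : (t₁ * t₂)⁻¹ = t₂ * t₁ := by
    rw [mul_inv_rev, inv_eq_of_mul_eq_one_left hl.uu, inv_eq_of_mul_eq_one_left hl.vv]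
  have hprod : ∀ p ∈ RSet D e, ∀ q ∈ RSet D e, p ≠ q → p * q = t₁ * t₂ ∨ p * q = (t₁ * t₂)⁻¹ := by
    intro p hp' q hq' hne
    rw [hinv]
    rw [hs] at hp' hq'
    have e1 := hl.mul_eq₁
    have e2 := hl.mul_eq₂
    have e3 := hl.mul_eq₃
    have f1 := hl.swap12.mul_eq₁
    have f2 := hl.swap12.mul_eq₂
    have f3 := hl.swap12.mul_eq₃
    rcases hp' with rfl | rfl | hp' <;> rcases hq' with rfl | rfl | hq'
    · exact absurd rfl hne
    · left; rfl
    · rw [Set.mem_singleton_iff] at hq'; subst hq'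
      right; exact f1.symm
    · right; rfl
    · exact absurd rfl hne
    · rw [Set.mem_singleton_iff] at hq'; subst hq'
      left; exact e1.symm
    · rw [Set.mem_singleton_iff] at hp'; subst hp'
      left; exact e3
    · rw [Set.mem_singleton_iff] at hp'; subst hp'
      right; exact (f1.trans f2).symm
    · rw [Set.mem_singleton_iff] at hp' hq'; subst hp'; subst hq'
      exact absurd rfl hne
  have hnorm : (Subgroup.zpowers y).Normal := by
    have hconj : ∀ g : ↥CC, g * y * g⁻¹ = y ∨ g * y * g⁻¹ = y⁻¹ := by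
      intro g
      have hg : Commute e (g : G) :=
        Subgroup.mem_centralizer_iff.mp (show (g : G) ∈ Subgroup.centralizer ({e} : Set G) from g.2) e (by simp)
      have ht₁ : t₁ ∈ RSet D e := by rw [hs]; simp
      have ht₂ : t₂ ∈ RSet D e := by rw [hs]; simp
      have m1 := conj_mem_rset C he hg ht₁
      have m2 := conj_mem_rset C he hg ht₂
      have hne : (g : G) * t₁ * (g : G)⁻¹ ≠ (g : G) * t₂ * (g : G)⁻¹ := by
        intro h
        apply hl.u_ne_v
        exact mul_left_cancel (mul_right_cancel h)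
      rcases hprod _ m1 _ m2 hne with h | h
      · left
        apply Subtype.ext
        show (g : G) * (t₁ * t₂) * (g : G)⁻¹ = t₁ * t₂
        exact (by group : (g : G) * (t₁ * t₂) * (g : G)⁻¹ = ((g : G) * t₁ * (g : G)⁻¹) * ((g : G) * t₂ * (g : G)⁻¹)).trans h
      · right
        apply Subtype.ext
        show (g : G) * (t₁ * t₂) * (g : G)⁻¹ = (t₁ * t₂)⁻¹
        exact (by group : (g : G) * (t₁ * t₂) * (g : G)⁻¹ = ((g : G) * t₁ * (g : G)⁻¹) * ((g : G) * t₂ * (g : G)⁻¹)).trans h
    refine ⟨fun n hn g => ?_⟩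
    obtain ⟨k, rfl⟩ := Subgroup.mem_zpowers_iff.mp hn
    rw [← conj_zpow]
    rcases hconj g with h | h
    · rw [h]; exact Subgroup.zpow_mem_zpowers _ _
    · rw [h]
      exact Subgroup.zpow_mem _ (Subgroup.inv_mem _ (Subgroup.mem_zpowers y)) _
  exact Cfsg.Agent.Lib.PCore.le_pCore hnorm hp (Subgroup.mem_zpowers y)

/-- No member outside the block. -/
theorem no_extra [Finite G] (C : Ctx D)
    (hO3 : ∀ d ∈ D, Nat.card (pCore 3 ↥(Subgroup.centralizer ({d} : Set G))) = 3)
    {a b c d d' d'' e : G} (hla : IsLine a b c) (hld : IsLine d d' d'')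
    (haD : a ∈ D) (hbD : b ∈ D) (hcD : c ∈ D) (hdD : d ∈ D) (hdD' : d' ∈ D) (hdD'' : d'' ∈ D)
    (ha : RSet D a = {d, d', d''}) (hb : RSet D b = {d, d', d''}) (hc : RSet D c = {d, d', d''})
    (hd : RSet D d = {a, b, c}) (hd' : RSet D d' = {a, b, c}) (hd'' : RSet D d'' = {a, b, c})
    (he : e ∈ D) (hexc : e ∉ ({a, b, c, d, d', d''} : Set G)) : False := by
  have h3 := C.h3
  have : Fact (Nat.Prime 3) := ⟨Nat.prime_three⟩
  set Δ : Set G := {a, b, c, d, d', d''} with hΔ
  have haΔ : a ∈ Δ := by simp [hΔ]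
  have hbΔ : b ∈ Δ := by simp [hΔ]
  have hcΔ : c ∈ Δ := by simp [hΔ]
  have hdΔ : d ∈ Δ := by simp [hΔ]
  have hdΔ' : d' ∈ Δ := by simp [hΔ]
  have hdΔ'' : d'' ∈ Δ := by simp [hΔ]
  have hsub1 : ({a, b, c} : Set G) ⊆ Δ := by
    rintro x (rfl | rfl | hx)
    · exact haΔ
    · exact hbΔ
    · rw [Set.mem_singleton_iff] at hx; subst hx; exact hcΔ
  have hsub2 : ({d, d', d''} : Set G) ⊆ Δ := by
    rintro x (rfl | rfl | hx)
    · exact hdΔ
    · exact hdΔ'
    · rw [Set.mem_singleton_iff] at hx; subst hx; exact hdΔ''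
  have hclosed : ∀ p ∈ Δ, RSet D p ⊆ Δ := by
    rintro p (rfl | rfl | rfl | rfl | rfl | hp)
    · rw [ha]; exact hsub2
    · rw [hb]; exact hsub2
    · rw [hc]; exact hsub2
    · rw [hd]; exact hsub1
    · rw [hd']; exact hsub1
    · rw [Set.mem_singleton_iff] at hp; subst hp
      rw [hd'']; exact hsub1
  have hfar : ∀ p ∈ Δ, ∀ q ∈ D, q ∉ Δ → ¬ Commute p q := by
    intro p hp q hq hqΔ hcomm
    apply hqΔ
    refine hclosed p hp ⟨hq, ?_, hcomm⟩
    rintro rfl
    exact hqΔ hp
  have hne : ∀ p ∈ Δ, ¬ Commute e p := fun p hp h => hfar p hp e he hexc h.symm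
  -- the class property
  have hconjnc : ∀ p ∈ D, ∀ q ∈ D, ¬ Commute p q → ∃ g ∈ Subgroup.closure D, g * p * g⁻¹ = q := by
    intro p hp q hq hpq
    have hl := isLine_of_not_commute h3 hp hq hpq
    have hrD : p * q * p ∈ D := C.conj' hp hq
    refine ⟨p * q * p, Subgroup.subset_closure hrD, ?_⟩
    rw [inv_eq_of_mul_eq_one_left hl.ww]
    exact hl.wuw
  have hcl : ∀ p ∈ D, ∀ q ∈ D, ∃ g ∈ Subgroup.closure D, g * p * g⁻¹ = q := by
    intro p hp q hq
    by_cases hpq : Commute p q
    · by_cases hpe : p = q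
      · exact ⟨1, Subgroup.one_mem _, by simp [hpe]⟩
      · have hqr : q ∈ RSet D p := ⟨hq, fun h => hpe h.symm, hpq⟩
        have hpr : p ∈ RSet D q := C.mem_symm hp hqr
        obtain ⟨r, hr, h1, h2⟩ : ∃ r ∈ D, ¬ Commute p r ∧ ¬ Commute r q := by
          by_cases hpΔ : p ∈ Δ
          · have hqΔ : q ∈ Δ := hclosed p hpΔ hqr
            exact ⟨e, he, fun h => hne p hpΔ h.symm, fun h => hne q hqΔ h⟩
          · have hqΔ : q ∉ Δ := fun h => hpΔ (hclosed q h hpr)
            exact ⟨a, haD, fun h => hfar a haΔ p hp hpΔ h.symm, hfar a haΔ q hq hqΔ⟩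
        obtain ⟨g₁, hg₁, e₁⟩ := hconjnc p hp r hr h1
        obtain ⟨g₂, hg₂, e₂⟩ := hconjnc r hr q hq h2
        refine ⟨g₂ * g₁, Subgroup.mul_mem _ hg₂ hg₁, ?_⟩
        rw [← e₂, ← e₁]
        group
    · exact hconjnc p hp q hq hpq
  obtain ⟨P, hPn, hPp, hP⟩ := exists_core C ⟨a, haD⟩ hcl
  -- the two rotations
  have hae : ¬ Commute a e := fun h => hne a haΔ h.symm
  have hde : ¬ Commute d e := fun h => hne d hdΔ h.symm
  obtain ⟨r1, l1, g1, g2, g3⟩ := C.rot haD he hld ha hae (hne d hdΔ) (hne d' hdΔ') (hne d'' hdΔ'')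
  obtain ⟨r2, l2, k1, k2, k3⟩ := C.rot hdD he hla hd hde (hne a haΔ) (hne b hbΔ) (hne c hcΔ)
  have had : a * d = d * a := by
    have : d ∈ RSet D a := by rw [ha]; simp
    exact this.2.2
  have hbd : b * d = d * b := by
    have : d ∈ RSet D b := by rw [hb]; simp
    exact this.2.2
  have had' : a * d' = d' * a := by
    have : d' ∈ RSet D a := by rw [ha]; simp
    exact this.2.2
  have hbd' : b * d' = d' * b := by
    have : d' ∈ RSet D b := by rw [hb]; simp
    exact this.2.2
  set t₁ := d * (a * e * a) * d with ht₁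
  set t₂ := d' * (a * e * a) * d' with ht₂
  set t₃ := d'' * (a * e * a) * d'' with ht₃
  have hs₁ : a * (d * e * d) * a = t₁ := by
    rw [ht₁]
    calc a * (d * e * d) * a = (a * d) * e * (d * a) := by group
      _ = (d * a) * e * (a * d) := by rw [had]
      _ = d * (a * e * a) * d := by group
  set s₂ := b * (d * e * d) * b with hs₂
  set s₃ := c * (d * e * d) * c with hs₃
  rw [hs₁] at r2 l2 k1 k3
  set g := b * a with hg
  set g' := d' * d with hg'
  have hgP : g ∈ P := hP b hbD a haD (hb.trans ha.symm)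
  have hg'P : g' ∈ P := hP d' hdD' d hdD (hd'.trans hd.symm)
  -- the element
  obtain ⟨w, hw, hwt⟩ : ∃ w, (w = g⁻¹ * g' ∨ w = g * g') ∧ w * t₁ * w⁻¹ = t₁ := by
    have m2 : s₂ ∈ RSet D e := by rw [r2]; simp
    have m3 : s₃ ∈ RSet D e := by rw [r2]; simp
    rw [r1] at m2 m3
    rcases m2 with h | h | h
    · exact absurd h.symm l2.u_ne_v
    · refine ⟨g⁻¹ * g', Or.inl rfl, ?_⟩
      calc (g⁻¹ * g') * t₁ * (g⁻¹ * g')⁻¹ = g⁻¹ * (g' * t₁ * g'⁻¹) * g := by group
        _ = g⁻¹ * s₂ * g := by rw [g1, h]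
        _ = g⁻¹ * (g * t₁ * g⁻¹) * g := by rw [k1]
        _ = t₁ := by group
    · rw [Set.mem_singleton_iff] at h
      have h32 : s₃ = t₂ := by
        rcases m3 with h' | h' | h'
        · exact absurd h'.symm l2.u_ne_w
        · exact h'
        · rw [Set.mem_singleton_iff] at h'
          exact absurd (h.trans h'.symm) l2.v_ne_w
      refine ⟨g * g', Or.inr rfl, ?_⟩
      calc (g * g') * t₁ * (g * g')⁻¹ = g * (g' * t₁ * g'⁻¹) * g⁻¹ := by group
        _ = g * s₃ * g⁻¹ := by rw [g1, h32]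
        _ = t₁ := k3
  have hwP : w ∈ P := by
    rcases hw with rfl | rfl
    · exact P.mul_mem (P.inv_mem hgP) hg'P
    · exact P.mul_mem hgP hg'P
  have haa := hla.uu
  have hbb := hla.vv
  have hdd := hld.uu
  have hdd' := hld.vv
  have hcomm : g * g' = g' * g := by
    rw [hg, hg']
    calc b * a * (d' * d) = b * (a * d') * d := by group
      _ = b * (d' * a) * d := by rw [had']
      _ = (b * d') * (a * d) := by group
      _ = (d' * b) * (d * a) := by rw [hbd', had]
      _ = d' * (b * d) * a := by group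
      _ = d' * (d * b) * a := by rw [hbd]
      _ = d' * d * (b * a) := by group
  set u := d * a with hu
  have huu : u * u = 1 := by
    rw [hu]
    calc d * a * (d * a) = d * (a * d) * a := by group
      _ = d * (d * a) * a := by rw [had]
      _ = (d * d) * (a * a) := by group
      _ = 1 := by rw [hdd, haa, mul_one]
  have huinv : u⁻¹ = u := inv_eq_of_mul_eq_one_left huu
  have hginv : g⁻¹ = a * b := by
    rw [hg, mul_inv_rev, inv_eq_of_mul_eq_one_left haa, inv_eq_of_mul_eq_one_left hbb]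
  have hg'inv : g'⁻¹ = d * d' := by
    rw [hg', mul_inv_rev, inv_eq_of_mul_eq_one_left hdd, inv_eq_of_mul_eq_one_left hdd']
  have hug : u * g * u⁻¹ = g⁻¹ := by
    rw [huinv, hginv, hu, hg]
    calc d * a * (b * a) * (d * a) = d * (a * b) * (a * d) * a := by group
      _ = d * (a * b) * (d * a) * a := by rw [had]
      _ = d * (a * b) * d * (a * a) := by group
      _ = d * a * (b * d) := by rw [haa]; group
      _ = d * a * (d * b) := by rw [hbd]
      _ = d * (a * d) * b := by group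
      _ = d * (d * a) * b := by rw [had]
      _ = (d * d) * (a * b) := by group
      _ = a * b := by rw [hdd, one_mul]
  have hug' : u * g' * u⁻¹ = g'⁻¹ := by
    rw [huinv, hg'inv, hu, hg']
    calc d * a * (d' * d) * (d * a) = d * a * d' * (d * d) * a := by group
      _ = d * (a * d') * a := by rw [hdd]; group
      _ = d * (d' * a) * a := by rw [had']
      _ = d * d' * (a * a) := by group
      _ = d * d' := by rw [haa, mul_one]
  have huw : u * w * u⁻¹ = w⁻¹ := by
    rcases hw with rfl | rfl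
    · have e1 : u * (g⁻¹ * g') * u⁻¹ = (u * g * u⁻¹)⁻¹ * (u * g' * u⁻¹) := by group
      have e2 : (g⁻¹ * g')⁻¹ = g'⁻¹ * g := by group
      rw [e1, hug, hug', inv_inv, e2]
      have : g * g'⁻¹ = g'⁻¹ * g := by
        have h' : Commute g g' := hcomm
        exact h'.inv_right
      exact this
    · have e1 : u * (g * g') * u⁻¹ = (u * g * u⁻¹) * (u * g' * u⁻¹) := by group
      have e2 : (g * g')⁻¹ = g'⁻¹ * g⁻¹ := mul_inv_rev _ _
      rw [e1, hug, hug', e2]
      have h' : Commute g g' := hcomm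
      exact (h'.inv_inv).eq
  have hut : u * t₁ * u⁻¹ = e := by
    have e1 : t₁ = u * e * u⁻¹ := by
      rw [huinv, ht₁, hu]
      calc d * (a * e * a) * d = (d * a) * e * (a * d) := by group
        _ = (d * a) * e * (d * a) := by rw [had]
    rw [e1]
    calc u * (u * e * u⁻¹) * u⁻¹ = (u * u) * e * (u⁻¹ * u⁻¹) := by group
      _ = e := by rw [huinv, huu]; group
  have hwt' : Commute w t₁ := by
    have : w * t₁ = t₁ * w := by
      calc w * t₁ = (w * t₁ * w⁻¹) * w := by group
        _ = t₁ * w := by rw [hwt]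
    exact this
  have hwe : Commute w e := by
    have h1 : Commute (u * w * u⁻¹) (u * t₁ * u⁻¹) := (commute_conj_conj_iff u w t₁).mpr hwt'
    rw [huw, hut] at h1
    have := h1.inv_left
    rwa [inv_inv] at this
  have hwne : w ≠ 1 := by
    intro h1
    have hag : Commute a g' := by
      have e1 : Commute a d' := had'
      have e2 : Commute a d := had
      exact e1.mul_right e2
    have hag2 : Commute a g := by
      rcases hw with hw | hw
      · rw [h1] at hw
        have : g' = g := by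
          have h5 := congrArg (fun x => g * x) hw
          simp only [mul_one, mul_inv_cancel_left] at h5
          exact h5.symm
        rwa [this] at hag
      · rw [h1] at hw
        have : g' = g⁻¹ := (eq_inv_of_mul_eq_one_right hw.symm)
        rw [this] at hag
        have := hag.inv_right
        rwa [inv_inv] at this
    have hab : Commute a b := by
      have h6 : a * (b * a) = (b * a) * a := hag2
      have h7 : a * b = b * a := by
        have : (a * b) * a = (b * a) * a := by rw [mul_assoc]; exact h6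
        exact mul_right_cancel this
      exact h7
    exact hla.nc hab
  -- the core of the centraliser
  set CC := Subgroup.centralizer ({e} : Set G) with hCC
  have hwC : w ∈ CC := by
    rw [hCC, Subgroup.mem_centralizer_iff]
    intro h hh
    rw [Set.mem_singleton_iff] at hh
    subst hh
    exact hwe.symm
  have ht₁e : t₁ ∈ RSet D e := by rw [r1]; simp
  have ht₂e : t₂ ∈ RSet D e := by rw [r1]; simp
  have hyC : t₁ * t₂ ∈ CC := by
    rw [hCC, Subgroup.mem_centralizer_iff]
    intro h hh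
    rw [Set.mem_singleton_iff] at hh
    subst hh
    exact (ht₁e.2.2.mul_right ht₂e.2.2)
  have hy : (⟨t₁ * t₂, hyC⟩ : ↥CC) ∈ pCore 3 ↥CC := y_mem_core C he l1 r1 hyC
  have hwQ : (⟨w, hwC⟩ : ↥CC) ∈ pCore 3 ↥CC := by
    have hS : (P.subgroupOf CC).Normal := Subgroup.Normal.subgroupOf hPn CC
    have hSp : IsPGroup 3 (P.subgroupOf CC) := hPp.comap_of_injective CC.subtype Subtype.val_injective
    exact Cfsg.Agent.Lib.PCore.le_pCore hS hSp (Subgroup.mem_subgroupOf.mpr hwP)
  have hcard : Nat.card (pCore 3 ↥CC) = 3 := hO3 e he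
  have hw1 : (⟨⟨w, hwC⟩, hwQ⟩ : ↥(pCore 3 ↥CC)) ≠ 1 := by
    intro h
    exact hwne (congrArg (fun x : ↥(pCore 3 ↥CC) => ((x : ↥CC) : G)) h)
  have hmem := mem_zpowers_of_prime_card hcard hw1 (g' := ⟨⟨t₁ * t₂, hyC⟩, hy⟩)
  obtain ⟨k, hk⟩ := Subgroup.mem_zpowers_iff.mp hmem
  have hk' : w ^ k = t₁ * t₂ := by
    have := congrArg (fun x : ↥(pCore 3 ↥CC) => ((x : ↥CC) : G)) hk
    simpa using this
  have hcy : Commute (t₁ * t₂) t₁ := by
    rw [← hk']
    exact hwt'.zpow_left k
  apply l1.nc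
  have h8 : (t₁ * t₂) * t₁ = t₁ * (t₁ * t₂) := hcy
  have h9 : t₁ * t₂ = t₂ * t₁ := by
    have h10 : t₁ * (t₁ * t₂) = t₂ := by
      rw [← mul_assoc, l1.uu, one_mul]
    rw [h10] at h8
    calc t₁ * t₂ = (t₁ * t₂) * (t₁ * t₁) := by rw [l1.uu, mul_one]
      _ = ((t₁ * t₂) * t₁) * t₁ := by group
      _ = t₂ * t₁ := by rw [h8]
  exact h9

end Cfsg.Agent.Lib.PetMain3
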