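import Mathlib
import Cfsg.Prelude.Def_MonsterType
import Cfsg.Agent.Lib.IcoP
import Cfsg.Agent.Lib.CoverW2
import Cfsg.Agent.Lib.OmegaFourTwo

/-!
# The centraliser of a 2-central involution in the Hall-Janko group of degree 315

`K1` (stabiliser of a point of `Pg`) is the centraliser of the involution `zP`; the kernel of the action
on the five blocks of the orbit of length ten is extraspecial of order 32 with quotient `A₅`.
-/

set_option autoImplicit false
set_option maxRecDepth 100000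

namespace Cfsg.Agent.Lib.PgCent20

open Cfsg Cfsg.Agent.Lib.IcoP Cfsg.Agent.Lib.IcoChain Cfsg.Agent.Lib.PermChain12 Cfsg.Agent.Lib.CoverW

/-- The generators of `K1`. -/
noncomputable def sK (l : ℕ) : Equiv.Perm (Fin 315) := Gp tbl (4 + l)

theorem sK_mem {l : ℕ} (hl : l < 4) : sK l ∈ K1 := Subgroup.subset_closure ⟨l, hl, rfl⟩

/-- Evaluation of a word of `K1` on a point. -/
noncomputable def evK (w : List ℕ) (x : ℕ) : ℕ := walkF (fun l y => GT (4 + l) y) w x

theorem wK_val (w : List ℕ) (hw : ∀ l ∈ w, l < 4) (x : Fin 315) : ((wval sK w) x).val = evK w x.val := by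
  have := wval_Gp tbl 4 w (fun l hl => by have := hw l hl; omega) x
  rw [evK, walkF_eq]
  exact this

theorem wK_mem (w : List ℕ) (hw : ∀ l ∈ w, l < 4) : wval sK w ∈ K1 :=
  wval_mem _ _ _ (fun l hl => sK_mem (hw l hl))

theorem wK_eq (w1 w2 : List ℕ) (h1 : ∀ l ∈ w1, l < 4) (h2 : ∀ l ∈ w2, l < 4)
    (c : allB 315 9 (fun x => Nat.beq (evK w1 x) (evK w2 x)) = true) : wval sK w1 = wval sK w2 := by
  ext x
  rw [wK_val w1 h1, wK_val w2 h2]
  exact Nat.eq_of_beq_eq_true (allB_spec _ _ _ (by norm_num) c x.val x.2)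

/-- The word of the involution. -/
def zw : List ℕ := [0, 0, 0, 0, 0]

theorem zw_lt : ∀ l ∈ zw, l < 4 := by decide +kernel

/-- The involution. -/
noncomputable def zP : Equiv.Perm (Fin 315) := wval sK zw

theorem zP_mem : zP ∈ K1 := wK_mem _ zw_lt

theorem zP_sq : zP * zP = 1 := by
  have h := wK_eq (zw ++ zw) [] (by decide +kernel) (by decide +kernel) (by decide +kernel)
  rw [wval_append] at h
  exact h

theorem zP_comm_gen (l : ℕ) (hl : l < 4) : zP * sK l = sK l * zP := by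
  have h : wval sK (l :: zw) = wval sK (zw ++ [l]) := by
    have hchk : ∀ l ∈ [0, 1, 2, 3], allB 315 9 (fun x => Nat.beq (evK (l :: zw) x) (evK (zw ++ [l]) x)) = true := by
      decide +kernel
    have hl' : l ∈ [0, 1, 2, 3] := by
      simp only [List.mem_cons, List.not_mem_nil, or_false]
      omega
    refine wK_eq _ _ ?_ ?_ (hchk l hl')
    · intro a ha
      rcases List.mem_cons.1 ha with rfl | ha
      · exact hl
      · exact zw_lt a ha
    · intro a ha
      rcases List.mem_append.1 ha with ha | ha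
      · exact zw_lt a ha
      · rw [List.mem_singleton] at ha
        rw [ha]
        exact hl
  rw [wval_append] at h
  simpa [wval, zP] using h

theorem zP_comm {g : Equiv.Perm (Fin 315)} (hg : g ∈ K1) : g * zP = zP * g := by
  induction hg using Subgroup.closure_induction with
  | mem x hx =>
    obtain ⟨l, hl, rfl⟩ := hx
    exact (zP_comm_gen l hl).symm
  | one => simp
  | mul x y _ _ hx hy =>
    rw [mul_assoc, hy, ← mul_assoc, hx, mul_assoc]
  | inv x _ hx =>
    calc x⁻¹ * zP = x⁻¹ * (zP * x) * x⁻¹ := by group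
      _ = x⁻¹ * (x * zP) * x⁻¹ := by rw [hx]
      _ = zP * x⁻¹ := by group

/-! ### The blocks -/

/-- The orbit of length ten. -/
def Dl : List ℕ := [1, 10, 19, 20, 21, 22, 23, 24, 25, 26]

/-- The block of a point. -/
def blkN (x : ℕ) : ℕ :=
  [0, 0, 0, 0, 0, 0, 0, 0, 0, 0, 0, 0, 0, 0, 0, 0, 0, 0, 0, 1, 2, 3, 4, 4, 3, 2, 1].getD x 0

/-- The action on the blocks. -/
def sgN (l i : ℕ) : ℕ :=
  ([[1, 4, 0, 2, 3], [0, 4, 1, 3, 2], [2, 0, 3, 4, 1], [0, 2, 4, 3, 1]].getD l []).getD i 0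

theorem chkGen : ∀ l ∈ [0, 1, 2, 3], ∀ x ∈ Dl, (GT (4 + l) x ∈ Dl) ∧ blkN (GT (4 + l) x) = sgN l (blkN x) := by
  decide +kernel

theorem blkN_lt : ∀ x ∈ Dl, blkN x < 5 := by decide +kernel

/-- The membership in the orbit. -/
def D : Finset (Fin 315) := Finset.univ.filter fun x => x.val ∈ Dl

theorem mem_D {x : Fin 315} : x ∈ D ↔ x.val ∈ Dl := by
  simp [D]

/-- The block as an element of `Fin 5`. -/
def blk (x : Fin 315) : Fin 5 := ⟨blkN x.val % 5, Nat.mod_lt _ (by norm_num)⟩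

/-- Representatives of the blocks. -/
def rep : Fin 5 → Fin 315 := ![⟨1, by norm_num⟩, ⟨19, by norm_num⟩, ⟨20, by norm_num⟩, ⟨21, by norm_num⟩, ⟨22, by norm_num⟩]

theorem rep_mem : ∀ i, rep i ∈ D := by
  intro i
  rw [mem_D]
  revert i
  decide +kernel

theorem blk_rep : ∀ i, blk (rep i) = i := by decide +kernel

/-- A permutation of the points compatible with the blocks. -/
def Good (g : Equiv.Perm (Fin 315)) : Prop :=
  ∃ σ : Equiv.Perm (Fin 5), ∀ x ∈ D, g x ∈ D ∧ blk (g x) = σ (blk x)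

/-- Action of the two basic generators on the blocks. -/
def sg0 : Equiv.Perm (Fin 5) where
  toFun := ![1, 4, 0, 2, 3]
  invFun := ![2, 0, 3, 4, 1]
  left_inv := by decide +kernel
  right_inv := by decide +kernel

def sg1 : Equiv.Perm (Fin 5) where
  toFun := ![0, 4, 1, 3, 2]
  invFun := ![0, 2, 4, 3, 1]
  left_inv := by decide +kernel
  right_inv := by decide +kernel

/-- Action of the generators on the blocks. -/
def sgL (l : ℕ) : Equiv.Perm (Fin 5) :=
  match l with
  | 0 => sg0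
  | 1 => sg1
  | 2 => sg0⁻¹
  | _ => sg1⁻¹

theorem sgL_val : ∀ l ∈ [0, 1, 2, 3], ∀ i : Fin 5, (sgL l i).val = sgN l i.val := by decide +kernel

theorem sgL_sign : ∀ l ∈ [0, 1, 2, 3], Equiv.Perm.sign (sgL l) = 1 := by decide +kernel

theorem sK_good_spec {l : ℕ} (hl : l < 4) : ∀ x ∈ D, sK l x ∈ D ∧ blk (sK l x) = sgL l (blk x) := by
  intro x hx
  have hl' : l ∈ [0, 1, 2, 3] := by
    simp only [List.mem_cons, List.not_mem_nil, or_false]
    omega
  have hx' := mem_D.1 hx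
  obtain ⟨h1, h2⟩ := chkGen l hl' x.val hx'
  have hv : (sK l x).val = GT (4 + l) x.val := Gp_val tbl _ (by omega) x
  refine ⟨mem_D.2 (by rw [hv]; exact h1), ?_⟩
  apply Fin.ext
  rw [sgL_val l hl']
  show blkN (sK l x).val % 5 = sgN l (blkN x.val % 5)
  rw [hv, h2, Nat.mod_eq_of_lt (blkN_lt _ hx')]
  have := sgL_val l hl' ⟨blkN x.val, blkN_lt _ hx'⟩
  rw [← this]
  exact Nat.mod_eq_of_lt (Fin.is_lt _)

theorem good_of_mem {g : Equiv.Perm (Fin 315)} (hg : g ∈ K1) : Good g := by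
  induction hg using Subgroup.closure_induction with
  | mem x hx =>
    obtain ⟨l, hl, rfl⟩ := hx
    exact ⟨sgL l, sK_good_spec hl⟩
  | one => exact ⟨1, fun x hx => ⟨hx, rfl⟩⟩
  | mul x y _ _ hx hy =>
    obtain ⟨σ, hσ⟩ := hx
    obtain ⟨τ, hτ⟩ := hy
    refine ⟨σ * τ, fun a ha => ?_⟩
    obtain ⟨h1, h2⟩ := hτ a ha
    obtain ⟨h3, h4⟩ := hσ _ h1
    refine ⟨h3, ?_⟩
    rw [Equiv.Perm.mul_apply, h4, h2, Equiv.Perm.mul_apply]
  | inv x _ hx =>
    obtain ⟨σ, hσ⟩ := hx
    refine ⟨σ⁻¹, fun a ha => ?_⟩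
    have himg : D.image x = D := by
      apply Finset.eq_of_subset_of_card_le
      · intro b hb
        obtain ⟨c, hc, rfl⟩ := Finset.mem_image.1 hb
        exact (hσ c hc).1
      · rw [Finset.card_image_of_injective _ x.injective]
    rw [← himg] at ha
    obtain ⟨c, hc, rfl⟩ := Finset.mem_image.1 ha
    have e1 : x⁻¹ (x c) = c := by simp
    rw [e1]
    refine ⟨hc, ?_⟩
    rw [(hσ c hc).2]
    simp

/-- The map to the action on the blocks. -/
noncomputable def rhoF (g : K1) : Equiv.Perm (Fin 5) := Classical.choose (good_of_mem g.2)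

theorem rhoF_spec (g : K1) {x : Fin 315} (hx : x ∈ D) : (g : Equiv.Perm (Fin 315)) x ∈ D ∧
    blk ((g : Equiv.Perm (Fin 315)) x) = rhoF g (blk x) :=
  Classical.choose_spec (good_of_mem g.2) x hx

theorem rhoF_apply (g : K1) (i : Fin 5) : rhoF g i = blk ((g : Equiv.Perm (Fin 315)) (rep i)) := by
  rw [(rhoF_spec g (rep_mem i)).2, blk_rep]

/-- The action on the blocks, as a homomorphism. -/
noncomputable def rho : K1 →* Equiv.Perm (Fin 5) :=
  MonoidHom.mk' rhoF (by
    intro a b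
    ext i
    rw [Equiv.Perm.mul_apply, rhoF_apply b i, ← (rhoF_spec a (rhoF_spec b (rep_mem i)).1).2, rhoF_apply]
    rfl)

theorem rho_apply (g : K1) (i : Fin 5) : rho g i = blk ((g : Equiv.Perm (Fin 315)) (rep i)) := rhoF_apply g i

theorem rho_gen {l : ℕ} (hl : l < 4) : rho ⟨sK l, sK_mem hl⟩ = sgL l := by
  ext i
  rw [rho_apply]
  have := (sK_good_spec hl _ (rep_mem i)).2
  rw [blk_rep] at this
  exact congrArg Fin.val this

theorem rho_even (g : K1) : rho g ∈ alternatingGroup (Fin 5) := by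
  obtain ⟨g, hg⟩ := g
  induction hg using Subgroup.closure_induction with
  | mem x hx =>
    obtain ⟨l, hl, rfl⟩ := hx
    have hl' : l ∈ [0, 1, 2, 3] := by
      have : l < 4 := hl
      simp only [List.mem_cons, List.not_mem_nil, or_false]
      omega
    have := rho_gen (l := l) hl
    rw [Equiv.Perm.mem_alternatingGroup]
    exact (congrArg _ this).trans (sgL_sign l hl')
  | one => exact (map_one rho) ▸ Subgroup.one_mem _
  | mul x y hx hy h1 h2 =>
    have : rho ⟨x * y, Subgroup.mul_mem _ hx hy⟩ = rho ⟨x, hx⟩ * rho ⟨y, hy⟩ := map_mul rho ⟨x, hx⟩ ⟨y, hy⟩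
    rw [this]
    exact Subgroup.mul_mem _ h1 h2
  | inv x hx h1 =>
    have : rho ⟨x⁻¹, Subgroup.inv_mem _ hx⟩ = (rho ⟨x, hx⟩)⁻¹ := map_inv rho ⟨x, hx⟩
    rw [this]
    exact Subgroup.inv_mem _ h1

/-- Words for the elements of `A₅`. -/
def wordsA5 : List (List ℕ) :=
  [[],[0],[1],[0,0],[0,1],[1,0],[1,1],[0,0,0],[0,0,1],[0,1,0],[0,1,1],[1,0,0],[1,0,1],[1,1,0],[0,0,0,0],[0,0,0,1],[0,0,1,0],[0,0,1,1],[0,1,0,0],[0,1,0,1],[1,0,0,0],[1,0,0,1],[1,0,1,0],[1,0,1,1],[1,1,0,0],[1,1,0,1],[0,0,0,1,0],[0,0,0,1,1],[0,0,1,0,0],[0,0,1,0,1],[0,1,0,0,0],[0,1,0,0,1],[1,0,0,1,0],[1,0,0,1,1],[1,0,1,0,0],[1,0,1,0,1],[1,1,0,0,0],[1,1,0,0,1],[0,0,0,1,0,0],[0,0,0,1,0,1],[0,0,1,0,0,0],[0,0,1,0,0,1],[0,1,0,0,1,0],[0,1,0,0,1,1],[1,0,0,1,0,0],[1,0,0,1,0,1],[1,0,1,0,0,0],[1,0,1,0,0,1],[1,1,0,0,1,0],[1,1,0,0,1,1],[0,0,1,0,0,1,0],[0,0,1,0,0,1,1],[0,1,0,0,1,0,0],[0,1,0,0,1,0,1],[1,0,1,0,0,1,0],[1,0,1,0,0,1,1],[1,1,0,0,1,0,0],[1,1,0,0,1,0,1],[0,0,1,0,0,1,0,0],[0,0,1,0,0,1,0,1]]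

/-- Value of a word in the two permutations. -/
def evS : List ℕ → Equiv.Perm (Fin 5)
  | [] => 1
  | l :: w => evS w * (if l = 0 then sg0 else sg1)

/-- A code for a permutation. -/
def codeS (τ : Equiv.Perm (Fin 5)) : ℕ :=
  (τ 0).val + 5 * (τ 1).val + 25 * (τ 2).val + 125 * (τ 3).val + 625 * (τ 4).val

/-- The codes of the values of the words. -/
def codesL : List ℕ := [2930,2146,1670,1294,2014,366,1110,238,742,1778,2382,714,194,2826,1202,558,2710,2566,482,978,2678,2582,1138,542,1934,1454,1022,298,2426,1830,970,446,2070,1346,2902,2758,1398,1922,2790,2886,1634,2154,894,414,1766,2410,2230,1726,1490,1986,1358,2102,2538,2642,334,1054,586,1190,222,698]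

theorem codes_chk : ∀ i ∈ List.range 60, codeS (evS (wordsA5.getD i [])) = codesL.getD i 0 := by decide +kernel

theorem codes_idx : ∀ i ∈ List.range 60, codesL.idxOf (codesL.getD i 0) = i := by decide +kernel

/-- The quotient map. -/
noncomputable def F₁ : K1 →* alternatingGroup (Fin 5) := rho.codRestrict _ rho_even

theorem evS_range (w : List ℕ) : ∃ g : K1, rho g = evS w := by
  have h0 : sg0 ∈ rho.range := ⟨⟨sK 0, sK_mem (by norm_num)⟩, rho_gen (by norm_num)⟩
  have h1 : sg1 ∈ rho.range := ⟨⟨sK 1, sK_mem (by norm_num)⟩, rho_gen (by norm_num)⟩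
  have hw : ∀ w : List ℕ, evS w ∈ rho.range := by
    intro w
    induction w with
    | nil => exact Subgroup.one_mem _
    | cons l w ih =>
      refine Subgroup.mul_mem _ ih ?_
      split_ifs
      · exact h0
      · exact h1
  exact hw w

theorem F1_surj : Function.Surjective F₁ := by
  have hcard : Nat.card (alternatingGroup (Fin 5)) = 60 := by
    rw [nat_card_alternatingGroup]
    simp [Nat.factorial]
  let f : Fin 60 → F₁.range := fun i =>
    ⟨F₁ (Classical.choose (evS_range (wordsA5.getD i.val []))), ⟨_, rfl⟩⟩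
  have hf : Function.Injective f := by
    intro x y hxy
    have h1 := congrArg (fun a : F₁.range => ((a : alternatingGroup (Fin 5)) : Equiv.Perm (Fin 5))) hxy
    have h2 : rho (Classical.choose (evS_range (wordsA5.getD x.val []))) =
        rho (Classical.choose (evS_range (wordsA5.getD y.val []))) := h1
    rw [Classical.choose_spec (evS_range _), Classical.choose_spec (evS_range _)] at h2
    have h3 := congrArg codeS h2
    rw [codes_chk _ (List.mem_range.2 x.2), codes_chk _ (List.mem_range.2 y.2)] at h3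
    apply Fin.ext
    rw [← codes_idx _ (List.mem_range.2 x.2), ← codes_idx _ (List.mem_range.2 y.2), h3]
  have h60 : 60 ≤ Nat.card F₁.range := by
    have := Nat.card_le_card_of_injective f hf
    simpa using this
  have htop : F₁.range = ⊤ := by
    apply Subgroup.eq_top_of_le_card
    rw [hcard]
    exact h60
  exact MonoidHom.range_eq_top.1 htop

/-- The kernel. -/
noncomputable def R0 : Subgroup K1 := F₁.ker

instance : R0.Normal := by unfold R0; infer_instance

theorem card_R0 : Nat.card R0 = 32 := by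
  have h1 := Subgroup.card_mul_index R0
  have h2 : R0.index = 60 := by
    rw [R0, Subgroup.index_ker, MonoidHom.range_eq_top.2 F1_surj, Subgroup.card_top, nat_card_alternatingGroup]
    simp [Nat.factorial]
  rw [h2, card_K1] at h1
  omega

/-- The elements of the kernel, as words. -/
def Rw : List (List ℕ) :=
  [[],[1,1,1],[0,0,0,0,0],[0,1,1,0,3],[2,1,1,1,0],[0,1,1,0,1,1],[1,0,1,1,0,1],[1,1,0,1,1,0],[2,3,3,2,3,3],[3,2,3,3,2,3],[3,3,2,3,3,2],[0,0,1,1,0,3,2],[1,0,1,1,0,3,3],[2,2,1,1,1,0,0],[0,0,0,0,0,1,1,1],[0,0,0,0,1,1,1,0],[0,0,1,1,0,1,0,3],[0,0,1,1,1,0,0,0],[0,1,0,1,1,0,0,3],[0,1,0,3,2,2,2,3],[0,3,2,3,3,2,3,2],[0,3,3,2,3,3,2,2],[2,1,0,1,1,0,1,0],[2,1,1,0,1,1,0,0],[2,2,3,3,2,3,2,1],[2,3,2,3,3,2,2,1],[0,0,3,3,2,3,2,1,0],[0,1,1,0,1,0,1,1,0],[1,1,0,0,1,1,0,1,0],[2,3,2,3,3,2,2,3,3],[0,0,1,0,1,1,0,0,3,2],[0,0,3,2,3,3,2,3,2,2]]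

/-- The word of an element of the kernel. -/
def We (e : ℕ) : List ℕ := Rw.getD e []

theorem We_lt : ∀ e, ∀ l ∈ We e, l < 4 := by
  have h : ∀ w ∈ Rw, ∀ l ∈ w, l < 4 := by decide +kernel
  intro e l hl
  by_cases he : e < Rw.length
  · have hm : We e ∈ Rw := by
      rw [We, List.getD_eq_getElem _ _ he]
      exact List.getElem_mem he
    exact h _ hm l hl
  · rw [We, List.getD_eq_default _ _ (by omega)] at hl
    simp at hl

/-- An element of the kernel. -/
noncomputable def Fe (e : ℕ) : K1 := ⟨wval sK (We e), wK_mem _ (We_lt e)⟩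

theorem Fe_val (e : ℕ) (x : Fin 315) : (((Fe e : K1) : Equiv.Perm (Fin 315)) x).val = evK (We e) x.val :=
  wK_val _ (We_lt e) x

/-- The base point. -/
def p0 : Fin 315 := ⟨27, by norm_num⟩

/-- Images of the base point. -/
def valsT : List ℕ := [27,30,28,204,75,209,188,89,90,187,210,154,177,178,29,76,291,153,314,203,313,292,270,293,294,269,311,312,267,268,139,140]

theorem Fe_p0 : ∀ e ∈ List.range 32, valsT.idxOf (evK (We e) 27) = e := by decide +kernel

theorem Fe_blk : ∀ e ∈ List.range 32, ∀ r ∈ [1, 19, 20, 21, 22], blkN (evK (We e) r) = blkN r := by decide +kernel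

theorem Fe_mem {e : ℕ} (he : e < 32) : Fe e ∈ R0 := by
  show F₁ (Fe e) = 1
  apply Subtype.ext
  show rho (Fe e) = 1
  ext i
  rw [rho_apply]
  have hr : (rep i).val ∈ [1, 19, 20, 21, 22] := by
    revert i
    decide +kernel
  have h1 := Fe_blk e (List.mem_range.2 he) _ hr
  show (blkN _ % 5) = _
  rw [Fe_val, h1, Equiv.Perm.one_apply]
  exact congrArg Fin.val (blk_rep i)

theorem Fe_inj {e e' : ℕ} (he : e < 32) (he' : e' < 32)
    (h : ((Fe e : K1) : Equiv.Perm (Fin 315)) p0 = ((Fe e' : K1) : Equiv.Perm (Fin 315)) p0) : e = e' := by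
  have h1 := congrArg Fin.val h
  rw [Fe_val, Fe_val] at h1
  have h2 := Fe_p0 e (List.mem_range.2 he)
  have h3 := Fe_p0 e' (List.mem_range.2 he')
  have h4 : evK (We e) 27 = evK (We e') 27 := h1
  rw [h4] at h2
  exact h2.symm.trans h3

theorem R0_exists (a : K1) (ha : a ∈ R0) : ∃ e, e < 32 ∧ a = Fe e := by
  let f : Fin 32 → R0 := fun e => ⟨Fe e.val, Fe_mem e.2⟩
  have hf : Function.Injective f := by
    intro x y hxy
    have h1 : Fe x.val = Fe y.val := congrArg Subtype.val hxy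
    apply Fin.ext
    exact Fe_inj x.2 y.2 (by rw [h1])
  have hb := hf.bijective_of_nat_card_le (by rw [card_R0]; simp)
  obtain ⟨e, he⟩ := hb.2 ⟨a, ha⟩
  exact ⟨e.val, e.2, (congrArg Subtype.val he).symm⟩

theorem R0_ext {a b : K1} (ha : a ∈ R0) (hb : b ∈ R0)
    (h : (a : Equiv.Perm (Fin 315)) p0 = (b : Equiv.Perm (Fin 315)) p0) : a = b := by
  obtain ⟨e, he, rfl⟩ := R0_exists a ha
  obtain ⟨e', he', rfl⟩ := R0_exists b hb
  rw [Fe_inj he he' h]

/-- The involution as an element of `K1`. -/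
noncomputable def zK : K1 := ⟨zP, zP_mem⟩

theorem zK_fix : ∀ r ∈ [1, 19, 20, 21, 22], evK zw r = r := by decide +kernel

theorem zK_mem : zK ∈ R0 := by
  show F₁ zK = 1
  apply Subtype.ext
  show rho zK = 1
  ext i
  rw [rho_apply]
  have hr : (rep i).val ∈ [1, 19, 20, 21, 22] := by
    revert i
    decide +kernel
  have h1 : (zP (rep i)).val = (rep i).val := by
    rw [zP, wK_val _ zw_lt]
    exact zK_fix _ hr
  have h2 : zP (rep i) = rep i := Fin.ext h1
  show ((blk (zP (rep i)) : Fin 5) : ℕ) = _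
  rw [h2, blk_rep]
  rfl

theorem zK_comm (g : K1) : g * zK = zK * g := Subtype.ext (zP_comm g.2)

theorem zK_ne : zK ≠ 1 := by
  intro h
  have h1 : zP = 1 := congrArg Subtype.val h
  have h2 : (zP p0).val = 28 := by
    rw [zP, wK_val _ zw_lt]
    decide +kernel
  rw [h1] at h2
  revert h2
  decide +kernel

theorem zK_sq : zK * zK = 1 := Subtype.ext zP_sq

/-- The commutation check. -/
theorem comm_chk : ∀ e ∈ List.range 32, ∀ e' ∈ List.range 32,
    evK (We e) (evK (We e') 27) = evK (We e') (evK (We e) 27) ∨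
    evK (We e) (evK (We e') 27) = evK zw (evK (We e') (evK (We e) 27)) := by decide +kernel

theorem sq_chk : ∀ e ∈ List.range 32, evK (We e) (evK (We e) 27) = 27 ∨ evK (We e) (evK (We e) 27) = evK zw 27 := by
  decide +kernel

theorem cen_chk : ∀ e ∈ List.range 32, evK (We e) 27 = 27 ∨ evK (We e) 27 = evK zw 27 ∨
    ∃ e' ∈ List.range 32, evK (We e) (evK (We e') 27) ≠ evK (We e') (evK (We e) 27) := by decide +kernel

theorem zval : evK zw 27 = 28 := by decide +kernel

theorem R0_comm (a : K1) (ha : a ∈ R0) (b : K1) (hb : b ∈ R0) : a * b * a⁻¹ * b⁻¹ = 1 ∨ a * b * a⁻¹ * b⁻¹ = zK := by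
  have hab : a * b ∈ R0 := R0.mul_mem ha hb
  have hba : b * a ∈ R0 := R0.mul_mem hb ha
  obtain ⟨e, he, rfl⟩ := R0_exists a ha
  obtain ⟨e', he', rfl⟩ := R0_exists b hb
  rcases comm_chk e (List.mem_range.2 he) e' (List.mem_range.2 he') with h | h
  · left
    have : Fe e * Fe e' = Fe e' * Fe e := by
      apply R0_ext hab hba
      apply Fin.ext
      show (((Fe e : K1) : Equiv.Perm (Fin 315)) (((Fe e' : K1) : Equiv.Perm (Fin 315)) p0)).val =
        (((Fe e' : K1) : Equiv.Perm (Fin 315)) (((Fe e : K1) : Equiv.Perm (Fin 315)) p0)).val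
      rw [Fe_val, Fe_val, Fe_val, Fe_val]
      exact h
    rw [this]
    group
  · right
    have : Fe e * Fe e' = zK * (Fe e' * Fe e) := by
      apply R0_ext hab (R0.mul_mem zK_mem hba)
      apply Fin.ext
      show (((Fe e : K1) : Equiv.Perm (Fin 315)) (((Fe e' : K1) : Equiv.Perm (Fin 315)) p0)).val =
        (zP (((Fe e' : K1) : Equiv.Perm (Fin 315)) (((Fe e : K1) : Equiv.Perm (Fin 315)) p0))).val
      rw [zP, wK_val _ zw_lt, Fe_val, Fe_val, Fe_val, Fe_val]
      exact h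
    rw [this]
    group

theorem R0_sq (a : K1) (ha : a ∈ R0) : a ^ 2 = 1 ∨ a ^ 2 = zK := by
  have ha2 : a * a ∈ R0 := R0.mul_mem ha ha
  rw [pow_two]
  obtain ⟨e, he, rfl⟩ := R0_exists a ha
  rcases sq_chk e (List.mem_range.2 he) with h | h
  · left
    apply R0_ext ha2 R0.one_mem
    apply Fin.ext
    show (((Fe e : K1) : Equiv.Perm (Fin 315)) (((Fe e : K1) : Equiv.Perm (Fin 315)) p0)).val = 27
    rw [Fe_val, Fe_val]
    exact h
  · right
    apply R0_ext ha2 zK_mem
    apply Fin.ext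
    show (((Fe e : K1) : Equiv.Perm (Fin 315)) (((Fe e : K1) : Equiv.Perm (Fin 315)) p0)).val = (zP p0).val
    rw [zP, wK_val _ zw_lt, Fe_val, Fe_val]
    exact h

theorem R0_cen (a : K1) (ha : a ∈ R0) (hc : ∀ b ∈ R0, a * b = b * a) : a = 1 ∨ a = zK := by
  obtain ⟨e, he, rfl⟩ := R0_exists a ha
  rcases cen_chk e (List.mem_range.2 he) with h | h | ⟨e', he', h⟩
  · left
    apply R0_ext ha R0.one_mem
    apply Fin.ext
    rw [Fe_val]
    exact h
  · right
    apply R0_ext ha zK_mem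
    apply Fin.ext
    rw [Fe_val]
    show _ = (zP p0).val
    rw [zP, wK_val _ zw_lt]
    exact h
  · exfalso
    have h1 := hc (Fe e') (Fe_mem (List.mem_range.1 he'))
    apply h
    have h2 := congrArg (fun g : K1 => (((g : Equiv.Perm (Fin 315)) p0).val)) h1
    have h3 : (((Fe e : K1) : Equiv.Perm (Fin 315)) (((Fe e' : K1) : Equiv.Perm (Fin 315)) p0)).val =
        (((Fe e' : K1) : Equiv.Perm (Fin 315)) (((Fe e : K1) : Equiv.Perm (Fin 315)) p0)).val := h2
    rw [Fe_val, Fe_val, Fe_val, Fe_val] at h3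
    exact h3

theorem R0_non : ∃ a ∈ R0, ∃ b ∈ R0, a * b ≠ b * a := by
  refine ⟨Fe 1, Fe_mem (by norm_num), Fe 3, Fe_mem (by norm_num), ?_⟩
  intro h
  have h2 := congrArg (fun g : K1 => (((g : Equiv.Perm (Fin 315)) p0).val)) h
  have h3 : (((Fe 1 : K1) : Equiv.Perm (Fin 315)) (((Fe 3 : K1) : Equiv.Perm (Fin 315)) p0)).val =
      (((Fe 3 : K1) : Equiv.Perm (Fin 315)) (((Fe 1 : K1) : Equiv.Perm (Fin 315)) p0)).val := h2
  rw [Fe_val, Fe_val, Fe_val, Fe_val] at h3
  revert h3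
  show evK (We 1) (evK (We 3) 27) = evK (We 3) (evK (We 1) 27) → False
  decide +kernel

/-- The noninner check. -/
theorem nonin_chk : evK [0] (evK (We 1) 27) ≠ evK (We 1) (evK [0] 27) ∧
    evK [0] (evK (We 1) 27) ≠ evK zw (evK (We 1) (evK [0] 27)) := by decide +kernel

theorem hC_gen {G : Type*} [Group G] (z g d r q : G) (hz : ∀ x : G, x * z = z * x) (hg : g = d * r)
    (hdq : d * q = q * d) (h1 : r * q * r⁻¹ * q⁻¹ = 1 ∨ r * q * r⁻¹ * q⁻¹ = z) :
    g * q = q * g ∨ g * q = z * (q * g) := by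
  subst hg
  rcases h1 with h1 | h1
  · left
    have h2 : r * q = q * r := by
      have : r * q = (r * q * r⁻¹ * q⁻¹) * (q * r) := by group
      rw [this, h1, one_mul]
    rw [mul_assoc, h2, ← mul_assoc, hdq, mul_assoc]
  · right
    have h2 : r * q = z * (q * r) := by
      have : r * q = (r * q * r⁻¹ * q⁻¹) * (q * r) := by group
      rw [this, h1]
    rw [mul_assoc, h2, ← mul_assoc, hz, mul_assoc, ← mul_assoc d, hdq, mul_assoc]

theorem sK0_val (y : Fin 315) : (sK 0 y).val = evK [0] y.val := by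
  have h := wK_val [0] (by decide +kernel) y
  have e : wval sK [0] = sK 0 := one_mul _
  rw [e] at h
  exact h

theorem R0_hC (x : K1) (hx : ∀ q ∈ R0, x * q = q * x) : x ∈ R0 := by
  have hn : (Subgroup.centralizer (R0 : Set K1)).Normal := inferInstance
  have hN : ((Subgroup.centralizer (R0 : Set K1)).map F₁).Normal := Subgroup.Normal.map hn _ F1_surj
  haveI : IsSimpleGroup (alternatingGroup (Fin 5)) := alternatingGroup.isSimpleGroup_five
  have hx' : x ∈ Subgroup.centralizer (R0 : Set K1) := by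
    rw [Subgroup.mem_centralizer_iff]
    intro q hq
    exact (hx q hq).symm
  rcases hN.eq_bot_or_eq_top with h | h
  · rw [Subgroup.map_eq_bot_iff] at h
    exact h hx'
  · exfalso
    obtain ⟨g0, hg0⟩ : ∃ g0 : K1, (g0 : Equiv.Perm (Fin 315)) = sK 0 := ⟨⟨sK 0, sK_mem (by norm_num)⟩, rfl⟩
    have hg1 : F₁ g0 ∈ (Subgroup.centralizer (R0 : Set K1)).map F₁ := by
      rw [h]
      exact Subgroup.mem_top _
    obtain ⟨d, hd, hde⟩ := hg1
    have hr : d⁻¹ * g0 ∈ R0 := by
      show F₁ (d⁻¹ * g0) = 1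
      rw [map_mul, map_inv, hde, inv_mul_cancel]
    have hg : g0 = d * (d⁻¹ * g0) := by group
    have hq : Fe 1 ∈ R0 := Fe_mem (by norm_num)
    have hdq : d * Fe 1 = Fe 1 * d := (Subgroup.mem_centralizer_iff.1 hd (Fe 1) hq).symm
    have hval : ∀ y : Fin 315, ((g0 : Equiv.Perm (Fin 315)) y).val = evK [0] y.val := by
      intro y
      rw [hg0]
      exact sK0_val y
    rcases hC_gen zK g0 d _ (Fe 1) (fun y => zK_comm y) hg hdq (R0_comm _ hr _ hq) with h3 | h3
    · have h4 := congrArg (fun g : K1 => (((g : Equiv.Perm (Fin 315)) p0).val)) h3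
      have h5 : ((g0 : Equiv.Perm (Fin 315)) (((Fe 1 : K1) : Equiv.Perm (Fin 315)) p0)).val =
          (((Fe 1 : K1) : Equiv.Perm (Fin 315)) ((g0 : Equiv.Perm (Fin 315)) p0)).val := h4
      rw [hval, Fe_val, Fe_val, hval] at h5
      exact nonin_chk.1 h5
    · have h4 := congrArg (fun g : K1 => (((g : Equiv.Perm (Fin 315)) p0).val)) h3
      have h5 : ((g0 : Equiv.Perm (Fin 315)) (((Fe 1 : K1) : Equiv.Perm (Fin 315)) p0)).val =
          (zP (((Fe 1 : K1) : Equiv.Perm (Fin 315)) ((g0 : Equiv.Perm (Fin 315)) p0))).val := h4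
      rw [hval, Fe_val, zP, wK_val _ zw_lt, Fe_val, hval] at h5
      exact nonin_chk.2 h5

/-! ### The centraliser in `Pg` -/

/-- The involution in `Pg`. -/
noncomputable def zb : Pg := ⟨zP, K1_le zP_mem⟩

/-- The map from `K1` to the centraliser. -/
noncomputable def piK : K1 →* Subgroup.centralizer ({zb} : Set Pg) where
  toFun x := ⟨⟨x.1, K1_le x.2⟩, by
    rw [Subgroup.mem_centralizer_singleton_iff]
    exact Subtype.ext (zP_comm x.2)⟩
  map_one' := rfl
  map_mul' _ _ := rfl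

theorem nc_chk : GT 0 (evK zw 0) ≠ evK zw (GT 0 0) := by decide +kernel

theorem zb_not_central : Subgroup.centralizer ({zb} : Set Pg) ≠ ⊤ := by
  intro h
  have h1 : (⟨Gp tbl 0, gen_mem (by norm_num)⟩ : Pg) ∈ Subgroup.centralizer ({zb} : Set Pg) := by
    rw [h]
    exact Subgroup.mem_top _
  rw [Subgroup.mem_centralizer_singleton_iff] at h1
  have h2 : Gp tbl 0 * zP = zP * Gp tbl 0 := congrArg Subtype.val h1
  have h3 := congrArg (fun g : Equiv.Perm (Fin 315) => (g (0 : Fin 315)).val) h2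
  have h4 : (Gp tbl 0 (zP (0 : Fin 315))).val = (zP (Gp tbl 0 (0 : Fin 315))).val := h3
  rw [Gp_val tbl 0 (by norm_num), zP, wK_val _ zw_lt, wK_val _ zw_lt, Gp_val tbl 0 (by norm_num)] at h4
  exact nc_chk h4

theorem piK_surj : Function.Surjective piK := by
  have hst := lev0.stabilizer_eq
  have hco : IsCoatom (MulAction.stabilizer Pg (⟨D0 0 % 315, Nat.mod_lt _ (by norm_num)⟩ : Fin 315)) :=
    (MulAction.isCoatom_stabilizer_iff_preprimitive _ _).2 prim
  have hst' : MulAction.stabilizer Pg (⟨D0 0 % 315, Nat.mod_lt _ (by norm_num)⟩ : Fin 315) = K1.subgroupOf Pg := hst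
  rw [hst'] at hco
  have hle : K1.subgroupOf Pg ≤ Subgroup.centralizer ({zb} : Set Pg) := by
    intro g hg
    rw [Subgroup.mem_centralizer_singleton_iff]
    exact Subtype.ext (zP_comm (Subgroup.mem_subgroupOf.1 hg))
  have heq : K1.subgroupOf Pg = Subgroup.centralizer ({zb} : Set Pg) := by
    rcases hle.lt_or_eq with h | h
    · exact absurd (hco.2 _ h) zb_not_central
    · exact h
  intro y
  have h1 : y.1 ∈ K1.subgroupOf Pg := by
    rw [heq]
    exact y.2
  exact ⟨⟨y.1.1, Subgroup.mem_subgroupOf.1 h1⟩, rfl⟩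

theorem piK_inj : Function.Injective piK := by
  intro a b h
  have h1 := congrArg (fun y : Subgroup.centralizer ({zb} : Set Pg) => ((y : Pg) : Equiv.Perm (Fin 315))) h
  exact Subtype.ext h1

/-- The word of the conjugating element. -/
def gw : List ℕ := [0, 2, 0, 3, 1, 2]

/-- The conjugating element. -/
noncomputable def gP : Pg :=
  ⟨wval (fun l => Gp tbl (0 + l)) gw, wval_mem _ _ _ (by
    intro l hl
    apply Subgroup.subset_closure
    refine ⟨l, ?_, rfl⟩
    revert l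
    decide)⟩

theorem gP_chk : allB 315 9 (fun x =>
    Nat.beq (walkF (fun l y => GT (0 + l) y) gw (evK zw x)) (evK (We 14) (walkF (fun l y => GT (0 + l) y) gw x))) = true := by
  decide +kernel

theorem gP_conj : (gP : Equiv.Perm (Fin 315)) * zP = ((Fe 14 : K1) : Equiv.Perm (Fin 315)) * (gP : Equiv.Perm (Fin 315)) := by
  ext x
  have h := allB_spec _ _ _ (by norm_num) gP_chk x.val x.2
  rw [Equiv.Perm.mul_apply, Equiv.Perm.mul_apply]
  have h1 : ∀ y : Fin 315, ((gP : Equiv.Perm (Fin 315)) y).val = walkF (fun l y => GT (0 + l) y) gw y.val := by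
    intro y
    rw [walkF_eq]
    exact wval_Gp tbl 0 gw (by decide +kernel) y
  rw [h1, Fe_val, h1, zP, wK_val _ zw_lt]
  exact Nat.eq_of_beq_eq_true h

/-- The cover data. -/
theorem cover : Cover zb piK zK F₁ R0 2 where
  π_surj := piK_surj
  π_ζ := rfl
  inj := fun q _ h => by
    apply piK_inj
    rw [h, map_one]
  F_surj := F1_surj
  F_ker := fun x => by
    constructor
    · intro h
      exact ⟨x, h, rfl⟩
    · rintro ⟨r, hr, e⟩
      rw [piK_inj e]
      exact hr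
  ζ_mem := zK_mem
  ζ_ne := zK_ne
  ζ_sq := zK_sq
  card := by rw [card_R0]; norm_num
  comm := R0_comm
  sq := R0_sq
  cen := R0_cen
  non := R0_non
  hO := fun P hP h2 => by
    haveI : IsSimpleGroup (alternatingGroup (Fin 5)) := alternatingGroup.isSimpleGroup_five
    rcases hP.eq_bot_or_eq_top with h | h
    · exact h
    · exfalso
      rw [h] at h2
      obtain ⟨k, hk⟩ := IsPGroup.iff_card.1 h2
      rw [Subgroup.card_top, nat_card_alternatingGroup] at hk
      have h4 : Nat.factorial (Nat.card (Fin 5)) / 2 = 60 := by simp [Nat.factorial]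
      rw [h4] at hk
      have h5 : (3 : ℕ) ∣ 2 ^ k := by
        rw [← hk]
        norm_num
      have := Nat.Prime.dvd_of_dvd_pow Nat.prime_three h5
      omega
  hC := fun x hx => by
    obtain ⟨r, hr⟩ : ∃ r ∈ R0, x = r := ⟨x, R0_hC x (fun q hq => piK_inj (by
      rw [map_mul, map_mul]
      exact hx q hq)), rfl⟩
    exact ⟨r, hr.1, by rw [hr.2]⟩
  weak := by
    refine ⟨gP, Fe 14, Fe_mem (by norm_num), ?_, ?_⟩
    · apply Subtype.ext
      show (gP : Equiv.Perm (Fin 315)) * zP * (gP : Equiv.Perm (Fin 315))⁻¹ = ((Fe 14 : K1) : Equiv.Perm (Fin 315))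
      rw [gP_conj]
      group
    · intro h
      have h1 : (gP : Equiv.Perm (Fin 315)) * zP * (gP : Equiv.Perm (Fin 315))⁻¹ = zP := congrArg Subtype.val h
      have h2 : (gP : Equiv.Perm (Fin 315)) * zP * (gP : Equiv.Perm (Fin 315))⁻¹ = ((Fe 14 : K1) : Equiv.Perm (Fin 315)) := by
        rw [gP_conj]
        group
      rw [h2] at h1
      have h3 := congrArg (fun g : Equiv.Perm (Fin 315) => (g p0).val) h1
      have h4 : (((Fe 14 : K1) : Equiv.Perm (Fin 315)) p0).val = (zP p0).val := h3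
      rw [Fe_val, zP, wK_val _ zw_lt] at h4
      revert h4
      show evK (We 14) 27 = evK zw 27 → False
      decide +kernel

/-- The main theorem on `Pg`. -/
theorem pg_main : ∃ z : Pg, orderOf z = 2 ∧ ∃ (Q : Subgroup (Subgroup.centralizer ({z} : Set Pg))) (_ : Q.Normal),
    generalizedFittingSubgroup (Subgroup.centralizer ({z} : Set Pg)) = Q ∧ IsExtraspecial 2 Q ∧ Nat.card Q = 2 ^ 5 ∧
    Nonempty ((Subgroup.centralizer ({z} : Set Pg)) ⧸ Q ≃* Cfsg.Omega (ZMod 2) (Cfsg.quadFormMinus 1 (ZMod 2) 1 1)) ∧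
    Nonempty ((Subgroup.centralizer ({z} : Set Pg)) ⧸ Q ≃* alternatingGroup (Fin 5)) ∧
    ∃ g : Pg, (∃ hq : g * z * g⁻¹ ∈ Subgroup.centralizer ({z} : Set Pg),
      (⟨g * z * g⁻¹, hq⟩ : Subgroup.centralizer ({z} : Set Pg)) ∈ Q) ∧ g * z * g⁻¹ ≠ z := by
  obtain ⟨⟨h1, h2, h3, h4, h5⟩, ⟨e⟩⟩ := cover.setting'
  obtain ⟨e2⟩ := Cfsg.Agent.Lib.OmegaFourTwo.omega_equiv
  exact ⟨zb, h1, cover.F.ker, inferInstance, h2, h3, h4, ⟨e.trans e2.symm⟩, ⟨e⟩, h5⟩

end Cfsg.Agent.Lib.PgCent20
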