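import Cfsg.Agent.Lib.PgoGraphInv

/-!
# No semilinear involutions on the minus form
-/

set_option autoImplicit false
set_option linter.unusedSectionVars false
set_option linter.unusedSimpArgs false
set_option linter.unusedVariables false

namespace Cfsg.Agent.Lib.PgoGraphMinus

open QuadraticMap Cfsg.Agent.Lib.OrthoBasic Cfsg.Agent.Lib.OrthoSiegel Cfsg.Agent.Lib.OrthoGen
  Cfsg.Agent.Lib.OrthoIndex Cfsg.Agent.Lib.OrthoSimple Cfsg.Agent.Lib.OrthoCount Cfsg.Agent.Lib.OrthoOrder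
  Cfsg.Agent.Lib.OrthoFinal Cfsg.Agent.Lib.OrthoChar Cfsg.Agent.Lib.PgoPsi Cfsg.Agent.Lib.PgoGroup
  Cfsg.Agent.Lib.PgoSim Cfsg.Agent.Lib.OrthoCardFinal Cfsg.Agent.Lib.PgoFamilies
  Cfsg.Agent.Lib.PgoInndiag Cfsg.Agent.Lib.GammaCount Cfsg.Agent.Lib.Hilbert90 Cfsg.Agent.Lib.AutPOm
  Cfsg.Agent.Lib.PgoGraphInv
open Cfsg Matrix

variable {F : Type*} [Field F] [Fintype F] {ι : Type} [Fintype ι] [DecidableEq ι] {f : (ι → F) → F}
  {q : QuadraticForm F (ι → F)}

lemma gram_apply (q : QuadraticForm F (ι → F)) (s t : ι) :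
    gram q s t = polar q (Pi.single s 1) (Pi.single t 1) := by
  rw [polar_eq_gram, single_one_dotProduct, Matrix.mulVec_single_one]
  rfl

/-- The semilinear version of `gram_sim`. -/
lemma gram_semi (hf : ∀ v, f v = q v) {g : Matrix ι ι F} {σ : F ≃+* F} {c : F}
    (hc : ∀ v : ι → F, f (g *ᵥ (fun i => σ (v i))) = c * σ (f v)) :
    gᵀ * gram q * g = c • (gram q).map σ := by
  ext s t
  have hsv : ∀ i : ι, (fun j => σ ((Pi.single i (1 : F) : ι → F) j)) = (Pi.single i 1 : ι → F) := by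
    intro i
    funext j
    by_cases h : j = i
    · subst h
      simp
    · simp [h]
  have hsvadd : ∀ u v : ι → F, (fun j => σ ((u + v) j)) = (fun j => σ (u j)) + (fun j => σ (v j)) := by
    intro u v
    funext j
    simp
  have h1 : QuadraticMap.polar q (g *ᵥ Pi.single s 1) (g *ᵥ Pi.single t 1) =
      c * σ (QuadraticMap.polar q (Pi.single s 1) (Pi.single t 1)) := by
    have e := hc (Pi.single s 1 + Pi.single t 1)
    have e1 := hc (Pi.single s 1)
    have e2 := hc (Pi.single t 1)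
    rw [hsvadd, hsv, hsv, Matrix.mulVec_add, hf, hf] at e
    rw [hsv, hf, hf] at e1
    rw [hsv, hf, hf] at e2
    simp only [QuadraticMap.polar, map_sub, e, e1, e2]
    ring
  rw [polar_eq_gram] at h1
  have h2 : ∀ M : Matrix ι ι F, (g *ᵥ Pi.single s 1) ⬝ᵥ (M *ᵥ (g *ᵥ Pi.single t 1)) = (gᵀ * M * g) s t := by
    intro M
    have e1 : (gᵀ * M * g) s t = (Pi.single s 1 : ι → F) ⬝ᵥ ((gᵀ * M * g) *ᵥ Pi.single t 1) := by
      rw [single_one_dotProduct, Matrix.mulVec_single_one]
      rfl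
    rw [e1, ← Matrix.mulVec_mulVec, ← Matrix.mulVec_mulVec, Matrix.dotProduct_mulVec _ gᵀ, Matrix.vecMul_transpose]
  rw [h2] at h1
  rw [h1]
  simp only [Matrix.smul_apply, Matrix.map_apply, smul_eq_mul, gram_apply]

/-- Fixed elements are squares. -/
lemma isSquare_of_fixed (hodd : Odd (Fintype.card F)) {σ : F ≃+* F} (hσ : orderOf σ = 2) {x : F} (hx : σ x = x)
    (hx0 : x ≠ 0) : IsSquare x := by
  classical
  letI : Fintype (fixedF σ) := Fintype.ofFinite _
  have hcard := card_eq_card_fixedF_pow σ hσ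
  rw [Nat.card_eq_fintype_card, Nat.card_eq_fintype_card] at hcard
  have hodd₀ : Odd (Fintype.card (fixedF σ)) := by
    by_contra h
    rw [Nat.not_odd_iff_even] at h
    rw [hcard] at hodd
    exact (Nat.not_odd_iff_even.2 (h.pow_of_ne_zero (by norm_num))) hodd
  have hx0' : (⟨x, hx⟩ : fixedF σ) ≠ 0 := by
    intro h
    exact hx0 (congrArg Subtype.val h)
  exact isSquare_j_of_two ((fixedF σ).subtype) hodd₀ hcard hx0'

/-- A semilinear similarity of order two modulo scalars forces the discriminant to be a square. -/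
theorem disc_square_of_semilinear (hodd : Odd (Fintype.card F)) (hf : ∀ v, f v = q v) (hq : Nondeg q)
    {m : ℕ} (hcard : Fintype.card ι = 2 * m) {x₀ : ι → F} (hx₀ : f x₀ ≠ 0)
    {g : GL ι F} {σ : F ≃+* F} (h : IsSemisimilarityPair f g σ) (hσ : orderOf σ = 2) {d : Fˣ}
    (hd : g * glMap σ g = sc d) : IsSquare (gram q).det := by
  classical
  obtain ⟨c, hc⟩ := h
  have hσσ : ∀ x, σ (σ x) = x := by
    intro x
    have h1 : σ ^ 2 = 1 := by
      rw [← hσ]
      exact pow_orderOf_eq_one σ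
    have h2 : (σ ^ 2) x = x := by rw [h1]; rfl
    rw [pow_two] at h2
    exact h2
  set M : Matrix ι ι F := (g : Matrix ι ι F) with hM
  set δ := (gram q).det with hδ
  have hδ0 : δ ≠ 0 := det_gram_ne hq
  -- step 1: determinants
  have h1 : M.det ^ 2 * δ = (c : F) ^ (2 * m) * σ δ := by
    have h2 := congrArg Matrix.det (gram_semi hf hc)
    rw [Matrix.det_mul, Matrix.det_mul, Matrix.det_transpose, Matrix.det_smul, hcard] at h2
    have h3 : ((gram q).map σ).det = σ δ := by
      exact (RingHom.map_det (σ : F →+* F) (gram q)).symm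
    rw [h3] at h2
    rw [← h2]
    ring
  -- step 2
  have h2 : M.det * σ M.det = (d : F) ^ (2 * m) := by
    have h3 := congrArg (fun x : GL ι F => (x : Matrix ι ι F).det) hd
    simp only [Units.val_mul, Matrix.det_mul] at h3
    have h4 : ((glMap σ g : GL ι F) : Matrix ι ι F).det = σ M.det := by
      change (M.map σ).det = _
      exact (RingHom.map_det (σ : F →+* F) M).symm
    rw [h4] at h3
    rw [h3, sc_coe]
    simp [Matrix.scalar_apply, Matrix.det_diagonal, hcard]
  -- step 3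
  have h3 : (c : F) * σ c = (d : F) ^ 2 := by
    have e1 : ((g * glMap σ g : GL ι F) : Matrix ι ι F) *ᵥ x₀ = (d : F) • x₀ := by
      rw [hd, sc_mulVec]
    have e2 : ((g * glMap σ g : GL ι F) : Matrix ι ι F) *ᵥ x₀ =
        M *ᵥ (fun i => σ ((M *ᵥ (fun j => σ (x₀ j))) i)) := by
      rw [Units.val_mul, ← Matrix.mulVec_mulVec]
      congr 1
      have := sv_mulVec σ M (fun j => σ (x₀ j))
      have e3 : sv σ (fun j => σ (x₀ j)) = x₀ := by
        funext j
        exact hσσ _
      rw [e3] at this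
      exact this.symm
    have e4 := hc (M *ᵥ (fun j => σ (x₀ j)))
    rw [← e2, e1, hc, hf, Q_smul, ← hf] at e4
    rw [map_mul, hσσ] at e4
    have h5 : ((c : F) * σ c - (d : F) ^ 2) * f x₀ = 0 := by linear_combination -e4
    exact sub_eq_zero.1 ((mul_eq_zero.1 h5).resolve_right hx₀)
  -- step 4
  have hc0 : (c : F) ≠ 0 := c.ne_zero
  have hσc0 : σ (c : F) ≠ 0 := (map_ne_zero σ).2 hc0
  set w := M.det / (c : F) ^ m with hw
  have hww : w * σ w = 1 := by
    rw [hw, map_div₀, map_pow]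
    have h4 : (c : F) ^ m * σ c ^ m = (d : F) ^ (2 * m) := by
      rw [← mul_pow, h3, pow_mul]
    field_simp
    rw [h2, ← h4]
  have hw2 : w ^ 2 * δ = σ δ := by
    rw [hw]
    field_simp
    rw [h1]
    ring
  have hpn : pnorm σ w 2 = 1 := by
    simp only [pnorm, Finset.prod_range_succ, Finset.prod_range_zero, one_mul, pow_zero, pow_one]
    exact hww
  obtain ⟨u, hu0, hu⟩ := exists_of_pnorm_eq_one σ (by norm_num) hσ hpn
  have hfix : σ (δ * u ^ 2) = δ * u ^ 2 := by
    have e : u ^ 2 = w ^ 2 * (σ u) ^ 2 := by rw [← mul_pow, hu]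
    rw [map_mul, map_pow, ← hw2, e]
    ring
  have hs := isSquare_of_fixed hodd hσ hfix (mul_ne_zero hδ0 (pow_ne_zero 2 hu0))
  obtain ⟨t, ht⟩ := hs
  refine ⟨t / u, ?_⟩
  field_simp
  linear_combination ht

/-! ### The discriminant of the minus form -/

section minus

variable {m : ℕ} (a b : F)

lemma gram_minus_21 : (gram (qMinus m a b)).toBlocks₂₁ = 0 := by
  ext i j
  rw [Matrix.toBlocks₂₁, Matrix.of_apply, gram_apply, Cfsg.Agent.Lib.PgoClass.polar_qMinus]
  simp [Pi.single_apply]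

lemma gram_minus_22 : (gram (qMinus m a b)).toBlocks₂₂ = !![2, a; a, 2 * b] := by
  ext i j
  rw [Matrix.toBlocks₂₂, Matrix.of_apply, gram_apply, Cfsg.Agent.Lib.PgoClass.polar_qMinus]
  fin_cases i <;> fin_cases j <;> simp [Pi.single_apply]

lemma gram_minus_11 : (gram (qMinus m a b)).toBlocks₁₁ = Matrix.fromBlocks 0 1 1 0 := by
  ext i j
  rw [Matrix.toBlocks₁₁, Matrix.of_apply, gram_apply, Cfsg.Agent.Lib.PgoClass.polar_qMinus]
  rcases i with i | i <;> rcases j with j | j <;>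
    simp [Pi.single_apply, Matrix.one_apply, Finset.sum_ite_eq, eq_comm]

lemma det_gram_minus : ∃ ε : F, ε * ε = 1 ∧ (gram (qMinus m a b)).det = ε * (4 * b - a ^ 2) := by
  have h1 : gram (qMinus m a b) = Matrix.fromBlocks (gram (qMinus m a b)).toBlocks₁₁ (gram (qMinus m a b)).toBlocks₁₂
      0 (gram (qMinus m a b)).toBlocks₂₂ := by
    conv_lhs => rw [← Matrix.fromBlocks_toBlocks (gram (qMinus m a b))]
    rw [gram_minus_21]
  refine ⟨((Matrix.fromBlocks 0 1 1 0 : Matrix (Fin m ⊕ Fin m) (Fin m ⊕ Fin m) F)).det, ?_, ?_⟩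
  · rw [← Matrix.det_mul, Matrix.fromBlocks_multiply]
    simp [Matrix.fromBlocks_one]
  · rw [h1, Matrix.det_fromBlocks_zero₂₁, gram_minus_11, gram_minus_22, Matrix.det_fin_two_of]
    ring

end minus

/-- A similarity in the minus form cannot be semilinear of order two. -/
theorem no_semilinear_minus (hodd : Odd (Fintype.card F)) {m : ℕ} (a b : F)
    (hab : ∀ z₁ z₂ : F, z₁ ^ 2 + a * z₁ * z₂ + b * z₂ ^ 2 = 0 → z₁ = 0 ∧ z₂ = 0)
    {g : GL (Cfsg.Agent.Lib.PgoClass.Ix m) F} {σ : F ≃+* F} (h : IsSemisimilarityPair (quadFormMinus m F a b) g σ)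
    (hσ : orderOf σ = 2) {d : Fˣ} (hd : g * glMap σ g = sc d) : False := by
  have h2 := char_ne_two_of_odd hodd
  have hQ := nondeg_qMinus a b hab m
  have hf : ∀ v, quadFormMinus m F a b v = qMinus m a b v := fun v => (qMinus_apply _ _ _ v).symm
  have hx₀ : quadFormMinus m F a b (Cfsg.Agent.Lib.PgoClass.zvec m 1 0) ≠ 0 := by
    rw [hf, Cfsg.Agent.Lib.PgoClass.Q_zvec]
    simp
  have hs := disc_square_of_semilinear hodd hf hQ (m := m + 1) (by simp; ring) hx₀ h hσ hd
  obtain ⟨ε, hε, hdet⟩ := det_gram_minus (m := m) a b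
  have hneg : IsSquare (-1 : F) := by
    apply isSquare_of_fixed hodd hσ
    · simp
    · simp
  have hε0 : ε ≠ 0 := by
    rintro rfl
    simp at hε
  have hεs : IsSquare ε := by
    have : ε = 1 ∨ ε = -1 := mul_self_eq_one_iff.1 hε
    rcases this with rfl | rfl
    · exact ⟨1, by simp⟩
    · exact hneg
  -- `a² - 4b` is a square
  have hs2 : IsSquare (a ^ 2 - 4 * b) := by
    rw [hdet] at hs
    have e : a ^ 2 - 4 * b = (-1) * ε * (ε * (4 * b - a ^ 2)) := by
      have : (-1) * ε * (ε * (4 * b - a ^ 2)) = - (ε * ε) * (4 * b - a ^ 2) := by ring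
      rw [this, hε]
      ring
    rw [e]
    exact (hneg.mul hεs).mul hs
  obtain ⟨w, hw⟩ := hs2
  have h3 := hab (w - a) 2 (by
    have : (w - a) ^ 2 + a * (w - a) * 2 + b * 2 ^ 2 = w * w - (a ^ 2 - 4 * b) := by ring
    rw [this, hw]
    ring)
  exact h2 h3.2

end Cfsg.Agent.Lib.PgoGraphMinus
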