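import Mathlib
import Cfsg.Prelude.Def_OddOrderLocal
import Cfsg.Agent.Lib.BGTrans
import Cfsg.Agent.Lib.DefectCenInd
import Cfsg.Agent.Lib.BlkFirst
import Cfsg.Agent.Lib.CharValues
import Cfsg.Agent.Lib.BlockSection
import Cfsg.Agent.Lib.BlockSecond

/-!
# Normal `π'`-subgroups in the kernels of blocks along Brauer pairs

For a normal `p'`-subgroup `K` of a group, the idempotent `ε_K` is a central element with coefficients
in the local ring, and it is `0` or `1` on a block, according to whether `K` lies in the kernel of the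
characters in the block.  The Brauer map sends `ε_K` to a unit multiple of `ε_{C_K(R)}`.
-/

set_option autoImplicit false
set_option linter.unusedSectionVars false
set_option linter.unusedVariables false
set_option linter.style.haveILetI false

namespace Cfsg.Agent.Lib.PiKernel

open Cfsg Cfsg.Agent.Lib.CharBasic Cfsg.Agent.Lib.CharInd Cfsg.Agent.Lib.CharIntegrality
open Cfsg.Agent.Lib.BlockLocal Cfsg.Agent.Lib.BlockIdem Cfsg.Agent.Lib.BlockNormal
open Cfsg.Agent.Lib.BrauerMap Cfsg.Agent.Lib.BrauerPair Cfsg.Agent.Lib.BrauerSub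
open Cfsg.Agent.Lib.BrauerConj Cfsg.Agent.Lib.BrauerThird Cfsg.Agent.Lib.BrauerMax
open Cfsg.Agent.Lib.BrauerStab Cfsg.Agent.Lib.BlockDefect Cfsg.Agent.Lib.BrauerCen
open Cfsg.Agent.Lib.BrauerFull Cfsg.Agent.Lib.BrauerLift
open Cfsg.Agent.Lib.BrauerSat Cfsg.Agent.Lib.BrauerCorr
open scoped ComplexConjugate

universe u

section Eps

variable {X : Type u} [Group X] [Fintype X]

/-- The idempotent of a subgroup. -/
noncomputable def eps (K : Subgroup X) : X → ℂ := fun x =>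
  @ite ℂ (x ∈ K) (Classical.propDecidable _) (Nat.card K : ℂ)⁻¹ 0

theorem eps_of_mem {K : Subgroup X} {x : X} (h : x ∈ K) : eps K x = (Nat.card K : ℂ)⁻¹ := if_pos h

theorem eps_of_not_mem {K : Subgroup X} {x : X} (h : x ∉ K) : eps K x = 0 := if_neg h

theorem card_ne_zero' (K : Subgroup X) : (Nat.card K : ℂ) ≠ 0 := by
  exact_mod_cast (Nat.card_pos (α := K)).ne'

theorem eps_isClassFunction {K : Subgroup X} (hK : K.Normal) : IsClassFunction X (eps K) := by
  intro g h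
  by_cases hg : g ∈ K
  · rw [eps_of_mem (hK.conj_mem g hg h), eps_of_mem hg]
  · have h1 : h * g * h⁻¹ ∉ K := fun h' => hg (by
      have := hK.conj_mem _ h' h⁻¹
      simpa [mul_assoc] using this)
    rw [eps_of_not_mem h1, eps_of_not_mem hg]

theorem sum_eps_mul (K : Subgroup X) [Fintype K] (f : X → ℂ) :
    ∑ x : X, eps K x * f x = (Nat.card K : ℂ)⁻¹ * ∑ k : K, f k := by
  classical
  rw [← sum_subgroup_eq_sum' K (fun x => eps K x * f x) (fun y hy => by
    rw [eps_of_not_mem hy, zero_mul]), Finset.mul_sum]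
  refine Finset.sum_congr rfl fun k _ => ?_
  rw [eps_of_mem k.2]

theorem conv_eps_self (K : Subgroup X) : conv (eps K) (eps K) = eps K := by
  classical
  letI : Fintype K := Fintype.ofFinite K
  funext z
  unfold conv
  rw [sum_eps_mul K (fun x => eps K (x⁻¹ * z))]
  by_cases hz : z ∈ K
  · have h1 : ∀ k : K, eps K ((k : X)⁻¹ * z) = (Nat.card K : ℂ)⁻¹ := fun k =>
      eps_of_mem (K.mul_mem (K.inv_mem k.2) hz)
    simp_rw [h1]
    rw [Finset.sum_const, Finset.card_univ, ← Nat.card_eq_fintype_card, nsmul_eq_mul, eps_of_mem hz,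
      ← mul_assoc, inv_mul_cancel₀ (card_ne_zero' K), one_mul]
  · have h1 : ∀ k : K, eps K ((k : X)⁻¹ * z) = 0 := fun k =>
      eps_of_not_mem (fun h => hz (by
        have := K.mul_mem k.2 h
        simpa using this))
    simp_rw [h1]
    simp [eps_of_not_mem hz]

theorem omega_eps (K : Subgroup X) [Fintype K] (χ : X → ℂ) :
    omega χ (eps K) = (Nat.card K : ℂ)⁻¹ * (∑ k : K, χ k) / χ 1 := by
  unfold omega
  rw [sum_eps_mul]

theorem omega_eps_of_ker {K : Subgroup X} {χ : X → ℂ} (hχ : IsIrrCharacter X χ)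
    (h : ∀ k ∈ K, χ k = χ 1) : omega χ (eps K) = 1 := by
  classical
  letI : Fintype K := Fintype.ofFinite K
  have h1 := irr_one_ne_zero' hχ
  rw [omega_eps]
  have h2 : ∀ k : K, χ k = χ 1 := fun k => h k k.2
  simp_rw [h2]
  rw [Finset.sum_const, Finset.card_univ, ← Nat.card_eq_fintype_card, nsmul_eq_mul]
  field_simp [card_ne_zero' K]

theorem ker_of_omega_eps_ne_zero {K : Subgroup X} (hK : K.Normal) {χ : X → ℂ}
    (hχ : IsIrrCharacter X χ) (h : omega χ (eps K) ≠ 0) : ∀ k ∈ K, χ k = χ 1 := by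
  classical
  letI : Fintype K := Fintype.ofFinite K
  have h1 : omega χ (eps K) = 1 := by
    have h2 := omega_conv hχ (eps_isClassFunction hK) (eps_isClassFunction hK)
    rw [conv_eps_self] at h2
    have h3 : omega χ (eps K) * (omega χ (eps K) - 1) = 0 := by
      rw [mul_sub, ← h2]
      ring
    exact sub_eq_zero.mp ((mul_eq_zero.mp h3).resolve_left h)
  obtain ⟨n, ρ, hρ, rfl⟩ := hχ
  have hn : ρ.character 1 = (n : ℂ) := by
    rw [Representation.char_one]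
    simp
  have hnorm : ∀ g : X, ‖ρ.character g‖ ≤ (n : ℝ) := by
    intro g
    have := Cfsg.Agent.Lib.CharValues.norm_character_le ρ g
    simpa using this
  rw [omega_eps] at h1
  have hne : ρ.character 1 ≠ 0 := irr_one_ne_zero' ⟨n, ρ, hρ, rfl⟩
  have h2 : ∑ k : K, ρ.character k = (Nat.card K : ℂ) * (n : ℂ) := by
    rw [← hn]
    field_simp [card_ne_zero' K] at h1
    rw [h1]
  have h3 : ∑ k : K, ((n : ℝ) - (ρ.character k).re) = 0 := by
    have h4 := congrArg Complex.re h2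
    rw [Complex.re_sum] at h4
    rw [Finset.sum_sub_distrib, h4]
    simp only [Finset.sum_const, Finset.card_univ, ← Nat.card_eq_fintype_card, nsmul_eq_mul]
    simp
  have h4 : ∀ k : K, 0 ≤ (n : ℝ) - (ρ.character k).re := fun k => by
    have := (Complex.re_le_norm (ρ.character (k : X))).trans (hnorm k)
    linarith
  have h5 := (Finset.sum_eq_zero_iff_of_nonneg (fun k _ => h4 k)).mp h3
  intro k hk
  have h6 := h5 ⟨k, hk⟩ (Finset.mem_univ _)
  simp only at h6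
  have h7 : (ρ.character k).re = n := by linarith
  have h8 := hnorm k
  have h9 : (ρ.character k).im = 0 := by
    have h10 := Complex.sq_norm (ρ.character k)
    rw [Complex.normSq_apply, h7] at h10
    have h11 : ‖ρ.character k‖ ^ 2 ≤ (n : ℝ) ^ 2 := by
      apply pow_le_pow_left₀ (norm_nonneg _) h8
    nlinarith [mul_self_nonneg (ρ.character k).im]
  rw [hn]
  apply Complex.ext
  · simpa using h7
  · simpa using h9

theorem omega_eps_eq_zero_of_not_ker {K : Subgroup X} (hK : K.Normal) {χ : X → ℂ}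
    (hχ : IsIrrCharacter X χ) (h : ¬ ∀ k ∈ K, χ k = χ 1) : omega χ (eps K) = 0 := by
  by_contra h1
  exact h (ker_of_omega_eps_ne_zero hK hχ h1)

variable {p : ℕ} {M : Ideal AlgInt}

theorem eps_memLocalRing (hM : IsPModular p M) {K : Subgroup X} (hp : ¬ p ∣ Nat.card K) (x : X) :
    MemLocalRing M (eps K x) := by
  haveI := isPrime_of_isPModular hM
  by_cases hx : x ∈ K
  · rw [eps_of_mem hx]
    exact memLocalRing_inv_natCast hM hp
  · rw [eps_of_not_mem hx]
    exact memLocalRing_zero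

/-- Normal `p'`-subgroups lie in the kernels of all or none of the characters of a block. -/
theorem ker_iff_of_sameBlock (hM : IsPModular p M) {K : Subgroup X} (hK : K.Normal)
    (hp : ¬ p ∣ Nat.card K) {χ ψ : IrrCharacter X} (h : SameBlock M (χ : X → ℂ) (ψ : X → ℂ)) :
    (∀ k ∈ K, (χ : X → ℂ) k = (χ : X → ℂ) 1) ↔ (∀ k ∈ K, (ψ : X → ℂ) k = (ψ : X → ℂ) 1) := by
  haveI := isPrime_of_isPModular hM
  have hZ := mem_Zc_of_classFunction (M := M) (eps_isClassFunction hK) (eps_memLocalRing hM hp)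
  have h1 := memLocalIdeal_sub_of_mem_Zc hZ h
  constructor
  · intro h2
    by_contra h3
    rw [omega_eps_of_ker χ.2 h2, omega_eps_eq_zero_of_not_ker hK ψ.2 h3, sub_zero] at h1
    exact not_memLocalIdeal_one h1
  · intro h2
    by_contra h3
    rw [omega_eps_of_ker ψ.2 h2, omega_eps_eq_zero_of_not_ker hK χ.2 h3, zero_sub] at h1
    apply not_memLocalIdeal_one (M := M)
    have := memLocalIdeal_neg h1
    simpa using this

theorem conv_eps_blockCoeff_of_ker (hM : IsPModular p M) {K : Subgroup X} (hK : K.Normal)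
    (hp : ¬ p ∣ Nat.card K) {F : Set (IrrCharacter X)}
    (h : ∀ χ ∈ F, ∀ k ∈ K, (χ : X → ℂ) k = (χ : X → ℂ) 1) :
    conv (eps K) (blockCoeff F) = blockCoeff F := by
  classical
  have hcl := eps_isClassFunction hK
  have hcl' : IsClassFunction X (blockCoeff F) := BlockNormal.blockCoeff_isClassFunction F
  apply classFunction_eq_of_omega (conv_isClassFunction hcl hcl') hcl'
  intro ψ
  rw [omega_conv ψ.2 hcl hcl', omega_blockCoeff]
  by_cases hψ : ψ ∈ F
  · rw [omega_eps_of_ker ψ.2 (h ψ hψ), one_mul]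
  · rw [ind_of_not_mem hψ, mul_zero]

theorem conv_eps_blockCoeff_of_not_ker (hM : IsPModular p M) {K : Subgroup X} (hK : K.Normal)
    (hp : ¬ p ∣ Nat.card K) {F : Set (IrrCharacter X)} (hF : IsPBlock M F)
    (h : ¬ ∀ χ ∈ F, ∀ k ∈ K, (χ : X → ℂ) k = (χ : X → ℂ) 1) :
    conv (eps K) (blockCoeff F) = 0 := by
  classical
  haveI := isPrime_of_isPModular hM
  have hcl := eps_isClassFunction hK
  have hcl' : IsClassFunction X (blockCoeff F) := BlockNormal.blockCoeff_isClassFunction F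
  have hz : IsClassFunction X (0 : X → ℂ) := fun _ _ => rfl
  apply classFunction_eq_of_omega (conv_isClassFunction hcl hcl') hz
  intro ψ
  have h0 : omega (ψ : X → ℂ) (0 : X → ℂ) = 0 := by
    unfold omega
    simp
  rw [omega_conv ψ.2 hcl hcl', omega_blockCoeff, h0]
  by_cases hψ : ψ ∈ F
  · push Not at h
    obtain ⟨χ, hχ, k, hk, hne⟩ := h
    have hsame : SameBlock M (χ : X → ℂ) (ψ : X → ℂ) := by
      obtain ⟨ξ, rfl⟩ := hF
      exact sameBlock_trans (sameBlock_symm hχ) hψ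
    have h2 : ¬ ∀ k ∈ K, (ψ : X → ℂ) k = (ψ : X → ℂ) 1 := fun h3 =>
      hne ((ker_iff_of_sameBlock hM hK hp hsame).2 h3 k hk)
    rw [omega_eps_eq_zero_of_not_ker hK ψ.2 h2, zero_mul]
  · rw [ind_of_not_mem hψ, mul_zero]

end Eps

section Step

variable {G : Type u} [Group G] [Fintype G] {p : ℕ} [hp : Fact p.Prime] {M : Ideal AlgInt}

noncomputable local instance fintypeSubK (K : Subgroup G) : Fintype K := Fintype.ofFinite K

local notation "𝐂[" R "]" => Subgroup.centralizer ((R : Subgroup G) : Set G)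
local notation "𝐍[" R "]" => Subgroup.normalizer ((R : Subgroup G) : Set G)
local notation Q "^^" x => Subgroup.map (MulEquiv.toMonoidHom (MulAut.conj (x : G))) (Q : Subgroup G)

theorem resC_eps (R K : Subgroup G) :
    resC 𝐂[R] (eps K) = ((Nat.card (K.subgroupOf 𝐂[R]) : ℂ) * (Nat.card K : ℂ)⁻¹) •
      eps (K.subgroupOf 𝐂[R]) := by
  funext c
  simp only [resC_apply, Pi.smul_apply, smul_eq_mul]
  by_cases hc : (c : G) ∈ K
  · have h1 : c ∈ K.subgroupOf 𝐂[R] := Subgroup.mem_subgroupOf.mpr hc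
    rw [eps_of_mem hc, eps_of_mem h1]
    have h2 := card_ne_zero' (K.subgroupOf 𝐂[R])
    field_simp
  · have h1 : c ∉ K.subgroupOf 𝐂[R] := fun h => hc (Subgroup.mem_subgroupOf.mp h)
    rw [eps_of_not_mem hc, eps_of_not_mem h1, mul_zero]

theorem brO_eps (R K : Subgroup G) (ξ : IrrCharacter 𝐂[R]) :
    brO R (eps K) ξ = ((Nat.card (K.subgroupOf 𝐂[R]) : ℂ) * (Nat.card K : ℂ)⁻¹) *
      omega (ξ : 𝐂[R] → ℂ) (eps (K.subgroupOf 𝐂[R])) := by
  unfold brO
  rw [resC_eps, omega_smul]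

theorem inv_eps {S K : Subgroup G} (h : S ≤ 𝐍[K]) : Inv S (eps K) := by
  intro s hs x
  have h1 := Subgroup.mem_normalizer_iff.mp (h hs) x
  by_cases hx : x ∈ K
  · rw [eps_of_mem hx, eps_of_mem (h1.mp hx)]
  · rw [eps_of_not_mem hx, eps_of_not_mem (fun h2 => hx (h1.mpr h2))]

theorem card_subgroupOf_dvd (K C : Subgroup G) : Nat.card (K.subgroupOf C) ∣ Nat.card K := by
  have h1 : Nat.card (K.subgroupOf C) = Nat.card ((K.subgroupOf C).map C.subtype : Subgroup G) :=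
    (Subgroup.card_map_of_injective C.subtype_injective).symm
  rw [h1]
  apply Subgroup.card_dvd_of_le
  rintro _ ⟨x, hx, rfl⟩
  exact Subgroup.mem_subgroupOf.mp hx

theorem subgroupOf_normal {K C : Subgroup G} (h : C ≤ 𝐍[K]) : (K.subgroupOf C).Normal := by
  refine ⟨fun n hn g => ?_⟩
  rw [Subgroup.mem_subgroupOf] at hn ⊢
  exact (Subgroup.mem_normalizer_iff.mp (h g.2) n).mp hn

/-- **The Brauer step.** -/
theorem ker_step (hM : IsPModular p M) {R : Subgroup G} (hR : IsPGroup p R) {K : Subgroup G}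
    (hRK : R ≤ 𝐍[K]) (hCK : 𝐂[R] ≤ 𝐍[K]) (hpK : ¬ p ∣ Nat.card K) {β : G → ℂ} (hβR : Inv R β)
    (hβC : Inv 𝐂[R] β) (hβL : ∀ x, MemLocalRing M (β x)) {ξ : IrrCharacter 𝐂[R]}
    (hξ : MemLocalIdeal M (brO R β ξ - 1)) :
    (conv (eps K) β = β → ∀ c : 𝐂[R], (c : G) ∈ K → (ξ : 𝐂[R] → ℂ) c = (ξ : 𝐂[R] → ℂ) 1) ∧
    (conv (eps K) β = 0 → ¬ ∀ c : 𝐂[R], (c : G) ∈ K → (ξ : 𝐂[R] → ℂ) c = (ξ : 𝐂[R] → ℂ) 1) := by
  haveI := isPrime_of_isPModular hM
  have hconv := brO_conv hR hM (inv_eps hRK) hβR (inv_eps hCK) hβC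
    (fun x => eps_memLocalRing hM hpK x) hβL ξ
  have hLn : (K.subgroupOf 𝐂[R]).Normal := subgroupOf_normal hCK
  have hpL : ¬ p ∣ Nat.card (K.subgroupOf 𝐂[R]) := fun h => hpK (h.trans (card_subgroupOf_dvd K _))
  have hunit : ¬ MemLocalIdeal M ((Nat.card (K.subgroupOf 𝐂[R]) : ℂ) * (Nat.card K : ℂ)⁻¹) := by
    intro h
    apply hpL
    apply (memLocalIdeal_natCast_iff hM).mp
    have h1 := memLocalIdeal_mul_right h (memLocalRing_natCast (M := M) (Nat.card K))
    rwa [mul_assoc, inv_mul_cancel₀ (card_ne_zero' K), mul_one] at h1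
  have hbeta : ¬ MemLocalIdeal M (brO R β ξ) := by
    intro h
    apply not_memLocalIdeal_one (M := M)
    have := memLocalIdeal_sub h hξ
    simpa using this
  constructor
  · intro h c hc
    rw [h] at hconv
    have h1 : brO R (eps K) ξ ≠ 0 := by
      intro h2
      rw [h2, zero_mul, sub_zero] at hconv
      exact hbeta hconv
    rw [brO_eps] at h1
    have h2 := right_ne_zero_of_mul h1
    exact ker_of_omega_eps_ne_zero hLn ξ.2 h2 c (Subgroup.mem_subgroupOf.mpr hc)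
  · intro h hker
    rw [h, brO_zero, zero_sub] at hconv
    have h1 := memLocalIdeal_neg hconv
    rw [neg_neg] at h1
    have h2 : omega (ξ : 𝐂[R] → ℂ) (eps (K.subgroupOf 𝐂[R])) = 1 :=
      omega_eps_of_ker ξ.2 (fun k hk => hker k (Subgroup.mem_subgroupOf.mp hk))
    rw [brO_eps, h2, mul_one] at h1
    have h3 := (memLocalIdeal_mul_iff (M := M) (memLocalRing_mul (memLocalRing_natCast _)
      (memLocalRing_inv_natCast hM hpK)) (memLocalRing_brO hβC hβL ξ)).mp h1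
    exact h3.elim hunit hbeta

/-- The idempotent of a subgroup of `C`, as a function on `G`. -/
theorem ext0_eps (C : Subgroup G) (K : Subgroup C) : ext0 C (eps K) = eps (K.map C.subtype) := by
  funext x
  by_cases hx : x ∈ C
  · rw [ext0_of_mem C _ hx]
    have h1 : ((⟨x, hx⟩ : C) ∈ K) ↔ x ∈ K.map C.subtype := by
      constructor
      · intro h
        exact ⟨_, h, rfl⟩
      · rintro ⟨y, hy, rfl⟩
        exact hy
    have hc : Nat.card (K.map C.subtype) = Nat.card K :=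
      Subgroup.card_map_of_injective C.subtype_injective
    by_cases h2 : (⟨x, hx⟩ : C) ∈ K
    · rw [eps_of_mem h2, eps_of_mem (h1.mp h2), hc]
    · rw [eps_of_not_mem h2, eps_of_not_mem (fun h => h2 (h1.mpr h))]
  · rw [ext0_of_not_mem C _ hx, eps_of_not_mem]
    rintro ⟨y, -, rfl⟩
    exact hx y.2

theorem conv_eps_sbc (C : Subgroup G) (K : Subgroup C) (F : Set (IrrCharacter C)) :
    conv (eps (K.map C.subtype)) (subgroupBlockCoeff C F) = ext0 C (conv (eps K) (blockCoeff F)) := by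
  rw [← ext0_eps, subgroupBlockCoeff_eq_ext0, conv_ext0]

theorem le_normalizer_map (C : Subgroup G) {K : Subgroup C} (hK : K.Normal) :
    C ≤ 𝐍[K.map C.subtype] := by
  intro g hg
  rw [Subgroup.mem_normalizer_iff]
  intro x
  constructor
  · rintro ⟨y, hy, rfl⟩
    exact ⟨⟨g, hg⟩ * y * ⟨g, hg⟩⁻¹, hK.conj_mem y hy _, rfl⟩
  · rintro ⟨y, hy, hyx⟩
    refine ⟨⟨g, hg⟩⁻¹ * y * (⟨g, hg⟩⁻¹)⁻¹, hK.conj_mem y hy _, ?_⟩
    simp only [Subgroup.subtype_apply, Subgroup.coe_mul, Subgroup.coe_inv, inv_inv]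
    have h1 : ((y : C) : G) = g * x * g⁻¹ := hyx
    rw [h1]
    group

/-- **The Brauer step for a normal subpair.** -/
theorem pair_step (hM : IsPModular p M) {Q P : Subgroup G} {f : Set (IrrCharacter 𝐂[Q])}
    {e : Set (IrrCharacter 𝐂[P])} (h : IsNormalSubpair p M Q f P e) {K : Subgroup 𝐂[Q]}
    (hK : K.Normal) (hpK : ¬ p ∣ Nat.card K) (hPK : P ≤ 𝐍[K.map 𝐂[Q].subtype])
    {ξ : IrrCharacter 𝐂[P]} (hξ : ξ ∈ e) :
    (∀ χ ∈ f, ∀ k ∈ K, (χ : 𝐂[Q] → ℂ) k = (χ : 𝐂[Q] → ℂ) 1) ↔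
      ∀ c : 𝐂[P], (c : G) ∈ K.map 𝐂[Q].subtype → (ξ : 𝐂[P] → ℂ) c = (ξ : 𝐂[P] → ℂ) 1 := by
  classical
  haveI := isPrime_of_isPModular hM
  obtain ⟨hQf, hPe, hQP, hPN, hst, hocc⟩ := h
  have hCC : 𝐂[P] ≤ 𝐂[Q] := centralizer_le_centralizer hQP
  have hcK : ¬ p ∣ Nat.card (K.map 𝐂[Q].subtype) := by
    rwa [Subgroup.card_map_of_injective 𝐂[Q].subtype_injective]
  have hβP : Inv P (subgroupBlockCoeff 𝐂[Q] f) := inv_subgroupBlockCoeff_of_stable _ _ hQf.2 hst
  have hβC : Inv 𝐂[P] (subgroupBlockCoeff 𝐂[Q] f) := (inv_subgroupBlockCoeff _ _).mono hCC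
  have hβL : ∀ x, MemLocalRing M (subgroupBlockCoeff 𝐂[Q] f x) :=
    memLocalRing_subgroupBlockCoeff _ hQf.2
  have h1 := hocc ξ hξ
  rw [brauerOmega_eq] at h1
  obtain ⟨ha, hb⟩ := ker_step hM hPe.1 hPK (hCC.trans (le_normalizer_map 𝐂[Q] hK)) hcK hβP hβC hβL h1
  rw [conv_eps_sbc] at ha hb
  constructor
  · intro h2
    apply ha
    rw [conv_eps_blockCoeff_of_ker hM hK hpK h2, subgroupBlockCoeff_eq_ext0]
  · intro h2
    by_contra h3
    apply hb _ h2
    rw [conv_eps_blockCoeff_of_not_ker hM hK hpK hQf.2 h3, ext0_zero]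

/-- **The Brauer step for a block of the group.** -/
theorem block_step (hM : IsPModular p M) {B : Set (IrrCharacter G)} {P : Subgroup G}
    {e : Set (IrrCharacter 𝐂[P])} (h : IsBrauerPairOf p M B P e) {K : Subgroup G}
    (hK : K.Normal) (hpK : ¬ p ∣ Nat.card K) {ξ : IrrCharacter 𝐂[P]} (hξ : ξ ∈ e) :
    (∀ χ ∈ B, ∀ k ∈ K, (χ : G → ℂ) k = (χ : G → ℂ) 1) ↔
      ∀ c : 𝐂[P], (c : G) ∈ K → (ξ : 𝐂[P] → ℂ) c = (ξ : 𝐂[P] → ℂ) 1 := by
  classical
  haveI := isPrime_of_isPModular hM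
  obtain ⟨⟨hP, he⟩, hB, hocc⟩ := h
  have hN : ∀ S : Subgroup G, S ≤ 𝐍[K] := fun S => by
    rw [(Subgroup.normalizer_eq_top_iff (H := K)).mpr hK]
    exact le_top
  have h1 := hocc ξ hξ
  rw [brauerOmega_eq] at h1
  obtain ⟨ha, hb⟩ := ker_step hM hP (hN _) (hN _) hpK (inv_blockCoeff B _) (inv_blockCoeff B _)
    (memLocalRing_blockCoeff hB) h1
  constructor
  · intro h2
    exact ha (conv_eps_blockCoeff_of_ker hM hK hpK h2)
  · intro h2
    by_contra h3
    exact hb (conv_eps_blockCoeff_of_not_ker hM hK hpK hB h3) h2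

end Step

section Core

theorem not_dvd_card_piCore {X : Type*} [Group X] [Finite X] {π : Set ℕ} {p : ℕ} (hp : p.Prime)
    (hpπ : p ∈ π) : ¬ p ∣ Nat.card (piCore {q | q ∉ π} X) := fun h =>
  (Cfsg.Agent.Lib.BGTrans.piCore_primes {q | q ∉ π} p hp h) hpπ

theorem map_mem_piCore {X Y : Type*} [Group X] [Group Y] [Finite X] (π' : Set ℕ) (σ : X ≃* Y) {k : X}
    (hk : k ∈ piCore π' X) : σ k ∈ piCore π' Y := by
  have h1 : (piCore π' X).map σ.toMonoidHom ≤ piCore π' Y := by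
    apply Cfsg.Agent.Lib.BGTrans.le_piCore
    · exact (piCore_normal π' X).map σ.toMonoidHom σ.surjective
    · intro q hq hd
      rw [Subgroup.card_map_of_injective σ.injective] at hd
      exact Cfsg.Agent.Lib.BGTrans.piCore_primes π' q hq hd
  exact h1 ⟨k, hk, rfl⟩

/-- Elements of the `π'`-core are `π'`-elements. -/
theorem prime_dvd_orderOf_piCore {X : Type*} [Group X] [Finite X] (π' : Set ℕ) (x : piCore π' X)
    {q : ℕ} (hq : q.Prime) (hd : q ∣ orderOf x) : q ∈ π' :=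
  Cfsg.Agent.Lib.BGTrans.piCore_primes π' q hq (hd.trans (orderOf_dvd_natCard x))

/-- A normal subgroup whose elements are `π'`-elements lies in the `π'`-core. -/
theorem le_piCore_of_card {X : Type*} [Group X] [Finite X] {π' : Set ℕ} {L : Subgroup X}
    (hL : L.Normal) {n : ℕ} (hn : Nat.card L ∣ n) (h : ∀ q : ℕ, q.Prime → q ∣ n → q ∈ π') :
    L ≤ piCore π' X :=
  Cfsg.Agent.Lib.BGTrans.le_piCore hL fun q hq hd => h q hq (hd.trans hn)

end Core

section Pairs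

variable {G : Type u} [Group G] [Fintype G] {p : ℕ} [hp : Fact p.Prime] {M : Ideal AlgInt}

noncomputable local instance fintypeSubK' (K : Subgroup G) : Fintype K := Fintype.ofFinite K

local notation "𝐂[" R "]" => Subgroup.centralizer ((R : Subgroup G) : Set G)
local notation "𝐍[" R "]" => Subgroup.normalizer ((R : Subgroup G) : Set G)
local notation Q "^^" x => Subgroup.map (MulEquiv.toMonoidHom (MulAut.conj (x : G))) (Q : Subgroup G)

/-- The `π'`-core of `C_G(Q)` lies in the kernel of the block `f`. -/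
def PKer (π : Set ℕ) (Q : Subgroup G) (f : Set (IrrCharacter 𝐂[Q])) : Prop :=
  ∀ ξ ∈ f, ∀ c ∈ piCore {q | q ∉ π} 𝐂[Q], (ξ : 𝐂[Q] → ℂ) c = (ξ : 𝐂[Q] → ℂ) 1

/-- The `π'`-core of `C_G(Q)` contains all `π'`-elements. -/
def PHall (π : Set ℕ) (Q : Subgroup G) : Prop :=
  ∀ c : 𝐂[Q], (∀ q : ℕ, q.Prime → q ∣ orderOf c → q ∉ π) → c ∈ piCore {q | q ∉ π} 𝐂[Q]

/-- The `π'`-core of a centralizer is normalized by the normalizer. -/
theorem normalizer_le_normalizer_core (π' : Set ℕ) {Q P : Subgroup G} (hP : P ≤ 𝐍[Q]) :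
    P ≤ 𝐍[(piCore π' 𝐂[Q]).map 𝐂[Q].subtype] := by
  intro s hs
  have hN : ∀ u : G, u ∈ 𝐍[𝐂[Q]] → ∀ x, x ∈ (piCore π' 𝐂[Q]).map 𝐂[Q].subtype →
      u * x * u⁻¹ ∈ (piCore π' 𝐂[Q]).map 𝐂[Q].subtype := by
    rintro u hu _ ⟨y, hy, rfl⟩
    exact ⟨_, map_mem_piCore π' (conjAut 𝐂[Q] u hu) hy, rfl⟩
  have hs1 : s ∈ 𝐍[𝐂[Q]] := normalizer_le_normalizer_centralizer Q (hP hs)
  rw [Subgroup.mem_normalizer_iff]
  intro x
  constructor
  · exact hN s hs1 x
  · intro h
    have h1 := hN s⁻¹ (inv_mem hs1) _ h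
    have h2 : s⁻¹ * (s * x * s⁻¹) * s⁻¹⁻¹ = x := by group
    rwa [h2] at h1

/-- Elements of `C_G(P)` in the `π'`-core of `C_G(Q)` lie in the `π'`-core of `C_G(P)`. -/
theorem mem_core_of_mem_core (π' : Set ℕ) {Q P : Subgroup G} (hQP : Q ≤ P) (c : 𝐂[P])
    (hc : (c : G) ∈ (piCore π' 𝐂[Q]).map 𝐂[Q].subtype) : c ∈ piCore π' 𝐂[P] := by
  set K := (piCore π' 𝐂[Q]).map 𝐂[Q].subtype with hK
  have hCC : 𝐂[P] ≤ 𝐂[Q] := centralizer_le_centralizer hQP
  have hN : 𝐂[P] ≤ 𝐍[K] := hCC.trans (le_normalizer_map 𝐂[Q] (piCore_normal π' 𝐂[Q]))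
  have hL : (K.subgroupOf 𝐂[P]).Normal := subgroupOf_normal hN
  have h1 : K.subgroupOf 𝐂[P] ≤ piCore π' 𝐂[P] := by
    apply le_piCore_of_card hL (card_subgroupOf_dvd K _)
    intro q hq hd
    rw [hK, Subgroup.card_map_of_injective 𝐂[Q].subtype_injective] at hd
    exact Cfsg.Agent.Lib.BGTrans.piCore_primes π' q hq hd
  exact h1 (Subgroup.mem_subgroupOf.mpr hc)

/-- Descent of the kernel condition along a normal inclusion. -/
theorem pker_down (hM : IsPModular p M) {π : Set ℕ} (hpπ : p ∈ π) {Q P : Subgroup G}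
    {f : Set (IrrCharacter 𝐂[Q])} {e : Set (IrrCharacter 𝐂[P])} (h : IsNormalSubpair p M Q f P e)
    (he : PKer π P e) : PKer π Q f := by
  haveI := isPrime_of_isPModular hM
  obtain ⟨ξ, hξ⟩ := Cfsg.Agent.Lib.BlockSection.exists_mem_of_isPBlock h.2.1.2
  have hk := (pair_step hM h (piCore_normal _ _) (not_dvd_card_piCore hp.out hpπ)
    (normalizer_le_normalizer_core _ h.2.2.2.1) hξ).mpr
    (fun c hc => he ξ hξ c (mem_core_of_mem_core _ h.2.2.1 c hc))
  exact hk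

/-- Ascent of the kernel and Hall conditions along a normal inclusion. -/
theorem pker_up (hM : IsPModular p M) {π : Set ℕ} (hpπ : p ∈ π) {Q P : Subgroup G}
    {f : Set (IrrCharacter 𝐂[Q])} {e : Set (IrrCharacter 𝐂[P])} (h : IsNormalSubpair p M Q f P e)
    (hall : PHall π Q) (hf : PKer π Q f) : PHall π P ∧ PKer π P e := by
  haveI := isPrime_of_isPModular hM
  have hCC : 𝐂[P] ≤ 𝐂[Q] := centralizer_le_centralizer h.2.2.1
  have hmem : ∀ c : 𝐂[P], (∀ q : ℕ, q.Prime → q ∣ orderOf c → q ∉ π) →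
      (c : G) ∈ (piCore {q | q ∉ π} 𝐂[Q]).map 𝐂[Q].subtype := by
    intro c hc
    have h1 := hall ⟨c, hCC c.2⟩ (fun q hq hd => hc q hq (by
      have h2 : orderOf (⟨c, hCC c.2⟩ : 𝐂[Q]) = orderOf c := by
        rw [Subgroup.orderOf_mk, Subgroup.orderOf_coe]
      rwa [h2] at hd))
    exact ⟨_, h1, rfl⟩
  refine ⟨fun c hc => mem_core_of_mem_core _ h.2.2.1 c (hmem c hc), fun ξ hξ c hc => ?_⟩
  have hk := (pair_step hM h (piCore_normal _ _) (not_dvd_card_piCore hp.out hpπ)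
    (normalizer_le_normalizer_core _ h.2.2.2.1) hξ).mp hf
  apply hk c
  apply hmem c
  intro q hq hd
  exact prime_dvd_orderOf_piCore {q | q ∉ π} ⟨c, hc⟩ hq (by
    rwa [Subgroup.orderOf_mk])

theorem pker_of_chain (hM : IsPModular p M) {π : Set ℕ} (hpπ : p ∈ π) {a b : BrauerPairIdx G}
    (h : Relation.ReflTransGen (NormalSubpairRel p M) a b) (hb : PKer π b.1 b.2) : PKer π a.1 a.2 := by
  induction h with
  | refl => exact hb
  | tail _ hbc ih => exact ih (pker_down hM hpπ hbc hb)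

theorem pker_up_of_chain (hM : IsPModular p M) {π : Set ℕ} (hpπ : p ∈ π) {a b : BrauerPairIdx G}
    (h : Relation.ReflTransGen (NormalSubpairRel p M) a b) (hall : PHall π a.1) (ha : PKer π a.1 a.2) :
    PHall π b.1 ∧ PKer π b.1 b.2 := by
  induction h with
  | refl => exact ⟨hall, ha⟩
  | tail _ hbc ih => exact pker_up hM hpπ hbc ih.1 ih.2

theorem pker_conj {π : Set ℕ} (x : G) {Q : Subgroup G} {f : Set (IrrCharacter 𝐂[Q])}
    (h : PKer π Q f) : PKer π (Q ^^ x) (conjBlock Q x f) := by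
  intro ξ' hξ' c' hc'
  rw [conjBlock_eq_twistSetE] at hξ'
  obtain ⟨ξ, hξ, rfl⟩ := hξ'
  rw [twistE_apply, twistE_apply, map_one]
  exact h ξ hξ _ (map_mem_piCore _ (cenIso Q x).symm hc')

theorem phall_conj {π : Set ℕ} (x : G) {Q : Subgroup G} (h : PHall π Q) : PHall π (Q ^^ x) := by
  intro c' hc'
  have h1 : (cenIso Q x).symm c' ∈ piCore {q | q ∉ π} 𝐂[Q] := by
    apply h
    intro q hq hd
    apply hc' q hq
    rwa [MulEquiv.orderOf_eq] at hd
  have h2 := map_mem_piCore _ (cenIso Q x) h1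
  rwa [MulEquiv.apply_symm_apply] at h2

/-- `cp` form of the conjugation statement. -/
theorem pker_cp {π : Set ℕ} (x : G) {a : BrauerPairIdx G} (h : PKer π a.1 a.2) :
    PKer π (cp x a).1 (cp x a).2 := pker_conj x h

theorem phall_cp {π : Set ℕ} (x : G) {a : BrauerPairIdx G} (h : PHall π a.1) :
    PHall π (cp x a).1 := phall_conj x h

/-- The block of `G` induced by a block of a subgroup `H ≥ C_G(P)`. -/
theorem lift_pair (hM : IsPModular p M) {H : Subgroup G} {b : Set (IrrCharacter H)}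
    {B : Set (IrrCharacter G)} (hind : IsInducedBlock M H b B) {Dh : Subgroup H}
    {gh : Set (IrrCharacter (Subgroup.centralizer (Dh : Set H)))} (hpair : IsBrauerPairOf p M b Dh gh)
    {P : Subgroup G} (hP : IsPGroup p P) (m : CenMatch Dh P) :
    IsBrauerPairOf p M B P (twistSetE m.iso gh) := by
  haveI := isPrime_of_isPModular hM
  have hepair : IsBrauerPair p M P (twistSetE m.iso gh) := ⟨hP, isPBlock_twistSetE _ hpair.1.2⟩
  obtain ⟨B', hB', -⟩ := existsUnique_isBrauerPairOf hM hepair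
  have hind' := Cfsg.Agent.Lib.DefectCenInd.isInducedBlock_of_hat hM hpair m hB'
  have hBB : B = B' := Cfsg.Agent.Lib.BlockDefectInd.isInducedBlock_unique hind hind'
  subst hBB
  exact hB'

/-- A pair of `B` on a defect group of `B` is maximal. -/
theorem isMaximal_of_isDefectGroup (hM : IsPModular p M) {B : Set (IrrCharacter G)} (hB : IsPBlock M B)
    {D : Subgroup G} (hD : IsDefectGroup p M B D) {e : Set (IrrCharacter 𝐂[D])}
    (h : IsBrauerPairOf p M B D e) : IsMaximalBrauerPair p M B D e := by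
  refine ⟨h, fun R g hg hle => ?_⟩
  have hDR := le_of_subpairLE hle
  obtain ⟨R', g', hmax, hle'⟩ := exists_maximal_above hM hg
  have hRR' := le_of_subpairLE hle'
  have hdef := isDefectGroup_of_maximal hM hmax
  obtain ⟨x, hx⟩ := exists_conj_of_isDefectGroup hM hB hdef hD
  have hc : Nat.card D = Nat.card R' := by
    rw [← hx, Subgroup.card_map_of_injective (MulAut.conj x).injective]
  have h1 : D = R' := Subgroup.eq_of_le_of_card_ge (hDR.trans hRR') hc.ge
  apply le_antisymm _ hDR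
  rw [h1]
  exact hRR'

variable {π : Set ℕ} (hpπ : p ∈ π)

include hpπ

/-- From the Brauer correspondent to the maximal pair. -/
theorem pker_of_hker (hM : IsPModular p M) {D : Subgroup G}
    {B₁ : Set (IrrCharacter 𝐍[D])} {gh : Set (IrrCharacter (Subgroup.centralizer
      ((D.subgroupOf 𝐍[D] : Subgroup 𝐍[D]) : Set 𝐍[D])))}
    (hgh : IsBrauerPairOf p M B₁ (D.subgroupOf 𝐍[D]) gh) (m : CenMatch (D.subgroupOf 𝐍[D]) D)
    (hker : ∀ n : 𝐍[D], n ∈ piCore {q | q ∉ π} 𝐍[D] → n ∈ blockKer B₁) :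
    PKer π D (twistSetE m.iso gh) := by
  rintro ξ ⟨ξh, hξh, rfl⟩ c hc
  rw [twistE_apply, twistE_apply, map_one]
  have hk := (block_step (G := 𝐍[D]) hM hgh (K := piCore {q | q ∉ π} 𝐍[D]) (piCore_normal _ _)
    (not_dvd_card_piCore hp.out hpπ) hξh).mp (fun χ hχ k hk => hker k hk χ hχ)
  apply hk
  set L := (piCore {q | q ∉ π} 𝐂[D]).map 𝐂[D].subtype with hL
  have hLN : 𝐍[D] ≤ 𝐍[L] := normalizer_le_normalizer_core _ le_rfl
  have h1 : L.subgroupOf 𝐍[D] ≤ piCore {q | q ∉ π} 𝐍[D] := by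
    apply le_piCore_of_card (subgroupOf_normal hLN) (card_subgroupOf_dvd L _)
    intro q hq hd
    rw [hL, Subgroup.card_map_of_injective 𝐂[D].subtype_injective] at hd
    exact Cfsg.Agent.Lib.BGTrans.piCore_primes _ q hq hd
  apply h1
  rw [Subgroup.mem_subgroupOf]
  exact ⟨c, hc, rfl⟩

/-- From the maximal pair to the Brauer correspondent, under the Hall condition. -/
theorem hker_of_pker (hM : IsPModular p M) {D : Subgroup G}
    {B₁ : Set (IrrCharacter 𝐍[D])} {gh : Set (IrrCharacter (Subgroup.centralizer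
      ((D.subgroupOf 𝐍[D] : Subgroup 𝐍[D]) : Set 𝐍[D])))}
    (hgh : IsBrauerPairOf p M B₁ (D.subgroupOf 𝐍[D]) gh) (m : CenMatch (D.subgroupOf 𝐍[D]) D)
    (hall : PHall π D) (hk : PKer π D (twistSetE m.iso gh)) :
    ∀ n : 𝐍[D], n ∈ piCore {q | q ∉ π} 𝐍[D] → n ∈ blockKer B₁ := by
  haveI := isPrime_of_isPModular hM
  obtain ⟨ξh, hξh⟩ := Cfsg.Agent.Lib.BlockSection.exists_mem_of_isPBlock hgh.1.2
  have h1 := (block_step (G := 𝐍[D]) hM hgh (K := piCore {q | q ∉ π} 𝐍[D]) (piCore_normal _ _)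
    (not_dvd_card_piCore hp.out hpπ) hξh).mpr
  intro n hn χ hχ
  refine h1 (fun c hc => ?_) χ hχ n hn
  have h2 := hk (twistE m.iso ξh) ⟨ξh, hξh, rfl⟩ (m.iso c) (hall _ (fun q hq hd => by
    rw [MulEquiv.orderOf_eq] at hd
    have h3 : orderOf c = orderOf (c : 𝐍[D]) := (Subgroup.orderOf_coe c).symm
    rw [h3] at hd
    exact prime_dvd_orderOf_piCore {q | q ∉ π} ⟨_, hc⟩ hq (by rwa [Subgroup.orderOf_mk])))
  rw [twistE_apply, twistE_apply, MulEquiv.symm_apply_apply, map_one] at h2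
  exact h2

/-- **Kernels of blocks of subgroups containing the centralizer of a defect group.** -/
theorem main_ker (hM : IsPModular p M) {B : Set (IrrCharacter G)} (hB : IsPBlock M B) {D : Subgroup G}
    (hBD : IsDefectGroup p M B D) {B₁ : Set (IrrCharacter 𝐍[D])}
    (hB₁ : IsInducedBlock M 𝐍[D] B₁ B) (hB₁D : IsDefectGroup p M B₁ (D.subgroupOf 𝐍[D]))
    (hker : ∀ n : 𝐍[D], n ∈ piCore {q | q ∉ π} 𝐍[D] → n ∈ blockKer B₁)
    (G₀ : Subgroup G) {B₀ : Set (IrrCharacter G₀)} (hB₀ : IsInducedBlock M G₀ B₀ B)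
    {D₀ : Subgroup G₀} (hD₀ : IsDefectGroup p M B₀ D₀) (hC : 𝐂[D₀.map G₀.subtype] ≤ G₀) :
    ∀ x : G₀, x ∈ piCore {q | q ∉ π} G₀ → x ∈ blockKer B₀ := by
  classical
  haveI := isPrime_of_isPModular hM
  -- the pair in `N_G(D)`
  have hpD : IsPGroup p D := isPGroup_of_card (card_isDefectGroup hM hB hBD)
  obtain ⟨gh, hgh⟩ := exists_maximal_of_isDefectGroup hM hB₁.1 hB₁D
  have m : CenMatch (D.subgroupOf 𝐍[D]) D := cenMatch_of_le (Q := D)
    (Subgroup.centralizer_le_normalizer _) (Subgroup.le_normalizer) le_rfl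
  have hmax := isMaximal_of_isDefectGroup hM hB hBD (lift_pair hM hB₁ hgh.1 hpD m)
  have hkD := pker_of_hker hpπ hM hgh.1 m hker
  -- the pair in `G₀`
  set P₀ := D₀.map G₀.subtype with hP₀
  have hpD₀ : IsPGroup p D₀ := isPGroup_of_card (card_isDefectGroup hM hB₀.1 hD₀)
  obtain ⟨gh₀, hgh₀⟩ := exists_maximal_of_isDefectGroup hM hB₀.1 hD₀
  have m₀ : CenMatch D₀ P₀ := cenMatch_nor hC D₀ le_rfl
  have hpair₀ := lift_pair hM hB₀ hgh₀.1 (hpD₀.map _) m₀
  obtain ⟨x, hle⟩ := exists_conj_subpairLE hM hmax hpair₀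
  have h1 := pker_of_chain hM hpπ (a := cp x ⟨P₀, twistSetE m₀.iso gh₀⟩) hle hkD
  have h2 := pker_cp x⁻¹ h1
  rw [cp_inv_cp] at h2
  obtain ⟨ξh, hξh⟩ := Cfsg.Agent.Lib.BlockSection.exists_mem_of_isPBlock hgh₀.1.1.2
  have h3 := (block_step (G := G₀) hM hgh₀.1 (K := piCore {q | q ∉ π} G₀) (piCore_normal _ _)
    (not_dvd_card_piCore hp.out hpπ) hξh).mpr
  intro n hn χ hχ
  refine h3 (fun c hc => ?_) χ hχ n hn
  have h4 := h2 (twistE m₀.iso ξh) ⟨ξh, hξh, rfl⟩ (m₀.iso c) (by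
    set K₀ := (piCore {q | q ∉ π} G₀).map G₀.subtype with hK₀
    have hN : 𝐂[P₀] ≤ 𝐍[K₀] := hC.trans (le_normalizer_map G₀ (piCore_normal _ _))
    have h5 : K₀.subgroupOf 𝐂[P₀] ≤ piCore {q | q ∉ π} 𝐂[P₀] := by
      apply le_piCore_of_card (subgroupOf_normal hN) (card_subgroupOf_dvd K₀ _)
      intro q hq hd
      rw [hK₀, Subgroup.card_map_of_injective G₀.subtype_injective] at hd
      exact Cfsg.Agent.Lib.BGTrans.piCore_primes _ q hq hd
    apply h5
    rw [Subgroup.mem_subgroupOf]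
    exact ⟨_, hc, rfl⟩)
  rw [twistE_apply, twistE_apply, MulEquiv.symm_apply_apply, map_one] at h4
  exact h4

/-- **Kernels of Brauer correspondents, upward.** -/
theorem main_ker_up (hM : IsPModular p M) {B : Set (IrrCharacter G)} (hB : IsPBlock M B) {D : Subgroup G}
    (hBD : IsDefectGroup p M B D) {B₁ : Set (IrrCharacter 𝐍[D])}
    (hB₁ : IsInducedBlock M 𝐍[D] B₁ B) (hB₁D : IsDefectGroup p M B₁ (D.subgroupOf 𝐍[D]))
    {D₀ : Subgroup G} (hD₀ : IsPGroup p D₀) {H₀ : Subgroup G} (hH₀ : H₀ = D₀ ⊔ 𝐂[D₀])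
    {b : Set (IrrCharacter H₀)} (hb : IsInducedBlock M H₀ b B)
    (hcompl : PHall π D₀)
    (hkerb : ∀ x : 𝐂[D₀], x ∈ piCore {q | q ∉ π} 𝐂[D₀] → ∀ θ ∈ b, ∀ h : H₀, (h : G) = (x : G) →
      (θ : H₀ → ℂ) h = (θ : H₀ → ℂ) 1) :
    ∀ n : 𝐍[D], n ∈ piCore {q | q ∉ π} 𝐍[D] → n ∈ blockKer B₁ := by
  classical
  haveI := isPrime_of_isPModular hM
  have hpD : IsPGroup p D := isPGroup_of_card (card_isDefectGroup hM hB hBD)
  obtain ⟨gh, hgh⟩ := exists_maximal_of_isDefectGroup hM hB₁.1 hB₁D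
  have m : CenMatch (D.subgroupOf 𝐍[D]) D := cenMatch_of_le (Q := D)
    (Subgroup.centralizer_le_normalizer _) (Subgroup.le_normalizer) le_rfl
  have hmax := isMaximal_of_isDefectGroup hM hB hBD (lift_pair hM hB₁ hgh.1 hpD m)
  obtain ⟨e₀, he₀, hbe⟩ := Cfsg.Agent.Lib.CentricInd.exists_block_match hM hD₀ hH₀ hb.1
  have hpair₀ := Cfsg.Agent.Lib.CentricInd.isBrauerPairOf_of_match hM hD₀ hH₀ hb he₀ hbe
  have hCH : 𝐂[D₀] ≤ H₀ := hH₀ ▸ le_sup_right
  -- the kernel condition at `D₀`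
  have hk₀ : PKer π D₀ e₀ := by
    set K := piCore {q | q ∉ π} 𝐂[D₀] with hK
    set Kt := K.map 𝐂[D₀].subtype with hKt
    have hKH : Kt ≤ H₀ := by
      rintro _ ⟨c, -, rfl⟩
      exact hCH c.2
    have hH₀N : H₀ ≤ 𝐍[D₀] := Cfsg.Agent.Lib.CentricInd.le_normalizer_of_eq_sup hH₀
    have hN : H₀ ≤ 𝐍[Kt] := normalizer_le_normalizer_core _ hH₀N
    have hn : (Kt.subgroupOf H₀).Normal := subgroupOf_normal hN
    have hpK : ¬ p ∣ Nat.card K := not_dvd_card_piCore hp.out hpπ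
    have hpKt : ¬ p ∣ Nat.card (Kt.subgroupOf H₀) := fun h => hpK (by
      have h1 := h.trans (card_subgroupOf_dvd Kt H₀)
      rwa [hKt, Subgroup.card_map_of_injective 𝐂[D₀].subtype_injective] at h1)
    have h1 : ∀ θ ∈ b, ∀ k ∈ Kt.subgroupOf H₀, (θ : H₀ → ℂ) k = (θ : H₀ → ℂ) 1 := by
      intro θ hθ k hk
      rw [Subgroup.mem_subgroupOf] at hk
      obtain ⟨c, hc, hck⟩ := hk
      exact hkerb c hc θ hθ k hck.symm
    have h2 := conv_eps_blockCoeff_of_ker hM hn hpKt h1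
    have h3 := congrArg (ext0 H₀) h2
    rw [← conv_ext0, ext0_eps, Subgroup.map_subgroupOf_eq_of_le hKH,
      Cfsg.Agent.Lib.CentricInd.ext0_eq_sbc hCH hbe, conv_eps_sbc] at h3
    intro ξ hξ c hc
    by_contra hcon
    have h4 : ¬ ∀ χ ∈ e₀, ∀ k ∈ K, (χ : 𝐂[D₀] → ℂ) k = (χ : 𝐂[D₀] → ℂ) 1 := fun h5 =>
      hcon (h5 ξ hξ c hc)
    rw [conv_eps_blockCoeff_of_not_ker hM (piCore_normal _ _) hpK he₀ h4, ext0_zero,
      subgroupBlockCoeff_eq_ext0] at h3
    have h5 : blockCoeff e₀ = (0 : 𝐂[D₀] → ℂ) := by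
      funext y
      have h6 := congrFun h3 (y : G)
      rw [ext0_coe] at h6
      simpa using h6.symm
    have h6 := omega_blockCoeff e₀ ξ
    rw [h5, ind_of_mem hξ] at h6
    have h7 : omega (ξ : 𝐂[D₀] → ℂ) (0 : 𝐂[D₀] → ℂ) = 0 := by
      unfold omega
      simp
    rw [h7] at h6
    exact zero_ne_one h6
  obtain ⟨R, g, hmaxR, hle⟩ := exists_maximal_above hM hpair₀
  obtain ⟨hallR, kerR⟩ := pker_up_of_chain hM hpπ (a := ⟨D₀, e₀⟩) (b := ⟨R, g⟩) hle hcompl hk₀
  obtain ⟨y, hy⟩ := exists_cp_eq_of_maximal hM hmax hmaxR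
  have hallD := phall_cp (a := ⟨R, g⟩) y hallR
  have kerD := pker_cp (a := ⟨R, g⟩) y kerR
  rw [hy] at hallD kerD
  exact hker_of_pker hpπ hM hgh.1 m hallD kerD

end Pairs

section Section

variable {G : Type u} [Group G] [Fintype G] {p : ℕ} [hp : Fact p.Prime] {M : Ideal AlgInt}

noncomputable local instance fintypeSubK'' (K : Subgroup G) : Fintype K := Fintype.ofFinite K

local notation "𝐂[" R "]" => Subgroup.centralizer ((R : Subgroup G) : Set G)
local notation "𝐍[" R "]" => Subgroup.normalizer ((R : Subgroup G) : Set G)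

/-- **Values on a `p`-section.** -/
theorem main_section (hM : IsPModular p M) {π : Set ℕ} (hpπ : p ∈ π) {B : Set (IrrCharacter G)}
    (hB : IsPBlock M B) {D : Subgroup G}
    (hBD : IsDefectGroup p M B D) {B₁ : Set (IrrCharacter 𝐍[D])}
    (hB₁ : IsInducedBlock M 𝐍[D] B₁ B) (hB₁D : IsDefectGroup p M B₁ (D.subgroupOf 𝐍[D]))
    (hker : ∀ n : 𝐍[D], n ∈ piCore {q | q ∉ π} 𝐍[D] → n ∈ blockKer B₁)
    {y : G} (hy : ∃ k : ℕ, orderOf y = p ^ k)
    (hC : ∀ x : Subgroup.centralizer ({y} : Set G), (∀ q : ℕ, q.Prime → q ∣ orderOf x → q ∉ π) →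
      x ∈ piCore {q | q ∉ π} (Subgroup.centralizer ({y} : Set G))) :
    ∀ χ ∈ B, ∀ x : G, x ∈ Subgroup.centralizer ({y} : Set G) →
      (∀ q : ℕ, q.Prime → q ∣ orderOf x → q ∉ π) → (χ : G → ℂ) (y * x) = (χ : G → ℂ) y := by
  classical
  haveI := isPrime_of_isPModular hM
  intro χ hχ x hxH hxπ
  set H := Subgroup.centralizer ({y} : Set G) with hH
  have hyH : y ∈ H := Subgroup.mem_centralizer_singleton_iff.mpr rfl
  have hordx : orderOf (⟨x, hxH⟩ : H) = orderOf x := Subgroup.orderOf_mk _ _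
  have hxcore : (⟨x, hxH⟩ : H) ∈ piCore {q | q ∉ π} H := hC _ (fun q hq hd => hxπ q hq (by
    rwa [hordx] at hd))
  have hpreg : ¬ p ∣ orderOf (⟨x, hxH⟩ : H) := fun hd => (hxπ p hp.out (by rwa [hordx] at hd)) hpπ
  have hpreg1 : ¬ p ∣ orderOf (1 : H) := by
    rw [orderOf_one]
    exact hp.out.one_lt.ne' ∘ Nat.dvd_one.mp
  have h1 := Cfsg.Agent.Lib.BlockSection.blkInd_mul_eq_sum hM hy hH hB hpreg χ
  have h2 := Cfsg.Agent.Lib.BlockSection.blkInd_mul_eq_sum hM hy hH hB hpreg1 χ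
  rw [Cfsg.Agent.Lib.BlkBasic.blkInd_of_mem hχ, one_mul] at h1 h2
  have h3 : (χ : G → ℂ) (y * ((⟨x, hxH⟩ : H) : G)) = (χ : G → ℂ) (y * x) := rfl
  have h3' : (χ : G → ℂ) (y * ((1 : H) : G)) = (χ : G → ℂ) y := by simp
  rw [h3] at h1
  rw [h3'] at h2
  rw [h1, h2]
  refine Finset.sum_congr rfl fun F _ => ?_
  by_cases hF : IsInducedBlock M H F.1 B
  · rw [if_pos hF, if_pos hF]
    -- the kernel of `F`
    obtain ⟨D₀, hD₀⟩ := exists_isDefectGroup hM F.2
    have hyD₀ : y ∈ D₀.map H.subtype := by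
      set yh : H := ⟨y, hyH⟩ with hyh
      have hcen : ∀ g : H, g * yh = yh * g := by
        intro g
        apply Subtype.ext
        exact (Subgroup.mem_centralizer_singleton_iff.mp g.2)
      have hn : (Subgroup.zpowers yh).Normal := by
        refine ⟨fun n hn g => ?_⟩
        obtain ⟨k, rfl⟩ := Subgroup.mem_zpowers_iff.mp hn
        have : Commute g (yh ^ k) := (show Commute g yh from hcen g).zpow_right k
        rw [this.eq, mul_inv_cancel_right]
        exact Subgroup.zpow_mem_zpowers yh k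
      have hpz : IsPGroup p (Subgroup.zpowers yh) := by
        obtain ⟨k, hk⟩ := hy
        apply IsPGroup.of_card (n := k)
        rw [Nat.card_zpowers, hyh, Subgroup.orderOf_mk, hk]
      have h4 := Cfsg.Agent.Lib.BlkFirst.normal_le_defect hM hn hpz F.2 hD₀
      exact ⟨yh, h4 (Subgroup.mem_zpowers yh), rfl⟩
    have hCD : 𝐂[D₀.map H.subtype] ≤ H := by
      intro c hc
      rw [hH, Subgroup.mem_centralizer_singleton_iff]
      exact (Subgroup.mem_centralizer_iff.mp hc y hyD₀).symm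
    have hkerF := main_ker hpπ hM hB hBD hB₁ hB₁D hker H hF hD₀ hCD
    have hcl : IsClassFunction H (Cfsg.Agent.Lib.BlockSubsection.thetaZ (χ : G → ℂ) y H) :=
      Cfsg.Agent.Lib.BlockSubsection.thetaZ_isClassFunction hH
        (isClassFunction_of_isCharacter (IsIrrCharacter.isCharacter χ.2))
    rw [Cfsg.Agent.Lib.BlockSecond.sum_blockCoeff_mul_eq_blockPart F.1 hcl,
      Cfsg.Agent.Lib.BlockSecond.sum_blockCoeff_mul_eq_blockPart F.1 hcl]
    unfold blockPart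
    refine finsum_mem_congr rfl fun ψ hψ => ?_
    congr 1
    exact hkerF _ hxcore ψ hψ
  · rw [if_neg hF, if_neg hF]

end Section

end Cfsg.Agent.Lib.PiKernel
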