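import Mathlib

/-!
# The arithmetic of the two trees
-/

set_option autoImplicit false

namespace Cfsg.Agent.Lib.Pm2F

theorem mul_le_mul_of_sq {N M D E p F : ℤ} (hp : 1 ≤ p) (hD : 0 < D) (hM : 0 < M) (hid : N * D = M * E ^ 2) (hF : 0 ≤ F)
    (hpE : (p - 1) * F ≤ p * E) (hFD : D ≤ F ^ 2) : M * (p - 1) ^ 2 ≤ N * p ^ 2 := by
  have h1 : 0 ≤ (p - 1) * F := mul_nonneg (by linarith) hF
  have h2 : ((p - 1) * F) ^ 2 ≤ (p * E) ^ 2 := pow_le_pow_left₀ h1 hpE 2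
  have h3 : (p - 1) ^ 2 * D ≤ p ^ 2 * E ^ 2 := by
    calc (p - 1) ^ 2 * D ≤ (p - 1) ^ 2 * F ^ 2 := mul_le_mul_of_nonneg_left hFD (sq_nonneg _)
      _ = ((p - 1) * F) ^ 2 := by ring
      _ ≤ (p * E) ^ 2 := h2
      _ = _ := by ring
  have h4 : M * (p - 1) ^ 2 * D ≤ N * p ^ 2 * D := by
    calc M * (p - 1) ^ 2 * D = M * ((p - 1) ^ 2 * D) := by ring
      _ ≤ M * (p ^ 2 * E ^ 2) := mul_le_mul_of_nonneg_left h3 hM.le
      _ = (N * D) * p ^ 2 := by rw [hid]; ring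
      _ = _ := by ring
  exact le_of_mul_le_mul_right h4 hD

/-- Upper bound from the tree through `ζ`. -/
theorem num_upper {p n N M xB ε : ℤ} (hp : 7 ≤ p) (hn : 1 ≤ n) (hM : 0 < M) (hxB : |xB| ≤ n + 1) (hε : |ε| ≤ 1)
    (hid : N * (((n + 1) * p - 1) * (n * p + 1) * (p - 2)) = M * (xB * (p - 2) - ε * (n * p + 1)) ^ 2) :
    N * p ^ 2 < M * (p - 1) ^ 2 := by
  by_contra hcon
  push Not at hcon
  obtain ⟨D, hD⟩ : ∃ D, D = ((n + 1) * p - 1) * (n * p + 1) * (p - 2) := ⟨_, rfl⟩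
  obtain ⟨E, hE⟩ : ∃ E, E = xB * (p - 2) - ε * (n * p + 1) := ⟨_, rfl⟩
  rw [← hD, ← hE] at hid
  have hn0 : 0 < n * p := by
    have h00 : 0 < n := by linarith
    have h01 : 0 < p := by linarith
    positivity
  have hD1 : (5 * n * (n + 1)) * p ^ 2 + 5 * (p - 1) ≤ D := by
    rw [hD]
    have h1 : ((n + 1) * p - 1) * (n * p + 1) = n * (n + 1) * p ^ 2 + (p - 1) := by ring
    rw [h1]
    have h2 : 0 ≤ n * (n + 1) * p ^ 2 + (p - 1) := by
      have h0 : 0 ≤ n * (n + 1) * p ^ 2 := by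
        have h00 : 0 ≤ n := by linarith
        positivity
      linarith
    have h3 : (n * (n + 1) * p ^ 2 + (p - 1)) * 5 ≤ (n * (n + 1) * p ^ 2 + (p - 1)) * (p - 2) :=
      mul_le_mul_of_nonneg_left (by linarith) h2
    linarith
  have hbound : (2 * n + 1) ^ 2 * p ^ 2 < D := by
    have h1 : (2 * n + 1) ^ 2 ≤ 5 * n * (n + 1) := by nlinarith
    have h2 : (2 * n + 1) ^ 2 * p ^ 2 ≤ 5 * n * (n + 1) * p ^ 2 := mul_le_mul_of_nonneg_right h1 (sq_nonneg _)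
    linarith
  have hEabs : |E| ≤ (2 * n + 1) * (p - 1) := by
    rw [hE]
    have h1 : |xB * (p - 2) - ε * (n * p + 1)| ≤ |xB * (p - 2)| + |ε * (n * p + 1)| := abs_sub _ _
    rw [abs_mul, abs_mul, abs_of_pos (by linarith : (0 : ℤ) < p - 2), abs_of_pos (by linarith : (0 : ℤ) < n * p + 1)] at h1
    have h2 : |xB| * (p - 2) ≤ (n + 1) * (p - 2) := mul_le_mul_of_nonneg_right hxB (by linarith)
    have h3 : |ε| * (n * p + 1) ≤ 1 * (n * p + 1) := mul_le_mul_of_nonneg_right hε (by linarith)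
    nlinarith
  have hE2 : E ^ 2 ≤ ((2 * n + 1) * (p - 1)) ^ 2 := by
    rw [← sq_abs E]
    exact pow_le_pow_left₀ (abs_nonneg _) hEabs 2
  have hDpos : 0 < D := lt_of_le_of_lt (by positivity) hbound
  have h4 : M * (p - 1) ^ 2 * D ≤ N * p ^ 2 * D := mul_le_mul_of_nonneg_right hcon hDpos.le
  have h5 : N * p ^ 2 * D = M * E ^ 2 * p ^ 2 := by
    calc N * p ^ 2 * D = (N * D) * p ^ 2 := by ring
      _ = _ := by rw [hid]
  rw [h5] at h4
  have hp1 : 0 < (p - 1) ^ 2 := by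
    have : 0 < p - 1 := by linarith
    positivity
  have h6 : M * ((p - 1) ^ 2 * D) ≤ M * (E ^ 2 * p ^ 2) := by
    calc _ = M * (p - 1) ^ 2 * D := by ring
      _ ≤ _ := h4
      _ = _ := by ring
  have h7 : (p - 1) ^ 2 * D ≤ E ^ 2 * p ^ 2 := le_of_mul_le_mul_left h6 hM
  have h8 : E ^ 2 * p ^ 2 ≤ ((2 * n + 1) * (p - 1)) ^ 2 * p ^ 2 := mul_le_mul_of_nonneg_right hE2 (sq_nonneg _)
  have h9 : (p - 1) ^ 2 * D ≤ (p - 1) ^ 2 * ((2 * n + 1) ^ 2 * p ^ 2) := by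
    calc _ ≤ _ := h7
      _ ≤ _ := h8
      _ = _ := by ring
  have h10 := le_of_mul_le_mul_left h9 hp1
  linarith

/-- Tree through `ζ`: normalized signs. -/
theorem num_tree0_main {p aA aB dA dB xA xB ε N M : ℤ} (hp : 7 ≤ p) (haA : 0 ≤ aA) (haB : 0 ≤ aB) (hM : 0 < M)
    (hdA : dA = p * aA + (p - 1) * 1) (hdB : dB = p * aB + (p - 1) * (-1))
    (hdeg : 1 * dA + (-1) * dB + (-1) * (p - 2) = 0)
    (hx : 1 * xA + (-1) * xB + (-1) * ε = 0) (hxB : |xB| ≤ aB) (hε : |ε| ≤ 1)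
    (hid : M * (1 * xA ^ 2 * dB * (p - 2) + (-1) * xB ^ 2 * dA * (p - 2) + (-1) * ε ^ 2 * dA * dB) = -N * dA * dB * (p - 2)) :
    aB = aA + 1 ∧ (1 ≤ aA → N * p ^ 2 < M * (p - 1) ^ 2) := by
  have hab : aB = aA + 1 := by
    have h1 : p * (aA + 1 - aB + 1) = p * 1 := by
      rw [hdA, hdB] at hdeg
      linear_combination hdeg
    have hp0 : p ≠ 0 := by linarith
    have h2 := mul_left_cancel₀ hp0 h1
    linarith
  refine ⟨hab, fun hn => ?_⟩
  subst hab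
  apply num_upper hp hn hM hxB hε
  have hxA : xA = xB + ε := by linarith
  have hdA' : dA = (aA + 1) * p - 1 := by rw [hdA]; ring
  have hdB' : dB = aA * p + 1 := by rw [hdB]; ring
  subst hxA hdA' hdB'
  linear_combination hid

/-- Lower bound, first type. -/
theorem num_lower_b {p m N M x : ℤ} (hp : 7 ≤ p) (hm : 1 ≤ m) (hM : 0 < M) (hx : 1 + x ≤ m - 1)
    (hid : N * ((m * p - 1) * (m * p - 2)) = M * ((m * p - 2) - x) ^ 2) : M * (p - 1) ^ 2 ≤ N * p ^ 2 := by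
  have h0 : 7 ≤ m * p := by nlinarith
  apply mul_le_mul_of_sq (F := m * p - 1) (by linarith) _ hM hid (by linarith)
  · have h1 : m * (p - 1) ≤ (m * p - 2) - x := by linarith
    have h2 : p * (m * (p - 1)) ≤ p * ((m * p - 2) - x) := mul_le_mul_of_nonneg_left h1 (by linarith)
    nlinarith
  · nlinarith
  · have h1 : 0 < m * p - 1 := by linarith
    have h2 : 0 < m * p - 2 := by linarith
    positivity

/-- Lower bound, second type. -/
theorem num_lower_a {p n N M x : ℤ} (hp : 7 ≤ p) (hn : 0 ≤ n) (hM : 0 < M) (hx : x ≤ n)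
    (hid : N * ((n * p + 2) * (n * p + 1)) = M * ((n * p + 2) - x) ^ 2) : M * (p - 1) ^ 2 ≤ N * p ^ 2 := by
  have h0 : 0 ≤ n * p := by
    have h01 : 0 ≤ p := by linarith
    positivity
  apply mul_le_mul_of_sq (F := n * p + 2) (by linarith) _ hM hid (by linarith)
  · have h1 : n * (p - 1) + 2 ≤ (n * p + 2) - x := by linarith
    have h2 : p * (n * (p - 1) + 2) ≤ p * ((n * p + 2) - x) := mul_le_mul_of_nonneg_left h1 (by linarith)
    nlinarith
  · nlinarith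
  · positivity

/-- Tree through the trivial character. -/
theorem num_tree1 {p wA σ aA aξ dA dξ xA xξ N M : ℤ} (hp : 7 ≤ p) (haA : 0 ≤ aA) (haξ : 0 ≤ aξ) (hM : 0 < M)
    (hwA : wA = 1 ∨ wA = -1) (hσ : σ = 1 ∨ σ = -1) (hdA1 : 1 ≤ dA) (hdξ1 : 1 ≤ dξ)
    (hdA : dA = p * aA + (p - 1) * wA) (hdξ : dξ = p * aξ + 2 * σ)
    (hdeg : wA * dA + (-1) * 1 + σ * dξ = 0)
    (hx : wA * xA + (-1) * 1 + σ * xξ = 0) (hxA : |xA| ≤ aA) (hxξ : |xξ| ≤ aξ)
    (hid : M * (wA * xA ^ 2 * 1 * dξ + (-1) * 1 ^ 2 * dA * dξ + σ * xξ ^ 2 * dA * 1) = -N * dA * 1 * dξ) :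
    M * (p - 1) ^ 2 ≤ N * p ^ 2 := by
  have hp0 : p ≠ 0 := by linarith
  rcases hwA with rfl | rfl <;> rcases hσ with rfl | rfl
  · exfalso
    linarith
  · -- type (b)
    have hax : aξ = aA + 1 := by
      have h1 : p * (aA + 1 - aξ) = p * 0 := by
        rw [hdA, hdξ] at hdeg
        linear_combination hdeg
      have h2 := mul_left_cancel₀ hp0 h1
      linarith
    subst hax
    have hxA' : xA = 1 + xξ := by linarith
    subst hxA'
    have hdξ' : dξ = (aA + 1) * p - 2 := by rw [hdξ]; ring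
    have hdA' : dA = (aA + 1) * p - 1 := by rw [hdA]; ring
    subst hdξ' hdA'
    apply num_lower_b hp (by linarith : (1 : ℤ) ≤ aA + 1) hM (x := xξ)
    · have := (abs_le.1 hxA).2
      linarith
    · linear_combination hid
  · -- type (a)
    have hax : aξ = aA - 1 := by
      have h1 : p * (aA - 1 - aξ) = p * 0 := by
        rw [hdA, hdξ] at hdeg
        linear_combination -hdeg
      have h2 := mul_left_cancel₀ hp0 h1
      linarith
    subst hax
    have hxA' : xA = xξ - 1 := by linarith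
    subst hxA'
    have hdξ' : dξ = (aA - 1) * p + 2 := by rw [hdξ]; ring
    have hdA' : dA = (aA - 1) * p + 1 := by rw [hdA]; ring
    subst hdξ' hdA'
    apply num_lower_a hp haξ hM (x := xξ)
    · exact (abs_le.1 hxξ).2
    · linear_combination hid
  · exfalso
    linarith

end Cfsg.Agent.Lib.Pm2F
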