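import Mathlib
import Cfsg.Agent.Lib.Pm2E
import Cfsg.Agent.Lib.Pm2F

/-!
# The two trees: arithmetic of the row identity at an inverting involution
-/

set_option autoImplicit false
set_option linter.unusedVariables false
set_option linter.unusedSectionVars false
set_option linter.style.haveILetI false

namespace Cfsg.Agent.Lib.Pm2G

open Subgroup Cfsg Cfsg.Agent.Lib.CharBasic Cfsg.Agent.Lib.DefOneC Cfsg.Agent.Lib.DefOneE Cfsg.Agent.Lib.DefOneG Cfsg.Agent.Lib.DefOneH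
open Cfsg.Agent.Lib.DefectOne Cfsg.Agent.Lib.BlkBasic Cfsg.Agent.Lib.TICent Cfsg.Agent.Lib.DefOneF Cfsg.Agent.Lib.Pm2B Cfsg.Agent.Lib.Pm2C
open Cfsg.Agent.Lib.Pm2A Cfsg.Agent.Lib.Pm2D Cfsg.Agent.Lib.Pm2E Cfsg.Agent.Lib.Pm2F
open scoped ComplexConjugate

variable {G : Type*} [Group G] [Fintype G] [DecidableEq G] {p : ℕ} {P C : Subgroup G} {r : ↥C →* ↥P} {e₀ : ℕ}

section Facts

variable (H : Cfsg.Agent.Lib.TICent.Hyp p P C r e₀) (hZ : ∀ c : ↥C, r c = 1 → ∀ g : G, (c : G) * g = g * c) [Fintype C]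
  [Fintype (↥P →* ℂˣ)] [Fintype (Th P C)] [Fintype (NT P)] [Fintype P] {a : IrrCharacter C → (↥P →* ℂˣ) → IrrCharacter G → ℕ}
  (ha : ∀ (θ : IrrCharacter C) (f : ↥P →* ℂˣ) (χ : IrrCharacter G),
      classInner (tw r f θ) (fun c : ↥C => (χ : G → ℂ) c) = (a θ f χ : ℂ))
  (hcard : Nat.card P = p) {θ : Th P C} (T : Tree p P (a θ.1))
  {u : G} (hu : u * u = 1) (hinv : ∀ y ∈ P, u * y * u⁻¹ = y⁻¹)
  (hoddK : ∀ z : ↥C, r z = 1 → z * z = 1 → z = 1) (hN : Nat.card (normalizer (P : Set G)) = Nat.card C * 2)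
  (hoddp : Odd p)
include H hZ ha hcard hu hinv hoddK hN hoddp

theorem not_dvd_order_u : ¬ p ∣ orderOf u := by
  have h1 : orderOf u ∣ 2 := orderOf_dvd_of_pow_eq_one (by rw [pow_two, hu])
  intro h2
  have h3 := h2.trans h1
  have h4 := (Nat.prime_dvd_prime_iff_eq H.prime Nat.prime_two).1 h3
  subst h4
  exact absurd hoddp (by decide)

/-- Everything about a tree at `u`, as integers. -/
theorem tree_facts (f : NT P) {A B : IrrCharacter G} (hA : T.w A ≠ 0) (hBA : B ≠ A) (hB : T.w B ≠ 0)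
    (h0 : ∀ χ, χ ≠ A → χ ≠ B → T.w χ = 0) :
    ∃ xA xB xξ : ℤ, (A : G → ℂ) u = xA ∧ (B : G → ℂ) u = xB ∧ ((T.ξ f : IrrCharacter G) : G → ℂ) u = xξ ∧
      |xA| ≤ (a θ.1 1 A : ℤ) ∧ |xB| ≤ (a θ.1 1 B : ℤ) ∧ |xξ| ≤ (a θ.1 1 (T.ξ f) : ℤ) ∧
      T.w A * (charDegree (A : G → ℂ) : ℤ) + T.w B * (charDegree (B : G → ℂ) : ℤ) + T.σ * (charDegree ((T.ξ f : IrrCharacter G) : G → ℂ) : ℤ) = 0 ∧
      T.w A * xA + T.w B * xB + T.σ * xξ = 0 ∧
      (Nat.card G * Nat.card C : ℤ) * (T.w A * xA ^ 2 * (charDegree (B : G → ℂ) : ℤ) * (charDegree ((T.ξ f : IrrCharacter G) : G → ℂ) : ℤ) +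
        T.w B * xB ^ 2 * (charDegree (A : G → ℂ) : ℤ) * (charDegree ((T.ξ f : IrrCharacter G) : G → ℂ) : ℤ) +
        T.σ * xξ ^ 2 * (charDegree (A : G → ℂ) : ℤ) * (charDegree (B : G → ℂ) : ℤ)) =
      -((p : ℤ) ^ 2 * (fib u u : ℤ) ^ 2) * (charDegree (A : G → ℂ) : ℤ) * (charDegree (B : G → ℂ) : ℤ) * (charDegree ((T.ξ f : IrrCharacter G) : G → ℂ) : ℤ) := by
  classical
  have hoddP : Odd (Nat.card P) := by
    rw [hcard]
    exact hoddp
  have hp2 : p ≠ 2 := by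
    rintro rfl
    exact absurd hoddp (by decide)
  obtain ⟨f₁, hf₁⟩ := supp_nonexc H hZ ha hcard T hA
  obtain ⟨f₂, hf₂⟩ := supp_nonexc H hZ ha hcard T hB
  obtain ⟨f₃, hf₃⟩ := supp_exc H hZ ha hcard T f
  obtain ⟨xA, hxA, hxA'⟩ := val_u H hZ ha hf₁ hu hinv hoddP
  obtain ⟨xB, hxB, hxB'⟩ := val_u H hZ ha hf₂ hu hinv hoddP
  obtain ⟨xξ, hxξ, hxξ'⟩ := val_u H hZ ha hf₃ hu hinv hoddP
  have hone : ∀ χ : IrrCharacter G, (χ : G → ℂ) 1 = ((charDegree (χ : G → ℂ) : ℤ) : ℂ) := by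
    intro χ
    rw [Cfsg.Agent.Lib.CharKernel.one_eq_charDegree (IsIrrCharacter.isCharacter χ.2)]
    simp
  have hne : ∀ χ : IrrCharacter G, ((charDegree (χ : G → ℂ) : ℤ) : ℂ) ≠ 0 := by
    intro χ
    have := Cfsg.Agent.Lib.CharKernel.charDegree_ne_zero χ.2
    exact_mod_cast this
  refine ⟨xA, xB, xξ, hxA, hxB, hxξ, hxA', hxB', hxξ', ?_, ?_, ?_⟩
  · have h1 := T.hreg f 1 (by simpa using H.prime.one_lt.ne')
    rw [sum_w T hBA h0 (fun χ : IrrCharacter G => (χ : G → ℂ) 1), hone, hone, hone] at h1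
    exact_mod_cast h1
  · have h1 := T.hreg f u (not_dvd_order_u H hZ ha hcard hu hinv hoddK hN hoddp)
    rw [sum_w T hBA h0 (fun χ : IrrCharacter G => (χ : G → ℂ) u), hxA, hxB, hxξ] at h1
    exact_mod_cast h1
  · have h1 := row_tree H (ha θ.1) T hBA h0 f u
    rw [R_eq H hcard hu hinv hZ hoddK hN hp2 hoddp θ.2 (val_one H hZ θ.1.2) f.2, hxA, hxB, hxξ, hone, hone, hone] at h1
    have hG : (Nat.card G : ℂ) ≠ 0 := by
      exact_mod_cast Nat.card_pos.ne'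
    have hC : (Nat.card C : ℂ) ≠ 0 := by
      exact_mod_cast Nat.card_pos.ne'
    have h2 := hne A
    have h3 := hne B
    have h4 := hne (T.ξ f)
    field_simp at h1
    have h5 : (((Nat.card G * Nat.card C : ℤ) * (T.w A * xA ^ 2 * (charDegree (B : G → ℂ) : ℤ) * (charDegree ((T.ξ f : IrrCharacter G) : G → ℂ) : ℤ) +
        T.w B * xB ^ 2 * (charDegree (A : G → ℂ) : ℤ) * (charDegree ((T.ξ f : IrrCharacter G) : G → ℂ) : ℤ) +
        T.σ * xξ ^ 2 * (charDegree (A : G → ℂ) : ℤ) * (charDegree (B : G → ℂ) : ℤ)) : ℤ) : ℂ) =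
      ((-((p : ℤ) ^ 2 * (fib u u : ℤ) ^ 2) * (charDegree (A : G → ℂ) : ℤ) * (charDegree (B : G → ℂ) : ℤ) * (charDegree ((T.ξ f : IrrCharacter G) : G → ℂ) : ℤ) : ℤ) : ℂ) := by
      push_cast
      push_cast at h1
      linear_combination h1
    exact_mod_cast h5

omit hoddK hN hoddp hu hinv in
/-- The coefficients of the trivial character in the tree of `1_C`. -/
theorem one_coef {θ₁ : IrrCharacter C} (h1 : (θ₁ : ↥C → ℂ) = fun _ => 1) : a θ₁ 1 (oneIrr G) = 1 := by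
  have h := ha θ₁ 1 (oneIrr G)
  have h2 : (fun c : ↥C => ((oneIrr G : IrrCharacter G) : G → ℂ) c) = fun _ : ↥C => (1 : ℂ) := rfl
  rw [tw_one, h1, h2, classInner_irr_self isIrrCharacter_one] at h
  exact_mod_cast h.symm

omit hoddK hN hoddp hu hinv in
theorem ne_coef {θ₁ : IrrCharacter C} (h1 : (θ₁ : ↥C → ℂ) = fun _ => 1) (f : NT P) : a θ₁ f.1 (oneIrr G) = 0 := by
  have h := ha θ₁ f.1 (oneIrr G)
  have h2 : (fun c : ↥C => ((oneIrr G : IrrCharacter G) : G → ℂ) c) = fun _ : ↥C => (1 : ℂ) := rfl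
  have h3 : tw r f.1 θ₁ ≠ θ₁ := by
    intro h4
    apply f.2
    apply MonoidHom.ext
    intro z
    apply Units.ext
    have h5 := congrFun h4 (H.inP z)
    rw [tw_apply, H.r_inP, h1] at h5
    simpa using h5
  have h6 : (fun c : ↥C => ((oneIrr G : IrrCharacter G) : G → ℂ) c) = θ₁ := by rw [h2, h1]
  rw [h6, classInner_irr_ne (isIrr_tw f.1 θ₁.2) θ₁.2 h3] at h
  exact_mod_cast h.symm

/-- The lower bound from the tree of the trivial character of `C`. -/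
theorem lower (hidx : ¬ p ∣ P.index) (hp7 : 7 ≤ p) :
    (Nat.card G * Nat.card C : ℤ) * ((p : ℤ) - 1) ^ 2 ≤ ((p : ℤ) ^ 2 * (fib u u : ℤ) ^ 2) * (p : ℤ) ^ 2 := by
  classical
  have hk₁ : KerP P C (fun _ : ↥C => (1 : ℂ)) := fun _ _ => rfl
  obtain ⟨θ₁, hθ₁⟩ : ∃ θ₁ : Th P C, (θ₁.1 : ↥C → ℂ) = fun _ => 1 := ⟨⟨⟨fun _ => 1, isIrrCharacter_one⟩, hk₁⟩, rfl⟩
  have hirr := θ₁.1.2
  have hk := θ₁.2
  obtain ⟨T⟩ := exists_tree H hZ hirr hk hN hcard hidx (ha θ₁.1)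
  have h11 := one_coef H hZ ha hcard hθ₁
  have h1f := ne_coef H hZ ha hcard hθ₁
  obtain ⟨f, hf⟩ : ∃ f : NT P, T.ξ f ≠ oneIrr G := by
    by_contra hcon
    push Not at hcon
    have h1 := T.hrange
    obtain ⟨f⟩ := exists_NT H hZ ha hcard
    have h2 : Set.range T.ξ = {oneIrr G} := by
      ext χ
      constructor
      · rintro ⟨g, rfl⟩
        exact hcon g
      · rintro rfl
        exact ⟨f, hcon f⟩
    rw [h2, Nat.card_coe_set_eq, Set.ncard_singleton] at h1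
    omega
  have hw1 : T.w (oneIrr G) = -1 := by
    have h1 := T.hrel f (oneIrr G)
    rw [if_neg (Ne.symm hf), h11, h1f] at h1
    push_cast at h1
    linarith
  have hw1' : T.w (oneIrr G) ≠ 0 := by
    rw [hw1]
    norm_num
  obtain ⟨η, hη, hwη, h0⟩ := exists_second T hw1'
  obtain ⟨xA, xB, xξ, hxA, hxB, hxξ, hxA', hxB', hxξ', hdeg, hx, hid⟩ :=
    tree_facts H hZ ha hcard T hu hinv hoddK hN hoddp f hwη hη.symm hw1' (fun χ h1 h2 => h0 χ h2 h1)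
  have hxB1 : xB = 1 := by
    have h2 : (1 : ℂ) = xB := hxB
    exact_mod_cast h2.symm
  have hd1 : charDegree ((oneIrr G : IrrCharacter G) : G → ℂ) = 1 := by
    unfold charDegree
    show ⌊((1 : ℂ)).re⌋₊ = 1
    simp
  rw [hw1, hd1, hxB1] at hid
  rw [hw1, hxB1] at hx
  rw [hw1, hd1] at hdeg
  push_cast at hid hx hdeg
  have hdA := deg_nonexc H hZ ha hcard T hwη
  have hdξ := deg_exc H hZ ha hcard T f
  have hM : (0 : ℤ) < (Nat.card G * Nat.card C : ℤ) := by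
    have h1 : 0 < Nat.card G := Nat.card_pos
    have h2 : 0 < Nat.card C := Nat.card_pos
    positivity
  have hwη' : T.w η = 1 ∨ T.w η = -1 := by
    rcases T.hval η with h | h | h
    · exact absurd h hwη
    · exact Or.inl h
    · exact Or.inr h
  have hdA1 : (1 : ℤ) ≤ (charDegree (η : G → ℂ) : ℤ) := by
    exact_mod_cast Cfsg.Agent.Lib.CharKernel.charDegree_pos η.2
  have hdξ1 : (1 : ℤ) ≤ (charDegree ((T.ξ f : IrrCharacter G) : G → ℂ) : ℤ) := by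
    exact_mod_cast Cfsg.Agent.Lib.CharKernel.charDegree_pos (T.ξ f).2
  exact num_tree1 (by exact_mod_cast hp7) (by positivity) (by positivity) hM hwη' T.hσ hdA1 hdξ1 hdA hdξ
    (by linarith) (by linarith) hxA' hxξ' (by rw [← hid]; push_cast; ring)

/-- The tree through `ζ`, normalized signs. -/
theorem tree0_main (hidx : ¬ p ∣ P.index) (hp7 : 7 ≤ p) (f : NT P) (hσ : T.σ = -1) (ha1 : a θ.1 1 (T.ξ f) = 1)
    (hd : charDegree ((T.ξ f : IrrCharacter G) : G → ℂ) = p - 2) {A B : IrrCharacter G} (hwA : T.w A = 1) (hwB : T.w B = -1)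
    (hBA : B ≠ A) (h0 : ∀ χ, χ ≠ A → χ ≠ B → T.w χ = 0) :
    a θ.1 1 A = 0 ∧ a θ.1 1 B = 1 ∧ charDegree (A : G → ℂ) = p - 1 ∧ charDegree (B : G → ℂ) = 1 := by
  classical
  have hA : T.w A ≠ 0 := by rw [hwA]; norm_num
  have hB : T.w B ≠ 0 := by rw [hwB]; norm_num
  obtain ⟨xA, xB, xξ, hxA, hxB, hxξ, hxA', hxB', hxξ', hdeg, hx, hid⟩ :=
    tree_facts H hZ ha hcard T hu hinv hoddK hN hoddp f hA hBA hB h0
  have hlow := lower H hZ ha hcard hu hinv hoddK hN hoddp hidx hp7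
  have hdA := deg_nonexc H hZ ha hcard T hA
  have hdB := deg_nonexc H hZ ha hcard T hB
  have hp2 : ((p - 2 : ℕ) : ℤ) = (p : ℤ) - 2 := by
    rw [Nat.cast_sub (by omega)]
    rfl
  rw [hwA] at hdA hdeg hx hid
  rw [hwB] at hdB hdeg hx hid
  rw [hσ, hd, hp2] at hdeg hid
  rw [hσ] at hx
  rw [ha1] at hxξ'
  have hM : (0 : ℤ) < (Nat.card G * Nat.card C : ℤ) := by
    have h1 : 0 < Nat.card G := Nat.card_pos
    have h2 : 0 < Nat.card C := Nat.card_pos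
    positivity
  obtain ⟨hab, hup⟩ := num_tree0_main (p := (p : ℤ)) (N := (p : ℤ) ^ 2 * (fib u u : ℤ) ^ 2) (by exact_mod_cast hp7)
    (by positivity) (by positivity) hM hdA hdB hdeg hx hxB' (by simpa using hxξ') hid
  have h0A : a θ.1 1 A = 0 := by
    by_contra hne
    have h1 : (1 : ℤ) ≤ a θ.1 1 A := by
      have : 1 ≤ a θ.1 1 A := Nat.pos_of_ne_zero hne
      exact_mod_cast this
    have := hup h1
    linarith
  have h1B : a θ.1 1 B = 1 := by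
    rw [h0A] at hab
    have : (a θ.1 1 B : ℤ) = 1 := by simpa using hab
    exact_mod_cast this
  refine ⟨h0A, h1B, ?_, ?_⟩
  · rw [h0A] at hdA
    have h2 : (charDegree (A : G → ℂ) : ℤ) = ((p - 1 : ℕ) : ℤ) := by
      rw [hdA, Nat.cast_sub (by omega)]
      push_cast
      ring
    exact_mod_cast h2
  · rw [h1B] at hdB
    have h2 : (charDegree (B : G → ℂ) : ℤ) = 1 := by
      rw [hdB]
      push_cast
      ring
    exact_mod_cast h2

/-- The tree through `ζ`. -/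
theorem exists_AB (hidx : ¬ p ∣ P.index) (hp7 : 7 ≤ p) (f : NT P) (hσ : T.σ = -1) (ha1 : a θ.1 1 (T.ξ f) = 1)
    (hd : charDegree ((T.ξ f : IrrCharacter G) : G → ℂ) = p - 2) :
    ∃ A B : IrrCharacter G, T.w A = 1 ∧ T.w B = -1 ∧ B ≠ A ∧ (∀ χ, χ ≠ A → χ ≠ B → T.w χ = 0) ∧
    a θ.1 1 A = 0 ∧ a θ.1 1 B = 1 ∧ charDegree (A : G → ℂ) = p - 1 ∧ charDegree (B : G → ℂ) = 1 := by
  classical
  obtain ⟨A, hA⟩ := exists_first T
  obtain ⟨B, hBA, hB, h0⟩ := exists_second T hA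
  have hp2 : ((p - 2 : ℕ) : ℤ) = (p : ℤ) - 2 := by
    rw [Nat.cast_sub (by omega)]
    rfl
  have hdegs : T.w A * (charDegree (A : G → ℂ) : ℤ) + T.w B * (charDegree (B : G → ℂ) : ℤ) + (-1) * ((p : ℤ) - 2) = 0 := by
    obtain ⟨xA, xB, xξ, hxA, hxB, hxξ, hxA', hxB', hxξ', hdeg, hx, hid⟩ :=
      tree_facts H hZ ha hcard T hu hinv hoddK hN hoddp f hA hBA hB h0
    rw [hσ, hd, hp2] at hdeg
    exact hdeg
  have hdA := deg_nonexc H hZ ha hcard T hA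
  have hdB := deg_nonexc H hZ ha hcard T hB
  have hp7' : (7 : ℤ) ≤ p := by exact_mod_cast hp7
  have haA : (0 : ℤ) ≤ a θ.1 1 A := by positivity
  have haB : (0 : ℤ) ≤ a θ.1 1 B := by positivity
  have hp0 : (0 : ℤ) ≤ p := by linarith
  have hd1 : (1 : ℤ) ≤ (charDegree (A : G → ℂ) : ℤ) := by
    exact_mod_cast Cfsg.Agent.Lib.CharKernel.charDegree_pos A.2
  have hd2 : (1 : ℤ) ≤ (charDegree (B : G → ℂ) : ℤ) := by
    exact_mod_cast Cfsg.Agent.Lib.CharKernel.charDegree_pos B.2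
  rcases T.hval A with h | h | h
  · exact absurd h hA
  · rcases T.hval B with h' | h' | h'
    · exact absurd h' hB
    · exfalso
      rw [h] at hdA hdegs
      rw [h'] at hdB hdegs
      have h1 : (0 : ℤ) ≤ p * a θ.1 1 A := by positivity
      have h2 : (0 : ℤ) ≤ p * a θ.1 1 B := by positivity
      linarith
    · exact ⟨A, B, h, h', hBA, h0, tree0_main H hZ ha hcard T hu hinv hoddK hN hoddp hidx hp7 f hσ ha1 hd h h' hBA h0⟩
  · rcases T.hval B with h' | h' | h'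
    · exact absurd h' hB
    · exact ⟨B, A, h', h, hBA.symm, fun χ h1 h2 => h0 χ h2 h1, tree0_main H hZ ha hcard T hu hinv hoddK hN hoddp hidx hp7 f hσ ha1 hd h' h hBA.symm (fun χ h1 h2 => h0 χ h2 h1)⟩
    · exfalso
      rw [h, h'] at hdegs
      linarith

omit hoddK hN hoddp hu hinv T hZ ha in
/-- Orthogonality of the dual. -/
theorem sum_dual_P {y : ↥P} (hy : y ≠ 1) : ∑ f : ↥P →* ℂˣ, ((f y : ℂˣ) : ℂ) = 0 := by
  haveI : Fact p.Prime := ⟨H.prime⟩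
  haveI : IsCyclic P := isCyclic_of_prime_card hcard
  letI : CommGroup P := IsCyclic.commGroup
  obtain ⟨φ, hφ⟩ := CommGroup.exists_apply_ne_one_of_hasEnoughRootsOfUnity (↥P) ℂ hy
  have h1 : ∑ f : ↥P →* ℂˣ, ((f y : ℂˣ) : ℂ) = ∑ f : ↥P →* ℂˣ, (((φ * f) y : ℂˣ) : ℂ) :=
    (Fintype.sum_equiv (Equiv.mulLeft φ) _ _ (fun f => rfl)).symm
  have h2 : ∀ f : ↥P →* ℂˣ, (((φ * f) y : ℂˣ) : ℂ) = ((φ y : ℂˣ) : ℂ) * ((f y : ℂˣ) : ℂ) := by
    intro f
    simp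
  simp_rw [h2, ← Finset.mul_sum] at h1
  have h3 : (1 - ((φ y : ℂˣ) : ℂ)) * ∑ f : ↥P →* ℂˣ, ((f y : ℂˣ) : ℂ) = 0 := by
    rw [sub_mul, one_mul, ← h1, sub_self]
  rcases mul_eq_zero.1 h3 with h4 | h4
  · exfalso
    apply hφ
    apply Units.ext
    rw [Units.val_one]
    linear_combination -h4
  · exact h4

/-- **Stage 2.** -/
theorem stage2 (hidx : ¬ p ∣ P.index) (hp7 : 7 ≤ p) (hnc : normalClosure (P : Set G) = ⊤) (f : NT P) (hσ : T.σ = -1)
    (ha1 : a θ.1 1 (T.ξ f) = 1) (hd : charDegree ((T.ξ f : IrrCharacter G) : G → ℂ) = p - 2)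
    (hfaith : ∀ g : G, ((T.ξ f : IrrCharacter G) : G → ℂ) g = ((T.ξ f : IrrCharacter G) : G → ℂ) 1 → g = 1) :
    (∀ c : ↥C, (c : G) ∈ P) ∧ ∃ ψ : IrrCharacter G, charDegree (ψ : G → ℂ) = p - 1 ∧
      (∀ y ∈ P, y ≠ 1 → (ψ : G → ℂ) y = -1) ∧
      (∀ g : G, ¬ p ∣ orderOf g → (ψ : G → ℂ) g = 1 + ((T.ξ f : IrrCharacter G) : G → ℂ) g) ∧
      p * (p - 2) * fib u u ^ 2 = (p - 1) * Nat.card G ∧
      (∀ t : G, (∀ y ∈ P, y ≠ 1 → cnt t y = 0) →
        (ψ : G → ℂ) t ^ 2 / ((p : ℂ) - 1) - 1 - ((T.ξ f : IrrCharacter G) : G → ℂ) t ^ 2 / ((p : ℂ) - 2) = 0) := by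
  classical
  obtain ⟨A, B, hwA, hwB, hBA, h0, h0A, h1B, hdA, hdB⟩ := exists_AB H hZ ha hcard T hu hinv hoddK hN hoddp hidx hp7 f hσ ha1 hd
  have hA : T.w A ≠ 0 := by rw [hwA]; norm_num
  have hB : T.w B ≠ 0 := by rw [hwB]; norm_num
  have hf1B : a θ.1 1 B ≠ 0 := by rw [h1B]; norm_num
  have hBNT : ∀ g : ↥P →* ℂˣ, g ≠ 1 → a θ.1 g B = 0 := by
    intro g hg
    have h1 := rel_nonexc T hB ⟨g, hg⟩
    rw [hwB, h1B] at h1
    have : (a θ.1 g B : ℤ) = 0 := by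
      push_cast at h1
      linarith
    exact_mod_cast this
  have hANT : ∀ g : ↥P →* ℂˣ, g ≠ 1 → a θ.1 g A = 1 := by
    intro g hg
    have h1 := rel_nonexc T hA ⟨g, hg⟩
    rw [hwA, h0A] at h1
    have : (a θ.1 g A : ℤ) = 1 := by
      push_cast at h1
      linarith
    exact_mod_cast this
  have hBP : ∀ y : ↥P, (B : G → ℂ) y = 1 := by
    intro y
    rw [eval_P H hZ ha hf1B y, Fintype.sum_eq_single (1 : ↥P →* ℂˣ)]
    · rw [h1B]
      simp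
    · intro g hg
      rw [hBNT g hg]
      simp
  obtain ⟨β, hβ⟩ := exists_hom_of_degree_one (IsIrrCharacter.isCharacter B.2) (by
    rw [Cfsg.Agent.Lib.CharKernel.one_eq_charDegree (IsIrrCharacter.isCharacter B.2), hdB]
    simp)
  have hPker : (P : Set G) ⊆ (β.ker : Set G) := by
    intro y hy
    rw [SetLike.mem_coe, MonoidHom.mem_ker]
    apply Units.ext
    rw [← hβ, Units.val_one]
    exact hBP ⟨y, hy⟩
  have htop : β.ker = ⊤ := by
    rw [eq_top_iff, ← hnc]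
    exact normalClosure_le_normal hPker
  have hB1 : ∀ g : G, (B : G → ℂ) g = 1 := by
    intro g
    rw [hβ, (MonoidHom.mem_ker.1 (htop ▸ Subgroup.mem_top g))]
    rfl
  have hζ1 : a θ.1 1 (T.ξ f) ≠ 0 := by rw [ha1]; norm_num
  have hθ1 : ∀ z : ↥C, r z = 1 → (θ.1 : ↥C → ℂ) z = 1 := by
    intro z hz
    have h1 := support H hZ ha hf1B hz
    rw [hB1, hB1, mul_one] at h1
    exact h1
  have hK : ∀ z : ↥C, r z = 1 → z = 1 := by
    intro z hz
    have h1 := support H hZ ha hζ1 hz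
    rw [hθ1 z hz, one_mul] at h1
    apply Subtype.ext
    exact hfaith _ h1.symm
  have hCP : ∀ c : ↥C, (c : G) ∈ P := by
    intro c
    obtain ⟨y, z, hz, rfl⟩ := exists_decomp H hZ c
    rw [hK z hz, mul_one]
    exact y.2
  have hCeq : C = P := le_antisymm (fun c hc => hCP ⟨c, hc⟩) H.le
  have hCcard : Nat.card C = p := by
    rw [← hcard, hCeq]
  obtain ⟨xA, xB, xξ, hxA, hxB, hxξ, hxA', hxB', hxξ', hdeg, hx, hid⟩ :=
    tree_facts H hZ ha hcard T hu hinv hoddK hN hoddp f hA hBA hB h0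
  have hxA0 : xA = 0 := by
    rw [h0A] at hxA'
    simpa using hxA'
  have hxB1 : xB = 1 := by
    rw [hB1] at hxB
    exact_mod_cast hxB.symm
  have hp1Z : ((p - 1 : ℕ) : ℤ) = (p : ℤ) - 1 := by
    rw [Nat.cast_sub (by omega)]
    rfl
  have hp2Z : ((p - 2 : ℕ) : ℤ) = (p : ℤ) - 2 := by
    rw [Nat.cast_sub (by omega)]
    rfl
  have hcount : p * (p - 2) * fib u u ^ 2 = (p - 1) * Nat.card G := by
    rw [hwA, hwB, hσ, hdA, hdB, hd, hxA0, hxB1, hCcard, hp1Z, hp2Z] at hid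
    have hx' : xξ = -1 := by
      rw [hwA, hwB, hσ, hxA0, hxB1] at hx
      linarith
    rw [hx'] at hid
    push_cast at hid
    have hpZ : (7 : ℤ) ≤ p := by exact_mod_cast hp7
    have h1 : ((p : ℤ) * ((p : ℤ) - 1)) * ((p : ℤ) * ((p : ℤ) - 2) * (fib u u : ℤ) ^ 2 - ((p : ℤ) - 1) * Nat.card G) = 0 := by
      linear_combination hid
    have h2 : ((p : ℤ) * ((p : ℤ) - 1)) ≠ 0 := by
      have h3 : (0 : ℤ) < p := by linarith
      have h4 : (0 : ℤ) < (p : ℤ) - 1 := by linarith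
      positivity
    have h3 := (mul_eq_zero.1 h1).resolve_left h2
    have h4 : ((p * (p - 2) * fib u u ^ 2 : ℕ) : ℤ) = (((p - 1) * Nat.card G : ℕ) : ℤ) := by
      push_cast
      rw [hp1Z, hp2Z]
      linarith
    exact_mod_cast h4
  refine ⟨hCP, A, hdA, ?_, ?_, hcount, ?_⟩
  · intro y hy hy1
    obtain ⟨f₁, hf₁⟩ := supp_nonexc H hZ ha hcard T hA
    have h1 := eval_P H hZ ha hf₁ ⟨y, hy⟩
    have h2 : ∀ g : ↥P →* ℂˣ, (a θ.1 g A : ℂ) * ((g ⟨y, hy⟩ : ℂˣ) : ℂ) = ((g ⟨y, hy⟩ : ℂˣ) : ℂ) - if g = 1 then 1 else 0 := by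
      intro g
      by_cases hg : g = 1
      · rw [hg, h0A]
        simp
      · rw [hANT g hg, if_neg hg]
        simp
    have h1' : (A : G → ℂ) y = ∑ g : ↥P →* ℂˣ, (a θ.1 g A : ℂ) * ((g ⟨y, hy⟩ : ℂˣ) : ℂ) := h1
    rw [h1', Finset.sum_congr rfl (fun g _ => h2 g), Finset.sum_sub_distrib,
      sum_dual_P H hcard (y := ⟨y, hy⟩) (fun h => hy1 (congrArg Subtype.val h))]
    simp
  · intro g hg
    have h1 := T.hreg f g hg
    rw [sum_w T hBA h0 (fun χ : IrrCharacter G => (χ : G → ℂ) g), hwA, hwB, hσ, hB1] at h1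
    push_cast at h1
    linear_combination h1
  · intro t ht
    have h1 := row_tree H (ha θ.1) T hBA h0 f t
    have h2 : ∑ c : ↥C, (tw r f.1 θ.1 c - (θ.1 : ↥C → ℂ) c) * (cnt t (c : G) : ℂ) = 0 := by
      refine Finset.sum_eq_zero fun c _ => ?_
      by_cases hc : c = 1
      · subst hc
        simp
      · have hc' : (c : G) ≠ 1 := fun h => hc (Subtype.ext h)
        rw [ht _ (hCP c) hc']
        simp
    rw [h2, hwA, hwB, hσ, hB1, hB1] at h1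
    have hA1 : (A : G → ℂ) 1 = (p : ℂ) - 1 := by
      rw [Cfsg.Agent.Lib.CharKernel.one_eq_charDegree (IsIrrCharacter.isCharacter A.2), hdA, Nat.cast_sub (by omega)]
      simp
    have hZ1 : ((T.ξ f : IrrCharacter G) : G → ℂ) 1 = (p : ℂ) - 2 := by
      rw [Cfsg.Agent.Lib.CharKernel.one_eq_charDegree (IsIrrCharacter.isCharacter (T.ξ f).2), hd, Nat.cast_sub (by omega)]
      simp
    rw [hA1, hZ1] at h1
    push_cast at h1
    rw [mul_zero, mul_zero] at h1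
    linear_combination h1

end Facts

end Cfsg.Agent.Lib.Pm2G
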