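import Mathlib

/-!
# A Burnside count

A finite group with a Sylow subgroup of prime order `p = 2 t + 1` with `t ≥ 2`, self-centralizing, non-normal, with normalizer of order
`p t`, acting on a finite set so that nontrivial elements have exactly one fixed point if of order `p`, and two otherwise,
each point being fixed by a nontrivial element, and with the normalizer a point stabilizer: the index of the normalizer is `p + 1`, and
the group is perfect.
-/

set_option autoImplicit false
set_option linter.style.haveILetI false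
set_option linter.unusedSectionVars false
set_option linter.unusedVariables false

namespace Cfsg.Agent.Lib.WeilA

open MulAction Subgroup

section Burnside

variable {Γ Δ : Type*} [Group Γ] [Finite Γ] [MulAction Γ Δ] [Finite Δ]

/-- The Burnside count. -/
theorem burnside_count {p : ℕ} (hp0 : p ≠ 0) (hfix1 : ∀ g : Γ, g ≠ 1 → g ^ p = 1 → Nat.card (fixedBy Δ g) = 1)
    (hfix2 : ∀ g : Γ, g ^ p ≠ 1 → Nat.card (fixedBy Δ g) = 2) :
    Nat.card (orbitRel.Quotient Γ Δ) * Nat.card Γ + 2 + Nat.card {g : Γ // g ≠ 1 ∧ g ^ p = 1} =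
      Nat.card Δ + 2 * Nat.card Γ := by
  classical
  letI := Fintype.ofFinite Γ
  letI := Fintype.ofFinite Δ
  letI : ∀ g : Γ, Fintype (fixedBy Δ g) := fun g => Fintype.ofFinite _
  letI : Fintype (orbitRel.Quotient Γ Δ) := Fintype.ofFinite _
  have h := sum_card_fixedBy_eq_card_orbits_mul_card_group Γ Δ
  have key : ∀ g : Γ, Fintype.card (fixedBy Δ g) + (if g = 1 then 2 else 0) + (if g ≠ 1 ∧ g ^ p = 1 then 1 else 0) =
      (if g = 1 then Fintype.card Δ else 0) + 2 := by
    intro g
    by_cases h1 : g = 1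
    · subst h1
      have h2 : Fintype.card (fixedBy Δ (1 : Γ)) = Fintype.card Δ := by
        rw [← Nat.card_eq_fintype_card, ← Nat.card_eq_fintype_card]
        exact Nat.card_congr (Equiv.subtypeUnivEquiv fun a => by simp)
      simp [h2]
    · by_cases h3 : g ^ p = 1
      · have h4 := hfix1 g h1 h3
        rw [Nat.card_eq_fintype_card] at h4
        simp [h1, h3, h4]
      · have h4 := hfix2 g h3
        rw [Nat.card_eq_fintype_card] at h4
        simp [h1, h3, h4]
  have hs := Finset.sum_congr (rfl : (Finset.univ : Finset Γ) = Finset.univ) (fun g _ => key g)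
  rw [Finset.sum_add_distrib, Finset.sum_add_distrib, Finset.sum_add_distrib, h] at hs
  simp only [Finset.sum_ite_eq', Finset.mem_univ, if_true, Finset.sum_const, Finset.card_univ, smul_eq_mul,
    Finset.sum_boole, Nat.cast_id] at hs
  have h5 : Nat.card {g : Γ // g ≠ 1 ∧ g ^ p = 1} = (Finset.univ.filter fun g : Γ => g ≠ 1 ∧ g ^ p = 1).card := by
    rw [Nat.card_eq_fintype_card, Fintype.card_subtype]
  rw [h5, Nat.card_eq_fintype_card, Nat.card_eq_fintype_card, Nat.card_eq_fintype_card]
  linarith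

end Burnside

section Sylow

variable {H : Type*} [Group H] [Finite H] {p : ℕ} [hp : Fact p.Prime]

/-- The Sylow subgroups have prime order. -/
theorem card_sylow_eq (P : Subgroup H) (hcard : Nat.card P = p) (hidx : ¬ p ∣ P.index) (S : Sylow p H) :
    Nat.card S = p := by
  have hpg : IsPGroup p P := IsPGroup.of_card (n := 1) (by rw [hcard, pow_one])
  obtain ⟨S₀, hS₀⟩ := hpg.exists_le_sylow
  have hS₀P : (S₀ : Subgroup H) = P := by
    symm
    apply Subgroup.eq_of_le_of_card_ge hS₀
    rw [hcard]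
    obtain ⟨n, hn⟩ := IsPGroup.iff_card.1 S₀.isPGroup'
    have h1 : Nat.card S₀ ∣ Nat.card H := Subgroup.card_subgroup_dvd_card _
    rw [← Subgroup.card_mul_index P, hcard, hn] at h1
    match n, h1, hn with
    | 0, _, hn => simp [hn]; exact hp.out.one_le
    | 1, _, hn => simp [hn]
    | m + 2, h1, hn =>
      exfalso
      apply hidx
      have h2 : p ^ (m + 2) = p * (p ^ (m + 1)) := by ring
      rw [h2] at h1
      have h3 := Nat.dvd_of_mul_dvd_mul_left hp.out.pos h1
      exact (dvd_pow_self p (Nat.succ_ne_zero m)).trans h3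
  have h1 : Nat.card S = Nat.card S₀ := Nat.card_congr (Sylow.equiv S S₀).toEquiv
  rw [h1, hS₀P, hcard]

/-- The elements of order `p`. -/
theorem card_p_elements (P : Subgroup H) (hcard : Nat.card P = p) (hidx : ¬ p ∣ P.index) :
    Nat.card {g : H // g ≠ 1 ∧ g ^ p = 1} = (p - 1) * Nat.card (Sylow p H) := by
  classical
  letI := Fintype.ofFinite H
  letI : Fintype (Sylow p H) := Fintype.ofFinite _
  have hc := card_sylow_eq P hcard hidx
  have huniq : ∀ (S S' : Sylow p H) (g : H), g ≠ 1 → g ∈ S → g ∈ S' → S = S' := by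
    intro S S' g hg h1 h2
    have key : ∀ S₁ : Sylow p H, g ∈ S₁ → (S₁ : Subgroup H) = zpowers g := by
      intro S₁ h3
      symm
      apply Subgroup.eq_of_le_of_card_ge ((Subgroup.zpowers_le).2 h3)
      rw [hc S₁, Nat.card_zpowers]
      have h4 : orderOf g ∣ p := by
        have h5 : orderOf (⟨g, h3⟩ : S₁) ∣ Nat.card S₁ := orderOf_dvd_natCard _
        rw [hc S₁, Subgroup.orderOf_mk] at h5
        exact h5
      rcases (Nat.dvd_prime hp.out).1 h4 with h6 | h6
      · rw [orderOf_eq_one_iff] at h6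
        exact absurd h6 hg
      · omega
    exact Sylow.ext ((key S h1).trans (key S' h2).symm)
  let T : Sylow p H → Finset H := fun S => Finset.univ.filter fun g => g ∈ S ∧ g ≠ 1
  have hT : ∀ S, (T S).card = p - 1 := by
    intro S
    have h1 : T S = (Finset.univ.filter fun g => g ∈ S).erase 1 := by
      ext g
      simp [T, and_comm]
    rw [h1, Finset.card_erase_of_mem (by simp [S.one_mem])]
    congr 1
    have h2 := hc S
    rw [Nat.card_eq_fintype_card, Fintype.card_subtype] at h2
    exact h2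
  have hA : (Finset.univ.filter fun g : H => g ≠ 1 ∧ g ^ p = 1) = Finset.univ.biUnion T := by
    ext g
    simp only [Finset.mem_filter, Finset.mem_univ, true_and, Finset.mem_biUnion, T]
    constructor
    · rintro ⟨h1, h2⟩
      have hpg : IsPGroup p (zpowers g) := by
        rw [IsPGroup.iff_card, Nat.card_zpowers]
        have h3 : orderOf g ∣ p := orderOf_dvd_of_pow_eq_one h2
        rcases (Nat.dvd_prime hp.out).1 h3 with h6 | h6
        · exact ⟨0, by simpa using h6⟩
        · exact ⟨1, by simpa using h6⟩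
      obtain ⟨S, hS⟩ := hpg.exists_le_sylow
      exact ⟨S, hS (mem_zpowers g), h1⟩
    · rintro ⟨S, h1, h2⟩
      refine ⟨h2, ?_⟩
      have h5 : orderOf (⟨g, h1⟩ : S) ∣ Nat.card S := orderOf_dvd_natCard _
      rw [hc S, Subgroup.orderOf_mk] at h5
      exact orderOf_dvd_iff_pow_eq_one.1 h5
  have hdisj : (↑(Finset.univ : Finset (Sylow p H)) : Set (Sylow p H)).PairwiseDisjoint T := by
    intro S _ S' _ hne
    rw [Function.onFun, Finset.disjoint_left]
    intro g h1 h2
    simp only [T, Finset.mem_filter, Finset.mem_univ, true_and] at h1 h2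
    exact hne (huniq S S' g h1.2 h1.1 h2.1)
  rw [Nat.card_eq_fintype_card, Fintype.card_subtype, hA, Finset.card_biUnion hdisj, Finset.sum_congr rfl fun S _ => hT S,
    Finset.sum_const, Finset.card_univ, smul_eq_mul, mul_comm, Nat.card_eq_fintype_card]

/-- Elements of order `p` are conjugate into `P`. -/
theorem exists_conj (P : Subgroup H) (hcard : Nat.card P = p) (hidx : ¬ p ∣ P.index) {g : H} (hg1 : g ≠ 1) (hg2 : g ^ p = 1) :
    ∃ h a : H, a ∈ P ∧ g = h * a * h⁻¹ := by
  have hpg : IsPGroup p P := IsPGroup.of_card (n := 1) (by rw [hcard, pow_one])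
  obtain ⟨S₀, hS₀⟩ := hpg.exists_le_sylow
  have hS₀P : (S₀ : Subgroup H) = P := by
    symm
    apply Subgroup.eq_of_le_of_card_ge hS₀
    rw [hcard, card_sylow_eq P hcard hidx S₀]
  have hpg2 : IsPGroup p (zpowers g) := by
    rw [IsPGroup.iff_card, Nat.card_zpowers]
    have h3 : orderOf g ∣ p := orderOf_dvd_of_pow_eq_one hg2
    rcases (Nat.dvd_prime hp.out).1 h3 with h6 | h6
    · exact ⟨0, by simpa using h6⟩
    · exact ⟨1, by simpa using h6⟩
  obtain ⟨S, hS⟩ := hpg2.exists_le_sylow
  obtain ⟨h, hh⟩ := MulAction.exists_smul_eq H S₀ S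
  have hgS : g ∈ (S : Subgroup H) := hS (mem_zpowers g)
  rw [← hh, Sylow.coe_subgroup_smul, Subgroup.mem_pointwise_smul_iff_inv_smul_mem] at hgS
  refine ⟨h, h⁻¹ * g * h, ?_, by group⟩
  rw [← hS₀P]
  have h1 : (MulAut.conj h)⁻¹ • g = h⁻¹ * g * h := by
    simp [MulAut.smul_def, MulAut.conj_apply, mul_assoc]
  rwa [h1] at hgS

/-- Index of the normalizer. -/
theorem card_sylow_eq_index (P : Subgroup H) (hcard : Nat.card P = p) (hidx : ¬ p ∣ P.index) :
    Nat.card (Sylow p H) = (normalizer (P : Set H)).index := by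
  have hpg : IsPGroup p P := IsPGroup.of_card (n := 1) (by rw [hcard, pow_one])
  obtain ⟨S₀, hS₀⟩ := hpg.exists_le_sylow
  have hS₀P : (S₀ : Subgroup H) = P := by
    symm
    apply Subgroup.eq_of_le_of_card_ge hS₀
    rw [hcard, card_sylow_eq P hcard hidx S₀]
  rw [← hS₀P]
  exact S₀.card_eq_index_normalizer

end Sylow

/-- Numerics. -/
theorem numeric_one {p t M s : ℕ} (hpt : p = 2 * t + 1) (ht : 2 ≤ t) (hM : p + 1 ≤ M) (hs : 0 < s)
    (h : s * (2 + (p - 2) * M) = M * (p * t)) : M = p + 1 := by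
  subst hpt
  have h0 : 2 * t + 1 - 2 = 2 * t - 1 := by omega
  rw [h0] at h
  obtain ⟨u, hu⟩ : ∃ u, t = u + 2 := ⟨t - 2, by omega⟩
  subst hu
  have h1 : 2 * (u + 2) - 1 = 2 * u + 3 := by omega
  rw [h1] at h
  -- `2 s = M (p t - s (p - 2))`
  have h2 : (2 * s : ℤ) = M * ((2 * (u + 2) + 1) * (u + 2) - s * (2 * u + 3)) := by
    have h3 : ((s * (2 + (2 * u + 3) * M) : ℕ) : ℤ) = ((M * ((2 * (u + 2) + 1) * (u + 2)) : ℕ) : ℤ) := by rw [h]
    push_cast at h3
    linear_combination h3
  have hMpos : (0 : ℤ) < M := by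
    have : 0 < M := by omega
    exact_mod_cast this
  have hspos : (0 : ℤ) < s := by exact_mod_cast hs
  set D : ℤ := (2 * (u + 2) + 1) * (u + 2) - s * (2 * u + 3) with hD
  have hD1 : 1 ≤ D := by
    by_contra hcon
    have hD0 : D ≤ 0 := by omega
    nlinarith
  have hM2 : (M : ℤ) ≤ 2 * s := by
    rw [h2]
    nlinarith
  have hM3 : ((2 * (u + 2) + 1 + 1 : ℕ) : ℤ) ≤ M := by exact_mod_cast hM
  push_cast at hM3
  have hs2 : (u : ℤ) + 3 ≤ s := by linarith
  have hs3 : (s : ℤ) ≤ u + 3 := by
    by_contra hcon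
    have h4 : (u : ℤ) + 4 ≤ s := by omega
    have h5 : D ≤ 0 := by
      rw [hD]
      nlinarith
    omega
  have hs4 : (s : ℤ) = u + 3 := le_antisymm hs3 hs2
  have hD2 : D = 1 := by
    rw [hD, hs4]
    ring
  rw [hD2, mul_one] at h2
  have h6 : (M : ℤ) = 2 * u + 6 := by
    rw [← h2, hs4]
    ring
  have h7 : M = 2 * u + 6 := by exact_mod_cast h6
  omega

/-- Numerics for the commutator subgroup. -/
theorem numeric_two {t a : ℕ} (ha : 0 < a) (h1 : 2 * t + 2 ∣ a) (h2 : (2 * t + 1) * (2 * t) ∣ a) (ht : 0 < t) :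
    (2 * t + 1) * t * (2 * t + 2) ≤ a := by
  obtain ⟨u, rfl⟩ := h1
  have h3 : (2 * t + 1) * t ∣ (t + 1) * u := by
    obtain ⟨v, hv⟩ := h2
    refine ⟨v, ?_⟩
    have : 2 * ((t + 1) * u) = 2 * ((2 * t + 1) * t * v) := by
      calc 2 * ((t + 1) * u) = (2 * t + 2) * u := by ring
        _ = (2 * t + 1) * (2 * t) * v := hv
        _ = _ := by ring
    omega
  have hco : Nat.Coprime ((2 * t + 1) * t) (t + 1) := by
    apply Nat.Coprime.mul_left
    · have : Nat.gcd (2 * t + 1) (t + 1) = Nat.gcd t (t + 1) := by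
        rw [show 2 * t + 1 = t + (t + 1) by ring, Nat.gcd_add_self_left]
      unfold Nat.Coprime
      rw [this]
      simp
    · simp
  have h4 := hco.dvd_of_dvd_mul_left h3
  have hu : 0 < u := by
    rcases Nat.eq_zero_or_pos u with h | h
    · subst h
      simp at ha
    · exact h
  have h5 := Nat.le_of_dvd hu h4
  calc (2 * t + 1) * t * (2 * t + 2) = (2 * t + 2) * ((2 * t + 1) * t) := by ring
    _ ≤ _ := Nat.mul_le_mul_left _ h5

section Main

variable {H Δ : Type*} [Group H] [Finite H] [MulAction H Δ] [Finite Δ]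

theorem orbit_card_mul {Γ : Type*} [Group Γ] [Finite Γ] [MulAction Γ Δ] (ω : Δ) :
    Nat.card (orbit Γ ω) * Nat.card (stabilizer Γ ω) = Nat.card Γ := by
  classical
  letI := Fintype.ofFinite Γ
  letI := Fintype.ofFinite Δ
  letI : Fintype (orbit Γ ω) := Fintype.ofFinite _
  letI : Fintype (stabilizer Γ ω) := Fintype.ofFinite _
  simp only [Nat.card_eq_fintype_card]
  exact card_orbit_mul_card_stabilizer_eq_card_group Γ ω

set_option maxHeartbeats 2000000 in
theorem main {p t : ℕ} [hp : Fact p.Prime] (hpt : p = 2 * t + 1) (ht : 2 ≤ t) (P : Subgroup H) (hcard : Nat.card P = p)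
    (hidx : ¬ p ∣ P.index) (hC : centralizer (P : Set H) = P) (hnn : ¬ P.Normal) (ω₀ : Δ)
    (hstab : stabilizer H ω₀ = normalizer (P : Set H)) (hN : Nat.card (normalizer (P : Set H)) = p * t)
    (hfix1 : ∀ g : H, g ≠ 1 → g ^ p = 1 → Nat.card (fixedBy Δ g) = 1)
    (hfix2 : ∀ g : H, g ^ p ≠ 1 → Nat.card (fixedBy Δ g) = 2) (hΔ : ∀ ω : Δ, ∃ g : H, g ≠ 1 ∧ g • ω = ω) :
    (normalizer (P : Set H)).index = p + 1 ∧ _root_.commutator H = ⊤ := by
  classical
  letI := Fintype.ofFinite H
  letI := Fintype.ofFinite Δ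
  letI : Fintype (orbitRel.Quotient H Δ) := Fintype.ofFinite _
  set N := normalizer (P : Set H) with hNdef
  set M := N.index with hMdef
  have hγ : Nat.card H = M * (p * t) := by
    rw [← Subgroup.card_mul_index N, hN, mul_comm]
  have hMpos : 0 < M := by
    rw [hMdef]
    exact Nat.pos_of_ne_zero (Subgroup.index_ne_zero_of_finite)
  have hγpos : 0 < Nat.card H := Nat.card_pos
  have hMsyl : Nat.card (Sylow p H) = M := card_sylow_eq_index P hcard hidx
  have hM1 : M ≠ 1 := by
    intro h
    apply hnn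
    have h1 : N = ⊤ := Subgroup.index_eq_one.1 h
    exact Subgroup.normalizer_eq_top_iff.1 h1
  have hMmod : M ≡ 1 [MOD p] := by
    rw [← hMsyl]
    exact card_sylow_modEq_one p H
  have hM2 : p + 1 ≤ M := by
    have h1 : (M - 1) % p = 0 := by
      have := (Nat.modEq_iff_dvd' hMpos).1 hMmod.symm
      exact Nat.mod_eq_zero_of_dvd this
    have h2 : p ∣ M - 1 := Nat.dvd_of_mod_eq_zero h1
    have h3 := Nat.le_of_dvd (by omega) h2
    omega
  have hn₁ : Nat.card {g : H // g ≠ 1 ∧ g ^ p = 1} = (p - 1) * M := by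
    rw [card_p_elements P hcard hidx, hMsyl]
  have hB := burnside_count (Γ := H) (Δ := Δ) hp.out.ne_zero hfix1 hfix2
  rw [hn₁] at hB
  -- the orbits
  let Q := orbitRel.Quotient H Δ
  let size : Q → ℕ := fun q => Nat.card (orbit H q.out)
  have hsum : Nat.card Δ = ∑ q : Q, size q := by
    rw [Nat.card_congr (selfEquivSigmaOrbits H Δ)]
    rw [Nat.card_sigma]
  have hq₀ : size (Quotient.mk'' ω₀ : Q) = M := by
    have h1 : orbit H ((Quotient.mk'' ω₀ : Q).out) = orbit H ω₀ := by
      have h2 : orbitRel H Δ |>.r ((Quotient.mk'' ω₀ : Q).out) ω₀ := by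
        apply Quotient.exact'
        exact Quotient.out_eq' _
      exact orbit_eq_iff.2 (orbitRel_apply.1 h2)
    have h3 := orbit_card_mul (Γ := H) ω₀
    rw [hstab, hN, hγ] at h3
    have h4 : Nat.card (orbit H ω₀) = M := by
      have h5 : 0 < p * t := by
        have := hp.out.pos
        positivity
      exact Nat.eq_of_mul_eq_mul_right h5 h3
    show Nat.card (orbit H ((Quotient.mk'' ω₀ : Q).out)) = M
    rw [h1, h4]
  have hstab2 : ∀ ω : Δ, 2 ≤ Nat.card (stabilizer H ω) := by
    intro ω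
    obtain ⟨g, hg1, hg2⟩ := hΔ ω
    have hnt : Nontrivial (stabilizer H ω) := by
      refine ⟨⟨⟨g, hg2⟩, 1, ?_⟩⟩
      intro h
      exact hg1 (congrArg Subtype.val h)
    exact Finite.one_lt_card_iff_nontrivial.2 hnt
  have hsize : ∀ q : Q, 2 * size q ≤ Nat.card H := by
    intro q
    have h1 := orbit_card_mul (Γ := H) q.out
    have h2 := hstab2 q.out
    calc 2 * size q ≤ Nat.card (stabilizer H q.out) * size q := Nat.mul_le_mul_right _ h2
      _ = _ := by rw [mul_comm]; exact h1
  set q₀ : Q := Quotient.mk'' ω₀ with hq₀def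
  set O := ∑ q ∈ Finset.univ.erase q₀, size q with hO
  have hΔcard : Nat.card Δ = M + O := by
    rw [hsum, ← Finset.add_sum_erase _ _ (Finset.mem_univ q₀), hq₀]
  have hOle : 2 * O ≤ (Fintype.card Q - 1) * Nat.card H := by
    have h1 : 2 * O = ∑ q ∈ Finset.univ.erase q₀, 2 * size q := by rw [hO, Finset.mul_sum]
    rw [h1]
    have h2 := Finset.sum_le_card_nsmul (Finset.univ.erase q₀) (fun q => 2 * size q) (Nat.card H) (fun q _ => hsize q)
    rw [Finset.card_erase_of_mem (Finset.mem_univ q₀), Finset.card_univ, smul_eq_mul] at h2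
    exact h2
  have hr1 : 1 ≤ Fintype.card Q := Fintype.card_pos_iff.2 ⟨q₀⟩
  have hcardQ : Nat.card Q = Fintype.card Q := Nat.card_eq_fintype_card
  have hB' : Fintype.card Q * Nat.card H + 2 + (p - 1) * M = M + O + 2 * Nat.card H := by
    rw [← hΔcard, ← hcardQ]
    exact hB
  have hp5 : 5 ≤ p := by omega
  have hpM : M ≤ (p - 1) * M := Nat.le_mul_of_pos_left _ (by omega)
  have hr2 : Fintype.card Q ≤ 2 := by
    by_contra hcon
    obtain ⟨r', hr'⟩ : ∃ r', Fintype.card Q = r' + 3 := ⟨Fintype.card Q - 3, by omega⟩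
    rw [hr'] at hB' hOle
    have h1 : r' + 3 - 1 = r' + 2 := by omega
    rw [h1] at hOle
    nlinarith
  have hγ' : p * t * M = Nat.card H := by rw [hγ]; ring
  have hr3 : Fintype.card Q = 2 := by
    by_contra hcon
    have h1 : Fintype.card Q = 1 := by omega
    have h2 : O = 0 := by
      rw [hO]
      have : Finset.univ.erase q₀ = ∅ := by
        rw [← Finset.card_eq_zero, Finset.card_erase_of_mem (Finset.mem_univ q₀), Finset.card_univ, h1]
      rw [this, Finset.sum_empty]
    rw [h1, h2] at hB'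
    have h3 : 2 * p * M ≤ Nat.card H := by
      rw [← hγ']
      have : 2 * p ≤ p * t := by nlinarith
      exact Nat.mul_le_mul_right _ this
    have h4 : (p - 1) * M + M = p * M := by
      rw [← add_one_mul, Nat.sub_add_cancel hp.out.one_le]
    nlinarith
  obtain ⟨q₁, hq₁⟩ : ∃ q₁, Finset.univ.erase q₀ = {q₁} := by
    apply Finset.card_eq_one.1
    rw [Finset.card_erase_of_mem (Finset.mem_univ q₀), Finset.card_univ, hr3]
  have hOeq : O = size q₁ := by
    rw [hO, hq₁, Finset.sum_singleton]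
  have hs₁ := orbit_card_mul (Γ := H) q₁.out
  have hs₁' : Nat.card (orbit H q₁.out) = size q₁ := rfl
  rw [hs₁'] at hs₁
  rw [hr3, hOeq] at hB'
  have h1p : (p - 1) * M = (p - 2) * M + M := by
    rw [← add_one_mul]
    congr 1
    omega
  have hsq₁ : size q₁ = 2 + (p - 2) * M := by
    rw [h1p] at hB'
    omega
  have hMeq : M = p + 1 := by
    apply numeric_one (s := Nat.card (stabilizer H q₁.out)) hpt ht hM2 (by have := hstab2 q₁.out; omega)
    rw [← hsq₁, mul_comm, hs₁, hγ]
  refine ⟨hMeq, ?_⟩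
  -- the commutator subgroup
  set E := _root_.commutator H with hEdef
  have hEn : E.Normal := inferInstance
  have hPE : P ≤ E := by
    have hnP : ∃ n ∈ N, n ∉ P := by
      by_contra hcon
      push Not at hcon
      have h1 : Nat.card N ≤ Nat.card P := Subgroup.card_le_of_le hcon
      rw [hN, hcard] at h1
      have := hp.out.pos
      nlinarith
    obtain ⟨n, hn, hnP⟩ := hnP
    have hnC : n ∉ centralizer (P : Set H) := by rwa [hC]
    rw [Subgroup.mem_centralizer_iff] at hnC
    push Not at hnC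
    obtain ⟨u, hu, hun⟩ := hnC
    have hu' : u ∈ P := hu
    set c := n * u * n⁻¹ * u⁻¹ with hc
    have hcE : c ∈ E := by
      have h1 := Subgroup.commutator_mem_commutator (Subgroup.mem_top n) (Subgroup.mem_top u)
      rwa [commutatorElement_def] at h1
    have hcP : c ∈ P := P.mul_mem ((mem_normalizer_iff.1 hn u).1 hu') (P.inv_mem hu')
    have hc1 : c ≠ 1 := by
      intro h
      apply hun
      rw [hc, mul_inv_eq_one, mul_inv_eq_iff_eq_mul] at h
      exact h.symm
    have hz : zpowers c = P := by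
      apply Subgroup.eq_of_le_of_card_ge ((Subgroup.zpowers_le).2 hcP)
      rw [hcard, Nat.card_zpowers]
      have h5 : orderOf (⟨c, hcP⟩ : P) ∣ Nat.card P := orderOf_dvd_natCard _
      rw [hcard, Subgroup.orderOf_mk] at h5
      rcases (Nat.dvd_prime hp.out).1 h5 with h6 | h6
      · rw [orderOf_eq_one_iff] at h6
        exact absurd h6 hc1
      · omega
    rw [← hz]
    exact (Subgroup.zpowers_le).2 hcE
  have hallE : ∀ g : H, g ≠ 1 → g ^ p = 1 → g ∈ E := by
    intro g hg1 hg2
    obtain ⟨h, a, ha, hga⟩ := exists_conj P hcard hidx hg1 hg2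
    rw [hga]
    exact hEn.conj_mem a (hPE ha) h
  -- the count for the commutator subgroup
  have hBE := burnside_count (Γ := E) (Δ := Δ) hp.out.ne_zero
    (fun g h1 h2 => hfix1 g (fun h => h1 (Subtype.ext h)) (by
      have := congrArg Subtype.val h2
      simpa using this))
    (fun g h2 => hfix2 g (by
      intro h
      apply h2
      apply Subtype.ext
      simpa using h))
  have hn₁E : Nat.card {g : E // g ≠ 1 ∧ g ^ p = 1} = Nat.card {g : H // g ≠ 1 ∧ g ^ p = 1} := by
    refine Nat.card_congr ⟨fun g => ⟨g.1.1, fun h => g.2.1 (Subtype.ext h), by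
      have := congrArg Subtype.val g.2.2
      simpa using this⟩, fun g => ⟨⟨g.1, hallE g.1 g.2.1 g.2.2⟩, fun h => g.2.1 (congrArg Subtype.val h), Subtype.ext (by
      simpa using g.2.2)⟩, fun g => rfl, fun g => rfl⟩
  rw [hn₁E, hn₁, hΔcard, hOeq, hsq₁] at hBE
  have hEpos : 0 < Nat.card E := Nat.card_pos
  have hrE : Nat.card (orbitRel.Quotient E Δ) = 2 := by
    have h1 : Nat.card (orbitRel.Quotient E Δ) * Nat.card E = 2 * Nat.card E := by
      rw [h1p] at hBE
      omega
    exact Nat.eq_of_mul_eq_mul_right hEpos h1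
  -- the orbits of `E` are those of `H`
  letI : Fintype (orbitRel.Quotient E Δ) := Fintype.ofFinite _
  let f : orbitRel.Quotient E Δ → Q := Quotient.map' id (by
    intro a b hab
    rw [orbitRel_apply] at hab ⊢
    obtain ⟨g, hg⟩ := hab
    exact ⟨g.1, hg⟩)
  have hfs : Function.Surjective f := by
    intro q
    induction q using Quotient.inductionOn' with
    | h a => exact ⟨Quotient.mk'' a, rfl⟩
  have hfb : Function.Bijective f := by
    apply (Fintype.bijective_iff_surjective_and_card f).2 ⟨hfs, ?_⟩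
    rw [hr3, ← Nat.card_eq_fintype_card, hrE]
  have horb : ∀ ω : Δ, orbit E ω = orbit H ω := by
    intro ω
    ext ω'
    constructor
    · rintro ⟨g, rfl⟩
      exact ⟨g.1, rfl⟩
    · intro h
      have h1 : f (Quotient.mk'' ω') = f (Quotient.mk'' ω) := by
        apply Quotient.sound'
        exact orbitRel_apply.2 h
      have h2 := Quotient.exact' (hfb.1 h1)
      exact orbitRel_apply.1 h2
  have hdvd : ∀ ω : Δ, Nat.card (orbit H ω) ∣ Nat.card E := by
    intro ω
    have h1 := orbit_card_mul (Γ := E) ω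
    rw [horb] at h1
    exact Dvd.intro _ h1
  have hd0 : M ∣ Nat.card E := by
    have h1 := hdvd ω₀
    have h2 := orbit_card_mul (Γ := H) ω₀
    rw [hstab, hN, hγ] at h2
    have h4 : Nat.card (orbit H ω₀) = M := Nat.eq_of_mul_eq_mul_right (by have := hp.out.pos; positivity) h2
    rwa [h4] at h1
  have hd1 : size q₁ ∣ Nat.card E := hdvd q₁.out
  have hsz : size q₁ = (2 * t + 1) * (2 * t) := by
    rw [hsq₁, hMeq, hpt]
    obtain ⟨u, rfl⟩ : ∃ u, t = u + 1 := ⟨t - 1, by omega⟩
    have h1 : 2 * (u + 1) + 1 - 2 = 2 * u + 1 := by omega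
    rw [h1]
    ring
  have hM' : M = 2 * t + 2 := by omega
  rw [hsz] at hd1
  rw [hM'] at hd0
  have hle := numeric_two hEpos hd0 hd1 (by omega)
  apply Subgroup.eq_top_of_le_card
  rw [hγ, hM', hpt]
  calc (2 * t + 2) * ((2 * t + 1) * t) = (2 * t + 1) * t * (2 * t + 2) := by ring
    _ ≤ _ := hle

end Main

end Cfsg.Agent.Lib.WeilA
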