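import Mathlib
import Cfsg.Agent.Lib.Pm2G
import Cfsg.Agent.Lib.BlkCentralD
import Cfsg.Agent.Lib.FrobCount
import Cfsg.Agent.Lib.WeilA

/-!
# Stage 3: a unique class of involutions, the Sylow `2`-subgroup, and the `2`-defect zero character
-/

set_option autoImplicit false
set_option linter.unusedVariables false
set_option linter.unusedSectionVars false
set_option linter.style.haveILetI false

namespace Cfsg.Agent.Lib.Pm2H

open Subgroup Cfsg Cfsg.Agent.Lib.CharBasic Cfsg.Agent.Lib.TICent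
open Cfsg.Agent.Lib.Pm2A Cfsg.Agent.Lib.Pm2E
open scoped ComplexConjugate

variable {G : Type*} [Group G] [Fintype G] [DecidableEq G]

theorem fib_conj_self (t a : G) : fib (a * t * a⁻¹) (a * t * a⁻¹) = fib t t := by
  classical
  unfold fib
  refine Fintype.sum_bijective (fun b => a⁻¹ * b * a) ?_ _ _ fun b => ?_
  · refine ⟨fun x y h => ?_, fun y => ⟨a * y * a⁻¹, by group⟩⟩
    have h1 : a * (a⁻¹ * x * a) * a⁻¹ = a * (a⁻¹ * y * a) * a⁻¹ := by
      simp only at h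
      rw [h]
    simpa [mul_assoc] using h1
  · congr 1
    simp only [eq_iff_iff]
    constructor
    · intro h
      have h1 : a⁻¹ * (b * (a * t * a⁻¹) * b⁻¹) * a = a⁻¹ * (a * t * a⁻¹) * a := by rw [h]
      calc a⁻¹ * b * a * t * (a⁻¹ * b * a)⁻¹ = a⁻¹ * (b * (a * t * a⁻¹) * b⁻¹) * a := by group
        _ = a⁻¹ * (a * t * a⁻¹) * a := h1
        _ = t := by group
    · intro h
      calc b * (a * t * a⁻¹) * b⁻¹ = a * (a⁻¹ * b * a * t * (a⁻¹ * b * a)⁻¹) * a⁻¹ := by group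
        _ = a * t * a⁻¹ := by rw [h]

theorem fib_le (t x : G) : fib t x ≤ fib t t := by
  by_cases h : ∃ b : G, b * t * b⁻¹ = x
  · obtain ⟨b, rfl⟩ := h
    rw [fib_conj]
  · push Not at h
    rw [fib_eq_zero h]
    exact Nat.zero_le _

/-- The data of stage 3. -/
structure Ctx (p : ℕ) (P C : Subgroup G) (r : ↥C →* ↥P) (e₀ : ℕ) (ζ ψ : IrrCharacter G) (u : G) : Prop where
  H : Hyp p P C r e₀
  hZ : ∀ c : ↥C, r c = 1 → ∀ g : G, (c : G) * g = g * c
  hoddK : ∀ z : ↥C, r z = 1 → z * z = 1 → z = 1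
  hN : Nat.card (normalizer (P : Set G)) = Nat.card C * 2
  hcard : Nat.card P = p
  hidx : ¬ p ∣ P.index
  hp7 : 7 ≤ p
  hoddp : Odd p
  hu : u * u = 1
  hinv : ∀ y ∈ P, u * y * u⁻¹ = y⁻¹
  hCP : ∀ c : ↥C, (c : G) ∈ P
  hfaith : ∀ g : G, (ζ : G → ℂ) g = (ζ : G → ℂ) 1 → g = 1
  hdζ : charDegree (ζ : G → ℂ) = p - 2
  hdψ : charDegree (ψ : G → ℂ) = p - 1
  hψP : ∀ y ∈ P, y ≠ 1 → (ψ : G → ℂ) y = -1
  hψreg : ∀ g : G, ¬ p ∣ orderOf g → (ψ : G → ℂ) g = 1 + (ζ : G → ℂ) g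
  hcount : p * (p - 2) * fib u u ^ 2 = (p - 1) * Nat.card G
  hrow : ∀ t : G, (∀ y ∈ P, y ≠ 1 → cnt t y = 0) →
    (ψ : G → ℂ) t ^ 2 / ((p : ℂ) - 1) - 1 - (ζ : G → ℂ) t ^ 2 / ((p : ℂ) - 2) = 0

namespace Ctx

variable {p : ℕ} {P C : Subgroup G} {r : ↥C →* ↥P} {e₀ : ℕ} {ζ ψ : IrrCharacter G} {u : G}
  (S : Ctx p P C r e₀ ζ ψ u)
include S

theorem hp2 : p ≠ 2 := by
  have := S.hp7
  omega

theorem prime : p.Prime := S.H.prime

theorem ζ_one : (ζ : G → ℂ) 1 = (p : ℂ) - 2 := by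
  rw [Cfsg.Agent.Lib.CharKernel.one_eq_charDegree (IsIrrCharacter.isCharacter ζ.2), S.hdζ, Nat.cast_sub (by have := S.hp7; omega)]
  simp

theorem ψ_one : (ψ : G → ℂ) 1 = (p : ℂ) - 1 := by
  rw [Cfsg.Agent.Lib.CharKernel.one_eq_charDegree (IsIrrCharacter.isCharacter ψ.2), S.hdψ, Nat.cast_sub (by have := S.hp7; omega)]
  simp

theorem not_dvd_of_invol {t : G} (ht : t * t = 1) : ¬ p ∣ orderOf t := by
  have h1 : orderOf t ∣ 2 := orderOf_dvd_of_pow_eq_one (by rw [pow_two, ht])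
  intro h2
  exact S.hp2 ((Nat.prime_dvd_prime_iff_eq S.prime Nat.prime_two).1 (h2.trans h1))

theorem pc1 : ((p : ℂ) - 1) ≠ 0 := by
  have h : (7 : ℝ) ≤ p := by exact_mod_cast S.hp7
  intro h1
  have h2 : (p : ℂ) = ((1 : ℝ) : ℂ) := by
    rw [Complex.ofReal_one]
    linear_combination h1
  have h3 : (p : ℝ) = 1 := by exact_mod_cast h2
  linarith

theorem pc2 : ((p : ℂ) - 2) ≠ 0 := by
  have h : (7 : ℝ) ≤ p := by exact_mod_cast S.hp7
  intro h1
  have h2 : (p : ℂ) = ((2 : ℝ) : ℂ) := by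
    rw [Complex.ofReal_ofNat]
    linear_combination h1
  have h3 : (p : ℝ) = 2 := by exact_mod_cast h2
  linarith

/-- All involutions are conjugate. -/
theorem invol_conj {t : G} (ht : t * t = 1) (ht1 : t ≠ 1) : ∃ a : G, t = a * u * a⁻¹ := by
  classical
  have hex : ∃ y ∈ P, y ≠ 1 ∧ cnt t y ≠ 0 := by
    by_contra hcon
    push Not at hcon
    have h := S.hrow t hcon
    rw [S.hψreg t (S.not_dvd_of_invol ht)] at h
    have h1 := S.pc1
    have h2 := S.pc2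
    field_simp at h
    have h3 : (((p : ℂ) - 2) - (ζ : G → ℂ) t) ^ 2 = 0 := by
      linear_combination -h
    have h4 := pow_eq_zero_iff (two_ne_zero) |>.1 h3
    apply ht1
    apply S.hfaith
    rw [S.ζ_one]
    linear_combination -h4
  obtain ⟨y, hy, hy1, hc⟩ := hex
  unfold cnt at hc
  obtain ⟨a, -, ha⟩ := Finset.exists_ne_zero_of_sum_ne_zero hc
  obtain ⟨b, -, hb⟩ := Finset.exists_ne_zero_of_sum_ne_zero ha
  have hab : y⁻¹ * (a * t * a⁻¹) * (b * t * b⁻¹) = 1 := by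
    by_contra h
    exact hb (if_neg h)
  have hvw : (a * t * a⁻¹) * (b * t * b⁻¹) = y := by
    calc (a * t * a⁻¹) * (b * t * b⁻¹) = y * (y⁻¹ * (a * t * a⁻¹) * (b * t * b⁻¹)) := by group
      _ = y := by rw [hab, mul_one]
  have hv2 := conj_invol ht a
  have hinvv := inverts_of_product hv2 (conj_invol ht b) hvw
  obtain ⟨y', hy', hv'⟩ := mem_coset S.H S.hcard S.hu S.hinv S.hZ S.hoddK S.hN S.hp2 hy hy1
    (mem_N_of_inverts S.H S.hcard hy hy1 hinvv) (not_mem_C_of_inverts S.H S.hcard S.hp2 hy hy1 hinvv) hv2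
  obtain ⟨w, hw⟩ := conj_coset S.H S.hcard S.hu S.hinv S.hoddp hy'
  refine ⟨a⁻¹ * w, ?_⟩
  calc t = a⁻¹ * (a * t * a⁻¹) * a := by group
    _ = a⁻¹ * (w * u * w⁻¹) * a := by rw [hv', hw]
    _ = _ := by group

theorem u_ne_one : u ≠ 1 := by
  rintro rfl
  have hP : Nontrivial ↥P := by
    haveI : Fact p.Prime := ⟨S.prime⟩
    rw [← Finite.one_lt_card_iff_nontrivial, S.hcard]
    exact S.prime.one_lt
  obtain ⟨y, hy⟩ := exists_ne (1 : ↥P)
  have h := S.hinv y y.2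
  simp only [one_mul, inv_one, mul_one] at h
  apply mul_self_ne S.H S.hcard S.hp2 y.2 (fun h1 => hy (Subtype.ext h1))
  nth_rw 1 [h]
  simp

theorem order_u : orderOf u = 2 :=
  orderOf_eq_prime (by rw [pow_two, S.hu]) S.u_ne_one

/-- The Sylow `2`-subgroup centralizes a conjugate of `u`. -/
theorem two_pow_dvd : 2 ^ (Nat.card G).factorization 2 ∣ fib u u := by
  classical
  haveI : Fact (Nat.Prime 2) := ⟨Nat.prime_two⟩
  obtain ⟨Q⟩ : Nonempty (Sylow 2 G) := inferInstance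
  have hQ := Sylow.card_eq_multiplicity Q
  rw [← hQ]
  have h2 : 2 ∣ Nat.card G := by
    rw [← S.order_u]
    exact orderOf_dvd_natCard u
  have hne : (Nat.card G).factorization 2 ≠ 0 := by
    intro h0
    have h3 := (Nat.Prime.dvd_iff_one_le_factorization Nat.prime_two Nat.card_pos.ne').1 h2
    omega
  have hnt : Nontrivial (Q : Subgroup G) := by
    rw [← Finite.one_lt_card_iff_nontrivial, hQ]
    exact Nat.one_lt_two_pow hne
  have hpg : IsPGroup 2 (Q : Subgroup G) := Q.isPGroup'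
  haveI hcn := hpg.center_nontrivial
  have hdvd : 2 ∣ Nat.card (center (Q : Subgroup G)) := by
    obtain ⟨k, hk⟩ := IsPGroup.iff_card.1 (hpg.to_subgroup (center (Q : Subgroup G)))
    rw [hk]
    have hk0 : k ≠ 0 := by
      rintro rfl
      have := Finite.one_lt_card_iff_nontrivial.2 hcn
      rw [hk] at this
      simp at this
    exact dvd_pow_self 2 hk0
  obtain ⟨z₀, hz₀⟩ := exists_prime_orderOf_dvd_card' 2 hdvd
  obtain ⟨z, hz⟩ : ∃ z : G, z = ((z₀ : (Q : Subgroup G)) : G) := ⟨_, rfl⟩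
  have hzord : orderOf z = 2 := by
    rw [hz, Subgroup.orderOf_coe, Subgroup.orderOf_coe]
    exact hz₀
  have hz2 : z * z = 1 := by
    rw [← pow_two, ← hzord, pow_orderOf_eq_one]
  have hz1 : z ≠ 1 := by
    rintro rfl
    simp at hzord
  obtain ⟨a, rfl⟩ := S.invol_conj hz2 hz1
  rw [← fib_conj_self u a, fib_self]
  apply Subgroup.card_dvd_of_le
  intro q hq
  rw [mem_centralizer_iff]
  rintro _ rfl
  rw [hz]
  have h3 := (Subgroup.mem_center_iff.1 z₀.2) ⟨q, hq⟩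
  exact (congrArg Subtype.val h3).symm

/-- The `2`-part of `|G|` divides `p - 1`. -/
theorem two_pow_dvd_p : 2 ^ (Nat.card G).factorization 2 ∣ p - 1 := by
  obtain ⟨t', ht'⟩ := S.two_pow_dvd
  obtain ⟨h, hh⟩ : ∃ h, h = (Nat.card G).factorization 2 := ⟨_, rfl⟩
  rw [← hh] at ht' ⊢
  have hG := Nat.ordProj_mul_ordCompl_eq_self (Nat.card G) 2
  rw [← hh] at hG
  obtain ⟨g', hg'⟩ : ∃ g', g' = Nat.card G / 2 ^ h := ⟨_, rfl⟩
  rw [← hg'] at hG
  have hodd : ¬ 2 ∣ g' := by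
    rw [hg', hh]
    exact Nat.not_dvd_ordCompl Nat.prime_two Nat.card_pos.ne'
  have hc := S.hcount
  rw [ht', ← hG] at hc
  have h1 : 2 ^ h * (p * (p - 2) * 2 ^ h * t' ^ 2) = 2 ^ h * ((p - 1) * g') := by
    linarith [hc, show p * (p - 2) * (2 ^ h * t') ^ 2 = 2 ^ h * (p * (p - 2) * 2 ^ h * t' ^ 2) by ring,
      show (p - 1) * (2 ^ h * g') = 2 ^ h * ((p - 1) * g') by ring]
  have h2 := Nat.eq_of_mul_eq_mul_left (by positivity) h1
  have h3 : 2 ^ h ∣ (p - 1) * g' := ⟨p * (p - 2) * t' ^ 2, by rw [← h2]; ring⟩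
  have hcop : Nat.Coprime (2 ^ h) g' := by
    apply Nat.Coprime.pow_left
    exact (Nat.Prime.coprime_iff_not_dvd Nat.prime_two).2 hodd
  exact hcop.dvd_of_dvd_mul_right h3

/-- `ψ` has `2`-defect zero. -/
theorem ψ_even {g : G} (hg : 2 ∣ orderOf g) : (ψ : G → ℂ) g = 0 := by
  classical
  obtain ⟨M, hM⟩ := Cfsg.Agent.Lib.BlockVal.exists_isPModular Nat.prime_two
  have h1 := Cfsg.Agent.Lib.BlkCentralD.irr_eq_zero_of_free hM ⊥ bot_le ψ.2 (by
    rw [Subgroup.index_bot, S.hdψ]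
    exact S.two_pow_dvd_p) g⁻¹ (by
      intro k hk
      rw [Subgroup.mem_bot, inv_zpow, inv_eq_one, ← orderOf_dvd_iff_zpow_eq_one] at hk
      exact (Int.natCast_dvd_natCast.2 hg).trans hk)
  rwa [inv_inv] at h1

end Ctx

end Cfsg.Agent.Lib.Pm2H
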