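import Mathlib
import Cfsg.Agent.Lib.Pm2H
import Cfsg.Agent.Lib.PSolvFaith

/-!
# Stage 3: counting elements
-/

set_option autoImplicit false
set_option linter.unusedVariables false
set_option linter.unusedSectionVars false
set_option linter.style.haveILetI false

namespace Cfsg.Agent.Lib.Pm2I

open Subgroup Cfsg Cfsg.Agent.Lib.CharBasic Cfsg.Agent.Lib.TICent
open Cfsg.Agent.Lib.Pm2A Cfsg.Agent.Lib.Pm2E Cfsg.Agent.Lib.Pm2H
open scoped ComplexConjugate Pointwise

variable {G : Type*} [Group G] [Fintype G] [DecidableEq G]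
  {p : ℕ} {P C : Subgroup G} {r : ↥C →* ↥P} {e₀ : ℕ} {ζ ψ : IrrCharacter G} {u : G}
  (S : Ctx p P C r e₀ ζ ψ u)
include S

theorem exists_conj_P {g : G} (hg : g ≠ 1) (hgp : g ^ p = 1) : ∃ a y : G, y ∈ P ∧ y ≠ 1 ∧ g = a * y * a⁻¹ := by
  haveI : Fact p.Prime := ⟨S.prime⟩
  have hpg : IsPGroup p P := IsPGroup.of_card (n := 1) (by rw [S.hcard, pow_one])
  obtain ⟨S₀, hS₀⟩ := hpg.exists_le_sylow
  have hS₀P : (S₀ : Subgroup G) = P := by
    symm
    apply Subgroup.eq_of_le_of_card_ge hS₀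
    rw [S.hcard, Cfsg.Agent.Lib.WeilA.card_sylow_eq P S.hcard S.hidx S₀]
  have hord : orderOf g = p := orderOf_eq_prime hgp hg
  have hz : IsPGroup p (zpowers g) := IsPGroup.of_card (n := 1) (by rw [Nat.card_zpowers, hord, pow_one])
  obtain ⟨S₁, hS₁⟩ := hz.exists_le_sylow
  have hgS₁ : g ∈ S₁ := hS₁ (mem_zpowers g)
  obtain ⟨a, ha⟩ := MulAction.exists_smul_eq G S₁ S₀
  have h1 : MulAut.conj a • g ∈ MulAut.conj a • (S₁ : Subgroup G) := Subgroup.smul_mem_pointwise_smul g _ _ hgS₁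
  rw [← Sylow.pointwise_smul_def, ← Sylow.smul_def, ha, hS₀P, MulAut.smul_def, MulAut.conj_apply] at h1
  refine ⟨a⁻¹, a * g * a⁻¹, h1, ?_, by group⟩
  intro h2
  apply hg
  have h3 : a⁻¹ * (a * g * a⁻¹) * a = g := by group
  rw [← h3, h2]
  group

theorem ψ_X {g : G} (hg : g ≠ 1) (hgp : g ^ p = 1) : (ψ : G → ℂ) g = -1 := by
  obtain ⟨a, y, hy, hy1, rfl⟩ := exists_conj_P S hg hgp
  rw [isClassFunction_of_isCharacter (IsIrrCharacter.isCharacter ψ.2) y a, S.hψP y hy hy1]

theorem norm_sum : ∑ g : G, Complex.normSq ((ψ : G → ℂ) g - 1) = 2 * (Nat.card G : ℝ) := by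
  classical
  have hG : (Nat.card G : ℂ) ≠ 0 := by
    exact_mod_cast Nat.card_pos.ne'
  have hne : (ψ : G → ℂ) ≠ fun _ => (1 : ℂ) := by
    intro h
    have h1 := S.ψ_one
    rw [h] at h1
    have h2 : (p : ℂ) = ((2 : ℕ) : ℂ) := by
      push_cast
      linear_combination -h1
    have h3 : p = 2 := by exact_mod_cast h2
    exact S.hp2 h3
  have h1 := classInner_irr_self ψ.2
  have h2 := classInner_irr_ne ψ.2 isIrrCharacter_one hne
  unfold classInner at h1 h2
  have h3 : ∑ g : G, (ψ : G → ℂ) g * conj ((ψ : G → ℂ) g) = Nat.card G := by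
    have := congrArg (fun x => (Nat.card G : ℂ) * x) h1
    simp only [mul_one] at this
    rw [← mul_assoc, mul_inv_cancel₀ hG, one_mul] at this
    exact this
  have h4 : ∑ g : G, (ψ : G → ℂ) g = 0 := by
    have h5 := (mul_eq_zero.1 h2).resolve_left (inv_ne_zero hG)
    simpa using h5
  have h6 : ∑ g : G, conj ((ψ : G → ℂ) g) = 0 := by
    rw [← map_sum, h4, map_zero]
  have h7 : ((∑ g : G, Complex.normSq ((ψ : G → ℂ) g - 1) : ℝ) : ℂ) = ((2 * (Nat.card G : ℝ) : ℝ) : ℂ) := by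
    push_cast
    have h8 : ∀ g : G, ((Complex.normSq ((ψ : G → ℂ) g - 1) : ℝ) : ℂ) = (ψ : G → ℂ) g * conj ((ψ : G → ℂ) g) - (ψ : G → ℂ) g - conj ((ψ : G → ℂ) g) + 1 := by
      intro g
      rw [← Complex.mul_conj, map_sub, map_one]
      ring
    simp_rw [h8]
    rw [Finset.sum_add_distrib, Finset.sum_sub_distrib, Finset.sum_sub_distrib, h3, h4, h6]
    simp [Nat.card_eq_fintype_card]
    ring
  exact_mod_cast h7

/-- Even order elements. -/
noncomputable def Yf (G : Type*) [Group G] [Fintype G] [DecidableEq G] : Finset G :=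
  by classical exact Finset.univ.filter (fun g : G => 2 ∣ orderOf g)

omit S in
theorem mem_Yf {g : G} : g ∈ Yf G ↔ 2 ∣ orderOf g := by
  classical
  unfold Yf
  simp

/-- The count. -/
theorem count_bound : p * (Yf G).card + p * (p - 2) ^ 2 ≤ 2 * Nat.card G := by
  classical
  haveI : Fact p.Prime := ⟨S.prime⟩
  have hp7 := S.hp7
  obtain ⟨Xf, hXf⟩ : ∃ Xf : Finset G, Xf = Finset.univ.filter (fun g : G => g ≠ 1 ∧ g ^ p = 1) := ⟨_, rfl⟩
  have hCcard : Nat.card C = p := by
    have hCeq : C = P := le_antisymm (fun c hc => S.hCP ⟨c, hc⟩) S.H.le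
    rw [← S.hcard, hCeq]
  -- the number of elements of order `p`
  have hX : Xf.card * (2 * p) = (p - 1) * Nat.card G := by
    have h1 := Cfsg.Agent.Lib.WeilA.card_p_elements P S.hcard S.hidx
    have hpg : IsPGroup p P := IsPGroup.of_card (n := 1) (by rw [S.hcard, pow_one])
    obtain ⟨S₀, hS₀⟩ := hpg.exists_le_sylow
    have hS₀P : (S₀ : Subgroup G) = P := by
      symm
      apply Subgroup.eq_of_le_of_card_ge hS₀
      rw [S.hcard, Cfsg.Agent.Lib.WeilA.card_sylow_eq P S.hcard S.hidx S₀]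
    have h2 : Nat.card (Sylow p G) = (normalizer (P : Set G)).index := by
      rw [← hS₀P]
      exact Sylow.card_eq_index_normalizer S₀
    have h3 := Subgroup.index_mul_card (normalizer (P : Set G))
    rw [S.hN, hCcard, ← h2] at h3
    have h4 : Nat.card {g : G // g ≠ 1 ∧ g ^ p = 1} = Xf.card := by
      rw [Nat.card_eq_fintype_card, hXf, Fintype.card_subtype]
    rw [h4] at h1
    rw [h1, ← h3]
    ring
  have hle : ∑ g ∈ Xf, Complex.normSq ((ψ : G → ℂ) g - 1) + ∑ g ∈ Yf G, Complex.normSq ((ψ : G → ℂ) g - 1) + Complex.normSq ((ψ : G → ℂ) 1 - 1) ≤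
      ∑ g : G, Complex.normSq ((ψ : G → ℂ) g - 1) := by
    have hd1 : Disjoint Xf (Yf G) := by
      rw [Finset.disjoint_left]
      intro g hg hg'
      rw [hXf, Finset.mem_filter] at hg
      have h2 := mem_Yf.1 hg'
      have h3 : orderOf g = p := orderOf_eq_prime hg.2.2 hg.2.1
      rw [h3] at h2
      have h4 := (Nat.prime_dvd_prime_iff_eq Nat.prime_two S.prime).1 h2
      exact S.hp2 h4.symm
    have hd2 : Disjoint (Xf ∪ Yf G) {1} := by
      rw [Finset.disjoint_singleton_right, Finset.mem_union]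
      rintro (h | h)
      · rw [hXf, Finset.mem_filter] at h
        exact h.2.1 rfl
      · have h2 := mem_Yf.1 h
        simp at h2
    rw [← Finset.sum_union hd1, ← Finset.sum_singleton (fun g => Complex.normSq ((ψ : G → ℂ) g - 1)) (1 : G), ← Finset.sum_union hd2]
    exact Finset.sum_le_sum_of_subset_of_nonneg (Finset.subset_univ _) fun g _ _ => Complex.normSq_nonneg _
  rw [norm_sum S] at hle
  have h1 : ∑ g ∈ Xf, Complex.normSq ((ψ : G → ℂ) g - 1) = 4 * Xf.card := by
    rw [Finset.sum_congr rfl (g := fun _ => (4 : ℝ))]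
    · simp
      ring
    · intro g hg
      rw [hXf, Finset.mem_filter] at hg
      rw [ψ_X S hg.2.1 hg.2.2]
      rw [show (-1 - 1 : ℂ) = ((-2 : ℝ) : ℂ) by push_cast; norm_num, Complex.normSq_ofReal]
      norm_num
  have h2 : ∑ g ∈ Yf G, Complex.normSq ((ψ : G → ℂ) g - 1) = (Yf G).card := by
    rw [Finset.sum_congr rfl (g := fun _ => (1 : ℝ))]
    · simp
    · intro g hg
      rw [S.ψ_even (mem_Yf.1 hg)]
      simp
  have h3 : Complex.normSq ((ψ : G → ℂ) 1 - 1) = ((p : ℝ) - 2) ^ 2 := by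
    rw [S.ψ_one, show ((p : ℂ) - 1 - 1) = (((p : ℝ) - 2 : ℝ) : ℂ) by push_cast; ring, Complex.normSq_ofReal]
    ring
  rw [h1, h2, h3] at hle
  have hX' : ((Xf.card : ℝ)) * (2 * p) = ((p : ℝ) - 1) * Nat.card G := by
    have h4 : ((Xf.card * (2 * p) : ℕ) : ℝ) = (((p - 1) * Nat.card G : ℕ) : ℝ) := by rw [hX]
    push_cast at h4
    rw [Nat.cast_sub (by omega)] at h4
    simpa using h4
  have hpR : (0 : ℝ) < p := by
    have : 0 < p := by omega
    exact_mod_cast this
  have h5 : (p : ℝ) * (Yf G).card + (p : ℝ) * ((p : ℝ) - 2) ^ 2 ≤ 2 * Nat.card G := by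
    have h6 := mul_le_mul_of_nonneg_left hle hpR.le
    nlinarith
  have h7 : ((p * (Yf G).card + p * (p - 2) ^ 2 : ℕ) : ℝ) ≤ ((2 * Nat.card G : ℕ) : ℝ) := by
    push_cast
    rw [Nat.cast_sub (by omega)]
    simpa using h5
  exact_mod_cast h7

omit S in
theorem gg_mul : 2 ^ (Nat.card G).factorization 2 * (Nat.card G / 2 ^ (Nat.card G).factorization 2) = Nat.card G :=
  Nat.ordProj_mul_ordCompl_eq_self (Nat.card G) 2

omit S in
theorem gg_odd : ¬ 2 ∣ (Nat.card G / 2 ^ (Nat.card G).factorization 2) :=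
  Nat.not_dvd_ordCompl Nat.prime_two Nat.card_pos.ne'

omit S in
theorem Y_iff {x : G} : 2 ∣ orderOf x ↔ x ^ (Nat.card G / 2 ^ (Nat.card G).factorization 2) ≠ 1 := by
  constructor
  · intro h2 h3
    exact gg_odd (h2.trans (orderOf_dvd_of_pow_eq_one h3))
  · intro h1
    by_contra h2
    apply h1
    apply orderOf_dvd_iff_pow_eq_one.1
    have h3 : Nat.Coprime (orderOf x) (2 ^ (Nat.card G).factorization 2) := by
      apply Nat.Coprime.pow_right
      exact ((Nat.Prime.coprime_iff_not_dvd Nat.prime_two).2 h2).symm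
    apply h3.dvd_of_dvd_mul_left
    rw [gg_mul]
    exact orderOf_dvd_natCard x

omit S in
theorem gg_dvd_Y : (Nat.card G / 2 ^ (Nat.card G).factorization 2) ∣ (Yf G).card := by
  classical
  obtain ⟨g', hg'⟩ : ∃ g', g' = (Nat.card G / 2 ^ (Nat.card G).factorization 2) := ⟨_, rfl⟩
  rw [← hg']
  have hdvd : g' ∣ Nat.card G := by
    rw [hg']
    exact ⟨_, by rw [mul_comm, gg_mul]⟩
  have h1 := Cfsg.Agent.Lib.FrobCount.frobenius_dvd_card_pow_eq_one G g' hdvd
  have h2 : Nat.card {x : G // x ^ g' = 1} = (Finset.univ.filter (fun x : G => x ^ g' = 1)).card := by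
    rw [Nat.card_eq_fintype_card, Fintype.card_subtype]
  have h3 : (Yf G) = Finset.univ.filter (fun x : G => ¬ x ^ g' = 1) := by
    ext x
    rw [mem_Yf, Y_iff, ← hg']
    simp
  have h4 := Finset.card_filter_add_card_filter_not (s := (Finset.univ : Finset G)) (fun x : G => x ^ g' = 1)
  rw [← h3, ← h2, Finset.card_univ, ← Nat.card_eq_fintype_card] at h4
  rw [← h4] at hdvd
  exact (Nat.dvd_add_right h1).1 hdvd

theorem u_mem_Y : u ∈ Yf G := by
  rw [mem_Yf, S.order_u]

/-- The `2`-part is `p - 1`. -/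
theorem two_eq : p - 1 = 2 ^ (Nat.card G).factorization 2 ∧ (Yf G).card = (Nat.card G / 2 ^ (Nat.card G).factorization 2) := by
  classical
  have hb := count_bound S
  obtain ⟨j, hj⟩ := gg_dvd_Y (G := G)
  have hdvd := S.two_pow_dvd_p
  have hG := gg_mul (G := G)
  have hp7 := S.hp7
  obtain ⟨h, hh⟩ : ∃ h, h = (Nat.card G).factorization 2 := ⟨_, rfl⟩
  obtain ⟨g', hg'⟩ : ∃ g', g' = (Nat.card G / 2 ^ (Nat.card G).factorization 2) := ⟨_, rfl⟩
  rw [← hg'] at hj hG ⊢
  rw [← hh] at hdvd hG ⊢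
  have hg0 : 0 < g' := by
    apply Nat.pos_of_ne_zero
    rintro rfl
    rw [mul_zero] at hG
    exact Nat.card_pos.ne' hG.symm
  have hj0 : j ≠ 0 := by
    rintro rfl
    rw [mul_zero] at hj
    have := u_mem_Y S
    rw [Finset.card_eq_zero.1 hj] at this
    simp at this
  rw [hj, ← hG] at hb
  have hpos : 0 < p * (p - 2) ^ 2 := by
    have : 0 < p - 2 := by omega
    positivity
  have hlt : p * j < 2 * 2 ^ h := by
    have h1 : p * j * g' < 2 * 2 ^ h * g' := by
      calc p * j * g' = p * (g' * j) := by ring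
        _ < p * (g' * j) + p * (p - 2) ^ 2 := by omega
        _ ≤ 2 * (2 ^ h * g') := hb
        _ = _ := by ring
    exact Nat.lt_of_mul_lt_mul_right h1
  obtain ⟨k, hk⟩ := hdvd
  have hk0 : k ≠ 0 := by
    rintro rfl
    omega
  have hk1 : k = 1 := by
    by_contra hne
    have hk2 : 2 ≤ k := by omega
    have h1 : 2 ^ h * 2 ≤ 2 ^ h * k := Nat.mul_le_mul_left _ hk2
    have h2 : p * 1 ≤ p * j := Nat.mul_le_mul_left _ (Nat.pos_of_ne_zero hj0)
    omega
  subst hk1
  rw [mul_one] at hk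
  refine ⟨hk, ?_⟩
  have hj1 : j = 1 := by
    by_contra hne
    have hj2 : 2 ≤ j := by omega
    have h2 : p * 2 ≤ p * j := Nat.mul_le_mul_left _ hj2
    omega
  rw [hj, hj1, mul_one]

/-- Odd order elements of the centralizer of `u`. -/
noncomputable def To (G : Type*) [Group G] [Fintype G] [DecidableEq G] (u : G) : Finset G :=
  by classical exact Finset.univ.filter (fun g : G => g * u = u * g ∧ g ^ (Nat.card G / 2 ^ (Nat.card G).factorization 2) = 1)

omit S in
theorem mem_To {g : G} : g ∈ To G u ↔ g * u = u * g ∧ g ^ (Nat.card G / 2 ^ (Nat.card G).factorization 2) = 1 := by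
  classical
  unfold To
  simp

omit S in
theorem pow_odd_u (hu : u * u = 1) {n : ℕ} (hn : ¬ 2 ∣ n) : u ^ n = u := by
  obtain ⟨k, rfl⟩ : ∃ k, n = 2 * k + 1 := ⟨n / 2, by omega⟩
  rw [pow_succ, pow_mul, pow_two, hu, one_pow, one_mul]

/-- The map from `G × T_o` has small fibres. -/
theorem k_le : Nat.card G * (To G u).card ≤ fib u u * (Yf G).card := by
  classical
  obtain ⟨g', hg'⟩ : ∃ g', g' = (Nat.card G / 2 ^ (Nat.card G).factorization 2) := ⟨_, rfl⟩
  have hodd : ¬ 2 ∣ g' := by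
    rw [hg']
    exact gg_odd
  have hpow : ∀ a g : G, g ∈ To G u → (a * (u * g) * a⁻¹) ^ g' = a * u * a⁻¹ := by
    intro a g hg
    obtain ⟨h1, h2⟩ := mem_To.1 hg
    rw [← hg'] at h2
    have h3 : Commute u g := h1.symm
    rw [conj_pow, h3.mul_pow, h2, mul_one, pow_odd_u S.hu hodd]
  have hs : ((Finset.univ : Finset G) ×ˢ To G u).card = Nat.card G * (To G u).card := by
    rw [Finset.card_product, Finset.card_univ, Nat.card_eq_fintype_card]
  rw [← hs]
  apply Finset.card_le_mul_card_image_of_maps_to (f := fun x : G × G => x.1 * (u * x.2) * x.1⁻¹)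
  · rintro ⟨a, g⟩ h
    rw [Finset.mem_product] at h
    simp only
    rw [mem_Yf, Y_iff, ← hg', hpow a g h.2]
    intro h1
    apply S.u_ne_one
    have h2 : a⁻¹ * (a * u * a⁻¹) * a = u := by group
    rw [← h2, h1]
    group
  · intro b hb
    have h1 : (((Finset.univ : Finset G) ×ˢ To G u).filter (fun x : G × G => x.1 * (u * x.2) * x.1⁻¹ = b)).card ≤
        (Finset.univ.filter (fun a : G => a * u * a⁻¹ = b ^ g')).card := by
      apply Finset.card_le_card_of_injOn (fun x => x.1)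
      · rintro ⟨a, g⟩ hx
        simp only [Finset.coe_filter, Finset.mem_product, Finset.mem_univ, true_and, Set.mem_ofPred_eq] at hx ⊢
        rw [← hx.2, hpow a g hx.1]
      · rintro ⟨a, g⟩ hx ⟨a', g'⟩ hx' h
        simp only [Finset.coe_filter, Finset.mem_product, Finset.mem_univ, true_and, Set.mem_ofPred_eq] at hx hx' h
        subst h
        have h2 := hx.2.trans hx'.2.symm
        have h3 := mul_left_cancel (mul_right_cancel h2)
        have h4 := mul_left_cancel h3
        rw [h4]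
    refine h1.trans ?_
    have h3 : (Finset.univ.filter (fun a : G => a * u * a⁻¹ = b ^ g')).card = fib u (b ^ g') := by
      unfold fib
      rw [Finset.card_filter]
      refine Finset.sum_congr rfl fun a _ => ?_
      split_ifs <;> rfl
    rw [h3]
    exact fib_le u _

/-- The centralizer of `u` has no `p`-singular elements. -/
theorem not_dvd_of_comm {g : G} (hg : g * u = u * g) : ¬ p ∣ orderOf g := by
  intro hdvd
  haveI : Fact p.Prime := ⟨S.prime⟩
  obtain ⟨y, hy⟩ : ∃ y, y = g ^ (orderOf g / p) := ⟨_, rfl⟩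
  have hord : orderOf y = p := by
    rw [hy]
    exact orderOf_pow_orderOf_div (orderOf_pos g).ne' hdvd
  have hy1 : y ≠ 1 := by
    rintro rfl
    rw [orderOf_one] at hord
    exact S.prime.one_lt.ne hord
  have hyp : y ^ p = 1 := by
    rw [← hord, pow_orderOf_eq_one]
  have hyu : y * u = u * y := by
    rw [hy]
    exact (Commute.pow_left hg _)
  obtain ⟨a, y₀, hy₀, hy₀1, rfl⟩ := exists_conj_P S hy1 hyp
  have hw : a⁻¹ * u * a ∈ centralizer ({y₀} : Set G) := by
    rw [mem_centralizer_iff]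
    intro c hc
    rw [Set.mem_singleton_iff] at hc
    rw [hc]
    calc y₀ * (a⁻¹ * u * a) = a⁻¹ * ((a * y₀ * a⁻¹) * u) * a := by group
      _ = a⁻¹ * (u * (a * y₀ * a⁻¹)) * a := by rw [hyu]
      _ = _ := by group
  rw [S.H.star y₀ hy₀ hy₀1] at hw
  have hw' := S.hCP ⟨_, hw⟩
  have hw2 := conj_invol S.hu a⁻¹
  rw [inv_inv] at hw2
  by_cases hw1 : a⁻¹ * u * a = 1
  · apply S.u_ne_one
    have h2 : a * (a⁻¹ * u * a) * a⁻¹ = u := by group
    rw [← h2, hw1]
    group
  · exact mul_self_ne S.H S.hcard S.hp2 hw' hw1 hw2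

/-- **Stage 3.** -/
theorem stage3 : Nat.card G = p * (p - 1) * (p - 2) ∧ p - 1 = 2 ^ (Nat.card G).factorization 2 := by
  classical
  obtain ⟨hp2h, hY⟩ := two_eq S
  obtain ⟨t', ht'⟩ := S.two_pow_dvd
  have hk := k_le S
  have hG := gg_mul (G := G)
  have hp7 := S.hp7
  obtain ⟨h, hh⟩ : ∃ h, h = (Nat.card G).factorization 2 := ⟨_, rfl⟩
  obtain ⟨g', hg'⟩ : ∃ g', g' = (Nat.card G / 2 ^ (Nat.card G).factorization 2) := ⟨_, rfl⟩
  rw [← hg'] at hG hY
  rw [← hh] at hp2h hG ht'
  have hg0 : 0 < g' := by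
    apply Nat.pos_of_ne_zero
    rintro rfl
    rw [mul_zero] at hG
    exact Nat.card_pos.ne' hG.symm
  have hT0 : 0 < fib u u := by
    rw [fib_self]
    exact Nat.card_pos
  have hkt : (To G u).card ≤ t' := by
    rw [hY, ht', ← hG] at hk
    have h1 : (2 ^ h * g') * (To G u).card ≤ (2 ^ h * g') * t' := by
      calc _ ≤ _ := hk
        _ = _ := by ring
    exact Nat.le_of_mul_le_mul_left h1 (by positivity)
  letI : Fintype (centralizer ({u} : Set G)) := Fintype.ofFinite _
  have hU : ∀ x : centralizer ({u} : Set G), (x : G) * u = u * x := by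
    intro x
    exact ((mem_centralizer_iff.1 x.2) u rfl).symm
  obtain ⟨n, hn⟩ := classInner_char_irr (isCharacter_restrict (centralizer ({u} : Set G)) (IsIrrCharacter.isCharacter ζ.2))
    (isIrrCharacter_one (G := centralizer ({u} : Set G)))
  have hUc : (Nat.card (centralizer ({u} : Set G)) : ℂ) ≠ 0 := by
    exact_mod_cast Nat.card_pos.ne'
  have h1 : ∑ x : centralizer ({u} : Set G), (ζ : G → ℂ) x = (Nat.card (centralizer ({u} : Set G)) : ℂ) * n := by
    unfold classInner at hn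
    rw [← hn, ← mul_assoc, mul_inv_cancel₀ hUc, one_mul]
    simp
  have h2 : ∑ x : centralizer ({u} : Set G), (ψ : G → ℂ) x = (Nat.card (centralizer ({u} : Set G)) : ℂ) * (1 + n) := by
    have h3 : ∀ x : centralizer ({u} : Set G), (ψ : G → ℂ) x = 1 + (ζ : G → ℂ) x :=
      fun x => S.hψreg _ (not_dvd_of_comm S (hU x))
    simp_rw [h3]
    rw [Finset.sum_add_distrib, h1]
    simp [Nat.card_eq_fintype_card]
    ring
  have h3 : ∑ g ∈ To G u, (ψ : G → ℂ) g = ∑ x : centralizer ({u} : Set G), (ψ : G → ℂ) x := by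
    rw [← Finset.sum_subtype (Finset.univ.filter (fun x : G => x ∈ centralizer ({u} : Set G))) (by simp)]
    apply Finset.sum_subset
    · intro g hg
      rw [Finset.mem_filter]
      refine ⟨Finset.mem_univ _, ?_⟩
      rw [mem_centralizer_iff]
      rintro _ rfl
      exact (mem_To.1 hg).1.symm
    · intro g hg hg'
      apply S.ψ_even
      rw [Y_iff]
      intro h4
      apply hg'
      rw [mem_To]
      rw [Finset.mem_filter, mem_centralizer_iff] at hg
      exact ⟨(hg.2 u rfl).symm, h4⟩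
  rw [h2] at h3
  have hT : (fib u u : ℝ) = ((p : ℝ) - 1) * t' := by
    rw [ht', ← hp2h]
    push_cast
    rw [Nat.cast_sub (by omega)]
    simp
  have hre : ∑ g ∈ To G u, ((ψ : G → ℂ) g).re = (fib u u : ℝ) * (1 + n) := by
    have h4 := congrArg Complex.re h3
    rw [Complex.re_sum] at h4
    rw [h4, fib_self]
    have h5 : ((Nat.card (centralizer ({u} : Set G)) : ℂ) * (1 + n)) = (((Nat.card (centralizer ({u} : Set G)) : ℝ) * (1 + n) : ℝ) : ℂ) := by
      push_cast
      ring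
    rw [h5, Complex.ofReal_re]
  have hζle : ∀ g : G, ((ζ : G → ℂ) g).re ≤ (p : ℝ) - 2 := by
    intro g
    have h4 := Cfsg.Agent.Lib.PSolvFaith.norm_char_le (IsIrrCharacter.isCharacter ζ.2) g
    rw [S.hdζ, Nat.cast_sub (by omega)] at h4
    have h5 := Complex.re_le_norm ((ζ : G → ℂ) g)
    push_cast at h4
    linarith
  have hle : ∀ g ∈ To G u, ((ψ : G → ℂ) g).re ≤ (p : ℝ) - 1 := by
    intro g hg
    rw [S.hψreg g (not_dvd_of_comm S (mem_To.1 hg).1)]
    simp only [Complex.add_re, Complex.one_re]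
    linarith [hζle g]
  have hpR : (7 : ℝ) ≤ p := by exact_mod_cast hp7
  have hsum_le : ∑ g ∈ To G u, ((ψ : G → ℂ) g).re ≤ ∑ g ∈ To G u, ((p : ℝ) - 1) := Finset.sum_le_sum hle
  rw [Finset.sum_const, nsmul_eq_mul, hre, hT] at hsum_le
  have hkt' : ((To G u).card : ℝ) ≤ t' := by exact_mod_cast hkt
  have hn0 : (0 : ℝ) ≤ n := by positivity
  have ht0 : (0 : ℝ) ≤ t' := by positivity
  have htk : (t' : ℝ) ≤ (To G u).card := by
    have h4 : ((p : ℝ) - 1) * t' ≤ ((p : ℝ) - 1) * (To G u).card := by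
      calc ((p : ℝ) - 1) * t' ≤ ((p : ℝ) - 1) * t' * (1 + n) := by
            have : 0 ≤ ((p : ℝ) - 1) * t' := by
              have : (0 : ℝ) ≤ (p : ℝ) - 1 := by linarith
              positivity
            nlinarith
        _ ≤ _ := by
            rw [mul_comm ((p : ℝ) - 1) ((To G u).card : ℝ)]
            exact hsum_le
    exact le_of_mul_le_mul_left h4 (by linarith)
  have hktEq : (To G u).card = t' := le_antisymm hkt (by exact_mod_cast htk)
  have hsum_eq : ∑ g ∈ To G u, ((ψ : G → ℂ) g).re = ∑ g ∈ To G u, ((p : ℝ) - 1) := by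
    apply le_antisymm (Finset.sum_le_sum hle)
    rw [Finset.sum_const, nsmul_eq_mul, hre, hT, hktEq]
    have : 0 ≤ ((p : ℝ) - 1) * t' := by
      have : (0 : ℝ) ≤ (p : ℝ) - 1 := by linarith
      positivity
    nlinarith
  have hall := (Finset.sum_eq_sum_iff_of_le hle).1 hsum_eq
  have hone : ∀ g ∈ To G u, g = 1 := by
    intro g hg
    have h4 := hall g hg
    rw [S.hψreg g (not_dvd_of_comm S (mem_To.1 hg).1)] at h4
    simp only [Complex.add_re, Complex.one_re] at h4
    have h5 : ((ζ : G → ℂ) g).re = (p : ℝ) - 2 := by linarith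
    have h6 := Cfsg.Agent.Lib.PSolvFaith.norm_char_le (IsIrrCharacter.isCharacter ζ.2) g
    rw [S.hdζ, Nat.cast_sub (by omega)] at h6
    push_cast at h6
    have h7 : ((ζ : G → ℂ) g).im = 0 := by
      have h8 : ‖(ζ : G → ℂ) g‖ ^ 2 ≤ ((p : ℝ) - 2) ^ 2 := pow_le_pow_left₀ (norm_nonneg _) h6 2
      rw [Complex.sq_norm, Complex.normSq_apply, h5] at h8
      have h9 : ((ζ : G → ℂ) g).im * ((ζ : G → ℂ) g).im ≤ 0 := by nlinarith
      nlinarith [mul_self_nonneg ((ζ : G → ℂ) g).im]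
    apply S.hfaith
    rw [S.ζ_one]
    apply Complex.ext
    · rw [h5]
      simp
    · rw [h7]
      simp
  have hk1 : (To G u).card ≤ 1 := by
    apply Finset.card_le_one.2
    intro a ha b hb
    rw [hone a ha, hone b hb]
  have ht1 : t' = 1 := by
    have h4 : t' ≠ 0 := by
      rintro rfl
      rw [mul_zero] at ht'
      omega
    omega
  rw [ht1, mul_one] at ht'
  refine ⟨?_, by rw [hp2h, hh]⟩
  have hc := S.hcount
  rw [ht', ← hp2h] at hc
  have h5 : (p - 1) * (p * (p - 2) * (p - 1)) = (p - 1) * Nat.card G := by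
    rw [← hc]
    ring
  have h6 := Nat.eq_of_mul_eq_mul_left (by omega : 0 < p - 1) h5
  rw [← h6]
  ring

end Cfsg.Agent.Lib.Pm2I
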