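import Mathlib
import Cfsg.Agent.Lib.Pm2I

/-!
# From a faithful character of degree `p - 2`: the central part of `C(P)`, and an inverting involution
-/

set_option autoImplicit false
set_option linter.unusedVariables false
set_option linter.unusedSectionVars false
set_option linter.style.haveILetI false

namespace Cfsg.Agent.Lib.Pm2J

open Subgroup Cfsg Cfsg.Agent.Lib.CharBasic Cfsg.Agent.Lib.DefOneC Cfsg.Agent.Lib.DefOneE Cfsg.Agent.Lib.DefOneG Cfsg.Agent.Lib.DefOneH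
open Cfsg.Agent.Lib.DefectOne Cfsg.Agent.Lib.BlkBasic Cfsg.Agent.Lib.TICent Cfsg.Agent.Lib.DefOneF Cfsg.Agent.Lib.Pm2B Cfsg.Agent.Lib.Pm2C
open Cfsg.Agent.Lib.Pm2A Cfsg.Agent.Lib.Pm2D Cfsg.Agent.Lib.Pm2E Cfsg.Agent.Lib.Pm2F Cfsg.Agent.Lib.Pm2G Cfsg.Agent.Lib.Pm2H Cfsg.Agent.Lib.Pm2I
open scoped ComplexConjugate

variable {G : Type*} [Group G] [Fintype G] [DecidableEq G] {p : ℕ} {P C : Subgroup G} {r : ↥C →* ↥P} {e₀ : ℕ}

section Central

variable (H : Cfsg.Agent.Lib.TICent.Hyp p P C r e₀) [Fintype C]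
  [Fintype (↥P →* ℂˣ)] [Fintype (Th P C)] [Fintype (NT P)] [Fintype P] {a : IrrCharacter C → (↥P →* ℂˣ) → IrrCharacter G → ℕ}
  (ha : ∀ (θ : IrrCharacter C) (f : ↥P →* ℂˣ) (χ : IrrCharacter G),
      classInner (tw r f θ) (fun c : ↥C => (χ : G → ℂ) c) = (a θ f χ : ℂ))
include H ha

/-- The kernel of `r` is central. -/
theorem central_K (ζ : IrrCharacter G) (hfaith : ∀ g : G, (ζ : G → ℂ) g = (ζ : G → ℂ) 1 → g = 1) {θ₀ : Th P C}
    (hd1 : charDegree (θ₀.1 : ↥C → ℂ) = 1) (hoth : ∀ θ : Th P C, θ ≠ θ₀ → ∀ f, a θ.1 f ζ = 0) (c : ↥C) (hc : r c = 1) (g : G) :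
    (c : G) * g = g * c := by
  classical
  obtain ⟨β, hβ⟩ := exists_hom_of_degree_one (IsIrrCharacter.isCharacter θ₀.1.2) (by
    rw [Cfsg.Agent.Lib.CharKernel.one_eq_charDegree (IsIrrCharacter.isCharacter θ₀.1.2), hd1]
    simp)
  have h1 := eval_tw H ha ζ c
  rw [Fintype.sum_eq_single θ₀ (fun θ hθ => Finset.sum_eq_zero fun f _ => by rw [hoth θ hθ f]; simp)] at h1
  have h2 : ∀ f : ↥P →* ℂˣ, (a θ₀.1 f ζ : ℂ) * tw r f θ₀.1 c = (a θ₀.1 f ζ : ℂ) * (θ₀.1 : ↥C → ℂ) c := by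
    intro f
    simp [tw_apply, hc]
  simp_rw [h2] at h1
  rw [← Finset.sum_mul] at h1
  have h3 := deg_eq_sum H ha ζ
  rw [Fintype.sum_eq_single θ₀ (fun θ hθ => by
    rw [Finset.sum_eq_zero (fun f _ => by rw [hoth θ hθ f]; simp)]
    simp), hd1] at h3
  simp only [Nat.cast_one, one_mul] at h3
  have h4 : ∑ f : ↥P →* ℂˣ, (a θ₀.1 f ζ : ℂ) = (charDegree (ζ : G → ℂ) : ℂ) := by
    have h5 : (((charDegree (ζ : G → ℂ) : ℤ)) : ℂ) = ((∑ f : ↥P →* ℂˣ, (a θ₀.1 f ζ : ℤ) : ℤ) : ℂ) := by rw [h3]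
    push_cast at h5
    exact h5.symm
  rw [h4] at h1
  apply central_of_norm (IsIrrCharacter.isCharacter ζ.2) hfaith
  rw [h1, norm_mul, Complex.norm_natCast, hβ]
  have h5 : (((β c : ℂˣ)) : ℂ) ^ Nat.card C = 1 := by
    rw [← Units.val_pow_eq_pow_val, ← map_pow, pow_card_eq_one']
    simp
  rw [Complex.norm_eq_one_of_pow_eq_one h5 Nat.card_pos.ne', mul_one]

end Central

/-- There is no central involution when `G` is generated by conjugates of a subgroup of odd prime order. -/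
theorem no_central_invol {P : Subgroup G} (hcard : Nat.card P = p) (hoddp : Odd p) (hnc : normalClosure (P : Set G) = ⊤) (ζ : IrrCharacter G)
    (hfaith : ∀ g : G, (ζ : G → ℂ) g = (ζ : G → ℂ) 1 → g = 1) (hdeg : Odd (charDegree (ζ : G → ℂ))) {z : G} (hz : ∀ g : G, z * g = g * z) (hz2 : z * z = 1) : z = 1 := by
  classical
  by_contra hz1
  obtain ⟨n, ρ, hρ⟩ := IsIrrCharacter.isCharacter ζ.2
  have hdegn : charDegree (ζ : G → ℂ) = n := by
    rw [← hρ, charDegree, char_one_eq_rep]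
    simp
  have hnorm : ‖ρ.character z‖ = (Module.finrank ℂ (Fin n → ℂ) : ℝ) := by
    have h1 := Cfsg.Agent.Lib.CharCentral.central_norm ζ.2 hz
    have h2 := Cfsg.Agent.Lib.CharKernel.one_eq_charDegree (IsIrrCharacter.isCharacter ζ.2)
    rw [h2, Complex.mul_conj, Complex.normSq_eq_norm_sq] at h1
    have h3 : ‖(ζ : G → ℂ) z‖ ^ 2 = ((charDegree (ζ : G → ℂ) : ℝ)) ^ 2 := by
      have h4 : (((‖(ζ : G → ℂ) z‖ ^ 2 : ℝ)) : ℂ) = (((charDegree (ζ : G → ℂ) : ℝ) ^ 2 : ℝ) : ℂ) := by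
        rw [h1]
        push_cast
        ring
      exact_mod_cast h4
    have h5 := (sq_eq_sq₀ (norm_nonneg _) (Nat.cast_nonneg _)).1 h3
    rw [hρ, h5, hdegn, Module.finrank_fin_fun]
  obtain ⟨ω, hω⟩ := (Cfsg.Agent.Lib.CharValues.norm_character_eq_iff ρ z).1 hnorm
  -- `ω = -1`
  have hω2 : ω * ω = 1 := by
    have h1 : ρ (z * z) = ρ 1 := by rw [hz2]
    rw [map_mul, hω, map_one] at h1
    have hn0 : 0 < n := by
      rw [← hdegn]
      exact Cfsg.Agent.Lib.CharKernel.charDegree_pos ζ.2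
    have h2 := congrFun (LinearMap.congr_fun h1 (fun _ => 1)) ⟨0, hn0⟩
    simpa using h2
  have hω1 : ω ≠ 1 := by
    rintro rfl
    apply hz1
    apply hfaith
    rw [← hρ]
    have h1 : ρ z = ρ 1 := by
      rw [hω, map_one, one_smul]
      rfl
    simp only [Representation.character]
    show LinearMap.trace ℂ _ (ρ z) = LinearMap.trace ℂ _ (ρ 1)
    rw [h1]
  have hωm : ω = -1 := by
    have h1 : (ω - 1) * (ω + 1) = 0 := by linear_combination hω2
    rcases mul_eq_zero.1 h1 with h2 | h2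
    · exact absurd (sub_eq_zero.1 h2) hω1
    · linear_combination h2
  -- the determinant
  let D : G →* ℂ := (powMonoidHom p : ℂ →* ℂ).comp ((LinearMap.det : ((Fin n → ℂ) →ₗ[ℂ] (Fin n → ℂ)) →* ℂ).comp ρ)
  have hker : normalClosure (P : Set G) ≤ D.toHomUnits.ker := by
    apply normalClosure_le_normal
    intro y hy
    rw [SetLike.mem_coe, MonoidHom.mem_ker]
    apply Units.ext
    rw [MonoidHom.coe_toHomUnits, Units.val_one]
    show (LinearMap.det (ρ y)) ^ p = 1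
    rw [← map_pow, ← map_pow]
    have h1 : y ^ p = 1 := by
      have h4 : (⟨y, hy⟩ : ↥P) ^ Nat.card P = 1 := pow_card_eq_one'
      rw [hcard] at h4
      have := congrArg Subtype.val h4
      simpa using this
    rw [h1]
    simp
  rw [hnc] at hker
  have hz' := hker (Subgroup.mem_top z)
  rw [MonoidHom.mem_ker] at hz'
  have h1 : (LinearMap.det (ρ z)) ^ p = 1 := by
    have := congrArg Units.val hz'
    rw [MonoidHom.coe_toHomUnits, Units.val_one] at this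
    exact this
  rw [hω, hωm] at h1
  have h2 : LinearMap.det ((-1 : ℂ) • (LinearMap.id : (Fin n → ℂ) →ₗ[ℂ] (Fin n → ℂ))) = -1 := by
    rw [LinearMap.det_smul, LinearMap.det_id, mul_one, Module.finrank_fin_fun, ← hdegn]
    exact hdeg.neg_one_pow
  rw [h2, hoddp.neg_one_pow] at h1
  norm_num at h1

section Inverter

variable (H : Cfsg.Agent.Lib.TICent.Hyp p P C r e₀) (hZ : ∀ c : ↥C, r c = 1 → ∀ g : G, (c : G) * g = g * c)
  (hoddK : ∀ z : ↥C, r z = 1 → z * z = 1 → z = 1) (hcard : Nat.card P = p) (hp2 : p ≠ 2)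
  (hN : Nat.card (normalizer (P : Set G)) = Nat.card C * 2)
include H hcard hp2 hN

/-- Elements of `N(P)` outside `C` invert `P`. -/
theorem inverts_of_not_C {x : G} (hx : x ∈ normalizer (P : Set G)) (hxC : x ∉ C) {y : G} (hy : y ∈ P) : x * y * x⁻¹ = y⁻¹ := by
  have hxx : x * x ∈ C := mul_mem_C H hcard hN hx hxC hx hxC
  have hxy : x * y * x⁻¹ ∈ P := (mem_normalizer_iff.1 hx y).1 hy
  obtain ⟨y', hy'⟩ : ∃ y', y' = y * (x * y * x⁻¹) := ⟨_, rfl⟩
  have hy'P : y' ∈ P := by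
    rw [hy']
    exact P.mul_mem hy hxy
  have hcomm : (x * x) * y = y * (x * x) := H.comm hy hxx
  have hfix : x * y' * x⁻¹ = y' := by
    rw [hy']
    calc x * (y * (x * y * x⁻¹)) * x⁻¹ = (x * y * x⁻¹) * ((x * x) * y * (x * x)⁻¹) := by group
      _ = (x * y * x⁻¹) * y := by rw [hcomm]; group
      _ = y * (x * y * x⁻¹) := H.comm_P hy hxy
  by_contra hne
  have hy'1 : y' ≠ 1 := by
    intro h1
    apply hne
    rw [hy'] at h1
    exact eq_inv_of_mul_eq_one_right h1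
  apply hxC
  rw [← H.star y' hy'P hy'1, mem_centralizer_iff]
  intro c hc
  rw [Set.mem_singleton_iff] at hc
  rw [hc]
  nth_rw 1 [← hfix]
  group

include hZ hoddK

theorem C_invol {c : ↥C} (hc : c * c = 1) : c = 1 := by
  obtain ⟨y, z, hz, rfl⟩ := exists_decomp H hZ c
  have hcomm := comm_C H hZ
  have h1 : r (H.inP y * z * (H.inP y * z)) = y * y := by
    rw [map_mul, map_mul, H.r_inP, hz, mul_one]
  rw [hc, map_one] at h1
  have hy : y = 1 := by
    by_contra hne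
    apply mul_self_ne H hcard hp2 y.2 (fun h => hne (Subtype.ext h))
    have := congrArg Subtype.val h1.symm
    simpa using this
  rw [hy] at hc ⊢
  have h2 : H.inP (1 : ↥P) = 1 := Subtype.ext rfl
  rw [h2, one_mul] at hc ⊢
  exact hoddK z hz hc

theorem C_two {s : ℕ} {c : ↥C} (hc : c ^ 2 ^ s = 1) : c = 1 := by
  induction s with
  | zero => simpa using hc
  | succ s ih =>
    apply ih
    apply C_invol H hZ hoddK hcard hp2 hN
    rw [← pow_two, ← pow_mul, ← pow_succ]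
    exact hc

/-- An involution inverting `P` exists. -/
theorem exists_inverter : ∃ u : G, u * u = 1 ∧ ∀ y ∈ P, u * y * u⁻¹ = y⁻¹ := by
  classical
  obtain ⟨τ, hτ, hτC⟩ : ∃ τ ∈ normalizer (P : Set G), τ ∉ C := by
    by_contra hcon
    push Not at hcon
    have h1 : Nat.card (normalizer (P : Set G)) ≤ Nat.card C := Subgroup.card_le_of_le hcon
    have h2 : 0 < Nat.card C := Nat.card_pos
    omega
  obtain ⟨s, m, hm, hord⟩ := Nat.exists_eq_two_pow_mul_odd (orderOf_pos τ).ne'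
  obtain ⟨k, hk⟩ := hm
  have hττ : τ * τ ∈ C := mul_mem_C H hcard hN hτ hτC hτ hτC
  have hpow : τ ^ m = τ * (τ * τ) ^ k := by
    rw [hk, pow_succ', pow_mul, pow_two]
  have hτm : τ ^ m ∉ C := by
    intro h1
    apply hτC
    have h2 : τ = τ ^ m * ((τ * τ) ^ k)⁻¹ := by
      rw [hpow]
      group
    rw [h2]
    exact C.mul_mem h1 (C.inv_mem (pow_mem hττ k))
  have hτmN : τ ^ m ∈ normalizer (P : Set G) := pow_mem hτ m
  refine ⟨τ ^ m, ?_, fun y hy => inverts_of_not_C H hcard hp2 hN hτmN hτm hy⟩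
  have h1 : τ ^ m * τ ^ m ∈ C := mul_mem_C H hcard hN hτmN hτm hτmN hτm
  have h2 : (⟨τ ^ m * τ ^ m, h1⟩ : ↥C) ^ 2 ^ s = 1 := by
    apply Subtype.ext
    simp only [SubmonoidClass.mk_pow, Subgroup.coe_one]
    rw [← pow_add, ← pow_mul, show (m + m) * 2 ^ s = 2 * (2 ^ s * m) by ring, ← hord, pow_mul', pow_orderOf_eq_one, one_pow]
  have h3 := C_two H hZ hoddK hcard hp2 hN h2
  exact congrArg Subtype.val h3

end Inverter

end Cfsg.Agent.Lib.Pm2J
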