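import Mathlib
import Cfsg.Agent.Lib.Pm2J
import Cfsg.Agent.Lib.CTSL71
import Cfsg.Agent.Lib.ClassicalSmall
import Cfsg.Agent.Lib.RigO
import Cfsg.Agent.Lib.TICentMain
import Cfsg.Agent.Lib.RangeP0

/-!
# The core: `G` generated by the conjugates of `P`
-/

set_option autoImplicit false
set_option linter.unusedVariables false
set_option linter.unusedSectionVars false
set_option linter.style.haveILetI false

namespace Cfsg.Agent.Lib.Pm2K

open Subgroup Cfsg Cfsg.Agent.Lib.CharBasic Cfsg.Agent.Lib.DefOneC Cfsg.Agent.Lib.DefOneE Cfsg.Agent.Lib.DefOneG Cfsg.Agent.Lib.DefOneH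
open Cfsg.Agent.Lib.DefectOne Cfsg.Agent.Lib.BlkBasic Cfsg.Agent.Lib.TICent Cfsg.Agent.Lib.DefOneF Cfsg.Agent.Lib.Pm2B Cfsg.Agent.Lib.Pm2C
open Cfsg.Agent.Lib.Pm2A Cfsg.Agent.Lib.Pm2D Cfsg.Agent.Lib.Pm2E Cfsg.Agent.Lib.Pm2F Cfsg.Agent.Lib.Pm2G Cfsg.Agent.Lib.Pm2H Cfsg.Agent.Lib.Pm2I Cfsg.Agent.Lib.Pm2J
open scoped ComplexConjugate commutatorElement

variable {G : Type*} [Group G] [Fintype G] [DecidableEq G] {p : ℕ}

/-- The local analysis in any group. -/
theorem local_any [Fact p.Prime] (hp5 : 5 < p) (S : Sylow p G) [Fintype (S : Subgroup G)] (hS : Nat.card S = p) (hnn : ¬ (S : Subgroup G).Normal)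
    (ζ : IrrCharacter G) (hfaith : ∀ g : G, (ζ : G → ℂ) g = (ζ : G → ℂ) 1 → g = 1)
    (hdeg : charDegree (ζ : G → ℂ) = p - 2) :
    Nat.card (normalizer ((S : Subgroup G) : Set G)) = Nat.card (centralizer ((S : Subgroup G) : Set G)) * 2 ∧
      (∀ c ∈ centralizer ((S : Subgroup G) : Set G), ∃ y ∈ (S : Subgroup G), ∃ z : G, (∀ g : G, z * g = g * z) ∧ c = y * z) ∧
      ∑ y : (S : Subgroup G), (ζ : G → ℂ) y = (p : ℂ) ∧
      (∀ x ∈ normalizer ((S : Subgroup G) : Set G), x ∉ centralizer ((S : Subgroup G) : Set G) →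
        ∀ y ∈ normalizer ((S : Subgroup G) : Set G), y ∉ centralizer ((S : Subgroup G) : Set G) → x * y ∈ centralizer ((S : Subgroup G) : Set G)) ∧
      (∀ u : G, (∀ y ∈ (S : Subgroup G), u * y * u⁻¹ = y⁻¹) → u ∈ normalizer ((S : Subgroup G) : Set G) ∧ u ∉ centralizer ((S : Subgroup G) : Set G)) := by
  classical
  have hpp : p.Prime := Fact.out
  have hcard : Nat.card (S : Subgroup G) = p := hS
  have hidx : ¬ p ∣ (S : Subgroup G).index := S.not_dvd_index
  obtain ⟨r, e₀, H⟩ := exists_hyp p hpp S (fun x hx hx1 => Cfsg.Agent.Lib.RangeP0.star_of_prime hpp hcard x hx hx1) (by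
    rw [hcard]
    exact hpp.one_lt)
  letI : Fintype (centralizer ((S : Subgroup G) : Set G)) := Fintype.ofFinite _
  letI : Fintype r.ker := Fintype.ofFinite _
  have hc : ∀ u ∈ (S : Subgroup G), ∀ v ∈ (S : Subgroup G), u * v = v * u := fun u hu v hv => (H.comm_P hu hv).symm
  haveI : Finite (↥(S : Subgroup G) →* ℂˣ) := dual_finite hc
  letI : Fintype (↥(S : Subgroup G) →* ℂˣ) := Fintype.ofFinite _
  letI : Fintype (NT (S : Subgroup G)) := Fintype.ofFinite _
  letI : Fintype (Th (S : Subgroup G) (centralizer ((S : Subgroup G) : Set G))) := Fintype.ofFinite _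
  have hex : ∀ (θ : IrrCharacter (centralizer ((S : Subgroup G) : Set G))) (f : ↥(S : Subgroup G) →* ℂˣ) (χ : IrrCharacter G),
      ∃ n : ℕ, classInner (tw r f θ) (fun c : ↥(centralizer ((S : Subgroup G) : Set G)) => (χ : G → ℂ) c) = n :=
    fun θ f χ => classInner_char_char (IsIrrCharacter.isCharacter (isIrr_tw f θ.2))
      (isCharacter_restrict _ (IsIrrCharacter.isCharacter χ.2))
  choose a ha using hex
  obtain ⟨hN, θ₀, T, f₀, hd1, hζξ, hσ, ha1, hoth⟩ := loc H hcard hidx hp5 hnn ζ hfaith hdeg ha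
  have hZ : ∀ c : ↥(centralizer ((S : Subgroup G) : Set G)), r c = 1 → ∀ g : G, (c : G) * g = g * c :=
    fun c hc g => central_K H ha ζ hfaith hd1 hoth c hc g
  refine ⟨hN, ?_, ?_, fun x hx hxC y hy hyC => mul_mem_C H hcard hN hx hxC hy hyC, ?_⟩
  · intro c hc
    obtain ⟨y, z, hz, hcz⟩ := exists_decomp H hZ ⟨c, hc⟩
    refine ⟨y, y.2, z, hZ z hz, ?_⟩
    have h2 : c = ((H.inP y * z : ↥(centralizer ((S : Subgroup G) : Set G))) : G) := congrArg Subtype.val hcz
    rw [h2]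
    rfl
  · have h1 := sum_P H hZ ha (θ := θ₀) (f₁ := 1) (χ := ζ) (by rw [ha1]; norm_num)
    rw [h1, ha1, hcard]
    simp
  · intro u hu
    haveI : Nontrivial (S : Subgroup G) := by
      rw [← Finite.one_lt_card_iff_nontrivial, hcard]
      exact hpp.one_lt
    obtain ⟨y₀, hy₀⟩ := exists_ne (1 : ↥(S : Subgroup G))
    have hy₀' : (y₀ : G) ≠ 1 := fun h => hy₀ (Subtype.ext h)
    exact ⟨mem_N_of_inverts H hcard y₀.2 hy₀' (hu _ y₀.2), not_mem_C_of_inverts H hcard (by omega) y₀.2 hy₀' (hu _ y₀.2)⟩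

/-- **The core.** -/
theorem core [Fact p.Prime] (hp5 : 5 < p) (S : Sylow p G) (hS : Nat.card S = p) (hnn : ¬ (S : Subgroup G).Normal)
    (ζ : IrrCharacter G) (hfaith : ∀ g : G, (ζ : G → ℂ) g = (ζ : G → ℂ) 1 → g = 1)
    (hdeg : charDegree (ζ : G → ℂ) = p - 2) (hnc : normalClosure ((S : Subgroup G) : Set G) = ⊤) :
    Nat.card G = p * (p - 1) * (p - 2) ∧ p - 1 = 2 ^ (Nat.card G).factorization 2 ∧
      centralizer ((S : Subgroup G) : Set G) = S ∧
      Nat.card (normalizer ((S : Subgroup G) : Set G)) = p * 2 ∧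
      ∃ u : G, u * u = 1 ∧ ∀ y ∈ (S : Subgroup G), u * y * u⁻¹ = y⁻¹ := by
  have hpp : p.Prime := Fact.out
  have hcard : Nat.card (S : Subgroup G) = p := hS
  have hidx : ¬ p ∣ (S : Subgroup G).index := S.not_dvd_index
  obtain ⟨r, e₀, H⟩ := exists_hyp p hpp S (fun x hx hx1 => Cfsg.Agent.Lib.RangeP0.star_of_prime hpp hcard x hx hx1) (by
    rw [hcard]
    exact hpp.one_lt)
  letI : Fintype (S : Subgroup G) := Fintype.ofFinite _
  letI : Fintype (centralizer ((S : Subgroup G) : Set G)) := Fintype.ofFinite _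
  letI : Fintype r.ker := Fintype.ofFinite _
  have hc : ∀ u ∈ (S : Subgroup G), ∀ v ∈ (S : Subgroup G), u * v = v * u := fun u hu v hv => (H.comm_P hu hv).symm
  haveI : Finite (↥(S : Subgroup G) →* ℂˣ) := dual_finite hc
  letI : Fintype (↥(S : Subgroup G) →* ℂˣ) := Fintype.ofFinite _
  letI : Fintype (NT (S : Subgroup G)) := Fintype.ofFinite _
  letI : Fintype (Th (S : Subgroup G) (centralizer ((S : Subgroup G) : Set G))) := Fintype.ofFinite _
  have hex : ∀ (θ : IrrCharacter (centralizer ((S : Subgroup G) : Set G))) (f : ↥(S : Subgroup G) →* ℂˣ) (χ : IrrCharacter G),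
      ∃ n : ℕ, classInner (tw r f θ) (fun c : ↥(centralizer ((S : Subgroup G) : Set G)) => (χ : G → ℂ) c) = n :=
    fun θ f χ => classInner_char_char (IsIrrCharacter.isCharacter (isIrr_tw f θ.2))
      (isCharacter_restrict _ (IsIrrCharacter.isCharacter χ.2))
  choose a ha using hex
  obtain ⟨hN, θ₀, T, f₀, hd1, hζξ, hσ, ha1, hoth⟩ := loc H hcard hidx hp5 hnn ζ hfaith hdeg ha
  have hZ : ∀ c : ↥(centralizer ((S : Subgroup G) : Set G)), r c = 1 → ∀ g : G, (c : G) * g = g * c :=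
    fun c hc g => central_K H ha ζ hfaith hd1 hoth c hc g
  have hoddp : Odd p := hpp.odd_of_ne_two (by omega)
  have hdodd : Odd (charDegree (ζ : G → ℂ)) := by
    rw [hdeg]
    obtain ⟨k, hk⟩ := hoddp
    exact ⟨k - 1, by omega⟩
  have hoddK : ∀ z : ↥(centralizer ((S : Subgroup G) : Set G)), r z = 1 → z * z = 1 → z = 1 := by
    intro z hz hzz
    apply Subtype.ext
    exact no_central_invol hcard hoddp hnc ζ hfaith hdodd (hZ z hz) (congrArg Subtype.val hzz)
  have hp2 : p ≠ 2 := by omega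
  obtain ⟨u, hu, hinv⟩ := exists_inverter H hZ hoddK hcard hp2 hN
  have hp7 : 7 ≤ p := by
    obtain ⟨k, hk⟩ := hoddp
    omega
  rw [hζξ] at hfaith hdeg
  obtain ⟨hCP, ψ, hdψ, hψP, hψreg, hcount, hrow⟩ :=
    stage2 H hZ ha hcard T hu hinv hoddK hN hoddp hidx hp7 hnc f₀ hσ (by rw [← hζξ]; exact ha1) hdeg hfaith
  have hCeq : centralizer ((S : Subgroup G) : Set G) = S := le_antisymm (fun c hc => hCP ⟨c, hc⟩) H.le
  have hS3 : Ctx p (S : Subgroup G) (centralizer ((S : Subgroup G) : Set G)) r e₀ (T.ξ f₀) ψ u :=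
    ⟨H, hZ, hoddK, hN, hcard, hidx, hp7, hoddp, hu, hinv, hCP, hfaith, hdeg, hdψ, hψP, hψreg, hcount, hrow⟩
  obtain ⟨h1, h2⟩ := stage3 hS3
  refine ⟨h1, h2, hCeq, ?_, u, hu, hinv⟩
  rw [hN, hCeq, hcard]

/-- Recognition. -/
theorem recog [Fact p.Prime] (hp5 : 5 < p) (S : Sylow p G) (hS : Nat.card S = p) (hnn : ¬ (S : Subgroup G).Normal)
    (ζ : IrrCharacter G) (hfaith : ∀ g : G, (ζ : G → ℂ) g = (ζ : G → ℂ) 1 → g = 1)
    (hdeg : charDegree (ζ : G → ℂ) = p - 2) (hnc : normalClosure ((S : Subgroup G) : Set G) = ⊤) :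
    ∃ (m : ℕ) (F : Type) (_ : Field F) (_ : Fintype F), Fintype.card F = 2 ^ m ∧ p = 2 ^ m + 1 ∧
      Nonempty (G ≃* Matrix.SpecialLinearGroup (Fin 2) F) := by
  classical
  have hpp : p.Prime := Fact.out
  obtain ⟨hG, h2, hC, hNc, u, hu, hinv⟩ := core hp5 S hS hnn ζ hfaith hdeg hnc
  have hcard : Nat.card (S : Subgroup G) = p := hS
  have hidx : ¬ p ∣ (S : Subgroup G).index := S.not_dvd_index
  have hoddp : Odd p := hpp.odd_of_ne_two (by omega)
  obtain ⟨k, hk⟩ := hoddp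
  have hperf : _root_.commutator G = ⊤ := by
    rw [eq_top_iff, ← hnc]
    apply normalClosure_le_normal
    intro y hy
    have hy' : y ∈ (S : Subgroup G) := hy
    have h3 : y ^ p = 1 := by
      have h4 : (⟨y, hy'⟩ : ↥(S : Subgroup G)) ^ Nat.card (S : Subgroup G) = 1 := pow_card_eq_one'
      rw [hcard] at h4
      have := congrArg Subtype.val h4
      simpa using this
    have hw : y ^ (k + 1) ∈ (S : Subgroup G) := pow_mem hy' _
    have h4 := hinv _ ((S : Subgroup G).inv_mem hw)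
    rw [inv_inv] at h4
    have hww : y ^ (k + 1) * y ^ (k + 1) = y := by
      rw [← pow_add, show k + 1 + (k + 1) = p + 1 by omega, pow_succ, h3, one_mul]
    have h5 : ⁅y ^ (k + 1), u⁆ = y := by
      rw [commutatorElement_def, mul_assoc, mul_assoc, ← mul_assoc u, h4, hww]
    rw [SetLike.mem_coe, ← h5]
    exact Subgroup.commutator_mem_commutator (Subgroup.mem_top _) (Subgroup.mem_top _)
  have hk3 : 3 ≤ k := by omega
  obtain ⟨k', rfl⟩ : ∃ k', k = k' + 1 := ⟨k - 1, by omega⟩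
  have hn : (normalizer ((S : Subgroup G) : Set G)).index = 1 + k' * p := by
    have h3 := Subgroup.index_mul_card (normalizer ((S : Subgroup G) : Set G))
    rw [hNc, hG] at h3
    have h4 : (p * 2) * (normalizer ((S : Subgroup G) : Set G)).index = (p * 2) * (1 + k' * p) := by
      rw [mul_comm, h3, hk]
      have h5 : 2 * (k' + 1) + 1 - 1 = 2 * (k' + 1) := by omega
      have h6 : 2 * (k' + 1) + 1 - 2 = 2 * k' + 1 := by omega
      rw [h5, h6]
      ring
    exact Nat.eq_of_mul_eq_mul_left (by omega) h4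
  rcases Cfsg.Agent.Lib.RigO.rigid_main hperf (S : Subgroup G) hcard hidx hC hn (Cfsg.Agent.Lib.RigO.altFail_of_small (by omega)) with
    ⟨F, hF, hFt, hFc, -, ⟨e⟩⟩ | ⟨m, F, hF, hFt, hFc, hpm, -, ⟨e⟩⟩
  · exfalso
    have h3 := Cfsg.Agent.Lib.ClassicalSmall.card_PSL2 (F := F)
    rw [← Nat.card_congr e.toEquiv, hFc, hG] at h3
    have h4 : Nat.gcd 2 (p - 1) = 2 := by
      apply Nat.gcd_eq_left
      exact ⟨k' + 1, by omega⟩
    rw [h4] at h3
    have h5 : p * (p - 1) * (2 * (p - 2)) = p * (p - 1) * (p + 1) := by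
      calc p * (p - 1) * (2 * (p - 2)) = 2 * (p * (p - 1) * (p - 2)) := by ring
        _ = (p + 1) * p * (p - 1) := h3
        _ = _ := by ring
    have h6 := Nat.eq_of_mul_eq_mul_left (Nat.mul_pos (by omega) (by omega)) h5
    omega
  · have hchar : CharP F 2 := by
      obtain ⟨q, hq⟩ := CharP.exists F
      obtain ⟨n, hqp, hn'⟩ := FiniteField.card F q
      have h3 : q ∣ 2 ^ m := by
        rw [← hFc, hn']
        exact dvd_pow_self q n.pos.ne'
      have h4 : q = 2 := (Nat.prime_dvd_prime_iff_eq hqp Nat.prime_two).1 (hqp.dvd_of_dvd_pow h3)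
      rw [h4] at hq
      exact hq
    exact ⟨m, F, hF, hFt, hFc, hpm, ⟨e.trans Cfsg.Agent.Lib.CTSL71.pslEquiv⟩⟩

end Cfsg.Agent.Lib.Pm2K
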