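import Mathlib
import Cfsg.Agent.Lib.Pm2K
import Cfsg.Agent.Lib.CharClifford

/-!
# The restriction of `ζ` to the normal closure of `P` is irreducible
-/

set_option autoImplicit false
set_option linter.unusedVariables false
set_option linter.unusedSectionVars false
set_option linter.style.haveILetI false

namespace Cfsg.Agent.Lib.Pm2L

open Subgroup Cfsg Cfsg.Agent.Lib.CharBasic Cfsg.Agent.Lib.DefectOne Cfsg.Agent.Lib.CharInduction Cfsg.Agent.Lib.CharClifford
open scoped ComplexConjugate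

variable {G : Type*} [Group G] [Fintype G]

/-- If the trivial character of `P` occurs once in `θ` and `G = N N_G(P)`, then `θ` stays irreducible on `N`. -/
theorem irr_restrict (N : Subgroup G) (hN : N.Normal) [Fintype N] (P : Subgroup G) (hPN : P ≤ N) [Fintype ↥(P.subgroupOf N)]
    {θ : G → ℂ} (hθ : IsIrrCharacter G θ)
    (hsum : ∑ y : ↥(P.subgroupOf N), θ ((y : N) : G) = (Nat.card ↥(P.subgroupOf N) : ℂ))
    (hfr : ∀ g : G, ∃ n ∈ N, ∃ x ∈ normalizer (P : Set G), g = n * x) :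
    IsIrrCharacter N (fun n : N => θ n) := by
  classical
  have hs0 : (Nat.card ↥(P.subgroupOf N) : ℂ) ≠ 0 := by
    exact_mod_cast Nat.card_pos.ne'
  obtain ⟨R, hR⟩ : ∃ R : N → ℂ, R = fun n : N => θ n := ⟨_, rfl⟩
  rw [← hR]
  have hRc : IsCharacter N R := by
    rw [hR]
    exact isCharacter_restrict N (IsIrrCharacter.isCharacter hθ)
  have hRcl : IsClassFunction N R := isClassFunction_of_isCharacter hRc
  have hsum' : ∑ y : ↥(P.subgroupOf N), R (y : N) = (Nat.card ↥(P.subgroupOf N) : ℂ) := by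
    rw [hR]
    exact hsum
  have hdec : ∀ n : N, R n = ∑ χ : IrrCharacter N, classInner R χ * (χ : N → ℂ) n := fun n => eval_eq_sum hRcl n
  have h1 : ∑ y : ↥(P.subgroupOf N), R (y : N) =
      ∑ χ : IrrCharacter N, classInner R χ * ∑ y : ↥(P.subgroupOf N), (χ : N → ℂ) (y : N) := by
    simp_rw [hdec, Finset.mul_sum]
    rw [Finset.sum_comm]
  obtain ⟨χ, h2, h3⟩ : ∃ χ : IrrCharacter N, classInner R χ ≠ 0 ∧ ∑ y : ↥(P.subgroupOf N), (χ : N → ℂ) (y : N) ≠ 0 := by
    by_contra hcon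
    push Not at hcon
    apply hs0
    rw [← hsum', h1]
    refine Finset.sum_eq_zero fun χ _ => ?_
    by_cases h : classInner R χ = 0
    · rw [h, zero_mul]
    · rw [hcon χ h, mul_zero]
  have h2' : classInner (fun n : N => θ n) χ ≠ 0 := by
    rw [← hR]
    exact h2
  have hcl := restrict_eq_smul_sum N hN hθ χ.2 h2'
  rw [← hR] at hcl
  obtain ⟨e, he⟩ := classInner_char_irr hRc χ.2
  obtain ⟨O, hO⟩ : ∃ O : Finset (N → ℂ), O = Finset.univ.image (fun g : G => conjBy N hN g χ) := ⟨_, rfl⟩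
  rw [← hO] at hcl
  -- all the members of the orbit have the same sum
  have hS : ∀ ψ ∈ O, ∑ y : ↥(P.subgroupOf N), ψ (y : N) = ∑ y : ↥(P.subgroupOf N), (χ : N → ℂ) (y : N) := by
    intro ψ hψ
    rw [hO] at hψ
    obtain ⟨g, -, rfl⟩ := Finset.mem_image.1 hψ
    obtain ⟨n, hn, x, hx, rfl⟩ := hfr g
    have hmem : ∀ y : ↥(P.subgroupOf N), x * ((y : N) : G) * x⁻¹ ∈ P := fun y => (mem_normalizer_iff.1 hx _).1 y.2
    refine Fintype.sum_bijective (fun y : ↥(P.subgroupOf N) => (⟨⟨x * ((y : N) : G) * x⁻¹, hPN (hmem y)⟩, hmem y⟩ : ↥(P.subgroupOf N))) ?_ _ _ ?_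
    · apply Finite.injective_iff_bijective.1
      intro y y' hyy
      have h5 : x * ((y : N) : G) * x⁻¹ = x * ((y' : N) : G) * x⁻¹ := by
        have := congrArg (fun t : ↥(P.subgroupOf N) => ((t : N) : G)) hyy
        simpa using this
      have h6 : ((y : N) : G) = ((y' : N) : G) := mul_left_cancel (mul_right_cancel h5)
      exact Subtype.ext (Subtype.ext h6)
    · intro y
      rw [conjBy_apply]
      have h5 := isClassFunction_of_isCharacter (IsIrrCharacter.isCharacter χ.2)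
        (⟨x * ((y : N) : G) * x⁻¹, hPN (hmem y)⟩ : N) ⟨n, hn⟩
      rw [← h5]
      refine congrArg (χ : N → ℂ) (Subtype.ext ?_)
      simp only [Subgroup.coe_mul, Subgroup.coe_inv, mul_inv_rev]
      group
  have h4 : ∑ y : ↥(P.subgroupOf N), R (y : N) = classInner R χ * ((O.card : ℂ) * ∑ y : ↥(P.subgroupOf N), (χ : N → ℂ) (y : N)) := by
    have h5 : ∀ y : ↥(P.subgroupOf N), R (y : N) = classInner R χ * ∑ ψ ∈ O, ψ (y : N) := by
      intro y
      have := congrFun hcl (y : N)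
      rw [Pi.smul_apply, Finset.sum_apply, smul_eq_mul] at this
      exact this
    simp_rw [h5]
    rw [← Finset.mul_sum, Finset.sum_comm, Finset.sum_congr rfl hS, Finset.sum_const, nsmul_eq_mul]
  obtain ⟨n, hn⟩ := classInner_char_irr (isCharacter_restrict (P.subgroupOf N) (IsIrrCharacter.isCharacter χ.2))
    (isIrrCharacter_one (G := ↥(P.subgroupOf N)))
  have h6 : ∑ y : ↥(P.subgroupOf N), (χ : N → ℂ) (y : N) = (Nat.card ↥(P.subgroupOf N) : ℂ) * n := by
    unfold classInner at hn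
    rw [← hn, ← mul_assoc, mul_inv_cancel₀ hs0, one_mul]
    simp
  rw [hsum', h6, he] at h4
  have h7 : (1 : ℂ) = (e : ℂ) * ((O.card : ℂ) * n) := by
    apply mul_right_cancel₀ hs0
    rw [one_mul]
    nth_rw 1 [h4]
    ring
  have h8 : 1 = e * (O.card * n) := by exact_mod_cast h7
  have he1 : e = 1 := Nat.eq_one_of_mul_eq_one_right h8.symm
  have hO1 : O.card = 1 := by
    rw [he1, one_mul] at h8
    exact Nat.eq_one_of_mul_eq_one_right h8.symm
  have hχO : (χ : N → ℂ) ∈ O := by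
    rw [hO]
    refine Finset.mem_image.2 ⟨1, Finset.mem_univ _, ?_⟩
    funext m
    rw [conjBy_apply]
    refine congrArg (χ : N → ℂ) (Subtype.ext ?_)
    simp
  obtain ⟨a, ha⟩ := Finset.card_eq_one.1 hO1
  rw [ha, Finset.mem_singleton] at hχO
  rw [ha, he, he1, Finset.sum_singleton, ← hχO] at hcl
  rw [hcl]
  simpa using χ.2

end Cfsg.Agent.Lib.Pm2L
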