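import Mathlib
import Cfsg.Agent.Lib.Pm2L

/-!
# Main theorem: a faithful irreducible character of degree `p - 2`
-/

set_option autoImplicit false
set_option linter.unusedVariables false
set_option linter.unusedSectionVars false
set_option linter.style.haveILetI false

namespace Cfsg.Agent.Lib.Pm2M

open Subgroup Cfsg Cfsg.Agent.Lib.CharBasic Cfsg.Agent.Lib.Pm2K Cfsg.Agent.Lib.Pm2L

/-- **Main theorem.** -/
theorem main {G : Type*} [Group G] [Finite G] (p : ℕ) [hpF : Fact p.Prime] (hp : 5 < p) (P : Sylow p G) (hP : Nat.card P = p)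
    (hnn : ¬ (P : Subgroup G).Normal) (ζ : G → ℂ) (hζ : Cfsg.IsIrrCharacter G ζ) (hfaith : ∀ g : G, ζ g = ζ 1 → g = 1)
    (hdeg : Cfsg.charDegree ζ = p - 2) :
    ∃ (a : ℕ) (F : Type) (_ : Field F) (_ : Fintype F), p = 2 ^ a + 1 ∧ Fintype.card F = 2 ^ a ∧
      Nonempty (G ≃* Matrix.SpecialLinearGroup (Fin 2) F × Subgroup.center G) := by
  classical
  letI : Fintype G := Fintype.ofFinite G
  letI : Fintype (P : Subgroup G) := Fintype.ofFinite _
  have hpp : p.Prime := hpF.out
  have hcard : Nat.card (P : Subgroup G) = p := hP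
  obtain ⟨hN_G, hdec, hsum, hmulC, hinvNC⟩ := local_any hp P hP hnn ⟨ζ, hζ⟩ hfaith hdeg
  simp only at hsum
  -- the normal closure
  obtain ⟨N, hNdef⟩ : ∃ N : Subgroup G, N = normalClosure ((P : Subgroup G) : Set G) := ⟨_, rfl⟩
  haveI hNn : N.Normal := by
    rw [hNdef]
    infer_instance
  have hPN : (P : Subgroup G) ≤ N := by
    rw [hNdef]
    exact fun y hy => subset_normalClosure hy
  letI : Fintype N := Fintype.ofFinite _
  -- Frattini
  have hfr : ∀ g : G, ∃ n ∈ N, ∃ x ∈ normalizer ((P : Subgroup G) : Set G), g = n * x := by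
    intro g
    have h1 : N ⊔ normalizer ((P : Subgroup G) : Set G) = ⊤ := by
      rw [sup_comm]
      exact Sylow.normalizer_sup_eq_top' P hPN
    have h2 : g ∈ ((N ⊔ normalizer ((P : Subgroup G) : Set G) : Subgroup G) : Set G) := by
      rw [h1]
      exact Subgroup.mem_top g
    rw [Subgroup.normal_mul] at h2
    obtain ⟨n, hn, x, hx, rfl⟩ := Set.mem_mul.1 h2
    exact ⟨n, hn, x, hx, rfl⟩
  -- `P` in `N`
  obtain ⟨S, hS⟩ : ∃ S : Sylow p N, (S : Subgroup N) = (P : Subgroup G).subgroupOf N := ⟨P.subtype hPN, rfl⟩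
  letI : Fintype ↥((P : Subgroup G).subgroupOf N) := Fintype.ofFinite _
  have hcS : Nat.card ↥((P : Subgroup G).subgroupOf N) = p := by
    exact (Nat.card_congr (Subgroup.subgroupOfEquivOfLe hPN).toEquiv).trans hcard
  have hcS' : Nat.card S = p := by
    show Nat.card (S : Subgroup N) = p
    rw [hS]
    exact hcS
  have hsum' : ∑ y : ↥((P : Subgroup G).subgroupOf N), ζ ((y : N) : G) = (Nat.card ↥((P : Subgroup G).subgroupOf N) : ℂ) := by
    rw [hcS, ← hsum]
    exact Fintype.sum_equiv (Subgroup.subgroupOfEquivOfLe hPN).toEquiv _ _ (fun y => rfl)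
  have hirr := irr_restrict N hNn (P : Subgroup G) hPN hζ hsum' hfr
  -- the normal closure in `N`
  have hnc : normalClosure ((S : Subgroup N) : Set N) = ⊤ := by
    obtain ⟨K, hK⟩ : ∃ K : Subgroup N, K = normalClosure ((S : Subgroup N) : Set N) := ⟨_, rfl⟩
    rw [← hK]
    haveI hKn : K.Normal := by
      rw [hK]
      infer_instance
    have hSK : (P : Subgroup G).subgroupOf N ≤ K := by
      rw [hK, hS]
      exact fun y hy => subset_normalClosure hy
    have hle : N ≤ K.map N.subtype := by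
      conv_lhs => rw [hNdef]
      unfold normalClosure
      rw [closure_le]
      intro x hx
      obtain ⟨a, ha, hax⟩ := Group.mem_conjugatesOfSet_iff.1 hx
      obtain ⟨c, rfl⟩ := isConj_iff.1 hax
      obtain ⟨n, hn, w, hw, rfl⟩ := hfr c
      have hwa : w * a * w⁻¹ ∈ (P : Subgroup G) := (mem_normalizer_iff.1 hw a).1 ha
      have h1 : (⟨w * a * w⁻¹, hPN hwa⟩ : N) ∈ K := hSK hwa
      have h2 := hKn.conj_mem _ h1 ⟨n, hn⟩
      refine ⟨_, h2, ?_⟩
      simp only [subtype_apply, Subgroup.coe_mul, Subgroup.coe_inv, mul_inv_rev]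
      group
    rw [eq_top_iff]
    intro n _
    obtain ⟨m, hm, hmn⟩ := hle n.2
    have : m = n := Subtype.ext hmn
    rwa [← this]
  have hnnS : ¬ (S : Subgroup N).Normal := by
    intro h
    apply hnn
    have h1 : (S : Subgroup N) = ⊤ := by
      rw [← hnc, normalClosure_eq_self]
    rw [hS, Subgroup.subgroupOf_eq_top] at h1
    have h2 : (P : Subgroup G) = N := le_antisymm hPN h1
    rw [h2]
    exact hNn
  have hfaithN : ∀ g : N, ((⟨fun n : N => ζ n, hirr⟩ : IrrCharacter N) : N → ℂ) g = ((⟨fun n : N => ζ n, hirr⟩ : IrrCharacter N) : N → ℂ) 1 → g = 1 := by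
    intro g hg
    apply Subtype.ext
    exact hfaith _ hg
  have hdegN : charDegree ((⟨fun n : N => ζ n, hirr⟩ : IrrCharacter N) : N → ℂ) = p - 2 := hdeg
  obtain ⟨m, F, hF, hFt, hFc, hpm, ⟨e⟩⟩ := recog hp S hcS' hnnS ⟨fun n : N => ζ n, hirr⟩ hfaithN hdegN hnc
  obtain ⟨-, -, hCN, -, u, hu, hinv⟩ := core hp S hcS' hnnS ⟨fun n : N => ζ n, hirr⟩ hfaithN hdegN hnc
  have hmemS : ∀ (y : G) (hy : y ∈ (P : Subgroup G)), (⟨y, hPN hy⟩ : N) ∈ (S : Subgroup N) := by
    intro y hy
    rw [hS]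
    exact hy
  have hinvG : ∀ y ∈ (P : Subgroup G), (u : G) * y * (u : G)⁻¹ = y⁻¹ := by
    intro y hy
    have h1 := hinv _ (hmemS y hy)
    have := congrArg Subtype.val h1
    simpa using this
  obtain ⟨huN, huC⟩ := hinvNC u hinvG
  -- `N ∩ Z(G) = 1`
  have hZN : ∀ z ∈ N, (∀ g : G, z * g = g * z) → z = 1 := by
    intro z hzN hz
    have h1 : (⟨z, hzN⟩ : N) ∈ centralizer ((S : Subgroup N) : Set N) := by
      rw [mem_centralizer_iff]
      intro h _
      apply Subtype.ext
      exact (hz _).symm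
    rw [hCN, hS] at h1
    have hzP : z ∈ (P : Subgroup G) := h1
    by_contra hz1
    apply hnn
    have hzz := Cfsg.Agent.Lib.SmallGroups2.zpowers_eq_of_mem_of_ne_one hpp hcard hzP hz1
    refine ⟨fun y hy g => ?_⟩
    rw [← hzz] at hy
    obtain ⟨i, rfl⟩ := Subgroup.mem_zpowers_iff.1 hy
    have h2 : Commute (z ^ i) g := ((show Commute z g from hz g).zpow_left i)
    rw [← h2.eq, mul_inv_cancel_right, ← hzz]
    exact Subgroup.mem_zpowers_iff.2 ⟨i, rfl⟩
  -- `G = N Z(G)`
  have hdecomp : ∀ g : G, ∃ n ∈ N, ∃ z : G, (∀ g : G, z * g = g * z) ∧ g = n * z := by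
    intro g
    obtain ⟨n, hn, w, hw, rfl⟩ := hfr g
    by_cases hwC : w ∈ centralizer ((P : Subgroup G) : Set G)
    · obtain ⟨y, hy, z, hz, hyz⟩ := hdec w hwC
      exact ⟨n * y, N.mul_mem hn (hPN hy), z, hz, by rw [hyz, mul_assoc]⟩
    · obtain ⟨y, hy, z, hz, hyz⟩ := hdec _ (hmulC w hw hwC u huN huC)
      refine ⟨n * y * (u : G)⁻¹, N.mul_mem (N.mul_mem hn (hPN hy)) (N.inv_mem u.2), z, hz, ?_⟩
      have h1 : w = y * z * (u : G)⁻¹ := by rw [← hyz]; group
      rw [h1]
      calc n * (y * z * (u : G)⁻¹) = n * y * (z * (u : G)⁻¹) := by group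
        _ = n * y * ((u : G)⁻¹ * z) := by rw [hz]
        _ = _ := by group
  let φ : N × Subgroup.center G →* G :=
    { toFun := fun x => (x.1 : G) * (x.2 : G)
      map_one' := by simp
      map_mul' := by
        rintro ⟨a, b⟩ ⟨c, d⟩
        have h1 := (Subgroup.mem_center_iff.1 b.2) (c : G)
        simp only [Prod.fst_mul, Prod.snd_mul, Subgroup.coe_mul]
        calc (a : G) * c * (b * d) = a * (c * b) * d := by group
          _ = a * (b * c) * d := by rw [h1]
          _ = _ := by group }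
  have hφ : Function.Bijective φ := by
    constructor
    · rw [injective_iff_map_eq_one]
      rintro ⟨a, b⟩ h
      have h1 : (a : G) * (b : G) = 1 := h
      have h2 : (a : G) = (b : G)⁻¹ := eq_inv_of_mul_eq_one_left h1
      have hcen : ∀ g : G, (a : G) * g = g * a := by
        intro g
        rw [h2]
        have h3 := (Subgroup.mem_center_iff.1 ((Subgroup.center G).inv_mem b.2)) g
        exact h3.symm
      have ha := hZN a a.2 hcen
      have hb : (b : G) = 1 := by
        rw [ha, one_mul] at h1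
        exact h1
      exact Prod.ext (Subtype.ext ha) (Subtype.ext hb)
    · intro g
      obtain ⟨n, hn, z, hz, rfl⟩ := hdecomp g
      exact ⟨(⟨n, hn⟩, ⟨z, Subgroup.mem_center_iff.2 fun g => (hz g).symm⟩), rfl⟩
  exact ⟨m, F, hF, hFt, hpm, hFc, ⟨(MulEquiv.ofBijective φ hφ).symm.trans (MulEquiv.prodCongr e (MulEquiv.refl _))⟩⟩

end Cfsg.Agent.Lib.Pm2M
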