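import Mathlib

/-!
Poisson summation on `ℤⁿ` for continuous functions with Gaussian decay.
-/

set_option autoImplicit false

noncomputable section

namespace Cfsg.Agent.Lib.PoissonZn

open MeasureTheory UnitAddTorus

variable {n : ℕ}

/-- coordinates -/
def zcast (k : Fin n → ℤ) : Fin n → ℝ := fun i => (k i : ℝ)

/-- The squared Euclidean norm of a real vector. -/
def nsq (x : Fin n → ℝ) : ℝ := ∑ i, x i ^ 2

theorem nsq_nonneg (x : Fin n → ℝ) : 0 ≤ nsq x := Finset.sum_nonneg fun _ _ => sq_nonneg _

theorem summable_exp_neg_sq {a : ℝ} (ha : 0 < a) :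
    Summable fun k : ℤ => Real.exp (-a * (k : ℝ) ^ 2) := by
  have hτ : 0 < (((a / Real.pi : ℝ) : ℂ) * Complex.I).im := by
    simp only [Complex.mul_im, Complex.ofReal_re, Complex.I_im, mul_one, Complex.ofReal_im,
      Complex.I_re, mul_zero, add_zero]
    positivity
  have h := ((summable_jacobiTheta₂_term_iff 0 (((a / Real.pi : ℝ) : ℂ) * Complex.I)).2 hτ).norm
  refine h.congr fun k => ?_
  rw [norm_jacobiTheta₂_term]
  congr 1
  simp only [Complex.mul_im, Complex.ofReal_re, Complex.I_im, mul_one, Complex.ofReal_im,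
      Complex.I_re, mul_zero, add_zero, Complex.zero_im, sub_zero]
  have hpi := Real.pi_ne_zero
  field_simp

/-- product of summable nonnegative functions over `Fin n`. -/
theorem summable_prod_fin {g : ℤ → ℝ} (hg0 : ∀ k, 0 ≤ g k) (hg : Summable g) (n : ℕ) :
    Summable fun k : Fin n → ℤ => ∏ i, g (k i) := by
  induction n with
  | zero => exact (hasSum_fintype _).summable
  | succ n ih =>
    have h2 : Summable fun p : ℤ × (Fin n → ℤ) => g p.1 * ∏ i, g (p.2 i) := by
      refine Summable.mul_of_nonneg (f := g) (g := fun k : Fin n → ℤ => ∏ i, g (k i)) hg ih ?_ ?_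
      · intro k
        exact hg0 k
      · intro k
        exact Finset.prod_nonneg fun i _ => hg0 _
    let e : (ℤ × (Fin n → ℤ)) ≃ (Fin (n + 1) → ℤ) :=
      { toFun := fun p => Fin.cons p.1 p.2
        invFun := fun k => (k 0, Fin.tail k)
        left_inv := by intro p; simp
        right_inv := by intro k; simp }
    have key := (e.summable_iff (f := fun k : Fin (n + 1) → ℤ => ∏ i, g (k i))).1
    apply key
    refine h2.congr fun p => ?_
    simp only [Function.comp, e, Equiv.coe_fn_mk, Fin.prod_univ_succ, Fin.cons_zero,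
      Fin.cons_succ]

theorem summable_exp_neg_nsq {a : ℝ} (ha : 0 < a) (n : ℕ) :
    Summable fun k : Fin n → ℤ => Real.exp (-a * nsq (zcast k)) := by
  have h := summable_prod_fin (fun k => (Real.exp_pos (-a * (k : ℝ) ^ 2)).le)
    (summable_exp_neg_sq ha) n
  refine h.congr fun k => ?_
  rw [← Real.exp_sum]
  congr 1
  simp only [nsq, zcast, Finset.mul_sum]

theorem nsq_add_lower (x y : Fin n → ℝ) : nsq y / 2 - nsq x ≤ nsq (x + y) := by
  unfold nsq
  rw [Finset.sum_div, ← Finset.sum_sub_distrib]
  apply Finset.sum_le_sum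
  intro i _
  simp only [Pi.add_apply]
  nlinarith [sq_nonneg (2 * x i + y i)]

/-- Toward the torus -/
def toTorus (x : Fin n → ℝ) : UnitAddTorus (Fin n) := fun i => (x i : UnitAddCircle)

theorem isOpenQuotientMap_toTorus : IsOpenQuotientMap (toTorus (n := n)) :=
  IsOpenQuotientMap.piMap (fun _ => QuotientAddGroup.isOpenQuotientMap_mk)

theorem toTorus_add_int (x : Fin n → ℝ) (k : Fin n → ℤ) : toTorus (x + zcast k) = toTorus x := by
  funext i
  simp only [toTorus, Pi.add_apply, zcast]
  have : ((x i + (k i : ℝ) : ℝ) : UnitAddCircle) = (x i : UnitAddCircle) + ((k i : ℝ) : UnitAddCircle) :=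
    rfl
  rw [this]
  have h0 : ((k i : ℝ) : UnitAddCircle) = 0 := by
    have := AddCircle.coe_period (1 : ℝ)
    have h : ((k i : ℝ) : UnitAddCircle) = (k i) • ((1 : ℝ) : UnitAddCircle) := by
      rw [← AddCircle.coe_zsmul]; simp
    rw [h, this, smul_zero]
  rw [h0, add_zero]

theorem exists_int_of_toTorus_eq {x y : Fin n → ℝ} (h : toTorus x = toTorus y) :
    ∃ k : Fin n → ℤ, x = y + zcast k := by
  have : ∀ i, ∃ z : ℤ, x i = y i + z := by
    intro i
    have hi := congrFun h i
    simp only [toTorus] at hi
    have h0 : ((x i - y i : ℝ) : UnitAddCircle) = 0 := by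
      rw [AddCircle.coe_sub, hi, sub_self]
    rw [AddCircle.coe_eq_zero_iff] at h0
    obtain ⟨z, hz⟩ := h0
    refine ⟨z, ?_⟩
    simp only [zsmul_eq_mul, mul_one] at hz
    linarith
  choose k hk using this
  exact ⟨k, funext fun i => by simp [hk i, zcast]⟩

section Poisson

variable {f : (Fin n → ℝ) → ℂ} {a C : ℝ}

/-- The decay hypothesis -/
structure Decay (f : (Fin n → ℝ) → ℂ) (a C : ℝ) : Prop where
  cont : Continuous f
  pos : 0 < a
  nonneg : 0 ≤ C
  bound : ∀ x, ‖f x‖ ≤ C * Real.exp (-a * nsq x)

theorem Decay.bound_shift (hf : Decay f a C) (x : Fin n → ℝ) (k : Fin n → ℤ) :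
    ‖f (x + zcast k)‖ ≤ C * Real.exp (a * nsq x) * Real.exp (-(a / 2) * nsq (zcast k)) := by
  refine (hf.bound _).trans ?_
  rw [mul_assoc, ← Real.exp_add]
  apply mul_le_mul_of_nonneg_left _ hf.nonneg
  apply Real.exp_le_exp.2
  have := nsq_add_lower x (zcast k)
  have ha := hf.pos
  nlinarith

theorem Decay.summable_norm_shift (hf : Decay f a C) (x : Fin n → ℝ) :
    Summable fun k : Fin n → ℤ => ‖f (x + zcast k)‖ := by
  refine Summable.of_nonneg_of_le (fun _ => norm_nonneg _) (hf.bound_shift x) ?_
  exact (summable_exp_neg_nsq (half_pos hf.pos) n).mul_left _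

/-- The periodization -/
def per (f : (Fin n → ℝ) → ℂ) (x : Fin n → ℝ) : ℂ := ∑' k : Fin n → ℤ, f (x + zcast k)

theorem Decay.continuous_per (hf : Decay f a C) : Continuous (per f) := by
  rw [continuous_iff_continuousAt]
  intro x0
  -- work on a ball in the sum of squares
  let s : Set (Fin n → ℝ) := {x | nsq x < nsq x0 + 1}
  have hs : IsOpen s := by
    apply isOpen_lt
    · unfold nsq; fun_prop
    · exact continuous_const
  have hx0 : x0 ∈ s := by simp [s]
  have hcont : ContinuousOn (per f) s := by
    unfold per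
    refine continuousOn_tsum (u := fun k : Fin n → ℤ =>
      C * Real.exp (a * (nsq x0 + 1)) * Real.exp (-(a / 2) * nsq (zcast k))) ?_ ?_ ?_
    · intro k
      exact (hf.cont.comp (continuous_id.add continuous_const)).continuousOn
    · exact (summable_exp_neg_nsq (half_pos hf.pos) n).mul_left _
    · intro k x hx
      refine (hf.bound_shift x k).trans ?_
      apply mul_le_mul_of_nonneg_right _ (Real.exp_pos _).le
      apply mul_le_mul_of_nonneg_left _ hf.nonneg
      apply Real.exp_le_exp.2
      exact mul_le_mul_of_nonneg_left (le_of_lt hx) hf.pos.le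
  exact hcont.continuousAt (hs.mem_nhds hx0)

theorem cast_add (j k : Fin n → ℤ) : zcast (k + j) = zcast k + zcast j := by
  funext i; simp [zcast]

theorem per_add_int (f : (Fin n → ℝ) → ℂ) (x : Fin n → ℝ) (j : Fin n → ℤ) :
    per f (x + zcast j) = per f x := by
  unfold per
  rw [← (Equiv.addRight j).tsum_eq (fun k : Fin n → ℤ => f (x + zcast k))]
  refine tsum_congr fun k => ?_
  simp only [Equiv.coe_addRight]
  rw [cast_add, add_assoc, add_comm (zcast j)]

/-- The lift of the periodization to the torus. -/
def torusLift (f : (Fin n → ℝ) → ℂ) (t : UnitAddTorus (Fin n)) : ℂ :=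
  per f (Function.surjInv (isOpenQuotientMap_toTorus (n := n)).surjective t)

theorem torusLift_toTorus (f : (Fin n → ℝ) → ℂ) (x : Fin n → ℝ) :
    torusLift f (toTorus x) = per f x := by
  unfold torusLift
  have h := Function.surjInv_eq (isOpenQuotientMap_toTorus (n := n)).surjective (toTorus x)
  obtain ⟨k, hk⟩ := exists_int_of_toTorus_eq h
  rw [hk, per_add_int]

theorem Decay.continuous_torusLift (hf : Decay f a C) : Continuous (torusLift f) := by
  rw [← (isOpenQuotientMap_toTorus (n := n)).continuous_comp_iff]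
  have : torusLift f ∘ toTorus = per f := funext (torusLift_toTorus f)
  rw [this]
  exact hf.continuous_per

/-- The unit cube -/
def cube (n : ℕ) : Set (Fin n → ℝ) := {x | ∀ i, x i ∈ Set.Ioc ((0 : Fin n → ℝ) i) ((0 : Fin n → ℝ) i + 1)}

theorem measurableSet_cube : MeasurableSet (cube n) := by
  have : cube n = Set.univ.pi (fun i => Set.Ioc ((0 : Fin n → ℝ) i) ((0 : Fin n → ℝ) i + 1)) := by
    ext x; simp [cube]
  rw [this]
  exact MeasurableSet.univ_pi fun i => measurableSet_Ioc

theorem volume_cube : volume (cube n) = 1 := by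
  have : cube n = Set.univ.pi (fun i => Set.Ioc ((0 : Fin n → ℝ) i) ((0 : Fin n → ℝ) i + 1)) := by
    ext x; simp [cube]
  rw [this, Real.volume_pi_Ioc]
  simp

theorem nsq_le_of_mem_cube {x : Fin n → ℝ} (hx : x ∈ cube n) : nsq x ≤ n := by
  unfold nsq
  calc ∑ i, x i ^ 2 ≤ ∑ _i : Fin n, (1 : ℝ) := by
        apply Finset.sum_le_sum
        intro i _
        have h := hx i
        simp only [Pi.zero_apply, zero_add, Set.mem_Ioc] at h
        nlinarith [h.1, h.2]
    _ = n := by simp

/-- The Fourier factor. -/
def ff (m : Fin n → ℤ) (y : Fin n → ℝ) : ℂ := mFourier (-m) (toTorus y)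

theorem norm_ff (m : Fin n → ℤ) (y : Fin n → ℝ) : ‖ff m y‖ = 1 := by
  simp only [ff, mFourier, ContinuousMap.coe_mk, norm_prod, fourier_apply, Circle.norm_coe,
    Finset.prod_const_one]

theorem continuous_ff (m : Fin n → ℤ) : Continuous (ff m) :=
  (mFourier (-m)).continuous.comp (isOpenQuotientMap_toTorus (n := n)).continuous

theorem ff_add_int (m k : Fin n → ℤ) (y : Fin n → ℝ) : ff m (y + zcast k) = ff m y := by
  simp only [ff, toTorus_add_int]

/-- The translated cubes. -/
def tile (k : Fin n → ℤ) : Set (Fin n → ℝ) := (fun y => y - zcast k) ⁻¹' cube n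

theorem measurableSet_tile (k : Fin n → ℤ) : MeasurableSet (tile k) :=
  measurableSet_cube.preimage (measurable_id.sub measurable_const)

theorem tile_disjoint : Pairwise (Function.onFun Disjoint (tile (n := n))) := by
  intro j k hjk
  rw [Function.onFun, Set.disjoint_left]
  intro y hj hk
  apply hjk
  funext i
  have h1 := hj i
  have h2 := hk i
  simp only [Pi.sub_apply, zcast, Pi.zero_apply, zero_add, Set.mem_Ioc] at h1 h2
  have h3 : ((j i : ℤ) : ℝ) - k i < 1 := by linarith [h1.1, h2.2]
  have h4 : ((k i : ℤ) : ℝ) - j i < 1 := by linarith [h1.2, h2.1]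
  have h5 : j i - k i < 1 := by exact_mod_cast h3
  have h6 : k i - j i < 1 := by exact_mod_cast h4
  omega

theorem tile_cover : (⋃ k, tile (n := n) k) = Set.univ := by
  ext y
  simp only [Set.mem_iUnion, Set.mem_univ, iff_true]
  refine ⟨fun i => ⌈y i⌉ - 1, fun i => ?_⟩
  simp only [Pi.sub_apply, zcast, Pi.zero_apply, zero_add, Set.mem_Ioc]
  push_cast
  constructor
  · linarith [Int.ceil_lt_add_one (y i)]
  · linarith [Int.le_ceil (y i)]

theorem integrable_exp_neg_nsq (ha : 0 < a) :
    Integrable (fun x : Fin n → ℝ => Real.exp (-a * nsq x)) := by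
  have hb : 0 < ((a : ℂ)).re := by simpa using ha
  have h := (GaussianFourier.integrable_cexp_neg_mul_sum_add (ι := Fin n) hb (fun _ => (0 : ℂ))).norm
  refine h.congr (Filter.Eventually.of_forall fun x => ?_)
  simp only
  rw [Complex.norm_exp]
  congr 1
  simp only [zero_mul, Finset.sum_const_zero, add_zero, Complex.mul_re, Complex.neg_re,
    Complex.ofReal_re, Complex.neg_im, Complex.ofReal_im, neg_zero, zero_mul, sub_zero, nsq]
  congr 1
  rw [Complex.re_sum]
  refine Finset.sum_congr rfl fun i _ => ?_
  rw [← Complex.ofReal_pow, Complex.ofReal_re]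

theorem Decay.integrable (hf : Decay f a C) : Integrable f := by
  refine Integrable.mono' ((integrable_exp_neg_nsq hf.pos).const_mul C)
    hf.cont.aestronglyMeasurable (Filter.Eventually.of_forall hf.bound)

theorem Decay.integrable_ff_mul (hf : Decay f a C) (m : Fin n → ℤ) :
    Integrable (fun y => ff m y * f y) := by
  refine Integrable.mono' hf.integrable.norm
    ((continuous_ff m).mul hf.cont).aestronglyMeasurable (Filter.Eventually.of_forall fun x => ?_)
  rw [norm_mul, norm_ff, one_mul]

instance : IsFiniteMeasure (volume.restrict (cube n)) :=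
  ⟨by rw [Measure.restrict_apply_univ, volume_cube]; exact ENNReal.one_lt_top⟩

theorem Decay.coeff_eq (hf : Decay f a C) (m : Fin n → ℤ) :
    mFourierCoeff (torusLift f) m = ∫ y, ff m y * f y := by
  have h0 : mFourierCoeff (torusLift f) m = ∫ x in cube n, ff m x * per f x := by
    rw [mFourierCoeff_eq_integral (torusLift f) m 0]
    refine setIntegral_congr_fun measurableSet_cube fun x _ => ?_
    show mFourier (-m) (toTorus x) • torusLift f (toTorus x) = ff m x * per f x
    rw [torusLift_toTorus]
    rfl
  rw [h0]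
  -- first sum
  have h1 := hasSum_integral_iUnion (f := fun y => ff m y * f y) (μ := volume)
    measurableSet_tile tile_disjoint (hf.integrable_ff_mul m).integrableOn
  rw [tile_cover, setIntegral_univ] at h1
  -- translation
  have h2 : ∀ k : Fin n → ℤ, ∫ y in tile k, ff m y * f y = ∫ x in cube n, ff m x * f (x + zcast k) := by
    intro k
    have mp := measurePreserving_add_right (volume : Measure (Fin n → ℝ)) (zcast k)
    have := mp.setIntegral_preimage_emb (measurableEmbedding_addRight (zcast k))
      (fun y => ff m y * f y) (tile k)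
    rw [← this]
    have hpre : (fun x => x + zcast k) ⁻¹' tile k = cube n := by
      ext x
      simp [tile]
    rw [hpre]
    refine setIntegral_congr_fun measurableSet_cube fun x _ => ?_
    simp only [ff_add_int]
  simp only [h2] at h1
  -- second sum
  have hint : ∀ k : Fin n → ℤ, Integrable (fun x => ff m x * f (x + zcast k))
      (volume.restrict (cube n)) := by
    intro k
    have hc : Continuous fun x => ff m x * f (x + zcast k) :=
      (continuous_ff m).mul (hf.cont.comp (continuous_id.add continuous_const))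
    refine Integrable.of_bound hc.aestronglyMeasurable
      (C * Real.exp (a * n) * Real.exp (-(a / 2) * nsq (zcast k))) ?_
    refine (ae_restrict_iff' measurableSet_cube).2 (Filter.Eventually.of_forall fun x hx => ?_)
    rw [norm_mul, norm_ff, one_mul]
    refine (hf.bound_shift x k).trans ?_
    apply mul_le_mul_of_nonneg_right _ (Real.exp_pos _).le
    apply mul_le_mul_of_nonneg_left _ hf.nonneg
    apply Real.exp_le_exp.2
    exact mul_le_mul_of_nonneg_left (nsq_le_of_mem_cube hx) hf.pos.le
  have hsum : Summable fun k : Fin n → ℤ =>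
      ∫ x in cube n, ‖ff m x * f (x + zcast k)‖ := by
    refine Summable.of_nonneg_of_le (fun k => integral_nonneg fun x => norm_nonneg _) (fun k => ?_)
      ((summable_exp_neg_nsq (half_pos hf.pos) n).mul_left (C * Real.exp (a * n)))
    have hle : ‖∫ x in cube n, ‖ff m x * f (x + zcast k)‖‖ ≤
        (C * Real.exp (a * n) * Real.exp (-(a / 2) * nsq (zcast k))) * (volume : Measure (Fin n → ℝ)).real (cube n) := by
      apply norm_setIntegral_le_of_norm_le_const
      · rw [volume_cube]; exact ENNReal.one_lt_top
      · intro x hx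
        rw [norm_norm, norm_mul, norm_ff, one_mul]
        refine (hf.bound_shift x k).trans ?_
        apply mul_le_mul_of_nonneg_right _ (Real.exp_pos _).le
        apply mul_le_mul_of_nonneg_left _ hf.nonneg
        apply Real.exp_le_exp.2
        exact mul_le_mul_of_nonneg_left (nsq_le_of_mem_cube hx) hf.pos.le
    rw [Measure.real, volume_cube, ENNReal.toReal_one, mul_one] at hle
    refine le_trans (le_abs_self _) ?_
    rwa [Real.norm_eq_abs] at hle
  have h3 := hasSum_integral_of_summable_integral_norm hint hsum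
  have h4 : (fun x => ∑' k : Fin n → ℤ, ff m x * f (x + zcast k)) = fun x => ff m x * per f x := by
    funext x
    rw [tsum_mul_left]
    rfl
  rw [h4] at h3
  exact h3.unique h1

/-- **Poisson summation** on `ℤⁿ` for functions with Gaussian decay. -/
theorem poisson (hf : Decay f a C) (hsum : Summable fun m : Fin n → ℤ => ∫ y, ff m y * f y) :
    HasSum (fun m : Fin n → ℤ => ∫ y, ff m y * f y) (∑' k : Fin n → ℤ, f (zcast k)) := by
  let Φ : C(UnitAddTorus (Fin n), ℂ) := ⟨torusLift f, hf.continuous_torusLift⟩
  have hcoe : ∀ m, mFourierCoeff Φ m = ∫ y, ff m y * f y := fun m => hf.coeff_eq m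
  have hΦ : Summable (mFourierCoeff Φ) := by
    rw [show mFourierCoeff Φ = fun m => ∫ y, ff m y * f y from funext hcoe]
    exact hsum
  have h := hasSum_mFourier_series_apply_of_summable hΦ (toTorus 0)
  have hval : Φ (toTorus 0) = ∑' k : Fin n → ℤ, f (zcast k) := by
    show torusLift f (toTorus 0) = _
    rw [torusLift_toTorus]
    simp [per]
  rw [hval] at h
  have hone : ∀ m, mFourierCoeff Φ m • mFourier m (toTorus 0) = ∫ y, ff m y * f y := by
    intro m
    rw [hcoe]
    have : mFourier m (toTorus (0 : Fin n → ℝ)) = 1 := by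
      simp only [mFourier, toTorus, ContinuousMap.coe_mk, Pi.zero_apply]
      refine Finset.prod_eq_one fun i _ => ?_
      exact fourier_eval_zero _
    rw [this, smul_eq_mul, mul_one]
  simp only [hone] at h
  exact h

end Poisson

end Cfsg.Agent.Lib.PoissonZn
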