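import Mathlib
import Cfsg.Agent.Lib.MinNorm
import Cfsg.Agent.Lib.SuperSolv2

/-!
Finite solvable primitive permutation groups.
-/

set_option autoImplicit false

namespace Cfsg.Agent.Lib.PrimSolv

open Subgroup MulAction
open scoped Pointwise

universe u v

variable {G : Type u} [Group G] {Ω : Type v} [MulAction G Ω] [FaithfulSMul G Ω]

theorem eq_one_of_forall_smul {x : G} (h : ∀ y : Ω, x • y = y) : x = 1 :=
  FaithfulSMul.eq_of_smul_eq_smul (α := Ω) (fun y => by rw [h y, one_smul])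

/-- A non-trivial normal subgroup of a faithful primitive group is transitive. -/
theorem isPretransitive_of_normal (hprim : IsPreprimitive G Ω) (M : Subgroup G) [M.Normal]
    (hM : M ≠ ⊥) : IsPretransitive M Ω := by
  have := hprim
  apply IsQuasiPreprimitive.isPretransitive_of_normal
  intro hfix
  apply hM
  rw [eq_bot_iff]
  intro x hx
  rw [Subgroup.mem_bot]
  apply eq_one_of_forall_smul (Ω := Ω)
  intro y
  have hy : y ∈ fixedPoints M Ω := by rw [hfix]; exact Set.mem_univ y
  exact hy ⟨x, hx⟩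

/-- The basic facts about a minimal normal subgroup. -/
theorem smul_eq_of_mem_of_smul_eq {M : Subgroup G} (hT : IsPretransitive M Ω) (ω : Ω) {x : G}
    (hc : ∀ m ∈ M, m * x = x * m) (hx : x • ω = ω) : x = 1 := by
  apply eq_one_of_forall_smul (Ω := Ω)
  intro y
  obtain ⟨m, rfl⟩ := hT.exists_smul_eq ω y
  change x • ((m : G) • ω) = (m : G) • ω
  rw [← mul_smul, ← hc m m.2, mul_smul, hx]

theorem primitive_solvable_main [Finite G] [Group.IsSolvable G] [Nonempty Ω]
    (hprim : IsPreprimitive G Ω) (M : Subgroup G) [hMn : M.Normal] (hM : M ≠ ⊥)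
    (hmin : ∀ K : Subgroup G, K.Normal → K ≤ M → K = ⊥ ∨ K = M) :
    IsPretransitive M Ω ∧ (∀ ω : Ω, stabilizer M ω = ⊥) ∧
      ∃ p d : ℕ, p.Prime ∧ 0 < d ∧ Nat.card Ω = p ^ d ∧ Nat.card M = p ^ d := by
  obtain ⟨r, hr, hc, he⟩ := Cfsg.Agent.Lib.MinNorm.minimal_normal_abelian M hM hmin
  have hT := isPretransitive_of_normal hprim M hM
  have hstab : ∀ ω : Ω, stabilizer M ω = ⊥ := by
    intro ω
    rw [eq_bot_iff]
    intro x hx
    rw [Subgroup.mem_bot]
    apply Subtype.ext
    exact smul_eq_of_mem_of_smul_eq hT ω (fun m hm => hc m hm x x.2) hx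
  refine ⟨hT, hstab, ?_⟩
  have hp : IsPGroup r M := Cfsg.Agent.Lib.MinNorm.isPGroup_of_exponent he
  have : Fact r.Prime := ⟨hr⟩
  obtain ⟨d, hd⟩ := IsPGroup.iff_card.1 hp
  have hd0 : 0 < d := by
    rcases Nat.eq_zero_or_pos d with rfl | h
    · rw [pow_zero] at hd
      exact absurd (Subgroup.card_eq_one.1 hd) hM
    · exact h
  obtain ⟨ω₀⟩ := ‹Nonempty Ω›
  have hbij : Function.Bijective (fun m : M => m • ω₀) := by
    constructor
    · intro a b hab
      have h1 : a⁻¹ * b ∈ stabilizer M ω₀ := by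
        rw [mem_stabilizer_iff, mul_smul]
        have hab' : a • ω₀ = b • ω₀ := hab
        rw [← hab', inv_smul_smul]
      rw [hstab ω₀, Subgroup.mem_bot, inv_mul_eq_one] at h1
      exact h1
    · intro y
      exact hT.exists_smul_eq ω₀ y
  have hcard : Nat.card M = Nat.card Ω := Nat.card_congr (Equiv.ofBijective _ hbij)
  exact ⟨r, d, hr, hd0, by rw [← hcard, hd], hd⟩

theorem primitive_solvable_stabilizer [Finite G] [Group.IsSolvable G]
    (hprim : IsPreprimitive G Ω) (M : Subgroup G) [hMn : M.Normal] (hM : M ≠ ⊥)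
    (hmin : ∀ K : Subgroup G, K.Normal → K ≤ M → K = ⊥ ∨ K = M) (ω : Ω) :
    Subgroup.IsComplement' M (stabilizer G ω) ∧
      stabilizer G ω ⊓ Subgroup.centralizer (M : Set G) = ⊥ ∧
      ∀ K : Subgroup G, K ≤ M → stabilizer G ω ≤ Subgroup.normalizer (K : Set G) →
        K = ⊥ ∨ K = M := by
  obtain ⟨r, hr, hc, he⟩ := Cfsg.Agent.Lib.MinNorm.minimal_normal_abelian M hM hmin
  have hT := isPretransitive_of_normal hprim M hM
  have hinf : M ⊓ stabilizer G ω = ⊥ := by
    rw [eq_bot_iff]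
    rintro x ⟨hx1, hx2⟩
    rw [Subgroup.mem_bot]
    exact smul_eq_of_mem_of_smul_eq hT ω (fun m hm => hc m hm x hx1) hx2
  have hsup : M ⊔ stabilizer G ω = ⊤ := by
    rw [eq_top_iff]
    intro g _
    obtain ⟨m, hm⟩ := hT.exists_smul_eq ω (g • ω)
    have hm' : (m : G) • ω = g • ω := hm
    have h1 : (m : G)⁻¹ * g ∈ stabilizer G ω := by
      rw [mem_stabilizer_iff, mul_smul, ← hm', inv_smul_smul]
    have h2 : g = (m : G) * ((m : G)⁻¹ * g) := by group
    rw [h2]
    exact Subgroup.mul_mem _ (Subgroup.mem_sup_left m.2) (Subgroup.mem_sup_right h1)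
  refine ⟨Cfsg.Agent.Lib.SuperSolv2.isComplement'_of_normal hinf hsup, ?_, ?_⟩
  · rw [eq_bot_iff]
    rintro x ⟨hx1, hx2⟩
    rw [Subgroup.mem_bot]
    exact smul_eq_of_mem_of_smul_eq hT ω (fun m hm => (Subgroup.mem_centralizer_iff.1 hx2) m hm) hx1
  · intro K hKM hKn
    apply hmin K _ hKM
    rw [← Subgroup.normalizer_eq_top_iff, eq_top_iff, ← hsup]
    refine sup_le ?_ hKn
    intro m hm
    rw [Subgroup.mem_normalizer_iff]
    intro k
    constructor
    · intro hk
      have h1 := hc m hm k (hKM hk)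
      rw [h1, mul_inv_cancel_right]
      exact hk
    · intro hk
      have hkM : k ∈ M := by
        have h2 : k = m⁻¹ * (m * k * m⁻¹) * m := by group
        rw [h2]
        exact M.mul_mem (M.mul_mem (M.inv_mem hm) (hKM hk)) hm
      have h1 := hc m hm k hkM
      rwa [h1, mul_inv_cancel_right] at hk

end Cfsg.Agent.Lib.PrimSolv
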