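import Mathlib
import Cfsg.Agent.Lib.PrimeDeg
import Cfsg.Agent.Lib.PrimeDeg3

/-!
Subgroups of prime index in transitive groups of prime degree.
-/

set_option autoImplicit false

namespace Cfsg.Agent.Lib.PrimeDeg

open Cfsg MulAction Cfsg.Agent.Lib.PermModule

set_option linter.unusedSectionVars false

/-- A fixed-point-free involution on a finite set forces even cardinality. -/
lemma even_card_of_fpf_involution {β : Type*} (s : Finset β) (g : β → β)
    (hmem : ∀ a ∈ s, g a ∈ s) (hinv : ∀ a ∈ s, g (g a) = a) (hne : ∀ a ∈ s, g a ≠ a) :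
    Even s.card := by
  have h := Finset.sum_involution (s := s) (f := fun _ => (1 : ZMod 2)) (fun a _ => g a)
    (fun _ _ => by decide) (fun a ha _ => hne a ha) (fun a ha => hmem a ha) (fun a ha => hinv a ha)
  rw [Finset.sum_const, nsmul_eq_mul, mul_one] at h
  exact (ZMod.natCast_eq_zero_iff_even).mp h

variable {p : ℕ} [hp : Fact p.Prime]

variable {G : Type*} [Group G] [Finite G] {X : Type*} [Fintype X] [MulAction G X]
  [FaithfulSMul G X]

lemma pow_smul_coord {σ : G} {e : ZMod p ≃ X} (he : ∀ i, e (i + 1) = σ • e i) (n : ℕ) (i : ZMod p) :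
    σ ^ n • e i = e (i + n) := by
  induction n generalizing i with
  | zero => simp
  | succ n ih =>
    rw [pow_succ, mul_smul, ← he, ih]
    congr 1
    push_cast
    ring

/-- A translation in a subgroup of order prime to `p` is trivial. -/
lemma translation_eq_zero {H : Subgroup G} (hHp : ¬ p ∣ Nat.card H) {e : ZMod p ≃ X} {z : G}
    (hz : z ∈ H) {d : ZMod p} (hzd : ∀ y, z • e y = e (y + d)) : d = 0 := by
  by_contra hd
  have hpow : ∀ (n : ℕ) (y : ZMod p), z ^ n • e y = e (y + n * d) := by
    intro n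
    induction n with
    | zero => simp
    | succ n ih =>
      intro y
      rw [pow_succ, mul_smul, hzd, ih]
      congr 1
      push_cast
      ring
  have h1 : z ^ p = 1 := by
    apply FaithfulSMul.eq_of_smul_eq_smul (α := X)
    intro x
    obtain ⟨y, rfl⟩ := e.surjective x
    rw [hpow, one_smul]
    simp
  have h2 : z ≠ 1 := by
    rintro rfl
    have h3 := hzd 0
    rw [one_smul, zero_add] at h3
    exact hd (e.injective h3).symm
  have h3 : orderOf z = p := orderOf_eq_prime h1 h2
  apply hHp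
  rw [← h3, ← Subgroup.orderOf_mk z hz]
  exact orderOf_dvd_natCard _

omit [Fintype X] in
/-- Coordinates turned into the action. -/
lemma act_of_symm {e : ZMod p ≃ X} {g : G} {a b : ZMod p}
    (h : ∀ x, e.symm (g • e x) = a * x + b) (x : ZMod p) : g • e x = e (a * x + b) := by
  rw [← h, Equiv.apply_symm_apply]

/-- A subgroup of order prime to `p` acting affinely has a fixed point. -/
theorem exists_fixed_of_affine (H : Subgroup G) (hHp : ¬ p ∣ Nat.card H) (e : ZMod p ≃ X)
    (haff : ∀ g : G, ∃ a b : ZMod p, ∀ x, e.symm (g • e x) = a * x + b) :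
    ∃ c : X, ∀ h ∈ H, h • c = c := by
  by_cases hH1 : ∀ h ∈ H, h = 1
  · exact ⟨e 0, fun h hh => by rw [hH1 h hh, one_smul]⟩
  push Not at hH1
  obtain ⟨h₀, hh₀, hne⟩ := hH1
  obtain ⟨a₀, b₀, hab₀⟩ := haff h₀
  have ha₀ : a₀ ≠ 1 := by
    rintro rfl
    have hb₀ : b₀ = 0 := translation_eq_zero hHp hh₀ (d := b₀) (fun y => by
      rw [act_of_symm hab₀, one_mul])
    apply hne
    apply FaithfulSMul.eq_of_smul_eq_smul (α := X)
    intro x
    obtain ⟨y, rfl⟩ := e.surjective x
    rw [act_of_symm hab₀, hb₀, one_smul]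
    simp
  have ha₀' : 1 - a₀ ≠ 0 := sub_ne_zero.mpr (Ne.symm ha₀)
  let c : ZMod p := b₀ / (1 - a₀)
  have hc : c * (1 - a₀) = b₀ := div_mul_cancel₀ _ ha₀'
  refine ⟨e c, ?_⟩
  intro h hh
  obtain ⟨a, b, hab⟩ := haff h
  have hzero : a₀ * b + b₀ - a * b₀ - b = 0 := by
    apply translation_eq_zero (H := H) (e := e) (z := (h₀ * h) * (h * h₀)⁻¹) hHp
      (H.mul_mem (H.mul_mem hh₀ hh) (H.inv_mem (H.mul_mem hh hh₀)))
    intro y
    obtain ⟨w, hw⟩ := e.surjective ((h * h₀)⁻¹ • e y)
    have h1 : (h * h₀) • e w = e y := by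
      rw [hw, smul_inv_smul]
    rw [mul_smul, act_of_symm hab₀] at h1
    rw [act_of_symm hab] at h1
    have h2 := e.injective h1
    rw [mul_smul, ← hw, mul_smul, act_of_symm hab, act_of_symm hab₀]
    congr 1
    rw [← h2]
    ring
  rw [act_of_symm hab]
  congr 1
  have h3 : (a * c + b - c) * (1 - a₀) = 0 := by
    linear_combination a * hc - hc - hzero
  have h4 := (mul_eq_zero.mp h3).resolve_right ha₀'
  exact sub_eq_zero.mp h4

/-- The action on the cosets of a subgroup of order prime to `p` is faithful. -/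
theorem faithful_quotient [IsPretransitive G X] (hX : Fintype.card X = p) (H : Subgroup G)
    (hHp : ¬ p ∣ Nat.card H) : FaithfulSMul G (G ⧸ H) := by
  have hprim : IsPreprimitive G X :=
    IsPreprimitive.of_prime_card (by rw [Nat.card_eq_fintype_card, hX]; exact hp.out)
  have hne : Nonempty X := by
    apply Fintype.card_pos_iff.mp
    rw [hX]
    exact hp.out.pos
  have hcore : H.normalCore = ⊥ := by
    have hfix : fixedPoints H.normalCore X = Set.univ := by
      by_contra hcon
      have htrans : IsPretransitive H.normalCore X :=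
        IsQuasiPreprimitive.isPretransitive_of_normal hcon
      obtain ⟨a⟩ := hne
      have h1 := ncard_orbit_mul_card_stabilizer (G := H.normalCore) a
      rw [orbit_eq_univ, Set.ncard_univ, Nat.card_eq_fintype_card, hX] at h1
      apply hHp
      have h2 : Nat.card H.normalCore ∣ Nat.card H :=
        Subgroup.card_dvd_of_le (Subgroup.normalCore_le H)
      exact (Dvd.intro _ h1).trans h2
    rw [eq_bot_iff]
    intro g hg
    rw [Subgroup.mem_bot]
    apply FaithfulSMul.eq_of_smul_eq_smul (α := X)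
    intro x
    rw [one_smul]
    have hx : x ∈ fixedPoints H.normalCore X := by
      rw [hfix]; trivial
    exact hx ⟨g, hg⟩
  refine ⟨fun {g₁ g₂} h => ?_⟩
  have h1 : g₂⁻¹ * g₁ ∈ H.normalCore := by
    rw [Subgroup.normalCore_eq_ker, MonoidHom.mem_ker]
    ext y
    change (g₂⁻¹ * g₁) • y = y
    rw [mul_smul, h, inv_smul_smul]
  rw [hcore, Subgroup.mem_bot] at h1
  exact (inv_mul_eq_one.mp h1).symm

/-- The doubly transitive case: an involution in the subgroup forces a fixed point. -/
theorem fixed_of_two_trans (hp2 : p ≠ 2) (H : Subgroup G) (hHp : ¬ p ∣ Nat.card H)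
    (h2 : IsMultiplyPretransitive G (G ⧸ H) 2) (σ t : G) (e : ZMod p ≃ X)
    (he : ∀ i, e (i + 1) = σ • e i) (htH : t ∈ H) (ht : ∀ i, t • e i = e (-i)) :
    ∀ h ∈ H, h • e 0 = e 0 := by
  classical
  have h2ne : (2 : ZMod p) ≠ 0 := two_ne_zero_zmod hp2
  let D : Finset (ZMod p) := Finset.univ.filter fun i => ∃ h ∈ H, h • e 0 = e i
  have hDmem : ∀ i, i ∈ D ↔ ∃ h ∈ H, h • e 0 = e i := by
    intro i
    simp [D]
  have hD0 : (0 : ZMod p) ∈ D := (hDmem 0).mpr ⟨1, H.one_mem, one_smul _ _⟩
  have hDneg : ∀ i, i ∈ D → -i ∈ D := by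
    intro i hi
    obtain ⟨h, hh, hi'⟩ := (hDmem i).mp hi
    refine (hDmem _).mpr ⟨t * h, H.mul_mem htH hh, ?_⟩
    rw [mul_smul, hi', ht]
  have hDH : ∀ g ∈ H, ∀ i ∈ D, e.symm (g • e i) ∈ D := by
    intro g hg i hi
    obtain ⟨h, hh, hi'⟩ := (hDmem i).mp hi
    refine (hDmem _).mpr ⟨g * h, H.mul_mem hg hh, ?_⟩
    rw [mul_smul, hi']
    simp
  let L : ZMod p → Finset (ZMod p) := fun x => D.filter fun i => i - x ∈ D
  have hLmem : ∀ x i, i ∈ L x ↔ i ∈ D ∧ i - x ∈ D := by
    intro x i
    simp [L]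
  -- powers of `σ` outside `H`
  have hσH : ∀ z : ZMod p, z ≠ 0 → ((σ ^ z.val : G) : G ⧸ H) ≠ ((1 : G) : G ⧸ H) := by
    intro z hz hcon
    have h1 : σ ^ z.val ∈ H := by
      have := QuotientGroup.eq.mp hcon.symm
      simpa using this
    apply hz
    apply translation_eq_zero (e := e) hHp h1
    intro y
    rw [pow_smul_coord he, ZMod.natCast_zmod_val]
  have hLle : ∀ x y : ZMod p, x ≠ 0 → y ≠ 0 → (L x).card ≤ (L y).card := by
    intro x y hx hy
    rw [is_two_pretransitive_iff] at h2
    obtain ⟨g, hg1, hg2⟩ := h2 (hσH x hx).symm (hσH y hy).symm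
    have hgH : g ∈ H := by
      rw [MulAction.Quotient.smul_coe, QuotientGroup.eq] at hg1
      simpa using hg1
    rw [MulAction.Quotient.smul_coe, QuotientGroup.eq] at hg2
    obtain ⟨h', hh', hgh'⟩ : ∃ h' ∈ H, g * σ ^ x.val = σ ^ y.val * h' := by
      refine ⟨_, H.inv_mem hg2, ?_⟩
      simp
    apply Finset.card_le_card_of_injOn (fun i => e.symm (g • e i))
    · intro i hi
      obtain ⟨hi1, hi2⟩ := (hLmem x i).mp hi
      refine (hLmem y _).mpr ⟨hDH g hgH i hi1, ?_⟩
      have h3 : e i = σ ^ x.val • e (i - x) := by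
        rw [pow_smul_coord he, ZMod.natCast_zmod_val]
        simp
      have h4 : g • e i = σ ^ y.val • (h' • e (i - x)) := by
        rw [h3, ← mul_smul, hgh', mul_smul]
      have h5 : h' • e (i - x) = e (e.symm (h' • e (i - x))) := by simp
      rw [h5, pow_smul_coord he, ZMod.natCast_zmod_val] at h4
      simp only [h4, Equiv.symm_apply_apply, add_sub_cancel_right]
      exact hDH h' hh' _ hi2
    · intro i _ j _ hij
      exact e.injective (MulAction.injective g (e.symm.injective hij))
  -- parity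
  have hodd : ∀ x : ZMod p, x ≠ 0 → (x / 2 ∈ D ↔ Odd (L x).card) := by
    intro x hx
    have hinvol : ∀ s : Finset (ZMod p), s ⊆ L x → (∀ a ∈ s, x - a ∈ s) → x / 2 ∉ s →
        Even s.card := by
      intro s _ hmem hnot
      apply even_card_of_fpf_involution s (fun a => x - a) hmem
      · intro a _
        ring
      · intro a ha hcon
        apply hnot
        have h1 : a = x / 2 := by
          rw [eq_div_iff h2ne]
          linear_combination -hcon
        rw [← h1]
        exact ha
    have hinvL : ∀ a ∈ L x, x - a ∈ L x := by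
      intro a ha
      obtain ⟨h1, h2⟩ := (hLmem x a).mp ha
      refine (hLmem x _).mpr ⟨?_, ?_⟩
      · have := hDneg _ h2
        rwa [neg_sub] at this
      · have := hDneg _ h1
        rwa [show x - a - x = -a by ring]
    constructor
    · intro hmid
      have hmidL : x / 2 ∈ L x := by
        refine (hLmem x _).mpr ⟨hmid, ?_⟩
        have := hDneg _ hmid
        rwa [show x / 2 - x = -(x / 2) by field_simp; ring]
      have h1 : Even ((L x).erase (x / 2)).card := by
        apply hinvol _ (Finset.erase_subset _ _)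
        · intro a ha
          rw [Finset.mem_erase] at ha ⊢
          refine ⟨?_, hinvL a ha.2⟩
          intro hcon
          apply ha.1
          have h3 : a = x - x / 2 := by
            rw [← hcon]
            ring
          rw [h3]
          field_simp
          ring
        · exact Finset.notMem_erase _ _
      have h2 := Finset.card_erase_add_one hmidL
      rw [← h2]
      exact h1.add_one
    · intro hoddL
      by_contra hmid
      have hnotL : x / 2 ∉ L x := fun h => hmid ((hLmem x _).mp h).1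
      have := hinvol (L x) subset_rfl hinvL hnotL
      exact (Nat.not_even_iff_odd.mpr hoddL) this
  have hall : ∀ z z' : ZMod p, z ≠ 0 → z' ≠ 0 → z ∈ D → z' ∈ D := by
    intro z z' hz hz' hzD
    have h2z : 2 * z ≠ 0 := mul_ne_zero h2ne hz
    have h2z' : 2 * z' ≠ 0 := mul_ne_zero h2ne hz'
    have h3 := (hodd (2 * z) h2z).mp (by rwa [mul_div_cancel_left₀ _ h2ne])
    have h4 : (L (2 * z)).card = (L (2 * z')).card :=
      le_antisymm (hLle _ _ h2z h2z') (hLle _ _ h2z' h2z)
    rw [h4, ← hodd _ h2z', mul_div_cancel_left₀ _ h2ne] at h3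
    exact h3
  by_cases hex : ∃ z, z ≠ 0 ∧ z ∈ D
  · exfalso
    obtain ⟨z, hz, hzD⟩ := hex
    have hDuniv : ∀ i, i ∈ D := by
      intro i
      by_cases hi : i = 0
      · rw [hi]; exact hD0
      · exact hall z i hz hi hzD
    apply hHp
    have hX : Fintype.card X = p := by
      rw [← Fintype.card_congr e, ZMod.card]
    have h1 := ncard_orbit_mul_card_stabilizer (G := H) (e 0)
    have h3 : orbit H (e 0) = Set.univ := by
      rw [Set.eq_univ_iff_forall]
      intro x
      obtain ⟨i, rfl⟩ := e.surjective x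
      obtain ⟨h, hh, hi⟩ := (hDmem i).mp (hDuniv i)
      exact ⟨⟨h, hh⟩, hi⟩
    rw [h3, Set.ncard_univ, Nat.card_eq_fintype_card, hX] at h1
    exact Dvd.intro _ h1
  · push Not at hex
    intro h hh
    have h1 := hDH h hh 0 hD0
    by_cases h2 : e.symm (h • e 0) = 0
    · exact (Equiv.symm_apply_eq e).mp h2
    · exact absurd h1 (hex _ h2)

/-- Recentring the previous theorem. -/
theorem fixed_of_two_trans' (hp2 : p ≠ 2) (H : Subgroup G) (hHp : ¬ p ∣ Nat.card H)
    (h2 : IsMultiplyPretransitive G (G ⧸ H) 2) (σ t : G) (e : ZMod p ≃ X)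
    (he : ∀ i, e (i + 1) = σ • e i) (htH : t ∈ H) (b : ZMod p) (ht : ∀ i, t • e i = e (b - i)) :
    ∃ c : X, ∀ h ∈ H, h • c = c := by
  have h2ne : (2 : ZMod p) ≠ 0 := two_ne_zero_zmod hp2
  let c₀ : ZMod p := b / 2
  have hc₀ : b - c₀ = c₀ := by
    simp only [c₀]
    field_simp
    ring
  let e' : ZMod p ≃ X := (Equiv.addRight c₀).trans e
  have he' : ∀ i, e' i = e (i + c₀) := fun _ => rfl
  refine ⟨e' 0, fixed_of_two_trans hp2 H hHp h2 σ t e' ?_ htH ?_⟩
  · intro i
    rw [he', he', ← he]
    congr 1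
    ring
  · intro i
    rw [he', he', ht]
    congr 1
    linear_combination hc₀

end Cfsg.Agent.Lib.PrimeDeg
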