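import Mathlib
import Cfsg.Agent.Lib.PrimeDeg2
import Cfsg.Prelude.Def_KGroupFacts

/-!
Simple groups with a subgroup of prime index: the group of automorphisms fixing a given element of
order `p` is commutative, hence `Out G` is metabelian.  The proof compares the two-orbit incidence
structures between the coset spaces of subgroups of index `p` by their Fourier transforms on the
cyclic group of order `p`.
-/

set_option autoImplicit false

namespace Cfsg.Agent.Lib.PrimeIndexOut

open MulAction Finset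
open scoped commutatorElement

/-! ### A polynomial lemma -/

theorem rat_lemma {p : ℕ} [hp : Fact p.Prime] (ζ : ℂ) (hζ : IsPrimitiveRoot ζ p) (f : ZMod p → ℚ)
    (c : ℚ) (h : ∑ i : ZMod p, (f i : ℂ) * ζ ^ i.val = (c : ℂ)) :
    ∃ t : ℚ, ∀ i : ZMod p, f i = t + if i = 0 then c else 0 := by
  classical
  have hpp := hp.out
  have hpos := hpp.pos
  set Q : Polynomial ℚ := ∑ i : ZMod p, Polynomial.C (f i) * Polynomial.X ^ i.val -
    Polynomial.C c with hQ
  have hroot : Polynomial.aeval ζ Q = 0 := by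
    rw [hQ]
    simp only [map_sub, map_sum, map_mul, map_pow, Polynomial.aeval_C, Polynomial.aeval_X]
    have : ∀ i : ZMod p, (algebraMap ℚ ℂ (f i)) * ζ ^ i.val = (f i : ℂ) * ζ ^ i.val := fun i => by
      simp
    rw [Finset.sum_congr rfl (fun i _ => this i), h]
    simp
  have hmin : Polynomial.cyclotomic p ℚ ∣ Q := by
    rw [Polynomial.cyclotomic_eq_minpoly_rat hζ hpos]
    exact minpoly.dvd ℚ ζ hroot
  obtain ⟨R, hR⟩ := hmin
  have hdegQ : Q.natDegree ≤ p - 1 := by
    rw [hQ]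
    refine (Polynomial.natDegree_sub_le _ _).trans (max_le ?_ (by simp))
    refine Polynomial.natDegree_sum_le_of_forall_le _ _ (fun i _ => ?_)
    refine (Polynomial.natDegree_C_mul_X_pow_le _ _).trans ?_
    have := ZMod.val_lt i
    omega
  have hdegΦ : (Polynomial.cyclotomic p ℚ).natDegree = p - 1 := by
    rw [Polynomial.natDegree_cyclotomic, Nat.totient_prime hpp]
  have hΦne : Polynomial.cyclotomic p ℚ ≠ 0 := Polynomial.cyclotomic_ne_zero p ℚ
  have hRC : ∃ t : ℚ, R = Polynomial.C t := by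
    by_cases hR0 : R = 0
    · exact ⟨0, by simp [hR0]⟩
    · refine ⟨R.coeff 0, Polynomial.eq_C_of_natDegree_eq_zero ?_⟩
      have := Polynomial.natDegree_mul hΦne hR0
      rw [← hR, hdegΦ] at this
      omega
  obtain ⟨t, rfl⟩ := hRC
  refine ⟨t, fun i => ?_⟩
  have hcoeff := congrArg (fun P => Polynomial.coeff P i.val) hR
  simp only [Polynomial.coeff_mul_C] at hcoeff
  have hΦ1 : (Polynomial.cyclotomic p ℚ).coeff i.val = 1 := by
    rw [Polynomial.cyclotomic_prime]
    rw [Polynomial.finset_sum_coeff]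
    simp only [Polynomial.coeff_X_pow]
    rw [Finset.sum_ite_eq]
    simp [ZMod.val_lt i]
  rw [hΦ1, one_mul] at hcoeff
  rw [← hcoeff, hQ]
  simp only [Polynomial.coeff_sub, Polynomial.finset_sum_coeff, Polynomial.coeff_C_mul,
    Polynomial.coeff_X_pow]
  have hs : ∑ x : ZMod p, f x * (if i.val = x.val then 1 else 0) = f i := by
    rw [Finset.sum_eq_single i]
    · simp
    · intro b _ hb
      have : i.val ≠ b.val := fun h => hb (ZMod.val_injective p h).symm
      simp [this]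
    · simp
  rw [hs]
  by_cases hi : i = 0
  · subst hi
    simp [Polynomial.coeff_C]
  · have : i.val ≠ 0 := fun h => hi ((ZMod.val_eq_zero i).1 h)
    simp [hi, Polynomial.coeff_C, this]

/-! ### Orbit counting -/

section Orbits

variable {G : Type*} [Group G] [Finite G]

theorem card_orbits_self_le {X : Type*} [Finite X] [MulAction G X] [IsPretransitive G X]
    (h2 : IsMultiplyPretransitive G X 2) :
    Nat.card (orbitRel.Quotient G (X × X)) ≤ 2 := by
  classical
  haveI := Fintype.ofFinite X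
  haveI : Finite (orbitRel.Quotient G (X × X)) := Quotient.finite _
  let F : orbitRel.Quotient G (X × X) → Bool := Quotient.lift (fun q : X × X => decide (q.1 = q.2))
    (by
      rintro ⟨x, y⟩ ⟨x', y'⟩ ⟨g, hg⟩
      simp only [Prod.smul_mk, Prod.mk.injEq] at hg
      obtain ⟨rfl, rfl⟩ := hg
      simp)
  have hF : Function.Injective F := by
    intro q q'
    induction q using Quotient.inductionOn with | _ q => ?_
    induction q' using Quotient.inductionOn with | _ q' => ?_
    obtain ⟨x, y⟩ := q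
    obtain ⟨x', y'⟩ := q'
    intro h
    simp only [F, Quotient.lift_mk, decide_eq_decide] at h
    apply Quotient.sound
    show (x, y) ∈ orbit G (x', y')
    by_cases hxy : x = y
    · have hxy' : x' = y' := h.1 hxy
      subst hxy hxy'
      obtain ⟨g, hg⟩ := exists_smul_eq G x' x
      exact ⟨g, by simp [hg]⟩
    · have hxy' : x' ≠ y' := fun h' => hxy (h.2 h')
      rw [isMultiplyPretransitive_iff] at h2
      let u : Fin 2 ↪ X := ⟨![x', y'], by
        intro i j hij
        fin_cases i <;> fin_cases j <;> simp_all⟩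
      let v : Fin 2 ↪ X := ⟨![x, y], by
        intro i j hij
        fin_cases i <;> fin_cases j <;> simp_all [eq_comm]⟩
      obtain ⟨g, hg⟩ := h2 u v
      have h0 : g • x' = x := DFunLike.congr_fun hg 0
      have h1 : g • y' = y := DFunLike.congr_fun hg 1
      exact ⟨g, by simp [h0, h1]⟩
  have := Nat.card_le_card_of_injective F hF
  simpa using this

theorem burnside_nat (A : Type*) [Finite A] [MulAction G A] :
    ∑ᶠ g : G, Nat.card (fixedBy A g) = Nat.card (orbitRel.Quotient G A) * Nat.card G := by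
  classical
  haveI := Fintype.ofFinite G
  haveI := Fintype.ofFinite A
  haveI : Fintype (orbitRel.Quotient G A) := Fintype.ofFinite _
  rw [finsum_eq_sum_of_fintype]
  simpa [Nat.card_eq_fintype_card] using sum_card_fixedBy_eq_card_orbits_mul_card_group G A

theorem card_fixedBy_prod {A B : Type*} [MulAction G A] [MulAction G B] (g : G) :
    Nat.card (fixedBy (A × B) g) = Nat.card (fixedBy A g) * Nat.card (fixedBy B g) := by
  rw [← Nat.card_prod]
  exact Nat.card_congr ⟨fun q => (⟨q.1.1, (Prod.ext_iff.1 q.2).1⟩, ⟨q.1.2, (Prod.ext_iff.1 q.2).2⟩),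
    fun q => ⟨(q.1.1, q.2.1), Prod.ext q.1.2 q.2.2⟩, fun q => rfl, fun q => rfl⟩

theorem card_orbits_prod_le {X Y : Type*} [Finite X] [Finite Y] [MulAction G X] [MulAction G Y]
    (hX : Nat.card (orbitRel.Quotient G (X × X)) ≤ 2)
    (hY : Nat.card (orbitRel.Quotient G (Y × Y)) ≤ 2) :
    Nat.card (orbitRel.Quotient G (X × Y)) ≤ 2 := by
  classical
  haveI := Fintype.ofFinite G
  let a : G → ℕ := fun g => Nat.card (fixedBy X g)
  let b : G → ℕ := fun g => Nat.card (fixedBy Y g)
  have b1 := burnside_nat (G := G) (X × Y)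
  have b2 := burnside_nat (G := G) (X × X)
  have b3 := burnside_nat (G := G) (Y × Y)
  rw [finsum_eq_sum_of_fintype] at b1 b2 b3
  simp only [card_fixedBy_prod] at b1 b2 b3
  have cs := Finset.sum_mul_sq_le_sq_mul_sq (Finset.univ : Finset G) a b
  simp only [a, b, sq] at cs
  rw [b1, b2, b3] at cs
  set n := Nat.card (orbitRel.Quotient G (X × Y))
  set n1 := Nat.card (orbitRel.Quotient G (X × X))
  set n2 := Nat.card (orbitRel.Quotient G (Y × Y))
  set c := Nat.card G with hc
  have hcpos : 0 < c := Nat.card_pos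
  by_contra hcon
  push Not at hcon
  have h3 : 3 ≤ n := hcon
  have h4 : (3 * c) * (3 * c) ≤ (n * c) * (n * c) := Nat.mul_le_mul (Nat.mul_le_mul_right _ h3)
    (Nat.mul_le_mul_right _ h3)
  have h5 : (n1 * c) * (n2 * c) ≤ (2 * c) * (2 * c) := Nat.mul_le_mul (Nat.mul_le_mul_right _ hX)
    (Nat.mul_le_mul_right _ hY)
  have h6 : (3 * c) * (3 * c) ≤ (2 * c) * (2 * c) := h4.trans (cs.trans h5)
  nlinarith

end Orbits


/-! ### Incidence between coset spaces -/

section Core

variable {G : Type*} [Group G] [Finite G] {p : ℕ} [hp : Fact p.Prime]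

/-- The set `K·L`. -/
def SS (K L : Subgroup G) : Set G := {g | ∃ k ∈ K, ∃ l ∈ L, k * l = g}

theorem one_mem_SS (K L : Subgroup G) : (1 : G) ∈ SS K L := ⟨1, K.one_mem, 1, L.one_mem, by simp⟩

theorem SS_mul_right {K L : Subgroup G} {g l : G} (hl : l ∈ L) : g * l ∈ SS K L ↔ g ∈ SS K L := by
  constructor
  · rintro ⟨k, hk, m, hm, h⟩
    exact ⟨k, hk, m * l⁻¹, L.mul_mem hm (L.inv_mem hl), by
      rw [← mul_assoc, h]; group⟩
  · rintro ⟨k, hk, m, hm, h⟩
    exact ⟨k, hk, m * l, L.mul_mem hm hl, by rw [← mul_assoc, h]⟩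

theorem SS_mul_left {K L : Subgroup G} {g k : G} (hk : k ∈ K) : k * g ∈ SS K L ↔ g ∈ SS K L := by
  constructor
  · rintro ⟨k', hk', m, hm, h⟩
    exact ⟨k⁻¹ * k', K.mul_mem (K.inv_mem hk) hk', m, hm, by
      rw [mul_assoc, h]; group⟩
  · rintro ⟨k', hk', m, hm, h⟩
    exact ⟨k * k', K.mul_mem hk hk', m, hm, by rw [mul_assoc, h]⟩

theorem pow_val_add {M : Type*} [Monoid M] (x : M) (hx : x ^ p = 1) (i j : ZMod p) :
    x ^ (i + j).val = x ^ i.val * x ^ j.val := by
  rw [ZMod.val_add, ← pow_add]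
  exact (pow_eq_pow_mod _ hx).symm

/-- The `t`-th power of `a`. -/
def ee (a : G) (t : ZMod p) : G := a ^ t.val

theorem ee_add {a : G} (ha : a ^ p = 1) (i j : ZMod p) : ee a (i + j) = ee a i * ee a j :=
  pow_val_add a ha i j

theorem ee_zero (a : G) : ee a (0 : ZMod p) = 1 := by simp [ee]

theorem ee_sub {a : G} (ha : a ^ p = 1) (i j : ZMod p) : (ee a i)⁻¹ * ee a j = ee a (j - i) := by
  have := ee_add ha i (j - i)
  rw [add_sub_cancel] at this
  rw [this]; group

variable {a : G}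

theorem not_dvd_card {K : Subgroup G} (hG : ¬ p ^ 2 ∣ Nat.card G) (hK : K.index = p) :
    ¬ p ∣ Nat.card K := by
  intro h
  apply hG
  rw [← K.card_mul_index, hK, sq]
  exact Nat.mul_dvd_mul_right h p

theorem ee_mem {K : Subgroup G} (hG : ¬ p ^ 2 ∣ Nat.card G) (hK : K.index = p)
    (ha : orderOf a = p) {t : ZMod p} (ht : ee a t ∈ K) : t = 0 := by
  by_contra h0
  have hcop : Nat.Coprime p t.val := by
    have hv : t.val ≠ 0 := fun h => h0 ((ZMod.val_eq_zero t).1 h)
    exact Nat.coprime_of_lt_prime hv (ZMod.val_lt t) hp.out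
  have hord : orderOf (ee a t) = p := by
    unfold ee
    rw [Nat.Coprime.orderOf_pow (by rw [ha]; exact hcop), ha]
  apply not_dvd_card hG hK
  have := Subgroup.orderOf_dvd_natCard K ht
  rwa [hord] at this

/-- Cosets of a subgroup of index `p` are represented by the powers of `a`. -/
theorem exists_fact {K : Subgroup G} (hG : ¬ p ^ 2 ∣ Nat.card G) (hK : K.index = p)
    (ha : orderOf a = p) (g : G) : ∃ t : ZMod p, (ee a t)⁻¹ * g ∈ K := by
  have hap : a ^ p = 1 := by rw [← ha]; exact pow_orderOf_eq_one a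
  let β : ZMod p → G ⧸ K := fun t => ((ee a t : G) : G ⧸ K)
  have hinj : Function.Injective β := by
    intro s t hst
    have h1 : (ee a s)⁻¹ * ee a t ∈ K := QuotientGroup.eq.1 hst
    rw [ee_sub hap] at h1
    exact (sub_eq_zero.1 (ee_mem hG hK ha h1)).symm
  have hcard : Nat.card (G ⧸ K) ≤ Nat.card (ZMod p) := by
    rw [Nat.card_eq_fintype_card (α := ZMod p), ZMod.card]
    exact (hK ▸ le_rfl : K.index ≤ p)
  have hbij := hinj.bijective_of_nat_card_le hcard
  obtain ⟨t, ht⟩ := hbij.2 (g : G ⧸ K)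
  exact ⟨t, QuotientGroup.eq.1 ht⟩

theorem fact_unique {K : Subgroup G} (hG : ¬ p ^ 2 ∣ Nat.card G) (hK : K.index = p)
    (ha : orderOf a = p) {s t : ZMod p} (h : (ee a s)⁻¹ * ee a t ∈ K) : s = t := by
  have hap : a ^ p = 1 := by rw [← ha]; exact pow_orderOf_eq_one a
  rw [ee_sub hap] at h
  exact (sub_eq_zero.1 (ee_mem hG hK ha h)).symm

/-- The exact factorisation `G = ⟨a⟩ K`. -/
noncomputable def factEquiv {K : Subgroup G} (hG : ¬ p ^ 2 ∣ Nat.card G) (hK : K.index = p)
    (ha : orderOf a = p) : ZMod p × K ≃ G :=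
  Equiv.ofBijective (fun q => ee a q.1 * (q.2 : G)) (by
    constructor
    · rintro ⟨s, l⟩ ⟨t, m⟩ h
      simp only at h
      have h1 : (ee a s)⁻¹ * ee a t ∈ K := by
        have : (ee a s)⁻¹ * ee a t = (l : G) * (m : G)⁻¹ := by
          rw [inv_mul_eq_iff_eq_mul, ← mul_assoc, eq_mul_inv_iff_mul_eq, h]
        rw [this]
        exact K.mul_mem l.2 (K.inv_mem m.2)
      have hst := fact_unique hG hK ha h1
      subst hst
      have : (l : G) = m := mul_left_cancel h
      exact Prod.ext rfl (Subtype.ext this)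
    · intro g
      obtain ⟨t, ht⟩ := exists_fact hG hK ha g
      exact ⟨(t, ⟨_, ht⟩), by simp⟩)

theorem dvd_of_forall_SS {K M : Subgroup G} (hM : M.index = p) (h : ∀ g : G, g ∈ SS K M) :
    p ∣ Nat.card K := by
  have htrans : orbit K ((1 : G) : G ⧸ M) = Set.univ := by
    ext x
    simp only [Set.mem_univ, iff_true]
    induction x using QuotientGroup.induction_on with | _ g => ?_
    obtain ⟨k, hk, m, hm, rfl⟩ := h g
    refine ⟨⟨k, hk⟩, ?_⟩
    show k • ((1 : G) : G ⧸ M) = ((k * m : G) : G ⧸ M)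
    rw [MulAction.Quotient.smul_mk, smul_eq_mul, mul_one]
    exact QuotientGroup.eq.2 (by simpa using hm)
  have h1 := index_stabilizer (G := K) ((1 : G) : G ⧸ M)
  have hc : Nat.card (G ⧸ M) = p := hM
  rw [htrans, Set.ncard_univ, hc] at h1
  rw [← h1]
  exact Subgroup.index_dvd_card _

theorem exists_not_SS {K M : Subgroup G} (hG : ¬ p ^ 2 ∣ Nat.card G) (hK : K.index = p)
    (hM : M.index = p) : ∃ g : G, g ∉ SS K M := by
  by_contra hcon
  push Not at hcon
  exact not_dvd_card hG hK (dvd_of_forall_SS hM hcon)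

/-- Only two double cosets. -/
theorem double_coset {K M : Subgroup G}
    (hX : Nat.card (orbitRel.Quotient G ((G ⧸ K) × (G ⧸ M))) ≤ 2) {g₀ g : G}
    (h₀ : g₀ ∉ SS K M) (h : g ∉ SS K M) : ∃ k ∈ K, ∃ m ∈ M, g = k * g₀ * m := by
  classical
  haveI : Finite (orbitRel.Quotient G ((G ⧸ K) × (G ⧸ M))) := Quotient.finite _
  haveI := Fintype.ofFinite (orbitRel.Quotient G ((G ⧸ K) × (G ⧸ M)))
  let q : G → orbitRel.Quotient G ((G ⧸ K) × (G ⧸ M)) := fun y =>
    Quotient.mk'' (((1 : G) : G ⧸ K), ((y : G) : G ⧸ M))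
  have key : ∀ y z : G, q y = q z → ∃ k ∈ K, ∃ m ∈ M, y = k * z * m := by
    intro y z hyz
    have : (((1 : G) : G ⧸ K), ((y : G) : G ⧸ M)) ∈ orbit G (((1 : G) : G ⧸ K), ((z : G) : G ⧸ M)) :=
      Quotient.exact' hyz
    obtain ⟨u, hu⟩ := this
    simp only [Prod.smul_mk, Prod.mk.injEq] at hu
    have h1 : u • ((1 : G) : G ⧸ K) = ((1 : G) : G ⧸ K) := hu.1
    have h2 : u • ((z : G) : G ⧸ M) = ((y : G) : G ⧸ M) := hu.2
    rw [MulAction.Quotient.smul_mk, smul_eq_mul, mul_one, QuotientGroup.eq] at h1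
    rw [MulAction.Quotient.smul_mk, smul_eq_mul, QuotientGroup.eq] at h2
    refine ⟨u, by simpa using h1, _, h2, ?_⟩
    group
  have hne1 : q g₀ ≠ q 1 := by
    intro hc
    obtain ⟨k, hk, m, hm, hh⟩ := key _ _ hc
    exact h₀ ⟨k, hk, m, hm, by rw [hh]; group⟩
  have hne2 : q g ≠ q 1 := by
    intro hc
    obtain ⟨k, hk, m, hm, hh⟩ := key _ _ hc
    exact h ⟨k, hk, m, hm, by rw [hh]; group⟩
  by_contra hcon
  have hne3 : q g ≠ q g₀ := fun hc => hcon (key _ _ hc)
  have : 2 < (Finset.univ : Finset (orbitRel.Quotient G ((G ⧸ K) × (G ⧸ M)))).card := by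
    rw [Finset.two_lt_card]
    exact ⟨q 1, Finset.mem_univ _, q g₀, Finset.mem_univ _, q g, Finset.mem_univ _,
      hne1.symm, hne2.symm, hne3.symm⟩
  rw [Finset.card_univ, ← Nat.card_eq_fintype_card] at this
  omega

open scoped Classical in
/-- Indicator of `K·L` along the powers of `a`. -/
noncomputable def ff (a : G) (K L : Subgroup G) (t : ZMod p) : ℚ :=
  if ee a t ∈ SS K L then 1 else 0

open scoped Classical in
/-- The convolution over the whole group. -/
noncomputable def nn [Fintype G] (K L M : Subgroup G) (g : G) : ℚ :=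
  ∑ v : G, (if v ∈ SS K L then 1 else 0) * (if v⁻¹ * g ∈ SS L M then 1 else 0)

theorem nn_right [Fintype G] (K L : Subgroup G) {M : Subgroup G} (g : G) {m : G} (hm : m ∈ M) :
    nn K L M (g * m) = nn K L M g := by
  classical
  unfold nn
  refine Finset.sum_congr rfl (fun v _ => ?_)
  rw [← mul_assoc v⁻¹ g m]
  simp only [SS_mul_right hm]

theorem nn_left [Fintype G] {K : Subgroup G} (L M : Subgroup G) (g : G) {k : G} (hk : k ∈ K) :
    nn K L M (k * g) = nn K L M g := by
  classical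
  unfold nn
  rw [← Equiv.sum_comp (Equiv.mulLeft k)]
  refine Finset.sum_congr rfl (fun v _ => ?_)
  simp only [Equiv.coe_mulLeft, SS_mul_left hk]
  have : (k * v)⁻¹ * (k * g) = v⁻¹ * g := by group
  simp only [this]

theorem nn_ee [Fintype G] {K L M : Subgroup G} (hG : ¬ p ^ 2 ∣ Nat.card G) (hL : L.index = p)
    (ha : orderOf a = p) (y : ZMod p) :
    nn K L M (ee a y) = (Nat.card L : ℚ) * ∑ t : ZMod p, ff a K L t * ff a L M (y - t) := by
  classical
  have hap : a ^ p = 1 := by rw [← ha]; exact pow_orderOf_eq_one a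
  haveI := Fintype.ofFinite L
  unfold nn
  rw [← (factEquiv hG hL ha).sum_comp, Fintype.sum_prod_type, Finset.mul_sum]
  refine Finset.sum_congr rfl (fun t _ => ?_)
  have hterm : ∀ l : L, (if (factEquiv hG hL ha) (t, l) ∈ SS K L then (1 : ℚ) else 0) *
      (if ((factEquiv hG hL ha) (t, l))⁻¹ * ee a y ∈ SS L M then 1 else 0) =
      ff a K L t * ff a L M (y - t) := by
    intro l
    have e1 : (factEquiv hG hL ha) (t, l) = ee a t * (l : G) := rfl
    have e2 : (ee a t * (l : G))⁻¹ * ee a y = (l : G)⁻¹ * ee a (y - t) := by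
      rw [← ee_sub hap]; group
    rw [e1, e2, SS_mul_right l.2, SS_mul_left (L.inv_mem l.2)]
    rfl
  simp only [hterm]
  rw [Finset.sum_const, Finset.card_univ, nsmul_eq_mul, Nat.card_eq_fintype_card]

variable {ζ : ℂ}

/-- The Fourier transform of the incidence. -/
noncomputable def Fr (ζ : ℂ) (a : G) (K L : Subgroup G) : ℂ :=
  ∑ t : ZMod p, (ff (p := p) a K L t : ℂ) * ζ ^ t.val

theorem sum_psi (hζ : IsPrimitiveRoot ζ p) : ∑ t : ZMod p, ζ ^ t.val = 0 := by
  have hp1 : ζ ^ p = 1 := hζ.pow_eq_one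
  have hne : ζ ≠ 1 := hζ.ne_one hp.out.one_lt
  have h1 : ζ * ∑ t : ZMod p, ζ ^ t.val = ∑ t : ZMod p, ζ ^ t.val := by
    rw [Finset.mul_sum, ← Equiv.sum_comp (Equiv.addLeft (1 : ZMod p)) (fun t : ZMod p => ζ ^ t.val)]
    refine Finset.sum_congr rfl (fun t _ => ?_)
    simp only [Equiv.coe_addLeft]
    rw [pow_val_add ζ hp1, ZMod.val_one, pow_one]
  have h2 : (ζ - 1) * ∑ t : ZMod p, ζ ^ t.val = 0 := by rw [sub_mul, h1, one_mul, sub_self]
  exact (mul_eq_zero.1 h2).resolve_left (sub_ne_zero.2 hne)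

/-- Fourier transform of a convolution. -/
theorem Fr_conv (hζ : IsPrimitiveRoot ζ p) (A B : ZMod p → ℂ) :
    ∑ y : ZMod p, (∑ t : ZMod p, A t * B (y - t)) * ζ ^ y.val =
      (∑ t : ZMod p, A t * ζ ^ t.val) * ∑ t : ZMod p, B t * ζ ^ t.val := by
  have hp1 : ζ ^ p = 1 := hζ.pow_eq_one
  rw [Finset.sum_mul_sum]
  simp only [Finset.sum_mul]
  rw [Finset.sum_comm]
  refine Finset.sum_congr rfl (fun t _ => ?_)
  rw [← Equiv.sum_comp (Equiv.addLeft t)]
  refine Finset.sum_congr rfl (fun s _ => ?_)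
  simp only [Equiv.coe_addLeft, add_sub_cancel_left]
  rw [pow_val_add ζ hp1]
  ring

/-- The composition law. -/
theorem Fr_comp {K L M : Subgroup G} (hG : ¬ p ^ 2 ∣ Nat.card G) (hK : K.index = p)
    (hL : L.index = p) (hM : M.index = p) (ha : orderOf a = p) (hζ : IsPrimitiveRoot ζ p)
    (hX : Nat.card (orbitRel.Quotient G ((G ⧸ K) × (G ⧸ M))) ≤ 2) :
    ∃ q : ℚ, (Fr (p := p) ζ a K L) * Fr (p := p) ζ a L M = (q : ℂ) * Fr (p := p) ζ a K M := by
  classical
  haveI := Fintype.ofFinite G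
  obtain ⟨g₀, hg₀⟩ := exists_not_SS hG hK hM
  set α := nn K L M 1
  set β := nn K L M g₀
  have hval : ∀ y : ZMod p, nn K L M (ee a y) = α * ff a K M y + β * (1 - ff a K M y) := by
    intro y
    by_cases hy : ee a y ∈ SS K M
    · obtain ⟨k, hk, m, hm, he⟩ := hy
      have : ee a y ∈ SS K M := ⟨k, hk, m, hm, he⟩
      simp only [ff, this, if_true]
      rw [← he]
      have e1 : k * m = k * (1 * m) := by group
      rw [e1, nn_left _ _ _ hk, nn_right _ _ _ hm]
      ring
    · obtain ⟨k, hk, m, hm, he⟩ := double_coset hX hg₀ hy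
      simp only [ff, hy, if_false]
      rw [he, nn_right _ _ _ hm, nn_left _ _ _ hk]
      ring
  have hLpos : (Nat.card L : ℂ) ≠ 0 := by
    exact_mod_cast (Nat.card_pos (α := L)).ne'
  refine ⟨(α - β) / (Nat.card L : ℚ), ?_⟩
  have hconv := Fr_conv hζ (fun t => (ff (p := p) a K L t : ℂ)) (fun t => (ff (p := p) a L M t : ℂ))
  have hcast : ∀ y : ZMod p, (Nat.card L : ℂ) * (∑ t : ZMod p, (ff (p := p) a K L t : ℂ) *
      (ff (p := p) a L M (y - t) : ℂ)) = (α : ℂ) * (ff a K M y : ℂ) + (β : ℂ) * (1 - (ff a K M y : ℂ)) := by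
    intro y
    have h1 := nn_ee (K := K) (M := M) hG hL ha y
    rw [hval y] at h1
    have h2 := congrArg (fun r : ℚ => (r : ℂ)) h1
    simp only [Rat.cast_add, Rat.cast_mul, Rat.cast_sub, Rat.cast_one, Rat.cast_sum,
      Rat.cast_natCast] at h2
    exact h2.symm
  have hsum : (Nat.card L : ℂ) * (Fr (p := p) ζ a K L * Fr (p := p) ζ a L M) =
      ((α : ℂ) - β) * Fr (p := p) ζ a K M := by
    unfold Fr
    rw [← hconv, Finset.mul_sum]
    have : ∀ y : ZMod p, (Nat.card L : ℂ) * ((∑ t : ZMod p, (ff (p := p) a K L t : ℂ) *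
        (ff (p := p) a L M (y - t) : ℂ)) * ζ ^ y.val) =
        ((α : ℂ) - β) * ((ff a K M y : ℂ) * ζ ^ y.val) + (β : ℂ) * ζ ^ y.val := by
      intro y
      rw [← mul_assoc, hcast y]
      ring
    rw [Finset.sum_congr rfl (fun y _ => this y), Finset.sum_add_distrib, ← Finset.mul_sum,
      ← Finset.mul_sum, sum_psi hζ, mul_zero, add_zero]
  push_cast
  field_simp
  linear_combination hsum

/-- The rationality lemma: a rational Fourier transform forces containment. -/
theorem le_of_Fr_rat {K L : Subgroup G} (hG : ¬ p ^ 2 ∣ Nat.card G) (hK : K.index = p)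
    (hL : L.index = p) (ha : orderOf a = p) (hζ : IsPrimitiveRoot ζ p) {c : ℚ}
    (h : Fr (p := p) ζ a K L = (c : ℂ)) : K = L := by
  classical
  obtain ⟨t₀, ht₀⟩ := rat_lemma ζ hζ (ff (p := p) a K L) c h
  have h1 : (1 : ZMod p) ≠ 0 := one_ne_zero
  have hf1 : ff (p := p) a K L 1 = t₀ := by simpa [h1] using ht₀ 1
  have hne : ∀ t : ZMod p, t ≠ 0 → ff (p := p) a K L t = t₀ := fun t ht => by
    simpa [ht] using ht₀ t
  have hf0 : ff (p := p) a K L 0 = 1 := by
    simp [ff, ee_zero, one_mem_SS]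
  by_cases h10 : ee a (1 : ZMod p) ∈ SS K L
  · -- everything lies in `K·L`
    exfalso
    have ht1 : t₀ = 1 := by rw [← hf1]; simp [ff, h10]
    apply not_dvd_card hG hK
    apply dvd_of_forall_SS hL
    intro g
    obtain ⟨t, ht⟩ := exists_fact hG hL ha g
    have h2 : ee a t ∈ SS K L := by
      by_cases ht0 : t = 0
      · subst ht0; rw [ee_zero]; exact one_mem_SS _ _
      · have := hne t ht0
        rw [ht1] at this
        by_contra hc
        simp [ff, hc] at this
    have h3 : g = ee a t * ((ee a t)⁻¹ * g) := by group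
    rw [h3, SS_mul_right ht]
    exact h2
  · have ht0 : t₀ = 0 := by rw [← hf1]; simp [ff, h10]
    have hle : K ≤ L := by
      intro k hk
      obtain ⟨t, ht⟩ := exists_fact hG hL ha k
      have h2 : ee a t ∈ SS K L := ⟨k, hk, k⁻¹ * ee a t, by
        have : k⁻¹ * ee a t = ((ee a t)⁻¹ * k)⁻¹ := by group
        rw [this]; exact L.inv_mem ht, by group⟩
      have ht' : t = 0 := by
        by_contra hc
        have := hne t hc
        rw [ht0] at this
        simp [ff, h2] at this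
      subst ht'
      rw [ee_zero] at ht
      simpa using ht
    apply Subgroup.eq_of_le_of_card_ge hle
    have e1 := K.card_mul_index
    have e2 := L.card_mul_index
    rw [hK] at e1
    rw [hL] at e2
    have hpos := hp.out.pos
    have : Nat.card L = Nat.card K := Nat.eq_of_mul_eq_mul_right hpos (e2.trans e1.symm)
    omega

theorem Fr_ne_zero {K L : Subgroup G} (hG : ¬ p ^ 2 ∣ Nat.card G) (hK : K.index = p)
    (hL : L.index = p) (ha : orderOf a = p) (hζ : IsPrimitiveRoot ζ p) :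
    Fr (p := p) ζ a K L ≠ 0 := by
  classical
  intro h
  have h0 : Fr (p := p) ζ a K L = ((0 : ℚ) : ℂ) := by simpa using h
  obtain ⟨t₀, ht₀⟩ := rat_lemma ζ hζ (ff (p := p) a K L) 0 h0
  have hall : ∀ t : ZMod p, ff (p := p) a K L t = t₀ := fun t => by simpa using ht₀ t
  have hf0 : ff (p := p) a K L 0 = 1 := by
    simp [ff, ee_zero, one_mem_SS]
  have ht1 : t₀ = 1 := by rw [← hf0, hall]
  apply not_dvd_card hG hK
  apply dvd_of_forall_SS hL
  intro g
  obtain ⟨t, ht⟩ := exists_fact hG hL ha g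
  have h2 : ee a t ∈ SS K L := by
    by_contra hc
    have := hall t
    rw [ht1] at this
    simp [ff, hc] at this
  have h3 : g = ee a t * ((ee a t)⁻¹ * g) := by group
  rw [h3, SS_mul_right ht]
  exact h2


/-- The image of a subgroup under an automorphism. -/
abbrev mp (φ : MulAut G) (K : Subgroup G) : Subgroup G := K.map φ.toMonoidHom

theorem mp_index (φ : MulAut G) (K : Subgroup G) : (mp φ K).index = K.index :=
  Subgroup.index_map_equiv K φ

theorem mp_mul (φ ψ : MulAut G) (K : Subgroup G) : mp (φ * ψ) K = mp φ (mp ψ K) := by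
  ext x
  simp only [mp, Subgroup.mem_map, MulEquiv.coe_toMonoidHom, MulAut.mul_apply]
  constructor
  · rintro ⟨y, hy, rfl⟩
    exact ⟨ψ y, ⟨y, hy, rfl⟩, rfl⟩
  · rintro ⟨_, ⟨y, hy, rfl⟩, rfl⟩
    exact ⟨y, hy, rfl⟩

theorem map_ee {φ : MulAut G} (hφ : φ a = a) (t : ZMod p) : φ (ee a t) = ee a t := by
  simp [ee, map_pow, hφ]

theorem mem_SS_mp {φ : MulAut G} {K L : Subgroup G} {g : G} :
    φ g ∈ SS (mp φ K) (mp φ L) ↔ g ∈ SS K L := by
  constructor
  · rintro ⟨_, ⟨k, hk, rfl⟩, _, ⟨l, hl, rfl⟩, h⟩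
    refine ⟨k, hk, l, hl, φ.injective ?_⟩
    simpa using h
  · rintro ⟨k, hk, l, hl, rfl⟩
    exact ⟨φ k, ⟨k, hk, rfl⟩, φ l, ⟨l, hl, rfl⟩, by simp⟩

theorem Fr_mp {φ : MulAut G} (hφ : φ a = a) (K L : Subgroup G) :
    Fr (p := p) ζ a (mp φ K) (mp φ L) = Fr (p := p) ζ a K L := by
  classical
  unfold Fr ff
  refine Finset.sum_congr rfl (fun t _ => ?_)
  have : ee a t ∈ SS (mp φ K) (mp φ L) ↔ ee a t ∈ SS K L := by
    conv_lhs => rw [← map_ee (p := p) hφ t]
    exact mem_SS_mp
  simp only [this]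

/-- An automorphism fixing `a` and a subgroup of index `p` is trivial (core-free case). -/
theorem eq_one_of_fix {H : Subgroup G} (hcore : H.normalCore = ⊥) (hG : ¬ p ^ 2 ∣ Nat.card G)
    (hH : H.index = p) (ha : orderOf a = p) {w : MulAut G} (hw : w a = a) (hwH : mp w H = H) :
    w = 1 := by
  have hstep : ∀ g : G, g⁻¹ * w g ∈ H := by
    intro g
    obtain ⟨t, ht⟩ := exists_fact hG hH ha g
    have hg : g = ee a t * ((ee a t)⁻¹ * g) := by group
    have h1 : w ((ee a t)⁻¹ * g) ∈ H := by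
      rw [← hwH]
      exact ⟨_, ht, rfl⟩
    have h2 : w g = ee a t * w ((ee a t)⁻¹ * g) := by
      conv_lhs => rw [hg]
      rw [map_mul, map_ee hw]
    rw [h2]
    have h3 : g⁻¹ * (ee a t * w ((ee a t)⁻¹ * g)) = ((ee a t)⁻¹ * g)⁻¹ * w ((ee a t)⁻¹ * g) := by
      group
    rw [h3]
    exact H.mul_mem (H.inv_mem ht) h1
  ext x
  have hmem : x⁻¹ * w x ∈ H.normalCore := by
    intro b
    have h1 := hstep (x * b⁻¹)
    have h2 := hstep (b⁻¹)
    have h3 := H.mul_mem h1 (H.inv_mem h2)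
    have h4 : (x * b⁻¹)⁻¹ * w (x * b⁻¹) * ((b⁻¹)⁻¹ * w b⁻¹)⁻¹ = b * (x⁻¹ * w x) * b⁻¹ := by
      simp only [map_mul, map_inv]
      group
    rwa [h4] at h3
  rw [hcore, Subgroup.mem_bot] at hmem
  exact (inv_mul_eq_one.1 hmem).symm

/-- Commutativity of the group of automorphisms fixing `a`. -/
theorem comm_of_fix {H : Subgroup G} (hcore : H.normalCore = ⊥) (hG : ¬ p ^ 2 ∣ Nat.card G)
    (hH : H.index = p) (ha : orderOf a = p)
    (hX : ∀ K M : Subgroup G, K.index = p → M.index = p →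
      Nat.card (orbitRel.Quotient G ((G ⧸ K) × (G ⧸ M))) ≤ 2)
    {φ ψ : MulAut G} (hφ : φ a = a) (hψ : ψ a = a) : φ * ψ = ψ * φ := by
  classical
  have hpp := hp.out
  have hζ : IsPrimitiveRoot (Complex.exp (2 * Real.pi * Complex.I / p)) p :=
    Complex.isPrimitiveRoot_exp p hpp.ne_zero
  set ζ : ℂ := Complex.exp (2 * Real.pi * Complex.I / p)
  let T : MulAut G → ℂ := fun x => Fr (p := p) ζ a (mp x H) H
  have Tne : ∀ x : MulAut G, T x ≠ 0 := fun x =>
    Fr_ne_zero hG (by rw [mp_index, hH]) hH ha hζ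
  have Tcomp : ∀ x y : MulAut G, x a = a → ∃ q : ℚ, T y * T x = (q : ℂ) * T (x * y) := by
    intro x y hx
    obtain ⟨q, hq⟩ := Fr_comp (ζ := ζ) (K := mp x (mp y H)) (L := mp x H) (M := H) hG
      (by rw [mp_index, mp_index, hH]) (by rw [mp_index, hH]) hH ha hζ
      (hX _ _ (by rw [mp_index, mp_index, hH]) hH)
    rw [Fr_mp hx] at hq
    refine ⟨q, ?_⟩
    simp only [T]
    rw [mp_mul]
    exact hq
  let w : MulAut G := φ * ψ * φ⁻¹ * ψ⁻¹
  have hφi : φ⁻¹ a = a := by
    conv_lhs => rw [← hφ]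
    simp
  have hψi : ψ⁻¹ a = a := by
    conv_lhs => rw [← hψ]
    simp
  have hw : w a = a := by
    simp only [w, MulAut.mul_apply, hψi, hφi, hψ, hφ]
  have hwmul : w * (ψ * φ) = φ * ψ := by
    simp only [w]; group
  obtain ⟨q₁, h₁⟩ := Tcomp φ ψ hφ
  obtain ⟨q₂, h₂⟩ := Tcomp ψ φ hψ
  obtain ⟨q₃, h₃⟩ := Tcomp w (ψ * φ) hw
  rw [hwmul] at h₃
  have hq₁ : (q₁ : ℂ) ≠ 0 := by
    intro h0
    rw [h0, zero_mul] at h₁
    exact (mul_ne_zero (Tne ψ) (Tne φ)) h₁
  have hTw : T w = ((q₃ * q₂ / q₁ : ℚ) : ℂ) := by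
    push_cast
    have e1 : T (ψ * φ) * T w = (q₃ : ℂ) * T (φ * ψ) := h₃
    have e2 : T ψ * T φ = (q₁ : ℂ) * T (φ * ψ) := h₁
    have e3 : T φ * T ψ = (q₂ : ℂ) * T (ψ * φ) := h₂
    have hne := Tne (ψ * φ)
    have e4 : (q₁ : ℂ) * T (φ * ψ) = (q₂ : ℂ) * T (ψ * φ) := by rw [← e2, ← e3, mul_comm]
    field_simp
    have : T (ψ * φ) * (T w * q₁) = T (ψ * φ) * (q₃ * q₂) := by
      calc T (ψ * φ) * (T w * q₁) = (T (ψ * φ) * T w) * q₁ := by ring
        _ = q₃ * (q₁ * T (φ * ψ)) := by rw [e1]; ring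
        _ = q₃ * (q₂ * T (ψ * φ)) := by rw [e4]
        _ = T (ψ * φ) * (q₃ * q₂) := by ring
    exact mul_left_cancel₀ hne this
  have hwH : mp w H = H := le_of_Fr_rat hG (by rw [mp_index, hH]) hH ha hζ hTw
  have hw1 : w = 1 := eq_one_of_fix hcore hG hH ha hw hwH
  have : φ * ψ = 1 * (ψ * φ) := by rw [← hw1, hwmul]
  simpa using this

end Core

/-! ### The outer automorphism group -/

section Main

variable {G : Type*} [Group G] [Finite G]

theorem core_bot [IsSimpleGroup G] {K : Subgroup G} (hK : K.index.Prime) : K.normalCore = ⊥ := by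
  rcases IsSimpleGroup.eq_bot_or_eq_top_of_normal K.normalCore K.normalCore_normal with h | h
  · exact h
  · exfalso
    have : K = ⊤ := top_le_iff.1 (h ▸ K.normalCore_le)
    rw [this, Subgroup.index_top] at hK
    exact Nat.not_prime_one hK

theorem faithful_of_core {K : Subgroup G} (h : K.normalCore = ⊥) : FaithfulSMul G (G ⧸ K) := by
  refine ⟨fun {g₁ g₂} hg => ?_⟩
  have hker : g₂⁻¹ * g₁ ∈ (MulAction.toPermHom G (G ⧸ K)).ker := by
    rw [MonoidHom.mem_ker]
    ext x
    simp only [map_mul, map_inv, Equiv.Perm.coe_mul, Function.comp_apply, MulAction.toPermHom_apply,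
      MulAction.toPerm_apply, Equiv.Perm.coe_one, id_eq]
    rw [hg x]
    simp
  rw [← Subgroup.normalCore_eq_ker, h, Subgroup.mem_bot] at hker
  exact (inv_mul_eq_one.1 hker).symm

theorem not_sq_dvd {K : Subgroup G} {p : ℕ} (hp : p.Prime) (hK : K.index = p)
    (hf : FaithfulSMul G (G ⧸ K)) : ¬ p ^ 2 ∣ Nat.card G := by
  classical
  haveI : Finite (G ⧸ K) := inferInstance
  haveI := Fintype.ofFinite (G ⧸ K)
  have hinj : Function.Injective (MulAction.toPermHom G (G ⧸ K)) := by
    intro g₁ g₂ h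
    apply FaithfulSMul.eq_of_smul_eq_smul (α := G ⧸ K)
    intro x
    exact DFunLike.congr_fun h x
  have h1 : Nat.card G ∣ Nat.card (Equiv.Perm (G ⧸ K)) :=
    Subgroup.card_dvd_of_injective _ hinj
  have hc : Fintype.card (G ⧸ K) = p := by
    rw [← Nat.card_eq_fintype_card]; exact hK
  rw [Nat.card_eq_fintype_card (α := Equiv.Perm (G ⧸ K)), Fintype.card_perm, hc] at h1
  intro h2
  have h3 : p ^ 2 ∣ p.factorial := h2.trans h1
  rw [← Nat.mul_factorial_pred hp.ne_zero, sq] at h3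
  have h4 : p ∣ (p - 1).factorial := Nat.dvd_of_mul_dvd_mul_left hp.pos h3
  have := (hp.dvd_factorial).1 h4
  have := hp.pos
  omega

theorem main [IsSimpleGroup G] (H : Subgroup G) (hH : H.index.Prime) :
    Group.IsSolvable (Cfsg.Out G) := by
  classical
  obtain ⟨p, hp⟩ : ∃ p, p = H.index := ⟨_, rfl⟩
  rw [← hp] at hH
  haveI hfact : Fact p.Prime := ⟨hH⟩
  by_cases hcomm : ∀ a b : G, a * b = b * a
  · have hn : H.Normal := ⟨fun n hn g => by
      have : g * n * g⁻¹ = n := by rw [hcomm g n]; group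
      rwa [this]⟩
    have hbot : H = ⊥ := by
      rcases IsSimpleGroup.eq_bot_or_eq_top_of_normal H hn with h | h
      · exact h
      · exfalso
        rw [h, Subgroup.index_top] at hp
        rw [hp] at hH
        exact Nat.not_prime_one hH
    have hcard : Nat.card G = p := by
      rw [hp, hbot, Subgroup.index_bot]
    haveI : IsCyclic G := isCyclic_of_prime_card hcard
    have hs : Group.IsSolvable (MulAut G) :=
      solvable_of_solvable_injective (f := (IsCyclic.mulAutMulEquiv G).toMonoidHom)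
        (IsCyclic.mulAutMulEquiv G).injective
    infer_instance
  · have hnsolv : ¬ Group.IsSolvable G := fun h => hcomm (IsSimpleGroup.comm_iff_isSolvable.2 h)
    have hcore : ∀ K : Subgroup G, K.index = p → K.normalCore = ⊥ := fun K hK =>
      core_bot (by rw [hK]; exact hH)
    have h2 : ∀ K : Subgroup G, K.index = p → IsMultiplyPretransitive G (G ⧸ K) 2 := by
      intro K hK
      haveI := faithful_of_core (hcore K hK)
      haveI : Finite (G ⧸ K) := inferInstance
      haveI := Fintype.ofFinite (G ⧸ K)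
      have hc : Fintype.card (G ⧸ K) = p := by
        rw [← Nat.card_eq_fintype_card]; exact hK
      exact (Cfsg.Agent.Lib.PrimeDeg.solvable_or_two_trans (G := G) (X := G ⧸ K) hc).resolve_left
        hnsolv
    have hG : ¬ p ^ 2 ∣ Nat.card G :=
      not_sq_dvd hH hp.symm (faithful_of_core (hcore H hp.symm))
    have hdvd : p ∣ Nat.card G := by
      rw [hp]; exact H.index_dvd_card
    obtain ⟨a, ha⟩ := exists_prime_orderOf_dvd_card' p hdvd
    have hX : ∀ K M : Subgroup G, K.index = p → M.index = p →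
        Nat.card (orbitRel.Quotient G ((G ⧸ K) × (G ⧸ M))) ≤ 2 := fun K M hK hM =>
      card_orbits_prod_le (card_orbits_self_le (h2 K hK)) (card_orbits_self_le (h2 M hM))
    have hC : ∀ {φ ψ : MulAut G}, φ a = a → ψ a = a → φ * ψ = ψ * φ := fun hφ hψ =>
      comm_of_fix (hcore H hp.symm) hG hp.symm ha hX hφ hψ
    -- the Frattini argument
    let P : Subgroup G := Subgroup.zpowers a
    have hfac : (Nat.card G).factorization p = 1 := by
      have hne : Nat.card G ≠ 0 := Nat.card_pos.ne'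
      have h1 : 1 ≤ (Nat.card G).factorization p :=
        (hH.pow_dvd_iff_le_factorization hne).1 (by simpa using hdvd)
      have h3 : ¬ 2 ≤ (Nat.card G).factorization p := fun h =>
        hG ((hH.pow_dvd_iff_le_factorization hne).2 h)
      omega
    have hPcard : Nat.card P = p := by
      simp only [P, Nat.card_zpowers, ha]
    have hFrat : ∀ φ : MulAut G, ∃ g : G, ∃ ρ : MulAut G, φ = MulAut.conj g * ρ ∧
        (∀ x ∈ P, ρ x ∈ P) ∧ (∀ x ∈ P, ρ⁻¹ x ∈ P) := by
      intro φ
      have hc2 : Nat.card (P.map φ.toMonoidHom) = p ^ (Nat.card G).factorization p := by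
        rw [hfac, pow_one, Subgroup.card_map_of_injective φ.injective, hPcard]
      have hc1 : Nat.card P = p ^ (Nat.card G).factorization p := by
        rw [hfac, pow_one, hPcard]
      let S₁ : Sylow p G := Sylow.ofCard P hc1
      let S₂ : Sylow p G := Sylow.ofCard _ hc2
      obtain ⟨g, hg⟩ := MulAction.exists_smul_eq G S₁ S₂
      have hgS : ∀ x : G, x ∈ P.map φ.toMonoidHom ↔ g⁻¹ * x * g ∈ P := by
        intro x
        have h3 : ((g • S₁ : Sylow p G) : Subgroup G) = P.map φ.toMonoidHom := by rw [hg]; rfl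
        rw [← h3, Sylow.coe_subgroup_smul, Subgroup.mem_smul_pointwise_iff_exists]
        constructor
        · rintro ⟨s, hs, rfl⟩
          have : g⁻¹ * (MulAut.conj g • s) * g = s := by
            simp [MulAut.smul_def, MulAut.conj_apply]
            group
          rw [this]
          exact hs
        · intro hx
          refine ⟨g⁻¹ * x * g, hx, ?_⟩
          simp [MulAut.smul_def, MulAut.conj_apply]
          group
      refine ⟨g, (MulAut.conj g)⁻¹ * φ, by group, ?_, ?_⟩
      · intro x hx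
        have : φ x ∈ P.map φ.toMonoidHom := ⟨x, hx, rfl⟩
        have h4 := (hgS _).1 this
        simpa [MulAut.conj_apply, MulAut.inv_def] using h4
      · intro x hx
        have h5 : g * x * g⁻¹ ∈ P.map φ.toMonoidHom := by
          rw [hgS]
          have : g⁻¹ * (g * x * g⁻¹) * g = x := by group
          rwa [this]
        obtain ⟨y, hy, hyx⟩ := h5
        have hyx' : φ y = g * x * g⁻¹ := hyx
        have : ((MulAut.conj g)⁻¹ * φ)⁻¹ x = y := by
          rw [mul_inv_rev, inv_inv, MulAut.mul_apply, MulAut.conj_apply]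
          rw [← hyx']
          simp
        rw [this]
        exact hy
    -- elements stabilising `P` act by powers
    have hpow : ∀ ρ : MulAut G, (∀ x ∈ P, ρ x ∈ P) → ∃ k : ℤ, ∀ x ∈ P, ρ x = x ^ k := by
      intro ρ hρ
      have h1 : ρ a ∈ P := hρ a (Subgroup.mem_zpowers a)
      obtain ⟨k, hk⟩ := Subgroup.mem_zpowers_iff.1 h1
      refine ⟨k, fun x hx => ?_⟩
      obtain ⟨n, rfl⟩ := Subgroup.mem_zpowers_iff.1 hx
      rw [map_zpow, ← hk, ← zpow_mul, ← zpow_mul, mul_comm]
    have hcomm2 : ∀ ρ σ : MulAut G, (∀ x ∈ P, ρ x ∈ P) → (∀ x ∈ P, ρ⁻¹ x ∈ P) →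
        (∀ x ∈ P, σ x ∈ P) → (∀ x ∈ P, σ⁻¹ x ∈ P) → ⁅ρ, σ⁆ a = a := by
      intro ρ σ h1 h2' h3 h4
      obtain ⟨k, hk⟩ := hpow ρ h1
      obtain ⟨l, hl⟩ := hpow σ h3
      have hcm : ∀ x ∈ P, ρ (σ x) = σ (ρ x) := by
        intro x hx
        rw [hl x hx, map_zpow, hk x hx, map_zpow, hl x hx, ← zpow_mul, ← zpow_mul, mul_comm]
      have hτ : ρ⁻¹ (σ⁻¹ a) ∈ P := h2' _ (h4 a (Subgroup.mem_zpowers a))
      have := hcm _ hτ
      rw [commutatorElement_def]
      simp only [MulAut.mul_apply]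
      rw [this]
      simp
    -- assembling
    let π : MulAut G →* Cfsg.Out G := QuotientGroup.mk' (Cfsg.Inn G)
    have hπsurj : Function.Surjective π := QuotientGroup.mk'_surjective _
    have hπ : ∀ g : G, ∀ ρ : MulAut G, π (MulAut.conj g * ρ) = π ρ := by
      intro g ρ
      rw [map_mul]
      have : π (MulAut.conj g) = 1 := by
        rw [show π (MulAut.conj g) = ((MulAut.conj g : MulAut G) : Cfsg.Out G) from rfl,
          QuotientGroup.eq_one_iff]
        exact ⟨g, rfl⟩
      rw [this, one_mul]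
    let C : Subgroup (Cfsg.Out G) := (MulAction.stabilizer (MulAut G) a).map π
    have h1 : commutator (Cfsg.Out G) ≤ C := by
      rw [commutator_def, Subgroup.commutator_le]
      intro x _ y _
      obtain ⟨φ, rfl⟩ := hπsurj x
      obtain ⟨ψ, rfl⟩ := hπsurj y
      obtain ⟨g, ρ, rfl, hρ1, hρ2⟩ := hFrat φ
      obtain ⟨g', σ, rfl, hσ1, hσ2⟩ := hFrat ψ
      rw [hπ, hπ]
      refine ⟨⁅ρ, σ⁆, ?_, map_commutatorElement π ρ σ⟩
      exact hcomm2 ρ σ hρ1 hρ2 hσ1 hσ2
    have h3 : ⁅C, C⁆ = ⊥ := by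
      rw [eq_bot_iff, Subgroup.commutator_le]
      rintro _ ⟨φ, hφ, rfl⟩ _ ⟨ψ, hψ, rfl⟩
      rw [← map_commutatorElement]
      have : ⁅φ, ψ⁆ = 1 := commutatorElement_eq_one_iff_mul_comm.2 (hC hφ hψ)
      rw [this, map_one]
      exact Subgroup.one_mem _
    rw [isSolvable_def]
    refine ⟨2, ?_⟩
    rw [eq_bot_iff]
    have h4 : derivedSeries (Cfsg.Out G) 1 ≤ C := by
      rw [derivedSeries_succ, derivedSeries_zero]
      exact h1
    rw [derivedSeries_succ, ← h3]
    exact Subgroup.commutator_mono h4 h4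

end Main

end Cfsg.Agent.Lib.PrimeIndexOut
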