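import Cfsg.Agent.Lib.ProgChain

/-!
# Subsets coded by bits, and the action of programs on them
-/

set_option autoImplicit false
set_option linter.unusedSectionVars false

namespace Cfsg.Agent.Lib.ProgMask22

open Cfsg.Agent.Lib.TcBits Cfsg.Agent.Lib.PermChain Cfsg.Agent.Lib.ProgBits Cfsg.Agent.Lib.ProgChain
open scoped Pointwise

variable {n k : ℕ} {pr pr' : ℕ → List (ℕ × ℕ)} {R Y R' Y' : ℕ}

/-- The subset of the points coded by the bits of a number. -/
def bitSet (n M : ℕ) : Set (Fin n) := {x | M.testBit x.val = true}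

theorem mem_bitSet {M : ℕ} {x : Fin n} : x ∈ bitSet n M ↔ M.testBit x.val = true := Iff.rfl

theorem wordApply_bit (C : Ctx n k pr R Y) (w : List ℕ) (X : ℕ) (i : Fin n) :
    (wordApply pr w X).testBit i.val = X.testBit (prodW (lp pr n) w i).val := by
  rw [C.prodW_apply]
  exact testBit_wordApply (2 ^ k) pr w (fun e _ => C.hv e) X i.val

/-- The action of an element of a group of permutations on a coded subset. -/
theorem smul_bitSet (C : Ctx n k pr R Y) {K : Subgroup (Equiv.Perm (Fin n))} (g : ↥K) (w : List ℕ)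
    (hg : g.1 = prodW (lp pr n) w) {M M' : ℕ} (h : wordApply pr w M = M') :
    g • bitSet n M' = bitSet n M := by
  ext y
  rw [Set.mem_smul_set_iff_inv_smul_mem, mem_bitSet, mem_bitSet, ← h, wordApply_bit C, ← hg]
  have h1 : g.1 ((g⁻¹ • y : Fin n)) = y := by
    show g.1 ((g.1)⁻¹ y) = y
    simp
  rw [h1]

/-- Two programs give the same permutation. -/
theorem prodW_eq_cross (C : Ctx n k pr R Y) (C' : Ctx n k pr' R' Y') {w1 w2 : List ℕ}
    (h : Nat.beq (xWord R pr Y w1) (xWord R' pr' Y' w2) = true) :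
    prodW (lp pr n) w1 = prodW (lp pr' n) w2 := by
  have h0 := Nat.eq_of_beq_eq_true h
  rw [C.hR, C.hY, C'.hR, C'.hY] at h0
  apply Equiv.ext
  intro i
  apply Fin.ext
  rw [C.prodW_apply, C'.prodW_apply]
  have hi : i.val < 2 ^ k := lt_of_lt_of_le i.isLt C.hn
  have hv := C.hv
  have hv' := C'.hv
  have h1 := wordPerm_lt (L := 2 ^ k) (pr := pr) (w := w1) (fun e _ => hv e) hi
  have h2 := wordPerm_lt (L := 2 ^ k) (pr := pr') (w := w2) (fun e _ => hv' e) hi
  apply Nat.eq_of_testBit_eq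
  intro j
  by_cases hj : j < k
  · have h3 := testBit_xWord (J := k) (L := 2 ^ k) (pr := pr) (w := w1) (fun e _ => hv e) (yId k) hj hi
    have h4 := testBit_xWord (J := k) (L := 2 ^ k) (pr := pr') (w := w2) (fun e _ => hv' e) (yId k) hj hi
    rw [h0, h4, testBit_yId hj h2, testBit_yId hj h1] at h3
    exact h3.symm
  · have hk : 2 ^ k ≤ 2 ^ j := Nat.pow_le_pow_right (by norm_num) (by omega)
    rw [Nat.testBit_lt_two_pow (lt_of_lt_of_le h1 hk), Nat.testBit_lt_two_pow (lt_of_lt_of_le h2 hk)]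

/-- A subgroup with a coloring preserved by generators: the orbits of a point stabiliser. -/
theorem orbit_stabilizer_eq {H H1 : Subgroup (Equiv.Perm (Fin n))} {a : Fin n} {U : Fin n → Equiv.Perm (Fin n)}
    {O : Finset (Fin n)} (L : Level H H1 a U O) (col : Fin n → ℕ)
    (hinv : ∀ h ∈ H1, ∀ x, col (h x) = col x)
    (hconn : ∀ p q, col p = col q → ∃ h ∈ H1, h p = q) (b : Fin n) :
    MulAction.orbit (MulAction.stabilizer H a) b = {y | col y = col b} := by
  have hst := L.stab
  ext y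
  constructor
  · rintro ⟨⟨g, hg⟩, rfl⟩
    have h1 : g.1 ∈ H1 := by
      rw [hst]
      exact ⟨g.2, hg⟩
    exact hinv _ h1 b
  · intro hy
    obtain ⟨h, hh, he⟩ := hconn y b (hy : col y = col b)
    have h1 : h⁻¹ ∈ H1 := H1.inv_mem hh
    have h2 : h⁻¹ ∈ H ⊓ MulAction.stabilizer (Equiv.Perm (Fin n)) a := by
      rw [← hst]
      exact h1
    refine ⟨⟨⟨h⁻¹, h2.1⟩, h2.2⟩, ?_⟩
    show h⁻¹ b = y
    rw [← he]
    simp

end Cfsg.Agent.Lib.ProgMask22
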