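import Mathlib
import Cfsg.Agent.Lib.SelfDual

/-!
# Classes of elements of prime order in projective groups

Elements of prime order `r` in `H / Z(H)`, where `H` is `GL_n(K)` or `GU_n(K)`, and `r` divides the
order of the group of scalars.
-/

set_option autoImplicit false
set_option linter.unusedSectionVars false
set_option linter.unusedSimpArgs false
set_option linter.unusedVariables false

namespace Cfsg.Agent.Lib.ProjClasses

open Polynomial

section generic

variable {H : Type*} [Group H]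

theorem isConj_mk_iff (g g' : H) :
    IsConj (QuotientGroup.mk g : H ⧸ Subgroup.center H) (QuotientGroup.mk g') ↔
      ∃ h z, z ∈ Subgroup.center H ∧ g' = h * g * h⁻¹ * z := by
  rw [isConj_iff]
  constructor
  · rintro ⟨x, hx⟩
    obtain ⟨h, rfl⟩ := QuotientGroup.mk_surjective x
    refine ⟨h, (h * g * h⁻¹)⁻¹ * g', ?_, by group⟩
    rw [← QuotientGroup.eq]
    exact hx
  · rintro ⟨h, z, hz, rfl⟩
    refine ⟨QuotientGroup.mk h, ?_⟩
    rw [← QuotientGroup.mk_inv, ← QuotientGroup.mk_mul, ← QuotientGroup.mk_mul, QuotientGroup.eq]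
    have h1 : (h * g * h⁻¹)⁻¹ * (h * g * h⁻¹ * z) = z := by group
    rw [h1]
    exact hz

theorem orderOf_mk_eq {r : ℕ} (hr : r.Prime) {g : H} (h1 : g ^ r ∈ Subgroup.center H)
    (h2 : g ∉ Subgroup.center H) :
    orderOf (QuotientGroup.mk g : H ⧸ Subgroup.center H) = r := by
  haveI : Fact r.Prime := ⟨hr⟩
  apply orderOf_eq_prime
  · rw [← QuotientGroup.mk_pow, QuotientGroup.eq_one_iff]
    exact h1
  · rw [Ne, QuotientGroup.eq_one_iff]
    exact h2

theorem central_mul_pow {z : H} (hz : z ∈ Subgroup.center H) (g : H) (k : ℕ) :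
    (z * g) ^ k = z ^ k * g ^ k := by
  have : Commute z g := (Subgroup.mem_center_iff.1 hz g).symm
  exact this.mul_pow k

theorem mul_central_pow {z : H} (hz : z ∈ Subgroup.center H) (g : H) (k : ℕ) :
    (g * z) ^ k = g ^ k * z ^ k := by
  have : Commute g z := (Subgroup.mem_center_iff.1 hz g)
  exact this.mul_pow k

theorem conj_pow' (h g : H) (k : ℕ) : (h * g * h⁻¹) ^ k = h * g ^ k * h⁻¹ := by
  exact conj_pow

/-- The count of classes of elements of prime order in the central quotient, in terms of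
elements whose `r`-th powers are trivial, or not `r`-th powers in the centre. -/
theorem generic_classes {r : ℕ} (hr : r.Prime) (c : H)
    (hZ : ∀ z, z ∈ Subgroup.center H ↔ ∃ k : ℕ, z = c ^ k) (hrc : r ∣ orderOf c)
    {Y : Type*} (cl : Y → H) (s : Setoid Y)
    (h1 : ∀ a, cl a ^ r = 1) (h1' : ∀ a, cl a ∉ Subgroup.center H)
    (h2 : ∀ g : H, g ^ r = 1 → g ∉ Subgroup.center H → ∃ a, IsConj g (cl a))
    (h3 : ∀ a b, s.r a b ↔ ∃ z ∈ Subgroup.center H, z ^ r = 1 ∧ IsConj (z * cl a) (cl b))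
    (P : Prop) [Decidable P]
    (h4 : ∀ (g : H) (k : ℕ), g ^ r = c ^ k → ¬ r ∣ k → P)
    (h4' : P → ∀ k : ℕ, ¬ r ∣ k → ∃ g : H, g ^ r = c ^ k)
    (h5 : ∀ (g g' : H) (k : ℕ), g ^ r = c ^ k → g' ^ r = c ^ k → ¬ r ∣ k → IsConj g g')
    [Finite (Quotient s)] :
    Nat.card {C : ConjClasses (H ⧸ Subgroup.center H) //
        ∃ g : H ⧸ Subgroup.center H, ConjClasses.mk g = C ∧ orderOf g = r} =
      Nat.card (Quotient s) + if P then r - 1 else 0 := by
  classical
  have hcm : c ∈ Subgroup.center H := (hZ c).2 ⟨1, (pow_one c).symm⟩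
  have hmod : ∀ i j : ℕ, c ^ i = c ^ j → i ≡ j [MOD r] := by
    intro i j h
    exact (pow_eq_pow_iff_modEq.1 h).of_dvd hrc
  have hmemk : ∀ k : ℕ, c ^ k ∈ Subgroup.center H := fun k => (hZ _).2 ⟨k, rfl⟩
  have hnz : ∀ (g : H) (k : ℕ), g ^ r = c ^ k → ¬ r ∣ k → g ∉ Subgroup.center H := by
    intro g k hg hk hgz
    obtain ⟨j, hj⟩ := (hZ g).1 hgz
    rw [hj, ← pow_mul] at hg
    have h6 := hmod _ _ hg
    apply hk
    have h7 : (j * r) % r = k % r := h6
    rw [Nat.mul_mod_left] at h7
    exact Nat.dvd_of_mod_eq_zero h7.symm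
  have hne : ∀ k : Fin r, (k : ℕ) ≠ 0 → ¬ r ∣ (k : ℕ) := by
    intro k hk hd
    have := Nat.le_of_dvd (Nat.pos_of_ne_zero hk) hd
    have := k.2
    omega
  let gk : ∀ k : {k : Fin r // (k : ℕ) ≠ 0 ∧ P}, H := fun k =>
    (h4' k.2.2 k.1 (hne _ k.2.1)).choose
  have hgk : ∀ k, gk k ^ r = c ^ (k.1 : ℕ) := fun k => (h4' k.2.2 k.1 (hne _ k.2.1)).choose_spec
  let φ₁ : Y → {C : ConjClasses (H ⧸ Subgroup.center H) //
        ∃ g : H ⧸ Subgroup.center H, ConjClasses.mk g = C ∧ orderOf g = r} := fun a =>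
    ⟨ConjClasses.mk (QuotientGroup.mk (cl a)), _, rfl,
      orderOf_mk_eq hr (by rw [h1]; exact Subgroup.one_mem _) (h1' a)⟩
  have hφ₁ : ∀ a b, s.r a b → φ₁ a = φ₁ b := by
    intro a b hab
    obtain ⟨z, hz, -, hconj⟩ := (h3 a b).1 hab
    apply Subtype.ext
    change ConjClasses.mk _ = ConjClasses.mk _
    rw [ConjClasses.mk_eq_mk_iff_isConj, isConj_mk_iff]
    obtain ⟨u, hu⟩ := isConj_iff.1 hconj
    refine ⟨u, z, hz, ?_⟩
    rw [← hu]
    have h6 := Subgroup.mem_center_iff.1 hz u
    have h7 := Subgroup.mem_center_iff.1 hz (cl a)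
    have h8 := Subgroup.mem_center_iff.1 (Subgroup.inv_mem _ hz) u⁻¹
    calc u * (z * cl a) * u⁻¹ = (u * z) * cl a * u⁻¹ := by group
      _ = (z * u) * cl a * u⁻¹ := by rw [h6]
      _ = z * (u * cl a * u⁻¹) := by group
      _ = (u * cl a * u⁻¹) * z := (Subgroup.mem_center_iff.1 hz _).symm
  let φ₂ : {k : Fin r // (k : ℕ) ≠ 0 ∧ P} → {C : ConjClasses (H ⧸ Subgroup.center H) //
        ∃ g : H ⧸ Subgroup.center H, ConjClasses.mk g = C ∧ orderOf g = r} := fun k =>
    ⟨ConjClasses.mk (QuotientGroup.mk (gk k)), _, rfl,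
      orderOf_mk_eq hr (by rw [hgk]; exact hmemk _) (hnz _ _ (hgk k) (hne _ k.2.1))⟩
  let φ : Quotient s ⊕ {k : Fin r // (k : ℕ) ≠ 0 ∧ P} → {C : ConjClasses (H ⧸ Subgroup.center H) //
        ∃ g : H ⧸ Subgroup.center H, ConjClasses.mk g = C ∧ orderOf g = r} :=
    Sum.elim (Quotient.lift φ₁ hφ₁) φ₂
  have hbij : Function.Bijective φ := by
    constructor
    · rintro (x | k) (y | l) h
      · obtain ⟨a, rfl⟩ := Quotient.mk_surjective x
        obtain ⟨b, rfl⟩ := Quotient.mk_surjective y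
        have h6 : ConjClasses.mk (QuotientGroup.mk (cl a) : H ⧸ Subgroup.center H) = ConjClasses.mk (QuotientGroup.mk (cl b)) :=
          congrArg Subtype.val h
        rw [ConjClasses.mk_eq_mk_iff_isConj, isConj_mk_iff] at h6
        obtain ⟨u, z, hz, hu⟩ := h6
        congr 1
        apply Quotient.sound
        refine (h3 a b).2 ⟨z, hz, ?_, ?_⟩
        · have h7 := congrArg (· ^ r) hu
          rw [h1, mul_central_pow hz, conj_pow', h1] at h7
          simpa using h7.symm
        · rw [hu]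
          refine isConj_iff.2 ⟨u, ?_⟩
          have h6 := Subgroup.mem_center_iff.1 hz u
          calc u * (z * cl a) * u⁻¹ = (u * z) * cl a * u⁻¹ := by group
            _ = (z * u) * cl a * u⁻¹ := by rw [h6]
            _ = z * (u * cl a * u⁻¹) := by group
            _ = (u * cl a * u⁻¹) * z := (Subgroup.mem_center_iff.1 hz _).symm
      · exfalso
        obtain ⟨a, rfl⟩ := Quotient.mk_surjective x
        have h6 : ConjClasses.mk (QuotientGroup.mk (cl a) : H ⧸ Subgroup.center H) = ConjClasses.mk (QuotientGroup.mk (gk l)) :=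
          congrArg Subtype.val h
        rw [ConjClasses.mk_eq_mk_iff_isConj, isConj_mk_iff] at h6
        obtain ⟨u, z, hz, hu⟩ := h6
        obtain ⟨j, rfl⟩ := (hZ z).1 hz
        have h7 := congrArg (· ^ r) hu
        rw [hgk, mul_central_pow hz, conj_pow', h1, ← pow_mul] at h7
        simp only [mul_one, mul_inv_cancel, one_mul] at h7
        have h8 := hmod _ _ h7
        have h9 : (l.1 : ℕ) % r = (j * r) % r := h8
        rw [Nat.mul_mod_left] at h9
        exact hne _ l.2.1 (Nat.dvd_of_mod_eq_zero h9)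
      · exfalso
        obtain ⟨a, rfl⟩ := Quotient.mk_surjective y
        have h6 : ConjClasses.mk (QuotientGroup.mk (gk k) : H ⧸ Subgroup.center H) = ConjClasses.mk (QuotientGroup.mk (cl a)) :=
          congrArg Subtype.val h
        rw [ConjClasses.mk_eq_mk_iff_isConj, isConj_comm, isConj_mk_iff] at h6
        obtain ⟨u, z, hz, hu⟩ := h6
        obtain ⟨j, rfl⟩ := (hZ z).1 hz
        have h7 := congrArg (· ^ r) hu
        rw [hgk, mul_central_pow hz, conj_pow', h1, ← pow_mul] at h7
        simp only [mul_one, mul_inv_cancel, one_mul] at h7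
        have h8 := hmod _ _ h7
        have h9 : (k.1 : ℕ) % r = (j * r) % r := h8
        rw [Nat.mul_mod_left] at h9
        exact hne _ k.2.1 (Nat.dvd_of_mod_eq_zero h9)
      · have h6 : ConjClasses.mk (QuotientGroup.mk (gk k) : H ⧸ Subgroup.center H) = ConjClasses.mk (QuotientGroup.mk (gk l)) :=
          congrArg Subtype.val h
        rw [ConjClasses.mk_eq_mk_iff_isConj, isConj_mk_iff] at h6
        obtain ⟨u, z, hz, hu⟩ := h6
        obtain ⟨j, rfl⟩ := (hZ z).1 hz
        have h7 := congrArg (· ^ r) hu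
        rw [hgk, mul_central_pow hz, conj_pow', hgk] at h7
        have h8 : c ^ (l.1 : ℕ) = c ^ ((k.1 : ℕ) + j * r) := by
          rw [h7, pow_add, ← pow_mul]
          have h9 : u * c ^ ((k.1 : ℕ)) * u⁻¹ = c ^ (k.1 : ℕ) := by
            have := Subgroup.mem_center_iff.1 (hmemk (k.1 : ℕ)) u
            rw [this, mul_inv_cancel_right]
          rw [h9]
        have h10 := hmod _ _ h8
        have h11 : (l.1 : ℕ) % r = ((k.1 : ℕ) + j * r) % r := h10
        rw [Nat.add_mul_mod_self_right, Nat.mod_eq_of_lt l.1.2, Nat.mod_eq_of_lt k.1.2] at h11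
        congr 1
        apply Subtype.ext
        apply Fin.ext
        exact h11.symm
    · rintro ⟨C, x, rfl, hx⟩
      obtain ⟨g, rfl⟩ := QuotientGroup.mk_surjective x
      have hgr : g ^ r ∈ Subgroup.center H := by
        rw [← QuotientGroup.eq_one_iff, QuotientGroup.mk_pow, ← hx]
        exact pow_orderOf_eq_one _
      have hgn : g ∉ Subgroup.center H := by
        intro h6
        rw [← QuotientGroup.eq_one_iff] at h6
        rw [h6, orderOf_one] at hx
        exact hr.one_lt.ne hx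
      obtain ⟨m, hm⟩ := (hZ _).1 hgr
      -- write `m = k + r t`
      obtain ⟨t, ht⟩ : ∃ t, m = m % r + r * t := ⟨m / r, (Nat.mod_add_div m r).symm⟩
      obtain ⟨k, hk⟩ : ∃ k, k = m % r := ⟨_, rfl⟩
      rw [← hk] at ht
      have hkr : k < r := by
        rw [hk]
        exact Nat.mod_lt _ hr.pos
      let g' := (c ^ t)⁻¹ * g
      have hinvc : (c ^ t)⁻¹ ∈ Subgroup.center H := Subgroup.inv_mem _ (hmemk t)
      have hg' : g' ^ r = c ^ k := by
        have h6 : c ^ (k + r * t) = c ^ (t * r) * c ^ k := by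
          rw [add_comm, pow_add, mul_comm t r]
        rw [central_mul_pow hinvc, hm, ht, inv_pow, ← pow_mul, h6, inv_mul_cancel_left]
      have hsame : (QuotientGroup.mk g' : H ⧸ Subgroup.center H) = QuotientGroup.mk g := by
        rw [QuotientGroup.eq]
        have h6 : g'⁻¹ * g = g⁻¹ * c ^ t * g := by
          simp [g']
        rw [h6]
        exact (inferInstance : (Subgroup.center H).Normal).conj_mem' _ (hmemk t) g
      by_cases hk0 : k = 0
      · -- the first type
        subst hk0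
        rw [pow_zero] at hg'
        have hg'n : g' ∉ Subgroup.center H := by
          intro h6
          apply hgn
          rw [← QuotientGroup.eq_one_iff] at h6 ⊢
          rw [← hsame]
          exact h6
        obtain ⟨a, ha⟩ := h2 g' hg' hg'n
        refine ⟨Sum.inl (Quotient.mk s a), ?_⟩
        apply Subtype.ext
        change ConjClasses.mk _ = ConjClasses.mk _
        rw [ConjClasses.mk_eq_mk_iff_isConj, ← hsame]
        obtain ⟨u, hu⟩ := isConj_iff.1 ha
        exact (isConj_iff.2 ⟨QuotientGroup.mk u, by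
          rw [← QuotientGroup.mk_inv, ← QuotientGroup.mk_mul, ← QuotientGroup.mk_mul, hu]⟩).symm
      · have hkd : ¬ r ∣ k := by
          intro hd
          have := Nat.le_of_dvd (Nat.pos_of_ne_zero hk0) hd
          omega
        have hP : P := h4 g' k hg' hkd
        refine ⟨Sum.inr ⟨⟨k, hkr⟩, hk0, hP⟩, ?_⟩
        apply Subtype.ext
        change ConjClasses.mk _ = ConjClasses.mk _
        rw [ConjClasses.mk_eq_mk_iff_isConj, ← hsame]
        have h6 := h5 _ g' k (hgk ⟨⟨k, hkr⟩, hk0, hP⟩) hg' hkd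
        obtain ⟨u, hu⟩ := isConj_iff.1 h6
        exact isConj_iff.2 ⟨QuotientGroup.mk u, by
          rw [← QuotientGroup.mk_inv, ← QuotientGroup.mk_mul, ← QuotientGroup.mk_mul, hu]⟩
  rw [← Nat.card_eq_of_bijective φ hbij]
  haveI : Finite {k : Fin r // (k : ℕ) ≠ 0 ∧ P} := inferInstance
  rw [Nat.card_sum]
  congr 1
  split_ifs with hP
  · have h6 : Nat.card {k : Fin r // (k : ℕ) ≠ 0 ∧ P} = Nat.card {k : Fin r // k ≠ ⟨0, hr.pos⟩} := by
      refine Nat.card_congr (Equiv.subtypeEquivRight fun k => ?_)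
      constructor
      · rintro ⟨h7, -⟩ h8
        rw [h8] at h7
        exact h7 rfl
      · intro h7
        refine ⟨fun h8 => h7 (Fin.ext h8), hP⟩
    rw [h6, Nat.card_eq_fintype_card, Fintype.card_subtype_compl]
    simp
  · have : IsEmpty {k : Fin r // (k : ℕ) ≠ 0 ∧ P} := ⟨fun k => hP k.2.2⟩
    exact Nat.card_of_isEmpty

end generic


section orbit

variable {Y : Type*} [Finite Y] {r : ℕ}

theorem fix_of_pow (hr : r.Prime) (ρ : Equiv.Perm Y) (hρ : ρ ^ r = 1) {a : Y} {d : ℕ} (hd0 : 0 < d) (hdr : d < r)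
    (h : (ρ ^ d) a = a) : ρ a = a := by
  have h1 : Function.IsPeriodicPt ρ d a := by
    change ρ^[d] a = a
    rw [Equiv.Perm.iterate_eq_pow]
    exact h
  have h2 : Function.IsPeriodicPt ρ r a := by
    change ρ^[r] a = a
    rw [Equiv.Perm.iterate_eq_pow, hρ]
    rfl
  have h3 := h1.gcd h2
  have h4 : d.gcd r = 1 := by
    exact (Nat.coprime_of_lt_prime hd0.ne' hdr hr).symm.gcd_eq_one
  rw [h4] at h3
  exact h3

theorem card_class_of_ne (hr : r.Prime) (ρ : Equiv.Perm Y) (hρ : ρ ^ r = 1) {a : Y} (ha : ρ a ≠ a) :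
    Nat.card {b // ∃ k : ℕ, (ρ ^ k) a = b} = r := by
  let φ : Fin r → {b // ∃ k : ℕ, (ρ ^ k) a = b} := fun k => ⟨(ρ ^ (k : ℕ)) a, k, rfl⟩
  have hb : Function.Bijective φ := by
    constructor
    · have key : ∀ i j : Fin r, (i : ℕ) < j → φ i ≠ φ j := by
        intro i j hij h
        apply ha
        have h1 : (ρ ^ (i : ℕ)) a = (ρ ^ (j : ℕ)) a := congrArg Subtype.val h
        have h2 : j.1 = i.1 + (j.1 - i.1) := by omega
        rw [h2, pow_add, Equiv.Perm.mul_apply] at h1
        have h3 := (ρ ^ (i : ℕ)).injective h1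
        exact fix_of_pow hr ρ hρ (d := j.1 - i.1) (by omega) (by have := j.2; omega) h3.symm
      intro i j h
      by_contra hne
      rcases lt_or_gt_of_ne (fun h' => hne (Fin.ext h') : (i : ℕ) ≠ j) with h1 | h1
      · exact key i j h1 h
      · exact key j i h1 h.symm
    · rintro ⟨b, k, rfl⟩
      refine ⟨⟨k % r, Nat.mod_lt _ hr.pos⟩, ?_⟩
      apply Subtype.ext
      change (ρ ^ (k % r)) a = (ρ ^ k) a
      rw [← pow_eq_pow_mod k hρ]
  rw [← Nat.card_eq_of_bijective φ hb]
  simp

theorem card_quot_of_perm (hr : r.Prime) (ρ : Equiv.Perm Y) (hρ : ρ ^ r = 1) (s : Setoid Y)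
    (hs : ∀ a b, s.r a b ↔ ∃ k : ℕ, (ρ ^ k) a = b) :
    Nat.card (Quotient s) = (Nat.card Y - Nat.card {a // ρ a = a}) / r + Nat.card {a // ρ a = a} := by
  classical
  haveI := Fintype.ofFinite Y
  haveI : Fintype (Quotient s) := Fintype.ofFinite _
  -- the fibres
  let fx : Quotient s → Prop := fun q => ∃ a, Quotient.mk s a = q ∧ ρ a = a
  have hfib : ∀ q : Quotient s, Nat.card {b // Quotient.mk s b = q} = if fx q then 1 else r := by
    intro q
    obtain ⟨a, rfl⟩ := Quotient.mk_surjective q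
    have hiff : ∀ b, Quotient.mk s b = Quotient.mk s a ↔ ∃ k : ℕ, (ρ ^ k) a = b := by
      intro b
      rw [Quotient.eq]
      exact ⟨fun h => (hs a b).1 (s.symm' h), fun h => s.symm' ((hs a b).2 h)⟩
    split_ifs with h
    · obtain ⟨a', ha', hf⟩ := h
      rw [Nat.card_eq_one_iff_unique]
      refine ⟨⟨?_⟩, ⟨a, rfl⟩⟩
      have hall : ∀ b : {b // Quotient.mk s b = Quotient.mk s a}, b.1 = a' := by
        rintro ⟨b, hb⟩
        have h1 : Quotient.mk s b = Quotient.mk s a' := hb.trans ha'.symm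
        have h2 : s.r a' b := by
          rw [Quotient.eq] at h1
          exact s.symm' h1
        obtain ⟨k, hk⟩ := (hs a' b).1 h2
        have h3 : ∀ k : ℕ, (ρ ^ k) a' = a' := by
          intro k
          induction k with
          | zero => rfl
          | succ k ih => rw [pow_succ, Equiv.Perm.mul_apply, hf, ih]
        change b = a'
        rw [← hk, h3]
      intro x y
      exact Subtype.ext ((hall x).trans (hall y).symm)
    · have hne : ρ a ≠ a := fun h1 => h ⟨a, rfl, h1⟩
      rw [← card_class_of_ne hr ρ hρ hne]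
      exact Nat.card_congr (Equiv.subtypeEquivRight hiff)
  have hsum : Nat.card Y = ∑ q : Quotient s, (if fx q then 1 else r) := by
    have h1 := Nat.card_congr (Equiv.sigmaFiberEquiv (Quotient.mk s))
    rw [Nat.card_sigma] at h1
    rw [← h1]
    exact Finset.sum_congr rfl fun q _ => hfib q
  have hfx : Nat.card {a // ρ a = a} = (Finset.univ.filter fx).card := by
    rw [← Fintype.card_subtype, ← Nat.card_eq_fintype_card]
    let ψ : {a // ρ a = a} → {q // fx q} := fun a => ⟨Quotient.mk s a.1, a.1, rfl, a.2⟩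
    refine Nat.card_eq_of_bijective ψ ⟨?_, ?_⟩
    · rintro ⟨a, ha⟩ ⟨b, hb⟩ h
      have h1 : Quotient.mk s a = Quotient.mk s b := congrArg Subtype.val h
      have h2 : s.r b a := Quotient.eq.1 h1 |> s.symm'
      obtain ⟨k, hk⟩ := (hs b a).1 h2
      have h3 : ∀ k : ℕ, (ρ ^ k) b = b := by
        intro k
        induction k with
        | zero => rfl
        | succ k ih => rw [pow_succ, Equiv.Perm.mul_apply, hb, ih]
      apply Subtype.ext
      change a = b
      rw [← hk, h3]
    · rintro ⟨q, a, rfl, ha⟩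
      exact ⟨⟨a, ha⟩, rfl⟩
  have hsum2 : ∑ q : Quotient s, (if fx q then 1 else r) =
      (Finset.univ.filter fx).card + r * (Finset.univ.filter (fun q => ¬ fx q)).card := by
    rw [Finset.sum_ite, Finset.sum_const, Finset.sum_const, smul_eq_mul, smul_eq_mul, mul_one, mul_comm]
  have htot : Nat.card (Quotient s) = (Finset.univ.filter fx).card + (Finset.univ.filter (fun q => ¬ fx q)).card := by
    rw [Nat.card_eq_fintype_card, ← Finset.card_univ]
    exact (Finset.card_filter_add_card_filter_not (s := Finset.univ) fx).symm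
  rw [hfx, htot, hsum, hsum2, Nat.add_sub_cancel_left, Nat.mul_div_cancel_left _ hr.pos, add_comm]

end orbit

section tuples

variable {r : ℕ} [hfr : Fact r.Prime]

/-- The rotation on tuples. -/
def rot (n : ℕ) : Equiv.Perm {a : ZMod r → ℕ // ∑ x, a x = n ∧ ∀ x, a x < n} where
  toFun a := ⟨fun y => a.1 (y - 1), by
    refine ⟨?_, fun x => a.2.2 _⟩
    exact (Equiv.sum_comp (Equiv.subRight (1 : ZMod r)) a.1).trans a.2.1⟩
  invFun a := ⟨fun y => a.1 (y + 1), by
    refine ⟨?_, fun x => a.2.2 _⟩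
    exact (Equiv.sum_comp (Equiv.addRight (1 : ZMod r)) a.1).trans a.2.1⟩
  left_inv a := by
    apply Subtype.ext
    funext y
    simp
  right_inv a := by
    apply Subtype.ext
    funext y
    simp

theorem rot_pow_apply (n k : ℕ) (a : {a : ZMod r → ℕ // ∑ x, a x = n ∧ ∀ x, a x < n}) (y : ZMod r) :
    ((rot n ^ k) a).1 y = a.1 (y - (k : ZMod r)) := by
  induction k generalizing y with
  | zero => simp
  | succ k ih =>
    rw [pow_succ', Equiv.Perm.mul_apply]
    change ((rot n ^ k) a).1 (y - 1) = _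
    rw [ih]
    congr 1
    push_cast
    ring

theorem rot_pow_r (n : ℕ) : (rot n : Equiv.Perm {a : ZMod r → ℕ // ∑ x, a x = n ∧ ∀ x, a x < n}) ^ r = 1 := by
  apply Equiv.ext
  intro a
  apply Subtype.ext
  funext y
  rw [rot_pow_apply]
  simp

/-- The rotation relation. -/
def rotSetoid (n : ℕ) : Setoid {a : ZMod r → ℕ // ∑ x, a x = n ∧ ∀ x, a x < n} where
  r a b := ∃ t : ZMod r, ∀ y, b.1 y = a.1 (y - t)
  iseqv := by
    refine ⟨fun a => ⟨0, fun y => by simp⟩, ?_, ?_⟩
    · rintro a b ⟨t, ht⟩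
      exact ⟨-t, fun y => by rw [ht]; simp⟩
    · rintro a b c ⟨t, ht⟩ ⟨u, hu⟩
      exact ⟨u + t, fun y => by rw [hu, ht]; congr 1; ring⟩

theorem rotSetoid_iff (n : ℕ) (a b : {a : ZMod r → ℕ // ∑ x, a x = n ∧ ∀ x, a x < n}) :
    (rotSetoid n).r a b ↔ ∃ k : ℕ, (rot n ^ k) a = b := by
  constructor
  · rintro ⟨t, ht⟩
    refine ⟨t.val, ?_⟩
    apply Subtype.ext
    funext y
    rw [rot_pow_apply, ZMod.natCast_zmod_val, ht]
  · rintro ⟨k, rfl⟩
    exact ⟨(k : ZMod r), fun y => rot_pow_apply n k a y⟩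

theorem card_tuples_sum (n : ℕ) : Nat.card {a : ZMod r → ℕ // ∑ x, a x = n} = (n + r - 1).choose (r - 1) := by
  classical
  have hr : r.Prime := Fact.out
  rw [← Nat.card_congr (Sym.equivNatSumOfFintype (ZMod r) n), Nat.card_eq_fintype_card, Sym.card_sym_eq_choose, ZMod.card]
  rw [show r + n - 1 = n + r - 1 by omega]
  exact Nat.choose_symm_of_eq_add (by have := hr.pos; omega)

theorem card_Y (n : ℕ) (hn : 1 ≤ n) : Nat.card {a : ZMod r → ℕ // ∑ x, a x = n ∧ ∀ x, a x < n} =
    (n + r - 1).choose (r - 1) - r := by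
  classical
  have hr : r.Prime := Fact.out
  haveI : Finite {a : ZMod r → ℕ // ∑ x, a x = n} := Finite.of_equiv _ (Sym.equivNatSumOfFintype (ZMod r) n)
  haveI := Fintype.ofFinite {a : ZMod r → ℕ // ∑ x, a x = n}
  have h1 : Nat.card {a : ZMod r → ℕ // ∑ x, a x = n ∧ ∀ x, a x < n} = Nat.card {t : {a : ZMod r → ℕ // ∑ x, a x = n} // ∀ x, t.1 x < n} :=
    (Nat.card_congr (Equiv.subtypeSubtypeEquivSubtypeInter (fun a : ZMod r → ℕ => ∑ x, a x = n) (fun a => ∀ x, a x < n))).symm
  have h2 : Nat.card {t : {a : ZMod r → ℕ // ∑ x, a x = n} // ¬ ∀ x, t.1 x < n} = r := by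
    let φ : ZMod r → {t : {a : ZMod r → ℕ // ∑ x, a x = n} // ¬ ∀ x, t.1 x < n} := fun x =>
      ⟨⟨Pi.single x n, by simp⟩, fun h => by
        have := h x
        simp at this⟩
    have hb : Function.Bijective φ := by
      constructor
      · intro x y h
        have h3 : (Pi.single x n : ZMod r → ℕ) = Pi.single y n := congrArg (fun t => t.1.1) h
        by_contra hne
        have h4 := congrFun h3 x
        rw [Pi.single_eq_same, Pi.single_eq_of_ne hne] at h4
        omega
      · rintro ⟨⟨a, ha⟩, hc⟩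
        push Not at hc
        obtain ⟨x, hx⟩ := hc
        have hx' : n ≤ a x := hx
        refine ⟨x, ?_⟩
        apply Subtype.ext
        apply Subtype.ext
        change Pi.single x n = a
        have h5 := Finset.sum_erase_add (Finset.univ) a (Finset.mem_univ x)
        rw [ha] at h5
        have h6 : ∑ y ∈ Finset.univ.erase x, a y = 0 := by omega
        have h7 := Finset.sum_eq_zero_iff.1 h6
        funext y
        by_cases hy : y = x
        · subst hy
          rw [Pi.single_eq_same]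
          omega
        · rw [Pi.single_eq_of_ne hy]
          exact (h7 y (Finset.mem_erase.2 ⟨hy, Finset.mem_univ y⟩)).symm
    rw [← Nat.card_eq_of_bijective φ hb, Nat.card_zmod]
  have h3 := Nat.card_congr (Equiv.sumCompl (fun t : {a : ZMod r → ℕ // ∑ x, a x = n} => ∀ x, t.1 x < n))
  rw [Nat.card_sum, h2, card_tuples_sum] at h3
  rw [h1, ← h3, Nat.add_sub_cancel]

theorem card_rot_fixed (n : ℕ) (hn : 1 ≤ n) [Decidable (r ∣ n)] :
    Nat.card {a : {a : ZMod r → ℕ // ∑ x, a x = n ∧ ∀ x, a x < n} // rot n a = a} = if r ∣ n then 1 else 0 := by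
  classical
  have hr : r.Prime := Fact.out
  have hconst : ∀ a : {a : ZMod r → ℕ // ∑ x, a x = n ∧ ∀ x, a x < n}, rot n a = a → ∀ y, a.1 y = a.1 0 := by
    intro a ha y
    have h1 : ∀ k : ℕ, a.1 (-(k : ZMod r)) = a.1 0 := by
      intro k
      have h2 : (rot n ^ k) a = a := by
        induction k with
        | zero => rfl
        | succ k ih => rw [pow_succ, Equiv.Perm.mul_apply, ha, ih]
      have h3 := rot_pow_apply n k a 0
      rw [h2] at h3
      rw [h3]
      simp
    have h4 := h1 (-y).val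
    rw [ZMod.natCast_zmod_val] at h4
    simpa using h4
  split_ifs with hd
  · obtain ⟨m, hm⟩ := hd
    have hm0 : 0 < m := by
      rcases Nat.eq_zero_or_pos m with h | h
      · rw [h, mul_zero] at hm
        omega
      · exact h
    rw [Nat.card_eq_one_iff_unique]
    refine ⟨⟨?_⟩, ⟨⟨fun _ => m, ?_, fun x => ?_⟩, ?_⟩⟩
    · rintro ⟨a, ha⟩ ⟨b, hb⟩
      apply Subtype.ext
      apply Subtype.ext
      have h1 := hconst a ha
      have h2 := hconst b hb
      have h3 : r * a.1 0 = n := by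
        have := a.2.1
        rw [Finset.sum_congr rfl (fun y _ => h1 y), Finset.sum_const, Finset.card_univ, ZMod.card, smul_eq_mul] at this
        exact this
      have h4 : r * b.1 0 = n := by
        have := b.2.1
        rw [Finset.sum_congr rfl (fun y _ => h2 y), Finset.sum_const, Finset.card_univ, ZMod.card, smul_eq_mul] at this
        exact this
      have h5 : a.1 0 = b.1 0 := Nat.eq_of_mul_eq_mul_left hr.pos (h3.trans h4.symm)
      funext y
      rw [h1, h2, h5]
    · rw [Finset.sum_const, Finset.card_univ, ZMod.card, smul_eq_mul, hm]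
    · rw [hm]
      have := hr.two_le
      nlinarith
    · apply Subtype.ext
      rfl
  · have : IsEmpty {a : {a : ZMod r → ℕ // ∑ x, a x = n ∧ ∀ x, a x < n} // rot n a = a} := ⟨fun a => by
      apply hd
      have h1 := hconst a.1 a.2
      have h2 := a.1.2.1
      rw [Finset.sum_congr rfl (fun y _ => h1 y), Finset.sum_const, Finset.card_univ, ZMod.card, smul_eq_mul] at h2
      exact ⟨_, h2.symm⟩⟩
    exact Nat.card_of_isEmpty

instance finite_Y (n : ℕ) : Finite {a : ZMod r → ℕ // ∑ x, a x = n ∧ ∀ x, a x < n} := by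
  haveI : Finite {a : ZMod r → ℕ // ∑ x, a x = n} := Finite.of_equiv _ (Sym.equivNatSumOfFintype (ZMod r) n)
  exact Finite.of_equiv _ (Equiv.subtypeSubtypeEquivSubtypeInter (fun a : ZMod r → ℕ => ∑ x, a x = n) (fun a => ∀ x, a x < n))

theorem card_rotQuot (n : ℕ) (hn : 1 ≤ n) [Decidable (r ∣ n)] :
    Nat.card (Quotient (rotSetoid (r := r) n)) =
      ((n + r - 1).choose (r - 1) - r - (if r ∣ n then 1 else 0)) / r + (if r ∣ n then 1 else 0) := by
  have hr : r.Prime := Fact.out
  rw [card_quot_of_perm hr (rot n) (rot_pow_r n) (rotSetoid n) (rotSetoid_iff n), card_Y n hn, card_rot_fixed n hn]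

end tuples

section lin

universe u

variable {K : Type u} [Field K] [Fintype K]

theorem isConj_of_charpoly {n : ℕ} (A B : GL (Fin n) K) {m m' : ℕ} (hm : (m : K) ≠ 0) (hm' : (m' : K) ≠ 0)
    (hA : A ^ m = 1) (hB : B ^ m' = 1)
    (hc : (A : Matrix (Fin n) (Fin n) K).charpoly = (B : Matrix (Fin n) (Fin n) K).charpoly) : IsConj A B := by
  have hA' : (A : Matrix (Fin n) (Fin n) K) ^ m = 1 := by
    have := congrArg Units.val hA
    rwa [Units.val_pow_eq_pow_val, Units.val_one] at this
  have hB' : (B : Matrix (Fin n) (Fin n) K) ^ m' = 1 := by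
    have := congrArg Units.val hB
    rwa [Units.val_pow_eq_pow_val, Units.val_one] at this
  obtain ⟨Y, hY, hYAB⟩ := Cfsg.Agent.Lib.SemisimpleGL.mat_conj hm hm' hA' hB' hc
  let u := Matrix.GeneralLinearGroup.mkOfDetNeZero Y hY
  refine isConj_iff.2 ⟨u, ?_⟩
  have h1 : u * A = B * u := Units.ext hYAB
  rw [h1, mul_inv_cancel_right]

theorem charpoly_of_isConj {n : ℕ} {A B : GL (Fin n) K} (h : IsConj A B) :
    (A : Matrix (Fin n) (Fin n) K).charpoly = (B : Matrix (Fin n) (Fin n) K).charpoly := by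
  obtain ⟨u, hu⟩ := isConj_iff.1 h
  rw [← hu, Units.val_mul, Units.val_mul, Matrix.coe_units_inv]
  exact (Matrix.charpoly_units_conj u (A : Matrix (Fin n) (Fin n) K)).symm

/-- Irreducible factors of the characteristic polynomial of a matrix whose power is scalar. -/
theorem dvd_of_pow_scalar {n r : ℕ} {A : Matrix (Fin n) (Fin n) K} {l : K}
    (hA : A ^ r = Matrix.diagonal fun _ => l) {g : K[X]} (hi : Irreducible g) (hd : g ∣ A.charpoly) :
    g ∣ X ^ r - C l := by
  haveI : Fact (Irreducible g) := ⟨hi⟩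
  obtain ⟨α, hα⟩ : ∃ α : AdjoinRoot g, α = AdjoinRoot.root g := ⟨_, rfl⟩
  have hroot : (A.charpoly.map (algebraMap K (AdjoinRoot g))).IsRoot α := by
    obtain ⟨h, hh⟩ := hd
    rw [hh, Polynomial.map_mul, IsRoot.def, eval_mul]
    have h1 : eval α (g.map (algebraMap K (AdjoinRoot g))) = 0 := by
      rw [hα, eval_map, AdjoinRoot.algebraMap_eq]
      exact AdjoinRoot.eval₂_root g
    rw [h1, zero_mul]
  let A' : Matrix (Fin n) (Fin n) (AdjoinRoot g) := A.map (algebraMap K (AdjoinRoot g))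
  have hc : A'.charpoly = A.charpoly.map (algebraMap K (AdjoinRoot g)) := (Matrix.charpoly_map A (algebraMap K (AdjoinRoot g)))
  let T : Module.End (AdjoinRoot g) (Fin n → AdjoinRoot g) := Matrix.toLin' A'
  have hT : T.charpoly = A'.charpoly := Matrix.charpoly_toLin' A'
  have hev : T.HasEigenvalue α := by
    rw [Module.End.hasEigenvalue_iff_isRoot_charpoly, hT, hc]
    exact hroot
  obtain ⟨v, hv⟩ := hev.exists_hasEigenvector
  have h1 : (T ^ r) v = α ^ r • v := hv.pow_apply r
  have h2 : A' ^ r = Matrix.diagonal fun _ => algebraMap K (AdjoinRoot g) l := by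
    change A.map (algebraMap K (AdjoinRoot g)) ^ r = _
    have h3 : A.map (algebraMap K (AdjoinRoot g)) = (algebraMap K (AdjoinRoot g)).mapMatrix A := rfl
    rw [h3, ← map_pow, hA]
    ext i j
    by_cases hij : i = j
    · subst hij
      simp
    · simp [hij]
  have h4 : (T ^ r) v = algebraMap K (AdjoinRoot g) l • v := by
    have h5 : T ^ r = Matrix.toLin' (A' ^ r) := by
      have := map_pow (Matrix.toLinAlgEquiv' (R := AdjoinRoot g) (n := Fin n)) A' r
      exact this.symm
    rw [h5, h2]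
    funext i
    simp [Matrix.mulVec_diagonal]
  rw [h4] at h1
  have h6 : (α ^ r - algebraMap K (AdjoinRoot g) l) • v = 0 := by
    rw [sub_smul, sub_eq_zero]
    exact h1.symm
  have h7 : α ^ r = algebraMap K (AdjoinRoot g) l := by
    rcases smul_eq_zero.1 h6 with h8 | h8
    · exact sub_eq_zero.1 h8
    · exact absurd h8 hv.2
  rw [← AdjoinRoot.mk_eq_zero, map_sub, map_pow, AdjoinRoot.mk_X, AdjoinRoot.mk_C, ← hα]
  rw [sub_eq_zero]
  exact h7

/-- A monic polynomial all of whose irreducible factors are associated to one monic irreducible. -/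
theorem eq_pow_of_factors {f π : K[X]} (hf : f.Monic) (hπ : Irreducible π) (hπm : π.Monic)
    (h : ∀ g : K[X], Irreducible g → g ∣ f → g ∣ π) : f = π ^ (f.natDegree / π.natDegree) := by
  classical
  obtain ⟨s, hs⟩ : ∃ s, s = UniqueFactorizationMonoid.normalizedFactors f := ⟨_, rfl⟩
  have h1 : s.prod = f := by
    have h3 := leadingCoeff_mul_prod_normalizedFactors f
    rw [hf.leadingCoeff, map_one, one_mul, ← hs] at h3
    exact h3
  have hmem : ∀ m ∈ s, m = π := by
    intro m hm
    rw [hs] at hm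
    obtain ⟨h3, h4, h5⟩ := (Polynomial.mem_normalizedFactors_iff hf.ne_zero).1 hm
    exact eq_of_monic_of_associated h4 hπm ((h3.dvd_irreducible_iff_associated hπ).1 (h m h3 h5))
  have h2 : s = Multiset.replicate (Multiset.card s) π := Multiset.eq_replicate_card.2 hmem
  have h3 : f = π ^ Multiset.card s := by
    rw [← h1]
    conv_lhs => rw [h2]
    rw [Multiset.prod_replicate]
  have h4 : f.natDegree = Multiset.card s * π.natDegree := by
    conv_lhs => rw [h3]
    rw [hπm.natDegree_pow]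
  have hdeg : 0 < π.natDegree := hπ.natDegree_pos
  rw [h4, Nat.mul_div_cancel _ hdeg]
  exact h3

theorem irr_pi {r : ℕ} (hr : r.Prime) {l : K} (hl : ∀ b : K, b ^ r ≠ l) : Irreducible (X ^ r - C l : K[X]) :=
  X_pow_sub_C_irreducible_of_prime hr hl

/-- The characteristic polynomial of a matrix whose power is a scalar that is not an `r`-th power. -/
theorem charpoly_of_pow {n r : ℕ} (hr : r.Prime) {A : Matrix (Fin n) (Fin n) K} {l : K}
    (hA : A ^ r = Matrix.diagonal fun _ => l) (hl : ∀ b : K, b ^ r ≠ l) :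
    r ∣ n ∧ A.charpoly = (X ^ r - C l) ^ (n / r) := by
  have hπ := irr_pi hr hl
  have hπm : (X ^ r - C l : K[X]).Monic := monic_X_pow_sub_C l hr.ne_zero
  have h1 := eq_pow_of_factors (Matrix.charpoly_monic A) hπ hπm (fun g hg hd => dvd_of_pow_scalar hA hg hd)
  rw [Matrix.charpoly_natDegree_eq_dim, natDegree_X_pow_sub_C] at h1
  simp only [Fintype.card_fin] at h1
  refine ⟨?_, h1⟩
  have h2 := congrArg natDegree h1
  rw [Matrix.charpoly_natDegree_eq_dim, hπm.natDegree_pow, natDegree_X_pow_sub_C] at h2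
  simp only [Fintype.card_fin] at h2
  exact ⟨_, by rw [mul_comm]; exact h2⟩

/-- A semisimple matrix whose characteristic polynomial is a power of a single irreducible. -/
theorem aeval_of_charpoly {n : ℕ} (hn : 1 ≤ n) {A : Matrix (Fin n) (Fin n) K} {m : ℕ} (hm : (m : K) ≠ 0)
    (hA : A ^ m = 1) {π : K[X]} (hπ : Irreducible π) (hπm : π.Monic) {j : ℕ} (hc : A.charpoly = π ^ j) :
    aeval A π = 0 := by
  haveI : Nonempty (Fin n) := ⟨⟨0, by omega⟩⟩
  have hint : IsIntegral K A := Algebra.IsIntegral.isIntegral A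
  have h1 : minpoly K A ∣ X ^ m - C 1 := minpoly.dvd _ _ (by simp [hA])
  have h2 : minpoly K A ∣ π ^ j := by
    rw [← hc]
    exact Matrix.minpoly_dvd_charpoly A
  obtain ⟨i, -, hassoc⟩ := (dvd_prime_pow hπ.prime j).1 h2
  have h3 : minpoly K A = π ^ i := eq_of_monic_of_associated (minpoly.monic hint) (hπm.pow i) hassoc
  have hsq : Squarefree (X ^ m - C 1 : K[X]) := (separable_X_pow_sub_C 1 hm one_ne_zero).squarefree
  rcases i with _ | _ | i
  · exfalso
    rw [pow_zero] at h3
    exact minpoly.ne_one K A h3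
  · rw [zero_add, pow_one] at h3
    rw [← h3]
    exact minpoly.aeval K A
  · exfalso
    have h4 : π * π ∣ minpoly K A := by
      rw [h3]
      exact ⟨π ^ i, by ring⟩
    exact hπ.not_isUnit (hsq π (h4.trans h1))

theorem pow_of_aeval {n r : ℕ} {A : Matrix (Fin n) (Fin n) K} {l : K} (h : aeval A (X ^ r - C l : K[X]) = 0) :
    A ^ r = Matrix.diagonal fun _ => l := by
  rw [map_sub, aeval_X_pow, aeval_C, sub_eq_zero] at h
  rw [h]
  ext i j
  simp [Matrix.algebraMap_matrix_apply, Matrix.diagonal_apply]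

section Pp

variable {r : ℕ} [hfr : Fact r.Prime]

/-- The polynomial with prescribed multiplicities of the roots `e x`. -/
noncomputable def Pp (e : ZMod r → K) (a : ZMod r → ℕ) : K[X] := ∏ x, (X - C (e x)) ^ a x

theorem Pp_monic (e : ZMod r → K) (a : ZMod r → ℕ) : (Pp e a).Monic :=
  monic_prod_of_monic _ _ fun x _ => (monic_X_sub_C (e x)).pow _

theorem natDegree_Pp (e : ZMod r → K) (a : ZMod r → ℕ) : (Pp e a).natDegree = ∑ x, a x := by
  rw [Pp, natDegree_prod_of_monic _ _ fun x _ => (monic_X_sub_C (e x)).pow _]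
  refine Finset.sum_congr rfl fun x _ => ?_
  rw [(monic_X_sub_C (e x)).natDegree_pow, natDegree_X_sub_C, mul_one]

theorem count_Pp [DecidableEq K] {e : ZMod r → K} (he : Function.Injective e) (a : ZMod r → ℕ) (y : ZMod r) :
    ((Pp e a).roots).count (e y) = a y := by
  have h0 : Pp e a ≠ 0 := (Pp_monic e a).ne_zero
  have h1 : (Pp e a).roots = ∑ x, a x • ({e x} : Multiset K) := by
    rw [Pp] at h0 ⊢
    rw [roots_prod _ _ h0, Multiset.bind, Multiset.join, Finset.sum_eq_multiset_sum]
    congr 1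
    refine Multiset.map_congr rfl fun x _ => ?_
    rw [roots_pow, roots_X_sub_C]
  rw [h1, Multiset.count_sum']
  simp only [Multiset.count_nsmul, Multiset.count_singleton, he.eq_iff, mul_ite, mul_one, mul_zero]
  simp

theorem Pp_inj {e : ZMod r → K} (he : Function.Injective e) {a b : ZMod r → ℕ} (h : Pp e a = Pp e b) : a = b := by
  classical
  funext y
  rw [← count_Pp he a y, ← count_Pp he b y, h]

/-- A monic polynomial whose irreducible factors divide `X ^ r - 1` has roots in the `e x`. -/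
theorem exists_Pp {e : ZMod r → K} (he : Function.Injective e) (hsurj : ∀ y : K, y ^ r = 1 → ∃ x, e x = y) {ζ : K}
    (hζ : IsPrimitiveRoot ζ r) {f : K[X]} (hf : f.Monic) (hs : ∀ g : K[X], Irreducible g → g ∣ f → g ∣ X ^ r - 1) :
    ∃ a, f = Pp e a := by
  classical
  have hr : r.Prime := Fact.out
  obtain ⟨s, hsdef⟩ : ∃ s, s = UniqueFactorizationMonoid.normalizedFactors f := ⟨_, rfl⟩
  have h1 : s.prod = f := by
    have h3 := leadingCoeff_mul_prod_normalizedFactors f
    rw [hf.leadingCoeff, map_one, one_mul, ← hsdef] at h3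
    exact h3
  have hmem : ∀ m ∈ s, ∃ x, m = X - C (e x) := by
    intro m hm
    rw [hsdef] at hm
    obtain ⟨h3, h4, h5⟩ := (Polynomial.mem_normalizedFactors_iff hf.ne_zero).1 hm
    have h6 := hs m h3 h5
    rw [X_pow_sub_one_eq_prod hr.pos hζ] at h6
    obtain ⟨μ, hμ, h7⟩ := (Prime.dvd_finsetProd_iff h3.prime _).1 h6
    have h8 : μ ^ r = 1 := (mem_nthRootsFinset hr.pos 1).1 hμ
    obtain ⟨x, rfl⟩ := hsurj μ h8
    exact ⟨x, eq_of_monic_of_associated h4 (monic_X_sub_C _) ((h3.dvd_irreducible_iff_associated (irreducible_X_sub_C _)).1 h7)⟩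
  refine ⟨fun x => s.count (X - C (e x)), ?_⟩
  have hinj : Function.Injective fun x : ZMod r => (X - C (e x) : K[X]) := by
    intro x y hxy
    apply he
    exact C_injective (sub_right_injective hxy)
  rw [← h1, Pp, Finset.prod_multiset_count s]
  have hsub : s.toFinset ⊆ Finset.univ.image fun x : ZMod r => (X - C (e x) : K[X]) := by
    intro m hm
    rw [Multiset.mem_toFinset] at hm
    obtain ⟨x, rfl⟩ := hmem m hm
    exact Finset.mem_image_of_mem _ (Finset.mem_univ x)
  rw [Finset.prod_subset hsub (fun m _ hm => by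
    rw [Multiset.mem_toFinset] at hm
    rw [Multiset.count_eq_zero.2 hm, pow_zero]), Finset.prod_image (fun x _ y _ h => hinj h)]

/-- The characteristic polynomial of a diagonal matrix. -/
theorem charpoly_diag {n : ℕ} (e : ZMod r → K) (w : Fin n → ZMod r) :
    (Matrix.diagonal fun i => e (w i)).charpoly = Pp e (fun y => (Finset.univ.filter fun i => w i = y).card) := by
  classical
  rw [Matrix.charpoly_diagonal, Pp]
  have h1 := Finset.prod_fiberwise (Finset.univ : Finset (Fin n)) w (fun i => (X - C (e (w i)) : K[X]))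
  rw [← h1]
  refine Finset.prod_congr rfl fun y _ => ?_
  rw [Finset.prod_congr rfl (g := fun _ => (X - C (e y) : K[X])) (fun i hi => by
    rw [(Finset.mem_filter.1 hi).2]), Finset.prod_const]

theorem exists_w {n : ℕ} (a : ZMod r → ℕ) (h : ∑ x, a x = n) :
    ∃ w : Fin n → ZMod r, ∀ y, (Finset.univ.filter fun i => w i = y).card = a y := by
  classical
  have hc : Fintype.card (Σ y : ZMod r, Fin (a y)) = Fintype.card (Fin n) := by
    rw [Fintype.card_sigma, Fintype.card_fin]
    simp [h]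
  obtain ⟨e⟩ := Fintype.card_eq.1 hc
  refine ⟨fun i => (e.symm i).1, fun y => ?_⟩
  have h1 : (Finset.univ.filter fun i => (e.symm i).1 = y).card = Fintype.card {i // (e.symm i).1 = y} := by
    rw [Fintype.card_subtype]
  rw [h1, ← Nat.card_eq_fintype_card]
  have h2 : Nat.card {i // (e.symm i).1 = y} = Nat.card (Fin (a y)) := by
    refine Nat.card_congr ((e.symm.subtypeEquiv (p := fun i => (e.symm i).1 = y) (q := fun s => s.1 = y) (fun i => Iff.rfl)).trans ?_)
    exact (Equiv.sigmaSubtype y)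
  rw [h2]
  simp

end Pp

end lin

section setup

universe u v

variable {K : Type u} [Field K] [Fintype K]

theorem count_of_setup {H : Type v} [Group H] {n r N : ℕ} [hfr : Fact r.Prime] (hn : 1 ≤ n)
    (ι : H →* GL (Fin n) K) (hι : Function.Injective ι) (c₀ : K) (hc₀ : orderOf c₀ = N) (hN : 0 < N) (hrN : r ∣ N)
    (hrK : (r : K) ≠ 0) (hNK : (N : K) ≠ 0)
    (hZ : ∀ z : H, z ∈ Subgroup.center H ↔ ∃ k : ℕ, ((ι z : GL (Fin n) K) : Matrix (Fin n) (Fin n) K) = Matrix.diagonal fun _ => c₀ ^ k)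
    (hconj : ∀ g g' : H, IsConj (ι g) (ι g') → IsConj g g')
    (hdiag : ∀ w : Fin n → K, (∀ i, w i ^ N = 1) → ∃ g : H, ((ι g : GL (Fin n) K) : Matrix (Fin n) (Fin n) K) = Matrix.diagonal w)
    (hex : r ∣ n → ∀ k : ℕ, ¬ r ∣ k → ∃ g : H, (∃ m : ℕ, (m : K) ≠ 0 ∧ ι g ^ m = 1) ∧
      ((ι g : GL (Fin n) K) : Matrix (Fin n) (Fin n) K).charpoly = (X ^ r - C (c₀ ^ k)) ^ (n / r))
    (hnr : ∀ k : ℕ, ¬ r ∣ k → ∀ b : K, b ^ r ≠ c₀ ^ k) [Decidable (r ∣ n)] :
    Nat.card {C : ConjClasses (H ⧸ Subgroup.center H) // ∃ g : H ⧸ Subgroup.center H, ConjClasses.mk g = C ∧ orderOf g = r} =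
      ((n + r - 1).choose (r - 1) - r - (if r ∣ n then 1 else 0)) / r + r * (if r ∣ n then 1 else 0) := by
  classical
  have hr : r.Prime := Fact.out
  obtain ⟨M, hM⟩ : ∃ M : H → Matrix (Fin n) (Fin n) K, M = fun g => ((ι g : GL (Fin n) K) : Matrix (Fin n) (Fin n) K) := ⟨_, rfl⟩
  have hMmul : ∀ g g', M (g * g') = M g * M g' := by
    intro g g'
    rw [hM]
    change ((ι (g * g') : GL (Fin n) K) : Matrix (Fin n) (Fin n) K) = _
    rw [map_mul, Units.val_mul]
  have hMpow : ∀ g k, M (g ^ k) = M g ^ k := by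
    intro g k
    rw [hM]
    change ((ι (g ^ k) : GL (Fin n) K) : Matrix (Fin n) (Fin n) K) = _
    rw [map_pow, Units.val_pow_eq_pow_val]
  have hMone : M 1 = 1 := by
    rw [hM]
    change ((ι 1 : GL (Fin n) K) : Matrix (Fin n) (Fin n) K) = _
    rw [map_one, Units.val_one]
  have hMinj : ∀ g g', M g = M g' → g = g' := by
    intro g g' h
    apply hι
    apply Units.ext
    rw [hM] at h
    exact h
  have hMι : ∀ g, ((ι g : GL (Fin n) K) : Matrix (Fin n) (Fin n) K) = M g := by
    intro g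
    rw [hM]
  simp only [hMι] at hZ hdiag hex
  have hιpow : ∀ (g : H) (m : ℕ), g ^ m = 1 → ι g ^ m = 1 := by
    intro g m h
    rw [← map_pow, h, map_one]
  let i0 : Fin n := ⟨0, by omega⟩
  -- the root of unity
  obtain ⟨ζ, hζ⟩ : ∃ ζ, ζ = c₀ ^ (N / r) := ⟨_, rfl⟩
  have hc₀N : c₀ ^ N = 1 := by
    rw [← hc₀]
    exact pow_orderOf_eq_one c₀
  have hζord : orderOf ζ = r := by
    have hne : N / r ≠ 0 := (Nat.div_pos (Nat.le_of_dvd hN hrN) hr.pos).ne'
    rw [hζ, orderOf_pow' _ hne, hc₀, Nat.gcd_eq_right (Nat.div_dvd_of_dvd hrN), Nat.div_div_self hrN hN.ne']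
  have hζprim : IsPrimitiveRoot ζ r := by
    rw [← hζord]
    exact IsPrimitiveRoot.orderOf ζ
  obtain ⟨e, he⟩ : ∃ e : ZMod r → K, e = fun x => ζ ^ x.val := ⟨_, rfl⟩
  have heζ : ∀ x, e x = ζ ^ x.val := by
    intro x
    rw [he]
  have hζr : ζ ^ r = 1 := by
    rw [← hζord]
    exact pow_orderOf_eq_one ζ
  have heinj : Function.Injective e := by
    intro x y h
    rw [heζ, heζ] at h
    apply ZMod.val_injective
    have hx : x.val ∈ Set.Iio (orderOf ζ) := by
      rw [hζord]
      exact ZMod.val_lt x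
    have hy : y.val ∈ Set.Iio (orderOf ζ) := by
      rw [hζord]
      exact ZMod.val_lt y
    exact pow_injOn_Iio_orderOf hx hy h
  have headd : ∀ t x, e (t + x) = e t * e x := by
    intro t x
    rw [heζ, heζ, heζ, ZMod.val_add, ← pow_add, ← pow_eq_pow_mod _ hζr]
  have hepow : ∀ x, e x ^ r = 1 := by
    intro x
    rw [heζ, ← pow_mul, mul_comm, pow_mul, hζr, one_pow]
  have hesurj : ∀ y : K, y ^ r = 1 → ∃ x, e x = y := by
    intro y hy
    obtain ⟨i, hi, hiy⟩ := hζprim.eq_pow_of_pow_eq_one hy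
    refine ⟨(i : ZMod r), ?_⟩
    rw [heζ, ZMod.val_cast_of_lt hi, hiy]
  have hepowN : ∀ x, e x ^ N = 1 := by
    intro x
    obtain ⟨d, hd⟩ := hrN
    rw [hd, pow_mul, hepow, one_pow]
  have hec : ∀ x, e x = c₀ ^ (N / r * x.val) := by
    intro x
    rw [heζ, hζ, pow_mul]
  -- the generator of the centre
  obtain ⟨c, hMc⟩ := hdiag (fun _ => c₀) (fun _ => hc₀N)
  have hMck : ∀ k, M (c ^ k) = Matrix.diagonal fun _ => c₀ ^ k := by
    intro k
    rw [hMpow, hMc, Matrix.diagonal_pow]
    rfl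
  have hcN : c ^ N = 1 := by
    apply hMinj
    rw [hMck, hc₀N, hMone, Matrix.diagonal_one]
  have hrc : r ∣ orderOf c := by
    refine hrN.trans ?_
    rw [← hc₀]
    apply orderOf_dvd_of_pow_eq_one
    have h1 := hMck (orderOf c)
    rw [pow_orderOf_eq_one, hMone] at h1
    have h2 := congrFun (congrFun h1 i0) i0
    rw [Matrix.one_apply_eq, Matrix.diagonal_apply_eq] at h2
    exact h2.symm
  have hZ' : ∀ z, z ∈ Subgroup.center H ↔ ∃ k : ℕ, z = c ^ k := by
    intro z
    rw [hZ]
    constructor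
    · rintro ⟨k, hk⟩
      refine ⟨k, hMinj _ _ ?_⟩
      rw [hk, hMck]
    · rintro ⟨k, rfl⟩
      exact ⟨k, hMck k⟩
  -- scalars
  have hzt : ∀ t : ZMod r, ∃ z : H, M z = Matrix.diagonal fun _ => e t := fun t => hdiag _ (fun _ => hepowN t)
  choose zt hzt using hzt
  have hztc : ∀ t, zt t ∈ Subgroup.center H := by
    intro t
    rw [hZ]
    refine ⟨N / r * t.val, ?_⟩
    rw [hzt, ← hec]
  have hztr : ∀ t, zt t ^ r = 1 := by
    intro t
    apply hMinj
    rw [hMpow, hzt, hMone, Matrix.diagonal_pow]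
    have : ((fun _ : Fin n => e t) ^ r) = fun _ => 1 := by
      funext i
      exact hepow t
    rw [this, Matrix.diagonal_one]
  -- the representatives
  have hw : ∀ a : {a : ZMod r → ℕ // ∑ x, a x = n ∧ ∀ x, a x < n}, ∃ w : Fin n → ZMod r, ∀ y, (Finset.univ.filter fun i => w i = y).card = a.1 y :=
    fun a => exists_w a.1 a.2.1
  choose w hw using hw
  have hcl : ∀ a, ∃ g : H, M g = Matrix.diagonal fun i => e (w a i) := fun a => hdiag _ (fun i => hepowN _)
  choose cl hcl using hcl
  have hclc : ∀ a, (M (cl a)).charpoly = Pp e a.1 := by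
    intro a
    rw [hcl, charpoly_diag]
    congr 1
    funext y
    exact hw a y
  have h1 : ∀ a, cl a ^ r = 1 := by
    intro a
    apply hMinj
    rw [hMpow, hcl, hMone, Matrix.diagonal_pow]
    have : ((fun i : Fin n => e (w a i)) ^ r) = fun _ => 1 := by
      funext i
      exact hepow _
    rw [this, Matrix.diagonal_one]
  have h1' : ∀ a, cl a ∉ Subgroup.center H := by
    intro a hcen
    obtain ⟨k, hk⟩ := (hZ _).1 hcen
    rw [hcl] at hk
    have hall : ∀ i, w a i = w a i0 := by
      intro i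
      apply heinj
      have h2 := congrFun (congrFun hk i) i
      have h3 := congrFun (congrFun hk i0) i0
      rw [Matrix.diagonal_apply_eq, Matrix.diagonal_apply_eq] at h2 h3
      rw [h2, h3]
    have h4 := hw a (w a i0)
    rw [Finset.filter_true_of_mem (fun i _ => hall i), Finset.card_univ, Fintype.card_fin] at h4
    have h5 := a.2.2 (w a i0)
    omega
  have h2 : ∀ g : H, g ^ r = 1 → g ∉ Subgroup.center H → ∃ a, IsConj g (cl a) := by
    intro g hg hgn
    have hgM : M g ^ r = Matrix.diagonal fun _ => (1 : K) := by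
      rw [← hMpow, hg, hMone, Matrix.diagonal_one]
    obtain ⟨a, ha⟩ := exists_Pp heinj hesurj hζprim (Matrix.charpoly_monic (M g)) (fun f hf hd => by
      have := dvd_of_pow_scalar hgM hf hd
      rwa [map_one] at this)
    have hsum : ∑ x, a x = n := by
      rw [← natDegree_Pp e a, ← ha, Matrix.charpoly_natDegree_eq_dim, Fintype.card_fin]
    by_cases hall : ∀ x, a x < n
    · refine ⟨⟨a, hsum, hall⟩, ?_⟩
      apply hconj
      refine isConj_of_charpoly _ _ hrK hrK (hιpow _ _ hg) (hιpow _ _ (h1 _)) ?_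
      rw [hMι, hMι, hclc, ha]
    · exfalso
      push Not at hall
      obtain ⟨x, hx⟩ := hall
      have hax : ∀ y, y ≠ x → a y = 0 := by
        intro y hy
        have h5 := Finset.sum_erase_add (Finset.univ) a (Finset.mem_univ x)
        rw [hsum] at h5
        have h6 : ∑ y ∈ Finset.univ.erase x, a y = 0 := by omega
        exact (Finset.sum_eq_zero_iff.1 h6) y (Finset.mem_erase.2 ⟨hy, Finset.mem_univ y⟩)
      have haxn : a x = n := by
        have h5 := Finset.sum_erase_add (Finset.univ) a (Finset.mem_univ x)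
        rw [hsum, Finset.sum_eq_zero (fun y hy => hax y (Finset.mem_erase.1 hy).1), zero_add] at h5
        exact h5
      apply hgn
      have hcz : (M (zt x)).charpoly = Pp e a := by
        have h7 := charpoly_diag e (fun _ : Fin n => x)
        rw [hzt, h7]
        congr 1
        funext y
        by_cases hy : y = x
        · subst hy
          rw [haxn]
          simp
        · rw [hax y hy, Finset.card_eq_zero, Finset.filter_eq_empty_iff]
          intro i _ h8
          exact hy h8.symm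
      have hc1 := hconj g (zt x) (isConj_of_charpoly _ _ hrK hrK (hιpow _ _ hg) (hιpow _ _ (hztr x)) (by rw [hMι, hMι, hcz, ha]))
      obtain ⟨u, hu⟩ := isConj_iff.1 hc1.symm
      have h9 := Subgroup.mem_center_iff.1 (hztc x) u
      rw [h9, mul_inv_cancel_right] at hu
      rw [← hu]
      exact hztc x
  have hMzcl : ∀ t a, M (zt t * cl a) = Matrix.diagonal fun i => e (t + w a i) := by
    intro t a
    rw [hMmul, hzt, hcl, Matrix.diagonal_mul_diagonal]
    congr 1
    funext i
    rw [headd]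
  have hcnt : ∀ (t y : ZMod r) (a : {a : ZMod r → ℕ // ∑ x, a x = n ∧ ∀ x, a x < n}),
      (Finset.univ.filter fun i => t + w a i = y).card = a.1 (y - t) := by
    intro t y a
    rw [← hw a (y - t)]
    congr 1
    ext i
    simp only [Finset.mem_filter, Finset.mem_univ, true_and]
    rw [eq_sub_iff_add_eq, add_comm]
  have hcz : ∀ t a, (M (zt t * cl a)).charpoly = Pp e (fun y => a.1 (y - t)) := by
    intro t a
    rw [hMzcl, charpoly_diag e (fun i => t + w a i)]
    congr 1
    funext y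
    exact hcnt t y a
  have h3 : ∀ a b, (rotSetoid (r := r) n).r a b ↔ ∃ z ∈ Subgroup.center H, z ^ r = 1 ∧ IsConj (z * cl a) (cl b) := by
    intro a b
    constructor
    · rintro ⟨t, ht⟩
      refine ⟨zt t, hztc t, hztr t, ?_⟩
      apply hconj
      have hzpow : (zt t * cl a) ^ r = 1 := by
        rw [central_mul_pow (hztc t), hztr, h1, one_mul]
      refine isConj_of_charpoly _ _ hrK hrK (hιpow _ _ hzpow) (hιpow _ _ (h1 _)) ?_
      rw [hMι, hMι, hcz, hclc]
      congr 1
      funext y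
      exact (ht y).symm
    · rintro ⟨z, hz, hzr, hconj'⟩
      obtain ⟨k, hk⟩ := (hZ z).1 hz
      have h6 : (c₀ ^ k) ^ r = 1 := by
        have h7 : M (z ^ r) = 1 := by rw [hzr, hMone]
        rw [hMpow, hk, Matrix.diagonal_pow] at h7
        have h8 := congrFun (congrFun h7 i0) i0
        rw [Matrix.one_apply_eq, Matrix.diagonal_apply_eq] at h8
        exact h8
      obtain ⟨t, ht⟩ := hesurj _ h6
      have hzt' : z = zt t := by
        apply hMinj
        rw [hzt, hk, ht]
      subst hzt'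
      have h7 := charpoly_of_isConj (ι.map_isConj hconj')
      rw [hMι, hMι, hcz, hclc] at h7
      have h8 := Pp_inj heinj h7
      exact ⟨t, fun y => (congrFun h8 y).symm⟩
  have h4 : ∀ (g : H) (k : ℕ), g ^ r = c ^ k → ¬ r ∣ k → r ∣ n := by
    intro g k hg hk
    have h6 : M g ^ r = Matrix.diagonal fun _ => c₀ ^ k := by
      rw [← hMpow, hg, hMck]
    exact (charpoly_of_pow hr h6 (hnr k hk)).1
  have h4' : r ∣ n → ∀ k : ℕ, ¬ r ∣ k → ∃ g : H, g ^ r = c ^ k := by
    intro hP k hk
    obtain ⟨g, ⟨m, hm, hgm⟩, hc⟩ := hex hP k hk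
    refine ⟨g, hMinj _ _ ?_⟩
    have h6 : M g ^ m = 1 := by
      rw [← hMpow, ← hMone]
      congr 1
      apply hι
      rw [map_pow, hgm, map_one]
    have h7 := aeval_of_charpoly hn hm h6 (irr_pi hr (hnr k hk)) (monic_X_pow_sub_C _ hr.ne_zero) hc
    rw [hMpow, hMck]
    exact pow_of_aeval h7
  have h5 : ∀ (g g' : H) (k : ℕ), g ^ r = c ^ k → g' ^ r = c ^ k → ¬ r ∣ k → IsConj g g' := by
    intro g g' k hg hg' hk
    have h6 : M g ^ r = Matrix.diagonal fun _ => c₀ ^ k := by
      rw [← hMpow, hg, hMck]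
    have h7 : M g' ^ r = Matrix.diagonal fun _ => c₀ ^ k := by
      rw [← hMpow, hg', hMck]
    have h8 : ∀ g : H, g ^ r = c ^ k → g ^ (r * N) = 1 := by
      intro g hg
      rw [pow_mul, hg, ← pow_mul, mul_comm, pow_mul, hcN, one_pow]
    have hrN' : ((r * N : ℕ) : K) ≠ 0 := by
      rw [Nat.cast_mul]
      exact mul_ne_zero hrK hNK
    apply hconj
    refine isConj_of_charpoly _ _ hrN' hrN' (hιpow _ _ (h8 g hg)) (hιpow _ _ (h8 g' hg')) ?_
    rw [hMι, hMι, (charpoly_of_pow hr h6 (hnr k hk)).2, (charpoly_of_pow hr h7 (hnr k hk)).2]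
  have key := generic_classes hr c hZ' hrc cl (rotSetoid (r := r) n) h1 h1' h2 h3 (r ∣ n) h4 h4' h5
  rw [key, card_rotQuot n hn]
  have hr1 := hr.one_le
  split_ifs with hd
  · simp only [mul_one]
    omega
  · simp

end setup


end Cfsg.Agent.Lib.ProjClasses
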