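import Cfsg.Agent.Lib.Q8Aut

set_option autoImplicit false

/-! Further facts on `Aut(Q8)`: the sign character and the group `SL(2,3)`. -/

namespace Cfsg.Agent.Lib.Q8Aut2

open Cfsg.Agent.Lib.Q8Aut

/-- An automorphism of order three. -/
def al : Q8 → Q8 := fQ (QuaternionGroup.xa 0) (QuaternionGroup.xa 3)

theorem cond_al : CondQ (QuaternionGroup.xa 0, QuaternionGroup.xa 3) := by decide +kernel

theorem al_mul : ∀ x y, al (x * y) = al x * al y := fQ_mul _ cond_al

theorem conj_al : ∀ p : Q8 × Q8, CondQ p → (∀ x, fQ p.1 p.2 (fQ p.1 p.2 (fQ p.1 p.2 x)) = x) →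
    (∃ x, fQ p.1 p.2 x ≠ x) →
    ∃ r : Q8 × Q8, CondQ r ∧ ∀ x, fQ r.1 r.2 (fQ p.1 p.2 x) = al (fQ r.1 r.2 x) := by
  decide +kernel

/-- All automorphisms of order three are conjugate. -/
theorem exists_conj (β : MulAut Q8) (h3 : ∀ x, β (β (β x)) = x) (h1 : ∃ x, β x ≠ x) :
    ∃ γ : MulAut Q8, ∀ x, γ (β x) = al (γ x) := by
  have hp := aut_cond β
  have hf : ∀ x, fQ (β (QuaternionGroup.a 1)) (β (QuaternionGroup.xa 0)) x = β x :=
    fun x => (aut_apply β x).symm
  obtain ⟨r, hr, hrx⟩ := conj_al (β (QuaternionGroup.a 1), β (QuaternionGroup.xa 0)) hp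
    (by
      intro x
      show fQ _ _ (fQ _ _ (fQ _ _ x)) = x
      rw [hf, hf, hf, h3])
    (by
      obtain ⟨x, hx⟩ := h1
      refine ⟨x, ?_⟩
      show fQ _ _ x ≠ x
      rwa [hf])
  refine ⟨mkAut r hr, ?_⟩
  intro x
  rw [mkAut_apply, mkAut_apply]
  have := hrx x
  simp only [hf] at this
  exact this

/-- `SL(2,3)`. -/
abbrev SL23 := Matrix.SpecialLinearGroup (Fin 2) (ZMod 3)

/-- The matrix of `i`. -/
def Mi : SL23 := ⟨!![0, 2; 1, 0], by decide⟩

/-- The matrix of `j`. -/
def Mj : SL23 := ⟨!![1, 1; 1, 2], by decide⟩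

/-- A matrix of order three. -/
def y₀ : SL23 := ⟨!![1, 1; 0, 1], by decide⟩

/-- The embedding of `Q8`. -/
def mQ : Q8 → SL23
  | .a i => Mi ^ i.val
  | .xa i => Mj * Mi ^ i.val

/-- The normal form of elements of `SL(2,3)`. -/
def gS (s : Q8 × Fin 3) : SL23 := mQ s.1 * y₀ ^ s.2.val

/-- Iterates of the automorphism. -/
def alp (k : ℕ) (x : Q8) : Q8 := al^[k] x

/-- The product in normal form. -/
def mulS (s s' : Q8 × Fin 3) : Q8 × Fin 3 := (s.1 * alp s.2.val s'.1, s.2 + s'.2)

theorem gS_mul : ∀ s s', gS s * gS s' = gS (mulS s s') := by decide +kernel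

theorem gS_inj : Function.Injective gS := by
  have : ∀ s s', gS s = gS s' → s = s' := by decide +kernel
  exact fun s s' h => this s s' h

theorem card_SL23 : Fintype.card SL23 = 24 := by decide +kernel

theorem natCard_SL23 : Nat.card SL23 = 24 := by
  rw [Nat.card_eq_fintype_card, card_SL23]

theorem gS_bij : Function.Bijective gS := by
  apply (Fintype.bijective_iff_injective_and_card gS).mpr
  refine ⟨gS_inj, ?_⟩
  rw [card_SL23, Fintype.card_prod, Fintype.card_fin, QuaternionGroup.card]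

theorem gS_one : gS (1, 0) = 1 := by decide +kernel

theorem cond_sw : CondQ (QuaternionGroup.xa 0, QuaternionGroup.a 1) := by decide +kernel

theorem sw_inv : ∀ x, fQ (QuaternionGroup.xa 0) (QuaternionGroup.a 1)
    (fQ (QuaternionGroup.xa 0) (QuaternionGroup.a 1) x) = x := by
  decide +kernel

/-- The odd automorphism as a permutation. -/
def swP : Equiv.Perm Q8 where
  toFun := fQ (QuaternionGroup.xa 0) (QuaternionGroup.a 1)
  invFun := fQ (QuaternionGroup.xa 0) (QuaternionGroup.a 1)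
  left_inv := sw_inv
  right_inv := sw_inv

theorem sign_swP : Equiv.Perm.sign swP = -1 := by decide +kernel

/-- The sign character of `Aut(Q8)`. -/
noncomputable def sgn : MulAut Q8 →* ℤˣ := (Equiv.Perm.sign).comp (MulAut.toPerm Q8)

theorem sgn_sw : sgn (mkAut _ cond_sw) = -1 := by
  have h1 : MulAut.toPerm Q8 (mkAut _ cond_sw) = swP := by
    ext x
    rfl
  show Equiv.Perm.sign (MulAut.toPerm Q8 (mkAut _ cond_sw)) = -1
  rw [h1, sign_swP]

theorem card_ker_sgn : Nat.card sgn.ker = 12 := by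
  have h1 : sgn.range = ⊤ := by
    rw [eq_top_iff]
    intro u _
    rcases Int.units_eq_one_or u with rfl | rfl
    · exact Subgroup.one_mem _
    · exact ⟨_, sgn_sw⟩
  have h2 : sgn.ker.index = 2 := by
    rw [Subgroup.index_ker, h1, Nat.card_congr Subgroup.topEquiv.toEquiv]
    rw [Nat.card_eq_fintype_card]
    rfl
  have h3 := Subgroup.card_mul_index sgn.ker
  rw [h2, card_aut] at h3
  omega

/-- A subgroup of order divisible by `8` contains an odd automorphism. -/
theorem exists_sgn {H : Subgroup (MulAut Q8)} (hH : Nat.card H = 8 ∨ Nat.card H = 24) :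
    ∃ f ∈ H, sgn f = -1 := by
  by_contra hno
  push Not at hno
  have hle : H ≤ sgn.ker := by
    intro f hf
    rw [MonoidHom.mem_ker]
    exact (Int.units_eq_one_or _).resolve_right (hno f hf)
  have h1 := Subgroup.card_dvd_of_le hle
  rw [card_ker_sgn] at h1
  rcases hH with h | h <;> rw [h] at h1 <;> omega

/-- Conjugation commutes with iteration. -/
theorem pow_conj {G : Type*} [Group G] {T : Subgroup G} (e : T ≃* Q8) {y : G}
    (hT : ∀ t : Q8, y * (e.symm t : G) * y⁻¹ = (e.symm (al t) : G)) (k : ℕ) (t : Q8) :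
    y ^ k * (e.symm t : G) = (e.symm (alp k t) : G) * y ^ k := by
  induction k generalizing t with
  | zero => simp [alp]
  | succ k ih =>
    have h1 : alp (k + 1) t = alp k (al t) := rfl
    have h2 : y * (e.symm t : G) = (e.symm (al t) : G) * y := mul_inv_eq_iff_eq_mul.mp (hT t)
    rw [h1, pow_succ, mul_assoc, h2, ← mul_assoc, ih, mul_assoc]

/-- A homomorphism from `SL(2,3)`. -/
theorem exists_hom {G : Type*} [Group G] {T : Subgroup G} (e : T ≃* Q8) {y : G} (hy : y ^ 3 = 1)
    (hT : ∀ t : Q8, y * (e.symm t : G) * y⁻¹ = (e.symm (al t) : G)) :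
    ∃ Ψ : SL23 →* G, ∀ s : Q8 × Fin 3, Ψ (gS s) = (e.symm s.1 : G) * y ^ s.2.val := by
  let gE : (Q8 × Fin 3) ≃ SL23 := Equiv.ofBijective gS gS_bij
  have hgE : ∀ s, gE s = gS s := fun _ => rfl
  let F : Q8 × Fin 3 → G := fun s => (e.symm s.1 : G) * y ^ s.2.val
  have hF : ∀ s s', F (mulS s s') = F s * F s' := by
    intro s s'
    show (e.symm (s.1 * alp s.2.val s'.1) : G) * y ^ (s.2 + s'.2).val =
      (e.symm s.1 : G) * y ^ s.2.val * ((e.symm s'.1 : G) * y ^ s'.2.val)
    have h1 : y ^ (s.2 + s'.2).val = y ^ s.2.val * y ^ s'.2.val := by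
      rw [Fin.val_add, ← pow_add, ← pow_eq_pow_mod _ hy]
    rw [h1, map_mul]
    show (e.symm s.1 : G) * (e.symm (alp s.2.val s'.1) : G) * (y ^ s.2.val * y ^ s'.2.val) = _
    have h2 := pow_conj e hT s.2.val s'.1
    rw [mul_assoc (e.symm s.1 : G), ← mul_assoc (e.symm (alp s.2.val s'.1) : G), ← h2]
    simp only [mul_assoc]
  refine ⟨MonoidHom.mk' (fun x => F (gE.symm x)) ?_, ?_⟩
  · intro a b
    obtain ⟨s, rfl⟩ := gE.surjective a
    obtain ⟨s', rfl⟩ := gE.surjective b
    have hs : ∀ r, gE.symm (gS r) = r := fun r => gE.symm_apply_apply r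
    show F (gE.symm (gS s * gS s')) = F (gE.symm (gS s)) * F (gE.symm (gS s'))
    rw [gS_mul, hs, hs, hs, hF]
  · intro s
    show F (gE.symm (gS s)) = _
    rw [← hgE, Equiv.symm_apply_apply]

/-- Injectivity of the homomorphism. -/
theorem hom_inj {G : Type*} [Group G] {T : Subgroup G} (e : T ≃* Q8) {y : G} (hy : orderOf y = 3)
    {Ψ : SL23 →* G} (hΨ : ∀ s : Q8 × Fin 3, Ψ (gS s) = (e.symm s.1 : G) * y ^ s.2.val) :
    Function.Injective Ψ := by
  rw [injective_iff_map_eq_one]
  intro a ha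
  obtain ⟨⟨t, k⟩, rfl⟩ := gS_bij.2 a
  rw [hΨ] at ha
  simp only at ha
  have h1 : y ^ k.val = ((e.symm t)⁻¹ : T) := by
    simp only [Subgroup.coe_inv]
    exact (inv_eq_of_mul_eq_one_right ha).symm
  have h2 : orderOf (y ^ k.val) ∣ 3 := by
    apply orderOf_dvd_of_pow_eq_one
    have hy3 : y ^ 3 = 1 := by rw [← hy]; exact pow_orderOf_eq_one y
    rw [← pow_mul, mul_comm, pow_mul, hy3, one_pow]
  have h3 : orderOf (y ^ k.val) ∣ 8 := by
    apply orderOf_dvd_of_pow_eq_one
    rw [h1]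
    have h4 : ((e.symm t)⁻¹ : T) ^ 8 = 1 := by
      have h5 := pow_card_eq_one' (G := T) (x := (e.symm t)⁻¹)
      have h6 : Nat.card T = 8 := by
        rw [Nat.card_congr e.toEquiv, Nat.card_eq_fintype_card, QuaternionGroup.card]
      rwa [h6] at h5
    exact_mod_cast congrArg Subtype.val h4
  have h4 : orderOf (y ^ k.val) = 1 := Nat.eq_one_of_dvd_coprimes (by norm_num : Nat.Coprime 3 8) h2 h3
  have h5 : y ^ k.val = 1 := orderOf_eq_one_iff.mp h4
  have h6 := orderOf_dvd_of_pow_eq_one h5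
  rw [hy] at h6
  have h7 : k.val = 0 := by
    have := k.2
    omega
  have h8 : k = 0 := Fin.ext h7
  rw [h5, mul_one] at ha
  have h9 : e.symm t = 1 := Subtype.ext ha
  have h10 : t = 1 := by
    have := congrArg e h9
    rwa [MulEquiv.apply_symm_apply, map_one] at this
  rw [h8, h10, gS_one]

/-- Central products with `C₅`. -/
theorem iso_c5 {G : Type*} [Group G] [Finite G] {Ψ : SL23 →* G} (hΨ : Function.Injective Ψ) {c : G}
    (hc5 : orderOf c = 5) (hcc : ∀ g, g * c = c * g) (hcard : Nat.card G = 120) :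
    Nonempty (G ≃* SL23 × Multiplicative (ZMod 5)) := by
  have hc1 : c ^ 5 = 1 := by rw [← hc5]; exact pow_orderOf_eq_one c
  let C : Multiplicative (ZMod 5) →* G := MonoidHom.mk' (fun m => c ^ (m.toAdd).val) (by
    intro a b
    show c ^ (a.toAdd + b.toAdd).val = _
    rw [ZMod.val_add, ← pow_add, ← pow_eq_pow_mod _ hc1])
  have hC : ∀ m, C m = c ^ (m.toAdd).val := fun _ => rfl
  let P : SL23 × Multiplicative (ZMod 5) →* G :=
    MonoidHom.noncommCoprod Ψ C (fun a m => by
      rw [hC]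
      exact ((show Commute (Ψ a) c from hcc _).pow_right _))
  have hP : ∀ a m, P (a, m) = Ψ a * c ^ (m.toAdd).val := fun _ _ => rfl
  have hinj : Function.Injective P := by
    rw [injective_iff_map_eq_one]
    rintro ⟨a, m⟩ h
    rw [hP] at h
    have h1 : c ^ (m.toAdd).val = (Ψ a)⁻¹ := (inv_eq_of_mul_eq_one_right h).symm
    have h2 : orderOf (c ^ (m.toAdd).val) ∣ 5 := by
      apply orderOf_dvd_of_pow_eq_one
      rw [← pow_mul, mul_comm, pow_mul, hc1, one_pow]
    have h3 : orderOf (c ^ (m.toAdd).val) ∣ 24 := by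
      apply orderOf_dvd_of_pow_eq_one
      rw [h1, ← map_inv, ← map_pow]
      have h4 := pow_card_eq_one' (G := SL23) (x := a⁻¹)
      rw [natCard_SL23] at h4
      rw [h4, map_one]
    have h4 : orderOf (c ^ (m.toAdd).val) = 1 :=
      Nat.eq_one_of_dvd_coprimes (by norm_num : Nat.Coprime 5 24) h2 h3
    have h5 : c ^ (m.toAdd).val = 1 := orderOf_eq_one_iff.mp h4
    have h6 := orderOf_dvd_of_pow_eq_one h5
    rw [hc5] at h6
    have h7 : (m.toAdd).val = 0 := by
      have := (m.toAdd).val_lt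
      omega
    have h8 : m.toAdd = 0 := (ZMod.val_eq_zero _).mp h7
    rw [h5, mul_one] at h
    have h9 : a = 1 := hΨ (by rw [h, map_one])
    rw [h9]
    exact Prod.ext rfl h8
  have hb : Function.Bijective P := by
    apply Function.Injective.bijective_of_nat_card_le hinj
    rw [hcard, Nat.card_prod, natCard_SL23, Nat.card_congr Multiplicative.toAdd, Nat.card_zmod]
  exact ⟨(MulEquiv.ofBijective P hb).symm⟩

theorem conj_a1 : ∀ x : Q8, x * QuaternionGroup.a 1 * x⁻¹ = QuaternionGroup.a 1 ∨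
    x * QuaternionGroup.a 1 * x⁻¹ = (QuaternionGroup.a 1) ^ 3 := by decide +kernel

end Cfsg.Agent.Lib.Q8Aut2
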