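import Mathlib
import Cfsg.Agent.Lib.Q8BS
import Cfsg.Agent.S4710
import Cfsg.Agent.Lib.BlockOrth
import Cfsg.Agent.Lib.CharCentral

/-!
# The principal 2-block of a group with Sylow 2-subgroup `Q₈`, `O(G) = 1`, `G ≠ Q₈`
-/

set_option autoImplicit false

namespace Cfsg.Agent.Lib.Q8Seven

open Subgroup Cfsg Cfsg.Agent.Lib.CharBasic Cfsg.Agent.Lib.QuatSylow Cfsg.Agent.Lib.Q8Fusion
  Cfsg.Agent.Lib.Q8Core Cfsg.Agent.Lib.BlockNormal
open scoped ComplexConjugate

universe u

variable {G : Type u} [Group G] [Fintype G] {P : Sylow 2 G} {a x : G}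

/-- Characters of the principal block do not have degree divisible by 4. -/
theorem not_four_dvd (hd : QuatData (P : Subgroup G) a x 2) {M : Ideal AlgInt} (hM : IsPModular 2 M)
    {ζ : IrrCharacter G} (hζ : ζ ∈ principalBlock M G) : ¬ 4 ∣ charDegree (ζ : G → ℂ) := by
  classical
  haveI hf : Fact (Nat.Prime 2) := ⟨Nat.prime_two⟩
  haveI hMp := hM.2.1.isPrime
  have hq := Q8On.of_quatData hd
  set B₀ := principalBlock M G with hB₀def
  have hB₀ : IsPBlock M B₀ := isPBlock_principalBlock M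
  have hPcard : (Nat.card G).factorization 2 = 3 := by
    have h3 := Sylow.card_eq_multiplicity P
    rw [Cfsg.Agent.Lib.Q8Int.card_eq_eight hq] at h3
    have h4 : (2 : ℕ) ^ 3 = 2 ^ (Nat.card G).factorization 2 := h3
    exact (Nat.pow_right_injective (le_refl 2) h4).symm
  have hminexp : Cfsg.Agent.Lib.BlockQ.minExp 2 B₀ = 0 := by
    have h1 := Cfsg.Agent.Lib.BlockQ.minExp_le (p := 2) (irrOne_mem_principalBlock (G := G) M)
    have h2 : charDegree ((irrOne G : IrrCharacter G) : G → ℂ) = 1 := by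
      simp [charDegree, irrOne]
    rw [h2] at h1
    simpa using h1
  have hdef : blockDefect 2 B₀ = 3 := by
    have h1 := Cfsg.Agent.Lib.BlockQ.card_factorization_eq (M := M) (p := 2) hB₀
    omega
  intro h4
  have h1 := Cfsg.Agent.Lib.BlockQ.charDegree_factorization_eq (p := 2) hζ
  rw [hminexp, zero_add] at h1
  have h2 : 2 ≤ (charDegree (ζ : G → ℂ)).factorization 2 :=
    (Nat.Prime.pow_dvd_iff_le_factorization Nat.prime_two
      (Cfsg.Agent.Lib.CharKernel.charDegree_ne_zero ζ.2)).1 (by simpa using h4)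
  have h3 := Cfsg.Agent.S4710.height_add_two_le hM hB₀ hζ (by omega)
  omega

/-- The number of characters of the principal block. -/
theorem seven (hd : QuatData (P : Subgroup G) a x 2)
    (hO : ∀ N : Subgroup G, N.Normal → Odd (Nat.card N) → N = ⊥)
    (hG : (P : Subgroup G) ≠ ⊤) {M : Ideal AlgInt} (hM : IsPModular 2 M) :
    Nat.card (principalBlock M G) = 7 := by
  classical
  haveI hf : Fact (Nat.Prime 2) := ⟨Nat.prime_two⟩
  haveI hMp := hM.2.1.isPrime
  have hq := Q8On.of_quatData hd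
  set z := a ^ 2 with hz
  have hzz : z * z = 1 := hq.zz
  have hz1 : z ≠ 1 := hq.z1
  have hzord : orderOf z = 2 := orderOf_eq_prime (by rw [pow_two]; exact hzz) hz1
  have hcentral : ∀ g : G, g * z * g⁻¹ = z := Cfsg.Agent.Lib.Q8BS.z_central_q8 _ rfl hd hO
  have hzc : ∀ g : G, z * g = g * z := by
    intro g
    have := hcentral g
    rw [mul_inv_eq_iff_eq_mul] at this
    exact this.symm
  -- no normal complement
  have hnc : ∀ N : Subgroup G, N.Normal → ¬ N.IsComplement' (P : Subgroup G) := by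
    intro N hN hc
    apply hG
    have hNodd : Odd (Nat.card N) := by
      rw [← Nat.not_even_iff_odd]
      intro h
      apply P.not_dvd_index
      rw [hc.index_eq_card]
      exact even_iff_two_dvd.1 h
    have hNbot := hO N hN hNodd
    rw [hNbot] at hc
    have h1 := hc.card_mul
    rw [Subgroup.card_bot, one_mul] at h1
    exact Subgroup.eq_top_of_card_eq _ h1
  obtain ⟨i₁, i₂, i₃, e₁, e₂, e₃, h12, h13, h23, hi₁, hi₂, hi₃, he₁, he₂, he₃, hB₁, hB₂, hB₃,
    ha₁, ha₂, ha₃, hz₁, hz₂, hz₃, hoff, hY, hΨ⟩ := q8_struct hd hnc hM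
  -- unique involution
  have hinv : ∀ t : G, orderOf t = 2 → t = z := by
    intro t ht
    obtain ⟨s, hs⟩ := exists_conj_mem P (isPGroup_zpowers_of_orderOf (k := 1) (y := t)
      (by rw [ht]; norm_num))
    have h1 := hs t (mem_zpowers t)
    have htt : t * t = 1 := by rw [← pow_two, ← ht, pow_orderOf_eq_one]
    have h2 : (s * t * s⁻¹) * (s * t * s⁻¹) = 1 := by
      calc (s * t * s⁻¹) * (s * t * s⁻¹) = s * (t * t) * s⁻¹ := by group
        _ = 1 := by rw [htt]; group
    rcases hd.eq_one_or_of_sq h1 h2 with h3 | h3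
    · exfalso
      have h4 : t = 1 := by
        calc t = s⁻¹ * (s * t * s⁻¹) * s := by group
          _ = 1 := by rw [h3]; group
      rw [h4, orderOf_one] at ht
      omega
    · calc t = s⁻¹ * (s * t * s⁻¹) * s⁻¹⁻¹ := by group
        _ = s⁻¹ * z * s⁻¹⁻¹ := by rw [h3]
        _ = z := hcentral s⁻¹
  -- the partition of the group
  set O := Finset.univ.filter (fun g : G => Odd (orderOf g)) with hOdef
  set Y := Finset.univ.filter (fun g : G => 4 ∣ orderOf g) with hYdef
  set T := Finset.univ.filter (fun g : G => ¬ Odd (orderOf g) ∧ ¬ 4 ∣ orderOf g) with hTdef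
  have hzO : ∀ y ∈ O, orderOf (z * y) = 2 * orderOf y := by
    intro y hy
    have hyo : Odd (orderOf y) := (Finset.mem_filter.1 hy).2
    have h1 : Commute z y := hzc y
    rw [h1.orderOf_mul_eq_mul_orderOf_of_coprime (by
      rw [hzord]
      exact Nat.coprime_two_left.2 hyo), hzord]
  have hnot4 : ∀ y ∈ O, ¬ 4 ∣ orderOf (z * y) := by
    intro y hy h4
    rw [hzO y hy] at h4
    have hyo : Odd (orderOf y) := (Finset.mem_filter.1 hy).2
    obtain ⟨c, hc⟩ := h4
    obtain ⟨d, hd'⟩ := hyo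
    omega
  have hpart : ∀ w : G → ℂ, ∑ g, w g = ∑ y ∈ O, w y + ∑ y ∈ O, w (z * y) + ∑ g ∈ Y, w g := by
    intro w
    have h1 := Finset.sum_filter_add_sum_filter_not (Finset.univ : Finset G)
      (fun g : G => Odd (orderOf g)) w
    have h2 := Finset.sum_filter_add_sum_filter_not
      (Finset.univ.filter (fun g : G => ¬ Odd (orderOf g))) (fun g : G => 4 ∣ orderOf g) w
    have h3 : (Finset.univ.filter (fun g : G => ¬ Odd (orderOf g))).filter
        (fun g : G => 4 ∣ orderOf g) = Y := by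
      ext g
      simp only [Finset.mem_filter, Finset.mem_univ, true_and, hYdef]
      constructor
      · exact fun h => h.2
      · intro h
        refine ⟨?_, h⟩
        intro h5
        obtain ⟨c, hc⟩ := h
        obtain ⟨d, hd'⟩ := h5
        omega
    have h4 : (Finset.univ.filter (fun g : G => ¬ Odd (orderOf g))).filter
        (fun g : G => ¬ 4 ∣ orderOf g) = T := by
      ext g
      simp only [Finset.mem_filter, Finset.mem_univ, true_and, hTdef]
    rw [h3, h4] at h2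
    have h5 : ∑ y ∈ O, w (z * y) = ∑ g ∈ T, w g := by
      apply Finset.sum_nbij' (fun y => z * y) (fun y => z * y)
      · intro y hy
        simp only [hTdef, Finset.mem_filter, Finset.mem_univ, true_and]
        refine ⟨?_, hnot4 y hy⟩
        rw [hzO y hy]
        intro h6
        obtain ⟨c, hc⟩ := h6
        omega
      · intro g hg
        simp only [hTdef, Finset.mem_filter, Finset.mem_univ, true_and] at hg
        simp only [hOdef, Finset.mem_filter, Finset.mem_univ, true_and]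
        have hev : Even (orderOf g) := Nat.not_odd_iff_even.1 hg.1
        obtain ⟨r, hr⟩ := even_iff_two_dvd.1 hev
        have hrodd : Odd r := by
          rw [← Nat.not_even_iff_odd]
          intro h6
          apply hg.2
          obtain ⟨c, hc⟩ := h6
          exact ⟨c, by omega⟩
        have hr0 : r ≠ 0 := hrodd.pos.ne'
        have hgr : orderOf (g ^ r) = 2 := by
          rw [orderOf_pow_of_dvd hr0 ⟨2, by rw [hr]; ring⟩, hr, Nat.mul_div_cancel _ hrodd.pos]
        have h6 := hinv _ hgr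
        have h7 : (z * g) ^ r = 1 := by
          rw [(show Commute z g from hzc g).mul_pow, h6]
          obtain ⟨c, hc⟩ := hrodd
          rw [hc, pow_succ, pow_mul]
          have : z ^ 2 = 1 := by rw [pow_two, hzz]
          rw [this, one_pow, one_mul, hzz]
        exact hrodd.of_dvd_nat (orderOf_dvd_of_pow_eq_one h7)
      · intro y _
        show z * (z * y) = y
        rw [← mul_assoc, hzz, one_mul]
      · intro y _
        show z * (z * y) = y
        rw [← mul_assoc, hzz, one_mul]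
      · intro y _
        rfl
    rw [← h1, ← h2, h5]
    ring
  -- size of `Y`
  have hsum0 : ∀ ζ : IrrCharacter G, ζ ≠ irrOne G → ∑ g, (ζ : G → ℂ) g = 0 := by
    intro ζ hζ
    have h1 := classInner_irr_ne ζ.2 (isIrrCharacter_one (G := G)) (fun h => hζ (Subtype.ext h))
    unfold classInner at h1
    simp only [map_one, mul_one] at h1
    have hG' : (Nat.card G : ℂ)⁻¹ ≠ 0 := inv_ne_zero (by exact_mod_cast Nat.card_pos.ne')
    exact (mul_eq_zero.1 h1).resolve_left hG'
  have hsq : ∀ e : ℤ, (e = 1 ∨ e = -1) → (e : ℂ) * e = 1 := by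
    rintro e (rfl | rfl) <;> simp
  have hYval : ∀ g ∈ Y, (1 : ℂ) + (e₁ : ℂ) * (i₁ : G → ℂ) g + (e₂ : ℂ) * (i₂ : G → ℂ) g +
      (e₃ : ℂ) * (i₃ : G → ℂ) g = 4 := by
    intro g hg
    have hg' : 4 ∣ orderOf g := (Finset.mem_filter.1 hg).2
    rw [hY i₁ hB₁ g hg', hY i₂ hB₂ g hg', hY i₃ hB₃ g hg', ha₁, ha₂, ha₃, hsq _ he₁, hsq _ he₂,
      hsq _ he₃]
    norm_num
  have hcard : (Nat.card G : ℂ) = 4 * (Y.card : ℂ) := by
    have h1 := Finset.sum_filter_add_sum_filter_not (Finset.univ : Finset G)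
      (fun g : G => 4 ∣ orderOf g)
      (fun g => (1 : ℂ) + (e₁ : ℂ) * (i₁ : G → ℂ) g + (e₂ : ℂ) * (i₂ : G → ℂ) g +
        (e₃ : ℂ) * (i₃ : G → ℂ) g)
    rw [Finset.sum_congr rfl hYval, Finset.sum_eq_zero (s := Finset.univ.filter
      (fun g : G => ¬ 4 ∣ orderOf g)) (fun g hg => hΨ g (Finset.mem_filter.1 hg).2)] at h1
    simp only [Finset.sum_add_distrib, ← Finset.mul_sum, hsum0 i₁ hi₁, hsum0 i₂ hi₂, hsum0 i₃ hi₃,
      Finset.sum_const, Finset.card_univ, nsmul_eq_mul, mul_one, mul_zero, add_zero] at h1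
    rw [Nat.card_eq_fintype_card, ← h1]
    ring
  have hGne : (Nat.card G : ℂ) ≠ 0 := by exact_mod_cast Nat.card_pos.ne'
  have hYne : (Y.card : ℂ) ≠ 0 := by
    intro h
    rw [h, mul_zero] at hcard
    exact hGne hcard
  -- values at `z`
  have hdeg0 : ∀ ζ : IrrCharacter G, (ζ : G → ℂ) 1 ≠ 0 := fun ζ =>
    Cfsg.Agent.Lib.CharAvg.irr_one_ne_zero ζ.2
  have hcm := fun ζ : IrrCharacter G => Cfsg.Agent.Lib.CharCentral.central_mul ζ.2 hzc
  have hpm : ∀ ζ : IrrCharacter G, (ζ : G → ℂ) z = (ζ : G → ℂ) 1 ∨ (ζ : G → ℂ) z = -(ζ : G → ℂ) 1 := by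
    intro ζ
    have h1 := hcm ζ z
    rw [hzz] at h1
    have h2 : ((ζ : G → ℂ) z - (ζ : G → ℂ) 1) * ((ζ : G → ℂ) z + (ζ : G → ℂ) 1) = 0 := by
      linear_combination -h1
    rcases mul_eq_zero.1 h2 with h3 | h3
    · exact Or.inl (sub_eq_zero.1 h3)
    · exact Or.inr (eq_neg_of_add_eq_zero_left h3)
  have hplus : ∀ (ζ : IrrCharacter G) (y : G), (ζ : G → ℂ) z = (ζ : G → ℂ) 1 →
      (ζ : G → ℂ) (z * y) = (ζ : G → ℂ) y := by
    intro ζ y h
    have h1 := hcm ζ y
    rw [h] at h1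
    exact mul_left_cancel₀ (hdeg0 ζ) h1
  have hminus : ∀ (ζ : IrrCharacter G) (y : G), (ζ : G → ℂ) z = -(ζ : G → ℂ) 1 →
      (ζ : G → ℂ) (z * y) = -(ζ : G → ℂ) y := by
    intro ζ y h
    have h1 := hcm ζ y
    rw [h] at h1
    apply mul_left_cancel₀ (hdeg0 ζ)
    rw [h1]
    ring
  -- norm sums
  set N := fun ζ : IrrCharacter G => ∑ y ∈ O, (ζ : G → ℂ) y * conj ((ζ : G → ℂ) y) with hNdef
  have hN : ∀ ζ ∈ principalBlock M G, 2 * N ζ + (Y.card : ℂ) * ((ζ : G → ℂ) a * conj ((ζ : G → ℂ) a)) =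
      (Nat.card G : ℂ) := by
    intro ζ hζ
    have h1 := classInner_irr_self ζ.2
    unfold classInner at h1
    have h2 : ∑ g, (ζ : G → ℂ) g * conj ((ζ : G → ℂ) g) = (Nat.card G : ℂ) := by
      field_simp at h1
      exact h1
    rw [hpart] at h2
    rw [← h2]
    have h3 : ∑ y ∈ O, (ζ : G → ℂ) (z * y) * conj ((ζ : G → ℂ) (z * y)) = N ζ := by
      refine Finset.sum_congr rfl fun y _ => ?_
      rcases hpm ζ with h | h
      · rw [hplus ζ y h]
      · rw [hminus ζ y h, map_neg]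
        ring
    have h4 : ∑ g ∈ Y, (ζ : G → ℂ) g * conj ((ζ : G → ℂ) g) =
        (Y.card : ℂ) * ((ζ : G → ℂ) a * conj ((ζ : G → ℂ) a)) := by
      rw [Finset.sum_congr rfl (fun g hg => by rw [hY ζ hζ g (Finset.mem_filter.1 hg).2]),
        Finset.sum_const, nsmul_eq_mul]
    rw [h3, h4]
    ring
  -- block orthogonality
  have hB₀ : IsPBlock M (principalBlock M G) := isPBlock_principalBlock M
  set F₀ := (Set.toFinite (principalBlock M G)).toFinset with hF₀
  have hmemF : ∀ ζ, ζ ∈ F₀ ↔ ζ ∈ principalBlock M G := fun ζ => Set.Finite.mem_toFinset _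
  have horth : ∀ y ∈ O, ∑ ζ ∈ F₀, (ζ : G → ℂ) y * conj ((ζ : G → ℂ) (z * y)) = 0 := by
    intro y hy
    have hyo : Odd (orderOf y) := (Finset.mem_filter.1 hy).2
    have hy2 : ¬ 2 ∣ orderOf y := fun h => (Nat.not_even_iff_odd.2 hyo) (even_iff_two_dvd.2 h)
    have h1 := Cfsg.Agent.Lib.BlockOrth.block_orthogonality hM hB₀ (g := y) (h := z * y) (x := 1)
      (y := z) ⟨y, one_mul y, Commute.one_left y, ⟨0, by simp⟩, hy2⟩
      ⟨y, rfl, hzc y, ⟨1, by rw [hzord]; norm_num⟩, hy2⟩ (by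
        intro h
        have := isConj_one_right.1 h
        exact hz1 this)
    rw [finsum_mem_eq_finite_toFinset_sum _ (Set.toFinite _)] at h1
    rw [← h1]
    refine Finset.sum_congr rfl fun ζ _ => ?_
    rw [char_conj_eq_inv (IsIrrCharacter.isCharacter ζ.2)]
  set A := F₀.filter (fun ζ : IrrCharacter G => (ζ : G → ℂ) z = (ζ : G → ℂ) 1) with hA
  set Fa := F₀.filter (fun ζ : IrrCharacter G => ¬ (ζ : G → ℂ) z = (ζ : G → ℂ) 1) with hFa
  have hbal : ∑ ζ ∈ A, N ζ = ∑ ζ ∈ Fa, N ζ := by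
    have h1 : ∑ y ∈ O, ∑ ζ ∈ F₀, (ζ : G → ℂ) y * conj ((ζ : G → ℂ) (z * y)) = 0 :=
      Finset.sum_eq_zero horth
    rw [Finset.sum_comm] at h1
    have h2 : ∑ ζ ∈ A, ∑ y ∈ O, (ζ : G → ℂ) y * conj ((ζ : G → ℂ) (z * y)) +
        ∑ ζ ∈ Fa, ∑ y ∈ O, (ζ : G → ℂ) y * conj ((ζ : G → ℂ) (z * y)) =
        ∑ ζ ∈ F₀, ∑ y ∈ O, (ζ : G → ℂ) y * conj ((ζ : G → ℂ) (z * y)) :=
      Finset.sum_filter_add_sum_filter_not F₀ _ _
    rw [h1] at h2
    have h3 : ∑ ζ ∈ A, ∑ y ∈ O, (ζ : G → ℂ) y * conj ((ζ : G → ℂ) (z * y)) = ∑ ζ ∈ A, N ζ := by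
      refine Finset.sum_congr rfl fun ζ hζ => Finset.sum_congr rfl fun y _ => ?_
      rw [hplus ζ y (Finset.mem_filter.1 hζ).2]
    have h4 : ∑ ζ ∈ Fa, ∑ y ∈ O, (ζ : G → ℂ) y * conj ((ζ : G → ℂ) (z * y)) = -∑ ζ ∈ Fa, N ζ := by
      rw [← Finset.sum_neg_distrib]
      refine Finset.sum_congr rfl fun ζ hζ => ?_
      rw [hNdef]
      simp only
      rw [← Finset.sum_neg_distrib]
      refine Finset.sum_congr rfl fun y _ => ?_
      have h5 := (hpm ζ).resolve_left (Finset.mem_filter.1 hζ).2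
      rw [hminus ζ y h5, map_neg]
      ring
    rw [h3, h4] at h2
    linear_combination h2
  -- the set `A`
  have hAeq : A = {irrOne G, i₁, i₂, i₃} := by
    ext ζ
    simp only [hA, Finset.mem_filter, Finset.mem_insert, Finset.mem_singleton, hmemF]
    constructor
    · rintro ⟨hζ, hzζ⟩
      by_contra hcon
      simp only [not_or] at hcon
      obtain ⟨h0, h1, h2, h3⟩ := hcon
      have h4 := hoff ζ hζ h0 h1 h2 h3
      obtain ⟨n, m, k, hn, ht, hk⟩ := char_data hd hnc ζ.2 (ε := 0) (by simpa using h4)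
      apply not_four_dvd hd hM hζ
      rw [hn] at hzζ
      rw [ht] at hzζ
      have hm0 : m = 0 := by
        have h5 : ((4 * m : ℤ) : ℂ) = 0 := by
          push_cast
          linear_combination -hzζ
        have h6 : 4 * m = 0 := by exact_mod_cast h5
        omega
      have hdegn : ((charDegree (ζ : G → ℂ) : ℕ) : ℂ) = (n : ℂ) := by
        rw [← Cfsg.Agent.Lib.CharKernel.one_eq_charDegree (IsIrrCharacter.isCharacter ζ.2), hn]
      have hdegn' : ((charDegree (ζ : G → ℂ) : ℕ) : ℤ) = n := by exact_mod_cast hdegn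
      have h7 : (4 : ℤ) ∣ ((charDegree (ζ : G → ℂ) : ℕ) : ℤ) := by
        rw [hdegn']
        exact ⟨k, by rw [hm0] at hk; linarith⟩
      exact_mod_cast h7
    · rintro (rfl | rfl | rfl | rfl)
      · exact ⟨irrOne_mem_principalBlock M, rfl⟩
      · exact ⟨hB₁, hz₁⟩
      · exact ⟨hB₂, hz₂⟩
      · exact ⟨hB₃, hz₃⟩
  have hAcard : A.card = 4 := by
    rw [hAeq, Finset.card_insert_of_notMem, Finset.card_insert_of_notMem, Finset.card_insert_of_notMem,
      Finset.card_singleton]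
    · simpa using h23
    · simp only [Finset.mem_insert, Finset.mem_singleton, not_or]
      exact ⟨h12, h13⟩
    · simp only [Finset.mem_insert, Finset.mem_singleton, not_or]
      exact ⟨hi₁.symm, hi₂.symm, hi₃.symm⟩
  have hsq' : ∀ e : ℤ, (e = 1 ∨ e = -1) → (e : ℂ) * conj (e : ℂ) = 1 := by
    rintro e (rfl | rfl) <;> simp
  have hAval : ∀ ζ ∈ A, 2 * N ζ = 3 * (Y.card : ℂ) := by
    intro ζ hζ
    have hζ' : ζ ∈ principalBlock M G := (hmemF ζ).1 (Finset.mem_filter.1 hζ).1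
    have h1 := hN ζ hζ'
    have h2 : (ζ : G → ℂ) a * conj ((ζ : G → ℂ) a) = 1 := by
      rw [hAeq] at hζ
      simp only [Finset.mem_insert, Finset.mem_singleton] at hζ
      rcases hζ with rfl | rfl | rfl | rfl
      · show (1 : ℂ) * conj 1 = 1
        simp
      · rw [ha₁]; exact hsq' _ he₁
      · rw [ha₂]; exact hsq' _ he₂
      · rw [ha₃]; exact hsq' _ he₃
    rw [h2, hcard] at h1
    linear_combination h1
  have hFaval : ∀ ζ ∈ Fa, 2 * N ζ = 4 * (Y.card : ℂ) := by
    intro ζ hζ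
    have hζ' : ζ ∈ principalBlock M G := (hmemF ζ).1 (Finset.mem_filter.1 hζ).1
    have h1 := hN ζ hζ'
    have h5 := (hpm ζ).resolve_left (Finset.mem_filter.1 hζ).2
    have h2 : (ζ : G → ℂ) a = 0 := by
      have h3 := hminus ζ a h5
      have h4 : z * a = a⁻¹ := by
        apply eq_inv_of_mul_eq_one_left
        calc z * a * a = a ^ 2 * (a * a) := by rw [hz, mul_assoc]
          _ = a ^ 4 := by rw [← pow_two, ← pow_add]
          _ = 1 := by
            have := pow_orderOf_eq_one a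
            rwa [hd.ord] at this
      have h6 : (ζ : G → ℂ) a⁻¹ = (ζ : G → ℂ) a := by
        rw [← hd.conj]
        exact isClassFunction_of_isCharacter (IsIrrCharacter.isCharacter ζ.2) a x
      rw [h4, h6] at h3
      have h7 : (2 : ℂ) * (ζ : G → ℂ) a = 0 := by linear_combination h3
      simpa using h7
    rw [h2, hcard] at h1
    simpa using h1
  have hfinal : (Fa.card : ℂ) = 3 := by
    have h1 : 2 * ∑ ζ ∈ A, N ζ = 2 * ∑ ζ ∈ Fa, N ζ := by rw [hbal]
    rw [Finset.mul_sum, Finset.mul_sum, Finset.sum_congr rfl hAval, Finset.sum_congr rfl hFaval,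
      Finset.sum_const, Finset.sum_const, nsmul_eq_mul, nsmul_eq_mul, hAcard] at h1
    push_cast at h1
    apply mul_left_cancel₀ hYne
    linear_combination -(1 / 4 : ℂ) * h1
  have hfinal' : Fa.card = 3 := by exact_mod_cast hfinal
  rw [Nat.card_coe_set_eq, Set.ncard_eq_toFinset_card _ (Set.toFinite _), ← hF₀,
    ← Finset.card_filter_add_card_filter_not (s := F₀) (fun ζ : IrrCharacter G => (ζ : G → ℂ) z = (ζ : G → ℂ) 1)]
  show A.card + Fa.card = 7
  rw [hAcard, hfinal']

end Cfsg.Agent.Lib.Q8Seven
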