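import Mathlib
import Cfsg.Agent.Lib.ExtSpE
import Cfsg.Agent.Lib.QuadClass2

/-!
# Forms over a quadratic extension whose trace is a given symmetric form: normal form and conjugacy
-/

set_option autoImplicit false
set_option linter.unusedSectionVars false
set_option linter.unusedSimpArgs false
set_option linter.unusedVariables false

universe u v w

namespace Cfsg.Agent.Lib.QFA99

open Module QuadraticMap

section form

variable {F L V : Type*} [Field F] [Field L] [Algebra F L]
  [AddCommGroup V] [Module L V] [Module F V] [IsScalarTower F L V] [Finite F] [Module.Finite F L]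

theorem exists_form_sym {lam : L →ₗ[F] F} (hlam : lam ≠ 0) (B : V →ₗ[F] V →ₗ[F] F)
    (hsymm : ∀ u v, B u v = B v u)
    (fsa : ∀ (a : L) u v, B (a • u) v = B u (a • v))
    (fnd : ∀ u, u ≠ 0 → ∃ v, B u v ≠ 0) :
    ∃ h : LinearMap.BilinForm L V, (∀ u v, h u v = h v u) ∧ (∀ u, u ≠ 0 → ∃ v, h u v ≠ 0) ∧ ∀ u v, B u v = lam (h u v) := by
  have hex : ∀ u v, ∃ d : L, ∀ a : L, lam (a * d) = B (a • u) v := by
    intro u v
    let π' : L →ₗ[F] F :=
      { toFun := fun a => B (a • u) v
        map_add' := by
          intro a b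
          rw [add_smul, map_add, LinearMap.add_apply]
        map_smul' := by
          intro c a
          rw [smul_assoc, map_smul, LinearMap.smul_apply]
          rfl }
    obtain ⟨d, hd⟩ := Cfsg.Agent.Lib.ExtC.nondeg hlam π'
    refine ⟨d, fun a => ?_⟩
    have := LinearMap.congr_fun hd a
    change B (a • u) v = lam (d * a) at this
    rw [this, mul_comm]
  choose h0 hh0 using hex
  have uniq : ∀ u v d, (∀ a : L, lam (a * d) = B (a • u) v) → h0 u v = d := by
    intro u v d hd
    apply Cfsg.Agent.Lib.ExtSpC.lam_unique hlam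
    intro a
    rw [hh0, hd]
  let h : LinearMap.BilinForm L V := LinearMap.mk₂ L h0
    (by
      intro u u' v
      apply uniq
      intro a
      rw [mul_add, map_add, hh0, hh0, smul_add, map_add, LinearMap.add_apply])
    (by
      intro c u v
      apply uniq
      intro a
      rw [smul_eq_mul, ← mul_assoc, hh0, mul_smul])
    (by
      intro u v v'
      apply uniq
      intro a
      rw [mul_add, map_add, hh0, hh0, map_add])
    (by
      intro c u v
      apply uniq
      intro a
      rw [smul_eq_mul, ← mul_assoc, hh0, mul_comm a c, mul_smul, fsa])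
  have hh : ∀ u v, h u v = h0 u v := fun u v => rfl
  have hfu : ∀ u v, B u v = lam (h u v) := by
    intro u v
    have := hh0 u v 1
    rw [one_mul, one_smul] at this
    rw [hh, this]
  refine ⟨h, fun u v => ?_, fun u hu => ?_, hfu⟩
  · rw [hh]
    apply uniq
    intro a
    rw [hh, hh0, fsa, hsymm]
  · obtain ⟨v, hv⟩ := fnd u hu
    refine ⟨v, fun h1 => hv ?_⟩
    rw [hfu, h1, map_zero]

end form

section nf

variable {L : Type u} [Field L] {V : Type v} [AddCommGroup V] [Module L V]

/-- The quadratic form with polar form a given symmetric form. -/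
noncomputable def qOf (h : LinearMap.BilinForm L V) : QuadraticForm L V :=
  (2⁻¹ : L) • LinearMap.BilinMap.toQuadraticMap h

theorem qOf_apply (h : LinearMap.BilinForm L V) (v : V) : qOf h v = 2⁻¹ * h v v := rfl

theorem polar_qOf (h2 : (2 : L) ≠ 0) {h : LinearMap.BilinForm L V} (hs : ∀ u v, h u v = h v u) (u v : V) :
    polar (qOf h) u v = h u v := by
  simp only [QuadraticMap.polar, qOf_apply, map_add, LinearMap.add_apply]
  rw [hs v u]
  field_simp
  ring

theorem nd_qOf (h2 : (2 : L) ≠ 0) {h : LinearMap.BilinForm L V} (hs : ∀ u v, h u v = h v u)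
    (hnd : ∀ u, u ≠ 0 → ∃ v, h u v ≠ 0) : Cfsg.Agent.Lib.QuadFF.ND (qOf h) := by
  intro x hx
  by_contra hx0
  obtain ⟨v, hv⟩ := hnd x hx0
  apply hv
  rw [← polar_qOf h2 hs]
  exact hx v

variable [Finite L]

/-- Normal form of a symmetric form over a finite field of odd characteristic. -/
theorem exists_nf (h2 : (2 : L) ≠ 0) (n : ℕ) : ∀ (V : Type v) [AddCommGroup V] [Module L V] [FiniteDimensional L V]
    (_ : finrank L V = n + 1) (h : LinearMap.BilinForm L V) (_ : ∀ u v, h u v = h v u) (_ : ∀ u, u ≠ 0 → ∃ v, h u v ≠ 0),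
    ∃ (c : L) (b : Fin n → V) (w : V), c ≠ 0 ∧ (∀ i j, h (b i) (b j) = if i = j then 1 else 0) ∧ (∀ i, h (b i) w = 0) ∧ h w w = c := by
  induction n with
  | zero =>
    intro V _ _ _ hV h hs hnd
    obtain ⟨v, hv0, hv⟩ := finrank_eq_one_iff'.mp (by simpa using hV)
    obtain ⟨u, hu⟩ := hnd v hv0
    obtain ⟨s, rfl⟩ := hv u
    refine ⟨h v v, Fin.elim0, v, fun h0 => hu ?_, fun i => i.elim0, fun i => i.elim0, rfl⟩
    rw [map_smul, smul_eq_mul, h0, mul_zero]
  | succ n ih =>
    intro V _ _ _ hV h hs hnd
    obtain ⟨v, hv⟩ := Cfsg.Agent.Lib.QuadFF.exists_value (nd_qOf h2 hs hnd) (by omega) (2⁻¹ : L)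
    have hvv : h v v = 1 := by
      rw [qOf_apply] at hv
      have h3 : (2⁻¹ : L) ≠ 0 := inv_ne_zero h2
      exact mul_left_cancel₀ h3 (by rw [hv, mul_one])
    have hv0 : v ≠ 0 := by
      rintro rfl
      simp at hvv
    have hne : (h v : Module.Dual L V) ≠ 0 := by
      intro h0
      have := LinearMap.congr_fun h0 v
      rw [hvv] at this
      simp at this
    set W : Submodule L V := LinearMap.ker (h v) with hW
    have hWfin : finrank L W = n + 1 := by
      have h5 : finrank L W + 1 = finrank L V := Module.Dual.finrank_ker_add_one_of_ne_zero hne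
      omega
    have hmemW : ∀ u, u ∈ W ↔ h v u = 0 := fun u => LinearMap.mem_ker
    obtain ⟨c, b, w, hc, h1, h3, h4⟩ := ih W hWfin (h.restrict W) (fun x y => hs _ _) (by
      intro x hx
      by_contra hall
      push Not at hall
      apply hnd x.1 (fun h0 => hx (Subtype.ext h0)) |>.elim
      intro y hy
      apply hy
      have hy' : y - h v y • v ∈ W := by
        rw [hmemW, map_sub, map_smul, hvv, smul_eq_mul, mul_one, sub_self]
      have h5 := hall ⟨_, hy'⟩
      change h x.1 (y - h v y • v) = 0 at h5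
      rw [map_sub, map_smul, hs x.1 v, (hmemW _).mp x.2, smul_zero, sub_zero] at h5
      exact h5)
    refine ⟨c, Fin.cons v (fun i => (b i : V)), w, hc, ?_, ?_, h4⟩
    · intro i j
      refine Fin.cases ?_ (fun i => ?_) i <;> refine Fin.cases ?_ (fun j => ?_) j
      · simpa using hvv
      · simp only [Fin.cons_zero, Fin.cons_succ]
        rw [(hmemW _).mp (b j).2, if_neg (Fin.succ_ne_zero j).symm]
      · simp only [Fin.cons_zero, Fin.cons_succ]
        rw [hs, (hmemW _).mp (b i).2, if_neg (Fin.succ_ne_zero i)]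
      · simp only [Fin.cons_succ, Fin.succ_inj]
        exact h1 i j
    · intro i
      refine Fin.cases ?_ (fun i => ?_) i
      · simpa using (hmemW _).mp w.2
      · simpa using h3 i

end nf

/-- The model space. -/
abbrev D (n : ℕ) (L : Type*) := (Fin n → L) × L

/-- The standard form with parameter `c`. -/
def stdF {L : Type*} [Field L] {n : ℕ} (c : L) (p q : D n L) : L := (∑ i, p.1 i * q.1 i) + c * (p.2 * q.2)

section E

variable {L : Type u} [Field L] {n : ℕ}

theorem stdF_add_left (c : L) (p p' q : D n L) : stdF c (p + p') q = stdF c p q + stdF c p' q := by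
  simp only [stdF, Prod.fst_add, Prod.snd_add, Pi.add_apply, add_mul, Finset.sum_add_distrib, mul_add]
  ring

theorem stdF_add_right (c : L) (p q q' : D n L) : stdF c p (q + q') = stdF c p q + stdF c p q' := by
  simp only [stdF, Prod.fst_add, Prod.snd_add, Pi.add_apply, mul_add, Finset.sum_add_distrib]
  ring

theorem stdF_smul_left (c a : L) (p q : D n L) : stdF c (a • p) q = a * stdF c p q := by
  simp only [stdF, Prod.smul_fst, Prod.smul_snd, Pi.smul_apply, smul_eq_mul, mul_add, Finset.mul_sum]
  congr 1
  · exact Finset.sum_congr rfl fun i _ => by ring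
  · ring

theorem stdF_smul_right (c a : L) (p q : D n L) : stdF c p (a • q) = a * stdF c p q := by
  simp only [stdF, Prod.smul_fst, Prod.smul_snd, Pi.smul_apply, smul_eq_mul, mul_add, Finset.mul_sum]
  congr 1
  · exact Finset.sum_congr rfl fun i _ => by ring
  · ring

theorem stdF_comm (c : L) (p q : D n L) : stdF c p q = stdF c q p := by
  simp only [stdF, mul_comm (p.1 _), mul_comm p.2]

/-- The linear map from the model determined by a family of vectors. -/
def famMap {V : Type v} [AddCommGroup V] [Module L V] (b : Fin n → V) (w : V) : D n L →ₗ[L] V where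
  toFun p := ∑ i, p.1 i • b i + p.2 • w
  map_add' p q := by
    simp only [Prod.fst_add, Prod.snd_add, Pi.add_apply, add_smul, Finset.sum_add_distrib]
    abel
  map_smul' a p := by
    simp only [Prod.smul_fst, Prod.smul_snd, Pi.smul_apply, smul_eq_mul, mul_smul, RingHom.id_apply, smul_add, Finset.smul_sum]

theorem famMap_apply {V : Type v} [AddCommGroup V] [Module L V] (b : Fin n → V) (w : V) (p : D n L) :
    famMap b w p = ∑ i, p.1 i • b i + p.2 • w := rfl

theorem form_famMap {V : Type v} [AddCommGroup V] [Module L V] {h : LinearMap.BilinForm L V} {c : L} {b : Fin n → V} {w : V}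
    (hs : ∀ u v, h u v = h v u) (h1 : ∀ i j, h (b i) (b j) = if i = j then 1 else 0) (h3 : ∀ i, h (b i) w = 0) (h4 : h w w = c) (p q : D n L) :
    h (famMap b w p) (famMap b w q) = stdF c p q := by
  have h5 : ∀ i, h w (b i) = 0 := fun i => by rw [hs, h3]
  have e1 : ∀ i, h (b i) (famMap b w q) = q.1 i := by
    intro i
    rw [famMap_apply, map_add, map_sum, map_smul, h3]
    simp [h1]
  have e2 : h w (famMap b w q) = c * q.2 := by
    rw [famMap_apply, map_add, map_sum, map_smul, h4]
    simp [h5, mul_comm]
  rw [show famMap b w p = _ from famMap_apply b w p]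
  rw [map_add, map_sum, map_smul, LinearMap.add_apply, LinearMap.sum_apply, LinearMap.smul_apply, e2]
  simp only [map_smul, LinearMap.smul_apply, e1, smul_eq_mul, stdF]
  ring

theorem stdF_sep {c : L} (hc : c ≠ 0) {p : D n L} (hp : ∀ q, stdF c p q = 0) : p = 0 := by
  classical
  apply Prod.ext
  · funext i
    have := hp (Pi.single i 1, 0)
    simpa [stdF, Pi.single_apply] using this
  · have := hp (0, 1)
    simpa [stdF, hc] using this

end E

section conj

variable {F : Type*} {L : Type u} {V : Type v} [Field F] [Field L] [Algebra F L] [Module.Finite F L] [Finite F]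
  [AddCommGroup V] [Module F V] [FiniteDimensional F V]

/-- The model of a symmetric form with a self-adjoint action of a field. -/
theorem exists_E {lam : L →ₗ[F] F} (hlam : lam ≠ 0) (h2 : (2 : L) ≠ 0) (A : L →ₐ[F] Module.End F V)
    (B : V →ₗ[F] V →ₗ[F] F) (hsymm : ∀ u v, B u v = B v u) (hnd : ∀ u, u ≠ 0 → ∃ v, B u v ≠ 0)
    (hself : ∀ a u v, B (A a u) v = B u (A a v)) {n : ℕ} (hn : finrank F V = finrank F L * (n + 1)) :
    ∃ (c : L) (E : D n L ≃ₗ[F] V), c ≠ 0 ∧ (∀ a p, E (a • p) = A a (E p)) ∧ ∀ p q, B (E p) (E q) = lam (stdF c p q) := by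
  classical
  haveI : Finite L := Module.finite_of_finite F
  letI modL : Module L V := Module.compHom V A.toRingHom
  have hsm : ∀ (a : L) (u : V), a • u = A a u := fun _ _ => rfl
  haveI tower : IsScalarTower F L V := ⟨fun c a u => by
    rw [hsm, hsm, map_smul]
    rfl⟩
  haveI : Module.Finite L V := Module.Finite.of_restrictScalars_finite F L V
  have hfr : finrank L V = n + 1 := by
    have h1 := Module.finrank_mul_finrank F L V
    rw [hn] at h1
    exact Nat.eq_of_mul_eq_mul_left (Module.finrank_pos (R := F) (M := L)) h1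
  obtain ⟨h, hs, hh, hf⟩ := exists_form_sym hlam B hsymm (fun a u v => hself a u v) hnd
  obtain ⟨c, b, w, hc, h1, h3, h4⟩ := exists_nf h2 n V hfr h hs hh
  have hform := form_famMap hs h1 h3 h4
  have hinj : Function.Injective (famMap (L := L) b w) := by
    rw [injective_iff_map_eq_zero]
    intro p hp
    apply stdF_sep hc
    intro q
    rw [← hform, hp, map_zero, LinearMap.zero_apply]
  have hfr' : finrank L (D n L) = finrank L V := by
    rw [hfr]
    simp
  have hsurj : Function.Surjective (famMap (L := L) b w) := (LinearMap.injective_iff_surjective_of_finrank_eq_finrank hfr').mp hinj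
  let EL : D n L ≃ₗ[L] V := LinearEquiv.ofBijective (famMap (L := L) b w) ⟨hinj, hsurj⟩
  have hEL : ∀ p, EL p = famMap (L := L) b w p := fun _ => rfl
  refine ⟨c, EL.restrictScalars F, hc, fun a p => ?_, fun p q => ?_⟩
  · show EL (a • p) = A a (EL p)
    rw [map_smul]
    rfl
  · show B (EL p) (EL q) = _
    rw [hf, hEL, hEL, hform]

/-- The standard form as an `F`-bilinear form. -/
def stdB (lam : L →ₗ[F] F) (n : ℕ) (c : L) : D n L →ₗ[F] D n L →ₗ[F] F :=
  LinearMap.mk₂ F (fun p q => lam (stdF c p q))
    (fun p p' q => by rw [stdF_add_left, map_add])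
    (fun s p q => by
      have : s • p = (algebraMap F L s) • p := by
        apply Prod.ext
        · funext i
          simp [Algebra.smul_def]
        · simp [Algebra.smul_def]
      rw [this, stdF_smul_left, ← Algebra.smul_def, map_smul])
    (fun p q q' => by rw [stdF_add_right, map_add])
    (fun s p q => by
      have : s • q = (algebraMap F L s) • q := by
        apply Prod.ext
        · funext i
          simp [Algebra.smul_def]
        · simp [Algebra.smul_def]
      rw [this, stdF_smul_right, ← Algebra.smul_def, map_smul])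

theorem stdB_apply (lam : L →ₗ[F] F) (n : ℕ) (c : L) (p q : D n L) : stdB lam n c p q = lam (stdF c p q) := rfl

theorem stdB_sep {lam : L →ₗ[F] F} (hlam : lam ≠ 0) (n : ℕ) {c : L} (hc : c ≠ 0) : (stdB lam n c).SeparatingLeft := by
  intro p hp
  apply stdF_sep hc
  intro q
  by_contra hne
  apply hlam
  ext z
  have h3 := hp ((z / stdF c p q) • q)
  rw [stdB_apply, stdF_smul_right, div_mul_cancel₀ _ hne] at h3
  exact h3

theorem det_compl {M : Type*} [AddCommGroup M] [Module F M] [FiniteDimensional F M] {κ : Type*} [Fintype κ] [DecidableEq κ] (b : Basis κ F M)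
    (B : M →ₗ[F] M →ₗ[F] F) (l r : M →ₗ[F] M) :
    (LinearMap.toMatrix₂ b b (B.compl₁₂ l r)).det = LinearMap.det l * (LinearMap.toMatrix₂ b b B).det * LinearMap.det r := by
  rw [LinearMap.toMatrix₂_compl₁₂ b b b b, Matrix.det_mul, Matrix.det_mul, Matrix.det_transpose, LinearMap.det_toMatrix, LinearMap.det_toMatrix]

/-- Multiplication by `c` in the last coordinate. -/
noncomputable def mM (n : ℕ) (c : L) : D n L →ₗ[F] D n L :=
  LinearMap.prodMap LinearMap.id (Algebra.lmul F L c)

theorem mM_apply (n : ℕ) (c : L) (p : D n L) : mM (F := F) n c p = (p.1, c * p.2) := rfl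

theorem det_mM (n : ℕ) (c : L) : LinearMap.det (mM (F := F) n c) = Algebra.norm F c := by
  rw [mM, LinearMap.det_prodMap, LinearMap.det_id, one_mul, Algebra.norm_apply]

/-- The relation between parameters of isometric models. -/
theorem norm_rel {lam : L →ₗ[F] F} (hlam : lam ≠ 0) {n : ℕ} {c c' : L} (g : D n L →ₗ[F] D n L)
    (hg : ∀ p q, stdB lam n c' (g p) (g q) = stdB lam n c p q) :
    Algebra.norm F c = LinearMap.det g * LinearMap.det g * Algebra.norm F c' := by
  classical
  let b := Module.finBasis F (D n L)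
  have h1 : ∀ e : L, stdB lam n e = (stdB lam n 1).compl₁₂ (mM (F := F) n e) LinearMap.id := by
    intro e
    apply LinearMap.ext₂
    intro p q
    rw [LinearMap.compl₁₂_apply, stdB_apply, stdB_apply, mM_apply, LinearMap.id_apply]
    congr 1
    simp only [stdF]
    ring
  have h3 : stdB lam n c = (stdB lam n c').compl₁₂ g g := by
    apply LinearMap.ext₂
    intro p q
    rw [LinearMap.compl₁₂_apply, hg]
  have h4 : (LinearMap.toMatrix₂ b b (stdB lam n 1)).det ≠ 0 :=
    (LinearMap.separatingLeft_iff_det_ne_zero b).mp (stdB_sep hlam n one_ne_zero)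
  have h5 : ∀ e : L, (LinearMap.toMatrix₂ b b (stdB lam n e)).det = Algebra.norm F e * (LinearMap.toMatrix₂ b b (stdB lam n 1)).det := by
    intro e
    conv_lhs => rw [h1 e]
    rw [det_compl, det_mM, LinearMap.det_id, mul_one]
  have h6 := h5 c
  rw [h3, det_compl, h5 c'] at h6
  apply mul_right_cancel₀ h4
  rw [← h6]
  ring

/-- An element whose norm is a square is a square. -/
theorem isSquare_of_norm (h2F : (2 : F) ≠ 0) (hfr : finrank F L = 2) {a : L} (ha : a ≠ 0) (hs : IsSquare (Algebra.norm F a)) : IsSquare a := by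
  classical
  haveI : Finite L := Module.finite_of_finite F
  letI : Fintype F := Fintype.ofFinite F
  letI : Fintype L := Fintype.ofFinite L
  have hch : ringChar L ≠ 2 := by
    intro h
    have h3 : (2 : L) = 0 := by
      have := ringChar.Nat.cast_ringChar (R := L)
      rw [h] at this
      exact_mod_cast this
    apply h2F
    apply (algebraMap F L).injective
    rw [map_ofNat, h3, map_zero]
  have hch' : ringChar F ≠ 2 := by
    intro h
    apply h2F
    have := ringChar.Nat.cast_ringChar (R := F)
    rw [h] at this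
    exact_mod_cast this
  rw [FiniteField.isSquare_iff hch ha]
  set q := Fintype.card F with hq
  have hq1 : 1 < q := Fintype.one_lt_card
  have hqodd : Odd q := Nat.odd_iff.mpr (FiniteField.odd_card_of_char_ne_two hch')
  have hcardL : Fintype.card L = q ^ 2 := by
    rw [Module.card_eq_pow_finrank (K := F) (V := L), hfr]
  obtain ⟨t, ht⟩ := hqodd
  have hn := FiniteField.algebraMap_norm_eq_pow (K := F) (K' := L) (x := a)
  rw [Nat.card_eq_fintype_card, Nat.card_eq_fintype_card, hcardL, ← hq] at hn
  have he : (q ^ 2 - 1) / (q - 1) = q + 1 := by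
    have : q ^ 2 - 1 = (q + 1) * (q - 1) := by simpa using Nat.sq_sub_sq q 1
    rw [this, Nat.mul_div_cancel _ (by omega)]
  rw [he] at hn
  obtain ⟨s, hs⟩ := hs
  have hs0 : s ≠ 0 := by
    rintro rfl
    rw [mul_zero, Algebra.norm_eq_zero_iff] at hs
    exact ha hs
  have he2 : Fintype.card L / 2 = (q + 1) * t := by
    rw [hcardL, ht]
    have : (2 * t + 1) ^ 2 = 2 * ((2 * t + 1 + 1) * t) + 1 := by ring
    rw [this]
    omega
  rw [he2, pow_mul, ← hn, hs, map_mul, ← pow_two, ← pow_mul, ← map_pow]
  have : 2 * t = q - 1 := by omega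
  rw [this, FiniteField.pow_card_sub_one_eq_one s hs0, map_one]

/-- Two self-adjoint actions of the field are conjugate by an isometry. -/
theorem conj_A {lam : L →ₗ[F] F} (hlam : lam ≠ 0) (h2F : (2 : F) ≠ 0) (hfr : finrank F L = 2) (A A' : L →ₐ[F] Module.End F V)
    (B : V →ₗ[F] V →ₗ[F] F) (hsymm : ∀ u v, B u v = B v u) (hnd : ∀ u, u ≠ 0 → ∃ v, B u v ≠ 0)
    (hself : ∀ a u v, B (A a u) v = B u (A a v)) (hself' : ∀ a u v, B (A' a u) v = B u (A' a v)) {n : ℕ} (hn : finrank F V = finrank F L * (n + 1)) :
    ∃ g : V ≃ₗ[F] V, (∀ u v, B (g u) (g v) = B u v) ∧ ∀ a v, g (A a v) = A' a (g v) := by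
  classical
  have h2 : (2 : L) ≠ 0 := by
    intro h
    apply h2F
    apply (algebraMap F L).injective
    rw [map_ofNat, h, map_zero]
  obtain ⟨c, E, hc, hE1, hE2⟩ := exists_E hlam h2 A B hsymm hnd hself hn
  obtain ⟨c', E', hc', hE1', hE2'⟩ := exists_E hlam h2 A' B hsymm hnd hself' hn
  have hrel := norm_rel (c := c) (c' := c') hlam ((E.trans E'.symm).toLinearMap) (by
    intro p q
    rw [stdB_apply, stdB_apply, ← hE2', ← hE2]
    simp)
  have hN : IsSquare (Algebra.norm F (c / c')) := by
    refine ⟨LinearMap.det (E.trans E'.symm).toLinearMap, ?_⟩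
    have h3 : Algebra.norm F c' ≠ 0 := (Algebra.norm_ne_zero_iff).mpr hc'
    have h5 : Algebra.norm F (c / c') * Algebra.norm F c' = Algebra.norm F c := by
      rw [← map_mul, div_mul_cancel₀ _ hc']
    apply mul_right_cancel₀ h3
    rw [h5, hrel]
  obtain ⟨k, hk⟩ := isSquare_of_norm h2F hfr (div_ne_zero hc hc') hN
  have hk0 : k ≠ 0 := by
    rintro rfl
    rw [mul_zero] at hk
    exact div_ne_zero hc hc' hk
  have hc2 : c = c' * (k * k) := by
    rw [← hk]
    field_simp
  -- the scaling
  let S : D n L ≃ₗ[F] D n L :=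
    LinearEquiv.ofLinear (mM (F := F) n k) (mM (F := F) n k⁻¹)
      (by
        apply LinearMap.ext
        intro p
        show mM (F := F) n k (mM (F := F) n k⁻¹ p) = p
        rw [mM_apply, mM_apply, mul_inv_cancel_left₀ hk0])
      (by
        apply LinearMap.ext
        intro p
        show mM (F := F) n k⁻¹ (mM (F := F) n k p) = p
        rw [mM_apply, mM_apply, inv_mul_cancel_left₀ hk0])
  have hS : ∀ p, S p = (p.1, k * p.2) := fun p => rfl
  have hSsmul : ∀ (a : L) (p : D n L), S (a • p) = a • S p := by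
    intro a p
    rw [hS, hS]
    apply Prod.ext
    · rfl
    · simp only [Prod.smul_snd, smul_eq_mul]
      ring
  refine ⟨E.symm.trans (S.trans E'), fun u v => ?_, fun a v => ?_⟩
  · obtain ⟨p, rfl⟩ := E.surjective u
    obtain ⟨q, rfl⟩ := E.surjective v
    simp only [LinearEquiv.trans_apply, LinearEquiv.symm_apply_apply]
    rw [hE2', hE2, hS, hS]
    congr 1
    simp only [stdF]
    rw [hc2]
    ring
  · obtain ⟨p, rfl⟩ := E.surjective v
    simp only [LinearEquiv.trans_apply, LinearEquiv.symm_apply_apply]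
    rw [← hE1, LinearEquiv.symm_apply_apply, hSsmul, hE1']

end conj

end Cfsg.Agent.Lib.QFA99
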