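import Mathlib
import Cfsg.Agent.Lib.IsomBlock

/-!
# Self-adjoint square roots of a scalar, adapted to an isometry whose square is scalar
-/

set_option autoImplicit false
set_option linter.unusedSectionVars false
set_option linter.unusedSimpArgs false
set_option linter.unusedVariables false

universe u v

namespace Cfsg.Agent.Lib.QFB99

open Module Cfsg.Agent.Lib.IsomBlock

variable {F : Type*} [Field F] {V : Type u} [AddCommGroup V] [Module F V]

/-- A self-adjoint square root of the scalar `ω`. -/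
def IsTau (B : V →ₗ[F] V →ₗ[F] F) (ω : F) (T : V →ₗ[F] V) : Prop :=
  (∀ u v, B (T u) v = B u (T v)) ∧ ∀ v, T (T v) = ω • v

theorem exists_vec_ne (h2 : (2 : F) ≠ 0) {B : V →ₗ[F] V →ₗ[F] F} (hs : ∀ u v, B u v = B v u)
    (hnd : ∀ u, (∀ v, B u v = 0) → u = 0) [Nontrivial V] : ∃ v, B v v ≠ 0 := by
  by_contra hall
  push Not at hall
  obtain ⟨u, hu⟩ := exists_ne (0 : V)
  apply hu
  apply hnd
  intro w
  have h1 := hall (u + w)
  simp only [map_add, LinearMap.add_apply, hall, hs w u] at h1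
  have h3 : 2 * B u w = 0 := by linear_combination h1
  exact (mul_eq_zero.mp h3).resolve_left h2

section glue

variable [FiniteDimensional F V] {B : V →ₗ[F] V →ₗ[F] F} {ω : F}

theorem exists_dec (hB : GoodForm B) {W : Submodule F V} (hW : NDOn B W) (u : V) :
    ∃ (a : W) (b : perp B W), u = a + b := by
  have h1 := (isCompl_perp hB hW).sup_eq_top
  have h3 : u ∈ W ⊔ perp B W := by rw [h1]; trivial
  obtain ⟨a, ha, b, hb, rfl⟩ := Submodule.mem_sup.mp h3
  exact ⟨⟨a, ha⟩, ⟨b, hb⟩, rfl⟩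

/-- Gluing along an orthogonal decomposition. -/
theorem glue (hB : GoodForm B) {W : Submodule F V} (hW : NDOn B W) (T₁ : W →ₗ[F] W) (T₂ : perp B W →ₗ[F] perp B W)
    (h1s : ∀ a a' : W, B (T₁ a) a' = B a (T₁ a')) (h1q : ∀ a : W, ((T₁ (T₁ a) : W) : V) = ω • (a : V))
    (h2s : ∀ a a' : perp B W, B (T₂ a) a' = B a (T₂ a')) (h2q : ∀ a : perp B W, ((T₂ (T₂ a) : perp B W) : V) = ω • (a : V)) :
    ∃ T : V →ₗ[F] V, IsTau B ω T ∧ (∀ a : W, T a = T₁ a) ∧ ∀ b : perp B W, T b = T₂ b := by
  have hc := isCompl_perp hB hW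
  let T : V →ₗ[F] V := LinearMap.ofIsCompl hc (W.subtype ∘ₗ T₁) ((perp B W).subtype ∘ₗ T₂)
  have hT1 : ∀ a : W, T a = T₁ a := fun a => by
    rw [LinearMap.ofIsCompl_left_apply]
    rfl
  have hT2 : ∀ b : perp B W, T b = T₂ b := fun b => by
    rw [LinearMap.ofIsCompl_right_apply]
    rfl
  have hor : ∀ (a : W) (b : perp B W), B a b = 0 := fun a b => b.2 a a.2
  have hor' : ∀ (a : W) (b : perp B W), B b a = 0 := fun a b => hB.refl (hor a b)
  refine ⟨T, ⟨fun u u' => ?_, fun u => ?_⟩, hT1, hT2⟩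
  · obtain ⟨a, b, rfl⟩ := exists_dec hB hW u
    obtain ⟨a', b', rfl⟩ := exists_dec hB hW u'
    simp only [map_add, LinearMap.add_apply, hT1, hT2, hor, hor', h1s, h2s, add_zero, zero_add]
  · obtain ⟨a, b, rfl⟩ := exists_dec hB hW u
    simp only [map_add, hT1, hT2, h1q, h2q, smul_add]

theorem perp_nd (hB : GoodForm B) {W : Submodule F V} (hW : NDOn B W) (hnd : ∀ u, (∀ v, B u v = 0) → u = 0) (b : perp B W)
    (hb : ∀ b' : perp B W, B b b' = 0) : b = 0 := by
  apply Subtype.ext
  apply hnd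
  intro u
  obtain ⟨a', b', rfl⟩ := exists_dec hB hW u
  rw [map_add, hb b', add_zero]
  exact hB.refl (b.2 a' a'.2)

theorem finrank_perp (hB : GoodForm B) {W : Submodule F V} (hW : NDOn B W) :
    finrank F W + finrank F (perp B W) = finrank F V :=
  Submodule.finrank_add_eq_of_isCompl (isCompl_perp hB hW)

end glue

section plane

variable [FiniteDimensional F V] {B : V →ₗ[F] V →ₗ[F] F}

/-- The block on a plane with an orthogonal basis. -/
noncomputable def planeMap (B : V →ₗ[F] V →ₗ[F] F) (v w : V) (s y : F) : V →ₗ[F] V :=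
  ((B v v)⁻¹ • B.flip v).smulRight (s • v + (B v v * y) • w) + ((B w w)⁻¹ • B.flip w).smulRight ((B w w * y) • v - s • w)

theorem planeMap_apply (v w : V) (s y : F) (u : V) :
    planeMap B v w s y u = ((B v v)⁻¹ * B u v) • (s • v + (B v v * y) • w) + ((B w w)⁻¹ * B u w) • ((B w w * y) • v - s • w) := rfl

variable (hs : ∀ u v, B u v = B v u) {v w : V} (hv : B v v ≠ 0) (hw : B w w ≠ 0) (hvw : B v w = 0)

include hs hv hw in
theorem planeMap_self (s y : F) (u u' : V) : B (planeMap B v w s y u) u' = B u (planeMap B v w s y u') := by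
  simp only [planeMap_apply, map_add, map_sub, map_smul, LinearMap.add_apply, LinearMap.sub_apply, LinearMap.smul_apply, smul_eq_mul]
  rw [hs v u', hs w u']
  field_simp
  ring

include hs hv hw hvw in
theorem planeMap_v (s y : F) : planeMap B v w s y v = s • v + (B v v * y) • w := by
  rw [planeMap_apply, hvw]
  simp only [mul_zero, zero_smul, add_zero]
  rw [inv_mul_cancel₀ hv, one_smul]

include hs hv hw hvw in
theorem planeMap_w (s y : F) : planeMap B v w s y w = (B w w * y) • v - s • w := by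
  rw [planeMap_apply, hs w v, hvw]
  simp only [mul_zero, zero_smul, zero_add]
  rw [inv_mul_cancel₀ hw, one_smul]

theorem planeMap_mem (s y : F) (u : V) : planeMap B v w s y u ∈ Submodule.span F {v, w} := by
  have h1 : v ∈ Submodule.span F {v, w} := Submodule.subset_span (by simp)
  have h3 : w ∈ Submodule.span F {v, w} := Submodule.subset_span (by simp)
  rw [planeMap_apply]
  refine Submodule.add_mem _ (Submodule.smul_mem _ _ (Submodule.add_mem _ (Submodule.smul_mem _ _ h1) (Submodule.smul_mem _ _ h3)))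
    (Submodule.smul_mem _ _ (Submodule.sub_mem _ (Submodule.smul_mem _ _ h1) (Submodule.smul_mem _ _ h3)))

include hs hv hw hvw in
theorem planeMap_sq {ω s y : F} (hq : s * s + B v v * B w w * (y * y) = ω) {u : V} (hu : u ∈ Submodule.span F {v, w}) :
    planeMap B v w s y (planeMap B v w s y u) = ω • u := by
  obtain ⟨α, β, rfl⟩ := Submodule.mem_span_pair.mp hu
  simp only [map_add, map_smul, map_sub, planeMap_v hs hv hw hvw, planeMap_w hs hv hw hvw]
  rw [← hq]
  module

include hv hw hvw in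
theorem plane_nd (hs : ∀ u v, B u v = B v u) : NDOn B (Submodule.span F {v, w}) := by
  intro u hu h
  obtain ⟨α, β, rfl⟩ := Submodule.mem_span_pair.mp hu
  have h1 := h v (Submodule.subset_span (by simp))
  have h3 := h w (Submodule.subset_span (by simp))
  simp only [map_add, map_smul, LinearMap.add_apply, LinearMap.smul_apply, smul_eq_mul, hvw, hs w v, mul_zero, add_zero, zero_add] at h1 h3
  have h4 : α = 0 := (mul_eq_zero.mp h1).resolve_right hv
  have h5 : β = 0 := (mul_eq_zero.mp h3).resolve_right hw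
  rw [h4, h5]
  simp

include hv hw hvw in
theorem finrank_plane (hs : ∀ u v, B u v = B v u) : finrank F (Submodule.span F {v, w}) = 2 := by
  have hli : LinearIndependent F ![v, w] := by
    rw [LinearIndependent.pair_iff]
    intro α β h
    have h1 := congrArg (fun z => B z v) h
    have h3 := congrArg (fun z => B z w) h
    simp only [map_add, map_smul, LinearMap.add_apply, LinearMap.smul_apply, smul_eq_mul, hvw, hs w v, mul_zero, add_zero, zero_add, map_zero, LinearMap.zero_apply] at h1 h3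
    exact ⟨(mul_eq_zero.mp h1).resolve_right hv, (mul_eq_zero.mp h3).resolve_right hw⟩
  have := finrank_span_eq_card hli
  rw [Matrix.range_cons, Matrix.range_cons, Matrix.range_empty, Set.union_empty, Set.singleton_union] at this
  simpa using this

end plane

section main

variable [Fintype F] [FiniteDimensional F V]

theorem exists_s_y (h2 : (2 : F) ≠ 0) (c ω : F) (hc : c ≠ 0) : ∃ s y : F, s * s + c * (y * y) = ω := by
  classical
  have hodd : Fintype.card F % 2 = 1 := by
    have hch : ringChar F ≠ 2 := by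
      intro h
      apply h2
      have := ringChar.Nat.cast_ringChar (R := F)
      rw [h] at this
      exact_mod_cast this
    exact FiniteField.odd_card_of_char_ne_two hch
  obtain ⟨s, y, h⟩ := FiniteField.exists_root_sum_quadratic (R := F) (f := Polynomial.X ^ 2)
    (g := Polynomial.C c * Polynomial.X ^ 2 - Polynomial.C ω) (Polynomial.degree_X_pow 2)
    (by
      rw [Polynomial.degree_sub_eq_left_of_degree_lt]
      · exact Polynomial.degree_C_mul_X_pow 2 hc
      · rw [Polynomial.degree_C_mul_X_pow 2 hc]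
        exact lt_of_le_of_lt Polynomial.degree_C_le (by norm_num)) hodd
  refine ⟨s, y, ?_⟩
  simp only [Polynomial.eval_pow, Polynomial.eval_X, Polynomial.eval_sub, Polynomial.eval_mul, Polynomial.eval_C] at h
  linear_combination h

/-- Every nondegenerate symmetric form in even dimension has a self-adjoint square root of a given scalar. -/
theorem exists_tau (h2 : (2 : F) ≠ 0) (ω : F) (n : ℕ) : ∀ (V : Type u) [AddCommGroup V] [Module F V] [FiniteDimensional F V]
    (_ : finrank F V = 2 * n) (B : V →ₗ[F] V →ₗ[F] F) (_ : ∀ u v, B u v = B v u) (_ : ∀ u, (∀ v, B u v = 0) → u = 0),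
    ∃ T : V →ₗ[F] V, IsTau B ω T := by
  induction n with
  | zero =>
    intro V _ _ _ hV B hs hnd
    have hsub : Subsingleton V := finrank_zero_iff.mp (by simpa using hV)
    exact ⟨0, fun u v => by simp [Subsingleton.elim v 0], fun v => Subsingleton.elim _ _⟩
  | succ n ih =>
    intro V _ _ _ hV B hs hnd
    have hB : GoodForm B := Or.inr ⟨h2, hs⟩
    haveI : Nontrivial V := Module.nontrivial_of_finrank_pos (R := F) (by omega)
    obtain ⟨v, hv⟩ := exists_vec_ne h2 hs hnd
    have hv0 : NDOn B (Submodule.span F {v}) := by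
      intro u hu h
      obtain ⟨α, rfl⟩ := Submodule.mem_span_singleton.mp hu
      have h1 := h v (Submodule.mem_span_singleton_self v)
      simp only [map_smul, LinearMap.smul_apply, smul_eq_mul] at h1
      rw [(mul_eq_zero.mp h1).resolve_right hv, zero_smul]
    have hfr1 : finrank F (perp B (Submodule.span F {v})) + 1 = finrank F V := by
      have h1 := finrank_perp hB hv0
      rw [finrank_span_singleton (fun h0 => hv (by rw [h0]; simp))] at h1
      omega
    haveI : Nontrivial (perp B (Submodule.span F {v})) := Module.nontrivial_of_finrank_pos (R := F) (by omega)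
    obtain ⟨w, hw⟩ := exists_vec_ne (B := B.domRestrict₁₂ (perp B (Submodule.span F {v})) (perp B (Submodule.span F {v}))) h2 (fun _ _ => hs _ _) (perp_nd hB hv0 hnd)
    have hw' : B w.1 w.1 ≠ 0 := hw
    have hvw : B v w.1 = 0 := w.2 v (Submodule.mem_span_singleton_self v)
    obtain ⟨s, y, hsy⟩ := exists_s_y h2 (B v v * B w.1 w.1) ω (mul_ne_zero hv hw')
    set P := Submodule.span F {v, w.1} with hP
    have hPnd : NDOn B P := plane_nd hv hw' hvw hs
    have hPfin : finrank F P = 2 := finrank_plane hv hw' hvw hs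
    have hRfin : finrank F (perp B P) = 2 * n := by
      have h1 := finrank_perp hB hPnd
      omega
    obtain ⟨T₂, hT₂⟩ := ih (perp B P) hRfin (B.domRestrict₁₂ _ _) (fun _ _ => hs _ _) (perp_nd hB hPnd hnd)
    let T₀ := planeMap B v w.1 s y
    have hinv : ∀ a ∈ P, T₀ a ∈ P := fun a _ => planeMap_mem s y a
    obtain ⟨T, hT, -, -⟩ := glue (ω := ω) hB hPnd (T₀.restrict hinv) T₂
      (fun a a' => planeMap_self hs hv hw' s y a a')
      (fun a => planeMap_sq hs hv hw' hvw hsy a.2)
      (fun a a' => hT₂.1 a a')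
      (fun a => congrArg Subtype.val (hT₂.2 a))
    exact ⟨T, hT⟩

/-- An isometry with square `-1`: vectors orthogonal to their images. -/
theorem J_orth (h2 : (2 : F) ≠ 0) {B : V →ₗ[F] V →ₗ[F] F} (hs : ∀ u v, B u v = B v u) {J : V →ₗ[F] V}
    (hJ : ∀ u v, B (J u) (J v) = B u v) (hJ2 : ∀ u, J (J u) = -u) (v : V) : B v (J v) = 0 := by
  have h1 := hJ v (J v)
  rw [hJ2, map_neg, hs (J v) v] at h1
  have h3 : 2 * B v (J v) = 0 := by linear_combination -h1
  exact (mul_eq_zero.mp h3).resolve_left h2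

theorem J_inv_perp {B : V →ₗ[F] V →ₗ[F] F} {J : V →ₗ[F] V} (hJ : ∀ u v, B (J u) (J v) = B u v) (hJ2 : ∀ u, J (J u) = -u)
    {P : Submodule F V} (hP : ∀ a ∈ P, J a ∈ P) : ∀ b ∈ perp B P, J b ∈ perp B P := by
  intro b hb a ha
  have h1 := hJ (J a) b
  rw [hJ2, map_neg, LinearMap.neg_apply] at h1
  have h3 := hb (J a) (hP a ha)
  rw [h3] at h1
  simpa using h1.symm

theorem J_plane_inv {J : V →ₗ[F] V} (hJ2 : ∀ u, J (J u) = -u) (v : V) : ∀ a ∈ Submodule.span F {v, J v}, J a ∈ Submodule.span F {v, J v} := by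
  intro a ha
  obtain ⟨α, β, rfl⟩ := Submodule.mem_span_pair.mp ha
  rw [map_add, map_smul, map_smul, hJ2]
  refine Submodule.add_mem _ (Submodule.smul_mem _ _ (Submodule.subset_span (by simp))) (Submodule.smul_mem _ _ (Submodule.neg_mem _ (Submodule.subset_span (by simp))))

/-- The block on a plane `⟨v, Jv⟩` anticommutes with `J`. -/
theorem planeMap_anti {B : V →ₗ[F] V →ₗ[F] F} (hs : ∀ u v, B u v = B v u) {J : V →ₗ[F] V}
    (hJ : ∀ u v, B (J u) (J v) = B u v) (hJ2 : ∀ u, J (J u) = -u) {v : V} (s y : F) (u : V) :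
    J (planeMap B v (J v) s y u) = - planeMap B v (J v) s y (J u) := by
  have h1 : B (J u) v = - B u (J v) := by
    have h5 := hJ u (J v)
    rw [hJ2, map_neg] at h5
    rw [← h5, neg_neg]
  have h3 : B (J u) (J v) = B u v := hJ u v
  have h4 : B (J v) (J v) = B v v := hJ v v
  simp only [planeMap_apply, map_add, map_sub, map_smul, hJ2, h1, h3, h4]
  by_cases hv : B v v = 0
  · simp [hv]
  · module

/-- Gluing a plane block to an anticommuting block on the complement. -/
theorem glue_J (h2 : (2 : F) ≠ 0) {B : V →ₗ[F] V →ₗ[F] F} (hs : ∀ u v, B u v = B v u) (ω : F) {J : V →ₗ[F] V}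
    (hJ : ∀ u v, B (J u) (J v) = B u v) (hJ2 : ∀ u, J (J u) = -u) {v : V} (hv : B v v ≠ 0)
    {s y : F} (hsy : s * s + B v v * B (J v) (J v) * (y * y) = ω)
    (T₂ : perp B (Submodule.span F {v, J v}) →ₗ[F] perp B (Submodule.span F {v, J v}))
    (hT₂ : IsTau (B.domRestrict₁₂ _ _) ω T₂)
    (hRinv : ∀ b ∈ perp B (Submodule.span F {v, J v}), J b ∈ perp B (Submodule.span F {v, J v}))
    (hT₂J : ∀ u, (J.restrict hRinv) (T₂ u) = - T₂ ((J.restrict hRinv) u)) :
    ∃ T : V →ₗ[F] V, IsTau B ω T ∧ (∀ u, J (T u) = - T (J u)) ∧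
      (∀ a : Submodule.span F {v, J v}, T a = planeMap B v (J v) s y a) ∧
      ∀ b : perp B (Submodule.span F {v, J v}), T b = T₂ b := by
  have hB : GoodForm B := Or.inr ⟨h2, hs⟩
  have hw' : B (J v) (J v) ≠ 0 := by rw [hJ]; exact hv
  have hvw := J_orth h2 hs hJ hJ2 v
  have hPnd : NDOn B (Submodule.span F {v, J v}) := plane_nd hv hw' hvw hs
  let T₀ := planeMap B v (J v) s y
  have hinv : ∀ a ∈ Submodule.span F {v, J v}, T₀ a ∈ Submodule.span F {v, J v} := fun a _ => planeMap_mem s y a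
  obtain ⟨T, hT, hT1, hT3⟩ := glue (ω := ω) hB hPnd (T₀.restrict hinv) T₂
    (fun a a' => planeMap_self hs hv hw' s y a a')
    (fun a => planeMap_sq hs hv hw' hvw hsy a.2)
    (fun a a' => hT₂.1 a a')
    (fun a => congrArg Subtype.val (hT₂.2 a))
  refine ⟨T, hT, fun u => ?_, hT1, hT3⟩
  obtain ⟨a, b, rfl⟩ := exists_dec hB hPnd u
  have h5 : T (J a) = T₀ (J a) := hT1 ⟨J a, J_plane_inv hJ2 v a a.2⟩
  have h6 : T (J b) = (T₂ (J.restrict hRinv b) : V) := hT3 ⟨J b, hRinv b b.2⟩
  rw [map_add, map_add, map_add, map_add, hT1, hT3, h5, h6, neg_add]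
  congr 1
  · exact planeMap_anti hs hJ hJ2 s y a
  · have := congrArg Subtype.val (hT₂J b)
    simpa using this

/-- Self-adjoint square roots anticommuting with an isometry with square `-1`. -/
theorem exists_tau_J (h2 : (2 : F) ≠ 0) (ω : F) (n : ℕ) : ∀ (V : Type u) [AddCommGroup V] [Module F V] [FiniteDimensional F V]
    (_ : finrank F V = n) (B : V →ₗ[F] V →ₗ[F] F) (_ : ∀ u v, B u v = B v u) (_ : ∀ u, (∀ v, B u v = 0) → u = 0)
    (J : V →ₗ[F] V) (_ : ∀ u v, B (J u) (J v) = B u v) (_ : ∀ u, J (J u) = -u),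
    ∃ T : V →ₗ[F] V, IsTau B ω T ∧ ∀ u, J (T u) = - T (J u) := by
  induction n using Nat.strong_induction_on with
  | _ n ih =>
    intro V _ _ _ hV B hs hnd J hJ hJ2
    have hB : GoodForm B := Or.inr ⟨h2, hs⟩
    rcases Nat.eq_zero_or_pos n with rfl | hpos
    · have hsub : Subsingleton V := finrank_zero_iff.mp hV
      exact ⟨0, ⟨fun u v => by simp [Subsingleton.elim v 0], fun v => Subsingleton.elim _ _⟩, fun u => Subsingleton.elim _ _⟩
    haveI : Nontrivial V := Module.nontrivial_of_finrank_pos (R := F) (by omega)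
    obtain ⟨v, hv⟩ := exists_vec_ne h2 hs hnd
    have hw' : B (J v) (J v) ≠ 0 := by rw [hJ]; exact hv
    have hvw := J_orth h2 hs hJ hJ2 v
    obtain ⟨s, y, hsy⟩ := exists_s_y h2 (B v v * B (J v) (J v)) ω (mul_ne_zero hv hw')
    have hPnd : NDOn B (Submodule.span F {v, J v}) := plane_nd hv hw' hvw hs
    have hPfin : finrank F (Submodule.span F {v, J v}) = 2 := finrank_plane hv hw' hvw hs
    have hRfin : finrank F (perp B (Submodule.span F {v, J v})) < n := by
      have h1 := finrank_perp hB hPnd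
      omega
    have hRinv := J_inv_perp hJ hJ2 (J_plane_inv hJ2 v)
    obtain ⟨T₂, hT₂, hT₂J⟩ := ih _ hRfin (perp B (Submodule.span F {v, J v})) rfl (B.domRestrict₁₂ _ _) (fun _ _ => hs _ _) (perp_nd hB hPnd hnd)
      (J.restrict hRinv) (fun a b => hJ a b) (fun a => Subtype.ext (by simpa using hJ2 a))
    obtain ⟨T, hT, hTJ, -, -⟩ := glue_J h2 hs ω hJ hJ2 hv hsy T₂ hT₂ hRinv hT₂J
    exact ⟨T, hT, hTJ⟩

/-- The reflection along a vector. -/
noncomputable def refB (B : V →ₗ[F] V →ₗ[F] F) (w : V) : V →ₗ[F] V :=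
  LinearMap.id - ((2 * (B w w)⁻¹) • B.flip w).smulRight w

theorem refB_apply (B : V →ₗ[F] V →ₗ[F] F) (w u : V) : refB B w u = u - (2 * (B w w)⁻¹ * B u w) • w := rfl

theorem refB_perp {B : V →ₗ[F] V →ₗ[F] F} {w u : V} (h : B u w = 0) : refB B w u = u := by
  rw [refB_apply, h]
  simp

theorem refB_self (h2 : (2 : F) ≠ 0) {B : V →ₗ[F] V →ₗ[F] F} {w : V} (hw : B w w ≠ 0) : refB B w w = -w := by
  rw [refB_apply]
  have : 2 * (B w w)⁻¹ * B w w = 2 := by field_simp
  rw [this, two_smul]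
  abel

theorem refB_refB (h2 : (2 : F) ≠ 0) {B : V →ₗ[F] V →ₗ[F] F} {w : V} (hw : B w w ≠ 0) (u : V) : refB B w (refB B w u) = u := by
  have h3 : B (refB B w u) w = - B u w := by
    rw [refB_apply, map_sub, map_smul, LinearMap.sub_apply, LinearMap.smul_apply, smul_eq_mul]
    field_simp
    ring
  rw [refB_apply B w (refB B w u), h3, refB_apply, mul_neg, neg_smul]
  abel

theorem refB_iso (h2 : (2 : F) ≠ 0) {B : V →ₗ[F] V →ₗ[F] F} (hs : ∀ u v, B u v = B v u) {w : V} (hw : B w w ≠ 0) (u v : V) :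
    B (refB B w u) (refB B w v) = B u v := by
  simp only [refB_apply, map_sub, map_smul, LinearMap.sub_apply, LinearMap.smul_apply, smul_eq_mul]
  rw [hs w v]
  field_simp
  ring

/-- The two square roots in the case `J² = -1`. -/
theorem exists_pair_J (h2 : (2 : F) ≠ 0) {B : V →ₗ[F] V →ₗ[F] F} (hs : ∀ u v, B u v = B v u) (hnd : ∀ u, (∀ v, B u v = 0) → u = 0)
    [Nontrivial V] (ω : F) {J : V →ₗ[F] V} (hJ : ∀ u v, B (J u) (J v) = B u v) (hJ2 : ∀ u, J (J u) = -u) :
    ∃ (T₁ T₂ : V →ₗ[F] V) (w : V), IsTau B ω T₁ ∧ IsTau B ω T₂ ∧ (∀ u, J (T₁ u) = - T₁ (J u)) ∧ (∀ u, J (T₂ u) = - T₂ (J u)) ∧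
      B w w ≠ 0 ∧ ∀ u, T₂ (refB B w u) = refB B w (T₁ u) := by
  have hB : GoodForm B := Or.inr ⟨h2, hs⟩
  obtain ⟨v, hv⟩ := exists_vec_ne h2 hs hnd
  have hw' : B (J v) (J v) ≠ 0 := by rw [hJ]; exact hv
  have hvw := J_orth h2 hs hJ hJ2 v
  obtain ⟨s, y, hsy⟩ := exists_s_y h2 (B v v * B (J v) (J v)) ω (mul_ne_zero hv hw')
  have hsy' : s * s + B v v * B (J v) (J v) * ((-y) * (-y)) = ω := by rw [← hsy]; ring
  have hPnd : NDOn B (Submodule.span F {v, J v}) := plane_nd hv hw' hvw hs
  have hRinv := J_inv_perp hJ hJ2 (J_plane_inv hJ2 v)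
  obtain ⟨T₀, hT₀, hT₀J⟩ := exists_tau_J h2 ω _ (perp B (Submodule.span F {v, J v})) rfl (B.domRestrict₁₂ _ _) (fun _ _ => hs _ _) (perp_nd hB hPnd hnd)
    (J.restrict hRinv) (fun a b => hJ a b) (fun a => Subtype.ext (by simpa using hJ2 a))
  obtain ⟨T₁, h11, h12, h13, h14⟩ := glue_J h2 hs ω hJ hJ2 hv hsy T₀ hT₀ hRinv hT₀J
  obtain ⟨T₂, h21, h22, h23, h24⟩ := glue_J h2 hs ω hJ hJ2 hv hsy' T₀ hT₀ hRinv hT₀J
  refine ⟨T₁, T₂, J v, h11, h21, h12, h22, hw', fun u => ?_⟩
  obtain ⟨a, b, rfl⟩ := exists_dec hB hPnd u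
  have hbw : B b (J v) = 0 := hB.refl (b.2 (J v) (Submodule.subset_span (by simp)))
  have hbr : refB B (J v) b = b := refB_perp hbw
  have hT0b : B (T₀ b : V) (J v) = 0 := hB.refl ((T₀ b).2 (J v) (Submodule.subset_span (by simp)))
  have hmemR : ∀ a : Submodule.span F {v, J v}, refB B (J v) a ∈ Submodule.span F {v, J v} := by
    intro a
    rw [refB_apply]
    exact Submodule.sub_mem _ a.2 (Submodule.smul_mem _ _ (Submodule.subset_span (by simp)))
  rw [map_add, map_add, map_add, map_add, hbr, h13, h14, h24]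
  congr 1
  · have h5 : T₂ (refB B (J v) a) = planeMap B v (J v) s (-y) (refB B (J v) a) := h23 ⟨_, hmemR a⟩
    rw [h5]
    have hv1 : B (J v) v = 0 := by rw [hs]; exact hvw
    simp only [planeMap_apply, refB_apply, map_add, map_sub, map_smul, LinearMap.sub_apply, LinearMap.smul_apply, smul_eq_mul, hv1, hvw, mul_zero, sub_zero]
    field_simp
    module
  · rw [refB_perp hT0b]

/-- The two square roots in the case `x² = 1`. -/
theorem exists_pair_I (h2 : (2 : F) ≠ 0) {B : V →ₗ[F] V →ₗ[F] F} (hs : ∀ u v, B u v = B v u) (hnd : ∀ u, (∀ v, B u v = 0) → u = 0)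
    [Nontrivial V] (ω : F) {x : V →ₗ[F] V} (hx : ∀ u v, B (x u) (x v) = B u v) (hx2 : ∀ u, x (x u) = u)
    (he : Even (finrank F V)) (hf : Even (finrank F (LinearMap.ker (x - LinearMap.id)))) :
    ∃ (T₁ T₂ : V →ₗ[F] V) (w : V), IsTau B ω T₁ ∧ IsTau B ω T₂ ∧ (∀ u, x (T₁ u) = T₁ (x u)) ∧ (∀ u, x (T₂ u) = T₂ (x u)) ∧
      B w w ≠ 0 ∧ ∀ u, T₂ (refB B w u) = refB B w (T₁ u) := by
  have hB : GoodForm B := Or.inr ⟨h2, hs⟩
  set W := LinearMap.ker (x - LinearMap.id) with hWdef
  have hmem : ∀ a, a ∈ W ↔ x a = a := fun a => by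
    rw [hWdef, LinearMap.mem_ker, LinearMap.sub_apply, LinearMap.id_apply, sub_eq_zero]
  have hxa : ∀ a b, B a (x b) = B (x a) b := by
    intro a b
    have := hx (x a) b
    rw [hx2] at this
    exact this
  have hW : NDOn B W := by
    intro a ha h
    apply hnd
    intro y
    have h3 : x (y + x y) = y + x y := by rw [map_add, hx2, add_comm]
    have h4 := h _ ((hmem _).mpr h3)
    rw [map_add, hxa, (hmem a).mp ha] at h4
    have h5 : 2 * B a y = 0 := by linear_combination h4
    exact (mul_eq_zero.mp h5).resolve_left h2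
  have hneg : ∀ b ∈ perp B W, x b = -b := by
    intro b hb
    have h3 : x (b + x b) = b + x b := by rw [map_add, hx2, add_comm]
    have h4 : b + x b = 0 := by
      apply hW _ ((hmem _).mpr h3)
      intro w hw
      rw [map_add, LinearMap.add_apply, hs b w, hs (x b) w, hxa, (hmem w).mp hw, hb w hw, add_zero]
    exact eq_neg_of_add_eq_zero_right h4
  have hxW : ∀ a ∈ W, x a ∈ W := fun a ha => by
    rw [(hmem a).mp ha]
    exact ha
  obtain ⟨n, hn⟩ := hf
  have hfr := finrank_perp hB hW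
  obtain ⟨m, hm⟩ := he
  obtain ⟨Tp, hTp⟩ := exists_tau h2 ω n W (by omega) (B.domRestrict₁₂ _ _) (fun _ _ => hs _ _) (fun a ha => Subtype.ext (hW a.1 a.2 fun w hw => ha ⟨w, hw⟩))
  obtain ⟨Tm, hTm⟩ := exists_tau h2 ω (m - n) (perp B W) (by omega) (B.domRestrict₁₂ _ _) (fun _ _ => hs _ _) (perp_nd hB hW hnd)
  obtain ⟨T₁, hT₁, hT₁a, hT₁b⟩ := glue (ω := ω) hB hW Tp Tm hTp.1 (fun a => congrArg Subtype.val (hTp.2 a)) hTm.1 (fun a => congrArg Subtype.val (hTm.2 a))
  have hcomm : ∀ u, x (T₁ u) = T₁ (x u) := by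
    intro u
    obtain ⟨a, b, rfl⟩ := exists_dec hB hW u
    have h3 : x a = a := (hmem _).mp a.2
    have h4 : x b = -b := hneg b b.2
    rw [map_add, map_add, map_add, map_add, h3, h4, map_neg, hT₁a, hT₁b, (hmem _).mp (Tp a).2, hneg _ (Tm b).2]
  -- the reflection
  obtain ⟨v, hv⟩ := exists_vec_ne h2 hs hnd
  obtain ⟨w, hw, hwx⟩ : ∃ w, B w w ≠ 0 ∧ (x w = w ∨ x w = -w) := by
    by_cases h1 : B (v + x v) (v + x v) = 0
    · refine ⟨v - x v, ?_, Or.inr ?_⟩
      · intro h3
        apply hv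
        simp only [map_add, map_sub, LinearMap.add_apply, LinearMap.sub_apply, hx] at h1 h3
        rw [hs (x v) v] at h1 h3
        have h4 : 4 * B v v = 0 := by linear_combination h1 + h3
        have h5 : (4 : F) ≠ 0 := by
          rw [show (4 : F) = 2 * 2 by norm_num]
          exact mul_ne_zero h2 h2
        exact (mul_eq_zero.mp h4).resolve_left h5
      · rw [map_sub, hx2]
        abel
    · exact ⟨v + x v, h1, Or.inl (by rw [map_add, hx2, add_comm])⟩
  have hrx : ∀ u, x (refB B w u) = refB B w (x u) := by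
    intro u
    rcases hwx with h3 | h3
    · have h4 : B (x u) w = B u w := by
        have := hx u w
        rwa [h3] at this
      rw [refB_apply, refB_apply, map_sub, map_smul, h3, h4]
    · have h4 : B (x u) w = - B u w := by
        have := hx u w
        rw [h3, map_neg] at this
        linear_combination -this
      rw [refB_apply, refB_apply, map_sub, map_smul, h3, h4]
      simp only [mul_neg, neg_smul, smul_neg]
  have hri : ∀ y b, B (refB B w y) b = B y (refB B w b) := by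
    intro y b
    have := refB_iso h2 hs hw y (refB B w b)
    rwa [refB_refB h2 hw] at this
  refine ⟨T₁, refB B w ∘ₗ T₁ ∘ₗ refB B w, w, hT₁, ⟨fun a b => ?_, fun a => ?_⟩, hcomm, fun u => ?_, hw, fun u => ?_⟩
  · simp only [LinearMap.comp_apply]
    rw [hri, hT₁.1, hri]
  · simp only [LinearMap.comp_apply]
    rw [refB_refB h2 hw, hT₁.2, map_smul, refB_refB h2 hw]
  · simp only [LinearMap.comp_apply]
    rw [hrx, hcomm, hrx]
  · simp only [LinearMap.comp_apply]
    rw [refB_refB h2 hw]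

end main

end Cfsg.Agent.Lib.QFB99
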