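import Mathlib
import Cfsg.Agent.Lib.QFA99
import Cfsg.Agent.Lib.QFB99
import Cfsg.Agent.Lib.EvElt99
import Cfsg.Agent.Lib.SpField.KTwo

/-!
# Elements commuting with a self-adjoint field: parity of the moved space, Siegel transformations
-/

set_option autoImplicit false
set_option linter.unusedSectionVars false
set_option linter.unusedSimpArgs false
set_option linter.unusedVariables false

universe u v

namespace Cfsg.Agent.Lib.QFC99

open Module Polynomial Cfsg.Agent.Lib.IsomBlock Cfsg.Agent.Lib.QFB99

section four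

variable {F L W : Type*} [Field F] [Finite F] [Field L] [Algebra F L] [Module.Finite F L]
  [AddCommGroup W] [Module F W] [FiniteDimensional F W]

/-- An isometry without fixed vectors commuting with a self-adjoint quadratic field moves a space of dimension divisible by four. -/
theorem four_dvd_of_free (hfr : finrank F L = 2) (h2 : (2 : F) ≠ 0)
    {B : W →ₗ[F] W →ₗ[F] F} (hs : ∀ u v, B u v = B v u) (hnd : ∀ u, (∀ v, B u v = 0) → u = 0)
    {T T' : W →ₗ[F] W} (hT1 : ∀ u, T (T' u) = u) (hT2 : ∀ u, T' (T u) = u) (hiso : ∀ u v, B (T u) (T v) = B u v)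
    (hfree : ∀ u, T (T u) = u → u = 0)
    (A : L →ₐ[F] Module.End F W) (hself : ∀ a u v, B (A a u) v = B u (A a v))
    (hcomm : ∀ a v, A a (T v) = T (A a v)) : 4 ∣ finrank F W := by
  classical
  have hcomm' : ∀ a v, A a (T' v) = T' (A a v) := by
    intro a v
    conv_rhs => rw [← hT1 v, hcomm, hT2]
  have hiso' : ∀ u v, B (T' u) (T' v) = B u v := by
    intro u v
    rw [← hiso, hT1, hT1]
  let S : W →ₗ[F] W := T - T'
  have hS : ∀ u, S u = T u - T' u := fun _ => rfl
  have hanti : ∀ u v, B (S u) v = - B u (S v) := by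
    intro u v
    have h1 : B (T u) v = B u (T' v) := by
      have := hiso u (T' v)
      rwa [hT1] at this
    have h3 : B (T' u) v = B u (T v) := by
      have := hiso' u (T v)
      rwa [hT2] at this
    rw [hS, hS, map_sub, LinearMap.sub_apply, map_sub, h1, h3]
    ring
  have hSinj : Function.Injective S := by
    rw [injective_iff_map_eq_zero]
    intro u hu
    apply hfree
    rw [hS, sub_eq_zero] at hu
    rw [hu, hT1]
  have hSsurj : Function.Surjective S := LinearMap.injective_iff_surjective.mp hSinj
  have hSA : ∀ a v, A a (S v) = S (A a v) := by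
    intro a v
    rw [hS, hS, map_sub, hcomm, hcomm']
  letI modL : Module L W := Module.compHom W A.toRingHom
  have hsm : ∀ (a : L) (u : W), a • u = A a u := fun _ _ => rfl
  haveI : IsScalarTower F L W := ⟨fun c a u => by
    rw [hsm, hsm, map_smul]
    rfl⟩
  haveI : Module.Finite L W := Module.Finite.of_restrictScalars_finite F L W
  obtain ⟨lam, hlam⟩ := Cfsg.Agent.Lib.ExtB.exists_retr (F := F) (L := L)
  have hlam0 : lam ≠ 0 := by
    rintro rfl
    have := hlam 1
    simp at this
  obtain ⟨h, H, -⟩ := Cfsg.Agent.Lib.ExtSpE.exists_form (V := W) (f := fun u v => B u (S v)) hlam0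
    (fun x y v => by rw [map_add, LinearMap.add_apply])
    (fun c x v => by rw [map_smul, LinearMap.smul_apply, smul_eq_mul])
    (fun v x y => by rw [map_add, map_add])
    (fun a u v => by
      show B (A a u) (S v) = B u (S (A a v))
      rw [hself, hSA])
    (fun a v => by
      show B (A a v) (S v) = 0
      have h1 : B (A a v) (S v) = B v (S (A a v)) := by rw [hself, hSA]
      have h3 : B v (S (A a v)) = - B (A a v) (S v) := by rw [hs (A a v) (S v), hanti, neg_neg]
      have h4 : 2 * B (A a v) (S v) = 0 := by linear_combination h1 + h3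
      exact (mul_eq_zero.mp h4).resolve_left h2)
    (fun u hu => by
      by_contra hall
      push Not at hall
      apply hu
      apply hnd
      intro y
      obtain ⟨z, rfl⟩ := hSsurj y
      exact hall z)
  obtain ⟨m, hm⟩ := Cfsg.Agent.Lib.SpInvol.even_finrank h H.alt (fun v hv => by
    by_contra hv0
    obtain ⟨w, hw⟩ := H.nd v hv0
    exact hw (hv w))
  have h1 := Module.finrank_mul_finrank F L W
  rw [hfr, hm] at h1
  exact ⟨m, by omega⟩

end four

section siegel

variable {F : Type*} [Field F] {V : Type*} [AddCommGroup V] [Module F V]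

/-- A Siegel transformation does not commute with a self-adjoint square root of a nonsquare. -/
theorem siegel_no_tau (h2 : (2 : F) ≠ 0) {B : V →ₗ[F] V →ₗ[F] F} {ω : F} (hω : ¬ IsSquare ω) {T : V →ₗ[F] V} (hT : IsTau B ω T)
    {e f v : V} (hf : f ≠ 0) (hve : B v e = 1) (hvf : B v f = 0)
    (hcomm : ∀ u, B (T u) e • f - B (T u) f • e = T (B u e • f - B u f • e)) : False := by
  have h1 := hcomm v
  rw [hve, hvf, one_smul, zero_smul, sub_zero] at h1
  set α := B (T v) e with hα
  set β := B (T v) f with hβ
  have h3 : β = -β := by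
    conv_lhs => rw [hβ, hT.1, ← h1]
    rw [map_sub, map_smul, map_smul, hvf, hve]
    simp
  have hβ0 : β = 0 := by
    have h4 : 2 * β = 0 := by linear_combination h3
    exact (mul_eq_zero.mp h4).resolve_left h2
  rw [hβ0, zero_smul, sub_zero] at h1
  have h5 := hT.2 f
  rw [← h1, map_smul, ← h1, smul_smul] at h5
  have h6 : (α * α - ω) • f = 0 := by
    rw [sub_smul, h5, sub_self]
  have h7 := (smul_eq_zero.mp h6).resolve_right hf
  exact hω ⟨α, by linear_combination -h7⟩

end siegel

section fix

variable {F : Type*} [Field F] [Fintype F] {V : Type u} [AddCommGroup V] [Module F V] [FiniteDimensional F V]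

open Cfsg.Agent.Lib.PrimeFactors

/-- The exact dimension of the fixed space from the characteristic polynomial. -/
theorem finrank_fix_eq {B : V →ₗ[F] V →ₗ[F] F} (hB : GoodForm B) (hnd : NDOn B ⊤) {r n : ℕ} [hrf : Fact r.Prime] (hrF : (r : F) ≠ 0)
    {a : ↥(Idx F r) → ℕ} (T : V →ₗ[F] V) (hiso : ∀ u v, B (T u) (T v) = B u v) (hT : T ^ r = 1) (hch : T.charpoly = Pa F r n a)
    (hle : orderOf ((Fintype.card F : ℕ) : ZMod r) * ∑ l, a l ≤ n) :
    finrank F (fixS T ⊤) + orderOf ((Fintype.card F : ℕ) : ZMod r) * ∑ l, a l = n := by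
  classical
  have hr0 : r ≠ 0 := hrf.out.ne_zero
  set Xf := fixS T ⊤ with hXf
  have hXnd : NDOn B Xf := nd_fixS hB hiso hr0 hrF hT hnd (fun _ _ => trivial)
  have hc := isCompl_perp hB hXnd
  have hXinv : InvOn T Xf := inv_fixS ⊤
  have hWinv : InvOn T (perp B Xf) := inv_perp hiso hr0 hT hXinv
  let e := Submodule.prodEquivOfIsCompl Xf (perp B Xf) hc
  let f : (Xf × perp B Xf) →ₗ[F] (Xf × perp B Xf) := LinearMap.prodMap (T.restrict hXinv) (T.restrict hWinv)
  have hfT : e.conj f = T := by
    apply LinearMap.ext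
    intro v
    obtain ⟨p, rfl⟩ := e.surjective v
    rw [LinearEquiv.conj_apply_apply]
    simp only [LinearEquiv.symm_apply_apply]
    show e (T.restrict hXinv p.1, T.restrict hWinv p.2) = T (e p)
    simp only [e, Submodule.coe_prodEquivOfIsCompl', map_add]
    rfl
  have hchar : T.charpoly = (T.restrict hXinv).charpoly * (T.restrict hWinv).charpoly := by
    calc T.charpoly = (e.conj f).charpoly := by rw [hfT]
      _ = _ := by rw [LinearEquiv.charpoly_conj, LinearMap.charpoly_prodMap]
  have hid : T.restrict hXinv = 1 := by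
    apply LinearMap.ext
    intro u
    apply Subtype.ext
    exact (mem_fixS.mp u.2).2
  have hS : ((T.restrict hWinv).charpoly).eval 1 ≠ 0 := by
    intro h0
    have h1 : Module.End.HasEigenvalue (T.restrict hWinv) 1 := (Module.End.hasEigenvalue_iff_isRoot_charpoly _ _).mpr h0
    obtain ⟨u, hu⟩ := h1.exists_hasEigenvector
    have h3 : T.restrict hWinv u = (1 : F) • u := hu.apply_eq_smul
    have h4 : T u = u := by
      have := congrArg Subtype.val h3
      rw [one_smul] at this
      exact this
    have h5 : (u : V) ∈ Xf := mem_fixS.mpr ⟨trivial, h4⟩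
    have h6 : (u : V) = 0 := by
      have := hc.disjoint.le_bot ⟨h5, u.2⟩
      simpa using this
    exact hu.2 (Subtype.ext h6)
  have hR : (∏ j : ↥(Idx F r), (j : F[X]) ^ a j).eval 1 ≠ 0 := Cfsg.Agent.Lib.OrthRealize.eval_prod_ne hrF hr0 a
  rw [hid, LinearMap.charpoly_one, hch, Pa] at hchar
  set c := orderOf ((Fintype.card F : ℕ) : ZMod r) * ∑ l, a l with hcdef
  set k := finrank F Xf with hk
  set S := (T.restrict hWinv).charpoly with hSdef
  set R := ∏ j : ↥(Idx F r), (j : F[X]) ^ a j with hRdef
  have hX1 : (X - 1 : F[X]) ≠ 0 := by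
    have : (X - 1 : F[X]).Monic := monic_X_sub_one
    exact this.ne_zero
  have he1 : (X - 1 : F[X]).eval 1 = 0 := by simp
  have hne : n - c = k := by
    by_contra hne
    rcases lt_or_gt_of_ne hne with h1 | h1
    · obtain ⟨t, ht⟩ : ∃ t, k = (n - c) + (t + 1) := ⟨k - (n - c) - 1, by omega⟩
      rw [ht, pow_add, mul_assoc] at hchar
      have h3 := mul_left_cancel₀ (pow_ne_zero _ hX1) hchar
      have h4 := congrArg (Polynomial.eval 1) h3
      rw [eval_mul, eval_pow, he1, zero_pow (by omega), zero_mul] at h4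
      exact hR (by simpa using h4)
    · obtain ⟨t, ht⟩ : ∃ t, n - c = k + (t + 1) := ⟨(n - c) - k - 1, by omega⟩
      rw [ht, pow_add, mul_assoc] at hchar
      have h3 := mul_left_cancel₀ (pow_ne_zero _ hX1) hchar
      have h4 := congrArg (Polynomial.eval 1) h3
      rw [eval_mul, eval_pow, he1, zero_pow (by omega), zero_mul] at h4
      exact hS (by simpa using h4.symm)
  omega

end fix

end Cfsg.Agent.Lib.QFC99
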