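import Mathlib
import Cfsg.Agent.Lib.QFC99
import Cfsg.Agent.Lib.EvMinus99

/-!
# The backward direction: isometries with scalar square normalize a conjugate of the field
-/

set_option autoImplicit false
set_option linter.unusedSectionVars false
set_option linter.unusedSimpArgs false
set_option linter.unusedVariables false
set_option maxHeartbeats 1000000

universe u v

namespace Cfsg.Agent.Lib.QFD99

open Module QuadraticMap Matrix
open scoped MatrixGroups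
open Cfsg.Agent.Lib.IsomBlock Cfsg.Agent.Lib.QFA99 Cfsg.Agent.Lib.QFB99 Cfsg.Agent.Lib.QFC99
open Cfsg.Agent.Lib.OrthGroup Cfsg.Agent.Lib.OrthOmega Cfsg.Agent.Lib.OrthMatrix Cfsg.Agent.Lib.QuadFF

section field

variable {F : Type*} [Field F] (ω : F)

/-- The field `F(√ω)`. -/
abbrev LL := QuadraticAlgebra F ω 0

/-- The coordinate on `1`. -/
def reL : LL ω →ₗ[F] F where
  toFun := QuadraticAlgebra.re
  map_add' _ _ := rfl
  map_smul' _ _ := rfl

theorem reL_apply (z : LL ω) : reL ω z = z.re := rfl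

theorem finrank_LL : finrank F (LL ω) = 2 := by
  rw [(QuadraticAlgebra.linearEquivTuple ω 0).finrank_eq]
  simp

theorem reL_ne : reL ω ≠ 0 := by
  intro h
  have : reL ω 1 = 0 := by rw [h]; rfl
  rw [reL_apply, QuadraticAlgebra.re_one] at this
  exact one_ne_zero this

variable {V : Type v} [AddCommGroup V] [Module F V]

/-- The action determined by a square root of `ω`. -/
def actL (T : V →ₗ[F] V) (hT : ∀ v, T (T v) = ω • v) : LL ω →ₐ[F] Module.End F V :=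
  QuadraticAlgebra.lift ⟨(T : Module.End F V), by
    apply LinearMap.ext
    intro v
    simp [hT]⟩

theorem actL_apply (T : V →ₗ[F] V) (hT : ∀ v, T (T v) = ω • v) (z : LL ω) (v : V) :
    actL ω T hT z v = z.re • v + z.im • T v := by
  simp [actL, QuadraticAlgebra.lift]

theorem actL_self {B : V →ₗ[F] V →ₗ[F] F} {T : V →ₗ[F] V} (hT : IsTau B ω T) (z : LL ω) (u v : V) :
    B (actL ω T hT.2 z u) v = B u (actL ω T hT.2 z v) := by
  simp only [actL_apply, map_add, map_smul, LinearMap.add_apply, LinearMap.smul_apply, hT.1]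

end field

section main

variable {F : Type*} [Field F] [Fintype F] {ι : Type} [Fintype ι] [DecidableEq ι] {Q : QuadraticForm F (ι → F)}

theorem toLin_iso {x : GL ι F} (hx : x ∈ Cfsg.isometryGroup F ⇑Q) (u v : ι → F) :
    B Q (Matrix.toLin' (x : Matrix ι ι F) u) (Matrix.toLin' (x : Matrix ι ι F) v) = B Q u v := by
  have h1 := (mem_isometryGroup _ _).1 hx
  rw [B_apply, B_apply, Matrix.toLin'_apply, Matrix.toLin'_apply, ← Matrix.mulVec_add, h1, h1, h1]

theorem glEquiv_mem_iff {g : (ι → F) ≃ₗ[F] (ι → F)} (hg : g ∈ O Q) : glEquiv.symm g ∈ Cfsg.isometryGroup F ⇑Q := by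
  rw [mem_isometryGroup]
  intro u
  rw [mulVec_glEquiv_symm]
  exact hg u

/-- A vector orthogonal to its image. -/
theorem exists_spin_vec (h2 : (2 : F) ≠ 0) (ω : F) [Fact (∀ r : F, r ^ 2 ≠ ω + 0 * r)] {T₀ : (ι → F) →ₗ[F] (ι → F)} (hT₀ : IsTau (B Q) ω T₀)
    (hnd : ∀ u, (∀ v, B Q u v = 0) → u = 0) {n : ℕ} (hdim : finrank F (ι → F) = 2 * (n + 2)) :
    ∃ v, B Q v v = 1 ∧ B Q v (T₀ v) = 0 := by
  classical
  have h2L : (2 : LL ω) ≠ 0 := by
    intro h
    apply h2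
    apply (algebraMap F (LL ω)).injective
    rw [map_ofNat, h, map_zero]
  obtain ⟨c, E, hc, hE1, hE2⟩ := exists_E (reL_ne ω) h2L (actL ω T₀ hT₀.2) (B Q) (polar_comm Q)
    (fun u hu => by
      by_contra hall
      push Not at hall
      exact hu (hnd u hall))
    (actL_self ω hT₀) (n := n + 1) (by rw [finrank_LL, hdim])
  let p : D (n + 1) (LL ω) := (Pi.single 0 1, 0)
  have hpp : stdF c p p = 1 := by
    simp [stdF, p, Pi.single_apply]
  refine ⟨E p, ?_, ?_⟩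
  · rw [hE2, hpp]
    rfl
  · have h3 : T₀ (E p) = E ((QuadraticAlgebra.omega : LL ω) • p) := by
      rw [hE1, actL_apply]
      simp
    rw [h3, hE2, stdF_smul_right, hpp, mul_one]
    rfl

/-- The element commuting with `T₀` and changing the spinor norm. -/
theorem refl_pair_comm (h2 : (2 : F) ≠ 0) {ω : F} (hω0 : ω ≠ 0) {T₀ : (ι → F) →ₗ[F] (ι → F)} (hT₀ : IsTau (B Q) ω T₀) {v : ι → F}
    (h1 : B Q v v = 1) (h3 : B Q v (T₀ v) = 0) (x : ι → F) :
    prodR Q [v, T₀ v] (T₀ x) = T₀ (prodR Q [v, T₀ v] x) := by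
  have hQ1 : Q v = 2⁻¹ := by
    have := B_self Q v
    rw [h1] at this
    field_simp
    linear_combination -this
  have hBtt : B Q (T₀ v) (T₀ v) = ω := by
    rw [hT₀.1, hT₀.2, map_smul, smul_eq_mul, h1, mul_one]
  have hQ2 : Q (T₀ v) = ω * 2⁻¹ := by
    have := B_self Q (T₀ v)
    rw [hBtt] at this
    field_simp
    linear_combination -this
  have hB21 : B Q (T₀ v) v = 0 := by rw [B_comm]; exact h3
  have hr : ∀ y, prodR Q [v, T₀ v] y = y - (2 * ω⁻¹ * B Q y (T₀ v)) • T₀ v - (2 * B Q y v) • v := by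
    intro y
    simp only [prodR_cons, prodR_nil, mul_one, OrthGroup.mul_apply, refl_apply]
    simp only [map_sub, map_smul, LinearMap.sub_apply, LinearMap.smul_apply, smul_eq_mul, hB21, mul_zero, sub_zero, hQ1, hQ2]
    congr 2
    · field_simp
    · field_simp
  have hB1 : ∀ y, B Q (T₀ y) v = B Q y (T₀ v) := fun y => hT₀.1 y v
  have hB2 : ∀ y, B Q (T₀ y) (T₀ v) = ω * B Q y v := by
    intro y
    rw [hT₀.1, hT₀.2, map_smul, smul_eq_mul]
  rw [hr, hr, hB1, hB2]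
  simp only [map_sub, map_smul, hT₀.2]
  have e1 : 2 * ω⁻¹ * (ω * B Q x v) = 2 * B Q x v := by field_simp
  rw [e1]
  have e2 : (2 * ω⁻¹ * B Q x (T₀ v)) • ω • v = (2 * B Q x (T₀ v)) • v := by
    rw [smul_smul]
    congr 1
    field_simp
  rw [e2]
  abel

/-- The main construction of the backward direction. -/
theorem back_main (h2 : (2 : F) ≠ 0) (hnd : ∀ u, (∀ v, B Q u v = 0) → u = 0)
    (hF : (∃ a : F, a ≠ 0 ∧ a ≠ 1) ∨ finrank F (ι → F) ≠ 4) {ω : F} [Fact (∀ r : F, r ^ 2 ≠ ω + 0 * r)] (hω : ¬ IsSquare ω)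
    {n : ℕ} (hdim : finrank F (ι → F) = 2 * (n + 2)) {T₀ : (ι → F) →ₗ[F] (ι → F)} (hT₀ : IsTau (B Q) ω T₀)
    {x : GL ι F} (hx : x ∈ Cfsg.Geo.omegaGL ⇑Q) {z : F} (hz : (x : Matrix ι ι F) * x = z • (1 : Matrix ι ι F)) :
    (z = 1 ∨ z = -1) ∧ ∃ g ∈ Cfsg.Geo.omegaGL ⇑Q, ∀ v,
      ((g⁻¹ * x * g : GL ι F) : Matrix ι ι F) *ᵥ (T₀ v) = z • T₀ (((g⁻¹ * x * g : GL ι F) : Matrix ι ι F) *ᵥ v) := by
  classical
  have hωne : ω ≠ 0 := fun h => hω ⟨0, by rw [h]; ring⟩
  have hQnd : (B Q).Nondegenerate := nondegenerate_of_ND hnd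
  have hOG : O Q ≤ G Q := O_le_G hQnd hF
  have hxi := Cfsg.Agent.Lib.EvElt99.mem_iso_of_omega hx
  set X := Matrix.toLin' (x : Matrix ι ι F) with hX
  have hXa : ∀ v, X v = (x : Matrix ι ι F) *ᵥ v := fun v => Matrix.toLin'_apply _ v
  have hXiso : ∀ u v, B Q (X u) (X v) = B Q u v := toLin_iso hxi
  have hXX : ∀ u, X (X u) = z • u := by
    intro u
    rw [hXa, hXa, Matrix.mulVec_mulVec, hz, Matrix.smul_mulVec, Matrix.one_mulVec]
  haveI : Nontrivial (ι → F) := Module.nontrivial_of_finrank_pos (R := F) (by omega)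
  have hs : ∀ u v, B Q u v = B Q v u := B_comm Q
  obtain ⟨v₀, hv₀⟩ := exists_vec_ne h2 hs hnd
  have hQv₀ : Q v₀ ≠ 0 := by
    intro h0
    apply hv₀
    rw [B_self, h0, mul_zero]
  have hzz : z = 1 ∨ z = -1 := by
    have h1 := (mem_isometryGroup _ _).1 hxi ((x : Matrix ι ι F) *ᵥ v₀)
    rw [Matrix.mulVec_mulVec, hz, Matrix.smul_mulVec, Matrix.one_mulVec, Q_smul, (mem_isometryGroup _ _).1 hxi] at h1
    have h3 : (z * z - 1) * Q v₀ = 0 := by linear_combination h1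
    have h4 := (mul_eq_zero.mp h3).resolve_right hQv₀
    have h5 : (z - 1) * (z + 1) = 0 := by linear_combination h4
    rcases mul_eq_zero.mp h5 with h6 | h6
    · exact Or.inl (sub_eq_zero.mp h6)
    · exact Or.inr (eq_neg_of_add_eq_zero_left h6)
  refine ⟨hzz, ?_⟩
  -- the square roots adapted to `x`
  obtain ⟨T₁, T₂, w, hT₁, hT₂, hxT₁, hxT₂, hw, hrel⟩ : ∃ (T₁ T₂ : (ι → F) →ₗ[F] (ι → F)) (w : ι → F), IsTau (B Q) ω T₁ ∧ IsTau (B Q) ω T₂ ∧
      (∀ u, X (T₁ u) = z • T₁ (X u)) ∧ (∀ u, X (T₂ u) = z • T₂ (X u)) ∧ B Q w w ≠ 0 ∧ ∀ u, T₂ (refB (B Q) w u) = refB (B Q) w (T₁ u) := by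
    rcases hzz with rfl | rfl
    · have he : Even (finrank F (ι → F)) := ⟨n + 2, by omega⟩
      have hf : Even (finrank F (LinearMap.ker (X - LinearMap.id))) := by
        have h1 := Cfsg.Agent.Lib.EvMinus99.even_fix_of_omega (Q := Q) (fun u _ h => hnd u fun y => h y trivial) hF he hx
        rw [fixS, top_inf_eq] at h1
        exact h1
      obtain ⟨T₁, T₂, w, h1, h3, h4, h5, h6, h7⟩ := exists_pair_I h2 hs hnd ω hXiso (fun u => by rw [hXX, one_smul]) he hf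
      exact ⟨T₁, T₂, w, h1, h3, fun u => by rw [h4, one_smul], fun u => by rw [h5, one_smul], h6, h7⟩
    · obtain ⟨T₁, T₂, w, h1, h3, h4, h5, h6, h7⟩ := exists_pair_J h2 hs hnd ω hXiso (fun u => by rw [hXX, neg_one_smul])
      exact ⟨T₁, T₂, w, h1, h3, fun u => by rw [h4, neg_one_smul], fun u => by rw [h5, neg_one_smul], h6, h7⟩
  -- conjugacy
  obtain ⟨g₁, hg₁, hg₁T⟩ := conj_A (reL_ne ω) h2 (finrank_LL ω) (actL ω T₀ hT₀.2) (actL ω T₁ hT₁.2) (B Q) hs
    (fun u hu => by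
      by_contra hall
      push Not at hall
      exact hu (hnd u hall))
    (actL_self ω hT₀) (actL_self ω hT₁) (n := n + 1) (by rw [finrank_LL, hdim])
  have hg₁T' : ∀ v, g₁ (T₀ v) = T₁ (g₁ v) := by
    intro v
    have := hg₁T (QuadraticAlgebra.omega : LL ω) v
    simpa [actL_apply] using this
  have hg₁O : g₁ ∈ O Q := by
    intro v
    have h1 := hg₁ v v
    rw [B_self, B_self] at h1
    exact mul_left_cancel₀ h2 h1
  obtain ⟨L₁, hL₁, hL₁g⟩ := exists_list_of_mem_G (hOG hg₁O)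
  have hreflw : ∀ u, refl Q w u = refB (B Q) w u := by
    intro u
    rw [refl_apply, refB_apply, B_self]
    congr 2
    have hQw : Q w ≠ 0 := by
      intro h0
      apply hw
      rw [B_self, h0, mul_zero]
    field_simp
  have hQw : Q w ≠ 0 := by
    intro h0
    apply hw
    rw [B_self, h0, mul_zero]
  -- parity
  obtain ⟨L₂, T, hL₂, hL₂e, hT, hxT, hL₂T⟩ : ∃ (L₂ : List (ι → F)) (T : (ι → F) →ₗ[F] (ι → F)), (∀ v ∈ L₂, Q v ≠ 0) ∧ Even L₂.length ∧ IsTau (B Q) ω T ∧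
      (∀ u, X (T u) = z • T (X u)) ∧ ∀ v, prodR Q L₂ (T₀ v) = T (prodR Q L₂ v) := by
    by_cases hev : Even L₁.length
    · refine ⟨L₁, T₁, hL₁, hev, hT₁, hxT₁, fun v => ?_⟩
      rw [← hL₁g, hg₁T']
    · refine ⟨w :: L₁, T₂, ?_, ?_, hT₂, hxT₂, fun v => ?_⟩
      · intro v hv
        rcases List.mem_cons.mp hv with rfl | hv
        · exact hQw
        · exact hL₁ v hv
      · rw [List.length_cons]
        exact (Nat.not_even_iff_odd.mp hev).add_one
      · rw [prodR_cons, ← hL₁g, OrthGroup.mul_apply, OrthGroup.mul_apply, hg₁T', hreflw, hreflw, hrel]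
  -- spinor norm
  obtain ⟨u₀, hu1, hu2⟩ := exists_spin_vec h2 ω hT₀ hnd hdim
  have hQu1 : Q u₀ = 2⁻¹ := by
    have := B_self Q u₀
    rw [hu1] at this
    field_simp
    linear_combination -this
  have hQu2 : Q (T₀ u₀) = ω * 2⁻¹ := by
    have h1 := B_self Q (T₀ u₀)
    rw [hT₀.1, hT₀.2, map_smul, smul_eq_mul, hu1, mul_one] at h1
    field_simp
    linear_combination -h1
  have h2i : (2⁻¹ : F) ≠ 0 := inv_ne_zero h2
  have hL₃ : ∀ v ∈ L₂ ++ [u₀, T₀ u₀], Q v ≠ 0 := by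
    intro v hv
    rcases List.mem_append.mp hv with hv | hv
    · exact hL₂ v hv
    · simp only [List.mem_cons, List.not_mem_nil, or_false] at hv
      rcases hv with rfl | rfl
      · rw [hQu1]
        exact h2i
      · rw [hQu2]
        exact mul_ne_zero hωne h2i
  obtain ⟨L, hL, hLe, hLs, hLT⟩ : ∃ L : List (ι → F), (∀ v ∈ L, Q v ≠ 0) ∧ Even L.length ∧ IsSquare (L.map Q).prod ∧ ∀ v, prodR Q L (T₀ v) = T (prodR Q L v) := by
    by_cases hsq : IsSquare (L₂.map Q).prod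
    · exact ⟨L₂, hL₂, hL₂e, hsq, hL₂T⟩
    · refine ⟨L₂ ++ [u₀, T₀ u₀], hL₃, ?_, ?_, fun v => ?_⟩
      · rw [List.length_append]
        exact hL₂e.add ⟨1, rfl⟩
      · rw [List.map_append, List.prod_append]
        simp only [List.map_cons, List.map_nil, List.prod_cons, List.prod_nil, mul_one, hQu1, hQu2]
        have hnsq : ¬ IsSquare (2⁻¹ * (ω * 2⁻¹) : F) := by
          rintro ⟨c, hc⟩
          apply hω
          refine ⟨2 * c, ?_⟩
          have : ω = 2 * 2 * (2⁻¹ * (ω * 2⁻¹)) := by field_simp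
          rw [this, hc]
          ring
        exact Cfsg.Agent.Lib.HypEll.nonsq_mul hsq hnsq
      · rw [prodR_append, OrthGroup.mul_apply, OrthGroup.mul_apply, refl_pair_comm h2 hωne hT₀ hu1 hu2, hL₂T]
  -- the element
  let g : GL ι F := glEquiv.symm (prodR Q L)
  have hga : ∀ v, (g : Matrix ι ι F) *ᵥ v = prodR Q L v := fun v => mulVec_glEquiv_symm _ v
  have hgi : g ∈ Cfsg.isometryGroup F ⇑Q := glEquiv_mem_iff (prodR_mem Q L)
  have hgc : g ∈ Cfsg.Geo.omegaGL ⇑Q := by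
    rw [Cfsg.Agent.S5985.mem_omegaGL_iff]
    refine ⟨hgi, ?_⟩
    have h1 : toO Q ⟨g, hgi⟩ = prodO Q L := by
      apply Subtype.ext
      show glEquiv g = prodR Q L
      exact MulEquiv.apply_symm_apply _ _
    rw [h1]
    exact (Cfsg.Agent.Lib.SpinorCrit.mem_Omega_prodO_iff Q hQnd hF L hL).mpr ⟨hLe, hLs⟩
  refine ⟨g, hgc, fun v => ?_⟩
  have hgg : ∀ v, ((g⁻¹ : GL ι F) : Matrix ι ι F) *ᵥ ((g : Matrix ι ι F) *ᵥ v) = v := by
    intro v
    rw [Matrix.mulVec_mulVec, ← Units.val_mul, inv_mul_cancel]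
    exact Matrix.one_mulVec v
  have hgg' : ∀ v, (g : Matrix ι ι F) *ᵥ (((g⁻¹ : GL ι F) : Matrix ι ι F) *ᵥ v) = v := by
    intro v
    rw [Matrix.mulVec_mulVec, ← Units.val_mul, mul_inv_cancel]
    exact Matrix.one_mulVec v
  have hgT : ∀ v, (g : Matrix ι ι F) *ᵥ T₀ v = T ((g : Matrix ι ι F) *ᵥ v) := by
    intro v
    rw [hga, hga, hLT]
  have hgiT : ∀ v, ((g⁻¹ : GL ι F) : Matrix ι ι F) *ᵥ T v = T₀ (((g⁻¹ : GL ι F) : Matrix ι ι F) *ᵥ v) := by
    intro v
    conv_lhs => rw [← hgg' v, ← hgT, hgg]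
  have hexp : ∀ v, ((g⁻¹ * x * g : GL ι F) : Matrix ι ι F) *ᵥ v = ((g⁻¹ : GL ι F) : Matrix ι ι F) *ᵥ (X ((g : Matrix ι ι F) *ᵥ v)) := by
    intro v
    rw [hXa, Units.val_mul, Units.val_mul, Matrix.mulVec_mulVec, Matrix.mulVec_mulVec, Matrix.mul_assoc]
  rw [hexp, hexp, hgT, hxT, Matrix.mulVec_smul, hgiT]

end main

end Cfsg.Agent.Lib.QFD99
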