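import Mathlib
import Cfsg.Agent.Lib.QFD99

/-!
# Quadratic field subalgebras of self-adjoint matrices, and elements normalizing them
-/

set_option autoImplicit false
set_option linter.unusedSectionVars false
set_option linter.unusedSimpArgs false
set_option linter.unusedVariables false
set_option maxHeartbeats 1000000

universe u v

namespace Cfsg.Agent.Lib.QFE99

open Module QuadraticMap Matrix
open scoped MatrixGroups
open Cfsg.Agent.Lib.IsomBlock Cfsg.Agent.Lib.QFA99 Cfsg.Agent.Lib.QFB99 Cfsg.Agent.Lib.QFC99 Cfsg.Agent.Lib.QFD99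
open Cfsg.Agent.Lib.OrthGroup Cfsg.Agent.Lib.OrthOmega Cfsg.Agent.Lib.OrthMatrix Cfsg.Agent.Lib.QuadFF

section K

variable {F : Type*} [Field F] {ι : Type} [Fintype ι] [DecidableEq ι] {K : Subalgebra F (Matrix ι ι F)}

/-- A self-adjoint generator of the field with scalar square. -/
theorem exists_tau_K (h2 : (2 : F) ≠ 0) (hK : Cfsg.Geo.IsFieldSubalgebra 2 K) :
    ∃ (τ : Matrix ι ι F) (ω : F), τ ∈ K ∧ τ * τ = ω • (1 : Matrix ι ι F) ∧ ¬ IsSquare ω ∧ ∀ k, k ∈ K ↔ ∃ a b : F, k = a • (1 : Matrix ι ι F) + b • τ := by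
  classical
  have hone : (1 : Matrix ι ι F) ∈ K := K.one_mem
  have hs : ∀ s : F, s • (1 : Matrix ι ι F) ∈ K := fun s => K.smul_mem hone s
  obtain ⟨a, ha, hans⟩ : ∃ a ∈ K, ∀ s : F, a ≠ s • (1 : Matrix ι ι F) := by
    by_contra hcon
    push Not at hcon
    have hfin := hK.finrank_eq
    have := finrank_le_one (R := F) (1 : K) (fun w => by
      obtain ⟨s, hs⟩ := hcon w.1 w.2
      refine ⟨s, Subtype.ext ?_⟩
      rw [hs]
      rfl)
    omega
  have h10 : (1 : Matrix ι ι F) ≠ 0 := by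
    intro h
    apply hans 0
    rw [zero_smul]
    have := congrArg (fun m => a * m) h
    simpa using this
  have hli : LinearIndependent F ![(1 : Matrix ι ι F), a] := by
    rw [LinearIndependent.pair_iff]
    intro s t hst
    have ht : t = 0 := by
      by_contra ht
      apply hans (-(t⁻¹ * s))
      have h3 : a = t⁻¹ • (t • a) := by rw [smul_smul, inv_mul_cancel₀ ht, one_smul]
      rw [h3, eq_neg_of_add_eq_zero_right hst, smul_neg, smul_smul, neg_smul]
    subst ht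
    rw [zero_smul, add_zero] at hst
    exact ⟨(smul_eq_zero.mp hst).resolve_right h10, rfl⟩
  have hspan : Submodule.span F {(1 : Matrix ι ι F), a} = Subalgebra.toSubmodule K := by
    apply Submodule.eq_of_le_of_finrank_eq
    · rw [Submodule.span_le]
      rintro _ (rfl | rfl)
      · exact hone
      · exact ha
    · have h3 := finrank_span_eq_card hli
      rw [Matrix.range_cons, Matrix.range_cons, Matrix.range_empty, Set.union_empty, Set.singleton_union] at h3
      rw [h3]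
      have h4 : finrank F (Subalgebra.toSubmodule K) = 2 := hK.finrank_eq
      rw [h4]
      simp
  have hdec : ∀ k ∈ K, ∃ s t : F, k = s • (1 : Matrix ι ι F) + t • a := by
    intro k hk
    have h3 : k ∈ Submodule.span F {(1 : Matrix ι ι F), a} := by
      rw [hspan]
      exact hk
    obtain ⟨s, t, rfl⟩ := Submodule.mem_span_pair.mp h3
    exact ⟨s, t, rfl⟩
  obtain ⟨s, t, hst⟩ := hdec (a * a) (K.mul_mem ha ha)
  set t' := t / 2 with ht'
  have htt : t = 2 * t' := by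
    rw [ht']
    field_simp
  set τ := a - t' • (1 : Matrix ι ι F) with hτ
  have hτK : τ ∈ K := K.sub_mem ha (hs t')
  have haτ : a = τ + t' • (1 : Matrix ι ι F) := by
    rw [hτ]
    abel
  have hττ : τ * τ = (s + t' * t') • (1 : Matrix ι ι F) := by
    rw [hτ]
    simp only [sub_mul, mul_sub, smul_mul_assoc, mul_smul_comm, mul_one, one_mul, smul_smul]
    rw [hst, htt]
    module
  have hτns : ∀ c : F, τ ≠ c • (1 : Matrix ι ι F) := by
    intro c hc
    apply hans (c + t')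
    rw [haτ, hc, add_smul]
  refine ⟨τ, s + t' * t', hτK, hττ, ?_, fun k => ⟨fun hk => ?_, ?_⟩⟩
  · rintro ⟨c, hc⟩
    have h3 : (τ - c • (1 : Matrix ι ι F)) * (τ + c • (1 : Matrix ι ι F)) = 0 := by
      simp only [sub_mul, mul_add, smul_mul_assoc, mul_smul_comm, mul_one, one_mul, smul_smul, hττ, hc]
      module
    have h4 : τ + c • (1 : Matrix ι ι F) ≠ 0 := by
      intro h
      apply hτns (-c)
      rw [neg_smul]
      exact eq_neg_of_add_eq_zero_left h
    obtain ⟨y, -, hy⟩ := hK.inv _ (K.add_mem hτK (hs c)) h4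
    apply hτns c
    have h5 : τ - c • (1 : Matrix ι ι F) = (τ - c • (1 : Matrix ι ι F)) * ((τ + c • (1 : Matrix ι ι F)) * y) := by
      rw [hy, mul_one]
    rw [← Matrix.mul_assoc, h3, Matrix.zero_mul] at h5
    exact sub_eq_zero.mp h5
  · obtain ⟨s', t'', rfl⟩ := hdec k hk
    refine ⟨s' + t'' * t', t'', ?_⟩
    rw [haτ]
    module
  · rintro ⟨a', b', rfl⟩
    exact K.add_mem (hs a') (K.smul_mem hτK b')

variable {τ : Matrix ι ι F} {ω : F}

theorem li_tau [Nonempty ι] (hω : ¬ IsSquare ω) (hτ : τ * τ = ω • (1 : Matrix ι ι F)) {a b : F} (h : a • (1 : Matrix ι ι F) + b • τ = 0) : a = 0 ∧ b = 0 := by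
  classical
  have hb : b = 0 := by
    by_contra hb
    have h3 : τ = (-(a / b)) • (1 : Matrix ι ι F) := by
      have h4 : τ = b⁻¹ • (b • τ) := by rw [smul_smul, inv_mul_cancel₀ hb, one_smul]
      rw [h4, eq_neg_of_add_eq_zero_right h, smul_neg, smul_smul, neg_smul]
      congr 2
      field_simp
    apply hω
    refine ⟨-(a / b), ?_⟩
    have h5 := hτ
    rw [h3, smul_mul_smul_comm, mul_one] at h5
    have h6 : ((-(a / b)) * (-(a / b)) - ω) • (1 : Matrix ι ι F) = 0 := by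
      rw [sub_smul, h5, sub_self]
    have h7 := (smul_eq_zero.mp h6).resolve_right one_ne_zero
    linear_combination -h7
  subst hb
  rw [zero_smul, add_zero] at h
  exact ⟨(smul_eq_zero.mp h).resolve_right one_ne_zero, rfl⟩

theorem conj_tau [Nonempty ι] (h2 : (2 : F) ≠ 0) (hω : ¬ IsSquare ω) (hτ : τ * τ = ω • (1 : Matrix ι ι F)) (hτK : τ ∈ K)
    (hKs : ∀ k, k ∈ K ↔ ∃ a b : F, k = a • (1 : Matrix ι ι F) + b • τ) {y : GL ι F} (hy : y ∈ Cfsg.Geo.subalgebraNormalizer K) :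
    ∃ b : F, (b = 1 ∨ b = -1) ∧ (y : Matrix ι ι F) * τ = b • (τ * (y : Matrix ι ι F)) := by
  obtain ⟨a, b, hab⟩ := (hKs _).mp ((hy τ).mp hτK)
  have hyy : ((y⁻¹ : GL ι F) : Matrix ι ι F) * (y : Matrix ι ι F) = 1 := Units.inv_mul y
  have hyy' : (y : Matrix ι ι F) * ((y⁻¹ : GL ι F) : Matrix ι ι F) = 1 := Units.mul_inv y
  have hsq : (a • (1 : Matrix ι ι F) + b • τ) * (a • (1 : Matrix ι ι F) + b • τ) = ω • (1 : Matrix ι ι F) := by
    rw [← hab]
    calc _ = (y : Matrix ι ι F) * τ * (((y⁻¹ : GL ι F) : Matrix ι ι F) * (y : Matrix ι ι F)) * τ * ((y⁻¹ : GL ι F) : Matrix ι ι F) := by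
            simp only [Matrix.mul_assoc]
      _ = (y : Matrix ι ι F) * (τ * τ) * ((y⁻¹ : GL ι F) : Matrix ι ι F) := by
            rw [hyy, Matrix.mul_one]
            simp only [Matrix.mul_assoc]
      _ = _ := by
            rw [hτ, Matrix.mul_smul, Matrix.mul_one, Matrix.smul_mul, hyy']
  simp only [add_mul, mul_add, smul_mul_assoc, mul_smul_comm, mul_one, one_mul, smul_smul, hτ] at hsq
  have h3 : (a * a + b * b * ω - ω) • (1 : Matrix ι ι F) + (a * b + b * a) • τ = 0 := by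
    have e : (a * a + b * b * ω - ω) • (1 : Matrix ι ι F) + (a * b + b * a) • τ = (a • (a • (1 : Matrix ι ι F) + b • τ) + b • (a • τ + (b * ω) • (1 : Matrix ι ι F))) - ω • (1 : Matrix ι ι F) := by module
    rw [e, hsq, sub_self]
  obtain ⟨h4, h5⟩ := li_tau hω hτ h3
  have h6 : a = 0 := by
    by_contra ha
    have hb : b = 0 := by
      have h7 : 2 * (a * b) = 0 := by linear_combination h5
      exact (mul_eq_zero.mp ((mul_eq_zero.mp h7).resolve_left h2)).resolve_left ha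
    apply hω
    refine ⟨a, ?_⟩
    rw [hb] at h4
    linear_combination -h4
  have hω0 : ω ≠ 0 := fun h => hω ⟨0, by rw [h]; ring⟩
  rw [h6] at h4
  have h8 : (b * b - 1) * ω = 0 := by linear_combination h4
  have h9 := (mul_eq_zero.mp h8).resolve_right hω0
  have h10 : (b - 1) * (b + 1) = 0 := by linear_combination h9
  refine ⟨b, ?_, ?_⟩
  · rcases mul_eq_zero.mp h10 with h | h
    · exact Or.inl (sub_eq_zero.mp h)
    · exact Or.inr (eq_neg_of_add_eq_zero_left h)
  · have h11 : (y : Matrix ι ι F) * τ = ((y : Matrix ι ι F) * τ * ((y⁻¹ : GL ι F) : Matrix ι ι F)) * y := by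
      rw [Matrix.mul_assoc, Matrix.mul_assoc, hyy, Matrix.mul_one]
    rw [h11, hab, h6, zero_smul, zero_add, Matrix.smul_mul]

theorem comm_of_pow [Nonempty ι] (h2 : (2 : F) ≠ 0) (hω : ¬ IsSquare ω) (hτ : τ * τ = ω • (1 : Matrix ι ι F)) {y : GL ι F} {b : F} (hb : b = 1 ∨ b = -1)
    (hy : (y : Matrix ι ι F) * τ = b • (τ * (y : Matrix ι ι F))) {r : ℕ} (hr : Odd r) (hyr : y ^ r = 1) :
    (y : Matrix ι ι F) * τ = τ * (y : Matrix ι ι F) := by
  rcases hb with rfl | rfl
  · rw [hy, one_smul]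
  exfalso
  have hk : ∀ k : ℕ, (y : Matrix ι ι F) ^ k * τ = (-1 : F) ^ k • (τ * (y : Matrix ι ι F) ^ k) := by
    intro k
    induction k with
    | zero => simp
    | succ k ih =>
      rw [pow_succ, Matrix.mul_assoc, hy, Matrix.mul_smul, ← Matrix.mul_assoc, ih, Matrix.smul_mul, smul_smul, Matrix.mul_assoc, pow_succ (-1 : F) k, mul_comm (-1 : F)]
  have h1 := hk r
  have hyr' : (y : Matrix ι ι F) ^ r = 1 := by
    rw [← Units.val_pow_eq_pow_val, hyr, Units.val_one]
  rw [hyr', Matrix.one_mul, Matrix.mul_one, hr.neg_one_pow, neg_one_smul] at h1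
  have h3 : (2 : F) • τ = 0 := by
    rw [two_smul]
    nth_rewrite 1 [h1]
    abel
  have h4 := (smul_eq_zero.mp h3).resolve_left h2
  rw [h4, Matrix.mul_zero] at hτ
  apply hω
  refine ⟨0, ?_⟩
  have h5 := (smul_eq_zero.mp hτ.symm).resolve_right one_ne_zero
  rw [h5]
  ring

theorem mem_normalizer_of (hKs : ∀ k, k ∈ K ↔ ∃ a b : F, k = a • (1 : Matrix ι ι F) + b • τ) {y : GL ι F} {z : F} (hz : z * z = 1)
    (hy : (y : Matrix ι ι F) * τ = z • (τ * (y : Matrix ι ι F))) : y ∈ Cfsg.Geo.subalgebraNormalizer K := by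
  have hyy : ((y⁻¹ : GL ι F) : Matrix ι ι F) * (y : Matrix ι ι F) = 1 := Units.inv_mul y
  have hyy' : (y : Matrix ι ι F) * ((y⁻¹ : GL ι F) : Matrix ι ι F) = 1 := Units.mul_inv y
  have h1 : (y : Matrix ι ι F) * τ * ((y⁻¹ : GL ι F) : Matrix ι ι F) = z • τ := by
    rw [hy, Matrix.smul_mul, Matrix.mul_assoc, hyy', Matrix.mul_one]
  have h3 : ((y⁻¹ : GL ι F) : Matrix ι ι F) * τ * (y : Matrix ι ι F) = z • τ := by
    have h4 : τ * (y : Matrix ι ι F) = z • ((y : Matrix ι ι F) * τ) := by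
      rw [hy, smul_smul, hz, one_smul]
    rw [Matrix.mul_assoc, h4, Matrix.mul_smul, ← Matrix.mul_assoc, hyy, Matrix.one_mul]
  intro k
  constructor
  · intro hk
    obtain ⟨a, b, rfl⟩ := (hKs k).mp hk
    rw [hKs]
    refine ⟨a, b * z, ?_⟩
    rw [Matrix.mul_add, Matrix.add_mul, Matrix.mul_smul, Matrix.mul_one, Matrix.smul_mul, hyy', Matrix.mul_smul, Matrix.smul_mul, h1, smul_smul]
  · intro hk
    obtain ⟨a, b, hab⟩ := (hKs _).mp hk
    rw [hKs]
    refine ⟨a, b * z, ?_⟩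
    have h5 : k = ((y⁻¹ : GL ι F) : Matrix ι ι F) * ((y : Matrix ι ι F) * k * ((y⁻¹ : GL ι F) : Matrix ι ι F)) * (y : Matrix ι ι F) := by
      calc k = (((y⁻¹ : GL ι F) : Matrix ι ι F) * (y : Matrix ι ι F)) * k * (((y⁻¹ : GL ι F) : Matrix ι ι F) * (y : Matrix ι ι F)) := by
              rw [hyy, Matrix.one_mul, Matrix.mul_one]
        _ = _ := by simp only [Matrix.mul_assoc]
    rw [h5, hab, Matrix.mul_add, Matrix.add_mul, Matrix.mul_smul, Matrix.mul_one, Matrix.smul_mul, hyy, Matrix.mul_smul, Matrix.smul_mul, h3, smul_smul]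

end K

section back

variable {F : Type*} [Field F] [Fintype F] {ι : Type} [Fintype ι] [DecidableEq ι] {Q : QuadraticForm F (ι → F)}
  {K : Subalgebra F (Matrix ι ι F)}

/-- Matrices as a self-adjoint square root. -/
theorem isTau_of {τ : Matrix ι ι F} {ω : F} (hτ : τ * τ = ω • (1 : Matrix ι ι F))
    (hτs : ∀ u v, polar ⇑Q (τ *ᵥ u) v = polar ⇑Q u (τ *ᵥ v)) : IsTau (B Q) ω (Matrix.toLin' τ) := by
  refine ⟨fun u v => ?_, fun v => ?_⟩
  · rw [Matrix.toLin'_apply, Matrix.toLin'_apply]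
    exact hτs u v
  · rw [Matrix.toLin'_apply, Matrix.toLin'_apply, Matrix.mulVec_mulVec, hτ, Matrix.smul_mulVec, Matrix.one_mulVec]

/-- The backward direction. -/
theorem back_K (h2 : (2 : F) ≠ 0) (hnd : ∀ u, (∀ v, B Q u v = 0) → u = 0)
    (hF : (∃ a : F, a ≠ 0 ∧ a ≠ 1) ∨ finrank F (ι → F) ≠ 4) {n : ℕ} (hdim : finrank F (ι → F) = 2 * (n + 2))
    (hK : Cfsg.Geo.IsFieldSubalgebra 2 K) (hKf : Cfsg.Geo.IsSelfAdjointFor (polar ⇑Q) K)
    {x : GL ι F} (hx : x ∈ Cfsg.Geo.omegaGL ⇑Q) {z : F} (hz : ((x ^ 2 : GL ι F) : Matrix ι ι F) = z • (1 : Matrix ι ι F)) :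
    ∃ g ∈ Cfsg.Geo.omegaGL ⇑Q, g⁻¹ * x * g ∈ Cfsg.Geo.subalgebraNormalizer K := by
  classical
  obtain ⟨τ, ω, hτK, hτ, hω, hKs⟩ := exists_tau_K h2 hK
  have hT₀ : IsTau (B Q) ω (Matrix.toLin' τ) := isTau_of hτ (hKf τ hτK)
  haveI : Fact (∀ r : F, r ^ 2 ≠ ω + 0 * r) := ⟨fun r hr => hω ⟨r, by linear_combination -hr⟩⟩
  have hz' : (x : Matrix ι ι F) * x = z • (1 : Matrix ι ι F) := by
    rw [← hz, pow_two, Units.val_mul]
  obtain ⟨hzz, g, hg, hgT⟩ := back_main h2 hnd hF hω hdim hT₀ hx hz'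
  refine ⟨g, hg, mem_normalizer_of (z := z) hKs ?_ ?_⟩
  · rcases hzz with rfl | rfl <;> ring
  · apply Matrix.toLin'.injective
    apply LinearMap.ext
    intro v
    have := hgT v
    rw [Matrix.toLin'_apply] at this
    rw [Matrix.toLin'_apply, ← Matrix.mulVec_mulVec, this, Matrix.toLin'_apply, Matrix.toLin'_apply]
    rw [Matrix.smul_mulVec, ← Matrix.mulVec_mulVec]

end back

section siegel

variable {F : Type*} [Field F] [Fintype F] {ι : Type} [Fintype ι] [DecidableEq ι] {Q : QuadraticForm F (ι → F)}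

/-- The Siegel element. -/
theorem exists_siegel (p : ℕ) [Fact p.Prime] [CharP F p] (hnd : ∀ u, (∀ v, B Q u v = 0) → u = 0) {e f v : ι → F} (he : Q e = 0) (hf : Q f = 0) (hef : B Q e f = 0)
    (hve : B Q v e = 1) (hvf : B Q v f = 0) (hf0 : f ≠ 0) :
    ∃ x : GL ι F, x ∈ Cfsg.isometryGroup F ⇑Q ∧ x ^ p = 1 ∧ x ≠ 1 ∧ ∀ u, (x : Matrix ι ι F) *ᵥ u = u + (B Q u e • f - B Q u f • e) := by
  classical
  have hQnd : (B Q).Nondegenerate := nondegenerate_of_ND hnd
  let N : (ι → F) →ₗ[F] (ι → F) := ((B Q).flip e).smulRight f - ((B Q).flip f).smulRight e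
  have hN : ∀ u, N u = B Q u e • f - B Q u f • e := fun _ => rfl
  have hee : B Q e e = 0 := by rw [B_self, he, mul_zero]
  have hff : B Q f f = 0 := by rw [B_self, hf, mul_zero]
  have hfe : B Q f e = 0 := by rw [B_comm, hef]
  have hNN : ∀ u, N (N u) = 0 := by
    intro u
    rw [hN (N u), hN u]
    simp only [map_sub, map_smul, LinearMap.sub_apply, LinearMap.smul_apply, smul_eq_mul, hee, hff, hef, hfe]
    simp
  let f₀ : (ι → F) →ₗ[F] (ι → F) := LinearMap.id + N
  have hf₀ : ∀ u, f₀ u = u + N u := fun _ => rfl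
  have hiso : ∀ u, Q (f₀ u) = Q u := by
    intro u
    rw [hf₀, Q_add, hN, Q_sub, Q_smul, Q_smul, he, hf, map_smul, map_smul]
    simp only [map_sub, map_smul, LinearMap.smul_apply, smul_eq_mul, hef, hfe]
    have h1 : B Q u (B Q u e • f) = B Q u e * B Q u f := by rw [map_smul, smul_eq_mul]
    have h3 : B Q u (B Q u f • e) = B Q u f * B Q u e := by rw [map_smul, smul_eq_mul]
    simp only [mul_zero, add_zero, sub_zero, zero_add, zero_mul]
    ring
  let E := ofIsometry hQnd f₀ hiso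
  have hE : ∀ u, E u = u + N u := fun u => ofIsometry_apply hQnd f₀ hiso u
  let x : GL ι F := glEquiv.symm E
  have hxa : ∀ u, (x : Matrix ι ι F) *ᵥ u = u + N u := fun u => by
    rw [mulVec_glEquiv_symm, hE]
  have hxi : x ∈ Cfsg.isometryGroup F ⇑Q := Cfsg.Agent.Lib.QFD99.glEquiv_mem_iff (ofIsometry_mem hQnd f₀ hiso)
  have hpow : ∀ (k : ℕ) (u : ι → F), ((x ^ k : GL ι F) : Matrix ι ι F) *ᵥ u = u + (k : F) • N u := by
    intro k
    induction k with
    | zero => intro u; simp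
    | succ k ih =>
      intro u
      rw [pow_succ, Units.val_mul, ← Matrix.mulVec_mulVec, hxa, ih, map_add, hNN, add_zero]
      push_cast
      module
  refine ⟨x, hxi, ?_, ?_, fun u => by rw [hxa, hN]⟩
  · apply Units.ext
    apply Matrix.toLin'.injective
    apply LinearMap.ext
    intro u
    rw [Matrix.toLin'_apply, hpow, CharP.cast_eq_zero F p, zero_smul, add_zero, Units.val_one, Matrix.toLin'_apply, Matrix.one_mulVec]
  · intro h1
    have h3 := hxa v
    rw [h1, Units.val_one, Matrix.one_mulVec, hN, hve, hvf, one_smul, zero_smul, sub_zero] at h3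
    apply hf0
    have := left_eq_add.mp h3
    exact this

/-- A conjugate of a Siegel element does not commute with a self-adjoint root of a nonsquare. -/
theorem siegel_not_comm (h2 : (2 : F) ≠ 0) {ω : F} (hω : ¬ IsSquare ω) {τ : Matrix ι ι F} (hT : IsTau (B Q) ω (Matrix.toLin' τ))
    {e f v : ι → F} (hve : B Q v e = 1) (hvf : B Q v f = 0) (hf0 : f ≠ 0) {x g : GL ι F} (hg : g ∈ Cfsg.isometryGroup F ⇑Q)
    (hx : ∀ u, (x : Matrix ι ι F) *ᵥ u = u + (B Q u e • f - B Q u f • e))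
    (hc : ((g⁻¹ * x * g : GL ι F) : Matrix ι ι F) * τ = τ * ((g⁻¹ * x * g : GL ι F) : Matrix ι ι F)) : False := by
  have hgg : ∀ v, ((g⁻¹ : GL ι F) : Matrix ι ι F) *ᵥ ((g : Matrix ι ι F) *ᵥ v) = v := by
    intro v
    rw [Matrix.mulVec_mulVec, ← Units.val_mul, inv_mul_cancel]
    exact Matrix.one_mulVec v
  have hgg' : ∀ v, (g : Matrix ι ι F) *ᵥ (((g⁻¹ : GL ι F) : Matrix ι ι F) *ᵥ v) = v := by
    intro v
    rw [Matrix.mulVec_mulVec, ← Units.val_mul, mul_inv_cancel]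
    exact Matrix.one_mulVec v
  have hgB : ∀ u w, B Q ((g : Matrix ι ι F) *ᵥ u) ((g : Matrix ι ι F) *ᵥ w) = B Q u w := by
    intro u w
    have h1 := (mem_isometryGroup _ _).1 hg
    rw [B_apply, B_apply, ← Matrix.mulVec_add, h1, h1, h1]
  set ginv := ((g⁻¹ : GL ι F) : Matrix ι ι F) with hginv
  have hB' : ∀ u w, B Q ((g : Matrix ι ι F) *ᵥ u) w = B Q u (ginv *ᵥ w) := by
    intro u w
    conv_lhs => rw [← hgg' w]
    rw [hgB]
  have hy : ∀ u, ((g⁻¹ * x * g : GL ι F) : Matrix ι ι F) *ᵥ u = u + (B Q u (ginv *ᵥ e) • (ginv *ᵥ f) - B Q u (ginv *ᵥ f) • (ginv *ᵥ e)) := by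
    intro u
    rw [Units.val_mul, Units.val_mul, ← Matrix.mulVec_mulVec, ← Matrix.mulVec_mulVec, hx, Matrix.mulVec_add, hgg, Matrix.mulVec_sub, Matrix.mulVec_smul, Matrix.mulVec_smul, hB', hB']
  apply siegel_no_tau h2 hω hT (e := ginv *ᵥ e) (f := ginv *ᵥ f) (v := ginv *ᵥ v)
  · intro h
    apply hf0
    rw [← hgg' f, h, Matrix.mulVec_zero]
  · have := hgB (ginv *ᵥ v) (ginv *ᵥ e)
    rw [hgg', hgg', hve] at this
    exact this.symm
  · have := hgB (ginv *ᵥ v) (ginv *ᵥ f)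
    rw [hgg', hgg', hvf] at this
    exact this.symm
  · intro u
    have h1 : ((g⁻¹ * x * g : GL ι F) : Matrix ι ι F) *ᵥ (τ *ᵥ u) = τ *ᵥ (((g⁻¹ * x * g : GL ι F) : Matrix ι ι F) *ᵥ u) := by
      rw [Matrix.mulVec_mulVec, Matrix.mulVec_mulVec, hc]
    rw [hy, hy, Matrix.mulVec_add] at h1
    have h3 := add_left_cancel h1
    simpa only [Matrix.toLin'_apply] using h3

end siegel

section block

variable {F : Type*} [Field F] [Fintype F] {ι : Type} [Fintype ι] [DecidableEq ι] {Q : QuadraticForm F (ι → F)}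

/-- An element of odd prime order commuting with the field moves a space of dimension divisible by four. -/
theorem four_dvd_block (h2 : (2 : F) ≠ 0) (hnd : ∀ u, (∀ v, B Q u v = 0) → u = 0) {ω : F} [Fact (∀ r : F, r ^ 2 ≠ ω + 0 * r)]
    {τ : Matrix ι ι F} (hT : IsTau (B Q) ω (Matrix.toLin' τ)) {y : GL ι F} (hy : y ∈ Cfsg.isometryGroup F ⇑Q)
    {r c : ℕ} [hrf : Fact r.Prime] (hr2 : r ≠ 2) (hrF : (r : F) ≠ 0) (hyr : y ^ r = 1)
    (hc : (y : Matrix ι ι F) * τ = τ * (y : Matrix ι ι F))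
    (hfix : finrank F (fixS (Matrix.toLin' (y : Matrix ι ι F)) ⊤) + c = finrank F (ι → F)) : 4 ∣ c := by
  classical
  have hr := hrf.out
  have hr0 : r ≠ 0 := hr.ne_zero
  have hrodd : Odd r := hr.odd_of_ne_two hr2
  have hB : GoodForm (B Q) := Or.inr ⟨h2, B_comm Q⟩
  set Y := Matrix.toLin' (y : Matrix ι ι F) with hY
  have hYa : ∀ v, Y v = (y : Matrix ι ι F) *ᵥ v := fun v => Matrix.toLin'_apply _ v
  have hiso : ∀ u v, B Q (Y u) (Y v) = B Q u v := toLin_iso hy
  have hYr : Y ^ r = 1 := Cfsg.Agent.Lib.EvElt99.hTr_of_pow hyr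
  have hU : NDOn (B Q) ⊤ := fun v _ h => hnd v fun w => h w trivial
  have hndfix : NDOn (B Q) (fixS Y ⊤) := nd_fixS hB hiso hr0 hrF hYr hU (fun _ _ => trivial)
  set W := perp (B Q) (fixS Y ⊤) with hW
  have hWfin : finrank F W = c := by
    have h1 : finrank F (fixS Y ⊤) + finrank F W = _ := finrank_perp hB hndfix
    omega
  have hWY : InvOn Y W := inv_perp hiso hr0 hYr (inv_fixS ⊤)
  let A₀ := actL ω (Matrix.toLin' τ) hT.2
  have hA₀Y : ∀ a v, A₀ a (Y v) = Y (A₀ a v) := by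
    intro a v
    simp only [A₀, actL_apply, map_add, map_smul]
    congr 2
    rw [hYa, hYa, Matrix.toLin'_apply, Matrix.toLin'_apply, Matrix.mulVec_mulVec, Matrix.mulVec_mulVec, hc]
  have hself := actL_self ω hT
  have hWA : ∀ a, ∀ v ∈ W, A₀ a v ∈ W := by
    intro a v hv f hf
    have hf' := mem_fixS.mp hf
    rw [← hself a f v]
    exact hv _ (mem_fixS.mpr ⟨trivial, by rw [← hA₀Y, hf'.2]⟩)
  let Y' : W →ₗ[F] W := Y.restrict hWY
  have hY'a : ∀ a : W, ((Y' a : W) : ι → F) = Y a := fun a => rfl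
  have hY'p : ∀ (k : ℕ) (u : W), (((Y' ^ k) u : W) : ι → F) = (Y ^ k) u := by
    intro k
    induction k with
    | zero => simp
    | succ k ih =>
      intro u
      rw [pow_succ, pow_succ, Module.End.mul_apply, Module.End.mul_apply, ih, hY'a]
  have hY'r : Y' ^ r = 1 := by
    apply LinearMap.ext
    intro u
    apply Subtype.ext
    rw [hY'p, hYr]
    rfl
  have hT1 : ∀ u, Y' ((Y' ^ (r - 1)) u) = u := by
    intro u
    rw [← Module.End.mul_apply, ← pow_succ', Nat.sub_add_cancel hr.one_le, hY'r]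
    rfl
  have hT2 : ∀ u, (Y' ^ (r - 1)) (Y' u) = u := by
    intro u
    rw [← Module.End.mul_apply, ← pow_succ, Nat.sub_add_cancel hr.one_le, hY'r]
    rfl
  have hfree : ∀ u : W, Y' (Y' u) = u → u = 0 := by
    intro u hu
    obtain ⟨k, hk⟩ := hrodd
    have h1 : ∀ j : ℕ, (Y' ^ (2 * j)) u = u := by
      intro j
      induction j with
      | zero => simp
      | succ j ih =>
        rw [show 2 * (j + 1) = 2 + 2 * j by ring, pow_add, Module.End.mul_apply, ih, pow_two, Module.End.mul_apply, hu]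
    have h3 : Y' u = u := by
      have h4 := h1 (k + 1)
      have h5 : 2 * (k + 1) = r + 1 := by omega
      rw [h5, pow_succ, Module.End.mul_apply, hY'r] at h4
      exact h4
    apply Subtype.ext
    have h5 : Y (u : ι → F) = u := congrArg Subtype.val h3
    apply hndfix _ (mem_fixS.mpr ⟨trivial, h5⟩)
    intro w hw
    exact hB.refl (u.2 w hw)
  rw [← hWfin]
  exact four_dvd_of_free (L := LL ω) (finrank_LL ω) h2 (B := (B Q).domRestrict₁₂ W W) (fun _ _ => B_comm Q _ _)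
    (fun u hu => perp_nd hB hndfix hnd u hu) hT1 hT2 (fun a b => hiso a b) hfree
    (Cfsg.Agent.Lib.SpField.restrictAlg A₀ W hWA) (fun a u v => hself a u v) (fun a v => Subtype.ext (hA₀Y a v))

end block

end Cfsg.Agent.Lib.QFE99
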