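import Mathlib
import Cfsg.Agent.Lib.QFE99
import Cfsg.Agent.Lib.AutPOm.Descent

/-!
# The index of the normalizer and the subgroup of `K`-linear isometries
-/

set_option autoImplicit false
set_option linter.unusedSectionVars false
set_option linter.unusedSimpArgs false
set_option linter.unusedVariables false
set_option maxHeartbeats 1000000

namespace Cfsg.Agent.Lib.QFF99

open Module QuadraticMap Matrix
open scoped MatrixGroups
open Cfsg.Agent.Lib.IsomBlock Cfsg.Agent.Lib.QFA99 Cfsg.Agent.Lib.QFB99 Cfsg.Agent.Lib.QFC99 Cfsg.Agent.Lib.QFD99 Cfsg.Agent.Lib.QFE99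
open Cfsg.Agent.Lib.OrthGroup Cfsg.Agent.Lib.OrthOmega Cfsg.Agent.Lib.OrthMatrix Cfsg.Agent.Lib.QuadFF Cfsg.Agent.Lib.OrthoBasic

section index

variable {G : Type*} [Group G] [Finite G]

theorem relIndex_mul_card_inf (H K : Subgroup G) : H.relIndex K * Nat.card (H ⊓ K : Subgroup G) = Nat.card K := by
  have h1 := Subgroup.card_mul_index (H.subgroupOf K)
  have h2 : Nat.card (H.subgroupOf K) = Nat.card (H ⊓ K : Subgroup G) := by
    have e : H.subgroupOf K = (H ⊓ K).subgroupOf K := by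
      ext x
      simp [Subgroup.mem_subgroupOf]
    rw [e]
    exact Nat.card_congr (Subgroup.subgroupOfEquivOfLe (inf_le_right : H ⊓ K ≤ K)).toEquiv
  rw [h2] at h1
  rw [Subgroup.relIndex, mul_comm]
  exact h1

theorem relIndex_mul_card_dvd (Ω P : Subgroup G) [Ω.Normal] : P.relIndex Ω * Nat.card P ∣ Nat.card G := by
  have h1 := relIndex_mul_card_inf P Ω
  have h2 := relIndex_mul_card_inf Ω P
  have h3 := relIndex_mul_card_inf Ω (Ω ⊔ P)
  rw [Subgroup.relIndex_sup_left, inf_eq_left.mpr le_sup_left] at h3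
  have h4 : Nat.card ↥(Ω ⊔ P) ∣ Nat.card G := Subgroup.card_subgroup_dvd_card _
  rw [inf_comm] at h2
  have h5 : P.relIndex Ω * Nat.card P = Nat.card ↥(Ω ⊔ P) := by
    rw [← h3, ← h2, ← h1]
    ring
  rw [h5]
  exact h4

theorem relIndex_dvd_of_card {O Ω P : Subgroup G} (hΩO : Ω ≤ O) (hn : (Ω.subgroupOf O).Normal) (hPO : P ≤ O) {t : ℕ}
    (hc : Nat.card O = Nat.card P * t) (hP : 0 < Nat.card P) : P.relIndex Ω ∣ t := by
  have h1 := relIndex_mul_card_dvd (Ω.subgroupOf O) (P.subgroupOf O)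
  rw [Subgroup.relIndex_subgroupOf hΩO, Nat.card_congr (Subgroup.subgroupOfEquivOfLe hPO).toEquiv, hc, mul_comm _ (Nat.card P)] at h1
  exact Nat.dvd_of_mul_dvd_mul_left hP h1

theorem not_dvd_relIndex {O Ω P N : Subgroup G} (hΩO : Ω ≤ O) (hn : (Ω.subgroupOf O).Normal) (hPO : P ≤ O) (hPN : P ≤ N) {t r : ℕ}
    (hc : Nat.card O = Nat.card P * t) (hrt : ¬ r ∣ t) : ¬ r ∣ N.relIndex Ω := by
  intro h
  apply hrt
  refine (h.trans (Subgroup.relIndex_dvd_of_le_left Ω hPN)).trans (relIndex_dvd_of_card hΩO hn hPO hc Nat.card_pos)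

end index

section std

variable {L : Type*} [Field L] {n : ℕ}

/-- The standard form as an `L`-bilinear form. -/
def stdL (n : ℕ) (c : L) : LinearMap.BilinForm L (D n L) :=
  LinearMap.mk₂ L (stdF c) (stdF_add_left c) (fun a p q => by rw [stdF_smul_left]; rfl) (stdF_add_right c)
    (fun a p q => by rw [stdF_smul_right]; rfl)

theorem stdL_apply (c : L) (p q : D n L) : stdL n c p q = stdF c p q := rfl

/-- The quadratic form of the standard model over `L`. -/
noncomputable def Qc (n : ℕ) (c : L) : QuadraticForm L (D n L) := qOf (stdL n c)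

theorem Qc_apply (c : L) (p : D n L) : Qc n c p = 2⁻¹ * stdF c p p := rfl

theorem polar_Qc (h2 : (2 : L) ≠ 0) (c : L) (p q : D n L) : polar (Qc n c) p q = stdF c p q :=
  polar_qOf h2 (stdF_comm c) p q

theorem nd_Qc (h2 : (2 : L) ≠ 0) {c : L} (hc : c ≠ 0) : ND (Qc n c) := by
  refine nd_qOf h2 (stdF_comm c) ?_
  intro u hu
  by_contra hall
  push Not at hall
  exact hu (stdF_sep hc hall)

end std

section P

variable {F : Type*} [Field F] [Fintype F] {ι : Type} [Fintype ι] [DecidableEq ι] {Q : QuadraticForm F (ι → F)}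
  {K : Subalgebra F (Matrix ι ι F)} {ω : F} [Fact (∀ r : F, r ^ 2 ≠ ω + 0 * r)] {n : ℕ}

/-- The action of `L`-linear maps of the model on the matrix space. -/
noncomputable def rhoE (E : D n (LL ω) ≃ₗ[F] (ι → F)) : (D n (LL ω) ≃ₗ[LL ω] D n (LL ω)) →* GL ι F where
  toFun g := glEquiv.symm (E.symm.trans ((g.restrictScalars F).trans E))
  map_one' := by
    apply glEquiv.injective
    rw [MulEquiv.apply_symm_apply, map_one]
    ext1 v
    simp
  map_mul' g h := by
    apply glEquiv.injective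
    rw [map_mul, MulEquiv.apply_symm_apply, MulEquiv.apply_symm_apply, MulEquiv.apply_symm_apply]
    ext1 v
    simp

theorem rhoE_mulVec (E : D n (LL ω) ≃ₗ[F] (ι → F)) (g : D n (LL ω) ≃ₗ[LL ω] D n (LL ω)) (v : ι → F) :
    (rhoE E g : Matrix ι ι F) *ᵥ v = E (g (E.symm v)) := by
  show ((glEquiv.symm (E.symm.trans ((g.restrictScalars F).trans E)) : GL ι F) : Matrix ι ι F) *ᵥ v = _
  rw [mulVec_glEquiv_symm]
  rfl

theorem rhoE_inj (E : D n (LL ω) ≃ₗ[F] (ι → F)) : Function.Injective (rhoE E) := by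
  intro g h hgh
  ext1 p
  have h1 := rhoE_mulVec E g (E p)
  rw [hgh, rhoE_mulVec, E.symm_apply_apply] at h1
  exact (E.injective h1).symm

/-- The subgroup of isometries which are linear over the field. -/
theorem exists_P (h2 : (2 : F) ≠ 0) {τ : Matrix ι ι F} (hKs : ∀ k, k ∈ K ↔ ∃ a b : F, k = a • (1 : Matrix ι ι F) + b • τ)
    (hT : IsTau (B Q) ω (Matrix.toLin' τ)) {c : LL ω} {E : D n (LL ω) ≃ₗ[F] (ι → F)}
    (hE1 : ∀ a p, E (a • p) = actL ω (Matrix.toLin' τ) hT.2 a (E p))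
    (hE2 : ∀ p q, B Q (E p) (E q) = reL ω (stdF c p q)) :
    ∃ P : Subgroup (GL ι F), P ≤ Cfsg.Geo.subalgebraNormalizer K ∧ P ≤ Cfsg.isometryGroup F ⇑Q ∧ Nat.card P = Nat.card (OG (Qc n c)) := by
  classical
  have h2L : (2 : LL ω) ≠ 0 := by
    intro h
    apply h2
    apply (algebraMap F (LL ω)).injective
    rw [map_ofNat, h, map_zero]
  let ρ : ↥(OG (Qc n c)) →* GL ι F := (rhoE E).comp (OG (Qc n c)).subtype
  have hρ : Function.Injective ρ := (rhoE_inj E).comp Subtype.val_injective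
  have hτE : ∀ v, τ *ᵥ v = E ((QuadraticAlgebra.omega : LL ω) • E.symm v) := by
    intro v
    rw [hE1, actL_apply, E.apply_symm_apply]
    simp
  have hiso : ∀ g : ↥(OG (Qc n c)), ∀ p, stdF c ((g : D n (LL ω) ≃ₗ[LL ω] D n (LL ω)) p) ((g : D n (LL ω) ≃ₗ[LL ω] D n (LL ω)) p) = stdF c p p := by
    intro g p
    have h1 : Qc n c ((g : D n (LL ω) ≃ₗ[LL ω] D n (LL ω)) p) = Qc n c p := g.2 p
    rw [Qc_apply, Qc_apply] at h1
    have h3 : (2⁻¹ : LL ω) ≠ 0 := inv_ne_zero h2L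
    exact mul_left_cancel₀ h3 h1
  refine ⟨ρ.range, ?_, ?_, Nat.card_congr (MonoidHom.ofInjective hρ).toEquiv.symm⟩
  · rintro _ ⟨g, rfl⟩
    refine mem_normalizer_of (z := 1) hKs (by ring) ?_
    rw [one_smul]
    apply Matrix.toLin'.injective
    apply LinearMap.ext
    intro v
    simp only [Matrix.toLin'_mul, LinearMap.comp_apply, Matrix.toLin'_apply]
    show (rhoE E g.1 : Matrix ι ι F) *ᵥ (τ *ᵥ v) = τ *ᵥ ((rhoE E g.1 : Matrix ι ι F) *ᵥ v)
    rw [rhoE_mulVec, rhoE_mulVec, hτE, hτE, E.symm_apply_apply, E.symm_apply_apply, map_smul]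
  · rintro _ ⟨g, rfl⟩
    rw [mem_isometryGroup]
    intro v
    show Q ((rhoE E g.1 : Matrix ι ι F) *ᵥ v) = Q v
    rw [rhoE_mulVec]
    have hQ : ∀ u, Q u = 2⁻¹ * B Q u u := by
      intro u
      rw [B_self]
      field_simp
    rw [hQ, hQ v]
    congr 1
    obtain ⟨p, rfl⟩ := E.surjective v
    rw [E.symm_apply_apply, hE2, hE2, hiso]

end P

end Cfsg.Agent.Lib.QFF99
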