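import Mathlib
import Cfsg.Agent.Lib.QFF99
import Cfsg.Agent.Lib.OrthoOrder
import Cfsg.Agent.Lib.AutPOm.Descent
import Cfsg.Agent.Lib.EvP99
import Cfsg.Agent.Lib.SpField.Index

/-!
# The type of the form over the quadratic extension
-/

set_option autoImplicit false
set_option linter.unusedSectionVars false
set_option linter.unusedSimpArgs false
set_option linter.unusedVariables false
set_option maxHeartbeats 1000000

namespace Cfsg.Agent.Lib.QFG99

open Module QuadraticMap Matrix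
open scoped MatrixGroups
open Cfsg.Agent.Lib.IsomBlock Cfsg.Agent.Lib.QFA99 Cfsg.Agent.Lib.QFB99 Cfsg.Agent.Lib.QFC99 Cfsg.Agent.Lib.QFD99 Cfsg.Agent.Lib.QFE99 Cfsg.Agent.Lib.QFF99
open Cfsg.Agent.Lib.OrthGroup Cfsg.Agent.Lib.OrthOmega Cfsg.Agent.Lib.OrthMatrix Cfsg.Agent.Lib.QuadFF Cfsg.Agent.Lib.OrthoBasic Cfsg.Agent.Lib
open Cfsg.Agent.Lib.QuadClass Cfsg.Agent.Lib.QuadClass2 Cfsg.Agent.Lib.OrthoCount

section ts

variable {L : Type*} [Field L] {V : Type*} [AddCommGroup V] [Module L V]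

/-- Orthonormal families of even size give totally isotropic subspaces when `-1` is a square. -/
theorem ts_of_orthonormal {h : LinearMap.BilinForm L V} {i : L} (hi : i * i = -1) {m : ℕ} (b : Fin m ⊕ Fin m → V)
    (hb : ∀ x y, h (b x) (b y) = if x = y then 1 else 0) :
    ∃ U : Submodule L V, (∀ u ∈ U, h u u = 0) ∧ finrank L U = m := by
  classical
  let g : Fin m → V := fun j => b (Sum.inl j) + i • b (Sum.inr j)
  let Ψ : (Fin m → L) →ₗ[L] V := Fintype.linearCombination L g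
  have hΨ : ∀ y, Ψ y = ∑ j, y j • g j := fun y => Fintype.linearCombination_apply L g y
  have hgg : ∀ j k, h (g j) (g k) = 0 := by
    intro j k
    simp only [g, map_add, map_smul, LinearMap.add_apply, LinearMap.smul_apply, smul_eq_mul, hb, Sum.inl.injEq, Sum.inr.injEq, reduceCtorEq, if_false]
    split_ifs
    · linear_combination hi
    · ring
  have hΨΨ : ∀ y y', h (Ψ y) (Ψ y') = 0 := by
    intro y y'
    rw [hΨ, hΨ]
    simp only [map_sum, map_smul, LinearMap.sum_apply, LinearMap.smul_apply, smul_eq_mul, hgg, mul_zero, Finset.sum_const_zero]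
  have hinj : Function.Injective Ψ := by
    rw [injective_iff_map_eq_zero]
    intro y hy
    funext j
    have h1 : h (Ψ y) (b (Sum.inl j)) = y j := by
      rw [hΨ]
      simp only [g, map_sum, map_smul, map_add, LinearMap.sum_apply, LinearMap.smul_apply, LinearMap.add_apply, smul_eq_mul, hb, Sum.inl.injEq, reduceCtorEq, if_false, mul_zero, add_zero]
      simp
    rw [hy, map_zero, LinearMap.zero_apply] at h1
    exact h1.symm
  refine ⟨LinearMap.range Ψ, ?_, ?_⟩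
  · rintro _ ⟨y, rfl⟩
    exact hΨΨ y y
  · rw [LinearMap.finrank_range_of_inj hinj]
    simp

variable {n m : ℕ}

/-- The orthonormal family of the standard model with square parameter. -/
theorem exists_ts_std (hnm : n + 1 = 2 * m) {c k i : L} (hk : k ≠ 0) (hc : c = k * k) (hi : i * i = -1) :
    ∃ U : Submodule L (D n L), (∀ u ∈ U, stdF c u u = 0) ∧ finrank L U = m := by
  classical
  have hcard : Fintype.card (Fin m ⊕ Fin m) = Fintype.card (Fin n ⊕ Unit) := by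
    simp
    omega
  let e : Fin m ⊕ Fin m ≃ Fin n ⊕ Unit := Fintype.equivOfCardEq hcard
  let β : Fin n ⊕ Unit → D n L := Sum.elim (fun j => (Pi.single j 1, 0)) (fun _ => (0, k⁻¹))
  have hβ : ∀ x y, stdF c (β x) (β y) = if x = y then 1 else 0 := by
    rintro (x | x) (y | y)
    · simp [β, stdF, Pi.single_apply, Finset.sum_ite_eq]
      simp [eq_comm]
    · simp [β, stdF]
    · simp [β, stdF]
    · have : x = y := rfl
      subst this
      simp [β, stdF, hc]
      field_simp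
  obtain ⟨U, hU, hd⟩ := ts_of_orthonormal (h := stdL n c) hi (fun x => β (e x)) (by
    intro x y
    rw [stdL_apply, hβ]
    simp only [e.apply_eq_iff_eq])
  exact ⟨U, hU, hd⟩

/-- A hyperbolic basis over `L` for a square parameter. -/
theorem hyp_of_square [Fintype L] (h2 : (2 : L) ≠ 0) (hnm : n + 1 = 2 * m) {c k i : L} (hk : k ≠ 0) (hc : c = k * k) (hi : i * i = -1) :
    ∃ b : Basis (Fin m ⊕ Fin m) L (D n L), IsHypBasis (Qc n c) b := by
  have hc0 : c ≠ 0 := by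
    rw [hc]
    exact mul_ne_zero hk hk
  obtain ⟨U, hU, hd⟩ := exists_ts_std hnm hk hc hi
  refine hyp_of_ts (m := m) ?_ (nd_Qc h2 hc0) U (fun u hu => ?_) hd
  · rw [Module.finrank_prod]
    simp
    omega
  · rw [Qc_apply, hU u hu, mul_zero]

end ts


section plus

variable {F : Type*} [Field F] [Fintype F] {ω : F} [Fact (∀ r : F, r ^ 2 ≠ ω + 0 * r)] {n m : ℕ}

theorem two_ne_L (h2 : (2 : F) ≠ 0) : (2 : LL ω) ≠ 0 := by
  intro h
  apply h2
  apply (algebraMap F (LL ω)).injective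
  rw [map_ofNat, h, map_zero]

theorem card_LL [Fintype (LL ω)] : Fintype.card (LL ω) = Fintype.card F ^ 2 := by
  rw [Module.card_eq_pow_finrank (K := F) (V := LL ω), finrank_LL]

theorem exists_i_L (hodd : Odd (Fintype.card F)) : ∃ i : LL ω, i * i = -1 := by
  classical
  haveI : Finite (LL ω) := Module.finite_of_finite F
  letI : Fintype (LL ω) := Fintype.ofFinite (LL ω)
  rw [Cfsg.Agent.Lib.EvP99.neg_one_sq_iff (q := Fintype.card (LL ω)) rfl, card_LL]
  obtain ⟨a, ha⟩ := hodd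
  rw [ha]
  have : (2 * a + 1) ^ 2 = 4 * (a * a + a) + 1 := by ring
  rw [this]
  omega

/-- The `F`-quadratic form of the model. -/
noncomputable def Qf (n : ℕ) (c : LL ω) : QuadraticForm F (D n (LL ω)) := qOf (stdB (reL ω) n c)

theorem Qf_apply (c : LL ω) (p : D n (LL ω)) : Qf n c p = 2⁻¹ * reL ω (stdF c p p) := rfl

theorem polar_Qf (h2 : (2 : F) ≠ 0) (c : LL ω) (p q : D n (LL ω)) : polar (Qf n c) p q = reL ω (stdF c p q) :=
  polar_qOf h2 (fun u v => by rw [stdB_apply, stdB_apply, stdF_comm]) p q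

theorem nd_Qf (h2 : (2 : F) ≠ 0) {c : LL ω} (hc : c ≠ 0) : ND (Qf n c) := by
  refine nd_qOf h2 (fun u v => by rw [stdB_apply, stdB_apply, stdF_comm]) ?_
  intro u hu
  by_contra hall
  push Not at hall
  exact hu (stdB_sep (reL_ne ω) n hc u hall)

theorem finrank_D_F : finrank F (D n (LL ω)) = 2 * (n + 1) := by
  have h1 := Module.finrank_mul_finrank F (LL ω) (D n (LL ω))
  rw [← h1, finrank_LL, Module.finrank_prod]
  simp

theorem finrank_D_L : finrank (LL ω) (D n (LL ω)) = n + 1 := by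
  rw [Module.finrank_prod]
  simp

theorem finrank_rs (U : Submodule (LL ω) (D n (LL ω))) : finrank F (U.restrictScalars F) = 2 * finrank (LL ω) U := by
  have h1 := Module.finrank_mul_finrank F (LL ω) U
  rw [finrank_LL] at h1
  exact h1.symm

/-- The parameter of the model of the plus form is a square. -/
theorem isSquare_param_plus (h2 : (2 : F) ≠ 0) (hodd : Odd (Fintype.card F)) (hnm : n + 1 = 2 * m) {c : LL ω} (hc : c ≠ 0)
    (E : D n (LL ω) ≃ₗ[F] (Fin (n + 1) ⊕ Fin (n + 1) → F))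
    (hE2 : ∀ p q, B (qPlus (n + 1) F) (E p) (E q) = reL ω (stdF c p q)) : IsSquare c := by
  classical
  obtain ⟨i, hi⟩ := exists_i_L (ω := ω) hodd
  obtain ⟨U, hU, hUd⟩ := exists_ts_std (L := LL ω) (n := n) (m := m) hnm (k := 1) (c := 1) one_ne_zero (by ring) hi
  have hc1 : (1 : LL ω) ≠ 0 := one_ne_zero
  obtain ⟨b, hb⟩ := hyp_of_ts (F := F) (V := D n (LL ω)) (m := n + 1) finrank_D_F (nd_Qf (n := n) h2 hc1) (U.restrictScalars F)
    (fun u hu => by
      rw [Qf_apply, hU u hu, map_zero, mul_zero])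
    (by rw [finrank_rs, hUd, hnm])
  obtain ⟨e₁, he₁⟩ := iso_qPlus_of_hyp hb
  let g : D n (LL ω) →ₗ[F] D n (LL ω) := e₁.symm.toLinearMap ∘ₗ E.toLinearMap
  have hg : ∀ p q, stdB (reL ω) n 1 (g p) (g q) = stdB (reL ω) n c p q := by
    intro p q
    rw [stdB_apply, stdB_apply, ← hE2, ← polar_Qf h2]
    have h1 : ∀ u v, polar (Qf n (1 : LL ω)) u v = polar ⇑(qPlus (n + 1) F) (e₁ u) (e₁ v) := by
      intro u v
      simp only [polar, ← map_add, he₁]
    rw [h1]
    show polar ⇑(qPlus (n + 1) F) (e₁ (e₁.symm (E p))) (e₁ (e₁.symm (E q))) = _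
    rw [e₁.apply_symm_apply, e₁.apply_symm_apply]
    rfl
  have hrel := norm_rel (reL_ne ω) g hg
  rw [map_one, mul_one] at hrel
  exact isSquare_of_norm h2 (finrank_LL ω) hc ⟨_, hrel⟩

/-- The model of the plus form is hyperbolic. -/
theorem hyp_plus (h2 : (2 : F) ≠ 0) (hodd : Odd (Fintype.card F)) [Fintype (LL ω)] (hnm : n + 1 = 2 * m) {c : LL ω} (hc : c ≠ 0)
    (E : D n (LL ω) ≃ₗ[F] (Fin (n + 1) ⊕ Fin (n + 1) → F))
    (hE2 : ∀ p q, B (qPlus (n + 1) F) (E p) (E q) = reL ω (stdF c p q)) :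
    ∃ b : Basis (Fin m ⊕ Fin m) (LL ω) (D n (LL ω)), IsHypBasis (Qc n c) b := by
  obtain ⟨k, hk⟩ := isSquare_param_plus h2 hodd hnm hc E hE2
  have hk0 : k ≠ 0 := by
    rintro rfl
    apply hc
    rw [hk, mul_zero]
  obtain ⟨i, hi⟩ := exists_i_L (ω := ω) hodd
  exact hyp_of_square (two_ne_L h2) hnm hk0 hk hi

/-- The model of the minus form is not hyperbolic. -/
theorem minus_minus (h2 : (2 : F) ≠ 0) [Fintype (LL ω)] {k k' : ℕ} (hnm : n + 1 = 2 * (k + 1)) (hk' : n = k') {c : LL ω} (hc : c ≠ 0) {a b : F}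
    (hab : ∀ x y : F, x ^ 2 + a * x * y + b * y ^ 2 = 0 → x = 0 ∧ y = 0)
    (E : D n (LL ω) ≃ₗ[F] ((Fin k' ⊕ Fin k') ⊕ Fin 2 → F))
    (hE2 : ∀ p q, B (qMinus k' a b) (E p) (E q) = reL ω (stdF c p q)) :
    ∃ (β : Basis ((Fin k ⊕ Fin k) ⊕ Fin 2) (LL ω) (D n (LL ω))) (ζ : LL ω), IsMinusBasis (Qc n c) β ζ := by
  have h2L := two_ne_L (ω := ω) h2
  apply minus_of_no_ts (by rw [finrank_D_L, hnm]) (nd_Qc h2L hc)
  intro U hU hUd
  have hle := finrank_le_of_ts a b hab k' ((U.restrictScalars F).map E.toLinearMap) (by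
    rintro _ ⟨p, hp, rfl⟩
    have h1 : Qc n c p = 0 := hU p hp
    rw [Qc_apply] at h1
    have h3 : stdF c p p = 0 := (mul_eq_zero.mp h1).resolve_left (inv_ne_zero h2L)
    have h4 := hE2 p p
    rw [h3, map_zero, B_self] at h4
    exact (mul_eq_zero.mp h4).resolve_left h2)
  rw [LinearEquiv.finrank_map_eq, finrank_rs, hUd] at hle
  omega

end plus

section oddform

variable {L : Type*} [Field L] [Fintype L] {V : Type*} [AddCommGroup V] [Module L V] [FiniteDimensional L V]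

/-- The order of the orthogonal group of any nondegenerate form in odd dimension. -/
theorem card_OG_odd_form (hodd : Odd (Fintype.card L)) {m : ℕ} (hV : finrank L V = 2 * m + 1) {Q : QuadraticForm L V} (hQ : ND Q) :
    Nat.card (OG Q) = 2 * Fintype.card L ^ (m ^ 2) * ∏ i ∈ Finset.range m, (Fintype.card L ^ (2 * (i + 1)) - 1) := by
  classical
  have hV' : finrank L (Unit ⊕ (Fin m ⊕ Fin m) → L) = 2 * m + 1 := by
    rw [Module.finrank_fintype_fun_eq_card]
    simp only [Fintype.card_sum, Fintype.card_unit, Fintype.card_fin]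
    ring
  let φ : V ≃ₗ[L] (Unit ⊕ (Fin m ⊕ Fin m) → L) := LinearEquiv.ofFinrankEq _ _ (by rw [hV, hV'])
  let Q₀ : QuadraticForm L (Unit ⊕ (Fin m ⊕ Fin m) → L) := Q.comp φ.symm.toLinearMap
  have hQ₀ : ∀ v, Q₀ (φ v) = Q v := by
    intro v
    show Q (φ.symm (φ v)) = Q v
    rw [φ.symm_apply_apply]
  have hnd₀ : ND Q₀ := by
    intro x hx
    have h1 : φ.symm x = 0 := by
      apply hQ
      intro y
      have h3 := hx (φ y)
      simp only [polar, ← hQ₀ y, ← hQ₀ (φ.symm x), ← hQ₀ (φ.symm x + y), map_add, φ.apply_symm_apply] at h3 ⊢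
      exact h3
    simpa using h1
  obtain ⟨P, a, hP⟩ := Cfsg.Agent.Lib.AutPOm.odd_similar Q₀ hnd₀
  let Q₁ : QuadraticForm L (Unit ⊕ (Fin m ⊕ Fin m) → L) := (a : L) • qOdd m L
  have hQ₁ : ∀ v, Q₀ (OrthMatrix.glEquiv P v) = Q₁ v := by
    intro v
    rw [OrthMatrix.glEquiv_apply, hP]
    show _ = (a : L) * qOdd m L v
    rw [qOdd_apply]
  have heq : OG Q₁ = OG (qOdd m L) := by
    ext g
    rw [mem_OG, mem_OG]
    constructor
    · intro h x
      have := h x
      exact mul_left_cancel₀ a.ne_zero this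
    · intro h x
      show (a : L) * _ = (a : L) * _
      rw [h x]
  have h1 : Nat.card (OG Q) = Nat.card (OG Q₀) := Nat.card_congr (OG.congr φ hQ₀).toEquiv
  have h3 : Nat.card (OG Q₁) = Nat.card (OG Q₀) := Nat.card_congr (OG.congr (OrthMatrix.glEquiv P) hQ₁).toEquiv
  rw [h1, ← h3, heq, Cfsg.Agent.Lib.OrthoOrder.card_OG_odd hodd]

end oddform


section numerics

open Cfsg.Agent.Lib.EvCount99 Cfsg.Agent.Lib.SpField

theorem four_dvd_order {r q : ℕ} (h4 : 4 ∣ blockDim r q) : 4 ∣ orderOf (q : ZMod r) := by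
  unfold blockDim at h4
  split_ifs at h4 with hev
  · exact h4
  · exfalso
    apply hev
    have : 2 ∣ orderOf (q : ZMod r) := by
      obtain ⟨w, hw⟩ := h4
      exact ⟨w, by omega⟩
    exact even_iff_two_dvd.mpr this

theorem not_dvd_pow_odd {r q J : ℕ} (hi : 4 ∣ orderOf (q : ZMod r)) (hq0 : 0 < q) (hJ : ¬ 2 ∣ J) : ¬ r ∣ q ^ (2 * J) - 1 := by
  intro h
  have h1 := Cfsg.Agent.Lib.EvQ99.dvd_of_pow h hq0
  have h3 := hi.trans h1
  apply hJ
  obtain ⟨w, hw⟩ := h3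
  exact ⟨w, by omega⟩

theorem not_dvd_fac_odd {r q e : ℕ} [hrf : Fact r.Prime] (hr3 : 2 < r) (hi : 4 ∣ orderOf (q : ZMod r)) (hq0 : 0 < q) (he : ¬ 2 ∣ e) (η : Bool) :
    ¬ r ∣ fac q e η := by
  cases η
  · intro h
    have h1 := Cfsg.Agent.Lib.EvQ99.dvd_of_pow (e := e) h hq0
    have h3 := hi.trans h1
    apply he
    obtain ⟨w, hw⟩ := h3
    exact ⟨2 * w, by omega⟩
  · intro h
    obtain ⟨_, h1⟩ := Cfsg.Agent.Lib.EvQ99.not_dvd_of_plus hr3 (e := e) h
    have h3 := hi.trans h1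
    apply he
    obtain ⟨w, hw⟩ := h3
    exact ⟨w, by omega⟩

theorem fac_sq (q m : ℕ) (η : Bool) : fac (q ^ 2) m η = fac q (2 * m) η := by
  cases η <;> simp [fac, pow_mul]

theorem ord_odd (q m : ℕ) (η : Bool) :
    ordT q (2 * m) η = (2 * (q ^ 2) ^ (m ^ 2) * ∏ i ∈ Finset.range m, ((q ^ 2) ^ (2 * (i + 1)) - 1)) *
      (q ^ (2 * m ^ 2 + 2 * m) * fac q (2 * m + 1) η *
        ∏ J ∈ (Finset.range (2 * m)).filter (fun J => ¬ 2 ∣ J + 1), (q ^ (2 * (J + 1)) - 1)) := by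
  unfold ordT
  rw [prod_split q 2 m (by norm_num)]
  have h1 : q ^ ((2 * m + 1) * (2 * m)) = (q ^ 2) ^ (m ^ 2) * q ^ (2 * m ^ 2 + 2 * m) := by
    rw [← pow_mul, ← pow_add]
    congr 1
    ring
  rw [h1]
  ring

theorem ord_even (q m : ℕ) (η : Bool) :
    ordT q (2 * m + 1) η = ordT (q ^ 2) m η *
      (q ^ (2 * (m + 1) * (m + 1)) * (∏ J ∈ (Finset.range (2 * m)).filter (fun J => ¬ 2 ∣ J + 1), (q ^ (2 * (J + 1)) - 1)) *
        (q ^ (2 * (2 * m + 1)) - 1)) := by
  unfold ordT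
  rw [Finset.prod_range_succ, prod_split q 2 m (by norm_num), fac_sq]
  have h1 : q ^ ((2 * m + 1 + 1) * (2 * m + 1)) = (q ^ 2) ^ ((m + 1) * m) * q ^ (2 * (m + 1) * (m + 1)) := by
    rw [← pow_mul, ← pow_add]
    congr 1
    ring
  have h3 : 2 * m + 1 + 1 = 2 * (m + 1) := by ring
  rw [h1, h3]
  ring

theorem not_dvd_filter {r q m : ℕ} [hrf : Fact r.Prime] (hi : 4 ∣ orderOf (q : ZMod r)) (hq0 : 0 < q) :
    ¬ r ∣ ∏ J ∈ (Finset.range (2 * m)).filter (fun J => ¬ 2 ∣ J + 1), (q ^ (2 * (J + 1)) - 1) := by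
  intro h
  obtain ⟨J, hJ, hJ2⟩ := (Prime.dvd_finsetProd_iff hrf.out.prime _).1 h
  rw [Finset.mem_filter] at hJ
  exact not_dvd_pow_odd hi hq0 hJ.2 hJ2

end numerics

section indexmain

open Cfsg.Agent.Lib.EvCount99 Cfsg.Agent.Lib.SpField

variable {F : Type*} [Field F] [Fintype F] {ι : Type} [Fintype ι] [DecidableEq ι] {Q : QuadraticForm F (ι → F)}
  {K : Subalgebra F (Matrix ι ι F)} {ω : F} [Fact (∀ r : F, r ^ 2 ≠ ω + 0 * r)] {n : ℕ}

theorem omega_normal : ((Cfsg.Geo.omegaGL ⇑Q).subgroupOf (Cfsg.isometryGroup F ⇑Q)).Normal := by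
  have h1 : (Cfsg.Geo.omegaGL ⇑Q).subgroupOf (Cfsg.isometryGroup F ⇑Q) = Cfsg.Omega F ⇑Q :=
    Subgroup.comap_map_eq_self_of_injective (Subgroup.subtype_injective _) _
  rw [h1]
  infer_instance

/-- The main index statement. -/
theorem index_main (p : ℕ) [Fact p.Prime] [CharP F p] (h2 : (2 : F) ≠ 0) (hodd : Odd (Fintype.card F)) (hnd : ∀ u, (∀ v, B Q u v = 0) → u = 0)
    (hn : finrank F (ι → F) = 2 * (n + 1)) {η : Bool} (hcardO : Nat.card (Cfsg.isometryGroup F ⇑Q) = ordT (Fintype.card F) n η)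
    {τ : Matrix ι ι F} (hKs : ∀ k, k ∈ K ↔ ∃ a b : F, k = a • (1 : Matrix ι ι F) + b • τ)
    (hT : IsTau (B Q) ω (Matrix.toLin' τ))
    (htype : ∀ (c : LL ω) (E : D n (LL ω) ≃ₗ[F] (ι → F)), c ≠ 0 → (∀ p q, B Q (E p) (E q) = reL ω (stdF c p q)) → ∀ a, n + 1 = 2 * (a + 1) → [Fintype (LL ω)] →
      (η = false ∧ ∃ b : Basis (Fin (a + 1) ⊕ Fin (a + 1)) (LL ω) (D n (LL ω)), IsHypBasis (Qc n c) b) ∨
      (η = true ∧ ∃ (b : Basis ((Fin a ⊕ Fin a) ⊕ Fin 2) (LL ω) (D n (LL ω))) (ζ : LL ω), IsMinusBasis (Qc n c) b ζ))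
    {r : ℕ} [hrf : Fact r.Prime] (hr3 : 2 < r) (hrF : (r : F) ≠ 0) (h4 : 4 ∣ blockDim r (Fintype.card F)) :
    ¬ r ∣ (Cfsg.Geo.subalgebraNormalizer K).relIndex (Cfsg.Geo.omegaGL ⇑Q) := by
  classical
  have h2L : (2 : LL ω) ≠ 0 := two_ne_L h2
  obtain ⟨c, E, hc, hE1, hE2⟩ := exists_E (reL_ne ω) h2L (actL ω (Matrix.toLin' τ) hT.2) (B Q) (B_comm Q)
    (fun u hu => by
      by_contra hall
      push Not at hall
      exact hu (hnd u hall))
    (actL_self ω hT) (n := n) (by rw [finrank_LL, hn])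
  obtain ⟨P, hPN, hPO, hPc⟩ := exists_P (K := K) h2 hKs hT hE1 hE2
  haveI : Finite (LL ω) := Module.finite_of_finite F
  letI : Fintype (LL ω) := Fintype.ofFinite (LL ω)
  have hcL : Fintype.card (LL ω) = Fintype.card F ^ 2 := card_LL
  have hoddL : Odd (Fintype.card (LL ω)) := by
    rw [hcL]
    exact hodd.pow
  set q := Fintype.card F with hq
  have hq0 : 0 < q := Fintype.card_pos
  have hi := four_dvd_order h4
  have hrq : ¬ r ∣ q := by
    rw [← ZMod.natCast_eq_zero_iff]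
    exact Cfsg.Agent.Lib.EvElt99.card_ne_zero (p := p) hrF
  have hΩO : Cfsg.Geo.omegaGL ⇑Q ≤ Cfsg.isometryGroup F ⇑Q := fun x hx => Cfsg.Agent.Lib.EvElt99.mem_iso_of_omega hx
  have hr := hrf.out
  rcases Nat.even_or_odd' n with ⟨m, rfl | rfl⟩
  · have h1 : Nat.card (OG (Qc (2 * m) c)) = _ := card_OG_odd_form hoddL (m := m) (by rw [finrank_D_L]) (nd_Qc h2L hc)
    rw [hcL] at h1
    rw [ord_odd q m η] at hcardO
    rw [← h1, ← hPc] at hcardO
    refine not_dvd_relIndex hΩO omega_normal hPO hPN hcardO ?_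
    intro h
    rcases (Nat.Prime.dvd_mul hr).1 h with h | h
    · rcases (Nat.Prime.dvd_mul hr).1 h with h | h
      · exact hrq (hr.dvd_of_dvd_pow h)
      · exact not_dvd_fac_odd hr3 hi hq0 (by omega) η h
    · exact not_dvd_filter hi hq0 h
  · have hη := htype c E hc hE2 m (by ring)
    have h1 : Nat.card (OG (Qc (2 * m + 1) c)) = ordT (Fintype.card (LL ω)) m η :=
      card_OG_form (by rw [finrank_D_L]; ring) (nd_Qc h2L hc) hη
    rw [hcL] at h1
    rw [ord_even q m η] at hcardO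
    rw [← h1, ← hPc] at hcardO
    refine not_dvd_relIndex hΩO omega_normal hPO hPN hcardO ?_
    intro h
    rcases (Nat.Prime.dvd_mul hr).1 h with h | h
    · rcases (Nat.Prime.dvd_mul hr).1 h with h | h
      · exact hrq (hr.dvd_of_dvd_pow h)
      · exact not_dvd_filter hi hq0 h
    · exact not_dvd_pow_odd hi hq0 (by omega) h

end indexmain

end Cfsg.Agent.Lib.QFG99
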