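import Mathlib
import Cfsg.Agent.Lib.QFG99

/-!
# The forward direction: elements of prime order not conjugate into the normalizer of the field
-/

set_option autoImplicit false
set_option linter.unusedSectionVars false
set_option linter.unusedSimpArgs false
set_option linter.unusedVariables false
set_option maxHeartbeats 1000000

namespace Cfsg.Agent.Lib.QFH99

open Module QuadraticMap Matrix
open scoped MatrixGroups
open Cfsg.Agent.Lib.IsomBlock Cfsg.Agent.Lib.QFA99 Cfsg.Agent.Lib.QFB99 Cfsg.Agent.Lib.QFC99 Cfsg.Agent.Lib.QFD99 Cfsg.Agent.Lib.QFE99 Cfsg.Agent.Lib.QFF99 Cfsg.Agent.Lib.QFG99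
open Cfsg.Agent.Lib.OrthGroup Cfsg.Agent.Lib.OrthOmega Cfsg.Agent.Lib.OrthMatrix Cfsg.Agent.Lib.QuadFF Cfsg.Agent.Lib.OrthoBasic Cfsg.Agent.Lib
open Cfsg.Agent.Lib.QuadClass Cfsg.Agent.Lib.QuadClass2 Cfsg.Agent.Lib.OrthoCount Cfsg.Agent.Lib.EvCount99 Cfsg.Agent.Lib.EvElt99 Cfsg.Agent.Lib.PrimeFactors

section forward

variable {F : Type*} [Field F] [Fintype F] {ι : Type} [Fintype ι] [DecidableEq ι] {Q : QuadraticForm F (ι → F)}
  {K : Subalgebra F (Matrix ι ι F)} {n : ℕ}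

theorem fix_conj_finrank' (x g : GL ι F) :
    finrank F (fixS (Matrix.toLin' ((g⁻¹ * x * g : GL ι F) : Matrix ι ι F)) ⊤) =
      finrank F (fixS (Matrix.toLin' (x : Matrix ι ι F)) ⊤) := by
  let G := Matrix.toLin' (g : Matrix ι ι F)
  have hGa : ∀ v, G v = (g : Matrix ι ι F) *ᵥ v := fun v => Matrix.toLin'_apply _ v
  have hgg : ∀ v, ((g⁻¹ : GL ι F) : Matrix ι ι F) *ᵥ ((g : Matrix ι ι F) *ᵥ v) = v := by
    intro v
    rw [Matrix.mulVec_mulVec, ← Units.val_mul, inv_mul_cancel]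
    exact Matrix.one_mulVec v
  have hgg' : ∀ v, (g : Matrix ι ι F) *ᵥ (((g⁻¹ : GL ι F) : Matrix ι ι F) *ᵥ v) = v := by
    intro v
    rw [Matrix.mulVec_mulVec, ← Units.val_mul, mul_inv_cancel]
    exact Matrix.one_mulVec v
  have hinj : Function.Injective G := by
    intro a b hab
    rw [hGa, hGa] at hab
    have := congrArg (fun w => ((g⁻¹ : GL ι F) : Matrix ι ι F) *ᵥ w) hab
    simpa only [hgg] using this
  have hmap : (fixS (Matrix.toLin' ((g⁻¹ * x * g : GL ι F) : Matrix ι ι F)) ⊤).map G =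
      fixS (Matrix.toLin' (x : Matrix ι ι F)) ⊤ := by
    ext v
    constructor
    · rintro ⟨u, hu, rfl⟩
      have hu' := (mem_fixS.mp hu).2
      rw [Matrix.toLin'_apply] at hu'
      rw [mem_fixS]
      refine ⟨trivial, ?_⟩
      rw [Matrix.toLin'_apply, hGa]
      conv_rhs => rw [← hu']
      rw [Units.val_mul, Units.val_mul, ← Matrix.mulVec_mulVec, ← Matrix.mulVec_mulVec, hgg']
    · intro hv
      have hv' := (mem_fixS.mp hv).2
      rw [Matrix.toLin'_apply] at hv'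
      refine ⟨((g⁻¹ : GL ι F) : Matrix ι ι F) *ᵥ v, ?_, ?_⟩
      · rw [SetLike.mem_coe, mem_fixS]
        refine ⟨trivial, ?_⟩
        rw [Matrix.toLin'_apply, Units.val_mul, Units.val_mul, ← Matrix.mulVec_mulVec, ← Matrix.mulVec_mulVec, hgg', hv']
      · rw [hGa, hgg']
  rw [← hmap]
  exact LinearEquiv.finrank_eq (Submodule.equivMapOfInjective G hinj (fixS (Matrix.toLin' ((g⁻¹ * x * g : GL ι F) : Matrix ι ι F)) ⊤))

theorem conj_pow_one' (x g : GL ι F) {r : ℕ} (h : x ^ r = 1) : (g⁻¹ * x * g) ^ r = 1 := by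
  rw [show g⁻¹ * x * g = g⁻¹ * x * g⁻¹⁻¹ by rw [inv_inv], conj_pow, h]
  simp

/-- Numerics for a divisor of the order of the orthogonal group. -/
theorem block_of_dvd {r q : ℕ} [hrf : Fact r.Prime] (hr3 : 2 < r) (hrq : ¬ r ∣ q) (hq0 : 0 < q) {η : Bool} (hd : r ∣ ordT q n η) :
    blockDim r q ≤ 2 * (n + 1) ∧ (blockDim r q = 2 * (n + 1) → (η = false → (q : ZMod r) ^ (n + 1) = 1) ∧ (η = true → (q : ZMod r) ^ (n + 1) = -1)) := by
  have hr := hrf.out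
  unfold ordT at hd
  have hbd : blockDim r q = if Even (orderOf (q : ZMod r)) then orderOf (q : ZMod r) else 2 * orderOf (q : ZMod r) := rfl
  rcases (Nat.Prime.dvd_mul hr).1 hd with h | h
  · rcases (Nat.Prime.dvd_mul hr).1 h with h | h
    · rcases (Nat.Prime.dvd_mul hr).1 h with h | h
      · have := Nat.le_of_dvd (by norm_num) h
        omega
      · exact absurd (hr.dvd_of_dvd_pow h) hrq
    · cases η
      · have h1 : orderOf (q : ZMod r) ∣ n + 1 := Cfsg.Agent.Lib.EvQ99.dvd_of_pow h hq0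
        have h3 := Nat.le_of_dvd (by omega) h1
        have h5 : (q : ZMod r) ^ (n + 1) = 1 := orderOf_dvd_iff_pow_eq_one.1 h1
        rw [hbd]
        split_ifs with hev
        · exact ⟨by omega, fun h6 => by omega⟩
        · exact ⟨by omega, fun _ => ⟨fun _ => h5, fun h7 => by cases h7⟩⟩
      · obtain ⟨h1, h3⟩ := Cfsg.Agent.Lib.EvQ99.not_dvd_of_plus hr3 (e := n + 1) h
        have h4 := Nat.le_of_dvd (by omega) h3
        have h5 : (q : ZMod r) ^ (n + 1) = -1 := by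
          have h6 : ((q ^ (n + 1) + 1 : ℕ) : ZMod r) = 0 := (ZMod.natCast_eq_zero_iff _ _).2 h
          push_cast at h6
          exact eq_neg_of_add_eq_zero_left h6
        rw [hbd]
        split_ifs with hev
        · exact ⟨by omega, fun _ => ⟨fun h7 => (by cases h7), fun _ => h5⟩⟩
        · exfalso
          apply h1
          have : Nat.Coprime (orderOf (q : ZMod r)) 2 := by
            rw [Nat.coprime_comm, Nat.coprime_two_left]
            exact Nat.not_even_iff_odd.mp hev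
          exact this.dvd_of_dvd_mul_left h3
  · obtain ⟨J, hJ, hJ2⟩ := (Prime.dvd_finsetProd_iff hr.prime _).1 h
    have hJ' := Finset.mem_range.mp hJ
    have h1 : orderOf (q : ZMod r) ∣ 2 * (J + 1) := Cfsg.Agent.Lib.EvQ99.dvd_of_pow hJ2 hq0
    have h3 := Nat.le_of_dvd (by omega) h1
    rw [hbd]
    split_ifs with hev
    · exact ⟨by omega, fun h6 => by omega⟩
    · have h5 : orderOf (q : ZMod r) ∣ J + 1 := by
        have : Nat.Coprime (orderOf (q : ZMod r)) 2 := by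
          rw [Nat.coprime_comm, Nat.coprime_two_left]
          exact Nat.not_even_iff_odd.mp hev
        exact this.dvd_of_dvd_mul_left h1
      have h6 := Nat.le_of_dvd (by omega) h5
      exact ⟨by omega, fun h7 => by omega⟩

/-- The forward direction for any form. -/
theorem forward_generic (p : ℕ) [Fact p.Prime] [CharP F p] (h2 : (2 : F) ≠ 0) (hodd : Odd (Fintype.card F)) (hnd : ∀ u, (∀ v, B Q u v = 0) → u = 0)
    (hn : finrank F (ι → F) = 2 * (n + 1)) {η : Bool} (hcardO : Nat.card (Cfsg.isometryGroup F ⇑Q) = ordT (Fintype.card F) n η)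
    (hK : Cfsg.Geo.IsFieldSubalgebra 2 K) (hKf : Cfsg.Geo.IsSelfAdjointFor (polar ⇑Q) K)
    (htype : ∀ (ω : F) [Fact (∀ r : F, r ^ 2 ≠ ω + 0 * r)] (c : LL ω) (E : D n (LL ω) ≃ₗ[F] (ι → F)), c ≠ 0 → (∀ p q, B Q (E p) (E q) = reL ω (stdF c p q)) → ∀ a, n + 1 = 2 * (a + 1) → [Fintype (LL ω)] →
      (η = false ∧ ∃ b : Basis (Fin (a + 1) ⊕ Fin (a + 1)) (LL ω) (D n (LL ω)), IsHypBasis (Qc n c) b) ∨
      (η = true ∧ ∃ (b : Basis ((Fin a ⊕ Fin a) ⊕ Fin 2) (LL ω) (D n (LL ω))) (ζ : LL ω), IsMinusBasis (Qc n c) b ζ))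
    (hOG : O Q ≤ G Q) {v₀ : ι → F} (hv₀ : Q v₀ ≠ 0)
    {e f v : ι → F} (he : Q e = 0) (hf : Q f = 0) (hef : B Q e f = 0) (hve : B Q v e = 1) (hvf : B Q v f = 0) (hf0 : f ≠ 0)
    {r : ℕ} [hrf : Fact r.Prime] (hr2 : r ≠ 2)
    (hex : (r : F) ≠ 0 → blockDim r (Fintype.card F) ≤ 2 * (n + 1) →
      (blockDim r (Fintype.card F) = 2 * (n + 1) → (η = false → ((Fintype.card F : ℕ) : ZMod r) ^ (n + 1) = 1) ∧ (η = true → ((Fintype.card F : ℕ) : ZMod r) ^ (n + 1) = -1)) →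
      ∃ x ∈ Cfsg.Geo.omegaGL ⇑Q, x ^ r = 1 ∧ x ≠ 1 ∧ finrank F (fixS (Matrix.toLin' (x : Matrix ι ι F)) ⊤) + blockDim r (Fintype.card F) = 2 * (n + 1))
    (hΩ : r ∣ (Cfsg.Geo.subalgebraNormalizer K).relIndex (Cfsg.Geo.omegaGL ⇑Q))
    (hH : ∀ x ∈ Cfsg.Geo.omegaGL ⇑Q, (∃ z : F, ((x ^ r : GL ι F) : Matrix ι ι F) = z • (1 : Matrix ι ι F)) →
      (∀ z : F, (x : Matrix ι ι F) ≠ z • (1 : Matrix ι ι F)) → ∃ g ∈ Cfsg.Geo.omegaGL ⇑Q, g⁻¹ * x * g ∈ Cfsg.Geo.subalgebraNormalizer K) : False := by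
  classical
  have hr := hrf.out
  have hrodd : Odd r := hr.odd_of_ne_two hr2
  have hr3 : 2 < r := by
    have := hr.two_le
    omega
  haveI : Nonempty ι := by
    by_contra h
    rw [not_nonempty_iff] at h
    rw [Module.finrank_fintype_fun_eq_card, Fintype.card_eq_zero] at hn
    omega
  obtain ⟨τ, ω, hτK, hτ, hω, hKs⟩ := exists_tau_K h2 hK
  have hT₀ : IsTau (B Q) ω (Matrix.toLin' τ) := isTau_of hτ (hKf τ hτK)
  haveI : Fact (∀ r : F, r ^ 2 ≠ ω + 0 * r) := ⟨fun r hr => hω ⟨r, by linear_combination -hr⟩⟩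
  have hcomm : ∀ x ∈ Cfsg.Geo.omegaGL ⇑Q, x ^ r = 1 → x ≠ 1 →
      ∃ g ∈ Cfsg.Geo.omegaGL ⇑Q, ((g⁻¹ * x * g : GL ι F) : Matrix ι ι F) * τ = τ * ((g⁻¹ * x * g : GL ι F) : Matrix ι ι F) := by
    intro x hx hr1 hne
    obtain ⟨g, hg, hN⟩ := hH x hx ⟨1, by rw [hr1, one_smul]; rfl⟩ (not_scalar_of_odd (mem_iso_of_omega hx) hrodd hr1 hne hv₀)
    obtain ⟨b, hb, hy⟩ := conj_tau h2 hω hτ hτK hKs hN
    exact ⟨g, hg, comm_of_pow h2 hω hτ hb hy hrodd (conj_pow_one' x g hr1)⟩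
  by_cases hrF : (r : F) = 0
  · have hrp : r = p := by
      rw [CharP.cast_eq_zero_iff F p] at hrF
      exact ((Nat.prime_dvd_prime_iff_eq (Fact.out) hr).1 hrF).symm
    subst hrp
    obtain ⟨x, hxi, hx1, hxne, hxf⟩ := exists_siegel r hnd he hf hef hve hvf hf0
    have hxΩ := Cfsg.Agent.S5985.mem_omega_of_odd_pow _ hOG x hxi hrodd hx1
    obtain ⟨g, hg, hc⟩ := hcomm x hxΩ hx1 hxne
    exact siegel_not_comm h2 hω hT₀ hve hvf hf0 (mem_iso_of_omega hg) hxf hc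
  · by_cases h4 : 4 ∣ blockDim r (Fintype.card F)
    · exact index_main p h2 hodd hnd hn hcardO hKs hT₀ (htype ω) hr3 hrF h4 hΩ
    · have hΩO : Cfsg.Geo.omegaGL ⇑Q ≤ Cfsg.isometryGroup F ⇑Q := fun x hx => mem_iso_of_omega hx
      have hdvd : r ∣ ordT (Fintype.card F) n η := by
        rw [← hcardO]
        exact (hΩ.trans (Subgroup.relIndex_dvd_card _ _)).trans (Subgroup.card_dvd_of_le hΩO)
      have hrq : ¬ r ∣ Fintype.card F := by
        rw [← ZMod.natCast_eq_zero_iff]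
        exact card_ne_zero (p := p) hrF
      obtain ⟨hle, hP⟩ := block_of_dvd hr3 hrq Fintype.card_pos hdvd
      obtain ⟨x, hx, hx1, hne, hfix⟩ := hex hrF hle hP
      obtain ⟨g, hg, hc⟩ := hcomm x hx hx1 hne
      apply h4
      have hyi : g⁻¹ * x * g ∈ Cfsg.isometryGroup F ⇑Q :=
        (Cfsg.isometryGroup F ⇑Q).mul_mem ((Cfsg.isometryGroup F ⇑Q).mul_mem ((Cfsg.isometryGroup F ⇑Q).inv_mem (hΩO hg)) (hΩO hx)) (hΩO hg)
      exact four_dvd_block h2 hnd hT₀ hyi hr2 hrF (conj_pow_one' x g hx1) hc (by rw [fix_conj_finrank', hfix, hn])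

end forward

section elements

/-- An element of `Ω⁺` with one block. -/
theorem exists_x_plus' {F : Type*} [Field F] [Fintype F] {d : ℕ} (p : ℕ) [Fact p.Prime] [CharP F p] {r : ℕ} [hrf : Fact r.Prime] (h2 : (2 : F) ≠ 0) (hd : 4 ≤ d) (hr2 : r ≠ 2) (hrF : (r : F) ≠ 0)
    (hle : blockDim r (Fintype.card F) ≤ 2 * d)
    (hP : blockDim r (Fintype.card F) = 2 * d → ((Fintype.card F : ℕ) : ZMod r) ^ d = 1) :
    ∃ x : GL (Fin d ⊕ Fin d) F, x ∈ Cfsg.Geo.omegaGL ⇑(qPlus d F) ∧ x ^ r = 1 ∧ x ≠ 1 ∧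
      finrank F (fixS (Matrix.toLin' (x : Matrix (Fin d ⊕ Fin d) (Fin d ⊕ Fin d) F)) ⊤) + blockDim r (Fintype.card F) = 2 * d := by
  obtain ⟨a, ha, hinv, hsum⟩ := exists_mult (s := 1) hr2 hrF one_pos
  rw [mul_one] at hsum
  have hcard : Fintype.card (Fin d ⊕ Fin d) = 2 * d := by
    simp [two_mul]
  obtain ⟨g, hg1, hg2⟩ : ∃ g : ↥(Cfsg.isometryGroup F ⇑(qPlus d F)),
      ((g : Matrix.GeneralLinearGroup (Fin d ⊕ Fin d) F) : Matrix (Fin d ⊕ Fin d) (Fin d ⊕ Fin d) F).charpoly = Pa F r (Fintype.card (Fin d ⊕ Fin d)) a ∧ orderOf g = r := by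
    rw [Cfsg.Agent.S5985.hf_plus]
    exact Cfsg.Agent.S2674.plus_hex (p := p) hr2 hrF hrf.out.ne_zero (card_ne_zero (p := p) hrF) a ha hinv
      (by rw [hsum, hcard]; exact hle) (by rw [hsum]; exact hP)
  obtain ⟨h1, h3, h4⟩ := elt_of_iso (qPlus d F) (Cfsg.Agent.S5985.hOG_plus hd) hr2 g hg2
  refine ⟨g, h1, h3, h4, ?_⟩
  have hnd : NDOn (B (qPlus d F)) ⊤ := fun u _ hu => by
    by_contra hne
    obtain ⟨y, hy⟩ := Cfsg.Agent.Lib.OrthoOrder.nondeg_qPlus d u hne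
    exact hy (hu y trivial)
  have h5 := finrank_fix_eq (B := B (qPlus d F)) (Or.inr ⟨h2, B_comm _⟩) hnd hrF (Matrix.toLin' _) (Cfsg.Agent.Lib.QFD99.toLin_iso g.2) (hTr_of_pow h3) (by rw [Matrix.charpoly_toLin']; exact hg1)
    (by rw [hsum, hcard]; exact hle)
  rwa [hsum, hcard] at h5

/-- An element of `Ω⁻` with one block. -/
theorem exists_x_minus' {F : Type*} [Field F] [Fintype F] {k : ℕ} (p : ℕ) [Fact p.Prime] [CharP F p] {r : ℕ} [hrf : Fact r.Prime] (h2 : (2 : F) ≠ 0) (hk : 2 ≤ k) {a' b' : F}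
    (hab : ∀ x y : F, x ^ 2 + a' * x * y + b' * y ^ 2 = 0 → x = 0 ∧ y = 0) (hr2 : r ≠ 2) (hrF : (r : F) ≠ 0)
    (hle : blockDim r (Fintype.card F) ≤ 2 * (k + 1))
    (hP : blockDim r (Fintype.card F) = 2 * (k + 1) → ((Fintype.card F : ℕ) : ZMod r) ^ (k + 1) = -1) :
    ∃ x : GL ((Fin k ⊕ Fin k) ⊕ Fin 2) F, x ∈ Cfsg.Geo.omegaGL ⇑(qMinus k a' b') ∧ x ^ r = 1 ∧ x ≠ 1 ∧
      finrank F (fixS (Matrix.toLin' (x : Matrix ((Fin k ⊕ Fin k) ⊕ Fin 2) ((Fin k ⊕ Fin k) ⊕ Fin 2) F)) ⊤) + blockDim r (Fintype.card F) = 2 * (k + 1) := by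
  obtain ⟨a, ha, hinv, hsum⟩ := exists_mult (s := 1) hr2 hrF one_pos
  rw [mul_one] at hsum
  have hcard : Fintype.card ((Fin k ⊕ Fin k) ⊕ Fin 2) = 2 * (k + 1) := by
    simp
    ring
  obtain ⟨g, hg1, hg2⟩ : ∃ g : ↥(Cfsg.isometryGroup F ⇑(qMinus k a' b')),
      ((g : Matrix.GeneralLinearGroup ((Fin k ⊕ Fin k) ⊕ Fin 2) F) : Matrix ((Fin k ⊕ Fin k) ⊕ Fin 2) ((Fin k ⊕ Fin k) ⊕ Fin 2) F).charpoly = Pa F r (Fintype.card ((Fin k ⊕ Fin k) ⊕ Fin 2)) a ∧ orderOf g = r := by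
    rw [hf_minus]
    exact Cfsg.Agent.S2675.minus_hex (p := p) hab hr2 hrF hrf.out.ne_zero (card_ne_zero (p := p) hrF) a ha hinv
      (by rw [hsum, hcard]; exact hle) (by rw [hsum]; exact hP)
  obtain ⟨h1, h3, h4⟩ := elt_of_iso (qMinus k a' b') (hOG_minus hk hab) hr2 g hg2
  refine ⟨g, h1, h3, h4, ?_⟩
  have hnd : NDOn (B (qMinus k a' b')) ⊤ := fun u _ hu => ND_qMinus a' b' hab k u (fun y => hu y trivial)
  have h5 := finrank_fix_eq (B := B (qMinus k a' b')) (Or.inr ⟨h2, B_comm _⟩) hnd hrF (Matrix.toLin' _) (Cfsg.Agent.Lib.QFD99.toLin_iso g.2) (hTr_of_pow h3) (by rw [Matrix.charpoly_toLin']; exact hg1)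
    (by rw [hsum, hcard]; exact hle)
  rwa [hsum, hcard] at h5

end elements

end Cfsg.Agent.Lib.QFH99
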