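import Cfsg.Agent.Lib.QPH39Pair

/-! The Peirce decomposition of `v` with respect to a pair `u`, `y`, when `v` commutes with `u` and
has `y` as a partner. Pure ring computations. -/

set_option autoImplicit false
set_option linter.unusedSimpArgs false

namespace Cfsg.Agent.Lib.QPH39

section pure

variable {A : Type*} [Ring A]

/-- Data: `u`, `v` commuting with a common partner `y`; `e` is the complementary idempotent. -/
structure BK (u y v e : A) : Prop where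
  uu : u * u = 0
  yy : y * y = 0
  vv : v * v = 0
  uyu : u * (y * u) = u
  yuy : y * (u * y) = y
  vyv : v * (y * v) = v
  yvy : y * (v * y) = y
  vu : v * u = u * v
  e_def : e = 1 - (u * y + y * u)

namespace BK

variable {u y v e : A}

lemma of_RP (h1 : RP u y) (h2 : RP v y) (h3 : v * u = u * v) : BK u y v (1 - (u * y + y * u)) :=
  ⟨h1.xx, h1.tt, h2.xx, h1.xtx1, h1.txt1, h2.xtx1, h2.txt1, h3, rfl⟩

variable (h : BK u y v e)
include h

lemma uu_ (w : A) : u * (u * w) = 0 := by rw [← mul_assoc, h.uu, zero_mul]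
lemma yy_ (w : A) : y * (y * w) = 0 := by rw [← mul_assoc, h.yy, zero_mul]
lemma vv_ (w : A) : v * (v * w) = 0 := by rw [← mul_assoc, h.vv, zero_mul]
lemma uyu_ (w : A) : u * (y * (u * w)) = u * w := by
  rw [← mul_assoc u y (u * w), ← mul_assoc, mul_assoc u y u, h.uyu]
lemma yuy_ (w : A) : y * (u * (y * w)) = y * w := by
  rw [← mul_assoc y u (y * w), ← mul_assoc, mul_assoc y u y, h.yuy]
lemma vyv_ (w : A) : v * (y * (v * w)) = v * w := by
  rw [← mul_assoc v y (v * w), ← mul_assoc, mul_assoc v y v, h.vyv]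
lemma yvy_ (w : A) : y * (v * (y * w)) = y * w := by
  rw [← mul_assoc y v (y * w), ← mul_assoc, mul_assoc y v y, h.yvy]
lemma vu_ (w : A) : v * (u * w) = u * (v * w) := by rw [← mul_assoc, h.vu, mul_assoc]

lemma ue : u * e = 0 := by
  rw [h.e_def]
  simp only [mul_sub, mul_add, mul_one, h.uu_, h.uyu, zero_add, sub_self]
lemma eu : e * u = 0 := by
  rw [h.e_def]
  simp only [sub_mul, add_mul, one_mul, mul_assoc, h.uu, h.uyu, mul_zero, add_zero, sub_self]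
lemma ye : y * e = 0 := by
  rw [h.e_def]
  simp only [mul_sub, mul_add, mul_one, h.yy_, h.yuy, add_zero, sub_self]
lemma ey : e * y = 0 := by
  rw [h.e_def]
  simp only [sub_mul, add_mul, one_mul, mul_assoc, h.yy, h.yuy, mul_zero, zero_add, sub_self]
lemma ue_ (w : A) : u * (e * w) = 0 := by rw [← mul_assoc, h.ue, zero_mul]
lemma eu_ (w : A) : e * (u * w) = 0 := by rw [← mul_assoc, h.eu, zero_mul]
lemma ye_ (w : A) : y * (e * w) = 0 := by rw [← mul_assoc, h.ye, zero_mul]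
lemma ey_ (w : A) : e * (y * w) = 0 := by rw [← mul_assoc, h.ey, zero_mul]
lemma one_eq : u * y + y * u + e = 1 := by
  rw [h.e_def]
  abel
lemma ee : e * e = e := by
  have e1 : e * e = e * (u * y + y * u + e) - e * (u * y + y * u) := by noncomm_ring
  rw [e1, h.one_eq, mul_one]
  simp only [mul_add, h.eu_, h.ey_, add_zero, sub_zero]
lemma ee_ (w : A) : e * (e * w) = e * w := by rw [← mul_assoc, h.ee]
lemma uve : u * (v * e) = 0 := by
  rw [← mul_assoc, ← h.vu, mul_assoc, h.ue, mul_zero]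
lemma uve_ (w : A) : u * (v * (e * w)) = 0 := by
  have e1 : u * (v * (e * w)) = (u * (v * e)) * w := by simp only [mul_assoc]
  rw [e1, h.uve, zero_mul]
lemma uvyu : u * (v * (y * u)) = u * v := by
  rw [← mul_assoc, ← h.vu, mul_assoc, h.uyu, h.vu]
lemma uvyu_ (w : A) : u * (v * (y * (u * w))) = u * (v * w) := by
  rw [← mul_assoc u v, ← h.vu, mul_assoc v u, h.uyu_]
  exact h.vu_ w
lemma vyuv : v * (y * (u * v)) = u * v := by
  rw [← h.vu, h.vyv_, h.vu]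
lemma vyuv_ (w : A) : v * (y * (u * (v * w))) = u * (v * w) := by
  rw [← mul_assoc u v, ← h.vu, mul_assoc v u, h.vyv_, h.vu_]
lemma vev : v * (e * v) = -(u * v + u * v) := by
  rw [h.e_def]
  simp only [mul_sub, sub_mul, mul_add, add_mul, one_mul, mul_one, mul_assoc, h.vv, h.vu_, h.vyv, h.vyuv, zero_sub]
lemma vev_ (w : A) : v * (e * (v * w)) = -(u * (v * w) + u * (v * w)) := by
  rw [← mul_assoc v e, ← mul_assoc, mul_assoc v e v, h.vev]
  noncomm_ring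

omit h in
/-- The part of `v` commuting with `π`, without `u`. -/
def d0 (u y v e : A) : A := u * (v * y) + y * (u * v) + e * (v * e)

omit h in
/-- The part of `v` anticommuting with the involution. -/
def d1 (u y v e : A) : A := u * (y * (v * e)) + e * (v * (y * u))

omit h in
/-- The part `g`. -/
def g0 (u y v : A) : A := u * (v * y) + y * (u * v)

lemma decomp : v = u + d0 u y v e + d1 u y v e := by
  have e1 : v = (u * y + y * u + e) * v * (u * y + y * u + e) := by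
    rw [h.one_eq]
    simp
  conv_lhs => rw [e1]
  unfold d0 d1
  simp only [mul_add, add_mul, mul_sub, sub_mul, mul_one, one_mul, mul_assoc, neg_mul, mul_neg, neg_neg, mul_zero, zero_mul, add_zero, zero_add, sub_zero, zero_sub, neg_zero, sub_self, h.uu, h.uu_, h.yy, h.yy_, h.vv, h.vv_, h.uyu, h.uyu_, h.yuy, h.yuy_, h.vyv, h.vyv_, h.yvy, h.yvy_, h.vu, h.vu_, h.ue, h.ue_, h.eu, h.eu_, h.ye, h.ye_, h.ey, h.ey_, h.ee, h.ee_, h.uve, h.uve_, h.uvyu, h.uvyu_, h.vyuv, h.vyuv_, h.vev, h.vev_]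
  abel

lemma HH : (e - (u * y + y * u)) * (e - (u * y + y * u)) = 1 := by
  have e1 : (e - (u * y + y * u)) * (e - (u * y + y * u)) = u * y + y * u + e := by
    simp only [mul_add, add_mul, mul_sub, sub_mul, mul_one, one_mul, mul_assoc, neg_mul, mul_neg, neg_neg, mul_zero, zero_mul, add_zero, zero_add, sub_zero, zero_sub, neg_zero, sub_self, h.uu, h.uu_, h.yy, h.yy_, h.vv, h.vv_, h.uyu, h.uyu_, h.yuy, h.yuy_, h.vyv, h.vyv_, h.yvy, h.yvy_, h.vu, h.vu_, h.ue, h.ue_, h.eu, h.eu_, h.ye, h.ye_, h.ey, h.ey_, h.ee, h.ee_, h.uve, h.uve_, h.uvyu, h.uvyu_, h.vyuv, h.vyuv_, h.vev, h.vev_]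
    abel
  rw [e1, h.one_eq]

lemma conj_v : (e - (u * y + y * u)) * v * (e - (u * y + y * u)) = u + d0 u y v e - d1 u y v e := by
  unfold d0 d1
  simp only [mul_add, add_mul, mul_sub, sub_mul, mul_one, one_mul, mul_assoc, neg_mul, mul_neg, neg_neg, mul_zero, zero_mul, add_zero, zero_add, sub_zero, zero_sub, neg_zero, sub_self, h.uu, h.uu_, h.yy, h.yy_, h.vv, h.vv_, h.uyu, h.uyu_, h.yuy, h.yuy_, h.vyv, h.vyv_, h.yvy, h.yvy_, h.vu, h.vu_, h.ue, h.ue_, h.eu, h.eu_, h.ye, h.ye_, h.ey, h.ey_, h.ee, h.ee_, h.uve, h.uve_, h.uvyu, h.uvyu_, h.vyuv, h.vyuv_, h.vev, h.vev_]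
  abel

lemma conj_u : (e - (u * y + y * u)) * u * (e - (u * y + y * u)) = u := by
  simp only [mul_add, add_mul, mul_sub, sub_mul, mul_one, one_mul, mul_assoc, neg_mul, mul_neg, neg_neg, mul_zero, zero_mul, add_zero, zero_add, sub_zero, zero_sub, neg_zero, sub_self, h.uu, h.uu_, h.yy, h.yy_, h.vv, h.vv_, h.uyu, h.uyu_, h.yuy, h.yuy_, h.vyv, h.vyv_, h.yvy, h.yvy_, h.vu, h.vu_, h.ue, h.ue_, h.eu, h.eu_, h.ye, h.ye_, h.ey, h.ey_, h.ee, h.ee_, h.uve, h.uve_, h.uvyu, h.uvyu_, h.vyuv, h.vyuv_, h.vev, h.vev_]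

lemma u_d1 : u * d1 u y v e = 0 := by
  unfold d1
  simp only [mul_add, add_mul, mul_sub, sub_mul, mul_one, one_mul, mul_assoc, neg_mul, mul_neg, neg_neg, mul_zero, zero_mul, add_zero, zero_add, sub_zero, zero_sub, neg_zero, sub_self, h.uu, h.uu_, h.yy, h.yy_, h.vv, h.vv_, h.uyu, h.uyu_, h.yuy, h.yuy_, h.vyv, h.vyv_, h.yvy, h.yvy_, h.vu, h.vu_, h.ue, h.ue_, h.eu, h.eu_, h.ye, h.ye_, h.ey, h.ey_, h.ee, h.ee_, h.uve, h.uve_, h.uvyu, h.uvyu_, h.vyuv, h.vyuv_, h.vev, h.vev_]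

lemma d1_u : d1 u y v e * u = 0 := by
  unfold d1
  simp only [mul_add, add_mul, mul_sub, sub_mul, mul_one, one_mul, mul_assoc, neg_mul, mul_neg, neg_neg, mul_zero, zero_mul, add_zero, zero_add, sub_zero, zero_sub, neg_zero, sub_self, h.uu, h.uu_, h.yy, h.yy_, h.vv, h.vv_, h.uyu, h.uyu_, h.yuy, h.yuy_, h.vyv, h.vyv_, h.yvy, h.yvy_, h.vu, h.vu_, h.ue, h.ue_, h.eu, h.eu_, h.ye, h.ye_, h.ey, h.ey_, h.ee, h.ee_, h.uve, h.uve_, h.uvyu, h.uvyu_, h.vyuv, h.vyuv_, h.vev, h.vev_]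

lemma u_d0 : u * d0 u y v e = u * v := by
  unfold d0
  simp only [mul_add, add_mul, mul_sub, sub_mul, mul_one, one_mul, mul_assoc, neg_mul, mul_neg, neg_neg, mul_zero, zero_mul, add_zero, zero_add, sub_zero, zero_sub, neg_zero, sub_self, h.uu, h.uu_, h.yy, h.yy_, h.vv, h.vv_, h.uyu, h.uyu_, h.yuy, h.yuy_, h.vyv, h.vyv_, h.yvy, h.yvy_, h.vu, h.vu_, h.ue, h.ue_, h.eu, h.eu_, h.ye, h.ye_, h.ey, h.ey_, h.ee, h.ee_, h.uve, h.uve_, h.uvyu, h.uvyu_, h.vyuv, h.vyuv_, h.vev, h.vev_]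

lemma d0_u : d0 u y v e * u = u * v := by
  unfold d0
  simp only [mul_add, add_mul, mul_sub, sub_mul, mul_one, one_mul, mul_assoc, neg_mul, mul_neg, neg_neg, mul_zero, zero_mul, add_zero, zero_add, sub_zero, zero_sub, neg_zero, sub_self, h.uu, h.uu_, h.yy, h.yy_, h.vv, h.vv_, h.uyu, h.uyu_, h.yuy, h.yuy_, h.vyv, h.vyv_, h.yvy, h.yvy_, h.vu, h.vu_, h.ue, h.ue_, h.eu, h.eu_, h.ye, h.ye_, h.ey, h.ey_, h.ee, h.ee_, h.uve, h.uve_, h.uvyu, h.uvyu_, h.vyuv, h.vyuv_, h.vev, h.vev_]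

lemma d0_sq : d0 u y v e * d0 u y v e = 0 := by
  unfold d0
  simp only [mul_add, add_mul, mul_sub, sub_mul, mul_one, one_mul, mul_assoc, neg_mul, mul_neg, neg_neg, mul_zero, zero_mul, add_zero, zero_add, sub_zero, zero_sub, neg_zero, sub_self, h.uu, h.uu_, h.yy, h.yy_, h.vv, h.vv_, h.uyu, h.uyu_, h.yuy, h.yuy_, h.vyv, h.vyv_, h.yvy, h.yvy_, h.vu, h.vu_, h.ue, h.ue_, h.eu, h.eu_, h.ye, h.ye_, h.ey, h.ey_, h.ee, h.ee_, h.uve, h.uve_, h.uvyu, h.uvyu_, h.vyuv, h.vyuv_, h.vev, h.vev_]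

lemma d0_y : d0 u y v e * y = y * d0 u y v e := by
  unfold d0
  simp only [mul_add, add_mul, mul_sub, sub_mul, mul_one, one_mul, mul_assoc, neg_mul, mul_neg, neg_neg, mul_zero, zero_mul, add_zero, zero_add, sub_zero, zero_sub, neg_zero, sub_self, h.uu, h.uu_, h.yy, h.yy_, h.vv, h.vv_, h.uyu, h.uyu_, h.yuy, h.yuy_, h.vyv, h.vyv_, h.yvy, h.yvy_, h.vu, h.vu_, h.ue, h.ue_, h.eu, h.eu_, h.ye, h.ye_, h.ey, h.ey_, h.ee, h.ee_, h.uve, h.uve_, h.uvyu, h.uvyu_, h.vyuv, h.vyuv_, h.vev, h.vev_]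

lemma y_d0_y : y * (d0 u y v e * y) = 0 := by
  unfold d0
  simp only [mul_add, add_mul, mul_sub, sub_mul, mul_one, one_mul, mul_assoc, neg_mul, mul_neg, neg_neg, mul_zero, zero_mul, add_zero, zero_add, sub_zero, zero_sub, neg_zero, sub_self, h.uu, h.uu_, h.yy, h.yy_, h.vv, h.vv_, h.uyu, h.uyu_, h.yuy, h.yuy_, h.vyv, h.vyv_, h.yvy, h.yvy_, h.vu, h.vu_, h.ue, h.ue_, h.eu, h.eu_, h.ye, h.ye_, h.ey, h.ey_, h.ee, h.ee_, h.uve, h.uve_, h.uvyu, h.uvyu_, h.vyuv, h.vyuv_, h.vev, h.vev_]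

omit h in
lemma d0_eq : d0 u y v e = g0 u y v + e * (v * e) := rfl

lemma g_u : g0 u y v * u = u * v := by
  unfold g0
  simp only [mul_add, add_mul, mul_sub, sub_mul, mul_one, one_mul, mul_assoc, neg_mul, mul_neg, neg_neg, mul_zero, zero_mul, add_zero, zero_add, sub_zero, zero_sub, neg_zero, sub_self, h.uu, h.uu_, h.yy, h.yy_, h.vv, h.vv_, h.uyu, h.uyu_, h.yuy, h.yuy_, h.vyv, h.vyv_, h.yvy, h.yvy_, h.vu, h.vu_, h.ue, h.ue_, h.eu, h.eu_, h.ye, h.ye_, h.ey, h.ey_, h.ee, h.ee_, h.uve, h.uve_, h.uvyu, h.uvyu_, h.vyuv, h.vyuv_, h.vev, h.vev_]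

lemma u_g : u * g0 u y v = u * v := by
  unfold g0
  simp only [mul_add, add_mul, mul_sub, sub_mul, mul_one, one_mul, mul_assoc, neg_mul, mul_neg, neg_neg, mul_zero, zero_mul, add_zero, zero_add, sub_zero, zero_sub, neg_zero, sub_self, h.uu, h.uu_, h.yy, h.yy_, h.vv, h.vv_, h.uyu, h.uyu_, h.yuy, h.yuy_, h.vyv, h.vyv_, h.yvy, h.yvy_, h.vu, h.vu_, h.ue, h.ue_, h.eu, h.eu_, h.ye, h.ye_, h.ey, h.ey_, h.ee, h.ee_, h.uve, h.uve_, h.uvyu, h.uvyu_, h.vyuv, h.vyuv_, h.vev, h.vev_]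

lemma g_g : g0 u y v * g0 u y v * u = 0 := by
  unfold g0
  simp only [mul_add, add_mul, mul_sub, sub_mul, mul_one, one_mul, mul_assoc, neg_mul, mul_neg, neg_neg, mul_zero, zero_mul, add_zero, zero_add, sub_zero, zero_sub, neg_zero, sub_self, h.uu, h.uu_, h.yy, h.yy_, h.vv, h.vv_, h.uyu, h.uyu_, h.yuy, h.yuy_, h.vyv, h.vyv_, h.yvy, h.yvy_, h.vu, h.vu_, h.ue, h.ue_, h.eu, h.eu_, h.ye, h.ye_, h.ey, h.ey_, h.ee, h.ee_, h.uve, h.uve_, h.uvyu, h.uvyu_, h.vyuv, h.vyuv_, h.vev, h.vev_]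

lemma e_d0_e : e * (d0 u y v e * e) = e * (v * e) := by
  unfold d0
  simp only [mul_add, add_mul, mul_sub, sub_mul, mul_one, one_mul, mul_assoc, neg_mul, mul_neg, neg_neg, mul_zero, zero_mul, add_zero, zero_add, sub_zero, zero_sub, neg_zero, sub_self, h.uu, h.uu_, h.yy, h.yy_, h.vv, h.vv_, h.uyu, h.uyu_, h.yuy, h.yuy_, h.vyv, h.vyv_, h.yvy, h.yvy_, h.vu, h.vu_, h.ue, h.ue_, h.eu, h.eu_, h.ye, h.ye_, h.ey, h.ey_, h.ee, h.ee_, h.uve, h.uve_, h.uvyu, h.uvyu_, h.vyuv, h.vyuv_, h.vev, h.vev_]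

lemma nu : (u * v) * u = 0 := by
  simp only [mul_add, add_mul, mul_sub, sub_mul, mul_one, one_mul, mul_assoc, neg_mul, mul_neg, neg_neg, mul_zero, zero_mul, add_zero, zero_add, sub_zero, zero_sub, neg_zero, sub_self, h.uu, h.uu_, h.yy, h.yy_, h.vv, h.vv_, h.uyu, h.uyu_, h.yuy, h.yuy_, h.vyv, h.vyv_, h.yvy, h.yvy_, h.vu, h.vu_, h.ue, h.ue_, h.eu, h.eu_, h.ye, h.ye_, h.ey, h.ey_, h.ee, h.ee_, h.uve, h.uve_, h.uvyu, h.uvyu_, h.vyuv, h.vyuv_, h.vev, h.vev_]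

/-- When the even part vanishes. -/
theorem of_d0 (h0 : d0 u y v e = 0) :
    (v - u) * (v - u) = 0 ∧ u * (v - u) = 0 ∧ (v - u) * u = 0 ∧
    v - u = u * (y * (v - u)) + (v - u) * (y * u) ∧ (v - u) * (y * (v - u)) = 0 ∧ y * ((v - u) * y) = 0 := by
  have hd : v - u = d1 u y v e := by
    have e1 := h.decomp
    rw [h0, add_zero] at e1
    exact sub_eq_of_eq_add' e1
  have hn : u * v = 0 := by
    rw [← h.u_d0, h0, mul_zero]
  have hF : e * (v * e) = 0 := by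
    rw [← h.e_d0_e, h0, zero_mul, mul_zero]
  have e1 : u * (v - u) = 0 := by
    rw [mul_sub, hn, h.uu, sub_zero]
  have e2 : (v - u) * u = 0 := by
    rw [sub_mul, h.vu, hn, h.uu, sub_zero]
  refine ⟨?_, e1, e2, ?_, ?_, ?_⟩
  · simp only [sub_mul, mul_sub, h.vv, h.vu, hn, h.uu]
    simp
  · rw [hd]
    unfold d1
    simp only [mul_add, add_mul, mul_sub, sub_mul, mul_one, one_mul, mul_assoc, neg_mul, mul_neg, neg_neg, mul_zero, zero_mul, add_zero, zero_add, sub_zero, zero_sub, neg_zero, sub_self, h.uu, h.uu_, h.yy, h.yy_, h.vv, h.vv_, h.uyu, h.uyu_, h.yuy, h.yuy_, h.vyv, h.vyv_, h.yvy, h.yvy_, h.vu, h.vu_, h.ue, h.ue_, h.eu, h.eu_, h.ye, h.ye_, h.ey, h.ey_, h.ee, h.ee_, h.uve, h.uve_, h.uvyu, h.uvyu_, h.vyuv, h.vyuv_, h.vev, h.vev_]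
  · rw [hd]
    unfold d1
    simp only [mul_add, add_mul, mul_sub, sub_mul, mul_one, one_mul, mul_assoc, neg_mul, mul_neg, neg_neg, mul_zero, zero_mul, add_zero, zero_add, sub_zero, zero_sub, neg_zero, sub_self, h.uu, h.uu_, h.yy, h.yy_, h.vv, h.vv_, h.uyu, h.uyu_, h.yuy, h.yuy_, h.vyv, h.vyv_, h.yvy, h.yvy_, h.vu, h.vu_, h.ue, h.ue_, h.eu, h.eu_, h.ye, h.ye_, h.ey, h.ey_, h.ee, h.ee_, h.uve, h.uve_, h.uvyu, h.uvyu_, h.vyuv, h.vyuv_, h.vev, h.vev_]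
    exact hF
  · simp only [mul_add, add_mul, mul_sub, sub_mul, mul_one, one_mul, mul_assoc, neg_mul, mul_neg, neg_neg, mul_zero, zero_mul, add_zero, zero_add, sub_zero, zero_sub, neg_zero, sub_self, h.uu, h.uu_, h.yy, h.yy_, h.vv, h.vv_, h.uyu, h.uyu_, h.yuy, h.yuy_, h.vyv, h.vyv_, h.yvy, h.yvy_, h.vu, h.vu_, h.ue, h.ue_, h.eu, h.eu_, h.ye, h.ye_, h.ey, h.ey_, h.ee, h.ee_, h.uve, h.uve_, h.uvyu, h.uvyu_, h.vyuv, h.vyuv_, h.vev, h.vev_]

end BK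

end pure

end Cfsg.Agent.Lib.QPH39
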