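import Cfsg.Agent.Lib.QPH39Dims

/-! The group level statement for a non-commuting pair of root subgroups of unipotent type. -/

set_option autoImplicit false

namespace Cfsg.Agent.Lib.QPH39

open Cfsg Cfsg.Agent.RootSub

open scoped commutatorElement

section grp

variable {Γ : Type*} [Group Γ]

/-- Right closure of a commutator relation modulo a central subgroup. -/
lemma comm_right_closure {S : Set Γ} {L : Subgroup Γ}
    (hc : ∀ c ∈ L, ∀ g ∈ Subgroup.closure S, c * g = g * c) {g : Γ}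
    (hg : ∀ s ∈ S, ⁅g, s⁆ ∈ L) : ∀ h ∈ Subgroup.closure S, ⁅g, h⁆ ∈ L := by
  intro h hh
  induction hh using Subgroup.closure_induction with
  | mem x hx => exact hg x hx
  | one => simp
  | mul a b ha hb h1 h2 =>
    have e : ⁅g, a * b⁆ = ⁅g, a⁆ * (a * ⁅g, b⁆ * a⁻¹) := by
      simp only [commutatorElement_def]
      group
    have e2 : a * ⁅g, b⁆ * a⁻¹ = ⁅g, b⁆ := by
      rw [← hc _ h2 a ha]
      group
    rw [e, e2]
    exact mul_mem h1 h2
  | inv a ha h1 =>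
    have e : ⁅g, a⁻¹⁆ = a⁻¹ * ⁅g, a⁆⁻¹ * a := by
      simp only [commutatorElement_def]
      group
    have e2 : a⁻¹ * ⁅g, a⁆⁻¹ * a = ⁅g, a⁆⁻¹ := by
      have h3 := hc _ (inv_mem h1) a⁻¹ (inv_mem ha)
      rw [← h3]
      group
    rw [e, e2]
    exact inv_mem h1

/-- Derived subgroup of a join of two commuting-modulo-central abelian groups. -/
lemma comm_sup_le {A B L : Subgroup Γ} (hA : ∀ a ∈ A, ∀ a' ∈ A, a * a' = a' * a)
    (hB : ∀ b ∈ B, ∀ b' ∈ B, b * b' = b' * b) (hAB : ⁅A, B⁆ ≤ L)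
    (hc : ∀ c ∈ L, ∀ g ∈ A ⊔ B, c * g = g * c) : ⁅A ⊔ B, A ⊔ B⁆ ≤ L := by
  have hW : A ⊔ B = Subgroup.closure ((A : Set Γ) ∪ (B : Set Γ)) := Subgroup.sup_eq_closure _ _
  have hc' : ∀ c ∈ L, ∀ g ∈ Subgroup.closure ((A : Set Γ) ∪ (B : Set Γ)), c * g = g * c := by
    rw [← hW]; exact hc
  have hgen : ∀ s ∈ (A : Set Γ) ∪ (B : Set Γ), ∀ t ∈ (A : Set Γ) ∪ (B : Set Γ), ⁅s, t⁆ ∈ L := by
    rintro s (hs | hs) t (ht | ht)
    · rw [commutatorElement_eq_one_iff_mul_comm.mpr (hA s hs t ht)]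
      exact one_mem _
    · exact hAB (Subgroup.commutator_mem_commutator hs ht)
    · have : ⁅s, t⁆ = ⁅t, s⁆⁻¹ := by
        simp only [commutatorElement_def]
        group
      rw [this]
      exact inv_mem (hAB (Subgroup.commutator_mem_commutator ht hs))
    · rw [commutatorElement_eq_one_iff_mul_comm.mpr (hB s hs t ht)]
      exact one_mem _
  have h1 : ∀ s ∈ (A : Set Γ) ∪ (B : Set Γ), ∀ h ∈ Subgroup.closure ((A : Set Γ) ∪ (B : Set Γ)), ⁅s, h⁆ ∈ L :=
    fun s hs => comm_right_closure hc' (hgen s hs)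
  rw [Subgroup.commutator_le]
  intro g hg h hh
  rw [hW] at hg hh
  refine comm_right_closure hc' ?_ h hh
  intro s hs
  have : ⁅g, s⁆ = ⁅s, g⁆⁻¹ := by
    simp only [commutatorElement_def]
    group
  rw [this]
  exact inv_mem (h1 s hs g hg)

end grp

variable {k : Type*} [Field k] {M : Type*} [AddCommGroup M] [Module k M]

local notation "GLm" => LinearMap.GeneralLinearGroup k M
local notation "End'" => (M →ₗ[k] M)

variable {G : Subgroup (LinearMap.GeneralLinearGroup k M)}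

section fd

variable [FiniteDimensional k M]

/-- Description of `E(1 + x)` by the class of `x`. -/
lemma mem_E_unit {x : M →ₗ[k] M} (hx : QR G x) (h : x * x = 0) {g : GLm} :
    g ∈ sameActionSubgroup G (unitOfSq x h) ↔ g = 1 ∨ ∃ z, C2.Cl G x z ∧ ∃ hz : z * z = 0, g = unitOfSq z hz := by
  have hm := hx.unit_mem h
  have e : dx (unitOfSq x h) = x := by simp [dx]
  constructor
  · intro hg
    by_cases h1 : g = 1
    · exact Or.inl h1
    · obtain ⟨z, hz, hzk, hzr, hzz, rfl⟩ := exists_unit_of_mem hm hg h1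
      rw [e] at hzk hzr
      exact Or.inr ⟨z, ⟨hz, hzk, hzr⟩, hzz, rfl⟩
  · rintro (rfl | ⟨z, ⟨hz, hzk, hzr⟩, hzz, rfl⟩)
    · exact one_mem _
    · apply Subgroup.subset_closure
      apply same_unit_mem hm hz
      · rw [e]; exact hzk
      · rw [e]; exact hzr

lemma unit_congr {a b : M →ₗ[k] M} (e : a = b) (ha : a * a = 0) (hb : b * b = 0) :
    (unitOfSq a ha : GLm) = unitOfSq b hb := by
  subst e; rfl

omit [FiniteDimensional k M] in
lemma unit_one_of_zero {a : M →ₗ[k] M} (e : a = 0) (ha : a * a = 0) : (unitOfSq a ha : GLm) = 1 := by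
  subst e
  apply Units.ext
  simp

namespace C2

variable {x₀ y₀ : M →ₗ[k] M} (H : C2 G x₀ y₀)

include H

lemma surj_R (hDI : DI G) (hIrr : IsIrreducibleFor G) {x w : M →ₗ[k] M} (hx : Cl G x₀ x)
    (hw : Cl G (Dop x₀ y₀) w) : ∃ y, Cl G y₀ y ∧ Dop x y = w := by
  have hfin := H.finrank_eq hDI hIrr
  have hs : Function.Surjective (H.adR hx) :=
    (LinearMap.injective_iff_surjective_of_finrank_eq_finrank hfin.2).mp (H.adR_inj hx)
  obtain ⟨y, hy⟩ := hs ⟨w, mem_of_cl hw⟩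
  have e : Dop x y.1 = w := congrArg Subtype.val hy
  refine ⟨y.1, cl_of_mem y.2 ?_, e⟩
  intro h0
  rw [h0, Dop_zero_right] at e
  exact hw.1.ne_zero e.symm

lemma surj_L (hDI : DI G) (hIrr : IsIrreducibleFor G) {y w : M →ₗ[k] M} (hy : Cl G y₀ y)
    (hw : Cl G (Dop x₀ y₀) w) : ∃ x, Cl G x₀ x ∧ Dop x y = w := by
  have hfin := H.finrank_eq hDI hIrr
  have hs : Function.Surjective (H.adL hy) :=
    (LinearMap.injective_iff_surjective_of_finrank_eq_finrank hfin.1).mp (H.adL_inj hy)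
  obtain ⟨x, hx⟩ := hs ⟨w, mem_of_cl hw⟩
  have e : Dop x.1 y = w := congrArg Subtype.val hx
  refine ⟨x.1, cl_of_mem x.2 ?_, e⟩
  intro h0
  rw [h0, Dop_zero_left] at e
  exact hw.1.ne_zero e.symm

/-- Commutators of elements of the two root groups lie in the third. -/
lemma comm_mem {e f : GLm} (he : e ∈ sameActionSubgroup G (unitOfSq x₀ H.hx.sq))
    (hf : f ∈ sameActionSubgroup G (unitOfSq y₀ H.hy.sq)) :
    e * f * e⁻¹ * f⁻¹ ∈ sameActionSubgroup G (unitOfSq (Dop x₀ y₀) H.qr_D₀.sq) := by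
  rw [mem_E_unit H.hx] at he
  rw [mem_E_unit H.hy] at hf
  rcases he with rfl | ⟨x, hx, hxx, rfl⟩
  · simp
  rcases hf with rfl | ⟨y, hy, hyy, rfl⟩
  · simp
  rw [comm_unit hxx hyy (H.tu_cl hx hy), mem_E_unit H.qr_D₀]
  exact Or.inr ⟨_, H.cl_D hx hy, _, rfl⟩

/-- The closure statement for a fixed first element. -/
lemma closure_R (hDI : DI G) (hIrr : IsIrreducibleFor G) {e : GLm}
    (he : e ∈ sameActionSubgroup G (unitOfSq x₀ H.hx.sq)) (he1 : e ≠ 1) :
    Subgroup.closure ((fun f : GLm => e * f * e⁻¹ * f⁻¹) '' (sameActionSubgroup G (unitOfSq y₀ H.hy.sq) : Set GLm)) =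
      sameActionSubgroup G (unitOfSq (Dop x₀ y₀) H.qr_D₀.sq) := by
  apply le_antisymm
  · rw [Subgroup.closure_le]
    rintro _ ⟨f, hf, rfl⟩
    exact H.comm_mem he hf
  · intro z hz
    rw [mem_E_unit H.qr_D₀] at hz
    rcases hz with rfl | ⟨w, hw, hww, rfl⟩
    · exact one_mem _
    rw [mem_E_unit H.hx] at he
    rcases he with rfl | ⟨x, hx, hxx, rfl⟩
    · exact absurd rfl he1
    obtain ⟨y, hy, hyw⟩ := H.surj_R hDI hIrr hx hw
    apply Subgroup.subset_closure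
    refine ⟨unitOfSq y hy.1.sq, ?_, ?_⟩
    · rw [SetLike.mem_coe, mem_E_unit H.hy]
      exact Or.inr ⟨y, hy, _, rfl⟩
    · show unitOfSq x hxx * unitOfSq y hy.1.sq * (unitOfSq x hxx)⁻¹ * (unitOfSq y hy.1.sq)⁻¹ = _
      rw [comm_unit hxx hy.1.sq (H.tu_cl hx hy)]
      exact unit_congr hyw _ _

/-- The closure statement for a fixed second element. -/
lemma closure_L (hDI : DI G) (hIrr : IsIrreducibleFor G) {f : GLm}
    (hf : f ∈ sameActionSubgroup G (unitOfSq y₀ H.hy.sq)) (hf1 : f ≠ 1) :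
    Subgroup.closure ((fun e : GLm => e * f * e⁻¹ * f⁻¹) '' (sameActionSubgroup G (unitOfSq x₀ H.hx.sq) : Set GLm)) =
      sameActionSubgroup G (unitOfSq (Dop x₀ y₀) H.qr_D₀.sq) := by
  apply le_antisymm
  · rw [Subgroup.closure_le]
    rintro _ ⟨e, he, rfl⟩
    exact H.comm_mem he hf
  · intro z hz
    rw [mem_E_unit H.qr_D₀] at hz
    rcases hz with rfl | ⟨w, hw, hww, rfl⟩
    · exact one_mem _
    rw [mem_E_unit H.hy] at hf
    rcases hf with rfl | ⟨y, hy, hyy, rfl⟩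
    · exact absurd rfl hf1
    obtain ⟨x, hx, hxw⟩ := H.surj_L hDI hIrr hy hw
    apply Subgroup.subset_closure
    refine ⟨unitOfSq x hx.1.sq, ?_, ?_⟩
    · rw [SetLike.mem_coe, mem_E_unit H.hx]
      exact Or.inr ⟨x, hx, _, rfl⟩
    · show unitOfSq x hx.1.sq * unitOfSq y hyy * (unitOfSq x hx.1.sq)⁻¹ * (unitOfSq y hyy)⁻¹ = _
      rw [comm_unit hx.1.sq hyy (H.tu_cl hx hy)]
      exact unit_congr hxw _ _

lemma self_mem_E : unitOfSq x₀ H.hx.sq ∈ sameActionSubgroup G (unitOfSq x₀ H.hx.sq) :=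
  Subgroup.subset_closure ⟨H.hx.unit_mem _, rfl, rfl⟩

lemma self_mem_F : unitOfSq y₀ H.hy.sq ∈ sameActionSubgroup G (unitOfSq y₀ H.hy.sq) :=
  Subgroup.subset_closure ⟨H.hy.unit_mem _, rfl, rfl⟩

omit H in
lemma unit_ne_one {x : M →ₗ[k] M} (hx : x ≠ 0) (h : x * x = 0) : (unitOfSq x h : GLm) ≠ 1 := by
  intro h1
  apply hx
  have e : ((unitOfSq x h : GLm) : End') = 1 + x := rfl
  rw [h1] at e
  have e2 : ((1 : GLm) : End') = 1 := rfl
  rw [e2] at e
  have : (1 : End') + x = 1 + 0 := by rw [← e]; simp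
  exact add_left_cancel this

/-- The commutator subgroup. -/
lemma commutator_eq (hDI : DI G) (hIrr : IsIrreducibleFor G) :
    ⁅sameActionSubgroup G (unitOfSq x₀ H.hx.sq), sameActionSubgroup G (unitOfSq y₀ H.hy.sq)⁆ =
      sameActionSubgroup G (unitOfSq (Dop x₀ y₀) H.qr_D₀.sq) := by
  apply le_antisymm
  · rw [Subgroup.commutator_le]
    intro e he f hf
    rw [commutatorElement_def]
    exact H.comm_mem he hf
  · rw [← H.closure_R hDI hIrr H.self_mem_E (unit_ne_one H.hx.ne_zero _), Subgroup.closure_le]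
    rintro _ ⟨f, hf, rfl⟩
    have := Subgroup.commutator_mem_commutator H.self_mem_E hf
    rwa [commutatorElement_def] at this

lemma range_le_ker : LinearMap.range x₀ ≤ LinearMap.ker x₀ := by
  rintro _ ⟨u, rfl⟩
  exact congrArg (fun f : End' => f u) H.hx.sq

lemma x_mul_w {x w : M →ₗ[k] M} (hx : Cl G x₀ x) (hw : Cl G (Dop x₀ y₀) w) : x * w = 0 := by
  ext v
  have h1 : w v ∈ LinearMap.range (Dop x₀ y₀) := by
    rw [← hw.2.2]; exact LinearMap.mem_range_self _ _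
  have hx₀ : Cl G x₀ x₀ := ⟨H.hx, rfl, rfl⟩
  have hy₀ : Cl G y₀ y₀ := ⟨H.hy, rfl, rfl⟩
  rw [H.range_D hx₀ hy₀] at h1
  have h2 : (LinearMap.range x₀ ⊓ LinearMap.ker y₀) ⊔ (LinearMap.range y₀ ⊓ LinearMap.ker x₀) ≤
      LinearMap.ker x₀ := sup_le (inf_le_left.trans H.range_le_ker) inf_le_right
  have h3 := h2 h1
  rw [← hx.2.1] at h3
  exact h3

lemma w_mul_x {x w : M →ₗ[k] M} (hx : Cl G x₀ x) (hw : Cl G (Dop x₀ y₀) w) : w * x = 0 := by
  ext v
  have hx₀ : Cl G x₀ x₀ := ⟨H.hx, rfl, rfl⟩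
  have hy₀ : Cl G y₀ y₀ := ⟨H.hy, rfl, rfl⟩
  have h1 : x v ∈ LinearMap.range x₀ := by
    rw [← hx.2.2]; exact LinearMap.mem_range_self _ _
  have h2 : LinearMap.range x₀ ≤ LinearMap.ker w := by
    rw [hw.2.1, H.ker_D hx₀ hy₀]
    exact le_inf le_sup_left (H.range_le_ker.trans le_sup_right)
  exact h2 h1

lemma cl_neg_D : ∀ {w : M →ₗ[k] M}, Cl G (Dop x₀ y₀) w → Cl G (Dop y₀ x₀) w := by
  intro w hw
  refine ⟨hw.1, ?_, ?_⟩
  · rw [hw.2.1, Dop_swap, LinearMap.ker_neg]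
  · rw [hw.2.2, Dop_swap, LinearMap.range_neg]

omit H in
lemma unit_comm {a b : M →ₗ[k] M} (ha : a * a = 0) (hb : b * b = 0) (h1 : a * b = 0) (h2 : b * a = 0) :
    unitOfSq a ha * unitOfSq b hb = (unitOfSq b hb * unitOfSq a ha : GLm) := by
  apply Units.ext
  show (1 + a) * (1 + b) = (1 + b) * (1 + a)
  simp only [mul_add, add_mul, mul_one, one_mul, h1, h2]
  abel

/-- The third group is central. -/
lemma central {c g : GLm} (hc : c ∈ sameActionSubgroup G (unitOfSq (Dop x₀ y₀) H.qr_D₀.sq))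
    (hg : g ∈ sameActionSubgroup G (unitOfSq x₀ H.hx.sq) ⊔ sameActionSubgroup G (unitOfSq y₀ H.hy.sq)) :
    c * g = g * c := by
  rw [mem_E_unit H.qr_D₀] at hc
  rcases hc with rfl | ⟨w, hw, hww, rfl⟩
  · simp
  rw [Subgroup.sup_eq_closure] at hg
  induction hg using Subgroup.closure_induction with
  | mem g hg =>
    rcases hg with hg | hg
    · have hg' : g ∈ sameActionSubgroup G (unitOfSq x₀ H.hx.sq) := hg
      rw [mem_E_unit H.hx] at hg'
      rcases hg' with rfl | ⟨x, hx, hxx, rfl⟩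
      · simp
      · exact unit_comm _ _ (H.w_mul_x hx hw) (H.x_mul_w hx hw)
    · have hg' : g ∈ sameActionSubgroup G (unitOfSq y₀ H.hy.sq) := hg
      rw [mem_E_unit H.hy] at hg'
      rcases hg' with rfl | ⟨y, hy, hyy, rfl⟩
      · simp
      · exact unit_comm _ _ (H.symm.w_mul_x hy (H.cl_neg_D hw)) (H.symm.x_mul_w hy (H.cl_neg_D hw))
  | one => simp
  | mul a b _ _ h1 h2 =>
    rw [← mul_assoc, h1, mul_assoc, h2, mul_assoc]
  | inv a _ h1 =>
    have e1 : a⁻¹ * (unitOfSq w hww * a) * a⁻¹ = a⁻¹ * unitOfSq w hww := by group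
    have e2 : a⁻¹ * (a * unitOfSq w hww) * a⁻¹ = unitOfSq w hww * a⁻¹ := by group
    rw [h1, e2] at e1
    exact e1

/-- Action of the first class on the flag. -/
lemma flag_x {z : M →ₗ[k] M} (hz : Cl G x₀ z) :
    (∀ v, z v ∈ (LinearMap.range x₀ ⊔ LinearMap.ker y₀) ⊓ (LinearMap.range y₀ ⊔ LinearMap.ker x₀)) ∧
    (∀ v ∈ (LinearMap.range x₀ ⊔ LinearMap.ker y₀) ⊓ (LinearMap.range y₀ ⊔ LinearMap.ker x₀),
      z v ∈ (LinearMap.range x₀ ⊓ LinearMap.ker y₀) ⊔ (LinearMap.range y₀ ⊓ LinearMap.ker x₀)) ∧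
    (∀ v ∈ (LinearMap.range x₀ ⊓ LinearMap.ker y₀) ⊔ (LinearMap.range y₀ ⊓ LinearMap.ker x₀), z v = 0) := by
  have hy₀ : Cl G y₀ y₀ := ⟨H.hy, rfl, rfl⟩
  have hzk : LinearMap.ker x₀ ≤ LinearMap.ker z := by rw [hz.2.1]
  refine ⟨?_, ?_, ?_⟩
  · intro v
    have h1 : z v ∈ LinearMap.range x₀ := by
      rw [← hz.2.2]; exact LinearMap.mem_range_self _ _
    exact Submodule.mem_inf.mpr ⟨Submodule.mem_sup_left h1, Submodule.mem_sup_right (H.range_le_ker h1)⟩
  · intro v hv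
    obtain ⟨a, ha, b, hb, rfl⟩ := Submodule.mem_sup.mp (Submodule.mem_inf.mp hv).2
    have h2 : z b = 0 := hzk hb
    rw [map_add, h2, add_zero]
    obtain ⟨u, rfl⟩ := ha
    apply Submodule.mem_sup_left
    rw [← H.range_xy hz hy₀]
    exact ⟨u, rfl⟩
  · intro v hv
    have h3 : (LinearMap.range x₀ ⊓ LinearMap.ker y₀) ⊔ (LinearMap.range y₀ ⊓ LinearMap.ker x₀) ≤
        LinearMap.ker x₀ := sup_le (inf_le_left.trans H.range_le_ker) inf_le_right
    exact hzk (h3 hv)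

/-- The flag attached to the third group. -/
def flagL (x₀ y₀ : M →ₗ[k] M) : ℕ → Submodule k M
  | 0 => ⊥
  | 1 => (LinearMap.range x₀ ⊓ LinearMap.ker y₀) ⊔ (LinearMap.range y₀ ⊓ LinearMap.ker x₀)
  | 2 => (LinearMap.range x₀ ⊔ LinearMap.ker y₀) ⊓ (LinearMap.range y₀ ⊔ LinearMap.ker x₀)
  | _ => ⊤

lemma flag_step_x {g : GLm} (hg : g ∈ sameActionSubgroup G (unitOfSq x₀ H.hx.sq)) (i : ℕ) (v : M)
    (hv : v ∈ flagL x₀ y₀ (i + 1)) : (g : End') v - v ∈ flagL x₀ y₀ i := by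
  rw [mem_E_unit H.hx] at hg
  rcases hg with rfl | ⟨z, hz, hzz, rfl⟩
  · have : ((1 : GLm) : End') v - v = 0 := by
      show v - v = 0
      simp
    rw [this]
    exact Submodule.zero_mem _
  have e : ((unitOfSq z hzz : GLm) : End') v - v = z v := by
    show (1 + z) v - v = z v
    simp
  rw [e]
  obtain ⟨h1, h2, h3⟩ := H.flag_x hz
  match i, hv with
  | 0, hv => exact (Submodule.mem_bot k).mpr (h3 v hv)
  | 1, hv => exact h2 v hv
  | 2, _ => exact h1 v
  | (n + 3), _ => trivial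

lemma flag_step_y {g : GLm} (hg : g ∈ sameActionSubgroup G (unitOfSq y₀ H.hy.sq)) (i : ℕ) (v : M)
    (hv : v ∈ flagL x₀ y₀ (i + 1)) : (g : End') v - v ∈ flagL x₀ y₀ i := by
  rw [mem_E_unit H.hy] at hg
  rcases hg with rfl | ⟨z, hz, hzz, rfl⟩
  · have : ((1 : GLm) : End') v - v = 0 := by
      show v - v = 0
      simp
    rw [this]
    exact Submodule.zero_mem _
  have e : ((unitOfSq z hzz : GLm) : End') v - v = z v := by
    show (1 + z) v - v = z v
    simp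
  rw [e]
  obtain ⟨h1, h2, h3⟩ := H.symm.flag_x hz
  match i, hv with
  | 0, hv =>
    refine (Submodule.mem_bot k).mpr (h3 v ?_)
    have hv' : v ∈ (LinearMap.range x₀ ⊓ LinearMap.ker y₀) ⊔ (LinearMap.range y₀ ⊓ LinearMap.ker x₀) := hv
    rwa [sup_comm] at hv'
  | 1, hv =>
    have hv' : v ∈ (LinearMap.range x₀ ⊔ LinearMap.ker y₀) ⊓ (LinearMap.range y₀ ⊔ LinearMap.ker x₀) := hv
    rw [inf_comm] at hv'
    have := h2 v hv'
    show z v ∈ (LinearMap.range x₀ ⊓ LinearMap.ker y₀) ⊔ (LinearMap.range y₀ ⊓ LinearMap.ker x₀)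
    rwa [sup_comm]
  | 2, _ =>
    have := h1 v
    show z v ∈ (LinearMap.range x₀ ⊔ LinearMap.ker y₀) ⊓ (LinearMap.range y₀ ⊔ LinearMap.ker x₀)
    rwa [inf_comm]
  | (n + 3), _ => trivial

/-- The flag action of all elements of the join. -/
lemma flag_join {g : GLm}
    (hg : g ∈ sameActionSubgroup G (unitOfSq x₀ H.hx.sq) ⊔ sameActionSubgroup G (unitOfSq y₀ H.hy.sq)) :
    (∀ i, ∀ v ∈ flagL x₀ y₀ (i + 1), (g : End') v - v ∈ flagL x₀ y₀ i) := by
  have hmono : ∀ i, flagL x₀ y₀ i ≤ flagL x₀ y₀ (i + 1) := by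
    intro i
    match i with
    | 0 => exact bot_le
    | 1 =>
      show (LinearMap.range x₀ ⊓ LinearMap.ker y₀) ⊔ (LinearMap.range y₀ ⊓ LinearMap.ker x₀) ≤
        (LinearMap.range x₀ ⊔ LinearMap.ker y₀) ⊓ (LinearMap.range y₀ ⊔ LinearMap.ker x₀)
      apply sup_le
      · exact le_inf (inf_le_left.trans le_sup_left) (inf_le_left.trans (H.range_le_ker.trans le_sup_right))
      · exact le_inf (inf_le_left.trans (H.symm.range_le_ker.trans le_sup_right)) (inf_le_left.trans le_sup_left)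
    | 2 => exact le_top
    | (n + 3) => exact le_rfl
  have key : ∀ g ∈ sameActionSubgroup G (unitOfSq x₀ H.hx.sq) ⊔ sameActionSubgroup G (unitOfSq y₀ H.hy.sq),
      (∀ i, ∀ v ∈ flagL x₀ y₀ (i + 1), (g : End') v - v ∈ flagL x₀ y₀ i) ∧
      (∀ i, ∀ v ∈ flagL x₀ y₀ (i + 1), ((g⁻¹ : GLm) : End') v - v ∈ flagL x₀ y₀ i) := by
    intro g hg
    rw [Subgroup.sup_eq_closure] at hg
    induction hg using Subgroup.closure_induction with
    | mem x hx =>
      rcases hx with hx | hx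
      · exact ⟨fun i v hv => H.flag_step_x hx i v hv, fun i v hv => H.flag_step_x (inv_mem hx) i v hv⟩
      · exact ⟨fun i v hv => H.flag_step_y hx i v hv, fun i v hv => H.flag_step_y (inv_mem hx) i v hv⟩
    | one => simp
    | mul x y _ _ hx hy =>
      have hstep : ∀ (a b : GLm), (∀ i, ∀ v ∈ flagL x₀ y₀ (i + 1), (a : End') v - v ∈ flagL x₀ y₀ i) →
          (∀ i, ∀ v ∈ flagL x₀ y₀ (i + 1), (b : End') v - v ∈ flagL x₀ y₀ i) →
          ∀ i, ∀ v ∈ flagL x₀ y₀ (i + 1), ((a * b : GLm) : End') v - v ∈ flagL x₀ y₀ i := by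
        intro a b ha hb i v hv
        have h1 := hb i v hv
        have h2 : (b : End') v ∈ flagL x₀ y₀ (i + 1) := by
          have e : (b : End') v = ((b : End') v - v) + v := by abel
          rw [e]
          exact add_mem (hmono i h1) hv
        have h3 := ha i _ h2
        have e : ((a * b : GLm) : End') v - v = ((a : End') ((b : End') v) - (b : End') v) +
            ((b : End') v - v) := by
          show (a : End') ((b : End') v) - v = _
          abel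
        rw [e]
        exact add_mem h3 h1
      refine ⟨hstep x y hx.1 hy.1, ?_⟩
      rw [mul_inv_rev]
      exact hstep _ _ hy.2 hx.2
    | inv x _ hx =>
      refine ⟨hx.2, ?_⟩
      rw [inv_inv]
      exact hx.1
  exact (key g hg).1

/-- The join lies in the unipotent core of the third group. -/
lemma join_le_core {g : GLm}
    (hg : g ∈ sameActionSubgroup G (unitOfSq x₀ H.hx.sq) ⊔ sameActionSubgroup G (unitOfSq y₀ H.hy.sq)) :
    g ∈ quadraticUnipotentCore G (sameActionSubgroup G (unitOfSq (Dop x₀ y₀) H.qr_D₀.sq)) := by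
  have hm := H.qr_D₀.unit_mem H.qr_D₀.sq
  have e : dx (unitOfSq (Dop x₀ y₀) H.qr_D₀.sq) = Dop x₀ y₀ := by simp [dx]
  have hx₀ : Cl G x₀ x₀ := ⟨H.hx, rfl, rfl⟩
  have hy₀ : Cl G y₀ y₀ := ⟨H.hy, rfl, rfl⟩
  have hfix : fixedSubmodule (sameActionSubgroup G (unitOfSq (Dop x₀ y₀) H.qr_D₀.sq)) =
      (LinearMap.range x₀ ⊔ LinearMap.ker y₀) ⊓ (LinearMap.range y₀ ⊔ LinearMap.ker x₀) := by
    have := fixed_sup hm hm
    rw [sup_idem, inf_idem, e, H.ker_D hx₀ hy₀] at this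
    exact this
  have hcom : commutatorSubmodule (sameActionSubgroup G (unitOfSq (Dop x₀ y₀) H.qr_D₀.sq)) =
      (LinearMap.range x₀ ⊓ LinearMap.ker y₀) ⊔ (LinearMap.range y₀ ⊓ LinearMap.ker x₀) := by
    have := comm_sup hm hm
    rw [sup_idem, sup_idem, e, H.range_D hx₀ hy₀] at this
    exact this
  have hflag := H.flag_join hg
  refine ⟨?_, ?_, ?_, ?_, ?_⟩
  · have h1 : sameActionSubgroup G (unitOfSq x₀ H.hx.sq) ⊔ sameActionSubgroup G (unitOfSq y₀ H.hy.sq) ≤ G :=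
      sup_le E_le_G E_le_G
    exact h1 hg
  · rw [Subgroup.mem_normalizer_iff]
    intro h
    constructor
    · intro hh
      have := H.central hh hg
      have e2 : g * h * g⁻¹ = h := by rw [← this]; group
      show g * h * g⁻¹ ∈ sameActionSubgroup G (unitOfSq (Dop x₀ y₀) H.qr_D₀.sq)
      rw [e2]
      exact hh
    · intro hh
      show h ∈ sameActionSubgroup G (unitOfSq (Dop x₀ y₀) H.qr_D₀.sq)
      have := H.central hh hg
      have e1 : g * h * g⁻¹ * g = g * h := by group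
      rw [e1] at this
      have e3 : g * h * g⁻¹ = h := (mul_left_cancel this).symm
      rw [e3] at hh
      exact hh
  · intro m
    rw [hfix]
    exact hflag 2 m trivial
  · intro m hm'
    rw [hfix] at hm'
    rw [hcom]
    exact hflag 1 m hm'
  · intro m hm'
    rw [hcom] at hm'
    have := hflag 0 m hm'
    have h2 : (g : End') m - m = 0 := (Submodule.mem_bot k).mp this
    exact sub_eq_zero.mp h2

/-- The class-two statement. -/
lemma class_two (hDI : DI G) (hIrr : IsIrreducibleFor G) :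
    ⁅sameActionSubgroup G (unitOfSq x₀ H.hx.sq) ⊔ sameActionSubgroup G (unitOfSq y₀ H.hy.sq),
      sameActionSubgroup G (unitOfSq x₀ H.hx.sq) ⊔ sameActionSubgroup G (unitOfSq y₀ H.hy.sq)⁆ ≠ ⊥ ∧
    ⁅⁅sameActionSubgroup G (unitOfSq x₀ H.hx.sq) ⊔ sameActionSubgroup G (unitOfSq y₀ H.hy.sq),
      sameActionSubgroup G (unitOfSq x₀ H.hx.sq) ⊔ sameActionSubgroup G (unitOfSq y₀ H.hy.sq)⁆,
      sameActionSubgroup G (unitOfSq x₀ H.hx.sq) ⊔ sameActionSubgroup G (unitOfSq y₀ H.hy.sq)⁆ = ⊥ := by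
  set E := sameActionSubgroup G (unitOfSq x₀ H.hx.sq)
  set F := sameActionSubgroup G (unitOfSq y₀ H.hy.sq)
  set L := sameActionSubgroup G (unitOfSq (Dop x₀ y₀) H.qr_D₀.sq) with hL
  have hcomm := H.commutator_eq hDI hIrr
  have hEc : ∀ a ∈ E, ∀ a' ∈ E, a * a' = a' * a := by
    have := (s5059_main (H.hx.unit_mem H.hx.sq)).2.1
    intro a ha a' ha'
    exact congrArg Subtype.val (this.is_comm.comm ⟨a, ha⟩ ⟨a', ha'⟩)
  have hFc : ∀ a ∈ F, ∀ a' ∈ F, a * a' = a' * a := by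
    have := (s5059_main (H.hy.unit_mem H.hy.sq)).2.1
    intro a ha a' ha'
    exact congrArg Subtype.val (this.is_comm.comm ⟨a, ha⟩ ⟨a', ha'⟩)
  have hle : ⁅E ⊔ F, E ⊔ F⁆ ≤ L :=
    comm_sup_le hEc hFc hcomm.le (fun c hc g hg => H.central hc hg)
  constructor
  · intro h0
    have h1 : ⁅E, F⁆ ≤ ⁅E ⊔ F, E ⊔ F⁆ := Subgroup.commutator_mono le_sup_left le_sup_right
    rw [h0, hcomm, le_bot_iff] at h1
    have hne : unitOfSq (Dop x₀ y₀) H.qr_D₀.sq ∈ sameActionSubgroup G (unitOfSq (Dop x₀ y₀) H.qr_D₀.sq) :=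
      Subgroup.subset_closure ⟨H.qr_D₀.unit_mem _, rfl, rfl⟩
    rw [h1, Subgroup.mem_bot] at hne
    exact unit_ne_one H.hD _ hne
  · rw [eq_bot_iff, Subgroup.commutator_le]
    intro c hc g hg
    rw [Subgroup.mem_bot, commutatorElement_eq_one_iff_mul_comm]
    exact H.central (hle hc) hg

end C2

end fd

end Cfsg.Agent.Lib.QPH39
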