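import Cfsg.Agent.Lib.QPH39S5065

/-! The structure of a non-commuting pair of root subgroups of unipotent type. -/

set_option autoImplicit false

namespace Cfsg.Agent.Lib.QPH39

open Cfsg Cfsg.Agent.RootSub

variable {k : Type*} [Field k] {M : Type*} [AddCommGroup M] [Module k M]

local notation "GLm" => LinearMap.GeneralLinearGroup k M
local notation "End'" => (M →ₗ[k] M)

variable {G : Subgroup (LinearMap.GeneralLinearGroup k M)}

/-- The Lie bracket. -/
def Dop (x y : M →ₗ[k] M) : M →ₗ[k] M := x * y - y * x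

lemma Dop_apply (x y : M →ₗ[k] M) (v : M) : Dop x y v = x (y v) - y (x v) := rfl

section algebra

variable {x y : M →ₗ[k] M}

lemma Dop_sq (hxx : x * x = 0) (hyy : y * y = 0) (hU : TU x y) : Dop x y * Dop x y = 0 := by
  have h1 : x * (y * x) = 0 := by rw [← mul_assoc]; exact hU.1
  have h2 : y * (x * y) = 0 := by rw [← mul_assoc]; exact hU.2
  have h3 : x * (y * (x * y)) = 0 := by rw [h2, mul_zero]
  have h4 : y * (x * (y * x)) = 0 := by rw [h1, mul_zero]
  have h5 : y * (x * (x * y)) = 0 := by rw [← mul_assoc x x y, hxx]; simp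
  have h6 : x * (y * (y * x)) = 0 := by rw [← mul_assoc y y x, hyy]; simp
  simp only [Dop, mul_sub, sub_mul, mul_assoc, h3, h4, h5, h6, sub_zero, sub_self]

/-- The group commutator of two elementary units of unipotent type. -/
lemma comm_unit (hxx : x * x = 0) (hyy : y * y = 0) (hU : TU x y) :
    unitOfSq x hxx * unitOfSq y hyy * (unitOfSq x hxx)⁻¹ * (unitOfSq y hyy)⁻¹ =
      unitOfSq (Dop x y) (Dop_sq hxx hyy hU) := by
  apply Units.ext
  show (1 + x) * (1 + y) * (1 - x) * (1 - y) = 1 + (x * y - y * x)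
  have h1 : x * (y * x) = 0 := by rw [← mul_assoc]; exact hU.1
  have h2 : y * (x * y) = 0 := by rw [← mul_assoc]; exact hU.2
  have h3 : x * (y * (x * y)) = 0 := by rw [h2, mul_zero]
  have h5 : x * (x * y) = 0 := by rw [← mul_assoc, hxx, zero_mul]
  have h6 : y * (y * x) = 0 := by rw [← mul_assoc, hyy, zero_mul]
  simp only [mul_add, add_mul, mul_sub, sub_mul, mul_one, one_mul, mul_assoc, hxx, hyy, h1, h2, h3,
    h5, h6, zero_mul, mul_zero]
  abel

lemma Dop_zero_left (y : M →ₗ[k] M) : Dop 0 y = 0 := by simp [Dop]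
lemma Dop_zero_right (x : M →ₗ[k] M) : Dop x 0 = 0 := by simp [Dop]

lemma Dop_smul_left (c : k) (x y : M →ₗ[k] M) : Dop (c • x) y = c • Dop x y := by
  simp [Dop, smul_sub]

lemma TU.smul_left (hU : TU x y) (c : k) : TU (c • x) y := by
  constructor
  · have : c • x * y * c • x = (c * c) • (x * y * x) := by
      simp only [smul_mul_assoc, mul_smul_comm, smul_smul]
    rw [this, hU.1, smul_zero]
  · have : y * c • x * y = c • (y * x * y) := by
      simp only [smul_mul_assoc, mul_smul_comm]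
    rw [this, hU.2, smul_zero]

end algebra

section ranks

variable [FiniteDimensional k M]

/-- Rank of a product, in terms of an intersection. -/
lemma finrank_range_mul (x y : M →ₗ[k] M) :
    Module.finrank k (LinearMap.range (y * x)) +
      Module.finrank k (LinearMap.range x ⊓ LinearMap.ker y : Submodule k M) =
      Module.finrank k (LinearMap.range x) := by
  have h := LinearMap.finrank_range_add_finrank_ker (y.domRestrict (LinearMap.range x))
  have e1 : LinearMap.range (y.domRestrict (LinearMap.range x)) = LinearMap.range (y * x) := by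
    ext v
    constructor
    · rintro ⟨⟨_, ⟨w, rfl⟩⟩, rfl⟩
      exact ⟨w, rfl⟩
    · rintro ⟨w, rfl⟩
      exact ⟨⟨x w, LinearMap.mem_range_self _ _⟩, rfl⟩
  have e2 : Module.finrank k (LinearMap.ker (y.domRestrict (LinearMap.range x))) =
      Module.finrank k (LinearMap.range x ⊓ LinearMap.ker y : Submodule k M) := by
    have hle : (LinearMap.range x ⊓ LinearMap.ker y : Submodule k M) ≤ LinearMap.range x := inf_le_left
    have e3 : LinearMap.ker (y.domRestrict (LinearMap.range x)) =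
        Submodule.comap (LinearMap.range x).subtype (LinearMap.range x ⊓ LinearMap.ker y) := by
      ext ⟨v, hv⟩
      simp [LinearMap.mem_ker, hv]
    rw [e3]
    exact LinearEquiv.finrank_eq (Submodule.comapSubtypeEquivOfLe hle)
  rw [e1, e2] at h
  exact h

lemma range_mul_le {x y : M →ₗ[k] M} (h : y * x * y = 0) :
    LinearMap.range (x * y) ≤ LinearMap.range x ⊓ LinearMap.ker y := by
  rintro _ ⟨v, rfl⟩
  refine Submodule.mem_inf.mpr ⟨LinearMap.mem_range_self _ _, ?_⟩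
  exact congrArg (fun f : End' => f v) h

end ranks

section main

variable [FiniteDimensional k M]

lemma QR.rank_eq {x y : M →ₗ[k] M} (hx : QR G x) (hy : QR G y) :
    Module.finrank k (LinearMap.range x) = Module.finrank k (LinearMap.range y) := by
  apply le_antisymm
  · exact hx.rank_le hy.sq hy.ne_zero (fun c h => hy.mem_G c h)
  · exact hy.rank_le hx.sq hx.ne_zero (fun c h => hx.mem_G c h)

/-- The family of scalars of a bracket lies in `G`. -/
lemma Dop_mem_G {x y : M →ₗ[k] M} (hx : QR G x) (hy : QR G y) (hU : TU x y) (c : k)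
    (h : (c • Dop x y) * (c • Dop x y) = 0) : unitOfSq (c • Dop x y) h ∈ G := by
  have hsq : (c • x) * (c • x) = 0 := smul_sq hx.sq c
  have hU' := hU.smul_left c
  have hcomm := comm_unit hsq hy.sq hU'
  have e : unitOfSq (c • Dop x y) h = unitOfSq (Dop (c • x) y) (Dop_sq hsq hy.sq hU') :=
    Units.ext (by simp [Dop_smul_left])
  rw [e, ← hcomm]
  have h1 : unitOfSq (c • x) hsq ∈ G := hx.mem_G c hsq
  have h2 : unitOfSq y hy.sq ∈ G := (hy.unit_mem hy.sq).1.1
  exact mul_mem (mul_mem (mul_mem h1 h2) (inv_mem h1)) (inv_mem h2)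

/-- The data of a pair of unipotent type with non-trivial bracket. -/
structure C2 (G : Subgroup (LinearMap.GeneralLinearGroup k M)) (x₀ y₀ : M →ₗ[k] M) : Prop where
  hx : QR G x₀
  hy : QR G y₀
  hU : ∀ a, a = 0 ∨ (QR G a ∧ LinearMap.ker a = LinearMap.ker x₀ ∧ LinearMap.range a = LinearMap.range x₀) →
    ∀ b, b = 0 ∨ (QR G b ∧ LinearMap.ker b = LinearMap.ker y₀ ∧ LinearMap.range b = LinearMap.range y₀) → TU a b
  hD : Dop x₀ y₀ ≠ 0

namespace C2

variable {x₀ y₀ : M →ₗ[k] M} (H : C2 G x₀ y₀)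

include H

/-- The subspace `I_E ∩ K_F`. -/
lemma finrank_facts : ∃ a b : ℕ, a + b = Module.finrank k (LinearMap.range x₀) ∧
    Module.finrank k (LinearMap.range x₀ ⊓ LinearMap.ker y₀ : Submodule k M) = a ∧
    Module.finrank k (LinearMap.range y₀ ⊓ LinearMap.ker x₀ : Submodule k M) = b ∧
    Module.finrank k (LinearMap.range x₀ ⊓ LinearMap.ker y₀ ⊓
      (LinearMap.range y₀ ⊓ LinearMap.ker x₀) : Submodule k M) = 0 := by
  have hU0 : TU x₀ y₀ := H.hU _ (Or.inr ⟨H.hx, rfl, rfl⟩) _ (Or.inr ⟨H.hy, rfl, rfl⟩)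
  have h1 := finrank_range_mul x₀ y₀
  have h2 := finrank_range_mul y₀ x₀
  have h3 := Submodule.finrank_mono (range_mul_le hU0.2)
  have h4 := Submodule.finrank_mono (range_mul_le hU0.1)
  have hd := H.hx.rank_eq H.hy
  have hr1 : Module.finrank k (LinearMap.range x₀) ≤ Module.finrank k (LinearMap.range (Dop x₀ y₀)) :=
    H.hx.rank_le (Dop_sq H.hx.sq H.hy.sq hU0) H.hD (Dop_mem_G H.hx H.hy hU0)
  have hle : LinearMap.range (Dop x₀ y₀) ≤ LinearMap.range (x₀ * y₀) ⊔ LinearMap.range (y₀ * x₀) := by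
    rintro _ ⟨v, rfl⟩
    rw [Dop_apply, sub_eq_add_neg]
    exact Submodule.add_mem_sup (LinearMap.mem_range_self _ _) (neg_mem (LinearMap.mem_range_self _ _))
  have hr2 := Submodule.finrank_mono hle
  have hr3 := Submodule.finrank_add_le_finrank_add_finrank (LinearMap.range (x₀ * y₀)) (LinearMap.range (y₀ * x₀))
  refine ⟨_, _, ?_, rfl, rfl, ?_⟩
  · omega
  · have hA : LinearMap.range (x₀ * y₀) = LinearMap.range x₀ ⊓ LinearMap.ker y₀ :=
      Submodule.eq_of_le_of_finrank_le (range_mul_le hU0.2) (by omega)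
    have hB : LinearMap.range (y₀ * x₀) = LinearMap.range y₀ ⊓ LinearMap.ker x₀ :=
      Submodule.eq_of_le_of_finrank_le (range_mul_le hU0.1) (by omega)
    have h5 := Submodule.finrank_sup_add_finrank_inf_eq
      (LinearMap.range x₀ ⊓ LinearMap.ker y₀) (LinearMap.range y₀ ⊓ LinearMap.ker x₀)
    rw [← hA, ← hB] at h5 ⊢
    have h6 : LinearMap.range (Dop x₀ y₀) ≤ LinearMap.range (x₀ * y₀) ⊔ LinearMap.range (y₀ * x₀) := hle
    have h7 := Submodule.finrank_mono h6
    omega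

omit H in
lemma Dop_swap (x y : M →ₗ[k] M) : Dop y x = - Dop x y := by
  simp [Dop]

lemma symm : C2 G y₀ x₀ := by
  refine ⟨H.hy, H.hx, fun a ha b hb => (H.hU b hb a ha).symm, ?_⟩
  rw [Dop_swap]
  exact neg_ne_zero.mpr H.hD

lemma tu_self : TU x₀ y₀ := H.hU _ (Or.inr ⟨H.hx, rfl, rfl⟩) _ (Or.inr ⟨H.hy, rfl, rfl⟩)

/-- Elements of the class of `x`. -/
def Cl (G : Subgroup (LinearMap.GeneralLinearGroup k M)) (x₀ a : M →ₗ[k] M) : Prop :=
  QR G a ∧ LinearMap.ker a = LinearMap.ker x₀ ∧ LinearMap.range a = LinearMap.range x₀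

lemma tu_cl {x y : M →ₗ[k] M} (hx : Cl G x₀ x) (hy : Cl G y₀ y) : TU x y :=
  H.hU _ (Or.inr hx) _ (Or.inr hy)

lemma range_xy {x y : M →ₗ[k] M} (hx : Cl G x₀ x) (hy : Cl G y₀ y) :
    LinearMap.range (x * y) = LinearMap.range x₀ ⊓ LinearMap.ker y₀ := by
  obtain ⟨a, b, hab, ha, hb, -⟩ := H.finrank_facts
  have hU := H.tu_cl hx hy
  have h1 := finrank_range_mul y x
  rw [hx.2.1, hy.2.2, hb] at h1
  have hd := H.hx.rank_eq H.hy
  have hle := range_mul_le hU.2
  rw [hx.2.2, hy.2.1] at hle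
  apply Submodule.eq_of_le_of_finrank_le hle
  omega

lemma range_yx {x y : M →ₗ[k] M} (hx : Cl G x₀ x) (hy : Cl G y₀ y) :
    LinearMap.range (y * x) = LinearMap.range y₀ ⊓ LinearMap.ker x₀ :=
  H.symm.range_xy hy hx

lemma inf_bot : (LinearMap.range x₀ ⊓ LinearMap.ker y₀ ⊓
      (LinearMap.range y₀ ⊓ LinearMap.ker x₀) : Submodule k M) = ⊥ := by
  obtain ⟨a, b, hab, ha, hb, h0⟩ := H.finrank_facts
  exact Submodule.finrank_eq_zero.mp h0

lemma finrank_ker_y : Module.finrank k (LinearMap.ker y₀) + Module.finrank k (LinearMap.range x₀) =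
    Module.finrank k M := by
  have h1 := LinearMap.finrank_range_add_finrank_ker y₀
  have hd := H.hx.rank_eq H.hy
  omega

lemma ker_xy {x y : M →ₗ[k] M} (hx : Cl G x₀ x) (hy : Cl G y₀ y) :
    LinearMap.ker (x * y) = LinearMap.range x₀ ⊔ LinearMap.ker y₀ := by
  obtain ⟨a, b, hab, ha, hb, -⟩ := H.finrank_facts
  have hU := H.tu_cl hx hy
  have hle : LinearMap.range x₀ ⊔ LinearMap.ker y₀ ≤ LinearMap.ker (x * y) := by
    apply sup_le
    · rw [← hx.2.2]
      rintro _ ⟨u, rfl⟩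
      exact congrArg (fun f : End' => f u) hU.1
    · rw [← hy.2.1]
      intro v hv
      have : y v = 0 := hv
      show x (y v) = 0
      rw [this, map_zero]
  symm
  apply Submodule.eq_of_le_of_finrank_le hle
  have h1 := LinearMap.finrank_range_add_finrank_ker (x * y)
  rw [H.range_xy hx hy, ha] at h1
  have h2 := Submodule.finrank_sup_add_finrank_inf_eq (LinearMap.range x₀) (LinearMap.ker y₀)
  rw [ha] at h2
  have h3 := H.finrank_ker_y
  omega

lemma ker_yx {x y : M →ₗ[k] M} (hx : Cl G x₀ x) (hy : Cl G y₀ y) :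
    LinearMap.ker (y * x) = LinearMap.range y₀ ⊔ LinearMap.ker x₀ :=
  H.symm.ker_xy hy hx

lemma ker_D {x y : M →ₗ[k] M} (hx : Cl G x₀ x) (hy : Cl G y₀ y) :
    LinearMap.ker (Dop x y) = (LinearMap.range x₀ ⊔ LinearMap.ker y₀) ⊓
      (LinearMap.range y₀ ⊔ LinearMap.ker x₀) := by
  rw [← H.ker_xy hx hy, ← H.ker_yx hx hy]
  ext v
  simp only [LinearMap.mem_ker, Submodule.mem_inf, Dop_apply, Module.End.mul_apply]
  constructor
  · intro h
    have e : x (y v) = y (x v) := sub_eq_zero.mp h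
    have h1 : x (y v) ∈ (LinearMap.range x₀ ⊓ LinearMap.ker y₀ ⊓
      (LinearMap.range y₀ ⊓ LinearMap.ker x₀) : Submodule k M) := by
      refine Submodule.mem_inf.mpr ⟨?_, ?_⟩
      · rw [← H.range_xy hx hy]
        exact ⟨v, rfl⟩
      · rw [e, ← H.range_yx hx hy]
        exact ⟨v, rfl⟩
    rw [H.inf_bot, Submodule.mem_bot] at h1
    exact ⟨h1, e ▸ h1⟩
  · rintro ⟨h1, h2⟩
    rw [h1, h2, sub_zero]

lemma range_D {x y : M →ₗ[k] M} (hx : Cl G x₀ x) (hy : Cl G y₀ y) :
    LinearMap.range (Dop x y) = (LinearMap.range x₀ ⊓ LinearMap.ker y₀) ⊔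
      (LinearMap.range y₀ ⊓ LinearMap.ker x₀) := by
  obtain ⟨a, b, hab, ha, hb, h0⟩ := H.finrank_facts
  have hle : ∀ {u v : M →ₗ[k] M}, Cl G x₀ u → Cl G y₀ v → LinearMap.range (Dop u v) ≤
      (LinearMap.range x₀ ⊓ LinearMap.ker y₀) ⊔ (LinearMap.range y₀ ⊓ LinearMap.ker x₀) := by
    intro u v hu hv
    rw [← H.range_xy hu hv, ← H.range_yx hu hv]
    rintro _ ⟨m, rfl⟩
    rw [Dop_apply, sub_eq_add_neg]
    exact Submodule.add_mem_sup (LinearMap.mem_range_self _ _) (neg_mem (LinearMap.mem_range_self _ _))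
  apply Submodule.eq_of_le_of_finrank_le (hle hx hy)
  have h1 := Submodule.finrank_sup_add_finrank_inf_eq
    (LinearMap.range x₀ ⊓ LinearMap.ker y₀) (LinearMap.range y₀ ⊓ LinearMap.ker x₀)
  rw [ha, hb, h0] at h1
  have hx₀ : Cl G x₀ x₀ := ⟨H.hx, rfl, rfl⟩
  have hy₀ : Cl G y₀ y₀ := ⟨H.hy, rfl, rfl⟩
  have h2 : Module.finrank k (LinearMap.range x₀) ≤ Module.finrank k (LinearMap.range (Dop x₀ y₀)) :=
    H.hx.rank_le (Dop_sq H.hx.sq H.hy.sq H.tu_self) H.hD (Dop_mem_G H.hx H.hy H.tu_self)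
  have h3 := LinearMap.finrank_range_add_finrank_ker (Dop x₀ y₀)
  have h4 := LinearMap.finrank_range_add_finrank_ker (Dop x y)
  rw [H.ker_D hx₀ hy₀] at h3
  rw [H.ker_D hx hy] at h4
  omega

lemma finrank_A_B : Module.finrank k ((LinearMap.range x₀ ⊓ LinearMap.ker y₀) ⊔
      (LinearMap.range y₀ ⊓ LinearMap.ker x₀) : Submodule k M) = Module.finrank k (LinearMap.range x₀) := by
  obtain ⟨a, b, hab, ha, hb, h0⟩ := H.finrank_facts
  have h1 := Submodule.finrank_sup_add_finrank_inf_eq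
    (LinearMap.range x₀ ⊓ LinearMap.ker y₀) (LinearMap.range y₀ ⊓ LinearMap.ker x₀)
  rw [ha, hb, h0] at h1
  omega

lemma finrank_pos : 0 < Module.finrank k (LinearMap.range x₀) := by
  rw [Module.finrank_pos_iff_exists_ne_zero]
  obtain ⟨v, hv⟩ : ∃ v, x₀ v ≠ 0 := by
    by_contra hcon
    push Not at hcon
    exact H.hx.ne_zero (LinearMap.ext hcon)
  exact ⟨⟨x₀ v, LinearMap.mem_range_self _ _⟩, fun h => hv (congrArg Subtype.val h)⟩

lemma D_ne_zero {x y : M →ₗ[k] M} (hx : Cl G x₀ x) (hy : Cl G y₀ y) : Dop x y ≠ 0 := by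
  intro h0
  have h1 := H.range_D hx hy
  rw [h0, LinearMap.range_zero] at h1
  have h2 := H.finrank_A_B
  rw [← h1, finrank_bot] at h2
  have := H.finrank_pos
  omega

lemma qr_D {x y : M →ₗ[k] M} (hx : Cl G x₀ x) (hy : Cl G y₀ y) : QR G (Dop x y) := by
  have hU := H.tu_cl hx hy
  refine hx.1.of_rank (Dop_sq hx.1.sq hy.1.sq hU) (H.D_ne_zero hx hy) (Dop_mem_G hx.1 hy.1 hU) ?_
  rw [H.range_D hx hy, H.finrank_A_B, hx.2.2]

lemma qr_D₀ : QR G (Dop x₀ y₀) := H.qr_D ⟨H.hx, rfl, rfl⟩ ⟨H.hy, rfl, rfl⟩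

lemma cl_D {x y : M →ₗ[k] M} (hx : Cl G x₀ x) (hy : Cl G y₀ y) : Cl G (Dop x₀ y₀) (Dop x y) := by
  have hx₀ : Cl G x₀ x₀ := ⟨H.hx, rfl, rfl⟩
  have hy₀ : Cl G y₀ y₀ := ⟨H.hy, rfl, rfl⟩
  refine ⟨H.qr_D hx hy, ?_, ?_⟩
  · rw [H.ker_D hx hy, H.ker_D hx₀ hy₀]
  · rw [H.range_D hx hy, H.range_D hx₀ hy₀]

omit H in
lemma cl_of_mem {x₀ a : M →ₗ[k] M} {h : QR G x₀} (ha : a ∈ LE G x₀ h) (ha0 : a ≠ 0) : Cl G x₀ a := by
  rcases ha with h1 | h1
  · exact absurd h1 ha0
  · exact h1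

omit H in
lemma mem_of_cl {x₀ a : M →ₗ[k] M} {h : QR G x₀} (ha : Cl G x₀ a) : a ∈ LE G x₀ h := Or.inr ha

/-- The bracket with a fixed first entry, as a linear map. -/
def adR (H : C2 G x₀ y₀) {x : M →ₗ[k] M} (hx : Cl G x₀ x) : LE G y₀ H.hy →ₗ[k] LE G (Dop x₀ y₀) H.qr_D₀ where
  toFun y := ⟨Dop x y.1, by
    by_cases h0 : y.1 = 0
    · rw [h0, Dop_zero_right]
      exact Submodule.zero_mem _
    · exact mem_of_cl (H.cl_D hx (cl_of_mem y.2 h0))⟩
  map_add' a b := by
    apply Subtype.ext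
    show Dop x (a.1 + b.1) = Dop x a.1 + Dop x b.1
    simp only [Dop, mul_add, add_mul]
    abel
  map_smul' c a := by
    apply Subtype.ext
    show Dop x (c • a.1) = c • Dop x a.1
    simp only [Dop, mul_smul_comm, smul_mul_assoc, smul_sub]

lemma adR_inj {x : M →ₗ[k] M} (hx : Cl G x₀ x) : Function.Injective (H.adR hx) := by
  rw [← LinearMap.ker_eq_bot, eq_bot_iff]
  intro y hy
  by_contra h0
  have h1 : y.1 ≠ 0 := fun h => h0 (by
    rw [Submodule.mem_bot]
    exact Subtype.ext h)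
  have h2 : Dop x y.1 = 0 := congrArg Subtype.val (LinearMap.mem_ker.mp hy)
  exact H.D_ne_zero hx (cl_of_mem y.2 h1) h2

/-- The bracket with a fixed second entry, as a linear map. -/
def adL (H : C2 G x₀ y₀) {y : M →ₗ[k] M} (hy : Cl G y₀ y) : LE G x₀ H.hx →ₗ[k] LE G (Dop x₀ y₀) H.qr_D₀ where
  toFun x := ⟨Dop x.1 y, by
    by_cases h0 : x.1 = 0
    · rw [h0, Dop_zero_left]
      exact Submodule.zero_mem _
    · exact mem_of_cl (H.cl_D (cl_of_mem x.2 h0) hy)⟩
  map_add' a b := by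
    apply Subtype.ext
    show Dop (a.1 + b.1) y = Dop a.1 y + Dop b.1 y
    simp only [Dop, mul_add, add_mul]
    abel
  map_smul' c a := by
    apply Subtype.ext
    show Dop (c • a.1) y = c • Dop a.1 y
    simp only [Dop, mul_smul_comm, smul_mul_assoc, smul_sub]

lemma adL_inj {y : M →ₗ[k] M} (hy : Cl G y₀ y) : Function.Injective (H.adL hy) := by
  rw [← LinearMap.ker_eq_bot, eq_bot_iff]
  intro x hx
  by_contra h0
  have h1 : x.1 ≠ 0 := fun h => h0 (by
    rw [Submodule.mem_bot]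
    exact Subtype.ext h)
  have h2 : Dop x.1 y = 0 := congrArg Subtype.val (LinearMap.mem_ker.mp hx)
  exact H.D_ne_zero (cl_of_mem x.2 h1) hy h2

end C2

end main

end Cfsg.Agent.Lib.QPH39
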