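import Cfsg.Agent.RootSub.QuadSame
import Cfsg.Agent.RootSub.Unip

/-! Operator-level API for quadratic pairs: `QR G x` says that `1 + x` is a minimal quadratic element
of `G`; `LE G x` is the subspace of operators with the same kernel and range as `x`, in `QR`. -/

set_option autoImplicit false

namespace Cfsg.Agent.Lib.QPH39

open Cfsg Cfsg.Agent.RootSub

variable {k : Type*} [Field k] {M : Type*} [AddCommGroup M] [Module k M]

local notation "GLm" => LinearMap.GeneralLinearGroup k M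
local notation "End'" => (M →ₗ[k] M)

/-- `σ - 1`. -/
abbrev dx (σ : GLm) : End' := (σ : End') - 1

/-- `x` is `σ - 1` for a minimal quadratic element `σ` of `G`. -/
def QR (G : Subgroup GLm) (x : End') : Prop := ∃ σ ∈ minimalQuadraticElements G, dx σ = x

variable {G : Subgroup (LinearMap.GeneralLinearGroup k M)}

lemma qr_of_mem {σ : GLm} (hσ : σ ∈ minimalQuadraticElements G) : QR G (dx σ) := ⟨σ, hσ, rfl⟩

lemma QR.sq {x : End'} (hx : QR G x) : x * x = 0 := by
  obtain ⟨σ, hσ, rfl⟩ := hx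
  exact hσ.1.2.1.1

lemma QR.ne_zero {x : End'} (hx : QR G x) : x ≠ 0 := by
  obtain ⟨σ, hσ, rfl⟩ := hx
  exact hσ.1.2.1.2

lemma smul_sq {x : End'} (hx : x * x = 0) (c : k) : (c • x) * (c • x) = 0 := by
  rw [smul_mul_smul_comm, hx, smul_zero]

/-- The unit `1 + x`, for `x` in `QR`, as a member of `𝒬_d`. -/
lemma QR.unit_mem {x : End'} (hx : QR G x) (h : x * x = 0) : unitOfSq x h ∈ minimalQuadraticElements G := by
  obtain ⟨σ, hσ, rfl⟩ := hx
  have : unitOfSq (dx σ) h = σ := by
    apply Units.ext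
    simp [dx]
  rw [this]
  exact hσ

lemma QR.mem_G {x : End'} (hx : QR G x) (c : k) (h : (c • x) * (c • x) = 0) : unitOfSq (c • x) h ∈ G := by
  obtain ⟨σ, hσ, rfl⟩ := hx
  exact hσ.1.2.2 ⟨c, rfl⟩

lemma unit_mem_quadratic {z : End'} (hz : z * z = 0) (h0 : z ≠ 0)
    (hG : ∀ c : k, ∀ h : (c • z) * (c • z) = 0, unitOfSq (c • z) h ∈ G) :
    unitOfSq z hz ∈ quadraticElements G := by
  have hone : unitOfSq z hz ∈ G := by
    have := hG 1 (by simpa using hz)
    convert this using 1
    apply Units.ext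
    simp
  have hdx : dx (unitOfSq z hz) = z := by simp [dx]
  refine ⟨hone, ⟨?_, ?_⟩, ?_⟩
  · show dx _ * dx _ = 0
    rw [hdx]; exact hz
  · show dx _ ≠ 0
    rw [hdx]; exact h0
  · rintro ρ ⟨c, hc⟩
    have hdx' : ((unitOfSq z hz : GLm) : End') - 1 = z := hdx
    rw [hdx'] at hc
    have := hG c (smul_sq hz c)
    have e : ρ = unitOfSq (c • z) (smul_sq hz c) := Units.ext (by rw [hc]; simp)
    rw [e]
    exact this

lemma QR.rank_le {x z : End'} (hx : QR G x) (hz : z * z = 0) (h0 : z ≠ 0)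
    (hG : ∀ c : k, ∀ h : (c • z) * (c • z) = 0, unitOfSq (c • z) h ∈ G) :
    Module.finrank k (LinearMap.range x) ≤ Module.finrank k (LinearMap.range z) := by
  obtain ⟨σ, hσ, rfl⟩ := hx
  have := hσ.2 _ (unit_mem_quadratic hz h0 hG)
  unfold commutatorRank at this
  have e : ((unitOfSq z hz : GLm) : End') - 1 = z := by simp
  rw [e] at this
  exact this

lemma QR.of_rank {x z : End'} (hx : QR G x) (hz : z * z = 0) (h0 : z ≠ 0)
    (hG : ∀ c : k, ∀ h : (c • z) * (c • z) = 0, unitOfSq (c • z) h ∈ G)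
    (hr : Module.finrank k (LinearMap.range z) ≤ Module.finrank k (LinearMap.range x)) : QR G z := by
  obtain ⟨σ, hσ, rfl⟩ := hx
  refine ⟨unitOfSq z hz, ⟨unit_mem_quadratic hz h0 hG, ?_⟩, by simp [dx]⟩
  intro ρ hρ
  have h1 := hσ.2 ρ hρ
  unfold commutatorRank at h1 ⊢
  have e : ((unitOfSq z hz : GLm) : End') - 1 = z := by simp
  rw [e]
  exact hr.trans h1

lemma QR.smul {x : End'} (hx : QR G x) {c : k} (hc : c ≠ 0) : QR G (c • x) := by
  refine hx.of_rank (smul_sq hx.sq c) (smul_ne_zero hc hx.ne_zero) ?_ ?_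
  · intro c' h
    have := hx.mem_G (c' * c) (smul_sq hx.sq _)
    convert this using 1
    apply Units.ext
    simp [mul_smul]
  · rw [LinearMap.range_smul _ _ hc]

/-- Conjugate by a unit, as an operator. -/
def cj (g : GLm) (x : End') : End' := (g : End') * x * ((g⁻¹ : GLm) : End')

lemma cj_mul (g : GLm) (x y : End') : cj g (x * y) = cj g x * cj g y := by
  unfold cj
  have : ((g⁻¹ : GLm) : End') * (g : End') = 1 := by
    rw [← Units.val_mul]; simp
  calc (g : End') * (x * y) * ((g⁻¹ : GLm) : End')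
      = (g : End') * x * (((g⁻¹ : GLm) : End') * (g : End')) * y * ((g⁻¹ : GLm) : End') := by
        rw [this]; noncomm_ring
    _ = _ := by noncomm_ring

lemma cj_add (g : GLm) (x y : End') : cj g (x + y) = cj g x + cj g y := by
  unfold cj; noncomm_ring

lemma cj_sub (g : GLm) (x y : End') : cj g (x - y) = cj g x - cj g y := by
  unfold cj; noncomm_ring

lemma cj_zero (g : GLm) : cj g 0 = 0 := by
  unfold cj; simp

lemma cj_one (g : GLm) : cj g 1 = 1 := by
  unfold cj
  rw [mul_one, ← Units.val_mul]; simp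

lemma cj_smul (g : GLm) (c : k) (x : End') : cj g (c • x) = c • cj g x := by
  unfold cj
  rw [mul_smul_comm, smul_mul_assoc]

lemma cj_cj (g h : GLm) (x : End') : cj g (cj h x) = cj (g * h) x := by
  unfold cj
  rw [mul_inv_rev, Units.val_mul, Units.val_mul]
  noncomm_ring

lemma cj_inv_cj (g : GLm) (x : End') : cj g⁻¹ (cj g x) = x := by
  rw [cj_cj]
  simp [cj]

lemma cj_cj_inv (g : GLm) (x : End') : cj g (cj g⁻¹ x) = x := by
  rw [cj_cj]
  simp [cj]

lemma cj_ne_zero (g : GLm) {x : End'} (hx : x ≠ 0) : cj g x ≠ 0 := by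
  intro h
  apply hx
  rw [← cj_inv_cj g x, h, cj_zero]

lemma cj_apply (g : GLm) (x : End') (v : M) :
    cj g x v = (g : End') (x (((g⁻¹ : GLm) : End') v)) := rfl

lemma inv_apply_apply (g : GLm) (v : M) : ((g⁻¹ : GLm) : End') ((g : End') v) = v := by
  have : ((g⁻¹ : GLm) : End') * (g : End') = 1 := by
    rw [← Units.val_mul]; simp
  exact congrArg (fun f : End' => f v) this

lemma apply_inv_apply (g : GLm) (v : M) : (g : End') (((g⁻¹ : GLm) : End') v) = v := by
  have : (g : End') * ((g⁻¹ : GLm) : End') = 1 := by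
    rw [← Units.val_mul]; simp
  exact congrArg (fun f : End' => f v) this

lemma range_cj (g : GLm) (x : End') :
    LinearMap.range (cj g x) = (LinearMap.range x).map (g : End') := by
  ext v
  constructor
  · rintro ⟨w, rfl⟩
    exact ⟨x (((g⁻¹ : GLm) : End') w), LinearMap.mem_range_self _ _, rfl⟩
  · rintro ⟨_, ⟨w, rfl⟩, rfl⟩
    refine ⟨(g : End') w, ?_⟩
    rw [cj_apply, inv_apply_apply]

lemma ker_cj (g : GLm) (x : End') :
    LinearMap.ker (cj g x) = (LinearMap.ker x).map (g : End') := by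
  ext v
  constructor
  · intro hv
    refine ⟨((g⁻¹ : GLm) : End') v, ?_, apply_inv_apply g v⟩
    have h1 : (g : End') (x (((g⁻¹ : GLm) : End') v)) = 0 := hv
    have h2 := inv_apply_apply g (x (((g⁻¹ : GLm) : End') v))
    rw [h1, map_zero] at h2
    exact h2.symm
  · rintro ⟨w, hw, rfl⟩
    show cj g x _ = 0
    rw [cj_apply, inv_apply_apply]
    have : x w = 0 := hw
    rw [this, map_zero]

lemma finrank_map_unit (g : GLm) (S : Submodule k M) :
    Module.finrank k (S.map (g : End')) = Module.finrank k S := by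
  let e : M ≃ₗ[k] M := LinearMap.GeneralLinearGroup.generalLinearEquiv k M g
  have : S.map (g : End') = S.map (e : M →ₗ[k] M) := rfl
  rw [this]
  exact LinearEquiv.finrank_map_eq e S

lemma unit_cj (g : GLm) {x : End'} (hx : x * x = 0) (h : cj g x * cj g x = 0) :
    unitOfSq (cj g x) h = g * unitOfSq x hx * g⁻¹ := by
  apply Units.ext
  rw [unitOfSq_coe, Units.val_mul, Units.val_mul, unitOfSq_coe]
  have : (g : End') * ((g⁻¹ : GLm) : End') = 1 := by
    rw [← Units.val_mul]; simp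
  unfold cj
  calc 1 + (g : End') * x * ((g⁻¹ : GLm) : End')
      = (g : End') * ((g⁻¹ : GLm) : End') + (g : End') * x * ((g⁻¹ : GLm) : End') := by rw [this]
    _ = _ := by noncomm_ring

lemma QR.conj_mem {x : End'} (hx : QR G x) {g : GLm} (hg : g ∈ G) : QR G (cj g x) := by
  have hsq : cj g x * cj g x = 0 := by
    rw [← cj_mul, hx.sq, cj_zero]
  refine hx.of_rank hsq (cj_ne_zero g hx.ne_zero) ?_ ?_
  · intro c h
    have h' : cj g (c • x) * cj g (c • x) = 0 := by rw [cj_smul]; exact h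
    have e : unitOfSq (c • cj g x) h = unitOfSq (cj g (c • x)) h' :=
      Units.ext (by simp [cj_smul])
    rw [e, unit_cj g (smul_sq hx.sq c) h']
    exact G.mul_mem (G.mul_mem hg (hx.mem_G c _)) (G.inv_mem hg)
  · rw [range_cj, finrank_map_unit]

section fd

variable [FiniteDimensional k M]

/-- The subspace of operators with the same kernel and range as `x₀`, in `QR`. -/
def LE (G : Subgroup GLm) (x₀ : End') (h₀ : QR G x₀) : Submodule k End' where
  carrier := {z | z = 0 ∨ (QR G z ∧ LinearMap.ker z = LinearMap.ker x₀ ∧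
    LinearMap.range z = LinearMap.range x₀)}
  zero_mem' := Or.inl rfl
  add_mem' := by
    rintro a b (rfl | ⟨ha, ha1, ha2⟩) (rfl | ⟨hb, hb1, hb2⟩)
    · simp
    · rw [zero_add]; exact Or.inr ⟨hb, hb1, hb2⟩
    · rw [add_zero]; exact Or.inr ⟨ha, ha1, ha2⟩
    · obtain ⟨σ, hσ, rfl⟩ := h₀
      obtain ⟨τ, hτ, rfl⟩ := ha
      obtain ⟨τ', hτ', rfl⟩ := hb
      have h1 : τ ∈ sameActionClass G σ := ⟨hτ, ha1, ha2⟩
      have h2 : τ' ∈ sameActionClass G σ := ⟨hτ', hb1, hb2⟩
      have hprod : dx (τ * τ') = dx τ + dx τ' := by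
        have h01 : dx τ * dx τ' = 0 := same_mul_zero hσ.1.2.1 ha1 hb2
        have e1 : (τ : End') = 1 + dx τ := coe_eq τ
        have e2 : (τ' : End') = 1 + dx τ' := coe_eq τ'
        unfold dx at h01 ⊢
        rw [Units.val_mul]
        have key : ∀ u u' : End', (1 + u) * (1 + u') - 1 = u + u' + u * u' := fun u u' => by
          noncomm_ring
        have := key (dx τ) (dx τ')
        rw [← e1, ← e2] at this
        rw [this]
        unfold dx
        rw [h01, add_zero]
      rcases class_mul hσ h1 h2 with h3 | h3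
      · right
        rw [← hprod]
        exact ⟨⟨_, h3.1, rfl⟩, h3.2.1, h3.2.2⟩
      · left
        rw [← hprod, Set.mem_singleton_iff.mp h3]
        simp [dx]
  smul_mem' := by
    rintro c a (rfl | ⟨ha, ha1, ha2⟩)
    · left; simp
    · by_cases hc : c = 0
      · left; simp [hc]
      · right
        refine ⟨ha.smul hc, ?_, ?_⟩
        · rw [LinearMap.ker_smul _ _ hc, ha1]
        · rw [LinearMap.range_smul _ _ hc, ha2]

lemma mem_LE {x₀ : End'} {h₀ : QR G x₀} {z : End'} : z ∈ LE G x₀ h₀ ↔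
    z = 0 ∨ (QR G z ∧ LinearMap.ker z = LinearMap.ker x₀ ∧ LinearMap.range z = LinearMap.range x₀) :=
  Iff.rfl

lemma self_mem_LE {x₀ : End'} (h₀ : QR G x₀) : x₀ ∈ LE G x₀ h₀ := Or.inr ⟨h₀, rfl, rfl⟩

/-- Membership in `E(σ)` in terms of `LE`. -/
lemma mem_E_iff {σ : GLm} (hσ : σ ∈ minimalQuadraticElements G) {g : GLm} :
    g ∈ sameActionSubgroup G σ ↔ dx g ∈ LE G (dx σ) (qr_of_mem hσ) := by
  have hset := (s5059_main hσ).1
  have h1 : g ∈ sameActionSubgroup G σ ↔ g ∈ sameActionClass G σ ∪ {1} := by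
    rw [← hset]; rfl
  rw [h1, mem_LE]
  constructor
  · rintro (h | h)
    · exact Or.inr ⟨qr_of_mem h.1, h.2.1, h.2.2⟩
    · left
      rw [Set.mem_singleton_iff.mp h]
      simp [dx]
  · rintro (h | ⟨h, h2, h3⟩)
    · right
      rw [Set.mem_singleton_iff]
      apply Units.ext
      have : (g : End') = 1 + dx g := coe_eq g
      rw [this, h]
      simp
    · left
      obtain ⟨τ, hτ, hτe⟩ := h
      have : τ = g := by
        apply Units.ext
        have e1 : (g : End') = 1 + dx g := coe_eq g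
        have e2 : (τ : End') = 1 + dx τ := coe_eq τ
        rw [e1, e2, hτe]
      subst this
      exact ⟨hτ, h2, h3⟩

/-- `1 + z ∈ E(σ)` for `z ∈ LE`. -/
lemma unit_mem_E {σ : GLm} (hσ : σ ∈ minimalQuadraticElements G) {z : End'}
    (hz : z ∈ LE G (dx σ) (qr_of_mem hσ)) (h : z * z = 0) : unitOfSq z h ∈ sameActionSubgroup G σ := by
  rw [mem_E_iff hσ]
  have : dx (unitOfSq z h) = z := by simp [dx]
  rw [this]
  exact hz

/-- Elements of `LE` have square zero, and all products vanish. -/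
lemma LE_mul_zero {x₀ : End'} {h₀ : QR G x₀} {a b : End'} (ha : a ∈ LE G x₀ h₀) (hb : b ∈ LE G x₀ h₀) :
    a * b = 0 := by
  rcases ha with rfl | ⟨ha, ha1, ha2⟩
  · simp
  rcases hb with rfl | ⟨hb, hb1, hb2⟩
  · simp
  ext v
  have h1 : b v ∈ LinearMap.range x₀ := by
    rw [← hb2]; exact LinearMap.mem_range_self _ _
  have h2 : b v ∈ LinearMap.ker x₀ := by
    obtain ⟨w, hw⟩ := h1
    rw [LinearMap.mem_ker, ← hw]
    have := congrArg (fun f : End' => f w) h₀.sq
    simpa using this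
  rw [← ha1] at h2
  simpa using h2

omit [FiniteDimensional k M] in
/-- The generator `σ` defined by an element of `QR`. -/
lemma E_eq_of_same {σ τ : GLm} (hτ : τ ∈ sameActionClass G σ) :
    sameActionSubgroup G τ = sameActionSubgroup G σ := by
  unfold sameActionSubgroup
  congr 1
  ext ρ
  constructor
  · rintro ⟨h1, h2, h3⟩
    exact ⟨h1, h2.trans hτ.2.1, h3.trans hτ.2.2⟩
  · rintro ⟨h1, h2, h3⟩
    exact ⟨h1, h2.trans hτ.2.1.symm, h3.trans hτ.2.2.symm⟩

omit [FiniteDimensional k M] in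
/-- Conjugation of `E(σ)`. -/
lemma conj_E {σ : GLm} (hσ : σ ∈ minimalQuadraticElements G) {g : GLm} (hg : g ∈ G) :
    conjBy (sameActionSubgroup G σ) g = sameActionSubgroup G (g * σ * g⁻¹) := by
  have hdx : dx (g * σ * g⁻¹) = cj g (dx σ) := by
    unfold dx cj
    have : (g : End') * ((g⁻¹ : GLm) : End') = 1 := by
      rw [← Units.val_mul]; simp
    rw [Units.val_mul, Units.val_mul, mul_sub, sub_mul, mul_one, this]
  have hmem : g * σ * g⁻¹ ∈ minimalQuadraticElements G := by
    obtain ⟨ρ, hρ, hρe⟩ := (qr_of_mem hσ).conj_mem hg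
    have : ρ = g * σ * g⁻¹ := by
      apply Units.ext
      have e1 : (ρ : End') = 1 + dx ρ := coe_eq ρ
      have e2 : ((g * σ * g⁻¹ : GLm) : End') = 1 + dx (g * σ * g⁻¹) := coe_eq _
      rw [e1, e2, hρe, hdx]
    rwa [← this]
  -- transport by hand
  have key : ∀ (h : GLm) (τ : GLm), h ∈ G → τ ∈ minimalQuadraticElements G →
      conjBy (sameActionSubgroup G τ) h ≤ sameActionSubgroup G (h * τ * h⁻¹) := by
    intro h τ hh hτ
    unfold sameActionSubgroup conjBy
    rw [MonoidHom.map_closure, Subgroup.closure_le]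
    rintro _ ⟨ρ, hρ, rfl⟩
    apply Subgroup.subset_closure
    have hρ' : ρ ∈ minimalQuadraticElements G := hρ.1
    have hdxρ : dx ((MulAut.conj h).toMonoidHom ρ) = cj h (dx ρ) := by
      show dx (h * ρ * h⁻¹) = _
      unfold dx cj
      have : (h : End') * ((h⁻¹ : GLm) : End') = 1 := by
        rw [← Units.val_mul]; simp
      rw [Units.val_mul, Units.val_mul, mul_sub, sub_mul, mul_one, this]
    have hdxτ : dx (h * τ * h⁻¹) = cj h (dx τ) := by
      unfold dx cj
      have : (h : End') * ((h⁻¹ : GLm) : End') = 1 := by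
        rw [← Units.val_mul]; simp
      rw [Units.val_mul, Units.val_mul, mul_sub, sub_mul, mul_one, this]
    refine ⟨?_, ?_, ?_⟩
    · obtain ⟨ρ', hρ'm, hρ'e⟩ := (qr_of_mem hρ').conj_mem hh
      have : ρ' = (MulAut.conj h).toMonoidHom ρ := by
        apply Units.ext
        have e1 : (ρ' : End') = 1 + dx ρ' := coe_eq ρ'
        have e2 : (((MulAut.conj h).toMonoidHom ρ : GLm) : End') =
          1 + dx ((MulAut.conj h).toMonoidHom ρ) := coe_eq _
        rw [e1, e2, hρ'e, hdxρ]
      rwa [← this]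
    · show LinearMap.ker (dx _) = LinearMap.ker (dx _)
      rw [hdxρ, hdxτ, ker_cj, ker_cj, hρ.2.1]
    · show LinearMap.range (dx _) = LinearMap.range (dx _)
      rw [hdxρ, hdxτ, range_cj, range_cj, hρ.2.2]
  apply le_antisymm (key g σ hg hσ)
  have h2 := key g⁻¹ _ (G.inv_mem hg) hmem
  have e : g⁻¹ * (g * σ * g⁻¹) * g⁻¹⁻¹ = σ := by group
  rw [e] at h2
  intro y hy
  have h3 := h2 ⟨y, hy, rfl⟩
  refine ⟨_, h3, ?_⟩
  show g * (g⁻¹ * y * g⁻¹⁻¹) * g⁻¹ = y
  group

end fd

end Cfsg.Agent.Lib.QPH39
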