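import Cfsg.Agent.Lib.QPH39Class2
import Cfsg.Agent.RootSub.Unip

/-! Equality of the dimensions of the root groups in a non-commuting pair of unipotent type. -/

set_option autoImplicit false

namespace Cfsg.Agent.Lib.QPH39

open Cfsg Cfsg.Agent.RootSub

variable {k : Type*} [Field k] {M : Type*} [AddCommGroup M] [Module k M]

local notation "GLm" => LinearMap.GeneralLinearGroup k M
local notation "End'" => (M →ₗ[k] M)

variable {G : Subgroup (LinearMap.GeneralLinearGroup k M)}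

lemma cj_unit (x z : M →ₗ[k] M) (h : x * x = 0) :
    cj (unitOfSq x h) z = z + x * z - z * x - x * z * x := by
  show (1 + x) * z * (1 - x) = _
  noncomm_ring

lemma TU.conj {a b : M →ₗ[k] M} (h : TU a b) (g : GLm) : TU (cj g a) (cj g b) := by
  constructor
  · rw [← cj_mul, ← cj_mul, h.1, cj_zero]
  · rw [← cj_mul, ← cj_mul, h.2, cj_zero]

/-- The element `x' y' x'` does not vanish when `x` has a partner. -/
lemma mul_ne_of_partner {x y t x' y' : M →ₗ[k] M} (hp : Partner G x y t)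
    (hx1 : LinearMap.ker x' = LinearMap.ker x) (hx2 : LinearMap.range x' = LinearMap.range x)
    (hy1 : LinearMap.ker y' = LinearMap.ker y) (hy2 : LinearMap.range y' = LinearMap.range y)
    (hx0 : x' ≠ 0) : x' * y' * x' ≠ 0 := by
  obtain ⟨ht, ht1, ht2, hrp⟩ := hp
  intro h1
  apply hx0
  ext v
  have h3 : y' (x' v) ∈ LinearMap.range t ⊓ LinearMap.ker x := by
    refine Submodule.mem_inf.mpr ⟨?_, ?_⟩
    · rw [ht2, ← hy2]; exact LinearMap.mem_range_self _ _
    · rw [← hx1, LinearMap.mem_ker]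
      exact congrArg (fun f : End' => f v) h1
  rw [hrp.ker_inf_range, Submodule.mem_bot] at h3
  have h4 : x' v ∈ LinearMap.range x ⊓ LinearMap.ker t := by
    refine Submodule.mem_inf.mpr ⟨?_, ?_⟩
    · rw [← hx2]; exact LinearMap.mem_range_self _ _
    · rw [ht1, ← hy1]; exact h3
  rw [hrp.range_inf_ker, Submodule.mem_bot] at h4
  exact h4

section fd

variable [FiniteDimensional k M]

/-- Conjugation transports the classes. -/
lemma finrank_LE_le_of_conj {u v : M →ₗ[k] M} (hu : QR G u) (hv : QR G v) {g : GLm} (hg : g ∈ G)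
    (h1 : LinearMap.ker (cj g u) = LinearMap.ker v) (h2 : LinearMap.range (cj g u) = LinearMap.range v) :
    Module.finrank k (LE G u hu) ≤ Module.finrank k (LE G v hv) := by
  let f : LE G u hu →ₗ[k] LE G v hv :=
    { toFun := fun z => ⟨cj g z.1, by
        by_cases h0 : z.1 = 0
        · rw [h0, cj_zero]
          exact Submodule.zero_mem _
        · obtain ⟨hz1, hz2, hz3⟩ := C2.cl_of_mem z.2 h0
          refine Or.inr ⟨hz1.conj_mem hg, ?_, ?_⟩
          · rw [ker_cj, hz2, ← ker_cj, h1]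
          · rw [range_cj, hz3, ← range_cj, h2]⟩
      map_add' := fun a b => Subtype.ext (cj_add g a.1 b.1)
      map_smul' := fun c a => Subtype.ext (cj_smul g c a.1) }
  apply LinearMap.finrank_le_finrank_of_injective (f := f)
  rw [← LinearMap.ker_eq_bot, eq_bot_iff]
  intro z hz
  have h3 : cj g z.1 = 0 := congrArg Subtype.val (LinearMap.mem_ker.mp hz)
  rw [Submodule.mem_bot]
  apply Subtype.ext
  by_contra h0
  exact cj_ne_zero g h0 h3

lemma RP.W_mem {x t : M →ₗ[k] M} (hx : QR G x) (ht : QR G t) (h : RP x t) : h.W ∈ G := by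
  rw [h.W_eq]
  have h1 := (hx.unit_mem h.xx).1.1
  have h2 := (ht.unit_mem h.tt).1.1
  exact mul_mem (mul_mem h1 (inv_mem h2)) h1

/-- Partners have the same dimension of root group. -/
lemma finrank_LE_eq_of_partner {x y t : M →ₗ[k] M} (hx : QR G x) (hy : QR G y) (hp : Partner G x y t) :
    Module.finrank k (LE G x hx) = Module.finrank k (LE G y hy) := by
  obtain ⟨ht, ht1, ht2, hrp⟩ := hp
  have hW := hrp.W_mem hx ht
  have e1 : cj hrp.W x = -t := hrp.w_x
  have e2 : cj hrp.W t = -x := hrp.w_t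
  apply le_antisymm
  · refine finrank_LE_le_of_conj hx hy hW ?_ ?_
    · rw [e1, LinearMap.ker_neg, ht1]
    · rw [e1, LinearMap.range_neg, ht2]
  · refine finrank_LE_le_of_conj hy hx hW ?_ ?_
    · rw [ker_cj, ← ht1, ← ker_cj, e2, LinearMap.ker_neg]
    · rw [range_cj, ← ht2, ← range_cj, e2, LinearMap.range_neg]

omit [FiniteDimensional k M] in
lemma E_le_G {σ : GLm} : sameActionSubgroup G σ ≤ G := by
  unfold sameActionSubgroup
  rw [Subgroup.closure_le]
  intro τ hτ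
  exact hτ.1.1.1

/-- In an irreducible group every root subgroup has a partner of non-unipotent type. -/
lemma exists_R_partner (hDI : DI G) (hIrr : IsIrreducibleFor G) {σ : GLm}
    (hσ : σ ∈ minimalQuadraticElements G) : ∃ ρ ∈ minimalQuadraticElements G, ¬ TU (dx σ) (dx ρ) := by
  by_contra hcon
  push Not at hcon
  -- all conjugates
  have hpair : ∀ g ∈ G, ∀ h ∈ G, IsUnipotentOn (sameActionSubgroup G (g * σ * g⁻¹) ⊔
      sameActionSubgroup G (h * σ * h⁻¹)) := by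
    intro g hg h hh
    have h1 := conj_mem_min hσ hg
    have h2 := conj_mem_min hσ hh
    apply unip_of_TU h1 h2
    rcases dichotomy hDI (qr_of_mem h1) (qr_of_mem h2) with h3 | h3
    · exact h3
    · exfalso
      obtain ⟨t, ht⟩ := h3 _ (self_mem_LE (qr_of_mem h1)) (qr_of_mem h1).ne_zero
      apply not_TU_of_partner ht rfl rfl rfl rfl (qr_of_mem h1).ne_zero
      have h4 := conj_mem_min h2 (G.inv_mem hg)
      have h5 := (hcon _ h4).conj g
      rw [dx_conj, cj_cj] at h5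
      have e1 : cj (g * g⁻¹) (dx (h * σ * h⁻¹)) = dx (h * σ * h⁻¹) := by
        rw [mul_inv_cancel]
        simp [cj]
      rw [e1] at h5
      rw [dx_conj g σ]
      exact h5
  let W : Set (Subgroup GLm) := {A | ∃ g ∈ G, A = sameActionSubgroup G (g * σ * g⁻¹)}
  have hWG : ∀ A ∈ W, A ≤ G := by
    rintro A ⟨g, _, rfl⟩
    exact E_le_G
  have hWW : ∀ A ∈ W, ∀ B ∈ W, IsUnipotentOn (A ⊔ B) := by
    rintro A ⟨g, hg, rfl⟩ B ⟨h, hh, rfl⟩
    exact hpair g hg h hh
  have hWconj : ∀ A ∈ W, ∀ g ∈ G, conjBy A g ∈ W := by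
    rintro A ⟨h, hh, rfl⟩ g hg
    refine ⟨g * h, mul_mem hg hh, ?_⟩
    rw [conj_E (conj_mem_min hσ hh) hg]
    have e : g * (h * σ * h⁻¹) * g⁻¹ = g * h * σ * (g * h)⁻¹ := by
      simp [mul_inv_rev, mul_assoc]
    rw [e]
  obtain ⟨hN1, hN2⟩ := s5061_main hWG hWW hWconj
  set N : Subgroup GLm := ⨆ A ∈ W, A with hN
  have hσN : σ ∈ N := by
    have h1 : sameActionSubgroup G σ ∈ W := ⟨1, G.one_mem, by simp⟩
    have h2 : sameActionSubgroup G σ ≤ N := le_iSup₂_of_le _ h1 le_rfl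
    exact h2 (Subgroup.subset_closure ⟨hσ, rfl, rfl⟩)
  -- fixed vectors
  obtain ⟨m₀, hm₀⟩ := hIrr.1
  have hbot : ¬ (⊤ : Submodule k M) ≤ ⊥ := by
    intro h
    exact hm₀ (by simpa using h (Submodule.mem_top (x := m₀)))
  obtain ⟨v, -, hv, hvfix⟩ := exists_step hN1 ⊤ ⊥ (fun _ _ _ _ => trivial) hbot
  let C : Submodule k M := fixedSubmodule N
  have hC : ∀ w, w ∈ C ↔ ∀ h ∈ N, (h : End') w = w := by
    intro w
    simp only [C, fixedSubmodule, Submodule.mem_iInf, LinearMap.mem_ker]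
    constructor
    · intro h1 h hh
      have := h1 h hh
      exact sub_eq_zero.mp this
    · intro h1 h hh
      show (h : End') w - w = 0
      rw [h1 h hh, sub_self]
  have hvC : v ∈ C := by
    rw [hC]
    intro h hh
    have := hvfix h hh
    rw [Submodule.mem_bot] at this
    exact sub_eq_zero.mp this
  have hinv : ∀ g ∈ G, ∀ w ∈ C, (g : End') w ∈ C := by
    intro g hg w hw
    rw [hC] at hw ⊢
    intro h hh
    have h1 : g⁻¹ * h * g ∈ N := by
      have h2 := hN2 g⁻¹ (G.inv_mem hg)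
      have h3 : (MulAut.conj g⁻¹).toMonoidHom h ∈ conjBy N g⁻¹ := ⟨h, hh, rfl⟩
      rw [h2] at h3
      have e : (MulAut.conj g⁻¹).toMonoidHom h = g⁻¹ * h * g := by
        simp [MulAut.conj_apply]
      rwa [e] at h3
    have h4 := hw _ h1
    have e : (h : End') ((g : End') w) = (g : End') (((g⁻¹ * h * g : GLm) : End') w) := by
      show _ = (g : End') (((g⁻¹ : GLm) : End') ((h : End') ((g : End') w)))
      rw [apply_inv_apply]
    rw [e, h4]
  rcases hIrr.2 C hinv with h0 | h0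
  · rw [h0, Submodule.mem_bot] at hvC
    exact hv (by rw [hvC]; exact Submodule.zero_mem _)
  · apply hσ.1.2.1.2
    ext w
    have : w ∈ C := by rw [h0]; trivial
    rw [hC] at this
    show (σ : End') w - w = 0
    rw [this σ hσN, sub_self]

omit [FiniteDimensional k M] in
/-- Triple step. -/
lemma step_conj {u p r : M →ₗ[k] M} (g : GLm) {c : k} (hc : c ≠ 0) (hg : cj g u = u + c • p)
    (hu : r * u * r = 0) (hp : r * p * r ≠ 0) : cj g⁻¹ r * u * cj g⁻¹ r ≠ 0 := by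
  have e : cj g⁻¹ r * u * cj g⁻¹ r = cj g⁻¹ (r * cj g u * r) := by
    rw [cj_mul, cj_mul, cj_inv_cj]
  rw [e, hg]
  apply cj_ne_zero
  have e2 : r * (u + c • p) * r = r * u * r + c • (r * p * r) := by
    simp only [mul_add, add_mul, mul_smul_comm, smul_mul_assoc]
  rw [e2, hu, zero_add]
  exact smul_ne_zero hc hp

omit [FiniteDimensional k M] in
lemma step_keep {w r : M →ₗ[k] M} (g : GLm) (hg : cj g w = w) (hw : r * w * r ≠ 0) :
    cj g⁻¹ r * w * cj g⁻¹ r ≠ 0 := by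
  have e : cj g⁻¹ r * w * cj g⁻¹ r = cj g⁻¹ (r * cj g w * r) := by
    rw [cj_mul, cj_mul, cj_inv_cj]
  rw [e, hg]
  exact cj_ne_zero _ hw

/-- The dimensions of the three root groups of a non-commuting pair of unipotent type coincide. -/
theorem C2.finrank_eq (hDI : DI G) (hIrr : IsIrreducibleFor G) {x₀ y₀ : M →ₗ[k] M} (H : C2 G x₀ y₀) :
    Module.finrank k (LE G x₀ H.hx) = Module.finrank k (LE G (Dop x₀ y₀) H.qr_D₀) ∧
    Module.finrank k (LE G y₀ H.hy) = Module.finrank k (LE G (Dop x₀ y₀) H.qr_D₀) := by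
  set D₀ := Dop x₀ y₀ with hD₀
  have hq := H.qr_D₀
  have hxx := H.hx.sq
  have hyy := H.hy.sq
  have hU := H.tu_self
  -- a partner for `D₀`
  obtain ⟨r₀, hr₀, hr₀'⟩ : ∃ r, QR G r ∧ r * D₀ * r ≠ 0 := by
    have hm := hq.unit_mem hq.sq
    obtain ⟨ρ, hρ, hn⟩ := exists_R_partner hDI hIrr hm
    have e : dx (unitOfSq D₀ hq.sq) = D₀ := by simp [dx]
    rw [e] at hn
    refine ⟨dx ρ, qr_of_mem hρ, ?_⟩
    rcases hDI (dx ρ) D₀ (qr_of_mem hρ) hq with h1 | h1
    · exact absurd h1.symm hn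
    · obtain ⟨t, ht⟩ := h1
      exact mul_ne_of_partner ht rfl rfl rfl rfl (qr_of_mem hρ).ne_zero
  -- commutation facts
  have hxD : x₀ * D₀ = 0 ∧ D₀ * x₀ = 0 := by
    constructor
    · simp only [hD₀, Dop, mul_sub]
      rw [← mul_assoc, hxx, zero_mul, ← mul_assoc, hU.1, sub_self]
    · simp only [hD₀, Dop, sub_mul]
      rw [hU.1, mul_assoc, hxx, mul_zero, sub_self]
  have hyD : y₀ * D₀ = 0 ∧ D₀ * y₀ = 0 := by
    constructor
    · simp only [hD₀, Dop, mul_sub]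
      rw [← mul_assoc, hU.2, ← mul_assoc, hyy, zero_mul, sub_self]
    · simp only [hD₀, Dop, sub_mul]
      rw [mul_assoc, hyy, mul_zero, hU.2, sub_self]
  set gx := unitOfSq x₀ hxx with hgx
  set gy := unitOfSq y₀ hyy with hgy
  have hgxG : gx ∈ G := (H.hx.unit_mem hxx).1.1
  have hgyG : gy ∈ G := (H.hy.unit_mem hyy).1.1
  have cxD : cj gx D₀ = D₀ := by
    rw [hgx, cj_unit, hxD.1, hxD.2]
    simp [mul_assoc, hxD.2]
  have cyD : cj gy D₀ = D₀ := by
    rw [hgy, cj_unit, hyD.1, hyD.2]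
    simp [mul_assoc, hyD.2]
  have cxy : cj gx y₀ = y₀ + (1 : k) • D₀ := by
    rw [hgx, cj_unit, hU.1, one_smul, hD₀, Dop]
    abel
  have cyx : cj gy x₀ = x₀ + (-1 : k) • D₀ := by
    rw [hgy, cj_unit, hU.2, neg_one_smul, hD₀, Dop]
    abel
  have cyy : cj gy y₀ = y₀ := by
    rw [hgy, cj_unit, hyy]
    simp [mul_assoc, hyy]
  -- first step
  obtain ⟨r₁, hr₁, hr₁D, hr₁y⟩ : ∃ r, QR G r ∧ r * D₀ * r ≠ 0 ∧ r * y₀ * r ≠ 0 := by
    by_cases h : r₀ * y₀ * r₀ = 0
    · exact ⟨cj gx⁻¹ r₀, hr₀.conj_mem (inv_mem hgxG), step_keep gx cxD hr₀',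
        step_conj gx one_ne_zero cxy h hr₀'⟩
    · exact ⟨r₀, hr₀, hr₀', h⟩
  -- second step
  obtain ⟨r₂, hr₂, hr₂D, hr₂y, hr₂x⟩ : ∃ r, QR G r ∧ r * D₀ * r ≠ 0 ∧ r * y₀ * r ≠ 0 ∧ r * x₀ * r ≠ 0 := by
    by_cases h : r₁ * x₀ * r₁ = 0
    · exact ⟨cj gy⁻¹ r₁, hr₁.conj_mem (inv_mem hgyG), step_keep gy cyD hr₁D,
        step_keep gy cyy hr₁y, step_conj gy (neg_ne_zero.mpr one_ne_zero) cyx h hr₁D⟩
    · exact ⟨r₁, hr₁, hr₁D, hr₁y, h⟩
  have hfin : ∀ u (hu : QR G u), r₂ * u * r₂ ≠ 0 →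
      Module.finrank k (LE G r₂ hr₂) = Module.finrank k (LE G u hu) := by
    intro u hu hne
    rcases hDI r₂ u hr₂ hu with h1 | ⟨t, ht⟩
    · exact absurd h1.1 hne
    · exact finrank_LE_eq_of_partner hr₂ hu ht
  have h1 := hfin x₀ H.hx hr₂x
  have h3 := hfin y₀ H.hy hr₂y
  have h4 := hfin D₀ hq hr₂D
  exact ⟨h1.symm.trans h4, h3.symm.trans h4⟩

end fd

end Cfsg.Agent.Lib.QPH39
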