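import Cfsg.Agent.Lib.QPH39Core

/-! Algebra of the two kinds of pairs of square-zero operators: `RP x t` (`x t x = x`, `t x t = t`)
and the relations in the unipotent case. -/

set_option autoImplicit false

namespace Cfsg.Agent.Lib.QPH39

open Cfsg Cfsg.Agent.RootSub

section ring

variable {A : Type*} [Ring A]

/-- A rank one pair of operators: `x`, `t` generate a matrix algebra. -/
structure RP (x t : A) : Prop where
  xx : x * x = 0
  tt : t * t = 0
  xtx : x * t * x = x
  txt : t * x * t = t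

variable {x t : A}

lemma RP.symm (h : RP x t) : RP t x := ⟨h.tt, h.xx, h.txt, h.xtx⟩

lemma RP.xx' (h : RP x t) (z : A) : x * (x * z) = 0 := by rw [← mul_assoc, h.xx, zero_mul]
lemma RP.tt' (h : RP x t) (z : A) : t * (t * z) = 0 := by rw [← mul_assoc, h.tt, zero_mul]
lemma RP.xtx1 (h : RP x t) : x * (t * x) = x := by rw [← mul_assoc, h.xtx]
lemma RP.txt1 (h : RP x t) : t * (x * t) = t := by rw [← mul_assoc, h.txt]
lemma RP.xtx' (h : RP x t) (z : A) : x * (t * (x * z)) = x * z := by
  rw [← mul_assoc, ← mul_assoc, h.xtx]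
lemma RP.txt' (h : RP x t) (z : A) : t * (x * (t * z)) = t * z := by
  rw [← mul_assoc, ← mul_assoc, h.txt]

/-- The projection `π = x t + t x`. -/
def RP.pi (_ : RP x t) : A := x * t + t * x

lemma RP.pi_def (h : RP x t) : h.pi = x * t + t * x := rfl

lemma RP.pi_x (h : RP x t) : h.pi * x = x := by
  simp only [h.pi_def, add_mul, mul_assoc, h.xx, mul_zero, h.xtx1, add_zero]
lemma RP.x_pi (h : RP x t) : x * h.pi = x := by
  simp only [h.pi_def, mul_add, h.xx', h.xtx1, zero_add]
lemma RP.pi_t (h : RP x t) : h.pi * t = t := by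
  simp only [h.pi_def, add_mul, mul_assoc, h.tt, mul_zero, h.txt1, zero_add]
lemma RP.t_pi (h : RP x t) : t * h.pi = t := by
  simp only [h.pi_def, mul_add, h.tt', h.txt1, add_zero]
lemma RP.pi_pi (h : RP x t) : h.pi * h.pi = h.pi := by
  calc h.pi * h.pi = (x * t + t * x) * h.pi := rfl
    _ = x * (t * h.pi) + t * (x * h.pi) := by rw [add_mul, mul_assoc, mul_assoc]
    _ = h.pi := by rw [h.t_pi, h.x_pi]; rfl

/-- The Weyl element. -/
def RP.w (h : RP x t) : A := 1 - h.pi + x - t
/-- The inverse of the Weyl element. -/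
def RP.w' (h : RP x t) : A := 1 - h.pi - x + t

lemma RP.w_def (h : RP x t) : h.w = 1 - h.pi + x - t := rfl
lemma RP.w'_def (h : RP x t) : h.w' = 1 - h.pi - x + t := rfl

lemma RP.w_w' (h : RP x t) : h.w * h.w' = 1 := by
  have e1 := h.pi_pi
  have e2 := h.pi_x
  have e3 := h.pi_t
  have e4 := h.x_pi
  have e5 := h.t_pi
  have e6 := h.xx
  have e7 := h.tt
  have e8 : x * t + t * x = h.pi := rfl
  simp only [h.w_def, h.w'_def, mul_add, add_mul, mul_sub, sub_mul, mul_one, one_mul, e1, e2, e3, e4,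
    e5, e6, e7]
  have e9 : x * t = h.pi - t * x := by rw [← e8]; abel
  rw [e9]
  abel

lemma RP.w'_w (h : RP x t) : h.w' * h.w = 1 := by
  have e1 := h.pi_pi
  have e2 := h.pi_x
  have e3 := h.pi_t
  have e4 := h.x_pi
  have e5 := h.t_pi
  have e6 := h.xx
  have e7 := h.tt
  have e8 : x * t + t * x = h.pi := rfl
  simp only [h.w_def, h.w'_def, mul_add, add_mul, mul_sub, sub_mul, mul_one, one_mul, e1, e2, e3, e4,
    e5, e6, e7]
  have e9 : x * t = h.pi - t * x := by rw [← e8]; abel
  rw [e9]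
  abel

/-- The Weyl element is a product of three elementary elements. -/
lemma RP.w_eq (h : RP x t) : h.w = (1 + x) * (1 - t) * (1 + x) := by
  simp only [h.w_def, h.pi_def, mul_add, add_mul, mul_sub, sub_mul, mul_one, one_mul, h.xx, mul_assoc,
    h.xtx1]
  abel

lemma RP.w_sq (h : RP x t) : h.w * h.w = 1 - (2 : ℤ) • h.pi := by
  have e1 := h.pi_pi
  have e2 := h.pi_x
  have e3 := h.pi_t
  have e4 := h.x_pi
  have e5 := h.t_pi
  have e6 := h.xx
  have e7 := h.tt
  have e8 : t * x = h.pi - x * t := by rw [h.pi_def]; abel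
  simp only [h.w_def, mul_add, add_mul, mul_sub, sub_mul, mul_one, one_mul, e1, e2, e3, e4,
    e5, e6, e7]
  rw [e8, two_smul]
  abel

lemma RP.w_x (h : RP x t) : h.w * x * h.w' = -t := by
  have e1 := h.pi_pi
  have e2 := h.pi_x
  have e3 := h.pi_t
  have e4 := h.x_pi
  have e5 := h.t_pi
  have e6 := h.xx
  have e7 := h.tt
  have e8 := h.txt
  have e9 : t * x * h.pi = t * x := by rw [mul_assoc, e4]
  have e10 : t * x * x = 0 := by rw [mul_assoc, e6, mul_zero]
  simp only [h.w_def, h.w'_def, mul_add, add_mul, mul_sub, sub_mul, mul_one, one_mul, e1, e2, e3, e4,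
    e5, e6, e7, e8, e9, e10, zero_mul, mul_zero]
  abel

lemma RP.w_t (h : RP x t) : h.w * t * h.w' = -x := by
  have e1 := h.pi_pi
  have e2 := h.pi_x
  have e3 := h.pi_t
  have e4 := h.x_pi
  have e5 := h.t_pi
  have e6 := h.xx
  have e7 := h.tt
  have e8 := h.xtx
  have e9 : x * t * h.pi = x * t := by rw [mul_assoc, e5]
  have e10 : x * t * t = 0 := by rw [mul_assoc, e7, mul_zero]
  simp only [h.w_def, h.w'_def, mul_add, add_mul, mul_sub, sub_mul, mul_one, one_mul, e1, e2, e3, e4,
    e5, e6, e7, e8, e9, e10, zero_mul, mul_zero]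
  abel

/-- The special identity at the operator level. -/
lemma RP.special (h : RP x t) : (1 - t) * x * (1 + t) = -((1 - x) * t * (1 + x)) := by
  have e1 := h.xx
  have e2 := h.tt
  have e3 := h.xtx
  have e4 := h.txt
  simp only [mul_add, add_mul, mul_sub, sub_mul, mul_one, one_mul, e1, e2, e3, e4, mul_assoc, h.xtx1,
    h.txt1]
  abel

/-- The commutator `[1 + x, 1 + t]` never commutes with `1 + x`, when `x ≠ 0`. -/
lemma RP.comm_eq_zero (h : RP x t)
    (he : ((1 + x) * (1 + t) * (1 - x) * (1 - t)) * x = x * ((1 + x) * (1 + t) * (1 - x) * (1 - t))) :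
    x = 0 := by
  have hg : (1 + x) * (1 + t) * (1 - x) * (1 - t) = 1 - x - t * x + (x * t + x * t) + t := by
    simp only [mul_add, add_mul, mul_sub, sub_mul, mul_one, one_mul, mul_assoc, h.xx, h.tt, h.xtx1,
      h.txt1, h.xx', h.tt', h.xtx', h.txt', zero_mul, mul_zero]
    abel
  rw [hg] at he
  have h1 : (1 - x - t * x + (x * t + x * t) + t) * x = x + x + x + t * x := by
    simp only [mul_add, add_mul, mul_sub, sub_mul, mul_one, one_mul, mul_assoc, h.xx, h.tt, h.xtx1,
      h.txt1, h.xx', h.tt', h.xtx', h.txt', zero_mul, mul_zero]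
    abel
  have h2 : x * (1 - x - t * x + (x * t + x * t) + t) = x * t := by
    simp only [mul_add, add_mul, mul_sub, sub_mul, mul_one, one_mul, mul_assoc, h.xx, h.tt, h.xtx1,
      h.txt1, h.xx', h.tt', h.xtx', h.txt', zero_mul, mul_zero]
    abel
  rw [h1, h2] at he
  have h3 := congrArg (fun z => z * x) he
  simpa only [add_mul, mul_assoc, h.xx, h.xtx1, mul_zero, zero_mul, add_zero] using h3.symm

end ring

section ops

variable {k : Type*} [Field k] {M : Type*} [AddCommGroup M] [Module k M]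

local notation "End'" => (M →ₗ[k] M)

variable {x t : M →ₗ[k] M}

lemma RP.apply_x (h : RP x t) (v : M) : x (t (x v)) = x v :=
  congrArg (fun f : End' => f v) h.xtx

lemma RP.apply_t (h : RP x t) (v : M) : t (x (t v)) = t v :=
  congrArg (fun f : End' => f v) h.txt

lemma RP.apply_xx (h : RP x t) (v : M) : x (x v) = 0 :=
  congrArg (fun f : End' => f v) h.xx

lemma RP.apply_tt (h : RP x t) (v : M) : t (t v) = 0 :=
  congrArg (fun f : End' => f v) h.tt

lemma RP.pi_apply (h : RP x t) (v : M) : h.pi v = x (t v) + t (x v) := rfl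

lemma RP.ker_pi (h : RP x t) : LinearMap.ker h.pi = LinearMap.ker x ⊓ LinearMap.ker t := by
  ext v
  simp only [LinearMap.mem_ker, Submodule.mem_inf]
  constructor
  · intro hv
    constructor
    · have := congrArg (fun f : End' => f v) h.x_pi
      simp only [Module.End.mul_apply, hv, map_zero] at this
      exact this.symm
    · have := congrArg (fun f : End' => f v) h.t_pi
      simp only [Module.End.mul_apply, hv, map_zero] at this
      exact this.symm
  · rintro ⟨h1, h2⟩
    rw [h.pi_apply, h1, h2]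
    simp

lemma RP.range_pi (h : RP x t) : LinearMap.range h.pi = LinearMap.range x ⊔ LinearMap.range t := by
  apply le_antisymm
  · rintro _ ⟨v, rfl⟩
    exact Submodule.add_mem_sup (LinearMap.mem_range_self _ _) (LinearMap.mem_range_self _ _)
  · apply sup_le
    · rintro _ ⟨v, rfl⟩
      refine ⟨x v, ?_⟩
      exact congrArg (fun f : End' => f v) h.pi_x
    · rintro _ ⟨v, rfl⟩
      refine ⟨t v, ?_⟩
      exact congrArg (fun f : End' => f v) h.pi_t

lemma RP.isCompl (h : RP x t) :
    IsCompl (LinearMap.ker x ⊓ LinearMap.ker t) (LinearMap.range x ⊔ LinearMap.range t) := by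
  rw [← h.ker_pi, ← h.range_pi]
  have hid : ∀ v, h.pi (h.pi v) = h.pi v := fun v =>
    congrArg (fun f : End' => f v) h.pi_pi
  constructor
  · rw [Submodule.disjoint_def]
    rintro v hv ⟨w, rfl⟩
    rw [LinearMap.mem_ker, hid] at hv
    rw [hv]
  · rw [codisjoint_iff, eq_top_iff]
    intro v _
    have e : v = (v - h.pi v) + h.pi v := by abel
    rw [e]
    refine Submodule.add_mem_sup ?_ (LinearMap.mem_range_self _ _)
    rw [LinearMap.mem_ker, map_sub, hid, sub_self]

lemma RP.range_inf_ker (h : RP x t) : LinearMap.range x ⊓ LinearMap.ker t = ⊥ := by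
  rw [eq_bot_iff]
  rintro v ⟨⟨w, rfl⟩, h2⟩
  have h3 : t (x w) = 0 := h2
  have := h.apply_x w
  rw [h3, map_zero] at this
  exact this.symm

lemma RP.ker_inf_range (h : RP x t) : LinearMap.range t ⊓ LinearMap.ker x = ⊥ :=
  h.symm.range_inf_ker

lemma RP.range_inf_range (h : RP x t) : LinearMap.range x ⊓ LinearMap.range t = ⊥ := by
  rw [eq_bot_iff]
  rintro v ⟨⟨a, rfl⟩, ⟨b, hb⟩⟩
  have h1 : t (x a) = 0 := by
    rw [← hb]
    exact h.apply_tt b
  have := h.apply_x a
  rw [h1, map_zero] at this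
  exact this.symm

end ops

end Cfsg.Agent.Lib.QPH39
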