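import Cfsg.Agent.Lib.QPH39Pair

/-! Dichotomy for pairs of root subgroups of a quadratic pair, given the basic dichotomy `DI`, and the
structure of the rank one case. -/

set_option autoImplicit false

namespace Cfsg.Agent.Lib.QPH39

open Cfsg Cfsg.Agent.RootSub

variable {k : Type*} [Field k] {M : Type*} [AddCommGroup M] [Module k M]

local notation "GLm" => LinearMap.GeneralLinearGroup k M
local notation "End'" => (M →ₗ[k] M)

variable {G : Subgroup (LinearMap.GeneralLinearGroup k M)}

/-- The pair relation of the unipotent type. -/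
def TU (x y : M →ₗ[k] M) : Prop := x * y * x = 0 ∧ y * x * y = 0

lemma TU.symm {x y : M →ₗ[k] M} (h : TU x y) : TU y x := ⟨h.2, h.1⟩

/-- Partner of `x` in the class of `y`. -/
def Partner (G : Subgroup (LinearMap.GeneralLinearGroup k M)) (x y t : M →ₗ[k] M) : Prop :=
  QR G t ∧ LinearMap.ker t = LinearMap.ker y ∧ LinearMap.range t = LinearMap.range y ∧ RP x t

/-- The basic dichotomy for two elements of `QR`. -/
def DI (G : Subgroup (LinearMap.GeneralLinearGroup k M)) : Prop :=
  ∀ x y : M →ₗ[k] M, QR G x → QR G y → TU x y ∨ ∃ t, Partner G x y t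

lemma mul_zero_of_ker_range {a b c : M →ₗ[k] M} (h1 : LinearMap.ker a = LinearMap.ker c)
    (h2 : LinearMap.range b = LinearMap.range c) (h3 : c * c = 0) : a * b = 0 := by
  ext v
  obtain ⟨w, hw⟩ : b v ∈ LinearMap.range c := by
    rw [← h2]; exact LinearMap.mem_range_self _ _
  have h4 : b v ∈ LinearMap.ker c := by
    rw [LinearMap.mem_ker, ← hw]
    exact congrArg (fun f : End' => f w) h3
  rw [← h1] at h4
  exact h4

/-- If `x` has a partner in the class of `y`, nothing in the same classes is of unipotent type. -/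
lemma not_TU_of_partner {x y t x' y' : M →ₗ[k] M} (hp : Partner G x y t)
    (hx1 : LinearMap.ker x' = LinearMap.ker x) (hx2 : LinearMap.range x' = LinearMap.range x)
    (hy1 : LinearMap.ker y' = LinearMap.ker y) (hy2 : LinearMap.range y' = LinearMap.range y)
    (hx0 : x' ≠ 0) : ¬ TU x' y' := by
  obtain ⟨ht, ht1, ht2, hrp⟩ := hp
  rintro ⟨h1, -⟩
  apply hx0
  ext v
  have h3 : y' (x' v) ∈ LinearMap.range t ⊓ LinearMap.ker x := by
    refine Submodule.mem_inf.mpr ⟨?_, ?_⟩
    · rw [ht2, ← hy2]; exact LinearMap.mem_range_self _ _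
    · rw [← hx1, LinearMap.mem_ker]
      exact congrArg (fun f : End' => f v) h1
  rw [hrp.ker_inf_range, Submodule.mem_bot] at h3
  have h4 : x' v ∈ LinearMap.range x ⊓ LinearMap.ker t := by
    refine Submodule.mem_inf.mpr ⟨?_, ?_⟩
    · rw [← hx2]; exact LinearMap.mem_range_self _ _
    · rw [ht1, ← hy1]; exact h3
  rw [hrp.range_inf_ker, Submodule.mem_bot] at h4
  exact h4

section fd

variable [FiniteDimensional k M]

/-- The classes of two root subgroups: all pairs unipotent, or every nonzero element has a partner. -/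
lemma dichotomy (hDI : DI G) {x y : M →ₗ[k] M} (hx : QR G x) (hy : QR G y) :
    (∀ a ∈ LE G x hx, ∀ b ∈ LE G y hy, TU a b) ∨
    (∀ a ∈ LE G x hx, a ≠ 0 → ∃ t, Partner G a y t) := by
  by_cases hall : ∀ a ∈ LE G x hx, ∀ b ∈ LE G y hy, TU a b
  · exact Or.inl hall
  right
  push Not at hall
  obtain ⟨a₁, ha₁, b₁, hb₁, hn⟩ := hall
  have ha₁' : a₁ ≠ 0 ∧ QR G a₁ ∧ LinearMap.ker a₁ = LinearMap.ker x ∧
      LinearMap.range a₁ = LinearMap.range x := by
    rcases ha₁ with rfl | h
    · exact absurd ⟨by simp, by simp⟩ hn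
    · exact ⟨h.1.ne_zero, h⟩
  have hb₁' : QR G b₁ ∧ LinearMap.ker b₁ = LinearMap.ker y ∧
      LinearMap.range b₁ = LinearMap.range y := by
    rcases hb₁ with rfl | h
    · exact absurd ⟨by simp, by simp⟩ hn
    · exact h
  obtain ⟨t₁, ht₁⟩ := (hDI a₁ b₁ ha₁'.2.1 hb₁'.1).resolve_left hn
  have hpart : Partner G a₁ y t₁ :=
    ⟨ht₁.1, ht₁.2.1.trans hb₁'.2.1, ht₁.2.2.1.trans hb₁'.2.2, ht₁.2.2.2⟩
  intro a ha ha0
  rcases ha with rfl | h
  · exact absurd rfl ha0
  rcases hDI a y h.1 hy with h1 | h1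
  · exfalso
    exact not_TU_of_partner hpart (h.2.1.trans ha₁'.2.2.1.symm) (h.2.2.trans ha₁'.2.2.2.symm) rfl rfl
      ha0 h1
  · exact h1

omit [FiniteDimensional k M] in
/-- The two elementary units of a pair. -/
lemma rp_units (x t : M →ₗ[k] M) (h : RP x t) :
    ((unitOfSq t h.tt)⁻¹ * unitOfSq x h.xx * unitOfSq t h.tt) *
      ((unitOfSq x h.xx)⁻¹ * unitOfSq t h.tt * unitOfSq x h.xx) = 1 := by
  apply Units.ext
  have e : ((unitOfSq t h.tt)⁻¹ * unitOfSq x h.xx * unitOfSq t h.tt : GLm).val = 1 + (1 - t) * x * (1 + t) := by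
    show (1 - t) * (1 + x) * (1 + t) = _
    have h1 : (1 - t) * (1 + t) = 1 := by
      simp only [mul_add, sub_mul, mul_one, one_mul, h.tt]
      abel
    calc (1 - t) * (1 + x) * (1 + t) = (1 - t) * (1 + t) + (1 - t) * x * (1 + t) := by noncomm_ring
      _ = _ := by rw [h1]
  have e2 : ((unitOfSq x h.xx)⁻¹ * unitOfSq t h.tt * unitOfSq x h.xx : GLm).val = 1 + (1 - x) * t * (1 + x) := by
    show (1 - x) * (1 + t) * (1 + x) = _
    have h1 : (1 - x) * (1 + x) = 1 := by
      simp only [mul_add, sub_mul, mul_one, one_mul, h.xx]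
      abel
    calc (1 - x) * (1 + t) * (1 + x) = (1 - x) * (1 + x) + (1 - x) * t * (1 + x) := by noncomm_ring
      _ = _ := by rw [h1]
  rw [Units.val_mul, e, e2, h.special]
  have h3 : ((1 - x) * t * (1 + x)) * ((1 - x) * t * (1 + x)) = 0 := by
    have h1 : (1 + x) * (1 - x) = 1 := by
      simp only [mul_sub, add_mul, mul_one, one_mul, h.xx]
      abel
    calc ((1 - x) * t * (1 + x)) * ((1 - x) * t * (1 + x))
        = (1 - x) * t * ((1 + x) * (1 - x)) * t * (1 + x) := by noncomm_ring
      _ = (1 - x) * (t * t) * (1 + x) := by rw [h1]; noncomm_ring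
      _ = 0 := by rw [h.tt]; simp
  have h4 : ∀ u : End', u * u = 0 → (1 + -u) * (1 + u) = 1 := by
    intro u hu
    have : (1 + -u) * (1 + u) = 1 - u * u := by noncomm_ring
    rw [this, hu, sub_zero]
  exact h4 _ h3

omit [FiniteDimensional k M] in
/-- Units from `QR`. -/
lemma E_of_unit {x : M →ₗ[k] M} (hx : QR G x) (h : x * x = 0) {σ : GLm}
    (hσ : σ ∈ minimalQuadraticElements G) (h1 : LinearMap.ker x = LinearMap.ker (dx σ))
    (h2 : LinearMap.range x = LinearMap.range (dx σ)) :
    sameActionSubgroup G (unitOfSq x h) = sameActionSubgroup G σ := by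
  apply E_eq_of_same
  refine ⟨hx.unit_mem h, ?_, ?_⟩
  · have : ((unitOfSq x h : GLm) : End') - 1 = x := by simp
    rw [this]; exact h1
  · have : ((unitOfSq x h : GLm) : End') - 1 = x := by simp
    rw [this]; exact h2

/-- `E(ρ⁻¹) = E(ρ)`. -/
lemma E_inv {ρ : GLm} (hρ : ρ ∈ minimalQuadraticElements G) :
    sameActionSubgroup G ρ⁻¹ = sameActionSubgroup G ρ := by
  apply E_eq_of_same
  exact class_inv ⟨hρ, rfl, rfl⟩

omit [FiniteDimensional k M] in
/-- Conjugates of an element of `𝒬_d` by an element of `G` lie in `𝒬_d`. -/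
lemma conj_mem_min {ρ g : GLm} (hρ : ρ ∈ minimalQuadraticElements G) (hg : g ∈ G) :
    g * ρ * g⁻¹ ∈ minimalQuadraticElements G := by
  have hdx : dx (g * ρ * g⁻¹) = cj g (dx ρ) := by
    unfold dx cj
    have : (g : End') * ((g⁻¹ : GLm) : End') = 1 := by
      rw [← Units.val_mul]; simp
    rw [Units.val_mul, Units.val_mul, mul_sub, sub_mul, mul_one, this]
  obtain ⟨ρ', hρ', hρ'e⟩ := (qr_of_mem hρ).conj_mem hg
  have : ρ' = g * ρ * g⁻¹ := by
    apply Units.ext
    have e1 : (ρ' : End') = 1 + dx ρ' := coe_eq ρ'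
    have e2 : ((g * ρ * g⁻¹ : GLm) : End') = 1 + dx (g * ρ * g⁻¹) := coe_eq _
    rw [e1, e2, hρ'e, hdx]
  rwa [← this]

omit [FiniteDimensional k M] in
lemma dx_conj (g ρ : GLm) : dx (g * ρ * g⁻¹) = cj g (dx ρ) := by
  unfold dx cj
  have : (g : End') * ((g⁻¹ : GLm) : End') = 1 := by
    rw [← Units.val_mul]; simp
  rw [Units.val_mul, Units.val_mul, mul_sub, sub_mul, mul_one, this]

/-- The two conjugates in the rank one condition coincide. -/
lemma conj_swap {x t : M →ₗ[k] M} (hx : QR G x) (ht : QR G t) (h : RP x t) :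
    conjBy (sameActionSubgroup G (unitOfSq x h.xx)) (unitOfSq t h.tt)⁻¹ =
      conjBy (sameActionSubgroup G (unitOfSq t h.tt)) (unitOfSq x h.xx)⁻¹ := by
  have hxm := hx.unit_mem h.xx
  have htm := ht.unit_mem h.tt
  have hgx : unitOfSq x h.xx ∈ G := hxm.1.1
  have hgt : unitOfSq t h.tt ∈ G := htm.1.1
  rw [conj_E hxm (G.inv_mem hgt), conj_E htm (G.inv_mem hgx), inv_inv, inv_inv]
  have hrel := rp_units x t h
  have e : (unitOfSq x h.xx)⁻¹ * unitOfSq t h.tt * unitOfSq x h.xx =
      ((unitOfSq t h.tt)⁻¹ * unitOfSq x h.xx * unitOfSq t h.tt)⁻¹ :=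
    (inv_eq_of_mul_eq_one_right hrel).symm
  have hm : (unitOfSq t h.tt)⁻¹ * unitOfSq x h.xx * unitOfSq t h.tt ∈ minimalQuadraticElements G := by
    have := conj_mem_min hxm (G.inv_mem hgt)
    rwa [inv_inv] at this
  rw [e, E_inv hm]

/-- Subgroup equality gives equality of ranges. -/
lemma range_of_E_eq {ρ ρ' : GLm} (hρ : ρ ∈ minimalQuadraticElements G)
    (hρ' : ρ' ∈ minimalQuadraticElements G)
    (h : sameActionSubgroup G ρ = sameActionSubgroup G ρ') :
    LinearMap.range (dx ρ) = LinearMap.range (dx ρ') := by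
  have h1 : ρ ∈ sameActionSubgroup G ρ' := by
    rw [← h]
    exact Subgroup.subset_closure ⟨hρ, rfl, rfl⟩
  rw [mem_E_iff hρ'] at h1
  rcases h1 with h1 | h1
  · exact absurd h1 hρ.1.2.1.2
  · exact h1.2.2

/-- Uniqueness of the partner. -/
lemma partner_unique {x t s : M →ₗ[k] M} (hx : QR G x) (ht : QR G t) (hs : QR G s) (h : RP x t)
    (h1 : LinearMap.ker s = LinearMap.ker t) (h2 : LinearMap.range s = LinearMap.range t)
    (hcond : conjBy (sameActionSubgroup G (unitOfSq x h.xx)) (unitOfSq s hs.sq)⁻¹ =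
      conjBy (sameActionSubgroup G (unitOfSq s hs.sq)) (unitOfSq x h.xx)⁻¹) : s = t := by
  have hxm := hx.unit_mem h.xx
  have hsm := hs.unit_mem hs.sq
  have hgx : unitOfSq x h.xx ∈ G := hxm.1.1
  have hgs : unitOfSq s hs.sq ∈ G := hsm.1.1
  rw [conj_E hxm (G.inv_mem hgs), conj_E hsm (G.inv_mem hgx)] at hcond
  have hran := range_of_E_eq (conj_mem_min hxm (G.inv_mem hgs)) (conj_mem_min hsm (G.inv_mem hgx)) hcond
  rw [dx_conj, dx_conj, range_cj, range_cj] at hran
  have hdxx : dx (unitOfSq x h.xx) = x := by simp [dx]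
  have hdxs : dx (unitOfSq s hs.sq) = s := by simp [dx]
  rw [hdxx, hdxs] at hran
  -- key equation
  have key : ∀ u ∈ LinearMap.range x, x (s u) = u := by
    intro u hu
    have hmem : ((unitOfSq s hs.sq)⁻¹ : GLm).val u ∈ (LinearMap.range s).map
        (((unitOfSq x h.xx)⁻¹ : GLm) : End') := by
      rw [← hran]
      exact ⟨u, hu, rfl⟩
    obtain ⟨v, hv, hve⟩ := hmem
    have e1 : v - x v = u - s u := hve
    have hvI : v ∈ LinearMap.range t := by rw [← h2]; exact hv
    have hsuI : s u ∈ LinearMap.range t := by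
      rw [← h2]; exact LinearMap.mem_range_self _ _
    have hxvI : x v ∈ LinearMap.range x := LinearMap.mem_range_self _ _
    have e2 : u + x v = v + s u := by
      have : u + x v - (v + s u) = -(v - x v) + (u - s u) := by abel
      rw [← sub_eq_zero, this, e1]
      abel
    have hz : u + x v ∈ LinearMap.range x ⊓ LinearMap.range t :=
      Submodule.mem_inf.mpr ⟨add_mem hu hxvI, by rw [e2]; exact add_mem hvI hsuI⟩
    rw [h.range_inf_range, Submodule.mem_bot] at hz
    have e3 : v + s u = 0 := by rw [← e2]; exact hz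
    have e4 : v = - s u := eq_neg_of_add_eq_zero_left e3
    rw [e4, map_neg] at hz
    have e5 : u + -x (s u) = 0 := hz
    have : u - x (s u) = 0 := by rw [sub_eq_add_neg]; exact e5
    exact (sub_eq_zero.mp this).symm
  -- `s x = t x`
  have hsx : ∀ m, s (x m) = t (x m) := by
    intro m
    have hp : s (x m) - t (x m) ∈ LinearMap.range t ⊓ LinearMap.ker x := by
      refine Submodule.mem_inf.mpr ⟨?_, ?_⟩
      · refine sub_mem ?_ (LinearMap.mem_range_self _ _)
        rw [← h2]; exact LinearMap.mem_range_self _ _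
      · rw [LinearMap.mem_ker, map_sub, key _ (LinearMap.mem_range_self _ _), h.apply_x, sub_self]
    rw [h.ker_inf_range, Submodule.mem_bot] at hp
    exact sub_eq_zero.mp hp
  -- conclude
  ext m
  have hst : s (t (x m)) = 0 := by
    have h3 : t (x m) ∈ LinearMap.ker s := by
      rw [h1, LinearMap.mem_ker]
      exact h.apply_tt _
    exact h3
  have hker : m - h.pi m ∈ LinearMap.ker h.pi := by
    rw [LinearMap.mem_ker, map_sub]
    have : h.pi (h.pi m) = h.pi m := congrArg (fun f : End' => f m) h.pi_pi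
    rw [this, sub_self]
  rw [h.ker_pi] at hker
  have h4 : s (m - h.pi m) = 0 := by
    have : m - h.pi m ∈ LinearMap.ker s := by
      rw [h1]; exact hker.2
    exact this
  have h5 : t (m - h.pi m) = 0 := hker.2
  have h6 : s m = s (x (t m)) := by
    rw [map_sub, sub_eq_zero, h.pi_apply, map_add, hst, add_zero] at h4
    exact h4
  have h7 : t m = t (x (t m)) := by
    rw [map_sub, sub_eq_zero, h.pi_apply, map_add, h.apply_tt, add_zero] at h5
    exact h5
  rw [h6, hsx]
  exact h7.symm

/-- The commutator and fixed spaces of a join of two root subgroups. -/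
lemma fixed_sup {σ τ : GLm} (hσ : σ ∈ minimalQuadraticElements G) (hτ : τ ∈ minimalQuadraticElements G) :
    fixedSubmodule (sameActionSubgroup G σ ⊔ sameActionSubgroup G τ) =
      LinearMap.ker (dx σ) ⊓ LinearMap.ker (dx τ) := by
  have hself : ∀ (ρ : GLm), ρ ∈ minimalQuadraticElements G → ρ ∈ sameActionSubgroup G ρ :=
    fun ρ hρ => Subgroup.subset_closure ⟨hρ, rfl, rfl⟩
  apply le_antisymm
  · apply le_inf
    · exact iInf₂_le σ (Subgroup.mem_sup_left (hself σ hσ))
    · exact iInf₂_le τ (Subgroup.mem_sup_right (hself τ hτ))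
  · refine le_iInf₂ ?_
    intro g hg v hv
    have hv1 : dx σ v = 0 := (Submodule.mem_inf.mp hv).1
    have hv2 : dx τ v = 0 := (Submodule.mem_inf.mp hv).2
    have hgen : ∀ ρ : GLm, ρ ∈ minimalQuadraticElements G → dx ρ v = 0 → ∀ h ∈ sameActionSubgroup G ρ,
        (h : End') v = v := by
      intro ρ hρ hρv h hh
      rw [mem_E_iff hρ] at hh
      have : dx h v = 0 := by
        rcases hh with hh | hh
        · rw [hh]; simp
        · have : v ∈ LinearMap.ker (dx h) := by rw [hh.2.1]; exact hρv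
          exact this
      have h2 : (h : End') v - v = 0 := this
      exact sub_eq_zero.mp h2
    have hall : ∀ h ∈ sameActionSubgroup G σ ⊔ sameActionSubgroup G τ, (h : End') v = v := by
      intro h hh
      rw [Subgroup.sup_eq_closure] at hh
      induction hh using Subgroup.closure_induction with
      | mem x hx =>
        rcases hx with hx | hx
        · exact hgen σ hσ hv1 x hx
        · exact hgen τ hτ hv2 x hx
      | one => rfl
      | mul x y _ _ hx hy =>
        show (x : End') ((y : End') v) = v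
        rw [hy, hx]
      | inv x _ hx =>
        have := inv_apply_apply x v
        rw [hx] at this
        exact this
    have := hall g hg
    show (g : End') v - v = 0
    rw [this, sub_self]

lemma comm_sup {σ τ : GLm} (hσ : σ ∈ minimalQuadraticElements G) (hτ : τ ∈ minimalQuadraticElements G) :
    commutatorSubmodule (sameActionSubgroup G σ ⊔ sameActionSubgroup G τ) =
      LinearMap.range (dx σ) ⊔ LinearMap.range (dx τ) := by
  have hself : ∀ (ρ : GLm), ρ ∈ minimalQuadraticElements G → ρ ∈ sameActionSubgroup G ρ :=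
    fun ρ hρ => Subgroup.subset_closure ⟨hρ, rfl, rfl⟩
  apply le_antisymm
  · refine iSup₂_le ?_
    intro g hg
    rw [Subgroup.sup_eq_closure] at hg
    induction hg using Subgroup.closure_induction with
    | mem x hx =>
      rcases hx with hx | hx
      · have hx' : x ∈ sameActionSubgroup G σ := hx
        rw [mem_E_iff hσ] at hx'
        rcases hx' with hx | hx
        · have : (x : End') - 1 = 0 := hx
          rw [this]; simp
        · have h2 : LinearMap.range ((x : End') - 1) = LinearMap.range (dx σ) := hx.2.2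
          rw [h2]; exact le_sup_left
      · have hx' : x ∈ sameActionSubgroup G τ := hx
        rw [mem_E_iff hτ] at hx'
        rcases hx' with hx | hx
        · have : (x : End') - 1 = 0 := hx
          rw [this]; simp
        · have h2 : LinearMap.range ((x : End') - 1) = LinearMap.range (dx τ) := hx.2.2
          rw [h2]; exact le_sup_right
    | one => simp
    | mul x y _ _ hx hy =>
      rintro _ ⟨v, rfl⟩
      have e : (((x * y : GLm) : End') - 1) v = ((x : End') - 1) ((y : End') v) + ((y : End') - 1) v := by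
        show (x : End') ((y : End') v) - v = (x : End') ((y : End') v) - (y : End') v + ((y : End') v - v)
        abel
      rw [e]
      exact add_mem (hx (LinearMap.mem_range_self _ _)) (hy (LinearMap.mem_range_self _ _))
    | inv x _ hx =>
      rintro _ ⟨v, rfl⟩
      have e : (((x⁻¹ : GLm) : End') - 1) v = -(((x : End') - 1) (((x⁻¹ : GLm) : End') v)) := by
        show ((x⁻¹ : GLm) : End') v - v = -((x : End') (((x⁻¹ : GLm) : End') v) - ((x⁻¹ : GLm) : End') v)
        rw [apply_inv_apply]
        abel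
      rw [e]
      exact neg_mem (hx (LinearMap.mem_range_self _ _))
  · apply sup_le
    · exact le_iSup₂_of_le σ (Subgroup.mem_sup_left (hself σ hσ)) le_rfl
    · exact le_iSup₂_of_le τ (Subgroup.mem_sup_right (hself τ hτ)) le_rfl

omit [FiniteDimensional k M] in
/-- A flag stable under two subgroups gives unipotence of the join. -/
lemma unip_of_flag {A B : Subgroup (LinearMap.GeneralLinearGroup k M)} (V : ℕ → Submodule k M) {n : ℕ}
    (h0 : V 0 = ⊥) (hn : V n = ⊤) (hmono : ∀ i, V i ≤ V (i + 1))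
    (hA : ∀ g ∈ A, ∀ i, ∀ v ∈ V (i + 1), (g : End') v - v ∈ V i)
    (hB : ∀ g ∈ B, ∀ i, ∀ v ∈ V (i + 1), (g : End') v - v ∈ V i) : IsUnipotentOn (A ⊔ B) := by
  have key : ∀ g ∈ A ⊔ B, (∀ i, ∀ v ∈ V (i + 1), (g : End') v - v ∈ V i) ∧
      (∀ i, ∀ v ∈ V (i + 1), ((g⁻¹ : GLm) : End') v - v ∈ V i) := by
    intro g hg
    rw [Subgroup.sup_eq_closure] at hg
    induction hg using Subgroup.closure_induction with
    | mem x hx =>
      rcases hx with hx | hx
      · exact ⟨hA x hx, hA _ (A.inv_mem hx)⟩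
      · exact ⟨hB x hx, hB _ (B.inv_mem hx)⟩
    | one => simp
    | mul x y _ _ hx hy =>
      have hstep : ∀ (a b : GLm), (∀ i, ∀ v ∈ V (i + 1), (a : End') v - v ∈ V i) →
          (∀ i, ∀ v ∈ V (i + 1), (b : End') v - v ∈ V i) →
          ∀ i, ∀ v ∈ V (i + 1), ((a * b : GLm) : End') v - v ∈ V i := by
        intro a b ha hb i v hv
        have h1 := hb i v hv
        have h2 : (b : End') v ∈ V (i + 1) := by
          have e : (b : End') v = ((b : End') v - v) + v := by abel
          rw [e]
          exact add_mem (hmono i h1) hv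
        have h3 := ha i _ h2
        have e : ((a * b : GLm) : End') v - v = ((a : End') ((b : End') v) - (b : End') v) +
            ((b : End') v - v) := by
          show (a : End') ((b : End') v) - v = _
          abel
        rw [e]
        exact add_mem h3 h1
      refine ⟨hstep x y hx.1 hy.1, ?_⟩
      rw [mul_inv_rev]
      exact hstep _ _ hy.2 hx.2
    | inv x _ hx =>
      refine ⟨hx.2, ?_⟩
      rw [inv_inv]
      exact hx.1
  have hle : ∀ i, V i ≤ upF (A ⊔ B) i := by
    intro i
    induction i with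
    | zero => rw [h0]; exact bot_le
    | succ i ih =>
      intro v hv h hh
      exact ih ((key h hh).1 i v hv)
  apply unip_of_upF (n := n)
  rw [eq_top_iff, ← hn]
  exact hle n

/-- The action of `z ∈ LE` on the flag. -/
lemma flag_step {u w : M →ₗ[k] M} (h2 : QR G u) (h3 : QR G w)
    (hT : ∀ a ∈ LE G u h2, ∀ b ∈ LE G w h3, TU a b) {z : M →ₗ[k] M} (hg : z ∈ LE G u h2) :
    (∀ v ∈ LinearMap.range u ⊔ LinearMap.range w, z v ∈ (LinearMap.range u ⊓ LinearMap.ker w)) ∧
    (∀ v, z v ∈ LinearMap.range u) ∧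
    (∀ v ∈ (LinearMap.range u ⊓ LinearMap.ker w) ⊔ (LinearMap.range w ⊓ LinearMap.ker u), z v = 0) := by
  have huu := h2.sq
  have hzr : ∀ v, z v ∈ LinearMap.range u := by
    intro v
    rcases hg with hg | hg
    · rw [hg]; simp
    · rw [← hg.2.2]; exact LinearMap.mem_range_self _ _
  have hzk : LinearMap.ker u ≤ LinearMap.ker z := by
    rcases hg with hg | hg
    · rw [hg]; simp
    · rw [hg.2.1]
  have hzI : ∀ v ∈ LinearMap.range u, z v = 0 := by
    rintro _ ⟨m, rfl⟩
    have : u m ∈ LinearMap.ker u := congrArg (fun f : End' => f m) huu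
    exact hzk this
  refine ⟨?_, hzr, ?_⟩
  · intro v hv
    obtain ⟨a, ha, b, hb, rfl⟩ := Submodule.mem_sup.mp hv
    rw [map_add, hzI a ha, zero_add]
    obtain ⟨m, rfl⟩ := hb
    refine Submodule.mem_inf.mpr ⟨hzr _, ?_⟩
    have := (hT z hg w (self_mem_LE h3)).2
    exact congrArg (fun f : End' => f m) this
  · intro v hv
    obtain ⟨a, ha, b, hb, rfl⟩ := Submodule.mem_sup.mp hv
    rw [map_add, hzI a (Submodule.mem_inf.mp ha).1, zero_add]
    exact hzk (Submodule.mem_inf.mp hb).2

/-- The standard flag. -/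
def stdFlag (x y : M →ₗ[k] M) : ℕ → Submodule k M
  | 0 => ⊥
  | 1 => (LinearMap.range x ⊓ LinearMap.ker y) ⊔ (LinearMap.range y ⊓ LinearMap.ker x)
  | 2 => LinearMap.range x ⊔ LinearMap.range y
  | _ => ⊤

/-- The join of two root subgroups of unipotent type acts unipotently. -/
lemma unip_of_TU {σ τ : GLm} (hσ : σ ∈ minimalQuadraticElements G) (hτ : τ ∈ minimalQuadraticElements G)
    (hU : ∀ a ∈ LE G (dx σ) (qr_of_mem hσ), ∀ b ∈ LE G (dx τ) (qr_of_mem hτ), TU a b) :
    IsUnipotentOn (sameActionSubgroup G σ ⊔ sameActionSubgroup G τ) := by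
  have hU' : ∀ a ∈ LE G (dx τ) (qr_of_mem hτ), ∀ b ∈ LE G (dx σ) (qr_of_mem hσ), TU a b :=
    fun a ha b hb => (hU b hb a ha).symm
  refine unip_of_flag (stdFlag (dx σ) (dx τ)) (n := 3) rfl rfl ?_ ?_ ?_
  · intro i
    match i with
    | 0 => exact bot_le
    | 1 => exact sup_le_sup inf_le_left inf_le_left
    | 2 => exact le_top
    | (n + 3) => exact le_rfl
  · intro g hg i v hv
    rw [mem_E_iff hσ] at hg
    obtain ⟨h1, h2, h3⟩ := flag_step (qr_of_mem hσ) (qr_of_mem hτ) hU hg
    match i with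
    | 0 =>
      show (g : End') v - v ∈ (⊥ : Submodule k M)
      have := h3 v hv
      simpa using this
    | 1 =>
      have := h1 v hv
      exact Submodule.mem_sup_left this
    | 2 =>
      have := h2 v
      exact Submodule.mem_sup_left this
    | (n + 3) => trivial
  · intro g hg i v hv
    rw [mem_E_iff hτ] at hg
    obtain ⟨h1, h2, h3⟩ := flag_step (qr_of_mem hτ) (qr_of_mem hσ) hU' hg
    match i with
    | 0 =>
      show (g : End') v - v ∈ (⊥ : Submodule k M)
      have hv' : v ∈ (LinearMap.range (dx τ) ⊓ LinearMap.ker (dx σ)) ⊔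
          (LinearMap.range (dx σ) ⊓ LinearMap.ker (dx τ)) := by
        rw [sup_comm]; exact hv
      have := h3 v hv'
      simpa using this
    | 1 =>
      have hv' : v ∈ LinearMap.range (dx τ) ⊔ LinearMap.range (dx σ) := by
        rw [sup_comm]; exact hv
      have := h1 v hv'
      exact Submodule.mem_sup_right this
    | 2 =>
      have := h2 v
      exact Submodule.mem_sup_right this
    | (n + 3) => trivial

end fd

end Cfsg.Agent.Lib.QPH39
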