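import Cfsg.Agent.Lib.QPH39Stmts
import Cfsg.Agent.RootSub.TvSub

/-! Pairs of members of `Σ`: the trichotomy, the root subgroup set inside `G₀`, rank one partners, and
the `SL₂(k)` inside a rank one pair. -/

set_option autoImplicit false

namespace Cfsg.Agent.Lib.QPH39

open Cfsg Cfsg.Agent.RootSub Cfsg.Agent.RootSub.Tv Matrix

section units

variable {k : Type*} [Field k] {R : Type*} [Ring R] [Algebra k R]

/-- Multiplication of matrix-like elements. -/
lemma mat_unit_mul {e0 e11 e12 e21 e22 : R}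
    (h00 : e0 * e0 = e0) (h01 : e0 * e11 = 0) (h02 : e0 * e12 = 0) (h03 : e0 * e21 = 0) (h04 : e0 * e22 = 0)
    (h10 : e11 * e0 = 0) (h20 : e12 * e0 = 0) (h30 : e21 * e0 = 0) (h40 : e22 * e0 = 0)
    (a1 : e11 * e11 = e11) (a2 : e11 * e12 = e12) (a3 : e11 * e21 = 0) (a4 : e11 * e22 = 0)
    (b1 : e12 * e11 = 0) (b2 : e12 * e12 = 0) (b3 : e12 * e21 = e11) (b4 : e12 * e22 = e12)
    (c1 : e21 * e11 = e21) (c2 : e21 * e12 = e22) (c3 : e21 * e21 = 0) (c4 : e21 * e22 = 0)
    (d1 : e22 * e11 = 0) (d2 : e22 * e12 = 0) (d3 : e22 * e21 = e21) (d4 : e22 * e22 = e22)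
    (a b c d a' b' c' d' : k) :
    (e0 + a • e11 + b • e12 + c • e21 + d • e22) * (e0 + a' • e11 + b' • e12 + c' • e21 + d' • e22) =
      e0 + (a * a' + b * c') • e11 + (a * b' + b * d') • e12 + (c * a' + d * c') • e21 +
        (c * b' + d * d') • e22 := by
  simp only [add_mul, mul_add, smul_mul_assoc, mul_smul_comm, h00, h01, h02, h03, h04, h10, h20, h30, h40,
    a1, a2, a3, a4, b1, b2, b3, b4, c1, c2, c3, c4, d1, d2, d3, d4, smul_zero, add_zero, zero_add, smul_smul]
  module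

end units

variable {k : Type*} [Field k] {M : Type*} [AddCommGroup M] [Module k M]

local notation "GLm" => LinearMap.GeneralLinearGroup k M
local notation "End'" => (M →ₗ[k] M)

variable {G : Subgroup (LinearMap.GeneralLinearGroup k M)}

section phi

variable {x t : M →ₗ[k] M}

/-- The matrix-unit map. -/
noncomputable def Phi0 (x t : M →ₗ[k] M) (g : Matrix (Fin 2) (Fin 2) k) : M →ₗ[k] M :=
  (1 - (x * t + t * x)) + g 0 0 • (x * t) + g 0 1 • x + g 1 0 • t + g 1 1 • (t * x)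

lemma Phi0_mul (h : RP x t) (g g' : Matrix (Fin 2) (Fin 2) k) :
    Phi0 x t (g * g') = Phi0 x t g * Phi0 x t g' := by
  have hxx := h.xx
  have htt := h.tt
  have hxtx := h.xtx
  have htxt := h.txt
  have hx1 := h.x_pi
  have hx2 := h.pi_x
  have ht1 := h.t_pi
  have ht2 := h.pi_t
  have hpp := h.pi_pi
  rw [h.pi_def] at hx1 hx2 ht1 ht2 hpp
  have hxt : x * t * (x * t) = x * t := by rw [← mul_assoc, hxtx]
  have htx : t * x * (t * x) = t * x := by rw [← mul_assoc, htxt]
  have hxt2 : x * t * (t * x) = 0 := by rw [mul_assoc, ← mul_assoc t, htt, zero_mul, mul_zero]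
  have htx2 : t * x * (x * t) = 0 := by rw [mul_assoc, ← mul_assoc x, hxx, zero_mul, mul_zero]
  unfold Phi0
  rw [mat_unit_mul (e0 := 1 - (x * t + t * x)) (e11 := x * t) (e12 := x) (e21 := t) (e22 := t * x)]
  · simp only [Matrix.mul_apply, Fin.sum_univ_two]
  · simp only [sub_mul, mul_sub, one_mul, mul_one, hpp]; abel
  · rw [sub_mul, one_mul, add_mul, hxt, htx2, add_zero, sub_self]
  · rw [sub_mul, one_mul, hx2, sub_self]
  · rw [sub_mul, one_mul, ht2, sub_self]
  · rw [sub_mul, one_mul, add_mul, htx, hxt2, zero_add, sub_self]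
  · rw [mul_sub, mul_one, mul_add, hxt, hxt2, add_zero, sub_self]
  · rw [mul_sub, mul_one, hx1, sub_self]
  · rw [mul_sub, mul_one, ht1, sub_self]
  · rw [mul_sub, mul_one, mul_add, htx, htx2, zero_add, sub_self]
  · exact hxt
  · exact hxtx
  · rw [mul_assoc, htt, mul_zero]
  · exact hxt2
  · rw [← mul_assoc, hxx, zero_mul]
  · exact hxx
  · rfl
  · rw [← mul_assoc, hxtx]
  · rw [← mul_assoc, htxt]
  · rfl
  · exact htt
  · rw [← mul_assoc, htt, zero_mul]
  · exact htx2
  · rw [mul_assoc, hxx, mul_zero]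
  · exact htxt
  · exact htx

lemma Phi0_one (x t : M →ₗ[k] M) : Phi0 x t (1 : Matrix (Fin 2) (Fin 2) k) = 1 := by
  unfold Phi0
  simp only [Matrix.one_apply_eq, Matrix.one_apply_ne (show (0 : Fin 2) ≠ 1 by decide),
    Matrix.one_apply_ne (show (1 : Fin 2) ≠ 0 by decide), one_smul, zero_smul, add_zero]
  abel

/-- The homomorphism of `SL₂(k)` attached to a pair `RP x t`. -/
noncomputable def PhiMon (h : RP x t) : SpecialLinearGroup (Fin 2) k →* (M →ₗ[k] M) where
  toFun g := Phi0 x t (g : Matrix (Fin 2) (Fin 2) k)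
  map_one' := Phi0_one x t
  map_mul' g g' := Phi0_mul h _ _

/-- The homomorphism of `SL₂(k)` into `GL(M)` attached to a pair `RP x t`. -/
noncomputable def PhiGL (h : RP x t) : SpecialLinearGroup (Fin 2) k →* GLm :=
  (PhiMon h).toHomUnits

lemma PhiGL_val (h : RP x t) (g : SpecialLinearGroup (Fin 2) k) :
    ((PhiGL h g : GLm) : M →ₗ[k] M) = Phi0 x t (g : Matrix (Fin 2) (Fin 2) k) := rfl

lemma PhiGL_up (h : RP x t) (c : k) : ((PhiGL h (upM c) : GLm) : M →ₗ[k] M) = 1 + c • x := by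
  rw [PhiGL_val]
  unfold Phi0
  simp only [upM_val, Matrix.of_apply, Matrix.cons_val', Matrix.cons_val_zero, Matrix.cons_val_one,
    Matrix.cons_val_fin_one, one_smul, zero_smul, add_zero]
  abel

lemma PhiGL_lo (h : RP x t) (c : k) : ((PhiGL h (loM c) : GLm) : M →ₗ[k] M) = 1 + c • t := by
  rw [PhiGL_val]
  unfold Phi0
  simp only [loM_val, Matrix.of_apply, Matrix.cons_val', Matrix.cons_val_zero, Matrix.cons_val_one,
    Matrix.cons_val_fin_one, one_smul, zero_smul, add_zero]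
  abel

lemma x_Phi0 (h : RP x t) (g : Matrix (Fin 2) (Fin 2) k) :
    x * Phi0 x t g = g 1 0 • (x * t) + g 1 1 • x := by
  have hxx := h.xx
  have hxtx := h.xtx1
  have hx1 := h.x_pi
  rw [h.pi_def] at hx1
  have e1 : x * (x * t) = 0 := by rw [← mul_assoc, hxx, zero_mul]
  unfold Phi0
  simp only [mul_add, mul_sub, mul_smul_comm, mul_one, hx1, hxx, e1, hxtx, smul_zero, add_zero, sub_self, zero_add]

lemma Phi0_x (h : RP x t) (g : Matrix (Fin 2) (Fin 2) k) :
    Phi0 x t g * x = g 0 0 • x + g 1 0 • (t * x) := by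
  have hxx := h.xx
  have hxtx := h.xtx
  have hx1 := h.pi_x
  rw [h.pi_def] at hx1
  have e1 : t * x * x = 0 := by rw [mul_assoc, hxx, mul_zero]
  unfold Phi0
  simp only [add_mul, sub_mul, smul_mul_assoc, one_mul, hx1, hxx, e1, hxtx, smul_zero, add_zero, sub_self, zero_add]

lemma t_Phi0 (h : RP x t) (g : Matrix (Fin 2) (Fin 2) k) :
    t * Phi0 x t g = g 0 0 • t + g 0 1 • (t * x) := by
  have htt := h.tt
  have htxt := h.txt1
  have ht1 := h.t_pi
  rw [h.pi_def] at ht1
  have e1 : t * (t * x) = 0 := by rw [← mul_assoc, htt, zero_mul]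
  unfold Phi0
  simp only [mul_add, mul_sub, mul_smul_comm, mul_one, ht1, htt, e1, htxt, smul_zero, add_zero, sub_self, zero_add]

lemma PhiGL_injective (h : RP x t) (hx0 : x ≠ 0) :
    Function.Injective (PhiGL (k := k) h) := by
  rw [injective_iff_map_eq_one]
  intro g hg
  have ht0 : t ≠ 0 := by
    intro e
    apply hx0
    rw [← h.xtx, e, mul_zero, zero_mul]
  have e : Phi0 x t (g : Matrix (Fin 2) (Fin 2) k) = 1 := by
    have e0 := PhiGL_val h g
    rw [hg] at e0
    exact e0.symm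
  have hxtx := h.xtx
  have htxt := h.txt
  have e1 := x_Phi0 h (g : Matrix (Fin 2) (Fin 2) k)
  have e2 := Phi0_x h (g : Matrix (Fin 2) (Fin 2) k)
  have e3 := t_Phi0 h (g : Matrix (Fin 2) (Fin 2) k)
  rw [e, mul_one] at e1 e3
  rw [e, one_mul] at e2
  -- the entry `c`
  have hc : (g : Matrix (Fin 2) (Fin 2) k) 1 0 = 0 := by
    have e4 := congrArg (fun z => z * x) e1
    simp only [add_mul, smul_mul_assoc, hxtx, h.xx, smul_zero, add_zero] at e4
    exact (smul_eq_zero.mp e4.symm).resolve_right hx0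
  have hd : (g : Matrix (Fin 2) (Fin 2) k) 1 1 = 1 := by
    rw [hc, zero_smul, zero_add] at e1
    have e4 : ((g : Matrix (Fin 2) (Fin 2) k) 1 1) • x = (1 : k) • x := by rw [one_smul]; exact e1.symm
    exact smul_left_injective k hx0 e4
  have ha : (g : Matrix (Fin 2) (Fin 2) k) 0 0 = 1 := by
    rw [hc, zero_smul, add_zero] at e2
    have e4 : ((g : Matrix (Fin 2) (Fin 2) k) 0 0) • x = (1 : k) • x := by rw [one_smul]; exact e2.symm
    exact smul_left_injective k hx0 e4
  have hb : (g : Matrix (Fin 2) (Fin 2) k) 0 1 = 0 := by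
    rw [ha, one_smul] at e3
    have e4 := congrArg (fun z => z * t) e3
    simp only [add_mul, smul_mul_assoc, htxt, h.tt, zero_add] at e4
    exact (smul_eq_zero.mp e4.symm).resolve_right ht0
  apply sl2_ext <;> simp [ha, hb, hc, hd]

/-- `SL₂` inside a pair. -/
lemma phiPair_of_RP (h : RP x t) (hx0 : x ≠ 0) :
    PhiPair k ((upperUnipotentSL2 k).map (PhiGL (k := k) h)) ((lowerUnipotentSL2 k).map (PhiGL (k := k) h)) :=
  ⟨PhiGL h, PhiGL_injective h hx0, rfl, rfl⟩

end phi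

section main

variable [FiniteDimensional k M]

/-- Trichotomy for members of `Σ`. -/
lemma pair_cases (hDI : DI G) (hIrr : IsIrreducibleFor G) (h2 : (2 : k) ≠ 0) {σ τ : GLm}
    (hσ : σ ∈ minimalQuadraticElements G) (hτ : τ ∈ minimalQuadraticElements G) :
    ⁅sameActionSubgroup G σ, sameActionSubgroup G τ⁆ = ⊥ ∨
    IsRankOnePair (sameActionSubgroup G σ) (sameActionSubgroup G τ) ∨
    RootCommutatorCase (quadraticRootSubgroups G) (sameActionSubgroup G σ) (sameActionSubgroup G τ) := by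
  rcases s5065_core hDI h2 hσ hτ with hU | hS
  · by_cases hc : ⁅sameActionSubgroup G σ, sameActionSubgroup G τ⁆ = ⊥
    · exact Or.inl hc
    · right; right
      obtain ⟨h1, h3, h4, -, -, -, h5⟩ := noncomm_main hDI hIrr hσ hτ (s5068_core hDI hIrr hσ hτ hU) hc
      exact ⟨h1, h5, h3, h4⟩
  · exact Or.inr (Or.inl hS.1.1)

/-- Every member has a rank one partner. -/
lemma exists_rankOne (hDI : DI G) (hIrr : IsIrreducibleFor G) (h2 : (2 : k) ≠ 0) {σ : GLm}
    (hσ : σ ∈ minimalQuadraticElements G) :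
    ∃ ρ ∈ minimalQuadraticElements G, IsRankOnePair (sameActionSubgroup G σ) (sameActionSubgroup G ρ) := by
  obtain ⟨ρ, hρ, hn⟩ := exists_R_partner hDI hIrr hσ
  refine ⟨ρ, hρ, ?_⟩
  rcases s5065_core hDI h2 hσ hρ with hU | hS
  · exact absurd (s5068_core hDI hIrr hσ hρ hU _ (self_mem_LE _) _ (self_mem_LE _)) hn
  · exact hS.1.1

/-- A rank one pair of members has partners. -/
lemma partner_of_rankOne (hDI : DI G) (hIrr : IsIrreducibleFor G) {σ τ : GLm}
    (hσ : σ ∈ minimalQuadraticElements G) (hτ : τ ∈ minimalQuadraticElements G)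
    (h : IsRankOnePair (sameActionSubgroup G σ) (sameActionSubgroup G τ)) :
    ∀ a ∈ LE G (dx σ) (qr_of_mem hσ), a ≠ 0 → ∃ t, Partner G a (dx τ) t := by
  rcases dichotomy hDI (qr_of_mem hσ) (qr_of_mem hτ) with hU | hP
  · exfalso
    by_cases hc : ⁅sameActionSubgroup G σ, sameActionSubgroup G τ⁆ = ⊥
    · exact not_comm_of_rankOne h fun a ha b hb => comm_of_commutator_bot hc ha hb
    · obtain ⟨h1, h3, h4, -, -, -, h5⟩ := noncomm_main hDI hIrr hσ hτ hU hc
      exact not_rankOne_of_commutator_case ⟨h1, h5, h3, h4⟩ h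
  · exact hP

/-- `SL₂(k)` in a rank one pair. -/
lemma sl2_in_rankOne (hDI : DI G) (hIrr : IsIrreducibleFor G) {σ τ : GLm}
    (hσ : σ ∈ minimalQuadraticElements G) (hτ : τ ∈ minimalQuadraticElements G)
    (h : IsRankOnePair (sameActionSubgroup G σ) (sameActionSubgroup G τ)) :
    ∃ A₀ B₀ : Subgroup GLm, A₀ ≤ sameActionSubgroup G σ ∧ B₀ ≤ sameActionSubgroup G τ ∧
      IsPSL2PairOver k A₀ B₀ := by
  have hx := qr_of_mem hσ
  have hy := qr_of_mem hτ
  obtain ⟨t, ht, htk, htr, hrp⟩ := partner_of_rankOne hDI hIrr hσ hτ h (dx σ) (self_mem_LE hx) hx.ne_zero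
  refine ⟨_, _, ?_, ?_, (phiPair_of_RP hrp hx.ne_zero).rankOne.2⟩
  · rintro _ ⟨g, hg, rfl⟩
    obtain ⟨c, rfl⟩ := mem_upper.mp hg
    by_cases hc : c = 0
    · subst hc
      rw [upM_zero, map_one]
      exact one_mem _
    · have hz : QR G (c • dx σ) := hx.smul hc
      have e : (PhiGL hrp (upM c) : GLm) = unitOfSq (c • dx σ) hz.sq := by
        apply Units.ext
        rw [PhiGL_up]
        rfl
      rw [e]
      exact Subgroup.subset_closure (same_unit_mem hσ hz (LinearMap.ker_smul _ _ hc) (LinearMap.range_smul _ _ hc) _)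
  · rintro _ ⟨g, hg, rfl⟩
    obtain ⟨c, rfl⟩ := mem_lower.mp hg
    by_cases hc : c = 0
    · subst hc
      rw [loM_zero, map_one]
      exact one_mem _
    · have hz : QR G (c • t) := ht.smul hc
      have e : (PhiGL hrp (loM c) : GLm) = unitOfSq (c • t) hz.sq := by
        apply Units.ext
        rw [PhiGL_lo]
        rfl
      rw [e]
      refine Subgroup.subset_closure (same_unit_mem hτ hz ?_ ?_ _)
      · rw [LinearMap.ker_smul _ _ hc, htk]
      · rw [LinearMap.range_smul _ _ hc, htr]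

/-- Transport of a rank one pair to the generated group. -/
lemma rankOne_sub {Γ : Type*} [Group Γ] {Λ : Set (Subgroup Γ)} {A B : Subgroup Γ} (hA : A ∈ Λ) (hB : B ∈ Λ)
    (h : IsRankOnePair A B) : IsRankOnePair (A.subgroupOf (genG Λ)) (B.subgroupOf (genG Λ)) := by
  have hAle := le_genG hA
  have hBle := le_genG hB
  refine ⟨?_, ?_, ?_, ?_, ?_⟩
  · intro e
    apply h.ne
    have := congrArg (Subgroup.map (genG Λ).subtype) e
    rwa [map_sub hA, map_sub hB] at this
  · exact @Group.nilpotent_of_mulEquiv _ _ _ _ h.nilpotent_left (Subgroup.subgroupOfEquivOfLe hAle).symm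
  · exact @Group.nilpotent_of_mulEquiv _ _ _ _ h.nilpotent_right (Subgroup.subgroupOfEquivOfLe hBle).symm
  · intro a ha ha1
    have ha1' : (a : Γ) ≠ 1 := fun e => ha1 (Subtype.ext e)
    obtain ⟨b, hb, hb1, e⟩ := h.cond_left a (Subgroup.mem_subgroupOf.mp ha) ha1'
    refine ⟨⟨b, hBle hb⟩, Subgroup.mem_subgroupOf.mpr hb, fun e' => hb1 (congrArg Subtype.val e'), ?_⟩
    rw [conj_sub, conj_sub]
    exact congrArg (fun C : Subgroup Γ => C.subgroupOf (genG Λ)) e
  · intro a ha ha1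
    have ha1' : (a : Γ) ≠ 1 := fun e => ha1 (Subtype.ext e)
    obtain ⟨b, hb, hb1, e⟩ := h.cond_right a (Subgroup.mem_subgroupOf.mp ha) ha1'
    refine ⟨⟨b, hAle hb⟩, Subgroup.mem_subgroupOf.mpr hb, fun e' => hb1 (congrArg Subtype.val e'), ?_⟩
    rw [conj_sub, conj_sub]
    exact congrArg (fun C : Subgroup Γ => C.subgroupOf (genG Λ)) e

lemma commutative_of_mem {A : Subgroup GLm} (hA : A ∈ quadraticRootSubgroups G) : IsMulCommutative A := by
  obtain ⟨σ, hσ, rfl⟩ := hA
  exact (s5059_main hσ).2.1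

lemma ne_bot_of_mem {A : Subgroup GLm} (hA : A ∈ quadraticRootSubgroups G) : A ≠ ⊥ := by
  obtain ⟨σ, hσ, rfl⟩ := hA
  intro e
  have h1 : σ ∈ sameActionSubgroup G σ := Subgroup.subset_closure ⟨hσ, rfl, rfl⟩
  rw [e, Subgroup.mem_bot] at h1
  apply (qr_of_mem hσ).ne_zero
  rw [h1]
  simp [dx]

/-- The generated group is inside `G`. -/
lemma genG_le : genG (quadraticRootSubgroups G) ≤ G := by
  refine iSup₂_le fun A hA => ?_
  obtain ⟨σ, hσ, rfl⟩ := hA
  exact E_le_G

/-- The set of abstract root subgroups. -/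
theorem rootSet_core (hDI : DI G) (hIrr : IsIrreducibleFor G) (h2 : (2 : k) ≠ 0) :
    IsRootSubgroupSet ((fun A : Subgroup GLm => A.subgroupOf (⨆ B ∈ quadraticRootSubgroups G, B)) ''
      quadraticRootSubgroups G) := by
  show IsRootSubgroupSet (subFam (quadraticRootSubgroups G))
  refine ⟨?_, ?_, subFam_gen, ?_, ?_⟩
  · rintro _ ⟨A, hA, rfl⟩
    exact comm_sub (commutative_of_mem hA)
  · rintro _ ⟨A, hA, rfl⟩
    exact ne_bot_sub hA (ne_bot_of_mem hA)
  · rintro _ ⟨A, hA, rfl⟩ g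
    refine ⟨_, ?_, (conj_sub A g).symm⟩
    obtain ⟨σ, hσ, rfl⟩ := hA
    rw [conj_E hσ (genG_le g.2)]
    exact ⟨_, conj_mem_min hσ (genG_le g.2), rfl⟩
  · rintro _ ⟨A, hA, rfl⟩ _ ⟨B, hB, rfl⟩
    have hA' := hA
    have hB' := hB
    obtain ⟨σ, hσ, rfl⟩ := hA'
    obtain ⟨τ, hτ, rfl⟩ := hB'
    rcases pair_cases hDI hIrr h2 hσ hτ with h1 | h1 | h1
    · left
      apply commutator_bot_of_comm
      intro a ha b hb
      exact Subtype.ext (comm_of_commutator_bot h1 ha hb)
    · exact Or.inr (Or.inl (rankOne_sub hA hB h1))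
    · exact Or.inr (Or.inr (case_sub hA hB h1))

/-- The number of elements of the field. -/
lemma card_gt_three (h2 : (2 : k) ≠ 0) (h3 : Nat.card k ≠ 3) : 3 < ENat.card k := by
  by_cases hf : Finite k
  · have := Fintype.ofFinite k
    rw [ENat.card_eq_coe_natCard]
    have h4 : 3 ≤ Nat.card k := by
      classical
      have h5 : ({0, 1, -1} : Finset k).card = 3 := by
        rw [Finset.card_eq_three]
        refine ⟨0, 1, -1, one_ne_zero.symm, ?_, ?_, rfl⟩
        · intro e; exact one_ne_zero (neg_eq_zero.mp e.symm)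
        · intro e
          apply h2
          have : (1 : k) + 1 = 0 := by
            nth_rewrite 1 [e]
            simp
          rw [← this]; norm_num
      rw [Nat.card_eq_fintype_card, ← h5]
      exact Finset.card_le_univ _
    have h6 : 4 ≤ Nat.card k := by omega
    exact_mod_cast h6
  · rw [not_finite_iff_infinite] at hf
    rw [ENat.card_eq_top_of_infinite]
    exact ENat.coe_lt_top 3

/-- Core of the statement on root subgroups. -/
theorem s5062_core (hDI : DI G) (hIrr : IsIrreducibleFor G) (h2 : (2 : k) ≠ 0) :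
    IsRootSubgroupSet ((fun A : Subgroup GLm => A.subgroupOf (⨆ B ∈ quadraticRootSubgroups G, B)) ''
      quadraticRootSubgroups G) ∧
    (∀ A ∈ quadraticRootSubgroups G, ¬ IsIsolatedIn (FAdj (quadraticRootSubgroups G)) (quadraticRootSubgroups G) A) ∧
    (∀ A ∈ quadraticRootSubgroups G, ∀ B ∈ rankOnePartners (quadraticRootSubgroups G) A,
      ∃ A₀ B₀ : Subgroup GLm, A₀ ≤ A ∧ B₀ ≤ B ∧ IsPSL2PairOver k A₀ B₀) := by
  refine ⟨rootSet_core hDI hIrr h2, ?_, ?_⟩
  · rintro A ⟨σ, hσ, rfl⟩ ⟨-, hiso⟩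
    obtain ⟨ρ, hρ, hr⟩ := exists_rankOne hDI hIrr h2 hσ
    exact (hiso (sameActionSubgroup G ρ)).1 ⟨⟨σ, hσ, rfl⟩, ⟨ρ, hρ, rfl⟩, hr⟩
  · rintro A ⟨σ, hσ, rfl⟩ B ⟨⟨τ, hτ, rfl⟩, hr⟩
    exact sl2_in_rankOne hDI hIrr hσ hτ hr

end main

end Cfsg.Agent.Lib.QPH39
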