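import Cfsg.Agent.Lib.QPH39Rank1

/-! The rank one case of a pair of root subgroups of a quadratic pair. -/

set_option autoImplicit false

namespace Cfsg.Agent.Lib.QPH39

open Cfsg Cfsg.Agent.RootSub

variable {k : Type*} [Field k] {M : Type*} [AddCommGroup M] [Module k M]

local notation "GLm" => LinearMap.GeneralLinearGroup k M
local notation "End'" => (M →ₗ[k] M)

variable {G : Subgroup (LinearMap.GeneralLinearGroup k M)}

/-- Commutative groups are nilpotent. -/
lemma nilp_of_comm {H : Type*} [Group H] (h : IsMulCommutative H) : Group.IsNilpotent H := by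
  letI : CommGroup H := { (inferInstance : Group H) with mul_comm := h.is_comm.comm }
  exact CommGroup.isNilpotent

lemma unit_dx (g : GLm) (h : dx g * dx g = 0) : unitOfSq (dx g) h = g := by
  apply Units.ext
  simp [dx]

section fd

variable [FiniteDimensional k M]

/-- An element of `E(σ)` different from `1`. -/
lemma exists_unit_of_mem {σ g : GLm} (hσ : σ ∈ minimalQuadraticElements G)
    (hg : g ∈ sameActionSubgroup G σ) (h1 : g ≠ 1) :
    ∃ z : M →ₗ[k] M, QR G z ∧ LinearMap.ker z = LinearMap.ker (dx σ) ∧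
      LinearMap.range z = LinearMap.range (dx σ) ∧ ∃ h : z * z = 0, g = unitOfSq z h := by
  rw [mem_E_iff hσ] at hg
  rcases hg with hg | ⟨hq, hk, hr⟩
  · exfalso
    apply h1
    apply Units.ext
    have : (g : End') = 1 + dx g := coe_eq g
    rw [this, hg]
    simp
  · exact ⟨dx g, hq, hk, hr, hq.sq, (unit_dx g hq.sq).symm⟩

lemma same_unit_mem {σ : GLm} (hσ : σ ∈ minimalQuadraticElements G) {z : M →ₗ[k] M} (hz : QR G z)
    (hk : LinearMap.ker z = LinearMap.ker (dx σ)) (hr : LinearMap.range z = LinearMap.range (dx σ))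
    (h : z * z = 0) : unitOfSq z h ∈ sameActionClass G σ := by
  have e : ((unitOfSq z h : GLm) : End') - 1 = z := by simp
  refine ⟨hz.unit_mem h, ?_, ?_⟩
  · rw [e]; exact hk
  · rw [e]; exact hr

/-- The rank one condition. -/
lemma cond_of_partners {σ τ : GLm} (hσ : σ ∈ minimalQuadraticElements G)
    (hτ : τ ∈ minimalQuadraticElements G)
    (hP : ∀ a ∈ LE G (dx σ) (qr_of_mem hσ), a ≠ 0 → ∃ t, Partner G a (dx τ) t) :
    RankOneCondition (sameActionSubgroup G σ) (sameActionSubgroup G τ) := by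
  intro a ha ha1
  obtain ⟨z, hz, hzk, hzr, hzz, rfl⟩ := exists_unit_of_mem hσ ha ha1
  have hzm : z ∈ LE G (dx σ) (qr_of_mem hσ) := Or.inr ⟨hz, hzk, hzr⟩
  obtain ⟨t, ht, htk, htr, hrp⟩ := hP z hzm hz.ne_zero
  refine ⟨unitOfSq t hrp.tt, Subgroup.subset_closure (same_unit_mem hτ ht htk htr _), ?_, ?_⟩
  · intro h1
    apply ht.ne_zero
    have e : ((unitOfSq t hrp.tt : GLm) : End') = 1 + t := rfl
    rw [h1] at e
    have e2 : ((1 : GLm) : End') = 1 := rfl
    rw [e2] at e
    have : (1 : End') + t = 1 + 0 := by rw [← e]; simp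
    exact add_left_cancel this
  · have e1 : sameActionSubgroup G σ = sameActionSubgroup G (unitOfSq z hrp.xx) :=
      (E_eq_of_same (same_unit_mem hσ hz hzk hzr _)).symm
    have e2 : sameActionSubgroup G τ = sameActionSubgroup G (unitOfSq t hrp.tt) :=
      (E_eq_of_same (same_unit_mem hτ ht htk htr _)).symm
    rw [e1, e2]
    exact conj_swap hz ht hrp

/-- The special identity. -/
lemma special_of_partners {σ τ : GLm} (hσ : σ ∈ minimalQuadraticElements G)
    (hτ : τ ∈ minimalQuadraticElements G)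
    (hP : ∀ a ∈ LE G (dx σ) (qr_of_mem hσ), a ≠ 0 → ∃ t, Partner G a (dx τ) t)
    {a b : GLm} (ha : a ∈ sameActionSubgroup G σ) (ha1 : a ≠ 1) (hb : b ∈ sameActionSubgroup G τ) (hb1 : b ≠ 1)
    (hcond : conjBy (sameActionSubgroup G σ) b⁻¹ = conjBy (sameActionSubgroup G τ) a⁻¹) :
    b⁻¹ * a * b = a⁻¹ * b⁻¹ * a := by
  obtain ⟨z, hz, hzk, hzr, hzz, rfl⟩ := exists_unit_of_mem hσ ha ha1
  obtain ⟨s, hs, hsk, hsr, hss, rfl⟩ := exists_unit_of_mem hτ hb hb1
  have hzm : z ∈ LE G (dx σ) (qr_of_mem hσ) := Or.inr ⟨hz, hzk, hzr⟩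
  obtain ⟨t, ht, htk, htr, hrp⟩ := hP z hzm hz.ne_zero
  have e1 : sameActionSubgroup G σ = sameActionSubgroup G (unitOfSq z hrp.xx) :=
    (E_eq_of_same (same_unit_mem hσ hz hzk hzr _)).symm
  have e2 : sameActionSubgroup G τ = sameActionSubgroup G (unitOfSq s hss) :=
    (E_eq_of_same (same_unit_mem hτ hs hsk hsr _)).symm
  rw [e1, e2] at hcond
  have hst : s = t := partner_unique hz ht hs hrp (hsk.trans htk.symm) (hsr.trans htr.symm) hcond
  subst hst
  have hrel := rp_units z s hrp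
  have e : (unitOfSq s hrp.tt)⁻¹ * unitOfSq z hrp.xx * unitOfSq s hrp.tt =
      ((unitOfSq z hrp.xx)⁻¹ * unitOfSq s hrp.tt * unitOfSq z hrp.xx)⁻¹ :=
    eq_inv_of_mul_eq_one_left hrel
  rw [e]
  group

/-- `π` commutes with operators with range in its range, vanishing on its kernel. -/
lemma pi_comm {x t z : M →ₗ[k] M} (h : RP x t) (hr : LinearMap.range z ≤ LinearMap.range x ⊔ LinearMap.range t)
    (hk : LinearMap.ker x ⊓ LinearMap.ker t ≤ LinearMap.ker z) : h.pi * z = z ∧ z * h.pi = z := by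
  have hid : ∀ v, h.pi (h.pi v) = h.pi v := fun v => congrArg (fun f : End' => f v) h.pi_pi
  constructor
  · ext v
    have : z v ∈ LinearMap.range h.pi := by
      rw [h.range_pi]; exact hr (LinearMap.mem_range_self _ _)
    obtain ⟨w, hw⟩ := this
    show h.pi (z v) = z v
    rw [← hw, hid]
  · ext v
    have h1 : v - h.pi v ∈ LinearMap.ker h.pi := by
      rw [LinearMap.mem_ker, map_sub, hid, sub_self]
    rw [h.ker_pi] at h1
    have h2 := hk h1
    rw [LinearMap.mem_ker, map_sub, sub_eq_zero] at h2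
    exact h2.symm

/-- The Weyl unit. -/
def RP.W {x t : M →ₗ[k] M} (h : RP x t) : GLm := ⟨h.w, h.w', h.w_w', h.w'_w⟩

lemma RP.W_eq {x t : M →ₗ[k] M} (h : RP x t) :
    h.W = unitOfSq x h.xx * (unitOfSq t h.tt)⁻¹ * unitOfSq x h.xx := by
  apply Units.ext
  show h.w = (1 + x) * (1 - t) * (1 + x)
  exact h.w_eq

/-- The main theorem on pairs, given `DI`. -/
theorem s5065_core (hDI : DI G) (h2 : (2 : k) ≠ 0) {σ τ : GLm} (hσ : σ ∈ minimalQuadraticElements G)
    (hτ : τ ∈ minimalQuadraticElements G) :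
    IsUnipotentOn (sameActionSubgroup G σ ⊔ sameActionSubgroup G τ) ∨
    (IsSpecialRankOnePair (sameActionSubgroup G σ) (sameActionSubgroup G τ) ∧
      (∃! i : GLm, i ∈ sameActionSubgroup G σ ⊔ sameActionSubgroup G τ ∧ i ≠ 1 ∧ i * i = 1 ∧
        (∀ x ∈ sameActionSubgroup G σ ⊔ sameActionSubgroup G τ, i * x = x * i) ∧
        (∀ m ∈ commutatorSubmodule (sameActionSubgroup G σ ⊔ sameActionSubgroup G τ), (i : M →ₗ[k] M) m = -m) ∧
        (∀ m ∈ fixedSubmodule (sameActionSubgroup G σ ⊔ sameActionSubgroup G τ), (i : M →ₗ[k] M) m = m)) ∧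
      IsCompl (fixedSubmodule (sameActionSubgroup G σ ⊔ sameActionSubgroup G τ))
        (commutatorSubmodule (sameActionSubgroup G σ ⊔ sameActionSubgroup G τ))) := by
  have hx := qr_of_mem hσ
  have hy := qr_of_mem hτ
  rcases dichotomy hDI hx hy with hU | hP
  · exact Or.inl (unip_of_TU hσ hτ hU)
  right
  have hP' : ∀ a ∈ LE G (dx τ) hy, a ≠ 0 → ∃ t, Partner G a (dx σ) t := by
    rcases dichotomy hDI hy hx with hU | h
    · exfalso
      obtain ⟨t, ht⟩ := hP (dx σ) (self_mem_LE hx) hx.ne_zero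
      have h3 := hU (dx τ) (self_mem_LE hy) (dx σ) (self_mem_LE hx)
      exact not_TU_of_partner ht rfl rfl rfl rfl hx.ne_zero h3.symm
    · exact h
  obtain ⟨t, ht, htk, htr, hrp⟩ := hP (dx σ) (self_mem_LE hx) hx.ne_zero
  have hA : sameActionSubgroup G σ ≠ sameActionSubgroup G τ := by
    intro he
    apply hx.ne_zero
    have h3 : τ ∈ sameActionSubgroup G σ := by
      rw [he]; exact Subgroup.subset_closure ⟨hτ, rfl, rfl⟩
    rw [mem_E_iff hσ] at h3
    rcases h3 with h3 | h3
    · exact absurd h3 hy.ne_zero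
    · have h4 : t * dx σ = 0 := mul_zero_of_ker_range (htk.trans h3.2.1) rfl hx.sq
      have h5 := hrp.xtx
      rw [mul_assoc, h4, mul_zero] at h5
      exact h5.symm
  have hspec : IsSpecialRankOnePair (sameActionSubgroup G σ) (sameActionSubgroup G τ) := by
    refine ⟨⟨hA, ?_, ?_, cond_of_partners hσ hτ hP, cond_of_partners hτ hσ hP'⟩, ?_⟩
    · exact nilp_of_comm (s5059_main hσ).2.1
    · exact nilp_of_comm (s5059_main hτ).2.1
    · intro a ha ha1 b hb hb1 hcond
      exact special_of_partners hσ hτ hP ha ha1 hb hb1 hcond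
  have hfix := fixed_sup hσ hτ
  have hcom := comm_sup hσ hτ
  have hcompl0 := hrp.isCompl
  rw [htk, htr] at hcompl0
  refine ⟨hspec, ?_, by rw [hfix, hcom]; exact hcompl0⟩
  -- the involution
  set X := sameActionSubgroup G σ ⊔ sameActionSubgroup G τ with hX
  have hσX : unitOfSq (dx σ) hrp.xx ∈ X := by
    rw [unit_dx]
    exact Subgroup.mem_sup_left (Subgroup.subset_closure ⟨hσ, rfl, rfl⟩)
  have htX : unitOfSq t hrp.tt ∈ X :=
    Subgroup.mem_sup_right (Subgroup.subset_closure (same_unit_mem hτ ht htk htr _))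
  have hWX : hrp.W ∈ X := by
    rw [hrp.W_eq]
    exact mul_mem (mul_mem hσX (inv_mem htX)) hσX
  have hival : ((hrp.W * hrp.W : GLm) : End') = 1 - (2 : ℤ) • hrp.pi := hrp.w_sq
  have hpix : hrp.pi ≠ 0 := by
    intro h0
    apply hx.ne_zero
    have := hrp.pi_x
    rw [h0, zero_mul] at this
    exact this.symm
  have hi_m : ∀ m, ((hrp.W * hrp.W : GLm) : End') m = m - ((2 : ℤ) • hrp.pi) m := by
    intro m
    rw [hival]
    rfl
  have hid : ∀ v, hrp.pi (hrp.pi v) = hrp.pi v := fun v => congrArg (fun f : End' => f v) hrp.pi_pi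
  have hcomm_m : ∀ m ∈ commutatorSubmodule X, ((hrp.W * hrp.W : GLm) : End') m = -m := by
    intro m hm
    rw [hcom, ← htr, ← hrp.range_pi] at hm
    obtain ⟨w, rfl⟩ := hm
    rw [hi_m]
    have h3 : ((2 : ℤ) • hrp.pi) (hrp.pi w) = hrp.pi w + hrp.pi w := by
      rw [two_smul, LinearMap.add_apply, hid]
    rw [h3]
    abel
  have hfix_m : ∀ m ∈ fixedSubmodule X, ((hrp.W * hrp.W : GLm) : End') m = m := by
    intro m hm
    rw [hfix, ← htk, ← hrp.ker_pi] at hm
    have h3 : hrp.pi m = 0 := hm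
    rw [hi_m]
    simp [h3]
  have hcompl : IsCompl (fixedSubmodule X) (commutatorSubmodule X) := by
    rw [hfix, hcom]; exact hcompl0
  refine ⟨hrp.W * hrp.W, ⟨mul_mem hWX hWX, ?_, ?_, ?_, hcomm_m, hfix_m⟩, ?_⟩
  · intro h1
    apply hpix
    ext m
    have h3 := hcomm_m (hrp.pi m) (by
      rw [hcom, ← htr, ← hrp.range_pi]; exact LinearMap.mem_range_self _ _)
    rw [h1] at h3
    have h4 : hrp.pi m = - hrp.pi m := h3
    have h5 : (2 : k) • hrp.pi m = 0 := by
      rw [two_smul]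
      nth_rewrite 1 [h4]
      simp
    exact (smul_eq_zero.mp h5).resolve_left h2
  · apply Units.ext
    ext m
    obtain ⟨a, ha, b, hb, rfl⟩ := Submodule.mem_sup.mp (hcompl.sup_eq_top ▸ Submodule.mem_top : m ∈ fixedSubmodule X ⊔ commutatorSubmodule X)
    show ((hrp.W * hrp.W : GLm) : End') (((hrp.W * hrp.W : GLm) : End') (a + b)) = a + b
    rw [map_add, hfix_m a ha, hcomm_m b hb, map_add, map_neg, hfix_m a ha, hcomm_m b hb, neg_neg]
  · -- commuting with `X`
    have hgen : ∀ z : M →ₗ[k] M, LinearMap.range z ≤ LinearMap.range (dx σ) ⊔ LinearMap.range t →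
        LinearMap.ker (dx σ) ⊓ LinearMap.ker t ≤ LinearMap.ker z → ∀ g : GLm, dx g = z →
        hrp.W * hrp.W * g = g * (hrp.W * hrp.W) := by
      intro z hr hk g hg
      obtain ⟨h3, h4⟩ := pi_comm hrp hr hk
      apply Units.ext
      have e1 : (g : End') = 1 + z := by
        rw [← hg]; exact coe_eq g
      show ((hrp.W * hrp.W : GLm) : End') * (g : End') = (g : End') * ((hrp.W * hrp.W : GLm) : End')
      rw [hival, e1]
      simp only [mul_add, add_mul, sub_mul, mul_sub, mul_one, one_mul, two_smul, h3, h4]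
      abel
    intro g hg
    rw [hX, Subgroup.sup_eq_closure] at hg
    induction hg using Subgroup.closure_induction with
    | mem g hg =>
      rcases hg with hg | hg
      · have hg' : g ∈ sameActionSubgroup G σ := hg
        rw [mem_E_iff hσ] at hg'
        refine hgen (dx g) ?_ ?_ g rfl
        · rcases hg' with h3 | h3
          · rw [h3]; simp
          · rw [h3.2.2]; exact le_sup_left
        · rcases hg' with h3 | h3
          · rw [h3]; simp
          · rw [h3.2.1]; exact inf_le_left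
      · have hg' : g ∈ sameActionSubgroup G τ := hg
        rw [mem_E_iff hτ] at hg'
        refine hgen (dx g) ?_ ?_ g rfl
        · rcases hg' with h3 | h3
          · rw [h3]; simp
          · rw [h3.2.2, ← htr]; exact le_sup_right
        · rcases hg' with h3 | h3
          · rw [h3]; simp
          · rw [h3.2.1, ← htk]; exact inf_le_right
    | one => simp
    | mul a b _ _ ha hb =>
      rw [← mul_assoc, ha, mul_assoc, hb, mul_assoc]
    | inv a _ ha =>
      have : a⁻¹ * (hrp.W * hrp.W * a) * a⁻¹ = a⁻¹ * (a * (hrp.W * hrp.W)) * a⁻¹ := by rw [ha]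
      have e1 : a⁻¹ * (hrp.W * hrp.W * a) * a⁻¹ = a⁻¹ * (hrp.W * hrp.W) := by group
      have e2 : a⁻¹ * (a * (hrp.W * hrp.W)) * a⁻¹ = hrp.W * hrp.W * a⁻¹ := by group
      rw [e1, e2] at this
      exact this.symm
  · rintro i' ⟨-, -, -, -, h3, h4⟩
    apply Units.ext
    ext m
    obtain ⟨a, ha, b, hb, rfl⟩ := Submodule.mem_sup.mp (hcompl.sup_eq_top ▸ Submodule.mem_top : m ∈ fixedSubmodule X ⊔ commutatorSubmodule X)
    show (i' : End') (a + b) = ((hrp.W * hrp.W : GLm) : End') (a + b)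
    rw [map_add, map_add, h4 a ha, h3 b hb, hfix_m a ha, hcomm_m b hb]

end fd

end Cfsg.Agent.Lib.QPH39
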