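import Cfsg.Agent.Lib.QPH39C2Main

/-! Core versions of the statements on pairs of root subgroups of a quadratic pair, given `DI`. -/

set_option autoImplicit false

namespace Cfsg.Agent.Lib.QPH39

open Cfsg Cfsg.Agent.RootSub

open scoped commutatorElement

variable {k : Type*} [Field k] {M : Type*} [AddCommGroup M] [Module k M]

local notation "GLm" => LinearMap.GeneralLinearGroup k M
local notation "End'" => (M →ₗ[k] M)

variable {G : Subgroup (LinearMap.GeneralLinearGroup k M)}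

section fd

variable [FiniteDimensional k M]

lemma exists_noncomm {A B : Subgroup GLm} (h : ⁅A, B⁆ ≠ ⊥) : ∃ a ∈ A, ∃ b ∈ B, a * b * a⁻¹ * b⁻¹ ≠ 1 := by
  by_contra hcon
  push Not at hcon
  apply h
  rw [eq_bot_iff, Subgroup.commutator_le]
  intro a ha b hb
  rw [Subgroup.mem_bot, commutatorElement_def]
  exact hcon a ha b hb

/-- A non-commuting pair of unipotent type gives a `C2` with the same root groups. -/
lemma exists_C2 {σ τ : GLm} (hσ : σ ∈ minimalQuadraticElements G) (hτ : τ ∈ minimalQuadraticElements G)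
    (hU : ∀ a ∈ LE G (dx σ) (qr_of_mem hσ), ∀ b ∈ LE G (dx τ) (qr_of_mem hτ), TU a b)
    (hne : ⁅sameActionSubgroup G σ, sameActionSubgroup G τ⁆ ≠ ⊥) :
    ∃ x₀ y₀ : M →ₗ[k] M, ∃ H : C2 G x₀ y₀, sameActionSubgroup G σ = sameActionSubgroup G (unitOfSq x₀ H.hx.sq) ∧
      sameActionSubgroup G τ = sameActionSubgroup G (unitOfSq y₀ H.hy.sq) ∧
      C2.Cl G (dx σ) x₀ ∧ C2.Cl G (dx τ) y₀ := by
  obtain ⟨e, he, f, hf, hef⟩ := exists_noncomm hne
  have he1 : e ≠ 1 := by
    rintro rfl
    apply hef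
    group
  have hf1 : f ≠ 1 := by
    rintro rfl
    apply hef
    group
  obtain ⟨x, hx, hxk, hxr, hxx, rfl⟩ := exists_unit_of_mem hσ he he1
  obtain ⟨y, hy, hyk, hyr, hyy, rfl⟩ := exists_unit_of_mem hτ hf hf1
  have hxm : x ∈ LE G (dx σ) (qr_of_mem hσ) := Or.inr ⟨hx, hxk, hxr⟩
  have hym : y ∈ LE G (dx τ) (qr_of_mem hτ) := Or.inr ⟨hy, hyk, hyr⟩
  have hD : Dop x y ≠ 0 := by
    intro h0
    apply hef
    rw [comm_unit hxx hyy (hU x hxm y hym)]
    exact unit_one_of_zero h0 _
  have hC : C2 G x y := by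
    refine ⟨hx, hy, ?_, hD⟩
    intro a ha b hb
    apply hU a _ b _
    · rcases ha with rfl | ⟨h1, h2, h3⟩
      · exact Submodule.zero_mem _
      · exact Or.inr ⟨h1, h2.trans hxk, h3.trans hxr⟩
    · rcases hb with rfl | ⟨h1, h2, h3⟩
      · exact Submodule.zero_mem _
      · exact Or.inr ⟨h1, h2.trans hyk, h3.trans hyr⟩
  refine ⟨x, y, hC, ?_, ?_, ⟨hx, hxk, hxr⟩, ⟨hy, hyk, hyr⟩⟩
  · exact (E_of_unit hx _ hσ hxk hxr).symm
  · exact (E_of_unit hy _ hτ hyk hyr).symm

/-- The full structure of a non-commuting pair of unipotent type. -/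
theorem noncomm_main (hDI : DI G) (hIrr : IsIrreducibleFor G) {σ τ : GLm}
    (hσ : σ ∈ minimalQuadraticElements G) (hτ : τ ∈ minimalQuadraticElements G)
    (hU : ∀ a ∈ LE G (dx σ) (qr_of_mem hσ), ∀ b ∈ LE G (dx τ) (qr_of_mem hτ), TU a b)
    (hne : ⁅sameActionSubgroup G σ, sameActionSubgroup G τ⁆ ≠ ⊥) :
    ⁅sameActionSubgroup G σ, sameActionSubgroup G τ⁆ ∈ quadraticRootSubgroups G ∧
    (∀ e ∈ sameActionSubgroup G σ, e ≠ 1 → Subgroup.closure ((fun f : GLm => e * f * e⁻¹ * f⁻¹) ''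
      (sameActionSubgroup G τ : Set GLm)) = ⁅sameActionSubgroup G σ, sameActionSubgroup G τ⁆) ∧
    (∀ f ∈ sameActionSubgroup G τ, f ≠ 1 → Subgroup.closure ((fun e : GLm => e * f * e⁻¹ * f⁻¹) ''
      (sameActionSubgroup G σ : Set GLm)) = ⁅sameActionSubgroup G σ, sameActionSubgroup G τ⁆) ∧
    ⁅sameActionSubgroup G σ ⊔ sameActionSubgroup G τ, sameActionSubgroup G σ ⊔ sameActionSubgroup G τ⁆ ≠ ⊥ ∧
    ⁅⁅sameActionSubgroup G σ ⊔ sameActionSubgroup G τ, sameActionSubgroup G σ ⊔ sameActionSubgroup G τ⁆,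
      sameActionSubgroup G σ ⊔ sameActionSubgroup G τ⁆ = ⊥ ∧
    ((sameActionSubgroup G σ ⊔ sameActionSubgroup G τ : Subgroup GLm) : Set GLm) ⊆
      quadraticUnipotentCore G ⁅sameActionSubgroup G σ, sameActionSubgroup G τ⁆ ∧
    (∀ c ∈ ⁅sameActionSubgroup G σ, sameActionSubgroup G τ⁆,
      ∀ g ∈ sameActionSubgroup G σ ⊔ sameActionSubgroup G τ, c * g = g * c) := by
  obtain ⟨x₀, y₀, H, h1, h2, -, -⟩ := exists_C2 hσ hτ hU hne
  rw [h1, h2]
  have hcomm := H.commutator_eq hDI hIrr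
  obtain ⟨h3, h4⟩ := H.class_two hDI hIrr
  refine ⟨?_, ?_, ?_, h3, h4, ?_, ?_⟩
  · rw [hcomm]
    exact ⟨_, H.qr_D₀.unit_mem _, rfl⟩
  · intro e he he1
    rw [hcomm]
    exact H.closure_R hDI hIrr he he1
  · intro f hf hf1
    rw [hcomm]
    exact H.closure_L hDI hIrr hf hf1
  · intro g hg
    rw [hcomm]
    exact H.join_le_core hg
  · intro c hc g hg
    rw [hcomm] at hc
    exact H.central hc hg

omit [FiniteDimensional k M] in
lemma unip_list {H : Subgroup GLm} (hU : IsUnipotentOn H) :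
    ∃ n : ℕ, ∀ l : List GLm, (∀ g ∈ l, g ∈ H) → l.length = n →
      (l.map fun g : GLm => (g : End') - 1).prod = 0 := by
  obtain ⟨n, hn⟩ := hU
  refine ⟨n, fun l hl hlen => ?_⟩
  have key : ∀ l : List GLm, (List.map (fun g : End' => g - 1) (do let a ← l; pure (a : End'))).prod =
      (l.map fun g : GLm => (g : End') - 1).prod := by
    intro l
    induction l with
    | nil => rfl
    | cons a l ih =>
      simp only [List.map_cons, List.prod_cons] at ih ⊢
      rw [← ih]
      simp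
  rw [← key]
  exact hn l hl hlen

/-- A group containing both elements of a rank one pair is not unipotent. -/
lemma not_unip_of_RP {x t : M →ₗ[k] M} (h : RP x t) (hx0 : x ≠ 0) {H : Subgroup GLm}
    (h1 : unitOfSq x h.xx ∈ H) (h2 : unitOfSq t h.tt ∈ H) : ¬ IsUnipotentOn H := by
  intro hU
  obtain ⟨n, hn⟩ := unip_list hU
  have hA : ∀ m : ℕ, ∃ l : List GLm, l.length = 2 * m ∧ (∀ g ∈ l, g ∈ H) ∧
      (l.map fun g : GLm => (g : End') - 1).prod * x = x := by
    intro m
    induction m with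
    | zero => exact ⟨[], rfl, by simp, by simp⟩
    | succ m ih =>
      obtain ⟨l, hl, hlH, hlx⟩ := ih
      refine ⟨unitOfSq x h.xx :: unitOfSq t h.tt :: l, by simp [hl]; ring, ?_, ?_⟩
      · intro g hg
        rcases List.mem_cons.mp hg with rfl | hg
        · exact h1
        rcases List.mem_cons.mp hg with rfl | hg
        · exact h2
        · exact hlH g hg
      · rw [List.map_cons, List.map_cons, List.prod_cons, List.prod_cons]
        have e1 : ((unitOfSq x h.xx : GLm) : End') - 1 = x := by simp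
        have e2 : ((unitOfSq t h.tt : GLm) : End') - 1 = t := by simp
        rw [e1, e2, mul_assoc, mul_assoc, hlx, ← mul_assoc]
        exact h.xtx
  rcases Nat.even_or_odd' n with ⟨m, rfl | rfl⟩
  · obtain ⟨l, hl, hlH, hlx⟩ := hA m
    have := hn l hlH hl
    rw [this, zero_mul] at hlx
    exact hx0 hlx.symm
  · obtain ⟨l, hl, hlH, hlx⟩ := hA m
    have := hn (unitOfSq t h.tt :: l) (by
      intro g hg
      rcases List.mem_cons.mp hg with rfl | hg
      · exact h2
      · exact hlH g hg) (by simp [hl])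
    rw [List.map_cons, List.prod_cons] at this
    have e2 : ((unitOfSq t h.tt : GLm) : End') - 1 = t := by simp
    rw [e2] at this
    have h3 : t * x = 0 := by
      calc t * x = t * ((l.map fun g : GLm => (g : End') - 1).prod * x) := by rw [hlx]
        _ = 0 := by rw [← mul_assoc, this, zero_mul]
    have h4 := h.xtx
    rw [mul_assoc, h3, mul_zero] at h4
    exact hx0 h4.symm

/-- Both elements of a partner pair lie in the join. -/
lemma units_mem_join {σ τ : GLm} (hσ : σ ∈ minimalQuadraticElements G) (hτ : τ ∈ minimalQuadraticElements G)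
    {t : M →ₗ[k] M} (hp : Partner G (dx σ) (dx τ) t) :
    unitOfSq (dx σ) hp.2.2.2.xx ∈ sameActionSubgroup G σ ⊔ sameActionSubgroup G τ ∧
    unitOfSq t hp.2.2.2.tt ∈ sameActionSubgroup G σ ⊔ sameActionSubgroup G τ := by
  constructor
  · rw [unit_dx]
    exact Subgroup.mem_sup_left (Subgroup.subset_closure ⟨hσ, rfl, rfl⟩)
  · exact Subgroup.mem_sup_right (Subgroup.subset_closure (same_unit_mem hτ hp.1 hp.2.1 hp.2.2.1 _))

/-- S5068, core version. -/
theorem s5068_core (hDI : DI G) (hIrr : IsIrreducibleFor G) {σ τ : GLm}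
    (hσ : σ ∈ minimalQuadraticElements G) (hτ : τ ∈ minimalQuadraticElements G)
    (hu : IsUnipotentOn (sameActionSubgroup G σ ⊔ sameActionSubgroup G τ)) :
    ∀ a ∈ LE G (dx σ) (qr_of_mem hσ), ∀ b ∈ LE G (dx τ) (qr_of_mem hτ), TU a b := by
  rcases dichotomy hDI (qr_of_mem hσ) (qr_of_mem hτ) with h | h
  · exact h
  · exfalso
    obtain ⟨t, ht⟩ := h (dx σ) (self_mem_LE _) (qr_of_mem hσ).ne_zero
    obtain ⟨h1, h2⟩ := units_mem_join hσ hτ ht
    exact not_unip_of_RP ht.2.2.2 (qr_of_mem hσ).ne_zero h1 h2 hu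

/-- S5066, core version. -/
theorem s5066_core (hDI : DI G) {σ τ : GLm}
    (hσ : σ ∈ minimalQuadraticElements G) (hτ : τ ∈ minimalQuadraticElements G)
    (h2 : ⁅⁅sameActionSubgroup G σ ⊔ sameActionSubgroup G τ, sameActionSubgroup G σ ⊔ sameActionSubgroup G τ⁆,
      sameActionSubgroup G σ ⊔ sameActionSubgroup G τ⁆ = ⊥) :
    ∀ a ∈ LE G (dx σ) (qr_of_mem hσ), ∀ b ∈ LE G (dx τ) (qr_of_mem hτ), TU a b := by
  rcases dichotomy hDI (qr_of_mem hσ) (qr_of_mem hτ) with h | h
  · exact h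
  · exfalso
    obtain ⟨t, ht⟩ := h (dx σ) (self_mem_LE _) (qr_of_mem hσ).ne_zero
    obtain ⟨h3, h4⟩ := units_mem_join hσ hτ ht
    have hrp := ht.2.2.2
    set a := unitOfSq (dx σ) hrp.xx
    set b := unitOfSq t hrp.tt
    have hc : ⁅⁅a, b⁆, a⁆ ∈ (⊥ : Subgroup GLm) := by
      rw [← h2]
      exact Subgroup.commutator_mem_commutator (Subgroup.commutator_mem_commutator h3 h4) h3
    rw [Subgroup.mem_bot, commutatorElement_eq_one_iff_mul_comm, commutatorElement_def] at hc
    have hval := congrArg (fun g : GLm => (g : End')) hc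
    have e1 : ((a * b * a⁻¹ * b⁻¹ * a : GLm) : End') =
        ((1 + dx σ) * (1 + t) * (1 - dx σ) * (1 - t)) * (1 + dx σ) := rfl
    have e2 : ((a * (a * b * a⁻¹ * b⁻¹) : GLm) : End') =
        (1 + dx σ) * ((1 + dx σ) * (1 + t) * (1 - dx σ) * (1 - t)) := rfl
    simp only [e1, e2] at hval
    apply (qr_of_mem hσ).ne_zero
    apply hrp.comm_eq_zero
    set g₁ := (1 + dx σ) * (1 + t) * (1 - dx σ) * (1 - t) with hg₁
    have h5 : g₁ + g₁ * dx σ = g₁ + dx σ * g₁ := by
      have h6 : g₁ * (1 + dx σ) = (1 + dx σ) * g₁ := hval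
      rw [mul_add, mul_one, add_mul, one_mul] at h6
      exact h6
    exact add_left_cancel h5

/-- S5073, core version. -/
theorem s5073_core (hDI : DI G) {σ τ : GLm}
    (hσ : σ ∈ minimalQuadraticElements G) (hτ : τ ∈ minimalQuadraticElements G)
    (h : (∃ e ∈ sameActionSubgroup G σ, e ≠ 1 ∧ ∃ f ∈ sameActionSubgroup G τ, f ≠ 1 ∧ e * f = f * e) ∨
      sameActionSubgroup G σ ⊓ Subgroup.normalizer (sameActionSubgroup G τ : Set GLm) ≠ ⊥) :
    ⁅sameActionSubgroup G σ, sameActionSubgroup G τ⁆ = ⊥ := by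
  have hxq := qr_of_mem hσ
  have hyq := qr_of_mem hτ
  -- commuting or normalizing data
  have hex : ∃ x, C2.Cl G (dx σ) x ∧ ∃ hxx : x * x = 0,
      ((∃ y, C2.Cl G (dx τ) y ∧ x * y = y * x) ∨ (∀ y, C2.Cl G (dx τ) y →
        C2.Cl G (dx τ) (cj (unitOfSq x hxx) y))) := by
    rcases h with ⟨e, he, he1, f, hf, hf1, hef⟩ | hn
    · obtain ⟨x, hx, hxk, hxr, hxx, rfl⟩ := exists_unit_of_mem hσ he he1
      obtain ⟨y, hy, hyk, hyr, hyy, rfl⟩ := exists_unit_of_mem hτ hf hf1
      refine ⟨x, ⟨hx, hxk, hxr⟩, hxx, Or.inl ⟨y, ⟨hy, hyk, hyr⟩, ?_⟩⟩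
      have := congrArg (fun g : GLm => (g : End')) hef
      have e1 : ((unitOfSq x hxx * unitOfSq y hyy : GLm) : End') = (1 + x) * (1 + y) := rfl
      have e2 : ((unitOfSq y hyy * unitOfSq x hxx : GLm) : End') = (1 + y) * (1 + x) := rfl
      simp only [e1, e2, mul_add, add_mul, mul_one, one_mul] at this
      have h3 : x + (y + x * y) = y + (x + y * x) := by
        simpa [add_assoc] using this
      have h4 : y + (x + x * y) = y + (x + y * x) := by
        rw [← h3]; abel
      exact add_left_cancel (add_left_cancel h4)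
    · obtain ⟨⟨e, he⟩, he1⟩ := (Subgroup.ne_bot_iff_exists_ne_one).mp hn
      have he1' : e ≠ 1 := fun h => he1 (Subtype.ext h)
      obtain ⟨hE, hN⟩ := Subgroup.mem_inf.mp he
      obtain ⟨x, hx, hxk, hxr, hxx, rfl⟩ := exists_unit_of_mem hσ hE he1'
      refine ⟨x, ⟨hx, hxk, hxr⟩, hxx, Or.inr ?_⟩
      intro y hy
      have hunit : unitOfSq y hy.1.sq ∈ sameActionSubgroup G τ :=
        Subgroup.subset_closure (same_unit_mem hτ hy.1 hy.2.1 hy.2.2 _)
      have h3 := (Subgroup.mem_normalizer_iff.mp hN _).mp hunit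
      have h4 : cj (unitOfSq x hxx) y = dx (unitOfSq x hxx * unitOfSq y hy.1.sq * (unitOfSq x hxx)⁻¹) := by
        rw [dx_conj]
        congr 1
        simp [dx]
      have h5 : dx (unitOfSq x hxx * unitOfSq y hy.1.sq * (unitOfSq x hxx)⁻¹) ∈ LE G (dx τ) hyq :=
        (mem_E_iff hτ).mp h3
      rw [← h4] at h5
      exact C2.cl_of_mem h5 (cj_ne_zero _ hy.1.ne_zero)
  obtain ⟨x, hx, hxx, hcase⟩ := hex
  by_contra hne
  rcases dichotomy hDI hxq hyq with hU | hP
  · -- unipotent type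
    obtain ⟨x₀, y₀, H, -, -, h3, h4⟩ := exists_C2 hσ hτ hU hne
    have hx' : C2.Cl G x₀ x := ⟨hx.1, hx.2.1.trans h3.2.1.symm, hx.2.2.trans h3.2.2.symm⟩
    have hcl : ∀ {y}, C2.Cl G (dx τ) y → C2.Cl G y₀ y := fun {y} hy =>
      ⟨hy.1, hy.2.1.trans h4.2.1.symm, hy.2.2.trans h4.2.2.symm⟩
    rcases hcase with ⟨y, hy, hxy⟩ | hcase
    · apply H.D_ne_zero hx' (hcl hy)
      rw [Dop, hxy, sub_self]
    · have hy₀ : C2.Cl G y₀ y₀ := ⟨H.hy, rfl, rfl⟩
      have h5 := hcase y₀ h4
      have hTU := H.tu_cl hx' hy₀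
      have e : cj (unitOfSq x hxx) y₀ = y₀ + Dop x y₀ := by
        rw [cj_unit, hTU.1, Dop]
        abel
      rw [e] at h5
      have hD : Dop x y₀ ∈ LE G (dx τ) hyq := by
        have h6 : y₀ + Dop x y₀ ∈ LE G (dx τ) hyq := Or.inr h5
        have h7 : y₀ ∈ LE G (dx τ) hyq := Or.inr h4
        have := sub_mem h6 h7
        simpa using this
      have hD0 := H.D_ne_zero hx' hy₀
      have hDcl : C2.Cl G (dx τ) (Dop x y₀) := C2.cl_of_mem hD hD0
      have hw := H.cl_D hx' hy₀
      have h8 := H.x_mul_w hx' hw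
      have h9 := H.w_mul_x hx' hw
      apply hD0
      have h10 : x * y₀ = 0 := by
        ext v
        have h11 : y₀ v ∈ LinearMap.range (Dop x y₀) := by
          rw [hDcl.2.2, ← h4.2.2]
          exact LinearMap.mem_range_self _ _
        obtain ⟨u, hu⟩ := h11
        show x (y₀ v) = 0
        rw [← hu]
        exact congrArg (fun f : End' => f u) h8
      have h12 : y₀ * x = 0 := by
        ext v
        have h13 : x v ∈ LinearMap.ker (Dop x y₀) := congrArg (fun f : End' => f v) h9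
        rw [hDcl.2.1, ← h4.2.1] at h13
        exact h13
      rw [Dop, h10, h12, sub_self]
  · -- rank one type
    obtain ⟨t, ht, htk, htr, hrp⟩ := hP x (Or.inr hx) hx.1.ne_zero
    rcases hcase with ⟨y, hy, hxy⟩ | hcase
    · apply hx.1.ne_zero
      ext v
      have h3 : x (y v) ∈ LinearMap.range x ⊓ LinearMap.range t := by
        refine Submodule.mem_inf.mpr ⟨LinearMap.mem_range_self _ _, ?_⟩
        have e : x (y v) = y (x v) := congrArg (fun f : End' => f v) hxy
        rw [e, htr, ← hy.2.2]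
        exact LinearMap.mem_range_self _ _
      rw [hrp.range_inf_range, Submodule.mem_bot] at h3
      have e : y (x v) = 0 := by
        have e2 : x (y v) = y (x v) := congrArg (fun f : End' => f v) hxy
        rw [← e2]; exact h3
      have h4 : x v ∈ LinearMap.range x ⊓ LinearMap.ker t := by
        refine Submodule.mem_inf.mpr ⟨LinearMap.mem_range_self _ _, ?_⟩
        rw [htk, ← hy.2.1]
        exact e
      rw [hrp.range_inf_ker, Submodule.mem_bot] at h4
      exact h4
    · have hty : C2.Cl G (dx τ) t := ⟨ht, htk, htr⟩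
      have h3 := hcase t hty
      -- `1 + x` stabilizes the range of `t`
      have h4 : ∀ v ∈ LinearMap.range t, x v = 0 := by
        intro v hv
        have h5 : (1 + x) v ∈ LinearMap.range t := by
          have h6 := h3.2.2
          rw [range_cj, ← htr] at h6
          rw [← h6]
          exact ⟨v, hv, rfl⟩
        have h7 : x v ∈ LinearMap.range x ⊓ LinearMap.range t := by
          refine Submodule.mem_inf.mpr ⟨LinearMap.mem_range_self _ _, ?_⟩
          have e : x v = (1 + x) v - v := by simp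
          rw [e]
          exact sub_mem h5 hv
        rw [hrp.range_inf_range, Submodule.mem_bot] at h7
        exact h7
      apply ht.ne_zero
      ext v
      have h5 : t v ∈ LinearMap.range t ⊓ LinearMap.ker x :=
        Submodule.mem_inf.mpr ⟨LinearMap.mem_range_self _ _, h4 _ (LinearMap.mem_range_self _ _)⟩
      rw [hrp.ker_inf_range, Submodule.mem_bot] at h5
      exact h5

end fd

end Cfsg.Agent.Lib.QPH39
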