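import Mathlib
import Cfsg.Agent.Lib.PLocalTools2
import Cfsg.Agent.Lib.Subnormal

/-!
# Quadratic action: stabilizers of `V ≥ Y`, Wielandt closures.
-/

set_option autoImplicit false
set_option linter.style.haveILetI false
set_option linter.unusedSectionVars false

open Cfsg
open scoped commutatorElement Pointwise

namespace Cfsg.Agent.Lib.QuadLocal

open Cfsg.Agent.Lib.ThompsonJ Cfsg.Agent.Lib.PLocalTools Cfsg.Agent.Lib.Replacement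

variable {G : Type*} [Group G]

/-- The subgroup of `H` (normalizing `V`) acting trivially on `V / Y`, for `Y ≤ V`. -/
def stabT (H V Y : Subgroup G) (hYV : Y ≤ V) (hHV : ∀ u ∈ H, ∀ v ∈ V, u * v * u⁻¹ ∈ V) :
    Subgroup G where
  carrier := {u | u ∈ H ∧ ∀ v ∈ V, ⁅v, u⁆ ∈ Y}
  one_mem' := ⟨H.one_mem, fun v _ => by simp [commutatorElement_def]⟩
  mul_mem' := by
    rintro u u' ⟨hu, hu2⟩ ⟨hu', hu'2⟩
    refine ⟨H.mul_mem hu hu', fun v hv => ?_⟩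
    have h1 : ⁅v, u * u'⁆ = ⁅v, u⁆ * (u * ⁅v, u'⁆ * u⁻¹) := by
      simp only [commutatorElement_def]; group
    rw [h1]
    refine Y.mul_mem (hu2 v hv) ?_
    have ht := hu'2 v hv
    have h2 : u * ⁅v, u'⁆ * u⁻¹ = ⁅⁅v, u'⁆, u⁆⁻¹ * ⁅v, u'⁆ := by
      generalize ⁅v, u'⁆ = t
      simp only [commutatorElement_def]; group
    rw [h2]
    exact Y.mul_mem (Y.inv_mem (hu2 _ (hYV ht))) ht
  inv_mem' := by
    rintro u ⟨hu, hu2⟩
    refine ⟨H.inv_mem hu, fun v hv => ?_⟩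
    have hw : u⁻¹ * v * u ∈ V := by
      have := hHV _ (H.inv_mem hu) v hv
      simpa using this
    have h1 : ⁅v, u⁻¹⁆ = ⁅u⁻¹ * v * u, u⁆⁻¹ := by
      simp only [commutatorElement_def]; group
    rw [h1]
    exact Y.inv_mem (hu2 _ hw)

theorem mem_stabT {H V Y : Subgroup G} {hYV : Y ≤ V} {hHV : ∀ u ∈ H, ∀ v ∈ V, u * v * u⁻¹ ∈ V}
    {u : G} : u ∈ stabT H V Y hYV hHV ↔ u ∈ H ∧ ∀ v ∈ V, ⁅v, u⁆ ∈ Y := Iff.rfl

/-- Conjugates of `⁅V, E⁆`: the commutator is normalized by `E`, when `⁅V, E⁆ ≤ V`. -/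
theorem conj_mem_comm {V E : Subgroup G} (hYV : ⁅V, E⁆ ≤ V) {x t : G} (hx : x ∈ E)
    (ht : t ∈ ⁅V, E⁆) : x * t * x⁻¹ ∈ ⁅V, E⁆ := by
  have h2 : x * t * x⁻¹ = ⁅t, x⁆⁻¹ * t := by
    simp only [commutatorElement_def]; group
  rw [h2]
  exact Subgroup.mul_mem _ (Subgroup.inv_mem _ (Subgroup.commutator_mem_commutator (hYV ht) hx)) ht

theorem comm_le_of_normalizes {V E : Subgroup G} (hE : ∀ u ∈ E, ∀ v ∈ V, u * v * u⁻¹ ∈ V) :
    ⁅V, E⁆ ≤ V := by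
  rw [Subgroup.commutator_le]
  intro v hv u hu
  rw [commutatorElement_def, mul_assoc, mul_assoc]
  refine V.mul_mem hv ?_
  rw [← mul_assoc]
  exact hE u hu _ (V.inv_mem hv)

section Wielandt

variable {Γ : Type*} [Group Γ] [Finite Γ]

theorem conj_family_subnormal (X : Subgroup Γ) (hX : X.IsSubnormal) :
    ∀ U ∈ {U : Subgroup Γ | ∃ g : Γ, U = MulAut.conj g • X}, U.IsSubnormal := by
  rintro _ ⟨g, rfl⟩
  exact hX.smul _

theorem conj_family_closed (X : Subgroup Γ) :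
    ∀ U ∈ {U : Subgroup Γ | ∃ g : Γ, U = MulAut.conj g • X}, ∀ g : Γ,
      MulAut.conj g • U ∈ {U : Subgroup Γ | ∃ g : Γ, U = MulAut.conj g • X} := by
  rintro _ ⟨g', rfl⟩ g
  exact ⟨g * g', by rw [smul_smul, map_mul]⟩

/-- Wielandt closures: two subnormal subgroups `X₁, X₂` with `X₁ ≤ T`, `X₂ ≤ K`, such that `X₁` normalizes
`K` and `K` normalizes `T`: then `[X₁, X₂]` lies in a subnormal subgroup of `T ⊓ K`. -/
theorem exists_subnormal_comm_le (X₁ X₂ T K : Subgroup Γ)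
    (hs₁ : X₁.IsSubnormal) (hs₂ : X₂.IsSubnormal) (h1 : X₁ ≤ T) (h2 : X₂ ≤ K)
    (h3 : ∀ x ∈ X₁, ∀ k ∈ K, x * k * x⁻¹ ∈ K) (h4 : ∀ y ∈ K, ∀ t ∈ T, y * t * y⁻¹ ∈ T) :
    ∃ D : Subgroup Γ, D.IsSubnormal ∧ D ≤ T ∧ D ≤ K ∧ ⁅X₁, X₂⁆ ≤ D := by
  open Cfsg.Agent.Lib.Subnormal in
  let F₂ : Set (Subgroup Γ) := {U | ∃ x ∈ X₁, U = MulAut.conj x • X₂}
  have hF₂ : F₂ ⊆ {U : Subgroup Γ | ∃ g : Γ, U = MulAut.conj g • X₂} := by
    rintro _ ⟨x, -, rfl⟩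
    exact ⟨x, rfl⟩
  have hX₂s : (sSup F₂).IsSubnormal :=
    sSup_isSubnormal _ (conj_family_subnormal X₂ hs₂) (conj_family_closed X₂) F₂ hF₂
  have hX₂K : sSup F₂ ≤ K := by
    refine sSup_le ?_
    rintro _ ⟨x, hx, rfl⟩ z hz
    have hz1 := h2 (mem_conj_smul.mp hz)
    have := h3 x hx _ hz1
    have h5 : x * (x⁻¹ * z * x) * x⁻¹ = z := by group
    rwa [h5] at this
  have hX₂le : X₂ ≤ sSup F₂ := by
    refine le_sSup ⟨1, X₁.one_mem, ?_⟩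
    simp
  have hX₁n : ∀ x ∈ X₁, ∀ d ∈ sSup F₂, x * d * x⁻¹ ∈ sSup F₂ := by
    intro x hx
    refine conj_mem_sSup_of_closed F₂ x ?_
    rintro _ ⟨x', hx', rfl⟩
    exact ⟨x * x', X₁.mul_mem hx hx', by rw [smul_smul, map_mul]⟩
  let F₁ : Set (Subgroup Γ) := {U | ∃ y ∈ sSup F₂, U = MulAut.conj y • X₁}
  have hF₁ : F₁ ⊆ {U : Subgroup Γ | ∃ g : Γ, U = MulAut.conj g • X₁} := by
    rintro _ ⟨x, -, rfl⟩
    exact ⟨x, rfl⟩
  have hX₁s : (sSup F₁).IsSubnormal :=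
    sSup_isSubnormal _ (conj_family_subnormal X₁ hs₁) (conj_family_closed X₁) F₁ hF₁
  have hX₁T : sSup F₁ ≤ T := by
    refine sSup_le ?_
    rintro _ ⟨y, hy, rfl⟩ z hz
    have hz1 := h1 (mem_conj_smul.mp hz)
    have := h4 y (hX₂K hy) _ hz1
    have h5 : y * (y⁻¹ * z * y) * y⁻¹ = z := by group
    rwa [h5] at this
  have hX₁le : X₁ ≤ sSup F₁ := by
    refine le_sSup ⟨1, Subgroup.one_mem _, ?_⟩
    simp
  have hX₂n : ∀ y ∈ sSup F₂, ∀ d ∈ sSup F₁, y * d * y⁻¹ ∈ sSup F₁ := by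
    intro y hy
    refine conj_mem_sSup_of_closed F₁ y ?_
    rintro _ ⟨y', hy', rfl⟩
    exact ⟨y * y', Subgroup.mul_mem _ hy hy', by rw [smul_smul, map_mul]⟩
  refine ⟨sSup F₁ ⊓ sSup F₂, hX₁s.inf hX₂s, inf_le_left.trans hX₁T, inf_le_right.trans hX₂K, ?_⟩
  rw [Subgroup.commutator_le]
  intro x hx y hy
  refine Subgroup.mem_inf.mpr ⟨?_, ?_⟩
  · have h5 : ⁅x, y⁆ = x * (y * x⁻¹ * y⁻¹) := by
      simp only [commutatorElement_def]; group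
    rw [h5]
    exact Subgroup.mul_mem _ (hX₁le hx) (hX₂n y (hX₂le hy) _ (Subgroup.inv_mem _ (hX₁le hx)))
  · rw [commutatorElement_def]
    exact Subgroup.mul_mem _ (hX₁n x hx y (hX₂le hy)) (Subgroup.inv_mem _ (hX₂le hy))

end Wielandt

end Cfsg.Agent.Lib.QuadLocal
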