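import Mathlib

/-!
# Quadratic pairs: ring identity and the pair in `PSL₂(F)`.

Two elements `1 + a`, `1 + b` of a ring with `a² = b² = 0`, satisfying the braid relation and with
`((1+a)(1+b)(1+a))² = 1`, coincide if `2` is cancellable. In `PSL₂(F)`, `F` of odd characteristic `p`, every non-trivial
element of `p`-power order is part of such a pair with another element.
-/

set_option autoImplicit false
set_option linter.style.haveILetI false
set_option linter.unusedSectionVars false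

open Matrix

namespace Cfsg.Agent.Lib.QuadPSL

section Ring

variable {R : Type*} [Ring R]

theorem eq_of_braid (a b : R) (ha : a * a = 0) (hb : b * b = 0)
    (hbr : (1 + a) * (1 + b) * (1 + a) = (1 + b) * (1 + a) * (1 + b))
    (hsq : ((1 + a) * (1 + b) * (1 + a)) * ((1 + a) * (1 + b) * (1 + a)) = 1)
    (h2 : ∀ x : R, x + x = 0 → x = 0) : a = b := by
  have haa : ∀ x, a * (a * x) = 0 := fun x => by rw [← mul_assoc, ha, zero_mul]
  have hbb : ∀ x, b * (b * x) = 0 := fun x => by rw [← mul_assoc, hb, zero_mul]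
  have e : (1 + a) * (1 + b) * (1 + a) - (1 + b) * (1 + a) * (1 + b)
      = a - b + a * a - b * b + a * (b * a) - b * (a * b) := by noncomm_ring
  rw [hbr, sub_self, ha, hb] at e
  have E1 : a + a * (b * a) = b + b * (a * b) := by
    have : (a + a * (b * a)) - (b + b * (a * b)) = a - b + 0 - 0 + a * (b * a) - b * (a * b) := by abel
    rw [← e] at this
    exact sub_eq_zero.mp this
  have habab : a * (b * (a * b)) = -(a * b) := by
    have := congrArg (fun x => a * x) E1
    simp only [mul_add, ha, haa, zero_add] at this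
    exact eq_neg_of_add_eq_zero_right this.symm
  have hbaba : b * (a * (b * a)) = -(b * a) := by
    have := congrArg (fun x => b * x) E1
    simp only [mul_add, hb, hbb, add_zero] at this
    exact eq_neg_of_add_eq_zero_right this
  set t : R := a + a + b + a * b + b * a + a * (b * a) with ht
  have hg : (1 + a) * (1 + b) * (1 + a) = 1 + t := by
    have : (1 + a) * (1 + b) * (1 + a) = 1 + (a + a + b + a * b + b * a + a * (b * a)) + a * a := by noncomm_ring
    rw [this, ha, add_zero]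
  have htt : t * t = (a * (b * a) + a * (b * a)) + (b * (a * b) + b * (a * b)) := by
    rw [ht]
    simp only [add_mul, mul_add, mul_assoc, ha, hb, haa, hbb, habab, hbaba, mul_neg,
      mul_zero, add_zero, zero_add]
    abel
  have h3 : (t + a * (b * a) + b * (a * b)) + (t + a * (b * a) + b * (a * b)) = 0 := by
    rw [hg] at hsq
    have h4 : (1 + t) * (1 + t) = 1 + (t + t + t * t) := by noncomm_ring
    rw [h4, htt] at hsq
    have h5 : t + t + ((a * (b * a) + a * (b * a)) + (b * (a * b) + b * (a * b))) = 0 := by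
      simpa using hsq
    rw [← h5]
    abel
  have hX := h2 _ h3
  have hA : a * (b * a) = 0 := by
    have := congrArg (fun x => a * x) hX
    simp only [ht, mul_add, ha, haa, habab, mul_zero, add_zero, zero_add] at this
    rw [← this]
    abel
  have hB : b * (a * b) = 0 := by
    have := congrArg (fun x => b * x) hX
    simp only [ht, mul_add, hb, hbb, hbaba, mul_zero, add_zero, zero_add] at this
    rw [← this]
    abel
  rw [hA, hB, add_zero, add_zero] at E1
  exact E1

end Ring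

section PSL

variable {F : Type*} [Field F]

/-- The matrix identities of a pair. -/
theorem pair_mat (α β γ : F) (hβ : β ≠ 0) (h : α * α + β * γ = 0) :
    let X : Matrix (Fin 2) (Fin 2) F := !![1 + α, β; γ, 1 - α]
    let Y : Matrix (Fin 2) (Fin 2) F := !![1, 0; -β⁻¹, 1]
    let T : Matrix (Fin 2) (Fin 2) F := !![α, β; γ - β⁻¹, -α]
    X * Y * X = T ∧ Y * X * Y = T ∧ T * T = -1 := by
  intro X Y T
  have hγ : γ = -(α * α) * β⁻¹ := by
    field_simp
    linear_combination h
  refine ⟨?_, ?_, ?_⟩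
  · ext i j
    fin_cases i <;> fin_cases j <;> simp [X, Y, T, Matrix.mul_apply, Fin.sum_univ_two] <;> subst hγ <;> field_simp <;> ring
  · ext i j
    fin_cases i <;> fin_cases j <;> simp [X, Y, T, Matrix.mul_apply, Fin.sum_univ_two] <;> subst hγ <;> field_simp <;> ring
  · ext i j
    fin_cases i <;> fin_cases j <;> simp [T, Matrix.mul_apply, Fin.sum_univ_two] <;> subst hγ <;> field_simp <;> ring

theorem pair_mat' (α β γ : F) (hγ : γ ≠ 0) (h : α * α + β * γ = 0) :
    let X : Matrix (Fin 2) (Fin 2) F := !![1 + α, β; γ, 1 - α]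
    let Y : Matrix (Fin 2) (Fin 2) F := !![1, -γ⁻¹; 0, 1]
    let T : Matrix (Fin 2) (Fin 2) F := !![α, β - γ⁻¹; γ, -α]
    X * Y * X = T ∧ Y * X * Y = T ∧ T * T = -1 := by
  intro X Y T
  have hβ : β = -(α * α) * γ⁻¹ := by
    field_simp
    linear_combination h
  refine ⟨?_, ?_, ?_⟩
  · ext i j
    fin_cases i <;> fin_cases j <;> simp [X, Y, T, Matrix.mul_apply, Fin.sum_univ_two] <;> subst hβ <;> field_simp <;> ring
  · ext i j
    fin_cases i <;> fin_cases j <;> simp [X, Y, T, Matrix.mul_apply, Fin.sum_univ_two] <;> subst hβ <;> field_simp <;> ring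
  · ext i j
    fin_cases i <;> fin_cases j <;> simp [T, Matrix.mul_apply, Fin.sum_univ_two] <;> subst hβ <;> field_simp <;> ring

variable {p : ℕ} [hp : Fact p.Prime] [CharP F p]

/-- A lift of an element of `p`-power order of `PSL₂` of `p`-power order. -/
theorem exists_lift (hp2 : p ≠ 2) (M₀ : Matrix.SpecialLinearGroup (Fin 2) F) {k : ℕ}
    (h : M₀ ^ (p ^ k) ∈ Subgroup.center (Matrix.SpecialLinearGroup (Fin 2) F)) :
    ∃ X : Matrix.SpecialLinearGroup (Fin 2) F,
      (QuotientGroup.mk X : ProjectiveSpecialLinearGroup (Fin 2) F) = QuotientGroup.mk M₀ ∧ X ^ (p ^ k) = 1 := by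
  obtain ⟨r, hr, hrM⟩ := Matrix.SpecialLinearGroup.mem_center_iff.mp h
  have hr2 : r * r = 1 := by simpa [pow_two] using hr
  have hodd : Odd (p ^ k) := Odd.pow (hp.out.odd_of_ne_two hp2)
  obtain ⟨j, hj⟩ := hodd
  have hrp : r ^ (p ^ k) = r := by
    rw [hj, pow_succ, pow_mul, pow_two, hr2, one_pow, one_mul]
  have hdet : ((r • (M₀ : Matrix (Fin 2) (Fin 2) F))).det = 1 := by
    rw [Matrix.det_smul, M₀.2]
    simp [pow_two, hr2]
  refine ⟨⟨r • (M₀ : Matrix (Fin 2) (Fin 2) F), hdet⟩, ?_, ?_⟩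
  · refine (QuotientGroup.eq.mpr ?_).symm
    refine Matrix.SpecialLinearGroup.mem_center_iff.mpr ⟨r, hr, ?_⟩
    have hinv : ((M₀⁻¹ : Matrix.SpecialLinearGroup (Fin 2) F) : Matrix (Fin 2) (Fin 2) F) * (M₀ : Matrix (Fin 2) (Fin 2) F) = 1 := by
      rw [← Matrix.SpecialLinearGroup.coe_mul, inv_mul_cancel, Matrix.SpecialLinearGroup.coe_one]
    show Matrix.scalar (Fin 2) r = ((M₀⁻¹ : Matrix.SpecialLinearGroup (Fin 2) F) : Matrix (Fin 2) (Fin 2) F) * (r • (M₀ : Matrix (Fin 2) (Fin 2) F))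
    rw [Matrix.mul_smul, hinv]
    ext i j
    fin_cases i <;> fin_cases j <;> simp
  · apply Subtype.ext
    show ((r • (M₀ : Matrix (Fin 2) (Fin 2) F))) ^ (p ^ k) = 1
    rw [smul_pow, hrp]
    have h1 : (M₀ : Matrix (Fin 2) (Fin 2) F) ^ (p ^ k) = Matrix.scalar (Fin 2) r := by
      rw [hrM, Matrix.SpecialLinearGroup.coe_pow]
    rw [h1]
    ext i j
    fin_cases i <;> fin_cases j <;> simp [hr2]

/-- The shape of a lift. -/
theorem exists_shape (X : Matrix.SpecialLinearGroup (Fin 2) F) {k : ℕ} (h : X ^ (p ^ k) = 1) :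
    ∃ α β γ : F, (X : Matrix (Fin 2) (Fin 2) F) = !![1 + α, β; γ, 1 - α] ∧ α * α + β * γ = 0 := by
  have hN : ((X : Matrix (Fin 2) (Fin 2) F) - 1) ^ (p ^ k) = 0 := by
    rw [sub_pow_char_pow_of_commute p k (Commute.one_right _), one_pow, ← Matrix.SpecialLinearGroup.coe_pow, h,
      Matrix.SpecialLinearGroup.coe_one, sub_self]
  have hnil : IsNilpotent ((X : Matrix (Fin 2) (Fin 2) F) - 1) := ⟨_, hN⟩
  have htr : Matrix.trace ((X : Matrix (Fin 2) (Fin 2) F) - 1) = 0 :=
    (Matrix.isNilpotent_trace_of_isNilpotent hnil).eq_zero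
  have hdet : Matrix.det ((X : Matrix (Fin 2) (Fin 2) F) - 1) = 0 := by
    have h1 : (Matrix.det ((X : Matrix (Fin 2) (Fin 2) F) - 1)) ^ (p ^ k) = 0 := by
      rw [← Matrix.det_pow, hN]
      simp
    exact pow_eq_zero_iff (pow_ne_zero _ hp.out.ne_zero) |>.mp h1
  set N := (X : Matrix (Fin 2) (Fin 2) F) - 1 with hNdef
  have hXN : (X : Matrix (Fin 2) (Fin 2) F) = 1 + N := by rw [hNdef]; abel
  rw [Matrix.trace_fin_two] at htr
  rw [Matrix.det_fin_two] at hdet
  refine ⟨N 0 0, N 0 1, N 1 0, ?_, ?_⟩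
  · have h11 : N 1 1 = - N 0 0 := by linear_combination htr
    rw [hXN]
    ext i j
    fin_cases i <;> fin_cases j <;> simp [h11, sub_eq_add_neg]
  · have h11 : N 1 1 = - N 0 0 := by linear_combination htr
    rw [h11] at hdet
    linear_combination -hdet

/-- **The pair in `PSL₂(F)`.** -/
theorem psl2_pair (hp2 : p ≠ 2) (z : ProjectiveSpecialLinearGroup (Fin 2) F) (hz : z ≠ 1) {k : ℕ}
    (hzk : z ^ (p ^ k) = 1) :
    ∃ y, z * y * z = y * z * y ∧ (z * y * z) * (z * y * z) = 1 ∧ y ≠ z := by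
  obtain ⟨M₀, rfl⟩ := QuotientGroup.mk_surjective z
  have hcen : M₀ ^ (p ^ k) ∈ Subgroup.center (Matrix.SpecialLinearGroup (Fin 2) F) := by
    rw [← QuotientGroup.mk_pow] at hzk
    exact (QuotientGroup.eq_one_iff _).mp hzk
  obtain ⟨X, hX, hXk⟩ := exists_lift hp2 M₀ hcen
  rw [← hX] at hz ⊢
  obtain ⟨α, β, γ, hXs, hrel⟩ := exists_shape X hXk
  have hmk : ∀ T : Matrix.SpecialLinearGroup (Fin 2) F, (T : Matrix (Fin 2) (Fin 2) F) = -1 →
      (QuotientGroup.mk T : ProjectiveSpecialLinearGroup (Fin 2) F) = 1 := by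
    intro T hT
    refine (QuotientGroup.eq_one_iff _).mpr (Matrix.SpecialLinearGroup.mem_center_iff.mpr ⟨-1, by simp, ?_⟩)
    rw [hT]
    ext i j
    fin_cases i <;> fin_cases j <;> simp [Matrix.one_apply]
  have hne : ∀ Y : Matrix.SpecialLinearGroup (Fin 2) F, (∃ i j, (Y : Matrix (Fin 2) (Fin 2) F) i j = 0 ∧
      (X : Matrix (Fin 2) (Fin 2) F) i j ≠ 0) →
      (QuotientGroup.mk Y : ProjectiveSpecialLinearGroup (Fin 2) F) ≠ QuotientGroup.mk X := by
    rintro Y ⟨i, j, hY, hXij⟩ heq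
    have h1 := QuotientGroup.eq.mp heq
    obtain ⟨s, hs, hs2⟩ := Matrix.SpecialLinearGroup.mem_center_iff.mp h1
    have h2 : (X : Matrix (Fin 2) (Fin 2) F) = (Y : Matrix (Fin 2) (Fin 2) F) * Matrix.scalar (Fin 2) s := by
      rw [hs2, ← Matrix.SpecialLinearGroup.coe_mul, mul_inv_cancel_left]
    apply hXij
    rw [h2, Matrix.scalar_apply, Matrix.mul_diagonal, hY, zero_mul]
  by_cases hβ : β = 0
  · -- the lower case
    have hα : α = 0 := by
      rw [hβ] at hrel
      simpa using hrel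
    have hγ : γ ≠ 0 := by
      rintro rfl
      apply hz
      refine (QuotientGroup.eq_one_iff _).mpr ?_
      have : X = 1 := by
        apply Subtype.ext
        rw [hXs, hα, hβ]
        ext i j
        fin_cases i <;> fin_cases j <;> simp
      rw [this]
      exact Subgroup.one_mem _
    obtain ⟨h1, h2, h3⟩ := pair_mat' α β γ hγ (by rw [hrel])
    have hdetY : (!![1, -γ⁻¹; 0, 1] : Matrix (Fin 2) (Fin 2) F).det = 1 := by
      simp [Matrix.det_fin_two]
    let Y : Matrix.SpecialLinearGroup (Fin 2) F := ⟨!![1, -γ⁻¹; 0, 1], hdetY⟩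
    have hY : (Y : Matrix (Fin 2) (Fin 2) F) = !![1, -γ⁻¹; 0, 1] := rfl
    have e1 : X * Y * X = Y * X * Y := by
      apply Subtype.ext
      show (X : Matrix (Fin 2) (Fin 2) F) * (Y : Matrix (Fin 2) (Fin 2) F) * (X : Matrix (Fin 2) (Fin 2) F) =
        (Y : Matrix (Fin 2) (Fin 2) F) * (X : Matrix (Fin 2) (Fin 2) F) * (Y : Matrix (Fin 2) (Fin 2) F)
      rw [hXs, hY, h1, h2]
    refine ⟨QuotientGroup.mk Y, ?_, ?_, ?_⟩
    · rw [← QuotientGroup.mk_mul, ← QuotientGroup.mk_mul, ← QuotientGroup.mk_mul, ← QuotientGroup.mk_mul, e1]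
    · rw [← QuotientGroup.mk_mul, ← QuotientGroup.mk_mul, ← QuotientGroup.mk_mul]
      apply hmk
      show (X : Matrix (Fin 2) (Fin 2) F) * (Y : Matrix (Fin 2) (Fin 2) F) * (X : Matrix (Fin 2) (Fin 2) F) *
        ((X : Matrix (Fin 2) (Fin 2) F) * (Y : Matrix (Fin 2) (Fin 2) F) * (X : Matrix (Fin 2) (Fin 2) F)) = -1
      rw [hXs, hY, h1, h3]
    · apply hne
      refine ⟨1, 0, by simp [hY], ?_⟩
      rw [hXs]
      simpa using hγ
  · obtain ⟨h1, h2, h3⟩ := pair_mat α β γ hβ hrel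
    have hdetY : (!![1, 0; -β⁻¹, 1] : Matrix (Fin 2) (Fin 2) F).det = 1 := by
      simp [Matrix.det_fin_two]
    let Y : Matrix.SpecialLinearGroup (Fin 2) F := ⟨!![1, 0; -β⁻¹, 1], hdetY⟩
    have hY : (Y : Matrix (Fin 2) (Fin 2) F) = !![1, 0; -β⁻¹, 1] := rfl
    have e1 : X * Y * X = Y * X * Y := by
      apply Subtype.ext
      show (X : Matrix (Fin 2) (Fin 2) F) * (Y : Matrix (Fin 2) (Fin 2) F) * (X : Matrix (Fin 2) (Fin 2) F) =
        (Y : Matrix (Fin 2) (Fin 2) F) * (X : Matrix (Fin 2) (Fin 2) F) * (Y : Matrix (Fin 2) (Fin 2) F)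
      rw [hXs, hY, h1, h2]
    refine ⟨QuotientGroup.mk Y, ?_, ?_, ?_⟩
    · rw [← QuotientGroup.mk_mul, ← QuotientGroup.mk_mul, ← QuotientGroup.mk_mul, ← QuotientGroup.mk_mul, e1]
    · rw [← QuotientGroup.mk_mul, ← QuotientGroup.mk_mul, ← QuotientGroup.mk_mul]
      apply hmk
      show (X : Matrix (Fin 2) (Fin 2) F) * (Y : Matrix (Fin 2) (Fin 2) F) * (X : Matrix (Fin 2) (Fin 2) F) *
        ((X : Matrix (Fin 2) (Fin 2) F) * (Y : Matrix (Fin 2) (Fin 2) F) * (X : Matrix (Fin 2) (Fin 2) F)) = -1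
      rw [hXs, hY, h1, h3]
    · apply hne
      refine ⟨0, 1, by simp [hY], ?_⟩
      rw [hXs]
      simpa using hβ

end PSL

end Cfsg.Agent.Lib.QuadPSL
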