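import Mathlib

/-!
# Odd abelian groups with a fixed-point-free action of the quaternion group have square order

If `A` is a finite abelian group of odd order with endomorphisms `I, J`, `I² = J² = -1`, `IJ = -JI`,
then `|A|` is a perfect square.  Consequently, a subgroup `N` of a finite group which is normalized
by a copy of `Q₈` whose central involution acts fixed-point-freely on `N` is abelian, of odd order
and its order is a perfect square.
-/

set_option autoImplicit false
set_option linter.style.haveILetI false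

universe u

namespace Cfsg.Agent.Lib.QuatSquare

section

variable {A : Type*} [AddCommGroup A] [Finite A]

omit [Finite A] in
theorem exists_half (hodd : Odd (Nat.card A)) (v : A) : ∃ w : A, v = w + w := by
  obtain ⟨m, hm⟩ := hodd
  have h1 : Nat.card A • v = 0 := card_nsmul_eq_zero'
  rw [hm] at h1
  refine ⟨(m + 1) • v, ?_⟩
  have h2 : (m + 1) • v + (m + 1) • v = (2 * m + 1) • v + v := by
    module
  rw [h2, h1, zero_add]

omit [Finite A] in
theorem eq_zero_of_double (hodd : Odd (Nat.card A)) {v : A} (h : v + v = 0) : v = 0 := by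
  obtain ⟨m, hm⟩ := hodd
  have h1 : Nat.card A • v = 0 := card_nsmul_eq_zero'
  rw [hm] at h1
  have h2 : (2 * m + 1) • v = m • (v + v) + v := by
    rw [add_smul, two_mul, add_smul, one_smul, smul_add]
  rw [h2, h, smul_zero, zero_add] at h1
  exact h1

omit [Finite A] in
/-- If `X² = 1`, `K² = -1`, `XK = -KX` on an abelian group of odd order, then its order is a square. -/
theorem isSquare_of_swap (hodd : Odd (Nat.card A)) (X K : A →+ A) (hX : ∀ v, X (X v) = v)
    (hK : ∀ v, K (K v) = -v) (hXK : ∀ v, X (K v) = -K (X v)) : IsSquare (Nat.card A) := by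
  let P := {v : A // X v = v}
  let M := {v : A // X v = -v}
  let e1 : P ≃ M :=
    { toFun := fun u => ⟨K u.1, by rw [hXK, u.2]⟩
      invFun := fun w => ⟨-K w.1, by rw [map_neg, hXK, w.2, map_neg, neg_neg]⟩
      left_inv := by
        intro u
        apply Subtype.ext
        simp [hK]
      right_inv := by
        intro w
        apply Subtype.ext
        simp [hK] }
  let f : P × M → A := fun q => q.1.1 + q.2.1
  have hf : Function.Bijective f := by
    constructor
    · rintro ⟨⟨u, hu⟩, ⟨w, hw⟩⟩ ⟨⟨u', hu'⟩, ⟨w', hw'⟩⟩ h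
      have h1 : u + w = u' + w' := h
      have h2 : u - w = u' - w' := by
        have := congrArg X h1
        rw [map_add, map_add, hu, hw, hu', hw'] at this
        simpa [sub_eq_add_neg] using this
      have h3 : (u - u') + (u - u') = 0 := by
        have h4 : (u - u') + (u - u') = (u + w - (u' + w')) + (u - w - (u' - w')) := by abel
        rw [h4, h1, h2]
        simp
      have h5 : u - u' = 0 := eq_zero_of_double hodd h3
      have h6 : u = u' := sub_eq_zero.mp h5
      have h7 : w = w' := by
        rw [h6] at h1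
        exact add_left_cancel h1
      subst h6 h7
      rfl
    · intro v
      obtain ⟨z, rfl⟩ := exists_half hodd v
      refine ⟨⟨⟨z + X z, ?_⟩, ⟨z - X z, ?_⟩⟩, ?_⟩
      · rw [map_add, hX]; abel
      · rw [map_sub, hX]; abel
      · show z + X z + (z - X z) = z + z
        abel
  have h1 : Nat.card A = Nat.card P * Nat.card M := by
    rw [← Nat.card_prod]
    exact (Nat.card_congr (Equiv.ofBijective f hf)).symm
  have h2 : Nat.card M = Nat.card P := (Nat.card_congr e1).symm
  rw [h1, h2]
  exact ⟨_, rfl⟩

omit [Finite A] in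
/-- Elementary abelian case. -/
theorem isSquare_of_elementary (hodd : Odd (Nat.card A)) (p : ℕ) (hp : p.Prime)
    (hpA : ∀ v : A, p • v = 0) (I J : A →+ A) (hI : ∀ v, I (I v) = -v) (hJ : ∀ v, J (J v) = -v)
    (hIJ : ∀ v, I (J v) = -J (I v)) : IsSquare (Nat.card A) := by
  haveI : Fact p.Prime := ⟨hp⟩
  obtain ⟨a', b', hab'⟩ := ZMod.sq_add_sq p (-1 : ZMod p)
  obtain ⟨a, rfl⟩ := ZMod.intCast_surjective a'
  obtain ⟨b, rfl⟩ := ZMod.intCast_surjective b'
  have hdvd : (p : ℤ) ∣ a ^ 2 + b ^ 2 + 1 := by
    rw [← ZMod.intCast_zmod_eq_zero_iff_dvd]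
    push_cast
    rw [hab']
    ring
  obtain ⟨t, ht⟩ := hdvd
  have hkill : ∀ v : A, (a ^ 2 + b ^ 2 + 1 : ℤ) • v = 0 := by
    intro v
    rw [ht, mul_comm, mul_smul, natCast_zsmul, hpA, smul_zero]
  have hJI : ∀ v, J (I v) = -I (J v) := by
    intro v
    rw [hIJ, neg_neg]
  let X : A →+ A := a • I + b • J
  let K : A →+ A := I.comp J
  have hXv : ∀ v, X v = a • I v + b • J v := fun v => rfl
  have hKv : ∀ v, K v = I (J v) := fun v => rfl
  refine isSquare_of_swap hodd X K ?_ ?_ ?_
  · intro v
    simp only [hXv, map_add, map_zsmul, hI, hJ, hJI]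
    have := hkill v
    linear_combination (norm := module) -this
  · intro v
    simp only [hKv, hJI, map_neg, hJ, hI, neg_neg]
  · intro v
    simp only [hXv, hKv, map_add, map_zsmul, hI, hJI, hJ, map_neg, neg_neg]
    module

theorem isSquare_aux : ∀ (n : ℕ) (A : Type u) [AddCommGroup A] [Finite A], Nat.card A = n → Odd n →
    ∀ (I J : A →+ A), (∀ v, I (I v) = -v) → (∀ v, J (J v) = -v) → (∀ v, I (J v) = -J (I v)) →
      IsSquare n := by
  intro n
  induction n using Nat.strong_induction_on with
  | _ n ih =>
    intro A _ _ hn hodd I J hI hJ hIJ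
    by_cases hn1 : n = 1
    · rw [hn1]; exact ⟨1, rfl⟩
    let p := n.minFac
    have hp : p.Prime := Nat.minFac_prime hn1
    haveI : Fact p.Prime := ⟨hp⟩
    let B : AddSubgroup A := (nsmulAddMonoidHom p : A →+ A).ker
    have hB : ∀ v, v ∈ B ↔ p • v = 0 := fun v => by
      simp [B, AddMonoidHom.mem_ker]
    have hIB : ∀ v ∈ B, I v ∈ B := by
      intro v hv
      rw [hB] at hv ⊢
      rw [← map_nsmul, hv, map_zero]
    have hJB : ∀ v ∈ B, J v ∈ B := by
      intro v hv
      rw [hB] at hv ⊢
      rw [← map_nsmul, hv, map_zero]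
    have hcard := B.card_mul_index
    rw [hn] at hcard
    -- `B` is nontrivial
    have hB1 : 1 < Nat.card B := by
      have hpd : p ∣ Nat.card A := by rw [hn]; exact Nat.minFac_dvd n
      obtain ⟨x, hx⟩ := exists_prime_addOrderOf_dvd_card' p hpd
      have hxB : x ∈ B := by
        rw [hB, ← hx]
        exact addOrderOf_nsmul_eq_zero x
      have hx0 : x ≠ 0 := by
        rintro rfl
        rw [addOrderOf_zero] at hx
        exact hp.one_lt.ne hx
      rw [Finite.one_lt_card_iff_nontrivial]
      exact ⟨⟨⟨x, hxB⟩, 0, fun h => hx0 (congrArg Subtype.val h)⟩⟩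
    -- the subgroup `B`
    have hoddB : Odd (Nat.card B) := by
      rw [← hcard] at hodd
      exact (Nat.odd_mul.mp hodd).1
    let IB : B →+ B := (I.comp B.subtype).codRestrict B (fun v => hIB v v.2)
    let JB : B →+ B := (J.comp B.subtype).codRestrict B (fun v => hJB v v.2)
    have hsqB : IsSquare (Nat.card B) := by
      apply isSquare_of_elementary hoddB p hp
        (fun v => Subtype.ext ((hB v).mp v.2)) IB JB
      · intro v
        apply Subtype.ext
        exact hI v
      · intro v
        apply Subtype.ext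
        exact hJ v
      · intro v
        apply Subtype.ext
        exact hIJ v
    -- the quotient
    have hidx : B.index = Nat.card (A ⧸ B) := rfl
    have hoddQ : Odd (Nat.card (A ⧸ B)) := by
      rw [← hcard] at hodd
      rw [← hidx]
      exact (Nat.odd_mul.mp hodd).2
    have hlt : Nat.card (A ⧸ B) < n := by
      rw [← hidx, ← hcard]
      have hpos : 0 < B.index := Nat.pos_of_ne_zero (by
        intro h
        rw [h, mul_zero] at hcard
        rw [← hcard] at hodd
        simp at hodd)
      nlinarith
    let IQ : A ⧸ B →+ A ⧸ B := QuotientAddGroup.map B B I (fun v hv => hIB v hv)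
    let JQ : A ⧸ B →+ A ⧸ B := QuotientAddGroup.map B B J (fun v hv => hJB v hv)
    have hIQ : ∀ v : A, IQ (v : A ⧸ B) = ((I v : A) : A ⧸ B) := fun v => rfl
    have hJQ : ∀ v : A, JQ (v : A ⧸ B) = ((J v : A) : A ⧸ B) := fun v => rfl
    have hsqQ : IsSquare (Nat.card (A ⧸ B)) := by
      apply ih _ hlt (A ⧸ B) rfl hoddQ IQ JQ
      · intro v
        obtain ⟨w, rfl⟩ := QuotientAddGroup.mk'_surjective B v
        show IQ (IQ (w : A ⧸ B)) = -(w : A ⧸ B)
        rw [hIQ, hIQ, hI]
        rfl
      · intro v
        obtain ⟨w, rfl⟩ := QuotientAddGroup.mk'_surjective B v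
        show JQ (JQ (w : A ⧸ B)) = -(w : A ⧸ B)
        rw [hJQ, hJQ, hJ]
        rfl
      · intro v
        obtain ⟨w, rfl⟩ := QuotientAddGroup.mk'_surjective B v
        show IQ (JQ (w : A ⧸ B)) = -JQ (IQ (w : A ⧸ B))
        rw [hJQ, hIQ, hIQ, hJQ, hIJ]
        rfl
    rw [← hcard, hidx]
    exact hsqB.mul hsqQ

end

/-- If `A` is a finite abelian group of odd order with `I² = J² = -1`, `IJ = -JI` then `|A|` is a square. -/
theorem isSquare_card {A : Type*} [AddCommGroup A] [Finite A] (hodd : Odd (Nat.card A))
    (I J : A →+ A) (hI : ∀ v, I (I v) = -v) (hJ : ∀ v, J (J v) = -v)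
    (hIJ : ∀ v, I (J v) = -J (I v)) : IsSquare (Nat.card A) :=
  isSquare_aux _ A rfl hodd I J hI hJ hIJ

/-- A subgroup of a finite group normalized by a copy of `Q₈` whose central involution acts
fixed-point-freely is abelian, of odd order, and of square order. -/
theorem subgroup_of_quat {L : Type*} [Group L] [Finite L] (N : Subgroup L) (i j t : L)
    (hiN : ∀ x ∈ N, i * x * i⁻¹ ∈ N) (hjN : ∀ x ∈ N, j * x * j⁻¹ ∈ N) (ht : t * t = 1)
    (hi2 : i * i = t) (hj2 : j * j = t) (hij : i * j = t * (j * i))
    (hfpf : ∀ x ∈ N, t * x = x * t → x = 1) :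
    IsMulCommutative N ∧ Odd (Nat.card N) ∧ IsSquare (Nat.card N) := by
  have htinv : t⁻¹ = t := inv_eq_of_mul_eq_one_left ht
  have htN : ∀ x ∈ N, t * x * t⁻¹ ∈ N := by
    intro x hx
    have := hiN _ (hiN x hx)
    rw [← hi2]
    convert this using 1
    group
  let cc : ∀ g : L, (∀ x ∈ N, g * x * g⁻¹ ∈ N) → (N →* N) := fun g hg =>
    { toFun := fun x => ⟨g * x * g⁻¹, hg x x.2⟩
      map_one' := by
        apply Subtype.ext
        simp
      map_mul' := by
        intro x y
        apply Subtype.ext
        simp only [Subgroup.coe_mul]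
        group }
  have hcc : ∀ g hg (x : N), ((cc g hg x : N) : L) = g * x * g⁻¹ := fun g hg x => rfl
  let σ := cc t htN
  have hσ : MonoidHom.FixedPointFree σ := by
    intro x hx
    have h1 : t * x * t⁻¹ = x := congrArg Subtype.val hx
    have h2 : t * x = x * t := by
      have h3 : t * x = (t * x * t⁻¹) * t := by group
      rw [h3, h1]
    exact Subtype.ext (hfpf x x.2 h2)
  have hσ2 : Function.Involutive σ := by
    intro x
    apply Subtype.ext
    rw [hcc, hcc, htinv]
    calc t * (t * x * t) * t = (t * t) * x * (t * t) := by group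
      _ = x := by rw [ht]; group
  have hinv : ∀ x : N, t * x * t⁻¹ = (x : L)⁻¹ := by
    intro x
    have h1 := congrFun (hσ.coe_eq_inv_of_involutive hσ2) x
    exact congrArg Subtype.val h1
  have hcomm : ∀ x y : N, x * y = y * x := fun x y => hσ.commute_all_of_involutive hσ2 x y
  have hodd : Odd (Nat.card N) := hσ.odd_card_of_involutive hσ2
  refine ⟨⟨⟨hcomm⟩⟩, hodd, ?_⟩
  letI cg : CommGroup N := { (inferInstance : Group N) with mul_comm := hcomm }
  let mk : ∀ g : L, (∀ x ∈ N, g * x * g⁻¹ ∈ N) → (Additive N →+ Additive N) := fun g hg =>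
    { toFun := fun v => Additive.ofMul (cc g hg (Additive.toMul v))
      map_zero' := by
        show Additive.ofMul (cc g hg 1) = 0
        rw [map_one]
        rfl
      map_add' := by
        intro v w
        show Additive.ofMul (cc g hg (Additive.toMul v * Additive.toMul w)) = _
        rw [map_mul]
        rfl }
  have hmk : ∀ g hg (v : Additive N), (((Additive.toMul (mk g hg v)) : N) : L) =
      g * (Additive.toMul v : N) * g⁻¹ := fun g hg v => rfl
  have hneg : ∀ v : Additive N, (((Additive.toMul (-v)) : N) : L) = ((Additive.toMul v : N) : L)⁻¹ :=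
    fun v => rfl
  have hcA : Nat.card (Additive N) = Nat.card N := Nat.card_congr Additive.toMul
  have hsq := isSquare_card (A := Additive N) (by rw [hcA]; exact hodd) (mk i hiN) (mk j hjN)
    (by
      intro v
      apply Additive.toMul.injective
      apply Subtype.ext
      rw [hneg, hmk, hmk, ← hinv, ← hi2]
      group)
    (by
      intro v
      apply Additive.toMul.injective
      apply Subtype.ext
      rw [hneg, hmk, hmk, ← hinv, ← hj2]
      group)
    (by
      intro v
      apply Additive.toMul.injective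
      apply Subtype.ext
      rw [hneg, hmk, hmk, hmk, hmk]
      have h1 := hinv (cc j hjN (cc i hiN (Additive.toMul v)))
      rw [hcc, hcc] at h1
      rw [← h1]
      have h2 : i * (j * ((Additive.toMul v : N) : L) * j⁻¹) * i⁻¹ =
          (i * j) * ((Additive.toMul v : N) : L) * (i * j)⁻¹ := by group
      rw [h2, hij]
      group)
  rwa [hcA] at hsq

end Cfsg.Agent.Lib.QuatSquare
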