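import Mathlib
import Cfsg.Agent.Lib.RankOne

/-!
# Rank-one setup: second batch

The unique pair `(s, r)`, the decomposition `C_X(t) · I_X(t)`, subsets of `D` fixing three points.
-/

set_option autoImplicit false
set_option linter.unusedSectionVars false
set_option linter.unusedVariables false

namespace Cfsg.Agent.Lib.RankOne2

open MulAction Cfsg.Agent.Lib.RankOne

/-! ### General: the decomposition for an odd order subgroup normalised by an involution -/

section General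

variable {M : Type*} [Group M]

lemma sq_inj_of_odd {X : Subgroup M} (hodd : Odd (Nat.card X)) {a b : M} (ha : a ∈ X) (hb : b ∈ X)
    (h : a * a = b * b) : a = b := by
  obtain ⟨m, hm⟩ := hodd
  have key : ∀ c ∈ X, c = (c * c) ^ (m + 1) := by
    intro c hc
    have h1 : c ^ (Nat.card X) = 1 := by
      have := pow_card_eq_one' (x := (⟨c, hc⟩ : X))
      exact congrArg Subtype.val this
    rw [← pow_two, ← pow_mul]
    have h2 : 2 * (m + 1) = Nat.card X + 1 := by omega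
    rw [h2, pow_succ, h1, one_mul]
  rw [key a ha, key b hb, h]

lemma inverted_zpowers {t c : M} (htt : t * t = 1) (hc : t * c * t = c⁻¹) {l : M}
    (hl : l ∈ Subgroup.zpowers c) : t * l * t = l⁻¹ := by
  obtain ⟨n, rfl⟩ := hl
  have hti : t⁻¹ = t := inv_eq_of_mul_eq_one_left htt
  have : t * c ^ n * t⁻¹ = (t * c * t⁻¹) ^ n := by rw [conj_zpow]
  simp only
  rw [hti] at this
  rw [this, hc, inv_zpow]

variable (t : M) (htt : t * t = 1) (X : Subgroup M) (hodd : Odd (Nat.card X))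
  (hnorm : ∀ x ∈ X, t * x * t ∈ X)
include htt hodd hnorm

/-- Decomposition: `x = y z`, `y ∈ C_X(t)`, `z` inverted by `t`, existence part. -/
lemma decomp_exists {x : M} (hx : x ∈ X) :
    ∃ y ∈ X, ∃ z ∈ X, t * y = y * t ∧ t * z * t = z⁻¹ ∧ x = y * z := by
  have hti : t⁻¹ = t := inv_eq_of_mul_eq_one_left htt
  set c := x⁻¹ * (t * x * t) with hc
  have hcX : c ∈ X := X.mul_mem (X.inv_mem hx) (hnorm x hx)
  have hcinv : t * c * t = c⁻¹ := by
    have hci : c⁻¹ = t * x⁻¹ * t * x := by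
      rw [hc]; simp only [mul_inv_rev, inv_inv, hti]; group
    rw [hci]
    calc t * c * t = t * x⁻¹ * t * x * (t * t) := by rw [hc]; group
      _ = t * x⁻¹ * t * x := by rw [htt, mul_one]
  obtain ⟨l, hl, hll⟩ := exists_sqrt_of_odd c (odd_orderOf_of_mem hodd hcX)
  have hlX : l ∈ X := (Subgroup.zpowers_le.mpr hcX) hl
  have hlinv : t * l * t = l⁻¹ := inverted_zpowers htt hcinv hl
  refine ⟨x * l, X.mul_mem hx hlX, l⁻¹, X.inv_mem hlX, ?_, ?_, by group⟩
  · -- `t (x l) = (x l) t`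
    have h1 : t * (x * l) * t = x * l := by
      calc t * (x * l) * t = (t * x * t) * (t * l * t) := by
            calc t * (x * l) * t = t * x * 1 * l * t := by group
              _ = t * x * (t * t) * l * t := by rw [htt]
              _ = _ := by group
        _ = x * c * l⁻¹ := by rw [hc, hlinv]; group
        _ = x * l := by rw [← hll]; group
    calc t * (x * l) = t * (x * l) * (t * t) := by rw [htt, mul_one]
      _ = (t * (x * l) * t) * t := by group
      _ = x * l * t := by rw [h1]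
  · have : t * l⁻¹ * t = (t * l * t)⁻¹ := by
      rw [mul_inv_rev, mul_inv_rev, hti]; group
    rw [this, hlinv]

lemma decomp_unique {y₁ y₂ z₁ z₂ : M} (hy₁ : y₁ ∈ X) (hy₂ : y₂ ∈ X) (hz₁ : z₁ ∈ X) (hz₂ : z₂ ∈ X)
    (h1 : t * y₁ = y₁ * t) (h2 : t * y₂ = y₂ * t) (h3 : t * z₁ * t = z₁⁻¹) (h4 : t * z₂ * t = z₂⁻¹)
    (e : y₁ * z₁ = y₂ * z₂) : y₁ = y₂ ∧ z₁ = z₂ := by
  have e1 : t * (y₁ * z₁) * t = y₁ * z₁⁻¹ := by
    calc t * (y₁ * z₁) * t = (t * y₁) * z₁ * t := by group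
      _ = y₁ * (t * z₁ * t) := by rw [h1]; group
      _ = y₁ * z₁⁻¹ := by rw [h3]
  have e2 : t * (y₂ * z₂) * t = y₂ * z₂⁻¹ := by
    calc t * (y₂ * z₂) * t = (t * y₂) * z₂ * t := by group
      _ = y₂ * (t * z₂ * t) := by rw [h2]; group
      _ = y₂ * z₂⁻¹ := by rw [h4]
  rw [e, e2] at e1
  have e3 : z₁ * z₁ = z₂ * z₂ := by
    have e4 : y₁ * z₁⁻¹ = y₂ * z₂⁻¹ := e1.symm
    have e5 : y₁ = y₂ * z₂ * z₁⁻¹ := by rw [← e]; group
    have e6 : y₁ = y₂ * z₂⁻¹ * z₁ := by rw [← e4]; group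
    have e7 : y₂ * z₂ * z₁⁻¹ = y₂ * z₂⁻¹ * z₁ := by rw [← e5, ← e6]
    have e8 : z₂ * z₁⁻¹ = z₂⁻¹ * z₁ := by
      have : y₂ * (z₂ * z₁⁻¹) = y₂ * (z₂⁻¹ * z₁) := by
        simpa [mul_assoc] using e7
      exact mul_left_cancel this
    calc z₁ * z₁ = z₂ * (z₂⁻¹ * z₁) * z₁ := by group
      _ = z₂ * (z₂ * z₁⁻¹) * z₁ := by rw [e8]
      _ = z₂ * z₂ := by group
  have e4 := sq_inj_of_odd hodd hz₁ hz₂ e3
  subst e4
  exact ⟨mul_right_cancel e, rfl⟩

end General

section Setup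

variable {G Ω : Type*} [Group G] [MulAction G Ω] {a : Ω} {t : G} {Q : Subgroup G}
variable (hS : Cfsg.IsRankOneSetup G Ω a t Q)
include hS

/-- `t` has a fixed point outside `{a, t • a}`. -/
lemma exists_t_fixed [Finite G] : ∃ e : Ω, t • e = e ∧ e ≠ a ∧ e ≠ t • a := by
  obtain ⟨e, he⟩ := invol_exists_fixed hS hS.mul_self
  refine ⟨e, he, ?_, ?_⟩
  · rintro rfl
    exact ta_ne hS he
  · rintro rfl
    rw [t_t_smul hS] at he
    exact ta_ne hS he.symm

/-- S1123: the unique pair. -/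
lemma unique_pair [Finite G] :
    ∃! p : G × G, p.1 ∈ Cfsg.involutionsIn (stabilizer G a : Set G) ∧ p.2 ∈ Q ∧
      t * p.1 * t = p.2⁻¹ * t * p.2 := by
  obtain ⟨e, he, hea, heb⟩ := exists_t_fixed hS
  obtain ⟨r, hr, hrb⟩ := exists_Q_smul hS hea
  have htt := hS.mul_self
  have hti := t_inv hS
  set s := t * (r⁻¹ * t * r) * t with hs
  have h1 : t * s * t = r⁻¹ * t * r := by rw [hs, t_conj_t hS]
  refine ⟨(s, r), ⟨⟨?_, ?_, ?_⟩, hr, h1⟩, ?_⟩
  · rw [SetLike.mem_coe, mem_stabilizer_iff, hs]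
    have e1 : r⁻¹ • e = t • a := by rw [← hrb, inv_smul_smul]
    rw [mul_smul, mul_smul, mul_smul, mul_smul, hrb, he, e1, t_t_smul hS]
  · intro h0
    have h0' : s = 1 := h0
    have h2 : t * s * t = 1 := by rw [h0', mul_one, htt]
    rw [h1] at h2
    have h3 : t = 1 := by
      have : t = r * (r⁻¹ * t * r) * r⁻¹ := by group
      rw [this, h2]; group
    exact hS.ne_one h3
  · show s * s = 1
    have key : ∀ g : G, t * (t * g) = g := fun g => by rw [← mul_assoc, htt, one_mul]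
    rw [hs]
    simp only [mul_assoc, key, mul_inv_cancel_left, inv_mul_cancel_left, htt]
  · rintro ⟨s', r'⟩ ⟨⟨hs'a, hs'1, hs'2⟩, hr', h2⟩
    simp only at hs'a hs'1 hs'2 hr' h2
    have h3 : t • (r' • (t • a)) = r' • (t • a) := by
      have h4 : (r'⁻¹ * t * r') • (t • a) = t • a := by
        rw [← h2, mul_smul, mul_smul, t_t_smul hS, mem_stabilizer_iff.mp hs'a]
      rw [mul_smul, mul_smul] at h4
      have h5 := congrArg (r' • ·) h4
      simpa using h5
    have h6 : r' • (t • a) ≠ a := by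
      intro h7
      have h8 := congrArg (r'⁻¹ • ·) h7
      simp only [inv_smul_smul] at h8
      rw [inv_smul_eq_iff.mpr (Q_fix hS hr').symm] at h8
      exact ta_ne hS h8
    have h7 : r' • (t • a) = e := invol_fixed_unique hS hS.ne_one htt h3 he
    have h8 : r' = r := Q_inj hS hr' hr (ta_ne hS) (by rw [h7, hrb])
    subst h8
    have h9 : s' = s := by
      rw [hs, ← h2, t_conj_t hS]
    rw [h9]

lemma unique_pair' [Finite G] {s s' r r' : G}
    (hs : s ∈ Cfsg.involutionsIn (stabilizer G a : Set G))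
    (hs' : s' ∈ Cfsg.involutionsIn (stabilizer G a : Set G)) (hr : r ∈ Q) (hr' : r' ∈ Q)
    (h : t * s * t = r⁻¹ * t * r) (h' : t * s' * t = r'⁻¹ * t * r') : s = s' ∧ r = r' := by
  obtain ⟨p, _, hp⟩ := unique_pair hS
  have h1 := hp (s, r) ⟨hs, hr, h⟩
  have h2 := hp (s', r') ⟨hs', hr', h'⟩
  have h3 := h1.trans h2.symm
  exact ⟨congrArg Prod.fst h3, congrArg Prod.snd h3⟩

/-- Elements of `Q` sending a fixed point of `X` to `t • a` commute with `X`. -/
lemma Q_comm_of_fixed {X : Set G} (hX : X ⊆ (DD G a t : Set G)) {y c : G → G} : True := trivial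

lemma Q_comm {x y : G} (hxD : x ∈ stabilizer G a) (hy : y ∈ Q) {c d : Ω} (hc : c ≠ a)
    (hxc : x • c = c) (hxd : x • d = d) (h : y • c = d) : x * y = y * x := by
  have h1 : x * y * x⁻¹ ∈ Q := hS.conj_mem x hxD y hy
  have h2 : (x * y * x⁻¹) • c = y • c := by
    have e1 : x⁻¹ • c = c := by rw [inv_smul_eq_iff]; exact hxc.symm
    rw [mul_smul, mul_smul, e1, h, hxd]
  have h3 := Q_inj hS h1 hy hc h2
  calc x * y = (x * y * x⁻¹) * x := by group
    _ = y * x := by rw [h3]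

/-- An element `v` swapping `a` and `t • a`, of even order only through involution part,
gives an involution with the same swap and commuting with what `v` commutes with. -/
lemma invol_of_swap [Finite G] {v : G} (h1 : v • a = t • a) (h2 : v • (t • a) = a) :
    ∃ m : ℕ, (v ^ (2 * m + 1)) * (v ^ (2 * m + 1)) = 1 ∧ (v ^ (2 * m + 1)) • a = t • a := by
  have hvv : v * v ∈ DD G a t := by
    refine D_mem hS ?_ ?_
    · rw [mul_smul, h1, h2]
    · rw [mul_smul, h2, h1]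
  obtain ⟨m, hm⟩ := odd_orderOf_of_mem hS.odd_card hvv
  refine ⟨m, ?_, ?_⟩
  · rw [← pow_add]
    have e : 2 * m + 1 + (2 * m + 1) = 2 * (2 * m + 1) := by ring
    rw [e, pow_mul, pow_two, ← hm, pow_orderOf_eq_one]
  · have e : v ^ (2 * m + 1) = v * (v * v) ^ m := by
      rw [pow_succ', pow_mul, pow_two]
    have e2 : (v * v) ^ m • a = a := D_fix_a hS ((DD G a t).pow_mem hvv m)
    rw [e, mul_smul, e2, h1]

/-- Main lemma: a set `X ⊆ D` fixing a point outside `{a, t • a}` commutes with an involution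
swapping `a` and `t • a`. -/
lemma exists_commuting_swap [Finite G] {X : Set G} (hX : X ⊆ (DD G a t : Set G)) {c : Ω}
    (hca : c ≠ a) (hcb : c ≠ t • a) (hc : ∀ x ∈ X, x • c = c) :
    ∃ u : G, u * u = 1 ∧ u • a = t • a ∧ ∀ x ∈ X, u * x = x * u := by
  obtain ⟨y, hy, hyb⟩ := exists_Q_smul hS hca
  have hy1 : y ≠ 1 := by
    rintro rfl
    rw [one_smul] at hyb
    exact hcb hyb.symm
  have hcomm : ∀ x ∈ X, x * y = y * x := by
    intro x hx
    exact Q_comm hS (hX hx).1 hy (ta_ne hS) (D_fix_b hS (hX hx)) (hc x hx) hyb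
  obtain ⟨g, hg, h, hh, f, hf, e⟩ := canonical_exists hS (t_conj_not_mem hS hy hy1)
  have hconj : ∀ x ∈ X, h * x * h⁻¹ = t * x * t := by
    intro x hx
    exact canonical_h_conj hS (hX hx) hy (hcomm x hx) hg hh hf e
  set v := t * h with hv
  have hvx : ∀ x ∈ X, v * x = x * v := by
    intro x hx
    have h1 := hconj x hx
    calc v * x = t * (h * x * h⁻¹) * h := by rw [hv]; group
      _ = t * (t * x * t) * h := by rw [h1]
      _ = (t * t) * x * t * h := by group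
      _ = x * v := by rw [hS.mul_self, hv]; group
  have h1 : v • a = t • a := by rw [hv, mul_smul, D_fix_a hS hh]
  have h2 : v • (t • a) = a := by rw [hv, mul_smul, D_fix_b hS hh, t_t_smul hS]
  obtain ⟨m, hm1, hm2⟩ := invol_of_swap hS h1 h2
  refine ⟨v ^ (2 * m + 1), hm1, hm2, ?_⟩
  intro x hx
  have : Commute v x := hvx x hx
  exact (this.pow_left _).eq

/-- `S1126` core. -/
lemma exists_conj_into_V [Finite G] {X : Set G} (hX : X ⊆ (DD G a t : Set G)) {c : Ω}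
    (hca : c ≠ a) (hcb : c ≠ t • a) (hc : ∀ x ∈ X, x • c = c) :
    ∃ k ∈ DD G a t, ∀ x ∈ X, (k * x * k⁻¹) * t = t * (k * x * k⁻¹) := by
  obtain ⟨u, hu2, hua, hcomm⟩ := exists_commuting_swap hS hX hca hcb hc
  obtain ⟨l, hl, e⟩ := swap_conj_t hS hua hu2
  refine ⟨l, inverted_mem hS hl, ?_⟩
  intro x hx
  have h1 := hcomm x hx
  rw [e] at h1
  calc l * x * l⁻¹ * t = l * (x * (l⁻¹ * t * l)) * l⁻¹ := by group
    _ = l * ((l⁻¹ * t * l) * x) * l⁻¹ := by rw [h1]
    _ = t * (l * x * l⁻¹) := by group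

lemma exists_other_point {b c d : Ω} (hbc : b ≠ c) (hbd : b ≠ d) (hcd : c ≠ d) (e f : Ω) :
    ∃ p, (p = b ∨ p = c ∨ p = d) ∧ p ≠ e ∧ p ≠ f := by
  by_cases h1 : b ≠ e ∧ b ≠ f
  · exact ⟨b, Or.inl rfl, h1.1, h1.2⟩
  by_cases h2 : c ≠ e ∧ c ≠ f
  · exact ⟨c, Or.inr (Or.inl rfl), h2.1, h2.2⟩
  by_cases h3 : d ≠ e ∧ d ≠ f
  · exact ⟨d, Or.inr (Or.inr rfl), h3.1, h3.2⟩
  exfalso
  push Not at h1 h2 h3
  by_cases h4 : b = e
  · by_cases h5 : c = e
    · exact hbc (h4.trans h5.symm)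
    · have h6 := h2 h5
      by_cases h7 : d = e
      · exact hbd (h4.trans h7.symm)
      · exact hcd (h6.trans (h3 h7).symm)
  · have h6 := h1 h4
    by_cases h5 : c = e
    · by_cases h7 : d = e
      · exact hcd (h5.trans h7.symm)
      · exact hbd (h6.trans (h3 h7).symm)
    · exact hbc (h6.trans (h2 h5).symm)

/-- Elements of `Q` moving a fixed point of `X` to `t • a` are in `C(X)`. -/
lemma exists_Q_comm [Finite G] {X : Set G} (hX : X ⊆ (DD G a t : Set G)) {p : Ω}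
    (hpa : p ≠ a) (hp : ∀ x ∈ X, x • p = p) :
    ∃ y ∈ Q, y • p = t • a ∧ ∀ x ∈ X, x * y = y * x := by
  obtain ⟨⟨y, hy⟩, hyp, _⟩ := Q_regular hS hpa (ta_ne hS)
  simp only at hyp
  refine ⟨y, hy, hyp, ?_⟩
  intro x hx
  exact Q_comm hS (hX hx).1 hy hpa (hp x hx) (D_fix_b hS (hX hx)) hyp

/-- Double transitivity of `C(X)` on the fixed points of `X`, given an involution `u` in `C(X)`
swapping `a` and `t • a`. -/
lemma move_pair [Finite G] {X : Set G} (hX : X ⊆ (DD G a t : Set G)) {u : G} (hu2 : u * u = 1)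
    (hua : u • a = t • a) (hcomm : ∀ x ∈ X, u * x = x * u) {c d : Ω}
    (hc : ∀ x ∈ X, x • c = c) (hd : ∀ x ∈ X, x • d = d) (hcd : c ≠ d) :
    ∃ g ∈ Subgroup.centralizer X, g • c = a ∧ g • d = t • a := by
  have hub : u • (t • a) = a := by rw [← hua, smul_smul, hu2, one_smul]
  have hCu : u ∈ Subgroup.centralizer X := by
    rw [Subgroup.mem_centralizer_iff]
    intro x hx
    exact (hcomm x hx).symm
  obtain ⟨g₁, hg₁, hg₁c⟩ : ∃ g₁ ∈ Subgroup.centralizer X, g₁ • c = a := by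
    by_cases hca : c = a
    · exact ⟨1, Subgroup.one_mem _, by simp [hca]⟩
    · obtain ⟨y, hy, hyc, hyX⟩ := exists_Q_comm hS hX hca hc
      refine ⟨u * y, Subgroup.mul_mem _ hCu ?_, ?_⟩
      · rw [Subgroup.mem_centralizer_iff]
        intro x hx
        exact hyX x hx
      · rw [mul_smul, hyc, hub]
  set d' := g₁ • d with hd'
  have hd'a : d' ≠ a := by
    intro h
    rw [← hg₁c] at h
    exact hcd (smul_left_cancel _ h).symm
  have hd'X : ∀ x ∈ X, x • d' = d' := by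
    intro x hx
    have : x * g₁ = g₁ * x := Subgroup.mem_centralizer_iff.mp hg₁ x hx
    rw [hd', smul_smul, this, mul_smul, hd x hx]
  obtain ⟨y, hy, hyc, hyX⟩ := exists_Q_comm hS hX hd'a hd'X
  refine ⟨y * g₁, Subgroup.mul_mem _ ?_ hg₁, ?_, ?_⟩
  · rw [Subgroup.mem_centralizer_iff]
    intro x hx
    exact hyX x hx
  · rw [mul_smul, hg₁c, Q_fix hS hy]
  · rw [mul_smul]
    exact hyc

lemma two_trans_centralizer [Finite G] {X : Set G} (hX : X ⊆ (DD G a t : Set G)) {u : G}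
    (hu2 : u * u = 1) (hua : u • a = t • a) (hcomm : ∀ x ∈ X, u * x = x * u)
    {b₁ b₂ c₁ c₂ : Ω} (hb₁ : ∀ x ∈ X, x • b₁ = b₁) (hb₂ : ∀ x ∈ X, x • b₂ = b₂)
    (hc₁ : ∀ x ∈ X, x • c₁ = c₁) (hc₂ : ∀ x ∈ X, x • c₂ = c₂) (hb : b₁ ≠ b₂) (hc : c₁ ≠ c₂) :
    ∃ g ∈ Subgroup.centralizer X, g • b₁ = c₁ ∧ g • b₂ = c₂ := by
  obtain ⟨g, hg, hg1, hg2⟩ := move_pair hS hX hu2 hua hcomm hb₁ hb₂ hb
  obtain ⟨h, hh, hh1, hh2⟩ := move_pair hS hX hu2 hua hcomm hc₁ hc₂ hc
  refine ⟨h⁻¹ * g, Subgroup.mul_mem _ (Subgroup.inv_mem _ hh) hg, ?_, ?_⟩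
  · rw [mul_smul, hg1, inv_smul_eq_iff, hh1]
  · rw [mul_smul, hg2, inv_smul_eq_iff, hh2]

end Setup

end Cfsg.Agent.Lib.RankOne2
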