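import Mathlib
import Cfsg.Agent.Lib.RankOne2

/-!
# Rank-one setup: third batch

`C_D(t) = C_D(s)`, the action of `V = C_D(t)` and so on.
-/

set_option autoImplicit false
set_option linter.unusedSectionVars false
set_option linter.unusedVariables false

namespace Cfsg.Agent.Lib.RankOne3

open MulAction Cfsg.Agent.Lib.RankOne Cfsg.Agent.Lib.RankOne2

section Setup

variable {G Ω : Type*} [Group G] [MulAction G Ω] {a : Ω} {t : G} {Q : Subgroup G}
variable (hS : Cfsg.IsRankOneSetup G Ω a t Q)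
include hS

lemma exists_swap_of_three [Finite G] {X : Set G} (hX : X ⊆ (DD G a t : Set G))
    (h3 : ∃ b c d : Ω, b ≠ c ∧ b ≠ d ∧ c ≠ d ∧ ∀ x ∈ X, x • b = b ∧ x • c = c ∧ x • d = d) :
    ∃ u : G, u * u = 1 ∧ u • a = t • a ∧ ∀ x ∈ X, u * x = x * u := by
  obtain ⟨b, c, d, hbc, hbd, hcd, hfix⟩ := h3
  obtain ⟨p, hp, hpa, hpb⟩ := exists_other_point hS hbc hbd hcd a (t • a)
  have hpfix : ∀ x ∈ X, x • p = p := by
    intro x hx
    rcases hp with rfl | rfl | rfl
    · exact (hfix x hx).1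
    · exact (hfix x hx).2.1
    · exact (hfix x hx).2.2
  exact exists_commuting_swap hS hX hpa hpb hpfix

/-- `D = C_D(t) K`. -/
lemma D_decomp {d : G} (hd : d ∈ DD G a t) :
    ∃ v ∈ DD G a t, ∃ k ∈ Cfsg.invertedBy (DD G a t) t, t * v = v * t ∧ d = v * k := by
  obtain ⟨v, hv, k, hk, h1, h2, e⟩ :=
    decomp_exists t hS.mul_self (DD G a t) hS.odd_card (fun x hx => t_conj_D hS hx) hd
  exact ⟨v, hv, k, (inverted_iff hS).mpr ⟨hk, h2⟩, h1, e⟩

/-- If `d ∈ D` commutes with `t` then `d` commutes with `s`, for the pair `(s, r)`. -/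
lemma comm_s_of_comm_t [Finite G] {s r d : G}
    (hs : s ∈ Cfsg.involutionsIn (stabilizer G a : Set G)) (hr : r ∈ Q)
    (h : t * s * t = r⁻¹ * t * r) (hd : d ∈ DD G a t) (hdt : t * d = d * t) : d * s = s * d := by
  have hdi : t * d⁻¹ = d⁻¹ * t := by
    calc t * d⁻¹ = d⁻¹ * (d * t) * d⁻¹ := by group
      _ = d⁻¹ * (t * d) * d⁻¹ := by rw [hdt]
      _ = d⁻¹ * t := by group
  obtain ⟨hsa, hs1, hs2⟩ := hs
  have hs' : d * s * d⁻¹ ∈ Cfsg.involutionsIn (stabilizer G a : Set G) := by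
    refine ⟨(stabilizer G a).mul_mem ((stabilizer G a).mul_mem hd.1 hsa) ((stabilizer G a).inv_mem hd.1), ?_, ?_⟩
    · intro h0
      apply hs1
      have : s = d⁻¹ * (d * s * d⁻¹) * d := by group
      rw [this, h0]; group
    · calc d * s * d⁻¹ * (d * s * d⁻¹) = d * (s * s) * d⁻¹ := by group
        _ = 1 := by rw [hs2]; group
  have hr' : d * r * d⁻¹ ∈ Q := hS.conj_mem d hd.1 r hr
  have h2 : t * (d * s * d⁻¹) * t = (d * r * d⁻¹)⁻¹ * t * (d * r * d⁻¹) := by
    calc t * (d * s * d⁻¹) * t = (t * d) * s * (d⁻¹ * t) := by group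
      _ = (d * t) * s * (t * d⁻¹) := by rw [hdt, hdi]
      _ = d * (t * s * t) * d⁻¹ := by group
      _ = d * (r⁻¹ * t * r) * d⁻¹ := by rw [h]
      _ = d * r⁻¹ * t * r * d⁻¹ := by group
      _ = (d * r⁻¹) * (d⁻¹ * (d * t)) * r * d⁻¹ := by group
      _ = (d * r⁻¹) * (d⁻¹ * (t * d)) * r * d⁻¹ := by rw [hdt]
      _ = _ := by group
  obtain ⟨h3, _⟩ := unique_pair' hS hs' ⟨hsa, hs1, hs2⟩ hr' hr h2 h
  calc d * s = (d * s * d⁻¹) * d := by group
    _ = s * d := by rw [h3]

/-- `C_D(t) = C_D(s)`. -/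
lemma comm_t_of_comm_s [Finite G] {s r d : G}
    (hs : s ∈ Cfsg.involutionsIn (stabilizer G a : Set G)) (hr : r ∈ Q)
    (h : t * s * t = r⁻¹ * t * r) (hd : d ∈ DD G a t) (hds : d * s = s * d) : t * d = d * t := by
  obtain ⟨v, hv, k, hk, hvt, rfl⟩ := D_decomp hS hd
  have hvs := comm_s_of_comm_t hS hs hr h hv hvt
  have hks : k * s = s * k := by
    have h1 : (v * k) * s = s * (v * k) := hds
    have h2 : v * (k * s) = v * (s * k) := by
      calc v * (k * s) = (v * k) * s := by group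
        _ = s * (v * k) := h1
        _ = (s * v) * k := by group
        _ = (v * s) * k := by rw [hvs]
        _ = v * (s * k) := by group
    exact mul_left_cancel h2
  have hsQ : s ∈ Q := invol_mem_Q hS hs.1 hs.2.2
  have hk1 : k = 1 := by
    by_contra hk1
    exact hs.2.1 (inverted_fpf hS hk hk1 hsQ hks)
  rw [hk1, mul_one]
  exact hvt

/-- Existence of a pair `(s, r)`. -/
lemma exists_pair [Finite G] :
    ∃ s ∈ Cfsg.involutionsIn (stabilizer G a : Set G), ∃ r ∈ Q, t * s * t = r⁻¹ * t * r := by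
  obtain ⟨p, ⟨h1, h2, h3⟩, _⟩ := unique_pair hS
  exact ⟨p.1, h1, p.2, h2, h3⟩

/-- `k ∈ K`, `x` commutes with `t`, `k x k⁻¹` commutes with `t` ⟹ `k` commutes with `x`. -/
lemma inverted_comm [Finite G] {k x : G} (hk : k ∈ Cfsg.invertedBy (DD G a t) t)
    (hx : t * x = x * t) (hkx : t * (k * x * k⁻¹) = (k * x * k⁻¹) * t) : k * x = x * k := by
  have htt := hS.mul_self
  have hti := t_inv hS
  have hkt := inverted_t_eq hS hk
  have hkD := inverted_mem hS hk
  -- `t k t = k⁻¹`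
  have h1 : t * k = k⁻¹ * t := by
    calc t * k = t * k * (t * t) := by rw [htt, mul_one]
      _ = (t * k * t) * t := by group
      _ = k⁻¹ * t := by rw [hkt]
  have h2 : t * k⁻¹ = k * t := by
    calc t * k⁻¹ = (t * k⁻¹ * t) * t := by
            rw [mul_assoc (t * k⁻¹), htt, mul_one]
      _ = (t * k * t)⁻¹ * t := by
            congr 1
            simp only [mul_inv_rev, hti]; group
      _ = k * t := by rw [hkt, inv_inv]
  have h3 : k⁻¹ * x * k = k * x * k⁻¹ := by
    have h4 : t * (k * x * k⁻¹) = k⁻¹ * x * k * t := by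
      calc t * (k * x * k⁻¹) = (t * k) * x * k⁻¹ := by group
        _ = k⁻¹ * (t * x) * k⁻¹ := by rw [h1]; group
        _ = k⁻¹ * x * (t * k⁻¹) := by rw [hx]; group
        _ = k⁻¹ * x * k * t := by rw [h2]; group
    rw [h4] at hkx
    exact mul_right_cancel hkx
  -- `k²` commutes with `x`
  have h5 : Commute (k * k) x := by
    show k * k * x = x * (k * k)
    calc k * k * x = k * (k * x * k⁻¹) * k := by group
      _ = k * (k⁻¹ * x * k) * k := by rw [h3]
      _ = x * (k * k) := by group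
  obtain ⟨m, hm⟩ := odd_orderOf_of_mem hS.odd_card hkD
  have h6 : k = (k * k) ^ (m + 1) := by
    rw [← pow_two, ← pow_mul]
    have : 2 * (m + 1) = orderOf k + 1 := by omega
    rw [this, pow_succ, pow_orderOf_eq_one, one_mul]
  have h7 : Commute k x := by
    rw [h6]
    exact h5.pow_left _
  exact h7

end Setup

end Cfsg.Agent.Lib.RankOne3
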