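-- Shared library: reflection matrices of quadratic forms on coordinate spaces.
import Mathlib
import Cfsg.Prelude.Def_ClassicalGeometry
import Cfsg.Prelude.Def_Classical

set_option autoImplicit false
set_option linter.unusedSimpArgs false
set_option linter.unusedVariables false

open Cfsg
open scoped Matrix

namespace Cfsg.Agent.Lib.ReflectionBasic

variable {ι : Type} [Fintype ι] [DecidableEq ι] {F : Type*} [Field F]
  (Q : QuadraticForm F (ι → F))

/-- The polar vector computes the polar form through the dot product. -/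
theorem polarVec_dotProduct (u x : ι → F) :
    polarVec (⇑Q) u ⬝ᵥ x = QuadraticMap.polar (⇑Q) u x := by
  have hx : x = ∑ j, x j • (Pi.single j (1 : F) : ι → F) := by
    ext i
    simp [Finset.sum_apply, Pi.single_apply]
  conv_rhs => rw [hx]
  have h := map_sum (QuadraticMap.polarBilin Q u) (fun j => x j • (Pi.single j (1 : F) : ι → F)) Finset.univ
  simp only [QuadraticMap.polarBilin_apply_apply, map_smul, smul_eq_mul] at h
  rw [h]
  simp only [dotProduct, polarVec]
  refine Finset.sum_congr rfl fun j _ => ?_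
  ring

/-- Action of the reflection matrix on vectors. -/
theorem reflectionMatrix_mulVec (v x : ι → F) :
    reflectionMatrix (⇑Q) v *ᵥ x = x - ((Q v)⁻¹ * QuadraticMap.polar (⇑Q) v x) • v := by
  unfold reflectionMatrix
  rw [Matrix.sub_mulVec, Matrix.one_mulVec, Matrix.smul_mulVec, Matrix.vecMulVec_mulVec,
    polarVec_dotProduct]
  congr 1
  ext i
  simp [mul_comm, mul_assoc, mul_left_comm]

/-- Product of two reflection matrices (as `1 - a u u* - b v v* + a b B(u,v) u v*`). -/
theorem reflectionMatrix_mul (u v : ι → F) :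
    reflectionMatrix (⇑Q) u * reflectionMatrix (⇑Q) v =
      1 - (Q u)⁻¹ • Matrix.vecMulVec u (polarVec (⇑Q) u) - (Q v)⁻¹ • Matrix.vecMulVec v (polarVec (⇑Q) v)
        + ((Q u)⁻¹ * (Q v)⁻¹ * QuadraticMap.polar (⇑Q) u v) • Matrix.vecMulVec u (polarVec (⇑Q) v) := by
  unfold reflectionMatrix
  have h : Matrix.vecMulVec u (polarVec (⇑Q) u) * Matrix.vecMulVec v (polarVec (⇑Q) v) =
      QuadraticMap.polar (⇑Q) u v • Matrix.vecMulVec u (polarVec (⇑Q) v) := by
    rw [Matrix.vecMulVec_mul_vecMulVec, polarVec_dotProduct]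
    ext i j
    simp [Matrix.vecMulVec_apply, Matrix.smul_apply]
    ring
  simp only [sub_mul, mul_sub, one_mul, mul_one, smul_mul_assoc, mul_smul_comm, h, smul_smul]
  rw [smul_sub, smul_smul, show (Q v)⁻¹ * ((Q u)⁻¹ * QuadraticMap.polar (⇑Q) u v) = (Q u)⁻¹ * (Q v)⁻¹ * QuadraticMap.polar (⇑Q) u v by ring]
  abel

theorem polar_symm (u v : ι → F) :
    QuadraticMap.polar (⇑Q) u v = QuadraticMap.polar (⇑Q) v u :=
  QuadraticMap.polar_comm Q u v

end Cfsg.Agent.Lib.ReflectionBasic
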