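import Mathlib
import Cfsg.Prelude.Def_Blocks
import Cfsg.Agent.Lib.BlockOrth
import Cfsg.Agent.Lib.BlkBasic
import Cfsg.Agent.Lib.FongReynolds
import Cfsg.Agent.Lib.Carter

/-!
# Central idempotents supported on `p`-regular elements

If the coefficients of a central idempotent `∑_{χ ∈ U} e_χ` vanish at every `p`-singular element then
they vanish off the centralizer of every normal `p`-subgroup.
-/

set_option autoImplicit false
set_option linter.unusedSectionVars false
set_option linter.unusedVariables false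
set_option linter.style.haveILetI false

namespace Cfsg.Agent.Lib.RegSupport

open Cfsg Cfsg.Agent.Lib.CharBasic Cfsg.Agent.Lib.BlockIdem
open scoped ComplexConjugate Pointwise

universe u

variable {G : Type u} [Group G] {p : ℕ} [hp : Fact p.Prime]

/-- Two `p`-regular elements in one coset of a normal `p`-subgroup are conjugate under it. -/
theorem reg_conj [Finite G] (D : Subgroup G) [hD : D.Normal] (hDp : IsPGroup p D) {a y : G} (hy : y ∈ D)
    (ha : ¬ p ∣ orderOf a) (hb : ¬ p ∣ orderOf (y⁻¹ * a)) : ∃ t ∈ D, y⁻¹ * a = t * a * t⁻¹ := by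
  classical
  set b := y⁻¹ * a with hbdef
  -- equal powers vanish
  have key : ∀ u v : G, u⁻¹ * v ∈ D → ¬ p ∣ orderOf v → u ^ orderOf u = 1 → orderOf v ∣ orderOf u := by
    intro u v huv hv _
    have h1 : ((v : G) : G ⧸ D) = (u : G ⧸ D) := by
      rw [eq_comm, QuotientGroup.eq]
      exact huv
    have h2 : (v ^ orderOf u : G) ∈ D := by
      rw [← QuotientGroup.eq_one_iff]
      have h3 : ((v ^ orderOf u : G) : G ⧸ D) = ((v : G) : G ⧸ D) ^ orderOf u := rfl
      rw [h3, h1]
      have h4 : ((u : G) : G ⧸ D) ^ orderOf u = ((u ^ orderOf u : G) : G ⧸ D) := rfl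
      rw [h4, pow_orderOf_eq_one]
      rfl
    obtain ⟨k, hk⟩ := (IsPGroup.iff_orderOf.mp hDp) ⟨_, h2⟩
    have hk' : orderOf (v ^ orderOf u) = p ^ k := by
      rw [← hk]
      exact (Subgroup.orderOf_mk _ _).symm
    have h5 : orderOf (v ^ orderOf u) ∣ orderOf v := orderOf_pow_dvd _
    have h6 : k = 0 := by
      by_contra hk0
      exact hv ((dvd_pow_self p hk0).trans (hk' ▸ h5))
    rw [h6, pow_zero, orderOf_eq_one_iff] at hk'
    exact orderOf_dvd_of_pow_eq_one hk'
  have hba : b⁻¹ * a ∈ D := by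
    have : b⁻¹ * a = a⁻¹ * y * a := by
      rw [hbdef]
      group
    rw [this]
    have := hD.conj_mem y hy a⁻¹
    simpa using this
  have hab : a⁻¹ * b ∈ D := by
    have : a⁻¹ * b = (b⁻¹ * a)⁻¹ := by group
    rw [this]
    exact D.inv_mem hba
  have hord : orderOf b = orderOf a :=
    Nat.dvd_antisymm (key a b hab hb (pow_orderOf_eq_one a)) (key b a hba ha (pow_orderOf_eq_one b))
  set Y : Subgroup G := Subgroup.zpowers a with hY
  set Y' : Subgroup G := Subgroup.zpowers b with hY'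
  have hcY : (Nat.card Y).Coprime p := by
    rw [hY, Nat.card_zpowers]
    exact ((Nat.Prime.coprime_iff_not_dvd hp.out).mpr ha).symm
  have hcard : Nat.card Y' = Nat.card Y := by
    rw [hY, hY', Nat.card_zpowers, Nat.card_zpowers, hord]
  have hle : Y' ≤ D ⊔ Y := by
    rw [hY', Subgroup.zpowers_le]
    rw [hbdef]
    exact Subgroup.mul_mem _ ((le_sup_left : D ≤ D ⊔ Y) (D.inv_mem hy))
      ((le_sup_right : Y ≤ D ⊔ Y) (Subgroup.mem_zpowers a))
  obtain ⟨t, ht, htY⟩ := Cfsg.Agent.Lib.Carter.exists_conj_complement D hDp Y Y' hcY hcard hle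
  -- write `t = d * e`
  have ht' : t ∈ ((D ⊔ Y : Subgroup G) : Set G) := ht
  rw [Subgroup.normal_mul] at ht'
  obtain ⟨d, hd, e, he, rfl⟩ := Set.mem_mul.mp ht'
  have hea : e * a * e⁻¹ = a := by
    obtain ⟨j, rfl⟩ := Subgroup.mem_zpowers_iff.mp he
    have : Commute (a ^ j) a := (Commute.refl a).zpow_left j
    rw [this.eq]
    group
  have h1 : d * a * d⁻¹ ∈ Y' := by
    rw [← htY]
    refine ⟨a, Subgroup.mem_zpowers a, ?_⟩
    show (d * e) * a * (d * e)⁻¹ = _
    rw [mul_inv_rev]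
    calc d * e * a * (e⁻¹ * d⁻¹) = d * (e * a * e⁻¹) * d⁻¹ := by group
      _ = d * a * d⁻¹ := by rw [hea]
  obtain ⟨m, hm⟩ := Subgroup.mem_zpowers_iff.mp h1
  refine ⟨d, hd, ?_⟩
  rw [← hm]
  -- `b ^ (m - 1) ∈ D`
  have h2 : b ^ (m - 1) ∈ D := by
    have h3 : b ^ (m - 1) = (b⁻¹ * a) * ((a⁻¹ * d * a) * d⁻¹) := by
      rw [show m - 1 = -1 + m by ring, zpow_add, zpow_neg_one, hm]
      group
    rw [h3]
    refine D.mul_mem hba (D.mul_mem ?_ (D.inv_mem hd))
    have := hD.conj_mem d hd a⁻¹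
    simpa using this
  have h4 : (b ^ (m - 1)) ^ orderOf b = 1 := by
    rw [← zpow_natCast, ← zpow_mul, mul_comm, zpow_mul, zpow_natCast, pow_orderOf_eq_one, one_zpow]
  obtain ⟨k, hk⟩ := (IsPGroup.iff_orderOf.mp hDp) ⟨_, h2⟩
  have hk' : orderOf (b ^ (m - 1)) = p ^ k := by
    rw [← hk]
    exact (Subgroup.orderOf_mk _ _).symm
  have h5 : orderOf (b ^ (m - 1)) ∣ orderOf b := orderOf_dvd_of_pow_eq_one h4
  have h6 : k = 0 := by
    by_contra hk0
    exact hb ((dvd_pow_self p hk0).trans (hk' ▸ h5))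
  rw [h6, pow_zero, orderOf_eq_one_iff] at hk'
  rw [show m = 1 + (m - 1) by ring, zpow_add, zpow_one, hk', mul_one]

/-- The idempotent coefficients of a set of irreducible characters vanishing at `p`-singular
elements vanish off the centralizer of every normal `p`-subgroup. -/
theorem mem_centralizer_of_blockCoeff_ne_zero [Fintype G] (D : Subgroup G) [hD : D.Normal]
    (hDp : IsPGroup p D) {U : Set (IrrCharacter G)}
    (hU : ∀ x : G, p ∣ orderOf x → blockCoeff U x = 0) {a : G} (ha : blockCoeff U a ≠ 0) :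
    a ∈ Subgroup.centralizer (D : Set G) := by
  classical
  set c : G → ℂ := blockCoeff U with hc
  have hcl : IsClassFunction G c := Cfsg.Agent.Lib.BlockOrth.blockCoeff_isClassFunction U
  have hinv : ∀ x, c x⁻¹ = conj (c x) := Cfsg.Agent.Lib.FongReynolds.blockCoeff_inv_eq_conj U
  have hconv : Cfsg.Agent.Lib.CharIntegrality.conv c c = c := Cfsg.Agent.Lib.BlockOrth.conv_blockCoeff U
  have hreg : ∀ x, c x ≠ 0 → ¬ p ∣ orderOf x := fun x hx h => hx (hU x h)
  -- the main vanishing
  have hmain : ∀ y ∈ D, y ≠ 1 → ∀ x, c x ≠ 0 → c (y⁻¹ * x) = 0 := by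
    intro y hy hy1 x hx
    by_contra hne
    have hyp : p ∣ orderOf y := by
      obtain ⟨k, hk⟩ := (IsPGroup.iff_orderOf.mp hDp) ⟨_, hy⟩
      have hk' : orderOf y = p ^ k := by
        rw [← hk]
        exact (Subgroup.orderOf_mk _ _).symm
      have hk0 : k ≠ 0 := by
        rintro rfl
        rw [pow_zero, orderOf_eq_one_iff] at hk'
        exact hy1 hk'
      rw [hk']
      exact dvd_pow_self p hk0
    have h0 : c y = 0 := hU y hyp
    have h1 : ∑ z : G, c z * c (z⁻¹ * y) = 0 := by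
      rw [← h0]
      exact congrFun hconv y
    have hterm : ∀ z : G, (c z * c (z⁻¹ * y)).re = if c z ≠ 0 ∧ c (y⁻¹ * z) ≠ 0 then Complex.normSq (c z) else 0 := by
      intro z
      have h2 : z⁻¹ * y = (y⁻¹ * z)⁻¹ := by group
      rw [h2, hinv]
      split_ifs with h3
      · obtain ⟨t, ht, htz⟩ := reg_conj D hDp hy (hreg z h3.1) (hreg _ h3.2)
        have h4 : c (y⁻¹ * z) = c z := by
          rw [htz]
          exact hcl z t
        rw [h4, Complex.mul_conj]
        simp
      · by_cases h5 : c z = 0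
        · simp [h5]
        · have h6 : c (y⁻¹ * z) = 0 := by
            by_contra h6
            exact h3 ⟨h5, h6⟩
          simp [h6]
    have h2 : ∑ z : G, (c z * c (z⁻¹ * y)).re = 0 := by
      rw [← Complex.re_sum, h1]
      rfl
    simp_rw [hterm] at h2
    have h3 := (Finset.sum_eq_zero_iff_of_nonneg (fun z _ => by
      split_ifs
      · exact Complex.normSq_nonneg _
      · exact le_rfl)).mp h2 x (Finset.mem_univ x)
    rw [if_pos ⟨hx, hne⟩] at h3
    exact hx (Complex.normSq_eq_zero.mp h3)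
  rw [Subgroup.mem_centralizer_iff]
  intro t ht
  by_contra hne
  have ht' : t ∈ D := ht
  set y : G := a * (t * a⁻¹ * t⁻¹) with hy
  have hyD : y ∈ D := by
    have h1 : a * t * a⁻¹ ∈ D := hD.conj_mem t ht' a
    have h2 : y = (a * t * a⁻¹) * t⁻¹ := by
      rw [hy]
      group
    rw [h2]
    exact D.mul_mem h1 (D.inv_mem ht')
  have hy1 : y ≠ 1 := by
    intro h
    apply hne
    have h2 : a * t * a⁻¹ * t⁻¹ = 1 := by
      rw [← h, hy]
      group
    have h3 : a * t * a⁻¹ = t := mul_inv_eq_one.mp h2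
    exact (mul_inv_eq_iff_eq_mul.mp h3).symm
  have h3 := hmain y hyD hy1 a ha
  have h4 : y⁻¹ * a = t * a * t⁻¹ := by
    rw [hy]
    group
  rw [h4, hcl a t] at h3
  exact ha h3

end Cfsg.Agent.Lib.RegSupport
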