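import Mathlib

/-!
Linear algebra of an endomorphism whose kernel has dimension at most one
(regular nilpotent endomorphisms); used for regular unipotent matrices.
-/

set_option autoImplicit false

namespace Cfsg.Agent.Lib.RegUnip

open Module

variable {K V : Type*} [Field K] [AddCommGroup V] [Module K V] [FiniteDimensional K V]

/-- The dimension of `ker (N^(k+1))` is at most one more than that of `ker (N^k)`
when the kernel of `N` has dimension at most one. -/
theorem finrank_ker_pow_succ_le (N : End K V) (h1 : finrank K (LinearMap.ker N) ≤ 1) (k : ℕ) :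
    finrank K (LinearMap.ker (N ^ (k + 1))) ≤ finrank K (LinearMap.ker (N ^ k)) + 1 := by
  set A := LinearMap.ker (N ^ (k + 1)) with hA
  let f : A →ₗ[K] V := (N ^ k) ∘ₗ A.subtype
  have hrange : LinearMap.range f ≤ LinearMap.ker N := by
    rintro _ ⟨⟨x, hx⟩, rfl⟩
    have hx' : (N ^ (k + 1)) x = 0 := hx
    rw [pow_succ'] at hx'
    exact hx'
  have hr : finrank K (LinearMap.range f) ≤ 1 := (Submodule.finrank_mono hrange).trans h1
  have hker : finrank K (LinearMap.ker f) ≤ finrank K (LinearMap.ker (N ^ k)) := by
    let g : LinearMap.ker f →ₗ[K] LinearMap.ker (N ^ k) :=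
      { toFun := fun x => ⟨(x : A), LinearMap.mem_ker.mp x.2⟩
        map_add' := fun _ _ => rfl
        map_smul' := fun _ _ => rfl }
    apply LinearMap.finrank_le_finrank_of_injective (f := g)
    intro x y hxy
    have : ((x : A) : V) = ((y : A) : V) :=
      congrArg (fun z : LinearMap.ker (N ^ k) => (z : V)) hxy
    exact Subtype.ext (Subtype.ext this)
  have := f.finrank_range_add_finrank_ker
  omega

theorem finrank_ker_pow_le (N : End K V) (h1 : finrank K (LinearMap.ker N) ≤ 1) (k : ℕ) :
    finrank K (LinearMap.ker (N ^ k)) ≤ k := by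
  induction k with
  | zero =>
    have : LinearMap.ker (N ^ 0) = ⊥ := by
      rw [pow_zero]
      exact LinearMap.ker_id
    rw [this]
    simp
  | succ k ih =>
    have := finrank_ker_pow_succ_le N h1 k
    omega

/-- A nilpotent endomorphism of a finite-dimensional space is killed by the dimension. -/
theorem pow_finrank_eq_zero_of_isNilpotent (N : End K V) (hN : IsNilpotent N) :
    N ^ finrank K V = 0 := by
  have h1 := (LinearMap.isNilpotent_iff_charpoly N).mp hN
  have h2 := LinearMap.aeval_self_charpoly N
  rw [h1] at h2
  simpa using h2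

/-- An invariant subspace of a nilpotent endomorphism is killed by the power equal to its
dimension. -/
theorem le_ker_pow_finrank (N : End K V) (hN : IsNilpotent N) (W : Submodule K V)
    (hW : ∀ v ∈ W, N v ∈ W) : W ≤ LinearMap.ker (N ^ finrank K W) := by
  let R : End K W := N.restrict hW
  have hR : IsNilpotent R := by
    obtain ⟨m, hm⟩ := hN
    refine ⟨m, ?_⟩
    apply LinearMap.ext
    rintro ⟨x, hx⟩
    apply Subtype.ext
    have : ∀ j : ℕ, (((R ^ j) ⟨x, hx⟩ : W) : V) = (N ^ j) x := by
      intro j
      induction j generalizing x with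
      | zero => simp
      | succ j ih =>
        rw [pow_succ, pow_succ, Module.End.mul_apply, Module.End.mul_apply]
        have := ih (N x) (hW x hx)
        exact this
    rw [this m, hm]
    simp
  have h0 := pow_finrank_eq_zero_of_isNilpotent R hR
  intro x hx
  have hj : ∀ j : ℕ, ∀ x (hx : x ∈ W), (((R ^ j) ⟨x, hx⟩ : W) : V) = (N ^ j) x := by
    intro j
    induction j with
    | zero => simp
    | succ j ih =>
      intro x hx
      rw [pow_succ, pow_succ, Module.End.mul_apply, Module.End.mul_apply]
      exact ih (N x) (hW x hx)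
  rw [LinearMap.mem_ker, ← hj _ x hx, h0]
  simp

/-- In the regular nilpotent case each invariant subspace is the kernel of a power. -/
theorem eq_ker_pow_finrank (N : End K V) (hN : IsNilpotent N)
    (h1 : finrank K (LinearMap.ker N) ≤ 1) (W : Submodule K V)
    (hW : ∀ v ∈ W, N v ∈ W) : W = LinearMap.ker (N ^ finrank K W) := by
  apply Submodule.eq_of_le_of_finrank_le (le_ker_pow_finrank N hN W hW)
  exact finrank_ker_pow_le N h1 _

/-- The kernel of the matrix as a linear map has dimension at most one when its rank is `n-1`. -/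
theorem finrank_ker_le_one_of_rank {F : Type*} [Field F] {n : ℕ}
    (N : Matrix (Fin n) (Fin n) F) (hreg : N.rank = n - 1) :
    finrank F (LinearMap.ker (Matrix.toLin' N)) ≤ 1 := by
  have h := (Matrix.toLin' N).finrank_range_add_finrank_ker
  have h2 : finrank F (LinearMap.range (Matrix.toLin' N)) = N.rank := by
    rw [Matrix.rank, Matrix.toLin'_apply']
  have h3 : finrank F (Fin n → F) = n := by simp
  omega

theorem isNilpotent_toLin' {F : Type*} [Field F] {n : ℕ}
    (N : Matrix (Fin n) (Fin n) F) (m : ℕ) (hnil : N ^ m = 0) :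
    IsNilpotent (Matrix.toLin' N : End F (Fin n → F)) :=
  ⟨m, by rw [← Matrix.toLin'_pow, hnil]; simp⟩

end Cfsg.Agent.Lib.RegUnip
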