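import Mathlib
import Cfsg.Prelude.Def_PLocal
import Cfsg.Agent.Lib.RegularP

/-!
# P. Hall's theorems on `m`-th powers in groups satisfying a regularity identity.
-/

set_option autoImplicit false

open Cfsg
open scoped commutatorElement

namespace Cfsg.Agent.Lib.RegularPower

variable {G : Type*} [Group G]

/-- The subgroup generated by the `m`-th powers of elements of `H`. -/
def pc (m : ℕ) (H : Subgroup G) : Subgroup G := Subgroup.closure {y | ∃ x ∈ H, y = x ^ m}

theorem pc_mono (m : ℕ) {H K : Subgroup G} (h : H ≤ K) : pc m H ≤ pc m K := by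
  apply Subgroup.closure_mono
  rintro y ⟨x, hx, rfl⟩
  exact ⟨x, h hx, rfl⟩

theorem pc_le (m : ℕ) (H : Subgroup G) : pc m H ≤ H := by
  rw [pc, Subgroup.closure_le]
  rintro y ⟨x, hx, rfl⟩
  exact H.pow_mem hx m

theorem pow_mem_pc (m : ℕ) {H : Subgroup G} {x : G} (hx : x ∈ H) : x ^ m ∈ pc m H :=
  Subgroup.subset_closure ⟨x, hx, rfl⟩

/-- The weak form of the regularity identity for the exponent `m`. -/
def Rw (m : ℕ) (G : Type*) [Group G] : Prop :=
  ∀ a b : G, ∃ c ∈ pc m ⁅Subgroup.closure ({a, b} : Set G), Subgroup.closure ({a, b} : Set G)⁆,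
    (a * b) ^ m = a ^ m * b ^ m * c

section PGroup

variable [Finite G] {p : ℕ} [Fact p.Prime]

theorem comm_of_sup_commutator_eq (hG : IsPGroup p G) {K : Subgroup G} {g : G} (hg : g ∈ K)
    (h : Subgroup.zpowers g ⊔ ⁅K, K⁆ = K) : ∀ x ∈ K, ∀ y ∈ K, x * y = y * x := by
  have hKp : IsPGroup p K := hG.to_subgroup K
  set g' : K := ⟨g, hg⟩ with hg'
  have h1 : Subgroup.zpowers g' ⊔ commutator K = ⊤ := by
    apply Subgroup.map_injective K.subtype_injective
    rw [Subgroup.map_sup, MonoidHom.map_zpowers, Subgroup.map_subtype_commutator, ← MonoidHom.range_eq_map,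
      Subgroup.range_subtype]
    exact h
  have h2 := Cfsg.Agent.Lib.RegularP.eq_top_of_sup_commutator hKp _ h1
  intro x hx y hy
  have hx' : (⟨x, hx⟩ : K) ∈ Subgroup.zpowers g' := by rw [h2]; exact Subgroup.mem_top _
  have hy' : (⟨y, hy⟩ : K) ∈ Subgroup.zpowers g' := by rw [h2]; exact Subgroup.mem_top _
  obtain ⟨i, hi⟩ := Subgroup.mem_zpowers_iff.mp hx'
  obtain ⟨j, hj⟩ := Subgroup.mem_zpowers_iff.mp hy'
  have h3 : (⟨x, hx⟩ * ⟨y, hy⟩ : K) = ⟨y, hy⟩ * ⟨x, hx⟩ := by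
    rw [← hi, ← hj, ← zpow_add, ← zpow_add, add_comm]
  exact congrArg Subtype.val h3

/-- **P. Hall**: if the weak identity holds for `m`, products of `m`-th powers of elements of `H` are `m`-th powers
of elements of `H`. -/
theorem exists_pow_of_mem_pc (hG : IsPGroup p G) {m : ℕ} (hR : Rw m G) :
    ∀ H : Subgroup G, ∀ z ∈ pc m H, ∃ x ∈ H, z = x ^ m := by
  intro H
  induction H using WellFoundedLT.induction with
  | _ H ih =>
  have key : ∀ x ∈ H, ∀ y ∈ H, ∃ w ∈ H, x ^ m * y ^ m = w ^ m := by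
    intro x hx y hy
    set K := Subgroup.closure ({x, y} : Set G) with hK
    have hxK : x ∈ K := Subgroup.subset_closure (by simp)
    have hyK : y ∈ K := Subgroup.subset_closure (by simp)
    have hKH : K ≤ H := by
      rw [hK, Subgroup.closure_le]
      rintro t (rfl | rfl)
      · exact hx
      · exact hy
    by_cases hKeq : K = H
    · obtain ⟨c, hc, hxy⟩ := hR x y
      by_cases hcomm : x * y = y * x
      · exact ⟨x * y, H.mul_mem hx hy, ((Commute.mul_pow hcomm m).symm)⟩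
      · have hK'K : ⁅K, K⁆ ≤ K := Subgroup.commutator_le_self K
        set L := Subgroup.zpowers (x * y) ⊔ ⁅K, K⁆ with hL
        have hgK : x * y ∈ K := K.mul_mem hxK hyK
        have hLK : L ≤ K := sup_le (Subgroup.zpowers_le.mpr hgK) hK'K
        have hLne : L ≠ K := fun he =>
          hcomm (comm_of_sup_commutator_eq hG hgK he x hxK y hyK)
        have hLlt : L < H := by
          rw [← hKeq]
          exact lt_of_le_of_ne hLK hLne
        have hK'lt : ⁅K, K⁆ < H := lt_of_le_of_lt le_sup_right hLlt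
        obtain ⟨d, hd, rfl⟩ := ih _ hK'lt c hc
        have hdL : d ∈ L := (le_sup_right : ⁅K, K⁆ ≤ L) hd
        have hxyL : x * y ∈ L := (le_sup_left : Subgroup.zpowers (x * y) ≤ L) (Subgroup.mem_zpowers _)
        obtain ⟨w, hw, e⟩ := ih L hLlt ((x * y) ^ m * (d⁻¹) ^ m)
          ((pc m L).mul_mem (pow_mem_pc m hxyL) (pow_mem_pc m (L.inv_mem hdL)))
        refine ⟨w, hLlt.le hw, ?_⟩
        rw [← e, hxy, inv_pow]
        group
    · have hlt : K < H := lt_of_le_of_ne hKH hKeq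
      obtain ⟨w, hw, e⟩ := ih K hlt (x ^ m * y ^ m) ((pc m K).mul_mem (pow_mem_pc m hxK) (pow_mem_pc m hyK))
      exact ⟨w, hKH hw, e⟩
  intro z hz
  induction hz using Subgroup.closure_induction with
  | mem y hy => exact hy
  | one => exact ⟨1, H.one_mem, by simp⟩
  | mul a b _ _ ha hb =>
    obtain ⟨x, hx, rfl⟩ := ha
    obtain ⟨y, hy, rfl⟩ := hb
    exact key x hx y hy
  | inv a _ ha =>
    obtain ⟨x, hx, rfl⟩ := ha
    exact ⟨x⁻¹, H.inv_mem hx, by simp⟩

theorem conj_mem_pc_commutator {m : ℕ} (H : Subgroup G) {z h : G} (hz : z ∈ pc m ⁅H, H⁆) (hh : h ∈ H) :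
    h * z * h⁻¹ ∈ pc m ⁅H, H⁆ := by
  induction hz using Subgroup.closure_induction with
  | mem y hy =>
    obtain ⟨d, hd, rfl⟩ := hy
    rw [← conj_pow]
    apply pow_mem_pc
    have h1 : h * d * h⁻¹ = ⁅h, d⁆ * d := by rw [commutatorElement_def]; group
    rw [h1]
    exact ⁅H, H⁆.mul_mem (Subgroup.commutator_mem_commutator hh (Subgroup.commutator_le_self H hd)) hd
  | one => simp
  | mul a b _ _ ha hb =>
    have e : h * (a * b) * h⁻¹ = (h * a * h⁻¹) * (h * b * h⁻¹) := by group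
    rw [e]
    exact (pc m ⁅H, H⁆).mul_mem ha hb
  | inv a _ ha =>
    have e : h * a⁻¹ * h⁻¹ = (h * a * h⁻¹)⁻¹ := by group
    rw [e]
    exact (pc m ⁅H, H⁆).inv_mem ha

/-- `[℧(H), H] ≤ ℧(H')`. -/
theorem commutator_pc_le (hG : IsPGroup p G) {m : ℕ} (hR : Rw m G) (H : Subgroup G) :
    ⁅pc m H, H⁆ ≤ pc m ⁅H, H⁆ := by
  rw [Subgroup.commutator_le]
  intro g hg h hh
  obtain ⟨x, hx, rfl⟩ := exists_pow_of_mem_pc hG hR H g hg
  set w := x⁻¹ * h * x * h⁻¹ with hw
  have hwH : w ∈ ⁅H, H⁆ := by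
    have : w = ⁅x⁻¹, h⁆ := by rw [hw, commutatorElement_def]; simp
    rw [this]
    exact Subgroup.commutator_mem_commutator (H.inv_mem hx) hh
  obtain ⟨c, hc, hxw⟩ := hR x w
  have hcl : Subgroup.closure ({x, w} : Set G) ≤ H := by
    rw [Subgroup.closure_le]
    rintro t (rfl | rfl)
    · exact hx
    · exact Subgroup.commutator_le_self H hwH
  have hc' : c ∈ pc m ⁅H, H⁆ := pc_mono m (Subgroup.commutator_mono hcl hcl) hc
  have hxw2 : x * w = h * x * h⁻¹ := by rw [hw]; group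
  rw [hxw2, conj_pow] at hxw
  -- `h x^m h⁻¹ = x^m w^m c`
  have e : ⁅x ^ m, h⁆ = x ^ m * (c⁻¹ * (w ^ m)⁻¹) * (x ^ m)⁻¹ := by
    rw [commutatorElement_def]
    have : x ^ m * h * (x ^ m)⁻¹ * h⁻¹ = x ^ m * (h * x ^ m * h⁻¹)⁻¹ := by group
    rw [this, hxw]
    group
  rw [e]
  apply conj_mem_pc_commutator H _ (H.pow_mem hx m)
  exact (pc m ⁅H, H⁆).mul_mem ((pc m ⁅H, H⁆).inv_mem hc') ((pc m ⁅H, H⁆).inv_mem (pow_mem_pc m hwH))

/-- The weak identity for `m` and `p` gives it for `m * p`. -/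
theorem Rw_mul (hG : IsPGroup p G) {m : ℕ} (hm : Rw m G) {q : ℕ} (hq : Rw q G) : Rw (m * q) G := by
  intro a b
  set K := Subgroup.closure ({a, b} : Set G) with hK
  set W := pc m K with hW
  have hWK : W ≤ K := pc_le m K
  obtain ⟨c0, hc0, h1⟩ := hm a b
  obtain ⟨c, hc, rfl⟩ := exists_pow_of_mem_pc hG hm _ c0 hc0
  have hcK : c ∈ K := Subgroup.commutator_le_self K hc
  have sub : ∀ E ∈ W, ∀ F ∈ W, ∃ g ∈ ⁅K, K⁆, (E * F) ^ q = E ^ q * F ^ q * g ^ (m * q) := by
    intro E hE F hF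
    obtain ⟨e0, he0, h2⟩ := hq E F
    obtain ⟨e, he, rfl⟩ := exists_pow_of_mem_pc hG hq _ e0 he0
    have hcl : Subgroup.closure ({E, F} : Set G) ≤ W := by
      rw [Subgroup.closure_le]
      rintro t (rfl | rfl)
      · exact hE
      · exact hF
    have he1 : e ∈ ⁅W, W⁆ := Subgroup.commutator_mono hcl hcl he
    have he2 : e ∈ pc m ⁅K, K⁆ := commutator_pc_le hG hm K (Subgroup.commutator_mono le_rfl hWK he1)
    obtain ⟨g, hg, rfl⟩ := exists_pow_of_mem_pc hG hm _ e he2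
    exact ⟨g, hg, by rw [h2, pow_mul]⟩
  have hA : a ^ m ∈ W := pow_mem_pc m (Subgroup.subset_closure (by simp))
  have hB : b ^ m ∈ W := pow_mem_pc m (Subgroup.subset_closure (by simp))
  have hC : c ^ m ∈ W := pow_mem_pc m hcK
  obtain ⟨g₁, hg₁, h3⟩ := sub _ (W.mul_mem hA hB) _ hC
  obtain ⟨g₂, hg₂, h4⟩ := sub _ hA _ hB
  refine ⟨g₂ ^ (m * q) * c ^ (m * q) * g₁ ^ (m * q), ?_, ?_⟩
  · exact (pc _ _).mul_mem ((pc _ _).mul_mem (pow_mem_pc _ hg₂) (pow_mem_pc _ hc)) (pow_mem_pc _ hg₁)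
  · rw [pow_mul (a * b), h1, h3, h4, ← pow_mul, ← pow_mul, ← pow_mul]
    group

theorem Rw_of_regular (hG : IsRegularPGroup p G) (n : ℕ) : Rw (p ^ n) G := fun a b => hG.2 a b n

/-- Kemhadze's criterion. -/
theorem regular_iff (hG : IsPGroup p G) :
    IsRegularPGroup p G ↔ ∀ a b : G, ∃ c ∈ ⁅Subgroup.closure ({a, b} : Set G), Subgroup.closure ({a, b} : Set G)⁆,
      (a * b) ^ p = a ^ p * b ^ p * c ^ p := by
  constructor
  · intro h a b
    obtain ⟨c0, hc0, h1⟩ := h.2 a b 1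
    obtain ⟨c, hc, rfl⟩ := exists_pow_of_mem_pc hG (Rw_of_regular h 1) _ c0 hc0
    refine ⟨c, hc, ?_⟩
    simpa only [pow_one] using h1
  · intro h
    have hp : Rw p G := by
      intro a b
      obtain ⟨c, hc, h1⟩ := h a b
      exact ⟨c ^ p, pow_mem_pc p hc, h1⟩
    have hn : ∀ n : ℕ, Rw (p ^ n) G := by
      intro n
      induction n with
      | zero =>
        intro a b
        exact ⟨1, Subgroup.one_mem _, by simp⟩
      | succ n ih =>
        rw [pow_succ]
        exact Rw_mul hG ih hp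
    exact ⟨hG, fun a b n => hn n a b⟩

/-- Hall's theorem on the set of `p^n`-th powers in a subgroup of a regular `p`-group. -/
theorem regular_powers (hG : IsRegularPGroup p G) (H : Subgroup G) (n : ℕ) :
    {y : G | ∃ x ∈ H, y = x ^ (p ^ n)} = (powerClosure p n H : Set G) ∧
      ⁅powerClosure p n H, powerClosure p n H⁆ ≤ powerClosure p n ⁅H, H⁆ := by
  constructor
  · ext y
    constructor
    · intro hy
      exact Subgroup.subset_closure hy
    · intro hy
      exact exists_pow_of_mem_pc hG.1 (Rw_of_regular hG n) H y hy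
  · have h1 : powerClosure p n H ≤ H := pc_le (p ^ n) H
    exact (Subgroup.commutator_mono le_rfl h1).trans (commutator_pc_le hG.1 (Rw_of_regular hG n) H)

end PGroup

end Cfsg.Agent.Lib.RegularPower
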