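import Cfsg.Agent.Lib.RepE6

namespace Cfsg.Agent.Lib.RepE6
open Cfsg.Agent.Lib.Chev Cfsg.Agent.Lib.ChevRep Cfsg.Lie

theorem comm1 : allBelow (fun k => checkCommRep T chevE6 (36 + k)) 36 = true := by decide +kernel

end Cfsg.Agent.Lib.RepE6
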