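import Cfsg.Agent.Lib.RepE6C0
import Cfsg.Agent.Lib.RepE6C1

namespace Cfsg.Agent.Lib.RepE6
open Cfsg.Agent.Lib.Chev Cfsg.Agent.Lib.ChevRep Cfsg.Lie

theorem comm0' : allBelow (checkCommRep T chevE6) 36 = true := by
  have h := comm0
  simpa using h
theorem comm1' : allBelow (checkCommRep T chevE6) (36 + 36) = true :=
  allBelow_add _ 36 36 comm0' comm1
theorem comm_ok : allBelow (checkCommRep T chevE6) T.nroots = true := comm1'
theorem rep_ok : RepChecks T chevE6 := ⟨nroots_ok, add_ok, pos_ok, comm_ok, h_ok⟩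

end Cfsg.Agent.Lib.RepE6
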