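import Cfsg.Agent.Lib.RepE7C0
import Cfsg.Agent.Lib.RepE7C1
import Cfsg.Agent.Lib.RepE7C2
import Cfsg.Agent.Lib.RepE7C3

namespace Cfsg.Agent.Lib.RepE7
open Cfsg.Agent.Lib.Chev Cfsg.Agent.Lib.ChevRep Cfsg.Lie

theorem comm0' : allBelow (checkCommRep T chevE7) 32 = true := by
  have h := comm0
  simpa using h
theorem comm1' : allBelow (checkCommRep T chevE7) (32 + 32) = true :=
  allBelow_add _ 32 32 comm0' comm1
theorem comm2' : allBelow (checkCommRep T chevE7) (64 + 32) = true :=
  allBelow_add _ 64 32 comm1' comm2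
theorem comm3' : allBelow (checkCommRep T chevE7) (96 + 30) = true :=
  allBelow_add _ 96 30 comm2' comm3
theorem comm_ok : allBelow (checkCommRep T chevE7) T.nroots = true := comm3'
theorem rep_ok : RepChecks T chevE7 := ⟨nroots_ok, add_ok, pos_ok, comm_ok, h_ok⟩

end Cfsg.Agent.Lib.RepE7
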