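/-
ResidModel1: a model of a saturated system restricts to a model of a normal subsystem (through the
normal subgroup attached to it).
-/
import Mathlib
import Cfsg.Agent.Lib.FusionIsoNormal
import Cfsg.Agent.Lib.CharPLocal
import Cfsg.Agent.S5121

set_option autoImplicit false

namespace Cfsg.Agent.Lib.ResidModel1

open Cfsg Cfsg.FusionSystem Cfsg.Agent.Lib.FusionCore Cfsg.Agent.Lib.FusionIso
  Cfsg.Agent.Lib.FusionIsoNormal Cfsg.Agent.Lib.PCore

universe u v
variable {Ω : Type u} [Group Ω] {S T : Subgroup Ω} [Finite S] {G : Type v} [Group G] {p : ℕ}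
  [Fact p.Prime]

theorem model_descent (hS : IsPGroup p S) {F : FusionSystem S} {E : FusionSystem T}
    (hE : E.IsNormalIn F p) (hT : T ≤ S) {ι : S →* G} (hG : F.IsModel p G ι) :
    ∃ (H : Subgroup G) (ι' : T →* H), H.Normal ∧ (∀ x : T, (ι' x : G) = ι ⟨x, hT x.2⟩) ∧
      E.IsModel p H ι' := by
  obtain ⟨hfin, hreal, ⟨T₀, hT₀⟩, hC⟩ := hG
  haveI := hfin
  obtain ⟨I, hI⟩ := exists_iso_of_realized hreal hT₀
  have hinj := hreal.1
  have hE' : (pull I.symm E hT).IsNormalIn (groupFusionSystem (T₀ : Subgroup G)) p :=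
    pull_isNormalIn I.symm T₀.isPGroup' hE hT
  have hT'T₀ : im I.e T ≤ T₀ := I.im_le hT
  obtain ⟨H, ⟨hTH, hHn, ⟨R, hR⟩, hHom⟩, -⟩ :=
    Cfsg.Agent.S5121.result p T₀ hC (im I.e T) hT'T₀ (pull I.symm E hT) hE'
  have hsub : E.IsSubsystemOf F := hE.1.2.2.1
  let J : Iso (pull I.symm E hT) E := pullIso hsub
  have hJe : J.e = I.e' := rfl
  have hJe' : J.e' = I.e := rfl
  have hιH : ∀ x : T, ι ⟨x, hT x.2⟩ ∈ H := fun x => by
    rw [← hI ⟨x, hT x.2⟩]
    exact hTH (I.mem_im_of_mem x.2)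
  let ι' : T →* H := (ι.comp (Subgroup.inclusion hT)).codRestrict H hιH
  have hι' : ∀ x : T, (ι' x : G) = I.e x := fun x => (hI ⟨x, hT x.2⟩).symm
  have hι'2 : ∀ x : T, (ι' x : G) = ι ⟨x, hT x.2⟩ := fun x => rfl
  refine ⟨H, ι', hHn, hι'2, inferInstance, ⟨?_, ?_⟩, ⟨R, hR.trans ?_⟩, ?_⟩
  · intro a b hab
    have h1 : ι ⟨a, hT a.2⟩ = ι ⟨b, hT b.2⟩ := congrArg Subtype.val hab
    have h2 := hinj h1
    exact Subtype.ext (congrArg (fun z : S => (z : Ω)) h2)
  · intro P hP φ hφ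
    constructor
    · intro hmem
      have hm : Maps E P (fn φ) := Maps.of_mem hmem
      have hm2 := J.maps' hm
      obtain ⟨ψ, hψ, hψf⟩ := hm2
      rw [hHom] at hψ
      obtain ⟨-, -, g, hgH, hg⟩ := hψ
      refine ⟨⟨g, hgH⟩, fun x => ?_⟩
      apply Subtype.ext
      have hxIm : I.e (x : Ω) ∈ im I.e P := I.mem_im_of_mem x.2
      have h3 := hψf ⟨I.e (x : Ω), hxIm⟩
      rw [hg] at h3
      show ((ι' ⟨φ x, hφ x⟩ : H) : G) = g * ((ι' ⟨x, hP x.2⟩ : H) : G) * g⁻¹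
      rw [hι', hι']
      refine Eq.trans ?_ h3.symm
      show I.e (φ x) = I.e (fn φ (I.e' (I.e (x : Ω))))
      rw [I.left _ (hT (hP x.2)), fn_coe]
    · rintro ⟨g, hg⟩
      have hg' : ∀ x : P, I.e (φ x) = (g : G) * I.e (x : Ω) * (g : G)⁻¹ := by
        intro x
        have h1 := congrArg (fun y : H => (y : G)) (hg x)
        simp only [Subgroup.coe_mul, InvMemClass.coe_inv, hι'] at h1
        exact h1
      have hPim : im I.e P ≤ im I.e T := by
        intro y hy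
        obtain ⟨x, hx, rfl⟩ := (I.mem_im (hP.trans hT)).1 hy
        exact I.mem_im_of_mem (hP hx)
      have hψ : conjHom (im I.e P) (g : G) ∈ (pull I.symm E hT).Hom (im I.e P) := by
        rw [hHom]
        refine ⟨hPim, fun y => ?_, (g : G), g.2, fun _ => rfl⟩
        obtain ⟨x, hx, hxe⟩ := (I.mem_im (hP.trans hT)).1 y.2
        show (g : G) * (y : G) * (g : G)⁻¹ ∈ im I.e T
        rw [← hxe, ← hg' ⟨x, hx⟩]
        exact I.mem_im_of_mem (hφ ⟨x, hx⟩)
      have hm := J.maps (Maps.of_mem hψ)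
      rw [hJe, hJe'] at hm
      have hPP : im I.e' (im I.e P) = P := I.im_symm (hP.trans hT)
      rw [hPP] at hm
      refine (hm.congr (fun x hx => ?_)).mem_hom (fun x => (fn_coe φ x).symm)
      show I.e' (fn (conjHom (im I.e P) (g : G)) (I.e x)) = fn φ x
      rw [fn_of_mem _ (I.mem_im_of_mem hx)]
      show I.e' ((g : G) * I.e x * (g : G)⁻¹) = fn φ x
      rw [← hg' ⟨x, hx⟩, I.left _ (hT (hφ ⟨x, hx⟩)), fn_of_mem _ hx]
  · ext y
    constructor
    · intro hy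
      have hy' : (y : G) ∈ im I.e T := hy
      obtain ⟨x, hx, hxe⟩ := (I.mem_im hT).1 hy'
      refine ⟨⟨x, hx⟩, Subtype.ext ?_⟩
      rw [hι']
      exact hxe
    · rintro ⟨x, rfl⟩
      show ((ι' x : H) : G) ∈ im I.e T
      rw [hι']
      exact I.mem_im_of_mem x.2
  · exact Cfsg.Agent.Lib.CharPLocal.charP_of_le_normalizer hC H
      (by rw [Subgroup.normalizer_eq_top]; exact le_top)

end Cfsg.Agent.Lib.ResidModel1
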