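import Mathlib
import Cfsg.Agent.Lib.GUField
import Cfsg.Agent.Lib.SympForm

/-!
# Restriction of scalars along a quadratic extension of finite fields
-/

set_option autoImplicit false
set_option linter.unusedSectionVars false
set_option linter.unusedSimpArgs false

namespace Cfsg.Agent.Lib.RestrScal

open Module Matrix
open scoped MatrixGroups
open Cfsg.Agent.Lib.UnitaryBasic Cfsg Cfsg.Agent.Lib.SympForm

section R

variable {F K : Type*} [Field F] [Field K] [Algebra F K] {ι₁ ι₂ : Type} [Fintype ι₁] [Fintype ι₂]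
  [DecidableEq ι₁] [DecidableEq ι₂]

theorem matrix_ext_mulVec {ι : Type} [Fintype ι] [DecidableEq ι] {M N : Matrix ι ι F}
    (h : ∀ x, M *ᵥ x = N *ᵥ x) : M = N := by
  apply Matrix.toLin'.injective
  apply LinearMap.ext
  intro x
  rw [Matrix.toLin'_apply, Matrix.toLin'_apply, h]

/-- Matrix of `e⁻¹ A e`, as a function. -/
noncomputable def R₀ (e : (ι₂ → F) ≃ₗ[F] (ι₁ → K)) (A : Matrix ι₁ ι₁ K) : Matrix ι₂ ι₂ F :=
  LinearMap.toMatrix' (e.symm.toLinearMap ∘ₗ ((Matrix.mulVecLin A).restrictScalars F) ∘ₗ e.toLinearMap)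

theorem R₀_mulVec (e : (ι₂ → F) ≃ₗ[F] (ι₁ → K)) (A : Matrix ι₁ ι₁ K) (x : ι₂ → F) :
    R₀ e A *ᵥ x = e.symm (A *ᵥ e x) := by
  rw [R₀, LinearMap.toMatrix'_mulVec]
  rfl

/-- Matrix of `e⁻¹ A e`, for `e` an `F`-linear identification of coordinate spaces. -/
noncomputable def R (e : (ι₂ → F) ≃ₗ[F] (ι₁ → K)) : Matrix ι₁ ι₁ K →* Matrix ι₂ ι₂ F where
  toFun A := R₀ e A
  map_one' := by
    apply matrix_ext_mulVec
    intro x
    rw [R₀_mulVec, Matrix.one_mulVec, Matrix.one_mulVec, LinearEquiv.symm_apply_apply]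
  map_mul' A B := by
    apply matrix_ext_mulVec
    intro x
    rw [R₀_mulVec, ← Matrix.mulVec_mulVec, ← Matrix.mulVec_mulVec, R₀_mulVec, R₀_mulVec,
      LinearEquiv.apply_symm_apply]

theorem R_mulVec (e : (ι₂ → F) ≃ₗ[F] (ι₁ → K)) (A : Matrix ι₁ ι₁ K) (x : ι₂ → F) :
    R e A *ᵥ x = e.symm (A *ᵥ e x) := R₀_mulVec e A x

theorem apply_R_mulVec (e : (ι₂ → F) ≃ₗ[F] (ι₁ → K)) (A : Matrix ι₁ ι₁ K) (x : ι₂ → F) :
    e (R e A *ᵥ x) = A *ᵥ e x := by
  rw [R_mulVec, LinearEquiv.apply_symm_apply]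

theorem R_injective (e : (ι₂ → F) ≃ₗ[F] (ι₁ → K)) : Function.Injective (R e) := by
  intro A B hAB
  apply Matrix.toLin'.injective
  apply LinearMap.ext
  intro y
  rw [Matrix.toLin'_apply, Matrix.toLin'_apply]
  have h1 := apply_R_mulVec e A (e.symm y)
  have h2 := apply_R_mulVec e B (e.symm y)
  rw [LinearEquiv.apply_symm_apply] at h1 h2
  rw [← h1, ← h2, hAB]

/-- Units version. -/
noncomputable def RGL (e : (ι₂ → F) ≃ₗ[F] (ι₁ → K)) : GL ι₁ K →* GL ι₂ F := Units.map (R e)

theorem RGL_val (e : (ι₂ → F) ≃ₗ[F] (ι₁ → K)) (g : GL ι₁ K) :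
    ((RGL e g : GL ι₂ F) : Matrix ι₂ ι₂ F) = R e (g : Matrix ι₁ ι₁ K) := rfl

theorem RGL_injective (e : (ι₂ → F) ≃ₗ[F] (ι₁ → K)) : Function.Injective (RGL e) := by
  intro a b hab
  apply Units.ext
  apply R_injective e
  rw [← RGL_val, ← RGL_val, hab]

end R

section Fields

/-- A field with `q` elements embeds in a field with `q²` elements. -/
theorem exists_ringHom {F K : Type*} [Field F] [Fintype F] [Field K] [Fintype K] {q : ℕ}
    (hF : Fintype.card F = q) (hK : Fintype.card K = q ^ 2) : Nonempty (F →+* K) := by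
  classical
  obtain ⟨p, hp⟩ := CharP.exists K
  obtain ⟨n, hpp, hcardK⟩ := FiniteField.card K p
  haveI : Fact p.Prime := ⟨hpp⟩
  obtain ⟨p', hp'⟩ := CharP.exists F
  obtain ⟨n', hpp', hcardF⟩ := FiniteField.card F p'
  have hq : p' ^ (n' : ℕ) = q := by rw [← hcardF, hF]
  have hpe : p' = p := by
    have h1 : p' ∣ p ^ (n : ℕ) := by
      rw [← hcardK, hK, ← hq]
      exact dvd_pow (dvd_pow_self _ n'.ne_zero) two_ne_zero
    exact (Nat.prime_dvd_prime_iff_eq hpp' hpp).1 (hpp'.dvd_of_dvd_pow h1)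
  subst hpe
  letI : Algebra (ZMod p') F := ZMod.algebra F p'
  letI : Algebra (ZMod p') K := ZMod.algebra K p'
  have h1 : p' ^ finrank (ZMod p') F = q := by
    rw [FiniteField.pow_finrank_eq_card, hF]
  have h2 : p' ^ finrank (ZMod p') K = q ^ 2 := by
    rw [FiniteField.pow_finrank_eq_card, hK]
  have h3 : finrank (ZMod p') K = finrank (ZMod p') F * 2 := by
    apply Nat.pow_right_injective hpp'.two_le
    show p' ^ _ = p' ^ _
    rw [h2, pow_mul, h1]
  obtain ⟨f⟩ := FiniteField.nonempty_algHom_of_finrank_dvd (F := ZMod p') (K := F) (L := K)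
    (Dvd.intro _ h3.symm)
  exact ⟨f.toRingHom⟩

variable {F K : Type*} [Field F] [Fintype F] [Field K] [Fintype K] [Algebra F K] {q : ℕ}

theorem sigma_algebraMap (hF : Fintype.card F = q) (hK : Fintype.card K = q ^ 2) (a : F) :
    sigma hK (algebraMap F K a) = algebraMap F K a := by
  rw [sigma_apply, ← map_pow, ← hF, FiniteField.pow_card]

theorem finrank_eq_two (hF : Fintype.card F = q) (hK : Fintype.card K = q ^ 2) : finrank F K = 2 := by
  have h1 := Module.card_eq_pow_finrank (K := F) (V := K)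
  rw [hK, hF] at h1
  have hq : 2 ≤ q := FFNorm.two_le hK
  exact (Nat.pow_right_injective hq h1).symm

theorem finrank_pi_K (hF : Fintype.card F = q) (hK : Fintype.card K = q ^ 2) (ι : Type) [Fintype ι] :
    finrank F (ι → K) = Fintype.card ι * 2 := by
  rw [Module.finrank_pi_fintype]
  simp [finrank_eq_two hF hK]

omit [Algebra F K] in
theorem exists_sigma_ne (hK : Fintype.card K = q ^ 2) : ∃ θ : K, sigma hK θ ≠ θ := by
  classical
  by_contra hall
  push Not at hall
  have hq : 2 ≤ q := FFNorm.two_le hK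
  obtain ⟨g, hg⟩ := IsCyclic.exists_generator (α := Kˣ)
  have h1 : orderOf g = Nat.card Kˣ := orderOf_eq_card_of_forall_mem_zpowers hg
  rw [FFNorm.card_units hK] at h1
  have h2 : g ^ q = g := by
    apply Units.ext
    have := hall g
    rw [sigma_apply] at this
    simpa using this
  have h3 : g ^ (q - 1) = 1 := by
    have h4 : g ^ (q - 1) * g = 1 * g := by
      rw [← pow_succ, Nat.sub_add_cancel (by omega), h2, one_mul]
    exact mul_right_cancel h4
  have h5 := orderOf_dvd_of_pow_eq_one h3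
  rw [h1] at h5
  have h6 := Nat.le_of_dvd (by omega) h5
  have h7 : (q - 1) * 1 < (q - 1) * (q + 1) := Nat.mul_lt_mul_of_pos_left (by omega) (by omega)
  omega

/-- Independence of `1, θ`. -/
theorem eq_zero_of_add_mul (hF : Fintype.card F = q) (hK : Fintype.card K = q ^ 2) {θ : K}
    (hθ : sigma hK θ ≠ θ) {a b : F} (h : algebraMap F K a + algebraMap F K b * θ = 0) :
    a = 0 ∧ b = 0 := by
  have h1 := congrArg (sigma hK) h
  rw [map_add, map_mul, sigma_algebraMap hF, sigma_algebraMap hF, map_zero] at h1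
  have h2 : algebraMap F K b * (sigma hK θ - θ) = 0 := by linear_combination h1 - h
  have hb : b = 0 := by
    rcases mul_eq_zero.1 h2 with h3 | h3
    · exact (map_eq_zero _).1 h3
    · exact absurd (sub_eq_zero.1 h3) hθ
  subst hb
  refine ⟨?_, rfl⟩
  simpa using h

/-- `1, θ` span. -/
theorem exists_decomp (hF : Fintype.card F = q) (hK : Fintype.card K = q ^ 2) {θ : K}
    (hθ : sigma hK θ ≠ θ) (x : K) : ∃ a b : F, x = algebraMap F K a + algebraMap F K b * θ := by
  let D : (F × F) →ₗ[F] K :=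
    { toFun := fun p => algebraMap F K p.1 + algebraMap F K p.2 * θ
      map_add' := fun p r => by
        simp only [Prod.fst_add, Prod.snd_add, map_add]
        ring
      map_smul' := fun c p => by
        show algebraMap F K (c * p.1) + algebraMap F K (c * p.2) * θ =
          c • (algebraMap F K p.1 + algebraMap F K p.2 * θ)
        rw [Algebra.smul_def, map_mul, map_mul]
        ring }
  have hinj : Function.Injective D := by
    rw [← LinearMap.ker_eq_bot, LinearMap.ker_eq_bot']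
    rintro ⟨a, b⟩ h
    obtain ⟨h1, h2⟩ := eq_zero_of_add_mul hF hK hθ h
    rw [Prod.mk_eq_zero]
    exact ⟨h1, h2⟩
  have hsurj : Function.Surjective D :=
    (LinearMap.injective_iff_surjective_of_finrank_eq_finrank (by
      rw [Module.finrank_prod, Module.finrank_self, finrank_eq_two hF hK])).1 hinj
  obtain ⟨⟨a, b⟩, hab⟩ := hsurj x
  exact ⟨a, b, hab.symm⟩

/-- Elements fixed by `σ` come from the base field. -/
theorem exists_eq_of_sigma_fixed (hF : Fintype.card F = q) (hK : Fintype.card K = q ^ 2) {x : K}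
    (hx : sigma hK x = x) : ∃ a : F, x = algebraMap F K a := by
  obtain ⟨θ, hθ⟩ := exists_sigma_ne hK
  obtain ⟨a, b, rfl⟩ := exists_decomp hF hK hθ x
  rw [map_add, map_mul, sigma_algebraMap hF, sigma_algebraMap hF] at hx
  have h2 : algebraMap F K b * (sigma hK θ - θ) = 0 := by linear_combination hx
  have hb : b = 0 := by
    rcases mul_eq_zero.1 h2 with h3 | h3
    · exact (map_eq_zero _).1 h3
    · exact absurd (sub_eq_zero.1 h3) hθ
  subst hb
  exact ⟨a, by simp⟩

/-- The element `λ = (θ - θ^q)⁻¹`. -/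
noncomputable def lam (hK : Fintype.card K = q ^ 2) (θ : K) : K := (θ - sigma hK θ)⁻¹

theorem lam_mul (hK : Fintype.card K = q ^ 2) {θ : K} (hθ : sigma hK θ ≠ θ) :
    lam hK θ * (θ - sigma hK θ) = 1 :=
  inv_mul_cancel₀ (sub_ne_zero.2 hθ.symm)

theorem sigma_lam (hK : Fintype.card K = q ^ 2) (θ : K) : sigma hK (lam hK θ) = - lam hK θ := by
  rw [lam, map_inv₀, map_sub, sigma_sigma, ← inv_neg, neg_sub]

/-- The identification of `F^{m+m}` with `K^m` in terms of the basis `1, θ`. -/
noncomputable def Eθ (θ : K) (m : ℕ) : (Fin m ⊕ Fin m → F) →ₗ[F] (Fin m → K) where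
  toFun x i := algebraMap F K (x (.inl i)) + algebraMap F K (x (.inr i)) * θ
  map_add' x y := by
    funext i
    simp only [Pi.add_apply, map_add]
    ring
  map_smul' c x := by
    funext i
    simp only [Pi.smul_apply, smul_eq_mul, map_mul, RingHom.id_apply, Algebra.smul_def]
    ring

theorem Eθ_injective (hF : Fintype.card F = q) (hK : Fintype.card K = q ^ 2) {θ : K}
    (hθ : sigma hK θ ≠ θ) (m : ℕ) : Function.Injective (Eθ (F := F) θ m) := by
  rw [← LinearMap.ker_eq_bot, LinearMap.ker_eq_bot']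
  intro x hx
  funext i
  have hi : ∀ i, algebraMap F K (x (.inl i)) + algebraMap F K (x (.inr i)) * θ = 0 :=
    fun i => congrFun hx i
  rcases i with i | i
  · exact (eq_zero_of_add_mul hF hK hθ (hi i)).1
  · exact (eq_zero_of_add_mul hF hK hθ (hi i)).2

theorem finrank_sum (m : ℕ) : finrank F (Fin m ⊕ Fin m → F) = m + m := by
  rw [Module.finrank_fintype_fun_eq_card]
  simp

/-- The equivalence. -/
noncomputable def eθ (hF : Fintype.card F = q) (hK : Fintype.card K = q ^ 2) {θ : K}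
    (hθ : sigma hK θ ≠ θ) (m : ℕ) : (Fin m ⊕ Fin m → F) ≃ₗ[F] (Fin m → K) :=
  (Eθ θ m).linearEquivOfInjective (Eθ_injective hF hK hθ m) (by
    rw [finrank_sum, finrank_pi_K hF hK]
    simp only [Fintype.card_fin]
    ring)

theorem eθ_apply (hF : Fintype.card F = q) (hK : Fintype.card K = q ^ 2) {θ : K}
    (hθ : sigma hK θ ≠ θ) (m : ℕ) (x : Fin m ⊕ Fin m → F) (i : Fin m) :
    eθ hF hK hθ m x i = algebraMap F K (x (.inl i)) + algebraMap F K (x (.inr i)) * θ := rfl

/-- The symplectic form as a trace of the Hermitian form. -/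
theorem sympForm_eq_trace (hF : Fintype.card F = q) (hK : Fintype.card K = q ^ 2) {θ : K}
    (hθ : sigma hK θ ≠ θ) (m : ℕ) (x y : Fin m ⊕ Fin m → F) :
    algebraMap F K (sympForm m F x y) =
      lam hK θ * hermForm m K q (eθ hF hK hθ m x) (eθ hF hK hθ m y) +
        sigma hK (lam hK θ * hermForm m K q (eθ hF hK hθ m x) (eθ hF hK hθ m y)) := by
  have hl := lam_mul hK hθ
  rw [sympForm_apply, map_sum]
  simp only [hermForm, Finset.mul_sum, map_sum, ← Finset.sum_add_distrib]
  refine Finset.sum_congr rfl fun i _ => ?_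
  rw [eθ_apply, eθ_apply, ← sigma_apply hK, map_mul, map_mul, sigma_sigma, sigma_lam]
  simp only [map_add, map_mul, sigma_algebraMap hF, map_sub]
  linear_combination (-(algebraMap F K (x (.inr i)) * algebraMap F K (y (.inl i)) -
    algebraMap F K (x (.inl i)) * algebraMap F K (y (.inr i)))) * hl

end Fields

end Cfsg.Agent.Lib.RestrScal
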