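import Mathlib
import Cfsg.Agent.Lib.RestrScal
import Cfsg.Agent.Lib.OrthMatrix

/-!
# The norm form of `K^m` over `F`: hyperbolic blocks and anisotropic planes
-/

set_option autoImplicit false
set_option linter.unusedSectionVars false
set_option linter.unusedSimpArgs false

namespace Cfsg.Agent.Lib.RestrHerm

open Module Matrix Polynomial
open scoped MatrixGroups
open Cfsg.Agent.Lib.UnitaryBasic Cfsg Cfsg.Agent.Lib.RestrScal Cfsg.Agent.Lib.OrthMatrix

variable {F K : Type*} [Field F] [Fintype F] [Field K] [Fintype K] [Algebra F K] {q : ℕ}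

/-- From an isometry to an embedding of the unitary group. -/
theorem exists_hom_of_isometry {J : Type} [Fintype J] [DecidableEq J] {m : ℕ}
    (hK : Fintype.card K = q ^ 2)
    (e : (J → F) ≃ₗ[F] (Fin m → K)) (q' : (J → F) → F)
    (he : ∀ z, algebraMap F K (q' z) = hermForm m K q (e z) (e z)) :
    ∃ φ : ↥(GU m K q) →* ↥(Cfsg.isometryGroup F q'), Function.Injective φ := by
  have hmem : ∀ g : ↥(GU m K q), RGL e g.1 ∈ Cfsg.isometryGroup F q' := by
    intro g
    rw [mem_isometryGroup]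
    intro u
    apply (algebraMap F K).injective
    rw [he, he, RGL_val, apply_R_mulVec]
    exact g.2 (e u) (e u)
  refine ⟨{ toFun := fun g => ⟨RGL e g.1, hmem g⟩
            map_one' := ?_
            map_mul' := ?_ }, ?_⟩
  · apply Subtype.ext
    exact map_one (RGL e)
  · intro a b
    apply Subtype.ext
    exact map_mul (RGL e) _ _
  · intro a b hab
    apply Subtype.ext
    exact RGL_injective e (congrArg Subtype.val hab)

/-- `-1` is a norm. -/
theorem exists_norm_neg_one (hK : Fintype.card K = q ^ 2) : ∃ c : K, c ≠ 0 ∧ c * sigma hK c = -1 := by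
  obtain ⟨c, hc, h⟩ := FFNorm.exists_norm_eq hK (μ := (-1 : K)) (neg_ne_zero.2 one_ne_zero)
    (by
      have := map_neg (sigma hK) (1 : K)
      rw [map_one] at this
      exact this)
  refine ⟨c, hc, ?_⟩
  rw [sigma_apply, ← h, pow_succ']

section Blocks

variable (hK : Fintype.card K = q ^ 2) (θ c : K)

/-- The vector `b'` of a hyperbolic block. -/
noncomputable def blockW (x₁ x₂ y₁ y₂ : F) : K :=
  lam hK θ * (algebraMap F K y₁ * θ - algebraMap F K y₂) +
    lam hK θ * sigma hK θ * (algebraMap F K x₁ + algebraMap F K x₂ * θ)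

/-- First coordinate of a hyperbolic block. -/
noncomputable def blockA (x₁ x₂ y₁ y₂ : F) : K :=
  algebraMap F K x₁ + algebraMap F K x₂ * θ + blockW hK θ x₁ x₂ y₁ y₂

/-- Second coordinate of a hyperbolic block. -/
noncomputable def blockB (x₁ x₂ y₁ y₂ : F) : K := c * blockW hK θ x₁ x₂ y₁ y₂

theorem block_norm (hF : Fintype.card F = q) {θ c : K} (hθ : sigma hK θ ≠ θ)
    (hc : c * sigma hK c = -1) (x₁ x₂ y₁ y₂ : F) :
    blockA hK θ x₁ x₂ y₁ y₂ * sigma hK (blockA hK θ x₁ x₂ y₁ y₂) +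
      blockB hK θ c x₁ x₂ y₁ y₂ * sigma hK (blockB hK θ c x₁ x₂ y₁ y₂) =
        algebraMap F K (x₁ * y₁ + x₂ * y₂) := by
  have hl := lam_mul hK hθ
  simp only [blockA, blockB, blockW, map_add, map_mul, map_sub, sigma_lam, sigma_sigma,
    sigma_algebraMap hF]
  set a₁ := algebraMap F K x₁
  set a₂ := algebraMap F K x₂
  set b₁ := algebraMap F K y₁
  set b₂ := algebraMap F K y₂
  set θ' := sigma hK θ
  set l := lam hK θ
  set c' := sigma hK c
  have hl' : l * (θ - θ') = 1 := hl
  have hc' : c * c' = -1 := hc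
  set W := l * (b₁ * θ - b₂) + l * θ' * (a₁ + a₂ * θ) with hW
  set W' := (-l) * (b₁ * θ' - b₂) + (-l) * θ * (a₁ + a₂ * θ') with hW'
  linear_combination (W * W') * hc' + (a₁ * b₁ + a₂ * b₂ - (a₁ + a₂ * θ) * (a₁ + a₂ * θ')) * hl'

theorem block_inj (hF : Fintype.card F = q) {θ c : K} (hθ : sigma hK θ ≠ θ) (hc0 : c ≠ 0)
    {x₁ x₂ y₁ y₂ : F} (hA : blockA hK θ x₁ x₂ y₁ y₂ = 0) (hB : blockB hK θ c x₁ x₂ y₁ y₂ = 0) :
    x₁ = 0 ∧ x₂ = 0 ∧ y₁ = 0 ∧ y₂ = 0 := by
  have hW : blockW hK θ x₁ x₂ y₁ y₂ = 0 := (mul_eq_zero.1 hB).resolve_left hc0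
  have hu : algebraMap F K x₁ + algebraMap F K x₂ * θ = 0 := by
    rw [blockA, hW, add_zero] at hA
    exact hA
  obtain ⟨h1, h2⟩ := eq_zero_of_add_mul hF hK hθ hu
  have hlam : lam hK θ ≠ 0 := inv_ne_zero (sub_ne_zero.2 hθ.symm)
  rw [blockW, hu, mul_zero, add_zero] at hW
  have h3 := (mul_eq_zero.1 hW).resolve_left hlam
  have h4 : algebraMap F K (-y₂) + algebraMap F K y₁ * θ = 0 := by
    rw [map_neg]
    linear_combination h3
  obtain ⟨h5, h6⟩ := eq_zero_of_add_mul hF hK hθ h4
  exact ⟨h1, h2, h6, neg_eq_zero.1 h5⟩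

end Blocks

section Hyp

/-- Coordinates on `K^{k+k}` from coordinates on `F^{2(k+k)}`. -/
noncomputable def hypE (hK : Fintype.card K = q ^ 2) (θ c : K) (k : ℕ) :
    (Fin (k + k) ⊕ Fin (k + k) → F) →ₗ[F] (Fin (k + k) → K) where
  toFun z i := Sum.elim
    (fun j => blockA hK θ (z (.inl (finSumFinEquiv (.inl j)))) (z (.inl (finSumFinEquiv (.inr j))))
      (z (.inr (finSumFinEquiv (.inl j)))) (z (.inr (finSumFinEquiv (.inr j)))))
    (fun j => blockB hK θ c (z (.inl (finSumFinEquiv (.inl j)))) (z (.inl (finSumFinEquiv (.inr j))))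
      (z (.inr (finSumFinEquiv (.inl j)))) (z (.inr (finSumFinEquiv (.inr j)))))
    (finSumFinEquiv.symm i)
  map_add' x y := by
    funext i
    obtain ⟨s, rfl⟩ := finSumFinEquiv.surjective i
    rcases s with j | j
    · simp only [Equiv.symm_apply_apply, Sum.elim_inl, Pi.add_apply, blockA, blockW, map_add]
      ring
    · simp only [Equiv.symm_apply_apply, Sum.elim_inr, Pi.add_apply, blockB, blockW, map_add]
      ring
  map_smul' a x := by
    funext i
    obtain ⟨s, rfl⟩ := finSumFinEquiv.surjective i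
    rcases s with j | j
    · simp only [Equiv.symm_apply_apply, Sum.elim_inl, Pi.smul_apply, smul_eq_mul, RingHom.id_apply,
        blockA, blockW, map_add, map_mul, Algebra.smul_def]
      ring
    · simp only [Equiv.symm_apply_apply, Sum.elim_inr, Pi.smul_apply, smul_eq_mul, RingHom.id_apply,
        blockB, blockW, map_add, map_mul, Algebra.smul_def]
      ring

theorem hypE_inl (hK : Fintype.card K = q ^ 2) (θ c : K) (k : ℕ) (z : Fin (k + k) ⊕ Fin (k + k) → F) (j : Fin k) :
    hypE hK θ c k z (finSumFinEquiv (.inl j)) = blockA hK θ (z (.inl (finSumFinEquiv (.inl j)))) (z (.inl (finSumFinEquiv (.inr j))))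
      (z (.inr (finSumFinEquiv (.inl j)))) (z (.inr (finSumFinEquiv (.inr j)))) := by
  show Sum.elim _ _ (finSumFinEquiv.symm _) = _
  rw [Equiv.symm_apply_apply]
  rfl

theorem hypE_inr (hK : Fintype.card K = q ^ 2) (θ c : K) (k : ℕ) (z : Fin (k + k) ⊕ Fin (k + k) → F) (j : Fin k) :
    hypE hK θ c k z (finSumFinEquiv (.inr j)) = blockB hK θ c (z (.inl (finSumFinEquiv (.inl j)))) (z (.inl (finSumFinEquiv (.inr j))))
      (z (.inr (finSumFinEquiv (.inl j)))) (z (.inr (finSumFinEquiv (.inr j)))) := by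
  show Sum.elim _ _ (finSumFinEquiv.symm _) = _
  rw [Equiv.symm_apply_apply]
  rfl

theorem hypE_injective (hF : Fintype.card F = q) (hK : Fintype.card K = q ^ 2) {θ c : K}
    (hθ : sigma hK θ ≠ θ) (hc0 : c ≠ 0) (k : ℕ) : Function.Injective (hypE (F := F) hK θ c k) := by
  rw [← LinearMap.ker_eq_bot, LinearMap.ker_eq_bot']
  intro z hz
  have h : ∀ j, _ := fun j => block_inj hK hF hθ hc0
    (by rw [← hypE_inl hK θ c k z j, hz]; rfl) (by rw [← hypE_inr hK θ c k z j, hz]; rfl)
  funext s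
  rcases s with i | i
  · obtain ⟨t, rfl⟩ := finSumFinEquiv.surjective i
    rcases t with j | j
    · exact (h j).1
    · exact (h j).2.1
  · obtain ⟨t, rfl⟩ := finSumFinEquiv.surjective i
    rcases t with j | j
    · exact (h j).2.2.1
    · exact (h j).2.2.2

theorem hypE_norm (hF : Fintype.card F = q) (hK : Fintype.card K = q ^ 2) {θ c : K}
    (hθ : sigma hK θ ≠ θ) (hc : c * sigma hK c = -1) (k : ℕ) (z : Fin (k + k) ⊕ Fin (k + k) → F) :
    algebraMap F K (Cfsg.quadFormPlus (k + k) F z) =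
      hermForm (k + k) K q (hypE hK θ c k z) (hypE hK θ c k z) := by
  simp only [Cfsg.hermForm, Cfsg.quadFormPlus]
  rw [map_sum, ← finSumFinEquiv.sum_comp, ← finSumFinEquiv.sum_comp (fun i => hypE hK θ c k z i * hypE hK θ c k z i ^ q),
    Fintype.sum_sum_type, Fintype.sum_sum_type, ← Finset.sum_add_distrib, ← Finset.sum_add_distrib]
  refine Finset.sum_congr rfl fun j _ => ?_
  rw [hypE_inl, hypE_inr, ← sigma_apply hK, ← sigma_apply hK, block_norm hK hF hθ hc, map_add]

end Hyp

section Aniso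

/-- An anisotropic binary form has a root in the quadratic extension. -/
theorem exists_root_of_anisotropic (hF : Fintype.card F = q) (hK : Fintype.card K = q ^ 2) {a b : F}
    (hab : ∀ z₁ z₂ : F, z₁ ^ 2 + a * z₁ * z₂ + b * z₂ ^ 2 = 0 → z₁ = 0 ∧ z₂ = 0) :
    ∃ τ : K, τ ^ 2 + algebraMap F K a * τ + algebraMap F K b = 0 := by
  classical
  let P : F[X] := C 1 * X ^ 2 + C a * X + C b
  have hPdeg : P.natDegree = 2 := natDegree_quadratic one_ne_zero
  have hPmon : P.Monic := by
    rw [Monic, leadingCoeff, hPdeg]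
    simp [P, coeff_X, coeff_C]
  have hPirr : Irreducible P := by
    rw [hPmon.irreducible_iff_roots_eq_zero_of_degree_le_three (by omega) (by omega)]
    rw [Multiset.eq_zero_iff_forall_notMem]
    intro r hr
    rw [mem_roots hPmon.ne_zero, IsRoot.def] at hr
    simp only [P, eval_add, eval_mul, eval_C, eval_pow, eval_X, one_mul] at hr
    have := (hab r 1 (by linear_combination hr)).2
    exact one_ne_zero this
  haveI : Fact (Irreducible P) := ⟨hPirr⟩
  have h1 : finrank F (AdjoinRoot P) = 2 := by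
    rw [(AdjoinRoot.powerBasis hPmon.ne_zero).finrank, AdjoinRoot.powerBasis_dim, hPdeg]
  have h2 := finrank_eq_two hF hK
  obtain ⟨f⟩ := FiniteField.nonempty_algHom_of_finrank_dvd (F := F) (K := AdjoinRoot P) (L := K)
    (by rw [h1, h2])
  refine ⟨f (AdjoinRoot.root P), ?_⟩
  have h3 : aeval (AdjoinRoot.root P) P = 0 := by
    rw [AdjoinRoot.aeval_eq, AdjoinRoot.mk_self]
  have h4 := congrArg f h3
  rw [map_zero, ← aeval_algHom_apply] at h4
  simp only [P, map_add, map_mul, aeval_C, map_pow, aeval_X, map_one, one_mul] at h4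
  exact h4

/-- The root of an anisotropic form is not fixed; its conjugate satisfies Vieta. -/
theorem root_facts (hF : Fintype.card F = q) (hK : Fintype.card K = q ^ 2) {a b : F}
    (hab : ∀ z₁ z₂ : F, z₁ ^ 2 + a * z₁ * z₂ + b * z₂ ^ 2 = 0 → z₁ = 0 ∧ z₂ = 0) {τ : K}
    (hτ : τ ^ 2 + algebraMap F K a * τ + algebraMap F K b = 0) :
    sigma hK τ ≠ τ ∧ τ + sigma hK τ = - algebraMap F K a ∧ τ * sigma hK τ = algebraMap F K b := by
  have hne : sigma hK τ ≠ τ := by
    intro hfix
    obtain ⟨r, rfl⟩ := exists_eq_of_sigma_fixed hF hK hfix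
    have h1 : algebraMap F K (r ^ 2 + a * r + b) = 0 := by
      simpa using hτ
    have h2 : r ^ 2 + a * r + b = 0 := (map_eq_zero _).1 h1
    have := (hab r 1 (by linear_combination h2)).2
    exact one_ne_zero this
  have hτ' : (sigma hK τ) ^ 2 + algebraMap F K a * sigma hK τ + algebraMap F K b = 0 := by
    have h1 := congrArg (sigma hK) hτ
    simpa only [map_add, map_mul, map_pow, sigma_algebraMap hF, map_zero] using h1
  have h3 : (τ - sigma hK τ) * (τ + sigma hK τ + algebraMap F K a) = 0 := by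
    linear_combination hτ - hτ'
  have h4 : τ + sigma hK τ + algebraMap F K a = 0 :=
    (mul_eq_zero.1 h3).resolve_left (sub_ne_zero.2 hne.symm)
  have h5 : τ + sigma hK τ = - algebraMap F K a := by linear_combination h4
  refine ⟨hne, h5, ?_⟩
  linear_combination τ * h4 - hτ

end Aniso

end Cfsg.Agent.Lib.RestrHerm
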