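import Mathlib

set_option autoImplicit false
set_option linter.unusedSectionVars false
set_option linter.unusedVariables false
set_option linter.style.haveILetI false
set_option linter.unusedSimpArgs false

/-!
# Rank three actions with subdegrees 1, 1755, 2304: the orbital graph
-/

namespace Cfsg.Agent.Lib.RuRkA

open MulAction Finset

/-- Orbit-stabiliser for a subgroup. -/
theorem card_eq_orbit_mul_inf {G X : Type*} [Group G] [MulAction G X] (K : Subgroup G) (x : X) :
    Nat.card K = (orbit K x).ncard * Nat.card ↥(K ⊓ stabilizer G x) := by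
  have h := Subgroup.card_mul_index (stabilizer K x)
  rw [index_stabilizer] at h
  have e : stabilizer K x ≃* ↥(K ⊓ stabilizer G x) :=
    { toFun := fun m => ⟨m.1.1, m.1.2, m.2⟩
      invFun := fun m => ⟨⟨m.1, m.2.1⟩, m.2.2⟩
      left_inv := fun m => rfl
      right_inv := fun m => rfl
      map_mul' := fun a b => rfl }
  rw [← Nat.card_congr e.toEquiv, ← h, mul_comm]

/-- Conjugation on a pair stabiliser. -/
theorem card_pair_smul {G X : Type*} [Group G] [MulAction G X] (g : G) (p q : X) :
    Nat.card ↥(stabilizer G (g • p) ⊓ stabilizer G (g • q)) =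
      Nat.card ↥(stabilizer G p ⊓ stabilizer G q) := by
  refine Nat.card_congr (Equiv.ofBijective
    (fun m : ↥(stabilizer G p ⊓ stabilizer G q) => (⟨g * m.1 * g⁻¹, ?_⟩ :
      ↥(stabilizer G (g • p) ⊓ stabilizer G (g • q)))) ⟨?_, ?_⟩).symm
  · constructor
    · show (g * m.1 * g⁻¹) • (g • p) = g • p
      rw [mul_smul, mul_smul, inv_smul_smul]
      have : m.1 • p = p := m.2.1
      rw [this]
    · show (g * m.1 * g⁻¹) • (g • q) = g • q
      rw [mul_smul, mul_smul, inv_smul_smul]
      have : m.1 • q = q := m.2.2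
      rw [this]
  · intro m n h
    have h1 : g * m.1 * g⁻¹ = g * n.1 * g⁻¹ := congrArg Subtype.val h
    exact Subtype.ext (by simpa using h1)
  · rintro ⟨m, hm⟩
    refine ⟨⟨g⁻¹ * m * g, ?_, ?_⟩, Subtype.ext (by simp [mul_assoc])⟩
    · show (g⁻¹ * m * g) • p = p
      have : m • (g • p) = g • p := hm.1
      rw [mul_smul, mul_smul, this, inv_smul_smul]
    · show (g⁻¹ * m * g) • q = q
      have : m • (g • q) = g • q := hm.2
      rw [mul_smul, mul_smul, this, inv_smul_smul]

section Rank3

variable {Ω : Type*} [Fintype Ω] [DecidableEq Ω] (G : Subgroup (Equiv.Perm Ω)) (a b c : Ω)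

/-- The hypotheses on the action. -/
structure R3 : Prop where
  card : Fintype.card Ω = 4060
  pre : IsPretransitive G Ω
  hb : (orbit (stabilizer G a) b).ncard = 1755
  hc : (orbit (stabilizer G a) c).ncard = 2304

/-- The orbital graph. -/
def Gam (x y : Ω) : Prop := ∃ g : G, g • a = x ∧ g⁻¹ • y ∈ orbit (stabilizer G a) b

variable {G a b c}

theorem orbit_stable {g : G} (hg : g ∈ stabilizer G a) {z : Ω} (hz : z ∈ orbit (stabilizer G a) b) :
    g • z ∈ orbit (stabilizer G a) b := by
  obtain ⟨x, rfl⟩ := hz
  refine ⟨⟨g, hg⟩ * x, ?_⟩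
  show ((⟨g, hg⟩ * x : stabilizer G a)) • b = g • x • b
  rw [mul_smul]
  rfl

theorem Gam_a (y : Ω) : Gam G a b a y ↔ y ∈ orbit (stabilizer G a) b := by
  constructor
  · rintro ⟨g, hg, hy⟩
    have hgA : g ∈ stabilizer G a := hg
    have := orbit_stable hgA hy
    rwa [smul_inv_smul] at this
  · intro hy
    exact ⟨1, one_smul _ _, by simpa using hy⟩

theorem Gam_smul (h : G) (x y : Ω) : Gam G a b (h • x) (h • y) ↔ Gam G a b x y := by
  constructor
  · rintro ⟨g, hg, hy⟩
    refine ⟨h⁻¹ * g, ?_, ?_⟩
    · rw [mul_smul, hg, inv_smul_smul]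
    · have e : (h⁻¹ * g)⁻¹ • y = g⁻¹ • h • y := by
        rw [mul_inv_rev, inv_inv, mul_smul]
      rwa [e]
  · rintro ⟨g, hg, hy⟩
    refine ⟨h * g, ?_, ?_⟩
    · rw [mul_smul, hg]
    · have e : (h * g)⁻¹ • (h • y) = g⁻¹ • y := by
        rw [mul_inv_rev, mul_smul, inv_smul_smul]
      rwa [e]

theorem Gam_smul_a (g : G) (y : Ω) : Gam G a b (g • a) y ↔ g⁻¹ • y ∈ orbit (stabilizer G a) b := by
  have h := Gam_smul (G := G) (a := a) (b := b) g a (g⁻¹ • y)
  rw [smul_inv_smul] at h
  rw [h, Gam_a]

section

variable (h : R3 G a b c)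
include h

theorem exists_move (x y : Ω) : ∃ g : G, g • x = y := by
  haveI := h.pre
  exact exists_smul_eq G x y

theorem a_not_B : a ∉ orbit (stabilizer G a) b := by
  intro ha
  have e : orbit (stabilizer G a) b = orbit (stabilizer G a) a := (orbit_eq_iff.2 ha).symm
  have h1 := h.hb
  have h2 : orbit (stabilizer G a) a = {a} := by
    ext z
    constructor
    · rintro ⟨x, rfl⟩
      exact x.2
    · intro hz
      rw [Set.mem_singleton_iff] at hz
      rw [hz]
      exact mem_orbit_self a
  rw [e, h2, Set.ncard_singleton] at h1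
  omega

theorem a_not_C : a ∉ orbit (stabilizer G a) c := by
  intro ha
  have e : orbit (stabilizer G a) c = orbit (stabilizer G a) a := (orbit_eq_iff.2 ha).symm
  have h1 := h.hc
  have h2 : orbit (stabilizer G a) a = {a} := by
    ext z
    constructor
    · rintro ⟨x, rfl⟩
      exact x.2
    · intro hz
      rw [Set.mem_singleton_iff] at hz
      rw [hz]
      exact mem_orbit_self a
  rw [e, h2, Set.ncard_singleton] at h1
  omega

theorem B_disj_C {z : Ω} (h1 : z ∈ orbit (stabilizer G a) b) (h2 : z ∈ orbit (stabilizer G a) c) : False := by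
  have e1 := orbit_eq_iff.2 h1
  have e2 := orbit_eq_iff.2 h2
  have e3 : orbit (stabilizer G a) b = orbit (stabilizer G a) c := e1.symm.trans e2
  have h3 := h.hb
  rw [e3, h.hc] at h3
  omega

theorem cover (z : Ω) : z = a ∨ z ∈ orbit (stabilizer G a) b ∨ z ∈ orbit (stabilizer G a) c := by
  have hd1 : Disjoint (orbit (stabilizer G a) b) (orbit (stabilizer G a) c) :=
    Set.disjoint_left.2 (fun z h1 h2 => B_disj_C h h1 h2)
  have hc1 : ((orbit (stabilizer G a) b) ∪ (orbit (stabilizer G a) c)).ncard = 4059 := by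
    rw [Set.ncard_union_eq hd1, h.hb, h.hc]
  have hd2 : Disjoint ({a} : Set Ω) ((orbit (stabilizer G a) b) ∪ (orbit (stabilizer G a) c)) := by
    rw [Set.disjoint_singleton_left]
    rintro (h1 | h1)
    · exact a_not_B h h1
    · exact a_not_C h h1
  have hc2 : (({a} : Set Ω) ∪ ((orbit (stabilizer G a) b) ∪ (orbit (stabilizer G a) c))).ncard = 4060 := by
    rw [Set.ncard_union_eq hd2, Set.ncard_singleton, hc1]
  have hu : ({a} : Set Ω) ∪ ((orbit (stabilizer G a) b) ∪ (orbit (stabilizer G a) c)) = Set.univ := by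
    rw [Set.eq_univ_iff_ncard, hc2, Nat.card_eq_fintype_card, h.card]
  have hz : z ∈ ({a} : Set Ω) ∪ ((orbit (stabilizer G a) b) ∪ (orbit (stabilizer G a) c)) := by
    rw [hu]
    trivial
  simpa using hz

theorem B_of_inv (k : G) (hk : k • a ∈ orbit (stabilizer G a) b) : k⁻¹ • a ∈ orbit (stabilizer G a) b := by
  have h1 := card_eq_orbit_mul_inf (stabilizer G a) (k • a)
  have h2 := card_eq_orbit_mul_inf (stabilizer G a) (k⁻¹ • a)
  rw [(orbit_eq_iff.2 hk), h.hb] at h1
  have h3 := card_pair_smul k (k⁻¹ • a) a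
  rw [smul_inv_smul] at h3
  have h3' : Nat.card ↥(stabilizer G a ⊓ stabilizer G (k • a)) =
      Nat.card ↥(stabilizer G a ⊓ stabilizer G (k⁻¹ • a)) := by
    rw [inf_comm (stabilizer G a) (stabilizer G (k⁻¹ • a))]
    exact h3
  rw [h3'] at h1
  have hN : 0 < Nat.card (stabilizer G a) := Nat.card_pos
  have h4 : (orbit (stabilizer G a) (k⁻¹ • a)).ncard = 1755 := by
    have hM : 0 < Nat.card ↥(stabilizer G a ⊓ stabilizer G (k⁻¹ • a)) := Nat.card_pos
    rw [h1] at h2
    exact (Nat.eq_of_mul_eq_mul_right hM h2).symm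
  rcases cover h (k⁻¹ • a) with h5 | h5 | h5
  · exfalso
    have h6 : k • a = a := by
      have := congrArg (fun z => k • z) h5
      simp only [smul_inv_smul] at this
      exact this.symm
    rw [h6] at hk
    exact a_not_B h hk
  · exact h5
  · exfalso
    rw [(orbit_eq_iff.2 h5), h.hc] at h4
    omega

theorem Gam_symm {x y : Ω} (hxy : Gam G a b x y) : Gam G a b y x := by
  obtain ⟨g, rfl, hy⟩ := hxy
  obtain ⟨k, hk⟩ := exists_move h a (g⁻¹ • y)
  have h1 : k⁻¹ • a ∈ orbit (stabilizer G a) b := B_of_inv h k (by rw [hk]; exact hy)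
  have h2 : Gam G a b a (k⁻¹ • a) := (Gam_a _).2 h1
  have h3 := (Gam_smul k a (k⁻¹ • a)).2 h2
  rw [smul_inv_smul, hk] at h3
  have h4 := (Gam_smul g (g⁻¹ • y) a).2 h3
  rwa [smul_inv_smul] at h4

theorem Gam_irrefl (x : Ω) : ¬ Gam G a b x x := by
  rintro ⟨g, rfl, hy⟩
  rw [inv_smul_smul] at hy
  exact a_not_B h hy

end

open Classical in
/-- The number of common neighbours. -/
noncomputable def lam (G : Subgroup (Equiv.Perm Ω)) (a b : Ω) (x y : Ω) : ℕ :=
  (univ.filter (fun z => Gam G a b x z ∧ Gam G a b y z)).card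

open Classical in
/-- The neighbours. -/
noncomputable def Nb (G : Subgroup (Equiv.Perm Ω)) (a b : Ω) (x : Ω) : Finset Ω :=
  univ.filter (fun z => Gam G a b x z)

open Classical in
theorem lam_smul (g : G) (x y : Ω) : lam G a b (g • x) (g • y) = lam G a b x y := by
  unfold lam
  symm
  apply Finset.card_equiv (MulAction.toPerm g)
  intro z
  simp only [mem_filter, mem_univ, true_and, MulAction.toPerm_apply, Gam_smul]

open Classical in
theorem card_Nb_smul (g : G) (x : Ω) : (Nb G a b (g • x)).card = (Nb G a b x).card := by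
  unfold Nb
  symm
  apply Finset.card_equiv (MulAction.toPerm g)
  intro z
  simp only [mem_filter, mem_univ, true_and, MulAction.toPerm_apply, Gam_smul]

open Classical in
theorem card_filter_orbit (s : Set Ω) : (univ.filter (fun z => z ∈ s)).card = s.ncard := by
  rw [← Set.ncard_coe_finset]
  congr 1
  ext z
  simp

section

variable (h : R3 G a b c)
include h

open Classical in
theorem card_Nb (x : Ω) : (Nb G a b x).card = 1755 := by
  obtain ⟨g, rfl⟩ := exists_move h a x
  rw [card_Nb_smul]
  have e : Nb G a b a = univ.filter (fun z => z ∈ orbit (stabilizer G a) b) := by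
    unfold Nb
    ext z
    simp only [mem_filter, mem_univ, true_and, Gam_a]
  rw [e, card_filter_orbit, h.hb]

theorem lam_b {x y : Ω} (hxy : Gam G a b x y) : lam G a b x y = lam G a b a b := by
  obtain ⟨g, rfl, hy⟩ := hxy
  obtain ⟨m, hm⟩ := hy
  have e1 : y = g • ((m : G) • b) := by
    have : (m : G) • b = g⁻¹ • y := hm
    rw [this, smul_inv_smul]
  have h1 := lam_smul (G := G) (a := a) (b := b) (m : G) a b
  rw [show (m : G) • a = a from m.2] at h1
  rw [e1, lam_smul, h1]

theorem lam_c {x y : Ω} (hne : x ≠ y) (hxy : ¬ Gam G a b x y) : lam G a b x y = lam G a b a c := by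
  obtain ⟨g, rfl⟩ := exists_move h a x
  have h1 : g⁻¹ • y ≠ a := by
    intro e
    apply hne
    rw [← e, smul_inv_smul]
  have h2 : g⁻¹ • y ∉ orbit (stabilizer G a) b := fun h3 => hxy ((Gam_smul_a g y).2 h3)
  have hy : g⁻¹ • y ∈ orbit (stabilizer G a) c := by
    rcases cover h (g⁻¹ • y) with h3 | h3 | h3
    · exact absurd h3 h1
    · exact absurd h3 h2
    · exact h3
  obtain ⟨m, hm⟩ := hy
  have e1 : y = g • ((m : G) • c) := by
    have : (m : G) • c = g⁻¹ • y := hm
    rw [this, smul_inv_smul]
  have h3 := lam_smul (G := G) (a := a) (b := b) (m : G) a c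
  rw [show (m : G) • a = a from m.2] at h3
  rw [e1, lam_smul, h3]

open Classical in
/-- The count of edges between the two orbits. -/
theorem edge_count :
    lam G a b a b ≤ 1754 ∧ 1755 * (1754 - lam G a b a b) = 2304 * lam G a b a c := by
  set Bf : Finset Ω := univ.filter (fun z => z ∈ orbit (stabilizer G a) b) with hBf
  set Cf : Finset Ω := univ.filter (fun z => z ∈ orbit (stabilizer G a) c) with hCf
  have cB : Bf.card = 1755 := by rw [hBf, card_filter_orbit, h.hb]
  have cC : Cf.card = 2304 := by rw [hCf, card_filter_orbit, h.hc]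
  have hz : ∀ z ∈ Bf, 1755 = 1 + lam G a b a b + (Cf.filter (fun w => Gam G a b z w)).card := by
    intro z hz
    have hzB : z ∈ orbit (stabilizer G a) b := by simpa [hBf] using hz
    have hza : Gam G a b a z := (Gam_a z).2 hzB
    have e1 : Nb G a b z = insert a ((Bf.filter (fun w => Gam G a b z w)) ∪ (Cf.filter (fun w => Gam G a b z w))) := by
      ext w
      simp only [Nb, mem_filter, mem_univ, true_and, mem_insert, mem_union]
      constructor
      · intro hw
        rcases cover h w with h1 | h1 | h1
        · exact Or.inl h1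
        · exact Or.inr (Or.inl ⟨by simpa [hBf] using h1, hw⟩)
        · exact Or.inr (Or.inr ⟨by simpa [hCf] using h1, hw⟩)
      · rintro (h1 | h1 | h1)
        · rw [h1]
          exact Gam_symm h hza
        · exact h1.2
        · exact h1.2
    have e2 : (Bf.filter (fun w => Gam G a b z w)).card = lam G a b a b := by
      rw [← lam_b h hza]
      unfold lam
      congr 1
      ext w
      simp only [hBf, mem_filter, mem_univ, true_and, Gam_a]
    have hd : Disjoint (Bf.filter (fun w => Gam G a b z w)) (Cf.filter (fun w => Gam G a b z w)) := by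
      rw [Finset.disjoint_left]
      intro w h1 h2
      have h1' : w ∈ orbit (stabilizer G a) b := by simpa [hBf] using (mem_filter.1 h1).1
      have h2' : w ∈ orbit (stabilizer G a) c := by simpa [hCf] using (mem_filter.1 h2).1
      exact B_disj_C h h1' h2'
    have hna : a ∉ (Bf.filter (fun w => Gam G a b z w)) ∪ (Cf.filter (fun w => Gam G a b z w)) := by
      simp only [mem_union, mem_filter, not_or, not_and]
      constructor
      · intro h1
        exact absurd (by simpa [hBf] using h1) (a_not_B h)
      · intro h1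
        exact absurd (by simpa [hCf] using h1) (a_not_C h)
    have h3 := card_Nb h z
    rw [e1, card_insert_of_notMem hna, card_union_of_disjoint hd, e2] at h3
    omega
  have hw : ∀ w ∈ Cf, (Bf.filter (fun z => Gam G a b w z)).card = lam G a b a c := by
    intro w hw
    have hwC : w ∈ orbit (stabilizer G a) c := by simpa [hCf] using hw
    have hne : a ≠ w := by
      rintro rfl
      exact a_not_C h hwC
    have hnadj : ¬ Gam G a b a w := by
      intro h1
      exact B_disj_C h ((Gam_a w).1 h1) hwC
    rw [← lam_c h hne hnadj]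
    unfold lam
    congr 1
    ext z
    simp only [hBf, mem_filter, mem_univ, true_and, Gam_a]
  have hdc := Finset.sum_card_bipartiteAbove_eq_sum_card_bipartiteBelow (s := Bf) (t := Cf)
    (fun z w => Gam G a b z w)
  have hl : lam G a b a b ≤ 1754 := by
    obtain ⟨z, hz'⟩ : Bf.Nonempty := by
      rw [← card_pos, cB]
      norm_num
    have := hz z hz'
    omega
  refine ⟨hl, ?_⟩
  have s1 : ∑ z ∈ Bf, (Finset.bipartiteAbove (fun z w => Gam G a b z w) Cf z).card =
      1755 * (1754 - lam G a b a b) := by
    rw [Finset.sum_congr rfl (g := fun _ => 1754 - lam G a b a b)]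
    · rw [sum_const, cB, smul_eq_mul]
    · intro z hz'
      have := hz z hz'
      show (Cf.filter (fun w => Gam G a b z w)).card = _
      omega
  have s2 : ∑ w ∈ Cf, (Finset.bipartiteBelow (fun z w => Gam G a b z w) Bf w).card =
      2304 * lam G a b a c := by
    rw [Finset.sum_congr rfl (g := fun _ => lam G a b a c)]
    · rw [sum_const, cC, smul_eq_mul]
    · intro w hw'
      rw [← hw w hw']
      show (Bf.filter (fun z => Gam G a b z w)).card = _
      congr 1
      ext z
      simp only [mem_filter]
      constructor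
      · rintro ⟨h1, h2⟩
        exact ⟨h1, Gam_symm h h2⟩
      · rintro ⟨h1, h2⟩
        exact ⟨h1, Gam_symm h h2⟩
  rw [← s1, ← s2]
  exact hdc

open Classical in
theorem mu_ne_zero (hl : lam G a b a b = 1754) : False := by
  have hm : lam G a b a c = 0 := by
    have := (edge_count h).2
    rw [hl] at this
    omega
  have hnc : ∀ x y : Ω, x ≠ y → ¬ Gam G a b x y → ∀ z, ¬ (Gam G a b x z ∧ Gam G a b y z) := by
    intro x y hne hxy z hz
    have h1 := lam_c h hne hxy
    rw [hm] at h1
    unfold lam at h1
    rw [card_eq_zero] at h1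
    have : z ∈ univ.filter (fun z => Gam G a b x z ∧ Gam G a b y z) := by
      simp only [mem_filter, mem_univ, true_and]
      exact hz
    rw [h1] at this
    simp at this
  -- closed neighbourhoods
  have hcard : ∀ x, (insert x (Nb G a b x)).card = 1756 := by
    intro x
    rw [card_insert_of_notMem, card_Nb h]
    simp only [Nb, mem_filter, mem_univ, true_and]
    exact Gam_irrefl h x
  have hdis : ∀ x y : Ω, x ≠ y → ¬ Gam G a b x y → Disjoint (insert x (Nb G a b x)) (insert y (Nb G a b y)) := by
    intro x y hne hxy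
    rw [Finset.disjoint_left]
    intro w h1 h2
    simp only [Nb, mem_insert, mem_filter, mem_univ, true_and] at h1 h2
    rcases h1 with rfl | h1
    · rcases h2 with h2 | h2
      · exact hne h2
      · exact hxy (Gam_symm h h2)
    · rcases h2 with rfl | h2
      · exact hxy h1
      · exact hnc x y hne hxy w ⟨h1, h2⟩
  have hcc : c ∉ insert a (Nb G a b a) := by
    simp only [Nb, mem_insert, mem_filter, mem_univ, true_and, not_or]
    constructor
    · rintro rfl
      exact a_not_C h (mem_orbit_self c)
    · intro h1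
      exact B_disj_C h ((Gam_a c).1 h1) (mem_orbit_self c)
  have hac : a ≠ c := by
    rintro rfl
    exact a_not_C h (mem_orbit_self a)
  have hnac : ¬ Gam G a b a c := fun h1 => B_disj_C h ((Gam_a c).1 h1) (mem_orbit_self c)
  have hd1 := hdis a c hac hnac
  have hcu : (insert a (Nb G a b a) ∪ insert c (Nb G a b c)).card = 3512 := by
    rw [card_union_of_disjoint hd1, hcard, hcard]
  obtain ⟨d, hd⟩ : ∃ d, d ∉ insert a (Nb G a b a) ∪ insert c (Nb G a b c) := by
    by_contra hcon
    push Not at hcon
    have : (insert a (Nb G a b a) ∪ insert c (Nb G a b c)) = univ := eq_univ_of_forall hcon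
    rw [this, card_univ, h.card] at hcu
    omega
  simp only [mem_union, not_or] at hd
  have hna : d ≠ a ∧ ¬ Gam G a b a d := by
    have := hd.1
    simp only [Nb, mem_insert, mem_filter, mem_univ, true_and, not_or] at this
    exact this
  have hnc' : d ≠ c ∧ ¬ Gam G a b c d := by
    have := hd.2
    simp only [Nb, mem_insert, mem_filter, mem_univ, true_and, not_or] at this
    exact this
  have hd2 : Disjoint (insert a (Nb G a b a) ∪ insert c (Nb G a b c)) (insert d (Nb G a b d)) := by
    rw [Finset.disjoint_union_left]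
    exact ⟨hdis a d hna.1.symm hna.2, hdis c d hnc'.1.symm hnc'.2⟩
  have := card_union_of_disjoint hd2
  rw [hcu, hcard] at this
  have h5 := card_le_univ (insert a (Nb G a b a) ∪ insert c (Nb G a b c) ∪ insert d (Nb G a b d))
  rw [h.card] at h5
  omega

end

end Rank3


end Cfsg.Agent.Lib.RuRkA
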