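import Cfsg.Agent.Lib.RuRkA

/-!
# Rank three actions with point stabilizer a given permutation group: the orbit of `b`
-/

set_option autoImplicit false
set_option linter.unusedSectionVars false
set_option linter.unusedVariables false
set_option linter.style.haveILetI false
set_option linter.unusedSimpArgs false

namespace Cfsg.Agent.Lib.RuRkB

open MulAction Finset Cfsg.Agent.Lib.RuRkA

/-- the data on the model group `H₀` acting on `Fin 4060`, the point `p2` and its orbit -/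
structure Dat (H₀ : Subgroup (Equiv.Perm (Fin 4060))) (p2 : Fin 4060) (B₀ : Finset (Fin 4060))
    (Y₁ Y₂ Y₃ Y₄ : Finset (Fin 4060)) : Prop where
  p2B : p2 ∈ B₀
  trB : ∀ y ∈ B₀, ∃ h ∈ H₀, h p2 = y
  invB : ∀ h ∈ H₀, ∀ y ∈ B₀, h y ∈ B₀
  cardB : B₀.card = 1755
  cover : ∀ y ∈ B₀, y = p2 ∨ y ∈ Y₁ ∨ y ∈ Y₂ ∨ y ∈ Y₃ ∨ y ∈ Y₄
  sub : ∀ y, (y ∈ Y₁ ∨ y ∈ Y₂ ∨ y ∈ Y₃ ∨ y ∈ Y₄) → y ∈ B₀ ∧ y ≠ p2
  d12 : Disjoint Y₁ Y₂
  d13 : Disjoint Y₁ Y₃
  d14 : Disjoint Y₁ Y₄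
  d23 : Disjoint Y₂ Y₃
  d24 : Disjoint Y₂ Y₄
  d34 : Disjoint Y₃ Y₄
  c1 : Y₁.card = 10
  c2 : Y₂.card = 80
  c3 : Y₃.card = 640
  c4 : Y₄.card = 1024
  t1 : ∀ x ∈ Y₁, ∀ y ∈ Y₁, ∃ h ∈ H₀, h p2 = p2 ∧ h x = y
  t2 : ∀ x ∈ Y₂, ∀ y ∈ Y₂, ∃ h ∈ H₀, h p2 = p2 ∧ h x = y
  t3 : ∀ x ∈ Y₃, ∀ y ∈ Y₃, ∃ h ∈ H₀, h p2 = p2 ∧ h x = y
  t4 : ∀ x ∈ Y₄, ∀ y ∈ Y₄, ∃ h ∈ H₀, h p2 = p2 ∧ h x = y
  i1 : ∀ h ∈ H₀, h p2 = p2 → ∀ y ∈ Y₁, h y ∈ Y₁
  i2 : ∀ h ∈ H₀, h p2 = p2 → ∀ y ∈ Y₂, h y ∈ Y₂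
  i3 : ∀ h ∈ H₀, h p2 = p2 → ∀ y ∈ Y₃, h y ∈ Y₃

section Sys

variable {Ω : Type*} [Fintype Ω] [DecidableEq Ω] {G : Subgroup (Equiv.Perm Ω)} {a b c : Ω}
  {H₀ : Subgroup (Equiv.Perm (Fin 4060))} {p2 : Fin 4060} {B₀ Y₁ Y₂ Y₃ Y₄ : Finset (Fin 4060)}

/-- the action of `H₀` on `Ω` -/
def act (e : stabilizer G a ≃* H₀) (h : H₀) (x : Ω) : Ω := (e.symm h) • x

variable (e : stabilizer G a ≃* H₀)

theorem act_mul (h k : H₀) (x : Ω) : act e (h * k) x = act e h (act e k x) := by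
  simp only [act, map_mul, mul_smul]

theorem act_one (x : Ω) : act e 1 x = x := by
  simp only [act, map_one, one_smul]

theorem act_inv_act (h : H₀) (x : Ω) : act e h⁻¹ (act e h x) = x := by
  rw [← act_mul, inv_mul_cancel, act_one]

theorem act_act_inv (h : H₀) (x : Ω) : act e h (act e h⁻¹ x) = x := by
  rw [← act_mul, mul_inv_cancel, act_one]

theorem act_inj (h : H₀) {x y : Ω} (hxy : act e h x = act e h y) : x = y := by
  have := congrArg (act e h⁻¹) hxy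
  rwa [act_inv_act, act_inv_act] at this

theorem act_a (h : H₀) : act e h a = a := (e.symm h).2

theorem mem_orbit_iff {z x : Ω} : z ∈ orbit (stabilizer G a) x ↔ ∃ h : H₀, act e h x = z := by
  constructor
  · rintro ⟨m, rfl⟩
    refine ⟨e m, ?_⟩
    simp [act]
  · rintro ⟨h, rfl⟩
    exact ⟨e.symm h, rfl⟩

theorem act_gam (h : H₀) (x y : Ω) : Gam G a b (act e h x) (act e h y) ↔ Gam G a b x y := by
  exact Gam_smul (((e.symm h : stabilizer G a)) : G) x y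

/-- the hypothesis that the stabilizer of `b` corresponds to the stabilizer of `p2` -/
def StabB (e : stabilizer G a ≃* H₀) (b : Ω) (p2 : Fin 4060) : Prop :=
  ∀ h : H₀, act e h b = b ↔ h.1 p2 = p2

open Classical in
/-- the image of a point of the orbit of `p2` -/
noncomputable def bet (e : stabilizer G a ≃* H₀) (b : Ω) (p2 : Fin 4060) (y : Fin 4060) : Ω :=
  if hy : ∃ h : H₀, h.1 p2 = y then act e (Classical.choose hy) b else b

variable {e}

theorem bet_eq (hS : StabB e b p2) (h : H₀) : bet e b p2 (h.1 p2) = act e h b := by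
  have hy : ∃ k : H₀, k.1 p2 = h.1 p2 := ⟨h, rfl⟩
  rw [bet, dif_pos hy]
  have hk := Classical.choose_spec hy
  set k := Classical.choose hy
  have h1 : (h⁻¹ * k).1 p2 = p2 := by
    show (h.1⁻¹ * k.1) p2 = p2
    rw [Equiv.Perm.mul_apply, hk]
    simp
  have h2 := (hS (h⁻¹ * k)).2 h1
  rw [act_mul] at h2
  have h3 := congrArg (act e h) h2
  rwa [act_act_inv] at h3

theorem bet_act (hS : StabB e b p2) (h k : H₀) : bet e b p2 (h.1 (k.1 p2)) = act e h (bet e b p2 (k.1 p2)) := by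
  have h1 := bet_eq hS (h * k)
  rw [bet_eq hS k, ← act_mul, ← h1]
  rfl

variable (D : Dat H₀ p2 B₀ Y₁ Y₂ Y₃ Y₄)
include D

theorem exH {y : Fin 4060} (hy : y ∈ B₀) : ∃ h : H₀, h.1 p2 = y := by
  obtain ⟨h, hh, rfl⟩ := D.trB y hy
  exact ⟨⟨h, hh⟩, rfl⟩

theorem bet_act' (hS : StabB e b p2) (h : H₀) {y : Fin 4060} (hy : y ∈ B₀) :
    bet e b p2 (h.1 y) = act e h (bet e b p2 y) := by
  obtain ⟨k, rfl⟩ := exH D hy
  exact bet_act hS h k

theorem bet_inj (hS : StabB e b p2) {y w : Fin 4060} (hy : y ∈ B₀) (hw : w ∈ B₀)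
    (h : bet e b p2 y = bet e b p2 w) : y = w := by
  obtain ⟨k, rfl⟩ := exH D hy
  obtain ⟨l, rfl⟩ := exH D hw
  rw [bet_eq hS, bet_eq hS] at h
  have h1 : act e (l⁻¹ * k) b = b := by
    rw [act_mul, h, act_inv_act]
  have h2 := (hS _).1 h1
  have h3 : (l.1⁻¹ * k.1) p2 = p2 := h2
  rw [Equiv.Perm.mul_apply] at h3
  have h4 := congrArg l.1 h3
  simpa using h4

theorem bet_mem (hS : StabB e b p2) {y : Fin 4060} (hy : y ∈ B₀) : bet e b p2 y ∈ orbit (stabilizer G a) b := by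
  obtain ⟨k, rfl⟩ := exH D hy
  rw [bet_eq hS]
  exact (mem_orbit_iff e).2 ⟨k, rfl⟩

theorem bet_surj (hS : StabB e b p2) {z : Ω} (hz : z ∈ orbit (stabilizer G a) b) : ∃ y ∈ B₀, bet e b p2 y = z := by
  obtain ⟨h, rfl⟩ := (mem_orbit_iff e).1 hz
  refine ⟨h.1 p2, D.invB _ h.2 _ D.p2B, bet_eq hS h⟩

theorem bet_p2 (hS : StabB e b p2) : bet e b p2 p2 = b := by
  have := bet_eq (e := e) hS 1
  simpa [act_one] using this


open Classical in
theorem all_or_none (hS : StabB e b p2) {Y : Finset (Fin 4060)} (hY : ∀ y ∈ Y, y ∈ B₀)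
    (ht : ∀ x ∈ Y, ∀ y ∈ Y, ∃ h ∈ H₀, h p2 = p2 ∧ h x = y) :
    Y.filter (fun w => Gam G a b b (bet e b p2 w)) = Y ∨ Y.filter (fun w => Gam G a b b (bet e b p2 w)) = ∅ := by
  by_cases hP : ∃ w ∈ Y, Gam G a b b (bet e b p2 w)
  · left
    obtain ⟨w, hw, hg⟩ := hP
    apply Finset.filter_true_of_mem
    intro x hx
    obtain ⟨h, hh, h1, h2⟩ := ht w hw x hx
    have h3 : act e ⟨h, hh⟩ b = b := (hS ⟨h, hh⟩).2 h1
    have h4 := (act_gam e (b := b) ⟨h, hh⟩ b (bet e b p2 w)).2 hg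
    rw [h3, ← bet_act' D hS ⟨h, hh⟩ (hY w hw)] at h4
    rwa [show (⟨h, hh⟩ : H₀).1 w = x from h2] at h4
  · right
    apply Finset.filter_false_of_mem
    intro x hx hg
    exact hP ⟨x, hx, hg⟩

open Classical in
theorem card_T (h : R3 G a b c) (hS : StabB e b p2) :
    (B₀.filter (fun w => Gam G a b b (bet e b p2 w))).card = lam G a b a b := by
  unfold lam
  apply Finset.card_bij (fun w _ => bet e b p2 w)
  · intro w hw
    rw [mem_filter] at hw ⊢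
    exact ⟨mem_univ _, (Gam_a _).2 (bet_mem D hS hw.1), hw.2⟩
  · intro w hw w' hw' he
    exact bet_inj D hS (mem_filter.1 hw).1 (mem_filter.1 hw').1 he
  · intro z hz
    rw [mem_filter] at hz
    obtain ⟨w, hw, rfl⟩ := bet_surj D hS ((Gam_a z).1 hz.2.1)
    exact ⟨w, mem_filter.2 ⟨hw, hz.2.2⟩, rfl⟩

open Classical in
/-- the neighbours of `b` in its orbit are forced -/
theorem forced_b (h : R3 G a b c) (hS : StabB e b p2) :
    lam G a b a b = 730 ∧ lam G a b a c = 780 ∧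
      ∀ w ∈ B₀, Gam G a b b (bet e b p2 w) ↔ (w ∈ Y₁ ∨ w ∈ Y₂ ∨ w ∈ Y₃) := by
  set P : Fin 4060 → Prop := fun w => Gam G a b b (bet e b p2 w) with hP
  have hY1 : ∀ y ∈ Y₁, y ∈ B₀ := fun y hy => (D.sub y (Or.inl hy)).1
  have hY2 : ∀ y ∈ Y₂, y ∈ B₀ := fun y hy => (D.sub y (Or.inr (Or.inl hy))).1
  have hY3 : ∀ y ∈ Y₃, y ∈ B₀ := fun y hy => (D.sub y (Or.inr (Or.inr (Or.inl hy)))).1
  have hY4 : ∀ y ∈ Y₄, y ∈ B₀ := fun y hy => (D.sub y (Or.inr (Or.inr (Or.inr hy)))).1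
  have a1 : Y₁.filter P = Y₁ ∨ Y₁.filter P = ∅ := all_or_none D (e := e) (a := a) (b := b) (G := G) hS hY1 D.t1
  have a2 : Y₂.filter P = Y₂ ∨ Y₂.filter P = ∅ := all_or_none D (e := e) (a := a) (b := b) (G := G) hS hY2 D.t2
  have a3 : Y₃.filter P = Y₃ ∨ Y₃.filter P = ∅ := all_or_none D (e := e) (a := a) (b := b) (G := G) hS hY3 D.t3
  have a4 : Y₄.filter P = Y₄ ∨ Y₄.filter P = ∅ := all_or_none D (e := e) (a := a) (b := b) (G := G) hS hY4 D.t4
  have hT : B₀.filter P = Y₁.filter P ∪ (Y₂.filter P ∪ (Y₃.filter P ∪ Y₄.filter P)) := by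
    ext w
    simp only [mem_filter, mem_union]
    constructor
    · rintro ⟨h1, h2⟩
      rcases D.cover w h1 with e1 | h3 | h3 | h3 | h3
      · exfalso
        have : Gam G a b b (bet e b p2 w) := h2
        rw [e1, bet_p2 D hS] at this
        exact Gam_irrefl h b this
      · exact Or.inl ⟨h3, h2⟩
      · exact Or.inr (Or.inl ⟨h3, h2⟩)
      · exact Or.inr (Or.inr (Or.inl ⟨h3, h2⟩))
      · exact Or.inr (Or.inr (Or.inr ⟨h3, h2⟩))
    · rintro (⟨h3, h2⟩ | ⟨h3, h2⟩ | ⟨h3, h2⟩ | ⟨h3, h2⟩)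
      · exact ⟨hY1 w h3, h2⟩
      · exact ⟨hY2 w h3, h2⟩
      · exact ⟨hY3 w h3, h2⟩
      · exact ⟨hY4 w h3, h2⟩
  have hd : ∀ {A B : Finset (Fin 4060)}, Disjoint A B → Disjoint (A.filter P) (B.filter P) :=
    fun hab => Finset.disjoint_filter_filter hab
  have hc : (B₀.filter P).card = (Y₁.filter P).card + ((Y₂.filter P).card + ((Y₃.filter P).card + (Y₄.filter P).card)) := by
    rw [hT, card_union_of_disjoint, card_union_of_disjoint, card_union_of_disjoint]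
    · exact hd D.d34
    · rw [Finset.disjoint_union_right]
      exact ⟨hd D.d23, hd D.d24⟩
    · rw [Finset.disjoint_union_right, Finset.disjoint_union_right]
      exact ⟨hd D.d12, hd D.d13, hd D.d14⟩
  have hl : (B₀.filter P).card = lam G a b a b := card_T D h hS
  have he := edge_count h
  have hne : lam G a b a b ≠ 1754 := fun h1 => mu_ne_zero h h1
  have hfin : ∀ w, (Y₁.filter P = Y₁ → w ∈ Y₁ → P w) ∧ (Y₁.filter P = ∅ → w ∈ Y₁ → ¬ P w) ∧
      (Y₂.filter P = Y₂ → w ∈ Y₂ → P w) ∧ (Y₂.filter P = ∅ → w ∈ Y₂ → ¬ P w) ∧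
      (Y₃.filter P = Y₃ → w ∈ Y₃ → P w) ∧ (Y₃.filter P = ∅ → w ∈ Y₃ → ¬ P w) ∧
      (Y₄.filter P = Y₄ → w ∈ Y₄ → P w) ∧ (Y₄.filter P = ∅ → w ∈ Y₄ → ¬ P w) := by
    intro w
    have key : ∀ {Y : Finset (Fin 4060)}, (Y.filter P = Y → w ∈ Y → P w) ∧ (Y.filter P = ∅ → w ∈ Y → ¬ P w) := by
      intro Y
      constructor
      · intro h1 h2
        rw [← h1] at h2
        exact (mem_filter.1 h2).2
      · intro h1 h2 h3
        have : w ∈ Y.filter P := mem_filter.2 ⟨h2, h3⟩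
        rw [h1] at this
        simp at this
    exact ⟨key.1, key.2, key.1, key.2, key.1, key.2, key.1, key.2⟩
  have c1 := D.c1
  have c2 := D.c2
  have c3 := D.c3
  have c4 := D.c4
  rw [hl] at hc
  have main : lam G a b a b = 730 ∧ lam G a b a c = 780 ∧ Y₁.filter P = Y₁ ∧ Y₂.filter P = Y₂ ∧ Y₃.filter P = Y₃ ∧ Y₄.filter P = ∅ := by
    have he1 := he.1
    have he2 := he.2
    rcases a1 with a1 | a1 <;> rcases a2 with a2 | a2 <;> rcases a3 with a3 | a3 <;> rcases a4 with a4 | a4 <;>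
      simp only [a1, a2, a3, a4, card_empty, c1, c2, c3, c4] at hc <;>
      first
      | (exfalso; omega)
      | exact ⟨by omega, by omega, a1, a2, a3, a4⟩
  obtain ⟨m1, m2, m3, m4, m5, m6⟩ := main
  refine ⟨m1, m2, ?_⟩
  intro w hw
  constructor
  · intro hg
    rcases D.cover w hw with e1 | h3 | h3 | h3 | h3
    · exfalso
      rw [e1, bet_p2 D hS] at hg
      exact Gam_irrefl h b hg
    · exact Or.inl h3
    · exact Or.inr (Or.inl h3)
    · exact Or.inr (Or.inr h3)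
    · exact absurd hg ((hfin w).2.2.2.2.2.2.2 m6 h3)
  · rintro (h3 | h3 | h3)
    · exact (hfin w).1 m3 h3
    · exact (hfin w).2.2.1 m4 h3
    · exact (hfin w).2.2.2.2.1 m5 h3

omit D in
/-- the relation on the orbit of `p2`, independent of the action -/
def Q (H₀ : Subgroup (Equiv.Perm (Fin 4060))) (p2 : Fin 4060) (Y₁ Y₂ Y₃ : Finset (Fin 4060)) (y w : Fin 4060) : Prop :=
  ∃ h : H₀, h.1 p2 = y ∧ (h.1⁻¹ w ∈ Y₁ ∨ h.1⁻¹ w ∈ Y₂ ∨ h.1⁻¹ w ∈ Y₃)

theorem gam_bet (h : R3 G a b c) (hS : StabB e b p2) {y w : Fin 4060} (hy : y ∈ B₀) (hw : w ∈ B₀) :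
    Gam G a b (bet e b p2 y) (bet e b p2 w) ↔ Q H₀ p2 Y₁ Y₂ Y₃ y w := by
  have hf := (forced_b D h hS).2.2
  have key : ∀ k : H₀, k.1 p2 = y → (Gam G a b (bet e b p2 y) (bet e b p2 w) ↔
      (k.1⁻¹ w ∈ Y₁ ∨ k.1⁻¹ w ∈ Y₂ ∨ k.1⁻¹ w ∈ Y₃)) := by
    rintro k rfl
    rw [bet_eq hS k]
    have h1 : bet e b p2 w = act e k (bet e b p2 (k.1⁻¹ w)) := by
      rw [← bet_act' D hS k (D.invB _ (k.2 : k.1 ∈ H₀) |> fun _ => D.invB k.1⁻¹ (H₀.inv_mem k.2) w hw)]
      simp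
    rw [h1, act_gam]
    exact hf _ (D.invB k.1⁻¹ (H₀.inv_mem k.2) w hw)
  constructor
  · intro hg
    obtain ⟨k, hk⟩ := exH D hy
    exact ⟨k, hk, (key k hk).1 hg⟩
  · rintro ⟨k, hk, h2⟩
    exact (key k hk).2 h2

omit D in
open Classical in
theorem lam_self (h : R3 G a b c) (x : Ω) : lam G a b x x = 1755 := by
  have : lam G a b x x = (Nb G a b x).card := by
    unfold lam Nb
    congr 1
    ext z
    simp
  rw [this]
  exact card_Nb h _

open Classical in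
/-- the number of common neighbours in the orbit of `c` of two points of the orbit of `b` -/
noncomputable def Mm (G : Subgroup (Equiv.Perm Ω)) (a b c : Ω) (x x' : Ω) : ℕ :=
  (univ.filter (fun z => z ∈ orbit (stabilizer G a) c ∧ Gam G a b x z ∧ Gam G a b x' z)).card

omit D in
open Classical in
/-- the value of the count, independent of the action -/
noncomputable def Fm (H₀ : Subgroup (Equiv.Perm (Fin 4060))) (p2 : Fin 4060) (B₀ Y₁ Y₂ Y₃ : Finset (Fin 4060)) (y y' : Fin 4060) : ℕ :=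
  (if y = y' then 1755 else if Q H₀ p2 Y₁ Y₂ Y₃ y y' then 730 else 780) - 1 -
    (B₀.filter (fun w => Q H₀ p2 Y₁ Y₂ Y₃ y w ∧ Q H₀ p2 Y₁ Y₂ Y₃ y' w)).card

open Classical in
theorem Mm_eq (h : R3 G a b c) (hS : StabB e b p2) {y y' : Fin 4060} (hy : y ∈ B₀) (hy' : y' ∈ B₀) :
    Mm G a b c (bet e b p2 y) (bet e b p2 y') = Fm H₀ p2 B₀ Y₁ Y₂ Y₃ y y' := by
  set x := bet e b p2 y with hx
  set x' := bet e b p2 y' with hx'
  have hxB : x ∈ orbit (stabilizer G a) b := bet_mem D hS hy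
  have hxB' : x' ∈ orbit (stabilizer G a) b := bet_mem D hS hy'
  have hax : Gam G a b x a := Gam_symm h ((Gam_a x).2 hxB)
  have hax' : Gam G a b x' a := Gam_symm h ((Gam_a x').2 hxB')
  -- the decomposition
  have hB : (univ.filter (fun z => z ∈ orbit (stabilizer G a) b ∧ Gam G a b x z ∧ Gam G a b x' z)).card =
      (B₀.filter (fun w => Q H₀ p2 Y₁ Y₂ Y₃ y w ∧ Q H₀ p2 Y₁ Y₂ Y₃ y' w)).card := by
    symm
    apply Finset.card_bij (fun w _ => bet e b p2 w)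
    · intro w hw
      rw [mem_filter] at hw ⊢
      refine ⟨mem_univ _, bet_mem D hS hw.1, (gam_bet D h hS hy hw.1).2 hw.2.1, (gam_bet D h hS hy' hw.1).2 hw.2.2⟩
    · intro w hw w' hw' he
      exact bet_inj D hS (mem_filter.1 hw).1 (mem_filter.1 hw').1 he
    · intro z hz
      rw [mem_filter] at hz
      obtain ⟨w, hw, rfl⟩ := bet_surj D hS hz.2.1
      refine ⟨w, ?_, rfl⟩
      rw [mem_filter]
      exact ⟨hw, (gam_bet D h hS hy hw).1 hz.2.2.1, (gam_bet D h hS hy' hw).1 hz.2.2.2⟩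
  have hdec : lam G a b x x' = 1 + (univ.filter (fun z => z ∈ orbit (stabilizer G a) b ∧ Gam G a b x z ∧ Gam G a b x' z)).card +
      Mm G a b c x x' := by
    unfold lam Mm
    have e1 : univ.filter (fun z => Gam G a b x z ∧ Gam G a b x' z) = insert a
        ((univ.filter (fun z => z ∈ orbit (stabilizer G a) b ∧ Gam G a b x z ∧ Gam G a b x' z)) ∪
         (univ.filter (fun z => z ∈ orbit (stabilizer G a) c ∧ Gam G a b x z ∧ Gam G a b x' z))) := by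
      ext z
      simp only [mem_filter, mem_univ, true_and, mem_insert, mem_union]
      constructor
      · intro hz
        rcases cover h z with h1 | h1 | h1
        · exact Or.inl h1
        · exact Or.inr (Or.inl ⟨h1, hz⟩)
        · exact Or.inr (Or.inr ⟨h1, hz⟩)
      · rintro (rfl | h1 | h1)
        · exact ⟨hax, hax'⟩
        · exact h1.2
        · exact h1.2
    have hna : a ∉ ((univ.filter (fun z => z ∈ orbit (stabilizer G a) b ∧ Gam G a b x z ∧ Gam G a b x' z)) ∪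
         (univ.filter (fun z => z ∈ orbit (stabilizer G a) c ∧ Gam G a b x z ∧ Gam G a b x' z))) := by
      simp only [mem_union, mem_filter, mem_univ, true_and, not_or, not_and]
      exact ⟨fun h1 => absurd h1 (a_not_B h), fun h1 => absurd h1 (a_not_C h)⟩
    have hdj : Disjoint (univ.filter (fun z => z ∈ orbit (stabilizer G a) b ∧ Gam G a b x z ∧ Gam G a b x' z))
         (univ.filter (fun z => z ∈ orbit (stabilizer G a) c ∧ Gam G a b x z ∧ Gam G a b x' z)) := by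
      rw [Finset.disjoint_left]
      intro z h1 h2
      exact B_disj_C h (mem_filter.1 h1).2.1 (mem_filter.1 h2).2.1
    rw [e1, card_insert_of_notMem hna, card_union_of_disjoint hdj]
    omega
  have hval : lam G a b x x' = (if y = y' then 1755 else if Q H₀ p2 Y₁ Y₂ Y₃ y y' then 730 else 780) := by
    obtain ⟨f1, f2, -⟩ := forced_b D h hS
    by_cases h1 : y = y'
    · rw [if_pos h1, hx, hx', ← h1]
      exact lam_self h _
    · rw [if_neg h1]
      have hne : x ≠ x' := fun e1 => h1 (bet_inj D hS hy hy' e1)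
      by_cases h2 : Q H₀ p2 Y₁ Y₂ Y₃ y y'
      · rw [if_pos h2, lam_b h ((gam_bet D h hS hy hy').2 h2), f1]
      · rw [if_neg h2, lam_c h hne (fun h3 => h2 ((gam_bet D h hS hy hy').1 h3)), f2]
  unfold Fm
  rw [← hval, hdec, hB]
  omega

omit D in
open Classical in
/-- expansion of a sum of squares -/
theorem sq_sum {A C : Type*} (As : Finset A) (Cs : Finset C) (R : A → C → Prop) (u : A → ℤ) :
    ∑ z ∈ Cs, (∑ y ∈ As.filter (fun y => R y z), u y) ^ 2 =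
      ∑ y ∈ As, ∑ y' ∈ As, u y * u y' * ((Cs.filter (fun z => R y z ∧ R y' z)).card : ℤ) := by
  have h1 : ∀ z ∈ Cs, (∑ y ∈ As.filter (fun y => R y z), u y) ^ 2 =
      ∑ y ∈ As, ∑ y' ∈ As, (if R y z ∧ R y' z then u y * u y' else 0) := by
    intro z _
    rw [pow_two, Finset.sum_filter, Finset.sum_mul_sum]
    refine Finset.sum_congr rfl fun y _ => Finset.sum_congr rfl fun y' _ => ?_
    by_cases h2 : R y z <;> by_cases h3 : R y' z <;> simp [h2, h3]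
  rw [Finset.sum_congr rfl h1, Finset.sum_comm]
  refine Finset.sum_congr rfl fun y _ => ?_
  rw [Finset.sum_comm]
  refine Finset.sum_congr rfl fun y' _ => ?_
  rw [Finset.card_filter, Nat.cast_sum, Finset.mul_sum]
  refine Finset.sum_congr rfl fun z _ => ?_
  split_ifs <;> simp

open Classical in
/-- the sum of squares for the action -/
theorem sq_eq (h : R3 G a b c) (hS : StabB e b p2) (u : Fin 4060 → ℤ) :
    ∑ z ∈ univ.filter (fun z => z ∈ orbit (stabilizer G a) c), (∑ y ∈ B₀.filter (fun y => Gam G a b (bet e b p2 y) z), u y) ^ 2 =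
      ∑ y ∈ B₀, ∑ y' ∈ B₀, u y * u y' * (Fm H₀ p2 B₀ Y₁ Y₂ Y₃ y y' : ℤ) := by
  rw [sq_sum]
  refine Finset.sum_congr rfl fun y hy => Finset.sum_congr rfl fun y' hy' => ?_
  rw [← Mm_eq D h hS hy hy']
  congr 2
  unfold Mm
  congr 1
  ext z
  simp only [mem_filter, mem_univ, true_and]

end Sys

open Classical in
/-- transfer of the vanishing of sums between two actions -/
theorem transfer {Ω Ψ : Type*} [Fintype Ω] [DecidableEq Ω] [Fintype Ψ] [DecidableEq Ψ]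
    {G : Subgroup (Equiv.Perm Ω)} {a b c : Ω} {G' : Subgroup (Equiv.Perm Ψ)} {a' b' c' : Ψ}
    {H₀ : Subgroup (Equiv.Perm (Fin 4060))} {p2 : Fin 4060} {B₀ Y₁ Y₂ Y₃ Y₄ : Finset (Fin 4060)}
    (D : Dat H₀ p2 B₀ Y₁ Y₂ Y₃ Y₄)
    {e : stabilizer G a ≃* H₀} {e' : stabilizer G' a' ≃* H₀}
    (h : R3 G a b c) (hS : StabB e b p2) (h' : R3 G' a' b' c') (hS' : StabB e' b' p2) (u : Fin 4060 → ℤ)
    (hu : ∀ z' ∈ orbit (stabilizer G' a') c', ∑ y ∈ B₀.filter (fun y => Gam G' a' b' (bet e' b' p2 y) z'), u y = 0)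
    {z : Ω} (hz : z ∈ orbit (stabilizer G a) c) :
    ∑ y ∈ B₀.filter (fun y => Gam G a b (bet e b p2 y) z), u y = 0 := by
  classical
  have h1 := sq_eq D h hS u
  have h2 := sq_eq D h' hS' u
  rw [← h2] at h1
  have h3 : ∑ z ∈ univ.filter (fun z => z ∈ orbit (stabilizer G' a') c'), (∑ y ∈ B₀.filter (fun y => Gam G' a' b' (bet e' b' p2 y) z), u y) ^ 2 = 0 := by
    apply Finset.sum_eq_zero
    intro z' hz'
    rw [hu z' (mem_filter.1 hz').2]
    norm_num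
  rw [h3] at h1
  have h4 := (Finset.sum_eq_zero_iff_of_nonneg (fun _ _ => sq_nonneg _)).1 h1 z (mem_filter.2 ⟨mem_univ _, hz⟩)
  exact pow_eq_zero_iff (two_ne_zero) |>.1 h4

end Cfsg.Agent.Lib.RuRkB
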