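import Mathlib

/-! A Sylow count: an element `f` with `f r f⁻¹ = r ^ 5` lies in a suitable conjugate of a
subgroup of order `15600` containing a `13`-element. -/

namespace Cfsg.Agent.Lib.RuRkP2

open Subgroup

variable {H : Type*} [Group H] [Finite H]

private theorem fact_13 : Fact (Nat.Prime 13) := ⟨by norm_num⟩

private theorem fac_15600 : (15600 : ℕ).factorization 13 = 1 := by
  have hp : Nat.Prime 13 := by norm_num
  apply le_antisymm
  · by_contra hlt
    have h2 : 2 ≤ (15600 : ℕ).factorization 13 := by omega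
    have := (hp.pow_dvd_iff_le_factorization (by norm_num : (15600 : ℕ) ≠ 0)).2 h2
    norm_num at this
  · exact (hp.pow_dvd_iff_le_factorization (by norm_num : (15600 : ℕ) ≠ 0)).1 (by norm_num)

private theorem fac_big : (35942400 : ℕ).factorization 13 = 1 := by
  have hp : Nat.Prime 13 := by norm_num
  apply le_antisymm
  · by_contra hlt
    have h2 : 2 ≤ (35942400 : ℕ).factorization 13 := by omega
    have := (hp.pow_dvd_iff_le_factorization (by norm_num : (35942400 : ℕ) ≠ 0)).2 h2
    norm_num at this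
  · exact (hp.pow_dvd_iff_le_factorization (by norm_num : (35942400 : ℕ) ≠ 0)).1 (by norm_num)

private theorem conj_zpow_five {H : Type*} [Group H] {r f : H} (hf : f * r * f⁻¹ = r ^ 5) (k : ℤ) :
    f * r ^ k * f⁻¹ = r ^ (5 * k) := by
  rw [← conj_zpow, hf, zpow_mul]
  norm_cast

private theorem mem_of_pow_eq_one {C : Type*} [Group C] [Finite C] [IsCyclic C] (R : Subgroup C)
    {n : ℕ} (hn : 0 < n) (hR : Nat.card R = n) {x : C} (hx : x ^ n = 1) : x ∈ R := by
  classical
  letI := Fintype.ofFinite C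
  have h1 : (Finset.univ.filter (fun a : C => a ^ n = 1)).card ≤ n :=
    IsCyclic.card_pow_eq_one_le hn
  let T : Finset C := Finset.univ.filter (fun a => a ∈ R)
  have hT : T.card = n := by
    rw [← hR, Nat.card_eq_fintype_card]
    exact (Fintype.card_subtype _).symm
  have hsub : T ⊆ (Finset.univ.filter (fun a : C => a ^ n = 1)) := by
    intro a ha
    have haR : a ∈ R := by simpa [T] using ha
    have h2 : (⟨a, haR⟩ : R) ^ Nat.card R = 1 := pow_card_eq_one'
    rw [hR] at h2
    have h3 : a ^ n = 1 := by simpa using congrArg (Subtype.val) h2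
    simpa using h3
  have heq := Finset.eq_of_subset_of_card_le hsub (by omega)
  have : x ∈ T := by
    rw [heq]
    simpa using hx
  simpa [T] using this

/-- The main step, when `r` is already in `X`. -/
theorem mem_of_mem (X : Subgroup H) (r f : H) (hr : orderOf r = 13) (hX : Nat.card X = 15600)
    (hC : ∀ y, y * r = r * y → y ∈ zpowers r) (hf : f * r * f⁻¹ = r ^ 5) (hrX : r ∈ X) :
    f ∈ X := by
  classical
  have := fact_13
  have h13 : r ^ 13 = 1 := by rw [← hr]; exact pow_orderOf_eq_one r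
  have hz13 : ∀ n : ℤ, r ^ (13 * n + 1) = r := by
    intro n
    rw [zpow_add, zpow_mul]
    have : r ^ (13 : ℤ) = 1 := by exact_mod_cast h13
    simp [this]
  obtain ⟨B, hBdef⟩ : ∃ B : Subgroup H, B = zpowers r := ⟨_, rfl⟩
  have hC' : ∀ y, y * r = r * y → y ∈ B := by rw [hBdef]; exact hC
  have hrB : r ∈ B := by rw [hBdef]; exact mem_zpowers r
  have hBmem : ∀ b ∈ B, ∃ k : ℤ, r ^ k = b := by
    intro b hb
    rw [hBdef] at hb
    exact mem_zpowers_iff.1 hb
  have hBcard : Nat.card B = 13 := by rw [hBdef, Nat.card_zpowers, hr]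
  have hBX : B ≤ X := by
    rw [hBdef]; exact zpowers_le.2 hrX
  have hBcomm : ∀ b ∈ B, ∀ c ∈ B, b * c = c * b := by
    intro b hb c hc
    obtain ⟨k, rfl⟩ := hBmem b hb
    obtain ⟨l, rfl⟩ := hBmem c hc
    exact ((Commute.refl r).zpow_zpow k l).eq
  -- `f` normalizes `B`
  have hN : f ∈ normalizer (B : Set H) := by
    rw [mem_normalizer_iff]
    intro b
    constructor
    · intro hb
      obtain ⟨k, rfl⟩ := hBmem b hb
      rw [conj_zpow_five hf]
      exact zpow_mem hrB _
    · intro hb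
      obtain ⟨k, hk⟩ := hBmem _ hb
      have e8 : f * r ^ (8 : ℤ) * f⁻¹ = r := by
        rw [conj_zpow_five hf]
        have := hz13 3
        norm_num at this ⊢
        exact this
      have e9 : f⁻¹ * r * f = r ^ (8 : ℤ) := by
        rw [eq_comm]
        nth_rewrite 2 [← e8]
        group
      have e10 : b = (f⁻¹ * r * f) ^ k := by
        have e11 : (f⁻¹ * r * f) ^ k = f⁻¹ * r ^ k * f := by
          have := conj_zpow (i := k) (a := f⁻¹) (b := r)
          simpa using this
        rw [e11, hk]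
        group
      rw [e10, e9]
      exact zpow_mem (zpow_mem hrB _) _
  let F : MulAut B := B.normalizerMonoidHom ⟨f, hN⟩
  -- `F ^ 4 = 1`
  have hcomm4 : f ^ 4 * r = r * f ^ 4 := by
    have s1 : SemiconjBy f r (r ^ 5) := by
      show f * r = r ^ 5 * f
      rw [← hf]
      group
    have s5 : ∀ n : ℕ, SemiconjBy f (r ^ n) (r ^ (n * 5)) := by
      intro n
      have := s1.pow_right n
      rwa [← pow_mul, mul_comm 5 n] at this
    have s := ((s5 125).mul_left ((s5 25).mul_left ((s5 5).mul_left s1))).eq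
    have e5 : r ^ (125 * 5) = r := by
      rw [show 125 * 5 = 13 * 48 + 1 from rfl, pow_add, pow_mul, h13]
      simp
    rw [e5] at s
    have e4 : f ^ 4 = f * (f * (f * f)) := by simp [pow_succ, mul_assoc]
    rw [e4]
    exact s
  have hF4 : F ^ 4 = 1 := by
    apply MulEquiv.ext
    rintro ⟨b, hb⟩
    apply Subtype.ext
    obtain ⟨k, rfl⟩ := hBmem b hb
    have h1 : F ^ 4 = B.normalizerMonoidHom (⟨f, hN⟩ ^ 4) := (map_pow _ _ _).symm
    rw [h1, normalizerMonoidHom_apply_apply_coe]
    have h2 : ((⟨f, hN⟩ ^ 4 : normalizer (B : Set H)) : H) = f ^ 4 := by simp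
    rw [h2]
    have h3 : Commute (f ^ 4) (r ^ k) := Commute.zpow_right hcomm4 k
    rw [h3.eq]
    simp
  -- the Sylow count
  let B' : Subgroup X := B.subgroupOf X
  have hB'card : Nat.card B' = 13 ^ (Nat.card X).factorization 13 := by
    rw [hX, fac_15600, pow_one, ← hBcard]
    exact Nat.card_congr (subgroupOfEquivOfLe hBX).toEquiv
  let P : Sylow 13 X := Sylow.ofCard B' hB'card
  have hPB : (P : Subgroup X) = B' := Sylow.coe_ofCard B' hB'card
  let Y : Subgroup X := normalizer ((P : Subgroup X) : Set X)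
  have hn : Nat.card (Sylow 13 X) = Y.index := P.card_eq_index_normalizer
  have hn1 : Nat.card (Sylow 13 X) ≡ 1 [MOD 13] := card_sylow_modEq_one 13 X
  have hYc : Nat.card Y * Y.index = 15600 := by rw [card_mul_index, hX]
  let Y' : Subgroup H := Y.map X.subtype
  have hY'c : Nat.card Y' = Nat.card Y := card_map_of_injective X.subtype_injective
  have hY'X : ∀ y ∈ Y', y ∈ X := by
    rintro y ⟨y₀, -, rfl⟩
    exact y₀.2
  have hY'N : Y' ≤ normalizer (B : Set H) := by
    rintro y ⟨y₀, hy₀, rfl⟩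
    rw [mem_normalizer_iff]
    have hy₁ : y₀ ∈ normalizer ((B' : Subgroup X) : Set X) := by
      have : y₀ ∈ Y := hy₀
      simpa only [Y, hPB] using this
    rw [mem_normalizer_iff] at hy₁
    intro b
    constructor
    · intro hb
      have hbX : b ∈ X := hBX hb
      have := (hy₁ ⟨b, hbX⟩).1 (by simpa [B', mem_subgroupOf] using hb)
      simpa [B', mem_subgroupOf] using this
    · intro hb
      have hb' : (y₀ : H) * b * (y₀ : H)⁻¹ ∈ X := hBX hb
      have hbX : b ∈ X := by
        have e : b = (y₀ : H)⁻¹ * ((y₀ : H) * b * (y₀ : H)⁻¹) * (y₀ : H) := by group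
        rw [e]
        exact X.mul_mem (X.mul_mem (X.inv_mem y₀.2) hb') y₀.2
      have := (hy₁ ⟨b, hbX⟩).2 (by simpa [B', mem_subgroupOf] using hb)
      simpa [B', mem_subgroupOf] using this
  let ψ : Y' →* MulAut B := B.normalizerMonoidHom.comp (inclusion hY'N)
  have hψval : ∀ (y : Y') (b : B), (((ψ y) b : B) : H) = (y : H) * b * (y : H)⁻¹ := by
    intro y b
    exact normalizerMonoidHom_apply_apply_coe B (inclusion hY'N y) b
  -- the kernel of `ψ` is `B`
  have hBY' : B ≤ Y' := by
    intro b hb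
    have hbX : b ∈ X := hBX hb
    refine ⟨⟨b, hbX⟩, ?_, rfl⟩
    have : (⟨b, hbX⟩ : X) ∈ (P : Subgroup X) := by
      rw [hPB]; simpa [B', mem_subgroupOf] using hb
    exact le_normalizer this
  have hker : (ψ.ker).map Y'.subtype = B := by
    ext y
    constructor
    · rintro ⟨y₀, hy₀, rfl⟩
      apply hC'
      have h1 := DFunLike.congr_fun (MonoidHom.mem_ker.1 hy₀) ⟨r, hrB⟩
      have h2 := hψval y₀ ⟨r, hrB⟩
      rw [h1] at h2
      have h3 : r = (y₀ : H) * r * (y₀ : H)⁻¹ := h2
      have h4 : (y₀ : H) * r = r * (y₀ : H) := by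
        nth_rewrite 2 [h3]
        group
      exact h4
    · intro hy
      refine ⟨⟨y, hBY' hy⟩, MonoidHom.mem_ker.2 ?_, rfl⟩
      apply MulEquiv.ext
      rintro ⟨b, hb⟩
      apply Subtype.ext
      rw [hψval]
      show y * b * y⁻¹ = b
      rw [hBcomm y hy b hb]
      group
  have hkerc : Nat.card ψ.ker = 13 := by
    have h1 : Nat.card ((ψ.ker).map Y'.subtype) = Nat.card ψ.ker :=
      card_map_of_injective Y'.subtype_injective
    have h2 : Nat.card ((ψ.ker).map Y'.subtype) = Nat.card B := congrArg (fun K : Subgroup H => Nat.card K) hker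
    rw [← h1, h2, hBcard]
  haveI : IsCyclic B := isCyclic_of_prime_card hBcard
  haveI : Fact (Nat.Prime (Nat.card B)) := ⟨by rw [hBcard]; norm_num⟩
  haveI : IsCyclic (MulAut B) :=
    isCyclic_of_surjective (IsCyclic.mulAutMulEquiv B).symm (IsCyclic.mulAutMulEquiv B).symm.surjective
  have hAut : Nat.card (MulAut B) = 12 := by
    rw [IsCyclic.card_mulAut, hBcard]
    rfl
  have hd : Nat.card ψ.range ∣ 12 := by
    rw [← hAut]
    exact card_subgroup_dvd_card _
  have e1 : Nat.card Y' = 13 * Nat.card ψ.range := by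
    rw [← index_ker, ← hkerc, card_mul_index]
  have hd4 : Nat.card ψ.range = 4 := by
    have hmod : Y.index % 13 = 1 := by
      rw [← hn]
      exact hn1
    rw [← hY'c, e1] at hYc
    have hmem : Nat.card ψ.range ∈ Nat.divisors 12 := Nat.mem_divisors.2 ⟨hd, by norm_num⟩
    have hdiv : Nat.divisors 12 = {1, 2, 3, 4, 6, 12} := by decide
    rw [hdiv] at hmem
    simp only [Finset.mem_insert, Finset.mem_singleton] at hmem
    rcases hmem with h | h | h | h | h | h <;> rw [h] at hYc ⊢ <;> omega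
  have hFr : F ∈ ψ.range := mem_of_pow_eq_one ψ.range (by norm_num) hd4 hF4
  obtain ⟨y, hy⟩ := MonoidHom.mem_range.1 hFr
  have h1 := hψval y ⟨r, hrB⟩
  rw [hy] at h1
  have h2 : ((F ⟨r, hrB⟩ : B) : H) = f * r * f⁻¹ :=
    normalizerMonoidHom_apply_apply_coe B ⟨f, hN⟩ ⟨r, hrB⟩
  rw [h2] at h1
  have h3 : f * r * f⁻¹ = (y : H) * r * (y : H)⁻¹ := h1
  have h4 : (f⁻¹ * (y : H)) * r = r * (f⁻¹ * (y : H)) := by
    have h5 : (y : H) * r = f * r * f⁻¹ * (y : H) := by rw [h3]; group
    rw [mul_assoc, h5]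
    group
  have h6 : f⁻¹ * (y : H) ∈ X := hBX (hC' _ h4)
  have h7 : f = (y : H) * (f⁻¹ * (y : H))⁻¹ := by group
  rw [h7]
  exact X.mul_mem (hY'X _ y.2) (X.inv_mem h6)

/-- **P2**: for `r` of order `13` self-centralizing in `H` of order `35942400` and `f` with
`f r f⁻¹ = r ^ 5`, a conjugate of any subgroup of order `15600` contains `r` and `f`. -/
theorem exists_conj (X : Subgroup H) (r f : H) (hr : orderOf r = 13)
    (hH : Nat.card H = 35942400) (hX : Nat.card X = 15600)
    (hC : ∀ y, y * r = r * y → y ∈ zpowers r) (hf : f * r * f⁻¹ = r ^ 5) :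
    ∃ h : H, r ∈ X.map (MulAut.conj h).toMonoidHom ∧ f ∈ X.map (MulAut.conj h).toMonoidHom := by
  classical
  have := fact_13
  haveI : Fintype X := Fintype.ofFinite X
  obtain ⟨x, hx⟩ : ∃ x : X, orderOf x = 13 := by
    apply exists_prime_orderOf_dvd_card
    rw [← Nat.card_eq_fintype_card, hX]
    norm_num
  have hxo : orderOf (x : H) = 13 := by rw [orderOf_coe, hx]
  let PA : Sylow 13 H := Sylow.ofCard (zpowers (x : H)) (by
    rw [Nat.card_zpowers, hxo, hH, fac_big, pow_one])
  let PB : Sylow 13 H := Sylow.ofCard (zpowers r) (by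
    rw [Nat.card_zpowers, hr, hH, fac_big, pow_one])
  have hPA : (PA : Subgroup H) = zpowers (x : H) := Sylow.coe_ofCard _ _
  have hPB : (PB : Subgroup H) = zpowers r := Sylow.coe_ofCard _ _
  obtain ⟨g, hg⟩ := MulAction.exists_smul_eq H PA PB
  have hle : (PA : Subgroup H) ≤ X := by
    rw [hPA]
    exact zpowers_le.2 x.2
  have hrX : r ∈ X.map (MulAut.conj g).toMonoidHom := by
    have h1 : r ∈ (PB : Subgroup H) := by rw [hPB]; exact mem_zpowers r
    rw [← hg, Sylow.coe_subgroup_smul] at h1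
    exact map_mono hle h1
  refine ⟨g, hrX, ?_⟩
  refine mem_of_mem _ r f hr ?_ hC hf hrX
  rw [card_map_of_injective (MulAut.conj g).injective, hX]

end Cfsg.Agent.Lib.RuRkP2
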