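import Cfsg.Agent.Lib.RuRkB
import Cfsg.Agent.Lib.RuRkP2

/-!
# Rank three actions with point stabilizer a given permutation group: the orbit of `c`
-/

set_option autoImplicit false
set_option linter.unusedSectionVars false
set_option linter.unusedVariables false
set_option linter.style.haveILetI false
set_option linter.unusedSimpArgs false

namespace Cfsg.Agent.Lib.RuRkC

open MulAction Finset Cfsg.Agent.Lib.RuRkA Cfsg.Agent.Lib.RuRkB

section

variable {Ω : Type*} [Fintype Ω] [DecidableEq Ω] {G : Subgroup (Equiv.Perm Ω)} {a b c : Ω}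
  {H₀ : Subgroup (Equiv.Perm (Fin 4060))} {p2 : Fin 4060} {B₀ Y₁ Y₂ Y₃ Y₄ : Finset (Fin 4060)}

/-- the stabilizer in `H₀` of a point of `Ω` -/
def stS (e : stabilizer G a ≃* H₀) (z : Ω) : Subgroup H₀ where
  carrier := {h | act e h z = z}
  mul_mem' := by
    intro x y hx hy
    simp only [Set.mem_setOf_eq] at hx hy ⊢
    rw [act_mul, hy, hx]
  one_mem' := act_one e z
  inv_mem' := by
    intro x hx
    simp only [Set.mem_setOf_eq] at hx ⊢
    have := act_inv_act e x z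
    rwa [hx] at this

theorem mem_stS (e : stabilizer G a ≃* H₀) {z : Ω} {h : H₀} : h ∈ stS e z ↔ act e h z = z := Iff.rfl

/-- the action of `H₀` on `Ω` as an instance -/
@[reducible] def inst (e : stabilizer G a ≃* H₀) : MulAction H₀ Ω :=
  MulAction.compHom Ω (e.symm.toMonoidHom)

theorem smul_inst (e : stabilizer G a ≃* H₀) (h : H₀) (z : Ω) : (inst e).smul h z = act e h z := rfl

theorem card_stS (e : stabilizer G a ≃* H₀) (z : Ω) (hH : Nat.card H₀ = 35942400)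
    (hz : (orbit (stabilizer G a) z).ncard = 2304) : Nat.card (stS e z) = 15600 := by
  letI := inst e
  have h := Subgroup.card_mul_index (stabilizer H₀ z)
  rw [index_stabilizer] at h
  have e1 : orbit H₀ z = orbit (stabilizer G a) z := by
    ext w
    rw [mem_orbit_iff e]
    rfl
  have e2 : stabilizer H₀ z = stS e z := by
    ext h
    rfl
  rw [e1, hz, e2, hH] at h
  omega

end

section

variable {Ω : Type*} [Fintype Ω] [DecidableEq Ω] {G : Subgroup (Equiv.Perm Ω)} {a b c : Ω}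
  {H₀ : Subgroup (Equiv.Perm (Fin 4060))} {p2 : Fin 4060} {B₀ Y₁ Y₂ Y₃ Y₄ : Finset (Fin 4060)}
  {e : stabilizer G a ≃* H₀}

theorem Q_smul (h : H₀) {y w : Fin 4060} : Q H₀ p2 Y₁ Y₂ Y₃ (h.1 y) (h.1 w) ↔ Q H₀ p2 Y₁ Y₂ Y₃ y w := by
  constructor
  · rintro ⟨k, hk, h2⟩
    refine ⟨h⁻¹ * k, ?_, ?_⟩
    · show (h.1⁻¹ * k.1) p2 = y
      rw [Equiv.Perm.mul_apply, hk]
      simp
    · have e1 : (h⁻¹ * k).1⁻¹ w = k.1⁻¹ (h.1 w) := by
        show (h.1⁻¹ * k.1)⁻¹ w = _
        simp [Equiv.Perm.mul_apply]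
      rw [e1]
      exact h2
  · rintro ⟨k, hk, h2⟩
    refine ⟨h * k, ?_, ?_⟩
    · show (h.1 * k.1) p2 = h.1 y
      rw [Equiv.Perm.mul_apply, hk]
    · have e1 : (h * k).1⁻¹ (h.1 w) = k.1⁻¹ w := by
        show (h.1 * k.1)⁻¹ (h.1 w) = _
        simp [Equiv.Perm.mul_apply]
      rw [e1]
      exact h2

variable (D : Dat H₀ p2 B₀ Y₁ Y₂ Y₃ Y₄)
include D

/-- the point stabilizers of `H₀` on the orbit -/
theorem card_stY (hH : Nat.card H₀ = 35942400) {y : Fin 4060} (hy : y ∈ B₀) : Nat.card (stabilizer H₀ y) = 20480 := by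
  have h := Subgroup.card_mul_index (stabilizer H₀ y)
  rw [index_stabilizer] at h
  have e1 : orbit H₀ y = (B₀ : Set (Fin 4060)) := by
    ext w
    constructor
    · rintro ⟨k, rfl⟩
      exact D.invB _ k.2 _ hy
    · intro hw
      obtain ⟨k, hk⟩ := exH D hw
      obtain ⟨l, hl⟩ := exH D hy
      refine ⟨k * l⁻¹, ?_⟩
      show (k.1 * l.1⁻¹) y = w
      rw [Equiv.Perm.mul_apply, ← hl]
      simp [hk]
  have e2 : (orbit H₀ y).ncard = 1755 := by
    rw [e1, Set.ncard_coe_finset, D.cardB]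
  rw [e2, hH] at h
  omega

theorem pair_dvd (hH : Nat.card H₀ = 35942400) {y x : Fin 4060} (hQ : Q H₀ p2 Y₁ Y₂ Y₃ y x) :
    Nat.card ↥(stabilizer H₀ y ⊓ stabilizer H₀ x) ∣ 2048 := by
  obtain ⟨k, rfl, hk⟩ := hQ
  set w := k.1⁻¹ x with hw
  have e1 : x = k.1 w := by simp [hw]
  have hc := card_pair_smul k p2 w
  have e2 : k • w = x := e1.symm
  have e3 : k • p2 = k.1 p2 := rfl
  rw [e2, e3] at hc
  rw [hc]
  have h1 := card_eq_orbit_mul_inf (stabilizer H₀ p2) w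
  rw [card_stY D hH D.p2B] at h1
  have hO : ∀ {Y : Finset (Fin 4060)}, (∀ x ∈ Y, ∀ y ∈ Y, ∃ h ∈ H₀, h p2 = p2 ∧ h x = y) →
      (∀ h ∈ H₀, h p2 = p2 → ∀ y ∈ Y, h y ∈ Y) → w ∈ Y → (orbit (stabilizer H₀ p2) w).ncard = Y.card := by
    intro Y ht hi hwY
    have : orbit (stabilizer H₀ p2) w = (Y : Set (Fin 4060)) := by
      ext z
      constructor
      · rintro ⟨m, rfl⟩
        exact hi _ m.1.2 m.2 _ hwY
      · intro hz
        obtain ⟨m, hm, m1, m2⟩ := ht w hwY z hz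
        exact ⟨⟨⟨m, hm⟩, m1⟩, m2⟩
    rw [this, Set.ncard_coe_finset]
  set n := Nat.card ↥(stabilizer H₀ p2 ⊓ stabilizer H₀ w) with hn
  rcases hk with hk | hk | hk
  · rw [hO D.t1 D.i1 hk, D.c1] at h1
    have : n = 2048 := by omega
    rw [this]
  · rw [hO D.t2 D.i2 hk, D.c2] at h1
    have : n = 256 := by omega
    rw [this]
    norm_num
  · rw [hO D.t3 D.i3 hk, D.c3] at h1
    have : n = 32 := by omega
    rw [this]
    norm_num

variable (hS : StabB e b p2) (h : R3 G a b c)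
include hS h

open Classical in
theorem filt_c_card {y : Fin 4060} (hy : y ∈ B₀) :
    (univ.filter (fun z => z ∈ orbit (stabilizer G a) c ∧ Gam G a b (bet e b p2 y) z)).card = 1024 := by
  have h0 := Mm_eq D h hS hy hy
  have h1 : (univ.filter (fun z => z ∈ orbit (stabilizer G a) c ∧ Gam G a b (bet e b p2 y) z)) =
      (univ.filter (fun z => z ∈ orbit (stabilizer G a) c ∧ Gam G a b (bet e b p2 y) z ∧ Gam G a b (bet e b p2 y) z)) := by
    ext z
    simp
  rw [h1]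
  show Mm G a b c _ _ = _
  rw [h0]
  unfold Fm
  rw [if_pos rfl]
  have h2 : (B₀.filter (fun w => Q H₀ p2 Y₁ Y₂ Y₃ y w ∧ Q H₀ p2 Y₁ Y₂ Y₃ y w)).card = 730 := by
    have hT := card_T D h hS
    rw [(forced_b D h hS).1] at hT
    obtain ⟨k, rfl⟩ := exH D hy
    rw [← hT]
    apply Finset.card_bij (fun w _ => k.1⁻¹ w)
    · intro w hw
      rw [mem_filter] at hw ⊢
      have h3 : k.1⁻¹ w ∈ B₀ := D.invB _ (H₀.inv_mem k.2) _ hw.1
      refine ⟨h3, ?_⟩
      have h4 := (Q_smul (p2 := p2) (Y₁ := Y₁) (Y₂ := Y₂) (Y₃ := Y₃) k⁻¹).2 hw.2.1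
      have e3 : (k⁻¹).1 (k.1 p2) = p2 := by
        show k.1⁻¹ (k.1 p2) = p2
        simp
      have := h4
      rw [show (k⁻¹).1 (k.1 p2) = p2 from e3] at this
      have h5 : Q H₀ p2 Y₁ Y₂ Y₃ p2 (k.1⁻¹ w) := this
      have h9 := (gam_bet D h hS D.p2B h3).2 h5
      rwa [bet_p2 D hS] at h9
    · intro w _ w' _ he
      simpa using he
    · intro w hw
      rw [mem_filter] at hw
      refine ⟨k.1 w, ?_, by simp⟩
      rw [mem_filter]
      have h3 : k.1 w ∈ B₀ := D.invB _ k.2 _ hw.1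
      have h6 : Gam G a b (bet e b p2 p2) (bet e b p2 w) := by
        rw [bet_p2 D hS]
        exact hw.2
      have h7 := (gam_bet D h hS D.p2B hw.1).1 h6
      have h8 := (Q_smul (p2 := p2) (Y₁ := Y₁) (Y₂ := Y₂) (Y₃ := Y₃) k).2 h7
      exact ⟨h3, h8, h8⟩
  rw [h2]

open Classical in
/-- a point stabilizer meets the stabilizer of a neighbour in at least 20 elements -/
theorem twenty (hH : Nat.card H₀ = 35942400) {y : Fin 4060} (hy : y ∈ B₀) {z : Ω}
    (hz : z ∈ orbit (stabilizer G a) c) (hg : Gam G a b (bet e b p2 y) z) :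
    20 ≤ Nat.card ↥(stabilizer H₀ y ⊓ stS e z) := by
  letI := inst e
  have h1 := card_eq_orbit_mul_inf (stabilizer H₀ y) z
  rw [card_stY D hH hy] at h1
  have e2 : stabilizer H₀ z = stS e z := by
    ext h
    rfl
  rw [e2] at h1
  have hsub : orbit (stabilizer H₀ y) z ⊆ ((univ.filter (fun z => z ∈ orbit (stabilizer G a) c ∧ Gam G a b (bet e b p2 y) z) : Finset Ω) : Set Ω) := by
    rintro _ ⟨m, rfl⟩
    have hm : (m.1 : H₀).1 y = y := m.2
    change act e m.1 z ∈ _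
    simp only [coe_filter, mem_univ, true_and, Set.mem_setOf_eq]
    constructor
    · have h5 : act e m.1 z ∈ orbit (stabilizer G a) z := (mem_orbit_iff e).2 ⟨m.1, rfl⟩
      rw [orbit_eq_iff.2 hz] at h5
      exact h5
    · have h5 := (act_gam e (b := b) m.1 (bet e b p2 y) z).2 hg
      rwa [← bet_act' D hS m.1 hy, hm] at h5
  have h2 : (orbit (stabilizer H₀ y) z).ncard ≤ 1024 := by
    have := Set.ncard_le_ncard hsub (Finset.finite_toSet _)
    rwa [Set.ncard_coe_finset, filt_c_card D hS h hy] at this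
  by_contra hlt
  push Not at hlt
  have h3 : (orbit (stabilizer H₀ y) z).ncard * Nat.card ↥(stabilizer H₀ y ⊓ stS e z) ≤ 1024 * 19 :=
    Nat.mul_le_mul h2 (by omega)
  omega

end

section

variable {Ω : Type*} [Fintype Ω] [DecidableEq Ω] {G : Subgroup (Equiv.Perm Ω)} {a b c : Ω}
  {H₀ : Subgroup (Equiv.Perm (Fin 4060))} {p2 : Fin 4060} {B₀ Y₁ Y₂ Y₃ Y₄ : Finset (Fin 4060)}
  {e : stabilizer G a ≃* H₀}
  {G₀ : Subgroup (Equiv.Perm (Fin 4060))} {a₀ p1 : Fin 4060} {e₀ : stabilizer G₀ a₀ ≃* H₀}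

theorem bet_model (he₀ : ∀ h : H₀, ∀ x, act e₀ h x = h.1 x) (D : Dat H₀ p2 B₀ Y₁ Y₂ Y₃ Y₄)
    (hS₀ : StabB e₀ p2 p2) {y : Fin 4060} (hy : y ∈ B₀) : bet e₀ p2 p2 y = y := by
  obtain ⟨k, rfl⟩ := exH D hy
  rw [bet_eq hS₀, he₀]

theorem S_card (D : Dat H₀ p2 B₀ Y₁ Y₂ Y₃ Y₄) (hS : StabB e b p2) (h : R3 G a b c) {z : Ω}
    (hz : z ∈ orbit (stabilizer G a) c) [DecidablePred fun y => Gam G a b (bet e b p2 y) z] :
    (B₀.filter (fun y => Gam G a b (bet e b p2 y) z)).card = 780 := by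
  classical
  have hne : a ≠ z := by
    rintro rfl
    exact a_not_C h hz
  have hna : ¬ Gam G a b a z := fun h1 => B_disj_C h ((Gam_a z).1 h1) hz
  have h1 := lam_c h hne hna
  rw [(forced_b D h hS).2.1] at h1
  rw [← h1]
  unfold lam
  apply Finset.card_bij (fun w _ => bet e b p2 w)
  · intro w hw
    rw [mem_filter] at hw ⊢
    exact ⟨mem_univ _, (Gam_a _).2 (bet_mem D hS hw.1), Gam_symm h hw.2⟩
  · intro w hw w' hw' he
    exact bet_inj D hS (mem_filter.1 hw).1 (mem_filter.1 hw').1 he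
  · intro w hw
    rw [mem_filter] at hw
    obtain ⟨y, hy, rfl⟩ := bet_surj D hS ((Gam_a w).1 hw.2.1)
    exact ⟨y, mem_filter.2 ⟨hy, Gam_symm h hw.2.2⟩, rfl⟩

open Classical in
/-- the model sets -/
noncomputable def Sz (G₀ : Subgroup (Equiv.Perm (Fin 4060))) (a₀ p2 : Fin 4060) (B₀ : Finset (Fin 4060)) (z : Fin 4060) : Finset (Fin 4060) :=
  B₀.filter (fun y => Gam G₀ a₀ p2 y z)

open Classical in
/-- The stabilizer of a point of the orbit of `c` is the stabilizer of a point `p1`, up to conjugacy. -/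
theorem C2 (D : Dat H₀ p2 B₀ Y₁ Y₂ Y₃ Y₄) (hS : StabB e b p2) (h : R3 G a b c)
    (hH : Nat.card H₀ = 35942400) (h₀ : R3 G₀ a₀ p2 p1) (he₀ : ∀ h : H₀, ∀ x, act e₀ h x = h.1 x) (hS₀ : StabB e₀ p2 p2)
    (r f : H₀) (hr : orderOf r = 13) (hC : ∀ y, y * r = r * y → y ∈ Subgroup.zpowers r) (hf : f * r * f⁻¹ = r ^ 5)
    (Us : List (Fin 4060 → ℤ))
    (hUs : ∀ u ∈ Us, ∀ z ∈ orbit (stabilizer G₀ a₀) p1, ∑ y ∈ B₀.filter (fun y => Gam G₀ a₀ p2 y z), u y = 0)
    (Cands : List (Finset (Fin 4060)))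
    (hsol : ∀ S : Finset (Fin 4060), S ⊆ B₀ → (∀ y ∈ S, r.1 y ∈ S) → (∀ y ∈ S, f.1 y ∈ S) → S.card = 780 →
      (∀ u ∈ Us, ∑ y ∈ S, u y = 0) → S ∈ Cands)
    (hext : ∀ S ∈ Cands, (∃ y₀ ∈ S, ∃ x₀ ∈ S, Q H₀ p2 Y₁ Y₂ Y₃ y₀ x₀ ∧ ∀ x ∈ S, Q H₀ p2 Y₁ Y₂ Y₃ y₀ x →
          (S.filter (fun w => Q H₀ p2 Y₁ Y₂ Y₃ y₀ w ∧ Q H₀ p2 Y₁ Y₂ Y₃ x w)).card =
            (S.filter (fun w => Q H₀ p2 Y₁ Y₂ Y₃ y₀ w ∧ Q H₀ p2 Y₁ Y₂ Y₃ x₀ w)).card → x = x₀) ∨
        (∃ p ∈ orbit (stabilizer G₀ a₀) p1, S = Sz G₀ a₀ p2 B₀ p ∧ ∀ q ∈ orbit (stabilizer G₀ a₀) p1,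
          Sz G₀ a₀ p2 B₀ q = Sz G₀ a₀ p2 B₀ p → q = p)) :
    ∃ t : H₀, ∀ k : H₀, act e k (act e t c) = act e t c ↔ k.1 p1 = p1 := by
  have hX := card_stS e c hH h.hc
  obtain ⟨t, hrt, hft⟩ := Cfsg.Agent.Lib.RuRkP2.exists_conj (stS e c) r f hr hH hX hC hf
  set c' := act e t c with hc'
  have hmap : ∀ {k : H₀}, k ∈ (stS e c).map (MulAut.conj t).toMonoidHom → act e k c' = c' := by
    rintro k ⟨x, hx, rfl⟩
    have hx' : act e x c = c := hx
    show act e (t * x * t⁻¹) c' = c'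
    rw [act_mul, act_mul, hc', act_inv_act, hx']
  have hc'O : c' ∈ orbit (stabilizer G a) c := (mem_orbit_iff e).2 ⟨t, rfl⟩
  have hr' := hmap hrt
  have hf' := hmap hft
  set S := B₀.filter (fun y => Gam G a b (bet e b p2 y) c') with hSdef
  have hinv : ∀ k : H₀, act e k c' = c' → ∀ y ∈ S, k.1 y ∈ S := by
    intro k hk y hy
    rw [hSdef, mem_filter] at hy ⊢
    refine ⟨D.invB _ k.2 _ hy.1, ?_⟩
    rw [bet_act' D hS k hy.1]
    have := (act_gam e (b := b) k (bet e b p2 y) c').2 hy.2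
    rwa [hk] at this
  have hinv' : ∀ k : H₀, act e k c' = c' → ∀ y, k.1 y ∈ S ↔ y ∈ S := by
    intro k hk y
    constructor
    · intro hy
      have h1 : act e k⁻¹ c' = c' := by
        have := act_inv_act e k c'
        rwa [hk] at this
      have h2 := hinv k⁻¹ h1 _ hy
      have e1 : (k⁻¹ : H₀).1 (k.1 y) = y := by
        show k.1⁻¹ (k.1 y) = y
        simp
      rwa [e1] at h2
    · exact hinv k hk y
  have hcard : S.card = 780 := S_card D hS h hc'O
  have hu : ∀ u ∈ Us, ∑ y ∈ S, u y = 0 := by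
    intro u hu
    refine transfer D h hS h₀ hS₀ u ?_ hc'O
    intro z' hz'
    have e1 : B₀.filter (fun y => Gam G₀ a₀ p2 (bet e₀ p2 p2 y) z') = B₀.filter (fun y => Gam G₀ a₀ p2 y z') := by
      apply Finset.filter_congr
      intro y hy
      rw [bet_model he₀ D hS₀ hy]
    rw [e1]
    exact hUs u hu z' hz'
  have hmem := hsol S (Finset.filter_subset _ _) (hinv r hr') (hinv f hf') hcard hu
  rcases hext S hmem with ⟨y₀, hy₀, x₀, hx₀, hQ, huniq⟩ | ⟨p, hp, hSp, hq⟩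
  · exfalso
    have hy₀' := mem_filter.1 hy₀
    have h20 := twenty D hS h hH hy₀'.1 hc'O hy₀'.2
    have hle : stabilizer H₀ y₀ ⊓ stS e c' ≤ stabilizer H₀ y₀ ⊓ stabilizer H₀ x₀ := by
      rintro k ⟨hk1, hk2⟩
      refine ⟨hk1, ?_⟩
      have hk1' : k.1 y₀ = y₀ := hk1
      have hk2' : act e k c' = c' := hk2
      show k.1 x₀ = x₀
      apply huniq (k.1 x₀) (hinv k hk2' x₀ hx₀)
      · have := (Q_smul (p2 := p2) (Y₁ := Y₁) (Y₂ := Y₂) (Y₃ := Y₃) k (y := y₀) (w := x₀)).2 hQ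
        rwa [hk1'] at this
      · apply Finset.card_bij' (fun w _ => k.1⁻¹ w) (fun w _ => k.1 w)
        · intro w hw
          rw [mem_filter] at hw ⊢
          have e5 := (hinv' k hk2' (k.1⁻¹ w)).1 (by simpa using hw.1)
          refine ⟨e5, ?_, ?_⟩
          · have := (Q_smul (p2 := p2) (Y₁ := Y₁) (Y₂ := Y₂) (Y₃ := Y₃) k (y := y₀) (w := k.1⁻¹ w)).1 (by
              rw [hk1']; simpa using hw.2.1)
            exact this
          · have := (Q_smul (p2 := p2) (Y₁ := Y₁) (Y₂ := Y₂) (Y₃ := Y₃) k (y := x₀) (w := k.1⁻¹ w)).1 (by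
              simpa using hw.2.2)
            exact this
        · intro w hw
          rw [mem_filter] at hw ⊢
          refine ⟨hinv k hk2' w hw.1, ?_, ?_⟩
          · have := (Q_smul (p2 := p2) (Y₁ := Y₁) (Y₂ := Y₂) (Y₃ := Y₃) k (y := y₀) (w := w)).2 hw.2.1
            rwa [hk1'] at this
          · exact (Q_smul (p2 := p2) (Y₁ := Y₁) (Y₂ := Y₂) (Y₃ := Y₃) k (y := x₀) (w := w)).2 hw.2.2
        · intro w _
          simp
        · intro w _
          simp
    have hd1 : Nat.card ↥(stabilizer H₀ y₀ ⊓ stS e c') ∣ 2048 :=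
      (Subgroup.card_dvd_of_le hle).trans (pair_dvd D hH hQ)
    have hd2 : Nat.card ↥(stabilizer H₀ y₀ ⊓ stS e c') ∣ 15600 := by
      have h3 : Nat.card (stS e c') = 15600 := by
        apply card_stS e c' hH
        rw [orbit_eq_iff.2 hc'O]
        exact h.hc
      rw [← h3]
      exact Subgroup.card_dvd_of_le inf_le_right
    have hd3 : Nat.card ↥(stabilizer H₀ y₀ ⊓ stS e c') ∣ 16 := by
      have := Nat.dvd_gcd hd1 hd2
      have e6 : Nat.gcd 2048 15600 = 16 := by norm_num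
      rwa [e6] at this
    have := Nat.le_of_dvd (by norm_num) hd3
    omega
  · have hpO : orbit (stabilizer G₀ a₀) p = orbit (stabilizer G₀ a₀) p1 := orbit_eq_iff.2 hp
    have hle : stS e c' ≤ stS e₀ p := by
      intro k hk
      have hk' : act e k c' = c' := hk
      show act e₀ k p = p
      rw [he₀]
      apply hq
      · have : k.1 p ∈ orbit (stabilizer G₀ a₀) p := (mem_orbit_iff e₀).2 ⟨k, he₀ k p⟩
        rwa [hpO] at this
      · rw [← hSp]
        ext y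
        have hg : ∀ y, Gam G₀ a₀ p2 (k.1 y) (k.1 p) ↔ Gam G₀ a₀ p2 y p := by
          intro y
          rw [← he₀, ← he₀]
          exact act_gam e₀ k y p
        constructor
        · intro hy
          rw [Sz, mem_filter] at hy
          have h1 : k.1⁻¹ y ∈ S := by
            rw [hSp, Sz, mem_filter]
            refine ⟨D.invB _ (H₀.inv_mem k.2) _ hy.1, ?_⟩
            have := (hg (k.1⁻¹ y)).1 (by simpa using hy.2)
            exact this
          have := hinv k hk' _ h1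
          simpa using this
        · intro hy
          rw [Sz, mem_filter]
          refine ⟨(mem_filter.1 hy).1, ?_⟩
          have h1 : k.1⁻¹ y ∈ S := by
            apply (hinv' k hk' _).1
            simpa using hy
          rw [hSp, Sz, mem_filter] at h1
          have := (hg (k.1⁻¹ y)).2 h1.2
          simpa using this
    have hcp : Nat.card (stS e₀ p) = 15600 := by
      apply card_stS e₀ p hH
      rw [hpO]
      exact h₀.hc
    have hcc : Nat.card (stS e c') = 15600 := by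
      apply card_stS e c' hH
      rw [orbit_eq_iff.2 hc'O]
      exact h.hc
    have heq : stS e c' = stS e₀ p := Subgroup.eq_of_le_of_card_ge hle (by rw [hcp, hcc])
    have hp1 : p1 ∈ orbit (stabilizer G₀ a₀) p := by
      rw [hpO]
      exact mem_orbit_self _
    obtain ⟨t₂, ht₂⟩ := (mem_orbit_iff e₀).1 hp1
    rw [he₀] at ht₂
    refine ⟨t₂ * t, fun k => ?_⟩
    rw [act_mul, ← hc']
    have key : act e k (act e t₂ c') = act e t₂ c' ↔ t₂⁻¹ * k * t₂ ∈ stS e c' := by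
      rw [mem_stS, act_mul, act_mul]
      constructor
      · intro h1
        rw [h1, act_inv_act]
      · intro h1
        have := congrArg (act e t₂) h1
        rwa [act_act_inv] at this
    rw [key, heq, mem_stS, he₀]
    show (t₂.1⁻¹ * k.1 * t₂.1) p = p ↔ _
    rw [Equiv.Perm.mul_apply, Equiv.Perm.mul_apply, ht₂]
    constructor
    · intro h1
      have := congrArg t₂.1 h1
      rw [ht₂] at this
      simpa using this
    · intro h1
      rw [h1, ← ht₂]
      simp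

end

end Cfsg.Agent.Lib.RuRkC
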