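import Cfsg.Agent.Lib.RuRkC

/-!
# Rank three actions with point stabilizer a given permutation group: the graph is forced
-/

set_option autoImplicit false
set_option linter.unusedSectionVars false
set_option linter.unusedVariables false
set_option linter.style.haveILetI false
set_option linter.unusedSimpArgs false

namespace Cfsg.Agent.Lib.RuRkE

open MulAction Finset Cfsg.Agent.Lib.RuRkA Cfsg.Agent.Lib.RuRkB Cfsg.Agent.Lib.RuRkC

/-- the data on the model group for the orbit of `p1` -/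
structure Dat3 (H₀ : Subgroup (Equiv.Perm (Fin 4060))) (p0 p1 p2 : Fin 4060) (B₀ C₀ Z₁ Z₂ V₁ V₂ W₁ W₂ W₃ W₄ W₅ : Finset (Fin 4060)) : Prop where
  p1C : p1 ∈ C₀
  cardC : C₀.card = 2304
  trC : ∀ y ∈ C₀, ∃ h ∈ H₀, h p1 = y
  invC : ∀ h ∈ H₀, ∀ y ∈ C₀, h y ∈ C₀
  cov : ∀ x, x = p0 ∨ x ∈ B₀ ∨ x ∈ C₀
  p0B : p0 ∉ B₀
  p0C : p0 ∉ C₀
  dBC : Disjoint B₀ C₀
  fix0 : ∀ h ∈ H₀, h p0 = p0
  zcov : ∀ y ∈ C₀, y ∈ Z₁ ∨ y ∈ Z₂
  zsub : ∀ y, (y ∈ Z₁ ∨ y ∈ Z₂) → y ∈ C₀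
  dZ : Disjoint Z₁ Z₂
  cZ1 : Z₁.card = 1024
  cZ2 : Z₂.card = 1280
  tZ1 : ∀ x ∈ Z₁, ∀ y ∈ Z₁, ∃ h ∈ H₀, h p2 = p2 ∧ h x = y
  tZ2 : ∀ x ∈ Z₂, ∀ y ∈ Z₂, ∃ h ∈ H₀, h p2 = p2 ∧ h x = y
  vcov : ∀ y ∈ B₀, y ∈ V₁ ∨ y ∈ V₂
  vsub : ∀ y, (y ∈ V₁ ∨ y ∈ V₂) → y ∈ B₀
  dV : Disjoint V₁ V₂
  cV1 : V₁.card = 780
  cV2 : V₂.card = 975
  tV1 : ∀ x ∈ V₁, ∀ y ∈ V₁, ∃ h ∈ H₀, h p1 = p1 ∧ h x = y
  tV2 : ∀ x ∈ V₂, ∀ y ∈ V₂, ∃ h ∈ H₀, h p1 = p1 ∧ h x = y
  wcov : ∀ y ∈ C₀, y = p1 ∨ y ∈ W₁ ∨ y ∈ W₂ ∨ y ∈ W₃ ∨ y ∈ W₄ ∨ y ∈ W₅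
  wsub : ∀ y, (y ∈ W₁ ∨ y ∈ W₂ ∨ y ∈ W₃ ∨ y ∈ W₄ ∨ y ∈ W₅) → y ∈ C₀ ∧ y ≠ p1
  d12 : Disjoint W₁ W₂
  d13 : Disjoint W₁ W₃
  d14 : Disjoint W₁ W₄
  d15 : Disjoint W₁ W₅
  d23 : Disjoint W₂ W₃
  d24 : Disjoint W₂ W₄
  d25 : Disjoint W₂ W₅
  d34 : Disjoint W₃ W₄
  d35 : Disjoint W₃ W₅
  d45 : Disjoint W₄ W₅
  cW1 : W₁.card = 78
  cW2 : W₂.card = 300
  cW3 : W₃.card = 300
  cW4 : W₄.card = 650
  cW5 : W₅.card = 975
  tW1 : ∀ x ∈ W₁, ∀ y ∈ W₁, ∃ h ∈ H₀, h p1 = p1 ∧ h x = y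
  tW2 : ∀ x ∈ W₂, ∀ y ∈ W₂, ∃ h ∈ H₀, h p1 = p1 ∧ h x = y
  tW3 : ∀ x ∈ W₃, ∀ y ∈ W₃, ∃ h ∈ H₀, h p1 = p1 ∧ h x = y
  tW4 : ∀ x ∈ W₄, ∀ y ∈ W₄, ∃ h ∈ H₀, h p1 = p1 ∧ h x = y
  tW5 : ∀ x ∈ W₅, ∀ y ∈ W₅, ∃ h ∈ H₀, h p1 = p1 ∧ h x = y

/-- the relation on `Fin 4060`, independent of the action -/
def RR (H₀ : Subgroup (Equiv.Perm (Fin 4060))) (p0 p1 p2 : Fin 4060) (B₀ C₀ Y₁ Y₂ Y₃ Z₁ V₁ W₅ : Finset (Fin 4060)) (x y : Fin 4060) : Prop :=
  (x = p0 ∧ y ∈ B₀) ∨ (x ∈ B₀ ∧ y = p0) ∨ (x ∈ B₀ ∧ y ∈ B₀ ∧ Q H₀ p2 Y₁ Y₂ Y₃ x y) ∨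
  (x ∈ B₀ ∧ y ∈ C₀ ∧ ∃ h : H₀, h.1 p2 = x ∧ h.1⁻¹ y ∈ Z₁) ∨
  (x ∈ C₀ ∧ y ∈ B₀ ∧ ∃ h : H₀, h.1 p1 = x ∧ h.1⁻¹ y ∈ V₁) ∨
  (x ∈ C₀ ∧ y ∈ C₀ ∧ ∃ h : H₀, h.1 p1 = x ∧ h.1⁻¹ y ∈ W₅)

section

variable {Ω : Type*} [Fintype Ω] [DecidableEq Ω] {G : Subgroup (Equiv.Perm Ω)} {a b c : Ω}
  {H₀ : Subgroup (Equiv.Perm (Fin 4060))} {p0 p1 p2 : Fin 4060}
  {B₀ C₀ Y₁ Y₂ Y₃ Y₄ Z₁ Z₂ V₁ V₂ W₁ W₂ W₃ W₄ W₅ : Finset (Fin 4060)}
  {e : stabilizer G a ≃* H₀}

open Classical in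
theorem aon {P : Fin 4060 → Prop} {q : Fin 4060} {Y : Finset (Fin 4060)}
    (ht : ∀ x ∈ Y, ∀ y ∈ Y, ∃ h ∈ H₀, h q = q ∧ h x = y)
    (hP : ∀ k ∈ H₀, k q = q → ∀ w, P w → P (k w)) : Y.filter P = Y ∨ Y.filter P = ∅ := by
  by_cases h1 : ∃ w ∈ Y, P w
  · left
    obtain ⟨w, hw, hg⟩ := h1
    apply Finset.filter_true_of_mem
    intro x hx
    obtain ⟨k, hk, k1, k2⟩ := ht w hw x hx
    rw [← k2]
    exact hP k hk k1 w hg
  · right
    apply Finset.filter_false_of_mem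
    intro x hx hg
    exact h1 ⟨x, hx, hg⟩

variable (D : Dat H₀ p2 B₀ Y₁ Y₂ Y₃ Y₄) (D3 : Dat3 H₀ p0 p1 p2 B₀ C₀ Z₁ Z₂ V₁ V₂ W₁ W₂ W₃ W₄ W₅)
  (hS : StabB e b p2) (hSc : ∀ k : H₀, act e k c = c ↔ k.1 p1 = p1) (h : R3 G a b c)
  (π : Ω ≃ Fin 4060) (hπa : π a = p0) (hπb : π b = p2) (hπc : π c = p1)
  (hπ : ∀ (k : H₀) (x : Ω), π (act e k x) = k.1 (π x))
include D D3 hS hSc h hπa hπb hπc hπ

theorem pi_B {x : Ω} : x ∈ orbit (stabilizer G a) b ↔ π x ∈ B₀ := by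
  constructor
  · intro hx
    obtain ⟨k, rfl⟩ := (mem_orbit_iff e).1 hx
    rw [hπ, hπb]
    exact D.invB _ k.2 _ D.p2B
  · intro hx
    rcases cover h x with h1 | h1 | h1
    · subst h1
      rw [hπa] at hx
      exact absurd hx D3.p0B
    · exact h1
    · exfalso
      obtain ⟨k, rfl⟩ := (mem_orbit_iff e).1 h1
      rw [hπ, hπc] at hx
      exact Finset.disjoint_left.1 D3.dBC hx (D3.invC _ k.2 _ D3.p1C)

theorem pi_C {x : Ω} : x ∈ orbit (stabilizer G a) c ↔ π x ∈ C₀ := by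
  constructor
  · intro hx
    obtain ⟨k, rfl⟩ := (mem_orbit_iff e).1 hx
    rw [hπ, hπc]
    exact D3.invC _ k.2 _ D3.p1C
  · intro hx
    rcases cover h x with h1 | h1 | h1
    · subst h1
      rw [hπa] at hx
      exact absurd hx D3.p0C
    · exfalso
      exact Finset.disjoint_left.1 D3.dBC ((pi_B D D3 hS hSc h π hπa hπb hπc hπ).1 h1) hx
    · exact h1

theorem bet_pi {w : Fin 4060} (hw : w ∈ B₀) : π (bet e b p2 w) = w := by
  obtain ⟨k, rfl⟩ := exH D hw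
  rw [bet_eq hS, hπ, hπb]

open Classical in
/-- the neighbours of `b` among the orbit of `c` -/
theorem nbr_bc : ∀ w ∈ C₀, Gam G a b b (π.symm w) ↔ w ∈ Z₁ := by
  set P : Fin 4060 → Prop := fun w => Gam G a b b (π.symm w) with hP
  have hinv : ∀ k ∈ H₀, k p2 = p2 → ∀ w, P w → P (k w) := by
    intro k hk hk1 w hw
    have h1 : act e ⟨k, hk⟩ b = b := (hS ⟨k, hk⟩).2 hk1
    have h2 := (act_gam e (b := b) ⟨k, hk⟩ b (π.symm w)).2 hw
    rw [h1] at h2
    have h3 : act e ⟨k, hk⟩ (π.symm w) = π.symm (k w) := by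
      apply π.injective
      rw [hπ]
      simp
    rw [h3] at h2
    exact h2
  have a1 : Z₁.filter P = Z₁ ∨ Z₁.filter P = ∅ := aon D3.tZ1 hinv
  have a2 : Z₂.filter P = Z₂ ∨ Z₂.filter P = ∅ := aon D3.tZ2 hinv
  have hcard : (C₀.filter P).card = 1024 := by
    have h1 := filt_c_card D hS h D.p2B
    rw [bet_p2 D hS] at h1
    rw [← h1]
    apply Finset.card_bij (fun w _ => π.symm w)
    · intro w hw
      rw [mem_filter] at hw ⊢
      refine ⟨mem_univ _, (pi_C D D3 hS hSc h π hπa hπb hπc hπ).2 (by simpa using hw.1), hw.2⟩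
    · intro w _ w' _ he
      exact π.symm.injective he
    · intro z hz
      rw [mem_filter] at hz
      refine ⟨π z, ?_, by simp⟩
      rw [mem_filter]
      refine ⟨(pi_C D D3 hS hSc h π hπa hπb hπc hπ).1 hz.2.1, ?_⟩
      show Gam G a b b (π.symm (π z))
      simpa using hz.2.2
  have hC : C₀.filter P = Z₁.filter P ∪ Z₂.filter P := by
    ext w
    simp only [mem_filter, mem_union]
    constructor
    · rintro ⟨h1, h2⟩
      rcases D3.zcov w h1 with h3 | h3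
      · exact Or.inl ⟨h3, h2⟩
      · exact Or.inr ⟨h3, h2⟩
    · rintro (⟨h3, h2⟩ | ⟨h3, h2⟩)
      · exact ⟨D3.zsub w (Or.inl h3), h2⟩
      · exact ⟨D3.zsub w (Or.inr h3), h2⟩
  have hc : (C₀.filter P).card = (Z₁.filter P).card + (Z₂.filter P).card := by
    rw [hC, card_union_of_disjoint (Finset.disjoint_filter_filter D3.dZ)]
  rw [hcard] at hc
  have c1 := D3.cZ1
  have c2 := D3.cZ2
  have main : Z₁.filter P = Z₁ ∧ Z₂.filter P = ∅ := by
    rcases a1 with a1 | a1 <;> rcases a2 with a2 | a2 <;>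
      simp only [a1, a2, card_empty, c1, c2] at hc <;>
      first
      | (exfalso; omega)
      | exact ⟨a1, a2⟩
  intro w hw
  constructor
  · intro hg
    rcases D3.zcov w hw with h3 | h3
    · exact h3
    · exfalso
      have : w ∈ Z₂.filter P := mem_filter.2 ⟨h3, hg⟩
      rw [main.2] at this
      simp at this
  · intro h3
    rw [← main.1] at h3
    exact (mem_filter.1 h3).2

open Classical in
/-- the neighbours of `c` among the orbit of `b` -/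
theorem nbr_cb : ∀ w ∈ B₀, Gam G a b c (π.symm w) ↔ w ∈ V₁ := by
  set P : Fin 4060 → Prop := fun w => Gam G a b c (π.symm w) with hP
  have hinv : ∀ k ∈ H₀, k p1 = p1 → ∀ w, P w → P (k w) := by
    intro k hk hk1 w hw
    have h1 : act e ⟨k, hk⟩ c = c := (hSc ⟨k, hk⟩).2 hk1
    have h2 := (act_gam e (b := b) ⟨k, hk⟩ c (π.symm w)).2 hw
    rw [h1] at h2
    have h3 : act e ⟨k, hk⟩ (π.symm w) = π.symm (k w) := by
      apply π.injective
      rw [hπ]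
      simp
    rw [h3] at h2
    exact h2
  have a1 : V₁.filter P = V₁ ∨ V₁.filter P = ∅ := aon D3.tV1 hinv
  have a2 : V₂.filter P = V₂ ∨ V₂.filter P = ∅ := aon D3.tV2 hinv
  have hcard : (B₀.filter P).card = 780 := by
    have h1 := S_card D hS h (mem_orbit_self c)
    rw [← h1]
    apply Finset.card_bij (fun w _ => w)
    · intro w hw
      rw [mem_filter] at hw ⊢
      refine ⟨hw.1, ?_⟩
      have h2 : bet e b p2 w = π.symm w := by
        apply π.injective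
        rw [bet_pi D D3 hS hSc h π hπa hπb hπc hπ hw.1]
        simp
      rw [h2]
      exact Gam_symm h hw.2
    · intro w _ w' _ he
      exact he
    · intro w hw
      rw [mem_filter] at hw
      refine ⟨w, ?_, rfl⟩
      rw [mem_filter]
      refine ⟨hw.1, ?_⟩
      have h2 : bet e b p2 w = π.symm w := by
        apply π.injective
        rw [bet_pi D D3 hS hSc h π hπa hπb hπc hπ hw.1]
        simp
      have h3 := hw.2
      rw [h2] at h3
      exact Gam_symm h h3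
  have hC : B₀.filter P = V₁.filter P ∪ V₂.filter P := by
    ext w
    simp only [mem_filter, mem_union]
    constructor
    · rintro ⟨h1, h2⟩
      rcases D3.vcov w h1 with h3 | h3
      · exact Or.inl ⟨h3, h2⟩
      · exact Or.inr ⟨h3, h2⟩
    · rintro (⟨h3, h2⟩ | ⟨h3, h2⟩)
      · exact ⟨D3.vsub w (Or.inl h3), h2⟩
      · exact ⟨D3.vsub w (Or.inr h3), h2⟩
  have hc : (B₀.filter P).card = (V₁.filter P).card + (V₂.filter P).card := by
    rw [hC, card_union_of_disjoint (Finset.disjoint_filter_filter D3.dV)]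
  rw [hcard] at hc
  have c1 := D3.cV1
  have c2 := D3.cV2
  have main : V₁.filter P = V₁ ∧ V₂.filter P = ∅ := by
    rcases a1 with a1 | a1 <;> rcases a2 with a2 | a2 <;>
      simp only [a1, a2, card_empty, c1, c2] at hc <;>
      first
      | (exfalso; omega)
      | exact ⟨a1, a2⟩
  intro w hw
  constructor
  · intro hg
    rcases D3.vcov w hw with h3 | h3
    · exact h3
    · exfalso
      have : w ∈ V₂.filter P := mem_filter.2 ⟨h3, hg⟩
      rw [main.2] at this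
      simp at this
  · intro h3
    rw [← main.1] at h3
    exact (mem_filter.1 h3).2

open Classical in
/-- the neighbours of `c` among its orbit -/
theorem nbr_cc : ∀ w ∈ C₀, Gam G a b c (π.symm w) ↔ w ∈ W₅ := by
  set P : Fin 4060 → Prop := fun w => Gam G a b c (π.symm w) with hP
  have hinv : ∀ k ∈ H₀, k p1 = p1 → ∀ w, P w → P (k w) := by
    intro k hk hk1 w hw
    have h1 : act e ⟨k, hk⟩ c = c := (hSc ⟨k, hk⟩).2 hk1
    have h2 := (act_gam e (b := b) ⟨k, hk⟩ c (π.symm w)).2 hw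
    rw [h1] at h2
    have h3 : act e ⟨k, hk⟩ (π.symm w) = π.symm (k w) := by
      apply π.injective
      rw [hπ]
      simp
    rw [h3] at h2
    exact h2
  have a1 : W₁.filter P = W₁ ∨ W₁.filter P = ∅ := aon D3.tW1 hinv
  have a2 : W₂.filter P = W₂ ∨ W₂.filter P = ∅ := aon D3.tW2 hinv
  have a3 : W₃.filter P = W₃ ∨ W₃.filter P = ∅ := aon D3.tW3 hinv
  have a4 : W₄.filter P = W₄ ∨ W₄.filter P = ∅ := aon D3.tW4 hinv
  have a5 : W₅.filter P = W₅ ∨ W₅.filter P = ∅ := aon D3.tW5 hinv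
  have hp1 : ¬ P p1 := by
    show ¬ Gam G a b c (π.symm p1)
    rw [← hπc]
    simpa using Gam_irrefl h c
  -- the count
  have hcard : (C₀.filter P).card = 975 := by
    have hN := card_Nb h c
    have h780 := S_card D hS h (mem_orbit_self c)
    have hsplit : Nb G a b c = ((B₀.filter P).image π.symm) ∪ ((C₀.filter P).image π.symm) := by
      ext z
      simp only [Nb, mem_filter, mem_univ, true_and, mem_union, mem_image]
      constructor
      · intro hz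
        rcases cover h z with h1 | h1 | h1
        · exfalso
          subst h1
          have h2 := Gam_symm h hz
          exact B_disj_C h ((Gam_a c).1 h2) (mem_orbit_self c)
        · exact Or.inl ⟨π z, ⟨(pi_B D D3 hS hSc h π hπa hπb hπc hπ).1 h1, by simpa [hP] using hz⟩, by simp⟩
        · exact Or.inr ⟨π z, ⟨(pi_C D D3 hS hSc h π hπa hπb hπc hπ).1 h1, by simpa [hP] using hz⟩, by simp⟩
      · rintro (⟨w, ⟨_, h2⟩, rfl⟩ | ⟨w, ⟨_, h2⟩, rfl⟩) <;> exact h2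
    have hdis : Disjoint ((B₀.filter P).image π.symm) ((C₀.filter P).image π.symm) := by
      rw [Finset.disjoint_image π.symm.injective]
      exact Finset.disjoint_filter_filter D3.dBC
    rw [hsplit, card_union_of_disjoint hdis, card_image_of_injective _ π.symm.injective,
      card_image_of_injective _ π.symm.injective] at hN
    have hB : (B₀.filter P).card = 780 := by
      have h8 : B₀.filter P = B₀.filter (fun y => Gam G a b (bet e b p2 y) c) := by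
        apply Finset.filter_congr
        intro w hw
        have h2 : bet e b p2 w = π.symm w := by
          apply π.injective
          rw [bet_pi D D3 hS hSc h π hπa hπb hπc hπ hw]
          simp
        rw [h2]
        exact ⟨fun h3 => Gam_symm h h3, fun h3 => Gam_symm h h3⟩
      rw [h8]
      exact h780
    omega
  have hC : C₀.filter P = W₁.filter P ∪ (W₂.filter P ∪ (W₃.filter P ∪ (W₄.filter P ∪ W₅.filter P))) := by
    ext w
    simp only [mem_filter, mem_union]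
    constructor
    · rintro ⟨h1, h2⟩
      rcases D3.wcov w h1 with h3 | h3 | h3 | h3 | h3 | h3
      · exact absurd (h3 ▸ h2) hp1
      · exact Or.inl ⟨h3, h2⟩
      · exact Or.inr (Or.inl ⟨h3, h2⟩)
      · exact Or.inr (Or.inr (Or.inl ⟨h3, h2⟩))
      · exact Or.inr (Or.inr (Or.inr (Or.inl ⟨h3, h2⟩)))
      · exact Or.inr (Or.inr (Or.inr (Or.inr ⟨h3, h2⟩)))
    · rintro (⟨h3, h2⟩ | ⟨h3, h2⟩ | ⟨h3, h2⟩ | ⟨h3, h2⟩ | ⟨h3, h2⟩)
      · exact ⟨(D3.wsub w (Or.inl h3)).1, h2⟩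
      · exact ⟨(D3.wsub w (Or.inr (Or.inl h3))).1, h2⟩
      · exact ⟨(D3.wsub w (Or.inr (Or.inr (Or.inl h3)))).1, h2⟩
      · exact ⟨(D3.wsub w (Or.inr (Or.inr (Or.inr (Or.inl h3))))).1, h2⟩
      · exact ⟨(D3.wsub w (Or.inr (Or.inr (Or.inr (Or.inr h3))))).1, h2⟩
  have hd : ∀ {A B : Finset (Fin 4060)}, Disjoint A B → Disjoint (A.filter P) (B.filter P) :=
    fun hab => Finset.disjoint_filter_filter hab
  have hc : (C₀.filter P).card = (W₁.filter P).card + ((W₂.filter P).card + ((W₃.filter P).card + ((W₄.filter P).card + (W₅.filter P).card))) := by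
    rw [hC, card_union_of_disjoint, card_union_of_disjoint, card_union_of_disjoint, card_union_of_disjoint]
    · exact hd D3.d45
    · rw [Finset.disjoint_union_right]
      exact ⟨hd D3.d34, hd D3.d35⟩
    · rw [Finset.disjoint_union_right, Finset.disjoint_union_right]
      exact ⟨hd D3.d23, hd D3.d24, hd D3.d25⟩
    · rw [Finset.disjoint_union_right, Finset.disjoint_union_right, Finset.disjoint_union_right]
      exact ⟨hd D3.d12, hd D3.d13, hd D3.d14, hd D3.d15⟩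
  rw [hcard] at hc
  have c1 := D3.cW1
  have c2 := D3.cW2
  have c3 := D3.cW3
  have c4 := D3.cW4
  have c5 := D3.cW5
  have main : W₁.filter P = ∅ ∧ W₂.filter P = ∅ ∧ W₃.filter P = ∅ ∧ W₄.filter P = ∅ ∧ W₅.filter P = W₅ := by
    rcases a1 with a1 | a1 <;> rcases a2 with a2 | a2 <;> rcases a3 with a3 | a3 <;> rcases a4 with a4 | a4 <;> rcases a5 with a5 | a5 <;>
      simp only [a1, a2, a3, a4, a5, card_empty, c1, c2, c3, c4, c5] at hc <;>
      first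
      | (exfalso; omega)
      | exact ⟨a1, a2, a3, a4, a5⟩
  obtain ⟨m1, m2, m3, m4, m5⟩ := main
  have hnot : ∀ {A : Finset (Fin 4060)} {w}, A.filter P = ∅ → w ∈ A → ¬ P w := by
    intro A w h1 h2 h3
    have : w ∈ A.filter P := mem_filter.2 ⟨h2, h3⟩
    rw [h1] at this
    simp at this
  intro w hw
  constructor
  · intro hg
    rcases D3.wcov w hw with h3 | h3 | h3 | h3 | h3 | h3
    · exact absurd (h3 ▸ hg) hp1
    · exact absurd hg (hnot m1 h3)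
    · exact absurd hg (hnot m2 h3)
    · exact absurd hg (hnot m3 h3)
    · exact absurd hg (hnot m4 h3)
    · exact h3
  · intro h3
    rw [← m5] at h3
    exact (mem_filter.1 h3).2

/-- the graph in terms of the relation -/
theorem gam_iff (x y : Ω) : Gam G a b x y ↔ RR H₀ p0 p1 p2 B₀ C₀ Y₁ Y₂ Y₃ Z₁ V₁ W₅ (π x) (π y) := by
  have piB := fun {z : Ω} => pi_B (x := z) D D3 hS hSc h π hπa hπb hπc hπ
  have piC := fun {z : Ω} => pi_C (x := z) D D3 hS hSc h π hπa hπb hπc hπ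
  have hdis : ∀ {w : Fin 4060}, w ∈ B₀ → w ∈ C₀ → False := fun h1 h2 => Finset.disjoint_left.1 D3.dBC h1 h2
  have hact : ∀ (k : H₀) {w : Fin 4060}, π.symm (k.1 w) = act e k (π.symm w) := by
    intro k w
    apply π.injective
    rw [hπ]
    simp
  constructor
  · intro hg
    rcases cover h x with rfl | hx | hx
    · have hy := (Gam_a y).1 hg
      exact Or.inl ⟨hπa, piB.1 hy⟩
    · rcases cover h y with rfl | hy | hy
      · exact Or.inr (Or.inl ⟨piB.1 hx, hπa⟩)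
      · refine Or.inr (Or.inr (Or.inl ⟨piB.1 hx, piB.1 hy, ?_⟩))
        obtain ⟨u, hu, rfl⟩ := bet_surj D hS hx
        obtain ⟨v, hv, rfl⟩ := bet_surj D hS hy
        rw [bet_pi D D3 hS hSc h π hπa hπb hπc hπ hu, bet_pi D D3 hS hSc h π hπa hπb hπc hπ hv]
        exact (gam_bet D h hS hu hv).1 hg
      · refine Or.inr (Or.inr (Or.inr (Or.inl ⟨piB.1 hx, piC.1 hy, ?_⟩)))
        obtain ⟨k, rfl⟩ := (mem_orbit_iff e).1 hx
        refine ⟨k, by rw [hπ, hπb], ?_⟩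
        have h1 := (nbr_bc D D3 hS hSc h π hπa hπb hπc hπ (k.1⁻¹ (π y)) (D3.invC _ (H₀.inv_mem k.2) _ (piC.1 hy))).1
        apply h1
        have h2 : π.symm (k.1⁻¹ (π y)) = act e k⁻¹ y := by
          apply π.injective
          rw [hπ]
          simp
        rw [h2]
        have h3 := (act_gam e (b := b) k⁻¹ (act e k b) y).2 hg
        rwa [act_inv_act] at h3
    · obtain ⟨k, rfl⟩ := (mem_orbit_iff e).1 hx
      have hg' : Gam G a b c (act e k⁻¹ y) := by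
        have h3 := (act_gam e (b := b) k⁻¹ (act e k c) y).2 hg
        rwa [act_inv_act] at h3
      have hpi : k.1⁻¹ (π y) = π (act e k⁻¹ y) := by
        rw [hπ]
        rfl
      rcases cover h y with rfl | hy | hy
      · exfalso
        have h2 := Gam_symm h hg
        have h3 := (Gam_a _).1 h2
        exact hdis (piB.1 h3) (piC.1 ((mem_orbit_iff e).2 ⟨k, rfl⟩))
      · refine Or.inr (Or.inr (Or.inr (Or.inr (Or.inl ⟨piC.1 ((mem_orbit_iff e).2 ⟨k, rfl⟩), piB.1 hy, k, by rw [hπ, hπc], ?_⟩))))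
        have h1 := (nbr_cb D D3 hS hSc h π hπa hπb hπc hπ (k.1⁻¹ (π y)) (D.invB _ (H₀.inv_mem k.2) _ (piB.1 hy))).1
        apply h1
        rw [hpi]
        simpa using hg'
      · refine Or.inr (Or.inr (Or.inr (Or.inr (Or.inr ⟨piC.1 ((mem_orbit_iff e).2 ⟨k, rfl⟩), piC.1 hy, k, by rw [hπ, hπc], ?_⟩))))
        have h1 := (nbr_cc D D3 hS hSc h π hπa hπb hπc hπ (k.1⁻¹ (π y)) (D3.invC _ (H₀.inv_mem k.2) _ (piC.1 hy))).1
        apply h1
        rw [hpi]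
        simpa using hg'
  · rintro (⟨h1, h2⟩ | ⟨h1, h2⟩ | ⟨h1, h2, h3⟩ | ⟨h1, h2, k, h3, h4⟩ | ⟨h1, h2, k, h3, h4⟩ | ⟨h1, h2, k, h3, h4⟩)
    · have e1 : x = a := π.injective (by rw [h1, hπa])
      subst e1
      exact (Gam_a y).2 (piB.2 h2)
    · have e1 : y = a := π.injective (by rw [h2, hπa])
      subst e1
      exact Gam_symm h ((Gam_a x).2 (piB.2 h1))
    · obtain ⟨u, hu, rfl⟩ := bet_surj D hS (piB.2 h1)
      obtain ⟨v, hv, rfl⟩ := bet_surj D hS (piB.2 h2)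
      rw [bet_pi D D3 hS hSc h π hπa hπb hπc hπ hu, bet_pi D D3 hS hSc h π hπa hπb hπc hπ hv] at h3
      exact (gam_bet D h hS hu hv).2 h3
    · have e1 : x = act e k b := π.injective (by rw [hπ, hπb, h3])
      subst e1
      have h5 := (nbr_bc D D3 hS hSc h π hπa hπb hπc hπ (k.1⁻¹ (π y)) (D3.invC _ (H₀.inv_mem k.2) _ h2)).2 h4
      have h6 : π.symm (k.1⁻¹ (π y)) = act e k⁻¹ y := by
        apply π.injective
        rw [hπ]
        simp
      rw [h6] at h5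
      have h7 := (act_gam e (b := b) k b (act e k⁻¹ y)).2 h5
      rwa [act_act_inv] at h7
    · have e1 : x = act e k c := π.injective (by rw [hπ, hπc, h3])
      subst e1
      have h5 := (nbr_cb D D3 hS hSc h π hπa hπb hπc hπ (k.1⁻¹ (π y)) (D.invB _ (H₀.inv_mem k.2) _ h2)).2 h4
      have h6 : π.symm (k.1⁻¹ (π y)) = act e k⁻¹ y := by
        apply π.injective
        rw [hπ]
        simp
      rw [h6] at h5
      have h7 := (act_gam e (b := b) k c (act e k⁻¹ y)).2 h5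
      rwa [act_act_inv] at h7
    · have e1 : x = act e k c := π.injective (by rw [hπ, hπc, h3])
      subst e1
      have h5 := (nbr_cc D D3 hS hSc h π hπa hπb hπc hπ (k.1⁻¹ (π y)) (D3.invC _ (H₀.inv_mem k.2) _ h2)).2 h4
      have h6 : π.symm (k.1⁻¹ (π y)) = act e k⁻¹ y := by
        apply π.injective
        rw [hπ]
        simp
      rw [h6] at h5
      have h7 := (act_gam e (b := b) k c (act e k⁻¹ y)).2 h5
      rwa [act_act_inv] at h7

end

end Cfsg.Agent.Lib.RuRkE
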