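import Mathlib

/-! Uniqueness of a permutation action with one fixed point and two orbits with given
stabilizers. -/

namespace Cfsg.Agent.Lib.RuRkP1

open MulAction

variable {H Ω Ψ : Type*} [Group H] [MulAction H Ω] [MulAction H Ψ]

/-- The graph of the wanted equivariant bijection. -/
private def Rr (a b c : Ω) (a' b' c' : Ψ) (x : Ω) (y : Ψ) : Prop :=
  (x = a ∧ y = a') ∨ (∃ h : H, x = h • b ∧ y = h • b') ∨ (∃ h : H, x = h • c ∧ y = h • c')

private theorem same_of_stab {Ω Ψ : Type*} [MulAction H Ω] [MulAction H Ψ] {b : Ω} {b' : Ψ}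
    (hb : stabilizer H b = stabilizer H b') {h k : H} (e : h • b = k • b) :
    h • b' = k • b' := by
  have h1 : k⁻¹ * h ∈ stabilizer H b := by
    rw [mem_stabilizer_iff, mul_smul, e, inv_smul_smul]
  rw [hb, mem_stabilizer_iff, mul_smul] at h1
  rw [inv_smul_eq_iff] at h1
  exact h1

private theorem func {Ω Ψ : Type*} [MulAction H Ω] [MulAction H Ψ]
    {a b c : Ω} {a' b' c' : Ψ}
    (hab : a ∉ orbit H b) (hac : a ∉ orbit H c) (hbc : Disjoint (orbit H b) (orbit H c))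
    (hb : stabilizer H b = stabilizer H b') (hc : stabilizer H c = stabilizer H c')
    {x : Ω} {y z : Ψ}
    (h1 : (x = a ∧ y = a') ∨ (∃ h : H, x = h • b ∧ y = h • b') ∨ (∃ h : H, x = h • c ∧ y = h • c'))
    (h2 : (x = a ∧ z = a') ∨ (∃ h : H, x = h • b ∧ z = h • b') ∨ (∃ h : H, x = h • c ∧ z = h • c')) :
    y = z := by
  have hA : ∀ h : H, a ≠ h • b := fun h e => hab (e ▸ mem_orbit b h)
  have hA' : ∀ h : H, a ≠ h • c := fun h e => hac (e ▸ mem_orbit c h)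
  have hD : ∀ h k : H, h • b ≠ k • c := fun h k e =>
    Set.disjoint_left.1 hbc (mem_orbit b h) (e ▸ mem_orbit c k)
  rcases h1 with ⟨rfl, rfl⟩ | ⟨h, rfl, rfl⟩ | ⟨h, rfl, rfl⟩ <;>
    rcases h2 with ⟨e, rfl⟩ | ⟨k, e, rfl⟩ | ⟨k, e, rfl⟩
  · rfl
  · exact absurd e (hA k)
  · exact absurd e (hA' k)
  · exact absurd e.symm (hA h)
  · exact same_of_stab hb e
  · exact absurd e (hD h k)
  · exact absurd e.symm (hA' h)
  · exact absurd e.symm (hD k h)
  · exact same_of_stab hc e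

/-- Two actions of `H`, each with one fixed point and two further orbits, with the same
stabilizers on the representatives, are isomorphic. -/
theorem exists_equiv (a b c : Ω) (a' b' c' : Ψ)
    (hcov : ∀ x : Ω, x = a ∨ x ∈ orbit H b ∨ x ∈ orbit H c)
    (hab : a ∉ orbit H b) (hac : a ∉ orbit H c) (hbc : Disjoint (orbit H b) (orbit H c))
    (hfix : ∀ h : H, h • a = a)
    (hcov' : ∀ x : Ψ, x = a' ∨ x ∈ orbit H b' ∨ x ∈ orbit H c')
    (hab' : a' ∉ orbit H b') (hac' : a' ∉ orbit H c') (hbc' : Disjoint (orbit H b') (orbit H c'))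
    (hfix' : ∀ h : H, h • a' = a')
    (hb : stabilizer H b = stabilizer H b') (hc : stabilizer H c = stabilizer H c') :
    ∃ π : Ω ≃ Ψ, π a = a' ∧ π b = b' ∧ π c = c' ∧ ∀ (h : H) (x : Ω), π (h • x) = h • π x := by
  classical
  have total : ∀ x : Ω, ∃ y : Ψ, Rr (H := H) a b c a' b' c' x y := by
    intro x
    rcases hcov x with rfl | hx | hx
    · exact ⟨a', Or.inl ⟨rfl, rfl⟩⟩
    · obtain ⟨h, rfl⟩ := mem_orbit_iff.1 hx
      exact ⟨h • b', Or.inr (Or.inl ⟨h, rfl, rfl⟩)⟩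
    · obtain ⟨h, rfl⟩ := mem_orbit_iff.1 hx
      exact ⟨h • c', Or.inr (Or.inr ⟨h, rfl, rfl⟩)⟩
  have total' : ∀ y : Ψ, ∃ x : Ω, Rr (H := H) a b c a' b' c' x y := by
    intro x
    rcases hcov' x with rfl | hx | hx
    · exact ⟨a, Or.inl ⟨rfl, rfl⟩⟩
    · obtain ⟨h, rfl⟩ := mem_orbit_iff.1 hx
      exact ⟨h • b, Or.inr (Or.inl ⟨h, rfl, rfl⟩)⟩
    · obtain ⟨h, rfl⟩ := mem_orbit_iff.1 hx
      exact ⟨h • c, Or.inr (Or.inr ⟨h, rfl, rfl⟩)⟩
  have fn : ∀ {x y z}, Rr (H := H) a b c a' b' c' x y → Rr (H := H) a b c a' b' c' x z → y = z :=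
    fun h1 h2 => func hab hac hbc hb hc h1 h2
  have fn' : ∀ {x y z}, Rr (H := H) a b c a' b' c' y x → Rr (H := H) a b c a' b' c' z x → y = z := by
    intro x y z h1 h2
    refine func (a' := a) (b' := b) (c' := c) hab' hac' hbc' hb.symm hc.symm (x := x) (y := y) (z := z) ?_ ?_
    · rcases h1 with ⟨e1, e2⟩ | ⟨h, e1, e2⟩ | ⟨h, e1, e2⟩
      · exact Or.inl ⟨e2, e1⟩
      · exact Or.inr (Or.inl ⟨h, e2, e1⟩)
      · exact Or.inr (Or.inr ⟨h, e2, e1⟩)
    · rcases h2 with ⟨e1, e2⟩ | ⟨h, e1, e2⟩ | ⟨h, e1, e2⟩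
      · exact Or.inl ⟨e2, e1⟩
      · exact Or.inr (Or.inl ⟨h, e2, e1⟩)
      · exact Or.inr (Or.inr ⟨h, e2, e1⟩)
  choose f hf using total
  have bij : Function.Bijective f := by
    constructor
    · intro x y e
      refine fn' (x := f x) (hf x) ?_
      rw [e]
      exact hf y
    · intro y
      obtain ⟨x, hx⟩ := total' y
      exact ⟨x, fn (hf x) hx⟩
  refine ⟨Equiv.ofBijective f bij, ?_, ?_, ?_, ?_⟩
  · exact fn (hf a) (Or.inl ⟨rfl, rfl⟩)
  · exact fn (hf b) (Or.inr (Or.inl ⟨1, (one_smul _ _).symm, (one_smul _ _).symm⟩))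
  · exact fn (hf c) (Or.inr (Or.inr ⟨1, (one_smul _ _).symm, (one_smul _ _).symm⟩))
  · intro h x
    refine fn (hf _) ?_
    show Rr a b c a' b' c' (h • x) (h • f x)
    rcases hf x with ⟨e1, e2⟩ | ⟨k, e1, e2⟩ | ⟨k, e1, e2⟩
    · refine Or.inl ⟨?_, ?_⟩
      · rw [e1, hfix]
      · rw [e2, hfix']
    · exact Or.inr (Or.inl ⟨h * k, by rw [e1, mul_smul], by rw [e2, mul_smul]⟩)
    · exact Or.inr (Or.inr ⟨h * k, by rw [e1, mul_smul], by rw [e2, mul_smul]⟩)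

end Cfsg.Agent.Lib.RuRkP1
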