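import Cfsg.Agent.Lib.RuPMain
import Cfsg.Agent.Lib.TwoF4Bridge
import Cfsg.Agent.Lib.ProgCross
import Cfsg.Agent.Lib.SparseDfs
import Cfsg.Agent.Lib.PermChain12
import Cfsg.Agent.Lib.RuScTitsData
import Cfsg.Agent.Lib.RuRkP3Data

/-!
# The point stabilizer of `Ru` on `4060` points is `²F₄(2)`
-/

set_option autoImplicit false
set_option maxRecDepth 100000
set_option Elab.async false
set_option linter.style.haveILetI false

namespace Cfsg.Agent.Lib.RuRkP3

open Cfsg Subgroup Cfsg.Agent.Lib.SparseDfs Cfsg.Agent.Lib.PermChain12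
  Cfsg.Agent.Lib.RuScTitsData Cfsg.Agent.Lib.RuRkP3Data
open Cfsg.Agent.Lib.ProgBits Cfsg.Agent.Lib.ProgChain Cfsg.Agent.Lib.PermChain
  Cfsg.Agent.Lib.ProgCross

noncomputable section

/-- the letters of `Ru` on `4060` points -/
abbrev gH : ℕ → Equiv.Perm (Fin 4060) := Cfsg.Agent.Lib.RuPMain.g

/-- the letters of `²F₄(2)` on `1755` points -/
abbrev g2 : ℕ → Equiv.Perm (Fin 1755) := Cfsg.Agent.Lib.TwoF4PMain.g

/-- the words of the two letters of the stabilizer -/
def sub (a : ℕ) : List ℕ := cond (Nat.beq a 140) wA wB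

/-- the image of the first letter -/
def tA : Equiv.Perm (Fin 1755) := prodW g2 wA
/-- the image of the second letter -/
def tB : Equiv.Perm (Fin 1755) := prodW g2 wB

open Cfsg.Agent.Lib.TwoF4PTab in
theorem rep_tA : RepW 11 2047 tA dA := repW_of_chk Cfsg.Agent.Lib.TwoF4PMain.ctx (by decide +kernel)
open Cfsg.Agent.Lib.TwoF4PTab in
theorem rep_tB : RepW 11 2047 tB dB := repW_of_chk Cfsg.Agent.Lib.TwoF4PMain.ctx (by decide +kernel)
open Cfsg.Agent.Lib.RuPTab in
theorem rep_cA' : RepW 12 4095 (prodW gH [140]) cA := repW_of_chk Cfsg.Agent.Lib.RuPMain.ctx (by decide +kernel)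
open Cfsg.Agent.Lib.RuPTab in
theorem rep_cB' : RepW 12 4095 (prodW gH [141]) cB := repW_of_chk Cfsg.Agent.Lib.RuPMain.ctx (by decide +kernel)

theorem rep_cA : RepW 12 4095 (gH 140) cA := by
  have h := rep_cA'
  simpa [prodW] using h
theorem rep_cB : RepW 12 4095 (gH 141) cB := by
  have h := rep_cB'
  simpa [prodW] using h

theorem tA_mem : tA ∈ grp g2 0 4 :=
  prodW_mem' (lo := 0) (hi := 4) (fun e h1 h2 => gen_mem_grp g2 h1 (by omega)) (by decide) (by decide)
theorem tB_mem : tB ∈ grp g2 0 4 :=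
  prodW_mem' (lo := 0) (hi := 4) (fun e h1 h2 => gen_mem_grp g2 h1 (by omega)) (by decide) (by decide)

/-- the embedding of the points -/
def om (j : Fin 1755) : Fin 4060 := Fin.ofNat 4060 (imW 12 4095 omT j.val)

theorem chk_om : allB 1755 11 (fun j => Nat.blt (imW 12 4095 omT j) 4060 &&
    Nat.beq (imW 12 4095 omI (imW 12 4095 omT j)) j) = true := by decide +kernel

theorem om_val (j : Fin 1755) : (om j).val = imW 12 4095 omT j.val := by
  have h := allB_spec _ _ _ (by norm_num) chk_om j.val j.isLt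
  simp only [Bool.and_eq_true, Nat.blt_eq] at h
  exact Nat.mod_eq_of_lt h.1

theorem om_inj : Function.Injective om := by
  intro a b hab
  have h1 := allB_spec _ _ _ (by norm_num) chk_om a.val a.isLt
  have h2 := allB_spec _ _ _ (by norm_num) chk_om b.val b.isLt
  simp only [Bool.and_eq_true] at h1 h2
  have h3 := Nat.eq_of_beq_eq_true h1.2
  have h4 := Nat.eq_of_beq_eq_true h2.2
  have h5 : imW 12 4095 omT a.val = imW 12 4095 omT b.val := by
    rw [← om_val, ← om_val, hab]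
  apply Fin.ext
  rw [← h3, ← h4, h5]

theorem chk_eA : allB 1755 11 (fun j => Nat.beq (imW 12 4095 cA (imW 12 4095 omT j))
    (imW 12 4095 omT (imW 11 2047 dA j))) = true := by decide +kernel
theorem chk_eB : allB 1755 11 (fun j => Nat.beq (imW 12 4095 cB (imW 12 4095 omT j))
    (imW 12 4095 omT (imW 11 2047 dB j))) = true := by decide +kernel

theorem eqA (j : Fin 1755) : gH 140 (om j) = om (tA j) := by
  apply Fin.ext
  rw [rep_cA, om_val, om_val, rep_tA]
  exact Nat.eq_of_beq_eq_true (allB_spec _ _ _ (by norm_num) chk_eA j.val j.isLt)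

theorem eqB (j : Fin 1755) : gH 141 (om j) = om (tB j) := by
  apply Fin.ext
  rw [rep_cB, om_val, om_val, rep_tB]
  exact Nat.eq_of_beq_eq_true (allB_spec _ _ _ (by norm_num) chk_eB j.val j.isLt)

theorem exists_y {x : Equiv.Perm (Fin 4060)} (hx : x ∈ grp gH 140 2) :
    ∃ y ∈ grp g2 0 4, ∀ j, x (om j) = om (y j) := by
  rw [grp, genOf] at hx
  induction hx using Subgroup.closure_induction with
  | mem x hx =>
    obtain ⟨k, hk, rfl⟩ := hx
    obtain ⟨h1, h2⟩ := List.mem_range'_1.mp hk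
    have h3 : k = 140 ∨ k = 141 := by omega
    rcases h3 with rfl | rfl
    · exact ⟨tA, tA_mem, eqA⟩
    · exact ⟨tB, tB_mem, eqB⟩
  | one => exact ⟨1, one_mem _, fun _ => rfl⟩
  | mul a b _ _ ha hb =>
    obtain ⟨y1, hy1, h1⟩ := ha
    obtain ⟨y2, hy2, h2⟩ := hb
    refine ⟨y1 * y2, mul_mem hy1 hy2, fun j => ?_⟩
    rw [Equiv.Perm.mul_apply, h2, h1, Equiv.Perm.mul_apply]
  | inv a _ ha =>
    obtain ⟨y1, hy1, h1⟩ := ha
    refine ⟨y1⁻¹, inv_mem hy1, fun j => ?_⟩
    rw [Equiv.Perm.inv_eq_iff_eq, h1]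
    simp

/-- the restriction -/
def fOf (x : grp gH 140 2) : grp g2 0 4 :=
  ⟨(exists_y x.2).choose, (exists_y x.2).choose_spec.1⟩

theorem fOf_spec (x : grp gH 140 2) (j : Fin 1755) : x.1 (om j) = om ((fOf x).1 j) :=
  (exists_y x.2).choose_spec.2 j

/-- the restriction as a homomorphism -/
def ff : grp gH 140 2 →* grp g2 0 4 := MonoidHom.mk' fOf (by
  intro a b
  apply Subtype.ext
  apply Equiv.ext
  intro j
  apply om_inj
  rw [← fOf_spec]
  show (a.1 * b.1) (om j) = om ((fOf a).1 ((fOf b).1 j))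
  rw [Equiv.Perm.mul_apply, fOf_spec, fOf_spec])

theorem word_eq (v : List ℕ) (hv : ∀ a ∈ v, a = 140 ∨ a = 141) (j : Fin 1755) :
    prodW gH v (om j) = om (prodW g2 (v.flatMap sub) j) := by
  induction v with
  | nil => rfl
  | cons a v ih =>
    have hv' : ∀ a ∈ v, a = 140 ∨ a = 141 := fun b hb => hv b (List.mem_cons_of_mem _ hb)
    rw [prodW_cons, Equiv.Perm.mul_apply, ih hv', List.flatMap_cons, prodW_append,
      Equiv.Perm.mul_apply]
    rcases hv a List.mem_cons_self with rfl | rfl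
    · exact eqA _
    · exact eqB _

theorem lift_letter {e : ℕ} (v : List ℕ) (hv : ∀ a ∈ v, a = 140 ∨ a = 141)
    (hv2 : v.all (Nat.ble 140) = true) (hf : prodW g2 (v.flatMap sub) = g2 e) :
    ∃ x : grp gH 140 2, (ff x).1 = g2 e := by
  refine ⟨⟨prodW gH v, prodW_mem (Cfsg.Agent.Lib.RuPMain.lev1).1 hv2⟩, ?_⟩
  apply Equiv.ext
  intro j
  apply om_inj
  rw [← hf, ← word_eq v hv j]
  exact (fOf_spec _ j).symm

open Cfsg.Agent.Lib.TwoF4PTab in
theorem flat0 : prodW g2 (v0.flatMap sub) = g2 0 := by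
  have h := prodW_cross (w := v0.flatMap sub) (w' := [0]) Cfsg.Agent.Lib.TwoF4PMain.ctx
    Cfsg.Agent.Lib.TwoF4PMain.ctx (by decide +kernel)
  simpa [prodW] using h
open Cfsg.Agent.Lib.TwoF4PTab in
theorem flat1 : prodW g2 (v1.flatMap sub) = g2 1 := by
  have h := prodW_cross (w := v1.flatMap sub) (w' := [1]) Cfsg.Agent.Lib.TwoF4PMain.ctx
    Cfsg.Agent.Lib.TwoF4PMain.ctx (by decide +kernel)
  simpa [prodW] using h
open Cfsg.Agent.Lib.TwoF4PTab in
theorem flat2 : prodW g2 (v2.flatMap sub) = g2 2 := by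
  have h := prodW_cross (w := v2.flatMap sub) (w' := [2]) Cfsg.Agent.Lib.TwoF4PMain.ctx
    Cfsg.Agent.Lib.TwoF4PMain.ctx (by decide +kernel)
  simpa [prodW] using h
open Cfsg.Agent.Lib.TwoF4PTab in
theorem flat3 : prodW g2 (v3.flatMap sub) = g2 3 := by
  have h := prodW_cross (w := v3.flatMap sub) (w' := [3]) Cfsg.Agent.Lib.TwoF4PMain.ctx
    Cfsg.Agent.Lib.TwoF4PMain.ctx (by decide +kernel)
  simpa [prodW] using h

theorem ff_surj : Function.Surjective ff := by
  have key : ∀ y ∈ grp g2 0 4, ∃ x : grp gH 140 2, (ff x).1 = y := by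
    intro y hy
    rw [grp, genOf] at hy
    induction hy using Subgroup.closure_induction with
    | mem y hy =>
      obtain ⟨k, hk, rfl⟩ := hy
      obtain ⟨h1, h2⟩ := List.mem_range'_1.mp hk
      have h3 : k = 0 ∨ k = 1 ∨ k = 2 ∨ k = 3 := by omega
      rcases h3 with rfl | rfl | rfl | rfl
      · exact lift_letter v0 (by decide) (by decide) flat0
      · exact lift_letter v1 (by decide) (by decide) flat1
      · exact lift_letter v2 (by decide) (by decide) flat2
      · exact lift_letter v3 (by decide) (by decide) flat3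
    | one => exact ⟨1, by rw [map_one]; rfl⟩
    | mul a b _ _ ha hb =>
      obtain ⟨x1, h1⟩ := ha
      obtain ⟨x2, h2⟩ := hb
      exact ⟨x1 * x2, by rw [map_mul, Subgroup.coe_mul, h1, h2]⟩
    | inv a _ ha =>
      obtain ⟨x1, h1⟩ := ha
      exact ⟨x1⁻¹, by rw [map_inv, Subgroup.coe_inv, h1]⟩
  rintro ⟨y, hy⟩
  obtain ⟨x, hx⟩ := key y hy
  exact ⟨x, Subtype.ext hx⟩

theorem ff_bij : Function.Bijective ff :=
  (Nat.bijective_iff_surjective_and_card ff).2 ⟨ff_surj, by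
    rw [Cfsg.Agent.Lib.RuPMain.cardH1, Cfsg.Agent.Lib.TwoF4PMain.cardH0]⟩

/-- the point stabilizer of `Ru` is `²F₄(2)` -/
def eH : grp gH 140 2 ≃* Cfsg.Lie.twistedF4 (ZMod 2) 1 :=
  (MulEquiv.ofBijective ff ff_bij).trans Cfsg.Agent.Lib.TwoF4Bridge.eG.symm

theorem main : Nonempty (↥(grp gH 140 2) ≃* Cfsg.Lie.twistedF4 (ZMod 2) 1) := ⟨eH⟩

end

end Cfsg.Agent.Lib.RuRkP3
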