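import Cfsg.Agent.Lib.RuRkB

/-!
# Subgroups of order `20480` of the point stabilizer are conjugate to the stabilizer of `p2`
-/

set_option autoImplicit false
set_option linter.unusedSectionVars false
set_option linter.unusedVariables false
set_option linter.style.haveILetI false
set_option linter.unusedSimpArgs false

namespace Cfsg.Agent.Lib.RuRkP5

open MulAction Subgroup Cfsg.Agent.Lib.RuRkB

private theorem orbit_mul_stab (G : Type*) {Ω : Type*} [Group G] [MulAction G Ω] (x : Ω) :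
    (orbit G x).ncard * Nat.card (stabilizer G x) = Nat.card G := by
  rw [← index_stabilizer, mul_comm, card_mul_index]

private theorem orbit_card_le {G Ω : Type*} [Group G] [Finite G] [MulAction G Ω]
    (S K : Subgroup G) (hSK : S ≤ K) (x : Ω) :
    Nat.card S * (orbit K x).ncard ≤ Nat.card K * (orbit S x).ncard := by
  have h1 := orbit_mul_stab K x
  have h2 := orbit_mul_stab S x
  have h3 : Nat.card (stabilizer S x) ≤ Nat.card (stabilizer K x) := by
    apply Nat.card_le_card_of_injective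
      (fun s : stabilizer S x => (⟨⟨s.1.1, hSK s.1.2⟩, s.2⟩ : stabilizer K x))
    intro a b hab
    apply Subtype.ext
    apply Subtype.ext
    have := congrArg (fun z : stabilizer K x => (z.1.1 : G)) hab
    exact this
  calc Nat.card S * (orbit K x).ncard
      = (orbit S x).ncard * Nat.card (stabilizer S x) * (orbit K x).ncard := by rw [h2]
    _ ≤ (orbit S x).ncard * Nat.card (stabilizer K x) * (orbit K x).ncard := by gcongr
    _ = Nat.card K * (orbit S x).ncard := by rw [← h1]; ring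

variable {H₀ : Subgroup (Equiv.Perm (Fin 4060))} {p2 : Fin 4060}
  {B₀ Y₁ Y₂ Y₃ Y₄ : Finset (Fin 4060)}

private theorem orbit_H₀ (D : Dat H₀ p2 B₀ Y₁ Y₂ Y₃ Y₄) :
    orbit ↥H₀ p2 = (B₀ : Set (Fin 4060)) := by
  ext y
  constructor
  · rintro ⟨h, rfl⟩
    exact D.invB h.1 h.2 p2 D.p2B
  · intro hy
    obtain ⟨h, hh, rfl⟩ := D.trB y hy
    exact ⟨⟨h, hh⟩, rfl⟩

private theorem card_stab (D : Dat H₀ p2 B₀ Y₁ Y₂ Y₃ Y₄) (hH : Nat.card H₀ = 35942400) :
    Nat.card (stabilizer ↥H₀ p2) = 20480 := by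
  have h2 : (orbit ↥H₀ p2).ncard = 1755 := by
    rw [orbit_H₀ D, Set.ncard_coe_finset, D.cardB]
  have := orbit_mul_stab ↥H₀ p2
  rw [h2, hH] at this
  omega

open Classical in
private theorem five_false (D : Dat H₀ p2 B₀ Y₁ Y₂ Y₃ Y₄) (hH : Nat.card H₀ = 35942400)
    (hcl : ∀ x ∈ Y₁, (Y₁.filter (fun w => ∃ h : H₀, h.1 p2 = x ∧ h.1⁻¹ w ∈ Y₁)).card ≤ 1)
    (X' : Subgroup H₀) (hX' : Nat.card X' = 20480) (h5 : (orbit ↥X' p2).ncard = 5) : False := by
  have hstab := card_stab D hH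
  have hS0 : Nat.card (stabilizer ↥X' p2) = 4096 := by
    have := orbit_mul_stab ↥X' p2
    rw [h5, hX'] at this
    omega
  let S : Subgroup H₀ := (stabilizer ↥X' p2).map X'.subtype
  have hS : Nat.card S = 4096 := by
    rw [card_map_of_injective X'.subtype_injective]
    exact hS0
  have hSK : S ≤ stabilizer ↥H₀ p2 := by
    rintro s ⟨s₀, hs₀, rfl⟩
    exact hs₀
  have hpW : p2 ∈ orbit ↥X' p2 := mem_orbit_self p2
  have hWB : ∀ x ∈ orbit ↥X' p2, x ∈ B₀ := by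
    rintro x ⟨k, rfl⟩
    exact D.invB _ k.1.2 _ D.p2B
  have hWinv : ∀ k : X', ∀ x ∈ orbit ↥X' p2, (k.1.1 : Equiv.Perm (Fin 4060)) x ∈ orbit ↥X' p2 := by
    rintro k x ⟨j, rfl⟩
    exact ⟨k * j, rfl⟩
  have hW4 : (orbit ↥X' p2 \ {p2}).ncard = 4 := by
    rw [Set.ncard_sdiff_singleton_of_mem hpW, h5]
  -- all non-`p2` points of the orbit lie in `Y₁`
  have hW1 : ∀ x ∈ orbit ↥X' p2, x ≠ p2 → x ∈ Y₁ := by
    intro x hx hne
    have hxB : x ∈ B₀ := hWB x hx
    have hS4 : (orbit S x).ncard ≤ 4 := by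
      rw [← hW4]
      apply Set.ncard_le_ncard _ (Set.toFinite _)
      rintro z ⟨⟨s, hs⟩, rfl⟩
      obtain ⟨s₀, hs₀, rfl⟩ := hs
      refine ⟨hWinv s₀ x hx, ?_⟩
      intro he
      apply hne
      have h1 : (s₀.1.1 : Equiv.Perm (Fin 4060)) p2 = p2 := hs₀
      have h2 : (s₀.1.1 : Equiv.Perm (Fin 4060)) x = p2 := he
      exact (s₀.1.1 : Equiv.Perm (Fin 4060)).injective (h2.trans h1.symm)
    have hK := orbit_card_le S (stabilizer ↥H₀ p2) hSK x
    rw [hS, hstab] at hK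
    have hK20 : (orbit (stabilizer ↥H₀ p2) x).ncard ≤ 20 := by omega
    have key : ∀ Y : Finset (Fin 4060), (∀ y ∈ Y, ∃ h ∈ H₀, h p2 = p2 ∧ h x = y) → Y.card ≤ 20 := by
      intro Y hY
      refine le_trans ?_ hK20
      rw [← Set.ncard_coe_finset]
      apply Set.ncard_le_ncard _ (Set.toFinite _)
      intro y hy
      obtain ⟨h, hh, h1, h2⟩ := hY y hy
      exact ⟨⟨⟨h, hh⟩, h1⟩, h2⟩
    rcases D.cover x hxB with h | h | h | h | h
    · exact absurd h hne
    · exact h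
    · have := key Y₂ (D.t2 x h)
      rw [D.c2] at this
      omega
    · have := key Y₃ (D.t3 x h)
      rw [D.c3] at this
      omega
    · have := key Y₄ (D.t4 x h)
      rw [D.c4] at this
      omega
  -- the contradiction
  obtain ⟨x, hxW, hxne⟩ : (orbit ↥X' p2 \ {p2}).Nonempty := by
    apply Set.nonempty_of_ncard_ne_zero
    omega
  have hxne' : x ≠ p2 := hxne
  have hx1 := hW1 x hxW hxne'
  obtain ⟨k, hk⟩ := hxW
  have hk' : (k.1.1 : Equiv.Perm (Fin 4060)) p2 = x := hk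
  have hT : ((orbit ↥X' p2 \ {p2}) \ {x}).ncard = 3 := by
    rw [Set.ncard_sdiff_singleton_of_mem (show x ∈ orbit ↥X' p2 \ {p2} from ⟨⟨k, hk⟩, hxne⟩), hW4]
  have hle : ((orbit ↥X' p2 \ {p2}) \ {x}).ncard ≤
      (Y₁.filter (fun w => ∃ h : H₀, h.1 p2 = x ∧ h.1⁻¹ w ∈ Y₁)).card := by
    rw [← Set.ncard_coe_finset]
    apply Set.ncard_le_ncard _ (Set.toFinite _)
    rintro w ⟨⟨hwW, hw2⟩, hwx⟩
    have hw2' : w ≠ p2 := hw2
    have hwx' : w ≠ x := hwx
    have hw1 := hW1 w hwW hw2'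
    rw [Finset.mem_coe, Finset.mem_filter]
    refine ⟨hw1, ⟨k.1, hk', ?_⟩⟩
    apply hW1
    · have := hWinv k⁻¹ w hwW
      exact this
    · intro he
      apply hwx'
      have : w = (k.1.1 : Equiv.Perm (Fin 4060)) p2 := by
        rw [← he]
        simp
      rw [this, hk']
  have := hcl x hx1
  omega

open Classical in
/-- Every subgroup of order `20480` of `H₀` is conjugate to the stabilizer of `p2`. -/
theorem exists_conj_stab (D : Dat H₀ p2 B₀ Y₁ Y₂ Y₃ Y₄) (hH : Nat.card H₀ = 35942400)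
    (hcl : ∀ x ∈ Y₁, (Y₁.filter (fun w => ∃ h : H₀, h.1 p2 = x ∧ h.1⁻¹ w ∈ Y₁)).card ≤ 1)
    (X : Subgroup H₀) (hX : Nat.card X = 20480) :
    ∃ t : H₀, ∀ h : H₀, h ∈ X ↔ (t * h * t⁻¹).1 p2 = p2 := by
  haveI : Fact (Nat.Prime 2) := ⟨by norm_num⟩
  -- a `2`-Sylow subgroup of `X` fixes a point of `B₀`
  let Q : Sylow 2 X := default
  have hQ4096 : 2 ^ 12 ∣ Nat.card (Q : Subgroup X) := by
    apply Q.pow_dvd_card_of_pow_dvd_card
    rw [hX]
    norm_num
  have hα : Nat.card (orbit ↥H₀ p2) = 1755 := by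
    rw [Nat.card_coe_set_eq, orbit_H₀ D, Set.ncard_coe_finset, D.cardB]
  have hfix := Q.isPGroup'.card_modEq_card_fixedPoints (orbit ↥H₀ p2)
  rw [hα] at hfix
  have hne : Nat.card (fixedPoints (Q : Subgroup X) (orbit ↥H₀ p2)) ≠ 0 := by
    intro h0
    rw [h0] at hfix
    exact absurd hfix (by decide)
  obtain ⟨⟨y, hy⟩⟩ : Nonempty (fixedPoints (Q : Subgroup X) (orbit ↥H₀ p2)) :=
    (Finite.card_pos_iff.1 (Nat.pos_of_ne_zero hne))
  obtain ⟨y', hy'⟩ := y
  have hQle : (Q : Subgroup X) ≤ stabilizer ↥X y' := by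
    intro q hq
    have h1 := hy ⟨q, hq⟩
    have h2 := congrArg Subtype.val h1
    exact h2
  have hm : (orbit ↥X y').ncard = 1 ∨ (orbit ↥X y').ncard = 5 := by
    have h1 := orbit_mul_stab ↥X y'
    rw [hX] at h1
    have h2 : (4096 : ℕ) ∣ Nat.card (stabilizer ↥X y') :=
      dvd_trans (by simpa using hQ4096) (card_dvd_of_le hQle)
    obtain ⟨c, hc⟩ := h2
    rw [hc] at h1
    have h3 : (orbit ↥X y').ncard * c = 5 := by nlinarith
    have h4 : (orbit ↥X y').ncard ∣ 5 := ⟨c, h3.symm⟩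
    exact (Nat.dvd_prime (by norm_num)).1 h4
  -- transport to `p2`
  obtain ⟨h₁, hh₁⟩ := hy'
  let t : H₀ := h₁⁻¹
  have ht : t • y' = p2 := by
    rw [← hh₁]
    exact inv_smul_smul h₁ p2
  let X' : Subgroup H₀ := X.map (MulAut.conj t).toMonoidHom
  have hX' : Nat.card X' = 20480 := by
    rw [card_map_of_injective (MulAut.conj t).injective, hX]
  have hmemX' : ∀ h : H₀, h ∈ X ↔ t * h * t⁻¹ ∈ X' := by
    intro h
    constructor
    · intro hh
      exact ⟨h, hh, rfl⟩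
    · rintro ⟨k, hk, he⟩
      have : k = h := by
        have h1 : t * k * t⁻¹ = t * h * t⁻¹ := he
        simpa using h1
      rwa [← this]
  have horb : orbit ↥X' p2 = (fun z => t • z) '' orbit ↥X y' := by
    ext z
    constructor
    · rintro ⟨⟨k, hk⟩, rfl⟩
      obtain ⟨k₀, hk₀, rfl⟩ := hk
      refine ⟨(⟨k₀, hk₀⟩ : X) • y', ⟨⟨k₀, hk₀⟩, rfl⟩, ?_⟩
      show t • (k₀ • y') = (t * k₀ * t⁻¹) • p2
      rw [← ht, mul_smul, mul_smul, inv_smul_smul]
    · rintro ⟨w, ⟨k, rfl⟩, rfl⟩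
      refine ⟨⟨t * k.1 * t⁻¹, k.1, k.2, rfl⟩, ?_⟩
      show (t * k.1 * t⁻¹) • p2 = t • (k.1 • y')
      rw [← ht, mul_smul, mul_smul, inv_smul_smul]
  have hinj : Function.Injective (fun z : Fin 4060 => t • z) := MulAction.injective t
  have hm' : (orbit ↥X' p2).ncard = 1 ∨ (orbit ↥X' p2).ncard = 5 := by
    rw [horb, Set.ncard_image_of_injective _ hinj]
    exact hm
  have h1case : (orbit ↥X' p2).ncard = 1 := by
    rcases hm' with h | h
    · exact h
    · exact (five_false D hH hcl X' hX' h).elim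
  have hXle : X' ≤ stabilizer ↥H₀ p2 := by
    intro k hk
    obtain ⟨w, hw⟩ := Set.ncard_eq_one.1 h1case
    have h2 : p2 ∈ orbit ↥X' p2 := mem_orbit_self p2
    have h3 : (⟨k, hk⟩ : X') • p2 ∈ orbit ↥X' p2 := mem_orbit p2 _
    rw [hw] at h2 h3
    have h4 : p2 = w := h2
    have h5 : (⟨k, hk⟩ : X') • p2 = w := h3
    exact h5.trans h4.symm
  have hEq : X' = stabilizer ↥H₀ p2 :=
    eq_of_le_of_card_ge hXle (by rw [card_stab D hH, hX'])
  refine ⟨t, fun h => ?_⟩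
  rw [hmemX', hEq]
  exact Iff.rfl

end Cfsg.Agent.Lib.RuRkP5
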