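import Cfsg.Agent.Lib.RuRkP6C

/-!
# The orbits of subgroups of the point stabilizer of `Ru` on `4060` points: the results
-/

set_option autoImplicit false
set_option maxRecDepth 100000
set_option linter.unusedSectionVars false
set_option linter.unusedVariables false
set_option linter.style.haveILetI false
set_option linter.unusedSimpArgs false

namespace Cfsg.Agent.Lib.RuRkP6

open Cfsg.Agent.Lib.ChainCert Cfsg.Agent.Lib.ProgBits Cfsg.Agent.Lib.ProgChain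
  Cfsg.Agent.Lib.PermChain Cfsg.Agent.Lib.SparseDfs Cfsg.Agent.Lib.RuRkP6D
  Cfsg.Agent.Lib.RuRkP6C Cfsg.Agent.Lib.RuMain


/-! ### the results -/

theorem eq_two {y : Fin 4060} : y.val = 2 ↔ y = 2 := by
  constructor
  · intro h
    exact Fin.ext h
  · rintro rfl
    rfl

theorem eq_one' {y : Fin 4060} : y.val = 1 ↔ y = 1 := by
  constructor
  · intro h
    exact Fin.ext h
  · rintro rfl
    rfl

theorem eq_zero' {y : Fin 4060} : y.val = 0 ↔ y = 0 := by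
  constructor
  · intro h
    exact Fin.ext h
  · rintro rfl
    rfl

theorem f_trB_Bm : ∀ y ∈ mk Bm, ∃ h ∈ grp gH 140 2, h 2 = y := by
  have := rH (m := Bm) (r' := 2) (d := 14) (by norm_num) c_B
  exact this

theorem f_invB_Bm : ∀ h ∈ grp gH 140 2, ∀ y ∈ mk Bm, h y ∈ mk Bm := by
  have := iH (m := Bm) s_B
  exact this

theorem f_t1_Y1m : ∀ x ∈ mk Y1m, ∀ y ∈ mk Y1m, ∃ h ∈ grp gH 140 2, h 2 = 2 ∧ h x = y := by
  have := tK (m := Y1m) (r' := 411) (d := 4) (by norm_num) c_Y1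
  exact this

theorem f_t2_Y2m : ∀ x ∈ mk Y2m, ∀ y ∈ mk Y2m, ∃ h ∈ grp gH 140 2, h 2 = 2 ∧ h x = y := by
  have := tK (m := Y2m) (r' := 93) (d := 8) (by norm_num) c_Y2
  exact this

theorem f_t3_Y3m : ∀ x ∈ mk Y3m, ∀ y ∈ mk Y3m, ∃ h ∈ grp gH 140 2, h 2 = 2 ∧ h x = y := by
  have := tK (m := Y3m) (r' := 6) (d := 12) (by norm_num) c_Y3
  exact this

theorem f_t4_Y4m : ∀ x ∈ mk Y4m, ∀ y ∈ mk Y4m, ∃ h ∈ grp gH 140 2, h 2 = 2 ∧ h x = y := by
  have := tK (m := Y4m) (r' := 10) (d := 12) (by norm_num) c_Y4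
  exact this

theorem f_i1_Y1m : ∀ h ∈ grp gH 140 2, h 2 = 2 → ∀ y ∈ mk Y1m, h y ∈ mk Y1m := by
  have := iK (m := Y1m) s_Y1
  exact this

theorem f_i2_Y2m : ∀ h ∈ grp gH 140 2, h 2 = 2 → ∀ y ∈ mk Y2m, h y ∈ mk Y2m := by
  have := iK (m := Y2m) s_Y2
  exact this

theorem f_i3_Y3m : ∀ h ∈ grp gH 140 2, h 2 = 2 → ∀ y ∈ mk Y3m, h y ∈ mk Y3m := by
  have := iK (m := Y3m) s_Y3
  exact this

theorem f_trC_Cm : ∀ y ∈ mk Cm, ∃ h ∈ grp gH 140 2, h 1 = y := by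
  have := rH (m := Cm) (r' := 1) (d := 14) (by norm_num) c_C
  exact this

theorem f_invC_Cm : ∀ h ∈ grp gH 140 2, ∀ y ∈ mk Cm, h y ∈ mk Cm := by
  have := iH (m := Cm) s_C
  exact this

theorem f_tZ1_Z1m : ∀ x ∈ mk Z1m, ∀ y ∈ mk Z1m, ∃ h ∈ grp gH 140 2, h 2 = 2 ∧ h x = y := by
  have := tK (m := Z1m) (r' := 1) (d := 13) (by norm_num) c_Z1
  exact this

theorem f_tZ2_Z2m : ∀ x ∈ mk Z2m, ∀ y ∈ mk Z2m, ∃ h ∈ grp gH 140 2, h 2 = 2 ∧ h x = y := by
  have := tK (m := Z2m) (r' := 3) (d := 13) (by norm_num) c_Z2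
  exact this

theorem f_tV1_V1m : ∀ x ∈ mk V1m, ∀ y ∈ mk V1m, ∃ h ∈ grp gH 140 2, h 1 = 1 ∧ h x = y := by
  have := tL (m := V1m) (r' := 2) (d := 12) (by norm_num) c_V1
  exact this

theorem f_tV2_V2m : ∀ x ∈ mk V2m, ∀ y ∈ mk V2m, ∃ h ∈ grp gH 140 2, h 1 = 1 ∧ h x = y := by
  have := tL (m := V2m) (r' := 6) (d := 13) (by norm_num) c_V2
  exact this

theorem f_tW1_W1m : ∀ x ∈ mk W1m, ∀ y ∈ mk W1m, ∃ h ∈ grp gH 140 2, h 1 = 1 ∧ h x = y := by
  have := tL (m := W1m) (r' := 39) (d := 8) (by norm_num) c_W1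
  exact this

theorem f_tW2_W2m : ∀ x ∈ mk W2m, ∀ y ∈ mk W2m, ∃ h ∈ grp gH 140 2, h 1 = 1 ∧ h x = y := by
  have := tL (m := W2m) (r' := 3) (d := 11) (by norm_num) c_W2
  exact this

theorem f_tW3_W3m : ∀ x ∈ mk W3m, ∀ y ∈ mk W3m, ∃ h ∈ grp gH 140 2, h 1 = 1 ∧ h x = y := by
  have := tL (m := W3m) (r' := 5) (d := 10) (by norm_num) c_W3
  exact this

theorem f_tW4_W4m : ∀ x ∈ mk W4m, ∀ y ∈ mk W4m, ∃ h ∈ grp gH 140 2, h 1 = 1 ∧ h x = y := by
  have := tL (m := W4m) (r' := 9) (d := 12) (by norm_num) c_W4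
  exact this

theorem f_tW5_W5m : ∀ x ∈ mk W5m, ∀ y ∈ mk W5m, ∃ h ∈ grp gH 140 2, h 1 = 1 ∧ h x = y := by
  have := tL (m := W5m) (r' := 4) (d := 13) (by norm_num) c_W5
  exact this

/-- the data for the orbit of the point `2` -/
theorem dat : Cfsg.Agent.Lib.RuRkB.Dat (grp gH 140 2) 2 (mk Bm) (mk Y1m) (mk Y2m) (mk Y3m) (mk Y4m) where
  p2B := by
    rw [mem_mk]
    decide +kernel
  trB := f_trB_Bm
  invB := f_invB_Bm
  cardB := by
    rw [card_mk]
    decide +kernel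
  cover := by
    intro y hy
    rw [e_B, mem_mk_lor, mem_mk_pow, mem_mk_lor, mem_mk_lor, mem_mk_lor, eq_two] at hy
    exact hy
  sub := by
    intro y hy
    have h1 : y ∈ mk (Nat.lor Y1m (Nat.lor Y2m (Nat.lor Y3m Y4m))) := by
      rw [mem_mk_lor, mem_mk_lor, mem_mk_lor]
      exact hy
    refine ⟨?_, ?_⟩
    · rw [e_B, mem_mk_lor]
      exact Or.inr h1
    · rintro rfl
      exact Finset.disjoint_left.1 (disj_mk e_B2) (mem_mk_pow.2 rfl) h1
  d12 := disj_mk (a := Y1m) (b := Y2m) (by decide +kernel)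
  d13 := disj_mk (a := Y1m) (b := Y3m) (by decide +kernel)
  d14 := disj_mk (a := Y1m) (b := Y4m) (by decide +kernel)
  d23 := disj_mk (a := Y2m) (b := Y3m) (by decide +kernel)
  d24 := disj_mk (a := Y2m) (b := Y4m) (by decide +kernel)
  d34 := disj_mk (a := Y3m) (b := Y4m) (by decide +kernel)
  c1 := by
    rw [card_mk]
    decide +kernel
  c2 := by
    rw [card_mk]
    decide +kernel
  c3 := by
    rw [card_mk]
    decide +kernel
  c4 := by
    rw [card_mk]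
    decide +kernel
  t1 := f_t1_Y1m
  t2 := f_t2_Y2m
  t3 := f_t3_Y3m
  t4 := f_t4_Y4m
  i1 := f_i1_Y1m
  i2 := f_i2_Y2m
  i3 := f_i3_Y3m

/-- the data for the orbit of the point `1` -/
theorem dat3 : Cfsg.Agent.Lib.RuRkE.Dat3 (grp gH 140 2) 0 1 2 (mk Bm) (mk Cm) (mk Z1m) (mk Z2m)
    (mk V1m) (mk V2m) (mk W1m) (mk W2m) (mk W3m) (mk W4m) (mk W5m) where
  p1C := by
    rw [mem_mk]
    decide +kernel
  cardC := by
    rw [card_mk]
    decide +kernel
  trC := f_trC_Cm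
  invC := f_invC_Cm
  cov := by
    intro x
    have h1 : x ∈ mk (2 ^ 4060 - 1) := by
      rw [mem_mk, Nat.testBit_two_pow_sub_one]
      simp
    rw [← e_all, mem_mk_lor, mem_mk_pow, mem_mk_lor, eq_zero'] at h1
    exact h1
  p0B := by
    rw [mem_mk]
    decide +kernel
  p0C := by
    rw [mem_mk]
    decide +kernel
  dBC := disj_mk (a := Bm) (b := Cm) (by decide +kernel)
  fix0 := fun h hh => (Cfsg.Agent.Lib.RuPMain.lev0).2.fix h hh
  zcov := by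
    intro y hy
    rw [e_C, mem_mk_lor] at hy
    exact hy
  zsub := by
    intro y hy
    rw [e_C, mem_mk_lor]
    exact hy
  dZ := disj_mk (a := Z1m) (b := Z2m) (by decide +kernel)
  cZ1 := by
    rw [card_mk]
    decide +kernel
  cZ2 := by
    rw [card_mk]
    decide +kernel
  tZ1 := f_tZ1_Z1m
  tZ2 := f_tZ2_Z2m
  vcov := by
    intro y hy
    rw [e_BV, mem_mk_lor] at hy
    exact hy
  vsub := by
    intro y hy
    rw [e_BV, mem_mk_lor]
    exact hy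
  dV := disj_mk (a := V1m) (b := V2m) (by decide +kernel)
  cV1 := by
    rw [card_mk]
    decide +kernel
  cV2 := by
    rw [card_mk]
    decide +kernel
  tV1 := f_tV1_V1m
  tV2 := f_tV2_V2m
  wcov := by
    intro y hy
    rw [e_CW, mem_mk_lor, mem_mk_pow, mem_mk_lor, mem_mk_lor, mem_mk_lor, mem_mk_lor, eq_one'] at hy
    exact hy
  wsub := by
    intro y hy
    have h1 : y ∈ mk (Nat.lor W1m (Nat.lor W2m (Nat.lor W3m (Nat.lor W4m W5m)))) := by
      rw [mem_mk_lor, mem_mk_lor, mem_mk_lor, mem_mk_lor]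
      exact hy
    refine ⟨?_, ?_⟩
    · rw [e_CW, mem_mk_lor]
      exact Or.inr h1
    · rintro rfl
      exact Finset.disjoint_left.1 (disj_mk e_CW2) (mem_mk_pow.2 rfl) h1
  d12 := disj_mk (a := W1m) (b := W2m) (by decide +kernel)
  d13 := disj_mk (a := W1m) (b := W3m) (by decide +kernel)
  d14 := disj_mk (a := W1m) (b := W4m) (by decide +kernel)
  d15 := disj_mk (a := W1m) (b := W5m) (by decide +kernel)
  d23 := disj_mk (a := W2m) (b := W3m) (by decide +kernel)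
  d24 := disj_mk (a := W2m) (b := W4m) (by decide +kernel)
  d25 := disj_mk (a := W2m) (b := W5m) (by decide +kernel)
  d34 := disj_mk (a := W3m) (b := W4m) (by decide +kernel)
  d35 := disj_mk (a := W3m) (b := W5m) (by decide +kernel)
  d45 := disj_mk (a := W4m) (b := W5m) (by decide +kernel)
  cW1 := by
    rw [card_mk]
    decide +kernel
  cW2 := by
    rw [card_mk]
    decide +kernel
  cW3 := by
    rw [card_mk]
    decide +kernel
  cW4 := by
    rw [card_mk]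
    decide +kernel
  cW5 := by
    rw [card_mk]
    decide +kernel
  tW1 := f_tW1_W1m
  tW2 := f_tW2_W2m
  tW3 := f_tW3_W3m
  tW4 := f_tW4_W4m
  tW5 := f_tW5_W5m

/-- the check for the last fact -/
def cP (z : ℕ) : Bool :=
  cond (Nat.beq (bit Y1m z) 1)
    (cond (Nat.beq (bit Y1m (im Th z)) 1) (Nat.beq (im Th z) 2751) true) true

theorem cP_all : ∀ i, i < 4060 → cP i = true :=
  of_guard (k := 12) (by norm_num) (by decide +kernel)

theorem hcl_aux {z : Fin 4060} (hz : z ∈ mk Y1m) (hz' : e0 z ∈ mk Y1m) : e0 z = 2751 := by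
  have h1 := cP_all z.val z.isLt
  rw [mem_mk] at hz hz'
  have h2 : (e0 z).val = im Th z.val := rep_h z
  rw [h2] at hz'
  rw [cP, beq_bit, hz, cond_true, beq_bit, hz', cond_true] at h1
  refine Fin.ext ?_
  rw [h2]
  exact Nat.eq_of_beq_eq_true h1

theorem mem_411 : (411 : Fin 4060) ∈ mk Y1m := by
  rw [mem_mk]
  decide +kernel

open Classical in
/-- the graph on the first orbit -/
theorem hcl : ∀ x ∈ mk Y1m,
    ((mk Y1m).filter (fun w => ∃ h : (grp gH 140 2 : Subgroup (Equiv.Perm (Fin 4060))),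
      h.1 2 = x ∧ h.1⁻¹ w ∈ mk Y1m)).card ≤ 1 := by
  intro x hx
  have t1 := dat.t1
  obtain ⟨k, hkH, hk2, hkx⟩ := t1 411 mem_411 x hx
  have i1 := dat.i1
  have hk2' : k⁻¹ 2 = 2 := by
    rw [Equiv.Perm.inv_eq_iff_eq]
    exact hk2.symm
  have hkx' : k⁻¹ x = 411 := by
    rw [Equiv.Perm.inv_eq_iff_eq]
    exact hkx.symm
  have h0H : e0 ∈ grp gH 140 2 := wordH (by decide)
  have h02 : e0⁻¹ 411 = 2 := by
    rw [Equiv.Perm.inv_eq_iff_eq]
    exact h_2.symm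
  have key : ∀ w ∈ (mk Y1m).filter (fun w => ∃ h : (grp gH 140 2 : Subgroup (Equiv.Perm (Fin 4060))),
      h.1 2 = x ∧ h.1⁻¹ w ∈ mk Y1m), k⁻¹ w = 2751 := by
    intro w hw
    rw [Finset.mem_filter] at hw
    obtain ⟨hwY, h, hh2, hhw⟩ := hw
    have h1 : k⁻¹ w ∈ mk Y1m := i1 k⁻¹ (Subgroup.inv_mem _ hkH) hk2' w hwY
    have h'H : e0⁻¹ * k⁻¹ * h.1 ∈ grp gH 140 2 :=
      Subgroup.mul_mem _ (Subgroup.mul_mem _ (Subgroup.inv_mem _ h0H) (Subgroup.inv_mem _ hkH)) h.2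
    have h'2 : (e0⁻¹ * k⁻¹ * h.1) 2 = 2 := by
      rw [Equiv.Perm.mul_apply, Equiv.Perm.mul_apply, hh2, hkx', h02]
    have h2 := i1 _ h'H h'2 _ hhw
    have h3 : (e0⁻¹ * k⁻¹ * h.1) (h.1⁻¹ w) = e0⁻¹ (k⁻¹ w) := by
      rw [Equiv.Perm.mul_apply, Equiv.Perm.mul_apply, app_inv]
    rw [h3] at h2
    have h4 : e0 (e0⁻¹ (k⁻¹ w)) = k⁻¹ w := app_inv _ _
    have h5 := hcl_aux h2 (by rw [h4]; exact h1)
    rw [h4] at h5
    exact h5
  apply Finset.card_le_one.2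
  intro a ha b hb
  exact (k⁻¹).injective ((key a ha).trans (key b hb).symm)

end Cfsg.Agent.Lib.RuRkP6
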