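import Cfsg.Agent.Lib.RuMain
import Cfsg.Agent.Lib.RuRkE
import Cfsg.Agent.Lib.SparseDfs
import Cfsg.Agent.Lib.RuRkP6D

/-!
# The orbits of subgroups of the point stabilizer of `Ru` on `4060` points

The facts `Dat` and `Dat3` of `RuRkB`, `RuRkE` for the stabilizer `grp gH 140 2`, checked on masks of points
by a closure computation with tables of two generators.
-/

set_option autoImplicit false
set_option maxRecDepth 100000
set_option linter.unusedSectionVars false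
set_option linter.unusedVariables false
set_option linter.style.haveILetI false
set_option linter.unusedSimpArgs false

namespace Cfsg.Agent.Lib.RuRkP6C

open Cfsg.Agent.Lib.ChainCert Cfsg.Agent.Lib.ProgBits Cfsg.Agent.Lib.ProgChain
  Cfsg.Agent.Lib.PermChain Cfsg.Agent.Lib.SparseDfs Cfsg.Agent.Lib.RuRkP6D

theorem app_inv (g : Equiv.Perm (Fin 4060)) (x : Fin 4060) : g (g⁻¹ x) = x := g.apply_symm_apply x

theorem inv_app (g : Equiv.Perm (Fin 4060)) (x : Fin 4060) : g⁻¹ (g x) = x := g.symm_apply_apply x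

/-- the set of points of a mask -/
def mk (m : ℕ) : Finset (Fin 4060) := Finset.univ.filter (fun x => m.testBit x.val)

theorem mem_mk {m : ℕ} {x : Fin 4060} : x ∈ mk m ↔ m.testBit x.val = true := by
  simp [mk]

theorem mem_mk_lor {a b : ℕ} {x : Fin 4060} : x ∈ mk (Nat.lor a b) ↔ x ∈ mk a ∨ x ∈ mk b := by
  simp only [mem_mk]
  show (a ||| b).testBit x.val = true ↔ _
  rw [Nat.testBit_or, Bool.or_eq_true]

theorem mem_mk_pow {r : ℕ} {x : Fin 4060} : x ∈ mk (Nat.pow 2 r) ↔ x.val = r := by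
  rw [mem_mk]
  show (2 ^ r).testBit x.val = true ↔ _
  rw [Nat.testBit_two_pow]
  simp [eq_comm]

theorem disj_mk {a b : ℕ} (h : Nat.land a b = 0) : Disjoint (mk a) (mk b) := by
  rw [Finset.disjoint_left]
  intro x ha hb
  have h1 : (a &&& b).testBit x.val = (a.testBit x.val && b.testBit x.val) := Nat.testBit_and ..
  rw [mem_mk] at ha hb
  rw [ha, hb] at h1
  have h2 : (a &&& b) = 0 := h
  rw [h2] at h1
  simp at h1

theorem card_mk (m : ℕ) : (mk m).card = cntB (fun i => m.testBit i) 4060 :=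
  card_filter_eq_cntB _ 4060

/-! ### closure computations -/

/-- a field of a table -/
def im (t p : ℕ) : ℕ := imW 12 4095 t p

/-- a bit -/
def bit (S p : ℕ) : ℕ := Nat.land (Nat.shiftRight S p) 1

theorem beq_bit (S p : ℕ) : Nat.beq (bit S p) 1 = S.testBit p := by
  have h4 : bit S p = (S >>> p) &&& 1 := rfl
  rw [h4, Nat.and_one_is_mod]
  have h5 : (S >>> p) % 2 = (S.testBit p).toNat := by
    rw [Nat.testBit, Nat.and_comm, Nat.and_one_is_mod]
    rcases Nat.mod_two_eq_zero_or_one (S >>> p) with h | h <;> simp [h, bne]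
  rw [h5]
  cases S.testBit p <;> rfl

/-- the union over a range of length `2 ^ k` -/
def orR (f : ℕ → ℕ) : ℕ → ℕ → ℕ
  | 0, lo => f lo
  | k + 1, lo => Nat.lor (orR f k lo) (letN (Nat.add lo (Nat.shiftLeft 1 k)) fun m => orR f k m)

theorem testBit_orR (f : ℕ → ℕ) (i : ℕ) : ∀ (k lo : ℕ),
    (orR f k lo).testBit i = true ↔ ∃ p, lo ≤ p ∧ p < lo + 2 ^ k ∧ (f p).testBit i = true := by
  intro k
  induction k with
  | zero =>
    intro lo
    constructor
    · intro h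
      exact ⟨lo, le_rfl, by simp, h⟩
    · rintro ⟨p, h1, h2, h3⟩
      have : p = lo := by
        simp at h2
        omega
      subst this
      exact h3
  | succ k ih =>
    intro lo
    have h3 : Nat.add lo (Nat.shiftLeft 1 k) = lo + 2 ^ k := by
      show lo + Nat.shiftLeft 1 k = _
      rw [show Nat.shiftLeft 1 k = 1 <<< k from rfl, Nat.shiftLeft_eq, one_mul]
    have e : orR f (k + 1) lo = (orR f k lo) ||| (orR f k (lo + 2 ^ k)) := by
      simp only [orR, letN_eq]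
      rw [h3]
      rfl
    rw [e, Nat.testBit_or, Bool.or_eq_true, ih, ih]
    constructor
    · rintro (⟨p, h1, h2, h4⟩ | ⟨p, h1, h2, h4⟩)
      · exact ⟨p, h1, by rw [pow_succ]; omega, h4⟩
      · exact ⟨p, by omega, by rw [pow_succ]; omega, h4⟩
    · rintro ⟨p, h1, h2, h4⟩
      by_cases h5 : p < lo + 2 ^ k
      · exact Or.inl ⟨p, h1, h5, h4⟩
      · exact Or.inr ⟨p, by omega, by rw [pow_succ] at h2; omega, h4⟩

/-- the images of the point `p` of `S` -/
def fS (a b S p : ℕ) : ℕ :=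
  cond (Nat.beq (bit S p) 1) (Nat.lor (Nat.pow 2 (im a p)) (Nat.pow 2 (im b p))) 0

/-- one round of the closure -/
def step (a b S : ℕ) : ℕ := Nat.lor S (orR (fS a b S) 12 0)

/-- some rounds of the closure -/
def iter (a b : ℕ) : ℕ → ℕ → ℕ
  | 0, S => S
  | k + 1, S => letN (step a b S) (iter a b k)

theorem testBit_fS {a b S p q : ℕ} :
    (fS a b S p).testBit q = true ↔ S.testBit p = true ∧ (q = im a p ∨ q = im b p) := by
  unfold fS
  rw [beq_bit]
  cases S.testBit p with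
  | false => simp
  | true =>
    simp only [cond_true, true_and]
    show ((2 ^ im a p) ||| (2 ^ im b p)).testBit q = true ↔ _
    rw [Nat.testBit_or, Nat.testBit_two_pow, Nat.testBit_two_pow, Bool.or_eq_true,
      decide_eq_true_eq, decide_eq_true_eq]
    exact or_congr eq_comm eq_comm

theorem testBit_step {a b S q : ℕ} :
    (step a b S).testBit q = true ↔
      S.testBit q = true ∨ ∃ p, p < 4096 ∧ S.testBit p = true ∧ (q = im a p ∨ q = im b p) := by
  show (S ||| orR (fS a b S) 12 0).testBit q = true ↔ _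
  rw [Nat.testBit_or, Bool.or_eq_true, testBit_orR]
  constructor
  · rintro (h | ⟨p, -, h2, h3⟩)
    · exact Or.inl h
    · exact Or.inr ⟨p, by simpa using h2, testBit_fS.1 h3⟩
  · rintro (h | ⟨p, h2, h3⟩)
    · exact Or.inl h
    · exact Or.inr ⟨p, Nat.zero_le _, by simpa using h2, testBit_fS.2 h3⟩

variable {K : Subgroup (Equiv.Perm (Fin 4060))} {ga gb : Equiv.Perm (Fin 4060)} {a b : ℕ}

/-- all bits of `S` are points in the orbit of `r` -/
def Good (K : Subgroup (Equiv.Perm (Fin 4060))) (r : Fin 4060) (S : ℕ) : Prop :=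
  ∀ p, S.testBit p = true → ∃ x : Fin 4060, x.val = p ∧ ∃ h ∈ K, h r = x

theorem good_step (hga : ga ∈ K) (hgb : gb ∈ K) (ha : RepW 12 4095 ga a) (hb : RepW 12 4095 gb b)
    {r : Fin 4060} {S : ℕ} (hS : Good K r S) : Good K r (step a b S) := by
  intro q hq
  rcases testBit_step.1 hq with h | ⟨p, hp, hSp, h | h⟩
  · exact hS q h
  · obtain ⟨x, rfl, h', hh', hx⟩ := hS p hSp
    refine ⟨ga x, ?_, ga * h', K.mul_mem hga hh', by rw [Equiv.Perm.mul_apply, hx]⟩
    rw [h]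
    exact ha x
  · obtain ⟨x, rfl, h', hh', hx⟩ := hS p hSp
    refine ⟨gb x, ?_, gb * h', K.mul_mem hgb hh', by rw [Equiv.Perm.mul_apply, hx]⟩
    rw [h]
    exact hb x

theorem good_iter (hga : ga ∈ K) (hgb : gb ∈ K) (ha : RepW 12 4095 ga a) (hb : RepW 12 4095 gb b)
    {r : Fin 4060} : ∀ (d S : ℕ), Good K r S → Good K r (iter a b d S) := by
  intro d
  induction d with
  | zero =>
    intro S hS
    exact hS
  | succ d ih =>
    intro S hS
    rw [iter, letN_eq]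
    exact ih _ (good_step hga hgb ha hb hS)

theorem good_start (r : Fin 4060) : Good K r (Nat.pow 2 r.val) := by
  intro p hp
  have h1 : p = r.val := by
    have h2 : (2 ^ r.val).testBit p = true := hp
    rw [Nat.testBit_two_pow] at h2
    simpa [eq_comm] using h2
  exact ⟨r, h1.symm, 1, K.one_mem, rfl⟩

theorem reach_of_iter (hga : ga ∈ K) (hgb : gb ∈ K) (ha : RepW 12 4095 ga a) (hb : RepW 12 4095 gb b)
    {r' d m : ℕ} (hr : r' < 4060) (h : Nat.beq (iter a b d (Nat.pow 2 r')) m = true) :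
    ∀ y ∈ mk m, ∃ k ∈ K, k ⟨r', hr⟩ = y := by
  intro y hy
  have e := Nat.eq_of_beq_eq_true h
  rw [mem_mk, ← e] at hy
  obtain ⟨x, hx, h', hh', hxy⟩ := good_iter hga hgb ha hb d _ (good_start (K := K) ⟨r', hr⟩) _ hy
  have : x = y := Fin.ext hx
  exact ⟨h', hh', hxy.trans this⟩

theorem trans_of_reach {Y : Finset (Fin 4060)} {r : Fin 4060} (hr : ∀ y ∈ Y, ∃ k ∈ K, k r = y) :
    ∀ x ∈ Y, ∀ y ∈ Y, ∃ k ∈ K, k x = y := by
  intro x hx y hy
  obtain ⟨h1, m1, e1⟩ := hr x hx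
  obtain ⟨h2, m2, e2⟩ := hr y hy
  refine ⟨h2 * h1⁻¹, K.mul_mem m2 (K.inv_mem m1), ?_⟩
  rw [Equiv.Perm.mul_apply, ← e1, inv_app, e2]

theorem closed_of_step (ha : RepW 12 4095 ga a) (hb : RepW 12 4095 gb b) {m : ℕ}
    (h : Nat.beq (step a b m) m = true) (x : Fin 4060) (hx : m.testBit x.val = true) :
    m.testBit (ga x).val = true ∧ m.testBit (gb x).val = true := by
  have e := Nat.eq_of_beq_eq_true h
  constructor
  · rw [← e]
    exact testBit_step.2 (Or.inr ⟨x.val, by omega, hx, Or.inl (ha x)⟩)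
  · rw [← e]
    exact testBit_step.2 (Or.inr ⟨x.val, by omega, hx, Or.inr (hb x)⟩)

theorem iff_of_maps {S : Finset (Fin 4060)} {g : Equiv.Perm (Fin 4060)} (h : ∀ y ∈ S, g y ∈ S)
    (y : Fin 4060) : g y ∈ S ↔ y ∈ S := by
  constructor
  · intro hy
    have h1 : S.map g.toEmbedding ⊆ S := by
      intro z hz
      obtain ⟨w, hw, rfl⟩ := Finset.mem_map.1 hz
      exact h w hw
    have h2 := Finset.eq_of_subset_of_card_le h1 (by rw [Finset.card_map])
    rw [← h2] at hy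
    obtain ⟨w, hw, e⟩ := Finset.mem_map.1 hy
    have e' : w = y := g.injective e
    rwa [← e']
  · exact h y

/-- the stabilizer of a set of points -/
def stS (S : Finset (Fin 4060)) : Subgroup (Equiv.Perm (Fin 4060)) where
  carrier := {g | ∀ y, g y ∈ S ↔ y ∈ S}
  mul_mem' := by
    intro a b ha hb y
    rw [Equiv.Perm.mul_apply, ha, hb]
  one_mem' := by
    intro y
    rfl
  inv_mem' := by
    intro a ha y
    rw [← ha (a⁻¹ y), app_inv]

theorem inv_grp {g : ℕ → Equiv.Perm (Fin 4060)} {lo : ℕ} {m : ℕ}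
    (ha : RepW 12 4095 (g lo) a) (hb : RepW 12 4095 (g (lo + 1)) b)
    (h : Nat.beq (step a b m) m = true) : ∀ k ∈ grp g lo 2, ∀ y ∈ mk m, k y ∈ mk m := by
  have hc : grp g lo 2 ≤ stS (mk m) := by
    rw [grp, genOf, Subgroup.closure_le]
    rintro x ⟨e, he, rfl⟩
    obtain ⟨h1, h2⟩ := List.mem_range'_1.mp he
    have h3 : e = lo ∨ e = lo + 1 := by omega
    rcases h3 with rfl | rfl
    · exact iff_of_maps (fun y hy => by
        rw [mem_mk] at hy ⊢
        exact (closed_of_step ha hb h y hy).1)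
    · exact iff_of_maps (fun y hy => by
        rw [mem_mk] at hy ⊢
        exact (closed_of_step ha hb h y hy).2)
  intro k hk y hy
  exact (hc hk y).2 hy

/-! ### the tables -/

open Cfsg.Agent.Lib.RuMain

/-- the letters -/
noncomputable abbrev G₀ : ℕ → Equiv.Perm (Fin 4060) := gH

/-- the two elements of the stabilizer of the point `1` -/
noncomputable abbrev ea : Equiv.Perm (Fin 4060) := prodW gH [177, 203, 158]
/-- the two elements of the stabilizer of the point `1` -/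
noncomputable abbrev eb : Equiv.Perm (Fin 4060) := prodW gH [179, 225, 216]
/-- an element moving `2` to `411` -/
noncomputable abbrev e0 : Equiv.Perm (Fin 4060) := prodW gH [140, 219]

open Cfsg.Agent.Lib.RuPTab in
theorem rep_g0' : RepW 12 4095 (prodW gH [140]) Tg0 :=
  repW_of_chk Cfsg.Agent.Lib.RuPMain.ctx (by decide +kernel)
open Cfsg.Agent.Lib.RuPTab in
theorem rep_g1' : RepW 12 4095 (prodW gH [141]) Tg1 :=
  repW_of_chk Cfsg.Agent.Lib.RuPMain.ctx (by decide +kernel)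
open Cfsg.Agent.Lib.RuPTab in
theorem rep_k0' : RepW 12 4095 (prodW gH [232]) Tk0 :=
  repW_of_chk Cfsg.Agent.Lib.RuPMain.ctx (by decide +kernel)
open Cfsg.Agent.Lib.RuPTab in
theorem rep_k1' : RepW 12 4095 (prodW gH [233]) Tk1 :=
  repW_of_chk Cfsg.Agent.Lib.RuPMain.ctx (by decide +kernel)
open Cfsg.Agent.Lib.RuPTab in
theorem rep_a : RepW 12 4095 ea Ta :=
  repW_of_chk Cfsg.Agent.Lib.RuPMain.ctx (by decide +kernel)
open Cfsg.Agent.Lib.RuPTab in
theorem rep_b : RepW 12 4095 eb Tb :=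
  repW_of_chk Cfsg.Agent.Lib.RuPMain.ctx (by decide +kernel)
open Cfsg.Agent.Lib.RuPTab in
theorem rep_h : RepW 12 4095 e0 Th :=
  repW_of_chk Cfsg.Agent.Lib.RuPMain.ctx (by decide +kernel)

theorem rep_g0 : RepW 12 4095 (gH 140) Tg0 := by
  have h := rep_g0'
  simpa only [prodW_cons, prodW_nil, mul_one] using h
theorem rep_g1 : RepW 12 4095 (gH 141) Tg1 := by
  have h := rep_g1'
  simpa only [prodW_cons, prodW_nil, mul_one] using h
theorem rep_k0 : RepW 12 4095 (gH 232) Tk0 := by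
  have h := rep_k0'
  simpa only [prodW_cons, prodW_nil, mul_one] using h
theorem rep_k1 : RepW 12 4095 (gH 233) Tk1 := by
  have h := rep_k1'
  simpa only [prodW_cons, prodW_nil, mul_one] using h

/-! ### the groups -/

theorem Lk : Level (grp gH 140 2) (grp gH 232 2) ⟨2, by norm_num⟩
    (fun p => prodW gH (Cfsg.Agent.Lib.RuPTab.tw1 p.val)) (orbF 4060 Cfsg.Agent.Lib.RuPTab.Om1) :=
  (Cfsg.Agent.Lib.RuPMain.lev1).2

theorem letH {e : ℕ} (he : 140 ≤ e) : gH e ∈ grp gH 140 2 := (Cfsg.Agent.Lib.RuPMain.lev1).1 e he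

theorem wordH {w : List ℕ} (h : w.all (Nat.ble 140) = true) : prodW gH w ∈ grp gH 140 2 :=
  prodW_mem (Cfsg.Agent.Lib.RuPMain.lev1).1 h

theorem mem_K {h : Equiv.Perm (Fin 4060)} (hh : h ∈ grp gH 140 2) (h2 : h 2 = 2) : h ∈ grp gH 232 2 := by
  rw [Lk.stab]
  exact ⟨hh, h2⟩

theorem K_H {h : Equiv.Perm (Fin 4060)} (hh : h ∈ grp gH 232 2) : h ∈ grp gH 140 2 := Lk.le hh

theorem K_fix {h : Equiv.Perm (Fin 4060)} (hh : h ∈ grp gH 232 2) : h 2 = 2 := Lk.fix h hh

theorem K_g0 : gH 232 ∈ grp gH 232 2 := gen_mem_grp _ (by norm_num) (by norm_num)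
theorem K_g1 : gH 233 ∈ grp gH 232 2 := gen_mem_grp _ (by norm_num) (by norm_num)
theorem H_g0 : gH 140 ∈ grp gH 140 2 := gen_mem_grp _ (by norm_num) (by norm_num)
theorem H_g1 : gH 141 ∈ grp gH 140 2 := gen_mem_grp _ (by norm_num) (by norm_num)

/-- the stabilizer of the point `1` in the group -/
noncomputable def L₀ : Subgroup (Equiv.Perm (Fin 4060)) :=
  grp gH 140 2 ⊓ MulAction.stabilizer (Equiv.Perm (Fin 4060)) (1 : Fin 4060)

theorem mem_L {h : Equiv.Perm (Fin 4060)} : h ∈ L₀ ↔ h ∈ grp gH 140 2 ∧ h 1 = 1 := by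
  rw [L₀, Subgroup.mem_inf, MulAction.mem_stabilizer_iff, Equiv.Perm.smul_def]

theorem chk_a1 : Nat.beq (im Ta 1) 1 = true := by decide +kernel
theorem chk_b1 : Nat.beq (im Tb 1) 1 = true := by decide +kernel
theorem chk_h2 : Nat.beq (im Th 2) 411 = true := by decide +kernel

theorem L_a : ea ∈ L₀ := by
  refine mem_L.2 ⟨wordH (by decide), Fin.ext ?_⟩
  rw [rep_a 1]
  exact Nat.eq_of_beq_eq_true chk_a1

theorem L_b : eb ∈ L₀ := by
  refine mem_L.2 ⟨wordH (by decide), Fin.ext ?_⟩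
  rw [rep_b 1]
  exact Nat.eq_of_beq_eq_true chk_b1

theorem h_2 : e0 2 = 411 := by
  refine Fin.ext ?_
  rw [rep_h 2]
  exact Nat.eq_of_beq_eq_true chk_h2

/-! ### transitivity -/

theorem rH {r' d m : ℕ} (hr : r' < 4060) (h : Nat.beq (iter Tg0 Tg1 d (Nat.pow 2 r')) m = true) :
    ∀ y ∈ mk m, ∃ k ∈ grp gH 140 2, k ⟨r', hr⟩ = y :=
  reach_of_iter H_g0 H_g1 rep_g0 rep_g1 hr h

theorem tK {r' d m : ℕ} (hr : r' < 4060) (h : Nat.beq (iter Tk0 Tk1 d (Nat.pow 2 r')) m = true) :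
    ∀ x ∈ mk m, ∀ y ∈ mk m, ∃ k ∈ grp gH 140 2, k 2 = 2 ∧ k x = y := by
  intro x hx y hy
  obtain ⟨k, hk, e⟩ := trans_of_reach (reach_of_iter K_g0 K_g1 rep_k0 rep_k1 hr h) x hx y hy
  exact ⟨k, K_H hk, K_fix hk, e⟩

theorem tL {r' d m : ℕ} (hr : r' < 4060) (h : Nat.beq (iter Ta Tb d (Nat.pow 2 r')) m = true) :
    ∀ x ∈ mk m, ∀ y ∈ mk m, ∃ k ∈ grp gH 140 2, k 1 = 1 ∧ k x = y := by
  intro x hx y hy
  obtain ⟨k, hk, e⟩ := trans_of_reach (reach_of_iter L_a L_b rep_a rep_b hr h) x hx y hy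
  exact ⟨k, (mem_L.1 hk).1, (mem_L.1 hk).2, e⟩

theorem iH {m : ℕ} (h : Nat.beq (step Tg0 Tg1 m) m = true) :
    ∀ k ∈ grp gH 140 2, ∀ y ∈ mk m, k y ∈ mk m :=
  inv_grp rep_g0 rep_g1 h

theorem iK {m : ℕ} (h : Nat.beq (step Tk0 Tk1 m) m = true) :
    ∀ k ∈ grp gH 140 2, k 2 = 2 → ∀ y ∈ mk m, k y ∈ mk m := by
  intro k hk h2
  exact inv_grp rep_k0 rep_k1 h k (mem_K hk h2)

/-! ### the kernel checks -/

theorem c_B : Nat.beq (iter Tg0 Tg1 14 (Nat.pow 2 2)) Bm = true := by decide +kernel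
theorem c_C : Nat.beq (iter Tg0 Tg1 14 (Nat.pow 2 1)) Cm = true := by decide +kernel
theorem c_Y1 : Nat.beq (iter Tk0 Tk1 4 (Nat.pow 2 411)) Y1m = true := by decide +kernel
theorem c_Y2 : Nat.beq (iter Tk0 Tk1 8 (Nat.pow 2 93)) Y2m = true := by decide +kernel
theorem c_Y3 : Nat.beq (iter Tk0 Tk1 12 (Nat.pow 2 6)) Y3m = true := by decide +kernel
theorem c_Y4 : Nat.beq (iter Tk0 Tk1 12 (Nat.pow 2 10)) Y4m = true := by decide +kernel
theorem c_Z1 : Nat.beq (iter Tk0 Tk1 13 (Nat.pow 2 1)) Z1m = true := by decide +kernel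
theorem c_Z2 : Nat.beq (iter Tk0 Tk1 13 (Nat.pow 2 3)) Z2m = true := by decide +kernel
theorem c_V1 : Nat.beq (iter Ta Tb 12 (Nat.pow 2 2)) V1m = true := by decide +kernel
theorem c_V2 : Nat.beq (iter Ta Tb 13 (Nat.pow 2 6)) V2m = true := by decide +kernel
theorem c_W1 : Nat.beq (iter Ta Tb 8 (Nat.pow 2 39)) W1m = true := by decide +kernel
theorem c_W2 : Nat.beq (iter Ta Tb 11 (Nat.pow 2 3)) W2m = true := by decide +kernel
theorem c_W3 : Nat.beq (iter Ta Tb 10 (Nat.pow 2 5)) W3m = true := by decide +kernel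
theorem c_W4 : Nat.beq (iter Ta Tb 12 (Nat.pow 2 9)) W4m = true := by decide +kernel
theorem c_W5 : Nat.beq (iter Ta Tb 13 (Nat.pow 2 4)) W5m = true := by decide +kernel

theorem s_B : Nat.beq (step Tg0 Tg1 Bm) Bm = true := by decide +kernel
theorem s_C : Nat.beq (step Tg0 Tg1 Cm) Cm = true := by decide +kernel
theorem s_Y1 : Nat.beq (step Tk0 Tk1 Y1m) Y1m = true := by decide +kernel
theorem s_Y2 : Nat.beq (step Tk0 Tk1 Y2m) Y2m = true := by decide +kernel
theorem s_Y3 : Nat.beq (step Tk0 Tk1 Y3m) Y3m = true := by decide +kernel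

theorem e_B : Bm = Nat.lor (Nat.pow 2 2) (Nat.lor Y1m (Nat.lor Y2m (Nat.lor Y3m Y4m))) := by
  decide +kernel
theorem e_B2 : Nat.land (Nat.pow 2 2) (Nat.lor Y1m (Nat.lor Y2m (Nat.lor Y3m Y4m))) = 0 := by
  decide +kernel
theorem e_C : Cm = Nat.lor Z1m Z2m := by decide +kernel
theorem e_BV : Bm = Nat.lor V1m V2m := by decide +kernel
theorem e_CW : Cm = Nat.lor (Nat.pow 2 1) (Nat.lor W1m (Nat.lor W2m (Nat.lor W3m (Nat.lor W4m W5m)))) := by
  decide +kernel
theorem e_CW2 : Nat.land (Nat.pow 2 1) (Nat.lor W1m (Nat.lor W2m (Nat.lor W3m (Nat.lor W4m W5m)))) = 0 := by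
  decide +kernel
theorem e_all : Nat.lor (Nat.pow 2 0) (Nat.lor Bm Cm) = 2 ^ 4060 - 1 := by decide +kernel

end Cfsg.Agent.Lib.RuRkP6C
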