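import Mathlib

/-!
# Generic lemmas: sums over unions of orbits, a bit-by-bit search, centralizers from a pattern
-/

set_option autoImplicit false
set_option linter.style.haveILetI false

namespace Cfsg.Agent.Lib.RuRkP7

open Finset

/-- A sum over a union of fibers of `orb`. -/
theorem sum_orb {S B₀ : Finset (Fin 4060)} {orb : Fin 4060 → ℕ} {m : ℕ} (hS : S ⊆ B₀)
    (horb : ∀ y ∈ B₀, orb y < m)
    (haon : ∀ y ∈ B₀, ∀ y' ∈ B₀, orb y = orb y' → (y ∈ S ↔ y' ∈ S)) :
    ∃ c : ℕ → Bool, (∀ y ∈ B₀, y ∈ S ↔ c (orb y) = true) ∧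
      ∀ w : ℕ → ℕ, ∑ y ∈ S, w (orb y) =
        ∑ j ∈ Finset.range m, (if c j then (B₀.filter (fun y => orb y = j)).card * w j else 0) := by
  classical
  let c : ℕ → Bool := fun j => decide (∃ y ∈ S, orb y = j)
  have hc : ∀ j, c j = true ↔ ∃ y ∈ S, orb y = j := fun j => by simp [c]
  refine ⟨c, ?_, ?_⟩
  · intro y hy
    rw [hc]
    constructor
    · intro h
      exact ⟨y, h, rfl⟩
    · rintro ⟨y', hy', he⟩
      exact (haon y' (hS hy') y hy he).1 hy'
  · intro w
    have hmaps : ∀ y ∈ S, orb y ∈ Finset.range m := fun y hy =>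
      Finset.mem_range.2 (horb y (hS hy))
    rw [← Finset.sum_fiberwise_of_maps_to hmaps]
    apply Finset.sum_congr rfl
    intro j _
    by_cases hcj : c j = true
    · rw [if_pos hcj]
      obtain ⟨y₀, hy₀, he₀⟩ := (hc j).1 hcj
      have hf : S.filter (fun y => orb y = j) = B₀.filter (fun y => orb y = j) := by
        ext y
        simp only [Finset.mem_filter]
        constructor
        · rintro ⟨h1, h2⟩
          exact ⟨hS h1, h2⟩
        · rintro ⟨h1, h2⟩
          exact ⟨(haon y₀ (hS hy₀) y h1 (he₀.trans h2.symm)).1 hy₀, h2⟩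
      rw [hf, Finset.sum_congr rfl (g := fun _ => w j)]
      · rw [Finset.sum_const, smul_eq_mul]
      · intro y hy
        rw [(Finset.mem_filter.1 hy).2]
    · have hcj' : c j = false := by simpa using hcj
      rw [if_neg (by simp [hcj'])]
      apply Finset.sum_eq_zero
      intro y hy
      exact absurd ((hc j).2 ⟨y, (Finset.mem_filter.1 hy).1, (Finset.mem_filter.1 hy).2⟩) hcj

/-- an equation between two sums selected by bits -/
abbrev Eqn := List (ℕ × ℕ) × List (ℕ × ℕ)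

/-- the sum of the weights whose bit is set in `M` -/
def evalS (M : ℕ) (l : List (ℕ × ℕ)) : ℕ :=
  l.foldr (fun p acc => Nat.add (cond (Nat.testBit M p.1) p.2 0) acc) 0

/-- `M` satisfies the equation -/
def sat (M : ℕ) (q : Eqn) : Bool := Nat.beq (evalS M q.1) (evalS M q.2)

/-- bit-by-bit search: all solutions are in `Sol` -/
def go (E : ℕ → List Eqn) (Sol : List ℕ) : ℕ → ℕ → ℕ → Bool
  | 0, _, m => Sol.contains m
  | f + 1, k, m =>
      (!(E k).all (sat m) || go E Sol f (k + 1) m) &&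
        (!(E k).all (sat (m + 2 ^ k)) || go E Sol f (k + 1) (m + 2 ^ k))

theorem evalS_congr {M₁ M₂ : ℕ} {l : List (ℕ × ℕ)}
    (h : ∀ p ∈ l, Nat.testBit M₁ p.1 = Nat.testBit M₂ p.1) : evalS M₁ l = evalS M₂ l := by
  induction l with
  | nil => rfl
  | cons p l ih =>
    have h1 := h p (List.mem_cons_self ..)
    have h2 := ih (fun p' hp' => h p' (List.mem_cons_of_mem _ hp'))
    simp only [evalS, List.foldr_cons] at h2 ⊢
    rw [h1, h2]

theorem sat_congr {M₁ M₂ : ℕ} {q : Eqn}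
    (h : ∀ p ∈ q.1 ++ q.2, Nat.testBit M₁ p.1 = Nat.testBit M₂ p.1) : sat M₁ q = sat M₂ q := by
  unfold sat
  rw [evalS_congr (fun p hp => h p (List.mem_append_left _ hp)),
    evalS_congr (fun p hp => h p (List.mem_append_right _ hp))]

private theorem mod_succ (M k : ℕ) :
    M % 2 ^ (k + 1) = M % 2 ^ k ∨ M % 2 ^ (k + 1) = M % 2 ^ k + 2 ^ k := by
  rw [Nat.mod_pow_succ]
  have h : (M / 2 ^ k) % 2 = 0 ∨ (M / 2 ^ k) % 2 = 1 := by omega
  rcases h with h | h
  · left
    rw [h]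
    simp
  · right
    rw [h]
    simp

private theorem go_aux (E : ℕ → List Eqn) (Sol : List ℕ)
    (hE : ∀ d, ∀ q ∈ E d, ∀ p ∈ q.1 ++ q.2, p.1 ≤ d) {N M : ℕ} (hM : M < 2 ^ N)
    (hsat : ∀ d < N, ∀ q ∈ E d, sat M q = true) :
    ∀ (f k : ℕ), k + f = N → go E Sol f k (M % 2 ^ k) = true → M ∈ Sol := by
  intro f
  induction f with
  | zero =>
    intro k hk h
    have hk' : k = N := by omega
    subst hk'
    rw [go, Nat.mod_eq_of_lt hM] at h
    simpa using h
  | succ f ih =>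
    intro k hk h
    have hkN : k < N := by omega
    have hall : ∀ m', m' = M % 2 ^ (k + 1) → (E k).all (sat m') = true := by
      rintro m' rfl
      rw [List.all_eq_true]
      intro q hq
      rw [sat_congr (M₂ := M), hsat k hkN q hq]
      intro p hp
      have hp' := hE k q hq p hp
      rw [Nat.testBit_mod_two_pow]
      have : p.1 < k + 1 := by omega
      simp [this]
    rw [go, Bool.and_eq_true, Bool.or_eq_true, Bool.or_eq_true] at h
    apply ih (k + 1) (by omega)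
    rcases mod_succ M k with he | he
    · rcases h.1 with h1 | h1
      · rw [hall _ he.symm] at h1
        exact absurd h1 (by decide)
      · rw [he]
        exact h1
    · rcases h.2 with h1 | h1
      · rw [hall _ he.symm] at h1
        exact absurd h1 (by decide)
      · rw [he]
        exact h1

/-- The search `go` finds all solutions. -/
theorem go_spec (E : ℕ → List Eqn) (Sol : List ℕ) (N : ℕ)
    (hE : ∀ d, ∀ q ∈ E d, ∀ p ∈ q.1 ++ q.2, p.1 ≤ d) :
    go E Sol N 0 0 = true →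
      ∀ M, M < 2 ^ N → (∀ d < N, ∀ q ∈ E d, sat M q = true) → M ∈ Sol := by
  intro h M hM hsat
  refine go_aux E Sol hE hM hsat N 0 (by omega) ?_
  have : M % 2 ^ 0 = 0 := by simp [Nat.mod_one]
  rw [this]
  exact h

/-- Centralizer of an element from a unique pattern of a relation. -/
theorem centr_of_uniq {n : ℕ} (H : Subgroup (Equiv.Perm (Fin n))) (A : Fin n → Fin n → Prop)
    (hA : ∀ h ∈ H, ∀ x y, A (h x) (h y) ↔ A x y) (r : H) (q : Fin n) (hr13 : r ^ 13 = 1)
    (hq : ∀ y : H, (∀ i : ℕ, A (y.1 q) ((r.1 ^ i) (y.1 q)) ↔ A q ((r.1 ^ i) q)) →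
      ∃ j : ℕ, y.1 q = (r.1 ^ j) q)
    (F₀ : List (Fin n)) (hF₀ : ∀ x ∈ F₀, ∃ i : ℕ, x = (r.1 ^ i) q)
    (L₁ : List (Fin n)) (hL₁ : ∀ x ∈ L₁, ∀ w, (∀ f ∈ F₀, A f w ↔ A f x) → w = x)
    (hall : ∀ w w' : Fin n, (∀ f ∈ F₀ ++ L₁, A f w ↔ A f w') → w = w') :
    ∀ y : H, y * r = r * y → y ∈ Subgroup.zpowers r := by
  intro y hy
  have hcomm : Commute y.1 r.1 := by
    have := congrArg Subtype.val hy
    exact this
  have hci : ∀ i : ℕ, ∀ x, y.1 ((r.1 ^ i) x) = (r.1 ^ i) (y.1 x) := by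
    intro i x
    have h1 := (hcomm.pow_right i).eq
    have h2 := congrArg (fun f : Equiv.Perm (Fin n) => f x) h1
    exact h2
  obtain ⟨j, hj⟩ := hq y (fun i => by
    rw [← hci i q]
    exact hA y.1 y.2 _ _)
  -- `y' = r^(-j) y`
  let y' : H := (r ^ j)⁻¹ * y
  have hy'val : y'.1 = (r.1 ^ j)⁻¹ * y.1 := by
    simp [y']
  have hy'q : y'.1 q = q := by
    rw [hy'val, Equiv.Perm.mul_apply, hj]
    simp
  have hcomm' : Commute y'.1 r.1 := by
    rw [hy'val]
    exact ((Commute.refl r.1).pow_left j).inv_left.mul_left hcomm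
  have hfix : ∀ i : ℕ, y'.1 ((r.1 ^ i) q) = (r.1 ^ i) q := by
    intro i
    have h1 := (hcomm'.pow_right i).eq
    have h2 := congrArg (fun f : Equiv.Perm (Fin n) => f q) h1
    have h3 : y'.1 ((r.1 ^ i) q) = (r.1 ^ i) (y'.1 q) := h2
    rw [h3, hy'q]
  have hF : ∀ f ∈ F₀, y'.1 f = f := by
    intro f hf
    obtain ⟨i, rfl⟩ := hF₀ f hf
    exact hfix i
  have hpat : ∀ f, y'.1 f = f → ∀ w, (A f (y'.1 w) ↔ A f w) := by
    intro f hf w
    have := hA y'.1 y'.2 f w
    rwa [hf] at this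
  have hL : ∀ x ∈ L₁, y'.1 x = x := by
    intro x hx
    exact hL₁ x hx _ (fun f hf => hpat f (hF f hf) x)
  have hFL : ∀ f ∈ F₀ ++ L₁, y'.1 f = f := by
    intro f hf
    rcases List.mem_append.1 hf with h | h
    · exact hF f h
    · exact hL f h
  have hone : y'.1 = 1 := by
    ext w
    have := hall (y'.1 w) w (fun f hf => hpat f (hFL f hf) w)
    rw [this]
    rfl
  have hy1 : y' = 1 := Subtype.ext hone
  have hyr : y = r ^ j := by
    have h1 : (r ^ j)⁻¹ * y = 1 := hy1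
    exact (inv_mul_eq_one.1 h1).symm
  rw [hyr]
  exact Subgroup.pow_mem _ (Subgroup.mem_zpowers r) j

end Cfsg.Agent.Lib.RuRkP7
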